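import Mathlib
import Cfsg.Agent.LibSqMap
import Cfsg.Agent.LibFPF2
import Cfsg.Agent.LibCores

set_option autoImplicit false

/-!
Structure lemmas for Thompson's theorem on solvable groups with one class of involutions (helper4).
-/

namespace CfsgLib.OneInv

open Subgroup
open scoped commutatorElement Pointwise

variable {G : Type*} [Group G]

/-- telescoping -/
theorem tele {t x z : G} (h : t * x * t⁻¹ = x * z) (hz : t * z = z * t) {m k : ℕ} (htm : t ^ m = 1)
    (hzk : z ^ k = 1) (hmk : m.Coprime k) : z = 1 := by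
  have h1 : ∀ i : ℕ, t ^ i * x * (t ^ i)⁻¹ = x * z ^ i := by
    intro i
    induction i with
    | zero => simp
    | succ i ih =>
      calc t ^ (i + 1) * x * (t ^ (i + 1))⁻¹ = t * (t ^ i * x * (t ^ i)⁻¹) * t⁻¹ := by
            rw [pow_succ']; group
        _ = t * (x * z ^ i) * t⁻¹ := by rw [ih]
        _ = (t * x * t⁻¹) * (t * z ^ i * t⁻¹) := by group
        _ = (x * z) * (t * z ^ i * t⁻¹) := by rw [h]
        _ = (x * z) * z ^ i := by
            have : Commute t z := hz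
            rw [(this.pow_right i).eq]; group
        _ = x * z ^ (i + 1) := by rw [pow_succ', mul_assoc]
  have h2 := h1 m
  rw [htm, one_mul, inv_one, mul_one] at h2
  have h3 : z ^ m = 1 := (mul_eq_left.1 h2.symm)
  have h4 : orderOf z ∣ m := orderOf_dvd_of_pow_eq_one h3
  have h5 : orderOf z ∣ k := orderOf_dvd_of_pow_eq_one hzk
  have h6 : orderOf z ∣ 1 := by
    rw [← Nat.Coprime.gcd_eq_one hmk]; exact Nat.dvd_gcd h4 h5
  exact orderOf_eq_one_iff.1 (Nat.dvd_one.1 h6)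

/-- telescoping, for an odd order element and a `2`-subgroup -/
theorem tele2 [Finite G] {T D : Subgroup G} (hT : (Nat.card T).Coprime 2) (hD : IsPGroup 2 D) [D.Normal]
    {t x : G} (ht : t ∈ T) (hx : x ∈ D) (hz : t * (x⁻¹ * (t * x * t⁻¹)) = (x⁻¹ * (t * x * t⁻¹)) * t) : t * x = x * t := by
  have hzD : x⁻¹ * (t * x * t⁻¹) ∈ D := mul_mem (inv_mem hx) ((inferInstance : D.Normal).conj_mem x hx t)
  obtain ⟨n, hn⟩ := hD ⟨_, hzD⟩
  have hn' : (x⁻¹ * (t * x * t⁻¹)) ^ (2 ^ n) = 1 := congrArg Subtype.val hn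
  have htm : t ^ (Nat.card T) = 1 := by
    have := pow_card_eq_one' (x := (⟨t, ht⟩ : T))
    exact congrArg Subtype.val this
  have h1 := tele (t := t) (x := x) (z := x⁻¹ * (t * x * t⁻¹)) (by group) hz htm hn' (Nat.Coprime.pow_right n hT)
  have h2 : t * x * t⁻¹ = x := by
    have := inv_mul_eq_one.1 h1
    exact this.symm
  calc t * x = (t * x * t⁻¹) * t := by group
    _ = x * t := by rw [h2]

theorem class2 {D : Subgroup G} (h : ∀ x ∈ D, ∀ y ∈ D, Commute (x ^ 2) y) {x y : G} (hx : x ∈ D) (hy : y ∈ D) :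
    (∀ z ∈ D, Commute ⁅x, y⁆ z) ∧ ⁅x, y⁆ ^ 2 = 1 := by
  have e : ⁅x, y⁆ = x ^ 2 * (x⁻¹ * y) ^ 2 * (y⁻¹) ^ 2 := by
    rw [commutatorElement_def, pow_two, pow_two, pow_two]; group
  have h1 : ∀ z ∈ D, Commute ⁅x, y⁆ z := by
    intro z hz
    rw [e]
    exact ((h x hx z hz).mul_left (h _ (mul_mem (inv_mem hx) hy) z hz)).mul_left (h _ (inv_mem hy) z hz)
  refine ⟨h1, ?_⟩
  have hc := h1 x hx
  have hx2 := h x hx y hy
  have e1 : x * y = ⁅x, y⁆ * y * x := by rw [commutatorElement_def]; group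
  have h2 : x ^ 2 * y = ⁅x, y⁆ ^ 2 * (y * x ^ 2) := by
    calc x ^ 2 * y = x * (x * y) := by rw [pow_two, mul_assoc]
      _ = x * (⁅x, y⁆ * y * x) := by rw [← e1]
      _ = (x * ⁅x, y⁆) * (y * x) := by simp only [mul_assoc]
      _ = (⁅x, y⁆ * x) * (y * x) := by rw [hc.eq]
      _ = ⁅x, y⁆ * (x * y) * x := by simp only [mul_assoc]
      _ = ⁅x, y⁆ * (⁅x, y⁆ * y * x) * x := by rw [← e1]
      _ = _ := by rw [pow_two, pow_two]; simp only [mul_assoc]
  rw [hx2.eq] at h2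
  exact (mul_eq_right.1 h2.symm)

/-- structure of a minimal non-centralised normal subgroup -/
theorem min_struct [Finite G] {D T : Subgroup G} [hDn : D.Normal] (hD : IsPGroup 2 D) (hT : (Nat.card T).Coprime 2)
    (hne : ¬ T ≤ Subgroup.centralizer (D : Set G))
    (hmin : ∀ E : Subgroup G, E.Normal → E < D → T ≤ Subgroup.centralizer (E : Set G)) :
    (∀ x ∈ D, ∀ y ∈ D, Commute (x ^ 2) y) ∧ (∀ x ∈ D, x ^ 4 = 1) := by
  -- reformulation of the centralising condition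
  have hcen : ∀ E : Subgroup G, T ≤ Subgroup.centralizer (E : Set G) ↔ ∀ t ∈ T, ∀ x ∈ E, t * x = x * t := by
    intro E
    constructor
    · intro h t ht x hx
      exact (Subgroup.mem_centralizer_iff.1 (h ht) x hx).symm
    · intro h t ht
      rw [Subgroup.mem_centralizer_iff]
      intro x hx
      exact (h t ht x hx).symm
  rw [hcen] at hne
  -- D is nontrivial
  have hD1 : D ≠ ⊥ := by
    rintro rfl
    apply hne
    intro t _ x hx
    rw [Subgroup.mem_bot.1 hx, mul_one, one_mul]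
  -- the squares
  set Sq : Subgroup G := Subgroup.closure {y | ∃ x ∈ D, y = x ^ 2} with hSq
  haveI hSqn : Sq.Normal := by
    rw [hSq]
    refine ⟨?_⟩
    intro n hn g
    induction hn using Subgroup.closure_induction with
    | mem y hy =>
      obtain ⟨x, hx, rfl⟩ := hy
      refine Subgroup.subset_closure ⟨g * x * g⁻¹, hDn.conj_mem x hx g, ?_⟩
      rw [conj_pow]
    | one => rw [mul_one, mul_inv_cancel]; exact one_mem _
    | mul a b _ _ ha hb =>
      have : g * (a * b) * g⁻¹ = (g * a * g⁻¹) * (g * b * g⁻¹) := by group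
      rw [this]; exact mul_mem ha hb
    | inv a _ ha =>
      have : g * a⁻¹ * g⁻¹ = (g * a * g⁻¹)⁻¹ := by group
      rw [this]; exact inv_mem ha
  have hSqD : Sq ≤ D := by
    rw [hSq, Subgroup.closure_le]
    rintro y ⟨x, hx, rfl⟩
    exact pow_mem hx 2
  have hSqne : Sq ≠ D := by
    intro heq
    -- D has a maximal subgroup of index 2
    haveI : Nontrivial D := (Subgroup.nontrivial_iff_ne_bot D).2 hD1
    obtain ⟨n, hn⟩ := IsPGroup.iff_card.mp hD
    have hn0 : n ≠ 0 := by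
      rintro rfl
      rw [pow_zero] at hn
      exact hD1 (Subgroup.card_eq_one.mp hn)
    obtain ⟨m, rfl⟩ : ∃ m, n = m + 1 := ⟨n - 1, by omega⟩
    haveI : Fact (Nat.Prime 2) := ⟨Nat.prime_two⟩
    obtain ⟨K, hK⟩ := Sylow.exists_subgroup_card_pow_prime (G := D) 2 (n := m) (by rw [hn]; exact pow_dvd_pow 2 (Nat.le_succ m))
    have hKi : K.index = 2 := by
      have h1 := K.card_mul_index
      rw [hK, hn, pow_succ] at h1
      exact Nat.eq_of_mul_eq_mul_left (by positivity) h1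
    have h2 : Sq ≤ K.map D.subtype := by
      rw [hSq, Subgroup.closure_le]
      rintro y ⟨x, hx, rfl⟩
      refine ⟨⟨x, hx⟩ ^ 2, ?_, rfl⟩
      exact Subgroup.sq_mem_of_index_two hKi ⟨x, hx⟩
    rw [heq] at h2
    have h3 := Subgroup.card_le_of_le h2
    rw [Subgroup.card_map_of_injective D.subtype_injective, hK, hn, pow_succ] at h3
    have : 0 < 2 ^ m := by positivity
    omega
  have hTSq : ∀ t ∈ T, ∀ x ∈ Sq, t * x = x * t := (hcen Sq).1 (hmin Sq hSqn (lt_of_le_of_ne hSqD hSqne))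
  -- D centralises Sq
  have hDSq : D ≤ Subgroup.centralizer (Sq : Set G) := by
    by_contra hnle
    have hlt : Subgroup.centralizer (Sq : Set G) ⊓ D < D := by
      refine lt_of_le_of_ne inf_le_right ?_
      intro h
      exact hnle (inf_eq_right.1 h)
    have h1 := (hcen _).1 (hmin _ inferInstance hlt)
    apply hne
    intro t ht x hx
    apply tele2 hT hD ht hx
    apply h1 t ht
    refine Subgroup.mem_inf.2 ⟨?_, mul_mem (inv_mem hx) (hDn.conj_mem x hx t)⟩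
    rw [Subgroup.mem_centralizer_iff]
    intro s hs
    -- s and x⁻¹ (t x t⁻¹)
    have e1 : t * (x * s * x⁻¹) = (x * s * x⁻¹) * t := hTSq t ht _ (hSqn.conj_mem s hs x)
    have e2 : t * s = s * t := hTSq t ht s hs
    have e3 : t⁻¹ * s = s * t⁻¹ := by
      have : Commute t s := e2
      exact this.inv_left.eq
    have e4 : t * x * t⁻¹ * s = (x * s * x⁻¹) * (t * x * t⁻¹) := by
      calc t * x * t⁻¹ * s = t * x * (t⁻¹ * s) := by group
        _ = t * x * (s * t⁻¹) := by rw [e3]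
        _ = (t * (x * s * x⁻¹)) * (x * t⁻¹) := by group
        _ = ((x * s * x⁻¹) * t) * (x * t⁻¹) := by rw [e1]
        _ = _ := by group
    calc s * (x⁻¹ * (t * x * t⁻¹)) = x⁻¹ * ((x * s * x⁻¹) * (t * x * t⁻¹)) := by group
      _ = x⁻¹ * (t * x * t⁻¹ * s) := by rw [e4]
      _ = _ := by group
  have hc : ∀ x ∈ D, ∀ y ∈ D, Commute (x ^ 2) y := by
    intro x hx y hy
    have h1 := Subgroup.mem_centralizer_iff.1 (hDSq hy) (x ^ 2) (Subgroup.subset_closure ⟨x, hx, rfl⟩)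
    exact h1
  refine ⟨hc, ?_⟩
  -- fourth powers
  have hpow2 : ∀ x ∈ D, ∀ y ∈ D, (x * y) ^ 2 = x ^ 2 * y ^ 2 * ⁅y, x⁆ := by
    intro x hx y hy
    have h1 := (class2 hc hy hx).1
    calc (x * y) ^ 2 = x * (y * x) * y := by rw [pow_two]; simp only [mul_assoc]
      _ = x * (⁅y, x⁆ * (x * y)) * y := by rw [commutatorElement_def]; group
      _ = (x * ⁅y, x⁆) * (x * y * y) := by simp only [mul_assoc]
      _ = (⁅y, x⁆ * x) * (x * y * y) := by rw [(h1 x hx).eq]
      _ = ⁅y, x⁆ * (x ^ 2 * y ^ 2) := by rw [pow_two, pow_two]; simp only [mul_assoc]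
      _ = _ := (h1 _ (mul_mem (pow_mem hx 2) (pow_mem hy 2))).eq
  have hpow4 : ∀ x ∈ D, ∀ y ∈ D, (x * y) ^ 4 = x ^ 4 * y ^ 4 := by
    intro x hx y hy
    have h1 := class2 hc hy hx
    have h2 : (x * y) ^ 4 = ((x * y) ^ 2) ^ 2 := by rw [← pow_mul]
    rw [h2, hpow2 x hx y hy]
    have h3 : Commute (x ^ 2 * y ^ 2) ⁅y, x⁆ := (h1.1 _ (mul_mem (pow_mem hx 2) (pow_mem hy 2))).symm
    rw [h3.mul_pow, h1.2, mul_one, (hc x hx (y ^ 2) (pow_mem hy 2)).mul_pow, ← pow_mul, ← pow_mul]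
  let E : Subgroup G :=
    { carrier := {x | x ∈ D ∧ x ^ 4 = 1}
      mul_mem' := by
        rintro a b ⟨ha, ha4⟩ ⟨hb, hb4⟩
        exact ⟨mul_mem ha hb, by rw [hpow4 a ha b hb, ha4, hb4, one_mul]⟩
      one_mem' := ⟨one_mem _, one_pow _⟩
      inv_mem' := by
        rintro a ⟨ha, ha4⟩
        exact ⟨inv_mem ha, by rw [inv_pow, ha4, inv_one]⟩ }
  have hEm : ∀ x, x ∈ E ↔ x ∈ D ∧ x ^ 4 = 1 := fun x => Iff.rfl
  haveI hEn : E.Normal := by
    refine ⟨?_⟩
    rintro a ⟨ha, ha4⟩ g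
    exact ⟨hDn.conj_mem a ha g, by rw [conj_pow, ha4, mul_one, mul_inv_cancel]⟩
  by_cases hED : E = D
  · intro x hx
    rw [← hED] at hx
    exact hx.2
  · exfalso
    have h1 := (hcen _).1 (hmin E hEn (lt_of_le_of_ne (fun x hx => hx.1) hED))
    apply hne
    intro t ht x hx
    apply tele2 hT hD ht hx
    apply h1 t ht
    set z := x⁻¹ * (t * x * t⁻¹) with hz
    have hzD : z ∈ D := mul_mem (inv_mem hx) (hDn.conj_mem x hx t)
    refine ⟨hzD, ?_⟩
    have e1 : (x * z) ^ 2 = x ^ 2 := by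
      have : x * z = t * x * t⁻¹ := by rw [hz]; group
      rw [this, conj_pow, hTSq t ht (x ^ 2) (Subgroup.subset_closure ⟨x, hx, rfl⟩), mul_inv_cancel_right]
    rw [hpow2 x hx z hzD, mul_assoc] at e1
    have e2 : z ^ 2 * ⁅z, x⁆ = 1 := (mul_eq_left.1 e1)
    have e3 : z ^ 2 = ⁅z, x⁆⁻¹ := eq_inv_of_mul_eq_one_left e2
    have e4 : z ^ 4 = (z ^ 2) ^ 2 := by rw [← pow_mul]
    rw [e4, e3, inv_pow, (class2 hc hzD hx).2, inv_one]

/-- squares in `D` -/
theorem sq_mul {D : Subgroup G} (h : ∀ x ∈ D, ∀ y ∈ D, Commute (x ^ 2) y) {x y : G} (hx : x ∈ D) (hy : y ∈ D) :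
    (x * y) ^ 2 = x ^ 2 * y ^ 2 * ⁅x, y⁆ := by
  have h1 := class2 h hx hy
  have h2 := class2 h hy hx
  have e : ⁅y, x⁆ = ⁅x, y⁆ := by
    have h3 : ⁅y, x⁆ = ⁅x, y⁆⁻¹ := (commutatorElement_inv x y).symm
    rw [h3]
    exact inv_eq_of_mul_eq_one_left (by rw [← pow_two]; exact h1.2)
  rw [← e]
  calc (x * y) ^ 2 = x * (y * x) * y := by rw [pow_two]; simp only [mul_assoc]
    _ = x * (⁅y, x⁆ * (x * y)) * y := by rw [commutatorElement_def]; group
    _ = (x * ⁅y, x⁆) * (x * y * y) := by simp only [mul_assoc]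
    _ = (⁅y, x⁆ * x) * (x * y * y) := by rw [(h2.1 x hx).eq]
    _ = ⁅y, x⁆ * (x ^ 2 * y ^ 2) := by rw [pow_two, pow_two]; simp only [mul_assoc]
    _ = _ := (h2.1 _ (mul_mem (pow_mem hx 2) (pow_mem hy 2))).eq

theorem comm_swap {D : Subgroup G} (h : ∀ x ∈ D, ∀ y ∈ D, Commute (x ^ 2) y) {x y : G} (hx : x ∈ D) (hy : y ∈ D) :
    ⁅y, x⁆ = ⁅x, y⁆ := by
  have h1 := class2 h hx hy
  have h3 : ⁅y, x⁆ = ⁅x, y⁆⁻¹ := (commutatorElement_inv x y).symm
  rw [h3]
  exact inv_eq_of_mul_eq_one_left (by rw [← pow_two]; exact h1.2)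

theorem comm_mul_left {D : Subgroup G} (h : ∀ x ∈ D, ∀ y ∈ D, Commute (x ^ 2) y) {x y z : G} (hx : x ∈ D) (hy : y ∈ D)
    (hz : z ∈ D) : ⁅x * y, z⁆ = ⁅x, z⁆ * ⁅y, z⁆ := by
  have h1 := (class2 h hy hz).1 x hx
  calc ⁅x * y, z⁆ = x * ⁅y, z⁆ * z * x⁻¹ * z⁻¹ := by rw [commutatorElement_def, commutatorElement_def]; group
    _ = ⁅y, z⁆ * x * z * x⁻¹ * z⁻¹ := by rw [h1.eq]
    _ = ⁅y, z⁆ * ⁅x, z⁆ := by rw [commutatorElement_def x z]; group
    _ = _ := ((class2 h hy hz).1 ⁅x, z⁆ (mul_mem (mul_mem (mul_mem hx hz) (inv_mem hx)) (inv_mem hz))).eq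

theorem comm_mul_right {D : Subgroup G} (h : ∀ x ∈ D, ∀ y ∈ D, Commute (x ^ 2) y) {x y z : G} (hx : x ∈ D) (hy : y ∈ D)
    (hz : z ∈ D) : ⁅x, y * z⁆ = ⁅x, y⁆ * ⁅x, z⁆ := by
  rw [comm_swap h (mul_mem hy hz) hx, comm_mul_left h hy hz hx, comm_swap h hx hy, comm_swap h hx hz]

/-- the counting dichotomy -/
theorem D_struct [Finite G] {Ω D : Subgroup G} [hDn : D.Normal] (hD : IsPGroup 2 D) (hΩD : Ω ≤ D)
    (hΩ : ∀ w, w ∈ Ω ↔ w ^ 2 = 1) (hΩc : ∀ w ∈ Ω, ∀ x ∈ D, Commute w x)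
    (hc : ∀ x ∈ D, ∀ y ∈ D, Commute (x ^ 2) y) (h4 : ∀ x ∈ D, x ^ 4 = 1)
    (hconj : ∀ x y : G, x ≠ 1 → x ^ 2 = 1 → y ≠ 1 → y ^ 2 = 1 → IsConj x y)
    (hΩ1 : Ω ≠ ⊥) (hne : Ω ≠ D) :
    (∀ x ∈ D, ∀ y ∈ D, x ^ 2 = y ^ 2 → x ∉ Ω → x⁻¹ * y ∈ Ω) ∨
    (Nat.card D = Nat.card Ω * Nat.card Ω ^ 2 ∧ ∀ u ∈ D, u ∉ Ω → ∀ w ∈ Ω, ∃ y ∈ D, ⁅u, y⁆ = w) := by
  haveI : Fact (Nat.Prime 2) := ⟨Nat.prime_two⟩
  have hsq : ∀ x ∈ D, x ^ 2 ∈ Ω := by
    intro x hx
    rw [hΩ, ← pow_mul]; exact h4 x hx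
  have hcm : ∀ x ∈ D, ∀ y ∈ D, ⁅x, y⁆ ∈ Ω := by
    intro x hx y hy
    rw [hΩ]; exact (class2 hc hx hy).2
  have hΩp : IsPGroup 2 Ω := hD.to_le hΩD
  obtain ⟨n, hn⟩ := IsPGroup.iff_card.mp hΩp
  obtain ⟨d, hd⟩ := IsPGroup.iff_card.mp hD
  have hn1 : 1 ≤ n := by
    rcases Nat.eq_zero_or_pos n with h | h
    · rw [h, pow_zero] at hn
      exact absurd (Subgroup.card_eq_one.mp hn) hΩ1
    · exact h
  let s : D → Ω := fun x => ⟨(x : G) ^ 2, hsq x x.2⟩
  let b : D → D → Ω := fun x y => ⟨⁅(x : G), (y : G)⁆, hcm x x.2 y y.2⟩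
  set Z : Subgroup D := Ω.subgroupOf D with hZ
  have hZc : Nat.card Z = 2 ^ n := by
    rw [hZ, Nat.card_congr (Subgroup.subgroupOfEquivOfLe hΩD).toEquiv, hn]
  obtain ⟨w₀, hw₀, hw₀1⟩ := (Subgroup.ne_bot_iff_exists_ne_one).1 hΩ1 |>.elim fun w hw => (⟨w, w.2, fun h => hw (Subtype.ext h)⟩ : ∃ w : G, w ∈ Ω ∧ w ≠ 1)
  set k := Nat.card {x : D // s x = ⟨w₀, hw₀⟩} with hk
  have hfib : ∀ w : Ω, w ≠ 1 → Nat.card {x // s x = w} = k := by
    intro w hw
    have hw1 : (w : G) ≠ 1 := fun h => hw (Subtype.ext h)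
    have hcj := hconj w w₀ hw1 ((hΩ w).1 w.2) hw₀1 ((hΩ w₀).1 hw₀)
    obtain ⟨g, hg⟩ := isConj_iff.1 hcj
    rw [hk]
    refine Nat.card_congr ⟨fun x => ⟨⟨g * (x.1 : G) * g⁻¹, hDn.conj_mem _ x.1.2 g⟩, ?_⟩,
      fun x => ⟨⟨g⁻¹ * (x.1 : G) * g, by
        have := hDn.conj_mem _ x.1.2 g⁻¹
        rwa [inv_inv] at this⟩, ?_⟩, ?_, ?_⟩
    · apply Subtype.ext
      have h1 := congrArg Subtype.val x.2
      show (g * (x.1 : G) * g⁻¹) ^ 2 = w₀
      rw [conj_pow, ← hg]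
      congr 2
    · apply Subtype.ext
      have h1 : ((x.1 : D) : G) ^ 2 = w₀ := congrArg Subtype.val x.2
      show (g⁻¹ * (x.1 : G) * g) ^ 2 = w
      have h2 : (g⁻¹ * (x.1 : G) * g) ^ 2 = g⁻¹ * ((x.1 : G) ^ 2) * g := by
        rw [pow_two, pow_two]; group
      rw [h2, h1, ← hg]; group
    · intro x
      apply Subtype.ext; apply Subtype.ext
      show g⁻¹ * (g * (x.1 : G) * g⁻¹) * g = x.1
      group
    · intro x
      apply Subtype.ext; apply Subtype.ext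
      show g * (g⁻¹ * (x.1 : G) * g) * g⁻¹ = x.1
      group
  have hsZ : ∀ x : D, s x = 1 ↔ x ∈ Z := by
    intro x
    rw [hZ, Subgroup.mem_subgroupOf, hΩ]
    constructor
    · intro h; exact congrArg Subtype.val h
    · intro h; exact Subtype.ext h
  have hbZ : ∀ x : D, ∀ z ∈ Z, b x z = 1 := by
    intro x z hz
    apply Subtype.ext
    show ⁅(x : G), (z : G)⁆ = 1
    rw [commutatorElement_eq_one_iff_mul_comm]
    exact (hΩc z (by rw [hZ, Subgroup.mem_subgroupOf] at hz; exact hz) x x.2).eq.symm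
  have hZtop : Z ≠ ⊤ := by
    rw [hZ, Ne, Subgroup.subgroupOf_eq_top]
    intro h
    exact hne (le_antisymm hΩD h)
  have hss : ∀ x y : D, s (x * y) = s x * s y * b x y := by
    intro x y
    apply Subtype.ext
    exact sq_mul hc x.2 y.2
  rcases CfsgLib.SqMap.sq_count (D := D) (Ω := Ω) (fun a a' => Subtype.ext (hΩc a a.2 a' (hΩD a'.2)).eq)
    (fun w => Subtype.ext (by
      have := (hΩ w).1 w.2
      rw [pow_two] at this
      exact this)) s b
    (fun x y z => Subtype.ext (comm_mul_left hc x.2 y.2 z.2))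
    (fun x y z => Subtype.ext (comm_mul_right hc x.2 y.2 z.2)) hss
    (fun x y => Subtype.ext (by
      show ⁅(x : G), (y : G)⁆ * ⁅(y : G), (x : G)⁆ = 1
      rw [← commutatorElement_inv (y : G) (x : G), inv_mul_cancel]))
    Z hsZ hbZ d n n hd hn hn1 hZc k hfib hZtop with h | ⟨h1, h2⟩
  · left
    intro x hx y hy hxy hxΩ
    -- the fibre through x
    have h5 : s ⟨x, hx⟩ ≠ 1 := fun h => hxΩ (by
      have := (hsZ _).1 h
      rw [hZ, Subgroup.mem_subgroupOf] at this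
      exact this)
    have h6 := hfib _ h5
    rw [h] at h6
    -- injective map Z → fibre is surjective
    have hmk : ∀ z : Z, s (⟨x, hx⟩ * z) = s ⟨x, hx⟩ := by
      intro z
      rw [hss, (hsZ z).2 z.2, hbZ _ z z.2, mul_one, mul_one]
    let f : Z → {a // s a = s ⟨x, hx⟩} := fun z => ⟨⟨x, hx⟩ * z, hmk z⟩
    have hf : Function.Injective f := by
      intro z z' h
      have := congrArg Subtype.val h
      exact Subtype.ext (mul_left_cancel this)
    have hfb : Function.Bijective f := (Nat.bijective_iff_injective_and_card f).2 ⟨hf, h6.symm⟩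
    obtain ⟨z, hz⟩ := hfb.2 ⟨⟨y, hy⟩, Subtype.ext hxy.symm⟩
    have h7 : x * ((z : D) : G) = y := congrArg (fun a => ((a.1 : D) : G)) hz
    have h8 : x⁻¹ * y = ((z : D) : G) := by rw [← h7]; group
    rw [h8]
    exact Subgroup.mem_subgroupOf.1 z.2
  · right
    constructor
    · rw [hd, hn, h1, ← pow_mul, ← pow_add, mul_comm n 2]
    · intro u hu huΩ w hw
      obtain ⟨y, hy⟩ := h2 ⟨u, hu⟩ (by rw [hZ, Subgroup.mem_subgroupOf]; exact huΩ) ⟨w, hw⟩
      exact ⟨y, y.2, congrArg Subtype.val hy⟩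

/-- an odd order element centralising `Ω` centralises `D` or has only fixed points in `Ω` -/
theorem fixed_dich [Finite G] {Ω D T : Subgroup G} [hDn : D.Normal] (hD : IsPGroup 2 D) (hT : (Nat.card T).Coprime 2)
    (hΩD : Ω ≤ D) (hΩc : ∀ w ∈ Ω, ∀ x ∈ D, Commute w x) (hTΩ : ∀ t ∈ T, ∀ w ∈ Ω, t * w = w * t)
    (hc : ∀ x ∈ D, ∀ y ∈ D, Commute (x ^ 2) y) (hcm : ∀ x ∈ D, ∀ y ∈ D, ⁅x, y⁆ ∈ Ω)
    (hcard : Nat.card D = Nat.card Ω * Nat.card Ω ^ 2)
    (hsurj : ∀ u ∈ D, u ∉ Ω → ∀ w ∈ Ω, ∃ y ∈ D, ⁅u, y⁆ = w) {t : G} (ht : t ∈ T) :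
    (∀ x ∈ D, t * x = x * t) ∨ (∀ x ∈ D, t * x = x * t → x ∈ Ω) := by
  by_contra hcon
  push Not at hcon
  obtain ⟨⟨x₁, hx₁, hx₁t⟩, ⟨x₂, hx₂, hx₂t, hx₂Ω⟩⟩ := hcon
  have hconjD : ∀ x ∈ D, t * x * t⁻¹ ∈ D := fun x hx => hDn.conj_mem x hx t
  -- the homomorphism
  set Ω' : Subgroup D := Ω.subgroupOf D with hΩ'
  have hΩ'm : ∀ x : D, x ∈ Ω' ↔ (x : G) ∈ Ω := fun x => Subgroup.mem_subgroupOf
  haveI hΩ'n : Ω'.Normal := by
    refine ⟨?_⟩
    intro w hw g
    have h1 := (hΩc w ((hΩ'm w).1 hw) g g.2).eq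
    have h2 : g * w * g⁻¹ = w := by
      apply Subtype.ext
      show (g : G) * w * (g : G)⁻¹ = w
      rw [← h1, mul_inv_cancel_right]
    rw [h2]; exact hw
  have hcommQ : ∀ x y : D ⧸ Ω', x * y = y * x := by
    intro x y
    obtain ⟨x, rfl⟩ := QuotientGroup.mk'_surjective Ω' x
    obtain ⟨y, rfl⟩ := QuotientGroup.mk'_surjective Ω' y
    rw [← map_mul, ← map_mul]
    apply (QuotientGroup.eq).2
    rw [hΩ'm]
    have : (((x * y)⁻¹ * (y * x) : D) : G) = ⁅(y : G)⁻¹, (x : G)⁻¹⁆ := by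
      rw [commutatorElement_def]
      simp only [Subgroup.coe_mul, Subgroup.coe_inv]
      group
    rw [this]
    exact hcm _ (inv_mem y.2) _ (inv_mem x.2)
  let δ : D → D := fun x => x⁻¹ * ⟨t * (x : G) * t⁻¹, hconjD x x.2⟩
  have hδ : ∀ x : D, ((δ x : D) : G) = (x : G)⁻¹ * (t * x * t⁻¹) := fun x => rfl
  let θ : D →* D ⧸ Ω' :=
    { toFun := fun x => QuotientGroup.mk' Ω' (δ x)
      map_one' := by
        have : δ 1 = 1 := by
          apply Subtype.ext
          rw [hδ]; simp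
        rw [this, map_one]
      map_mul' := by
        intro x y
        have : δ (x * y) = y⁻¹ * δ x * (y * δ y) := by
          apply Subtype.ext
          simp only [Subgroup.coe_mul, Subgroup.coe_inv, hδ]
          group
        rw [this]
        simp only [map_mul, map_inv]
        rw [hcommQ (QuotientGroup.mk' Ω' y)⁻¹, mul_assoc, inv_mul_cancel_left] }
  have hθ : ∀ x : D, θ x = QuotientGroup.mk' Ω' (δ x) := fun x => rfl
  -- the centraliser
  have htele : ∀ x : D, ((δ x : D) : G) ∈ Ω → t * (x : G) = x * t := by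
    intro x hx
    exact tele2 hT hD ht x.2 (hTΩ t ht _ hx)
  let C : Subgroup D := θ.ker
  have hC : ∀ x : D, x ∈ C ↔ t * (x : G) = x * t := by
    intro x
    constructor
    · intro h
      apply htele
      have h1 : QuotientGroup.mk' Ω' (δ x) = 1 := h
      exact (hΩ'm _).1 ((QuotientGroup.eq_one_iff _).1 h1)
    · intro h
      show QuotientGroup.mk' Ω' (δ x) = 1
      have : δ x = 1 := by
        apply Subtype.ext
        rw [hδ, h]; simp
      rw [this, map_one]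
  let I : Subgroup D := θ.range.comap (QuotientGroup.mk' Ω')
  have hI : ∀ u ∈ I, ∃ x : D, ∃ z : G, z ∈ Ω ∧ (u : G) = (δ x : D) * z := by
    rintro u ⟨x, hx⟩
    refine ⟨x, ((δ x : D) : G)⁻¹ * u, ?_, by group⟩
    have h1 : QuotientGroup.mk' Ω' (δ x) = QuotientGroup.mk' Ω' u := hx
    have h2 := (QuotientGroup.eq).1 h1
    rw [hΩ'm] at h2
    exact h2
  have hIcard : Nat.card I * Nat.card C = Nat.card D * Nat.card Ω := by
    have h1 : Nat.card I = Nat.card Ω' * Nat.card θ.range := by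
      have := CfsgLib.Cores.card_comap_mk Ω' θ.range
      exact this
    have h2 : Nat.card C * Nat.card θ.range = Nat.card D := by
      have h3 := θ.ker.card_mul_index
      rw [Subgroup.index_ker] at h3
      exact h3
    have h3 : Nat.card Ω' = Nat.card Ω := Nat.card_congr (Subgroup.subgroupOfEquivOfLe hΩD).toEquiv
    rw [h1, h3, ← h2]; ring
  -- elements of I commute with elements of C
  have hIC : ∀ u ∈ I, ∀ c ∈ C, ⁅(u : G), (c : G)⁆ = 1 := by
    intro u hu c hcC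
    obtain ⟨x, z, hz, hxz⟩ := hI u hu
    have hct := (hC c).1 hcC
    rw [hxz, comm_mul_left hc (δ x).2 (hΩD hz) c.2, hδ,
      comm_mul_left hc (inv_mem x.2) (hconjD x x.2) c.2]
    have h1 : ⁅z, (c : G)⁆ = 1 := by
      rw [commutatorElement_eq_one_iff_mul_comm]; exact (hΩc z hz c c.2).eq
    have h2 : ⁅t * (x : G) * t⁻¹, (c : G)⁆ = ⁅(x : G), (c : G)⁆ := by
      have h3 : (c : G) = t * c * t⁻¹ := by rw [hct, mul_inv_cancel_right]
      have h4 : ⁅t * (x : G) * t⁻¹, (c : G)⁆ = t * ⁅(x : G), (c : G)⁆ * t⁻¹ := by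
        conv_lhs => rw [h3]
        rw [commutatorElement_def, commutatorElement_def]; group
      rw [h4, hTΩ t ht _ (hcm x x.2 c c.2), mul_inv_cancel_right]
    rw [h1, h2, mul_one, ← comm_mul_left hc (inv_mem x.2) x.2 c.2, inv_mul_cancel, commutatorElement_one_left]
  -- kernels
  have hK : ∀ u : D, (u : G) ∉ Ω → ∃ K : Subgroup D, (∀ y, y ∈ K ↔ ⁅(u : G), (y : G)⁆ = 1) ∧ Nat.card K * Nat.card Ω = Nat.card D := by
    intro u hu
    let β : D →* Ω :=
      { toFun := fun y => ⟨⁅(u : G), (y : G)⁆, hcm u u.2 y y.2⟩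
        map_one' := Subtype.ext (commutatorElement_one_right _)
        map_mul' := fun x y => Subtype.ext (comm_mul_right hc u.2 x.2 y.2) }
    have hβ : β.range = ⊤ := by
      rw [MonoidHom.range_eq_top]
      intro w
      obtain ⟨y, hy, hyw⟩ := hsurj u u.2 hu w w.2
      exact ⟨⟨y, hy⟩, Subtype.ext hyw⟩
    refine ⟨β.ker, ?_, ?_⟩
    · intro y
      rw [MonoidHom.mem_ker]
      constructor
      · intro h; exact congrArg Subtype.val h
      · intro h; exact Subtype.ext h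
    · have h3 := β.ker.card_mul_index
      rw [Subgroup.index_ker, hβ, Subgroup.card_top] at h3
      exact h3
  have hdouble : ∀ A B : Subgroup D, A ≤ B → ∀ u, u ∈ B → u ∉ A → 2 * Nat.card A ≤ Nat.card B := by
    intro A B hAB u huB huA
    have h1 := Subgroup.card_dvd_of_le hAB
    obtain ⟨c, hcc⟩ := h1
    rcases Nat.lt_or_ge c 2 with h2 | h2
    · exfalso
      have hc0 : c ≠ 0 := by
        rintro rfl
        rw [mul_zero] at hcc
        exact absurd hcc Nat.card_pos.ne'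
      have hc1 : c = 1 := by omega
      rw [hc1, mul_one] at hcc
      have h3 := Subgroup.eq_of_le_of_card_ge hAB hcc.le
      exact huA (h3 ▸ huB)
    · rw [hcc, mul_comm 2]
      exact Nat.mul_le_mul_left _ h2
  -- v and w
  set v : D := δ ⟨x₁, hx₁⟩ with hv
  have hvI : v ∈ I := ⟨⟨x₁, hx₁⟩, rfl⟩
  have hvC : v ∉ C := by
    intro h
    rw [hC] at h
    exact hx₁t (tele2 hT hD ht hx₁ h)
  have hvΩ : (v : G) ∉ Ω := fun h => hx₁t (htele ⟨x₁, hx₁⟩ h)
  set w : D := ⟨x₂, hx₂⟩ with hw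
  have hwC : w ∈ C := (hC w).2 hx₂t
  have hwI : w ∉ I := by
    intro h
    obtain ⟨x, z, hz, hxz⟩ := hI w h
    have h1 : t * ((δ x : D) : G) = (δ x : D) * t := by
      have h2 : ((δ x : D) : G) = w * z⁻¹ := by rw [hxz]; group
      rw [h2]
      have h3 : Commute t z := hTΩ t ht z hz
      have h4 : Commute t (w : G) := hx₂t
      exact (h4.mul_right h3.inv_right).eq
    have h5 := tele2 hT hD ht x.2 h1
    have h6 : ((δ x : D) : G) = 1 := by
      rw [hδ, h5]; group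
    rw [h6, one_mul] at hxz
    exact hx₂Ω (by
      have h7 : x₂ = z := hxz
      rw [h7]; exact hz)
  obtain ⟨Kv, hKv, hKvc⟩ := hK v hvΩ
  obtain ⟨Kw, hKw, hKwc⟩ := hK w hx₂Ω
  have hvv : v ∈ Kv := by rw [hKv]; exact commutatorElement_self _
  have hww : w ∈ Kw := by rw [hKw]; exact commutatorElement_self _
  have h1 := hdouble C Kv (fun c hcC => (hKv c).2 (hIC v hvI c hcC)) v hvv hvC
  have h2 := hdouble I Kw (fun u hu => (hKw u).2 (by
    rw [comm_swap hc u.2 w.2]; exact hIC u hu w hwC)) w hww hwI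
  have hΩpos : 0 < Nat.card Ω := Nat.card_pos
  have h3 : Nat.card Kv = Nat.card Ω ^ 2 := by
    rw [hcard, mul_comm] at hKvc
    exact Nat.eq_of_mul_eq_mul_left hΩpos hKvc
  have h4 : Nat.card Kw = Nat.card Ω ^ 2 := by
    rw [hcard, mul_comm] at hKwc
    exact Nat.eq_of_mul_eq_mul_left hΩpos hKwc
  have h5 : 2 * Nat.card C * (2 * Nat.card I) ≤ Nat.card Ω ^ 2 * Nat.card Ω ^ 2 := by
    rw [h3] at h1; rw [h4] at h2
    exact Nat.mul_le_mul h1 h2
  have h6 : 2 * Nat.card C * (2 * Nat.card I) = 4 * (Nat.card I * Nat.card C) := by ring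
  rw [h6, hIcard, hcard] at h5
  have h7 : 4 * (Nat.card Ω * Nat.card Ω ^ 2 * Nat.card Ω) = 4 * (Nat.card Ω ^ 2 * Nat.card Ω ^ 2) := by ring
  rw [h7] at h5
  have h8 : 0 < Nat.card Ω ^ 2 * Nat.card Ω ^ 2 := by positivity
  omega

/-- nilpotent groups of odd order acting semiregularly are cyclic -/
theorem semireg_cyclic {V : Type*} [Group V] [Finite V] [Nontrivial V] (P : Subgroup (MulAut V))
    (hPn : Group.IsNilpotent P) (hodd : (Nat.card P).Coprime 2)
    (hfpf : ∀ a ∈ P, a ≠ 1 → ∀ v, a v = v → v = 1) : IsCyclic P := by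
  haveI : Finite (MulAut V) := inferInstance
  let Γ := V ⋊[MonoidHom.id (MulAut V)] MulAut V
  haveI : Finite Γ := Finite.of_equiv _ (SemidirectProduct.equivProd (φ := MonoidHom.id (MulAut V))).symm
  let il : V →* Γ := SemidirectProduct.inl
  let ir : MulAut V →* Γ := SemidirectProduct.inr
  have hil : Function.Injective il := SemidirectProduct.inl_injective
  have hir : Function.Injective ir := SemidirectProduct.inr_injective
  have haut : ∀ (a : MulAut V) (v : V), il (a v) = ir a * il v * (ir a)⁻¹ := by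
    intro a v
    rw [← map_inv]
    exact SemidirectProduct.inl_aut (φ := MonoidHom.id (MulAut V)) a v
  have hfpf' : CfsgLib.FPF1.FPF (P.map ir) (il.range) := by
    rintro _ ⟨a, ha, rfl⟩ ha1
    rw [eq_bot_iff]
    rintro _ ⟨⟨v, rfl⟩, hv⟩
    have h1 : a ≠ 1 := by rintro rfl; exact ha1 (map_one _)
    have h2 : ir a * il v = il v * ir a := Subgroup.mem_centralizer_iff.1 hv _ rfl
    have h3 : il (a v) = il v := by rw [haut, h2, mul_inv_cancel_right]
    rw [hfpf a ha h1 v (hil h3), map_one]; exact one_mem _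
  have hV : il.range ≠ ⊥ := by
    intro h
    obtain ⟨v, hv⟩ := exists_ne (1 : V)
    apply hv
    apply hil
    have : il v ∈ il.range := ⟨v, rfl⟩
    rw [h, Subgroup.mem_bot] at this
    rw [this, map_one]
  have hnorm : P.map ir ≤ Subgroup.normalizer (il.range : Set Γ) := by
    rintro _ ⟨a, _, rfl⟩
    rw [Subgroup.mem_normalizer_iff]
    intro y
    constructor
    · rintro ⟨v, rfl⟩
      exact ⟨a v, haut a v⟩
    · rintro ⟨v, hv⟩
      refine ⟨a⁻¹ v, ?_⟩
      rw [haut, map_inv, hv, inv_inv]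
      simp only [mul_assoc, inv_mul_cancel_left, inv_mul_cancel, mul_one]
  haveI : IsZGroup P := by
    refine ⟨?_⟩
    intro p hp S
    haveI : Fact p.Prime := ⟨hp⟩
    by_cases hp2 : p = 2
    · subst hp2
      have h1 : (S : Subgroup P) = ⊥ := by
        rw [← Subgroup.card_eq_one]
        obtain ⟨n, hn⟩ := IsPGroup.iff_card.mp S.isPGroup'
        have h2 : Nat.card (S : Subgroup P) ∣ Nat.card P := Subgroup.card_subgroup_dvd_card _
        have h3 : (Nat.card (S : Subgroup P)).Coprime 2 := Nat.Coprime.coprime_dvd_left h2 hodd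
        rw [hn] at h3
        rcases Nat.eq_zero_or_pos n with h4 | h4
        · rw [hn, h4, pow_zero]
        · exfalso
          have := Nat.Coprime.coprime_dvd_left (dvd_pow_self 2 h4.ne') h3
          norm_num at this
      rw [h1]
      infer_instance
    · let S' : Subgroup Γ := ((S : Subgroup P).map P.subtype).map ir
      have hS'P : S' ≤ P.map ir := Subgroup.map_mono (Subgroup.map_subtype_le _)
      have hS'p : IsPGroup p S' := (S.isPGroup'.map P.subtype).map ir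
      have hcyc := (hfpf'.mono hS'P).pgroup_cyclic (hS'P.trans hnorm) hV hp hp2 hS'p
      have e1 : (S : Subgroup P) ≃* (S : Subgroup P).map P.subtype := Subgroup.equivMapOfInjective _ _ P.subtype_injective
      have e2 : ((S : Subgroup P).map P.subtype) ≃* S' := Subgroup.equivMapOfInjective _ _ hir
      exact isCyclic_of_surjective (e1.trans e2).symm (e1.trans e2).symm.surjective
  infer_instance

end CfsgLib.OneInv
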