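import Mathlib
import Cfsg.Agent.LibOneInv
import Cfsg.Agent.LibCores

set_option autoImplicit false

/-!
Thompson's theorem on solvable groups with one class of involutions: the main step (helper4).
-/

namespace CfsgLib.OneInv

open Subgroup Cfsg
open scoped commutatorElement Pointwise

variable {G : Type*} [Group G]

/-- a normal subgroup of a `p`-group not contained in a central subgroup is not swallowed by its commutator -/
theorem comm_sup_ne [Finite G] {R D Ω : Subgroup G} [Ω.Normal] {p : ℕ} [Fact p.Prime] (hR : IsPGroup p R)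
    (hDR : D ≤ R) (hΩR : ∀ w ∈ Ω, ∀ r ∈ R, w * r = r * w) (hne : ¬ D ≤ Ω) : ⁅D, R⁆ ⊔ Ω ≠ D := by
  intro heq
  apply hne
  have hnil : Group.IsNilpotent R := hR.isNilpotent
  obtain ⟨n, hn⟩ := (Subgroup.isNilpotent_iff_lowerCentralSeries R).1 hnil
  have key : ∀ k : ℕ, D ≤ R.lowerCentralSeries k ⊔ Ω := by
    intro k
    induction k with
    | zero => exact hDR.trans le_sup_left
    | succ k ih =>
      rw [← heq]
      refine sup_le ?_ le_sup_right
      refine le_trans ?_ le_sup_left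
      rw [Subgroup.commutator_le]
      intro d hd r hr
      have h1 := ih hd
      rw [← SetLike.mem_coe, Subgroup.mul_normal, Set.mem_mul] at h1
      obtain ⟨m, hm, w, hw, rfl⟩ := h1
      have h2 := hΩR w hw r hr
      have h3 : ⁅m * w, r⁆ = ⁅m, r⁆ := by
        rw [commutatorElement_def, commutatorElement_def]
        calc m * w * r * (m * w)⁻¹ * r⁻¹ = m * (w * r) * w⁻¹ * m⁻¹ * r⁻¹ := by group
          _ = m * (r * w) * w⁻¹ * m⁻¹ * r⁻¹ := by rw [h2]
          _ = _ := by group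
      rw [h3]
      exact Subgroup.commutator_mem_commutator hm hr
  have h := key n
  rw [hn, bot_sup_eq] at h
  exact h

/-- the commutator subgroup centralises a cyclic normal image -/
theorem cyclic_comm {H W : Type*} [Group H] [Group W] [Finite W] (φ : H →* W) (F : Subgroup H) [F.Normal]
    (hc : IsCyclic (F.map φ)) : ⁅F, commutator H⁆ ≤ φ.ker := by
  set P := F.map φ with hP
  have hnorm : ∀ h : H, φ h ∈ Subgroup.normalizer (P : Set W) := by
    intro h
    rw [Subgroup.mem_normalizer_iff]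
    intro y
    constructor
    · rintro ⟨f, hf, rfl⟩
      exact ⟨h * f * h⁻¹, (inferInstance : F.Normal).conj_mem f hf h, by simp⟩
    · rintro ⟨f, hf, hfy⟩
      refine ⟨h⁻¹ * f * h, ?_, ?_⟩
      · have := (inferInstance : F.Normal).conj_mem f hf h⁻¹
        rwa [inv_inv] at this
      · rw [map_mul, map_mul, map_inv, hfy]; group
  let ψ : H →* Subgroup.normalizer (P : Set W) := φ.codRestrict _ hnorm
  let χ : H →* MulAut P := P.normalizerMonoidHom.comp ψ
  let e := IsCyclic.mulAutMulEquiv P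
  have h1 : commutator H ≤ (e.toMonoidHom.comp χ).ker := Abelianization.commutator_subset_ker _
  rw [Subgroup.commutator_le]
  intro f hf c hcH
  have h2 := h1 hcH
  rw [MonoidHom.mem_ker] at h2
  have h3 : χ c = 1 := e.injective (by rw [map_one]; exact h2)
  have h4 : ((χ c ⟨φ f, ⟨f, hf, rfl⟩⟩ : P) : W) = φ f := by rw [h3]; rfl
  have h5 : φ c * φ f * (φ c)⁻¹ = φ f := h4
  rw [MonoidHom.mem_ker, map_commutatorElement, commutatorElement_eq_one_iff_mul_comm]
  exact (mul_inv_eq_iff_eq_mul.1 h5).symm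

/-- the main step -/
theorem fit_comm [Finite G] {R T Ω : Subgroup G} [hRn : R.Normal] [hΩn : Ω.Normal] (hR : IsPGroup 2 R)
    (hHH : Subgroup.centralizer (R : Set G) ≤ R) (hT : (Nat.card T).Coprime 2)
    (hΩ : ∀ w, w ∈ Ω ↔ w ^ 2 = 1) (hΩR' : Ω ≤ R) (hΩR : ∀ w ∈ Ω, ∀ r ∈ R, w * r = r * w)
    (hΩT : ∀ t ∈ T, ∀ w ∈ Ω, t * w = w * t) (hΩ1 : Ω ≠ ⊥)
    (hconj : ∀ x y : G, x ≠ 1 → x ^ 2 = 1 → y ≠ 1 → y ^ 2 = 1 → IsConj x y)
    (F : Subgroup (G ⧸ R)) [hFn : F.Normal] (hFnil : Group.IsNilpotent F) (hF : F ≤ T.map (QuotientGroup.mk' R)) :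
    ⁅F, commutator (G ⧸ R)⁆ = ⊥ := by
  haveI : Fact (Nat.Prime 2) := ⟨Nat.prime_two⟩
  by_contra hX
  set X' := ⁅F, commutator (G ⧸ R)⁆ with hX'
  haveI : X'.Normal := by rw [hX']; infer_instance
  have hX'F : X' ≤ F := Subgroup.commutator_le_left _ _
  set X := T ⊓ X'.comap (QuotientGroup.mk' R) with hXdef
  have hXm : ∀ y ∈ X', ∃ t ∈ X, QuotientGroup.mk' R t = y := by
    intro y hy
    obtain ⟨t, ht, rfl⟩ := hF (hX'F hy)
    exact ⟨t, ⟨ht, hy⟩, rfl⟩
  have hXc : (Nat.card X).Coprime 2 := Nat.Coprime.coprime_dvd_left (Subgroup.card_dvd_of_le inf_le_left) hT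
  have hcen : ∀ E : Subgroup G, X ≤ Subgroup.centralizer (E : Set G) ↔ ∀ t ∈ X, ∀ x ∈ E, t * x = x * t := by
    intro E
    constructor
    · intro h t ht x hx
      exact (Subgroup.mem_centralizer_iff.1 (h ht) x hx).symm
    · intro h t ht
      rw [Subgroup.mem_centralizer_iff]
      intro x hx
      exact (h t ht x hx).symm
  -- X does not centralise R
  have hXR : ¬ X ≤ Subgroup.centralizer (R : Set G) := by
    intro h
    apply hX
    rw [eq_bot_iff]
    intro y hy
    obtain ⟨t, ht, rfl⟩ := hXm y hy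
    rw [Subgroup.mem_bot]
    exact (QuotientGroup.eq_one_iff t).2 (hHH (h ht))
  -- minimal D
  let Sset : Set (Subgroup G) := {D | D.Normal ∧ D ≤ R ∧ ¬ X ≤ Subgroup.centralizer (D : Set G)}
  obtain ⟨D, ⟨hDn, hDR, hDX⟩, hDmin⟩ := (Set.toFinite Sset).exists_minimal ⟨R, hRn, le_rfl, hXR⟩
  haveI := hDn
  have hmin : ∀ E : Subgroup G, E.Normal → E < D → X ≤ Subgroup.centralizer (E : Set G) := by
    intro E hE hED
    by_contra hcon
    have := hDmin (show E ∈ Sset from ⟨hE, hED.le.trans hDR, hcon⟩) hED.le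
    exact absurd (lt_of_lt_of_le hED this) (lt_irrefl _)
  have hD : IsPGroup 2 D := hR.to_le hDR
  have hD1 : D ≠ ⊥ := by
    rintro rfl
    apply hDX
    rw [hcen]
    intro t _ x hx
    rw [Subgroup.mem_bot.1 hx, mul_one, one_mul]
  -- Ω ≤ D
  have hΩD : Ω ≤ D := by
    obtain ⟨n, hn⟩ := IsPGroup.iff_card.mp hD
    have hn0 : n ≠ 0 := by
      rintro rfl
      rw [pow_zero] at hn
      exact hD1 (Subgroup.card_eq_one.mp hn)
    obtain ⟨z, hz⟩ := exists_prime_orderOf_dvd_card' (G := D) 2 (by rw [hn]; exact dvd_pow_self _ hn0)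
    intro w hw
    by_cases hw1 : w = 1
    · rw [hw1]; exact one_mem _
    have hz' : orderOf (z : G) = 2 := by rw [Subgroup.orderOf_coe, hz]
    have hz1 : (z : G) ≠ 1 := by
      intro h
      rw [h, orderOf_one] at hz'
      norm_num at hz'
    obtain ⟨g, hg⟩ := isConj_iff.1 (hconj z w hz1 (by rw [← hz', pow_orderOf_eq_one]) hw1 ((hΩ w).1 hw))
    rw [← hg]
    exact hDn.conj_mem z z.2 g
  have hXT : X ≤ T := inf_le_left
  have hΩne : Ω ≠ D := by
    rintro rfl
    apply hDX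
    rw [hcen]
    intro t ht x hx
    exact hΩT t (hXT ht) x hx
  obtain ⟨hc, h4⟩ := min_struct (D := D) (T := X) hD hXc hDX hmin
  have hΩc : ∀ w ∈ Ω, ∀ x ∈ D, Commute w x := fun w hw x hx => hΩR w hw x (hDR hx)
  have hsq : ∀ x ∈ D, x ^ 2 ∈ Ω := by
    intro x hx
    rw [hΩ, ← pow_mul]; exact h4 x hx
  have hcm : ∀ x ∈ D, ∀ y ∈ D, ⁅x, y⁆ ∈ Ω := by
    intro x hx y hy
    rw [hΩ]; exact (class2 hc hx hy).2
  have hteleT : ∀ t ∈ T, ∀ x ∈ D, x⁻¹ * (t * x * t⁻¹) ∈ Ω → t * x = x * t := by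
    intro t ht x hx h
    exact tele2 hT hD ht hx (hΩT t ht _ h)
  rcases D_struct hD hΩD hΩ hΩc hc h4 hconj hΩ1 hΩne with halt | ⟨hcard, hsurj⟩
  · apply hDX
    rw [hcen]
    intro t ht x hx
    by_cases hxΩ : x ∈ Ω
    · exact hΩT t (hXT ht) x hxΩ
    · apply hteleT t (hXT ht) x hx
      apply halt x hx _ (hDn.conj_mem x hx t) _ hxΩ
      rw [conj_pow, hΩT t (hXT ht) _ (hsq x hx), mul_inv_cancel_right]
  · have hdich : ∀ t ∈ T, (∀ x ∈ D, t * x = x * t) ∨ (∀ x ∈ D, t * x = x * t → x ∈ Ω) := fun t ht =>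
      fixed_dich hD hT hΩD hΩc hΩT hc hcm hcard hsurj ht
    -- [D,R] ≤ Ω
    have hDRΩ : ⁅D, R⁆ ≤ Ω := by
      have h1 : ⁅D, R⁆ ⊔ Ω ≠ D := comm_sup_ne hR hDR hΩR (fun h => hΩne (le_antisymm hΩD h))
      have h2 : ⁅D, R⁆ ⊔ Ω ≤ D := sup_le (Subgroup.commutator_le_left _ _) hΩD
      have h3 := (hcen _).1 (hmin _ inferInstance (lt_of_le_of_ne h2 h1))
      have h4' : ¬ ∀ t ∈ X, ∀ x ∈ D, t * x = x * t := fun h => hDX ((hcen D).2 h)
      push Not at h4'
      obtain ⟨t, ht, x, hx, htx⟩ := h4'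
      rcases hdich t (hXT ht) with h5 | h5
      · exact absurd (h5 x hx) htx
      · intro y hy
        exact h5 y (h2 ((le_sup_left : ⁅D, R⁆ ≤ _) hy)) (h3 t ht y ((le_sup_left : ⁅D, R⁆ ≤ _) hy))
    -- the action on D/Ω
    let π : G →* G ⧸ Ω := QuotientGroup.mk' Ω
    have hπ : Function.Surjective π := QuotientGroup.mk'_surjective Ω
    let V : Subgroup (G ⧸ Ω) := D.map π
    haveI hVn : V.Normal := hDn.map π hπ
    let φ : G →* MulAut V := (MulAut.conjNormal (H := V)).comp π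
    have hφ : ∀ (g : G) (v : V), ((φ g v : V) : G ⧸ Ω) = π g * v * (π g)⁻¹ := fun g v => rfl
    have hV : Nontrivial V := by
      rw [Subgroup.nontrivial_iff_ne_bot]
      intro h
      apply hΩne
      apply le_antisymm hΩD
      intro x hx
      have h1 : π x ∈ V := ⟨x, hx, rfl⟩
      rw [h, Subgroup.mem_bot] at h1
      exact (QuotientGroup.eq_one_iff x).1 h1
    have hfix : ∀ (g x : G) (hx : x ∈ D), φ g ⟨π x, ⟨x, hx, rfl⟩⟩ = ⟨π x, ⟨x, hx, rfl⟩⟩ ↔ x⁻¹ * (g * x * g⁻¹) ∈ Ω := by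
      intro g x hx
      constructor
      · intro h
        have h1 := congrArg Subtype.val h
        rw [hφ] at h1
        have h2 : π (x⁻¹ * (g * x * g⁻¹)) = 1 := by
          rw [map_mul, map_mul, map_mul, map_inv, map_inv]
          rw [show π g * π x * (π g)⁻¹ = π x from h1, inv_mul_cancel]
        exact (QuotientGroup.eq_one_iff _).1 h2
      · intro h
        have h2 : π (x⁻¹ * (g * x * g⁻¹)) = 1 := (QuotientGroup.eq_one_iff _).2 h
        rw [map_mul, map_mul, map_mul, map_inv, map_inv] at h2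
        apply Subtype.ext
        rw [hφ]
        exact (inv_mul_eq_one.1 h2).symm
    have hker : ∀ g : G, φ g = 1 ↔ ∀ x ∈ D, x⁻¹ * (g * x * g⁻¹) ∈ Ω := by
      intro g
      constructor
      · intro h x hx
        rw [← hfix g x hx, h]; rfl
      · intro h
        ext v
        obtain ⟨v, ⟨x, hx, rfl⟩⟩ := v
        exact congrArg Subtype.val ((hfix g x hx).2 (h x hx))
    have hRker : R ≤ φ.ker := by
      intro r hr
      rw [MonoidHom.mem_ker, hker]
      intro x hx
      have h1 : x⁻¹ * (r * x * r⁻¹) = ⁅x⁻¹, r⁆ := by rw [commutatorElement_def]; group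
      rw [h1]
      exact hDRΩ (Subgroup.commutator_mem_commutator (inv_mem hx) hr)
    let φ' : G ⧸ R →* MulAut V := QuotientGroup.lift R φ hRker
    have hφ' : ∀ g : G, φ' (QuotientGroup.mk' R g) = φ g := fun g => rfl
    have hP : IsCyclic (F.map φ') := by
      haveI := hFnil
      apply semireg_cyclic
      · exact Group.nilpotent_of_surjective (φ'.subgroupMap F) (φ'.subgroupMap_surjective F)
      · refine Nat.Coprime.coprime_dvd_left (Subgroup.card_map_dvd _ _) ?_
        refine Nat.Coprime.coprime_dvd_left (Subgroup.card_dvd_of_le hF) ?_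
        exact Nat.Coprime.coprime_dvd_left (Subgroup.card_map_dvd _ _) hT
      · rintro a ⟨f, hf, rfl⟩ ha1 v hav
        obtain ⟨t, ht, rfl⟩ := hF hf
        rw [hφ'] at ha1 hav
        obtain ⟨v, ⟨x, hx, rfl⟩⟩ := v
        have h1 := (hfix t x hx).1 hav
        have h2 := hteleT t ht x hx h1
        rcases hdich t ht with h5 | h5
        · exfalso
          apply ha1
          rw [hker]
          intro y hy
          rw [h5 y hy, mul_inv_cancel_right, inv_mul_cancel]; exact one_mem _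
        · apply Subtype.ext
          exact (QuotientGroup.eq_one_iff _).2 (h5 x hx h2)
    have h5 : X' ≤ φ'.ker := cyclic_comm φ' F hP
    apply hDX
    rw [hcen]
    intro t ht x hx
    apply hteleT t (hXT ht) x hx
    have h6 : φ t = 1 := h5 ht.2
    exact (hker t).1 h6 x hx

end CfsgLib.OneInv
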