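import Cfsg.Agent.LibH22OMat
import Cfsg.Agent.LibH22OForms
import Cfsg.Prelude.Def_SporadicB

/-! Orthogonal transvections over the field of two elements are 3-transpositions (seat helper12). -/
set_option autoImplicit false
set_option linter.unusedSectionVars false

namespace CfsgLib.OrTTH12

open Module Matrix Cfsg Cfsg.Agent.H22

variable {ι : Type} [Fintype ι] [DecidableEq ι] (Q : QuadraticForm (ZMod 2) (ι → ZMod 2))

/-- matrix of an element -/
abbrev gM (g : ↥(isometryGroup (ZMod 2) ⇑Q)) : Matrix ι ι (ZMod 2) := ((g : GL ι (ZMod 2)) : Matrix ι ι (ZMod 2))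

variable {Q}

theorem zero_or_one (c : ZMod 2) : c = 0 ∨ c = 1 := by revert c; decide

theorem gM_Q (g : ↥(isometryGroup (ZMod 2) ⇑Q)) (x : ι → ZMod 2) : Q (gM Q g *ᵥ x) = Q x := (mem_isometryGroup Q).1 g.2 x

theorem gM_polar (g : ↥(isometryGroup (ZMod 2) ⇑Q)) (x y : ι → ZMod 2) :
    QuadraticMap.polar Q (gM Q g *ᵥ x) (gM Q g *ᵥ y) = QuadraticMap.polar Q x y := by
  unfold QuadraticMap.polar
  rw [← Matrix.mulVec_add, gM_Q, gM_Q, gM_Q]

theorem gM_mul (A B : ↥(isometryGroup (ZMod 2) ⇑Q)) : gM Q (A * B) = gM Q A * gM Q B := rfl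
theorem gM_one : gM Q (1 : ↥(isometryGroup (ZMod 2) ⇑Q)) = 1 := rfl
theorem gM_ext {A B : ↥(isometryGroup (ZMod 2) ⇑Q)} (h : ∀ x, gM Q A *ᵥ x = gM Q B *ᵥ x) : A = B :=
  Subtype.ext (Units.ext (Matrix.ext_iff_mulVec.2 h))

theorem gM_inv (A : ↥(isometryGroup (ZMod 2) ⇑Q)) (x : ι → ZMod 2) : gM Q A *ᵥ (gM Q A⁻¹ *ᵥ x) = x := by
  rw [Matrix.mulVec_mulVec, ← gM_mul, mul_inv_cancel, gM_one, Matrix.one_mulVec]

theorem gM_inv' (A : ↥(isometryGroup (ZMod 2) ⇑Q)) (x : ι → ZMod 2) : gM Q A⁻¹ *ᵥ (gM Q A *ᵥ x) = x := by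
  rw [Matrix.mulVec_mulVec, ← gM_mul, inv_mul_cancel, gM_one, Matrix.one_mulVec]

/-- the transvection in a nonsingular vector -/
def IsT (Q : QuadraticForm (ZMod 2) (ι → ZMod 2)) (g : ↥(isometryGroup (ZMod 2) ⇑Q)) (v : ι → ZMod 2) : Prop :=
  ∀ x, gM Q g *ᵥ x = x + QuadraticMap.polar Q v x • v

theorem desc (hQ : (QuadraticMap.polarBilin Q).Nondegenerate) (g : ↥(isometryGroup (ZMod 2) ⇑Q)) :
    (gM Q g - 1).rank = 1 ↔ ∃ v, Q v = 1 ∧ IsT Q g v := by
  have two : (2 : ZMod 2) = 0 := by decide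
  constructor
  · intro h
    rw [Matrix.rank] at h
    obtain ⟨⟨a, ha'⟩, ha0, ha⟩ := finrank_eq_one_iff'.1 h
    have ha0' : a ≠ 0 := fun h0 => ha0 (Subtype.ext h0)
    have hN : ∀ x : ι → ZMod 2, ∃ c : ZMod 2, gM Q g *ᵥ x = x + c • a := by
      intro x
      obtain ⟨c, hc⟩ := ha ⟨_, ⟨x, rfl⟩⟩
      refine ⟨c, ?_⟩
      have h1 : c • a = (gM Q g - 1) *ᵥ x := congrArg Subtype.val hc
      rw [h1, Matrix.sub_mulVec, Matrix.one_mulVec]; abel
    obtain ⟨y, hy⟩ : ∃ y, gM Q g *ᵥ y = y + a := by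
      obtain ⟨y, hy⟩ := ha'
      refine ⟨y, ?_⟩
      rw [← hy, Matrix.mulVecLin_apply, Matrix.sub_mulVec, Matrix.one_mulVec]; abel
    have h0 : ∀ x, gM Q g *ᵥ x = x → QuadraticMap.polar Q x a = 0 := by
      intro x hx
      have h1 := gM_polar g x y
      rw [hx, hy, QuadraticMap.polar_add_right] at h1
      exact add_eq_left.1 h1
    have h1 : ∀ x, gM Q g *ᵥ x = x + a → QuadraticMap.polar Q x a = Q a := by
      intro x hx
      have h2 := gM_Q g x
      rw [hx, qadd] at h2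
      linear_combination h2 - (Q a) * two
    have hc : ∀ x, gM Q g *ᵥ x = x ∨ gM Q g *ᵥ x = x + a := by
      intro x
      obtain ⟨c, hc⟩ := hN x
      rcases zero_or_one c with rfl | rfl
      · left; rw [hc, zero_smul, add_zero]
      · right; rw [hc, one_smul]
    have hQa : Q a = 1 := by
      rcases zero_or_one (Q a) with h2 | h2
      · exfalso
        apply ha0'
        apply hQ.2
        intro x
        rcases hc x with h3 | h3
        · exact h0 x h3
        · exact (h1 x h3).trans h2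
      · exact h2
    refine ⟨a, hQa, ?_⟩
    intro x
    rw [QuadraticMap.polar_comm]
    rcases hc x with h3 | h3
    · rw [h0 x h3, h3, zero_smul, add_zero]
    · rw [h1 x h3, hQa, h3, one_smul]
  · rintro ⟨v, hv, hg⟩
    have hv0 : v ≠ 0 := by
      rintro rfl
      rw [map_zero] at hv
      exact zero_ne_one hv
    have h1 : LinearMap.range (gM Q g - 1).mulVecLin = Submodule.span (ZMod 2) {v} := by
      apply le_antisymm
      · rintro _ ⟨x, rfl⟩
        rw [Matrix.mulVecLin_apply, Matrix.sub_mulVec, Matrix.one_mulVec, hg, add_sub_cancel_left]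
        exact Submodule.smul_mem _ _ (Submodule.mem_span_singleton_self v)
      · rw [Submodule.span_singleton_le_iff_mem]
        obtain ⟨y, hy⟩ : ∃ y, QuadraticMap.polar Q v y ≠ 0 := by
          by_contra hcon
          push Not at hcon
          exact hv0 (hQ.1 v hcon)
        refine ⟨y, ?_⟩
        rw [Matrix.mulVecLin_apply, Matrix.sub_mulVec, Matrix.one_mulVec, hg, add_sub_cancel_left, (zero_or_one _).resolve_left hy, one_smul]
    rw [Matrix.rank, h1, finrank_span_singleton hv0]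

theorem exists_T {v : ι → ZMod 2} (hv : Q v = 1) : ∃ g : ↥(isometryGroup (ZMod 2) ⇑Q), IsT Q g v := by
  have hv0 : Q v ≠ 0 := by rw [hv]; exact one_ne_zero
  refine ⟨(oIso Q).symm (oRefl Q v hv0), ?_⟩
  intro x
  have h1 := oIso_apply Q ((oIso Q).symm (oRefl Q v hv0)) x
  rw [MulEquiv.apply_symm_apply] at h1
  have h2 : gM Q ((oIso Q).symm (oRefl Q v hv0)) *ᵥ x = refl Q v hv0 x := h1.symm
  rw [h2, refl_apply, hv, inv_one, one_mul, sub_eq_add_neg, ← neg_smul]
  congr 2
  have : ∀ c : ZMod 2, -c = c := by decide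
  rw [this]

theorem IsT.unique {g h : ↥(isometryGroup (ZMod 2) ⇑Q)} {v : ι → ZMod 2} (hg : IsT Q g v) (hh : IsT Q h v) : g = h :=
  gM_ext fun x => by rw [hg, hh]

theorem IsT.conj {g : ↥(isometryGroup (ZMod 2) ⇑Q)} {v : ι → ZMod 2} (hg : IsT Q g v) (A : ↥(isometryGroup (ZMod 2) ⇑Q)) :
    IsT Q (A * g * A⁻¹) (gM Q A *ᵥ v) := by
  intro x
  rw [gM_mul, gM_mul, ← Matrix.mulVec_mulVec, ← Matrix.mulVec_mulVec, hg, Matrix.mulVec_add, Matrix.mulVec_smul, gM_inv]
  congr 2
  rw [← gM_polar A, gM_inv]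

theorem IsT.sq {g : ↥(isometryGroup (ZMod 2) ⇑Q)} {v : ι → ZMod 2} (hg : IsT Q g v) : g * g = 1 := by
  apply gM_ext
  intro x
  have hself : QuadraticMap.polar Q v v = 0 := by
    rw [pself, show (2 : ZMod 2) = 0 from by decide, zero_mul]
  rw [gM_mul, ← Matrix.mulVec_mulVec, hg, hg, QuadraticMap.polar_add_right, QuadraticMap.polar_smul_right, hself, gM_one, Matrix.one_mulVec,
    smul_zero, add_zero, add_assoc, ← add_smul]
  have : ∀ c : ZMod 2, c + c = 0 := by decide
  rw [this, zero_smul, add_zero]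

theorem three_trans (hQ : (QuadraticMap.polarBilin Q).Nondegenerate) (h4 : Fintype.card ι ≠ 4) (hex : ∃ v, Q v = 1) :
    IsThreeTranspositionClass {g : ↥(isometryGroup (ZMod 2) ⇑Q) | (gM Q g - 1).rank = 1} := by
  have two : (2 : ZMod 2) = 0 := by decide
  refine ⟨⟨?_, ?_⟩, ?_, ?_⟩
  · intro d hd
    obtain ⟨v, hv, hd'⟩ := (desc hQ d).1 hd
    apply orderOf_eq_prime
    · rw [sq]; exact hd'.sq
    · rintro rfl
      have : (gM Q (1 : ↥(isometryGroup (ZMod 2) ⇑Q)) - 1).rank = 1 := hd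
      rw [gM_one, sub_self, Matrix.rank_zero] at this
      norm_num at this
  · intro d hd e he
    obtain ⟨v, hv, hd'⟩ := (desc hQ d).1 hd
    obtain ⟨w, hw, he'⟩ := (desc hQ e).1 he
    have hdd := hd'.sq
    have hee := he'.sq
    have hdinv : d⁻¹ = d := inv_eq_of_mul_eq_one_left hdd
    have heinv : e⁻¹ = e := inv_eq_of_mul_eq_one_left hee
    rcases zero_or_one (QuadraticMap.polar Q v w) with hvw | hvw
    · left
      have h1 : d * e * d⁻¹ = e := by
        have h2 := he'.conj d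
        rw [hd', hvw, zero_smul, add_zero] at h2
        exact h2.unique he'
      rw [hdinv] at h1
      calc (d * e) ^ 2 = (d * e * d) * e := by rw [sq]; group
        _ = e * e := by rw [h1]
        _ = 1 := hee
    · right
      have h1 : d * e * d⁻¹ = e * d * e⁻¹ := by
        have h2 := he'.conj d
        have h3 := hd'.conj e
        rw [hd', hvw, one_smul] at h2
        rw [he', QuadraticMap.polar_comm, hvw, one_smul, add_comm] at h3
        exact h2.unique h3
      rw [hdinv, heinv] at h1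
      calc (d * e) ^ 3 = (d * e * d) * (e * d * e) := by rw [pow_succ, sq]; group
        _ = (d * e * d) * (d * e * d) := by rw [h1]
        _ = d * (e * (d * d) * e) * d := by group
        _ = 1 := by rw [hdd, mul_one, hee, mul_one, hdd]
  · obtain ⟨v, hv⟩ := hex
    obtain ⟨d, hd⟩ := exists_T hv
    refine ⟨d, (desc hQ d).2 ⟨v, hv, hd⟩, ?_⟩
    have hne : ∀ {v : ι → ZMod 2}, Q v = 1 → v ≠ 0 := by
      rintro v hv rfl
      rw [map_zero] at hv
      exact zero_ne_one hv
    ext e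
    constructor
    · intro he
      obtain ⟨w, hw, he'⟩ := (desc hQ e).1 he
      obtain ⟨g, hg, hgx⟩ := witt_quad hQ (Submodule.span (ZMod 2) {v}) (Submodule.span (ZMod 2) {w})
        ((LinearEquiv.toSpanNonzeroSingleton (ZMod 2) _ v (hne hv)).symm.trans (LinearEquiv.toSpanNonzeroSingleton (ZMod 2) _ w (hne hw))) (by
          intro x
          obtain ⟨c, rfl⟩ := (LinearEquiv.toSpanNonzeroSingleton (ZMod 2) _ v (hne hv)).surjective x
          rw [LinearEquiv.trans_apply, LinearEquiv.symm_apply_apply]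
          rw [LinearEquiv.toSpanNonzeroSingleton_apply, LinearEquiv.toSpanNonzeroSingleton_apply]
          show Q (c • w) = Q (c • v)
          rw [qsmul, qsmul, hv, hw])
      have hgv : g v = w := by
        have h1 := hgx ⟨v, Submodule.mem_span_singleton_self v⟩
        rw [LinearEquiv.trans_apply] at h1
        have h2 : (LinearEquiv.toSpanNonzeroSingleton (ZMod 2) _ v (hne hv)).symm ⟨v, Submodule.mem_span_singleton_self v⟩ = 1 := by
          rw [LinearEquiv.symm_apply_eq, LinearEquiv.toSpanNonzeroSingleton_apply]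
          apply Subtype.ext
          show v = (1 : ZMod 2) • v
          rw [one_smul]
        rw [h2, LinearEquiv.toSpanNonzeroSingleton_apply] at h1
        rw [h1]
        show (1 : ZMod 2) • w = w
        rw [one_smul]
      let A := (oIso Q).symm ⟨g, hg⟩
      have hA : gM Q A *ᵥ v = w := by
        have h1 := oIso_apply Q A v
        rw [MulEquiv.apply_symm_apply] at h1
        rw [← hgv]; exact h1.symm
      have h3 := hd.conj A
      rw [hA] at h3
      exact isConj_iff.2 ⟨A, h3.unique he'⟩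
    · intro he
      obtain ⟨A, rfl⟩ := isConj_iff.1 (he : IsConj d e)
      exact (desc hQ _).2 ⟨_, by rw [gM_Q, hv], hd.conj A⟩
  · have h1 := closure_oRefl (Q := Q) hQ (Or.inr (by rw [Module.finrank_fintype_fun_eq_card]; exact h4))
    have h2 : (Subgroup.closure {g : ↥(isometryGroup (ZMod 2) ⇑Q) | (gM Q g - 1).rank = 1}).map ((oIso Q : ↥(isometryGroup (ZMod 2) ⇑Q) ≃* ↥(OGrp Q)) : ↥(isometryGroup (ZMod 2) ⇑Q) →* ↥(OGrp Q)) = ⊤ := by
      rw [eq_top_iff, ← h1, Subgroup.closure_le]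
      rintro _ ⟨v, hv, rfl⟩
      have hv1 := (zero_or_one _).resolve_left hv
      obtain ⟨g, hg⟩ := exists_T (Q := Q) hv1
      refine ⟨g, Subgroup.subset_closure ((desc hQ g).2 ⟨v, hv1, hg⟩), ?_⟩
      apply Subtype.ext
      apply LinearEquiv.ext
      intro x
      show ((oIso Q g : OGrp Q) : (ι → ZMod 2) ≃ₗ[ZMod 2] (ι → ZMod 2)) x = refl Q v hv x
      rw [oIso_apply]
      have h3 := hg x
      rw [refl_apply, hv1, inv_one, one_mul, sub_eq_add_neg, ← neg_smul]
      have : ∀ c : ZMod 2, -c = c := by decide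
      rw [this]
      exact h3
    rw [eq_top_iff]
    intro x _
    have h3 : oIso Q x ∈ (⊤ : Subgroup ↥(OGrp Q)) := Subgroup.mem_top _
    rw [← h2] at h3
    obtain ⟨y, hy, hyx⟩ := h3
    have : y = x := (oIso Q).injective hyx
    rw [← this]; exact hy

theorem plus (m : ℕ) (hm : 3 ≤ m) : IsThreeTranspositionClass {g : ↥(isometryGroup (ZMod 2) (quadFormPlus m (ZMod 2))) | (((g : GL (Fin m ⊕ Fin m) (ZMod 2)) : Matrix (Fin m ⊕ Fin m) (Fin m ⊕ Fin m) (ZMod 2)) - 1).rank = 1} := by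
  have h := three_trans (Q := qPlus m (ZMod 2)) (nondeg_qPlus m) (by simp; omega) (by
    refine ⟨Pi.single (.inl ⟨0, by omega⟩) 1 + Pi.single (.inr ⟨0, by omega⟩) 1, ?_⟩
    rw [coe_qPlus, quadFormPlus, Finset.sum_eq_single ⟨0, by omega⟩]
    · simp
    · intro b _ hb
      simp [hb]
    · simp)
  have hc := coe_qPlus (F := ZMod 2) m
  revert h
  unfold gM
  rw [hc]
  exact id

theorem minus (m : ℕ) (hm : 2 ≤ m) : IsThreeTranspositionClass {g : ↥(isometryGroup (ZMod 2) (quadFormMinus m (ZMod 2) 1 1)) | (((g : GL ((Fin m ⊕ Fin m) ⊕ Fin 2) (ZMod 2)) : Matrix ((Fin m ⊕ Fin m) ⊕ Fin 2) ((Fin m ⊕ Fin m) ⊕ Fin 2) (ZMod 2)) - 1).rank = 1} := by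
  have h := three_trans (Q := qMinus m (ZMod 2) 1 1) (nondeg_qMinus m 1 1 (by decide)) (by simp; omega) (by
    refine ⟨Pi.single (.inr 0) 1, ?_⟩
    rw [coe_qMinus, quadFormMinus]
    simp)
  have hc := coe_qMinus (F := ZMod 2) m 1 1
  revert h
  unfold gM
  rw [hc]
  exact id

end CfsgLib.OrTTH12
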