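import Mathlib
import Cfsg.Agent.EqBase
import Cfsg.Agent.LibOrbM28

set_option autoImplicit false

/-! Consequences of orbit decompositions (helper28). -/

namespace CfsgLib.OrbOut28

open MulAction CfsgLib.OrbAbs28 CfsgLib.OrbM28
open scoped Pointwise

section
variable {G α β : Type*} [Group G] [Finite G] [MulAction G α] [MulAction G β]

/-- maximality of all the stabilisers in a class, from the subdegrees -/
theorem coatom_of_dec {a0 : α} {B : Set α} {ι : Type*} [Fintype ι] {X : ι → α} {n : ι → ℕ} {N : ℕ}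
    (h : Dec G a0 B X n) (hB : B = orbit G a0) (hN : B.ncard = N) (hBfin : B.Finite) (i0 : ι) (hi0 : X i0 = a0)
    (hsum : ∑ i, n i = N) (h1 : 1 < N)
    (harith : ∀ T : Finset ι, i0 ∈ T → (∑ i ∈ T, n i) ∣ N → (∑ i ∈ T, n i) = 1 ∨ (∑ i ∈ T, n i) = N) :
    ∀ a ∈ B, IsCoatom (stabilizer G a) := by
  intro a ha
  have hinv : ∀ g : G, ∀ b ∈ B, g • b ∈ B := by
    intro g b hb
    rw [hB] at hb ⊢
    obtain ⟨k, rfl⟩ := hb
    exact ⟨g * k, by show (g * k) • a0 = g • k • a0; rw [mul_smul]⟩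
  rw [hB] at ha
  obtain ⟨g, rfl⟩ := ha
  have h2 := h.smul hinv g
  have h3 : B = orbit G (g • a0) := by
    rw [hB]; exact (orbit_eq_iff.mpr ⟨g, rfl⟩).symm
  have h4 : Dec G (g • a0) (orbit G (g • a0)) (fun i => g • X i) n := by
    rw [← h3]; exact h2
  refine isCoatom_of_dec h4 i0 (by show g • X i0 = _; rw [hi0]) ?_ (by rw [← h3, hN]; exact h1) ?_
  · exact Dec.disj h4 (by rw [← h3]; exact hBfin) (by rw [← h3, hN]; exact hsum)
  · rw [← h3, hN]; exact harith

end

end CfsgLib.OrbOut28
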