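import Cfsg.Agent.LibGallagher
import Cfsg.Agent.LibExtend4
import Cfsg.Agent.LibExtend7
import Cfsg.Agent.LibClifford2
import Cfsg.Agent.LibCoprime
import Cfsg.Agent.LibCores
import Cfsg.Agent.LibPSolv19
import Cfsg.Agent.LibBlockIdem

set_option autoImplicit false
set_option linter.all false
set_option maxHeartbeats 1000000

/-! # Central idempotents of `p`-solvable groups supported on `p`-regular elements (helper20) -/

namespace CfsgLib.Osima20

open Cfsg CfsgLib.CharBasic CfsgLib.CharIndA CfsgLib.Clifford CfsgLib.CharNorm CfsgLib.CharMore CfsgLib.Ind2 CfsgLib.Gallagher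
open scoped ComplexConjugate

universe u

section Ambient

variable {X : Type u} [Group X] [Fintype X] (N L : Subgroup X) [Fintype N] [Fintype L]

theorem avg_classFun [hN : N.Normal] {f : X → ℂ} (hf : IsClassFunction X f) : IsClassFunction X (avg N f) := by
  intro z g
  unfold avg
  congr 1
  refine Fintype.sum_equiv (MulAut.conjNormal (H := N) g⁻¹).toEquiv _ _ fun n => ?_
  have h1 : (((MulAut.conjNormal (H := N) g⁻¹).toEquiv n : N) : X) = g⁻¹ * n * g := by
    change ((MulAut.conjNormal (H := N) g⁻¹ n : N) : X) = _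
    rw [MulAut.conjNormal_apply, inv_inv]
  rw [h1]
  have h2 : (n : X) * (g * z * g⁻¹) = g * (g⁻¹ * n * g * z) * g⁻¹ := by group
  rw [h2]
  exact hf _ _

variable {N L} in
theorem avg_avg (hNL : N ≤ L) (f : X → ℂ) : avg L (avg N f) = avg L f := by
  have hN : (Nat.card N : ℂ) ≠ 0 := by exact_mod_cast Nat.card_pos.ne'
  funext x
  have h0 : ∀ y, avg N f y = (Nat.card N : ℂ)⁻¹ * ∑ n : N, f ((n : X) * y) := fun _ => rfl
  change (Nat.card L : ℂ)⁻¹ * ∑ l : L, avg N f ((l : X) * x) = (Nat.card L : ℂ)⁻¹ * ∑ l : L, f ((l : X) * x)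
  congr 1
  simp only [h0]
  rw [← Finset.mul_sum, Finset.sum_comm]
  have h1 : ∀ n : N, ∑ l : L, f ((n : X) * ((l : X) * x)) = ∑ l : L, f ((l : X) * x) := by
    intro n
    refine Fintype.sum_equiv (Equiv.mulLeft (⟨n, hNL n.2⟩ : L)) _ _ fun l => ?_
    simp [mul_assoc]
  rw [Finset.sum_congr rfl fun n _ => h1 n, Finset.sum_const, nsmul_eq_mul, Finset.card_univ,
    ← Nat.card_eq_fintype_card, inv_mul_cancel_left₀ hN]

/-- mean of the squared norm -/
noncomputable def rm (f : X → ℂ) (x : X) : ℝ := (Nat.card L : ℝ)⁻¹ * ∑ l : L, ‖f ((l : X) * x)‖ ^ 2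

theorem rm_eq (f : X → ℂ) (x : X) : (rm L f x : ℂ) = avg L (fun g => f g * conj (f g)) x := by
  unfold rm avg
  push_cast
  congr 1
  apply Finset.sum_congr rfl
  intro l _
  rw [Complex.mul_conj, Complex.normSq_eq_norm_sq]
  push_cast; rfl

theorem cauchy (f g : X → ℂ) (x : X) : ‖avg L (fun z => f z * conj (g z)) x‖ ^ 2 ≤ rm L f x * rm L g x := by
  unfold avg rm
  have hL : (0 : ℝ) < Nat.card L := by exact_mod_cast Nat.card_pos
  rw [norm_mul, norm_inv, Complex.norm_natCast]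
  have h1 : ‖∑ l : L, f ((l : X) * x) * conj (g ((l : X) * x))‖ ≤
      ∑ l : L, ‖f ((l : X) * x)‖ * ‖g ((l : X) * x)‖ := by
    refine (norm_sum_le _ _).trans (le_of_eq ?_)
    apply Finset.sum_congr rfl
    intro l _
    rw [norm_mul, Complex.norm_conj]
  have h2 := Finset.sum_mul_sq_le_sq_mul_sq Finset.univ (fun l : L => ‖f ((l : X) * x)‖) (fun l : L => ‖g ((l : X) * x)‖)
  have h3 : ‖∑ l : L, f ((l : X) * x) * conj (g ((l : X) * x))‖ ^ 2 ≤
      (∑ l : L, ‖f ((l : X) * x)‖ * ‖g ((l : X) * x)‖) ^ 2 :=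
    pow_le_pow_left₀ (norm_nonneg _) h1 2
  have h4 := h3.trans h2
  calc ((Nat.card L : ℝ)⁻¹ * ‖∑ l : L, f ((l : X) * x) * conj (g ((l : X) * x))‖) ^ 2 =
      ((Nat.card L : ℝ)⁻¹) ^ 2 * ‖∑ l : L, f ((l : X) * x) * conj (g ((l : X) * x))‖ ^ 2 := by ring
    _ ≤ ((Nat.card L : ℝ)⁻¹) ^ 2 * ((∑ l : L, ‖f ((l : X) * x)‖ ^ 2) * ∑ l : L, ‖g ((l : X) * x)‖ ^ 2) :=
        mul_le_mul_of_nonneg_left h4 (by positivity)
    _ = _ := by ring

/-- number of regular elements in a coset -/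
noncomputable def kap (p : ℕ) (x : X) : ℕ := by
  classical
  exact (Finset.univ.filter (fun l : L => ¬ p ∣ orderOf ((l : X) * x))).card

variable {N L} in
/-- the local inequality -/
theorem loc [hN : N.Normal] [hL : L.Normal] (hNL : N ≤ L) {p : ℕ} {Θ F F0 : X → ℂ} (hΘ : IsIrrCharacter X Θ)
    (hΘN : IsIrrCharacter N (fun n : N => Θ n)) (hΘL : IsIrrCharacter L (fun l : L => Θ l))
    (hF : IsClassFunction X F)
    (h1 : ∀ z, F z = avg N (fun g => F g * conj (Θ g)) z * Θ z)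
    (h2 : ∀ z, p ∣ orderOf z → F z = 0)
    (h3 : avg L (fun g => F g * conj (Θ g)) = avg L (fun g => F0 g * conj (Θ g)))
    (hsing : ∀ (n : N) (z : X), p ∣ orderOf z → p ∣ orderOf ((n : X) * z))
    {x : X} (hx : ¬ p ∣ orderOf x)
    (h4 : ∀ l : L, ¬ p ∣ orderOf ((l : X) * x) → ∃ u : X, ∃ n : N, (l : X) * x = u * ((n : X) * x) * u⁻¹) :
    ((kap L p x : ℝ) / Nat.card L) * rm L F x ≤ rm L F0 x := by
  classical
  have hLpos : (0 : ℝ) < Nat.card L := by exact_mod_cast Nat.card_pos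
  have hLne : (Nat.card L : ℂ) ≠ 0 := by exact_mod_cast Nat.card_pos.ne'
  set γ : X → ℂ := avg N (fun g => F g * conj (Θ g)) with hγ
  have hΘc := irr_isCharacter hΘ
  have hγc : IsClassFunction X γ := by
    apply avg_classFun
    intro g h
    simp only
    rw [hF g h, irr_classFun hΘ g h]
  have hγN : ∀ n ∈ N, ∀ z, γ (n * z) = γ z := fun n hn z => avg_mul_left N _ ⟨n, hn⟩ z
  have hγs : ∀ z, p ∣ orderOf z → γ z = 0 := by
    intro z hz
    rw [hγ]
    unfold avg
    rw [Finset.sum_eq_zero, mul_zero]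
    intro n _
    rw [h2 _ (hsing n z hz), zero_mul]
  have hγl : ∀ l : L, γ ((l : X) * x) = if ¬ p ∣ orderOf ((l : X) * x) then γ x else 0 := by
    intro l
    split_ifs with h
    · exact hγs _ h
    · obtain ⟨u, n, hun⟩ := h4 l h
      rw [hun, hγc, hγN n n.2]
  -- averages
  have hΘ1 := avg_norm_sq N hΘc hΘN
  have hΘ2 := avg_norm_sq L hΘc hΘL
  have hA : avg L (fun g => F g * conj (Θ g)) x = ((kap L p x : ℂ) / Nat.card L) * γ x := by
    have e1 : (fun g => F g * conj (Θ g)) = fun g => γ g * (Θ g * conj (Θ g)) := by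
      funext g
      rw [h1 g]; ring
    rw [e1, ← avg_avg hNL, avg_mul_of_inv N γ _ hγN, hΘ1]
    unfold avg
    simp only [mul_one, hγl]
    rw [← Finset.sum_filter, Finset.sum_const, nsmul_eq_mul]
    unfold kap
    field_simp
  have hB : rm L F x = ((kap L p x : ℝ) / Nat.card L) * ‖γ x‖ ^ 2 := by
    have e1 : ((rm L F x : ℝ) : ℂ) = ((((kap L p x : ℝ) / Nat.card L) * ‖γ x‖ ^ 2 : ℝ) : ℂ) := by
      rw [rm_eq]
      have e1 : (fun g => F g * conj (F g)) = fun g => (γ g * conj (γ g)) * (Θ g * conj (Θ g)) := by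
        funext g
        rw [h1 g, map_mul]; ring
      rw [e1, ← avg_avg hNL, avg_mul_of_inv N (fun g => γ g * conj (γ g)) _ (fun n hn z => by rw [hγN n hn]), hΘ1]
      unfold avg
      have e2 : ∀ l : L, γ ((l : X) * x) * conj (γ ((l : X) * x)) * 1 =
          if ¬ p ∣ orderOf ((l : X) * x) then γ x * conj (γ x) else 0 := by
        intro l
        rw [hγl l, mul_one]
        split_ifs <;> simp
      simp only [e2]
      rw [← Finset.sum_filter, Finset.sum_const, nsmul_eq_mul, Complex.mul_conj, Complex.normSq_eq_norm_sq]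
      unfold kap
      push_cast
      field_simp
    exact_mod_cast e1
  have hC := cauchy L F0 Θ x
  have hD : rm L Θ x = 1 := by
    have e1 : ((rm L Θ x : ℝ) : ℂ) = ((1 : ℝ) : ℂ) := by rw [rm_eq, hΘ2]; simp
    exact_mod_cast e1
  rw [hD, mul_one, ← h3, hA, norm_mul] at hC
  have hE : ‖((kap L p x : ℂ) / Nat.card L)‖ = (kap L p x : ℝ) / Nat.card L := by
    rw [norm_div, Complex.norm_natCast, Complex.norm_natCast]
  rw [hE] at hC
  rw [hB]
  calc (kap L p x : ℝ) / Nat.card L * ((kap L p x : ℝ) / Nat.card L * ‖γ x‖ ^ 2) =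
      ((kap L p x : ℝ) / Nat.card L * ‖γ x‖) ^ 2 := by ring
    _ ≤ _ := hC

end Ambient

section GroupFacts

variable {G : Type u} [Group G] [Finite G] {p : ℕ} [hpf : Fact p.Prime]

theorem coprime_core {N : Subgroup G} (hNp : ¬ p ∣ Nat.card N) {y : G} (hy : y ∈ N) : ¬ p ∣ orderOf y := fun h =>
  hNp (h.trans (Subgroup.orderOf_dvd_natCard N hy))

theorem sing_mul {N : Subgroup G} [hN : N.Normal] (hNp : ¬ p ∣ Nat.card N) (n : N) {z : G}
    (hz : p ∣ orderOf z) : p ∣ orderOf ((n : G) * z) := by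
  have h1 : p ∣ orderOf (QuotientGroup.mk' N z) := by
    by_contra h
    set k := orderOf (QuotientGroup.mk' N z) with hk
    have h2 : z ^ k ∈ N := by
      rw [← QuotientGroup.eq_one_iff, ← QuotientGroup.coe_mk']
      rw [map_pow, hk, pow_orderOf_eq_one]
    have h3 : (z ^ k) ^ (Nat.card N) = 1 := by
      have := Subgroup.orderOf_dvd_natCard N h2
      exact orderOf_dvd_iff_pow_eq_one.mp this
    rw [← pow_mul] at h3
    have h4 := hz.trans (orderOf_dvd_of_pow_eq_one h3)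
    rcases hpf.out.dvd_mul.mp h4 with h5 | h5
    · exact h h5
    · exact hNp h5
  have h2 : QuotientGroup.mk' N ((n : G) * z) = QuotientGroup.mk' N z := by
    rw [map_mul]
    have : QuotientGroup.mk' N (n : G) = 1 := (QuotientGroup.eq_one_iff _).mpr n.2
    rw [this, one_mul]
  rw [← h2] at h1
  exact h1.trans (orderOf_map_dvd _ _)

theorem reg_mul {N : Subgroup G} [hN : N.Normal] (hNp : ¬ p ∣ Nat.card N) (n : N) {z : G}
    (hz : ¬ p ∣ orderOf z) : ¬ p ∣ orderOf ((n : G) * z) := by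
  intro h
  have := sing_mul hNp n⁻¹ h
  rw [InvMemClass.coe_inv, inv_mul_cancel_left] at this
  exact hz this

/-- regular elements of a coset of a normal `p`-subgroup are conjugate -/
theorem conj_coset {L : Subgroup G} [hL : L.Normal] (hLp : IsPGroup p L) {x l : G} (hl : l ∈ L)
    (hx : ¬ p ∣ orderOf x) (hlx : ¬ p ∣ orderOf (l * x)) : ∃ u ∈ L, u * x * u⁻¹ = l * x := by
  have hdisj : ∀ y : G, ¬ p ∣ orderOf y → ∀ w ∈ Subgroup.zpowers y, w ∈ L → w = 1 := by
    intro y hy w hw hwL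
    obtain ⟨k, hk⟩ := hLp.exists_card_eq
    have h1 : orderOf w ∣ p ^ k := by rw [← hk]; exact Subgroup.orderOf_dvd_natCard L hwL
    have h2 : orderOf w ∣ orderOf y := by
      have h5 := Subgroup.orderOf_dvd_natCard _ hw
      rwa [Nat.card_zpowers] at h5
    have h3 : Nat.Coprime (orderOf y) (p ^ k) :=
      Nat.Coprime.pow_right _ ((Nat.Prime.coprime_iff_not_dvd hpf.out).mpr hy).symm
    have h4 := Nat.dvd_gcd h2 h1
    rw [h3] at h4
    exact orderOf_eq_one_iff.mp (Nat.dvd_one.mp h4)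
  have hord : ∀ y : G, ¬ p ∣ orderOf y → orderOf y = orderOf (QuotientGroup.mk' L y) := by
    intro y hy
    apply Nat.dvd_antisymm
    · rw [orderOf_dvd_iff_pow_eq_one]
      apply hdisj y hy _ (Subgroup.pow_mem _ (Subgroup.mem_zpowers y) _)
      rw [← QuotientGroup.eq_one_iff, ← QuotientGroup.coe_mk', map_pow, pow_orderOf_eq_one]
    · exact orderOf_map_dvd _ _
  have hmk : QuotientGroup.mk' L (l * x) = QuotientGroup.mk' L x := by
    rw [map_mul]
    have : QuotientGroup.mk' L l = 1 := (QuotientGroup.eq_one_iff _).mpr hl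
    rw [this, one_mul]
  obtain ⟨k, hk⟩ := hLp.exists_card_eq
  obtain ⟨u, hu, h1⟩ := CfsgLib.Coprime.sz_conj (N := L) (H := Subgroup.zpowers x) (K := Subgroup.zpowers (l * x))
    (by rw [Subgroup.normalizer_eq_top_iff.mpr hL]; exact le_top)
    (by rw [Nat.card_zpowers, hk]; exact Nat.Coprime.pow_right _ ((Nat.Prime.coprime_iff_not_dvd hpf.out).mpr hx).symm)
    (Or.inl (by
      haveI : IsMulCommutative (Subgroup.zpowers x) := inferInstance
      infer_instance))
    (by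
      rw [Subgroup.zpowers_le]
      exact Subgroup.mul_mem_sup hl (Subgroup.mem_zpowers x))
    (by rw [Nat.card_zpowers, Nat.card_zpowers, hord _ hx, hord _ hlx, hmk])
  refine ⟨u, hu, ?_⟩
  have h2 : u * x * u⁻¹ ∈ Subgroup.zpowers (l * x) := by
    rw [← h1]
    exact ⟨x, Subgroup.mem_zpowers x, rfl⟩
  have h3 : (u * x * u⁻¹) * (l * x)⁻¹ ∈ Subgroup.zpowers (l * x) :=
    Subgroup.mul_mem _ h2 (Subgroup.inv_mem _ (Subgroup.mem_zpowers _))
  have h4 : (u * x * u⁻¹) * (l * x)⁻¹ ∈ L := by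
    rw [← QuotientGroup.eq_one_iff, ← QuotientGroup.coe_mk', map_mul, map_inv, hmk, map_mul, map_mul, map_inv]
    have : QuotientGroup.mk' L u = 1 := (QuotientGroup.eq_one_iff _).mpr hu
    rw [this]; simp
  exact mul_inv_eq_one.mp (hdisj _ hlx _ h3 h4)

theorem conj_coset' {N L : Subgroup G} [hN : N.Normal] [hL : L.Normal] (hNL : N ≤ L)
    (hLp : IsPGroup p (L.map (QuotientGroup.mk' N))) {x l : G} (hl : l ∈ L)
    (hx : ¬ p ∣ orderOf x) (hlx : ¬ p ∣ orderOf (l * x)) : ∃ u ∈ L, ∃ n : N, l * x = u * ((n : G) * x) * u⁻¹ := by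
  haveI : (L.map (QuotientGroup.mk' N)).Normal := hL.map _ (QuotientGroup.mk'_surjective N)
  have hmap : ∀ y : G, ¬ p ∣ orderOf y → ¬ p ∣ orderOf (QuotientGroup.mk' N y) := fun y hy h =>
    hy (h.trans (orderOf_map_dvd _ _))
  obtain ⟨w, hw, h1⟩ := conj_coset hLp (x := QuotientGroup.mk' N x) (l := QuotientGroup.mk' N l) ⟨l, hl, rfl⟩
    (hmap x hx) (by rw [← map_mul]; exact hmap _ hlx)
  obtain ⟨u, hu, rfl⟩ := hw
  refine ⟨u, hu, ⟨u⁻¹ * (l * x) * u * x⁻¹, ?_⟩, ?_⟩
  · rw [← QuotientGroup.eq_one_iff, ← QuotientGroup.coe_mk']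
    rw [map_mul, map_mul, map_mul, map_mul, ← h1, map_inv, map_inv]
    group
  · simp only
    group

/-- elements centralizing `O_{p',p}/O_{p'}` -/
theorem mem_of_central (hsolv : IsPSolvable p G) {N L : Subgroup G} [hN : N.Normal] (hNd : N = pPrimeCore p G)
    (hLd : L = (pCore p (G ⧸ N)).comap (QuotientGroup.mk' N)) {x : G} (hx : ¬ p ∣ orderOf x)
    (h : ∀ u ∈ L, u * x * u⁻¹ * x⁻¹ ∈ N) : x ∈ N := by
  subst hNd
  have hHH : Subgroup.centralizer (pCore p (G ⧸ pPrimeCore p G) : Set (G ⧸ pPrimeCore p G)) ≤ pCore p (G ⧸ pPrimeCore p G) :=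
    CfsgLib.PSolv19.hall_higman (CfsgLib.PSolv19.psolv_quotient hpf.out hsolv (pPrimeCore p G))
      (CfsgLib.Cores.pPrimeCore_quotient_pPrimeCore p)
  have h1 : QuotientGroup.mk' (pPrimeCore p G) x ∈ pCore p (G ⧸ pPrimeCore p G) := by
    apply hHH
    rw [Subgroup.mem_centralizer_iff]
    intro y hy
    obtain ⟨u, rfl⟩ := QuotientGroup.mk'_surjective (pPrimeCore p G) y
    have hu : u ∈ L := by rw [hLd]; exact hy
    have h2 : QuotientGroup.mk' (pPrimeCore p G) (u * x * u⁻¹ * x⁻¹) = 1 := (QuotientGroup.eq_one_iff _).mpr (h u hu)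
    rw [← map_mul, ← map_mul]
    have h3 : u * x = (u * x * u⁻¹ * x⁻¹) * (x * u) := by group
    rw [h3, map_mul, h2, one_mul]
  have h2 : QuotientGroup.mk' (pPrimeCore p G) x = 1 := by
    obtain ⟨k, hk⟩ := (CfsgLib.Cores.pCore_isPGroup (G := G ⧸ pPrimeCore p G) p).exists_card_eq
    have e1 := Subgroup.orderOf_dvd_natCard _ h1
    rw [hk] at e1
    have e2 : orderOf (QuotientGroup.mk' (pPrimeCore p G) x) ∣ orderOf x := orderOf_map_dvd _ _
    have e3 : Nat.Coprime (orderOf x) (p ^ k) :=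
      Nat.Coprime.pow_right _ ((Nat.Prime.coprime_iff_not_dvd hpf.out).mpr hx).symm
    have e4 := Nat.dvd_gcd e2 e1
    rw [e3] at e4
    exact orderOf_eq_one_iff.mp (Nat.dvd_one.mp e4)
  exact (QuotientGroup.eq_one_iff x).mp h2

end GroupFacts

end CfsgLib.Osima20
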