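import Cfsg.Agent.LibOsima20
import Cfsg.Agent.LibExtend9

set_option autoImplicit false
set_option linter.all false
set_option maxHeartbeats 1000000

/-! # Central idempotents of `p`-solvable groups supported on `p`-regular elements, II (helper20) -/

namespace CfsgLib.Osima20

open Cfsg CfsgLib.CharBasic CfsgLib.CharIndA CfsgLib.Clifford CfsgLib.CharNorm CfsgLib.CharMore CfsgLib.Ind2 CfsgLib.Gallagher CfsgLib.Extend
open scoped ComplexConjugate

universe u

theorem detOrder_equiv {G H : Type u} [Group G] [Finite G] [Group H] [Finite H] (e : H ≃* G) {χ : G → ℂ}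
    (hχ : IsIrrCharacter G χ) : detOrder (χ ∘ e) = detOrder χ := by
  have h0 : IsIrrCharacter H (χ ∘ e) := isIrrCharacter_comp_equiv hχ e
  obtain ⟨n, ρ, hρ, rfl⟩ := hχ
  let τ : Representation ℂ H (Fin n → ℂ) := (ρ.comp e.toMonoidHom : H →* _)
  have h1 : τ.character = ρ.character ∘ e := rfl
  haveI : τ.IsIrreducible := isIrreducible_of_char _ (by rw [h1]; exact h0)
  have h2 : detChar (ρ.character ∘ e) = fun h => LinearMap.det (ρ (e h)) := by
    rw [← h1, detChar_eq]; rfl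
  unfold detOrder
  rw [h2, detChar_eq]
  apply Nat.dvd_antisymm
  · apply orderOf_dvd_of_pow_eq_one
    ext g
    have h3 := congrFun (pow_orderOf_eq_one (fun g => LinearMap.det (ρ g))) (e g)
    rw [Pi.pow_apply, Pi.one_apply] at h3 ⊢
    exact h3
  · apply orderOf_dvd_of_pow_eq_one
    ext g
    have h3 := congrFun (pow_orderOf_eq_one (fun g => LinearMap.det (ρ (e g)))) (e.symm g)
    rw [Pi.pow_apply, Pi.one_apply, e.apply_symm_apply] at h3
    rw [Pi.pow_apply, Pi.one_apply]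
    exact h3

section

variable {G : Type u} [Group G] [Fintype G] {p : ℕ} [hpf : Fact p.Prime]

omit [Fintype G] hpf in
theorem relIndex_eq {N L : Subgroup G} [hN : N.Normal] : N.relIndex L = Nat.card (L.map (QuotientGroup.mk' N)) := by
  have h := Subgroup.relIndex_comap (⊥ : Subgroup (G ⧸ N)) (QuotientGroup.mk' N) L
  rw [MonoidHom.comap_bot, QuotientGroup.ker_mk', Subgroup.relIndex_bot_left] at h
  exact h

theorem exists_hat {N L : Subgroup G} [hN : N.Normal] [hL : L.Normal] (hNL : N ≤ L) (hNp : ¬ p ∣ Nat.card N)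
    (hLp : IsPGroup p (L.map (QuotientGroup.mk' N))) {θ : N → ℂ} (hθ : IsIrrCharacter N θ)
    (hinv : ∀ g, cj hN g θ = θ) :
    ∃ θh : L → ℂ, IsIrrCharacter L θh ∧ (∀ n : N, θh ⟨n, hNL n.2⟩ = θ n) ∧ ∀ g, cj hL g θh = θh := by
  obtain ⟨k, hk⟩ := hLp.exists_card_eq
  haveI : (N.subgroupOf L).Normal := subgroupOf_normal hN L
  have hind : (N.subgroupOf L).index = p ^ k := by
    rw [← hk, ← relIndex_eq]; rfl
  have hpN : Nat.Coprime (p ^ k) (Nat.card N) := Nat.Coprime.pow_left _ ((Nat.Prime.coprime_iff_not_dvd hpf.out).mpr hNp)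
  haveI := Fintype.ofFinite N
  obtain ⟨d, hdpos, hd⟩ := irr_one_nat hθ
  have hθ' : IsIrrCharacter (N.subgroupOf L) (toSub L θ) := (toSub_irr hNL).mpr hθ
  have hdet : detOrder (toSub L θ) = detOrder θ := by
    rw [toSub_eq_comp hNL]; exact detOrder_equiv _ hθ
  have hcop : Nat.Coprime (N.subgroupOf L).index (detOrder (toSub L θ) * d) := by
    rw [hind, hdet]
    exact Nat.Coprime.mul_right (Nat.Coprime.coprime_dvd_right (detOrder_dvd_card hθ) hpN)
      (Nat.Coprime.coprime_dvd_right (degree_dvd_card hθ hd) hpN)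
  have hinv' : Inv (N.subgroupOf L) (toSub L θ) := by
    rw [inv_iff_cj]
    intro g
    have := cj_toSub (T := L) hN g θ
    rw [hinv] at this
    exact this
  obtain ⟨θh, ⟨h1, h2, h3⟩, h4⟩ := ext_coprime hθ' hinv' d hd hcop
  refine ⟨θh, h1, fun n => h2 ⟨⟨n, hNL n.2⟩, Subgroup.mem_subgroupOf.mpr n.2⟩, fun g => ?_⟩
  apply h4
  · exact cj_irr hL g h1
  · intro n
    have e1 : cj hL g θh (n : L) = θh ((⟨⟨g * n * g⁻¹, hL.conj_mem _ (n : L).2 g⟩,
      Subgroup.mem_subgroupOf.mpr (hN.conj_mem _ (Subgroup.mem_subgroupOf.mp n.2) g)⟩ : N.subgroupOf L) : L) := rfl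
    rw [e1, h2]
    exact congrFun (hinv g) ⟨((n : L) : G), Subgroup.mem_subgroupOf.mp n.2⟩
  · rw [cj_eq_comp, detOrder_equiv _ h1, h3]
    exact Nat.Coprime.coprime_mul_right_right hcop

theorem exists_Theta {L : Subgroup G} [hL : L.Normal] {θh : L → ℂ} (hθh : IsIrrCharacter L θh)
    (hinv : ∀ g, cj hL g θh = θh) (x : G) :
    ∃ (X : Subgroup G) (hLX : L ≤ X), x ∈ X ∧ ∃ Θ : X → ℂ, IsIrrCharacter X Θ ∧ ∀ l : L, Θ ⟨l, hLX l.2⟩ = θh l := by
  obtain ⟨X, hX⟩ : ∃ X, X = L ⊔ Subgroup.zpowers x := ⟨_, rfl⟩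
  have hLX : L ≤ X := by rw [hX]; exact le_sup_left
  have hxX : x ∈ X := by rw [hX]; exact (le_sup_right : Subgroup.zpowers x ≤ _) (Subgroup.mem_zpowers x)
  refine ⟨X, hLX, hxX, ?_⟩
  haveI : (L.subgroupOf X).Normal := subgroupOf_normal hL X
  have hcyc : IsCyclic (X ⧸ L.subgroupOf X) := by
    refine ⟨⟨QuotientGroup.mk ⟨x, hxX⟩, fun y => ?_⟩⟩
    obtain ⟨⟨y, hy⟩, rfl⟩ := QuotientGroup.mk_surjective y
    have hy' : y ∈ ((L ⊔ Subgroup.zpowers x : Subgroup G) : Set G) := by rw [← hX]; exact hy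
    rw [Subgroup.normal_mul] at hy'
    obtain ⟨l, hl, w, ⟨k, rfl⟩, rfl⟩ := Set.mem_mul.mp hy'
    refine ⟨k, ?_⟩
    simp only
    rw [← QuotientGroup.mk_zpow, QuotientGroup.eq, Subgroup.mem_subgroupOf]
    have e1 : (((⟨x, hxX⟩ : X) ^ k)⁻¹ * ⟨l * x ^ k, hy⟩ : X).1 = (x ^ k)⁻¹ * l * (x ^ k)⁻¹⁻¹ := by
      simp [mul_assoc]
    rw [e1]
    exact hL.conj_mem _ hl _
  obtain ⟨Θ, h1, h2⟩ := ext_cyclic hcyc ((toSub_irr hLX).mpr hθh) (by
    rw [inv_iff_cj]
    intro g
    have := cj_toSub (T := X) hL g θh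
    rw [hinv] at this
    exact this)
  exact ⟨Θ, h1, fun l => h2 ⟨⟨l, hLX l.2⟩, Subgroup.mem_subgroupOf.mpr l.2⟩⟩

/-! ### Transport to a subgroup -/

theorem rm_sub {L X : Subgroup G} (h : L ≤ X) [Fintype L] [Fintype (L.subgroupOf X)] (f : G → ℂ) {x : G} (hx : x ∈ X) :
    rm (L.subgroupOf X) (fun z : X => f z) ⟨x, hx⟩ = rm L f x := by
  unfold rm
  rw [Nat.card_congr (Subgroup.subgroupOfEquivOfLe h).toEquiv]
  congr 1
  exact Fintype.sum_equiv (Subgroup.subgroupOfEquivOfLe h).toEquiv _ _ fun l => rfl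

theorem kap_sub {L X : Subgroup G} (h : L ≤ X) [Fintype L] [Fintype (L.subgroupOf X)] {x : G} (hx : x ∈ X) :
    kap (L.subgroupOf X) p (⟨x, hx⟩ : X) = kap L p x := by
  classical
  unfold kap
  apply Finset.card_equiv (Subgroup.subgroupOfEquivOfLe h).toEquiv
  intro l
  rw [Finset.mem_filter, Finset.mem_filter]
  have e1 : orderOf (((l : X) * ⟨x, hx⟩ : X)) = orderOf (((Subgroup.subgroupOfEquivOfLe h).toEquiv l : G) * x) := by
    rw [← Subgroup.orderOf_coe]; rfl
  simp [e1]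

theorem rm_mul {L : Subgroup G} [Fintype L] (f : G → ℂ) (l : L) (x : G) : rm L f ((l : G) * x) = rm L f x := by
  unfold rm
  congr 1
  refine Fintype.sum_equiv (Equiv.mulRight l) _ _ fun l' => ?_
  simp [mul_assoc]

theorem kap_mul {L : Subgroup G} [Fintype L] (l : L) (x : G) : kap L p ((l : G) * x) = kap L p x := by
  classical
  unfold kap
  apply Finset.card_equiv (Equiv.mulRight l)
  intro l'
  rw [Finset.mem_filter, Finset.mem_filter]
  simp [mul_assoc]

theorem rm_nonneg {L : Subgroup G} [Fintype L] (f : G → ℂ) (x : G) : 0 ≤ rm L f x := by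
  unfold rm; positivity

theorem rm_sum {L : Subgroup G} [Fintype L] (f : G → ℂ) : ∑ x : G, rm L f x = ∑ x : G, ‖f x‖ ^ 2 := by
  have hL : (Nat.card L : ℝ) ≠ 0 := by exact_mod_cast Nat.card_pos.ne'
  unfold rm
  rw [← Finset.mul_sum, Finset.sum_comm]
  have h1 : ∀ l : L, ∑ x : G, ‖f ((l : G) * x)‖ ^ 2 = ∑ x : G, ‖f x‖ ^ 2 := fun l =>
    Fintype.sum_equiv (Equiv.mulLeft (l : G)) _ _ fun x => rfl
  rw [Finset.sum_congr rfl fun l _ => h1 l, Finset.sum_const, nsmul_eq_mul, Finset.card_univ,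
    ← Nat.card_eq_fintype_card, inv_mul_cancel_left₀ hL]

/-- the class function of a set of characters -/
noncomputable def FF (U : Finset (IrrCharacter G)) : G → ℂ := fun g => ∑ χ ∈ U, (χ : G → ℂ) 1 * (χ : G → ℂ) g

theorem FF_classFun (U : Finset (IrrCharacter G)) : IsClassFunction G (FF U) := by
  intro g h
  unfold FF
  apply Finset.sum_congr rfl
  intro χ _
  rw [irr_classFun χ.2 g h]

theorem avg_zero_of_inner {L : Subgroup G} [hL : L.Normal] [Fintype L] {χ Θ : G → ℂ} (hχ : IsCharacter G χ) (hΘ : IsCharacter G Θ)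
    (h : classInner (fun l : L => χ l) (fun l : L => Θ l) = 0) (x : G) : avg L (fun g => χ g * conj (Θ g)) x = 0 := by
  have h1 : IsCharacter G (avg L (fun g => χ g * conj (Θ g))) := avg_char L (isCharacter_mul hχ (isCharacter_conj hΘ))
  have h2 : avg L (fun g => χ g * conj (Θ g)) 1 = 0 := by rw [avg_one, h]
  have h3 := char_norm_le h1 x
  rw [h2] at h3
  simpa using h3

theorem loc_G {N L : Subgroup G} [hN : N.Normal] [hL : L.Normal] [Fintype N] [Fintype L] (hNL : N ≤ L)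
    (hNp : ¬ p ∣ Nat.card N) (hLp : IsPGroup p (L.map (QuotientGroup.mk' N))) {θ : N → ℂ} (hθ : IsIrrCharacter N θ)
    {θh : L → ℂ} (hθh : IsIrrCharacter L θh) (hext : ∀ n : N, θh ⟨n, hNL n.2⟩ = θ n) (hinvh : ∀ g, cj hL g θh = θh)
    (U V : Finset (IrrCharacter G)) (hU : ∀ χ ∈ U, ∃ e : ℕ, ∀ n : N, (χ : G → ℂ) n = e * θ n)
    (hVU : V ⊆ U) (hV : ∀ χ ∈ U, χ ∉ V → classInner (fun l : L => (χ : G → ℂ) l) θh = 0)
    (h2 : ∀ z, p ∣ orderOf z → FF U z = 0) {x : G} (hx : ¬ p ∣ orderOf x) :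
    ((kap L p x : ℝ) / Nat.card L) * rm L (FF U) x ≤ rm L (FF V) x := by
  classical
  obtain ⟨X, hLX, hxX, Θ, hΘ, hΘext⟩ := exists_Theta hθh hinvh x
  have hNX : N ≤ X := hNL.trans hLX
  haveI : (L.subgroupOf X).Normal := subgroupOf_normal hL X
  haveI : (N.subgroupOf X).Normal := subgroupOf_normal hN X
  haveI := Fintype.ofFinite X
  haveI := Fintype.ofFinite (L.subgroupOf X)
  haveI := Fintype.ofFinite (N.subgroupOf X)
  have hΘL : (fun l : L.subgroupOf X => Θ l) = toSub X θh := by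
    funext l
    exact hΘext ⟨((l : X) : G), Subgroup.mem_subgroupOf.mp l.2⟩
  have hΘN : (fun l : N.subgroupOf X => Θ l) = toSub X θ := by
    funext l
    have h1 := hΘext ⟨((l : X) : G), hNL (Subgroup.mem_subgroupOf.mp l.2)⟩
    have h3 := hext ⟨((l : X) : G), Subgroup.mem_subgroupOf.mp l.2⟩
    exact h1.trans h3
  have hΘc := irr_isCharacter hΘ
  have hΘN' : IsIrrCharacter (N.subgroupOf X) (fun l : N.subgroupOf X => Θ l) := by
    rw [hΘN]; exact (toSub_irr hNX).mpr hθ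
  have hΘL' : IsIrrCharacter (L.subgroupOf X) (fun l : L.subgroupOf X => Θ l) := by
    rw [hΘL]; exact (toSub_irr hLX).mpr hθh
  have hmain := loc (X := X) (N := N.subgroupOf X) (L := L.subgroupOf X) (p := p) (Θ := Θ) (F := fun z : X => FF U z)
    (F0 := fun z : X => FF V z) (x := ⟨x, hxX⟩)
    (by intro z hz; rw [Subgroup.mem_subgroupOf] at hz ⊢; exact hNL hz) hΘ hΘN' hΘL'
    (by intro g h; exact FF_classFun U _ _)
    (by
      intro z
      have e1 : ∀ χ ∈ U, (χ : G → ℂ) z = avg (N.subgroupOf X) (fun g : X => (χ : G → ℂ) g * conj (Θ g)) z * Θ z := by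
        intro χ hχ
        obtain ⟨e, he⟩ := hU χ hχ
        obtain ⟨-, h3, -⟩ := char_factor (N.subgroupOf X) hΘ hΘN' (isCharacter_restrict (irr_isCharacter χ.2) X) e (by
          intro n
          rw [congrFun hΘN n]
          exact he ⟨((n : X) : G), Subgroup.mem_subgroupOf.mp n.2⟩)
        exact (h3 z).symm
      have e2 : avg (N.subgroupOf X) (fun g : X => FF U g * conj (Θ g)) z =
          ∑ χ ∈ U, (χ : G → ℂ) 1 * avg (N.subgroupOf X) (fun g : X => (χ : G → ℂ) g * conj (Θ g)) z := by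
        unfold avg FF
        simp only [Finset.sum_mul, Finset.mul_sum]
        rw [Finset.sum_comm]
        apply Finset.sum_congr rfl; intro χ _
        apply Finset.sum_congr rfl; intro n _
        push_cast
        ring
      rw [e2, Finset.sum_mul]
      unfold FF
      apply Finset.sum_congr rfl
      intro χ hχ
      rw [mul_assoc, ← e1 χ hχ])
    (by
      intro z hz
      apply h2
      rwa [Subgroup.orderOf_coe])
    (by
      funext z
      have e2 : ∀ W : Finset (IrrCharacter G), avg (L.subgroupOf X) (fun g : X => FF W g * conj (Θ g)) z =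
          ∑ χ ∈ W, (χ : G → ℂ) 1 * avg (L.subgroupOf X) (fun g : X => (χ : G → ℂ) g * conj (Θ g)) z := by
        intro W
        unfold avg FF
        simp only [Finset.sum_mul, Finset.mul_sum]
        rw [Finset.sum_comm]
        apply Finset.sum_congr rfl; intro χ _
        apply Finset.sum_congr rfl; intro n _
        push_cast
        ring
      rw [e2, e2]
      symm
      apply Finset.sum_subset hVU
      intro χ hχ hχV
      rw [avg_zero_of_inner (isCharacter_restrict (irr_isCharacter χ.2) X) hΘc, mul_zero]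
      have e3 := hV χ hχ hχV
      have e4 : (fun l : L.subgroupOf X => (χ : G → ℂ) ((l : X) : G)) = toSub X (fun l : L => (χ : G → ℂ) l) := rfl
      rw [hΘL]
      exact (ci_toSub hLX _ _).trans e3)
    (by
      intro n z hz
      rw [← Subgroup.orderOf_coe] at hz ⊢
      exact sing_mul hNp ⟨((n : X) : G), Subgroup.mem_subgroupOf.mp n.2⟩ hz)
    (by rw [← Subgroup.orderOf_coe]; exact hx)
    (by
      intro l hl
      rw [← Subgroup.orderOf_coe] at hl
      obtain ⟨u, hu, n, hn⟩ := conj_coset' (p := p) (N := N) (L := L) hNL hLp (x := x) (l := ((l : X) : G)) (Subgroup.mem_subgroupOf.mp l.2) hx hl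
      refine ⟨⟨u, hLX hu⟩, ⟨⟨n, hNX n.2⟩, Subgroup.mem_subgroupOf.mpr n.2⟩, ?_⟩
      apply Subtype.ext
      exact hn)
  rw [rm_sub hLX (FF U) hxX, rm_sub hLX (FF V) hxX, kap_sub hLX hxX, Nat.card_congr (Subgroup.subgroupOfEquivOfLe hLX).toEquiv] at hmain
  exact hmain

end

end CfsgLib.Osima20
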