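import Cfsg.Agent.LibOsima20b
import Cfsg.Agent.LibBlockFR
import Cfsg.Agent.LibFongPS

set_option autoImplicit false
set_option linter.all false
set_option maxHeartbeats 1000000

/-! # Central idempotents of `p`-solvable groups supported on `p`-regular elements, III (helper20) -/

namespace CfsgLib.Osima20

open Cfsg CfsgLib.CharBasic CfsgLib.CharIndA CfsgLib.Clifford CfsgLib.CharNorm CfsgLib.CharMore CfsgLib.Ind2 CfsgLib.Gallagher CfsgLib.Extend
open CfsgLib.BlockCore CfsgLib.BlockIdem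
open scoped ComplexConjugate

universe u

section

variable {G : Type u} [Group G] [Fintype G] {p : ℕ} [hpf : Fact p.Prime]

theorem FF_eq (U : Finset (IrrCharacter G)) : FF U = ∑ χ ∈ U, ((χ : G → ℂ) 1) • (χ : G → ℂ) := by
  funext g
  unfold FF
  rw [Finset.sum_apply]; rfl

theorem sum_norm_FF (U : Finset (IrrCharacter G)) :
    ∑ x : G, ‖FF U x‖ ^ 2 = (Nat.card G : ℝ) * ∑ χ ∈ U, ‖(χ : G → ℂ) 1‖ ^ 2 := by
  classical
  have hG : (Nat.card G : ℂ) ≠ 0 := by exact_mod_cast Nat.card_pos.ne'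
  have h1 : classInner (FF U) (FF U) = ∑ χ ∈ U, (χ : G → ℂ) 1 * conj ((χ : G → ℂ) 1) := by
    conv_lhs => rw [FF_eq]
    rw [CfsgLib.CharBasic.inner_sum_left]
    apply Finset.sum_congr rfl
    intro χ hχ
    rw [CfsgLib.CharBasic.inner_smul_left, CfsgLib.CharBasic.inner_sum_right, Finset.sum_eq_single χ]
    · rw [CfsgLib.CharBasic.inner_smul_right, irr_inner_self χ.2, mul_one]
    · intro ψ _ hψ
      rw [CfsgLib.CharBasic.inner_smul_right, irr_inner_ne χ.2 ψ.2 (fun h => hψ (Subtype.ext h.symm)), mul_zero]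
    · intro h; exact absurd hχ h
  have h2 : ((∑ x : G, ‖FF U x‖ ^ 2 : ℝ) : ℂ) = (((Nat.card G : ℝ) * ∑ χ ∈ U, ‖(χ : G → ℂ) 1‖ ^ 2 : ℝ) : ℂ) := by
    unfold classInner at h1
    rw [inv_mul_eq_iff_eq_mul₀ hG] at h1
    push_cast
    have e1 : ∀ z : ℂ, ((‖z‖ : ℝ) : ℂ) ^ 2 = z * conj z := by
      intro z
      rw [Complex.mul_conj, Complex.normSq_eq_norm_sq]
      push_cast; rfl
    simp only [e1]
    exact h1
  exact_mod_cast h2

theorem inner_FF_left {H : Subgroup G} [Fintype H] (U : Finset (IrrCharacter G)) (θ : H → ℂ) :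
    classInner (fun h : H => FF U h) θ = ∑ χ ∈ U, (χ : G → ℂ) 1 * classInner (fun h : H => (χ : G → ℂ) h) θ := by
  have h1 : (fun h : H => FF U h) = ∑ χ ∈ U, ((χ : G → ℂ) 1) • (fun h : H => (χ : G → ℂ) h) := by
    funext h
    unfold FF
    rw [Finset.sum_apply]; rfl
  rw [h1, CfsgLib.CharBasic.inner_sum_left]
  apply Finset.sum_congr rfl
  intro χ _
  rw [CfsgLib.CharBasic.inner_smul_left]

/-- support of an idempotent -/
theorem F_supp (hsolv : IsPSolvable p G) {N L : Subgroup G} [hN : N.Normal] [hL : L.Normal] [Fintype N] [Fintype L] (hNd : N = pPrimeCore p G)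
    (hLd : L = (pCore p (G ⧸ N)).comap (QuotientGroup.mk' N)) (hNL : N ≤ L) (hNp : ¬ p ∣ Nat.card N)
    (hLp : IsPGroup p (L.map (QuotientGroup.mk' N)))
    {θ : N → ℂ} (hθ : IsIrrCharacter N θ) (hinv : ∀ g, cj hN g θ = θ) (U : Finset (IrrCharacter G))
    (hUθ : ∀ χ ∈ U, classInner (fun n : N => (χ : G → ℂ) n) θ ≠ 0)
    (h2 : ∀ z, p ∣ orderOf z → FF U z = 0) {x : G} (hFx : FF U x ≠ 0) : x ∈ N := by
  classical
  obtain ⟨θh, hθh, hext, hinvh⟩ := exists_hat hNL hNp hLp hθ hinv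
  have hresN : ∀ χ ∈ U, ∃ e : ℕ, (∀ n : N, (χ : G → ℂ) n = e * θ n) ∧ classInner (fun n : N => (χ : G → ℂ) n) θ = e := by
    intro χ hχ
    obtain ⟨e, he⟩ := char_mult (isCharacter_restrict (irr_isCharacter χ.2) N) (irr_isCharacter hθ)
    refine ⟨e, fun n => ?_, he⟩
    have h := congrFun (restrict_of_invariant hN χ.2 hθ hinv (hUθ χ hχ)) n
    rw [he] at h
    exact h
  obtain ⟨V, hV⟩ : ∃ V : Finset (IrrCharacter G), V = U.filter (fun χ : IrrCharacter G => classInner (fun l : L => (χ : G → ℂ) l) θh ≠ 0) := ⟨_, rfl⟩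
  have hVU : V ⊆ U := by rw [hV]; exact Finset.filter_subset _ _
  have hV0 : ∀ χ ∈ U, χ ∉ V → classInner (fun l : L => (χ : G → ℂ) l) θh = 0 := by
    intro χ hχ hχV
    by_contra h
    exact hχV (by rw [hV]; exact Finset.mem_filter.mpr ⟨hχ, h⟩)
  have hLpos : (0 : ℝ) < Nat.card L := by exact_mod_cast Nat.card_pos
  have hLne : (Nat.card L : ℂ) ≠ 0 := by exact_mod_cast Nat.card_pos.ne'
  have hNne : (Nat.card N : ℂ) ≠ 0 := by exact_mod_cast Nat.card_pos.ne'
  obtain ⟨d, hdpos, hd⟩ := irr_one_nat hθ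
  have hd0 : (d : ℂ) ≠ 0 := by exact_mod_cast hdpos.ne'
  have hθh1 : θh 1 = d := by rw [← hd]; exact hext 1
  -- regular elements of L are in N
  have hregL : ∀ l ∈ L, ¬ p ∣ orderOf l → l ∈ N := by
    intro l hl hlp
    obtain ⟨k, hk⟩ := hLp.exists_card_eq
    have e1 : orderOf (QuotientGroup.mk' N l) ∣ p ^ k := by
      rw [← hk]; exact Subgroup.orderOf_dvd_natCard _ ⟨l, hl, rfl⟩
    have e2 : orderOf (QuotientGroup.mk' N l) ∣ orderOf l := orderOf_map_dvd _ _
    have e3 : Nat.Coprime (orderOf l) (p ^ k) :=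
      Nat.Coprime.pow_right _ ((Nat.Prime.coprime_iff_not_dvd hpf.out).mpr hlp).symm
    have e4 := Nat.dvd_gcd e2 e1
    rw [e3] at e4
    exact (QuotientGroup.eq_one_iff l).mp (orderOf_eq_one_iff.mp (Nat.dvd_one.mp e4))
  -- (a)
  have ha : (Nat.card L : ℝ) * ∑ χ ∈ V, ‖(χ : G → ℂ) 1‖ ^ 2 = (Nat.card N : ℝ) * ∑ χ ∈ U, ‖(χ : G → ℂ) 1‖ ^ 2 := by
    have e1 : (Nat.card L : ℂ) * classInner (fun l : L => FF U l) θh = (Nat.card N : ℂ) * classInner (fun n : N => FF U n) θ := by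
      unfold classInner
      rw [mul_inv_cancel_left₀ hLne, mul_inv_cancel_left₀ hNne]
      symm
      refine Fintype.sum_of_injective (fun n : N => (⟨n, hNL n.2⟩ : L)) ?_ _ _ ?_ ?_
      · intro a b h
        exact Subtype.ext (congrArg (fun x : L => (x : G)) h)
      · intro l hl
        rw [h2, zero_mul]
        by_contra h
        exact hl ⟨⟨l, hregL l l.2 h⟩, rfl⟩
      · intro n
        rw [hext]
    rw [inner_FF_left, inner_FF_left] at e1
    have e2 : ∀ χ ∈ U, (d : ℂ) * ((χ : G → ℂ) 1 * classInner (fun n : N => (χ : G → ℂ) n) θ) = ((‖(χ : G → ℂ) 1‖ ^ 2 : ℝ) : ℂ) := by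
      intro χ hχ
      obtain ⟨e, he, he2⟩ := hresN χ hχ
      have h3 := he 1
      rw [OneMemClass.coe_one, hd] at h3
      rw [he2, h3]
      rw [norm_mul, Complex.norm_natCast, Complex.norm_natCast]
      push_cast; ring
    have e3 : ∀ χ ∈ V, (d : ℂ) * ((χ : G → ℂ) 1 * classInner (fun l : L => (χ : G → ℂ) l) θh) = ((‖(χ : G → ℂ) 1‖ ^ 2 : ℝ) : ℂ) := by
      intro χ hχ
      have h5 : classInner (fun l : L => (χ : G → ℂ) l) θh ≠ 0 := by
        rw [hV] at hχ; exact (Finset.mem_filter.mp hχ).2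
      obtain ⟨e, he⟩ := char_mult (isCharacter_restrict (irr_isCharacter χ.2) L) (irr_isCharacter hθh)
      have h := congrFun (restrict_of_invariant hL χ.2 hθh hinvh h5) 1
      rw [he] at h
      have h3 : (χ : G → ℂ) 1 = e * d := by
        rw [← hθh1]; exact h
      rw [he, h3, norm_mul, Complex.norm_natCast, Complex.norm_natCast]
      push_cast; ring
    have e4 : ∑ χ ∈ U, (χ : G → ℂ) 1 * classInner (fun l : L => (χ : G → ℂ) l) θh =
        ∑ χ ∈ V, (χ : G → ℂ) 1 * classInner (fun l : L => (χ : G → ℂ) l) θh := by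
      symm
      apply Finset.sum_subset hVU
      intro χ hχ hχV
      rw [hV0 χ hχ hχV, mul_zero]
    rw [e4] at e1
    have e5 := congrArg (fun z : ℂ => (d : ℂ) * z) e1
    have e6 : (Nat.card L : ℂ) * ∑ χ ∈ V, ((‖(χ : G → ℂ) 1‖ ^ 2 : ℝ) : ℂ) = (Nat.card N : ℂ) * ∑ χ ∈ U, ((‖(χ : G → ℂ) 1‖ ^ 2 : ℝ) : ℂ) := by
      rw [← Finset.sum_congr rfl e2, ← Finset.sum_congr rfl e3, ← Finset.mul_sum, ← Finset.mul_sum]
      linear_combination e5
    exact_mod_cast e6
  -- (b)
  have hb : ∀ y : G, ((kap L p y : ℝ) / Nat.card L) * rm L (FF U) y ≤ rm L (FF V) y := by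
    intro y
    by_cases hk : kap L p y = 0
    · rw [hk]; simp; exact rm_nonneg _ _
    · have hk' := Nat.pos_of_ne_zero hk
      unfold kap at hk'
      obtain ⟨l, hl⟩ := Finset.card_pos.mp hk'
      rw [Finset.mem_filter] at hl
      have := loc_G hNL hNp hLp hθ hθh hext hinvh U V (fun χ hχ => by
        obtain ⟨e, he, -⟩ := hresN χ hχ; exact ⟨e, he⟩) hVU hV0 h2 hl.2
      rwa [kap_mul, rm_mul, rm_mul] at this
  -- rm = 0 if no regular elements
  have hrm0 : ∀ y : G, kap L p y = 0 → rm L (FF U) y = 0 := by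
    intro y hk
    unfold kap at hk
    rw [Finset.card_eq_zero] at hk
    unfold rm
    rw [Finset.sum_eq_zero, mul_zero]
    intro l _
    rw [h2, norm_zero]
    · norm_num
    · by_contra h
      have : l ∈ Finset.univ.filter (fun l : L => ¬ p ∣ orderOf ((l : G) * y)) := Finset.mem_filter.mpr ⟨Finset.mem_univ _, h⟩
      rw [hk] at this
      simp at this
  -- lower bound of kap
  have himg : ∀ y : G, ¬ p ∣ orderOf y → (Finset.univ.image (fun n : N => (⟨n, hNL n.2⟩ : L))) ⊆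
      Finset.univ.filter (fun l : L => ¬ p ∣ orderOf ((l : G) * y)) := by
    intro y hy l hl
    obtain ⟨n, -, rfl⟩ := Finset.mem_image.mp hl
    exact Finset.mem_filter.mpr ⟨Finset.mem_univ _, reg_mul hNp n hy⟩
  have hcardimg : (Finset.univ.image (fun n : N => (⟨n, hNL n.2⟩ : L))).card = Nat.card N := by
    rw [Finset.card_image_of_injective, Finset.card_univ, ← Nat.card_eq_fintype_card]
    intro a b h
    exact Subtype.ext (congrArg (fun x : L => (x : G)) h)
  have hkN : ∀ y : G, kap L p y ≠ 0 → Nat.card N ≤ kap L p y := by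
    intro y hk
    have hk' := Nat.pos_of_ne_zero hk
    have hk'' := hk'
    unfold kap at hk'
    obtain ⟨l, hl⟩ := Finset.card_pos.mp hk'
    rw [Finset.mem_filter] at hl
    have e1 := Finset.card_le_card (himg _ hl.2)
    rw [hcardimg] at e1
    have e2 : kap L p ((l : G) * y) = kap L p y := kap_mul l y
    rw [← e2]
    exact e1
  -- sum
  have hsum : ∑ y : G, (((kap L p y : ℝ) - Nat.card N) / Nat.card L) * rm L (FF U) y ≤ 0 := by
    have e1 : ∑ y : G, ((kap L p y : ℝ) / Nat.card L) * rm L (FF U) y ≤ ∑ y : G, rm L (FF V) y :=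
      Finset.sum_le_sum fun y _ => hb y
    rw [rm_sum, sum_norm_FF] at e1
    have e2 : ∑ y : G, (((kap L p y : ℝ) - Nat.card N) / Nat.card L) * rm L (FF U) y =
        ∑ y : G, ((kap L p y : ℝ) / Nat.card L) * rm L (FF U) y - ((Nat.card N : ℝ) / Nat.card L) * ∑ y : G, rm L (FF U) y := by
      rw [Finset.mul_sum, ← Finset.sum_sub_distrib]
      apply Finset.sum_congr rfl
      intro y _
      ring
    rw [e2, rm_sum, sum_norm_FF]
    have e3 : (Nat.card G : ℝ) * ∑ χ ∈ V, ‖(χ : G → ℂ) 1‖ ^ 2 =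
        ((Nat.card N : ℝ) / Nat.card L) * ((Nat.card G : ℝ) * ∑ χ ∈ U, ‖(χ : G → ℂ) 1‖ ^ 2) := by
      rw [div_mul_eq_mul_div, eq_div_iff hLpos.ne']
      linear_combination (Nat.card G : ℝ) * ha
    linarith
  have hnn : ∀ y ∈ (Finset.univ : Finset G), 0 ≤ (((kap L p y : ℝ) - Nat.card N) / Nat.card L) * rm L (FF U) y := by
    intro y _
    by_cases hk : kap L p y = 0
    · rw [hrm0 y hk, mul_zero]
    · apply mul_nonneg _ (rm_nonneg _ _)
      apply div_nonneg _ hLpos.le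
      rw [sub_nonneg]
      exact_mod_cast hkN y hk
  have hzero := (Finset.sum_eq_zero_iff_of_nonneg hnn).mp (le_antisymm hsum (Finset.sum_nonneg hnn)) x (Finset.mem_univ x)
  have hrmx : rm L (FF U) x ≠ 0 := by
    unfold rm
    apply mul_ne_zero (inv_ne_zero hLpos.ne')
    apply ne_of_gt
    apply Finset.sum_pos' (fun l _ => by positivity)
    refine ⟨1, Finset.mem_univ _, ?_⟩
    rw [OneMemClass.coe_one, one_mul]
    positivity
  have hkx : kap L p x = Nat.card N := by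
    have e1 := (mul_eq_zero.mp hzero).resolve_right hrmx
    rw [div_eq_zero_iff] at e1
    have e2 := e1.resolve_right hLpos.ne'
    rw [sub_eq_zero] at e2
    exact_mod_cast e2
  have hxreg : ¬ p ∣ orderOf x := fun h => hFx (h2 x h)
  have heq := Finset.eq_of_subset_of_card_le (himg x hxreg) (by
    rw [hcardimg, ← hkx]; exact le_refl _)
  apply mem_of_central hsolv hNd hLd hxreg
  intro u hu
  have hl : u * x * u⁻¹ * x⁻¹ ∈ L := by
    have e1 : u * x * u⁻¹ * x⁻¹ = u * (x * u⁻¹ * x⁻¹) := by group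
    rw [e1]
    exact L.mul_mem hu (hL.conj_mem _ (L.inv_mem hu) x)
  have hm : (⟨_, hl⟩ : L) ∈ Finset.univ.filter (fun l : L => ¬ p ∣ orderOf ((l : G) * x)) := by
    rw [Finset.mem_filter]
    refine ⟨Finset.mem_univ _, ?_⟩
    simp only [inv_mul_cancel_right]
    have e1 : orderOf (u * x * u⁻¹) = orderOf x := by
      have := orderOf_injective (MulAut.conj u).toMonoidHom (MulAut.conj u).injective x
      exact this
    rw [e1]; exact hxreg
  rw [← heq] at hm
  obtain ⟨n, -, hn⟩ := Finset.mem_image.mp hm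
  have := congrArg (fun x : L => (x : G)) hn
  simp only at this
  rw [← this]
  exact n.2

end

end CfsgLib.Osima20
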