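import Cfsg.Agent.LibOsima20c
import Cfsg.Agent.LibBlockCov2

set_option autoImplicit false
set_option linter.all false
set_option maxHeartbeats 1000000

/-! # Central idempotents of `p`-solvable groups supported on `p`-regular elements, IV (helper20) -/

namespace CfsgLib.Osima20

open Cfsg CfsgLib.CharBasic CfsgLib.CharIndA CfsgLib.Clifford CfsgLib.CharNorm CfsgLib.CharMore CfsgLib.Ind2 CfsgLib.Gallagher CfsgLib.Extend
open CfsgLib.BlockCore CfsgLib.BlockIdem CfsgLib.BlockCov CfsgLib.BlockOrth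
open scoped ComplexConjugate

universe u

section

variable {G : Type u} [Group G] [Fintype G] {p : ℕ} [hpf : Fact p.Prime]

theorem vanish_conv {N : Subgroup G} [hN : N.Normal] (hNp : ¬ p ∣ Nat.card N) {a : G → ℂ} (ha : IsClassFunction G a)
    (ha0 : ∀ g, g ∉ N → a g = 0) (U W : Finset (IrrCharacter G)) (hWU : W ⊆ U) (h1 : ∀ χ ∈ W, omg (χ : G → ℂ) a = 1)
    (h0 : ∀ χ ∈ U, χ ∉ W → omg (χ : G → ℂ) a = 0) (hU : ∀ z, p ∣ orderOf z → FF U z = 0) :
    ∀ z, p ∣ orderOf z → FF W z = 0 := by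
  intro z hz
  have e1 : FF W z = ∑ x : G, a x * FF U (x * z) := by
    have e2 : ∑ x : G, a x * FF U (x * z) = ∑ χ ∈ U, (χ : G → ℂ) 1 * (omg (χ : G → ℂ) a * (χ : G → ℂ) z) := by
      unfold FF
      simp only [Finset.mul_sum]
      rw [Finset.sum_comm]
      apply Finset.sum_congr rfl
      intro χ _
      rw [← sum_mul_eq_omg χ ha z, Finset.mul_sum]
      apply Finset.sum_congr rfl
      intro x _
      ring
    rw [e2]
    unfold FF
    rw [← Finset.sum_subset hWU]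
    · apply Finset.sum_congr rfl
      intro χ hχ
      rw [h1 χ hχ, one_mul]
    · intro χ hχ hχW
      rw [h0 χ hχ hχW, zero_mul, mul_zero]
  rw [e1]
  apply Finset.sum_eq_zero
  intro x _
  by_cases hx : x ∈ N
  · rw [hU _ (sing_mul hNp ⟨x, hx⟩ hz), mul_zero]
  · rw [ha0 x hx, zero_mul]

/-- constancy -/
theorem const_of_supp {N : Subgroup G} [hN : N.Normal] [Fintype N] {θ : N → ℂ} (hθ : IsIrrCharacter N θ)
    (hinv : ∀ g, cj hN g θ = θ) (U : Finset (IrrCharacter G)) (hsupp : ∀ x, FF U x ≠ 0 → x ∈ N)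
    {χ ψ : IrrCharacter G} (hχ : classInner (fun n : N => (χ : G → ℂ) n) θ ≠ 0)
    (hψ : classInner (fun n : N => (ψ : G → ℂ) n) θ ≠ 0) (h : χ ∈ U) : ψ ∈ U := by
  classical
  have hfou : ∀ g, fou (ind (U : Set (IrrCharacter G))) g = (Nat.card G : ℂ)⁻¹ * conj (FF U g) := by
    intro g
    unfold fou FF
    congr 1
    rw [map_sum, ← Finset.sum_subset (Finset.subset_univ U)]
    · apply Finset.sum_congr rfl
      intro χ hχ
      rw [ind_of (Finset.mem_coe.mpr hχ), one_mul, map_mul]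
      congr 1
      obtain ⟨d, -, hd⟩ := irr_one_nat χ.2
      rw [hd]; simp
    · intro χ _ hχ
      rw [ind_not (fun h => hχ (Finset.mem_coe.mp h)), zero_mul]
  obtain ⟨d, hdpos, hd⟩ := irr_one_nat hθ
  have hd0 : (d : ℂ) ≠ 0 := by exact_mod_cast hdpos.ne'
  have key : ∀ ξ : IrrCharacter G, classInner (fun n : N => (ξ : G → ℂ) n) θ ≠ 0 →
      ind (U : Set (IrrCharacter G)) ξ = (∑ n : N, fou (ind (U : Set (IrrCharacter G))) n * θ n) / d := by
    intro ξ hξ
    rw [← omg_fou ξ (ind (U : Set (IrrCharacter G)))]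
    unfold omg
    have h3 := restrict_of_invariant hN ξ.2 hθ hinv hξ
    obtain ⟨e, he⟩ := char_mult (isCharacter_restrict (irr_isCharacter ξ.2) N) (irr_isCharacter hθ)
    have he0 : (e : ℂ) ≠ 0 := by rw [← he]; exact hξ
    rw [he] at h3
    have h4 : ∀ n : N, (ξ : G → ℂ) n = e * θ n := fun n => congrFun h3 n
    have h5 : (ξ : G → ℂ) 1 = e * d := by
      have := h4 1
      rw [OneMemClass.coe_one, hd] at this
      exact this
    have h6 : ∑ x : G, fou (ind (U : Set (IrrCharacter G))) x * (ξ : G → ℂ) x =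
        ∑ n : N, fou (ind (U : Set (IrrCharacter G))) n * (ξ : G → ℂ) n := by
      symm
      refine Fintype.sum_of_injective (fun n : N => (n : G)) Subtype.val_injective _ _ ?_ (fun n => rfl)
      intro x hx
      rw [hfou]
      have : FF U x = 0 := by
        by_contra h
        exact hx ⟨⟨x, hsupp x h⟩, rfl⟩
      rw [this, map_zero, mul_zero, zero_mul]
    rw [h6, h5]
    simp only [h4]
    have h7 : ∑ n : N, fou (ind (U : Set (IrrCharacter G))) n * ((e : ℂ) * θ n) =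
        e * ∑ n : N, fou (ind (U : Set (IrrCharacter G))) n * θ n := by
      rw [Finset.mul_sum]
      apply Finset.sum_congr rfl
      intro n _
      ring
    rw [h7]
    field_simp
  have h8 := (key χ hχ).trans (key ψ hψ).symm
  by_contra h9
  rw [ind_of (Finset.mem_coe.mpr h), ind_not (fun h => h9 (Finset.mem_coe.mp h))] at h8
  exact one_ne_zero h8

/-- passage to the inertia group -/
theorem step_T {M : Ideal AlgInt} (hM : IsPModular p M) (N : Subgroup G) [hN : N.Normal] [Fintype N] (hNp : ¬ p ∣ Nat.card N)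
    {T : Subgroup G} [Fintype T] (hNT : N ≤ T) {b : Set (IrrCharacter N)}
    (hT : ∀ g : G, g ∈ T ↔ ∀ θ ∈ b, cjI N g θ ∈ b)
    (hdis : ∀ (g : G), ∀ θ ∈ b, cjI N g θ ∈ b → g ∈ T)
    (U : Finset (IrrCharacter G)) (hU : ∀ z, p ∣ orderOf z → FF U z = 0) (U' : Finset (IrrCharacter T))
    (hU' : ∀ ξ, ξ ∈ U' ↔ (CfsgLib.BlockFR.OverT N hNT b ξ ∧ ∃ χ ∈ U, indFun T (ξ : T → ℂ) = (χ : G → ℂ))) :
    ∀ z : T, p ∣ orderOf z → FF U' z = 0 := by
  classical
  intro t ht
  have hTidx : (T.index : ℂ) ≠ 0 := by exact_mod_cast Subgroup.index_ne_zero_of_finite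
  have e1 : (T.index : ℂ) * FF U' t = ∑ s : T, CfsgLib.BlockFR.eT N T b s * FF U ((s : G) * t) := by
    have hexp : ∀ (χ : IrrCharacter G) (y : T), (χ : G → ℂ) y =
        ∑ η : IrrCharacter T, classInner (fun t : T => (χ : G → ℂ) t) (η : T → ℂ) * (η : T → ℂ) y := fun χ y =>
      CfsgLib.CharBasic.classFun_expand_apply (char_classFun (isCharacter_restrict (irr_isCharacter χ.2) T)) y
    have e2 : ∑ s : T, CfsgLib.BlockFR.eT N T b s * FF U ((s : G) * t) =
        ∑ χ ∈ U, (χ : G → ℂ) 1 * ∑ η : IrrCharacter T, classInner (fun t : T => (χ : G → ℂ) t) (η : T → ℂ) *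
          (omg (η : T → ℂ) (CfsgLib.BlockFR.eT N T b) * (η : T → ℂ) t) := by
      unfold FF
      simp only [Finset.mul_sum]
      rw [Finset.sum_comm]
      apply Finset.sum_congr rfl
      intro χ _
      have e3 : ∀ s : T, (χ : G → ℂ) ((s : G) * t) =
        ∑ η : IrrCharacter T, classInner (fun t : T => (χ : G → ℂ) t) (η : T → ℂ) * (η : T → ℂ) (s * t) := fun s => hexp χ (s * t)
      simp only [e3, Finset.mul_sum]
      rw [Finset.sum_comm]
      apply Finset.sum_congr rfl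
      intro η _
      rw [← sum_mul_eq_omg η (CfsgLib.BlockFR.eT_classFun N hT) t, Finset.mul_sum, Finset.mul_sum]
      apply Finset.sum_congr rfl
      intro x _
      ring
    rw [e2]
    have e4 : ∀ χ : IrrCharacter G, (∑ η : IrrCharacter T, classInner (fun t : T => (χ : G → ℂ) t) (η : T → ℂ) *
          (omg (η : T → ℂ) (CfsgLib.BlockFR.eT N T b) * (η : T → ℂ) t)) =
        ∑ η : IrrCharacter T, if (CfsgLib.BlockFR.OverT N hNT b η ∧ indFun T (η : T → ℂ) = (χ : G → ℂ)) then (η : T → ℂ) t else 0 := by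
      intro χ
      apply Finset.sum_congr rfl
      intro η _
      rw [CfsgLib.BlockFR.omg_eT N hNT hT]
      by_cases hη : CfsgLib.BlockFR.OverT N hNT b η
      · rw [Set.indicator_of_mem (show η ∈ {ψ | CfsgLib.BlockFR.OverT N hNT b ψ} from hη), one_mul]
        by_cases hm : classInner (fun t : T => (χ : G → ℂ) t) (η : T → ℂ) = 0
        · rw [hm, zero_mul, if_neg]
          rintro ⟨-, h5⟩
          obtain ⟨χ', -, h6, h7⟩ := CfsgLib.BlockFR.corr_B N hNT hT hdis hη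
          have h8 : χ' = χ := Subtype.ext (by rw [← h6, h5])
          rw [h8, hm] at h7
          exact one_ne_zero h7.symm
        · obtain ⟨h5, h6, -⟩ := CfsgLib.BlockFR.corr_A N hNT hT hdis (CfsgLib.BlockFR.overG_of_overT N hNT hη hm) hη hm
          rw [h6, one_mul, if_pos ⟨hη, h5⟩]
      · rw [Set.indicator_of_notMem (show η ∉ {ψ | CfsgLib.BlockFR.OverT N hNT b ψ} from hη), zero_mul, mul_zero, if_neg]
        rintro ⟨h, -⟩; exact hη h
    simp only [e4, Finset.mul_sum]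
    rw [Finset.sum_comm]
    unfold FF
    rw [Finset.mul_sum, ← Finset.sum_subset (Finset.subset_univ U')]
    · apply Finset.sum_congr rfl
      intro η hη
      obtain ⟨h5, χ, hχ, h6⟩ := (hU' η).mp hη
      rw [Finset.sum_eq_single_of_mem χ hχ]
      · rw [if_pos ⟨h5, h6⟩, ← h6, CfsgLib.CharIndA.ind_one]
        ring
      · intro χ' _ hne
        rw [if_neg, mul_zero]
        rintro ⟨-, h7⟩
        exact hne (Subtype.ext (by rw [← h7, h6]))
    · intro η _ hη
      apply Finset.sum_eq_zero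
      intro χ hχ
      rw [if_neg, mul_zero]
      rintro ⟨h5, h6⟩
      exact hη ((hU' η).mpr ⟨h5, χ, hχ, h6⟩)
  have e2 : ∑ s : T, CfsgLib.BlockFR.eT N T b s * FF U ((s : G) * t) = 0 := by
    apply Finset.sum_eq_zero
    intro s _
    by_cases hs : (s : G) ∈ N
    · rw [hU _ (sing_mul hNp ⟨s, hs⟩ (by rwa [Subgroup.orderOf_coe])), mul_zero]
    · have : CfsgLib.BlockFR.eT N T b s = 0 := by unfold CfsgLib.BlockFR.eT ext0; rw [dif_neg hs]
      rw [this, zero_mul]
  rw [e2] at e1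
  exact (mul_eq_zero.mp e1).resolve_left hTidx

end

/-- the theorem -/
theorem main {p : ℕ} [hpf : Fact p.Prime] {M : Ideal AlgInt} (hM : IsPModular p M) (n : ℕ) :
    ∀ {G : Type u} [Group G] [Fintype G], Nat.card G = n → IsPSolvable p G → ∀ U : Finset (IrrCharacter G),
      (∀ z, p ∣ orderOf z → FF U z = 0) → ∀ χ ∈ U, ∀ ψ : IrrCharacter G, SameBlock M (χ : G → ℂ) (ψ : G → ℂ) → ψ ∈ U := by
  classical
  induction n using Nat.strong_induction_on with
  | _ n ih =>
  intro G _ _ hcard hsolv U hU χ hχ ψ hψ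
  have hp := CfsgLib.BlockR.isPrime_of_modular hM
  obtain ⟨N, hNd⟩ : ∃ N : Subgroup G, N = pPrimeCore p G := ⟨_, rfl⟩
  haveI hN : N.Normal := by rw [hNd]; infer_instance
  have hNp : ¬ p ∣ Nat.card N := by
    have h1 : (Nat.card N).Coprime p := by rw [hNd]; exact CfsgLib.Cores.pPrimeCore_coprime p
    exact (Nat.Prime.coprime_iff_not_dvd hpf.out).mp h1.symm
  haveI := Fintype.ofFinite N
  obtain ⟨θ, hθ, hχθ⟩ := exists_below N χ.2
  have hb := CfsgLib.FongPS.singleton_block hM hNp ⟨θ, hθ⟩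
  -- ψ lies over a conjugate
  have hχB : χ ∈ blockOf M (χ : G → ℂ) := mem_blockOf_self hp χ
  have hB : IsPBlock M (blockOf M (χ : G → ℂ)) := ⟨χ, rfl⟩
  have hψB : ψ ∈ blockOf M (χ : G → ℂ) := mem_of_sameBlock hp hB hχB hψ
  obtain ⟨θ', hθ', hψθ⟩ := CfsgLib.BlockCov2.cov_under N hM hB hb ⟨χ, hχB, ⟨θ, hθ⟩, rfl, hχθ⟩ hψB
  rw [Set.mem_singleton_iff] at hθ'
  subst hθ'
  by_cases hinvt : inertia hN θ = ⊤
  · have hinv : ∀ g, cj hN g θ = θ := by
      intro g
      have : g ∈ inertia hN θ := by rw [hinvt]; trivial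
      exact this
    -- class function
    have hfinv : GInv N (fou (ind ({⟨θ, hθ⟩} : Set (IrrCharacter N)))) := by
      intro g n
      unfold fou
      congr 1
      apply Finset.sum_congr rfl
      intro η _
      by_cases hη : η = ⟨θ, hθ⟩
      · subst hη
        have := congrFun (hinv g) n
        unfold cj at this
        simp only
        rw [this]
      · rw [ind_not (by simpa using hη), zero_mul, zero_mul]
    obtain ⟨W, hW⟩ : ∃ W : Finset (IrrCharacter G), W = U.filter (fun χ : IrrCharacter G => classInner (fun n : N => (χ : G → ℂ) n) θ ≠ 0) := ⟨_, rfl⟩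
    have hWm : ∀ ξ, ξ ∈ W ↔ ξ ∈ U ∧ classInner (fun n : N => (ξ : G → ℂ) n) θ ≠ 0 := by
      intro ξ; rw [hW, Finset.mem_filter]
    have hWv : ∀ z, p ∣ orderOf z → FF W z = 0 := by
      refine vanish_conv hNp (ext0_classFun N hfinv) (fun g hg => ext0_not _ hg) U W (fun ξ h => ((hWm ξ).mp h).1) ?_ ?_ hU
      · intro ξ hξ
        rw [omg_under N (θ := ⟨θ, hθ⟩) ((hWm ξ).mp hξ).2 hfinv, omg_fou, ind_of (Set.mem_singleton _)]
      · intro ξ hξ hξW
        obtain ⟨η, hη, hne⟩ := exists_below N ξ.2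
        rw [omg_under N (θ := ⟨η, hη⟩) hne hfinv, omg_fou, ind_not]
        intro h
        have h2 : η = θ := congrArg Subtype.val (Set.mem_singleton_iff.mp h)
        subst h2
        exact hξW ((hWm ξ).mpr ⟨hξ, hne⟩)
    obtain ⟨L, hL⟩ : ∃ L : Subgroup G, L = (pCore p (G ⧸ N)).comap (QuotientGroup.mk' N) := ⟨_, rfl⟩
    haveI hLn : L.Normal := by rw [hL]; infer_instance
    haveI := Fintype.ofFinite L
    have hNL : N ≤ L := by
      intro x hx
      rw [hL, Subgroup.mem_comap]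
      have : QuotientGroup.mk' N x = 1 := (QuotientGroup.eq_one_iff x).mpr hx
      rw [this]
      exact one_mem _
    have hLp : IsPGroup p (L.map (QuotientGroup.mk' N)) := by
      rw [hL, Subgroup.map_comap_eq_self_of_surjective (QuotientGroup.mk'_surjective N)]
      exact CfsgLib.Cores.pCore_isPGroup p
    have hs : ∀ x, FF W x ≠ 0 → x ∈ N := fun x hx =>
      F_supp hsolv hNd hL hNL hNp hLp hθ hinv W (fun ξ h => ((hWm ξ).mp h).2) hWv hx
    exact ((hWm ψ).mp (const_of_supp hθ hinv W hs hχθ hψθ ((hWm χ).mpr ⟨hχ, hχθ⟩))).1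
  · obtain ⟨T, hTd⟩ : ∃ T : Subgroup G, T = inertia hN θ := ⟨_, rfl⟩
    haveI := Fintype.ofFinite T
    have hmem : ∀ g, g ∈ T ↔ cjI N g ⟨θ, hθ⟩ = ⟨θ, hθ⟩ := by
      intro g
      rw [hTd]
      constructor
      · intro h; exact Subtype.ext h
      · intro h; exact congrArg Subtype.val h
    have hNT : N ≤ T := by
      intro x hx
      rw [hmem]
      exact Subtype.ext (cj_of_mem hN hx (irr_classFun hθ))
    have hT : ∀ g : G, g ∈ T ↔ ∀ η ∈ ({⟨θ, hθ⟩} : Set (IrrCharacter N)), cjI N g η ∈ ({⟨θ, hθ⟩} : Set (IrrCharacter N)) := by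
      intro g
      rw [hmem]
      simp
    have hdis : ∀ (g : G), ∀ η ∈ ({⟨θ, hθ⟩} : Set (IrrCharacter N)), cjI N g η ∈ ({⟨θ, hθ⟩} : Set (IrrCharacter N)) → g ∈ T := by
      intro g η hη h
      rw [Set.mem_singleton_iff] at hη
      subst hη
      exact (hmem g).mpr h
    have hlt : Nat.card T < n := by
      rw [← hcard]
      have h1 := Subgroup.card_le_card_group T
      rcases lt_or_eq_of_le h1 with h2 | h2
      · exact h2
      · exact absurd (by rw [← hTd]; exact Subgroup.eq_top_of_card_eq T h2) hinvt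
    obtain ⟨U', hU'⟩ : ∃ U' : Finset (IrrCharacter T), ∀ ξ, ξ ∈ U' ↔ (CfsgLib.BlockFR.OverT N hNT {⟨θ, hθ⟩} ξ ∧ ∃ χ ∈ U, indFun T (ξ : T → ℂ) = (χ : G → ℂ)) :=
      ⟨Finset.univ.filter (fun ξ => (CfsgLib.BlockFR.OverT N hNT {⟨θ, hθ⟩} ξ ∧ ∃ χ ∈ U, indFun T (ξ : T → ℂ) = (χ : G → ℂ))), fun ξ => by
        rw [Finset.mem_filter]; simp⟩
    have hUv := step_T hM N hNp hNT hT hdis U hU U' hU'
    -- Clifford correspondents
    obtain ⟨ξ, hξ, hξne⟩ := CfsgLib.BlockFR.exists_overT N hNT (χ := χ) (b := {⟨θ, hθ⟩}) ⟨⟨θ, hθ⟩, rfl, hχθ⟩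
    obtain ⟨hξχ, -, -⟩ := CfsgLib.BlockFR.corr_A N hNT hT hdis ⟨⟨θ, hθ⟩, rfl, hχθ⟩ hξ hξne
    obtain ⟨η, hη, hηne⟩ := CfsgLib.BlockFR.exists_overT N hNT (χ := ψ) (b := {⟨θ, hθ⟩}) ⟨⟨θ, hθ⟩, rfl, hψθ⟩
    obtain ⟨hηψ, -, -⟩ := CfsgLib.BlockFR.corr_A N hNT hT hdis ⟨⟨θ, hθ⟩, rfl, hψθ⟩ hη hηne
    have hsb := CfsgLib.BlockFR.sameBlock_of_ind N hNT hT hdis hM hb hξ hη (by rw [hξχ, hηψ]; exact hψ)
    have hξU : ξ ∈ U' := (hU' ξ).mpr ⟨hξ, χ, hχ, hξχ⟩
    have hηU := ih _ hlt (G := T) rfl (CfsgLib.PSolv19.psolv_subgroup hpf.out hsolv T) U' hUv ξ hξU η hsb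
    obtain ⟨-, ψ', hψ', h5⟩ := (hU' η).mp hηU
    have h6 : ψ' = ψ := Subtype.ext (by rw [← h5, hηψ])
    rw [← h6]; exact hψ'

end CfsgLib.Osima20
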