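import Mathlib
import Cfsg.Agent.EqBase
import Cfsg.Prelude.Def_Blocks
import Cfsg.Prelude.Def_BlockLocal
import Cfsg.Prelude.Def_BrauerPairs
import Cfsg.Agent.LibBlockInd
import Cfsg.Agent.LibPBker19

/-!
# Principal Brauer pairs (helper19)

* `sum_centralizer_congr`: `Σ_G a ≡ Σ_{C_G(Q)} a`
* `principal_pair`: `(Q, b₀(C_G(Q)))` is a Brauer pair of `B₀(G)`
* `stab_principal`: `N_G(Q)` stabilizes `b₀(C_G(Q))`
-/

set_option autoImplicit false
set_option linter.unusedSectionVars false
set_option linter.style.haveILetI false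
set_option linter.unusedSimpArgs false

namespace CfsgLib.PBP19

open CfsgLib.CharInt hiding irr_isCharacter irr_classFun irr_one_ne_zero schur_scalar
open Cfsg CfsgLib.CharInt2 CfsgLib.CharBasic CfsgLib.BlockR CfsgLib.BlockCore
  CfsgLib.BlockIdem CfsgLib.BlockIdeal CfsgLib.BlockConj CfsgLib.BlockBrauer CfsgLib.BlockInd CfsgLib.Infl19 CfsgLib.PBker19
open scoped ComplexConjugate Pointwise

universe u

variable {G : Type u} [Group G] [Finite G] {M : Ideal AlgInt} {p : ℕ} [Fact p.Prime]

theorem sum_centralizer_congr [Fintype G] (hM : IsPModular p M) {Q : Subgroup G} [Fintype (Subgroup.centralizer (Q : Set G))]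
    (hQ : IsPGroup p Q) {a : G → ℂ} (ha : IsClassFunction G a) (haR : ∀ x, MemLocalRing M (a x)) :
    MemLocalIdeal M (∑ x : G, a x - ∑ x : Subgroup.centralizer (Q : Set G), a x) := by
  classical
  have hp := isPrime_of_modular hM
  letI : MulAction Q G :=
      { smul := fun q x => (q : G) * x * (q : G)⁻¹
        one_smul := fun x => by
          change ((1 : Q) : G) * x * ((1 : Q) : G)⁻¹ = x
          simp
        mul_smul := fun q r x => by
          change ((q * r : Q) : G) * x * ((q * r : Q) : G)⁻¹ =
            (q : G) * ((r : G) * x * (r : G)⁻¹) * (q : G)⁻¹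
          rw [Subgroup.coe_mul]; group }
  have hsm : ∀ (q : Q) (x : G), q • x = (q : G) * x * (q : G)⁻¹ := fun _ _ => rfl
  obtain ⟨r, hr, hsum⟩ := sum_sub_fixed hQ hp a (fun q x => by rw [hsm, ha]) haR
  have h4 : ∀ x : G, x ∈ MulAction.fixedPoints Q G ↔ x ∈ Subgroup.centralizer (Q : Set G) := by
    intro x
    rw [Subgroup.mem_centralizer_iff]
    constructor
    · intro hx u hu
      have h5 := hx ⟨u, hu⟩
      rw [hsm] at h5
      have h6 : u * x * u⁻¹ = x := h5
      rwa [mul_inv_eq_iff_eq_mul] at h6
    · intro hx u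
      rw [hsm, mul_inv_eq_iff_eq_mul]
      exact hx u u.2
  have h3 : ∑ x : Subgroup.centralizer (Q : Set G), a x =
      ∑ x ∈ Finset.univ.filter (fun x : G => x ∈ MulAction.fixedPoints Q G), a x := by
    rw [Finset.sum_filter, sum_subgroup (Subgroup.centralizer (Q : Set G)) (fun x : G =>
        if x ∈ MulAction.fixedPoints Q G then a x else 0)]
    · apply Finset.sum_congr rfl
      intro x _
      rw [if_pos ((h4 x).2 x.2)]
    · intro x hx
      rw [if_neg (fun h => hx ((h4 x).1 h))]
  rw [h3, hsum]
  exact ideal_mul_right hp (ideal_p hM) hr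

theorem brauerOmega_eq_omg {Q : Subgroup G} [Fintype (Subgroup.centralizer (Q : Set G))] (β : G → ℂ)
    (ξ : Subgroup.centralizer (Q : Set G) → ℂ) :
    brauerOmega Q β ξ = omg ξ (fun x => β x) := by
  classical
  unfold brauerOmega omg
  rw [finsum_eq_sum_of_fintype, Finset.sum_div]

theorem principal_pair (hM : IsPModular p M) {Q : Subgroup G} (hQ : IsPGroup p Q) :
    IsBrauerPairOf p M (principalBlock M G) Q (principalBlock M (Subgroup.centralizer (Q : Set G))) := by
  classical
  letI := Fintype.ofFinite G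
  letI := Fintype.ofFinite (Subgroup.centralizer (Q : Set G))
  have hp := isPrime_of_modular hM
  refine ⟨⟨hQ, principal_isBlock M⟩, principal_isBlock M, ?_⟩
  intro ξ hξ
  rw [brauerOmega_eq_omg]
  set a : G → ℂ := blockCoeff (principalBlock M G) with ha
  have hacf : IsClassFunction G a := CfsgLib.BlockOrth.blockCoeff_classFun _
  have haR : ∀ x, MemLocalRing M (a x) := blockCoeff_ring hp (principal_isBlock M)
  have h1 := omg_sameBlock hp (χ := (⟨fun _ => 1, one_irr⟩ : IrrCharacter (Subgroup.centralizer (Q : Set G)))) (ψ := ξ) hξ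
    (a := fun x : Subgroup.centralizer (Q : Set G) => a x) (fun x g => hacf x g) (fun x => haR x)
  have h2 : omg (fun _ : Subgroup.centralizer (Q : Set G) => (1 : ℂ)) (fun x => a x) = ∑ x : Subgroup.centralizer (Q : Set G), a x := by
    unfold omg
    simp
  have h3 : ∑ x : G, a x = 1 := by
    have h4 : omg (fun _ : G => (1 : ℂ)) a = ∑ x : G, a x := by
      unfold omg
      simp
    rw [← h4]
    have h5 := omg_fou (⟨fun _ => 1, one_irr⟩ : IrrCharacter G) (ind (principalBlock M G))
    have h6 : fou (ind (principalBlock M G)) = a := by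
      funext x
      rw [ha, blockCoeff_eq_fou]
    rw [h6, ind_of (one_mem_principal hM)] at h5
    exact h5
  have h7 := sum_centralizer_congr hM hQ hacf haR
  rw [h3, ← h2] at h7
  have h8 := ideal_add hp h7 h1
  have h9 : 1 - omg (fun _ : Subgroup.centralizer (Q : Set G) => (1 : ℂ)) (fun x => a x) +
      (omg ((⟨fun _ => 1, one_irr⟩ : IrrCharacter (Subgroup.centralizer (Q : Set G))) : Subgroup.centralizer (Q : Set G) → ℂ) (fun x => a x) -
        omg (ξ : Subgroup.centralizer (Q : Set G) → ℂ) (fun x => a x)) =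
      1 - omg (ξ : Subgroup.centralizer (Q : Set G) → ℂ) (fun x => a x) := by
    change 1 - omg (fun _ : Subgroup.centralizer (Q : Set G) => (1 : ℂ)) (fun x => a x) +
      (omg (fun _ : Subgroup.centralizer (Q : Set G) => (1 : ℂ)) (fun x => a x) -
        omg (ξ : Subgroup.centralizer (Q : Set G) → ℂ) (fun x => a x)) = _
    ring
  rw [h9] at h8
  exact ideal_sub_comm h8

/-! ### equivalences -/

theorem index_centralizer_equiv {H K : Type*} [Group H] [Group K] (e : H ≃* K) (h : H) :
    (Subgroup.centralizer ({e h} : Set K)).index = (Subgroup.centralizer ({h} : Set H)).index := by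
  have h1 : Subgroup.centralizer ({h} : Set H) = (Subgroup.centralizer ({e h} : Set K)).comap (e : H →* K) := by
    ext x
    rw [Subgroup.mem_comap, Subgroup.mem_centralizer_singleton_iff, Subgroup.mem_centralizer_singleton_iff]
    change _ ↔ e x * e h = e h * e x
    rw [← map_mul, ← map_mul, e.injective.eq_iff]
  rw [h1, Subgroup.index_comap_of_surjective _ e.surjective]

theorem centralChar_equiv {H K : Type u} [Group H] [Group K] (e : H ≃* K) (χ : K → ℂ) (h : H) :
    centralChar (χ ∘ e) h = centralChar χ (e h) := by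
  unfold centralChar
  rw [index_centralizer_equiv]
  simp

theorem principal_equiv {H K : Type u} [Group H] [Group K] [Finite H] [Finite K] (e : H ≃* K) {χ : IrrCharacter K}
    (hχ : χ ∈ principalBlock M K) :
    (⟨(χ : K → ℂ) ∘ e, isIrrCharacter_comp_surj χ.2 (e : H →* K) e.surjective⟩ : IrrCharacter H) ∈ principalBlock M H := by
  intro h
  change MemLocalIdeal M (centralChar (fun _ : H => (1 : ℂ)) h - centralChar ((χ : K → ℂ) ∘ e) h)
  have h1 := hχ (e h)
  rw [centralChar_equiv]
  have h2 : centralChar (fun _ : H => (1 : ℂ)) h = centralChar (fun _ : K => (1 : ℂ)) (e h) :=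
    centralChar_equiv e (fun _ : K => (1 : ℂ)) h
  rw [h2]
  exact h1

/-- conjugation by a normalizing element as an automorphism -/
def conjAut {C : Subgroup G} {x : G} (hx : x ∈ Subgroup.normalizer (C : Set G)) : C ≃* C where
  toFun c := ⟨x * c * x⁻¹, (Subgroup.mem_normalizer_iff.1 hx c).1 c.2⟩
  invFun c := ⟨x⁻¹ * c * x, by
    have := (Subgroup.mem_normalizer_iff.1 hx (x⁻¹ * c * x)).2 (by
      have : x * (x⁻¹ * (c : G) * x) * x⁻¹ = c := by group
      rw [this]; exact c.2)
    exact this⟩
  left_inv c := by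
    apply Subtype.ext
    change x⁻¹ * (x * (c : G) * x⁻¹) * x = c
    group
  right_inv c := by
    apply Subtype.ext
    change x * (x⁻¹ * (c : G) * x) * x⁻¹ = c
    group
  map_mul' a b := by
    apply Subtype.ext
    change x * ((a : G) * b) * x⁻¹ = (x * (a : G) * x⁻¹) * (x * (b : G) * x⁻¹)
    group

theorem conjAut_coe {C : Subgroup G} {x : G} (hx : x ∈ Subgroup.normalizer (C : Set G)) (c : C) :
    ((conjAut hx c : C) : G) = x * c * x⁻¹ := rfl

theorem stab_principal_of (M : Ideal AlgInt) {C : Subgroup G} {x : G} (hx : x ∈ Subgroup.normalizer (C : Set G)) :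
    StabilizesBlock C (principalBlock M C) x := by
  refine ⟨hx, ?_⟩
  intro χ hχ
  refine ⟨_, principal_equiv (conjAut hx).symm hχ, ?_⟩
  intro k k' hk
  change (χ : C → ℂ) ((conjAut hx).symm k') = (χ : C → ℂ) k
  have : k' = conjAut hx k := by
    apply Subtype.ext
    rw [conjAut_coe]; exact hk
  rw [this, MulEquiv.symm_apply_apply]

theorem normalizer_le_normalizer_centralizer {Q : Subgroup G} {x : G} (hx : x ∈ Subgroup.normalizer (Q : Set G)) :
    x ∈ Subgroup.normalizer (Subgroup.centralizer (Q : Set G) : Set G) := by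
  rw [Subgroup.mem_normalizer_iff]
  intro c
  exact (centralizer_conj_mem (P := Q) (c := c) hx).symm

theorem stab_principal (M : Ideal AlgInt) {Q : Subgroup G} {x : G} (hx : x ∈ Subgroup.normalizer (Q : Set G)) :
    StabilizesBlock (Subgroup.centralizer (Q : Set G)) (principalBlock M (Subgroup.centralizer (Q : Set G))) x :=
  stab_principal_of M (normalizer_le_normalizer_centralizer hx)

end CfsgLib.PBP19
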