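import Cfsg.Agent.LibGalChar
import Cfsg.Agent.LibBlockBrauer
import Cfsg.Agent.LibBlockDefect
import Cfsg.Agent.LibBlockReg
import Cfsg.Agent.LibBlockOrth
import Cfsg.Agent.LibBlockReg2
import Cfsg.Agent.LibExc
import Cfsg.Agent.LibCharNorm

set_option autoImplicit false
set_option linter.all false

/-! # `p`-conjugate characters (helper20) -/

namespace CfsgLib.PConj20

open Cfsg CfsgLib.CharInt CfsgLib.CharInt2 CfsgLib.CharBasic CfsgLib.GalChar
open scoped ComplexConjugate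

universe u

/-! ### sums of roots of unity -/

theorem geom_root {ω : ℂ} {m : ℕ} (h : ω ^ m = 1) : ∃ z : ℤ, ∑ i ∈ Finset.range m, ω ^ i = (m : ℂ) * z := by
  by_cases h1 : ω = 1
  · exact ⟨1, by rw [h1]; simp⟩
  · refine ⟨0, ?_⟩
    have h2 := mul_geom_sum ω m
    rw [h, sub_self] at h2
    rcases mul_eq_zero.mp h2 with h3 | h3
    · exact absurd (sub_eq_zero.mp h3) h1
    · rw [h3]; simp

theorem filter_eq {p q : ℕ} (hp : p.Prime) (hq : q.Coprime p) (a : ℕ) :
    ∃ j0 : ℕ, (Finset.range (p ^ (a + 1))).filter (fun j => ¬ ¬ p ∣ 1 + q * j) =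
        (Finset.range (p ^ a)).image (fun i => j0 + p * i) := by
  classical
  -- j0
  obtain ⟨j0, hj0, hj0'⟩ : ∃ j0 : ℕ, j0 < p ∧ p ∣ 1 + q * j0 := by
    haveI : NeZero p := ⟨hp.pos.ne'⟩
    let u : (ZMod p)ˣ := ZMod.unitOfCoprime q hq
    refine ⟨(-(u⁻¹ : (ZMod p)ˣ) : ZMod p).val, ZMod.val_lt _, ?_⟩
    rw [← ZMod.natCast_eq_zero_iff]
    push_cast
    rw [ZMod.natCast_zmod_val]
    have : (q : ZMod p) = (u : ZMod p) := (ZMod.coe_unitOfCoprime q hq).symm
    rw [this, mul_neg, Units.mul_inv, add_neg_cancel]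
  refine ⟨j0, ?_⟩
  have hset : (Finset.range (p ^ (a + 1))).filter (fun j => ¬ ¬ p ∣ 1 + q * j) =
      (Finset.range (p ^ a)).image (fun i => j0 + p * i) := by
    ext j
    rw [Finset.mem_filter, Finset.mem_range, Finset.mem_image, not_not]
    constructor
    · rintro ⟨hj, hd⟩
      have h3 : (1 + q * j0) ≡ (1 + q * j) [MOD p] := by
        rw [Nat.ModEq, Nat.mod_eq_zero_of_dvd hj0', Nat.mod_eq_zero_of_dvd hd]
      have h4 : q * j0 ≡ q * j [MOD p] := Nat.ModEq.add_left_cancel' 1 h3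
      have h5 : j0 ≡ j [MOD p] := Nat.ModEq.cancel_left_of_coprime (by rw [Nat.gcd_comm]; exact hq) h4
      have h6 : j % p = j0 := by
        rw [← Nat.mod_eq_of_lt hj0]; exact h5.symm
      refine ⟨j / p, ?_, ?_⟩
      · rw [Finset.mem_range]
        apply Nat.div_lt_of_lt_mul
        rw [← pow_succ']
        exact hj
      · change j0 + p * (j / p) = j
        rw [← h6]; exact Nat.mod_add_div j p
    · rintro ⟨i, hi, rfl⟩
      rw [Finset.mem_range] at hi
      constructor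
      · calc j0 + p * i < p + p * i := by omega
          _ = p * (i + 1) := by ring
          _ ≤ p * p ^ a := Nat.mul_le_mul_left _ hi
          _ = p ^ (a + 1) := by rw [pow_succ']
      · have : 1 + q * (j0 + p * i) = (1 + q * j0) + p * (q * i) := by ring
        rw [this]
        exact dvd_add hj0' (dvd_mul_right _ _)
  exact hset

theorem card_filter {p q : ℕ} (hp : p.Prime) (hq : q.Coprime p) (a : ℕ) :
    ((Finset.range (p ^ (a + 1))).filter (fun j => ¬ p ∣ 1 + q * j)).card = (p - 1) * p ^ a := by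
  classical
  obtain ⟨j0, hset⟩ := filter_eq hp hq a
  have h1 := Finset.card_filter_add_card_filter_not (s := Finset.range (p ^ (a + 1))) (fun j => ¬ p ∣ 1 + q * j)
  rw [hset, Finset.card_image_of_injective, Finset.card_range, Finset.card_range] at h1
  · obtain ⟨m, rfl⟩ : ∃ m, p = m + 1 := ⟨p - 1, by have := hp.pos; omega⟩
    rw [Nat.add_sub_cancel]
    have h2 : (m + 1) ^ (a + 1) = m * (m + 1) ^ a + (m + 1) ^ a := by ring
    omega
  · intro i i' h
    have h3 : p * i = p * i' := by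
      have h4 : j0 + p * i = j0 + p * i' := h
      omega
    exact Nat.eq_of_mul_eq_mul_left hp.pos h3

/-- the sum over the exponents `1 + q j`, `j < p ^ (a+1)`, prime to `p` is divisible by `p ^ a`. -/
theorem root_sum {p q a : ℕ} (hp : p.Prime) (hq : q.Coprime p) {ζ : ℂ} (hζ : ζ ^ (p ^ (a + 1) * q) = 1) :
    ∃ z : ℂ, IsIntegral ℤ z ∧
      ∑ j ∈ (Finset.range (p ^ (a + 1))).filter (fun j => ¬ p ∣ 1 + q * j), ζ ^ (1 + q * j) = (p : ℂ) ^ a * z := by
  classical
  have hζi : IsIntegral ℤ ζ := by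
    refine CfsgLib.CharNorm.isIntegral_of_pow ?_ hζ
    have h1 : 0 < p ^ (a + 1) := pow_pos hp.pos _
    have h2 : q ≠ 0 := by
      rintro rfl
      rw [Nat.coprime_zero_left] at hq
      exact hp.one_lt.ne' hq
    positivity
  have h1 : ∑ j ∈ Finset.range (p ^ (a + 1)), ζ ^ (1 + q * j) =
      ∑ j ∈ (Finset.range (p ^ (a + 1))).filter (fun j => ¬ p ∣ 1 + q * j), ζ ^ (1 + q * j) +
      ∑ j ∈ (Finset.range (p ^ (a + 1))).filter (fun j => ¬ ¬ p ∣ 1 + q * j), ζ ^ (1 + q * j) :=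
    (Finset.sum_filter_add_sum_filter_not _ _ _).symm
  -- the full sum
  obtain ⟨z1, hz1⟩ : ∃ z1 : ℂ, IsIntegral ℤ z1 ∧ ∑ j ∈ Finset.range (p ^ (a + 1)), ζ ^ (1 + q * j) = (p : ℂ) ^ a * z1 := by
    obtain ⟨z, hz⟩ := geom_root (ω := ζ ^ q) (m := p ^ (a + 1)) (by rw [← pow_mul, mul_comm]; exact hζ)
    refine ⟨(p : ℂ) * (ζ * z), ?_, ?_⟩
    · exact (isIntegral_natCast (R := ℤ) (a := p)).mul (hζi.mul (by
        have h : ((z : ℤ) : ℂ) = algebraMap ℤ ℂ z := by simp
        rw [h]; exact isIntegral_algebraMap))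
    · have h2 : ∀ j, ζ ^ (1 + q * j) = ζ * (ζ ^ q) ^ j := by
        intro j; rw [pow_add, pow_one, pow_mul]
      simp only [h2, ← Finset.mul_sum, hz]
      push_cast
      ring
  -- the part divisible by p
  obtain ⟨z2, hz2⟩ : ∃ z2 : ℂ, IsIntegral ℤ z2 ∧
      ∑ j ∈ (Finset.range (p ^ (a + 1))).filter (fun j => ¬ ¬ p ∣ 1 + q * j), ζ ^ (1 + q * j) = (p : ℂ) ^ a * z2 := by
    obtain ⟨j0, hset⟩ := filter_eq hp hq a
    obtain ⟨z, hz⟩ := geom_root (ω := ζ ^ (q * p)) (m := p ^ a) (by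
      rw [← pow_mul]
      have : q * p * p ^ a = p ^ (a + 1) * q := by rw [pow_succ]; ring
      rw [this]; exact hζ)
    refine ⟨ζ ^ (1 + q * j0) * z, ?_, ?_⟩
    · exact (hζi.pow _).mul (by
        have h : ((z : ℤ) : ℂ) = algebraMap ℤ ℂ z := by simp
        rw [h]; exact isIntegral_algebraMap)
    · rw [hset, Finset.sum_image]
      · have h2 : ∀ i, ζ ^ (1 + q * (j0 + p * i)) = ζ ^ (1 + q * j0) * (ζ ^ (q * p)) ^ i := by
          intro i; rw [← pow_mul, ← pow_add]; congr 1; ring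
        simp only [h2, ← Finset.mul_sum, hz]
        push_cast
        ring
      · intro i _ i' _ h
        have h3 : p * i = p * i' := by
          have h4 : j0 + p * i = j0 + p * i' := h
          omega
        exact Nat.eq_of_mul_eq_mul_left hp.pos h3
  refine ⟨z1 - z2, hz1.1.sub hz2.1, ?_⟩
  rw [hz1.2, hz2.2] at h1
  rw [mul_sub, h1]
  ring

/-! ### the twisting action -/

variable {G : Type u} [Group G] [Finite G]

theorem pow_val_natCast (g : G) (k : ℕ) : g ^ ((k : ZMod (Nat.card G)).val) = g ^ k := by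
  rw [ZMod.val_natCast, pow_mod_natCard]

/-- power twist of an irreducible character -/
noncomputable def tw (u : (ZMod (Nat.card G))ˣ) (χ : IrrCharacter G) : IrrCharacter G :=
  ⟨fun g => (χ : G → ℂ) (g ^ (u : ZMod (Nat.card G)).val), by
    obtain ⟨σ, hσ⟩ := exists_gal_of_coprime (G := G) (ZMod.val_coe_unit_coprime u)
    have h1 : (fun g => (χ : G → ℂ) (g ^ (u : ZMod (Nat.card G)).val)) = σ ∘ (χ : G → ℂ) := by
      funext g; exact hσ _ (CfsgLib.CharBasic.irr_isCharacter χ.2) g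
    rw [h1]
    exact isIrrCharacter_gal σ χ.2⟩

theorem tw_apply (u : (ZMod (Nat.card G))ˣ) (χ : IrrCharacter G) (g : G) :
    (tw u χ : G → ℂ) g = (χ : G → ℂ) (g ^ (u : ZMod (Nat.card G)).val) := rfl

noncomputable instance twAction : MulAction (ZMod (Nat.card G))ˣ (IrrCharacter G) where
  smul := tw
  one_smul χ := by
    apply Subtype.ext; funext g
    change (χ : G → ℂ) (g ^ ((1 : ZMod (Nat.card G))).val) = _
    have h := pow_val_natCast g 1
    rw [Nat.cast_one, pow_one] at h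
    rw [h]
  mul_smul u v χ := by
    apply Subtype.ext; funext g
    change (χ : G → ℂ) (g ^ ((u * v : (ZMod (Nat.card G))ˣ) : ZMod (Nat.card G)).val) =
      (χ : G → ℂ) ((g ^ (u : ZMod (Nat.card G)).val) ^ (v : ZMod (Nat.card G)).val)
    rw [← pow_mul, Units.val_mul, ZMod.val_mul, pow_mod_natCard]

theorem smul_apply (u : (ZMod (Nat.card G))ˣ) (χ : IrrCharacter G) (g : G) :
    ((u • χ : IrrCharacter G) : G → ℂ) g = (χ : G → ℂ) (g ^ (u : ZMod (Nat.card G)).val) := rfl

/-- the exponents congruent to `1` modulo `q` -/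
noncomputable def grp (G : Type u) [Group G] [Finite G] {q : ℕ} (hq : q ∣ Nat.card G) : Subgroup (ZMod (Nat.card G))ˣ :=
  (ZMod.unitsMap hq).ker

theorem mem_grp {q : ℕ} (hq : q ∣ Nat.card G) (u : (ZMod (Nat.card G))ˣ) :
    u ∈ grp G hq ↔ (u : ZMod (Nat.card G)).val ≡ 1 [MOD q] := by
  unfold grp
  rw [MonoidHom.mem_ker, Units.ext_iff, ZMod.unitsMap_def, Units.coe_map, Units.val_one,
    ← ZMod.natCast_eq_natCast_iff, Nat.cast_one]
  change (ZMod.castHom hq (ZMod q)) (u : ZMod (Nat.card G)) = 1 ↔ _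
  rw [ZMod.castHom_apply, ZMod.cast_eq_val]

/-- summation over the group of exponents `≡ 1 (mod q)` -/
theorem sum_grp {p q a : ℕ} (hp : p.Prime) (hqp : q.Coprime p) (hn : Nat.card G = p ^ (a + 1) * q)
    (hqn : q ∣ Nat.card G) [Fintype (grp G hqn)]
    (F : ℕ → ℂ) (hF : ∀ k, F (k % Nat.card G) = F k) :
    ∑ u : grp G hqn, F ((u : (ZMod (Nat.card G))ˣ) : ZMod (Nat.card G)).val =
      ∑ j ∈ (Finset.range (p ^ (a + 1))).filter (fun j => ¬ p ∣ 1 + q * j), F (1 + q * j) := by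
  classical
  have hq0 : 0 < q := by
    rcases Nat.eq_zero_or_pos q with h | h
    · subst h
      rw [Nat.coprime_zero_left] at hqp
      exact absurd hqp hp.one_lt.ne'
    · exact h
  haveI : NeZero (Nat.card G) := ⟨Nat.card_pos.ne'⟩
  have hcop : ∀ j, ¬ p ∣ 1 + q * j → Nat.Coprime (1 + q * j) (Nat.card G) := by
    intro j hj
    rw [hn]
    apply Nat.Coprime.mul_right
    · apply Nat.Coprime.pow_right
      rw [Nat.coprime_comm, Nat.Prime.coprime_iff_not_dvd hp]
      exact hj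
    · simp
  symm
  refine Finset.sum_bij (fun j hj => (⟨ZMod.unitOfCoprime (1 + q * j) (hcop j (Finset.mem_filter.mp hj).2), ?_⟩ : grp G hqn)) ?_ ?_ ?_ ?_
  · rw [mem_grp, ZMod.coe_unitOfCoprime, ZMod.val_natCast]
    have h1 : (1 + q * j) % Nat.card G ≡ (1 + q * j) [MOD q] := (Nat.mod_modEq _ _).of_dvd hqn
    refine h1.trans ?_
    rw [Nat.ModEq, Nat.add_mul_mod_self_left]
  · intro j hj; exact Finset.mem_univ _
  · intro j hj j' hj' h
    have h1 := congrArg (fun u : grp G hqn => ((u : (ZMod (Nat.card G))ˣ) : ZMod (Nat.card G))) h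
    simp only [ZMod.coe_unitOfCoprime] at h1
    rw [ZMod.natCast_eq_natCast_iff, hn] at h1
    have h2 : q * j ≡ q * j' [MOD (p ^ (a + 1) * q)] := Nat.ModEq.add_left_cancel' 1 h1
    rw [mul_comm (p ^ (a + 1)) q] at h2
    have h3 : j ≡ j' [MOD p ^ (a + 1)] := Nat.ModEq.mul_left_cancel' hq0.ne' h2
    have h4 := Finset.mem_range.mp (Finset.mem_filter.mp hj).1
    have h5 := Finset.mem_range.mp (Finset.mem_filter.mp hj').1
    rw [← Nat.mod_eq_of_lt h4, ← Nat.mod_eq_of_lt h5]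
    exact h3
  · intro u _
    set k := ((u : (ZMod (Nat.card G))ˣ) : ZMod (Nat.card G)).val with hk
    have h1 : k ≡ 1 [MOD q] := (mem_grp hqn _).mp u.2
    have h2 : Nat.Coprime k (Nat.card G) := ZMod.val_coe_unit_coprime _
    have h3 : k < Nat.card G := ZMod.val_lt _
    have hk1 : 1 ≤ k := by
      by_contra h
      have h4 : k = 0 := by omega
      rw [h4, Nat.coprime_zero_left] at h2
      have h5 : p ∣ Nat.card G := by rw [hn, pow_succ]; exact ⟨p ^ a * q, by ring⟩
      rw [h2] at h5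
      exact hp.one_lt.ne' (Nat.dvd_one.mp h5)
    have h4 : q ∣ k - 1 := (Nat.modEq_iff_dvd' hk1).mp h1.symm
    obtain ⟨j, hj⟩ := h4
    have h5 : k = 1 + q * j := by omega
    refine ⟨j, ?_, ?_⟩
    · rw [Finset.mem_filter, Finset.mem_range]
      constructor
      · by_contra h6
        push Not at h6
        have h7 : q * p ^ (a + 1) ≤ q * j := Nat.mul_le_mul_left _ h6
        rw [hn, mul_comm] at h3
        omega
      · rw [← h5]
        intro h6
        have h7 : p ∣ Nat.card G := by rw [hn, pow_succ]; exact ⟨p ^ a * q, by ring⟩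
        have h8 := Nat.dvd_gcd h6 h7
        rw [h2] at h8
        exact hp.one_lt.ne' (Nat.dvd_one.mp h8)
    · apply Subtype.ext
      apply Units.ext
      rw [ZMod.coe_unitOfCoprime, ← h5, hk, ZMod.natCast_zmod_val]
  · intro j hj
    change F (1 + q * j) = F (((ZMod.unitOfCoprime (1 + q * j) (hcop j (Finset.mem_filter.mp hj).2) : (ZMod (Nat.card G))ˣ) : ZMod (Nat.card G)).val)
    rw [ZMod.coe_unitOfCoprime, ZMod.val_natCast, hF]

/-- counting: the group of exponents has order `(p-1) p^a`. -/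
theorem card_grp {p q a : ℕ} (hp : p.Prime) (hqp : q.Coprime p) (hn : Nat.card G = p ^ (a + 1) * q)
    (hqn : q ∣ Nat.card G) :
    Nat.card (grp G hqn) = (p - 1) * p ^ a := by
  classical
  haveI : NeZero (Nat.card G) := ⟨Nat.card_pos.ne'⟩
  letI h1 : Fintype (grp G hqn) := Fintype.ofFinite _
  have h2 := sum_grp (G := G) hp hqp hn hqn (fun _ => 1) (fun _ => rfl)
  rw [Finset.sum_const, Finset.sum_const, Finset.card_univ, card_filter hp hqp, nsmul_eq_mul, mul_one,
    nsmul_eq_mul, mul_one] at h2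
  rw [Nat.card_eq_fintype_card]
  exact_mod_cast h2

/-- the trace of a character is divisible by `p ^ a`. -/
theorem trace_div {p q a : ℕ} (hp : p.Prime) (hqp : q.Coprime p) (hn : Nat.card G = p ^ (a + 1) * q)
    (hqn : q ∣ Nat.card G) [Fintype (grp G hqn)] {χ : G → ℂ} (hχ : IsCharacter G χ) (g : G) :
    ∃ z : ℂ, IsIntegral ℤ z ∧
      ∑ u : grp G hqn, χ (g ^ ((u : (ZMod (Nat.card G))ˣ) : ZMod (Nat.card G)).val) = (p : ℂ) ^ a * z := by
  obtain ⟨n, ρ, rfl⟩ := hχ
  obtain ⟨b, ω, h1, h2⟩ := exists_diag_rep ρ g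
  have h3 : ∀ i, ω i ^ (Nat.card G) = 1 := by
    intro i
    obtain ⟨m, hm⟩ := orderOf_dvd_natCard g
    rw [hm, pow_mul, h1, one_pow]
  have h4 : ∀ i, ∃ z : ℂ, IsIntegral ℤ z ∧
      ∑ u : grp G hqn, ω i ^ (((u : (ZMod (Nat.card G))ˣ) : ZMod (Nat.card G)).val) = (p : ℂ) ^ a * z := by
    intro i
    rw [sum_grp (G := G) hp hqp hn hqn (fun k => ω i ^ k) (fun k => by
      have h5 : ω i ^ k = ω i ^ (k % Nat.card G + Nat.card G * (k / Nat.card G)) := by rw [Nat.mod_add_div]
      rw [h5, pow_add, pow_mul, h3, one_pow, mul_one])]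
    exact root_sum hp hqp (by rw [← hn]; exact h3 i)
  choose z hz1 hz2 using h4
  refine ⟨∑ i, z i, IsIntegral.sum _ (fun i _ => hz1 i), ?_⟩
  have h5 : ∀ k : ℕ, ρ.character (g ^ k) = ∑ i, ω i ^ k := by
    intro k
    rw [Representation.character]
    exact trace_of_diag b _ (fun i => (ω i) ^ k) (fun i => diag_pow ρ g (h2 i) k)
  simp only [h5]
  rw [Finset.sum_comm, Finset.mul_sum]
  exact Finset.sum_congr rfl fun i _ => hz2 i

/-! ### orbits -/

theorem orbit_sum {q : ℕ} (hqn : q ∣ Nat.card G) [Fintype (grp G hqn)] [DecidableEq (IrrCharacter G)]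
    (χ : IrrCharacter G) :
    ∃ c : ℕ, (∀ f : IrrCharacter G → ℂ, ∑ u : grp G hqn, f ((u : (ZMod (Nat.card G))ˣ) • χ) =
      (c : ℂ) * ∑ φ ∈ Finset.univ.image (fun u : grp G hqn => (u : (ZMod (Nat.card G))ˣ) • χ), f φ) ∧
      Nat.card (grp G hqn) = c * (Finset.univ.image (fun u : grp G hqn => (u : (ZMod (Nat.card G))ˣ) • χ)).card := by
  classical
  set c := (Finset.univ.filter (fun u : grp G hqn => (u : (ZMod (Nat.card G))ˣ) • χ = χ)).card with hc
  have h1 : ∀ φ ∈ Finset.univ.image (fun u : grp G hqn => (u : (ZMod (Nat.card G))ˣ) • χ),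
      (Finset.univ.filter (fun u : grp G hqn => (u : (ZMod (Nat.card G))ˣ) • χ = φ)).card = c := by
    intro φ hφ
    obtain ⟨v, -, rfl⟩ := Finset.mem_image.mp hφ
    symm
    refine Finset.card_bij (fun u _ => v * u) ?_ ?_ ?_
    · intro u hu
      rw [Finset.mem_filter] at hu ⊢
      refine ⟨Finset.mem_univ _, ?_⟩
      rw [Subgroup.coe_mul, mul_smul, hu.2]
    · intro u _ u' _ h
      exact mul_left_cancel h
    · intro w hw
      rw [Finset.mem_filter] at hw
      refine ⟨v⁻¹ * w, ?_, by group⟩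
      rw [Finset.mem_filter]
      refine ⟨Finset.mem_univ _, ?_⟩
      rw [Subgroup.coe_mul, mul_smul, hw.2, Subgroup.coe_inv, inv_smul_smul]
  refine ⟨c, ?_, ?_⟩
  · intro f
    rw [Finset.sum_comp f (fun u : grp G hqn => (u : (ZMod (Nat.card G))ˣ) • χ), Finset.mul_sum]
    apply Finset.sum_congr rfl
    intro φ hφ
    rw [h1 φ hφ, nsmul_eq_mul]
  · rw [Nat.card_eq_fintype_card, ← Finset.card_univ,
      Finset.card_eq_sum_card_image (fun u : grp G hqn => (u : (ZMod (Nat.card G))ˣ) • χ) Finset.univ,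
      Finset.sum_congr rfl h1, Finset.sum_const, smul_eq_mul, mul_comm]

theorem exp_pow_eq {m k : ℕ} (hm : m ≠ 0) (hk : k ≠ 0) :
    Complex.exp (2 * Real.pi * Complex.I / ((m * k : ℕ) : ℂ)) ^ m = Complex.exp (2 * Real.pi * Complex.I / (k : ℂ)) := by
  rw [← Complex.exp_nat_mul]
  congr 1
  have h1 : (m : ℂ) ≠ 0 := by exact_mod_cast hm
  have h2 : (k : ℂ) ≠ 0 := by exact_mod_cast hk
  push_cast
  field_simp

theorem root_pow_iff {ε : ℂ} {q : ℕ} (h : IsPrimitiveRoot ε q) (hq : q ≠ 0) (k : ℕ) :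
    ε ^ k = ε ↔ k ≡ 1 [MOD q] := by
  have h1 : ∀ m, ε ^ m = ε ^ (m % q) := by
    intro m
    conv_lhs => rw [← Nat.mod_add_div m q]
    rw [pow_add, pow_mul, h.pow_eq_one, one_pow, mul_one]
  constructor
  · intro h2
    have h3 : ε ^ (k % q) = ε ^ (1 % q) := by rw [← h1, ← h1, pow_one, h2]
    exact h.pow_inj (Nat.mod_lt _ (Nat.pos_of_ne_zero hq)) (Nat.mod_lt _ (Nat.pos_of_ne_zero hq)) h3
  · intro h2
    have h3 : ε ^ k = ε ^ 1 := by rw [h1 k, h1 1, h2]
    rw [h3, pow_one]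

/-- `p`-conjugates are the power twists by exponents `≡ 1 (mod q)`. -/
theorem conj_iff {q m : ℕ} (hn : Nat.card G = m * q) (hqn : q ∣ Nat.card G) (χ ψ : IrrCharacter G) :
    (∃ σ : ℂ ≃+* ℂ, σ (Complex.exp (2 * Real.pi * Complex.I / (q : ℂ))) = Complex.exp (2 * Real.pi * Complex.I / (q : ℂ)) ∧
      (ψ : G → ℂ) = fun g => σ ((χ : G → ℂ) g)) ↔ ∃ u ∈ grp G hqn, u • χ = ψ := by
  have hn0 : Nat.card G ≠ 0 := Nat.card_pos.ne'
  haveI : NeZero (Nat.card G) := ⟨hn0⟩
  have hq0 : q ≠ 0 := by rintro rfl; rw [mul_zero] at hn; exact hn0 hn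
  have hm0 : m ≠ 0 := by rintro rfl; rw [zero_mul] at hn; exact hn0 hn
  set ε := Complex.exp (2 * Real.pi * Complex.I / (q : ℂ)) with hε
  have hεp : IsPrimitiveRoot ε q := Complex.isPrimitiveRoot_exp q hq0
  have hζ : IsPrimitiveRoot (Complex.exp (2 * Real.pi * Complex.I / (Nat.card G : ℂ))) (Nat.card G) :=
    Complex.isPrimitiveRoot_exp _ hn0
  set ζ := Complex.exp (2 * Real.pi * Complex.I / (Nat.card G : ℂ)) with hζd
  have hζε : ζ ^ m = ε := by
    rw [hζd, hε, ← exp_pow_eq hm0 hq0, hn]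
  constructor
  · rintro ⟨σ, hσ, hψ⟩
    have hσζ : IsPrimitiveRoot (σ ζ) (Nat.card G) := hζ.map_of_injective σ.injective
    obtain ⟨k, hk, hk', hk2⟩ := hζ.isPrimitiveRoot_iff.1 hσζ
    have hkall : ∀ z : ℂ, z ^ (Nat.card G) = 1 → σ z = z ^ k := by
      intro z hz
      obtain ⟨l, -, hl⟩ := hζ.eq_pow_of_pow_eq_one hz
      rw [← hl, map_pow, ← hk2, ← pow_mul, ← pow_mul, mul_comm]
    have hε1 : ε ^ k = ε := by
      rw [← hkall ε (by rw [hn, mul_comm, pow_mul, hεp.pow_eq_one, one_pow])]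
      exact hσ
    have hkq : k ≡ 1 [MOD q] := (root_pow_iff hεp hq0 k).mp hε1
    refine ⟨ZMod.unitOfCoprime k hk', ?_, ?_⟩
    · rw [mem_grp, ZMod.coe_unitOfCoprime, ZMod.val_natCast]
      exact ((Nat.mod_modEq _ _).of_dvd hqn).trans hkq
    · apply Subtype.ext
      rw [hψ]
      funext g
      rw [smul_apply, ZMod.coe_unitOfCoprime, pow_val_natCast]
      apply char_pow_eq_of_roots (CfsgLib.CharBasic.irr_isCharacter χ.2)
      intro z hz
      apply hkall
      obtain ⟨l, hl⟩ := orderOf_dvd_natCard g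
      rw [hl, pow_mul, hz, one_pow]
  · rintro ⟨u, hu, rfl⟩
    rw [mem_grp] at hu
    obtain ⟨σ, hσ⟩ := CfsgLib.GalField.exists_ringEquiv_pow (Nat.card G) (u : ZMod (Nat.card G)).val Nat.card_pos
      (ZMod.val_coe_unit_coprime u)
    refine ⟨σ, ?_, ?_⟩
    · rw [hσ ε (by rw [hn, mul_comm, pow_mul, hεp.pow_eq_one, one_pow])]
      exact (root_pow_iff hεp hq0 _).mpr hu
    · funext g
      rw [smul_apply]
      apply char_pow_eq_of_roots (CfsgLib.CharBasic.irr_isCharacter χ.2)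
      intro z hz
      apply hσ
      obtain ⟨l, hl⟩ := orderOf_dvd_natCard g
      rw [hl, pow_mul, hz, one_pow]

/-! ### main bounds -/

theorem sum_inv_mul [Fintype G] [DecidableEq (IrrCharacter G)] (θ φ : IrrCharacter G) :
    ∑ x : G, (φ : G → ℂ) x⁻¹ * (θ : G → ℂ) x = if θ = φ then (Nat.card G : ℂ) else 0 := by
  have hG : (Nat.card G : ℂ) ≠ 0 := by exact_mod_cast Nat.card_pos.ne'
  have h1 : classInner (θ : G → ℂ) (φ : G → ℂ) = if (θ : G → ℂ) = (φ : G → ℂ) then 1 else 0 :=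
    CfsgLib.Exc.irr_inner_ite θ.2 φ.2
  have h2 : ∑ x : G, (φ : G → ℂ) x⁻¹ * (θ : G → ℂ) x = (Nat.card G : ℂ) * classInner (θ : G → ℂ) (φ : G → ℂ) := by
    unfold classInner
    rw [mul_inv_cancel_left₀ hG]
    apply Finset.sum_congr rfl
    intro x _
    rw [char_inv_eq_conj (CfsgLib.CharBasic.irr_isCharacter φ.2), mul_comm]
  rw [h2, h1]
  by_cases h : θ = φ
  · rw [if_pos h, if_pos (congrArg Subtype.val h), mul_one]
  · rw [if_neg h, if_neg (fun h' => h (Subtype.ext h')), mul_zero]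

open CfsgLib.BlockR CfsgLib.BlockCore CfsgLib.BlockBrauer CfsgLib.BlockDefect in
theorem main {p a q : ℕ} [hpf : Fact p.Prime] (hqp : q.Coprime p) (hn : Nat.card G = p ^ (a + 1) * q)
    (hqn : q ∣ Nat.card G) [Fintype (grp G hqn)] [DecidableEq (IrrCharacter G)] (χ : IrrCharacter G) (r : ℕ)
    (hr : (Finset.univ.image (fun u : grp G hqn => (u : (ZMod (Nat.card G))ˣ) • χ)).card = r) :
    (r * charDegree (χ : G → ℂ)).factorization p ≤ a + 1 ∧
      (p ^ (a + 1) ∣ r * charDegree (χ : G → ℂ) → p ^ (a + 1) ∣ charDegree (χ : G → ℂ)) := by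
  classical
  letI := Fintype.ofFinite G
  have hp : p.Prime := hpf.out
  obtain ⟨M, hM⟩ := CfsgLib.BlockReg2.exists_modular p hp
  have hMp := isPrime_of_modular hM
  have hG : (Nat.card G : ℂ) ≠ 0 := by exact_mod_cast Nat.card_pos.ne'
  obtain ⟨c, hc1, hc2⟩ := orbit_sum hqn χ
  set S := Finset.univ.image (fun u : grp G hqn => (u : (ZMod (Nat.card G))ˣ) • χ) with hS
  rw [hr, card_grp hp hqp hn hqn] at hc2
  have hpa : (p : ℂ) ^ a ≠ 0 := pow_ne_zero _ (by exact_mod_cast hp.pos.ne')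
  have hp1 : 0 < p - 1 := by have := hp.one_lt; omega
  have hcr : c * r ≠ 0 := by
    rw [← hc2]
    exact (Nat.mul_pos hp1 (pow_pos hp.pos _)).ne'
  have hc0 : c ≠ 0 := left_ne_zero_of_mul hcr
  have hr0 : r ≠ 0 := right_ne_zero_of_mul hcr
  set d := charDegree (χ : G → ℂ) with hd
  have hd0 : d ≠ 0 := (irr_charDegree_pos χ.2).ne'
  have hχ1 : (χ : G → ℂ) 1 = (d : ℂ) := irr_one_eq_charDegree χ.2
  have hS1 : ∀ φ ∈ S, (φ : G → ℂ) 1 = (d : ℂ) := by
    intro φ hφ
    obtain ⟨u, -, rfl⟩ := Finset.mem_image.mp hφ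
    rw [smul_apply, one_pow, hχ1]
  have hχS : χ ∈ S := Finset.mem_image.mpr ⟨1, Finset.mem_univ _, by rw [Subgroup.coe_one, one_smul]⟩
  -- the trace function
  set T : G → ℂ := fun x => ∑ u : grp G hqn, (χ : G → ℂ) (x ^ ((u : (ZMod (Nat.card G))ˣ) : ZMod (Nat.card G)).val) with hT
  have hT1 : ∀ x, T x = (c : ℂ) * ∑ φ ∈ S, (φ : G → ℂ) x := fun x => hc1 (fun φ => (φ : G → ℂ) x)
  have hT2 : ∀ x, ∃ z : ℂ, IsIntegral ℤ z ∧ T x = (p : ℂ) ^ a * z := fun x =>
    trace_div hp hqp hn hqn (CfsgLib.CharBasic.irr_isCharacter χ.2) x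
  have hTcf : IsClassFunction G T := by
    intro g h
    rw [hT1, hT1]
    congr 1
    apply Finset.sum_congr rfl
    intro φ _
    exact CfsgLib.CharBasic.irr_classFun φ.2 g h
  set b : G → ℂ := fun x => T x⁻¹ / (p : ℂ) ^ a with hb
  have hbcf : IsClassFunction G b := by
    intro g h
    change T (h * g * h⁻¹)⁻¹ / _ = T g⁻¹ / _
    have : (h * g * h⁻¹)⁻¹ = h * g⁻¹ * h⁻¹ := by group
    rw [this, hTcf]
  have hbR : ∀ x, MemLocalRing M (b x) := by
    intro x
    obtain ⟨z, hz1, hz2⟩ := hT2 x⁻¹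
    have : b x = z := by
      change T x⁻¹ / _ = z
      rw [hz2]; field_simp
    rw [this]
    exact ringOfInt hMp hz1
  have homg : ∀ θ : IrrCharacter G, omg (θ : G → ℂ) b =
      if θ ∈ S then (c : ℂ) * (Nat.card G : ℂ) / ((p : ℂ) ^ a * (d : ℂ)) else 0 := by
    intro θ
    unfold omg
    have h1 : ∑ x : G, b x * (θ : G → ℂ) x = (c : ℂ) / (p : ℂ) ^ a * ∑ φ ∈ S, if θ = φ then (Nat.card G : ℂ) else 0 := by
      calc ∑ x : G, b x * (θ : G → ℂ) x = ∑ x : G, ∑ φ ∈ S, (c : ℂ) / (p : ℂ) ^ a * ((φ : G → ℂ) x⁻¹ * (θ : G → ℂ) x) := by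
            apply Finset.sum_congr rfl
            intro x _
            change T x⁻¹ / _ * _ = _
            rw [hT1, ← Finset.mul_sum, ← Finset.sum_mul]
            ring
        _ = (c : ℂ) / (p : ℂ) ^ a * ∑ φ ∈ S, ∑ x : G, ((φ : G → ℂ) x⁻¹ * (θ : G → ℂ) x) := by
            rw [Finset.sum_comm, Finset.mul_sum]
            apply Finset.sum_congr rfl
            intro φ _
            rw [Finset.mul_sum]
        _ = _ := by
            congr 1
            exact Finset.sum_congr rfl fun φ _ => sum_inv_mul θ φ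
    rw [h1, Finset.sum_ite_eq]
    split_ifs with h
    · rw [hS1 θ h]
      have hd' : (d : ℂ) ≠ 0 := by exact_mod_cast hd0
      field_simp
    · rw [mul_zero, zero_div]
  -- first part
  have hd' : (d : ℂ) ≠ 0 := by exact_mod_cast hd0
  have hfirst : (r * d).factorization p ≤ a + 1 := by
    have h1 := omg_ring hMp χ hbcf hbR
    rw [homg, if_pos hχS] at h1
    have h2 : (c : ℂ) * (Nat.card G : ℂ) / ((p : ℂ) ^ a * (d : ℂ)) = ((c * Nat.card G : ℕ) : ℂ) / ((p ^ a * d : ℕ) : ℂ) := by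
      push_cast; rfl
    rw [h2, ring_div_nat_iff hM (mul_ne_zero hc0 Nat.card_pos.ne') (mul_ne_zero (pow_ne_zero _ hp.pos.ne') hd0)] at h1
    have hq0 : q ≠ 0 := by
      rintro rfl
      rw [Nat.coprime_zero_left] at hqp
      exact hp.one_lt.ne' hqp
    have hpq : q.factorization p = 0 := by
      apply Nat.factorization_eq_zero_of_not_dvd
      intro h3
      have h4 := Nat.dvd_gcd h3 (dvd_refl p)
      rw [hqp] at h4
      exact hp.one_lt.ne' (Nat.dvd_one.mp h4)
    have hp1' : (p - 1).factorization p = 0 := by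
      apply Nat.factorization_eq_zero_of_not_dvd
      intro h3
      have := Nat.le_of_dvd hp1 h3
      omega
    have hcf : ((p - 1) * p ^ a).factorization p = a := by
      rw [Nat.factorization_mul hp1.ne' (pow_ne_zero _ hp.pos.ne'), Finsupp.add_apply, hp1',
        hp.factorization_pow, Finsupp.single_eq_same, zero_add]
    have hcrf : c.factorization p + r.factorization p = a := by
      rw [← hcf, hc2, Nat.factorization_mul hc0 hr0, Finsupp.add_apply]
    have hnf : (Nat.card G).factorization p = a + 1 := by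
      rw [hn, Nat.factorization_mul (pow_ne_zero _ hp.pos.ne') hq0, Finsupp.add_apply,
        hp.factorization_pow, Finsupp.single_eq_same, hpq, add_zero]
    rw [Nat.factorization_mul (pow_ne_zero _ hp.pos.ne') hd0, Nat.factorization_mul hc0 Nat.card_pos.ne',
      Finsupp.add_apply, Finsupp.add_apply, hp.factorization_pow, Finsupp.single_eq_same, hnf] at h1
    rw [Nat.factorization_mul hr0 hd0, Finsupp.add_apply]
    omega
  refine ⟨hfirst, ?_⟩
  intro hdvd
  -- the normalized function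
  have hnn : ((p - 1 : ℕ) : ℂ) ≠ 0 := by exact_mod_cast hp1.ne'
  set e : ℂ := (r : ℂ) * (d : ℂ) / ((Nat.card G : ℂ)) * ((p - 1 : ℕ) : ℂ)⁻¹ with he
  have heR : MemLocalRing M e := by
    apply ring_mul hMp
    · have h2 : (r : ℂ) * (d : ℂ) / (Nat.card G : ℂ) = ((r * d : ℕ) : ℂ) / ((Nat.card G : ℕ) : ℂ) := by
        push_cast; rfl
      rw [h2, ring_div_nat_iff hM (mul_ne_zero hr0 hd0) Nat.card_pos.ne']
      have hq0 : q ≠ 0 := by
        rintro rfl
        rw [Nat.coprime_zero_left] at hqp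
        exact hp.one_lt.ne' hqp
      have hpq : q.factorization p = 0 := by
        apply Nat.factorization_eq_zero_of_not_dvd
        intro h3
        have h4 := Nat.dvd_gcd h3 (dvd_refl p)
        rw [hqp] at h4
        exact hp.one_lt.ne' (Nat.dvd_one.mp h4)
      have hnf : (Nat.card G).factorization p = a + 1 := by
        rw [hn, Nat.factorization_mul (pow_ne_zero _ hp.pos.ne') hq0, Finsupp.add_apply,
          hp.factorization_pow, Finsupp.single_eq_same, hpq, add_zero]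
      rw [hnf]
      exact (hp.pow_dvd_iff_le_factorization (mul_ne_zero hr0 hd0)).mp hdvd
    · apply ring_inv_nat hM
      intro h3
      have := Nat.le_of_dvd hp1 h3
      omega
  set b' : G → ℂ := fun x => e * b x with hb'
  have hb'cf : IsClassFunction G b' := fun g h => by
    change e * b _ = e * b _
    rw [hbcf]
  have hb'R : ∀ x, MemLocalRing M (b' x) := fun x => ring_mul hMp heR (hbR x)
  have homg' : ∀ θ : IrrCharacter G, omg (θ : G → ℂ) b' = if θ ∈ S then 1 else 0 := by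
    intro θ
    have h1 : omg (θ : G → ℂ) b' = e * omg (θ : G → ℂ) b := by
      unfold omg
      rw [← mul_div_assoc, Finset.mul_sum]
      congr 1
      apply Finset.sum_congr rfl
      intro x _
      change e * b x * _ = _
      ring
    rw [h1, homg]
    split_ifs with h
    · rw [he]
      have h2 : (c : ℂ) * (r : ℂ) = ((p - 1 : ℕ) : ℂ) * (p : ℂ) ^ a := by exact_mod_cast hc2.symm
      field_simp
      rw [← h2]; ring
    · rw [mul_zero]
  have hBS : ∀ φ ∈ blockOf M (χ : G → ℂ), φ ∈ S := by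
    intro φ hφ
    by_contra h
    have h1 := omg_sameBlock hMp (show SameBlock M (χ : G → ℂ) (φ : G → ℂ) from hφ) hb'cf hb'R
    rw [homg', homg', if_pos hχS, if_neg h, sub_zero] at h1
    exact not_ideal_one hMp h1
  -- vanishing on p-singular elements
  set B := (blockOf M (χ : G → ℂ)).toFinite.toFinset with hB
  have hBmem : ∀ φ, φ ∈ B ↔ φ ∈ blockOf M (χ : G → ℂ) := fun φ => by rw [hB, Set.Finite.mem_toFinset]
  have hvan : ∀ y : G, p ∣ orderOf y → ∑ φ ∈ B, conj ((φ : G → ℂ) y) = 0 := by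
    intro y hy
    have h1 := CfsgLib.BlockOrth.weak_block_orth hM ⟨χ, rfl⟩ (x := (1 : G)) (y := y) (B := blockOf M (χ : G → ℂ))
      (by rw [orderOf_one]; exact hp.one_lt.ne' ∘ Nat.dvd_one.mp) hy
    rw [finsum_mem_eq_finite_toFinset_sum _ (Set.toFinite _)] at h1
    have h2 : ∑ φ ∈ B, (d : ℂ) * conj ((φ : G → ℂ) y) = 0 := by
      rw [← h1]
      apply Finset.sum_congr rfl
      intro φ hφ
      rw [hS1 φ (hBS φ ((hBmem φ).mp hφ))]
    rw [← Finset.mul_sum] at h2
    exact (mul_eq_zero.mp h2).resolve_left hd'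
  obtain ⟨P⟩ : Nonempty (Sylow p G) := inferInstance
  letI := Fintype.ofFinite (P : Subgroup G)
  obtain ⟨m, hm⟩ := char_mult (CfsgLib.CharBasic.isCharacter_restrict (CfsgLib.CharBasic.irr_isCharacter χ.2) (P : Subgroup G))
    (isCharacter_one (G := (P : Subgroup G)))
  have hPc : Nat.card (P : Subgroup G) = p ^ (a + 1) := by
    have h1 := P.card_eq_multiplicity
    have hq0 : q ≠ 0 := by
      rintro rfl
      rw [Nat.coprime_zero_left] at hqp
      exact hp.one_lt.ne' hqp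
    have hpq : q.factorization p = 0 := by
      apply Nat.factorization_eq_zero_of_not_dvd
      intro h3
      have h4 := Nat.dvd_gcd h3 (dvd_refl p)
      rw [hqp] at h4
      exact hp.one_lt.ne' (Nat.dvd_one.mp h4)
    have hnf : (Nat.card G).factorization p = a + 1 := by
      rw [hn, Nat.factorization_mul (pow_ne_zero _ hp.pos.ne') hq0, Finsupp.add_apply,
        hp.factorization_pow, Finsupp.single_eq_same, hpq, add_zero]
    rw [h1, hnf]
  have hP0 : (Nat.card (P : Subgroup G) : ℂ) ≠ 0 := by exact_mod_cast Nat.card_pos.ne'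
  have hm' : ∑ y : (P : Subgroup G), (χ : G → ℂ) (y : G) = (Nat.card (P : Subgroup G) : ℂ) * m := by
    rw [← hm]
    unfold classInner
    rw [mul_inv_cancel_left₀ hP0]
    simp
  have hall : ∀ φ ∈ S, ∑ y : (P : Subgroup G), (φ : G → ℂ) (y : G) = (Nat.card (P : Subgroup G) : ℂ) * m := by
    intro φ hφ
    obtain ⟨u, -, rfl⟩ := Finset.mem_image.mp hφ
    rw [← hm']
    have hco : (Nat.card (P : Subgroup G)).Coprime (((u : (ZMod (Nat.card G))ˣ) : ZMod (Nat.card G)).val) :=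
      (Nat.Coprime.coprime_dvd_right (Subgroup.card_subgroup_dvd_card _) (ZMod.val_coe_unit_coprime _)).symm
    refine Eq.trans ?_ (Equiv.sum_comp (powCoprime hco) (fun y : (P : Subgroup G) => (χ : G → ℂ) (y : G)))
    apply Finset.sum_congr rfl
    intro y _
    rw [smul_apply]
    rfl
  have hsum : ∑ y : (P : Subgroup G), ∑ φ ∈ B, conj ((φ : G → ℂ) (y : G)) = (B.card : ℂ) * d := by
    rw [Finset.sum_eq_single (1 : (P : Subgroup G))]
    · rw [Finset.sum_congr rfl (g := fun _ => (d : ℂ)) (fun φ hφ => by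
        rw [Subgroup.coe_one, hS1 φ (hBS φ ((hBmem φ).mp hφ)), Complex.conj_natCast])]
      rw [Finset.sum_const, nsmul_eq_mul]
    · intro y _ hy
      apply hvan
      obtain ⟨k, hk⟩ := (IsPGroup.iff_orderOf.mp P.isPGroup') y
      rw [Subgroup.orderOf_coe, hk]
      have hk0 : k ≠ 0 := by
        rintro rfl
        rw [pow_zero, orderOf_eq_one_iff] at hk
        exact hy hk
      exact dvd_pow_self p hk0
    · intro h3; exact absurd (Finset.mem_univ _) h3
  have hsum2 : ∑ y : (P : Subgroup G), ∑ φ ∈ B, conj ((φ : G → ℂ) (y : G)) =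
      (B.card : ℂ) * ((Nat.card (P : Subgroup G) : ℂ) * m) := by
    rw [Finset.sum_comm]
    rw [Finset.sum_congr rfl (g := fun _ => (Nat.card (P : Subgroup G) : ℂ) * m) (fun φ hφ => by
      rw [← map_sum, hall φ (hBS φ ((hBmem φ).mp hφ)), map_mul, Complex.conj_natCast, Complex.conj_natCast])]
    rw [Finset.sum_const, nsmul_eq_mul]
  rw [hsum] at hsum2
  have hB0 : (B.card : ℂ) ≠ 0 := by
    have : χ ∈ B := (hBmem χ).mpr (CfsgLib.BlockIdem.mem_blockOf_self hMp _)
    exact_mod_cast (Finset.card_pos.mpr ⟨χ, this⟩).ne'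
  have h5 := mul_left_cancel₀ hB0 hsum2
  have h6 : d = Nat.card (P : Subgroup G) * m := by exact_mod_cast h5
  rw [h6, hPc]
  exact dvd_mul_right _ _

end CfsgLib.PConj20
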