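import Mathlib
import Cfsg.Agent.LibSS2H13
import Cfsg.Agent.LibCntH13
import Cfsg.Agent.LibInvCH13

/-! Prime order classes in projective groups: eigenvalue multiplicities (seat helper13). -/

namespace CfsgLib.PG

open Module Polynomial CfsgLib.Typ CfsgLib.SS2 CfsgLib.Cnt

universe u w

section ev
variable {K : Type u} [Field K] {V : Type u} [AddCommGroup V] [Module K V]

/-- multiplicity of an eigenvalue -/
noncomputable def ev (T : End K V) (x : K) : ℕ := kd T (X - C x) 1

theorem ker_eq (T : End K V) (x : K) : LinearMap.ker (aeval T ((X - C x) ^ 1)) = LinearMap.ker (T - algebraMap K (End K V) x) := by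
  rw [pow_one, map_sub, aeval_X, aeval_C]

theorem mem_ker_iff (T : End K V) (x : K) (v : V) : v ∈ LinearMap.ker (aeval T ((X - C x) ^ 1)) ↔ T v = x • v := by
  rw [ker_eq, LinearMap.mem_ker, LinearMap.sub_apply, Module.algebraMap_end_apply, sub_eq_zero]

theorem ev_congr {V' : Type*} [AddCommGroup V'] [Module K V'] {T : End K V} {T' : End K V'} (ψ : V ≃ₗ[K] V') (hψ : ∀ v, ψ (T v) = T' (ψ v)) (x : K) : kd T (X - C x) 1 = kd T' (X - C x) 1 :=
  kd_congr ψ hψ _ _

theorem ev_smul (T : End K V) {c : K} (hc : c ≠ 0) (x : K) : ev (c • T) (c * x) = ev T x := by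
  have : LinearMap.ker (aeval (c • T) ((X - C (c * x)) ^ 1)) = LinearMap.ker (aeval T ((X - C x) ^ 1)) := by
    ext v
    rw [mem_ker_iff, mem_ker_iff, LinearMap.smul_apply, mul_smul]
    exact ⟨fun h => smul_right_injective V hc h, fun h => by rw [h]⟩
  unfold ev kd
  rw [this]

theorem eq_smul_of_ev [FiniteDimensional K V] {T : End K V} {x : K} (h : ev T x = finrank K V) : T = algebraMap K (End K V) x := by
  have h1 : LinearMap.ker (aeval T ((X - C x) ^ 1)) = ⊤ := Submodule.eq_top_of_finrank_eq h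
  apply LinearMap.ext
  intro v
  have h2 : v ∈ LinearMap.ker (aeval T ((X - C x) ^ 1)) := by rw [h1]; trivial
  rw [mem_ker_iff] at h2
  rw [Module.algebraMap_end_apply]; exact h2

theorem ev_of_smul [FiniteDimensional K V] (x : K) : ev (algebraMap K (End K V) x) x = finrank K V := by
  have : LinearMap.ker (aeval (algebraMap K (End K V) x) ((X - C x) ^ 1)) = ⊤ := by
    rw [eq_top_iff]
    intro v _
    rw [mem_ker_iff, Module.algebraMap_end_apply]
  unfold ev kd
  rw [this, finrank_top]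

end ev

section dec
variable {K : Type u} [Field K] [Fintype K] {p r : ℕ} [Fact p.Prime] [CharP K p] (hr : r.Prime) (hrp : r ≠ p) {ζ : K} (hζ : IsPrimitiveRoot ζ r)
  {V : Type u} [AddCommGroup V] [Module K V] [FiniteDimensional K V]
include hr hζ

omit [Fintype K] in
theorem lin_of_dvd {f : K[X]} (hf : f.Monic) (hfi : Irreducible f) (h : f ∣ X ^ r - 1) : ∃ x : K, x ^ r = 1 ∧ f = X - C x := by
  rw [X_pow_sub_one_eq_prod hr.pos hζ, hfi.prime.dvd_finset_prod_iff] at h
  obtain ⟨x, hx, h1⟩ := h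
  refine ⟨x, (mem_nthRootsFinset hr.pos _).1 hx, ?_⟩
  exact eq_of_monic_of_associated hf (monic_X_sub_C x) (hfi.associated_of_dvd (irreducible_X_sub_C x) h1)

include p hrp

theorem dec_lin {ι : Type w} {T : End K V} {P : ι → K[X]} {φ : V ≃ₗ[K] (∀ i, AdjoinRoot (P i ^ 1))} (h : Dec T r P φ) (i : ι) : ∃ x : K, x ^ r = 1 ∧ P i = X - C x := by
  rcases h.2.2.1 i with h1 | h1
  · exact ⟨1, one_pow r, h1⟩
  · rw [mem_fac] at h1
    exact lin_of_dvd hr hζ h1.2.1 h1.1 (h1.2.2.trans (cyclotomic.dvd_X_pow_sub_one r K))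

theorem conj_of_ev {V' : Type u} [AddCommGroup V'] [Module K V'] [FiniteDimensional K V'] {T : End K V} {T' : End K V'} (hT : T ^ r = 1) (hT' : T' ^ r = 1)
    (h : ∀ x : K, x ^ r = 1 → ev T x = ev T' x) : ∃ ψ : V ≃ₗ[K] V', ∀ v, ψ (T v) = T' (ψ v) := by
  classical
  obtain ⟨ι, hι, P, φ, hD⟩ := exists_ss (p := p) hr hrp T hT
  obtain ⟨ι', hι', P', φ', hD'⟩ := exists_ss (p := p) hr hrp T' hT'
  apply conj_of_kd
  intro f hf hfi k
  rw [kd_dec hD hf hfi, kd_dec hD' hf hfi]
  congr 1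
  by_cases hx : ∃ x : K, x ^ r = 1 ∧ f = X - C x
  · obtain ⟨x, hx, rfl⟩ := hx
    have h1 := h x hx
    unfold ev at h1
    rw [kd_dec hD hf hfi, kd_dec hD' hf hfi, natDegree_X_sub_C, min_self, mul_one, one_mul, one_mul] at h1
    exact h1
  · have e1 : IsEmpty {i // P i = f} := ⟨fun i => hx (by
      obtain ⟨x, h1, h2⟩ := dec_lin (p := p) hr hrp hζ hD i.1
      exact ⟨x, h1, i.2.symm.trans h2⟩)⟩
    have e2 : IsEmpty {i // P' i = f} := ⟨fun i => hx (by
      obtain ⟨x, h1, h2⟩ := dec_lin (p := p) hr hrp hζ hD' i.1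
      exact ⟨x, h1, i.2.symm.trans h2⟩)⟩
    rw [Fintype.card_of_isEmpty, Fintype.card_of_isEmpty]

theorem sum_ev [Fintype (rootsOfUnity r K)] {T : End K V} (hT : T ^ r = 1) : ∑ x : rootsOfUnity r K, ev T ((x : Kˣ) : K) = finrank K V := by
  classical
  obtain ⟨ι, hι, P, φ, hD⟩ := exists_ss (p := p) hr hrp T hT
  haveI : ∀ i, Module.Finite K (AdjoinRoot (P i ^ 1)) := fun i => (AdjoinRoot.powerBasis' ((hD.2.1 i).pow _)).finite
  have h1 : finrank K V = Fintype.card ι := by
    rw [φ.finrank_eq, Module.finrank_pi_fintype, Finset.sum_congr rfl (fun i _ => ?_), Finset.sum_const, Finset.card_univ, smul_eq_mul, mul_one]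
    obtain ⟨x, -, h2⟩ := dec_lin (p := p) hr hrp hζ hD i
    rw [finrank_adjoinRoot ((hD.2.1 i).pow 1), pow_one, h2, natDegree_X_sub_C]
  have h2 : ∀ x : rootsOfUnity r K, ev T ((x : Kˣ) : K) = (Finset.univ.filter (fun i => P i = X - C ((x : Kˣ) : K))).card := by
    intro x
    unfold ev
    rw [kd_dec hD (monic_X_sub_C _) (irreducible_X_sub_C _), natDegree_X_sub_C, min_self, mul_one, one_mul, Fintype.card_subtype]
  rw [h1, Finset.sum_congr rfl fun x _ => h2 x, ← Finset.card_univ]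
  symm
  have h3 : ∀ i, ∃ x : rootsOfUnity r K, P i = X - C ((x : Kˣ) : K) := by
    intro i
    obtain ⟨x, hx, h4⟩ := dec_lin (p := p) hr hrp hζ hD i
    have hx0 : x ≠ 0 := by
      rintro rfl
      rw [zero_pow hr.ne_zero] at hx
      exact zero_ne_one hx
    exact ⟨⟨Units.mk0 x hx0, by rw [mem_rootsOfUnity]; ext; simpa using hx⟩, h4⟩
  choose c hc using h3
  rw [Finset.card_eq_sum_card_fiberwise (f := c) (t := Finset.univ) (fun i _ => Finset.mem_coe.2 (Finset.mem_univ _))]
  refine Finset.sum_congr rfl fun x _ => ?_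
  congr 1
  ext i
  rw [Finset.mem_filter, Finset.mem_filter]
  refine and_congr_right fun _ => ?_
  rw [hc i]
  constructor
  · rintro rfl; rfl
  · intro h
    have h4 : (C (((c i : rootsOfUnity r K) : Kˣ) : K) : K[X]) = C ((x : Kˣ) : K) := sub_right_injective h
    exact Subtype.ext (Units.ext (C_injective h4))

end dec

end CfsgLib.PG
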