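import Mathlib
import Cfsg.Agent.LibPGH13

/-! Prime order classes in projective groups: rotation orbits (seat helper13). -/

namespace CfsgLib.PG

open Module Polynomial CfsgLib.Typ CfsgLib.SS2 CfsgLib.Cnt

section orb
variable (R : Type*) [Group R] [Fintype R] (n : ℕ)

/-- tuples of multiplicities -/
def Tup : Type _ := {a : R → ℕ // ∑ x, a x = n ∧ ∀ x, a x < n}

variable {R n} in
/-- rotation -/
def rot (y : R) (a : R → ℕ) : R → ℕ := fun x => a (y⁻¹ * x)

variable {R n} in
theorem sum_rot (y : R) (a : R → ℕ) : ∑ x, rot y a x = ∑ x, a x := by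
  unfold rot
  exact Fintype.sum_equiv (Equiv.mulLeft y⁻¹) _ _ (fun x => rfl)

instance : MulAction R (Tup R n) where
  smul y a := ⟨rot y a.1, (sum_rot y a.1).trans a.2.1, fun x => a.2.2 _⟩
  one_smul a := Subtype.ext (funext fun x => by show a.1 (1⁻¹ * x) = a.1 x; rw [inv_one, one_mul])
  mul_smul y z a := Subtype.ext (funext fun x => by
    show a.1 ((y * z)⁻¹ * x) = a.1 (z⁻¹ * (y⁻¹ * x))
    rw [mul_inv_rev, mul_assoc])

theorem coe_smul (y : R) (a : Tup R n) : (y • a).1 = rot y a.1 := rfl

theorem le_of_mem {a : R → ℕ} (h : ∑ x, a x = n) (x : R) : a x ≤ n := by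
  rw [← h]; exact Finset.single_le_sum (f := a) (fun _ _ => Nat.zero_le _) (Finset.mem_univ x)

variable [DecidableEq R]

theorem card_Tup (hn : 1 ≤ n) : Nat.card (Tup R n) = (n + Fintype.card R - 1).choose (Fintype.card R - 1) - Fintype.card R := by
  classical
  have e : Tup R n ≃ {a // a ∈ ex R n \ Finset.univ.image (fun x : R => (Pi.single x n : R → ℕ))} := by
    refine Equiv.subtypeEquivRight fun a => ?_
    rw [Finset.mem_sdiff, mem_ex]
    refine and_congr_right fun h => ?_
    rw [Finset.mem_image]
    constructor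
    · rintro h1 ⟨x, -, hx⟩
      have := h1 x
      rw [← hx, Pi.single_eq_same] at this
      omega
    · intro h1 x
      refine lt_of_le_of_ne (le_of_mem R n h x) (fun h2 => h1 ⟨x, Finset.mem_univ _, ?_⟩)
      funext y
      by_cases hy : y = x
      · subst hy; rw [Pi.single_eq_same, h2]
      · rw [Pi.single_eq_of_ne hy]
        rw [← Finset.add_sum_erase _ _ (Finset.mem_univ x), h2] at h
        have h3 : ∑ y ∈ Finset.univ.erase x, a y = 0 := by omega
        exact (Finset.sum_eq_zero_iff.1 h3 y (Finset.mem_erase.2 ⟨hy, Finset.mem_univ _⟩)).symm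
  rw [Nat.card_congr e, Nat.card_eq_fintype_card, Fintype.card_coe, Finset.card_sdiff_of_subset, card_ex n (Fintype.card_pos), Finset.card_image_of_injective, Finset.card_univ]
  · intro x y hxy
    by_contra hne
    have := congrFun hxy x
    simp only [Pi.single_eq_same, Pi.single_eq_of_ne hne] at this
    omega
  · intro a ha
    rw [Finset.mem_image] at ha
    obtain ⟨x, -, rfl⟩ := ha
    rw [mem_ex, Finset.sum_pi_single']
    simp

instance : Finite (Tup R n) := by
  classical
  have : Tup R n → (R → Fin (n + 1)) := fun a x => ⟨a.1 x, Nat.lt_succ_of_le (le_of_mem R n a.2.1 x)⟩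
  refine Finite.of_injective (β := R → Fin (n + 1)) (fun a x => ⟨a.1 x, Nat.lt_succ_of_le (le_of_mem R n a.2.1 x)⟩) ?_
  intro a b h
  apply Subtype.ext
  funext x
  exact congrArg Fin.val (congrFun h x)

theorem card_orbits {r : ℕ} (hr : r.Prime) (hR : Fintype.card R = r) (hn : 1 ≤ n) :
    Nat.card (Quotient (MulAction.orbitRel R (Tup R n))) = ((n + r - 1).choose (r - 1) - r - (if r ∣ n then 1 else 0)) / r + (if r ∣ n then 1 else 0) := by
  classical
  haveI : Fintype (Tup R n) := Fintype.ofFinite _
  haveI : Fintype (Quotient (MulAction.orbitRel R (Tup R n))) := Fintype.ofFinite _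
  have hB := MulAction.sum_card_fixedBy_eq_card_orbits_mul_card_group R (Tup R n)
  have h1 : Fintype.card (MulAction.fixedBy (Tup R n) (1 : R)) = (n + r - 1).choose (r - 1) - r := by
    rw [← hR, ← card_Tup R n hn, ← Nat.card_eq_fintype_card]
    refine Nat.card_congr ⟨fun a => a.1, fun a => ⟨a, one_smul _ a⟩, fun a => rfl, fun a => rfl⟩
  have hpos := hr.pos
  have h2 : ∀ y : R, y ≠ 1 → Fintype.card (MulAction.fixedBy (Tup R n) y) = if r ∣ n then 1 else 0 := by
    intro y hy
    have hconst : ∀ a : Tup R n, y • a = a → ∀ x, a.1 x = a.1 1 := by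
      intro a ha x
      have hstep : ∀ z, a.1 (y * z) = a.1 z := by
        intro z
        have h3 := congrFun (congrArg Subtype.val ha) (y * z)
        rw [coe_smul] at h3
        unfold rot at h3
        rw [inv_mul_cancel_left] at h3
        exact h3.symm
      have hpow : ∀ k : ℕ, a.1 (y ^ k) = a.1 1 := by
        intro k
        induction k with
        | zero => rw [pow_zero]
        | succ k ih => rw [pow_succ', hstep, ih]
      haveI : Fact r.Prime := ⟨hr⟩
      have h4 : x ∈ Subgroup.zpowers y := mem_zpowers_of_prime_card (p := r) (by rw [Nat.card_eq_fintype_card]; exact hR) hy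
      rw [← mem_powers_iff_mem_zpowers] at h4
      obtain ⟨k, rfl⟩ := h4
      exact hpow k
    by_cases hd : r ∣ n
    · rw [if_pos hd, Fintype.card_eq_one_iff]
      obtain ⟨c, hc⟩ := hd
      have hcpos : 0 < c := by
        rcases Nat.eq_zero_or_pos c with h | h
        · rw [h, mul_zero] at hc; omega
        · exact h
      refine ⟨⟨⟨fun _ => c, ?_, fun _ => ?_⟩, ?_⟩, ?_⟩
      · rw [Finset.sum_const, Finset.card_univ, hR, smul_eq_mul, hc]
      · rw [hc]; have := hr.two_le; nlinarith
      · apply Subtype.ext; rfl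
      · rintro ⟨a, ha⟩
        apply Subtype.ext
        apply Subtype.ext
        funext x
        have h3 := hconst a ha
        have h6 : ∑ x, a.1 x = r * a.1 1 := by
          rw [Finset.sum_congr rfl fun x _ => h3 x, Finset.sum_const, Finset.card_univ, hR, smul_eq_mul]
        have h4 : r * a.1 1 = r * c := h6.symm.trans (a.2.1.trans hc)
        show a.1 x = c
        rw [h3 x]
        exact Nat.eq_of_mul_eq_mul_left hpos h4
    · rw [if_neg hd, Fintype.card_eq_zero_iff]
      refine ⟨fun a => hd ?_⟩
      have h3 := hconst a.1 a.2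
      have h6 : ∑ x, a.1.1 x = r * a.1.1 1 := by
        rw [Finset.sum_congr rfl fun x _ => h3 x, Finset.sum_const, Finset.card_univ, hR, smul_eq_mul]
      exact ⟨_, a.1.2.1.symm.trans h6⟩
  rw [← Finset.add_sum_erase _ _ (Finset.mem_univ (1 : R)), h1, Finset.sum_congr rfl fun y hy => h2 y (Finset.ne_of_mem_erase hy), Finset.sum_const,
    Finset.card_erase_of_mem (Finset.mem_univ _), Finset.card_univ, hR, smul_eq_mul] at hB
  rw [Nat.card_eq_fintype_card]
  generalize Fintype.card (Quotient (MulAction.orbitRel R (Tup R n))) = O at hB ⊢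
  generalize (n + r - 1).choose (r - 1) - r = T at hB ⊢
  by_cases hd : r ∣ n
  · rw [if_pos hd] at hB ⊢
    obtain ⟨s, rfl⟩ : ∃ s, r = s + 1 := ⟨r - 1, by omega⟩
    rw [Nat.add_sub_cancel, mul_one] at hB
    obtain ⟨O', rfl⟩ : ∃ O', O = O' + 1 := by
      rcases Nat.eq_zero_or_pos O with h | h
      · rw [h, zero_mul] at hB
        have := hr.two_le
        omega
      · exact ⟨O - 1, by omega⟩
    have h5 : T - 1 = O' * (s + 1) := by
      have : (O' + 1) * (s + 1) = O' * (s + 1) + s + 1 := by ring
      omega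
    rw [h5, Nat.mul_div_cancel _ (Nat.succ_pos s)]
  · rw [if_neg hd] at hB ⊢
    rw [mul_zero, add_zero] at hB
    rw [hB, Nat.sub_zero, Nat.mul_div_cancel _ hpos, add_zero]

end orb

end CfsgLib.PG
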