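import Mathlib
import Cfsg.Agent.LibPG2H13
import Cfsg.Agent.LibClsH13

/-! Prime order classes in projective groups: the setup (seat helper13). -/

namespace CfsgLib.PG

open Module Polynomial Matrix CfsgLib.Typ CfsgLib.SS2 CfsgLib.Cnt CfsgLib.Cls CfsgLib.InvC

universe u w

/-- a linear group with scalars `C` whose fusion is controlled by the general linear group -/
structure PSetup {K : Type u} [Field K] {n : ℕ} {H : Type w} [Group H] (ρ : H →* GL (Fin n) K) (C : Subgroup Kˣ) (r : ℕ) : Prop where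
  inj : Function.Injective ρ
  conj : ∀ g h, IsConj (ρ g) (ρ h) → IsConj g h
  center : ∀ z : H, z ∈ Subgroup.center H ↔ ∃ c ∈ C, ρ z = GeneralLinearGroup.scalar (Fin n) c
  scal : ∀ c ∈ C, ∃ z : H, ρ z = GeneralLinearGroup.scalar (Fin n) c
  mono : ∀ (σ : Equiv.Perm (Fin n)) (d : Fin n → Kˣ), (∀ i, d i ∈ C) → ∃ h : H, ∀ i j, ((ρ h : GL (Fin n) K) : Matrix (Fin n) (Fin n) K) i j = if i = σ j then (d j : K) else 0
  roots : ∀ y : Kˣ, y ^ r = 1 → y ∈ C
  pow : ∀ c ∈ C, (∃ x : Kˣ, x ^ r = c) → ∃ y ∈ C, y ^ r = c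
  dvd : r ∣ Nat.card C

section basic
variable {K : Type u} [Field K] {n : ℕ} {H : Type w} [Group H] (ρ : H →* GL (Fin n) K)

/-- the linear map of a group element -/
noncomputable def L (g : H) : End K (Fin n → K) := Matrix.toLin' ((ρ g : GL (Fin n) K) : Matrix (Fin n) (Fin n) K)

theorem L_one : L ρ 1 = 1 := by
  unfold L
  rw [map_one, Units.val_one, Matrix.toLin'_one]; rfl

theorem L_mul (g h : H) : L ρ (g * h) = L ρ g * L ρ h := by
  unfold L
  rw [map_mul, Units.val_mul, Matrix.toLin'_mul]; rfl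

theorem L_pow (g : H) (k : ℕ) : L ρ (g ^ k) = (L ρ g) ^ k := by
  induction k with
  | zero => rw [pow_zero, pow_zero, L_one]
  | succ k ih => rw [pow_succ, pow_succ, L_mul, ih]

variable {ρ}

theorem L_of_scal {z : H} {c : Kˣ} (hz : ρ z = GeneralLinearGroup.scalar (Fin n) c) : L ρ z = algebraMap K (End K (Fin n → K)) (c : K) := by
  unfold L
  rw [hz, GeneralLinearGroup.coe_scalar]
  apply LinearMap.ext
  intro v
  rw [Matrix.toLin'_apply, Module.algebraMap_end_apply]
  ext i
  rw [Matrix.scalar_apply, Matrix.mulVec_diagonal]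
  rfl

theorem L_scal {z : H} {c : Kˣ} (hz : ρ z = GeneralLinearGroup.scalar (Fin n) c) (h : H) : L ρ (z * h) = (c : K) • L ρ h := by
  rw [L_mul, L_of_scal hz]
  apply LinearMap.ext
  intro v
  rfl

theorem scal_of_L {z : H} {c : Kˣ} (hz : L ρ z = algebraMap K (End K (Fin n → K)) (c : K)) : ρ z = GeneralLinearGroup.scalar (Fin n) c := by
  apply Units.ext
  rw [GeneralLinearGroup.coe_scalar]
  apply Matrix.toLin'.injective
  refine (show Matrix.toLin' _ = L ρ z from rfl).trans (hz.trans ?_)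
  apply LinearMap.ext
  intro v
  rw [Matrix.toLin'_apply, Module.algebraMap_end_apply]
  ext i
  rw [Matrix.scalar_apply, Matrix.mulVec_diagonal]
  rfl

theorem L_conj {g h : H} (hc : IsConj g h) : ∃ ψ : (Fin n → K) ≃ₗ[K] (Fin n → K), ∀ v, ψ (L ρ g v) = L ρ h (ψ v) := by
  rw [isConj_iff] at hc
  obtain ⟨c, hc⟩ := hc
  let ψ : (Fin n → K) ≃ₗ[K] (Fin n → K) := LinearEquiv.ofLinear (L ρ c) (L ρ c⁻¹)
    (by rw [← Module.End.mul_eq_comp, ← L_mul, mul_inv_cancel, L_one]; rfl) (by rw [← Module.End.mul_eq_comp, ← L_mul, inv_mul_cancel, L_one]; rfl)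
  refine ⟨ψ, fun v => ?_⟩
  show (L ρ c * L ρ g) v = (L ρ h * L ρ c) v
  rw [← L_mul, ← L_mul, ← hc, inv_mul_cancel_right]

variable (ρ) in
/-- eigenvalue multiplicities of a group element -/
noncomputable def mu (r : ℕ) (g : H) : rootsOfUnity r K → ℕ := fun x => ev (L ρ g) ((x : Kˣ) : K)

theorem mu_conj {r : ℕ} {g h : H} (hc : IsConj g h) : mu ρ r g = mu ρ r h := by
  obtain ⟨ψ, hψ⟩ := L_conj (ρ := ρ) hc
  funext x
  exact ev_congr ψ hψ _

theorem mu_scal {r : ℕ} {z : H} {y : rootsOfUnity r K} (hz : ρ z = GeneralLinearGroup.scalar (Fin n) (y : Kˣ)) (h : H) : mu ρ r (z * h) = rot y (mu ρ r h) := by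
  funext x
  unfold mu rot
  rw [L_scal hz]
  have h1 : ((x : Kˣ) : K) = ((y : Kˣ) : K) * (((y⁻¹ * x : rootsOfUnity r K) : Kˣ) : K) := by
    rw [← Units.val_mul, ← Subgroup.coe_mul, mul_inv_cancel_left]
  rw [h1, ev_smul _ (Units.ne_zero _)]

theorem ev_diag (d : Fin n → K) (x : K) : ev (Matrix.toLin' (Matrix.diagonal d)) x = Nat.card {i // d i = x} := by
  classical
  have h1 : LinearMap.ker (aeval (Matrix.toLin' (Matrix.diagonal d)) ((X - C x) ^ 1)) = LinearMap.ker (Matrix.mulVecLin (Matrix.diagonal (fun i => d i - x))) := by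
    ext v
    rw [mem_ker_iff, LinearMap.mem_ker, Matrix.mulVecLin_apply, Matrix.toLin'_apply]
    constructor
    · intro h
      funext i
      have := congrFun h i
      rw [Matrix.mulVec_diagonal] at this ⊢
      rw [sub_mul, this]; simp
    · intro h
      funext i
      have := congrFun h i
      rw [Matrix.mulVec_diagonal] at this ⊢
      rw [sub_mul] at this
      exact sub_eq_zero.1 this
  unfold ev kd
  rw [h1]
  have h2 := LinearMap.finrank_range_add_finrank_ker (Matrix.mulVecLin (Matrix.diagonal (fun i => d i - x)))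
  have h3 := Matrix.rank_diagonal (fun i => d i - x)
  unfold Matrix.rank at h3
  rw [h3, Module.finrank_fin_fun] at h2
  have h4 := Fintype.card_subtype_compl (fun i => d i = x)
  have h5 : Fintype.card {i // ¬ (d i = x)} = Fintype.card {i // d i - x ≠ 0} := Fintype.card_congr (Equiv.subtypeEquivRight fun i => by rw [Ne, sub_eq_zero])
  have h6 := Fintype.card_subtype_le (fun i => d i = x)
  rw [Fintype.card_fin] at h4 h6
  rw [Nat.card_eq_fintype_card]
  omega

theorem quot_conj (g h : H) : IsConj (QuotientGroup.mk g : H ⧸ Subgroup.center H) (QuotientGroup.mk h) ↔ ∃ z ∈ Subgroup.center H, IsConj g (z * h) := by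
  constructor
  · intro hc
    rw [isConj_iff] at hc
    obtain ⟨c, hc⟩ := hc
    obtain ⟨c, rfl⟩ := QuotientGroup.mk_surjective c
    have h1 : (QuotientGroup.mk (c * g * c⁻¹) : H ⧸ Subgroup.center H) = QuotientGroup.mk h := hc
    have h2 : (QuotientGroup.mk h : H ⧸ Subgroup.center H) = QuotientGroup.mk (c * g * c⁻¹) := h1.symm
    rw [QuotientGroup.eq] at h2
    refine ⟨h⁻¹ * (c * g * c⁻¹), h2, isConj_iff.2 ⟨c, ?_⟩⟩
    rw [Subgroup.mem_center_iff] at h2
    rw [← h2 h, mul_inv_cancel_left]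
  · rintro ⟨z, hz, hc⟩
    rw [isConj_iff] at hc ⊢
    obtain ⟨c, hc⟩ := hc
    refine ⟨QuotientGroup.mk c, ?_⟩
    have h1 : (QuotientGroup.mk (c * g * c⁻¹) : H ⧸ Subgroup.center H) = QuotientGroup.mk h := by
      rw [hc]
      show (QuotientGroup.mk z : H ⧸ Subgroup.center H) * QuotientGroup.mk h = _
      rw [(QuotientGroup.eq_one_iff z).2 hz, one_mul]
    exact h1

end basic

end CfsgLib.PG
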