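import Mathlib
import Cfsg.Agent.LibPG3H13

/-! Prime order classes in projective groups: the diagonalizable part (seat helper13). -/

namespace CfsgLib.PG

open Module Polynomial Matrix CfsgLib.Typ CfsgLib.SS2 CfsgLib.Cnt CfsgLib.Cls CfsgLib.InvC

universe u w

section A
variable {K : Type u} [Field K] [Fintype K] {p r : ℕ} [Fact p.Prime] [CharP K p] (hr : r.Prime) (hrp : r ≠ p) {ζ : K} (hζ : IsPrimitiveRoot ζ r)
  {n : ℕ} {H : Type w} [Group H] [Finite H] {ρ : H →* GL (Fin n) K} {C : Subgroup Kˣ} (S : PSetup ρ C r) [Fintype (rootsOfUnity r K)]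
include hr S

omit [Fintype K] [Finite H] in
theorem mu_mem (p : ℕ) [Fact p.Prime] [CharP K p] [Fintype K] (hrp : r ≠ p) (hζ : IsPrimitiveRoot ζ r) {g : H} (hg : g ^ r = 1) (hgz : g ∉ Subgroup.center H) :
    ∑ x, mu ρ r g x = n ∧ ∀ x, mu ρ r g x < n := by
  have hL : (L ρ g) ^ r = 1 := by rw [← L_pow, hg, L_one]
  have h1 : ∑ x, mu ρ r g x = n := by
    have := sum_ev (p := p) hr hrp hζ hL
    rw [Module.finrank_fin_fun] at this
    exact this
  refine ⟨h1, fun x => lt_of_le_of_ne (le_of_mem _ n h1 x) (fun h => hgz ?_)⟩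
  rw [S.center]
  have h2 : L ρ g = algebraMap K (End K (Fin n → K)) ((x : Kˣ) : K) := eq_smul_of_ev (by rw [Module.finrank_fin_fun]; exact h)
  exact ⟨x, S.roots x (by have := x.2; rwa [mem_rootsOfUnity] at this), scal_of_L h2⟩

omit [Finite H] [Fintype K] in
theorem exists_mu (a : Tup (rootsOfUnity r K) n) : ∃ g : H, g ^ r = 1 ∧ g ∉ Subgroup.center H ∧ mu ρ r g = a.1 := by
  classical
  have hcard : Fintype.card (Fin n) = Fintype.card (Σ x : rootsOfUnity r K, Fin (a.1 x)) := by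
    rw [Fintype.card_fin, Fintype.card_sigma]
    simp only [Fintype.card_fin]
    exact a.2.1.symm
  let e := Fintype.equivOfCardEq hcard
  let c : Fin n → rootsOfUnity r K := fun i => (e i).1
  have hc : ∀ x, Nat.card {i // c i = x} = a.1 x := by
    intro x
    have e1 : {i // c i = x} ≃ {s : Σ x : rootsOfUnity r K, Fin (a.1 x) // s.1 = x} := e.subtypeEquiv (fun i => Iff.rfl)
    have e2 : Fin (a.1 x) ≃ {s : Σ x : rootsOfUnity r K, Fin (a.1 x) // s.1 = x} := by
      refine Equiv.ofBijective (fun j => ⟨⟨x, j⟩, rfl⟩) ⟨?_, ?_⟩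
      · intro j j' h
        have := congrArg Subtype.val h
        simpa using this
      · rintro ⟨⟨y, j⟩, h⟩
        have h' : y = x := h
        subst h'
        exact ⟨j, rfl⟩
    rw [Nat.card_congr (e1.trans e2.symm), Nat.card_eq_fintype_card, Fintype.card_fin]
  have hroot : ∀ x : rootsOfUnity r K, ((x : Kˣ)) ^ r = 1 := fun x => by have := x.2; rwa [mem_rootsOfUnity] at this
  obtain ⟨g, hg⟩ := S.mono 1 (fun i => (c i : Kˣ)) (fun i => S.roots _ (hroot _))
  have hd : ((ρ g : GL (Fin n) K) : Matrix (Fin n) (Fin n) K) = Matrix.diagonal (fun i => ((c i : Kˣ) : K)) := by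
    ext i j
    rw [hg i j, Equiv.Perm.one_apply]
    by_cases h : i = j
    · subst h; rw [if_pos rfl, Matrix.diagonal_apply_eq]
    · rw [if_neg h, Matrix.diagonal_apply_ne _ h]
  have hmu : mu ρ r g = a.1 := by
    funext x
    unfold mu L
    rw [hd, ev_diag, ← hc x]
    refine Nat.card_congr (Equiv.subtypeEquivRight fun i => ?_)
    exact ⟨fun h => Subtype.ext (Units.ext h), fun h => by rw [h]⟩
  refine ⟨g, ?_, ?_, hmu⟩
  · apply S.inj
    rw [map_pow, map_one]
    apply Units.ext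
    rw [Units.val_pow_eq_pow_val, hd, Matrix.diagonal_pow, Units.val_one, ← Matrix.diagonal_one]
    congr 1
    funext i
    have := congrArg Units.val (hroot (c i))
    rw [Units.val_pow_eq_pow_val, Units.val_one] at this
    exact this
  · intro hz
    rw [S.center] at hz
    obtain ⟨y, hy, hgy⟩ := hz
    have h1 := L_of_scal hgy
    have hn : 0 < n := by
      rcases Nat.eq_zero_or_pos n with h | h
      · have := a.2.2 1
        omega
      · exact h
    have h2 : ∀ i, c i = c ⟨0, hn⟩ := by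
      have h3 : ∀ i, ((c i : Kˣ) : K) = (y : K) := by
        intro i
        have h4 : ((ρ g : GL (Fin n) K) : Matrix (Fin n) (Fin n) K) i i = (y : K) := by
          rw [hgy, GeneralLinearGroup.coe_scalar, Matrix.scalar_apply, Matrix.diagonal_apply_eq]
        rw [hd, Matrix.diagonal_apply_eq] at h4
        exact h4
      intro i
      exact Subtype.ext (Units.ext ((h3 i).trans (h3 _).symm))
    have h5 := hc (c ⟨0, hn⟩)
    have h6 : Nat.card {i // c i = c ⟨0, hn⟩} = n := by
      rw [Nat.card_congr (Equiv.subtypeUnivEquiv h2), Nat.card_eq_fintype_card, Fintype.card_fin]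
    have h7 := a.2.2 (c ⟨0, hn⟩)
    omega

omit [Fintype K] [Finite H] in
omit hr S [Group H] [Fintype ↥(rootsOfUnity r K)] in
theorem scal_inj (hn : 0 < n) {y y' : Kˣ} (h : GeneralLinearGroup.scalar (Fin n) y = GeneralLinearGroup.scalar (Fin n) y') : y = y' := by
  have h1 := congrArg (fun M : GL (Fin n) K => (M : Matrix (Fin n) (Fin n) K) ⟨0, hn⟩ ⟨0, hn⟩) h
  simp only [GeneralLinearGroup.coe_scalar, Matrix.scalar_apply, Matrix.diagonal_apply_eq] at h1
  exact Units.ext h1

omit [Fintype K] [Finite H] in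
omit hr S [Fintype ↥(rootsOfUnity r K)] in
theorem gl_of_lin {g h : H} (ψ : (Fin n → K) ≃ₗ[K] (Fin n → K)) (hψ : ∀ v, ψ (L ρ g v) = L ρ h (ψ v)) : IsConj (ρ g) (ρ h) := by
  refine isConj_of_lin ψ (fun v => ?_)
  have := hψ v
  unfold L at this
  rwa [Matrix.toLin'_apply, Matrix.toLin'_apply] at this

include hrp hζ p

theorem conj_mu (hn : 0 < n) {g h : H} (hg : g ^ r = 1) (hh : h ^ r = 1) : IsConj (QuotientGroup.mk g : H ⧸ Subgroup.center H) (QuotientGroup.mk h) ↔ ∃ y : rootsOfUnity r K, mu ρ r g = rot y (mu ρ r h) := by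
  rw [quot_conj]
  constructor
  · rintro ⟨z, hz, hc⟩
    have hz' := hz
    rw [S.center] at hz'
    obtain ⟨y, hy, hzy⟩ := hz'
    have h1 : (z * h) ^ r = 1 := by
      rw [isConj_iff] at hc
      obtain ⟨c, hc⟩ := hc
      rw [← hc, conj_pow, hg, mul_one, mul_inv_cancel]
    have h2 : z ^ r = 1 := by
      rw [Subgroup.mem_center_iff] at hz
      have : Commute z h := (hz h).symm
      rw [this.mul_pow, hh, mul_one] at h1
      exact h1
    have h3 : y ^ r = 1 := by
      have h4 := congrArg ρ h2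
      rw [map_pow, hzy, map_one, ← map_pow, ← map_one (GeneralLinearGroup.scalar (Fin n))] at h4
      exact scal_inj hn h4
    refine ⟨⟨y, by rw [mem_rootsOfUnity]; exact h3⟩, ?_⟩
    rw [mu_conj hc, mu_scal (y := ⟨y, by rw [mem_rootsOfUnity]; exact h3⟩) hzy]
  · rintro ⟨y, hy⟩
    obtain ⟨z, hz⟩ := S.scal (y : Kˣ) (S.roots _ (by have := y.2; rwa [mem_rootsOfUnity] at this))
    refine ⟨z, (S.center z).2 ⟨_, S.roots _ (by have := y.2; rwa [mem_rootsOfUnity] at this), hz⟩, S.conj _ _ ?_⟩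
    rw [← mu_scal hz] at hy
    have hzc : z ∈ Subgroup.center H := (S.center z).2 ⟨_, S.roots _ (by have := y.2; rwa [mem_rootsOfUnity] at this), hz⟩
    have hzr : z ^ r = 1 := by
      apply S.inj
      rw [map_pow, hz, ← map_pow, map_one]
      have h1 : (y : Kˣ) ^ r = 1 := by have := y.2; rwa [mem_rootsOfUnity] at this
      rw [h1, map_one]
    have h1 : (z * h) ^ r = 1 := by
      rw [Subgroup.mem_center_iff] at hzc
      have : Commute z h := (hzc h).symm
      rw [this.mul_pow, hh, mul_one, hzr]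
    obtain ⟨ψ, hψ⟩ := conj_of_ev (p := p) hr hrp hζ (T := L ρ g) (T' := L ρ (z * h)) (by rw [← L_pow, hg, L_one]) (by rw [← L_pow, h1, L_one]) (fun x hx => by
      have hx0 : x ≠ 0 := by
        rintro rfl
        rw [zero_pow hr.ne_zero] at hx
        exact zero_ne_one hx
      exact congrFun hy ⟨Units.mk0 x hx0, by rw [mem_rootsOfUnity]; ext; simpa using hx⟩)
    exact gl_of_lin ψ hψ

theorem card_A (hn : 0 < n) : Nat.card {D : ConjClasses (H ⧸ Subgroup.center H) // ∃ x, ConjClasses.mk x = D ∧ ∃ g : H, QuotientGroup.mk g = x ∧ g ^ r = 1 ∧ g ∉ Subgroup.center H} =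
    Nat.card (Quotient (MulAction.orbitRel (rootsOfUnity r K) (Tup (rootsOfUnity r K) n))) := by
  classical
  choose G hG1 hG2 hG3 using fun a : Tup (rootsOfUnity r K) n => exists_mu hr S a
  have hrot : ∀ a : rootsOfUnity r K → ℕ, rot 1 a = a := fun a => funext fun x => by show a (1⁻¹ * x) = a x; rw [inv_one, one_mul]
  refine card_eq_of_fibres (G := Tup (rootsOfUnity r K) n) (fun a => ⟨ConjClasses.mk (QuotientGroup.mk (G a)), _, rfl, G a, rfl, hG1 a, hG2 a⟩) (fun a => Quotient.mk _ a) ?_ ?_ ?_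
  · rintro ⟨D, x, rfl, g, rfl, hg1, hg2⟩
    obtain ⟨a, ha⟩ : ∃ a : Tup (rootsOfUnity r K) n, a.1 = mu ρ r g := ⟨⟨mu ρ r g, mu_mem hr S p hrp hζ hg1 hg2⟩, rfl⟩
    refine ⟨a, Subtype.ext ?_⟩
    show ConjClasses.mk _ = ConjClasses.mk _
    rw [ConjClasses.mk_eq_mk_iff_isConj, conj_mu hr hrp hζ S hn (hG1 _) hg1]
    exact ⟨1, by rw [hG3, hrot, ha]⟩
  · exact Quotient.mk_surjective
  · intro a a'
    rw [Subtype.mk.injEq, ConjClasses.mk_eq_mk_iff_isConj, conj_mu hr hrp hζ S hn (hG1 _) (hG1 _), hG3, hG3, Quotient.eq, MulAction.orbitRel_apply, MulAction.mem_orbit_iff]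
    constructor
    · rintro ⟨y, hy⟩; exact ⟨y, Subtype.ext hy.symm⟩
    · rintro ⟨y, hy⟩; exact ⟨y, (congrArg Subtype.val hy).symm⟩

end A

end CfsgLib.PG
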