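import Mathlib
import Cfsg.Agent.LibPG4H13

/-! Prime order classes in projective groups: the irreducible part (seat helper13). -/

namespace CfsgLib.PG

open Module Polynomial Matrix CfsgLib.Typ CfsgLib.SS2 CfsgLib.Cnt CfsgLib.Cls CfsgLib.InvC

universe u w

section kd
variable {K : Type u} [Field K] {r : ℕ} {V : Type u} [AddCommGroup V] [Module K V] [FiniteDimensional K V]

open Classical in
/-- operators with irreducible binomial minimal polynomial are conjugate -/
theorem conj_of_irr {V' : Type u} [AddCommGroup V'] [Module K V'] [FiniteDimensional K V'] (hV : finrank K V = finrank K V') {T : End K V} {T' : End K V'} (hr : 0 < r) {c : K} (hc : Irreducible (X ^ r - C c : K[X]))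
    (hT : T ^ r = algebraMap K (End K V) c) (hT' : T' ^ r = algebraMap K (End K V') c) : ∃ ψ : V ≃ₗ[K] V', ∀ v, ψ (T v) = T' (ψ v) := by
  have key : ∀ {U : Type u} [AddCommGroup U] [Module K U] [FiniteDimensional K U] {T : End K U}, T ^ r = algebraMap K (End K U) c → ∀ f : K[X], f.Monic → Irreducible f → ∀ k,
      kd T f k = if f = X ^ r - C c ∧ k ≠ 0 then finrank K U else 0 := by
    intro U _ _ _ T hT f hf hfi k
    have hann : aeval T (X ^ r - C c : K[X]) = 0 := by rw [map_sub, map_pow, aeval_X, aeval_C, hT, sub_self]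
    unfold kd
    by_cases hk : k = 0
    · subst hk
      rw [if_neg (fun h => h.2 rfl), pow_zero, map_one, Submodule.finrank_eq_zero]
      exact LinearMap.ker_id
    · by_cases h : f = X ^ r - C c
      · rw [if_pos ⟨h, hk⟩, h, map_pow, hann, zero_pow hk, LinearMap.ker_zero, finrank_top]
      · rw [if_neg (fun h' => h h'.1), Submodule.finrank_eq_zero, LinearMap.ker_eq_bot']
        intro v hv
        have hcop : IsCoprime (f ^ k) (X ^ r - C c) := by
          apply IsCoprime.pow_left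
          rw [hfi.coprime_iff_not_dvd]
          intro hd
          exact h (eq_of_monic_of_associated hf (monic_X_pow_sub_C c hr.ne') (hfi.associated_of_dvd hc hd))
        obtain ⟨x, y, hxy⟩ := hcop
        have h1 := congrArg (fun q : K[X] => aeval T q v) hxy
        simp only [map_add, map_mul, hann, mul_zero, add_zero, map_one, Module.End.mul_apply, hv, map_zero, Module.End.one_apply] at h1
        exact h1.symm
  apply conj_of_kd
  intro f hf hfi k
  rw [key hT f hf hfi, key hT' f hf hfi, hV]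

end kd

section B
variable {K : Type u} [Field K] [Fintype K] {p r : ℕ} [Fact p.Prime] [CharP K p] (hr : r.Prime) (hrp : r ≠ p) {ζ : K} (hζ : IsPrimitiveRoot ζ r)
  {n : ℕ} {H : Type w} [Group H] [Finite H] {ρ : H →* GL (Fin n) K} {C : Subgroup Kˣ} (S : PSetup ρ C r)

/-- cyclic shift with a twist -/
theorem prod_shift {M : Type*} [CommMonoid M] [NeZero r] (g : ZMod r → M) (j : ZMod r) : ∏ l ∈ Finset.range r, g (j + (l : ZMod r)) = ∏ x, g x := by
  rw [← Fintype.prod_equiv (Equiv.addLeft j) (fun x => g (j + x)) g (fun x => rfl)]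
  refine Finset.prod_bij (fun l _ => (l : ZMod r)) (fun l _ => Finset.mem_univ _) ?_ ?_ (fun l _ => rfl)
  · intro a ha b hb h
    rw [Finset.mem_range] at ha hb
    have := (ZMod.natCast_eq_natCast_iff' a b r).1 h
    rwa [Nat.mod_eq_of_lt ha, Nat.mod_eq_of_lt hb] at this
  · intro x _
    exact ⟨x.val, Finset.mem_range.2 (ZMod.val_lt x), ZMod.natCast_zmod_val x⟩

include hr S

omit [Fintype K] [Finite H] in
theorem exists_irr (hrn : r ∣ n) {c : Kˣ} (hc : c ∈ C) : ∃ g : H, ρ (g ^ r) = GeneralLinearGroup.scalar (Fin n) c := by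
  classical
  haveI : NeZero r := ⟨hr.ne_zero⟩
  obtain ⟨s, hs⟩ := hrn
  have hcard : Fintype.card (Fin n) = Fintype.card (Fin s × ZMod r) := by
    rw [Fintype.card_fin, Fintype.card_prod, Fintype.card_fin, ZMod.card, hs, mul_comm]
  let e := Fintype.equivOfCardEq hcard
  let σ : Equiv.Perm (Fin n) := (e.trans (Equiv.prodCongr (Equiv.refl _) (Equiv.addRight 1))).trans e.symm
  have hσ : ∀ (l : ℕ) i, e ((σ ^ l) i) = ((e i).1, (e i).2 + l) := by
    intro l
    induction l with
    | zero => intro i; simp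
    | succ l ih =>
      intro i
      rw [pow_succ', Equiv.Perm.mul_apply]
      show e (e.symm (Equiv.prodCongr (Equiv.refl _) (Equiv.addRight 1) (e ((σ ^ l) i)))) = _
      rw [Equiv.apply_symm_apply, ih]
      show ((e i).1, (e i).2 + (l : ZMod r) + 1) = _
      rw [add_assoc]; push_cast; rfl
  let d : Fin n → Kˣ := fun i => if (e i).2 = 0 then c else 1
  obtain ⟨g, hg⟩ := S.mono σ d (fun i => by
    show (if (e i).2 = 0 then c else 1) ∈ C
    split_ifs
    · exact hc
    · exact one_mem _)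
  refine ⟨g, ?_⟩
  have hstep : ∀ i, L ρ g (Pi.single i 1) = (d i : K) • Pi.single (σ i) 1 := by
    intro i
    unfold L
    rw [Matrix.toLin'_apply, Matrix.mulVec_single_one]
    funext j
    rw [Matrix.col_apply, hg j i, Pi.smul_apply, Pi.single_apply, smul_eq_mul]
    split_ifs <;> simp
  have hpow : ∀ (k : ℕ) i, L ρ (g ^ k) (Pi.single i 1) = ((∏ l ∈ Finset.range k, d ((σ ^ l) i) : Kˣ) : K) • Pi.single ((σ ^ k) i) 1 := by
    intro k
    induction k with
    | zero => intro i; rw [pow_zero, L_one]; simp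
    | succ k ih =>
      intro i
      rw [pow_succ', L_mul, Module.End.mul_apply, ih, map_smul, hstep, smul_smul, Finset.prod_range_succ, Units.val_mul, pow_succ', Equiv.Perm.mul_apply]
  apply scal_of_L
  apply (Pi.basisFun K (Fin n)).ext
  intro i
  rw [Pi.basisFun_apply, hpow, Module.algebraMap_end_apply]
  have h1 : (σ ^ r) i = i := by
    apply e.injective
    rw [hσ, ZMod.natCast_self, add_zero]
  have h2 : ∏ l ∈ Finset.range r, d ((σ ^ l) i) = c := by
    have h3 : ∀ l : ℕ, d ((σ ^ l) i) = (fun x : ZMod r => if x = 0 then c else 1) ((e i).2 + (l : ZMod r)) := by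
      intro l
      show (if (e ((σ ^ l) i)).2 = 0 then c else 1) = _
      rw [hσ]
    rw [Finset.prod_congr rfl fun l _ => h3 l]
    refine (prod_shift (r := r) (fun x : ZMod r => if x = 0 then c else 1) (e i).2).trans ?_
    rw [Finset.prod_ite_eq' Finset.univ (0 : ZMod r) (fun _ => c), if_pos (Finset.mem_univ _)]
  rw [h1, h2]

omit hr in
theorem pow_rel {g h : H} {c c' : Kˣ} (hn : 0 < n) (hg : ρ (g ^ r) = GeneralLinearGroup.scalar (Fin n) c) (hh : ρ (h ^ r) = GeneralLinearGroup.scalar (Fin n) c')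
    (hc : IsConj (QuotientGroup.mk g : H ⧸ Subgroup.center H) (QuotientGroup.mk h)) : ∃ y ∈ C, c = y ^ r * c' := by
  rw [quot_conj] at hc
  obtain ⟨z, hz, hc⟩ := hc
  have hz' := hz
  rw [S.center] at hz'
  obtain ⟨y, hy, hzy⟩ := hz'
  refine ⟨y, hy, scal_inj hn ?_⟩
  rw [isConj_iff] at hc
  obtain ⟨k, hk⟩ := hc
  have h1 : k * g ^ r * k⁻¹ = z ^ r * h ^ r := by
    rw [Subgroup.mem_center_iff] at hz
    have : Commute z h := (hz h).symm
    rw [← this.mul_pow, ← hk, conj_pow]
  have h2 := congrArg ρ h1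
  rw [map_mul, map_mul, hg, map_mul, hh, map_pow, hzy, ← GeneralLinearGroup.scalar_commute, mul_assoc, ← map_mul, mul_inv_cancel, map_one, mul_one, ← map_pow, ← map_mul] at h2
  exact h2

theorem nec_B {g : H} {c : Kˣ} (hc : c ∈ C) (hg : ρ (g ^ r) = GeneralLinearGroup.scalar (Fin n) c) (hcn : ∀ y ∈ C, y ^ r ≠ c) : r ∣ n := by
  by_contra hd
  have hcop : Nat.gcd n r = 1 := (Nat.Coprime.symm ((Nat.Prime.coprime_iff_not_dvd hr).2 hd))
  have h1 : (GeneralLinearGroup.det (ρ g)) ^ r = c ^ n := by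
    rw [← map_pow, ← map_pow, hg, GeneralLinearGroup.det_scalar, Fintype.card_fin]
  obtain ⟨y, hy, hyc⟩ := S.pow c hc ⟨(GeneralLinearGroup.det (ρ g)) ^ (Nat.gcdA n r) * c ^ (Nat.gcdB n r), by
    have h2 := Nat.gcd_eq_gcd_ab n r
    rw [hcop] at h2
    have h3 : c = c ^ ((n : ℤ) * Nat.gcdA n r + (r : ℤ) * Nat.gcdB n r) := by rw [← h2]; simp
    have h4 : ((GeneralLinearGroup.det (ρ g)) ^ (Nat.gcdA n r) * c ^ (Nat.gcdB n r)) ^ r = ((GeneralLinearGroup.det (ρ g)) ^ r) ^ (Nat.gcdA n r) * (c ^ r) ^ (Nat.gcdB n r) := by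
      rw [mul_pow, ← zpow_natCast, ← zpow_natCast, ← zpow_natCast, ← zpow_natCast, ← _root_.zpow_mul, ← _root_.zpow_mul, ← _root_.zpow_mul, ← _root_.zpow_mul, mul_comm (r : ℤ), mul_comm (r : ℤ)]
    rw [h4, h1]
    conv_rhs => rw [h3]
    rw [_root_.zpow_add, _root_.zpow_mul, _root_.zpow_mul, zpow_natCast, zpow_natCast]⟩
  exact hcn y hy hyc

theorem conj_B (hn : 0 < n) {g h : H} {c c' : Kˣ} (hc : c ∈ C) (hcn : ∀ y ∈ C, y ^ r ≠ c) (hg : ρ (g ^ r) = GeneralLinearGroup.scalar (Fin n) c) (hh : ρ (h ^ r) = GeneralLinearGroup.scalar (Fin n) c') :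
    IsConj (QuotientGroup.mk g : H ⧸ Subgroup.center H) (QuotientGroup.mk h) ↔ ∃ y ∈ C, c = y ^ r * c' := by
  constructor
  · exact pow_rel S hn hg hh
  · rintro ⟨y, hy, hyc⟩
    obtain ⟨z, hz⟩ := S.scal y hy
    have hzc : z ∈ Subgroup.center H := (S.center z).2 ⟨y, hy, hz⟩
    rw [quot_conj]
    refine ⟨z, hzc, S.conj _ _ ?_⟩
    have h1 : ρ ((z * h) ^ r) = GeneralLinearGroup.scalar (Fin n) c := by
      rw [Subgroup.mem_center_iff] at hzc
      have : Commute z h := (hzc h).symm
      rw [this.mul_pow, map_mul, map_pow, hz, hh, ← map_pow, ← map_mul, ← hyc]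
    have hirr : Irreducible (X ^ r - Polynomial.C (c : K) : K[X]) := by
      refine X_pow_sub_C_irreducible_of_prime hr (fun b hb => ?_)
      have hb0 : b ≠ 0 := by
        rintro rfl
        rw [zero_pow hr.ne_zero] at hb
        exact c.ne_zero hb.symm
      obtain ⟨y', hy', hyc'⟩ := S.pow c hc ⟨Units.mk0 b hb0, Units.ext (by rw [Units.val_pow_eq_pow_val, Units.val_mk0, hb])⟩
      exact hcn y' hy' hyc'
    obtain ⟨ψ, hψ⟩ := conj_of_irr rfl hr.pos hirr (T := L ρ g) (T' := L ρ (z * h)) (by rw [← L_pow]; exact L_of_scal hg) (by rw [← L_pow]; exact L_of_scal h1)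
    exact gl_of_lin ψ hψ

end B

end CfsgLib.PG
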