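import Mathlib
import Cfsg.Agent.LibPG5H13

/-! Prime order classes in projective groups: the count (seat helper13). -/

namespace CfsgLib.PG

open Module Polynomial Matrix CfsgLib.Typ CfsgLib.SS2 CfsgLib.Cnt CfsgLib.Cls CfsgLib.InvC

universe u w

section B
variable {K : Type u} [Field K] [Fintype K] {p r : ℕ} [Fact p.Prime] [CharP K p] (hr : r.Prime) (hrp : r ≠ p) {ζ : K} (hζ : IsPrimitiveRoot ζ r)
  {n : ℕ} {H : Type w} [Group H] [Finite H] {ρ : H →* GL (Fin n) K} {C : Subgroup Kˣ} (S : PSetup ρ C r)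

include hr S

omit [Finite H] in
theorem card_quot : Nat.card (C ⧸ (powMonoidHom r : C →* C).range) = r := by
  have h1 := Subgroup.card_eq_card_quotient_mul_card_subgroup (powMonoidHom r : C →* C).range
  have h2 := IsCyclic.card_powMonoidHom_range C r
  have h3 : (Nat.card C).gcd r = r := Nat.gcd_eq_right S.dvd
  rw [h3] at h2
  obtain ⟨k, hk⟩ := S.dvd
  have hpos : 0 < Nat.card C := Nat.card_pos
  rw [h2, hk, Nat.mul_div_cancel_left _ hr.pos] at h1
  have hk0 : 0 < k := by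
    rcases Nat.eq_zero_or_pos k with h | h
    · rw [h, mul_zero] at hk; omega
    · exact h
  exact (Nat.eq_of_mul_eq_mul_right hk0 h1).symm

theorem card_B (hn : 0 < n) : Nat.card {D : ConjClasses (H ⧸ Subgroup.center H) // ∃ x, ConjClasses.mk x = D ∧ ∃ g : H, QuotientGroup.mk g = x ∧ ∃ c ∈ C, (∀ y ∈ C, y ^ r ≠ c) ∧ ρ (g ^ r) = GeneralLinearGroup.scalar (Fin n) c} =
    if r ∣ n then r - 1 else 0 := by
  classical
  by_cases hd : r ∣ n
  · rw [if_pos hd]
    choose G hG using fun c : C => exists_irr hr S hd c.2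
    have hmem : ∀ c : {c : C // c ∉ (powMonoidHom r : C →* C).range}, ∀ y ∈ C, y ^ r ≠ (c.1 : Kˣ) := by
      rintro ⟨c, hc⟩ y hy h
      exact hc ⟨⟨y, hy⟩, Subtype.ext h⟩
    have key := card_eq_of_fibres (G := {c : C // c ∉ (powMonoidHom r : C →* C).range})
      (X := {D : ConjClasses (H ⧸ Subgroup.center H) // ∃ x, ConjClasses.mk x = D ∧ ∃ g : H, QuotientGroup.mk g = x ∧ ∃ c ∈ C, (∀ y ∈ C, y ^ r ≠ c) ∧ ρ (g ^ r) = GeneralLinearGroup.scalar (Fin n) c})
      (Y := {x : C ⧸ (powMonoidHom r : C →* C).range // x ≠ 1})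
      (fun c => ⟨ConjClasses.mk (QuotientGroup.mk (G c.1)), _, rfl, G c.1, rfl, c.1, c.1.2, hmem c, hG c.1⟩)
      (fun c => ⟨QuotientGroup.mk c.1, fun h => c.2 ((QuotientGroup.eq_one_iff _).1 h)⟩) ?_ ?_ ?_
    · rw [key, Nat.card_eq_fintype_card, Fintype.card_subtype_compl, Fintype.card_subtype_eq, ← Nat.card_eq_fintype_card, card_quot hr S]
    · rintro ⟨D, x, rfl, g, rfl, c, hc, hcn, hgc⟩
      refine ⟨⟨⟨c, hc⟩, ?_⟩, Subtype.ext ?_⟩
      · rintro ⟨y, hy⟩
        exact hcn y y.2 (congrArg Subtype.val hy)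
      · show ConjClasses.mk _ = ConjClasses.mk _
        rw [ConjClasses.mk_eq_mk_iff_isConj, conj_B hr S hn hc hcn (hG _) hgc]
        exact ⟨1, one_mem _, by rw [one_pow, one_mul]⟩
    · rintro ⟨x, hx⟩
      obtain ⟨c, rfl⟩ := QuotientGroup.mk_surjective x
      exact ⟨⟨c, fun h => hx ((QuotientGroup.eq_one_iff _).2 h)⟩, rfl⟩
    · intro c c'
      rw [Subtype.mk.injEq, Subtype.mk.injEq, ConjClasses.mk_eq_mk_iff_isConj, conj_B hr S hn c.1.2 (hmem c) (hG _) (hG _), QuotientGroup.eq]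
      constructor
      · rintro ⟨y, hy, h⟩
        refine ⟨⟨y⁻¹, inv_mem hy⟩, Subtype.ext ?_⟩
        show y⁻¹ ^ r = (c.1 : Kˣ)⁻¹ * (c'.1 : Kˣ)
        rw [h, mul_inv, inv_mul_cancel_right, inv_pow]
      · rintro ⟨y, hy⟩
        refine ⟨(y⁻¹ : C), (y⁻¹ : C).2, ?_⟩
        have h1 : (y : Kˣ) ^ r = (c.1 : Kˣ)⁻¹ * (c'.1 : Kˣ) := congrArg Subtype.val hy
        rw [Subgroup.coe_inv, inv_pow, h1, mul_inv, inv_inv, inv_mul_cancel_right]
  · rw [if_neg hd, Nat.card_eq_zero]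
    left
    refine ⟨?_⟩
    rintro ⟨D, x, rfl, g, rfl, c, hc, hcn, hgc⟩
    exact hd (nec_B hr S hc hgc hcn)

omit [Fintype K] [Finite H] in
theorem ord_iff (hn : 0 < n) (x : H ⧸ Subgroup.center H) : orderOf x = r ↔ (∃ g : H, QuotientGroup.mk g = x ∧ g ^ r = 1 ∧ g ∉ Subgroup.center H) ∨
    (∃ g : H, QuotientGroup.mk g = x ∧ ∃ c ∈ C, (∀ y ∈ C, y ^ r ≠ c) ∧ ρ (g ^ r) = GeneralLinearGroup.scalar (Fin n) c) := by
  haveI : Fact r.Prime := ⟨hr⟩
  constructor
  · intro hx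
    obtain ⟨g, rfl⟩ := QuotientGroup.mk_surjective x
    have h1 : (QuotientGroup.mk (g ^ r) : H ⧸ Subgroup.center H) = 1 := by
      show (QuotientGroup.mk g : H ⧸ Subgroup.center H) ^ r = 1
      rw [← hx, pow_orderOf_eq_one]
    rw [QuotientGroup.eq_one_iff, S.center] at h1
    obtain ⟨c, hc, hgc⟩ := h1
    by_cases hcn : ∃ y ∈ C, y ^ r = c
    · left
      obtain ⟨y, hy, hyc⟩ := hcn
      obtain ⟨z, hz⟩ := S.scal y hy
      have hzc : z ∈ Subgroup.center H := (S.center z).2 ⟨y, hy, hz⟩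
      have hmk : (QuotientGroup.mk (z⁻¹ * g) : H ⧸ Subgroup.center H) = QuotientGroup.mk g := by
        show (QuotientGroup.mk z⁻¹ : H ⧸ Subgroup.center H) * QuotientGroup.mk g = _
        rw [(QuotientGroup.eq_one_iff z⁻¹).2 (inv_mem hzc), one_mul]
      refine ⟨z⁻¹ * g, hmk, ?_, fun h => ?_⟩
      · have hcomm : Commute z⁻¹ g := by
          have := inv_mem hzc
          rw [Subgroup.mem_center_iff] at this
          exact (this g).symm
        apply S.inj
        rw [hcomm.mul_pow, map_mul, map_pow, map_inv, hz, hgc, inv_pow, ← map_pow, hyc, inv_mul_cancel, map_one]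
      · rw [← QuotientGroup.eq_one_iff, hmk] at h
        rw [h, orderOf_one] at hx
        exact hr.one_lt.ne hx
    · right
      push Not at hcn
      exact ⟨g, rfl, c, hc, hcn, hgc⟩
  · rintro (⟨g, rfl, h1, h2⟩ | ⟨g, rfl, c, hc, hcn, hgc⟩)
    · apply orderOf_eq_prime
      · show (QuotientGroup.mk (g ^ r) : H ⧸ Subgroup.center H) = 1
        rw [h1]; rfl
      · intro h
        exact h2 ((QuotientGroup.eq_one_iff _).1 h)
    · apply orderOf_eq_prime
      · show (QuotientGroup.mk (g ^ r) : H ⧸ Subgroup.center H) = 1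
        rw [QuotientGroup.eq_one_iff, S.center]
        exact ⟨c, hc, hgc⟩
      · intro h
        rw [QuotientGroup.eq_one_iff, S.center] at h
        obtain ⟨y, hy, hgy⟩ := h
        rw [map_pow, hgy, ← map_pow] at hgc
        exact hcn y hy (scal_inj hn hgc)

include hrp hζ p

theorem main (hn : 0 < n) : Nat.card {D : ConjClasses (H ⧸ Subgroup.center H) // ∃ x, ConjClasses.mk x = D ∧ orderOf x = r} =
    (Nat.choose (n + r - 1) (r - 1) - r - (if r ∣ n then 1 else 0)) / r + r * (if r ∣ n then 1 else 0) := by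
  classical
  haveI : NeZero r := ⟨hr.ne_zero⟩
  haveI : Fintype (rootsOfUnity r K) := Fintype.ofFinite _
  have hA := card_A hr hrp hζ S hn
  have hB := card_B hr S hn
  rw [card_orbits (rootsOfUnity r K) n hr (by rw [← Nat.card_eq_fintype_card, hζ.card_rootsOfUnity]) hn] at hA
  have hS : {D : ConjClasses (H ⧸ Subgroup.center H) | ∃ x, ConjClasses.mk x = D ∧ orderOf x = r} =
      {D : ConjClasses (H ⧸ Subgroup.center H) | ∃ x, ConjClasses.mk x = D ∧ ∃ g : H, QuotientGroup.mk g = x ∧ g ^ r = 1 ∧ g ∉ Subgroup.center H} ∪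
      {D : ConjClasses (H ⧸ Subgroup.center H) | ∃ x, ConjClasses.mk x = D ∧ ∃ g : H, QuotientGroup.mk g = x ∧ ∃ c ∈ C, (∀ y ∈ C, y ^ r ≠ c) ∧ ρ (g ^ r) = GeneralLinearGroup.scalar (Fin n) c} := by
    ext D
    constructor
    · rintro ⟨x, h1, h2⟩
      rcases (ord_iff hr S hn x).1 h2 with h | h
      · exact Or.inl ⟨x, h1, h⟩
      · exact Or.inr ⟨x, h1, h⟩
    · rintro (⟨x, h1, h2⟩ | ⟨x, h1, h2⟩)
      · exact ⟨x, h1, (ord_iff hr S hn x).2 (Or.inl h2)⟩
      · exact ⟨x, h1, (ord_iff hr S hn x).2 (Or.inr h2)⟩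
  have hdisj : Disjoint {D : ConjClasses (H ⧸ Subgroup.center H) | ∃ x, ConjClasses.mk x = D ∧ ∃ g : H, QuotientGroup.mk g = x ∧ g ^ r = 1 ∧ g ∉ Subgroup.center H}
      {D : ConjClasses (H ⧸ Subgroup.center H) | ∃ x, ConjClasses.mk x = D ∧ ∃ g : H, QuotientGroup.mk g = x ∧ ∃ c ∈ C, (∀ y ∈ C, y ^ r ≠ c) ∧ ρ (g ^ r) = GeneralLinearGroup.scalar (Fin n) c} := by
    rw [Set.disjoint_left]
    rintro D ⟨x, rfl, g, rfl, h1, h2⟩ ⟨x', h3, g', rfl, c, hc, hcn, hgc⟩
    rw [ConjClasses.mk_eq_mk_iff_isConj] at h3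
    obtain ⟨y, hy, hyc⟩ := pow_rel S hn hgc (c' := 1) (by rw [h1, map_one, map_one]) h3
    exact hcn y hy (by rw [hyc, mul_one])
  have e1 : Nat.card {D : ConjClasses (H ⧸ Subgroup.center H) // ∃ x, ConjClasses.mk x = D ∧ orderOf x = r} = Set.ncard {D : ConjClasses (H ⧸ Subgroup.center H) | ∃ x, ConjClasses.mk x = D ∧ orderOf x = r} := rfl
  rw [e1, hS, Set.ncard_union_eq hdisj]
  refine (congrArg₂ (· + ·) hA hB).trans ?_
  have := hr.two_le
  by_cases hd : r ∣ n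
  · rw [if_pos hd, if_pos hd]
    omega
  · rw [if_neg hd, if_neg hd]
    omega

end B

section gl
variable {K : Type u} [Field K] {n : ℕ}

/-- monomial matrices -/
theorem exists_mono (σ : Equiv.Perm (Fin n)) (d : Fin n → Kˣ) : ∃ g : GL (Fin n) K, ∀ i j, (g : Matrix (Fin n) (Fin n) K) i j = if i = σ j then (d j : K) else 0 := by
  classical
  let M : Matrix (Fin n) (Fin n) K := Matrix.of fun i j => if i = σ j then (d j : K) else 0
  let N : Matrix (Fin n) (Fin n) K := Matrix.of fun j i => if i = σ j then (((d j)⁻¹ : Kˣ) : K) else 0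
  have hMN : M * N = 1 := by
    ext i k
    rw [Matrix.mul_apply, Finset.sum_eq_single (σ.symm i)]
    · show (if i = σ (σ.symm i) then (d (σ.symm i) : K) else 0) * (if k = σ (σ.symm i) then (((d (σ.symm i))⁻¹ : Kˣ) : K) else 0) = _
      rw [Equiv.apply_symm_apply, if_pos rfl]
      by_cases h : i = k
      · subst h; rw [if_pos rfl, Matrix.one_apply_eq, Units.mul_inv]
      · rw [if_neg (Ne.symm h), mul_zero, Matrix.one_apply_ne h]
    · intro j _ hj
      show (if i = σ j then (d j : K) else 0) * _ = 0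
      rw [if_neg, zero_mul]
      rintro rfl
      exact hj (σ.symm_apply_apply j).symm
    · intro h; exact absurd (Finset.mem_univ _) h
  have hNM : N * M = 1 := mul_eq_one_comm.1 hMN
  exact ⟨⟨M, N, hMN, hNM⟩, fun i j => rfl⟩

theorem setup_gl {r : ℕ} (hd : r ∣ Nat.card Kˣ) : PSetup (MonoidHom.id (GL (Fin n) K)) (⊤ : Subgroup Kˣ) r where
  inj := fun _ _ h => h
  conj := fun _ _ h => h
  center := fun z => by
    rw [GeneralLinearGroup.center_eq_range_scalar]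
    exact ⟨fun ⟨c, hc⟩ => ⟨c, trivial, hc.symm⟩, fun ⟨c, _, hc⟩ => ⟨c, hc.symm⟩⟩
  scal := fun c _ => ⟨_, rfl⟩
  mono := fun σ d _ => exists_mono σ d
  roots := fun _ _ => trivial
  pow := fun c _ ⟨x, hx⟩ => ⟨x, trivial, hx⟩
  dvd := by rw [Subgroup.card_top]; exact hd

end gl

theorem exists_prim {K : Type u} [Field K] [Fintype K] {r : ℕ} (hr : r.Prime) (hd : r ∣ Nat.card Kˣ) : ∃ ζ : Kˣ, orderOf ζ = r ∧ IsPrimitiveRoot (ζ : K) r := by
  haveI : Fact r.Prime := ⟨hr⟩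
  obtain ⟨x, hx⟩ := exists_prime_orderOf_dvd_card' (G := Kˣ) r hd
  refine ⟨x, hx, ?_⟩
  have h1 : IsPrimitiveRoot x r := by rw [← hx]; exact IsPrimitiveRoot.orderOf x
  exact IsPrimitiveRoot.coe_units_iff.2 h1

end CfsgLib.PG
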