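import Mathlib
import Cfsg.Agent.LibFrob6c
import Cfsg.Agent.LibLE11Syl
import Cfsg.Agent.LibLE11CD

/-!
# Prime graph facts (helper12)
-/

set_option autoImplicit false
set_option linter.style.haveILetI false
set_option linter.unusedSectionVars false

namespace CfsgLib.PGraphH12

open Subgroup CfsgLib.LE11Syl
open scoped Pointwise

variable {G : Type*} [Group G] [Finite G]

/-- a power of prime order -/
theorem exists_prime_pow {x : G} {p : ℕ} (hp : p.Prime) (h : p ∣ orderOf x) : orderOf (x ^ (orderOf x / p)) = p :=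
  orderOf_pow_orderOf_div (orderOf_pos x).ne' h

/-- commuting elements of orders divisible by `p` and by `q` -/
theorem exists_pq {x y : G} (hxy : Commute x y) {p q : ℕ} (hp : p.Prime) (hq : q.Prime) (hpq : p ≠ q)
    (hx : p ∣ orderOf x) (hy : q ∣ orderOf y) : ∃ z : G, orderOf z = p * q := by
  refine ⟨x ^ (orderOf x / p) * y ^ (orderOf y / q), ?_⟩
  rw [Commute.orderOf_mul_eq_mul_orderOf_of_coprime (hxy.pow_pow _ _), exists_prime_pow hp hx, exists_prime_pow hq hy]
  rw [exists_prime_pow hp hx, exists_prime_pow hq hy]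
  exact (Nat.coprime_primes hp hq).2 hpq

theorem dvd_order {p : ℕ} [Fact p.Prime] {R : Subgroup G} (hR : IsPGroup p R) {u : G} (hu : u ∈ R) (hu1 : u ≠ 1) : p ∣ orderOf u := by
  rw [← Nat.card_zpowers]
  exact dvd_card_of_ne_bot (hR.to_le (by rw [zpowers_le]; exact hu)) (by rwa [Ne, zpowers_eq_bot])

theorem s3634 (K M : Subgroup G) [hK : K.Normal] [hM : M.Normal] (hKM : K ≤ M)
    (p q r : ℕ) (hp : p.Prime) (hq : q.Prime) (hr : r.Prime) (hpq : p ≠ q) (hpr : p ≠ r) (hqr : q ≠ r)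
    (hpK : p ∣ Nat.card ↥K) (hqM : q ∣ Nat.card ↥M / Nat.card ↥K) (hrG : r ∣ Nat.card G / Nat.card ↥M) :
    (∃ x : G, orderOf x = p * q) ∨ (∃ x : G, orderOf x = p * r) ∨ (∃ x : G, orderOf x = q * r) := by
  by_contra hcon
  push Not at hcon
  obtain ⟨h1, h2, h3⟩ := hcon
  haveI : Fact p.Prime := ⟨hp⟩
  haveI : Fact q.Prime := ⟨hq⟩
  haveI : Fact r.Prime := ⟨hr⟩
  have hKpos : 0 < Nat.card K := Nat.card_pos
  have hMpos : 0 < Nat.card M := Nat.card_pos
  -- P Sylow in K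
  obtain ⟨P, hP⟩ := exists_isSyl (p := p) K
  have hPne := hP.ne_bot hpK
  set N := normalizer (P : Set G) with hN
  have hfr1 : ∀ g : G, ∃ k ∈ K, k * g ∈ N := by
    intro g
    exact hP.frattini (by rw [normalizer_eq_top_iff.2 hK]; exact mem_top g)
  -- indices
  have hidx : ∀ L : Subgroup G, K ≤ L → Nat.card L = Nat.card K * (K ⊓ N).relIndex (L ⊓ N) := by
    intro L hKL
    have h4 : K ⊔ (L ⊓ N) = L := by
      apply le_antisymm (sup_le hKL inf_le_left)
      intro l hl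
      obtain ⟨k, hk, hkl⟩ := hfr1 l
      have e : l = k⁻¹ * (k * l) := by group
      rw [e]
      exact mul_mem (mem_sup_left (inv_mem hk)) (mem_sup_right (mem_inf.2 ⟨mul_mem (hKL hk) hl, hkl⟩))
    have h5 : K.relIndex (K ⊔ (L ⊓ N)) = K.relIndex (L ⊓ N) := Subgroup.relIndex_sup_left _ _
    rw [h4] at h5
    have h6 : K.relIndex (L ⊓ N) = (K ⊓ N).relIndex (L ⊓ N) := by
      rw [← Subgroup.inf_relIndex_right K (L ⊓ N), ← Subgroup.inf_relIndex_right (K ⊓ N) (L ⊓ N)]
      congr 1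
      rw [inf_assoc, inf_comm L N, ← inf_assoc N N L, inf_idem]
    have h7 := Subgroup.relIndex_mul_relIndex ⊥ K L bot_le hKL
    rw [Subgroup.relIndex_bot_left, Subgroup.relIndex_bot_left] at h7
    rw [← h7, h5, h6]
  have hqMN : q ∣ Nat.card (M ⊓ N : Subgroup G) := by
    have h4 := hidx M hKM
    rw [h4, Nat.mul_div_cancel_left _ hKpos] at hqM
    exact hqM.trans (Subgroup.relIndex_dvd_card _ _)
  obtain ⟨Q, hQ⟩ := exists_isSyl (p := q) (M ⊓ N)
  have hQne := hQ.ne_bot hqMN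
  have hMNn : N ≤ normalizer ((M ⊓ N : Subgroup G) : Set G) := by
    intro n hn
    rw [mem_normalizer_iff]
    intro x
    rw [mem_inf, mem_inf]
    have h4 : x ∈ M ↔ n * x * n⁻¹ ∈ M := ⟨fun h => hM.conj_mem x h n, fun h => by
      have := hM.conj_mem _ h n⁻¹
      have e : n⁻¹ * (n * x * n⁻¹) * n⁻¹⁻¹ = x := by group
      rwa [e] at this⟩
    have h5 : x ∈ N ↔ n * x * n⁻¹ ∈ N := ⟨fun h => mul_mem (mul_mem hn h) (inv_mem hn), fun h => by
      have := mul_mem (mul_mem (inv_mem hn) h) hn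
      have e : n⁻¹ * (n * x * n⁻¹) * n = x := by group
      rwa [e] at this⟩
    rw [h4, h5]
  set N2 := N ⊓ normalizer (Q : Set G) with hN2
  have hfr2 : ∀ n ∈ N, ∃ m ∈ M ⊓ N, m * n ∈ N2 := by
    intro n hn
    obtain ⟨m, hm, hmn⟩ := hQ.frattini (hMNn hn)
    exact ⟨m, hm, mem_inf.2 ⟨mul_mem (mem_inf.1 hm).2 hn, hmn⟩⟩
  have hrN2 : r ∣ Nat.card N2 := by
    have h4 : M ⊔ N2 = ⊤ := by
      rw [eq_top_iff]
      intro g _
      obtain ⟨k, hk, hkg⟩ := hfr1 g
      obtain ⟨m, hm, hmn⟩ := hfr2 _ hkg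
      have e : g = k⁻¹ * m⁻¹ * (m * (k * g)) := by group
      rw [e]
      exact mul_mem (mem_sup_left (mul_mem (inv_mem (hKM hk)) (inv_mem (mem_inf.1 hm).1))) (mem_sup_right hmn)
    have h5 : M.relIndex (M ⊔ N2) = M.relIndex N2 := Subgroup.relIndex_sup_left _ _
    rw [h4, Subgroup.relIndex_top_right] at h5
    have h6 : Nat.card G / Nat.card M = M.index := by
      rw [← M.card_mul_index, Nat.mul_div_cancel_left _ hMpos]
    rw [h6, h5] at hrG
    exact hrG.trans (Subgroup.relIndex_dvd_card _ _)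
  obtain ⟨x0, hx0⟩ := exists_prime_orderOf_dvd_card' r hrN2
  obtain ⟨x, hxN, hxQ, hx⟩ : ∃ x : G, x ∈ N ∧ x ∈ normalizer (Q : Set G) ∧ orderOf x = r :=
    ⟨x0, (mem_inf.1 x0.2).1, (mem_inf.1 x0.2).2, by rw [Subgroup.orderOf_coe, hx0]⟩
  set R := zpowers x with hR
  have hRcard : Nat.card R = r := by rw [hR, Nat.card_zpowers, hx]
  have hRN : R ≤ normalizer (Q : Set G) := by rw [hR, zpowers_le]; exact hxQ
  set A := Q ⊔ R with hA
  have hAN : A ≤ N := sup_le (hQ.1.trans inf_le_right) (by rw [hR, zpowers_le]; exact hxN)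
  have hQA : Q ≤ A := le_sup_left
  have hRA : R ≤ A := le_sup_right
  have hdis : Q ⊓ R = ⊥ := by
    rw [← Subgroup.card_eq_one]
    have h4 : Nat.card (Q ⊓ R : Subgroup G) ∣ Nat.card Q := Subgroup.card_dvd_of_le inf_le_left
    have h5 : Nat.card (Q ⊓ R : Subgroup G) ∣ Nat.card R := Subgroup.card_dvd_of_le inf_le_right
    obtain ⟨k, hk⟩ := IsPGroup.iff_card.1 hQ.2.1
    rw [hk] at h4
    rw [hRcard] at h5
    exact Nat.eq_one_of_dvd_coprimes (Nat.Coprime.pow_left k ((Nat.coprime_primes hq hr).2 hqr)) h4 h5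
  have hAmem : ∀ a ∈ A, ∃ u ∈ Q, ∃ v ∈ R, a = u * v := by
    intro a ha
    rw [hA, ← SetLike.mem_coe, Subgroup.coe_mul_of_right_le_normalizer_left Q R hRN] at ha
    obtain ⟨u, hu, v, hv, rfl⟩ := ha
    exact ⟨u, hu, v, hv, rfl⟩
  have hRp : IsPGroup r R := IsPGroup.of_card (n := 1) (by rw [hRcard, pow_one])
  -- elements commuting with R
  have hcomm : ∀ u ∈ Q, ∀ v ∈ R, v ≠ 1 → Commute u v → u = 1 := by
    intro u hu v hv hv1 huv
    by_contra hu1
    obtain ⟨z, hz⟩ := exists_pq huv hq hr hqr (dvd_order hQ.2.1 hu hu1) (dvd_order hRp hv hv1)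
    exact h3 z hz
  have hAcard : Nat.card A = Nat.card Q * Nat.card R := by
    have h4 := CfsgLib.LE11CD.card_mul_card_inf Q R
    rw [hdis, Subgroup.card_bot, mul_one, ← Subgroup.coe_mul_of_right_le_normalizer_left Q R hRN] at h4
    exact h4
  -- the abelian group
  set Z := P ⊓ centralizer (P : Set G) with hZ
  have hZP : Z ≤ P := inf_le_left
  have hNZ : A ≤ normalizer (Z : Set G) := by
    intro a ha
    have haN := hAN ha
    rw [mem_normalizer_iff]
    have key : ∀ b ∈ N, ∀ z ∈ Z, b * z * b⁻¹ ∈ Z := by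
      intro b hb z hz
      refine mem_inf.2 ⟨(mem_normalizer_iff.1 hb z).1 (mem_inf.1 hz).1, ?_⟩
      rw [mem_centralizer_iff]
      intro y hy
      have h5 := (mem_normalizer_iff.1 (inv_mem hb) y).1 hy
      have h6 := mem_centralizer_iff.1 (mem_inf.1 hz).2 _ h5
      have e1 : y * (b * z * b⁻¹) = b * ((b⁻¹ * y * b⁻¹⁻¹) * z) * b⁻¹ := by group
      have e2 : b * z * b⁻¹ * y = b * (z * (b⁻¹ * y * b⁻¹⁻¹)) * b⁻¹ := by group
      rw [e1, e2, h6]
    intro z
    refine ⟨key a haN z, fun h => ?_⟩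
    have := key a⁻¹ (inv_mem haN) _ h
    have e : a⁻¹ * (a * z * a⁻¹) * a⁻¹⁻¹ = z := by group
    rwa [e] at this
  letI : CommGroup Z := { (inferInstance : Group Z) with
    mul_comm := fun a b => Subtype.ext (mem_centralizer_iff.1 (mem_inf.1 b.2).2 a (hZP a.2)) }
  let φ : A →* MulAut Z := (Z.normalizerMonoidHom).comp (Subgroup.inclusion hNZ)
  letI : MulDistribMulAction A Z := MulDistribMulAction.compHom Z φ
  have hact : ∀ (a : A) (z : Z), ((a • z : Z) : G) = a * z * (a : G)⁻¹ := fun _ _ => rfl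
  have hZp : IsPGroup p Z := hP.2.1.to_le hZP
  have hco : (Nat.card A).Coprime (Nat.card Z) := by
    obtain ⟨k, hk⟩ := IsPGroup.iff_card.1 hZp
    obtain ⟨l, hl⟩ := IsPGroup.iff_card.1 hQ.2.1
    rw [hAcard, hk, hl, hRcard]
    apply Nat.Coprime.mul_left
    · exact Nat.Coprime.pow _ _ ((Nat.coprime_primes hq hp).2 (Ne.symm hpq))
    · exact Nat.Coprime.pow_right _ ((Nat.coprime_primes hr hp).2 (Ne.symm hpr))
  have hfpf : ∀ a : A, a ≠ 1 → ∀ z : Z, a • z = z → z = 1 := by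
    intro a ha z haz
    by_contra hz1
    have hz1' : (z : G) ≠ 1 := fun h => hz1 (Subtype.ext h)
    have ha1' : (a : G) ≠ 1 := fun h => ha (Subtype.ext h)
    have hc : Commute (z : G) (a : G) := by
      have h5 := congrArg Subtype.val haz
      rw [hact, mul_inv_eq_iff_eq_mul] at h5
      exact h5.symm
    obtain ⟨l, hl, hla⟩ := Nat.exists_prime_and_dvd (n := orderOf (a : G)) (fun h => ha1' (orderOf_eq_one_iff.1 h))
    have h6 : l ∣ Nat.card A := by
      rw [Subgroup.orderOf_coe] at hla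
      exact hla.trans (orderOf_dvd_natCard a)
    obtain ⟨k, hk⟩ := IsPGroup.iff_card.1 hQ.2.1
    rw [hAcard, hk, hRcard] at h6
    have hzo := dvd_order hZp z.2 hz1'
    rcases hl.dvd_mul.1 h6 with h7 | h7
    · have h8 := (Nat.prime_dvd_prime_iff_eq hl hq).1 (hl.dvd_of_dvd_pow h7)
      rw [h8] at hla
      obtain ⟨w, hw⟩ := exists_pq hc hp hq hpq hzo hla
      exact h1 w hw
    · have h8 := (Nat.prime_dvd_prime_iff_eq hl hr).1 h7
      rw [h8] at hla
      obtain ⟨w, hw⟩ := exists_pq hc hp hr hpr hzo hla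
      exact h2 w hw
  have hRbot : R.subgroupOf A ≠ ⊥ := by
    intro h
    have h5 : Nat.card (R.subgroupOf A) = r := by
      rw [Nat.card_congr (Subgroup.subgroupOfEquivOfLe hRA).toEquiv, hRcard]
    rw [h, Subgroup.card_bot] at h5
    exact hr.one_lt.ne h5
  have hRtop : R.subgroupOf A ≠ ⊤ := by
    intro h
    rw [Subgroup.subgroupOf_eq_top] at h
    apply hQne
    rw [eq_bot_iff, ← hdis]
    exact le_inf le_rfl (hQA.trans h)
  have hmal : CfsgLib.Frob6.Mal (R.subgroupOf A) := by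
    intro g y hy hgy hy1
    rw [Subgroup.mem_subgroupOf] at hy hgy ⊢
    obtain ⟨u, hu, v, hv, hg⟩ := hAmem g g.2
    have hy1' : (y : G) ≠ 1 := fun h => hy1 (Subtype.ext h)
    have h5 : (g : G)⁻¹ * y * g ∈ R := hgy
    have h6 : u⁻¹ * y * u ∈ R := by
      have h7 := mul_mem (mul_mem hv h5) (inv_mem hv)
      rw [hg] at h7
      have e : v * ((u * v)⁻¹ * y * (u * v)) * v⁻¹ = u⁻¹ * y * u := by group
      rwa [e] at h7
    have h7 : (y : G)⁻¹ * (u⁻¹ * y * u) ∈ Q ⊓ R := by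
      refine mem_inf.2 ⟨?_, mul_mem (inv_mem hy) h6⟩
      have h8 := (mem_normalizer_iff.1 (hRN (inv_mem hy)) u⁻¹).1 (inv_mem hu)
      have h9 := mul_mem h8 hu
      have e : (y : G)⁻¹ * u⁻¹ * (y : G)⁻¹⁻¹ * u = (y : G)⁻¹ * (u⁻¹ * y * u) := by group
      rwa [e] at h9
    rw [hdis, mem_bot, inv_mul_eq_one] at h7
    have h8 : Commute u (y : G) := by
      have : u * (y : G) = y * u := by
        calc u * (y : G) = u * (u⁻¹ * y * u) := by rw [← h7]
          _ = y * u := by group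
      exact this
    have hu1 := hcomm u hu y hy hy1' h8
    rw [hg, hu1, one_mul]
    exact hv
  -- contradiction
  haveI : Nontrivial P := (Subgroup.nontrivial_iff_ne_bot P).2 hPne
  have hcn := hP.2.1.center_nontrivial
  obtain ⟨c, hc⟩ := exists_ne (1 : center P)
  have hcZ : ((c : P) : G) ∈ Z := by
    refine mem_inf.2 ⟨(c : P).2, ?_⟩
    rw [mem_centralizer_iff]
    intro y hy
    exact congrArg Subtype.val (mem_center_iff.1 c.2 ⟨y, hy⟩)
  have h9 := CfsgLib.Frob6.no_fpf hco hfpf hmal hRbot hRtop ⟨_, hcZ⟩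
  apply hc
  have h10 : ((c : P) : G) = 1 := congrArg Subtype.val h9
  exact Subtype.ext (Subtype.ext h10)

/-- two primes dividing the order of a solvable normal subgroup -/
theorem solv_aux (π : ℕ → Prop) (hπ : ∀ r, π r → r.Prime ∧ r ∣ Nat.card G)
    (hna : ∀ r s, π r → π s → r ≠ s → ¬ ∃ x : G, orderOf x = r * s)
    (r s t : ℕ) (hr : π r) (hs : π s) (ht : π t) (hrs : r ≠ s) (hrt : r ≠ t) (hst : s ≠ t) :
    ∀ (n : ℕ) (K : Subgroup G), Nat.card K = n → K.Normal → Group.IsSolvable K →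
      ∀ u v, (u = r ∨ u = s ∨ u = t) → (v = r ∨ v = s ∨ v = t) → u ≠ v → u ∣ Nat.card K → v ∣ Nat.card K → False := by
  have hall : ∀ u, (u = r ∨ u = s ∨ u = t) → π u := by
    rintro u (rfl | rfl | rfl) <;> assumption
  intro n
  induction n using Nat.strong_induction_on with
  | _ n ih =>
  intro K hn hK hKs u v hu hv huv huK hvK
  have hKne : K ≠ ⊥ := by
    rintro rfl
    rw [Subgroup.card_bot] at huK
    exact (hπ u (hall u hu)).1.one_lt.ne' (Nat.dvd_one.1 huK)
  -- the derived subgroup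
  set D := (_root_.commutator K).map K.subtype with hD
  have hDK : D ≤ K := Subgroup.map_subtype_le _
  haveI : Nontrivial K := (Subgroup.nontrivial_iff_ne_bot K).2 hKne
  have hlt : _root_.commutator K < ⊤ := by
    haveI := hKs
    exact IsSolvable.commutator_lt_top_of_nontrivial K
  have hDcard : Nat.card D = Nat.card (_root_.commutator K) := Subgroup.card_map_of_injective K.subtype_injective
  have hDidx : Nat.card (_root_.commutator K) * (_root_.commutator K).index = Nat.card K := Subgroup.card_mul_index _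
  have hDlt : Nat.card D < n := by
    rw [hDcard, ← hn, ← hDidx]
    have h1 : 1 < (_root_.commutator K).index := by
      have h3 : (_root_.commutator K).index ≠ 1 := fun h => hlt.ne (Subgroup.index_eq_one.1 h)
      have h4 : (_root_.commutator K).index ≠ 0 := Subgroup.index_ne_zero_of_finite
      omega
    have h2 : 0 < Nat.card (_root_.commutator K) := Nat.card_pos
    calc Nat.card (_root_.commutator K) = Nat.card (_root_.commutator K) * 1 := (mul_one _).symm
      _ < _ := Nat.mul_lt_mul_of_pos_left h1 h2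
  have hDn : D.Normal := by
    haveI := hK
    exact ConjAct.normal_of_characteristic_of_normal
  have hDs : Group.IsSolvable D := by
    haveI := hKs
    exact Group.isSolvable_of_isSolvable_injective (f := Subgroup.inclusion hDK) (Subgroup.inclusion_injective hDK)
  have hD2 : ∀ u' v', (u' = r ∨ u' = s ∨ u' = t) → (v' = r ∨ v' = s ∨ v' = t) → u' ≠ v' → u' ∣ Nat.card D → v' ∣ Nat.card D → False :=
    fun u' v' h1 h2 h3 h4 h5 => ih _ hDlt D rfl hDn hDs u' v' h1 h2 h3 h4 h5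
  have hI2 : ∀ u' v', (u' = r ∨ u' = s ∨ u' = t) → (v' = r ∨ v' = s ∨ v' = t) → u' ≠ v' →
      u' ∣ (_root_.commutator K).index → v' ∣ (_root_.commutator K).index → False := by
    intro u' v' h1 h2 h3 h4 h5
    haveI : Fact u'.Prime := ⟨(hπ u' (hall u' h1)).1⟩
    haveI : Fact v'.Prime := ⟨(hπ v' (hall v' h2)).1⟩
    obtain ⟨a, ha⟩ := exists_prime_orderOf_dvd_card' (G := Abelianization K) u' h4
    obtain ⟨b, hb⟩ := exists_prime_orderOf_dvd_card' (G := Abelianization K) v' h5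
    obtain ⟨c, hc⟩ := exists_pq (Commute.all a b) (Fact.out : u'.Prime) (Fact.out : v'.Prime) h3 (dvd_of_eq ha.symm) (dvd_of_eq hb.symm)
    obtain ⟨x, rfl⟩ := QuotientGroup.mk'_surjective (_root_.commutator K) c
    have h6 : u' * v' ∣ orderOf x := by
      rw [← hc]
      exact orderOf_map_dvd (QuotientGroup.mk' (_root_.commutator K)) x
    have h7 : orderOf (x ^ (orderOf x / (u' * v'))) = u' * v' := orderOf_pow_orderOf_div (orderOf_pos x).ne' h6
    exact hna u' v' (hall u' h1) (hall v' h2) h3 ⟨((x ^ (orderOf x / (u' * v')) : K) : G), by rw [Subgroup.orderOf_coe]; exact h7⟩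
  have hcase : ∀ u' v', (u' = r ∨ u' = s ∨ u' = t) → (v' = r ∨ v' = s ∨ v' = t) → u' ≠ v' → u' ∣ Nat.card D →
      v' ∣ (_root_.commutator K).index → False := by
    intro u' v' h1 h2 h3 h4 h5
    obtain ⟨l, hl, hlu, hlv⟩ : ∃ l, (l = r ∨ l = s ∨ l = t) ∧ l ≠ u' ∧ l ≠ v' := by
      rcases h1 with rfl | rfl | rfl <;> rcases h2 with rfl | rfl | rfl
      · exact absurd rfl h3
      · exact ⟨t, Or.inr (Or.inr rfl), hrt.symm, hst.symm⟩
      · exact ⟨s, Or.inr (Or.inl rfl), hrs.symm, hst⟩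
      · exact ⟨t, Or.inr (Or.inr rfl), hst.symm, hrt.symm⟩
      · exact absurd rfl h3
      · exact ⟨r, Or.inl rfl, hrs, hrt⟩
      · exact ⟨s, Or.inr (Or.inl rfl), hst, hrs.symm⟩
      · exact ⟨r, Or.inl rfl, hrt, hrs⟩
      · exact absurd rfl h3
    have hlD : ¬ l ∣ Nat.card D := fun h => hD2 u' l h1 hl hlu.symm h4 h
    have hlI : ¬ l ∣ (_root_.commutator K).index := fun h => hI2 v' l h2 hl hlv.symm h5 h
    have hlp := (hπ l (hall l hl)).1
    have hlK : ¬ l ∣ Nat.card K := by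
      rw [← hDidx, ← hDcard]
      intro h
      rcases hlp.dvd_mul.1 h with h | h
      · exact hlD h
      · exact hlI h
    have hlG : l ∣ Nat.card G / Nat.card K := by
      have h6 := (hπ l (hall l hl)).2
      rw [← K.card_mul_index] at h6 ⊢
      rw [Nat.mul_div_cancel_left _ Nat.card_pos]
      exact (hlp.dvd_mul.1 h6).resolve_left hlK
    have hq : v' ∣ Nat.card K / Nat.card D := by
      rw [← hDidx, hDcard, Nat.mul_div_cancel_left _ Nat.card_pos]
      exact h5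
    rcases s3634 (hK := hDn) (hM := hK) D K hDK u' v' l (hπ u' (hall u' h1)).1 (hπ v' (hall v' h2)).1 hlp h3 hlu.symm hlv.symm h4 hq hlG with h | h | h
    · exact hna _ _ (hall u' h1) (hall v' h2) h3 h
    · exact hna _ _ (hall u' h1) (hall l hl) hlu.symm h
    · exact hna _ _ (hall v' h2) (hall l hl) hlv.symm h
  have hdec : ∀ w, (w = r ∨ w = s ∨ w = t) → w ∣ Nat.card K → w ∣ Nat.card D ∨ w ∣ (_root_.commutator K).index := by
    intro w hw h
    rw [← hDidx, ← hDcard] at h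
    exact (hπ w (hall w hw)).1.dvd_mul.1 h
  rcases hdec u hu huK with h1 | h1 <;> rcases hdec v hv hvK with h2 | h2
  · exact hD2 u v hu hv huv h1 h2
  · exact hcase u v hu hv huv h1 h2
  · exact hcase v u hv hu huv.symm h2 h1
  · exact hI2 u v hu hv huv h1 h2

theorem s3633 (ρ : Finset ℕ) (hρ : 3 ≤ ρ.card) (hc : ((∀ r ∈ ρ, r.Prime ∧ r ∣ Nat.card G) ∧ (∀ r ∈ ρ, ∀ s ∈ ρ, r ≠ s → ¬ ∃ x : G, orderOf x = r * s)))
    (K : Subgroup G) [hKn : K.Normal] (hK : Group.IsSolvable ↥K) :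
    (∀ r ∈ ρ, ∀ s ∈ ρ, r ∣ Nat.card ↥K → s ∣ Nat.card ↥K → r = s) ∧ ¬ Group.IsSolvable G := by
  classical
  have key : ∀ (K : Subgroup G), K.Normal → Group.IsSolvable K → ∀ r ∈ ρ, ∀ s ∈ ρ, r ∣ Nat.card ↥K → s ∣ Nat.card ↥K → r = s := by
    intro K hKn hK r hr s hs hrK hsK
    by_contra hne
    obtain ⟨t, ht⟩ : ∃ t, t ∈ (ρ.erase r).erase s := by
      apply Finset.card_pos.1
      rw [Finset.card_erase_of_mem (Finset.mem_erase.2 ⟨fun h => hne h.symm, hs⟩), Finset.card_erase_of_mem hr]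
      omega
    rw [Finset.mem_erase, Finset.mem_erase] at ht
    exact solv_aux (fun x => x ∈ ρ) hc.1 (fun a b ha hb => hc.2 a ha b hb) r s t hr hs ht.2.2 hne (Ne.symm ht.2.1) (Ne.symm ht.1)
      _ K rfl hKn hK r s (Or.inl rfl) (Or.inr (Or.inl rfl)) hne hrK hsK
  refine ⟨key K hKn hK, ?_⟩
  intro hs
  haveI := hs
  obtain ⟨r, s, hrs⟩ : ∃ r s, r ∈ ρ ∧ s ∈ ρ ∧ r ≠ s := by
    obtain ⟨r, hr, s, hs, h⟩ := Finset.one_lt_card.1 (by omega : 1 < ρ.card)
    exact ⟨r, s, hr, hs, h⟩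
  have hT : Group.IsSolvable (⊤ : Subgroup G) := inferInstance
  refine hrs.2.2 (key ⊤ inferInstance hT r hrs.1 s hrs.2.1 ?_ ?_)
  · rw [Subgroup.card_top]; exact (hc.1 r hrs.1).2
  · rw [Subgroup.card_top]; exact (hc.1 s hrs.2.1).2

end CfsgLib.PGraphH12
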