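import Cfsg.Agent.EqBase
import Mathlib
import Cfsg.Prelude.Def_Local
import Cfsg.Agent.LibCores
import Cfsg.Agent.LibBGPlen

set_option autoImplicit false

/-!
`p`-length via normal chains: `RLen p k A B` says that between the normal subgroups `A ≤ B` of `G` there is a chain of
`2k+1` steps, alternately `p'` and `p`, starting with `p'`.
-/

namespace CfsgLib.PLen

open Subgroup Cfsg

universe u

/-- One step. -/
def Step {G : Type*} [Group G] (p i : ℕ) (A B : Subgroup G) : Prop :=
  (Even i → (A.relIndex B).Coprime p) ∧ (¬ Even i → ∃ m, A.relIndex B = p ^ m)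

structure PChain {G : Type*} [Group G] (p n : ℕ) (A B : Subgroup G) (f : ℕ → Subgroup G) : Prop where
  zero : f 0 = A
  last : f n = B
  normal : ∀ i, (f i).Normal
  mono : ∀ i, f i ≤ f (i + 1)
  step : ∀ i, i < n → Step p i (f i) (f (i + 1))

def RLen {G : Type*} [Group G] (p k : ℕ) (A B : Subgroup G) : Prop := ∃ f, PChain p (2 * k + 1) A B f

section
variable {G : Type u} [Group G] [Finite G] {p : ℕ}

theorem step_of_dvd {H : Type*} [Group H] {i : ℕ} {A B : Subgroup G} {C D : Subgroup H} (hp : p.Prime)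
    (h : Step p i A B) (hd : C.relIndex D ∣ A.relIndex B) : Step p i C D := by
  refine ⟨fun he => Nat.Coprime.coprime_dvd_left hd (h.1 he), fun ho => ?_⟩
  obtain ⟨m, hm⟩ := h.2 ho
  rw [hm] at hd
  obtain ⟨j, -, hj⟩ := (Nat.dvd_prime_pow hp).mp hd
  exact ⟨j, hj⟩

theorem step_self {i : ℕ} (A : Subgroup G) : Step p i A A :=
  ⟨fun _ => by rw [Subgroup.relIndex_self]; exact Nat.coprime_one_left p,
   fun _ => ⟨0, by rw [Subgroup.relIndex_self, pow_zero]⟩⟩

theorem step_mul {H K : Type*} [Group H] [Group K] {i : ℕ} {A B : Subgroup G} {C D : Subgroup H}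
    {E F : Subgroup K} (hp : p.Prime)
    (h : Step p i A B) (h' : Step p i E F) (hd : C.relIndex D ∣ A.relIndex B * E.relIndex F) : Step p i C D := by
  refine ⟨fun he => Nat.Coprime.coprime_dvd_left hd (Nat.Coprime.mul_left (h.1 he) (h'.1 he)), fun ho => ?_⟩
  obtain ⟨m, hm⟩ := h.2 ho
  obtain ⟨n, hn⟩ := h'.2 ho
  rw [hm, hn, ← pow_add] at hd
  obtain ⟨j, -, hj⟩ := (Nat.dvd_prime_pow hp).mp hd
  exact ⟨j, hj⟩

theorem relIndex_inf_dvd {A B C : Subgroup G} [A.Normal] : A.relIndex (B ⊓ C) ∣ A.relIndex B := by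
  have h1 : (A.subgroupOf B).relIndex ((B ⊓ C).subgroupOf B) ∣ (A.subgroupOf B).index :=
    Subgroup.relIndex_dvd_index_of_normal _ _
  rwa [Subgroup.relIndex_subgroupOf inf_le_left] at h1

theorem relIndex_dvd_of_le_right {A B C : Subgroup G} [A.Normal] (h : C ≤ B) : A.relIndex C ∣ A.relIndex B := by
  have := relIndex_inf_dvd (A := A) (B := B) (C := C)
  rwa [inf_eq_right.mpr h] at this

theorem PChain.mono' {n : ℕ} {A B : Subgroup G} {f : ℕ → Subgroup G} (h : PChain p n A B f) {i j : ℕ} (hij : i ≤ j) :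
    f i ≤ f j := monotone_nat_of_le_succ h.mono hij

theorem RLen.le {k : ℕ} {A B : Subgroup G} (h : RLen p k A B) : A ≤ B := by
  obtain ⟨f, hf⟩ := h
  rw [← hf.zero, ← hf.last]
  exact hf.mono' (Nat.zero_le _)

theorem RLen.normal_left {k : ℕ} {A B : Subgroup G} (h : RLen p k A B) : A.Normal := by
  obtain ⟨f, hf⟩ := h
  rw [← hf.zero]; exact hf.normal 0

theorem RLen.normal_right {k : ℕ} {A B : Subgroup G} (h : RLen p k A B) : B.Normal := by
  obtain ⟨f, hf⟩ := h
  rw [← hf.last]; exact hf.normal _

/-- base case -/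
theorem RLen.of_prime' {A B : Subgroup G} [A.Normal] [B.Normal] (h : A ≤ B) (hc : (A.relIndex B).Coprime p) :
    RLen p 0 A B := by
  refine ⟨fun i => if i = 0 then A else B, by simp, by simp, ?_, ?_, ?_⟩
  · intro i
    by_cases hi : i = 0
    · simp only [hi, if_true]; infer_instance
    · simp only [hi, if_false]; infer_instance
  · intro i
    by_cases hi : i = 0
    · simp [hi, h]
    · simp [hi]
  · intro i hi
    have h0 : i = 0 := by omega
    subst h0
    refine ⟨fun _ => by simpa using hc, fun hne => absurd Even.zero hne⟩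

theorem RLen.refl (A : Subgroup G) [A.Normal] : RLen p 0 A A :=
  RLen.of_prime' le_rfl (by rw [Subgroup.relIndex_self]; exact Nat.coprime_one_left p)

theorem RLen.of_three {A K B : Subgroup G} [A.Normal] [K.Normal] [B.Normal] (h1 : A ≤ K) (h2 : K ≤ B)
    (hp1 : ∃ m, A.relIndex K = p ^ m) (hc : (K.relIndex B).Coprime p) :
    RLen p 1 A B := by
  refine ⟨fun i => if i ≤ 1 then A else if i = 2 then K else B, by simp, by simp, ?_, ?_, ?_⟩
  · intro i
    split_ifs <;> infer_instance
  · intro i
    rcases Nat.lt_or_ge i 3 with h | h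
    · interval_cases i
      · simp
      · simpa using h1
      · simpa using h2
    · have e1 : ¬ i ≤ 1 := by omega
      have e2 : ¬ i = 2 := by omega
      have e3 : ¬ i + 1 ≤ 1 := by omega
      have e4 : ¬ i + 1 = 2 := by omega
      simp [e1, e2, e4, show i ≠ 0 by omega]
  · intro i hi
    have h3 : i < 3 := by omega
    interval_cases i
    · exact step_self A
    · refine ⟨fun he => absurd he (by decide), fun _ => by simpa using hp1⟩
    · refine ⟨fun _ => by simpa using hc, fun he => absurd (by decide) he⟩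

/-- concatenation -/
theorem RLen.trans (hp : p.Prime) {a b : ℕ} {A B C : Subgroup G} (h1 : RLen p a A B) (h2 : RLen p b B C) :
    RLen p (a + b) A C := by
  obtain ⟨f, hf⟩ := h1
  obtain ⟨g, hg⟩ := h2
  refine ⟨fun i => if i ≤ 2 * a then f i else g (i - 2 * a), ?_, ?_, ?_, ?_, ?_⟩
  · simp [hf.zero]
  · have e1 : ¬ 2 * (a + b) + 1 ≤ 2 * a := by omega
    have e2 : 2 * (a + b) + 1 - 2 * a = 2 * b + 1 := by omega
    simp only [e1, if_false, e2]
    exact hg.last
  · intro i
    split_ifs
    · exact hf.normal _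
    · exact hg.normal _
  · intro i
    rcases Nat.lt_trichotomy i (2 * a) with h | h | h
    · rw [if_pos h.le, if_pos (by omega)]; exact hf.mono i
    · rw [if_pos h.le, if_neg (by omega), h]
      have e : 2 * a + 1 - 2 * a = 1 := by omega
      rw [e]
      have e1 := hf.mono (2 * a)
      rw [hf.last] at e1
      have e2 := hg.mono 0
      rw [hg.zero] at e2
      exact e1.trans e2
    · rw [if_neg (by omega), if_neg (by omega)]
      have e : i + 1 - 2 * a = (i - 2 * a) + 1 := by omega
      rw [e]; exact hg.mono _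
  · intro i hi
    rcases Nat.lt_trichotomy i (2 * a) with h | h | h
    · rw [if_pos h.le, if_pos (by omega)]; exact hf.step i (by omega)
    · rw [if_pos h.le, if_neg (by omega), h]
      have e : 2 * a + 1 - 2 * a = 1 := by omega
      rw [e]
      have e1 := hf.step (2 * a) (by omega)
      rw [hf.last] at e1
      have e2 := hg.step 0 (by omega)
      rw [hg.zero] at e2
      have hev : Even (2 * a) := even_two_mul a
      refine ⟨fun _ => ?_, fun hne => absurd hev hne⟩
      have l1 : f (2 * a) ≤ B := by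
        have := hf.mono (2 * a)
        rwa [hf.last] at this
      have l2 : B ≤ g 1 := by
        have := hg.mono 0
        rwa [hg.zero] at this
      rw [← Subgroup.relIndex_mul_relIndex (f (2 * a)) B (g 1) l1 l2]
      exact Nat.Coprime.mul_left (e1.1 hev) (e2.1 Even.zero)
    · rw [if_neg (by omega), if_neg (by omega)]
      have e : i + 1 - 2 * a = (i - 2 * a) + 1 := by omega
      rw [e]
      have e1 := hg.step (i - 2 * a) (by omega)
      have e2 : Even (i - 2 * a) ↔ Even i := by
        rw [Nat.even_sub h.le]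
        simp
      exact ⟨fun he => e1.1 (e2.mpr he), fun ho => e1.2 (fun he => ho (e2.mp he))⟩

theorem RLen.mono (hp : p.Prime) {a b : ℕ} (hab : a ≤ b) {A B : Subgroup G} (h : RLen p a A B) : RLen p b A B := by
  induction b, hab using Nat.le_induction with
  | base => exact h
  | succ n hn ih =>
    haveI := ih.normal_right
    have h1 : RLen p 1 B B := RLen.of_three le_rfl le_rfl ⟨0, by rw [Subgroup.relIndex_self, pow_zero]⟩
      (by rw [Subgroup.relIndex_self]; exact Nat.coprime_one_left p)
    exact ih.trans hp h1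

/-- intersections -/
theorem RLen.inf (hp : p.Prime) {k : ℕ} {A B C D : Subgroup G} (h1 : RLen p k A B) (h2 : RLen p k C D) :
    RLen p k (A ⊓ C) (B ⊓ D) := by
  obtain ⟨f, hf⟩ := h1
  obtain ⟨g, hg⟩ := h2
  refine ⟨fun i => f i ⊓ g i, by rw [hf.zero, hg.zero], by rw [hf.last, hg.last], ?_, ?_, ?_⟩
  · intro i
    haveI := hf.normal i
    haveI := hg.normal i
    infer_instance
  · intro i
    exact inf_le_inf (hf.mono i) (hg.mono i)
  · intro i hi
    haveI := hf.normal i
    haveI := hg.normal i
    apply step_mul hp (hf.step i hi) (hg.step i hi)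
    rw [← Subgroup.relIndex_inf_mul_relIndex]
    apply Nat.mul_dvd_mul
    · apply relIndex_dvd_of_le_right
      exact inf_le_right.trans inf_le_left
    · apply relIndex_dvd_of_le_right inf_le_right

theorem RLen.map (hp : p.Prime) {Q : Type*} [Group Q] [Finite Q] (φ : G →* Q) (hφ : Function.Surjective φ)
    {k : ℕ} {A B : Subgroup G} (h : RLen p k A B) : RLen p k (A.map φ) (B.map φ) := by
  obtain ⟨f, hf⟩ := h
  refine ⟨fun i => (f i).map φ, by rw [hf.zero], by rw [hf.last], ?_, ?_, ?_⟩
  · intro i; exact (hf.normal i).map φ hφ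
  · intro i; exact Subgroup.map_mono (hf.mono i)
  · intro i hi
    haveI := hf.normal i
    apply step_of_dvd hp (hf.step i hi)
    rw [Subgroup.relIndex_map_map]
    have h1 : f (i + 1) ⊔ φ.ker = f (i + 1) ⊔ (f i ⊔ φ.ker) := by
      rw [← sup_assoc, sup_eq_left.mpr (hf.mono i)]
    rw [h1, Subgroup.relIndex_sup_right]
    exact Subgroup.relIndex_dvd_of_le_left _ le_sup_left

theorem RLen.comap (hp : p.Prime) {H : Type*} [Group H] [Finite H] (φ : H →* G)
    {k : ℕ} {A B : Subgroup G} (h : RLen p k A B) : RLen p k (A.comap φ) (B.comap φ) := by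
  obtain ⟨f, hf⟩ := h
  refine ⟨fun i => (f i).comap φ, by rw [hf.zero], by rw [hf.last], ?_, ?_, ?_⟩
  · intro i
    haveI := hf.normal i
    infer_instance
  · intro i; exact Subgroup.comap_mono (hf.mono i)
  · intro i hi
    haveI := hf.normal i
    apply step_of_dvd hp (hf.step i hi)
    rw [Subgroup.relIndex_comap]
    exact relIndex_dvd_of_le_right (Subgroup.map_comap_le _ _)

theorem series_step (hp : p.Prime) (i : ℕ) : (upperPSeries p G i).1 ≤ (upperPSeries p G (i + 1)).1 ∧
    Step p i (upperPSeries p G i).1 (upperPSeries p G (i + 1)).1 := by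
  haveI : Fact p.Prime := ⟨hp⟩
  by_cases he : Even i
  · have h1 : (upperPSeries p G (i + 1)).1 = (pPrimeCore p (G ⧸ (upperPSeries p G i).1)).comap
        (QuotientGroup.mk' _) := by
      rw [upperPSeries]; simp [he]
    have hle : (upperPSeries p G i).1 ≤ (upperPSeries p G (i + 1)).1 := by
      rw [h1]
      intro x hx
      rw [Subgroup.mem_comap]
      have : (QuotientGroup.mk' (upperPSeries p G i).1) x = 1 := (QuotientGroup.eq_one_iff x).mpr hx
      rw [this]; exact one_mem _
    refine ⟨hle, fun _ => ?_, fun h => absurd he h⟩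
    have h2 : (upperPSeries p G i).1.relIndex (upperPSeries p G (i + 1)).1 =
        Nat.card (pPrimeCore p (G ⧸ (upperPSeries p G i).1)) := by
      have h3 := CfsgLib.BGPi.card_mul_relIndex hle
      rw [h1, CfsgLib.Cores.card_comap_mk] at h3
      rw [h1]
      exact Nat.eq_of_mul_eq_mul_left Nat.card_pos h3
    rw [h2]
    exact CfsgLib.Cores.pPrimeCore_coprime p
  · have h1 : (upperPSeries p G (i + 1)).1 = (pCore p (G ⧸ (upperPSeries p G i).1)).comap
        (QuotientGroup.mk' _) := by
      rw [upperPSeries]; simp [he]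
    have hle : (upperPSeries p G i).1 ≤ (upperPSeries p G (i + 1)).1 := by
      rw [h1]
      intro x hx
      rw [Subgroup.mem_comap]
      have : (QuotientGroup.mk' (upperPSeries p G i).1) x = 1 := (QuotientGroup.eq_one_iff x).mpr hx
      rw [this]; exact one_mem _
    refine ⟨hle, fun h => absurd h he, fun _ => ?_⟩
    have h2 : (upperPSeries p G i).1.relIndex (upperPSeries p G (i + 1)).1 =
        Nat.card (pCore p (G ⧸ (upperPSeries p G i).1)) := by
      have h3 := CfsgLib.BGPi.card_mul_relIndex hle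
      rw [h1, CfsgLib.Cores.card_comap_mk] at h3
      rw [h1]
      exact Nat.eq_of_mul_eq_mul_left Nat.card_pos h3
    rw [h2]
    exact IsPGroup.iff_card.mp (CfsgLib.Cores.pCore_isPGroup p)

theorem series_chain (hp : p.Prime) (n : ℕ) :
    PChain p n (⊥ : Subgroup G) (upperPSeries p G n).1 (fun i => (upperPSeries p G i).1) where
  zero := rfl
  last := rfl
  normal := fun i => (upperPSeries p G i).2
  mono := fun i => (series_step hp i).1
  step := fun i _ => (series_step hp i).2

theorem le_series (hp : p.Prime) {n : ℕ} {B : Subgroup G} {f : ℕ → Subgroup G}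
    (h : PChain p n (⊥ : Subgroup G) B f) : ∀ i, i ≤ n → f i ≤ (upperPSeries p G i).1 := by
  haveI : Fact p.Prime := ⟨hp⟩
  intro i
  induction i with
  | zero => intro _; rw [h.zero]; exact bot_le
  | succ i ih =>
    intro hi
    have h0 := ih (by omega)
    haveI := h.normal (i + 1)
    have hstep := h.step i (by omega)
    have hcard : Nat.card ((f (i + 1)).map (QuotientGroup.mk' (upperPSeries p G i).1)) ∣
        (f i).relIndex (f (i + 1)) := by
      have h1 : (upperPSeries p G i).1.relIndex (f (i + 1)) =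
          Nat.card ((f (i + 1)).map (QuotientGroup.mk' (upperPSeries p G i).1)) := by
        rw [← Subgroup.relIndex_ker, QuotientGroup.ker_mk']
      rw [← h1]
      exact Subgroup.relIndex_dvd_of_le_left _ h0
    have hn : ((f (i + 1)).map (QuotientGroup.mk' (upperPSeries p G i).1)).Normal :=
      (h.normal (i + 1)).map _ (QuotientGroup.mk'_surjective _)
    by_cases he : Even i
    · have h1 : (upperPSeries p G (i + 1)).1 = (pPrimeCore p (G ⧸ (upperPSeries p G i).1)).comap
          (QuotientGroup.mk' _) := by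
        rw [upperPSeries]; simp [he]
      rw [h1, ← Subgroup.map_le_iff_le_comap]
      exact CfsgLib.Cores.le_pPrimeCore hn (Nat.Coprime.coprime_dvd_left hcard (hstep.1 he))
    · have h1 : (upperPSeries p G (i + 1)).1 = (pCore p (G ⧸ (upperPSeries p G i).1)).comap
          (QuotientGroup.mk' _) := by
        rw [upperPSeries]; simp [he]
      rw [h1, ← Subgroup.map_le_iff_le_comap]
      apply CfsgLib.Cores.le_pCore hn
      obtain ⟨m, hm⟩ := hstep.2 he
      rw [hm] at hcard
      obtain ⟨j, -, hj⟩ := (Nat.dvd_prime_pow hp).mp hcard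
      exact IsPGroup.of_card hj

theorem plen_iff (hp : p.Prime) {k : ℕ} : PLengthLE p k G ↔ RLen p k (⊥ : Subgroup G) ⊤ := by
  constructor
  · intro h
    have h1 := series_chain (G := G) hp (2 * k + 1)
    rw [show (upperPSeries p G (2 * k + 1)).1 = ⊤ from h] at h1
    exact ⟨_, h1⟩
  · rintro ⟨f, hf⟩
    have h1 := le_series hp hf (2 * k + 1) le_rfl
    rw [hf.last] at h1
    exact top_le_iff.mp h1

theorem plen_quot_iff (hp : p.Prime) {k : ℕ} (N : Subgroup G) [N.Normal] :
    PLengthLE p k (G ⧸ N) ↔ RLen p k N ⊤ := by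
  rw [plen_iff hp]
  constructor
  · intro h
    have h1 := h.comap hp (QuotientGroup.mk' N)
    rw [Subgroup.comap_top] at h1
    have h2 : (⊥ : Subgroup (G ⧸ N)).comap (QuotientGroup.mk' N) = N := by
      rw [MonoidHom.comap_bot, QuotientGroup.ker_mk']
    rwa [h2] at h1
  · intro h
    have h1 := h.map hp (QuotientGroup.mk' N) (QuotientGroup.mk'_surjective N)
    rw [Subgroup.map_top_of_surjective _ (QuotientGroup.mk'_surjective N)] at h1
    have h2 : N.map (QuotientGroup.mk' N) = ⊥ := by
      rw [Subgroup.map_eq_bot_iff, QuotientGroup.ker_mk']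
    rwa [h2] at h1

theorem plen_mono (hp : p.Prime) {a b : ℕ} (hab : a ≤ b) (h : PLengthLE p a G) : PLengthLE p b G := by
  rw [plen_iff hp] at h ⊢
  exact h.mono hp hab

theorem plen_of_surjective (hp : p.Prime) {Q : Type*} [Group Q] [Finite Q] (φ : G →* Q)
    (hφ : Function.Surjective φ) {k : ℕ} (h : PLengthLE p k G) : PLengthLE p k Q := by
  rw [plen_iff hp] at h ⊢
  have h1 := h.map hp φ hφ
  rwa [Subgroup.map_bot, Subgroup.map_top_of_surjective _ hφ] at h1

theorem plen_of_injective (hp : p.Prime) {H : Type*} [Group H] [Finite H] (φ : H →* G)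
    (hφ : Function.Injective φ) {k : ℕ} (h : PLengthLE p k G) : PLengthLE p k H := by
  rw [plen_iff hp] at h ⊢
  have h1 := h.comap hp φ
  rwa [MonoidHom.comap_bot, Subgroup.comap_top, (MonoidHom.ker_eq_bot_iff φ).mpr hφ] at h1

/-- extension -/
theorem plen_ext (hp : p.Prime) {a b : ℕ} (N : Subgroup G) [N.Normal] (h1 : RLen p a (⊥ : Subgroup G) N)
    (h2 : PLengthLE p b (G ⧸ N)) : PLengthLE p (a + b) G := by
  rw [plen_iff hp]
  rw [plen_quot_iff hp] at h2
  exact h1.trans hp h2

/-- `G / O_{p',p}(G)` -/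
theorem plen_quot_ppc (hp : p.Prime) {k : ℕ} (h : PLengthLE p (k + 1) G) :
    PLengthLE p k (G ⧸ pPrimePCore p G) := by
  rw [plen_quot_iff hp]
  have h1 := series_chain (G := G) hp (2 * (k + 1) + 1)
  rw [show (upperPSeries p G (2 * (k + 1) + 1)).1 = ⊤ from h] at h1
  refine ⟨fun i => (upperPSeries p G (i + 2)).1, ?_, ?_, ?_, ?_, ?_⟩
  · exact CfsgLib.BGPi.upperPSeries_two p
  · show (upperPSeries p G (2 * k + 1 + 2)).1 = ⊤
    exact h
  · intro i; exact h1.normal _
  · intro i; exact h1.mono _
  · intro i hi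
    have h2 := h1.step (i + 2) (by omega)
    have h3 : Even (i + 2) ↔ Even i := by
      rw [Nat.even_add]; simp
    exact ⟨fun he => h2.1 (h3.mpr he), fun ho => h2.2 (fun he => ho (h3.mp he))⟩

theorem rlen_ppc (hp : p.Prime) : RLen p 1 (⊥ : Subgroup G) (pPrimePCore p G) := by
  have h1 := series_chain (G := G) hp 2
  refine ⟨fun i => if i ≤ 2 then (upperPSeries p G i).1 else (upperPSeries p G 2).1, by simp; rfl, ?_, ?_, ?_, ?_⟩
  · simp only [show ¬ (2 * 1 + 1 ≤ 2) by omega, if_false]
    exact CfsgLib.BGPi.upperPSeries_two p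
  · intro i
    split_ifs
    · exact h1.normal _
    · exact h1.normal _
  · intro i
    rcases Nat.lt_or_ge i 2 with h | h
    · rw [if_pos (by omega), if_pos (by omega)]; exact h1.mono i
    · by_cases h2 : i = 2
      · subst h2; simp
      · rw [if_neg (by omega), if_neg (by omega)]
  · intro i hi
    rcases Nat.lt_or_ge i 2 with h | h
    · rw [if_pos (by omega), if_pos (by omega)]; exact h1.step i (by omega)
    · have h2 : i = 2 := by omega
      subst h2
      simp only [le_refl, if_true, show ¬ (2 + 1 ≤ 2) by omega, if_false]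
      exact step_self _

/-- conversely -/
theorem plen_of_quot_ppc (hp : p.Prime) {k : ℕ} (h : PLengthLE p k (G ⧸ pPrimePCore p G)) :
    PLengthLE p (k + 1) G := by
  have := plen_ext hp (pPrimePCore p G) (rlen_ppc hp) h
  rwa [add_comm] at this

theorem plen_zero_iff (hp : p.Prime) : PLengthLE p 0 G ↔ (Nat.card G).Coprime p := by
  constructor
  · intro h
    have h1 := CfsgLib.BGPi.upperPSeries_one (G := G) p
    have h2 : (upperPSeries p G 1).1 = ⊤ := h
    rw [h2] at h1
    have h3 := CfsgLib.Cores.pPrimeCore_coprime (G := G) p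
    rw [← h1, Subgroup.card_top] at h3
    exact h3
  · intro h
    rw [plen_iff hp]
    apply RLen.of_prime' bot_le
    rw [Subgroup.relIndex_bot_left, Subgroup.card_top]
    exact h

theorem plen_zero_quot_iff (hp : p.Prime) (N : Subgroup G) [N.Normal] : PLengthLE p 0 (G ⧸ N) ↔ N.index.Coprime p := by
  rw [plen_zero_iff hp, Subgroup.index_eq_card]

end

end CfsgLib.PLen
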