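import Mathlib

/-! No sharply 2-transitive set in `PΓL(n,F)`, `n ≥ 3` (helper10). -/

set_option autoImplicit false

namespace CfsgLib.PSharp

open Projectivization Module
open scoped LinearAlgebra.Projectivization

variable {F V : Type*} [Field F] [Finite F] [AddCommGroup V] [Module F V] [Finite V]

/-- points of a subspace -/
def pts (U : Submodule F V) : Set (ℙ F V) := {x | x.rep ∈ U}

omit [Finite F] [Finite V] in
theorem mk_mem_pts {U : Submodule F V} {v : V} (hv : v ≠ 0) : mk F v hv ∈ pts U ↔ v ∈ U := by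
  obtain ⟨a, ha⟩ := exists_smul_eq_mk_rep F v hv
  change (mk F v hv).rep ∈ U ↔ v ∈ U
  rw [← ha]
  constructor
  · intro h
    have : (a⁻¹ : Fˣ) • a • v ∈ U := U.smul_mem ((a⁻¹ : Fˣ) : F) h
    rwa [inv_smul_smul] at this
  · intro h; exact U.smul_mem _ h

theorem card_pts (U : Submodule F V) : Nat.card U = (pts U).ncard * (Nat.card F - 1) + 1 := by
  have h1 : Nat.card (ℙ F U) = (pts U).ncard := by
    rw [← Nat.card_coe_set_eq]
    refine Nat.card_congr (Equiv.ofBijective (fun x => ⟨Projectivization.map U.subtype U.injective_subtype x, ?_⟩) ⟨?_, ?_⟩)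
    · induction x using Projectivization.ind with
      | h v hv =>
        rw [Projectivization.map_mk, mk_mem_pts]
        exact v.2
    · intro x y hxy
      exact Projectivization.map_injective U.subtype U.injective_subtype (congrArg Subtype.val hxy)
    · rintro ⟨x, hx⟩
      have hx' : x.rep ∈ U := hx
      refine ⟨mk F (⟨x.rep, hx'⟩ : U) (fun h => x.rep_nonzero (congrArg Subtype.val h)), Subtype.ext ?_⟩
      change Projectivization.map U.subtype U.injective_subtype (mk F (⟨x.rep, hx'⟩ : U) _) = x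
      rw [Projectivization.map_mk]
      exact x.mk_rep
  rw [← h1]
  exact Projectivization.card' F U

theorem card_pts' {U : Submodule F V} {k : ℕ} (hk : finrank F U = k) :
    Nat.card F ^ k = (pts U).ncard * (Nat.card F - 1) + 1 := by
  rw [← card_pts, Module.natCard_eq_pow_finrank (K := F) (V := U), hk]

omit [Finite F] [Finite V] in
theorem map_mem_pts {σ : F ≃+* F} (f : V →ₛₗ[(σ : F →+* F)] V) (hf : Function.Injective f) (y : ℙ F V)
    (U : Submodule F V) : Projectivization.map f hf y ∈ pts U ↔ f y.rep ∈ U := by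
  have h0 : f y.rep ≠ 0 := fun h => y.rep_nonzero (hf (h.trans (map_zero f).symm))
  have e : Projectivization.map f hf y = mk F (f y.rep) h0 := by
    conv_lhs => rw [← y.mk_rep]
    rfl
  rw [e, mk_mem_pts]

theorem pts_one {U : Submodule F V} (hk : finrank F U = 1) : (pts U).ncard = 1 := by
  have h := card_pts' hk
  have hq : 1 < Nat.card F := Finite.one_lt_card
  obtain ⟨q, hq⟩ : ∃ q, Nat.card F = q + 2 := ⟨Nat.card F - 2, by omega⟩
  rw [hq, show q + 2 - 1 = q + 1 by omega] at h
  nlinarith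

theorem pts_two {U : Submodule F V} (hk : finrank F U = 2) : (pts U).ncard = Nat.card F + 1 := by
  have h := card_pts' hk
  have hq : 1 < Nat.card F := Finite.one_lt_card
  obtain ⟨q, hq⟩ : ∃ q, Nat.card F = q + 2 := ⟨Nat.card F - 2, by omega⟩
  rw [hq, show q + 2 - 1 = q + 1 by omega] at h
  rw [hq]
  have : ((pts U).ncard : ℤ) = q + 2 + 1 := by
    have h' : ((q : ℤ) + 2) ^ 2 = (pts U).ncard * (q + 1) + 1 := by exact_mod_cast h
    have : ((q : ℤ) + 1) ≠ 0 := by positivity
    apply mul_right_cancel₀ this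
    linarith
  exact_mod_cast this

/-- the semilinear preimage of a hyperplane meets a line in `1` or `q+1` points -/
theorem dvd_diff {σ : F ≃+* F} (f : V →ₛₗ[(σ : F →+* F)] V) (ph : V →ₗ[F] F) {W : Submodule F V}
    (hW : finrank F W = 2) :
    Nat.card F ∣ ({y | y ∈ pts W ∧ ph (f y.rep) ≠ 0} : Set (ℙ F V)).ncard := by
  let U : Submodule F V :=
    { carrier := {w | w ∈ W ∧ ph (f w) = 0}
      add_mem' := by
        rintro a b ⟨ha, ha'⟩ ⟨hb, hb'⟩
        exact ⟨W.add_mem ha hb, by rw [map_add, map_add, ha', hb', add_zero]⟩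
      zero_mem' := ⟨W.zero_mem, by simp⟩
      smul_mem' := by
        rintro c x ⟨hx, hx'⟩
        exact ⟨W.smul_mem c hx, by rw [LinearMap.map_smulₛₗ, map_smul, hx', smul_zero]⟩ }
  have hUW : U ≤ W := fun w hw => hw.1
  have hmem : ∀ w, w ∈ U ↔ w ∈ W ∧ ph (f w) = 0 := fun w => Iff.rfl
  have hne : U ≠ ⊥ := by
    obtain ⟨b⟩ : Nonempty (Basis (Fin 2) F W) := ⟨Module.finBasisOfFinrankEq F W hW⟩
    rw [Submodule.ne_bot_iff]
    by_cases hα : ph (f (b 0)) = 0
    · refine ⟨b 0, ⟨(b 0).2, hα⟩, ?_⟩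
      intro h
      exact b.ne_zero 0 (Subtype.ext h)
    · have hc : ∃ c : F, σ c * ph (f (b 0)) = ph (f (b 1)) := by
        refine ⟨σ.symm (ph (f (b 1)) / ph (f (b 0))), ?_⟩
        rw [RingEquiv.apply_symm_apply, div_mul_cancel₀ _ hα]
      obtain ⟨c, hc⟩ := hc
      refine ⟨(b 1 : V) - c • (b 0 : V), ⟨W.sub_mem (b 1).2 (W.smul_mem c (b 0).2), ?_⟩, ?_⟩
      · rw [map_sub, map_sub, LinearMap.map_smulₛₗ, map_smul, smul_eq_mul]
        change ph (f (b 1)) - σ c * _ = 0
        rw [hc, sub_self]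
      · intro h
        have h1 : b 1 - c • b 0 = 0 := Subtype.ext h
        have h2 := congrArg (fun w => b.repr w 1) h1
        simp at h2
  have hfin : FiniteDimensional F V := inferInstance
  have h1 : 1 ≤ finrank F U := by
    rw [Nat.one_le_iff_ne_zero]
    intro h
    exact hne (Submodule.finrank_eq_zero.1 h)
  have h2 : finrank F U ≤ 2 := hW ▸ Submodule.finrank_mono hUW
  have hset : ({y | y ∈ pts W ∧ ph (f y.rep) ≠ 0} : Set (ℙ F V)) = pts W \ pts U := by
    ext y
    simp only [Set.mem_ofPred_eq, Set.mem_sdiff]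
    constructor
    · rintro ⟨h3, h4⟩
      exact ⟨h3, fun h5 => h4 ((hmem _).1 h5).2⟩
    · rintro ⟨h3, h4⟩
      exact ⟨h3, fun h5 => h4 ((hmem _).2 ⟨h3, h5⟩)⟩
  have hsub : pts U ⊆ pts W := fun y hy => hUW hy
  rw [hset, Set.ncard_sdiff hsub, pts_two hW]
  rcases (show finrank F U = 1 ∨ finrank F U = 2 by omega) with h3 | h3
  · rw [pts_one h3]; simp
  · rw [pts_two h3]; simp

theorem s2531 (n : ℕ) (hn : 3 ≤ n) (S : Set (Equiv.Perm (ℙ F (Fin n → F))))
    (hS : ∀ s ∈ S, ∃ (σ : F ≃+* F) (f : (Fin n → F) →ₛₗ[(σ : F →+* F)] (Fin n → F)) (hf : Function.Injective f),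
      ∀ x, s x = Projectivization.map f hf x) :
    ¬ (∀ a b c d : ℙ F (Fin n → F), a ≠ b → c ≠ d →
        ∃! s, s ∈ S ∧ s a = c ∧ s b = d) := by
  intro h2
  classical
  have := Fintype.ofFinite F
  have : Fintype (ℙ F (Fin n → F)) := Fintype.ofFinite _
  let i0 : Fin n := ⟨0, by omega⟩
  let i1 : Fin n := ⟨1, by omega⟩
  let i2 : Fin n := ⟨2, by omega⟩
  have h01 : i0 ≠ i1 := by intro h; simp [i0, i1] at h
  have h02 : i0 ≠ i2 := by intro h; simp [i0, i2] at h
  have h12 : i1 ≠ i2 := by intro h; simp [i1, i2] at h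
  let ph : (Fin n → F) →ₗ[F] F := LinearMap.proj i0
  let e0 : Fin n → F := Pi.single i0 1
  have he0 : e0 ≠ 0 := by
    intro h; have := congrFun h i0; simp [e0] at this
  let P : ℙ F (Fin n → F) := mk F e0 he0
  let W : Submodule F (Fin n → F) := Submodule.span F (Set.range ![Pi.single i1 1, Pi.single i2 1])
  have hWr : finrank F W = 2 := by
    have hli : LinearIndependent F ![(Pi.single i1 1 : Fin n → F), Pi.single i2 1] := by
      rw [LinearIndependent.pair_iff]
      intro s t hst
      have h1 := congrFun hst i1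
      have h2 := congrFun hst i2
      simp [h12, h12.symm] at h1 h2
      exact ⟨h1, h2⟩
    rw [finrank_span_eq_card hli]; simp
  have hW0 : ∀ w ∈ W, w i0 = 0 := by
    intro w hw
    have : W ≤ LinearMap.ker ph := by
      rw [Submodule.span_le]
      rintro _ ⟨j, rfl⟩
      fin_cases j
      · simp [ph, h01]
      · simp [ph, h02]
    exact this hw
  let M : Submodule F (Fin n → F) := LinearMap.ker ph
  have hPW : P ∉ pts W := by
    rw [mk_mem_pts]
    intro h
    have := hW0 _ h
    simp [e0] at this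
  -- the set `Y`
  let Y : Finset (ℙ F (Fin n → F)) := Finset.univ.filter (fun z => z ∉ pts M ∧ z ≠ P)
  let X : Finset (ℙ F (Fin n → F)) := Finset.univ.filter (fun y => y ∈ pts W)
  have hXc : X.card = Nat.card F + 1 := by
    rw [← pts_two hWr, ← Set.ncard_coe_finset]
    congr 1
    ext y; simp [X]
  have hYc : Y.card + 1 = Nat.card F ^ (n - 1) := by
    have h3 : finrank F M = n - 1 := by
      have h4 := LinearMap.finrank_range_add_finrank_ker ph
      have h5 : LinearMap.range ph = ⊤ := LinearMap.range_eq_top.2 (fun c => ⟨Pi.single i0 c, by simp [ph]⟩)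
      rw [h5, finrank_top, finrank_self, Module.finrank_fin_fun] at h4
      change finrank F (LinearMap.ker ph) = n - 1
      omega
    have h4 := card_pts' h3
    have h5 := card_pts' (F := F) (V := Fin n → F) (U := ⊤) (k := n) (by rw [finrank_top, Module.finrank_fin_fun])
    have h6 : (pts (⊤ : Submodule F (Fin n → F))).ncard = Fintype.card (ℙ F (Fin n → F)) := by
      rw [← Nat.card_eq_fintype_card, ← Set.ncard_univ]
      congr 1
    rw [h6] at h5
    have hPM : P ∉ pts M := by
      rw [mk_mem_pts]; simp [M, ph, e0]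
    have h7 : (Finset.univ.filter (fun z => z ∉ pts M)).card + (pts M).ncard = Fintype.card (ℙ F (Fin n → F)) := by
      rw [← Finset.card_univ, ← Finset.card_filter_add_card_filter_not (s := Finset.univ) (p := fun z => z ∉ pts M)]
      congr 1
      rw [← Set.ncard_coe_finset]
      congr 1
      ext z; simp
    have h8 : Y = (Finset.univ.filter (fun z => z ∉ pts M)).erase P := by
      ext z; simp [Y, and_comm]
    have h9 : Y.card + 1 = (Finset.univ.filter (fun z => z ∉ pts M)).card := by
      rw [h8, Finset.card_erase_add_one (by simp [hPM])]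
    rw [h9]
    have hq : 1 < Nat.card F := Finite.one_lt_card
    obtain ⟨q, hq⟩ : ∃ q, Nat.card F = q + 2 := ⟨Nat.card F - 2, by omega⟩
    rw [← h7] at h5
    obtain ⟨k, rfl⟩ : ∃ k, n = k + 1 := ⟨n - 1, by omega⟩
    rw [show k + 1 - 1 = k by omega] at h4 ⊢
    rw [hq, show q + 2 - 1 = q + 1 by omega] at h4 h5
    rw [hq]
    rw [pow_succ, h4, add_mul] at h5
    have h10 : ((Finset.univ.filter (fun z => z ∉ pts M)).card) * (q + 1) = (q + 2) ^ k * (q + 1) := by
      rw [h4]; nlinarith
    exact Nat.eq_of_mul_eq_mul_right (by omega) h10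
  -- the map to S
  have hne1 : ∀ y ∈ X, P ≠ y := by
    intro y hy h
    subst h
    exact hPW (by simpa [X] using hy)
  have hne2 : ∀ z ∈ Y, P ≠ z := by
    intro z hz h
    subst h
    simp [Y] at hz
  choose! T hT using h2
  have hTm : ∀ y ∈ X, ∀ z ∈ Y, T P y P z ∈ S ∧ T P y P z P = P ∧ T P y P z y = z ∧
      ∀ s, s ∈ S → s P = P → s y = z → s = T P y P z := by
    intro y hy z hz
    obtain ⟨⟨h3, h4, h5⟩, h6⟩ := hT P y P z (hne1 y hy) (hne2 z hz)
    exact ⟨h3, h4, h5, fun s h7 h8 h9 => h6 s ⟨h7, h8, h9⟩⟩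
  have hcount : (X ×ˢ Y).card = ∑ s : Equiv.Perm (ℙ F (Fin n → F)),
      ((X ×ˢ Y).filter (fun yz => T P yz.1 P yz.2 = s)).card :=
    Finset.card_eq_sum_card_fiberwise (fun _ _ => Finset.mem_coe.2 (Finset.mem_univ _))
  have hdvd : Nat.card F ∣ (X ×ˢ Y).card := by
    rw [hcount]
    refine Finset.dvd_sum (fun s _ => ?_)
    by_cases hs : s ∈ S ∧ s P = P
    · obtain ⟨σ, f, hf, hsf⟩ := hS s hs.1
      have h3 := dvd_diff f ph hWr
      have h4 : ((X ×ˢ Y).filter (fun yz => T P yz.1 P yz.2 = s)).card =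
          ({y | y ∈ pts W ∧ ph (f y.rep) ≠ 0} : Set (ℙ F (Fin n → F))).ncard := by
        rw [← Set.ncard_coe_finset]
        refine Set.ncard_congr (fun yz _ => yz.1) ?_ ?_ ?_
        · rintro ⟨y, z⟩ hyz
          simp only [Finset.coe_filter, Finset.mem_product, Set.mem_ofPred_eq] at hyz
          obtain ⟨⟨hy, hz⟩, he⟩ := hyz
          have hT' := hTm y hy z hz
          rw [he] at hT'
          refine ⟨by simpa [X] using hy, ?_⟩
          have hz' : s y ∉ pts M := by rw [hT'.2.2.1]; simp only [Y, Finset.mem_filter] at hz; exact hz.2.1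
          intro h0
          apply hz'
          rw [hsf y, map_mem_pts]
          exact h0
        · rintro ⟨y, z⟩ ⟨y', z'⟩ hyz hyz' h5
          simp only [Finset.coe_filter, Finset.mem_product, Set.mem_ofPred_eq] at hyz hyz' h5
          obtain ⟨⟨hy, hz⟩, he⟩ := hyz
          obtain ⟨⟨hy', hz'⟩, he'⟩ := hyz'
          subst h5
          have h6 := (hTm y hy z hz).2.2.1
          have h7 := (hTm y hy' z' hz').2.2.1
          rw [he] at h6
          rw [he'] at h7
          rw [← h6, ← h7]
        · rintro y ⟨hy, hy2⟩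
          have hyX : y ∈ X := by simpa [X] using hy
          have hsy : s y ∈ Y := by
            simp only [Y, Finset.mem_filter, Finset.mem_univ, true_and]
            constructor
            · rw [hsf y, map_mem_pts]
              exact hy2
            · intro h5
              rw [← hs.2] at h5
              exact hne1 y hyX (s.injective h5).symm
          refine ⟨(y, s y), ?_, rfl⟩
          simp only [Finset.coe_filter, Finset.mem_product, Set.mem_ofPred_eq]
          exact ⟨⟨hyX, hsy⟩, ((hTm y hyX _ hsy).2.2.2 s hs.1 hs.2 rfl).symm⟩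
      rw [h4]; exact h3
    · have h4 : (X ×ˢ Y).filter (fun yz => T P yz.1 P yz.2 = s) = ∅ := by
        rw [Finset.filter_eq_empty_iff]
        rintro ⟨y, z⟩ hyz he
        rw [Finset.mem_product] at hyz
        have hT' := hTm y hyz.1 z hyz.2
        simp only at he
        rw [he] at hT'
        exact hs ⟨hT'.1, hT'.2.1⟩
      rw [h4]; simp
  rw [Finset.card_product, hXc] at hdvd
  have hq : 1 < Nat.card F := Finite.one_lt_card
  have h3 : Nat.card F ∣ Y.card + 1 := by
    rw [hYc]
    exact dvd_pow_self _ (by omega)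
  have h4 : Nat.card F ∣ (Nat.card F + 1) * Y.card + 1 := by
    have : (Nat.card F + 1) * Y.card + 1 = Nat.card F * Y.card + (Y.card + 1) := by ring
    rw [this]
    exact dvd_add (dvd_mul_right _ _) h3
  have h5 := (Nat.dvd_add_right hdvd).1 h4
  have := Nat.le_of_dvd one_pos h5
  omega

end CfsgLib.PSharp
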