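import Cfsg.Agent.LibQ29d
import Cfsg.Agent.LibDec29b

/-! Pairs of complementary totally isotropic subspaces of a unitary space (seat helper29). -/

namespace CfsgLib.PU29

open Module Cfsg CfsgLib.Semi29 CfsgLib.Dec29

variable {n : ℕ} {F : Type*} [Field F] {σ : F ≃+* F} {f : (Fin n → F) → (Fin n → F) → F}

/-- complementary totally isotropic subspaces -/
structure Pr (f : (Fin n → F) → (Fin n → F) → F) (m : ℕ) (U W : Submodule F (Fin n → F)) : Prop where
  inf : U ⊓ W = ⊥
  sup : U ⊔ W = ⊤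
  dU : finrank F U = m
  dW : finrank F W = m
  tU : ∀ u ∈ U, ∀ v ∈ U, f u v = 0
  tW : ∀ u ∈ W, ∀ v ∈ W, f u v = 0

lemma Pr.symm {m : ℕ} {U W : Submodule F (Fin n → F)} (h : Pr f m U W) : Pr f m W U :=
  ⟨by rw [inf_comm]; exact h.inf, by rw [sup_comm]; exact h.sup, h.dW, h.dU, h.tW, h.tU⟩

lemma sub_left (hf : Geo.IsUnitaryForm σ f) (x y v : Fin n → F) : f (x - y) v = f x v - f y v := CfsgLib.Un29.sub_left hf x y v

lemma add_right (hf : Geo.IsUnitaryForm σ f) (u x y : Fin n → F) : f u (x + y) = f u x + f u y := by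
  rw [hf.herm u (x + y), hf.add_left, map_add, ← hf.herm, ← hf.herm]

lemma sub_right (hf : Geo.IsUnitaryForm σ f) (u x y : Fin n → F) : f u (x - y) = f u x - f u y := by
  rw [hf.herm u (x - y), sub_left hf, map_sub, ← hf.herm, ← hf.herm]

lemma smul_right (hf : Geo.IsUnitaryForm σ f) (u : Fin n → F) (c : F) (x : Fin n → F) : f u (c • x) = σ c * f u x := by
  rw [hf.herm u (c • x), hf.smul_left, map_mul, ← hf.herm]

lemma zero_of (hf : Geo.IsUnitaryForm σ f) {m : ℕ} {U W : Submodule F (Fin n → F)} (h : Pr f m U W) {w : Fin n → F} (hw : w ∈ W)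
    (h0 : ∀ u ∈ U, f w u = 0) : w = 0 := by
  by_contra hne
  obtain ⟨y, hy⟩ := (hf.nondegenerate w hne).2
  apply hy
  obtain ⟨u, hu, v, hv, rfl⟩ := Submodule.mem_sup.1 (by rw [h.sup]; trivial : y ∈ U ⊔ W)
  rw [add_right hf, h0 u hu, h.tW w hw v hv, add_zero]

/-- the linear map `w ↦ (f w (c k))_k` -/
def ev (hf : Geo.IsUnitaryForm σ f) {κ : Type*} (c : κ → Fin n → F) : (Fin n → F) →ₗ[F] (κ → F) where
  toFun w k := f w (c k)
  map_add' x y := funext fun k => hf.add_left x y (c k)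
  map_smul' a x := funext fun k => hf.smul_left a x (c k)

lemma fix_le (hf : Geo.IsUnitaryForm σ f) {m : ℕ} {U W : Submodule F (Fin n → F)} (h : Pr f m U W) (x : (Fin n → F) →ₗ[F] (Fin n → F))
    (hx : ∀ u v, f (x u) (x v) = f u v) (hinj : Function.Injective x) (hU : Inv x U) (hW : Inv x W) :
    finrank F (U ⊓ Fx x : Submodule F (Fin n → F)) ≤ finrank F (W ⊓ Fx x : Submodule F (Fin n → F)) := by
  classical
  let g : U →ₗ[F] (Fin n → F) := (x - LinearMap.id) ∘ₗ U.subtype
  have hg : ∀ u : U, g u = x u - u := fun u => rfl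
  have hker : finrank F (LinearMap.ker g) = finrank F (U ⊓ Fx x : Submodule F (Fin n → F)) := by
    have e1 : (LinearMap.ker g).map U.subtype = U ⊓ Fx x := by
      apply le_antisymm
      · rintro _ ⟨u, hu, rfl⟩
        refine ⟨u.2, mem_Fx.2 ?_⟩
        have h1 : x (u : Fin n → F) - u = 0 := LinearMap.mem_ker.1 hu
        exact sub_eq_zero.1 h1
      · rintro u ⟨hu, hux⟩
        refine ⟨⟨u, hu⟩, ?_, rfl⟩
        show x u - u = 0
        rw [mem_Fx.1 hux, sub_self]
    rw [← e1]
    exact (Submodule.equivMapOfInjective U.subtype U.subtype_injective (LinearMap.ker g)).finrank_eq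
  have hrn := LinearMap.finrank_range_add_finrank_ker g
  rw [hker, h.dU] at hrn
  obtain ⟨ρ, hρ⟩ : ∃ ρ, ρ = finrank F (LinearMap.range g) := ⟨_, rfl⟩
  let c : Basis (Fin (finrank F (LinearMap.range g))) F (LinearMap.range g) := finBasis F _
  let Θ : W →ₗ[F] (Fin (finrank F (LinearMap.range g)) → F) := (ev hf (fun k => (c k : Fin n → F))) ∘ₗ W.subtype
  have h1 := LinearMap.finrank_range_add_finrank_ker Θ
  have h2 : finrank F (LinearMap.range Θ) ≤ finrank F (LinearMap.range g) := by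
    refine (Submodule.finrank_le _).trans ?_
    rw [Module.finrank_fin_fun]
  rw [h.dW] at h1
  have h3 : (LinearMap.ker Θ).map W.subtype ≤ W ⊓ Fx x := by
    rintro _ ⟨w, hw, rfl⟩
    refine ⟨w.2, ?_⟩
    have h4 : ∀ u : U, f (w : Fin n → F) (g u) = 0 := by
      intro u
      have h5 : g u ∈ Submodule.span F (Set.range fun k => (c k : Fin n → F)) := by
        have h6 : (⟨g u, ⟨u, rfl⟩⟩ : LinearMap.range g) ∈ Submodule.span F (Set.range c) := by rw [c.span_eq]; trivial
        have h7 := Submodule.mem_map_of_mem (f := (LinearMap.range g).subtype) h6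
        rw [Submodule.map_span, ← Set.range_comp] at h7
        exact h7
      refine Submodule.span_induction (p := fun y _ => f (w : Fin n → F) y = 0) ?_ ?_ ?_ ?_ h5
      · rintro _ ⟨k, rfl⟩
        exact congrFun (LinearMap.mem_ker.1 hw) k
      · rw [← zero_smul F (0 : Fin n → F), smul_right hf, map_zero, zero_mul]
      · intro a b _ _ ha hb
        rw [add_right hf, ha, hb, add_zero]
      · intro a b _ hb
        rw [smul_right hf, hb, mul_zero]
    -- surjectivity of `x` on `W`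
    obtain ⟨v, hv, hvw⟩ : ∃ v ∈ W, x v = w := by
      have h8 : (W.map x) = W := Submodule.eq_of_le_of_finrank_eq (by
        rintro _ ⟨y, hy, rfl⟩
        exact hW y hy) (by rw [← (Submodule.equivMapOfInjective x hinj W).finrank_eq])
      have h9 : (w : Fin n → F) ∈ W.map x := by rw [h8]; exact w.2
      obtain ⟨v, hv, hvw⟩ := h9
      exact ⟨v, hv, hvw⟩
    have h10 : x v - v = 0 := by
      refine zero_of hf h (W.sub_mem (hW v hv) hv) fun u hu => ?_
      have h11 := h4 ⟨u, hu⟩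
      rw [hg] at h11
      have h12 : f (w : Fin n → F) (x u - u) = 0 := h11
      rw [sub_right hf, ← hvw, hx, sub_eq_zero] at h12
      rw [sub_left hf, ← h12, sub_self]
    refine mem_Fx.2 ?_
    have h13 : x v = v := sub_eq_zero.1 h10
    have h14 : (w : Fin n → F) = v := by rw [← hvw, h13]
    have h15 : x (w : Fin n → F) = w := by rw [h14]; exact h13
    exact h15
  have h4 := Submodule.finrank_mono h3
  have h5 : finrank F ((LinearMap.ker Θ).map W.subtype) = finrank F (LinearMap.ker Θ) :=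
    (Submodule.equivMapOfInjective W.subtype W.subtype_injective (LinearMap.ker Θ)).finrank_eq.symm
  omega

/-- parity of the fixed space -/
theorem even_fix (hf : Geo.IsUnitaryForm σ f) {m : ℕ} {U W : Submodule F (Fin n → F)} (h : Pr f m U W) (x : (Fin n → F) →ₗ[F] (Fin n → F))
    (hx : ∀ u v, f (x u) (x v) = f u v) (hinj : Function.Injective x) (hU : Inv x U) (hW : Inv x W) : Even (finrank F (Fx x)) := by
  have h1 := e_add hU hW h.inf
  rw [h.sup, top_inf_eq] at h1
  have h2 := fix_le hf h x hx hinj hU hW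
  have h3 := fix_le hf h.symm x hx hinj hW hU
  exact ⟨finrank F (U ⊓ Fx x : Submodule F (Fin n → F)), by omega⟩

/-- swapping -/
theorem fix_swap {m : ℕ} {U W : Submodule F (Fin n → F)} (h : Pr f m U W) (x : (Fin n → F) →ₗ[F] (Fin n → F))
    (hU : ∀ u ∈ U, x u ∈ W) : finrank F (Fx x) + m ≤ n := by
  have h1 : Fx x ⊓ U = ⊥ := by
    rw [eq_bot_iff, ← h.inf]
    rintro u ⟨hu, huU⟩
    refine ⟨huU, ?_⟩
    have := hU u huU
    rwa [mem_Fx.1 hu] at this
  have h2 := finrank_add h1 rfl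
  have h3 := Submodule.finrank_le (Fx x ⊔ U)
  rw [Module.finrank_fin_fun] at h3
  rw [h.dU] at h2
  omega

/-- from a decomposition -/
lemma pr_of (hn : n = 2 * (n / 2)) {D : Fin 2 → Submodule F (Fin n → F)} (hD : Geo.IsMDecomposition (n / 2) D)
    (hDs : ∀ i, ∀ u ∈ D i, ∀ v ∈ D i, f u v = 0) : Pr f (n / 2) (D 0) (D 1) := by
  have h1 : D 0 ⊓ D 1 = ⊥ := (hD.indep.pairwiseDisjoint (show (0 : Fin 2) ≠ 1 by decide)).eq_bot
  refine ⟨h1, ?_, hD.finrank_eq 0, hD.finrank_eq 1, hDs 0, hDs 1⟩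
  rw [eq_top_iff, ← hD.iSup_eq_top]
  refine iSup_le fun i => ?_
  fin_cases i
  · exact le_sup_left
  · exact le_sup_right

/-- dichotomy for permutations of two summands -/
lemma perm_cases {D : Fin 2 → Submodule F (Fin n → F)} (x : (Fin n → F) →ₗ[F] (Fin n → F)) (τ : Equiv.Perm (Fin 2)) (h : ∀ j, (D j).map x = D (τ j)) :
    (Inv x (D 0) ∧ Inv x (D 1)) ∨ ((∀ u ∈ D 0, x u ∈ D 1) ∧ (∀ u ∈ D 1, x u ∈ D 0)) := by
  have h0 : ∀ j, ∀ u ∈ D j, x u ∈ D (τ j) := fun j u hu => by rw [← h]; exact ⟨u, hu, rfl⟩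
  have hτ : ∀ i : Fin 2, i = 0 ∨ i = 1 := by decide
  rcases hτ (τ 0) with h1 | h1
  · left
    have h2 : τ 1 = 1 := by
      rcases hτ (τ 1) with h2 | h2
      · exact absurd (τ.injective (h1.trans h2.symm)) (by decide)
      · exact h2
    refine ⟨fun u hu => ?_, fun u hu => ?_⟩
    · have := h0 0 u hu; rwa [h1] at this
    · have := h0 1 u hu; rwa [h2] at this
  · right
    have h2 : τ 1 = 0 := by
      rcases hτ (τ 1) with h2 | h2
      · exact h2
      · exact absurd (τ.injective (h1.trans h2.symm)) (by decide)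
    refine ⟨fun u hu => ?_, fun u hu => ?_⟩
    · have := h0 0 u hu; rwa [h1] at this
    · have := h0 1 u hu; rwa [h2] at this

end CfsgLib.PU29
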