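import Cfsg.Agent.LibSp29a
import Cfsg.Agent.LibH22SpOrder

/-! The index of symplectic similarity groups in the special linear group (seat helper29). -/

namespace CfsgLib.Sp29

open Module CfsgLib.Invo29 CfsgLib.Semi29

variable {F : Type*} [Field F]

def sumEquiv {ι : Type} {m : ℕ} (σ : ι ≃ Fin m) : ι × Fin 2 ≃ Fin m ⊕ Fin m where
  toFun p := if p.2 = 0 then Sum.inr (σ p.1) else Sum.inl (σ p.1)
  invFun := Sum.elim (fun i => (σ.symm i, 1)) (fun i => (σ.symm i, 0))
  left_inv := by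
    rintro ⟨i, k⟩
    fin_cases k <;> simp
  right_inv := by
    rintro (i | i) <;> simp

lemma exists_J {n m : ℕ} (hn : n = 2 * m) (f : (Fin n → F) →ₗ[F] (Fin n → F) →ₗ[F] F) (halt : ∀ v, f v v = 0) (hND : NDon f ⊤) :
    ∃ e : Basis (Fin m ⊕ Fin m) F (Fin n → F), ∀ i j, f (e i) (e j) = Matrix.J (Fin m) F i j := by
  classical
  obtain ⟨ι, _, b, h1, h2⟩ := exists_hyp f halt hND
  have hc : Fintype.card ι = m := by
    have h3 := finrank_eq_card_basis b
    rw [Module.finrank_fin_fun, Fintype.card_prod, Fintype.card_fin] at h3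
    omega
  let σ : ι ≃ Fin m := Fintype.equivFinOfCardEq hc
  refine ⟨b.reindex (sumEquiv σ), ?_⟩
  have hl : ∀ i, b.reindex (sumEquiv σ) (Sum.inl i) = b (σ.symm i, 1) := fun i => by
    rw [Basis.reindex_apply]; rfl
  have hr : ∀ i, b.reindex (sumEquiv σ) (Sum.inr i) = b (σ.symm i, 0) := fun i => by
    rw [Basis.reindex_apply]; rfl
  have hself : ∀ v, f v v = 0 := halt
  rintro (i | i) (j | j)
  · rw [hl, hl]
    simp only [Matrix.J, Matrix.fromBlocks_apply₁₁, Matrix.zero_apply]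
    by_cases hij : i = j
    · rw [hij]; exact halt _
    · exact h2 _ _ (fun h => hij (σ.symm.injective h)) _ _
  · rw [hl, hr]
    simp only [Matrix.J, Matrix.fromBlocks_apply₁₂, Matrix.neg_apply]
    by_cases hij : i = j
    · rw [hij, Matrix.one_apply_eq, skew_of_alt f halt, h1]
    · rw [Matrix.one_apply_ne hij, neg_zero]
      exact h2 _ _ (fun h => hij (σ.symm.injective h)) _ _
  · rw [hr, hl]
    simp only [Matrix.J, Matrix.fromBlocks_apply₂₁]
    by_cases hij : i = j
    · rw [hij, Matrix.one_apply_eq, h1]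
    · rw [Matrix.one_apply_ne hij]
      exact h2 _ _ (fun h => hij (σ.symm.injective h)) _ _
  · rw [hr, hr]
    simp only [Matrix.J, Matrix.fromBlocks_apply₂₂, Matrix.zero_apply]
    by_cases hij : i = j
    · rw [hij]; exact halt _
    · exact h2 _ _ (fun h => hij (σ.symm.injective h)) _ _

theorem card_sp_dvd {n m : ℕ} (hn : n = 2 * m) (f : (Fin n → F) →ₗ[F] (Fin n → F) →ₗ[F] F) (halt : ∀ v, f v v = 0) (hND : NDon f ⊤)
    (H : Subgroup (Matrix.SpecialLinearGroup (Fin n) F))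
    (hH : ∀ x : Matrix.SpecialLinearGroup (Fin n) F,
      (∀ u v, f (Matrix.toLin' (x : Matrix (Fin n) (Fin n) F) u) (Matrix.toLin' (x : Matrix (Fin n) (Fin n) F) v) = f u v) → x ∈ H) :
    Nat.card (Matrix.symplecticGroup (Fin m) F) ∣ Nat.card H := by
  classical
  obtain ⟨e, he⟩ := exists_J hn f halt hND
  let Φ : Matrix.symplecticGroup (Fin m) F →* Matrix.SpecialLinearGroup (Fin n) F :=
    { toFun := fun A => ⟨LinearMap.toMatrix' (Matrix.toLin e e (A : Matrix (Fin m ⊕ Fin m) (Fin m ⊕ Fin m) F)), by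
        rw [LinearMap.det_toMatrix', LinearMap.det_toLin]
        exact SymplecticGroup.det_eq_one A.2⟩
      map_one' := by
        apply Subtype.ext
        show LinearMap.toMatrix' (Matrix.toLin e e (1 : Matrix (Fin m ⊕ Fin m) (Fin m ⊕ Fin m) F)) = 1
        rw [Matrix.toLin_one, LinearMap.toMatrix'_id]
      map_mul' := by
        intro A B
        apply Subtype.ext
        show LinearMap.toMatrix' (Matrix.toLin e e ((A : Matrix (Fin m ⊕ Fin m) (Fin m ⊕ Fin m) F) * B)) = _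
        rw [Matrix.toLin_mul e e e, LinearMap.toMatrix'_comp]
        rfl }
  have hΦ : ∀ A, Φ A ∈ H := by
    intro A
    apply hH
    have hA : (A : Matrix (Fin m ⊕ Fin m) (Fin m ⊕ Fin m) F).transpose * Matrix.J (Fin m) F * A = Matrix.J (Fin m) F :=
      SymplecticGroup.mem_iff'.1 A.2
    have hT : Matrix.toLin' ((Φ A : Matrix.SpecialLinearGroup (Fin n) F) : Matrix (Fin n) (Fin n) F) =
        Matrix.toLin e e (A : Matrix (Fin m ⊕ Fin m) (Fin m ⊕ Fin m) F) := by
      show Matrix.toLin' (LinearMap.toMatrix' _) = _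
      rw [Matrix.toLin'_toMatrix']
    rw [hT]
    have hg : f.compl₁₂ (Matrix.toLin e e (A : Matrix (Fin m ⊕ Fin m) (Fin m ⊕ Fin m) F))
        (Matrix.toLin e e (A : Matrix (Fin m ⊕ Fin m) (Fin m ⊕ Fin m) F)) = f := by
      refine LinearMap.ext_basis e e fun i j => ?_
      rw [LinearMap.compl₁₂_apply, Matrix.toLin_self, Matrix.toLin_self, he, ← hA]
      simp only [map_sum, LinearMap.sum_apply, map_smul, LinearMap.smul_apply, he, smul_eq_mul, Matrix.mul_apply, Matrix.transpose_apply]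
      refine Finset.sum_congr rfl fun l _ => ?_
      rw [mul_comm]
    intro u v
    exact LinearMap.congr_fun (LinearMap.congr_fun hg u) v
  have hinj : Function.Injective Φ := by
    intro A B h
    have h1 : LinearMap.toMatrix' (Matrix.toLin e e (A : Matrix (Fin m ⊕ Fin m) (Fin m ⊕ Fin m) F)) =
        LinearMap.toMatrix' (Matrix.toLin e e (B : Matrix (Fin m ⊕ Fin m) (Fin m ⊕ Fin m) F)) := congrArg Subtype.val h
    exact Subtype.ext ((Matrix.toLin e e).injective (LinearMap.toMatrix'.injective h1))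
  exact Subgroup.card_dvd_of_injective (Φ.codRestrict H hΦ) (fun A B h => hinj (congrArg Subtype.val h))

lemma prod_pairs (g : ℕ → ℕ) (m : ℕ) : ∏ j ∈ Finset.range (2 * m), g j = (∏ i ∈ Finset.range m, g (2 * i)) * ∏ i ∈ Finset.range m, g (2 * i + 1) := by
  induction m with
  | zero => simp
  | succ m ih =>
    rw [show 2 * (m + 1) = 2 * m + 1 + 1 by ring, Finset.prod_range_succ, Finset.prod_range_succ, ih, Finset.prod_range_succ, Finset.prod_range_succ]
    ring

theorem of_dvd_index [Fintype F] {p : ℕ} [Fact p.Prime] [CharP F p] {n m : ℕ} (hn : n = 2 * m) (f : (Fin n → F) →ₗ[F] (Fin n → F) →ₗ[F] F)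
    (halt : ∀ v, f v v = 0) (hND : NDon f ⊤) (H : Subgroup (Matrix.SpecialLinearGroup (Fin n) F))
    (hH : ∀ x : Matrix.SpecialLinearGroup (Fin n) F,
      (∀ u v, f (Matrix.toLin' (x : Matrix (Fin n) (Fin n) F) u) (Matrix.toLin' (x : Matrix (Fin n) (Fin n) F) v) = f u v) → x ∈ H)
    (r : ℕ) (hr : r.Prime) (hdvd : r ∣ H.index) : r = p ∨ ∃ i < m, r ∣ Fintype.card F ^ (2 * i + 1) - 1 := by
  classical
  obtain ⟨q, hq⟩ : ∃ q, q = Fintype.card F := ⟨_, rfl⟩
  have hq0 : 1 < q := by rw [hq]; exact Fintype.one_lt_card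
  have h1 := card_sp_dvd hn f halt hND H hH
  have h2 : r * Nat.card (Matrix.symplecticGroup (Fin m) F) ∣ Nat.card (GL (Fin n) F) := by
    have h3 : Nat.card (Matrix.SpecialLinearGroup (Fin n) F) ∣ Nat.card (GL (Fin n) F) :=
      Subgroup.card_dvd_of_injective (Matrix.SpecialLinearGroup.toGL) Matrix.SpecialLinearGroup.toGL_injective
    refine Dvd.dvd.trans ?_ h3
    rw [← H.card_mul_index, mul_comm]
    exact mul_dvd_mul h1 hdvd
  rw [Cfsg.Agent.H22.card_sp, Matrix.card_GL_field, ← hq] at h2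
  have h4 : ∏ i : Fin n, (q ^ n - q ^ (i : ℕ)) = (∏ i ∈ Finset.range n, q ^ i) *
      ((∏ i ∈ Finset.range m, (q ^ (2 * i + 1) - 1)) * ∏ i ∈ Finset.range m, (q ^ (2 * (i + 1)) - 1)) := by
    rw [Fin.prod_univ_eq_prod_range (fun i => q ^ n - q ^ i) n]
    have h5 : ∏ i ∈ Finset.range n, (q ^ n - q ^ i) = (∏ i ∈ Finset.range n, q ^ i) * ∏ i ∈ Finset.range n, (q ^ (n - 1 - i + 1) - 1) := by
      rw [← Finset.prod_mul_distrib]
      refine Finset.prod_congr rfl fun i hi => ?_
      rw [Finset.mem_range] at hi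
      rw [Nat.mul_sub, ← pow_add, mul_one]
      congr 2
      omega
    rw [h5, Finset.prod_range_reflect (fun i => q ^ (i + 1) - 1) n, hn, prod_pairs (fun i => q ^ (i + 1) - 1) m]
    rfl
  rw [h4] at h2
  have h6 : 0 < ∏ i ∈ Finset.range m, (q ^ (2 * (i + 1)) - 1) := by
    refine Finset.prod_pos fun i _ => ?_
    have := Nat.one_lt_pow (by omega : 2 * (i + 1) ≠ 0) hq0
    omega
  rw [← mul_assoc, ← mul_assoc] at h2
  have h7 := Nat.dvd_of_mul_dvd_mul_right h6 h2
  have h8 := (dvd_mul_right r (q ^ m ^ 2)).trans h7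
  rcases (Nat.Prime.dvd_mul hr).1 h8 with h9 | h9
  · left
    rw [Prime.dvd_finsetProd_iff hr.prime] at h9
    obtain ⟨i, -, h9⟩ := h9
    have h10 := hr.dvd_of_dvd_pow h9
    obtain ⟨k, -, hk⟩ := FiniteField.card F p
    rw [hq, hk] at h10
    exact (Nat.prime_dvd_prime_iff_eq hr Fact.out).1 (hr.dvd_of_dvd_pow h10)
  · right
    rw [Prime.dvd_finsetProd_iff hr.prime] at h9
    obtain ⟨i, hi, h9⟩ := h9
    exact ⟨i, Finset.mem_range.1 hi, by rw [← hq]; exact h9⟩

end CfsgLib.Sp29
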