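import Cfsg.Agent.LibPU29a
import Cfsg.Agent.LibSp29b
import Cfsg.Agent.LibH22HermO2

/-! Hyperbolic bases for pairs of totally isotropic subspaces; the general linear group in the stabiliser (seat helper29). -/

namespace CfsgLib.PU29

open Module Cfsg CfsgLib.Semi29 CfsgLib.Dec29

variable {n : ℕ} {F : Type*} [Field F] {σ : F ≃+* F} {f : (Fin n → F) → (Fin n → F) → F}

/-- gram matrix -/
def gr {m : ℕ} (F : Type*) [Field F] : Fin m ⊕ Fin m → Fin m ⊕ Fin m → F
  | Sum.inl _, Sum.inl _ => 0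
  | Sum.inl i, Sum.inr j => if i = j then 1 else 0
  | Sum.inr i, Sum.inl j => if i = j then 1 else 0
  | Sum.inr _, Sum.inr _ => 0

theorem exists_hb (hf : Geo.IsUnitaryForm σ f) {m : ℕ} {U W : Submodule F (Fin n → F)} (h : Pr f m U W) :
    ∃ B : Basis (Fin m ⊕ Fin m) F (Fin n → F), (∀ i, B (Sum.inl i) ∈ U) ∧ (∀ i, B (Sum.inr i) ∈ W) ∧ ∀ a b, f (B a) (B b) = gr F a b := by
  classical
  let b0 : Basis (Fin m) F U := finBasisOfFinrankEq F U h.dU
  have hsp : Submodule.span F (Set.range fun k => (b0 k : Fin n → F)) = U := by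
    have e1 : Set.range (fun k => (b0 k : Fin n → F)) = U.subtype '' Set.range b0 := by
      rw [← Set.range_comp]; rfl
    rw [e1, ← Submodule.map_span, b0.span_eq, Submodule.map_top, Submodule.range_subtype]
  let Θ : W →ₗ[F] (Fin m → F) := (ev hf (fun k => (b0 k : Fin n → F))) ∘ₗ W.subtype
  have hinj : Function.Injective Θ := by
    rw [← LinearMap.ker_eq_bot, eq_bot_iff]
    intro w hw
    apply Subtype.ext
    refine zero_of hf h w.2 fun u hu => ?_
    rw [← hsp] at hu
    refine Submodule.span_induction (p := fun y _ => f (w : Fin n → F) y = 0) ?_ ?_ ?_ ?_ hu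
    · rintro _ ⟨k, rfl⟩
      exact congrFun (LinearMap.mem_ker.1 hw) k
    · rw [← zero_smul F (0 : Fin n → F), smul_right hf, map_zero, zero_mul]
    · intro a b _ _ ha hb
      rw [add_right hf, ha, hb, add_zero]
    · intro a b _ hb
      rw [smul_right hf, hb, mul_zero]
  let E : W ≃ₗ[F] (Fin m → F) := LinearEquiv.ofInjectiveOfFinrankEq Θ hinj (by rw [h.dW, Module.finrank_fin_fun])
  have hE : ∀ w, E w = Θ w := fun w => rfl
  let b1 : Basis (Fin m) F W := (Pi.basisFun F (Fin m)).map E.symm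
  have hb1 : ∀ j k, f (b1 j : Fin n → F) (b0 k : Fin n → F) = if j = k then 1 else 0 := by
    intro j k
    have e1 : E (b1 j) = Pi.single j 1 := by
      show E ((Pi.basisFun F (Fin m)).map E.symm j) = _
      rw [Basis.map_apply, LinearEquiv.apply_symm_apply, Pi.basisFun_apply]
    have e2 := congrFun e1 k
    rw [hE] at e2
    have e3 : (Θ (b1 j)) k = f (b1 j : Fin n → F) (b0 k : Fin n → F) := rfl
    rw [← e3, e2, Pi.single_apply]
    by_cases hjk : j = k
    · rw [if_pos hjk, if_pos hjk.symm]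
    · rw [if_neg hjk, if_neg (fun h => hjk h.symm)]
  have hc : IsCompl U W := ⟨disjoint_iff.2 h.inf, codisjoint_iff.2 h.sup⟩
  let B : Basis (Fin m ⊕ Fin m) F (Fin n → F) := (b0.prod b1).map (Submodule.prodEquivOfIsCompl U W hc)
  have hl : ∀ i, B (Sum.inl i) = (b0 i : Fin n → F) := by
    intro i
    show ((b0.prod b1).map (Submodule.prodEquivOfIsCompl U W hc)) (Sum.inl i) = _
    rw [Basis.map_apply]
    simp
  have hr : ∀ i, B (Sum.inr i) = (b1 i : Fin n → F) := by
    intro i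
    show ((b0.prod b1).map (Submodule.prodEquivOfIsCompl U W hc)) (Sum.inr i) = _
    rw [Basis.map_apply]
    simp
  refine ⟨B, fun i => by rw [hl]; exact (b0 i).2, fun i => by rw [hr]; exact (b1 i).2, ?_⟩
  rintro (i | i) (j | j)
  · rw [hl, hl]; exact h.tU _ (b0 i).2 _ (b0 j).2
  · rw [hl, hr, hf.herm, hb1, gr]
    by_cases hij : i = j
    · rw [if_pos hij, if_pos hij.symm, map_one]
    · rw [if_neg hij, if_neg (fun h => hij h.symm), map_zero]
  · rw [hr, hl, hb1]; rfl
  · rw [hr, hr]; exact h.tW _ (b1 i).2 _ (b1 j).2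

/-- isometry can be checked on a basis -/
theorem iso_of_basis (hf : Geo.IsUnitaryForm σ f) {κ : Type*} (B : Basis κ F (Fin n → F)) (L : (Fin n → F) →ₗ[F] (Fin n → F))
    (h : ∀ a b, f (L (B a)) (L (B b)) = f (B a) (B b)) : ∀ u v, f (L u) (L v) = f u v := by
  have h1 : ∀ u b, f (L u) (L (B b)) = f u (B b) := by
    intro u b
    have e : (ev hf (fun _ : Unit => L (B b))) ∘ₗ L = ev hf (fun _ : Unit => B b) := by
      refine B.ext fun a => ?_
      funext _
      exact h a b
    exact congrFun (LinearMap.congr_fun e u) ()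
  intro u v
  have e : (ev hf (fun _ : Unit => L u)) ∘ₗ L = ev hf (fun _ : Unit => u) := by
    refine B.ext fun b => ?_
    funext _
    show f (L (B b)) (L u) = f (B b) u
    rw [hf.herm, h1, ← hf.herm]
  have e2 : f (L v) (L u) = f v u := congrFun (LinearMap.congr_fun e v) ()
  rw [hf.herm, e2, ← hf.herm]

section emb
variable {m : ℕ} (σ)

/-- the block matrix -/
def Nm (A : GL (Fin m) F) : Matrix (Fin m ⊕ Fin m) (Fin m ⊕ Fin m) F :=
  Matrix.fromBlocks (A : Matrix (Fin m) (Fin m) F) 0 0 ((((A⁻¹ : GL (Fin m) F) : Matrix (Fin m) (Fin m) F).transpose).map σ)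

lemma Nm_one : Nm σ (1 : GL (Fin m) F) = 1 := by
  rw [Nm, inv_one, Units.val_one, Matrix.transpose_one, Matrix.map_one _ (map_zero σ) (map_one σ), Matrix.fromBlocks_one]

lemma Nm_mul (A A' : GL (Fin m) F) : Nm σ (A * A') = Nm σ A * Nm σ A' := by
  rw [Nm, Nm, Nm, Matrix.fromBlocks_multiply]
  congr 1
  · rw [Units.val_mul, Matrix.zero_mul, add_zero]
  · simp
  · simp
  · rw [Matrix.mul_zero, zero_add, mul_inv_rev, Units.val_mul, Matrix.transpose_mul]
    exact Matrix.map_mul (f := (σ : F →+* F))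

lemma Nm_det (A : GL (Fin m) F) : (Nm σ A).det = (A : Matrix (Fin m) (Fin m) F).det * σ ((A⁻¹ : GL (Fin m) F) : Matrix (Fin m) (Fin m) F).det := by
  rw [Nm, Matrix.det_fromBlocks_zero₂₁]
  congr 1
  have h3 : ((((A⁻¹ : GL (Fin m) F) : Matrix (Fin m) (Fin m) F).transpose).map (σ : F →+* F)).det = σ (((A⁻¹ : GL (Fin m) F) : Matrix (Fin m) (Fin m) F).transpose).det := by
    rw [← RingHom.mapMatrix_apply, ← RingHom.map_det]; rfl
  rw [Matrix.det_transpose] at h3
  exact h3

variable (B : Basis (Fin m ⊕ Fin m) F (Fin n → F))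

/-- the embedding -/
noncomputable def Ph : GL (Fin m) F →* GL (Fin n) F :=
  MonoidHom.toHomUnits
    { toFun := fun A => LinearMap.toMatrix' (Matrix.toLin B B (Nm σ A))
      map_one' := by rw [Nm_one, Matrix.toLin_one, LinearMap.toMatrix'_id]
      map_mul' := fun A A' => by rw [Nm_mul, Matrix.toLin_mul B B B, LinearMap.toMatrix'_comp] }

lemma Ph_coe (A : GL (Fin m) F) : (Ph σ B A : Matrix (Fin n) (Fin n) F) = LinearMap.toMatrix' (Matrix.toLin B B (Nm σ A)) := rfl

lemma Ph_toLin (A : GL (Fin m) F) : Matrix.toLin' (Ph σ B A : Matrix (Fin n) (Fin n) F) = Matrix.toLin B B (Nm σ A) := by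
  rw [Ph_coe, Matrix.toLin'_toMatrix']

lemma Ph_det (A : GL (Fin m) F) : (Ph σ B A : Matrix (Fin n) (Fin n) F).det =
    (A : Matrix (Fin m) (Fin m) F).det * σ ((A⁻¹ : GL (Fin m) F) : Matrix (Fin m) (Fin m) F).det := by
  rw [Ph_coe, LinearMap.det_toMatrix', LinearMap.det_toLin, Nm_det]

lemma Ph_inj : Function.Injective (Ph σ B) := by
  intro A A' h
  have h1 : (Ph σ B A : Matrix (Fin n) (Fin n) F) = (Ph σ B A' : Matrix (Fin n) (Fin n) F) := by rw [h]
  rw [Ph_coe, Ph_coe] at h1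
  have h2 := (Matrix.toLin B B).injective (LinearMap.toMatrix'.injective h1)
  have h3 := congrArg Matrix.toBlocks₁₁ h2
  rw [Nm, Nm, Matrix.toBlocks_fromBlocks₁₁, Matrix.toBlocks_fromBlocks₁₁] at h3
  exact Units.ext h3

variable {σ} {B}

lemma toLin_inl (A : GL (Fin m) F) (j : Fin m) : Matrix.toLin B B (Nm σ A) (B (Sum.inl j)) = ∑ i, (A : Matrix (Fin m) (Fin m) F) i j • B (Sum.inl i) := by
  rw [Matrix.toLin_self, Fintype.sum_sum_type]
  have h2 : ∑ x : Fin m, Nm σ A (Sum.inr x) (Sum.inl j) • B (Sum.inr x) = 0 := by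
    refine Finset.sum_eq_zero fun i _ => ?_
    show (0 : F) • _ = _
    rw [zero_smul]
  rw [h2, add_zero]
  rfl

lemma toLin_inr (A : GL (Fin m) F) (j : Fin m) : Matrix.toLin B B (Nm σ A) (B (Sum.inr j)) =
    ∑ i, σ (((A⁻¹ : GL (Fin m) F) : Matrix (Fin m) (Fin m) F) j i) • B (Sum.inr i) := by
  rw [Matrix.toLin_self, Fintype.sum_sum_type]
  have h2 : ∑ x : Fin m, Nm σ A (Sum.inl x) (Sum.inr j) • B (Sum.inl x) = 0 := by
    refine Finset.sum_eq_zero fun i _ => ?_
    show (0 : F) • _ = _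
    rw [zero_smul]
  rw [h2, zero_add]
  rfl

theorem Ph_iso (hf : Geo.IsUnitaryForm σ f) {U W : Submodule F (Fin n → F)} (h : Pr f m U W) (hl : ∀ i, B (Sum.inl i) ∈ U) (hr : ∀ i, B (Sum.inr i) ∈ W)
    (hB : ∀ a b, f (B a) (B b) = gr F a b) (A : GL (Fin m) F) (u v : Fin n → F) :
    f (Matrix.toLin' (Ph σ B A : Matrix (Fin n) (Fin n) F) u) (Matrix.toLin' (Ph σ B A : Matrix (Fin n) (Fin n) F) v) = f u v := by
  classical
  rw [Ph_toLin]
  have hlr : ∀ j k, f (Matrix.toLin B B (Nm σ A) (B (Sum.inl j))) (Matrix.toLin B B (Nm σ A) (B (Sum.inr k))) = if j = k then 1 else 0 := by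
    intro j k
    rw [toLin_inl, CfsgLib.Q29.f_sum_left hf]
    have h1 : ∀ i ∈ (Finset.univ : Finset (Fin m)), f ((A : Matrix (Fin m) (Fin m) F) i j • B (Sum.inl i)) (Matrix.toLin B B (Nm σ A) (B (Sum.inr k))) =
        (((A⁻¹ : GL (Fin m) F) : Matrix (Fin m) (Fin m) F) k i) * (A : Matrix (Fin m) (Fin m) F) i j := by
      intro i _
      rw [hf.smul_left, hf.herm, toLin_inr, CfsgLib.Q29.f_sum_left hf, Finset.sum_eq_single i]
      · rw [hf.smul_left, hB, gr, if_pos rfl, mul_one, hf.involutive, mul_comm]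
      · intro l _ hl
        rw [hf.smul_left, hB, gr, if_neg hl, mul_zero]
      · intro h; exact absurd (Finset.mem_univ _) h
    rw [Finset.sum_congr rfl h1, ← Matrix.mul_apply, ← Units.val_mul, inv_mul_cancel, Units.val_one, Matrix.one_apply]
    by_cases hjk : j = k
    · rw [if_pos hjk, if_pos hjk.symm]
    · rw [if_neg hjk, if_neg (fun h => hjk h.symm)]
  have hmemU : ∀ j, Matrix.toLin B B (Nm σ A) (B (Sum.inl j)) ∈ U := by
    intro j
    rw [toLin_inl]
    exact Submodule.sum_mem _ fun i _ => U.smul_mem _ (hl i)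
  have hmemW : ∀ j, Matrix.toLin B B (Nm σ A) (B (Sum.inr j)) ∈ W := by
    intro j
    rw [toLin_inr]
    exact Submodule.sum_mem _ fun i _ => W.smul_mem _ (hr i)
  refine iso_of_basis hf B _ ?_ u v
  rintro (i | i) (j | j)
  · rw [h.tU _ (hmemU i) _ (hmemU j), hB]; rfl
  · rw [hlr, hB]; rfl
  · rw [hf.herm, hlr, hB, gr]
    by_cases hij : i = j
    · rw [if_pos hij, if_pos hij.symm, map_one]
    · rw [if_neg hij, if_neg (fun h => hij h.symm), map_zero]
  · rw [h.tW _ (hmemW i) _ (hmemW j), hB]; rfl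

lemma span_of_hb {U : Submodule F (Fin n → F)} (hU : finrank F U = m) (hl : ∀ i, B (Sum.inl i) ∈ U) :
    Submodule.span F (Set.range fun i => B (Sum.inl i)) = U := by
  refine Submodule.eq_of_le_of_finrank_eq ?_ ?_
  · rw [Submodule.span_le]
    rintro _ ⟨i, rfl⟩
    exact hl i
  · have hli : LinearIndependent F (fun i : Fin m => B (Sum.inl i)) := B.linearIndependent.comp _ Sum.inl_injective
    rw [finrank_span_eq_card hli, Fintype.card_fin, hU]

lemma span_of_hb' {W : Submodule F (Fin n → F)} (hW : finrank F W = m) (hr : ∀ i, B (Sum.inr i) ∈ W) :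
    Submodule.span F (Set.range fun i => B (Sum.inr i)) = W := by
  refine Submodule.eq_of_le_of_finrank_eq ?_ ?_
  · rw [Submodule.span_le]
    rintro _ ⟨i, rfl⟩
    exact hr i
  · have hli : LinearIndependent F (fun i : Fin m => B (Sum.inr i)) := B.linearIndependent.comp _ Sum.inr_injective
    rw [finrank_span_eq_card hli, Fintype.card_fin, hW]

lemma map_eq_of {L : (Fin n → F) →ₗ[F] (Fin n → F)} (hL : Function.Injective L) {U U' : Submodule F (Fin n → F)} {s : Fin m → Fin n → F}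
    (hs : Submodule.span F (Set.range s) = U) (hd : finrank F U = m) (hd' : finrank F U' = m) (h : ∀ i, L (s i) ∈ U') : U.map L = U' := by
  refine Submodule.eq_of_le_of_finrank_eq ?_ ?_
  · rw [← hs, Submodule.map_span, Submodule.span_le]
    rintro _ ⟨_, ⟨i, rfl⟩, rfl⟩
    exact h i
  · rw [hd', ← (Submodule.equivMapOfInjective L hL U).finrank_eq, hd]

end emb

end CfsgLib.PU29
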