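import Cfsg.Agent.LibPU29b

/-! Index of the stabiliser of a pair of totally isotropic subspaces; transitivity (seat helper29). -/

namespace CfsgLib.PU29

open Module Cfsg CfsgLib.Semi29 CfsgLib.Dec29 CfsgLib.Sp29 Cfsg.Agent.H22

variable {n m q : ℕ} {F : Type*} [Field F] [Fintype F] {σ : F ≃+* F}

lemma mem_GU_iff (g : GL (Fin n) F) : g ∈ GU n F q ↔ ∀ u v, hermForm n F q (Matrix.toLin' (g : Matrix (Fin n) (Fin n) F) u) (Matrix.toLin' (g : Matrix (Fin n) (Fin n) F) v) = hermForm n F q u v := by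
  constructor
  · intro h u v
    have := h u v
    rw [Matrix.toLin'_apply, Matrix.toLin'_apply]
    exact this
  · intro h u v
    have := h u v
    rw [Matrix.toLin'_apply, Matrix.toLin'_apply] at this
    exact this

lemma toLin_inj' (g : GL (Fin n) F) : Function.Injective (Matrix.toLin' (g : Matrix (Fin n) (Fin n) F)) := by
  refine Function.LeftInverse.injective (g := Matrix.toLin' ((g⁻¹ : GL (Fin n) F) : Matrix (Fin n) (Fin n) F)) ?_
  intro v
  rw [← Matrix.toLin'_mul_apply, Units.inv_mul, Matrix.toLin'_one]; rfl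

/-- norm one elements are powers -/
lemma hilbert (hF : Fintype.card F = q ^ 2) (hσ : ∀ x, σ x = x ^ q) (δ : F) (hδ : δ * σ δ = 1) : ∃ α : F, α ≠ 0 ∧ α * (σ α)⁻¹ = δ := by
  classical
  have hq2 : 2 ≤ q := by
    have h1 := Fintype.one_lt_card (α := F)
    rw [hF] at h1
    by_contra h
    have : q = 0 ∨ q = 1 := by omega
    rcases this with h | h <;> subst h <;> norm_num at h1
  have hδ0 : δ ≠ 0 := by
    rintro rfl
    rw [zero_mul] at hδ
    exact zero_ne_one hδ
  obtain ⟨g, hg⟩ := IsCyclic.exists_generator (α := Fˣ)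
  have hog : orderOf g = (q - 1) * (q + 1) := by
    rw [orderOf_eq_card_of_forall_mem_zpowers hg, Nat.card_eq_fintype_card, Fintype.card_units, hF]
    obtain ⟨t, rfl⟩ : ∃ t, q = t + 1 := ⟨q - 1, by omega⟩
    rw [Nat.add_sub_cancel]
    have : (t + 1) ^ 2 = t * (t + 1 + 1) + 1 := by ring
    rw [this, Nat.add_sub_cancel]
  have h1 : Units.mk0 δ hδ0 ∈ Submonoid.powers g := mem_powers_iff_mem_zpowers.2 (hg _)
  obtain ⟨k, hk⟩ := h1
  have h2 : (q - 1) * (q + 1) ∣ k * (q + 1) := by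
    rw [← hog, orderOf_dvd_iff_pow_eq_one, pow_mul]
    have hk2 : g ^ k = Units.mk0 δ hδ0 := hk
    rw [hk2]
    apply Units.ext
    rw [Units.val_pow_eq_pow_val, Units.val_mk0, Units.val_one, pow_succ', ← hσ]
    exact hδ
  obtain ⟨s, hs⟩ := Nat.dvd_of_mul_dvd_mul_right (by omega) h2
  -- δ = g^{(q-1)s}; α = g^{-s}
  refine ⟨((g ^ s)⁻¹ : Fˣ), Units.ne_zero _, ?_⟩
  rw [hσ, ← Units.val_pow_eq_pow_val, ← Units.val_inv_eq_inv_val, ← Units.val_mul]
  have h3 : (g ^ s)⁻¹ * (((g ^ s)⁻¹) ^ q)⁻¹ = g ^ k := by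
    rw [hs, inv_pow, inv_inv]
    obtain ⟨t, rfl⟩ : ∃ t, q = t + 1 := ⟨q - 1, by omega⟩
    rw [Nat.add_sub_cancel, pow_succ, mul_comm t s, pow_mul, mul_comm ((g ^ s) ^ t), inv_mul_cancel_left]
  rw [h3]
  exact congrArg Units.val hk

/-- transitivity of the special unitary group on the pairs -/
theorem trans_pair (hF : Fintype.card F = q ^ 2) (hσ : ∀ x, σ x = x ^ q) (hf : Geo.IsUnitaryForm σ (hermForm n F q)) (hm : 0 < m)
    {U W U' W' : Submodule F (Fin n → F)} (h : Pr (hermForm n F q) m U W) (h' : Pr (hermForm n F q) m U' W') :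
    ∃ g ∈ GU n F q ⊓ Geo.specialLinear (Fin n) F, U.map (Matrix.toLin' (g : Matrix (Fin n) (Fin n) F)) = U' ∧
      W.map (Matrix.toLin' (g : Matrix (Fin n) (Fin n) F)) = W' := by
  classical
  obtain ⟨B, hl, hr, hB⟩ := exists_hb hf h
  obtain ⟨B', hl', hr', hB'⟩ := exists_hb hf h'
  let L := B.equiv B' (Equiv.refl _)
  have hLB : ∀ a, L (B a) = B' a := fun a => by
    show B.equiv B' (Equiv.refl _) (B a) = _
    rw [Basis.equiv_apply]; rfl
  have hLiso : ∀ u v, hermForm n F q (L u) (L v) = hermForm n F q u v :=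
    iso_of_basis hf B L.toLinearMap (fun a b => by
      show hermForm n F q (L (B a)) (L (B b)) = _
      rw [hLB, hLB, hB, hB'])
  let g1 : GL (Fin n) F := ⟨LinearMap.toMatrix' L.toLinearMap, LinearMap.toMatrix' L.symm.toLinearMap, by
      rw [← LinearMap.toMatrix'_comp]
      have : L.toLinearMap ∘ₗ L.symm.toLinearMap = LinearMap.id := by ext; simp
      rw [this, LinearMap.toMatrix'_id], by
      rw [← LinearMap.toMatrix'_comp]
      have : L.symm.toLinearMap ∘ₗ L.toLinearMap = LinearMap.id := by ext; simp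
      rw [this, LinearMap.toMatrix'_id]⟩
  have hg1 : Matrix.toLin' (g1 : Matrix (Fin n) (Fin n) F) = L.toLinearMap := by
    show Matrix.toLin' (LinearMap.toMatrix' L.toLinearMap) = _
    rw [Matrix.toLin'_toMatrix']
  have hg1U : g1 ∈ GU n F q := by
    rw [mem_GU_iff, hg1]; exact hLiso
  obtain ⟨δ, hδ⟩ : ∃ δ, δ = (g1 : Matrix (Fin n) (Fin n) F).det := ⟨_, rfl⟩
  have hδn := CfsgLib.Q29.det_norm hσ hg1U
  rw [← hδ] at hδn
  have hδ0 : δ ≠ 0 := by
    rintro rfl
    rw [zero_mul] at hδn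
    exact zero_ne_one hδn
  obtain ⟨α, hα0, hα⟩ := hilbert hF hσ δ⁻¹ (by rw [map_inv₀, ← mul_inv, hδn, inv_one])
  obtain ⟨e, he⟩ : ∃ e : Fin m → F, e = Function.update (fun _ => (1 : F)) ⟨0, hm⟩ α := ⟨_, rfl⟩
  have hprod : ∏ i, e i = α := by
    rw [he, Finset.prod_update_of_mem (Finset.mem_univ _)]
    simp
  let A : GL (Fin m) F := Matrix.GeneralLinearGroup.mkOfDetNeZero (Matrix.diagonal e) (by rw [Matrix.det_diagonal, hprod]; exact hα0)
  have hAdet : (A : Matrix (Fin m) (Fin m) F).det = α := by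
    show (Matrix.diagonal e).det = α
    rw [Matrix.det_diagonal, hprod]
  have hAinv : ((A⁻¹ : GL (Fin m) F) : Matrix (Fin m) (Fin m) F).det = α⁻¹ := by
    have h1 : ((A⁻¹ : GL (Fin m) F) : Matrix (Fin m) (Fin m) F).det * (A : Matrix (Fin m) (Fin m) F).det = 1 := by
      rw [← Matrix.det_mul, Units.inv_mul, Matrix.det_one]
    rw [hAdet] at h1
    exact eq_inv_of_mul_eq_one_left h1
  have hPdet : (Ph σ B A : Matrix (Fin n) (Fin n) F).det = δ⁻¹ := by
    rw [Ph_det, hAdet, hAinv, map_inv₀, hα]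
  have hPU : Ph σ B A ∈ GU n F q := by
    rw [mem_GU_iff]; exact Ph_iso hf h hl hr hB A
  have hPinj := toLin_inj' (Ph σ B A)
  have hmU : ∀ j, Matrix.toLin' (Ph σ B A : Matrix (Fin n) (Fin n) F) (B (Sum.inl j)) ∈ U := by
    intro j
    rw [Ph_toLin, toLin_inl]
    exact Submodule.sum_mem _ fun i _ => U.smul_mem _ (hl i)
  have hmW : ∀ j, Matrix.toLin' (Ph σ B A : Matrix (Fin n) (Fin n) F) (B (Sum.inr j)) ∈ W := by
    intro j
    rw [Ph_toLin, toLin_inr]
    exact Submodule.sum_mem _ fun i _ => W.smul_mem _ (hr i)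
  have h1 : U.map (Matrix.toLin' (Ph σ B A : Matrix (Fin n) (Fin n) F)) = U := map_eq_of hPinj (span_of_hb h.dU hl) h.dU h.dU hmU
  have h2 : W.map (Matrix.toLin' (Ph σ B A : Matrix (Fin n) (Fin n) F)) = W := map_eq_of hPinj (span_of_hb' h.dW hr) h.dW h.dW hmW
  have h3 : U.map L.toLinearMap = U' := map_eq_of L.injective (span_of_hb h.dU hl) h.dU h'.dU (fun i => by
    show L (B (Sum.inl i)) ∈ U'
    rw [hLB]; exact hl' i)
  have h4 : W.map L.toLinearMap = W' := map_eq_of L.injective (span_of_hb' h.dW hr) h.dW h'.dW (fun i => by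
    show L (B (Sum.inr i)) ∈ W'
    rw [hLB]; exact hr' i)
  refine ⟨g1 * Ph σ B A, ⟨Subgroup.mul_mem _ hg1U hPU, ?_⟩, ?_, ?_⟩
  · show g1 * Ph σ B A ∈ (Matrix.GeneralLinearGroup.det : GL (Fin n) F →* Fˣ).ker
    rw [MonoidHom.mem_ker]
    apply Units.ext
    show ((g1 * Ph σ B A : GL (Fin n) F) : Matrix (Fin n) (Fin n) F).det = 1
    rw [Units.val_mul, Matrix.det_mul, hPdet, ← hδ, mul_inv_cancel₀ hδ0]
  · rw [Units.val_mul, Matrix.toLin'_mul, Submodule.map_comp, h1, hg1, h3]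
  · rw [Units.val_mul, Matrix.toLin'_mul, Submodule.map_comp, h2, hg1, h4]

/-- primes dividing the index -/
theorem of_index {p : ℕ} [Fact p.Prime] [CharP F p] (hF : Fintype.card F = q ^ 2) (hσ : ∀ x, σ x = x ^ q) (hf : Geo.IsUnitaryForm σ (hermForm n F q))
    (hn : n = 2 * m) (hm : 0 < m) {D : Fin 2 → Submodule F (Fin n → F)} (h : Pr (hermForm n F q) m (D 0) (D 1))
    (r : ℕ) (hr : r.Prime) (hΩ : r ∣ (Geo.decompositionStabilizer D).relIndex (GU n F q ⊓ Geo.specialLinear (Fin n) F)) :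
    r = p ∨ ∃ i < m, r ∣ q ^ (2 * i + 1) + 1 := by
  classical
  obtain ⟨B, hl, hrr, hB⟩ := exists_hb hf h
  have hq2 : 2 ≤ q := by
    have h1 := Fintype.one_lt_card (α := F)
    rw [hF] at h1
    by_contra h
    have : q = 0 ∨ q = 1 := by omega
    rcases this with h | h <;> subst h <;> norm_num at h1
  let K := GU n F q ⊓ Geo.specialLinear (Fin n) F
  let ψ : GL (Fin m) F →* Fˣ := Matrix.GeneralLinearGroup.det.comp (Ph σ B)
  have hGU : ∀ A, Ph σ B A ∈ GU n F q := fun A => by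
    rw [mem_GU_iff]; exact Ph_iso hf h hl hrr hB A
  have hst : ∀ A, Ph σ B A ∈ Geo.decompositionStabilizer D := by
    intro A
    refine ⟨1, fun i => ?_⟩
    rw [Equiv.Perm.one_apply]
    have hPinj := toLin_inj' (Ph σ B A)
    fin_cases i
    · refine map_eq_of hPinj (span_of_hb h.dU hl) h.dU h.dU fun j => ?_
      rw [Ph_toLin, toLin_inl]
      exact Submodule.sum_mem _ fun i _ => (D 0).smul_mem _ (hl i)
    · refine map_eq_of hPinj (span_of_hb' h.dW hrr) h.dW h.dW fun j => ?_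
      rw [Ph_toLin, toLin_inr]
      exact Submodule.sum_mem _ fun i _ => (D 1).smul_mem _ (hrr i)
  have h1 : Nat.card (GL (Fin m) F) = Nat.card ψ.ker * Nat.card ψ.range := by
    rw [← Subgroup.index_ker, Subgroup.card_mul_index]
  have h2 : Nat.card ψ.range ∣ q + 1 := by
    rw [← card_range_detU (n := n) hF (by omega)]
    refine Subgroup.card_dvd_of_le ?_
    rintro _ ⟨A, rfl⟩
    exact ⟨⟨Ph σ B A, hGU A⟩, rfl⟩
  have h3 : Nat.card ψ.ker ∣ Nat.card ((Geo.decompositionStabilizer D).subgroupOf K) := by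
    let Ξ : ψ.ker →* K := ((Ph σ B).comp ψ.ker.subtype).codRestrict K (fun A => ⟨hGU A, by
      have hA : ψ A.1 = 1 := A.2
      exact hA⟩)
    let Ξ' : ψ.ker →* (Geo.decompositionStabilizer D).subgroupOf K := Ξ.codRestrict _ (fun A => hst A)
    refine Subgroup.card_dvd_of_injective Ξ' ?_
    intro A A' hAA
    have e1 : Ph σ B A.1 = Ph σ B A'.1 := congrArg (fun z : (Geo.decompositionStabilizer D).subgroupOf K => ((z : K) : GL (Fin n) F)) hAA
    exact Subtype.ext (Ph_inj σ B e1)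
  have h4 : Nat.card K * (q + 1) = Nat.card (GU n F q) := by
    have e1 : Nat.card (GU n F q) = Nat.card (detU n F q).ker * Nat.card (detU n F q).range := by
      rw [← Subgroup.index_ker, Subgroup.card_mul_index]
    rw [e1, card_range_detU hF (by omega)]
    congr 1
    refine Nat.card_congr ⟨fun x => ⟨⟨x.1, x.2.1⟩, x.2.2⟩, fun y => ⟨y.1.1, ⟨y.1.2, y.2⟩⟩, fun x => rfl, fun y => rfl⟩
  have h5 : Nat.card ((Geo.decompositionStabilizer D).subgroupOf K) * (Geo.decompositionStabilizer D).relIndex K = Nat.card K :=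
    Subgroup.card_mul_index _
  have h6 : r * Nat.card (GL (Fin m) F) ∣ Nat.card (GU n F q) := by
    rw [h1, ← h4, ← h5]
    have e : r * (Nat.card ψ.ker * Nat.card ψ.range) = Nat.card ψ.ker * r * Nat.card ψ.range := by ring
    rw [e]
    exact mul_dvd_mul (mul_dvd_mul h3 hΩ) h2
  rw [card_GU hF, Matrix.card_GL_field, hF] at h6
  have h7 : ∏ i ∈ Finset.range n, (if Even i then q ^ (i + 1) + 1 else q ^ (i + 1) - 1) =
      (∏ i ∈ Finset.range m, (q ^ (2 * i + 1) + 1)) * ∏ i ∈ Finset.range m, ((q ^ 2) ^ (i + 1) - 1) := by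
    rw [hn, prod_pairs]
    congr 1
    · refine Finset.prod_congr rfl fun i _ => ?_
      rw [if_pos (even_two_mul i)]
    · refine Finset.prod_congr rfl fun i _ => ?_
      rw [if_neg (by rw [Nat.not_even_iff_odd]; exact ⟨i, rfl⟩), ← pow_mul]
      congr 2
  have h8 : ∏ i : Fin m, ((q ^ 2) ^ m - (q ^ 2) ^ (i : ℕ)) = (∏ i ∈ Finset.range m, (q ^ 2) ^ i) * ∏ i ∈ Finset.range m, ((q ^ 2) ^ (i + 1) - 1) := by
    rw [Fin.prod_univ_eq_prod_range (fun i => (q ^ 2) ^ m - (q ^ 2) ^ i) m]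
    rw [← Finset.prod_range_reflect (fun i => (q ^ 2) ^ (i + 1) - 1) m, ← Finset.prod_mul_distrib]
    refine Finset.prod_congr rfl fun i hi => ?_
    rw [Finset.mem_range] at hi
    rw [Nat.mul_sub, ← pow_add, mul_one]
    congr 2
    omega
  rw [h7, h8] at h6
  have h9 : 0 < ∏ i ∈ Finset.range m, ((q ^ 2) ^ (i + 1) - 1) := by
    refine Finset.prod_pos fun i _ => ?_
    have : 1 < (q ^ 2) ^ (i + 1) := Nat.one_lt_pow (by omega) (by nlinarith)
    omega
  rw [← mul_assoc, ← mul_assoc] at h6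
  have h10 := Nat.dvd_of_mul_dvd_mul_right h9 h6
  have h11 := (dvd_mul_right r _).trans h10
  rcases (Nat.Prime.dvd_mul hr).1 h11 with h12 | h12
  · left
    have h13 := hr.dvd_of_dvd_pow h12
    obtain ⟨k, -, hk⟩ := FiniteField.card F p
    have h14 : r ∣ p ^ (k : ℕ) := by
      rw [← hk, hF]; exact h13.trans (dvd_pow_self q two_ne_zero)
    exact (Nat.prime_dvd_prime_iff_eq hr Fact.out).1 (hr.dvd_of_dvd_pow h14)
  · right
    rw [Prime.dvd_finsetProd_iff hr.prime] at h12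
    obtain ⟨i, hi, h13⟩ := h12
    exact ⟨i, Finset.mem_range.1 hi, h13⟩

end CfsgLib.PU29
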