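import Cfsg.Agent.LibPU29c
import Cfsg.Agent.LibSp29c

/-! Derangements for pairs of complementary totally isotropic subspaces (seat helper29). -/

namespace CfsgLib.PU29

open Module Cfsg CfsgLib.Semi29 CfsgLib.Dec29 CfsgLib.Sp29 Cfsg.Agent.H22

variable {n m q : ℕ} {F : Type*} [Field F] [Fintype F] {σ : F ≃+* F}

theorem transport {D : Fin 2 → Submodule F (Fin n → F)} (h : Pr (hermForm n F q) m (D 0) (D 1)) {x g : GL (Fin n) F}
    (hg : g ∈ GU n F q) (hx : g⁻¹ * x * g ∈ Geo.decompositionStabilizer D) :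
    ∃ U W : Submodule F (Fin n → F), Pr (hermForm n F q) m U W ∧
      ((Inv (Matrix.toLin' (x : Matrix (Fin n) (Fin n) F)) U ∧ Inv (Matrix.toLin' (x : Matrix (Fin n) (Fin n) F)) W) ∨
        ((∀ u ∈ U, Matrix.toLin' (x : Matrix (Fin n) (Fin n) F) u ∈ W) ∧ ∀ u ∈ W, Matrix.toLin' (x : Matrix (Fin n) (Fin n) F) u ∈ U)) := by
  have hinj := toLin_inj' g
  obtain ⟨G, hG⟩ : ∃ G, G = Matrix.toLin' (g : Matrix (Fin n) (Fin n) F) := ⟨_, rfl⟩
  have hGi : ∀ u v, hermForm n F q (G u) (G v) = hermForm n F q u v := by rw [hG]; exact (mem_GU_iff g).1 hg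
  rw [← hG] at hinj
  obtain ⟨τ, hτ⟩ := hx
  refine ⟨(D 0).map G, (D 1).map G, ⟨?_, ?_, ?_, ?_, ?_, ?_⟩, ?_⟩
  · rw [← Submodule.map_inf _ hinj, h.inf, Submodule.map_bot]
  · rw [← Submodule.map_sup, h.sup, Submodule.map_top, LinearMap.range_eq_top]
    exact LinearMap.injective_iff_surjective.1 hinj
  · rw [← (Submodule.equivMapOfInjective G hinj (D 0)).finrank_eq, h.dU]
  · rw [← (Submodule.equivMapOfInjective G hinj (D 1)).finrank_eq, h.dW]
  · rintro _ ⟨u, hu, rfl⟩ _ ⟨v, hv, rfl⟩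
    rw [hGi]; exact h.tU u hu v hv
  · rintro _ ⟨u, hu, rfl⟩ _ ⟨v, hv, rfl⟩
    rw [hGi]; exact h.tW u hu v hv
  · refine perm_cases (D := fun j => (D j).map G) (Matrix.toLin' (x : Matrix (Fin n) (Fin n) F)) τ ?_
    intro j
    show ((D j).map G).map (Matrix.toLin' (x : Matrix (Fin n) (Fin n) F)) = (D (τ j)).map G
    rw [← Submodule.map_comp, ← hτ j]
    have e : (Matrix.toLin' (x : Matrix (Fin n) (Fin n) F)) ∘ₗ G = G ∘ₗ Matrix.toLin' ((g⁻¹ * x * g : GL (Fin n) F) : Matrix (Fin n) (Fin n) F) := by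
      rw [hG, ← Matrix.toLin'_mul, ← Matrix.toLin'_mul, ← Units.val_mul, ← Units.val_mul]
      congr 2
      group
    rw [e, Submodule.map_comp]

theorem no_fix (hf : Geo.IsUnitaryForm σ (hermForm n F q)) (hm : 2 ≤ m)
    {D : Fin 2 → Submodule F (Fin n → F)} (h : Pr (hermForm n F q) m (D 0) (D 1)) {x y : GL (Fin n) F} (hyG : y ∈ GU n F q) (c : F)
    (hy : ∀ u, Matrix.toLin' (y : Matrix (Fin n) (Fin n) F) u = c • Matrix.toLin' (x : Matrix (Fin n) (Fin n) F) u)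
    (hodd : Odd (finrank F (Fx (Matrix.toLin' (y : Matrix (Fin n) (Fin n) F)))))
    (hsw : (n < finrank F (Fx (Matrix.toLin' (y : Matrix (Fin n) (Fin n) F))) + m) ∨ (∃ r, Odd r ∧ (Matrix.toLin' (x : Matrix (Fin n) (Fin n) F)) ^ r = 1)) :
    ¬ ∃ g ∈ GU n F q ⊓ Geo.specialLinear (Fin n) F, g⁻¹ * x * g ∈ Geo.decompositionStabilizer D := by
  rintro ⟨g, hg, hx⟩
  obtain ⟨U, W, hP, h1 | h1⟩ := transport h hg.1 hx
  · have h2 : Inv (Matrix.toLin' (y : Matrix (Fin n) (Fin n) F)) U := fun u hu => by rw [hy]; exact U.smul_mem _ (h1.1 u hu)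
    have h3 : Inv (Matrix.toLin' (y : Matrix (Fin n) (Fin n) F)) W := fun u hu => by rw [hy]; exact W.smul_mem _ (h1.2 u hu)
    have h4 := even_fix hf hP _ ((mem_GU_iff y).1 hyG) (toLin_inj' y) h2 h3
    exact (Nat.not_even_iff_odd.2 hodd) h4
  · rcases hsw with h2 | ⟨r, hr, h2⟩
    · have h3 := fix_swap hP (Matrix.toLin' (y : Matrix (Fin n) (Fin n) F)) (fun u hu => by rw [hy]; exact W.smul_mem _ (h1.1 u hu))
      omega
    · have h3 : ∀ k, (∀ u ∈ U, ((Matrix.toLin' (x : Matrix (Fin n) (Fin n) F)) ^ (2 * k)) u ∈ U) := by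
        intro k
        induction k with
        | zero => intro u hu; simpa using hu
        | succ k ih =>
          intro u hu
          have : 2 * (k + 1) = 1 + (1 + 2 * k) := by ring
          rw [this, pow_add, pow_add, pow_one, Module.End.mul_apply, Module.End.mul_apply]
          exact h1.2 _ (h1.1 _ (ih u hu))
      obtain ⟨k, rfl⟩ := hr
      have h4 : U ≤ U ⊓ W := by
        intro u hu
        refine ⟨hu, ?_⟩
        have h5 := h1.1 _ (h3 k u hu)
        rw [pow_add, pow_one, pow_mul_comm'] at h2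
        have h6 : Matrix.toLin' (x : Matrix (Fin n) (Fin n) F) (((Matrix.toLin' (x : Matrix (Fin n) (Fin n) F)) ^ (2 * k)) u) = u := by
          rw [← Module.End.mul_apply, h2]; rfl
        rwa [h6] at h5
      rw [hP.inf, le_bot_iff] at h4
      have h5 := hP.dU
      rw [h4, finrank_bot] at h5
      omega

/-- the fixed space of a map acting through a functional -/
lemma fx_perp (hf : Geo.IsUnitaryForm σ (hermForm n F q)) {v : Fin n → F} (hv : v ≠ 0) {c : F} (hc : c ≠ 0) (L : (Fin n → F) →ₗ[F] (Fin n → F))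
    (hL : ∀ u, L u = u + (c * hermForm n F q u v) • v) : finrank F (Fx L) + 1 = n := by
  have h1 : Fx L = CfsgLib.Un29.perp hf (Submodule.span F {v}) := by
    ext u
    rw [mem_Fx, CfsgLib.Un29.mem_perp_span, hL]
    constructor
    · intro h w hw
      rw [Set.mem_singleton_iff] at hw
      subst hw
      have h2 : (c * hermForm n F q u w) • w = 0 := by
        have := congrArg (fun z => z - u) h
        simpa using this
      have h3 := (smul_eq_zero.1 h2).resolve_right hv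
      have h4 := (mul_eq_zero.1 h3).resolve_left hc
      rw [hf.herm, h4, map_zero]
    · intro h
      have h2 := h v rfl
      rw [hf.herm, h2, map_zero, mul_zero, zero_smul, add_zero]
  have h2 := CfsgLib.Un29.finrank_perp hf (Submodule.span F {v})
  rw [finrank_span_singleton hv, Module.finrank_fin_fun] at h2
  rw [h1]; omega


/-- fixed point property -/
def FP (n q : ℕ) (F : Type*) [Field F] [Fintype F] (D : Fin 2 → Submodule F (Fin n → F)) (r : ℕ) : Prop :=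
  ∀ x ∈ GU n F q ⊓ Geo.specialLinear (Fin n) F, (∃ z : F, ((x ^ r : GL (Fin n) F) : Matrix (Fin n) (Fin n) F) = z • (1 : Matrix (Fin n) (Fin n) F)) →
      (∀ z : F, (x : Matrix (Fin n) (Fin n) F) ≠ z • (1 : Matrix (Fin n) (Fin n) F)) →
      ∃ g ∈ GU n F q ⊓ Geo.specialLinear (Fin n) F, g⁻¹ * x * g ∈ Geo.decompositionStabilizer D

theorem bad_of (hf : Geo.IsUnitaryForm σ (hermForm n F q)) (hnm : n = 2 * m) (hm : 2 ≤ m)
    {D : Fin 2 → Submodule F (Fin n → F)} (h : Pr (hermForm n F q) m (D 0) (D 1)) {x y : GL (Fin n) F}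
    (hxG : x ∈ GU n F q ⊓ Geo.specialLinear (Fin n) F) (hyG : y ∈ GU n F q) (c : F)
    (hy : ∀ u, Matrix.toLin' (y : Matrix (Fin n) (Fin n) F) u = c • Matrix.toLin' (x : Matrix (Fin n) (Fin n) F) u)
    (hodd : Odd (finrank F (Fx (Matrix.toLin' (y : Matrix (Fin n) (Fin n) F)))))
    (hsw : (n < finrank F (Fx (Matrix.toLin' (y : Matrix (Fin n) (Fin n) F))) + m) ∨ (∃ r, Odd r ∧ (Matrix.toLin' (x : Matrix (Fin n) (Fin n) F)) ^ r = 1))
    {r : ℕ} (hr : ∃ z : F, ((x ^ r : GL (Fin n) F) : Matrix (Fin n) (Fin n) F) = z • (1 : Matrix (Fin n) (Fin n) F)) : ¬ FP n q F D r := by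
  intro H
  refine no_fix hf hm h hyG c hy hodd hsw (H x hxG hr ?_)
  intro z hz
  have h1 : ∀ u, Matrix.toLin' (y : Matrix (Fin n) (Fin n) F) u = (c * z) • u := by
    intro u
    rw [hy, hz, Matrix.toLin'_apply, Matrix.smul_mulVec, Matrix.one_mulVec, smul_smul]
  have h2 : Fx (Matrix.toLin' (y : Matrix (Fin n) (Fin n) F)) ≠ ⊥ := by
    intro h3
    rw [h3, finrank_bot] at hodd
    exact absurd hodd (by decide)
  obtain ⟨u, hu, hu0⟩ := (Submodule.ne_bot_iff _).1 h2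
  have h3 := mem_Fx.1 hu
  rw [h1] at h3
  have h4 : c * z = 1 := by
    have h5 : (c * z - 1) • u = 0 := by rw [sub_smul, h3, one_smul, sub_self]
    exact sub_eq_zero.1 ((smul_eq_zero.1 h5).resolve_right hu0)
  have h5 : Fx (Matrix.toLin' (y : Matrix (Fin n) (Fin n) F)) = ⊤ := by
    rw [eq_top_iff]
    intro w _
    rw [mem_Fx, h1, h4, one_smul]
  rw [h5, finrank_top, Module.finrank_fin_fun, hnm] at hodd
  exact (Nat.not_even_iff_odd.2 hodd) (even_two_mul m)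

theorem case_p {p : ℕ} [Fact p.Prime] [CharP F p] (hf : Geo.IsUnitaryForm σ (hermForm n F q)) (hnm : n = 2 * m) (hm : 2 ≤ m)
    {D : Fin 2 → Submodule F (Fin n → F)} (h : Pr (hermForm n F q) m (D 0) (D 1)) : ¬ FP n q F D p := by
  have hD : D 0 ≠ ⊥ := by
    intro h1
    have h2 := h.dU
    rw [h1, finrank_bot] at h2
    omega
  obtain ⟨v, hv, hv0⟩ := (Submodule.ne_bot_iff _).1 hD
  have hvv := h.tU v hv v hv
  obtain ⟨a, ha⟩ : ∃ a, σ a ≠ a := by
    by_contra hcon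
    push Not at hcon
    exact hf.ne_refl (RingEquiv.ext hcon)
  obtain ⟨c, hcd⟩ : ∃ c, c = a - σ a := ⟨_, rfl⟩
  have hc0 : c ≠ 0 := by rw [hcd]; exact sub_ne_zero.2 (Ne.symm ha)
  have hc : σ c = -c := by rw [hcd, map_sub, hf.involutive, neg_sub]
  have hG : CfsgLib.Un29.ut hf v c ∈ GU n F q := fun u w => (CfsgLib.Un29.mem_iso _).1 (CfsgLib.Un29.ut_mem_iso hf hvv hc) u w
  have hL : ∀ u, Matrix.toLin' ((CfsgLib.Un29.ut hf v c : GL (Fin n) F) : Matrix (Fin n) (Fin n) F) u = u + (c * hermForm n F q u v) • v := by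
    intro u
    rw [Matrix.toLin'_apply, CfsgLib.Un29.ut_mulVec hf hvv]
  have hfx := fx_perp hf hv0 hc0 _ hL
  have hpow : ∀ k : ℕ, (CfsgLib.Un29.ut hf v c) ^ k = CfsgLib.Un29.ut hf v ((k : F) * c) := by
    intro k
    induction k with
    | zero => rw [pow_zero, Nat.cast_zero, zero_mul, CfsgLib.Un29.ut_zero hf hvv]
    | succ k ih => rw [pow_succ, ih, CfsgLib.Un29.ut_add hf hvv]; congr 1; push_cast; ring
  refine bad_of hf hnm hm h (x := CfsgLib.Un29.ut hf v c) (y := CfsgLib.Un29.ut hf v c) ⟨hG, CfsgLib.Un29.ut_mem_special hf v c⟩ hG 1 (fun u => by rw [one_smul]) ?_ (Or.inl ?_) ⟨1, ?_⟩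
  · obtain ⟨k, hk⟩ : ∃ k, m = k + 1 := ⟨m - 1, by omega⟩
    exact ⟨k, by omega⟩
  · omega
  · rw [hpow, CharP.cast_eq_zero, zero_mul, CfsgLib.Un29.ut_zero hf hvv, Units.val_one, one_smul]

/-- an anisotropic vector -/
lemma exists_aniso (hf : Geo.IsUnitaryForm σ (hermForm n F q)) (hn : 1 ≤ n) : ∃ v, hermForm n F q v v ≠ 0 := by
  obtain ⟨w, -, -, hw⟩ := CfsgLib.Un29.exists_nonisotropic_perp hf (CfsgLib.Un29.top_nondeg hf) ⊥ (by rw [finrank_bot, finrank_top, Module.finrank_fin_fun]; omega)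
  exact ⟨w, hw⟩

theorem case_two {p : ℕ} [Fact p.Prime] [CharP F p] (hF : Fintype.card F = q ^ 2) (hσ : ∀ x, σ x = x ^ q) (hf : Geo.IsUnitaryForm σ (hermForm n F q)) (hnm : n = 2 * m) (hm : 2 ≤ m)
    {D : Fin 2 → Submodule F (Fin n → F)} (h : Pr (hermForm n F q) m (D 0) (D 1)) (h2 : (2 : F) ≠ 0) (hv : ¬ padicValNat 2 (q + 1) ≤ padicValNat 2 n) : ¬ FP n q F D 2 := by
  classical
  haveI : Fact (Nat.Prime 2) := ⟨Nat.prime_two⟩
  have hq2 : 2 ≤ q := by
    have h1 := Fintype.one_lt_card (α := F)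
    rw [hF] at h1
    by_contra h
    have : q = 0 ∨ q = 1 := by omega
    rcases this with h | h <;> subst h <;> norm_num at h1
  obtain ⟨g, hg⟩ := IsCyclic.exists_generator (α := Fˣ)
  have hog : orderOf g = (q - 1) * (q + 1) := by
    rw [orderOf_eq_card_of_forall_mem_zpowers hg, Nat.card_eq_fintype_card, Fintype.card_units, hF]
    obtain ⟨t, rfl⟩ : ∃ t, q = t + 1 := ⟨q - 1, by omega⟩
    rw [Nat.add_sub_cancel]
    have : (t + 1) ^ 2 = t * (t + 1 + 1) + 1 := by ring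
    rw [this, Nat.add_sub_cancel]
  obtain ⟨a, ha⟩ : ∃ a, a = padicValNat 2 n := ⟨_, rfl⟩
  rw [← ha] at hv
  have hd : 2 ^ (a + 1) ∣ q + 1 := (padicValNat_dvd_iff_le (by omega)).2 (by omega)
  obtain ⟨s, hs⟩ := hd
  obtain ⟨n', hn'⟩ : 2 ^ a ∣ n := by rw [ha]; exact pow_padicValNat_dvd
  have hn'o : Odd n' := by
    rw [← Nat.not_even_iff_odd]
    intro he
    obtain ⟨k, hk⟩ := he.two_dvd
    have h3 : 2 ^ (a + 1) ∣ n := ⟨k, by rw [hn', hk, pow_succ]; ring⟩
    have h4 := (padicValNat_dvd_iff_le (p := 2) (by omega : n ≠ 0)).1 h3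
    omega
  obtain ⟨w, hw⟩ : ∃ w : Fˣ, w = g ^ ((q - 1) * s) := ⟨_, rfl⟩
  have hs0 : 0 < s := by
    rcases Nat.eq_zero_or_pos s with h3 | h3
    · rw [h3] at hs; omega
    · exact h3
  have hwq : w ^ (q + 1) = 1 := by
    rw [hw, ← pow_mul]
    have : (q - 1) * s * (q + 1) = orderOf g * s := by rw [hog]; ring
    rw [this, pow_mul, pow_orderOf_eq_one, one_pow]
  have hw1 : w ^ (2 ^ a) ≠ 1 := by
    intro h3
    rw [hw, ← pow_mul] at h3
    have hq1 : 0 < q - 1 := by omega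
    have h4 := Nat.le_of_dvd (by positivity) (orderOf_dvd_of_pow_eq_one h3)
    rw [hog, hs] at h4
    have h5 : (q - 1) * (2 ^ (a + 1) * s) = (q - 1) * s * 2 ^ a + (q - 1) * s * 2 ^ a := by rw [pow_succ]; ring
    rw [h5] at h4
    have h6 : 0 < (q - 1) * s * 2 ^ a := by
      have : 0 < q - 1 := by omega
      positivity
    omega
  have hw2 : (w ^ (2 ^ a)) ^ 2 = 1 := by
    rw [← pow_mul, ← pow_succ, hw, ← pow_mul]
    have : (q - 1) * s * 2 ^ (a + 1) = orderOf g := by rw [hog, hs]; ring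
    rw [this, pow_orderOf_eq_one]
  have hw3 : ((w : F) ^ (2 ^ a)) = -1 := by
    have h3 : ((w : F) ^ (2 ^ a)) ^ 2 = 1 := by
      have := congrArg (Units.val) hw2
      simpa using this
    rcases mul_self_eq_one_iff.1 ((pow_two _).symm.trans h3) with h4 | h4
    · exact absurd (Units.ext (by simpa using h4)) hw1
    · exact h4
  have hwn : (w : F) ^ n = -1 := by
    conv_lhs => rw [hn']
    rw [pow_mul, hw3, hn'o.neg_one_pow]
  have hwσ : (w : F) * σ w = 1 := by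
    rw [hσ, ← pow_succ', ← Units.val_pow_eq_pow_val, hwq, Units.val_one]
  obtain ⟨v, hv1⟩ := exists_aniso hf (by omega)
  have hv0 : v ≠ 0 := by
    rintro rfl
    exact hv1 (CfsgLib.Q29.f_zero_left hf 0)
  have hneg : (-1 : F) * σ (-1) = 1 := by rw [map_neg, map_one]; ring
  obtain ⟨y, hyd⟩ : ∃ y, y = CfsgLib.Un29.qr hf v (-1) := ⟨_, rfl⟩
  have hyG : y ∈ GU n F q := by
    rw [hyd]
    exact fun u w => (CfsgLib.Un29.mem_iso _).1 (CfsgLib.Un29.qr_mem_iso hf hv1 hneg) u w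
  have hm1 : (-1 : F) ≠ 0 := neg_ne_zero.2 one_ne_zero
  have hL : ∀ u, Matrix.toLin' (y : Matrix (Fin n) (Fin n) F) u = u + ((-1 - 1) / hermForm n F q v v * hermForm n F q u v) • v := by
    intro u
    rw [Matrix.toLin'_apply, hyd, CfsgLib.Un29.qr_mulVec hf hv1 hm1]
  have hc0 : (-1 - 1 : F) / hermForm n F q v v ≠ 0 := div_ne_zero (by
    intro h3; apply h2; linear_combination -h3) hv1
  have hfx := fx_perp hf hv0 hc0 _ hL
  have hy2 : y * y = 1 := by rw [hyd, CfsgLib.Un29.qr_mul hf hv1 hm1 hm1, neg_mul_neg, one_mul, CfsgLib.Un29.qr_one hf hv1]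
  let W : GL (Fin n) F := Matrix.GeneralLinearGroup.mkOfDetNeZero ((w : F) • (1 : Matrix (Fin n) (Fin n) F)) (by
    rw [Matrix.det_smul, Matrix.det_one, mul_one]; exact pow_ne_zero _ w.ne_zero)
  have hW : (W : Matrix (Fin n) (Fin n) F) = (w : F) • (1 : Matrix (Fin n) (Fin n) F) := rfl
  have hWG : W ∈ GU n F q := by
    rw [mem_GU_iff]
    intro u v
    rw [hW, Matrix.toLin'_apply, Matrix.toLin'_apply, Matrix.smul_mulVec, Matrix.smul_mulVec, Matrix.one_mulVec, Matrix.one_mulVec, hf.smul_left, smul_right hf,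
      ← mul_assoc, hwσ, one_mul]
  refine bad_of hf hnm hm h (x := W * y) (y := y) ⟨Subgroup.mul_mem _ hWG hyG, ?_⟩ hyG (w : F)⁻¹ (fun u => ?_) ?_ (Or.inl ?_) ⟨(w : F) ^ 2, ?_⟩
  · show W * y ∈ Geo.specialLinear (Fin n) F
    rw [CfsgLib.Q29.mem_SL, Units.val_mul, Matrix.det_mul, hyd, CfsgLib.Un29.qr_det hf hv1 hm1, hW, Matrix.det_smul, Matrix.det_one, mul_one, Fintype.card_fin, hwn]
    ring
  · rw [Units.val_mul, Matrix.toLin'_mul, LinearMap.comp_apply, hW, Matrix.toLin'_apply ((w : F) • (1 : Matrix (Fin n) (Fin n) F)), Matrix.smul_mulVec, Matrix.one_mulVec, smul_smul,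
      inv_mul_cancel₀ w.ne_zero, one_smul]
  · obtain ⟨k, hk⟩ : ∃ k, m = k + 1 := ⟨m - 1, by omega⟩
    exact ⟨k, by omega⟩
  · omega
  · have h3 : (W * y) ^ 2 = W * W := by
      have hc : Commute W y := by
        apply Units.ext
        rw [Units.val_mul, Units.val_mul, hW, Matrix.smul_mul, Matrix.mul_smul, Matrix.one_mul, Matrix.mul_one]
      rw [hc.mul_pow, pow_two y, hy2, mul_one, pow_two]
    rw [h3, Units.val_mul, hW, Matrix.smul_mul, Matrix.one_mul, smul_smul, pow_two]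

end CfsgLib.PU29
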