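import Cfsg.Agent.LibPU29d

/-! Derangements of odd order prime to the characteristic (seat helper29). -/

namespace CfsgLib.PU29

open Module Cfsg CfsgLib.Semi29 CfsgLib.Dec29 CfsgLib.Sp29 Cfsg.Agent.H22

variable {n m q : ℕ} {F : Type*} [Field F] [Fintype F] {σ : F ≃+* F}

theorem case_diag {r : ℕ} [hr : Fact r.Prime] (hr2 : r ≠ 2) (hF : Fintype.card F = q ^ 2) (hσ : ∀ x, σ x = x ^ q) (hf : Geo.IsUnitaryForm σ (hermForm n F q)) (hnm : n = 2 * m) (hm : 2 ≤ m)
    {D : Fin 2 → Submodule F (Fin n → F)} (h : Pr (hermForm n F q) m (D 0) (D 1)) (hd : r ∣ q + 1) : ¬ FP n q F D r := by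
  classical
  have hq2 : 2 ≤ q := by
    have h1 := Fintype.one_lt_card (α := F)
    rw [hF] at h1
    by_contra h
    have : q = 0 ∨ q = 1 := by omega
    rcases this with h | h <;> subst h <;> norm_num at h1
  have hro : Odd r := hr.out.odd_of_ne_two hr2
  obtain ⟨ω, hω0, hωr, hωk⟩ := exists_prim (F := F) hr.out (by
    rw [hF]
    refine hd.trans ⟨q - 1, ?_⟩
    obtain ⟨t, rfl⟩ : ∃ t, q = t + 1 := ⟨q - 1, by omega⟩
    rw [Nat.add_sub_cancel]
    have : (t + 1) ^ 2 = (t + 1 + 1) * t + 1 := by ring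
    rw [this, Nat.add_sub_cancel])
  have hωσ : ω * σ ω = 1 := by
    rw [hσ, ← pow_succ']
    obtain ⟨k, hk⟩ := hd
    rw [hk, pow_mul, hωr, one_pow]
  obtain ⟨i0, hi0⟩ : ∃ i : Fin n, i = ⟨0, by omega⟩ := ⟨_, rfl⟩
  obtain ⟨i1, hi1⟩ : ∃ i : Fin n, i = ⟨1, by omega⟩ := ⟨_, rfl⟩
  have h01 : i0 ≠ i1 := by
    rw [hi0, hi1]; intro h
    have h2 := congrArg Fin.val h
    exact absurd h2 (by norm_num)
  obtain ⟨d, hdd⟩ : ∃ d : Fin n → F, d = fun i => if i = i0 then ω else if i = i1 then ω⁻¹ else 1 := ⟨_, rfl⟩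
  have hd0 : d i0 = ω := by rw [hdd]; simp
  have hd1 : d i1 = ω⁻¹ := by rw [hdd]; simp [h01.symm]
  have hd2 : ∀ i, i ≠ i0 → i ≠ i1 → d i = 1 := fun i h0 h1 => by rw [hdd]; simp [h0, h1]
  have hdn : ∀ i, d i * σ (d i) = 1 := by
    intro i
    by_cases h0 : i = i0
    · rw [h0, hd0, hωσ]
    by_cases h1 : i = i1
    · rw [h1, hd1, map_inv₀, ← mul_inv, hωσ, inv_one]
    rw [hd2 i h0 h1, map_one, one_mul]
  have hdr : ∀ i, d i ^ r = 1 := by
    intro i
    by_cases h0 : i = i0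
    · rw [h0, hd0, hωr]
    by_cases h1 : i = i1
    · rw [h1, hd1, inv_pow, hωr, inv_one]
    rw [hd2 i h0 h1, one_pow]
  have hprod : ∏ i, d i = 1 := by
    rw [Finset.prod_eq_mul i0 i1 h01 (fun c _ hc => hd2 c hc.1 hc.2) (fun h => absurd (Finset.mem_univ _) h) (fun h => absurd (Finset.mem_univ _) h), hd0, hd1, mul_inv_cancel₀ hω0]
  let x : GL (Fin n) F := Matrix.GeneralLinearGroup.mkOfDetNeZero (Matrix.diagonal d) (by rw [Matrix.det_diagonal, hprod]; exact one_ne_zero)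
  have hx : (x : Matrix (Fin n) (Fin n) F) = Matrix.diagonal d := rfl
  let y : GL (Fin n) F := Matrix.GeneralLinearGroup.mkOfDetNeZero (Matrix.diagonal (fun i => ω⁻¹ * d i)) (by
    rw [Matrix.det_diagonal, Finset.prod_mul_distrib, hprod, mul_one]
    exact Finset.prod_ne_zero_iff.2 fun i _ => inv_ne_zero hω0)
  have hy : (y : Matrix (Fin n) (Fin n) F) = Matrix.diagonal (fun i => ω⁻¹ * d i) := rfl
  have hxG : x ∈ GU n F q := CfsgLib.Q29.diag_mem_GU hσ hx hdn
  have hyG : y ∈ GU n F q := CfsgLib.Q29.diag_mem_GU hσ hy (fun i => by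
    rw [map_mul, map_inv₀, mul_mul_mul_comm, hdn, mul_one, ← mul_inv, hωσ, inv_one])
  have hxp : (x : Matrix (Fin n) (Fin n) F) ^ r = 1 := by
    rw [hx, diag_pow d 1 hdr, one_smul]
  refine bad_of hf hnm hm h (x := x) (y := y) ⟨hxG, ?_⟩ hyG ω⁻¹ (fun u => ?_) ?_ (Or.inr ⟨r, hro, ?_⟩) ⟨1, ?_⟩
  · show x ∈ Geo.specialLinear (Fin n) F
    rw [CfsgLib.Q29.mem_SL, hx, Matrix.det_diagonal, hprod]
  · rw [Matrix.toLin'_apply, Matrix.toLin'_apply, hx, hy]
    funext i
    rw [Pi.smul_apply, Matrix.mulVec_diagonal, Matrix.mulVec_diagonal, smul_eq_mul, mul_assoc]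
  · obtain ⟨W, hW, hWc⟩ := diag_eig (fun i => ω⁻¹ * d i) 1
    have h1 : Fx (Matrix.toLin' (y : Matrix (Fin n) (Fin n) F)) = W := by
      ext u
      rw [mem_Fx, hW, hy, one_smul]
    rw [h1]
    have h2 : ∀ i : Fin n, (ω⁻¹ * d i - 1 ≠ 0) ↔ i ≠ i0 := by
      intro i
      constructor
      · rintro h3 rfl
        apply h3
        rw [hd0, inv_mul_cancel₀ hω0, sub_self]
      · intro h0 h3
        have h4 : d i = ω := by
          have h5 := sub_eq_zero.1 h3
          rw [inv_mul_eq_iff_eq_mul₀ hω0, mul_one] at h5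
          exact h5
        by_cases h1 : i = i1
        · rw [h1, hd1] at h4
          have h5 : ω ^ 2 = 1 := by
            rw [pow_two]
            nth_rewrite 1 [← h4]
            rw [inv_mul_cancel₀ hω0]
          have h6 := Nat.le_of_dvd (by norm_num) (hωk 2 h5)
          have h7 := hr.out.two_le
          omega
        · rw [hd2 i h0 h1] at h4
          have h6 := Nat.le_of_dvd (by norm_num) (hωk 1 (by rw [pow_one, ← h4]))
          have h7 := hr.out.two_le
          omega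
    have h3 : Fintype.card {i : Fin n // ω⁻¹ * d i - 1 ≠ 0} = Fintype.card {i : Fin n // i ≠ i0} := Fintype.card_congr (Equiv.subtypeEquivRight h2)
    have h4 : Fintype.card {i : Fin n // i ≠ i0} = n - 1 := by
      rw [Fintype.card_subtype_compl, Fintype.card_subtype_eq, Fintype.card_fin]
    have h5 : finrank F W = 1 := by omega
    rw [h5]; exact odd_one
  · rw [← Matrix.toLin'_pow, hxp, Matrix.toLin'_one]; rfl
  · rw [Units.val_pow_eq_pow_val, hxp, one_smul]

section block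
variable {k : ℕ} (e : Fin k ⊕ Fin (n - k) ≃ Fin n)

/-- block matrices -/
def Bl (A : Matrix (Fin k) (Fin k) F) : Matrix (Fin n) (Fin n) F := (Matrix.fromBlocks A 0 0 1).submatrix e.symm e.symm

omit [Fintype F] in
lemma Bl_one : Bl e (1 : Matrix (Fin k) (Fin k) F) = 1 := by
  rw [Bl, Matrix.fromBlocks_one, Matrix.submatrix_one_equiv]

omit [Fintype F] in
lemma Bl_mul (A A' : Matrix (Fin k) (Fin k) F) : Bl e (A * A') = Bl e A * Bl e A' := by
  rw [Bl, Bl, Bl, Matrix.submatrix_mul_equiv, Matrix.fromBlocks_multiply]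
  simp

omit [Fintype F] in
lemma Bl_pow (A : Matrix (Fin k) (Fin k) F) (r : ℕ) : Bl e A ^ r = Bl e (A ^ r) := by
  induction r with
  | zero => rw [pow_zero, pow_zero, Bl_one]
  | succ r ih => rw [pow_succ, pow_succ, ih, Bl_mul]

omit [Fintype F] in
lemma Bl_det (A : Matrix (Fin k) (Fin k) F) : (Bl e A).det = A.det := by
  rw [Bl, Matrix.det_submatrix_equiv_self, Matrix.det_fromBlocks_zero₂₁, Matrix.det_one, mul_one]

omit [Fintype F] in
lemma Bl_transpose (A : Matrix (Fin k) (Fin k) F) : (Bl e A).transpose = Bl e A.transpose := by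
  rw [Bl, Bl, Matrix.transpose_submatrix, Matrix.fromBlocks_transpose]
  simp

omit [Fintype F] in
lemma Bl_map (τ : F →+* F) (A : Matrix (Fin k) (Fin k) F) : (Bl e A).map τ = Bl e (A.map τ) := by
  rw [Bl, Bl, ← Matrix.submatrix_map, Matrix.fromBlocks_map]
  simp

omit [Fintype F] in
lemma Bl_fx (hk : k ≤ n) (A : Matrix (Fin k) (Fin k) F) (hA : ∀ w, A.mulVec w = w → w = 0) :
    finrank F (Fx (Matrix.toLin' (Bl e A))) + k = n := by
  have h1 : Fx (Matrix.toLin' (Bl e A)) = LinearMap.ker (LinearMap.funLeft F F (fun i => e (Sum.inl i))) := by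
    ext v
    rw [mem_Fx, Matrix.toLin'_apply, Bl, Matrix.submatrix_mulVec_equiv, Matrix.fromBlocks_mulVec, LinearMap.mem_ker]
    constructor
    · intro h
      refine hA _ ?_
      funext i
      have h2 := congrFun h (e (Sum.inl i))
      simp only [Function.comp_apply, Equiv.symm_apply_apply, Sum.elim_inl, Matrix.zero_mulVec, add_zero, Equiv.symm_symm] at h2
      exact h2
    · intro h
      have h3 : (v ∘ e.symm.symm) ∘ Sum.inl = 0 := h
      rw [h3]
      funext j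
      obtain ⟨j', rfl⟩ := e.surjective j
      rcases j' with i | i
      · simp only [Function.comp_apply, Equiv.symm_apply_apply, Sum.elim_inl, Matrix.zero_mulVec, add_zero, Matrix.mulVec_zero, Pi.zero_apply]
        exact (congrFun h i).symm
      · simp
  have h2 := LinearMap.finrank_range_add_finrank_ker (LinearMap.funLeft F F (fun i => e (Sum.inl i)))
  rw [LinearMap.range_eq_top.2 (LinearMap.funLeft_surjective_of_injective F F _ (fun a b hab => Sum.inl_injective (e.injective hab))), finrank_top,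
    Module.finrank_fin_fun, Module.finrank_fin_fun] at h2
  rw [h1]; omega

end block

theorem exists_block {p r c0 : ℕ} [Fact p.Prime] [CharP F p] [hr : Fact r.Prime] (hrp : r ≠ p) (hF : Fintype.card F = q ^ 2) (hσ : ∀ x, σ x = x ^ q)
    (hc0 : orderOf (-(q : ZMod r)) = c0) (hodd : Odd c0) (h3 : 3 ≤ c0) (hn : c0 ≤ n) :
    ∃ x ∈ GU n F q ⊓ Geo.specialLinear (Fin n) F, x ^ r = 1 ∧ finrank F (Fx (Matrix.toLin' (x : Matrix (Fin n) (Fin n) F))) + c0 = n := by
  classical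
  have hnd : ¬ r ∣ q + 1 := by
    intro h
    have h4 : ((q + 1 : ℕ) : ZMod r) = 0 := (ZMod.natCast_eq_zero_iff _ _).2 h
    push_cast at h4
    have h5 : -(q : ZMod r) = 1 := by linear_combination -h4
    rw [h5, orderOf_one] at hc0
    omega
  obtain ⟨y, hy⟩ : ∃ y : GU c0 F q, orderOf y = r := by
    apply exists_prime_orderOf_dvd_card'
    rw [card_GU hF]
    refine Dvd.dvd.trans ?_ (dvd_mul_left _ _)
    have h4 : c0 - 1 ∈ Finset.range c0 := Finset.mem_range.2 (by omega)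
    refine Dvd.dvd.trans ?_ (Finset.dvd_prod_of_mem _ h4)
    have he : Even (c0 - 1) := by
      obtain ⟨k, hk⟩ := hodd
      exact ⟨k, by omega⟩
    rw [if_pos he]
    have h5 : c0 - 1 + 1 = c0 := by omega
    rw [h5, ← ZMod.natCast_eq_zero_iff]
    push_cast
    have h6 : (-(q : ZMod r)) ^ c0 = 1 := by rw [← hc0]; exact pow_orderOf_eq_one _
    rw [hodd.neg_pow] at h6
    linear_combination -h6
  obtain ⟨A, hA⟩ : ∃ A : Matrix (Fin c0) (Fin c0) F, A = ((y : GL (Fin c0) F) : Matrix (Fin c0) (Fin c0) F) := ⟨_, rfl⟩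
  have hAr : A ^ r = 1 := by
    rw [hA, ← Units.val_pow_eq_pow_val, ← Subgroup.coe_pow, ← hy, pow_orderOf_eq_one]; rfl
  have hdet : A.det = 1 := by
    have h4 := CfsgLib.Q29.det_norm hσ y.2
    rw [← hA, hσ, ← pow_succ'] at h4
    have h5 : A.det ^ r = 1 := by rw [← Matrix.det_pow, hAr, Matrix.det_one]
    have h6 := orderOf_dvd_of_pow_eq_one h4
    have h7 := orderOf_dvd_of_pow_eq_one h5
    rcases (Nat.dvd_prime hr.out).1 h7 with h8 | h8
    · exact orderOf_eq_one_iff.1 h8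
    · rw [h8] at h6; exact absurd h6 hnd
  obtain ⟨Y, hY⟩ : ∃ Y : (Fin c0 → F) →ₗ[F] (Fin c0 → F), Y = Matrix.toLin' A := ⟨_, rfl⟩
  have hYr : Y ^ r = 1 := by
    rw [hY, ← Matrix.toLin'_pow, hAr, Matrix.toLin'_one]; rfl
  have hY1 : Y ≠ 1 := by
    intro h
    have h4 : A = 1 := by
      apply Matrix.toLin'.injective
      rw [← hY, h, Matrix.toLin'_one]; rfl
    have h5 : y = 1 := Subtype.ext (Units.ext (hA.symm.trans h4))
    rw [h5, orderOf_one] at hy
    exact hr.out.one_lt.ne hy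
  have hi : orderOf ((Fintype.card F : ℕ) : ZMod r) = c0 := by
    rw [hF]
    have h4 : ((q ^ 2 : ℕ) : ZMod r) = (-(q : ZMod r)) ^ 2 := by push_cast; ring
    rw [h4, Nat.Coprime.orderOf_pow, hc0]
    rw [hc0]
    exact (Nat.coprime_two_left.2 hodd).symm
  have hYfix : ∀ w, Y w = w → w = 0 := by
    obtain ⟨k, hk⟩ := dims (semi_of_pow hr.out hrp one_ne_zero Y (by rw [hYr, one_smul])) (dim_of_pow hrp Y hYr) ⊤ (inv_top Y)
    rw [top_inf_eq, finrank_top, hi, Module.finrank_fin_fun] at hk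
    have hlt : finrank F (Fx Y) ≠ c0 := by
      intro h
      apply hY1
      have h3 : Fx Y = ⊤ := Submodule.eq_top_of_finrank_eq (by rw [h, Module.finrank_fin_fun])
      have h4 : ∀ w, Y w = w := fun w => mem_Fx.1 (by rw [h3]; trivial)
      exact LinearMap.ext h4
    have h0 : finrank F (Fx Y) = 0 := by
      rcases Nat.eq_zero_or_pos k with h3 | h3
      · rw [h3] at hk; omega
      · have : c0 ≤ k * c0 := Nat.le_mul_of_pos_left c0 h3
        omega
    rw [Submodule.finrank_eq_zero] at h0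
    intro w hw
    have : w ∈ Fx Y := mem_Fx.2 hw
    rw [h0] at this
    exact this
  let e : Fin c0 ⊕ Fin (n - c0) ≃ Fin n := finSumFinEquiv.trans (finCongr (by omega))
  let x : GL (Fin n) F := Matrix.GeneralLinearGroup.mkOfDetNeZero (Bl e A) (by rw [Bl_det, hdet]; exact one_ne_zero)
  have hx : (x : Matrix (Fin n) (Fin n) F) = Bl e A := rfl
  refine ⟨x, ⟨?_, ?_⟩, ?_, ?_⟩
  · show x ∈ GU n F q
    rw [mem_GU_iff' (σ := (σ : F →+* F)) hσ, hx, Bl_transpose, Bl_map, ← Bl_mul, hA, (mem_GU_iff' (σ := (σ : F →+* F)) hσ y.1).1 y.2, Bl_one]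
  · show x ∈ Geo.specialLinear (Fin n) F
    rw [CfsgLib.Q29.mem_SL, hx, Bl_det, hdet]
  · apply Units.ext
    rw [Units.val_pow_eq_pow_val, hx, Bl_pow, hAr, Bl_one, Units.val_one]
  · rw [hx]
    exact Bl_fx e hn A (fun w hw => hYfix w (by rw [hY, Matrix.toLin'_apply]; exact hw))

theorem case_odd {p r : ℕ} [Fact p.Prime] [CharP F p] [hr : Fact r.Prime] (hrp : r ≠ p) (hr2 : r ≠ 2) (hF : Fintype.card F = q ^ 2) (hσ : ∀ x, σ x = x ^ q)
    (hf : Geo.IsUnitaryForm σ (hermForm n F q)) (hnm : n = 2 * m) (hm : 2 ≤ m)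
    {D : Fin 2 → Submodule F (Fin n → F)} (h : Pr (hermForm n F q) m (D 0) (D 1)) (hd : ∃ i < m, r ∣ q ^ (2 * i + 1) + 1) : ¬ FP n q F D r := by
  classical
  obtain ⟨i, him, hi⟩ := hd
  by_cases h1 : r ∣ q + 1
  · exact case_diag hr2 hF hσ hf hnm hm h h1
  have h2 : (-(q : ZMod r)) ^ (2 * i + 1) = 1 := by
    rw [← ZMod.natCast_eq_zero_iff] at hi
    push_cast at hi
    rw [Odd.neg_pow ⟨i, rfl⟩]
    linear_combination -hi
  have h3 := orderOf_dvd_of_pow_eq_one h2
  have h4 := Nat.le_of_dvd (by omega) h3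
  obtain ⟨c0, hc0⟩ : ∃ c0, orderOf (-(q : ZMod r)) = c0 := ⟨_, rfl⟩
  rw [hc0] at h3 h4
  have hodd : Odd c0 := by
    have h5 : Odd (2 * i + 1) := ⟨i, rfl⟩
    exact Odd.of_dvd_nat h5 h3
  have hc1 : c0 ≠ 1 := by
    intro h5
    rw [h5, orderOf_eq_one_iff] at hc0
    apply h1
    rw [← ZMod.natCast_eq_zero_iff]
    push_cast
    linear_combination -hc0
  have h5 : 3 ≤ c0 := by
    obtain ⟨k, hk⟩ := hodd
    omega
  obtain ⟨x, hxG, hxr, hfx⟩ := exists_block (n := n) hrp hF hσ hc0 hodd h5 (by omega)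
  refine bad_of hf hnm hm h (x := x) (y := x) hxG hxG.1 1 (fun u => by rw [one_smul]) ?_ (Or.inr ⟨r, hr.out.odd_of_ne_two hr2, ?_⟩) ⟨1, ?_⟩
  · obtain ⟨k, hk⟩ := hodd
    exact ⟨m - k - 1, by omega⟩
  · rw [← Matrix.toLin'_pow, ← Units.val_pow_eq_pow_val, hxr, Units.val_one, Matrix.toLin'_one]; rfl
  · rw [hxr, Units.val_one, one_smul]

end CfsgLib.PU29
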