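import Cfsg.Agent.LibPU29e
import Cfsg.Agent.LibH22HermT

/-! Involutions fix pairs of complementary totally isotropic subspaces (seat helper29). -/

namespace CfsgLib.PU29

open Module Cfsg CfsgLib.Semi29 CfsgLib.Dec29 CfsgLib.Sp29 Cfsg.Agent.H22

variable {n m q : ℕ} {F : Type*} [Field F] [Fintype F] {σ : F ≃+* F}

lemma ti_le (hf : Geo.IsUnitaryForm σ (hermForm n F q)) (hnm : n = 2 * m) {U : Submodule F (Fin n → F)} (tU : ∀ u ∈ U, ∀ v ∈ U, hermForm n F q u v = 0) : finrank F U ≤ m := by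
  have h1 : U ≤ CfsgLib.Un29.perp hf U := fun u hu => by
    rw [CfsgLib.Un29.mem_perp]
    exact fun w hw => tU w hw u hu
  have h2 := Submodule.finrank_mono h1
  have h3 := CfsgLib.Un29.finrank_perp hf U
  rw [Module.finrank_fin_fun] at h3
  omega

lemma pr_of_sup (hf : Geo.IsUnitaryForm σ (hermForm n F q)) (hnm : n = 2 * m) {U W : Submodule F (Fin n → F)} (tU : ∀ u ∈ U, ∀ v ∈ U, hermForm n F q u v = 0)
    (tW : ∀ u ∈ W, ∀ v ∈ W, hermForm n F q u v = 0) (h : U ⊔ W = ⊤) : Pr (hermForm n F q) m U W := by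
  have h1 := ti_le hf hnm tU
  have h2 := ti_le hf hnm tW
  have h3 := Submodule.finrank_sup_add_finrank_inf_eq U W
  rw [h, finrank_top, Module.finrank_fin_fun] at h3
  refine ⟨?_, h, by omega, by omega, tU, tW⟩
  rw [← Submodule.finrank_eq_zero (R := F)]
  omega

lemma span_ti (hf : Geo.IsUnitaryForm σ (hermForm n F q)) {ι : Type*} (s : ι → Fin n → F) (hs : ∀ i j, hermForm n F q (s i) (s j) = 0) :
    ∀ u ∈ Submodule.span F (Set.range s), ∀ v ∈ Submodule.span F (Set.range s), hermForm n F q u v = 0 := by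
  intro u hu v hv
  refine Submodule.span_induction (p := fun y _ => hermForm n F q u y = 0) ?_ ?_ ?_ ?_ hv
  · rintro _ ⟨j, rfl⟩
    refine Submodule.span_induction (p := fun y _ => hermForm n F q y (s j) = 0) ?_ ?_ ?_ ?_ hu
    · rintro _ ⟨i, rfl⟩
      exact hs i j
    · exact CfsgLib.Q29.f_zero_left hf _
    · intro a b _ _ ha hb
      rw [hf.add_left, ha, hb, add_zero]
    · intro a b _ hb
      rw [hf.smul_left, hb, mul_zero]
  · rw [← zero_smul F (0 : Fin n → F), smul_right hf, map_zero, zero_mul]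
  · intro a b _ _ ha hb
    rw [add_right hf, ha, hb, add_zero]
  · intro a b _ hb
    rw [smul_right hf, hb, mul_zero]

lemma span_inv (L : (Fin n → F) →ₗ[F] (Fin n → F)) {ι : Type*} (s : ι → Fin n → F) (d : ι → F) (hs : ∀ i, L (s i) = d i • s i) :
    Inv L (Submodule.span F (Set.range s)) := by
  intro u hu
  refine Submodule.span_induction (p := fun y _ => L y ∈ Submodule.span F (Set.range s)) ?_ ?_ ?_ ?_ hu
  · rintro _ ⟨i, rfl⟩
    rw [hs]
    exact Submodule.smul_mem _ _ (Submodule.subset_span ⟨i, rfl⟩)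
  · rw [map_zero]; exact Submodule.zero_mem _
  · intro a b _ _ ha hb
    rw [map_add]; exact Submodule.add_mem _ ha hb
  · intro a b _ hb
    rw [map_smul]; exact Submodule.smul_mem _ _ hb

theorem concl (hF : Fintype.card F = q ^ 2) (hσ : ∀ x, σ x = x ^ q) (hf : Geo.IsUnitaryForm σ (hermForm n F q)) (hm : 0 < m)
    {D : Fin 2 → Submodule F (Fin n → F)} (h : Pr (hermForm n F q) m (D 0) (D 1)) {x : GL (Fin n) F} {U W : Submodule F (Fin n → F)}
    (hP : Pr (hermForm n F q) m U W) (hU : Inv (Matrix.toLin' (x : Matrix (Fin n) (Fin n) F)) U) (hW : Inv (Matrix.toLin' (x : Matrix (Fin n) (Fin n) F)) W) :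
    ∃ g ∈ GU n F q ⊓ Geo.specialLinear (Fin n) F, g⁻¹ * x * g ∈ Geo.decompositionStabilizer D := by
  obtain ⟨g, hg, h1, h2⟩ := trans_pair hF hσ hf hm h hP
  refine ⟨g, hg, 1, ?_⟩
  have key : ∀ (E : Submodule F (Fin n → F)), Inv (Matrix.toLin' (x : Matrix (Fin n) (Fin n) F)) (E.map (Matrix.toLin' (g : Matrix (Fin n) (Fin n) F))) →
      E.map (Matrix.toLin' ((g⁻¹ * x * g : GL (Fin n) F) : Matrix (Fin n) (Fin n) F)) = E := by
    intro E hE
    rw [Units.val_mul, Units.val_mul, Matrix.toLin'_mul, Matrix.toLin'_mul, Submodule.map_comp, Submodule.map_comp]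
    have h3 : (E.map (Matrix.toLin' (g : Matrix (Fin n) (Fin n) F))).map (Matrix.toLin' (x : Matrix (Fin n) (Fin n) F)) = E.map (Matrix.toLin' (g : Matrix (Fin n) (Fin n) F)) := by
      refine Submodule.eq_of_le_of_finrank_eq ?_ ?_
      · rintro _ ⟨u, hu, rfl⟩
        exact hE u hu
      · exact (Submodule.equivMapOfInjective _ (toLin_inj' x) _).finrank_eq.symm
    rw [h3, ← Submodule.map_comp, ← Matrix.toLin'_mul, Units.inv_mul, Matrix.toLin'_one, Submodule.map_id]
  intro i
  rw [Equiv.Perm.one_apply]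
  fin_cases i
  · exact key (D 0) (by rw [h1]; exact hU)
  · exact key (D 1) (by rw [h2]; exact hW)

/-- pairing up the eigenvectors -/
lemma exists_pairing (S : Finset (Fin n)) (hS : Even S.card) (hn : Even n) :
    ∃ (ι : Type) (κ : ι × Fin 2 ≃ Fin n), ∀ j, (κ (j, 0) ∈ S ↔ κ (j, 1) ∈ S) := by
  classical
  have hcard : Fintype.card {i // i ∈ S} + Fintype.card {i // ¬ i ∈ S} = n := by
    rw [Fintype.card_subtype_compl, Fintype.card_fin, Fintype.card_coe]
    have : S.card ≤ n := by simpa using Finset.card_le_univ S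
    omega
  rw [Fintype.card_coe] at hcard
  obtain ⟨k, hk⟩ := hS
  obtain ⟨t, ht⟩ := hn
  have h1 : Fintype.card {i // i ∈ S} = Fintype.card (Fin k × Fin 2) := by
    rw [Fintype.card_coe, Fintype.card_prod, Fintype.card_fin, Fintype.card_fin]; omega
  have h2 : Fintype.card {i // ¬ i ∈ S} = Fintype.card (Fin (t - k) × Fin 2) := by
    rw [Fintype.card_prod, Fintype.card_fin, Fintype.card_fin]; omega
  let e1 := Fintype.equivOfCardEq h1
  let e2 := Fintype.equivOfCardEq h2
  refine ⟨Fin k ⊕ Fin (t - k), ((Equiv.sumProdDistrib _ _ _).trans (Equiv.sumCongr e1.symm e2.symm)).trans (Equiv.sumCompl (fun i => i ∈ S)), ?_⟩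
  rintro (j | j)
  · constructor
    · intro _; exact (e1.symm (j, 1)).2
    · intro _; exact (e1.symm (j, 0)).2
  · constructor
    · intro h; exact absurd h (e2.symm (j, 0)).2
    · intro h; exact absurd h (e2.symm (j, 1)).2

theorem back {p : ℕ} [Fact p.Prime] [CharP F p] (hF : Fintype.card F = q ^ 2) (hσ : ∀ x, σ x = x ^ q) (hf : Geo.IsUnitaryForm σ (hermForm n F q)) (hnm : n = 2 * m) (hm : 2 ≤ m)
    {D : Fin 2 → Submodule F (Fin n → F)} (h : Pr (hermForm n F q) m (D 0) (D 1)) (hqo : Odd q) (hv : padicValNat 2 (q + 1) ≤ padicValNat 2 n) : FP n q F D 2 := by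
  classical
  haveI : Fact (Nat.Prime 2) := ⟨Nat.prime_two⟩
  intro x hx hz _
  obtain ⟨z, hz⟩ := hz
  have h2 : (2 : F) ≠ 0 := by
    intro h0
    have h1 : ((q ^ 2 : ℕ) : F) = 0 := by rw [← hF]; exact FiniteField.cast_card_eq_zero F
    obtain ⟨t, rfl⟩ := hqo
    push_cast at h1
    apply one_ne_zero (α := F)
    linear_combination h1 - (2 * (t:F)^2 + 2 * t) * h0
  have hchar : ringChar F ≠ 2 := by
    intro hc
    apply h2
    have := ringChar.Nat.cast_ringChar (R := F)
    rw [hc] at this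
    exact_mod_cast this
  obtain ⟨X, hX⟩ : ∃ X, X = Matrix.toLin' (x : Matrix (Fin n) (Fin n) F) := ⟨_, rfl⟩
  have hXf : ∀ u v, hermForm n F q (X u) (X v) = hermForm n F q u v := by rw [hX]; exact (mem_GU_iff x).1 hx.1
  have hXX : ∀ u, X (X u) = z • u := by
    intro u
    have h1 : (x : Matrix (Fin n) (Fin n) F) * x = z • 1 := by rw [← hz, pow_two, Units.val_mul]
    rw [hX, ← Matrix.toLin'_mul_apply, h1, Matrix.toLin'_apply, Matrix.smul_mulVec, Matrix.one_mulVec]
  obtain ⟨v0, hv0⟩ := exists_aniso hf (by omega)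
  have hzn : z * σ z = 1 := by
    have h1 : hermForm n F q (X (X v0)) (X (X v0)) = hermForm n F q v0 v0 := by rw [hXf, hXf]
    rw [hXX, hf.smul_left, smul_right hf, ← mul_assoc] at h1
    exact mul_right_cancel₀ hv0 (h1.trans (one_mul _).symm)
  have hz0 : z ≠ 0 := left_ne_zero_of_mul_eq_one hzn
  obtain ⟨w, hw⟩ : IsSquare z := by
    rw [FiniteField.isSquare_iff hchar hz0, hF]
    obtain ⟨t, rfl⟩ := hqo
    have h1 : (2 * t + 1) ^ 2 / 2 = (2 * t + 1 + 1) * t := by
      have : (2 * t + 1) ^ 2 = 2 * ((2 * t + 1 + 1) * t) + 1 := by ring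
      rw [this]; omega
    rw [h1, pow_mul, pow_succ', ← hσ, hzn, one_pow]
  have hw0 : w ≠ 0 := by
    rintro rfl
    rw [mul_zero] at hw
    exact hz0 hw
  have hs : (w * σ w) * (w * σ w) = 1 := by
    rw [← hzn, hw, map_mul]; ring
  -- the involution
  obtain ⟨Y, hY⟩ : ∃ Y : Matrix (Fin n) (Fin n) F, Y = w⁻¹ • (x : Matrix (Fin n) (Fin n) F) := ⟨_, rfl⟩
  have hYX : ∀ u, X u = w • Matrix.toLin' Y u := by
    intro u
    rw [hX, hY, Matrix.toLin'_apply, Matrix.toLin'_apply, Matrix.smul_mulVec, smul_smul, mul_inv_cancel₀ hw0, one_smul]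
  rcases mul_self_eq_one_iff.1 hs with hs1 | hs1
  · -- orthonormal eigenbasis
    have hY2 : Y ^ 2 = 1 := by
      have h1 : (x : Matrix (Fin n) (Fin n) F) * x = z • 1 := by rw [← hz, pow_two, Units.val_mul]
      rw [pow_two, hY, Matrix.smul_mul, Matrix.mul_smul, h1, smul_smul, smul_smul, hw]
      have : w⁻¹ * w⁻¹ * (w * w) = 1 := by field_simp
      rw [this, one_smul]
    obtain ⟨v, hvli, d, hd, hdv⟩ := CfsgLib.Q29.diag_of_sq h2 Y hY2
    have hxv : ∀ i, (x : Matrix (Fin n) (Fin n) F).mulVec (v i) = (w * d i) • v i := by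
      intro i
      have h1 := hYX (v i)
      rw [hX, Matrix.toLin'_apply, Matrix.toLin'_apply, hdv, smul_smul] at h1
      exact h1
    obtain ⟨b, e, hb, hbe, hee⟩ := CfsgLib.Q29.exists_on_eigen hf (x : Matrix (Fin n) (Fin n) F) (by
      intro u v'
      have := hXf u v'
      rw [hX, Matrix.toLin'_apply, Matrix.toLin'_apply] at this
      exact this) v hvli (fun i => w * d i) hxv (by
      intro i
      rcases hd i with h1 | h1
      · rw [h1, mul_one, hs1]
      · rw [h1, map_mul, map_neg, map_one]; linear_combination hs1) n le_rfl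
    have he : ∀ i, e i = w ∨ e i = -w := by
      intro i
      obtain ⟨j, hj⟩ := hee i
      rcases hd j with h1 | h1
      · left; rw [hj, h1, mul_one]
      · right; rw [hj, h1]; ring
    have hwne : w ≠ -w := by
      intro h1
      apply hw0
      have h3 : (2 : F) * w = 0 := by linear_combination h1
      exact (mul_eq_zero.1 h3).resolve_left h2
    have hbli := CfsgLib.Q29.on_li hf hb
    obtain ⟨Q, hQ, -⟩ := CfsgLib.Q29.diag_of_li (x : Matrix (Fin n) (Fin n) F) b hbli e hbe
    have hdet : ∏ i, e i = 1 := by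
      have h1 := congrArg Matrix.det hQ
      have h3 : (x : Matrix (Fin n) (Fin n) F).det = 1 := (CfsgLib.Q29.mem_SL x).1 hx.2
      rw [Matrix.det_mul, Matrix.det_mul, h3, Matrix.det_diagonal, one_mul] at h1
      have h4 : (Q : Matrix (Fin n) (Fin n) F).det ≠ 0 := (Matrix.isUnit_iff_isUnit_det _).1 Q.isUnit |>.ne_zero
      exact (mul_right_eq_self₀.1 h1.symm).resolve_right h4
    obtain ⟨S, hSd⟩ : ∃ S : Finset (Fin n), S = Finset.univ.filter (fun i => e i = -w) := ⟨_, rfl⟩
    have hmS : ∀ i, i ∈ S ↔ e i = -w := fun i => by rw [hSd]; simp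
    have hprod : ∏ i, e i = w ^ n * (-1) ^ S.card := by
      have h1 : ∀ i ∈ (Finset.univ : Finset (Fin n)), e i = w * (if i ∈ S then -1 else 1) := by
        intro i _
        by_cases hi : i ∈ S
        · rw [if_pos hi, (hmS i).1 hi]; ring
        · rw [if_neg hi, mul_one]
          rcases he i with h1 | h1
          · exact h1
          · exact absurd ((hmS i).2 h1) hi
      rw [Finset.prod_congr rfl h1, Finset.prod_mul_distrib, Finset.prod_const, Finset.card_univ, Fintype.card_fin, Finset.prod_ite_mem, Finset.univ_inter, Finset.prod_const]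
    have hSe : Even S.card := by
      rw [← Nat.not_odd_iff_even]
      intro ho
      rw [hprod, ho.neg_one_pow] at hdet
      have hwn : w ^ n = -1 := by linear_combination -hdet
      have hwq : w ^ (q + 1) = 1 := by rw [pow_succ', ← hσ, hs1]
      obtain ⟨s', hs'⟩ : 2 ^ (padicValNat 2 (q + 1)) ∣ q + 1 := pow_padicValNat_dvd
      have hs'o : Odd s' := by
        rw [← Nat.not_even_iff_odd]
        intro he'
        obtain ⟨k, hk⟩ := he'.two_dvd
        have h3 : 2 ^ (padicValNat 2 (q + 1) + 1) ∣ q + 1 := ⟨k, by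
          conv_lhs => rw [hs']
          rw [hk, pow_succ]; ring⟩
        have h4 := (padicValNat_dvd_iff_le (p := 2) (by omega : q + 1 ≠ 0)).1 h3
        omega
      obtain ⟨n', hn'⟩ : 2 ^ (padicValNat 2 n) ∣ n := pow_padicValNat_dvd
      have h5 : (w ^ n) ^ s' = 1 := by
        have h6 : n * s' = (q + 1) * (2 ^ (padicValNat 2 n - padicValNat 2 (q + 1)) * n') := by
          have h7 : 2 ^ (padicValNat 2 n) = 2 ^ (padicValNat 2 (q + 1)) * 2 ^ (padicValNat 2 n - padicValNat 2 (q + 1)) := by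
            rw [← pow_add]; congr 1; omega
          calc n * s' = (2 ^ (padicValNat 2 n) * n') * s' := by rw [← hn']
            _ = (2 ^ (padicValNat 2 (q + 1)) * s') * (2 ^ (padicValNat 2 n - padicValNat 2 (q + 1)) * n') := by rw [h7]; ring
            _ = _ := by rw [← hs']
        rw [← pow_mul, h6, pow_mul, hwq, one_pow]
      rw [hwn, hs'o.neg_one_pow] at h5
      apply h2
      linear_combination -h5
    obtain ⟨ι, κ, hκ⟩ := exists_pairing S hSe (by rw [hnm]; exact even_two_mul m)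
    obtain ⟨ν, hν⟩ := exists_norm_neg_one (σ := (σ : F →+* F)) hF hσ
    have hν : ν * σ ν = -1 := hν
    have hν0 : ν ≠ 0 := by
      rintro rfl
      rw [zero_mul] at hν
      exact neg_ne_zero.2 one_ne_zero hν.symm
    have hκe : ∀ j, e (κ (j, 1)) = e (κ (j, 0)) := by
      intro j
      by_cases hj : κ (j, 0) ∈ S
      · rw [(hmS _).1 hj, (hmS _).1 ((hκ j).1 hj)]
      · have hj' : κ (j, 1) ∉ S := fun h => hj ((hκ j).2 h)
        rcases he (κ (j, 0)) with h1 | h1
        · rcases he (κ (j, 1)) with h3 | h3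
          · rw [h1, h3]
          · exact absurd ((hmS _).2 h3) hj'
        · exact absurd ((hmS _).2 h1) hj
    have hbκ : ∀ a b', hermForm n F q (b (κ a)) (b (κ b')) = if a = b' then 1 else 0 := by
      intro a b'
      rw [hb]
      by_cases hab : a = b'
      · rw [if_pos hab, if_pos (by rw [hab])]
      · rw [if_neg hab, if_neg (fun h => hab (κ.injective h))]
    have hpair : ∀ μ : F, μ * σ μ = -1 → ∀ i j, hermForm n F q (b (κ (i, 0)) + μ • b (κ (i, 1))) (b (κ (j, 0)) + μ • b (κ (j, 1))) = 0 := by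
      intro μ hμ i j
      rw [hf.add_left, add_right hf, add_right hf, hf.smul_left, hf.smul_left, smul_right hf, smul_right hf, hbκ, hbκ, hbκ, hbκ]
      by_cases hij : i = j
      · subst hij
        simp only [Prod.mk.injEq, true_and, if_true]
        rw [if_neg (by decide), if_neg (by decide)]
        linear_combination hμ
      · simp [hij]
    have hXp : ∀ μ : F, ∀ i, X (b (κ (i, 0)) + μ • b (κ (i, 1))) = e (κ (i, 0)) • (b (κ (i, 0)) + μ • b (κ (i, 1))) := by
      intro μ i
      have h1 : ∀ j, X (b j) = e j • b j := fun j => by rw [hX, Matrix.toLin'_apply]; exact hbe j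
      rw [map_add, map_smul, h1, h1, hκe, smul_add, smul_comm]
    have hνn : (-ν) * σ (-ν) = -1 := by rw [map_neg, neg_mul_neg, hν]
    refine concl hF hσ hf (by omega) h (U := Submodule.span F (Set.range fun i : ι => b (κ (i, 0)) + ν • b (κ (i, 1))))
      (W := Submodule.span F (Set.range fun i : ι => b (κ (i, 0)) + (-ν) • b (κ (i, 1)))) (pr_of_sup hf hnm (span_ti hf _ (hpair ν hν)) (span_ti hf _ (hpair (-ν) hνn)) ?_)
      (by rw [← hX]; exact span_inv X _ _ (hXp ν)) (by rw [← hX]; exact span_inv X _ _ (hXp (-ν)))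
    rw [eq_top_iff]
    have h1 : Submodule.span F (Set.range b) = ⊤ := hbli.span_eq_top_of_card_eq_finrank' (by rw [Fintype.card_fin, Module.finrank_fin_fun])
    rw [← h1, Submodule.span_le]
    rintro _ ⟨i, rfl⟩
    obtain ⟨⟨j, l⟩, rfl⟩ := κ.surjective i
    have hA : b (κ (j, 0)) + ν • b (κ (j, 1)) ∈ Submodule.span F (Set.range fun i : ι => b (κ (i, 0)) + ν • b (κ (i, 1))) ⊔
      Submodule.span F (Set.range fun i : ι => b (κ (i, 0)) + (-ν) • b (κ (i, 1))) := Submodule.mem_sup_left (Submodule.subset_span ⟨j, rfl⟩)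
    have hB : b (κ (j, 0)) + (-ν) • b (κ (j, 1)) ∈ Submodule.span F (Set.range fun i : ι => b (κ (i, 0)) + ν • b (κ (i, 1))) ⊔
      Submodule.span F (Set.range fun i : ι => b (κ (i, 0)) + (-ν) • b (κ (i, 1))) := Submodule.mem_sup_right (Submodule.subset_span ⟨j, rfl⟩)
    have hl : l = 0 ∨ l = 1 := by fin_cases l <;> simp
    rcases hl with rfl | rfl
    · have h3 := Submodule.smul_mem _ (2 : F)⁻¹ (Submodule.add_mem _ hA hB)
      have h4 : (2 : F)⁻¹ • (b (κ (j, 0)) + ν • b (κ (j, 1)) + (b (κ (j, 0)) + (-ν) • b (κ (j, 1)))) = b (κ (j, 0)) := by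
        have h5 : b (κ (j, 0)) + ν • b (κ (j, 1)) + (b (κ (j, 0)) + (-ν) • b (κ (j, 1))) = (2 : F) • b (κ (j, 0)) := by
          rw [two_smul, neg_smul]; abel
        rw [h5, smul_smul, inv_mul_cancel₀ h2, one_smul]
      rw [h4] at h3
      exact h3
    · have h3 := Submodule.smul_mem _ (2 * ν : F)⁻¹ (Submodule.sub_mem _ hA hB)
      have h4 : (2 * ν : F)⁻¹ • (b (κ (j, 0)) + ν • b (κ (j, 1)) - (b (κ (j, 0)) + (-ν) • b (κ (j, 1)))) = b (κ (j, 1)) := by
        have h5 : b (κ (j, 0)) + ν • b (κ (j, 1)) - (b (κ (j, 0)) + (-ν) • b (κ (j, 1))) = (2 * ν : F) • b (κ (j, 1)) := by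
          rw [mul_smul, two_smul, neg_smul]; abel
        rw [h5, smul_smul, inv_mul_cancel₀ (mul_ne_zero h2 hν0), one_smul]
      rw [h4] at h3
      exact h3
  · -- eigenspaces are totally isotropic
    let E : F → Submodule F (Fin n → F) := fun c => LinearMap.ker (X - c • (LinearMap.id : (Fin n → F) →ₗ[F] (Fin n → F)))
    have hE : ∀ c u, u ∈ E c ↔ X u = c • u := by
      intro c u
      show (X - c • (LinearMap.id : (Fin n → F) →ₗ[F] (Fin n → F))) u = 0 ↔ _
      rw [LinearMap.sub_apply, LinearMap.smul_apply, LinearMap.id_apply, sub_eq_zero]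
    have hti : ∀ c : F, c * σ c = -1 → ∀ u ∈ E c, ∀ v ∈ E c, hermForm n F q u v = 0 := by
      intro c hc u hu v hv'
      have h1 := hXf u v
      rw [(hE c u).1 hu, (hE c v).1 hv', hf.smul_left, smul_right hf, ← mul_assoc, hc] at h1
      have h3 : (2 : F) * hermForm n F q u v = 0 := by linear_combination -h1
      exact (mul_eq_zero.1 h3).resolve_left h2
    have hinv : ∀ c, Inv X (E c) := by
      intro c u hu
      rw [hE]
      have h1 := (hE c u).1 hu
      rw [h1, map_smul, h1]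
    refine concl hF hσ hf (by omega) h (U := E w) (W := E (-w)) (pr_of_sup hf hnm (hti w hs1) (hti (-w) (by rw [map_neg, neg_mul_neg, hs1])) ?_)
      (by rw [← hX]; exact hinv w) (by rw [← hX]; exact hinv (-w))
    rw [eq_top_iff]
    intro u _
    have hA : u + w⁻¹ • X u ∈ E w := by
      rw [hE, map_add, map_smul, hXX, smul_add, smul_smul, smul_smul, hw, mul_inv_cancel₀ hw0, one_smul]
      have : w⁻¹ * (w * w) = w := by field_simp
      rw [this, add_comm]
    have hB : u - w⁻¹ • X u ∈ E (-w) := by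
      rw [hE, map_sub, map_smul, hXX, smul_sub, smul_smul, smul_smul, hw]
      have h1 : w⁻¹ * (w * w) = w := by field_simp
      have h3 : -w * w⁻¹ = -1 := by field_simp
      rw [h1, h3, neg_smul, neg_smul, one_smul]; abel
    have h3 := Submodule.smul_mem (E w ⊔ E (-w)) (2 : F)⁻¹ (Submodule.add_mem _ (Submodule.mem_sup_left hA) (Submodule.mem_sup_right hB))
    have h4 : (2 : F)⁻¹ • (u + w⁻¹ • X u + (u - w⁻¹ • X u)) = u := by
      have h5 : u + w⁻¹ • X u + (u - w⁻¹ • X u) = (2 : F) • u := by rw [two_smul]; abel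
      rw [h5, smul_smul, inv_mul_cancel₀ h2, one_smul]
    rw [h4] at h3
    exact h3

end CfsgLib.PU29
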