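import Cfsg.Agent.LibSpSub29c

/-! Pairs of complementary totally isotropic subspaces. -/

namespace CfsgLib.Pair29

open scoped MatrixGroups Matrix
open Cfsg CfsgLib.MaxTv29

variable {ι : Type} [Fintype ι] [DecidableEq ι] {F : Type*} [Field F]

theorem le_or_le (X A B : Submodule F (ι → F)) (h : ∀ x ∈ X, x ∈ A ∨ x ∈ B) : X ≤ A ∨ X ≤ B := CfsgLib.Subfield29.le_or_le' X A B h

theorem finrank_inf_ker (Y : Submodule F (ι → F)) (φ : Module.Dual F (ι → F)) :
    Module.finrank F Y ≤ Module.finrank F (Y ⊓ LinearMap.ker φ : Submodule F (ι → F)) + 1 := by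
  have h1 := Submodule.finrank_sup_add_finrank_inf_eq Y (LinearMap.ker φ)
  have h2 := LinearMap.finrank_range_add_finrank_ker φ
  have h3 : Module.finrank F (LinearMap.range φ) ≤ 1 := by
    refine (Submodule.finrank_le _).trans ?_
    simp
  have h4 := Submodule.finrank_le (Y ⊔ LinearMap.ker φ)
  omega

theorem finrank_pair_le (x y : ι → F) : Module.finrank F (Submodule.span F {x, y}) ≤ 2 := by
  classical
  have := finrank_span_finset_le_card (R := F) ({x, y} : Finset (ι → F))
  rw [Finset.coe_pair] at this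
  exact this.trans Finset.card_le_two

/-- If all orthogonal pairs are moved to "bad" pairs then `g` permutes `{X, Y}`. -/
theorem stab_of_bad {X Y : Submodule F (ι → F)} (hsup : X ⊔ Y = ⊤) (φ : (ι → F) → Module.Dual F (ι → F))
    (hX : 4 ≤ Module.finrank F X) (hY : 4 ≤ Module.finrank F Y) (g : GL ι F)
    (hbad : ∀ a ∈ X, ∀ b ∈ Y, (φ a b = 0 ∨ φ b a = 0) → ∀ u0 ∈ X, ∀ u1 ∈ Y, ∀ v0 ∈ X, ∀ v1 ∈ Y,
      (g : Matrix ι ι F) *ᵥ a = u0 + u1 → (g : Matrix ι ι F) *ᵥ b = v0 + v1 →
      (u0 = 0 ∨ v0 ∈ Submodule.span F {u0}) ∧ (u1 = 0 ∨ v1 ∈ Submodule.span F {u1})) :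
    (X.map (le g).toLinearMap ≤ X ∨ X.map (le g).toLinearMap ≤ Y) ∧ (Y.map (le g).toLinearMap ≤ X ∨ Y.map (le g).toLinearMap ≤ Y) := by
  have hdec : ∀ v : ι → F, ∃ v0 ∈ X, ∃ v1 ∈ Y, v = v0 + v1 := by
    intro v
    have : v ∈ X ⊔ Y := by rw [hsup]; exact Submodule.mem_top
    obtain ⟨a, ha, b, hb, h⟩ := Submodule.mem_sup.mp this
    exact ⟨a, ha, b, hb, h.symm⟩
  constructor
  · have h1 : ∀ a ∈ X, (g : Matrix ι ι F) *ᵥ a ∈ X ∨ (g : Matrix ι ι F) *ᵥ a ∈ Y := by
      intro a ha
      obtain ⟨u0, hu0, u1, hu1, hu⟩ := hdec ((g : Matrix ι ι F) *ᵥ a)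
      by_cases h0 : u0 = 0
      · right; rw [hu, h0, zero_add]; exact hu1
      by_cases h1 : u1 = 0
      · left; rw [hu, h1, add_zero]; exact hu0
      exfalso
      have h2 : (Y ⊓ LinearMap.ker (φ a) : Submodule F (ι → F)).map (le g).toLinearMap ≤ Submodule.span F {u0, u1} := by
        rintro _ ⟨b, ⟨hbY, hb⟩, rfl⟩
        obtain ⟨v0, hv0, v1, hv1, hv⟩ := hdec ((g : Matrix ι ι F) *ᵥ b)
        obtain ⟨h3, h4⟩ := hbad a ha b hbY (Or.inl hb) u0 hu0 u1 hu1 v0 hv0 v1 hv1 hu hv
        obtain ⟨k, hk⟩ := Submodule.mem_span_singleton.mp (h3.resolve_left h0)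
        obtain ⟨l, hl⟩ := Submodule.mem_span_singleton.mp (h4.resolve_left h1)
        change (g : Matrix ι ι F) *ᵥ b ∈ _
        rw [hv, ← hk, ← hl]
        exact Submodule.mem_span_pair.mpr ⟨k, l, rfl⟩
      have h3 := Submodule.finrank_mono h2
      have h4 := finrank_pair_le (F := F) u0 u1
      have h5 := finrank_inf_ker Y (φ a)
      have h6 : Module.finrank F ((Y ⊓ LinearMap.ker (φ a) : Submodule F (ι → F)).map (le g).toLinearMap) = Module.finrank F (Y ⊓ LinearMap.ker (φ a) : Submodule F (ι → F)) :=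
        LinearEquiv.finrank_map_eq (le g) _
      omega
    rcases le_or_le X (X.comap (le g).toLinearMap) (Y.comap (le g).toLinearMap) h1 with h | h
    · left; exact Submodule.map_le_iff_le_comap.mpr h
    · right; exact Submodule.map_le_iff_le_comap.mpr h
  · have h1 : ∀ b ∈ Y, (g : Matrix ι ι F) *ᵥ b ∈ X ∨ (g : Matrix ι ι F) *ᵥ b ∈ Y := by
      intro b hb
      obtain ⟨v0, hv0, v1, hv1, hv⟩ := hdec ((g : Matrix ι ι F) *ᵥ b)
      by_cases h0 : v0 = 0
      · right; rw [hv, h0, zero_add]; exact hv1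
      by_cases h1 : v1 = 0
      · left; rw [hv, h1, add_zero]; exact hv0
      exfalso
      have h2 : (X ⊓ LinearMap.ker (φ b) : Submodule F (ι → F)).map (le g).toLinearMap ≤ Submodule.span F {v0, v1} := by
        rintro _ ⟨a, ⟨haX, ha⟩, rfl⟩
        obtain ⟨u0, hu0, u1, hu1, hu⟩ := hdec ((g : Matrix ι ι F) *ᵥ a)
        obtain ⟨h3, h4⟩ := hbad a haX b hb (Or.inr ha) u0 hu0 u1 hu1 v0 hv0 v1 hv1 hu hv
        have h5 : u0 ∈ Submodule.span F {v0} := by
          rcases h3 with h3 | h3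
          · rw [h3]; exact Submodule.zero_mem _
          · obtain ⟨k, hk⟩ := Submodule.mem_span_singleton.mp h3
            have hk0 : k ≠ 0 := by rintro rfl; rw [zero_smul] at hk; exact h0 hk.symm
            exact Submodule.mem_span_singleton.mpr ⟨k⁻¹, by rw [← hk, smul_smul, inv_mul_cancel₀ hk0, one_smul]⟩
        have h6 : u1 ∈ Submodule.span F {v1} := by
          rcases h4 with h4 | h4
          · rw [h4]; exact Submodule.zero_mem _
          · obtain ⟨k, hk⟩ := Submodule.mem_span_singleton.mp h4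
            have hk0 : k ≠ 0 := by rintro rfl; rw [zero_smul] at hk; exact h1 hk.symm
            exact Submodule.mem_span_singleton.mpr ⟨k⁻¹, by rw [← hk, smul_smul, inv_mul_cancel₀ hk0, one_smul]⟩
        obtain ⟨k, hk⟩ := Submodule.mem_span_singleton.mp h5
        obtain ⟨l, hl⟩ := Submodule.mem_span_singleton.mp h6
        change (g : Matrix ι ι F) *ᵥ a ∈ _
        rw [hu, ← hk, ← hl]
        exact Submodule.mem_span_pair.mpr ⟨k, l, rfl⟩
      have h3 := Submodule.finrank_mono h2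
      have h4 := finrank_pair_le (F := F) v0 v1
      have h5 := finrank_inf_ker X (φ b)
      have h6 : Module.finrank F ((X ⊓ LinearMap.ker (φ b) : Submodule F (ι → F)).map (le g).toLinearMap) = Module.finrank F (X ⊓ LinearMap.ker (φ b) : Submodule F (ι → F)) :=
        LinearEquiv.finrank_map_eq (le g) _
      omega
    rcases le_or_le Y (X.comap (le g).toLinearMap) (Y.comap (le g).toLinearMap) h1 with h | h
    · left; exact Submodule.map_le_iff_le_comap.mpr h
    · right; exact Submodule.map_le_iff_le_comap.mpr h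

theorem map_toLin (g : GL ι F) (X : Submodule F (ι → F)) : X.map (Matrix.toLin' (g : Matrix ι ι F)) = X.map (le g).toLinearMap := by
  congr 1

/-- membership in the stabiliser of a decomposition with two members -/
theorem mem_stab_two {D : Fin 2 → Submodule F (ι → F)} {m : ℕ} (hD : Geo.IsMDecomposition m D) (g : GL ι F)
    (h : ((D 0).map (le g).toLinearMap ≤ D 0 ∨ (D 0).map (le g).toLinearMap ≤ D 1) ∧ ((D 1).map (le g).toLinearMap ≤ D 0 ∨ (D 1).map (le g).toLinearMap ≤ D 1)) :
    g ∈ Geo.decompositionStabilizer D := by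
  have hm := hD.pos
  have heq : ∀ i j : Fin 2, (D i).map (le g).toLinearMap ≤ D j → (D i).map (le g).toLinearMap = D j := by
    intro i j hij
    apply Submodule.eq_of_le_of_finrank_eq hij
    rw [hD.finrank_eq j, ← hD.finrank_eq i]
    exact LinearEquiv.finrank_map_eq (le g) _
  have hne : D 0 ≠ D 1 := by
    intro h0
    have h1 := hD.indep.pairwiseDisjoint (show (0 : Fin 2) ≠ 1 by decide)
    have h2 : Disjoint (D 0) (D 1) := h1
    rw [← h0] at h2
    have h3 := disjoint_self.mp h2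
    have h4 := hD.finrank_eq 0
    rw [h3] at h4
    simp at h4
    omega
  have hinj : ∀ i j : Fin 2, (D i).map (le g).toLinearMap = (D j).map (le g).toLinearMap → D i = D j := fun i j h =>
    Submodule.map_injective_of_injective (le g).injective h
  obtain ⟨h0, h1⟩ := h
  rcases h0 with h0 | h0
  · rcases h1 with h1 | h1
    · exact absurd (hinj 0 1 ((heq _ _ h0).trans (heq _ _ h1).symm)) hne
    · refine ⟨1, fun i => ?_⟩
      rw [map_toLin]
      fin_cases i
      · exact heq 0 0 h0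
      · exact heq 1 1 h1
  · rcases h1 with h1 | h1
    · refine ⟨Equiv.swap 0 1, fun i => ?_⟩
      rw [map_toLin]
      fin_cases i
      · exact heq 0 1 h0
      · exact heq 1 0 h1
    · exact absurd (hinj 0 1 ((heq _ _ h0).trans (heq _ _ h1).symm)) hne

theorem sup_eq_top {D : Fin 2 → Submodule F (ι → F)} {m : ℕ} (hD : Geo.IsMDecomposition m D) : D 0 ⊔ D 1 = ⊤ := by
  rw [← hD.iSup_eq_top]
  apply le_antisymm
  · exact sup_le (le_iSup D 0) (le_iSup D 1)
  · apply iSup_le
    intro i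
    fin_cases i
    · exact le_sup_left
    · exact le_sup_right

theorem inf_eq_bot {D : Fin 2 → Submodule F (ι → F)} {m : ℕ} (hD : Geo.IsMDecomposition m D) : D 0 ⊓ D 1 = ⊥ := by
  have h1 := hD.indep.pairwiseDisjoint (show (0 : Fin 2) ≠ 1 by decide)
  have h2 : Disjoint (D 0) (D 1) := h1
  exact h2.eq_bot

end CfsgLib.Pair29
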