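import Cfsg.Agent.LibTrDec20
import Cfsg.Prelude.Def_Perm

set_option autoImplicit false
set_option linter.all false
set_option maxHeartbeats 1000000

/-! # Invariant kernels on a permutation module (helper20) -/

namespace CfsgLib.PermAlg20

open Cfsg CfsgLib.CharBasic
open scoped ComplexConjugate

universe u v

variable {G : Type u} [Group G] [Fintype G] {Ω : Type v} [Fintype Ω] [MulAction G Ω]

/-- the operator attached to a kernel -/
noncomputable def kop (K : Ω → Ω → ℂ) : Module.End ℂ (Ω → ℂ) := Matrix.mulVecLin (Matrix.of K)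

theorem kop_apply (K : Ω → Ω → ℂ) (f : Ω → ℂ) (x : Ω) : kop K f x = ∑ y, K x y * f y := rfl

/-- invariance of a kernel -/
def Inv (G : Type u) [Group G] {Ω : Type v} [MulAction G Ω] (K : Ω → Ω → ℂ) : Prop := ∀ (g : G) (x y : Ω), K (g • x) (g • y) = K x y

theorem sum_smul (g : G) (f : Ω → ℂ) : ∑ y, f (g • y) = ∑ y, f y :=
  Equiv.sum_comp (MulAction.toPerm g) f

theorem kop_comm {K : Ω → Ω → ℂ} (hK : Inv G K) (g : G) : Commute (kop K) (permRep ℂ G Ω g) := by
  apply LinearMap.ext
  intro f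
  funext x
  show kop K (permRep ℂ G Ω g f) x = permRep ℂ G Ω g (kop K f) x
  rw [kop_apply]
  show ∑ y, K x y * f (g⁻¹ • y) = ∑ y, K (g⁻¹ • x) y * f y
  rw [← sum_smul g⁻¹ (fun y => K (g⁻¹ • x) y * f y)]
  apply Finset.sum_congr rfl
  intro y _
  rw [hK]

/-- the function attached to a kernel -/
noncomputable def psi (K : Ω → Ω → ℂ) (g : G) : ℂ := ∑ x, K x (g • x)

theorem trace_psi (K : Ω → Ω → ℂ) (g : G) : LinearMap.trace ℂ (Ω → ℂ) (permRep ℂ G Ω g ∘ₗ kop K) = psi K g := by
  classical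
  rw [LinearMap.trace_eq_matrix_trace ℂ (Pi.basisFun ℂ Ω), Matrix.trace]
  unfold psi
  rw [← sum_smul g⁻¹ (fun x => K x (g • x))]
  apply Finset.sum_congr rfl
  intro x _
  rw [Matrix.diag_apply, LinearMap.toMatrix_apply]
  simp only [Pi.basisFun_apply, Pi.basisFun_repr, LinearMap.comp_apply]
  show kop K (Pi.single x 1) (g⁻¹ • x) = _
  rw [kop_apply, smul_inv_smul, Finset.sum_eq_single x]
  · simp
  · intro y _ hy; rw [Pi.single_eq_of_ne hy, mul_zero]
  · intro h; exact absurd (Finset.mem_univ _) h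

theorem trace_perm (g : G) : LinearMap.trace ℂ (Ω → ℂ) (permRep ℂ G Ω g) = (Nat.card (MulAction.fixedBy Ω g) : ℂ) := by
  classical
  have h1 := trace_psi (Ω := Ω) (fun x y => if x = y then (1 : ℂ) else 0) g
  have h2 : kop (fun x y : Ω => if x = y then (1 : ℂ) else 0) = LinearMap.id := by
    apply LinearMap.ext
    intro f
    funext x
    rw [kop_apply]
    simp
  rw [h2, LinearMap.comp_id] at h1
  rw [h1]
  unfold psi
  rw [Finset.sum_boole, Nat.card_eq_fintype_card, ← Fintype.card_subtype]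
  congr 1
  apply Fintype.card_congr
  exact Equiv.subtypeEquivRight (fun x => by rw [MulAction.mem_fixedBy]; exact eq_comm)

/-- the permutation character -/
noncomputable def pic (G : Type u) [Group G] (Ω : Type v) [MulAction G Ω] : G → ℂ := fun g => (Nat.card (MulAction.fixedBy Ω g) : ℂ)

theorem pic_char : IsCharacter G (pic G Ω) := isCharacter_perm

theorem eig_int {M : Ω → Ω → ℤ} {μ : ℂ} (h : (kop (fun x y => (M x y : ℂ))).HasEigenvalue μ) : IsIntegral ℤ μ := by
  classical
  rw [Module.End.hasEigenvalue_iff_isRoot_charpoly] at h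
  have h1 : kop (fun x y => (M x y : ℂ)) = Matrix.toLin' ((Matrix.of M).map (Int.castRingHom ℂ)) := by
    apply LinearMap.ext
    intro f
    funext x
    rfl
  rw [h1, Matrix.charpoly_toLin', Matrix.charpoly_map] at h
  refine ⟨(Matrix.of M).charpoly, Matrix.charpoly_monic _, ?_⟩
  rw [Polynomial.IsRoot, Polynomial.eval_map] at h
  exact h

/-- the key decomposition -/
theorem key {K : Ω → Ω → ℂ} (hK : Inv G K) :
    ∃ (s : Finset ℂ) (m : ℂ → IrrCharacter G → ℕ), (∀ μ ∈ s, (kop K).HasEigenvalue μ) ∧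
      (∀ χ : IrrCharacter G, classInner (psi (G := G) K) (χ : G → ℂ) = ∑ μ ∈ s, μ * m μ χ) ∧
      (∀ χ : IrrCharacter G, classInner (pic G Ω) (χ : G → ℂ) = ∑ μ ∈ s, (m μ χ : ℂ)) := by
  obtain ⟨s, φ, h1, h2, h3, h4⟩ := CfsgLib.TrDec20.trace_dec (permRep ℂ G Ω) (kop K) (kop_comm hK)
  have h5 : ∀ (μ : ℂ) (χ : IrrCharacter G), ∃ n : ℕ, classInner (φ μ) (χ : G → ℂ) = n :=
    fun μ χ => char_mult (h2 μ) (irr_isCharacter χ.2)
  choose m hm using h5
  refine ⟨s, m, h1, ?_, ?_⟩
  · intro χ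
    have h6 : psi (G := G) K = ∑ μ ∈ s, μ • φ μ := by
      funext g
      rw [← trace_psi, h3, Finset.sum_apply]
      rfl
    rw [h6, inner_sum_left]
    apply Finset.sum_congr rfl
    intro μ _
    rw [CfsgLib.CharBasic.inner_smul_left, hm]
  · intro χ
    have h6 : pic G Ω = ∑ μ ∈ s, φ μ := by
      funext g
      unfold pic
      rw [← trace_perm, h4, Finset.sum_apply]
    rw [h6, inner_sum_left]
    apply Finset.sum_congr rfl
    intro μ _
    rw [hm]

/-- sums along an orbit -/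
theorem sum_orbit [MulAction.IsPretransitive G Ω] (a : Ω) (f : Ω → ℂ) :
    (Fintype.card Ω : ℂ) * ∑ g : G, f (g • a) = (Nat.card G : ℂ) * ∑ y, f y := by
  classical
  have h1 : ∀ y : Ω, (Finset.univ.filter (fun g : G => g • a = y)).card = Nat.card (MulAction.stabilizer G a) := by
    intro y
    obtain ⟨t, ht⟩ := MulAction.exists_smul_eq G a y
    rw [← Fintype.card_subtype, ← Nat.card_eq_fintype_card]
    refine Nat.card_congr ⟨fun g => ⟨t⁻¹ * g.1, ?_⟩, fun c => ⟨t * c.1, ?_⟩, fun g => ?_, fun c => ?_⟩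
    · rw [MulAction.mem_stabilizer_iff, mul_smul, g.2, ← ht, inv_smul_smul]
    · rw [mul_smul, MulAction.mem_stabilizer_iff.mp c.2, ht]
    · apply Subtype.ext; simp
    · apply Subtype.ext; simp
  have h2 : ∑ g : G, f (g • a) = ∑ y, (Nat.card (MulAction.stabilizer G a) : ℂ) * f y := by
    rw [← Finset.sum_fiberwise (s := Finset.univ) (g := fun g : G => g • a)]
    apply Finset.sum_congr rfl
    intro y _
    rw [Finset.sum_congr rfl (g := fun _ => f y) (by
      intro g hg
      rw [Finset.mem_filter] at hg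
      rw [hg.2]), Finset.sum_const, nsmul_eq_mul, h1]
  rw [h2, ← Finset.mul_sum, ← mul_assoc]
  congr 1
  have h3 := MulAction.card_orbit_mul_card_stabilizer_eq_card_group G a
  have h4 : Fintype.card (MulAction.orbit G a) = Fintype.card Ω := by
    rw [← Set.toFinset_card, MulAction.orbit_eq_univ]; simp
  rw [Nat.card_eq_fintype_card, Nat.card_eq_fintype_card, ← h3, h4]
  push_cast; ring

theorem inner_one_psi [MulAction.IsPretransitive G Ω] {K : Ω → Ω → ℂ} (hK : Inv G K) (a : Ω) :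
    classInner (psi (G := G) K) (fun _ => (1 : ℂ)) = ∑ y, K a y := by
  have hΩ : (Fintype.card Ω : ℂ) ≠ 0 := by
    haveI : Nonempty Ω := ⟨a⟩
    exact_mod_cast Fintype.card_ne_zero
  have hG : (Nat.card G : ℂ) ≠ 0 := by exact_mod_cast Nat.card_pos.ne'
  have hrow : ∀ x, ∑ y, K x y = ∑ y, K a y := by
    intro x
    obtain ⟨t, ht⟩ := MulAction.exists_smul_eq G a x
    rw [← ht, ← sum_smul t]
    apply Finset.sum_congr rfl
    intro y _
    rw [hK]
  unfold classInner
  simp only [map_one, mul_one]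
  unfold psi
  rw [Finset.sum_comm]
  have h1 : ∀ x : Ω, ∑ g : G, K x (g • x) = (Fintype.card Ω : ℂ)⁻¹ * ((Nat.card G : ℂ) * ∑ y, K a y) := by
    intro x
    rw [← hrow x, ← sum_orbit (G := G) x (fun y => K x y), ← mul_assoc, inv_mul_cancel₀ hΩ, one_mul]
  rw [Finset.sum_congr rfl (fun x _ => h1 x), Finset.sum_const, Finset.card_univ, nsmul_eq_mul]
  field_simp

theorem psi_classFun {K : Ω → Ω → ℂ} (hK : Inv G K) : IsClassFunction G (psi (G := G) K) := by
  intro g x
  unfold psi
  rw [← sum_smul x]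
  apply Finset.sum_congr rfl
  intro y _
  rw [← hK x⁻¹, inv_smul_smul, ← mul_smul, ← mul_smul]
  congr 1
  rw [show x⁻¹ * (x * g * x⁻¹) * x = g by group]

end CfsgLib.PermAlg20
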