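import Cfsg.Agent.LibPermAlg20
import Cfsg.Agent.LibCharInt2

set_option autoImplicit false
set_option linter.all false
set_option maxHeartbeats 1000000

/-! # Subdegrees and degrees of constituents (helper20) -/

namespace CfsgLib.PermAlg20

open Cfsg CfsgLib.CharBasic
open scoped ComplexConjugate

universe u v

variable {G : Type u} [Group G] [Fintype G] {Ω : Type v} [Fintype Ω] [MulAction G Ω]

open Classical in
/-- the orbital matrix -/
noncomputable def orbM (G : Type u) [Group G] {Ω : Type v} [MulAction G Ω] (a b : Ω) (x y : Ω) : ℤ :=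
  if ∃ g : G, g • a = x ∧ g • b = y then 1 else 0

theorem orb_inv (a b : Ω) : Inv G (fun x y => (orbM G a b x y : ℂ)) := by
  classical
  intro g x y
  have : (∃ h : G, h • a = g • x ∧ h • b = g • y) ↔ ∃ h : G, h • a = x ∧ h • b = y := by
    constructor
    · rintro ⟨h, h1, h2⟩
      exact ⟨g⁻¹ * h, by rw [mul_smul, h1, inv_smul_smul], by rw [mul_smul, h2, inv_smul_smul]⟩
    · rintro ⟨h, h1, h2⟩
      exact ⟨g * h, by rw [mul_smul, h1], by rw [mul_smul, h2]⟩
  show ((orbM G a b (g • x) (g • y) : ℤ) : ℂ) = ((orbM G a b x y : ℤ) : ℂ)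
  congr 1
  unfold orbM
  by_cases h : ∃ h : G, h • a = x ∧ h • b = y
  · rw [if_pos h, if_pos (this.mpr h)]
  · rw [if_neg h, if_neg (fun h' => h (this.mp h'))]

theorem orb_row (a b : Ω) : ∑ y, (orbM G a b a y : ℂ) = (Nat.card (MulAction.orbit (MulAction.stabilizer G a) b) : ℂ) := by
  classical
  unfold orbM
  have h1 : ∀ y : Ω, ((∃ g : G, g • a = a ∧ g • b = y) ↔ y ∈ MulAction.orbit (MulAction.stabilizer G a) b) := by
    intro y
    constructor
    · rintro ⟨g, h1, h2⟩
      exact ⟨⟨g, h1⟩, h2⟩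
    · rintro ⟨⟨g, h1⟩, h2⟩
      exact ⟨g, h1, h2⟩
  simp only [h1]
  push_cast
  rw [Finset.sum_boole, Nat.card_eq_fintype_card, ← Fintype.card_subtype]

theorem orb_diag {a b : Ω} (hab : b ≠ a) (x : Ω) : orbM G a b x x = 0 := by
  unfold orbM
  rw [if_neg]
  rintro ⟨g, h1, h2⟩
  exact hab (smul_left_cancel g (h2.trans h1.symm))

/-- the principal character -/
def oneI (G : Type u) [Group G] [Fintype G] : IrrCharacter G := ⟨fun _ => 1, isIrrCharacter_one⟩

theorem psi_one_zero {a b : Ω} (hab : b ≠ a) : psi (G := G) (fun x y => (orbM G a b x y : ℂ)) 1 = 0 := by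
  unfold psi
  apply Finset.sum_eq_zero
  intro x _
  show ((orbM G a b x ((1 : G) • x) : ℤ) : ℂ) = 0
  rw [one_smul, orb_diag hab]; simp

/-- a common divisor of degrees of constituents divides the subdegrees -/
theorem subdeg_dvd [MulAction.IsPretransitive G Ω] (f : ℕ)
    (hf : ∀ χ : IrrCharacter G, χ ≠ oneI G → classInner (pic G Ω) (χ : G → ℂ) ≠ 0 → ∃ m : ℕ, (χ : G → ℂ) 1 = (f : ℂ) * m)
    (a b : Ω) (hab : b ≠ a) : f ∣ Nat.card (MulAction.orbit (MulAction.stabilizer G a) b) := by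
  classical
  obtain ⟨s, m, hs, h1, h2⟩ := key (orb_inv (G := G) a b)
  obtain ⟨K, hK⟩ : ∃ K : Ω → Ω → ℂ, K = (fun x y => (orbM G a b x y : ℂ)) := ⟨_, rfl⟩
  have hKi : Inv G K := by rw [hK]; exact orb_inv a b
  have hexp := classFun_expand_apply (psi_classFun hKi) 1
  have h0 : psi (G := G) K 1 = 0 := by rw [hK]; exact psi_one_zero hab
  rw [h0, Finset.sum_eq_add_sum_sdiff_singleton_of_mem (Finset.mem_univ (oneI G))] at hexp
  have hone : classInner (psi (G := G) K) ((oneI G : IrrCharacter G) : G → ℂ) * ((oneI G : IrrCharacter G) : G → ℂ) 1 =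
      (Nat.card (MulAction.orbit (MulAction.stabilizer G a) b) : ℂ) := by
    have e1 : ((oneI G : IrrCharacter G) : G → ℂ) = fun _ => 1 := rfl
    rw [e1, inner_one_psi hKi a, mul_one, hK, orb_row]
  rw [hone] at hexp
  -- each term is `f` times an algebraic integer
  have hterm : ∀ χ ∈ Finset.univ \ ({oneI G} : Finset (IrrCharacter G)), ∃ z : ℂ, IsIntegral ℤ z ∧
      classInner (psi (G := G) K) (χ : G → ℂ) * (χ : G → ℂ) 1 = (f : ℂ) * z := by
    intro χ hχ
    rw [Finset.mem_sdiff, Finset.mem_singleton] at hχ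
    have hint : IsIntegral ℤ (classInner (psi (G := G) K) (χ : G → ℂ)) := by
      rw [hK, h1 χ]
      apply IsIntegral.sum
      intro μ hμ
      apply IsIntegral.mul (eig_int (hs μ hμ))
      exact_mod_cast isIntegral_algebraMap (R := ℤ) (A := ℂ) (x := (m μ χ : ℤ))
    by_cases hz : classInner (pic G Ω) (χ : G → ℂ) = 0
    · refine ⟨0, isIntegral_zero, ?_⟩
      rw [h2 χ] at hz
      have h3 : ∑ μ ∈ s, m μ χ = 0 := by exact_mod_cast hz
      rw [Finset.sum_eq_zero_iff] at h3
      rw [hK, h1 χ, Finset.sum_eq_zero (fun μ hμ => by rw [h3 μ hμ]; simp)]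
      ring
    · obtain ⟨k, hk⟩ := hf χ hχ.2 hz
      refine ⟨classInner (psi (G := G) K) (χ : G → ℂ) * k, ?_, by rw [hk]; ring⟩
      apply IsIntegral.mul hint
      exact_mod_cast isIntegral_algebraMap (R := ℤ) (A := ℂ) (x := (k : ℤ))
  have hterm' : ∀ χ : IrrCharacter G, ∃ z : ℂ, χ ∈ Finset.univ \ ({oneI G} : Finset (IrrCharacter G)) → IsIntegral ℤ z ∧
      classInner (psi (G := G) K) (χ : G → ℂ) * (χ : G → ℂ) 1 = (f : ℂ) * z := by
    intro χ
    by_cases hχ : χ ∈ Finset.univ \ ({oneI G} : Finset (IrrCharacter G))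
    · obtain ⟨z, hz⟩ := hterm χ hχ
      exact ⟨z, fun _ => hz⟩
    · exact ⟨0, fun h => absurd h hχ⟩
  choose z hz using hterm'
  rw [Finset.sum_congr rfl (fun χ hχ => (hz χ hχ).2), ← Finset.mul_sum] at hexp
  have hzint : IsIntegral ℤ (∑ χ ∈ Finset.univ \ ({oneI G} : Finset (IrrCharacter G)), z χ) :=
    IsIntegral.sum _ (fun χ hχ => (hz χ hχ).1)
  obtain ⟨Z, hZ⟩ : ∃ Z : ℂ, Z = ∑ χ ∈ Finset.univ \ ({oneI G} : Finset (IrrCharacter G)), z χ := ⟨_, rfl⟩
  rw [← hZ] at hexp hzint
  obtain ⟨N, hN⟩ : ∃ N : ℕ, N = Nat.card (MulAction.orbit (MulAction.stabilizer G a) b) := ⟨_, rfl⟩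
  rw [← hN] at hexp ⊢
  by_cases hf0 : f = 0
  · rw [hf0, Nat.cast_zero, zero_mul, add_zero] at hexp
    have : N = 0 := by exact_mod_cast hexp.symm
    rw [this]; exact dvd_zero _
  · have hfc : (f : ℂ) ≠ 0 := by exact_mod_cast hf0
    have h5 : ((-((N : ℚ) / f) : ℚ) : ℂ) = Z := by
      push_cast
      field_simp
      linear_combination hexp
    rw [← h5] at hzint
    obtain ⟨k, hk⟩ := CfsgLib.CharInt2.rat_isIntegral hzint
    have hfq : (f : ℚ) ≠ 0 := by exact_mod_cast hf0
    have h6 : (N : ℚ) = f * (-k) := by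
      rw [hk]; field_simp
    have h7 : (N : ℤ) = f * (-k) := by exact_mod_cast h6
    exact Int.natCast_dvd_natCast.mp ⟨-k, h7⟩

/-! ### rank -/

theorem inner_pic_self (a : Ω) [MulAction.IsPretransitive G Ω] :
    classInner (pic G Ω) (pic G Ω) = (Nat.card (MulAction.orbitRel.Quotient (MulAction.stabilizer G a) Ω) : ℂ) := by
  classical
  have hG : (Nat.card G : ℂ) ≠ 0 := by exact_mod_cast Nat.card_pos.ne'
  have hΩ : (Fintype.card Ω : ℂ) ≠ 0 := by
    haveI : Nonempty Ω := ⟨a⟩
    exact_mod_cast Fintype.card_ne_zero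
  letI : Fintype (MulAction.stabilizer G a) := Fintype.ofFinite _
  letI : Fintype (MulAction.orbitRel.Quotient (MulAction.stabilizer G a) Ω) := Fintype.ofFinite _
  have hB := MulAction.sum_card_fixedBy_eq_card_orbits_mul_card_group (MulAction.stabilizer G a) Ω
  -- rewrite the inner product
  have h1 : ∑ g : G, pic G Ω g * conj (pic G Ω g) = ∑ x : Ω, ∑ g : G, (if g • x = x then pic G Ω g else 0) := by
    rw [Finset.sum_comm]
    apply Finset.sum_congr rfl
    intro g _
    rw [← Finset.sum_filter, Finset.sum_const, nsmul_eq_mul]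
    have e1 : conj (pic G Ω g) = pic G Ω g := by unfold pic; simp
    rw [e1]
    congr 1
    unfold pic
    rw [Nat.card_eq_fintype_card, ← Fintype.card_subtype]
    rfl
  have h2 : ∀ x : Ω, ∑ g : G, (if g • x = x then pic G Ω g else 0) = ∑ g : G, (if g • a = a then pic G Ω g else 0) := by
    intro x
    obtain ⟨t, ht⟩ := MulAction.exists_smul_eq G a x
    rw [← Equiv.sum_comp (MulAut.conj t).toEquiv]
    apply Finset.sum_congr rfl
    intro g _
    have e1 : (MulAut.conj t).toEquiv g = t * g * t⁻¹ := rfl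
    rw [e1, char_classFun pic_char g t]
    have e2 : (t * g * t⁻¹) • x = x ↔ g • a = a := by
      rw [← ht, ← mul_smul, inv_mul_cancel_right, mul_smul]
      exact ⟨fun h => smul_left_cancel t h, fun h => by rw [h]⟩
    simp only [e2]
  have h3 : ∑ g : G, (if g • a = a then pic G Ω g else 0) = ∑ g : MulAction.stabilizer G a, (Fintype.card (MulAction.fixedBy Ω g) : ℂ) := by
    rw [← Finset.sum_filter]
    symm
    apply Finset.sum_bij (fun (g : MulAction.stabilizer G a) _ => (g : G))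
    · intro g _
      rw [Finset.mem_filter]
      exact ⟨Finset.mem_univ _, g.2⟩
    · intro g _ g' _ hgg
      exact Subtype.ext hgg
    · intro g hg
      rw [Finset.mem_filter] at hg
      exact ⟨⟨g, hg.2⟩, Finset.mem_univ _, rfl⟩
    · intro g _
      unfold pic
      rw [Nat.card_eq_fintype_card]
      rfl
  have h4 : (∑ g : MulAction.stabilizer G a, (Fintype.card (MulAction.fixedBy Ω g) : ℂ)) =
      (Fintype.card (MulAction.orbitRel.Quotient (MulAction.stabilizer G a) Ω) : ℂ) * (Fintype.card (MulAction.stabilizer G a) : ℂ) := by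
    rw [← Nat.cast_mul, ← hB]
    push_cast
    rfl
  unfold classInner
  rw [h1, Finset.sum_congr rfl (fun x _ => h2 x), Finset.sum_const, h3, h4, Finset.card_univ, nsmul_eq_mul]
  have h5 := MulAction.card_orbit_mul_card_stabilizer_eq_card_group G a
  have h6 : Fintype.card (MulAction.orbit G a) = Fintype.card Ω := by
    rw [← Set.toFinset_card, MulAction.orbit_eq_univ]; simp
  rw [h6] at h5
  have h7 : (Fintype.card Ω : ℂ) * (Fintype.card (MulAction.stabilizer G a) : ℂ) = (Nat.card G : ℂ) := by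
    rw [Nat.card_eq_fintype_card, ← h5]; push_cast; rfl
  rw [Nat.card_eq_fintype_card (α := MulAction.orbitRel.Quotient (MulAction.stabilizer G a) Ω)]
  rw [inv_mul_eq_iff_eq_mul₀ hG, ← h7]
  ring

theorem psi_delta [DecidableEq Ω] : psi (G := G) (fun x y : Ω => if x = y then (1 : ℂ) else 0) = pic G Ω := by
  funext g
  unfold psi pic
  rw [Finset.sum_boole, Nat.card_eq_fintype_card, ← Fintype.card_subtype]
  congr 1
  apply Fintype.card_congr
  exact Equiv.subtypeEquivRight (fun x => by rw [MulAction.mem_fixedBy]; exact eq_comm)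

theorem inner_pic_one [MulAction.IsPretransitive G Ω] (a : Ω) : classInner (pic G Ω) (fun _ => (1 : ℂ)) = 1 := by
  classical
  rw [← psi_delta, inner_one_psi _ a]
  · simp
  · intro g x y
    simp [smul_left_cancel_iff]

theorem pic_deg : pic G Ω 1 = (Fintype.card Ω : ℂ) := by
  unfold pic
  have : MulAction.fixedBy Ω (1 : G) = Set.univ := by ext x; simp
  rw [this]
  simp

/-- all non-principal constituents of the same degree -/
theorem all_deg [MulAction.IsPretransitive G Ω] (a : Ω) (f : ℕ)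
    (hf : ∀ χ : IrrCharacter G, χ ≠ oneI G → classInner (pic G Ω) (χ : G → ℂ) ≠ 0 → (χ : G → ℂ) 1 = f) :
    (∀ χ : IrrCharacter G, classInner (pic G Ω) (χ : G → ℂ) = 0 ∨ classInner (pic G Ω) (χ : G → ℂ) = 1) ∧
      ∀ b : Ω, b ≠ a → Nat.card (MulAction.orbit (MulAction.stabilizer G a) b) = f := by
  classical
  have hex : ∀ χ : IrrCharacter G, ∃ n : ℕ, classInner (pic G Ω) (χ : G → ℂ) = n := fun χ => char_mult pic_char (irr_isCharacter χ.2)
  choose m hm using hex
  have hm1 : m (oneI G) = 1 := by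
    have h1 := hm (oneI G)
    have e1 : ((oneI G : IrrCharacter G) : G → ℂ) = fun _ => 1 := rfl
    rw [e1, inner_pic_one a] at h1
    exact_mod_cast h1.symm
  letI : Fintype (MulAction.orbitRel.Quotient (MulAction.stabilizer G a) Ω) := Fintype.ofFinite _
  -- rank
  have hrank : Fintype.card (MulAction.orbitRel.Quotient (MulAction.stabilizer G a) Ω) = 1 + ∑ χ ∈ Finset.univ \ ({oneI G} : Finset (IrrCharacter G)), (m χ) ^ 2 := by
    have h1 := inner_pic_self (G := G) a
    rw [parseval (char_classFun pic_char) (char_classFun pic_char)] at h1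
    rw [Finset.sum_congr rfl (g := fun χ : IrrCharacter G => (((m χ) ^ 2 : ℕ) : ℂ)) (by
      intro χ _
      rw [hm χ, Complex.conj_natCast]; push_cast; ring), ← Nat.cast_sum] at h1
    have h2 : ∑ χ : IrrCharacter G, (m χ) ^ 2 = Nat.card (MulAction.orbitRel.Quotient (MulAction.stabilizer G a) Ω) := by exact_mod_cast h1
    rw [Finset.sum_eq_add_sum_sdiff_singleton_of_mem (Finset.mem_univ (oneI G)), hm1, Nat.card_eq_fintype_card] at h2
    rw [← h2]; norm_num
  -- degree
  have hdeg : Fintype.card Ω = 1 + f * ∑ χ ∈ Finset.univ \ ({oneI G} : Finset (IrrCharacter G)), m χ := by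
    have h1 := classFun_expand_apply (char_classFun (pic_char (G := G) (Ω := Ω))) 1
    rw [pic_deg, Finset.sum_eq_add_sum_sdiff_singleton_of_mem (Finset.mem_univ (oneI G)), hm, hm1] at h1
    rw [Finset.sum_congr rfl (g := fun χ : IrrCharacter G => (((f * m χ : ℕ)) : ℂ)) (by
      intro χ hχ
      rw [Finset.mem_sdiff, Finset.mem_singleton] at hχ
      rw [hm χ]
      by_cases h0 : m χ = 0
      · rw [h0]; simp
      · rw [hf χ hχ.2 (by rw [hm χ]; exact_mod_cast h0)]
        push_cast; ring)] at h1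
    have e1 : ((oneI G : IrrCharacter G) : G → ℂ) 1 = 1 := rfl
    rw [e1, ← Nat.cast_sum, ← Finset.mul_sum] at h1
    have h2 : ((Fintype.card Ω : ℕ) : ℂ) = ((1 + f * ∑ χ ∈ Finset.univ \ ({oneI G} : Finset (IrrCharacter G)), m χ : ℕ) : ℂ) := by
      rw [h1]; push_cast; ring
    exact_mod_cast h2
  -- orbit sizes
  have horb : ∀ b : Ω, b ≠ a → f ≤ Nat.card (MulAction.orbit (MulAction.stabilizer G a) b) := by
    intro b hb
    apply Nat.le_of_dvd
    · haveI : Nonempty (MulAction.orbit (MulAction.stabilizer G a) b) := ⟨⟨b, MulAction.mem_orbit_self b⟩⟩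
      exact Nat.card_pos
    · exact subdeg_dvd f (fun χ h1 h2 => ⟨1, by rw [hf χ h1 h2]; push_cast; ring⟩) a b hb
  obtain ⟨ωa, hωa⟩ : ∃ ωa : MulAction.orbitRel.Quotient (MulAction.stabilizer G a) Ω, ωa = Quotient.mk'' a := ⟨_, rfl⟩
  have hne : ∀ ω : MulAction.orbitRel.Quotient (MulAction.stabilizer G a) Ω, ω ≠ ωa → ω.out ≠ a := by
    intro ω h1 h2
    apply h1
    calc ω = Quotient.mk'' ω.out := (Quotient.out_eq' ω).symm
      _ = Quotient.mk'' a := congrArg _ h2
      _ = ωa := hωa.symm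
  have hsum : Fintype.card Ω = 1 + ∑ ω ∈ Finset.univ \ {ωa}, Nat.card (MulAction.orbit (MulAction.stabilizer G a) ω.out) := by
    have h1 : Fintype.card Ω = ∑ ω : MulAction.orbitRel.Quotient (MulAction.stabilizer G a) Ω, Nat.card (MulAction.orbit (MulAction.stabilizer G a) ω.out) := by
      rw [Fintype.card_congr (MulAction.selfEquivSigmaOrbits (MulAction.stabilizer G a) Ω), Fintype.card_sigma]
      apply Finset.sum_congr rfl
      intro ω _
      rw [Nat.card_eq_fintype_card]
    rw [Finset.sum_eq_add_sum_sdiff_singleton_of_mem (Finset.mem_univ ωa)] at h1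
    have h2 : Nat.card (MulAction.orbit (MulAction.stabilizer G a) ωa.out) = 1 := by
      have h3 : ωa.out ∈ MulAction.orbit (MulAction.stabilizer G a) a := by
        rw [← MulAction.orbitRel_apply, ← Quotient.eq'', ← hωa]
        exact Quotient.out_eq' ωa
      obtain ⟨g, hg⟩ := h3
      have h4 : ωa.out = a := by
        rw [← hg]; exact g.2
      rw [h4, Nat.card_eq_one_iff_unique]
      refine ⟨⟨?_⟩, ⟨⟨a, MulAction.mem_orbit_self a⟩⟩⟩
      rintro ⟨x, g1, hx⟩ ⟨y, g2, hy⟩
      apply Subtype.ext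
      show x = y
      rw [← hx, ← hy]
      exact (g1.2 : (g1 : G) • a = a).trans (g2.2 : (g2 : G) • a = a).symm
    rw [h1, h2]
  have hcardsdiff : (Finset.univ \ {ωa} : Finset (MulAction.orbitRel.Quotient (MulAction.stabilizer G a) Ω)).card =
      ∑ χ ∈ Finset.univ \ ({oneI G} : Finset (IrrCharacter G)), (m χ) ^ 2 := by
    rw [Finset.card_sdiff_of_subset (Finset.subset_univ _), Finset.card_singleton, Finset.card_univ, hrank]
    omega
  have hge : f * ∑ χ ∈ Finset.univ \ ({oneI G} : Finset (IrrCharacter G)), (m χ) ^ 2 ≤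
      ∑ ω ∈ Finset.univ \ {ωa}, Nat.card (MulAction.orbit (MulAction.stabilizer G a) ω.out) := by
    rw [← hcardsdiff, mul_comm, ← smul_eq_mul, ← Finset.sum_const]
    apply Finset.sum_le_sum
    intro ω hω
    rw [Finset.mem_sdiff, Finset.mem_singleton] at hω
    exact horb _ (hne ω hω.2)
  have hEq : ∑ ω ∈ Finset.univ \ {ωa}, Nat.card (MulAction.orbit (MulAction.stabilizer G a) ω.out) =
      f * ∑ χ ∈ Finset.univ \ ({oneI G} : Finset (IrrCharacter G)), m χ := by omega
  have hmsq : ∀ χ ∈ Finset.univ \ ({oneI G} : Finset (IrrCharacter G)), m χ ≤ (m χ) ^ 2 := by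
    intro χ _
    rcases Nat.eq_zero_or_pos (m χ) with h1 | h1
    · rw [h1]; norm_num
    · nlinarith
  have hfpos : ∀ χ ∈ Finset.univ \ ({oneI G} : Finset (IrrCharacter G)), m χ ≠ 0 → 0 < f := by
    intro χ hχ h0
    rw [Finset.mem_sdiff, Finset.mem_singleton] at hχ
    have h1 := hf χ hχ.2 (by rw [hm χ]; exact_mod_cast h0)
    rcases Nat.eq_zero_or_pos f with h2 | h2
    · rw [h2, Nat.cast_zero] at h1
      exact absurd h1 (CfsgLib.CharInt.irr_one_ne_zero χ.2)
    · exact h2
  have hle : ∑ χ ∈ Finset.univ \ ({oneI G} : Finset (IrrCharacter G)), m χ ≤ ∑ χ ∈ Finset.univ \ ({oneI G} : Finset (IrrCharacter G)), (m χ) ^ 2 :=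
    Finset.sum_le_sum hmsq
  have hall : ∀ χ ∈ Finset.univ \ ({oneI G} : Finset (IrrCharacter G)), m χ = (m χ) ^ 2 := by
    intro χ hχ
    by_cases h0 : m χ = 0
    · rw [h0]; norm_num
    · have hfp := hfpos χ hχ h0
      have h2 : ∑ χ ∈ Finset.univ \ ({oneI G} : Finset (IrrCharacter G)), m χ = ∑ χ ∈ Finset.univ \ ({oneI G} : Finset (IrrCharacter G)), (m χ) ^ 2 := by
        apply le_antisymm hle
        rw [hEq] at hge
        exact Nat.le_of_mul_le_mul_left hge hfp
      exact (Finset.sum_eq_sum_iff_of_le hmsq).mp h2 χ hχ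
  refine ⟨?_, ?_⟩
  · intro χ
    rw [hm χ]
    by_cases h1 : χ = oneI G
    · right; rw [h1, hm1]; norm_num
    · have h2 := hall χ (by rw [Finset.mem_sdiff, Finset.mem_singleton]; exact ⟨Finset.mem_univ _, h1⟩)
      rcases Nat.eq_zero_or_pos (m χ) with h3 | h3
      · left; rw [h3]; norm_num
      · right
        have h4 : m χ = 1 := by nlinarith
        rw [h4]; norm_num
  · intro b hb
    have h2 : ∑ χ ∈ Finset.univ \ ({oneI G} : Finset (IrrCharacter G)), m χ = ∑ χ ∈ Finset.univ \ ({oneI G} : Finset (IrrCharacter G)), (m χ) ^ 2 :=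
      Finset.sum_congr rfl hall
    have h3 : ∑ ω ∈ Finset.univ \ {ωa}, f = ∑ ω ∈ Finset.univ \ {ωa}, Nat.card (MulAction.orbit (MulAction.stabilizer G a) ω.out) := by
      rw [Finset.sum_const, smul_eq_mul, hcardsdiff, hEq, h2, mul_comm]
    have h4 := (Finset.sum_eq_sum_iff_of_le (fun ω hω => by
      rw [Finset.mem_sdiff, Finset.mem_singleton] at hω
      exact horb _ (hne ω hω.2))).mp h3
    obtain ⟨ωb, hωb⟩ : ∃ ωb : MulAction.orbitRel.Quotient (MulAction.stabilizer G a) Ω, ωb = Quotient.mk'' b := ⟨_, rfl⟩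
    have h5 : ωb.out ∈ MulAction.orbit (MulAction.stabilizer G a) b := by
      rw [← MulAction.orbitRel_apply, ← Quotient.eq'', ← hωb]
      exact Quotient.out_eq' ωb
    have h6 : ωb ≠ ωa := by
      intro h7
      rw [hωa, hωb, Quotient.eq'', MulAction.orbitRel_apply] at h7
      obtain ⟨g, hg⟩ := h7
      exact hb (hg.symm.trans g.2)
    have h7 := h4 ωb (by rw [Finset.mem_sdiff, Finset.mem_singleton]; exact ⟨Finset.mem_univ _, h6⟩)
    rw [← MulAction.orbit_eq_iff.mpr h5, ← h7]

/-- rank at most five -/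
theorem rank_le_five [MulAction.IsPretransitive G Ω] (a : Ω)
    (hr : Nat.card (MulAction.orbitRel.Quotient (MulAction.stabilizer G a) Ω) ≤ 5) (χ : IrrCharacter G) :
    classInner (pic G Ω) (χ : G → ℂ) = 0 ∨ classInner (pic G Ω) (χ : G → ℂ) = 1 := by
  classical
  have hex : ∀ χ : IrrCharacter G, ∃ n : ℕ, classInner (pic G Ω) (χ : G → ℂ) = n := fun χ => char_mult pic_char (irr_isCharacter χ.2)
  choose m hm using hex
  have hm1 : m (oneI G) = 1 := by
    have h1 := hm (oneI G)
    have e1 : ((oneI G : IrrCharacter G) : G → ℂ) = fun _ => 1 := rfl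
    rw [e1, inner_pic_one a] at h1
    exact_mod_cast h1.symm
  by_contra hcon
  have hm2 : 2 ≤ m χ := by
    rw [hm χ] at hcon
    push Not at hcon
    have h1 : m χ ≠ 0 := by exact_mod_cast hcon.1
    have h2 : m χ ≠ 1 := by exact_mod_cast hcon.2
    omega
  have hχ1 : χ ≠ oneI G := by
    intro h1
    rw [h1, hm1] at hm2; omega
  have hrank : ∑ ψ : IrrCharacter G, (m ψ) ^ 2 ≤ 5 := by
    have h1 := inner_pic_self (G := G) a
    rw [parseval (char_classFun pic_char) (char_classFun pic_char)] at h1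
    rw [Finset.sum_congr rfl (g := fun χ : IrrCharacter G => (((m χ) ^ 2 : ℕ) : ℂ)) (by
      intro χ _
      rw [hm χ, Complex.conj_natCast]; push_cast; ring), ← Nat.cast_sum] at h1
    have h2 : ∑ χ : IrrCharacter G, (m χ) ^ 2 = Nat.card (MulAction.orbitRel.Quotient (MulAction.stabilizer G a) Ω) := by exact_mod_cast h1
    omega
  have hother : ∀ ψ : IrrCharacter G, ψ ≠ oneI G → ψ ≠ χ → m ψ = 0 := by
    intro ψ h1 h2
    have h3 : ∑ φ ∈ ({oneI G, χ, ψ} : Finset (IrrCharacter G)), (m φ) ^ 2 ≤ 5 :=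
      (Finset.sum_le_sum_of_subset (Finset.subset_univ _)).trans hrank
    rw [Finset.sum_insert (by simp only [Finset.mem_insert, Finset.mem_singleton, not_or]; exact ⟨hχ1.symm, h1.symm⟩),
      Finset.sum_insert (by simp only [Finset.mem_singleton]; exact h2.symm), Finset.sum_singleton, hm1] at h3
    by_contra h4
    have h5 : 1 ≤ m ψ := Nat.one_le_iff_ne_zero.mpr h4
    nlinarith
  have hdegN := CfsgLib.CharInt.irr_one_eq_charDegree χ.2
  have h6 := (all_deg (G := G) a (charDegree (χ : G → ℂ)) (by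
    intro ψ h1 h2
    by_cases h3 : ψ = χ
    · rw [h3]; exact hdegN
    · exfalso
      rw [hm ψ, hother ψ h1 h3] at h2
      simp at h2)).1 χ
  exact hcon h6

end CfsgLib.PermAlg20
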