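import Cfsg.Agent.LibPermAlg20b
import Cfsg.Agent.LibClassAlg

set_option autoImplicit false
set_option linter.all false
set_option maxHeartbeats 1000000

/-! # Central idempotents acting on a representation (helper20) -/

namespace CfsgLib.PermAlg20

open Cfsg CfsgLib.CharBasic
open scoped ComplexConjugate
open Representation (IntertwiningMap)

universe u v

section Gen

variable {G : Type u} [Group G] [Fintype G] {V : Type v} [AddCommGroup V] [Module ℂ V] [FiniteDimensional ℂ V]

/-- a function on the group acting -/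
noncomputable def R (ρ : Representation ℂ G V) (a : G → ℂ) : Module.End ℂ V := ∑ g, a g • ρ g

theorem R_comp (ρ : Representation ℂ G V) (a b : G → ℂ) : R ρ a ∘ₗ R ρ b = R ρ (CfsgLib.ClassAlg.conv a b) := by
  unfold R CfsgLib.ClassAlg.conv
  apply LinearMap.ext
  intro v
  simp only [LinearMap.comp_apply, LinearMap.sum_apply, LinearMap.smul_apply, map_sum, map_smul, Finset.smul_sum]
  have h1 : ∀ x : G, ∑ g : G, b g • a x • ρ x (ρ g v) = ∑ z : G, (a x * b (x⁻¹ * z)) • ρ z v := by
    intro x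
    rw [← Equiv.sum_comp (Equiv.mulLeft x) (fun z => (a x * b (x⁻¹ * z)) • ρ z v)]
    apply Finset.sum_congr rfl
    intro g _
    rw [Equiv.coe_mulLeft, inv_mul_cancel_left, map_mul, smul_smul, mul_comm (b g)]
    rfl
  rw [Finset.sum_comm, Finset.sum_congr rfl (fun x _ => h1 x), Finset.sum_comm]
  apply Finset.sum_congr rfl
  intro z _
  rw [Finset.sum_smul]

theorem R_smul (ρ : Representation ℂ G V) (c : ℂ) (a : G → ℂ) : R ρ (fun g => c * a g) = c • R ρ a := by
  unfold R
  rw [Finset.smul_sum]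
  apply Finset.sum_congr rfl
  intro g _
  rw [mul_smul]

/-- the idempotent kernel -/
noncomputable def ee (χ : G → ℂ) (g : G) : ℂ := (χ 1 / (Nat.card G : ℂ)) * conj (χ g)

theorem conj_cf {χ : G → ℂ} (hχ : IsClassFunction G χ) : IsClassFunction G (fun g => conj (χ g)) := by
  intro g x
  show conj (χ _) = conj (χ _)
  rw [hχ]

open Classical in
theorem conv_conj (χ ψ : IrrCharacter G) (z : G) :
    CfsgLib.ClassAlg.conv (fun g => conj ((χ : G → ℂ) g)) (fun g => conj ((ψ : G → ℂ) g)) z =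
      if χ = ψ then (Nat.card G : ℂ) / (χ : G → ℂ) 1 * conj ((χ : G → ℂ) z) else 0 := by
  have hG : (Nat.card G : ℂ) ≠ 0 := by exact_mod_cast Nat.card_pos.ne'
  rw [CfsgLib.ClassAlg.conv_eq (conj_cf (CfsgLib.CharBasic.irr_classFun χ.2)) (conj_cf (CfsgLib.CharBasic.irr_classFun ψ.2))]
  have hom : ∀ φ θ : IrrCharacter G, CfsgLib.ClassAlg.omega (φ : G → ℂ) (fun g => conj ((θ : G → ℂ) g)) =
      if φ = θ then (Nat.card G : ℂ) / (φ : G → ℂ) 1 else 0 := by
    intro φ θ
    unfold CfsgLib.ClassAlg.omega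
    have h1 := CfsgLib.CharBasic.irr_inner φ.2 θ.2
    unfold classInner at h1
    have h2 : ((φ : G → ℂ) = (θ : G → ℂ)) ↔ φ = θ := Subtype.ext_iff.symm
    simp only [h2] at h1
    have h3 : ∑ x : G, conj ((θ : G → ℂ) x) * (φ : G → ℂ) x = (Nat.card G : ℂ) * if φ = θ then 1 else 0 := by
      rw [← h1, ← mul_assoc, mul_inv_cancel₀ hG, one_mul]
      exact Finset.sum_congr rfl fun x _ => mul_comm _ _
    rw [h3]
    split_ifs <;> simp
  simp only [hom]
  by_cases h : χ = ψ
  · rw [if_pos h, ← h, Finset.sum_eq_single χ]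
    · rw [if_pos rfl]
      have h0 : (χ : G → ℂ) 1 ≠ 0 := CfsgLib.CharInt.irr_one_ne_zero χ.2
      field_simp
    · intro φ _ hφ
      rw [if_neg hφ]; ring
    · intro h1; exact absurd (Finset.mem_univ _) h1
  · rw [if_neg h, Finset.sum_eq_zero, mul_zero]
    intro φ _
    by_cases h1 : φ = χ
    · rw [if_neg (fun h2 => h (h1.symm.trans h2))]; ring
    · rw [if_neg h1]; ring

/-- the idempotent -/
noncomputable def E (ρ : Representation ℂ G V) (χ : IrrCharacter G) : Module.End ℂ V := R ρ (ee (χ : G → ℂ))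

open Classical in
theorem E_comp (ρ : Representation ℂ G V) (χ ψ : IrrCharacter G) : E ρ χ ∘ₗ E ρ ψ = if χ = ψ then E ρ χ else 0 := by
  have hG : (Nat.card G : ℂ) ≠ 0 := by exact_mod_cast Nat.card_pos.ne'
  have h0 : (χ : G → ℂ) 1 ≠ 0 := CfsgLib.CharInt.irr_one_ne_zero χ.2
  unfold E ee
  rw [R_smul, R_smul, LinearMap.smul_comp, LinearMap.comp_smul, R_comp]
  have h1 : CfsgLib.ClassAlg.conv (fun g => conj ((χ : G → ℂ) g)) (fun g => conj ((ψ : G → ℂ) g)) =
      fun z => (if χ = ψ then (Nat.card G : ℂ) / (χ : G → ℂ) 1 else 0) * conj ((χ : G → ℂ) z) := by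
    funext z
    rw [conv_conj]
    split_ifs <;> simp
  rw [h1, R_smul]
  by_cases h : χ = ψ
  · rw [if_pos h, if_pos h, ← h, smul_smul, smul_smul]
    congr 1
    field_simp
  · rw [if_neg h, if_neg h]
    simp

theorem E_comm (ρ : Representation ℂ G V) (χ : IrrCharacter G) {T : Module.End ℂ V} (hT : ∀ g, Commute T (ρ g)) : Commute T (E ρ χ) := by
  unfold E R
  apply Commute.sum_right
  intro g _
  exact (hT g).smul_right _

theorem E_comm' (ρ : Representation ℂ G V) (χ : IrrCharacter G) (h : G) : Commute (E ρ χ) (ρ h) := by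
  show E ρ χ * ρ h = ρ h * E ρ χ
  unfold E R
  rw [Finset.sum_mul, Finset.mul_sum]
  rw [← Equiv.sum_comp (MulAut.conj h).toEquiv (fun g => ee (χ : G → ℂ) g • ρ g * ρ h)]
  apply Finset.sum_congr rfl
  intro g _
  have e1 : (MulAut.conj h).toEquiv g = h * g * h⁻¹ := rfl
  have e2 : ee (χ : G → ℂ) (h * g * h⁻¹) = ee (χ : G → ℂ) g := by
    unfold ee
    rw [CfsgLib.CharBasic.irr_classFun χ.2]
  rw [e1, e2, smul_mul_assoc, mul_smul_comm, ← map_mul, ← map_mul]
  congr 2
  group

theorem E_trace (ρ : Representation ℂ G V) (χ : IrrCharacter G) :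
    LinearMap.trace ℂ V (E ρ χ) = (χ : G → ℂ) 1 * classInner ρ.character (χ : G → ℂ) := by
  unfold E R ee classInner
  rw [map_sum, Finset.mul_sum, Finset.mul_sum]
  apply Finset.sum_congr rfl
  intro g _
  rw [map_smul, smul_eq_mul]
  unfold Representation.character
  rw [div_eq_mul_inv]
  ring

/-- the multiplicity-free case -/
theorem span_E (ρ : Representation ℂ G V)
    (hmf : ∀ χ : IrrCharacter G, classInner ρ.character (χ : G → ℂ) = 0 ∨ classInner ρ.character (χ : G → ℂ) = 1)
    {T : Module.End ℂ V} (hT : ∀ g, Commute T (ρ g)) :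
    ∃ θ : IrrCharacter G → ℂ, T = ∑ χ : IrrCharacter G, θ χ • E ρ χ ∧ ∀ χ : IrrCharacter G, classInner ρ.character (χ : G → ℂ) = 0 → θ χ = 0 := by
  classical
  obtain ⟨X, hX⟩ : ∃ X : Finset (IrrCharacter G), X = Finset.univ.filter (fun χ : IrrCharacter G => classInner ρ.character (χ : G → ℂ) = 1) := ⟨_, rfl⟩
  have hXm : ∀ χ : IrrCharacter G, χ ∈ X ↔ classInner ρ.character (χ : G → ℂ) = 1 := by
    intro χ; rw [hX, Finset.mem_filter]; simp
  -- the intertwiners
  let F : X → IntertwiningMap ρ ρ := fun χ =>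
    { toLinearMap := E ρ χ.1, isIntertwining' := fun g => E_comm' ρ χ.1 g }
  have hFl : ∀ χ : X, (F χ).toLinearMap = E ρ χ.1 := fun χ => rfl
  have hcard : Fintype.card X = Module.finrank ℂ (IntertwiningMap ρ ρ) := by
    have h1 := inner_reps ρ ρ
    rw [parseval (char_classFun (isCharacter_character ρ)) (char_classFun (isCharacter_character ρ))] at h1
    have h2 : ∑ χ : IrrCharacter G, classInner ρ.character (χ : G → ℂ) * conj (classInner ρ.character (χ : G → ℂ)) = (Fintype.card X : ℂ) := by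
      rw [Fintype.card_coe, hX, Finset.card_filter]
      push_cast
      apply Finset.sum_congr rfl
      intro χ _
      rcases hmf χ with h | h <;> rw [h] <;> simp
    rw [h2] at h1
    exact_mod_cast h1
  have hne : ∀ χ : X, E ρ χ.1 ≠ 0 := by
    intro χ h0
    have h1 := E_trace ρ χ.1
    have h2 := (hXm _).mp χ.2
    rw [h0, map_zero, h2, mul_one] at h1
    exact CfsgLib.CharInt.irr_one_ne_zero χ.1.2 h1.symm
  have hli : LinearIndependent ℂ F := by
    rw [Fintype.linearIndependent_iff]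
    intro c hc i
    have h1 : ∑ j : X, c j • E ρ j.1 = 0 := by
      have := congrArg (fun f : IntertwiningMap ρ ρ => f.toLinearMap) hc
      simp only [IntertwiningMap.toLinearMap_sum] at this
      exact this
    have h2 := congrArg (fun T => E ρ i.1 ∘ₗ T) h1
    simp only [LinearMap.comp_zero] at h2
    have h3 : E ρ i.1 ∘ₗ ∑ j : X, c j • E ρ j.1 = c i • E ρ i.1 := by
      have h4 : E ρ i.1 ∘ₗ ∑ j : X, c j • E ρ j.1 = ∑ j : X, c j • (E ρ i.1 ∘ₗ E ρ j.1) := by
        show E ρ i.1 * ∑ j : X, c j • E ρ j.1 = _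
        rw [Finset.mul_sum]
        apply Finset.sum_congr rfl
        intro j _
        rw [mul_smul_comm]
        rfl
      rw [h4, Finset.sum_eq_single i]
      · rw [E_comp, if_pos rfl]
      · intro j _ hj
        rw [E_comp, if_neg (fun h5 => hj (Subtype.ext h5.symm)), smul_zero]
      · intro h5; exact absurd (Finset.mem_univ _) h5
    rw [h3] at h2
    exact (smul_eq_zero.mp h2).resolve_right (hne i)
  have hspan := hli.span_eq_top_of_card_eq_finrank' hcard
  let T' : IntertwiningMap ρ ρ := { toLinearMap := T, isIntertwining' := fun g => hT g }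
  have hT' : T' ∈ Submodule.span ℂ (Set.range F) := by rw [hspan]; exact Submodule.mem_top
  rw [Submodule.mem_span_range_iff_exists_fun] at hT'
  obtain ⟨c, hc⟩ := hT'
  refine ⟨fun χ => if h : χ ∈ X then c ⟨χ, h⟩ else 0, ?_, ?_⟩
  swap
  · intro χ hχ
    have : χ ∉ X := by
      rw [hXm, hχ]; norm_num
    simp only [dif_neg this]
  have h1 : ∑ j : X, c j • E ρ j.1 = T := by
    have := congrArg (fun f : IntertwiningMap ρ ρ => f.toLinearMap) hc
    simp only [IntertwiningMap.toLinearMap_sum] at this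
    exact this
  rw [← h1, ← Finset.sum_subset (Finset.subset_univ X)]
  · rw [← Finset.sum_coe_sort X]
    apply Finset.sum_congr rfl
    intro j _
    simp only [dif_pos j.2]
  · intro χ _ hχ
    simp only [dif_neg hχ, zero_smul]

theorem mf_comm (ρ : Representation ℂ G V)
    (hmf : ∀ χ : IrrCharacter G, classInner ρ.character (χ : G → ℂ) = 0 ∨ classInner ρ.character (χ : G → ℂ) = 1)
    {S T : Module.End ℂ V} (hS : ∀ g, Commute S (ρ g)) (hT : ∀ g, Commute T (ρ g)) : Commute S T := by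
  obtain ⟨θ, hθ, -⟩ := span_E ρ hmf hS
  rw [hθ]
  apply Commute.sum_left
  intro χ _
  exact ((E_comm ρ χ hT).symm).smul_left _

/-- commutativity implies multiplicity-freeness -/
theorem comm_mf (ρ : Representation ℂ G V)
    (hcomm : ∀ S T : Module.End ℂ V, (∀ g, Commute S (ρ g)) → (∀ g, Commute T (ρ g)) → Commute S T) (χ : IrrCharacter G) :
    classInner ρ.character (χ : G → ℂ) = 0 ∨ classInner ρ.character (χ : G → ℂ) = 1 := by
  classical
  obtain ⟨d, σ, hσ, hχ⟩ := χ.2
  haveI := hσ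
  have h1 := inner_reps ρ σ
  rw [hχ] at h1
  rw [h1]
  by_contra hcon
  push Not at hcon
  have hge : 2 ≤ Module.finrank ℂ (IntertwiningMap σ ρ) := by
    have h2 : Module.finrank ℂ (IntertwiningMap σ ρ) ≠ 0 := by exact_mod_cast hcon.1
    have h3 : Module.finrank ℂ (IntertwiningMap σ ρ) ≠ 1 := by exact_mod_cast hcon.2
    omega
  -- two independent embeddings
  have hpos : 0 < Module.finrank ℂ (IntertwiningMap σ ρ) := by omega
  haveI : Module.Finite ℂ (IntertwiningMap σ ρ) := Module.finite_of_finrank_pos hpos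
  obtain ⟨j, hj⟩ := Module.finrank_pos_iff_exists_ne_zero.mp hpos
  have hinj : Function.Injective j := (Representation.IsIrreducible.injective_or_eq_zero j).resolve_right hj
  -- averaging a left inverse
  obtain ⟨p₀, hp₀⟩ := LinearMap.exists_leftInverse_of_injective j.toLinearMap (LinearMap.ker_eq_bot.mpr hinj)
  have hG : (Nat.card G : ℂ) ≠ 0 := by exact_mod_cast Nat.card_pos.ne'
  obtain ⟨p, hp⟩ : ∃ p : V →ₗ[ℂ] (Fin d → ℂ), p = (Nat.card G : ℂ)⁻¹ • ∑ g : G, σ g ∘ₗ p₀ ∘ₗ ρ g⁻¹ := ⟨_, rfl⟩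
  have hpint : ∀ h : G, p ∘ₗ ρ h = σ h ∘ₗ p := by
    intro h
    rw [hp, LinearMap.smul_comp, LinearMap.comp_smul]
    congr 1
    apply LinearMap.ext
    intro v
    simp only [LinearMap.comp_apply, LinearMap.sum_apply, map_sum]
    rw [← Equiv.sum_comp (Equiv.mulLeft h)]
    apply Finset.sum_congr rfl
    intro g _
    simp only [Equiv.coe_mulLeft, mul_inv_rev, map_mul, Module.End.mul_apply]
    have : ρ h⁻¹ (ρ h v) = v := by rw [← Module.End.mul_apply, ← map_mul]; simp
    rw [this]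
  have hpj : ∀ v, p (j v) = v := by
    intro v
    rw [hp]
    simp only [LinearMap.smul_apply, LinearMap.sum_apply, LinearMap.comp_apply]
    have h2 : ∀ g : G, σ g (p₀ (ρ g⁻¹ (j v))) = v := by
      intro g
      have h3 : ρ g⁻¹ (j v) = j (σ g⁻¹ v) := (LinearMap.congr_fun (j.2 g⁻¹) v).symm
      have h4 : p₀ (j (σ g⁻¹ v)) = σ g⁻¹ v := LinearMap.congr_fun hp₀ _
      rw [h3, h4, ← Module.End.mul_apply, ← map_mul]
      simp
    rw [Finset.sum_congr rfl (fun g _ => h2 g), Finset.sum_const, Finset.card_univ, ← Nat.card_eq_fintype_card]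
    rw [← Nat.cast_smul_eq_nsmul ℂ, smul_smul, inv_mul_cancel₀ hG, one_smul]
  -- every embedding is a multiple of `j`
  have hall : ∀ k : IntertwiningMap σ ρ, ∃ c : ℂ, c • j = k := by
    intro k
    -- `p ∘ k` is scalar
    have hpk : ∀ g : G, (p ∘ₗ k.toLinearMap) ∘ₗ σ g = σ g ∘ₗ (p ∘ₗ k.toLinearMap) := by
      intro g
      rw [LinearMap.comp_assoc, k.2, ← LinearMap.comp_assoc, hpint, LinearMap.comp_assoc]
    let pk : IntertwiningMap σ σ := { toLinearMap := p ∘ₗ k.toLinearMap, isIntertwining' := hpk }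
    obtain ⟨c, hc⟩ := (Representation.IsIrreducible.algebraMap_intertwiningMap_bijective_of_isAlgClosed (ρ := σ)).2 pk
    have hc' : ∀ v, p (k v) = c • v := by
      intro v
      have h2 := congrArg (fun f : IntertwiningMap σ σ => f.toLinearMap v) hc
      exact h2.symm
    refine ⟨c, ?_⟩
    have h3 := hcomm (j.toLinearMap ∘ₗ p) (k.toLinearMap ∘ₗ p) (fun g => by
        show (j.toLinearMap ∘ₗ p) ∘ₗ ρ g = ρ g ∘ₗ (j.toLinearMap ∘ₗ p)
        rw [LinearMap.comp_assoc, hpint, ← LinearMap.comp_assoc, j.2, LinearMap.comp_assoc]) (fun g => by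
        show (k.toLinearMap ∘ₗ p) ∘ₗ ρ g = ρ g ∘ₗ (k.toLinearMap ∘ₗ p)
        rw [LinearMap.comp_assoc, hpint, ← LinearMap.comp_assoc, k.2, LinearMap.comp_assoc])
    apply Representation.IntertwiningMap.ext
    apply LinearMap.ext
    intro v
    have h4 := LinearMap.congr_fun h3.eq (j v)
    have h5 : (j.toLinearMap ∘ₗ p) ((k.toLinearMap ∘ₗ p) (j v)) = c • j v := by
      show j (p (k (p (j v)))) = c • j v
      rw [hpj, hc', map_smul]
    have h6 : (k.toLinearMap ∘ₗ p) ((j.toLinearMap ∘ₗ p) (j v)) = k v := by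
      show k (p (j (p (j v)))) = k v
      rw [hpj, hpj]
    show c • j v = k v
    rw [← h5, ← h6]
    exact h4
  have hle : Module.finrank ℂ (IntertwiningMap σ ρ) ≤ 1 := finrank_le_one j hall
  omega

end Gen

end CfsgLib.PermAlg20
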