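import Cfsg.Agent.LibPermAlg20d
import Cfsg.Agent.LibGalChar

set_option autoImplicit false
set_option linter.all false
set_option maxHeartbeats 1000000

/-! # Groups of Wielandt type (helper20) -/

namespace CfsgLib.PermAlg20

open Cfsg CfsgLib.CharBasic
open scoped ComplexConjugate Pointwise
open Representation (IntertwiningMap)

universe u v

variable {G : Type u} [Group G] [Fintype G] {Ω : Type v} [Fintype Ω] [MulAction G Ω]

/-- Galois conjugates of eigenvalues of integral matrices -/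
theorem eig_gal {M : Ω → Ω → ℤ} {μ : ℂ} (h : (kop (fun x y => (M x y : ℂ))).HasEigenvalue μ) (τ : ℂ ≃+* ℂ) :
    (kop (fun x y => (M x y : ℂ))).HasEigenvalue (τ μ) := by
  obtain ⟨v, hv⟩ := h.exists_hasEigenvector
  rw [Module.End.hasEigenvector_iff, Module.End.mem_eigenspace_iff] at hv
  apply Module.End.hasEigenvalue_of_hasEigenvector (x := fun x => τ (v x))
  rw [Module.End.hasEigenvector_iff, Module.End.mem_eigenspace_iff]
  constructor
  · funext x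
    rw [kop_apply]
    have h1 := congrFun hv.1 x
    rw [kop_apply] at h1
    have h2 := congrArg τ h1
    rw [map_sum] at h2
    rw [Pi.smul_apply, smul_eq_mul] at h2 ⊢
    rw [map_mul] at h2
    rw [← h2]
    apply Finset.sum_congr rfl
    intro y _
    rw [map_mul, map_intCast]
  · intro h0
    apply hv.2
    funext x
    have := congrFun h0 x
    simpa using this

theorem tk_E_one [MulAction.IsPretransitive G Ω] (a : Ω) (x y : Ω) : tk (E (permRep ℂ G Ω) (oneI G)) x y = (Fintype.card Ω : ℂ)⁻¹ := by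
  classical
  have hΩ : (Fintype.card Ω : ℂ) ≠ 0 := by
    haveI : Nonempty Ω := ⟨a⟩
    exact_mod_cast Fintype.card_ne_zero
  have hG : (Nat.card G : ℂ) ≠ 0 := by exact_mod_cast Nat.card_pos.ne'
  rw [tk_E]
  have h1 : ∀ g : G, ee ((oneI G : IrrCharacter G) : G → ℂ) g = (Nat.card G : ℂ)⁻¹ := by
    intro g
    unfold ee
    have e1 : ∀ g, ((oneI G : IrrCharacter G) : G → ℂ) g = 1 := fun _ => rfl
    rw [e1, e1]; simp
  simp only [h1]
  rw [← Finset.mul_sum]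
  have h2 := sum_orbit (G := G) y (fun z => if z = x then (1 : ℂ) else 0)
  rw [Finset.sum_ite_eq' Finset.univ x, if_pos (Finset.mem_univ _), mul_one] at h2
  rw [inv_mul_eq_iff_eq_mul₀ hG, ← h2]
  field_simp

section

variable [MulAction.IsPretransitive G Ω]

/-- the data of a real multiplicity-free rank three group -/
theorem rank_three_data (a : Ω) (χ₁ χ₂ : IrrCharacter G) (h1 : χ₁ ≠ oneI G) (h2 : χ₂ ≠ oneI G) (h12 : χ₁ ≠ χ₂)
    (hmf : ∀ χ : IrrCharacter G, classInner (pic G Ω) (χ : G → ℂ) = if χ = oneI G ∨ χ = χ₁ ∨ χ = χ₂ then 1 else 0)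
    (hr1 : ∀ g, conj ((χ₁ : G → ℂ) g) = (χ₁ : G → ℂ) g) (hr2 : ∀ g, conj ((χ₂ : G → ℂ) g) = (χ₂ : G → ℂ) g)
    (b : Ω) (hb : b ≠ a) :
    ∃ θ₁ θ₂ : ℂ, IsIntegral ℤ θ₁ ∧ IsIntegral ℤ θ₂ ∧
      (Nat.card (MulAction.orbit (MulAction.stabilizer G a) b) : ℂ) + θ₁ * (χ₁ : G → ℂ) 1 + θ₂ * (χ₂ : G → ℂ) 1 = 0 ∧
      (Nat.card (MulAction.orbit (MulAction.stabilizer G a) b) : ℂ) ^ 2 + θ₁ ^ 2 * (χ₁ : G → ℂ) 1 + θ₂ ^ 2 * (χ₂ : G → ℂ) 1 =
        (Fintype.card Ω : ℂ) * (Nat.card (MulAction.orbit (MulAction.stabilizer G a) b) : ℂ) ∧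
      ∀ τ : ℂ ≃+* ℂ, (τ θ₁ = (Nat.card (MulAction.orbit (MulAction.stabilizer G a) b) : ℂ) ∨ τ θ₁ = θ₁ ∨ τ θ₁ = θ₂) ∧
        (τ θ₂ = (Nat.card (MulAction.orbit (MulAction.stabilizer G a) b) : ℂ) ∨ τ θ₂ = θ₁ ∨ τ θ₂ = θ₂) := by
  classical
  have hΩ : (Fintype.card Ω : ℂ) ≠ 0 := by
    haveI : Nonempty Ω := ⟨a⟩
    exact_mod_cast Fintype.card_ne_zero
  obtain ⟨k, hk⟩ : ∃ k : ℂ, k = (Nat.card (MulAction.orbit (MulAction.stabilizer G a) b) : ℂ) := ⟨_, rfl⟩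
  have hmf' : ∀ χ : IrrCharacter G, classInner (permRep ℂ G Ω).character (χ : G → ℂ) = 0 ∨ classInner (permRep ℂ G Ω).character (χ : G → ℂ) = 1 := by
    intro χ
    rw [perm_char_eq, hmf χ]
    split_ifs
    · exact Or.inr rfl
    · exact Or.inl rfl
  obtain ⟨T, hT⟩ : ∃ T : Module.End ℂ (Ω → ℂ), T = kop (fun x y => (orbM G a b x y : ℂ)) := ⟨_, rfl⟩
  have hTc : ∀ g : G, Commute T (permRep ℂ G Ω g) := by rw [hT]; exact kop_comm (orb_inv a b)
  -- expansion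
  have hthree : ∀ (θ : IrrCharacter G → ℂ), (∀ χ : IrrCharacter G, classInner (permRep ℂ G Ω).character (χ : G → ℂ) = 0 → θ χ = 0) →
      ∑ χ : IrrCharacter G, θ χ • E (permRep ℂ G Ω) χ = θ (oneI G) • E (permRep ℂ G Ω) (oneI G) + (θ χ₁ • E (permRep ℂ G Ω) χ₁ + θ χ₂ • E (permRep ℂ G Ω) χ₂) := by
    intro θ hθ
    rw [← Finset.sum_subset (Finset.subset_univ ({oneI G, χ₁, χ₂} : Finset (IrrCharacter G)))]
    · rw [Finset.sum_insert (by simp only [Finset.mem_insert, Finset.mem_singleton, not_or]; exact ⟨h1.symm, h2.symm⟩),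
        Finset.sum_insert (by simp only [Finset.mem_singleton]; exact h12), Finset.sum_singleton]
    · intro χ _ hχ
      simp only [Finset.mem_insert, Finset.mem_singleton] at hχ
      rw [hθ χ (by rw [perm_char_eq, hmf χ, if_neg hχ]), zero_smul]
  obtain ⟨θ, hθ, hθ0⟩ := span_E (permRep ℂ G Ω) hmf' hTc
  obtain ⟨c, hc, hc0⟩ := span_E (permRep ℂ G Ω) hmf' (T := (1 : Module.End ℂ (Ω → ℂ))) (fun g => Commute.one_left _)
  rw [hthree θ hθ0] at hθ
  rw [hthree c hc0] at hc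
  have hne : ∀ χ : IrrCharacter G, (χ = oneI G ∨ χ = χ₁ ∨ χ = χ₂) → E (permRep ℂ G Ω) χ ≠ 0 := by
    intro χ hχ h0
    have h3 := E_trace (permRep ℂ G Ω) χ
    rw [h0, map_zero, perm_char_eq, hmf χ, if_pos hχ, mul_one] at h3
    exact CfsgLib.CharInt.irr_one_ne_zero χ.2 h3.symm
  have hTE : ∀ χ : IrrCharacter G, (χ = oneI G ∨ χ = χ₁ ∨ χ = χ₂) → T ∘ₗ E (permRep ℂ G Ω) χ = θ χ • E (permRep ℂ G Ω) χ := by
    intro χ hχ
    rw [hθ, LinearMap.add_comp, LinearMap.add_comp, LinearMap.smul_comp, LinearMap.smul_comp, LinearMap.smul_comp, E_comp, E_comp, E_comp]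
    rcases hχ with rfl | rfl | rfl
    · rw [if_pos rfl, if_neg h1, if_neg h2]; simp
    · rw [if_neg h1.symm, if_pos rfl, if_neg h12.symm]; simp
    · rw [if_neg h2.symm, if_neg h12, if_pos rfl]; simp
  -- `θ (oneI G) = k`
  have hrow : ∀ x, ∑ y, (orbM G a b x y : ℂ) = k := by
    intro x
    obtain ⟨t, ht⟩ := MulAction.exists_smul_eq G a x
    rw [hk, ← orb_row, ← ht, ← sum_smul t]
    apply Finset.sum_congr rfl
    intro y _
    exact orb_inv a b t a y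
  have hθone : θ (oneI G) = k := by
    have h3 := hTE (oneI G) (Or.inl rfl)
    have h4 : tk (T ∘ₗ E (permRep ℂ G Ω) (oneI G)) a a = tk (θ (oneI G) • E (permRep ℂ G Ω) (oneI G)) a a := by rw [h3]
    rw [tk_comp, tk_smul, tk_E_one a] at h4
    rw [Finset.sum_congr rfl (g := fun z => (orbM G a b a z : ℂ) * (Fintype.card Ω : ℂ)⁻¹) (by
      intro z _
      rw [tk_E_one a, hT, tk_kop]), ← Finset.sum_mul, hrow] at h4
    exact (mul_right_cancel₀ (inv_ne_zero hΩ) h4).symm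
  -- traces
  have htrE : ∀ χ : IrrCharacter G, (χ = oneI G ∨ χ = χ₁ ∨ χ = χ₂) → LinearMap.trace ℂ (Ω → ℂ) (E (permRep ℂ G Ω) χ) = (χ : G → ℂ) 1 := by
    intro χ hχ
    rw [E_trace, perm_char_eq, hmf χ, if_pos hχ, mul_one]
  have hone1 : ((oneI G : IrrCharacter G) : G → ℂ) 1 = 1 := rfl
  have htrtk : ∀ S : Module.End ℂ (Ω → ℂ), LinearMap.trace ℂ (Ω → ℂ) S = ∑ x, tk S x x := by
    intro S
    rw [LinearMap.trace_eq_matrix_trace ℂ (Pi.basisFun ℂ Ω), Matrix.trace]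
    apply Finset.sum_congr rfl
    intro x _
    rw [Matrix.diag_apply, LinearMap.toMatrix_apply]
    simp only [Pi.basisFun_apply, Pi.basisFun_repr]
    unfold tk
    congr!
  have htr1 : LinearMap.trace ℂ (Ω → ℂ) T = 0 := by
    rw [htrtk]
    apply Finset.sum_eq_zero
    intro x _
    rw [hT, tk_kop, orb_diag hb]; simp
  have htr1' : k + θ χ₁ * (χ₁ : G → ℂ) 1 + θ χ₂ * (χ₂ : G → ℂ) 1 = 0 := by
    rw [hθ, map_add, map_add, map_smul, map_smul, map_smul, htrE _ (Or.inl rfl), htrE _ (Or.inr (Or.inl rfl)), htrE _ (Or.inr (Or.inr rfl)),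
      hθone, hone1, smul_eq_mul, smul_eq_mul, smul_eq_mul] at htr1
    linear_combination htr1
  have hsp : ∀ x y : Ω, ∃ g : G, g • x = y ∧ g • y = x := by
    apply mf_selfpaired
    intro χ
    rw [hmf χ]
    split_ifs with h3
    · right
      refine ⟨rfl, ?_⟩
      rcases h3 with rfl | rfl | rfl
      · intro g
        have e1 : ∀ g, ((oneI G : IrrCharacter G) : G → ℂ) g = 1 := fun _ => rfl
        rw [e1]; simp
      · exact hr1
      · exact hr2
    · exact Or.inl rfl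
  have hsymm : ∀ x y, orbM G a b x y = orbM G a b y x := by
    intro x y
    obtain ⟨g, h3, h4⟩ := hsp x y
    have h5 := orb_inv (G := G) a b g x y
    simp only [h3, h4] at h5
    exact_mod_cast h5.symm
  have htr2 : LinearMap.trace ℂ (Ω → ℂ) (T ∘ₗ T) = (Fintype.card Ω : ℂ) * k := by
    rw [htrtk]
    rw [Finset.sum_congr rfl (g := fun _ => k) (by
      intro x _
      rw [tk_comp, ← hrow x]
      apply Finset.sum_congr rfl
      intro y _
      rw [hT, tk_kop, tk_kop, hsymm y x]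
      unfold orbM
      split_ifs <;> simp), Finset.sum_const, Finset.card_univ, nsmul_eq_mul]
  have htr2' : k ^ 2 + θ χ₁ ^ 2 * (χ₁ : G → ℂ) 1 + θ χ₂ ^ 2 * (χ₂ : G → ℂ) 1 = (Fintype.card Ω : ℂ) * k := by
    have h3 : T ∘ₗ T = (θ (oneI G)) ^ 2 • E (permRep ℂ G Ω) (oneI G) + ((θ χ₁) ^ 2 • E (permRep ℂ G Ω) χ₁ + (θ χ₂) ^ 2 • E (permRep ℂ G Ω) χ₂) := by
      calc T ∘ₗ T = T ∘ₗ (θ (oneI G) • E (permRep ℂ G Ω) (oneI G) + (θ χ₁ • E (permRep ℂ G Ω) χ₁ + θ χ₂ • E (permRep ℂ G Ω) χ₂)) := by rw [← hθ]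
        _ = _ := by
          rw [LinearMap.comp_add, LinearMap.comp_add, LinearMap.comp_smul, LinearMap.comp_smul, LinearMap.comp_smul,
            hTE _ (Or.inl rfl), hTE _ (Or.inr (Or.inl rfl)), hTE _ (Or.inr (Or.inr rfl)), smul_smul, smul_smul, smul_smul, pow_two, pow_two, pow_two]
    rw [h3, map_add, map_add, map_smul, map_smul, map_smul, htrE _ (Or.inl rfl), htrE _ (Or.inr (Or.inl rfl)), htrE _ (Or.inr (Or.inr rfl)),
      hθone, hone1, smul_eq_mul, smul_eq_mul, smul_eq_mul] at htr2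
    linear_combination htr2
  -- eigenvalues
  have heig : ∀ χ : IrrCharacter G, (χ = oneI G ∨ χ = χ₁ ∨ χ = χ₂) → T.HasEigenvalue (θ χ) := by
    intro χ hχ
    obtain ⟨v, hv⟩ : ∃ v, E (permRep ℂ G Ω) χ v ≠ 0 := by
      by_contra h3
      push Not at h3
      exact hne χ hχ (LinearMap.ext h3)
    apply Module.End.hasEigenvalue_of_hasEigenvector (x := E (permRep ℂ G Ω) χ v)
    rw [Module.End.hasEigenvector_iff, Module.End.mem_eigenspace_iff]
    exact ⟨LinearMap.congr_fun (hTE χ hχ) v, hv⟩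
  have heig2 : ∀ μ : ℂ, T.HasEigenvalue μ → μ = k ∨ μ = θ χ₁ ∨ μ = θ χ₂ := by
    intro μ hμ
    obtain ⟨v, hv⟩ := hμ.exists_hasEigenvector
    rw [Module.End.hasEigenvector_iff, Module.End.mem_eigenspace_iff] at hv
    have hcase : ∀ χ : IrrCharacter G, (χ = oneI G ∨ χ = χ₁ ∨ χ = χ₂) → E (permRep ℂ G Ω) χ v ≠ 0 → μ = θ χ := by
      intro χ hχ h3
      have h4 : T (E (permRep ℂ G Ω) χ v) = E (permRep ℂ G Ω) χ (T v) := LinearMap.congr_fun (E_comm (permRep ℂ G Ω) χ hTc).eq v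
      have h5 : T (E (permRep ℂ G Ω) χ v) = θ χ • E (permRep ℂ G Ω) χ v := LinearMap.congr_fun (hTE χ hχ) v
      rw [h5, hv.1, map_smul] at h4
      exact (smul_left_injective ℂ h3 h4).symm
    by_contra hcon
    push Not at hcon
    have z1 : E (permRep ℂ G Ω) (oneI G) v = 0 := by
      by_contra h3
      have := hcase _ (Or.inl rfl) h3
      rw [hθone] at this
      exact hcon.1 this
    have z2 : E (permRep ℂ G Ω) χ₁ v = 0 := by
      by_contra h3
      exact hcon.2.1 (hcase _ (Or.inr (Or.inl rfl)) h3)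
    have z3 : E (permRep ℂ G Ω) χ₂ v = 0 := by
      by_contra h3
      exact hcon.2.2 (hcase _ (Or.inr (Or.inr rfl)) h3)
    have h6 := LinearMap.congr_fun hc v
    rw [LinearMap.add_apply, LinearMap.add_apply, LinearMap.smul_apply, LinearMap.smul_apply, LinearMap.smul_apply, z1, z2, z3] at h6
    simp only [smul_zero, add_zero] at h6
    exact hv.2 h6
  have he1 := heig χ₁ (Or.inr (Or.inl rfl))
  have he2 := heig χ₂ (Or.inr (Or.inr rfl))
  refine ⟨θ χ₁, θ χ₂, ?_, ?_, ?_, ?_, ?_⟩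
  · rw [hT] at he1; exact eig_int he1
  · rw [hT] at he2; exact eig_int he2
  · rw [← hk]; exact htr1'
  · rw [← hk]; exact htr2'
  · intro τ
    rw [← hk]
    constructor
    · apply heig2
      rw [hT] at he1 ⊢
      exact eig_gal he1 τ
    · apply heig2
      rw [hT] at he2 ⊢
      exact eig_gal he2 τ

/-- the arithmetic of Wielandt's theorem: one orbital -/
theorem wielandt_arith {m k : ℕ} (hm : 2 ≤ m) {θ₁ θ₂ : ℂ} (hi1 : IsIntegral ℤ θ₁) (hi2 : IsIntegral ℤ θ₂)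
    (h1 : (k : ℂ) + θ₁ * ((m : ℂ) - 1) + θ₂ * (m : ℂ) = 0)
    (h2 : (k : ℂ) ^ 2 + θ₁ ^ 2 * ((m : ℂ) - 1) + θ₂ ^ 2 * (m : ℂ) = 2 * m * k)
    (hg : ∀ τ : ℂ ≃+* ℂ, (τ θ₁ = k ∨ τ θ₁ = θ₁ ∨ τ θ₁ = θ₂) ∧ (τ θ₂ = k ∨ τ θ₂ = θ₁ ∨ τ θ₂ = θ₂))
    (hk0 : 0 < k) (hk1 : k ≠ 1) (hk2 : k ≠ 2 * m - 2) (hk3 : k < 2 * m - 1) :
    (2 * (k : ℤ) - (2 * m - 1)) ^ 2 = 2 * m - 1 := by
  have hmc : (m : ℂ) ≠ 0 := by
    have : m ≠ 0 := by omega
    exact_mod_cast this
  have hfix1 : ∀ τ : ℂ ≃+* ℂ, τ θ₁ = θ₁ := by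
    intro τ
    have hkf : ∀ z : ℂ, τ z = (k : ℂ) → z = k := by
      intro z hz
      apply τ.injective
      rw [hz, map_natCast]
    have h1' := congrArg τ h1
    rw [map_add, map_add, map_mul, map_mul, map_sub, map_natCast, map_natCast, map_one, map_zero] at h1'
    obtain ⟨a1, a2⟩ := hg τ
    rcases a1 with a1 | a1 | a1
    · rw [hkf _ a1, map_natCast]
    · exact a1
    · rcases a2 with a2 | a2 | a2
      · rw [hkf _ a2] at a1
        have := hkf _ a1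
        rw [this, map_natCast]
      · rw [a1, a2] at h1'
        rw [a1]
        linear_combination h1 - h1'
      · have : θ₁ = θ₂ := τ.injective (a1.trans a2.symm)
        rw [a1, this]
  have hfix2 : ∀ τ : ℂ ≃+* ℂ, τ θ₂ = θ₂ := by
    intro τ
    have h1' := congrArg τ h1
    rw [map_add, map_add, map_mul, map_mul, map_sub, map_natCast, map_natCast, map_one, map_zero, hfix1 τ] at h1'
    apply mul_right_cancel₀ hmc
    linear_combination h1' - h1
  obtain ⟨t₁, ht₁⟩ := CfsgLib.GalChar.exists_int_of_fixed hi1 hfix1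
  obtain ⟨t₂, ht₂⟩ := CfsgLib.GalChar.exists_int_of_fixed hi2 hfix2
  rw [ht₁, ht₂] at h1 h2
  have e1 : (k : ℤ) + t₁ * ((m : ℤ) - 1) + t₂ * m = 0 := by exact_mod_cast h1
  have e2 : (k : ℤ) ^ 2 + t₁ ^ 2 * ((m : ℤ) - 1) + t₂ ^ 2 * m = 2 * m * k := by exact_mod_cast h2
  obtain ⟨K, hK⟩ : ∃ K : ℤ, K = k := ⟨_, rfl⟩
  obtain ⟨N, hN⟩ : ∃ N : ℤ, N = (m : ℤ) - 1 := ⟨_, rfl⟩
  have hmN : (m : ℤ) = N + 1 := by omega
  rw [← hK, hmN] at e1 e2
  rw [← hK, hmN]
  have hN1 : 1 ≤ N := by omega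
  have hK1 : 1 ≤ K := by omega
  have hKne : K ≠ 1 := by omega
  have hKne2 : K ≠ 2 * N := by omega
  have hK3 : K < 2 * N + 1 := by omega
  -- t₁ = K + J (N+1) with J = t₁ + t₂
  obtain ⟨J, hJ⟩ : ∃ J, J = t₁ + t₂ := ⟨_, rfl⟩
  have f1 : t₁ = K + J * (N + 1) := by rw [hJ]; linear_combination -e1
  have f2 : t₂ = -K - J * N := by rw [hJ] at f1 ⊢; linear_combination e1
  have f3 : (N + 1) * (2 * K ^ 2 + 4 * N * K * J + N * (2 * N + 1) * J ^ 2) = (N + 1) * (2 * K) := by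
    rw [f1, f2] at e2
    linear_combination e2
  have f4 : 2 * K ^ 2 + 4 * N * K * J + N * (2 * N + 1) * J ^ 2 = 2 * K := mul_left_cancel₀ (by omega) f3
  -- discriminant
  have f5 : (2 * K + 2 * N * J - 1) ^ 2 = 1 - 2 * N * (J * (J + 2)) := by linear_combination 2 * f4
  have f6 : J * (J + 2) ≤ 0 := by
    by_contra hcon
    push Not at hcon
    have : 1 ≤ J * (J + 2) := hcon
    have h3 := sq_nonneg (2 * K + 2 * N * J - 1)
    nlinarith
  have f7 : J = 0 ∨ J = -1 ∨ J = -2 := by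
    have a1 : -2 ≤ J := by nlinarith
    have a2 : J ≤ 0 := by nlinarith
    omega
  rcases f7 with rfl | rfl | rfl
  · exfalso
    have : (K - 1) * K = 0 := by nlinarith [f4]
    rcases mul_eq_zero.mp this with h3 | h3 <;> omega
  · linear_combination 2 * f4
  · exfalso
    have h3 : (K - 2 * N) * (K - (2 * N + 1)) = 0 := by nlinarith
    rcases mul_eq_zero.mp h3 with h4 | h4 <;> omega

end

end CfsgLib.PermAlg20
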