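import Cfsg.Agent.LibPermAlg20e

set_option autoImplicit false
set_option linter.all false
set_option maxHeartbeats 1000000

/-! # Groups of Wielandt type (helper20), part two -/

namespace CfsgLib.PermAlg20

open Cfsg CfsgLib.CharBasic
open scoped ComplexConjugate Pointwise
open Representation (IntertwiningMap)

universe u v

variable {G : Type u} [Group G] [Fintype G] {Ω : Type v} [Fintype Ω] [MulAction G Ω]

/-- a primitive group with a nontrivial subdegree one has regular... : all of `Ω` is fixed by a point stabilizer -/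
theorem subdeg_one (hprim : MulAction.IsPreprimitive G Ω) (a b : Ω) (hb : b ≠ a)
    (h1 : Nat.card (MulAction.orbit (MulAction.stabilizer G a) b) = 1) :
    Nat.card (MulAction.orbitRel.Quotient (MulAction.stabilizer G a) Ω) = Fintype.card Ω := by
  classical
  haveI := hprim.toIsPretransitive
  rw [Nat.card_eq_one_iff_unique] at h1
  have h2 : MulAction.stabilizer G a ≤ MulAction.stabilizer G b := by
    intro g hg
    have := h1.1.elim ⟨b, MulAction.mem_orbit_self b⟩ ⟨g • b, ⟨⟨g, hg⟩, rfl⟩⟩
    exact (congrArg Subtype.val this).symm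
  obtain ⟨t, ht⟩ := MulAction.exists_smul_eq G a b
  have h3 : MulAction.stabilizer G b = (MulAction.stabilizer G a).map (MulAut.conj t).toMonoidHom := by
    rw [← ht]; exact MulAction.stabilizer_smul_eq_stabilizer_map_conj t a
  have h4 : Nat.card (MulAction.stabilizer G b) = Nat.card (MulAction.stabilizer G a) := by
    rw [h3]
    exact Subgroup.card_map_of_injective (MulAut.conj t).injective
  have h5 : MulAction.stabilizer G a = MulAction.stabilizer G b := Subgroup.eq_of_le_of_card_ge h2 h4.le
  have hN : ∀ n : G, n ∈ Subgroup.normalizer (MulAction.stabilizer G a : Set G) → MulAction.stabilizer G (n • a) = MulAction.stabilizer G a := by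
    intro n hn
    rw [MulAction.stabilizer_smul_eq_stabilizer_map_conj]
    ext x
    rw [Subgroup.mem_normalizer_iff] at hn
    rw [Subgroup.mem_map]
    constructor
    · rintro ⟨y, hy, rfl⟩
      exact (hn y).mp hy
    · intro hx
      refine ⟨n⁻¹ * x * n, ?_, ?_⟩
      · rw [hn]; convert hx using 1; group
      · show n * (n⁻¹ * x * n) * n⁻¹ = x; group
  have htN : t ∈ Subgroup.normalizer (MulAction.stabilizer G a : Set G) := by
    rw [Subgroup.mem_normalizer_iff]
    intro x
    constructor
    · intro hx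
      have : t * x * t⁻¹ ∈ (MulAction.stabilizer G a).map (MulAut.conj t).toMonoidHom := ⟨x, hx, rfl⟩
      rw [← h3, ← h5] at this
      exact this
    · intro hx
      rw [h5, h3] at hx
      obtain ⟨y, hy, hxy⟩ := hx
      have : y = x := by
        apply (MulAut.conj t).injective
        exact hxy
      rwa [← this]
  have hbl : MulAction.IsBlock G (MulAction.orbit (Subgroup.normalizer (MulAction.stabilizer G a : Set G)) a) := MulAction.IsBlock.of_orbit Subgroup.le_normalizer
  rcases hprim.isTrivialBlock_of_isBlock hbl with h6 | h6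
  · exfalso
    apply hb
    exact h6 ⟨⟨t, htN⟩, ht⟩ (MulAction.mem_orbit_self a)
  · have hall : ∀ x : Ω, ∀ g : MulAction.stabilizer G a, g • x = x := by
      intro x g
      have hx : x ∈ MulAction.orbit (Subgroup.normalizer (MulAction.stabilizer G a : Set G)) a := by rw [h6]; trivial
      obtain ⟨⟨n, hn⟩, hnx⟩ := hx
      have h7 := hN n hn
      have h8 : (g : G) ∈ MulAction.stabilizer G (n • a) := by rw [h7]; exact g.2
      have h9 : n • a = x := hnx
      rw [h9] at h8
      exact h8
    have hbij : Function.Bijective (fun x : Ω => (Quotient.mk'' x : MulAction.orbitRel.Quotient (MulAction.stabilizer G a) Ω)) := by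
      constructor
      · intro x y hxy
        have := Quotient.eq''.mp hxy
        rw [MulAction.orbitRel_apply] at this
        obtain ⟨g, hg⟩ := this
        exact hg.symm.trans (hall y g)
      · intro ω
        exact ⟨ω.out, Quotient.out_eq' ω⟩
    rw [← Nat.card_congr (Equiv.ofBijective _ hbij), Nat.card_eq_fintype_card]

theorem wielandt_main (hprim : MulAction.IsPreprimitive G Ω) {m : ℕ} (hm : Fintype.card Ω = 2 * m) (a : Ω)
    (hrank : Nat.card (MulAction.orbitRel.Quotient (MulAction.stabilizer G a) Ω) = 3) (χ₁ χ₂ : IrrCharacter G)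
    (hπ : pic G Ω = fun g => 1 + (χ₁ : G → ℂ) g + (χ₂ : G → ℂ) g) (hd₁ : (χ₁ : G → ℂ) 1 = (m : ℂ) - 1) (hd₂ : (χ₂ : G → ℂ) 1 = m) :
    ∃ c : ℕ, 0 < c ∧ m = 2 * c ^ 2 + 2 * c + 1 ∧ ∀ b : Ω, b ≠ a →
      Nat.card (MulAction.orbit (MulAction.stabilizer G a) b) = c * (2 * c + 1) ∨ Nat.card (MulAction.orbit (MulAction.stabilizer G a) b) = (c + 1) * (2 * c + 1) := by
  classical
  haveI := hprim.toIsPretransitive
  have hm2 : 2 ≤ m := by
    have h1 := CfsgLib.CharInt.irr_one_eq_charDegree χ₁.2
    have h2 := CfsgLib.CharInt.irr_one_ne_zero χ₁.2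
    rw [hd₁] at h1 h2
    have h3 : (m : ℂ) = ((charDegree (χ₁ : G → ℂ) + 1 : ℕ) : ℂ) := by push_cast; linear_combination h1
    have h4 : m = charDegree (χ₁ : G → ℂ) + 1 := by exact_mod_cast h3
    have h5 : charDegree (χ₁ : G → ℂ) ≠ 0 := by
      intro h0
      rw [h0] at h4
      apply h2
      rw [h4]; norm_num
    omega
  have hin : ∀ χ : IrrCharacter G, classInner (pic G Ω) (χ : G → ℂ) = (if oneI G = χ then 1 else 0) + (if χ₁ = χ then 1 else 0) + (if χ₂ = χ then 1 else 0) := by
    intro χ
    have hadd : ∀ (f g h : G → ℂ), classInner (fun x => f x + g x) h = classInner f h + classInner g h := by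
      intro f g h
      unfold classInner
      rw [← mul_add, ← Finset.sum_add_distrib]
      congr 1
      apply Finset.sum_congr rfl
      intro x _
      ring
    have h1 : pic G Ω = fun g => (((oneI G : IrrCharacter G) : G → ℂ) g + (χ₁ : G → ℂ) g) + (χ₂ : G → ℂ) g := by
      rw [hπ]; rfl
    rw [h1, hadd (fun g => ((oneI G : IrrCharacter G) : G → ℂ) g + (χ₁ : G → ℂ) g), hadd]
    have h2 : ∀ φ ψ : IrrCharacter G, classInner (φ : G → ℂ) (ψ : G → ℂ) = if φ = ψ then 1 else 0 := by
      intro φ ψ
      rw [CfsgLib.CharBasic.irr_inner φ.2 ψ.2]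
      by_cases h3 : φ = ψ
      · rw [if_pos h3, if_pos (congrArg Subtype.val h3)]
      · rw [if_neg h3, if_neg (fun h4 => h3 (Subtype.ext h4))]
    have h3 : classInner (fun g => ((oneI G : IrrCharacter G) : G → ℂ) g) (χ : G → ℂ) = if oneI G = χ then 1 else 0 := h2 _ _
    have h4 : classInner (fun g => (χ₁ : G → ℂ) g) (χ : G → ℂ) = if χ₁ = χ then 1 else 0 := h2 _ _
    have h5 : classInner (fun g => (χ₂ : G → ℂ) g) (χ : G → ℂ) = if χ₂ = χ then 1 else 0 := h2 _ _
    rw [h3, h4, h5]
  have hne : χ₁ ≠ oneI G ∧ χ₂ ≠ oneI G := by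
    have h1 := hin (oneI G)
    have h2 : classInner (pic G Ω) ((oneI G : IrrCharacter G) : G → ℂ) = 1 := inner_pic_one a
    rw [h2, if_pos rfl] at h1
    constructor
    · intro h3
      rw [if_pos h3] at h1
      split_ifs at h1 <;> norm_num at h1
    · intro h3
      rw [if_pos h3] at h1
      split_ifs at h1 <;> norm_num at h1
  have h12 : χ₁ ≠ χ₂ := by
    intro h
    rw [h, hd₂] at hd₁
    have : (1 : ℂ) = 0 := by linear_combination hd₁
    norm_num at this
  have hmf : ∀ χ : IrrCharacter G, classInner (pic G Ω) (χ : G → ℂ) = if χ = oneI G ∨ χ = χ₁ ∨ χ = χ₂ then 1 else 0 := by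
    intro χ
    rw [hin χ]
    by_cases c1 : oneI G = χ
    · rw [if_pos c1, if_neg (fun h => hne.1 (h.trans c1.symm)), if_neg (fun h => hne.2 (h.trans c1.symm)), if_pos (Or.inl c1.symm)]; norm_num
    · rw [if_neg c1]
      by_cases c2 : χ₁ = χ
      · rw [if_pos c2, if_neg (fun h => h12 (c2.trans h.symm)), if_pos (Or.inr (Or.inl c2.symm))]; norm_num
      · rw [if_neg c2]
        by_cases c3 : χ₂ = χ
        · rw [if_pos c3, if_pos (Or.inr (Or.inr c3.symm))]; norm_num
        · rw [if_neg c3, if_neg (by push Not; exact ⟨Ne.symm c1, Ne.symm c2, Ne.symm c3⟩)]; norm_num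
  -- reality
  have hbarin : ∀ χ : IrrCharacter G, classInner (pic G Ω) (bar χ : G → ℂ) = classInner (pic G Ω) (χ : G → ℂ) := by
    intro χ
    have h1 : classInner (pic G Ω) (bar χ : G → ℂ) = conj (classInner (pic G Ω) (χ : G → ℂ)) := by
      unfold classInner
      rw [map_mul, map_inv₀, map_sum]
      congr 1
      · simp
      · apply Finset.sum_congr rfl
        intro x _
        rw [map_mul]
        have h2 : (bar χ : G → ℂ) x = conj ((χ : G → ℂ) x) := rfl
        have h3 : conj (pic G Ω x) = pic G Ω x := by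
          unfold pic
          exact Complex.conj_natCast _
        rw [h2, h3]
    rw [h1, hmf χ]
    split_ifs <;> simp
  have hbdeg : ∀ χ : IrrCharacter G, (bar χ : G → ℂ) 1 = (χ : G → ℂ) 1 := by
    intro χ
    have h2 : (bar χ : G → ℂ) 1 = conj ((χ : G → ℂ) 1) := rfl
    rw [h2, CfsgLib.CharInt.irr_one_eq_charDegree χ.2, Complex.conj_natCast]
  have hbar1 : ∀ χ : IrrCharacter G, bar χ = oneI G → χ = oneI G := by
    intro χ h
    apply Subtype.ext
    funext g
    have h1 : (bar χ : G → ℂ) g = ((oneI G : IrrCharacter G) : G → ℂ) g := by rw [h]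
    have h2 : (bar χ : G → ℂ) g = conj ((χ : G → ℂ) g) := rfl
    have h3 : ((oneI G : IrrCharacter G) : G → ℂ) g = 1 := rfl
    rw [h2, h3] at h1
    have h4 := congrArg (starRingEnd ℂ) h1
    rw [Complex.conj_conj, map_one] at h4
    rw [h4, h3]
  have hr1 : bar χ₁ = χ₁ := by
    have h1 := hbarin χ₁
    rw [hmf, hmf, if_pos (Or.inr (Or.inl rfl))] at h1
    split_ifs at h1 with h2
    · rcases h2 with h2 | h2 | h2
      · exact absurd (hbar1 _ h2) hne.1
      · exact h2
      · exfalso
        have h3 := hbdeg χ₁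
        rw [h2, hd₁, hd₂] at h3
        have : (1 : ℂ) = 0 := by linear_combination h3
        norm_num at this
    · norm_num at h1
  have hr2 : bar χ₂ = χ₂ := by
    have h1 := hbarin χ₂
    rw [hmf, hmf, if_pos (Or.inr (Or.inr rfl))] at h1
    split_ifs at h1 with h2
    · rcases h2 with h2 | h2 | h2
      · exact absurd (hbar1 _ h2) hne.2
      · exfalso
        have h3 := hbdeg χ₂
        rw [h2, hd₁, hd₂] at h3
        have : (1 : ℂ) = 0 := by linear_combination -h3
        norm_num at this
      · exact h2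
    · norm_num at h1
  -- subdegrees
  have hk1 : ∀ b : Ω, b ≠ a → Nat.card (MulAction.orbit (MulAction.stabilizer G a) b) ≠ 1 := by
    intro b hb h1
    have h2 := subdeg_one hprim a b hb h1
    rw [hrank, hm] at h2
    omega
  have hk0 : ∀ b : Ω, 0 < Nat.card (MulAction.orbit (MulAction.stabilizer G a) b) := by
    intro b
    haveI : Nonempty (MulAction.orbit (MulAction.stabilizer G a) b) := ⟨⟨b, MulAction.mem_orbit_self b⟩⟩
    exact Nat.card_pos
  have hbig : ∀ b : Ω, b ≠ a → Nat.card (MulAction.orbit (MulAction.stabilizer G a) b) + 3 ≤ 2 * m := by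
    intro b hb
    -- a third orbit
    obtain ⟨ω, hω1, hω2⟩ : ∃ ω : MulAction.orbitRel.Quotient (MulAction.stabilizer G a) Ω, ω ≠ Quotient.mk'' a ∧ ω ≠ Quotient.mk'' b := by
      by_contra hcon
      push Not at hcon
      have h1 : (Set.univ : Set (MulAction.orbitRel.Quotient (MulAction.stabilizer G a) Ω)) ⊆ {Quotient.mk'' a, Quotient.mk'' b} := by
        intro ω _
        by_cases h2 : ω = Quotient.mk'' a
        · exact Or.inl h2
        · exact Or.inr (hcon ω h2)
      have h2 := Set.ncard_le_ncard h1 (Set.toFinite _)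
      rw [Set.ncard_univ, hrank] at h2
      have h3 := Set.ncard_insert_le (Quotient.mk'' a : MulAction.orbitRel.Quotient (MulAction.stabilizer G a) Ω) {Quotient.mk'' b}
      rw [Set.ncard_singleton] at h3
      omega
    obtain ⟨c, hc⟩ : ∃ c, c = ω.out := ⟨_, rfl⟩
    have hωc : ω = Quotient.mk'' c := by rw [hc]; exact (Quotient.out_eq' ω).symm
    have hcorb : c ∉ MulAction.orbit (MulAction.stabilizer G a) b := by
      intro h
      apply hω2
      rw [hωc]
      exact Quotient.eq''.mpr (MulAction.orbitRel_apply.mpr h)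
    have hca : c ≠ a := by
      rintro rfl
      exact hω1 hωc
    have hfix : ∀ g : MulAction.stabilizer G a, g • a = a := fun g => g.2
    have hdis1 : Disjoint (MulAction.orbit (MulAction.stabilizer G a) b) (MulAction.orbit (MulAction.stabilizer G a) c) := by
      rw [Set.disjoint_iff_forall_ne]
      rintro x hx y hy rfl
      apply hcorb
      rw [← MulAction.orbit_eq_iff.mpr hx, MulAction.orbit_eq_iff.mpr hy]
      exact MulAction.mem_orbit_self c
    have hanb : ∀ d : Ω, d ≠ a → a ∉ MulAction.orbit (MulAction.stabilizer G a) d := by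
      rintro d hd ⟨g, hg⟩
      apply hd
      have h3 : g • d = a := hg
      rw [← inv_smul_smul g d, h3]
      exact hfix g⁻¹
    have hsub := Set.ncard_le_ncard (Set.subset_univ (insert a (MulAction.orbit (MulAction.stabilizer G a) b ∪ MulAction.orbit (MulAction.stabilizer G a) c))) (Set.toFinite _)
    rw [Set.ncard_insert_of_notMem (by
      rintro (h | h)
      · exact hanb b hb h
      · exact hanb c hca h) (Set.toFinite _), Set.ncard_union_eq hdis1 (Set.toFinite _) (Set.toFinite _), Set.ncard_univ, Nat.card_eq_fintype_card, hm] at hsub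
    have h4 := hk0 c
    have h5 := hk1 c hca
    have e1 : (MulAction.orbit (MulAction.stabilizer G a) b).ncard = Nat.card (MulAction.orbit (MulAction.stabilizer G a) b) := rfl
    have e2 : (MulAction.orbit (MulAction.stabilizer G a) c).ncard = Nat.card (MulAction.orbit (MulAction.stabilizer G a) c) := rfl
    omega
  have hsq : ∀ b : Ω, b ≠ a → (2 * (Nat.card (MulAction.orbit (MulAction.stabilizer G a) b) : ℤ) - (2 * m - 1)) ^ 2 = 2 * m - 1 := by
    intro b hb
    obtain ⟨θ₁, θ₂, hi1, hi2, g1, g2, hg⟩ := rank_three_data a χ₁ χ₂ hne.1 hne.2 h12 hmf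
      (fun g => congrFun (congrArg Subtype.val hr1) g) (fun g => congrFun (congrArg Subtype.val hr2) g) b hb
    rw [hd₁, hd₂] at g1 g2
    have h3 := hbig b hb
    refine wielandt_arith hm2 hi1 hi2 g1 (by rw [hm] at g2; push_cast at g2; exact g2) hg (hk0 b) (hk1 b hb) (by omega) (by omega)
  obtain ⟨b₀, hb₀⟩ : ∃ b : Ω, b ≠ a := by
    haveI : Nontrivial Ω := by
      rw [← Fintype.one_lt_card_iff_nontrivial, hm]; omega
    exact exists_ne a
  have h0 := hsq b₀ hb₀
  obtain ⟨v, hv⟩ : ∃ v : ℕ, (v : ℤ) ^ 2 = 2 * m - 1 := ⟨(2 * (Nat.card (MulAction.orbit (MulAction.stabilizer G a) b₀) : ℤ) - (2 * m - 1)).natAbs, by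
    rw [Int.natCast_natAbs, sq_abs]; exact h0⟩
  have hvodd : v % 2 = 1 := by
    rcases Nat.mod_two_eq_zero_or_one v with h | h
    · exfalso
      obtain ⟨w, hw⟩ : ∃ w, v = 2 * w := ⟨v / 2, by omega⟩
      rw [hw] at hv
      push_cast at hv
      have : (2 : ℤ) * (2 * (w : ℤ) ^ 2) = 2 * m - 1 := by rw [← hv]; ring
      omega
    · exact h
  obtain ⟨c, hc⟩ : ∃ c, v = 2 * c + 1 := ⟨v / 2, by omega⟩
  have hmc : m = 2 * c ^ 2 + 2 * c + 1 := by
    rw [hc] at hv
    push_cast at hv
    have : (m : ℤ) = 2 * (c : ℤ) ^ 2 + 2 * c + 1 := by nlinarith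
    exact_mod_cast this
  refine ⟨c, ?_, hmc, ?_⟩
  · rcases Nat.eq_zero_or_pos c with h | h
    · rw [h] at hmc; omega
    · exact h
  · intro b hb
    have h1 := hsq b hb
    rw [← hv] at h1
    obtain ⟨k, hk⟩ : ∃ k, k = Nat.card (MulAction.orbit (MulAction.stabilizer G a) b) := ⟨_, rfl⟩
    rw [← hk] at h1 ⊢
    rcases sq_eq_sq_iff_eq_or_eq_neg.mp h1 with h2 | h2
    · right
      rw [hc] at h2
      push_cast at h2
      have : (k : ℤ) = (c + 1) * (2 * c + 1) := by linarith
      exact_mod_cast this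
    · left
      rw [hc] at h2
      push_cast at h2
      have : (k : ℤ) = c * (2 * c + 1) := by linarith
      exact_mod_cast this

end CfsgLib.PermAlg20
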