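import Mathlib
import Cfsg.Agent.LibPermBasic

/-! Basic lemmas about multiply transitive actions, II (seat helper15). -/

set_option autoImplicit false

namespace CfsgLib.PermBasic2

open MulAction

/-- triple transitivity on triples -/
theorem three_iff {G α : Type*} [Group G] [MulAction G α] :
    IsMultiplyPretransitive G α 3 ↔ ∀ a b c a' b' c' : α, a ≠ b → a ≠ c → b ≠ c → a' ≠ b' → a' ≠ c' → b' ≠ c' →
      ∃ g : G, g • a = a' ∧ g • b = b' ∧ g • c = c' := by
  rw [CfsgLib.PermBasic.mt_iff]
  constructor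
  · intro h a b c a' b' c' h1 h2 h3 h4 h5 h6
    obtain ⟨g, hg⟩ := h ![a, b, c] ![a', b', c'] (by
      intro i j hij
      fin_cases i <;> fin_cases j <;> simp_all [eq_comm]) (by
      intro i j hij
      fin_cases i <;> fin_cases j <;> simp_all [eq_comm])
    exact ⟨g, hg 0, hg 1, hg 2⟩
  · intro h x y hx hy
    obtain ⟨g, h1, h2, h3⟩ := h (x 0) (x 1) (x 2) (y 0) (y 1) (y 2) (hx.ne (by decide)) (hx.ne (by decide)) (hx.ne (by decide)) (hy.ne (by decide)) (hy.ne (by decide)) (hy.ne (by decide))
    refine ⟨g, fun i => ?_⟩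
    fin_cases i
    · exact h1
    · exact h2
    · exact h3

end CfsgLib.PermBasic2
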