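import Mathlib
import Cfsg.Prelude.Def_Sporadic_a
import Cfsg.Agent.EqBase

set_option autoImplicit false

/-! Projective planes of order 4 (helper28). -/

namespace CfsgLib.Plane28

open Cfsg

/-- the plane hypothesis -/
structure Pl {α : Type*} [Fintype α] [DecidableEq α] (L : Set (Finset α)) : Prop where
  card : Fintype.card α = 21
  st : Cfsg.IsSteinerSystem 2 5 L

variable {α : Type*} [Fintype α] [DecidableEq α] {L : Set (Finset α)}

theorem Pl.c5 (h : Pl L) {l : Finset α} (hl : l ∈ L) : l.card = 5 := h.st.1 l hl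

theorem Pl.ex (h : Pl L) {a b : α} (hab : a ≠ b) : ∃ l ∈ L, a ∈ l ∧ b ∈ l := by
  obtain ⟨l, ⟨hl, hs⟩, -⟩ := h.st.2 {a, b} (Finset.card_pair hab)
  exact ⟨l, hl, hs (by simp), hs (by simp)⟩

theorem Pl.uniq (h : Pl L) {a b : α} (hab : a ≠ b) {l m : Finset α} (hl : l ∈ L) (hm : m ∈ L) (hal : a ∈ l) (hbl : b ∈ l)
    (ham : a ∈ m) (hbm : b ∈ m) : l = m := by
  obtain ⟨k, -, hk⟩ := h.st.2 {a, b} (Finset.card_pair hab)
  rw [hk l ⟨hl, by intro x hx; rw [Finset.mem_insert, Finset.mem_singleton] at hx; rcases hx with rfl | rfl <;> assumption⟩,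
    hk m ⟨hm, by intro x hx; rw [Finset.mem_insert, Finset.mem_singleton] at hx; rcases hx with rfl | rfl <;> assumption⟩]

open Classical in
/-- the lines through a point -/
noncomputable def LP (L : Set (Finset α)) (p : α) : Finset (Finset α) := Finset.univ.filter fun l => l ∈ L ∧ p ∈ l

theorem mem_LP {p : α} {l : Finset α} : l ∈ LP L p ↔ l ∈ L ∧ p ∈ l := by
  classical
  rw [LP, Finset.mem_filter]
  exact ⟨fun h => h.2, fun h => ⟨Finset.mem_univ _, h⟩⟩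

/-- the workhorse -/
theorem Pl.ident (h : Pl L) {p : α} {A : Finset α} (hp : p ∉ A) : ∑ l ∈ LP L p, (l ∩ A).card = A.card := by
  classical
  rw [← Finset.card_biUnion]
  · congr 1
    ext x
    rw [Finset.mem_biUnion]
    constructor
    · rintro ⟨l, -, hx⟩
      exact (Finset.mem_inter.1 hx).2
    · intro hx
      have hpx : p ≠ x := fun h1 => hp (h1 ▸ hx)
      obtain ⟨l, hl, h1, h2⟩ := h.ex hpx
      exact ⟨l, mem_LP.2 ⟨hl, h1⟩, Finset.mem_inter.2 ⟨h2, hx⟩⟩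
  · intro l hl m hm hlm
    rw [Function.onFun, Finset.disjoint_left]
    intro x hx hx'
    rw [Finset.mem_inter] at hx hx'
    have hpx : p ≠ x := fun h1 => hp (h1 ▸ hx.2)
    have hl' := mem_LP.1 hl
    have hm' := mem_LP.1 hm
    exact hlm (h.uniq hpx hl'.1 hm'.1 hl'.2 hx.1 hm'.2 hx'.1)

theorem Pl.card_LP (h : Pl L) (p : α) : (LP L p).card = 5 := by
  classical
  have h1 := h.ident (p := p) (A := Finset.univ.erase p) (Finset.notMem_erase _ _)
  rw [Finset.card_erase_of_mem (Finset.mem_univ _), Finset.card_univ, h.card] at h1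
  have h2 : ∀ l ∈ LP L p, (l ∩ Finset.univ.erase p).card = 4 := by
    intro l hl
    have hl' := mem_LP.1 hl
    have : l ∩ Finset.univ.erase p = l.erase p := by
      ext x
      simp only [Finset.mem_inter, Finset.mem_erase, Finset.mem_univ, and_true]
      tauto
    rw [this, Finset.card_erase_of_mem hl'.2, h.c5 hl'.1]
  rw [Finset.sum_congr rfl h2, Finset.sum_const, smul_eq_mul] at h1
  omega

/-- if the sum of numbers at most one is the number of terms then all are one -/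
theorem all_one {ι : Type*} {s : Finset ι} {f : ι → ℕ} (hf : ∀ i ∈ s, f i ≤ 1) (hs : ∑ i ∈ s, f i = s.card) : ∀ i ∈ s, f i = 1 := by
  have h1 : ∑ i ∈ s, f i = ∑ i ∈ s, 1 := by rw [hs]; simp
  exact (Finset.sum_eq_sum_iff_of_le hf).1 h1

theorem Pl.inter_le (h : Pl L) {l m : Finset α} (hl : l ∈ L) (hm : m ∈ L) (hlm : l ≠ m) : (l ∩ m).card ≤ 1 := by
  rw [Finset.card_le_one]
  intro a ha b hb
  by_contra hab
  rw [Finset.mem_inter] at ha hb
  exact hlm (h.uniq hab hl hm ha.1 hb.1 ha.2 hb.2)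

theorem Pl.meet (h : Pl L) {l m : Finset α} (hl : l ∈ L) (hm : m ∈ L) (hlm : l ≠ m) : (l ∩ m).card = 1 := by
  obtain ⟨p, hp, hpm⟩ : ∃ p ∈ l, p ∉ m := by
    by_contra hcon
    push Not at hcon
    have h1 : l ⊆ m := hcon
    exact hlm (Finset.eq_of_subset_of_card_le h1 (by rw [h.c5 hl, h.c5 hm]))
  have h1 := h.ident hpm
  rw [h.c5 hm, ← h.card_LP p] at h1
  exact all_one (fun k hk => h.inter_le (mem_LP.1 hk).1 hm (fun h2 => hpm (h2 ▸ (mem_LP.1 hk).2))) h1 l (mem_LP.2 ⟨hl, hp⟩)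

theorem Pl.meet' (h : Pl L) {l m : Finset α} (hl : l ∈ L) (hm : m ∈ L) (hlm : l ≠ m) : ∃ x, x ∈ l ∧ x ∈ m := by
  have h1 := h.meet hl hm hlm
  obtain ⟨x, hx⟩ := Finset.card_pos.1 (by rw [h1]; norm_num : 0 < (l ∩ m).card)
  exact ⟨x, (Finset.mem_inter.1 hx).1, (Finset.mem_inter.1 hx).2⟩

/-! ### hyperovals -/

/-- hyperovals -/
def Hyp (L : Set (Finset α)) (H : Finset α) : Prop := H.card = 6 ∧ ∀ l ∈ L, (l ∩ H).card ≤ 2

theorem hyp_line (h : Pl L) {H : Finset α} (hH : Hyp L H) {l : Finset α} (hl : l ∈ L) {x : α} (hx : x ∈ H) (hxl : x ∈ l) :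
    (l ∩ H).card = 2 := by
  classical
  have e : ∀ m : Finset α, x ∈ m → (m ∩ H).card = (m ∩ H.erase x).card + 1 := by
    intro m hxm
    have h1 : m ∩ H.erase x = (m ∩ H).erase x := by
      ext y
      simp only [Finset.mem_inter, Finset.mem_erase]
      tauto
    rw [h1, Finset.card_erase_add_one (Finset.mem_inter.2 ⟨hxm, hx⟩)]
  have h1 := h.ident (p := x) (A := H.erase x) (Finset.notMem_erase _ _)
  rw [Finset.card_erase_of_mem hx, hH.1, show 6 - 1 = 5 from rfl, ← h.card_LP x] at h1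
  have h2 := all_one (fun k hk => by
    have h3 := hH.2 k (mem_LP.1 hk).1
    rw [e k (mem_LP.1 hk).2] at h3
    omega) h1 l (mem_LP.2 ⟨hl, hxl⟩)
  rw [e l hxl, h2]

theorem hyp_dich (h : Pl L) {H : Finset α} (hH : Hyp L H) {l : Finset α} (hl : l ∈ L) : (l ∩ H).card = 0 ∨ (l ∩ H).card = 2 := by
  by_cases h1 : (l ∩ H).card = 0
  · exact Or.inl h1
  · right
    obtain ⟨x, hx⟩ := Finset.card_pos.1 (Nat.pos_of_ne_zero h1)
    rw [Finset.mem_inter] at hx
    exact hyp_line h hH hl hx.2 hx.1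

/-- a point of `H` and an external point determine a second point of `H` -/
theorem mate_ex (h : Pl L) {H : Finset α} (hH : Hyp L H) {p : α} (hp : p ∉ H) (x : ↥H) :
    ∃ y : ↥H, y ≠ x ∧ ∃ l ∈ L, p ∈ l ∧ (x : α) ∈ l ∧ (y : α) ∈ l := by
  have hpx : p ≠ x := fun h1 => hp (h1 ▸ x.2)
  obtain ⟨l, hl, h1, h2⟩ := h.ex hpx
  have h3 := hyp_line h hH hl x.2 h2
  obtain ⟨a, b, hab, he⟩ := Finset.card_eq_two.1 h3
  have ha : a ∈ l ∩ H := by rw [he]; simp
  have hb : b ∈ l ∩ H := by rw [he]; simp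
  rw [Finset.mem_inter] at ha hb
  by_cases hax : a = x
  · refine ⟨⟨b, hb.2⟩, ?_, l, hl, h1, h2, hb.1⟩
    intro h4
    apply hab
    rw [hax, ← h4]
  · exact ⟨⟨a, ha.2⟩, fun h4 => hax (by rw [← h4]), l, hl, h1, h2, ha.1⟩

/-- no three points of a hyperoval on a line -/
theorem hyp_three (_h : Pl L) {H : Finset α} (hH : Hyp L H) {l : Finset α} (hl : l ∈ L) {a b c : α} (ha : a ∈ H) (hb : b ∈ H) (hc : c ∈ H)
    (hal : a ∈ l) (hbl : b ∈ l) (hcl : c ∈ l) (hab : a ≠ b) : c = a ∨ c = b := by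
  by_contra hcon
  push Not at hcon
  have h1 : ({a, b, c} : Finset α) ⊆ l ∩ H := by
    intro x hx
    simp only [Finset.mem_insert, Finset.mem_singleton] at hx
    rw [Finset.mem_inter]
    rcases hx with rfl | rfl | rfl
    · exact ⟨hal, ha⟩
    · exact ⟨hbl, hb⟩
    · exact ⟨hcl, hc⟩
  have h2 := Finset.card_le_card h1
  rw [Finset.card_eq_three.2 ⟨a, b, c, hab, hcon.1.symm, hcon.2.symm, rfl⟩] at h2
  have h3 := hH.2 l hl
  omega

theorem mate_uniq (h : Pl L) {H : Finset α} (hH : Hyp L H) {p : α} (hp : p ∉ H) {x y y' : ↥H} (hy : y ≠ x) (hy' : y' ≠ x)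
    {l l' : Finset α} (hl : l ∈ L) (hl' : l' ∈ L) (h1 : p ∈ l ∧ (x : α) ∈ l ∧ (y : α) ∈ l) (h2 : p ∈ l' ∧ (x : α) ∈ l' ∧ (y' : α) ∈ l') : y = y' := by
  have hpx : p ≠ x := fun h1 => hp (h1 ▸ x.2)
  have h3 : l = l' := h.uniq hpx hl hl' h1.1 h1.2.1 h2.1 h2.2.1
  subst h3
  have h4 := hyp_three h hH hl x.2 y.2 y'.2 h1.2.1 h1.2.2 h2.2.2 (fun h5 => hy (Subtype.ext h5.symm))
  rcases h4 with h4 | h4
  · exact absurd (Subtype.ext h4) hy'
  · exact Subtype.ext h4.symm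

/-- the mate -/
noncomputable def mt (h : Pl L) {H : Finset α} (hH : Hyp L H) {p : α} (hp : p ∉ H) (x : ↥H) : ↥H := (mate_ex h hH hp x).choose

theorem mt_spec (h : Pl L) {H : Finset α} (hH : Hyp L H) {p : α} (hp : p ∉ H) (x : ↥H) :
    mt h hH hp x ≠ x ∧ ∃ l ∈ L, p ∈ l ∧ (x : α) ∈ l ∧ (mt h hH hp x : α) ∈ l := (mate_ex h hH hp x).choose_spec

theorem mt_eq (h : Pl L) {H : Finset α} (hH : Hyp L H) {p : α} (hp : p ∉ H) {x y : ↥H} (hy : y ≠ x)
    {l : Finset α} (hl : l ∈ L) (h1 : p ∈ l ∧ (x : α) ∈ l ∧ (y : α) ∈ l) : mt h hH hp x = y := by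
  obtain ⟨h2, l', hl', h3⟩ := mt_spec h hH hp x
  exact mate_uniq h hH hp h2 hy hl' hl h3 h1

theorem mt_mt (h : Pl L) {H : Finset α} (hH : Hyp L H) {p : α} (hp : p ∉ H) (x : ↥H) : mt h hH hp (mt h hH hp x) = x := by
  obtain ⟨h2, l', hl', h3⟩ := mt_spec h hH hp x
  exact mt_eq h hH hp h2.symm hl' ⟨h3.1, h3.2.2, h3.2.1⟩

/-- synthemes as fixed point free involutions -/
abbrev Syn (X : Type*) := {τ : Equiv.Perm X // τ * τ = 1 ∧ ∀ x, τ x ≠ x}

/-- the syntheme of an external point -/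
noncomputable def sy (h : Pl L) {H : Finset α} (hH : Hyp L H) (p : {p : α // p ∉ H}) : Syn ↥H :=
  ⟨⟨mt h hH p.2, mt h hH p.2, mt_mt h hH p.2, mt_mt h hH p.2⟩, by
    constructor
    · ext x
      show (mt h hH p.2 (mt h hH p.2 x) : α) = x
      rw [mt_mt]
    · exact fun x => (mt_spec h hH p.2 x).1⟩

theorem sy_apply (h : Pl L) {H : Finset α} (hH : Hyp L H) (p : {p : α // p ∉ H}) (x : ↥H) : (sy h hH p).1 x = mt h hH p.2 x := rfl

theorem sy_line (h : Pl L) {H : Finset α} (hH : Hyp L H) {p : {p : α // p ∉ H}} {x : ↥H} {l : Finset α} (hl : l ∈ L)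
    (hx : (x : α) ∈ l) (hpl : (p : α) ∈ l) : ((sy h hH p).1 x : α) ∈ l := by
  obtain ⟨h2, l', hl', h3⟩ := mt_spec h hH p.2 x
  have hpx : (p : α) ≠ x := fun h1 => p.2 (h1 ▸ x.2)
  have : l = l' := h.uniq hpx hl hl' hpl hx h3.1 h3.2.1
  rw [this]; exact h3.2.2

theorem line_sy (h : Pl L) {H : Finset α} (hH : Hyp L H) {p : {p : α // p ∉ H}} {x : ↥H} {l : Finset α} (hl : l ∈ L)
    (hx : (x : α) ∈ l) (hpl : ((sy h hH p).1 x : α) ∈ l) : (p : α) ∈ l := by
  obtain ⟨h2, l', hl', h3⟩ := mt_spec h hH p.2 x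
  have h4 : ((sy h hH p).1 x : α) ≠ x := fun h5 => h2 (Subtype.ext h5)
  have : l = l' := h.uniq h4 hl hl' hpl hx h3.2.2 h3.2.1
  rw [this]; exact h3.1

theorem sy_inj (h : Pl L) {H : Finset α} (hH : Hyp L H) : Function.Injective (sy h hH) := by
  classical
  intro p q hpq
  by_contra hne
  have hne' : (p : α) ≠ q := fun h1 => hne (Subtype.ext h1)
  have key : ∀ x : ↥H, ∃ l ∈ L, (p : α) ∈ l ∧ (q : α) ∈ l ∧ (x : α) ∈ l ∧ ((sy h hH p).1 x : α) ∈ l := by
    intro x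
    obtain ⟨h2, l, hl, h3⟩ := mt_spec h hH p.2 x
    refine ⟨l, hl, h3.1, ?_, h3.2.1, h3.2.2⟩
    apply line_sy h hH hl (x := x) h3.2.1
    rw [← hpq]; exact h3.2.2
  have hc : 2 < H.card := by rw [hH.1]; norm_num
  obtain ⟨x, hx⟩ : H.Nonempty := Finset.card_pos.1 (by omega)
  obtain ⟨l, hl, h1, h2, h3, h4⟩ := key ⟨x, hx⟩
  obtain ⟨y, hy, hy2⟩ : ∃ y ∈ H, y ∉ l := by
    by_contra hcon
    push Not at hcon
    have h5 : l ∩ H = H := Finset.inter_eq_right.2 hcon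
    have h6 := hH.2 l hl
    rw [h5] at h6
    omega
  obtain ⟨m, hm, h1', h2', h3', h4'⟩ := key ⟨y, hy⟩
  exact hy2 ((h.uniq hne' hl hm h1 h2 h1' h2') ▸ h3')

theorem card_syn6 : Fintype.card (Syn (Fin 6)) = 15 := by decide +kernel

theorem card_syn {X : Type*} [Fintype X] [DecidableEq X] (hX : Fintype.card X = 6) : Nat.card (Syn X) = 15 := by
  rw [← card_syn6, ← Nat.card_eq_fintype_card]
  let e : X ≃ Fin 6 := Fintype.equivFinOfCardEq hX
  refine Nat.card_congr ⟨fun τ => ⟨e.permCongr τ.1, ?_, ?_⟩, fun τ => ⟨e.permCongr.symm τ.1, ?_, ?_⟩, ?_, ?_⟩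
  · ext x
    have := congrArg (fun σ : Equiv.Perm X => σ (e.symm x)) τ.2.1
    simp only [Equiv.Perm.mul_apply, Equiv.Perm.one_apply] at this
    simp [Equiv.permCongr_apply, this]
  · intro x hx
    apply τ.2.2 (e.symm x)
    rw [Equiv.permCongr_apply] at hx
    exact (Equiv.eq_symm_apply e).2 hx
  · ext x
    have := congrArg (fun σ : Equiv.Perm (Fin 6) => σ (e x)) τ.2.1
    simp only [Equiv.Perm.mul_apply, Equiv.Perm.one_apply] at this
    simp [Equiv.permCongr_symm_apply, this]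
  · intro x hx
    apply τ.2.2 (e x)
    rw [Equiv.permCongr_symm_apply] at hx
    conv_rhs => rw [← hx]
    simp
  · intro τ
    apply Subtype.ext
    exact e.permCongr.symm_apply_apply _
  · intro τ
    apply Subtype.ext
    exact e.permCongr.apply_symm_apply _

theorem sy_bij (h : Pl L) {H : Finset α} (hH : Hyp L H) : Function.Bijective (sy h hH) := by
  classical
  apply (sy_inj h hH).bijective_of_nat_card_le
  rw [card_syn (by rw [Fintype.card_coe]; exact hH.1), Nat.card_eq_fintype_card, Fintype.card_subtype_compl, h.card, Fintype.card_coe, hH.1]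

end CfsgLib.Plane28
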