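import Mathlib
import Cfsg.Agent.EqBase
import Cfsg.Agent.LibPlane28

set_option autoImplicit false

/-! Isomorphisms of projective planes of order 4 (helper28). -/

namespace CfsgLib.Plane28

open Cfsg

section clique
variable {α : Type*} [Fintype α] [DecidableEq α] {L : Set (Finset α)}

theorem ext_two (h : Pl L) {H : Finset α} (hH : Hyp L H) {p : α} (hp : p ∉ H) :
    ((LP L p).filter fun l => (l ∩ H).card = 0).card = 2 := by
  have h1 := h.ident hp
  rw [hH.1] at h1
  have h2 := Finset.card_filter_add_card_filter_not (s := LP L p) (fun l => (l ∩ H).card = 0)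
  rw [h.card_LP] at h2
  have h3 : ∑ l ∈ LP L p, (l ∩ H).card = ((LP L p).filter fun l => ¬ (l ∩ H).card = 0).card * 2 := by
    rw [← Finset.sum_filter_add_sum_filter_not (LP L p) (fun l => (l ∩ H).card = 0)]
    rw [Finset.sum_eq_zero (fun l hl => (Finset.mem_filter.1 hl).2), zero_add]
    rw [Finset.sum_congr rfl (g := fun _ => 2)]
    · rw [Finset.sum_const, smul_eq_mul]
    · intro l hl
      rw [Finset.mem_filter] at hl
      rcases hyp_dich h hH (mem_LP.1 hl.1).1 with h4 | h4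
      · exact absurd h4 hl.2
      · exact h4
  omega

theorem bound_two (h : Pl L) {H : Finset α} (hH : Hyp L H) {p : α} (hp : p ∉ H) {A : Finset α} (hpA : p ∉ A)
    (h1 : ∀ l ∈ L, p ∈ l → (l ∩ A).card ≤ 1) (h0 : ∀ l ∈ L, p ∈ l → (l ∩ H).card ≠ 0 → (l ∩ A).card = 0) : A.card ≤ 2 := by
  rw [← h.ident hpA, ← ext_two h hH hp, Finset.card_filter]
  apply Finset.sum_le_sum
  intro l hl
  rw [mem_LP] at hl
  split_ifs with h2
  · exact h1 l hl.1 hl.2
  · exact (h0 l hl.1 hl.2 h2).le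

/-- five external points pairwise joined by external lines form a line -/
theorem clique (h : Pl L) {H : Finset α} (hH : Hyp L H) {S : Finset α} (hS : S.card = 5) (hSH : ∀ p ∈ S, p ∉ H)
    (hc : ∀ p ∈ S, ∀ q ∈ S, p ≠ q → ∀ l ∈ L, p ∈ l → q ∈ l → (l ∩ H).card = 0) : S ∈ L := by
  obtain ⟨p, hp⟩ : S.Nonempty := Finset.card_pos.1 (by omega)
  -- a line with three points
  obtain ⟨m, hm, hpm, hm3⟩ : ∃ m ∈ L, p ∈ m ∧ 3 ≤ (m ∩ S).card := by
    by_contra hcon
    push Not at hcon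
    have h1 : (S.erase p).card ≤ 2 := by
      apply bound_two h hH (hSH p hp) (Finset.notMem_erase _ _)
      · intro l hl hpl
        have h2 := hcon l hl hpl
        have h3 : l ∩ S.erase p = (l ∩ S).erase p := by
          ext y
          simp only [Finset.mem_inter, Finset.mem_erase]
          tauto
        rw [h3, Finset.card_erase_of_mem (Finset.mem_inter.2 ⟨hpl, hp⟩)]
        omega
      · intro l hl hpl hne
        rw [Finset.card_eq_zero, Finset.eq_empty_iff_forall_notMem]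
        intro q hq
        rw [Finset.mem_inter, Finset.mem_erase] at hq
        exact hne (hc p hp q hq.2.2 (Ne.symm hq.2.1) l hl hpl hq.1)
    rw [Finset.card_erase_of_mem hp, hS] at h1
    omega
  have hsub : S ⊆ m := by
    intro r hr
    by_contra hrm
    have h1 : (m ∩ S).card ≤ 2 := by
      apply bound_two h hH (hSH r hr) (fun h2 => hrm (Finset.mem_inter.1 h2).1)
      · intro l hl hrl
        have hlm : l ≠ m := fun h2 => hrm (h2 ▸ hrl)
        exact le_trans (Finset.card_le_card (Finset.inter_subset_inter_left Finset.inter_subset_left)) (h.inter_le hl hm hlm)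
      · intro l hl hrl hne
        rw [Finset.card_eq_zero, Finset.eq_empty_iff_forall_notMem]
        intro q hq
        rw [Finset.mem_inter, Finset.mem_inter] at hq
        have hqr : r ≠ q := fun h2 => hrm (h2 ▸ hq.2.1)
        exact hne (hc r hr q hq.2.2 hqr l hl hrl hq.1)
    omega
  have h2 : S = m := Finset.eq_of_subset_of_card_le hsub (by rw [h.c5 hm, hS])
  rw [h2]; exact hm

end clique

/-- transport of synthemes -/
def synCongr {X Y : Type*} (e : X ≃ Y) : Syn X ≃ Syn Y where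
  toFun τ := ⟨e.permCongr τ.1, by
    ext x
    have := congrArg (fun σ : Equiv.Perm X => σ (e.symm x)) τ.2.1
    simp only [Equiv.Perm.mul_apply, Equiv.Perm.one_apply] at this
    simp [Equiv.permCongr_apply, this], by
    intro x hx
    apply τ.2.2 (e.symm x)
    rw [Equiv.permCongr_apply] at hx
    exact (Equiv.eq_symm_apply e).2 hx⟩
  invFun τ := ⟨e.permCongr.symm τ.1, by
    ext x
    have := congrArg (fun σ : Equiv.Perm Y => σ (e x)) τ.2.1
    simp only [Equiv.Perm.mul_apply, Equiv.Perm.one_apply] at this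
    simp [Equiv.permCongr_symm_apply, this], by
    intro x hx
    apply τ.2.2 (e x)
    rw [Equiv.permCongr_symm_apply] at hx
    conv_rhs => rw [← hx]
    simp⟩
  left_inv τ := Subtype.ext (e.permCongr.symm_apply_apply _)
  right_inv τ := Subtype.ext (e.permCongr.apply_symm_apply _)

theorem synCongr_apply {X Y : Type*} (e : X ≃ Y) (τ : Syn X) (x : X) : (synCongr e τ).1 (e x) = e (τ.1 x) := by
  show e.permCongr τ.1 (e x) = _
  rw [Equiv.permCongr_apply, Equiv.symm_apply_apply]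

section iso
variable {α β : Type*} [Fintype α] [DecidableEq α] [Fintype β] [DecidableEq β] {L : Set (Finset α)} {L' : Set (Finset β)}

/-- the map on external points -/
noncomputable def g0 (h : Pl L) (h' : Pl L') {H : Finset α} {H' : Finset β} (hH : Hyp L H) (hH' : Hyp L' H') (σ : ↥H ≃ ↥H') :
    {p : α // p ∉ H} ≃ {p : β // p ∉ H'} :=
  (Equiv.ofBijective _ (sy_bij h hH)).trans ((synCongr σ).trans (Equiv.ofBijective _ (sy_bij h' hH')).symm)

theorem g0_spec (h : Pl L) (h' : Pl L') {H : Finset α} {H' : Finset β} (hH : Hyp L H) (hH' : Hyp L' H') (σ : ↥H ≃ ↥H')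
    (p : {p : α // p ∉ H}) (x : ↥H) : (sy h' hH' (g0 h h' hH hH' σ p)).1 (σ x) = σ ((sy h hH p).1 x) := by
  have h1 : sy h' hH' (g0 h h' hH hH' σ p) = synCongr σ (sy h hH p) :=
    (Equiv.ofBijective _ (sy_bij h' hH')).apply_symm_apply _
  rw [h1, synCongr_apply]

/-- the isomorphism -/
noncomputable def gg (h : Pl L) (h' : Pl L') {H : Finset α} {H' : Finset β} (hH : Hyp L H) (hH' : Hyp L' H') (σ : ↥H ≃ ↥H') : α ≃ β :=
  (Equiv.sumCompl (· ∈ H)).symm.trans ((Equiv.sumCongr σ (g0 h h' hH hH' σ)).trans (Equiv.sumCompl (· ∈ H')))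

theorem gg_mem (h : Pl L) (h' : Pl L') {H : Finset α} {H' : Finset β} (hH : Hyp L H) (hH' : Hyp L' H') (σ : ↥H ≃ ↥H')
    (x : ↥H) : gg h h' hH hH' σ x = σ x := by
  rw [gg, Equiv.trans_apply, Equiv.trans_apply, Equiv.sumCompl_symm_apply_of_pos (p := (· ∈ H)) x.2]
  rfl

theorem gg_ext (h : Pl L) (h' : Pl L') {H : Finset α} {H' : Finset β} (hH : Hyp L H) (hH' : Hyp L' H') (σ : ↥H ≃ ↥H')
    (p : {p : α // p ∉ H}) : gg h h' hH hH' σ p = g0 h h' hH hH' σ p := by
  rw [gg, Equiv.trans_apply, Equiv.trans_apply, Equiv.sumCompl_symm_apply_of_neg (p := (· ∈ H)) p.2]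
  rfl

theorem gg_line (h : Pl L) (h' : Pl L') {H : Finset α} {H' : Finset β} (hH : Hyp L H) (hH' : Hyp L' H') (σ : ↥H ≃ ↥H')
    {l : Finset α} (hl : l ∈ L) : l.image (gg h h' hH hH' σ) ∈ L' := by
  have hcard : (l.image (gg h h' hH hH' σ)).card = 5 := by
    rw [Finset.card_image_of_injective _ (gg h h' hH hH' σ).injective, h.c5 hl]
  by_cases hx : ∃ x ∈ H, x ∈ l
  · obtain ⟨x, hxH, hxl⟩ := hx
    have h1 := hyp_line h hH hl hxH hxl
    obtain ⟨a, b, hab, he⟩ := Finset.card_eq_two.1 h1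
    have ha : a ∈ l ∩ H := by rw [he]; simp
    have hb : b ∈ l ∩ H := by rw [he]; simp
    rw [Finset.mem_inter] at ha hb
    have hne : (σ ⟨a, ha.2⟩ : β) ≠ σ ⟨b, hb.2⟩ := by
      intro h2
      have h3 := σ.injective (Subtype.ext h2)
      exact hab (congrArg Subtype.val h3)
    obtain ⟨m, hm, hm1, hm2⟩ := h'.ex hne
    have hsub : l.image (gg h h' hH hH' σ) ⊆ m := by
      intro y hy
      obtain ⟨p, hp, rfl⟩ := Finset.mem_image.1 hy
      by_cases hpH : p ∈ H
      · rw [show gg h h' hH hH' σ p = σ ⟨p, hpH⟩ from gg_mem h h' hH hH' σ ⟨p, hpH⟩]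
        rcases hyp_three h hH hl ha.2 hb.2 hpH ha.1 hb.1 hp hab with h3 | h3
        · subst h3; exact hm1
        · subst h3; exact hm2
      · rw [show gg h h' hH hH' σ p = g0 h h' hH hH' σ ⟨p, hpH⟩ from gg_ext h h' hH hH' σ ⟨p, hpH⟩]
        apply line_sy h' hH' hm (x := σ ⟨a, ha.2⟩) hm1
        rw [g0_spec]
        have h3 : (sy h hH ⟨p, hpH⟩).1 ⟨a, ha.2⟩ = ⟨b, hb.2⟩ :=
          mt_eq h hH hpH (fun h4 => hab (congrArg Subtype.val h4).symm) hl ⟨hp, ha.1, hb.1⟩
        rw [h3]; exact hm2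
    have h2 : l.image (gg h h' hH hH' σ) = m := Finset.eq_of_subset_of_card_le hsub (by rw [h'.c5 hm, hcard])
    rw [h2]; exact hm
  · push Not at hx
    have hext : ∀ p ∈ l, p ∉ H := fun p hp hpH => hx p hpH hp
    apply clique h' hH' hcard
    · intro y hy
      obtain ⟨p, hp, rfl⟩ := Finset.mem_image.1 hy
      rw [show gg h h' hH hH' σ p = g0 h h' hH hH' σ ⟨p, hext p hp⟩ from gg_ext h h' hH hH' σ ⟨p, hext p hp⟩]
      exact (g0 h h' hH hH' σ ⟨p, hext p hp⟩).2
    · intro y hy y' hy' hne m hm hym hym'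
      obtain ⟨p, hp, rfl⟩ := Finset.mem_image.1 hy
      obtain ⟨q, hq, rfl⟩ := Finset.mem_image.1 hy'
      have hpq : p ≠ q := fun h1 => hne (by rw [h1])
      rw [show gg h h' hH hH' σ p = g0 h h' hH hH' σ ⟨p, hext p hp⟩ from gg_ext h h' hH hH' σ ⟨p, hext p hp⟩] at hym
      rw [show gg h h' hH hH' σ q = g0 h h' hH hH' σ ⟨q, hext q hq⟩ from gg_ext h h' hH hH' σ ⟨q, hext q hq⟩] at hym'
      rw [Finset.card_eq_zero, Finset.eq_empty_iff_forall_notMem]
      intro z hz
      rw [Finset.mem_inter] at hz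
      obtain ⟨x, hx'⟩ := σ.surjective ⟨z, hz.2⟩
      have hxm : (σ x : β) ∈ m := by rw [hx']; exact hz.1
      have h1 := sy_line h' hH' (p := g0 h h' hH hH' σ ⟨p, hext p hp⟩) (x := σ x) hm hxm hym
      have h2 := sy_line h' hH' (p := g0 h h' hH hH' σ ⟨q, hext q hq⟩) (x := σ x) hm hxm hym'
      rw [g0_spec] at h1 h2
      have h3 : σ ((sy h hH ⟨p, hext p hp⟩).1 x) ≠ σ x := fun h4 => (sy h hH ⟨p, hext p hp⟩).2.2 x (σ.injective h4)
      have h4 : σ ((sy h hH ⟨q, hext q hq⟩).1 x) ≠ σ x := fun h4 => (sy h hH ⟨q, hext q hq⟩).2.2 x (σ.injective h4)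
      rcases hyp_three h' hH' hm (σ x).2 (σ ((sy h hH ⟨p, hext p hp⟩).1 x)).2 (σ ((sy h hH ⟨q, hext q hq⟩).1 x)).2 hxm h1 h2
        (fun h5 => h3 (Subtype.ext h5.symm)) with h5 | h5
      · exact h4 (Subtype.ext h5)
      · have h6 : (sy h hH ⟨q, hext q hq⟩).1 x = (sy h hH ⟨p, hext p hp⟩).1 x := σ.injective (Subtype.ext h5)
        obtain ⟨h7, l', hl', h8⟩ := mt_spec h hH (hext p hp) x
        have h9 : q ∈ l' := line_sy h hH (p := ⟨q, hext q hq⟩) hl' h8.2.1 (by rw [h6]; exact h8.2.2)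
        have h10 := h.uniq hpq hl hl' hp hq h8.1 h9
        rw [← h10] at h8
        exact hx x x.2 h8.2.1

theorem gg_iso (h : Pl L) (h' : Pl L') {H : Finset α} {H' : Finset β} (hH : Hyp L H) (hH' : Hyp L' H') (σ : ↥H ≃ ↥H') :
    (fun l => l.image (gg h h' hH hH' σ)) '' L = L' := by
  apply Set.Subset.antisymm
  · rintro _ ⟨l, hl, rfl⟩
    exact gg_line h h' hH hH' σ hl
  · intro m hm
    obtain ⟨a, ha, b, hb, hab⟩ := Finset.one_lt_card.1 (show 1 < m.card by rw [h'.c5 hm]; norm_num)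
    have hne : (gg h h' hH hH' σ).symm a ≠ (gg h h' hH hH' σ).symm b := fun h1 => hab ((gg h h' hH hH' σ).symm.injective h1)
    obtain ⟨l, hl, h1, h2⟩ := h.ex hne
    refine ⟨l, hl, ?_⟩
    apply h'.uniq hab (gg_line h h' hH hH' σ hl) hm _ _ ha hb
    · exact Finset.mem_image.2 ⟨_, h1, Equiv.apply_symm_apply _ _⟩
    · exact Finset.mem_image.2 ⟨_, h2, Equiv.apply_symm_apply _ _⟩

end iso

end CfsgLib.Plane28
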