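import Mathlib
import Cfsg.Agent.EqBase
import Cfsg.Agent.LibPlaneB28

set_option autoImplicit false

/-! Independent sets in projective planes of order 4 (helper28). -/

namespace CfsgLib.Plane28

open Cfsg

variable {α : Type*} [Fintype α] [DecidableEq α] {L : Set (Finset α)}

/-- independent sets -/
def Ind (L : Set (Finset α)) (S : Finset α) : Prop := ∀ l ∈ L, (l ∩ S).card ≤ 2

theorem Ind.mono {S T : Finset α} (hT : Ind L T) (h : S ⊆ T) : Ind L S :=
  fun l hl => le_trans (Finset.card_le_card (Finset.inter_subset_inter_left h)) (hT l hl)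

open Classical in
/-- independent sets of given size -/
noncomputable def II (L : Set (Finset α)) (k : ℕ) : Finset (Finset α) := Finset.univ.filter fun S => S.card = k ∧ Ind L S

theorem mem_II {k : ℕ} {S : Finset α} : S ∈ II L k ↔ S.card = k ∧ Ind L S := by
  classical
  rw [II, Finset.mem_filter]
  exact ⟨fun h => h.2, fun h => ⟨Finset.mem_univ _, h⟩⟩

open Classical in
/-- points extending an independent set -/
noncomputable def good (L : Set (Finset α)) (S : Finset α) : Finset α := Finset.univ.filter fun x => x ∉ S ∧ Ind L (insert x S)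

theorem mem_good {S : Finset α} {x : α} : x ∈ good L S ↔ x ∉ S ∧ Ind L (insert x S) := by
  classical
  rw [good, Finset.mem_filter]
  exact ⟨fun h => h.2, fun h => ⟨Finset.mem_univ _, h⟩⟩

/-- double counting -/
theorem dcount (k e : ℕ) (he : ∀ S ∈ II L k, (good L S).card = e) : (II L k).card * e = (II L (k + 1)).card * (k + 1) := by
  classical
  apply Finset.card_mul_eq_card_mul (fun S T : Finset α => S ⊆ T)
  · intro S hS
    rw [← he S hS]
    symm
    apply Finset.card_bij (fun x _ => insert x S)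
    · intro x hx
      rw [mem_good] at hx
      rw [Finset.mem_bipartiteAbove, mem_II]
      exact ⟨⟨by rw [Finset.card_insert_of_notMem hx.1, (mem_II.1 hS).1], hx.2⟩, Finset.subset_insert _ _⟩
    · intro x hx y hy hxy
      rw [mem_good] at hx hy
      have h1 : x ∈ insert y S := by rw [← hxy]; exact Finset.mem_insert_self _ _
      rcases Finset.mem_insert.1 h1 with h2 | h2
      · exact h2
      · exact absurd h2 hx.1
    · intro T hT
      rw [Finset.mem_bipartiteAbove, mem_II] at hT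
      have h1 : (T \ S).card = 1 := by
        rw [Finset.card_sdiff_of_subset hT.2, hT.1.1, (mem_II.1 hS).1]; omega
      obtain ⟨x, hx⟩ := Finset.card_eq_one.1 h1
      have hx' : x ∈ T \ S := by rw [hx]; exact Finset.mem_singleton_self _
      rw [Finset.mem_sdiff] at hx'
      have h2 : insert x S = T := by
        rw [Finset.insert_eq, ← hx]
        exact Finset.sdiff_union_of_subset hT.2
      exact ⟨x, mem_good.2 ⟨hx'.2, by rw [h2]; exact hT.1.2⟩, h2⟩
  · intro T hT
    rw [mem_II] at hT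
    have h1 : (II L k).bipartiteBelow (fun S T : Finset α => S ⊆ T) T = T.powersetCard k := by
      ext S
      rw [Finset.mem_bipartiteBelow, mem_II, Finset.mem_powersetCard]
      exact ⟨fun h => ⟨h.2, h.1.1⟩, fun h => ⟨⟨h.2, hT.2.mono h.1⟩, h.1⟩⟩
    rw [h1, Finset.card_powersetCard, hT.1, Nat.choose_succ_self_right]

theorem three_on (h : Pl L) {S : Finset α} (hS : Ind L S) {l : Finset α} (hl : l ∈ L) {a b c : α} (ha : a ∈ S) (hb : b ∈ S) (hc : c ∈ S)
    (hal : a ∈ l) (hbl : b ∈ l) (hcl : c ∈ l) (hab : a ≠ b) : c = a ∨ c = b := by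
  by_contra hcon
  push Not at hcon
  have h1 : ({a, b, c} : Finset α) ⊆ l ∩ S := by
    intro x hx
    simp only [Finset.mem_insert, Finset.mem_singleton] at hx
    rw [Finset.mem_inter]
    rcases hx with rfl | rfl | rfl
    · exact ⟨hal, ha⟩
    · exact ⟨hbl, hb⟩
    · exact ⟨hcl, hc⟩
  have h2 := Finset.card_le_card h1
  rw [Finset.card_eq_three.2 ⟨a, b, c, hab, hcon.1.symm, hcon.2.symm, rfl⟩] at h2
  have h3 := hS l hl
  omega

/-- the good points are those on no secant -/
theorem good_iff (h : Pl L) {S : Finset α} (hS : Ind L S) {x : α} :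
    x ∈ good L S ↔ x ∉ S ∧ ∀ l ∈ L, (l ∩ S).card = 2 → x ∉ l := by
  rw [mem_good]
  constructor
  · rintro ⟨hx, h1⟩
    refine ⟨hx, fun l hl h2 hxl => ?_⟩
    have h3 := h1 l hl
    rw [Finset.inter_insert_of_mem hxl, Finset.card_insert_of_notMem (fun h4 => hx (Finset.mem_inter.1 h4).2), h2] at h3
    omega
  · rintro ⟨hx, h1⟩
    refine ⟨hx, fun l hl => ?_⟩
    by_cases hxl : x ∈ l
    · rw [Finset.inter_insert_of_mem hxl, Finset.card_insert_of_notMem (fun h4 => hx (Finset.mem_inter.1 h4).2)]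
      have h2 := hS l hl
      have h3 : (l ∩ S).card ≠ 2 := fun h4 => h1 l hl h4 hxl
      omega
    · rw [Finset.inter_insert_of_notMem hxl]
      exact hS l hl

theorem pair_sec (h : Pl L) {S : Finset α} (hS : Ind L S) {a b : α} (ha : a ∈ S) (hb : b ∈ S) (hab : a ≠ b) {l : Finset α} (hl : l ∈ L)
    (hal : a ∈ l) (hbl : b ∈ l) : (l ∩ S).card = 2 := by
  apply le_antisymm (hS l hl)
  rw [← Finset.card_pair hab]
  apply Finset.card_le_card
  intro x hx
  rw [Finset.mem_insert, Finset.mem_singleton] at hx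
  rcases hx with rfl | rfl
  · exact Finset.mem_inter.2 ⟨hal, ha⟩
  · exact Finset.mem_inter.2 ⟨hbl, hb⟩

theorem good0 (h : Pl L) : (good L (∅ : Finset α)).card = 21 := by
  have h1 : good L (∅ : Finset α) = Finset.univ := by
    rw [Finset.eq_univ_iff_forall]
    intro x
    rw [mem_good]
    refine ⟨Finset.notMem_empty _, fun l _ => ?_⟩
    have := Finset.card_le_card (Finset.inter_subset_right (s₁ := l) (s₂ := insert x ∅))
    rw [Finset.card_insert_of_notMem (Finset.notMem_empty _), Finset.card_empty] at this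
    omega
  rw [h1, Finset.card_univ, h.card]

theorem good1 (h : Pl L) {S : Finset α} (hS : S ∈ II L 1) : (good L S).card = 20 := by
  rw [mem_II] at hS
  have h1 : good L S = Sᶜ := by
    ext x
    rw [mem_good, Finset.mem_compl]
    refine ⟨fun h => h.1, fun h => ⟨h, fun l _ => ?_⟩⟩
    have := Finset.card_le_card (Finset.inter_subset_right (s₁ := l) (s₂ := insert x S))
    rw [Finset.card_insert_of_notMem h, hS.1] at this
    exact this
  rw [h1, Finset.card_compl, h.card, hS.1]

theorem good2 (h : Pl L) {S : Finset α} (hS : S ∈ II L 2) : (good L S).card = 16 := by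
  rw [mem_II] at hS
  obtain ⟨a, b, hab, rfl⟩ := Finset.card_eq_two.1 hS.1
  obtain ⟨l, hl, ha, hb⟩ := h.ex hab
  have h1 : good L ({a, b} : Finset α) = lᶜ := by
    ext x
    rw [good_iff h hS.2, Finset.mem_compl]
    constructor
    · rintro ⟨-, h2⟩
      exact h2 l hl (pair_sec h hS.2 (by simp) (by simp) hab hl ha hb)
    · intro hx
      refine ⟨fun h2 => ?_, fun m hm h2 hxm => ?_⟩
      · rw [Finset.mem_insert, Finset.mem_singleton] at h2
        rcases h2 with rfl | rfl
        · exact hx ha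
        · exact hx hb
      · have h3 : m ∩ {a, b} = {a, b} := Finset.eq_of_subset_of_card_le Finset.inter_subset_right (by rw [h2, hS.1])
        have h4 : a ∈ m ∩ {a, b} := by rw [h3]; simp
        have h5 : b ∈ m ∩ {a, b} := by rw [h3]; simp
        have h6 := h.uniq hab hl hm ha hb (Finset.mem_inter.1 h4).1 (Finset.mem_inter.1 h5).1
        exact hx (h6 ▸ hxm)
  rw [h1, Finset.card_compl, h.card, h.c5 hl]

/-- a two-element intersection inside a set -/
theorem sec_pair {S : Finset α} {m : Finset α} (h2 : (m ∩ S).card = 2) : ∃ a b, a ≠ b ∧ a ∈ m ∧ b ∈ m ∧ a ∈ S ∧ b ∈ S := by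
  obtain ⟨a, b, hab, he⟩ := Finset.card_eq_two.1 h2
  have ha : a ∈ m ∩ S := by rw [he]; simp
  have hb : b ∈ m ∩ S := by rw [he]; simp
  rw [Finset.mem_inter] at ha hb
  exact ⟨a, b, hab, ha.1, hb.1, ha.2, hb.2⟩

theorem inter_single (h : Pl L) {l m : Finset α} (hl : l ∈ L) (hm : m ∈ L) (hlm : l ≠ m) {a : α} (ha : a ∈ l) (ha' : a ∈ m) :
    l ∩ m = {a} := by
  obtain ⟨x, hx⟩ := Finset.card_eq_one.1 (h.meet hl hm hlm)
  have h1 : a ∈ l ∩ m := Finset.mem_inter.2 ⟨ha, ha'⟩
  rw [hx, Finset.mem_singleton] at h1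
  rw [hx, h1]

theorem good3 (h : Pl L) {S : Finset α} (hS : S ∈ II L 3) : (good L S).card = 9 := by
  rw [mem_II] at hS
  obtain ⟨a, b, c, hab, hac, hbc, rfl⟩ := Finset.card_eq_three.1 hS.1
  obtain ⟨k, hk, hka, hkb⟩ := h.ex hab
  obtain ⟨l, hl, hla, hlc⟩ := h.ex hac
  obtain ⟨m, hm, hmb, hmc⟩ := h.ex hbc
  have hkc : c ∉ k := by
    intro h1
    rcases three_on h hS.2 hk (a := a) (b := b) (c := c) (by simp) (by simp) (by simp) hka hkb h1 hab with h2 | h2
    · exact hac h2.symm
    · exact hbc h2.symm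
  have hlb : b ∉ l := fun h1 => hkc ((h.uniq hab hl hk hla h1 hka hkb) ▸ hlc)
  have hma : a ∉ m := fun h1 => hkc ((h.uniq hab hm hk h1 hmb hka hkb) ▸ hmc)
  have hkl : k ≠ l := fun h1 => hkc (h1 ▸ hlc)
  have hkm : k ≠ m := fun h1 => hkc (h1 ▸ hmc)
  have hlm : l ≠ m := fun h1 => hlb (h1 ▸ hmb)
  have h1 : good L ({a, b, c} : Finset α) = (k ∪ l ∪ m)ᶜ := by
    ext x
    rw [good_iff h hS.2, Finset.mem_compl, Finset.mem_union, Finset.mem_union]
    constructor
    · rintro ⟨-, h2⟩
      rintro ((h3 | h3) | h3)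
      · exact h2 k hk (pair_sec h hS.2 (by simp) (by simp) hab hk hka hkb) h3
      · exact h2 l hl (pair_sec h hS.2 (by simp) (by simp) hac hl hla hlc) h3
      · exact h2 m hm (pair_sec h hS.2 (by simp) (by simp) hbc hm hmb hmc) h3
    · intro hx
      push Not at hx
      refine ⟨fun h2 => ?_, fun n hn h2 hxn => ?_⟩
      · simp only [Finset.mem_insert, Finset.mem_singleton] at h2
        rcases h2 with rfl | rfl | rfl
        · exact hx.1.1 hka
        · exact hx.1.1 hkb
        · exact hx.1.2 hlc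
      · obtain ⟨p, q, hpq, hp, hq, hp', hq'⟩ := sec_pair h2
        simp only [Finset.mem_insert, Finset.mem_singleton] at hp' hq'
        rcases hp' with rfl | rfl | rfl <;> rcases hq' with rfl | rfl | rfl
        · exact hpq rfl
        · exact hx.1.1 (h.uniq hpq hk hn hka hkb hp hq ▸ hxn)
        · exact hx.1.2 (h.uniq hpq hl hn hla hlc hp hq ▸ hxn)
        · exact hx.1.1 (h.uniq hpq hk hn hkb hka hp hq ▸ hxn)
        · exact hpq rfl
        · exact hx.2 (h.uniq hpq hm hn hmb hmc hp hq ▸ hxn)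
        · exact hx.1.2 (h.uniq hpq hl hn hlc hla hp hq ▸ hxn)
        · exact hx.2 (h.uniq hpq hm hn hmc hmb hp hq ▸ hxn)
        · exact hpq rfl
  have h2 : (k ∪ l).card = 9 := by
    have := Finset.card_union_add_card_inter k l
    rw [h.c5 hk, h.c5 hl, h.meet hk hl hkl] at this
    omega
  have h3 : ((k ∪ l) ∩ m).card = 2 := by
    rw [Finset.union_inter_distrib_right, inter_single h hk hm hkm hkb hmb, inter_single h hl hm hlm hlc hmc]
    exact Finset.card_pair hbc
  have h4 : (k ∪ l ∪ m).card = 12 := by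
    have := Finset.card_union_add_card_inter (k ∪ l) m
    rw [h2, h.c5 hm, h3] at this
    omega
  rw [h1, Finset.card_compl, h.card, h4]

/-- tangent lines of a quadrangle contain exactly one good point -/
theorem tangent (h : Pl L) {a b c d : α} (hS : Ind L ({a, b, c, d} : Finset α)) (hab : a ≠ b) (hac : a ≠ c) (had : a ≠ d) (hbc : b ≠ c)
    (hbd : b ≠ d) (hcd : c ≠ d) {t : Finset α} (ht : t ∈ L) (hta : a ∈ t) (htb : b ∉ t) (htc : c ∉ t) (htd : d ∉ t) :
    (t ∩ good L ({a, b, c, d} : Finset α)).card = 1 := by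
  obtain ⟨k, hk, hkb, hkc⟩ := h.ex hbc
  obtain ⟨l, hl, hlc, hld⟩ := h.ex hcd
  obtain ⟨m, hm, hmb, hmd⟩ := h.ex hbd
  have no : ∀ {n : Finset α} (_ : n ∈ L) {x y z : α} (_ : x ∈ ({a, b, c, d} : Finset α)) (_ : y ∈ ({a, b, c, d} : Finset α))
      (_ : z ∈ ({a, b, c, d} : Finset α)) (_ : x ≠ y) (_ : z ≠ x) (_ : z ≠ y) (_ : x ∈ n) (_ : y ∈ n), z ∉ n := by
    intro n hn x y z hx hy hz hxy hzx hzy hxn hyn hzn
    rcases three_on h hS hn hx hy hz hxn hyn hzn hxy with h2 | h2
    · exact hzx h2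
    · exact hzy h2
  have hka : a ∉ k := no hk (x := b) (y := c) (by simp) (by simp) (by simp) hbc hab hac hkb hkc
  have hkd : d ∉ k := no hk (x := b) (y := c) (by simp) (by simp) (by simp) hbc hbd.symm hcd.symm hkb hkc
  have hla : a ∉ l := no hl (x := c) (y := d) (by simp) (by simp) (by simp) hcd hac had hlc hld
  have hlb : b ∉ l := no hl (x := c) (y := d) (by simp) (by simp) (by simp) hcd hbc hbd hlc hld
  have hma : a ∉ m := no hm (x := b) (y := d) (by simp) (by simp) (by simp) hbd hab had hmb hmd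
  have hmc : c ∉ m := no hm (x := b) (y := d) (by simp) (by simp) (by simp) hbd hbc.symm hcd hmb hmd
  have htk : t ≠ k := fun h1 => htb (h1 ▸ hkb)
  have htl : t ≠ l := fun h1 => htc (h1 ▸ hlc)
  have htm : t ≠ m := fun h1 => htb (h1 ▸ hmb)
  have hkl : k ≠ l := fun h1 => hkd (h1 ▸ hld)
  have hkm : k ≠ m := fun h1 => hkd (h1 ▸ hmd)
  have hlm : l ≠ m := fun h1 => hlb (h1 ▸ hmb)
  have h1 : t ∩ good L ({a, b, c, d} : Finset α) = (((t.erase a) \ k) \ l) \ m := by
    ext x
    rw [Finset.mem_inter, good_iff h hS, Finset.mem_sdiff, Finset.mem_sdiff, Finset.mem_sdiff, Finset.mem_erase]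
    constructor
    · rintro ⟨hxt, hx, h2⟩
      refine ⟨⟨⟨⟨fun h3 => hx (by rw [h3]; simp), hxt⟩, ?_⟩, ?_⟩, ?_⟩
      · exact h2 k hk (pair_sec h hS (by simp) (by simp) hbc hk hkb hkc)
      · exact h2 l hl (pair_sec h hS (by simp) (by simp) hcd hl hlc hld)
      · exact h2 m hm (pair_sec h hS (by simp) (by simp) hbd hm hmb hmd)
    · rintro ⟨⟨⟨⟨hxa, hxt⟩, hxk⟩, hxl⟩, hxm⟩
      refine ⟨hxt, fun h2 => ?_, fun n hn h2 hxn => ?_⟩
      · simp only [Finset.mem_insert, Finset.mem_singleton] at h2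
        rcases h2 with rfl | rfl | rfl | rfl
        · exact hxa rfl
        · exact htb hxt
        · exact htc hxt
        · exact htd hxt
      · obtain ⟨p, q, hpq, hp, hq, hp', hq'⟩ := sec_pair h2
        have hta' : ∀ {y : α}, y ≠ a → y ∉ t → a ∈ n → y ∈ n → False := by
          intro y hya hyt han hyn
          have h3 := h.uniq (Ne.symm hxa) ht hn hta hxt han hxn
          exact hyt (h3 ▸ hyn)
        simp only [Finset.mem_insert, Finset.mem_singleton] at hp' hq'
        rcases hp' with rfl | rfl | rfl | rfl <;> rcases hq' with rfl | rfl | rfl | rfl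
        · exact hpq rfl
        · exact hta' hab.symm htb hp hq
        · exact hta' hac.symm htc hp hq
        · exact hta' had.symm htd hp hq
        · exact hta' hab.symm htb hq hp
        · exact hpq rfl
        · exact hxk (h.uniq hpq hk hn hkb hkc hp hq ▸ hxn)
        · exact hxm (h.uniq hpq hm hn hmb hmd hp hq ▸ hxn)
        · exact hta' hac.symm htc hq hp
        · exact hxk (h.uniq hpq hk hn hkc hkb hp hq ▸ hxn)
        · exact hpq rfl
        · exact hxl (h.uniq hpq hl hn hlc hld hp hq ▸ hxn)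
        · exact hta' had.symm htd hq hp
        · exact hxm (h.uniq hpq hm hn hmd hmb hp hq ▸ hxn)
        · exact hxl (h.uniq hpq hl hn hld hlc hp hq ▸ hxn)
        · exact hpq rfl
  have e1 : (t.erase a).card = 4 := by rw [Finset.card_erase_of_mem hta, h.c5 ht]
  have i1 : (k ∩ t.erase a) = k ∩ t := by
    ext x
    simp only [Finset.mem_inter, Finset.mem_erase]
    constructor
    · rintro ⟨h2, -, h3⟩; exact ⟨h2, h3⟩
    · rintro ⟨h2, h3⟩; exact ⟨h2, fun h4 => hka (h4 ▸ h2), h3⟩
  have e2 : ((t.erase a) \ k).card = 3 := by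
    rw [Finset.card_sdiff, i1, h.meet hk ht htk.symm, e1]
  have i2 : (l ∩ ((t.erase a) \ k)) = l ∩ t := by
    ext x
    simp only [Finset.mem_inter, Finset.mem_sdiff, Finset.mem_erase]
    constructor
    · rintro ⟨h2, ⟨-, h3⟩, -⟩; exact ⟨h2, h3⟩
    · rintro ⟨h2, h3⟩
      refine ⟨h2, ⟨fun h4 => hla (h4 ▸ h2), h3⟩, fun h4 => ?_⟩
      have h5 := inter_single h hk hl hkl hkc hlc
      have h6 : x ∈ k ∩ l := Finset.mem_inter.2 ⟨h4, h2⟩
      rw [h5, Finset.mem_singleton] at h6
      exact htc (h6 ▸ h3)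
  have e3 : (((t.erase a) \ k) \ l).card = 2 := by
    rw [Finset.card_sdiff, i2, h.meet hl ht htl.symm, e2]
  have i3 : (m ∩ (((t.erase a) \ k) \ l)) = m ∩ t := by
    ext x
    simp only [Finset.mem_inter, Finset.mem_sdiff, Finset.mem_erase]
    constructor
    · rintro ⟨h2, ⟨⟨-, h3⟩, -⟩, -⟩; exact ⟨h2, h3⟩
    · rintro ⟨h2, h3⟩
      refine ⟨h2, ⟨⟨fun h4 => hma (h4 ▸ h2), h3⟩, fun h4 => ?_⟩, fun h4 => ?_⟩
      · have h5 := inter_single h hk hm hkm hkb hmb
        have h6 : x ∈ k ∩ m := Finset.mem_inter.2 ⟨h4, h2⟩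
        rw [h5, Finset.mem_singleton] at h6
        exact htb (h6 ▸ h3)
      · have h5 := inter_single h hl hm hlm hld hmd
        have h6 : x ∈ l ∩ m := Finset.mem_inter.2 ⟨h4, h2⟩
        rw [h5, Finset.mem_singleton] at h6
        exact htd (h6 ▸ h3)
  rw [h1, Finset.card_sdiff, i3, h.meet hm ht htm.symm, e3]

end CfsgLib.Plane28
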