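import Mathlib
import Cfsg.Agent.EqBase
import Cfsg.Agent.LibPlaneC28

set_option autoImplicit false

/-! Hyperovals in projective planes of order 4 (helper28). -/

namespace CfsgLib.Plane28

open Cfsg

variable {α : Type*} [Fintype α] [DecidableEq α] {L : Set (Finset α)}

theorem tangent' (h : Pl L) {S : Finset α} (hS : S ∈ II L 4) {a : α} (ha : a ∈ S) {t : Finset α} (ht : t ∈ L) (hta : a ∈ t)
    (h1 : (t ∩ S).card = 1) : (t ∩ good L S).card = 1 := by
  rw [mem_II] at hS
  have h2 : (S.erase a).card = 3 := by rw [Finset.card_erase_of_mem ha, hS.1]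
  obtain ⟨b, c, d, hbc, hbd, hcd, he⟩ := Finset.card_eq_three.1 h2
  have hS' : S = {a, b, c, d} := by
    rw [← Finset.insert_erase ha, he]
  have hb : b ∈ S.erase a := by rw [he]; simp
  have hc : c ∈ S.erase a := by rw [he]; simp
  have hd : d ∈ S.erase a := by rw [he]; simp
  rw [Finset.mem_erase] at hb hc hd
  have hx : ∀ x ∈ S, x ≠ a → x ∉ t := by
    intro x hxS hxa hxt
    have h3 : ({a, x} : Finset α) ⊆ t ∩ S := by
      intro y hy
      rw [Finset.mem_insert, Finset.mem_singleton] at hy
      rcases hy with rfl | rfl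
      · exact Finset.mem_inter.2 ⟨hta, ha⟩
      · exact Finset.mem_inter.2 ⟨hxt, hxS⟩
    have h4 := Finset.card_le_card h3
    rw [Finset.card_pair (Ne.symm hxa), h1] at h4
    omega
  have hind := hS.2
  rw [hS'] at hind ⊢
  exact tangent h hind hb.1.symm hc.1.symm hd.1.symm hbc hbd hcd ht hta (hx b hb.2 hb.1) (hx c hc.2 hc.1) (hx d hd.2 hd.1)

theorem good_sec (h : Pl L) {S : Finset α} (hS : Ind L S) {l : Finset α} (hl : l ∈ L) (h2 : (l ∩ S).card = 2) :
    (l ∩ good L S).card = 0 := by
  rw [Finset.card_eq_zero, Finset.eq_empty_iff_forall_notMem]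
  intro x hx
  rw [Finset.mem_inter, good_iff h hS] at hx
  exact hx.2.2 l hl h2 hx.1

theorem good4 (h : Pl L) {S : Finset α} (hS : S ∈ II L 4) : (good L S).card = 2 := by
  have hS' := mem_II.1 hS
  obtain ⟨a, ha⟩ : S.Nonempty := Finset.card_pos.1 (by rw [hS'.1]; norm_num)
  have e : ∀ m : Finset α, a ∈ m → (m ∩ S).card = (m ∩ S.erase a).card + 1 := by
    intro m ham
    have h1 : m ∩ S.erase a = (m ∩ S).erase a := by
      ext y
      simp only [Finset.mem_inter, Finset.mem_erase]
      tauto
    rw [h1, Finset.card_erase_add_one (Finset.mem_inter.2 ⟨ham, ha⟩)]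
  have h1 := h.ident (p := a) (A := S.erase a) (Finset.notMem_erase _ _)
  rw [Finset.card_erase_of_mem ha, hS'.1] at h1
  have h2 := h.ident (p := a) (A := good L S) (fun h3 => (mem_good.1 h3).1 ha)
  have h3 : ∀ l ∈ LP L a, (l ∩ S.erase a).card + (l ∩ good L S).card = 1 := by
    intro l hl
    rw [mem_LP] at hl
    have h4 := hS'.2 l hl.1
    have h5 := e l hl.2
    rcases Nat.eq_zero_or_pos (l ∩ S.erase a).card with h6 | h6
    · rw [h6] at h5
      rw [h6, tangent' h hS ha hl.1 hl.2 h5]
    · have h7 : (l ∩ S.erase a).card = 1 := by omega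
      rw [h7] at h5
      rw [h7, good_sec h hS'.2 hl.1 h5]
  have h4 := Finset.sum_congr rfl h3
  rw [Finset.sum_add_distrib, h1, h2, Finset.sum_const, smul_eq_mul, h.card_LP] at h4
  omega

theorem quad_hyp (h : Pl L) {S : Finset α} (hS : S ∈ II L 4) : Hyp L (S ∪ good L S) := by
  have hS' := mem_II.1 hS
  have hdis : Disjoint S (good L S) := by
    rw [Finset.disjoint_left]
    intro x hx hx'
    exact (mem_good.1 hx').1 hx
  refine ⟨by rw [Finset.card_union_of_disjoint hdis, hS'.1, good4 h hS], fun l hl => ?_⟩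
  rw [Finset.inter_union_distrib_left]
  have h1 := Finset.card_union_le (l ∩ S) (l ∩ good L S)
  have h2 := hS'.2 l hl
  rcases Nat.lt_trichotomy (l ∩ S).card 1 with h3 | h3 | h3
  · have h4 := Finset.card_le_card (Finset.inter_subset_right (s₁ := l) (s₂ := good L S))
    rw [good4 h hS] at h4
    omega
  · obtain ⟨a, ha⟩ : (l ∩ S).Nonempty := Finset.card_pos.1 (by rw [h3]; norm_num)
    rw [Finset.mem_inter] at ha
    rw [tangent' h hS ha.2 hl ha.1 h3] at h1
    omega
  · rw [good_sec h hS'.2 hl (by omega)] at h1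
    omega

theorem hyp_uniq (h : Pl L) {S H : Finset α} (hS : S ∈ II L 4) (hH : Hyp L H) (hSH : S ⊆ H) : H = S ∪ good L S := by
  have h1 : H ⊆ S ∪ good L S := by
    intro x hx
    by_cases hxS : x ∈ S
    · exact Finset.mem_union_left _ hxS
    · apply Finset.mem_union_right
      rw [mem_good]
      refine ⟨hxS, Ind.mono (T := H) hH.2 ?_⟩
      intro y hy
      rcases Finset.mem_insert.1 hy with rfl | hy
      · exact hx
      · exact hSH hy
  exact Finset.eq_of_subset_of_card_le h1 (by rw [(quad_hyp h hS).1, hH.1])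

theorem card_II1 (h : Pl L) : (II L 1).card = 21 := by
  have h1 : (II L 0).card * 21 = (II L 1).card * 1 := dcount (L := L) 0 21 (by
    intro S hS
    have : S = ∅ := Finset.card_eq_zero.1 (mem_II.1 hS).1
    rw [this]; exact good0 h)
  have h2 : (II L 0).card = 1 := by
    rw [Finset.card_eq_one]
    refine ⟨∅, ?_⟩
    ext S
    rw [mem_II, Finset.mem_singleton, Finset.card_eq_zero]
    refine ⟨fun h => h.1, fun h => ⟨h, fun l _ => ?_⟩⟩
    rw [h, Finset.inter_empty]; simp
  rw [h2] at h1
  omega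

theorem card_II4 (h : Pl L) : (II L 4).card = 2520 := by
  have h1 : (II L 1).card * 20 = (II L 2).card * 2 := dcount (L := L) 1 20 (fun S hS => good1 h hS)
  have h2 : (II L 2).card * 16 = (II L 3).card * 3 := dcount (L := L) 2 16 (fun S hS => good2 h hS)
  have h3 : (II L 3).card * 9 = (II L 4).card * 4 := dcount (L := L) 3 9 (fun S hS => good3 h hS)
  rw [card_II1 h] at h1
  omega

theorem card_II6 (h : Pl L) : (II L 6).card = 168 := by
  classical
  have h1 : (II L 4).card * 1 = (II L 6).card * 15 := by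
    apply Finset.card_mul_eq_card_mul (fun S T : Finset α => S ⊆ T)
    · intro S hS
      rw [Finset.card_eq_one]
      refine ⟨S ∪ good L S, ?_⟩
      ext H
      rw [Finset.mem_bipartiteAbove, mem_II, Finset.mem_singleton]
      constructor
      · rintro ⟨h2, h3⟩
        exact hyp_uniq h hS h2 h3
      · rintro rfl
        exact ⟨quad_hyp h hS, Finset.subset_union_left⟩
    · intro T hT
      rw [mem_II] at hT
      have h1 : (II L 4).bipartiteBelow (fun S T : Finset α => S ⊆ T) T = T.powersetCard 4 := by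
        ext S
        rw [Finset.mem_bipartiteBelow, mem_II, Finset.mem_powersetCard]
        exact ⟨fun h => ⟨h.2, h.1.1⟩, fun h => ⟨⟨h.2, hT.2.mono h.1⟩, h.1⟩⟩
      rw [h1, Finset.card_powersetCard, hT.1]
      decide
  rw [card_II4 h] at h1
  omega

theorem exists_hyp (h : Pl L) : ∃ H, Hyp L H := by
  obtain ⟨H, hH⟩ := Finset.card_pos.1 (show 0 < (II L 6).card by rw [card_II6 h]; norm_num)
  exact ⟨H, mem_II.1 hH⟩

end CfsgLib.Plane28
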