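import Cfsg.Agent.LibPowAut29
import Cfsg.Agent.LibH14Prim

/-! Non-abelian minimal normal subgroups in coordinates (seat helper29). -/

set_option autoImplicit false

namespace CfsgLib.PowAut29

open CfsgLib.SolvMin

variable {G : Type*} [Group G] [Finite G]

/-- maximality of the stabilizer: invariant subgroups -/
theorem inv_dichotomy {G : Type*} [Group G] (H N X : Subgroup G) (hH : IsCoatom H) (hXN : X ≤ N) (hHX : N ⊓ H ≤ X)
    (hinv : ∀ h ∈ H, ∀ x ∈ X, h * x * h⁻¹ ∈ X) : X = N ⊓ H ∨ X = N := by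
  let Y : Subgroup G :=
    { carrier := {g | ∃ x ∈ X, ∃ h ∈ H, g = x * h}
      mul_mem' := by
        rintro _ _ ⟨x, hx, h, hh, rfl⟩ ⟨x', hx', h', hh', rfl⟩
        exact ⟨x * (h * x' * h⁻¹), X.mul_mem hx (hinv h hh x' hx'), h * h', H.mul_mem hh hh', by group⟩
      one_mem' := ⟨1, X.one_mem, 1, H.one_mem, by simp⟩
      inv_mem' := by
        rintro _ ⟨x, hx, h, hh, rfl⟩
        refine ⟨h⁻¹ * x⁻¹ * h, ?_, h⁻¹, H.inv_mem hh, by group⟩
        have := hinv h⁻¹ (H.inv_mem hh) x⁻¹ (X.inv_mem hx)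
        rwa [inv_inv] at this }
  have hHY : H ≤ Y := fun h hh => ⟨1, X.one_mem, h, hh, by simp⟩
  have hXY : X ≤ Y := fun x hx => ⟨x, hx, 1, H.one_mem, by simp⟩
  rcases hH.le_iff.mp hHY with h | h
  · right
    refine le_antisymm hXN (fun n hn => ?_)
    have : n ∈ Y := by rw [h]; trivial
    obtain ⟨x, hx, h', hh', rfl⟩ := this
    have h1 : h' ∈ N := by
      have := N.mul_mem (N.inv_mem (hXN hx)) hn
      rwa [inv_mul_cancel_left] at this
    exact X.mul_mem hx (hHX ⟨h1, hh'⟩)
  · left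
    refine le_antisymm (le_inf hXN ?_) hHX
    rw [← h]; exact hXY

section setup
variable {k : ℕ} {T : Type*} [Group T] [Finite T] [IsSimpleGroup T] (hT : ¬ IsMulCommutative T) (N : Subgroup G) [N.Normal] (e : N ≃* (Fin k → T))

/-- conjugation in coordinates -/
noncomputable def cj (g : G) : (Fin k → T) ≃* (Fin k → T) := e.symm.trans ((MulAut.conjNormal g : N ≃* N).trans e)

/-- element with given coordinates -/
def E (x : Fin k → T) : G := ((e.symm x : N) : G)

omit [Finite G] [Finite T] [IsSimpleGroup T] in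
theorem conj_E (g : G) (x : Fin k → T) : g * E N e x * g⁻¹ = E N e (cj N e g x) := by
  simp [E, cj]

omit [Finite G] [Finite T] [IsSimpleGroup T] [N.Normal] in
theorem E_mul (x y : Fin k → T) : E N e (x * y) = E N e x * E N e y := by simp [E]

omit [Finite G] [Finite T] [IsSimpleGroup T] [N.Normal] in
theorem E_inv (x : Fin k → T) : E N e x⁻¹ = (E N e x)⁻¹ := by simp [E]

omit [Finite G] [Finite T] [IsSimpleGroup T] [N.Normal] in
theorem E_mem (x : Fin k → T) : E N e x ∈ N := (e.symm x).2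

omit [Finite G] [Finite T] [IsSimpleGroup T] [N.Normal] in
theorem E_surj {n : G} (hn : n ∈ N) : ∃ x, E N e x = n := ⟨e ⟨n, hn⟩, by simp [E]⟩

omit [Finite G] [Finite T] [IsSimpleGroup T] [N.Normal] in
theorem E_one : E N e 1 = 1 := by simp [E]

omit [Finite G] [Finite T] [IsSimpleGroup T] [N.Normal] in
theorem E_inj {x y : Fin k → T} (h : E N e x = E N e y) : x = y := e.symm.injective (Subtype.ext h)

omit [Finite G] in
include hT in
theorem exists_pi : ∃ π : G →* Equiv.Perm (Fin k), ∀ g, NF (cj N e g) (π g) := by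
  choose π hπ using fun g => exists_NF hT (cj N e g)
  refine ⟨MonoidHom.mk' π ?_, hπ⟩
  intro g h
  refine NF_unique (hπ (g * h)) ?_
  have h1 : cj N e (g * h) = (cj N e h).trans (cj N e g) := by
    ext1 x
    apply E_inj N e
    rw [← conj_E, MulEquiv.trans_apply, ← conj_E, ← conj_E]; group
  rw [h1]
  exact (hπ h).trans (hπ g)

omit [Finite G] [Finite T] in
theorem pi_N (π : G →* Equiv.Perm (Fin k)) (hπ : ∀ g, NF (cj N e g) (π g)) {n : G} (hn : n ∈ N) : π n = 1 := by
  refine NF_unique (hπ n) ?_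
  obtain ⟨y, rfl⟩ := E_surj N e hn
  have h1 : cj N e (E N e y) = MulAut.conj y := by
    ext1 x
    apply E_inj N e
    rw [← conj_E, ← E_inv, ← E_mul, ← E_mul]; simp
  rw [h1]
  exact NF_inner y

omit [Finite G] [Finite T] in
theorem pi_trans (hN : IsMinNormal N) (π : G →* Equiv.Perm (Fin k)) (hπ : ∀ g, NF (cj N e g) (π g)) (i j : Fin k) : ∃ g, π g i = j := by
  classical
  let S : Subgroup G :=
    { carrier := {n | ∃ x, E N e x = n ∧ ∀ l, (¬ ∃ g, π g i = l) → x l = 1}
      mul_mem' := by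
        rintro _ _ ⟨x, rfl, hx⟩ ⟨y, rfl, hy⟩
        exact ⟨x * y, E_mul N e x y, fun l hl => by rw [Pi.mul_apply, hx l hl, hy l hl, one_mul]⟩
      one_mem' := ⟨1, E_one N e, fun _ _ => rfl⟩
      inv_mem' := by
        rintro _ ⟨x, rfl, hx⟩
        exact ⟨x⁻¹, E_inv N e x, fun l hl => by rw [Pi.inv_apply, hx l hl, inv_one]⟩ }
  have hSn : S.Normal := by
    constructor
    rintro _ ⟨x, rfl, hx⟩ g
    refine ⟨cj N e g x, (conj_E N e g x).symm, fun l hl => ?_⟩
    obtain ⟨ψ, _, hψ⟩ := hπ g ((π g)⁻¹ l)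
    have h1 : π g ((π g)⁻¹ l) = l := by simp
    rw [h1] at hψ
    rw [hψ, hx, map_one]
    rintro ⟨g', hg'⟩
    apply hl
    refine ⟨g * g', ?_⟩
    rw [map_mul, Equiv.Perm.mul_apply, hg', h1]
  have hSN : S ≤ N := by
    rintro _ ⟨x, rfl, _⟩
    exact E_mem N e x
  obtain ⟨t₀, ht₀⟩ := exists_ne (1 : T)
  have hi : E N e (Pi.mulSingle i t₀) ∈ S := by
    refine ⟨_, rfl, fun l hl => ?_⟩
    rw [Pi.mulSingle_eq_of_ne]
    rintro rfl
    exact hl ⟨1, by simp⟩
  rcases hN.2.2 S hSn hSN with h | h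
  · exfalso
    rw [h, Subgroup.mem_bot, ← E_one N e] at hi
    have := congrFun (E_inj N e hi) i
    rw [Pi.mulSingle_eq_same] at this
    exact ht₀ this
  · by_contra hcon
    have h1 : E N e (Pi.mulSingle j t₀) ∈ S := by rw [h]; exact E_mem N e _
    obtain ⟨x, hx, hxs⟩ := h1
    have h2 := E_inj N e hx
    have h3 := hxs j hcon
    rw [h2, Pi.mulSingle_eq_same] at h3
    exact ht₀ h3

end setup

/-! ### subdirect subgroups with no factor -/

section diag
variable {k : ℕ} {T : Type*} [Group T] [Finite T] [IsSimpleGroup T]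

/-- structure of subdirect subgroups meeting no factor -/
theorem exists_diag (hT : ¬ IsMulCommutative T) (M : Subgroup (Fin k → T)) (hfull : ∀ i t, ∃ x ∈ M, x i = t)
    (h1 : ∀ j, ∀ x ∈ M, (∀ l, l ≠ j → x l = 1) → x = 1) :
    ∃ (c : Fin k → Fin k) (φ : Fin k → (T ≃* T)), (∀ i, c (c i) = c i) ∧ (∀ i, c i = i → φ i = MulEquiv.refl T) ∧
      (∀ x : Fin k → T, x ∈ M ↔ ∀ i, x i = φ i (x (c i))) ∧ (∀ i, ∃ i', i' ≠ c i ∧ c i' = c i) := by
  classical
  obtain ⟨I, hI, hmax⟩ := exists_max M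
  -- sections
  have hδ : ∀ j, j ∉ I → ∀ t : T, ∃ y ∈ M, (∀ l, l ∉ insert j I → y l = 1) ∧ y j = t := by
    intro j hj
    let S : Subgroup T :=
      { carrier := {t | ∃ y ∈ M, (∀ l, l ∉ insert j I → y l = 1) ∧ y j = t}
        mul_mem' := by
          rintro a b ⟨y, hy, hys, hya⟩ ⟨z, hz, hzs, hzb⟩
          exact ⟨y * z, M.mul_mem hy hz, fun l hl => by rw [Pi.mul_apply, hys l hl, hzs l hl, one_mul], by rw [Pi.mul_apply, hya, hzb]⟩
        one_mem' := ⟨1, M.one_mem, fun _ _ => rfl, rfl⟩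
        inv_mem' := by
          rintro a ⟨y, hy, hys, hya⟩
          exact ⟨y⁻¹, M.inv_mem hy, fun l hl => by rw [Pi.inv_apply, hys l hl, inv_one], by rw [Pi.inv_apply, hya]⟩ }
    obtain ⟨y, hy, hy1, hys⟩ := hmax j hj
    have hyj : y j ≠ 1 := by
      intro h
      apply hy1
      apply hI y hy
      intro l hl
      by_cases hlj : l = j
      · rw [hlj, h]
      · exact hys l (by rw [Finset.mem_insert, not_or]; exact ⟨hlj, hl⟩)
    intro t
    refine all_of_normal S ?_ (s := y j) ⟨y, hy, hys, rfl⟩ hyj t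
    rintro t s ⟨z, hz, hzs, hzt⟩
    obtain ⟨m, hm, hmt⟩ := hfull j t
    refine ⟨m * z * m⁻¹, M.mul_mem (M.mul_mem hm hz) (M.inv_mem hm), ?_, ?_⟩
    · intro l hl
      rw [Pi.mul_apply, Pi.mul_apply, Pi.inv_apply, hzs l hl]; simp
    · rw [Pi.mul_apply, Pi.mul_apply, Pi.inv_apply, hzt, hmt]
  have huniq : ∀ j, j ∉ I → ∀ y ∈ M, ∀ z ∈ M, (∀ l, l ∉ insert j I → y l = 1) → (∀ l, l ∉ insert j I → z l = 1) → y j = z j → y = z := by
    intro j hj y hy z hz hys hzs hjj
    have : y⁻¹ * z = 1 := by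
      apply hI _ (M.mul_mem (M.inv_mem hy) hz)
      intro l hl
      rw [Pi.mul_apply, Pi.inv_apply]
      by_cases hlj : l = j
      · rw [hlj, hjj]; simp
      · have : l ∉ insert j I := by rw [Finset.mem_insert, not_or]; exact ⟨hlj, hl⟩
        rw [hys l this, hzs l this]; simp
    exact (inv_mul_eq_one.mp this)
  choose! δ hδM hδs hδj using hδ
  -- the homomorphisms
  let ψ : Fin k → Fin k → T → T := fun i j t => δ j t i
  have hδmul : ∀ j, j ∉ I → ∀ s t, δ j (s * t) = δ j s * δ j t := by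
    intro j hj s t
    apply huniq j hj _ (hδM j hj _) _ (M.mul_mem (hδM j hj s) (hδM j hj t)) (hδs j hj _)
    · intro l hl
      rw [Pi.mul_apply, hδs j hj s l hl, hδs j hj t l hl, one_mul]
    · rw [hδj j hj, Pi.mul_apply, hδj j hj, hδj j hj]
  let Ψ : ∀ i j, j ∉ I → (T →* T) := fun i j hj => MonoidHom.mk' (ψ i j) (fun s t => by
    show δ j (s * t) i = δ j s i * δ j t i
    rw [hδmul j hj]; rfl)
  have hΨ : ∀ i j hj t, Ψ i j hj t = δ j t i := fun i j hj t => rfl
  -- claim A
  have hA : ∀ i j, ∀ hj : j ∉ I, (∃ t, Ψ i j hj t ≠ 1) → ∀ x ∈ M, x i = Ψ i j hj (x j) := by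
    intro i j hj ⟨t₀, ht₀⟩ x hx
    have hsurj : Function.Surjective (Ψ i j hj) := Finite.surjective_of_injective (hom_inj _ ht₀)
    have hy : ((δ j (x j))⁻¹ * x) ∈ M := M.mul_mem (M.inv_mem (hδM j hj _)) hx
    have hyj : ((δ j (x j))⁻¹ * x) j = 1 := by
      rw [Pi.mul_apply, Pi.inv_apply, hδj j hj]; simp
    generalize hyy : (δ j (x j))⁻¹ * x = y at hy hyj
    have hyi : y i = 1 := by
      apply center_triv hT
      intro s
      obtain ⟨t, rfl⟩ := hsurj s
      have h2 : δ j t * y * (δ j t)⁻¹ * y⁻¹ = 1 := by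
        have e1 : δ j t * y * (δ j t)⁻¹ * y⁻¹ = δ j t * (y * (δ j t)⁻¹ * y⁻¹) := by group
        rw [e1]
        apply huniq j hj _ (M.mul_mem (hδM j hj t) (M.mul_mem (M.mul_mem hy (M.inv_mem (hδM j hj t))) (M.inv_mem hy))) _ M.one_mem
        · intro l hl
          simp only [Pi.mul_apply, Pi.inv_apply, hδs j hj t l hl]; simp
        · intro l _; rfl
        · simp only [Pi.mul_apply, Pi.inv_apply, hyj]; simp
      rw [mul_inv_eq_one, mul_inv_eq_iff_eq_mul] at h2
      have h3 := congrFun h2 i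
      rw [Pi.mul_apply, Pi.mul_apply] at h3
      exact h3.symm
    have h4 := congrFun hyy i
    rw [hyi, Pi.mul_apply, Pi.inv_apply, inv_mul_eq_one] at h4
    rw [← h4]; rfl
  -- every i has a j
  have hex : ∀ i, ∃ j, ∃ hj : j ∉ I, ∃ t, Ψ i j hj t ≠ 1 := by
    intro i
    by_cases hi : i ∈ I
    · by_contra hcon
      push Not at hcon
      -- then all elements of M are trivial at i
      have h2 : ∀ J : Finset (Fin k), ∀ x ∈ M, (∀ l, l ∉ I → l ∉ J → x l = 1) → x i = 1 := by
        intro J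
        induction J using Finset.induction_on with
        | empty => intro x hx hxs; rw [hI x hx (fun l hl => hxs l hl (by simp))]; rfl
        | insert a J ha ih =>
          intro x hx hxs
          by_cases haI : a ∈ I
          · apply ih x hx
            intro l hl hlJ
            exact hxs l hl (by rw [Finset.mem_insert, not_or]; exact ⟨fun h => hl (h ▸ haI), hlJ⟩)
          · have h3 := ih ((δ a (x a))⁻¹ * x) (M.mul_mem (M.inv_mem (hδM a haI _)) hx) (by
              intro l hl hlJ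
              rw [Pi.mul_apply, Pi.inv_apply]
              by_cases hla : l = a
              · rw [hla, hδj a haI]; simp
              · rw [hδs a haI _ l (by rw [Finset.mem_insert, not_or]; exact ⟨hla, hl⟩), hxs l hl (by rw [Finset.mem_insert, not_or]; exact ⟨hla, hlJ⟩)]; simp)
            rw [Pi.mul_apply, Pi.inv_apply] at h3
            have h4 : δ a (x a) i = 1 := hcon a haI (x a)
            rw [h4] at h3
            simpa using h3
      obtain ⟨t₀, ht₀⟩ := exists_ne (1 : T)
      obtain ⟨x, hx, hxi⟩ := hfull i t₀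
      apply ht₀
      rw [← hxi]
      exact h2 Finset.univ x hx (fun l _ hl => absurd (Finset.mem_univ l) hl)
    · obtain ⟨t₀, ht₀⟩ := exists_ne (1 : T)
      exact ⟨i, hi, t₀, by rw [hΨ i i hi, hδj i hi]; exact ht₀⟩
  choose c hc hct using hex
  -- uniqueness of j
  have hcu : ∀ i j, ∀ hj : j ∉ I, (∃ t, Ψ i j hj t ≠ 1) → c i = j := by
    intro i j hj ⟨t, ht⟩
    by_contra hne
    apply ht
    have h2 := hA i (c i) (hc i) (hct i) (δ j t) (hδM j hj t)
    have h3 : δ j t (c i) = 1 := hδs j hj t _ (by rw [Finset.mem_insert, not_or]; exact ⟨hne, hc i⟩)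
    rw [h3, map_one] at h2
    exact h2
  have hcI : ∀ j, j ∉ I → c j = j := by
    intro j hj
    obtain ⟨t₀, ht₀⟩ := exists_ne (1 : T)
    exact hcu j j hj ⟨t₀, by rw [hΨ j j hj, hδj j hj]; exact ht₀⟩
  let φ : Fin k → (T ≃* T) := fun i => MulEquiv.ofBijective (Ψ i (c i) (hc i)) (by
    obtain ⟨t, ht⟩ := hct i
    exact Finite.injective_iff_bijective.mp (hom_inj _ ht))
  have hφ : ∀ i t, φ i t = Ψ i (c i) (hc i) t := fun i t => rfl
  have hMrel : ∀ x ∈ M, ∀ i, x i = φ i (x (c i)) := fun x hx i => hA i (c i) (hc i) (hct i) x hx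
  refine ⟨c, φ, fun i => hcI _ (hc i), ?_, ?_, ?_⟩
  · intro i hi
    ext t
    rw [hφ]
    show δ (c i) t i = t
    rw [hi]
    exact hδj i (by rw [← hi]; exact hc i) t
  · intro x
    refine ⟨hMrel x, fun hx => ?_⟩
    have h2 : ∀ J : Finset (Fin k), ∀ x : Fin k → T, (∀ i, x i = φ i (x (c i))) → (∀ l, l ∉ I → l ∉ J → x l = 1) → x ∈ M := by
      intro J
      induction J using Finset.induction_on with
      | empty =>
        intro x hx hxs
        have : x = 1 := by
          funext i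
          rw [hx i, hxs (c i) (hc i) (by simp), map_one]; rfl
        rw [this]; exact M.one_mem
      | insert a J ha ih =>
        intro x hx hxs
        by_cases haI : a ∈ I
        · apply ih x hx
          intro l hl hlJ
          exact hxs l hl (by rw [Finset.mem_insert, not_or]; exact ⟨fun h => hl (h ▸ haI), hlJ⟩)
        · have h3 := ih ((δ a (x a))⁻¹ * x) (by
            intro i
            rw [Pi.mul_apply, Pi.mul_apply, Pi.inv_apply, Pi.inv_apply, map_mul, map_inv, ← hx i, ← hMrel _ (hδM a haI (x a)) i]) (by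
            intro l hl hlJ
            rw [Pi.mul_apply, Pi.inv_apply]
            by_cases hla : l = a
            · rw [hla, hδj a haI]; simp
            · rw [hδs a haI _ l (by rw [Finset.mem_insert, not_or]; exact ⟨hla, hl⟩), hxs l hl (by rw [Finset.mem_insert, not_or]; exact ⟨hla, hlJ⟩)]; simp)
          have := M.mul_mem (hδM a haI (x a)) h3
          rwa [mul_inv_cancel_left] at this
    exact h2 Finset.univ x hx (fun l _ hl => absurd (Finset.mem_univ l) hl)
  · intro i
    by_contra hcon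
    push Not at hcon
    obtain ⟨t₀, ht₀⟩ := exists_ne (1 : T)
    apply ht₀
    have h2 := h1 (c i) (δ (c i) t₀) (hδM _ (hc i) t₀) (by
      intro l hl
      by_contra hne
      exact hcon l hl (hcu l (c i) (hc i) ⟨t₀, hne⟩))
    have h3 := congrFun h2 (c i)
    rw [hδj _ (hc i)] at h3
    exact h3

end diag

end CfsgLib.PowAut29
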