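import Mathlib
import Cfsg.Agent.EqBase

set_option autoImplicit false
set_option linter.all false
set_option maxHeartbeats 1000000

/-! # Transitive groups of degree `p + 1` and small order (helper20), basics -/

namespace CfsgLib.PpOne20

open MulAction

universe u v

/-- the set-up -/
structure PD {G : Type u} [Group G] {Ω : Type v} [MulAction G Ω] (a : Ω) (P : Subgroup G) (p : ℕ) : Prop where
  hPa : ∀ u ∈ P, u • a = a
  hPc : Nat.card P = p
  hPn : ∀ g : G, g • a = a → ∀ u ∈ P, g * u * g⁻¹ ∈ P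
  hPf : ∀ u ∈ P, u ≠ 1 → ∀ c, u • c = c → c = a
  hPt : ∀ y z : Ω, y ≠ a → z ≠ a → ∃ u ∈ P, u • y = z

variable {G : Type u} [Group G] [Finite G] {Ω : Type v} [Fintype Ω] [MulAction G Ω]

theorem card_stab [IsPretransitive G Ω] {p d : ℕ} (hΩ : Fintype.card Ω = p + 1) (hG : Nat.card G = (p + 1) * p * d) (a : Ω) :
    Nat.card (stabilizer G a) = p * d := by
  have h1 := (stabilizer G a).index_mul_card
  rw [MulAction.index_stabilizer_of_transitive, Nat.card_eq_fintype_card, hΩ, hG, mul_assoc] at h1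
  exact Nat.eq_of_mul_eq_mul_left (Nat.succ_pos p) h1

theorem exists_PD [FaithfulSMul G Ω] [IsPretransitive G Ω] {p d : ℕ} (hp : p.Prime) (hΩ : Fintype.card Ω = p + 1)
    (hG : Nat.card G = (p + 1) * p * d) (hd : d < p) (a : Ω) : ∃ P : Subgroup G, PD a P p := by
  classical
  haveI := Fact.mk hp
  have hd0 : 0 < d := by
    rcases Nat.eq_zero_or_pos d with h | h
    · rw [h, mul_zero] at hG
      exact absurd hG Nat.card_pos.ne'
    · exact h
  have hA := card_stab (G := G) hΩ hG a
  have hpd : ¬ p ∣ d := fun h => by have := Nat.le_of_dvd hd0 h; omega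
  obtain ⟨Q⟩ := (inferInstance : Nonempty (Sylow p (stabilizer G a)))
  have hQc : Nat.card Q = p := by
    rw [Sylow.card_eq_multiplicity, hA, Nat.factorization_mul hp.ne_zero hd0.ne', Finsupp.add_apply, hp.factorization_self,
      Nat.factorization_eq_zero_of_not_dvd hpd]
    simp
  have hQi : (Q : Subgroup (stabilizer G a)).index = d := by
    have h1 := (Q : Subgroup (stabilizer G a)).index_mul_card
    have h2 : Nat.card (Q : Subgroup (stabilizer G a)) = p := hQc
    rw [h2, hA, mul_comm] at h1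
    exact Nat.eq_of_mul_eq_mul_left hp.pos h1
  have hn1 : Nat.card (Sylow p (stabilizer G a)) = 1 := by
    have h1 := Q.card_dvd_index
    rw [hQi] at h1
    have h2 := Nat.le_of_dvd hd0 h1
    have h3 := card_sylow_modEq_one p (stabilizer G a)
    have h4 : Nat.card (Sylow p (stabilizer G a)) % p = 1 % p := h3
    rw [Nat.mod_eq_of_lt (by omega), Nat.mod_eq_of_lt hp.one_lt] at h4
    exact h4
  haveI : Subsingleton (Sylow p (stabilizer G a)) := (Nat.card_eq_one_iff_unique.mp hn1).1
  have hQn : (Q : Subgroup (stabilizer G a)).Normal := Q.normal_of_subsingleton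
  obtain ⟨P, hP⟩ : ∃ P : Subgroup G, P = (Q : Subgroup (stabilizer G a)).map (stabilizer G a).subtype := ⟨_, rfl⟩
  have hPa : ∀ u ∈ P, u • a = a := by
    intro u hu
    rw [hP] at hu
    obtain ⟨x, -, rfl⟩ := hu
    exact x.2
  have hPc : Nat.card P = p := by
    rw [hP, Subgroup.card_map_of_injective (Subgroup.subtype_injective _)]
    exact hQc
  have hPn : ∀ g : G, g • a = a → ∀ u ∈ P, g * u * g⁻¹ ∈ P := by
    intro g hg u hu
    rw [hP] at hu ⊢
    obtain ⟨x, hx, rfl⟩ := hu
    exact ⟨⟨g, hg⟩ * x * ⟨g, hg⟩⁻¹, hQn.conj_mem x hx ⟨g, hg⟩, rfl⟩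
  -- orbits of `P`
  have horb : ∀ c : Ω, (orbit P c).ncard = 1 ∨ (orbit P c).ncard = p := by
    intro c
    have h1 : (orbit P c).ncard ∣ p := by
      rw [← MulAction.index_stabilizer, ← hPc]
      exact Subgroup.index_dvd_card _
    exact (Nat.dvd_prime hp).mp h1
  have hfixP : ∀ c : Ω, (orbit P c).ncard = 1 → ∀ u ∈ P, u • c = c := by
    intro c hc u hu
    obtain ⟨x, hx⟩ := Set.ncard_eq_one.mp hc
    have h1 : c ∈ orbit P c := mem_orbit_self c
    have h2 : u • c ∈ orbit P c := ⟨⟨u, hu⟩, rfl⟩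
    rw [hx, Set.mem_singleton_iff] at h1 h2
    rw [h2, ← h1]
  have hP1 : ∃ u ∈ P, u ≠ 1 := by
    by_contra hcon
    push Not at hcon
    have : P = ⊥ := by rw [eq_bot_iff]; intro u hu; exact Subgroup.mem_bot.mpr (hcon u hu)
    rw [this, Subgroup.card_bot] at hPc
    exact hp.one_lt.ne hPc
  have hbig : ∀ c : Ω, c ≠ a → (orbit P c).ncard = p := by
    intro c hc
    rcases horb c with h1 | h1
    · exfalso
      obtain ⟨u, hu, hu1⟩ := hP1
      apply hu1
      apply FaithfulSMul.eq_of_smul_eq_smul (M := G) (α := Ω)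
      intro c'
      rw [one_smul]
      by_cases hc'a : c' = a
      · rw [hc'a]; exact hPa u hu
      by_cases hc'c : c' = c
      · rw [hc'c]; exact hfixP c h1 u hu
      apply hfixP c' _ u hu
      rcases horb c' with h2 | h2
      · exact h2
      · exfalso
        have h3 : orbit P c' ⊆ Set.univ \ {a, c} := by
          rintro x ⟨v, rfl⟩
          refine ⟨trivial, ?_⟩
          rintro (h4 | h4)
          · apply hc'a
            have h5 : (v : G) • c' = a := h4
            have h6 : (v : G) • a = a := hPa v v.2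
            exact MulAction.injective (v : G) (h5.trans h6.symm)
          · apply hc'c
            have h5 : (v : G) • c' = c := h4
            have h6 : (v : G) • c = c := hfixP c h1 v v.2
            exact MulAction.injective (v : G) (h5.trans h6.symm)
        have h4 := Set.ncard_le_ncard h3 (Set.toFinite _)
        rw [Set.ncard_sdiff (Set.subset_univ _) (Set.toFinite _), Set.ncard_univ, Nat.card_eq_fintype_card, hΩ, Set.ncard_pair (Ne.symm hc), h2] at h4
        have := hp.two_le
        omega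
    · exact h1
  refine ⟨P, hPa, hPc, hPn, ?_, ?_⟩
  · intro u hu hu1 c hc
    by_contra hca
    have h1 := hbig c hca
    rw [← MulAction.index_stabilizer, ← hPc] at h1
    have h2 := (stabilizer P c).index_mul_card
    rw [h1] at h2
    have h3 : Nat.card (stabilizer P c) = 1 := by
      have h4 : 0 < Nat.card P := Nat.card_pos
      exact Nat.eq_of_mul_eq_mul_left h4 (h2.trans (mul_one _).symm)
    rw [Subgroup.card_eq_one] at h3
    have h4 : (⟨u, hu⟩ : P) ∈ stabilizer P c := hc
    rw [h3, Subgroup.mem_bot] at h4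
    exact hu1 (congrArg Subtype.val h4)
  · intro y z hy hz
    have h1 := hbig y hy
    have h2 : orbit P y = Set.univ \ {a} := by
      apply Set.eq_of_subset_of_ncard_le
      · rintro x ⟨v, rfl⟩
        refine ⟨trivial, ?_⟩
        intro h4
        apply hy
        have h5 : (v : G) • y = a := h4
        have h6 : (v : G) • a = a := hPa v v.2
        exact MulAction.injective (v : G) (h5.trans h6.symm)
      · rw [h1, Set.ncard_sdiff (Set.subset_univ _) (Set.toFinite _), Set.ncard_univ, Nat.card_eq_fintype_card, hΩ, Set.ncard_singleton]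
        omega
      · exact Set.toFinite _
    have h3 : z ∈ orbit P y := by rw [h2]; exact ⟨trivial, hz⟩
    obtain ⟨v, hv⟩ := h3
    exact ⟨v, v.2, hv⟩

namespace PD

variable {a : Ω} {P : Subgroup G} {p : ℕ} (S : PD a P p)

include S

theorem two_trans [IsPretransitive G Ω] {x y u v : Ω} (hxy : x ≠ y) (huv : u ≠ v) : ∃ g : G, g • x = u ∧ g • y = v := by
  obtain ⟨g₁, hg₁⟩ := MulAction.exists_smul_eq G x a
  obtain ⟨g₂, hg₂⟩ := MulAction.exists_smul_eq G u a
  obtain ⟨k, hk, hk2⟩ := S.hPt (g₁ • y) (g₂ • v) (fun h => hxy (MulAction.injective g₁ (hg₁.trans h.symm)))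
    (fun h => huv (MulAction.injective g₂ (hg₂.trans h.symm)))
  refine ⟨g₂⁻¹ * k * g₁, ?_, ?_⟩
  · rw [mul_smul, mul_smul, hg₁, S.hPa k hk, ← hg₂, inv_smul_smul]
  · rw [mul_smul, mul_smul, hk2, inv_smul_smul]

theorem gen (hp : p.Prime) {z : G} (hz : z ∈ P) (hz1 : z ≠ 1) {u : G} (hu : u ∈ P) : ∃ i : ℕ, u = z ^ i := by
  classical
  haveI := Fact.mk hp
  have h1 : (⟨u, hu⟩ : P) ∈ Subgroup.zpowers (⟨z, hz⟩ : P) :=
    mem_zpowers_of_prime_card S.hPc (fun h => hz1 (congrArg Subtype.val h))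
  rw [mem_zpowers_iff_mem_range_orderOf, Finset.mem_image] at h1
  obtain ⟨i, -, hi⟩ := h1
  exact ⟨i, (congrArg Subtype.val hi).symm⟩

theorem semireg [FaithfulSMul G Ω] (hp : p.Prime) {b : Ω} (hab : b ≠ a) {g : G} (hga : g • a = a) (hgb : g • b = b) (hg : g ≠ 1)
    {u : G} (hu : u ∈ P) (h : g * u * g⁻¹ = u) : u = 1 := by
  by_contra hu1
  apply hg
  apply FaithfulSMul.eq_of_smul_eq_smul (M := G) (α := Ω)
  intro c
  rw [one_smul]
  by_cases hc : c = a
  · rw [hc, hga]
  obtain ⟨v, hv, hvc⟩ := S.hPt b c hab hc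
  obtain ⟨i, hi⟩ := S.gen hp hu hu1 hv
  have h1 : g * v = v * g := by
    have h2 : g * v * g⁻¹ = v := by
      rw [hi, ← conj_pow, h]
    exact mul_inv_eq_iff_eq_mul.mp h2
  rw [← hvc, ← mul_smul, h1, mul_smul, hgb]

theorem three_a [FaithfulSMul G Ω] (hp : p.Prime) {b c : Ω} (hab : b ≠ a) (hac : c ≠ a) (hbc : b ≠ c) {g : G} (hga : g • a = a) (hgb : g • b = b)
    (hgc : g • c = c) : g = 1 := by
  by_contra hg
  obtain ⟨u, hu, huc⟩ := S.hPt b c hab hac
  have h1 : g * u * g⁻¹ = u := by
    have h2 : g * u * g⁻¹ * u⁻¹ ∈ P := P.mul_mem (S.hPn g hga u hu) (P.inv_mem hu)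
    by_contra h3
    have h4 : g * u * g⁻¹ * u⁻¹ ≠ 1 := fun h5 => h3 (mul_inv_eq_one.mp h5)
    have h5 : (g * u * g⁻¹ * u⁻¹) • c = c := by
      rw [mul_smul, mul_smul, mul_smul, ← huc, inv_smul_smul, inv_smul_eq_iff.mpr hgb.symm, huc, hgc]
    exact hac (S.hPf _ h2 h4 c h5)
  have h2 := S.semireg hp hab hga hgb hg hu h1
  rw [h2, one_smul] at huc
  exact hbc huc

theorem three [FaithfulSMul G Ω] [IsPretransitive G Ω] (hp : p.Prime) {x b c : Ω} (hxb : x ≠ b) (hxc : x ≠ c) (hbc : b ≠ c) {g : G} (hga : g • x = x) (hgb : g • b = b)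
    (hgc : g • c = c) : g = 1 := by
  obtain ⟨t, ht⟩ := MulAction.exists_smul_eq G x a
  have h1 : t * g * t⁻¹ = 1 := by
    apply S.three_a hp (b := t • b) (c := t • c) (fun h => hxb (MulAction.injective t (ht.trans h.symm)))
      (fun h => hxc (MulAction.injective t (ht.trans h.symm))) (fun h => hbc (MulAction.injective t h))
    · rw [mul_smul, mul_smul, ← ht, inv_smul_smul, hga]
    · rw [mul_smul, mul_smul, inv_smul_smul, hgb]
    · rw [mul_smul, mul_smul, inv_smul_smul, hgc]
  have h2 : t * g = t := by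
    have := mul_inv_eq_one.mp h1
    exact this
  exact mul_eq_left.mp h2

end PD

end CfsgLib.PpOne20
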