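import Cfsg.Agent.LibPpOneA20
import Cfsg.Agent.LibS3T8

set_option autoImplicit false
set_option linter.all false
set_option maxHeartbeats 1000000

/-! # Transitive groups of degree `p + 1` and small order (helper20), sharply triply transitive case -/

namespace CfsgLib.PpOne20

open MulAction

universe u v

variable {G : Type u} [Group G] [Finite G] {Ω : Type v} [Fintype Ω] [MulAction G Ω]

theorem card_D {a b : Ω} {P : Subgroup G} {p d : ℕ} (S : PD a P p) (hab : b ≠ a) (hΩ : Fintype.card Ω = p + 1)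
    (hA : Nat.card (stabilizer G a) = p * d) (hp0 : 0 < p) : Nat.card (stabilizer (stabilizer G a) b) = d := by
  have h1 := (stabilizer (stabilizer G a) b).index_mul_card
  rw [MulAction.index_stabilizer, hA] at h1
  have h2 : orbit (stabilizer G a) b = Set.univ \ {a} := by
    apply Set.eq_of_subset_of_subset
    · rintro x ⟨v, rfl⟩
      refine ⟨trivial, ?_⟩
      intro h4
      apply hab
      have h5 : (v : G) • b = a := h4
      have h6 : (v : G) • a = a := v.2
      exact MulAction.injective (v : G) (h5.trans h6.symm)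
    · rintro x ⟨-, hx⟩
      obtain ⟨u, hu, hux⟩ := S.hPt b x hab hx
      exact ⟨⟨u, S.hPa u hu⟩, hux⟩
  rw [h2, Set.ncard_sdiff (Set.subset_univ _) (Set.toFinite _), Set.ncard_univ, Nat.card_eq_fintype_card, hΩ, Set.ncard_singleton,
    Nat.add_sub_cancel] at h1
  exact Nat.eq_of_mul_eq_mul_left hp0 h1

/-- coordinates -/
def pt (z : G) (b : Ω) {p : ℕ} (x : ZMod p) : Ω := z ^ x.val • b

namespace PD

variable {a b : Ω} {P : Subgroup G} {p : ℕ} [Fact p.Prime] (S : PD a P p) (hab : b ≠ a) {z : G} (hz : z ∈ P) (hz1 : z ≠ 1)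

include S in
theorem hpr : p.Prime := Fact.out

include S hz in
theorem z_pow : z ^ p = 1 := by
  have h1 : (⟨z, hz⟩ : P) ^ Nat.card P = 1 := pow_card_eq_one'
  rw [S.hPc] at h1
  exact congrArg Subtype.val h1

include S hz in
theorem z_mod (n : ℕ) : z ^ n = z ^ (n % p) := by
  conv_lhs => rw [← Nat.div_add_mod n p, pow_add, pow_mul, S.z_pow hz, one_pow, one_mul]

include S hz in
theorem pt_nat (n : ℕ) : (pt z b (n : ZMod p) : Ω) = z ^ n • b := by
  unfold pt
  rw [ZMod.val_natCast, ← S.z_mod hz]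

theorem exists_nat (x : ZMod p) : ∃ n : ℕ, x = (n : ZMod p) := ⟨x.val, by rw [ZMod.natCast_zmod_val]⟩

theorem pt_zero : pt z b (0 : ZMod p) = b := by
  unfold pt
  rw [ZMod.val_zero, pow_zero, one_smul]

include S hab hz in
theorem pt_ne (x : ZMod p) : pt z b x ≠ a := by
  intro h
  unfold pt at h
  apply hab
  exact MulAction.injective (z ^ x.val) (h.trans (S.hPa _ (P.pow_mem hz _)).symm)

include S hz in
theorem z_pt (n : ℕ) (x : ZMod p) : z ^ n • pt z b x = pt z b (x + (n : ZMod p)) := by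
  obtain ⟨m, rfl⟩ := exists_nat x
  rw [← Nat.cast_add, S.pt_nat hz, S.pt_nat hz, ← mul_smul, ← pow_add, add_comm]

include S hab hz hz1 in
theorem pt_inj {x y : ZMod p} (h : pt z b x = pt z b y) : x = y := by
  have hp := S.hpr
  by_contra hxy
  obtain ⟨n, hn⟩ := exists_nat (y - x)
  have h1 : z ^ n • pt z b x = pt z b x := by
    rw [S.z_pt hz, ← hn, h]; congr 1; ring
  have h2 : z ^ n = 1 := by
    by_contra h3
    exact S.pt_ne hab hz x (S.hPf _ (P.pow_mem hz n) h3 _ h1)
  have h3 : orderOf z = p := orderOf_eq_prime (S.z_pow hz) hz1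
  have h4 : p ∣ n := by rw [← h3]; exact orderOf_dvd_of_pow_eq_one h2
  apply hxy
  have h5 : y - x = 0 := by rw [hn, ZMod.natCast_eq_zero_iff]; exact h4
  exact (sub_eq_zero.mp h5).symm

include S hab hz hz1 in
theorem pt_surj {c : Ω} (hc : c ≠ a) : ∃ x : ZMod p, pt z b x = c := by
  obtain ⟨u, hu, huc⟩ := S.hPt b c hab hc
  obtain ⟨i, rfl⟩ := S.gen S.hpr hz hz1 hu
  exact ⟨(i : ZMod p), by rw [S.pt_nat hz, huc]⟩

include S hab hz hz1 in
theorem affine {g : G} (hg : g • a = a) : ∃ c y : ZMod p, c ≠ 0 ∧ ∀ x : ZMod p, g • pt z b x = pt z b (c * x + y) := by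
  have hp := S.hpr
  obtain ⟨k, hk⟩ := S.gen hp hz hz1 (S.hPn g hg z hz)
  have hgb : g • b ≠ a := fun h => hab (MulAction.injective g (h.trans hg.symm))
  obtain ⟨y, hy⟩ := S.pt_surj hab hz hz1 hgb
  refine ⟨(k : ZMod p), y, ?_, ?_⟩
  · intro h0
    rw [ZMod.natCast_eq_zero_iff] at h0
    obtain ⟨j, rfl⟩ := h0
    rw [pow_mul, S.z_pow hz, one_pow] at hk
    apply hz1
    have h1 : g * z = g := mul_inv_eq_one.mp hk
    exact mul_eq_left.mp h1
  · intro x
    obtain ⟨n, rfl⟩ := exists_nat x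
    have h1 : g * z ^ n = (z ^ k) ^ n * g := by
      rw [← hk, conj_pow]; group
    rw [S.pt_nat hz, ← mul_smul, h1, mul_smul, ← hy, ← pow_mul, S.z_pt hz]
    congr 1
    push_cast; ring

include S hab hz hz1 in
/-- all multiplications occur in the large case -/
theorem mult [FaithfulSMul G Ω] (hΩ : Fintype.card Ω = p + 1) (hA : Nat.card (stabilizer G a) = p * (p - 1)) {c : ZMod p} (hc : c ≠ 0) :
    ∃ g : G, g • a = a ∧ ∀ x : ZMod p, g • pt z b x = pt z b (c * x) := by
  classical
  have hp := S.hpr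
  have hD := card_D S hab hΩ hA hp.pos
  have hex : ∀ g : stabilizer (stabilizer G a) b, ∃ c : ZMod p, c ≠ 0 ∧ ∀ x : ZMod p, ((g : stabilizer G a) : G) • pt z b x = pt z b (c * x) := by
    intro g
    obtain ⟨c, y, hc, h⟩ := S.affine hab hz hz1 (g := ((g : stabilizer G a) : G)) g.1.2
    have h0 := h 0
    have h1 : ((g : stabilizer G a) : G) • b = b := g.2
    rw [pt_zero, h1, mul_zero, zero_add] at h0
    have h2 : (0 : ZMod p) = y := S.pt_inj hab hz hz1 (by rw [pt_zero]; exact h0)
    refine ⟨c, hc, ?_⟩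
    intro x
    rw [h x, ← h2, add_zero]
  choose μ hμ0 hμ using hex
  have hinj : Function.Injective (fun g => (⟨μ g, hμ0 g⟩ : {c : ZMod p // c ≠ 0})) := by
    intro g g' h
    have h1 : μ g = μ g' := congrArg Subtype.val h
    apply Subtype.ext
    apply Subtype.ext
    apply FaithfulSMul.eq_of_smul_eq_smul (M := G) (α := Ω)
    intro c
    by_cases hca : c = a
    · rw [hca]
      have e1 : ((g : stabilizer G a) : G) • a = a := g.1.2
      have e2 : ((g' : stabilizer G a) : G) • a = a := g'.1.2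
      rw [e1, e2]
    · obtain ⟨x, rfl⟩ := S.pt_surj hab hz hz1 hca
      rw [hμ g, hμ g', h1]
  have hcard : Nat.card {c : ZMod p // c ≠ 0} = p - 1 := by
    rw [Nat.card_eq_fintype_card, Fintype.card_subtype_compl, ZMod.card]
    simp
  have hbij := hinj.bijective_of_nat_card_le (by rw [hcard, hD])
  obtain ⟨g, hg⟩ := hbij.2 ⟨c, hc⟩
  have h1 : μ g = c := congrArg Subtype.val hg
  refine ⟨g, g.1.2, ?_⟩
  intro x
  rw [hμ g, h1]

end PD

/-- the algebra of the swap -/
theorem zmod_two_eq_one : ∀ x : ZMod 2, x ≠ 0 → x = 1 := by decide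

theorem swap_inverse {F : Type v} [Field F] (h2 : (2 : F) ≠ 0) {f : F → F} (hf0 : ∀ x, x ≠ 0 → f x ≠ 0)
    (hmul : ∀ x y, x ≠ 0 → y ≠ 0 → f (x * y) = f x * f y) (hff : ∀ x, x ≠ 0 → f (f x) = x) (hneg : f (-1) = -1)
    (hE : ∀ x, x ≠ 0 → x ≠ -1 → f (1 + f x) = 1 - f (1 + x)) {x : F} (hx : x ≠ 0) : f x = x⁻¹ := by
  have h11 : (1 : F) ≠ -1 := by
    intro h
    apply h2
    have : (1 : F) + 1 = 0 := by nth_rewrite 1 [h]; ring
    rw [← this]; norm_num
  have hf1 : f 1 = 1 := by
    have h1 := hmul 1 1 one_ne_zero one_ne_zero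
    rw [mul_one] at h1
    exact (mul_eq_left₀ (hf0 1 one_ne_zero)).mp h1.symm
  have hfneg : ∀ x, x ≠ 0 → f (-x) = -f x := by
    intro x hx
    have h1 := hmul (-1) x (neg_ne_zero.mpr one_ne_zero) hx
    rw [hneg, neg_one_mul, neg_one_mul] at h1
    exact h1
  have hfinv : ∀ x, x ≠ 0 → f x⁻¹ * f x = 1 := by
    intro x hx
    rw [← hmul _ _ (inv_ne_zero hx) hx, inv_mul_cancel₀ hx, hf1]
  -- first identity
  have star : ∀ x, x ≠ 0 → x ≠ -1 → f (1 + x) * (x - f x) = (x - 1) * f x := by
    intro x hx hx1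
    have hxi : x⁻¹ ≠ -1 := by
      intro h
      apply hx1
      rw [← inv_inv x, h]; norm_num
    have e1 := hE x hx hx1
    have e2 := hE x⁻¹ (inv_ne_zero hx) hxi
    have h3 : 1 + f x⁻¹ ≠ 0 := by
      intro h
      apply hxi
      have : f x⁻¹ = f (-1) := by rw [hneg]; linear_combination h
      rw [← hff _ (inv_ne_zero hx), this, hneg, hneg]
    have h4 : (1 : F) + x ≠ 0 := fun h => hx1 (by linear_combination h)
    have e3 : f (1 + f x) = x * f (1 + f x⁻¹) := by
      have h5 : 1 + f x = f x * (1 + f x⁻¹) := by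
        have := hfinv x hx
        linear_combination -this
      rw [h5, hmul _ _ (hf0 x hx) h3, hff x hx]
    have e4 : f (1 + x⁻¹) = f x⁻¹ * f (1 + x) := by
      rw [← hmul _ _ (inv_ne_zero hx) h4]
      congr 1
      field_simp
      ring
    rw [e2, e4, e1] at e3
    have := hfinv x hx
    -- 1 - f(1+x) = x (1 - f x⁻¹ f(1+x))
    linear_combination (f x) * e3 - (x * f (1 + x)) * this
  -- second identity
  have star2 : ∀ x, x ≠ 0 → x ≠ 1 → f (1 - x) * (x - f x) = -(x + 1) * f x := by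
    intro x hx hx1
    have h1 := star (-x) (neg_ne_zero.mpr hx) (fun h => hx1 (neg_inj.mp h))
    rw [hfneg x hx, ← sub_eq_add_neg] at h1
    linear_combination -h1
  by_cases hx1 : x = 1
  · rw [hx1, hf1, inv_one]
  by_cases hxm : x = -1
  · rw [hxm, hneg]; norm_num
  have a1 := star x hx hxm
  have a2 := star2 x hx hx1
  have hx2 : x ^ 2 ≠ 1 := by
    intro h
    have h1 : (x - 1) * (x + 1) = 0 := by linear_combination h
    rcases mul_eq_zero.mp h1 with h1 | h1
    · exact hx1 (sub_eq_zero.mp h1)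
    · exact hxm (by linear_combination h1)
  have a3 := star2 (x ^ 2) (pow_ne_zero 2 hx) hx2
  have e1 : f (x ^ 2) = f x ^ 2 := by rw [pow_two, hmul x x hx hx, pow_two]
  have e2 : f (1 - x ^ 2) = f (1 + x) * f (1 - x) := by
    rw [← hmul]
    · congr 1; ring
    · intro h; exact hxm (by linear_combination h)
    · intro h; exact hx1 (by linear_combination -h)
  rw [e1, e2] at a3
  have hs0 := hf0 x hx
  have key : f x ^ 2 * (2 * x) * (1 - x * f x) = 0 := by
    linear_combination (-(f (1 - x) * (x - f x) * (x + f x))) * a1 - ((x - 1) * f x * (x + f x)) * a2 + (x - f x) * a3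
  have h3 := (mul_eq_zero.mp key).resolve_left (mul_ne_zero (pow_ne_zero 2 hs0) (mul_ne_zero h2 hx))
  apply eq_inv_of_mul_eq_one_left
  linear_combination -h3

namespace PD

variable {a b : Ω} {P : Subgroup G} {p : ℕ} [Fact p.Prime] (S : PD a P p) (hab : b ≠ a) {z : G} (hz : z ∈ P) (hz1 : z ≠ 1)

open CfsgLib.S3T8 OnePoint in
include S hab hz hz1 in
/-- the sharply triply transitive case -/
theorem pgl [FaithfulSMul G Ω] [IsPretransitive G Ω] (hΩ : Fintype.card Ω = p + 1) (hA : Nat.card (stabilizer G a) = p * (p - 1)) :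
    Nonempty (G ≃* Matrix.ProjGenLinGroup (Fin 2) (ZMod p)) := by
  classical
  have hp := S.hpr
  -- triple transitivity
  have hmult := fun (c : ZMod p) (hc : c ≠ 0) => S.mult hab hz hz1 hΩ hA hc
  have h3s : ∀ (g : G) (x b c : Ω), x ≠ b → x ≠ c → b ≠ c → g • x = x → g • b = b → g • c = c → g = 1 := by
    intro g x b c h1 h2 h3 h4 h5 h6
    exact S.three hp h1 h2 h3 h4 h5 h6
  -- every triple can be moved to `(a, b, pt 1)`
  have hone : ∀ x y w : Ω, x ≠ y → x ≠ w → y ≠ w → ∃ g : G, g • x = a ∧ g • y = b ∧ g • w = pt z b (1 : ZMod p) := by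
    intro x y w hxy hxw hyw
    obtain ⟨g, hg1, hg2⟩ := S.two_trans hxy hab.symm
    have hga : g • w ≠ a := fun h => hxw (MulAction.injective g (hg1.trans h.symm))
    have hgb : g • w ≠ b := fun h => hyw (MulAction.injective g (hg2.trans h.symm))
    obtain ⟨c, hc⟩ := S.pt_surj hab hz hz1 hga
    have hc0 : c ≠ 0 := by
      rintro rfl
      rw [pt_zero] at hc
      exact hgb hc.symm
    obtain ⟨k, hk1, hk2⟩ := hmult c⁻¹ (inv_ne_zero hc0)
    refine ⟨k * g, by rw [mul_smul, hg1, hk1], ?_, ?_⟩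
    · rw [mul_smul, hg2]
      have := hk2 0
      rw [pt_zero, mul_zero, pt_zero] at this
      exact this
    · rw [mul_smul, ← hc, hk2, inv_mul_cancel₀ hc0]
  have h3 : ∀ x y w x' y' w' : Ω, x ≠ y → x ≠ w → y ≠ w → x' ≠ y' → x' ≠ w' → y' ≠ w' → ∃ g : G, g • x = x' ∧ g • y = y' ∧ g • w = w' := by
    intro x y w x' y' w' h1 h2 h3 h4 h5 h6
    obtain ⟨g, g1, g2, g3⟩ := hone x y w h1 h2 h3
    obtain ⟨k, k1, k2, k3⟩ := hone x' y' w' h4 h5 h6
    exact ⟨k⁻¹ * g, by rw [mul_smul, g1, ← k1, inv_smul_smul], by rw [mul_smul, g2, ← k2, inv_smul_smul], by rw [mul_smul, g3, ← k3, inv_smul_smul]⟩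
  -- the coordinates
  have hpt1a : pt z b (1 : ZMod p) ≠ a := S.pt_ne hab hz 1
  have hpt1b : b ≠ pt z b (1 : ZMod p) := by
    intro h
    have := S.pt_inj hab hz hz1 (x := (0 : ZMod p)) (y := 1) (by rw [pt_zero]; exact h)
    exact zero_ne_one this
  let ε : OnePoint (ZMod p) → Ω := fun x => OnePoint.elim x a (fun x => pt z b x)
  have hεi : ε ∞ = a := rfl
  have hεs : ∀ x : ZMod p, ε (x : OnePoint (ZMod p)) = pt z b x := fun x => rfl
  have hεbij : Function.Bijective ε := by
    constructor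
    · intro x y hxy
      induction x using OnePoint.rec with
      | infty =>
        induction y using OnePoint.rec with
        | infty => rfl
        | coe y => exact absurd hxy.symm (S.pt_ne hab hz y)
      | coe x =>
        induction y using OnePoint.rec with
        | infty => exact absurd hxy (S.pt_ne hab hz x)
        | coe y => rw [S.pt_inj hab hz hz1 hxy]
    · intro c
      by_cases hc : c = a
      · exact ⟨∞, hc.symm⟩
      · obtain ⟨x, hx⟩ := S.pt_surj hab hz hz1 hc
        exact ⟨x, hx⟩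
  let e : Ω ≃ OnePoint (ZMod p) := (Equiv.ofBijective ε hεbij).symm
  have hei : e a = ∞ := by
    rw [Equiv.symm_apply_eq]; rfl
  have hes : ∀ x : ZMod p, e (pt z b x) = (x : OnePoint (ZMod p)) := by
    intro x
    rw [Equiv.symm_apply_eq]; rfl
  have hcase : ∀ c : Ω, c = a ∨ ∃ x : ZMod p, c = pt z b x := by
    intro c
    by_cases hc : c = a
    · exact Or.inl hc
    · obtain ⟨x, hx⟩ := S.pt_surj hab hz hz1 hc
      exact Or.inr ⟨x, hx.symm⟩
  -- the stabilizer of `a`
  have hgoodA : ∀ g : G, g • a = a → Good e g := by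
    intro g hg
    obtain ⟨c, y, hc, h⟩ := S.affine hab hz hz1 hg
    obtain ⟨k, hk1, hk2⟩ := exists_affine c y hc
    refine ⟨k, ?_⟩
    intro x
    rcases hcase x with rfl | ⟨x, rfl⟩
    · rw [hg, hei, hk1]
    · rw [h, hes, hes, hk2, mul_comm]
  -- the swap
  obtain ⟨w, hw1, hw2, hw3⟩ := h3 a b (pt z b (1 : ZMod p)) b a (pt z b (1 : ZMod p)) hab.symm hpt1a.symm hpt1b hab hpt1b hpt1a.symm
  have hww : w * w = 1 := by
    apply h3s _ a b (pt z b (1 : ZMod p)) hab.symm hpt1a.symm hpt1b
    · rw [mul_smul, hw1, hw2]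
    · rw [mul_smul, hw2, hw1]
    · rw [mul_smul, hw3, hw3]
  have hww' : ∀ x : Ω, w • w • x = x := fun x => by rw [← mul_smul, hww, one_smul]
  have hwf : ∀ x : ZMod p, ∃ y : ZMod p, x ≠ 0 → y ≠ 0 ∧ w • pt z b x = pt z b y := by
    intro x
    by_cases hx : x = 0
    · exact ⟨0, fun h => absurd hx h⟩
    · have h1 : w • pt z b x ≠ a := by
        intro h
        have h2 : pt z b x = b := MulAction.injective w (h.trans hw2.symm)
        apply hx
        exact S.pt_inj hab hz hz1 (by rw [h2, pt_zero])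
      obtain ⟨y, hy⟩ := S.pt_surj hab hz hz1 h1
      refine ⟨y, fun _ => ⟨?_, hy.symm⟩⟩
      rintro rfl
      rw [pt_zero] at hy
      exact S.pt_ne hab hz x (MulAction.injective w (hy.symm.trans hw1.symm))
  choose f hf using hwf
  have hf0 : ∀ x, x ≠ 0 → f x ≠ 0 := fun x hx => (hf x hx).1
  have hfw : ∀ x, x ≠ 0 → w • pt z b x = pt z b (f x) := fun x hx => (hf x hx).2
  have hff : ∀ x, x ≠ 0 → f (f x) = x := by
    intro x hx
    apply S.pt_inj hab hz hz1
    rw [← hfw _ (hf0 x hx), ← hfw x hx, hww']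
  have hf1 : f 1 = 1 := by
    apply S.pt_inj hab hz hz1
    rw [← hfw 1 one_ne_zero, hw3]
  have hmul : ∀ x y, x ≠ 0 → y ≠ 0 → f (x * y) = f x * f y := by
    intro x y hx hy
    obtain ⟨g, hg1, hg2⟩ := hmult x hx
    have hgb : g • b = b := by
      have := hg2 0
      rwa [pt_zero, mul_zero, pt_zero] at this
    obtain ⟨g', hg1', hg2'⟩ := hmult (f x) (hf0 x hx)
    have hgb' : g' • b = b := by
      have := hg2' 0
      rwa [pt_zero, mul_zero, pt_zero] at this
    have h5 : g'⁻¹ * (w * g * w) = 1 := by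
      apply h3s _ a b (pt z b (1 : ZMod p)) hab.symm hpt1a.symm hpt1b
      · rw [mul_smul, mul_smul, mul_smul, hw1, hgb, hw2, inv_smul_eq_iff, hg1']
      · rw [mul_smul, mul_smul, mul_smul, hw2, hg1, hw1, inv_smul_eq_iff, hgb']
      · rw [mul_smul, mul_smul, mul_smul, hw3, hg2, mul_one, hfw x hx, inv_smul_eq_iff, hg2', mul_one]
    have h6 : w * g * w = g' := (inv_mul_eq_one.mp h5).symm
    have h7 : (w * g * w) • pt z b (f y) = g' • pt z b (f y) := by rw [h6]
    rw [mul_smul, mul_smul, ← hfw y hy, hww', hg2, hfw _ (mul_ne_zero hx hy), hfw y hy, hg2'] at h7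
    exact S.pt_inj hab hz hz1 h7
  -- the inversion
  have hfinv : ∀ x, x ≠ 0 → f x = x⁻¹ := by
    by_cases hp2 : p = 2
    · subst hp2
      intro x hx
      have : x = 1 := zmod_two_eq_one x hx
      rw [this, hf1, inv_one]
    have h2 : (2 : ZMod p) ≠ 0 := by
      intro h
      have h1 : ((2 : ℕ) : ZMod p) = 0 := by exact_mod_cast h
      rw [ZMod.natCast_eq_zero_iff] at h1
      have := Nat.le_of_dvd (by norm_num) h1
      have := hp.two_le
      omega
    have h11 : (1 : ZMod p) ≠ -1 := by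
      intro h
      apply h2
      have : (1 : ZMod p) + 1 = 0 := by nth_rewrite 1 [h]; ring
      rw [← this]; norm_num
    have hneg : f (-1) = -1 := by
      have h1 : f (-1) * f (-1) = 1 := by
        rw [← hmul _ _ (neg_ne_zero.mpr one_ne_zero) (neg_ne_zero.mpr one_ne_zero), neg_mul_neg, one_mul, hf1]
      rcases mul_self_eq_one_iff.mp h1 with h3 | h3
      · exfalso
        apply h11
        have h4 := hff (-1) (neg_ne_zero.mpr one_ne_zero)
        rw [h3, hf1] at h4
        exact h4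
      · exact h3
    have hE : ∀ x, x ≠ 0 → x ≠ -1 → f (1 + f x) = 1 - f (1 + x) := by
      obtain ⟨m, hm1, hm2⟩ := hmult (-1) (neg_ne_zero.mpr one_ne_zero)
      have hmb : m • b = b := by
        have := hm2 0
        rwa [pt_zero, mul_zero, pt_zero] at this
      have hz' : ∀ x : ZMod p, z • pt z b x = pt z b (x + 1) := by
        intro x
        have := S.z_pt hz (b := b) 1 x
        rwa [pow_one, Nat.cast_one] at this
      have hza : z • a = a := S.hPa z hz
      have hzb : z • b = pt z b (1 : ZMod p) := by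
        have := hz' 0
        rwa [pt_zero, zero_add] at this
      have hptm : pt z b (-1 : ZMod p) ≠ a := S.pt_ne hab hz (-1)
      have hptm' : b ≠ pt z b (-1 : ZMod p) := by
        intro h
        have := S.pt_inj hab hz hz1 (x := (0 : ZMod p)) (y := -1) (by rw [pt_zero]; exact h)
        exact neg_ne_zero.mpr one_ne_zero this.symm
      have h5 : (z * m * w * z)⁻¹ * (w * z * w) = 1 := by
        apply h3s _ a b (pt z b (-1 : ZMod p)) hab.symm hptm.symm hptm'
        · rw [mul_smul, inv_smul_eq_iff]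
          simp only [mul_smul]
          rw [hw1, hzb, hw3, hza, hw1, hmb, hzb]
        · rw [mul_smul, inv_smul_eq_iff]
          simp only [mul_smul]
          rw [hw2, hza, hw1, hzb, hw3, hm2, hz', show (-1*1+1 : ZMod p) = 0 by ring, pt_zero]
        · rw [mul_smul, inv_smul_eq_iff]
          simp only [mul_smul]
          rw [hfw _ (neg_ne_zero.mpr one_ne_zero), hneg, hz', neg_add_cancel, pt_zero, hw2, hm1, hza]
      have h6 : w * z * w = z * m * w * z := (inv_mul_eq_one.mp h5).symm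
      intro x hx hx1
      have h7 : (w * z * w) • pt z b x = (z * m * w * z) • pt z b x := by rw [h6]
      have hx2 : x + 1 ≠ 0 := fun h => hx1 (by linear_combination h)
      have hx3 : f x + 1 ≠ 0 := by
        intro h
        apply hx1
        have : f x = f (-1) := by rw [hneg]; linear_combination h
        rw [← hff x hx, this, hff _ (neg_ne_zero.mpr one_ne_zero)]
      simp only [mul_smul] at h7
      rw [hfw x hx, hz', hz', hfw _ hx3, hfw _ hx2, hm2, hz'] at h7
      have h8 := S.pt_inj hab hz hz1 h7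
      rw [add_comm 1 (f x), add_comm 1 x, h8]; ring
    intro x hx
    exact swap_inverse h2 hf0 hmul hff hneg hE hx
  have hgoodw : Good e w := by
    obtain ⟨k, hk1, hk2, hk3⟩ := exists_inversion (ZMod p)
    refine ⟨k, ?_⟩
    intro x
    rcases hcase x with rfl | ⟨x, rfl⟩
    · rw [hw1, hei, hk1, ← hes, pt_zero]
    · by_cases hx : x = 0
      · rw [hx, pt_zero, hw2, hei, ← pt_zero (z := z) (b := b) (p := p), hes, hk2]
      · rw [hfw x hx, hes, hes, hk3 x hx, hfinv x hx]
  have hgood : ∀ g : G, Good e g := by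
    intro g
    by_cases hg : g • a = a
    · exact hgoodA g hg
    · obtain ⟨u, hu, hub⟩ := S.hPt (g • a) b hg hab
      have h5 : (w * u * g) • a = a := by
        rw [mul_smul, mul_smul, hub, hw2]
      have h6 := hgoodA _ h5
      have h7 : g = u⁻¹ * (w⁻¹ * (w * u * g)) := by group
      rw [h7]
      exact (hgoodA u (S.hPa u hu)).inv.mul (hgoodw.inv.mul h6)
  exact equiv_of_good hgood h3 h3s

end PD

end CfsgLib.PpOne20
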