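import Cfsg.Agent.LibPpOneB20
import Cfsg.Agent.LibZas11c

set_option autoImplicit false
set_option linter.all false
set_option maxHeartbeats 1000000

/-! # Transitive groups of degree `p + 1` and small order (helper20), the affine case -/

namespace CfsgLib.PpOne20

open MulAction

universe u v

variable {G : Type u} [Group G] [Finite G] {Ω : Type v} [Fintype Ω] [MulAction G Ω]

theorem comm_of_sq {G : Type u} [Group G] {x y : G} (h1 : x * y * (x * y) = 1) (h2 : x * x = 1) (h3 : y * y = 1) : x * y = y * x := by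
  have h4 : x * y = (x * y)⁻¹ := eq_inv_of_mul_eq_one_left h1
  rw [mul_inv_rev, ← eq_inv_of_mul_eq_one_left h2, ← eq_inv_of_mul_eq_one_left h3] at h4
  exact h4

/-- coordinates -/
structure Aff (G : Type u) [Group G] {Ω : Type v} [MulAction G Ω] (a : Ω) (P : Subgroup G) (K : Type) [Field K] (pt : K ≃ Ω) (tr : K → G) : Prop where
  h0 : pt 0 = a
  htr : ∀ x y, tr x • pt y = pt (x + y)
  hconj : ∀ g x, ∃ y, g * tr x * g⁻¹ = tr y
  hmul : ∀ m : K, m ≠ 0 → ∃ u ∈ P, ∀ x, u • pt x = pt (m * x)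
  hmul' : ∀ u ∈ P, ∃ m : K, m ≠ 0 ∧ ∀ x, u • pt x = pt (m * x)

theorem exists_aff {a : Ω} {P : Subgroup G} {p : ℕ} (hp : p.Prime) (S : PD a P p) (hΩ : Fintype.card Ω = p + 1) (hp2 : p ≠ 2)
    (N : Subgroup G) [hN : N.Normal] (hNt : ∀ x, ∃ n ∈ N, n • a = x) (hNf : ∀ n ∈ N, n • a = a → n = 1) :
    ∃ q : ℕ, q.Prime ∧ p + 1 = 2 ^ q ∧ ∃ (K : Type) (_ : Field K) (_ : Fintype K) (pt : K ≃ Ω) (tr : K → G), Fintype.card K = 2 ^ q ∧ Aff G a P K pt tr := by
  classical
  have hinj : ∀ n ∈ N, ∀ n' ∈ N, n • a = n' • a → n = n' := by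
    intro n hn n' hn' h
    have h1 : n'⁻¹ * n = 1 := hNf _ (N.mul_mem (N.inv_mem hn') hn) (by rw [mul_smul, h, inv_smul_smul])
    exact (inv_mul_eq_one.mp h1).symm
  have hNc : Nat.card N = p + 1 := by
    rw [← hΩ, ← Nat.card_eq_fintype_card]
    refine Nat.card_congr (Equiv.ofBijective (fun n : N => (n : G) • a) ⟨?_, ?_⟩)
    · rintro ⟨n, hn⟩ ⟨n', hn'⟩ h
      exact Subtype.ext (hinj n hn n' hn' h)
    · intro x
      obtain ⟨n, hn, h⟩ := hNt x
      exact ⟨⟨n, hn⟩, h⟩
  have hconjP : ∀ u ∈ P, ∀ n ∈ N, (u * n * u⁻¹) • a = u • n • a := by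
    intro u hu n hn
    rw [mul_smul, mul_smul, inv_smul_eq_iff.mpr (S.hPa u hu).symm]
  have hreg : ∀ n ∈ N, ∀ n' ∈ N, n ≠ 1 → n' ≠ 1 → ∃ u ∈ P, u * n * u⁻¹ = n' := by
    intro n hn n' hn' h h'
    obtain ⟨u, hu, hu2⟩ := S.hPt (n • a) (n' • a) (fun h1 => h (hNf n hn h1)) (fun h1 => h' (hNf n' hn' h1))
    refine ⟨u, hu, hinj _ (hN.conj_mem n hn u) _ hn' ?_⟩
    rw [hconjP u hu n hn, hu2]
  have hsq : ∀ n ∈ N, n * n = 1 := by
    haveI := Fact.mk Nat.prime_two
    obtain ⟨t, ht⟩ := exists_prime_orderOf_dvd_card' (G := N) 2 (by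
      rw [hNc]
      have := hp.eq_two_or_odd
      omega)
    have ht1 : (t : G) ≠ 1 := by
      intro h
      have : t = 1 := Subtype.ext h
      rw [this, orderOf_one] at ht
      omega
    have ht2 : (t : G) * t = 1 := by
      have := pow_orderOf_eq_one t
      rw [ht, pow_two] at this
      exact congrArg Subtype.val this
    intro n hn
    by_cases hn1 : n = 1
    · rw [hn1, one_mul]
    · obtain ⟨u, hu, rfl⟩ := hreg t t.2 n hn ht1 hn1
      rw [show u * (t : G) * u⁻¹ * (u * t * u⁻¹) = u * (t * t) * u⁻¹ by group, ht2]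
      group
  have hcom : ∀ x y : N, x * y = y * x := by
    intro x y
    apply Subtype.ext
    show (x : G) * y = y * x
    have h1 := hsq _ (x * y).2
    have h2 := hsq _ x.2
    have h3 := hsq _ y.2
    have h1' : (x : G) * y * (x * y) = 1 := h1
    exact comm_of_sq h1' h2 h3
  letI : CommGroup N := { (inferInstance : Group N) with mul_comm := hcom }
  haveI : Nontrivial N := by
    apply (Finite.one_lt_card_iff_nontrivial).mp
    rw [hNc]
    have := hp.two_le
    omega
  obtain ⟨ρ, hρ⟩ : ∃ ρ : P →* AddMonoid.End (Additive N), ∀ (u : P) (n : N), ρ u (Additive.ofMul n) =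
      Additive.ofMul (⟨u * n * (u : G)⁻¹, hN.conj_mem n n.2 u⟩ : N) := by
    refine ⟨{ toFun := fun u => ?_, map_one' := ?_, map_mul' := ?_ }, ?_⟩
    · exact { toFun := fun n => Additive.ofMul (⟨u * (Additive.toMul n : N) * (u : G)⁻¹, hN.conj_mem _ (Additive.toMul n : N).2 u⟩ : N)
              map_zero' := by
                apply Additive.toMul.injective
                apply Subtype.ext
                show (u : G) * 1 * (u : G)⁻¹ = 1
                group
              map_add' := by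
                intro x y
                apply Additive.toMul.injective
                apply Subtype.ext
                show (u : G) * ((Additive.toMul x : N) * (Additive.toMul y : N) : G) * (u : G)⁻¹ =
                  ((u : G) * (Additive.toMul x : N) * (u : G)⁻¹) * ((u : G) * (Additive.toMul y : N) * (u : G)⁻¹)
                group }
    · ext n
      show (1 : G) * (Additive.toMul n : N) * (1 : G)⁻¹ = (Additive.toMul n : N)
      group
    · intro u u'
      ext n
      show (u * u' : G) * (Additive.toMul n : N) * (u * u' : G)⁻¹ = (u : G) * ((u' : G) * (Additive.toMul n : N) * (u' : G)⁻¹) * (u : G)⁻¹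
      group
    · intro u n
      rfl
  haveI := Fact.mk hp
  haveI hcyc : IsCyclic P := isCyclic_of_prime_card S.hPc
  obtain ⟨F, _, _, _, e, he⟩ := CfsgLib.Zas11.exists_field (V := Additive N) (D := P) ρ
    (fun x y => by
      letI := hcyc.commGroup
      exact mul_comm x y)
    (by
      intro u hu v hv
      obtain ⟨n, rfl⟩ := Additive.ofMul.surjective v
      rw [hρ] at hv
      have h1 := congrArg Subtype.val (Additive.ofMul.injective hv)
      have h2 : (u : G) • (n : G) • a = (n : G) • a := by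
        rw [← hconjP u u.2 n n.2]
        exact congrArg (fun g : G => g • a) h1
      have h3 : (n : G) • a = a := S.hPf u u.2 (fun h => hu (Subtype.ext h)) _ h2
      have h4 : n = 1 := Subtype.ext (hNf n n.2 h3)
      rw [h4]; rfl)
    (by
      rw [Nat.card_congr (Additive.toMul (α := N)), hNc, S.hPc]
      omega)
  have hFc : Fintype.card F = p + 1 := by
    rw [← Nat.card_eq_fintype_card, Nat.card_congr e.toEquiv, Nat.card_congr (Additive.toMul (α := N)), hNc]
  obtain ⟨r, _, k, hr, hk⟩ := FiniteField.card' F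
  rw [hFc] at hk
  have hk1 : (k : ℕ) ≠ 1 := by
    intro h
    rw [h, pow_one] at hk
    have h1 := hp.eq_two_or_odd
    have h2 := hr.eq_two_or_odd
    have h3 := hp.two_le
    omega
  have h1 : (r ^ (k : ℕ) - 1).Prime := by rw [← hk, Nat.add_sub_cancel]; exact hp
  obtain ⟨h2, h3⟩ := Nat.prime_of_pow_sub_one_prime hk1 h1
  rw [h2] at hk
  refine ⟨k, h3, hk, F, inferInstance, inferInstance, ?_⟩
  obtain ⟨tr, htrdef⟩ : ∃ tr : F → G, ∀ x, tr x = ((Additive.toMul (e x) : N) : G) := ⟨_, fun x => rfl⟩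
  have htrN : ∀ x, tr x ∈ N := fun x => by rw [htrdef]; exact (Additive.toMul (e x) : N).2
  have htradd : ∀ x y, tr (x + y) = tr x * tr y := by
    intro x y
    rw [htrdef, htrdef, htrdef, map_add]; rfl
  have htrz : tr 0 = 1 := by
    rw [htrdef, map_zero]; rfl
  have htrinj : ∀ x y, tr x = tr y → x = y := by
    intro x y h
    rw [htrdef, htrdef] at h
    exact e.injective (Additive.toMul.injective (Subtype.ext h))
  have htrsurj : ∀ n ∈ N, ∃ x, tr x = n := by
    intro n hn
    obtain ⟨x, hx⟩ := e.surjective (Additive.ofMul (⟨n, hn⟩ : N))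
    exact ⟨x, by rw [htrdef, hx]; rfl⟩
  have hbij : Function.Bijective (fun x : F => tr x • a) := by
    constructor
    · intro x y h
      exact htrinj x y (hinj _ (htrN x) _ (htrN y) h)
    · intro ω
      obtain ⟨n, hn, h⟩ := hNt ω
      obtain ⟨x, hx⟩ := htrsurj n hn
      exact ⟨x, by rw [← h, ← hx]⟩
  have hmul' : ∀ u ∈ P, ∃ m : F, m ≠ 0 ∧ ∀ x, u • tr x • a = tr (m * x) • a := by
    intro u hu
    obtain ⟨m, hm⟩ := he ⟨u, hu⟩
    have h4 : ∀ x, u * tr x * u⁻¹ = tr (m * x) := by
      intro x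
      rw [htrdef, htrdef, ← hm x]
      have h5 := hρ ⟨u, hu⟩ (Additive.toMul (e x) : N)
      rw [ofMul_toMul] at h5
      rw [h5]; rfl
    refine ⟨m, ?_, ?_⟩
    · rintro rfl
      have h5 := h4 1
      rw [zero_mul, htrz] at h5
      have h6 : tr 1 = 1 := by
        have : u * tr 1 = u := mul_inv_eq_one.mp h5
        exact mul_eq_left.mp this
      rw [← htrz] at h6
      exact one_ne_zero (htrinj _ _ h6)
    · intro x
      rw [← h4 x, hconjP u hu _ (htrN x)]
  refine ⟨Equiv.ofBijective _ hbij, tr, by rw [hFc]; exact hk, ?_, ?_, ?_, ?_, ?_⟩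
  · show tr 0 • a = a
    rw [htrz, one_smul]
  · intro x y
    show tr x • tr y • a = tr (x + y) • a
    rw [htradd, mul_smul]
  · intro g x
    obtain ⟨y, hy⟩ := htrsurj _ (hN.conj_mem _ (htrN x) g)
    exact ⟨y, hy.symm⟩
  · intro m hm
    have hne : ∀ x : F, x ≠ 0 → tr x • a ≠ a := by
      intro x hx h
      have := hNf _ (htrN x) h
      rw [← htrz] at this
      exact hx (htrinj _ _ this)
    obtain ⟨u, hu, hu2⟩ := S.hPt _ _ (hne 1 one_ne_zero) (hne m hm)
    obtain ⟨m', -, hm'⟩ := hmul' u hu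
    have h5 : m' = m := by
      have h6 := hm' 1
      rw [hu2, mul_one] at h6
      exact (hbij.1 h6).symm
    refine ⟨u, hu, ?_⟩
    rw [← h5]
    exact hm'
  · exact hmul'

/-- ring automorphisms of a finite field form a group of order `f` -/
theorem ringAut_card {F : Type*} [Field F] [Finite F] (p f : ℕ) [Fact p.Prime] (hF : Nat.card F = p ^ f) :
    Nat.card (F ≃+* F) = f := by
  letI := Fintype.ofFinite F
  have hF' : Fintype.card F = p ^ f := by rw [← Nat.card_eq_fintype_card, hF]
  haveI : CharP F p := charP_of_card_eq_prime_pow hF'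
  letI : Algebra (ZMod p) F := ZMod.algebra F p
  have hfr : Module.finrank (ZMod p) F = f := by
    have h1 := Module.card_eq_pow_finrank (K := ZMod p) (V := F)
    rw [hF', ZMod.card] at h1
    exact (Nat.pow_right_injective (Fact.out : p.Prime).two_le h1).symm
  have E : (F ≃ₐ[ZMod p] F) ≃ (F ≃+* F) :=
    { toFun := fun σ => σ.toRingEquiv
      invFun := fun σ => AlgEquiv.ofRingEquiv (f := σ) (fun x => by
        have : (σ : F →+* F).comp (algebraMap (ZMod p) F) = algebraMap (ZMod p) F := Subsingleton.elim _ _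
        exact congrArg (fun g : ZMod p →+* F => g x) this)
      left_inv := fun σ => rfl
      right_inv := fun σ => rfl }
  rw [← Nat.card_congr E, ← Nat.card_congr (Equiv.ofBijective _ (FiniteField.bijective_frobeniusAlgEquivOfAlgebraic_pow (ZMod p) F)),
    Nat.card_eq_fintype_card, Fintype.card_fin, hfr]

section
variable {a : Ω} {P : Subgroup G} {p : ℕ} {K : Type} [Field K] [Fintype K] {pt : K ≃ Ω} {tr : K → G}

theorem Aff.semi (S : PD a P p) (A : Aff G a P K pt tr) (g : G) : ∃ (c : Kˣ) (b : K) (φ : K ≃+* K), ∀ x, g • pt x = pt (c * φ x + b) := by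
  classical
  obtain ⟨b, hb⟩ : ∃ b, pt b = g • a := pt.surjective _
  obtain ⟨g₀, hg₀⟩ : ∃ g₀ : G, g₀ = (tr b)⁻¹ * g := ⟨_, rfl⟩
  have hg : g = tr b * g₀ := by rw [hg₀]; group
  have hga : g₀ • a = a := by
    rw [hg₀, mul_smul, inv_smul_eq_iff, ← hb]
    conv_rhs => rw [← A.h0]
    rw [A.htr, add_zero]
  obtain ⟨c, hc⟩ : ∃ c : K → K, ∀ x, g₀ • pt x = pt (c x) := ⟨fun x => pt.symm (g₀ • pt x), fun x => (pt.apply_symm_apply _).symm⟩
  have hcz : c 0 = 0 := by
    apply pt.injective
    rw [← hc, A.h0, hga]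
  have hcinj : ∀ x y, c x = c y → x = y := by
    intro x y h
    apply pt.injective
    apply MulAction.injective g₀
    show g₀ • pt x = g₀ • pt y
    rw [hc, hc, h]
  have hcadd : ∀ x y, c (x + y) = c x + c y := by
    intro x
    obtain ⟨x', hx'⟩ := A.hconj g₀ x
    have h1 : ∀ y, c (x + y) = x' + c y := by
      intro y
      apply pt.injective
      rw [← hc, ← A.htr, ← A.htr, ← hc, ← hx', ← mul_smul, ← mul_smul]
      congr 1
      group
    have h2 : c x = x' := by
      have := h1 0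
      rwa [add_zero, hcz, add_zero] at this
    intro y
    rw [h1, h2]
  have hcmul : ∀ m x, c (m * x) * c 1 = c m * c x := by
    intro m x
    by_cases hm : m = 0
    · rw [hm, zero_mul, hcz, zero_mul, zero_mul]
    obtain ⟨u, hu, hum⟩ := A.hmul m hm
    obtain ⟨m', -, hm'⟩ := A.hmul' _ (S.hPn g₀ hga u hu)
    have h1 : ∀ y, c (m * y) = m' * c y := by
      intro y
      apply pt.injective
      rw [← hc, ← hum, ← hm', ← hc, ← mul_smul, ← mul_smul]
      congr 1
      group
    have h2 := h1 1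
    rw [mul_one] at h2
    rw [h1, h2]; ring
  have hc1 : c 1 ≠ 0 := by
    intro h
    rw [← hcz] at h
    exact one_ne_zero (hcinj _ _ h)
  obtain ⟨φ, hφ⟩ : ∃ φ : K →+* K, ∀ x, φ x = c x / c 1 := by
    refine ⟨{ toFun := fun x => c x / c 1, map_one' := div_self hc1, map_zero' := by rw [hcz, zero_div], map_add' := ?_, map_mul' := ?_ }, fun x => rfl⟩
    · intro x y
      rw [div_mul_div_comm, div_eq_div_iff hc1 (mul_ne_zero hc1 hc1), ← mul_assoc, hcmul]
    · intro x y
      rw [hcadd, add_div]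
  refine ⟨Units.mk0 (c 1) hc1, b, RingEquiv.ofBijective φ ⟨φ.injective, Finite.surjective_of_injective φ.injective⟩, ?_⟩
  intro x
  have h1 : ((Units.mk0 (c 1) hc1 : Kˣ) : K) * (RingEquiv.ofBijective φ ⟨φ.injective, Finite.surjective_of_injective φ.injective⟩) x = c x := by
    show c 1 * φ x = c x
    rw [hφ, mul_div_cancel₀ _ hc1]
  rw [h1, hg, mul_smul, hc, A.htr, add_comm]

theorem Aff.dvd [FaithfulSMul G Ω] (hp : p.Prime) (hΩ : Fintype.card Ω = p + 1) (S : PD a P p) (A : Aff G a P K pt tr) {q d : ℕ} (hK : Fintype.card K = 2 ^ q)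
    (hA : Nat.card (stabilizer G a) = p * d) : d ∣ q := by
  classical
  have hab : pt 1 ≠ a := by
    intro h
    rw [← A.h0] at h
    exact one_ne_zero (pt.injective h)
  rw [← card_D (d := d) S hab hΩ hA hp.pos, ← ringAut_card 2 q (F := K) (by rw [Nat.card_eq_fintype_card, hK])]
  haveI : Finite (K ≃+* K) := Finite.of_injective (fun f : K ≃+* K => (f : K → K)) DFunLike.coe_injective
  have h1 : ∀ g : stabilizer (stabilizer G a) (pt 1), ∃ φ : K ≃+* K, ∀ x, ((g : stabilizer G a) : G) • pt x = pt (φ x) := by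
    intro g
    obtain ⟨c, b, φ, h⟩ := A.semi S ((g : stabilizer G a) : G)
    have h2 := h 0
    rw [map_zero φ, mul_zero, zero_add, A.h0, (g : stabilizer G a).2, ← A.h0] at h2
    have h3 : b = 0 := (pt.injective h2).symm
    have h4 := h 1
    rw [h3, map_one φ, mul_one, add_zero] at h4
    have h5 : ((g : stabilizer G a) : G) • pt 1 = pt 1 := g.2
    have h6 : (c : K) = 1 := (pt.injective (h5.symm.trans h4)).symm
    refine ⟨φ, fun x => ?_⟩
    rw [h, h6, h3, one_mul, add_zero]
  choose f hf using h1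
  have hfx : ∀ g g' x, f (g * g') x = f g (f g' x) := by
    intro g g' x
    apply pt.injective
    rw [← hf, ← hf, ← hf, ← mul_smul]; rfl
  have hf' : Function.Injective (MonoidHom.mk' f (fun g g' => by ext x; exact hfx g g' x)) := by
    intro g g' h
    have h2 : f g = f g' := h
    apply Subtype.ext
    apply Subtype.ext
    apply FaithfulSMul.eq_of_smul_eq_smul (M := G) (α := Ω)
    intro ω
    obtain ⟨x, rfl⟩ := pt.surjective ω
    rw [hf, hf, h2]
  exact Subgroup.card_dvd_of_injective _ hf'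

end

theorem affine_final {α : Type v} [Fintype α] {K : Type} [Field K] [Fintype K] {q : ℕ} (hq : q.Prime) (hK : Fintype.card K = 2 ^ q) (pt : K ≃ α)
    (G : Subgroup (Equiv.Perm α)) (h : ∀ g : G, ∃ (c : Kˣ) (b : K) (φ : K ≃+* K), ∀ x, (g : Equiv.Perm α) (pt x) = pt (c * φ x + b)) :
    ∃ e : α ≃ GaloisField 2 q, ∀ g : G, (e.symm.trans (((g : Equiv.Perm α)).trans e)) ∈ Cfsg.semiaffineGroup (GaloisField 2 q) := by
  classical
  letI : Fintype (GaloisField 2 q) := Fintype.ofFinite _
  have h1 : Fintype.card (GaloisField 2 q) = 2 ^ q := by rw [← Nat.card_eq_fintype_card, GaloisField.card 2 q hq.ne_zero]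
  have σ : K ≃+* GaloisField 2 q := FiniteField.ringEquivOfCardEq (hK.trans h1.symm)
  refine ⟨pt.symm.trans σ.toEquiv, ?_⟩
  intro g
  obtain ⟨c, b, φ, hφ⟩ := h g
  refine ⟨Units.map (σ : K →* GaloisField 2 q) c, σ b, (σ.symm.trans φ).trans σ, ?_⟩
  intro x
  show σ (pt.symm ((g : Equiv.Perm α) (pt (σ.symm x)))) = σ (c : K) * σ (φ (σ.symm x)) + σ b
  rw [hφ, pt.symm_apply_apply, map_add, map_mul]

end CfsgLib.PpOne20
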