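import Mathlib
import Cfsg.Agent.EqBase
import Cfsg.Agent.LibExtend
import Cfsg.Agent.LibClifford2
import Cfsg.Agent.LibCharMore

/-!
# Primitive linear groups of degree two (helper17)
-/

set_option autoImplicit false
set_option linter.unusedSectionVars false
set_option linter.style.haveILetI false
set_option linter.unusedVariables false

namespace CfsgLib.PrTwo

open Cfsg CfsgLib.CharBasic CfsgLib.Clifford CfsgLib.Extend CfsgLib.CharIndA CfsgLib.CharNorm
  CfsgLib.CharMore
open scoped ComplexConjugate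

universe u

section arith

theorem arith_sorted {N e1 e2 e3 n1 n2 n3 : ℕ} (h1 : N = e1 * n1) (h2 : N = e2 * n2) (h3 : N = e3 * n3)
    (he1 : 2 ≤ e1) (hn3 : 3 ≤ n3) (h12 : n2 ≤ n1) (h23 : n3 ≤ n2) (hs : N + 2 = n1 + n2 + n3) :
    N = 12 ∨ N = 24 ∨ N = 60 := by
  have ha : e1 < 3 := by
    by_contra h
    push Not at h
    have : 3 * n1 ≤ e1 * n1 := Nat.mul_le_mul_right _ h
    omega
  have he : e1 = 2 := by omega
  subst he
  have hb : e2 < 4 := by
    by_contra h
    push Not at h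
    have : 4 * n2 ≤ e2 * n2 := Nat.mul_le_mul_right _ h
    omega
  interval_cases e2
  · omega
  · omega
  · omega
  · -- e2 = 3
    have hc : e3 < 6 := by
      by_contra h
      push Not at h
      have : 6 * n3 ≤ e3 * n3 := Nat.mul_le_mul_right _ h
      omega
    interval_cases e3 <;> omega

theorem arith {N e1 e2 e3 n1 n2 n3 : ℕ} (h1 : N = e1 * n1) (h2 : N = e2 * n2) (h3 : N = e3 * n3)
    (he1 : 2 ≤ e1) (he2 : 2 ≤ e2) (he3 : 2 ≤ e3) (hn1 : 3 ≤ n1) (hn2 : 3 ≤ n2) (hn3 : 3 ≤ n3)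
    (hs : N + 2 = n1 + n2 + n3) : N = 12 ∨ N = 24 ∨ N = 60 := by
  rcases le_total n1 n2 with a | a <;> rcases le_total n2 n3 with b | b <;> rcases le_total n1 n3 with c | c
  · exact arith_sorted h3 h2 h1 he3 hn1 b a (by omega)
  · exact arith_sorted h3 h2 h1 he3 hn1 b a (by omega)
  · exact arith_sorted h2 h3 h1 he2 hn1 b c (by omega)
  · exact arith_sorted h2 h1 h3 he2 hn3 a c (by omega)
  · exact arith_sorted h3 h1 h2 he3 hn2 c a (by omega)
  · exact arith_sorted h1 h3 h2 he1 hn2 c b (by omega)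
  · exact arith_sorted h1 h2 h3 he1 hn3 a b (by omega)
  · exact arith_sorted h1 h2 h3 he1 hn3 a b (by omega)

theorem count {ι : Type*} [Fintype ι] {N : ℕ} (e n : ι → ℕ) (hN : 2 ≤ N) (h1 : ∀ i, N = e i * n i)
    (he : ∀ i, 2 ≤ e i) (hn : ∀ i, 3 ≤ n i) (hs : ∑ i, n i + 2 * (N - 1) = Fintype.card ι * N) :
    N = 12 ∨ N = 24 ∨ N = 60 := by
  classical
  have h2 : 2 * ∑ i, n i ≤ Fintype.card ι * N := by
    rw [Finset.mul_sum]
    have : ∑ i : ι, 2 * n i ≤ ∑ i : ι, N := Finset.sum_le_sum fun i _ => by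
      rw [h1 i]; exact Nat.mul_le_mul_right _ (he i)
    rw [Finset.sum_const, Finset.card_univ, smul_eq_mul] at this
    exact this
  have h3 : Fintype.card ι * 3 ≤ ∑ i, n i := by
    have : ∑ i : ι, 3 ≤ ∑ i : ι, n i := Finset.sum_le_sum fun i _ => hn i
    rw [Finset.sum_const, Finset.card_univ, smul_eq_mul] at this
    exact this
  set r := Fintype.card ι with hr
  have h4 : r < 4 := by
    by_contra h
    push Not at h
    have : 4 * N ≤ r * N := Nat.mul_le_mul_right _ h
    omega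
  have h5 : 2 < r := by
    by_contra h
    push Not at h
    interval_cases r <;> omega
  have h6 : r = 3 := by omega
  have h7 : (Finset.univ : Finset ι).card = 3 := by rw [Finset.card_univ, ← hr, h6]
  obtain ⟨x, y, z, hxy, hxz, hyz, hu⟩ := Finset.card_eq_three.1 h7
  have h8 : ∑ i, n i = n x + n y + n z := by
    rw [hu, Finset.sum_insert (by simp [hxy, hxz]), Finset.sum_insert (by simp [hyz]),
      Finset.sum_singleton]
    ring
  rw [h8, h6] at hs
  exact arith (h1 x) (h1 y) (h1 z) (he x) (he y) (he z) (hn x) (hn y) (hn z) (by omega)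

end arith

section lines
variable {G : Type u} [Group G] {V : Type*} [AddCommGroup V] [Module ℂ V] [FiniteDimensional ℂ V]
  (ρ : Representation ℂ G V)

theorem map_mul_map (g h : G) (L : Submodule ℂ V) : (L.map (ρ h)).map (ρ g) = L.map (ρ (g * h)) := by
  rw [← Submodule.map_comp, map_mul]; rfl

theorem map_one_map (L : Submodule ℂ V) : L.map (ρ 1) = L := by
  rw [map_one]; exact Submodule.map_id L

theorem finrank_map (g : G) (L : Submodule ℂ V) :
    Module.finrank ℂ (L.map (ρ g)) = Module.finrank ℂ L := by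
  apply le_antisymm (Submodule.finrank_map_le _ _)
  have h1 : (L.map (ρ g)).map (ρ g⁻¹) = L := by
    rw [map_mul_map, inv_mul_cancel, map_one_map]
  calc Module.finrank ℂ L = Module.finrank ℂ ((L.map (ρ g)).map (ρ g⁻¹)) := by rw [h1]
    _ ≤ _ := Submodule.finrank_map_le _ _

/-- lines fixed by a non-central element -/
def Ln : Type _ := {L : Submodule ℂ V // Module.finrank ℂ L = 1 ∧ ∃ g, g ∉ Subgroup.center G ∧ L.map (ρ g) = L}

noncomputable instance : MulAction G (Ln ρ) where
  smul g L := ⟨L.1.map (ρ g), by rw [finrank_map]; exact L.2.1, by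
    obtain ⟨h, hh, hL⟩ := L.2.2
    refine ⟨g * h * g⁻¹, fun hc => hh ?_, ?_⟩
    · have := (Subgroup.Normal.conj_mem inferInstance _ hc g⁻¹)
      have h2 : g⁻¹ * (g * h * g⁻¹) * g⁻¹⁻¹ = h := by group
      rwa [h2] at this
    · rw [map_mul_map]
      have h2 : g * h * g⁻¹ * g = g * h := by group
      rw [h2, ← map_mul_map, hL]⟩
  one_smul L := Subtype.ext (map_one_map ρ L.1)
  mul_smul g h L := Subtype.ext (map_mul_map ρ g h L.1).symm

theorem smul_val (g : G) (L : Ln ρ) : (g • L).1 = L.1.map (ρ g) := rfl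

variable {ρ}

/-- invariant lines of a diagonal element with distinct eigenvalues -/
theorem inv_lines {g : G} (b : Module.Basis (Fin 2) ℂ V) {a : Fin 2 → ℂ} (ha : ∀ i, ρ g (b i) = a i • b i)
    (hne : a 0 ≠ a 1) {L : Submodule ℂ V} (hL : Module.finrank ℂ L = 1) (hgL : L.map (ρ g) = L) :
    L = Submodule.span ℂ {b 0} ∨ L = Submodule.span ℂ {b 1} := by
  obtain ⟨⟨v, hv⟩, hv0, hspan⟩ := finrank_eq_one_iff'.1 hL
  have hv0' : v ≠ 0 := fun h => hv0 (Subtype.ext h)
  have hLs : L = Submodule.span ℂ {v} := by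
    apply le_antisymm
    · intro w hw
      obtain ⟨c, hc⟩ := hspan ⟨w, hw⟩
      rw [Submodule.mem_span_singleton]
      exact ⟨c, congrArg Subtype.val hc⟩
    · rw [Submodule.span_singleton_le_iff_mem]; exact hv
  have h1 : ρ g v ∈ L := by
    rw [← hgL]; exact Submodule.mem_map_of_mem hv
  rw [hLs, Submodule.mem_span_singleton] at h1
  obtain ⟨c, hc⟩ := h1
  have hv2 : v = b.repr v 0 • b 0 + b.repr v 1 • b 1 := by
    conv_lhs => rw [← b.sum_repr v, Fin.sum_univ_two]
  have h2 : ρ g v = (b.repr v 0 * a 0) • b 0 + (b.repr v 1 * a 1) • b 1 := by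
    conv_lhs => rw [hv2]
    rw [map_add, map_smul, map_smul, ha, ha, smul_smul, smul_smul]
  have h3 : c • v = (c * b.repr v 0) • b 0 + (c * b.repr v 1) • b 1 := by
    conv_lhs => rw [hv2]
    rw [smul_add, smul_smul, smul_smul]
  have hrepr : ∀ x y : ℂ, b.repr (x • b 0 + y • b 1) 0 = x ∧ b.repr (x • b 0 + y • b 1) 1 = y := by
    intro x y
    constructor
    · simp
    · simp
  have h4 := hrepr (b.repr v 0 * a 0) (b.repr v 1 * a 1)
  have h5 := hrepr (c * b.repr v 0) (c * b.repr v 1)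
  rw [← h2, ← hc] at h4
  rw [← h3] at h5
  have h6 : c * b.repr v 0 = b.repr v 0 * a 0 := by rw [← h5.1, h4.1]
  have h7 : c * b.repr v 1 = b.repr v 1 * a 1 := by rw [← h5.2, h4.2]
  by_cases h8 : b.repr v 0 = 0
  · right
    have h9 : b.repr v 1 ≠ 0 := by
      intro h9
      rw [h8, h9, zero_smul, zero_smul, add_zero] at hv2
      exact hv0' hv2
    rw [hLs, hv2, h8, zero_smul, zero_add]
    exact Submodule.span_singleton_smul_eq (IsUnit.mk0 _ h9) _
  · left
    have h9 : b.repr v 1 = 0 := by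
      by_contra h9
      apply hne
      have h10 : c = a 0 := by
        apply mul_left_cancel₀ h8
        rw [← h6]; ring
      have h11 : c = a 1 := by
        apply mul_left_cancel₀ h9
        rw [← h7]; ring
      rw [← h10, h11]
    rw [hLs, hv2, h9, zero_smul, add_zero]
    exact Submodule.span_singleton_smul_eq (IsUnit.mk0 _ h8) _

theorem span_map {g : G} {v : V} {a : ℂ} (ha : ρ g v = a • v) (ha0 : a ≠ 0) :
    (Submodule.span ℂ {v}).map (ρ g) = Submodule.span ℂ {v} := by
  rw [Submodule.map_span, Set.image_singleton, ha]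
  exact Submodule.span_singleton_smul_eq (IsUnit.mk0 _ ha0) _

end lines

section main
variable {G : Type u} [Group G] [Fintype G] {V : Type*} [AddCommGroup V] [Module ℂ V]
  [FiniteDimensional ℂ V] (ρ : Representation ℂ G V) (h2 : Module.finrank ℂ V = 2)
  (hf : ∀ g : G, ρ g = LinearMap.id → g = 1)

include hf in
theorem inj {g h : G} (he : ρ g = ρ h) : g = h := by
  have h1 : ρ (g * h⁻¹) = LinearMap.id := by
    rw [map_mul, he, ← map_mul, mul_inv_cancel, map_one]; rfl
  exact mul_inv_eq_one.1 (hf _ h1)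

include h2 hf in
theorem exists_eig {g : G} (hg : g ∉ Subgroup.center G) : ∃ (b : Module.Basis (Fin 2) ℂ V) (a : Fin 2 → ℂ),
    (∀ i, ρ g (b i) = a i • b i) ∧ a 0 ≠ a 1 ∧ ∀ i, a i ≠ 0 := by
  obtain ⟨b, ω, hω, hb⟩ := exists_diag_rep ρ g
  let e : Fin (Module.finrank ℂ V) ≃ Fin 2 := finCongr h2
  have hb' : ∀ i, ρ g ((b.reindex e) i) = ω (e.symm i) • (b.reindex e) i := by
    intro i
    rw [Module.Basis.reindex_apply]; exact hb _
  refine ⟨b.reindex e, fun i => ω (e.symm i), hb', ?_, ?_⟩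
  · intro h
    apply hg
    have h3 : ρ g = ω (e.symm 0) • LinearMap.id := by
      apply (b.reindex e).ext
      intro i
      rw [hb', LinearMap.smul_apply, LinearMap.id_apply]
      fin_cases i
      · rfl
      · show ω (e.symm 1) • _ = ω (e.symm 0) • _
        have h' : ω (e.symm 0) = ω (e.symm 1) := h
        rw [h']
    rw [Subgroup.mem_center_iff]
    intro x
    apply inj ρ hf
    rw [map_mul, map_mul, h3]
    ext v
    simp
  · intro i h
    have := hω (e.symm i)
    have h3 : orderOf g ≠ 0 := (orderOf_pos g).ne'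
    have h4 : ω (e.symm i) = 0 := h
    rw [h4, zero_pow h3] at this
    exact zero_ne_one this

theorem span_ne (b : Module.Basis (Fin 2) ℂ V) : Submodule.span ℂ {b 0} ≠ Submodule.span ℂ {b 1} := by
  intro h
  have h1 : b 0 ∈ Submodule.span ℂ {b 1} := by rw [← h]; exact Submodule.mem_span_singleton_self _
  obtain ⟨c, hc⟩ := Submodule.mem_span_singleton.1 h1
  have h3 := congrArg (fun v => b.repr v 0) hc
  simp at h3

theorem finrank_span_b (b : Module.Basis (Fin 2) ℂ V) (i : Fin 2) :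
    Module.finrank ℂ (Submodule.span ℂ {b i}) = 1 := finrank_span_singleton (b.ne_zero i)

include h2 hf in
theorem finite_Ln : Finite (Ln ρ) := by
  have h1 : ∀ g : G, g ∉ Subgroup.center G →
      {L : Submodule ℂ V | Module.finrank ℂ L = 1 ∧ L.map (ρ g) = L}.Finite := by
    intro g hg
    obtain ⟨b, a, ha, hne, -⟩ := exists_eig ρ h2 hf hg
    apply Set.Finite.subset (Set.toFinite {Submodule.span ℂ {b 0}, Submodule.span ℂ {b 1}})
    rintro L ⟨hL1, hL2⟩
    exact inv_lines b ha hne hL1 hL2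
  have h3 : {L : Submodule ℂ V | Module.finrank ℂ L = 1 ∧ ∃ g, g ∉ Subgroup.center G ∧ L.map (ρ g) = L}.Finite := by
    have h4 : (⋃ g : {g : G // g ∉ Subgroup.center G},
        {L : Submodule ℂ V | Module.finrank ℂ L = 1 ∧ L.map (ρ (g : G)) = L}).Finite :=
      Set.finite_iUnion fun g => h1 g g.2
    apply h4.subset
    rintro L ⟨hL1, g, hg, hL2⟩
    exact Set.mem_iUnion.2 ⟨⟨g, hg⟩, hL1, hL2⟩
  exact h3.to_subtype

include h2 hf in
theorem card_fixed {g : G} (hg : g ∉ Subgroup.center G) : Nat.card (MulAction.fixedBy (Ln ρ) g) = 2 := by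
  obtain ⟨b, a, ha, hne, ha0⟩ := exists_eig ρ h2 hf hg
  have h1 : ∀ i, (Submodule.span ℂ {b i}).map (ρ g) = Submodule.span ℂ {b i} := fun i => span_map (ha i) (ha0 i)
  let L : Fin 2 → Ln ρ := fun i => ⟨Submodule.span ℂ {b i}, finrank_span_b b i, g, hg, h1 i⟩
  have hL : ∀ i, g • L i = L i := fun i => Subtype.ext (h1 i)
  rw [Nat.card_eq_two_iff]
  refine ⟨⟨L 0, hL 0⟩, ⟨L 1, hL 1⟩, fun h => span_ne b (congrArg (fun x => x.1.1) h), ?_⟩
  ext ⟨x, hx⟩
  simp only [Set.mem_insert_iff, Set.mem_singleton_iff, Set.mem_univ, iff_true]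
  have hx' : x.1.map (ρ g) = x.1 := congrArg Subtype.val hx
  rcases inv_lines b ha hne x.2.1 hx' with h | h
  · left; exact Subtype.ext (Subtype.ext h)
  · right; exact Subtype.ext (Subtype.ext h)

theorem fixed_center [ρ.IsIrreducible] {g : G} (hg : g ∈ Subgroup.center G) (L : Ln ρ) : g • L = L := by
  obtain ⟨c, hc⟩ := schur_scalar ρ (ρ g) (fun h v => by
    have := Subgroup.mem_center_iff.1 hg h
    rw [← Module.End.mul_apply, ← Module.End.mul_apply, ← map_mul, ← map_mul, this])
  apply Subtype.ext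
  rw [smul_val]
  have hle : L.1.map (ρ g) ≤ L.1 := by
    rintro _ ⟨v, hv, rfl⟩
    rw [hc]
    exact L.1.smul_mem c hv
  exact Submodule.eq_of_le_of_finrank_eq hle (finrank_map ρ g L.1)

end main

end CfsgLib.PrTwo
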