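import Mathlib
import Cfsg.Agent.LibPrTwo

/-!
# Primitive linear groups of degree two, II (helper17)
-/

set_option autoImplicit false
set_option linter.unusedSectionVars false
set_option linter.style.haveILetI false
set_option linter.unusedVariables false

namespace CfsgLib.PrTwo

open Cfsg CfsgLib.CharBasic CfsgLib.Clifford CfsgLib.Extend CfsgLib.CharIndA CfsgLib.CharNorm
  CfsgLib.CharMore
open scoped ComplexConjugate

universe u

variable {G : Type u} [Group G] [Fintype G]

theorem eq_of_one {r : G → ℂ} (hr : IsCharacter G r) (h : r 1 = 0) : r = 0 := by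
  by_contra h0
  obtain ⟨ψ, hψ, hψ0⟩ := exists_constituent hr h0
  obtain ⟨a, ha, ha1⟩ := irr_one_nat hψ
  have := degree_le_of_mult hr hψ hψ0 ha1 (b := 0) (by rw [h]; simp)
  omega

theorem index_ge (ρ : Representation ℂ G (Fin 2 → ℂ)) [hirr : ρ.IsIrreducible]
    (hprim : ∀ H : Subgroup G, H ≠ ⊤ → ∀ θ : H → ℂ, IsCharacter H θ → ρ.character ≠ indFun H θ)
    (L : Ln ρ) : 3 ≤ (MulAction.stabilizer G L).index := by
  classical
  by_contra hlt
  push Not at hlt
  set H := MulAction.stabilizer G L with hH
  haveI : Fintype H := Fintype.ofFinite H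
  have hV : Module.finrank ℂ (Fin 2 → ℂ) = 2 := by simp
  have hχ : IsIrrCharacter G ρ.character := ⟨2, ρ, hirr, rfl⟩
  have hχ1 : ρ.character 1 = ((2 : ℕ) : ℂ) := by rw [Representation.char_one, hV]
  have hχH : IsCharacter H (fun h : H => ρ.character h) := isCharacter_restrict (irr_isCharacter hχ) H
  have hχH1 : (fun h : H => ρ.character h) 1 = ((2 : ℕ) : ℂ) := hχ1
  have hχH0 : (fun h : H => ρ.character h) ≠ 0 := by
    intro h
    rw [h] at hχH1
    simp at hχH1
  obtain ⟨ψ, hψ, hψ0⟩ := exists_constituent hχH hχH0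
  obtain ⟨a, ha0, ha⟩ := irr_one_nat hψ
  have ha2 := degree_le_of_mult hχH hψ hψ0 ha hχH1
  obtain ⟨r, hr, hχr⟩ := split_off hχH hψ hψ0
  have ha1 : a = 1 := by
    by_contra hne
    have ha3 : a = 2 := by omega
    have hr1 : r 1 = 0 := by
      have h7 := congrFun hχr 1
      rw [Pi.add_apply, ha, ha3] at h7
      have h8 : ((2 : ℕ) : ℂ) = ((2 : ℕ) : ℂ) + r 1 := hχH1.symm.trans h7
      exact (add_eq_left.1 h8.symm)
    have hr0 := eq_of_one hr hr1
    rw [hr0, add_zero] at hχr
    have h1 : IsIrrCharacter H (Representation.character (ρ.comp H.subtype)) := by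
      have : Representation.character (ρ.comp H.subtype) = ψ := by
        rw [← hχr]; rfl
      rw [this]; exact hψ
    have h2 : Representation.IsIrreducible (ρ.comp H.subtype) := isIrreducible_of_char _ h1
    let S : Subrepresentation (ρ.comp H.subtype) :=
      { toSubmodule := L.1
        apply_mem_toSubmodule := by
          intro g v hv
          have h3 : (g : G) • L = L := g.2
          have h4 : L.1.map (ρ (g : G)) = L.1 := congrArg Subtype.val h3
          rw [← h4]
          exact Submodule.mem_map_of_mem hv }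
    rcases (show IsSimpleOrder (Subrepresentation (ρ.comp H.subtype)) from h2).eq_bot_or_eq_top S with h3 | h3
    · have h4 : L.1 = ⊥ := congrArg Subrepresentation.toSubmodule h3
      have h5 := L.2.1
      rw [h4] at h5
      simp at h5
    · have h4 : L.1 = ⊤ := congrArg Subrepresentation.toSubmodule h3
      have h5 := L.2.1
      rw [h4] at h5
      simp at h5
  have hψ1 : ψ 1 = 1 := by rw [ha, ha1]; simp
  have hind1 : indFun H ψ 1 = ((H.index : ℕ) : ℂ) := by rw [ind_one, hψ1, mul_one]
  have hindχ : classInner (indFun H ψ) ρ.character ≠ 0 := by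
    rw [frobenius H ψ (irr_classFun hχ)]
    intro h
    exact hψ0 (ci_zero_comm h)
  have hindc : IsCharacter G (indFun H ψ) := isCharacter_ind H (irr_isCharacter hψ)
  have h3 := degree_le_of_mult hindc hχ hindχ hχ1 hind1
  have h4 : H.index = 2 := by omega
  obtain ⟨s, hs, hχs⟩ := split_off hindc hχ hindχ
  have hs1 : s 1 = 0 := by
    have := congrFun hχs 1
    rw [Pi.add_apply, hind1, hχ1, h4] at this
    exact (add_eq_left.1 this.symm)
  rw [eq_of_one hs hs1, add_zero] at hχs
  refine hprim H ?_ ψ (irr_isCharacter hψ) hχs.symm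
  intro h
  rw [h, Subgroup.index_top] at h4
  omega

theorem main (ρ : Representation ℂ G (Fin 2 → ℂ)) [hirr : ρ.IsIrreducible]
    (hf : ∀ g : G, ρ g = LinearMap.id → g = 1)
    (hprim : ∀ H : Subgroup G, H ≠ ⊤ → ∀ θ : H → ℂ, IsCharacter H θ → ρ.character ≠ indFun H θ) :
    (Subgroup.center G).index = 12 ∨ (Subgroup.center G).index = 24 ∨ (Subgroup.center G).index = 60 := by
  classical
  have hV : Module.finrank ℂ (Fin 2 → ℂ) = 2 := by simp
  haveI : Finite (Ln ρ) := finite_Ln ρ hV hf
  haveI : Fintype (Ln ρ) := Fintype.ofFinite _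
  set N := (Subgroup.center G).index with hN
  have hN0 : N ≠ 0 := Subgroup.index_ne_zero_of_finite
  -- N ≥ 2
  have hN2 : 2 ≤ N := by
    by_contra h
    have h1 : (Subgroup.center G).index = 1 := by omega
    have h2 : Subgroup.center G = ⊤ := Subgroup.index_eq_one.1 h1
    have h3 : ∀ g : G, ∃ c : ℂ, ρ g = c • LinearMap.id := by
      intro g
      have hg : g ∈ Subgroup.center G := by rw [h2]; exact Subgroup.mem_top _
      exact schur_scalar ρ (ρ g) (fun h v => by
        have := Subgroup.mem_center_iff.1 hg h
        rw [← Module.End.mul_apply, ← Module.End.mul_apply, ← map_mul, ← map_mul, this])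
    let v : Fin 2 → ℂ := Pi.single 0 1
    have hv : v ≠ 0 := by
      intro h
      have := congrFun h 0
      simp [v] at this
    let S : Subrepresentation ρ :=
      { toSubmodule := Submodule.span ℂ {v}
        apply_mem_toSubmodule := by
          intro g w hw
          obtain ⟨c, hc⟩ := h3 g
          rw [hc]
          exact Submodule.smul_mem _ _ hw }
    have h4 : Module.finrank ℂ (Submodule.span ℂ {v}) = 1 := finrank_span_singleton hv
    rcases (show IsSimpleOrder (Subrepresentation ρ) from hirr).eq_bot_or_eq_top S with h5 | h5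
    · have h6 : Submodule.span ℂ {v} = ⊥ := congrArg Subrepresentation.toSubmodule h5
      rw [h6] at h4
      simp at h4
    · have h6 : Submodule.span ℂ {v} = ⊤ := congrArg Subrepresentation.toSubmodule h5
      rw [h6] at h4
      simp at h4
  -- Burnside
  let Om := Quotient (MulAction.orbitRel G (Ln ρ))
  haveI : Fintype Om := Fintype.ofFinite _
  have hB := MulAction.sum_card_fixedBy_eq_card_orbits_mul_card_group G (Ln ρ)
  have hG : Nat.card (Subgroup.center G) * N = Fintype.card G := by
    rw [← Nat.card_eq_fintype_card]; exact Subgroup.card_mul_index _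
  set z := Nat.card (Subgroup.center G) with hz
  have hz0 : 0 < z := Nat.card_pos
  have hsum : ∑ g : G, Fintype.card (MulAction.fixedBy (Ln ρ) g) =
      z * Fintype.card (Ln ρ) + (Fintype.card G - z) * 2 := by
    have h1 : ∀ g : G, Fintype.card (MulAction.fixedBy (Ln ρ) g) =
        if g ∈ Subgroup.center G then Fintype.card (Ln ρ) else 2 := by
      intro g
      split_ifs with hg
      · rw [Fintype.card_eq_nat_card, Fintype.card_eq_nat_card]
        have h2 : MulAction.fixedBy (Ln ρ) g = Set.univ := by
          ext L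
          simp only [MulAction.mem_fixedBy, Set.mem_univ, iff_true]
          exact fixed_center ρ hg L
        rw [h2]
        exact Nat.card_congr (Equiv.Set.univ _)
      · rw [Fintype.card_eq_nat_card]; exact card_fixed ρ hV hf hg
    rw [Finset.sum_congr rfl fun g _ => h1 g, Finset.sum_ite, Finset.sum_const, Finset.sum_const,
      smul_eq_mul, smul_eq_mul]
    have h2 : (Finset.univ.filter fun g : G => g ∈ Subgroup.center G).card = z := by
      rw [hz, Nat.card_eq_fintype_card, Fintype.card_subtype]
    have h3 : (Finset.univ.filter fun g : G => ¬ g ∈ Subgroup.center G).card = Fintype.card G - z := by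
      rw [← h2, ← Finset.card_univ]
      have := Finset.card_filter_add_card_filter_not (s := (Finset.univ : Finset G)) (fun g => g ∈ Subgroup.center G)
      omega
    rw [h2, h3]
  have hX : Fintype.card (Ln ρ) + 2 * (N - 1) = Fintype.card Om * N := by
    apply Nat.eq_of_mul_eq_mul_left hz0
    have h1 : Fintype.card G - z = z * (N - 1) := by
      rw [← hG, Nat.mul_sub, mul_one]
    rw [hsum, h1, ← hG] at hB
    have h2 : z * Fintype.card (Ln ρ) + z * (N - 1) * 2 = Fintype.card Om * (z * N) := by
      convert hB using 2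
    calc z * (Fintype.card (Ln ρ) + 2 * (N - 1)) = z * Fintype.card (Ln ρ) + z * (N - 1) * 2 := by ring
      _ = Fintype.card Om * (z * N) := h2
      _ = z * (Fintype.card Om * N) := by ring
  have horb : Fintype.card (Ln ρ) = ∑ ω : Om, (MulAction.stabilizer G ω.out).index := by
    have h1 := MulAction.card_eq_sum_card_group_div_card_stabilizer G (Ln ρ)
    have h2 : ∀ ω : Om, Fintype.card G / Fintype.card (MulAction.stabilizer G ω.out) =
        (MulAction.stabilizer G ω.out).index := by
      intro ω
      have h3 := Subgroup.card_mul_index (MulAction.stabilizer G ω.out)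
      rw [Nat.card_eq_fintype_card, Nat.card_eq_fintype_card] at h3
      rw [← h3]
      exact Nat.mul_div_cancel_left _ Fintype.card_pos
    rw [← Finset.sum_congr rfl fun ω _ => h2 ω]
    convert h1 using 2
  have hZ : ∀ L : Ln ρ, Subgroup.center G ≤ MulAction.stabilizer G L := fun L g hg => fixed_center ρ hg L
  rw [horb] at hX
  refine count (fun ω : Om => (Subgroup.center G).relIndex (MulAction.stabilizer G ω.out))
    (fun ω : Om => (MulAction.stabilizer G ω.out).index) hN2 ?_ ?_ ?_ hX
  · intro ω
    exact (Subgroup.relIndex_mul_index (hZ _)).symm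
  · intro ω
    have h1 : (Subgroup.center G).relIndex (MulAction.stabilizer G ω.out) ≠ 0 :=
      Subgroup.index_ne_zero_of_finite (H := (Subgroup.center G).subgroupOf (MulAction.stabilizer G ω.out))
    have h2 : (Subgroup.center G).relIndex (MulAction.stabilizer G ω.out) ≠ 1 := by
      intro h
      obtain ⟨g, hg, hgL⟩ := ω.out.2.2
      exact hg (Subgroup.relIndex_eq_one.1 h (show g ∈ MulAction.stabilizer G ω.out from Subtype.ext hgL))
    show 2 ≤ (Subgroup.center G).relIndex (MulAction.stabilizer G ω.out)
    omega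
  · intro ω
    exact index_ge ρ hprim ω.out

theorem s4473 (χ : G → ℂ) (hχ : IsIrrCharacter G χ) (hfaith : ∀ g : G, χ g = χ 1 → g = 1)
    (h2 : charDegree χ = 2)
    (hprim : ∀ H : Subgroup G, H ≠ ⊤ → ∀ θ : H → ℂ, IsCharacter H θ → χ ≠ indFun H θ) :
    (Subgroup.center G).index = 12 ∨ (Subgroup.center G).index = 24 ∨ (Subgroup.center G).index = 60 := by
  have h1 : χ 1 = ((2 : ℕ) : ℂ) := by rw [CfsgLib.CharInt.irr_one_eq_charDegree hχ, h2]
  obtain ⟨n, ρ, hirr, rfl⟩ := hχ
  have hn : n = 2 := by
    rw [Representation.char_one] at h1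
    have : Module.finrank ℂ (Fin n → ℂ) = n := by simp
    rw [this] at h1
    exact_mod_cast h1
  subst hn
  haveI := hirr
  refine main ρ ?_ hprim
  intro g hg
  apply hfaith
  show LinearMap.trace ℂ _ (ρ g) = LinearMap.trace ℂ _ (ρ 1)
  rw [hg, map_one]
  rfl

end CfsgLib.PrTwo
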