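import Mathlib
import Cfsg.Agent.LibSolvCoprime
import Cfsg.Agent.LibCores
import Cfsg.Agent.LibComp3
import Cfsg.Agent.LibLE

set_option autoImplicit false
set_option linter.all false

/-! Maximal p-local subgroups and primitive pairs. -/

namespace CfsgLib.PrimPair2

open Subgroup Cfsg CfsgLib.SolvCoprime
open scoped commutatorElement Pointwise

universe u

variable {G : Type u} [Group G]

def IsLoc (p : ℕ) (M : Subgroup G) : Prop :=
  ∃ T : Subgroup G, IsPGroup p T ∧ T ≠ ⊥ ∧ M = normalizer (T : Set G)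

def MaxLoc (p : ℕ) (M : Subgroup G) : Prop :=
  IsLoc p M ∧ ∀ L : Subgroup G, IsLoc p L → M ≤ L → L = M

theorem IsLoc.conj {p : ℕ} {M : Subgroup G} (h : IsLoc p M) (g : G) : IsLoc p (MulAut.conj g • M) := by
  obtain ⟨T, hT, hT1, rfl⟩ := h
  refine ⟨MulAut.conj g • T, hT.of_equiv (Subgroup.equivSMul (MulAut.conj g) T), ?_, ?_⟩
  · intro h1
    apply hT1
    rw [← inv_smul_smul (MulAut.conj g) T, h1]
    exact Subgroup.smul_bot _
  · exact Subgroup.map_normalizer_eq_of_bijective T (f := (MulAut.conj g).toMonoidHom)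
      (MulAut.conj g).bijective

theorem MaxLoc.conj {p : ℕ} {M : Subgroup G} (h : MaxLoc p M) (g : G) :
    MaxLoc p (MulAut.conj g • M) := by
  refine ⟨h.1.conj g, ?_⟩
  intro L hL hML
  have h1 : M ≤ MulAut.conj g⁻¹ • L := by
    have h2 := Subgroup.pointwise_smul_le_pointwise_smul_iff (a := MulAut.conj g⁻¹).mpr hML
    rwa [← mul_smul, ← map_mul, inv_mul_cancel, map_one, one_smul] at h2
  have h3 := h.2 _ (hL.conj g⁻¹) h1
  rw [← h3, ← mul_smul, ← map_mul, mul_inv_cancel, map_one, one_smul]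

theorem IsLoc.exists_max [Finite G] {p : ℕ} {M : Subgroup G} (h : IsLoc p M) :
    ∃ H : Subgroup G, MaxLoc p H ∧ M ≤ H := by
  obtain ⟨H, hMH, hH⟩ := Set.Finite.exists_le_maximal (Set.toFinite {L : Subgroup G | IsLoc p L}) h
  exact ⟨H, ⟨hH.prop, fun L hL hle => le_antisymm (hH.le_of_ge hL hle) hle⟩, hMH⟩

variable [Finite G] {p : ℕ} [hp : Fact p.Prime]
  (hloc : ∀ T : Subgroup G, IsPGroup p T → T ≠ ⊥ →
      centralizer (pCore p ↥(normalizer (T : Set G)) : Set ↥(normalizer (T : Set G))) ≤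
        pCore p ↥(normalizer (T : Set G)))
include hloc

theorem loc_char {M : Subgroup G} (h : IsLoc p M) :
    centralizer (pCore p M : Set M) ≤ pCore p M := by
  obtain ⟨T, hT, hT1, rfl⟩ := h
  exact hloc T hT hT1

/-- normalizers of subgroups normal in a maximal local -/
theorem normalizer_le {M : Subgroup G} (h : MaxLoc p M) (A : Subgroup G) (hA1 : A ≠ ⊥) (hAM : A ≤ M)
    (hMA : M ≤ normalizer (A : Set G)) : normalizer (A : Set G) ≤ M := by
  -- O_p(A) ≠ 1
  have h1 : pCore p A ≠ ⊥ := by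
    intro h2
    have hAn : (A.subgroupOf M).Normal := (normal_subgroupOf_iff_le_normalizer hAM).2 hMA
    have h3 : A.subgroupOf M ⊓ pCore p M = ⊥ := by
      rw [eq_bot_iff]
      have h4 : pCore p (A.subgroupOf M) = ⊥ := by
        have e := CfsgLib.Cores.map_pCore_equiv p (subgroupOfEquivOfLe hAM)
        rw [h2] at e
        exact (Subgroup.map_eq_bot_iff_of_injective _ (subgroupOfEquivOfLe hAM).injective).mp e
      have h5 := CfsgLib.Cores.map_pCore_of_normal p (A.subgroupOf M)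
      rw [h4, Subgroup.map_bot] at h5
      rw [inf_comm, ← h5]
    have h6 : A.subgroupOf M ≤ centralizer (pCore p M : Set M) := by
      rw [← commutator_eq_bot_iff_le_centralizer, eq_bot_iff, ← h3]
      exact commutator_le_inf _ _
    have h7 := h6.trans (loc_char hloc h.1)
    rw [inf_eq_left.2 h7] at h3
    apply hA1
    rw [subgroupOf_eq_bot, disjoint_iff, inf_eq_left.2 hAM] at h3
    exact h3
  obtain ⟨B, hB⟩ : ∃ B, B = (pCore p A).map A.subtype := ⟨_, rfl⟩
  have hBp : IsPGroup p B := by rw [hB]; exact (CfsgLib.Cores.pCore_isPGroup p).map _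
  have hB1 : B ≠ ⊥ := by
    intro h2
    rw [hB, Subgroup.map_eq_bot_iff_of_injective _ (subtype_injective A)] at h2
    exact h1 h2
  have hAB : normalizer (A : Set G) ≤ normalizer (B : Set G) := by
    rw [hB]
    exact CfsgLib.LE.normalizer_le_normalizer_map_of_characteristic (pCore p A) inferInstance
  have h2 := h.2 _ ⟨B, hBp, hB1, rfl⟩ (hMA.trans hAB)
  rw [← h2]; exact hAB

/-- the primitive pair statement -/
def Goal (p : ℕ) (G : Type u) [Group G] : Prop :=
  ∃ M₁ M₂ : Subgroup G, M₁ ≠ M₂ ∧ (∀ A : Subgroup G, A ≠ ⊥ → A ≤ M₁ ⊓ M₂ →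
    (M₁ ≤ normalizer (A : Set G) → M₂ ⊓ normalizer (A : Set G) = M₁ ⊓ M₂) ∧
    (M₂ ≤ normalizer (A : Set G) → M₁ ⊓ normalizer (A : Set G) = M₁ ⊓ M₂)) ∧
    centralizer (pCore p ↥M₁ : Set ↥M₁) ≤ pCore p ↥M₁ ∧
    centralizer (pCore p ↥M₂ : Set ↥M₂) ≤ pCore p ↥M₂ ∧
    (pCore p ↥M₁).map M₁.subtype ⊔ (pCore p ↥M₂).map M₂.subtype ≤ M₁ ⊓ M₂

theorem core_le {M R : Subgroup G} (hR : IsSylowIn p R M) : (pCore p M).map M.subtype ≤ R := by
  apply hR.le_of_normalizes ((CfsgLib.Cores.pCore_isPGroup p).map _) (map_subtype_le _)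
  exact CfsgLib.LE.le_normalizer_map_subtype (pCore p M)

theorem goal_of_common {M₁ M₂ R : Subgroup G} (h1 : MaxLoc p M₁) (h2 : MaxLoc p M₂) (hne : M₁ ≠ M₂)
    (hR1 : IsSylowIn p R M₁) (hR2 : IsSylowIn p R M₂) : Goal p G := by
  refine ⟨M₁, M₂, hne, ?_, loc_char hloc h1.1, loc_char hloc h2.1, ?_⟩
  · intro A hA1 hA
    constructor
    · intro hn
      apply le_antisymm
      · exact le_inf (inf_le_right.trans (normalizer_le hloc h1 A hA1 (hA.trans inf_le_left) hn))
          inf_le_left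
      · exact le_inf inf_le_right (inf_le_left.trans hn)
    · intro hn
      apply le_antisymm
      · exact le_inf inf_le_left
          (inf_le_right.trans (normalizer_le hloc h2 A hA1 (hA.trans inf_le_right) hn))
      · exact le_inf inf_le_left (inf_le_right.trans hn)
  · apply sup_le
    · have := core_le hloc hR1
      exact this.trans (le_inf hR1.le hR2.le)
    · have := core_le hloc hR2
      exact this.trans (le_inf hR1.le hR2.le)

theorem goal_of_one {M₁ M₂ R : Subgroup G} (h1 : MaxLoc p M₁) (h2 : MaxLoc p M₂) (hne : M₁ ≠ M₂)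
    (hR1 : IsSylowIn p R M₁) (hR2 : R ≤ M₂) : Goal p G := by
  obtain ⟨S, hS, hRS⟩ := IsSylowIn.exists_ge hR1.isPGroup hR2
  rcases hRS.eq_or_lt with h | h
  · rw [← h] at hS
    exact goal_of_common hloc h1 h2 hne hR1 hS
  · obtain ⟨x, ⟨hxS, hxN⟩, hxR⟩ := SetLike.exists_of_lt
      (lt_inf_normalizer_of_pgroup hS.isPGroup h)
    have hxM : x ∉ M₁ := by
      intro hx
      apply hxR
      have h3 := hR1.eq_of_le (U := S ⊓ M₁) (hS.isPGroup.to_le inf_le_left) inf_le_right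
        (le_inf hRS hR1.le)
      rw [h3]; exact ⟨hxS, hx⟩
    have hM1 : M₁ ≠ ⊥ := by
      rintro rfl
      obtain ⟨T, hT, hT1, h4⟩ := h1.1
      apply hT1
      rw [eq_bot_iff, h4]
      exact le_normalizer
    have hne2 : M₁ ≠ MulAut.conj x • M₁ := by
      intro h3
      apply hxM
      apply normalizer_le hloc h1 M₁ hM1 le_rfl le_normalizer
      rw [CfsgLib.SolvBasic.mem_normalizer_iff_conj_smul]
      exact h3.symm
    have h5 : MulAut.conj x • R = R := CfsgLib.SolvBasic.mem_normalizer_iff_conj_smul.mp hxN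
    have h6 := hR1.conj x
    rw [h5] at h6
    exact goal_of_common hloc h1 (h1.conj x) hne2 hR1 h6

theorem main_aux {M₁ M₂ : Subgroup G} (h1 : MaxLoc p M₁) (h2 : MaxLoc p M₂) (hne : M₁ ≠ M₂)
    (hd : p ∣ Nat.card ↥(M₁ ⊓ M₂)) : Goal p G := by
  let 𝒮 : Set (Subgroup G) := {R | IsPGroup p R ∧ R ≠ ⊥ ∧ ∃ M₁ M₂ : Subgroup G, MaxLoc p M₁ ∧
    MaxLoc p M₂ ∧ M₁ ≠ M₂ ∧ R ≤ M₁ ⊓ M₂}
  have hne𝒮 : 𝒮.Nonempty := by
    obtain ⟨R, hR⟩ := IsSylowIn.exists_isSylowIn (p := p) (M₁ ⊓ M₂)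
    refine ⟨R, hR.isPGroup, ?_, M₁, M₂, h1, h2, hne, hR.le⟩
    rintro rfl
    apply hR.not_dvd
    rw [relIndex_bot_left]
    exact hd
  obtain ⟨R, hR⟩ := Set.Finite.exists_maximal (Set.toFinite 𝒮) hne𝒮
  obtain ⟨hRp, hR1, N₁, N₂, hN1, hN2, hNne, hRN⟩ := hR.prop
  obtain ⟨H, hH, hHle⟩ := IsLoc.exists_max (p := p) (M := normalizer (R : Set G)) ⟨R, hRp, hR1, rfl⟩
  have key : ∀ N, MaxLoc p N → R ≤ N → ¬ IsSylowIn p R N → N = H := by
    intro N hN hRN hns
    by_contra hneq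
    obtain ⟨S, hS, hRS⟩ := IsSylowIn.exists_ge hRp hRN
    have hlt : R < S := by
      refine lt_of_le_of_ne hRS ?_
      rintro rfl
      exact hns hS
    have h3 := lt_inf_normalizer_of_pgroup hS.isPGroup hlt
    have h4 : S ⊓ normalizer (R : Set G) ∈ 𝒮 :=
      ⟨hS.isPGroup.to_le inf_le_left, fun h => hR1 (by rw [eq_bot_iff, ← h]; exact h3.le),
        N, H, hN, hH, hneq, inf_le_inf hS.le hHle⟩
    exact absurd (hR.le_of_ge h4 h3.le) (not_le_of_gt h3)
  by_cases hs1 : IsSylowIn p R N₁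
  · exact goal_of_one hloc hN1 hN2 hNne hs1 (hRN.trans inf_le_right)
  · by_cases hs2 : IsSylowIn p R N₂
    · exact goal_of_one hloc hN2 hN1 hNne.symm hs2 (hRN.trans inf_le_left)
    · exact absurd ((key N₁ hN1 (hRN.trans inf_le_left) hs1).trans
        (key N₂ hN2 (hRN.trans inf_le_right) hs2).symm) hNne

theorem main (hOp : pCore p G = ⊥) : Goal p G ∨ (∀ M : Subgroup G,
    (∃ T : Subgroup G, IsPGroup p T ∧ T ≠ ⊥ ∧ M = normalizer (T : Set G)) →
    (∀ L : Subgroup G, (∃ T : Subgroup G, IsPGroup p T ∧ T ≠ ⊥ ∧ L = normalizer (T : Set G)) →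
      M ≤ L → L = M) → M ≠ ⊤ ∧ p ∣ Nat.card M ∧
      ∀ g : G, g ∉ M → ¬ p ∣ Nat.card ↥(M ⊓ M.map (MulAut.conj g).toMonoidHom)) := by
  by_cases hG : Goal p G
  · exact Or.inl hG
  · right
    intro M hM hmax
    have hMM : MaxLoc p M := ⟨hM, hmax⟩
    obtain ⟨T, hT, hT1, hMT⟩ := hM
    refine ⟨?_, ?_, ?_⟩
    · intro htop
      apply hT1
      rw [hMT, normalizer_eq_top_iff] at htop
      rw [eq_bot_iff, ← hOp]
      exact CfsgLib.Cores.le_pCore htop hT
    · have h1 : T ≤ M := by rw [hMT]; exact le_normalizer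
      obtain ⟨k, hk⟩ := IsPGroup.iff_card.mp hT
      have hk0 : k ≠ 0 := by
        rintro rfl
        rw [pow_zero] at hk
        exact hT1 (card_eq_one.mp hk)
      exact ((dvd_pow_self p hk0).trans (by rw [hk])).trans (card_dvd_of_le h1)
    · intro g hg hd
      apply hG
      have hM1 : M ≠ ⊥ := by
        rintro rfl
        apply hT1
        rw [eq_bot_iff, hMT]
        exact le_normalizer
      refine main_aux hloc hMM (hMM.conj g) ?_ hd
      intro h3
      apply hg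
      apply normalizer_le hloc hMM M hM1 le_rfl le_normalizer
      rw [CfsgLib.SolvBasic.mem_normalizer_iff_conj_smul]
      exact h3.symm

end CfsgLib.PrimPair2
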