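import Mathlib
import Cfsg.Agent.EqBase
import Cfsg.Agent.LibExc
import Cfsg.Agent.LibCharBasic3

set_option autoImplicit false
set_option linter.all false
set_option maxHeartbeats 1000000

/-! # Sylow subgroups of prime order inverted by an element (helper20): exceptional characters -/

namespace CfsgLib.PrimeDeg20

open Cfsg CfsgLib.CharBasic CfsgLib.CharIndA CfsgLib.Exc
open scoped ComplexConjugate

universe u

structure Hyp {G : Type u} [Group G] (P : Subgroup G) (p : ℕ) (t : G) : Prop where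
  card : Nat.card P = p
  cen : ∀ x ∈ P, x ≠ 1 → ∀ g : G, g * x = x * g → g ∈ P
  inv : ∀ x ∈ P, t * x * t⁻¹ = x⁻¹
  nor : ∀ x ∈ P, x ≠ 1 → ∀ g : G, g⁻¹ * x * g ∈ P → g ∈ P ∨ g * t ∈ P
  five : 5 ≤ p
  prime : p.Prime

/-- the linear characters of a group of prime order -/
theorem exists_lin {A : Type u} [Group A] [Fintype A] {p : ℕ} (hp : p.Prime) (hA : Nat.card A = p) :
    ∃ l : ZMod p → (A → ℂ), (∀ k, IsIrrCharacter A (l k)) ∧ Function.Injective l ∧ (∀ x, l 0 x = 1) ∧ (∀ k x, l (-k) x = l k x⁻¹) ∧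
      (∀ x, x ≠ 1 → ∑ᶠ k, l k x = 0) ∧ (∀ k, l k 1 = 1) := by
  classical
  haveI := Fact.mk hp
  have hp0 : NeZero p := ⟨hp.ne_zero⟩
  let f : A ≃* Multiplicative (ZMod p) := mulEquivOfPrimeCardEq (p := p) hA (by
    rw [Nat.card_congr Multiplicative.toAdd, Nat.card_zmod])
  let ψ : AddChar (ZMod p) ℂ := ZMod.stdAddChar
  have hψ : Function.Injective ψ := ZMod.injective_stdAddChar
  let F : ZMod p → (A →* ℂˣ) := fun k => (((AddChar.toMonoidHom (AddChar.mulShift ψ k)).comp f.toMonoidHom)).toHomUnits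
  have hF : ∀ k x, ((F k x : ℂˣ) : ℂ) = ψ (k * Multiplicative.toAdd (f x)) := fun k x => rfl
  refine ⟨fun k x => (F k x : ℂ), fun k => isIrrCharacter_hom (F k), ?_, ?_, ?_, ?_, ?_⟩
  · intro k j h
    have h1 := congrFun h (f.symm (Multiplicative.ofAdd 1))
    beta_reduce at h1
    rw [hF, hF, MulEquiv.apply_symm_apply, toAdd_ofAdd, mul_one, mul_one] at h1
    exact hψ h1
  · intro x
    beta_reduce
    rw [hF, zero_mul, AddChar.map_zero_eq_one]
  · intro k x
    beta_reduce
    rw [hF, hF, map_inv, toAdd_inv, neg_mul, mul_neg]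
  · intro x hx
    beta_reduce
    rw [finsum_eq_sum_of_fintype]
    have h1 : ∀ k : ZMod p, ((F k x : ℂˣ) : ℂ) = (AddChar.mulShift ψ (Multiplicative.toAdd (f x))) k := by
      intro k
      rw [AddChar.mulShift_apply, mul_comm, hF]
    rw [Finset.sum_congr rfl fun k _ => h1 k]
    apply AddChar.sum_eq_zero_of_ne_one
    apply (ZMod.isPrimitive_stdAddChar p)
    intro h
    apply hx
    have h2 : f x = 1 := Multiplicative.toAdd.injective h
    rwa [map_eq_one_iff f f.injective] at h2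
  · intro k
    beta_reduce
    rw [map_one]; rfl

variable {G : Type u} [Group G] [Fintype G] {P : Subgroup G} {p : ℕ} {t : G}

namespace Hyp

variable (H : Hyp P p t)
include H

theorem p_ne : (p : ℂ) ≠ 0 := by
  have := H.five
  exact_mod_cast (by omega : p ≠ 0)

theorem comm {x y : G} (hx : x ∈ P) (hy : y ∈ P) : x * y = y * x := by
  haveI := Fact.mk H.prime
  haveI : IsCyclic P := isCyclic_of_prime_card H.card
  letI := IsCyclic.commGroup (α := P)
  exact congrArg Subtype.val (mul_comm (⟨x, hx⟩ : P) ⟨y, hy⟩)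

theorem sq_ne {x : G} (hx : x ∈ P) (hx1 : x ≠ 1) : x * x ≠ 1 := by
  intro h
  have h3 : orderOf x ∣ p := by
    have := orderOf_dvd_natCard (⟨x, hx⟩ : P)
    rw [H.card, Subgroup.orderOf_mk] at this
    exact this
  have h4 : orderOf x ∣ 2 := orderOf_dvd_of_pow_eq_one (by rw [pow_two]; exact h)
  rcases (Nat.dvd_prime H.prime).mp h3 with h5 | h5
  · exact hx1 (orderOf_eq_one_iff.mp h5)
  · rw [h5] at h4
    have := Nat.le_of_dvd (by norm_num) h4
    have := H.five
    omega

theorem exists_ne : ∃ x ∈ P, x ≠ 1 := by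
  by_contra hcon
  push Not at hcon
  have h1 : P = ⊥ := by rw [eq_bot_iff]; intro u hu; exact Subgroup.mem_bot.mpr (hcon u hu)
  have h2 := H.card
  rw [h1, Subgroup.card_bot] at h2
  have := H.five
  omega

theorem t_not : t ∉ P := by
  intro h
  obtain ⟨x, hx, hx1⟩ := H.exists_ne
  have h1 := H.inv x hx
  rw [H.comm h hx, mul_inv_cancel_right] at h1
  exact H.sq_ne hx hx1 (by nth_rewrite 1 [h1]; exact inv_mul_cancel x)

theorem ind_apply_P (f : P → ℂ) {x : G} (hx : x ∈ P) (hx1 : x ≠ 1) : indFun P f x = f ⟨x, hx⟩ + f ⟨x, hx⟩⁻¹ := by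
  classical
  rw [ind_apply, H.card]
  have h1 : ∀ g : G, extendByZero P f (g⁻¹ * x * g) = (if g ∈ P then f ⟨x, hx⟩ else 0) + (if g * t ∈ P then f ⟨x, hx⟩⁻¹ else 0) := by
    intro g
    by_cases hg : g ∈ P
    · have h2 : g⁻¹ * x * g = x := by
        rw [mul_assoc, H.comm hx hg, inv_mul_cancel_left]
      have h3 : g * t ∉ P := fun h => H.t_not ((Subgroup.mul_mem_cancel_left P hg).mp h)
      rw [if_pos hg, if_neg h3, add_zero, h2, ext_mem P f hx]
    · by_cases hgt : g * t ∈ P
      · have h2 : g⁻¹ * x * g = x⁻¹ := by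
          have h3 : (g * t) * x = x * (g * t) := H.comm hgt hx
          have h4 : g⁻¹ * x * g = t * x * t⁻¹ := by
            calc g⁻¹ * x * g = g⁻¹ * (x * (g * t)) * t⁻¹ := by group
              _ = g⁻¹ * (g * t * x) * t⁻¹ := by rw [h3]
              _ = t * x * t⁻¹ := by group
          rw [h4, H.inv x hx]
        rw [if_neg hg, if_pos hgt, zero_add, h2, ext_mem P f (P.inv_mem hx)]
        rfl
      · rw [if_neg hg, if_neg hgt, add_zero, ext_not_mem]
        intro h
        rcases H.nor x hx hx1 g h with h3 | h3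
        · exact hg h3
        · exact hgt h3
  rw [Finset.sum_congr rfl fun g _ => h1 g, Finset.sum_add_distrib]
  have h2 : ∀ c : ℂ, ∑ g : G, (if g ∈ P then c else 0) = (p : ℂ) * c := by
    intro c
    rw [← Finset.sum_filter, Finset.sum_const, nsmul_eq_mul]
    congr 2
    rw [← H.card, Nat.card_eq_fintype_card, Fintype.card_subtype]
  have h3 : ∀ c : ℂ, ∑ g : G, (if g * t ∈ P then c else 0) = (p : ℂ) * c := by
    intro c
    rw [← h2 c]
    exact Fintype.sum_equiv (Equiv.mulRight t) _ _ (fun g => rfl)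
  rw [h2, h3, ← mul_add, inv_mul_cancel_left₀ H.p_ne]

/-- induced functions vanish off the conjugates of the subgroup -/
theorem ind_zero_off {f : P → ℂ} (hf : f 1 = 0) {g : G} (hg : ∀ x : G, x⁻¹ * g * x ∈ P → g = 1) : indFun P f g = 0 := by
  classical
  rw [ind_apply]
  rw [Finset.sum_eq_zero, mul_zero]
  intro x _
  by_cases h : x⁻¹ * g * x ∈ P
  · have h1 := hg x h
    subst h1
    rw [ext_mem P f h]
    have h2 : (⟨x⁻¹ * 1 * x, h⟩ : P) = 1 := Subtype.ext (by show x⁻¹ * 1 * x = 1; group)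
    rw [h2, hf]
  · exact ext_not_mem P f h

end Hyp

end CfsgLib.PrimeDeg20
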