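import Cfsg.Agent.LibPrimeDeg20b
import Cfsg.Agent.S0157

set_option autoImplicit false
set_option linter.all false
set_option maxHeartbeats 2000000

/-! # Sylow subgroups of prime order inverted by an element (helper20): doubly transitive groups of prime degree -/

namespace CfsgLib.PrimeDeg20

open Cfsg CfsgLib.CharBasic CfsgLib.CharIndA CfsgLib.Exc MulAction
open scoped ComplexConjugate

universe u v

variable {G : Type u} [Group G] [Fintype G] {Ω : Type v} [Fintype Ω] [MulAction G Ω]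

/-- the setwise stabilizer of a pair -/
def pairStab (G : Type u) [Group G] {Ω : Type v} [MulAction G Ω] (a b : Ω) : Subgroup G where
  carrier := {g | (g • a = a ∧ g • b = b) ∨ (g • a = b ∧ g • b = a)}
  one_mem' := Or.inl ⟨one_smul _ _, one_smul _ _⟩
  mul_mem' := by
    rintro x y (⟨h1, h2⟩ | ⟨h1, h2⟩) (⟨h3, h4⟩ | ⟨h3, h4⟩)
    · exact Or.inl ⟨by rw [mul_smul, h3, h1], by rw [mul_smul, h4, h2]⟩
    · exact Or.inr ⟨by rw [mul_smul, h3, h2], by rw [mul_smul, h4, h1]⟩
    · exact Or.inr ⟨by rw [mul_smul, h3, h1], by rw [mul_smul, h4, h2]⟩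
    · exact Or.inl ⟨by rw [mul_smul, h3, h2], by rw [mul_smul, h4, h1]⟩
  inv_mem' := by
    rintro x (⟨h1, h2⟩ | ⟨h1, h2⟩)
    · exact Or.inl ⟨by rw [inv_smul_eq_iff, h1], by rw [inv_smul_eq_iff, h2]⟩
    · exact Or.inr ⟨by rw [inv_smul_eq_iff, h2], by rw [inv_smul_eq_iff, h1]⟩

theorem exists_sgn {a b : Ω} (hab : a ≠ b) : ∃ s : pairStab G a b →* ℂˣ, ∀ g : pairStab G a b, ((g : G) • a = a ∧ s g = 1) ∨ ((g : G) • a = b ∧ s g = -1) := by
  classical
  refine ⟨{ toFun := fun g => if (g : G) • a = a then 1 else -1, map_one' := ?_, map_mul' := ?_ }, ?_⟩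
  · rw [if_pos]
    exact one_smul G a
  · rintro ⟨x, hx⟩ ⟨y, hy⟩
    show (if (x * y) • a = a then (1 : ℂˣ) else -1) = (if x • a = a then 1 else -1) * (if y • a = a then 1 else -1)
    rcases hx with ⟨h1, h2⟩ | ⟨h1, h2⟩ <;> rcases hy with ⟨h3, h4⟩ | ⟨h3, h4⟩
    · rw [mul_smul, h3, h1, if_pos rfl, one_mul]
    · rw [mul_smul, h3, h2, if_neg hab.symm, h1, if_pos rfl, one_mul]
    · rw [mul_smul, h3, h1, if_neg hab.symm, if_pos rfl, mul_one]
    · rw [mul_smul, h3, h2, if_pos rfl, h1, if_neg hab.symm, neg_mul_neg, one_mul]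
  · rintro ⟨x, hx⟩
    rcases hx with ⟨h1, h2⟩ | ⟨h1, h2⟩
    · left
      exact ⟨h1, if_pos h1⟩
    · right
      refine ⟨h1, if_neg ?_⟩
      show ¬ x • a = a
      rw [h1]
      exact hab.symm

/-- summing over the group a function of the image of a pair -/
theorem sum_pair [DecidableEq Ω] (h2 : ∀ a b c d : Ω, a ≠ b → c ≠ d → ∃ g : G, g • a = c ∧ g • b = d) {a b : Ω} (hab : a ≠ b) (F : Ω → Ω → ℂ) :
    ∑ x : G, F (x • a) (x • b) = (Nat.card {g : G // g • a = a ∧ g • b = b} : ℂ) * ∑ y : {y : Ω × Ω // y.1 ≠ y.2}, F y.1.1 y.1.2 := by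
  classical
  have h1 : ∑ x : G, F (x • a) (x • b) = ∑ y : {y : Ω × Ω // y.1 ≠ y.2}, ∑ x ∈ Finset.univ.filter (fun x : G =>
      (⟨(x • a, x • b), fun h => hab (MulAction.injective x h)⟩ : {y : Ω × Ω // y.1 ≠ y.2}) = y), F (x • a) (x • b) := by
    rw [Finset.sum_fiberwise]
  rw [h1, Finset.mul_sum]
  refine Finset.sum_congr rfl fun y _ => ?_
  have h3 : ∀ x ∈ Finset.univ.filter (fun x : G =>
      (⟨(x • a, x • b), fun h => hab (MulAction.injective x h)⟩ : {y : Ω × Ω // y.1 ≠ y.2}) = y), F (x • a) (x • b) = F y.1.1 y.1.2 := by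
    intro x hx
    have := (Finset.mem_filter.mp hx).2
    rw [← this]
  rw [Finset.sum_congr rfl h3, Finset.sum_const, nsmul_eq_mul]
  congr 2
  obtain ⟨g₀, hg1, hg2⟩ := h2 a b y.1.1 y.1.2 hab y.2
  rw [← Fintype.card_subtype, ← Nat.card_eq_fintype_card]
  refine Nat.card_congr ⟨fun x => ⟨g₀⁻¹ * x, ?_⟩, fun x => ⟨g₀ * x, ?_⟩, fun x => Subtype.ext (by simp), fun x => Subtype.ext (by simp)⟩
  · have h4 := congrArg Subtype.val x.2
    have h5 : (x : G) • a = y.1.1 := congrArg Prod.fst h4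
    have h6 : (x : G) • b = y.1.2 := congrArg Prod.snd h4
    exact ⟨by rw [mul_smul, h5, ← hg1, inv_smul_smul], by rw [mul_smul, h6, ← hg2, inv_smul_smul]⟩
  · apply Subtype.ext
    apply Prod.ext
    · show (g₀ * (x : G)) • a = y.1.1
      rw [mul_smul, x.2.1, hg1]
    · show (g₀ * (x : G)) • b = y.1.2
      rw [mul_smul, x.2.2, hg2]

theorem card_pairStab [DecidableEq Ω] (h2 : ∀ a b c d : Ω, a ≠ b → c ≠ d → ∃ g : G, g • a = c ∧ g • b = d) {a b : Ω} (hab : a ≠ b) :
    (Nat.card (pairStab G a b) : ℂ) = 2 * (Nat.card {g : G // g • a = a ∧ g • b = b} : ℂ) := by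
  classical
  have h1 := sum_pair h2 hab (fun c d => (if c = a ∧ d = b then (1 : ℂ) else 0) + (if c = b ∧ d = a then (1 : ℂ) else 0))
  have h3 : ∀ x : G, ((if x • a = a ∧ x • b = b then (1 : ℂ) else 0) + (if x • a = b ∧ x • b = a then (1 : ℂ) else 0)) = if x ∈ pairStab G a b then 1 else 0 := by
    intro x
    by_cases h4 : x • a = a ∧ x • b = b
    · rw [if_pos h4, if_neg (fun h5 => hab (h4.1.symm.trans h5.1)), add_zero, if_pos (show x ∈ pairStab G a b from Or.inl h4)]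
    · by_cases h5 : x • a = b ∧ x • b = a
      · rw [if_neg h4, if_pos h5, zero_add, if_pos (show x ∈ pairStab G a b from Or.inr h5)]
      · rw [if_neg h4, if_neg h5, add_zero, if_neg]
        rintro (h6 | h6)
        · exact h4 h6
        · exact h5 h6
  rw [Finset.sum_congr rfl fun x _ => h3 x, Finset.sum_boole, ← Fintype.card_subtype, ← Nat.card_eq_fintype_card] at h1
  have h4 : (Nat.card {x // x ∈ pairStab G a b} : ℂ) = (Nat.card (pairStab G a b) : ℂ) := rfl
  rw [← h4, h1, mul_comm]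
  congr 1
  rw [Finset.sum_add_distrib, Finset.sum_boole, Finset.sum_boole]
  have h6 : ∀ c d : Ω, (hcd : c ≠ d) → (Finset.univ.filter (fun y : {y : Ω × Ω // y.1 ≠ y.2} => y.1.1 = c ∧ y.1.2 = d)).card = 1 := by
    intro c d hcd
    rw [Finset.card_eq_one]
    refine ⟨⟨(c, d), hcd⟩, ?_⟩
    ext y
    simp only [Finset.mem_filter, Finset.mem_univ, true_and, Finset.mem_singleton]
    constructor
    · rintro ⟨h7, h8⟩
      exact Subtype.ext (Prod.ext h7 h8)
    · rintro rfl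
      exact ⟨rfl, rfl⟩
  rw [h6 a b hab, h6 b a hab.symm]
  norm_num

/-- twice the signed permutation character on pairs -/
theorem two_ind_sgn [DecidableEq Ω] (h2 : ∀ a b c d : Ω, a ≠ b → c ≠ d → ∃ g : G, g • a = c ∧ g • b = d) {a b : Ω} (hab : a ≠ b)
    {s : pairStab G a b →* ℂˣ} (hs : ∀ g : pairStab G a b, ((g : G) • a = a ∧ s g = 1) ∨ ((g : G) • a = b ∧ s g = -1)) (g : G) :
    2 * indFun (pairStab G a b) (fun x => ((s x : ℂˣ) : ℂ)) g = (Nat.card (fixedBy Ω g) : ℂ) ^ 2 - (Nat.card (fixedBy Ω (g * g)) : ℂ) := by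
  classical
  have hk : (Nat.card {g : G // g • a = a ∧ g • b = b} : ℂ) ≠ 0 := by
    haveI : Nonempty {g : G // g • a = a ∧ g • b = b} := ⟨⟨1, one_smul _ _, one_smul _ _⟩⟩
    exact_mod_cast Nat.card_pos.ne'
  have h1 : ∀ x : G, extendByZero (pairStab G a b) (fun x => ((s x : ℂˣ) : ℂ)) (x⁻¹ * g * x) =
      (if g • (x • a) = x • a ∧ g • (x • b) = x • b then (1 : ℂ) else 0) - (if g • (x • a) = x • b ∧ g • (x • b) = x • a then (1 : ℂ) else 0) := by
    intro x
    have h3 : ∀ c d : Ω, (x⁻¹ * g * x) • c = d ↔ g • (x • c) = x • d := by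
      intro c d
      rw [mul_smul, mul_smul, inv_smul_eq_iff]
    by_cases h4 : g • (x • a) = x • a ∧ g • (x • b) = x • b
    · have h5 : (x⁻¹ * g * x) • a = a ∧ (x⁻¹ * g * x) • b = b := ⟨(h3 a a).mpr h4.1, (h3 b b).mpr h4.2⟩
      have h6 : x⁻¹ * g * x ∈ pairStab G a b := Or.inl h5
      rw [if_pos h4, if_neg (fun h7 => hab (MulAction.injective x (h4.1.symm.trans h7.1))), sub_zero, ext_mem _ _ h6]
      rcases hs ⟨_, h6⟩ with h7 | h7
      · rw [h7.2]; rfl
      · exact absurd (h5.1.symm.trans h7.1) hab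
    · by_cases h5 : g • (x • a) = x • b ∧ g • (x • b) = x • a
      · have h6' : (x⁻¹ * g * x) • a = b ∧ (x⁻¹ * g * x) • b = a := ⟨(h3 a b).mpr h5.1, (h3 b a).mpr h5.2⟩
        have h6 : x⁻¹ * g * x ∈ pairStab G a b := Or.inr h6'
        rw [if_neg h4, if_pos h5, zero_sub, ext_mem _ _ h6]
        rcases hs ⟨_, h6⟩ with h7 | h7
        · exact absurd (h7.1.symm.trans h6'.1) hab
        · rw [h7.2]; simp
      · rw [if_neg h4, if_neg h5, sub_zero, ext_not_mem]
        rintro (h6 | h6)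
        · exact h4 ⟨(h3 a a).mp h6.1, (h3 b b).mp h6.2⟩
        · exact h5 ⟨(h3 a b).mp h6.1, (h3 b a).mp h6.2⟩
  rw [ind_apply, Finset.sum_congr rfl fun x _ => h1 x,
    sum_pair h2 hab (fun c d => (if g • c = c ∧ g • d = d then (1 : ℂ) else 0) - (if g • c = d ∧ g • d = c then (1 : ℂ) else 0)),
    card_pairStab h2 hab]
  -- the pair count
  have hfix : ∀ x : G, (Nat.card (fixedBy Ω x) : ℂ) = ∑ c : Ω, if x • c = c then 1 else 0 := by
    intro x
    rw [Finset.sum_boole, ← Fintype.card_subtype, ← Nat.card_eq_fintype_card]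
    rfl
  have hsub : ∀ F : Ω → Ω → ℂ, ∑ y : {y : Ω × Ω // y.1 ≠ y.2}, F y.1.1 y.1.2 = (∑ c, ∑ d, F c d) - ∑ c, F c c := by
    intro F
    have h3 : ∑ y : {y : Ω × Ω // y.1 ≠ y.2}, F y.1.1 y.1.2 = ∑ y : Ω × Ω, if y.1 ≠ y.2 then F y.1 y.2 else 0 := by
      rw [← Finset.sum_filter]
      exact (Finset.sum_subtype (Finset.univ.filter (fun y : Ω × Ω => y.1 ≠ y.2)) (fun y => by simp) (fun y : Ω × Ω => F y.1 y.2)).symm
    rw [h3, Fintype.sum_prod_type, ← Finset.sum_sub_distrib]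
    refine Finset.sum_congr rfl fun c _ => ?_
    have h4 : ∀ d, (if c ≠ d then F c d else 0) = F c d - (if d = c then F c c else 0) := by
      intro d
      by_cases h5 : c = d
      · rw [if_neg (not_not.mpr h5), if_pos h5.symm, h5, sub_self]
      · rw [if_pos h5, if_neg (fun h6 => h5 h6.symm), sub_zero]
    rw [Finset.sum_congr rfl fun d _ => h4 d, Finset.sum_sub_distrib, Finset.sum_ite_eq' Finset.univ c, if_pos (Finset.mem_univ _)]
  rw [hsub (fun c d => (if g • c = c ∧ g • d = d then (1 : ℂ) else 0) - (if g • c = d ∧ g • d = c then (1 : ℂ) else 0))]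
  have h3 : ∑ c : Ω, ∑ d : Ω, ((if g • c = c ∧ g • d = d then (1 : ℂ) else 0) - (if g • c = d ∧ g • d = c then (1 : ℂ) else 0)) =
      (Nat.card (fixedBy Ω g) : ℂ) ^ 2 - (Nat.card (fixedBy Ω (g * g)) : ℂ) := by
    simp only [Finset.sum_sub_distrib]
    congr 1
    · rw [hfix, pow_two, Finset.sum_mul_sum]
      refine Finset.sum_congr rfl fun c _ => Finset.sum_congr rfl fun d _ => ?_
      by_cases h4 : g • c = c <;> by_cases h5 : g • d = d <;> simp [h4, h5]
    · rw [hfix]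
      refine Finset.sum_congr rfl fun c _ => ?_
      rw [Finset.sum_eq_single (g • c)]
      · rw [mul_smul]
        simp
      · intro d _ hd
        rw [if_neg (fun h => hd h.1.symm)]
      · intro h; exact absurd (Finset.mem_univ _) h
  have h4 : ∑ c : Ω, ((if g • c = c ∧ g • c = c then (1 : ℂ) else 0) - (if g • c = c ∧ g • c = c then (1 : ℂ) else 0)) = 0 := by
    simp
  rw [h3, h4, sub_zero]
  field_simp

/-- the restriction of the permutation character to the setwise stabilizer of a pair contains the sign -/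
theorem inner_sgn_perm {a b : Ω} (hab : a ≠ b) [Fintype (pairStab G a b)]
    {s : pairStab G a b →* ℂˣ} (hs : ∀ g : pairStab G a b, ((g : G) • a = a ∧ s g = 1) ∨ ((g : G) • a = b ∧ s g = -1))
    (hne : ∃ g : pairStab G a b, s g = -1) :
    ∃ n : ℕ, classInner (fun x : pairStab G a b => (Nat.card (fixedBy Ω (x : G)) : ℂ)) (fun x => ((s x : ℂˣ) : ℂ)) = n + 1 := by
  classical
  let Z : SubMulAction (pairStab G a b) Ω :=
    { carrier := {c | c ≠ a ∧ c ≠ b}
      smul_mem' := by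
        rintro ⟨g, hg⟩ c ⟨h1, h2⟩
        show g • c ≠ a ∧ g • c ≠ b
        rcases hg with ⟨h3, h4⟩ | ⟨h3, h4⟩
        · exact ⟨fun h => h1 (MulAction.injective g (h.trans h3.symm)), fun h => h2 (MulAction.injective g (h.trans h4.symm))⟩
        · exact ⟨fun h => h2 (MulAction.injective g (h.trans h4.symm)), fun h => h1 (MulAction.injective g (h.trans h3.symm))⟩ }
  have hZ : IsCharacter (pairStab G a b) (fun g => (Nat.card (fixedBy Z g) : ℂ)) := isCharacter_perm
  have hsirr : IsIrrCharacter (pairStab G a b) (fun x => ((s x : ℂˣ) : ℂ)) := isIrrCharacter_hom s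
  obtain ⟨n, hn⟩ := char_mult hZ (irr_isCharacter hsirr)
  refine ⟨n, ?_⟩
  have h1 : (fun x : pairStab G a b => (Nat.card (fixedBy Ω (x : G)) : ℂ)) = (fun g => (Nat.card (fixedBy Z g) : ℂ)) + ((fun _ => (1 : ℂ)) + (fun x => ((s x : ℂˣ) : ℂ))) := by
    ext x
    show (Nat.card (fixedBy Ω (x : G)) : ℂ) = (Nat.card (fixedBy Z x) : ℂ) + (1 + ((s x : ℂˣ) : ℂ))
    have h2 : Nat.card (fixedBy Z x) = ((fixedBy Ω (x : G)) \ {a, b}).ncard := by
      rw [← Nat.card_coe_set_eq]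
      refine Nat.card_congr ⟨fun y => ⟨((y : Z) : Ω), ?_, ?_⟩, fun y => ⟨⟨(y : Ω), ?_⟩, ?_⟩, fun y => rfl, fun y => rfl⟩
      · exact congrArg Subtype.val y.2
      · rintro (h | h)
        · exact (y : Z).2.1 h
        · exact (y : Z).2.2 h
      · exact ⟨fun h => y.2.2 (Or.inl h), fun h => y.2.2 (Or.inr h)⟩
      · exact Subtype.ext y.2.1
    rw [h2, Nat.card_coe_set_eq]
    rcases hs x with ⟨h3, h4⟩ | ⟨h3, h4⟩
    · have h5 : (x : G) • b = b := by
        rcases x.2 with h | h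
        · exact h.2
        · exact absurd (h3.symm.trans h.1) hab
      rw [h4]
      have h6 : ({a, b} : Set Ω) ⊆ fixedBy Ω (x : G) := by
        rintro y (rfl | rfl)
        · exact h3
        · exact h5
      rw [Set.ncard_sdiff h6 (Set.toFinite _), Set.ncard_pair hab]
      have h7 : 2 ≤ (fixedBy Ω (x : G)).ncard := by
        rw [← Set.ncard_pair hab]
        exact Set.ncard_le_ncard h6 (Set.toFinite _)
      rw [Nat.cast_sub h7, Units.val_one]
      push_cast
      ring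
    · have h5 : (x : G) • b = a := by
        rcases x.2 with h | h
        · exact absurd (h.1.symm.trans h3) hab
        · exact h.2
      rw [h4]
      have h6 : (fixedBy Ω (x : G)) \ {a, b} = fixedBy Ω (x : G) := by
        apply Set.Subset.antisymm (Set.sdiff_subset)
        intro y hy
        refine ⟨hy, ?_⟩
        rintro (h | h)
        · rw [h] at hy
          exact hab (Eq.trans (Eq.symm hy) h3)
        · have h' : y = b := h
          rw [h'] at hy
          exact hab.symm (Eq.trans (Eq.symm hy) h5)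
      rw [h6]
      simp
  have hs1 : (fun x => ((s x : ℂˣ) : ℂ)) ≠ (fun _ => (1 : ℂ)) := by
    intro h
    obtain ⟨g, hg⟩ := hne
    have h2 := congrFun h g
    beta_reduce at h2
    rw [hg] at h2
    norm_num at h2
  rw [h1, CharBasic.inner_add_left, CharBasic.inner_add_left, hn, irr_inner_self hsirr, irr_inner_ne isIrrCharacter_one hsirr hs1.symm, zero_add]

/-- few fixed points -/
theorem Hyp.fix_le {P : Subgroup G} {p : ℕ} {t : G} (H : Hyp P p t) [FaithfulSMul G Ω] (hΩ : Fintype.card Ω = p)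
    (h2 : ∀ a b c d : Ω, a ≠ b → c ≠ d → ∃ g : G, g • a = c ∧ g • b = d) (hPfix : ∀ x ∈ P, x ≠ 1 → ∀ c : Ω, x • c ≠ c)
    {g : G} (hg : g ≠ 1) : Nat.card (fixedBy Ω g) ≤ 2 := by
  classical
  haveI : Fintype P := Fintype.ofFinite P
  have h5 := H.five
  haveI : IsPretransitive G Ω := ⟨fun x y => by
    haveI : Nontrivial Ω := Fintype.one_lt_card_iff_nontrivial.mp (by omega)
    obtain ⟨x', hx'⟩ := _root_.exists_ne x
    obtain ⟨y', hy'⟩ := _root_.exists_ne y
    obtain ⟨g, hg, -⟩ := h2 x x' y y' hx'.symm hy'.symm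
    exact ⟨g, hg⟩⟩
  -- elements conjugate into `P`
  by_cases hgP : ∃ x : G, x⁻¹ * g * x ∈ P
  · obtain ⟨x, hx⟩ := hgP
    have h3 : x⁻¹ * g * x ≠ 1 := by
      intro h
      apply hg
      have : g = x * (x⁻¹ * g * x) * x⁻¹ := by group
      rw [this, h]; group
    have h4 : Nat.card (fixedBy Ω g) = 0 := by
      rw [Nat.card_eq_zero]
      left
      constructor
      rintro ⟨c, hc⟩
      have hc' : g • c = c := hc
      apply hPfix _ hx h3 (x⁻¹ • c)
      rw [← mul_smul]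
      have : x⁻¹ * g * x * x⁻¹ = x⁻¹ * g := by group
      rw [this, mul_smul, hc']
    omega
  push Not at hgP
  have hreg : ∀ x : G, x⁻¹ * g * x ∈ P → g = 1 := fun x hx => absurd hx (hgP x)
  have hfcard : ∀ x : G, Nat.card (fixedBy Ω x) ≤ p := by
    intro x
    rw [← hΩ, ← Nat.card_eq_fintype_card]
    exact Nat.card_le_card_of_injective _ Subtype.val_injective
  -- the character `χ`
  have hm2 : IsMultiplyPretransitive G Ω 2 := by
    rw [is_two_pretransitive_iff]
    intro a b c d hab hcd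
    exact h2 a b c d hab hcd
  have hχ : IsIrrCharacter G (fun g => (Nat.card (fixedBy Ω g) : ℂ) - 1) :=
    (Cfsg.Agent.S0157.result Ω (by rw [Nat.card_eq_fintype_card, hΩ]; omega)).mpr hm2
  obtain ⟨χ, hχdef⟩ : ∃ χ : G → ℂ, χ = (fun g => (Nat.card (fixedBy Ω g) : ℂ) - 1) := ⟨_, rfl⟩
  rw [← hχdef] at hχ
  have hχv : ∀ x, χ x = (Nat.card (fixedBy Ω x) : ℂ) - 1 := fun x => by rw [hχdef]
  have hfix1 : Nat.card (fixedBy Ω (1 : G)) = p := by
    rw [← hΩ, ← Nat.card_eq_fintype_card]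
    exact Nat.card_congr ((Equiv.setCongr (by ext x; simp)).trans (Equiv.Set.univ Ω))
  have hfixP : ∀ x ∈ P, x ≠ 1 → Nat.card (fixedBy Ω x) = 0 := by
    intro x hx hx1
    rw [Nat.card_eq_zero]
    left
    constructor
    rintro ⟨c, hc⟩
    exact hPfix x hx hx1 c hc
  obtain ⟨μ, hμ, hμinj, hμχ, hμ1, hμreg, hμΘ⟩ := H.main hχ (by rw [hχv, hfix1]) (fun x hx hx1 => by rw [hχv, hfixP x hx hx1]; norm_num)
  -- the pair character
  haveI : Nontrivial Ω := Fintype.one_lt_card_iff_nontrivial.mp (by omega)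
  obtain ⟨a, b, hab⟩ := exists_pair_ne Ω
  haveI : Fintype (pairStab G a b) := Fintype.ofFinite _
  obtain ⟨s, hs⟩ := exists_sgn (G := G) hab
  have hswap : ∃ g : pairStab G a b, s g = -1 := by
    obtain ⟨w, hw1, hw2⟩ := h2 a b b a hab hab.symm
    refine ⟨⟨w, Or.inr ⟨hw1, hw2⟩⟩, ?_⟩
    rcases hs ⟨w, Or.inr ⟨hw1, hw2⟩⟩ with h | h
    · exact absurd (h.1.symm.trans hw1) hab
    · exact h.2
  obtain ⟨Λ, hΛdef⟩ : ∃ Λ : G → ℂ, Λ = indFun (pairStab G a b) (fun x => ((s x : ℂˣ) : ℂ)) := ⟨_, rfl⟩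
  have hΛ : ∀ x, 2 * Λ x = (Nat.card (fixedBy Ω x) : ℂ) ^ 2 - (Nat.card (fixedBy Ω (x * x)) : ℂ) := fun x => by
    rw [hΛdef]; exact two_ind_sgn h2 hab hs x
  have hsirr : IsIrrCharacter (pairStab G a b) (fun x => ((s x : ℂˣ) : ℂ)) := isIrrCharacter_hom s
  have hΛc : IsCharacter G Λ := by rw [hΛdef]; exact isCharacter_ind _ (irr_isCharacter hsirr)
  have hs1 : (fun x => ((s x : ℂˣ) : ℂ)) ≠ (fun _ => (1 : ℂ)) := by
    intro h
    obtain ⟨g, hg⟩ := hswap
    have h2 := congrFun h g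
    beta_reduce at h2
    rw [hg] at h2
    norm_num at h2
  have hΛ1 : classInner Λ (fun _ => (1 : ℂ)) = 0 := by
    rw [hΛdef, CharIndA.frobenius _ _ (irr_classFun isIrrCharacter_one)]
    exact irr_inner_ne hsirr isIrrCharacter_one hs1
  obtain ⟨n', hn'⟩ := inner_sgn_perm hab hs hswap
  have hΛχ : classInner Λ χ = n' + 1 := by
    have h3 : classInner Λ (fun g => (Nat.card (fixedBy Ω g) : ℂ)) = n' + 1 := by
      have hπ : IsClassFunction G (fun g => (Nat.card (fixedBy Ω g) : ℂ)) := char_classFun isCharacter_perm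
      rw [hΛdef, CharIndA.frobenius _ _ hπ, ← CharBasic.inner_conj_symm, hn']
      simp
    have h4 : (fun g => (Nat.card (fixedBy Ω g) : ℂ)) = χ + (fun _ => (1 : ℂ)) := by
      ext x
      rw [Pi.add_apply, hχv]
      ring
    rw [h4, CharBasic.inner_add_right, hΛ1, add_zero] at h3
    exact h3
  have hΛμ : ∀ j, classInner Λ (μ j) = n' + 1 := by
    intro j
    rw [hμΘ Λ (char_classFun hΛc) _ j, hΛχ, hΛ1, sub_zero]
    intro x hx hx1
    have h3 := hΛ x
    rw [hfixP x hx hx1, hfixP (x * x) (P.mul_mem hx hx) (H.sq_ne hx hx1)] at h3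
    simpa using h3
  -- the difference is a character
  have hodd : p % 2 = 1 := by
    rcases H.prime.eq_two_or_odd with h | h
    · omega
    · exact h
  have hmC : (2 : ℂ) * (((p - 1) / 2 : ℕ) : ℂ) = (p : ℂ) - 1 := by
    have h1 : ((2 * ((p - 1) / 2) : ℕ) : ℂ) = ((p - 1 : ℕ) : ℂ) := by congr 1; omega
    rw [Nat.cast_sub (by omega)] at h1
    push_cast at h1
    exact h1
  have hdiff : IsCharacter G (Λ - (χ + ∑ j, μ j)) := by
    rw [isCharacter_iff]
    refine ⟨classFun_sub (char_classFun hΛc) (classFun_add (irr_classFun hχ) (classFun_sum _ (fun j _ => irr_classFun (hμ j)))), ?_⟩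
    intro ψ hψ
    rw [CharBasic.inner_sub_left, CharBasic.inner_add_left, CharBasic.inner_sum_left]
    by_cases h3 : ψ = χ
    · rw [h3, hΛχ, irr_inner_self hχ, Finset.sum_eq_zero (fun j _ => irr_inner_ne (hμ j) hχ (hμχ j))]
      exact ⟨n', by ring⟩
    · by_cases h4 : ∃ j, μ j = ψ
      · obtain ⟨j, rfl⟩ := h4
        rw [hΛμ, irr_inner_ne hχ (hμ j) (fun h => h3 h.symm), Finset.sum_eq_single j]
        · rw [irr_inner_self (hμ j)]
          exact ⟨n', by ring⟩
        · intro i _ hij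
          exact irr_inner_ne (hμ i) (hμ j) (fun h => hij (hμinj h))
        · intro h; exact absurd (Finset.mem_univ _) h
      · push Not at h4
        obtain ⟨k, hk⟩ := char_mult hΛc (irr_isCharacter hψ)
        rw [hk, irr_inner_ne hχ hψ (fun h => h3 h.symm), Finset.sum_eq_zero (fun j _ => irr_inner_ne (hμ j) hψ (h4 j))]
        exact ⟨k, by ring⟩
  have hdiff1 : (Λ - (χ + ∑ j, μ j)) 1 = 0 := by
    have h3 := hΛ 1
    rw [mul_one, hfix1] at h3
    rw [Pi.sub_apply, Pi.add_apply, Finset.sum_apply, Finset.sum_congr rfl (fun j _ => hμreg j 1 (fun _ _ => rfl)), Finset.sum_const, Finset.card_univ,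
      Fintype.card_fin, nsmul_eq_mul, hχv, hfix1]
    have h4 : (2 : ℂ) * (Λ 1 - ((p : ℂ) - 1 + (((p - 1) / 2 : ℕ) : ℂ) * ((p : ℂ) - 1 - 1))) = 0 := by
      linear_combination h3 - ((p : ℂ) - 1 - 1) * hmC
    exact (mul_eq_zero.mp h4).resolve_left two_ne_zero
  have hzero := degree_zero hdiff hdiff1
  have hval := congrFun hzero g
  rw [Pi.sub_apply, Pi.add_apply, Finset.sum_apply, Finset.sum_congr rfl (fun j _ => hμreg j g hreg), Finset.sum_const, Finset.card_univ,
    Fintype.card_fin, nsmul_eq_mul, hχv, Pi.zero_apply] at hval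
  have h3 := hΛ g
  -- integers
  obtain ⟨f, hf⟩ : ∃ f : ℕ, f = Nat.card (fixedBy Ω g) := ⟨_, rfl⟩
  obtain ⟨f2, hf2⟩ : ∃ f2 : ℕ, f2 = Nat.card (fixedBy Ω (g * g)) := ⟨_, rfl⟩
  rw [← hf] at hval h3 ⊢
  rw [← hf2] at h3
  have hle : f ≤ f2 := by
    rw [hf, hf2, Nat.card_coe_set_eq, Nat.card_coe_set_eq]
    apply Set.ncard_le_ncard _ (Set.toFinite _)
    intro c hc
    have hc' : g • c = c := hc
    show (g * g) • c = c
    rw [mul_smul, hc', hc']
  have hZ : (f : ℤ) ^ 2 - f2 = (p + 1) * f - 2 * p := by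
    have h4 : (((f : ℤ) ^ 2 - f2 : ℤ) : ℂ) = (((p + 1) * f - 2 * p : ℤ) : ℂ) := by
      push_cast
      linear_combination -h3 + 2 * hval + ((f : ℂ) - 1 - 1) * hmC
    exact_mod_cast h4
  by_contra hcon
  push Not at hcon
  have hfp : (f : ℤ) ≤ p := by
    have := hfcard g
    rw [← hf] at this
    exact_mod_cast this
  have hle' : (f : ℤ) ≤ f2 := by exact_mod_cast hle
  have hf3 : (3 : ℤ) ≤ f := by exact_mod_cast hcon
  have h7 : ((f : ℤ) - 2) * (f - p) ≥ 0 := by nlinarith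
  have h8 : (f : ℤ) = p := by nlinarith
  have h9 : f = p := by exact_mod_cast h8
  apply hg
  apply FaithfulSMul.eq_of_smul_eq_smul (M := G) (α := Ω)
  intro c
  rw [one_smul]
  have h10 : fixedBy Ω g = Set.univ := by
    apply Set.eq_of_subset_of_ncard_le (Set.subset_univ _)
    rw [Set.ncard_univ, Nat.card_eq_fintype_card, hΩ, ← Nat.card_coe_set_eq, ← hf, h9]
  have h11 : c ∈ fixedBy Ω g := by rw [h10]; trivial
  exact h11

end CfsgLib.PrimeDeg20
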