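import Mathlib
import Cfsg.Agent.LibPrimeDegree2

/-! Solvable transitive groups of prime degree (Galois) (seat helper15). -/

set_option autoImplicit false

namespace CfsgLib.PrimeDegree3

open MulAction

/-- a nontrivial finite solvable group has a nontrivial abelian normal subgroup -/
theorem exists_abelian_normal {G : Type*} [Group G] [Nontrivial G] (hG : Group.IsSolvable G) :
    ∃ A : Subgroup G, A.Normal ∧ A ≠ ⊥ ∧ ∀ x ∈ A, ∀ y ∈ A, x * y = y * x := by
  classical
  obtain ⟨n, hn⟩ := hG.solvable
  have hex : ∃ n, derivedSeries G n = ⊥ := ⟨n, hn⟩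
  have h1 := Nat.find_spec hex
  set m := Nat.find hex with hm
  have hm0 : m ≠ 0 := by
    intro h0
    rw [h0, derivedSeries_zero] at h1
    exact top_ne_bot h1
  obtain ⟨k, hk⟩ := Nat.exists_eq_succ_of_ne_zero hm0
  have h2 : derivedSeries G k ≠ ⊥ := Nat.find_min hex (by omega)
  rw [hk, derivedSeries_succ] at h1
  refine ⟨derivedSeries G k, inferInstance, h2, ?_⟩
  intro x hx y hy
  have h3 := Subgroup.commutator_mem_commutator hx hy
  rw [h1, Subgroup.mem_bot, commutatorElement_eq_one_iff_mul_comm] at h3
  exact h3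

/-- Galois: a solvable transitive group of prime degree has a normal Sylow `p`-subgroup. -/
theorem exists_normal_sylow {α : Type*} [Fintype α] [DecidableEq α] {p : ℕ} [hp : Fact p.Prime]
    (hα : Fintype.card α = p) (G : Subgroup (Equiv.Perm α)) [MulAction.IsPretransitive G α]
    (hG : Group.IsSolvable G) : ∃ P : Sylow p G, (P : Subgroup G).Normal := by
  classical
  have hprim : IsPreprimitive G α := IsPreprimitive.of_prime_card (by rw [Nat.card_eq_fintype_card, hα]; exact hp.out)
  have hnt : Nontrivial α := Fintype.one_lt_card_iff_nontrivial.mp (by rw [hα]; exact hp.out.one_lt)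
  have hGnt : Nontrivial G := by
    obtain ⟨a, b, hab⟩ := exists_pair_ne α
    obtain ⟨g, hg⟩ := MulAction.exists_smul_eq G a b
    refine ⟨g, 1, ?_⟩
    rintro rfl
    rw [one_smul] at hg
    exact hab hg
  obtain ⟨A, hA, hA1, hcomm⟩ := exists_abelian_normal hG
  have hAt : MulAction.IsPretransitive A α := by
    apply IsQuasiPreprimitive.isPretransitive_of_normal (G := G)
    intro h
    apply hA1
    rw [eq_bot_iff]
    intro x hx
    rw [Subgroup.mem_bot]
    apply Subtype.ext
    ext z
    have hz : z ∈ fixedPoints A α := by rw [h]; trivial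
    exact hz ⟨x, hx⟩
  obtain ⟨a⟩ : Nonempty α := inferInstance
  have hstab : stabilizer A a = ⊥ := by
    rw [eq_bot_iff]
    intro x hx
    rw [Subgroup.mem_bot]
    apply Subtype.ext
    apply Subtype.ext
    ext z
    obtain ⟨y, hy⟩ := MulAction.exists_smul_eq A a z
    have h1 : (x : G) * (y : G) = (y : G) * (x : G) := hcomm _ x.2 _ y.2
    have h2 : ((x : G) * (y : G)) • a = z := by
      rw [h1, mul_smul]
      have : (x : G) • a = a := hx
      rw [this]; exact hy
    rw [mul_smul] at h2
    have h3 : (y : G) • a = z := hy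
    rw [h3] at h2
    exact h2
  have hAcard : Nat.card A = p := by
    have h1 := MulAction.index_stabilizer_of_transitive A a
    rw [hstab, Subgroup.index_bot, Nat.card_eq_fintype_card (α := α), hα] at h1
    exact h1
  have hAp : IsPGroup p A := IsPGroup.of_card (n := 1) (by rw [hAcard, pow_one])
  obtain ⟨P, hAP⟩ := hAp.exists_le_sylow
  have hPcard := CfsgLib.PrimeDegree2.card_sylow hα G P
  refine ⟨P, ?_⟩
  have : A = P := Subgroup.eq_of_le_of_card_ge hAP (by rw [hAcard]; exact hPcard.le)
  rw [← this]
  exact hA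

/-- in a solvable transitive group of prime degree `p`, every subgroup of index `p` is a point
stabiliser -/
theorem eq_stabilizer_of_index {α : Type*} [Fintype α] [DecidableEq α] {p : ℕ} [hp : Fact p.Prime]
    (hα : Fintype.card α = p) (G : Subgroup (Equiv.Perm α)) [MulAction.IsPretransitive G α]
    (hG : Group.IsSolvable G) (H : Subgroup G) (hH : H.index = p) : ∃ a : α, H = stabilizer G a := by
  classical
  obtain ⟨P, hP⟩ := exists_normal_sylow hα G hG
  obtain ⟨σ, e, hσP, ho, he, hed, hPσ⟩ := CfsgLib.PrimeDegree2.exists_equiv_sylow hα G P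
  have hPcard := CfsgLib.PrimeDegree2.card_sylow hα G P
  have haff : ∀ g : G, ∃ m c : ZMod p, m ≠ 0 ∧ ∀ j, (g : Equiv.Perm α) (e j) = e (m * j + c) := by
    intro g
    apply CfsgLib.PrimeDegree2.affine_of_mem_normalizer hσP hed hPσ
    rw [Subgroup.normalizer_eq_top_iff.mpr hP]
    trivial
  choose M C hM hMC using haff
  have hmul : ∀ g k : G, M (g * k) = M g * M k := by
    intro g k
    have h1 : ∀ j, ((g * k : G) : Equiv.Perm α) (e j) = e (M g * (M k * j + C k) + C g) := by
      intro j
      rw [Subgroup.coe_mul, Equiv.Perm.mul_apply, hMC, hMC]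
    have h2 := h1 1
    have h3 := h1 0
    rw [hMC] at h2 h3
    have h4 := e.injective h2
    have h5 := e.injective h3
    linear_combination h4 - h5
  have hone : M 1 = 1 := by
    have h2 := hMC 1 1
    have h3 := hMC 1 0
    simp only [Subgroup.coe_one, Equiv.Perm.coe_one, id_eq] at h2 h3
    have h4 := e.injective h2
    have h5 := e.injective h3
    linear_combination h5 - h4
  let f : H →* ZMod p :=
    { toFun := fun h => M h
      map_one' := hone
      map_mul' := fun g k => hmul g k }
  have hcop : ¬ p ∣ Nat.card H := by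
    intro hdvd
    have h1 : Nat.card H * p = Nat.card G := by rw [← hH]; exact Subgroup.card_mul_index H
    obtain ⟨n, hn⟩ := hdvd
    have h2 : p ^ 2 ∣ Nat.card G := ⟨n, by rw [← h1, hn]; ring⟩
    have h3 : p ^ 2 ∣ Nat.card P := by
      exact (P.pow_dvd_card_of_pow_dvd_card h2)
    rw [hPcard] at h3
    have h4 := Nat.le_of_dvd hp.out.pos h3
    have := hp.out.two_le
    nlinarith
  have hker : ∀ x : H, f x = 1 → x = 1 := by
    intro x hx
    have hx' : M x = 1 := hx
    -- x is a translation so x ^ p = 1
    have h1 : ∀ (n : ℕ) (j : ZMod p), (((x : G) ^ n : G) : Equiv.Perm α) (e j) = e (j + n * C x) := by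
      intro n
      induction n with
      | zero => intro j; simp
      | succ n ih =>
        intro j
        rw [pow_succ, Subgroup.coe_mul, Equiv.Perm.mul_apply, hMC, ih, hx']
        push_cast
        ring_nf
    have h2 : (x : G) ^ p = 1 := by
      apply Subtype.ext
      ext z
      obtain ⟨j, rfl⟩ := e.surjective z
      rw [h1]
      simp
    have h3 : orderOf (x : H) ∣ p := by
      apply orderOf_dvd_of_pow_eq_one
      apply Subtype.ext
      rw [Subgroup.coe_pow, h2]; rfl
    rcases (Nat.dvd_prime hp.out).mp h3 with h4 | h4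
    · exact orderOf_eq_one_iff.mp h4
    · exfalso
      apply hcop
      rw [← h4]
      exact orderOf_dvd_natCard x
  have hinj : Function.Injective f := by
    intro x y hxy
    have h1 : f (x * y⁻¹) = 1 := by
      have h2 : f y * f y⁻¹ = 1 := by rw [← map_mul, mul_inv_cancel, map_one]
      rw [map_mul, hxy, h2]
    have h2 := hker _ h1
    exact mul_inv_eq_one.mp h2
  have hcyc : IsCyclic H := isCyclic_of_injective_ringHom f hinj
  obtain ⟨h, hgen⟩ := hcyc.exists_generator
  obtain ⟨a, ha⟩ : ∃ a : α, (h : G) • a = a := by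
    by_cases hm : M h = 1
    · have := hker h hm
      refine ⟨e 0, ?_⟩
      rw [this]
      simp
    · refine ⟨e (C h / (1 - M h)), ?_⟩
      have h1 : (1 - M h) ≠ 0 := sub_ne_zero.mpr (Ne.symm hm)
      have h2 : (h : G) • e (C h / (1 - M h)) = e (M h * (C h / (1 - M h)) + C h) := hMC _ _
      rw [h2]
      congr 1
      field_simp
      ring
  refine ⟨a, ?_⟩
  have hle : H ≤ stabilizer G a := by
    intro x hx
    obtain ⟨n, hn⟩ := Subgroup.mem_zpowers_iff.mp (hgen ⟨x, hx⟩)
    have h1 : (h : G) ^ n = x := by
      have := congrArg (Subtype.val) hn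
      simpa using this
    have h2 : (h : G) ∈ stabilizer G a := ha
    rw [← h1]
    exact Subgroup.zpow_mem _ h2 n
  have h1 : (stabilizer G a).index = p := by
    rw [MulAction.index_stabilizer_of_transitive, Nat.card_eq_fintype_card, hα]
  apply Subgroup.eq_of_le_of_card_ge hle
  have h2 := Subgroup.card_mul_index H
  have h3 := Subgroup.card_mul_index (stabilizer G a)
  rw [hH] at h2
  rw [h1] at h3
  exact (Nat.eq_of_mul_eq_mul_right hp.out.pos (h3.trans h2.symm)).le

end CfsgLib.PrimeDegree3
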