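import Mathlib
import Cfsg.Agent.LibPrimeDegree2

/-! Order of the Sylow `p`-normaliser in transitive groups of prime degree `p` (seat helper15). -/

set_option autoImplicit false

namespace CfsgLib.PrimeDegree4

open MulAction

/-- In a transitive group of prime degree `p`, the Sylow `p`-normaliser has order `p * d` with
`d` dividing `p - 1`. -/
theorem card_normalizer {α : Type*} [Fintype α] [DecidableEq α] {p : ℕ} [hp : Fact p.Prime]
    (hα : Fintype.card α = p) (G : Subgroup (Equiv.Perm α)) [MulAction.IsPretransitive G α]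
    (P : Sylow p G) :
    ∃ d, d ∣ p - 1 ∧ Nat.card (Subgroup.normalizer ((P : Subgroup G) : Set G)) = p * d := by
  classical
  obtain ⟨σ, e, hσP, ho, he, hed, hPσ⟩ := CfsgLib.PrimeDegree2.exists_equiv_sylow hα G P
  have hPcard := CfsgLib.PrimeDegree2.card_sylow hα G P
  have haff : ∀ g : Subgroup.normalizer ((P : Subgroup G) : Set G), ∃ m c : ZMod p, m ≠ 0 ∧ ∀ j, ((g : G) : Equiv.Perm α) (e j) = e (m * j + c) :=
    fun g => CfsgLib.PrimeDegree2.affine_of_mem_normalizer hσP hed hPσ g.2
  choose M C hM hMC using haff
  have hmul : ∀ g k : Subgroup.normalizer ((P : Subgroup G) : Set G), M (g * k) = M g * M k := by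
    intro g k
    have h1 : ∀ j, (((g * k : Subgroup.normalizer ((P : Subgroup G) : Set G)) : G) : Equiv.Perm α) (e j) = e (M g * (M k * j + C k) + C g) := by
      intro j
      rw [Subgroup.coe_mul, Subgroup.coe_mul, Equiv.Perm.mul_apply, hMC, hMC]
    have h2 := h1 1
    have h3 := h1 0
    rw [hMC] at h2 h3
    have h4 := e.injective h2
    have h5 := e.injective h3
    linear_combination h4 - h5
  have hone : M 1 = 1 := by
    have h2 := hMC 1 1
    have h3 := hMC 1 0
    simp only [Subgroup.coe_one, Equiv.Perm.coe_one, id_eq] at h2 h3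
    have h4 := e.injective h2
    have h5 := e.injective h3
    linear_combination h5 - h4
  let f : Subgroup.normalizer ((P : Subgroup G) : Set G) →* ZMod p :=
    { toFun := M
      map_one' := hone
      map_mul' := hmul }
  let φ : Subgroup.normalizer ((P : Subgroup G) : Set G) →* (ZMod p)ˣ := f.toHomUnits
  have hφ : ∀ g, φ g = 1 ↔ M g = 1 := by
    intro g
    rw [← Units.val_inj, MonoidHom.coe_toHomUnits, Units.val_one]
    rfl
  have hker : φ.ker = (P : Subgroup G).subgroupOf (Subgroup.normalizer ((P : Subgroup G) : Set G)) := by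
    ext x
    rw [MonoidHom.mem_ker, hφ, Subgroup.mem_subgroupOf]
    constructor
    · intro hx
      have h1 : (x : G) = σ ^ (C x).val := by
        apply Subtype.ext
        ext z
        obtain ⟨j, rfl⟩ := e.surjective z
        rw [hed, hMC, hx, one_mul]
      rw [h1]
      exact Subgroup.pow_mem _ hσP _
    · intro hx
      obtain ⟨c, hc⟩ := hPσ _ hx
      have h2 := hMC x 1
      have h3 := hMC x 0
      rw [hc, hed] at h2 h3
      have h4 := e.injective h2
      have h5 := e.injective h3
      linear_combination h5 - h4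
  refine ⟨Nat.card φ.range, ?_, ?_⟩
  · have h1 := Subgroup.card_subgroup_dvd_card φ.range
    rwa [Nat.card_eq_fintype_card (α := (ZMod p)ˣ), ZMod.card_units_eq_totient, Nat.totient_prime hp.out] at h1
  · have h1 := Subgroup.card_mul_index φ.ker
    rw [Subgroup.index_ker, hker] at h1
    rw [← h1]
    congr 1
    have h2 : (P : Subgroup G) ≤ Subgroup.normalizer ((P : Subgroup G) : Set G) := Subgroup.le_normalizer
    exact (Nat.card_congr (Subgroup.subgroupOfEquivOfLe h2).toEquiv).trans hPcard

end CfsgLib.PrimeDegree4
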