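import Cfsg.Statements.S0372
import Mathlib
import Cfsg.Agent.LibM24b

set_option autoImplicit false
open Cfsg

namespace Cfsg.Agent.S0372

/-- The involution x ↦ -1/x of the projective line over ZMod 23 lies in the group of the length-24 code. -/
theorem result : Cfsg.projInv ∈ Cfsg.M24 := by
  have h : CfsgLib.M24.isM24 [23, 22, 11, 15, 17, 9, 19, 13, 20, 5, 16, 2, 21, 7, 18, 3, 10, 4, 14, 6, 8, 12, 1, 0] = true := by
    decide +kernel
  have h2 := h
  rw [CfsgLib.M24.isM24, Bool.and_eq_true] at h2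
  have : Cfsg.projInv = CfsgLib.M24.mkPerm [23, 22, 11, 15, 17, 9, 19, 13, 20, 5, 16, 2, 21, 7, 18, 3, 10, 4, 14, 6, 8, 12, 1, 0] := by
    apply Equiv.ext
    intro p
    rw [CfsgLib.M24.mkPerm_apply (CfsgLib.M24.pfun_bijective h2.1)]
    revert p
    decide +kernel
  rw [this]
  exact CfsgLib.M24.isM24_spec h

end Cfsg.Agent.S0372
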