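import Mathlib
import Cfsg.Agent.EqBase
import Cfsg.Agent.LibSylN28
import Cfsg.Agent.LibM24f
import Cfsg.Agent.S0370
import Cfsg.Agent.S0371
import Cfsg.Agent.S0372

set_option autoImplicit false

/-! The groups `23:11` and `PSL(2,23)` inside `M24` (helper28). -/

namespace CfsgLib.Psl28

open Cfsg CfsgLib.Golay CfsgLib.M24 CfsgLib.SylN28

/-- Sylow counting for a subgroup -/
theorem norm_arith {G : Type*} [Group G] [Finite G] {p : ℕ} (hp : p.Prime) (Y P : Subgroup G) (hPY : P ≤ Y)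
    (hP : Nat.card P = p) (hi : ¬ p * p ∣ Nat.card Y) :
    (∃ j, j ∣ p - 1 ∧ Nat.card ↥(Y ⊓ Subgroup.normalizer (P : Set G)) = j * Nat.card ↥(Y ⊓ Subgroup.centralizer (P : Set G))) ∧
      ∃ k, Nat.card Y = Nat.card ↥(Y ⊓ Subgroup.normalizer (P : Set G)) * k ∧ k % p = 1 := by
  have hS : Nat.card (P.subgroupOf Y) = p := by
    rw [← hP]; exact Nat.card_congr (Subgroup.subgroupOfEquivOfLe hPY).toEquiv
  obtain ⟨⟨j, hj, h1⟩, h2⟩ := normalizer_arith hp hS hi
  have e1 : (Subgroup.normalizer ((P.subgroupOf Y : Subgroup ↥Y) : Set ↥Y)).map Y.subtype = Y ⊓ Subgroup.normalizer (P : Set G) := by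
    rw [← Subgroup.subgroupOf_normalizer_eq hPY, Subgroup.subgroupOf_map_subtype, inf_comm]
  have e2 : (Subgroup.centralizer ((P.subgroupOf Y : Subgroup ↥Y) : Set ↥Y)).map Y.subtype = Y ⊓ Subgroup.centralizer (P : Set G) := by
    ext g
    rw [Subgroup.mem_map, Subgroup.mem_inf]
    constructor
    · rintro ⟨g, hg, rfl⟩
      refine ⟨g.2, ?_⟩
      rw [Subgroup.mem_centralizer_iff] at hg ⊢
      intro h hh
      exact congrArg Subtype.val (hg ⟨h, hPY hh⟩ (Subgroup.mem_subgroupOf.2 hh))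
    · rintro ⟨hg, hg'⟩
      refine ⟨⟨g, hg⟩, ?_, rfl⟩
      rw [Subgroup.mem_centralizer_iff] at hg' ⊢
      intro h hh
      exact Subtype.ext (hg' h (Subgroup.mem_subgroupOf.1 hh))
  have c1 : Nat.card (Subgroup.normalizer ((P.subgroupOf Y : Subgroup ↥Y) : Set ↥Y)) = Nat.card ↥(Y ⊓ Subgroup.normalizer (P : Set G)) := by
    rw [← e1, Subgroup.card_map_of_injective Y.subtype_injective]
  have c2 : Nat.card (Subgroup.centralizer ((P.subgroupOf Y : Subgroup ↥Y) : Set ↥Y)) = Nat.card ↥(Y ⊓ Subgroup.centralizer (P : Set G)) := by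
    rw [← e2, Subgroup.card_map_of_injective Y.subtype_injective]
  refine ⟨⟨j, hj, by rw [← c1, ← c2]; exact h1⟩, ?_⟩
  refine ⟨(Subgroup.normalizer ((P.subgroupOf Y : Subgroup ↥Y) : Set ↥Y)).index, ?_, ?_⟩
  · rw [← c1, Subgroup.card_mul_index]
  · have h3 : (Subgroup.normalizer ((P.subgroupOf Y : Subgroup ↥Y) : Set ↥Y)).index % p = 1 % p := h2
    rw [h3, Nat.mod_eq_of_lt hp.one_lt]

/-- translation -/
def tau (b : ZMod 23) : Equiv.Perm GolayPt := Equiv.optionCongr (Equiv.addRight b)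

/-- multiplication -/
def mu (u : (ZMod 23)ˣ) : Equiv.Perm GolayPt := Equiv.optionCongr (Units.mulLeft u)

@[simp] theorem tau_some (b x : ZMod 23) : tau b (some x) = some (x + b) := rfl
@[simp] theorem tau_none (b : ZMod 23) : tau b none = none := rfl
@[simp] theorem mu_some (u : (ZMod 23)ˣ) (x : ZMod 23) : mu u (some x) = some (u * x) := rfl
@[simp] theorem mu_none (u : (ZMod 23)ˣ) : mu u none = none := rfl

theorem ext2 {g h : Equiv.Perm GolayPt} (h0 : g none = h none) (h1 : ∀ x, g (some x) = h (some x)) : g = h := by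
  apply Equiv.ext
  intro x
  rcases x with _ | x
  · exact h0
  · exact h1 x

theorem tau_add (a b : ZMod 23) : tau a * tau b = tau (a + b) := by
  apply ext2
  · rfl
  · intro x
    show tau a (tau b (some x)) = _
    rw [tau_some, tau_some, tau_some]; congr 1; ring

theorem tau_zero : tau 0 = 1 := by
  apply ext2
  · rfl
  · intro x
    rw [tau_some, add_zero]; rfl

theorem tau_inv (a : ZMod 23) : (tau a)⁻¹ = tau (-a) := by
  rw [inv_eq_iff_mul_eq_one, tau_add, add_neg_cancel, tau_zero]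

theorem mu_mul (u v : (ZMod 23)ˣ) : mu u * mu v = mu (u * v) := by
  apply ext2
  · rfl
  · intro x
    show mu u (mu v (some x)) = _
    rw [mu_some, mu_some, mu_some]; congr 1; push_cast; ring

theorem mu_one : mu 1 = 1 := by
  apply ext2
  · rfl
  · intro x
    rw [mu_some, Units.val_one, one_mul]; rfl

theorem mu_inv (u : (ZMod 23)ˣ) : (mu u)⁻¹ = mu u⁻¹ := by
  rw [inv_eq_iff_mul_eq_one, mu_mul, mul_inv_cancel, mu_one]

theorem mu_tau (u : (ZMod 23)ˣ) (b : ZMod 23) : mu u * tau b = tau (u * b) * mu u := by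
  apply ext2
  · rfl
  · intro x
    show mu u (tau b (some x)) = tau (u * b) (mu u (some x))
    rw [tau_some, mu_some, mu_some, tau_some]; congr 1; ring

theorem tau_pow (n : ℕ) : tau 1 ^ n = tau (n : ZMod 23) := by
  induction n with
  | zero => rw [pow_zero, Nat.cast_zero, tau_zero]
  | succ n ih => rw [pow_succ, ih, tau_add]; congr 1; push_cast; ring

/-- the Frobenius group -/
def Bs : Subgroup (Equiv.Perm GolayPt) where
  carrier := {g | ∃ u : (ZMod 23)ˣ, IsSquare u ∧ ∃ b, g = tau b * mu u}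
  one_mem' := ⟨1, ⟨1, by simp⟩, 0, by rw [tau_zero, mu_one, one_mul]⟩
  mul_mem' := by
    rintro _ _ ⟨u, hu, b, rfl⟩ ⟨v, hv, c, rfl⟩
    refine ⟨u * v, hu.mul hv, b + u * c, ?_⟩
    rw [← tau_add, ← mu_mul, mul_assoc, ← mul_assoc (mu u), mu_tau]
    group
  inv_mem' := by
    rintro _ ⟨u, hu, b, rfl⟩
    refine ⟨u⁻¹, hu.inv, (u⁻¹ : (ZMod 23)ˣ) * (-b), ?_⟩
    rw [mul_inv_rev, tau_inv, mu_inv, mu_tau]

theorem mem_Bs {g : Equiv.Perm GolayPt} : g ∈ Bs ↔ ∃ u : (ZMod 23)ˣ, IsSquare u ∧ ∃ b, g = tau b * mu u := Iff.rfl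

theorem tau_mem (b : ZMod 23) : tau b ∈ Bs := ⟨1, ⟨1, by simp⟩, b, by rw [mu_one, mul_one]⟩
theorem mu_mem {u : (ZMod 23)ˣ} (hu : IsSquare u) : mu u ∈ Bs := ⟨u, hu, 0, by rw [tau_zero, one_mul]⟩

/-- the set of multiplications by squares -/
def Ms : Set (Equiv.Perm GolayPt) := {g | ∃ u : (ZMod 23)ˣ, IsSquare u ∧ g = Equiv.optionCongr (Units.mulLeft u)}

theorem Bs_eq : Subgroup.closure ({Equiv.optionCongr (Equiv.addRight (1 : ZMod 23))} ∪ Ms) = Bs := by
  apply le_antisymm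
  · rw [Subgroup.closure_le]
    rintro g (hg | ⟨u, hu, rfl⟩)
    · rw [Set.mem_singleton_iff] at hg
      rw [hg]; exact tau_mem 1
    · exact mu_mem hu
  · rintro g ⟨u, hu, b, rfl⟩
    apply mul_mem
    · have h1 : tau b = tau 1 ^ b.val := by rw [tau_pow, ZMod.natCast_val, ZMod.cast_id]
      rw [h1]
      have h2 : tau 1 ∈ Subgroup.closure ({Equiv.optionCongr (Equiv.addRight (1 : ZMod 23))} ∪ Ms) :=
        Subgroup.subset_closure (Or.inl rfl)
      exact pow_mem h2 _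
    · exact Subgroup.subset_closure (Or.inr ⟨u, hu, rfl⟩)

theorem card_sq : Nat.card {u : (ZMod 23)ˣ // IsSquare u} = 11 := by
  rw [Nat.card_eq_fintype_card]; decide +kernel

theorem card_Bs : Nat.card Bs = 253 := by
  let f : {u : (ZMod 23)ˣ // IsSquare u} × ZMod 23 → Bs := fun x => ⟨tau x.2 * mu x.1, x.1, x.1.2, x.2, rfl⟩
  have hf : Function.Bijective f := by
    constructor
    · rintro ⟨⟨u, hu⟩, b⟩ ⟨⟨v, hv⟩, c⟩ h
      have h1 : tau b * mu u = tau c * mu v := congrArg Subtype.val h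
      have h2 : tau b (mu u (some 0)) = tau c (mu v (some 0)) := DFunLike.congr_fun h1 (some 0)
      have h3 : tau b (mu u (some 1)) = tau c (mu v (some 1)) := DFunLike.congr_fun h1 (some 1)
      rw [mu_some, mu_some, tau_some, tau_some, Option.some_inj] at h2 h3
      rw [mul_zero, mul_zero, zero_add, zero_add] at h2
      rw [mul_one, mul_one, h2, add_left_inj] at h3
      have h4 : u = v := Units.ext h3
      subst h4; subst h2; rfl
    · rintro ⟨g, u, hu, b, rfl⟩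
      exact ⟨⟨⟨u, hu⟩, b⟩, rfl⟩
  rw [← Nat.card_congr (Equiv.ofBijective f hf), Nat.card_prod, card_sq, Nat.card_zmod]

theorem Bs_le : Bs ≤ M24 ⊓ St none := by
  rw [← Bs_eq, Subgroup.closure_le]
  rintro g (hg | ⟨u, hu, rfl⟩)
  · rw [Set.mem_singleton_iff] at hg
    rw [hg]
    exact ⟨Cfsg.Agent.S0370.result, rfl⟩
  · exact ⟨Cfsg.Agent.S0371.result u hu, rfl⟩

end CfsgLib.Psl28
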