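import Mathlib
import Cfsg.Agent.EqBase
import Cfsg.Agent.LibPsl28

set_option autoImplicit false

/-! The order of `PSL(2,23)` inside `M24` (helper28). -/

namespace CfsgLib.Psl28

open Cfsg CfsgLib.Golay CfsgLib.M24 CfsgLib.SylN28

theorem pinv_sq : projInv * projInv = 1 := by
  apply Equiv.ext
  show ∀ x : GolayPt, projInv (projInv x) = x
  decide +kernel

theorem pinv_inv : projInv⁻¹ = projInv := inv_eq_of_mul_eq_one_left pinv_sq

theorem pinv_mu (u : (ZMod 23)ˣ) : projInv * mu u = mu u⁻¹ * projInv := by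
  apply Equiv.ext
  show ∀ x : GolayPt, projInv (mu u x) = mu u⁻¹ (projInv x)
  revert u
  show ∀ u : (ZMod 23)ˣ, ∀ x : GolayPt, projInv ((Equiv.optionCongr (Units.mulLeft u)) x) = (Equiv.optionCongr (Units.mulLeft u⁻¹)) (projInv x)
  decide +kernel

theorem pow22 : ∀ c : ZMod 23, c ≠ 0 → c ^ 22 = 1 := by decide +kernel

theorem pinv_tau_chk : ∀ c : ZMod 23, c ≠ 0 → ∀ x : GolayPt, projInv ((projInv x).map (· + c)) =
    ((projInv (x.map (· + (-(c ^ 21))))).map (c ^ 20 * ·)).map (· + (-(c ^ 21))) := by decide +kernel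

theorem pinv_tau {c : ZMod 23} (hc : c ≠ 0) : ∃ a ∈ Bs, projInv * tau c * projInv = a * projInv * tau (-(c ^ 21)) := by
  have h1 : c ^ 20 * c ^ 2 = 1 := by rw [← pow_add]; exact pow22 c hc
  have h2 : c ^ 10 * c ^ 12 = 1 := by rw [← pow_add]; exact pow22 c hc
  let u : (ZMod 23)ˣ := ⟨c ^ 20, c ^ 2, h1, by rw [mul_comm]; exact h1⟩
  let v : (ZMod 23)ˣ := ⟨c ^ 10, c ^ 12, h2, by rw [mul_comm]; exact h2⟩
  have hu : IsSquare u := ⟨v, Units.ext (by show c ^ 20 = c ^ 10 * c ^ 10; rw [← pow_add])⟩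
  refine ⟨tau (-(c ^ 21)) * mu u, ⟨u, hu, _, rfl⟩, ?_⟩
  apply Equiv.ext
  intro x
  exact pinv_tau_chk c hc x

/-- the generating set -/
def Gs : Subgroup (Equiv.Perm GolayPt) :=
  Subgroup.closure ({Equiv.optionCongr (Equiv.addRight (1 : ZMod 23)), projInv} ∪ Ms)

theorem Bs_le_Gs : Bs ≤ Gs := by
  rw [← Bs_eq]
  apply Subgroup.closure_mono
  apply Set.union_subset_union_left
  rw [Set.singleton_subset_iff]
  exact Set.mem_insert _ _

theorem pinv_mem : projInv ∈ Gs := Subgroup.subset_closure (Or.inl (Or.inr rfl))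

theorem Gs_le : Gs ≤ M24 := by
  rw [Gs, Subgroup.closure_le]
  rintro g (hg | ⟨u, hu, rfl⟩)
  · rcases hg with hg | hg
    · rw [hg]
      exact Cfsg.Agent.S0370.result
    · rw [Set.mem_singleton_iff] at hg
      rw [hg]; exact Cfsg.Agent.S0372.result
  · exact Cfsg.Agent.S0371.result u hu

/-- the big cell decomposition -/
def cell : Set (Equiv.Perm GolayPt) := {g | g ∈ Bs ∨ ∃ a ∈ Bs, ∃ c, g = a * projInv * tau c}

theorem cell_tau {g : Equiv.Perm GolayPt} (hg : g ∈ cell) (b : ZMod 23) : g * tau b ∈ cell := by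
  rcases hg with hg | ⟨a, ha, c, rfl⟩
  · exact Or.inl (mul_mem hg (tau_mem b))
  · exact Or.inr ⟨a, ha, c + b, by rw [mul_assoc, tau_add]⟩

theorem cell_mu {g : Equiv.Perm GolayPt} (hg : g ∈ cell) {u : (ZMod 23)ˣ} (hu : IsSquare u) : g * mu u ∈ cell := by
  rcases hg with hg | ⟨a, ha, c, rfl⟩
  · exact Or.inl (mul_mem hg (mu_mem hu))
  · refine Or.inr ⟨a * mu u⁻¹, mul_mem ha (mu_mem hu.inv), (u⁻¹ : (ZMod 23)ˣ) * c, ?_⟩
    have h1 : tau c * mu u = mu u * tau ((u⁻¹ : (ZMod 23)ˣ) * c) := by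
      rw [mu_tau, Units.mul_inv_cancel_left]
    calc a * projInv * tau c * mu u = a * projInv * (tau c * mu u) := by group
      _ = a * (projInv * mu u) * tau ((u⁻¹ : (ZMod 23)ˣ) * c) := by rw [h1]; group
      _ = _ := by rw [pinv_mu]; group

theorem cell_pinv {g : Equiv.Perm GolayPt} (hg : g ∈ cell) : g * projInv ∈ cell := by
  rcases hg with hg | ⟨a, ha, c, rfl⟩
  · exact Or.inr ⟨g, hg, 0, by rw [tau_zero, mul_one]⟩
  · by_cases hc : c = 0
    · left
      rw [hc, tau_zero, mul_one, mul_assoc, pinv_sq, mul_one]; exact ha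
    · obtain ⟨a', ha', h⟩ := pinv_tau hc
      refine Or.inr ⟨a * a', mul_mem ha ha', -(c ^ 21), ?_⟩
      rw [mul_assoc (a * projInv), mul_assoc a projInv, ← mul_assoc projInv, h]
      group

theorem Gs_cell : (Gs : Set (Equiv.Perm GolayPt)) ⊆ cell := by
  intro g hg
  refine Subgroup.closure_induction_right (p := fun x _ => x ∈ cell) ?_ ?_ ?_ hg
  · exact Or.inl (one_mem _)
  · intro x _ y hy hx
    rcases hy with hy | ⟨u, hu, rfl⟩
    · rcases hy with hy | hy
      · rw [hy]; exact cell_tau hx 1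
      · rw [Set.mem_singleton_iff] at hy
        rw [hy]; exact cell_pinv hx
    · exact cell_mu hx hu
  · intro x _ y hy hx
    rcases hy with hy | ⟨u, hu, rfl⟩
    · rcases hy with hy | hy
      · rw [hy]
        have : (tau 1)⁻¹ = tau (-1) := tau_inv 1
        show x * (tau 1)⁻¹ ∈ cell
        rw [this]; exact cell_tau hx _
      · rw [Set.mem_singleton_iff] at hy
        rw [hy, pinv_inv]; exact cell_pinv hx
    · show x * (mu u)⁻¹ ∈ cell
      rw [mu_inv]; exact cell_mu hx hu.inv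

theorem cell_ncard : cell.ncard ≤ 6072 := by
  have h1 : cell ⊆ (Bs : Set (Equiv.Perm GolayPt)) ∪ (fun x : Bs × ZMod 23 => (x.1 : Equiv.Perm GolayPt) * projInv * tau x.2) '' Set.univ := by
    rintro g (hg | ⟨a, ha, c, rfl⟩)
    · exact Or.inl hg
    · exact Or.inr ⟨(⟨a, ha⟩, c), trivial, rfl⟩
  have h2 := Set.ncard_le_ncard h1 (Set.toFinite _)
  have h3 := Set.ncard_union_le (Bs : Set (Equiv.Perm GolayPt)) ((fun x : Bs × ZMod 23 => (x.1 : Equiv.Perm GolayPt) * projInv * tau x.2) '' Set.univ)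
  have h4 := Set.ncard_image_le (f := fun x : Bs × ZMod 23 => (x.1 : Equiv.Perm GolayPt) * projInv * tau x.2) (s := Set.univ) (Set.toFinite _)
  have h5 : (Bs : Set (Equiv.Perm GolayPt)).ncard = 253 := by
    rw [← Nat.card_coe_set_eq]; exact card_Bs
  rw [Set.ncard_univ, Nat.card_prod, card_Bs, Nat.card_zmod] at h4
  omega

theorem orbit_none {Y : Subgroup (Equiv.Perm GolayPt)} (hY : Gs ≤ Y) : (MulAction.orbit Y (none : GolayPt)).ncard = 24 := by
  rw [ncard_orbit_eq Y Finset.univ none (Finset.mem_univ _) (fun _ _ _ _ => Finset.mem_univ _), card_univ_pt]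
  intro b _
  rcases b with _ | b
  · exact ⟨1, one_mem _, rfl⟩
  · refine ⟨tau b * projInv, mul_mem (hY (Bs_le_Gs (tau_mem b))) (hY pinv_mem), ?_⟩
    show tau b (projInv none) = some b
    have : projInv none = some 0 := rfl
    rw [this, tau_some, zero_add]

theorem card_Gs : Nat.card Gs = 6072 := by
  have h1 : Nat.card Gs ≤ 6072 := by
    have h2 := Set.ncard_le_ncard Gs_cell (Set.toFinite _)
    have h3 := cell_ncard
    have h4 : (Gs : Set (Equiv.Perm GolayPt)).ncard = Nat.card Gs := by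
      rw [← Nat.card_coe_set_eq]; rfl
    omega
  have h2 := card_inf_stabilizer Gs (none : GolayPt)
  rw [orbit_none le_rfl] at h2
  have h3 : Bs ≤ Gs ⊓ MulAction.stabilizer (Equiv.Perm GolayPt) (none : GolayPt) := le_inf Bs_le_Gs (Bs_le.trans inf_le_right)
  have h4 := Subgroup.card_le_of_le h3
  rw [card_Bs] at h4
  omega

end CfsgLib.Psl28
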