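import Mathlib
import Cfsg.Agent.EqBase
import Cfsg.Agent.LibPslB28

set_option autoImplicit false

/-! Maximality of `23:11` in `M23` and of `PSL(2,23)` in `M24` (helper28). -/

namespace CfsgLib.Psl28

open Cfsg CfsgLib.Golay CfsgLib.M24 CfsgLib.SylN28

/-- `M23` as permutations -/
abbrev Mx : Subgroup (Equiv.Perm GolayPt) := M24 ⊓ St none

theorem card_Mx : Nat.card Mx = 10200960 := card_M23 none

theorem order_of_prime {g : Equiv.Perm GolayPt} {p : ℕ} (hp : p.Prime) (h : g ^ p = 1) (h1 : g ≠ 1) : orderOf g = p := by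
  haveI : Fact p.Prime := ⟨hp⟩
  exact orderOf_eq_prime h h1

theorem ord_tau : orderOf (tau 1) = 23 := by
  apply order_of_prime (by norm_num)
  · rw [tau_pow]
    have : ((23 : ℕ) : ZMod 23) = 0 := by decide
    rw [this, tau_zero]
  · intro h
    have := DFunLike.congr_fun h (some 0)
    rw [tau_some] at this
    exact absurd (Option.some_inj.1 this) (by decide)

/-- the unit 2 -/
def two : (ZMod 23)ˣ := ⟨2, 12, by decide, by decide⟩

theorem two_sq : IsSquare two := ⟨⟨5, 14, by decide, by decide⟩, Units.ext (by decide)⟩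

theorem mu_pow (u : (ZMod 23)ˣ) (n : ℕ) : mu u ^ n = mu (u ^ n) := by
  induction n with
  | zero => rw [pow_zero, pow_zero, mu_one]
  | succ n ih => rw [pow_succ, pow_succ, ih, mu_mul]

theorem ord_mu : orderOf (mu two) = 11 := by
  apply order_of_prime (by norm_num)
  · rw [mu_pow]
    have : two ^ 11 = 1 := by decide
    rw [this, mu_one]
  · intro h
    have := DFunLike.congr_fun h (some 1)
    rw [mu_some] at this
    exact absurd (Option.some_inj.1 this) (by decide)

theorem orb_tau : (MulAction.orbit (Subgroup.zpowers (tau 1)) (some 0 : GolayPt)) = {x | x ≠ none} := by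
  ext x
  constructor
  · rintro ⟨⟨_, n, rfl⟩, rfl⟩ h
    have h1 : ((tau 1 : Equiv.Perm GolayPt) ^ n) (some 0) = none := h
    have h2 : ((tau 1 : Equiv.Perm GolayPt) ^ n) none = none := by
      have h3 : tau 1 ∈ St (none : GolayPt) := rfl
      exact Subgroup.zpow_mem _ h3 n
    have := ((tau 1 : Equiv.Perm GolayPt) ^ n).injective (h1.trans h2.symm)
    exact absurd this (by decide)
  · intro hx
    rcases x with _ | x
    · exact absurd rfl hx
    · refine ⟨⟨tau 1 ^ x.val, pow_mem (Subgroup.mem_zpowers _) _⟩, ?_⟩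
      show (tau 1 ^ x.val) (some 0) = some x
      rw [tau_pow, tau_some, ZMod.natCast_val, ZMod.cast_id, zero_add]

theorem faith {g : Equiv.Perm GolayPt} (hg : g ∈ M24) (Y : Finset GolayPt) (hY : 9 ≤ Y.card) (h : ∀ x ∈ Y, g x = x) : g = 1 := by
  apply eq_one_of_nine hg
  refine hY.trans (Finset.card_le_card ?_)
  intro x hx
  rw [Finset.mem_filter]
  exact ⟨Finset.mem_univ _, h x hx⟩

theorem cent23 : Mx ⊓ Subgroup.centralizer (Subgroup.zpowers (tau 1) : Set (Equiv.Perm GolayPt)) ≤ Subgroup.zpowers (tau 1) := by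
  intro c hc0
  obtain ⟨hc, hcc⟩ := Subgroup.mem_inf.1 hc0
  rw [Subgroup.mem_centralizer_iff] at hcc
  have h1 : Commute c (tau 1) := (hcc _ (Subgroup.mem_zpowers _)).symm
  -- compare with a translation
  obtain ⟨⟨w, hw⟩, hwx⟩ : c (some 0) ∈ MulAction.orbit (Subgroup.zpowers (tau 1)) (some 0 : GolayPt) := by
    rw [orb_tau]
    intro h
    have : c none = none := hc.2
    exact absurd (c.injective (h.trans this.symm)) (by decide)
  have hwx' : w (some 0) = c (some 0) := hwx
  have hw1 : Commute w (tau 1) := by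
    obtain ⟨n, rfl⟩ := hw
    exact (Commute.refl (tau 1)).zpow_left n
  have h2 : Commute (w⁻¹ * c) (tau 1) := (hw1.inv_left).mul_left h1
  have h3 : w⁻¹ * c = 1 := by
    apply ext2
    · have hwn : w none = none := by
        obtain ⟨n, rfl⟩ := hw
        have h3 : tau 1 ∈ St (none : GolayPt) := rfl
        exact Subgroup.zpow_mem _ h3 n
      have hcn : c none = none := hc.2
      show w⁻¹ (c none) = none
      rw [hcn, Equiv.Perm.inv_eq_iff_eq, hwn]
    · intro x
      have h4 : (w⁻¹ * c) ((tau 1 ^ x.val) (some 0)) = (tau 1 ^ x.val) ((w⁻¹ * c) (some 0)) :=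
        DFunLike.congr_fun (h2.pow_right x.val).eq (some 0)
      have h5 : (w⁻¹ * c) (some 0) = some 0 := by
        show w⁻¹ (c (some 0)) = some 0
        rw [← hwx']; simp
      rw [h5, tau_pow, tau_some, ZMod.natCast_val, ZMod.cast_id, zero_add] at h4
      exact h4
  rw [inv_mul_eq_one] at h3
  rw [← h3]; exact hw

/-- the powers of two act on residues and nonresidues -/
theorem pw2 : ∀ x : ZMod 23, x ≠ 0 → ∃ n < 11, x = 2 ^ n ∨ x = 2 ^ n * 5 := by decide +kernel

theorem two_pow_val (n : ℕ) : ((two ^ n : (ZMod 23)ˣ) : ZMod 23) = 2 ^ n := by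
  rw [Units.val_pow_eq_pow_val]; rfl

theorem pow2_inj : ∀ n < 11, ∀ m < 11, (2 : ZMod 23) ^ n = 2 ^ m → n = m := by decide +kernel

/-- elements commuting with `mu two` in `M24` fixing one point of each ... -/
theorem cent11_aux {c : Equiv.Perm GolayPt} (hc : c ∈ M24) (h : Commute c (mu two)) {a : ZMod 23} (ha : a ≠ 0)
    (hca : c (some a) = some a) : c = 1 := by
  apply faith hc ((Finset.range 11).image fun n => (some (2 ^ n * a) : GolayPt))
  · rw [Finset.card_image_of_injOn]
    · rw [Finset.card_range]; norm_num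
    · intro n hn m hm hnm
      rw [Finset.coe_range, Set.mem_Iio] at hn hm
      have h1 : (2 : ZMod 23) ^ n * a = 2 ^ m * a := Option.some_inj.1 hnm
      haveI : Fact (Nat.Prime 23) := ⟨by norm_num⟩
      have h2 := mul_right_cancel₀ ha h1
      exact pow2_inj n hn m hm h2
  · intro x hx
    rw [Finset.mem_image] at hx
    obtain ⟨n, _, rfl⟩ := hx
    have h4 : (c * mu two ^ n) (some a) = (mu two ^ n * c) (some a) := by rw [(h.pow_right n).eq]
    rw [Equiv.Perm.mul_apply, Equiv.Perm.mul_apply, hca, mu_pow, mu_some, two_pow_val] at h4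
    exact h4

theorem c_zero {c : Equiv.Perm GolayPt} (hc : c none = none) (h : Commute c (mu two)) : c (some 0) = some 0 := by
  have h1 : mu two (c (some 0)) = c (some 0) := by
    have h2 : (c * mu two) (some 0) = (mu two * c) (some 0) := by rw [h.eq]
    rw [Equiv.Perm.mul_apply, Equiv.Perm.mul_apply, mu_some, mul_zero] at h2
    exact h2.symm
  have h3 : ∀ y : GolayPt, (y.map (2 * ·)) = y → y = none ∨ y = some 0 := by decide +kernel
  rcases h3 _ h1 with h4 | h4
  · exact absurd (c.injective (h4.trans hc.symm)) (by decide)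
  · exact h4

theorem cent11 : Nat.card ↥(Mx ⊓ Subgroup.centralizer (Subgroup.zpowers (mu two) : Set (Equiv.Perm GolayPt))) ≤ 22 := by
  -- an element is determined by the image of the point 1
  let C := Mx ⊓ Subgroup.centralizer (Subgroup.zpowers (mu two) : Set (Equiv.Perm GolayPt))
  have hC : ∀ c ∈ C, c ∈ M24 ∧ c none = none ∧ Commute c (mu two) := by
    intro c hc0
    obtain ⟨hc, hcc⟩ := Subgroup.mem_inf.1 hc0
    rw [Subgroup.mem_centralizer_iff] at hcc
    exact ⟨hc.1, hc.2, (hcc _ (Subgroup.mem_zpowers _)).symm⟩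
  have hmem : ∀ c : C, (c : Equiv.Perm GolayPt) (some 1) ∈ ((Finset.univ.erase none).erase (some 0) : Finset GolayPt) := by
    intro c
    obtain ⟨h1, h2, h3⟩ := hC c c.2
    rw [Finset.mem_erase, Finset.mem_erase]
    refine ⟨fun h => ?_, fun h => ?_, Finset.mem_univ _⟩
    · exact absurd ((c : Equiv.Perm GolayPt).injective (h.trans (c_zero h2 h3).symm)) (by decide)
    · exact absurd ((c : Equiv.Perm GolayPt).injective (h.trans h2.symm)) (by decide)
  let f : C → ((Finset.univ.erase none).erase (some 0) : Finset GolayPt) := fun c => ⟨_, hmem c⟩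
  have hf : Function.Injective f := by
    intro c c' h
    have h0 : (c : Equiv.Perm GolayPt) (some 1) = (c' : Equiv.Perm GolayPt) (some 1) := congrArg Subtype.val h
    obtain ⟨h1, h2, h3⟩ := hC c c.2
    obtain ⟨h1', h2', h3'⟩ := hC c' c'.2
    have h4 : (c : Equiv.Perm GolayPt)⁻¹ * c' = 1 := by
      apply cent11_aux (mul_mem (inv_mem h1) h1') (h3.inv_left.mul_left h3') (a := 1) (by decide)
      show (c : Equiv.Perm GolayPt)⁻¹ ((c' : Equiv.Perm GolayPt) (some 1)) = some 1
      rw [← h0]; simp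
    rw [inv_mul_eq_one] at h4
    exact Subtype.ext h4
  have h5 := Nat.card_le_card_of_injective f hf
  rw [Nat.card_eq_fintype_card (α := ↥((Finset.univ.erase none).erase (some 0) : Finset GolayPt)), Fintype.card_coe,
    Finset.card_erase_of_mem (by decide), Finset.card_erase_of_mem (Finset.mem_univ _), card_univ_pt] at h5
  exact h5

theorem card_P : Nat.card (Subgroup.zpowers (tau 1)) = 23 := by rw [Nat.card_zpowers, ord_tau]

theorem card_Q : Nat.card (Subgroup.zpowers (mu two)) = 11 := by rw [Nat.card_zpowers, ord_mu]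

theorem P_le : Subgroup.zpowers (tau 1) ≤ Bs := by
  rw [Subgroup.zpowers_le]; exact tau_mem 1

theorem Q_le : Subgroup.zpowers (mu two) ≤ Bs := by
  rw [Subgroup.zpowers_le]; exact mu_mem two_sq

theorem le_cent (g : Equiv.Perm GolayPt) : Subgroup.zpowers g ≤ Subgroup.centralizer (Subgroup.zpowers g : Set (Equiv.Perm GolayPt)) := by
  rintro _ ⟨n, rfl⟩
  rw [Subgroup.mem_centralizer_iff]
  rintro _ ⟨m, rfl⟩
  exact ((Commute.refl g).zpow_zpow m n).eq

theorem Bs_norm : Bs ≤ Subgroup.normalizer (Subgroup.zpowers (tau 1) : Set (Equiv.Perm GolayPt)) := by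
  rw [Subgroup.le_normalizer_iff]
  rintro _ ⟨u, hu, b, rfl⟩ _ ⟨n, rfl⟩
  have h1 : tau b * mu u * tau 1 * (tau b * mu u)⁻¹ = tau (u : ZMod 23) := by
    have h2 : mu u * tau 1 = tau (u : ZMod 23) * mu u := by rw [mu_tau, mul_one]
    calc tau b * mu u * tau 1 * (tau b * mu u)⁻¹ = tau b * (mu u * tau 1) * (mu u)⁻¹ * (tau b)⁻¹ := by group
      _ = (tau b * tau (u : ZMod 23)) * (tau b)⁻¹ := by rw [h2]; group
      _ = (tau (u : ZMod 23) * tau b) * (tau b)⁻¹ := by rw [tau_add, tau_add, add_comm]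
      _ = _ := by group
  have h3 : tau b * mu u * tau 1 ^ n * (tau b * mu u)⁻¹ = (tau b * mu u * tau 1 * (tau b * mu u)⁻¹) ^ n := (conj_zpow).symm
  show tau b * mu u * tau 1 ^ n * (tau b * mu u)⁻¹ ∈ _
  rw [h3, h1]
  apply zpow_mem
  have h4 : tau (u : ZMod 23) = tau 1 ^ (u : ZMod 23).val := by rw [tau_pow, ZMod.natCast_val, ZMod.cast_id]
  rw [h4]
  exact pow_mem (Subgroup.mem_zpowers _) _

theorem card_N23 : Nat.card ↥(Mx ⊓ Subgroup.normalizer (Subgroup.zpowers (tau 1) : Set (Equiv.Perm GolayPt))) = 253 := by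
  obtain ⟨⟨j, hj, h1⟩, k, h2, h3⟩ := norm_arith (p := 23) (by norm_num) Mx (Subgroup.zpowers (tau 1)) (P_le.trans Bs_le) card_P
    (by rw [card_Mx]; norm_num)
  have hc : Nat.card ↥(Mx ⊓ Subgroup.centralizer (Subgroup.zpowers (tau 1) : Set (Equiv.Perm GolayPt))) = 23 := by
    apply le_antisymm
    · exact (Subgroup.card_le_of_le cent23).trans card_P.le
    · exact card_P.ge.trans (Subgroup.card_le_of_le (le_inf (P_le.trans Bs_le) (le_cent _)))
  rw [hc] at h1
  rw [h1, card_Mx] at h2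
  have hj2 : j ≤ 22 := Nat.le_of_dvd (by norm_num) hj
  have : j = 11 := by
    interval_cases j <;> omega
  rw [h1, this]

theorem card_N11 : Nat.card ↥(Mx ⊓ Subgroup.normalizer (Subgroup.zpowers (mu two) : Set (Equiv.Perm GolayPt))) = 55 := by
  obtain ⟨⟨j, hj, h1⟩, k, h2, h3⟩ := norm_arith (p := 11) (by norm_num) Mx (Subgroup.zpowers (mu two)) (Q_le.trans Bs_le) card_Q
    (by rw [card_Mx]; norm_num)
  have hc1 := cent11
  have hc2 : 11 ∣ Nat.card ↥(Mx ⊓ Subgroup.centralizer (Subgroup.zpowers (mu two) : Set (Equiv.Perm GolayPt))) := by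
    rw [← card_Q]; exact Subgroup.card_dvd_of_le (le_inf (Q_le.trans Bs_le) (le_cent _))
  have hc3 : 0 < Nat.card ↥(Mx ⊓ Subgroup.centralizer (Subgroup.zpowers (mu two) : Set (Equiv.Perm GolayPt))) := Nat.card_pos
  generalize Nat.card ↥(Mx ⊓ Subgroup.centralizer (Subgroup.zpowers (mu two) : Set (Equiv.Perm GolayPt))) = c at *
  obtain ⟨i, rfl⟩ := hc2
  have hi : i = 1 ∨ i = 2 := by omega
  rw [h1, card_Mx] at h2
  have hj2 : j ≤ 10 := Nat.le_of_dvd (by norm_num) hj
  rw [h1]
  rcases hi with rfl | rfl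
  · have : j = 5 := by
      interval_cases j <;> omega
    rw [this]
  · exfalso
    interval_cases j <;> omega

theorem k_chk : ∀ t < 1754, 40320 % (1 + 23 * t) = 0 → (1 + 23 * t) % 11 = 1 ∨ (1 + 23 * t) % 11 = 5 → t = 0 ∨ t = 1753 := by
  decide +kernel

/-- every group between `23:11` and `M23` is one of the two -/
theorem Y_dich {Y : Subgroup (Equiv.Perm GolayPt)} (h1 : Bs ≤ Y) (h2 : Y ≤ Mx) : Y = Bs ∨ Y = Mx := by
  have hdvd : Nat.card Y ∣ 10200960 := by rw [← card_Mx]; exact Subgroup.card_dvd_of_le h2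
  have hnd : ∀ m, ¬ m ∣ 10200960 → ¬ m ∣ Nat.card Y := fun m hm h => hm (h.trans hdvd)
  obtain ⟨-, k, hk1, hk2⟩ := norm_arith (p := 23) (by norm_num) Y (Subgroup.zpowers (tau 1)) (P_le.trans h1) card_P
    (hnd _ (by norm_num))
  obtain ⟨-, k', hk1', hk2'⟩ := norm_arith (p := 11) (by norm_num) Y (Subgroup.zpowers (mu two)) (Q_le.trans h1) card_Q
    (hnd _ (by norm_num))
  have e1 : Nat.card ↥(Y ⊓ Subgroup.normalizer (Subgroup.zpowers (tau 1) : Set (Equiv.Perm GolayPt))) = 253 := by
    apply le_antisymm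
    · rw [← card_N23]; exact Subgroup.card_le_of_le (inf_le_inf_right _ h2)
    · rw [← card_Bs]; exact Subgroup.card_le_of_le (le_inf h1 Bs_norm)
  have e2 : Nat.card ↥(Y ⊓ Subgroup.normalizer (Subgroup.zpowers (mu two) : Set (Equiv.Perm GolayPt))) ∣ 55 := by
    rw [← card_N11]; exact Subgroup.card_dvd_of_le (inf_le_inf_right _ h2)
  have e3 : 11 ∣ Nat.card ↥(Y ⊓ Subgroup.normalizer (Subgroup.zpowers (mu two) : Set (Equiv.Perm GolayPt))) := by
    rw [← card_Q]
    exact Subgroup.card_dvd_of_le (le_inf (Q_le.trans h1) Subgroup.le_normalizer)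
  rw [e1] at hk1
  obtain ⟨i, hi⟩ := e3
  rw [hi] at e2 hk1'
  have hi5 : i = 1 ∨ i = 5 := by
    have h5 : i ∣ 5 := by
      have : 11 * i ∣ 11 * 5 := e2
      exact Nat.dvd_of_mul_dvd_mul_left (by norm_num) this
    exact (Nat.dvd_prime (by norm_num)).1 h5
  have hkd : k ∣ 40320 := by
    rw [hk1] at hdvd
    have : 253 * k ∣ 253 * 40320 := hdvd
    exact Nat.dvd_of_mul_dvd_mul_left (by norm_num) this
  have hkle : k ≤ 40320 := Nat.le_of_dvd (by norm_num) hkd
  have hk11 : k % 11 = 1 ∨ k % 11 = 5 := by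
    rw [hk1] at hk1'
    rcases hi5 with rfl | rfl
    · left; omega
    · right; omega
  obtain ⟨t, rfl⟩ : ∃ t, k = 1 + 23 * t := ⟨k / 23, by omega⟩
  rcases k_chk t (by omega) (Nat.mod_eq_zero_of_dvd hkd) hk11 with rfl | rfl
  · left
    apply (Subgroup.eq_of_le_of_card_ge h1 _).symm
    rw [hk1, card_Bs]
  · right
    apply Subgroup.eq_of_le_of_card_ge h2
    rw [hk1, card_Mx]

theorem X_dich {X : Subgroup (Equiv.Perm GolayPt)} (h1 : Gs ≤ X) (h2 : X ≤ M24) : X = Gs ∨ X = M24 := by
  have h3 := card_inf_stabilizer X (none : GolayPt)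
  rw [orbit_none h1] at h3
  rcases Y_dich (Y := X ⊓ St none) (le_inf (Bs_le_Gs.trans h1) (Bs_le.trans inf_le_right)) (inf_le_inf_right _ h2) with h4 | h4
  · left
    have h5 : X ⊓ MulAction.stabilizer (Equiv.Perm GolayPt) (none : GolayPt) = Bs := h4
    rw [h5, card_Bs] at h3
    apply (Subgroup.eq_of_le_of_card_ge h1 _).symm
    rw [← h3, card_Gs]
  · right
    have h5 : X ⊓ MulAction.stabilizer (Equiv.Perm GolayPt) (none : GolayPt) = Mx := h4
    rw [h5, card_Mx] at h3
    apply Subgroup.eq_of_le_of_card_ge h2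
    rw [← h3]
    have : Nat.card M24 = 244823040 := card_M24
    rw [this]

theorem coatom_of {G : Type*} [Group G] {A M : Subgroup G} (hAM : A ≤ M) (hne : A ≠ M)
    (h : ∀ Y : Subgroup G, A ≤ Y → Y ≤ M → Y = A ∨ Y = M) : IsCoatom (A.subgroupOf M) := by
  constructor
  · intro h1
    apply hne
    exact le_antisymm hAM (Subgroup.subgroupOf_eq_top.1 h1)
  · intro K hK
    have h1 : A ≤ K.map M.subtype := by
      intro a ha
      exact ⟨⟨a, hAM ha⟩, hK.le (Subgroup.mem_subgroupOf.2 ha), rfl⟩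
    rcases h _ h1 (Subgroup.map_subtype_le K) with h2 | h2
    · exfalso
      apply hK.ne
      ext x
      rw [Subgroup.mem_subgroupOf, ← h2]
      constructor
      · rintro ⟨y, hy, hyx⟩
        have : y = x := Subtype.ext hyx
        rw [← this]; exact hy
      · intro hx
        exact ⟨x, hx, rfl⟩
    · rw [eq_top_iff]
      intro x _
      have : (x : G) ∈ K.map M.subtype := by rw [h2]; exact x.2
      obtain ⟨y, hy, hyx⟩ := this
      have : y = x := Subtype.ext hyx
      rw [← this]; exact hy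

theorem main : (Gs ≤ M24 ∧ Nat.card Gs = 6072 ∧ IsCoatom (Gs.subgroupOf M24)) ∧ (Bs ≤ M24 ⊓ MulAction.stabilizer (Equiv.Perm GolayPt) (none : GolayPt) ∧
    Nat.card Bs = 253 ∧ IsCoatom ((Bs.subgroupOf M24).subgroupOf (MulAction.stabilizer M24 (none : GolayPt)))) := by
  refine ⟨⟨Gs_le, card_Gs, coatom_of Gs_le ?_ (fun Y h h' => X_dich h h')⟩, Bs_le, card_Bs, coatom_of ?_ ?_ ?_⟩
  · intro h
    have h1 := card_Gs
    have h2 : Nat.card M24 = 244823040 := card_M24
    rw [h] at h1
    omega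
  · intro g hg
    exact (Bs_le (Subgroup.mem_subgroupOf.1 hg)).2
  · intro h
    have h3 : Nat.card ↥(Bs.subgroupOf M24) = 253 := by
      rw [Nat.card_congr (Subgroup.subgroupOfEquivOfLe (Bs_le.trans inf_le_left)).toEquiv, card_Bs]
    rw [h, card_of_map (map_stab none), card_M23] at h3
    omega
  · intro Y hY hY'
    have hB : Bs ≤ Y.map M24.subtype := by
      intro g hg
      exact ⟨⟨g, (Bs_le hg).1⟩, hY (Subgroup.mem_subgroupOf.2 hg), rfl⟩
    have hM : Y.map M24.subtype ≤ Mx := by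
      exact (Subgroup.map_mono hY').trans (map_stab none).le
    rcases Y_dich hB hM with h | h
    · left
      apply le_antisymm _ hY
      intro g hg
      rw [Subgroup.mem_subgroupOf, ← h]
      exact ⟨g, hg, rfl⟩
    · right
      apply le_antisymm hY'
      intro g hg
      have : (g : Equiv.Perm GolayPt) ∈ Y.map M24.subtype := by rw [h]; exact ⟨g.2, hg⟩
      obtain ⟨y, hy, hyx⟩ := this
      have : y = g := Subtype.ext hyx
      rw [← this]; exact hy

end CfsgLib.Psl28
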