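import Mathlib
import Cfsg.Agent.EqBase
import Cfsg.Agent.LibSyn28
import Cfsg.Agent.LibSub28

set_option autoImplicit false

/-! Cosets of the length 24 code, the punctured code (helper28). -/

namespace CfsgLib.Punct28

open Cfsg CfsgLib.Golay CfsgLib.M24 CfsgLib.Syn28 CfsgLib.Sub28

theorem support_sub (w v : GolayPt → ZMod 2) : support₂ (w - v) = symmDiff (support₂ w) (support₂ v) := by
  ext p
  simp only [support₂, Finset.mem_symmDiff, Finset.mem_filter, Finset.mem_univ, true_and, Pi.sub_apply]
  have : ∀ a b : ZMod 2, (a - b ≠ 0 ↔ (a ≠ 0 ∧ ¬ b ≠ 0) ∨ (b ≠ 0 ∧ ¬ a ≠ 0)) := by decide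
  exact this _ _

theorem mem_code_iff (w : GolayPt → ZMod 2) : w ∈ golayCode ↔ support₂ w ∈ supports (golayCode : Set (GolayPt → ZMod 2)) := by
  constructor
  · intro h; exact ⟨w, h, rfl⟩
  · rintro ⟨v, hv, e⟩
    rw [← support₂_injective e]; exact hv

/-- the indicator -/
def ind (s : Finset GolayPt) : GolayPt → ZMod 2 := fun p => if p ∈ s then 1 else 0

theorem support_ind (s : Finset GolayPt) : support₂ (ind s) = s := by
  ext p
  simp [support₂, ind]

theorem ind_support (w : GolayPt → ZMod 2) : ind (support₂ w) = w := support₂_injective (support_ind _)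

theorem sub_mem_iff (w v : GolayPt → ZMod 2) : w - v ∈ golayCode ↔ sy (support₂ v) = sy (support₂ w) := by
  rw [mem_code_iff, support_sub, ← sy_eq_iff]
  exact eq_comm

theorem eq_of_small {s t : Finset GolayPt} (hs : s.card + t.card ≤ 7) (h : sy s = sy t) : s = t := by
  have h1 := sy_eq_iff.1 h
  have h2 := CfsgLib.M24.card_symmDiff s t
  rcases card_of_mem_supports h1 with h3 | h3 | h3 | h3 | h3
  · exact symmDiff_eq_bot.1 h3
  all_goals omega

theorem set_eq (w : GolayPt → ZMod 2) : {v : GolayPt → ZMod 2 | hammingNorm v ≤ 4 ∧ w - v ∈ golayCode} =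
    ind '' {t : Finset GolayPt | t.card ≤ 4 ∧ sy t = sy (support₂ w)} := by
  ext v
  constructor
  · rintro ⟨h1, h2⟩
    exact ⟨support₂ v, ⟨by rw [← hammingNorm_eq_card]; exact h1, (sub_mem_iff w v).1 h2⟩, ind_support v⟩
  · rintro ⟨t, ⟨h1, h2⟩, rfl⟩
    refine ⟨by rw [hammingNorm_eq_card, support_ind]; exact h1, ?_⟩
    rw [sub_mem_iff, support_ind]; exact h2

theorem ind_inj : Function.Injective ind := fun s t h => by rw [← support_ind s, h, support_ind]

theorem coset_all (w : GolayPt → ZMod 2) :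
    ({v : GolayPt → ZMod 2 | hammingNorm v ≤ 4 ∧ w - v ∈ golayCode}.ncard = 1 ∧
      ∃ v : GolayPt → ZMod 2, hammingNorm v ≤ 3 ∧ w - v ∈ golayCode) ∨
    ({v : GolayPt → ZMod 2 | hammingNorm v ≤ 4 ∧ w - v ∈ golayCode}.ncard = 6 ∧
      ∀ v : GolayPt → ZMod 2, w - v ∈ golayCode → hammingNorm v ≤ 4 → hammingNorm v = 4) := by
  obtain ⟨f, hf, hs⟩ := covering (support₂ w)
  have hs' : sy f = sy (support₂ w) := (sy_eq_iff.2 hs).symm
  rw [set_eq, Set.ncard_image_of_injective _ ind_inj]
  by_cases h3 : f.card ≤ 3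
  · left
    refine ⟨?_, ind f, by rw [hammingNorm_eq_card, support_ind]; exact h3, by rw [sub_mem_iff, support_ind]; exact hs'⟩
    rw [Set.ncard_eq_one]
    refine ⟨f, ?_⟩
    ext t
    constructor
    · rintro ⟨h1, h2⟩
      exact eq_of_small (by omega) (h2.trans hs'.symm)
    · rintro rfl; exact ⟨hf, hs'⟩
  · right
    have h4 : f.card = 4 := by omega
    have hall : ∀ t : Finset GolayPt, t.card ≤ 4 → sy t = sy (support₂ w) → t.card = 4 := by
      intro t h1 h2
      by_contra hne
      have := eq_of_small (s := t) (t := f) (by omega) (h2.trans hs'.symm)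
      rw [this] at hne
      exact hne h4
    constructor
    · have : {t : Finset GolayPt | t.card ≤ 4 ∧ sy t = sy (support₂ w)} = (sextetOf (sy f) : Set (Finset GolayPt)) := by
        ext t
        rw [Finset.mem_coe, mem_sextetOf, hs']
        constructor
        · rintro ⟨h1, h2⟩; exact ⟨hall t h1 h2, h2⟩
        · rintro ⟨h1, h2⟩; exact ⟨h1.le, h2⟩
      rw [this, Set.ncard_coe_finset, sextetOf_card h4]
    · intro v h1 h2
      rw [hammingNorm_eq_card] at h2 ⊢
      exact hall _ h2 ((sub_mem_iff w v).1 h1)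

/-! ### the punctured code -/

/-- the words of the punctured code -/
def PC : Set (ZMod 23 → ZMod 2) := {u | ∃ w ∈ golayCode, ∀ x : ZMod 23, u x = w (some x)}

theorem norm_option (w : GolayPt → ZMod 2) :
    hammingNorm w = hammingNorm (fun x : ZMod 23 => w (some x)) + (if w none ≠ 0 then 1 else 0) := by
  simp only [hammingNorm, Finset.card_filter]
  rw [Fintype.sum_option, add_comm]

theorem norm_le (w : GolayPt → ZMod 2) : hammingNorm (fun x : ZMod 23 => w (some x)) ≤ hammingNorm w := by
  rw [norm_option w]; omega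

theorem punct_zero {w : GolayPt → ZMod 2} (hw : w ∈ golayCode) (h : hammingNorm (fun x : ZMod 23 => w (some x)) ≤ 6) :
    w = 0 := by
  have h1 := norm_option w
  have h2 : hammingNorm w ≤ 7 := by
    rw [h1]; split_ifs <;> omega
  rw [hammingNorm_eq_card] at h2
  have h4 : support₂ w = ∅ := by
    rcases card_of_mem_supports (s := support₂ w) ⟨w, hw, rfl⟩ with h3 | h3 | h3 | h3 | h3
    · exact h3
    all_goals omega
  apply support₂_injective
  rw [h4]; ext p; simp [support₂]

theorem perfect (u : ZMod 23 → ZMod 2) : ∃! c : ZMod 23 → ZMod 2, c ∈ PC ∧ hammingDist u c ≤ 3 := by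
  classical
  let w : GolayPt → ZMod 2 := fun p => match p with
    | none => 0
    | some x => u x
  obtain ⟨f0, hf0, hs0⟩ := covering (support₂ w)
  -- a representative of weight at most 3 on the 23 points
  obtain ⟨f, hf, hs⟩ : ∃ f : Finset GolayPt, (f.erase none).card ≤ 3 ∧ symmDiff (support₂ w) f ∈ supports (golayCode : Set (GolayPt → ZMod 2)) := by
    by_cases h3 : f0.card ≤ 3
    · exact ⟨f0, (Finset.card_erase_le).trans h3, hs0⟩
    · obtain ⟨t, ht, hst, hn⟩ := exists_tetrad (t := f0) (by omega) none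
      refine ⟨t, ?_, ?_⟩
      · rw [Finset.card_erase_of_mem hn, ht]
      · rw [← sy_eq_iff, hst, sy_eq_iff]; exact hs0
  obtain ⟨d, hd, he⟩ := hs
  refine ⟨fun x => d (some x), ⟨⟨d, hd, fun x => rfl⟩, ?_⟩, ?_⟩
  · -- the distance
    have h1 : hammingDist u (fun x => d (some x)) = (Finset.univ.filter fun x : ZMod 23 => some x ∈ f).card := by
      rw [hammingDist]
      congr 1
      ext x
      simp only [Finset.mem_filter, Finset.mem_univ, true_and]
      have h2 : d (some x) ≠ 0 ↔ (some x ∈ support₂ w ∧ some x ∉ f) ∨ (some x ∈ f ∧ some x ∉ support₂ w) := by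
        rw [← Finset.mem_symmDiff, ← he]; simp [support₂]
      have h3 : (some x ∈ support₂ w) ↔ u x ≠ 0 := by simp [support₂, w]
      rw [h3] at h2
      have h4 : ∀ a b : ZMod 2, (b ≠ 0 ↔ (a ≠ 0 ∧ some x ∉ f) ∨ (some x ∈ f ∧ ¬ a ≠ 0)) → (a ≠ b ↔ some x ∈ f) := by
        intro a b hab
        rcases (by decide : ∀ a : ZMod 2, a = 0 ∨ a = 1) a with rfl | rfl <;>
          rcases (by decide : ∀ a : ZMod 2, a = 0 ∨ a = 1) b with rfl | rfl <;> simp_all
      exact h4 _ _ h2
    rw [h1]
    refine le_trans ?_ hf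
    apply Finset.card_le_card_of_injOn (fun x => some x)
    · intro x hx
      rw [Finset.mem_coe, Finset.mem_filter] at hx
      rw [Finset.mem_coe, Finset.mem_erase]
      exact ⟨by simp, hx.2⟩
    · intro x _ y _ h
      exact Option.some_injective _ h
  · rintro c ⟨⟨d', hd', hc⟩, hdist⟩
    have h1 : hammingDist u (fun x => d (some x)) ≤ 3 := by
      have h1 : hammingDist u (fun x => d (some x)) = (Finset.univ.filter fun x : ZMod 23 => some x ∈ f).card := by
        rw [hammingDist]
        congr 1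
        ext x
        simp only [Finset.mem_filter, Finset.mem_univ, true_and]
        have h2 : d (some x) ≠ 0 ↔ (some x ∈ support₂ w ∧ some x ∉ f) ∨ (some x ∈ f ∧ some x ∉ support₂ w) := by
          rw [← Finset.mem_symmDiff, ← he]; simp [support₂]
        have h3 : (some x ∈ support₂ w) ↔ u x ≠ 0 := by simp [support₂, w]
        rw [h3] at h2
        have h4 : ∀ a b : ZMod 2, (b ≠ 0 ↔ (a ≠ 0 ∧ some x ∉ f) ∨ (some x ∈ f ∧ ¬ a ≠ 0)) → (a ≠ b ↔ some x ∈ f) := by
          intro a b hab
          rcases (by decide : ∀ a : ZMod 2, a = 0 ∨ a = 1) a with rfl | rfl <;>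
            rcases (by decide : ∀ a : ZMod 2, a = 0 ∨ a = 1) b with rfl | rfl <;> simp_all
        exact h4 _ _ h2
      rw [h1]
      refine le_trans ?_ hf
      apply Finset.card_le_card_of_injOn (fun x => some x)
      · intro x hx
        rw [Finset.mem_coe, Finset.mem_filter] at hx
        rw [Finset.mem_coe, Finset.mem_erase]
        exact ⟨by simp, hx.2⟩
      · intro x _ y _ h
        exact Option.some_injective _ h
    have h2 : hammingDist c (fun x => d (some x)) ≤ 6 := by
      have := hammingDist_triangle_left c (fun x => d (some x)) u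
      omega
    have h3 : d' - d = 0 := by
      apply punct_zero (Submodule.sub_mem _ hd' hd)
      rw [hammingDist_eq_hammingNorm] at h2
      refine le_trans (le_of_eq ?_) h2
      congr 1
      funext x
      show d' (some x) - d (some x) = - c x + d (some x)
      rw [hc]
      exact (by decide : ∀ a b : ZMod 2, a - b = - a + b) _ _
    funext x
    rw [hc, sub_eq_zero.1 h3]

/-- puncturing the indicator -/
def pu (s : Finset GolayPt) : ZMod 23 → ZMod 2 := fun x => ind s (some x)

theorem norm_pu (s : Finset GolayPt) : hammingNorm (pu s) + (if none ∈ s then 1 else 0) = s.card := by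
  have h := norm_option (ind s)
  rw [hammingNorm_eq_card, support_ind] at h
  rw [h]
  have : (ind s none ≠ 0) ↔ none ∈ s := by simp [ind]
  simp only [this]
  rfl

theorem pu_injOn : Set.InjOn pu (supports (golayCode : Set (GolayPt → ZMod 2))) := by
  intro s hs t ht h
  have h1 : ind s - ind t ∈ golayCode := by
    rw [mem_code_iff, support_sub, support_ind, support_ind]
    exact symmDiff_mem_supports hs ht
  have h2 := punct_zero h1 (by
    have : (fun x : ZMod 23 => (ind s - ind t) (some x)) = 0 := by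
      funext x
      have := congrFun h x
      show ind s (some x) - ind t (some x) = 0
      rw [sub_eq_zero]; exact this
    rw [this, hammingNorm_zero]; omega)
  exact ind_inj (sub_eq_zero.1 h2)

theorem PC_eq : PC = pu '' (supports (golayCode : Set (GolayPt → ZMod 2))) := by
  ext u
  constructor
  · rintro ⟨w, hw, h⟩
    refine ⟨support₂ w, ⟨w, hw, rfl⟩, ?_⟩
    funext x
    rw [pu, ind_support, h]
  · rintro ⟨s, hs, rfl⟩
    refine ⟨ind s, ?_, fun x => rfl⟩
    rw [mem_code_iff, support_ind]; exact hs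

theorem count (n : ℕ) : {u : ZMod 23 → ZMod 2 | u ∈ PC ∧ hammingNorm u = n}.ncard =
    treeCount (fun m => Nat.beq (pop m) (n + (Nat.testBit m 23).toNat)) basis 0 := by
  have h1 : {u : ZMod 23 → ZMod 2 | u ∈ PC ∧ hammingNorm u = n} =
      pu '' {s | s ∈ supports (golayCode : Set (GolayPt → ZMod 2)) ∧ hammingNorm (pu s) = n} := by
    ext u
    rw [PC_eq]
    constructor
    · rintro ⟨⟨s, hs, rfl⟩, h⟩; exact ⟨s, ⟨hs, h⟩, rfl⟩
    · rintro ⟨s, ⟨hs, h⟩, rfl⟩; exact ⟨⟨s, hs, rfl⟩, h⟩
  rw [h1, Set.ncard_image_of_injOn (pu_injOn.mono fun s hs => hs.1)]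
  apply ncard_supports
  intro k hk
  have h2 := norm_pu (fset (cw k))
  rw [card_fset] at h2
  have h3 : (none ∈ fset (cw k)) ↔ Nat.testBit (cw k) 23 = true := mem_fset
  simp only [h3] at h2
  rw [beq_iff, ← h2]
  cases Nat.testBit (cw k) 23 <;> simp

theorem count_all : PC.ncard = 4096 := by
  have h1 := ncard_supports (fun _ => true) (fun _ => True) (fun k _ => by simp)
  rw [PC_eq, Set.ncard_image_of_injOn pu_injOn]
  have h2 : {s | s ∈ supports (golayCode : Set (GolayPt → ZMod 2)) ∧ True} = supports (golayCode : Set (GolayPt → ZMod 2)) := by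
    ext s; simp
  rw [h2] at h1
  rw [h1]
  decide +kernel

theorem min_wt (u : ZMod 23 → ZMod 2) (hu : u ∈ PC) (h0 : u ≠ 0) : 7 ≤ hammingNorm u := by
  by_contra hcon
  obtain ⟨w, hw, h⟩ := hu
  have hu' : u = fun x => w (some x) := funext h
  have := punct_zero hw (by rw [← hu']; omega)
  apply h0
  rw [hu', this]; rfl

end CfsgLib.Punct28
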