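import Cfsg.Agent.LibInvo29f
import Cfsg.Prelude.Def_GeometricClasses

/-! Normalizers of small symplectic type groups (seat helper29). -/

namespace CfsgLib.Q29

open Matrix

section fixed

/-- an element of prime order acting on a finite subgroup -/
theorem card_modEq {G : Type*} [Group G] (R : Subgroup G) [Finite R] (y : G) {r : ℕ} [Fact r.Prime] (hyr : y ^ r = 1)
    (hy : ∀ u ∈ R, y * u * y⁻¹ ∈ R) : Nat.card R ≡ Nat.card ↥(R ⊓ Subgroup.centralizer {y}) [MOD r] := by
  classical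
  haveI : Fintype R := Fintype.ofFinite R
  let f : Function.End R := fun u => ⟨y * u * y⁻¹, hy u u.2⟩
  have hfk : ∀ k : ℕ, ∀ u : R, (((f ^ k : Function.End R) u : R) : G) = y ^ k * u * (y ^ k)⁻¹ := by
    intro k
    induction k with
    | zero =>
      intro u
      show (u : G) = y ^ 0 * u * (y ^ 0)⁻¹
      simp
    | succ k ih =>
      intro u
      rw [pow_succ']
      show y * (((f ^ k : Function.End R) u : R) : G) * y⁻¹ = _
      rw [ih, pow_succ']
      group
  have hf : f ^ r ^ 1 = 1 := by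
    rw [pow_one]
    funext u
    apply Subtype.ext
    rw [hfk, hyr]
    show (1 : G) * u * (1 : G)⁻¹ = u
    simp
  have h1 := Equiv.Perm.card_fixedPoints_modEq hf
  rw [← Nat.card_eq_fintype_card, ← Nat.card_eq_fintype_card] at h1
  have h2 : Nat.card ↥(R ⊓ Subgroup.centralizer {y}) = Nat.card (Function.fixedPoints f) := by
    refine Nat.card_congr ⟨fun u => ⟨⟨u.1, u.2.1⟩, ?_⟩, fun u => ⟨u.1.1, u.1.2, ?_⟩, fun u => rfl, fun u => rfl⟩
    · apply Subtype.ext
      show y * u.1 * y⁻¹ = u.1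
      have := Subgroup.mem_centralizer_singleton_iff.1 u.2.2
      rw [← this, mul_inv_cancel_right]
    · show u.1.1 ∈ Subgroup.centralizer {y}
      rw [Subgroup.mem_centralizer_singleton_iff]
      have h3 : y * u.1.1 * y⁻¹ = u.1.1 := congrArg Subtype.val u.2
      calc u.1.1 * y = (y * u.1.1 * y⁻¹) * y := by rw [h3]
        _ = y * u.1.1 := by rw [inv_mul_cancel_right]
  rw [h2]
  exact h1

end fixed

section two
variable {F : Type*} [Field F]

lemma ch2 (M : Matrix (Fin 2) (Fin 2) F) : M * M = M.trace • M - M.det • (1 : Matrix (Fin 2) (Fin 2) F) := by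
  ext i j
  rw [Matrix.det_fin_two, Matrix.trace_fin_two]
  fin_cases i <;> fin_cases j <;> simp [Matrix.mul_apply, Fin.sum_univ_two] <;> ring

lemma comm_rel {A B : Matrix (Fin 2) (Fin 2) F} (h : A * B = B * A) :
    A 0 1 * B 1 0 = A 1 0 * B 0 1 ∧ A 0 1 * (B 0 0 - B 1 1) = B 0 1 * (A 0 0 - A 1 1) ∧ A 1 0 * (B 0 0 - B 1 1) = B 1 0 * (A 0 0 - A 1 1) := by
  have h1 := congrFun (congrFun h 0) 0
  have h2 := congrFun (congrFun h 0) 1
  have h3 := congrFun (congrFun h 1) 0
  simp only [Matrix.mul_apply, Fin.sum_univ_two] at h1 h2 h3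
  refine ⟨?_, ?_, ?_⟩
  · linear_combination h1
  · linear_combination -h2
  · linear_combination h3

lemma comm_of_rel {B C : Matrix (Fin 2) (Fin 2) F} (h1 : B 0 1 * C 1 0 = B 1 0 * C 0 1) (h2 : B 0 1 * (C 0 0 - C 1 1) = C 0 1 * (B 0 0 - B 1 1))
    (h3 : B 1 0 * (C 0 0 - C 1 1) = C 1 0 * (B 0 0 - B 1 1)) : B * C = C * B := by
  ext i j
  fin_cases i <;> fin_cases j <;> simp only [Matrix.mul_apply, Fin.sum_univ_two, Fin.zero_eta, Fin.mk_one, Fin.isValue]
  · linear_combination h1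
  · linear_combination -h2
  · linear_combination h3
  · linear_combination -h1

/-- the centralizer of a nonscalar matrix is commutative -/
lemma comm_of_comm {A B C : Matrix (Fin 2) (Fin 2) F} (hA : ∀ c : F, A ≠ c • (1 : Matrix (Fin 2) (Fin 2) F)) (hB : A * B = B * A) (hC : A * C = C * A) :
    B * C = C * B := by
  obtain ⟨b1, b2, b3⟩ := comm_rel hB
  obtain ⟨c1, c2, c3⟩ := comm_rel hC
  by_cases h1 : A 0 1 = 0
  · by_cases h2 : A 1 0 = 0
    · have h3 : A 0 0 - A 1 1 ≠ 0 := by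
        intro h
        apply hA (A 0 0)
        ext i j
        fin_cases i <;> fin_cases j
        · simp
        · simpa using h1
        · simpa using h2
        · simpa using (sub_eq_zero.1 h).symm
      rw [h1, zero_mul] at b2 c2
      rw [h2, zero_mul] at b3 c3
      have e1 : B 0 1 = 0 := by
        rcases mul_eq_zero.1 b2.symm with h | h
        · exact h
        · exact absurd h h3
      have e2 : C 0 1 = 0 := by
        rcases mul_eq_zero.1 c2.symm with h | h
        · exact h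
        · exact absurd h h3
      have e3 : B 1 0 = 0 := by
        rcases mul_eq_zero.1 b3.symm with h | h
        · exact h
        · exact absurd h h3
      have e4 : C 1 0 = 0 := by
        rcases mul_eq_zero.1 c3.symm with h | h
        · exact h
        · exact absurd h h3
      apply comm_of_rel <;> simp [e1, e2, e3, e4]
    · have r1 : B 0 1 * C 1 0 = B 1 0 * C 0 1 := by
        apply mul_left_cancel₀ h2
        linear_combination B 1 0 * c1 - C 1 0 * b1
      apply comm_of_rel r1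
      · apply mul_left_cancel₀ h2
        linear_combination (B 0 1) * c3 - C 0 1 * b3 + (A 0 0 - A 1 1) * r1
      · apply mul_left_cancel₀ h2
        linear_combination B 1 0 * c3 - C 1 0 * b3
  · have r1 : B 0 1 * C 1 0 = B 1 0 * C 0 1 := by
      apply mul_left_cancel₀ h1
      linear_combination B 0 1 * c1 - C 0 1 * b1
    apply comm_of_rel r1
    · apply mul_left_cancel₀ h1
      linear_combination B 0 1 * c2 - C 0 1 * b2
    · apply mul_left_cancel₀ h1
      linear_combination B 1 0 * c2 - C 1 0 * b2 - (A 0 0 - A 1 1) * r1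

/-- companion form -/
lemma exists_companion [Fintype F] (x : Matrix (Fin 2) (Fin 2) F) (τ : F) (hx : x * x = τ • x - 1)
    (hns : ∀ c : F, x ≠ c • (1 : Matrix (Fin 2) (Fin 2) F)) :
    ∃ P : Matrix (Fin 2) (Fin 2) F, P.det ≠ 0 ∧ x * P = P * !![0, -1; 1, τ] := by
  obtain ⟨v, hv⟩ := CfsgLib.Invo29.exists_nonscalar_vec x hns
  refine ⟨Matrix.of fun i j => if j = 0 then v i else (x *ᵥ v) i, ?_, ?_⟩
  · rw [Matrix.det_fin_two]
    simp only [Matrix.of_apply, if_true, if_false, one_ne_zero, Fin.isValue]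
    intro h
    apply hv
    rw [Submodule.mem_span_singleton]
    by_cases h0 : v 0 = 0
    · by_cases h1 : v 1 = 0
      · have hv0 : v = 0 := by
          funext i
          fin_cases i
          · exact h0
          · exact h1
        exact ⟨0, by rw [hv0, Matrix.mulVec_zero, smul_zero]⟩
      · refine ⟨(x *ᵥ v) 1 / v 1, ?_⟩
        funext i
        fin_cases i
        · show (x *ᵥ v) 1 / v 1 * v 0 = (x *ᵥ v) 0
          rw [div_mul_eq_mul_div, div_eq_iff h1]
          linear_combination h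
        · show (x *ᵥ v) 1 / v 1 * v 1 = (x *ᵥ v) 1
          rw [div_mul_cancel₀ _ h1]
    · refine ⟨(x *ᵥ v) 0 / v 0, ?_⟩
      funext i
      fin_cases i
      · show (x *ᵥ v) 0 / v 0 * v 0 = (x *ᵥ v) 0
        rw [div_mul_cancel₀ _ h0]
      · show (x *ᵥ v) 0 / v 0 * v 1 = (x *ᵥ v) 1
        rw [div_mul_eq_mul_div, div_eq_iff h0]
        linear_combination -h
  · have h1 : x *ᵥ (x *ᵥ v) = τ • (x *ᵥ v) - v := by
      rw [Matrix.mulVec_mulVec, hx, Matrix.sub_mulVec, Matrix.smul_mulVec, Matrix.one_mulVec]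
    have h2 : ∀ i, ∑ k, x i k * (x *ᵥ v) k = τ * (x *ᵥ v) i - v i := fun i => congrFun h1 i
    ext i j
    fin_cases j
    · simp [Matrix.mul_apply, Fin.sum_univ_two, Matrix.mulVec, dotProduct]
    · have h3 := h2 i
      rw [Fin.sum_univ_two] at h3
      simp only [Matrix.mul_apply, Fin.sum_univ_two, Matrix.of_apply, Fin.mk_one, Fin.isValue, one_ne_zero, if_false, Matrix.cons_val', Matrix.cons_val_zero,
        Matrix.cons_val_one, Matrix.cons_val_fin_one, if_true]
      rw [h3]; ring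

theorem conj2 [Fintype F] (h2 : (2 : F) ≠ 0) (τ : F) (hτ : τ ^ 2 - 4 ≠ 0) (x y : GL (Fin 2) F)
    (hx : (x : Matrix (Fin 2) (Fin 2) F) * x = τ • (x : Matrix (Fin 2) (Fin 2) F) - 1)
    (hy : (y : Matrix (Fin 2) (Fin 2) F) * y = τ • (y : Matrix (Fin 2) (Fin 2) F) - 1)
    (hxns : ∀ c : F, (x : Matrix (Fin 2) (Fin 2) F) ≠ c • (1 : Matrix (Fin 2) (Fin 2) F))
    (hyns : ∀ c : F, (y : Matrix (Fin 2) (Fin 2) F) ≠ c • (1 : Matrix (Fin 2) (Fin 2) F)) :
    ∃ g ∈ Cfsg.Geo.specialLinear (Fin 2) F, g⁻¹ * x * g = y := by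
  obtain ⟨P, hP, hP2⟩ := exists_companion _ τ hx hxns
  obtain ⟨Q, hQ, hQ2⟩ := exists_companion _ τ hy hyns
  let Pg : GL (Fin 2) F := Matrix.GeneralLinearGroup.mkOfDetNeZero P hP
  let Qg : GL (Fin 2) F := Matrix.GeneralLinearGroup.mkOfDetNeZero Q hQ
  have hPg : (Pg : Matrix (Fin 2) (Fin 2) F) = P := rfl
  have hQg : (Qg : Matrix (Fin 2) (Fin 2) F) = Q := rfl
  have hC : IsUnit (!![0, -1; 1, τ] : Matrix (Fin 2) (Fin 2) F).det := by
    rw [Matrix.det_fin_two_of]
    simp
  let Cg : GL (Fin 2) F := Matrix.GeneralLinearGroup.mkOfDetNeZero !![0, -1; 1, τ] hC.ne_zero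
  have e1 : x * Pg = Pg * Cg := Units.ext hP2
  have e2 : y * Qg = Qg * Cg := Units.ext hQ2
  obtain ⟨P0, hP0⟩ : ∃ P0, P0 = Pg * Qg⁻¹ := ⟨_, rfl⟩
  have e3 : P0⁻¹ * x * P0 = y := by
    have h3 : Cg = Pg⁻¹ * x * Pg := by rw [mul_assoc, e1, inv_mul_cancel_left]
    have h4 : y = Qg * Cg * Qg⁻¹ := by rw [← e2, mul_inv_cancel_right]
    rw [h4, h3, hP0]; group
  obtain ⟨X, hX⟩ : ∃ X : Matrix (Fin 2) (Fin 2) F, X = (2 : F) • (x : Matrix (Fin 2) (Fin 2) F) - τ • 1 := ⟨_, rfl⟩
  have hXX : X * X = (τ ^ 2 - 4) • (1 : Matrix (Fin 2) (Fin 2) F) := by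
    rw [hX, sub_mul, mul_sub, mul_sub, Matrix.smul_mul, Matrix.mul_smul, hx]
    simp only [Matrix.smul_mul, Matrix.mul_smul, Matrix.one_mul, Matrix.mul_one]
    module
  have hXns : ∀ c : F, X ≠ c • (1 : Matrix (Fin 2) (Fin 2) F) := by
    intro c hc
    apply hxns ((c + τ) / 2)
    have h3 : (2 : F) • (x : Matrix (Fin 2) (Fin 2) F) = (c + τ) • 1 := by
      rw [add_smul, ← hc, hX, sub_add_cancel]
    have h4 : (x : Matrix (Fin 2) (Fin 2) F) = (2 : F)⁻¹ • ((2 : F) • (x : Matrix (Fin 2) (Fin 2) F)) := by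
      rw [smul_smul, inv_mul_cancel₀ h2, one_smul]
    rw [h4, h3, smul_smul]
    congr 1
    field_simp
  have hdP : (P0 : Matrix (Fin 2) (Fin 2) F).det ≠ 0 := by
    intro h
    have h1 := P0.isUnit
    rw [Matrix.isUnit_iff_isUnit_det, h] at h1
    exact not_isUnit_zero h1
  obtain ⟨c, hc1, hc2⟩ := CfsgLib.Invo29.adjust X _ hτ hXX hXns ((P0 : Matrix (Fin 2) (Fin 2) F).det)⁻¹
  let C : GL (Fin 2) F := Matrix.GeneralLinearGroup.mkOfDetNeZero c (by rw [hc2]; exact inv_ne_zero hdP)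
  have hCc : (C : Matrix (Fin 2) (Fin 2) F) = c := rfl
  have hcomm : C * x = x * C := by
    apply Units.ext
    show c * (x : Matrix (Fin 2) (Fin 2) F) = (x : Matrix (Fin 2) (Fin 2) F) * c
    rw [hX, mul_sub, sub_mul, Matrix.mul_smul, Matrix.smul_mul, Matrix.mul_smul, Matrix.smul_mul, Matrix.mul_one, Matrix.one_mul, sub_left_inj] at hc1
    exact smul_right_injective _ h2 hc1
  refine ⟨C * P0, ?_, ?_⟩
  · rw [Cfsg.Geo.specialLinear, MonoidHom.mem_ker]
    apply Units.ext
    show ((C * P0 : GL (Fin 2) F) : Matrix (Fin 2) (Fin 2) F).det = 1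
    rw [Units.val_mul, Matrix.det_mul, hCc, hc2, inv_mul_cancel₀ hdP]
  · calc (C * P0)⁻¹ * x * (C * P0) = P0⁻¹ * (C⁻¹ * (x * C)) * P0 := by group
      _ = y := by rw [← hcomm, inv_mul_cancel_left, e3]

end two

end CfsgLib.Q29
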