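import Cfsg.Agent.LibQ29a

/-! Extraspecial groups of order 27 in dimension three (seat helper29). -/

namespace CfsgLib.Q29

open Matrix

section grp

instance fact3 : Fact (Nat.Prime 3) := ⟨Nat.prime_three⟩

lemma comm_of_card {G : Type*} [Group G] (h : Nat.card G = 1 ∨ Nat.card G = 3 ∨ Nat.card G = 9) : ∀ a b : G, a * b = b * a := by
  rcases h with h | h | h
  · intro a b
    haveI : Subsingleton G := (Nat.card_eq_one_iff_unique.1 h).1
    exact Subsingleton.elim _ _
  · haveI := isCyclic_of_prime_card h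
    intro a b
    obtain ⟨g, hg⟩ := IsCyclic.exists_generator (α := G)
    obtain ⟨i, rfl⟩ := Subgroup.mem_zpowers_iff.1 (hg a)
    obtain ⟨j, rfl⟩ := Subgroup.mem_zpowers_iff.1 (hg b)
    rw [← _root_.zpow_add, ← _root_.zpow_add, add_comm]
  · exact (IsPGroup.isMulCommutative_of_card_eq_prime_sq (p := 3) (by rw [h]; norm_num)).is_comm.comm

theorem heis_data {G : Type*} [Group G] (R : Subgroup G) (hR : Nat.card R = 27) (hRe : Monoid.exponent R = 3) (hna : ¬ IsMulCommutative R) :
    ∃ X Y t : G, X ∈ R ∧ Y ∈ R ∧ t ∈ R ∧ X * Y = t * (Y * X) ∧ t * X = X * t ∧ t * Y = Y * t ∧ t ≠ 1 ∧ X ^ 3 = 1 ∧ Y ^ 3 = 1 ∧ t ^ 3 = 1 ∧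
      R = Subgroup.closure {X, Y} := by
  classical
  haveI : Finite R := Nat.finite_of_card_ne_zero (by rw [hR]; norm_num)
  have hcard : Nat.card R = 3 ^ 3 := by rw [hR]; norm_num
  obtain ⟨a, b, hab⟩ : ∃ a b : R, a * b ≠ b * a := by
    by_contra h
    push Not at h
    exact hna ⟨⟨h⟩⟩
  -- the centre
  obtain ⟨k, hk0, hk⟩ := IsPGroup.card_center_eq_prime_pow hcard (by norm_num)
  have hmul := Subgroup.card_mul_index (Subgroup.center R)
  rw [hk, hcard] at hmul
  have hk3 : k ≤ 3 := by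
    have h1 : 3 ^ k ∣ 3 ^ 3 := ⟨_, hmul.symm⟩
    exact (Nat.pow_dvd_pow_iff_le_right (by norm_num)).1 h1
  have hquot : ∀ u v : R ⧸ Subgroup.center R, u * v = v * u := by
    apply comm_of_card
    show Nat.card (R ⧸ Subgroup.center R) = 1 ∨ _
    have h1 : Nat.card (R ⧸ Subgroup.center R) = (Subgroup.center R).index := rfl
    rw [h1]
    interval_cases k
    · right; right; omega
    · right; left; omega
    · left; omega
  obtain ⟨t, ht⟩ : ∃ t : R, t = a * b * (b * a)⁻¹ := ⟨_, rfl⟩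
  have htZ : t ∈ Subgroup.center R := by
    rw [← QuotientGroup.eq_one_iff, ht]
    show ((a * b * (b * a)⁻¹ : R) : R ⧸ Subgroup.center R) = 1
    have h1 : ((a : R ⧸ Subgroup.center R)) * (b : R ⧸ Subgroup.center R) = (b : R ⧸ Subgroup.center R) * (a : R ⧸ Subgroup.center R) := hquot _ _
    rw [QuotientGroup.mk_mul, QuotientGroup.mk_inv, QuotientGroup.mk_mul, QuotientGroup.mk_mul, h1, mul_inv_cancel]
  have hexp : ∀ u : R, u ^ 3 = 1 := by
    intro u
    rw [← hRe]; exact Monoid.pow_exponent_eq_one u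
  have hab' : a * b = t * (b * a) := by rw [ht, inv_mul_cancel_right]
  have ht1 : t ≠ 1 := by
    rintro h
    rw [h, one_mul] at hab'
    exact hab hab'
  refine ⟨a, b, t, a.2, b.2, t.2, congrArg Subtype.val hab', ?_, ?_, ?_, ?_, ?_, ?_, ?_⟩
  · exact congrArg Subtype.val ((Subgroup.mem_center_iff.1 htZ a).symm)
  · exact congrArg Subtype.val ((Subgroup.mem_center_iff.1 htZ b).symm)
  · intro h; exact ht1 (Subtype.ext h)
  · exact congrArg Subtype.val (hexp a)
  · exact congrArg Subtype.val (hexp b)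
  · exact congrArg Subtype.val (hexp t)
  · obtain ⟨C, hC⟩ : ∃ C, C = Subgroup.closure {(a : G), (b : G)} := ⟨_, rfl⟩
    have haC : (a : G) ∈ C := by rw [hC]; exact Subgroup.subset_closure (Set.mem_insert _ _)
    have hbC : (b : G) ∈ C := by rw [hC]; exact Subgroup.subset_closure (Set.mem_insert_of_mem _ rfl)
    have hCR : C ≤ R := by
      rw [hC, Subgroup.closure_le]
      rintro u (rfl | rfl)
      · exact a.2
      · exact b.2
    rw [← hC]
    haveI : Finite C := Finite.of_injective (Subgroup.inclusion hCR) (Subgroup.inclusion_injective hCR)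
    have hdvd : Nat.card C ∣ 3 ^ 3 := by
      rw [← hcard]; exact Subgroup.card_dvd_of_le hCR
    obtain ⟨j, hj, hj2⟩ := (Nat.dvd_prime_pow Nat.prime_three).1 hdvd
    have hj3 : j = 3 := by
      by_contra hne
      have h1 : ∀ u v : C, u * v = v * u := by
        apply comm_of_card
        rw [hj2]
        interval_cases j
        · left; norm_num
        · right; left; norm_num
        · right; right; norm_num
        · exact absurd rfl hne
      have h2 := congrArg Subtype.val (h1 ⟨a, haC⟩ ⟨b, hbC⟩)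
      exact hab (Subtype.ext h2)
    symm
    apply SetLike.coe_injective
    haveI : Finite (R : Set G) := inferInstanceAs (Finite R)
    apply Set.eq_of_subset_of_ncard_le hCR
    show Nat.card R ≤ Nat.card C
    rw [hcard, hj2, hj3]

/-- membership in the normalizer via generators -/
lemma mem_normalizer_of {G : Type*} [Group G] {R : Subgroup G} [Finite R] {X Y T : G} (hR : R = Subgroup.closure {X, Y})
    (hX : T * X * T⁻¹ ∈ R) (hY : T * Y * T⁻¹ ∈ R) : T ∈ Subgroup.normalizer (R : Set G) := by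
  have h5 : R.map (MulAut.conj T).toMonoidHom ≤ R := by
    conv_lhs => rw [hR]
    rw [MonoidHom.map_closure, Subgroup.closure_le]
    rintro _ ⟨u, hu, rfl⟩
    rcases hu with rfl | rfl
    · exact hX
    · exact hY
  have h6 : R.map (MulAut.conj T).toMonoidHom = R := by
    apply SetLike.coe_injective
    haveI : Finite (R : Set G) := inferInstanceAs (Finite R)
    apply Set.eq_of_subset_of_ncard_le h5
    rw [Subgroup.coe_map]
    exact (Set.ncard_image_of_injective _ (MulAut.conj T).injective).ge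
  refine Subgroup.mem_normalizer_iff.2 fun u => ⟨fun hu => h5 ⟨u, hu, rfl⟩, fun hu => ?_⟩
  have h7 : T * u * T⁻¹ ∈ R.map (MulAut.conj T).toMonoidHom := by rw [h6]; exact hu
  obtain ⟨v, hv, hvu⟩ := h7
  have h8 : v = u := (MulAut.conj T).injective hvu
  rw [← h8]; exact hv

end grp

section lin
variable {F : Type*} [Field F]

/-- the central commutator is a scalar -/
theorem scalar_of_heis (h3 : (3 : F) ≠ 0) (ω : F) (hω : ω ^ 2 + ω + 1 = 0) (X Y t : Matrix (Fin 3) (Fin 3) F) (hXu : IsUnit X) (hYu : IsUnit Y)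
    (hXY : X * Y = t * (Y * X)) (htX : t * X = X * t) (htY : t * Y = Y * t) (ht3 : t ^ 3 = 1) (ht1 : t ≠ 1) :
    ∃ c : F, c ^ 2 + c + 1 = 0 ∧ t = c • (1 : Matrix (Fin 3) (Fin 3) F) := by
  have hω3 : ω ^ 3 = 1 := by linear_combination (ω - 1) * hω
  -- a nontrivial eigenvalue
  have hfac : (t - ω • (1 : Matrix (Fin 3) (Fin 3) F)) * ((t - (ω ^ 2) • (1 : Matrix (Fin 3) (Fin 3) F)) * (t - 1)) = 0 := by
    have h1 : (t - ω • (1 : Matrix (Fin 3) (Fin 3) F)) * ((t - (ω ^ 2) • (1 : Matrix (Fin 3) (Fin 3) F)) * (t - 1)) = t ^ 3 - (1 + ω + ω ^ 2) • t ^ 2 + (ω + ω ^ 2 + ω ^ 3) • t - (ω ^ 3) • 1 := by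
      simp only [sub_mul, mul_sub, Matrix.smul_mul, Matrix.mul_smul, Matrix.one_mul, Matrix.mul_one, pow_succ, pow_zero, Matrix.mul_assoc]
      module
    have h2 : 1 + ω + ω ^ 2 = 0 := by linear_combination hω
    have h3 : ω + ω ^ 2 + ω ^ 3 = 0 := by linear_combination ω * hω
    rw [h1, ht3, h2, h3, hω3]
    simp
  obtain ⟨c, hc, w, hw0, hw⟩ : ∃ c : F, c ^ 2 + c + 1 = 0 ∧ ∃ w : Fin 3 → F, w ≠ 0 ∧ t *ᵥ w = c • w := by
    obtain ⟨u, hu⟩ : ∃ u : Fin 3 → F, (t - 1) *ᵥ u ≠ 0 := by
      by_contra h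
      push Not at h
      apply ht1
      rw [← sub_eq_zero]
      apply Matrix.toLin'.injective
      refine LinearMap.ext fun v => ?_
      rw [Matrix.toLin'_apply, h v, map_zero]; rfl
    by_cases h1 : (t - (ω ^ 2) • (1 : Matrix (Fin 3) (Fin 3) F)) *ᵥ ((t - 1) *ᵥ u) = 0
    · refine ⟨ω ^ 2, by linear_combination (ω ^ 2 - ω + 1) * hω, (t - 1) *ᵥ u, hu, ?_⟩
      rw [Matrix.sub_mulVec, Matrix.smul_mulVec, Matrix.one_mulVec, sub_eq_zero] at h1
      exact h1
    · refine ⟨ω, hω, _, h1, ?_⟩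
      have h2 := congrArg (fun M => M *ᵥ u) hfac
      simp only [Matrix.zero_mulVec] at h2
      rw [← Matrix.mulVec_mulVec, ← Matrix.mulVec_mulVec, Matrix.sub_mulVec, Matrix.smul_mulVec, Matrix.one_mulVec, sub_eq_zero] at h2
      exact h2
  refine ⟨c, hc, ?_⟩
  have hc1 : c ≠ 1 := by
    rintro rfl
    apply h3
    linear_combination hc
  have hc3 : c ^ 3 = 1 := by linear_combination (c - 1) * hc
  -- the eigenspace
  let W := Module.End.eigenspace (Matrix.toLin' t) c
  have hWmem : ∀ v, v ∈ W ↔ t *ᵥ v = c • v := fun v => by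
    show v ∈ Module.End.eigenspace (Matrix.toLin' t) c ↔ _
    rw [Module.End.mem_eigenspace_iff, Matrix.toLin'_apply]
  have hinv : ∀ Z : Matrix (Fin 3) (Fin 3) F, t * Z = Z * t → ∀ v ∈ W, (Matrix.toLin' Z) v ∈ W := by
    intro Z hZ v hv
    rw [hWmem] at hv ⊢
    rw [Matrix.toLin'_apply, Matrix.mulVec_mulVec, hZ, ← Matrix.mulVec_mulVec, hv, Matrix.mulVec_smul]
  let XW := (Matrix.toLin' X).restrict (hinv X htX)
  let YW := (Matrix.toLin' Y).restrict (hinv Y htY)
  have hrel : XW * YW = c • (YW * XW) := by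
    apply LinearMap.ext
    intro v
    apply Subtype.ext
    show X *ᵥ (Y *ᵥ (v : Fin 3 → F)) = c • (Y *ᵥ (X *ᵥ (v : Fin 3 → F)))
    rw [Matrix.mulVec_mulVec, hXY, ← Matrix.mulVec_mulVec]
    have h1 : (Y * X) *ᵥ (v : Fin 3 → F) ∈ W := by
      rw [← Matrix.mulVec_mulVec]
      exact hinv Y htY _ (hinv X htX _ v.2)
    rw [(hWmem _).1 h1, Matrix.mulVec_mulVec]
  have hdet : ∀ Z : Matrix (Fin 3) (Fin 3) F, IsUnit Z → ∀ hZ : t * Z = Z * t, LinearMap.det ((Matrix.toLin' Z).restrict (hinv Z hZ)) ≠ 0 := by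
    intro Z hZu hZ
    have hinj : Function.Injective ((Matrix.toLin' Z).restrict (hinv Z hZ)) := by
      intro v w hvw
      apply Subtype.ext
      have h1 : Z *ᵥ (v : Fin 3 → F) = Z *ᵥ (w : Fin 3 → F) := congrArg Subtype.val hvw
      exact Matrix.mulVec_injective_of_isUnit hZu h1
    exact (LinearEquiv.ofInjectiveEndo _ hinj).isUnit_det'.ne_zero
  have h1 := congrArg LinearMap.det hrel
  rw [map_mul, LinearMap.det_smul, map_mul, mul_comm (LinearMap.det YW)] at h1
  have h2 : c ^ Module.finrank F W = 1 := by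
    have h3 : LinearMap.det XW * LinearMap.det YW ≠ 0 := mul_ne_zero (hdet X hXu htX) (hdet Y hYu htY)
    exact (mul_right_cancel₀ h3 (by rw [one_mul]; exact h1)).symm
  have hWle : Module.finrank F W ≤ 3 := by
    have := Submodule.finrank_le W
    rwa [Module.finrank_fin_fun] at this
  have hWpos : 0 < Module.finrank F W := by
    rw [Module.finrank_pos_iff]
    exact Submodule.nontrivial_iff_ne_bot.2 (fun h => hw0 (by
      have : w ∈ W := (hWmem w).2 hw
      rw [h] at this
      exact this))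
  have hW3 : Module.finrank F W = 3 := by
    obtain ⟨d, hd⟩ : ∃ d, d = Module.finrank F W := ⟨_, rfl⟩
    rw [← hd] at h2 hWle hWpos ⊢
    interval_cases d
    · rw [pow_one] at h2; exact absurd h2 hc1
    · exfalso
      apply hc1
      have : c ^ 3 = c ^ 2 * c := by ring
      rw [h2, one_mul, hc3] at this
      exact this.symm
    · rfl
  have hWtop : W = ⊤ := Submodule.eq_top_of_finrank_eq (by rw [hW3, Module.finrank_fin_fun])
  apply Matrix.toLin'.injective
  refine LinearMap.ext fun v => ?_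
  rw [Matrix.toLin'_apply, Matrix.toLin'_apply, Matrix.smul_mulVec, Matrix.one_mulVec]
  exact (hWmem v).1 (by rw [hWtop]; trivial)

end lin

end CfsgLib.Q29
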