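import Cfsg.Agent.LibQ29b

/-! Eigenbases in dimension three (seat helper29). -/

namespace CfsgLib.Q29

open Matrix

variable {F : Type*} [Field F]

/-- a basis of eigenvectors gives a diagonalising matrix -/
lemma diag_of_li {n : ℕ} (M : Matrix (Fin n) (Fin n) F) (v : Fin n → Fin n → F) (hv : LinearIndependent F v) (d : Fin n → F)
    (h : ∀ i, M *ᵥ v i = d i • v i) : ∃ Q : GL (Fin n) F, M * (Q : Matrix (Fin n) (Fin n) F) = Q * Matrix.diagonal d ∧ ∀ i j, (Q : Matrix (Fin n) (Fin n) F) i j = v j i := by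
  obtain ⟨A, hA⟩ : ∃ A : Matrix (Fin n) (Fin n) F, A = Matrix.of (fun i j => v j i) := ⟨_, rfl⟩
  have hAi : ∀ i j, A i j = v j i := by intro i j; rw [hA]; rfl
  have hu : IsUnit A := by
    rw [← Matrix.linearIndependent_cols_iff_isUnit]
    have : A.col = v := by
      funext j i
      exact hAi i j
    rw [this]; exact hv
  refine ⟨hu.unit, ?_, hAi⟩
  show M * A = A * Matrix.diagonal d
  ext i j
  rw [Matrix.mul_diagonal, Matrix.mul_apply, hAi]
  have h1 := congrFun (h j) i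
  rw [Matrix.mulVec, dotProduct] at h1
  simp only [Pi.smul_apply, smul_eq_mul] at h1
  rw [mul_comm (v j i), ← h1]
  exact Finset.sum_congr rfl fun k _ => by rw [hAi]

/-- bases inside a spanning set -/
lemma exists_basis_of_span {n : ℕ} (S : Set (Fin n → F)) (hS : ∀ u, u ∈ Submodule.span F S) :
    ∃ v : Fin n → Fin n → F, LinearIndependent F v ∧ ∀ i, v i ∈ S := by
  classical
  have h1 : (⊤ : Submodule F (Fin n → F)) ≤ Submodule.span F S := fun u _ => hS u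
  let b := Module.Basis.ofSpan h1
  haveI := FiniteDimensional.fintypeBasisIndex b
  have hc : Fintype.card _ = n := (Module.finrank_eq_card_basis b).symm.trans (Module.finrank_fin_fun F)
  let e := Fintype.equivFinOfCardEq hc
  refine ⟨fun i => b (e.symm i), b.linearIndependent.comp _ e.symm.injective, fun i => ?_⟩
  exact Module.Basis.ofSpan_subset h1 ⟨_, rfl⟩

/-- elements of order three are diagonalizable -/
lemma diag_of_cube (h3 : (3 : F) ≠ 0) (ω : F) (hω : ω ^ 2 + ω + 1 = 0) {n : ℕ} (y : Matrix (Fin n) (Fin n) F) (hy : y ^ 3 = 1) :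
    ∃ v : Fin n → Fin n → F, LinearIndependent F v ∧ ∃ d : Fin n → F, (∀ i, d i ^ 3 = 1) ∧ ∀ i, y *ᵥ v i = d i • v i := by
  have hω3 : ω ^ 3 = 1 := by linear_combination (ω - 1) * hω
  obtain ⟨v, hv, hv2⟩ := exists_basis_of_span {u : Fin n → F | ∃ c : F, c ^ 3 = 1 ∧ y *ᵥ u = c • u} (by
    intro u
    have hyyy : y *ᵥ (y *ᵥ (y *ᵥ u)) = u := by
      rw [Matrix.mulVec_mulVec, Matrix.mulVec_mulVec]
      have : y * (y * y) = 1 := by rw [← hy]; rw [pow_succ', pow_two]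
      rw [← Matrix.mul_assoc] at this
      rw [this, Matrix.one_mulVec]
    have key : ∀ c : F, c ^ 3 = 1 → u + c • (y *ᵥ u) + c ^ 2 • (y *ᵥ (y *ᵥ u)) ∈ Submodule.span F {u : Fin n → F | ∃ c : F, c ^ 3 = 1 ∧ y *ᵥ u = c • u} := by
      intro c hc
      apply Submodule.subset_span
      refine ⟨c ^ 2, by linear_combination (c ^ 3 + 1) * hc, ?_⟩
      rw [Matrix.mulVec_add, Matrix.mulVec_add, Matrix.mulVec_smul, Matrix.mulVec_smul, hyyy, smul_add, smul_add, smul_smul, smul_smul]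
      have e1 : c ^ 2 * c = 1 := by linear_combination hc
      have e2 : c ^ 2 * c ^ 2 = c := by linear_combination c * hc
      rw [e1, e2, one_smul]
      abel
    have h1 := key 1 (one_pow 3)
    have h2 := key ω hω3
    have h4 := key (ω ^ 2) (by linear_combination (ω ^ 3 + 1) * hω3)
    have h5 := Submodule.smul_mem _ (3 : F)⁻¹ (Submodule.add_mem _ (Submodule.add_mem _ h1 h2) h4)
    have h6 : (3 : F)⁻¹ • ((u + (1 : F) • (y *ᵥ u) + (1 : F) ^ 2 • (y *ᵥ (y *ᵥ u))) + (u + ω • (y *ᵥ u) + ω ^ 2 • (y *ᵥ (y *ᵥ u))) + (u + ω ^ 2 • (y *ᵥ u) + (ω ^ 2) ^ 2 • (y *ᵥ (y *ᵥ u)))) = u := by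
      have e1 : (u + (1 : F) • (y *ᵥ u) + (1 : F) ^ 2 • (y *ᵥ (y *ᵥ u))) + (u + ω • (y *ᵥ u) + ω ^ 2 • (y *ᵥ (y *ᵥ u))) + (u + ω ^ 2 • (y *ᵥ u) + (ω ^ 2) ^ 2 • (y *ᵥ (y *ᵥ u)))
          = (3 : F) • u + (1 + ω + ω ^ 2) • (y *ᵥ u) + (1 + ω ^ 2 + ω ^ 4) • (y *ᵥ (y *ᵥ u)) := by module
      have e2 : 1 + ω + ω ^ 2 = 0 := by linear_combination hω
      have e3 : 1 + ω ^ 2 + ω ^ 4 = 0 := by linear_combination (ω ^ 2 - ω + 1) * hω
      rw [e1, e2, e3, zero_smul, zero_smul, add_zero, add_zero, smul_smul, inv_mul_cancel₀ h3, one_smul]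
    rw [h6] at h5
    exact h5)
  choose d hd1 hd2 using hv2
  exact ⟨v, hv, d, hd1, hd2⟩

/-- involutions are diagonalizable -/
lemma diag_of_sq (h2 : (2 : F) ≠ 0) {n : ℕ} (y : Matrix (Fin n) (Fin n) F) (hy : y ^ 2 = 1) :
    ∃ v : Fin n → Fin n → F, LinearIndependent F v ∧ ∃ d : Fin n → F, (∀ i, d i = 1 ∨ d i = -1) ∧ ∀ i, y *ᵥ v i = d i • v i := by
  obtain ⟨v, hv, hv2⟩ := exists_basis_of_span {u : Fin n → F | ∃ c : F, (c = 1 ∨ c = -1) ∧ y *ᵥ u = c • u} (by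
    intro u
    have hyy : y *ᵥ (y *ᵥ u) = u := by
      rw [Matrix.mulVec_mulVec, ← pow_two, hy, Matrix.one_mulVec]
    have h1 : u + y *ᵥ u ∈ Submodule.span F {u : Fin n → F | ∃ c : F, (c = 1 ∨ c = -1) ∧ y *ᵥ u = c • u} := by
      apply Submodule.subset_span
      refine ⟨1, Or.inl rfl, ?_⟩
      rw [Matrix.mulVec_add, hyy, one_smul, add_comm]
    have h3 : u - y *ᵥ u ∈ Submodule.span F {u : Fin n → F | ∃ c : F, (c = 1 ∨ c = -1) ∧ y *ᵥ u = c • u} := by
      apply Submodule.subset_span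
      refine ⟨-1, Or.inr rfl, ?_⟩
      rw [Matrix.mulVec_sub, hyy, neg_smul, one_smul, neg_sub]
    have h4 := Submodule.smul_mem _ (2 : F)⁻¹ (Submodule.add_mem _ h1 h3)
    have h5 : (2 : F)⁻¹ • (u + y *ᵥ u + (u - y *ᵥ u)) = u := by
      have : u + y *ᵥ u + (u - y *ᵥ u) = (2 : F) • u := by rw [two_smul]; abel
      rw [this, smul_smul, inv_mul_cancel₀ h2, one_smul]
    rw [h5] at h4
    exact h4)
  choose d hd1 hd2 using hv2
  exact ⟨v, hv, d, hd1, hd2⟩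

lemma mem_SL {n : ℕ} (x : GL (Fin n) F) : x ∈ Cfsg.Geo.specialLinear (Fin n) F ↔ (x : Matrix (Fin n) (Fin n) F).det = 1 := by
  rw [Cfsg.Geo.specialLinear, MonoidHom.mem_ker, Units.ext_iff]
  rfl

/-- diagonalizable elements with the same eigenvalues are conjugate by an element of determinant one -/
theorem conj_diag {n : ℕ} (hn : 0 < n) (x T P Q : GL (Fin n) F) (d : Fin n → F)
    (hx : (x : Matrix (Fin n) (Fin n) F) * P = P * Matrix.diagonal d) (hT : (T : Matrix (Fin n) (Fin n) F) * Q = Q * Matrix.diagonal d) :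
    ∃ g ∈ Cfsg.Geo.specialLinear (Fin n) F, g⁻¹ * x * g = T := by
  classical
  have hdet : ∀ A : GL (Fin n) F, (A : Matrix (Fin n) (Fin n) F).det ≠ 0 := by
    intro A h
    have h1 := A.isUnit
    rw [Matrix.isUnit_iff_isUnit_det, h] at h1
    exact not_isUnit_zero h1
  obtain ⟨δ, hδ⟩ : ∃ δ, δ = ((P * Q⁻¹ : GL (Fin n) F) : Matrix (Fin n) (Fin n) F).det := ⟨_, rfl⟩
  have hδ0 : δ ≠ 0 := by rw [hδ]; exact hdet _
  obtain ⟨e, he⟩ : ∃ e : Fin n → F, e = Function.update (fun _ => (1 : F)) ⟨0, hn⟩ δ⁻¹ := ⟨_, rfl⟩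
  have hprod : ∏ i, e i = δ⁻¹ := by
    rw [he, Finset.prod_update_of_mem (Finset.mem_univ _)]
    simp
  have hEdet : (Matrix.diagonal e).det ≠ 0 := by
    rw [Matrix.det_diagonal, hprod]; exact inv_ne_zero hδ0
  let E : GL (Fin n) F := Matrix.GeneralLinearGroup.mkOfDetNeZero (Matrix.diagonal e) hEdet
  have hE : (E : Matrix (Fin n) (Fin n) F) = Matrix.diagonal e := rfl
  have hxd : (P⁻¹ * x * P : GL (Fin n) F) = Q⁻¹ * T * Q := by
    apply Units.ext
    have h1 : ((P⁻¹ * x * P : GL (Fin n) F) : Matrix (Fin n) (Fin n) F) = Matrix.diagonal d := by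
      rw [mul_assoc, Units.val_mul, Units.val_mul, hx, ← Matrix.mul_assoc, Units.inv_mul, Matrix.one_mul]
    have h2 : ((Q⁻¹ * T * Q : GL (Fin n) F) : Matrix (Fin n) (Fin n) F) = Matrix.diagonal d := by
      rw [mul_assoc, Units.val_mul, Units.val_mul, hT, ← Matrix.mul_assoc, Units.inv_mul, Matrix.one_mul]
    rw [h1, h2]
  have hcomm : E * (P⁻¹ * x * P) = (P⁻¹ * x * P) * E := by
    apply Units.ext
    have h1 : ((P⁻¹ * x * P : GL (Fin n) F) : Matrix (Fin n) (Fin n) F) = Matrix.diagonal d := by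
      rw [mul_assoc, Units.val_mul, Units.val_mul, hx, ← Matrix.mul_assoc, Units.inv_mul, Matrix.one_mul]
    show (E : Matrix (Fin n) (Fin n) F) * ((P⁻¹ * x * P : GL (Fin n) F) : Matrix (Fin n) (Fin n) F) = ((P⁻¹ * x * P : GL (Fin n) F) : Matrix (Fin n) (Fin n) F) * (E : Matrix (Fin n) (Fin n) F)
    rw [h1, hE, Matrix.diagonal_mul_diagonal, Matrix.diagonal_mul_diagonal]
    congr 1
    funext i
    exact mul_comm _ _
  refine ⟨P * E * Q⁻¹, ?_, ?_⟩
  · rw [mem_SL]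
    have h1 : P * E * Q⁻¹ = (P * E * P⁻¹) * (P * Q⁻¹) := by group
    have h2 : ((P * E * P⁻¹ : GL (Fin n) F) : Matrix (Fin n) (Fin n) F).det = δ⁻¹ := by
      rw [Units.val_mul, Units.val_mul, Matrix.det_mul, Matrix.det_mul, hE, Matrix.det_diagonal, hprod]
      have h3 : (P : Matrix (Fin n) (Fin n) F).det * ((P⁻¹ : GL (Fin n) F) : Matrix (Fin n) (Fin n) F).det = 1 := by
        rw [← Matrix.det_mul, Units.mul_inv, Matrix.det_one]
      linear_combination δ⁻¹ * h3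
    rw [h1, Units.val_mul, Matrix.det_mul, h2, ← hδ, inv_mul_cancel₀ hδ0]
  · calc (P * E * Q⁻¹)⁻¹ * x * (P * E * Q⁻¹) = Q * (E⁻¹ * ((P⁻¹ * x * P) * E)) * Q⁻¹ := by group
      _ = T := by rw [← hcomm, inv_mul_cancel_left, hxd]; group

/-- the standard form of the extraspecial group -/
theorem exists_std (h3 : (3 : F) ≠ 0) (c : F) (hc : c ^ 2 + c + 1 = 0) (X Y : Matrix (Fin 3) (Fin 3) F) (hX : X ^ 3 = 1) (hY : Y ^ 3 = 1)
    (hXY : X * Y = c • (Y * X)) : ∃ v : Fin 3 → F, v ≠ 0 ∧ X *ᵥ v = v ∧ LinearIndependent F ![v, Y *ᵥ v, Y *ᵥ (Y *ᵥ v)] ∧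
      X *ᵥ (Y *ᵥ v) = c • (Y *ᵥ v) ∧ X *ᵥ (Y *ᵥ (Y *ᵥ v)) = c ^ 2 • (Y *ᵥ (Y *ᵥ v)) ∧ Y *ᵥ (Y *ᵥ (Y *ᵥ v)) = v := by
  have hc3 : c ^ 3 = 1 := by linear_combination (c - 1) * hc
  have hc1 : c ≠ 1 := by
    rintro rfl
    apply h3
    linear_combination hc
  have hYcancel : ∀ A : Matrix (Fin 3) (Fin 3) F, Y * A = 0 → A = 0 := by
    intro A hA
    have h1 : Y ^ 3 * A = 0 := by rw [pow_succ, Matrix.mul_assoc, hA, Matrix.mul_zero]
    rwa [hY, Matrix.one_mul] at h1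
  have hXXY : X * (X * Y) = c ^ 2 • (Y * (X * X)) := by
    rw [hXY, Matrix.mul_smul, ← Matrix.mul_assoc, hXY, Matrix.smul_mul, smul_smul, Matrix.mul_assoc, pow_two]
  obtain ⟨u, hu⟩ : ∃ u : Fin 3 → F, (1 + X + X * X) *ᵥ u ≠ 0 := by
    by_contra h
    push Not at h
    have hN : 1 + X + X * X = 0 := by
      apply Matrix.toLin'.injective
      refine LinearMap.ext fun v => ?_
      rw [Matrix.toLin'_apply, h v, map_zero]; rfl
    have hN1 : 1 + c • X + c ^ 2 • (X * X) = 0 := by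
      apply hYcancel
      have h1 : (1 + X + X * X) * Y = 0 := by rw [hN, Matrix.zero_mul]
      rw [Matrix.add_mul, Matrix.add_mul, Matrix.one_mul, Matrix.mul_assoc, hXXY, hXY] at h1
      rw [Matrix.mul_add, Matrix.mul_add, Matrix.mul_one, Matrix.mul_smul, Matrix.mul_smul]
      exact h1
    have hN2 : 1 + c ^ 2 • X + c ^ 4 • (X * X) = 0 := by
      apply hYcancel
      have h1 : (1 + c • X + c ^ 2 • (X * X)) * Y = 0 := by rw [hN1, Matrix.zero_mul]
      rw [Matrix.add_mul, Matrix.add_mul, Matrix.one_mul, Matrix.smul_mul, Matrix.smul_mul, Matrix.mul_assoc, hXXY, hXY, smul_smul, smul_smul] at h1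
      rw [Matrix.mul_add, Matrix.mul_add, Matrix.mul_one, Matrix.mul_smul, Matrix.mul_smul]
      have e1 : c * c = c ^ 2 := by ring
      have e2 : c ^ 2 * c ^ 2 = c ^ 4 := by ring
      rw [e1, e2] at h1
      exact h1
    have h4 : (3 : F) • (1 : Matrix (Fin 3) (Fin 3) F) = 0 := by
      have e : (1 + X + X * X) + (1 + c • X + c ^ 2 • (X * X)) + (1 + c ^ 2 • X + c ^ 4 • (X * X)) = (3 : F) • (1 : Matrix (Fin 3) (Fin 3) F) + (1 + c + c ^ 2) • X + (1 + c ^ 2 + c ^ 4) • (X * X) := by module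
      have e2 : 1 + c + c ^ 2 = 0 := by linear_combination hc
      have e3 : 1 + c ^ 2 + c ^ 4 = 0 := by linear_combination (c ^ 2 - c + 1) * hc
      rw [hN, hN1, hN2, e2, e3, zero_smul, zero_smul, add_zero, add_zero, add_zero, add_zero] at e
      exact e.symm
    rcases smul_eq_zero.1 h4 with h5 | h5
    · exact h3 h5
    · exact one_ne_zero h5
  obtain ⟨v, hv⟩ : ∃ v, v = (1 + X + X * X) *ᵥ u := ⟨_, rfl⟩
  rw [← hv] at hu
  have hXv : X *ᵥ v = v := by
    rw [hv, Matrix.mulVec_mulVec, Matrix.mul_add, Matrix.mul_add, Matrix.mul_one]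
    have : X * (X * X) = 1 := by rw [← hX, pow_succ', pow_two]
    rw [this]
    congr 1
    abel
  have hXYw : ∀ w, X *ᵥ (Y *ᵥ w) = c • (Y *ᵥ (X *ᵥ w)) := by
    intro w
    rw [Matrix.mulVec_mulVec, hXY, Matrix.smul_mulVec, ← Matrix.mulVec_mulVec]
  have e1 : X *ᵥ (Y *ᵥ v) = c • (Y *ᵥ v) := by rw [hXYw, hXv]
  have e2 : X *ᵥ (Y *ᵥ (Y *ᵥ v)) = c ^ 2 • (Y *ᵥ (Y *ᵥ v)) := by rw [hXYw, e1, Matrix.mulVec_smul, smul_smul, pow_two]
  have e3 : Y *ᵥ (Y *ᵥ (Y *ᵥ v)) = v := by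
    rw [Matrix.mulVec_mulVec, Matrix.mulVec_mulVec]
    have : Y * (Y * Y) = 1 := by rw [← hY, pow_succ', pow_two]
    rw [← Matrix.mul_assoc] at this
    rw [this, Matrix.one_mulVec]
  have hYv : Y *ᵥ v ≠ 0 := by
    intro h
    rw [h, Matrix.mulVec_zero, Matrix.mulVec_zero] at e3
    exact hu e3.symm
  have hYYv : Y *ᵥ (Y *ᵥ v) ≠ 0 := by
    intro h
    rw [h, Matrix.mulVec_zero] at e3
    exact hu e3.symm
  refine ⟨v, hu, hXv, ?_, e1, e2, e3⟩
  apply Module.End.eigenvectors_linearIndependent' (Matrix.toLin' X) ![1, c, c ^ 2]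
  · intro i j hij
    have hcc : c ^ 2 ≠ 1 := by
      intro h
      apply hc1
      have : c ^ 3 = c ^ 2 * c := by ring
      rw [h, one_mul, hc3] at this
      exact this.symm
    have hcc2 : c ^ 2 ≠ c := by
      intro h
      have h0 : c ≠ 0 := by rintro rfl; norm_num at hc
      apply hc1
      apply mul_left_cancel₀ h0
      rw [mul_one, ← pow_two, h]
    fin_cases i <;> fin_cases j
    · rfl
    · have h : (1 : F) = c := hij
      exact absurd h.symm hc1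
    · have h : (1 : F) = c ^ 2 := hij
      exact absurd h.symm hcc
    · have h : c = 1 := hij
      exact absurd h hc1
    · rfl
    · have h : c = c ^ 2 := hij
      exact absurd h.symm hcc2
    · have h : c ^ 2 = 1 := hij
      exact absurd h hcc
    · have h : c ^ 2 = c := hij
      exact absurd h hcc2
    · rfl
  · intro i
    rw [Module.End.hasEigenvector_iff, Module.End.mem_eigenspace_iff, Matrix.toLin'_apply]
    fin_cases i
    · exact ⟨by simpa using hXv, hu⟩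
    · exact ⟨e1, hYv⟩
    · exact ⟨e2, hYYv⟩

end CfsgLib.Q29
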