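import Cfsg.Agent.LibQ29c
import Cfsg.Agent.LibUn29d
import Cfsg.Agent.LibH22HermS

/-! Orthonormal eigenbases (seat helper29). -/

namespace CfsgLib.Q29

open Matrix Cfsg CfsgLib.Un29

variable {n : ℕ} {F : Type*} [Field F] {σ : F ≃+* F} {f : (Fin n → F) → (Fin n → F) → F}

/-- projection away from an orthonormal family -/
def prj (f : (Fin n → F) → (Fin n → F) → F) {k : ℕ} (w : Fin k → Fin n → F) (u : Fin n → F) : Fin n → F := u - ∑ i, f u (w i) • w i

lemma f_sum_left (hf : Geo.IsUnitaryForm σ f) {ι : Type*} (s : Finset ι) (g : ι → Fin n → F) (v : Fin n → F) : f (∑ i ∈ s, g i) v = ∑ i ∈ s, f (g i) v := by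
  classical
  induction s using Finset.induction_on with
  | empty =>
    rw [Finset.sum_empty, Finset.sum_empty]
    have := hf.smul_left 0 0 v
    rwa [zero_smul, zero_mul] at this
  | insert a s ha ih => rw [Finset.sum_insert ha, Finset.sum_insert ha, hf.add_left, ih]

lemma f_zero_left (hf : Geo.IsUnitaryForm σ f) (v : Fin n → F) : f 0 v = 0 := by
  have := hf.smul_left 0 0 v
  rwa [zero_smul, zero_mul] at this

lemma prj_perp (hf : Geo.IsUnitaryForm σ f) {k : ℕ} {w : Fin k → Fin n → F} (hw : ∀ i j, f (w i) (w j) = if i = j then 1 else 0) (u : Fin n → F) (j : Fin k) :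
    f (prj f w u) (w j) = 0 := by
  rw [prj, CfsgLib.Un29.sub_left hf, f_sum_left hf, Finset.sum_eq_single j]
  · rw [hf.smul_left, hw, if_pos rfl, mul_one, sub_self]
  · intro i _ hij
    rw [hf.smul_left, hw, if_neg hij, mul_zero]
  · intro h; exact absurd (Finset.mem_univ _) h

/-- an orthonormal family of eigenvectors -/
theorem exists_on_eigen [Finite F] (hf : Geo.IsUnitaryForm σ f) (x : Matrix (Fin n) (Fin n) F) (hx : ∀ u v, f (x *ᵥ u) (x *ᵥ v) = f u v)
    (v : Fin n → Fin n → F) (hv : LinearIndependent F v) (d : Fin n → F) (hd : ∀ i, x *ᵥ v i = d i • v i) (hnorm : ∀ i, d i * σ (d i) = 1) :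
    ∀ k ≤ n, ∃ w : Fin k → Fin n → F, ∃ e : Fin k → F, (∀ i j, f (w i) (w j) = if i = j then 1 else 0) ∧ (∀ i, x *ᵥ w i = e i • w i) ∧ (∀ i, ∃ j, e i = d j) := by
  classical
  intro k
  induction k with
  | zero =>
    intro _
    exact ⟨fun i => i.elim0, fun i => i.elim0, fun i => i.elim0, fun i => i.elim0, fun i => i.elim0⟩
  | succ k ih =>
    intro hk
    obtain ⟨w, e, hw, hxw, he⟩ := ih (by omega)
    have hen : ∀ i, e i * σ (e i) = 1 := by
      intro i
      obtain ⟨j, hj⟩ := he i
      rw [hj]; exact hnorm j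
    -- an eigenvector orthogonal to the family and not isotropic
    obtain ⟨u, l, hu1, hu2, hul, hu3⟩ : ∃ u : Fin n → F, ∃ l : Fin n, (∀ j, f u (w j) = 0) ∧ x *ᵥ u = d l • u ∧ True ∧ f u u ≠ 0 := by
      by_contra hcon
      push Not at hcon
      have hiso : ∀ u l, (∀ j, f u (w j) = 0) → x *ᵥ u = d l • u → f u u = 0 := fun u l h1 h2 => hcon u l h1 h2 trivial
      -- any two are orthogonal
      have horth : ∀ u1 l1 u2 l2, (∀ j, f u1 (w j) = 0) → x *ᵥ u1 = d l1 • u1 → (∀ j, f u2 (w j) = 0) → x *ᵥ u2 = d l2 • u2 → f u1 u2 = 0 := by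
        intro u1 l1 u2 l2 h1 h2 h3 h4
        by_cases hdd : d l1 = d l2
        · by_contra ha
          obtain ⟨τ, hτ⟩ := exists_trace_one hf
          obtain ⟨c, hc⟩ : ∃ c : F, σ c = τ / f u1 u2 := sig_surj hf _
          have h5 := hiso (u1 + c • u2) l1 (by
            intro j
            rw [hf.add_left, hf.smul_left, h1, h3, mul_zero, add_zero]) (by
            rw [Matrix.mulVec_add, Matrix.mulVec_smul, h2, h4, ← hdd, smul_add, smul_comm])
          rw [hf.add_left, add_right hf, add_right hf, hf.smul_left, hf.smul_left, smul_right hf, smul_right hf, hiso u1 l1 h1 h2, hiso u2 l2 h3 h4] at h5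
          have h6 : σ c * f u1 u2 = τ := by rw [hc, div_mul_cancel₀ _ ha]
          have h7 : c * f u2 u1 = σ τ := by
            rw [← h6, map_mul, hf.involutive, ← hf.herm]
          rw [h6, h7] at h5
          have h8 : τ + σ τ = 0 := by linear_combination h5
          rw [hτ] at h8
          exact one_ne_zero h8
        · have h5 := hx u1 u2
          rw [h2, h4, hf.smul_left, smul_right hf] at h5
          by_contra ha
          apply hdd
          have h6 : d l1 * σ (d l2) = 1 := by
            apply mul_right_cancel₀ ha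
            rw [one_mul, mul_assoc]; exact h5
          have h7 := hnorm l2
          have h8 : σ (d l2) ≠ 0 := by
            intro h
            rw [h, mul_zero] at h7
            exact zero_ne_one h7
          apply mul_right_cancel₀ h8
          rw [h6, h7]
      -- projections of eigenvectors
      have hprj : ∀ l, x *ᵥ (prj f w (v l)) = d l • prj f w (v l) := by
        intro l
        rw [prj, Matrix.mulVec_sub, hd, smul_sub, Matrix.mulVec_sum, Finset.smul_sum]
        congr 1
        refine Finset.sum_congr rfl fun i _ => ?_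
        rw [Matrix.mulVec_smul, hxw, smul_smul, smul_smul]
        by_cases h0 : f (v l) (w i) = 0
        · rw [h0]; simp
        · have h1 := hx (v l) (w i)
          rw [hd, hxw, hf.smul_left, smul_right hf] at h1
          have h2 : d l * σ (e i) = 1 := by
            apply mul_right_cancel₀ h0
            rw [one_mul, mul_assoc]; exact h1
          have h3 := hen i
          have h4 : σ (e i) ≠ 0 := by
            intro h
            rw [h, mul_zero] at h3
            exact zero_ne_one h3
          have h5 : d l = e i := by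
            apply mul_right_cancel₀ h4
            rw [h2, h3]
          rw [h5]; congr 1; ring
      have hpp : ∀ l l', f (prj f w (v l)) (prj f w (v l')) = 0 := fun l l' =>
        horth _ l _ l' (prj_perp hf hw _) (hprj l) (prj_perp hf hw _) (hprj l')
      have hpv : ∀ l l', f (prj f w (v l)) (v l') = 0 := by
        intro l l'
        have h1 : v l' = prj f w (v l') + ∑ i, f (v l') (w i) • w i := by rw [prj, sub_add_cancel]
        rw [h1, add_right hf, hpp, zero_add, hf.herm, f_sum_left hf]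
        rw [Finset.sum_eq_zero, map_zero]
        intro i _
        rw [hf.smul_left, hf.herm (w i), prj_perp hf hw, map_zero, mul_zero]
      have hspan : ∀ u, u ∈ Submodule.span F (Set.range v) := by
        intro u
        have : Submodule.span F (Set.range v) = ⊤ := by
          apply Submodule.eq_top_of_finrank_eq
          rw [finrank_span_eq_card hv, Fintype.card_fin, Module.finrank_fin_fun]
        rw [this]; trivial
      have hp0 : ∀ l, prj f w (v l) = 0 := by
        intro l
        by_contra h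
        obtain ⟨_, u, hu⟩ := hf.nondegenerate _ h
        apply hu
        refine Submodule.span_induction (p := fun u _ => f (prj f w (v l)) u = 0) ?_ ?_ ?_ ?_ (hspan u)
        · rintro _ ⟨l', rfl⟩
          exact hpv l l'
        · rw [hf.herm, f_zero_left hf, map_zero]
        · intro a b _ _ ha hb
          rw [add_right hf, ha, hb, add_zero]
        · intro a b _ hb
          rw [smul_right hf, hb, mul_zero]
      have hle : Submodule.span F (Set.range v) ≤ Submodule.span F (Set.range w) := by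
        rw [Submodule.span_le]
        rintro _ ⟨l, rfl⟩
        have h1 : v l = prj f w (v l) + ∑ i, f (v l) (w i) • w i := by rw [prj, sub_add_cancel]
        rw [h1, hp0, zero_add]
        exact Submodule.sum_mem _ fun i _ => Submodule.smul_mem _ _ (Submodule.subset_span ⟨i, rfl⟩)
      have h1 := Submodule.finrank_mono hle
      rw [finrank_span_eq_card hv, Fintype.card_fin] at h1
      have h2 : Module.finrank F (Submodule.span F (Set.range w)) ≤ k := by
        have := finrank_range_le_card (R := F) w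
        rwa [Fintype.card_fin] at this
      omega
    obtain ⟨c, hc⟩ := exists_norm hf (f u u)⁻¹ (by rw [map_inv₀, norm_real hf])
    refine ⟨Fin.snoc w (c • u), Fin.snoc e (d l), ?_, ?_, ?_⟩
    · intro i j
      refine Fin.lastCases ?_ (fun i => ?_) i
      · refine Fin.lastCases ?_ (fun j => ?_) j
        · rw [Fin.snoc_last, if_pos rfl, hf.smul_left, smul_right hf, ← mul_assoc, hc, inv_mul_cancel₀ hu3]
        · rw [Fin.snoc_last, Fin.snoc_castSucc, if_neg (Fin.castSucc_lt_last j).ne', hf.smul_left, hu1, mul_zero]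
      · refine Fin.lastCases ?_ (fun j => ?_) j
        · rw [Fin.snoc_last, Fin.snoc_castSucc, if_neg (Fin.castSucc_lt_last i).ne, smul_right hf, hf.herm, hu1, map_zero, mul_zero]
        · rw [Fin.snoc_castSucc, Fin.snoc_castSucc, hw]
          simp only [Fin.castSucc_inj]
    · intro i
      refine Fin.lastCases ?_ (fun i => ?_) i
      · rw [Fin.snoc_last, Fin.snoc_last, Matrix.mulVec_smul, hu2, smul_comm]
      · rw [Fin.snoc_castSucc, Fin.snoc_castSucc, hxw]
    · intro i
      refine Fin.lastCases ?_ (fun i => ?_) i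
      · exact ⟨l, by rw [Fin.snoc_last]⟩
      · obtain ⟨j, hj⟩ := he i
        exact ⟨j, by rw [Fin.snoc_castSucc, hj]⟩

lemma on_li (hf : Geo.IsUnitaryForm σ f) {k : ℕ} {w : Fin k → Fin n → F} (hw : ∀ i j, f (w i) (w j) = if i = j then 1 else 0) : LinearIndependent F w := by
  classical
  rw [Fintype.linearIndependent_iff]
  intro g hg j
  have h1 : f (∑ i, g i • w i) (w j) = 0 := by rw [hg, f_zero_left hf]
  rw [f_sum_left hf, Finset.sum_eq_single j] at h1
  · rw [hf.smul_left, hw, if_pos rfl, mul_one] at h1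
    exact h1
  · intro i _ hij
    rw [hf.smul_left, hw, if_neg hij, mul_zero]
  · intro h; exact absurd (Finset.mem_univ _) h

section std
variable {q : ℕ} [Fintype F]

lemma det_norm (hσ : ∀ x, σ x = x ^ q) {g : GL (Fin n) F} (hg : g ∈ GU n F q) : (g : Matrix (Fin n) (Fin n) F).det * σ (g : Matrix (Fin n) (Fin n) F).det = 1 := by
  have h1 := (Cfsg.Agent.H22.mem_GU_iff' (σ := (σ : F →+* F)) hσ g).1 hg
  have h2 := congrArg Matrix.det h1
  rw [Matrix.det_mul, Matrix.det_transpose, Matrix.det_one] at h2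
  have h3 : ((g : Matrix (Fin n) (Fin n) F).map (σ : F →+* F)).det = σ (g : Matrix (Fin n) (Fin n) F).det := by
    rw [← RingHom.mapMatrix_apply, ← RingHom.map_det]; rfl
  rw [h3] at h2
  exact h2

lemma diag_mem_GU (hσ : ∀ x, σ x = x ^ q) {g : GL (Fin n) F} {d : Fin n → F} (hg : (g : Matrix (Fin n) (Fin n) F) = Matrix.diagonal d) (hd : ∀ i, d i * σ (d i) = 1) : g ∈ GU n F q := by
  rw [Cfsg.Agent.H22.mem_GU_iff' (σ := (σ : F →+* F)) hσ, hg]
  apply Cfsg.Agent.H22.diag_unitary hσ
  intro i
  rw [pow_succ', ← hσ, hd]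

/-- a matrix with orthonormal columns is unitary -/
lemma mem_GU_of_on (hf : Geo.IsUnitaryForm σ (hermForm n F q)) (hσ : ∀ x, σ x = x ^ q) {Q : GL (Fin n) F} {w : Fin n → Fin n → F}
    (hw : ∀ i j, hermForm n F q (w i) (w j) = if i = j then 1 else 0) (hQ : ∀ i j, (Q : Matrix (Fin n) (Fin n) F) i j = w j i) : Q ∈ GU n F q := by
  rw [Cfsg.Agent.H22.mem_GU_iff' (σ := (σ : F →+* F)) hσ]
  ext i j
  rw [Matrix.mul_apply]
  simp only [Matrix.transpose_apply, Matrix.map_apply]
  have h1 := hw i j
  rw [hermForm] at h1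
  rw [Matrix.one_apply, ← h1]
  refine Finset.sum_congr rfl fun l _ => ?_
  rw [hQ, hQ]
  congr 1
  exact hσ _

/-- conjugacy in the special unitary group -/
theorem conj_unitary (hf : Geo.IsUnitaryForm σ (hermForm n F q)) (hσ : ∀ x, σ x = x ^ q) (hn : 0 < n) (x T : GL (Fin n) F) (w w' : Fin n → Fin n → F)
    (hw : ∀ i j, hermForm n F q (w i) (w j) = if i = j then 1 else 0) (hw' : ∀ i j, hermForm n F q (w' i) (w' j) = if i = j then 1 else 0)
    (d : Fin n → F) (hx : ∀ i, (x : Matrix (Fin n) (Fin n) F) *ᵥ w i = d i • w i) (hT : ∀ i, (T : Matrix (Fin n) (Fin n) F) *ᵥ w' i = d i • w' i) :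
    ∃ g ∈ GU n F q ⊓ Geo.specialLinear (Fin n) F, g⁻¹ * x * g = T := by
  classical
  obtain ⟨P, hP, hPw⟩ := diag_of_li (x : Matrix (Fin n) (Fin n) F) w (on_li hf hw) d hx
  obtain ⟨Q, hQ, hQw⟩ := diag_of_li (T : Matrix (Fin n) (Fin n) F) w' (on_li hf hw') d hT
  have hPU := mem_GU_of_on hf hσ hw hPw
  have hQU := mem_GU_of_on hf hσ hw' hQw
  have hPQ : P * Q⁻¹ ∈ GU n F q := Subgroup.mul_mem _ hPU (Subgroup.inv_mem _ hQU)
  obtain ⟨δ, hδ⟩ : ∃ δ, δ = ((P * Q⁻¹ : GL (Fin n) F) : Matrix (Fin n) (Fin n) F).det := ⟨_, rfl⟩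
  have hδn := det_norm hσ hPQ
  rw [← hδ] at hδn
  have hδ0 : δ ≠ 0 := by
    rintro rfl
    rw [zero_mul] at hδn
    exact zero_ne_one hδn
  obtain ⟨e, he⟩ : ∃ e : Fin n → F, e = Function.update (fun _ => (1 : F)) ⟨0, hn⟩ δ⁻¹ := ⟨_, rfl⟩
  have hprod : ∏ i, e i = δ⁻¹ := by
    rw [he, Finset.prod_update_of_mem (Finset.mem_univ _)]
    simp
  have hEdet : (Matrix.diagonal e).det ≠ 0 := by
    rw [Matrix.det_diagonal, hprod]; exact inv_ne_zero hδ0
  let E : GL (Fin n) F := Matrix.GeneralLinearGroup.mkOfDetNeZero (Matrix.diagonal e) hEdet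
  have hE : (E : Matrix (Fin n) (Fin n) F) = Matrix.diagonal e := rfl
  have hEU : E ∈ GU n F q := by
    apply diag_mem_GU hσ hE
    intro i
    rw [he]
    by_cases hi : i = ⟨0, hn⟩
    · rw [hi, Function.update_self, map_inv₀, ← mul_inv, hδn, inv_one]
    · rw [Function.update_of_ne hi, map_one, mul_one]
  have h1 : ((P⁻¹ * x * P : GL (Fin n) F) : Matrix (Fin n) (Fin n) F) = Matrix.diagonal d := by
    rw [mul_assoc, Units.val_mul, Units.val_mul, hP, ← Matrix.mul_assoc, Units.inv_mul, Matrix.one_mul]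
  have h2 : ((Q⁻¹ * T * Q : GL (Fin n) F) : Matrix (Fin n) (Fin n) F) = Matrix.diagonal d := by
    rw [mul_assoc, Units.val_mul, Units.val_mul, hQ, ← Matrix.mul_assoc, Units.inv_mul, Matrix.one_mul]
  have hxd : (P⁻¹ * x * P : GL (Fin n) F) = Q⁻¹ * T * Q := Units.ext (by rw [h1, h2])
  have hcomm : E * (P⁻¹ * x * P) = (P⁻¹ * x * P) * E := by
    apply Units.ext
    show (E : Matrix (Fin n) (Fin n) F) * ((P⁻¹ * x * P : GL (Fin n) F) : Matrix (Fin n) (Fin n) F) = ((P⁻¹ * x * P : GL (Fin n) F) : Matrix (Fin n) (Fin n) F) * (E : Matrix (Fin n) (Fin n) F)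
    rw [h1, hE, Matrix.diagonal_mul_diagonal, Matrix.diagonal_mul_diagonal]
    congr 1
    funext i
    exact mul_comm _ _
  refine ⟨P * E * Q⁻¹, ⟨Subgroup.mul_mem _ (Subgroup.mul_mem _ hPU hEU) (Subgroup.inv_mem _ hQU), ?_⟩, ?_⟩
  · show P * E * Q⁻¹ ∈ Geo.specialLinear (Fin n) F
    rw [mem_SL]
    have h1 : P * E * Q⁻¹ = (P * E * P⁻¹) * (P * Q⁻¹) := by group
    have h2 : ((P * E * P⁻¹ : GL (Fin n) F) : Matrix (Fin n) (Fin n) F).det = δ⁻¹ := by
      rw [Units.val_mul, Units.val_mul, Matrix.det_mul, Matrix.det_mul, hE, Matrix.det_diagonal, hprod]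
      have h3 : (P : Matrix (Fin n) (Fin n) F).det * ((P⁻¹ : GL (Fin n) F) : Matrix (Fin n) (Fin n) F).det = 1 := by
        rw [← Matrix.det_mul, Units.mul_inv, Matrix.det_one]
      linear_combination δ⁻¹ * h3
    rw [h1, Units.val_mul, Matrix.det_mul, h2, ← hδ, inv_mul_cancel₀ hδ0]
  · calc (P * E * Q⁻¹)⁻¹ * x * (P * E * Q⁻¹) = Q * (E⁻¹ * ((P⁻¹ * x * P) * E)) * Q⁻¹ := by group
      _ = T := by rw [← hcomm, inv_mul_cancel_left, hxd]; group

end std

end CfsgLib.Q29
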