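import Cfsg.Agent.LibQ29d

/-! Ordering of eigenvalues; orthonormal eigenbases of elements of order two and three (seat helper29). -/

namespace CfsgLib.Q29

open Matrix Cfsg CfsgLib.Un29

theorem conj_rel {G : Type*} [Group G] (P X Y K : G) (a b : ℕ) (h1 : K * (P⁻¹ * X * P) = (P⁻¹ * X * P) ^ a * K)
    (h2 : K * (P⁻¹ * Y * P) = (P⁻¹ * Y * P) ^ b * K) :
    (P * K * P⁻¹) * X * (P * K * P⁻¹)⁻¹ = X ^ a ∧ (P * K * P⁻¹) * Y * (P * K * P⁻¹)⁻¹ = Y ^ b := by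
  constructor
  · have e : (P * K * P⁻¹) * X * (P * K * P⁻¹)⁻¹ = P * (K * (P⁻¹ * X * P) * K⁻¹) * P⁻¹ := by group
    rw [e, h1, mul_inv_cancel_right]
    have e2 : P⁻¹ * X * P = MulAut.conj P⁻¹ X := by rw [MulAut.conj_apply, inv_inv]
    rw [e2, ← map_pow, MulAut.conj_apply, inv_inv]; group
  · have e : (P * K * P⁻¹) * Y * (P * K * P⁻¹)⁻¹ = P * (K * (P⁻¹ * Y * P) * K⁻¹) * P⁻¹ := by group
    rw [e, h2, mul_inv_cancel_right]
    have e2 : P⁻¹ * Y * P = MulAut.conj P⁻¹ Y := by rw [MulAut.conj_apply, inv_inv]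
    rw [e2, ← map_pow, MulAut.conj_apply, inv_inv]; group

theorem conj_rel' {G : Type*} [Group G] (P X Y K : G) (a : ℕ) (h1 : K * (P⁻¹ * X * P) = (P⁻¹ * X * P) * K)
    (h2 : K * (P⁻¹ * Y * P) = (P⁻¹ * Y * P) * (P⁻¹ * X * P) ^ a * K) :
    (P * K * P⁻¹) * X * (P * K * P⁻¹)⁻¹ = X ∧ (P * K * P⁻¹) * Y * (P * K * P⁻¹)⁻¹ = Y * X ^ a := by
  constructor
  · have e : (P * K * P⁻¹) * X * (P * K * P⁻¹)⁻¹ = P * (K * (P⁻¹ * X * P) * K⁻¹) * P⁻¹ := by group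
    rw [e, h1, mul_inv_cancel_right]; group
  · have e : (P * K * P⁻¹) * Y * (P * K * P⁻¹)⁻¹ = P * (K * (P⁻¹ * Y * P) * K⁻¹) * P⁻¹ := by group
    rw [e, h2, mul_inv_cancel_right]
    have e2 : P⁻¹ * X * P = MulAut.conj P⁻¹ X := by rw [MulAut.conj_apply, inv_inv]
    rw [e2, ← map_pow, MulAut.conj_apply, inv_inv]; group

theorem diag3 {F : Type*} [Field F] (a b c : F) : Matrix.diagonal ![a, b, c] = !![a, 0, 0; 0, b, 0; 0, 0, c] := by
  ext i j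
  fin_cases i <;> fin_cases j <;> rfl

theorem diag3_sq {F : Type*} [Field F] (a b c : F) : (!![a, 0, 0; 0, b, 0; 0, 0, c] : Matrix (Fin 3) (Fin 3) F) ^ 2 = !![a ^ 2, 0, 0; 0, b ^ 2, 0; 0, 0, c ^ 2] := by
  rw [pow_two]
  ext i j
  fin_cases i <;> fin_cases j <;> simp [Matrix.mul_apply, Fin.sum_univ_three, pow_two]

/-- ordering three values with product one in `{1, -1}` -/
theorem order_sq {F : Type*} [Field F] (h2 : (2 : F) ≠ 0) (d : Fin 3 → F) (hd : ∀ i, d i = 1 ∨ d i = -1) (hp : d 0 * d 1 * d 2 = 1) (hne : ¬ ∀ i, d i = d 0) :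
    ∃ σ : Equiv.Perm (Fin 3), d (σ 0) = 1 ∧ d (σ 1) = -1 ∧ d (σ 2) = -1 := by
  have hm : (-1 : F) ≠ 1 := by
    intro h
    apply h2
    linear_combination -h
  rcases hd 0 with h0 | h0 <;> rcases hd 1 with h1 | h1 <;> rcases hd 2 with h3 | h3
  · exfalso; apply hne; intro i; fin_cases i <;> simp [h0, h1, h3]
  · exfalso; rw [h0, h1, h3] at hp; norm_num at hp; exact hm hp
  · exfalso; rw [h0, h1, h3] at hp; norm_num at hp; exact hm hp
  · exact ⟨1, h0, h1, h3⟩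
  · exfalso; rw [h0, h1, h3] at hp; norm_num at hp; exact hm hp
  · exact ⟨Equiv.swap 0 1, by simpa using h1, by simpa using h0, by rw [Equiv.swap_apply_of_ne_of_ne (by decide) (by decide)]; exact h3⟩
  · exact ⟨Equiv.swap 0 2, by simpa using h3, by rw [Equiv.swap_apply_of_ne_of_ne (by decide) (by decide)]; exact h1, by simpa using h0⟩
  · exfalso; rw [h0, h1, h3] at hp; norm_num at hp; exact hm hp

/-- ordering three cube roots of unity -/
theorem order_cube {F : Type*} [Field F] (c : F) (hc : c ^ 2 + c + 1 = 0) (d : Fin 3 → F) (hd : ∀ i, d i ^ 3 = 1) (hne : ¬ ∀ i, d i = d 0) :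
    ∃ σ : Equiv.Perm (Fin 3), ∃ a : F, a ≠ 0 ∧ ((d (σ 0) = a ∧ d (σ 1) = a * c ∧ d (σ 2) = a * c ^ 2) ∨ (d (σ 0) = a ∧ d (σ 1) = a ∧ d (σ 2) = a * c) ∨
      (d (σ 0) = a ∧ d (σ 1) = a ∧ d (σ 2) = a * c ^ 2)) := by
  have hc3 : c ^ 3 = 1 := by linear_combination (c - 1) * hc
  have hd0 : ∀ i, d i ≠ 0 := by
    intro i h
    have := hd i
    rw [h] at this
    norm_num at this
  have hrat : ∀ i j, d j = d i ∨ d j = d i * c ∨ d j = d i * c ^ 2 := by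
    intro i j
    have h1 : (d j - d i) * ((d j - d i * c) * (d j - d i * c ^ 2)) = 0 := by
      linear_combination hd j - hd i + ((d j) ^ 2 * d i * (-1) + d j * (d i) ^ 2 * c - (d i) ^ 3 * (c - 1)) * hc
    rcases mul_eq_zero.1 h1 with h | h
    · left; exact sub_eq_zero.1 h
    · rcases mul_eq_zero.1 h with h | h
      · right; left; exact sub_eq_zero.1 h
      · right; right; exact sub_eq_zero.1 h
  have hback : ∀ x y : F, y = x * c → x = y * c ^ 2 := by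
    intro x y h
    rw [h]; linear_combination -x * hc3
  have hback2 : ∀ x y : F, y = x * c ^ 2 → x = y * c := by
    intro x y h
    rw [h]; linear_combination -x * hc3
  rcases hrat 0 1 with h1 | h1 | h1 <;> rcases hrat 0 2 with h2 | h2 | h2
  · exfalso; apply hne; intro i; fin_cases i
    · rfl
    · exact h1
    · exact h2
  · exact ⟨1, d 0, hd0 0, Or.inr (Or.inl ⟨rfl, h1, h2⟩)⟩
  · exact ⟨1, d 0, hd0 0, Or.inr (Or.inr ⟨rfl, h1, h2⟩)⟩
  · refine ⟨Equiv.swap 1 2, d 0, hd0 0, Or.inr (Or.inl ⟨?_, ?_, ?_⟩)⟩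
    · rw [Equiv.swap_apply_of_ne_of_ne (by decide) (by decide)]
    · simpa using h2
    · simpa using h1
  · -- d1 = d2 = d0 c
    refine ⟨Equiv.swap 0 2, d 1, hd0 1, Or.inr (Or.inr ⟨?_, ?_, ?_⟩)⟩
    · rw [Equiv.swap_apply_left, h1, h2]
    · rw [Equiv.swap_apply_of_ne_of_ne (by decide) (by decide)]
    · rw [Equiv.swap_apply_right]; exact hback _ _ h1
  · exact ⟨1, d 0, hd0 0, Or.inl ⟨rfl, h1, h2⟩⟩
  · refine ⟨Equiv.swap 1 2, d 0, hd0 0, Or.inr (Or.inr ⟨?_, ?_, ?_⟩)⟩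
    · rw [Equiv.swap_apply_of_ne_of_ne (by decide) (by decide)]
    · simpa using h2
    · simpa using h1
  · refine ⟨Equiv.swap 1 2, d 0, hd0 0, Or.inl ⟨?_, ?_, ?_⟩⟩
    · rw [Equiv.swap_apply_of_ne_of_ne (by decide) (by decide)]
    · simpa using h2
    · simpa using h1
  · refine ⟨Equiv.swap 0 2, d 1, hd0 1, Or.inr (Or.inl ⟨?_, ?_, ?_⟩)⟩
    · rw [Equiv.swap_apply_left, h1, h2]
    · rw [Equiv.swap_apply_of_ne_of_ne (by decide) (by decide)]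
    · rw [Equiv.swap_apply_right]; exact hback2 _ _ h1


section uni
variable {F : Type*} [Field F] [Fintype F] {σ : F ≃+* F} {q : ℕ}

theorem sq_on (hf : Geo.IsUnitaryForm σ (hermForm 3 F q)) (h2 : (2 : F) ≠ 0) (x : GL (Fin 3) F) (hx : x ∈ GU 3 F q) (s : F) (hs : s * σ s = 1)
    (y : Matrix (Fin 3) (Fin 3) F) (hxy : (x : Matrix (Fin 3) (Fin 3) F) = s • y) (hy : y ^ 2 = 1) (hdet : y.det = 1) (hns : ∀ c : F, y ≠ c • (1 : Matrix (Fin 3) (Fin 3) F)) :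
    ∃ w : Fin 3 → Fin 3 → F, (∀ i j, hermForm 3 F q (w i) (w j) = if i = j then 1 else 0) ∧ ∀ i, (x : Matrix (Fin 3) (Fin 3) F) *ᵥ w i = (![s, -s, -s] : Fin 3 → F) i • w i := by
  classical
  have hs0 : s ≠ 0 := by rintro rfl; rw [zero_mul] at hs; exact zero_ne_one hs
  obtain ⟨v, hv, d, hd, hyd⟩ := diag_of_sq h2 y hy
  obtain ⟨w, e, hw, hxw, he⟩ := exists_on_eigen hf (x : Matrix (Fin 3) (Fin 3) F) (fun u v => hx u v) v hv (fun i => s * d i) (fun i => by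
    rw [hxy, Matrix.smul_mulVec, hyd, smul_smul]) (fun i => by
    rw [map_mul]
    have h1 : d i * σ (d i) = 1 := by
      rcases hd i with h | h <;> rw [h]
      · rw [map_one, mul_one]
      · rw [map_neg, map_one, neg_mul_neg, one_mul]
    linear_combination hs * (d i * σ (d i)) + h1) 3 le_rfl
  obtain ⟨ε, hε⟩ : ∃ ε : Fin 3 → F, ∀ i, e i = s * ε i ∧ (ε i = 1 ∨ ε i = -1) := by
    choose j hj using he
    exact ⟨fun i => d (j i), fun i => ⟨hj i, hd (j i)⟩⟩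
  have hyw : ∀ i, y *ᵥ w i = ε i • w i := by
    intro i
    have h1 := hxw i
    rw [hxy, Matrix.smul_mulVec, (hε i).1, mul_smul] at h1
    exact smul_right_injective _ hs0 h1
  have hwli := on_li hf hw
  have hprod : ε 0 * ε 1 * ε 2 = 1 := by
    obtain ⟨Q, hQ, _⟩ := diag_of_li y w hwli ε hyw
    have h4 := congrArg Matrix.det hQ
    rw [Matrix.det_mul, Matrix.det_mul, hdet, one_mul, Matrix.det_diagonal, Fin.prod_univ_three] at h4
    have h5 : (Q : Matrix (Fin 3) (Fin 3) F).det ≠ 0 := by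
      intro h
      have h1 := Q.isUnit
      rw [Matrix.isUnit_iff_isUnit_det, h] at h1
      exact not_isUnit_zero h1
    exact (mul_left_cancel₀ h5 (by rw [mul_one]; exact h4)).symm
  obtain ⟨τ, h4, h5, h6⟩ := order_sq h2 ε (fun i => (hε i).2) hprod (by
    intro hall
    apply hns (ε 0)
    obtain ⟨Q, hQ, _⟩ := diag_of_li y w hwli (fun _ => ε 0) (fun i => by rw [hyw, hall i])
    have h4 : Matrix.diagonal (fun _ : Fin 3 => ε 0) = ε 0 • (1 : Matrix (Fin 3) (Fin 3) F) := by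
      rw [Matrix.smul_one_eq_diagonal]
    rw [h4, Matrix.mul_smul, Matrix.mul_one] at hQ
    have h5 : y = (y * Q) * ((Q⁻¹ : GL (Fin 3) F) : Matrix (Fin 3) (Fin 3) F) := by
      rw [Matrix.mul_assoc, Units.mul_inv, Matrix.mul_one]
    rw [h5, hQ, Matrix.smul_mul, Units.mul_inv])
  refine ⟨fun i => w (τ i), fun i j => ?_, fun i => ?_⟩
  · rw [hw]
    simp only [EmbeddingLike.apply_eq_iff_eq]
  · rw [hxw, (hε _).1]
    congr 1
    fin_cases i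
    · show s * ε (τ 0) = s
      rw [h4, mul_one]
    · show s * ε (τ 1) = -s
      rw [h5, mul_neg, mul_one]
    · show s * ε (τ 2) = -s
      rw [h6, mul_neg, mul_one]

theorem cube_on (hf : Geo.IsUnitaryForm σ (hermForm 3 F q)) (h3 : (3 : F) ≠ 0) (c : F) (hc : c ^ 2 + c + 1 = 0) (hcn : ∀ a : F, a ^ 3 = 1 → a * σ a = 1)
    (x : GL (Fin 3) F) (hx : x ∈ GU 3 F q) (s : F) (hs : s * σ s = 1)
    (y : Matrix (Fin 3) (Fin 3) F) (hxy : (x : Matrix (Fin 3) (Fin 3) F) = s • y) (hy : y ^ 3 = 1) (hns : ∀ c : F, y ≠ c • (1 : Matrix (Fin 3) (Fin 3) F)) :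
    ∃ w : Fin 3 → Fin 3 → F, (∀ i j, hermForm 3 F q (w i) (w j) = if i = j then 1 else 0) ∧ ∃ a k1 k2 : F, a * σ a = 1 ∧ ((k1 = c ∧ k2 = c ^ 2) ∨ (k1 = 1 ∧ k2 = c) ∨ (k1 = 1 ∧ k2 = c ^ 2)) ∧
      ∀ i, (x : Matrix (Fin 3) (Fin 3) F) *ᵥ w i = (![a, a * k1, a * k2] : Fin 3 → F) i • w i := by
  classical
  have hs0 : s ≠ 0 := by rintro rfl; rw [zero_mul] at hs; exact zero_ne_one hs
  obtain ⟨v, hv, d, hd, hyd⟩ := diag_of_cube h3 c hc y hy
  obtain ⟨w, e, hw, hxw, he⟩ := exists_on_eigen hf (x : Matrix (Fin 3) (Fin 3) F) (fun u v => hx u v) v hv (fun i => s * d i) (fun i => by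
    rw [hxy, Matrix.smul_mulVec, hyd, smul_smul]) (fun i => by
    rw [map_mul]
    have h1 := hcn _ (hd i)
    linear_combination hs * (d i * σ (d i)) + h1) 3 le_rfl
  obtain ⟨ε, hε⟩ : ∃ ε : Fin 3 → F, ∀ i, e i = s * ε i ∧ ε i ^ 3 = 1 := by
    choose j hj using he
    exact ⟨fun i => d (j i), fun i => ⟨hj i, hd (j i)⟩⟩
  have hyw : ∀ i, y *ᵥ w i = ε i • w i := by
    intro i
    have h1 := hxw i
    rw [hxy, Matrix.smul_mulVec, (hε i).1, mul_smul] at h1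
    exact smul_right_injective _ hs0 h1
  have hwli := on_li hf hw
  obtain ⟨τ, b, hb, hcases⟩ := order_cube c hc ε (fun i => (hε i).2) (by
    intro hall
    apply hns (ε 0)
    obtain ⟨Q, hQ, _⟩ := diag_of_li y w hwli (fun _ => ε 0) (fun i => by rw [hyw, hall i])
    have h4 : Matrix.diagonal (fun _ : Fin 3 => ε 0) = ε 0 • (1 : Matrix (Fin 3) (Fin 3) F) := by
      rw [Matrix.smul_one_eq_diagonal]
    rw [h4, Matrix.mul_smul, Matrix.mul_one] at hQ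
    have h5 : y = (y * Q) * ((Q⁻¹ : GL (Fin 3) F) : Matrix (Fin 3) (Fin 3) F) := by
      rw [Matrix.mul_assoc, Units.mul_inv, Matrix.mul_one]
    rw [h5, hQ, Matrix.smul_mul, Units.mul_inv])
  have hb3 : ∀ k1 k2 : F, ε (τ 0) = b → (s * b) * σ (s * b) = 1 := by
    intro _ _ h
    have h1 := hcn _ (hε (τ 0)).2
    rw [h] at h1
    rw [map_mul]
    linear_combination hs * (b * σ b) + h1
  have key : ∀ k1 k2 : F, ((k1 = c ∧ k2 = c ^ 2) ∨ (k1 = 1 ∧ k2 = c) ∨ (k1 = 1 ∧ k2 = c ^ 2)) → ε (τ 0) = b → ε (τ 1) = b * k1 → ε (τ 2) = b * k2 →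
      ∃ w : Fin 3 → Fin 3 → F, (∀ i j, hermForm 3 F q (w i) (w j) = if i = j then 1 else 0) ∧ ∃ a k1 k2 : F, a * σ a = 1 ∧ ((k1 = c ∧ k2 = c ^ 2) ∨ (k1 = 1 ∧ k2 = c) ∨ (k1 = 1 ∧ k2 = c ^ 2)) ∧
      ∀ i, (x : Matrix (Fin 3) (Fin 3) F) *ᵥ w i = (![a, a * k1, a * k2] : Fin 3 → F) i • w i := by
    intro k1 k2 hk e0 e1 e2
    refine ⟨fun i => w (τ i), fun i j => ?_, s * b, k1, k2, hb3 k1 k2 e0, hk, fun i => ?_⟩
    · rw [hw]
      simp only [EmbeddingLike.apply_eq_iff_eq]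
    · rw [hxw, (hε _).1]
      congr 1
      fin_cases i
      · show s * ε (τ 0) = s * b
        rw [e0]
      · show s * ε (τ 1) = s * b * k1
        rw [e1, mul_assoc]
      · show s * ε (τ 2) = s * b * k2
        rw [e2, mul_assoc]
  rcases hcases with ⟨e0, e1, e2⟩ | ⟨e0, e1, e2⟩ | ⟨e0, e1, e2⟩
  · exact key c (c ^ 2) (Or.inl ⟨rfl, rfl⟩) e0 e1 e2
  · exact key 1 c (Or.inr (Or.inl ⟨rfl, rfl⟩)) e0 (by rw [mul_one]; exact e1) e2
  · exact key 1 (c ^ 2) (Or.inr (Or.inr ⟨rfl, rfl⟩)) e0 (by rw [mul_one]; exact e1) e2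

end uni

end CfsgLib.Q29
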