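import Mathlib
import Cfsg.Agent.EqBase
import Cfsg.Agent.LibFrob19
import Cfsg.Agent.LibDihedral

/-! Frobenius groups with complement `Q₈` and kernel of order `r²`, `r` odd. -/

set_option autoImplicit false

namespace Cfsg.Agent.LibQ8Frob

/-- there is an abelian group of order `n` with two "imaginary units" -/
def HU (n : ℕ) : Prop :=
  ∃ (K : Type) (_ : CommGroup K) (_ : Finite K) (i j : K →* K), Nat.card K = n ∧
    (∀ x, i (i x) = x⁻¹) ∧ (∀ x, j (j x) = x⁻¹) ∧ ∀ x, i (j x) = (j (i x))⁻¹

theorem HU_one : HU 1 :=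
  ⟨Unit, inferInstance, inferInstance, MonoidHom.id _, MonoidHom.id _, by simp, fun _ => rfl,
    fun _ => rfl, fun _ => rfl⟩

theorem HU_mul {m n : ℕ} (hm : HU m) (hn : HU n) : HU (m * n) := by
  obtain ⟨K, _, _, i, j, h1, h2, h3, h4⟩ := hm
  obtain ⟨K', _, _, i', j', h1', h2', h3', h4'⟩ := hn
  refine ⟨K × K', inferInstance, inferInstance, i.prodMap i', j.prodMap j', ?_, ?_, ?_, ?_⟩
  · rw [Nat.card_prod, h1, h1']
  · rintro ⟨x, y⟩
    exact Prod.ext (h2 x) (h2' y)
  · rintro ⟨x, y⟩
    exact Prod.ext (h3 x) (h3' y)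
  · rintro ⟨x, y⟩
    exact Prod.ext (h4 x) (h4' y)

theorem HU_prime (p : ℕ) [Fact p.Prime] : HU (p * p) := by
  obtain ⟨x, y, hxy⟩ := ZMod.sq_add_sq p (-1)
  let i : ZMod p × ZMod p →+ ZMod p × ZMod p :=
    { toFun := fun v => (-v.2, v.1)
      map_zero' := by simp
      map_add' := by intro a b; ext <;> simp; ring }
  let j : ZMod p × ZMod p →+ ZMod p × ZMod p :=
    { toFun := fun v => (x * v.1 + y * v.2, y * v.1 - x * v.2)
      map_zero' := by simp
      map_add' := by intro a b; ext <;> simp <;> ring }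
  have hi : ∀ v, i v = (-v.2, v.1) := fun _ => rfl
  have hj : ∀ v, j v = (x * v.1 + y * v.2, y * v.1 - x * v.2) := fun _ => rfl
  refine ⟨Multiplicative (ZMod p × ZMod p), inferInstance, inferInstance,
    AddMonoidHom.toMultiplicative i, AddMonoidHom.toMultiplicative j, ?_, ?_, ?_, ?_⟩
  · have : Nat.card (Multiplicative (ZMod p × ZMod p)) = Nat.card (ZMod p × ZMod p) := rfl
    rw [this, Nat.card_prod, Nat.card_zmod]
  · intro v
    change Multiplicative.ofAdd (i (i (Multiplicative.toAdd v))) = _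
    rw [hi, hi]
    rfl
  · intro v
    change Multiplicative.ofAdd (j (j (Multiplicative.toAdd v))) =
      Multiplicative.ofAdd (-(Multiplicative.toAdd v))
    congr 1
    generalize Multiplicative.toAdd v = w
    rw [hj, hj]
    obtain ⟨a, b⟩ := w
    ext
    · simp only [Prod.fst_neg]
      linear_combination a * hxy
    · simp only [Prod.snd_neg]
      linear_combination b * hxy
  · intro v
    change Multiplicative.ofAdd (i (j (Multiplicative.toAdd v))) =
      Multiplicative.ofAdd (-(j (i (Multiplicative.toAdd v))))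
    congr 1
    generalize Multiplicative.toAdd v = w
    rw [hi, hj, hj, hi]
    obtain ⟨a, b⟩ := w
    ext
    · simp only [Prod.fst_neg]
      ring
    · simp only [Prod.snd_neg]
      ring

theorem HU_sq (r : ℕ) (hr : r ≠ 0) : HU (r * r) := by
  induction r using Nat.recOnMul with
  | zero => exact absurd rfl hr
  | one => exact HU_one
  | prime p hp =>
    haveI : Fact p.Prime := ⟨hp⟩
    exact HU_prime p
  | mul a b ha hb =>
    have h1 : a ≠ 0 := fun h => hr (by rw [h, zero_mul])
    have h2 : b ≠ 0 := fun h => hr (by rw [h, mul_zero])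
    have := HU_mul (ha h1) (hb h2)
    rwa [show a * b * (a * b) = a * a * (b * b) by ring]

theorem q8_two {h : QuaternionGroup 2} (h1 : h ≠ 1) :
    h = QuaternionGroup.a 2 ∨ h * h = QuaternionGroup.a 2 := by
  revert h
  decide

theorem exists_frob (r : ℕ) (hodd : Odd r) (h1 : 1 < r) :
    ∃ (L : Type) (_ : Group L) (_ : Finite L) (H : Subgroup L), Cfsg.IsFrobeniusComplement H ∧
        Nonempty (H ≃* QuaternionGroup 2) ∧ Nat.card (Cfsg.frobeniusKernel H) = r * r := by
  obtain ⟨K, _, _, i, j, hcard, hi, hj, hij⟩ := HU_sq r (by omega)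
  let I : MulAut K := MonoidHom.toMulEquiv i ((invMonoidHom : K →* K).comp i)
    (by ext x; simp [hi]) (by ext x; simp [hi])
  let J : MulAut K := MonoidHom.toMulEquiv j ((invMonoidHom : K →* K).comp j)
    (by ext x; simp [hj]) (by ext x; simp [hj])
  have hI : ∀ x, I x = i x := fun _ => rfl
  have hJ : ∀ x, J x = j x := fun _ => rfl
  have ha : I ^ (2 * 2) = 1 := by
    ext x
    simp [pow_succ, hI, hi]
  have hb : J * J = I ^ 2 := by
    ext x
    simp [pow_succ, hI, hi, hJ, hj]
  have hab : J * I * J⁻¹ = I⁻¹ := by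
    rw [mul_inv_eq_iff_eq_mul, eq_inv_mul_iff_mul_eq]
    ext x
    simp only [MulAut.mul_apply, hI, hJ]
    rw [hij, hi, map_inv, inv_inv]
  let φ : QuaternionGroup 2 →* MulAut K := CfsgLib.Dihedral.quaternionHom I J ha hb hab
  have hφ2 : ∀ x, φ (QuaternionGroup.a 2) x = x⁻¹ := by
    intro x
    have h2 : φ (QuaternionGroup.a 2) = I ^ 2 :=
      CfsgLib.Dihedral.zp_natCast (n := 2 * 2) ha 2
    rw [h2]
    simp [pow_succ, hI, hi]
  have hfpf : ∀ h : QuaternionGroup 2, h ≠ 1 → ∀ x : K, φ h x = x → x = 1 := by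
    intro h hh x hx
    have h2 : x⁻¹ = x := by
      rw [← hφ2 x]
      rcases q8_two hh with h3 | h3
      · rw [← h3, hx]
      · rw [← h3, map_mul, MulAut.mul_apply, hx, hx]
    have h3 : x ^ 2 = 1 := by
      rw [pow_two]
      nth_rewrite 1 [← h2]
      exact inv_mul_cancel x
    have h4 : x ^ Nat.card K = 1 := pow_card_eq_one'
    have h5 : Nat.Coprime 2 (Nat.card K) := by
      rw [hcard]
      exact (Nat.coprime_two_left).2 (hodd.mul hodd)
    have h6 : x ^ Nat.gcd 2 (Nat.card K) = 1 := by
      rw [pow_gcd_eq_one]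
      exact ⟨h3, h4⟩
    rw [h5.gcd_eq_one, pow_one] at h6
    exact h6
  haveI : Nontrivial K := by
    rw [← Finite.one_lt_card_iff_nontrivial, hcard]
    nlinarith
  let P : Subgroup (K ⋊[φ] QuaternionGroup 2) := (SemidirectProduct.inl).range
  let H : Subgroup (K ⋊[φ] QuaternionGroup 2) := (SemidirectProduct.inr).range
  haveI : Finite (K ⋊[φ] QuaternionGroup 2) :=
    Finite.of_equiv _ SemidirectProduct.equivProd.symm
  have hPk : P = (SemidirectProduct.rightHom : K ⋊[φ] QuaternionGroup 2 →* _).ker :=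
    SemidirectProduct.range_inl_eq_ker_rightHom
  haveI hPn : P.Normal := by
    rw [hPk]; infer_instance
  have hc : Subgroup.IsComplement' P H := by
    apply Subgroup.isComplement'_of_disjoint_and_mul_eq_univ
    · rw [Subgroup.disjoint_def]
      rintro _ ⟨k, rfl⟩ ⟨h, hh⟩
      have h2 := congrArg SemidirectProduct.right hh
      simp at h2
      have h3 := congrArg SemidirectProduct.left hh
      simp at h3
      rw [← h3, map_one]
    · ext x
      simp only [Set.mem_univ, iff_true]
      exact ⟨SemidirectProduct.inl x.left, ⟨_, rfl⟩, SemidirectProduct.inr x.right, ⟨_, rfl⟩,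
        SemidirectProduct.inl_left_mul_inr_right x⟩
  have hPne : P ≠ ⊥ := by
    obtain ⟨k, hk⟩ := exists_ne (1 : K)
    intro hP
    have : SemidirectProduct.inl k ∈ P := ⟨k, rfl⟩
    rw [hP, Subgroup.mem_bot] at this
    exact hk (SemidirectProduct.inl_injective (this.trans (map_one _).symm))
  have hHne : H ≠ ⊥ := by
    intro hH
    have : SemidirectProduct.inr (QuaternionGroup.a 2) ∈ H := ⟨_, rfl⟩
    rw [hH, Subgroup.mem_bot] at this
    have h2 : (QuaternionGroup.a 2 : QuaternionGroup 2) = 1 :=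
      SemidirectProduct.inr_injective (this.trans (map_one _).symm)
    revert h2
    decide
  obtain ⟨h2, h3⟩ := CfsgLib.Frob19.frob_of_centralizers P H hc hPne hHne (by
    rintro _ ⟨k, rfl⟩ hk x hx
    rw [hPk, MonoidHom.mem_ker]
    change x.right = 1
    by_contra hne
    have h4 := congrArg SemidirectProduct.left hx
    simp only [SemidirectProduct.mul_left, SemidirectProduct.left_inl,
      SemidirectProduct.right_inl, map_one, MulAut.one_apply] at h4
    rw [mul_comm] at h4
    have h5 := mul_right_cancel h4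
    apply hk
    rw [hfpf x.right hne k h5, map_one])
  refine ⟨K ⋊[φ] QuaternionGroup 2, inferInstance, inferInstance, H, h2, ?_, ?_⟩
  · exact ⟨(MonoidHom.ofInjective SemidirectProduct.inr_injective).symm⟩
  · rw [h3, ← hcard]
    exact (Nat.card_congr (MonoidHom.ofInjective SemidirectProduct.inl_injective).toEquiv).symm

end Cfsg.Agent.LibQ8Frob
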