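import Cfsg.Agent.EqBase
import Cfsg.Agent.LibQ8f
import Cfsg.Agent.LibZStar3

set_option autoImplicit false

/-! The principal block of a group with a central involution and Sylow subgroup `Q₈` has seven
characters (seat helper8). -/

namespace CfsgLib.Q8

open Subgroup Cfsg CfsgLib.CharBasic CfsgLib.Klein CfsgLib.PPChar
open scoped ComplexConjugate

universe u

section
variable {G : Type u} [Group G]

theorem IsQ8.centralizes {S : Subgroup G} {t : G} (h : IsQ8 S t) {x w : G} (hx : x ∈ S)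
    (h1 : x ≠ 1) (h2 : x ≠ t) (hw : w ∈ S) (hc : x * w = w * x) : w ∈ zpowers x := by
  by_cases hw1 : w = 1
  · rw [hw1]; exact one_mem _
  by_cases hwt : w = t
  · rw [hwt, ← h.sq x hx h1 h2]
    exact mul_mem (mem_zpowers x) (mem_zpowers x)
  have h3 : (w * x) * (w * x) = 1 := by
    calc (w * x) * (w * x) = w * (x * w) * x := by group
    _ = w * (w * x) * x := by rw [hc]
    _ = (w * w) * (x * x) := by group
    _ = 1 := by rw [h.sq w hw hw1 hwt, h.sq x hx h1 h2, h.tt]
  by_cases h4 : w * x = 1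
  · rw [eq_inv_of_mul_eq_one_left h4]; exact inv_mem (mem_zpowers x)
  · have h5 := h.unique (mul_mem hw hx) h4 h3
    have h6 : w = t * x⁻¹ := by rw [← h5]; group
    rw [h6, ← h.sq x hx h1 h2]
    exact mul_mem (mul_mem (mem_zpowers x) (mem_zpowers x)) (inv_mem (mem_zpowers x))

end

variable {C : Type u} [Group C] [Fintype C] {S : Sylow 2 C} {T : C} {M : Ideal AlgInt}
    {e e' : ℕ} {ζ : Fin 3 → IrrCharacter C} {δ : Fin 3 → ℤ}

theorem CCtx.cyclic_cent (h : CCtx C S T) {y : C} (hy : ∃ k : ℕ, orderOf y = 2 ^ k) (h1 : y ≠ 1)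
    (h2 : y ≠ T) (P : Sylow 2 (centralizer ({y} : Set C))) : IsCyclic (P : Subgroup (centralizer ({y} : Set C))) := by
  haveI : Fact (Nat.Prime 2) := ⟨Nat.prime_two⟩
  obtain ⟨H, hH⟩ : ∃ H, H = centralizer ({y} : Set C) := ⟨_, rfl⟩
  subst hH
  have hyH : y ∈ centralizer ({y} : Set C) := mem_centralizer_singleton_iff.2 rfl
  have hyP : (⟨y, hyH⟩ : centralizer ({y} : Set C)) ∈ (P : Subgroup (centralizer ({y} : Set C))) := by
    have hn : (zpowers (⟨y, hyH⟩ : centralizer ({y} : Set C))).Normal := ⟨by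
      rintro x ⟨k, rfl⟩ g
      have hg : Commute g (⟨y, hyH⟩ : centralizer ({y} : Set C)) :=
        Subtype.ext (mem_centralizer_singleton_iff.1 g.2)
      have := (hg.zpow_right k).eq
      change g * (⟨y, hyH⟩ : centralizer ({y} : Set C)) ^ k * g⁻¹ ∈ _
      rw [this, mul_inv_cancel_right]
      exact ⟨k, rfl⟩⟩
    have hp : IsPGroup 2 (zpowers (⟨y, hyH⟩ : centralizer ({y} : Set C))) := by
      obtain ⟨k, hk⟩ := hy
      exact IsPGroup.of_card (n := k) (by rw [Nat.card_zpowers, orderOf_mk, hk])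
    exact CfsgLib.Cores.normal_le_sylow hn hp P (mem_zpowers _)
  have hA : IsPGroup 2 ((P : Subgroup (centralizer ({y} : Set C))).map (centralizer ({y} : Set C)).subtype) :=
    P.isPGroup'.map _
  obtain ⟨Q, hQ⟩ := hA.exists_le_sylow
  obtain ⟨g, rfl⟩ := MulAction.exists_smul_eq C S Q
  have hmem : ∀ u : centralizer ({y} : Set C), u ∈ (P : Subgroup (centralizer ({y} : Set C))) → g⁻¹ * (u : C) * g ∈ (S : Subgroup C) := by
    intro u hu
    have h3 : (u : C) ∈ (g • S : Sylow 2 C) := hQ ⟨u, hu, rfl⟩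
    rwa [CfsgLib.Isolated.mem_smul_sylow] at h3
  have hle : (P : Subgroup (centralizer ({y} : Set C))) ≤ zpowers (⟨y, hyH⟩ : centralizer ({y} : Set C)) := by
    intro u hu
    have h3 := hmem u hu
    have h4 := hmem _ hyP
    have h5 : (g⁻¹ * y * g) * (g⁻¹ * (u : C) * g) = (g⁻¹ * (u : C) * g) * (g⁻¹ * y * g) := by
      have := mem_centralizer_singleton_iff.1 u.2
      calc (g⁻¹ * y * g) * (g⁻¹ * (u : C) * g) = g⁻¹ * (y * u) * g := by group
      _ = g⁻¹ * (u * y) * g := by rw [this]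
      _ = _ := by group
    have h6 := h.q8.centralizes h4 (by
      intro hh
      apply h1
      have : y = g * (g⁻¹ * y * g) * g⁻¹ := by group
      rw [this, hh]; group) (by
      intro hh
      apply h2
      have : y = g * (g⁻¹ * y * g) * g⁻¹ := by group
      rw [this, hh, h.conj_T]) h3 h5
    obtain ⟨k, hk⟩ := mem_zpowers_iff.1 h6
    rw [mem_zpowers_iff]
    refine ⟨k, Subtype.ext ?_⟩
    change y ^ k = u
    have h7 : (g⁻¹ * y * g) ^ k = g⁻¹ * y ^ k * g := by
      have := conj_zpow (a := g⁻¹) (b := y) (i := k)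
      rwa [inv_inv] at this
    rw [h7] at hk
    exact mul_left_cancel (mul_right_cancel hk)
  exact isCyclic_of_injective (inclusion hle) (inclusion_injective hle)

/-- faithful characters of the principal block vanish on elements of order divisible by four -/
theorem Blk.vanish (h : Blk C S T M e e' ζ δ) {χ : IrrCharacter C} (hχ : χ ∈ principalBlock M C)
    (hT : ∀ c, (χ : C → ℂ) (T * c) = - (χ : C → ℂ) c) {c : C} (h1 : c ^ e ≠ 1) (h2 : c ^ e ≠ T) :
    (χ : C → ℂ) c = 0 := by
  classical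
  haveI : Fact (Nat.Prime 2) := ⟨Nat.prime_two⟩
  obtain ⟨y, hy⟩ : ∃ y, y = c ^ e := ⟨_, rfl⟩
  rw [← hy] at h1 h2
  have hyp : ∃ k : ℕ, orderOf y = 2 ^ k := by rw [hy]; exact h.he.ppart c
  have hvy : c ^ e' ∈ centralizer ({y} : Set C) := by
    rw [mem_centralizer_singleton_iff, hy]
    exact ((Commute.refl c).pow_pow _ _).eq
  obtain ⟨P⟩ : Nonempty (Sylow 2 (centralizer ({y} : Set C))) := inferInstance
  have hcyc := h.ctx.cyclic_cent hyp h1 h2 P
  have hyH : y ∈ centralizer ({y} : Set C) := mem_centralizer_singleton_iff.2 rfl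
  have hmin : (Nat.card (centralizer ({y} : Set C))).minFac = 2 := by
    rw [Nat.minFac_eq_two_iff]
    obtain ⟨k, hk⟩ := hyp
    have h3 : orderOf (⟨y, hyH⟩ : centralizer ({y} : Set C)) = 2 ^ k := by rw [orderOf_mk, hk]
    have h4 : k ≠ 0 := by
      rintro rfl
      rw [pow_zero, orderOf_eq_one_iff] at hk
      exact h1 hk
    exact (dvd_pow_self 2 h4).trans (h3 ▸ orderOf_dvd_natCard _)
  have hc := IsCyclic.isComplement' hmin hcyc
  have hN := CfsgLib.TransPC.IsNPC.of_isComplement' P inferInstance hc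
  have hodd : Odd (orderOf (c ^ e')) := by
    rw [← Nat.not_even_iff_odd, even_iff_two_dvd]
    exact h.he'.ppart c
  have hv : (⟨c ^ e', hvy⟩ : centralizer ({y} : Set C)) ∈ pPrimeCore 2 (centralizer ({y} : Set C)) := by
    apply (le_sSup ⟨hN.1, hN.coprime⟩ : _ ≤ pPrimeCore 2 (centralizer ({y} : Set C)))
    rw [hN.mem_iff, orderOf_mk]
    exact Nat.coprime_two_right.2 hodd
  have h5 := CfsgLib.BlockSec2.principal_const h.hM hyp hv hχ
  have h6 : y * c ^ e' = c := by rw [hy]; exact h.hee c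
  have h7 : (χ : C → ℂ) c = (χ : C → ℂ) y := by
    rw [← h6]; exact h5
  rw [h7]
  -- `y` is conjugate to `y⁻¹ = T y`
  obtain ⟨g, hg⟩ := exists_conj_mem S hyp
  obtain ⟨s, hs, hsy⟩ := h.ctx.q8.inv _ hg (by
    intro he
    rw [mul_inv_eq_one] at he
    exact h1 (by simpa using he)) (by
    intro he
    rw [← h.ctx.conj_T g] at he
    exact h2 (mul_left_cancel (mul_right_cancel he)))
  have h8 : (χ : C → ℂ) (g * y * g⁻¹)⁻¹ = (χ : C → ℂ) y := by
    rw [← hsy, irr_classFun χ.2, irr_classFun χ.2]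
  have h9 : (g * y * g⁻¹)⁻¹ = g * (T * y) * g⁻¹ := by
    have hyy : y⁻¹ = T * y := by
      have h10 : y * y = T := by
        rcases h.ctx.cases hyp with h11 | h11 | h11
        · exact absurd h11 h1
        · exact absurd h11 h2
        · exact h11.2.2
      rw [inv_eq_iff_mul_eq_one, ← h10]
      calc y * (y * y * y) = (y * y) * (y * y) := by group
      _ = 1 := by rw [h10, h.ctx.q8.tt]
    rw [← hyy]; group
  rw [h9, irr_classFun χ.2, hT] at h8
  have h10 : (2 : ℂ) * (χ : C → ℂ) y = 0 := by linear_combination -h8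
  rcases mul_eq_zero.1 h10 with h11 | h11
  · norm_num at h11
  · exact h11

open Classical in
/-- the faithful characters of the principal block -/
noncomputable def FF (M : Ideal AlgInt) (T : C) : Finset (IrrCharacter C) :=
  Finset.univ.filter (fun χ => χ ∈ principalBlock M C ∧ (χ : C → ℂ) T ≠ (χ : C → ℂ) 1)

open Classical in
/-- the characters of the principal block with `T` in their kernel -/
noncomputable def KK (ζ : Fin 3 → IrrCharacter C) : Finset (IrrCharacter C) :=
  insert (one C) (Finset.univ.image ζ)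

theorem Blk.set_eq (h : Blk C S T M e e' ζ δ) :
    principalBlock M C = ((KK ζ ∪ FF M T : Finset (IrrCharacter C)) : Set (IrrCharacter C)) := by
  classical
  have hp := CfsgLib.BlockR.isPrime_of_modular h.hM
  ext χ
  rw [Finset.coe_union, Set.mem_union, Finset.mem_coe, Finset.mem_coe, KK, FF, Finset.mem_insert,
    Finset.mem_image, Finset.mem_filter]
  constructor
  · intro hχ
    by_cases hT : (χ : C → ℂ) T = (χ : C → ℂ) 1
    · left
      rcases h.all χ hχ hT with h1 | ⟨i, hi⟩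
      · exact Or.inl h1
      · exact Or.inr ⟨i, Finset.mem_univ _, hi.symm⟩
    · exact Or.inr ⟨Finset.mem_univ _, hχ, hT⟩
  · rintro ((hχ | ⟨i, -, hi⟩) | ⟨-, h1, -⟩)
    · have h1 : SameBlock M (fun _ : C => (1 : ℂ)) (χ : C → ℂ) := by
        have h2 : (χ : C → ℂ) = fun _ => 1 := by rw [hχ]; rfl
        rw [h2]
        exact CfsgLib.BlockIdem.sameBlock_refl hp _
      exact h1
    · rw [← hi]; exact h.mem i
    · exact h1

theorem Blk.disj (h : Blk C S T M e e' ζ δ) : Disjoint (KK ζ) (FF M T) := by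
  classical
  rw [Finset.disjoint_left]
  intro χ h1 h2
  rw [FF, Finset.mem_filter] at h2
  rw [KK, Finset.mem_insert, Finset.mem_image] at h1
  apply h2.2.2
  rcases h1 with rfl | ⟨i, -, rfl⟩
  · rfl
  · have := h.tinv i 1
    rwa [mul_one] at this

theorem Blk.sum_KK (h : Blk C S T M e e' ζ δ) (f : IrrCharacter C → ℂ) :
    ∑ χ ∈ KK ζ, f χ = f (one C) + ∑ i, f (ζ i) := by
  classical
  rw [KK, Finset.sum_insert, Finset.sum_image (fun i _ j _ hij => h.inj hij)]
  rw [Finset.mem_image]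
  rintro ⟨i, -, hi⟩
  exact h.ne i hi

theorem Blk.sum_block (h : Blk C S T M e e' ζ δ) (f : IrrCharacter C → ℂ) :
    ∑ᶠ χ ∈ principalBlock M C, f χ = (f (one C) + ∑ i, f (ζ i)) + ∑ χ ∈ FF M T, f χ := by
  classical
  rw [h.set_eq, finsum_mem_coe_finset, Finset.sum_union h.disj, h.sum_KK]

theorem Blk.FF_T (h : Blk C S T M e e' ζ δ) {χ : IrrCharacter C} (hχ : χ ∈ FF M T) (c : C) :
    (χ : C → ℂ) (T * c) = - (χ : C → ℂ) c := by
  classical
  rw [FF, Finset.mem_filter] at hχ
  obtain ⟨ω, hω, h1⟩ := exists_sign χ.2 h.ctx.cen h.ctx.q8.tt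
  rcases hω with rfl | rfl
  · exfalso
    apply hχ.2.2
    have := h1 1
    rwa [mul_one, one_mul] at this
  · rw [h1, neg_one_mul]

/-- the principal block has seven characters -/
theorem Blk.card_seven (h : Blk C S T M e e' ζ δ) : Nat.card (principalBlock M C) = 7 := by
  classical
  haveI : Fact (Nat.Prime 2) := ⟨Nat.prime_two⟩
  have hp := CfsgLib.BlockR.isPrime_of_modular h.hM
  have hB : IsPBlock M (principalBlock M C) := ⟨⟨_, CfsgLib.CharBasic.isIrrCharacter_one⟩, rfl⟩
  have hG0 : (Nat.card C : ℂ) ≠ 0 := by exact_mod_cast Nat.card_pos.ne'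
  -- the two sums of squares
  obtain ⟨g, hg⟩ : ∃ g : C → ℂ, g = fun c => ∑ χ ∈ FF M T, (χ : C → ℂ) c * conj ((χ : C → ℂ) c) := ⟨_, rfl⟩
  obtain ⟨b, hb⟩ : ∃ b : C → ℂ, b = fun c => ∑ χ ∈ KK ζ, (χ : C → ℂ) c * conj ((χ : C → ℂ) c) := ⟨_, rfl⟩
  have hgT : ∀ c, g (T * c) = g c := by
    intro c
    rw [hg]
    apply Finset.sum_congr rfl
    intro χ hχ
    rw [h.FF_T hχ, map_neg, neg_mul_neg]
  have hKT : ∀ χ ∈ KK ζ, ∀ c, (χ : C → ℂ) (T * c) = (χ : C → ℂ) c := by
    intro χ hχ c
    rw [KK, Finset.mem_insert, Finset.mem_image] at hχ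
    rcases hχ with rfl | ⟨i, -, rfl⟩
    · rfl
    · exact h.tinv i c
  have hbT : ∀ c, b (T * c) = b c := by
    intro c
    rw [hb]
    apply Finset.sum_congr rfl
    intro χ hχ
    rw [hKT χ hχ]
  have hg0 : ∀ c, c ^ e ≠ 1 → c ^ e ≠ T → g c = 0 := by
    intro c h1 h2
    rw [hg]
    apply Finset.sum_eq_zero
    intro χ hχ
    have hχ' := hχ
    rw [FF, Finset.mem_filter] at hχ'
    rw [h.vanish hχ'.2.1 (h.FF_T hχ) h1 h2, zero_mul]
  have hgb : ∀ c, c ^ e = 1 → g c = b c := by
    intro c hc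
    have h1 : ¬ 2 ∣ orderOf c := by
      have := h.of_one hc
      rw [this]; exact h.he'.ppart c
    have h2 : 2 ∣ orderOf (T * c) := by
      by_contra h3
      have h4 := (e_one_iff_odd h.he h.he' h.hee (T * c)).2 h3
      rw [h.e_one_iff, hc] at h4
      exact h.T_ne h4.symm
    have h3 := CfsgLib.BlockOrth.weak_block_orth h.hM hB h1 h2
    rw [h.set_eq, finsum_mem_coe_finset, Finset.sum_union h.disj] at h3
    have h4 : ∑ χ ∈ KK ζ, (χ : C → ℂ) c * conj ((χ : C → ℂ) (T * c)) = b c := by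
      rw [hb]
      apply Finset.sum_congr rfl
      intro χ hχ
      rw [hKT χ hχ]
    have h5 : ∑ χ ∈ FF M T, (χ : C → ℂ) c * conj ((χ : C → ℂ) (T * c)) = - g c := by
      rw [hg, ← Finset.sum_neg_distrib]
      apply Finset.sum_congr rfl
      intro χ hχ
      rw [h.FF_T hχ, map_neg, mul_neg]
    rw [h4, h5] at h3
    linear_combination -h3
  -- total sums
  have hsum : ∀ U : Finset (IrrCharacter C), ∑ c, ∑ χ ∈ U, (χ : C → ℂ) c * conj ((χ : C → ℂ) c) =
      (Nat.card C : ℂ) * (U.card : ℂ) := by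
    intro U
    rw [Finset.sum_comm]
    have h1 : ∀ χ ∈ U, ∑ c, (χ : C → ℂ) c * conj ((χ : C → ℂ) c) = (Nat.card C : ℂ) := by
      intro χ _
      have h2 := irr_inner_self χ.2
      rw [classInner] at h2
      field_simp at h2
      rw [h2]
    rw [Finset.sum_congr rfl h1, Finset.sum_const, nsmul_eq_mul, mul_comm]
  have hsg : ∑ c, g c = (Nat.card C : ℂ) * ((FF M T).card : ℂ) := by rw [hg]; exact hsum _
  have hsb : ∑ c, b c = (Nat.card C : ℂ) * ((KK ζ).card : ℂ) := by rw [hb]; exact hsum _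
  have hKc : (KK ζ).card = 4 := by
    rw [KK, Finset.card_insert_of_notMem, Finset.card_image_of_injective _ h.inj, Finset.card_univ,
      Fintype.card_fin]
    rw [Finset.mem_image]
    rintro ⟨i, -, hi⟩
    exact h.ne i hi
  -- pointwise decomposition of `b`
  have hdec : ∀ c, b c = (if c ^ e = 1 ∨ c ^ e = T then b c else 0) + XC T e c := by
    intro c
    by_cases hc : c ^ e = 1 ∨ c ^ e = T
    · rw [if_pos hc, XC_pos hc, add_zero]
    · rw [if_neg hc, zero_add]
      have hc' := not_or.1 hc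
      rw [XC_neg hc'.1 hc'.2, hb]
      simp only
      rw [h.sum_KK]
      have h1 : ∀ i, (ζ i : C → ℂ) c * conj ((ζ i : C → ℂ) c) = 1 := by
        intro i
        rw [h.val i c hc'.1 hc'.2, map_intCast, h.sq_one]
      rw [Finset.sum_congr rfl (fun i _ => h1 i)]
      have h2 : (one C : C → ℂ) c = 1 := rfl
      rw [h2, map_one, Finset.sum_const, Finset.card_univ, Fintype.card_fin]
      norm_num
  have hX : ∑ c, XC T e c = (Nat.card C : ℂ) := by
    have h1 := h.inner_XC_one
    rw [classInner] at h1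
    have h2 : ∀ c, XC T e c * conj ((one C : C → ℂ) c) = XC T e c := by
      intro c
      have h2 : (one C : C → ℂ) c = 1 := rfl
      rw [h2, map_one, mul_one]
    rw [Finset.sum_congr rfl (fun c _ => h2 c)] at h1
    field_simp at h1
    exact h1
  have hb' : ∑ c, (if c ^ e = 1 ∨ c ^ e = T then b c else 0) = ∑ c, g c := by
    have f1 := (h.fold (f := fun c => if c ^ e = 1 ∨ c ^ e = T then b c else 0) (by
      intro c
      simp only [hbT, h.e_one_iff, h.e_T_iff]
      by_cases h1 : c ^ e = 1 ∨ c ^ e = T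
      · rw [if_pos h1, if_pos h1.symm]
      · rw [if_neg h1, if_neg (fun h2 => h1 h2.symm)]) (by
      intro c h1 h2
      rw [if_neg (not_or.2 ⟨h1, h2⟩)])).2
    have f2 := (h.fold hgT hg0).2
    rw [f1, f2]
    congr 1
    apply Finset.sum_congr rfl
    intro c _
    by_cases hc : c ^ e = 1
    · simp only [hc, true_or, if_true]
      exact (hgb c hc).symm
    · rw [if_neg hc, if_neg hc]
  have hfin : (Nat.card C : ℂ) * 4 = (Nat.card C : ℂ) * ((FF M T).card : ℂ) + (Nat.card C : ℂ) := by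
    have h1 : ∑ c, b c = ∑ c, (if c ^ e = 1 ∨ c ^ e = T then b c else 0) + ∑ c, XC T e c := by
      rw [← Finset.sum_add_distrib]
      exact Finset.sum_congr rfl (fun c _ => hdec c)
    rw [hb', hX, hsg, hsb, hKc] at h1
    exact_mod_cast h1
  have hF : (FF M T).card = 3 := by
    have h1 : (Nat.card C : ℂ) * (4 - ((FF M T).card : ℂ) - 1) = 0 := by linear_combination hfin
    rcases mul_eq_zero.1 h1 with h2 | h2
    · exact absurd h2 hG0
    · have h3 : ((FF M T).card : ℂ) = 3 := by linear_combination -h2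
      exact_mod_cast h3
  rw [h.set_eq, Nat.card_coe_set_eq, Set.ncard_coe_finset, Finset.card_union_of_disjoint h.disj, hKc, hF]

end CfsgLib.Q8
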