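import Mathlib
import Cfsg.Agent.EqBase
import Cfsg.Agent.LibQb11
import Cfsg.Agent.LibQb6
import Cfsg.Agent.LibCt6
import Cfsg.Agent.LibBlockQuo
import Cfsg.Agent.LibBlkS2

/-!
# The number of characters of a block: major subsections (helper17)
-/

set_option autoImplicit false
set_option linter.unusedSectionVars false
set_option linter.style.haveILetI false
set_option linter.unusedSimpArgs false
set_option linter.unusedVariables false

namespace CfsgLib.Qb

open CfsgLib.CharInt hiding irr_isCharacter irr_classFun irr_one_ne_zero schur_scalar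
open Cfsg CfsgLib.CharInt2 CfsgLib.CharBasic CfsgLib.BlockR CfsgLib.BlockCore
  CfsgLib.BlockIdem CfsgLib.BlockIdeal CfsgLib.BlockConj CfsgLib.BlockBrauer CfsgLib.BlockInd
  CfsgLib.BlockFMT CfsgLib.BlockFMT2 CfsgLib.PLocalInd CfsgLib.BlockOrth CfsgLib.BlockDefect
  CfsgLib.BlockReg CfsgLib.BlockReg2 CfsgLib.BlockCount CfsgLib.BlockCount2 CfsgLib.BlockQP
  CfsgLib.BlockCov CfsgLib.BlockCov2 CfsgLib.BlockCov3 CfsgLib.BlockCov4 CfsgLib.BlockQuo
  CfsgLib.BlkS2 CfsgLib.BlockSec3
open scoped ComplexConjugate Pointwise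

universe u v

section Sub
open CfsgLib.BrP
variable {M : Ideal AlgInt} {p : ℕ} [hpF : Fact p.Prime] {G : Type u} [Group G] [Fintype G]

/-- major subsections -/
theorem sub_exists (hM : IsPModular p M) {B : Set (IrrCharacter G)} (hB : IsPBlock M B)
    {D : Subgroup G} (hD : IsDefectGroup p M B D) {x : G} (hxD : x ∈ D)
    (hxc : ∀ d ∈ D, d * x = x * d) :
    ∃ b : Set (IrrCharacter (Subgroup.centralizer ({x} : Set G))),
      IsInducedBlock M (Subgroup.centralizer ({x} : Set G)) b B ∧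
      IsDefectGroup p M b (D.subgroupOf (Subgroup.centralizer ({x} : Set G))) := by
  classical
  haveI hPr : M.IsPrime := isPrime_of_modular hM
  haveI : M.IsMaximal := hM.2.1
  haveI := charP_kM hM
  have hdef := (g_def hM hB).1 hD
  obtain ⟨e, he⟩ := exists_of_br_ne (g_blk hB) le_top hdef.pg hdef.br
  have hmx : IsMx p ⊤ (JB M B) D e := isMx_of_isDef (g_blk hB) hdef he
  have h1 := Star.bset_induced hM hB hmx hxD
  have hblk := Star.ev_blk hmx.1.1 hxD
  obtain ⟨h2, h3⟩ := Star.bset_spec (M := M) hblk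
  have hle := Star.ev_spec hmx.1.1 hxD
  have hDC : D ≤ CH ⊤ (Subgroup.zpowers x) := by
    rw [Star.CH_zp]
    intro d hd
    rw [Subgroup.mem_centralizer_singleton_iff]
    exact hxc d hd
  have hN : D ≤ Subgroup.normalizer ((Subgroup.zpowers x : Subgroup G) : Set G) := by
    refine hDC.trans ?_
    rw [CH_top]
    exact Subgroup.centralizer_le_normalizer _
  have hnrm := LEp.nrm hmx.1.1 hle hN
  have hbr : Br D (Star.ev p D e x) ≠ 0 := hnrm.br_ne
  obtain ⟨E, hE⟩ := exists_isDef (p := p) hblk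
  have hcard := Star.def_central (g_blk hB) hmx hxD hxc hE
  have hdefC : IsDef p (CH ⊤ (Subgroup.zpowers x)) (Star.ev p D e x) D :=
    hE.of_card hDC hdef.pg hbr hcard.le
  have h4 : IsDefectGroup p M (Star.bset M (CH ⊤ (Subgroup.zpowers x)) (Star.ev p D e x))
      (D.subgroupOf (CH ⊤ (Subgroup.zpowers x))) := by
    rw [h_def' hM h2 hDC, h3]
    exact hdefC
  have h5 : ∃ b : Set (IrrCharacter (CH ⊤ (Subgroup.zpowers x) : Subgroup G)),
      IsInducedBlock M (CH ⊤ (Subgroup.zpowers x)) b B ∧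
      IsDefectGroup p M b (D.subgroupOf (CH ⊤ (Subgroup.zpowers x))) := ⟨_, h1, h4⟩
  rwa [Star.CH_zp] at h5

end Sub

section Bar
variable {M : Ideal AlgInt} {p : ℕ} [hpF : Fact p.Prime] {K : Type u} [Group K] [Fintype K]
  {Q : Subgroup K} [Q.Normal]

theorem bar_block (hM : IsPModular p M) (hQ : IsPGroup p Q)
    (hC : ∃ k : ℕ, (Subgroup.centralizer (Q : Set K)).index = p ^ k) {b : Set (IrrCharacter K)}
    (hb : IsPBlock M b) :
    IsPBlock M {ξ : IrrCharacter (K ⧸ Q) | infl Q ξ ∈ b} ∧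
      ∀ {D : Subgroup K}, IsDefectGroup p M b D →
        IsDefectGroup p M {ξ : IrrCharacter (K ⧸ Q) | infl Q ξ ∈ b}
          (D.map (QuotientGroup.mk' Q)) := by
  classical
  have hp := isPrime_of_modular hM
  obtain ⟨Bbar, h1, h2, h3⟩ := s4434 Q hM hQ hb
  have h4 : Bbar = {ξ : IrrCharacter (K ⧸ Q) | infl Q ξ ∈ b} := by
    ext ξ
    constructor
    · intro h; exact h2 ξ h
    · intro h
      obtain ⟨ξ0, hξ0⟩ := block_nonempty hp h1
      have h5 : SameBlock M (infl Q ξ0 : K → ℂ) (infl Q ξ : K → ℂ) :=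
        sameBlock_of_mem hp hb (h2 ξ0 hξ0) h
      exact mem_of_sameBlock hp h1 hξ0 ((sameBlock_infl_iff hM hQ hC ξ0 ξ).2 h5)
  rw [← h4]
  exact ⟨h1, fun {D} hD => (h3 _).2 ⟨D, hD, rfl⟩⟩

theorem card_map_mk {D : Subgroup K} (hQD : Q ≤ D) :
    Nat.card Q * Nat.card (D.map (QuotientGroup.mk' Q)) = Nat.card D := by
  have h1 := Subgroup.relIndex_ker (K := D) (QuotientGroup.mk' Q)
  rw [QuotientGroup.ker_mk'] at h1
  have h2 := Subgroup.relIndex_mul_relIndex (⊥ : Subgroup K) Q D bot_le hQD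
  rw [Subgroup.relIndex_bot_left, Subgroup.relIndex_bot_left, h1] at h2
  exact h2

end Bar

section Maj
variable {M : Ideal AlgInt} {p : ℕ} [hpF : Fact p.Prime] {G : Type u} [Group G] [Fintype G]
  {x : G} [Fintype (Subgroup.centralizer ({x} : Set G))]
  {b : Set (IrrCharacter (Subgroup.centralizer ({x} : Set G)))}

theorem Af_ne (hM : IsPModular p M) (hx : ∃ k : ℕ, orderOf x = p ^ k)
    {B : Set (IrrCharacter G)} (hb : IsInducedBlock M (Subgroup.centralizer ({x} : Set G)) b B)
    (hd : blockDefect p b = blockDefect p B) {χ : IrrCharacter G} (hχ : χ ∈ B) :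
    Ct.Af p x b (χ : G → ℂ) ≠ 0 := by
  intro h
  obtain ⟨ψ, hψ, h0⟩ := exists_height_zero hM hb.2.1
  apply Ct.Mc_ne_zero hM hx hb hd hχ hψ ((height_zero_iff hM hb.2.1 hψ).2 h0)
  unfold Ct.Mc
  rw [Ct.Pc_eq hM hb.1, h]
  unfold classInner
  simp

end Maj

section Data
variable {M : Ideal AlgInt} {p : ℕ} [hpF : Fact p.Prime] {G : Type u} [Group G] [Fintype G]

/-- the element `x` of its centralizer -/
def xK (x : G) : Subgroup.centralizer ({x} : Set G) :=
  ⟨x, Subgroup.mem_centralizer_singleton_iff.2 rfl⟩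

theorem xK_central (x : G) (k : Subgroup.centralizer ({x} : Set G)) : k * xK x = xK x * k := by
  apply Subtype.ext
  exact Subgroup.mem_centralizer_singleton_iff.1 k.2

instance xK_normal (x : G) : (Subgroup.zpowers (xK x)).Normal := by
  constructor
  rintro _ ⟨j, rfl⟩ k
  have h1 : k * (xK x) ^ j * k⁻¹ = (xK x) ^ j := by
    have h2 : Commute k (xK x) := xK_central x k
    rw [(h2.zpow_right j).eq, mul_inv_cancel_right]
  dsimp only
  rw [h1]
  exact ⟨j, rfl⟩

theorem all_central (x : G) (k : Subgroup.centralizer ({x} : Set G)) :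
    k ∈ Subgroup.centralizer ((Subgroup.zpowers (xK x) : Subgroup (Subgroup.centralizer ({x} : Set G))) :
      Set (Subgroup.centralizer ({x} : Set G))) := by
  rw [Subgroup.mem_centralizer_iff]
  rintro _ ⟨j, rfl⟩
  have h2 : Commute k (xK x) := xK_central x k
  exact (h2.zpow_right j).eq.symm

theorem xK_pgroup {x : G} (hx : ∃ k : ℕ, orderOf x = p ^ k) : IsPGroup p (Subgroup.zpowers (xK x)) := by
  obtain ⟨k, hk⟩ := hx
  apply IsPGroup.of_card (n := k)
  rw [Nat.card_zpowers, ← Subgroup.orderOf_coe]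
  exact hk

theorem card_xK (x : G) : Nat.card (Subgroup.zpowers (xK x)) = orderOf x := by
  rw [Nat.card_zpowers, ← Subgroup.orderOf_coe]; rfl

/-- everything about a major subsection -/
theorem major_data (hM : IsPModular p M) {B : Set (IrrCharacter G)} (hB : IsPBlock M B)
    {D : Subgroup G} (hD : IsDefectGroup p M B D) {x : G} (hxD : x ∈ D)
    (hxc : ∀ d ∈ D, d * x = x * d) :
    (∃ k : ℕ, orderOf x = p ^ k) ∧ ∃ b : Set (IrrCharacter (Subgroup.centralizer ({x} : Set G))),
      IsInducedBlock M (Subgroup.centralizer ({x} : Set G)) b B ∧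
      blockDefect p b = blockDefect p B ∧
      IsPBlock M {ξ : IrrCharacter (Subgroup.centralizer ({x} : Set G) ⧸ Subgroup.zpowers (xK x)) |
        infl (Subgroup.zpowers (xK x)) ξ ∈ b} ∧
      IsDefectGroup p M {ξ : IrrCharacter (Subgroup.centralizer ({x} : Set G) ⧸ Subgroup.zpowers (xK x)) |
        infl (Subgroup.zpowers (xK x)) ξ ∈ b}
        ((D.subgroupOf (Subgroup.centralizer ({x} : Set G))).map
          (QuotientGroup.mk' (Subgroup.zpowers (xK x)))) ∧
      orderOf x * Nat.card ((D.subgroupOf (Subgroup.centralizer ({x} : Set G))).map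
          (QuotientGroup.mk' (Subgroup.zpowers (xK x)))) = Nat.card D ∧
      blockRank p b = blockRank p {ξ : IrrCharacter (Subgroup.centralizer ({x} : Set G) ⧸
        Subgroup.zpowers (xK x)) | infl (Subgroup.zpowers (xK x)) ξ ∈ b} := by
  classical
  haveI : Fintype (Subgroup.centralizer ({x} : Set G)) := Fintype.ofFinite _
  obtain ⟨b, hb, hbD⟩ := sub_exists hM hB hD hxD hxc
  have h1 := card_defectGroup hM hB hD
  have h2 := card_defectGroup hM hb.1 hbD
  have h3 : D ≤ Subgroup.centralizer ({x} : Set G) := by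
    intro d hd
    rw [Subgroup.mem_centralizer_singleton_iff]
    exact hxc d hd
  have h4 : Nat.card (D.subgroupOf (Subgroup.centralizer ({x} : Set G))) = Nat.card D :=
    Nat.card_congr (Subgroup.subgroupOfEquivOfLe h3).toEquiv
  have hx : ∃ k : ℕ, orderOf x = p ^ k := by
    have h5 : orderOf x ∣ p ^ blockDefect p B := by
      rw [← h1]; exact Subgroup.orderOf_dvd_natCard D hxD
    obtain ⟨k, -, hk⟩ := (Nat.dvd_prime_pow (Fact.out : p.Prime)).mp h5
    exact ⟨k, hk⟩
  have hQ := xK_pgroup hx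
  have hidx : ∃ k : ℕ, (Subgroup.centralizer ((Subgroup.zpowers (xK x) :
      Subgroup (Subgroup.centralizer ({x} : Set G))) :
      Set (Subgroup.centralizer ({x} : Set G)))).index = p ^ k := by
    refine ⟨0, ?_⟩
    rw [pow_zero, Subgroup.index_eq_one, eq_top_iff]
    intro k _
    exact all_central x k
  have h6 := bar_block hM hQ hidx hb.1
  refine ⟨hx, b, hb, ?_, h6.1, h6.2 hbD, ?_, ?_⟩
  · rw [h4, h1] at h2
    exact (Nat.pow_right_injective (Fact.out : p.Prime).two_le h2).symm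
  · rw [← card_xK, card_map_mk, h4]
    rw [Subgroup.zpowers_le, Subgroup.mem_subgroupOf]
    exact hxD
  · exact rank_quot hM hb.1 _ hQ (fun g _ => all_central x g) h6.1

/-- defect groups with a cyclic quotient modulo a central element -/
theorem card_le_cyc (hM : IsPModular p M) {B : Set (IrrCharacter G)} (hB : IsPBlock M B)
    {D : Subgroup G} (hD : IsDefectGroup p M B D) {x y : G} (hxD : x ∈ D) (hyD : y ∈ D)
    (hxc : ∀ d ∈ D, d * x = x * d) (hgen : ∀ d ∈ D, ∃ i j : ℤ, d = x ^ i * y ^ j)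
    (hne : ¬ Nat.card D ≤ orderOf x) (S : Finset (IrrCharacter G)) (hS : ∀ χ ∈ S, χ ∈ B) :
    S.card ≤ Nat.card D := by
  classical
  haveI : Fintype (Subgroup.centralizer ({x} : Set G)) := Fintype.ofFinite _
  obtain ⟨hx, b, hb, hd, h1, h2, h3, -⟩ := major_data hM hB hD hxD hxc
  set E := ((D.subgroupOf (Subgroup.centralizer ({x} : Set G))).map
          (QuotientGroup.mk' (Subgroup.zpowers (xK x)))) with hE
  have hE1 : E ≠ ⊥ := by
    intro h
    rw [h, Subgroup.card_bot, mul_one] at h3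
    exact hne h3.symm.le
  have hyK : y ∈ Subgroup.centralizer ({x} : Set G) := by
    rw [Subgroup.mem_centralizer_singleton_iff]; exact hxc y hyD
  have hcyc : IsCyclic E := by
    refine ⟨⟨⟨QuotientGroup.mk' (Subgroup.zpowers (xK x)) ⟨y, hyK⟩, ?_⟩, ?_⟩⟩
    · exact ⟨⟨y, hyK⟩, hyD, rfl⟩
    · rintro ⟨_, ⟨⟨d, hdK⟩, hd', rfl⟩⟩
      have hd'' : d ∈ D := hd'
      obtain ⟨i, j, hij⟩ := hgen d hd''
      refine ⟨j, ?_⟩
      apply Subtype.ext
      dsimp only
      rw [Subgroup.coe_zpow]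
      have e1 : (⟨d, hdK⟩ : Subgroup.centralizer ({x} : Set G)) = (xK x) ^ i * ⟨y, hyK⟩ ^ j := by
        apply Subtype.ext
        rw [Subgroup.coe_mul, Subgroup.coe_zpow, Subgroup.coe_zpow]
        exact hij
      have e2 : QuotientGroup.mk' (Subgroup.zpowers (xK x)) (xK x) = 1 := by
        rw [← MonoidHom.mem_ker, QuotientGroup.ker_mk']
        exact Subgroup.mem_zpowers _
      rw [e1, map_mul, map_zpow, map_zpow, e2, one_zpow, one_mul]
  haveI : Fintype (Subgroup.centralizer ({x} : Set G) ⧸ Subgroup.zpowers (xK x)) := Fintype.ofFinite _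
  obtain ⟨V, _, _, F, c, hst⟩ := cyclic_star hM h1 h2 hcyc hE1
  have h4 := wstar_bound hM hx hb.1 (xK_pgroup hx) (fun g _ => all_central x g) hst S
    (fun χ hχ => Af_ne hM hx hb hd (hS χ hχ))
  rw [card_xK, h3] at h4
  exact h4

end Data

end CfsgLib.Qb
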