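import Mathlib
import Cfsg.Agent.EqBase
import Cfsg.Agent.LibQb12

/-!
# The number of characters of a block with abelian defect groups of small rank (helper17)
-/

set_option autoImplicit false
set_option linter.unusedSectionVars false
set_option linter.style.haveILetI false
set_option linter.unusedSimpArgs false
set_option linter.unusedVariables false

namespace CfsgLib.Qb

open CfsgLib.CharInt hiding irr_isCharacter irr_classFun irr_one_ne_zero schur_scalar
open Cfsg CfsgLib.CharInt2 CfsgLib.CharBasic CfsgLib.BlockR CfsgLib.BlockCore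
  CfsgLib.BlockIdem CfsgLib.BlockIdeal CfsgLib.BlockConj CfsgLib.BlockBrauer CfsgLib.BlockInd
  CfsgLib.BlockFMT CfsgLib.BlockFMT2 CfsgLib.PLocalInd CfsgLib.BlockOrth CfsgLib.BlockDefect
  CfsgLib.BlockReg CfsgLib.BlockReg2 CfsgLib.BlockCount CfsgLib.BlockCount2 CfsgLib.BlockQP
  CfsgLib.BlockCov CfsgLib.BlockCov2 CfsgLib.BlockCov3 CfsgLib.BlockCov4 CfsgLib.BlockQuo
  CfsgLib.BlkS2 CfsgLib.BlockSec3
open scoped ComplexConjugate Pointwise

universe u v

section Gen
variable {M : Ideal AlgInt} {p : ℕ} [hpF : Fact p.Prime] {G : Type u} [Group G] [Fintype G]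

theorem card_toFinset (B : Set (IrrCharacter G)) :
    (Set.toFinite B).toFinset.card = Nat.card B := by
  rw [Nat.card_coe_set_eq, Set.ncard_eq_toFinset_card B]

theorem card_defect_zero (hM : IsPModular p M) {B : Set (IrrCharacter G)} (hB : IsPBlock M B)
    (hd : blockDefect p B = 0) : Nat.card B = 1 := by
  have hp := isPrime_of_modular hM
  obtain ⟨χ, hχ, h0⟩ := exists_height_zero hM hB
  rw [hd, add_zero] at h0
  have h1 := defect_zero_block hM h0.symm
  have h2 : B = {χ} := by rw [← h1]; exact block_eq_blockOf hp hB hχ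
  subst h2
  exact Nat.card_unique

theorem rank_le_card (p : ℕ) (B : Set (IrrCharacter G)) : blockRank p B ≤ Nat.card B := by
  classical
  haveI : Fintype B := Fintype.ofFinite B
  have h1 := finrank_range_le_card (R := ℂ) (fun χ : B => pRegularPart p (χ.1 : G → ℂ))
  have h3 : Set.range (fun χ : B => pRegularPart p (χ.1 : G → ℂ)) =
      (fun χ : IrrCharacter G => pRegularPart p (χ : G → ℂ)) '' B := by
    ext y
    constructor
    · rintro ⟨χ, rfl⟩; exact ⟨χ.1, χ.2, rfl⟩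
    · rintro ⟨χ, hχ, rfl⟩; exact ⟨⟨χ, hχ⟩, rfl⟩
  unfold Set.finrank at h1
  rw [h3, ← Nat.card_eq_fintype_card] at h1
  exact h1

theorem card_le_sum_norm {ι : Type*} (S : Finset ι) (f : ι → ℂ)
    (hint : ∀ i ∈ S, IsIntegral ℤ (f i)) (hne : ∀ i ∈ S, f i ≠ 0)
    (hσ : ∀ σ : ℂ ≃+* ℂ, σ (∏ i ∈ S, f i) = ∏ i ∈ S, f i) :
    (S.card : ℝ) ≤ ∑ i ∈ S, ‖f i‖ := by
  have h1 : 1 ≤ ‖∏ i ∈ S, f i‖ := GalChar.one_le_norm_of_fixed (IsIntegral.prod _ hint)
    (Finset.prod_ne_zero_iff.2 hne) hσ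
  have h2 : ∀ i ∈ S, Real.log (‖f i‖) ≤ ‖f i‖ - 1 := fun i hi =>
    Real.log_le_sub_one_of_pos (norm_pos_iff.2 (hne i hi))
  have h3 := Finset.sum_le_sum h2
  have h4 : ∑ i ∈ S, Real.log (‖f i‖) = Real.log (‖∏ i ∈ S, f i‖) := by
    rw [norm_prod, Real.log_prod]
    intro i hi
    exact (norm_pos_iff.2 (hne i hi)).ne'
  rw [h4, Finset.sum_sub_distrib] at h3
  have h5 : 0 ≤ Real.log (‖∏ i ∈ S, f i‖) := Real.log_nonneg h1
  simp only [Finset.sum_const, nsmul_eq_mul, mul_one] at h3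
  linarith

theorem card_le_tr (p n : ℕ) [Fact p.Prime] {z : ℂ} (hz : z ∈ Ct.Op p n) (h0 : z ≠ 0) :
    Ct.NN p n ≤ ∑ k : (ZMod (p ^ n))ˣ, ‖Ct.sg p n k z‖ := by
  unfold Ct.NN
  have := card_le_sum_norm (Finset.univ : Finset (ZMod (p ^ n))ˣ) (fun k => Ct.sg p n k z)
    (fun k _ => Ct.Op_isIntegral (Ct.gal_mem _ hz)) (fun k _ => by
      intro h1
      exact h0 ((map_eq_zero_iff _ (Ct.sg p n k).injective).mp h1)) (fun σ => by
      obtain ⟨j, hj⟩ := Ct.gal_eq p n σ
      rw [map_prod]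
      rw [Finset.prod_congr rfl fun k _ => hj _ (Ct.gal_mem (Ct.sg p n k) hz)]
      rw [Finset.prod_congr rfl fun k _ => Ct.sg_mul j k hz]
      exact Fintype.prod_equiv (Equiv.mulLeft j) _ _ fun k => rfl)
  rwa [Finset.card_univ] at this

section Tr
variable {x : G} [Fintype (Subgroup.centralizer ({x} : Set G))]
  {b : Set (IrrCharacter (Subgroup.centralizer ({x} : Set G)))}

theorem Mc_self_ne (hM : IsPModular p M) (hb : IsPBlock M b) {χ : IrrCharacter G}
    (h : Ct.Af p x b (χ : G → ℂ) ≠ 0) : Ct.Mc p x b χ χ ≠ 0 := by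
  intro h0
  apply h
  unfold Ct.Mc at h0
  have h1 : Ct.Pc p x b χ χ = 0 := by
    rcases mul_eq_zero.1 h0 with h2 | h2
    · exfalso
      rw [Nat.cast_eq_zero] at h2
      exact (pow_pos hpF.out.pos _).ne' h2
    · exact h2
  unfold Ct.Pc classInner at h1
  rcases mul_eq_zero.1 h1 with h2 | h2
  · exfalso
    rw [inv_eq_zero] at h2
    exact (Nat.cast_ne_zero.2 Nat.card_pos.ne') h2
  · have h3 : ∀ c, Ct.Af p x b (χ : G → ℂ) c * conj (Ct.Af p x b (χ : G → ℂ) c) =
        ((‖Ct.Af p x b (χ : G → ℂ) c‖ ^ 2 : ℝ) : ℂ) := by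
      intro c
      rw [Complex.mul_conj, Complex.normSq_eq_norm_sq]
    rw [Finset.sum_congr rfl (fun c _ => h3 c), ← Complex.ofReal_sum, Complex.ofReal_eq_zero,
      Finset.sum_eq_zero_iff_of_nonneg (fun c _ => by positivity)] at h2
    funext c
    have h4 := h2 c (Finset.mem_univ _)
    rw [sq_eq_zero_iff, norm_eq_zero] at h4
    exact h4

theorem card_le_rank (hM : IsPModular p M) (hx : ∃ k : ℕ, orderOf x = p ^ k) (hb : IsPBlock M b)
    (S : Finset (IrrCharacter G)) (hS : ∀ χ ∈ S, Ct.Af p x b (χ : G → ℂ) ≠ 0) :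
    S.card ≤ p ^ blockDefect p b * blockRank p b := by
  obtain ⟨n, hn⟩ := hx
  have hx' : ∃ k : ℕ, orderOf x = p ^ k := ⟨n, hn⟩
  have hxn : x ^ (p ^ n) = 1 := by rw [← hn]; exact pow_orderOf_eq_one x
  have h1 := Ct.trace_sum hM hx' hb hxn
  have h2 : ∀ χ ∈ S, Ct.NN p n ≤ Ct.trr p n (Ct.Mc p x b χ χ) := by
    intro χ hχ
    refine (card_le_tr p n (Ct.Mc_mem hM hb hxn χ χ) (Mc_self_ne hM hb (hS χ hχ))).trans ?_
    unfold Ct.trr
    refine Finset.sum_le_sum fun k _ => ?_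
    obtain ⟨h3, h4⟩ := Ct.sg_diag_re hM hx' hb hxn k χ
    rw [h3, Complex.norm_real, Real.norm_of_nonneg h4, Complex.ofReal_re]
  have h3 : (S.card : ℝ) * Ct.NN p n ≤ ∑ χ : IrrCharacter G, Ct.trr p n (Ct.Mc p x b χ χ) := by
    calc (S.card : ℝ) * Ct.NN p n = ∑ χ ∈ S, Ct.NN p n := by rw [Finset.sum_const, nsmul_eq_mul]
      _ ≤ ∑ χ ∈ S, Ct.trr p n (Ct.Mc p x b χ χ) := Finset.sum_le_sum h2
      _ ≤ _ := Finset.sum_le_sum_of_subset_of_nonneg (Finset.subset_univ _)
        fun χ _ _ => Ct.trr_nonneg hM hx' hb hxn χ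
  rw [h1, mul_comm] at h3
  have h4 := le_of_mul_le_mul_left h3 (Ct.NN_pos p n)
  exact_mod_cast h4

end Tr

/-- abelian defect groups with two generators -/
theorem card_two_gen (hM : IsPModular p M) {B : Set (IrrCharacter G)} (hB : IsPBlock M B)
    {D : Subgroup G} (hD : IsDefectGroup p M B D) (hab : ∀ a ∈ D, ∀ b ∈ D, a * b = b * a)
    {x y : G} (hxD : x ∈ D) (hyD : y ∈ D) (hgen : ∀ d ∈ D, ∃ i j : ℤ, d = x ^ i * y ^ j) :
    Nat.card B ≤ Nat.card D := by
  classical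
  have hcard := card_defectGroup hM hB hD
  by_cases h1 : Nat.card D = 1
  · rw [h1] at hcard
    have hd : blockDefect p B = 0 := by
      by_contra h0
      have := Nat.one_lt_pow h0 hpF.out.one_lt
      omega
    rw [card_defect_zero hM hB hd]
    exact Nat.card_pos
  · rw [← card_toFinset B]
    by_cases h2 : Nat.card D ≤ orderOf x
    · have h3 : Subgroup.zpowers x = D := by
        apply Subgroup.eq_of_le_of_card_ge
        · rw [Subgroup.zpowers_le]; exact hxD
        · rw [Nat.card_zpowers]; exact h2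
      refine card_le_cyc hM hB hD (x := 1) (y := x) D.one_mem hxD (fun d _ => by simp) ?_ ?_ _
        (fun χ hχ => (Set.Finite.mem_toFinset _).1 hχ)
      · intro d hd
        rw [← h3] at hd
        obtain ⟨j, hj⟩ := hd
        exact ⟨0, j, by rw [zpow_zero, one_mul]; exact hj.symm⟩
      · rw [orderOf_one]
        have : 0 < Nat.card D := Nat.card_pos
        omega
    · exact card_le_cyc hM hB hD hxD hyD (fun d hd => hab d hd x hxD) hgen h2 _
        (fun χ hχ => (Set.Finite.mem_toFinset _).1 hχ)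

/-- abelian defect groups with three generators -/
theorem card_three_gen (hM : IsPModular p M) {B : Set (IrrCharacter G)} (hB : IsPBlock M B)
    {D : Subgroup G} (hD : IsDefectGroup p M B D) (hab : ∀ a ∈ D, ∀ b ∈ D, a * b = b * a)
    {x y w : G} (hxD : x ∈ D) (hyD : y ∈ D) (hwD : w ∈ D)
    (hgen : ∀ d ∈ D, ∃ i j l : ℤ, d = x ^ i * y ^ j * w ^ l) :
    orderOf x * Nat.card B ≤ Nat.card D * Nat.card D := by
  classical
  haveI : Fintype (Subgroup.centralizer ({x} : Set G)) := Fintype.ofFinite _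
  obtain ⟨hx, b, hb, hd, h1, h2, h3, h4⟩ := major_data hM hB hD hxD (fun d hd => hab d hd x hxD)
  haveI : Fintype (Subgroup.centralizer ({x} : Set G) ⧸ Subgroup.zpowers (xK x)) := Fintype.ofFinite _
  set bb := {ξ : IrrCharacter (Subgroup.centralizer ({x} : Set G) ⧸ Subgroup.zpowers (xK x)) |
        infl (Subgroup.zpowers (xK x)) ξ ∈ b} with hbb
  set E := ((D.subgroupOf (Subgroup.centralizer ({x} : Set G))).map
          (QuotientGroup.mk' (Subgroup.zpowers (xK x)))) with hE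
  have hyK : y ∈ Subgroup.centralizer ({x} : Set G) := by
    rw [Subgroup.mem_centralizer_singleton_iff]; exact hab y hyD x hxD
  have hwK : w ∈ Subgroup.centralizer ({x} : Set G) := by
    rw [Subgroup.mem_centralizer_singleton_iff]; exact hab w hwD x hxD
  have habE : ∀ a ∈ E, ∀ b ∈ E, a * b = b * a := by
    rintro _ ⟨⟨a, haK⟩, ha, rfl⟩ _ ⟨⟨c, hcK⟩, hc, rfl⟩
    rw [← map_mul, ← map_mul]
    congr 1
    apply Subtype.ext
    exact hab a ha c hc
  have e2 : QuotientGroup.mk' (Subgroup.zpowers (xK x)) (xK x) = 1 := by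
    rw [← MonoidHom.mem_ker, QuotientGroup.ker_mk']
    exact Subgroup.mem_zpowers _
  have h5 : Nat.card bb ≤ Nat.card E := by
    refine card_two_gen hM h1 h2 habE
      (x := QuotientGroup.mk' (Subgroup.zpowers (xK x)) ⟨y, hyK⟩)
      (y := QuotientGroup.mk' (Subgroup.zpowers (xK x)) ⟨w, hwK⟩)
      ⟨⟨y, hyK⟩, hyD, rfl⟩ ⟨⟨w, hwK⟩, hwD, rfl⟩ ?_
    rintro _ ⟨⟨d, hdK⟩, hd', rfl⟩
    obtain ⟨i, j, l, hij⟩ := hgen d hd'
    refine ⟨j, l, ?_⟩
    have e1 : (⟨d, hdK⟩ : Subgroup.centralizer ({x} : Set G)) = (xK x) ^ i * ⟨y, hyK⟩ ^ j * ⟨w, hwK⟩ ^ l := by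
      apply Subtype.ext
      rw [Subgroup.coe_mul, Subgroup.coe_mul, Subgroup.coe_zpow, Subgroup.coe_zpow, Subgroup.coe_zpow]
      exact hij
    rw [e1, map_mul, map_mul, map_zpow, map_zpow, map_zpow, e2, one_zpow, one_mul]
  have h6 := card_le_rank hM hx hb.1 (Set.toFinite B).toFinset
    (fun χ hχ => Af_ne hM hx hb hd ((Set.Finite.mem_toFinset _).1 hχ))
  rw [card_toFinset, hd, h4, ← card_defectGroup hM hB hD] at h6
  have h7 := rank_le_card p bb
  calc orderOf x * Nat.card B ≤ orderOf x * (Nat.card D * Nat.card E) := by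
        apply Nat.mul_le_mul_left
        exact h6.trans (Nat.mul_le_mul_left _ (h7.trans h5))
    _ = Nat.card D * (orderOf x * Nat.card E) := by ring
    _ = _ := by rw [h3]

end Gen

end CfsgLib.Qb
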