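import Mathlib
import Cfsg.Agent.EqBase
import Cfsg.Agent.LibQb13

/-!
# S4697 (helper17)
-/

set_option autoImplicit false
set_option linter.unusedSectionVars false
set_option linter.style.haveILetI false
set_option linter.unusedSimpArgs false
set_option linter.unusedVariables false

namespace CfsgLib.Qb

open Cfsg

universe u v

section Gen
variable {M : Ideal AlgInt} {p : ℕ} [hpF : Fact p.Prime] {G : Type u} [Group G] [Fintype G]

theorem gen_card {D : Subgroup G} {x y w : G} (hgen : ∀ d ∈ D, ∃ i j l : ℤ, d = x ^ i * y ^ j * w ^ l) :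
    Nat.card D ≤ orderOf x * orderOf y * orderOf w := by
  classical
  have h1 : ∀ d : D, ∃ t : (Subgroup.zpowers x × Subgroup.zpowers y) × Subgroup.zpowers w,
      (d : G) = t.1.1 * t.1.2 * t.2 := by
    intro d
    obtain ⟨i, j, l, h⟩ := hgen d d.2
    exact ⟨((⟨x ^ i, ⟨i, rfl⟩⟩, ⟨y ^ j, ⟨j, rfl⟩⟩), ⟨w ^ l, ⟨l, rfl⟩⟩), h⟩
  choose g hg using h1
  have h2 : Function.Injective g := by
    intro a b hab
    apply Subtype.ext
    rw [hg a, hg b, hab]
  have h3 := Nat.card_le_card_of_injective g h2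
  rw [Nat.card_prod, Nat.card_prod, Nat.card_zpowers, Nat.card_zpowers, Nat.card_zpowers] at h3
  exact h3

theorem three_bound (hM : IsPModular p M) {B : Set (IrrCharacter G)} (hB : IsPBlock M B)
    {D : Subgroup G} (hD : IsDefectGroup p M B D) (hab : ∀ a ∈ D, ∀ b ∈ D, a * b = b * a)
    {x y w : G} (hxD : x ∈ D) (hyD : y ∈ D) (hwD : w ∈ D)
    (hgen : ∀ d ∈ D, ∃ i j l : ℤ, d = x ^ i * y ^ j * w ^ l) (h1 : orderOf y ≤ orderOf x)
    (h2 : orderOf w ≤ orderOf x) : Nat.card B ^ 3 ≤ Nat.card D ^ 5 := by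
  have h3 := card_three_gen hM hB hD hab hxD hyD hwD hgen
  have h4 := gen_card hgen
  have h5 : Nat.card D ≤ orderOf x ^ 3 := by
    calc Nat.card D ≤ orderOf x * orderOf y * orderOf w := h4
      _ ≤ orderOf x * orderOf x * orderOf x :=
        Nat.mul_le_mul (Nat.mul_le_mul_left _ h1) h2
      _ = _ := by ring
  have h6 : (orderOf x * Nat.card B) ^ 3 ≤ (Nat.card D * Nat.card D) ^ 3 := Nat.pow_le_pow_left h3 3
  have h7 : Nat.card D * Nat.card B ^ 3 ≤ Nat.card D * Nat.card D ^ 5 := by
    calc Nat.card D * Nat.card B ^ 3 ≤ orderOf x ^ 3 * Nat.card B ^ 3 := Nat.mul_le_mul_right _ h5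
      _ = (orderOf x * Nat.card B) ^ 3 := by ring
      _ ≤ _ := h6
      _ = _ := by ring
  exact Nat.le_of_mul_le_mul_left h7 Nat.card_pos

/-- S4697 -/
theorem s4697 (hM : IsPModular p M) {B : Set (IrrCharacter G)} (hB : IsPBlock M B)
    {D : Subgroup G} (hD : IsDefectGroup p M B D) (hab : IsMulCommutative D) {d : ℕ}
    (hDd : Nat.card D = p ^ d) : (Group.rank D = 2 → Nat.card B ≤ p ^ d) ∧
      (Group.rank D = 3 → Nat.card B ^ 3 ≤ p ^ (5 * d)) := by
  classical
  have habD : ∀ a b : D, a * b = b * a := fun a b => hab.is_comm.comm a b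
  have hab' : ∀ a ∈ D, ∀ b ∈ D, a * b = b * a := by
    intro a ha b hb
    exact congrArg Subtype.val (habD ⟨a, ha⟩ ⟨b, hb⟩)
  letI : CommGroup D := { (inferInstance : Group D) with mul_comm := habD }
  obtain ⟨S, hS1, hS2⟩ := Group.rank_spec D
  constructor
  · intro hr
    rw [hr] at hS1
    obtain ⟨x, y, -, rfl⟩ := Finset.card_eq_two.1 hS1
    rw [← hDd]
    refine card_two_gen hM hB hD hab' x.2 y.2 ?_
    intro g hg
    have h1 : (⟨g, hg⟩ : D) ∈ Subgroup.closure (({x, y} : Finset D) : Set D) := by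
      rw [hS2]; exact Subgroup.mem_top _
    rw [Finset.coe_pair, Subgroup.mem_closure_pair] at h1
    obtain ⟨i, j, hij⟩ := h1
    refine ⟨i, j, ?_⟩
    have := congrArg (fun t : D => (t : G)) hij
    simpa using this.symm
  · intro hr
    rw [hr] at hS1
    obtain ⟨x, y, w, -, -, -, rfl⟩ := Finset.card_eq_three.1 hS1
    have hgenD : ∀ g : D, ∃ i j l : ℤ, g = x ^ i * y ^ j * w ^ l := by
      intro g
      have h1 : g ∈ Subgroup.closure (({x, y, w} : Finset D) : Set D) := by
        rw [hS2]; exact Subgroup.mem_top _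
      induction h1 using Subgroup.closure_induction with
      | mem a ha =>
        simp only [Finset.coe_insert, Finset.coe_singleton, Set.mem_insert_iff,
          Set.mem_singleton_iff] at ha
        rcases ha with rfl | rfl | rfl
        · exact ⟨1, 0, 0, by simp⟩
        · exact ⟨0, 1, 0, by simp⟩
        · exact ⟨0, 0, 1, by simp⟩
      | one => exact ⟨0, 0, 0, by simp⟩
      | mul a b _ _ ha hb =>
        obtain ⟨i, j, l, rfl⟩ := ha
        obtain ⟨i', j', l', rfl⟩ := hb
        refine ⟨i + i', j + j', l + l', ?_⟩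
        rw [zpow_add, zpow_add, zpow_add]
        rw [mul_mul_mul_comm, mul_mul_mul_comm (x ^ i)]
      | inv a _ ha =>
        obtain ⟨i, j, l, rfl⟩ := ha
        refine ⟨-i, -j, -l, ?_⟩
        rw [mul_inv, mul_inv, zpow_neg, zpow_neg, zpow_neg]
    have hgen : ∀ g ∈ D, ∃ i j l : ℤ, g = (x : G) ^ i * (y : G) ^ j * (w : G) ^ l := by
      intro g hg
      obtain ⟨i, j, l, h⟩ := hgenD ⟨g, hg⟩
      refine ⟨i, j, l, ?_⟩
      have := congrArg (fun t : D => (t : G)) h
      simpa using this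
    rw [mul_comm, pow_mul, ← hDd]
    have hc : ∀ (a b : D) (i j : ℤ), (a : G) ^ i * (b : G) ^ j = (b : G) ^ j * (a : G) ^ i := by
      intro a b i j
      have : Commute (a : G) (b : G) := hab' a a.2 b b.2
      exact (this.zpow_zpow i j).eq
    by_cases h1 : orderOf (y : G) ≤ orderOf (x : G)
    · by_cases h2 : orderOf (w : G) ≤ orderOf (x : G)
      · exact three_bound hM hB hD hab' x.2 y.2 w.2 hgen h1 h2
      · refine three_bound hM hB hD hab' (x := (w : G)) (y := (x : G)) (w := (y : G)) w.2 x.2 y.2 ?_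
          (by omega) (by omega)
        intro g hg
        obtain ⟨i, j, l, h⟩ := hgen g hg
        refine ⟨l, i, j, ?_⟩
        rw [h, mul_assoc, hc y w, ← mul_assoc, hc x w]
    · by_cases h2 : orderOf (w : G) ≤ orderOf (y : G)
      · refine three_bound hM hB hD hab' (x := (y : G)) (y := (x : G)) (w := (w : G)) y.2 x.2 w.2 ?_
          (by omega) (by omega)
        intro g hg
        obtain ⟨i, j, l, h⟩ := hgen g hg
        refine ⟨j, i, l, ?_⟩
        rw [h, hc x y]
      · refine three_bound hM hB hD hab' (x := (w : G)) (y := (x : G)) (w := (y : G)) w.2 x.2 y.2 ?_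
          (by omega) (by omega)
        intro g hg
        obtain ⟨i, j, l, h⟩ := hgen g hg
        refine ⟨l, i, j, ?_⟩
        rw [h, mul_assoc, hc y w, ← mul_assoc, hc x w]

end Gen

end CfsgLib.Qb
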