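import Mathlib
import Cfsg.Agent.EqBase
import Cfsg.Agent.LibQb14

/-!
# S4698 (helper17)
-/

set_option autoImplicit false
set_option linter.unusedSectionVars false
set_option linter.style.haveILetI false
set_option linter.unusedSimpArgs false
set_option linter.unusedVariables false

namespace CfsgLib.Qb

open CfsgLib.CharInt hiding irr_isCharacter irr_classFun irr_one_ne_zero schur_scalar
open Cfsg CfsgLib.CharInt2 CfsgLib.CharBasic CfsgLib.BlockR CfsgLib.BlockCore
  CfsgLib.BlockIdem CfsgLib.BlockIdeal CfsgLib.BlockConj CfsgLib.BlockBrauer CfsgLib.BlockInd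
  CfsgLib.BlockFMT CfsgLib.BlockFMT2 CfsgLib.PLocalInd CfsgLib.BlockOrth CfsgLib.BlockDefect
  CfsgLib.BlockReg CfsgLib.BlockReg2 CfsgLib.BlockCount CfsgLib.BlockCount2 CfsgLib.BlockQP
  CfsgLib.BlockCov CfsgLib.BlockCov2 CfsgLib.BlockCov3 CfsgLib.BlockCov4 CfsgLib.BlockQuo
  CfsgLib.BlkS2 CfsgLib.BlockSec3
open scoped ComplexConjugate Pointwise

universe u v

section A
variable {M : Ideal AlgInt} {p : ℕ} [hpF : Fact p.Prime] {G : Type u} [Group G] [Fintype G]
  {x : G} [Fintype (Subgroup.centralizer ({x} : Set G))]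
  {b : Set (IrrCharacter (Subgroup.centralizer ({x} : Set G)))} {n : ℕ}

theorem quarter {t N P s : ℝ} (hN : 0 < N) (h : t ^ 2 + N * (N * s) ≤ N * (P * t)) :
    4 * s ≤ P ^ 2 := by
  have h1 : 4 * (N * (N * s)) ≤ N * N * P ^ 2 := by nlinarith [sq_nonneg (N * P - 2 * t)]
  have h2 : (N * N) * (4 * s) ≤ (N * N) * P ^ 2 := by linarith
  exact le_of_mul_le_mul_left h2 (mul_pos hN hN)

theorem ring_conj (hM : IsPModular p M) (hx : ∃ k : ℕ, orderOf x = p ^ k)
    {B : Set (IrrCharacter G)} (hb : IsInducedBlock M (Subgroup.centralizer ({x} : Set G)) b B)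
    (hd : blockDefect p b = blockDefect p B) (hn : 0 < n) (hxn : x ^ (p ^ n) = 1)
    {χ : IrrCharacter G} (hχ : χ ∈ B) (ψ : IrrCharacter G) :
    MemLocalRing M (Ct.Mc p x b ψ χ / (p : ℂ) ^ blockHeight p B (χ : G → ℂ)) := by
  haveI := LocR.isPrime hM
  have h2 := Ct.conj_mem (Ct.div_ppow hM hn (Ct.Mc_mem hM hb.1 hxn χ ψ)
    (h := blockHeight p B (χ : G → ℂ)) (Ct.Mc_height_ring hM hx hb hd hχ ψ))
  rw [map_div₀, map_pow, Complex.conj_natCast, Ct.Mc_conj] at h2
  exact LocR.memR_of_isIntegral (Ct.Op_isIntegral h2)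

/-- a character of positive height makes the block small -/
theorem pos_height (hM : IsPModular p M) (hx : ∃ k : ℕ, orderOf x = p ^ k)
    {B : Set (IrrCharacter G)} (hb : IsInducedBlock M (Subgroup.centralizer ({x} : Set G)) b B)
    (hd : blockDefect p b = blockDefect p B) {χ₁ : IrrCharacter G} (hχ₁ : χ₁ ∈ B)
    (h1 : blockHeight p B (χ₁ : G → ℂ) ≠ 0) :
    2 * (Nat.card B * p ^ 2) ≤ p ^ (2 * blockDefect p B) := by
  classical
  obtain ⟨m, hm⟩ := hx
  have hx : ∃ k : ℕ, orderOf x = p ^ k := ⟨m, hm⟩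
  have hxn : x ^ (p ^ (m + 1)) = 1 := by
    rw [pow_succ, pow_mul, ← hm, pow_orderOf_eq_one, one_pow]
  have hn : 0 < m + 1 := Nat.succ_pos m
  have hp1 : (1 : ℝ) ≤ p := by exact_mod_cast hpF.out.one_lt.le
  set BF := (Set.toFinite B).toFinset with hBF
  have hmem : ∀ χ, χ ∈ BF ↔ χ ∈ B := fun χ => Set.Finite.mem_toFinset _
  set F0 := BF.filter (fun χ : IrrCharacter G => blockHeight p B (χ : G → ℂ) = 0) with hF0
  set F1 := BF.filter (fun χ : IrrCharacter G => ¬ blockHeight p B (χ : G → ℂ) = 0) with hF1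
  have hcard : F0.card + F1.card = Nat.card B := by
    rw [← card_toFinset B, hF0, hF1]
    exact Finset.card_filter_add_card_filter_not _
  obtain ⟨χ₀, hχ₀, h00⟩ := exists_height_zero hM hb.2.1
  have h0 := (height_zero_iff hM hb.2.1 hχ₀).mpr h00
  have hP : ((p ^ blockDefect p b : ℕ) : ℝ) ^ 2 = ((p ^ (2 * blockDefect p B) : ℕ) : ℝ) := by
    rw [hd]; push_cast; rw [← pow_mul, mul_comm]
  -- the row of `χ₁`
  have r1 := Ct.row_bound hM hx hb.1 hn hxn χ₁ F0 (fun h => h1 (Finset.mem_filter.1 h).2)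
    (fun _ => blockHeight p B (χ₁ : G → ℂ)) (fun ψ hψ => by
      obtain ⟨h2, h3⟩ := Finset.mem_filter.1 hψ
      exact ⟨Ct.Mc_ne_zero hM hx hb hd hχ₁ ((hmem ψ).1 h2) h3,
        Ct.Mc_height_ring hM hx hb hd hχ₁ ψ⟩)
  have q1 := quarter (Ct.NN_pos p (m + 1)) r1
  have r0 := Ct.row_bound hM hx hb.1 hn hxn χ₀ F1 (fun h => (Finset.mem_filter.1 h).2 h0)
    (fun ψ => blockHeight p B (ψ : G → ℂ)) (fun ψ hψ => by
      obtain ⟨h2, h3⟩ := Finset.mem_filter.1 hψ
      refine ⟨?_, ring_conj hM hx hb hd hn hxn ((hmem ψ).1 h2) χ₀⟩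
      intro h4
      apply Ct.Mc_ne_zero hM hx hb hd ((hmem ψ).1 h2) hχ₀ h0
      rw [← Ct.Mc_conj, h4, map_zero])
  have q0 := quarter (Ct.NN_pos p (m + 1)) r0
  rw [hP] at q1 q0
  have hsq : ∀ h : ℕ, h ≠ 0 → (p : ℝ) ^ 2 ≤ ((p : ℝ) ^ h) ^ 2 := by
    intro h hh
    rw [← pow_mul]
    exact pow_le_pow_right₀ hp1 (by omega)
  have s1 : (F0.card : ℝ) * (p : ℝ) ^ 2 ≤ ∑ ψ ∈ F0, ((p : ℝ) ^ blockHeight p B (χ₁ : G → ℂ)) ^ 2 := by
    rw [← nsmul_eq_mul, ← Finset.sum_const]
    exact Finset.sum_le_sum fun ψ _ => hsq _ h1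
  have s0 : (F1.card : ℝ) * (p : ℝ) ^ 2 ≤ ∑ ψ ∈ F1, ((p : ℝ) ^ blockHeight p B (ψ : G → ℂ)) ^ 2 := by
    rw [← nsmul_eq_mul, ← Finset.sum_const]
    exact Finset.sum_le_sum fun ψ hψ => hsq _ (Finset.mem_filter.1 hψ).2
  have f1 : 2 * (((F0.card : ℝ) + F1.card) * (p : ℝ) ^ 2) ≤ ((p ^ (2 * blockDefect p B) : ℕ) : ℝ) := by
    linarith
  have f2 : 2 * ((F0.card + F1.card) * p ^ 2) ≤ p ^ (2 * blockDefect p B) := by exact_mod_cast f1
  rwa [hcard] at f2

end A

theorem two_gen_of_sq {G : Type u} [Group G] [Finite G] {p : ℕ} [hpF : Fact p.Prime] {D : Subgroup G}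
    (hcD : Nat.card D = p ^ 2) {x : G} (hxD : x ∈ D) (hxo : orderOf x = p) :
    (∀ a ∈ D, ∀ b ∈ D, a * b = b * a) ∧ ∃ y ∈ D, ∀ d ∈ D, ∃ i j : ℤ, d = x ^ i * y ^ j := by
  classical
  have habD : ∀ a b : D, a * b = b * a :=
    fun a b => (IsPGroup.isMulCommutative_of_card_eq_prime_sq hcD).is_comm.comm a b
  have hab' : ∀ a ∈ D, ∀ b ∈ D, a * b = b * a := by
    intro a ha b hb
    exact congrArg Subtype.val (habD ⟨a, ha⟩ ⟨b, hb⟩)
  refine ⟨hab', ?_⟩
  letI : CommGroup D := { (inferInstance : Group D) with mul_comm := habD }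
  have hne : ∃ y ∈ D, y ∉ Subgroup.zpowers x := by
    by_contra hcon
    push Not at hcon
    have h1 : D ≤ Subgroup.zpowers x := hcon
    have h2 := Subgroup.card_le_of_le h1
    rw [Nat.card_zpowers, hxo, hcD] at h2
    have := hpF.out.one_lt
    nlinarith
  obtain ⟨y, hyD, hy⟩ := hne
  refine ⟨y, hyD, ?_⟩
  set x' : D := ⟨x, hxD⟩
  set y' : D := ⟨y, hyD⟩
  set K : Subgroup D := Subgroup.closure {x', y'} with hK
  have hxK : x' ∈ K := Subgroup.subset_closure (Set.mem_insert _ _)
  have hyK : y' ∈ K := Subgroup.subset_closure (Set.mem_insert_of_mem _ (Set.mem_singleton _))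
  have hKtop : K = ⊤ := by
    have h1 : Nat.card K ∣ p ^ 2 := by rw [← hcD]; exact Subgroup.card_subgroup_dvd_card K
    obtain ⟨k, hk, hkc⟩ := (Nat.dvd_prime_pow hpF.out).1 h1
    have h2 : Subgroup.zpowers x' ≤ K := by rw [Subgroup.zpowers_le]; exact hxK
    have h3 : Nat.card (Subgroup.zpowers x') = p := by
      rw [Nat.card_zpowers, ← Subgroup.orderOf_coe]; exact hxo
    have h4 : ¬ Nat.card K ≤ p := by
      intro h5
      have h6 := Subgroup.eq_of_le_of_card_ge h2 (by rw [h3]; exact h5)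
      rw [← h6] at hyK
      obtain ⟨j, hj⟩ := hyK
      apply hy
      refine ⟨j, ?_⟩
      have := congrArg (fun t : D => (t : G)) hj
      simpa using this
    have hk2 : k = 2 := by
      rw [hkc] at h4
      interval_cases k
      · rw [pow_zero] at h4; exact absurd hpF.out.one_lt.le h4
      · rw [pow_one] at h4; exact absurd (le_refl p) h4
      · rfl
    rw [← Subgroup.card_eq_iff_eq_top, hkc, hk2, hcD]
  intro d hd
  have h1 : (⟨d, hd⟩ : D) ∈ Subgroup.closure ({x', y'} : Set D) := by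
    rw [← hK, hKtop]; exact Subgroup.mem_top _
  rw [Subgroup.mem_closure_pair] at h1
  obtain ⟨i, j, hij⟩ := h1
  refine ⟨i, j, ?_⟩
  have := congrArg (fun t : D => (t : G)) hij
  simpa using this.symm

/-- S4698 -/
theorem s4698_aux {M : Ideal AlgInt} {p : ℕ} [hpF : Fact p.Prime] (hM : IsPModular p M) (d : ℕ) :
    ∀ (G : Type u) [Group G] [Fintype G] (B : Set (IrrCharacter G)), IsPBlock M B →
      blockDefect p B = d → (d ≤ 2 → Nat.card B ≤ p ^ d) ∧ (3 ≤ d → Nat.card B ≤ p ^ (2 * d - 2)) := by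
  induction d with
  | zero =>
    intro G _ _ B hB hd
    refine ⟨fun _ => ?_, fun h => absurd h (by omega)⟩
    rw [card_defect_zero hM hB hd, pow_zero]
  | succ d ih =>
    intro G _ _ B hB hd
    classical
    have hp1 : 0 < p := hpF.out.pos
    obtain ⟨D, hD⟩ := exists_defectGroup hM hB
    have hcardD := card_defectGroup hM hB hD
    by_cases hpos : ∃ χ₁ ∈ B, blockHeight p B (χ₁ : G → ℂ) ≠ 0
    · obtain ⟨χ₁, hχ₁, h1⟩ := hpos
      haveI : Fintype (Subgroup.centralizer ({(1 : G)} : Set G)) := Fintype.ofFinite _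
      obtain ⟨hx, b, hb, hbd, -⟩ := major_data hM hB hD (x := (1 : G)) D.one_mem
        (fun d _ => by rw [mul_one, one_mul])
      have h2 := pos_height hM hx hb hbd hχ₁ h1
      rw [hd] at h2
      have h3 : p ^ (2 * (d + 1)) = p ^ (2 * d) * p ^ 2 := by rw [← pow_add]; congr 1
      rw [h3, ← mul_assoc] at h2
      have h4 : 2 * Nat.card B ≤ p ^ (2 * d) := Nat.le_of_mul_le_mul_right h2 (pow_pos hp1 2)
      constructor
      · intro h5
        have h6 : p ^ (2 * d) ≤ p ^ (d + 1) := Nat.pow_le_pow_right hp1 (by omega)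
        omega
      · intro h5
        have h6 : 2 * (d + 1) - 2 = 2 * d := by omega
        rw [h6]; omega
    · push Not at hpos
      -- a central element of order `p`
      have hDp : IsPGroup p D := defectGroup_isPGroup hD
      have hD1 : Nontrivial D := by
        rw [← Finite.one_lt_card_iff_nontrivial, hcardD, hd]
        exact Nat.one_lt_pow (Nat.succ_ne_zero d) hpF.out.one_lt
      have hZ : Nontrivial (Subgroup.center D) := hDp.center_nontrivial
      have hZp : p ∣ Nat.card (Subgroup.center D) := by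
        have h1 : IsPGroup p (Subgroup.center D) := hDp.to_subgroup _
        obtain ⟨k, hk⟩ := h1.exists_card_eq
        rcases Nat.eq_zero_or_pos k with h0 | h0
        · rw [h0, pow_zero] at hk
          have := Finite.one_lt_card (α := Subgroup.center D)
          omega
        · rw [hk]; exact dvd_pow_self p h0.ne'
      obtain ⟨x'', hx''⟩ := exists_prime_orderOf_dvd_card' p hZp
      obtain ⟨x', hx'c⟩ := x''
      obtain ⟨x, hxD⟩ := x'
      have hxo : orderOf x = p := by
        rw [← hx'', ← Subgroup.orderOf_coe, ← Subgroup.orderOf_coe]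
      have hxc : ∀ d ∈ D, d * x = x * d := by
        intro e he
        have := Subgroup.mem_center_iff.1 hx'c ⟨e, he⟩
        exact congrArg Subtype.val this
      haveI : Fintype (Subgroup.centralizer ({x} : Set G)) := Fintype.ofFinite _
      obtain ⟨hx, b, hb, hbd, hbar, hbarD, hcE, hrk⟩ := major_data hM hB hD hxD hxc
      haveI : Fintype (Subgroup.centralizer ({x} : Set G) ⧸ Subgroup.zpowers (xK x)) := Fintype.ofFinite _
      have hbarc := card_defectGroup hM hbar hbarD
      have hbard : blockDefect p {ξ : IrrCharacter (Subgroup.centralizer ({x} : Set G) ⧸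
          Subgroup.zpowers (xK x)) | infl (Subgroup.zpowers (xK x)) ξ ∈ b} = d := by
        rw [hbarc, hxo, hcardD, hd, pow_succ, mul_comm] at hcE
        exact Nat.pow_right_injective hpF.out.two_le (Nat.eq_of_mul_eq_mul_right hp1 hcE)
      have h1 := Ct.card_sq_le hM hx hb (Set.toFinite B).toFinset
        (fun χ hχ => ⟨(Set.Finite.mem_toFinset _).1 hχ, hpos χ ((Set.Finite.mem_toFinset _).1 hχ)⟩)
      rw [card_toFinset, hbd, hd, hrk] at h1
      have h2 := rank_le_card p {ξ : IrrCharacter (Subgroup.centralizer ({x} : Set G) ⧸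
          Subgroup.zpowers (xK x)) | infl (Subgroup.zpowers (xK x)) ξ ∈ b}
      have h3 := ih _ _ hbar hbard
      have h4 := h1.trans (Nat.mul_le_mul_left _ h2)
      have h5 : d ≠ 1 → Nat.card B ^ 2 ≤ (p ^ (if d = 0 then 1 else 2 * d)) ^ 2 := by
        intro hd1
        refine h4.trans ?_
        rcases Nat.eq_zero_or_pos d with h0 | h0
        · have h6 := h3.1 (by omega)
          rw [if_pos h0]
          rw [h0, pow_zero] at h6
          calc _ ≤ p ^ (2 * (d + 1)) * 1 := Nat.mul_le_mul_left _ h6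
            _ = _ := by rw [mul_one, h0, ← pow_mul]; 
        · rw [if_neg (by omega)]
          have h6 : Nat.card {ξ : IrrCharacter (Subgroup.centralizer ({x} : Set G) ⧸
              Subgroup.zpowers (xK x)) | infl (Subgroup.zpowers (xK x)) ξ ∈ b} ≤ p ^ (2 * d - 2) := by
            by_cases h7 : d = 2
            · have h8 := h3.1 (by omega)
              rw [h7] at h8 ⊢
              exact h8
            · exact h3.2 (by omega)
          calc _ ≤ p ^ (2 * (d + 1)) * p ^ (2 * d - 2) := Nat.mul_le_mul_left _ h6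
            _ = _ := by rw [← pow_add, ← pow_mul]; congr 1; omega
      constructor
      · intro hd2
        by_cases hd1 : d = 1
        · -- defect two
          subst hd1
          have hcD : Nat.card D = p ^ 2 := by rw [hcardD, hd]
          rw [← hcD]
          obtain ⟨hab', y, hyD, hgen⟩ := two_gen_of_sq hcD hxD hxo
          exact card_two_gen hM hB hD hab' hxD hyD hgen
        · have hd0 : d = 0 := by omega
          have h6 := h5 hd1
          rw [if_pos hd0] at h6
          have h7 := (Nat.pow_le_pow_iff_left (by norm_num)).1 h6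
          rw [hd0]
          simpa using h7
      · intro hd3
        have h6 := h5 (by omega)
        rw [if_neg (by omega)] at h6
        have h7 := (Nat.pow_le_pow_iff_left (by norm_num)).1 h6
        have h8 : 2 * (d + 1) - 2 = 2 * d := by omega
        rw [h8]
        exact h7

end CfsgLib.Qb
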