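import Cfsg.Agent.EqBase
import Cfsg.Agent.LibZas16
import Cfsg.Agent.LibExtraH28
import Cfsg.Agent.S0219
/-!
# Regular solvable linear groups (helper16): generalities
-/
set_option autoImplicit false
set_option linter.all false
open Cfsg
namespace CfsgLib.RL

universe u v

/-- a normal subgroup with abelian quotient of even order gives a subgroup of index two -/
theorem idx2 {G : Type u} [Group G] [Finite G] (K : Subgroup G) [hK : K.Normal] (hc : ∀ x y : G, x * y * x⁻¹ * y⁻¹ ∈ K) (h2 : 2 ∣ K.index) :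
    ∃ N : Subgroup G, N.Normal ∧ N.index = 2 := by
  classical
  haveI := Fact.mk Nat.prime_two
  have hcomm : ∀ a b : G ⧸ K, a * b = b * a := by
    intro a b
    obtain ⟨x, rfl⟩ := QuotientGroup.mk_surjective a
    obtain ⟨y, rfl⟩ := QuotientGroup.mk_surjective b
    have h1 : (QuotientGroup.mk (x * y * x⁻¹ * y⁻¹) : G ⧸ K) = 1 := (QuotientGroup.eq_one_iff _).mpr (hc x y)
    have h2 : (QuotientGroup.mk x : G ⧸ K) * QuotientGroup.mk y = QuotientGroup.mk (x * y * x⁻¹ * y⁻¹) * (QuotientGroup.mk y * QuotientGroup.mk x) := by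
      rw [← QuotientGroup.mk_mul, ← QuotientGroup.mk_mul, ← QuotientGroup.mk_mul]
      congr 1
      group
    rw [h2, h1, one_mul]
  letI : CommGroup (G ⧸ K) := { (inferInstance : Group (G ⧸ K)) with mul_comm := hcomm }
  let φ : G ⧸ K →* G ⧸ K := powMonoidHom 2
  have hφ : ∀ a, φ a = a ^ 2 := fun a => rfl
  obtain ⟨t, ht⟩ := exists_prime_orderOf_dvd_card' (G := G ⧸ K) 2 h2
  have hns : ¬ Function.Surjective φ := by
    intro hs
    have hi := Finite.injective_iff_surjective.mpr hs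
    have h3 : φ t = φ 1 := by
      rw [hφ, hφ, one_pow, ← ht, pow_orderOf_eq_one]
    have h4 := hi h3
    rw [h4, orderOf_one] at ht
    omega
  have hR : φ.range ≠ ⊤ := fun h => hns (MonoidHom.range_eq_top.mp h)
  have hE : IsPGroup 2 ((G ⧸ K) ⧸ φ.range) := by
    intro a
    obtain ⟨x, rfl⟩ := QuotientGroup.mk_surjective a
    refine ⟨1, ?_⟩
    rw [pow_one, ← QuotientGroup.mk_pow, QuotientGroup.eq_one_iff]
    exact ⟨x, rfl⟩
  haveI hnt : Nontrivial ((G ⧸ K) ⧸ φ.range) := by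
    by_contra hcon
    rw [not_nontrivial_iff_subsingleton] at hcon
    apply hR
    rw [eq_top_iff]
    intro x _
    rw [← QuotientGroup.eq_one_iff]
    exact Subsingleton.elim _ _
  obtain ⟨M, hM, -⟩ := IsCoatomic.eq_top_or_exists_le_coatom (⊥ : Subgroup ((G ⧸ K) ⧸ φ.range)) |>.resolve_left bot_ne_top
  have hMi := CfsgLib.ExtraH28.coatom_index hE hM
  let π : G →* (G ⧸ K) ⧸ φ.range := (QuotientGroup.mk' φ.range).comp (QuotientGroup.mk' K)
  have hπ : Function.Surjective π := (QuotientGroup.mk'_surjective _).comp (QuotientGroup.mk'_surjective _)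
  have h5 : (M.comap π).index = 2 := by
    rw [Subgroup.index_comap_of_surjective M hπ, hMi]
  exact ⟨M.comap π, Subgroup.normal_of_index_eq_two h5, h5⟩

/-- automorphisms of a finite field commute -/
theorem ringAut_comm {F : Type u} [Field F] [Finite F] (σ τ : F ≃+* F) (x : F) : σ (τ x) = τ (σ x) := by
  obtain ⟨ζ, hζ⟩ := IsCyclic.exists_generator (α := Fˣ)
  have key : ∀ μ : F ≃+* F, ∃ m : ℤ, ∀ k : ℤ, μ ((ζ ^ k : Fˣ) : F) = ((ζ ^ (m * k) : Fˣ) : F) := by
    intro μ
    obtain ⟨m, hm⟩ := hζ (Units.map (μ : F →* F) ζ)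
    refine ⟨m, fun k => ?_⟩
    have h1 : Units.map (μ : F →* F) (ζ ^ k) = ζ ^ (m * k) := by
      rw [map_zpow, ← hm, zpow_mul]
    exact congrArg Units.val h1
  obtain ⟨m, hm⟩ := key σ
  obtain ⟨n, hn⟩ := key τ
  by_cases hx : x = 0
  · rw [hx, map_zero, map_zero, map_zero]
  · obtain ⟨k, hk⟩ := hζ (Units.mk0 x hx)
    have hxk : x = ((ζ ^ k : Fˣ) : F) := by
      have hk' : ζ ^ k = Units.mk0 x hx := hk
      rw [hk']; rfl
    rw [hxk, hn, hm, hm, hn, ← mul_assoc, ← mul_assoc, mul_comm m n]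

/-- the semilinear form of a group normalizing an irreducible abelian group -/
theorem semilin {A : Type u} [AddCommGroup A] [Finite A] {K : Type v} [Group K] (ρ : K →* AddMonoid.End A) (hc : ∀ x y : K, x * y = y * x)
    (hirr : ∀ B : AddSubgroup A, (∀ x : K, ∀ u ∈ B, ρ x u ∈ B) → B = ⊥ ∨ B = ⊤) (v₀ : A) (hv₀ : v₀ ≠ 0) :
    ∃ (F : Type) (_ : Field F) (_ : Fintype F) (e : A ≃+ F), ∀ (θ : A ≃+ A) (c : K → K), (∀ x u, θ (ρ x u) = ρ (c x) (θ u)) →
      ∃ (a : F) (σ : F ≃+* F), ∀ u, e (θ u) = a * σ (e u) := by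
  classical
  obtain ⟨F, iF, iFt, φ, κ, hφ1, hφκ⟩ := CfsgLib.Zas.exists_field ρ hc hirr v₀ hv₀
  refine ⟨F, iF, iFt, φ.symm, ?_⟩
  intro θ c hθ
  let θ' : F → F := fun z => φ.symm (θ (φ z))
  have hadd : ∀ z w, θ' (z + w) = θ' z + θ' w := by
    intro z w
    show φ.symm (θ (φ (z + w))) = φ.symm (θ (φ z)) + φ.symm (θ (φ w))
    rw [map_add, map_add, map_add]
  have hinj : Function.Injective θ' := by
    intro z w h
    exact φ.injective (θ.injective (φ.symm.injective h))
  have hκ : ∀ x z, θ' (κ x * z) = κ (c x) * θ' z := by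
    intro x z
    apply φ.injective
    show φ (φ.symm (θ (φ (κ x * z)))) = φ (κ (c x) * θ' z)
    rw [AddEquiv.apply_symm_apply, ← hφκ, hθ, ← hφκ]
    show _ = ρ (c x) (φ (φ.symm (θ (φ z))))
    rw [AddEquiv.apply_symm_apply]
  have h0 : θ' 0 = 0 := by
    have h1 := hadd 0 0
    rw [add_zero] at h1
    exact left_eq_add.mp h1
  have hu0 : θ' 1 ≠ 0 := fun h => one_ne_zero (hinj (h.trans h0.symm))
  -- multiplicativity
  let B : AddSubgroup A :=
    { carrier := {u | ∀ z', θ' (φ.symm u * z') * θ' 1 = θ' (φ.symm u) * θ' z'}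
      zero_mem' := by
        intro z'
        rw [map_zero, zero_mul, h0, zero_mul, zero_mul]
      add_mem' := by
        intro u w hu hw z'
        rw [map_add, add_mul, hadd, add_mul, hu z', hw z', hadd, add_mul]
      neg_mem' := by
        intro u hu z'
        have hneg : ∀ z, θ' (-z) = - θ' z := by
          intro z
          have h1 := hadd z (-z)
          rw [add_neg_cancel, h0] at h1
          exact (neg_eq_of_add_eq_zero_right h1.symm).symm
        rw [map_neg, neg_mul, hneg, hneg, neg_mul, neg_mul, hu z'] }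
  have hB : ∀ x : K, ∀ u ∈ B, ρ x u ∈ B := by
    intro x u hu z'
    have h1 : φ.symm (ρ x u) = κ x * φ.symm u := by
      apply φ.injective
      rw [AddEquiv.apply_symm_apply, ← hφκ, AddEquiv.apply_symm_apply]
    have hu' : θ' (φ.symm u * z') * θ' 1 = θ' (φ.symm u) * θ' z' := hu z'
    rw [h1, mul_assoc, hκ, hκ, mul_assoc, mul_assoc, hu']
  have hBt : B = ⊤ := by
    rcases hirr B hB with h | h
    · exfalso
      have h1 : φ 1 ∈ B := by
        intro z'
        rw [AddEquiv.symm_apply_apply, one_mul, mul_comm]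
      rw [h, AddSubgroup.mem_bot] at h1
      rw [hφ1] at h1
      exact hv₀ h1
    · exact h
  have hmul : ∀ z z', θ' (z * z') * θ' 1 = θ' z * θ' z' := by
    intro z z'
    have h1 : φ z ∈ B := by rw [hBt]; trivial
    have h2 := h1 z'
    rwa [AddEquiv.symm_apply_apply] at h2
  let σ : F ≃+* F :=
    { Equiv.ofBijective (fun z => (θ' 1)⁻¹ * θ' z) (Finite.injective_iff_bijective.mp (fun z z' h => hinj (mul_left_cancel₀ (inv_ne_zero hu0) h))) with
      map_mul' := fun z z' => by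
        show (θ' 1)⁻¹ * θ' (z * z') = ((θ' 1)⁻¹ * θ' z) * ((θ' 1)⁻¹ * θ' z')
        have h1 := hmul z z'
        field_simp
        linear_combination h1
      map_add' := fun z z' => by
        show (θ' 1)⁻¹ * θ' (z + z') = (θ' 1)⁻¹ * θ' z + (θ' 1)⁻¹ * θ' z'
        rw [hadd]; ring }
  refine ⟨θ' 1, σ, fun u => ?_⟩
  show φ.symm (θ u) = θ' 1 * ((θ' 1)⁻¹ * θ' (φ.symm u))
  rw [mul_inv_cancel_left₀ hu0]
  show φ.symm (θ u) = φ.symm (θ (φ (φ.symm u)))
  rw [AddEquiv.apply_symm_apply]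

end CfsgLib.RL
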