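import Mathlib
import Cfsg.Prelude.Def_LieRecognition
import Cfsg.Prelude.Def_Solvable
import Cfsg.Agent.LibStrongH12e
import Cfsg.Agent.LibCoprime2
import Cfsg.Agent.LibCores
import Cfsg.Agent.LibSolvCoprime

/-! The split rank one set-up. -/

set_option autoImplicit false

namespace CfsgLib.Rank1H12

open Cfsg Subgroup CfsgLib.Invol CfsgLib.FusionH12 CfsgLib.StrongH12
open scoped Pointwise

section Basic

variable {G Ω : Type*} [Group G] [MulAction G Ω] {a : Ω} {t : G} {Q : Subgroup G}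

local notation "Ga" => MulAction.stabilizer G a
/-- the two point stabilizer -/
abbrev D2 {G Ω : Type*} [Group G] [MulAction G Ω] (a : Ω) (t : G) : Subgroup G :=
  MulAction.stabilizer G a ⊓ MulAction.stabilizer G (t • a)

local notation "DDD" => D2 a t

theorem t_order (hS : IsRankOneSetup G Ω a t Q) : orderOf t = 2 := orderOf_eq_two hS.ne_one hS.mul_self

theorem ta_ne (hS : IsRankOneSetup G Ω a t Q) : t • a ≠ a := fun h =>
  hS.not_mem (MulAction.mem_stabilizer_iff.2 h)

theorem two_trans (hS : IsRankOneSetup G Ω a t Q) {x y z w : Ω} (hxy : x ≠ y) (hzw : z ≠ w) :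
    ∃ g : G, g • x = z ∧ g • y = w :=
  (MulAction.is_two_pretransitive_iff.1 hS.two_transitive) hxy hzw

theorem trans (hS : IsRankOneSetup G Ω a t Q) (x y : Ω) : ∃ g : G, g • x = y := by
  by_cases h : x = y
  · exact ⟨1, by rw [one_smul, h]⟩
  · obtain ⟨g, hg, -⟩ := two_trans hS h (Ne.symm h)
    exact ⟨g, hg⟩

theorem stab_smul {g : G} {x : Ω} : MulAction.stabilizer G (g • x) = cj g (MulAction.stabilizer G x) := by
  ext d
  rw [mem_cj, MulAction.mem_stabilizer_iff, MulAction.mem_stabilizer_iff, mul_smul, mul_smul,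
    inv_smul_eq_iff]

theorem odd_two (hS : IsRankOneSetup G Ω a t Q) {x y : Ω} (hxy : x ≠ y) :
    Odd (Nat.card (MulAction.stabilizer G x ⊓ MulAction.stabilizer G y : Subgroup G)) := by
  obtain ⟨g, h1, h2⟩ := two_trans hS (ta_ne hS).symm hxy
  have h := hS.odd_card
  rw [← h1, ← h2, stab_smul, stab_smul, ← cj_inf, card_cj]
  exact h

theorem card_two (hS : IsRankOneSetup G Ω a t Q) {x y : Ω} (hxy : x ≠ y) :
    Nat.card (MulAction.stabilizer G x ⊓ MulAction.stabilizer G y : Subgroup G) = Nat.card DDD := by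
  obtain ⟨g, h1, h2⟩ := two_trans hS (ta_ne hS).symm hxy
  rw [← h1, ← h2, stab_smul, stab_smul (g := g) (x := t • a), ← cj_inf, card_cj]

variable [Finite G]

theorem strong (hS : IsRankOneSetup G Ω a t Q) : IsStronglyEmbedded Ga := by
  refine ⟨?_, ?_, ?_⟩
  · intro h
    exact hS.not_mem (by rw [h]; trivial)
  · rw [even_iff_two_dvd]
    exact (even_iff_two_dvd.1 hS.even_card).trans (card_dvd_of_le hS.le)
  · intro g hg
    change Odd (Nat.card (Ga ⊓ cj g Ga : Subgroup G))
    rw [← stab_smul]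
    exact odd_two hS (fun h => hg (MulAction.mem_stabilizer_iff.2 h.symm))

theorem finite_Omega (hS : IsRankOneSetup G Ω a t Q) : Finite Ω :=
  Finite.of_surjective (fun g : G => g • a) fun x => trans hS a x

/-- each involution has exactly one fixed point -/
theorem unique_fix' (hS : IsRankOneSetup G Ω a t Q) {i : G} (hi : orderOf i = 2) :
    ∃! x : Ω, i • x = x := by
  have hst := strong hS
  obtain ⟨g, hg⟩ := exists_conj_mem hst hi
  have hfix : ∀ h : G, i • (h • a) = h • a ↔ h⁻¹ * i * h ∈ Ga := by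
    intro h
    rw [MulAction.mem_stabilizer_iff, mul_smul, mul_smul, inv_smul_eq_iff]
  refine ⟨g • a, (hfix g).2 hg, ?_⟩
  intro y hy
  obtain ⟨b, rfl⟩ := trans hS a y
  have hb := (hfix b).1 hy
  have h2 : orderOf (g⁻¹ * i * g) = 2 := by rw [orderOf_conj', hi]
  have h3 : b⁻¹ * g ∈ Ga := by
    apply key' hst hg h2
    simpa [mul_assoc] using hb
  rw [MulAction.mem_stabilizer_iff, mul_smul, inv_smul_eq_iff] at h3
  exact h3.symm

theorem fix_unique (hS : IsRankOneSetup G Ω a t Q) {i : G} (hi : orderOf i = 2) {x y : Ω}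
    (hx : i • x = x) (hy : i • y = y) : x = y := (unique_fix' hS hi).unique hx hy

/-- commuting with an involution means fixing its fixed point -/
theorem fix_of_comm (hS : IsRankOneSetup G Ω a t Q) {i g : G} (hi : orderOf i = 2) {x : Ω}
    (hx : i • x = x) (hg : Commute g i) : g • x = x := by
  apply fix_unique hS hi _ hx
  rw [← mul_smul, ← hg.eq, mul_smul, hx]

/-- `Q` is transitive on the other points -/
theorem Q_trans_aux (hS : IsRankOneSetup G Ω a t Q) {b : Ω} (hb : b ≠ a) :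
    ∃ q ∈ Q, q • (t • a) = b := by
  obtain ⟨g, h1, h2⟩ := two_trans hS (ta_ne hS).symm hb.symm
  have hg : g ∈ Ga := MulAction.mem_stabilizer_iff.2 h1
  rw [← hS.sup_eq] at hg
  have hn : DDD ≤ normalizer (Q : Set G) := by
    intro d hd
    rw [mem_nrm]
    apply Subgroup.eq_of_le_of_card_ge
    · rw [cj_le']
      intro x hx
      exact hS.conj_mem d hd.1 x hx
    · rw [card_cj]
  rw [CfsgLib.SolvCoprime.mem_sup_iff_of_le_normalizer hn] at hg
  obtain ⟨q, hq, d, hd, rfl⟩ := hg
  refine ⟨q, hq, ?_⟩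
  have hd' : d ∈ DDD := hd
  rw [mul_smul, MulAction.mem_stabilizer_iff.1 hd'.2] at h2
  exact h2


theorem Q_free (hS : IsRankOneSetup G Ω a t Q) {b : Ω} (hb : b ≠ a) {q : G} (hq : q ∈ Q)
    (hqb : q • b = b) : q = 1 := by
  obtain ⟨r, hr, rfl⟩ := Q_trans_aux hS hb
  have h1 : r⁻¹ * q * r ∈ (⊥ : Subgroup G) := by
    rw [← hS.inf_eq_bot, mem_inf]
    refine ⟨mul_mem (mul_mem (inv_mem hr) hq) hr, ?_⟩
    rw [MulAction.mem_stabilizer_iff, mul_smul, mul_smul, hqb, inv_smul_smul]
  rw [mem_bot] at h1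
  have h2 : q = r * (r⁻¹ * q * r) * r⁻¹ := by group
  rw [h2, h1]; group

theorem Q_fix (hS : IsRankOneSetup G Ω a t Q) {q : G} (hq : q ∈ Q) : q • a = a :=
  MulAction.mem_stabilizer_iff.1 (hS.le hq)

theorem Q_regular (hS : IsRankOneSetup G Ω a t Q) {b c : Ω} (hb : b ≠ a) (hc : c ≠ a) :
    ∃! x : Q, (x : G) • b = c := by
  obtain ⟨q, hq, hqb⟩ := Q_trans_aux hS hb
  obtain ⟨r, hr, hrc⟩ := Q_trans_aux hS hc
  refine ⟨⟨r * q⁻¹, mul_mem hr (inv_mem hq)⟩, ?_, ?_⟩
  · change (r * q⁻¹) • b = c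
    rw [← hqb, mul_smul, inv_smul_smul, hrc]
  · rintro ⟨y, hy⟩ hyb
    change y • b = c at hyb
    apply Subtype.ext
    change y = r * q⁻¹
    have h1 : (r * q⁻¹)⁻¹ * y = 1 := by
      apply Q_free hS hb (mul_mem (inv_mem (mul_mem hr (inv_mem hq))) hy)
      rw [mul_smul, hyb, inv_smul_eq_iff, ← hrc, ← hqb, mul_smul, inv_smul_smul]
    exact (inv_mul_eq_one.1 h1).symm

theorem card_Omega' (hS : IsRankOneSetup G Ω a t Q) : Nat.card Ω = Nat.card Q + 1 := by
  classical
  haveI := finite_Omega hS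
  haveI := Fintype.ofFinite Ω
  have h1 : Nat.card {b : Ω // b ≠ a} = Nat.card Ω - 1 := by
    rw [Nat.card_eq_fintype_card, Nat.card_eq_fintype_card, Fintype.card_subtype_compl,
      Fintype.card_subtype_eq]
  have h2 : Nat.card Q = Nat.card {b : Ω // b ≠ a} := by
    refine Nat.card_eq_of_bijective (fun q : Q => (⟨q.1 • (t • a), ?_⟩ : {b : Ω // b ≠ a})) ⟨?_, ?_⟩
    · intro h
      have := smul_left_cancel q.1 (h.trans (Q_fix hS q.2).symm)
      exact ta_ne hS this
    · intro q r hqr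
      have h : q.1 • (t • a) = r.1 • (t • a) := congrArg Subtype.val hqr
      have h3 : r.1⁻¹ * q.1 = 1 := by
        apply Q_free hS (ta_ne hS) (mul_mem (inv_mem r.2) q.2)
        rw [mul_smul, h, inv_smul_smul]
      exact Subtype.ext (inv_mul_eq_one.1 h3).symm
    · rintro ⟨b, hb⟩
      obtain ⟨q, hq, hqb⟩ := Q_trans_aux hS hb
      exact ⟨⟨q, hq⟩, Subtype.ext hqb⟩
  have h3 : 0 < Nat.card Ω := by
    haveI : Nonempty Ω := ⟨a⟩
    exact Nat.card_pos
  omega

theorem card_Ga (hS : IsRankOneSetup G Ω a t Q) : Nat.card Ga = Nat.card Q * Nat.card (D2 a t) := by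
  have hn : D2 a t ≤ normalizer (Q : Set G) := by
    intro d hd
    rw [mem_nrm]
    apply Subgroup.eq_of_le_of_card_ge
    · rw [cj_le']
      intro x hx
      exact hS.conj_mem d hd.1 x hx
    · rw [card_cj]
  have h := CfsgLib.SolvCoprime.card_sup_of_le_normalizer hn
  rw [hS.sup_eq] at h
  have h2 : Q ⊓ D2 a t = ⊥ := by
    rw [eq_bot_iff, ← hS.inf_eq_bot]
    exact le_inf inf_le_left (inf_le_right.trans inf_le_right)
  rw [h2, card_bot, mul_one] at h
  exact h

theorem card_G' (hS : IsRankOneSetup G Ω a t Q) :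
    Nat.card G = Nat.card Q * Nat.card (D2 a t) * (Nat.card Q + 1) := by
  haveI : MulAction.IsPretransitive G Ω := ⟨trans hS⟩
  haveI := finite_Omega hS
  have h1 : Nat.card Ω = (MulAction.stabilizer G a).index := by
    rw [MulAction.index_stabilizer_of_transitive]
  rw [← Subgroup.card_mul_index Ga, ← h1, card_Omega' hS, card_Ga hS]

theorem exists_sylow_le_Q (hS : IsRankOneSetup G Ω a t Q) : ∃ P : Sylow 2 G, (P : Subgroup G) ≤ Q := by
  haveI : Fact (Nat.Prime 2) := ⟨Nat.prime_two⟩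
  obtain ⟨P⟩ : Nonempty (Sylow 2 Q) := inferInstance
  have hP : IsPGroup 2 ((P : Subgroup Q).map Q.subtype) := P.2.map _
  have hidx : ¬ 2 ∣ ((P : Subgroup Q).map Q.subtype).index := by
    have h1 : ((P : Subgroup Q).map Q.subtype).relIndex Q * Q.index =
        ((P : Subgroup Q).map Q.subtype).index := relIndex_mul_index (map_subtype_le _)
    rw [← h1]
    have h2 : ((P : Subgroup Q).map Q.subtype).relIndex Q = (P : Subgroup Q).index := by
      rw [relIndex, subgroupOf, comap_map_eq_self_of_injective Q.subtype_injective]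
    have h3 : Q.index = Nat.card (D2 a t) * (Nat.card Q + 1) := by
      have := card_G' hS
      rw [← Subgroup.card_mul_index Q] at this
      have hpos : 0 < Nat.card Q := Nat.card_pos
      apply Nat.eq_of_mul_eq_mul_left hpos
      rw [this]; ring
    rw [h2, h3]
    intro h
    have hp := Nat.prime_two
    rcases (hp.dvd_mul).1 h with h | h
    · exact P.not_dvd_index h
    · rcases (hp.dvd_mul).1 h with h | h
      · have := hS.odd_card
        rw [← Nat.not_even_iff_odd, even_iff_two_dvd] at this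
        exact this h
      · have he := hS.even_card
        rw [even_iff_two_dvd] at he
        omega
  obtain ⟨S, hS'⟩ := hP.exists_le_sylow
  refine ⟨S, ?_⟩
  have h4 : (S : Subgroup G) = (P : Subgroup Q).map Q.subtype := by
    have h5 := relIndex_mul_index hS'
    have h6 : ((P : Subgroup Q).map Q.subtype).relIndex S = 1 := by
      have h7 : IsPGroup 2 S := S.2
      obtain ⟨n, hn⟩ := S.2.exists_card_eq
      have h8 : ((P : Subgroup Q).map Q.subtype).relIndex S ∣ 2 ^ n := by
        rw [← hn]; exact relIndex_dvd_card _ _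
      obtain ⟨k, -, hk⟩ := (Nat.dvd_prime_pow Nat.prime_two).1 h8
      rcases k with _ | k
      · simpa using hk
      · exfalso
        apply hidx
        rw [← h5, hk]
        exact (dvd_pow_self 2 (Nat.succ_ne_zero k)).mul_right _
    exact le_antisymm (relIndex_eq_one.1 h6) hS'
  rw [h4]
  exact map_subtype_le _

theorem involution_mem_Q (hS : IsRankOneSetup G Ω a t Q) {s : G} (hs : s ∈ Ga) (hs2 : orderOf s = 2) :
    s ∈ Q := by
  haveI : Fact (Nat.Prime 2) := ⟨Nat.prime_two⟩
  -- some involution of `Q`, and all involutions of `Ga` are conjugate in `Ga`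
  obtain ⟨z, hz, hz2⟩ := exists_involution_mem hS.even_card
  obtain ⟨d, hd, hds⟩ := conj_transitive (strong hS) (t_order hS) hS.not_mem hz2 (hS.le hz) hs2 hs
  rw [← hds]
  exact hS.conj_mem d (mem_inf.1 hd).1 z hz

theorem bruhat (hS : IsRankOneSetup G Ω a t Q) {g : G} (hg : g ∉ Ga) :
    ∃! p : G × G, p.1 ∈ Ga ∧ p.2 ∈ Q ∧ g = p.1 * t * p.2 := by
  have hga : g⁻¹ • a ≠ a := by
    intro h
    apply hg
    rw [MulAction.mem_stabilizer_iff]
    rw [inv_smul_eq_iff] at h; exact h.symm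
  obtain ⟨⟨x, hx⟩, hx1, hx2⟩ := Q_regular hS hga (ta_ne hS)
  change x • g⁻¹ • a = t • a at hx1
  have htt : t⁻¹ = t := inv_eq (t_order hS)
  have key : ∀ y ∈ Q, y • g⁻¹ • a = t • a ↔ g * y⁻¹ * t⁻¹ ∈ Ga := by
    intro y hy
    rw [← inv_mem_iff (x := g * y⁻¹ * t⁻¹), MulAction.mem_stabilizer_iff]
    have : (g * y⁻¹ * t⁻¹)⁻¹ = t * (y * g⁻¹) := by group
    rw [this, mul_smul, mul_smul]
    nth_rw 2 [← htt]
    constructor
    · intro h
      rw [h, htt, smul_smul, mul_self (t_order hS), one_smul]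
    · intro h
      have := congrArg (fun z => t • z) h
      simp only [smul_smul] at this
      rw [← mul_assoc, htt, mul_self (t_order hS), one_mul] at this
      rw [smul_smul]
      exact this
  refine ⟨(g * x⁻¹ * t⁻¹, x), ⟨(key x hx).1 hx1, hx, by group⟩, ?_⟩
  rintro ⟨p, y⟩ ⟨hp, hy, hgp⟩
  simp only at hp hy hgp
  have h1 : g * y⁻¹ * t⁻¹ = p := by rw [hgp]; group
  have h2 : y • g⁻¹ • a = t • a := by
    rw [key y hy, h1]; exact hp
  have h3 := hx2 ⟨y, hy⟩ h2
  have h4 : y = x := congrArg Subtype.val h3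
  subst h4
  rw [h1]

end Basic

end CfsgLib.Rank1H12
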