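import Mathlib
import Cfsg.Agent.LibRank1H12

/-! The split rank one set-up, part 2. -/

set_option autoImplicit false

namespace CfsgLib.Rank1H12

open Cfsg Subgroup CfsgLib.Invol CfsgLib.FusionH12 CfsgLib.StrongH12
open scoped Pointwise

/-- square roots in odd order elements -/
theorem exists_sqrt {G : Type*} [Group G] {e : G} (ho : Odd (orderOf e)) :
    ∃ n : ℕ, (e ^ n) ^ 2 = e := by
  obtain ⟨k, hk⟩ := ho
  refine ⟨k + 1, ?_⟩
  rw [← pow_mul, show (k + 1) * 2 = (2 * k + 1) + 1 by ring, pow_add, pow_one, ← hk,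
    pow_orderOf_eq_one, one_mul]

theorem sq_inj {G : Type*} [Group G] {e f : G} (he : Odd (orderOf e)) (hf : Odd (orderOf f))
    (h : e ^ 2 = f ^ 2) : e = f := by
  obtain ⟨k, hk⟩ := he
  obtain ⟨l, hl⟩ := hf
  have h1 : (2 * k + 1) * (2 * l + 1) = 2 * (2 * k * l + k + l) + 1 := by ring
  have h2 : e = (e ^ 2) ^ (2 * k * l + k + l + 1) := by
    rw [← pow_mul, show 2 * (2 * k * l + k + l + 1) = (2 * k + 1) * (2 * l + 1) + 1 by ring,
      pow_succ, pow_mul, ← hk, pow_orderOf_eq_one, one_pow, one_mul]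
  have h3 : f = (f ^ 2) ^ (2 * k * l + k + l + 1) := by
    rw [← pow_mul, show 2 * (2 * k * l + k + l + 1) = (2 * l + 1) * (2 * k + 1) + 1 by ring,
      pow_succ, pow_mul, ← hl, pow_orderOf_eq_one, one_pow, one_mul]
  rw [h2, h3, h]

/-- an involution normalizing an odd order subgroup: factorization -/
theorem factor {M : Type*} [Group M] [Finite M] {t : M} (ht : orderOf t = 2) {X : Subgroup M}
    (hodd : Odd (Nat.card X)) (hnorm : ∀ x ∈ X, t * x * t⁻¹ ∈ X) {x : M} (hx : x ∈ X) :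
    ∃ f ∈ X, t * f * t⁻¹ = f⁻¹ ∧ Commute (x * f⁻¹) t := by
  have htt : t⁻¹ = t := inv_eq ht
  have hy2 : orderOf (x⁻¹ * t * x) = 2 := by rw [orderOf_conj', ht]
  set e := t * (x⁻¹ * t * x) with he
  have heX : e ∈ X := by
    have : e = (t * x⁻¹ * t⁻¹) * x := by rw [he, htt]; group
    rw [this]
    exact mul_mem (hnorm _ (inv_mem hx)) hx
  obtain ⟨n, hn⟩ := exists_sqrt (odd_order hodd heX)
  have hinv := inverts_pow (left_inverts ht hy2) n
  rw [← he] at hinv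
  refine ⟨e ^ n, pow_mem heX n, hinv, ?_⟩
  -- f⁻¹ t f = t f² = t e = x⁻¹ t x
  have h1 : (e ^ n)⁻¹ * t * e ^ n = x⁻¹ * t * x := by
    have h2 : (e ^ n)⁻¹ * t = t * e ^ n := by
      rw [← hinv]; group
    rw [h2, mul_assoc, ← pow_two, hn, he, ← mul_assoc, mul_self ht, one_mul]
  change x * (e ^ n)⁻¹ * t = t * (x * (e ^ n)⁻¹)
  have h3 : (e ^ n)⁻¹ * t = (x⁻¹ * t * x) * (e ^ n)⁻¹ := by
    rw [← h1]; group
  calc x * (e ^ n)⁻¹ * t = x * ((e ^ n)⁻¹ * t) := by group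
    _ = x * ((x⁻¹ * t * x) * (e ^ n)⁻¹) := by rw [h3]
    _ = t * (x * (e ^ n)⁻¹) := by group

theorem factor_unique {M : Type*} [Group M] [Finite M] {t : M} (ht : orderOf t = 2) {X : Subgroup M}
    (hodd : Odd (Nat.card X)) {c f c' f' : M} (hf : f ∈ X)
    (hf' : f' ∈ X) (hct : Commute c t) (hct' : Commute c' t) (hft : t * f * t⁻¹ = f⁻¹)
    (hft' : t * f' * t⁻¹ = f'⁻¹) (h : c * f = c' * f') : c = c' ∧ f = f' := by
  have h0 : ∀ c f : M, Commute c t → t * f * t⁻¹ = f⁻¹ → t * ((c * f)⁻¹ * t * (c * f)) = f ^ 2 := by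
    intro c f hc hf
    have h1 : (c * f)⁻¹ * t * (c * f) = f⁻¹ * t * f := by
      have : c⁻¹ * t * c = t := by rw [mul_assoc, ← hc.eq, inv_mul_cancel_left]
      calc (c * f)⁻¹ * t * (c * f) = f⁻¹ * (c⁻¹ * t * c) * f := by group
        _ = _ := by rw [this]
    rw [h1]
    have h2 : f⁻¹ * t = t * f := by rw [← hf]; group
    rw [h2, mul_assoc, ← mul_assoc, mul_self ht, one_mul, pow_two]
  have h1 := h0 c f hct hft
  have h2 := h0 c' f' hct' hft'
  rw [h, h2] at h1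
  have h3 := sq_inj (odd_order hodd hf') (odd_order hodd hf) h1
  subst h3
  exact ⟨mul_right_cancel h, rfl⟩

section Two

variable {G Ω : Type*} [Group G] [MulAction G Ω] {a : Ω} {t : G} {Q : Subgroup G} [Finite G]

local notation "Ga" => MulAction.stabilizer G a

theorem normalizes_D (hS : IsRankOneSetup G Ω a t Q) : ∀ x ∈ D2 a t, t * x * t⁻¹ ∈ D2 a t := by
  intro x hx
  obtain ⟨h1, h2⟩ := mem_inf.1 hx
  have htt : t⁻¹ = t := inv_eq (t_order hS)
  have ht2 := mul_self (t_order hS)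
  rw [mem_inf, MulAction.mem_stabilizer_iff, MulAction.mem_stabilizer_iff]
  rw [MulAction.mem_stabilizer_iff] at h1 h2
  constructor
  · rw [htt, mul_smul, mul_smul, h2, smul_smul, ht2, one_smul]
  · rw [htt, mul_smul, mul_smul, smul_smul t t, ht2, one_smul, h1]

theorem mem_inverted {x : G} : x ∈ invertedBy (D2 a t) t ↔ x ∈ D2 a t ∧ t * x * t⁻¹ = x⁻¹ := Iff.rfl

theorem mem_involutionsIn {x : G} : x ∈ involutionsIn (Ga : Set G) ↔ x ∈ Ga ∧ orderOf x = 2 := by
  unfold involutionsIn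
  rw [Set.mem_setOf_eq, CfsgLib.Invol.orderOf_eq_two_iff, SetLike.mem_coe]

/-- the involutions swapping `a` and `t a` are the `t * k` -/
theorem swap_iff (hS : IsRankOneSetup G Ω a t Q) {i : G} :
    (orderOf i = 2 ∧ i • a = t • a) ↔ t * i ∈ invertedBy (D2 a t) t := by
  have htt : t⁻¹ = t := inv_eq (t_order hS)
  have ht2 := mul_self (t_order hS)
  rw [mem_inverted, mem_inf, MulAction.mem_stabilizer_iff, MulAction.mem_stabilizer_iff]
  constructor
  · rintro ⟨hi, hia⟩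
    refine ⟨⟨?_, ?_⟩, ?_⟩
    · rw [mul_smul, hia, smul_smul, ht2, one_smul]
    · rw [← hia, mul_smul, smul_smul i i, mul_self hi, one_smul, hia]
    · rw [← mul_assoc, ht2, one_mul, mul_inv_rev, inv_eq hi]
  · rintro ⟨⟨h1, h2⟩, h3⟩
    have hia : i • a = t • a := by
      rw [mul_smul] at h1
      calc i • a = t • t • i • a := by rw [smul_smul t t, ht2, one_smul]
        _ = t • a := by rw [h1]
    refine ⟨orderOf_eq_two ?_ ?_, hia⟩
    · rintro rfl
      rw [one_smul] at hia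
      exact ta_ne hS hia.symm
    · rw [← mul_assoc, ht2, one_mul, htt, mul_inv_rev, htt] at h3
      have h4 : i = i⁻¹ := mul_right_cancel h3
      nth_rw 1 [h4]; rw [inv_mul_cancel]

theorem card_K (hS : IsRankOneSetup G Ω a t Q) :
    Nat.card (invertedBy (D2 a t) t) = Nat.card (involutionsIn (Ga : Set G)) := by
  have ht2 := mul_self (t_order hS)
  have h1 := count_eq (strong hS) (x := (QuotientGroup.mk 1 : G ⧸ Ga)) (y := QuotientGroup.mk t) (by
    intro h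
    rw [QuotientGroup.eq] at h
    simp only [inv_one, one_mul] at h
    exact hS.not_mem h)
  have h2 : Nat.card {i : G // orderOf i = 2 ∧ i • (QuotientGroup.mk 1 : G ⧸ Ga) = QuotientGroup.mk t} =
      Nat.card (invertedBy (D2 a t) t) := by
    refine Nat.card_congr
      { toFun := fun i => ⟨t * i.1, (swap_iff hS).1 ⟨i.2.1, ?_⟩⟩
        invFun := fun k => ⟨t * k.1, ?_, ?_⟩
        left_inv := ?_
        right_inv := ?_ }
    · have := smul_mk_mem.1 i.2.2
      rw [MulAction.mem_stabilizer_iff, mul_smul, inv_smul_eq_iff] at this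
      exact this.symm
    · have := (swap_iff hS (i := t * k.1)).2 (by rw [← mul_assoc, ht2, one_mul]; exact k.2)
      exact this.1
    · have := (swap_iff hS (i := t * k.1)).2 (by rw [← mul_assoc, ht2, one_mul]; exact k.2)
      rw [smul_mk_mem, MulAction.mem_stabilizer_iff, mul_smul, inv_smul_eq_iff]
      exact this.2.symm
    · intro i
      ext
      simp [← mul_assoc, ht2]
    · intro k
      ext
      simp [← mul_assoc, ht2]
  have h3 : Nat.card {i : G // orderOf i = 2 ∧ i ∈ Ga} = Nat.card (involutionsIn (Ga : Set G)) :=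
    Nat.card_congr (Equiv.subtypeEquivRight fun i => by
      rw [mem_involutionsIn]; exact and_comm)
  rw [← h2, h1, h3]

theorem K_conj_inj (hS : IsRankOneSetup G Ω a t Q) {s k l : G} (hs : s ∈ Ga) (hs2 : orderOf s = 2)
    (hk : k ∈ invertedBy (D2 a t) t) (hl : l ∈ invertedBy (D2 a t) t)
    (h : k⁻¹ * s * k = l⁻¹ * s * l) : k = l := by
  have ht2 := mul_self (t_order hS)
  have hinvmem : ∀ k ∈ invertedBy (D2 a t) t, k⁻¹ ∈ invertedBy (D2 a t) t := by
    rintro k ⟨h1, h2⟩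
    refine ⟨inv_mem h1, ?_⟩
    calc t * k⁻¹ * t⁻¹ = (t * k * t⁻¹)⁻¹ := by group
      _ = k⁻¹⁻¹ := by rw [h2]
  have h1 := (swap_iff hS (i := t * k⁻¹)).2 (by rw [← mul_assoc, ht2, one_mul]; exact hinvmem k hk)
  have h2 := (swap_iff hS (i := t * l⁻¹)).2 (by rw [← mul_assoc, ht2, one_mul]; exact hinvmem l hl)
  have h3 : t * k⁻¹ = t * l⁻¹ := by
    refine conj_inj (strong hS) hS.not_mem hs hs2 h1.1 h2.1 ?_ ?_
    · rw [MulAction.mem_stabilizer_iff, mul_smul, inv_smul_eq_iff]; exact h1.2.symm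
    · calc t * k⁻¹ * s * (t * k⁻¹)⁻¹ = t * (k⁻¹ * s * k) * t⁻¹ := by group
        _ = t * (l⁻¹ * s * l) * t⁻¹ := by rw [h]
        _ = t * l⁻¹ * s * (t * l⁻¹)⁻¹ := by group
  exact inv_injective (mul_left_cancel h3)

theorem K_trans (hS : IsRankOneSetup G Ω a t Q) {s s' : G} (hs : s ∈ Ga) (hs2 : orderOf s = 2)
    (hs' : s' ∈ Ga) (hs2' : orderOf s' = 2) :
    ∃ k ∈ invertedBy (D2 a t) t, k⁻¹ * s * k = s' := by
  let f : invertedBy (D2 a t) t → involutionsIn (Ga : Set G) := fun k => ⟨k.1⁻¹ * s * k.1, by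
    rw [mem_involutionsIn]
    refine ⟨mul_mem (mul_mem (inv_mem k.2.1.1) hs) k.2.1.1, ?_⟩
    rw [orderOf_conj', hs2]⟩
  have hinj : Function.Injective f := fun k l h =>
    Subtype.ext (K_conj_inj hS hs hs2 k.2 l.2 (congrArg Subtype.val h))
  obtain ⟨k, hk⟩ := ((Nat.bijective_iff_injective_and_card f).2 ⟨hinj, card_K hS⟩).2
    ⟨s', mem_involutionsIn.2 ⟨hs', hs2'⟩⟩
  exact ⟨k.1, k.2, congrArg Subtype.val hk⟩

/-- the structure equation -/
theorem structure_eq (hS : IsRankOneSetup G Ω a t Q) :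
    ∃! p : G × G, p.1 ∈ involutionsIn (Ga : Set G) ∧ p.2 ∈ Q ∧ t * p.1 * t = p.2⁻¹ * t * p.2 := by
  have ht := t_order hS
  have ht2 := mul_self ht
  have htt : t⁻¹ = t := inv_eq ht
  obtain ⟨b, hb, -⟩ := unique_fix' hS ht
  have hb' : t • b = b := hb
  have hba : b ≠ a := by
    rintro rfl
    exact ta_ne hS hb'
  obtain ⟨⟨r, hr⟩, hr1, hr2⟩ := Q_regular hS (ta_ne hS) hba
  have hr1' : r • t • a = b := hr1
  -- any solution has the same `r`
  have key : ∀ s ∈ Ga, ∀ q ∈ Q, t * s * t = q⁻¹ * t * q → q • t • a = b := by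
    intro s hs q hq h
    have h1 : (t * s * t) • (t • a) = t • a := by
      rw [mul_smul, smul_smul t t, ht2, one_smul, mul_smul, MulAction.mem_stabilizer_iff.1 hs]
    rw [h, mul_smul, mul_smul, inv_smul_eq_iff] at h1
    exact fix_unique hS ht h1 hb'
  refine ⟨(t * (r⁻¹ * t * r) * t, r), ⟨?_, hr, ?_⟩, ?_⟩
  · rw [mem_involutionsIn]
    refine ⟨?_, ?_⟩
    · rw [MulAction.mem_stabilizer_iff, mul_smul, mul_smul, mul_smul, mul_smul, hr1', hb',
        inv_smul_eq_iff.2 hr1'.symm, smul_smul, ht2, one_smul]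
    · change orderOf (t * (r⁻¹ * t * r) * t) = 2
      have h := orderOf_conj t (r⁻¹ * t * r)
      rw [htt] at h
      rw [h, orderOf_conj', ht]
  · change t * (t * (r⁻¹ * t * r) * t) * t = r⁻¹ * t * r
    calc t * (t * (r⁻¹ * t * r) * t) * t = (t * t) * (r⁻¹ * t * r) * (t * t) := by group
      _ = _ := by rw [ht2]; group
  · rintro ⟨s, q⟩ ⟨hs, hq, h⟩
    simp only at hs hq h
    have h1 := key s (mem_involutionsIn.1 hs).1 q hq h
    have h2 := hr2 ⟨q, hq⟩ h1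
    have h3 : q = r := congrArg Subtype.val h2
    subst h3
    have h4 : s = t * (q⁻¹ * t * q) * t := by
      rw [← h]
      calc s = (t * t) * s * (t * t) := by rw [ht2]; group
        _ = _ := by group
    rw [← h4]

/-- centralizers act on fixed points, `Q` part -/
theorem Q_cent (hS : IsRankOneSetup G Ω a t Q) {X : Set G} (hX : ∀ x ∈ X, x • a = a) {c d : Ω}
    (hc : c ≠ a) (hd : d ≠ a) (hXc : ∀ x ∈ X, x • c = c) (hXd : ∀ x ∈ X, x • d = d) :
    ∃ q ∈ centralizer X ⊓ Q, q • c = d := by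
  obtain ⟨⟨q, hq⟩, hq1, hq2⟩ := Q_regular hS hc hd
  refine ⟨q, mem_inf.2 ⟨?_, hq⟩, hq1⟩
  rw [mem_centralizer_iff]
  intro x hx
  have hx1 : x ∈ Ga := MulAction.mem_stabilizer_iff.2 (hX x hx)
  have h1 := hq2 ⟨x * q * x⁻¹, hS.conj_mem x hx1 q hq⟩ (by
    change (x * q * x⁻¹) • c = d
    have : x⁻¹ • c = c := by rw [inv_smul_eq_iff, hXc x hx]
    have hq1' : q • c = d := hq1
    rw [mul_smul, mul_smul, this, hq1', hXd x hx])
  have h2 : x * q * x⁻¹ = q := congrArg Subtype.val h1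
  exact mul_inv_eq_iff_eq_mul.1 h2

/-- any point can be moved to the base point -/
theorem cent_trans (hS : IsRankOneSetup G Ω a t Q) {X : Set G} {b c d : Ω} (hXb : ∀ x ∈ X, x • b = b)
    (hcb : c ≠ b) (hdb : d ≠ b) (hXc : ∀ x ∈ X, x • c = c) (hXd : ∀ x ∈ X, x • d = d) :
    ∃ q ∈ centralizer X, q • b = b ∧ q • c = d := by
  obtain ⟨g, hg⟩ := trans hS b a
  have hfix : ∀ z : Ω, (∀ x ∈ X, x • z = z) → ∀ x ∈ (fun x => g * x * g⁻¹) '' X, x • (g • z) = g • z := by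
    rintro z hz _ ⟨x, hx, rfl⟩
    simp only [mul_smul, inv_smul_smul, hz x hx]
  obtain ⟨q, hq, hqc⟩ := Q_cent hS (X := (fun x => g * x * g⁻¹) '' X)
    (by have := hfix b hXb; rwa [hg] at this) (c := g • c) (d := g • d)
    (fun h => hcb (smul_left_cancel g (h.trans hg.symm)))
    (fun h => hdb (smul_left_cancel g (h.trans hg.symm))) (hfix c hXc) (hfix d hXd)
  refine ⟨g⁻¹ * q * g, ?_, ?_, ?_⟩
  · rw [mem_centralizer_iff]
    intro x hx
    have h1 := (mem_centralizer_iff.1 hq.1) (g * x * g⁻¹) ⟨x, hx, rfl⟩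
    calc x * (g⁻¹ * q * g) = g⁻¹ * ((g * x * g⁻¹) * q) * g := by group
      _ = g⁻¹ * (q * (g * x * g⁻¹)) * g := by rw [h1]
      _ = _ := by group
  · rw [mul_smul, mul_smul, hg, Q_fix hS hq.2, ← hg, inv_smul_smul]
  · rw [mul_smul, mul_smul, hqc, inv_smul_smul]

theorem cent_two_trans (hS : IsRankOneSetup G Ω a t Q) {X : Set G}
    (h3 : ∃ b c d : Ω, b ≠ c ∧ b ≠ d ∧ c ≠ d ∧ ∀ x ∈ X, x • b = b ∧ x • c = c ∧ x • d = d)
    {b₁ b₂ c₁ c₂ : Ω} (hX : ∀ x ∈ X, x • b₁ = b₁ ∧ x • b₂ = b₂ ∧ x • c₁ = c₁ ∧ x • c₂ = c₂)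
    (hb : b₁ ≠ b₂) (hc : c₁ ≠ c₂) : ∃ g ∈ centralizer X, g • b₁ = c₁ ∧ g • b₂ = c₂ := by
  obtain ⟨b, c, d, hbc, hbd, hcd, hfix⟩ := h3
  -- transitivity on fixed points
  have htr : ∀ x y : Ω, (∀ g ∈ X, g • x = x) → (∀ g ∈ X, g • y = y) →
      ∃ g ∈ centralizer X, g • x = y := by
    intro x y hx hy
    by_cases hxy : x = y
    · exact ⟨1, one_mem _, by rw [one_smul, hxy]⟩
    · -- choose a third fixed point
      obtain ⟨z, hz, hzx, hzy⟩ : ∃ z : Ω, (∀ g ∈ X, g • z = z) ∧ z ≠ x ∧ z ≠ y := by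
        by_contra hne
        push Not at hne
        have k1 : ∀ z : Ω, (∀ g ∈ X, g • z = z) → z = x ∨ z = y := fun z hz => by
          by_cases hzx : z = x
          · exact Or.inl hzx
          · exact Or.inr (hne z hz hzx)
        rcases k1 b (fun g hg => (hfix g hg).1) with h1 | h1 <;>
        rcases k1 c (fun g hg => (hfix g hg).2.1) with h2 | h2 <;>
        rcases k1 d (fun g hg => (hfix g hg).2.2) with h3 | h3
        · exact hbc (h1.trans h2.symm)
        · exact hbc (h1.trans h2.symm)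
        · exact hbd (h1.trans h3.symm)
        · exact hcd (h2.trans h3.symm)
        · exact hcd (h2.trans h3.symm)
        · exact hbd (h1.trans h3.symm)
        · exact hbc (h1.trans h2.symm)
        · exact hbc (h1.trans h2.symm)
      obtain ⟨q, hq, -, hqx⟩ := cent_trans hS hz hzx.symm hzy.symm hx hy
      exact ⟨q, hq, hqx⟩
  obtain ⟨g, hg, hgb⟩ := htr b₁ c₁ (fun x hx => (hX x hx).1) (fun x hx => (hX x hx).2.2.1)
  have h4 : ∀ x ∈ X, x • (g • b₂) = g • b₂ := by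
    intro x hx
    rw [smul_smul, (mem_centralizer_iff.1 hg) x hx, mul_smul, (hX x hx).2.1]
  obtain ⟨q, hq, hq1, hq2⟩ := cent_trans hS (b := c₁) (c := g • b₂) (d := c₂)
    (fun x hx => (hX x hx).2.2.1) (fun h => hb (smul_left_cancel g (hgb.trans h.symm)))
    hc.symm h4 (fun x hx => (hX x hx).2.2.2)
  exact ⟨q * g, mul_mem hq hg, by rw [mul_smul, hgb, hq1], by rw [mul_smul, hq2]⟩

/-- an involution centralizing `X` and swapping `b`, `c` -/
theorem exists_cent_swap (hS : IsRankOneSetup G Ω a t Q) {X : Set G}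
    (h3 : ∃ b c d : Ω, b ≠ c ∧ b ≠ d ∧ c ≠ d ∧ ∀ x ∈ X, x • b = b ∧ x • c = c ∧ x • d = d)
    {b c : Ω} (hXb : ∀ x ∈ X, x • b = b) (hXc : ∀ x ∈ X, x • c = c) (hbc : b ≠ c) :
    ∃ i ∈ centralizer X, orderOf i = 2 ∧ i • b = c ∧ i • c = b := by
  obtain ⟨g, hg, h1, h2⟩ := cent_two_trans hS h3 (b₁ := b) (b₂ := c) (c₁ := c) (c₂ := b)
    (fun x hx => ⟨hXb x hx, hXc x hx, hXc x hx, hXb x hx⟩) hbc hbc.symm
  -- g² lies in the two point stabilizer, of odd order
  have hg2 : g ^ 2 ∈ MulAction.stabilizer G b ⊓ MulAction.stabilizer G c := by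
    rw [mem_inf, MulAction.mem_stabilizer_iff, MulAction.mem_stabilizer_iff, pow_two, mul_smul,
      mul_smul, h1, h2]
    exact ⟨rfl, h1⟩
  have ho := odd_order (odd_two hS hbc) hg2
  obtain ⟨m, hm⟩ := ho
  set n := orderOf (g ^ 2) with hn
  have hgn : (g ^ n) ^ 2 = 1 := by
    rw [← pow_mul, mul_comm, pow_mul, hn, pow_orderOf_eq_one]
  have hfix : ∀ k : ℕ, g ^ (2 * k) • b = b ∧ g ^ (2 * k) • c = c := by
    intro k
    rw [pow_mul]
    have := pow_mem hg2 k
    exact ⟨MulAction.mem_stabilizer_iff.1 (mem_inf.1 this).1,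
      MulAction.mem_stabilizer_iff.1 (mem_inf.1 this).2⟩
  have e1 : g ^ n • b = c := by
    rw [hm, pow_succ', mul_smul, (hfix m).1, h1]
  have e2 : g ^ n • c = b := by
    rw [hm, pow_succ', mul_smul, (hfix m).2, h2]
  refine ⟨g ^ n, pow_mem hg n, orderOf_eq_two ?_ (by rw [← pow_two]; exact hgn), e1, e2⟩
  intro h
  rw [h, one_smul] at e1
  exact hbc e1

/-- the number of fixed points is odd when it is at least three -/
theorem odd_fix (hS : IsRankOneSetup G Ω a t Q) {X : Set G} (hXa : ∀ x ∈ X, x • a = a)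
    (h3 : ∃ b c d : Ω, b ≠ c ∧ b ≠ d ∧ c ≠ d ∧ ∀ x ∈ X, x • b = b ∧ x • c = c ∧ x • d = d) :
    Even (Nat.card (centralizer X ⊓ Q : Subgroup G)) := by
  classical
  haveI := finite_Omega hS
  -- there is an involution in the centralizer
  obtain ⟨b, c, d, hbc, hbd, hcd, hfix⟩ := id h3
  obtain ⟨i, hi, hi2, -, -⟩ := exists_cent_swap hS h3 (fun x hx => (hfix x hx).1)
    (fun x hx => (hfix x hx).2.1) hbc
  obtain ⟨z, hz, -⟩ := unique_fix' hS hi2
  have hz' : i • z = z := hz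
  have hXz : ∀ x ∈ X, x • z = z := fun x hx =>
    fix_of_comm hS hi2 hz' ((mem_centralizer_iff.1 hi) x hx)
  -- conjugate `i` so that it fixes `a`
  have htr : ∃ g ∈ centralizer X, g • z = a := by
    by_cases hza : z = a
    · exact ⟨1, one_mem _, by rw [one_smul, hza]⟩
    · obtain ⟨j, hj, -, h1, -⟩ := exists_cent_swap hS h3 hXz hXa hza
      exact ⟨j, hj, h1⟩
  obtain ⟨g, hg, hgz⟩ := htr
  have h5 : g * i * g⁻¹ ∈ centralizer X ⊓ Q := by
    refine mem_inf.2 ⟨mul_mem (mul_mem hg hi) (inv_mem hg), ?_⟩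
    apply involution_mem_Q hS
    · rw [MulAction.mem_stabilizer_iff, mul_smul, mul_smul, ← hgz, inv_smul_smul, hz']
    · rw [orderOf_conj, hi2]
  rw [even_iff_two_dvd]
  exact two_dvd_card_of_mem h5 (by rw [orderOf_conj, hi2])

/-- an element of `D` fixing three points is `D`-conjugate into the centralizer of `t` -/
theorem conj_cent_t (hS : IsRankOneSetup G Ω a t Q) {X : Set G} (hX : X ⊆ (D2 a t : Set G))
    (h3 : ∃ b c d : Ω, b ≠ c ∧ b ≠ d ∧ c ≠ d ∧ ∀ x ∈ X, x • b = b ∧ x • c = c ∧ x • d = d) :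
    ∃ k ∈ D2 a t, ∀ x ∈ X, (k * x * k⁻¹) * t = t * (k * x * k⁻¹) := by
  have ht := t_order hS
  have ht2 := mul_self ht
  have hfa : ∀ x ∈ X, x • a = a := fun x hx => MulAction.mem_stabilizer_iff.1 (mem_inf.1 (hX hx)).1
  have hfta : ∀ x ∈ X, x • t • a = t • a := fun x hx =>
    MulAction.mem_stabilizer_iff.1 (mem_inf.1 (hX hx)).2
  obtain ⟨i, hi, hi2, hia, hita⟩ := exists_cent_swap hS h3 hfa hfta (ta_ne hS).symm
  have hti := (swap_iff hS).1 ⟨hi2, hia⟩
  -- i and t are conjugate by an element of `⟨t i⟩ ≤ D`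
  have hodd : Odd (orderOf (i * t)) := by
    have h1 : i * t ∈ D2 a t := by
      have := inv_mem hti.1
      rw [mul_inv_rev, inv_eq hi2, inv_eq ht] at this
      exact this
    exact odd_order hS.odd_card h1
  obtain ⟨k, hk, hkt⟩ := conj_of_odd hi2 ht hodd
  have hkD : k ∈ D2 a t := by
    have h1 : i * t ∈ D2 a t := by
      have := inv_mem hti.1
      rw [mul_inv_rev, inv_eq hi2, inv_eq ht] at this
      exact this
    have : zpowers (i * t) ≤ D2 a t := by rw [zpowers_le]; exact h1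
    exact this hk
  refine ⟨k, hkD, ?_⟩
  intro x hx
  have h1 := (mem_centralizer_iff.1 hi) x hx
  calc k * x * k⁻¹ * t = k * x * k⁻¹ * (k * i * k⁻¹) := by rw [hkt]
    _ = k * (x * i) * k⁻¹ := by group
    _ = k * (i * x) * k⁻¹ := by rw [h1]
    _ = (k * i * k⁻¹) * (k * x * k⁻¹) := by group
    _ = t * (k * x * k⁻¹) := by rw [hkt]

end Two

end CfsgLib.Rank1H12

namespace CfsgLib.Rank1H12

open Cfsg Subgroup CfsgLib.Invol CfsgLib.FusionH12 CfsgLib.StrongH12

section Three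

variable {G Ω : Type*} [Group G] [MulAction G Ω] {a : Ω} {t : G} {Q : Subgroup G} [Finite G]

local notation "Ga" => MulAction.stabilizer G a

/-- a nontrivial element of `K` fixes exactly two points -/
theorem K_fix (hS : IsRankOneSetup G Ω a t Q) {x : G} (hx : x ∈ invertedBy (D2 a t) t) (hx1 : x ≠ 1)
    {c : Ω} (hc : x • c = c) : c = a ∨ c = t • a := by
  by_contra hne
  push Not at hne
  obtain ⟨hca, hcta⟩ := hne
  have hxa : x • a = a := MulAction.mem_stabilizer_iff.1 (mem_inf.1 hx.1).1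
  have hxta : x • t • a = t • a := MulAction.mem_stabilizer_iff.1 (mem_inf.1 hx.1).2
  obtain ⟨k, hk, hkx⟩ := conj_cent_t hS (X := {x}) (by simpa using hx.1)
    ⟨a, t • a, c, (ta_ne hS).symm, hca.symm, hcta.symm, by
      rintro y rfl; exact ⟨hxa, hxta, hc⟩⟩
  have h1 := hkx x rfl
  have hk' : t * k * t⁻¹ ∈ D2 a t := normalizes_D hS k hk
  have h2 : (t * k * t⁻¹)⁻¹ * k * x * ((t * k * t⁻¹)⁻¹ * k)⁻¹ = x⁻¹ := by
    have h3 : k * x * k⁻¹ = (t * k * t⁻¹) * x⁻¹ * (t * k * t⁻¹)⁻¹ := by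
      calc k * x * k⁻¹ = (k * x * k⁻¹ * t) * t⁻¹ := by group
        _ = t * (k * x * k⁻¹) * t⁻¹ := by rw [h1]
        _ = (t * k * t⁻¹) * (t * x * t⁻¹) * (t * k * t⁻¹)⁻¹ := by group
        _ = _ := by rw [hx.2]
    calc (t * k * t⁻¹)⁻¹ * k * x * ((t * k * t⁻¹)⁻¹ * k)⁻¹
        = (t * k * t⁻¹)⁻¹ * (k * x * k⁻¹) * (t * k * t⁻¹) := by group
      _ = x⁻¹ := by rw [h3]; group
  have h4 := odd_inverts h2 (odd_order hS.odd_card (mul_mem (inv_mem hk') hk))
  apply hx1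
  apply eq_one_of_sq (odd_order hS.odd_card hx.1)
  rw [pow_two]; nth_rw 1 [h4]; rw [inv_mul_cancel]

theorem K_cent_Q (hS : IsRankOneSetup G Ω a t Q) {x : G} (hx : x ∈ invertedBy (D2 a t) t) (hx1 : x ≠ 1)
    {q : G} (hq : q ∈ Q) (hqx : Commute q x) : q = 1 := by
  have hxta : x • t • a = t • a := MulAction.mem_stabilizer_iff.1 (mem_inf.1 hx.1).2
  have h1 : x • (q • t • a) = q • t • a := by
    rw [smul_smul, ← hqx.eq, mul_smul, hxta]
  rcases K_fix hS hx hx1 h1 with h | h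
  · exfalso
    apply ta_ne hS
    exact smul_left_cancel q (h.trans (Q_fix hS hq).symm)
  · exact Q_free hS (ta_ne hS) hq h

end Three

end CfsgLib.Rank1H12
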