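import Mathlib
import Cfsg.Agent.LibRank1H12b

/-! The split rank one set-up: uniqueness in the Bruhat decomposition. -/

set_option autoImplicit false

namespace CfsgLib.Rank1H12

open Cfsg Subgroup CfsgLib.Invol CfsgLib.FusionH12 CfsgLib.StrongH12

section Bruhat

variable {G Ω : Type*} [Group G] [MulAction G Ω] {a : Ω} {t : G} {Q : Subgroup G} [Finite G]

theorem not_mem_Ga (hS : IsRankOneSetup G Ω a t Q) {p q : G} (hp : p ∈ MulAction.stabilizer G a)
    (hq : q ∈ Q) : p * t * q ∉ MulAction.stabilizer G a := by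
  intro h
  apply hS.not_mem
  have := mul_mem (mul_mem (inv_mem hp) h) (inv_mem (hS.le hq))
  convert this using 1
  group

theorem bruhat_unique (hS : IsRankOneSetup G Ω a t Q) {g h f g' h' f' : G} (hg : g ∈ Q)
    (hh : h ∈ D2 a t) (hf : f ∈ Q) (hg' : g' ∈ Q) (hh' : h' ∈ D2 a t) (hf' : f' ∈ Q)
    (he : g * h * t * f = g' * h' * t * f') : g = g' ∧ h = h' ∧ f = f' := by
  have h1 : g * h ∈ MulAction.stabilizer G a := mul_mem (hS.le hg) (mem_inf.1 hh).1
  have h2 : g' * h' ∈ MulAction.stabilizer G a := mul_mem (hS.le hg') (mem_inf.1 hh').1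
  obtain ⟨p, -, hp⟩ := bruhat hS (not_mem_Ga hS h1 hf)
  have e1 := hp (g * h, f) ⟨h1, hf, rfl⟩
  have e2 := hp (g' * h', f') ⟨h2, hf', he⟩
  rw [← e2] at e1
  have e3 : g * h = g' * h' := congrArg Prod.fst e1
  have e4 : f = f' := congrArg Prod.snd e1
  have e5 : g'⁻¹ * g = h' * h⁻¹ := by
    rw [inv_mul_eq_iff_eq_mul, ← mul_assoc, ← e3, mul_inv_cancel_right]
  have e6 : g'⁻¹ * g ∈ Q ⊓ MulAction.stabilizer G (t • a) := by
    refine mem_inf.2 ⟨mul_mem (inv_mem hg') hg, ?_⟩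
    rw [e5]
    exact mul_mem (mem_inf.1 hh').2 (inv_mem (mem_inf.1 hh).2)
  rw [hS.inf_eq_bot, mem_bot] at e6
  have e7 : g = g' := (inv_mul_eq_one.1 e6).symm
  subst e7
  exact ⟨rfl, mul_left_cancel e3, e4⟩

theorem conj_t_mem (hS : IsRankOneSetup G Ω a t Q) {x : G} (hx : x ∈ D2 a t) : t * x * t ∈ D2 a t := by
  have := normalizes_D hS x hx
  rwa [inv_eq (t_order hS)] at this

end Bruhat

end CfsgLib.Rank1H12
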