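import Cfsg.Agent.LibClifford2
import Cfsg.Agent.LibExtend7
import Cfsg.Agent.LibCycCorr
import Cfsg.Agent.LibGalCliff
import Cfsg.Agent.LibGalChar
import Cfsg.Agent.LibCharInt2
/-!
# Rational extensions of invariant characters of a normal Hall subgroup (helper19)
-/
set_option autoImplicit false
set_option linter.all false
open scoped ComplexConjugate
open Cfsg
open CfsgLib.CharBasic CfsgLib.CharIndA CfsgLib.Clifford CfsgLib.Extend CfsgLib.GalChar
namespace CfsgLib.RatP19
universe u

section A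
variable {H : Type u} [Group H] [Fintype H] {Q : Subgroup H} [Fintype Q] (hQ : Q.Normal)

theorem gal_ind (T : Subgroup H) (τ : ℂ ≃+* ℂ) (θ : T → ℂ) (g : H) : τ (indFun T θ g) = indFun T (fun t => τ (θ t)) g := by
  classical
  unfold indFun
  rw [map_mul, map_inv₀, map_natCast, map_sum]
  congr 1
  apply Finset.sum_congr rfl
  intro x _
  unfold extendByZero
  by_cases h : x⁻¹ * g * x ∈ T
  · have h1 : x⁻¹ * g * x = (Subtype.val : T → H) ⟨_, h⟩ := rfl
    rw [h1, Subtype.val_injective.extend_apply, Subtype.val_injective.extend_apply]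
  · rw [Function.extend_apply' _ _ _ (by rintro ⟨a, ha⟩; exact h (ha ▸ a.2)), Function.extend_apply' _ _ _ (by rintro ⟨a, ha⟩; exact h (ha ▸ a.2))]
    simp

include hQ in
theorem step (hcop : (Nat.card Q).Coprime Q.index) {θ : Q → ℂ} (hθ : IsIrrCharacter Q θ) :
    ∃ Ψ : H → ℂ, IsIrrCharacter H Ψ ∧ (∀ τ : ℂ ≃+* ℂ, (∀ ζ : ℂ, ζ ^ Nat.card Q = 1 → τ ζ = ζ) → ∀ h, τ (Ψ h) = Ψ h) ∧
      classInner (fun q : Q => Ψ q) θ = 1 := by
  classical
  set T : Subgroup H := inertia hQ θ with hTdef
  letI := Fintype.ofFinite T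
  have hQT : Q ≤ T := le_inertia hQ (irr_classFun hθ)
  have hT : ∀ g, g ∈ T ↔ cj hQ g θ = θ := fun g => Iff.rfl
  haveI hn : (Q.subgroupOf T).Normal := subgroupOf_normal hQ T
  have hθ' : IsIrrCharacter (Q.subgroupOf T) (toSub T θ) := (toSub_irr hQT).2 hθ
  have hinv : Inv (Q.subgroupOf T) (toSub T θ) := by
    intro t n
    have h1 := cj_toSub hQ (T := T) t θ
    rw [(hT t).1 t.2] at h1
    exact congrFun h1 n
  have hcardQ : Nat.card (Q.subgroupOf T) = Nat.card Q := Nat.card_congr (Subgroup.subgroupOfEquivOfLe hQT).toEquiv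
  have hidx : (Q.subgroupOf T).index ∣ Q.index := by
    change Q.relIndex T ∣ Q.index
    exact Subgroup.relIndex_dvd_index_of_normal Q T
  have hd := CfsgLib.CharInt.irr_one_eq_charDegree hθ'
  have hcop2 : Nat.Coprime (Q.subgroupOf T).index (detOrder (toSub T θ) * charDegree (toSub T θ)) := by
    apply Nat.Coprime.coprime_dvd_left hidx
    apply Nat.Coprime.mul_right
    · exact (hcop.coprime_dvd_left (hcardQ ▸ detOrder_dvd_card hθ')).symm
    · exact (hcop.coprime_dvd_left (hcardQ ▸ CfsgLib.CharInt2.charDegree_dvd_card hθ')).symm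
  obtain ⟨θh, ⟨hθh, hext, hdet⟩, huniq⟩ := ext_coprime hθ' hinv _ hd hcop2
  have hres : resT hQT θh = θ := by
    ext q
    exact hext ⟨⟨q, hQT q.2⟩, q.2⟩
  have h1 : classInner (resT hQT θh) θ ≠ 0 := by
    rw [hres, irr_inner_self hθ]
    exact one_ne_zero
  obtain ⟨h2, h3⟩ := clifford_corr hQ hQT hθ hT hθh h1
  refine ⟨indFun T θh, h2, ?_, ?_⟩
  · intro τ hτ h
    have h4 : (fun t => τ (θh t)) = θh := by
      apply huniq _ (isIrrCharacter_gal τ hθh)
      · intro n
        change τ (θh n) = _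
        rw [hext n]
        have h5 := CfsgLib.GalCliff.char_gal_pow (σ := τ) (n := Nat.card Q) (k := 1) (fun ζ hζ => by rw [hτ ζ hζ, pow_one]) hcardQ.dvd (irr_isCharacter hθ') n
        rw [← h5, pow_one]
      · rw [CfsgLib.CycCorr.detOrder_gal τ hθh, hdet]
        exact Nat.Coprime.coprime_mul_right_right hcop2
    rw [gal_ind, h4]
  · rw [h3, hres, irr_inner_self hθ]

include hQ in
/-- an invariant character of a normal Hall subgroup has an extension fixed by the automorphisms fixing the `|Q|`-th roots of unity -/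
theorem exists_ext (hcop : (Nat.card Q).Coprime Q.index) : ∀ (n : ℕ) (α : Q → ℂ), IsCharacter Q α → α 1 = n →
    (∀ g : H, cj hQ g α = α) → ∃ Ψ : H → ℂ, IsCharacter H Ψ ∧ (∀ τ : ℂ ≃+* ℂ, (∀ ζ : ℂ, ζ ^ Nat.card Q = 1 → τ ζ = ζ) → ∀ h, τ (Ψ h) = Ψ h) ∧
      ∀ q : Q, Ψ q = α q := by
  classical
  intro n
  induction n using Nat.strong_induction_on with
  | _ n ih =>
  intro α hα hn hinv
  by_cases h0 : α = 0
  · refine ⟨0, isCharacter_zero, fun τ _ h => by simp, fun q => by rw [h0]; rfl⟩
  · obtain ⟨θ, hθ, hθα⟩ : ∃ θ : Q → ℂ, IsIrrCharacter Q θ ∧ classInner α θ ≠ 0 := by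
      by_contra hcon
      push Not at hcon
      exact h0 (classFun_eq_zero (char_classFun hα) hcon)
    obtain ⟨Ψ₁, hΨ₁, hΨτ, hΨθ⟩ := step hQ hcop hθ
    have hres := isCharacter_restrict (irr_isCharacter hΨ₁) Q
    have hdiff : IsCharacter Q (fun q : Q => α q - Ψ₁ q) := by
      rw [isCharacter_iff]
      refine ⟨?_, ?_⟩
      · intro g h
        have h1 := char_classFun hα g h
        have h2 := char_classFun hres g h
        change α (h * g * h⁻¹) - Ψ₁ ((h * g * h⁻¹ : Q) : H) = α g - Ψ₁ g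
        rw [h1]
        congr 1
      · intro ψ hψ
        obtain ⟨a, ha⟩ := char_mult hα (irr_isCharacter hψ)
        obtain ⟨b, hb⟩ := char_mult hres (irr_isCharacter hψ)
        have hsub : classInner (fun q : Q => α q - Ψ₁ q) ψ = (a : ℂ) - b := by
          rw [← ha, ← hb, ← CharBasic.inner_sub_left]
          rfl
        by_cases hb0 : b = 0
        · exact ⟨a, by rw [hsub, hb0]; simp⟩
        · have h1 : classInner (fun q : Q => Ψ₁ q) ψ ≠ 0 := by rw [hb]; exact Nat.cast_ne_zero.2 hb0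
          obtain ⟨x, hx⟩ := constituents_conj hQ hΨ₁ hθ hψ (by rw [hΨθ]; exact one_ne_zero) h1
          have h2 : classInner (fun q : Q => Ψ₁ q) ψ = 1 := by
            rw [← hx, mult_cj hQ (irr_classFun hΨ₁), hΨθ]
          have h3 : classInner α ψ = classInner α θ := by
            rw [← hx]
            conv_lhs => rw [← hinv x]
            rw [ci_cj]
          have h4 : a ≠ 0 := by
            intro ha0
            rw [ha0] at ha
            apply hθα
            rw [← h3, ha]
            simp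
          refine ⟨a - 1, ?_⟩
          rw [hsub, ← hb, h2, Nat.cast_sub (Nat.one_le_iff_ne_zero.2 h4)]
          simp
    obtain ⟨d, hd⟩ := char_one_nat hdiff
    obtain ⟨m, hm0, hm⟩ := irr_one_nat hΨ₁
    have hdm : d + m = n := by
      have h1 : (n : ℂ) - m = d := by
        rw [← hd, ← hn, ← hm]
        rfl
      have h2 : (n : ℂ) = (d + m : ℕ) := by
        push_cast
        rw [← h1]
        ring
      exact_mod_cast h2.symm
    obtain ⟨Ψ₂, h1, h2, h3⟩ := ih d (by omega) _ hdiff hd (by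
      intro g
      ext q
      have h4 := congrFun (hinv g) q
      have h5 := congrFun (cj_restrict hQ g (irr_classFun hΨ₁)) q
      rw [cj_apply] at h4 h5 ⊢
      simp only at h5 ⊢
      rw [h4, h5])
    refine ⟨Ψ₁ + Ψ₂, isCharacter_add (irr_isCharacter hΨ₁) h1, fun τ hτ h => ?_, fun q => ?_⟩
    · rw [Pi.add_apply, map_add, hΨτ τ hτ, h2 τ hτ]
    · rw [Pi.add_apply, h3 q]
      ring

end A
end CfsgLib.RatP19
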