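import Cfsg.Agent.LibRatP19
/-!
# Rational valued characters of p-groups: Schur's bound (helper19)
-/
set_option autoImplicit false
set_option linter.all false
open scoped ComplexConjugate
open Cfsg
open CfsgLib.CharBasic CfsgLib.CharIndA CfsgLib.Clifford CfsgLib.Extend CfsgLib.GalChar
namespace CfsgLib.RatP19
universe u

theorem congr_int {p : ℕ} (hp : p.Prime) {k s : ℕ} (ω : Fin k → ℂ) (h : ∀ i, ω i ^ (p ^ s) = 1) (m : ℤ)
    (hm : ∑ i, ω i = m) : (p : ℤ) ∣ (k : ℤ) - m := by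
  classical
  haveI : Fact p.Prime := ⟨hp⟩
  have hpos : 0 < p ^ s := pow_pos hp.pos s
  let a : Fin k → integralClosure ℤ ℂ := fun i => ⟨ω i, IsIntegral.of_pow hpos (by rw [h i]; exact isIntegral_one)⟩
  have hne : Ideal.span {(p : integralClosure ℤ ℂ)} ≠ ⊤ := by
    intro htop
    rw [Ideal.span_singleton_eq_top, isUnit_iff_exists_inv] at htop
    obtain ⟨c, hc⟩ := htop
    have h1 : (p : ℂ) * (c : ℂ) = 1 := by
      have := congrArg (fun t : integralClosure ℤ ℂ => (t : ℂ)) hc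
      simpa using this
    have hp0 : (p : ℂ) ≠ 0 := Nat.cast_ne_zero.2 hp.ne_zero
    have h2 : (c : ℂ) = (((p : ℚ)⁻¹ : ℚ) : ℂ) := by
      push_cast
      rw [eq_comm, inv_eq_iff_eq_inv, eq_comm]
      exact (eq_inv_of_mul_eq_one_left h1).symm ▸ rfl
    obtain ⟨z, hz⟩ := CfsgLib.CharInt2.rat_isIntegral (q := (p : ℚ)⁻¹) (h2 ▸ c.2)
    have h3 : (z : ℚ) * p = 1 := by
      rw [hz]
      exact inv_mul_cancel₀ (Nat.cast_ne_zero.2 hp.ne_zero)
    have h4 : z * p = 1 := by exact_mod_cast h3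
    have h5 : (p : ℤ) ∣ 1 := ⟨z, by rw [mul_comm]; exact h4.symm⟩
    have h6 : p ∣ 1 := by exact_mod_cast h5
    exact hp.one_lt.ne' (Nat.dvd_one.1 h6)
  obtain ⟨M, hM, hpM⟩ := Ideal.exists_le_maximal _ hne
  haveI := hM
  letI : Field (integralClosure ℤ ℂ ⧸ M) := Ideal.Quotient.field M
  have hp0 : ((p : ℕ) : integralClosure ℤ ℂ ⧸ M) = 0 := by
    have h1 : (p : integralClosure ℤ ℂ) ∈ M := hpM (Ideal.mem_span_singleton_self _)
    have h2 := Ideal.Quotient.eq_zero_iff_mem.2 h1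
    simpa using h2
  haveI hchar : CharP (integralClosure ℤ ℂ ⧸ M) p := by
    rw [← CharP.ringChar_of_prime_eq_zero hp hp0]
    exact ringChar.charP _
  let π := Ideal.Quotient.mk M
  have h1 : π (∑ i, a i) = ((m : ℤ) : integralClosure ℤ ℂ ⧸ M) := by
    have h2 : (∑ i, a i) = ((m : ℤ) : integralClosure ℤ ℂ) := by
      apply Subtype.ext
      push_cast
      rw [← hm]
    rw [h2, map_intCast]
  have h2 : iterateFrobenius (integralClosure ℤ ℂ ⧸ M) p s (π (∑ i, a i)) = (k : integralClosure ℤ ℂ ⧸ M) := by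
    rw [map_sum, map_sum]
    have h3 : ∀ i, iterateFrobenius (integralClosure ℤ ℂ ⧸ M) p s (π (a i)) = 1 := by
      intro i
      rw [iterateFrobenius_def, ← map_pow]
      have h4 : a i ^ (p ^ s) = 1 := Subtype.ext (h i)
      rw [h4, map_one]
    rw [Finset.sum_congr rfl fun i _ => h3 i, Finset.sum_const, Finset.card_univ, Fintype.card_fin, nsmul_eq_mul, mul_one]
  rw [h1, map_intCast] at h2
  rw [← CharP.intCast_eq_zero_iff (integralClosure ℤ ℂ ⧸ M) p]
  push_cast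
  rw [← h2, sub_self]

theorem eig {P : Type u} [Group P] [Finite P] {Ψ : P → ℂ} (hΨ : IsCharacter P Ψ) (x : P) {n : ℕ} (hn : Ψ 1 = n) :
    ∃ ω : Fin n → ℂ, (∀ i, ω i ^ orderOf x = 1) ∧ ∀ j : ℕ, Ψ (x ^ j) = ∑ i, ω i ^ j := by
  classical
  obtain ⟨m, ρ, rfl⟩ := hΨ
  rw [Representation.char_one] at hn
  have hn' : Module.finrank ℂ (Fin m → ℂ) = n := by exact_mod_cast hn
  subst hn'
  obtain ⟨b, ω, h1, h2⟩ := exists_diag_rep ρ x
  refine ⟨ω, h1, fun j => ?_⟩
  rw [Representation.character]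
  exact trace_of_diag b _ (fun i => ω i ^ j) (fun i => diag_pow ρ x (h2 i) j)

theorem geom {p s : ℕ} {ω : ℂ} (h : ω ^ (p ^ s) = 1) : ∑ j ∈ Finset.range (p ^ s), ω ^ j = if ω = 1 then (p ^ s : ℂ) else 0 := by
  by_cases h1 : ω = 1
  · rw [if_pos h1, h1]
    simp
  · rw [if_neg h1]
    have h2 := geom_sum_mul ω (p ^ s)
    rw [h, sub_self] at h2
    exact (mul_eq_zero.1 h2).resolve_right (sub_ne_zero.2 h1)

theorem lower {p : ℕ} (hp : p.Prime) {P : Type u} [Group P] [Finite P] {Ψ : P → ℂ} (hΨ : IsCharacter P Ψ) {x : P} {s : ℕ}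
    (hx : x ^ (p ^ (s + 1)) = 1) {n : ℕ} (hn : Ψ 1 = n) {m : ℤ} (hm : Ψ x = m)
    (hinv : ∀ j : ℕ, j.Coprime p → Ψ (x ^ j) = Ψ x) : -(n : ℤ) ≤ (p - 1) * m := by
  classical
  obtain ⟨ω, h1, h2⟩ := eig hΨ x hn
  have hω : ∀ i, ω i ^ (p ^ (s + 1)) = 1 := by
    intro i
    obtain ⟨c, hc⟩ := orderOf_dvd_of_pow_eq_one hx
    rw [hc, pow_mul, h1 i, one_pow]
  have hA : ∑ j ∈ Finset.range (p ^ (s + 1)), Ψ (x ^ j) = ∑ i, if ω i = 1 then ((p : ℂ) ^ (s + 1)) else 0 := by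
    rw [Finset.sum_congr rfl fun j _ => h2 j, Finset.sum_comm]
    exact Finset.sum_congr rfl fun i _ => geom (hω i)
  have hB : ∑ j ∈ Finset.range (p ^ s), Ψ (x ^ (p * j)) = ∑ i, if ω i ^ p = 1 then ((p : ℂ) ^ s) else 0 := by
    rw [Finset.sum_congr rfl fun j _ => h2 (p * j), Finset.sum_comm]
    apply Finset.sum_congr rfl
    intro i _
    rw [← geom (p := p) (s := s) (ω := ω i ^ p) (by rw [← pow_mul, ← pow_succ']; exact hω i)]
    exact Finset.sum_congr rfl fun j _ => by rw [pow_mul]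
  have hC : ∑ j ∈ Finset.range (p ^ (s + 1)), Ψ (x ^ j) =
      ∑ j ∈ (Finset.range (p ^ (s + 1))).filter (fun j => p ∣ j), Ψ (x ^ j) + ∑ j ∈ (Finset.range (p ^ (s + 1))).filter (fun j => ¬ p ∣ j), Ψ (x ^ j) :=
    (Finset.sum_filter_add_sum_filter_not _ _ _).symm
  have hD : ∑ j ∈ (Finset.range (p ^ (s + 1))).filter (fun j => p ∣ j), Ψ (x ^ j) = ∑ j ∈ Finset.range (p ^ s), Ψ (x ^ (p * j)) := by
    symm
    apply Finset.sum_bij (fun j _ => p * j)
    · intro j hj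
      rw [Finset.mem_filter, Finset.mem_range]
      rw [Finset.mem_range] at hj
      refine ⟨?_, dvd_mul_right _ _⟩
      rw [pow_succ']
      exact Nat.mul_lt_mul_of_pos_left hj hp.pos
    · intro j _ j' _ h
      exact Nat.eq_of_mul_eq_mul_left hp.pos h
    · intro j hj
      rw [Finset.mem_filter, Finset.mem_range] at hj
      obtain ⟨hj1, c, rfl⟩ := hj
      refine ⟨c, ?_, rfl⟩
      rw [Finset.mem_range]
      rw [pow_succ'] at hj1
      exact Nat.lt_of_mul_lt_mul_left hj1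
    · intro j _
      rfl
  have hE : ∑ j ∈ (Finset.range (p ^ (s + 1))).filter (fun j => ¬ p ∣ j), Ψ (x ^ j) =
      (((Finset.range (p ^ (s + 1))).filter (fun j => ¬ p ∣ j)).card : ℂ) * m := by
    rw [Finset.sum_congr rfl (g := fun _ => (m : ℂ)), Finset.sum_const, nsmul_eq_mul]
    intro j hj
    rw [Finset.mem_filter] at hj
    rw [hinv j ((Nat.Prime.coprime_iff_not_dvd hp).2 hj.2).symm, hm]
  have hcard : ((Finset.range (p ^ (s + 1))).filter (fun j => ¬ p ∣ j)).card = p ^ s * (p - 1) := by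
    have h3 := Nat.totient_prime_pow_succ hp s
    rw [← h3, Nat.totient_eq_card_coprime]
    congr 1
    apply Finset.filter_congr
    intro j _
    rw [Nat.coprime_pow_left_iff (Nat.succ_pos s), Nat.Prime.coprime_iff_not_dvd hp]
  rw [hC, hD, hB, hE, hcard] at hA
  have hre := congrArg Complex.re hA
  have h5 : (∑ i : Fin n, if ω i ^ p = 1 then ((p : ℂ) ^ s) else 0).re ≤ n * (p : ℝ) ^ s := by
    rw [Complex.re_sum]
    calc ∑ i : Fin n, (if ω i ^ p = 1 then ((p : ℂ) ^ s) else 0).re ≤ ∑ _i : Fin n, (p : ℝ) ^ s := by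
          apply Finset.sum_le_sum
          intro i _
          split_ifs
          · rw [← Nat.cast_pow, Complex.natCast_re, Nat.cast_pow]
          · simp
      _ = n * (p : ℝ) ^ s := by simp
  have h6 : 0 ≤ (∑ i : Fin n, if ω i = 1 then ((p : ℂ) ^ (s + 1)) else 0).re := by
    rw [Complex.re_sum]
    apply Finset.sum_nonneg
    intro i _
    split_ifs
    · rw [← Nat.cast_pow, Complex.natCast_re]
      positivity
    · simp
  rw [← hre, Complex.add_re] at h6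
  have h7 : (((p ^ s * (p - 1) : ℕ) : ℂ) * (m : ℂ)).re = (p : ℝ) ^ s * ((p : ℝ) - 1) * m := by
    have : ((p ^ s * (p - 1) : ℕ) : ℂ) * (m : ℂ) = (((p : ℝ) ^ s * ((p : ℝ) - 1) * m : ℝ) : ℂ) := by
      push_cast [Nat.cast_sub hp.one_le]
      ring
    rw [this, Complex.ofReal_re]
  rw [h7] at h6
  have hps : (0 : ℝ) < (p : ℝ) ^ s := by
    have : (0 : ℝ) < p := by exact_mod_cast hp.pos
    positivity
  have h8 : 0 ≤ (p : ℝ) ^ s * (n + ((p : ℝ) - 1) * m) := by nlinarith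
  have h9 : 0 ≤ (n : ℝ) + ((p : ℝ) - 1) * m := by
    by_contra hneg
    push Not at hneg
    nlinarith
  have h10 : (0 : ℝ) ≤ (((n : ℤ) + ((p : ℤ) - 1) * m : ℤ) : ℝ) := by
    push_cast
    exact h9
  have h11 : (0 : ℤ) ≤ (n : ℤ) + ((p : ℤ) - 1) * m := by exact_mod_cast h10
  linarith

end CfsgLib.RatP19
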