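import Cfsg.Agent.LibRatPB19
/-!
# Rational valued characters of p-groups: Schur's bound, II (helper19)
-/
set_option autoImplicit false
set_option linter.all false
open scoped ComplexConjugate
open Cfsg
open CfsgLib.CharBasic CfsgLib.CharIndA CfsgLib.Clifford CfsgLib.Extend CfsgLib.GalChar
namespace CfsgLib.RatP19
universe u

theorem gen_prod {P : Type u} [Group P] [Fintype P] {Ψ : P → ℂ} (hΨ : IsCharacter P Ψ) (S : Finset ℕ) (a : ℕ → ℤ) :
    IsGeneralizedCharacter P (fun x => ∏ j ∈ S, (Ψ x - (a j : ℂ))) := by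
  classical
  induction S using Finset.induction_on with
  | empty => simpa using gen_of_char (isCharacter_one (G := P))
  | insert i S hi ih =>
    have h1 := gen_sub (gen_of_char hΨ) (gen_intsmul (gen_of_char (isCharacter_one (G := P))) (a i))
    have h2 := gen_mul h1 ih
    convert h2 using 1
    ext x
    rw [Finset.prod_insert hi]
    simp [Pi.mul_apply]

theorem blich_card {P : Type u} [Group P] [Fintype P] {Ψ : P → ℂ} (hΨ : IsCharacter P Ψ) {n : ℕ} (S : Finset ℕ) (a : ℕ → ℤ)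
    (hA : ∀ x, Ψ x ≠ n → ∃ j ∈ S, Ψ x = a j) :
    (Nat.card P : ℤ) ∣ (Nat.card {x : P // Ψ x = n} : ℤ) * ∏ j ∈ S, ((n : ℤ) - a j) := by
  classical
  obtain ⟨z, hz⟩ := gen_inner_int (gen_prod hΨ S a) (gen_of_char (isCharacter_one (G := P)))
  have hN : (Nat.card P : ℂ) ≠ 0 := Nat.cast_ne_zero.2 Nat.card_pos.ne'
  rw [classInner, inv_mul_eq_iff_eq_mul₀ hN] at hz
  have h1 : ∑ x : P, (∏ j ∈ S, (Ψ x - (a j : ℂ))) * conj ((fun _ => (1 : ℂ)) x) = (Nat.card {x : P // Ψ x = n} : ℂ) * ∏ j ∈ S, ((n : ℂ) - a j) := by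
    rw [Nat.card_eq_fintype_card, Fintype.card_subtype, ← nsmul_eq_mul, ← Finset.sum_const, Finset.sum_filter]
    apply Finset.sum_congr rfl
    intro x _
    rw [map_one, mul_one]
    split_ifs with h
    · rw [h]
    · obtain ⟨j, hj, hj2⟩ := hA x h
      exact Finset.prod_eq_zero hj (by rw [hj2, sub_self])
  rw [h1] at hz
  refine ⟨z, ?_⟩
  exact_mod_cast hz

theorem prod_Icc_fac (b : ℕ) : ∏ j ∈ Finset.Icc 1 b, j = b.factorial := by
  induction b with
  | zero => simp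
  | succ b ih => rw [Finset.prod_Icc_succ_top (by omega), ih, Nat.factorial_succ, mul_comm]

theorem bound {p : ℕ} (hp : p.Prime) {P : Type u} [Group P] [Fintype P] (hP : IsPGroup p P) {Ψ : P → ℂ} (hΨ : IsCharacter P Ψ)
    {n : ℕ} (hn : Ψ 1 = n) (hint : ∀ x, ∃ m : ℤ, Ψ x = m) (hinv : ∀ x, ∀ j : ℕ, j.Coprime p → Ψ (x ^ j) = Ψ x)
    (C : Subgroup P) (hC : ∀ x, Ψ x = n → x ∈ C) :
    C.index.factorization p ≤ ∑ i ∈ Finset.range (n + 1), n / ((p - 1) * p ^ i) := by
  classical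
  haveI : Fact p.Prime := ⟨hp⟩
  let K : Subgroup P :=
    { carrier := {x | Ψ x = n}
      mul_mem' := by
        intro x y hx hy
        change Ψ (x * y) = n
        rw [(char_mul_of_ker hΨ (g := x) (hx.trans hn.symm) y).1]
        exact hy
      one_mem' := hn
      inv_mem' := by
        intro x hx
        change Ψ x⁻¹ = n
        have h1 := (char_mul_of_ker hΨ (g := x) (hx.trans hn.symm) x⁻¹).1
        rw [mul_inv_cancel, hn] at h1
        exact h1.symm }
  set b := n / (p - 1) with hb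
  have hp1 : 0 < p - 1 := Nat.sub_pos_of_lt hp.one_lt
  have hA : ∀ x, Ψ x ≠ n → ∃ j ∈ Finset.Icc 1 b, Ψ x = (((n : ℤ) - p * j : ℤ) : ℂ) := by
    intro x hx
    obtain ⟨m, hm⟩ := hint x
    obtain ⟨s, hs⟩ := (IsPGroup.iff_orderOf.1 hP) x
    have hx1 : x ^ (p ^ (s + 1)) = 1 := by
      rw [pow_succ, pow_mul, ← hs, pow_orderOf_eq_one, one_pow]
    obtain ⟨ω, h1, h2⟩ := eig hΨ x hn
    have h3 : (p : ℤ) ∣ (n : ℤ) - m := by
      apply congr_int hp (s := s) ω
      · intro i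
        rw [← hs]
        exact h1 i
      · have := h2 1
        simp only [pow_one] at this
        rw [← this, hm]
    obtain ⟨c, hc⟩ := h3
    have hlow := lower hp hΨ hx1 hn hm (hinv x)
    have hle : (m : ℤ) ≤ n := by
      have h4 : ‖Ψ x‖ ≤ n := by
        have := h2 1
        rw [pow_one] at this
        rw [this]
        calc ‖∑ i, ω i ^ 1‖ ≤ ∑ i, ‖ω i ^ 1‖ := norm_sum_le _ _
          _ = ∑ _i : Fin n, (1 : ℝ) := by
            apply Finset.sum_congr rfl
            intro i _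
            rw [pow_one]
            exact norm_one_of_pow (orderOf_pos x).ne' (h1 i)
          _ = n := by simp
      rw [hm, Complex.norm_intCast] at h4
      have h5 : (m : ℝ) ≤ n := (le_abs_self _).trans h4
      exact_mod_cast h5
    have hne : m ≠ n := by
      rintro rfl
      exact hx (by rw [hm]; simp)
    have hppos : (0 : ℤ) < p := by exact_mod_cast hp.pos
    have hcpos : 0 < c := by
      by_contra hneg
      push Not at hneg
      have h6 : (p : ℤ) * c ≤ 0 := mul_nonpos_of_nonneg_of_nonpos hppos.le hneg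
      rw [← hc] at h6
      exact hne (le_antisymm hle (by linarith))
    obtain ⟨j, rfl⟩ := Int.eq_ofNat_of_zero_le hcpos.le
    refine ⟨j, ?_, ?_⟩
    · rw [Finset.mem_Icc]
      refine ⟨by exact_mod_cast hcpos, ?_⟩
      rw [hb, Nat.le_div_iff_mul_le hp1]
      have h7 : ((p : ℤ) - 1) * ((n : ℤ) - m) ≤ p * n := by linarith [hlow, mul_sub ((p : ℤ) - 1) (n : ℤ) m]
      rw [hc] at h7
      have h8 : (p : ℤ) * (((p : ℤ) - 1) * j) ≤ p * n := by linarith
      have h9 : ((p : ℤ) - 1) * j ≤ n := le_of_mul_le_mul_left h8 hppos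
      have h10 : ((j * (p - 1) : ℕ) : ℤ) ≤ n := by
        push_cast [Nat.cast_sub hp.one_le]
        linarith
      exact_mod_cast h10
    · rw [hm]
      have : m = (n : ℤ) - p * j := by
        have h11 : (Int.ofNat j : ℤ) = (j : ℤ) := rfl
        linarith
      rw [this]
  have hbl := blich_card hΨ (n := n) (Finset.Icc 1 b) (fun j => (n : ℤ) - p * j) hA
  have hprod : ∏ j ∈ Finset.Icc 1 b, ((n : ℤ) - ((n : ℤ) - p * j)) = ((p ^ b * b.factorial : ℕ) : ℤ) := by
    have h1 : ∀ j ∈ Finset.Icc 1 b, ((n : ℤ) - ((n : ℤ) - p * j)) = ((p * j : ℕ) : ℤ) := by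
      intro j _
      push_cast
      ring
    rw [Finset.prod_congr rfl h1, ← Nat.cast_prod, Finset.prod_mul_distrib, Finset.prod_const, Nat.card_Icc, prod_Icc_fac]
    simp
  rw [hprod] at hbl
  have hbl2 : Nat.card P ∣ Nat.card K * (p ^ b * b.factorial) := by
    have : (Nat.card {x : P // Ψ x = n} : ℤ) = (Nat.card K : ℤ) := rfl
    rw [this] at hbl
    exact_mod_cast hbl
  rw [← Subgroup.card_mul_index K] at hbl2
  have hK : K.index ∣ p ^ b * b.factorial := Nat.dvd_of_mul_dvd_mul_left Nat.card_pos hbl2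
  have hCK : C.index ∣ p ^ b * b.factorial := (Subgroup.index_dvd_of_le (show K ≤ C from fun x hx => hC x hx)).trans hK
  have hne0 : p ^ b * b.factorial ≠ 0 := mul_ne_zero (pow_ne_zero _ hp.ne_zero) (Nat.factorial_ne_zero _)
  have h1 : C.index.factorization p ≤ (p ^ b * b.factorial).factorization p :=
    (Nat.factorization_le_iff_dvd Subgroup.index_ne_zero_of_finite hne0).2 hCK p
  refine h1.trans (le_of_eq ?_)
  rw [Nat.factorization_mul (pow_ne_zero _ hp.ne_zero) (Nat.factorial_ne_zero _), Finsupp.add_apply, hp.factorization_pow, Finsupp.single_eq_same,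
    Nat.factorization_factorial hp (b := n + 1) (lt_of_le_of_lt (Nat.log_le_self p b) (Nat.lt_succ_of_le (Nat.div_le_self _ _))),
    Finset.sum_range_succ', Finset.sum_Ico_eq_sum_range]
  rw [add_comm]
  congr 1
  · apply Finset.sum_congr (by simp)
    intro i _
    rw [hb, Nat.div_div_eq_div_mul, add_comm 1 i]
  · simp [hb]

section Inv
variable {H : Type u} [Group H] [Finite H]

theorem inv_pow {q p s : ℕ} (hcard : Nat.card H = q * p ^ s) (hqp : q.Coprime p) {Ψ : H → ℂ} (hΨ : IsCharacter H Ψ)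
    (hτ : ∀ τ : ℂ ≃+* ℂ, (∀ ζ : ℂ, ζ ^ q = 1 → τ ζ = ζ) → ∀ h, τ (Ψ h) = Ψ h) {x : H} (hx : x ^ (p ^ s) = 1)
    {j : ℕ} (hj : j.Coprime (p ^ s)) : Ψ (x ^ j) = Ψ x := by
  have hc : Nat.Coprime (p ^ s) q := (Nat.Coprime.pow_right s hqp).symm
  obtain ⟨k, hk1, hk2⟩ := Nat.chineseRemainder hc j 1
  have hkN : k.Coprime (Nat.card H) := by
    rw [hcard]
    apply Nat.Coprime.mul_right
    · have := hk2.gcd_eq
      rw [Nat.Coprime, this, Nat.gcd_one_left]
    · have := hk1.gcd_eq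
      rw [Nat.Coprime, this]
      exact hj
  obtain ⟨σ, hσ⟩ := CfsgLib.GalField.exists_ringEquiv_pow (Nat.card H) k Nat.card_pos hkN
  have h1 := CfsgLib.GalCliff.char_gal_pow (σ := σ) (n := Nat.card H) (k := k) hσ dvd_rfl hΨ x
  rw [hτ σ (fun ζ hζ => by
    rw [hσ ζ (by rw [hcard, pow_mul, hζ, one_pow])]
    have h2 : ζ ^ k = ζ ^ 1 := by
      rw [pow_eq_pow_mod k hζ, pow_eq_pow_mod 1 hζ, hk2]
    rw [h2, pow_one]) x] at h1
  rw [← h1]
  congr 1
  rw [pow_eq_pow_mod j hx, pow_eq_pow_mod k hx, hk1]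

theorem int_val {q p s : ℕ} (hcard : Nat.card H = q * p ^ s) (hqp : q.Coprime p) {Ψ : H → ℂ} (hΨ : IsCharacter H Ψ)
    (hτ : ∀ τ : ℂ ≃+* ℂ, (∀ ζ : ℂ, ζ ^ q = 1 → τ ζ = ζ) → ∀ h, τ (Ψ h) = Ψ h) {x : H} (hx : x ^ (p ^ s) = 1) :
    ∃ m : ℤ, Ψ x = m := by
  haveI := Fintype.ofFinite H
  apply exists_int_of_fixed (gen_isIntegral (gen_of_char hΨ) x)
  intro σ
  obtain ⟨k, hk, hk2⟩ := exists_coprime_of_gal H σ
  rw [← hk2 Ψ hΨ x]
  apply inv_pow hcard hqp hΨ hτ hx
  rw [hcard] at hk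
  exact Nat.Coprime.coprime_mul_left_right hk

end Inv
end CfsgLib.RatP19
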