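import Cfsg.Agent.LibRatPC19
import Cfsg.Agent.LibPSolvB19
import Cfsg.Agent.LibCoprime
import Cfsg.Agent.LibH2Gen2
/-!
# The index of the p-core in a p-solvable linear group (helper19)
-/
set_option autoImplicit false
set_option linter.all false
open scoped ComplexConjugate Pointwise
open Cfsg
open CfsgLib.CharBasic CfsgLib.CharIndA CfsgLib.Clifford CfsgLib.Extend CfsgLib.GalChar
namespace CfsgLib.RatP19
universe u

variable {G : Type u} [Group G] [Finite G]

/-- the local version: `Q` a `p'`-subgroup, `P` a `p`-subgroup normalizing it -/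
theorem local_bound {χ : G → ℂ} (hχ : IsCharacter G χ) (hfaith : ∀ g : G, χ g = χ 1 → g = 1) {n : ℕ} (hn : χ 1 = n)
    {p : ℕ} (hp : p.Prime) (Q P : Subgroup G) (hQ : (Nat.card Q).Coprime p) (hP : IsPGroup p P)
    (hPQ : P ≤ Subgroup.normalizer (Q : Set G)) :
    ((Subgroup.centralizer (Q : Set G)).relIndex P).factorization p ≤ ∑ i ∈ Finset.range (n + 1), n / ((p - 1) * p ^ i) := by
  classical
  haveI : Fact p.Prime := ⟨hp⟩
  letI := Fintype.ofFinite G
  obtain ⟨s, hs⟩ := (IsPGroup.iff_card).1 hP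
  set H : Subgroup G := Q ⊔ P with hH
  have hQH : Q ≤ H := le_sup_left
  have hPH : P ≤ H := le_sup_right
  have hnorm : H ≤ Subgroup.normalizer (Q : Set G) := sup_le Subgroup.le_normalizer hPQ
  haveI hQn : (Q.subgroupOf H).Normal := (Subgroup.normal_subgroupOf_iff_le_normalizer hQH).2 hnorm
  letI := Fintype.ofFinite H
  letI := Fintype.ofFinite (Q.subgroupOf H)
  letI := Fintype.ofFinite P
  have hcQ : Nat.card (Q.subgroupOf H) = Nat.card Q := Nat.card_congr (Subgroup.subgroupOfEquivOfLe hQH).toEquiv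
  have hcop : (Nat.card Q).Coprime (Nat.card P) := by
    rw [hs]
    exact Nat.Coprime.pow_right s hQ
  have hcH : Nat.card H = Nat.card Q * p ^ s := by
    rw [← hs, hH]
    have h1 := CfsgLib.Coprime.card_sup_mul_card_inf hPQ
    have h2 : P ⊓ Q = ⊥ := Subgroup.inf_eq_bot_of_coprime hcop.symm
    rw [h2, Subgroup.card_bot, mul_one, sup_comm] at h1
    rw [h1, mul_comm]
  have hidx : (Q.subgroupOf H).index = p ^ s := by
    have h2 := Subgroup.card_mul_index (Q.subgroupOf H)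
    rw [hcQ, hcH] at h2
    exact Nat.eq_of_mul_eq_mul_left Nat.card_pos h2
  obtain ⟨Ψ, hΨ, hΨτ, hΨr⟩ := exists_ext (H := H) (Q := Q.subgroupOf H) hQn (by rw [hcQ, hidx]; exact Nat.Coprime.pow_right s hQ) n
    (fun q => χ ((q : H) : G)) (isCharacter_restrict (isCharacter_restrict hχ H) (Q.subgroupOf H)) hn (by
      intro g
      ext q
      exact char_classFun hχ ((q : H) : G) (g : G))
  rw [hcQ] at hΨτ
  have hΨ1 : Ψ 1 = n := by
    have := hΨr 1
    rw [← hn]
    exact this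
  -- restriction to P
  let f : P →* H := Subgroup.inclusion hPH
  have hΨP : IsCharacter P (Ψ ∘ f) := isCharacter_comp hΨ f
  have hord : ∀ x : P, (f x) ^ (p ^ s) = 1 := by
    intro x
    rw [← map_pow, ← hs, pow_card_eq_one', map_one]
  change (((Subgroup.centralizer (Q : Set G)).subgroupOf P).index).factorization p ≤ _
  apply bound hp hP hΨP (n := n)
  · change Ψ (f 1) = n
    rw [map_one, hΨ1]
  · intro x
    exact int_val hcH hQ hΨ hΨτ (hord x)
  · intro x j hj
    change Ψ (f (x ^ j)) = Ψ (f x)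
    rw [map_pow]
    exact inv_pow hcH hQ hΨ hΨτ (hord x) (Nat.Coprime.pow_right s hj)
  · intro x hx
    change Ψ (f x) = n at hx
    change (x : G) ∈ Subgroup.centralizer (Q : Set G)
    rw [Subgroup.mem_centralizer_iff]
    intro q hq
    have hcomm : (x : G) * q * (x : G)⁻¹ * q⁻¹ ∈ Q :=
      mul_mem ((Subgroup.mem_normalizer_iff.1 (hPQ x.2) q).1 hq) (inv_mem hq)
    have hΨc : Ψ (f x * (⟨q, hQH hq⟩ : H) * (f x)⁻¹ * (⟨q, hQH hq⟩ : H)⁻¹) = Ψ 1 := by
      rw [mul_assoc, mul_assoc, (char_mul_of_ker hΨ (g := f x) (hx.trans hΨ1.symm) _).1]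
      have h2 := char_classFun hΨ ((f x)⁻¹) (⟨q, hQH hq⟩ : H)
      rw [mul_assoc] at h2
      rw [h2]
      have h3 := (char_mul_of_ker hΨ (g := f x) (hx.trans hΨ1.symm) (f x)⁻¹).1
      rw [mul_inv_cancel] at h3
      exact h3.symm
    have h4 : χ ((x : G) * q * (x : G)⁻¹ * q⁻¹) = χ 1 := by
      have h5 := hΨr ⟨⟨(x : G) * q * (x : G)⁻¹ * q⁻¹, hQH hcomm⟩, hcomm⟩
      have h6 : ((⟨⟨(x : G) * q * (x : G)⁻¹ * q⁻¹, hQH hcomm⟩, hcomm⟩ : Q.subgroupOf H) : H) = f x * (⟨q, hQH hq⟩ : H) * (f x)⁻¹ * (⟨q, hQH hq⟩ : H)⁻¹ := rfl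
      rw [h6, hΨc, hΨ1] at h5
      rw [hn]
      exact h5.symm
    have h7 := hfaith _ h4
    rw [mul_inv_eq_one, mul_inv_eq_iff_eq_mul] at h7
    exact h7.symm

theorem main {χ : G → ℂ} (hχ : IsCharacter G χ) (hfaith : ∀ g : G, χ g = χ 1 → g = 1) {n : ℕ} (hn : χ 1 = n)
    {p : ℕ} (hp : p.Prime) (hsolv : IsPSolvable p G) :
    ((pCore p G).index).factorization p ≤ ∑ i ∈ Finset.range (n + 1), n / ((p - 1) * p ^ i) := by
  classical
  haveI : Fact p.Prime := ⟨hp⟩
  obtain ⟨O, hO⟩ : ∃ O, O = pCore p G := ⟨_, rfl⟩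
  have hOn : O.Normal := by rw [hO]; infer_instance
  have hOp : IsPGroup p O := by rw [hO]; exact CfsgLib.Cores.pCore_isPGroup p
  have hOb : pCore p (G ⧸ O) = ⊥ := by
    subst hO
    exact CfsgLib.Cores.pCore_quotient_pCore p
  rw [← hO]
  have hKbc : (Nat.card (pPrimeCore p (G ⧸ O))).Coprime p := CfsgLib.Cores.pPrimeCore_coprime p
  have hHH := CfsgLib.PSolvB19.hall_higman' (CfsgLib.PSolv19.psolv_quotient hp hsolv O) hOb
  have hKbn : (pPrimeCore p (G ⧸ O)).Normal := inferInstance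
  generalize pPrimeCore p (G ⧸ O) = Kb at hKbc hHH hKbn
  obtain ⟨K, hK⟩ : ∃ K, K = Kb.comap (QuotientGroup.mk' O) := ⟨_, rfl⟩
  have hKn : K.Normal := by rw [hK]; infer_instance
  have hOK : O ≤ K := by
    intro x hx
    rw [hK]
    change (x : G ⧸ O) ∈ Kb
    rw [(QuotientGroup.eq_one_iff x).2 hx]
    exact one_mem _
  have hcardK : Nat.card K = Nat.card O * Nat.card Kb := by
    have h1 : K.index = Kb.index := by
      rw [hK]
      exact Subgroup.index_comap_of_surjective Kb (QuotientGroup.mk'_surjective O)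
    have h2 := Subgroup.card_mul_index K
    have h3 := Subgroup.card_eq_card_quotient_mul_card_subgroup O
    have h4 := Subgroup.card_mul_index Kb
    have h5 : 0 < K.index := Nat.pos_of_ne_zero Subgroup.index_ne_zero_of_finite
    apply Nat.eq_of_mul_eq_mul_right h5
    rw [h2, h3, ← h4, h1]
    ring
  have hOc : (Nat.card O).Coprime (Nat.card Kb) := by
    obtain ⟨a, ha⟩ := (IsPGroup.iff_card).1 hOp
    rw [ha]
    exact Nat.Coprime.pow_left a hKbc.symm
  have hcO' : Nat.card (O.subgroupOf K) = Nat.card O := Nat.card_congr (Subgroup.subgroupOfEquivOfLe hOK).toEquiv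
  have hidxO : (O.subgroupOf K).index = Nat.card Kb := by
    have h1 := Subgroup.card_mul_index (O.subgroupOf K)
    rw [hcO', hcardK] at h1
    exact Nat.eq_of_mul_eq_mul_left Nat.card_pos h1
  haveI hO'n : (O.subgroupOf K).Normal := hOn.subgroupOf K
  obtain ⟨Qs, hQs⟩ := Subgroup.exists_right_complement'_of_coprime (N := O.subgroupOf K) (by rw [hcO', hidxO]; exact hOc)
  have hcQs : Nat.card Qs = Nat.card Kb := by
    have h1 := hQs.card_mul
    rw [hcO', hcardK] at h1
    exact Nat.eq_of_mul_eq_mul_left Nat.card_pos h1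
  obtain ⟨Q, hQ⟩ : ∃ Q, Q = Qs.map K.subtype := ⟨_, rfl⟩
  have hcQ : Nat.card Q = Nat.card Kb := by
    rw [hQ, Subgroup.card_map_of_injective K.subtype_injective, hcQs]
  have hQK : Q ≤ K := by rw [hQ]; exact Subgroup.map_subtype_le _
  have hQO : Q ⊓ O = ⊥ := Subgroup.inf_eq_bot_of_coprime (by rw [hcQ]; exact hOc.symm)
  have hsup : O ⊔ Q = K := by
    apply Subgroup.eq_of_le_of_card_ge (sup_le hOK hQK)
    have h1 := CfsgLib.Coprime.card_sup_of_normal Q O hQO
    rw [sup_comm, h1, hcardK, hcQ, mul_comm]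
  have hsolO : Group.IsSolvable O := by
    haveI : Group.IsNilpotent O := hOp.isNilpotent
    infer_instance
  have hfr : O ⊔ Subgroup.normalizer (Q : Set G) = ⊤ := by
    apply CfsgLib.H2Gen2.frattini_of_conj
    intro g
    have h1 : MulAut.conj g • Q ≤ O ⊔ Q := by
      rw [hsup]
      rintro _ ⟨q, hq, rfl⟩
      exact hKn.conj_mem q (hQK hq) g
    obtain ⟨m, hm, hm2⟩ := CfsgLib.Coprime.sz_conj (N := O) (H := Q) (K := MulAut.conj g • Q)
      (by rw [Subgroup.normalizer_eq_top_iff.2 hOn]; exact le_top) (by rw [hcQ]; exact hOc.symm) (Or.inr hsolO) h1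
      (Nat.card_congr (Subgroup.equivSMul (MulAut.conj g) Q).toEquiv).symm
    exact ⟨m, hm, hm2.symm⟩
  obtain ⟨P₁⟩ : Nonempty (Sylow p (Subgroup.normalizer (Q : Set G))) := inferInstance
  obtain ⟨P, hPdef⟩ : ∃ P, P = (P₁ : Subgroup (Subgroup.normalizer (Q : Set G))).map (Subgroup.normalizer (Q : Set G)).subtype := ⟨_, rfl⟩
  have hPN : P ≤ Subgroup.normalizer (Q : Set G) := by rw [hPdef]; exact Subgroup.map_subtype_le _
  have hPp : IsPGroup p P := by rw [hPdef]; exact P₁.isPGroup'.map _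
  have hPi : ¬ p ∣ P.relIndex (Subgroup.normalizer (Q : Set G)) := by
    have h1 : P.subgroupOf (Subgroup.normalizer (Q : Set G)) = P₁ := by
      rw [hPdef, Subgroup.subgroupOf, Subgroup.comap_map_eq_self_of_injective (Subgroup.subtype_injective _)]
    rw [Subgroup.relIndex, h1]
    exact P₁.not_dvd_index
  have hloc := local_bound hχ hfaith hn hp Q P (by rw [hcQ]; exact hKbc) hPp hPN
  refine le_trans ?_ hloc
  -- the centralizer of Q in P lies in O
  have hclaim : Subgroup.centralizer (Q : Set G) ⊓ P ≤ O := by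
    rintro y ⟨hy, hyP⟩
    have hy := Subgroup.mem_centralizer_iff.1 (show y ∈ Subgroup.centralizer (Q : Set G) from hy)
    have h1 : (y : G ⧸ O) ∈ Subgroup.centralizer (Kb : Set (G ⧸ O)) := by
      rw [Subgroup.mem_centralizer_iff]
      intro kb hkb
      obtain ⟨k, rfl⟩ := QuotientGroup.mk_surjective kb
      have h2 : k ∈ O ⊔ Q := by
        rw [hsup, hK]
        exact hkb
      obtain ⟨o, ho, q, hq, rfl⟩ := Subgroup.mem_sup_of_normal_left.1 h2
      rw [QuotientGroup.mk_mul, (QuotientGroup.eq_one_iff o).2 ho, one_mul, ← QuotientGroup.mk_mul, ← QuotientGroup.mk_mul, hy q hq]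
    have h2 := hHH h1
    have h3 : orderOf ((y : G ⧸ O)) ∣ Nat.card Kb := by
      have := orderOf_dvd_natCard (⟨(y : G ⧸ O), h2⟩ : Kb)
      rwa [Subgroup.orderOf_mk] at this
    obtain ⟨a, ha⟩ := hPp ⟨y, hyP⟩
    have h4 : (y : G ⧸ O) ^ (p ^ a) = 1 := by
      rw [← QuotientGroup.mk_pow]
      have : y ^ (p ^ a) = 1 := congrArg Subtype.val ha
      rw [this]
      rfl
    have h5 : orderOf ((y : G ⧸ O)) ∣ p ^ a := orderOf_dvd_of_pow_eq_one h4
    have h6 : orderOf ((y : G ⧸ O)) = 1 := Nat.eq_one_of_dvd_coprimes (Nat.Coprime.pow_right a hKbc) h3 h5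
    rw [orderOf_eq_one_iff] at h6
    exact (QuotientGroup.eq_one_iff y).1 h6
  have hd1 : O.index ∣ (Subgroup.centralizer (Q : Set G)).relIndex P * P.relIndex (Subgroup.normalizer (Q : Set G)) := by
    have h1 : O.index = O.relIndex (Subgroup.normalizer (Q : Set G)) := by
      rw [← Subgroup.relIndex_top_right, ← hfr, Subgroup.relIndex_sup_left]
    rw [h1]
    have h2 : O.relIndex (Subgroup.normalizer (Q : Set G)) ∣ (Subgroup.centralizer (Q : Set G) ⊓ P).relIndex (Subgroup.normalizer (Q : Set G)) :=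
      Subgroup.relIndex_dvd_of_le_left _ hclaim
    rw [← Subgroup.relIndex_mul_relIndex (Subgroup.centralizer (Q : Set G) ⊓ P) P _ inf_le_right hPN, Subgroup.inf_relIndex_right] at h2
    exact h2
  have hc0 : (Subgroup.centralizer (Q : Set G)).relIndex P ≠ 0 := Subgroup.index_ne_zero_of_finite
  have hr0 : P.relIndex (Subgroup.normalizer (Q : Set G)) ≠ 0 := Subgroup.index_ne_zero_of_finite
  have hfac := (Nat.factorization_le_iff_dvd (Subgroup.index_ne_zero_of_finite) (mul_ne_zero hc0 hr0)).2 hd1 p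
  rw [Nat.factorization_mul hc0 hr0, Finsupp.add_apply, Nat.factorization_eq_zero_of_not_dvd hPi, add_zero] at hfac
  exact hfac

end CfsgLib.RatP19
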