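import Cfsg.Agent.LibRee31

set_option autoImplicit false
set_option linter.unusedSectionVars false
set_option linter.unusedVariables false

/-! The small Ree groups: generation by two elements -/

namespace CfsgLib.ReeA

open Cfsg.Lie CfsgLib.Chev Matrix CfsgLib.Rank1 CfsgLib.SL2P
open scoped commutatorElement

variable {G : Type*} [Group G] [Finite G] {K : Type*} [Field K] [Fintype K] {m : ℕ} (X : RX G K m)

theorem RX.gen {M : Subgroup G} (hU : X.R.U ≤ M) (hH : X.R.H ≤ M) (hn : X.R.n ∈ M) : M = ⊤ := by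
  have hB : ∀ b ∈ X.R.B, b ∈ M := by
    intro b hb
    obtain ⟨u, hu, h, hh, rfl⟩ := X.R.BUH b hb
    exact M.mul_mem (hU hu) (hH hh)
  rw [eq_top_iff]
  intro x _
  by_cases hx : x ∈ X.R.B
  · exact hB x hx
  · obtain ⟨u, hu, b, hb, rfl⟩ := X.R.S.cell x hx
    exact M.mul_mem (M.mul_mem (hU hu) hn) (hB b hb)

include X in
theorem RX.pow_r_sq (s : Kˣ) : (s ^ (3 ^ (m + 1))) ^ (3 ^ (m + 1)) = s ^ 3 := by
  rw [← pow_mul, ← pow_add]
  have : m + 1 + (m + 1) = (2 * m + 1) + 1 := by ring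
  rw [this, pow_succ, pow_mul]
  congr 1
  apply Units.ext
  rw [Units.val_pow_eq_pow_val, ← X.R.hK, FiniteField.pow_card]

theorem RX.χ_one {s : Kˣ} (h : X.χ s = 1) : s = 1 := by
  have h1 := X.χ_pow s
  rw [h, one_mul] at h1
  have h2 := X.pow_r_sq s
  rw [h1, ← pow_mul, mul_comm, pow_mul, h1] at h2
  have h3 : s ^ 3 * s = s ^ 3 := by
    rw [← pow_succ]
    calc s ^ 4 = (s ^ 2) ^ 2 := by rw [← pow_mul]
      _ = s ^ 3 := h2
  exact mul_eq_left.1 h3

theorem RX.χ_inj : Function.Injective X.χ := by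
  rw [injective_iff_map_eq_one]
  intro s hs
  exact X.χ_one hs

theorem RX.χ_surj : Function.Surjective X.χ := Finite.surjective_of_injective X.χ_inj

include X in
theorem RX.sq_one {s : Kˣ} (h : s ^ 2 = 1) : s = 1 ∨ s = -1 := by
  have h3 := congrArg Units.val h
  rw [Units.val_pow_eq_pow_val, Units.val_one, pow_two] at h3
  rcases mul_self_eq_one_iff.1 h3 with h | h
  · exact Or.inl (Units.ext h)
  · exact Or.inr (Units.ext (by rw [h]; simp))

theorem RX.ψ_one {s : Kˣ} (h : X.ψ s = 1) : s = 1 ∨ s = -1 := by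
  have h1 := X.ψ_pow s
  rw [h, one_mul] at h1
  have h2 := X.pow_r_sq s
  rw [← h1, ← h1] at h2
  have h3 : s ^ 2 * s = 1 * s := by rw [one_mul, ← pow_succ]; exact h2.symm
  exact X.sq_one (mul_right_cancel h3)

include X in
theorem RX.pow_q1 (u : Kˣ) : u ^ (3 ^ (2 * m + 1) - 1) = 1 := by
  have h := pow_card_eq_one' (x := u)
  rw [Nat.card_units, Nat.card_eq_fintype_card, X.R.hK] at h
  exact h

/-- -1 is not in the image of ψ -/
theorem RX.ψ_ne_neg (s : Kˣ) : X.ψ s ≠ -1 := by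
  intro h
  have h1 := X.ψ_pow s
  rw [h] at h1
  have hmod := hmod8 m
  have h2 := X.pow_q1 s
  have h3 : s ^ (3 ^ (m + 1) - 1) = -1 := by
    have h4 : s ^ (3 ^ (m + 1)) = s ^ (3 ^ (m + 1) - 1) * s := by
      rw [← pow_succ]; congr 1
      have : 1 ≤ 3 ^ (m + 1) := Nat.one_le_pow _ _ (by norm_num)
      omega
    rw [h4] at h1
    exact (mul_right_cancel h1).symm
  have he : Even (3 ^ (m + 1) - 1) := by
    have : Odd (3 ^ (m + 1)) := Odd.pow (by decide)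
    obtain ⟨k, hk⟩ := this
    exact ⟨k, by omega⟩
  obtain ⟨k, hk⟩ := he
  have h5 : ((s ^ k) ^ 2) ^ ((3 ^ (2 * m + 1) - 1) / 2) = 1 := by
    rw [← pow_mul, Nat.mul_div_cancel' (by omega)]
    exact X.pow_q1 _
  have h6 : (s ^ k) ^ 2 = -1 := by
    rw [← pow_mul, ← h3, hk]; congr 1; ring
  rw [h6] at h5
  have hodd : Odd ((3 ^ (2 * m + 1) - 1) / 2) := by
    rw [Nat.odd_iff]
    generalize 3 ^ (2 * m + 1) = q at *
    omega
  rw [hodd.neg_one_pow] at h5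
  exact X.R.one_ne_neg (by simpa using congrArg Units.val h5.symm)

/-- every unit is plus or minus an element of the image of ψ -/
theorem RX.ψ_pm (a : Kˣ) : ∃ s, a = X.ψ s ∨ a = -X.ψ s := by
  classical
  have hpm : ∀ s, X.ψ (-s) = X.ψ s := by
    intro s
    have : -s = -1 * s := by simp
    rw [this, map_mul, X.ψ_neg_one, one_mul]
  have hker : Nat.card (X.ψ).ker = 2 := by
    have : ((X.ψ).ker : Set Kˣ) = {1, -1} := by
      ext s
      simp only [SetLike.mem_coe, MonoidHom.mem_ker, Set.mem_insert_iff, Set.mem_singleton_iff]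
      constructor
      · exact X.ψ_one
      · rintro (rfl | rfl)
        · exact map_one _
        · exact X.ψ_neg_one
    rw [← SetLike.coe_sort_coe, this, Nat.card_coe_set_eq, Set.ncard_pair]
    intro h
    exact X.R.one_ne_neg (by simpa using congrArg Units.val h)
  have hcard : Nat.card (X.ψ).range * 2 = Nat.card Kˣ := by
    rw [← hker, ← Nat.card_congr (QuotientGroup.quotientKerEquivRange X.ψ).toEquiv]
    exact (Subgroup.card_eq_card_quotient_mul_card_subgroup _).symm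
  -- the negatives
  have h1 : ∀ a, a ∈ (X.ψ).range → -a ∉ (X.ψ).range := by
    rintro a ⟨s, rfl⟩ ⟨s', hs'⟩
    apply X.ψ_ne_neg (s' * s⁻¹)
    rw [map_mul, map_inv, hs', neg_mul, mul_inv_cancel]
  by_contra hcon
  push Not at hcon
  have h2 : a ∉ (X.ψ).range := by
    rintro ⟨s, hs⟩
    exact (hcon s).1 hs.symm
  have h3 : -a ∉ (X.ψ).range := by
    rintro ⟨s, hs⟩
    exact (hcon s).2 (by rw [hs, neg_neg])
  let A : Finset Kˣ := Finset.univ.filter fun a => a ∈ (X.ψ).range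
  let B : Finset Kˣ := Finset.univ.filter fun a => -a ∈ (X.ψ).range
  have hA : A.card = Nat.card (X.ψ).range := by
    rw [Nat.card_eq_fintype_card, Fintype.card_subtype]
  have hB : B.card = A.card := by
    apply Finset.card_bij (fun a _ => -a)
    · intro a ha
      simp only [A, B, Finset.mem_filter, Finset.mem_univ, true_and] at ha ⊢
      exact ha
    · intro a _ b _ e
      exact neg_injective e
    · intro b hb
      refine ⟨-b, ?_, neg_neg b⟩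
      simp only [A, B, Finset.mem_filter, Finset.mem_univ, true_and, neg_neg] at hb ⊢
      exact hb
  have hdis : Disjoint A B := by
    rw [Finset.disjoint_left]
    intro x hx hx'
    simp only [A, B, Finset.mem_filter, Finset.mem_univ, true_and] at hx hx'
    exact h1 x hx hx'
  have hU : (A ∪ B).card = Fintype.card Kˣ := by
    rw [Finset.card_union_of_disjoint hdis, hB, hA, ← Nat.card_eq_fintype_card, ← hcard]; ring
  have h4 := Finset.eq_univ_of_card _ hU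
  have h5 : a ∈ A ∪ B := by rw [h4]; exact Finset.mem_univ _
  rw [Finset.mem_union] at h5
  rcases h5 with h | h
  · simp only [A, Finset.mem_filter, Finset.mem_univ, true_and] at h
    exact h2 h
  · simp only [B, Finset.mem_filter, Finset.mem_univ, true_and] at h
    exact h3 h

/-- the automorphism t ↦ f(t)³ -/
theorem RX.θ_eq (t : K) : X.f t ^ 3 = t ^ (3 ^ (m + 1)) := by
  rw [X.hf, ← pow_mul, pow_succ]

theorem RX.exists_θ_ne (hm : 1 ≤ m) : ∃ t : K, X.f t ^ 3 ≠ t := by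
  by_contra hcon
  push Not at hcon
  have h1 : ∀ t : Kˣ, t ^ (3 ^ (m + 1) - 1) = 1 := by
    intro t
    have h2 := hcon t
    rw [X.θ_eq] at h2
    have h4 : t ^ (3 ^ (m + 1)) = t ^ (3 ^ (m + 1) - 1) * t := by
      rw [← pow_succ]; congr 1
      have : 1 ≤ 3 ^ (m + 1) := Nat.one_le_pow _ _ (by norm_num)
      omega
    have h5 : t ^ (3 ^ (m + 1)) = t := Units.ext (by rw [Units.val_pow_eq_pow_val]; exact h2)
    rw [h4] at h5
    exact mul_eq_right.1 h5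
  have hc : IsCyclic Kˣ := inferInstance
  obtain ⟨g, hg⟩ := hc.exists_generator
  have ho := orderOf_eq_card_of_forall_mem_zpowers hg
  rw [Nat.card_units, Nat.card_eq_fintype_card, X.R.hK] at ho
  have h2 := orderOf_dvd_of_pow_eq_one (h1 g)
  rw [ho] at h2
  have h3 : 3 ^ (m + 1) < 3 ^ (2 * m + 1) := Nat.pow_lt_pow_right (by norm_num) (by omega)
  have h4 : 3 ≤ 3 ^ (m + 1) := by
    calc 3 = 3 ^ 1 := by norm_num
      _ ≤ _ := Nat.pow_le_pow_right (by norm_num) (by omega)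
  have := Nat.le_of_dvd (by omega) h2
  omega

/-- a subgroup containing H and an element of U outside of U' contains U -/
theorem RX.U_le (hm : 1 ≤ m) {M : Subgroup G} (hH : X.R.H ≤ M) {t u v : K} (ht : t ≠ 0) (hx : X.x t u v ∈ M) : X.R.U ≤ M := by
  have hhM : ∀ s, X.h s ∈ M := fun s => hH ((X.h_H _).2 ⟨s, rfl⟩)
  -- all the t-coordinates occur
  have s1 : ∀ t', ∃ u' v', X.x t' u' v' ∈ M := by
    intro t'
    by_cases ht' : t' = 0
    · exact ⟨0, 0, by rw [ht', X.x_one]; exact M.one_mem⟩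
    · obtain ⟨s, hs⟩ := X.χ_surj (Units.mk0 (t' / t) (div_ne_zero ht' ht))
      refine ⟨X.ψ s * u, s * v, ?_⟩
      have h1 := X.h_x s t u v
      rw [hs] at h1
      have h2 : ((Units.mk0 (t' / t) (div_ne_zero ht' ht) : Kˣ) : K) * t = t' := by
        rw [Units.val_mk0]; field_simp
      rw [h2] at h1
      rw [← h1]
      exact M.mul_mem (M.mul_mem (hhM s) hx) (M.inv_mem (hhM s))
  -- a nontrivial u-coordinate
  have s2 : ∃ u', u' ≠ 0 ∧ ∃ v', X.x 0 u' v' ∈ M := by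
    obtain ⟨t1, ht1⟩ := X.exists_θ_ne hm
    obtain ⟨u1, v1, h1⟩ := s1 t1
    obtain ⟨u2, v2, h2⟩ := s1 1
    have h3 : ∀ a b c a' b' c', X.x a b c * X.x a' b' c' = X.x a' b' c' * X.x a b c * X.x 0 (a' * X.f a ^ 3 - a * X.f a' ^ 3)
        ((c + c' - b * a' - a ^ 2 * X.f a' ^ 3 + a * a' * X.f a' ^ 3) - (c' + c - b' * a - a' ^ 2 * X.f a ^ 3 + a' * a * X.f a ^ 3)) := by
      intro a b c a' b' c'
      rw [X.x_mul, X.x_mul, X.x_mul, map_zero]
      congr 1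
      · ring
      · ring
      · ring
    have h4 := h3 t1 u1 v1 1 u2 v2
    refine ⟨1 * X.f t1 ^ 3 - t1 * X.f 1 ^ 3, ?_, ((v1 + v2 - u1 * 1 - t1 ^ 2 * X.f 1 ^ 3 + t1 * 1 * X.f 1 ^ 3) - (v2 + v1 - u2 * t1 - 1 ^ 2 * X.f t1 ^ 3 + 1 * t1 * X.f t1 ^ 3)), ?_⟩
    · rw [map_one, one_pow, mul_one, one_mul]
      exact sub_ne_zero.2 ht1
    · have h5 : X.x 0 (1 * X.f t1 ^ 3 - t1 * X.f 1 ^ 3) ((v1 + v2 - u1 * 1 - t1 ^ 2 * X.f 1 ^ 3 + t1 * 1 * X.f 1 ^ 3) - (v2 + v1 - u2 * t1 - 1 ^ 2 * X.f t1 ^ 3 + 1 * t1 * X.f t1 ^ 3)) =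
          (X.x 1 u2 v2 * X.x t1 u1 v1)⁻¹ * (X.x t1 u1 v1 * X.x 1 u2 v2) := by
        rw [h4]; group
      rw [h5]
      exact M.mul_mem (M.inv_mem (M.mul_mem h2 h1)) (M.mul_mem h1 h2)
  -- all u-coordinates
  have s3 : ∀ u', ∃ v', X.x 0 u' v' ∈ M := by
    obtain ⟨u1, hu1, v1, h1⟩ := s2
    intro u'
    by_cases hu' : u' = 0
    · exact ⟨0, by rw [hu', X.x_one]; exact M.one_mem⟩
    · obtain ⟨s, hs⟩ := X.ψ_pm (Units.mk0 (u' / u1) (div_ne_zero hu' hu1))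
      have h2 := X.h_conj0 s u1 v1
      have h3 : X.x 0 (X.ψ s * u1) (s * v1) ∈ M := by
        rw [← h2]
        exact M.mul_mem (M.mul_mem (hhM s) h1) (M.inv_mem (hhM s))
      rcases hs with hs | hs
      · refine ⟨s * v1, ?_⟩
        have h4 : (X.ψ s : K) * u1 = u' := by
          rw [← hs, Units.val_mk0]; field_simp
        rwa [h4] at h3
      · refine ⟨-(s * v1), ?_⟩
        have h4 : -((X.ψ s : K) * u1) = u' := by
          have : ((-X.ψ s : Kˣ) : K) * u1 = u' := by rw [← hs, Units.val_mk0]; field_simp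
          rw [← this]; simp
        have h5 : X.x 0 u' (-(s * v1)) = (X.x 0 (X.ψ s * u1) (s * v1))⁻¹ := by
          rw [eq_inv_iff_mul_eq_one, X.x0_mul, ← X.x_one, ← h4]
          congr 1 <;> ring
        rw [h5]
        exact M.inv_mem h3
  -- the centre
  have s4 : ∀ v', X.x 0 0 v' ∈ M := by
    intro v'
    obtain ⟨v1, h1⟩ := s3 v'
    obtain ⟨u2, v2, h2⟩ := s1 1
    have h3 := X.x_conj0 1 v' v1 u2 v2
    have h4 : X.x 0 0 v' = X.x 0 v' (v1 + v' * 1) * (X.x 0 v' v1)⁻¹ := by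
      rw [eq_mul_inv_iff_mul_eq, X.x0_mul]
      congr 1 <;> ring
    rw [h4, ← h3]
    exact M.mul_mem (M.mul_mem (M.mul_mem h2 h1) (M.inv_mem h2)) (M.inv_mem h1)
  intro g hg
  obtain ⟨a, b, c, rfl⟩ := (X.x_U g).1 hg
  obtain ⟨b1, c1, h1⟩ := s1 a
  obtain ⟨c2, h2⟩ := s3 (b - b1)
  have h3 := s4 (c - c1 - c2)
  have h4 : X.x a b c = X.x a b1 c1 * (X.x 0 (b - b1) c2 * X.x 0 0 (c - c1 - c2)) := by
    rw [X.x0_mul, X.x_mul]
    congr 1
    · ring
    · simp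
    · simp
  rw [h4]
  exact M.mul_mem h1 (M.mul_mem h2 h3)

include X in
/-- a Ree group is generated by two elements -/
theorem RX.two_gen (hm : 1 ≤ m) : ∃ a b : G, Subgroup.closure ({a, b} : Set G) = ⊤ := by
  obtain ⟨g, hg⟩ := (inferInstance : IsCyclic Kˣ).exists_generator
  refine ⟨X.h g, X.x 1 0 0 * X.R.n, ?_⟩
  set M := Subgroup.closure ({X.h g, X.x 1 0 0 * X.R.n} : Set G) with hM
  have h1 : X.h g ∈ M := Subgroup.subset_closure (by simp)
  have h2 : X.x 1 0 0 * X.R.n ∈ M := Subgroup.subset_closure (by simp)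
  have hH : X.R.H ≤ M := by
    intro y hy
    obtain ⟨s, rfl⟩ := (X.h_H y).1 hy
    obtain ⟨k, rfl⟩ := Subgroup.mem_zpowers_iff.1 (hg s)
    rw [map_zpow]
    exact M.zpow_mem h1 k
  have hgne : g ≠ 1 := by
    intro h
    have ho := orderOf_eq_card_of_forall_mem_zpowers hg
    rw [h, orderOf_one, Nat.card_units, Nat.card_eq_fintype_card, X.R.hK] at ho
    have h3 : 3 ^ 1 ≤ 3 ^ (2 * m + 1) := Nat.pow_le_pow_right (by norm_num) (by omega)
    omega
  have h3 : X.x 1 0 0 * (X.h g⁻¹ * X.x 1 0 0 * (X.h g⁻¹)⁻¹)⁻¹ ∈ M := by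
    have e : X.x 1 0 0 * (X.h g⁻¹ * X.x 1 0 0 * (X.h g⁻¹)⁻¹)⁻¹ = (X.x 1 0 0 * X.R.n) * X.h g * (X.x 1 0 0 * X.R.n)⁻¹ * X.h g := by
      have h4 := X.R.ninv (X.h g) ((X.h_H _).2 ⟨g, rfl⟩)
      calc X.x 1 0 0 * (X.h g⁻¹ * X.x 1 0 0 * (X.h g⁻¹)⁻¹)⁻¹ = X.x 1 0 0 * (X.h g)⁻¹ * (X.x 1 0 0)⁻¹ * X.h g := by rw [map_inv]; group
        _ = X.x 1 0 0 * (X.R.n * X.h g * X.R.n⁻¹) * (X.x 1 0 0)⁻¹ * X.h g := by rw [h4]
        _ = _ := by group
    rw [e]
    exact M.mul_mem (M.mul_mem (M.mul_mem h2 h1) (M.inv_mem h2)) h1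
  have h4 : X.h g⁻¹ * X.x 1 0 0 * (X.h g⁻¹)⁻¹ = X.x (X.χ g⁻¹) 0 0 := by
    rw [X.h_x]; simp
  rw [h4] at h3
  -- the t-coordinate
  have h5 : ∃ t u v, t ≠ 0 ∧ X.x 1 0 0 * (X.x (X.χ g⁻¹) 0 0)⁻¹ = X.x t u v := by
    have hmem : X.x 1 0 0 * (X.x (X.χ g⁻¹) 0 0)⁻¹ ∈ X.R.U :=
      X.R.U.mul_mem ((X.x_U _).2 ⟨_, _, _, rfl⟩) (X.R.U.inv_mem ((X.x_U _).2 ⟨_, _, _, rfl⟩))
    obtain ⟨t, u, v, e⟩ := (X.x_U _).1 hmem
    refine ⟨t, u, v, ?_, e⟩
    rintro rfl
    have e2 : X.x 1 0 0 = X.x 0 u v * X.x (X.χ g⁻¹) 0 0 := by rw [← e]; group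
    rw [X.x_mul] at e2
    obtain ⟨e3, _⟩ := X.x_inj _ _ _ _ _ _ e2
    rw [zero_add] at e3
    have e4 : X.χ g⁻¹ = 1 := Units.ext (by rw [← e3]; rfl)
    exact hgne (inv_eq_one.1 (X.χ_one e4))
  obtain ⟨t, u, v, ht, e⟩ := h5
  rw [e] at h3
  have hU := X.U_le hm hH ht h3
  apply X.gen hU hH
  have : X.R.n = (X.x 1 0 0)⁻¹ * (X.x 1 0 0 * X.R.n) := by group
  rw [this]
  exact M.mul_mem (M.inv_mem (hU ((X.x_U _).2 ⟨_, _, _, rfl⟩))) h2

end CfsgLib.ReeA
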