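import Cfsg.Agent.LibRee32
import Cfsg.Agent.LibRee28

set_option autoImplicit false
set_option linter.unusedSectionVars false
set_option linter.unusedVariables false

/-! The small Ree groups: normalising an automorphism -/

namespace CfsgLib.ReeA

open Cfsg.Lie CfsgLib.Chev Matrix CfsgLib.Rank1 CfsgLib.SL2P
open scoped commutatorElement

variable {G : Type*} [Group G] [Finite G] {K : Type*} [Field K] [Fintype K] {m : ℕ} (X : RX G K m)

theorem RX.hH (s : Kˣ) : X.h s ∈ X.R.H := (X.h_H _).2 ⟨s, rfl⟩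
theorem RX.xU (t u v : K) : X.x t u v ∈ X.R.U := (X.x_U _).2 ⟨t, u, v, rfl⟩

/-- the square of a product of conjugates -/
theorem RX.x_split (t u v : K) : X.x t u v = X.x t 0 0 * X.x 0 u v := by
  rw [X.x_mul]; congr 1 <;> simp

theorem RX.x0_inv (u v : K) : (X.x 0 u v)⁻¹ = X.x 0 (-u) (-v) := by
  rw [inv_eq_iff_mul_eq_one, X.x0_mul, ← X.x_one]; congr 1 <;> ring

theorem RX.x_cube (t u v : K) : (X.x t u v) ^ 3 = X.x 0 0 (-(t ^ 2 * X.f t ^ 3)) := by
  have h3 := X.three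
  rw [pow_three, X.x_mul, X.x_mul]
  congr 1
  · linear_combination t * h3
  · rw [map_add]
    have : (X.f t + X.f t) ^ 3 = 2 * X.f t ^ 3 + 6 * X.f t ^ 3 := by ring
    rw [this]
    linear_combination (u - 3 * t * X.f t ^ 3) * h3
  · rw [map_add]
    have : (X.f t + X.f t) ^ 3 = 2 * X.f t ^ 3 + 6 * X.f t ^ 3 := by ring
    rw [this]
    linear_combination (v - u * t + 3 * t ^ 2 * X.f t ^ 3) * h3

theorem RX.x_cube_one {t u v : K} : (X.x t u v) ^ 3 = 1 ↔ t = 0 := by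
  rw [X.x_cube, X.x_eq_one]
  constructor
  · rintro ⟨_, _, h⟩
    have h5 : t ^ 2 * X.f t ^ 3 = 0 := neg_eq_zero.1 h
    rcases mul_eq_zero.1 h5 with h | h
    · exact eq_zero_of_pow_eq_zero h
    · have h6 := eq_zero_of_pow_eq_zero h
      exact X.f.injective (by rw [h6, map_zero])
  · rintro rfl
    simp

theorem RX.χ_neg_one : X.χ (-1) = -1 := by
  have h := X.χ_pow (-1)
  have hodd : Odd (3 ^ (m + 1)) := Odd.pow (by decide)
  rw [hodd.neg_one_pow, mul_neg, mul_one, pow_two, neg_mul_neg, mul_one] at h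
  exact neg_eq_iff_eq_neg.1 h

include X in
theorem RX.neg_self {v : K} (h : -v = v) : v = 0 := by
  have h8 := X.three
  have h1 : v + v = 0 := by nth_rewrite 1 [← h]; ring
  have h2 : (3 : K) * v = v + v + v := by ring
  rw [h8, zero_mul, h1, zero_add] at h2
  exact h2.symm

theorem RX.τ_x (t u v : K) : X.R.τ * X.x t u v * X.R.τ⁻¹ = X.x (-t) u (-v) := by
  rw [X.τ_eq, X.h_x, X.χ_neg_one, X.ψ_neg_one]
  congr 1
  · simp
  · simp
  · simp

/-- elements of U commuting with the involution -/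
theorem RX.comm_τ {t u v : K} : X.R.τ * X.x t u v = X.x t u v * X.R.τ ↔ t = 0 ∧ v = 0 := by
  rw [← mul_inv_eq_iff_eq_mul, X.τ_x]
  constructor
  · intro h
    obtain ⟨h1, _, h2⟩ := X.x_inj _ _ _ _ _ _ h
    exact ⟨X.neg_self h1, X.neg_self h2⟩
  · rintro ⟨rfl, rfl⟩
    simp

include X in
/-- every unit is plus or minus a square -/
theorem RX.pm_sq (v : Kˣ) : ∃ s : Kˣ, v = s ^ 2 ∨ v = -1 * s ^ 2 := by
  have hq := hmod8 m
  have h0 := X.pow_q1 v
  generalize 3 ^ (2 * m + 1) = q at *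
  have h1 : (v ^ ((q - 1) / 2)) ^ 2 = 1 := by
    rw [← pow_mul]
    have : (q - 1) / 2 * 2 = q - 1 := by omega
    rw [this]
    exact h0
  have h3 : (v ^ ((q + 1) / 4)) ^ 2 = v * v ^ ((q - 1) / 2) := by
    rw [← pow_mul, ← pow_succ']
    congr 1
    omega
  refine ⟨v ^ ((q + 1) / 4), ?_⟩
  rcases X.sq_one h1 with h | h
  · left
    rw [h3, h, mul_one]
  · right
    rw [h3, h]; simp

include X in
theorem RX.sq_ne_neg (s : Kˣ) : s ^ 2 ≠ -1 := by
  intro h
  have hmod := hmod8 m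
  have h1 := X.pow_q1 s
  generalize 3 ^ (2 * m + 1) = q at *
  have h5 : (s ^ 2) ^ ((q - 1) / 2) = 1 := by
    rw [← pow_mul, Nat.mul_div_cancel' (by omega)]
    exact h1
  rw [h] at h5
  have hodd : Odd ((q - 1) / 2) := by
    rw [Nat.odd_iff]; omega
  rw [hodd.neg_one_pow] at h5
  exact X.R.one_ne_neg (by simpa using congrArg Units.val h5.symm)

/-- B is the normaliser of U -/
theorem RX.B_iff {b : G} : b ∈ X.R.B ↔ ∀ u ∈ X.R.U, b * u * b⁻¹ ∈ X.R.U := by
  constructor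
  · intro hb u hu
    exact X.R.Bnorm hb hu
  · intro h
    have h1 : X.x 0 0 1 ≠ 1 := by
      intro h2
      have := (X.x_eq_one.1 h2).2.2
      exact one_ne_zero this
    exact X.R.U_TI (X.xU 0 0 1) h1 (h _ (X.xU 0 0 1))

/-- H is the intersection of B and its conjugate -/
theorem RX.H_iff {y : G} : y ∈ X.R.H ↔ y ∈ X.R.B ∧ X.R.n⁻¹ * y * X.R.n ∈ X.R.B := by
  constructor
  · intro h
    exact ⟨X.R.S.HB h, X.R.S.HB (X.R.S.Hn y h)⟩
  · rintro ⟨h1, h2⟩
    exact X.R.S.BB y h1 h2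

/-- the automorphisms preserving the standard subgroups -/
structure RX.N0 (α : G ≃* G) : Prop where
  U : ∀ g, α g ∈ X.R.U ↔ g ∈ X.R.U
  H : ∀ g, α g ∈ X.R.H ↔ g ∈ X.R.H

/-- and the monomial element -/
structure RX.N1 (α : G ≃* G) : Prop extends RX.N0 X α where
  n : α X.R.n = X.R.n

/-- conjugation as an automorphism -/
theorem conj_trans (α : G ≃* G) (g x : G) : (α.trans (MulAut.conj g)) x = g * α x * g⁻¹ := rfl

theorem RX.exists_N0 (α : G ≃* G) : ∃ g, X.N0 (α.trans (MulAut.conj g)) := by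
  have : Fact (Nat.Prime 3) := ⟨Nat.prime_three⟩
  -- Sylow
  obtain ⟨P, hP⟩ := X.R.syl3 X.R.U X.R.cU
  have hc : Nat.card ↥(X.R.U.map α.toMonoidHom) = (3 ^ (2 * m + 1)) ^ 3 := by
    rw [← X.R.cU]
    exact (Nat.card_congr (X.R.U.equivMapOfInjective α.toMonoidHom α.injective).toEquiv).symm
  obtain ⟨Q, hQ⟩ := X.R.syl3 _ hc
  obtain ⟨g, hg⟩ := MulAction.exists_smul_eq G Q P
  have h1 : ∀ x, g * α x * g⁻¹ ∈ X.R.U ↔ x ∈ X.R.U := by
    intro x
    have h2 : g * α x * g⁻¹ ∈ X.R.U ↔ α x ∈ X.R.U.map α.toMonoidHom := by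
      rw [hQ, hP, ← hg]
      show g * α x * g⁻¹ ∈ ((g • Q : Sylow 3 G) : Subgroup G) ↔ _
      rw [Sylow.coe_subgroup_smul, Subgroup.mem_pointwise_smul_iff_inv_smul_mem]
      have : (MulAut.conj g)⁻¹ • (g * α x * g⁻¹) = α x := by
        rw [← map_inv, MulAut.smul_def, MulAut.conj_apply]; group
      rw [this]
    rw [h2]
    constructor
    · rintro ⟨y, hy, e⟩
      have : y = x := α.injective e
      rw [← this]; exact hy
    · intro hx; exact ⟨x, hx, rfl⟩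
  set β := α.trans (MulAut.conj g) with hβ
  have hβU : ∀ x, β x ∈ X.R.U ↔ x ∈ X.R.U := h1
  have hβB : ∀ x, β x ∈ X.R.B ↔ x ∈ X.R.B := by
    intro x
    rw [X.B_iff, X.B_iff]
    constructor
    · intro h u hu
      have h2 := h (β u) ((hβU u).2 hu)
      rw [← map_mul, ← map_inv, ← map_mul] at h2
      exact (hβU _).1 h2
    · intro h u hu
      have h2 := h (β.symm u) (by rw [← hβU, β.apply_symm_apply]; exact hu)
      rw [← hβU, map_mul, map_mul, map_inv, β.apply_symm_apply] at h2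
      exact h2
  have hnB : β X.R.n ∉ X.R.B := fun h => X.R.S.nB ((hβB _).1 h)
  obtain ⟨u, hu, b, hb, e⟩ := X.R.S.cell _ hnB
  refine ⟨u⁻¹ * g, ?_, ?_⟩
  · intro x
    have e1 : (α.trans (MulAut.conj (u⁻¹ * g))) x = u⁻¹ * β x * u := by
      rw [conj_trans, hβ, conj_trans]; group
    rw [e1, ← hβU x]
    constructor
    · intro h
      have : β x = u * (u⁻¹ * β x * u) * u⁻¹ := by group
      rw [this]
      exact X.R.U.mul_mem (X.R.U.mul_mem hu h) (X.R.U.inv_mem hu)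
    · intro h
      exact X.R.U.mul_mem (X.R.U.mul_mem (X.R.U.inv_mem hu) h) hu
  · intro x
    have e1 : (α.trans (MulAut.conj (u⁻¹ * g))) x = u⁻¹ * β x * u := by
      rw [conj_trans, hβ, conj_trans]; group
    have huB := X.R.S.UB hu
    rw [e1, X.H_iff, X.H_iff (y := x)]
    have a1 : u⁻¹ * β x * u ∈ X.R.B ↔ x ∈ X.R.B := by
      rw [← hβB x]
      constructor
      · intro h
        have : β x = u * (u⁻¹ * β x * u) * u⁻¹ := by group
        rw [this]
        exact X.R.B.mul_mem (X.R.B.mul_mem huB h) (X.R.B.inv_mem huB)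
      · intro h
        exact X.R.B.mul_mem (X.R.B.mul_mem (X.R.B.inv_mem huB) h) huB
    have a2 : X.R.n⁻¹ * (u⁻¹ * β x * u) * X.R.n ∈ X.R.B ↔ X.R.n⁻¹ * x * X.R.n ∈ X.R.B := by
      rw [← hβB (X.R.n⁻¹ * x * X.R.n), map_mul, map_mul, map_inv, e]
      have e2 : (u * X.R.n * b)⁻¹ * β x * (u * X.R.n * b) = b⁻¹ * (X.R.n⁻¹ * (u⁻¹ * β x * u) * X.R.n) * b := by group
      rw [e2]
      constructor
      · intro h
        exact X.R.B.mul_mem (X.R.B.mul_mem (X.R.B.inv_mem hb) h) hb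
      · intro h
        have : X.R.n⁻¹ * (u⁻¹ * β x * u) * X.R.n = b * (b⁻¹ * (X.R.n⁻¹ * (u⁻¹ * β x * u) * X.R.n) * b) * b⁻¹ := by group
        rw [this]
        exact X.R.B.mul_mem (X.R.B.mul_mem hb h) (X.R.B.inv_mem hb)
    rw [a1, a2]

theorem RX.N0.τ {α : G ≃* G} (h : X.N0 α) : α X.R.τ = X.R.τ := by
  apply X.R.unique_inv
  · exact (h.H _).2 X.R.τH
  · intro h1
    exact X.R.τ1 (α.injective (by rw [h1, map_one]))
  · rw [← map_mul, X.R.τ2, map_one]

/-- elements of order dividing 3 commuting with the involution -/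
theorem RX.ord3 {x : G} (h1 : X.R.τ * x = x * X.R.τ) (h3 : x ^ 3 = 1) : x ∈ X.R.φ.range := by
  obtain ⟨A, hA⟩ := (X.R.cen x).1 h1
  rcases hA with h | h
  · exact ⟨A, h.symm⟩
  · exfalso
    have h2 : x ^ 3 = X.R.τ * X.R.φ (A ^ 3) := by
      have hc : Commute X.R.τ (X.R.φ A) := X.R.τcen A
      rw [h, hc.mul_pow, map_pow]
      congr 1
      rw [pow_succ, pow_two, X.R.τ2, one_mul]
    rw [h3] at h2
    have h4 : X.R.φ (A ^ 3)⁻¹ = X.R.τ := by
      rw [map_inv]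
      exact (eq_inv_of_mul_eq_one_left h2.symm).symm
    exact X.R.τφ _ h4

theorem xx_pow3 (h3 : (3 : K) = 0) (a : K) : (xx a ^ 3 : Matrix.SpecialLinearGroup (Fin 2) K) = 1 := by
  rw [pow_three]
  apply ext2 <;> simp only [m00, m01, m10, m11, x00, x01, x10, x11]
  · simp
  · have : (1 : Matrix.SpecialLinearGroup (Fin 2) K) 0 1 = 0 := rfl
    rw [this]
    linear_combination a * h3
  · simp
  · simp

theorem yy_pow3 (h3 : (3 : K) = 0) (a : K) : (yy a ^ 3 : Matrix.SpecialLinearGroup (Fin 2) K) = 1 := by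
  rw [yy_eq, conj_pow, xx_pow3 h3, mul_one, mul_inv_cancel]

theorem ww_eq : (ww : Matrix.SpecialLinearGroup (Fin 2) K) = xx 1 * yy (-1) * xx 1 := by
  apply ext2 <;> simp only [m00, m01, m10, m11, x00, x01, x10, x11, y00, y01, y10, y11, w00, w01, w10, w11] <;> ring

theorem RX.n_range {α : G ≃* G} (h : X.N0 α) : α X.R.n ∈ X.R.φ.range := by
  have key : ∀ A : Matrix.SpecialLinearGroup (Fin 2) K, A ^ 3 = 1 → α (X.R.φ A) ∈ X.R.φ.range := by
    intro A hA
    apply X.ord3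
    · rw [← RX.N0.τ X h, ← map_mul, ← map_mul, X.R.τcen]
    · rw [← map_pow, ← map_pow, hA, map_one, map_one]
  rw [← X.R.hw, ww_eq, map_mul, map_mul, map_mul, map_mul]
  exact Subgroup.mul_mem _ (Subgroup.mul_mem _ (key _ (xx_pow3 X.three 1)) (key _ (yy_pow3 X.three (-1)))) (key _ (xx_pow3 X.three 1))

/-- an element of H lying in the image of SL₂ is a square in H -/
theorem RX.H_sq {y : G} (hy : y ∈ X.R.H) (hL : y ∈ X.R.φ.range) : ∃ s, y = X.h (s ^ 2) := by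
  obtain ⟨v, rfl⟩ := (X.h_H y).1 hy
  obtain ⟨s, hs⟩ := X.pm_sq v
  rcases hs with rfl | rfl
  · exact ⟨s, rfl⟩
  · exfalso
    obtain ⟨A, hA⟩ := hL
    have h1 : ∃ B, X.h (s ^ 2) = X.R.φ B := by
      have h2 : X.R.τ * X.h s = X.h s * X.R.τ := X.R.Hcomm X.R.τH (X.hH s)
      obtain ⟨B, hB⟩ := (X.R.cen _).1 h2
      refine ⟨B * B, ?_⟩
      rw [pow_two, map_mul, map_mul]
      rcases hB with h | h
      · rw [h]
      · rw [h]
        calc X.R.τ * X.R.φ B * (X.R.τ * X.R.φ B) = X.R.τ * (X.R.φ B * X.R.τ) * X.R.φ B := by group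
          _ = X.R.τ * X.R.τ * X.R.φ B * X.R.φ B := by rw [← X.R.τcen]; group
          _ = _ := by rw [X.R.τ2, one_mul]
    obtain ⟨B, hB⟩ := h1
    rw [map_mul, hB, ← X.τ_eq] at hA
    apply X.R.τφ (A * B⁻¹)
    rw [map_mul, hA, map_inv, mul_inv_cancel_right]

/-- the image of n -/
theorem RX.N0.n_eq (hm : 1 ≤ m) {α : G ≃* G} (h : X.N0 α) : ∃ s, α X.R.n = X.R.n * X.h (s ^ 2) := by
  have h1 : α X.R.n ∈ Subgroup.normalizer (X.R.H : Set G) := by
    rw [Subgroup.mem_normalizer_iff]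
    intro y
    obtain ⟨z, rfl⟩ := α.surjective y
    rw [← map_mul, ← map_inv, ← map_mul]
    show α z ∈ X.R.H ↔ α (X.R.n * z * X.R.n⁻¹) ∈ X.R.H
    rw [h.H, h.H]
    constructor
    · intro hz
      rw [X.R.ninv z hz]
      exact X.R.H.inv_mem hz
    · intro hz
      have : z = X.R.n⁻¹ * (X.R.n * z * X.R.n⁻¹) * X.R.n := by group
      rw [this]
      exact X.R.S.Hn _ hz
  rcases (X.R.norm_H_mem hm).1 h1 with h2 | h2
  · exfalso
    exact X.R.n_notH ((h.H _).1 h2)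
  · have h3 : X.R.n * α X.R.n ∈ X.R.φ.range := by
      refine Subgroup.mul_mem _ ⟨ww, X.R.hw⟩ (X.n_range h)
    obtain ⟨s, hs⟩ := X.H_sq h2 h3
    refine ⟨s, ?_⟩
    rw [← hs, ← mul_assoc, X.R.n2, one_mul]

theorem RX.N0.fix (hm : 1 ≤ m) {α : G ≃* G} (h : X.N0 α) {s : Kˣ} (hs : α X.R.n = X.R.n * X.h (s ^ 2)) :
    X.N1 (α.trans (MulAut.conj (X.h s))) := by
  refine ⟨⟨?_, ?_⟩, ?_⟩
  · intro g
    rw [conj_trans, ← h.U g]
    constructor
    · intro h1
      have : α g = (X.h s)⁻¹ * (X.h s * α g * (X.h s)⁻¹) * ((X.h s)⁻¹)⁻¹ := by group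
      rw [this]
      exact X.R.S.HU _ (X.R.H.inv_mem (X.hH s)) _ h1
    · intro h1
      exact X.R.S.HU _ (X.hH s) _ h1
  · intro g
    rw [conj_trans, ← h.H g]
    constructor
    · intro h1
      have : α g = (X.h s)⁻¹ * (X.h s * α g * (X.h s)⁻¹) * X.h s := by group
      rw [this]
      exact X.R.H.mul_mem (X.R.H.mul_mem (X.R.H.inv_mem (X.hH s)) h1) (X.hH s)
    · intro h1
      exact X.R.H.mul_mem (X.R.H.mul_mem (X.hH s) h1) (X.R.H.inv_mem (X.hH s))
  · rw [conj_trans, hs]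
    have h1 : X.h s * X.R.n = X.R.n * (X.h s)⁻¹ := by
      have h2 := X.R.ninv' (X.hH s)
      rw [← h2]; group
    rw [← mul_assoc, h1, pow_two, map_mul]
    group

end CfsgLib.ReeA
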