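import Cfsg.Agent.LibRee33

set_option autoImplicit false
set_option linter.unusedSectionVars false
set_option linter.unusedVariables false

/-! The small Ree groups: the shape of an automorphism preserving the standard subgroups -/

namespace CfsgLib.ReeA

open Cfsg.Lie CfsgLib.Chev Matrix CfsgLib.Rank1 CfsgLib.SL2P
open scoped commutatorElement

variable {G : Type*} [Group G] [Finite G] {K : Type*} [Field K] [Fintype K] {m : ℕ} (X : RX G K m)

/-- Q(v): the action on the centre of U -/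
theorem RX.N0.Z {α : G ≃* G} (h : X.N0 α) : ∃ Q : K → K, ∀ v, α (X.x 0 0 v) = X.x 0 0 (Q v) := by
  have : ∀ v, ∃ w, α (X.x 0 0 v) = X.x 0 0 w := by
    intro v
    obtain ⟨t, u, w, e⟩ := (X.x_U _).1 ((h.U _).2 (X.xU 0 0 v))
    have h1 : (α (X.x 0 0 v)) ^ 3 = 1 := by
      rw [← map_pow, X.x_cube_one.2 rfl, map_one]
    rw [e, X.x_cube_one] at h1
    subst h1
    have h2 : X.R.τ * X.x 0 0 v * X.R.τ⁻¹ = (X.x 0 0 v)⁻¹ := by
      rw [X.τ_x, X.x0_inv]; simp
    have h3 := congrArg α h2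
    rw [map_mul, map_mul, map_inv, map_inv, RX.N0.τ X h, e, X.τ_x, X.x0_inv] at h3
    obtain ⟨_, h4, _⟩ := X.x_inj _ _ _ _ _ _ h3
    have h5 := X.neg_self h4.symm
    subst h5
    exact ⟨w, e⟩
  exact ⟨fun v => (this v).choose, fun v => (this v).choose_spec⟩

theorem RX.N0.P {α : G ≃* G} (h : X.N0 α) : ∃ P : K → K, ∀ u, α (X.x 0 u 0) = X.x 0 (P u) 0 := by
  have : ∀ u, ∃ w, α (X.x 0 u 0) = X.x 0 w 0 := by
    intro v
    obtain ⟨t, u, w, e⟩ := (X.x_U _).1 ((h.U _).2 (X.xU 0 v 0))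
    have h2 : X.R.τ * X.x 0 v 0 = X.x 0 v 0 * X.R.τ := X.comm_τ.2 ⟨rfl, rfl⟩
    have h3 := congrArg α h2
    rw [map_mul, map_mul, RX.N0.τ X h, e, X.comm_τ] at h3
    obtain ⟨rfl, rfl⟩ := h3
    exact ⟨u, e⟩
  exact ⟨fun v => (this v).choose, fun v => (this v).choose_spec⟩

theorem RX.N0.hh {α : G ≃* G} (h : X.N0 α) : ∃ μ : Kˣ → Kˣ, ∀ s, α (X.h s) = X.h (μ s) := by
  have : ∀ s, ∃ s', α (X.h s) = X.h s' := fun s => (X.h_H _).1 ((h.H _).2 (X.hH s))
  exact ⟨fun v => (this v).choose, fun v => (this v).choose_spec⟩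

theorem RX.N0.A {α : G ≃* G} (h : X.N0 α) : ∃ A p q : K → K, ∀ t, α (X.x t 0 0) = X.x (A t) (p t) (q t) := by
  have : ∀ t, ∃ a b c, α (X.x t 0 0) = X.x a b c := fun t => (X.x_U _).1 ((h.U _).2 (X.xU t 0 0))
  choose A p q H using this
  exact ⟨A, p, q, H⟩

/-- the field automorphism attached to an automorphism -/
theorem RX.N0.field {α : G ≃* G} (h : X.N0 α) : ∃ σ : K ≃+* K, ∃ c : K, c ≠ 0 ∧ (∀ v, α (X.x 0 0 v) = X.x 0 0 (c * σ v)) ∧
    (∀ s, α (X.h s) = X.h (Units.map (σ : K →* K) s)) := by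
  obtain ⟨Q, hQ⟩ := RX.N0.Z X h
  obtain ⟨μ, hμ⟩ := RX.N0.hh X h
  have hadd : ∀ v w, Q (v + w) = Q v + Q w := by
    intro v w
    have h1 := congrArg α (X.x0_mul 0 v 0 w)
    rw [map_mul, hQ, hQ, X.x0_mul, add_zero, hQ] at h1
    exact (X.x_inj _ _ _ _ _ _ h1).2.2.symm
  have hmul : ∀ (s : Kˣ) (v : K), Q (s * v) = μ s * Q v := by
    intro s v
    have h1 := congrArg α (X.h_conj0 s 0 v)
    rw [mul_zero, hQ, map_mul, map_mul, map_inv, hμ, hQ, X.h_conj0] at h1
    exact (X.x_inj _ _ _ _ _ _ h1).2.2.symm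
  have hQ0 : Q 0 = 0 := by
    have := hadd 0 0
    rw [add_zero] at this
    exact left_eq_add.1 this
  have hc : Q 1 ≠ 0 := by
    intro h0
    have h1 := hQ 1
    rw [h0, X.x_one] at h1
    have h2 : X.x 0 0 1 = 1 := α.injective (by rw [h1, map_one])
    exact one_ne_zero (X.x_eq_one.1 h2).2.2
  have hs : ∀ s : Kˣ, Q s = μ s * Q 1 := by
    intro s
    rw [← hmul, mul_one]
  have hs' : ∀ s : Kˣ, Q s / Q 1 = μ s := by
    intro s
    rw [hs]; field_simp
  let σ0 : K →+* K :=
    { toFun := fun v => Q v / Q 1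
      map_one' := div_self hc
      map_zero' := by rw [hQ0, zero_div]
      map_add' := fun v w => by rw [hadd, add_div]
      map_mul' := by
        intro v w
        by_cases hv : v = 0
        · rw [hv, zero_mul, hQ0, zero_div, zero_mul]
        · have h1 := hmul (Units.mk0 v hv) w
          rw [Units.val_mk0] at h1
          have h2 := hs' (Units.mk0 v hv)
          rw [Units.val_mk0] at h2
          rw [h1, h2, mul_div_assoc] }
  have hσ0 : ∀ v, σ0 v = Q v / Q 1 := fun _ => rfl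
  let σ : K ≃+* K := RingEquiv.ofBijective σ0 (Finite.injective_iff_bijective.1 σ0.injective)
  have hσ : ∀ v, σ v = Q v / Q 1 := fun _ => rfl
  refine ⟨σ, Q 1, hc, ?_, ?_⟩
  · intro v
    rw [hQ, hσ]
    congr 1
    field_simp
  · intro s
    rw [hμ]
    congr 1
    apply Units.ext
    show (μ s : K) = σ s
    rw [hσ, hs']

theorem RX.map_χ (σ : K ≃+* K) (s : Kˣ) : X.χ (Units.map (σ : K →* K) s) = Units.map (σ : K →* K) (X.χ s) := by
  have h1 := X.χ_pow (Units.map (σ : K →* K) s)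
  have h2 := congrArg (Units.map (σ : K →* K)) (X.χ_pow s)
  rw [map_mul, map_pow, map_pow, ← h1] at h2
  exact (mul_right_cancel h2).symm

theorem RX.map_ψ (σ : K ≃+* K) (s : Kˣ) : X.ψ (Units.map (σ : K →* K) s) = Units.map (σ : K →* K) (X.ψ s) := by
  have h1 := X.ψ_pow (Units.map (σ : K →* K) s)
  have h2 := congrArg (Units.map (σ : K →* K)) (X.ψ_pow s)
  rw [map_mul, map_pow, ← h1] at h2
  exact (mul_right_cancel h2).symm

theorem RX.map_f (σ : K ≃+* K) (t : K) : X.f (σ t) = σ (X.f t) := by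
  rw [X.hf, X.hf, map_pow]

theorem RX.ff3 (t : K) : X.f (X.f t) ^ 3 = t := by
  have : 3 ^ m * (3 ^ m * 3) = 3 ^ (2 * m + 1) := by rw [pow_succ, two_mul, pow_add, mul_assoc]
  rw [X.hf, X.hf, ← pow_mul, ← pow_mul, this, ← X.R.hK, FiniteField.pow_card]

/-- an additive map twisted by χ vanishes -/
theorem RX.no_add (hm : 1 ≤ m) (σ : K ≃+* K) (q : K → K) (hadd : ∀ t t', q (t + t') = q t + q t')
    (hmul : ∀ (s : Kˣ) t, q (X.χ s * t) = σ s * q t) : ∀ t, q t = 0 := by
  have hq0 : q 0 = 0 := by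
    have := hadd 0 0
    rw [add_zero] at this
    exact left_eq_add.1 this
  by_cases hq1 : q 1 = 0
  · intro t
    by_cases ht : t = 0
    · rw [ht, hq0]
    · obtain ⟨s, hs⟩ := X.χ_surj (Units.mk0 t ht)
      have := hmul s 1
      rw [mul_one, hs, Units.val_mk0, hq1, mul_zero] at this
      exact this
  · exfalso
    -- g(y) = σ⁻¹(q(y)/q(1))
    set g : K → K := fun y => σ.symm (q y / q 1) with hg
    have g1 : ∀ s : Kˣ, g (X.χ s) = s := by
      intro s
      have := hmul s 1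
      rw [mul_one] at this
      rw [hg]
      show σ.symm (q (X.χ s) / q 1) = s
      rw [this, mul_div_assoc, div_self hq1, mul_one, σ.symm_apply_apply]
    have gadd : ∀ y y', g (y + y') = g y + g y' := by
      intro y y'
      show σ.symm (q (y + y') / q 1) = σ.symm (q y / q 1) + σ.symm (q y' / q 1)
      rw [hadd, add_div, map_add]
    have gone : g 1 = 1 := by
      show σ.symm (q 1 / q 1) = 1
      rw [div_self hq1, map_one]
    have gzero : g 0 = 0 := by
      show σ.symm (q 0 / q 1) = 0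
      rw [hq0, zero_div, map_zero]
    have key : ∀ y, y * X.f (g y) ^ 3 = g y ^ 2 := by
      intro y
      by_cases hy : y = 0
      · rw [hy, gzero]; simp
      · obtain ⟨s, hs⟩ := X.χ_surj (Units.mk0 y hy)
        have h1 : g y = s := by
          rw [← g1 s, hs, Units.val_mk0]
        have h2 := congrArg Units.val (X.χ_pow s)
        rw [Units.val_mul, Units.val_pow_eq_pow_val, Units.val_pow_eq_pow_val, hs, Units.val_mk0] at h2
        rw [h1, X.θ_eq, h2]
    have key2 : ∀ y, y = X.f y ^ 3 := by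
      intro y
      have e1 := key y
      have e2 := key (y + 1)
      rw [gadd, gone, map_add, map_one] at e2
      have h3 := X.three
      have h4 : (X.f (g y) + 1) ^ 3 = X.f (g y) ^ 3 + 1 := by
        linear_combination (X.f (g y) ^ 2 + X.f (g y)) * h3
      rw [h4] at e2
      set T := X.f (g y) ^ 3 with hT
      have e3 : y + T = 2 * g y := by linear_combination e2 - e1
      have e4 : (y - T) ^ 2 = 0 := by
        have : (y - T) ^ 2 = (y + T) ^ 2 - 4 * (y * T) := by ring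
        rw [this, e3, e1]; ring
      have e5 : y = T := sub_eq_zero.1 (pow_eq_zero_iff (two_ne_zero) |>.1 e4)
      have e6 : y = g y := by
        have : 2 * (y - g y) = 0 := by rw [← e5] at e3; linear_combination e3
        rcases mul_eq_zero.1 this with h | h
        · exact absurd h X.R.two_ne
        · exact sub_eq_zero.1 h
      rw [← e6] at hT
      rw [← hT]; exact e5
    obtain ⟨t, ht⟩ := X.exists_θ_ne hm
    exact ht (key2 t).symm

theorem xw3 (b : K) (M : Matrix.SpecialLinearGroup (Fin 2) K) (hM : M = (xx b * ww) ^ 3) : M 0 1 = b ^ 2 - 1 ∧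
    M 1 0 = 1 - b ^ 2 ∧ M 0 0 = -b ^ 3 + 2 * b ∧ M 1 1 = b := by
  rw [hM, pow_three]
  simp only [m00, m01, m10, m11, x00, x01, x10, x11, w00, w01, w10, w11]
  refine ⟨by ring, by ring, by ring, by ring⟩

/-- the shape of an automorphism preserving the standard subgroups -/
theorem RX.N1.shape (hφ : ∀ t, X.R.φ (xx t) = X.x 0 t 0) (hm : 1 ≤ m) {α : G ≃* G} (h : X.N1 α) : ∃ σ : K ≃+* K, ∃ a : K, (a = 1 ∨ a = -1) ∧
    ∀ t u v, α (X.x t u v) = X.x (a * σ t) (σ u) (a * σ v) := by
  have h3 := X.three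
  obtain ⟨σ, c, hc, hQ, hh⟩ := RX.N0.field X h.toN0
  obtain ⟨P, hP⟩ := RX.N0.P X h.toN0
  obtain ⟨A, p, q, hA⟩ := RX.N0.A X h.toN0
  -- P is σ up to a scalar
  have hPadd : ∀ v w, P (v + w) = P v + P w := by
    intro v w
    have h1 := congrArg α (X.x0_mul v 0 w 0)
    rw [map_mul, hP, hP, X.x0_mul, add_zero, hP] at h1
    exact (X.x_inj _ _ _ _ _ _ h1).2.1.symm
  have hP0 : P 0 = 0 := by
    have := hPadd 0 0
    rw [add_zero] at this
    exact left_eq_add.1 this
  have hPneg : ∀ v, P (-v) = -P v := by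
    intro v
    have := hPadd v (-v)
    rw [add_neg_cancel, hP0] at this
    exact (neg_eq_of_add_eq_zero_right this.symm).symm
  have hPmul : ∀ (s : Kˣ) (v : K), P (X.ψ s * v) = σ (X.ψ s) * P v := by
    intro s v
    have h1 := congrArg α (X.h_conj0 s v 0)
    rw [mul_zero, hP, map_mul, map_mul, map_inv, hh, hP, X.h_conj0, X.map_ψ] at h1
    exact (X.x_inj _ _ _ _ _ _ h1).2.1.symm
  have hPs : ∀ u, P u = P 1 * σ u := by
    intro u
    by_cases hu : u = 0
    · rw [hu, hP0, map_zero, mul_zero]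
    · obtain ⟨s, hs⟩ := X.ψ_pm (Units.mk0 u hu)
      have h1 := hPmul s 1
      rw [mul_one] at h1
      rcases hs with hs | hs
      · rw [← hs, Units.val_mk0] at h1
        rw [h1, mul_comm]
      · have h2 : u = -(X.ψ s : K) := by
          have := congrArg Units.val hs
          rwa [Units.val_mk0, Units.val_neg] at this
        rw [h2, hPneg, h1, map_neg]; ring
  -- A
  have hAadd : ∀ t t', A (t + t') = A t + A t' ∧ p t + p t' - A t * X.f (A t') ^ 3 = p (t + t') + P (-(t * X.f t' ^ 3)) ∧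
      q t + q t' - p t * A t' - A t ^ 2 * X.f (A t') ^ 3 + A t * A t' * X.f (A t') ^ 3 = q (t + t') + c * σ (-(t ^ 2 * X.f t' ^ 3) + t * t' * X.f t' ^ 3) := by
    intro t t'
    have h1 := X.x_mul t 0 0 t' 0 0
    have h2 : X.x (t + t') (0 + 0 - t * X.f t' ^ 3) (0 + 0 - 0 * t' - t ^ 2 * X.f t' ^ 3 + t * t' * X.f t' ^ 3) =
        X.x (t + t') 0 0 * (X.x 0 (-(t * X.f t' ^ 3)) 0 * X.x 0 0 (-(t ^ 2 * X.f t' ^ 3) + t * t' * X.f t' ^ 3)) := by
      rw [X.x0_mul, ← X.x_split]
      congr 1 <;> ring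
    rw [h2] at h1
    have h4 := congrArg α h1
    rw [map_mul, map_mul, map_mul, hA, hA, hA, hP, hQ, X.x0_mul, X.x_mul, X.x_mul] at h4
    obtain ⟨e1, e2, e3⟩ := X.x_inj _ _ _ _ _ _ h4
    refine ⟨by rw [add_zero] at e1; exact e1.symm, ?_, ?_⟩
    · rw [e2]; simp
    · rw [e3]; simp
  have hAmul : ∀ (s : Kˣ) (t : K), A (X.χ s * t) = σ (X.χ s) * A t ∧ p (X.χ s * t) = σ (X.ψ s) * p t ∧ q (X.χ s * t) = σ s * q t := by
    intro s t
    have h1 := congrArg α (X.h_x s t 0 0)
    rw [mul_zero, mul_zero, hA, map_mul, map_mul, map_inv, hh, hA, X.h_x, X.map_ψ, X.map_χ] at h1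
    obtain ⟨e1, e2, e3⟩ := X.x_inj _ _ _ _ _ _ h1
    exact ⟨e1.symm, e2.symm, e3.symm⟩
  have hA0 : A 0 = 0 := by
    have := (hAadd 0 0).1
    rw [add_zero] at this
    exact left_eq_add.1 this
  have hAs : ∀ t, A t = A 1 * σ t := by
    intro t
    by_cases ht : t = 0
    · rw [ht, hA0, map_zero, mul_zero]
    · obtain ⟨s, hs⟩ := X.χ_surj (Units.mk0 t ht)
      have h1 := (hAmul s 1).1
      rw [mul_one, hs, Units.val_mk0] at h1
      rw [h1, mul_comm]
  set a := A 1 with ha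
  set b := P 1 with hb
  have ha0 : a ≠ 0 := by
    intro h0
    have h1 : α (X.x 1 0 0) = X.x 0 (p 1) (q 1) := by rw [hA, ← ha, h0]
    have h2 : (α (X.x 1 0 0)) ^ 3 = 1 := by rw [h1, X.x_cube_one]
    rw [← map_pow, map_eq_one_iff α α.injective, X.x_cube_one] at h2
    exact one_ne_zero h2
  -- p vanishes
  have hp2 : ∀ t, p (-t) = p t := by
    intro t
    have h1 := (hAmul (-1) t).2.1
    rw [X.χ_neg_one, X.ψ_neg_one] at h1
    simpa using h1
  -- b = a θ(a)
  have hbθ : b = a * X.f a ^ 3 := by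
    obtain ⟨t, ht⟩ := X.exists_θ_ne hm
    have e1 := (hAadd t 1).2.1
    have e2 := (hAadd 1 t).2.1
    rw [add_comm 1 t] at e2
    rw [hPs, hAs t] at e1
    rw [hPs, hAs t] at e2
    simp only [← hb, ← ha, map_one, one_pow, mul_one, one_mul, map_neg, map_mul, map_pow, ← X.map_f] at e1 e2
    -- subtract
    have e3 : (b - a * X.f a ^ 3) * (σ t - X.f (σ t) ^ 3) = 0 := by
      linear_combination e1 - e2
    rcases mul_eq_zero.1 e3 with h | h
    · exact sub_eq_zero.1 h
    · exfalso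
      apply ht
      have h5 : σ t = σ (X.f t ^ 3) := by
        rw [map_pow, ← X.map_f]
        exact sub_eq_zero.1 h
      exact (σ.injective h5).symm
  -- b = ±1
  have hb1 : b ^ 2 = 1 := by
    have e1 : ((xx 1 : Matrix.SpecialLinearGroup (Fin 2) K) * ww) ^ 3 = 1 := by
      obtain ⟨k1, k2, k3, k4⟩ := xw3 (1 : K) _ rfl
      apply ext2
      · rw [k3]
        have : (1 : Matrix.SpecialLinearGroup (Fin 2) K) 0 0 = 1 := rfl
        rw [this]; ring
      · rw [k1]
        have : (1 : Matrix.SpecialLinearGroup (Fin 2) K) 0 1 = 0 := rfl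
        rw [this]; ring
      · rw [k2]
        have : (1 : Matrix.SpecialLinearGroup (Fin 2) K) 1 0 = 0 := rfl
        rw [this]; ring
      · rw [k4]
        have : (1 : Matrix.SpecialLinearGroup (Fin 2) K) 1 1 = 1 := rfl
        rw [this]
    have e2 := congrArg (fun A => α (X.R.φ A)) e1
    simp only [map_pow, map_mul, map_one] at e2
    rw [hφ, X.R.hw, h.n, hP, ← hφ, ← X.R.hw, ← map_mul, ← map_pow, X.R.ker'] at e2
    obtain ⟨k1, k2, k3, k4⟩ := xw3 b _ rfl
    rcases e2 with e2 | e2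
    · rw [e2] at k1
      have : (1 : Matrix.SpecialLinearGroup (Fin 2) K) 0 1 = 0 := rfl
      rw [this] at k1
      exact (sub_eq_zero.1 k1.symm)
    · rw [e2] at k1
      have : (-1 : Matrix.SpecialLinearGroup (Fin 2) K) 0 1 = 0 := by simp
      rw [this] at k1
      exact (sub_eq_zero.1 k1.symm)
  have hb2 : b = 1 := by
    have h5 : (b - 1) * (b + 1) = 0 := by
      have : (b - 1) * (b + 1) = b ^ 2 - 1 := by ring
      rw [this, hb1, sub_self]
    rcases mul_eq_zero.1 h5 with h | h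
    · exact sub_eq_zero.1 h
    · exfalso
      have hbm : b = -1 := eq_neg_of_add_eq_zero_left h
      rw [hbm, X.θ_eq] at hbθ
      -- a ^ (1 + 3 ^ (m+1)) = -1
      set a' : Kˣ := Units.mk0 a ha0 with ha'
      have h6 : a' ^ (1 + 3 ^ (m + 1)) = -1 := by
        apply Units.ext
        rw [Units.val_pow_eq_pow_val, Units.val_neg, Units.val_one, Units.val_mk0, pow_add, pow_one, ← hbθ]
      have h7 : Even (1 + 3 ^ (m + 1)) := odd_one.add_odd (Odd.pow (by decide))
      obtain ⟨k, hk⟩ := h7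
      apply X.sq_ne_neg (a' ^ k)
      rw [← pow_mul, ← h6, hk]
      congr 1; ring
  have haθ : a * X.f a ^ 3 = 1 := by rw [← hbθ, hb2]
  have ha2 : a = 1 ∨ a = -1 := by
    have h6 : X.f a ^ 3 = a⁻¹ := by
      exact eq_inv_of_mul_eq_one_left (by rw [mul_comm]; exact haθ)
    have h7 : X.f (X.f a ^ 3) ^ 3 = a ^ 3 := by rw [map_pow, X.ff3]
    rw [h6, map_inv₀, inv_pow, h6, inv_inv] at h7
    -- a = a^3
    have h8 : (a - 1) * (a + 1) = 0 := by
      have : a * ((a - 1) * (a + 1)) = a ^ 3 - a := by ring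
      have h9 : a * ((a - 1) * (a + 1)) = 0 := by rw [this, ← h7, sub_self]
      rcases mul_eq_zero.1 h9 with h | h
      · exact absurd h ha0
      · exact h
    rcases mul_eq_zero.1 h8 with h | h
    · left; exact sub_eq_zero.1 h
    · right; exact eq_neg_of_add_eq_zero_left h
  have haa : a ^ 2 = 1 := by rcases ha2 with h | h <;> rw [h] <;> ring
  have hfa : X.f a = a := by
    rcases ha2 with h | h <;> rw [h] <;> simp
  have hp : ∀ t, p t = 0 := by
    have hpadd : ∀ t t', p (t + t') = p t + p t' := by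
      intro t t'
      have e := (hAadd t t').2.1
      rw [hPs, hb2, hAs t, hAs t', map_mul, hfa, X.map_f, map_neg, map_mul, map_pow, one_mul] at e
      have ha4 : a ^ 4 = 1 := by
        have : a ^ 4 = (a ^ 2) ^ 2 := by ring
        rw [this, haa]; ring
      linear_combination -e - (σ t * σ (X.f t') ^ 3) * ha4
    have hp0 : p 0 = 0 := by
      have := hpadd 0 0
      rw [add_zero] at this
      exact left_eq_add.1 this
    intro t
    have e := hpadd t (-t)
    rw [add_neg_cancel, hp0, hp2] at e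
    have h5 : 2 * p t = 0 := by rw [two_mul]; exact e.symm
    rcases mul_eq_zero.1 h5 with h | h
    · exact absurd h X.R.two_ne
    · exact h
  have hca : c = a := by
    have e := congrArg α (X.x_conj0 1 1 0 0 0)
    rw [map_mul, map_mul, map_inv, hA, hP, X.x_conj0] at e
    have e2 : X.x 0 1 (0 + 1 * 1) = X.x 0 1 0 * X.x 0 0 1 := by
      rw [X.x0_mul]; congr 1 <;> ring
    rw [e2, map_mul, hP, hQ, X.x0_mul] at e
    obtain ⟨_, _, e3⟩ := X.x_inj _ _ _ _ _ _ e
    rw [← hb, hb2, ← ha, map_one] at e3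
    linear_combination -e3
  have hq : ∀ t, q t = 0 := by
    apply X.no_add hm σ
    · intro t t'
      have e := (hAadd t t').2.2
      rw [hp, hca, hAs t, hAs t'] at e
      simp only [map_mul, map_add, map_neg, map_pow, hfa, X.map_f] at e
      have ha3 : a ^ 3 = a := by
        have : a ^ 3 = a ^ 2 * a := by ring
        rw [this, haa, one_mul]
      have ha5 : a ^ 5 = a := by
        have : a ^ 5 = a ^ 2 * a ^ 3 := by ring
        rw [this, haa, ha3, one_mul]
      linear_combination -e + (-(σ t ^ 2 * σ (X.f t') ^ 3) + σ t * σ t' * σ (X.f t') ^ 3) * ha5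
    · intro s t
      exact (hAmul s t).2.2
  refine ⟨σ, a, ha2, ?_⟩
  intro t u v
  have e : X.x t u v = X.x t 0 0 * (X.x 0 u 0 * X.x 0 0 v) := by
    rw [X.x0_mul, ← X.x_split]; congr 1 <;> ring
  rw [e, map_mul, map_mul, hA, hP, hQ, X.x0_mul, hp, hq, ← X.x_split, hAs, hPs, hb2, hca]
  congr 1
  · ring
  · ring

end CfsgLib.ReeA
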