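import Cfsg.Agent.LibRee30

set_option autoImplicit false
set_option linter.unusedSectionVars false
set_option linter.unusedVariables false
set_option linter.unusedSimpArgs false

/-! The small Ree groups: the interface with the homomorphism from SL₂ -/

namespace CfsgLib.Chev.TwG2

open Cfsg.Lie Matrix CfsgLib.Chev CfsgLib.Rank1 CfsgLib.SL2P CfsgLib.ReeA
open scoped commutatorElement

variable {K : Type*} [Field K] [Fintype K] [CharP K 3]

section
variable {m : ℕ} {f : K ≃+* K} (hf : ∀ t, f t = t ^ (3 ^ m)) (hK : Fintype.card K = 3 ^ (2 * m + 1))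

include hf hK in
theorem exists_RG2 : ∃ R : CfsgLib.ReeA.RG ↥(twistedG2 K (3 ^ m)) K m,
    R.B = (chevG2.borelSubgroup K ⊓ twistedG2 K (3 ^ m)).subgroupOf (twistedG2 K (3 ^ m)) ∧
    R.U = (chevG2.posUnipotent K ⊓ twistedG2 K (3 ^ m)).subgroupOf (twistedG2 K (3 ^ m)) ∧
    R.H = (chevG2.diagonalSubgroup K ⊓ twistedG2 K (3 ^ m)).subgroupOf (twistedG2 K (3 ^ m)) ∧
    (∀ t, ((R.φ (xx t) : ↥(twistedG2 K (3 ^ m))) : GL chevG2.Idx K) = uW f 0 t 0) ∧
    (∀ c, ((R.φ (dd c) : ↥(twistedG2 K (3 ^ m))) : GL chevG2.Idx K) = hG f (fu f c ^ 3 * c)) ∧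
    ((R.n : ↥(twistedG2 K (3 ^ m))) : GL chevG2.Idx K) = nG K := by
  obtain ⟨φ, h1, h2, h3, h4, h5, h6, h7, h8⟩ := exists_phi2 hf hK
  have hRR := R hf hK
  have hcU : Nat.card ↥(chevG2.posUnipotent K ⊓ twistedG2 K (3 ^ m)) = (3 ^ (2 * m + 1)) ^ 3 := by
    obtain ⟨d, hd, hU⟩ := hRR.card_UE
    have hd' : d = 3 := by
      have : tG2.n / 2 = 6 := rfl
      omega
    rw [hd', hK] at hU
    exact hU
  have hHx : ∀ h ∈ chevG2.diagonalSubgroup K ⊓ twistedG2 K (3 ^ m), ∃ s, h = hG f s := fun h hh => (H_iff hf hK).1 ⟨hh.1, hE hf hK hh.2⟩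
  have hUx : ∀ u ∈ chevG2.posUnipotent K ⊓ twistedG2 K (3 ^ m), ∃ t a v, u = uW f t a v := fun u hu => U_Fx hf hK ⟨hu.1, hE hf hK hu.2⟩
  let φ' : Matrix.SpecialLinearGroup (Fin 2) K →* ↥(twistedG2 K (3 ^ m)) := φ.codRestrict _ h4
  have hφ' : ∀ A, ((φ' A : ↥(twistedG2 K (3 ^ m))) : GL chevG2.Idx K) = φ A := fun _ => rfl
  refine ⟨{
    B := (chevG2.borelSubgroup K ⊓ twistedG2 K (3 ^ m)).subgroupOf (twistedG2 K (3 ^ m))
    U := (chevG2.posUnipotent K ⊓ twistedG2 K (3 ^ m)).subgroupOf (twistedG2 K (3 ^ m))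
    H := (chevG2.diagonalSubgroup K ⊓ twistedG2 K (3 ^ m)).subgroupOf (twistedG2 K (3 ^ m))
    n := ⟨nG K, nw_mem hf⟩
    τ := ⟨hG f (-1), hG_mem hf hK _⟩
    φ := φ'
    char3 := hp3
    hK := hK
    S := split hf hK
    BUH := ?_
    cU := ?_
    cH := ?_
    cG := card_G hf hK
    Hc := ?_
    τH := ?_
    τ1 := ?_
    τ2 := ?_
    ker := ?_
    τφ := ?_
    cen := ?_
    hU := ?_
    hH := ?_
    hw := ?_
    free := ?_
    ninv := ?_
    U9 := ?_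
    U3 := ?_ }, rfl, rfl, rfl, h1, h3, rfl⟩
  · rintro ⟨b, hb⟩ hb'
    obtain ⟨u, hu, h, hh, e⟩ := mem_B1 hf hK hb hb'.1
    exact ⟨⟨u, hu.2⟩, hu, ⟨h, hh.2⟩, hh, Subtype.ext e⟩
  · rw [Nat.card_congr (Subgroup.subgroupOfEquivOfLe inf_le_right).toEquiv]
    exact hcU
  · rw [Nat.card_congr (Subgroup.subgroupOfEquivOfLe inf_le_right).toEquiv]
    exact card_H hf hK
  · have := cyc_H hf hK
    exact isCyclic_of_surjective (Subgroup.subgroupOfEquivOfLe (H := chevG2.diagonalSubgroup K ⊓ twistedG2 K (3 ^ m)) (K := twistedG2 K (3 ^ m)) inf_le_right).symm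
      (MulEquiv.surjective _)
  · exact ⟨((H_iff hf hK).2 ⟨-1, rfl⟩).1, hG_mem hf hK _⟩
  · intro h
    have h' : hG f (-1 : Kˣ) = 1 := congrArg Subtype.val h
    rw [← hG_one (f := f)] at h'
    exact one_ne_neg (hG_inj h').symm
  · apply Subtype.ext
    show hG f (-1 : Kˣ) * hG f (-1) = 1
    rw [← hG_mul]
    have : (-1 : Kˣ) * -1 = 1 := by simp
    rw [this, hG_one]
  · intro A
    rw [← h5 A]
    constructor
    · intro h; exact congrArg Subtype.val h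
    · intro h; exact Subtype.ext h
  · intro A h
    exact h7 A (congrArg Subtype.val h)
  · rintro ⟨x, hx⟩
    constructor
    · intro h
      obtain ⟨A, hA⟩ := h8 x hx (congrArg Subtype.val h)
      refine ⟨A, ?_⟩
      rcases hA with h | h
      · left; exact Subtype.ext h
      · right; exact Subtype.ext h
    · rintro ⟨A, h | h⟩
      · have h' : x = φ A := congrArg Subtype.val h
        apply Subtype.ext
        show hG f (-1) * x = x * hG f (-1)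
        rw [h', h6 A]
      · have h' : x = hG f (-1) * φ A := congrArg Subtype.val h
        apply Subtype.ext
        show hG f (-1) * x = x * hG f (-1)
        rw [h']
        rw [mul_assoc, ← h6 A]
  · intro t
    have : φ (xx t) ∈ chevG2.posUnipotent K := by rw [h1]; exact uW_U _ _ _
    exact ⟨this, (φ' (xx t)).2⟩
  · intro c
    have : φ (dd c) ∈ chevG2.diagonalSubgroup K := by rw [h3]; exact ((H_iff hf hK).2 ⟨_, rfl⟩).1
    exact ⟨this, (φ' (dd c)).2⟩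
  · exact Subtype.ext h2
  · rintro ⟨h, hh⟩ hh' ⟨u, hu⟩ hu' hu1 e
    obtain ⟨s, hs⟩ := hHx h hh'
    obtain ⟨t, a, v, hu''⟩ := hUx u hu'
    have e' : h * u = u * h := congrArg Subtype.val e
    rw [hs, hu''] at e'
    rcases comm_pm hf hK (by
      intro h; apply hu1; apply Subtype.ext; exact hu''.trans h) e' with h | h
    · left; apply Subtype.ext
      rw [h, hG_one] at hs
      exact hs
    · right; apply Subtype.ext
      rw [h] at hs
      exact hs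
  · rintro ⟨h, hh⟩ hh'
    obtain ⟨s, hs⟩ := hHx h hh'
    apply Subtype.ext
    show nG K * h * (nG K)⁻¹ = h⁻¹
    rw [hs]
    exact nG_inv f s
  · rintro ⟨u, hu⟩ hu'
    obtain ⟨t, a, v, hu''⟩ := hUx u hu'
    apply Subtype.ext
    show u ^ 9 = 1
    rw [hu'', uW_nine]
  · have e : Nat.card {u : ↥(twistedG2 K (3 ^ m)) // u ∈ (chevG2.posUnipotent K ⊓ twistedG2 K (3 ^ m)).subgroupOf (twistedG2 K (3 ^ m)) ∧ u ^ 3 = 1} = Nat.card (K × K) := by
      symm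
      refine Nat.card_eq_of_bijective (fun p => ⟨⟨uW f 0 p.1 p.2, uW_mem hf _ _ _⟩, ⟨uW_U _ _ _, uW_mem hf _ _ _⟩, ?_⟩) ⟨?_, ?_⟩
      · apply Subtype.ext
        show (uW f 0 p.1 p.2) ^ 3 = 1
        rw [uW_cube_one]
      · rintro ⟨a, b⟩ ⟨a', b'⟩ h
        have h' : uW f 0 a b = uW f 0 a' b' := congrArg (fun z => ((z.1 : ↥(twistedG2 K (3 ^ m))) : GL chevG2.Idx K)) h
        obtain ⟨_, e1, e2⟩ := uW_inj h'
        rw [e1, e2]
      · rintro ⟨⟨u, hu⟩, hu', h3⟩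
        obtain ⟨t, a, v, hu''⟩ := hUx u hu'
        subst hu''
        have h3' : (uW f t a v) ^ 3 = 1 := congrArg Subtype.val h3
        rw [uW_cube_one] at h3'
        subst h3'
        exact ⟨(a, v), rfl⟩
    rw [e, Nat.card_prod, Nat.card_eq_fintype_card, hK, pow_two]


end
end CfsgLib.Chev.TwG2

namespace CfsgLib.ReeA

open Cfsg.Lie CfsgLib.Chev Matrix CfsgLib.Rank1 CfsgLib.SL2P

/-- the main interface with coordinates -/
theorem exists_RX2 {K : Type*} [Field K] [Fintype K] {m : ℕ} (hm : 1 ≤ m) (hK : Fintype.card K = 3 ^ (2 * m + 1)) :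
    ∃ X : RX ↥(twistedG2 K (3 ^ m)) K m,
    X.R.B = (chevG2.borelSubgroup K ⊓ twistedG2 K (3 ^ m)).subgroupOf (twistedG2 K (3 ^ m)) ∧
    X.R.U = (chevG2.posUnipotent K ⊓ twistedG2 K (3 ^ m)).subgroupOf (twistedG2 K (3 ^ m)) ∧
    X.R.H = (chevG2.diagonalSubgroup K ⊓ twistedG2 K (3 ^ m)).subgroupOf (twistedG2 K (3 ^ m)) ∧
    (∀ t u v, ((X.x t u v : ↥(twistedG2 K (3 ^ m))) : GL chevG2.Idx K) = TwG2.uW X.f t u v) ∧
    (∀ s, ((X.h s : ↥(twistedG2 K (3 ^ m))) : GL chevG2.Idx K) = TwG2.hG X.f s) ∧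
    (∀ t, X.R.φ (xx t) = X.x 0 t 0) ∧
    ((X.R.n : ↥(twistedG2 K (3 ^ m))) : GL chevG2.Idx K) = TwG2.nG K := by
  have : Fact (Nat.Prime 3) := ⟨Nat.prime_three⟩
  have : CharP K 3 := charP_of_card Nat.prime_three hK
  obtain ⟨f, hf⟩ := exists_frobp K 3 m
  obtain ⟨R, h1, h2, h3, h4, -, h6⟩ := TwG2.exists_RG2 hf hK
  obtain ⟨hs, hc⟩ := TwG2.simple hf hK hm
  let hh : Kˣ →* ↥(twistedG2 K (3 ^ m)) := (TwG2.hGh f).codRestrict _ (fun s => TwG2.hG_mem hf hK s)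
  have hhv : ∀ s, ((hh s : ↥(twistedG2 K (3 ^ m))) : GL chevG2.Idx K) = TwG2.hG f s := fun _ => rfl
  have hhi : Function.Injective hh := fun a b e => TwG2.hG_inj (congrArg Subtype.val e)
  have hhH : ∀ g, g ∈ R.H ↔ ∃ s, g = hh s := by
    intro g
    rw [h3, Subgroup.mem_subgroupOf]
    constructor
    · intro hg
      obtain ⟨s, hs⟩ := (TwG2.H_iff hf hK).1 ⟨hg.1, TwG2.hE hf hK hg.2⟩
      exact ⟨s, Subtype.ext hs⟩
    · rintro ⟨s, rfl⟩
      exact ⟨((TwG2.H_iff hf hK).2 ⟨s, rfl⟩).1, (hh s).2⟩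
  refine ⟨{
    R := R
    f := f
    hf := hf
    x := fun t u v => ⟨TwG2.uW f t u v, TwG2.uW_mem hf t u v⟩
    x_inj := fun t u v t' u' v' e => TwG2.uW_inj (congrArg Subtype.val e)
    x_U := ?_
    x_mul := fun t u v t' u' v' => Subtype.ext (TwG2.uW_mul hf hK t u v t' u' v')
    h := hh
    h_inj := hhi
    h_H := hhH
    χ := ⟨⟨TwG2.chi0 f, by simp [TwG2.chi0]⟩, fun a b => by simp only [TwG2.chi0, map_mul, mul_zpow]; exact mul_mul_mul_comm _ _ _ _⟩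
    ψ := ⟨⟨TwG2.psi f, by simp [TwG2.psi]⟩, fun a b => by simp only [TwG2.psi, map_mul, mul_zpow]; exact mul_mul_mul_comm _ _ _ _⟩
    χ_pow := TwG2.chi_pow hf
    ψ_pow := TwG2.psi_pow hf
    h_x := fun s t u v => Subtype.ext (TwG2.hG_uW hf hK s t u v)
    τ_eq := ?_
    perf := comm_top hs hc
    simple := hs }, h1, h2, h3, fun _ _ _ => rfl, fun _ => rfl, fun t => Subtype.ext (h4 t), h6⟩
  · intro g
    rw [h2, Subgroup.mem_subgroupOf]
    constructor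
    · intro hg
      obtain ⟨t, u, v, e⟩ := TwG2.U_Fx hf hK ⟨hg.1, TwG2.hE hf hK hg.2⟩
      exact ⟨t, u, v, Subtype.ext e⟩
    · rintro ⟨t, u, v, rfl⟩
      exact ⟨TwG2.uW_U t u v, TwG2.uW_mem hf t u v⟩
  · symm
    apply R.unique_inv
    · exact (hhH _).2 ⟨-1, rfl⟩
    · intro h
      exact TwG2.one_ne_neg (K := K) (hhi (by rw [h, map_one])).symm
    · rw [← map_mul]
      have : (-1 : Kˣ) * -1 = 1 := by simp
      rw [this, map_one]

end CfsgLib.ReeA
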