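import Cfsg.Agent.LibRee34
import Cfsg.Agent.LibRee35
import Cfsg.Agent.LibChevFix
import Cfsg.Agent.LibIrrH13

set_option autoImplicit false
set_option linter.unusedSectionVars false
set_option linter.unusedVariables false

/-! The small Ree groups: field automorphisms and the outer automorphism group -/

namespace CfsgLib.Chev.TwG2

open Cfsg.Lie Matrix CfsgLib.Chev CfsgLib.ChevFix

variable {K : Type*} [Field K] [Fintype K] [CharP K 3]

section
variable {m : ℕ} {f : K ≃+* K} (hf : ∀ t, f t = t ^ (3 ^ m))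

include hf in
theorem f_comm (σ : K ≃+* K) (t : K) : σ (f t) = f (σ t) := by
  rw [hf, hf, map_pow]

theorem gm_X2 (σ : K ≃+* K) (r : ℕ) (t : K) : gm chevG2 (σ : K →+* K) (X r t) = X r (σ t) := gm_X good3_G2 (σ : K →+* K) r t

include hf in
theorem gm_uW (σ : K ≃+* K) (t u v : K) : gm chevG2 (σ : K →+* K) (uW f t u v) = uW f (σ t) (σ u) (σ v) := by
  unfold uW R8
  simp only [map_mul, gm_X2, map_add, map_pow, f_comm hf]

include hf in
theorem gm_vW (σ : K ≃+* K) (t u v : K) : gm chevG2 (σ : K →+* K) (vW f t u v) = vW f (σ t) (σ u) (σ v) := by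
  unfold vW R8n
  simp only [map_mul, gm_X2, map_add, map_neg, map_pow, f_comm hf]

include hf in
theorem gm_mem (σ : K ≃+* K) {x : GL chevG2.Idx K} (hx : x ∈ twistedG2 K (3 ^ m)) : gm chevG2 (σ : K →+* K) x ∈ twistedG2 K (3 ^ m) := by
  have : twistedG2 K (3 ^ m) ≤ (twistedG2 K (3 ^ m)).comap (gm chevG2 (σ : K →+* K)) := by
    apply good3_G2.genSub_le
    rintro w ⟨t, u, v, rfl | rfl⟩
    · rw [← uW_eq hf, Subgroup.mem_comap, gm_uW hf]; exact uW_mem hf _ _ _
    · rw [← vW_eq hf, Subgroup.mem_comap, gm_vW hf]; exact vW_mem hf _ _ _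
  exact this hx

end
end CfsgLib.Chev.TwG2

namespace CfsgLib.ReeA

open Cfsg.Lie CfsgLib.Chev Matrix CfsgLib.Rank1 CfsgLib.SL2P CfsgLib.ChevFix

/-- the field automorphisms -/
theorem exists_fieldaut {K : Type*} [Field K] [Fintype K] {m : ℕ} (hm : 1 ≤ m) (hK : Fintype.card K = 3 ^ (2 * m + 1)) :
    ∃ X : RX ↥(twistedG2 K (3 ^ m)) K m, (∀ t, X.R.φ (xx t) = X.x 0 t 0) ∧
      ∃ F : (K ≃+* K) → (↥(twistedG2 K (3 ^ m)) ≃* ↥(twistedG2 K (3 ^ m))), ∀ σ, X.N0 (F σ) ∧ ∀ t u v, F σ (X.x t u v) = X.x (σ t) (σ u) (σ v) := by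
  have : Fact (Nat.Prime 3) := ⟨Nat.prime_three⟩
  have : CharP K 3 := charP_of_card Nat.prime_three hK
  obtain ⟨X, h1, h2, h3, h4, h5, h6, h7⟩ := exists_RX2 hm hK
  refine ⟨X, h6, ?_⟩
  let F0 : (K ≃+* K) → (↥(twistedG2 K (3 ^ m)) →* ↥(twistedG2 K (3 ^ m))) := fun σ =>
    (((gm chevG2 (σ : K →+* K)).comp (Subgroup.subtype (twistedG2 K (3 ^ m)))).codRestrict (twistedG2 K (3 ^ m))
      (fun x => TwG2.gm_mem X.hf σ x.2))
  have hF0 : ∀ σ x, ((F0 σ x : ↥(twistedG2 K (3 ^ m))) : GL chevG2.Idx K) = gm chevG2 (σ : K →+* K) x := fun _ _ => rfl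
  have hinj : ∀ σ, Function.Injective (F0 σ) := by
    intro σ x y e
    apply Subtype.ext
    apply gm_inj chevG2 (σ : K →+* K)
    rw [← hF0, ← hF0, e]
  let F : (K ≃+* K) → (↥(twistedG2 K (3 ^ m)) ≃* ↥(twistedG2 K (3 ^ m))) := fun σ =>
    MulEquiv.ofBijective (F0 σ) (Finite.injective_iff_bijective.1 (hinj σ))
  have hF : ∀ σ x, ((F σ x : ↥(twistedG2 K (3 ^ m))) : GL chevG2.Idx K) = gm chevG2 (σ : K →+* K) x := fun _ _ => rfl
  have hsymm : ∀ (σ : K ≃+* K) x, gm chevG2 (σ.symm : K →+* K) (gm chevG2 (σ : K →+* K) x) = x := by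
    intro σ x
    rw [gm_comp]
    have : ((σ.symm : K →+* K).comp (σ : K →+* K)) = RingHom.id K := by
      ext t; simp
    rw [this, gm_id]
  refine ⟨F, fun σ => ⟨⟨?_, ?_⟩, ?_⟩⟩
  · intro g
    rw [h2, Subgroup.mem_subgroupOf, Subgroup.mem_subgroupOf, hF]
    constructor
    · rintro ⟨a, b⟩
      refine ⟨?_, g.2⟩
      have := gm_U good3_G2 (σ.symm : K →+* K) a
      rwa [hsymm] at this
    · rintro ⟨a, b⟩
      exact ⟨gm_U good3_G2 _ a, TwG2.gm_mem X.hf σ b⟩
  · intro g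
    rw [h3, Subgroup.mem_subgroupOf, Subgroup.mem_subgroupOf, hF]
    constructor
    · rintro ⟨a, b⟩
      refine ⟨?_, g.2⟩
      have := gm_H good3_G2 (σ.symm : K →+* K) a
      rwa [hsymm] at this
    · rintro ⟨a, b⟩
      exact ⟨gm_H good3_G2 _ a, TwG2.gm_mem X.hf σ b⟩
  · intro t u v
    apply Subtype.ext
    rw [hF, h4, h4, TwG2.gm_uW X.hf]

variable {G : Type*} [Group G] [Finite G] {K : Type*} [Field K] [Fintype K] {m : ℕ} (X : RX G K m)

/-- an automorphism fixing U elementwise and preserving H and n is trivial -/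
theorem RX.N1.eq_one {α : G ≃* G} (h : X.N1 α) (hx : ∀ t u v, α (X.x t u v) = X.x t u v) : ∀ g, α g = g := by
  let M : Subgroup G := { carrier := {g | α g = g}
                          mul_mem' := fun {a b} ha hb => by
                            show α (a * b) = a * b
                            rw [map_mul, ha, hb]
                          one_mem' := map_one α
                          inv_mem' := fun {a} ha => by
                            show α a⁻¹ = a⁻¹
                            rw [map_inv, ha] }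
  have hM : M = ⊤ := by
    apply X.gen
    · intro g hg
      obtain ⟨t, u, v, rfl⟩ := (X.x_U g).1 hg
      exact hx t u v
    · intro g hg
      obtain ⟨s, rfl⟩ := (X.h_H g).1 hg
      obtain ⟨s', hs'⟩ := (X.h_H _).1 ((h.H _).2 (X.hH s))
      have h1 := congrArg α (X.h_conj0 s 0 1)
      rw [map_mul, map_mul, map_inv, hx, hx, hs', X.h_conj0] at h1
      obtain ⟨_, _, h2⟩ := X.x_inj _ _ _ _ _ _ h1
      rw [mul_one, mul_one] at h2
      show α (X.h s) = X.h s
      rw [hs', Units.ext h2]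
    · exact h.n
  intro g
  have : g ∈ M := by rw [hM]; exact Subgroup.mem_top _
  exact this

/-- conjugation by the involution -/
theorem RX.N1.trans_τ (hm : 1 ≤ m) {α : G ≃* G} (h : X.N1 α) : X.N1 (α.trans (MulAut.conj X.R.τ)) := by
  have hs : α X.R.n = X.R.n * X.h ((-1) ^ 2) := by
    rw [h.n]; simp
  have := RX.N0.fix X hm h.toN0 hs
  rwa [X.τ_eq]

/-- normalising an automorphism -/
theorem RX.normalise (hφ : ∀ t, X.R.φ (xx t) = X.x 0 t 0) (hm : 1 ≤ m) (α : G ≃* G) : ∃ g, ∃ σ : K ≃+* K,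
    X.N1 (α.trans (MulAut.conj g)) ∧ ∀ t u v, g * α (X.x t u v) * g⁻¹ = X.x (σ t) (σ u) (σ v) := by
  obtain ⟨g0, h0⟩ := X.exists_N0 α
  obtain ⟨s, hs⟩ := RX.N0.n_eq X hm h0
  have h1 := RX.N0.fix X hm h0 hs
  obtain ⟨σ, a, ha, h2⟩ := RX.N1.shape X hφ hm h1
  have e1 : ∀ x, ((α.trans (MulAut.conj g0)).trans (MulAut.conj (X.h s))) x = (X.h s * g0) * α x * (X.h s * g0)⁻¹ := by
    intro x
    rw [conj_trans, conj_trans]; group
  rcases ha with rfl | rfl
  · refine ⟨X.h s * g0, σ, ?_, ?_⟩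
    · have : α.trans (MulAut.conj (X.h s * g0)) = (α.trans (MulAut.conj g0)).trans (MulAut.conj (X.h s)) := by
        ext x; rw [e1, conj_trans]
      rw [this]; exact h1
    · intro t u v
      rw [← e1, h2, one_mul, one_mul]
  · refine ⟨X.R.τ * (X.h s * g0), σ, ?_, ?_⟩
    · have : α.trans (MulAut.conj (X.R.τ * (X.h s * g0))) = ((α.trans (MulAut.conj g0)).trans (MulAut.conj (X.h s))).trans (MulAut.conj X.R.τ) := by
        ext x; rw [conj_trans, conj_trans, e1]; group
      rw [this]; exact RX.N1.trans_τ X hm h1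
    · intro t u v
      have : X.R.τ * (X.h s * g0) * α (X.x t u v) * (X.R.τ * (X.h s * g0))⁻¹ = X.R.τ * ((X.h s * g0) * α (X.x t u v) * (X.h s * g0)⁻¹) * X.R.τ⁻¹ := by group
      rw [this, ← e1, h2, X.τ_x]
      congr 1 <;> ring

/-- the field automorphisms fix n -/
theorem RX.N0.N1_of_field (hφ : ∀ t, X.R.φ (xx t) = X.x 0 t 0) (hm : 1 ≤ m) {α : G ≃* G} (h : X.N0 α) (σ : K ≃+* K)
    (hα : ∀ t u v, α (X.x t u v) = X.x (σ t) (σ u) (σ v)) : X.N1 α := by
  obtain ⟨s, hs⟩ := RX.N0.n_eq X hm h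
  have h1 := RX.N0.fix X hm h hs
  obtain ⟨σ', a, ha, h2⟩ := RX.N1.shape X hφ hm h1
  have e := h2 1 0 0
  rw [conj_trans, hα, X.h_x] at e
  obtain ⟨e1, _, _⟩ := X.x_inj _ _ _ _ _ _ e
  rw [map_one, map_one, mul_one, mul_one] at e1
  have h3 : s = 1 ∨ s = -1 := by
    rcases ha with rfl | rfl
    · left
      exact X.χ_one (Units.ext e1)
    · right
      apply X.χ_inj
      rw [X.χ_neg_one]
      apply Units.ext
      rw [e1]; simp
  have h4 : s ^ 2 = 1 := by
    rcases h3 with h | h <;> rw [h] <;> simp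
  rw [h4, map_one, mul_one] at hs
  exact ⟨h, hs⟩

/-- the number of outer automorphisms -/
theorem RX.out_card (hφ : ∀ t, X.R.φ (xx t) = X.x 0 t 0) (hm : 1 ≤ m) (F : (K ≃+* K) → (G ≃* G))
    (hF : ∀ σ, X.N0 (F σ) ∧ ∀ t u v, F σ (X.x t u v) = X.x (σ t) (σ u) (σ v)) :
    (MulAut.conj : G →* MulAut G).range.index = 2 * m + 1 := by
  have : Fact (Nat.Prime 3) := ⟨Nat.prime_three⟩
  have hc : Nat.card (K ≃+* K) = 2 * m + 1 :=
    (CfsgLib.IrrH13.ringEquiv_card 3 (2 * m + 1) K (by rw [Nat.card_eq_fintype_card, X.R.hK])).2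
  have hF1 : ∀ σ, X.N1 (F σ) := fun σ => RX.N0.N1_of_field X hφ hm (hF σ).1 σ (hF σ).2
  rw [← hc]
  symm
  apply Nat.card_congr
  refine Equiv.ofBijective (fun σ => (QuotientGroup.mk (F σ : MulAut G) : MulAut G ⧸ (MulAut.conj : G →* MulAut G).range)) ⟨?_, ?_⟩
  · intro σ σ' h
    rw [QuotientGroup.eq] at h
    obtain ⟨g, hg⟩ := h
    have h1 : ∀ x, F σ' x = F σ g * F σ x * (F σ g)⁻¹ := by
      intro x
      have h2 : (F σ : MulAut G)⁻¹ * F σ' = MulAut.conj g := hg.symm
      have h3 : (F σ' : MulAut G) = F σ * MulAut.conj g := by rw [← h2]; group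
      rw [h3]
      change F σ (g * x * g⁻¹) = _
      rw [map_mul, map_mul, map_inv]
    set y := F σ g with hy
    have hyB : y ∈ X.R.B := by
      rw [X.B_iff]
      intro u hu
      obtain ⟨w, rfl⟩ := (F σ).surjective u
      rw [← h1]
      exact ((hF σ').1.U w).2 (((hF σ).1.U w).1 hu)
    have hyn : y * X.R.n * y⁻¹ = X.R.n := by
      have := h1 X.R.n
      rw [(hF1 σ').n, (hF1 σ).n] at this
      exact this.symm
    have hyH : y ∈ X.R.H := by
      rw [X.H_iff]
      refine ⟨hyB, ?_⟩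
      have : X.R.n⁻¹ * y * X.R.n = y := by
        rw [mul_assoc, inv_mul_eq_iff_eq_mul]
        exact mul_inv_eq_iff_eq_mul.1 hyn
      rw [this]; exact hyB
    obtain ⟨s, hs⟩ := (X.h_H _).1 hyH
    have h2 := h1 (X.x 1 0 0)
    rw [(hF σ').2, (hF σ).2, hs, X.h_x] at h2
    obtain ⟨e1, _, _⟩ := X.x_inj _ _ _ _ _ _ h2
    rw [map_one, map_one, mul_one] at e1
    have h3 : s = 1 := X.χ_one (Units.ext e1.symm)
    rw [h3, map_one] at hs
    apply RingEquiv.ext
    intro t
    have h4 := h1 (X.x t 0 0)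
    rw [(hF σ').2, (hF σ).2, hs, one_mul, inv_one, mul_one] at h4
    exact (X.x_inj _ _ _ _ _ _ h4).1.symm
  · intro x
    induction x using QuotientGroup.induction_on with
    | H α =>
      obtain ⟨g, σ, h1, h2⟩ := X.normalise hφ hm α
      refine ⟨σ, ?_⟩
      change (QuotientGroup.mk (F σ : MulAut G) : MulAut G ⧸ (MulAut.conj : G →* MulAut G).range) = QuotientGroup.mk α
      symm
      rw [QuotientGroup.eq]
      -- α⁻¹ F σ is inner
      have h3 : ∀ x, (F σ).symm (g * α x * g⁻¹) = x := by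
        have h4 : X.N1 ((α.trans (MulAut.conj g)).trans (F σ).symm) := by
          refine ⟨⟨?_, ?_⟩, ?_⟩
          · intro x
            rw [← h1.U x, ← (hF σ).1.U]
            show F σ ((F σ).symm _) ∈ _ ↔ _
            rw [(F σ).apply_symm_apply]
            exact Iff.rfl
          · intro x
            rw [← h1.H x, ← (hF σ).1.H]
            show F σ ((F σ).symm _) ∈ _ ↔ _
            rw [(F σ).apply_symm_apply]
            exact Iff.rfl
          · show (F σ).symm ((α.trans (MulAut.conj g)) X.R.n) = _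
            rw [h1.n, MulEquiv.symm_apply_eq, (hF1 σ).n]
        apply RX.N1.eq_one X h4
        intro t u v
        show (F σ).symm (g * α (X.x t u v) * g⁻¹) = _
        rw [h2, MulEquiv.symm_apply_eq, (hF σ).2]
      refine ⟨α.symm g, ?_⟩
      ext x
      change (α.symm g * x * (α.symm g)⁻¹ : G) = α.symm (F σ x)
      have h5 := h3 x
      rw [MulEquiv.symm_apply_eq] at h5
      rw [← h5, map_mul, map_mul, map_inv, α.symm_apply_apply]

end CfsgLib.ReeA
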