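import Cfsg.Agent.LibRee34
import Cfsg.Agent.LibSuzM1

set_option autoImplicit false
set_option linter.unusedSectionVars false
set_option linter.unusedVariables false

/-! Central extensions of the small Ree groups: commutators of lifts of the unipotent subgroup -/

namespace CfsgLib.ReeA

open Cfsg.Lie CfsgLib.Chev Matrix CfsgLib.Rank1 CfsgLib.SL2P CfsgLib.SuzM
open scoped commutatorElement

/-- invariant biadditive maps vanish -/
theorem bi_vanish {F M : Type*} [Field F] [Group M] (N : F → F) (hN1 : N 1 = 1)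
    (hN : ∀ s, s ≠ 0 → N s ≠ 0) {z : F} (hz0 : z ≠ 0) (hz1 : z + 1 ≠ 0)
    (hz : (N (z + 1))⁻¹ ≠ (N z)⁻¹ + 1) (b : F → F → M)
    (hl : ∀ x x' y, b (x + x') y = b x y * b x' y) (hr : ∀ x y y', b x (y + y') = b x y * b x y')
    (hinv : ∀ s x y, s ≠ 0 → b (s * x) (N s * y) = b x y) (x y : F) : b x y = 1 := by
  have hx : ∀ x y, x ≠ 0 → b x y = b 1 ((N x)⁻¹ * y) := by
    intro x y hx
    have h1 := hinv x 1 ((N x)⁻¹ * y) hx
    rw [mul_one, ← mul_assoc, mul_inv_cancel₀ (hN x hx), one_mul] at h1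
    exact h1
  have key : ∀ y, b 1 (((N (z + 1))⁻¹ - ((N z)⁻¹ + 1)) * y) = 1 := by
    intro y
    have h1 := hl z 1 y
    rw [hx (z + 1) y hz1, hx z y hz0, ← hr] at h1
    have h3 : (N (z + 1))⁻¹ * y = ((N (z + 1))⁻¹ - ((N z)⁻¹ + 1)) * y + ((N z)⁻¹ * y + y) := by ring
    rw [h3, hr] at h1
    exact mul_eq_right.1 h1
  have hone : ∀ y, b 1 y = 1 := by
    intro y
    have h1 := key (((N (z + 1))⁻¹ - ((N z)⁻¹ + 1))⁻¹ * y)
    rw [← mul_assoc, mul_inv_cancel₀ (sub_ne_zero.2 hz), one_mul] at h1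
    exact h1
  by_cases h : x = 0
  · subst h
    have h1 := hl 0 0 y
    rw [add_zero] at h1
    exact (mul_eq_left.1 h1.symm)
  · rw [hx x y h, hone]

theorem one_of_sq_cube {M : Type*} [Group M] {b : M} (h2 : b * b = 1) (h3 : b * b * b = 1) : b = 1 := by
  rwa [h2, one_mul] at h3

variable {G : Type*} [Group G] [Finite G] {K : Type*} [Field K] [Fintype K] {m : ℕ} (X : RX G K m)

include X in
theorem RX.exists_z1 (hm : 1 ≤ m) : ∃ z : K, z ≠ 0 ∧ z + 1 ≠ 0 ∧ (z + 1)⁻¹ ≠ z⁻¹ + 1 := by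
  classical
  have hcard : 27 ≤ Fintype.card K := by rw [X.R.hK]; exact X.R.q_ge hm
  have h1 : ({0, -1, 1} : Finset K).card < (Finset.univ : Finset K).card := by
    refine lt_of_le_of_lt (Finset.card_le_three) ?_
    rw [Finset.card_univ]; omega
  obtain ⟨z, _, hz⟩ := Finset.exists_mem_notMem_of_card_lt_card h1
  simp only [Finset.mem_insert, Finset.mem_singleton, not_or] at hz
  obtain ⟨h0, h1, h2⟩ := hz
  have hz1 : z + 1 ≠ 0 := fun h => h1 (eq_neg_of_add_eq_zero_left h)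
  refine ⟨z, h0, hz1, ?_⟩
  intro h
  have h3 := X.three
  field_simp at h
  have h4 : (z - 1) ^ 2 = 0 := by linear_combination -h - z * h3
  exact h2 (sub_eq_zero.1 (pow_eq_zero_iff two_ne_zero |>.1 h4))

theorem RX.χψ (s : Kˣ) : X.ψ s * X.χ s = s := by
  have h1 := X.χ_pow s
  have h2 := X.ψ_pow s
  have h3 : (X.ψ s * X.χ s) * (s * s ^ (3 ^ (m + 1))) = s * (s * s ^ (3 ^ (m + 1))) := by
    calc (X.ψ s * X.χ s) * (s * s ^ (3 ^ (m + 1))) = (X.ψ s * s) * (X.χ s * s ^ (3 ^ (m + 1))) := by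
          rw [mul_mul_mul_comm]
      _ = s ^ (3 ^ (m + 1)) * s ^ 2 := by rw [h1, h2]
      _ = _ := by rw [pow_two]; rw [mul_comm, mul_assoc]
  exact mul_right_cancel h3

open Classical in
/-- the inverse of χ as a function -/
noncomputable def RX.N (x : K) : K := if h : x = 0 then 0 else ((X.χ_surj (Units.mk0 x h)).choose : K)

theorem RX.N_zero : X.N 0 = 0 := by unfold RX.N; rw [dif_pos rfl]

theorem RX.N_χ (s : Kˣ) : X.N (X.χ s : K) = s := by
  unfold RX.N
  rw [dif_neg (X.χ s).ne_zero]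
  have h := (X.χ_surj (Units.mk0 (X.χ s : K) (X.χ s).ne_zero)).choose_spec
  congr 1
  apply X.χ_inj
  rw [h]
  exact Units.ext rfl

theorem RX.χ_N {x : K} (hx : x ≠ 0) : ∃ s : Kˣ, (X.χ s : K) = x ∧ X.N x = s := by
  obtain ⟨s, hs⟩ := X.χ_surj (Units.mk0 x hx)
  have : (X.χ s : K) = x := by rw [hs]; rfl
  exact ⟨s, this, by rw [← this, X.N_χ]⟩

theorem RX.N_mul (x y : K) : X.N (x * y) = X.N x * X.N y := by
  by_cases hx : x = 0
  · rw [hx, zero_mul, X.N_zero, zero_mul]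
  by_cases hy : y = 0
  · rw [hy, mul_zero, X.N_zero, mul_zero]
  obtain ⟨s, hs, hs'⟩ := X.χ_N hx
  obtain ⟨r, hr, hr'⟩ := X.χ_N hy
  rw [hs', hr', ← hs, ← hr, ← Units.val_mul, ← map_mul, X.N_χ, Units.val_mul]

theorem RX.N_one : X.N 1 = 1 := by
  have := X.N_χ 1
  rwa [map_one] at this

theorem RX.N_neg_one : X.N (-1) = -1 := by
  have := X.N_χ (-1)
  rwa [X.χ_neg_one] at this

theorem RX.N_ne {x : K} (hx : x ≠ 0) : X.N x ≠ 0 := by
  obtain ⟨s, _, hs⟩ := X.χ_N hx
  rw [hs]; exact s.ne_zero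

theorem RX.N_pow (x : K) (k : ℕ) : X.N (x ^ k) = X.N x ^ k := by
  induction k with
  | zero => rw [pow_zero, pow_zero, X.N_one]
  | succ k ih => rw [pow_succ, X.N_mul, ih, pow_succ]

theorem RX.exists_z2 (hm : 1 ≤ m) : ∃ z : K, z ≠ 0 ∧ z + 1 ≠ 0 ∧ (X.N (z + 1))⁻¹ ≠ (X.N z)⁻¹ + 1 := by
  by_contra hcon
  push Not at hcon
  have h3 := X.three
  set g : K → K := fun x => (X.N x)⁻¹ with hg
  have gd : ∀ x, g x = (X.N x)⁻¹ := fun _ => rfl
  have g0 : g 0 = 0 := by rw [gd, X.N_zero, _root_.inv_zero]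
  have g1 : g 1 = 1 := by rw [gd, X.N_one, inv_one]
  have gm1 : g (-1) = -1 := by rw [gd, X.N_neg_one]; norm_num
  have gmul : ∀ x y, g (x * y) = g x * g y := by
    intro x y; rw [gd, X.N_mul, mul_inv]
  have gp : ∀ z, g (z + 1) = g z + 1 := by
    intro z
    by_cases h0 : z = 0
    · rw [h0, zero_add, g0, zero_add, g1]
    by_cases h1 : z + 1 = 0
    · have : z = -1 := eq_neg_of_add_eq_zero_left h1
      rw [h1, g0, this, gm1]; ring
    · exact hcon z h0 h1
  have gneg : ∀ z, g (-z) = -g z := by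
    intro z
    have : -z = -1 * z := by ring
    rw [this, gmul, gm1]; ring
  have gm : ∀ z, g (z - 1) = g z - 1 := by
    intro z
    have h1 := gp (z - 1)
    rw [sub_add_cancel] at h1
    rw [h1]; ring
  -- s g(s)^2 = θ(g(s))
  have key : ∀ s : K, s * g s ^ 2 = X.f (g s) ^ 3 := by
    intro s
    by_cases hs : s = 0
    · rw [hs, g0]; simp
    · set s' : Kˣ := Units.mk0 s hs with hs'
      have e1 : (s' : K) = s := rfl
      have h1 := congrArg Units.val (X.χ_pow s')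
      rw [Units.val_mul, Units.val_pow_eq_pow_val, Units.val_pow_eq_pow_val, e1] at h1
      have h2 := congrArg g h1
      rw [gmul] at h2
      have h4 : g (X.χ s' : K) = s⁻¹ := by rw [gd, X.N_χ, e1]
      have h5 : ∀ (x : K) (k : ℕ), g (x ^ k) = g x ^ k := by
        intro x k
        rw [gd, X.N_pow, inv_pow]
      rw [h4, h5, h5] at h2
      rw [X.θ_eq, ← h2]
      field_simp
  have gid : ∀ s, g s = s := by
    intro s
    have e1 := key s
    have e2 := key (s + 1)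
    have e3 := key (s - 1)
    rw [gp] at e2
    rw [gm] at e3
    have h4 : X.f (g s + 1) ^ 3 = X.f (g s) ^ 3 + 1 := by
      rw [map_add, map_one]
      linear_combination (X.f (g s) ^ 2 + X.f (g s)) * h3
    have h5 : X.f (g s - 1) ^ 3 = X.f (g s) ^ 3 - 1 := by
      rw [map_sub, map_one]
      linear_combination (-X.f (g s) ^ 2 + X.f (g s)) * h3
    rw [h4] at e2
    rw [h5] at e3
    have h6 : 2 * s + 4 * g s = 0 := by linear_combination e2 + e3 - 2 * e1
    have h7 : 2 * (g s - s) = 0 := by linear_combination -h6 + 2 * g s * h3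
    rcases mul_eq_zero.1 h7 with h | h
    · exact absurd h X.R.two_ne
    · exact sub_eq_zero.1 h
  have hfid : ∀ s, X.f s = s := by
    intro s
    have e1 := key s
    rw [gid] at e1
    have e2 : (X.f s - s) ^ 3 = 0 := by
      have : (X.f s - s) ^ 3 = X.f s ^ 3 - s ^ 3 - 3 * (X.f s ^ 2 * s - X.f s * s ^ 2) := by ring
      rw [this, h3, ← e1]; ring
    exact sub_eq_zero.1 (pow_eq_zero_iff (by norm_num) |>.1 e2)
  obtain ⟨t, ht⟩ := X.exists_θ_ne hm
  apply ht
  have := X.ff3 t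
  rwa [hfid] at this

end CfsgLib.ReeA
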