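import Cfsg.Agent.LibRee37

set_option autoImplicit false
set_option linter.unusedSectionVars false
set_option linter.unusedVariables false

/-! Central extensions of the small Ree groups: the extension restricted to the unipotent subgroup -/

namespace CfsgLib.ReeA

open Cfsg.Lie CfsgLib.Chev Matrix CfsgLib.Rank1 CfsgLib.SL2P CfsgLib.SuzM
open scoped commutatorElement

variable {G : Type*} [Group G] [Finite G] {K : Type*} [Field K] [Fintype K] {m : ℕ} (X : RX G K m)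
variable {Γ : Type*} [Group Γ] {σ : Γ →* G} (hσ : Function.Surjective σ) (hc : σ.ker ≤ Subgroup.center Γ)

theorem RX.x0_comm (u v u' v' : K) : X.x 0 u v * X.x 0 u' v' = X.x 0 u' v' * X.x 0 u v := by
  rw [X.x0_mul, X.x0_mul, add_comm, add_comm v]

include hσ hc

theorem RX.cm0_left (a b c d e f : K) : cm hσ (X.x 0 a b * X.x 0 c d) (X.x 0 e f) = cm hσ (X.x 0 a b) (X.x 0 e f) * cm hσ (X.x 0 c d) (X.x 0 e f) := by
  rw [X.x0_comm a b c d, cm_mul_left hσ hc]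
  intro w _
  exact cm_central hσ hc (X.x0_comm _ _ _ _) w

theorem RX.cm0_right (a b c d e f : K) : cm hσ (X.x 0 a b) (X.x 0 c d * X.x 0 e f) = cm hσ (X.x 0 a b) (X.x 0 c d) * cm hσ (X.x 0 a b) (X.x 0 e f) := by
  rw [cm_mul_right hσ hc]
  intro w _
  exact cm_central hσ hc (X.x0_comm _ _ _ _) w

theorem RX.cm0_inv (s : Kˣ) (a b c d : K) : cm hσ (X.x 0 (X.ψ s * a) (s * b)) (X.x 0 (X.ψ s * c) (s * d)) = cm hσ (X.x 0 a b) (X.x 0 c d) := by
  obtain ⟨w, hw⟩ := hσ (X.h s)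
  have h1 := cm_conj hσ hc (g := X.x 0 a b) (h := X.x 0 c d) hw
  rw [X.h_conj0, X.h_conj0, cm_central hσ hc (X.x0_comm _ _ _ _), mul_inv_cancel_right] at h1
  exact h1.symm

theorem RX.cm_ZZ (hm : 1 ≤ m) (x y : K) : cm hσ (X.x 0 0 x) (X.x 0 0 y) = 1 := by
  obtain ⟨z, hz0, hz1, hz⟩ := X.exists_z1 hm
  refine bi_vanish (fun x => x) rfl (fun s hs => hs) hz0 hz1 hz (fun x y => cm hσ (X.x 0 0 x) (X.x 0 0 y)) ?_ ?_ ?_ x y
  · intro x x' y
    have := X.cm0_left hσ hc 0 x 0 x' 0 y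
    rwa [X.x0_mul, add_zero] at this
  · intro x y y'
    have := X.cm0_right hσ hc 0 x 0 y 0 y'
    rwa [X.x0_mul, add_zero] at this
  · intro s x y hs
    have := X.cm0_inv hσ hc (Units.mk0 s hs) 0 x 0 y
    simpa using this

theorem RX.cm_PZ (x y : K) : cm hσ (X.x 0 x 0) (X.x 0 0 y) = 1 := by
  have hr : ∀ x y y', cm hσ (X.x 0 x 0) (X.x 0 0 (y + y')) = cm hσ (X.x 0 x 0) (X.x 0 0 y) * cm hσ (X.x 0 x 0) (X.x 0 0 y') := by
    intro x y y'
    have := X.cm0_right hσ hc x 0 0 y 0 y'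
    rwa [X.x0_mul, add_zero] at this
  have h0 : cm hσ (X.x 0 x 0) (X.x 0 0 0) = 1 := by
    have := hr x 0 0
    rw [add_zero] at this
    exact (mul_eq_left.1 this.symm)
  have h1 := X.cm0_inv hσ hc (-1) x 0 0 y
  rw [X.ψ_neg_one] at h1
  simp only [Units.val_one, one_mul, Units.val_neg, neg_mul, neg_zero] at h1
  have h2 := hr x y (-y)
  rw [add_neg_cancel, h0, h1] at h2
  have h3 : cm hσ (X.x 0 x 0) (X.x 0 0 y) * cm hσ (X.x 0 x 0) (X.x 0 0 y) * cm hσ (X.x 0 x 0) (X.x 0 0 y) = 1 := by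
    rw [← hr, ← hr]
    have : y + y + y = 0 := by linear_combination y * X.three
    rw [this, h0]
  exact one_of_sq_cube h2.symm h3

theorem RX.cm_PP (hm : 1 ≤ m) (x y : K) : cm hσ (X.x 0 x 0) (X.x 0 y 0) = 1 := by
  obtain ⟨z, hz0, hz1, hz⟩ := X.exists_z1 hm
  have hl : ∀ x x' y, cm hσ (X.x 0 (x + x') 0) (X.x 0 y 0) = cm hσ (X.x 0 x 0) (X.x 0 y 0) * cm hσ (X.x 0 x' 0) (X.x 0 y 0) := by
    intro x x' y
    have := X.cm0_left hσ hc x 0 x' 0 y 0
    rwa [X.x0_mul, add_zero] at this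
  have hr : ∀ x y y', cm hσ (X.x 0 x 0) (X.x 0 (y + y') 0) = cm hσ (X.x 0 x 0) (X.x 0 y 0) * cm hσ (X.x 0 x 0) (X.x 0 y' 0) := by
    intro x y y'
    have := X.cm0_right hσ hc x 0 y 0 y' 0
    rwa [X.x0_mul, add_zero] at this
  have hl0 : ∀ y, cm hσ (X.x 0 0 0) (X.x 0 y 0) = 1 := by
    intro y
    have := hl 0 0 y
    rw [add_zero] at this
    exact (mul_eq_left.1 this.symm)
  have hr0 : ∀ x, cm hσ (X.x 0 x 0) (X.x 0 0 0) = 1 := by
    intro x
    have := hr x 0 0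
    rw [add_zero] at this
    exact (mul_eq_left.1 this.symm)
  have hneg : ∀ x y, cm hσ (X.x 0 (-x) 0) (X.x 0 (-y) 0) = cm hσ (X.x 0 x 0) (X.x 0 y 0) := by
    intro x y
    have h1 := hl x (-x) (-y)
    rw [add_neg_cancel, hl0] at h1
    have h2 := hr x y (-y)
    rw [add_neg_cancel, hr0] at h2
    have h3 : cm hσ (X.x 0 x 0) (X.x 0 (-y) 0) = (cm hσ (X.x 0 x 0) (X.x 0 y 0))⁻¹ := (inv_eq_of_mul_eq_one_right h2.symm).symm
    rw [h3] at h1
    exact (inv_mul_eq_one.1 h1.symm).symm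
  refine bi_vanish (fun x => x) rfl (fun s hs => hs) hz0 hz1 hz (fun x y => cm hσ (X.x 0 x 0) (X.x 0 y 0)) hl hr ?_ x y
  intro s x y hs
  obtain ⟨r, hr'⟩ := X.ψ_pm (Units.mk0 s hs)
  have h1 := X.cm0_inv hσ hc r x 0 y 0
  rw [mul_zero] at h1
  rcases hr' with e | e
  · have e2 : s = (X.ψ r : K) := by rw [← e]; rfl
    show cm hσ (X.x 0 (s * x) 0) (X.x 0 (s * y) 0) = _
    rw [e2]; exact h1
  · have e2 : s = -(X.ψ r : K) := by
      have := congrArg Units.val e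
      rwa [Units.val_mk0, Units.val_neg] at this
    show cm hσ (X.x 0 (s * x) 0) (X.x 0 (s * y) 0) = _
    rw [e2, neg_mul, neg_mul, hneg]; exact h1

theorem RX.cm_00 (hm : 1 ≤ m) (a b c d : K) : cm hσ (X.x 0 a b) (X.x 0 c d) = 1 := by
  have e : ∀ a b, X.x 0 a b = X.x 0 a 0 * X.x 0 0 b := by
    intro a b; rw [X.x0_mul]; simp
  have hswap : ∀ x y, cm hσ (X.x 0 0 x) (X.x 0 y 0) = 1 := by
    intro x y
    have h1 := X.cm_PZ hσ hc y x
    obtain ⟨w, hw⟩ := hσ (X.x 0 y 0)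
    obtain ⟨v, hv⟩ := hσ (X.x 0 0 x)
    have h2 := comm_of_cm hσ hc h1 hw hv
    rw [← cm_eq hσ hc hv hw, ← h2]
    group
  rw [e a b, X.cm0_left hσ hc, e c d, X.cm0_right hσ hc, X.cm0_right hσ hc, X.cm_PP hσ hc hm, X.cm_PZ hσ hc, X.cm_ZZ hσ hc hm, hswap]
  simp

/-- lifts of elements of the abelian group commute -/
theorem RX.comm_00 (hm : 1 ≤ m) {w v : Γ} {a b c d : K} (hw : σ w = X.x 0 a b) (hv : σ v = X.x 0 c d) : w * v = v * w :=
  comm_of_cm hσ hc (X.cm_00 hσ hc hm a b c d) hw hv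

/-- the canonical lifts -/
theorem RX.exists_e (hm : 1 ≤ m) : ∃ e : K → K → Γ, (∀ u v, σ (e u v) = X.x 0 u v) ∧ (∀ u v u' v', e (u + u') (v + v') = e u v * e u' v') ∧
    (∀ (s : Kˣ) (w : Γ) (u v : K), σ w = X.h s → w * e u v * w⁻¹ = e (X.ψ s * u) (s * v)) := by
  -- a torus element without fixed points
  obtain ⟨s0, h1, h2⟩ : ∃ s0 : Kˣ, (X.ψ s0 : K) - 1 ≠ 0 ∧ (s0 : K) - 1 ≠ 0 := by
    by_contra hcon
    push Not at hcon
    have h1 : ∀ s : Kˣ, s = 1 ∨ s = -1 := by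
      intro s
      by_cases h : (X.ψ s : K) - 1 = 0
      · exact X.ψ_one (Units.ext (sub_eq_zero.1 h))
      · left; exact Units.ext (sub_eq_zero.1 (hcon s h))
    have h2 : Nat.card Kˣ ≤ 2 := by
      have : (Set.univ : Set Kˣ) ⊆ {1, -1} := by
        intro s _
        rcases h1 s with h | h <;> simp [h]
      rw [← Set.ncard_univ]
      exact (Set.ncard_le_ncard this).trans ((Set.ncard_insert_le _ _).trans (by rw [Set.ncard_singleton]))
    rw [Nat.card_units, Nat.card_eq_fintype_card, X.R.hK] at h2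
    have := X.R.q_ge hm
    omega
  set μ := (X.ψ s0 : K) - 1 with hμ
  set ν := (s0 : K) - 1 with hν
  have hσz : ∀ u v, σ (cm hσ (X.h s0) (X.x 0 u v)) = X.x 0 (μ * u) (ν * v) := by
    intro u v
    rw [map_cm, X.h_conj0, X.x0_inv, X.x0_mul]
    congr 1
    · rw [hμ]; ring
    · rw [hν]; ring
  refine ⟨fun u v => cm hσ (X.h s0) (X.x 0 (μ⁻¹ * u) (ν⁻¹ * v)), ?_, ?_, ?_⟩
  · intro u v
    beta_reduce
    rw [hσz, ← mul_assoc, ← mul_assoc, mul_inv_cancel₀ h1, mul_inv_cancel₀ h2, one_mul, one_mul]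
  · intro u v u' v'
    beta_reduce
    rw [mul_add, mul_add, ← X.x0_mul, cm_mul_right hσ hc]
    intro w hw
    exact X.comm_00 hσ hc hm hw (hσz _ _)
  · intro s w u v hw
    beta_reduce
    rw [cm_conj hσ hc hw, X.h_conj0]
    have h1 : X.h s * X.h s0 * (X.h s)⁻¹ = X.h s0 := by
      rw [← map_mul, ← map_inv, ← map_mul, mul_comm s s0, mul_inv_cancel_right]
    rw [h1]
    congr 2 <;> ring

end CfsgLib.ReeA
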