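import Cfsg.Agent.LibRee38

set_option autoImplicit false
set_option linter.unusedSectionVars false
set_option linter.unusedVariables false

/-! Central extensions of the small Ree groups: the canonical lifts are normalised -/

namespace CfsgLib.ReeA

open Cfsg.Lie CfsgLib.Chev Matrix CfsgLib.Rank1 CfsgLib.SL2P CfsgLib.SuzM
open scoped commutatorElement

variable {G : Type*} [Group G] [Finite G] {K : Type*} [Field K] [Fintype K] {m : ℕ} (X : RX G K m)
variable {Γ : Type*} [Group Γ] {σ : Γ →* G}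

/-- canonical lifts -/
structure RX.EE (σ : Γ →* G) (e : K → K → Γ) : Prop where
  map : ∀ u v, σ (e u v) = X.x 0 u v
  add : ∀ u v u' v', e (u + u') (v + v') = e u v * e u' v'
  conj : ∀ (s : Kˣ) (w : Γ) (u v : K), σ w = X.h s → w * e u v * w⁻¹ = e (X.ψ s * u) (s * v)

variable {X}

theorem RX.EE.zero {e : K → K → Γ} (h : X.EE σ e) : e 0 0 = 1 := by
  have := h.add 0 0 0 0
  rw [add_zero] at this
  exact mul_eq_left.1 this.symm

theorem RX.EE.inv {e : K → K → Γ} (h : X.EE σ e) (u v : K) : (e u v)⁻¹ = e (-u) (-v) := by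
  rw [inv_eq_iff_mul_eq_one, ← h.add, add_neg_cancel, add_neg_cancel, h.zero]

variable (X)
variable (hσ : Function.Surjective σ) (hc : σ.ker ≤ Subgroup.center Γ)

include hσ hc

theorem RX.EE.comm {e : K → K → Γ} (h : X.EE σ e) (hm : 1 ≤ m) {w : Γ} {a b : K} (hw : σ w = X.x 0 a b) (u v : K) : w * e u v = e u v * w :=
  X.comm_00 hσ hc hm hw (h.map u v)

/-- the action of a lift on the canonical lifts depends only on the first coordinate -/
theorem RX.EE.dep {e : K → K → Γ} (h : X.EE σ e) (hm : 1 ≤ m) {w w' : Γ} {t a b a' b' : K} (hw : σ w = X.x t a b) (hw' : σ w' = X.x t a' b') (u v : K) :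
    w * e u v * w⁻¹ = w' * e u v * w'⁻¹ := by
  have h1 : ∃ c d, σ (w'⁻¹ * w) = X.x 0 c d := by
    rw [map_mul, map_inv, hw, hw', X.x_split t a b, X.x_split t a' b', _root_.mul_inv_rev, X.x0_inv]
    refine ⟨-a' + a, -b' + b, ?_⟩
    rw [← X.x0_mul]; group
  obtain ⟨c, d, h1⟩ := h1
  have h2 := h.comm X hσ hc hm h1 u v
  have h3 : w = w' * (w'⁻¹ * w) := by group
  calc w * e u v * w⁻¹ = w' * ((w'⁻¹ * w) * e u v) * (w'⁻¹ * w)⁻¹ * w'⁻¹ := by group
    _ = _ := by rw [h2]; group

/-- the discrepancy -/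
theorem RX.EE.disc {e : K → K → Γ} (h : X.EE σ e) (hm : 1 ≤ m) : ∃ a : K → K → K → Γ, (∀ t u v, ∀ w, w * a t u v = a t u v * w) ∧
    (∀ t u v w a' b', σ w = X.x t a' b' → w * e u v * w⁻¹ = a t u v * e u (v + u * t)) := by
  refine ⟨fun t u v => Function.surjInv hσ (X.x t 0 0) * e u v * (Function.surjInv hσ (X.x t 0 0))⁻¹ * (e u (v + u * t))⁻¹, ?_, ?_⟩
  · intro t u v w
    refine Subgroup.mem_center_iff.1 (hc ?_) w
    rw [MonoidHom.mem_ker]
    beta_reduce
    rw [map_mul, map_mul, map_mul, map_inv, map_inv, Function.surjInv_eq hσ, h.map, h.map, X.x_conj0, mul_inv_cancel]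
  · intro t u v w a' b' hw
    beta_reduce
    rw [inv_mul_cancel_right]
    exact h.dep X hσ hc hm hw (Function.surjInv_eq hσ _) u v

/-- the canonical lifts are normalised by the lifts of the unipotent elements -/
theorem RX.EE.norm {e : K → K → Γ} (h : X.EE σ e) (hm : 1 ≤ m) {w : Γ} {t a' b' : K} (hw : σ w = X.x t a' b') (u v : K) :
    w * e u v * w⁻¹ = e u (v + u * t) := by
  obtain ⟨a, ha1, ha2⟩ := h.disc X hσ hc hm
  have hL : ∀ t, ∃ w, σ w = X.x t 0 0 := fun t => hσ _
  -- additivity in (u, v)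
  have hadd : ∀ t u v u' v', a t (u + u') (v + v') = a t u v * a t u' v' := by
    intro t u v u' v'
    obtain ⟨w, hw⟩ := hL t
    have h1 := ha2 t (u + u') (v + v') w 0 0 hw
    have h2 := ha2 t u v w 0 0 hw
    have h3 := ha2 t u' v' w 0 0 hw
    rw [h.add] at h1
    have h4 : w * (e u v * e u' v') * w⁻¹ = (w * e u v * w⁻¹) * (w * e u' v' * w⁻¹) := by group
    rw [h4, h2, h3] at h1
    have h5 : e (u + u') (v + v' + (u + u') * t) = e u (v + u * t) * e u' (v' + u' * t) := by
      rw [← h.add]; congr 1; ring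
    rw [h5] at h1
    have h6 : a t u v * e u (v + u * t) * (a t u' v' * e u' (v' + u' * t)) = (a t u v * a t u' v') * (e u (v + u * t) * e u' (v' + u' * t)) := by
      calc a t u v * e u (v + u * t) * (a t u' v' * e u' (v' + u' * t)) = a t u v * (e u (v + u * t) * a t u' v') * e u' (v' + u' * t) := by group
        _ = _ := by rw [ha1 t u' v' (e u (v + u * t))]; group
    rw [h6] at h1
    exact (mul_right_cancel h1).symm
  -- the cocycle relation in t
  have hcoc : ∀ t t' u v, a (t + t') u v = a t' u v * a t u (v + u * t') := by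
    intro t t' u v
    obtain ⟨w, hw⟩ := hL t
    obtain ⟨w', hw'⟩ := hL t'
    have h1 : σ (w * w') = X.x (t + t') (0 + 0 - t * X.f t' ^ 3) (0 + 0 - 0 * t' - t ^ 2 * X.f t' ^ 3 + t * t' * X.f t' ^ 3) := by
      rw [map_mul, hw, hw', X.x_mul]
    have h2 := ha2 _ u v _ _ _ h1
    have h3 : w * w' * e u v * (w * w')⁻¹ = w * (w' * e u v * w'⁻¹) * w⁻¹ := by group
    rw [h3, ha2 t' u v w' 0 0 hw'] at h2
    have h4 : w * (a t' u v * e u (v + u * t')) * w⁻¹ = (w * a t' u v) * e u (v + u * t') * w⁻¹ := by group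
    rw [h4, ha1] at h2
    have h5 : a t' u v * w * e u (v + u * t') * w⁻¹ = a t' u v * (w * e u (v + u * t') * w⁻¹) := by group
    rw [h5, ha2 t u (v + u * t') w 0 0 hw, ← mul_assoc] at h2
    have h6 : v + u * t' + u * t = v + u * (t + t') := by ring
    rw [h6] at h2
    exact (mul_right_cancel h2).symm
  -- invariance
  have hinv : ∀ (s : Kˣ) t u v, a (X.χ s * t) (X.ψ s * u) (s * v) = a t u v := by
    intro s t u v
    obtain ⟨w, hw⟩ := hL t
    obtain ⟨y, hy⟩ := hσ (X.h s)
    have h1 : σ (y * w * y⁻¹) = X.x (X.χ s * t) 0 0 := by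
      rw [map_mul, map_mul, map_inv, hw, hy, X.h_x]; simp
    have h2 := ha2 _ (X.ψ s * u) (s * v) _ _ _ h1
    rw [← h.conj s y u v hy] at h2
    have h3 : y * w * y⁻¹ * (y * e u v * y⁻¹) * (y * w * y⁻¹)⁻¹ = y * (w * e u v * w⁻¹) * y⁻¹ := by group
    rw [h3, ha2 t u v w 0 0 hw] at h2
    have h4 : y * (a t u v * e u (v + u * t)) * y⁻¹ = (y * a t u v) * e u (v + u * t) * y⁻¹ := by group
    rw [h4, ha1] at h2
    have h5 : a t u v * y * e u (v + u * t) * y⁻¹ = a t u v * (y * e u (v + u * t) * y⁻¹) := by group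
    rw [h5, h.conj s y _ _ hy] at h2
    have h6 : (s : K) * (v + u * t) = s * v + X.ψ s * u * (X.χ s * t) := by
      have : (s : K) = X.ψ s * X.χ s := by rw [← Units.val_mul, X.χψ]
      calc (s : K) * (v + u * t) = s * v + s * (u * t) := by ring
        _ = s * v + (X.ψ s * X.χ s) * (u * t) := by rw [← this]
        _ = _ := by ring
    rw [h6] at h2
    exact (mul_right_cancel h2).symm
  have ha0 : ∀ t, a t 0 0 = 1 := by
    intro t
    have := hadd t 0 0 0 0
    rw [add_zero] at this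
    exact mul_eq_left.1 this.symm
  -- the part a t 0 v
  have hv : ∀ t v, a t 0 v = 1 := by
    obtain ⟨z, hz0, hz1, hz⟩ := X.exists_z2 hm
    intro t v
    refine bi_vanish X.N X.N_one (fun s hs => X.N_ne hs) hz0 hz1 hz (fun t v => a t 0 v) ?_ ?_ ?_ t v
    · intro t t' v
      have h1 := hcoc t' t 0 v
      rw [zero_mul, add_zero, add_comm] at h1
      exact h1
    · intro t v v'
      have h1 := hadd t 0 v 0 v'
      rw [add_zero] at h1
      exact h1
    · intro s t v hs
      obtain ⟨r, hr1, hr2⟩ := X.χ_N hs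
      have h1 := hinv r t 0 v
      rw [mul_zero, hr1] at h1
      show a (s * t) 0 (X.N s * v) = _
      rw [hr2]; exact h1
  have huv : ∀ t u v, a t u v = a t u 0 := by
    intro t u v
    have h1 := hadd t u 0 0 v
    rw [add_zero, zero_add, hv, mul_one] at h1
    exact h1
  -- the part a t u 0
  have hu : ∀ t u, a t u 0 = 1 := by
    have ht : ∀ t t' u, a (t + t') u 0 = a t' u 0 * a t u 0 := by
      intro t t' u
      rw [hcoc, huv t u (0 + u * t')]
    intro t u
    have h0 : a 0 u 0 = 1 := by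
      have := ht 0 0 u
      rw [add_zero] at this
      exact mul_eq_left.1 this.symm
    have h1 := hinv (-1) t u 0
    rw [X.χ_neg_one, X.ψ_neg_one] at h1
    simp only [Units.val_one, one_mul, Units.val_neg, neg_mul, neg_zero] at h1
    have h2 := ht t (-t) u
    rw [add_neg_cancel, h0, h1] at h2
    have h3 : a t u 0 * a t u 0 * a t u 0 = 1 := by
      rw [mul_assoc, ← ht, ← ht]
      have : t + t + t = 0 := by linear_combination t * X.three
      rw [this, h0]
    exact one_of_sq_cube h2.symm h3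
  rw [ha2 t u v w a' b' hw, huv, hu, one_mul]

end CfsgLib.ReeA
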