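import Cfsg.Agent.LibRee39

set_option autoImplicit false
set_option linter.unusedSectionVars false
set_option linter.unusedVariables false

/-! Central extensions of the small Ree groups: commutators of lifts of unipotent elements -/

namespace CfsgLib.ReeA

open Cfsg.Lie CfsgLib.Chev Matrix CfsgLib.Rank1 CfsgLib.SL2P CfsgLib.SuzM
open scoped commutatorElement

variable {G : Type*} [Group G] [Finite G] {K : Type*} [Field K] [Fintype K] {m : ℕ} (X : RX G K m)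
variable {Γ : Type*} [Group Γ] {σ : Γ →* G}

/-- the commutator of two elements of U -/
theorem RX.x_comm (t u v t' u' v' : K) : ∃ a b, X.x t u v * X.x t' u' v' * (X.x t u v)⁻¹ * (X.x t' u' v')⁻¹ = X.x 0 a b := by
  have h : X.x t u v * X.x t' u' v' * (X.x t u v)⁻¹ * (X.x t' u' v')⁻¹ ∈ X.R.U :=
    X.R.U.mul_mem (X.R.U.mul_mem (X.R.U.mul_mem (X.xU _ _ _) (X.xU _ _ _)) (X.R.U.inv_mem (X.xU _ _ _))) (X.R.U.inv_mem (X.xU _ _ _))
  obtain ⟨c, a, b, e⟩ := (X.x_U _).1 h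
  have e2 : X.x t u v * X.x t' u' v' = X.x c a b * (X.x t' u' v' * X.x t u v) := by rw [← e]; group
  rw [X.x_mul, X.x_mul, X.x_mul] at e2
  obtain ⟨e3, _, _⟩ := X.x_inj _ _ _ _ _ _ e2
  have : c = 0 := by linear_combination -e3
  subst this
  exact ⟨a, b, e⟩

variable (hσ : Function.Surjective σ) (hc : σ.ker ≤ Subgroup.center Γ)

include hσ hc

/-- the central component of an element over the abelian group -/
theorem RX.EE.exists_pA {e : K → K → Γ} (h : X.EE σ e) (hm : 1 ≤ m) : ∃ pA : Γ → Γ,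
    (∀ g a b, σ g = X.x 0 a b → g = pA g * e a b ∧ ∀ w, w * pA g = pA g * w) ∧
    (∀ z a b, z ∈ σ.ker → pA (z * e a b) = z) := by
  classical
  let pA : Γ → Γ := fun g => if hg : ∃ p : K × K, σ g = X.x 0 p.1 p.2 then g * (e hg.choose.1 hg.choose.2)⁻¹ else 1
  have key : ∀ g a b, σ g = X.x 0 a b → pA g = g * (e a b)⁻¹ := by
    intro g a b hg
    have hg' : ∃ p : K × K, σ g = X.x 0 p.1 p.2 := ⟨(a, b), hg⟩
    show (if hg : ∃ p : K × K, σ g = X.x 0 p.1 p.2 then g * (e hg.choose.1 hg.choose.2)⁻¹ else 1) = _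
    rw [dif_pos hg']
    have h1 := hg.symm.trans hg'.choose_spec
    obtain ⟨_, h2, h3⟩ := X.x_inj _ _ _ _ _ _ h1
    rw [← h2, ← h3]
  refine ⟨pA, ?_, ?_⟩
  · intro g a b hg
    rw [key g a b hg, inv_mul_cancel_right]
    refine ⟨rfl, ?_⟩
    intro w
    refine Subgroup.mem_center_iff.1 (hc ?_) w
    rw [MonoidHom.mem_ker, map_mul, map_inv, hg, h.map, mul_inv_cancel]
  · intro z a b hz
    rw [key _ a b, mul_inv_cancel_right]
    rw [map_mul, MonoidHom.mem_ker.1 hz, one_mul, h.map]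

/-- commutators of lifts of unipotent elements are canonical lifts -/
theorem RX.EE.comm_e {e : K → K → Γ} (h : X.EE σ e) (hm : 1 ≤ m) {x y : Γ} {t u v t' u' v' : K} (hx : σ x = X.x t u v) (hy : σ y = X.x t' u' v') :
    ∃ a b, x * y * x⁻¹ * y⁻¹ = e a b := by
  obtain ⟨pA, hp1, hp2⟩ := h.exists_pA X hσ hc hm
  have hker : ∀ g a b, σ g = X.x 0 a b → pA g ∈ σ.ker := by
    intro g a b hg
    have h1 := (hp1 g a b hg).1
    rw [MonoidHom.mem_ker]
    have h2 := congrArg σ h1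
    rw [map_mul, h.map, hg] at h2
    exact mul_eq_right.1 h2.symm
  -- uniqueness
  have huniq : ∀ g z a b, z ∈ σ.ker → g = z * e a b → pA g = z := by
    intro g z a b hz hg
    rw [hg, hp2 z a b hz]
  -- multiplicativity
  have hmul : ∀ g g' a b a' b', σ g = X.x 0 a b → σ g' = X.x 0 a' b' → pA (g * g') = pA g * pA g' := by
    intro g g' a b a' b' hg hg'
    apply huniq _ _ (a + a') (b + b') (σ.ker.mul_mem (hker g a b hg) (hker g' a' b' hg'))
    rw [h.add]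
    obtain ⟨e1, c1⟩ := hp1 g a b hg
    obtain ⟨e2, c2⟩ := hp1 g' a' b' hg'
    calc g * g' = (pA g * e a b) * (pA g' * e a' b') := by rw [← e1, ← e2]
      _ = pA g * (e a b * pA g') * e a' b' := by group
      _ = _ := by rw [c2]; group
  -- invariance under lifts of U
  have hconjU : ∀ g a b w t u v, σ g = X.x 0 a b → σ w = X.x t u v → pA (w * g * w⁻¹) = pA g := by
    intro g a b w t u v hg hw
    apply huniq _ _ a (b + a * t) (hker g a b hg)
    rw [← h.norm X hσ hc hm hw]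
    obtain ⟨e1, c1⟩ := hp1 g a b hg
    nth_rewrite 1 [e1]
    calc w * (pA g * e a b) * w⁻¹ = (w * pA g) * e a b * w⁻¹ := by group
      _ = _ := by rw [c1]; group
  have hconjH : ∀ g a b w s, σ g = X.x 0 a b → σ w = X.h s → pA (w * g * w⁻¹) = pA g := by
    intro g a b w s hg hw
    apply huniq _ _ (X.ψ s * a) (s * b) (hker g a b hg)
    rw [← h.conj s w a b hw]
    obtain ⟨e1, c1⟩ := hp1 g a b hg
    nth_rewrite 1 [e1]
    calc w * (pA g * e a b) * w⁻¹ = (w * pA g) * e a b * w⁻¹ := by group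
      _ = _ := by rw [c1]; group
  -- the form
  have hcomm : ∀ x y t u v t' u' v', σ x = X.x t u v → σ y = X.x t' u' v' → ∃ a b, σ (x * y * x⁻¹ * y⁻¹) = X.x 0 a b := by
    intro x y t u v t' u' v' hx hy
    obtain ⟨a, b, e1⟩ := X.x_comm t u v t' u' v'
    exact ⟨a, b, by rw [map_mul, map_mul, map_mul, map_inv, map_inv, hx, hy, e1]⟩
  set β : Γ → Γ → Γ := fun x y => pA (x * y * x⁻¹ * y⁻¹) with hβ
  have hβd : ∀ x y, β x y = pA (x * y * x⁻¹ * y⁻¹) := fun _ _ => rfl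
  have hβl : ∀ x x' y t u v t1 u1 v1 t' u' v', σ x = X.x t u v → σ x' = X.x t1 u1 v1 → σ y = X.x t' u' v' → β (x * x') y = β x' y * β x y := by
    intro x x' y t u v t1 u1 v1 t' u' v' hx hx' hy
    obtain ⟨a, b, h1⟩ := hcomm x y t u v t' u' v' hx hy
    obtain ⟨a', b', h2⟩ := hcomm x' y t1 u1 v1 t' u' v' hx' hy
    have e1 : (x * x') * y * (x * x')⁻¹ * y⁻¹ = (x * (x' * y * x'⁻¹ * y⁻¹) * x⁻¹) * (x * y * x⁻¹ * y⁻¹) := by group
    have h3 : σ (x * (x' * y * x'⁻¹ * y⁻¹) * x⁻¹) = X.x 0 a' (b' + a' * t) := by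
      rw [map_mul, map_mul, h2, hx, map_inv, hx, X.x_conj0]
    rw [hβd, e1, hmul _ _ _ _ _ _ h3 h1, hconjU _ _ _ _ _ _ _ h2 hx]
  have hβr : ∀ x y y' t u v t1 u1 v1 t' u' v', σ x = X.x t u v → σ y = X.x t1 u1 v1 → σ y' = X.x t' u' v' → β x (y * y') = β x y * β x y' := by
    intro x y y' t u v t1 u1 v1 t' u' v' hx hy hy'
    obtain ⟨a, b, h1⟩ := hcomm x y t u v t1 u1 v1 hx hy
    obtain ⟨a', b', h2⟩ := hcomm x y' t u v t' u' v' hx hy'
    have e1 : x * (y * y') * x⁻¹ * (y * y')⁻¹ = (x * y * x⁻¹ * y⁻¹) * (y * (x * y' * x⁻¹ * y'⁻¹) * y⁻¹) := by group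
    have h3 : σ (y * (x * y' * x⁻¹ * y'⁻¹) * y⁻¹) = X.x 0 a' (b' + a' * t1) := by
      rw [map_mul, map_mul, h2, hy, map_inv, hy, X.x_conj0]
    rw [hβd, e1, hmul _ _ _ _ _ _ h1 h3, hconjU _ _ _ _ _ _ _ h2 hy]
  -- vanishing on the abelian group
  have hβ0 : ∀ x y a b t' u' v', σ x = X.x 0 a b → σ y = X.x t' u' v' → β x y = 1 := by
    intro x y a b t' u' v' hx hy
    obtain ⟨e1, c1⟩ := hp1 x a b hx
    rw [hβd]
    apply huniq _ _ (a + -a) (b + (-b + -a * t')) σ.ker.one_mem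
    rw [one_mul, h.add, ← h.norm X hσ hc hm hy, ← h.inv]
    have c2 := c1 y
    calc x * y * x⁻¹ * y⁻¹ = (pA x * e a b) * y * (pA x * e a b)⁻¹ * y⁻¹ := by rw [← e1]
      _ = pA x * e a b * (y * ((e a b)⁻¹ * (pA x)⁻¹)) * y⁻¹ := by group
      _ = e a b * (pA x * y) * (e a b)⁻¹ * (pA x)⁻¹ * y⁻¹ := by
          have := c1 (e a b)
          rw [← this]; group
      _ = e a b * y * (pA x * (e a b)⁻¹) * (pA x)⁻¹ * y⁻¹ := by rw [← c2]; group
      _ = e a b * y * ((e a b)⁻¹ * pA x) * (pA x)⁻¹ * y⁻¹ := by rw [c1 (e a b)⁻¹]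
      _ = _ := by group
  have hβ0' : ∀ x y a b t' u' v', σ x = X.x 0 a b → σ y = X.x t' u' v' → β y x = 1 := by
    intro x y a b t' u' v' hx hy
    -- [y, x] = [x, y]⁻¹
    obtain ⟨e1, c1⟩ := hp1 x a b hx
    rw [hβd]
    apply huniq _ _ (a + -a) ((b + a * t') + -b) σ.ker.one_mem
    rw [one_mul, h.add, ← h.norm X hσ hc hm hy, ← h.inv]
    calc y * x * y⁻¹ * x⁻¹ = y * (pA x * e a b) * y⁻¹ * (pA x * e a b)⁻¹ := by rw [← e1]
      _ = (y * pA x) * e a b * y⁻¹ * (e a b)⁻¹ * (pA x)⁻¹ := by group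
      _ = pA x * (y * e a b * y⁻¹ * (e a b)⁻¹) * (pA x)⁻¹ := by rw [c1]; group
      _ = (y * e a b * y⁻¹ * (e a b)⁻¹) * pA x * (pA x)⁻¹ := by rw [c1]
      _ = _ := by group
  -- dependence on the coordinate only
  have hdep : ∀ x x' t a b a' b', σ x = X.x t a b → σ x' = X.x t a' b' → ∃ g c d, x = x' * g ∧ σ g = X.x 0 c d := by
    intro x x' t a b a' b' hx hx'
    refine ⟨x'⁻¹ * x, -a' + a, -b' + b, by group, ?_⟩
    rw [map_mul, map_inv, hx, hx', X.x_split t a b, X.x_split t a' b', _root_.mul_inv_rev, X.x0_inv, ← X.x0_mul]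
    group
  have hl : ∀ x x' y t a b a' b' t' u' v', σ x = X.x t a b → σ x' = X.x t a' b' → σ y = X.x t' u' v' → β x y = β x' y := by
    intro x x' y t a b a' b' t' u' v' hx hx' hy
    obtain ⟨g, c, d, e1, hg⟩ := hdep x x' t a b a' b' hx hx'
    rw [e1, hβl _ _ _ _ _ _ _ _ _ _ _ _ hx' hg hy, hβ0 g y _ _ _ _ _ hg hy, one_mul]
  have hr : ∀ x x' y t a b a' b' t' u' v', σ x = X.x t a b → σ x' = X.x t a' b' → σ y = X.x t' u' v' → β y x = β y x' := by
    intro x x' y t a b a' b' t' u' v' hx hx' hy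
    obtain ⟨g, c, d, e1, hg⟩ := hdep x x' t a b a' b' hx hx'
    rw [e1, hβr _ _ _ _ _ _ _ _ _ _ _ _ hy hx' hg, hβ0' g y _ _ _ _ _ hg hy, mul_one]
  -- the form on K
  choose L hL using fun t => hσ (X.x t 0 0)
  obtain ⟨z, hz0, hz1, hz⟩ := X.exists_z1 hm
  have hfin : ∀ t t', β (L t) (L t') = 1 := by
    intro t t'
    refine bi_vanish (fun x => x) rfl (fun s hs => hs) hz0 hz1 hz (fun t t' => β (L t) (L t')) ?_ ?_ ?_ t t'
    · intro t t1 t'
      have h1 : σ (L t1 * L t) = X.x (t1 + t) (0 + 0 - t1 * X.f t ^ 3) (0 + 0 - 0 * t - t1 ^ 2 * X.f t ^ 3 + t1 * t * X.f t ^ 3) := by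
        rw [map_mul, hL, hL, X.x_mul]
      rw [add_comm t1 t] at h1
      show β (L (t + t1)) (L t') = _
      rw [hl _ _ _ _ _ _ _ _ _ _ _ (hL (t + t1)) h1 (hL t'), hβl _ _ _ _ _ _ _ _ _ _ _ _ (hL t1) (hL t) (hL t')]
    · intro t t1 t'
      have h1 : σ (L t1 * L t') = X.x (t1 + t') (0 + 0 - t1 * X.f t' ^ 3) (0 + 0 - 0 * t' - t1 ^ 2 * X.f t' ^ 3 + t1 * t' * X.f t' ^ 3) := by
        rw [map_mul, hL, hL, X.x_mul]
      show β (L t) (L (t1 + t')) = _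
      rw [hr _ _ _ _ _ _ _ _ _ _ _ (hL (t1 + t')) h1 (hL t), hβr _ _ _ _ _ _ _ _ _ _ _ _ (hL t) (hL t1) (hL t')]
    · intro s t t' hs
      obtain ⟨r, hr1⟩ := X.χ_surj (Units.mk0 s hs)
      have hr2 : s = (X.χ r : K) := by rw [hr1]; rfl
      obtain ⟨w, hw⟩ := hσ (X.h r)
      have h1 : ∀ t, σ (w * L t * w⁻¹) = X.x (s * t) 0 0 := by
        intro t
        rw [map_mul, map_mul, map_inv, hw, hL, X.h_x, hr2]; simp
      show β (L (s * t)) (L (s * t')) = _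
      rw [hl _ _ _ _ _ _ _ _ _ _ _ (hL (s * t)) (h1 t) (hL (s * t')), hr _ _ _ _ _ _ _ _ _ _ _ (hL (s * t')) (h1 t') (h1 t)]
      obtain ⟨a, b, h2⟩ := hcomm (L t) (L t') _ _ _ _ _ _ (hL t) (hL t')
      rw [hβd, hβd, ← hconjH _ a b w r h2 hw]
      congr 1
      group
  have h1 : β x y = 1 := by
    rw [hl _ _ _ _ _ _ _ _ _ _ _ hx (hL t) hy, hr _ _ _ _ _ _ _ _ _ _ _ hy (hL t') (hL t), hfin]
  obtain ⟨a, b, h2⟩ := hcomm x y _ _ _ _ _ _ hx hy
  refine ⟨a, b, ?_⟩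
  have h3 := (hp1 _ a b h2).1
  rw [← hβd, h1, one_mul] at h3
  exact h3

end CfsgLib.ReeA
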