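import Cfsg.Agent.LibRee40
import Cfsg.Agent.LibSchur2

set_option autoImplicit false
set_option linter.unusedSectionVars false
set_option linter.unusedVariables false

/-! The Schur multiplier of the small Ree groups is trivial -/

namespace CfsgLib.ReeA

open Cfsg.Lie CfsgLib.Chev Matrix CfsgLib.Rank1 CfsgLib.SL2P CfsgLib.SuzM
open scoped commutatorElement

/-- a subgroup of order four -/
theorem exists_four {G : Type*} [Group G] {g h : G} (hg : g * g = 1) (hh : h * h = 1) (hgh : g * h = h * g) (g1 : g ≠ 1) (h1 : h ≠ 1)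
    (hne : g ≠ h) : ∃ V : Subgroup G, g ∈ V ∧ h ∈ V ∧ Nat.card V = 4 ∧ ∀ x ∈ V, x = 1 ∨ x = g ∨ x = h ∨ x = g * h := by
  have e1 : g * (g * h) = h := by rw [← mul_assoc, hg, one_mul]
  have e2 : h * (g * h) = g := by rw [hgh, ← mul_assoc, hh, one_mul]
  have e3 : (g * h) * g = h := by rw [hgh, mul_assoc, hg, mul_one]
  have e4 : (g * h) * h = g := by rw [mul_assoc, hh, mul_one]
  have e5 : (g * h) * (g * h) = 1 := by rw [← mul_assoc, e3, hh]
  let V : Subgroup G :=
    { carrier := {x | x = 1 ∨ x = g ∨ x = h ∨ x = g * h}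
      mul_mem' := by
        rintro a b (rfl | rfl | rfl | rfl) (rfl | rfl | rfl | rfl) <;>
          simp only [Set.mem_ofPred_eq, mul_one, one_mul, hg, hh, e1, e2, e3, e4, e5, true_or, or_true, hgh.symm]
      one_mem' := Or.inl rfl
      inv_mem' := by
        rintro a (rfl | rfl | rfl | rfl)
        · left; simp
        · right; left; exact inv_eq_of_mul_eq_one_right hg
        · right; right; left; exact inv_eq_of_mul_eq_one_right hh
        · right; right; right; exact inv_eq_of_mul_eq_one_right e5 }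
  refine ⟨V, Or.inr (Or.inl rfl), Or.inr (Or.inr (Or.inl rfl)), ?_, fun x hx => hx⟩
  have hV : (V : Set G) = {1, g, h, g * h} := by
    ext x
    simp only [Set.mem_insert_iff, Set.mem_singleton_iff]
    exact Iff.rfl
  have hgh1 : g * h ≠ 1 := by
    intro h0
    apply hne
    have : g = g * (h * h) := by rw [hh, mul_one]
    rw [this, ← mul_assoc, h0, one_mul]
  have a1 : g * h ≠ g := fun h0 => h1 (mul_eq_left.1 h0)
  have a2 : g * h ≠ h := fun h0 => g1 (mul_eq_right.1 h0)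
  rw [← SetLike.coe_sort_coe, hV, Nat.card_coe_set_eq, Set.ncard_insert_of_notMem, Set.ncard_insert_of_notMem, Set.ncard_pair a2.symm]
  · simp only [Set.mem_insert_iff, Set.mem_singleton_iff, not_or]
    exact ⟨hne, a1.symm⟩
  · simp only [Set.mem_insert_iff, Set.mem_singleton_iff, not_or]
    exact ⟨g1.symm, h1.symm, hgh1.symm⟩

variable {G : Type*} [Group G] [Finite G] {K : Type*} [Field K] [Fintype K] {m : ℕ} (X : RX G K m)
variable {Γ : Type*} [Group Γ] {σ : Γ →* G} (hσ : Function.Surjective σ) (hc : σ.ker ≤ Subgroup.center Γ)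

include hσ hc X in
/-- lifts of commuting involutions commute -/
theorem RX.cm_two {g h : G} (hg : g * g = 1) (hh : h * h = 1) (hgh : g * h = h * g) : cm hσ g h = 1 := by
  have hself : ∀ g, cm hσ g g = 1 := by
    intro g
    obtain ⟨x, hx⟩ := hσ g
    rw [← cm_eq hσ hc hx hx]; group
  have hinv : ∀ g h, cm hσ h g = (cm hσ g h)⁻¹ := by
    intro g h
    obtain ⟨x, hx⟩ := hσ g
    obtain ⟨y, hy⟩ := hσ h
    rw [← cm_eq hσ hc hx hy, ← cm_eq hσ hc hy hx]; group
  have hone : ∀ g, cm hσ g 1 = 1 := by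
    intro g
    rw [hinv 1 g, cm_one_left hσ hc, inv_one]
  have hmr : ∀ g h h', g * h' = h' * g → cm hσ g (h * h') = cm hσ g h * cm hσ g h' := by
    intro g h h' e
    exact cm_mul_right hσ hc (fun w _ => cm_central hσ hc e w)
  -- the basic value
  set τ := X.R.τ with hτ
  set n := X.R.n with hn
  set c0 := cm hσ τ n with hc0
  have hτn : τ * n = n * τ := X.R.τn
  have hcc : c0 * c0 = 1 := by
    rw [hc0, ← hmr τ n n hτn, X.R.n2, hone]
  have hci : c0⁻¹ = c0 := inv_eq_of_mul_eq_one_right hcc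
  have k1 : cm hσ n τ = c0 := by rw [hinv τ n, ← hc0, hci]
  have k2 : cm hσ τ (τ * n) = c0 := by rw [hmr τ τ n hτn, hself, one_mul]
  have k3 : cm hσ (τ * n) τ = c0 := by rw [hinv τ (τ * n), k2, hci]
  have k4 : cm hσ n (τ * n) = c0 := by rw [hmr n τ n rfl, hself, mul_one, k1]
  have k5 : cm hσ (τ * n) n = c0 := by rw [hinv n (τ * n), k4, hci]
  have key : ∀ g h : G, g * g = 1 → h * h = 1 → g * h = h * g → g ≠ 1 → h ≠ 1 → g ≠ h → cm hσ g h = c0 := by
    intro g h hg hh hgh g1 h1 hne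
    obtain ⟨V, hgV, hhV, hV, hel⟩ := exists_four hg hh hgh g1 h1 hne
    obtain ⟨w, hw1, hw2⟩ := X.R.four_conj X.perf hV
    -- the conjugate is the standard four group
    obtain ⟨V0, hτV, hnV, hV0, hel0⟩ := exists_four X.R.τ2 X.R.n2 X.R.τn X.R.τ1 X.R.n1 (by
      intro h0; exact X.R.n_notH (by rw [← h0]; exact X.R.τH))
    have hle : V0 ≤ V.map (MulAut.conj w).toMonoidHom := by
      intro x hx
      rcases hel0 x hx with e | e | e | e <;> rw [e]
      · exact Subgroup.one_mem _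
      · exact hw1
      · exact hw2
      · exact Subgroup.mul_mem _ hw1 hw2
    have hcard : Nat.card ↥(V.map (MulAut.conj w).toMonoidHom) = 4 := by
      rw [← hV]
      exact (Nat.card_congr (V.equivMapOfInjective _ (MulAut.conj w).injective).toEquiv).symm
    have heq : V0 = V.map (MulAut.conj w).toMonoidHom := Subgroup.eq_of_le_of_card_ge hle (by rw [hcard, hV0])
    have hg' : w * g * w⁻¹ ∈ V0 := by rw [heq]; exact ⟨g, hgV, rfl⟩
    have hh' : w * h * w⁻¹ ∈ V0 := by rw [heq]; exact ⟨h, hhV, rfl⟩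
    obtain ⟨y, hy⟩ := hσ w
    have hcj := cm_conj hσ hc (g := g) (h := h) hy
    rw [cm_central hσ hc hgh, mul_inv_cancel_right] at hcj
    rw [hcj]
    have ng : w * g * w⁻¹ ≠ 1 := fun h0 => g1 (by
      have : g = w⁻¹ * (w * g * w⁻¹) * w := by group
      rw [this, h0]; group)
    have nh : w * h * w⁻¹ ≠ 1 := fun h0 => h1 (by
      have : h = w⁻¹ * (w * h * w⁻¹) * w := by group
      rw [this, h0]; group)
    have ngh : w * g * w⁻¹ ≠ w * h * w⁻¹ := fun h0 => hne (mul_left_cancel (mul_right_cancel h0))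
    generalize w * g * w⁻¹ = g' at *
    generalize w * h * w⁻¹ = h' at *
    rcases hel0 _ hg' with e | e | e | e <;> rcases hel0 _ hh' with e' | e' | e' | e' <;>
      first
      | exact absurd e ng
      | exact absurd e' nh
      | exact absurd (e.trans e'.symm) ngh
      | (rw [e, e']; assumption)
      | (rw [e, e'])
  have hc1 : c0 = 1 := by
    obtain ⟨P, hP⟩ := X.R.exists_PD
    have hτz : τ * X.R.z = X.R.z * τ := hP.comm X.R hP.τm hP.zm
    have hnz : n * X.R.z = X.R.z * n := X.R.nz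
    have a1 : n * X.R.z ≠ 1 := by
      intro h0
      apply X.R.n_ne_z
      have : n = n * (X.R.z * X.R.z) := by rw [X.R.z2, mul_one]
      rw [← hn, this, ← mul_assoc, h0, one_mul]
    have a2 : τ ≠ n * X.R.z := by
      intro h0
      have : X.R.φ (ww * jj X.R.char3) = τ := by
        rw [map_mul, X.R.hw]; exact h0.symm
      exact X.R.τφ _ this
    have a3 : τ ≠ X.R.z := by
      intro h0
      exact X.R.τφ _ (h0.symm : X.R.φ (jj X.R.char3) = τ)
    have a4 : n * X.R.z * (n * X.R.z) = 1 := hP.sq _ (P.mul_mem hP.nm hP.zm)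
    have a5 : τ * (n * X.R.z) = n * X.R.z * τ := hP.comm X.R hP.τm (P.mul_mem hP.nm hP.zm)
    have b1 := key τ (n * X.R.z) X.R.τ2 a4 a5 X.R.τ1 a1 a2
    have b2 := key τ X.R.z X.R.τ2 X.R.z2 hτz X.R.τ1 X.R.z1 a3
    rw [hmr τ n X.R.z hτz, b2, ← hc0] at b1
    exact mul_eq_left.1 b1
  by_cases g1 : g = 1
  · rw [g1, cm_one_left hσ hc]
  by_cases h1 : h = 1
  · rw [h1, hone]
  by_cases hne : g = h
  · rw [hne, hself]
  rw [key g h hg hh hgh g1 h1 hne, hc1]

/-- central elements of order p lie in every Sylow p-subgroup -/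
theorem mem_sylow_central {Γ : Type*} [Group Γ] [Finite Γ] {p : ℕ} [Fact p.Prime] (P : Sylow p Γ) {a : Γ}
    (ha : a ∈ Subgroup.center Γ) (hap : orderOf a = p) : a ∈ (P : Subgroup Γ) := by
  have h1 : IsPGroup p (Subgroup.zpowers a) := IsPGroup.of_card (n := 1) (by rw [Nat.card_zpowers, hap, pow_one])
  obtain ⟨Q, hQ⟩ := h1.exists_le_sylow
  obtain ⟨g, hg⟩ := MulAction.exists_smul_eq Γ Q P
  have h2 : g * a * g⁻¹ ∈ (P : Subgroup Γ) := by
    rw [← hg]
    exact Subgroup.smul_mem_pointwise_smul a (MulAut.conj g) (Q : Subgroup Γ) (hQ (Subgroup.mem_zpowers a))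
  rwa [Subgroup.mem_center_iff.1 ha g, mul_inv_cancel_right] at h2

/-- every 3-subgroup is conjugate into U -/
theorem RX.three_conj (Q : Subgroup G) (hQ : IsPGroup 3 Q) : ∃ g : G, ∀ x ∈ Q, g * x * g⁻¹ ∈ X.R.U := by
  have : Fact (Nat.Prime 3) := ⟨Nat.prime_three⟩
  obtain ⟨P, hP⟩ := X.R.syl3 X.R.U X.R.cU
  obtain ⟨S, hS⟩ := hQ.exists_le_sylow
  obtain ⟨g, hg⟩ := MulAction.exists_smul_eq G S P
  refine ⟨g, fun x hx => ?_⟩
  rw [hP, ← hg]
  exact Subgroup.smul_mem_pointwise_smul x (MulAut.conj g) (S : Subgroup G) (hS hx)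

include X in
/-- the kernel of a stem extension is trivial -/
theorem RX.ker_eq_bot (hm : 1 ≤ m) (ρ : G →* Matrix (Fin 7) (Fin 7) K) (hρ : Function.Injective ρ) {Γ : Type*} [Group Γ] [Finite Γ] {σ : Γ →* G}
    (hst : Cfsg.IsStemExtension σ) : σ.ker = ⊥ := by
  obtain ⟨hσ, hc, hcm⟩ := hst
  rw [eq_bot_iff]
  intro b hb
  rw [Subgroup.mem_bot]
  by_contra hb1
  have hord : orderOf b ≠ 1 := fun h => hb1 (orderOf_eq_one_iff.1 h)
  obtain ⟨p, hp, hpd⟩ := Nat.exists_prime_and_dvd hord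
  haveI : Fact p.Prime := ⟨hp⟩
  obtain ⟨a, ha⟩ : ∃ a, a = b ^ (orderOf b / p) := ⟨_, rfl⟩
  have hap : orderOf a = p := by rw [ha]; exact orderOf_pow_orderOf_div (orderOf_pos b).ne' hpd
  have hak : a ∈ σ.ker := by rw [ha]; exact σ.ker.pow_mem hb _
  have ha1 : a ≠ 1 := by
    intro h
    rw [h, orderOf_one] at hap
    exact hp.one_lt.ne hap
  apply ha1
  by_cases hp3 : p = 3
  · subst hp3
    obtain ⟨e, he1, he2, he3⟩ := X.exists_e hσ hc hm
    have he : X.EE σ e := ⟨he1, he2, he3⟩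
    obtain ⟨Q⟩ : Nonempty (Sylow 3 Γ) := inferInstance
    obtain ⟨g, hg⟩ := X.three_conj _ (Q.2.map σ)
    obtain ⟨w, hw⟩ := hσ g
    have hP : ∀ x ∈ ((w • Q : Sylow 3 Γ) : Subgroup Γ), ∃ t u v, σ x = X.x t u v := by
      intro x hx
      rw [Sylow.coe_subgroup_smul, Subgroup.mem_pointwise_smul_iff_inv_smul_mem, ← map_inv] at hx
      have h4 : w⁻¹ * x * (w⁻¹)⁻¹ ∈ (Q : Subgroup Γ) := hx
      have h5 := hg _ ⟨_, h4, rfl⟩
      rw [map_mul, map_mul, map_inv σ w⁻¹, map_inv σ w, hw] at h5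
      have h6 : g * (g⁻¹ * σ x * g⁻¹⁻¹) * g⁻¹ = σ x := by group
      rw [h6] at h5
      exact (X.x_U _).1 h5
    let Z : Subgroup Γ :=
      { carrier := {x | ∃ u v, x = e u v}
        mul_mem' := by
          rintro _ _ ⟨x, y, rfl⟩ ⟨x', y', rfl⟩
          exact ⟨x + x', y + y', (he2 _ _ _ _).symm⟩
        one_mem' := ⟨0, 0, he.zero.symm⟩
        inv_mem' := by
          rintro _ ⟨x, y, rfl⟩
          exact ⟨-x, -y, he.inv x y⟩ }
    have hcomm : ⁅((w • Q : Sylow 3 Γ) : Subgroup Γ), ((w • Q : Sylow 3 Γ) : Subgroup Γ)⁆ ≤ Z := by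
      rw [Subgroup.commutator_le]
      intro x hx y hy
      obtain ⟨t, u, v, h1⟩ := hP x hx
      obtain ⟨t', u', v', h2⟩ := hP y hy
      rw [commutatorElement_def]
      exact he.comm_e X hσ hc hm h1 h2
    refine eq_one_of_transfer (w • Q) (hc hak) (hcm hak) (mem_sylow_central _ (hc hak) hap) ?_
    intro k hk
    obtain ⟨u, v, hy⟩ := hcomm hk
    have h4 : σ (a ^ k) = 1 := (MonoidHom.mem_ker).1 (σ.ker.pow_mem hak k)
    rw [hy, he1, X.x_eq_one] at h4
    obtain ⟨-, h5, h6⟩ := h4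
    rw [hy, h5, h6, he.zero]
  · obtain ⟨P⟩ : Nonempty (Sylow p Γ) := inferInstance
    refine eq_one_of_transfer P (hc hak) (hcm hak) (mem_sylow_central _ (hc hak) hap) ?_
    intro k hk
    have h2 : ⁅(P : Subgroup Γ), (P : Subgroup Γ)⁆ = ⊥ := by
      rw [eq_bot_iff, Subgroup.commutator_le]
      intro x hx y hy
      rw [Subgroup.mem_bot, commutatorElement_def]
      by_cases hp2 : p = 2
      · subst hp2
        obtain ⟨t1, t2⟩ := X.R.two_elt _ (P.2.map σ)
        rw [cm_eq hσ hc rfl rfl]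
        exact X.cm_two hσ hc (t1 _ ⟨x, hx, rfl⟩) (t1 _ ⟨y, hy, rfl⟩) (t2 _ ⟨x, hx, rfl⟩ _ ⟨y, hy, rfl⟩)
      · have hp3' : 3 < p := by
          have := hp.two_le
          omega
        obtain ⟨R, hR⟩ := (P.2.map σ).exists_le_sylow
        haveI := X.R.syl_cyclic X.perf ρ hρ hp3' R
        haveI : IsCyclic ((P : Subgroup Γ).map σ) := Subgroup.isCyclic_of_le hR
        have hab : ∀ x y : (P : Subgroup Γ), x * y = y * x := by
          refine commutative_of_cyclic_center_quotient (σ.subgroupMap (P : Subgroup Γ)) ?_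
          intro x hx
          rw [Subgroup.mem_center_iff]
          intro y
          apply Subtype.ext
          have h1 : (x : Γ) ∈ σ.ker := by
            have := congrArg Subtype.val (MonoidHom.mem_ker.1 hx)
            exact this
          exact Subgroup.mem_center_iff.1 (hc h1) y
        have := congrArg Subtype.val (hab ⟨x, hx⟩ ⟨y, hy⟩)
        change x * y = y * x at this
        rw [this]; group
    rw [h2] at hk
    exact hk

end CfsgLib.ReeA
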