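import Mathlib
import Cfsg.Agent.EqBase
import Cfsg.Agent.LibPL11c
import Cfsg.Agent.LibPL11f
import Cfsg.Agent.LibSmallSyl
import Cfsg.Agent.S0105

/-! Simple groups of order `504` (seat helper11). -/

set_option autoImplicit false
set_option linter.all false
set_option maxRecDepth 100000

namespace CfsgLib.SF11

open Subgroup MulAction
open scoped Pointwise

universe u v

instance factSeven : Fact (Nat.Prime 7) := ⟨by norm_num⟩

section count
variable {G : Type u} [Group G] [Finite G] {p : ℕ} [hp : Fact p.Prime]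

/-- the nontrivial elements of the Sylow subgroups -/
def pset (p : ℕ) (G : Type u) [Group G] : Set G := {x | x ≠ 1 ∧ ∃ P : Sylow p G, x ∈ (P : Subgroup G)}

omit [Finite G] hp in
theorem card_ne_one {H : Subgroup G} [Finite H] {k : ℕ} (hk : Nat.card H = k + 1) : Nat.card {x : H // x ≠ 1} = k := by
  classical
  haveI : Fintype H := Fintype.ofFinite _
  rw [Nat.card_eq_fintype_card] at hk ⊢
  simp only [ne_eq, Fintype.card_subtype_compl, Fintype.card_subtype_eq]
  omega

theorem count {n k : ℕ} (hs : Nat.card (Sylow p G) = n) (hk : ∀ P : Sylow p G, Nat.card (P : Subgroup G) = k + 1)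
    (hTI : ∀ P Q : Sylow p G, P ≠ Q → (P : Subgroup G) ⊓ Q = ⊥) : n * k ≤ (pset p G).ncard := by
  classical
  haveI : Fintype (Sylow p G) := Fintype.ofFinite _
  have h1 : Nat.card (Σ P : Sylow p G, {x : (P : Subgroup G) // x ≠ 1}) = n * k := by
    rw [Nat.card_sigma, Finset.sum_congr rfl (fun P _ => card_ne_one (hk P)), Finset.sum_const, Finset.card_univ,
      ← Nat.card_eq_fintype_card, hs, smul_eq_mul]
  rw [← h1]
  refine Nat.card_le_card_of_injective (β := ↥(pset p G))
    (fun z => ⟨((z.2 : (z.1 : Subgroup G)) : G), fun h => z.2.2 (Subtype.ext h), z.1, z.2.1.2⟩) ?_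
  rintro ⟨P, x, hx⟩ ⟨Q, y, hy⟩ hxy
  have h2 : (x : G) = (y : G) := congrArg Subtype.val hxy
  have h3 : P = Q := by
    by_contra hne
    have h4 := hTI P Q hne
    have h5 : (x : G) ∈ (P : Subgroup G) ⊓ Q := ⟨x.2, by rw [h2]; exact y.2⟩
    rw [h4, mem_bot] at h5
    exact hx (Subtype.ext h5)
  subst h3
  have h6 : x = y := Subtype.ext h2
  subst h6
  rfl

omit [Finite G] in
theorem ti_prime [Finite G] (hP : ∀ P : Sylow p G, Nat.card (P : Subgroup G) = p) (P Q : Sylow p G) (hne : P ≠ Q) :
    (P : Subgroup G) ⊓ Q = ⊥ := by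
  have h1 : Nat.card ((P : Subgroup G) ⊓ Q : Subgroup G) ∣ p :=
    (card_dvd_of_le inf_le_left).trans (dvd_of_eq (hP P))
  rcases (Nat.dvd_prime hp.out).1 h1 with h2 | h2
  · exact card_eq_one.1 h2
  · exfalso
    have h3 : (P : Subgroup G) ⊓ Q = P := eq_of_le_of_card_ge inf_le_left (by rw [h2, hP P])
    exact hne (Sylow.ext (P.is_maximal' Q.isPGroup' (inf_eq_left.1 h3)).symm)

end count

section
variable {G : Type u} [Group G] [Finite G] [hsimp : IsSimpleGroup G]

theorem hcomm (h : Nat.card G = 504) : ¬ IsMulCommutative G := by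
  intro hc
  letI : CommGroup G := { (inferInstance : Group G) with mul_comm := fun a b => (isMulCommutative_iff.mp hc) a b }
  have h1 : (Nat.card G).Prime := IsSimpleGroup.prime_card
  rw [h] at h1
  norm_num at h1

theorem card_seven (h : Nat.card G = 504) (P : Sylow 7 G) : Nat.card (P : Subgroup G) = 7 := by
  have := SmallSyl.card_sylow (p := 7) (n := 1) (m := 72) (G := G) (by norm_num [h]) (by norm_num) P
  simpa using this

theorem seven (h : Nat.card G = 504) : Nat.card (Sylow 7 G) = 36 := by
  have h1 := SmallSyl.one_lt_card_sylow (hcomm h) (p := 7) (by rw [h]; norm_num)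
  have h2 := SmallSyl.card_sylow_dvd (p := 7) (n := 1) (m := 72) (G := G) (by norm_num [h]) (by norm_num)
  have h3 : Nat.card (Sylow 7 G) ≡ 1 [MOD 7] := card_sylow_modEq_one 7 G
  have h4 := Nat.le_of_dvd (by norm_num) h2
  unfold Nat.ModEq at h3
  have h5 : Nat.card (Sylow 7 G) = 8 ∨ Nat.card (Sylow 7 G) = 36 := by
    generalize Nat.card (Sylow 7 G) = m at *
    interval_cases m <;> omega
  rcases h5 with h5 | h5
  · exfalso
    let P : Sylow 7 G := default
    obtain ⟨Φ, -, -, -, hco⟩ := CfsgLib.PL11.exists_coord (n := 9) (by norm_num) (by rw [h]) (by rw [h5]) P (card_seven h P)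
    have h01 : ∀ g : G, Φ g none ≠ Φ g (some 0) := fun g hg => by simpa using (Φ g).injective hg
    let f : G → {q : Option (ZMod 7) × Option (ZMod 7) × Option (ZMod 7) // q.1 ≠ q.2.1} :=
      fun g => ⟨(Φ g none, Φ g (some 0), Φ g (some 1)), h01 g⟩
    have hf : Function.Injective f := by
      intro g k hgk
      have h6 : (Φ g none, Φ g (some 0), Φ g (some 1)) = (Φ k none, Φ k (some 0), Φ k (some 1)) := congrArg Subtype.val hgk
      have ha : Φ g none = Φ k none := congrArg Prod.fst h6
      have hb : Φ g (some 0) = Φ k (some 0) := congrArg (fun z => z.2.1) h6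
      have hc : Φ g (some 1) = Φ k (some 1) := congrArg (fun z => z.2.2) h6
      have key : ∀ z, Φ g z = Φ k z → Φ (k⁻¹ * g) z = z := by
        intro z hz
        rw [map_mul, Equiv.Perm.mul_apply, hz, map_inv]
        exact (Φ k).symm_apply_apply z
      obtain ⟨m, -, hm⟩ := hco.fix (k⁻¹ * g) (key _ ha) (key _ hb)
      have h7 := hm 1
      rw [key _ hc, mul_one] at h7
      have h8 : (1 : ZMod 7) = m := Option.some.inj h7
      subst h8
      have h9 : Φ (k⁻¹ * g) = 1 := by
        ext1 z
        cases z with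
        | none => exact key _ ha
        | some z => rw [hm z, one_mul]; rfl
      have h10 : k⁻¹ * g = 1 := hco.inj (by rw [h9, map_one])
      exact (inv_mul_eq_one.1 h10).symm
    have h11 := Nat.card_le_card_of_injective f hf
    rw [h, Nat.card_eq_fintype_card] at h11
    have h12 : Fintype.card {q : Option (ZMod 7) × Option (ZMod 7) × Option (ZMod 7) // q.1 ≠ q.2.1} = 448 := by
      decide +kernel
    omega
  · exact h5

theorem normalizer_seven (h : Nat.card G = 504) (P : Sylow 7 G) :
    Nat.card (normalizer ((P : Subgroup G) : Set G)) = 14 := by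
  have := SmallSyl.card_normalizer_mul P
  rw [seven h, h] at this
  omega

theorem comm_of_card_prime {H : Subgroup G} {p : ℕ} [Fact p.Prime] (hH : Nat.card H = p) : H ≤ centralizer (H : Set G) := by
  haveI : IsCyclic H := isCyclic_of_prime_card hH
  letI := IsCyclic.commGroup (α := H)
  intro x hx
  rw [mem_centralizer_iff]
  intro y hy
  exact congrArg Subtype.val (mul_comm (⟨y, hy⟩ : H) ⟨x, hx⟩)

theorem centralizer_seven (h : Nat.card G = 504) (P : Sylow 7 G) :
    centralizer ((P : Subgroup G) : Set G) = P := by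
  have hP := card_seven h P
  have hle : (P : Subgroup G) ≤ centralizer ((P : Subgroup G) : Set G) := comm_of_card_prime hP
  have hCN : centralizer ((P : Subgroup G) : Set G) ≤ normalizer ((P : Subgroup G) : Set G) := centralizer_le_normalizer _
  have hd : Nat.card (centralizer ((P : Subgroup G) : Set G)) ∣ 14 := by
    rw [← normalizer_seven h P]; exact card_dvd_of_le hCN
  have h7 : 7 ∣ Nat.card (centralizer ((P : Subgroup G) : Set G)) := by
    have := card_dvd_of_le hle
    rwa [hP] at this
  have hne : Nat.card (centralizer ((P : Subgroup G) : Set G)) ≠ 14 := by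
    intro h14
    have h1 : centralizer ((P : Subgroup G) : Set G) = normalizer ((P : Subgroup G) : Set G) :=
      eq_of_le_of_card_ge hCN (by rw [h14, normalizer_seven h P])
    exact SmallSyl.burnside (hcomm h) (by rw [h]; norm_num) P (le_of_eq h1.symm)
  have h8 : Nat.card (centralizer ((P : Subgroup G) : Set G)) ≤ 14 := Nat.le_of_dvd (by norm_num) hd
  have h9 : Nat.card (centralizer ((P : Subgroup G) : Set G)) = 7 := by
    generalize Nat.card (centralizer ((P : Subgroup G) : Set G)) = m at *
    interval_cases m <;> omega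
  exact (eq_of_le_of_card_ge hle (by rw [h9, hP])).symm

theorem comm_seven (h : Nat.card G = 504) {g z : G} (hg : orderOf g = 7) (hz : z * g = g * z) : z ∈ zpowers g := by
  have h1 : Nat.card (zpowers g) = 7 := by rw [Nat.card_zpowers, hg]
  obtain ⟨P, hP⟩ := (IsPGroup.of_card (p := 7) (n := 1) (by rw [h1, pow_one]) : IsPGroup 7 (zpowers g)).exists_le_sylow
  have h2 : zpowers g = (P : Subgroup G) := eq_of_le_of_card_ge hP (by rw [h1, card_seven h P])
  have h3 : z ∈ centralizer ((P : Subgroup G) : Set G) := by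
    rw [← h2, mem_centralizer_iff]
    rintro y hy
    obtain ⟨k, rfl⟩ := mem_zpowers_iff.1 hy
    have : Commute z g := hz
    exact ((this.zpow_right k).eq).symm
  rwa [centralizer_seven h P, ← h2] at h3

theorem exists_invert (h : Nat.card G = 504) : ∃ g t : G, orderOf g = 7 ∧ orderOf t = 2 ∧ t * g * t⁻¹ = g⁻¹ := by
  let P : Sylow 7 G := default
  have hP := card_seven h P
  obtain ⟨⟨t, htN⟩, ht⟩ : ∃ t : normalizer ((P : Subgroup G) : Set G), orderOf t = 2 :=
    exists_prime_orderOf_dvd_card' 2 (by rw [normalizer_seven h P]; norm_num)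
  obtain ⟨⟨g, hgP⟩, hg⟩ : ∃ g : (P : Subgroup G), orderOf g = 7 :=
    exists_prime_orderOf_dvd_card' 7 (by rw [hP])
  rw [orderOf_mk] at ht hg
  have htg : t * g * t⁻¹ ∈ (P : Subgroup G) := ((mem_normalizer_iff.1 htN) g).1 hgP
  have hw : t * g * t⁻¹ * g ∈ (P : Subgroup G) := mul_mem htg hgP
  have hcm : t * g * t⁻¹ * g = g * (t * g * t⁻¹) := by
    have h1 := comm_of_card_prime hP htg
    exact ((mem_centralizer_iff.1 h1) g hgP).symm
  have ht2 : t * t = 1 := by have := pow_orderOf_eq_one t; rwa [ht, pow_two] at this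
  have hti : t⁻¹ = t := inv_eq_of_mul_eq_one_left ht2
  refine ⟨g, t, hg, ht, ?_⟩
  by_contra hne
  have hw1 : t * g * t⁻¹ * g ≠ 1 := fun h1 => hne (eq_inv_of_mul_eq_one_left h1)
  have hw7 : orderOf (t * g * t⁻¹ * g) = 7 := by
    have h2 : orderOf (t * g * t⁻¹ * g) ∣ 7 := by rw [← hP]; exact Subgroup.orderOf_dvd_natCard _ hw
    rcases (Nat.dvd_prime (by norm_num)).1 h2 with h3 | h3
    · exact absurd (orderOf_eq_one_iff.1 h3) hw1
    · exact h3
  have hwt : t * (t * g * t⁻¹ * g) = (t * g * t⁻¹ * g) * t := by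
    have e1 : t * (t * g * t⁻¹ * g) = g * t * g := by
      calc t * (t * g * t⁻¹ * g) = (t * t) * g * t⁻¹ * g := by group
        _ = g * t * g := by rw [ht2, hti, one_mul]
    have e2 : (t * g * t⁻¹ * g) * t = g * t * g := by
      rw [hcm, hti]
      calc g * (t * g * t) * t = g * t * g * (t * t) := by group
        _ = g * t * g := by rw [ht2, mul_one]
    rw [e1, e2]
  have h5 := comm_seven h hw7 hwt
  have h6 : orderOf t ∣ 7 := by
    have h7 := Subgroup.orderOf_dvd_natCard _ h5
    rwa [Nat.card_zpowers, hw7] at h7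
  rw [ht] at h6
  norm_num at h6

/-- an involution on `7` points with at most one fixed point is odd -/
theorem sign_seven {X : Type v} [Fintype X] [DecidableEq X] (hX : Fintype.card X = 7) (σ : Equiv.Perm X) (h2 : σ * σ = 1)
    (hf : ∀ x y, σ x = x → σ y = y → x = y) : Equiv.Perm.sign σ = -1 := by
  have hfc : Fintype.card (Function.fixedPoints σ) ≤ 1 := by
    rw [Fintype.card_le_one_iff]
    rintro ⟨x, hx⟩ ⟨y, hy⟩
    exact Subtype.ext (hf x y hx hy)
  have h1 : σ ≠ 1 := by
    rintro rfl
    have := Fintype.card_le_one_iff.2 (fun x y => hf x y rfl rfl)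
    omega
  have ho : orderOf σ = 2 := orderOf_eq_prime (by rw [pow_two]; exact h2) h1
  obtain ⟨n, hn⟩ := Equiv.Perm.cycleType_prime_order (σ := σ) (by rw [ho]; exact Nat.prime_two)
  rw [ho] at hn
  have h3 := Equiv.Perm.card_fixedPoints σ
  have h4 : σ.cycleType.sum ≤ 7 := by rw [Equiv.Perm.sum_cycleType, ← hX]; exact Finset.card_le_univ _
  rw [hX, hn, Multiset.sum_replicate, smul_eq_mul] at h3
  rw [hn, Multiset.sum_replicate, smul_eq_mul] at h4
  have h6 : n = 2 := by omega
  subst h6
  rw [Equiv.Perm.sign_of_cycleType, hn]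
  simp
  decide

theorem index_ne_seven (h : Nat.card G = 504) (H : Subgroup G) : H.index ≠ 7 := by
  classical
  intro hH
  obtain ⟨g, t, hg, ht, htg⟩ := exists_invert h
  haveI : Fintype (G ⧸ H) := Fintype.ofFinite _
  have hX : Fintype.card (G ⧸ H) = 7 := by rw [← Nat.card_eq_fintype_card]; exact hH
  let Φ : G →* Equiv.Perm (G ⧸ H) := MulAction.toPermHom G (G ⧸ H)
  have hinj : Function.Injective Φ := by
    rw [← MonoidHom.ker_eq_bot_iff]
    rcases (inferInstance : Φ.ker.Normal).eq_bot_or_eq_top with h1 | h1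
    · exact h1
    · exfalso
      have h2 : H = ⊤ := by
        rw [eq_top_iff]
        intro x _
        have h3 : x ∈ Φ.ker := by rw [h1]; trivial
        have h4 : Φ x ((1 : G) : G ⧸ H) = ((1 : G) : G ⧸ H) := by rw [MonoidHom.mem_ker.1 h3]; rfl
        have h5 : ((x * 1 : G) : G ⧸ H) = ((1 : G) : G ⧸ H) := h4
        rw [mul_one] at h5
        have h6 := QuotientGroup.eq.1 h5
        rw [mul_one] at h6
        exact inv_mem_iff.1 h6
      rw [h2, index_top] at hH
      norm_num at hH
  have hog : orderOf (Φ g) = 7 := by rw [orderOf_injective Φ hinj, hg]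
  have hcyc : (Φ g).IsCycle := Equiv.Perm.isCycle_of_prime_order'' (by rw [hX]; norm_num) (by rw [hog, hX])
  have hsupp : (Φ g).support = Finset.univ := by
    rw [← Finset.card_eq_iff_eq_univ, ← hcyc.orderOf, hog, hX]
  have ht2 : t * t = 1 := by have := pow_orderOf_eq_one t; rwa [ht, pow_two] at this
  have hs := sign_seven hX (Φ t) (by rw [← map_mul, ht2, map_one]) (by
    intro x y hx hy
    have hxs : Φ g x ≠ x := by rw [← Equiv.Perm.mem_support, hsupp]; exact Finset.mem_univ _
    have hys : Φ g y ≠ y := by rw [← Equiv.Perm.mem_support, hsupp]; exact Finset.mem_univ _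
    obtain ⟨i, hi⟩ := hcyc.sameCycle hxs hys
    have e1 : Φ (g ^ i) x = y := by rw [map_zpow]; exact hi
    have e2 : Φ (t * g ^ i * t⁻¹) x = y := by
      have : Φ t⁻¹ x = x := by rw [map_inv, Equiv.Perm.inv_eq_iff_eq, hx]
      rw [map_mul, map_mul, Equiv.Perm.mul_apply, Equiv.Perm.mul_apply, this, e1, hy]
    have e3 : t * g ^ i * t⁻¹ = g ^ (-i) := by
      rw [← conj_zpow, htg, inv_zpow, zpow_neg]
    rw [e3] at e2
    have e4 : Φ (g ^ (2 * i)) x = x := by
      have : g ^ (2 * i) = (g ^ (-i))⁻¹ * g ^ i := by rw [← zpow_neg, ← zpow_add]; congr 1; ring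
      rw [this, map_mul, Equiv.Perm.mul_apply, e1, map_inv, Equiv.Perm.inv_eq_iff_eq, e2]
    have e5 : Φ (g ^ (8 * i)) x = x := by
      have h8 : g ^ (8 * i) = g ^ (2 * i) * (g ^ (2 * i) * (g ^ (2 * i) * g ^ (2 * i))) := by
        rw [← zpow_add, ← zpow_add, ← zpow_add]; congr 1; ring
      rw [h8, map_mul, map_mul, map_mul, Equiv.Perm.mul_apply, Equiv.Perm.mul_apply, Equiv.Perm.mul_apply, e4, e4, e4, e4]
    have e6 : g ^ (8 * i) = g ^ i := by
      have h7 : g ^ (7 : ℤ) = 1 := by
        have := pow_orderOf_eq_one g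
        rw [hg] at this
        exact_mod_cast this
      have : (8 * i) = 7 * i + i := by ring
      rw [this, zpow_add, zpow_mul, h7, one_zpow, one_mul]
    rw [e6, e1] at e5
    exact e5.symm)
  have hs1 := CfsgLib.PL11.sign_one (by rw [h]; norm_num) Φ t
  rw [hs1] at hs
  exact absurd hs (by decide)

theorem card_le (h : Nat.card G = 504) (H : Subgroup G) (hH : H ≠ ⊤) : Nat.card H ≤ 63 := by
  have h1 := SmallSyl.card_dvd_factorial (hcomm h) H hH
  have h2 := index_ne_seven h H
  have h3 := H.card_mul_index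
  rw [h] at h1 h3
  by_contra hcon
  have h4 : H.index ≤ 7 := by
    by_contra h5
    have : 64 * 8 ≤ Nat.card H * H.index := Nat.mul_le_mul (by omega) (by omega)
    omega
  have h5 : 0 < H.index := Nat.pos_of_ne_zero (by intro h0; rw [h0] at h3; omega)
  have h6 : H.index < 7 := by omega
  generalize H.index = m at *
  interval_cases m <;> simp [Nat.factorial] at h1 <;> omega

end
end CfsgLib.SF11
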