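import Mathlib
import Cfsg.Agent.EqBase
import Cfsg.Agent.LibSF11a

/-! Simple groups of order `504`, part 2 (seat helper11). -/

set_option autoImplicit false
set_option linter.all false
set_option maxRecDepth 100000

namespace CfsgLib.SF11

open Subgroup MulAction
open scoped Pointwise

universe u v

section
variable {G : Type u} [Group G] [Finite G] [hsimp : IsSimpleGroup G]

theorem card_three (h : Nat.card G = 504) (P : Sylow 3 G) : Nat.card (P : Subgroup G) = 9 := by
  have := SmallSyl.card_sylow (p := 3) (n := 2) (m := 56) (G := G) (by norm_num [h]) (by norm_num) P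
  simpa using this

theorem comm_of_card_nine {K : Type v} [Group K] {P : Subgroup K} (hP : Nat.card P = 9) {x y : K} (hx : x ∈ P) (hy : y ∈ P) :
    x * y = y * x := by
  haveI : Fact (Nat.Prime 3) := ⟨by norm_num⟩
  haveI : Finite P := Nat.finite_of_card_ne_zero (by rw [hP]; norm_num)
  have h1 : IsMulCommutative P := IsPGroup.isMulCommutative_of_card_eq_prime_sq (p := 3) (by rw [hP]; norm_num)
  exact congrArg Subtype.val ((isMulCommutative_iff.1 h1) ⟨x, hx⟩ ⟨y, hy⟩)

theorem three (h : Nat.card G = 504) : Nat.card (Sylow 3 G) = 28 := by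
  have h1 := SmallSyl.one_lt_card_sylow (hcomm h) (p := 3) (by rw [h]; norm_num)
  have h2 := SmallSyl.card_sylow_dvd (p := 3) (n := 2) (m := 56) (G := G) (by norm_num [h]) (by norm_num)
  have h3 : Nat.card (Sylow 3 G) ≡ 1 [MOD 3] := card_sylow_modEq_one 3 G
  have h4 := Nat.le_of_dvd (by norm_num) h2
  let P : Sylow 3 G := default
  have h5 := SmallSyl.card_normalizer_mul P
  have h6 : Nat.card (normalizer ((P : Subgroup G) : Set G)) ≤ 63 := by
    apply card_le h
    intro htop
    rw [htop, h, card_top, h] at h5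
    omega
  rw [h] at h5
  have h8 : 8 ≤ Nat.card (Sylow 3 G) := by
    by_contra h7
    have : Nat.card (normalizer ((P : Subgroup G) : Set G)) * Nat.card (Sylow 3 G) ≤ 63 * 7 :=
      Nat.mul_le_mul h6 (by omega)
    omega
  unfold Nat.ModEq at h3
  clear h5
  generalize Nat.card (Sylow 3 G) = m at *
  interval_cases m <;> omega

theorem cent_ne_top (h : Nat.card G = 504) {x : G} (hx : x ≠ 1) : centralizer ({x} : Set G) ≠ ⊤ := by
  intro htop
  have hc : x ∈ center G := by
    rw [mem_center_iff]
    intro y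
    have : y ∈ centralizer ({x} : Set G) := by rw [htop]; trivial
    exact (mem_centralizer_singleton_iff.1 this)
  rcases (inferInstance : (center G).Normal).eq_bot_or_eq_top with h1 | h1
  · rw [h1, mem_bot] at hc
    exact hx hc
  · refine hcomm h (isMulCommutative_iff.2 fun a b => ?_)
    have h2 : b ∈ center G := by rw [h1]; trivial
    exact (mem_center_iff.1 h2) a

theorem not_seven_dvd (h : Nat.card G = 504) {x : G} (hx : x ≠ 1) (hx7 : orderOf x ≠ 7) :
    ¬ 7 ∣ Nat.card (centralizer ({x} : Set G)) := by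
  intro hd
  obtain ⟨⟨g, hg⟩, hog⟩ := exists_prime_orderOf_dvd_card' 7 hd
  rw [orderOf_mk] at hog
  have hxg : x * g = g * x := (mem_centralizer_singleton_iff.1 hg).symm
  have h5 := comm_seven h hog hxg
  have h7 := Subgroup.orderOf_dvd_natCard _ h5
  rw [Nat.card_zpowers, hog] at h7
  rcases (Nat.dvd_prime (by norm_num)).1 h7 with h3 | h3
  · exact hx (orderOf_eq_one_iff.1 h3)
  · exact hx7 h3

theorem order_three (h : Nat.card G = 504) {P : Sylow 3 G} {x : G} (hx : x ∈ (P : Subgroup G)) : orderOf x ∣ 9 := by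
  rw [← card_three h P]
  exact Subgroup.orderOf_dvd_natCard _ hx

theorem ti_three (h : Nat.card G = 504) (P Q : Sylow 3 G) (hne : P ≠ Q) : (P : Subgroup G) ⊓ Q = ⊥ := by
  classical
  haveI : Fact (Nat.Prime 3) := ⟨by norm_num⟩
  haveI : Fact (Nat.Prime 2) := ⟨by norm_num⟩
  rw [eq_bot_iff_forall]
  rintro x ⟨hxP, hxQ⟩
  by_contra hx
  have hxo := order_three h hxP
  have hx7 : orderOf x ≠ 7 := by intro h7; rw [h7] at hxo; norm_num at hxo
  have hPC : (P : Subgroup G) ≤ centralizer ({x} : Set G) := fun y hy =>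
    mem_centralizer_singleton_iff.2 (comm_of_card_nine (card_three h P) hy hxP)
  have hQC : (Q : Subgroup G) ≤ centralizer ({x} : Set G) := fun y hy =>
    mem_centralizer_singleton_iff.2 (comm_of_card_nine (card_three h Q) hy hxQ)
  have hC63 : Nat.card (centralizer ({x} : Set G)) ≤ 63 := card_le h _ (cent_ne_top h hx)
  have h9 : 9 ∣ Nat.card (centralizer ({x} : Set G)) := by
    have := card_dvd_of_le hPC
    rwa [card_three h P] at this
  have h7 := not_seven_dvd h hx hx7
  have hC504 : Nat.card (centralizer ({x} : Set G)) ∣ 504 := by rw [← h]; exact card_subgroup_dvd_card _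
  generalize hCdef : centralizer ({x} : Set G) = C at *
  let P' : Sylow 3 C := P.subtype hPC
  let Q' : Sylow 3 C := Q.subtype hQC
  have hne' : P' ≠ Q' := fun he => hne (Sylow.subtype_injective he)
  have hn : 1 < Nat.card (Sylow 3 C) := by
    rw [Finite.one_lt_card_iff_nontrivial]
    exact ⟨P', Q', hne'⟩
  have hmod : Nat.card (Sylow 3 C) ≡ 1 [MOD 3] := card_sylow_modEq_one 3 C
  obtain ⟨k, hk⟩ := h9
  have hkpos : 0 < k := by
    rcases Nat.eq_zero_or_pos k with h0 | h0
    · rw [h0, mul_zero] at hk; exact absurd hk (Nat.card_pos).ne'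
    · exact h0
  have hk56 : k ∣ 56 := by
    rw [hk, show (504 : ℕ) = 9 * 56 by norm_num] at hC504
    exact Nat.dvd_of_mul_dvd_mul_left (by norm_num) hC504
  have hk7 : ¬ 7 ∣ k := fun hd => h7 (by rw [hk]; exact hd.mul_left 9)
  have hkle : k ≤ 7 := by omega
  have hk4 : k = 1 ∨ k = 2 ∨ k = 4 := by
    clear hk
    interval_cases k <;> omega
  have hdvd : Nat.card (Sylow 3 C) ∣ k := by
    refine SmallSyl.card_sylow_dvd (p := 3) (n := 2) (m := k) (G := C) (by rw [hk]; norm_num) ?_
    rcases hk4 with rfl | rfl | rfl <;> norm_num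
  have hle := Nat.le_of_dvd hkpos hdvd
  unfold Nat.ModEq at hmod
  have hn4 : Nat.card (Sylow 3 C) = 4 ∧ k = 4 := by
    rcases hk4 with rfl | rfl | rfl
    · omega
    · omega
    · generalize Nat.card (Sylow 3 C) = m at *
      interval_cases m <;> omega
  obtain ⟨hn4, rfl⟩ := hn4
  have hP'9 : Nat.card (P' : Subgroup C) = 9 := by
    have := SmallSyl.card_sylow (p := 3) (n := 2) (m := 4) (G := C) (by rw [hk]; norm_num) (by norm_num) P'
    simpa using this
  have hN9 : Nat.card (normalizer ((P' : Subgroup C) : Set C)) = 9 := by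
    have := SmallSyl.card_normalizer_mul P'
    rw [hn4, hk] at this
    omega
  have hNP : (P' : Subgroup C) = normalizer ((P' : Subgroup C) : Set C) :=
    eq_of_le_of_card_ge le_normalizer (by rw [hN9, hP'9])
  have hNC : normalizer ((P' : Subgroup C) : Set C) ≤ centralizer ((P' : Subgroup C) : Set C) := by
    rw [← hNP]
    intro y hy
    rw [mem_centralizer_iff]
    intro z hz
    exact comm_of_card_nine hP'9 hz hy
  have hcomp := MonoidHom.ker_transferSylow_isComplement' P' hNC
  haveI hVn : (MonoidHom.transferSylow P' hNC).ker.Normal := inferInstance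
  generalize (MonoidHom.transferSylow P' hNC).ker = V at *
  have hV4 : Nat.card V = 4 := by
    have h1 := hcomp.card_mul
    rw [hP'9, hk] at h1
    omega
  have hW4 : Nat.card (V.map C.subtype) = 4 := by
    rw [Subgroup.card_map_of_injective C.subtype_injective, hV4]
  have hCW : C ≤ normalizer ((V.map C.subtype : Subgroup G) : Set G) := by
    have h1 := le_normalizer_map (H := V) C.subtype
    rw [normalizer_eq_top_iff.2 hVn] at h1
    refine le_trans ?_ h1
    intro c hc
    exact ⟨⟨c, hc⟩, trivial, rfl⟩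
  have h8 : 8 ∣ Nat.card (normalizer ((V.map C.subtype : Subgroup G) : Set G)) := by
    have := Sylow.prime_pow_dvd_card_normalizer (p := 2) (n := 2) (G := G) (by rw [h]; norm_num) (H := V.map C.subtype)
      (by rw [hW4]; norm_num)
    simpa using this
  have h36 : 36 ∣ Nat.card (normalizer ((V.map C.subtype : Subgroup G) : Set G)) := by
    have := card_dvd_of_le hCW
    rwa [hk] at this
  have htop : normalizer ((V.map C.subtype : Subgroup G) : Set G) = ⊤ := by
    by_contra hcon
    have h1 := card_le h _ hcon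
    have h2 : 0 < Nat.card (normalizer ((V.map C.subtype : Subgroup G) : Set G)) := Nat.card_pos
    omega
  haveI hWn : (V.map C.subtype).Normal := normalizer_eq_top_iff.1 htop
  rcases hWn.eq_bot_or_eq_top with h1 | h1
  · rw [h1, card_bot] at hW4; omega
  · rw [h1, card_top, h] at hW4; omega

theorem cent_three (h : Nat.card G = 504) (P : Sylow 3 G) {x : G} (hxP : x ∈ (P : Subgroup G)) (hx : x ≠ 1) :
    Nat.card (centralizer ({x} : Set G)) = 9 := by
  classical
  haveI : Fact (Nat.Prime 3) := ⟨by norm_num⟩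
  have hPC : (P : Subgroup G) ≤ centralizer ({x} : Set G) := fun y hy =>
    mem_centralizer_singleton_iff.2 (comm_of_card_nine (card_three h P) hy hxP)
  have hCN : centralizer ({x} : Set G) ≤ normalizer ((P : Subgroup G) : Set G) := by
    intro g hg
    apply (Sylow.smul_eq_iff_mem_normalizer).1
    by_contra hne
    have h1 := ti_three h _ _ hne
    have h2 : x ∈ ((g • P : Sylow 3 G) : Subgroup G) ⊓ P := by
      refine ⟨?_, hxP⟩
      have h3 : g⁻¹ * x * g = x := by
        rw [mem_centralizer_singleton_iff] at hg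
        rw [mul_assoc, ← hg, inv_mul_cancel_left]
      have := SmallSyl.mem_smul_sylow (g := g) (x := x) (P := P)
      exact this.2 (by rw [h3]; exact hxP)
    rw [h1, mem_bot] at h2
    exact hx h2
  have hN : Nat.card (normalizer ((P : Subgroup G) : Set G)) = 18 := by
    have := SmallSyl.card_normalizer_mul P
    rw [three h, h] at this
    omega
  have h9 : 9 ∣ Nat.card (centralizer ({x} : Set G)) := by
    have := card_dvd_of_le hPC
    rwa [card_three h P] at this
  have h18 : Nat.card (centralizer ({x} : Set G)) ∣ 18 := by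
    rw [← hN]; exact card_dvd_of_le hCN
  have hle := Nat.le_of_dvd (by norm_num) h18
  have hpos : 0 < Nat.card (centralizer ({x} : Set G)) := Nat.card_pos
  by_contra hne
  have h2 : Nat.card (centralizer ({x} : Set G)) = 18 := by omega
  have h3 : centralizer ({x} : Set G) = normalizer ((P : Subgroup G) : Set G) :=
    eq_of_le_of_card_ge hCN (by rw [h2, hN])
  have hxZ : x ∈ (P : Subgroup G) ⊓ centralizer (normalizer ((P : Subgroup G) : Set G) : Set G) := by
    refine ⟨hxP, mem_centralizer_iff.2 ?_⟩
    intro y hy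
    have hy' : y ∈ centralizer ({x} : Set G) := by rw [h3]; exact hy
    exact (mem_centralizer_singleton_iff.1 hy')
  obtain ⟨N, hN', ⟨φ⟩⟩ := Cfsg.Agent.S0105.result P (isMulCommutative_iff.2 fun a b =>
    Subtype.ext (comm_of_card_nine (card_three h P) a.2 b.2))
  have hcard : N.index = Nat.card ((P : Subgroup G) ⊓ centralizer (normalizer ((P : Subgroup G) : Set G) : Set G) : Subgroup G) :=
    Nat.card_congr φ.toEquiv
  have h5 : Nat.card ((P : Subgroup G) ⊓ centralizer (normalizer ((P : Subgroup G) : Set G) : Set G) : Subgroup G) ∣ 9 := by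
    rw [← card_three h P]
    exact card_dvd_of_le inf_le_left
  have h6 : 1 < Nat.card ((P : Subgroup G) ⊓ centralizer (normalizer ((P : Subgroup G) : Set G) : Set G) : Subgroup G) := by
    rw [one_lt_card_iff_ne_bot]
    intro hb
    rw [hb, mem_bot] at hxZ
    exact hx hxZ
  have h7 := Nat.le_of_dvd (by norm_num) h5
  rcases hN'.eq_bot_or_eq_top with h1 | h1
  · rw [h1, index_bot, h] at hcard
    omega
  · rw [h1, index_top] at hcard
    omega

theorem cent_two (h : Nat.card G = 504) {t : G} (ht : orderOf t = 2) : Nat.card (centralizer ({t} : Set G)) ∣ 8 := by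
  haveI : Fact (Nat.Prime 3) := ⟨by norm_num⟩
  have ht1 : t ≠ 1 := by rintro rfl; rw [orderOf_one] at ht; omega
  have h7 := not_seven_dvd h ht1 (by rw [ht]; norm_num)
  have h3 : ¬ 3 ∣ Nat.card (centralizer ({t} : Set G)) := by
    intro hd
    obtain ⟨⟨y, hy⟩, hoy⟩ := exists_prime_orderOf_dvd_card' 3 hd
    rw [orderOf_mk] at hoy
    have hy1 : y ≠ 1 := by rintro rfl; rw [orderOf_one] at hoy; omega
    have hcz : Nat.card (zpowers y) = 3 := by rw [Nat.card_zpowers, hoy]
    obtain ⟨P, hP⟩ := (IsPGroup.of_card (p := 3) (n := 1) (by rw [hcz, pow_one]) : IsPGroup 3 (zpowers y)).exists_le_sylow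
    have h9 := cent_three h P (hP (mem_zpowers y)) hy1
    have htC : t ∈ centralizer ({y} : Set G) :=
      mem_centralizer_singleton_iff.2 (mem_centralizer_singleton_iff.1 hy).symm
    have h10 := Subgroup.orderOf_dvd_natCard _ htC
    rw [h9, ht] at h10
    norm_num at h10
  have hd : Nat.card (centralizer ({t} : Set G)) ∣ 8 * 63 := by
    rw [show 8 * 63 = 504 by norm_num, ← h]; exact card_subgroup_dvd_card _
  refine Nat.Coprime.dvd_of_dvd_mul_right ?_ hd
  rw [show (63 : ℕ) = 3 * 3 * 7 by norm_num]
  have c3 : Nat.Coprime (Nat.card (centralizer ({t} : Set G))) 3 := ((Nat.Prime.coprime_iff_not_dvd (by norm_num)).2 h3).symm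
  have c7 : Nat.Coprime (Nat.card (centralizer ({t} : Set G))) 7 := ((Nat.Prime.coprime_iff_not_dvd (by norm_num)).2 h7).symm
  exact Nat.Coprime.mul_right (Nat.Coprime.mul_right c3 c3) c7

end
end CfsgLib.SF11
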