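import Mathlib

set_option autoImplicit false

/-!
Centralizers of diagonalizable operators (helper4).
-/

namespace CfsgLib.SGLin

open Module

variable {F : Type*} [Field F] {V : Type*} [AddCommGroup V] [Module F V]

/-- eigenvalues as a set -/
def eig (T : End F V) : Set F := {μ | T.HasEigenvalue μ}

theorem eig_finite [FiniteDimensional F V] (T : End F V) : (eig T).Finite := by
  have h := Module.End.finite_hasEigenvalue T
  exact h

theorem mem_eig {T : End F V} {μ : F} : μ ∈ eig T ↔ ∃ v, v ≠ 0 ∧ T v = μ • v := by
  constructor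
  · intro h
    obtain ⟨v, hv⟩ := Module.End.HasEigenvalue.exists_hasEigenvector h
    exact ⟨v, hv.2, hv.apply_eq_smul⟩
  · rintro ⟨v, hv, h⟩
    exact Module.End.hasEigenvalue_of_hasEigenvector (x := v) ⟨Module.End.mem_eigenspace_iff.2 h, hv⟩

/-- an operator with `T ^ d = 1`, `d ≠ 0` in `F`, is diagonalizable -/
theorem sup_eig [IsAlgClosed F] [FiniteDimensional F V] (T : End F V) (d : ℕ) (hd : (d : F) ≠ 0) (hT : T ^ d = 1) :
    ⨆ μ : F, T.eigenspace μ = ⊤ := by
  have hss : T.IsSemisimple := by
    refine Module.End.isSemisimple_of_squarefree_aeval_eq_zero (p := Polynomial.X ^ d - Polynomial.C 1) ?_ ?_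
    · exact (Polynomial.separable_X_pow_sub_C (1 : F) hd one_ne_zero).squarefree
    · simp [hT]
  exact hss.iSup_eigenspace_eq_top

theorem exists_eigenbasis [FiniteDimensional F V] (T : End F V) (h : ⨆ μ : F, T.eigenspace μ = ⊤) :
    ∃ (b : Basis (Fin (finrank F V)) F V) (c : Fin (finrank F V) → F), ∀ i, T (b i) = c i • b i := by
  classical
  have hint : DirectSum.IsInternal (fun μ : F => T.eigenspace μ) :=
    DirectSum.isInternal_submodule_of_iSupIndep_of_iSup_eq_top T.eigenspaces_iSupIndep h
  let b := hint.collectedBasis (fun μ => Module.finBasis F (T.eigenspace μ))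
  haveI : Finite (Σ μ : F, Fin (finrank F (T.eigenspace μ))) := Module.Finite.finite_basis b
  haveI : Fintype (Σ μ : F, Fin (finrank F (T.eigenspace μ))) := Fintype.ofFinite _
  let e := Fintype.equivFinOfCardEq (finrank_eq_card_basis b).symm
  refine ⟨b.reindex e, fun i => (e.symm i).1, ?_⟩
  intro i
  rw [Basis.reindex_apply]
  have h1 := hint.collectedBasis_mem (fun μ => Module.finBasis F (T.eigenspace μ)) (e.symm i)
  exact Module.End.mem_eigenspace_iff.1 h1

theorem cent_dim [FiniteDimensional F V] (T : End F V) (h : ⨆ μ : F, T.eigenspace μ = ⊤) :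
    (finrank F V) ^ 2 ≤ (eig T).ncard * finrank F (LinearMap.ker (LinearMap.mulLeft F T - LinearMap.mulRight F T)) := by
  classical
  obtain ⟨ι, hι, b, c, hc⟩ : ∃ (ι : Type) (_ : Fintype ι) (b : Basis ι F V) (c : ι → F), ∀ i, T (b i) = c i • b i := by
    obtain ⟨b, c, hc⟩ := exists_eigenbasis T h
    exact ⟨_, inferInstance, b, c, hc⟩
  rw [finrank_eq_card_basis b]
  -- the eigenvalues
  let E : Finset F := Finset.univ.image c
  have hE : (E : Set F) ⊆ eig T := by
    intro μ hμ
    rw [Finset.mem_coe, Finset.mem_image] at hμ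
    obtain ⟨i, _, rfl⟩ := hμ
    exact mem_eig.2 ⟨b i, b.ne_zero i, hc i⟩
  have hEc : E.card ≤ (eig T).ncard := by
    rw [← Set.ncard_coe_finset]
    exact Set.ncard_le_ncard hE (eig_finite T)
  let P := {p : ι × ι // c p.1 = c p.2}
  have hP : Fintype.card P = ∑ μ ∈ E, (Finset.univ.filter (fun i => c i = μ)).card ^ 2 := by
    have h1 : Fintype.card P = ∑ i : ι, (Finset.univ.filter (fun j => c i = c j)).card := by
      rw [Fintype.card_subtype]
      rw [Finset.card_filter, ← Finset.univ_product_univ, Finset.sum_product]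
      refine Finset.sum_congr rfl fun i _ => ?_
      rw [Finset.card_filter]
    rw [h1, ← Finset.sum_fiberwise_of_maps_to (g := c) (t := E) (fun i _ => Finset.mem_image_of_mem c (Finset.mem_univ i))]
    refine Finset.sum_congr rfl fun μ _ => ?_
    rw [Finset.sum_congr rfl (g := fun _ => (Finset.univ.filter (fun i => c i = μ)).card), Finset.sum_const, smul_eq_mul, pow_two]
    intro i hi
    rw [(Finset.mem_filter.1 hi).2]
    congr 1
    ext j
    simp [eq_comm]
  have hsum : Fintype.card ι = ∑ μ ∈ E, (Finset.univ.filter (fun i => c i = μ)).card := by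
    rw [← Finset.card_univ]
    exact Finset.card_eq_sum_card_fiberwise (fun i _ => Finset.mem_image_of_mem c (Finset.mem_univ i))
  have hCS : (Fintype.card ι) ^ 2 ≤ E.card * Fintype.card P := by
    rw [hsum, hP]
    exact sq_sum_le_card_mul_sum_sq
  -- the injection
  let L : (P → F) →ₗ[F] End F V :=
    { toFun := fun G => Matrix.toLin b b (Matrix.of fun i j => if hij : c i = c j then G ⟨(i, j), hij⟩ else 0)
      map_add' := by
        intro G H
        rw [← map_add]
        congr 1
        ext i j
        by_cases hij : c i = c j <;> simp [hij]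
      map_smul' := by
        intro a G
        rw [RingHom.id_apply, ← map_smul]
        congr 1
        ext i j
        by_cases hij : c i = c j <;> simp [hij] }
  have hL : ∀ G, L G = Matrix.toLin b b (Matrix.of fun i j => if hij : c i = c j then G ⟨(i, j), hij⟩ else 0) := fun G => rfl
  have hLb : ∀ G j, L G (b j) = ∑ i, (if hij : c i = c j then G ⟨(i, j), hij⟩ else 0) • b i := by
    intro G j
    rw [hL, Matrix.toLin_self]
    rfl
  have hLT : ∀ G, L G ∈ LinearMap.ker (LinearMap.mulLeft F T - LinearMap.mulRight F T) := by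
    intro G
    rw [LinearMap.mem_ker, LinearMap.sub_apply, LinearMap.mulLeft_apply, LinearMap.mulRight_apply, sub_eq_zero]
    apply b.ext
    intro j
    show T (L G (b j)) = L G (T (b j))
    rw [hc, map_smul, hLb, map_sum, Finset.smul_sum]
    refine Finset.sum_congr rfl fun i _ => ?_
    rw [map_smul, hc]
    by_cases hij : c i = c j
    · rw [dif_pos hij, hij, smul_comm]
    · rw [dif_neg hij, zero_smul, zero_smul, smul_zero]
  have hLinj : Function.Injective L := by
    intro G H hGH
    rw [hL, hL] at hGH
    have h1 := (Matrix.toLin b b).injective hGH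
    funext ⟨⟨i, j⟩, hij⟩
    have h2 := congrFun (congrFun h1 i) j
    simpa [hij] using h2
  have hfin : Fintype.card P ≤ finrank F (LinearMap.ker (LinearMap.mulLeft F T - LinearMap.mulRight F T)) := by
    have h2 := LinearMap.finrank_le_finrank_of_injective (f := L.codRestrict _ hLT) (by
      intro x y hxy
      exact hLinj (congrArg Subtype.val hxy))
    rwa [finrank_fintype_fun_eq_card] at h2
  calc (Fintype.card ι) ^ 2 ≤ E.card * Fintype.card P := hCS
    _ ≤ _ := Nat.mul_le_mul hEc hfin

theorem eig_card_le [FiniteDimensional F V] (T : End F V) : (eig T).ncard ≤ finrank F V := by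
  classical
  haveI : Fintype (eig T) := (eig_finite T).fintype
  have h : ∀ μ : eig T, ∃ v, v ≠ 0 ∧ T v = μ.1 • v := fun μ => mem_eig.1 μ.2
  choose v hv using h
  have hli : LinearIndependent F v :=
    Module.End.eigenvectors_linearIndependent' T (fun μ : eig T => μ.1) Subtype.val_injective v
      (fun μ => ⟨Module.End.mem_eigenspace_iff.2 (hv μ).2, (hv μ).1⟩)
  have h1 := hli.fintype_card_le_finrank
  rwa [← Nat.card_eq_fintype_card, Nat.card_coe_set_eq] at h1

end CfsgLib.SGLin
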