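import Cfsg.Agent.LibHHBExt2
import Cfsg.Agent.LibSGLin

set_option autoImplicit false

/-!
The critical "extraspecial" case in characteristic different from `p` (helper4).
-/

namespace CfsgLib.SGExt

open Module CfsgLib.HHBExt CfsgLib.SGLin
open scoped commutatorElement

variable {F : Type*} [Field F] {Q : Type*} [Group Q] {U : Type*} [AddCommGroup U] [Module F U]
variable {ρ : Q →* End F U} {A : Subgroup Q}

theorem main_irr_ss [Fintype Q] [IsAlgClosed F] [FiniteDimensional F U] [Nontrivial U] (hD : Dat ρ A) (hQ : (Fintype.card Q : F) ≠ 0)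
    (hA0 : (Nat.card A : F) ≠ 0) (hAt : A ≠ ⊤) [A.Normal]
    (hirr : ∀ S : Submodule F U, (∀ x, S ≤ S.comap (ρ x)) → S = ⊥ ∨ S = ⊤)
    (σ : MulAut Q) (hσA : ∀ x, σ x ∈ A ↔ x ∈ A) (d : ℕ) (hd : 2 ≤ d)
    (hfpf : ∀ k, 0 < k → k < d → ∀ x, (σ ^ k) x * x⁻¹ ∈ A → x ∈ A)
    (u : End F U) (hu : ∀ x, u * ρ x = ρ (σ x) * u) (hud : u ^ d = 1) (hdF : (d : F) ≠ 0) :
    (finrank F U) ^ 2 = Nat.card (Q ⧸ A) ∧ (d ≤ (eig u).ncard ∨ (d - 1 ≤ (eig u).ncard ∧ finrank F U = d - 1)) := by
  classical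
  haveI : Fintype (Q ⧸ A) := Fintype.ofFinite _
  set D := finrank F U with hDD
  let b : Basis (Q ⧸ A) F (End F U) := Basis.mk (hD.linInd hQ) (hD.span_top hQ hA0 hirr)
  have hb : ∀ c, b c = ρ (Quotient.out c) := fun c => Basis.mk_apply _ _ c
  have hcard : D ^ 2 = Nat.card (Q ⧸ A) := by
    have h1 := finrank_eq_card_basis b
    rw [finrank_linearMap, ← Nat.card_eq_fintype_card] at h1
    rw [pow_two]; exact h1
  refine ⟨hcard, ?_⟩
  -- inverse of u
  set ui := u ^ (d - 1) with hui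
  have hu1 : u * ui = 1 := by rw [hui, ← pow_succ', Nat.sub_add_cancel (by omega), hud]
  have hu2 : ui * u = 1 := by rw [hui, ← pow_succ, Nat.sub_add_cancel (by omega), hud]
  let Φ : End F U →ₗ[F] End F U := (LinearMap.mulLeft F u) ∘ₗ (LinearMap.mulRight F ui)
  have hΦ : ∀ f, Φ f = u * f * ui := fun f => by
    show u * (f * ui) = _
    rw [mul_assoc]
  have hσle : A.map (σ : MulAut Q).toMonoidHom = A := by
    ext x
    constructor
    · rintro ⟨y, hy, rfl⟩
      exact (hσA y).2 hy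
    · intro hx
      exact ⟨σ⁻¹ x, (hσA _).1 (by rw [MulAut.apply_inv_self]; exact hx), by
        show σ (σ⁻¹ x) = x
        rw [MulAut.apply_inv_self]⟩
  let π : Equiv.Perm (Q ⧸ A) := (QuotientGroup.congr A A σ hσle).toEquiv
  have hπ : ∀ x : Q, π (x : Q ⧸ A) = ((σ x : Q) : Q ⧸ A) := fun x => rfl
  have hπk : ∀ (k : ℕ) (x : Q), (π ^ k) (x : Q ⧸ A) = (((σ ^ k) x : Q) : Q ⧸ A) := by
    intro k
    induction k with
    | zero => intro x; rfl
    | succ k ih =>
      intro x
      rw [pow_succ, Equiv.Perm.mul_apply, hπ, ih, pow_succ, MulAut.mul_apply]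
  have hΦb : ∀ c, ∃ μ : F, Φ (b c) = μ • b (π c) := by
    intro c
    have h1 : Φ (b c) = ρ (σ (Quotient.out c)) := by
      rw [hΦ, hb, hu, mul_assoc, hu1, mul_one]
    have h2 : (Quotient.out (π c))⁻¹ * σ (Quotient.out c) ∈ A := by
      apply QuotientGroup.eq.1
      rw [QuotientGroup.out_eq', ← hπ, QuotientGroup.out_eq']
    refine ⟨lam ρ ((Quotient.out (π c))⁻¹ * σ (Quotient.out c)), ?_⟩
    rw [h1, hb]
    have h3 : σ (Quotient.out c) = Quotient.out (π c) * ((Quotient.out (π c))⁻¹ * σ (Quotient.out c)) := by group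
    conv_lhs => rw [h3, map_mul, hD.lam_spec h2, mul_smul_comm, mul_one]
  choose μ hμ using hΦb
  have hle := ker_le_orbits b Φ π μ hμ
  -- the centralizer
  have hC : LinearMap.ker (LinearMap.mulLeft F u - LinearMap.mulRight F u) ≤ LinearMap.ker (Φ - 1) := by
    intro f hf
    rw [LinearMap.mem_ker, LinearMap.sub_apply, LinearMap.mulLeft_apply, LinearMap.mulRight_apply, sub_eq_zero] at hf
    rw [LinearMap.mem_ker, LinearMap.sub_apply, hΦ, Module.End.one_apply, hf, mul_assoc, hu1, mul_one, sub_self]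
  -- u is not scalar
  have hne1 : ∀ μ : F, u ≠ μ • 1 := by
    intro μ h
    have hμ : μ ≠ 0 := by
      rintro rfl
      rw [zero_smul] at h
      rw [h, zero_mul] at hu1
      exact zero_ne_one hu1
    apply hAt
    rw [Subgroup.eq_top_iff']
    intro x
    apply hfpf 1 one_pos (by omega) x
    rw [pow_one]
    apply hD.nd
    intro y
    have h1 := hu x
    rw [h, smul_mul_assoc, mul_smul_comm, one_mul, mul_one] at h1
    have h1' : ρ x = ρ (σ x) := smul_right_injective _ hμ h1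
    have h2 : ρ (σ x * x⁻¹) = 1 := by rw [map_mul, ← h1', ← map_mul, mul_inv_cancel, map_one]
    rw [map_mul ρ (σ x * x⁻¹) y, map_mul ρ y, h2, one_mul, mul_one]
  have hπd : π ^ d = 1 := by
    ext c
    induction c using QuotientGroup.induction_on with
    | H x =>
      rw [hπk, Equiv.Perm.one_apply]
      symm
      rw [QuotientGroup.eq]
      apply hD.nd
      have h1 : ∀ k, u ^ k * ρ x = ρ ((σ ^ k) x) * u ^ k := by
        intro k
        induction k with
        | zero => simp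
        | succ k ih =>
          rw [pow_succ', mul_assoc, ih, ← mul_assoc, hu, mul_assoc, pow_succ', MulAut.mul_apply]
      have h2 := h1 d
      rw [hud, one_mul, mul_one] at h2
      intro y
      have h3 : ρ (x⁻¹ * (σ ^ d) x) = 1 := by rw [map_mul, ← h2, ← map_mul, inv_mul_cancel, map_one]
      rw [map_mul ρ (x⁻¹ * (σ ^ d) x) y, map_mul ρ y, h3, one_mul, mul_one]
  have horb := orbits_count π ((1 : Q) : Q ⧸ A) d (by omega) hπd (by rw [hπ, map_one]) (by
    intro k hk hkd c hc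
    induction c using QuotientGroup.induction_on with
    | H x =>
      rw [hπk] at hc
      rw [QuotientGroup.mk_one, QuotientGroup.eq_one_iff]
      apply hfpf k hk hkd x
      rw [← QuotientGroup.eq_one_iff, QuotientGroup.mk_mul, hc, ← QuotientGroup.mk_mul, mul_inv_cancel, QuotientGroup.mk_one]) (by
    by_contra hcon
    push Not at hcon
    apply hAt
    rw [Subgroup.eq_top_iff']
    intro x
    exact (QuotientGroup.eq_one_iff x).1 (hcon x))
  have hdiag := CfsgLib.SGLin.sup_eig u d hdF hud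
  have hr₀D : (eig u).ncard ≤ D := CfsgLib.SGLin.eig_card_le u
  have hr₀2 : 2 ≤ (eig u).ncard := by
    by_contra hcon
    obtain ⟨b', c', hc'⟩ := CfsgLib.SGLin.exists_eigenbasis u hdiag
    have hle1 : (eig u).ncard ≤ 1 := by omega
    rw [Set.ncard_le_one (CfsgLib.SGLin.eig_finite u)] at hle1
    have hpos : 0 < finrank F U := finrank_pos
    apply hne1 (c' ⟨0, hpos⟩)
    apply b'.ext
    intro i
    rw [hc', LinearMap.smul_apply, Module.End.one_apply]
    congr 1
    exact hle1 _ (CfsgLib.SGLin.mem_eig.2 ⟨_, b'.ne_zero i, hc' i⟩) _ (CfsgLib.SGLin.mem_eig.2 ⟨_, b'.ne_zero _, hc' _⟩)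
  have hcd := CfsgLib.SGLin.cent_dim u hdiag
  have hfin := (Submodule.finrank_mono hC).trans hle
  rw [← hDD] at hcd
  have hineq : D ^ 2 * d ≤ (eig u).ncard * (D ^ 2 + (d - 1)) := by
    rw [hcard, ← horb, ← hcard, ← mul_assoc]
    exact Nat.mul_le_mul_right d (hcd.trans (Nat.mul_le_mul_left _ hfin))
  rcases num D (eig u).ncard d hineq hr₀D hr₀2 with h | ⟨h1, h2⟩
  · exact Or.inl h
  · exact Or.inr ⟨h1.ge, h2⟩


end CfsgLib.SGExt
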