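import Cfsg.Agent.LibSGL1

set_option autoImplicit false

/-!
Commutator forms and an arithmetic lemma (helper4).
-/

namespace CfsgLib.SGForm

open Module CfsgLib.HHBExt CfsgLib.SGLin CfsgLib.SGExt CfsgLib.SGMain CfsgLib.SGWt CfsgLib.SGProp CfsgLib.SGProp1
open CfsgLib.SGGrp
open scoped commutatorElement

section Form

variable {F : Type*} [Field F] {Q : Type*} [Group Q] {U : Type*} [AddCommGroup U] [Module F U]
variable {ρ : Q →* End F U} {A : Subgroup Q} [Nontrivial U]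

theorem w_symm (hD : Dat ρ A) (x y : Q) : w ρ x y * w ρ y x = 1 := by
  have h1 := hD.w_spec x y
  rw [hD.w_spec y x, smul_smul] at h1
  have h2 : (1 : F) • (ρ (x * y)) = (w ρ x y * w ρ y x) • ρ (x * y) := by
    rw [one_smul, map_mul]; exact h1
  exact (smul_rho_inj h2).symm

theorem w_ne (hD : Dat ρ A) (x y : Q) : w ρ x y ≠ 0 := left_ne_zero_of_mul (by rw [w_symm hD]; exact one_ne_zero)

theorem w_swap (hD : Dat ρ A) (x y : Q) : w ρ y x = (w ρ x y)⁻¹ := eq_inv_of_mul_eq_one_right (w_symm hD x y)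

theorem w_mul' (hD : Dat ρ A) (z x y : Q) : w ρ z (x * y) = w ρ z x * w ρ z y := by
  rw [w_swap hD (x * y) z, hD.w_mul, mul_inv, ← w_swap hD, ← w_swap hD]

theorem w_inv (hD : Dat ρ A) (x z : Q) : w ρ x⁻¹ z = (w ρ x z)⁻¹ := by
  apply eq_inv_of_mul_eq_one_left
  rw [← hD.w_mul, inv_mul_cancel, hD.w_one' (one_mem A)]

theorem w_pow (hD : Dat ρ A) (x z : Q) (k : ℕ) : w ρ (x ^ k) z = w ρ x z ^ k := by
  induction k with
  | zero => rw [pow_zero, pow_zero, hD.w_one' (one_mem A)]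
  | succ k ih => rw [pow_succ, hD.w_mul, ih, pow_succ]

theorem w_comm (hD : Dat ρ A) (x y : Q) : w ρ x y = 1 ↔ ρ x * ρ y = ρ y * ρ x := by
  constructor
  · intro h
    rw [hD.w_spec, h, one_smul]
  · intro h
    have h1 := hD.w_spec x y
    rw [h] at h1
    have h2 : (1 : F) • ρ (y * x) = w ρ x y • ρ (y * x) := by
      rw [one_smul, map_mul]; exact h1
    exact (smul_rho_inj h2).symm

theorem w_mem (hD : Dat ρ A) (x : Q) (h : ∀ y, w ρ x y = 1) : x ∈ A := by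
  apply hD.nd
  intro y
  rw [map_mul, map_mul]
  exact (w_comm hD x y).1 (h y)

theorem w_map (hD : Dat ρ A) (s : Q → Q) (f g : End F U) (hgf : g * f = 1) (hf : ∀ x, f * ρ x = ρ (s x) * f) (x y : Q) :
    w ρ (s x) (s y) = w ρ x y := by
  have h1 : f * (ρ x * ρ y) = w ρ (s x) (s y) • (f * (ρ y * ρ x)) := by
    rw [← mul_assoc, hf, mul_assoc, hf, ← mul_assoc, hD.w_spec, smul_mul_assoc, mul_assoc, ← hf, ← mul_assoc, ← hf, mul_assoc]
  rw [hD.w_spec x y, mul_smul_comm] at h1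
  have h2 := congrArg (fun k => g * k) h1
  simp only [mul_smul_comm, ← mul_assoc, hgf, one_mul] at h2
  rw [← map_mul] at h2
  exact (smul_rho_inj h2).symm

end Form

theorem fp_pow {Q : Type*} [Group Q] {p n : ℕ} (hp : p.Prime) (σ : MulAut Q) (A : Subgroup Q) [A.Normal] (hA : ∀ x, σ x ∈ A ↔ x ∈ A)
    (hσn : ∀ x, (σ ^ p ^ n) x = x) (h : ∀ x, (σ ^ p ^ (n - 1)) x * x⁻¹ ∈ A → x ∈ A) :
    ∀ k, 0 < k → k < p ^ n → ∀ x, (σ ^ k) x * x⁻¹ ∈ A → x ∈ A := by
  intro k hk0 hk x hx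
  let π : Equiv.Perm (Q ⧸ A) := (qs σ A hA).toEquiv
  have hπ : ∀ k : ℕ, ∀ x : Q, (π ^ k) (x : Q ⧸ A) = ((σ ^ k) x : Q) := by
    intro k x
    induction k with
    | zero => rfl
    | succ k ih => rw [pow_succ', Equiv.Perm.mul_apply, ih, pow_succ', MulAut.mul_apply]; rfl
  have hmk : ∀ a b : Q, a * b⁻¹ ∈ A ↔ (a : Q ⧸ A) = b := by
    intro a b
    rw [← QuotientGroup.eq_one_iff, QuotientGroup.mk_mul, QuotientGroup.mk_inv, mul_inv_eq_one]
  have h1 := perm_free π (1 : Q ⧸ A) hp (n := n) (by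
    ext y
    obtain ⟨y, rfl⟩ := QuotientGroup.mk_surjective y
    rw [hπ, hσn]; rfl) (by
    intro y hy
    obtain ⟨y, rfl⟩ := QuotientGroup.mk_surjective y
    rw [hπ, ← hmk] at hy
    exact (QuotientGroup.eq_one_iff _).2 (h y hy)) k hk0 hk (x : Q ⧸ A) (by rw [hπ, ← hmk]; exact hx)
  exact (QuotientGroup.eq_one_iff _).1 h1

theorem num (q q₁ n k m' r : ℕ) (hq : q.Prime) (hq₁ : q₁.Prime) (hq2 : q ≠ 2) (hne : q ≠ q₁) (hm' : 1 ≤ m')
    (h : 2 ^ n - 1 = q ^ m') (hk : k ≤ 2 * m') (hr : r ≤ 1 + k)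
    (hc : 2 ^ n ≤ r ∨ ∃ n₀ m : ℕ, 1 ≤ n₀ ∧ n₀ ≤ n ∧ 1 ≤ m ∧ 2 ^ n₀ - 1 = q₁ ^ m ∧ 2 ^ (n - n₀) * (2 ^ n₀ - 1) ≤ r) : False := by
  have hq3 : 3 ≤ q := by
    have := hq.two_le; omega
  have hpos : 1 ≤ 2 ^ n := Nat.one_le_two_pow
  have h3 : ∀ m : ℕ, 1 ≤ m → 3 ≤ m → 4 * m + 2 < 3 ^ m := by
    intro m _ hm
    induction m, hm using Nat.le_induction with
    | base => norm_num
    | succ m hm ih =>
      have := ih (by omega)
      rw [pow_succ]; omega
  have hqm : 3 ^ m' ≤ q ^ m' := Nat.pow_le_pow_left hq3 m'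
  have hhalf : 2 ^ n ≤ 4 * m' + 2 := by
    rcases hc with h1 | ⟨n₀, m, h1, h2, _, _, h5⟩
    · omega
    · have h6 : 2 ^ (n - n₀) * (2 ^ n₀ - 1) = 2 ^ n - 2 ^ (n - n₀) := by
        rw [Nat.mul_sub, mul_one, ← pow_add, Nat.sub_add_cancel h2]
      have h7 : 2 * 2 ^ (n - n₀) ≤ 2 ^ n := by
        rw [← pow_succ']
        exact Nat.pow_le_pow_right (by norm_num) (by omega)
      rw [h6] at h5
      omega
  have hm3 : m' < 3 := by
    by_contra hcon
    push Not at hcon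
    have := h3 m' hm' hcon
    omega
  have hn4 : n < 4 := by
    by_contra hcon
    push Not at hcon
    have : 2 ^ 4 ≤ 2 ^ n := Nat.pow_le_pow_right (by norm_num) hcon
    omega
  have hm : m' = 1 ∨ m' = 2 := by omega
  have hcase : n = 2 ∧ q = 3 ∧ m' = 1 := by
    rcases hm with rfl | rfl
    · rw [pow_one] at h
      interval_cases n
      · omega
      · omega
      · exact ⟨rfl, by omega, rfl⟩
      · omega
    · have h9 : q ^ 2 ≤ 9 := by omega
      have h10 : q = 3 := by nlinarith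
      subst h10
      interval_cases n <;> omega
  obtain ⟨rfl, rfl, rfl⟩ := hcase
  rcases hc with h1 | ⟨n₀, m, h1, h2, h3, h4, _⟩
  · omega
  · have h5 : n₀ = 1 ∨ n₀ = 2 := by omega
    have hm0 : m ≠ 0 := by omega
    rcases h5 with rfl | rfl
    · have h6 : q₁ ^ m = 1 := by omega
      have h7 : q₁ = 1 := by
        rcases Nat.pow_eq_one.1 h6 with h | h
        · exact h
        · exact absurd h hm0
      exact hq₁.ne_one h7
    · have h6 : q₁ ^ m = 3 := by omega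
      have h7 : q₁ ∣ 3 := by rw [← h6]; exact dvd_pow_self _ hm0
      exact hne ((Nat.prime_dvd_prime_iff_eq hq₁ Nat.prime_three).1 h7).symm

end CfsgLib.SGForm
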