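import Cfsg.Agent.LibSGRed
import Cfsg.Agent.LibHHBInd

set_option autoImplicit false

/-!
Eigenvalue version of the Hall-Higman theorem B: the induction (helper4).
-/

namespace CfsgLib.SGMain

open Module CfsgLib.HHBExt CfsgLib.SGLin CfsgLib.SGExt
open CfsgLib.HHBMain (Concl wt_indep restrict_pow_apply KK KK_mem KK_conj KK_map KK_iff ee ee_mul ee_comm ee_T ee_fix fix_of_triv)
open scoped commutatorElement

universe u v

section Ind

variable {F : Type*} [Field F] {p q : ℕ} {Q : Type*} [Group Q] {W : Type*} [AddCommGroup W] [Module F W]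
    {ρ : Q →* End F W} {σ : MulAut Q} {T : End F W} {n : ℕ}

theorem Cfg.rstCfg (h : Cfg p q ρ σ T n) (R : Submodule F W) (hR : ∀ x, R ≤ R.comap (ρ x)) (a : ℕ) (ha : a < n)
    (hRT : ∀ v ∈ R, (T ^ p ^ a) v ∈ R)
    (hnt : ∃ x, ∃ v ∈ R, ρ ((σ ^ p ^ (n - 1)) x) v ≠ ρ x v) :
    Cfg p q (rst ρ R hR) (σ ^ p ^ a) ((T ^ p ^ a).restrict hRT) (n - a) := by
  refine ⟨by omega, ?_, ?_, h.hq, ?_⟩
  · intro x
    ext v
    have := congrArg (fun g : End F W => g (v : W)) (h.hTk (p ^ a) x)
    simp only [Module.End.mul_apply] at this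
    exact this
  · ext v
    rw [restrict_pow_apply, ← pow_mul, ← pow_add, Nat.add_sub_cancel' ha.le, h.hTn]
    rfl
  · obtain ⟨x, v, hv, hxv⟩ := hnt
    refine ⟨x, fun heq => hxv ?_⟩
    have h1 : (σ ^ p ^ a) ^ p ^ (n - a - 1) = σ ^ p ^ (n - 1) := by
      rw [← pow_mul, ← pow_add]; congr 2; omega
    rw [h1] at heq
    exact congrArg (fun g : End F R => ((g ⟨v, hv⟩ : R) : W)) heq

theorem eig_restrict_sub (f : End F W) (R : Submodule F W) (h : ∀ x ∈ R, f x ∈ R) : eig (f.restrict h) ⊆ eig f := by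
  intro μ hμ
  obtain ⟨v, hv0, hv⟩ := mem_eig.1 hμ
  refine mem_eig.2 ⟨v, fun h0 => hv0 (Subtype.ext h0), ?_⟩
  exact congrArg Subtype.val hv

end Ind

theorem main {F : Type*} [Field F] [IsAlgClosed F] {p : ℕ} [hpf : Fact p.Prime] {q : ℕ} [hqf : Fact q.Prime]
    (hpF : (p : F) ≠ 0) (hqF : (q : F) ≠ 0)
    (hqp : p.Coprime q) (N : ℕ) : ∀ (Q : Type u) [Group Q] [Finite Q] (W : Type v) [AddCommGroup W] [Module F W]
      [FiniteDimensional F W] (ρ : Q →* End F W) (σ : MulAut Q) (T : End F W) (n : ℕ),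
      Cfg p q ρ σ T n → Nat.card Q + finrank F W ≤ N → Concl p q Q n (eig T).ncard := by
  have hp := hpf.out
  induction N with
  | zero =>
    intro Q _ _ W _ _ _ ρ σ T n _ hN
    have : 0 < Nat.card Q := Nat.card_pos
    omega
  | succ N ih =>
    intro Q _ _ W _ _ _ ρ σ T n h hN
    by_contra hcon
    haveI : Fintype Q := Fintype.ofFinite Q
    set s := σ ^ p ^ (n - 1) with hs
    haveI : Nontrivial W := by
      by_contra hc
      rw [not_nontrivial_iff_subsingleton] at hc
      obtain ⟨x, hx⟩ := h.hnt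
      apply hx
      ext v
      exact Subsingleton.elim _ _
    have hcardF : ∀ B : Subgroup Q, (Nat.card B : F) ≠ 0 := by
      intro B h0
      obtain ⟨l, hl⟩ := IsPGroup.iff_card.1 (h.hq.to_subgroup B)
      rw [hl, Nat.cast_pow] at h0
      exact pow_ne_zero l hqF h0
    -- step 1
    have hstar : ∀ Q₀ : Subgroup Q, (∀ x, σ x ∈ Q₀ ↔ x ∈ Q₀) → Q₀ ≠ ⊤ → ∀ x ∈ Q₀, ρ (s x) = ρ x := by
      intro Q₀ hinv hne x hx
      by_contra hxx
      apply hcon
      let σ₀ : MulAut Q₀ :=
        { toFun := fun y => ⟨σ y, (hinv y).2 y.2⟩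
          invFun := fun y => ⟨σ⁻¹ y, (hinv _).1 (by rw [MulAut.apply_inv_self]; exact y.2)⟩
          left_inv := fun y => Subtype.ext (MulAut.inv_apply_self _ _ _)
          right_inv := fun y => Subtype.ext (MulAut.apply_inv_self _ _ _)
          map_mul' := fun y z => Subtype.ext (map_mul σ _ _) }
      have hσ₀ : ∀ (k : ℕ) (y : Q₀), (((σ₀ ^ k) y : Q₀) : Q) = (σ ^ k) y := by
        intro k
        induction k with
        | zero => intro y; rfl
        | succ k ihk => intro y; rw [pow_succ, MulAut.mul_apply, ihk, pow_succ, MulAut.mul_apply]; rfl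
      have h0 : Cfg p q (ρ.comp Q₀.subtype) σ₀ T n := by
        refine ⟨h.hn, fun y => h.hT y, h.hTn, h.hq.to_subgroup Q₀, ⟨⟨x, hx⟩, ?_⟩⟩
        intro he
        apply hxx
        have : (ρ.comp Q₀.subtype) ((σ₀ ^ p ^ (n - 1)) ⟨x, hx⟩) = ρ (s x) := by
          show ρ (((σ₀ ^ p ^ (n - 1)) ⟨x, hx⟩ : Q₀) : Q) = _
          rw [hσ₀]
        rw [this] at he
        exact he
      have hlt : Nat.card Q₀ < Nat.card Q := by
        refine lt_of_le_of_ne (Subgroup.card_le_card_group Q₀) ?_
        intro he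
        exact hne (Subgroup.eq_top_of_card_eq Q₀ he)
      rcases ih Q₀ W (ρ.comp Q₀.subtype) σ₀ T n h0 (by omega) with h1 | ⟨n₀, m, h1, h2, h3, h4, ⟨a, b, hab⟩, h5⟩
      · exact Or.inl h1
      · exact Or.inr ⟨n₀, m, h1, h2, h3, h4, ⟨a, b, fun he => hab (Subtype.ext he)⟩, h5⟩
    -- step 2
    have hIH : ∀ (R : Submodule F W) (hR : ∀ x, R ≤ R.comap (ρ x)) (hRt : R ≠ ⊤) (a : ℕ) (ha : a < n)
      (hRT : ∀ v ∈ R, (T ^ p ^ a) v ∈ R)
      (hnt : ∃ x, ∃ v ∈ R, ρ (s x) v ≠ ρ x v), Concl p q Q (n - a) (eig ((T ^ p ^ a).restrict hRT)).ncard := by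
      intro R hR hRt a ha hRT hnt
      have hlt : finrank F R < finrank F W := Submodule.finrank_lt hRt
      exact ih Q R _ _ _ _ (h.rstCfg R hR a ha hRT hnt) (by omega)
    have hmono : ∀ (k r₁ r₂ : ℕ), r₁ ≤ r₂ → Concl p q Q k r₁ → Concl p q Q k r₂ := by
      rintro k r₁ r₂ hle (h1 | ⟨n₀, m, h1, h2, h3, h4, h5, h6⟩)
      · exact Or.inl (h1.trans hle)
      · exact Or.inr ⟨n₀, m, h1, h2, h3, h4, h5, h6.trans hle⟩
    have hIH0 : ∀ (R : Submodule F W) (hR : ∀ x, R ≤ R.comap (ρ x)) (hRt : R ≠ ⊤) 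
      (hRT : ∀ v ∈ R, T v ∈ R)
      (hnt : ∃ x, ∃ v ∈ R, ρ (s x) v ≠ ρ x v), Concl p q Q n (eig T).ncard := by
      intro R hR hRt hRT hnt
      have hRT' : ∀ v ∈ R, (T ^ p ^ 0) v ∈ R := by
        intro v hv
        rw [pow_zero, pow_one]; exact hRT v hv
      have h1 := hIH R hR hRt 0 (by have := h.hn; omega) hRT' hnt
      rw [Nat.sub_zero] at h1
      refine hmono _ _ _ (Set.ncard_le_ncard ?_ (eig_finite T)) h1
      refine (eig_restrict_sub _ R hRT').trans ?_
      rw [pow_zero, pow_one]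
    set K := KK s with hK
    have he1 := fun k (hk : k ∈ K) => ee_mul (ρ := ρ) K hk
    have he2 := fun y => ee_comm (ρ := ρ) K (fun y k hk => KK_conj s y hk) y
    have he3 : T * ee ρ K = ee ρ K * T := ee_T K h.hT (fun x => KK_iff σ _ x)
    have hkerR : ∀ x, LinearMap.ker (ee ρ K) ≤ (LinearMap.ker (ee ρ K)).comap (ρ x) := by
      intro x v hv
      rw [LinearMap.mem_ker] at hv
      rw [Submodule.mem_comap, LinearMap.mem_ker]
      have := congrArg (fun g : End F W => g v) (he2 x)
      simp only [Module.End.mul_apply] at this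
      rw [← this, hv, map_zero]
    have hntR : ∃ x, ∃ v ∈ LinearMap.ker (ee ρ K), ρ (s x) v ≠ ρ x v := by
      by_contra hc
      push Not at hc
      have h1 := fix_of_triv s _ hkerR hc
      have h2 : LinearMap.ker (ee ρ K) = ⊥ := by
        rw [eq_bot_iff]
        intro v hv
        have h3 := ee_fix (ρ := ρ) K v (fun k hk => h1 k hk v hv)
        rw [LinearMap.mem_ker.1 hv] at h3
        exact (smul_eq_zero.1 h3.symm).resolve_left (hcardF K)
      obtain ⟨x, hx⟩ := h.hnt
      apply hx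
      have h3 : ∀ k ∈ K, ρ k = 1 := by
        intro k hk
        ext w
        have h4 : ρ k w - w ∈ LinearMap.ker (ee ρ K) := by
          rw [LinearMap.mem_ker, map_sub, sub_eq_zero]
          have h5 : ee ρ K * ρ k = ee ρ K := by rw [← he2, he1 k hk]
          exact congrArg (fun g : End F W => g w) h5
        rw [h2, Submodule.mem_bot, sub_eq_zero] at h4
        exact h4
      have h4 := h3 _ (KK_mem s x)
      have h5 : s x = (s x * x⁻¹) * x := by group
      rw [h5, map_mul, h4, one_mul]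
    have he0 : LinearMap.ker (ee ρ K) = ⊤ := by
      by_contra hne
      apply hcon
      exact hIH0 _ hkerR hne (by
        intro v hv
        rw [LinearMap.mem_ker] at hv ⊢
        have := congrArg (fun g : End F W => g v) he3
        simp only [Module.End.mul_apply] at this
        rw [← this, hv, map_zero]) hntR
    have hnt : ∀ (R : Submodule F W), (∀ x, R ≤ R.comap (ρ x)) → R ≠ ⊥ → ∃ x, ∃ v ∈ R, ρ (s x) v ≠ ρ x v := by
      intro R hR hR0
      by_contra hc
      push Not at hc
      have h1 := fix_of_triv s _ hR hc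
      apply hR0
      rw [eq_bot_iff]
      intro v hv
      have h3 := ee_fix (ρ := ρ) K v (fun k hk => h1 k hk v hv)
      have h4 : v ∈ LinearMap.ker (ee ρ K) := he0 ▸ Submodule.mem_top
      rw [LinearMap.mem_ker.1 h4] at h3
      exact (smul_eq_zero.1 h3.symm).resolve_left (hcardF K)
    have hirrT : ∀ R : Submodule F W, (∀ x, R ≤ R.comap (ρ x)) → R ≤ R.comap T → R = ⊥ ∨ R = ⊤ := by
      intro R hR hRT
      by_contra hc
      push Not at hc
      apply hcon
      exact hIH0 R hR hc.2 (fun v hv => hRT hv) (hnt R hR hc.1)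
    rcases h.step3 hirrT with hsc | ⟨R, a, hR, ha1, han, hR0, hRt, hRT, hk⟩
    · apply hcon
      obtain ⟨hAt, D, hD, hD2⟩ := h.step4 hpF hqF hqp hstar hsc
      rcases hD2 with h1 | ⟨h1, h2, _⟩
      · exact Or.inl h1
      · right
        have h3 : Nat.card (Q ⧸ cen ρ) ≠ 1 := by
          intro h4
          apply hAt
          rw [← Subgroup.index_eq_one]
          exact h4
        have h4 : ∃ m, D = q ^ m := by
          obtain ⟨l, hl⟩ := IsPGroup.iff_card.1 h.hq
          have h5 : D ∣ q ^ l := by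
            rw [← hl]
            exact (Dvd.intro_left _ rfl : D ∣ D * D).trans (by
              rw [← pow_two, hD]
              exact Subgroup.card_quotient_dvd_card _)
          obtain ⟨m, _, hm⟩ := (Nat.dvd_prime_pow hqf.out).1 h5
          exact ⟨m, hm⟩
        obtain ⟨m, hm⟩ := h4
        refine ⟨n, m, h.hn, le_rfl, ?_, ?_, ?_, ?_⟩
        · rw [Nat.one_le_iff_ne_zero]
          rintro rfl
          apply h3
          rw [← hD, hm]; simp
        · rw [← h2, hm]
        · by_contra hcon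
          push Not at hcon
          apply hAt
          rw [Subgroup.eq_top_iff']
          intro x
          rw [mem_cen']
          intro y
          rw [hcon x y]
        · rw [Nat.sub_self, pow_zero, one_mul]
          exact h1
    · apply hcon
      have hRT' : ∀ v ∈ R, (T ^ p ^ a) v ∈ R := fun v hv => hRT hv
      set T₁ := (T ^ p ^ a).restrict hRT' with hT₁
      have hpos : 0 < p ^ a := pow_pos hp.pos a
      have hT₁n : T₁ ^ p ^ (n - a) = 1 := by
        ext v
        rw [restrict_pow_apply, ← pow_mul, ← pow_add, Nat.add_sub_cancel' han, h.hTn]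
        rfl
      have hμ0 : ∀ μ ∈ eig T₁, μ ≠ 0 := by
        rintro μ hμ rfl
        have h1 : (0 : F) ^ p ^ (n - a) = 1 := eig_sub_mu hT₁n hμ
        rw [zero_pow (pow_pos hp.pos _).ne'] at h1
        exact zero_ne_one h1
      have hmul : p ^ a * (eig T₁).ncard ≤ (eig T).ncard := by
        apply eig_count T (p ^ a) hpos (by rw [Nat.cast_pow]; exact pow_ne_zero _ hpF) _ (eig_finite T₁) hμ0
        intro μ hμ
        obtain ⟨v, hv0, hv⟩ := mem_eig.1 hμ
        exact hk μ (hμ0 μ hμ) ⟨v, v.2, fun h0 => hv0 (Subtype.ext h0), congrArg Subtype.val hv⟩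
      haveI : Nontrivial R := Submodule.nontrivial_iff_ne_bot.2 hR0
      have hone : 1 ≤ (eig T₁).ncard := by
        obtain ⟨μ, hμ⟩ := Module.End.exists_eigenvalue T₁
        rw [Nat.one_le_iff_ne_zero, Ne, Set.ncard_eq_zero (eig_finite T₁)]
        intro h0
        have : μ ∈ eig T₁ := hμ
        rw [h0] at this
        exact this
      rcases han.eq_or_lt with hanE | hanL
      · left
        rw [← hanE]
        exact (Nat.le_mul_of_pos_right _ (by omega)).trans hmul
      · rcases hIH R hR hRt a hanL hRT' (hnt R hR hR0) with h1 | ⟨n₀, m, h1, h2, h3, h4, h5, h6⟩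
        · left
          refine le_trans ?_ hmul
          calc p ^ n = p ^ a * p ^ (n - a) := by rw [← pow_add, Nat.add_sub_cancel' han]
            _ ≤ _ := Nat.mul_le_mul_left _ h1
        · right
          refine ⟨n₀, m, h1, by omega, h3, h4, h5, ?_⟩
          refine le_trans ?_ hmul
          have h7 : p ^ (n - n₀) = p ^ a * p ^ (n - a - n₀) := by rw [← pow_add]; congr 1; omega
          rw [h7, mul_assoc]
          exact Nat.mul_le_mul_left _ h6

end CfsgLib.SGMain
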