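import Cfsg.Agent.LibSGGrp

set_option autoImplicit false

/-!
The Shult-Gross theorem (odd primes) (helper4).
-/

namespace CfsgLib.SGL1

open CfsgLib.SGProp1 CfsgLib.SGLz CfsgLib.SGGrp Cfsg
open scoped commutatorElement

universe u v

section Irr

variable {G : Type u} [Group G] [Finite G] {σ : MulAut G} {V : Subgroup G}

/-- the `p^(n-1)`-power of the automorphism is trivial modulo the centralizer of a minimal normal subgroup -/
theorem irr_L1 {p n : ℕ} [hpf : Fact p.Prime] (hn : 1 ≤ n) (hp2 : p ≠ 2 ∨ n ≤ 2) (hG : Group.IsSolvable G) (hV0 : V ≠ ⊥)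
    [hVn : V.Normal] (hVσ : ∀ x, σ x ∈ V ↔ x ∈ V)
    (hmin : ∀ U ≤ V, U.Normal → (∀ x, σ x ∈ U ↔ x ∈ U) → U = ⊥ ∨ U = V) (hσ : ∀ x, σ x = x → x = 1)
    (hσn : ∀ x, (σ ^ p ^ n) x = x) :
    ∀ x, ((qs σ _ (cent_inv hVσ)) ^ p ^ (n - 1)) x = x := by
  have hp := hpf.out
  obtain ⟨r, hr, hexp, hab, hcore⟩ := irr1 hG hV0 hVσ hmin
  set C := Subgroup.centralizer (V : Set G) with hC
  set τ := qs σ C (cent_inv hVσ) with hτ
  have hτfp : ∀ x, τ x = x → x = 1 := qs_fpf hσ C _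
  have hτn : ∀ x, (τ ^ p ^ n) x = x := by
    intro x
    obtain ⟨x, rfl⟩ := QuotientGroup.mk_surjective x
    rw [hτ, qs_pow, hσn]
  have hcop : p.Coprime (Nat.card (G ⧸ C)) := coprime_of_fpf hτn hτfp
  have hcopG : p.Coprime (Nat.card G) := coprime_of_fpf hσn hσ
  haveI := hG
  have hsol : Group.IsSolvable (G ⧸ C) := inferInstance
  have hrp : r ≠ p := by
    rintro rfl
    obtain ⟨⟨x, hx⟩, hx1⟩ := Subgroup.ne_bot_iff_exists_ne_one.1 hV0
    have h1 : orderOf x ∣ r := orderOf_dvd_of_pow_eq_one (hexp x hx)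
    rcases (Nat.dvd_prime hr).1 h1 with h2 | h2
    · exact hx1 (Subtype.ext (orderOf_eq_one_iff.1 h2))
    · have h3 : r ∣ Nat.card G := by rw [← h2]; exact orderOf_dvd_natCard _
      exact (Nat.Prime.coprime_iff_not_dvd hp).1 hcopG h3
  apply triv_of_cores hsol hcop
  · intro x
    rw [← pow_mul, ← pow_succ, Nat.sub_add_cancel hn]
    exact hτn x
  intro q hq x hx
  haveI : Fact q.Prime := ⟨hq⟩
  haveI : Fact r.Prime := ⟨hr⟩
  by_cases hqr : q = r
  · subst hqr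
    rw [hcore, Subgroup.mem_bot] at hx
    rw [hx, map_one]
  have hQp := CfsgLib.Cores.pCore_isPGroup (G := G ⧸ C) q
  by_cases hqp : q = p
  · subst hqp
    have h1 : x = 1 := by
      obtain ⟨l, hl⟩ := hQp ⟨x, hx⟩
      have h2 : x ^ q ^ l = 1 := congrArg Subtype.val hl
      rw [← orderOf_eq_one_iff]
      exact Nat.eq_one_of_dvd_coprimes (hcop.pow_left l) (orderOf_dvd_of_pow_eq_one h2) (orderOf_dvd_natCard x)
    rw [h1, map_one]
  obtain ⟨F, i1, i2, i3, W, i4, i5, i6, ρ, T, hinj, hTn, hT1, hTρ⟩ := irr_mod (p := p) (n := n) hr hVσ hexp hab hσ hσn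
  have hpF : (p : F) ≠ 0 := by
    intro h
    rw [CharP.cast_eq_zero_iff F r] at h
    exact hrp ((Nat.prime_dvd_prime_iff_eq hr hp).1 h)
  have hqF : (q : F) ≠ 0 := by
    intro h
    rw [CharP.cast_eq_zero_iff F r] at h
    exact hqr ((Nat.prime_dvd_prime_iff_eq hr hq).1 h).symm
  have hQσ : ∀ x, τ x ∈ pCore q (G ⧸ C) ↔ x ∈ pCore q (G ⧸ C) := by
    apply inv_iff
    intro x hx
    exact Subgroup.characteristic_iff_map_le.1 (CfsgLib.Cores.pCore_characteristic (G := G ⧸ C) q) τ ⟨_, hx, rfl⟩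
  have h1 := prop1 hpF hqF ((Nat.coprime_primes hp hq).2 (Ne.symm hqp)) hn hp2 T hTn hT1 (Nat.card (pCore q (G ⧸ C)))
    (pCore q (G ⧸ C)) le_rfl hQp (ρ.comp (pCore q (G ⧸ C)).subtype) (hinj.comp (pCore q (G ⧸ C)).subtype_injective)
    (rs τ _ hQσ) (by
      intro y hy
      exact Subtype.ext (hτfp _ (congrArg Subtype.val hy))) (by
      intro y
      exact hTρ _) ⟨x, hx⟩
  have h2 := congrArg Subtype.val h1
  rw [rs_pow] at h2
  exact h2

end Irr

theorem L1 {p n : ℕ} [hpf : Fact p.Prime] (hn : 1 ≤ n) (hp2 : p ≠ 2 ∨ n ≤ 2) : ∀ (N : ℕ) (G : Type u) [Group G] [Finite G],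
    Nat.card G ≤ N → Group.IsSolvable G → ∀ σ : MulAut G, (∀ x, σ x = x → x = 1) → (∀ x, (σ ^ p ^ n) x = x) →
    ∃ k, (cm (σ ^ p ^ (n - 1))).lowerCentralSeries k = ⊥ := by
  intro N
  induction N with
  | zero =>
    intro G _ _ hN
    exact absurd hN (not_le.2 Nat.card_pos)
  | succ N ih =>
    intro G _ _ hN hG σ hσ hσn
    rcases subsingleton_or_nontrivial G with hs | hs
    · exact ⟨0, Subsingleton.elim _ _⟩
    obtain ⟨V, hV0, hVn, hVσ, hmin⟩ := SGGrp.exists_min σ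
    haveI := hVn
    haveI := hG
    have hlt : Nat.card (G ⧸ V) < Nat.card G := by
      have h6 := Subgroup.card_eq_card_quotient_mul_card_subgroup V
      have h7 : 1 < Nat.card V := Subgroup.one_lt_card_iff_ne_bot V |>.mpr hV0
      have h8 : 0 < Nat.card (G ⧸ V) := Nat.card_pos
      rw [h6]
      nlinarith
    have hψσ : ∀ x, (σ ^ p ^ (n - 1)) x ∈ V ↔ x ∈ V := pow_mem hVσ _
    obtain ⟨k, hk⟩ := ih (G ⧸ V) (by omega) inferInstance (qs σ V hVσ) (qs_fpf hσ V hVσ) (by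
      intro x
      obtain ⟨x, rfl⟩ := QuotientGroup.mk_surjective x
      rw [qs_pow, hσn])
    have hqs : (qs σ V hVσ) ^ p ^ (n - 1) = qs (σ ^ p ^ (n - 1)) V hψσ := by
      ext x
      obtain ⟨x, rfl⟩ := QuotientGroup.mk_surjective x
      rw [qs_pow, qs_mk]
    rw [hqs, ← map_cm] at hk
    have h1 := lcs_le_of_map _ _ _ hk
    have h2 : cm (σ ^ p ^ (n - 1)) ≤ Subgroup.centralizer (V : Set G) := by
      apply cm_le
      intro g
      have h3 := irr_L1 hn hp2 hG hV0 hVσ hmin hσ hσn (g : G ⧸ Subgroup.centralizer (V : Set G))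
      rw [qs_pow] at h3
      have h4 : (((σ ^ p ^ (n - 1)) g * g⁻¹ : G) : G ⧸ Subgroup.centralizer (V : Set G)) = 1 := by
        rw [QuotientGroup.mk_mul, h3, ← QuotientGroup.mk_mul, mul_inv_cancel, QuotientGroup.mk_one]
      exact (QuotientGroup.eq_one_iff _).1 h4
    refine ⟨k + 1, ?_⟩
    rw [Subgroup.lowerCentralSeries_succ, eq_bot_iff]
    refine (Subgroup.commutator_mono h1 h2).trans ?_
    rw [Subgroup.commutator_le]
    intro v hv c hc
    rw [Subgroup.mem_bot, commutatorElement_eq_one_iff_mul_comm]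
    exact Subgroup.mem_centralizer_iff.1 hc v hv

/-- chains with nilpotent factors -/
def Chain (G : Type u) [Group G] (m : ℕ) : Prop :=
  ∃ F : Fin (m + 1) → Subgroup G, F 0 = ⊥ ∧ F (Fin.last m) = ⊤ ∧ Monotone F ∧ (∀ i, (F i).Normal) ∧
    ∀ i : Fin m, ∃ k : ℕ, (F i.succ).lowerCentralSeries k ≤ F i.castSucc

theorem Chain.cons {G : Type u} [Group G] (N : Subgroup G) [hN : N.Normal] (hNn : ∃ k, N.lowerCentralSeries k = ⊥) {m : ℕ}
    (h : Chain (G ⧸ N) m) : Chain G (m + 1) := by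
  obtain ⟨F, h0, h1, h2, h3, h4⟩ := h
  refine ⟨Fin.cons ⊥ (fun i => (F i).comap (QuotientGroup.mk' N)), rfl, ?_, ?_, ?_, ?_⟩
  · rw [← Fin.succ_last, Fin.cons_succ, h1, Subgroup.comap_top]
  · intro i j hij
    induction i using Fin.cases with
    | zero => rw [Fin.cons_zero]; exact bot_le
    | succ i =>
      induction j using Fin.cases with
      | zero => exact absurd hij (by simp [Fin.le_def])
      | succ j =>
        rw [Fin.cons_succ, Fin.cons_succ]
        exact Subgroup.comap_mono (h2 (Fin.succ_le_succ_iff.1 hij))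
  · intro i
    induction i using Fin.cases with
    | zero => rw [Fin.cons_zero]; infer_instance
    | succ i =>
      rw [Fin.cons_succ]
      haveI := h3 i
      infer_instance
  · intro i
    induction i using Fin.cases with
    | zero =>
      obtain ⟨k, hk⟩ := hNn
      refine ⟨k, ?_⟩
      rw [Fin.cons_succ, h0, Fin.castSucc_zero, Fin.cons_zero]
      have h5 : (⊥ : Subgroup (G ⧸ N)).comap (QuotientGroup.mk' N) = N := by
        rw [MonoidHom.comap_bot, QuotientGroup.ker_mk']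
      rw [h5, hk]
    | succ i =>
      obtain ⟨k, hk⟩ := h4 i
      refine ⟨k, ?_⟩
      rw [Fin.cons_succ, ← Fin.succ_castSucc, Fin.cons_succ, ← Subgroup.map_le_iff_le_comap, Subgroup.map_lowerCentralSeries,
        Subgroup.map_comap_eq_self_of_surjective (QuotientGroup.mk'_surjective N)]
      exact hk

theorem shult_gross {p : ℕ} [hpf : Fact p.Prime] (hp2 : p ≠ 2) : ∀ (n : ℕ) (G : Type u) [Group G] [Finite G], Group.IsSolvable G →
    ∀ σ : MulAut G, (∀ x, σ x = x → x = 1) → (∀ x, (σ ^ p ^ n) x = x) → Chain G n := by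
  intro n
  induction n with
  | zero =>
    intro G _ _ hG σ hσ hσn
    have h1 : ∀ x : G, x = 1 := by
      intro x
      apply hσ
      have := hσn x
      rwa [pow_zero, pow_one] at this
    refine ⟨fun _ => ⊥, rfl, ?_, fun _ _ _ => le_rfl, fun _ => inferInstance, fun i => i.elim0⟩
    rw [eq_comm, Subgroup.eq_bot_iff_forall]
    exact fun x _ => h1 x
  | succ n ih =>
    intro G _ _ hG σ hσ hσn
    haveI := hG
    obtain ⟨k, hk⟩ := L1 (p := p) (n := n + 1) (by omega) (Or.inl hp2) (Nat.card G) G le_rfl hG σ hσ hσn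
    rw [Nat.add_sub_cancel] at hk
    haveI := cm_normal (σ ^ p ^ n)
    have hinv : ∀ x, σ x ∈ cm (σ ^ p ^ n) ↔ x ∈ cm (σ ^ p ^ n) := by
      apply inv_iff
      intro x hx
      have h1 : (cm (σ ^ p ^ n)).map σ.toMonoidHom ≤ cm (σ ^ p ^ n) := by
        rw [cm, MonoidHom.map_closure, Subgroup.closure_le]
        rintro _ ⟨_, ⟨g, rfl⟩, rfl⟩
        have h2 : σ ((σ ^ p ^ n) g * g⁻¹) = (σ ^ p ^ n) (σ g) * (σ g)⁻¹ := by
          rw [map_mul, map_inv, ← MulAut.mul_apply, ← MulAut.mul_apply, ← pow_succ, ← pow_succ']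
        show σ ((σ ^ p ^ n) g * g⁻¹) ∈ cm (σ ^ p ^ n)
        rw [h2]
        exact mem_cm _ _
      exact h1 ⟨x, hx, rfl⟩
    apply Chain.cons (cm (σ ^ p ^ n)) ⟨k, hk⟩
    apply ih _ inferInstance (qs σ _ hinv) (qs_fpf hσ _ hinv)
    intro x
    obtain ⟨x, rfl⟩ := QuotientGroup.mk_surjective x
    rw [qs_pow, QuotientGroup.eq]
    have h2 := inv_mem (mem_cm (σ ^ p ^ n) x⁻¹)
    have h3 : ((σ ^ p ^ n) x⁻¹ * x⁻¹⁻¹)⁻¹ = x⁻¹ * (σ ^ p ^ n) x := by rw [map_inv]; group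
    rw [h3] at h2
    have h4 := inv_mem h2
    have h5 : (x⁻¹ * (σ ^ p ^ n) x)⁻¹ = ((σ ^ p ^ n) x)⁻¹ * x := by group
    rwa [h5] at h4

end CfsgLib.SGL1
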