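import Cfsg.Agent.LibSGP2m
import Cfsg.Agent.LibSolvCrit

set_option autoImplicit false

/-!
Gross's theorem for automorphisms of two-power order: group theoretic part (helper4).
-/

namespace CfsgLib.SGL2

open CfsgLib.SGProp1 CfsgLib.SGLz CfsgLib.SGGrp CfsgLib.SGL1 CfsgLib.SGP2 Cfsg
open scoped commutatorElement Pointwise

universe u v

section Lift

variable {G : Type u} [Group G] [Finite G]

/-- lifting invariant `q`-subgroups -/
theorem lift_inv {σ : MulAut G} (hσ : ∀ x, σ x = x → x = 1) (N : Subgroup G) [N.Normal] (hN : ∀ x, σ x ∈ N ↔ x ∈ N) {q : ℕ}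
    [hqf : Fact q.Prime] (B' : Subgroup (G ⧸ N)) (hB' : IsPGroup q B') (hB'σ : ∀ x, qs σ N hN x ∈ B' ↔ x ∈ B') :
    ∃ B : Subgroup G, IsPGroup q B ∧ (∀ x, σ x ∈ B ↔ x ∈ B) ∧ B.map (QuotientGroup.mk' N) = B' := by
  classical
  set L := B'.comap (QuotientGroup.mk' N) with hL
  have hLσ : ∀ x, σ x ∈ L ↔ x ∈ L := fun x => hB'σ (x : G ⧸ N)
  set σL := rs σ L hLσ with hσL
  have hσLf : ∀ x, σL x = x → x = 1 := fun x hx => Subtype.ext (hσ _ (congrArg Subtype.val hx))
  obtain ⟨S⟩ : Nonempty (Sylow q L) := inferInstance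
  obtain ⟨g, hg⟩ := MulAction.exists_smul_eq L S (σL • S)
  have hinj : Function.Injective (fun x : L => (σL x)⁻¹ * x) := by
    intro a b hab
    have h1 : (σL a)⁻¹ * a = (σL b)⁻¹ * b := hab
    have h2 : σL (b * a⁻¹) = b * a⁻¹ := by
      rw [map_mul, map_inv]
      calc σL b * (σL a)⁻¹ = σL b * ((σL a)⁻¹ * a) * a⁻¹ := by group
        _ = σL b * ((σL b)⁻¹ * b) * a⁻¹ := by rw [h1]
        _ = _ := by group
    exact (mul_inv_eq_one.1 (hσLf _ h2)).symm
  obtain ⟨x, hx⟩ := Finite.surjective_of_injective hinj g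
  have hx' : (σL x)⁻¹ * x = g := hx
  set P := x • S with hP
  have hPσ : σL • P = P := by
    have h1 : σL * MulAut.conj x = MulAut.conj (σL x) * σL := by
      ext y
      simp [MulAut.mul_apply, MulAut.conj_apply]
    have h2 : x = σL x * g := by rw [← hx']; group
    rw [hP, Sylow.smul_def, ← mul_smul, h1, mul_smul, ← hg, ← Sylow.smul_def, ← mul_smul, ← h2]
    exact Sylow.smul_def
  refine ⟨(P : Subgroup L).map L.subtype, P.isPGroup'.map _, ?_, ?_⟩
  · apply inv_iff
    rintro _ ⟨y, hy, rfl⟩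
    have h1 : σL y ∈ (P : Subgroup L) := by
      rw [← hPσ, Sylow.pointwise_smul_def]
      exact Subgroup.smul_mem_pointwise_smul _ _ _ hy
    exact ⟨σL y, h1, rfl⟩
  · -- the image
    let f : L →* B' := ((QuotientGroup.mk' N).comp L.subtype).codRestrict B' (fun y => y.2)
    have hf : Function.Surjective f := by
      rintro ⟨y, hy⟩
      obtain ⟨z, rfl⟩ := QuotientGroup.mk'_surjective N y
      exact ⟨⟨z, hy⟩, rfl⟩
    have h1 : ((Sylow.mapSurjective hf P : Sylow q B') : Subgroup B') = ⊤ := by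
      have h2 := (Sylow.mapSurjective hf P).is_maximal' (Q := ⊤) (IsPGroup.to_subgroup hB' ⊤) le_top
      exact h2.symm
    rw [Sylow.coe_mapSurjective] at h1
    apply le_antisymm
    · rintro _ ⟨_, ⟨y, _, rfl⟩, rfl⟩
      exact y.2
    · intro y hy
      have h2 : (⟨y, hy⟩ : B') ∈ Subgroup.map f (P : Subgroup L) := h1 ▸ Subgroup.mem_top _
      obtain ⟨z, hz, hzy⟩ := h2
      exact ⟨z, ⟨z, hz, rfl⟩, congrArg Subtype.val hzy⟩

end Lift

section Ic

variable {G : Type u} [Group G]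

/-- iterated commutators -/
def ic (N M : Subgroup G) : ℕ → Subgroup G
  | 0 => N
  | k + 1 => ⁅ic N M k, M⁆

theorem ic_succ' (N M : Subgroup G) (k : ℕ) : ic N M (k + 1) = ic ⁅N, M⁆ M k := by
  induction k with
  | zero => rfl
  | succ k ih => rw [ic, ih]; rfl

theorem map_ic {H : Type v} [Group H] (f : G →* H) (N M : Subgroup G) (k : ℕ) : (ic N M k).map f = ic (N.map f) (M.map f) k := by
  induction k with
  | zero => rfl
  | succ k ih => rw [ic, Subgroup.map_commutator, ih]; rfl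

end Ic

section Claim

/-- a minimal invariant normal subgroup below a given one -/
theorem exists_min_le {G : Type u} [Group G] [Finite G] (σ : MulAut G) (P : Subgroup G) (hP0 : P ≠ ⊥) (hPn : P.Normal)
    (hPσ : ∀ x, σ x ∈ P ↔ x ∈ P) : ∃ V ≤ P, V ≠ ⊥ ∧ V.Normal ∧ (∀ x, σ x ∈ V ↔ x ∈ V) ∧
    ∀ U ≤ V, U.Normal → (∀ x, σ x ∈ U ↔ x ∈ U) → U = ⊥ ∨ U = V := by
  classical
  obtain ⟨V, hV⟩ := (Set.toFinite {V : Subgroup G | V ≤ P ∧ V ≠ ⊥ ∧ V.Normal ∧ (∀ x, σ x ∈ V ↔ x ∈ V)}).exists_minimal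
    ⟨P, le_rfl, hP0, hPn, hPσ⟩
  refine ⟨V, hV.1.1, hV.1.2.1, hV.1.2.2.1, hV.1.2.2.2, ?_⟩
  intro U hU hUn hUσ
  by_cases h : U = ⊥
  · exact Or.inl h
  · exact Or.inr (le_antisymm hU (hV.2 ⟨hU.trans hV.1.1, h, hUn, hUσ⟩ hU))

theorem claim3 {p n q : ℕ} [hpf : Fact p.Prime] (hn : 1 ≤ n) (hq : q.Prime) : ∀ (N : ℕ) (G : Type u) [Group G] [Finite G], Nat.card G ≤ N →
    Group.IsSolvable G → ∀ σ : MulAut G, (∀ x, σ x = x → x = 1) → (∀ x, (σ ^ p ^ n) x = x) →
    ∀ P : Subgroup G, P.Normal → IsPGroup q P → (∀ x, σ x ∈ P ↔ x ∈ P) →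
    (∀ q₁ : ℕ, q₁.Prime → q₁ ≠ q → ∀ B : Subgroup G, IsPGroup q₁ B → (∀ x, σ x ∈ B ↔ x ∈ B) →
      ∀ b ∈ B, ∀ x ∈ P, (b⁻¹ * (σ ^ p ^ (n - 1)) b) * x = x * (b⁻¹ * (σ ^ p ^ (n - 1)) b)) →
    ∃ k, ic P (cm (σ ^ p ^ (n - 1))) k = ⊥ := by
  intro N
  induction N with
  | zero =>
    intro G _ _ hN
    exact absurd hN (not_le.2 Nat.card_pos)
  | succ N ih =>
    intro G _ _ hN hG σ hσ hσn P hPn hP hPσ hyp
    by_cases hP0 : P = ⊥
    · exact ⟨0, hP0⟩
    haveI := hG
    haveI : Fact q.Prime := ⟨hq⟩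
    obtain ⟨V, hVP, hV0, hVn, hVσ, hmin⟩ := exists_min_le σ P hP0 hPn hPσ
    haveI := hVn
    haveI := hPn
    set ψ := σ ^ p ^ (n - 1) with hψ
    have hψV : ∀ x, ψ x ∈ V ↔ x ∈ V := pow_mem hVσ _
    have hlt : Nat.card (G ⧸ V) < Nat.card G := by
      have h6 := Subgroup.card_eq_card_quotient_mul_card_subgroup V
      have h7 : 1 < Nat.card V := Subgroup.one_lt_card_iff_ne_bot V |>.mpr hV0
      have h8 : 0 < Nat.card (G ⧸ V) := Nat.card_pos
      rw [h6]
      nlinarith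
    -- the action on V
    obtain ⟨r, hr, hexp, hab, hcore⟩ := irr1 hG hV0 hVσ hmin
    have hrq : r = q := by
      obtain ⟨⟨x, hx⟩, hx1⟩ := Subgroup.ne_bot_iff_exists_ne_one.1 hV0
      have h1 : orderOf x ∣ r := orderOf_dvd_of_pow_eq_one (hexp x hx)
      rcases (Nat.dvd_prime hr).1 h1 with h2 | h2
      · exact absurd (Subtype.ext (orderOf_eq_one_iff.1 h2)) hx1
      · obtain ⟨l, hl⟩ := hP ⟨x, hVP hx⟩
        have h3 : x ^ q ^ l = 1 := congrArg Subtype.val hl
        have h4 : r ∣ q ^ l := by rw [← h2]; exact orderOf_dvd_of_pow_eq_one h3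
        exact (Nat.prime_dvd_prime_iff_eq hr hq).1 (hr.dvd_of_dvd_pow h4)
    subst hrq
    set C := Subgroup.centralizer (V : Set G) with hC
    set τ := qs σ C (cent_inv hVσ) with hτ
    have hτfp : ∀ x, τ x = x → x = 1 := qs_fpf hσ C _
    have hτn : ∀ x, (τ ^ p ^ n) x = x := by
      intro x
      obtain ⟨x, rfl⟩ := QuotientGroup.mk_surjective x
      rw [hτ, qs_pow, hσn]
    have hcop : p.Coprime (Nat.card (G ⧸ C)) := coprime_of_fpf hτn hτfp
    have hψC : ∀ x : G ⧸ C, (τ ^ p ^ (n - 1)) x = x := by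
      apply triv_of_cores inferInstance hcop
      · intro x
        rw [← pow_mul, ← pow_succ, Nat.sub_add_cancel hn]
        exact hτn x
      intro q₁ hq₁ x hx
      by_cases hqr : q₁ = r
      · subst hqr
        rw [hcore, Subgroup.mem_bot] at hx
        rw [hx, map_one]
      haveI : Fact q₁.Prime := ⟨hq₁⟩
      have hQσ : ∀ x, τ x ∈ pCore q₁ (G ⧸ C) ↔ x ∈ pCore q₁ (G ⧸ C) := by
        apply inv_iff
        intro x hx
        exact Subgroup.characteristic_iff_map_le.1 (CfsgLib.Cores.pCore_characteristic (G := G ⧸ C) q₁) τ ⟨_, hx, rfl⟩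
      obtain ⟨B, hB, hBσ, hBm⟩ := lift_inv hσ C (cent_inv hVσ) (pCore q₁ (G ⧸ C)) (CfsgLib.Cores.pCore_isPGroup (G := G ⧸ C) q₁) hQσ
      rw [← hBm] at hx
      obtain ⟨b, hb, rfl⟩ := hx
      have h1 : b⁻¹ * ψ b ∈ C := by
        rw [hC, Subgroup.mem_centralizer_iff]
        intro v hv
        exact (hyp q₁ hq₁ hqr B hB hBσ b hb v (hVP hv)).symm
      have h2 : (τ ^ p ^ (n - 1)) (b : G ⧸ C) = ((ψ b : G) : G ⧸ C) := by rw [hτ, qs_pow]
      show (τ ^ p ^ (n - 1)) (b : G ⧸ C) = (b : G ⧸ C)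
      rw [h2]
      exact (QuotientGroup.eq.2 h1).symm
    have hcmC : cm ψ ≤ C := by
      apply cm_le
      intro g
      have h3 := hψC (g : G ⧸ C)
      rw [hτ, qs_pow] at h3
      have h4 : (((σ ^ p ^ (n - 1)) g * g⁻¹ : G) : G ⧸ C) = 1 := by
        rw [QuotientGroup.mk_mul, h3, ← QuotientGroup.mk_mul, mul_inv_cancel, QuotientGroup.mk_one]
      exact (QuotientGroup.eq_one_iff _).1 h4
    -- induction
    have hqs : (qs σ V hVσ) ^ p ^ (n - 1) = qs ψ V hψV := by
      ext x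
      obtain ⟨x, rfl⟩ := QuotientGroup.mk_surjective x
      rw [qs_pow, qs_mk]
    have hPbσ : ∀ x, qs σ V hVσ x ∈ P.map (QuotientGroup.mk' V) ↔ x ∈ P.map (QuotientGroup.mk' V) := by
      apply inv_iff
      rintro _ ⟨x, hx, rfl⟩
      exact ⟨σ x, (hPσ x).2 hx, rfl⟩
    obtain ⟨k, hk⟩ := ih (G ⧸ V) (by omega) inferInstance (qs σ V hVσ) (qs_fpf hσ V hVσ) (by
      intro x
      obtain ⟨x, rfl⟩ := QuotientGroup.mk_surjective x
      rw [qs_pow, hσn]) (P.map (QuotientGroup.mk' V)) (hPn.map _ (QuotientGroup.mk'_surjective V)) (hP.map _) hPbσ (by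
      intro q₁ hq₁ hqr B' hB' hB'σ b hb x hx
      haveI : Fact q₁.Prime := ⟨hq₁⟩
      obtain ⟨B, hB, hBσ, hBm⟩ := lift_inv hσ V hVσ B' hB' hB'σ
      rw [← hBm] at hb
      obtain ⟨b, hb, rfl⟩ := hb
      obtain ⟨x, hx, rfl⟩ := hx
      have h1 := hyp q₁ hq₁ hqr B hB hBσ b hb x hx
      have h2 : ((qs σ V hVσ) ^ p ^ (n - 1)) (QuotientGroup.mk' V b) = QuotientGroup.mk' V (ψ b) := qs_pow σ V hVσ _ b
      rw [h2, ← map_inv, ← map_mul, ← map_mul, ← map_mul, h1])
    rw [hqs, ← map_cm, ← map_ic, Subgroup.map_eq_bot_iff, QuotientGroup.ker_mk'] at hk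
    refine ⟨k + 1, ?_⟩
    rw [ic, eq_bot_iff]
    refine (Subgroup.commutator_mono hk hcmC).trans ?_
    rw [Subgroup.commutator_le]
    intro v hv c hc
    rw [Subgroup.mem_bot, commutatorElement_eq_one_iff_mul_comm]
    exact Subgroup.mem_centralizer_iff.1 hc v hv

end Claim

section Nilp

variable {G : Type u} [Group G]

theorem ucs_of_ic (M : Subgroup G) : ∀ (k : ℕ) (N : Subgroup G), ic N M k = ⊥ → ∀ x : M, (x : G) ∈ N → x ∈ Subgroup.upperCentralSeries M k := by
  intro k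
  induction k with
  | zero =>
    intro N hN x hx
    have h1 : N = ⊥ := hN
    rw [h1, Subgroup.mem_bot] at hx
    have h2 : x = 1 := Subtype.ext hx
    rw [h2]; exact one_mem _
  | succ k ih =>
    intro N hN x hx
    rw [ic_succ'] at hN
    rw [Subgroup.mem_upperCentralSeries_succ_iff]
    intro y
    apply ih _ hN
    have h1 : ((⁅x, y⁆ : M) : G) = ⁅(x : G), (y : G)⁆ := rfl
    rw [h1]
    exact Subgroup.commutator_mem_commutator hx y.2

/-- a soluble group whose `O_q` are hypercentral is nilpotent -/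
theorem nilp_of_hyper {H : Type u} [Group H] [Finite H] (hH : Group.IsSolvable H)
    (h : ∀ q : ℕ, q.Prime → ∃ k, pCore q H ≤ Subgroup.upperCentralSeries H k) : Group.IsNilpotent H := by
  haveI := hH
  obtain ⟨K, hK⟩ := WellFoundedGT.monotone_chain_condition (⟨Subgroup.upperCentralSeries H, Subgroup.upperCentralSeries_mono H⟩ : ℕ →o Subgroup H)
  have hK' : ∀ k, Subgroup.upperCentralSeries H k ≤ Subgroup.upperCentralSeries H K := by
    intro k
    rcases le_total K k with h1 | h1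
    · have h2 : Subgroup.upperCentralSeries H K = Subgroup.upperCentralSeries H k := hK k h1
      exact h2.symm.le
    · exact Subgroup.upperCentralSeries_mono H h1
  have hF : fittingSubgroup H ≤ Subgroup.upperCentralSeries H K := by
    rw [CfsgLib.Cores.fittingSubgroup_eq_iSup_pCore]
    refine iSup_le fun q => ?_
    obtain ⟨k, hk⟩ := h q q.2
    exact hk.trans (hK' k)
  set F := fittingSubgroup H with hFdef
  haveI : F.Normal := by rw [hFdef]; infer_instance
  have hFt : F = ⊤ := by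
    by_contra hne
    haveI : Nontrivial (H ⧸ F) := by
      rw [QuotientGroup.nontrivial_iff]; exact hne
    have hFq : fittingSubgroup (H ⧸ F) ≠ ⊥ := by
      intro h0
      have h1 := CfsgLib.Cores.centralizer_fittingSubgroup_le (G := H ⧸ F)
      rw [h0] at h1
      have h2 : (⊤ : Subgroup (H ⧸ F)) ≤ ⊥ := by
        intro x _
        apply h1
        rw [Subgroup.mem_centralizer_iff]
        intro y hy
        have hy' : y = 1 := hy
        rw [hy', one_mul, mul_one]
      exact top_ne_bot (le_bot_iff.1 h2)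
    set L := (fittingSubgroup (H ⧸ F)).comap (QuotientGroup.mk' F) with hL
    haveI : L.Normal := by rw [hL]; infer_instance
    have hFn : Group.IsNilpotent (fittingSubgroup (H ⧸ F)) := CfsgLib.Cores.fittingSubgroup_isNilpotent
    rw [Subgroup.isNilpotent_iff_lowerCentralSeries] at hFn
    obtain ⟨j, hj⟩ := hFn
    have h1 : L.lowerCentralSeries j ≤ F := by
      apply lcs_le_of_map
      rw [hL, Subgroup.map_comap_eq_self_of_surjective (QuotientGroup.mk'_surjective F)]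
      exact hj
    have h2 : ∀ i ≤ K, L.lowerCentralSeries (j + i) ≤ Subgroup.upperCentralSeries H (K - i) := by
      intro i
      induction i with
      | zero => intro _; exact h1.trans hF
      | succ i ih =>
        intro hi
        rw [← add_assoc, Subgroup.lowerCentralSeries_succ, Subgroup.commutator_le]
        intro x hx y _
        have h3 := ih (by omega) hx
        have h4 : K - i = (K - (i + 1)) + 1 := by omega
        rw [h4, Subgroup.mem_upperCentralSeries_succ_iff] at h3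
        exact h3 y
    have h3 : Group.IsNilpotent L := by
      rw [Subgroup.isNilpotent_iff_lowerCentralSeries]
      refine ⟨j + K, ?_⟩
      have h4 := h2 K le_rfl
      rw [Nat.sub_self] at h4
      exact le_bot_iff.1 (h4.trans (by rw [Subgroup.upperCentralSeries_zero]))
    have h4 : L ≤ F := CfsgLib.Cores.le_fittingSubgroup inferInstance h3
    apply hFq
    rw [eq_bot_iff]
    intro x hx
    obtain ⟨x, rfl⟩ := QuotientGroup.mk'_surjective F x
    exact (QuotientGroup.eq_one_iff _).2 (h4 hx)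
  have h1 : Group.IsNilpotent (fittingSubgroup H) := CfsgLib.Cores.fittingSubgroup_isNilpotent
  rw [← hFdef, hFt] at h1
  exact Group.isNilpotent_top.1 h1

theorem nilp_of_ic [Finite G] (hG : Group.IsSolvable G) (M : Subgroup G) [M.Normal]
    (h : ∀ q : ℕ, q.Prime → ∃ k, ic (pCore q G) M k = ⊥) : ∃ k, M.lowerCentralSeries k = ⊥ := by
  haveI := hG
  rw [← Subgroup.isNilpotent_iff_lowerCentralSeries]
  apply nilp_of_hyper inferInstance
  intro q hq
  obtain ⟨k, hk⟩ := h q hq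
  refine ⟨k, ?_⟩
  intro x hx
  apply ucs_of_ic M k _ hk
  haveI := CfsgLib.Cores.pCore_characteristic (G := M) q
  have h1 : (pCore q M).map M.subtype ≤ pCore q G :=
    CfsgLib.Cores.le_pCore inferInstance ((CfsgLib.Cores.pCore_isPGroup (G := M) q).map _)
  exact h1 ⟨x, hx, rfl⟩

end Nilp

end CfsgLib.SGL2
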