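import Cfsg.Agent.LibSGL2

set_option autoImplicit false

/-!
Gross's theorem for automorphisms of two-power order (helper4).
-/

namespace CfsgLib.SGL3

open CfsgLib.SGProp1 CfsgLib.SGLz CfsgLib.SGGrp CfsgLib.SGL1 CfsgLib.SGP2 CfsgLib.SGL2 Cfsg
open scoped commutatorElement Pointwise

universe u v

section Irr

variable {G : Type u} [Group G] [Finite G] {σ : MulAut G} {V : Subgroup G}

theorem irr_L2 {n : ℕ} (hn : 1 ≤ n) (hG : Group.IsSolvable G) (hV0 : V ≠ ⊥)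
    [hVn : V.Normal] (hVσ : ∀ x, σ x ∈ V ↔ x ∈ V)
    (hmin : ∀ U ≤ V, U.Normal → (∀ x, σ x ∈ U ↔ x ∈ U) → U = ⊥ ∨ U = V) (hσ : ∀ x, σ x = x → x = 1)
    (hσn : ∀ x, (σ ^ 2 ^ n) x = x) :
    ∃ k, (cm ((qs σ _ (cent_inv hVσ)) ^ 2 ^ (n - 1))).lowerCentralSeries k = ⊥ := by
  obtain ⟨r, hr, hexp, hab, hcore⟩ := irr1 hG hV0 hVσ hmin
  set C := Subgroup.centralizer (V : Set G) with hC
  set τ := qs σ C (cent_inv hVσ) with hτ
  have hτfp : ∀ x, τ x = x → x = 1 := qs_fpf hσ C _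
  have hτn : ∀ x, (τ ^ 2 ^ n) x = x := by
    intro x
    obtain ⟨x, rfl⟩ := QuotientGroup.mk_surjective x
    rw [hτ, qs_pow, hσn]
  have hcop : Nat.Coprime 2 (Nat.card (G ⧸ C)) := coprime_of_fpf (p := 2) hτn hτfp
  have hcopG : Nat.Coprime 2 (Nat.card G) := coprime_of_fpf (p := 2) hσn hσ
  haveI := hG
  have hsol : Group.IsSolvable (G ⧸ C) := inferInstance
  have hr2 : r ≠ 2 := by
    rintro rfl
    obtain ⟨⟨x, hx⟩, hx1⟩ := Subgroup.ne_bot_iff_exists_ne_one.1 hV0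
    have h1 : orderOf x ∣ 2 := orderOf_dvd_of_pow_eq_one (hexp x hx)
    rcases (Nat.dvd_prime hr).1 h1 with h2 | h2
    · exact hx1 (Subtype.ext (orderOf_eq_one_iff.1 h2))
    · have h3 : 2 ∣ Nat.card G := by rw [← h2]; exact orderOf_dvd_natCard _
      exact (Nat.Prime.coprime_iff_not_dvd hr).1 hcopG h3
  haveI := cm_normal (τ ^ 2 ^ (n - 1))
  have hodd : ∀ (x : G ⧸ C) (l : ℕ), x ^ 2 ^ l = 1 → x = 1 := by
    intro x l hx
    rw [← orderOf_eq_one_iff]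
    exact Nat.eq_one_of_dvd_coprimes (hcop.pow_left l) (orderOf_dvd_of_pow_eq_one hx) (orderOf_dvd_natCard x)
  apply nilp_of_ic hsol
  intro q hq
  have hQσ : ∀ x, τ x ∈ pCore q (G ⧸ C) ↔ x ∈ pCore q (G ⧸ C) := by
    apply inv_iff
    intro x hx
    exact Subgroup.characteristic_iff_map_le.1 (CfsgLib.Cores.pCore_characteristic (G := G ⧸ C) q) τ ⟨_, hx, rfl⟩
  have hQp := CfsgLib.Cores.pCore_isPGroup (G := G ⧸ C) q
  apply claim3 (p := 2) hn hq _ (G ⧸ C) le_rfl hsol τ hτfp hτn (pCore q (G ⧸ C)) inferInstance hQp hQσ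
  intro q₁ hq₁ hne B hB hBτ b hb x hx
  set ψ := τ ^ 2 ^ (n - 1) with hψ
  haveI : Fact q.Prime := ⟨hq⟩
  haveI : Fact r.Prime := ⟨hr⟩
  haveI : Fact q₁.Prime := ⟨hq₁⟩
  by_cases hqr : q = r
  · subst hqr
    rw [hcore, Subgroup.mem_bot] at hx
    rw [hx, mul_one, one_mul]
  by_cases hq2 : q = 2
  · subst hq2
    obtain ⟨l, hl⟩ := hQp ⟨x, hx⟩
    have h1 : x = 1 := hodd x l (congrArg Subtype.val hl)
    rw [h1, mul_one, one_mul]
  by_cases hq₁2 : q₁ = 2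
  · subst hq₁2
    obtain ⟨l, hl⟩ := hB ⟨b, hb⟩
    have h1 : b = 1 := hodd b l (congrArg Subtype.val hl)
    rw [h1, map_one, inv_one, one_mul, mul_one, one_mul]
  obtain ⟨H, hHc, _, hH2, hH3, hH4⟩ := CfsgLib.SolvCrit.exists_critical hq hQp
  haveI := hHc
  set HC := H.map (pCore q (G ⧸ C)).subtype with hHC
  haveI hHCn : HC.Normal := ConjAct.normal_of_characteristic_of_normal
  have hHCσ : ∀ x, τ x ∈ HC ↔ x ∈ HC := by
    apply inv_iff
    rintro _ ⟨y, hy, rfl⟩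
    refine ⟨rs τ _ hQσ y, ?_, rfl⟩
    exact Subgroup.characteristic_iff_map_le.1 hHc (rs τ _ hQσ) ⟨y, hy, rfl⟩
  obtain ⟨F, i1, i2, i3, W, i4, i5, i6, ρ, T, hinj, hTn, hT1, hTρ⟩ := irr_mod (p := 2) (n := n) hr hVσ hexp hab hσ hσn
  have h2F : (2 : F) ≠ 0 := by
    intro h
    have h' : ((2 : ℕ) : F) = 0 := by exact_mod_cast h
    rw [CharP.cast_eq_zero_iff F r] at h'
    exact hr2 ((Nat.prime_dvd_prime_iff_eq hr Nat.prime_two).1 h')
  have hqF : (q : F) ≠ 0 := by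
    intro h
    rw [CharP.cast_eq_zero_iff F r] at h
    exact hqr ((Nat.prime_dvd_prime_iff_eq hr hq).1 h).symm
  let α : B →* MulAut HC := (MulAut.conjNormal (H := HC)).comp B.subtype
  have hP : P2 q q₁ n (ρ.comp HC.subtype) (ρ.comp B.subtype) T α (rs τ HC hHCσ) (rs τ B hBτ) := by
    refine ⟨hn, fun x => hTρ _, fun b => hTρ _, ?_, ?_, hTn, ?_, ?_, hT1, (hQp.to_subgroup H).map _, hB, ?_, ?_⟩
    · intro b x
      show ρ (b : G ⧸ C) * ρ (x : G ⧸ C) = ρ ((b : G ⧸ C) * x * (b : G ⧸ C)⁻¹) * ρ b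
      rw [← map_mul, ← map_mul]
      congr 1
      group
    · intro b x
      apply Subtype.ext
      show τ (b : G ⧸ C) * τ (x : G ⧸ C) * (τ (b : G ⧸ C))⁻¹ = τ ((b : G ⧸ C) * x * (b : G ⧸ C)⁻¹)
      rw [map_mul, map_mul, map_inv]
    · intro x
      apply Subtype.ext
      rw [rs_pow, hτn]
    · intro x
      apply Subtype.ext
      rw [rs_pow, hτn]
    · rintro ⟨_, ⟨x, hx, rfl⟩⟩ ⟨_, ⟨y, hy, rfl⟩⟩
      rw [Subgroup.mem_center_iff]
      rintro ⟨_, ⟨z, hz, rfl⟩⟩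
      apply Subtype.ext
      have h1 := (hH2 (Subgroup.commutator_mem_commutator hx (Subgroup.mem_top y))).2
      have h5 : ((z * ⁅x, y⁆ : pCore q (G ⧸ C)) : G ⧸ C) = ((⁅x, y⁆ * z : pCore q (G ⧸ C)) : G ⧸ C) :=
        congrArg Subtype.val (Subgroup.mem_centralizer_iff.1 h1 z hz)
      exact h5
    · rintro ⟨_, ⟨x, hx, rfl⟩⟩
      rw [Subgroup.mem_center_iff]
      rintro ⟨_, ⟨z, hz, rfl⟩⟩
      apply Subtype.ext
      have h5 : ((z * x ^ q : pCore q (G ⧸ C)) : G ⧸ C) = ((x ^ q * z : pCore q (G ⧸ C)) : G ⧸ C) :=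
        congrArg Subtype.val (Subgroup.mem_centralizer_iff.1 (hH4 x hx).2 z hz)
      exact h5
  have hmain := prop2 h2F hqF hq2 hq₁2 (Ne.symm hne) _ B W n _ _ _ _ _ _ hP le_rfl ⟨b, hb⟩
  set b₁ := b⁻¹ * ψ b with hb₁
  have hcoe : (((⟨b, hb⟩ : B)⁻¹ * ((rs τ B hBτ) ^ 2 ^ (n - 1)) ⟨b, hb⟩ : B) : G ⧸ C) = b₁ := by
    rw [Subgroup.coe_mul, Subgroup.coe_inv, rs_pow]
  have hb₁B : b₁ ∈ B := by rw [← hcoe]; exact Subtype.prop _
  have hcommH : ∀ y ∈ HC, b₁ * y = y * b₁ := by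
    intro y hy
    have h1 := hmain ⟨y, hy⟩ (Subgroup.mem_top _)
    have h2 : ρ (((⟨b, hb⟩ : B)⁻¹ * ((rs τ B hBτ) ^ 2 ^ (n - 1)) ⟨b, hb⟩ : B) : G ⧸ C) * ρ y =
      ρ y * ρ (((⟨b, hb⟩ : B)⁻¹ * ((rs τ B hBτ) ^ 2 ^ (n - 1)) ⟨b, hb⟩ : B) : G ⧸ C) := h1
    rw [hcoe, ← map_mul, ← map_mul] at h2
    exact hinj h2
  -- conjugation by b₁ on the q-core
  set a : MulAut (pCore q (G ⧸ C)) := MulAut.conjNormal b₁ with ha
  have hao : Nat.Coprime (orderOf a) q := by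
    obtain ⟨l, hl⟩ := hB ⟨b₁, hb₁B⟩
    have h1 : b₁ ^ q₁ ^ l = 1 := congrArg Subtype.val hl
    have h2 : a ^ q₁ ^ l = 1 := by rw [ha, ← map_pow, h1, map_one]
    exact Nat.Coprime.coprime_dvd_left (orderOf_dvd_of_pow_eq_one h2) (((Nat.coprime_primes hq₁ hq).2 hne).pow_left l)
  have ha1 := CfsgLib.SolvCrit.aut_eq_one_of_fix hQp H hH3 a hao (by
    intro y hy
    apply Subtype.ext
    rw [ha, MulAut.conjNormal_apply, hcommH y ⟨y, hy, rfl⟩, mul_inv_cancel_right])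
  have h1 : ((a ⟨x, hx⟩ : pCore q (G ⧸ C)) : G ⧸ C) = x := by rw [ha1]; rfl
  rw [ha, MulAut.conjNormal_apply] at h1
  exact mul_inv_eq_iff_eq_mul.1 h1

end Irr

theorem lcs_mono {G : Type u} [Group G] {H K : Subgroup G} (h : H ≤ K) (k : ℕ) : H.lowerCentralSeries k ≤ K.lowerCentralSeries k := by
  induction k with
  | zero => exact h
  | succ k ih =>
    rw [Subgroup.lowerCentralSeries_succ, Subgroup.lowerCentralSeries_succ]
    exact Subgroup.commutator_mono ih h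

theorem L2 {n : ℕ} (hn : 1 ≤ n) : ∀ (N : ℕ) (G : Type u) [Group G] [Finite G],
    Nat.card G ≤ N → Group.IsSolvable G → ∀ σ : MulAut G, (∀ x, σ x = x → x = 1) → (∀ x, (σ ^ 2 ^ n) x = x) →
    ∃ k j, ((cm (σ ^ 2 ^ (n - 1))).lowerCentralSeries k).lowerCentralSeries j = ⊥ := by
  intro N
  induction N with
  | zero =>
    intro G _ _ hN
    exact absurd hN (not_le.2 Nat.card_pos)
  | succ N ih =>
    intro G _ _ hN hG σ hσ hσn
    rcases subsingleton_or_nontrivial G with hs | hs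
    · exact ⟨0, 0, Subsingleton.elim _ _⟩
    obtain ⟨V, hV0, hVn, hVσ, hmin⟩ := SGGrp.exists_min σ
    haveI := hVn
    haveI := hG
    have hlt : Nat.card (G ⧸ V) < Nat.card G := by
      have h6 := Subgroup.card_eq_card_quotient_mul_card_subgroup V
      have h7 : 1 < Nat.card V := Subgroup.one_lt_card_iff_ne_bot V |>.mpr hV0
      have h8 : 0 < Nat.card (G ⧸ V) := Nat.card_pos
      rw [h6]
      nlinarith
    have hψσ : ∀ x, (σ ^ 2 ^ (n - 1)) x ∈ V ↔ x ∈ V := pow_mem hVσ _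
    obtain ⟨k, j, hk⟩ := ih (G ⧸ V) (by omega) inferInstance (qs σ V hVσ) (qs_fpf hσ V hVσ) (by
      intro x
      obtain ⟨x, rfl⟩ := QuotientGroup.mk_surjective x
      rw [qs_pow, hσn])
    have hqs : (qs σ V hVσ) ^ 2 ^ (n - 1) = qs (σ ^ 2 ^ (n - 1)) V hψσ := by
      ext x
      obtain ⟨x, rfl⟩ := QuotientGroup.mk_surjective x
      rw [qs_pow, qs_mk]
    rw [hqs, ← map_cm, ← Subgroup.map_lowerCentralSeries] at hk
    have h1 := lcs_le_of_map _ _ _ hk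
    obtain ⟨k', hk'⟩ := irr_L2 hn hG hV0 hVσ hmin hσ hσn
    have hψC : ∀ x, (σ ^ 2 ^ (n - 1)) x ∈ Subgroup.centralizer (V : Set G) ↔ x ∈ Subgroup.centralizer (V : Set G) :=
      pow_mem (cent_inv hVσ) _
    have hqs' : (qs σ _ (cent_inv hVσ)) ^ 2 ^ (n - 1) = qs (σ ^ 2 ^ (n - 1)) (Subgroup.centralizer (V : Set G)) hψC := by
      ext x
      obtain ⟨x, rfl⟩ := QuotientGroup.mk_surjective x
      rw [qs_pow, qs_mk]
    rw [hqs', ← map_cm] at hk'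
    have h2 := lcs_le_of_map _ _ _ hk'
    set M := cm (σ ^ 2 ^ (n - 1)) with hM
    refine ⟨max k k', j + 1, ?_⟩
    rw [Subgroup.lowerCentralSeries_succ, eq_bot_iff]
    have h3 : (M.lowerCentralSeries (max k k')).lowerCentralSeries j ≤ V :=
      (lcs_mono (Subgroup.lowerCentralSeries_antitone M (le_max_left k k')) j).trans h1
    have h4 : M.lowerCentralSeries (max k k') ≤ Subgroup.centralizer (V : Set G) :=
      (Subgroup.lowerCentralSeries_antitone M (le_max_right k k')).trans h2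
    refine (Subgroup.commutator_mono h3 h4).trans ?_
    rw [Subgroup.commutator_le]
    intro v hv c hc
    rw [Subgroup.mem_bot, commutatorElement_eq_one_iff_mul_comm]
    exact Subgroup.mem_centralizer_iff.1 hc v hv

theorem cm_inv {G : Type u} [Group G] [Finite G] (σ : MulAut G) (k : ℕ) (x : G) : σ x ∈ cm (σ ^ k) ↔ x ∈ cm (σ ^ k) := by
  revert x
  apply inv_iff
  intro x hx
  have h1 : (cm (σ ^ k)).map σ.toMonoidHom ≤ cm (σ ^ k) := by
    rw [cm, MonoidHom.map_closure, Subgroup.closure_le]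
    rintro _ ⟨_, ⟨g, rfl⟩, rfl⟩
    have h2 : σ ((σ ^ k) g * g⁻¹) = (σ ^ k) (σ g) * (σ g)⁻¹ := by
      rw [map_mul, map_inv, ← MulAut.mul_apply, ← MulAut.mul_apply, ← pow_succ, ← pow_succ']
    show σ ((σ ^ k) g * g⁻¹) ∈ cm (σ ^ k)
    rw [h2]
    exact mem_cm _ _
  exact h1 ⟨x, hx, rfl⟩

theorem triv_mod_cm {G : Type u} [Group G] [Finite G] (σ : MulAut G) (k : ℕ) [(cm (σ ^ k)).Normal] (x : G ⧸ cm (σ ^ k)) :
    ((qs σ _ (cm_inv σ k)) ^ k) x = x := by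
  obtain ⟨x, rfl⟩ := QuotientGroup.mk_surjective x
  rw [qs_pow, QuotientGroup.eq]
  have h2 := mem_cm (σ ^ k) x⁻¹
  have h3 : (σ ^ k) x⁻¹ * x⁻¹⁻¹ = ((σ ^ k) x)⁻¹ * x := by rw [map_inv]; group
  rw [← h3]
  exact h2

theorem lcs_normal {G : Type u} [Group G] (M : Subgroup G) [M.Normal] (k : ℕ) : (M.lowerCentralSeries k).Normal := by
  induction k with
  | zero => rw [Subgroup.lowerCentralSeries_zero]; infer_instance
  | succ k ih =>
    rw [Subgroup.lowerCentralSeries_succ]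
    infer_instance

theorem lcs_inv {G : Type u} [Group G] [Finite G] {σ : MulAut G} {M : Subgroup G} (hM : ∀ x, σ x ∈ M ↔ x ∈ M) (k : ℕ) (x : G) :
    σ x ∈ M.lowerCentralSeries k ↔ x ∈ M.lowerCentralSeries k := by
  revert x
  apply inv_iff
  intro x hx
  have h1 : (M.lowerCentralSeries k).map σ.toMonoidHom ≤ M.lowerCentralSeries k := by
    rw [Subgroup.map_lowerCentralSeries]
    apply lcs_mono
    rintro _ ⟨y, hy, rfl⟩
    exact (hM y).2 hy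
  exact h1 ⟨x, hx, rfl⟩

theorem gross : ∀ (n : ℕ), 2 ≤ n → ∀ (G : Type u) [Group G] [Finite G], Group.IsSolvable G →
    ∀ σ : MulAut G, (∀ x, σ x = x → x = 1) → (∀ x, (σ ^ 2 ^ n) x = x) → Chain G (2 * n - 2) := by
  intro n hn
  induction n, hn using Nat.le_induction with
  | base =>
    intro G _ _ hG σ hσ hσn
    haveI := hG
    obtain ⟨k, hk⟩ := L1 (p := 2) (n := 2) (by omega) (Or.inr le_rfl) (Nat.card G) G le_rfl hG σ hσ hσn
    haveI := cm_normal (σ ^ 2 ^ (2 - 1))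
    show Chain G (1 + 1)
    apply Chain.cons (cm (σ ^ 2 ^ (2 - 1))) ⟨k, hk⟩
    set N := cm (σ ^ 2 ^ (2 - 1)) with hN
    have h1 := triv_mod_cm σ (2 ^ (2 - 1))
    obtain ⟨k', hk'⟩ := L1 (p := 2) (n := 1) le_rfl (Or.inr (by omega)) (Nat.card (G ⧸ N)) (G ⧸ N) le_rfl inferInstance (qs σ N (cm_inv σ _)) (qs_fpf hσ _ _)
      (fun x => h1 x)
    haveI := cm_normal ((qs σ N (cm_inv σ _)) ^ 2 ^ (1 - 1))
    apply Chain.cons (m := 0) _ ⟨k', hk'⟩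
    have h2 := triv_mod_cm (qs σ N (cm_inv σ _)) (2 ^ (1 - 1))
    have h3 := qs_fpf (qs_fpf hσ N (cm_inv σ _)) _ (cm_inv (qs σ N (cm_inv σ _)) (2 ^ (1 - 1)))
    refine ⟨fun _ => ⊥, rfl, ?_, fun _ _ _ => le_rfl, fun _ => inferInstance, fun i => i.elim0⟩
    rw [eq_comm, Subgroup.eq_bot_iff_forall]
    intro x _
    apply h3
    have h4 := h2 x
    have h5 : ∀ f : MulAut ((G ⧸ N) ⧸ cm ((qs σ N (cm_inv σ _)) ^ 2 ^ (1 - 1))), (f ^ 2 ^ (1 - 1)) x = f x := by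
      intro f
      have h6 : f ^ 2 ^ (1 - 1) = f := pow_one f
      exact congrArg (fun g : MulAut ((G ⧸ N) ⧸ cm ((qs σ N (cm_inv σ _)) ^ 2 ^ (1 - 1))) => g x) h6
    exact (h5 _).symm.trans h4
  | succ n hn ih =>
    intro G _ _ hG σ hσ hσn
    haveI := hG
    obtain ⟨k, j, hkj⟩ := L2 (n := n + 1) (by omega) (Nat.card G) G le_rfl hG σ hσ hσn
    rw [Nat.add_sub_cancel] at hkj
    haveI := cm_normal (σ ^ 2 ^ n)
    haveI : ((cm (σ ^ 2 ^ n)).lowerCentralSeries k).Normal := lcs_normal _ k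
    have he : 2 * (n + 1) - 2 = (2 * n - 2) + 1 + 1 := by omega
    rw [he]
    have hLinv := lcs_inv (cm_inv σ (2 ^ n)) k
    set L := (cm (σ ^ 2 ^ n)).lowerCentralSeries k with hL
    apply Chain.cons L ⟨j, hkj⟩
    set σ₁ := qs σ L hLinv with hσ₁
    have hσ₁f : ∀ x, σ₁ x = x → x = 1 := qs_fpf hσ _ _
    haveI := cm_normal (σ₁ ^ 2 ^ n)
    have hψL : ∀ x, (σ ^ 2 ^ n) x ∈ L ↔ x ∈ L := pow_mem hLinv _
    have hqs : σ₁ ^ 2 ^ n = qs (σ ^ 2 ^ n) L hψL := by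
      ext x
      obtain ⟨x, rfl⟩ := QuotientGroup.mk_surjective x
      rw [hσ₁, qs_pow, qs_mk]
    apply Chain.cons (cm (σ₁ ^ 2 ^ n)) ⟨k, by
      rw [hqs, ← map_cm, ← Subgroup.map_lowerCentralSeries, ← hL, Subgroup.map_eq_bot_iff, QuotientGroup.ker_mk']⟩
    exact ih _ inferInstance (qs σ₁ _ (cm_inv σ₁ _)) (qs_fpf hσ₁f _ _) (triv_mod_cm σ₁ _)

end CfsgLib.SGL3
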