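import Cfsg.Agent.LibSGProp1
import Cfsg.Agent.LibHHB

set_option autoImplicit false

/-!
Linearization of group actions on elementary abelian groups (helper4).
-/

namespace CfsgLib.SGLz

open Module CfsgLib.SGLin
open scoped TensorProduct

universe u v

/-- number of eigenvalues bounded by the rank of `T - 1` -/
theorem eig_rank {F : Type*} [Field F] {V : Type*} [AddCommGroup V] [Module F V] [FiniteDimensional F V] (T : End F V) :
    (eig T).ncard ≤ 1 + finrank F (LinearMap.range (T - 1)) := by
  classical
  set R := LinearMap.range (T - 1) with hR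
  have hTR : ∀ v ∈ R, T v ∈ R := by
    rintro v ⟨w, rfl⟩
    refine ⟨T w, ?_⟩
    simp
  have hsub : eig T ⊆ insert 1 (eig (T.restrict hTR)) := by
    intro μ hμ
    obtain ⟨v, hv0, hv⟩ := mem_eig.1 hμ
    by_cases h1 : μ = 1
    · exact Or.inl h1
    · right
      have hvR : v ∈ R := by
        refine ⟨(μ - 1)⁻¹ • v, ?_⟩
        rw [LinearMap.sub_apply, map_smul, Module.End.one_apply, hv]
        have h2 : (μ - 1)⁻¹ • μ • v - (μ - 1)⁻¹ • v = ((μ - 1)⁻¹ * (μ - 1)) • v := by
          rw [smul_smul, ← sub_smul, mul_sub, mul_one]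
        rw [h2, inv_mul_cancel₀ (sub_ne_zero.2 h1), one_smul]
      exact mem_eig.2 ⟨⟨v, hvR⟩, fun h => hv0 (congrArg Subtype.val h), Subtype.ext hv⟩
  calc (eig T).ncard ≤ (insert 1 (eig (T.restrict hTR))).ncard := Set.ncard_le_ncard hsub ((eig_finite _).insert 1)
    _ ≤ (eig (T.restrict hTR)).ncard + 1 := Set.ncard_insert_le _ _
    _ ≤ finrank F R + 1 := Nat.add_le_add_right (eig_card_le _) 1
    _ = _ := add_comm _ _

theorem linearize {r : ℕ} [hr : Fact r.Prime] {V : Type v} [CommGroup V] [Finite V] (hV : ∀ x : V, x ^ r = 1) :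
    ∃ (F : Type) (_ : Field F) (_ : IsAlgClosed F) (_ : CharP F r) (W : Type v) (_ : AddCommGroup W) (_ : Module F W)
      (_ : FiniteDimensional F W) (ρ : MulAut V →* End F W), Function.Injective ρ ∧
      (∀ t : MulAut V, (∀ v, t v = v → v = 1) → ∀ w, ρ t w = w → w = 0) ∧
      (∀ (t : MulAut V) (k : ℕ), Nat.card (Set.range fun v => t v * v⁻¹) = r ^ k → finrank F (LinearMap.range (ρ t - 1)) ≤ k) := by
  classical
  obtain ⟨m⟩ : Nonempty (Module (ZMod r) (Additive V)) := ⟨AddCommGroup.zmodModule (n := r) (fun x => by
    exact congrArg Additive.ofMul (hV x.toMul))⟩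
  haveI : Finite (Additive V) := inferInstanceAs (Finite V)
  haveI : Module.Finite (ZMod r) (Additive V) := Module.Finite.of_finite
  let F := AlgebraicClosure (ZMod r)
  haveI : CharP F r := charP_of_injective_algebraMap (algebraMap (ZMod r) F).injective r
  let g₀ : MulAut V → (Additive V →+ Additive V) := fun t =>
    { toFun := fun v => Additive.ofMul (t v.toMul)
      map_zero' := map_one t
      map_add' := fun a b => map_mul t a.toMul b.toMul }
  let ρ₀ : MulAut V →* End (ZMod r) (Additive V) :=
    { toFun := fun t => (g₀ t).toZModLinearMap r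
      map_one' := by
        refine LinearMap.ext fun v => ?_
        rw [Module.End.one_apply]
        show Additive.ofMul ((1 : MulAut V) v.toMul) = v
        rw [MulAut.one_apply]; rfl
      map_mul' := by
        intro s t
        refine LinearMap.ext fun v => ?_
        show Additive.ofMul ((s * t) v.toMul) = Additive.ofMul (s (t v.toMul))
        rw [MulAut.mul_apply] }
  have hρ₀ : ∀ t v, ρ₀ t (Additive.ofMul v) = Additive.ofMul (t v) := fun t v => rfl
  let β := Module.End.baseChangeHom (ZMod r) F (Additive V)
  let ρ : MulAut V →* End F (F ⊗[ZMod r] Additive V) := (β : End (ZMod r) (Additive V) →* _).comp ρ₀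
  have hρ : ∀ t, ρ t = β (ρ₀ t) := fun t => rfl
  have hsub1 : ∀ t, ρ t - 1 = β (ρ₀ t - 1) := by
    intro t
    rw [hρ]
    show (ρ₀ t).baseChange F - 1 = (ρ₀ t - 1).baseChange F
    rw [LinearMap.baseChange_sub, LinearMap.baseChange_one]
  refine ⟨F, inferInstance, inferInstance, inferInstance, F ⊗[ZMod r] Additive V, inferInstance, inferInstance, inferInstance,
    ρ, ?_, ?_, ?_⟩
  · intro s t hst
    have h1 : ρ₀ s = ρ₀ t := CfsgLib.HHB.baseChange_inj F _ _ hst
    ext v
    have h2 := congrArg (fun f : End (ZMod r) (Additive V) => f (Additive.ofMul v)) h1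
    exact Additive.ofMul.injective h2
  · intro t ht w hw
    have h1 : Function.Injective (ρ₀ t - 1 : End (ZMod r) (Additive V)) := by
      rw [injective_iff_map_eq_zero]
      intro v hv
      rw [LinearMap.sub_apply, Module.End.one_apply, sub_eq_zero] at hv
      have h2 := ht v.toMul (by exact congrArg Additive.toMul hv)
      exact congrArg Additive.ofMul h2
    have h2 : IsUnit (ρ₀ t - 1 : End (ZMod r) (Additive V)) := by
      rw [Module.End.isUnit_iff]
      exact ⟨h1, LinearMap.injective_iff_surjective.1 h1⟩
    have h3 : IsUnit (ρ t - 1) := by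
      rw [hsub1]
      exact h2.map β
    have h4 := ((Module.End.isUnit_iff _).1 h3).1
    rw [injective_iff_map_eq_zero] at h4
    apply h4
    rw [LinearMap.sub_apply, Module.End.one_apply, hw, sub_self]
  · intro t k hk
    set f := ρ₀ t - 1 with hf
    have h1 : finrank (ZMod r) (LinearMap.range f) = k := by
      haveI : Fintype (LinearMap.range f) := Fintype.ofFinite _
      have h2 := Module.card_eq_pow_finrank (K := ZMod r) (V := LinearMap.range f)
      rw [ZMod.card, ← Nat.card_eq_fintype_card] at h2
      have h3 : Nat.card (LinearMap.range f) = Nat.card (Set.range fun v => t v * v⁻¹) := by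
        apply Nat.card_congr
        refine ⟨fun x => ⟨(x : Additive V).toMul, ?_⟩, fun x => ⟨Additive.ofMul (x : V), ?_⟩, fun x => rfl, fun x => rfl⟩
        · obtain ⟨y, hy⟩ := x.2
          refine ⟨y.toMul, ?_⟩
          rw [← hy, hf]
          show t y.toMul * y.toMul⁻¹ = (ρ₀ t y - y).toMul
          rw [← div_eq_mul_inv]
          rfl
        · obtain ⟨y, hy⟩ := x.2
          refine ⟨Additive.ofMul y, ?_⟩
          rw [← hy, hf]
          show ρ₀ t (Additive.ofMul y) - Additive.ofMul y = _
          rw [hρ₀, ← ofMul_div, div_eq_mul_inv]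
      rw [h3, hk] at h2
      exact (Nat.pow_right_injective hr.out.two_le h2).symm
    rw [hsub1, ← h1]
    have h2 : β f = ((LinearMap.range f).subtype.baseChange F) ∘ₗ (f.rangeRestrict.baseChange F) := by
      show f.baseChange F = _
      rw [← LinearMap.baseChange_comp]
      rfl
    rw [h2]
    calc finrank F (LinearMap.range (((LinearMap.range f).subtype.baseChange F) ∘ₗ (f.rangeRestrict.baseChange F)))
        ≤ finrank F (LinearMap.range ((LinearMap.range f).subtype.baseChange F)) :=
          Submodule.finrank_mono (LinearMap.range_comp_le_range _ _)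
      _ ≤ finrank F (F ⊗[ZMod r] LinearMap.range f) := LinearMap.finrank_range_le _
      _ = _ := Module.finrank_baseChange

end CfsgLib.SGLz
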