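import Cfsg.Agent.LibSGLz

set_option autoImplicit false

/-!
Linearization of group actions on elementary abelian groups: kernel dimensions (helper4).
-/

namespace CfsgLib.SGLz2

open Module CfsgLib.SGLin
open scoped TensorProduct

universe u v

theorem ker_baseChange {K : Type*} [Field K] {V : Type*} [AddCommGroup V] [Module K V] [FiniteDimensional K V] (F : Type*) [Field F]
    [Algebra K F] (f : End K V) : finrank F (LinearMap.ker (f.baseChange F)) = finrank K (LinearMap.ker f) := by
  have h2 : f.baseChange F = ((LinearMap.range f).subtype.baseChange F) ∘ₗ (f.rangeRestrict.baseChange F) := by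
    rw [← LinearMap.baseChange_comp]
    rfl
  have hs : Function.Surjective (f.rangeRestrict.baseChange F) :=
    LinearMap.lTensor_surjective F f.surjective_rangeRestrict
  have hi : Function.Injective ((LinearMap.range f).subtype.baseChange F) :=
    Module.Flat.lTensor_preserves_injective_linearMap (M := F) _ (Submodule.injective_subtype _)
  have h3 : finrank F (LinearMap.range (f.baseChange F)) = finrank K (LinearMap.range f) := by
    rw [h2, LinearMap.range_comp_of_range_eq_top _ (LinearMap.range_eq_top.2 hs), LinearMap.finrank_range_of_inj hi,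
      Module.finrank_baseChange]
  have h4 := LinearMap.finrank_range_add_finrank_ker (f.baseChange F)
  have h5 := LinearMap.finrank_range_add_finrank_ker f
  rw [Module.finrank_baseChange, h3] at h4
  omega

theorem linearize2 {r : ℕ} [hr : Fact r.Prime] {V : Type v} [CommGroup V] [Finite V] (hV : ∀ x : V, x ^ r = 1) :
    ∃ (F : Type) (_ : Field F) (_ : IsAlgClosed F) (_ : CharP F r) (W : Type v) (_ : AddCommGroup W) (_ : Module F W)
      (_ : FiniteDimensional F W) (ρ : MulAut V →* End F W), Function.Injective ρ ∧ Nat.card V = r ^ finrank F W ∧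
      (∀ (t : MulAut V) (k : ℕ), Nat.card {v // t v = v} = r ^ k → finrank F (LinearMap.ker (ρ t - 1)) = k) := by
  classical
  obtain ⟨m⟩ : Nonempty (Module (ZMod r) (Additive V)) := ⟨AddCommGroup.zmodModule (n := r) (fun x => by
    exact congrArg Additive.ofMul (hV x.toMul))⟩
  haveI : Finite (Additive V) := inferInstanceAs (Finite V)
  haveI : Module.Finite (ZMod r) (Additive V) := Module.Finite.of_finite
  let F := AlgebraicClosure (ZMod r)
  haveI : CharP F r := charP_of_injective_algebraMap (algebraMap (ZMod r) F).injective r
  let g₀ : MulAut V → (Additive V →+ Additive V) := fun t =>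
    { toFun := fun v => Additive.ofMul (t v.toMul)
      map_zero' := map_one t
      map_add' := fun a b => map_mul t a.toMul b.toMul }
  let ρ₀ : MulAut V →* End (ZMod r) (Additive V) :=
    { toFun := fun t => (g₀ t).toZModLinearMap r
      map_one' := by
        refine LinearMap.ext fun v => ?_
        rw [Module.End.one_apply]
        show Additive.ofMul ((1 : MulAut V) v.toMul) = v
        rw [MulAut.one_apply]; rfl
      map_mul' := by
        intro s t
        refine LinearMap.ext fun v => ?_
        show Additive.ofMul ((s * t) v.toMul) = Additive.ofMul (s (t v.toMul))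
        rw [MulAut.mul_apply] }
  have hρ₀ : ∀ t v, ρ₀ t (Additive.ofMul v) = Additive.ofMul (t v) := fun t v => rfl
  let β := Module.End.baseChangeHom (ZMod r) F (Additive V)
  let ρ : MulAut V →* End F (F ⊗[ZMod r] Additive V) := (β : End (ZMod r) (Additive V) →* _).comp ρ₀
  have hρ : ∀ t, ρ t = β (ρ₀ t) := fun t => rfl
  have hsub1 : ∀ t, ρ t - 1 = (ρ₀ t - 1).baseChange F := by
    intro t
    rw [hρ]
    show (ρ₀ t).baseChange F - 1 = (ρ₀ t - 1).baseChange F
    rw [LinearMap.baseChange_sub, LinearMap.baseChange_one]
  refine ⟨F, inferInstance, inferInstance, inferInstance, F ⊗[ZMod r] Additive V, inferInstance, inferInstance, inferInstance,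
    ρ, ?_, ?_, ?_⟩
  · intro s t hst
    have h1 : ρ₀ s = ρ₀ t := CfsgLib.HHB.baseChange_inj F _ _ hst
    ext v
    have h2 := congrArg (fun f : End (ZMod r) (Additive V) => f (Additive.ofMul v)) h1
    exact Additive.ofMul.injective h2
  · haveI : Fintype (Additive V) := Fintype.ofFinite _
    have h2 := Module.card_eq_pow_finrank (K := ZMod r) (V := Additive V)
    rw [ZMod.card, ← Nat.card_eq_fintype_card] at h2
    rw [Module.finrank_baseChange, ← h2]
    rfl
  · intro t k hk
    rw [hsub1, ker_baseChange]
    haveI : Fintype (LinearMap.ker (ρ₀ t - 1)) := Fintype.ofFinite _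
    have h2 := Module.card_eq_pow_finrank (K := ZMod r) (V := LinearMap.ker (ρ₀ t - 1))
    rw [ZMod.card, ← Nat.card_eq_fintype_card] at h2
    have h3 : Nat.card (LinearMap.ker (ρ₀ t - 1)) = Nat.card {v // t v = v} := by
      apply Nat.card_congr
      refine ⟨fun x => ⟨(x : Additive V).toMul, ?_⟩, fun x => ⟨Additive.ofMul (x : V), ?_⟩, fun x => rfl, fun x => rfl⟩
      · have h4 := x.2
        rw [LinearMap.mem_ker, LinearMap.sub_apply, Module.End.one_apply, sub_eq_zero] at h4
        exact congrArg Additive.toMul h4
      · rw [LinearMap.mem_ker, LinearMap.sub_apply, Module.End.one_apply, sub_eq_zero]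
        exact congrArg Additive.ofMul x.2
    rw [h3, hk] at h2
    exact (Nat.pow_right_injective hr.out.two_le h2).symm

end CfsgLib.SGLz2
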