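import Cfsg.Agent.LibSGExt2
import Cfsg.Agent.LibHHBRed

set_option autoImplicit false

/-!
Eigenvalue version of the Hall-Higman theorem B in characteristic different from `p`:
the group-theoretic reduction (helper4).
-/

namespace CfsgLib.SGMain

open Module CfsgLib.HHBExt CfsgLib.SGLin CfsgLib.SGExt
open CfsgLib.HHBMain (Concl wt_indep)
open scoped commutatorElement

universe u v

/-- the configuration -/
structure Cfg {F : Type*} [Field F] (p q : ℕ) {Q : Type*} [Group Q] {W : Type*} [AddCommGroup W] [Module F W]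
    (ρ : Q →* End F W) (σ : MulAut Q) (T : End F W) (n : ℕ) : Prop where
  hn : 1 ≤ n
  hT : ∀ x, T * ρ x = ρ (σ x) * T
  hTn : T ^ p ^ n = 1
  hq : IsPGroup q Q
  hnt : ∃ x, ρ ((σ ^ p ^ (n - 1)) x) ≠ ρ x

section Basic

variable {F : Type*} [Field F] {p q : ℕ} {Q : Type*} [Group Q] {W : Type*} [AddCommGroup W] [Module F W]
    {ρ : Q →* End F W} {σ : MulAut Q} {T : End F W} {n : ℕ}

theorem Cfg.hTk (h : Cfg p q ρ σ T n) (k : ℕ) (x : Q) : T ^ k * ρ x = ρ ((σ ^ k) x) * T ^ k := by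
  induction k with
  | zero => simp
  | succ k ih => rw [pow_succ', mul_assoc, ih, ← mul_assoc, h.hT, mul_assoc, pow_succ', MulAut.mul_apply]

theorem Cfg.hper (h : Cfg p q ρ σ T n) (x : Q) : ρ ((σ ^ p ^ n) x) = ρ x := by
  have := h.hTk (p ^ n) x
  rw [h.hTn, one_mul, mul_one] at this
  exact this.symm

/-- inverse of T -/
theorem Cfg.inv (h : Cfg p q ρ σ T n) (hp : p.Prime) : ∃ T' : End F W, T * T' = 1 ∧ T' * T = 1 := by
  have h1 : 1 ≤ p ^ n := Nat.one_le_iff_ne_zero.2 (pow_ne_zero _ hp.ne_zero)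
  refine ⟨T ^ (p ^ n - 1), ?_, ?_⟩
  · rw [← pow_succ', Nat.sub_add_cancel h1, h.hTn]
  · rw [← pow_succ, Nat.sub_add_cancel h1, h.hTn]

theorem Cfg.congr (h : Cfg p q ρ σ T n) (hp : p.Prime) {x y : Q} (hxy : ρ x = ρ y) (k : ℕ) :
    ρ ((σ ^ k) x) = ρ ((σ ^ k) y) := by
  obtain ⟨T', h1, h2⟩ := h.inv hp
  have h3 : ∀ k, T ^ k * T' ^ k = 1 := by
    intro k
    induction k with
    | zero => simp
    | succ k ih => rw [pow_succ, pow_succ', mul_assoc, ← mul_assoc T, h1, one_mul, ih]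
  have e1 := congrArg (fun f => f * T' ^ k) (h.hTk k x)
  have e2 := congrArg (fun f => f * T' ^ k) (h.hTk k y)
  simp only [mul_assoc, h3, mul_one] at e1 e2
  rw [← e1, ← e2, hxy]

/-- the preimage of the centre -/
def cen (ρ : Q →* End F W) : Subgroup Q where
  carrier := {x | ∀ y, Commute (ρ x) (ρ y)}
  mul_mem' := by
    intro a b ha hb y
    rw [map_mul]
    exact (ha y).mul_left (hb y)
  one_mem' := by
    intro y
    rw [map_one]
    exact Commute.one_left _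
  inv_mem' := by
    intro x hx y
    have h1 : ρ x * ρ x⁻¹ = 1 := by rw [← map_mul, mul_inv_cancel, map_one]
    have h2 : ρ x⁻¹ * ρ x = 1 := by rw [← map_mul, inv_mul_cancel, map_one]
    show ρ x⁻¹ * ρ y = ρ y * ρ x⁻¹
    calc ρ x⁻¹ * ρ y = ρ x⁻¹ * (ρ y * ρ x) * ρ x⁻¹ := by rw [mul_assoc, mul_assoc, h1, mul_one]
      _ = ρ x⁻¹ * (ρ x * ρ y) * ρ x⁻¹ := by rw [(hx y).eq]
      _ = _ := by rw [← mul_assoc, h2, one_mul]

theorem mem_cen {x : Q} : x ∈ cen ρ ↔ ∀ y, Commute (ρ x) (ρ y) := Iff.rfl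

theorem mem_cen' {x : Q} : x ∈ cen ρ ↔ ∀ y, ρ (x * y) = ρ (y * x) := by
  rw [mem_cen]
  refine forall_congr' fun y => ?_
  rw [map_mul, map_mul]; rfl

theorem cen_congr {x y : Q} (h : ρ x = ρ y) (hx : x ∈ cen ρ) : y ∈ cen ρ := by
  intro z
  rw [← h]; exact hx z

instance cen_normal : (cen ρ).Normal := ⟨by
  intro x hx y
  have h1 : ρ y * ρ y⁻¹ = 1 := by rw [← map_mul, mul_inv_cancel, map_one]
  refine cen_congr (x := x) ?_ hx
  rw [map_mul, map_mul, ← (hx y).eq, mul_assoc, h1, mul_one]⟩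

theorem Cfg.cen_sigma (h : Cfg p q ρ σ T n) (hp : p.Prime) (x : Q) : σ x ∈ cen ρ ↔ x ∈ cen ρ := by
  obtain ⟨T', h1, h2⟩ := h.inv hp
  have h3 : ∀ x, ρ (σ x) = T * ρ x * T' := by
    intro x
    rw [h.hT, mul_assoc, h1, mul_one]
  have h4 : ∀ x, ρ x = T' * ρ (σ x) * T := by
    intro x
    rw [mul_assoc, ← h.hT, ← mul_assoc, h2, one_mul]
  constructor
  · intro hx y
    have := hx (σ y)
    rw [h4 x, h4 y]
    show T' * ρ (σ x) * T * (T' * ρ (σ y) * T) = T' * ρ (σ y) * T * (T' * ρ (σ x) * T)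
    calc T' * ρ (σ x) * T * (T' * ρ (σ y) * T) = T' * (ρ (σ x) * (T * T') * ρ (σ y)) * T := by simp only [mul_assoc]
      _ = T' * (ρ (σ y) * (T * T') * ρ (σ x)) * T := by rw [h1, mul_one, mul_one, this.eq]
      _ = _ := by simp only [mul_assoc]
  · intro hx y
    have := hx (σ⁻¹ y)
    have h5 : ρ y = T * ρ (σ⁻¹ y) * T' := by rw [← h3, MulAut.apply_inv_self]
    rw [h3 x, h5]
    show T * ρ x * T' * (T * ρ (σ⁻¹ y) * T') = T * ρ (σ⁻¹ y) * T' * (T * ρ x * T')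
    calc T * ρ x * T' * (T * ρ (σ⁻¹ y) * T') = T * (ρ x * (T' * T) * ρ (σ⁻¹ y)) * T' := by simp only [mul_assoc]
      _ = T * (ρ (σ⁻¹ y) * (T' * T) * ρ x) * T' := by rw [h2, mul_one, mul_one, this.eq]
      _ = _ := by simp only [mul_assoc]

/-- the coprime telescoping argument -/
theorem Cfg.telescope (h : Cfg p q ρ σ T n) (hp : p.Prime) (hqp : p.Coprime q)
    (hz : ∀ y, ρ ((σ ^ p ^ (n - 1)) (y⁻¹ * (σ ^ p ^ (n - 1)) y)) = ρ (y⁻¹ * (σ ^ p ^ (n - 1)) y)) : False := by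
  obtain ⟨y, hy⟩ := h.hnt
  apply hy
  set s := σ ^ p ^ (n - 1) with hs
  have hsc : ∀ {a b : Q}, ρ a = ρ b → ρ (s a) = ρ (s b) := fun hab => h.congr hp hab _
  set z := y⁻¹ * s y with hzdef
  have h1 : ∀ i : ℕ, ρ ((s ^ i) y) = ρ (y * z ^ i) := by
    intro i
    induction i with
    | zero => simp
    | succ i ih =>
      have h2 : ρ (s y) = ρ (y * z) := by rw [hzdef, mul_inv_cancel_left]
      have h3 : ρ (s z) = ρ z := hz y
      have h4 : ρ (s (y * z ^ i)) = ρ (y * z ^ (i + 1)) := by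
        rw [map_mul s, map_pow s, map_mul ρ (s y) (s z ^ i), map_pow ρ, h3, h2, map_mul ρ y z, map_mul ρ y (z ^ (i + 1)),
          map_pow ρ, pow_succ', mul_assoc]
      rw [pow_succ', MulAut.mul_apply, hsc ih, h4]
  have h2 : s ^ p = σ ^ p ^ n := by
    rw [hs, ← pow_mul, ← pow_succ, Nat.sub_add_cancel h.hn]
  have h3 := h1 p
  rw [h2, h.hper, map_mul] at h3
  have h4 : ρ (z ^ p) = 1 := by
    have h5 := congrArg (fun f => ρ y⁻¹ * f) h3
    simp only [← mul_assoc, ← map_mul, inv_mul_cancel, map_one, one_mul] at h5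
    exact h5.symm
  obtain ⟨l, hl⟩ := h.hq z
  have h5 : (ρ z) ^ p = 1 := by rw [← map_pow]; exact h4
  have h6 : (ρ z) ^ q ^ l = 1 := by rw [← map_pow, hl, map_one]
  have h7 : orderOf (ρ z) = 1 :=
    Nat.eq_one_of_dvd_coprimes (hqp.pow_right l) (orderOf_dvd_of_pow_eq_one h5) (orderOf_dvd_of_pow_eq_one h6)
  rw [orderOf_eq_one_iff] at h7
  have h8 : s y = y * z := by rw [hzdef, mul_inv_cancel_left]
  rw [h8, map_mul, h7, mul_one]

/-- step 4 -/
theorem Cfg.step4 [IsAlgClosed F] [hpf : Fact p.Prime] [hqf : Fact q.Prime] [Finite Q] [FiniteDimensional F W]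
    (h : Cfg p q ρ σ T n) (hpF : (p : F) ≠ 0) (hqF : (q : F) ≠ 0) (hqp : p.Coprime q)
    (hstar : ∀ Q₀ : Subgroup Q, (∀ x, σ x ∈ Q₀ ↔ x ∈ Q₀) → Q₀ ≠ ⊤ → ∀ x ∈ Q₀, ρ ((σ ^ p ^ (n - 1)) x) = ρ x)
    (hsc : ∀ a ∈ cen ρ, ∃ c : F, ρ a = c • (1 : End F W)) :
    cen ρ ≠ ⊤ ∧ ∃ D, D ^ 2 = Nat.card (Q ⧸ cen ρ) ∧ (p ^ n ≤ (eig T).ncard ∨ (p ^ n - 1 ≤ (eig T).ncard ∧ D = p ^ n - 1 ∧
      ∃ S : Submodule F W, S ≠ ⊥ ∧ ∀ g : End F W, (∀ x, g * ρ x = ρ x * g) → ∀ s ∈ S, T (g s) = g (T s))) := by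
  classical
  have hp := hpf.out
  set s := σ ^ p ^ (n - 1) with hs
  have hsz : ∀ {a b : Q}, ρ a = ρ b → ρ (s a) = ρ (s b) := fun hab => h.congr hp hab _
  haveI : Nontrivial W := by
    by_contra hcon
    rw [not_nontrivial_iff_subsingleton] at hcon
    obtain ⟨x, hx⟩ := h.hnt
    apply hx
    ext v
    exact Subsingleton.elim _ _
  haveI : Nontrivial Q := by
    by_contra hcon
    rw [not_nontrivial_iff_subsingleton] at hcon
    obtain ⟨x, hx⟩ := h.hnt
    exact hx (by rw [Subsingleton.elim ((σ ^ p ^ (n - 1)) x) x])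
  -- invariant normal proper subgroups are central
  have hcent : ∀ Q₀ : Subgroup Q, (∀ x, σ x ∈ Q₀ ↔ x ∈ Q₀) → Q₀.Normal → Q₀ ≠ ⊤ → Q₀ ≤ cen ρ := by
    intro Q₀ hinv hnorm hne
    let D : Subgroup Q :=
      { carrier := {z | ∀ x ∈ Q₀, Commute (ρ z) (ρ x)}
        mul_mem' := by
          intro a b ha hb x hx
          rw [map_mul]
          exact (ha x hx).mul_left (hb x hx)
        one_mem' := by
          intro x hx
          rw [map_one]
          exact Commute.one_left _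
        inv_mem' := by
          intro z hz x hx
          have h1 : ρ z * ρ z⁻¹ = 1 := by rw [← map_mul, mul_inv_cancel, map_one]
          have h2 : ρ z⁻¹ * ρ z = 1 := by rw [← map_mul, inv_mul_cancel, map_one]
          show ρ z⁻¹ * ρ x = ρ x * ρ z⁻¹
          calc ρ z⁻¹ * ρ x = ρ z⁻¹ * (ρ x * ρ z) * ρ z⁻¹ := by rw [mul_assoc, mul_assoc, h1, mul_one]
            _ = ρ z⁻¹ * (ρ z * ρ x) * ρ z⁻¹ := by rw [(hz x hx).eq]
            _ = _ := by rw [← mul_assoc, h2, one_mul] }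
    have hDm : ∀ z, z ∈ D ↔ ∀ x ∈ Q₀, Commute (ρ z) (ρ x) := fun z => Iff.rfl
    have hDσ : ∀ z, σ z ∈ D ↔ z ∈ D := by
      obtain ⟨T', h1, h2⟩ := h.inv hp
      have h3 : ∀ x, ρ (σ x) = T * ρ x * T' := by
        intro x
        rw [h.hT, mul_assoc, h1, mul_one]
      have h4 : ∀ x, ρ x = T' * ρ (σ x) * T := by
        intro x
        rw [mul_assoc, ← h.hT, ← mul_assoc, h2, one_mul]
      intro z
      constructor
      · intro hz x hx
        have := hz (σ x) ((hinv x).2 hx)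
        rw [h4 z, h4 x]
        show T' * ρ (σ z) * T * (T' * ρ (σ x) * T) = T' * ρ (σ x) * T * (T' * ρ (σ z) * T)
        calc T' * ρ (σ z) * T * (T' * ρ (σ x) * T) = T' * (ρ (σ z) * (T * T') * ρ (σ x)) * T := by simp only [mul_assoc]
          _ = T' * (ρ (σ x) * (T * T') * ρ (σ z)) * T := by rw [h1, mul_one, mul_one, this.eq]
          _ = _ := by simp only [mul_assoc]
      · intro hz x hx
        have hx' : σ⁻¹ x ∈ Q₀ := (hinv _).1 (by rw [MulAut.apply_inv_self]; exact hx)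
        have := hz (σ⁻¹ x) hx'
        have h5 : ρ x = T * ρ (σ⁻¹ x) * T' := by rw [← h3, MulAut.apply_inv_self]
        rw [h3 z, h5]
        show T * ρ z * T' * (T * ρ (σ⁻¹ x) * T') = T * ρ (σ⁻¹ x) * T' * (T * ρ z * T')
        calc T * ρ z * T' * (T * ρ (σ⁻¹ x) * T') = T * (ρ z * (T' * T) * ρ (σ⁻¹ x)) * T' := by simp only [mul_assoc]
          _ = T * (ρ (σ⁻¹ x) * (T' * T) * ρ z) * T' := by rw [h2, mul_one, mul_one, this.eq]
          _ = _ := by simp only [mul_assoc]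
    have hDs : ∀ y, y⁻¹ * s y ∈ D := by
      intro y x hx
      have h1 : ρ (s (y * x * y⁻¹)) = ρ (y * x * y⁻¹) := hstar Q₀ hinv hne _ (hnorm.conj_mem x hx y)
      have h2 : ρ (s x) = ρ x := hstar Q₀ hinv hne _ hx
      rw [map_mul, map_mul, map_mul, map_mul, h2] at h1
      have h3 : ρ (s y) * ρ x * ρ (s y⁻¹) = ρ (y * x * y⁻¹) := h1
      show ρ (y⁻¹ * s y) * ρ x = ρ x * ρ (y⁻¹ * s y)
      have h4 : ρ y⁻¹ * (ρ (s y) * ρ x * ρ (s y⁻¹)) * ρ (s y) = ρ y⁻¹ * ρ (y * x * y⁻¹) * ρ (s y) :=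
        congrArg (fun f => ρ y⁻¹ * f * ρ (s y)) h3
      have h5 : ρ (s y⁻¹) * ρ (s y) = 1 := by rw [← map_mul, ← map_mul, inv_mul_cancel, map_one, map_one]
      have h6 : ρ y⁻¹ * (ρ (s y) * ρ x * ρ (s y⁻¹)) * ρ (s y) = ρ (y⁻¹ * s y) * ρ x := by
        rw [map_mul]
        calc ρ y⁻¹ * (ρ (s y) * ρ x * ρ (s y⁻¹)) * ρ (s y) = ρ y⁻¹ * ρ (s y) * ρ x * (ρ (s y⁻¹) * ρ (s y)) := by simp only [mul_assoc]
          _ = _ := by rw [h5, mul_one]
      have h7 : ρ y⁻¹ * ρ (y * x * y⁻¹) * ρ (s y) = ρ x * ρ (y⁻¹ * s y) := by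
        rw [← map_mul, ← map_mul, ← map_mul]
        congr 1; group
      rw [← h6, ← h7]
      exact h4
    have hDtop : D = ⊤ := by
      by_contra hDne
      exact h.telescope hp hqp (fun y => hstar D hDσ hDne _ (hDs y))
    intro x hx y
    have hy : y ∈ D := hDtop ▸ Subgroup.mem_top y
    exact (hy x hx).symm
  -- commutators
  haveI := h.hq.isNilpotent
  have hcomm : ∀ x y : Q, ⁅x, y⁆ ∈ cen ρ := by
    intro x y
    have h1 : commutator Q ≤ cen ρ := by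
      apply hcent _ _ inferInstance _
      · intro z
        have h2 := Subgroup.characteristic_iff_comap_eq.1 (inferInstance : (commutator Q).Characteristic) σ
        rw [← h2]
        constructor
        · intro hz
          rw [h2] at hz
          exact hz
        · intro hz
          rw [h2]
          exact hz
      · exact (Group.IsSolvable.commutator_lt_top_of_nontrivial Q).ne
    exact h1 (Subgroup.commutator_mem_commutator (Subgroup.mem_top x) (Subgroup.mem_top y))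
  -- scalars are fixed
  have hfix : ∀ k, ∀ a ∈ cen ρ, ρ ((σ ^ k) a) = ρ a := by
    intro k a ha
    obtain ⟨c, hc⟩ := hsc a ha
    obtain ⟨T', h1, h2⟩ := h.inv hp
    have h3 : ∀ k, T ^ k * T' ^ k = 1 := by
      intro k
      induction k with
      | zero => simp
      | succ k ih => rw [pow_succ, pow_succ', mul_assoc, ← mul_assoc T, h1, one_mul, ih]
    have e1 : T ^ k * ρ a * T' ^ k = ρ ((σ ^ k) a) * T ^ k * T' ^ k := congrArg (fun f => f * T' ^ k) (h.hTk k a)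
    rw [mul_assoc (ρ _), h3, mul_one, hc, mul_smul_comm, mul_one, smul_mul_assoc, h3] at e1
    rw [← e1, hc]
  have hAt : cen ρ ≠ ⊤ := by
    intro ht
    obtain ⟨x, hx⟩ := h.hnt
    exact hx (hfix _ x (ht ▸ Subgroup.mem_top x))
  have hcenk : ∀ (k : ℕ) (x : Q), x ∈ cen ρ → (σ ^ k) x ∈ cen ρ := by
    intro k x hx
    induction k with
    | zero => simpa using hx
    | succ k ih => rw [pow_succ', MulAut.mul_apply, h.cen_sigma hp]; exact ih
  -- the group acting trivially modulo the centre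
  let Γ : Subgroup (MulAut Q) :=
    { carrier := {τ | ∀ x, τ x * x⁻¹ ∈ cen ρ}
      mul_mem' := by
        intro a b ha hb x
        have : (a * b) x * x⁻¹ = (a (b x) * (b x)⁻¹) * (b x * x⁻¹) := by rw [MulAut.mul_apply]; group
        rw [this]
        exact mul_mem (ha _) (hb _)
      one_mem' := by
        intro x
        rw [MulAut.one_apply, mul_inv_cancel]
        exact one_mem _
      inv_mem' := by
        intro a ha x
        have h1 := ha (a⁻¹ x)
        rw [MulAut.apply_inv_self] at h1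
        have h2 := inv_mem h1
        rwa [mul_inv_rev, inv_inv] at h2 }
  have hΓ : ∀ τ, τ ∈ Γ ↔ ∀ x, τ x * x⁻¹ ∈ cen ρ := fun τ => Iff.rfl
  have hΓs : s ∉ Γ := by
    intro hs'
    refine h.telescope hp hqp (fun y => ?_)
    refine hfix _ _ ?_
    have h1 := cen_normal.conj_mem _ (hs' y) y⁻¹
    have h2 : y⁻¹ * s y = y⁻¹ * (s y * y⁻¹) * y⁻¹⁻¹ := by group
    show y⁻¹ * s y ∈ cen ρ
    rw [h2]
    exact h1
  have hfpf : ∀ k, 0 < k → k < p ^ n → ∀ x, (σ ^ k) x * x⁻¹ ∈ cen ρ → x ∈ cen ρ := by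
    intro k hk0 hkn x hx
    let B : Subgroup Q :=
      { carrier := {x | (σ ^ k) x * x⁻¹ ∈ cen ρ}
        mul_mem' := by
          intro a b ha hb
          have : (σ ^ k) (a * b) * (a * b)⁻¹ = ((σ ^ k) a * a⁻¹) * (a * ((σ ^ k) b * b⁻¹) * a⁻¹) := by rw [map_mul]; group
          show (σ ^ k) (a * b) * (a * b)⁻¹ ∈ cen ρ
          rw [this]
          exact mul_mem ha (cen_normal.conj_mem _ hb a)
        one_mem' := by
          show (σ ^ k) 1 * 1⁻¹ ∈ cen ρ
          rw [map_one, inv_one, mul_one]; exact one_mem _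
        inv_mem' := by
          intro a ha
          show (σ ^ k) a⁻¹ * a⁻¹⁻¹ ∈ cen ρ
          have h1 : (σ ^ k) a⁻¹ * a⁻¹⁻¹ = (a⁻¹ * ((σ ^ k) a * a⁻¹) * a⁻¹⁻¹)⁻¹ := by rw [map_inv]; group
          rw [h1]
          exact inv_mem (cen_normal.conj_mem _ ha a⁻¹) }
    have hBm : ∀ x, x ∈ B ↔ (σ ^ k) x * x⁻¹ ∈ cen ρ := fun x => Iff.rfl
    have hcB : cen ρ ≤ B := fun a ha => mul_mem (hcenk k a ha) (inv_mem ha)
    have hBn : B.Normal := ⟨by
      intro b hb y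
      have h1 : y * b * y⁻¹ = ⁅y, b⁆ * b := by rw [commutatorElement_def]; group
      rw [h1]
      exact mul_mem (hcB (hcomm y b)) hb⟩
    have hBσ : ∀ x, σ x ∈ B ↔ x ∈ B := by
      intro x
      rw [hBm, hBm, ← h.cen_sigma hp ((σ ^ k) x * x⁻¹), map_mul, map_inv]
      have : (σ ^ k) (σ x) = σ ((σ ^ k) x) := by
        rw [← MulAut.mul_apply, ← MulAut.mul_apply, ← pow_succ, ← pow_succ']
      rw [this]
    by_cases hBt : B = ⊤
    · exfalso
      have h1 : σ ^ k ∈ Γ := fun x => (hBm x).1 (hBt ▸ Subgroup.mem_top x)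
      have h2 : σ ^ p ^ n ∈ Γ := by
        intro x
        refine cen_congr (x := 1) ?_ (one_mem _)
        rw [map_mul, h.hper, ← map_mul, mul_inv_cancel]
      have h3 : σ ^ (Nat.gcd k (p ^ n)) ∈ Γ := by
        have h4 : σ ^ ((Nat.gcd k (p ^ n) : ℕ) : ℤ) ∈ Γ := by
          rw [Nat.gcd_eq_gcd_ab, zpow_add, zpow_mul, zpow_mul, zpow_natCast, zpow_natCast]
          exact mul_mem (zpow_mem h1 _) (zpow_mem h2 _)
        rwa [zpow_natCast] at h4
      obtain ⟨b, hb, hb2⟩ := (Nat.dvd_prime_pow hp).1 (Nat.gcd_dvd_right k (p ^ n))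
      have hbn : b ≠ n := by
        rintro rfl
        have := Nat.gcd_le_left (p ^ b) hk0
        rw [hb2] at this
        omega
      apply hΓs
      rw [hs]
      have h5 : p ^ (n - 1) = p ^ b * p ^ (n - 1 - b) := by rw [← pow_add]; congr 1; omega
      rw [h5, pow_mul, ← hb2]
      exact pow_mem h3 _
    · exact hcent B hBσ hBn hBt hx
  haveI : Fintype Q := Fintype.ofFinite Q
  have hcardF : ∀ B : Subgroup Q, (Nat.card B : F) ≠ 0 := by
    intro B h0
    obtain ⟨l, hl⟩ := IsPGroup.iff_card.1 (h.hq.to_subgroup B)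
    rw [hl, Nat.cast_pow] at h0
    exact pow_ne_zero l hqF h0
  have hQF : (Fintype.card Q : F) ≠ 0 := by
    have := hcardF ⊤
    rwa [Subgroup.card_top, Nat.card_eq_fintype_card] at this
  have hDat : Dat ρ (cen ρ) := ⟨hsc, hcomm, fun x hx => mem_cen'.2 hx⟩
  have hd2 : 2 ≤ p ^ n := hp.two_le.trans (Nat.le_self_pow (by have := h.hn; omega) p)
  exact ⟨hAt, main_ss hDat hQF (hcardF _) hAt σ (h.cen_sigma hp) (p ^ n) hd2 (by rw [Nat.cast_pow]; exact pow_ne_zero _ hpF) hfpf T h.hT h.hTn⟩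

end Basic

end CfsgLib.SGMain
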