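import Cfsg.Agent.LibSGForm

set_option autoImplicit false

/-!
The two-group version: a pair of groups acting on a module without eigenvalue one (helper4).
-/

namespace CfsgLib.SGP2

open Module CfsgLib.HHBExt CfsgLib.SGLin CfsgLib.SGExt CfsgLib.SGMain CfsgLib.SGWt CfsgLib.SGProp CfsgLib.SGProp1
open CfsgLib.SGGrp CfsgLib.SGForm CfsgLib.SGLz
open CfsgLib.HHBMain (wt_indep restrict_pow_apply)
open scoped commutatorElement

universe u u' v

/-- the configuration -/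
structure P2 {F : Type*} [Field F] (q q₁ n : ℕ) {C : Type*} [Group C] {B : Type*} [Group B] {W : Type*} [AddCommGroup W]
    [Module F W] (ρ : C →* End F W) (β : B →* End F W) (T : End F W) (α : B →* MulAut C) (σ : MulAut C) (τ : MulAut B) : Prop where
  hn : 1 ≤ n
  hT : ∀ x, T * ρ x = ρ (σ x) * T
  hTb : ∀ b, T * β b = β (τ b) * T
  hb : ∀ b x, β b * ρ x = ρ (α b x) * β b
  hα : ∀ b x, α (τ b) (σ x) = σ (α b x)
  hTn : T ^ 2 ^ n = 1
  hσn : ∀ x, (σ ^ 2 ^ n) x = x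
  hτn : ∀ b, (τ ^ 2 ^ n) b = b
  h1 : ∀ v, T v = v → v = 0
  hC : IsPGroup q C
  hB : IsPGroup q₁ B
  hcomm : ∀ x y : C, ⁅x, y⁆ ∈ Subgroup.center C
  hpow : ∀ x : C, x ^ q ∈ Subgroup.center C

variable {F : Type*} [Field F] {q q₁ n : ℕ} {C : Type u} [Group C] {B : Type u'} [Group B] {W : Type v} [AddCommGroup W]
    [Module F W] {ρ : C →* End F W} {β : B →* End F W} {T : End F W} {α : B →* MulAut C} {σ : MulAut C} {τ : MulAut B}

theorem P2.hTk (h : P2 q q₁ n ρ β T α σ τ) (k : ℕ) (x : C) : T ^ k * ρ x = ρ ((σ ^ k) x) * T ^ k := by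
  induction k with
  | zero => simp
  | succ k ih => rw [pow_succ', mul_assoc, ih, ← mul_assoc, h.hT, mul_assoc, pow_succ', MulAut.mul_apply]

theorem P2.hTbk (h : P2 q q₁ n ρ β T α σ τ) (k : ℕ) (b : B) : T ^ k * β b = β ((τ ^ k) b) * T ^ k := by
  induction k with
  | zero => simp
  | succ k ih => rw [pow_succ', mul_assoc, ih, ← mul_assoc, h.hTb, mul_assoc, pow_succ', MulAut.mul_apply]

theorem P2.hαk (h : P2 q q₁ n ρ β T α σ τ) (k : ℕ) (b : B) (x : C) : α ((τ ^ k) b) ((σ ^ k) x) = (σ ^ k) (α b x) := by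
  induction k with
  | zero => rfl
  | succ k ih => rw [pow_succ', MulAut.mul_apply, pow_succ', MulAut.mul_apply, h.hα, ih, MulAut.mul_apply]

theorem P2.hTinv (h : P2 q q₁ n ρ β T α σ τ) (k : ℕ) : ∃ g : End F W, g * T ^ k = 1 ∧ T ^ k * g = 1 := by
  have h1 : 1 ≤ 2 ^ n := Nat.one_le_two_pow
  have h2 : (T ^ k) ^ (2 ^ n) = 1 := by rw [← pow_mul, mul_comm, pow_mul, h.hTn, one_pow]
  refine ⟨(T ^ k) ^ (2 ^ n - 1), ?_, ?_⟩
  · rw [← pow_succ, Nat.sub_add_cancel h1, h2]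
  · rw [← pow_succ', Nat.sub_add_cancel h1, h2]

theorem bb (β : B →* End F W) (b : B) : β b * β b⁻¹ = 1 ∧ β b⁻¹ * β b = 1 := by
  rw [← map_mul, ← map_mul, mul_inv_cancel, inv_mul_cancel, map_one]; exact ⟨rfl, rfl⟩

/-- elements of `B` commuting with the image of `A` -/
def kk (ρ : C →* End F W) (β : B →* End F W) (A : Subgroup C) : Subgroup B where
  carrier := {b | ∀ a ∈ A, β b * ρ a = ρ a * β b}
  mul_mem' := by
    intro b c hb hc a ha
    rw [map_mul, mul_assoc, hc a ha, ← mul_assoc, hb a ha, mul_assoc]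
  one_mem' := by
    intro a _
    rw [map_one, one_mul, mul_one]
  inv_mem' := by
    intro b hb a ha
    obtain ⟨h1, h2⟩ := bb β b
    calc β b⁻¹ * ρ a = β b⁻¹ * (ρ a * β b) * β b⁻¹ := by rw [mul_assoc, mul_assoc, h1, mul_one]
      _ = β b⁻¹ * (β b * ρ a) * β b⁻¹ := by rw [hb a ha]
      _ = _ := by rw [← mul_assoc, h2, one_mul]

theorem P2.kk_normal (h : P2 q q₁ n ρ β T α σ τ) (A : Subgroup C) (hA : ∀ b x, x ∈ A → α b x ∈ A) : (kk ρ β A).Normal := by
  constructor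
  intro b hb c a ha
  have h1 := hb (α c⁻¹ a) (hA _ _ ha)
  have h2 : α c (α c⁻¹ a) = a := by rw [← MulAut.mul_apply, ← map_mul, mul_inv_cancel, map_one, MulAut.one_apply]
  rw [map_mul, map_mul]
  calc β c * β b * β c⁻¹ * ρ a = β c * (β b * (β c⁻¹ * ρ a)) := by simp only [mul_assoc]
    _ = β c * (β b * ρ (α c⁻¹ a)) * β c⁻¹ := by rw [h.hb]; simp only [mul_assoc]
    _ = (β c * ρ (α c⁻¹ a)) * β b * β c⁻¹ := by rw [h1]; simp only [mul_assoc]
    _ = _ := by rw [h.hb, h2]; simp only [mul_assoc]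

theorem P2.kk_inv (h : P2 q q₁ n ρ β T α σ τ) (A : Subgroup C) (hA : ∀ x, σ x ∈ A ↔ x ∈ A) (b : B) (hb : b ∈ kk ρ β A) :
    τ b ∈ kk ρ β A := by
  intro a ha
  obtain ⟨g, hg1, hg2⟩ := h.hTinv 1
  rw [pow_one] at hg1 hg2
  have h1 : T * ρ (σ⁻¹ a) = ρ a * T := by rw [h.hT, MulAut.apply_inv_self]
  have h2 : (β (τ b) * ρ a) * T = (ρ a * β (τ b)) * T := by
    calc (β (τ b) * ρ a) * T = β (τ b) * (T * ρ (σ⁻¹ a)) := by rw [h1, mul_assoc]
      _ = T * (β b * ρ (σ⁻¹ a)) := by rw [← mul_assoc, ← h.hTb, mul_assoc]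
      _ = T * ρ (σ⁻¹ a) * β b := by rw [hb _ ((hA _).1 (by rw [MulAut.apply_inv_self]; exact ha)), mul_assoc]
      _ = _ := by rw [h1, mul_assoc, h.hTb, mul_assoc]
  have h3 := congrArg (fun f => f * g) h2
  simpa only [mul_assoc, hg2, mul_one] using h3

/-- the kernel-type element acts trivially once it does modulo scalars -/
theorem P2.triv_of_mod [Nontrivial W] (h : P2 q q₁ n ρ β T α σ τ) (hq : q.Coprime q₁)
    (hsc : ∀ a ∈ cen ρ, ∃ c : F, ρ a = c • (1 : End F W)) (b : B) (hb : ∀ x, x⁻¹ * α b x ∈ cen ρ) : b ∈ kk ρ β ⊤ := by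
  intro x _
  obtain ⟨hb1, hb2⟩ := bb β b
  have hfix : ∀ (b : B) (a : C), a ∈ cen ρ → ρ (α b a) = ρ a := by
    intro b a ha
    obtain ⟨c, hc⟩ := hsc a ha
    obtain ⟨hb1, hb2⟩ := bb β b
    have h1 := h.hb b a
    rw [hc, mul_smul_comm, mul_one] at h1
    have h2 := congrArg (fun f => f * β b⁻¹) h1
    simp only [mul_assoc, hb1, smul_mul_assoc, mul_one] at h2
    rw [← h2, hc]
  obtain ⟨c, hc⟩ := hsc _ (hb x)
  have h1 : ρ (α b x) = c • ρ x := by
    have h2 : α b x = x * (x⁻¹ * α b x) := by group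
    rw [h2, map_mul, hc, mul_smul_comm, mul_one]
  have h3 : ∀ k : ℕ, ρ (α (b ^ k) x) = c ^ k • ρ x := by
    intro k
    induction k with
    | zero => rw [pow_zero, map_one, MulAut.one_apply, pow_zero, one_smul]
    | succ k ih =>
      have h2 : α b x = x * (x⁻¹ * α b x) := by group
      rw [pow_succ, map_mul, MulAut.mul_apply, h2, map_mul, map_mul, ih, hfix _ _ (hb x), hc, smul_mul_smul_comm, mul_one, ← pow_succ]
  obtain ⟨l, hl⟩ := h.hB b
  have h4 : c ^ q₁ ^ l = 1 := by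
    have h5 := h3 (q₁ ^ l)
    rw [hl, map_one, MulAut.one_apply] at h5
    have h6 : c ^ q₁ ^ l • ρ x = (1 : F) • ρ x := by rw [one_smul]; exact h5.symm
    exact smul_rho_inj h6
  obtain ⟨l', hl'⟩ := h.hC (x⁻¹ * α b x)
  have h5 : c ^ q ^ l' = 1 := by
    have h6 := congrArg (fun f => f ^ q ^ l') hc
    simp only [← map_pow, hl', map_one, smul_pow, one_pow] at h6
    have h7 : c ^ q ^ l' • (1 : End F W) = (1 : F) • 1 := by rw [one_smul]; exact h6.symm
    exact smul_one_inj h7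
  have h6 : c = 1 := by
    rw [← orderOf_eq_one_iff]
    exact Nat.eq_one_of_dvd_coprimes (Nat.Coprime.pow l' l hq) (orderOf_dvd_of_pow_eq_one h5) (orderOf_dvd_of_pow_eq_one h4)
  rw [h6, one_smul] at h1
  rw [h.hb, h1]

end CfsgLib.SGP2
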