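import Cfsg.Agent.LibSGP2s

set_option autoImplicit false

/-!
The two-group version: the induction (helper4).
-/

namespace CfsgLib.SGP2

open Module CfsgLib.HHBExt CfsgLib.SGLin CfsgLib.SGExt CfsgLib.SGMain CfsgLib.SGWt CfsgLib.SGProp CfsgLib.SGProp1
open CfsgLib.SGGrp CfsgLib.SGForm CfsgLib.SGLz
open CfsgLib.HHBMain (wt_indep restrict_pow_apply)
open scoped commutatorElement

universe u u' v

set_option maxHeartbeats 1000000 in
theorem prop2 {F : Type*} [Field F] [IsAlgClosed F] {q q₁ : ℕ} [hqf : Fact q.Prime] [hq₁f : Fact q₁.Prime]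
    (h2F : (2 : F) ≠ 0) (hqF : (q : F) ≠ 0) (hq2 : q ≠ 2) (hq₁2 : q₁ ≠ 2) (hne : q ≠ q₁) {C : Type u} [Group C] [Finite C] :
    ∀ (N : ℕ) (B : Type u') [Group B] [Finite B] (W : Type v) [AddCommGroup W] [Module F W] [FiniteDimensional F W] (n : ℕ)
      (ρ : C →* End F W) (β : B →* End F W) (T : End F W) (α : B →* MulAut C) (σ : MulAut C) (τ : MulAut B),
      P2 q q₁ n ρ β T α σ τ → finrank F W ≤ N → ∀ b, b⁻¹ * (τ ^ 2 ^ (n - 1)) b ∈ kk ρ β ⊤ := by
  intro N
  induction N with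
  | zero =>
    intro B _ _ W _ _ _ n ρ β T α σ τ h hN b
    haveI : Subsingleton W := Module.finrank_zero_iff.1 (Nat.le_zero.1 hN)
    intro x _
    ext v
    exact Subsingleton.elim _ _
  | succ N ih =>
    intro B _ _ W _ _ _ n ρ β T α σ τ h hN
    rcases subsingleton_or_nontrivial W with hW | hW
    · intro b x _
      ext v
      exact Subsingleton.elim _ _
    set A := cen ρ with hA
    by_cases hsc : ∀ a ∈ A, ∃ c : F, ρ a = c • (1 : End F W)
    · exact h.scalar h2F hqF hq2 hq₁2 hne hsc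
    have hcardF : (Nat.card C : F) ≠ 0 := by
      obtain ⟨l, hl⟩ := IsPGroup.iff_card.1 h.hC
      rw [hl, Nat.cast_pow]
      exact pow_ne_zero l hqF
    have hAσ : ∀ x, σ x ∈ A ↔ x ∈ A := h.cen_sigma
    have hAα : ∀ b x, α b x ∈ A ↔ x ∈ A := h.cen_alpha_iff
    have htop := wtA_top ρ A le_rfl hcardF
    set ψ := σ ^ 2 ^ (n - 1) with hψ
    have hAψ : ∀ x, ψ x ∈ A ↔ x ∈ A := pow_mem hAσ _
    have hnt : ∀ χ : A → F, wtA ρ A χ ≠ ⊤ := by
      intro χ hχ
      apply hsc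
      intro a ha
      refine ⟨χ ⟨a, ha⟩, ?_⟩
      ext v
      have hv : v ∈ wtA ρ A χ := hχ ▸ Submodule.mem_top
      exact hv ⟨a, ha⟩
    have hwβ : ∀ (c : B) (χ : A → F) (v : W), v ∈ wtA ρ A χ →
        β c v ∈ wtA ρ A (fun a => χ ⟨α c⁻¹ (a : C), (hAα _ _).2 a.2⟩) := by
      intro c χ v hv a
      have h0 : α c (α c⁻¹ (a : C)) = a := by rw [← MulAut.mul_apply, ← map_mul, mul_inv_cancel, map_one, MulAut.one_apply]
      have h1 := congrArg (fun f : End F W => f v) (h.hb c (α c⁻¹ (a : C)))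
      simp only [Module.End.mul_apply] at h1
      rw [h0] at h1
      rw [← h1, hv ⟨α c⁻¹ (a : C), (hAα _ _).2 a.2⟩, map_smul]
    have hfix : ∀ χ : A → F, wtA ρ A χ ≠ ⊥ → ∀ (a : C) (ha : a ∈ A) (ha' : ψ a ∈ A), χ ⟨ψ a, ha'⟩ = χ ⟨a, ha⟩ := by
      intro χ hχ a ha ha'
      exact orb_fix (p := 2) h.hT h.hTn h.h1 hAσ χ hχ ⟨a, ha⟩ ha'
    have hstar : ∀ χ : A → F, wtA ρ A χ ≠ ⊥ → ∀ (b : B) (a : C) (ha : a ∈ A),
        χ ⟨α ((τ ^ 2 ^ (n - 1)) b) a, (hAα _ _).2 ha⟩ = χ ⟨α b a, (hAα _ _).2 ha⟩ := by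
      intro χ hχ b a ha
      obtain ⟨v, hv, hv0⟩ := Submodule.exists_mem_ne_zero_of_ne_bot hχ
      set c := ((τ ^ 2 ^ (n - 1)) b)⁻¹ with hc
      have h1 := hwβ c χ v hv
      have h2 : β c v ≠ 0 := by
        intro h0
        apply hv0
        have h3 := congrArg (fun f : End F W => f v) (bb β c).2
        simp only [Module.End.mul_apply, Module.End.one_apply] at h3
        rw [← h3, h0, map_zero]
      have h3 := hfix _ (fun hb => h2 (by rw [hb] at h1; exact (Submodule.mem_bot F).1 h1)) a ha ((hAψ a).2 ha)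
      have h4 : c⁻¹ = (τ ^ 2 ^ (n - 1)) b := by rw [hc, inv_inv]
      have h5 : α c⁻¹ (ψ a) = ψ (α b a) := by rw [h4, hψ, h.hαk]
      have h6 : χ ⟨α c⁻¹ (ψ a), (hAα _ _).2 ((hAψ a).2 ha)⟩ = χ ⟨α c⁻¹ a, (hAα _ _).2 ha⟩ := h3
      have h7 : χ ⟨α c⁻¹ (ψ a), (hAα _ _).2 ((hAψ a).2 ha)⟩ = χ ⟨α b a, (hAα _ _).2 ha⟩ := by
        rw [← hfix χ hχ (α b a) ((hAα _ _).2 ha) ((hAψ _).2 ((hAα _ _).2 ha))]
        congr 1
        exact Subtype.ext h5
      rw [← h7, h6]
      congr 1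
      exact Subtype.ext (by rw [h4])
    -- Step 1
    have hstep1 : ∀ b, b⁻¹ * (τ ^ 2 ^ (n - 1)) b ∈ kk ρ β A := by
      intro b a ha
      set b' := (τ ^ 2 ^ (n - 1)) b with hb'
      have h1 : ρ (α (b⁻¹ * b') a) = ρ a := by
        have h2 : (⊤ : Submodule F W) ≤ LinearMap.eqLocus (ρ (α (b⁻¹ * b') a)) (ρ a) := by
          rw [← htop]
          apply iSup_le
          intro χ v hv
          rw [LinearMap.mem_eqLocus]
          by_cases hv0 : v = 0
          · rw [hv0, map_zero, map_zero]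
          have hχ : wtA ρ A χ ≠ ⊥ := fun hb => hv0 (by rw [hb] at hv; exact (Submodule.mem_bot F).1 hv)
          have h3 := hv ⟨α (b⁻¹ * b') a, (hAα _ _).2 ha⟩
          have h4 := hv ⟨a, ha⟩
          have h5 : χ ⟨α (b⁻¹ * b') a, (hAα _ _).2 ha⟩ = χ ⟨a, ha⟩ := by
            have h6 := hstar χ hχ b⁻¹ (α b' a) ((hAα _ _).2 ha)
            have h7 : α ((τ ^ 2 ^ (n - 1)) b⁻¹) (α b' a) = a := by
              rw [map_inv, ← hb', ← MulAut.mul_apply, ← map_mul, inv_mul_cancel, map_one, MulAut.one_apply]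
            have h8 : α b⁻¹ (α b' a) = α (b⁻¹ * b') a := by rw [map_mul]; rfl
            calc χ ⟨α (b⁻¹ * b') a, (hAα _ _).2 ha⟩ = χ ⟨α b⁻¹ (α b' a), (hAα _ _).2 ((hAα _ _).2 ha)⟩ := by
                  congr 1; exact Subtype.ext h8.symm
              _ = _ := h6.symm
              _ = _ := by congr 1; exact Subtype.ext h7
          show ρ (α (b⁻¹ * b') a) v = ρ a v
          rw [show ρ (α (b⁻¹ * b') a) v = _ from h3, show ρ a v = _ from h4, h5]
        ext v
        exact h2 (Submodule.mem_top (x := v))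
      rw [h.hb, h1]
    set B₁ := kk ρ β A with hB₁
    have hB₁τ : ∀ b, τ b ∈ B₁ ↔ b ∈ B₁ := inv_iff τ B₁ (fun b hb => h.kk_inv A hAσ b hb)
    -- Step 2
    have hstep2 : ∀ b ∈ B₁, b⁻¹ * (τ ^ 2 ^ (n - 1)) b ∈ kk ρ β ⊤ := by
      intro b hb x _
      have h2 : (⊤ : Submodule F W) ≤ LinearMap.eqLocus (β (b⁻¹ * (τ ^ 2 ^ (n - 1)) b) * ρ x) (ρ x * β (b⁻¹ * (τ ^ 2 ^ (n - 1)) b)) := by
        rw [← htop]
        apply iSup_le
        intro χ v hv
        rw [LinearMap.mem_eqLocus]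
        by_cases hv0 : v = 0
        · rw [hv0, map_zero, map_zero]
        have hχ : wtA ρ A χ ≠ ⊥ := fun hb => hv0 (by rw [hb] at hv; exact (Submodule.mem_bot F).1 hv)
        obtain ⟨j, hjn, hjper, hjfix, hRT, hR1⟩ := orb (p := 2) h.hT h.hTn h.h1 hAσ χ hχ
        set R := wtA ρ A χ with hR
        have hRρ : ∀ x, R ≤ R.comap (ρ x) := wtA_inv le_rfl χ
        have hRβ : ∀ b : B₁, R ≤ R.comap ((β.comp B₁.subtype) b) := by
          intro b v hv a
          have h3 := congrArg (fun f : End F W => f v) (b.2 a a.2)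
          simp only [Module.End.mul_apply] at h3
          show ρ a (β b v) = χ a • β b v
          rw [← h3, hv a, map_smul]
        have hlt : finrank F R < finrank F W := Submodule.finrank_lt (hnt χ)
        have hP : P2 q q₁ (n - j) (rst ρ R hRρ) (rst (β.comp B₁.subtype) R hRβ) ((T ^ 2 ^ j).restrict hRT) (α.comp B₁.subtype)
            (σ ^ 2 ^ j) ((rs τ B₁ hB₁τ) ^ 2 ^ j) := by
          refine ⟨by omega, ?_, ?_, ?_, ?_, ?_, ?_, ?_, ?_, h.hC, h.hB.to_subgroup B₁, h.hcomm, h.hpow⟩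
          · intro x
            ext v
            have := congrArg (fun g : End F W => g (v : W)) (h.hTk (2 ^ j) x)
            simp only [Module.End.mul_apply] at this
            exact this
          · intro b
            ext v
            have := congrArg (fun g : End F W => g (v : W)) (h.hTbk (2 ^ j) b)
            simp only [Module.End.mul_apply] at this
            show (T ^ 2 ^ j) (β b v) = β ((((rs τ B₁ hB₁τ) ^ 2 ^ j) b : B₁) : B) ((T ^ 2 ^ j) v)
            rw [rs_pow]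
            exact this
          · intro b x
            ext v
            have := congrArg (fun g : End F W => g (v : W)) (h.hb b x)
            simp only [Module.End.mul_apply] at this
            exact this
          · intro b x
            show α ((((rs τ B₁ hB₁τ) ^ 2 ^ j) b : B₁) : B) ((σ ^ 2 ^ j) x) = (σ ^ 2 ^ j) (α b x)
            rw [rs_pow, h.hαk]
          · ext v
            rw [restrict_pow_apply, ← pow_mul, ← pow_add, Nat.add_sub_cancel' hjn.le, h.hTn]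
            rfl
          · intro x
            rw [← pow_mul, ← pow_add, Nat.add_sub_cancel' hjn.le, h.hσn]
          · intro b
            apply Subtype.ext
            rw [← pow_mul, ← pow_add, Nat.add_sub_cancel' hjn.le, rs_pow, h.hτn]
          · intro v hv
            exact Subtype.ext (hR1 v v.2 (congrArg Subtype.val hv))
        have h3 := ih B₁ R (n - j) _ _ _ _ _ _ hP (by omega) ⟨b, hb⟩ x (Subgroup.mem_top x)
        have h4 := congrArg (fun f : End F R => ((f ⟨v, hv⟩ : R) : W)) h3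
        simp only [Module.End.mul_apply, rst_apply] at h4
        have h5 : ((⟨b, hb⟩⁻¹ * (((rs τ B₁ hB₁τ) ^ 2 ^ j) ^ 2 ^ (n - j - 1)) ⟨b, hb⟩ : B₁) : B) = b⁻¹ * (τ ^ 2 ^ (n - 1)) b := by
          rw [Subgroup.coe_mul, Subgroup.coe_inv, ← pow_mul, ← pow_add, rs_pow]
          congr 5
          omega
        have h6 : (β.comp B₁.subtype) (⟨b, hb⟩⁻¹ * (((rs τ B₁ hB₁τ) ^ 2 ^ j) ^ 2 ^ (n - j - 1)) ⟨b, hb⟩ : B₁) =
            β (b⁻¹ * (τ ^ 2 ^ (n - 1)) b) := by
          rw [← h5]; rfl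
        rw [h6] at h4
        exact h4
      ext v
      exact h2 (Submodule.mem_top (x := v))
    -- Step 3
    set K := kk ρ β ⊤ with hK
    haveI : K.Normal := h.kk_normal ⊤ (fun _ _ _ => Subgroup.mem_top _)
    have hKτ : ∀ b, τ b ∈ K ↔ b ∈ K := inv_iff τ K (fun b hb => h.kk_inv ⊤ (fun x => by simp) b hb)
    have hKψ : ∀ b, (τ ^ 2 ^ (n - 1)) b ∈ K ↔ b ∈ K := pow_mem hKτ _
    intro b
    have h1 := hstep2 _ (hstep1 b)
    have hBK : IsPGroup q₁ (B ⧸ K) := h.hB.of_surjective (QuotientGroup.mk' K) (QuotientGroup.mk'_surjective K)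
    have h2 := tel (p := 2) ((Nat.coprime_primes Nat.prime_two hq₁f.out).2 (Ne.symm hq₁2)) hBK (qs (τ ^ 2 ^ (n - 1)) K hKψ) (by
      intro v
      obtain ⟨y, rfl⟩ := QuotientGroup.mk_surjective v
      rw [qs_pow, ← pow_mul, ← pow_succ, Nat.sub_add_cancel h.hn, h.hτn]) (b : B ⧸ K) (by
      rw [qs_mk, ← QuotientGroup.mk_inv, ← QuotientGroup.mk_mul, qs_mk]
      exact (QuotientGroup.eq.2 h1).symm)
    rw [qs_mk] at h2
    exact QuotientGroup.eq.1 h2.symm

end CfsgLib.SGP2
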