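import Cfsg.Agent.LibSGP2

set_option autoImplicit false

/-!
The two-group version: the scalar case (helper4).
-/

namespace CfsgLib.SGP2

open Module CfsgLib.HHBExt CfsgLib.SGLin CfsgLib.SGExt CfsgLib.SGMain CfsgLib.SGWt CfsgLib.SGProp CfsgLib.SGProp1
open CfsgLib.SGGrp CfsgLib.SGForm CfsgLib.SGLz
open CfsgLib.HHBMain (wt_indep restrict_pow_apply)
open scoped commutatorElement

universe u u' v

variable {F : Type*} [Field F] {q q₁ n : ℕ} {C : Type u} [Group C] {B : Type u'} [Group B] {W : Type v} [AddCommGroup W]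
    [Module F W] {ρ : C →* End F W} {β : B →* End F W} {T : End F W} {α : B →* MulAut C} {σ : MulAut C} {τ : MulAut B}

theorem P2.cen_sigma [Finite C] (h : P2 q q₁ n ρ β T α σ τ) : ∀ x, σ x ∈ cen ρ ↔ x ∈ cen ρ := by
  apply inv_iff
  intro x hx y
  obtain ⟨g, hg1, hg2⟩ := h.hTinv 1
  rw [pow_one] at hg1 hg2
  have h1 : T * ρ (σ⁻¹ y) = ρ y * T := by rw [h.hT, MulAut.apply_inv_self]
  have h2 : (ρ (σ x) * ρ y) * T = (ρ y * ρ (σ x)) * T := by
    calc (ρ (σ x) * ρ y) * T = ρ (σ x) * T * ρ (σ⁻¹ y) := by rw [mul_assoc, ← h1, ← mul_assoc]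
      _ = T * (ρ x * ρ (σ⁻¹ y)) := by rw [← h.hT, mul_assoc]
      _ = T * (ρ (σ⁻¹ y) * ρ x) := by rw [(hx (σ⁻¹ y)).eq]
      _ = _ := by rw [← mul_assoc, h1, mul_assoc, h.hT, mul_assoc]
  have h3 := congrArg (fun f => f * g) h2
  show ρ (σ x) * ρ y = ρ y * ρ (σ x)
  simpa only [mul_assoc, hg2, mul_one] using h3

theorem P2.cen_alpha (h : P2 q q₁ n ρ β T α σ τ) (b : B) (x : C) (hx : x ∈ cen ρ) : α b x ∈ cen ρ := by
  intro y
  obtain ⟨hb1, hb2⟩ := bb β b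
  have h0 : α b (α b⁻¹ y) = y := by rw [← MulAut.mul_apply, ← map_mul, mul_inv_cancel, map_one, MulAut.one_apply]
  have h1 : β b * ρ (α b⁻¹ y) = ρ y * β b := by rw [h.hb, h0]
  have h2 : (ρ (α b x) * ρ y) * β b = (ρ y * ρ (α b x)) * β b := by
    calc (ρ (α b x) * ρ y) * β b = ρ (α b x) * β b * ρ (α b⁻¹ y) := by rw [mul_assoc, ← h1, ← mul_assoc]
      _ = β b * (ρ x * ρ (α b⁻¹ y)) := by rw [← h.hb, mul_assoc]
      _ = β b * (ρ (α b⁻¹ y) * ρ x) := by rw [(hx (α b⁻¹ y)).eq]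
      _ = _ := by rw [← mul_assoc, h1, mul_assoc, h.hb, mul_assoc]
  have h3 := congrArg (fun f => f * β b⁻¹) h2
  show ρ (α b x) * ρ y = ρ y * ρ (α b x)
  simpa only [mul_assoc, hb1, mul_one] using h3

theorem P2.cen_alpha_iff (h : P2 q q₁ n ρ β T α σ τ) (b : B) (x : C) : α b x ∈ cen ρ ↔ x ∈ cen ρ := by
  refine ⟨fun hx => ?_, h.cen_alpha b x⟩
  have h1 := h.cen_alpha b⁻¹ _ hx
  rwa [← MulAut.mul_apply, ← map_mul, inv_mul_cancel, map_one, MulAut.one_apply] at h1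

set_option maxHeartbeats 1000000 in
theorem P2.scalar [IsAlgClosed F] [FiniteDimensional F W] [Nontrivial W] [Finite C] [Finite B] [hqf : Fact q.Prime] [hq₁f : Fact q₁.Prime]
    (h2F : (2 : F) ≠ 0) (hqF : (q : F) ≠ 0) (hq2 : q ≠ 2) (hq₁2 : q₁ ≠ 2) (hne : q ≠ q₁) (h : P2 q q₁ n ρ β T α σ τ)
    (hsc : ∀ a ∈ cen ρ, ∃ c : F, ρ a = c • (1 : End F W)) : ∀ b, b⁻¹ * (τ ^ 2 ^ (n - 1)) b ∈ kk ρ β ⊤ := by
  classical
  have hq := hqf.out
  have hq₁ := hq₁f.out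
  have hqodd : Nat.Coprime 2 q := (Nat.coprime_primes Nat.prime_two hq).2 (Ne.symm hq2)
  by_contra hcon
  push Not at hcon
  obtain ⟨b₀, hb₀⟩ := hcon
  set A := cen ρ with hA
  have hcenA : ∀ z ∈ Subgroup.center C, z ∈ A := by
    intro z hz y
    show ρ z * ρ y = ρ y * ρ z
    rw [← map_mul, ← map_mul, Subgroup.mem_center_iff.1 hz y]
  have hD : Dat ρ A := ⟨hsc, fun x y => hcenA _ (h.hcomm x y), fun x hx => mem_cen'.2 hx⟩
  haveI : A.Normal := cen_normal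
  have hAσ : ∀ x, σ x ∈ A ↔ x ∈ A := h.cen_sigma
  have hAα : ∀ b x, α b x ∈ A ↔ x ∈ A := h.cen_alpha_iff
  set s := σ ^ 2 ^ (n - 1) with hs
  have hs2 : ∀ x, s (s x) = x := by
    intro x
    rw [hs, ← MulAut.mul_apply, ← pow_add, ← two_mul, ← pow_succ', Nat.sub_add_cancel h.hn]
    exact h.hσn x
  have hAs : ∀ x, s x ∈ A ↔ x ∈ A := pow_mem hAσ _
  have hXc : ∀ u v : C ⧸ A, u * v = v * u := by
    intro u v
    obtain ⟨x, rfl⟩ := QuotientGroup.mk_surjective u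
    obtain ⟨y, rfl⟩ := QuotientGroup.mk_surjective v
    rw [← QuotientGroup.mk_mul, ← QuotientGroup.mk_mul, QuotientGroup.eq]
    have h1 := hD.comm y⁻¹ x⁻¹
    rw [commutatorElement_def] at h1
    have h2 : (x * y)⁻¹ * (y * x) = y⁻¹ * x⁻¹ * y⁻¹⁻¹ * x⁻¹⁻¹ := by group
    rw [h2]; exact h1
  set s' := qs s A hAs with hs'
  set σ' := qs σ A hAσ with hσ'
  have hs'2 : ∀ v, s' (s' v) = v := by
    intro v
    obtain ⟨x, rfl⟩ := QuotientGroup.mk_surjective v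
    rw [hs', qs_mk, qs_mk, hs2]
  have hsσ : ∀ v, s' (σ' v) = σ' (s' v) := by
    intro v
    obtain ⟨x, rfl⟩ := QuotientGroup.mk_surjective v
    rw [hs', hσ', qs_mk, qs_mk, qs_mk, qs_mk, hs, ← MulAut.mul_apply, ← MulAut.mul_apply, ← pow_succ, ← pow_succ']
  let X0 : Subgroup (C ⧸ A) :=
    { carrier := {v | s' v = v}
      mul_mem' := by
        intro a b ha hb
        show s' (a * b) = a * b
        rw [map_mul, ha, hb]
      one_mem' := map_one s'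
      inv_mem' := by
        intro a ha
        show s' a⁻¹ = a⁻¹
        rw [map_inv, ha] }
  let X1 : Subgroup (C ⧸ A) :=
    { carrier := {v | v * s' v = 1}
      mul_mem' := by
        intro a b ha hb
        show (a * b) * s' (a * b) = 1
        have ha' : a * s' a = 1 := ha
        have hb' : b * s' b = 1 := hb
        rw [map_mul]
        calc a * b * (s' a * s' b) = (a * s' a) * (b * s' b) := by
              rw [mul_assoc, ← mul_assoc b, hXc b (s' a), mul_assoc, mul_assoc]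
          _ = 1 := by rw [ha', hb', one_mul]
      one_mem' := by
        show (1 : C ⧸ A) * s' 1 = 1
        rw [map_one, one_mul]
      inv_mem' := by
        intro a ha
        have ha' : a * s' a = 1 := ha
        show a⁻¹ * s' a⁻¹ = 1
        rw [map_inv, ← mul_inv_rev, hXc, ha', inv_one] }
  have hX0m : ∀ v, v ∈ X0 ↔ s' v = v := fun v => Iff.rfl
  have hX1m : ∀ v, v ∈ X1 ↔ v * s' v = 1 := fun v => Iff.rfl
  have hXq : ∀ v : C ⧸ A, v ^ q = 1 := by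
    intro v
    obtain ⟨x, rfl⟩ := QuotientGroup.mk_surjective v
    rw [← QuotientGroup.mk_pow, QuotientGroup.eq_one_iff]
    exact hcenA _ (h.hpow x)
  have hX01 : ∀ v, v ∈ X0 → v ∈ X1 → v = 1 := by
    intro v h0 h1
    rw [hX1m, (hX0m v).1 h0] at h1
    rw [← orderOf_eq_one_iff]
    exact Nat.eq_one_of_dvd_coprimes hqodd (orderOf_dvd_of_pow_eq_one (by rw [pow_two]; exact h1)) (orderOf_dvd_of_pow_eq_one (hXq v))
  have hdec : ∀ v, ∃ v0 ∈ X0, ∃ v1 ∈ X1, v = v0 * v1 := by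
    intro v
    obtain ⟨t, ht⟩ : Odd q := hq.odd_of_ne_two hq2
    set u := v ^ (t + 1) with hu
    have huu : u * u = v := by
      rw [hu, ← pow_add]
      have h1 : t + 1 + (t + 1) = q + 1 := by omega
      rw [h1, pow_succ, hXq, one_mul]
    refine ⟨u * s' u, ?_, u * (s' u)⁻¹, ?_, ?_⟩
    · rw [hX0m, map_mul, hs'2, hXc]
    · rw [hX1m, map_mul, map_inv, hs'2]; group
    · calc v = u * u := huu.symm
        _ = u * (s' u * (s' u)⁻¹) * u := by rw [mul_inv_cancel, mul_one]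
        _ = u * s' u * ((s' u)⁻¹ * u) := by simp only [mul_assoc]
        _ = _ := by rw [hXc (s' u)⁻¹ u]
  set C0 := X0.comap (QuotientGroup.mk' A) with hC0
  set C1 := X1.comap (QuotientGroup.mk' A) with hC1
  have hAC0 : ∀ a ∈ A, a ∈ C0 := by
    intro a ha
    show QuotientGroup.mk' A a ∈ X0
    rw [show QuotientGroup.mk' A a = 1 from (QuotientGroup.eq_one_iff a).2 ha]
    exact one_mem _
  have hdecC : ∀ y : C, ∃ y0 ∈ C0, ∃ y1 ∈ C1, y = y0 * y1 := by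
    intro y
    obtain ⟨v0, hv0, v1, hv1, hv⟩ := hdec (y : C ⧸ A)
    obtain ⟨y1, rfl⟩ := QuotientGroup.mk_surjective v1
    refine ⟨y * y1⁻¹, ?_, y1, hv1, by group⟩
    show ((y * y1⁻¹ : C) : C ⧸ A) ∈ X0
    rw [QuotientGroup.mk_mul, hv, QuotientGroup.mk_inv, mul_inv_cancel_right]
    exact hv0
  obtain ⟨gs, hgs1, hgs2⟩ := h.hTinv (2 ^ (n - 1))
  have hws : ∀ x y, w ρ (s x) (s y) = w ρ x y := fun x y => w_map hD s _ gs hgs1 (h.hTk _) x y
  have hF1 : ∀ x ∈ C0, ∀ y ∈ C1, w ρ x y = 1 := by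
    intro x hx y hy
    have hx' : x⁻¹ * s x ∈ A := by
      have h1 : ((s x : C) : C ⧸ A) = x := hx
      exact QuotientGroup.eq.1 h1.symm
    have hy' : y * s y ∈ A := by
      have h1 : ((y * s y : C) : C ⧸ A) = 1 := hy
      exact (QuotientGroup.eq_one_iff _).1 h1
    have h1 : s x = x * (x⁻¹ * s x) := by group
    have h2 : s y = y⁻¹ * (y * s y) := by group
    have h3 := hws x y
    rw [h1, h2, hD.w_mul, hD.w_one' hx', mul_one, w_mul' hD, hD.w_one hy', mul_one, w_swap hD, w_inv hD, ← w_swap hD] at h3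
    have h4 : w ρ x y * w ρ x y = 1 := by
      nth_rewrite 1 [← h3]
      exact inv_mul_cancel₀ (w_ne hD _ _)
    have h5 : w ρ x y ^ q = 1 := by
      rw [← w_pow hD, hD.w_one' (hcenA _ (h.hpow x))]
    rw [← orderOf_eq_one_iff]
    exact Nat.eq_one_of_dvd_coprimes hqodd (orderOf_dvd_of_pow_eq_one (by rw [pow_two]; exact h4)) (orderOf_dvd_of_pow_eq_one h5)
  -- the action of `B` on the quotient
  let αX : B →* MulAut (C ⧸ A) :=
    { toFun := fun b => qs (α b) A (hAα b)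
      map_one' := by
        ext v
        obtain ⟨x, rfl⟩ := QuotientGroup.mk_surjective v
        rw [qs_mk, map_one]; rfl
      map_mul' := by
        intro a b
        ext v
        obtain ⟨x, rfl⟩ := QuotientGroup.mk_surjective v
        rw [qs_mk, map_mul]; rfl }
  have hαX : ∀ b (x : C), αX b (x : C ⧸ A) = ((α b x : C) : C ⧸ A) := fun b x => rfl
  have hαXs : ∀ b v, αX ((τ ^ 2 ^ (n - 1)) b) (s' v) = s' (αX b v) := by
    intro b v
    obtain ⟨x, rfl⟩ := QuotientGroup.mk_surjective v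
    rw [hs', qs_mk, hαX, hαX, qs_mk, hs, h.hαk]
  have hαXσ : ∀ b v, αX (τ b) (σ' v) = σ' (αX b v) := by
    intro b v
    obtain ⟨x, rfl⟩ := QuotientGroup.mk_surjective v
    rw [hσ', qs_mk, hαX, hαX, qs_mk, h.hα]
  have hnt : αX ((τ ^ 2 ^ (n - 1)) b₀) ≠ αX b₀ := by
    intro he
    apply hb₀
    apply h.triv_of_mod ((Nat.coprime_primes hq hq₁).2 hne) hsc
    intro x
    have h1 : αX (b₀⁻¹ * (τ ^ 2 ^ (n - 1)) b₀) = 1 := by rw [map_mul, he, ← map_mul, inv_mul_cancel, map_one]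
    have h2 : αX (b₀⁻¹ * (τ ^ 2 ^ (n - 1)) b₀) (x : C ⧸ A) = x := by rw [h1]; rfl
    rw [hαX] at h2
    exact QuotientGroup.eq.1 h2.symm
  have hX1ne : ∃ v ∈ X1, v ≠ 1 := by
    by_contra hno
    push Not at hno
    have hst : ∀ v, s' v = v := by
      intro v
      have h1 := hno (v⁻¹ * s' v) (by
        rw [hX1m, map_mul, hs'2, map_inv]; group)
      exact (inv_mul_eq_one.1 h1).symm
    apply hnt
    ext v
    have h1 := hαXs b₀ v
    rw [hst, hst] at h1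
    exact h1
  -- the data on `C1`
  let ρ₁ : C1 →* End F W := ρ.comp C1.subtype
  set A₁ := A.subgroupOf C1 with hA₁
  haveI : A₁.Normal := by rw [hA₁]; infer_instance
  have hD₁ : Dat ρ₁ A₁ := by
    refine ⟨fun a ha => hsc _ ha, fun x y => hD.comm x y, ?_⟩
    intro x hx
    show (x : C) ∈ A
    apply w_mem hD
    intro y
    obtain ⟨y0, hy0, y1, hy1, rfl⟩ := hdecC y
    have h1 : w ρ x y1 = 1 := by
      rw [w_comm hD, ← map_mul, ← map_mul]
      exact hx ⟨y1, hy1⟩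
    rw [w_mul' hD, h1, mul_one, w_swap hD y0, hF1 y0 hy0 x x.2, inv_one]
  have hC1σ : ∀ x, σ x ∈ C1 ↔ x ∈ C1 := by
    intro x
    show σ' (x : C ⧸ A) ∈ X1 ↔ (x : C ⧸ A) ∈ X1
    rw [hX1m, hX1m, hsσ, ← map_mul, map_eq_one_iff σ' σ'.injective]
  have hC0σ : ∀ x, σ x ∈ C0 ↔ x ∈ C0 := by
    intro x
    show σ' (x : C ⧸ A) ∈ X0 ↔ (x : C ⧸ A) ∈ X0
    rw [hX0m, hX0m, hsσ]
    exact σ'.injective.eq_iff
  set σ₁ := rs σ C1 hC1σ with hσ₁
  have hA₁σ : ∀ x, σ₁ x ∈ A₁ ↔ x ∈ A₁ := fun x => hAσ x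
  have hA₁t : A₁ ≠ ⊤ := by
    intro ht
    obtain ⟨v, hv, hv1⟩ := hX1ne
    obtain ⟨x, rfl⟩ := QuotientGroup.mk_surjective v
    apply hv1
    have h1 : (⟨x, hv⟩ : C1) ∈ A₁ := ht ▸ Subgroup.mem_top _
    exact (QuotientGroup.eq_one_iff _).2 h1
  have hfpf := fp_pow (p := 2) (n := n) Nat.prime_two σ₁ A₁ hA₁σ (by
    intro x
    exact Subtype.ext (by rw [hσ₁, rs_pow, h.hσn])) (by
    intro x hx
    have h1 : (((σ₁ ^ 2 ^ (n - 1)) x : C1) : C) * (x : C)⁻¹ ∈ A := hx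
    rw [hσ₁, rs_pow, ← hs] at h1
    have h2 : ((s (x : C) : C) : C ⧸ A) = ((x : C) : C ⧸ A) := by
      rw [← mul_inv_eq_one, ← QuotientGroup.mk_inv, ← QuotientGroup.mk_mul]
      exact (QuotientGroup.eq_one_iff _).2 h1
    exact (QuotientGroup.eq_one_iff (x : C)).1 (hX01 _ h2 x.2))
  haveI : Fintype C1 := Fintype.ofFinite _
  have hcardp : ∀ B : Subgroup C, (Nat.card B : F) ≠ 0 := by
    intro B
    obtain ⟨l, hl⟩ := IsPGroup.iff_card.1 (h.hC.to_subgroup B)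
    rw [hl, Nat.cast_pow]
    exact pow_ne_zero l hqF
  have hcard₁ : (Nat.card A₁ : F) ≠ 0 := by
    obtain ⟨l, hl⟩ := IsPGroup.iff_card.1 ((h.hC.to_subgroup C1).to_subgroup A₁)
    rw [hl, Nat.cast_pow]
    exact pow_ne_zero l hqF
  have hd2 : 2 ≤ 2 ^ n := Nat.le_self_pow (by have := h.hn; omega) 2
  have hdF : ((2 ^ n : ℕ) : F) ≠ 0 := by
    rw [Nat.cast_pow]
    exact pow_ne_zero _ (by exact_mod_cast h2F)
  obtain ⟨D, hDD, hD2⟩ := main_ss hD₁ (by rw [← Nat.card_eq_fintype_card]; exact hcardp C1) hcard₁ hA₁t σ₁ hA₁σ (2 ^ n) hd2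
    hdF hfpf T (fun x => h.hT x) h.hTn
  have hnd : ¬ 2 ^ n ≤ (eig T).ncard := by
    intro h2
    obtain ⟨hmuf, hmuc⟩ := mu_ncard (F := F) (d := 2 ^ n) (by omega) hdF
    have h3 : eig T = mu F (2 ^ n) := Set.eq_of_subset_of_ncard_le (eig_sub_mu h.hTn) (by rw [hmuc]; exact h2) hmuf
    have h4 : (1 : F) ∈ eig T := by rw [h3]; exact one_pow _
    obtain ⟨v, hv0, hv⟩ := mem_eig.1 h4
    rw [one_smul] at hv
    exact hv0 (h.h1 v hv)
  obtain ⟨_, hDn, S, hS0, hS⟩ := hD2.resolve_left hnd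
  obtain ⟨s₀, hs₀, hs₀0⟩ := Submodule.exists_mem_ne_zero_of_ne_bot hS0
  -- σ is trivial on C0 / A
  set u := T s₀ with hu
  have hu0 : u ≠ 0 := by
    intro h0
    obtain ⟨g, hg1, _⟩ := h.hTinv 1
    rw [pow_one] at hg1
    apply hs₀0
    have h1 := congrArg (fun f : End F W => f s₀) hg1
    simp only [Module.End.mul_apply, Module.End.one_apply] at h1
    rw [← h1, ← hu, h0, map_zero]
  have hC0c : ∀ z ∈ C0, ∀ x : C1, ρ z * ρ₁ x = ρ₁ x * ρ z := fun z hz x => (w_comm hD z x).1 (hF1 z hz x x.2)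
  have hzz : ∀ z ∈ C0, ρ (σ z) u = ρ z u := by
    intro z hz
    have h1 := hS (ρ z) (hC0c z hz) s₀ hs₀
    have h2 := congrArg (fun f : End F W => f s₀) (h.hT z)
    simp only [Module.End.mul_apply] at h2
    rw [h2] at h1
    exact h1
  have hσC0 : ∀ y ∈ C0, y⁻¹ * σ y ∈ A := by
    intro y hy
    have htC0 : y⁻¹ * σ y ∈ C0 := mul_mem (inv_mem hy) ((hC0σ y).2 hy)
    apply w_mem hD
    intro z
    obtain ⟨z0, hz0, z1, hz1, rfl⟩ := hdecC z
    rw [w_mul' hD, hF1 _ htC0 z1 hz1, mul_one]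
    have h1 : ρ (y⁻¹ * σ y) u = u := by
      rw [map_mul, Module.End.mul_apply, hzz y hy, ← Module.End.mul_apply, ← map_mul, inv_mul_cancel, map_one, Module.End.one_apply]
    have h2 : ρ (y⁻¹ * σ y) (ρ z0 u) = ρ z0 u := by
      have h3 := hzz (y * z0) (mul_mem hy hz0)
      rw [map_mul σ, map_mul ρ, Module.End.mul_apply, hzz z0 hz0, map_mul ρ, Module.End.mul_apply] at h3
      rw [map_mul, Module.End.mul_apply, h3, ← Module.End.mul_apply, ← map_mul, inv_mul_cancel, map_one, Module.End.one_apply]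
    have h3 := congrArg (fun f : End F W => f u) (hD.w_spec (y⁻¹ * σ y) z0)
    simp only [Module.End.mul_apply, LinearMap.smul_apply] at h3
    rw [h1, h2] at h3
    have h4 : ρ z0 u ≠ 0 := by
      intro h0
      apply hu0
      have h5 : ρ (z0⁻¹ * z0) u = 0 := by rw [map_mul, Module.End.mul_apply, h0, map_zero]
      rwa [inv_mul_cancel, map_one, Module.End.one_apply] at h5
    have h5 : w ρ (y⁻¹ * σ y) z0 • (ρ z0) u = (1 : F) • (ρ z0) u := by rw [one_smul]; exact h3.symm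
    exact smul_left_injective F h4 h5
  have hσX0 : ∀ v ∈ X0, σ' v = v := by
    intro v hv
    obtain ⟨x, rfl⟩ := QuotientGroup.mk_surjective v
    rw [hσ', qs_mk]
    exact (QuotientGroup.eq.2 (hσC0 x hv)).symm
  -- linearize the quotient
  letI : CommGroup (C ⧸ A) := { (inferInstance : Group (C ⧸ A)) with mul_comm := hXc }
  obtain ⟨F', i1, i2, i3, W', i4, i5, i6, ρL, hinj, _, hrank⟩ := linearize (r := q) (V := C ⧸ A) hXq
  let R : Subgroup (C ⧸ A) := (MonoidHom.mk' (fun v => σ' v * v⁻¹) (by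
    intro a b
    rw [map_mul, mul_inv_rev]
    calc σ' a * σ' b * (b⁻¹ * a⁻¹) = σ' a * (σ' b * b⁻¹ * a⁻¹) := by simp only [mul_assoc]
      _ = σ' a * (a⁻¹ * (σ' b * b⁻¹)) := by rw [hXc (σ' b * b⁻¹)]
      _ = _ := by rw [← mul_assoc])).range
  have hRX1 : R ≤ X1 := by
    rintro _ ⟨v, rfl⟩
    show σ' v * v⁻¹ ∈ X1
    obtain ⟨v0, hv0, v1, hv1, rfl⟩ := hdec v
    have h1 : σ' v1 ∈ X1 := by rw [hX1m, hsσ, ← map_mul, (hX1m v1).1 hv1, map_one]
    have h2 : σ' (v0 * v1) * (v0 * v1)⁻¹ = σ' v1 * v1⁻¹ := by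
      rw [map_mul, hσX0 v0 hv0, mul_inv_rev]
      calc v0 * σ' v1 * (v1⁻¹ * v0⁻¹) = v0 * (σ' v1 * v1⁻¹) * v0⁻¹ := by simp only [mul_assoc]
        _ = _ := by rw [hXc v0, mul_inv_cancel_right]
    rw [h2]
    exact mul_mem h1 (inv_mem hv1)
  have hXp : IsPGroup q (C ⧸ A) := h.hC.of_surjective (QuotientGroup.mk' A) (QuotientGroup.mk'_surjective A)
  obtain ⟨k, hk⟩ := IsPGroup.iff_card.1 (hXp.to_subgroup R)
  have hrk := hrank σ' k (by
    rw [← hk]
    rfl)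
  have heig := eig_rank (ρL σ')
  -- cardinalities
  have hcX1 : Nat.card (C1 ⧸ A₁) = Nat.card X1 := by
    have h1 := Subgroup.relIndex_ker C1 (QuotientGroup.mk' A)
    rw [QuotientGroup.ker_mk', hC1, Subgroup.map_comap_eq_self_of_surjective (QuotientGroup.mk'_surjective A)] at h1
    rw [← h1, ← hC1]
    rfl
  have hdvd : Nat.card R ∣ D ^ 2 := by
    rw [hDD, hcX1]
    exact Subgroup.card_dvd_of_le hRX1
  obtain ⟨l, hl⟩ := IsPGroup.iff_card.1 (hXp.to_subgroup X1)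
  obtain ⟨m', _, hm'⟩ : ∃ m' ≤ l, D = q ^ m' := (Nat.dvd_prime_pow hq).1 (by
    rw [← hl, ← hcX1, ← hDD]
    exact dvd_pow_self D two_ne_zero)
  have hm'1 : 1 ≤ m' := by
    rcases Nat.eq_zero_or_pos m' with h0 | h0
    · exfalso
      rw [h0, pow_zero] at hm'
      rw [hm', one_pow, hcX1] at hDD
      obtain ⟨v, hv, hv1⟩ := hX1ne
      have h2 := Subgroup.card_eq_one.1 hDD.symm
      rw [h2, Subgroup.mem_bot] at hv
      exact hv1 hv
    · exact h0
  have hk2 : k ≤ 2 * m' := by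
    rw [hk, hm', ← pow_mul, mul_comm m'] at hdvd
    exact (Nat.pow_dvd_pow_iff_le_right hq.one_lt).1 hdvd
  -- the Theorem B application
  have hcfg : Cfg 2 q₁ (ρL.comp αX) τ (ρL σ') n := by
    refine ⟨h.hn, ?_, ?_, h.hB, ?_⟩
    · intro b
      show ρL σ' * ρL (αX b) = ρL (αX (τ b)) * ρL σ'
      rw [← map_mul, ← map_mul]
      congr 1
      ext v
      exact (hαXσ b v).symm
    · rw [← map_pow]
      have h1 : σ' ^ 2 ^ n = 1 := by
        ext v
        obtain ⟨x, rfl⟩ := QuotientGroup.mk_surjective v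
        rw [hσ', qs_pow, h.hσn]; rfl
      rw [h1, map_one]
    · exact ⟨b₀, fun he => hnt (hinj he)⟩
  have h2F' : ((2 : ℕ) : F') ≠ 0 := by
    intro h0
    rw [CharP.cast_eq_zero_iff F' q] at h0
    exact hq2 ((Nat.prime_dvd_prime_iff_eq hq Nat.prime_two).1 h0)
  have hq₁F' : ((q₁ : ℕ) : F') ≠ 0 := by
    intro h0
    rw [CharP.cast_eq_zero_iff F' q] at h0
    exact hne ((Nat.prime_dvd_prime_iff_eq hq hq₁).1 h0)
  have hconcl := CfsgLib.SGMain.main h2F' hq₁F' ((Nat.coprime_primes Nat.prime_two hq₁).2 (Ne.symm hq₁2)) _ B W' _ τ _ n hcfg le_rfl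
  refine num q q₁ n k m' _ hq hq₁ hq2 hne hm'1 (by rw [← hDn, hm']) hk2 (heig.trans (Nat.add_le_add_left hrk 1)) ?_
  rcases hconcl with h1 | ⟨n₀, m, h1, h2, h3, h4, _, h6⟩
  · exact Or.inl h1
  · exact Or.inr ⟨n₀, m, h1, h2, h3, h4, h6⟩

end CfsgLib.SGP2
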