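import Cfsg.Agent.LibSGWt

set_option autoImplicit false

/-!
Operators without eigenvalue one on modules for `q`-groups with a fixed-point-free automorphism of `p`-power
order (helper4).
-/

namespace CfsgLib.SGProp

open Module CfsgLib.HHBExt CfsgLib.SGLin CfsgLib.SGExt CfsgLib.SGMain CfsgLib.SGWt
open CfsgLib.HHBMain (wt_indep restrict_pow_apply)
open scoped commutatorElement

universe u v

theorem lte_aux (p m m' j w : ℕ) [hpf : Fact p.Prime] (hp2 : p ≠ 2) (hm : 1 ≤ m) (h : p ^ m' = 2 ^ m + 1)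
    (hw : 1 ≤ w) (hd : p ^ (m' + j) ∣ 2 ^ w - 1) : 2 * m * p ^ j ≤ w := by
  have hp := hpf.out
  have hpodd : Odd p := hp.odd_of_ne_two hp2
  have hm'0 : m' ≠ 0 := by
    rintro rfl
    have : 0 < 2 ^ m := by positivity
    rw [pow_zero] at h; omega
  have hpN : p ∣ 2 ^ m + 1 := by rw [← h]; exact dvd_pow_self p hm'0
  have h1 : 2 ^ m + 1 ∣ 2 ^ w - 1 := by
    rw [← h]; exact (pow_dvd_pow p (Nat.le_add_right _ _)).trans hd
  -- 2m ∣ w
  have h2 : 2 ^ m + 1 ∣ 2 ^ (2 * m) - 1 := by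
    have : 2 ^ (2 * m) - 1 = (2 ^ m + 1) * (2 ^ m - 1) := by
      rw [two_mul, pow_add, ← Nat.sq_sub_sq, one_pow, pow_two]
    rw [this]; exact dvd_mul_right _ _
  obtain ⟨t, s, hs, hws⟩ : ∃ t s, s < 2 * m ∧ w = 2 * m * t + s := ⟨w / (2 * m), w % (2 * m), Nat.mod_lt _ (by omega), (Nat.div_add_mod w (2 * m)).symm⟩
  have h3 : 2 ^ m + 1 ∣ 2 ^ (2 * m * t) - 1 := by
    rw [pow_mul]
    exact h2.trans (by simpa using Nat.sub_dvd_pow_sub_pow (2 ^ (2 * m)) 1 t)
  have h4 : 2 ^ m + 1 ∣ 2 ^ s - 1 := by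
    have e : 2 ^ w - 1 = 2 ^ s * (2 ^ (2 * m * t) - 1) + (2 ^ s - 1) := by
      rw [hws, pow_add, Nat.mul_sub, mul_one]
      have p1 : 1 ≤ 2 ^ (2 * m * t) := Nat.one_le_two_pow
      have p2 : 1 ≤ 2 ^ s := Nat.one_le_two_pow
      have p3 : 2 ^ s ≤ 2 ^ s * 2 ^ (2 * m * t) := Nat.le_mul_of_pos_right _ (by positivity)
      rw [mul_comm (2 ^ (2 * m * t))]
      omega
    rw [e] at h1
    exact (Nat.dvd_add_right (h3.mul_left _)).1 h1
  have hs0 : s = 0 := by
    by_contra hs0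
    rcases lt_trichotomy s m with hlt | heq | hgt
    · have h5 := Nat.le_of_dvd (by have : 1 < 2 ^ s := Nat.one_lt_two_pow hs0; omega) h4
      have h6 : 2 ^ s < 2 ^ m := Nat.pow_lt_pow_right (by norm_num) hlt
      exact absurd (h5.trans (Nat.sub_le _ _)) (by omega)
    · subst heq
      have h5 := Nat.le_of_dvd (by have : 1 < 2 ^ s := Nat.one_lt_two_pow hs0; omega) h4
      exact absurd (h5.trans (Nat.sub_le _ _)) (by omega)
    · obtain ⟨u, rfl⟩ : ∃ u, s = m + u := ⟨s - m, by omega⟩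
      have h5 : 2 ^ m + 1 ∣ 2 ^ u + 1 := by
        have e : (2 ^ m + 1) * 2 ^ u = (2 ^ (m + u) - 1) + (2 ^ u + 1) := by
          have : 1 ≤ 2 ^ (m + u) := Nat.one_le_two_pow
          rw [add_mul, one_mul, ← pow_add]; omega
        have h6 : 2 ^ m + 1 ∣ (2 ^ (m + u) - 1) + (2 ^ u + 1) := by rw [← e]; exact dvd_mul_right _ _
        exact (Nat.dvd_add_right h4).1 h6
      have h6 := Nat.le_of_dvd (Nat.succ_pos _) h5
      have h7 : 2 ^ u < 2 ^ m := Nat.pow_lt_pow_right (by norm_num) (by omega)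
      have h8 := Nat.le_of_succ_le_succ h6
      exact absurd h8 (not_le.2 h7)
  subst hs0
  rw [add_zero] at hws
  have ht : t ≠ 0 := by rintro rfl; omega
  have hnd : ¬ p ∣ 2 ^ m - 1 := by
    intro h5
    have h6 : p ∣ 2 := by
      have e : 2 ^ m + 1 = (2 ^ m - 1) + 2 := by
        have : 1 ≤ 2 ^ m := Nat.one_le_two_pow
        omega
      rw [e] at hpN
      exact (Nat.dvd_add_right h5).1 hpN
    exact hp2 ((Nat.prime_dvd_prime_iff_eq hp Nat.prime_two).1 h6)
  have hv1 : padicValNat p (2 ^ (2 * m) - 1) = m' := by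
    have e : 2 ^ (2 * m) - 1 = (2 ^ m - 1) * p ^ m' := by
      rw [two_mul, pow_add, h, mul_comm (2 ^ m - 1), ← Nat.sq_sub_sq, one_pow, pow_two]
    have p1 : 2 ^ m - 1 ≠ 0 := by
      have : 1 < 2 ^ m := Nat.one_lt_two_pow (by omega)
      omega
    rw [e, padicValNat.mul p1 (pow_ne_zero _ hp.ne_zero), padicValNat.eq_zero_of_not_dvd hnd, padicValNat.prime_pow, zero_add]
  have hv2 : padicValNat p (2 ^ w - 1) = m' + padicValNat p t := by
    have h5 := padicValNat.pow_sub_pow (p := p) hpodd (x := 2 ^ (2 * m)) (y := 1) (Nat.one_lt_two_pow (by omega))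
      (by
        have e : 2 ^ (2 * m) - 1 = (2 ^ m + 1) * (2 ^ m - 1) := by
          rw [two_mul, pow_add, ← Nat.sq_sub_sq, one_pow, pow_two]
        rw [e]; exact hpN.mul_right _)
      (fun h6 => hp2 ((Nat.prime_dvd_prime_iff_eq hp Nat.prime_two).1 (hp.dvd_of_dvd_pow h6))) ht
    rw [one_pow, hv1, ← pow_mul, ← hws] at h5
    exact h5
  have hne : 2 ^ w - 1 ≠ 0 := by
    have : 1 < 2 ^ w := Nat.one_lt_two_pow (by omega)
    omega
  have h6 : m' + j ≤ padicValNat p (2 ^ w - 1) := (padicValNat_dvd_iff_le hne).1 hd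
  rw [hv2] at h6
  have h7 : p ^ j ∣ t := (padicValNat_dvd_iff_le ht).2 (by omega)
  have h8 := Nat.le_of_dvd (Nat.pos_of_ne_zero ht) h7
  rw [hws]
  exact Nat.mul_le_mul_left _ h8


section Basic

variable {Q : Type*} [Group Q]

/-- telescoping for an automorphism of order prime to the order of the element -/
theorem tel {p q : ℕ} (hpq : p.Coprime q) (hQ : IsPGroup q Q) (s : MulAut Q) (hs : ∀ x, (s ^ p) x = x) (y : Q)
    (hz : s (y⁻¹ * s y) = y⁻¹ * s y) : s y = y := by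
  set z := y⁻¹ * s y with hzdef
  have h8 : s y = y * z := by rw [hzdef, mul_inv_cancel_left]
  have h1 : ∀ i : ℕ, (s ^ i) y = y * z ^ i := by
    intro i
    induction i with
    | zero => simp
    | succ i ih => rw [pow_succ', MulAut.mul_apply, ih, map_mul, map_pow, hz, h8, pow_succ', mul_assoc]
  have h2 := h1 p
  rw [hs] at h2
  have h3 : z ^ p = 1 := (mul_eq_left.1 h2.symm)
  obtain ⟨l, hl⟩ := hQ z
  have h7 : orderOf z = 1 :=
    Nat.eq_one_of_dvd_coprimes (hpq.pow_right l) (orderOf_dvd_of_pow_eq_one h3) (orderOf_dvd_of_pow_eq_one hl)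
  rw [h8, orderOf_eq_one_iff.1 h7, mul_one]

/-- norms -/
def nm (s : MulAut Q) (x : Q) : ℕ → Q
  | 0 => 1
  | k + 1 => nm s x k * (s ^ k) x

theorem nm_map (s : MulAut Q) (x : Q) (k : ℕ) : s (nm s x k) = x⁻¹ * nm s x k * (s ^ k) x := by
  induction k with
  | zero => simp [nm]
  | succ k ih =>
    rw [nm, map_mul, ih, pow_succ' s k, MulAut.mul_apply]
    simp only [mul_assoc]

theorem nm_fix (s : MulAut Q) (x : Q) {p : ℕ} (hs : (s ^ p) x = x) : (nm s x p)⁻¹ * s (nm s x p) = ⁅(nm s x p)⁻¹, x⁻¹⁆ := by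
  rw [nm_map, hs, commutatorElement_def]; group

theorem char_triv [Finite Q] {F : Type*} [Field F] (σ : MulAut Q) (hσ : ∀ x, σ x = x → x = 1) (C : Subgroup Q)
    (hC : ∀ x, σ x ∈ C ↔ x ∈ C) (l : C → F) (hl1 : l 1 = 1) (hlm : ∀ a b, l (a * b) = l a * l b)
    (hlσ : ∀ (a : C) (ha : σ (a : Q) ∈ C), l ⟨σ (a : Q), ha⟩ = l a) : ∀ a, l a = 1 := by
  let g : C → C := fun a => a⁻¹ * ⟨σ (a : Q), (hC _).2 a.2⟩
  have hg : Function.Injective g := by
    intro a b hab
    have h1 : (a : Q)⁻¹ * σ (a : Q) = (b : Q)⁻¹ * σ (b : Q) := congrArg Subtype.val hab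
    have h2 : σ ((b : Q) * (a : Q)⁻¹) = (b : Q) * (a : Q)⁻¹ := by
      rw [map_mul, map_inv]
      calc σ (b : Q) * (σ (a : Q))⁻¹ = b * ((b : Q)⁻¹ * σ (b : Q)) * (σ (a : Q))⁻¹ := by group
        _ = b * ((a : Q)⁻¹ * σ (a : Q)) * (σ (a : Q))⁻¹ := by rw [h1]
        _ = _ := by group
    exact Subtype.ext (mul_inv_eq_one.1 (hσ _ h2)).symm
  have hgs := Finite.surjective_of_injective hg
  intro a
  obtain ⟨b, rfl⟩ := hgs a
  have h3 : l b⁻¹ * l b = 1 := by rw [← hlm, inv_mul_cancel, hl1]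
  show l (b⁻¹ * _) = 1
  rw [hlm, hlσ, h3]

end Basic

section Core

variable {F : Type*} [Field F] {p q : ℕ} {Q : Type*} [Group Q] {W : Type*} [AddCommGroup W] [Module F W]

theorem exists_inv_mod {a k : ℕ} (h : a.Coprime k) (hk : 0 < k) : ∃ u : ℕ, a * u ≡ 1 [MOD k] := by
  rcases Nat.lt_or_ge 1 k with h1 | h1
  · obtain ⟨u, hu⟩ := Nat.exists_mul_mod_eq_one_of_coprime h h1
    exact ⟨u, by rw [Nat.ModEq, hu.2, Nat.mod_eq_of_lt h1]⟩
  · have : k = 1 := by omega
    subst this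
    exact ⟨0, Nat.modEq_one⟩

/-- a power being scalar forces scalar -/
theorem scalar_of_pow [hqf : Fact q.Prime] (hpq : p.Coprime q) (hQ : IsPGroup q Q) (ρ : Q →* End F W) (a : Q)
    (h : ∃ c : F, (ρ a) ^ p = c • (1 : End F W)) : ∃ c : F, ρ a = c • (1 : End F W) := by
  obtain ⟨c, hc⟩ := h
  obtain ⟨l, hl⟩ := hQ a
  obtain ⟨u, hu⟩ : ∃ u : ℕ, p * u ≡ 1 [MOD q ^ l] := by
    exact exists_inv_mod (hpq.pow_right l) (pow_pos hqf.out.pos l)
  refine ⟨c ^ u, ?_⟩
  have h1 : a ^ (p * u) = a ^ 1 := by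
    rw [pow_eq_pow_iff_modEq]
    exact hu.of_dvd (orderOf_dvd_of_pow_eq_one hl)
  rw [← pow_one a, ← h1, map_pow, pow_mul, hc, smul_pow, one_pow]


/-- the local analysis on one weight space of a central subgroup -/
theorem local_step [IsAlgClosed F] [hpf : Fact p.Prime] [hqf : Fact q.Prime] [Finite Q] [FiniteDimensional F W]
    (hpF : (p : F) ≠ 0) (hqF : (q : F) ≠ 0) (hpq : p.Coprime q) {ρ : Q →* End F W} {σ : MulAut Q} {T : End F W} {n : ℕ}
    (h : Cfg p q ρ σ T n) (hσn : ∀ x, (σ ^ p ^ n) x = x) (h1 : ∀ v, T v = v → v = 0)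
    (C : Subgroup Q) (hCc : ∀ c ∈ C, ∀ x, c * x = x * c) (hcomm : ∀ x y : Q, ⁅x, y⁆ ∈ C) (χ : C → F)
    (hsc : ∀ c : C, ρ c = χ c • (1 : End F W))
    (hψ : ∀ y, y⁻¹ * (σ ^ p ^ (n - 1)) y ∈ C → y ∈ C) :
    cen ρ ≠ ⊤ ∧ (∃ D, D ^ 2 = Nat.card (Q ⧸ cen ρ) ∧ D = p ^ n - 1) := by
  classical
  have hp := hpf.out
  set s := σ ^ p ^ (n - 1) with hs
  set A := cen ρ with hA
  haveI : Nontrivial W := by
    by_contra hcon
    rw [not_nontrivial_iff_subsingleton] at hcon
    obtain ⟨x, hx⟩ := h.hnt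
    apply hx
    ext v
    exact Subsingleton.elim _ _
  have hAσ := h.cen_sigma hp
  have hspow : ∀ x, (s ^ p) x = x := by
    intro x
    rw [hs, ← pow_mul, ← pow_succ, Nat.sub_add_cancel h.hn]
    exact hσn x
  have hCA : C ≤ A := by
    intro c hc y
    show ρ c * ρ y = ρ y * ρ c
    rw [← map_mul, ← map_mul, hCc c hc]
  have hcardF : (Nat.card Q : F) ≠ 0 := by
    obtain ⟨l, hl⟩ := IsPGroup.iff_card.1 h.hq
    rw [hl, Nat.cast_pow]
    exact pow_ne_zero l hqF
  have hcardB : ∀ B : Subgroup Q, (Nat.card B : F) ≠ 0 := by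
    intro B
    obtain ⟨l, hl⟩ := IsPGroup.iff_card.1 (h.hq.to_subgroup B)
    rw [hl, Nat.cast_pow]
    exact pow_ne_zero l hqF
  have hAs : ∀ x, x ∈ A → s x ∈ A := by
    have : ∀ (k : ℕ) (x : Q), x ∈ A → (σ ^ k) x ∈ A := by
      intro k x hx
      induction k with
      | zero => simpa using hx
      | succ k ih => rw [pow_succ', MulAut.mul_apply, hAσ]; exact ih
    exact fun x hx => this _ x hx
  -- A is fixed by s in the representation
  have hAfix : ∀ a ∈ A, ρ (s a) = ρ a := by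
    intro a ha
    have htop := wtA_top ρ A le_rfl hcardF
    have h2 : (⊤ : Submodule F W) ≤ LinearMap.eqLocus (ρ (s a)) (ρ a) := by
      rw [← htop]
      apply iSup_le
      intro μ v hv
      rw [LinearMap.mem_eqLocus]
      by_cases hv0 : v = 0
      · rw [hv0, map_zero, map_zero]
      have hne : wtA ρ A μ ≠ ⊥ := fun hb => hv0 (by rw [hb] at hv; exact (Submodule.mem_bot F).1 hv)
      have h3 := orb_fix h.hT h.hTn h1 hAσ μ hne ⟨a, ha⟩ (hAs a ha)
      rw [hv ⟨a, ha⟩, ← h3]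
      exact hv ⟨_, hAs a ha⟩
    ext v
    exact h2 (Submodule.mem_top (x := v))
  -- norms lie in C
  have hnm : ∀ x, nm s x p ∈ C := by
    intro x
    apply hψ
    rw [nm_fix s x (hspow x)]
    exact hcomm _ _
  -- elements fixed in the representation are scalar
  have hρs : ∀ x, (∀ k, ρ ((s ^ k) x) = ρ x) → ∃ c : F, ρ x = c • (1 : End F W) := by
    intro x hx
    apply scalar_of_pow hpq h.hq
    refine ⟨χ ⟨_, hnm x⟩, ?_⟩
    rw [← hsc]
    have : ∀ k, ρ (nm s x k) = ρ x ^ k := by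
      intro k
      induction k with
      | zero => simp [nm]
      | succ k ih => rw [nm, map_mul, ih, hx, pow_succ]
    exact (this p).symm
  have hρs' : ∀ x, ρ (s x) = ρ x → ∃ c : F, ρ x = c • (1 : End F W) := by
    intro x hx
    apply hρs
    intro k
    induction k with
    | zero => simp
    | succ k ih =>
      rw [pow_succ', MulAut.mul_apply]
      have := h.congr hp ih (p ^ (n - 1))
      rw [← hs] at this
      rw [this, hx]
  have hsc' : ∀ a ∈ A, ∃ c : F, ρ a = c • (1 : End F W) := fun a ha => hρs' a (hAfix a ha)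
  have hDat : Dat ρ A := ⟨hsc', fun x y => hCA (hcomm x y), fun x hx => mem_cen'.2 hx⟩
  have hscA : ∀ x, (∃ c : F, ρ x = c • (1 : End F W)) → x ∈ A := by
    rintro x ⟨c, hc⟩ y
    rw [hc]
    exact (Commute.one_left _).smul_left c
  have hAt : A ≠ ⊤ := by
    intro ht
    obtain ⟨x, hx⟩ := h.hnt
    exact hx (hAfix x (ht ▸ Subgroup.mem_top x))
  haveI : A.Normal := cen_normal
  -- fixed points modulo A
  have hfp1 : ∀ x, s x * x⁻¹ ∈ A → x ∈ A := by
    intro x hx
    apply hscA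
    apply hρs'
    -- telescoping in the representation
    set z := x⁻¹ * s x with hz
    have hzA : z ∈ A := by
      have h2 := (inferInstance : A.Normal).conj_mem _ hx x⁻¹
      have h3 : x⁻¹ * (s x * x⁻¹) * x⁻¹⁻¹ = z := by rw [hz]; group
      rwa [h3] at h2
    have hz1 : ρ (s z) = ρ z := hAfix z hzA
    have h2 : ∀ i : ℕ, ρ ((s ^ i) x) = ρ (x * z ^ i) := by
      intro i
      induction i with
      | zero => simp
      | succ i ih =>
        have h3 : s x = x * z := by rw [hz, mul_inv_cancel_left]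
        have h4 := h.congr hp ih (p ^ (n - 1))
        rw [← hs] at h4
        rw [pow_succ', MulAut.mul_apply, h4, map_mul s, map_pow s, h3, map_mul ρ (x * z), map_pow ρ, hz1, ← map_pow, ← map_mul,
          pow_succ', mul_assoc]
    have h3 := h2 p
    rw [hspow, map_mul] at h3
    have h4 : (ρ z) ^ p = 1 := by
      have h5 := congrArg (fun f => ρ x⁻¹ * f) h3
      simp only [← mul_assoc, ← map_mul, inv_mul_cancel, map_one, one_mul] at h5
      rw [← map_pow]; exact h5.symm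
    obtain ⟨l, hl⟩ := h.hq z
    have h6 : (ρ z) ^ q ^ l = 1 := by rw [← map_pow, hl, map_one]
    have h7 : orderOf (ρ z) = 1 :=
      Nat.eq_one_of_dvd_coprimes (hpq.pow_right l) (orderOf_dvd_of_pow_eq_one h4) (orderOf_dvd_of_pow_eq_one h6)
    rw [orderOf_eq_one_iff] at h7
    have h8 : s x = x * z := by rw [hz, mul_inv_cancel_left]
    rw [h8, map_mul, h7, mul_one]
  have hfpf : ∀ k, 0 < k → k < p ^ n → ∀ x, (σ ^ k) x * x⁻¹ ∈ A → x ∈ A := by
    intro k hk0 hkn x hx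
    apply hfp1
    have hAk : ∀ (j : ℕ) (x : Q), x ∈ A → (σ ^ j) x ∈ A := by
      intro j x hx
      induction j with
      | zero => simpa using hx
      | succ j ih => rw [pow_succ', MulAut.mul_apply, hAσ]; exact ih
    have hit : ∀ u : ℕ, ((σ ^ k) ^ u) x * x⁻¹ ∈ A := by
      intro u
      induction u with
      | zero => rw [pow_zero, MulAut.one_apply, mul_inv_cancel]; exact one_mem _
      | succ u ih =>
        have h2 : ((σ ^ k) ^ (u + 1)) x * x⁻¹ = (σ ^ k) (((σ ^ k) ^ u) x * x⁻¹) * ((σ ^ k) x * x⁻¹) := by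
          rw [map_mul, map_inv, ← MulAut.mul_apply, ← pow_succ']; group
        rw [h2]
        exact mul_mem (hAk k _ ih) hx
    -- k = p^b k'
    obtain ⟨b, k', hk', hkb⟩ := Nat.exists_eq_pow_mul_and_not_dvd hk0.ne' p hp.ne_one
    have hbn : b < n := by
      by_contra hbn
      push Not at hbn
      have h2 : p ^ n ≤ p ^ b := Nat.pow_le_pow_right hp.pos hbn
      have h3 : p ^ b ≤ k := by
        rw [hkb]
        exact Nat.le_mul_of_pos_right _ (Nat.pos_of_ne_zero (by rintro rfl; exact hk' (dvd_zero _)))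
      omega
    obtain ⟨u, hu⟩ := exists_inv_mod ((Nat.Prime.coprime_iff_not_dvd hp).2 hk').symm hp.pos
    have h2 : (σ ^ k) ^ (p ^ (n - 1 - b) * u) = s ^ (k' * u) := by
      rw [hs, ← pow_mul, ← pow_mul]
      congr 1
      rw [hkb]
      calc p ^ b * k' * (p ^ (n - 1 - b) * u) = (p ^ b * p ^ (n - 1 - b)) * (k' * u) := by ring
        _ = _ := by rw [← pow_add]; congr 2; omega
    have h3 : ∀ m : ℕ, (s ^ (p * m)) x = x := by
      intro m
      induction m with
      | zero => rfl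
      | succ m ih => rw [mul_add, mul_one, pow_add, MulAut.mul_apply, hspow, ih]
    have h4 : (s ^ (k' * u)) x = s x := by
      have h5 : k' * u = 1 + p * (k' * u / p) ∨ p = 1 := by
        have h6 := hu
        rw [Nat.ModEq, Nat.mod_eq_of_lt hp.one_lt] at h6
        left
        have := Nat.div_add_mod (k' * u) p
        omega
      rcases h5 with h5 | h5
      · rw [h5, pow_add, pow_one, MulAut.mul_apply, h3]
      · exact absurd h5 hp.ne_one
    have h5 := hit (p ^ (n - 1 - b) * u)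
    rw [h2, h4] at h5
    exact h5
  haveI : Fintype Q := Fintype.ofFinite Q
  have hd2 : 2 ≤ p ^ n := hp.two_le.trans (Nat.le_self_pow (by have := h.hn; omega) p)
  have hpnF : ((p ^ n : ℕ) : F) ≠ 0 := by rw [Nat.cast_pow]; exact pow_ne_zero _ hpF
  obtain ⟨D, hD, hD2⟩ := main_ss hDat (by rw [← Nat.card_eq_fintype_card]; exact hcardF) (hcardB _) hAt σ hAσ (p ^ n) hd2 hpnF hfpf T h.hT h.hTn
  refine ⟨hAt, D, hD, ?_⟩
  rcases hD2 with h2 | ⟨_, h3, _⟩
  · exfalso
    obtain ⟨hmuf, hmuc⟩ := mu_ncard (F := F) (d := p ^ n) (by omega) hpnF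
    have h3 : eig T = mu F (p ^ n) := Set.eq_of_subset_of_ncard_le (eig_sub_mu h.hTn) (by rw [hmuc]; exact h2) hmuf
    have h4 : (1 : F) ∈ eig T := by rw [h3]; exact one_pow _
    obtain ⟨v, hv0, hv⟩ := mem_eig.1 h4
    rw [one_smul] at hv
    exact hv0 (h1 v hv)
  · exact h3

end Core

end CfsgLib.SGProp
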