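import Cfsg.Agent.LibSGProp

set_option autoImplicit false

/-!
The fixed-point-free theorem on faithful modules without eigenvalue one (helper4).
-/

namespace CfsgLib.SGProp1

open Module CfsgLib.HHBExt CfsgLib.SGLin CfsgLib.SGExt CfsgLib.SGMain CfsgLib.SGWt CfsgLib.SGProp
open CfsgLib.HHBMain (wt_indep restrict_pow_apply)
open scoped commutatorElement

universe u v

theorem perm_free {X : Type*} (π : Equiv.Perm X) (x₀ : X) {p n : ℕ} (hp : p.Prime) (hπ : π ^ p ^ n = 1)
    (h : ∀ x, (π ^ p ^ (n - 1)) x = x → x = x₀) (k : ℕ) (hk0 : 0 < k) (hk : k < p ^ n) (x : X) (hx : (π ^ k) x = x) : x = x₀ := by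
  apply h
  have h1 : Function.IsPeriodicPt π (p ^ n) x := by
    show π^[p ^ n] x = x
    rw [← Equiv.Perm.coe_pow, hπ]; rfl
  have h2 : Function.IsPeriodicPt π k x := by
    show π^[k] x = x
    rw [← Equiv.Perm.coe_pow]; exact hx
  obtain ⟨b, hbn, hb⟩ := (Nat.dvd_prime_pow hp).1 h1.minimalPeriod_dvd
  have h3 : b < n := by
    by_contra hcon
    have hbn' : b = n := by omega
    rw [hbn'] at hb
    have := Nat.le_of_dvd hk0 h2.minimalPeriod_dvd
    rw [hb] at this; omega
  have h4 : Function.minimalPeriod π x ∣ p ^ (n - 1) := by rw [hb]; exact pow_dvd_pow p (by omega)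
  have h5 : Function.IsPeriodicPt π (p ^ (n - 1)) x := Function.isPeriodicPt_iff_minimalPeriod_dvd.2 h4
  rw [Equiv.Perm.coe_pow]; exact h5

section Rs

variable {Q : Type*} [Group Q]

/-- restriction of an automorphism -/
def rs (σ : MulAut Q) (H : Subgroup Q) (hH : ∀ x, σ x ∈ H ↔ x ∈ H) : MulAut H where
  toFun x := ⟨σ x, (hH _).2 x.2⟩
  invFun x := ⟨σ⁻¹ (x : Q), (hH _).1 (by rw [MulAut.apply_inv_self]; exact x.2)⟩
  left_inv x := Subtype.ext (MulAut.inv_apply_self _ _ _)
  right_inv x := Subtype.ext (MulAut.apply_inv_self _ _ _)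
  map_mul' x y := Subtype.ext (map_mul _ _ _)

theorem rs_apply (σ : MulAut Q) (H : Subgroup Q) (hH : ∀ x, σ x ∈ H ↔ x ∈ H) (x : H) : ((rs σ H hH x : H) : Q) = σ x := rfl

theorem rs_pow (σ : MulAut Q) (H : Subgroup Q) (hH : ∀ x, σ x ∈ H ↔ x ∈ H) (k : ℕ) (x : H) :
    ((((rs σ H hH) ^ k) x : H) : Q) = (σ ^ k) x := by
  induction k with
  | zero => rfl
  | succ k ih => rw [pow_succ', MulAut.mul_apply, rs_apply, ih, pow_succ', MulAut.mul_apply]

theorem inv_iff [Finite Q] (σ : MulAut Q) (H : Subgroup Q) (h : ∀ x ∈ H, σ x ∈ H) (x : Q) : σ x ∈ H ↔ x ∈ H := by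
  refine ⟨fun hx => ?_, h x⟩
  have hinj : Function.Injective (fun y : H => (⟨σ y, h _ y.2⟩ : H)) := by
    intro a b hab
    exact Subtype.ext (σ.injective (congrArg Subtype.val hab))
  obtain ⟨y, hy⟩ := Finite.surjective_of_injective hinj ⟨σ x, hx⟩
  have h2 : σ y = σ x := congrArg Subtype.val hy
  rw [← σ.injective h2]; exact y.2

theorem pow_mem {σ : MulAut Q} {H : Subgroup Q} (h : ∀ x, σ x ∈ H ↔ x ∈ H) (k : ℕ) (x : Q) : (σ ^ k) x ∈ H ↔ x ∈ H := by
  induction k with
  | zero => rfl
  | succ k ih => rw [pow_succ', MulAut.mul_apply, h, ih]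

end Rs

/-- the counting step -/
theorem count {Q : Type*} [Group Q] [Finite Q] (σ : MulAut Q) {p n : ℕ} (hp : p.Prime) (C : Subgroup Q) [hC : C.Normal] (hCσ : ∀ x, σ x ∈ C ↔ x ∈ C)
    (hσn : ∀ x, (σ ^ p ^ n) x = x) (hψ : ∀ y, y⁻¹ * (σ ^ p ^ (n - 1)) y ∈ C → y ∈ C) (hCt : C ≠ ⊤) : p ^ n ∣ C.index - 1 := by
  classical
  let π : Equiv.Perm (Q ⧸ C) := (QuotientGroup.congr C C σ (by
    ext x
    constructor
    · rintro ⟨y, hy, rfl⟩
      exact (hCσ y).2 hy
    · intro hx
      exact ⟨σ⁻¹ x, (hCσ _).1 (by rw [MulAut.apply_inv_self]; exact hx), MulAut.apply_inv_self _ _ _⟩)).toEquiv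
  have hπ : ∀ k : ℕ, ∀ x : Q, (π ^ k) (x : Q ⧸ C) = ((σ ^ k) x : Q) := by
    intro k x
    induction k with
    | zero => rfl
    | succ k ih => rw [pow_succ', Equiv.Perm.mul_apply, ih, pow_succ', MulAut.mul_apply]; rfl
  have hπ1 : π ^ p ^ n = 1 := by
    ext x
    obtain ⟨x, rfl⟩ := QuotientGroup.mk_surjective x
    rw [hπ, hσn]; rfl
  have hfix : ∀ x : Q ⧸ C, (π ^ p ^ (n - 1)) x = x → x = 1 := by
    intro x hx
    obtain ⟨x, rfl⟩ := QuotientGroup.mk_surjective x
    rw [hπ] at hx
    exact (QuotientGroup.eq_one_iff _).2 (hψ x (QuotientGroup.eq.1 hx.symm))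
  obtain ⟨x, hx⟩ : ∃ x, x ∉ C := by
    by_contra hcon
    push Not at hcon
    exact hCt ((Subgroup.eq_top_iff' C).2 hcon)
  have h1 := orbits_count π (1 : Q ⧸ C) (p ^ n) (pow_pos hp.pos n) hπ1 (by
      have := hπ 1 1
      rw [pow_one, pow_one, map_one] at this
      exact this) (perm_free π 1 hp hπ1 hfix) ⟨(x : Q ⧸ C), fun h => hx ((QuotientGroup.eq_one_iff _).1 h)⟩
  have h2 : 1 ≤ Nat.card (Q ⧸ C) := Nat.card_pos
  have h3 : 1 ≤ p ^ n := pow_pos hp.pos n
  have h4 : Nat.card (Q ⧸ C) - 1 + p ^ n = Nat.card (Q ⧸ C) + (p ^ n - 1) := by omega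
  rw [Subgroup.index_eq_card, ← Nat.dvd_add_self_right, h4, ← h1]
  exact dvd_mul_left _ _

set_option maxHeartbeats 2000000 in
theorem prop1 {F : Type*} [Field F] [IsAlgClosed F] {p q : ℕ} [hpf : Fact p.Prime] [hqf : Fact q.Prime] (hpF : (p : F) ≠ 0)
    (hqF : (q : F) ≠ 0) (hpq : p.Coprime q) {n : ℕ} (hn : 1 ≤ n) (hp2 : p ≠ 2 ∨ n ≤ 2) {W : Type v} [AddCommGroup W] [Module F W]
    [FiniteDimensional F W] (T : End F W) (hTn : T ^ p ^ n = 1) (h1 : ∀ v, T v = v → v = 0) :
    ∀ (N : ℕ) (Q : Type u) [Group Q] [Finite Q] (_ : Nat.card Q ≤ N) (_ : IsPGroup q Q) (ρ : Q →* End F W)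
      (_ : Function.Injective ρ) (σ : MulAut Q) (_ : ∀ x, σ x = x → x = 1) (_ : ∀ x, T * ρ x = ρ (σ x) * T),
      ∀ x, (σ ^ p ^ (n - 1)) x = x := by
  intro N
  induction N with
  | zero =>
    intro Q _ _ hN
    exact absurd hN (not_le.2 Nat.card_pos)
  | succ N ih =>
    intro Q _ _ hN hQ ρ hρ σ hσ hT
    have hp := hpf.out
    have hq := hqf.out
    by_contra hcon
    set ψ := σ ^ p ^ (n - 1) with hψdef
    -- the configuration
    have hCfg : Cfg p q ρ σ T n := by
      refine ⟨hn, hT, hTn, hQ, ?_⟩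
      push Not at hcon
      obtain ⟨x, hx⟩ := hcon
      exact ⟨x, fun h => hx (hρ h)⟩
    have hσn : ∀ x, (σ ^ p ^ n) x = x := fun x => hρ (hCfg.hper x)
    have hψp : ∀ x, (ψ ^ p) x = x := by
      intro x
      rw [hψdef, ← pow_mul, ← pow_succ, Nat.sub_add_cancel hn]
      exact hσn x
    -- the fixed points
    let C : Subgroup Q :=
      { carrier := {x | ψ x = x}
        mul_mem' := by
          intro a b ha hb
          show ψ (a * b) = a * b
          rw [map_mul, ha, hb]
        one_mem' := map_one ψ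
        inv_mem' := by
          intro a ha
          show ψ a⁻¹ = a⁻¹
          rw [map_inv, ha] }
    have hmemC : ∀ x, x ∈ C ↔ ψ x = x := fun x => Iff.rfl
    have hcomm_σψ : ∀ x, ψ (σ x) = σ (ψ x) := by
      intro x
      rw [hψdef, ← MulAut.mul_apply, ← MulAut.mul_apply, ← pow_succ, ← pow_succ']
    have hCσ : ∀ x, σ x ∈ C ↔ x ∈ C := by
      intro x
      rw [hmemC, hmemC, hcomm_σψ]
      exact σ.injective.eq_iff
    have hCt : C ≠ ⊤ := by
      intro ht
      apply hcon
      intro x
      have : x ∈ C := ht ▸ Subgroup.mem_top x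
      exact this
    -- proper invariant subgroups
    have hstar : ∀ H : Subgroup Q, (∀ x ∈ H, σ x ∈ H) → H ≠ ⊤ → H ≤ C := by
      intro H hH hHt x hx
      have hH' := inv_iff σ H hH
      have hlt : Nat.card H < Nat.card Q := by
        apply lt_of_le_of_ne (Subgroup.card_le_card_group H)
        intro h
        exact hHt (Subgroup.eq_top_of_card_eq H h)
      have h2 := ih H (by omega) (hQ.to_subgroup H) (ρ.comp H.subtype) (hρ.comp H.subtype_injective) (rs σ H hH')
        (by
          intro y hy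
          exact Subtype.ext (hσ _ (congrArg Subtype.val hy))) (by
          intro y
          exact hT _) ⟨x, hx⟩
      have h3 := congrArg Subtype.val h2
      rw [rs_pow] at h3
      exact h3
    haveI : Nontrivial Q := by
      rw [← not_subsingleton_iff_nontrivial]
      intro hs
      apply hcon
      intro x
      exact Subsingleton.elim _ _
    haveI : Group.IsNilpotent Q := hQ.isNilpotent
    have hcm : ∀ x y : Q, ⁅x, y⁆ ∈ C := by
      have h2 : commutator Q ≤ C := by
        apply hstar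
        · intro x hx
          have h3 : (commutator Q).map σ.toMonoidHom ≤ commutator Q := by
            rw [commutator_def, Subgroup.map_commutator]
            exact Subgroup.commutator_mono le_top le_top
          exact h3 ⟨x, hx, rfl⟩
        · exact (Group.IsSolvable.commutator_lt_top_of_nontrivial Q).ne
      intro x y
      exact h2 (Subgroup.commutator_mem_commutator (Subgroup.mem_top x) (Subgroup.mem_top y))
    haveI hCn : C.Normal := ⟨by
      intro c hc y
      have h2 : y * c * y⁻¹ = ⁅y, c⁆ * c := by rw [commutatorElement_def]; group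
      rw [h2]
      exact mul_mem (hcm _ _) hc⟩
    -- telescoping
    have htel : ∀ y, y⁻¹ * ψ y ∈ C → y ∈ C := fun y hy => tel hpq hQ ψ hψp y hy
    -- centrality
    have hCc : ∀ c ∈ C, ∀ x, c * x = x * c := by
      have h2 : Subgroup.centralizer (C : Set Q) = ⊤ := by
        by_contra hne
        have h3 := hstar (Subgroup.centralizer (C : Set Q)) (by
          intro x hx
          rw [Subgroup.mem_centralizer_iff] at hx ⊢
          intro c hc
          have h4 : σ⁻¹ c ∈ C := (hCσ _).1 (by rw [MulAut.apply_inv_self]; exact hc)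
          have h5 := congrArg σ (hx _ h4)
          rw [map_mul, map_mul, MulAut.apply_inv_self] at h5
          exact h5) hne
        apply hcon
        intro x
        have h4 : ψ x * x⁻¹ ∈ Subgroup.centralizer (C : Set Q) := by
          rw [Subgroup.mem_centralizer_iff]
          intro c hc
          have h5 : x⁻¹ * c * x ∈ C := by
            have := hCn.conj_mem c hc x⁻¹
            rwa [inv_inv] at this
          have h6 : ψ (x⁻¹ * c * x) = x⁻¹ * c * x := h5
          have h7 : ψ c = c := hc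
          rw [map_mul, map_mul, map_inv, h7] at h6
          calc c * (ψ x * x⁻¹) = ψ x * ((ψ x)⁻¹ * c * ψ x) * x⁻¹ := by group
            _ = ψ x * (x⁻¹ * c * x) * x⁻¹ := by rw [h6]
            _ = _ := by group
        have h5 : (x⁻¹)⁻¹ * ψ x⁻¹ ∈ C := by
          have h6 := inv_mem (h3 h4)
          have h7 : (ψ x * x⁻¹)⁻¹ = (x⁻¹)⁻¹ * ψ x⁻¹ := by rw [map_inv]; group
          rwa [h7] at h6
        have h6 := htel _ h5
        have h7 := inv_mem h6
        rw [inv_inv] at h7
        exact h7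
      intro c hc x
      have h3 : x ∈ Subgroup.centralizer (C : Set Q) := h2 ▸ Subgroup.mem_top x
      exact (Subgroup.mem_centralizer_iff.1 h3 c hc)
    have hCA : C ≤ cen ρ := by
      intro c hc y
      show ρ c * ρ y = ρ y * ρ c
      rw [← map_mul, ← map_mul, hCc c hc]
    have hcardF : (Nat.card Q : F) ≠ 0 := by
      obtain ⟨l, hl⟩ := IsPGroup.iff_card.1 hQ
      rw [hl, Nat.cast_pow]
      exact pow_ne_zero l hqF
    -- the weight
    obtain ⟨χ, x₁, v₁, hv₁, hx₁⟩ : ∃ χ : C → F, ∃ x, ∃ v ∈ wtA ρ C χ, ρ (ψ x) v ≠ ρ x v := by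
      by_contra hno
      push Not at hno
      obtain ⟨x, hx⟩ := hCfg.hnt
      apply hx
      have htop := wtA_top ρ C hCA hcardF
      have h2 : (⊤ : Submodule F W) ≤ LinearMap.eqLocus (ρ (ψ x)) (ρ x) := by
        rw [← htop]
        exact iSup_le fun μ v hv => hno μ x v hv
      ext v
      exact h2 (Submodule.mem_top (x := v))
    have hv₁0 : v₁ ≠ 0 := by
      rintro rfl
      exact hx₁ (by rw [map_zero, map_zero])
    have hχne : wtA ρ C χ ≠ ⊥ := fun hb => hv₁0 (by rw [hb] at hv₁; exact (Submodule.mem_bot F).1 hv₁)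
    obtain ⟨j, hjn, hjper, hjfix, hRT, hR1⟩ := orb hT hTn h1 hCσ χ hχne
    set R := wtA ρ C χ with hRdef
    have hRinv : ∀ x, R ≤ R.comap (ρ x) := wtA_inv hCA χ
    have hCfg' := hCfg.rstCfg R hRinv j hjn hRT ⟨x₁, v₁, hv₁, hx₁⟩
    have hexp : (σ ^ p ^ j) ^ p ^ (n - j - 1) = ψ := by
      rw [← pow_mul, ← pow_add, hψdef]
      congr 2; omega
    have hloc := local_step hpF hqF hpq hCfg' (by
        intro x
        rw [← pow_mul, ← pow_add, Nat.add_sub_cancel' hjn.le]
        exact hσn x) (by
        intro v hv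
        exact Subtype.ext (hR1 v v.2 (congrArg Subtype.val hv))) C hCc hcm χ (by
        intro c
        ext v
        rw [rst_apply, v.2 c]
        rfl) (by
        intro y hy
        rw [hexp] at hy
        exact htel y hy)
    obtain ⟨hAt, D, hD, hD2⟩ := hloc
    set A := cen (rst ρ R hRinv) with hAdef
    -- characterization of A
    have hχ1 : χ 1 = 1 := by
      have h2 := hv₁ 1
      rw [Subgroup.coe_one, map_one, Module.End.one_apply] at h2
      exact smul_left_injective F hv₁0 (by show χ 1 • v₁ = (1 : F) • v₁; rw [one_smul]; exact h2.symm)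
    have hχm : ∀ a b, χ (a * b) = χ a * χ b := by
      intro a b
      have h2 := hv₁ (a * b)
      rw [Subgroup.coe_mul, map_mul, Module.End.mul_apply, hv₁ b, map_smul, hv₁ a, smul_smul] at h2
      rw [mul_comm]
      exact smul_left_injective F hv₁0 h2.symm
    have hχne0 : ∀ a, χ a ≠ 0 := by
      intro a ha
      have h2 := hχm a a⁻¹
      rw [mul_inv_cancel, hχ1, ha, zero_mul] at h2
      exact one_ne_zero h2
    have hAmem : ∀ w, w ∈ A ↔ ∀ y, χ ⟨⁅w, y⁆, hcm w y⟩ = 1 := by
      intro w
      rw [hAdef, mem_cen']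
      refine forall_congr' fun y => ?_
      have h2 : w * y = ⁅w, y⁆ * (y * w) := by rw [commutatorElement_def]; group
      constructor
      · intro h3
        rw [h2, map_mul] at h3
        have h4 := congrArg (fun f => f * (rst ρ R hRinv) (y * w)⁻¹) h3
        simp only [mul_assoc, ← map_mul, mul_inv_cancel, mul_one] at h4
        have h5 := congrArg (fun f : End F R => ((f ⟨v₁, hv₁⟩ : R) : W)) h4
        simp only [rst_apply, map_one, Module.End.one_apply] at h5
        have h6 := hv₁ ⟨⁅w, y⁆, hcm w y⟩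
        apply smul_left_injective F hv₁0
        show χ ⟨⁅w, y⁆, hcm w y⟩ • v₁ = (1 : F) • v₁
        rw [one_smul, ← h6]
        exact h5
      · intro h3
        rw [h2, map_mul]
        have h4 : (rst ρ R hRinv) ⁅w, y⁆ = 1 := by
          ext v
          rw [rst_apply]
          have h5 := v.2 ⟨⁅w, y⁆, hcm w y⟩
          rw [h3, one_smul] at h5
          exact h5
        rw [h4, one_mul]
    have hCσk := pow_mem hCσ
    -- periodicity
    set P := p ^ j with hPdef
    have hPpos : 0 < P := pow_pos hp.pos j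
    have hχP : ∀ (a : C) (ha : (σ ^ P) (a : Q) ∈ C), χ ⟨(σ ^ P) (a : Q), ha⟩ = χ a := by
      intro a ha
      have h2 := tw_iter (F := F) hCσ P χ a ha
      rwa [hjfix] at h2
    -- the product
    let X : ℕ → C → F := fun i a => χ ⟨(σ ^ i) (a : Q), (hCσk i _).2 a.2⟩
    have hX0 : ∀ a, X 0 a = χ a := fun a => rfl
    have hXP : ∀ a, X P a = χ a := fun a => hχP a _
    have hXσ : ∀ i (a : C) (ha : σ (a : Q) ∈ C), X i ⟨σ (a : Q), ha⟩ = X (i + 1) a := by
      intro i a ha
      show χ _ = χ _
      congr 1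
    have hX1 : ∀ i, X i 1 = 1 := by
      intro i
      show χ _ = 1
      rw [← hχ1]
      congr 1
      exact Subtype.ext (map_one _)
    have hXm : ∀ i a b, X i (a * b) = X i a * X i b := by
      intro i a b
      show χ _ = χ _ * χ _
      rw [← hχm]
      congr 1
      exact Subtype.ext (map_mul _ _ _)
    have hprod : ∀ a : C, ∏ i ∈ Finset.range P, X i a = 1 := by
      apply char_triv σ hσ C hCσ (fun a => ∏ i ∈ Finset.range P, X i a)
      · exact Finset.prod_eq_one fun i _ => hX1 i
      · intro a b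
        rw [← Finset.prod_mul_distrib]
        exact Finset.prod_congr rfl fun i _ => hXm i a b
      · intro a ha
        show ∏ i ∈ Finset.range P, X i ⟨σ (a : Q), ha⟩ = ∏ i ∈ Finset.range P, X i a
        have h2 : ∏ i ∈ Finset.range P, X i ⟨σ (a : Q), ha⟩ = ∏ i ∈ Finset.range P, X (i + 1) a :=
          Finset.prod_congr rfl fun i _ => hXσ i a ha
        rw [h2]
        have h3 := Finset.prod_range_succ (fun i => X i a) P
        have h4 := Finset.prod_range_succ' (fun i => X i a) P
        rw [h3, hXP, hX0] at h4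
        exact (mul_right_cancel₀ (hχne0 a) h4).symm
    have hD0 : 0 < D := by
      rcases Nat.eq_zero_or_pos D with h2 | h2
      · rw [h2] at hD
        have h3 : 0 < Nat.card (Q ⧸ A) := Nat.card_pos
        rw [← hD] at h3
        simp at h3
      · exact h2
    -- j ≠ 0
    have hj0 : j ≠ 0 := by
      intro hj0
      apply hAt
      rw [Subgroup.eq_top_iff']
      intro w
      rw [hAmem]
      intro y
      have h2 := hprod ⟨⁅w, y⁆, hcm w y⟩
      rw [hPdef, hj0, pow_zero, Finset.prod_range_one, hX0] at h2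
      exact h2
    have hAidx : A.index ≠ 1 := by
      intro h2
      exact hAt (Subgroup.index_eq_one.1 h2)
    have hDidx : D ^ 2 = A.index := by rw [hD, Subgroup.index_eq_card]
    have hDne1 : D ≠ 1 := by
      rintro rfl
      exact hAidx (by rw [← hDidx, one_pow])
    -- p ≠ 2
    have hp2' : p ≠ 2 := by
      rintro rfl
      have h2 : n ≤ 2 := hp2.resolve_left (fun h => h rfl)
      have h3 : n - j = 1 := by omega
      rw [h3] at hD2
      exact hDne1 hD2
    have hodd : Odd p := hp.odd_of_ne_two hp2'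
    have hDeven : 2 ∣ D := by
      rw [hD2]
      have h2 : Odd (p ^ (n - j)) := hodd.pow
      obtain ⟨t, ht⟩ := h2
      rw [ht]
      exact ⟨t, by omega⟩
    obtain ⟨l, hl⟩ := hQ.index A
    have hq2 : q = 2 := by
      have h2 : 2 ∣ q ^ l := by
        rw [← hl, ← hDidx]
        exact dvd_pow hDeven two_ne_zero
      exact ((Nat.prime_dvd_prime_iff_eq Nat.prime_two hq).1 (Nat.prime_two.dvd_of_dvd_pow h2)).symm
    subst hq2
    obtain ⟨m, hm⟩ : ∃ m, D = 2 ^ m := by
      have h2 : D ∣ 2 ^ l := by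
        rw [← hl, ← hDidx]
        exact dvd_pow_self D two_ne_zero
      obtain ⟨m, _, hm⟩ := (Nat.dvd_prime_pow Nat.prime_two).1 h2
      exact ⟨m, hm⟩
    have hm1 : 1 ≤ m := by
      rcases Nat.eq_zero_or_pos m with h2 | h2
      · exact absurd (by rw [hm, h2, pow_zero]) hDne1
      · exact h2
    -- the intersection
    have hAσP : ∀ w, w ∈ A → (σ ^ P) w ∈ A := by
      intro w hw
      have h2 : ∀ x : Q, (σ ^ P) x ∈ A ↔ x ∈ A := by
        intro x
        have := hCfg'.cen_sigma hp x
        exact this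
      exact (h2 w).2 hw
    have hAmod : ∀ (w : Q), (∀ i, i < P → (σ ^ i) w ∈ A) → ∀ i, (σ ^ i) w ∈ A := by
      intro w hw i
      rw [← Nat.div_add_mod i P, pow_add, MulAut.mul_apply, pow_mul]
      have h2 := hw (i % P) (Nat.mod_lt _ hPpos)
      generalize i / P = t
      induction t with
      | zero => exact h2
      | succ t iht => rw [pow_succ', MulAut.mul_apply]; exact hAσP _ iht
    let B : Subgroup Q := ⨅ i : ℕ, A.comap (σ ^ i).toMonoidHom
    have hBmem : ∀ w, w ∈ B ↔ ∀ i, (σ ^ i) w ∈ A := by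
      intro w
      rw [Subgroup.mem_iInf]
      rfl
    have hBC : B ≤ C := by
      apply hstar
      · intro x hx
        rw [hBmem] at hx ⊢
        intro i
        rw [← MulAut.mul_apply, ← pow_succ]
        exact hx (i + 1)
      · intro ht
        apply hAt
        rw [Subgroup.eq_top_iff']
        intro w
        have h2 : w ∈ B := ht ▸ Subgroup.mem_top w
        exact (hBmem w).1 h2 0
    have hle : (⨅ i : Fin (P - 1), A.comap (σ ^ ((i : ℕ) + 1)).toMonoidHom) ≤ B := by
      intro w hw
      rw [Subgroup.mem_iInf] at hw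
      rw [hBmem]
      apply hAmod
      have h2 : ∀ i, i + 1 < P → (σ ^ (i + 1)) w ∈ A := fun i hi => hw ⟨i, by omega⟩
      intro i hi
      rcases Nat.eq_zero_or_pos i with h3 | h3
      · subst h3
        show w ∈ A
        rw [hAmem]
        intro y
        have h4 := hprod ⟨⁅w, y⁆, hcm w y⟩
        obtain ⟨P', hP'⟩ : ∃ P', P = P' + 1 := ⟨P - 1, by omega⟩
        rw [hP', Finset.prod_range_succ', hX0, Finset.prod_eq_one, one_mul] at h4
        · exact h4
        · intro i hi
          rw [Finset.mem_range] at hi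
          have h5 := (hAmem _).1 (h2 i (by omega)) ((σ ^ (i + 1)) y)
          rw [← h5]
          show χ _ = χ _
          congr 1
          exact Subtype.ext (map_commutatorElement _ _ _)
      · obtain ⟨i', rfl⟩ : ∃ i', i = i' + 1 := ⟨i - 1, by omega⟩
        exact h2 i' hi
    have hidx : C.index ≤ (D ^ 2) ^ (P - 1) := by
      have h2 : C.index ≤ (⨅ i : Fin (P - 1), A.comap (σ ^ ((i : ℕ) + 1)).toMonoidHom).index :=
        Nat.le_of_dvd (Nat.pos_of_ne_zero Subgroup.FiniteIndex.index_ne_zero) (Subgroup.index_dvd_of_le (hle.trans hBC))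
      refine h2.trans ((Subgroup.index_iInf_le _).trans ?_)
      rw [Finset.prod_congr rfl (fun i _ => by
        rw [Subgroup.index_comap_of_surjective A (f := (σ ^ ((i : ℕ) + 1)).toMonoidHom) (σ ^ ((i : ℕ) + 1)).surjective, ← hDidx])]
      simp
    obtain ⟨w, hw⟩ := hQ.index C
    have hw1 : 1 ≤ w := by
      rcases Nat.eq_zero_or_pos w with h2 | h2
      · rw [h2, pow_zero] at hw
        exact absurd (Subgroup.index_eq_one.1 hw) hCt
      · exact h2
    have hdvd := count σ hp C hCσ hσn htel hCt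
    rw [hw] at hdvd
    have h2 := lte_aux p m (n - j) j w hp2' hm1 (by
      rw [← hm, hD2]
      have : 0 < p ^ (n - j) := pow_pos hp.pos _
      omega) hw1 (by rw [Nat.sub_add_cancel hjn.le]; exact hdvd)
    rw [hw, hm, ← pow_mul, ← pow_mul] at hidx
    have h3 := (Nat.pow_le_pow_iff_right (by norm_num : 1 < 2)).1 hidx
    rw [← hPdef] at h2
    have h4 : 2 * m * P ≤ m * (2 * (P - 1)) := h2.trans h3
    have h5 : m * (2 * (P - 1)) < 2 * m * P := by
      rw [← mul_assoc, mul_comm m 2]
      exact Nat.mul_lt_mul_of_pos_left (by omega) (by omega)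
    omega

end CfsgLib.SGProp1
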