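import Cfsg.Agent.LibSGMain

set_option autoImplicit false

/-!
Eigenvalue version of the Hall-Higman theorem B: the reduction to the scalar case (helper4).
-/

namespace CfsgLib.SGMain

open Module CfsgLib.HHBExt CfsgLib.SGLin CfsgLib.SGExt
open CfsgLib.HHBMain (Concl wt_indep)
open scoped commutatorElement

universe u v

section Orb

variable {F : Type*} [Field F] {W : Type*} [AddCommGroup W] [Module F W]

/-- eigenvalues of an operator cyclically permuting independent subspaces -/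
theorem eig_orb [IsAlgClosed F] (T : End F W) (m : ℕ) (hm : 0 < m) (μ : F) (hμ : μ ≠ 0) (v : W) (hv : v ≠ 0) (hT : (T ^ m) v = μ • v)
    (hind : ∀ c : ℕ → F, ∑ i ∈ Finset.range m, c i • (T ^ i) v = 0 → c 0 = 0) :
    ∀ ν : F, ν ^ m = μ → ν ∈ eig T := by
  intro ν hν
  have hν0 : ν ≠ 0 := by
    rintro rfl
    rw [zero_pow hm.ne'] at hν
    exact hμ hν.symm
  set w := ∑ i ∈ Finset.range m, (ν⁻¹) ^ i • (T ^ i) v with hw
  refine mem_eig.2 ⟨w, ?_, ?_⟩
  · intro h0
    have := hind (fun i => (ν⁻¹) ^ i) h0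
    simp at this
  · rw [hw, map_sum, Finset.smul_sum]
    have h1 : ∀ i, T ((ν⁻¹) ^ i • (T ^ i) v) = ν • ((ν⁻¹) ^ (i + 1) • (T ^ (i + 1)) v) := by
      intro i
      rw [map_smul, smul_smul, ← Module.End.mul_apply, ← pow_succ']
      congr 1
      rw [pow_succ, mul_comm, mul_assoc, inv_mul_cancel₀ hν0, mul_one]
    simp only [h1]
    obtain ⟨k, rfl⟩ : ∃ k, m = k + 1 := ⟨m - 1, by omega⟩
    rw [← Finset.smul_sum, ← Finset.smul_sum]
    congr 1
    rw [Finset.sum_range_succ, Finset.sum_range_succ' (fun i => (ν⁻¹) ^ i • (T ^ i) v)]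
    congr 1
    rw [hT, smul_smul, pow_zero, pow_zero, one_smul, Module.End.one_apply, inv_pow, hν, inv_mul_cancel₀ hμ, one_smul]

/-- counting eigenvalues through roots -/
theorem eig_count [IsAlgClosed F] [FiniteDimensional F W] (T : End F W) (m : ℕ) (hm : 0 < m) (hmF : (m : F) ≠ 0) (E : Set F)
    (hE : E.Finite) (hE0 : ∀ μ ∈ E, μ ≠ 0) (h : ∀ μ ∈ E, ∀ ν : F, ν ^ m = μ → ν ∈ eig T) : m * E.ncard ≤ (eig T).ncard := by
  classical
  have hroot : ∀ μ : F, ∃ ν : F, ν ^ m = μ := fun μ => IsAlgClosed.exists_pow_nat_eq μ hm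
  choose rt hrt using hroot
  obtain ⟨hmuf, hmuc⟩ := mu_ncard (F := F) hm hmF
  let f : F × F → F := fun x => rt x.1 * x.2
  have h1 : Set.InjOn f (E ×ˢ mu F m) := by
    rintro ⟨a, x⟩ ⟨ha, hx⟩ ⟨b, y⟩ ⟨hb, hy⟩ hxy
    have hx' : x ^ m = 1 := hx
    have hy' : y ^ m = 1 := hy
    have hxy' : rt a * x = rt b * y := hxy
    have h2 := congrArg (fun z => z ^ m) hxy'
    simp only [mul_pow, hrt, hx', hy', mul_one] at h2
    subst h2
    have h3 : rt a ≠ 0 := by
      intro h0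
      have := hrt a
      rw [h0, zero_pow hm.ne'] at this
      exact hE0 a ha this.symm
    rw [mul_left_cancel₀ h3 hxy']
  have h2 : f '' (E ×ˢ mu F m) ⊆ eig T := by
    rintro _ ⟨⟨a, x⟩, ⟨ha, hx⟩, rfl⟩
    apply h a ha
    show (rt a * x) ^ m = a
    rw [mul_pow, hrt, show x ^ m = 1 from hx, mul_one]
  have h3 := Set.ncard_le_ncard h2 (eig_finite T)
  rw [h1.ncard_image, Set.ncard_prod, hmuc] at h3
  rwa [mul_comm]

end Orb

section Red

variable {F : Type*} [Field F] {p q : ℕ} {Q : Type*} [Group Q] {W : Type*} [AddCommGroup W] [Module F W]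
    {ρ : Q →* End F W} {σ : MulAut Q} {T : End F W} {n : ℕ}

/-- weight spaces of the centre -/
def wt (ρ : Q →* End F W) (χ : cen ρ → F) : Submodule F W where
  carrier := {w | ∀ a : cen ρ, ρ a w = χ a • w}
  add_mem' := by
    intro v w hv hw a
    rw [map_add, hv a, hw a, smul_add]
  zero_mem' := by intro a; simp
  smul_mem' := by
    intro c v hv a
    rw [map_smul, hv a, smul_comm]

theorem wt_inv (χ : cen ρ → F) (x : Q) : wt ρ χ ≤ (wt ρ χ).comap (ρ x) := by
  intro v hv a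
  have h1 := a.2 x
  have h2 : ρ a (ρ x v) = ρ x (ρ a v) := congrArg (fun f : End F W => f v) h1.eq
  rw [h2, hv a, map_smul]

theorem exists_wt [Finite Q] [IsAlgClosed F] [FiniteDimensional F W] [Nontrivial W] (ρ : Q →* End F W) :
    ∃ χ : cen ρ → F, wt ρ χ ≠ ⊥ := by
  haveI : Fintype Q := Fintype.ofFinite Q
  obtain ⟨S, hS, hS0, hirr⟩ := exists_simple ρ
  haveI : Nontrivial S := Submodule.nontrivial_iff_ne_bot.2 hS0
  have h1 : ∀ a : cen ρ, ∃ c : F, rst ρ S hS a = c • (1 : End F S) := by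
    intro a
    apply schur hirr
    intro x
    rw [← map_mul, ← map_mul]
    ext v
    rw [rst_apply, rst_apply, map_mul, map_mul, (a.2 x).eq]
  choose χ hχ using h1
  refine ⟨χ, ?_⟩
  intro hbot
  apply hS0
  rw [eq_bot_iff, ← hbot]
  intro v hv a
  have := congrArg (fun f : End F S => ((f ⟨v, hv⟩ : S) : W)) (hχ a)
  simpa [rst_apply] using this

theorem Cfg.step3 [Finite Q] [IsAlgClosed F] [hpf : Fact p.Prime] [FiniteDimensional F W] [Nontrivial W]
    (h : Cfg p q ρ σ T n)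
    (hirrT : ∀ R : Submodule F W, (∀ x, R ≤ R.comap (ρ x)) → R ≤ R.comap T → R = ⊥ ∨ R = ⊤) :
    (∀ a ∈ cen ρ, ∃ c : F, ρ a = c • (1 : End F W)) ∨
    ∃ (R : Submodule F W) (a : ℕ), (∀ x, R ≤ R.comap (ρ x)) ∧ 1 ≤ a ∧ a ≤ n ∧ R ≠ ⊥ ∧ R ≠ ⊤ ∧
      (R ≤ R.comap (T ^ p ^ a)) ∧
      ∀ μ : F, μ ≠ 0 → (∃ v ∈ R, v ≠ 0 ∧ (T ^ p ^ a) v = μ • v) → ∀ ν : F, ν ^ p ^ a = μ → ν ∈ eig T := by
  classical
  have hp := hpf.out
  obtain ⟨χ, hχ⟩ := exists_wt ρ
  obtain ⟨w₀, hw₀, hw₀0⟩ := Submodule.exists_mem_ne_zero_of_ne_bot hχ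
  have hinvσ : ∀ x, x ∈ cen ρ → σ⁻¹ x ∈ cen ρ := by
    intro x hx
    rw [← h.cen_sigma hp, MulAut.apply_inv_self]; exact hx
  let f : (cen ρ → F) → (cen ρ → F) := fun χ a => χ ⟨σ⁻¹ (a : Q), hinvσ a a.2⟩
  have hTf : ∀ χ : cen ρ → F, wt ρ χ ≤ (wt ρ (f χ)).comap T := by
    intro χ v hv a
    have h1 : T (ρ (σ⁻¹ (a : Q)) v) = ρ a (T v) := by
      have := congrArg (fun g : End F W => g v) (h.hT (σ⁻¹ (a : Q)))
      simp only [Module.End.mul_apply, MulAut.apply_inv_self] at this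
      exact this
    rw [← h1]
    have h2 := hv ⟨σ⁻¹ (a : Q), hinvσ a a.2⟩
    rw [show ρ (σ⁻¹ (a : Q)) v = _ from h2, map_smul]
  have hTfk : ∀ k χ, ∀ v ∈ wt ρ χ, (T ^ k) v ∈ wt ρ (f^[k] χ) := by
    intro k
    induction k with
    | zero => intro χ v hv; exact hv
    | succ k ih =>
      intro χ v hv
      rw [pow_succ, Module.End.mul_apply, Function.iterate_succ_apply]
      exact ih _ _ (hTf _ hv)
  have huniq : ∀ χ χ' : cen ρ → F, ∀ v, v ≠ 0 → v ∈ wt ρ χ → v ∈ wt ρ χ' → χ = χ' := by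
    intro χ χ' v hv h1 h2
    funext a
    have := (h1 a).symm.trans (h2 a)
    exact smul_left_injective F hv this
  have hper : Function.IsPeriodicPt f (p ^ n) χ := by
    have h1 := hTfk (p ^ n) χ w₀ hw₀
    rw [h.hTn] at h1
    exact (huniq _ _ w₀ hw₀0 hw₀ h1).symm
  have hdvd := hper.minimalPeriod_dvd
  obtain ⟨a, han, ha⟩ := (Nat.dvd_prime_pow hp).1 hdvd
  obtain ⟨T', hT1, hT2⟩ := h.inv hp
  have hTinj : ∀ v, T v = 0 → v = 0 := by
    intro v hv
    have : T' (T v) = v := congrArg (fun g : End F W => g v) hT2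
    rw [← this, hv, map_zero]
  have hTkinj : ∀ k v, (T ^ k) v = 0 → v = 0 := by
    intro k
    induction k with
    | zero => intro v hv; exact hv
    | succ k ih => intro v hv; rw [pow_succ, Module.End.mul_apply] at hv; exact hTinj v (ih _ hv)
  rcases Nat.eq_zero_or_pos a with ha0 | ha0
  · left
    rw [ha0, pow_zero] at ha
    have hfix : f χ = χ := Function.minimalPeriod_eq_one_iff_isFixedPt.1 ha
    rcases hirrT (wt ρ χ) (wt_inv χ) (by
      have := hTf χ
      rwa [hfix] at this) with h1 | h1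
    · exact absurd h1 hχ
    · intro b hb
      refine ⟨χ ⟨b, hb⟩, ?_⟩
      ext v
      have hv : v ∈ wt ρ χ := h1 ▸ Submodule.mem_top
      exact hv ⟨b, hb⟩
  · right
    have hneq : f χ ≠ χ := by
      intro hfix
      have := Function.minimalPeriod_eq_one_iff_isFixedPt.2 hfix
      rw [this] at ha
      have : 1 < p ^ a := Nat.one_lt_pow (by omega) hp.one_lt
      omega
    have hfa : f^[p ^ a] χ = χ := by
      have := Function.iterate_minimalPeriod (f := f) (x := χ)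
      rwa [ha] at this
    have hRT : wt ρ χ ≤ (wt ρ χ).comap (T ^ p ^ a) := by
      intro v hv
      have := hTfk (p ^ a) χ v hv
      rwa [hfa] at this
    refine ⟨wt ρ χ, a, wt_inv χ, ha0, han, hχ, ?_, hRT, ?_⟩
    · intro htop
      apply hneq
      have h1 : T w₀ ∈ wt ρ χ := htop ▸ Submodule.mem_top
      exact huniq _ _ (T w₀) (fun h0 => hw₀0 (hTinj _ h0)) (hTf χ hw₀) h1
    · rintro μ hμ0 ⟨v, hv, hv0, hvμ⟩
      apply eig_orb T (p ^ a) (pow_pos hp.pos a) μ hμ0 v hv0 hvμ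
      intro c hc
      have hpos : 0 < p ^ a := pow_pos hp.pos a
      have h4 := wt_indep (fun b : cen ρ => ρ b) (fun i => f^[i] χ) (Finset.range (p ^ a))
        (fun i => (c i • T ^ i) v) (by
          intro i hi j hj hij
          rw [Finset.mem_range] at hi hj
          exact Function.iterate_injOn_Iio_minimalPeriod (f := f) (x := χ) (by rw [ha]; exact hi) (by rw [ha]; exact hj) hij) (by
          intro i _ b
          have h5 := hTfk i χ v hv
          have h6 := h5 b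
          rw [LinearMap.smul_apply, map_smul, h6, smul_comm]) hc 0 (Finset.mem_range.2 hpos)
      have h5 : c 0 • v = 0 := h4
      exact (smul_eq_zero.1 h5).resolve_right hv0

end Red

end CfsgLib.SGMain
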