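import Cfsg.Agent.LibSGInd

set_option autoImplicit false

/-!
Weight spaces and orbits of operators without eigenvalue one (helper4).
-/

namespace CfsgLib.SGWt

open Module CfsgLib.HHBExt CfsgLib.SGLin CfsgLib.SGExt CfsgLib.SGMain
open CfsgLib.HHBMain (wt_indep restrict_pow_apply)
open scoped commutatorElement

variable {F : Type*} [Field F] {p q : ℕ} {Q : Type*} [Group Q] {W : Type*} [AddCommGroup W] [Module F W]

/-- weight spaces -/
def wtA (ρ : Q →* End F W) (A : Subgroup Q) (χ : A → F) : Submodule F W where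
  carrier := {w | ∀ a : A, ρ a w = χ a • w}
  add_mem' := by
    intro v w hv hw a
    rw [map_add, hv a, hw a, smul_add]
  zero_mem' := by intro a; simp
  smul_mem' := by
    intro c v hv a
    rw [map_smul, hv a, smul_comm]

theorem mem_wtA {ρ : Q →* End F W} {A : Subgroup Q} {χ : A → F} {w : W} : w ∈ wtA ρ A χ ↔ ∀ a : A, ρ a w = χ a • w := Iff.rfl

theorem wtA_inv {ρ : Q →* End F W} {A : Subgroup Q} (hA : A ≤ cen ρ) (χ : A → F) (x : Q) :
    wtA ρ A χ ≤ (wtA ρ A χ).comap (ρ x) := by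
  intro v hv a
  have h1 := hA a.2 x
  have h2 : ρ a (ρ x v) = ρ x (ρ a v) := congrArg (fun f : End F W => f v) h1.eq
  rw [h2, hv a, map_smul]

theorem wtA_uniq {ρ : Q →* End F W} {A : Subgroup Q} {χ χ' : A → F} {v : W} (hv : v ≠ 0) (h1 : v ∈ wtA ρ A χ) (h2 : v ∈ wtA ρ A χ') :
    χ = χ' := by
  funext a
  exact smul_left_injective F hv ((h1 a).symm.trans (h2 a))

theorem wtA_top [IsAlgClosed F] [FiniteDimensional F W] [Finite Q] (ρ : Q →* End F W) (A : Subgroup Q) (hA : A ≤ cen ρ)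
    (hcard : (Nat.card Q : F) ≠ 0) : ⨆ χ : A → F, wtA ρ A χ = ⊤ := by
  have hdiag : ∀ a : A, ⨆ μ : F, (ρ a).eigenspace μ = ⊤ := by
    intro a
    apply sup_eig (ρ a) (Nat.card Q) hcard
    rw [← map_pow, pow_card_eq_one', map_one]
  have hss : ∀ a : A, (ρ a).IsFinitelySemisimple := by
    intro a
    have hT : (ρ a) ^ (Nat.card Q) = 1 := by rw [← map_pow, pow_card_eq_one', map_one]
    have h1 : (ρ a).IsSemisimple := by
      refine Module.End.isSemisimple_of_squarefree_aeval_eq_zero (p := Polynomial.X ^ (Nat.card Q) - Polynomial.C 1) ?_ ?_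
      · exact (Polynomial.separable_X_pow_sub_C (1 : F) hcard one_ne_zero).squarefree
      · simp [hT]
    exact h1.isFinitelySemisimple
  have h := Module.End.iSup_iInf_maxGenEigenspace_eq_top_of_iSup_maxGenEigenspace_eq_top_of_commute
    (fun a : A => ρ a) (fun a b _ => hA a.2 b) (by
      intro a
      rw [← hdiag a]
      exact iSup_congr fun μ => (hss a).maxGenEigenspace_eq_eigenspace μ)
  rw [eq_top_iff, ← h]
  apply iSup_mono
  intro χ v hv a
  rw [Submodule.mem_iInf] at hv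
  have h1 := hv a
  rw [(hss a).maxGenEigenspace_eq_eigenspace] at h1
  exact Module.End.mem_eigenspace_iff.1 h1

/-- the twisting map on weights -/
def tw (σ : MulAut Q) (A : Subgroup Q) (hA : ∀ x, σ x ∈ A ↔ x ∈ A) (χ : A → F) : A → F :=
  fun a => χ ⟨σ⁻¹ (a : Q), (hA _).1 (by rw [MulAut.apply_inv_self]; exact a.2)⟩

theorem tw_map {ρ : Q →* End F W} {σ : MulAut Q} {T : End F W} (hT : ∀ x, T * ρ x = ρ (σ x) * T) {A : Subgroup Q}
    (hA : ∀ x, σ x ∈ A ↔ x ∈ A) (χ : A → F) {v : W} (hv : v ∈ wtA ρ A χ) : T v ∈ wtA ρ A (tw σ A hA χ) := by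
  intro a
  have h1 : T (ρ (σ⁻¹ (a : Q)) v) = ρ a (T v) := by
    have := congrArg (fun g : End F W => g v) (hT (σ⁻¹ (a : Q)))
    simp only [Module.End.mul_apply, MulAut.apply_inv_self] at this
    exact this
  rw [← h1]
  have h2 := hv ⟨σ⁻¹ (a : Q), (hA _).1 (by rw [MulAut.apply_inv_self]; exact a.2)⟩
  rw [show ρ (σ⁻¹ (a : Q)) v = _ from h2, map_smul]
  rfl

theorem tw_map_pow {ρ : Q →* End F W} {σ : MulAut Q} {T : End F W} (hT : ∀ x, T * ρ x = ρ (σ x) * T) {A : Subgroup Q}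
    (hA : ∀ x, σ x ∈ A ↔ x ∈ A) (k : ℕ) : ∀ (χ : A → F) {v : W}, v ∈ wtA ρ A χ → (T ^ k) v ∈ wtA ρ A ((tw σ A hA)^[k] χ) := by
  induction k with
  | zero => intro χ v hv; exact hv
  | succ k ih =>
    intro χ v hv
    rw [pow_succ, Module.End.mul_apply, Function.iterate_succ_apply]
    exact ih _ (tw_map hT hA χ hv)

theorem tw_iter {σ : MulAut Q} {A : Subgroup Q} (hA : ∀ x, σ x ∈ A ↔ x ∈ A) (k : ℕ) : ∀ (χ : A → F) (a : A) (ha : (σ ^ k) (a : Q) ∈ A),
    ((tw σ A hA)^[k] χ) ⟨(σ ^ k) (a : Q), ha⟩ = χ a := by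
  induction k with
  | zero => intro χ a ha; rfl
  | succ k ih =>
    intro χ a ha
    rw [Function.iterate_succ_apply']
    have h1 : (σ ^ k) (a : Q) ∈ A := by
      rw [pow_succ', MulAut.mul_apply] at ha
      exact (hA _).1 ha
    show ((tw σ A hA)^[k] χ) _ = χ a
    rw [← ih χ a h1]
    refine congrArg _ (Subtype.ext ?_)
    show σ⁻¹ ((σ ^ (k + 1)) (a : Q)) = (σ ^ k) (a : Q)
    rw [pow_succ', MulAut.mul_apply, MulAut.inv_apply_self]

theorem orb [IsAlgClosed F] [hpf : Fact p.Prime] {ρ : Q →* End F W} {σ : MulAut Q} {T : End F W} {n : ℕ} (hT : ∀ x, T * ρ x = ρ (σ x) * T)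
    (hTn : T ^ p ^ n = 1) (h1 : ∀ v, T v = v → v = 0) {A : Subgroup Q} (hA : ∀ x, σ x ∈ A ↔ x ∈ A) (χ : A → F) (hχ : wtA ρ A χ ≠ ⊥) :
    ∃ j, j < n ∧ Function.minimalPeriod (tw σ A hA) χ = p ^ j ∧ (tw σ A hA)^[p ^ j] χ = χ ∧
      (∀ v ∈ wtA ρ A χ, (T ^ p ^ j) v ∈ wtA ρ A χ) ∧ (∀ v ∈ wtA ρ A χ, (T ^ p ^ j) v = v → v = 0) := by
  have hp := hpf.out
  obtain ⟨w₀, hw₀, hw₀0⟩ := Submodule.exists_mem_ne_zero_of_ne_bot hχ
  have hper : Function.IsPeriodicPt (tw σ A hA) (p ^ n) χ := by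
    have h1 := tw_map_pow hT hA (p ^ n) χ hw₀
    rw [hTn] at h1
    exact (wtA_uniq hw₀0 hw₀ h1).symm
  obtain ⟨j, hjn, hj⟩ := (Nat.dvd_prime_pow hp).1 hper.minimalPeriod_dvd
  have hfj : (tw σ A hA)^[p ^ j] χ = χ := by
    have := Function.iterate_minimalPeriod (f := tw σ A hA) (x := χ)
    rwa [hj] at this
  have hfix : ∀ v ∈ wtA ρ A χ, (T ^ p ^ j) v = v → v = 0 := by
    intro v hv hTv
    by_contra hv0
    have h2 : (1 : F) ∈ eig T := by
      apply eig_orb T (p ^ j) (pow_pos hp.pos j) 1 one_ne_zero v hv0 (by rw [hTv, one_smul])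
      · intro c hc
        have hpos : 0 < p ^ j := pow_pos hp.pos j
        have h4 := wt_indep (fun b : A => ρ b) (fun i => (tw σ A hA)^[i] χ) (Finset.range (p ^ j))
          (fun i => (c i • T ^ i) v) (by
            intro i hi k hk hik
            rw [Finset.mem_range] at hi hk
            exact Function.iterate_injOn_Iio_minimalPeriod (f := tw σ A hA) (x := χ) (by rw [hj]; exact hi) (by rw [hj]; exact hk) hik) (by
            intro i _ b
            have h6 := tw_map_pow hT hA i χ hv b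
            rw [LinearMap.smul_apply, map_smul, h6, smul_comm]) hc 0 (Finset.mem_range.2 hpos)
        have h5 : c 0 • v = 0 := h4
        exact (smul_eq_zero.1 h5).resolve_right hv0
      · exact one_pow _
    obtain ⟨u, hu0, hu⟩ := mem_eig.1 h2
    rw [one_smul] at hu
    exact hu0 (h1 u hu)
  refine ⟨j, ?_, hj, hfj, ?_, hfix⟩
  · refine lt_of_le_of_ne hjn ?_
    rintro rfl
    apply hw₀0
    apply hfix w₀ hw₀
    rw [hTn]; rfl
  · intro v hv
    have := tw_map_pow hT hA (p ^ j) χ hv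
    rwa [hfj] at this

/-- weights are fixed by the `p^(n-1)` power -/
theorem orb_fix [IsAlgClosed F] [hpf : Fact p.Prime] {ρ : Q →* End F W} {σ : MulAut Q} {T : End F W} {n : ℕ} (hT : ∀ x, T * ρ x = ρ (σ x) * T)
    (hTn : T ^ p ^ n = 1) (h1 : ∀ v, T v = v → v = 0) {A : Subgroup Q} (hA : ∀ x, σ x ∈ A ↔ x ∈ A) (χ : A → F) (hχ : wtA ρ A χ ≠ ⊥)
    (a : A) (ha : (σ ^ p ^ (n - 1)) (a : Q) ∈ A) : χ ⟨(σ ^ p ^ (n - 1)) (a : Q), ha⟩ = χ a := by
  obtain ⟨j, hjn, hj, hfj, _, _⟩ := orb hT hTn h1 hA χ hχ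
  have h2 : (tw σ A hA)^[p ^ (n - 1)] χ = χ := by
    have h3 : p ^ (n - 1) = p ^ j * p ^ (n - 1 - j) := by rw [← pow_add]; congr 1; omega
    rw [h3, Function.iterate_mul]
    exact Function.iterate_fixed hfj _
  have h4 := tw_iter (F := F) hA (p ^ (n - 1)) χ a ha
  rw [h2] at h4
  exact h4

end CfsgLib.SGWt
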