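import Cfsg.Prelude.Def_SporadicB
import Mathlib
set_option autoImplicit false
namespace CfsgLib.SL52H14
open Matrix

def mk (M : Matrix (Fin 3) (Fin 3) (ZMod 2)) (r c : Fin 3 → ZMod 2) (t : ZMod 2) : Matrix (Fin 5) (Fin 5) (ZMod 2) :=
  !![1, t, r 0, r 1, r 2;
     0, 1, 0, 0, 0;
     0, c 0, M 0 0, M 0 1, M 0 2;
     0, c 1, M 1 0, M 1 1, M 1 2;
     0, c 2, M 2 0, M 2 1, M 2 2]

theorem det_mk (M : Matrix (Fin 3) (Fin 3) (ZMod 2)) (r c : Fin 3 → ZMod 2) (t : ZMod 2) : (mk M r c t).det = M.det := by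
  unfold mk
  rw [Matrix.det_succ_column_zero]
  simp only [Fin.sum_univ_succ]
  simp
  rw [Matrix.det_succ_row_zero]
  simp only [Fin.sum_univ_succ]
  simp
  congr 1
  ext i j
  fin_cases i <;> fin_cases j <;> rfl

theorem single01 : (Matrix.transvection (0 : Fin 5) 1 (1 : ZMod 2)) = !![1, 1, 0, 0, 0; 0,1,0,0,0; 0,0,1,0,0; 0,0,0,1,0; 0,0,0,0,1] := by
  ext i j
  fin_cases i <;> fin_cases j <;> simp [Matrix.transvection, Matrix.single]

theorem comm_iff (g : Matrix (Fin 5) (Fin 5) (ZMod 2)) : g * (Matrix.transvection (0 : Fin 5) 1 (1 : ZMod 2)) = (Matrix.transvection (0 : Fin 5) 1 (1 : ZMod 2)) * g ↔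
    (g 1 0 = 0 ∧ g 2 0 = 0 ∧ g 3 0 = 0 ∧ g 4 0 = 0 ∧ g 0 0 = g 1 1 ∧ g 1 2 = 0 ∧ g 1 3 = 0 ∧ g 1 4 = 0) := by
  rw [single01]
  constructor
  · intro h
    have h' : ∀ i j : Fin 5, (g * !![1, 1, 0, 0, 0; 0,1,0,0,0; 0,0,1,0,0; 0,0,0,1,0; 0,0,0,0,1] : Matrix (Fin 5) (Fin 5) (ZMod 2)) i j = (!![1, 1, 0, 0, 0; 0,1,0,0,0; 0,0,1,0,0; 0,0,0,1,0; 0,0,0,0,1] * g : Matrix (Fin 5) (Fin 5) (ZMod 2)) i j := fun i j => by rw [h]
    simp only [Matrix.mul_apply, Fin.sum_univ_five] at h'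
    have h00 := h' 0 0
    have h01 := h' 0 1
    have h02 := h' 0 2
    have h03 := h' 0 3
    have h04 := h' 0 4
    have h11 := h' 1 1
    have h21 := h' 2 1
    have h31 := h' 3 1
    have h41 := h' 4 1
    simp at h00 h01 h02 h03 h04 h11 h21 h31 h41
    refine ⟨?_, ?_, ?_, ?_, ?_, ?_, ?_, ?_⟩
    · exact h11
    · exact h21
    · exact h31
    · exact h41
    · linear_combination h01
    · exact h02
    · exact h03
    · exact h04
  · rintro ⟨h1, h2, h3, h4, h5, h6, h7, h8⟩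
    ext i j
    simp only [Matrix.mul_apply, Fin.sum_univ_five]
    fin_cases i <;> fin_cases j <;> simp [h1, h2, h3, h4, h5, h6, h7, h8, add_comm]

theorem eq_mk (g : Matrix (Fin 5) (Fin 5) (ZMod 2)) (hd : g.det = 1) (hg : g * (Matrix.transvection (0 : Fin 5) 1 (1 : ZMod 2)) = (Matrix.transvection (0 : Fin 5) 1 (1 : ZMod 2)) * g) :
    g = mk (Matrix.of fun i j => g i.succ.succ j.succ.succ) (fun j => g 0 j.succ.succ) (fun i => g i.succ.succ 1) (g 0 1) := by
  obtain ⟨h1, h2, h3, h4, h5, h6, h7, h8⟩ := (comm_iff g).1 hg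
  have h0 : g 0 0 = 1 := by
    have two : ∀ z : ZMod 2, z ≠ 0 → z = 1 := by decide
    apply two
    intro h00
    have : g.det = 0 := by
      apply Matrix.det_eq_zero_of_column_eq_zero 0
      intro i
      fin_cases i
      · exact h00
      · exact h1
      · exact h2
      · exact h3
      · exact h4
    rw [this] at hd
    exact absurd hd (by decide)
  have h11 : g 1 1 = 1 := by rw [← h5, h0]
  ext i j
  fin_cases i <;> fin_cases j <;> first | exact h0 | exact h1 | exact h2 | exact h3 | exact h4 | exact h6 | exact h7 | exact h8 | exact h11 | rfl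

theorem comm_mk (M : Matrix (Fin 3) (Fin 3) (ZMod 2)) (r c : Fin 3 → ZMod 2) (t : ZMod 2) :
    mk M r c t * (Matrix.transvection (0 : Fin 5) 1 (1 : ZMod 2)) = (Matrix.transvection (0 : Fin 5) 1 (1 : ZMod 2)) * mk M r c t := by
  rw [comm_iff]
  refine ⟨rfl, rfl, rfl, rfl, rfl, rfl, rfl, rfl⟩

theorem mk_inj {M M' : Matrix (Fin 3) (Fin 3) (ZMod 2)} {r r' c c' : Fin 3 → ZMod 2} {t t' : ZMod 2}
    (h : mk M r c t = mk M' r' c' t') : M = M' ∧ r = r' ∧ c = c' ∧ t = t' := by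
  have h' : ∀ i j : Fin 5, mk M r c t i j = mk M' r' c' t' i j := fun i j => by rw [h]
  refine ⟨?_, ?_, ?_, h' 0 1⟩
  · ext i j
    fin_cases i <;> fin_cases j
    · exact h' 2 2
    · exact h' 2 3
    · exact h' 2 4
    · exact h' 3 2
    · exact h' 3 3
    · exact h' 3 4
    · exact h' 4 2
    · exact h' 4 3
    · exact h' 4 4
  · ext j
    fin_cases j
    · exact h' 0 2
    · exact h' 0 3
    · exact h' 0 4
  · ext j
    fin_cases j
    · exact h' 2 1
    · exact h' 3 1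
    · exact h' 4 1

theorem two_ne : ∀ z : ZMod 2, z ≠ 0 → z = 1 := by decide

theorem card_cent (s : Matrix.SpecialLinearGroup (Fin 5) (ZMod 2)) (hs : (s : Matrix (Fin 5) (Fin 5) (ZMod 2)) = Matrix.transvection 0 1 1) :
    Nat.card (Subgroup.centralizer ({s} : Set (Matrix.SpecialLinearGroup (Fin 5) (ZMod 2)))) = 21504 := by
  have hmem : ∀ g : Matrix.SpecialLinearGroup (Fin 5) (ZMod 2), g ∈ Subgroup.centralizer ({s} : Set (Matrix.SpecialLinearGroup (Fin 5) (ZMod 2))) ↔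
      (g : Matrix (Fin 5) (Fin 5) (ZMod 2)) * (Matrix.transvection (0 : Fin 5) 1 (1 : ZMod 2)) = (Matrix.transvection (0 : Fin 5) 1 (1 : ZMod 2)) * g := by
    intro g
    rw [Subgroup.mem_centralizer_singleton_iff, ← hs]
    constructor
    · intro h
      have := congrArg (fun x : Matrix.SpecialLinearGroup (Fin 5) (ZMod 2) => (x : Matrix (Fin 5) (Fin 5) (ZMod 2))) h
      simpa using this
    · intro h
      apply Subtype.ext
      simpa using h
  let f : (GL (Fin 3) (ZMod 2) × (Fin 3 → ZMod 2) × (Fin 3 → ZMod 2) × ZMod 2) →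
      Subgroup.centralizer ({s} : Set (Matrix.SpecialLinearGroup (Fin 5) (ZMod 2))) := fun x =>
    ⟨⟨mk x.1 x.2.1 x.2.2.1 x.2.2.2, by
      rw [det_mk]
      exact two_ne _ (Matrix.GeneralLinearGroup.det_ne_zero x.1)⟩, (hmem _).2 (comm_mk _ _ _ _)⟩
  have hf : Function.Bijective f := by
    constructor
    · rintro ⟨M, r, c, t⟩ ⟨M', r', c', t'⟩ h
      have h1 : mk (M : Matrix (Fin 3) (Fin 3) (ZMod 2)) r c t = mk (M' : Matrix (Fin 3) (Fin 3) (ZMod 2)) r' c' t' :=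
        congrArg (fun x : Subgroup.centralizer ({s} : Set (Matrix.SpecialLinearGroup (Fin 5) (ZMod 2))) => ((x : Matrix.SpecialLinearGroup (Fin 5) (ZMod 2)) : Matrix (Fin 5) (Fin 5) (ZMod 2))) h
      obtain ⟨a, b, c, d⟩ := mk_inj h1
      have : M = M' := Units.ext a
      subst this b c d
      rfl
    · rintro ⟨g, hg⟩
      have h1 := eq_mk g.1 g.2 ((hmem g).1 hg)
      have h2 : (Matrix.of fun i j => (g : Matrix (Fin 5) (Fin 5) (ZMod 2)) (Fin.succ (Fin.succ i)) (Fin.succ (Fin.succ j)) : Matrix (Fin 3) (Fin 3) (ZMod 2)).det ≠ 0 := by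
        have h3 := g.2
        rw [h1, det_mk] at h3
        rw [h3]; decide
      refine ⟨⟨Matrix.GeneralLinearGroup.mkOfDetNeZero _ h2, fun j => (g : Matrix (Fin 5) (Fin 5) (ZMod 2)) 0 (Fin.succ (Fin.succ j)),
        fun i => (g : Matrix (Fin 5) (Fin 5) (ZMod 2)) (Fin.succ (Fin.succ i)) 1, (g : Matrix (Fin 5) (Fin 5) (ZMod 2)) 0 1⟩, ?_⟩
      apply Subtype.ext
      apply Subtype.ext
      exact h1.symm
  rw [← Nat.card_eq_of_bijective f hf, Nat.card_prod, Nat.card_prod, Nat.card_prod, Matrix.card_GL_field]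
  simp [Fin.prod_univ_succ]

end CfsgLib.SL52H14
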