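import Cfsg.Agent.LibCharBasic

set_option autoImplicit false
set_option linter.unusedSectionVars false

/-! Existence of the Steinberg character from an apartment (seat helper15). -/

namespace CfsgLib.StEx

open Cfsg CfsgLib.CharBasic

structure Dat (G : Type*) [Group G] (W ι : Type*) where
  B : Subgroup G
  U : Subgroup G
  H : Subgroup G
  X : ι → Subgroup G
  U' : ι → Subgroup G
  s : ι → G
  m : W → G
  w0 : W
  sgn : W → ℂ
  sw : W → ι → W
  pos : W → ι → Prop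
  sgn0 : sgn w0 ≠ 0
  sw2 : ∀ w j, sw (sw w j) j = w
  sgns : ∀ w j, sgn (sw w j) = - sgn w
  poss : ∀ w j, pos (sw w j) j ↔ ¬ pos w j
  sm : ∀ w j, (m (sw w j))⁻¹ * (s j * m w) ∈ B
  Xm : ∀ w j, pos w j → ∀ x ∈ X j, (m w)⁻¹ * (x * m w) ∈ B
  Hm : ∀ w, ∀ h ∈ H, (m w)⁻¹ * (h * m w) ∈ B
  rk : ∀ j, ∀ x ∈ X j, x ≠ 1 → ∃ x₂ ∈ X j, ∃ y, s j * x * s j = x₂ * s j * y ∧
    ∀ w, pos w j → (m w)⁻¹ * (y * m w) ∈ B
  UB : U ≤ B
  HU : ∀ h ∈ H, ∀ u ∈ U, h * u * h⁻¹ ∈ U
  UX : ∀ j, X j ≤ U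
  dec : ∀ j, ∀ u ∈ U, ∃ v ∈ U' j, ∃ x ∈ X j, u = v * x
  sU : ∀ j, ∀ v ∈ U' j, s j * v * (s j)⁻¹ ∈ U
  gen : ∀ K : Subgroup G, U ≤ K → H ≤ K → (∀ j, s j ∈ K) → K = ⊤
  neg : ∀ u ∈ U, (m w0)⁻¹ * (u * m w0) ∈ B → u = 1
  exp : ∀ w, w ≠ w0 → ∃ j, pos w j ∧ X j ≠ ⊥

section
variable {G : Type*} [Group G]

/-- the permutation module -/
def pr (B : Subgroup G) : Representation ℂ G ((G ⧸ B) → ℂ) where
  toFun g := LinearMap.funLeft ℂ ℂ (fun x => g⁻¹ • x)
  map_one' := by ext; simp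
  map_mul' a b := by
    ext f x
    simp [LinearMap.funLeft_apply, mul_smul]

theorem pr_apply (B : Subgroup G) (g : G) (f : (G ⧸ B) → ℂ) (x : G ⧸ B) : pr B g f x = f (g⁻¹ • x) := rfl

open Classical in
/-- point masses -/
noncomputable def dl (B : Subgroup G) (g : G) : (G ⧸ B) → ℂ := fun x => if x = (g : G ⧸ B) then 1 else 0

theorem pr_dl (B : Subgroup G) (g h : G) : pr B g (dl B h) = dl B (g * h) := by
  classical
  funext x
  rw [pr_apply]
  unfold dl
  have : (g⁻¹ • x = (h : G ⧸ B)) ↔ (x = ((g * h : G) : G ⧸ B)) := by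
    rw [inv_smul_eq_iff]
    rfl
  simp only [this]

theorem dl_eq {B : Subgroup G} {g h : G} (hb : g⁻¹ * h ∈ B) : dl B g = dl B h := by
  unfold dl
  rw [QuotientGroup.eq.2 hb]

variable {W ι : Type*} [Fintype W]

namespace Dat
variable (D : Dat G W ι)

/-- the signed apartment -/
noncomputable def e : (G ⧸ D.B) → ℂ := ∑ w : W, D.sgn w • dl D.B (D.m w)

open Classical in
/-- half apartment -/
noncomputable def hf (j : ι) : (G ⧸ D.B) → ℂ := ∑ w ∈ Finset.univ.filter (fun w => D.pos w j), D.sgn w • dl D.B (D.m w)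

theorem e_eq (j : ι) : D.e = D.hf j - pr D.B (D.s j) (D.hf j) := by
  classical
  have h1 : D.e = D.hf j + ∑ w ∈ Finset.univ.filter (fun w => ¬ D.pos w j), D.sgn w • dl D.B (D.m w) := by
    unfold e hf
    rw [Finset.sum_filter_add_sum_filter_not]
  rw [h1, sub_eq_add_neg]
  congr 1
  unfold hf
  rw [map_sum, ← Finset.sum_neg_distrib]
  symm
  apply Finset.sum_bij (fun w _ => D.sw w j)
  · intro w hw
    rw [Finset.mem_filter] at hw ⊢
    exact ⟨Finset.mem_univ _, fun h => (D.poss w j).1 h hw.2⟩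
  · intro a _ b _ h
    have h' : D.sw a j = D.sw b j := h
    rw [← D.sw2 a j, h', D.sw2]
  · intro w hw
    rw [Finset.mem_filter] at hw
    exact ⟨D.sw w j, by rw [Finset.mem_filter]; exact ⟨Finset.mem_univ _, (D.poss w j).2 hw.2⟩, D.sw2 w j⟩
  · intro w hw
    rw [map_smul, pr_dl, D.sgns, neg_smul, dl_eq (D.sm w j)]

theorem fix_hf (j : ι) {y : G} (hy : ∀ w, D.pos w j → (D.m w)⁻¹ * (y * D.m w) ∈ D.B) : pr D.B y (D.hf j) = D.hf j := by
  classical
  unfold hf
  rw [map_sum]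
  apply Finset.sum_congr rfl
  intro w hw
  rw [Finset.mem_filter] at hw
  rw [map_smul, pr_dl, dl_eq (hy w hw.2)]

theorem mul_apply (a b : G) (f : (G ⧸ D.B) → ℂ) : pr D.B (a * b) f = pr D.B a (pr D.B b f) := by
  rw [map_mul]; rfl

theorem s_x (j : ι) {x : G} (hx : x ∈ D.X j) (h1 : x ≠ 1) : ∃ x₂ ∈ D.X j, pr D.B (D.s j * x) D.e = pr D.B x₂ D.e - D.e := by
  obtain ⟨x₂, hx₂, y, h2, h3⟩ := D.rk j x hx h1
  refine ⟨x₂, hx₂, ?_⟩
  have hfx : ∀ z ∈ D.X j, pr D.B z (D.hf j) = D.hf j := fun z hz => D.fix_hf j (fun w hw => D.Xm w j hw z hz)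
  rw [D.e_eq j, map_sub, map_sub, ← D.mul_apply (D.s j * x), h2, D.mul_apply (D.s j) x, hfx x hx, D.mul_apply _ y, D.fix_hf j h3,
    D.mul_apply x₂, hfx x₂ hx₂]
  abel

theorem s_e (j : ι) : pr D.B (D.s j) D.e = - D.e := by
  classical
  unfold e
  rw [map_sum, ← Finset.sum_neg_distrib]
  apply Finset.sum_bij (fun w _ => D.sw w j)
  · intro w _; exact Finset.mem_univ _
  · intro a _ b _ h
    have h' : D.sw a j = D.sw b j := h
    rw [← D.sw2 a j, h', D.sw2]
  · intro w _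
    exact ⟨D.sw w j, Finset.mem_univ _, D.sw2 w j⟩
  · intro w hw
    rw [map_smul, pr_dl, D.sgns, neg_smul, neg_neg, dl_eq (D.sm w j)]

theorem h_e {h : G} (hh : h ∈ D.H) : pr D.B h D.e = D.e := by
  unfold e
  rw [map_sum]
  apply Finset.sum_congr rfl
  intro w _
  rw [map_smul, pr_dl, dl_eq (D.Hm w h hh)]

/-- the underlying space -/
noncomputable def Sp : Submodule ℂ ((G ⧸ D.B) → ℂ) := Submodule.span ℂ (Set.range (fun u : D.U => pr D.B (u : G) D.e))

theorem u_mem {u : G} (hu : u ∈ D.U) : pr D.B u D.e ∈ D.Sp := Submodule.subset_span ⟨⟨u, hu⟩, rfl⟩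

theorem e_mem : D.e ∈ D.Sp := by
  have := D.u_mem (one_mem D.U)
  rwa [map_one] at this

theorem pres_of {g : G} (h : ∀ u ∈ D.U, pr D.B (g * u) D.e ∈ D.Sp) : ∀ v ∈ D.Sp, pr D.B g v ∈ D.Sp := by
  intro v hv
  unfold Sp at hv
  induction hv using Submodule.span_induction with
  | mem x hx =>
    obtain ⟨u, rfl⟩ := hx
    show pr D.B g (pr D.B (u : G) D.e) ∈ _
    rw [← D.mul_apply]
    exact h u u.2
  | zero => rw [map_zero]; exact Submodule.zero_mem _
  | add x y _ _ hx hy => rw [map_add]; exact Submodule.add_mem _ hx hy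
  | smul a x _ hx => rw [map_smul]; exact Submodule.smul_mem _ _ hx

theorem pres [Finite G] (g : G) : ∀ v ∈ D.Sp, pr D.B g v ∈ D.Sp := by
  have hpow : ∀ (g : G), (∀ v ∈ D.Sp, pr D.B g v ∈ D.Sp) → ∀ n : ℕ, ∀ v ∈ D.Sp, pr D.B (g ^ n) v ∈ D.Sp := by
    intro g hg n
    induction n with
    | zero => intro v hv; rw [pow_zero, map_one]; exact hv
    | succ n ih => intro v hv; rw [pow_succ', D.mul_apply]; exact hg _ (ih v hv)
  let K : Subgroup G :=
    { carrier := {g | ∀ v ∈ D.Sp, pr D.B g v ∈ D.Sp}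
      mul_mem' := by
        intro a b ha hb v hv
        rw [D.mul_apply]
        exact ha _ (hb v hv)
      one_mem' := by intro v hv; rw [map_one]; exact hv
      inv_mem' := by
        intro a ha
        have h1 : a⁻¹ ∈ Subgroup.zpowers a := Subgroup.inv_mem _ (Subgroup.mem_zpowers a)
        rw [← mem_powers_iff_mem_zpowers] at h1
        obtain ⟨n, hn⟩ := h1
        show ∀ v ∈ D.Sp, pr D.B a⁻¹ v ∈ D.Sp
        rw [← hn]
        exact hpow a ha n }
  have hK : K = ⊤ := by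
    apply D.gen
    · intro u hu
      show ∀ v ∈ D.Sp, pr D.B u v ∈ D.Sp
      exact D.pres_of (fun u' hu' => D.u_mem (D.U.mul_mem hu hu'))
    · intro h hh
      show ∀ v ∈ D.Sp, pr D.B h v ∈ D.Sp
      apply D.pres_of
      intro u hu
      have h1 : h * u = (h * u * h⁻¹) * h := by group
      rw [h1, D.mul_apply, D.h_e hh]
      exact D.u_mem (D.HU h hh u hu)
    · intro j
      show ∀ v ∈ D.Sp, pr D.B (D.s j) v ∈ D.Sp
      apply D.pres_of
      intro u hu
      obtain ⟨v, hv, x, hx, rfl⟩ := D.dec j u hu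
      have h1 : D.s j * (v * x) = (D.s j * v * (D.s j)⁻¹) * (D.s j * x) := by group
      have hU := D.sU j v hv
      rw [h1, D.mul_apply]
      by_cases hx1 : x = 1
      · rw [hx1, mul_one, D.s_e, map_neg]
        exact Submodule.neg_mem _ (D.u_mem hU)
      · obtain ⟨x₂, hx₂, h2⟩ := D.s_x j hx hx1
        rw [h2, map_sub, ← D.mul_apply]
        exact Submodule.sub_mem _ (D.u_mem (D.U.mul_mem hU (D.UX j hx₂))) (D.u_mem hU)
  intro v hv
  have : g ∈ K := by rw [hK]; exact Subgroup.mem_top g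
  exact this v hv

theorem opp {w : W} {u : G} (hu : u ∈ D.U) (h : (D.m D.w0)⁻¹ * (u * D.m w) ∈ D.B) : w = D.w0 ∧ u = 1 := by
  by_cases hw : w = D.w0
  · subst hw
    exact ⟨rfl, D.neg u hu h⟩
  · exfalso
    obtain ⟨j, hj, hX⟩ := D.exp w hw
    obtain ⟨x, hx, hx1⟩ : ∃ x ∈ D.X j, x ≠ 1 := by
      by_contra h
      push Not at h
      exact hX (eq_bot_iff.2 (fun x hx => Subgroup.mem_bot.2 (h x hx)))
    apply hx1
    have h1 := D.Xm w j hj x hx
    have h2 : (D.m D.w0)⁻¹ * ((u * x * u⁻¹) * D.m D.w0) ∈ D.B := by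
      have e1 : (D.m D.w0)⁻¹ * ((u * x * u⁻¹) * D.m D.w0) =
        ((D.m D.w0)⁻¹ * (u * D.m w)) * ((D.m w)⁻¹ * (x * D.m w)) * ((D.m D.w0)⁻¹ * (u * D.m w))⁻¹ := by group
      rw [e1]
      exact D.B.mul_mem (D.B.mul_mem h h1) (D.B.inv_mem h)
    have h3 := D.neg _ (D.U.mul_mem (D.U.mul_mem hu (D.UX j hx)) (D.U.inv_mem hu)) h2
    have e2 : x = u⁻¹ * (u * x * u⁻¹) * u := by group
    rw [e2, h3]; group

theorem coord (u u' : D.U) [Decidable (u = u')] : pr D.B (u : G) D.e (((u' : G) * D.m D.w0 : G) : G ⧸ D.B) = if u = u' then D.sgn D.w0 else 0 := by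
  classical
  unfold e
  rw [map_sum, Finset.sum_apply, Finset.sum_eq_single D.w0]
  · rw [map_smul, pr_dl, Pi.smul_apply, smul_eq_mul]
    unfold dl
    by_cases h : u = u'
    · subst h
      rw [if_pos rfl, if_pos rfl, mul_one]
    · rw [if_neg h, if_neg, mul_zero]
      intro hq
      rw [QuotientGroup.eq] at hq
      apply h
      have h1 : (D.m D.w0)⁻¹ * (((u' : G)⁻¹ * u) * D.m D.w0) ∈ D.B := by
        have e1 : (D.m D.w0)⁻¹ * (((u' : G)⁻¹ * u) * D.m D.w0) = ((u' : G) * D.m D.w0)⁻¹ * ((u : G) * D.m D.w0) := by group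
        rw [e1]; exact hq
      have h2 := (D.opp (D.U.mul_mem (D.U.inv_mem u'.2) u.2) h1).2
      exact Subtype.ext (inv_mul_eq_one.1 h2).symm
  · intro w _ hw
    rw [map_smul, pr_dl, Pi.smul_apply, smul_eq_mul]
    unfold dl
    rw [if_neg, mul_zero]
    intro hq
    rw [QuotientGroup.eq] at hq
    apply hw
    have h1 : (D.m D.w0)⁻¹ * (((u' : G)⁻¹ * u) * D.m w) ∈ D.B := by
      have e1 : (D.m D.w0)⁻¹ * (((u' : G)⁻¹ * u) * D.m w) = ((u' : G) * D.m D.w0)⁻¹ * ((u : G) * D.m w) := by group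
      rw [e1]; exact hq
    exact (D.opp (D.U.mul_mem (D.U.inv_mem u'.2) u.2) h1).1
  · intro h; exact absurd (Finset.mem_univ _) h

theorem linInd [Finite G] : LinearIndependent ℂ (fun u : D.U => pr D.B (u : G) D.e) := by
  classical
  haveI : Fintype D.U := Fintype.ofFinite _
  rw [Fintype.linearIndependent_iff]
  intro c hc u
  have h1 := congrFun hc (((u : G) * D.m D.w0 : G) : G ⧸ D.B)
  rw [Finset.sum_apply, Finset.sum_eq_single u] at h1
  · rw [Pi.smul_apply, D.coord, if_pos rfl, smul_eq_mul, Pi.zero_apply] at h1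
    exact (mul_eq_zero.1 h1).resolve_right D.sgn0
  · intro b _ hb
    rw [Pi.smul_apply, D.coord, if_neg hb, smul_zero]
  · intro h; exact absurd (Finset.mem_univ _) h

theorem finrank_Sp [Finite G] : Module.finrank ℂ D.Sp = Nat.card D.U := by
  haveI : Fintype D.U := Fintype.ofFinite _
  unfold Sp
  rw [finrank_span_eq_card D.linInd, Nat.card_eq_fintype_card]

/-- the fixed vector -/
noncomputable def f [Fintype D.U] : (G ⧸ D.B) → ℂ := ∑ u : D.U, pr D.B (u : G) D.e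

theorem avg_mem [Fintype D.U] {v : (G ⧸ D.B) → ℂ} (hv : v ∈ D.Sp) : ∃ c : ℂ, ∑ u : D.U, pr D.B (u : G) v = c • D.f := by
  unfold Sp at hv
  induction hv using Submodule.span_induction with
  | mem x hx =>
    obtain ⟨u', rfl⟩ := hx
    refine ⟨1, ?_⟩
    rw [one_smul]
    unfold f
    rw [← Equiv.sum_comp (Equiv.mulRight u') (fun u : D.U => pr D.B (u : G) D.e)]
    apply Finset.sum_congr rfl
    intro u _
    show pr D.B (u : G) (pr D.B (u' : G) D.e) = pr D.B ((u * u' : D.U) : G) D.e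
    rw [← D.mul_apply]; rfl
  | zero => exact ⟨0, by simp⟩
  | add x y _ _ hx hy =>
    obtain ⟨a, ha⟩ := hx
    obtain ⟨b, hb⟩ := hy
    refine ⟨a + b, ?_⟩
    rw [add_smul, ← ha, ← hb, ← Finset.sum_add_distrib]
    exact Finset.sum_congr rfl (fun u _ => map_add _ _ _)
  | smul a x _ hx =>
    obtain ⟨c, hc⟩ := hx
    refine ⟨a * c, ?_⟩
    rw [mul_smul, ← hc, Finset.smul_sum]
    exact Finset.sum_congr rfl (fun u _ => map_smul _ _ _)

/-- any nonzero invariant subspace contains the fixed vector -/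
theorem f_mem [Finite G] [Fintype D.U] {T : Submodule ℂ ((G ⧸ D.B) → ℂ)} (hT : T ≤ D.Sp) (hi : ∀ g, ∀ v ∈ T, pr D.B g v ∈ T) (hne : T ≠ ⊥) :
    D.f ∈ T := by
  classical
  haveI : Fintype D.B := Fintype.ofFinite _
  obtain ⟨t, ht, ht0⟩ := (Submodule.ne_bot_iff T).1 hne
  obtain ⟨x, hx⟩ := Function.ne_iff.1 ht0
  induction x using QuotientGroup.induction_on with
  | H g =>
    set t' := pr D.B g⁻¹ t with ht'
    have ht'T : t' ∈ T := hi _ _ ht
    have ht'0 : t' ((1 : G) : G ⧸ D.B) ≠ 0 := by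
      rw [ht', pr_apply, inv_inv]
      have : g • ((1 : G) : G ⧸ D.B) = (g : G ⧸ D.B) := by
        show ((g * 1 : G) : G ⧸ D.B) = _
        rw [mul_one]
      rw [this]; exact hx
    set t2 := ∑ b : D.B, pr D.B (b : G) t' with ht2
    have ht2T : t2 ∈ T := Submodule.sum_mem _ (fun b _ => hi _ _ ht'T)
    have ht2v : t2 ((1 : G) : G ⧸ D.B) = (Fintype.card D.B : ℂ) * t' ((1 : G) : G ⧸ D.B) := by
      rw [ht2, Finset.sum_apply]
      have : ∀ b : D.B, pr D.B (b : G) t' ((1 : G) : G ⧸ D.B) = t' ((1 : G) : G ⧸ D.B) := by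
        intro b
        rw [pr_apply]
        congr 1
        show (((b : G)⁻¹ * 1 : G) : G ⧸ D.B) = _
        rw [QuotientGroup.eq]
        simp
      simp only [this, Finset.sum_const, Finset.card_univ, nsmul_eq_mul]
    have ht20 : t2 ≠ 0 := by
      intro h
      rw [h, Pi.zero_apply] at ht2v
      rcases mul_eq_zero.1 ht2v.symm with h1 | h1
      · exact Fintype.card_ne_zero (Nat.cast_eq_zero.1 h1)
      · exact ht'0 h1
    have hfixB : ∀ c ∈ D.B, pr D.B c t2 = t2 := by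
      intro c hc
      rw [ht2, map_sum, ← Equiv.sum_comp (Equiv.mulLeft (⟨c, hc⟩ : D.B)) (fun b : D.B => pr D.B (b : G) t')]
      apply Finset.sum_congr rfl
      intro b _
      rw [← D.mul_apply]; rfl
    obtain ⟨c, hc⟩ := D.avg_mem (hT ht2T)
    have h1 : ∑ u : D.U, pr D.B (u : G) t2 = (Fintype.card D.U : ℂ) • t2 := by
      have : ∀ u : D.U, pr D.B (u : G) t2 = t2 := fun u => hfixB _ (D.UB u.2)
      simp only [this, Finset.sum_const, Finset.card_univ]
      rw [Nat.cast_smul_eq_nsmul]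
    rw [h1] at hc
    have hcard : (Fintype.card D.U : ℂ) ≠ 0 := Nat.cast_ne_zero.2 Fintype.card_ne_zero
    have hc0 : c ≠ 0 := by
      rintro rfl
      rw [zero_smul] at hc
      rcases smul_eq_zero.1 hc with h2 | h2
      · exact hcard h2
      · exact ht20 h2
    have h3 : D.f = (c⁻¹ * (Fintype.card D.U : ℂ)) • t2 := by
      rw [mul_smul, hc, smul_smul, inv_mul_cancel₀ hc0, one_smul]
    rw [h3]
    exact Submodule.smul_mem _ _ ht2T

theorem f_ne [Finite G] [Fintype D.U] : D.f ≠ 0 := by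
  intro h
  have h1 := (Fintype.linearIndependent_iff.1 D.linInd) (fun _ => 1) (by
    simp only [one_smul]; exact h) 1
  exact one_ne_zero h1

/-- the subrepresentation -/
noncomputable def sub [Finite G] : Subrepresentation (pr D.B) := ⟨D.Sp, fun g v hv => D.pres g v hv⟩

theorem irr [Finite G] : D.sub.toRepresentation.IsIrreducible := by
  classical
  haveI : Fintype D.U := Fintype.ofFinite _
  have hne : Nontrivial D.Sp := by
    apply Module.nontrivial_of_finrank_pos (R := ℂ)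
    rw [D.finrank_Sp]
    exact Nat.card_pos
  have key : ∀ T : Subrepresentation D.sub.toRepresentation, T ≠ ⊥ → D.f ∈ T.toSubmodule.map D.Sp.subtype := by
    intro T hT
    apply D.f_mem
    · rintro _ ⟨x, _, rfl⟩
      exact x.2
    · rintro g _ ⟨x, hx, rfl⟩
      exact ⟨D.sub.toRepresentation g x, T.apply_mem_toSubmodule g hx, rfl⟩
    · intro h
      apply hT
      apply Subrepresentation.toSubmodule_injective
      show T.toSubmodule = ⊥
      rw [eq_bot_iff]
      intro x hx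
      have h1 : (x : (G ⧸ D.B) → ℂ) ∈ T.toSubmodule.map D.Sp.subtype := ⟨x, hx, rfl⟩
      rw [h, Submodule.mem_bot] at h1
      rw [Submodule.mem_bot]
      exact Subtype.ext h1
  refine IsSimpleOrder.mk (toNontrivial := ⟨⟨⊥, ⊤, ?_⟩⟩) ?_
  · intro h
    have h1 : (⊥ : Submodule ℂ D.Sp) = ⊤ := congrArg Subrepresentation.toSubmodule h
    exact bot_ne_top h1
  · intro T
    by_contra hcon
    push Not at hcon
    obtain ⟨T', hT'⟩ := exists_isCompl T
    have hT'b : T' ≠ ⊥ := by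
      rintro rfl
      exact hcon.2 (by simpa using hT'.sup_eq_top)
    obtain ⟨x, hx, hxf⟩ := key T hcon.1
    obtain ⟨x', hx', hxf'⟩ := key T' hT'b
    have hxx : x = x' := Subtype.ext (hxf.trans hxf'.symm)
    have h1 : x ∈ (T ⊓ T').toSubmodule := ⟨hx, hxx ▸ hx'⟩
    have h2 : (T ⊓ T') = ⊥ := hT'.inf_eq_bot
    rw [h2] at h1
    have h3 : x = 0 := h1
    apply D.f_ne
    rw [← hxf, h3]; rfl

/-- the Steinberg character -/
theorem exists_char [Finite G] : ∃ χ : G → ℂ, IsIrrCharacter G χ ∧ χ 1 = Nat.card D.U ∧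
    ∀ z, (∀ g : G, g * z = z * g) → z ∈ D.B → χ z = χ 1 := by
  haveI : Finite (G ⧸ D.B) := inferInstance
  haveI : Fintype (G ⧸ D.B) := Fintype.ofFinite _
  haveI := D.irr
  refine ⟨D.sub.toRepresentation.character, isIrrCharacter_character _, ?_, ?_⟩
  · rw [Representation.char_one]
    exact congrArg Nat.cast D.finrank_Sp
  · intro z hz hzB
    have h1 : D.sub.toRepresentation z = D.sub.toRepresentation 1 := by
      apply LinearMap.ext
      intro x
      apply Subtype.ext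
      show pr D.B z (x : (G ⧸ D.B) → ℂ) = pr D.B 1 (x : (G ⧸ D.B) → ℂ)
      funext y
      rw [pr_apply, pr_apply]
      refine congrArg (x : (G ⧸ D.B) → ℂ) ?_
      induction y using QuotientGroup.induction_on with
      | H g =>
        show ((z⁻¹ * g : G) : G ⧸ D.B) = ((1⁻¹ * g : G) : G ⧸ D.B)
        rw [QuotientGroup.eq]
        have e1 : (z⁻¹ * g)⁻¹ * (1⁻¹ * g) = z := by
          rw [inv_one, one_mul, mul_inv_rev, inv_inv, mul_assoc, ← hz g, ← mul_assoc, inv_mul_cancel, one_mul]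
        rw [e1]; exact hzB
    show LinearMap.trace _ _ (D.sub.toRepresentation z) = LinearMap.trace _ _ (D.sub.toRepresentation 1)
    rw [h1]

end Dat
end
end CfsgLib.StEx
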