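import Cfsg.Agent.LibUDZ15
import Cfsg.Agent.LibStEx15
import Cfsg.Agent.LibH22SL

set_option autoImplicit false
set_option linter.unusedSectionVars false

/-! Split BN data of the special linear groups (seat helper15). -/

namespace CfsgLib.SLB

open Matrix CfsgLib.SL2P CfsgLib.UDZ

section Phi
variable {F : Type*} [Field F] {ι : Type*} [Fintype ι] [DecidableEq ι]

/-- the inclusion of two coordinates -/
def Pm (F : Type*) [Field F] (a b : ι) : Matrix ι (Fin 2) F := fun x i => if i = 0 then (if x = a then 1 else 0) else (if x = b then 1 else 0)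

theorem PtP {a b : ι} (h : a ≠ b) : (Pm F a b)ᵀ * Pm F a b = 1 := by
  ext i j
  rw [Matrix.mul_apply]
  simp only [Matrix.transpose_apply, Pm]
  fin_cases i <;> fin_cases j <;> simp only [Fin.zero_eta, Fin.mk_one, if_true, one_ne_zero, if_false, mul_ite, mul_one, mul_zero,
    Finset.sum_ite_eq', Finset.mem_univ, Matrix.one_apply, Fin.isValue] <;> simp [h, h.symm]

def phiM (a b : ι) (A : Matrix (Fin 2) (Fin 2) F) : Matrix ι ι F := 1 + Pm F a b * ((A - 1) * (Pm F a b)ᵀ)

theorem phiM_mul {a b : ι} (h : a ≠ b) (A B : Matrix (Fin 2) (Fin 2) F) : phiM a b (A * B) = phiM a b A * phiM a b B := by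
  unfold phiM
  have h1 : Pm F a b * ((A - 1) * (Pm F a b)ᵀ) * (Pm F a b * ((B - 1) * (Pm F a b)ᵀ)) =
      Pm F a b * (((A - 1) * (B - 1)) * (Pm F a b)ᵀ) := by
    rw [Matrix.mul_assoc, Matrix.mul_assoc (A - 1), ← Matrix.mul_assoc (Pm F a b)ᵀ, PtP h, Matrix.one_mul, ← Matrix.mul_assoc (A - 1)]
  rw [add_mul, one_mul, mul_add, mul_one, h1, add_assoc, ← Matrix.mul_add, ← Matrix.add_mul, ← Matrix.mul_add, ← Matrix.add_mul]
  congr 3
  noncomm_ring

theorem phiM_one (a b : ι) : phiM a b (1 : Matrix (Fin 2) (Fin 2) F) = 1 := by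
  unfold phiM
  rw [sub_self, Matrix.zero_mul, Matrix.mul_zero, add_zero]

theorem phiM_det {a b : ι} (h : a ≠ b) (A : Matrix (Fin 2) (Fin 2) F) : (phiM a b A).det = A.det := by
  unfold phiM
  rw [Matrix.det_one_add_mul_comm, Matrix.mul_assoc, PtP h, Matrix.mul_one]
  congr 1
  abel

theorem phiM_apply (a b : ι) (A : Matrix (Fin 2) (Fin 2) F) (x y : ι) : phiM a b A x y =
    (if x = y then 1 else 0) + ((if x = a then (if y = a then A 0 0 - 1 else 0) + (if y = b then A 0 1 else 0) else 0) +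
      (if x = b then (if y = a then A 1 0 else 0) + (if y = b then A 1 1 - 1 else 0) else 0)) := by
  unfold phiM
  rw [Matrix.add_apply, Matrix.one_apply, Matrix.mul_apply]
  simp only [Matrix.mul_apply, Fin.sum_univ_two, Matrix.transpose_apply, Pm, Matrix.sub_apply, Matrix.one_apply]
  simp

/-- embedding of `SL_2` at two coordinates -/
def phi {a b : ι} (h : a ≠ b) : Matrix.SpecialLinearGroup (Fin 2) F →* Matrix.SpecialLinearGroup ι F where
  toFun A := ⟨phiM a b (A : Matrix (Fin 2) (Fin 2) F), (phiM_det h _).trans A.2⟩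
  map_one' := Subtype.ext (by
    show phiM a b ((1 : Matrix.SpecialLinearGroup (Fin 2) F) : Matrix (Fin 2) (Fin 2) F) = 1
    rw [Matrix.SpecialLinearGroup.coe_one, phiM_one])
  map_mul' A B := Subtype.ext (by
    show phiM a b ((A * B : Matrix.SpecialLinearGroup (Fin 2) F) : Matrix (Fin 2) (Fin 2) F) = phiM a b (A : Matrix (Fin 2) (Fin 2) F) * phiM a b (B : Matrix (Fin 2) (Fin 2) F)
    rw [Matrix.SpecialLinearGroup.coe_mul, phiM_mul h])

theorem phi_apply {a b : ι} (h : a ≠ b) (A : Matrix.SpecialLinearGroup (Fin 2) F) (x y : ι) : (phi h A) x y =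
    (if x = y then 1 else 0) + ((if x = a then (if y = a then A 0 0 - 1 else 0) + (if y = b then A 0 1 else 0) else 0) +
      (if x = b then (if y = a then A 1 0 else 0) + (if y = b then A 1 1 - 1 else 0) else 0)) :=
  phiM_apply a b (A : Matrix (Fin 2) (Fin 2) F) x y

theorem phi_xx {a b : ι} (h : a ≠ b) (t : F) : phi h (xx t) = SpecialLinearGroup.transvection h t := by
  apply Subtype.ext
  ext x y
  show (phi h (xx t)) x y = _
  rw [phi_apply, x00, x01, x10, x11, sub_self]
  simp only [Matrix.SpecialLinearGroup.transvection_coe, Matrix.add_apply, Matrix.one_apply, Matrix.single_apply]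
  grind

theorem phi_yy {a b : ι} (h : a ≠ b) (t : F) : phi h (yy t) = SpecialLinearGroup.transvection h.symm t := by
  apply Subtype.ext
  ext x y
  show (phi h (yy t)) x y = _
  rw [phi_apply, y00, y01, y10, y11, sub_self]
  simp only [Matrix.SpecialLinearGroup.transvection_coe, Matrix.add_apply, Matrix.one_apply, Matrix.single_apply]
  grind

end Phi

section Sub
variable {F : Type*} [Field F] [Finite F] {ι : Type*} [Fintype ι] [DecidableEq ι]

theorem inv_of_pow {G : Type*} [Group G] [Finite G] {S : Set G} (h1 : (1 : G) ∈ S) (hm : ∀ a b, a ∈ S → b ∈ S → a * b ∈ S) {a : G} (ha : a ∈ S) :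
    a⁻¹ ∈ S := by
  have h2 : a⁻¹ ∈ Subgroup.zpowers a := Subgroup.inv_mem _ (Subgroup.mem_zpowers a)
  rw [← mem_powers_iff_mem_zpowers] at h2
  obtain ⟨n, hn⟩ := h2
  have : ∀ n : ℕ, a ^ n ∈ S := by
    intro n
    induction n with
    | zero => rw [pow_zero]; exact h1
    | succ n ih => rw [pow_succ]; exact hm _ _ ih ha
  rw [← hn]
  exact this n

/-- a subgroup from a multiplicatively closed set -/
def mkS {G : Type*} [Group G] [Finite G] (S : Set G) (h1 : (1 : G) ∈ S) (hm : ∀ a b, a ∈ S → b ∈ S → a * b ∈ S) : Subgroup G where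
  carrier := S
  mul_mem' := fun ha hb => hm _ _ ha hb
  one_mem' := h1
  inv_mem' := fun ha => inv_of_pow h1 hm ha

theorem mul_ap (g h : Matrix.SpecialLinearGroup ι F) (x y : ι) : (g * h) x y = ∑ z, g x z * h z y := by
  rw [Matrix.SpecialLinearGroup.coe_mul, Matrix.mul_apply]

theorem one_ap (x y : ι) : (1 : Matrix.SpecialLinearGroup ι F) x y = if x = y then 1 else 0 := by
  rw [Matrix.SpecialLinearGroup.coe_one, Matrix.one_apply]

/-- block diagonal matrices -/
def LB (β : ι → ℤ) : Subgroup (Matrix.SpecialLinearGroup ι F) := mkS {g | ∀ x y, β x ≠ β y → g x y = 0}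
  (fun x y h => by
    rw [one_ap, if_neg]
    rintro rfl
    exact h rfl)
  (fun g h hg hh x y hxy => by
    rw [mul_ap]
    apply Finset.sum_eq_zero
    intro z _
    by_cases h1 : β x = β z
    · rw [hh z y (by rw [← h1]; exact hxy), mul_zero]
    · rw [hg x z h1, zero_mul])

/-- block upper triangular matrices -/
def PB (β : ι → ℤ) : Subgroup (Matrix.SpecialLinearGroup ι F) := mkS {g | ∀ x y, β y < β x → g x y = 0}
  (fun x y h => by
    rw [one_ap, if_neg]
    rintro rfl
    exact lt_irrefl _ h)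
  (fun g h hg hh x y hxy => by
    rw [mul_ap]
    apply Finset.sum_eq_zero
    intro z _
    by_cases h1 : β z < β x
    · rw [hg x z h1, zero_mul]
    · rw [hh z y (by omega), mul_zero])

theorem ub_mul (β : ι → ℤ) {g h : Matrix.SpecialLinearGroup ι F} (hg : ∀ x y, β y ≤ β x → g x y = if x = y then 1 else 0)
    (hh : ∀ x y, β y ≤ β x → h x y = if x = y then 1 else 0) (x y : ι) (hxy : β y ≤ β x) : (g * h) x y = if x = y then 1 else 0 := by
  rw [mul_ap, Finset.sum_eq_single x]
  · rw [hg x x le_rfl, if_pos rfl, one_mul, hh x y hxy]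
  · intro z _ hz
    by_cases h1 : β z ≤ β x
    · rw [hg x z h1, if_neg hz.symm, zero_mul]
    · rw [hh z y (by omega), if_neg, mul_zero]
      rintro rfl
      omega
  · intro h; exact absurd (Finset.mem_univ _) h

/-- block unitriangular matrices -/
def UB (β : ι → ℤ) : Subgroup (Matrix.SpecialLinearGroup ι F) := mkS {g | ∀ x y, β y ≤ β x → g x y = if x = y then 1 else 0}
  (fun x y _ => one_ap x y) (fun _ _ hg hh => ub_mul β hg hh)

theorem mem_LB {β : ι → ℤ} {g : Matrix.SpecialLinearGroup ι F} : g ∈ LB β ↔ ∀ x y, β x ≠ β y → g x y = 0 := Iff.rfl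
theorem mem_PB {β : ι → ℤ} {g : Matrix.SpecialLinearGroup ι F} : g ∈ PB β ↔ ∀ x y, β y < β x → g x y = 0 := Iff.rfl
theorem mem_UB {β : ι → ℤ} {g : Matrix.SpecialLinearGroup ι F} : g ∈ UB β ↔ ∀ x y, β y ≤ β x → g x y = if x = y then 1 else 0 := Iff.rfl

theorem UB_le_PB (β : ι → ℤ) : (UB β : Subgroup (Matrix.SpecialLinearGroup ι F)) ≤ PB β := by
  intro g hg x y hxy
  rw [hg x y hxy.le, if_neg]
  rintro rfl
  exact lt_irrefl _ hxy

theorem LB_le_PB (β : ι → ℤ) : (LB β : Subgroup (Matrix.SpecialLinearGroup ι F)) ≤ PB β := by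
  intro g hg x y hxy
  exact hg x y hxy.ne'

theorem PB_norm {β : ι → ℤ} {g u : Matrix.SpecialLinearGroup ι F} (hg : g ∈ PB β) (hu : u ∈ UB β) : g * u * g⁻¹ ∈ UB β := by
  have hgi : g⁻¹ ∈ PB β := Subgroup.inv_mem _ hg
  intro x y hxy
  have h1 : ∀ x y, β y ≤ β x → (g * u) x y = g x y := by
    intro x y hxy
    rw [mul_ap, Finset.sum_eq_single y]
    · rw [hu y y le_rfl, if_pos rfl, mul_one]
    · intro z _ hz
      by_cases h2 : β z < β x
      · rw [hg x z h2, zero_mul]
      · rw [hu z y (by omega), if_neg hz, mul_zero]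
    · intro h; exact absurd (Finset.mem_univ _) h
  have h2 : (g * u * g⁻¹) x y = (g * g⁻¹) x y := by
    rw [mul_ap, mul_ap]
    apply Finset.sum_congr rfl
    intro z _
    by_cases h3 : β y < β z
    · rw [hgi z y h3, mul_zero, mul_zero]
    · rw [h1 x z (by omega)]
  rw [h2, mul_inv_cancel, one_ap]

theorem UB_mono {β γ : ι → ℤ} (h : ∀ x y, β y ≤ β x → γ y ≤ γ x) : (UB γ : Subgroup (Matrix.SpecialLinearGroup ι F)) ≤ UB β :=
  fun _ hg x y hxy => hg x y (h x y hxy)

theorem pow_strict {β : ι → ℤ} {N : Matrix ι ι F} (hN : ∀ x y, β y ≤ β x → N x y = 0) (m : ℕ) :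
    ∀ x y, β y < β x + m → (N ^ m) x y = 0 := by
  induction m with
  | zero =>
    intro x y h
    rw [pow_zero, Matrix.one_apply, if_neg]
    rintro rfl
    simp at h
  | succ m ih =>
    intro x y h
    rw [pow_succ, Matrix.mul_apply]
    apply Finset.sum_eq_zero
    intro z _
    by_cases h1 : β z < β x + m
    · rw [ih x z h1, zero_mul]
    · rw [hN z y (by push_cast at h; omega), mul_zero]

theorem UB_pgroup (β : ι → ℤ) {p : ℕ} [hp : Fact p.Prime] [CharP F p] : IsPGroup p (UB β : Subgroup (Matrix.SpecialLinearGroup ι F)) := by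
  rintro ⟨g, hg⟩
  set D : ℕ := 1 + ∑ x, ∑ y, (β y - β x).natAbs with hD
  have hDb : ∀ x y, β y < β x + D := by
    intro x y
    have h1 : (β y - β x).natAbs ≤ ∑ y, (β y - β x).natAbs := Finset.single_le_sum (f := fun y => (β y - β x).natAbs) (fun _ _ => Nat.zero_le _) (Finset.mem_univ y)
    have h2 : ∑ y, (β y - β x).natAbs ≤ ∑ x, ∑ y, (β y - β x).natAbs :=
      Finset.single_le_sum (f := fun x => ∑ y, (β y - β x).natAbs) (fun _ _ => Nat.zero_le _) (Finset.mem_univ x)
    omega
  refine ⟨D, Subtype.ext (Subtype.ext ?_)⟩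
  show ((g ^ (p ^ D) : Matrix.SpecialLinearGroup ι F) : Matrix ι ι F) = ((1 : Matrix.SpecialLinearGroup ι F) : Matrix ι ι F)
  rw [Matrix.SpecialLinearGroup.coe_pow, Matrix.SpecialLinearGroup.coe_one]
  by_cases hι : IsEmpty ι
  · ext x; exact (hι.false x).elim
  rw [not_isEmpty_iff] at hι
  have h1 : (g : Matrix ι ι F) = 1 + ((g : Matrix ι ι F) - 1) := by abel
  rw [h1, add_pow_char_pow_of_commute _ _ (Commute.one_left _), one_pow]
  have h2 : ((g : Matrix ι ι F) - 1) ^ (p ^ D) = 0 := by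
    ext x y
    rw [pow_strict (β := β) (N := (g : Matrix ι ι F) - 1)]
    · rfl
    · intro x y h
      rw [Matrix.sub_apply, Matrix.one_apply]
      have := hg x y h
      rw [this, sub_self]
    · have h3 := hDb x y
      have h4 : D < p ^ D := Nat.lt_pow_self hp.out.one_lt
      have h5 : (D : ℤ) < ((p ^ D : ℕ) : ℤ) := by exact_mod_cast h4
      omega
  rw [h2, add_zero]

end Sub

end CfsgLib.SLB
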