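import Cfsg.Agent.LibSLB15

set_option autoImplicit false
set_option linter.unusedSectionVars false

/-! Split BN data of the special linear groups, II (seat helper15). -/

namespace CfsgLib.SLB

open Matrix CfsgLib.SL2P CfsgLib.UDZ

variable {F : Type*} [Field F] [Finite F] {k : ℕ}

/-- the standard height function -/
def b0 (k : ℕ) : Fin (k + 1) → ℤ := fun x => (x : ℕ)
/-- the height function of a minimal parabolic -/
def bj (j : Fin k) : Fin (k + 1) → ℤ := fun x => if (x : ℕ) ≤ (j : ℕ) then ((x : ℕ) : ℤ) else ((x : ℕ) : ℤ) - 1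
/-- opposite -/
def ng (β : Fin (k + 1) → ℤ) : Fin (k + 1) → ℤ := fun x => - β x

theorem cs_ne (j : Fin k) : j.castSucc ≠ j.succ := (Fin.castSucc_lt_succ).ne

variable (F) in
/-- the rank one subgroups -/
def ph (j : Fin k) : Matrix.SpecialLinearGroup (Fin 2) F →* Matrix.SpecialLinearGroup (Fin (k + 1)) F := phi (cs_ne j)

theorem ph_apply (j : Fin k) (A : Matrix.SpecialLinearGroup (Fin 2) F) (x y : Fin (k + 1)) : (ph F j A) x y =
    (if x = y then 1 else 0) + ((if x = j.castSucc then (if y = j.castSucc then A 0 0 - 1 else 0) + (if y = j.succ then A 0 1 else 0) else 0) +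
      (if x = j.succ then (if y = j.castSucc then A 1 0 else 0) + (if y = j.succ then A 1 1 - 1 else 0) else 0)) := phi_apply _ A x y

theorem ph_LB (j : Fin k) (A : Matrix.SpecialLinearGroup (Fin 2) F) : ph F j A ∈ LB (bj j) := by
  intro x y h
  have h1 : x ≠ y := by rintro rfl; exact h rfl
  rw [ph_apply, if_neg h1]
  have h2 : bj j j.castSucc = bj j j.succ := by
    unfold bj
    simp
  by_cases hx : x = j.castSucc
  · have hy1 : y ≠ j.castSucc := fun e => h1 (hx.trans e.symm)
    have hy2 : y ≠ j.succ := fun e => h (by rw [hx, e, h2])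
    simp [hx, hy1, hy2, cs_ne j]
  · by_cases hx' : x = j.succ
    · have hy1 : y ≠ j.succ := fun e => h1 (hx'.trans e.symm)
      have hy2 : y ≠ j.castSucc := fun e => h (by rw [hx', e, h2])
      simp [hx', hy1, hy2, (cs_ne j).symm]
    · simp [hx, hx']

theorem ph_LBn (j : Fin k) (A : Matrix.SpecialLinearGroup (Fin 2) F) : ph F j A ∈ LB (ng (bj j)) := by
  intro x y h
  exact ph_LB j A x y (fun e => h (by unfold ng; rw [e]))

theorem xx_U (j : Fin k) (t : F) : ph F j (xx t) ∈ UB (b0 k) := by
  intro x y h
  have h' : (y : ℕ) ≤ (x : ℕ) := by unfold b0 at h; exact_mod_cast h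
  rw [ph_apply, x00, x01, x10, x11, sub_self]
  have : ¬ (x = j.castSucc ∧ y = j.succ) := by
    rintro ⟨rfl, rfl⟩
    simp at h'
  by_cases hx : x = j.castSucc
  · have hy : y ≠ j.succ := fun e => this ⟨hx, e⟩
    simp [hx, hy, cs_ne j]
  · simp [hx]

theorem yy_V (j : Fin k) (t : F) : ph F j (yy t) ∈ UB (ng (b0 k)) := by
  intro x y h
  have h' : (x : ℕ) ≤ (y : ℕ) := by unfold ng b0 at h; omega
  rw [ph_apply, y00, y01, y10, y11, sub_self]
  have : ¬ (x = j.succ ∧ y = j.castSucc) := by
    rintro ⟨rfl, rfl⟩
    simp at h'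
  by_cases hx : x = j.succ
  · have hy : y ≠ j.castSucc := fun e => this ⟨hx, e⟩
    simp [hx, hy, (cs_ne j).symm]
  · simp [hx]

theorem dd_H (j : Fin k) (c : Fˣ) : ph F j (dd c) ∈ LB (b0 k) := by
  intro x y h
  have h1 : x ≠ y := by rintro rfl; exact h rfl
  rw [ph_apply, d00, d01, d10, d11, if_neg h1]
  by_cases hx : x = j.castSucc
  · have hy1 : y ≠ j.castSucc := fun e => h1 (hx.trans e.symm)
    simp [hx, hy1, cs_ne j]
  · by_cases hx' : x = j.succ
    · have hy1 : y ≠ j.succ := fun e => h1 (hx'.trans e.symm)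
      simp [hx', hy1, (cs_ne j).symm]
    · simp [hx, hx']

theorem bj_mono (j : Fin k) : ∀ x y, (b0 k) y ≤ (b0 k) x → bj j y ≤ bj j x := by
  intro x y h
  unfold b0 at h
  unfold bj
  split_ifs <;> omega

theorem U'_le (j : Fin k) : (UB (bj j) : Subgroup (Matrix.SpecialLinearGroup (Fin (k + 1)) F)) ≤ UB (b0 k) := UB_mono (bj_mono j)

theorem V'_le (j : Fin k) : (UB (ng (bj j)) : Subgroup (Matrix.SpecialLinearGroup (Fin (k + 1)) F)) ≤ UB (ng (b0 k)) :=
  UB_mono (fun x y h => by
    have := bj_mono j y x (by unfold ng at h; omega)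
    unfold ng
    omega)

theorem ph_mul (j : Fin k) (A : Matrix.SpecialLinearGroup (Fin 2) F) (g : Matrix.SpecialLinearGroup (Fin (k + 1)) F) (x y : Fin (k + 1)) :
    (ph F j A * g) x y = g x y + ((if x = j.castSucc then (A 0 0 - 1) * g j.castSucc y + A 0 1 * g j.succ y else 0) +
      (if x = j.succ then A 1 0 * g j.castSucc y + (A 1 1 - 1) * g j.succ y else 0)) := by
  rw [mul_ap]
  have h0 : ∀ z, (ph F j A) x z * g z y = (if x = z then g z y else 0) +
      ((if z = j.castSucc then (if x = j.castSucc then (A 0 0 - 1) * g z y else 0) + (if x = j.succ then A 1 0 * g z y else 0) else 0) +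
      (if z = j.succ then (if x = j.castSucc then A 0 1 * g z y else 0) + (if x = j.succ then (A 1 1 - 1) * g z y else 0) else 0)) := by
    intro z
    rw [ph_apply, add_mul, add_mul]
    congr 1
    · rw [ite_mul, one_mul, zero_mul]
    · split_ifs <;> ring
  simp only [h0, Finset.sum_add_distrib, Finset.sum_ite_eq, Finset.sum_ite_eq', Finset.mem_univ, if_true]
  split_ifs <;> ring

theorem Ud (j : Fin k) {u : Matrix.SpecialLinearGroup (Fin (k + 1)) F} (hu : u ∈ UB (b0 k)) :
    ph F j (xx (- u j.castSucc j.succ)) * u ∈ UB (bj j) := by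
  intro x y h
  have h1 := (Subgroup.mul_mem _ (xx_U j (- u j.castSucc j.succ)) hu : ph F j (xx (- u j.castSucc j.succ)) * u ∈ UB (b0 k))
  by_cases h2 : (b0 k) y ≤ (b0 k) x
  · exact h1 x y h2
  · have hlt : (x : ℕ) < (y : ℕ) := by unfold b0 at h2; omega
    have hx : x = j.castSucc ∧ y = j.succ := by
      unfold bj at h
      constructor
      · apply Fin.ext
        rw [Fin.val_castSucc]
        split_ifs at h <;> omega
      · apply Fin.ext
        rw [Fin.val_succ]
        split_ifs at h <;> omega
    obtain ⟨rfl, rfl⟩ := hx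
    rw [ph_mul, if_pos rfl, if_neg (cs_ne j), x00, x01, sub_self]
    have h3 : u j.succ j.succ = 1 := by rw [hu _ _ le_rfl, if_pos rfl]
    rw [h3, if_neg (cs_ne j)]
    ring

theorem mul_ph (j : Fin k) (A : Matrix.SpecialLinearGroup (Fin 2) F) (g : Matrix.SpecialLinearGroup (Fin (k + 1)) F) (x y : Fin (k + 1)) :
    (g * ph F j A) x y = g x y + ((if y = j.castSucc then g x j.castSucc * (A 0 0 - 1) + g x j.succ * A 1 0 else 0) +
      (if y = j.succ then g x j.castSucc * A 0 1 + g x j.succ * (A 1 1 - 1) else 0)) := by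
  rw [mul_ap]
  have h0 : ∀ z, g x z * (ph F j A) z y = (if z = y then g x z else 0) +
      ((if z = j.castSucc then (if y = j.castSucc then g x z * (A 0 0 - 1) else 0) + (if y = j.succ then g x z * A 0 1 else 0) else 0) +
      (if z = j.succ then (if y = j.castSucc then g x z * A 1 0 else 0) + (if y = j.succ then g x z * (A 1 1 - 1) else 0) else 0)) := by
    intro z
    rw [ph_apply, mul_add, mul_add]
    congr 1
    · rw [mul_ite, mul_one, mul_zero]
    · split_ifs <;> ring
  simp only [h0, Finset.sum_add_distrib, Finset.sum_ite_eq, Finset.sum_ite_eq', Finset.mem_univ, if_true]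
  split_ifs <;> ring

theorem Ud' (j : Fin k) {u : Matrix.SpecialLinearGroup (Fin (k + 1)) F} (hu : u ∈ UB (b0 k)) :
    u * ph F j (xx (- u j.castSucc j.succ)) ∈ UB (bj j) := by
  intro x y h
  have h1 := (Subgroup.mul_mem _ hu (xx_U j (- u j.castSucc j.succ)) : u * ph F j (xx (- u j.castSucc j.succ)) ∈ UB (b0 k))
  by_cases h2 : (b0 k) y ≤ (b0 k) x
  · exact h1 x y h2
  · have hlt : (x : ℕ) < (y : ℕ) := by unfold b0 at h2; omega
    have hx : x = j.castSucc ∧ y = j.succ := by
      unfold bj at h
      constructor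
      · apply Fin.ext
        rw [Fin.val_castSucc]
        split_ifs at h <;> omega
      · apply Fin.ext
        rw [Fin.val_succ]
        split_ifs at h <;> omega
    obtain ⟨rfl, rfl⟩ := hx
    rw [mul_ph, if_neg (cs_ne j).symm, if_pos rfl, x01, x11, sub_self]
    have h3 : u j.castSucc j.castSucc = 1 := by rw [hu _ _ le_rfl, if_pos rfl]
    rw [h3, if_neg (cs_ne j)]
    ring

theorem Vd (j : Fin k) {u : Matrix.SpecialLinearGroup (Fin (k + 1)) F} (hu : u ∈ UB (ng (b0 k))) :
    u * ph F j (yy (- u j.succ j.castSucc)) ∈ UB (ng (bj j)) := by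
  intro x y h
  have h1 := (Subgroup.mul_mem _ hu (yy_V j (- u j.succ j.castSucc)) : u * ph F j (yy (- u j.succ j.castSucc)) ∈ UB (ng (b0 k)))
  by_cases h2 : (ng (b0 k)) y ≤ (ng (b0 k)) x
  · exact h1 x y h2
  · have hlt : (y : ℕ) < (x : ℕ) := by unfold ng b0 at h2; omega
    have hx : x = j.succ ∧ y = j.castSucc := by
      unfold ng bj at h
      constructor
      · apply Fin.ext
        rw [Fin.val_succ]
        split_ifs at h <;> omega
      · apply Fin.ext
        rw [Fin.val_castSucc]
        split_ifs at h <;> omega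
    obtain ⟨rfl, rfl⟩ := hx
    rw [mul_ph, if_pos rfl, if_neg (cs_ne j), y00, y10, sub_self]
    have h3 : u j.succ j.succ = 1 := by rw [hu _ _ le_rfl, if_pos rfl]
    rw [h3, if_neg (cs_ne j).symm]
    ring

/-- generation by simple root elements -/
theorem gen_top (hk : 1 ≤ k) {K : Subgroup (Matrix.SpecialLinearGroup (Fin (k + 1)) F)} (hx : ∀ j t, ph F j (xx t) ∈ K)
    (hy : ∀ j t, ph F j (yy t) ∈ K) : K = ⊤ := by
  have key : ∀ d : ℕ, ∀ (x y : Fin (k + 1)) (hxy : x ≠ y), (y : ℕ) = x + d + 1 → ∀ t : F,
      SpecialLinearGroup.transvection hxy t ∈ K ∧ SpecialLinearGroup.transvection hxy.symm t ∈ K := by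
    intro d
    induction d with
    | zero =>
      intro x y hxy h t
      have hxk : (x : ℕ) < k := by have := y.2; omega
      obtain rfl : y = (⟨x, hxk⟩ : Fin k).succ := Fin.ext (by rw [h, Fin.val_succ])
      constructor
      · have := hx ⟨x, hxk⟩ t
        unfold ph at this
        rw [phi_xx] at this
        exact this
      · have := hy ⟨x, hxk⟩ t
        unfold ph at this
        rw [phi_yy] at this
        exact this
    | succ d ih =>
      intro x y hxy h t
      have hz : (x : ℕ) + 1 < k + 1 := by have := y.2; omega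
      set z : Fin (k + 1) := ⟨x + 1, hz⟩ with hzd
      have hxz : x ≠ z := by intro e; have := congrArg Fin.val e; simp [hzd] at this
      have hzy : z ≠ y := by intro e; have := congrArg Fin.val e; simp [hzd] at this; omega
      have h1 := ih z y hzy (by simp [hzd]; omega)
      have h2 : ∀ t : F, SpecialLinearGroup.transvection hxz t ∈ K ∧ SpecialLinearGroup.transvection hxz.symm t ∈ K := by
        intro t
        have hxk : (x : ℕ) < k := by have := y.2; omega
        have e1 : x = (⟨x, hxk⟩ : Fin k).castSucc := rfl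
        have e2 : z = (⟨x, hxk⟩ : Fin k).succ := rfl
        constructor
        · have := hx ⟨x, hxk⟩ t
          unfold ph at this
          rw [phi_xx] at this
          exact this
        · have := hy ⟨x, hxk⟩ t
          unfold ph at this
          rw [phi_yy] at this
          exact this
      constructor
      · have := Cfsg.Agent.H22.transvection_commutator hxz hzy hxy t 1
        rw [mul_one] at this
        rw [← this, commutatorElement_def]
        exact K.mul_mem (K.mul_mem (K.mul_mem (h2 t).1 (h1 1).1) (K.inv_mem (h2 t).1)) (K.inv_mem (h1 1).1)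
      · have := Cfsg.Agent.H22.transvection_commutator hzy.symm hxz.symm hxy.symm t 1
        rw [mul_one] at this
        rw [← this, commutatorElement_def]
        exact K.mul_mem (K.mul_mem (K.mul_mem (h1 t).2 (h2 1).2) (K.inv_mem (h1 t).2)) (K.inv_mem (h2 1).2)
  haveI : Nontrivial (Fin (k + 1)) := Fin.nontrivial_iff_two_le.2 (by omega)
  rw [eq_top_iff]
  intro A _
  induction A using Cfsg.Agent.H22.SLn.transvection_induction with
  | htransvec i j hij c =>
    rcases lt_or_gt_of_ne (Fin.val_ne_of_ne hij) with h | h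
    · exact (key (j - i - 1) i j hij (by omega) c).1
    · exact (key (i - j - 1) j i hij.symm (by omega) c).2
  | hmul A B hA hB => exact K.mul_mem (hA (Subgroup.mem_top _)) (hB (Subgroup.mem_top _))

theorem yy_of_xx (t : F) : (yy t : Matrix.SpecialLinearGroup (Fin 2) F) = ww⁻¹ * xx (-t) * ww := by
  have := xw (-t)
  rw [neg_neg] at this
  rw [mul_assoc, this]; group

theorem xx_of_yy (t : F) : (xx t : Matrix.SpecialLinearGroup (Fin 2) F) = ww * yy (-t) * ww⁻¹ := by
  rw [← xw]; group

theorem LB0_diag {h : Matrix.SpecialLinearGroup (Fin (k + 1)) F} (hh : h ∈ LB (b0 k)) (x y : Fin (k + 1)) (hxy : x ≠ y) : h x y = 0 :=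
  hh x y (fun e => hxy (Fin.ext (by unfold b0 at e; exact_mod_cast e)))

theorem LB0_det {h : Matrix.SpecialLinearGroup (Fin (k + 1)) F} (hh : h ∈ LB (b0 k)) : ∏ x, h x x = 1 := by
  have h1 : (h : Matrix (Fin (k + 1)) (Fin (k + 1)) F) = Matrix.diagonal (fun x => h x x) := by
    ext x y
    rw [Matrix.diagonal_apply]
    split_ifs with e
    · rw [e]
    · exact LB0_diag hh x y e
  have h2 := h.2
  rw [h1, Matrix.det_diagonal] at h2
  exact h2

theorem H_gen {K : Subgroup (Matrix.SpecialLinearGroup (Fin (k + 1)) F)} (hK : ∀ j c, ph F j (dd c) ∈ K) : LB (b0 k) ≤ K := by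
  have key : ∀ d : ℕ, d ≤ k → ∀ h ∈ (LB (b0 k) : Subgroup (Matrix.SpecialLinearGroup (Fin (k + 1)) F)), (∀ x : Fin (k + 1), (x : ℕ) < k - d → h x x = 1) → h ∈ K := by
    intro d
    induction d with
    | zero =>
      intro _ h hh h1
      have hl : h (Fin.last k) (Fin.last k) = 1 := by
        have h2 := LB0_det hh
        rw [Fin.prod_univ_castSucc, Finset.prod_eq_one, one_mul] at h2
        · exact h2
        · intro i _
          exact h1 _ (by simp)
      have : h = 1 := by
        apply Subtype.ext
        ext x y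
        rw [Matrix.SpecialLinearGroup.coe_one, Matrix.one_apply]
        split_ifs with e
        · subst e
          rcases Nat.lt_or_ge (x : ℕ) k with h3 | h3
          · exact h1 x (by omega)
          · have : x = Fin.last k := Fin.ext (by rw [Fin.val_last]; have := x.2; omega)
            rw [this]; exact hl
        · exact LB0_diag hh x y e
      rw [this]; exact K.one_mem
    | succ d ih =>
      intro hd h hh h1
      have hm : k - (d + 1) < k := by omega
      set j : Fin k := ⟨k - (d + 1), hm⟩ with hj
      have hne : h j.castSucc j.castSucc ≠ 0 := by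
        intro e
        have h2 := LB0_det hh
        rw [Finset.prod_eq_zero (f := fun x => h x x) (Finset.mem_univ j.castSucc) e] at h2
        exact zero_ne_one h2
      set c : Fˣ := Units.mk0 _ hne with hc
      have h2 : (ph F j (dd c))⁻¹ * h ∈ K := by
        apply ih (by omega) _ (Subgroup.mul_mem _ (Subgroup.inv_mem _ (dd_H j c)) hh)
        intro x hx
        have e1 : (ph F j (dd c))⁻¹ = ph F j (dd c⁻¹) := by
          rw [← map_inv]
          congr 1
          rw [inv_eq_iff_mul_eq_one, ← dd_mul, mul_inv_cancel, dd_one]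
        rw [e1, ph_mul, d00, d01, d10, d11]
        by_cases hxj : x = j.castSucc
        · subst hxj
          rw [if_pos rfl, if_neg (cs_ne j)]
          have h3 : ((c⁻¹ : Fˣ) : F) * h j.castSucc j.castSucc = 1 := by
            have : (c : F) = h j.castSucc j.castSucc := rfl
            rw [← this, ← Units.val_mul, inv_mul_cancel, Units.val_one]
          linear_combination h3
        · have hx1 : (x : ℕ) < k - (d + 1) := by
            have : (x : ℕ) ≠ k - (d + 1) := fun e => hxj (Fin.ext e)
            omega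
          have hx2 : x ≠ j.succ := by
            intro e
            have := congrArg Fin.val e
            rw [Fin.val_succ] at this
            simp [hj] at this
            omega
          rw [if_neg hxj, if_neg hx2, h1 x hx1]
          ring
      have h3 : h = ph F j (dd c) * ((ph F j (dd c))⁻¹ * h) := by group
      rw [h3]
      exact K.mul_mem (hK _ _) h2
  intro h hh
  exact key k le_rfl h hh (fun x hx => by omega)

end CfsgLib.SLB
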