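import Cfsg.Agent.LibSLB15b

set_option autoImplicit false
set_option linter.unusedSectionVars false

/-! Split BN data of the special linear groups, III (seat helper15). -/

namespace CfsgLib.SLB

open Matrix CfsgLib.SL2P CfsgLib.UDZ

variable {F : Type*} [Field F] [Finite F] {k : ℕ}

/-- rank one perturbation of the identity -/
def rk1 {ι : Type*} [Fintype ι] [DecidableEq ι] (u v : ι → F) (h : ∑ z, u z * v z = 0) : Matrix.SpecialLinearGroup ι F :=
  ⟨1 + Matrix.replicateCol Unit u * Matrix.replicateRow Unit v, by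
    rw [Matrix.det_one_add_replicateCol_mul_replicateRow]
    unfold dotProduct
    rw [show ∑ i, v i * u i = ∑ z, u z * v z from Finset.sum_congr rfl (fun _ _ => mul_comm _ _), h, add_zero]⟩

theorem rk1_apply {ι : Type*} [Fintype ι] [DecidableEq ι] (u v : ι → F) (h : ∑ z, u z * v z = 0) (x y : ι) :
    (rk1 u v h) x y = (if x = y then 1 else 0) + u x * v y := by
  show (1 + Matrix.replicateCol Unit u * Matrix.replicateRow Unit v : Matrix ι ι F) x y = _
  rw [Matrix.add_apply, Matrix.one_apply, Matrix.mul_apply]
  simp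

/-- cleared columns -/
def Clr (m : Matrix.SpecialLinearGroup (Fin (k + 1)) F) (y : Fin (k + 1)) : Prop :=
  ∃ x, m x y ≠ 0 ∧ (∀ x', x' ≠ x → m x' y = 0) ∧ (∀ y', y' ≠ y → m x y' = 0)

theorem clear_step (m : Matrix.SpecialLinearGroup (Fin (k + 1)) F) (c : Fin (k + 1)) (hm : ∀ y, y < c → Clr m y) :
    ∃ v ∈ (UB (ng (b0 k)) : Subgroup (Matrix.SpecialLinearGroup (Fin (k + 1)) F)), ∃ u ∈ (UB (b0 k) : Subgroup (Matrix.SpecialLinearGroup (Fin (k + 1)) F)),
      ∀ y, y ≤ c → Clr (v * m * u) y := by
  classical
  have hex : ∃ x, m x c ≠ 0 := by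
    by_contra h
    push Not at h
    have h1 := m.2
    rw [Matrix.det_eq_zero_of_column_eq_zero c h] at h1
    exact zero_ne_one h1
  let S : Finset (Fin (k + 1)) := Finset.univ.filter (fun x => m x c ≠ 0)
  have hS : S.Nonempty := by
    obtain ⟨x, hx⟩ := hex
    exact ⟨x, by simp [S, hx]⟩
  set x := S.min' hS with hx
  have hxc : m x c ≠ 0 := by
    have := S.min'_mem hS
    simpa [S] using this
  have hxmin : ∀ a, a < x → m a c = 0 := by
    intro a ha
    by_contra h
    have := S.min'_le a (by simp [S, h])
    exact absurd ha (not_lt.2 this)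
  have hrow : ∀ z, z < c → m x z = 0 := by
    intro z hz
    obtain ⟨xz, h1, h2, h3⟩ := hm z hz
    apply h2
    rintro rfl
    exact hxc (h3 c (ne_of_gt hz))
  -- left factor
  set f : Fin (k + 1) → F := fun a => if x < a then -(m a c / m x c) else 0 with hf
  have hfx : f x = 0 := by rw [hf]; simp
  set v := rk1 f (fun b => if b = x then 1 else 0) (by
    simp only [mul_ite, mul_one, mul_zero, Finset.sum_ite_eq', Finset.mem_univ, if_true]; exact hfx) with hv
  have hvV : v ∈ (UB (ng (b0 k)) : Subgroup (Matrix.SpecialLinearGroup (Fin (k + 1)) F)) := by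
    intro a b h
    rw [hv, rk1_apply]
    have h' : a ≤ b := by unfold ng b0 at h; rw [Fin.le_def]; omega
    have : f a * (if b = x then 1 else 0) = 0 := by
      by_cases hb : b = x
      · have : f a = 0 := by
          rw [hf]
          show (if x < a then _ else _) = _
          rw [if_neg]
          rw [← hb]
          exact not_lt.2 h'
        rw [this, zero_mul]
      · rw [if_neg hb, mul_zero]
    rw [this, add_zero]
  have hm1 : ∀ a b, (v * m) a b = m a b + f a * m x b := by
    intro a b
    rw [mul_ap]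
    have : ∀ z, v a z * m z b = (if a = z then m z b else 0) + (if z = x then f a * m z b else 0) := by
      intro z
      rw [hv, rk1_apply]
      split_ifs <;> ring
    simp only [this, Finset.sum_add_distrib, Finset.sum_ite_eq, Finset.sum_ite_eq', Finset.mem_univ, if_true]
  set g : Fin (k + 1) → F := fun b => if c < b then -((v * m) x b / m x c) else 0 with hg
  have hgc : g c = 0 := by rw [hg]; simp
  set u := rk1 (fun a => if a = c then 1 else 0) g (by
    simp only [ite_mul, one_mul, zero_mul, Finset.sum_ite_eq', Finset.mem_univ, if_true]; exact hgc) with hu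
  have huU : u ∈ (UB (b0 k) : Subgroup (Matrix.SpecialLinearGroup (Fin (k + 1)) F)) := by
    intro a b h
    rw [hu, rk1_apply]
    have h' : b ≤ a := by unfold b0 at h; rw [Fin.le_def]; omega
    have : (if a = c then 1 else 0) * g b = 0 := by
      by_cases ha : a = c
      · have : g b = 0 := by
          rw [hg]
          show (if c < b then _ else _) = _
          rw [if_neg]
          rw [← ha]
          exact not_lt.2 h'
        rw [this, mul_zero]
      · rw [if_neg ha, zero_mul]
    rw [this, add_zero]
  have hm2 : ∀ a b, (v * m * u) a b = (v * m) a b + (v * m) a c * g b := by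
    intro a b
    rw [mul_ap]
    have : ∀ z, (v * m) a z * u z b = (if z = b then (v * m) a z else 0) + (if z = c then (v * m) a z * g b else 0) := by
      intro z
      rw [hu, rk1_apply]
      split_ifs <;> ring
    simp only [this, Finset.sum_add_distrib, Finset.sum_ite_eq', Finset.mem_univ, if_true]
  have hcol : ∀ a, a ≠ x → (v * m) a c = 0 := by
    intro a ha
    rw [hm1]
    rcases lt_or_gt_of_ne ha with h | h
    · rw [hxmin a h]
      have : f a = 0 := by
        rw [hf]
        show (if x < a then _ else _) = _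
        rw [if_neg (not_lt.2 h.le)]
      rw [this]; ring
    · have : f a = -(m a c / m x c) := by
        rw [hf]
        show (if x < a then _ else _) = _
        rw [if_pos h]
      rw [this]
      field_simp
      ring
  have hcolx : (v * m) x c = m x c := by rw [hm1, hfx]; ring
  refine ⟨v, hvV, u, huU, ?_⟩
  intro y hy
  rcases lt_or_eq_of_le hy with hy | rfl
  · obtain ⟨xz, h1, h2, h3⟩ := hm y hy
    have hgy : g y = 0 := by
      rw [hg]
      show (if c < y then _ else _) = _
      rw [if_neg (not_lt.2 hy.le)]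
    have hxz : xz ≠ x := by
      rintro rfl
      exact h1 (hrow y hy)
    refine ⟨xz, ?_, ?_, ?_⟩
    · rw [hm2, hgy, hm1, hrow y hy, mul_zero, mul_zero, add_zero, add_zero]
      exact h1
    · intro x' hx'
      rw [hm2, hgy, hm1, hrow y hy, mul_zero, mul_zero, add_zero, add_zero]
      exact h2 x' hx'
    · intro y' hy'
      have hfz : f xz = 0 := by
        rw [hf]
        show (if x < xz then _ else _) = _
        split_ifs with h
        · rw [h3 c (ne_of_gt hy), zero_div, neg_zero]
        · rfl
      rw [hm2, hcol xz hxz, hm1, hfz, h3 y' hy']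
      ring
  · refine ⟨x, ?_, ?_, ?_⟩
    · rw [hm2, hgc, mul_zero, add_zero, hcolx]
      exact hxc
    · intro x' hx'
      rw [hm2, hgc, mul_zero, add_zero]
      exact hcol x' hx'
    · intro y' hy'
      rw [hm2, hcolx]
      rcases lt_or_gt_of_ne hy' with h | h
      · have hgy : g y' = 0 := by
          rw [hg]
          show (if y < y' then _ else _) = _
          rw [if_neg (not_lt.2 h.le)]
        rw [hgy, hm1, hrow y' h]
        ring
      · have hgy : g y' = -((v * m) x y' / m x y) := by
          rw [hg]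
          show (if y < y' then _ else _) = _
          rw [if_pos h]
        rw [hgy]
        field_simp
        ring

theorem clear_all (g : Matrix.SpecialLinearGroup (Fin (k + 1)) F) : ∀ c : ℕ, c ≤ k + 1 →
    ∃ v ∈ (UB (ng (b0 k)) : Subgroup (Matrix.SpecialLinearGroup (Fin (k + 1)) F)), ∃ u ∈ (UB (b0 k) : Subgroup (Matrix.SpecialLinearGroup (Fin (k + 1)) F)),
      ∀ y : Fin (k + 1), (y : ℕ) < c → Clr (v * g * u) y := by
  intro c
  induction c with
  | zero => intro _; exact ⟨1, one_mem _, 1, one_mem _, fun y hy => by omega⟩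
  | succ c ih =>
    intro hc
    obtain ⟨v, hv, u, hu, h⟩ := ih (by omega)
    obtain ⟨v', hv', u', hu', h'⟩ := clear_step (v * g * u) ⟨c, by omega⟩ (fun y hy => h y hy)
    refine ⟨v' * v, mul_mem hv' hv, u * u', mul_mem hu hu', ?_⟩
    intro y hy
    have e : v' * v * g * (u * u') = v' * (v * g * u) * u' := by group
    rw [e]
    exact h' y (by rw [Fin.le_def]; show (y : ℕ) ≤ c; omega)

/-- Bruhat cells with respect to opposite unipotent groups -/
theorem bruhat (g : Matrix.SpecialLinearGroup (Fin (k + 1)) F) :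
    ∃ v ∈ (UB (ng (b0 k)) : Subgroup (Matrix.SpecialLinearGroup (Fin (k + 1)) F)), ∃ m : Matrix.SpecialLinearGroup (Fin (k + 1)) F,
    ∃ u ∈ (UB (b0 k) : Subgroup (Matrix.SpecialLinearGroup (Fin (k + 1)) F)), ∃ w : Fin (k + 1) → Fin (k + 1), g = v * m * u ∧
      Function.Injective w ∧ (∀ x y, x ≠ w y → m x y = 0) := by
  obtain ⟨v, hv, u, hu, h⟩ := clear_all g (k + 1) le_rfl
  have h' : ∀ y, Clr (v * g * u) y := fun y => h y y.2
  choose w h1 h2 h3 using h'
  refine ⟨v⁻¹, inv_mem hv, v * g * u, u⁻¹, inv_mem hu, w, by group, ?_, fun x y hxy => h2 y x hxy⟩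
  intro y y' e
  by_contra hne
  exact h1 y' (by rw [← e]; exact h3 y y' (fun e' => hne e'.symm))

theorem cell (x : Matrix.SpecialLinearGroup (Fin (k + 1)) F) :
    (∃ v ∈ (UB (ng (b0 k)) : Subgroup (Matrix.SpecialLinearGroup (Fin (k + 1)) F)), ∃ b ∈ (LB (b0 k) : Subgroup (Matrix.SpecialLinearGroup (Fin (k + 1)) F)),
      ∃ u ∈ (UB (b0 k) : Subgroup (Matrix.SpecialLinearGroup (Fin (k + 1)) F)), x = v * b * u) ∨
    ∃ v ∈ (UB (ng (b0 k)) : Subgroup (Matrix.SpecialLinearGroup (Fin (k + 1)) F)), ∃ m,
      ∃ u ∈ (UB (b0 k) : Subgroup (Matrix.SpecialLinearGroup (Fin (k + 1)) F)), ∃ j : Fin k, x = v * m * u ∧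
        ∀ t, m * ph F j (xx t) * m⁻¹ ∈ (UB (ng (b0 k)) : Subgroup (Matrix.SpecialLinearGroup (Fin (k + 1)) F)) := by
  obtain ⟨v, hv, m, u, hu, w, e, hw, hm⟩ := bruhat x
  by_cases hj : ∃ j : Fin k, w j.succ < w j.castSucc
  · right
    obtain ⟨j, hj⟩ := hj
    refine ⟨v, hv, m, u, hu, j, e, ?_⟩
    intro t a b hab
    have hab' : a ≤ b := by unfold ng b0 at hab; rw [Fin.le_def]; omega
    have hmi : ∀ a, a ≠ w j.succ → m⁻¹ j.succ a = 0 := by
      -- rows of the inverse
      intro a ha
      have hsurj : Function.Surjective w := Finite.surjective_of_injective hw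
      have h1 : ∀ z y, (m⁻¹ * m) z y = m⁻¹ z (w y) * m (w y) y := by
        intro z y
        rw [mul_ap, Finset.sum_eq_single (w y)]
        · intro z' _ hz'
          rw [hm z' y hz', mul_zero]
        · intro h; exact absurd (Finset.mem_univ _) h
      obtain ⟨y, rfl⟩ := hsurj a
      have hy : y ≠ j.succ := by rintro rfl; exact ha rfl
      have h2 := h1 j.succ y
      rw [inv_mul_cancel, one_ap, if_neg hy.symm] at h2
      have h3 : m (w y) y ≠ 0 := by
        intro h
        have h4 := h1 y y
        rw [inv_mul_cancel, one_ap, if_pos rfl, h, mul_zero] at h4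
        exact one_ne_zero h4
      exact (mul_eq_zero.1 h2.symm).resolve_right h3
    have h5 : (m * ph F j (xx t) * m⁻¹) a b = (m * m⁻¹) a b + m a j.castSucc * t * m⁻¹ j.succ b := by
      rw [mul_ap, mul_ap]
      have : ∀ z, (m * ph F j (xx t)) a z * m⁻¹ z b = m a z * m⁻¹ z b + (if z = j.succ then m a j.castSucc * t * m⁻¹ z b else 0) := by
        intro z
        rw [mul_ph, x00, x01, x10, x11, sub_self]
        split_ifs <;> ring
      simp only [this, Finset.sum_add_distrib, Finset.sum_ite_eq', Finset.mem_univ, if_true]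
    rw [h5, mul_inv_cancel, one_ap]
    by_cases h6 : a = w j.castSucc
    · by_cases h7 : b = w j.succ
      · exfalso
        rw [h6, h7] at hab'
        exact absurd hj (not_lt.2 hab')
      · rw [hmi b h7, mul_zero, add_zero]
    · rw [hm a _ h6]
      ring
  · left
    push Not at hj
    have hmono : StrictMono w := by
      rw [Fin.strictMono_iff_lt_succ]
      intro i
      exact lt_of_le_of_ne (hj i) (fun e => (cs_ne i) (hw e))
    have hwid : w = id := by
      funext x
      exact le_antisymm hmono.apply_le hmono.le_apply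
    refine ⟨v, hv, m, ?_, u, hu, e⟩
    intro a b hab
    apply hm
    rw [hwid]
    rintro rfl
    exact hab rfl

end CfsgLib.SLB
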