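import Cfsg.Agent.LibSLB15c

set_option autoImplicit false
set_option linter.unusedSectionVars false

/-! Split BN data of the special linear groups, IV (seat helper15). -/

namespace CfsgLib.SLB

open Matrix CfsgLib.SL2P CfsgLib.UDZ

variable {F : Type*} [Field F] [Finite F] {k : ℕ}

theorem ph_mem_PB (j : Fin k) (A : Matrix.SpecialLinearGroup (Fin 2) F) : ph F j A ∈ PB (bj j) := LB_le_PB _ (ph_LB j A)
theorem ph_mem_PBn (j : Fin k) (A : Matrix.SpecialLinearGroup (Fin 2) F) : ph F j A ∈ PB (ng (bj j)) := LB_le_PB _ (ph_LBn j A)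

theorem LB_ng : (LB (ng (b0 k)) : Subgroup (Matrix.SpecialLinearGroup (Fin (k + 1)) F)) = LB (b0 k) := by
  ext g
  constructor
  · intro h x y hxy
    exact h x y (fun e => hxy (by unfold ng at e; omega))
  · intro h x y hxy
    exact h x y (fun e => hxy (by unfold ng; rw [e]))

variable (F) in
/-- the split pair of `SL_n` -/
def sys (hk : 1 ≤ k) : Sys F (Matrix.SpecialLinearGroup (Fin (k + 1)) F) (Fin k) where
  U := UB (b0 k)
  V := UB (ng (b0 k))
  H := LB (b0 k)
  U' j := UB (bj j)
  V' j := UB (ng (bj j))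
  φ j := ph F j
  xU := xx_U
  yV := yy_V
  yinj := by
    intro j s t h
    have h' : ph F j (yy s) = ph F j (yy t) := h
    have h1 := congrArg (fun g : Matrix.SpecialLinearGroup (Fin (k + 1)) F => g j.succ j.castSucc) h'
    simp only [ph_apply, y00, y01, y10, y11, if_neg (cs_ne j), if_neg (cs_ne j).symm, if_true] at h1
    simpa using h1
  dH := dd_H
  HU := by
    intro b hb u hu
    have := PB_norm (LB_le_PB _ (inv_mem hb)) hu
    rw [inv_inv] at this
    exact this
  HV := by
    intro b hb u hu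
    rw [← LB_ng] at hb
    have := PB_norm (LB_le_PB _ (inv_mem hb)) hu
    rw [inv_inv] at this
    exact this
  UU := U'_le
  VV := V'_le
  Un := by
    intro j s u hu
    have := PB_norm (inv_mem (ph_mem_PB j s)) hu
    rw [inv_inv] at this
    exact this
  Vn := by
    intro j s u hu
    exact PB_norm (ph_mem_PBn j s) hu
  Ud := by
    intro j u hu
    refine ⟨u j.castSucc j.succ, _, Ud j hu, ?_⟩
    rw [← mul_assoc, ← map_mul, ← xx_add, add_neg_cancel, xx_zero, map_one, one_mul]
  Vd := by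
    intro j u hu
    refine ⟨u j.succ j.castSucc, _, Vd j hu, ?_⟩
    rw [mul_assoc, ← map_mul, ← yy_add, neg_add_cancel, yy_zero, map_one, mul_one]
  cell := cell
  gen := by
    intro W hV hw x
    have : W = ⊤ := by
      apply gen_top hk
      · intro j t
        rw [xx_of_yy, map_mul, map_mul, map_inv]
        exact W.mul_mem (W.mul_mem (hw j) (hV (yy_V j _))) (W.inv_mem (hw j))
      · intro j t
        exact hV (yy_V j t)
    rw [this]
    exact Subgroup.mem_top x
  Hgen := fun _ h => H_gen h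

theorem iap {α : Type*} (w : Equiv.Perm α) (x : α) : w⁻¹ (w x) = x := w.symm_apply_apply x

/-- signs -/
def eps (w : Equiv.Perm (Fin (k + 1))) (y : Fin (k + 1)) : F := if y = 0 then ((Equiv.Perm.sign w : ℤ) : F) else 1

theorem sign_sq (w : Equiv.Perm (Fin (k + 1))) : ((Equiv.Perm.sign w : ℤ) : F) * ((Equiv.Perm.sign w : ℤ) : F) = 1 := by
  rw [← Int.cast_mul, ← Units.val_mul, Int.units_mul_self, Units.val_one, Int.cast_one]

theorem eps_ne (w : Equiv.Perm (Fin (k + 1))) (y : Fin (k + 1)) : (eps w y : F) ≠ 0 := by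
  unfold eps
  split_ifs
  · intro h
    have := sign_sq (F := F) w
    rw [h, mul_zero] at this
    exact zero_ne_one this
  · exact one_ne_zero

variable (F) in
/-- monomial representatives of the Weyl group -/
def mm (w : Equiv.Perm (Fin (k + 1))) : Matrix.SpecialLinearGroup (Fin (k + 1)) F :=
  ⟨(w⁻¹).permMatrix F * Matrix.diagonal (eps w), by
    rw [Matrix.det_mul, Matrix.det_permutation, Matrix.det_diagonal, Equiv.Perm.sign_inv, Fin.prod_univ_succ]
    have : ∏ i : Fin k, (eps w i.succ : F) = 1 := Finset.prod_eq_one (fun i _ => by unfold eps; rw [if_neg (Fin.succ_ne_zero i)])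
    rw [this, mul_one]
    unfold eps
    rw [if_pos rfl]
    exact sign_sq w⟩

theorem mm_apply (w : Equiv.Perm (Fin (k + 1))) (x y : Fin (k + 1)) : (mm F w) x y = if x = w y then eps w y else 0 := by
  show ((w⁻¹).permMatrix F * Matrix.diagonal (eps w) : Matrix (Fin (k + 1)) (Fin (k + 1)) F) x y = _
  rw [Matrix.mul_diagonal, Equiv.Perm.permMatrix, PEquiv.toMatrix_apply]
  simp only [Equiv.toPEquiv_apply, Option.mem_def, Option.some.injEq, ite_mul, one_mul, zero_mul]
  congr 1
  rw [eq_iff_iff, Equiv.Perm.inv_eq_iff_eq]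

theorem cj_zero (w w' : Equiv.Perm (Fin (k + 1))) (g : Matrix.SpecialLinearGroup (Fin (k + 1)) F) (x y : Fin (k + 1)) :
    ((mm F w')⁻¹ * (g * mm F w)) x y = 0 ↔ g (w' x) (w y) = 0 := by
  set b := (mm F w')⁻¹ * (g * mm F w) with hb
  have h1 : mm F w' * b = g * mm F w := by rw [hb]; group
  have h2 : (mm F w' * b) (w' x) y = (g * mm F w) (w' x) y := by rw [h1]
  rw [mul_ap, mul_ap, Finset.sum_eq_single x, Finset.sum_eq_single (w y), mm_apply, mm_apply, if_pos rfl, if_pos rfl] at h2
  · constructor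
    · intro h
      rw [h, mul_zero] at h2
      exact (mul_eq_zero.1 h2.symm).resolve_right (eps_ne w y)
    · intro h
      rw [h, zero_mul] at h2
      exact (mul_eq_zero.1 h2).resolve_left (eps_ne w' x)
  · intro z _ hz
    rw [mm_apply, if_neg hz, mul_zero]
  · intro h; exact absurd (Finset.mem_univ _) h
  · intro z _ hz
    rw [mm_apply, if_neg (fun e => hz (w'.injective e).symm), zero_mul]
  · intro h; exact absurd (Finset.mem_univ _) h

theorem mem_PB0 {g : Matrix.SpecialLinearGroup (Fin (k + 1)) F} : g ∈ PB (b0 k) ↔ ∀ x y, y < x → g x y = 0 := by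
  rw [mem_PB]
  unfold b0
  constructor
  · intro h x y hxy
    exact h x y (by have := Fin.lt_def.1 hxy; omega)
  · intro h x y hxy
    exact h x y (by rw [Fin.lt_def]; omega)

theorem ww_zero (j : Fin k) (x y : Fin (k + 1)) (h : x ≠ Equiv.swap j.castSucc j.succ y) : (ph F j ww) x y = 0 := by
  rw [ph_apply, w00, w01, w10, w11]
  by_cases h1 : y = j.castSucc
  · subst h1
    rw [Equiv.swap_apply_left] at h
    by_cases h2 : x = j.castSucc
    · simp [h2, cs_ne j]
    · simp [h, h2]
  · by_cases h2 : y = j.succ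
    · subst h2
      rw [Equiv.swap_apply_right] at h
      by_cases h3 : x = j.succ
      · simp [h3, (cs_ne j).symm]
      · simp [h, h3]
    · rw [Equiv.swap_apply_of_ne_of_ne h1 h2] at h
      simp [h, h1, h2]

/-- the root subgroup -/
def Xj (F : Type*) [Field F] [Finite F] (j : Fin k) : Subgroup (Matrix.SpecialLinearGroup (Fin (k + 1)) F) :=
  mkS {g | ∃ t, g = ph F j (xx t)} ⟨0, by rw [xx_zero, map_one]⟩ (by
    rintro _ _ ⟨s, rfl⟩ ⟨t, rfl⟩
    exact ⟨s + t, by rw [xx_add, map_mul]⟩)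

theorem mem_Xj {j : Fin k} {g : Matrix.SpecialLinearGroup (Fin (k + 1)) F} : g ∈ Xj F j ↔ ∃ t, g = ph F j (xx t) := Iff.rfl

theorem X_cj {j : Fin k} {w : Equiv.Perm (Fin (k + 1))} (h : w⁻¹ j.castSucc < w⁻¹ j.succ) {A : Matrix.SpecialLinearGroup (Fin 2) F} (hA : A 1 0 = 0) :
    (mm F w)⁻¹ * (ph F j A * mm F w) ∈ PB (b0 k) := by
  rw [mem_PB0]
  intro x y hxy
  rw [cj_zero, ph_apply, hA]
  have h1 : w x ≠ w y := fun e => (ne_of_gt hxy) (w.injective e)
  rw [if_neg h1]
  by_cases h2 : w x = j.castSucc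
  · have h3 : w y ≠ j.castSucc := fun e => h1 (h2.trans e.symm)
    have h4 : w y ≠ j.succ := by
      intro e
      rw [← h2, ← e, iap, iap] at h
      exact absurd h (not_lt.2 hxy.le)
    simp [h2, h3, h4, cs_ne j]
  · by_cases h5 : w x = j.succ
    · have h3 : w y ≠ j.succ := fun e => h1 (h5.trans e.symm)
      simp [h5, h3, (cs_ne j).symm]
    · simp [h2, h5]

variable (F) in
/-- the apartment of `SL_n` -/
noncomputable def dat (hk : 1 ≤ k) : StEx.Dat (Matrix.SpecialLinearGroup (Fin (k + 1)) F) (Equiv.Perm (Fin (k + 1))) (Fin k) where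
  B := PB (b0 k)
  U := UB (b0 k)
  H := LB (b0 k)
  X j := Xj F j
  U' j := UB (bj j)
  s j := ph F j ww
  m w := mm F w
  w0 := Fin.revPerm
  sgn w := ((Equiv.Perm.sign w : ℤ) : ℂ)
  sw w j := Equiv.swap j.castSucc j.succ * w
  pos w j := w⁻¹ j.castSucc < w⁻¹ j.succ
  sgn0 := by
    intro h
    have h1 : ((Equiv.Perm.sign (Fin.revPerm : Equiv.Perm (Fin (k + 1))) : ℤ)) = 0 := by exact_mod_cast h
    exact (Units.ne_zero _) h1
  sw2 w j := by rw [← mul_assoc, Equiv.swap_mul_self, one_mul]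
  sgns w j := by
    rw [Equiv.Perm.sign_mul, Equiv.Perm.sign_swap (cs_ne j)]
    simp
  poss w j := by
    rw [_root_.mul_inv_rev, Equiv.swap_inv, Equiv.Perm.mul_apply, Equiv.Perm.mul_apply, Equiv.swap_apply_left, Equiv.swap_apply_right, not_lt]
    constructor
    · exact le_of_lt
    · intro h
      exact lt_of_le_of_ne h (fun e => (cs_ne j) ((w⁻¹).injective e).symm)
  sm w j := by
    rw [mem_PB0]
    intro x y hxy
    rw [cj_zero]
    apply ww_zero
    rw [Equiv.Perm.mul_apply]
    intro e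
    exact (ne_of_gt hxy) (w.injective ((Equiv.swap j.castSucc j.succ).injective e))
  Xm w j h x hx := by
    obtain ⟨t, rfl⟩ := hx
    exact X_cj h (x10 t)
  Hm w h hh := by
    rw [mem_PB0]
    intro x y hxy
    rw [cj_zero]
    exact LB0_diag hh _ _ (fun e => (ne_of_gt hxy) (w.injective e))
  rk j x hx hx1 := by
    obtain ⟨t, rfl⟩ := hx
    have ht : t ≠ 0 := by
      rintro rfl
      apply hx1
      rw [xx_zero, map_one]
    set c : Fˣ := Units.mk0 t ht with hc
    refine ⟨ph F j (xx (-((c⁻¹ : Fˣ) : F))), ⟨_, rfl⟩, ph F j (dd (-c⁻¹)⁻¹ * xx (-((c⁻¹ : Fˣ) : F))), ?_, ?_⟩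
    · rw [← map_mul, ← map_mul, ← map_mul, ← map_mul]
      congr 1
      have h1 : (ww : Matrix.SpecialLinearGroup (Fin 2) F) * xx t * ww = ww * xx (c : F) * ww := rfl
      rw [h1, wxw, mul_assoc (xx _) (dd _) ww, dw]
      group
    · intro w hw
      apply X_cj hw
      rw [m10, d10, d11, x00, x10]
      ring
  UB := UB_le_PB _
  HU h hh u hu := PB_norm (LB_le_PB _ hh) hu
  UX j := by
    rintro _ ⟨t, rfl⟩
    exact xx_U j t
  dec j u hu := by
    refine ⟨_, Ud' j hu, ph F j (xx (u j.castSucc j.succ)), ⟨_, rfl⟩, ?_⟩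
    rw [mul_assoc, ← map_mul, ← xx_add, neg_add_cancel, xx_zero, map_one, mul_one]
  sU j v hv := U'_le j (PB_norm (ph_mem_PB j ww) hv)
  gen K hU hH hs := by
    apply gen_top hk
    · intro j t
      exact hU (xx_U j t)
    · intro j t
      rw [yy_of_xx, map_mul, map_mul, map_inv]
      exact K.mul_mem (K.mul_mem (K.inv_mem (hs j)) (hU (xx_U j _))) (hs j)
  neg u hu h := by
    rw [mem_PB0] at h
    apply Subtype.ext
    ext x y
    rw [Matrix.SpecialLinearGroup.coe_one, Matrix.one_apply]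
    by_cases hxy : y ≤ x
    · exact hu x y (by unfold b0; have := Fin.le_def.1 hxy; omega)
    · push Not at hxy
      rw [if_neg (ne_of_lt hxy)]
      have h1 := h (Fin.rev x) (Fin.rev y) (Fin.rev_lt_rev.2 hxy)
      rw [cj_zero] at h1
      simpa using h1
  exp w hw := by
    by_contra hcon
    push Not at hcon
    apply hw
    have hX : ∀ j : Fin k, Xj F j ≠ ⊥ := by
      intro j h
      have h1 : ph F j (xx 1) ∈ (⊥ : Subgroup (Matrix.SpecialLinearGroup (Fin (k + 1)) F)) := by
        rw [← h]; exact ⟨1, rfl⟩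
      rw [Subgroup.mem_bot] at h1
      have h2 := congrArg (fun g : Matrix.SpecialLinearGroup (Fin (k + 1)) F => g j.castSucc j.succ) h1
      simp only [ph_apply, x00, x01, x10, x11, one_ap, if_neg (cs_ne j), if_neg (cs_ne j).symm, if_true] at h2
      simp at h2
    have hanti : StrictMono (fun x => Fin.rev (w⁻¹ x)) := by
      rw [Fin.strictMono_iff_lt_succ]
      intro i
      show Fin.rev (w⁻¹ i.castSucc) < Fin.rev (w⁻¹ i.succ)
      rw [Fin.rev_lt_rev]
      refine lt_of_not_ge (fun h => hX i (hcon i (lt_of_le_of_ne h (fun e => (cs_ne i) ((w⁻¹).injective e)))))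
    have hid : ∀ x, Fin.rev (w⁻¹ x) = x := fun x => le_antisymm hanti.apply_le hanti.le_apply
    ext y
    have h3 := hid (w y)
    rw [iap] at h3
    rw [← h3, Fin.revPerm_apply]

end CfsgLib.SLB
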