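import Cfsg.Agent.LibSLB15d
import Cfsg.Agent.LibH22Lin
import Cfsg.Agent.LibCharInt2

set_option autoImplicit false
set_option linter.unusedSectionVars false

/-! The order of the upper unitriangular group (seat helper15). -/

namespace CfsgLib.SLB

open Matrix

section
variable {F : Type*} [Field F] [Finite F] {k : ℕ}

/-- coordinates on the upper unitriangular group -/
noncomputable def coo : (UB (b0 k) : Subgroup (Matrix.SpecialLinearGroup (Fin (k + 1)) F)) ≃ ((j : Fin (k + 1)) → (Fin (j : ℕ) → F)) where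
  toFun u j i := u.1 ⟨i, lt_trans i.2 j.2⟩ j
  invFun f := ⟨⟨Matrix.of (fun x y => if h : x < y then f y ⟨x, h⟩ else if x = y then 1 else 0), by
    rw [Matrix.det_of_isUpperTriangular]
    · apply Finset.prod_eq_one
      intro i _
      simp
    · intro x y hxy
      have hyx : y < x := hxy
      simp [not_lt.2 hyx.le, (ne_of_gt hyx)]⟩, by
    intro x y h
    have h' : y ≤ x := by unfold b0 at h; rw [Fin.le_def]; omega
    show (if h : x < y then f y ⟨x, h⟩ else if x = y then 1 else 0) = _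
    rw [dif_neg (not_lt.2 h')]⟩
  left_inv := by
    rintro ⟨u, hu⟩
    apply Subtype.ext
    apply Subtype.ext
    ext x y
    show (if h : x < y then u ⟨x, _⟩ y else if x = y then 1 else 0) = u x y
    split_ifs with h1 h2
    · rfl
    · rw [hu x y (by rw [h2]), if_pos h2]
    · rw [hu x y (by unfold b0; have := Fin.le_def.1 (not_lt.1 h1); omega), if_neg h2]
  right_inv := by
    intro f
    funext j i
    show (if h : (⟨(i : ℕ), lt_trans i.2 j.2⟩ : Fin (k + 1)) < j then f j ⟨_, h⟩ else _) = f j i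
    rw [dif_pos (show (⟨(i : ℕ), lt_trans i.2 j.2⟩ : Fin (k + 1)) < j from i.2)]

theorem card_U [Fintype F] : Nat.card (UB (b0 k) : Subgroup (Matrix.SpecialLinearGroup (Fin (k + 1)) F)) =
    ∏ j : Fin (k + 1), Fintype.card F ^ (j : ℕ) := by
  rw [Nat.card_congr coo, Nat.card_eq_fintype_card, Fintype.card_pi]
  simp

theorem fac [Fintype F] {p : ℕ} [hp : Fact p.Prime] [CharP F p] :
    (Nat.card (Matrix.SpecialLinearGroup (Fin (k + 1)) F)).factorization p =
      (Nat.card (UB (b0 k) : Subgroup (Matrix.SpecialLinearGroup (Fin (k + 1)) F))).factorization p := by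
  classical
  set q := Fintype.card F with hq
  obtain ⟨f, hf⟩ := FiniteField.card F p
  have hq1 : 1 < q := Fintype.one_lt_card
  have hpq : p ∣ q := by
    rw [hq, hf.2]
    exact dvd_pow_self _ f.ne_zero
  have hcop : ∀ m : ℕ, 1 ≤ m → ¬ p ∣ q ^ m - 1 := by
    intro m hm h
    have h1 : p ∣ q ^ m := dvd_trans hpq (dvd_pow_self _ (by omega))
    have h2 : 1 ≤ q ^ m := Nat.one_le_pow _ _ (by omega)
    have h3 : p ∣ q ^ m - (q ^ m - 1) := Nat.dvd_sub h1 h
    rw [show q ^ m - (q ^ m - 1) = 1 by omega] at h3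
    exact hp.out.one_lt.ne' (Nat.dvd_one.1 h3)
  have h1 := Cfsg.Agent.H22.card_SL (F := F) (q := q) rfl (k + 1) (by omega)
  have h2 : ∏ i : Fin (k + 1), (q ^ (k + 1) - q ^ (i : ℕ)) = (∏ i : Fin (k + 1), q ^ (i : ℕ)) * ∏ i : Fin (k + 1), (q ^ (k + 1 - i) - 1) := by
    rw [← Finset.prod_mul_distrib]
    apply Finset.prod_congr rfl
    intro i _
    rw [Nat.mul_sub, mul_one, ← pow_add]
    congr 2
    have := i.2
    omega
  rw [h2, ← card_U] at h1
  have h3 := congrArg (fun n => n.factorization p) h1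
  have hS0 : Nat.card (Matrix.SpecialLinearGroup (Fin (k + 1)) F) ≠ 0 := Nat.card_pos.ne'
  have hU0 : Nat.card (UB (b0 k) : Subgroup (Matrix.SpecialLinearGroup (Fin (k + 1)) F)) ≠ 0 := Nat.card_pos.ne'
  have hR : ¬ p ∣ ∏ i : Fin (k + 1), (q ^ (k + 1 - i) - 1) := by
    rw [hp.out.prime.dvd_finsetProd_iff]
    rintro ⟨i, _, hi⟩
    exact hcop _ (by have := i.2; omega) hi
  have hR0 : ∏ i : Fin (k + 1), (q ^ (k + 1 - i) - 1) ≠ 0 := by
    intro h
    rw [h] at hR
    exact hR (dvd_zero _)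
  have hq0 : ¬ p ∣ q - 1 := by
    have := hcop 1 le_rfl
    rwa [pow_one] at this
  rw [Nat.factorization_mul (by omega) hS0, Nat.factorization_mul hU0 hR0, Finsupp.add_apply, Finsupp.add_apply,
    Nat.factorization_eq_zero_of_not_dvd hR, Nat.factorization_eq_zero_of_not_dvd hq0, zero_add, add_zero] at h3
  exact h3

/-- the Steinberg character of `SL_n` -/
theorem exists_st [Fintype F] {p : ℕ} [hp : Fact p.Prime] [CharP F p] (hk : 1 ≤ k) :
    ∃ χ : Matrix.SpecialLinearGroup (Fin (k + 1)) F → ℂ, Cfsg.IsIrrCharacter (Matrix.SpecialLinearGroup (Fin (k + 1)) F) χ ∧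
      χ 1 = Nat.card (UB (b0 k) : Subgroup (Matrix.SpecialLinearGroup (Fin (k + 1)) F)) ∧
      (Cfsg.charDegree χ).factorization p = (Nat.card (Matrix.SpecialLinearGroup (Fin (k + 1)) F)).factorization p ∧
      ∀ z ∈ Subgroup.center (Matrix.SpecialLinearGroup (Fin (k + 1)) F), χ z = χ 1 := by
  obtain ⟨χ, h1, h2, h3⟩ := (dat F hk).exists_char
  have h2' : χ 1 = Nat.card (UB (b0 k) : Subgroup (Matrix.SpecialLinearGroup (Fin (k + 1)) F)) := h2
  refine ⟨χ, h1, h2', ?_, ?_⟩
  · rw [fac (p := p)]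
    congr 2
    have h4 := CfsgLib.CharInt.irr_one_eq_charDegree h1
    rw [h2'] at h4
    exact (Nat.cast_injective h4).symm
  · intro z hz
    rw [Subgroup.mem_center_iff] at hz
    apply h3 z hz
    show z ∈ PB (b0 k)
    rw [mem_PB0]
    intro x y hxy
    -- central elements are diagonal
    have h5 : z ∈ Subgroup.center (Matrix.SpecialLinearGroup (Fin (k + 1)) F) := Subgroup.mem_center_iff.2 hz
    rw [Matrix.SpecialLinearGroup.mem_center_iff] at h5
    obtain ⟨r, _, hr⟩ := h5
    rw [← hr, Matrix.scalar_apply, Matrix.diagonal_apply_ne _ (ne_of_gt hxy)]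

end

end CfsgLib.SLB
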