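import Cfsg.Agent.LibUDZ15h

set_option autoImplicit false
set_option linter.unusedSectionVars false

/-! The Borel-Tits hypothesis for the special linear groups (seat helper15). -/

namespace CfsgLib.SLB

open Matrix CfsgLib.UDZ

variable {F : Type*} [Field F] [Finite F] {ι : Type*} [Fintype ι] [DecidableEq ι]

/-- action on column vectors -/
def ac (g : Matrix.SpecialLinearGroup ι F) (v : ι → F) : ι → F := (g : Matrix ι ι F).mulVec v

theorem ac_mul (g h : Matrix.SpecialLinearGroup ι F) (v : ι → F) : ac (g * h) v = ac g (ac h v) := by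
  unfold ac
  rw [Matrix.SpecialLinearGroup.coe_mul, Matrix.mulVec_mulVec]

theorem ac_one (v : ι → F) : ac (1 : Matrix.SpecialLinearGroup ι F) v = v := by
  unfold ac
  rw [Matrix.SpecialLinearGroup.coe_one, Matrix.one_mulVec]

theorem ac_add (g : Matrix.SpecialLinearGroup ι F) (v w : ι → F) : ac g (v + w) = ac g v + ac g w := Matrix.mulVec_add _ _ _
theorem ac_sub (g : Matrix.SpecialLinearGroup ι F) (v w : ι → F) : ac g (v - w) = ac g v - ac g w := Matrix.mulVec_sub _ _ _
theorem ac_smul (g : Matrix.SpecialLinearGroup ι F) (c : F) (v : ι → F) : ac g (c • v) = c • ac g v := Matrix.mulVec_smul _ _ _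
theorem ac_zero (g : Matrix.SpecialLinearGroup ι F) : ac g 0 = 0 := Matrix.mulVec_zero _

theorem ac_inv (g : Matrix.SpecialLinearGroup ι F) (v : ι → F) : ac g⁻¹ (ac g v) = v := by
  rw [← ac_mul, inv_mul_cancel, ac_one]
theorem ac_inv' (g : Matrix.SpecialLinearGroup ι F) (v : ι → F) : ac g (ac g⁻¹ v) = v := by
  rw [← ac_mul, mul_inv_cancel, ac_one]

theorem ac_ext {g h : Matrix.SpecialLinearGroup ι F} (e : ∀ v, ac g v = ac h v) : g = h := by
  apply Subtype.ext
  apply Matrix.toLin'.injective
  apply LinearMap.ext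
  intro v
  exact e v

/-- the ascending series of fixed spaces -/
def Ws (R : Subgroup (Matrix.SpecialLinearGroup ι F)) : ℕ → Submodule F (ι → F)
  | 0 => ⊥
  | i + 1 =>
    { carrier := {v | ∀ r ∈ R, ac r v - v ∈ Ws R i}
      add_mem' := by
        intro a b ha hb r hr
        have e : ac r (a + b) - (a + b) = (ac r a - a) + (ac r b - b) := by rw [ac_add]; abel
        rw [e]
        exact Submodule.add_mem _ (ha r hr) (hb r hr)
      zero_mem' := by
        intro r _
        rw [ac_zero, sub_self]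
        exact Submodule.zero_mem _
      smul_mem' := by
        intro c v hv r hr
        rw [ac_smul, ← smul_sub]
        exact Submodule.smul_mem _ c (hv r hr) }

variable {R : Subgroup (Matrix.SpecialLinearGroup ι F)}

theorem Ws_succ {i : ℕ} {v : ι → F} : v ∈ Ws R (i + 1) ↔ ∀ r ∈ R, ac r v - v ∈ Ws R i := Iff.rfl
theorem Ws_zero {v : ι → F} : v ∈ Ws R 0 ↔ v = 0 := Submodule.mem_bot F

theorem Ws_le_succ (i : ℕ) : Ws R i ≤ Ws R (i + 1) := by
  induction i with
  | zero => exact bot_le
  | succ i ih =>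
    intro v hv r hr
    exact ih (hv r hr)

theorem Ws_mono {i j : ℕ} (h : i ≤ j) : Ws R i ≤ Ws R j := by
  induction j, h using Nat.le_induction with
  | base => exact le_rfl
  | succ j _ ih => exact ih.trans (Ws_le_succ j)

theorem Ws_inv {i : ℕ} {r : Matrix.SpecialLinearGroup ι F} (hr : r ∈ R) {v : ι → F} (hv : v ∈ Ws R i) : ac r v ∈ Ws R i := by
  have h1 := (Ws_le_succ i hv) r hr
  have e : ac r v = (ac r v - v) + v := by abel
  rw [e]
  exact Submodule.add_mem _ h1 hv

theorem Ws_norm {n : Matrix.SpecialLinearGroup ι F} (hn : n ∈ Subgroup.normalizer (R : Set (Matrix.SpecialLinearGroup ι F))) :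
    ∀ (i : ℕ) {v : ι → F}, v ∈ Ws R i → ac n v ∈ Ws R i := by
  intro i
  induction i with
  | zero =>
    intro v hv
    rw [Ws_zero] at hv ⊢
    rw [hv, ac_zero]
  | succ i ih =>
    intro v hv r hr
    have h1 : n⁻¹ * r * n ∈ R := by
      have := (Subgroup.mem_normalizer_iff.1 (Subgroup.inv_mem _ hn) r).1 hr
      rwa [inv_inv] at this
    have h2 := ih (hv _ h1)
    rw [ac_sub] at h2
    have e : ac n (ac (n⁻¹ * r * n) v) = ac r (ac n v) := by
      rw [← ac_mul, ← ac_mul]
      congr 1; group
    rw [e] at h2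
    exact h2

theorem exists_fixed {p : ℕ} [hp : Fact p.Prime] [CharP F p] (hR : IsPGroup p R) {i : ℕ} (h : Ws R i ≠ ⊤) :
    ∃ v ∈ Ws R (i + 1), v ∉ Ws R i := by
  classical
  let q := (ι → F) ⧸ Ws R i
  let lin : R → (ι → F) →ₗ[F] (ι → F) := fun r => Matrix.toLin' ((r : Matrix.SpecialLinearGroup ι F) : Matrix ι ι F)
  have hlin : ∀ r v, lin r v = ac (r : Matrix.SpecialLinearGroup ι F) v := fun r v => rfl
  have hle : ∀ r, Ws R i ≤ (Ws R i).comap (lin r) := fun r v hv => Ws_inv r.2 hv
  letI : MulAction R q :=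
    { smul := fun r x => (Ws R i).mapQ (Ws R i) (lin r) (hle r) x
      one_smul := by
        intro x
        induction x using Submodule.Quotient.induction_on with
        | H v =>
          show (Ws R i).mapQ (Ws R i) (lin 1) (hle 1) (Submodule.Quotient.mk v) = _
          rw [Submodule.mapQ_apply, hlin]
          show (Submodule.Quotient.mk (ac ((1 : R) : Matrix.SpecialLinearGroup ι F) v) : q) = _
          rw [Subgroup.coe_one, ac_one]
      mul_smul := by
        intro a b x
        induction x using Submodule.Quotient.induction_on with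
        | H v =>
          show (Ws R i).mapQ (Ws R i) (lin (a * b)) (hle (a * b)) (Submodule.Quotient.mk v) =
            (Ws R i).mapQ (Ws R i) (lin a) (hle a) ((Ws R i).mapQ (Ws R i) (lin b) (hle b) (Submodule.Quotient.mk v))
          rw [Submodule.mapQ_apply, Submodule.mapQ_apply, Submodule.mapQ_apply, hlin, hlin, hlin, Subgroup.coe_mul, ac_mul] }
  have hsm : ∀ (r : R) (v : ι → F), r • (Submodule.Quotient.mk v : q) = Submodule.Quotient.mk (ac (r : Matrix.SpecialLinearGroup ι F) v) := fun r v => rfl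
  obtain ⟨v0, hv0⟩ : ∃ v0, v0 ∉ Ws R i := by
    by_contra hc
    push Not at hc
    exact h (eq_top_iff.2 (fun v _ => hc v))
  haveI : Finite q := Finite.of_surjective _ (Submodule.Quotient.mk_surjective (Ws R i))
  have hpc : p ∣ Nat.card q := by
    have h1 : (Submodule.Quotient.mk v0 : q) ≠ 0 := fun e => hv0 ((Submodule.Quotient.mk_eq_zero _).1 e)
    have h2 : p • (Submodule.Quotient.mk v0 : q) = 0 := by
      rw [← Nat.cast_smul_eq_nsmul F, CharP.cast_eq_zero, zero_smul]
    have h3 : addOrderOf (Submodule.Quotient.mk v0 : q) = p := addOrderOf_eq_prime h2 h1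
    rw [← h3]
    exact addOrderOf_dvd_natCard _
  obtain ⟨b, hb, hb0⟩ := hR.exists_fixed_point_of_prime_dvd_card_of_fixed_point (α := q) hpc (a := 0) (by
    intro r
    show r • (Submodule.Quotient.mk 0 : q) = Submodule.Quotient.mk 0
    rw [hsm, ac_zero])
  induction b using Submodule.Quotient.induction_on with
  | H v =>
    refine ⟨v, ?_, fun hv => hb0 ((Submodule.Quotient.mk_eq_zero _).2 hv).symm⟩
    intro r hr
    have h1 := hb ⟨r, hr⟩
    rw [hsm] at h1
    exact (Submodule.Quotient.eq _).1 h1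

theorem Ws_top {p : ℕ} [hp : Fact p.Prime] [CharP F p] (hR : IsPGroup p R) : ∃ m, Ws R m = ⊤ := by
  by_contra hcon
  push Not at hcon
  have h1 : ∀ i, i ≤ Module.finrank F (Ws R i) := by
    intro i
    induction i with
    | zero => exact Nat.zero_le _
    | succ i ih =>
      obtain ⟨v, hv, hv'⟩ := exists_fixed hR (hcon i)
      have hlt : Ws R i < Ws R (i + 1) := lt_of_le_of_ne (Ws_le_succ i) (fun e => hv' (by rw [e]; exact hv))
      have := Submodule.finrank_lt_finrank_of_lt hlt
      omega
  have h2 := h1 (Module.finrank F (ι → F) + 1)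
  have h3 := Submodule.finrank_le (Ws R (Module.finrank F (ι → F) + 1))
  omega

/-- the unipotent radical of the stabilizer of the series -/
def Qs (R : Subgroup (Matrix.SpecialLinearGroup ι F)) : Subgroup (Matrix.SpecialLinearGroup ι F) where
  carrier := {g | ∀ i, ∀ v ∈ Ws R (i + 1), ac g v - v ∈ Ws R i}
  mul_mem' := by
    intro g h hg hh i v hv
    have h1 := hh i v hv
    have h2 : ac h v ∈ Ws R (i + 1) := by
      have e : ac h v = (ac h v - v) + v := by abel
      rw [e]
      exact Submodule.add_mem _ (Ws_le_succ i h1) hv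
    have h3 := hg i _ h2
    have e : ac (g * h) v - v = (ac g (ac h v) - ac h v) + (ac h v - v) := by rw [ac_mul]; abel
    rw [e]
    exact Submodule.add_mem _ h3 h1
  one_mem' := by
    intro i v _
    rw [ac_one, sub_self]
    exact Submodule.zero_mem _
  inv_mem' := by
    intro g hg i v hv
    -- by induction: `g⁻¹` preserves the series
    have key : ∀ i, ∀ v ∈ Ws R i, ac g⁻¹ v ∈ Ws R i := by
      intro i
      induction i with
      | zero =>
        intro v hv
        rw [Ws_zero] at hv ⊢
        rw [hv, ac_zero]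
      | succ i ih =>
        intro v hv
        have h1 := ih _ (hg i v hv)
        rw [ac_sub, ac_inv] at h1
        have e : ac g⁻¹ v = v - (v - ac g⁻¹ v) := by abel
        rw [e]
        exact Submodule.sub_mem _ hv (Ws_le_succ i h1)
    have h1 := key i _ (hg i v hv)
    rw [ac_sub, ac_inv] at h1
    have e : ac g⁻¹ v - v = - (v - ac g⁻¹ v) := by abel
    rw [e]
    exact Submodule.neg_mem _ h1

theorem Qs_pgroup {p : ℕ} [hp : Fact p.Prime] [CharP F p] {m : ℕ} (hm : Ws R m = ⊤) : IsPGroup p (Qs R) := by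
  rintro ⟨g, hg⟩
  refine ⟨m, Subtype.ext (Subtype.ext ?_)⟩
  show ((g ^ (p ^ m) : Matrix.SpecialLinearGroup ι F) : Matrix ι ι F) = ((1 : Matrix.SpecialLinearGroup ι F) : Matrix ι ι F)
  rw [Matrix.SpecialLinearGroup.coe_pow, Matrix.SpecialLinearGroup.coe_one]
  by_cases hι : IsEmpty ι
  · ext x; exact (hι.false x).elim
  rw [not_isEmpty_iff] at hι
  have h1 : (g : Matrix ι ι F) = 1 + ((g : Matrix ι ι F) - 1) := by abel
  have hN : ∀ v, ((g : Matrix ι ι F) - 1).mulVec v = ac g v - v := by
    intro v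
    rw [Matrix.sub_mulVec, Matrix.one_mulVec]
    rfl
  have h0 : ∀ i, ∀ v ∈ Ws R i, (((g : Matrix ι ι F) - 1) ^ i).mulVec v = 0 := by
    intro i
    induction i with
    | zero =>
      intro v hv
      rw [Ws_zero] at hv
      rw [hv, Matrix.mulVec_zero]
    | succ i ih =>
      intro v hv
      rw [pow_succ, ← Matrix.mulVec_mulVec, hN]
      exact ih _ (hg i v hv)
  rw [h1, add_pow_char_pow_of_commute _ _ (Commute.one_left _), one_pow]
  have h2 : ((g : Matrix ι ι F) - 1) ^ m = 0 := by
    apply Matrix.toLin'.injective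
    apply LinearMap.ext
    intro v
    rw [Matrix.toLin'_apply, h0 m v (by rw [hm]; exact Submodule.mem_top), map_zero, LinearMap.zero_apply]
  have h3 : m ≤ p ^ m := (Nat.lt_pow_self hp.out.one_lt).le
  rw [← Nat.sub_add_cancel h3, pow_add, h2, mul_zero, add_zero]

theorem le_Qs : R ≤ Qs R := fun r hr _ _ hv => hv r hr

theorem norm_Qs : Subgroup.normalizer (R : Set (Matrix.SpecialLinearGroup ι F)) ≤ Subgroup.normalizer (Qs R : Set (Matrix.SpecialLinearGroup ι F)) := by
  have h1 : ∀ n ∈ Subgroup.normalizer (R : Set (Matrix.SpecialLinearGroup ι F)), ∀ g ∈ Qs R, n * g * n⁻¹ ∈ Qs R := by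
    intro n hn g hg i v hv
    have h2 := hg i _ (Ws_norm (Subgroup.inv_mem _ hn) (i + 1) hv)
    have h3 := Ws_norm hn i h2
    rw [ac_sub, ac_inv'] at h3
    rw [ac_mul, ac_mul]
    exact h3
  intro n hn
  rw [Subgroup.mem_normalizer_iff]
  intro g
  constructor
  · exact h1 n hn g
  · intro hg
    have h2 := h1 n⁻¹ (Subgroup.inv_mem _ hn) _ hg
    have e : n⁻¹ * (n * g * n⁻¹) * n⁻¹⁻¹ = g := by group
    rw [e] at h2
    exact h2

end CfsgLib.SLB
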