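import Cfsg.Agent.LibSLB15f
import Cfsg.Agent.LibSLB15c

set_option autoImplicit false
set_option linter.unusedSectionVars false

/-! The Borel-Tits hypothesis for the special linear groups, II (seat helper15). -/

namespace CfsgLib.SLB

open Matrix CfsgLib.UDZ

variable {F : Type*} [Field F] [Finite F] {ι : Type*} [Fintype ι] [DecidableEq ι]
variable {R : Subgroup (Matrix.SpecialLinearGroup ι F)}

theorem ac_rk1 (u f : ι → F) (h : ∑ z, u z * f z = 0) (w : ι → F) : ac (rk1 u f h) w = w + (∑ z, f z * w z) • u := by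
  funext x
  unfold ac
  rw [Matrix.mulVec, dotProduct]
  have : ∀ y, (rk1 u f h) x y * w y = (if x = y then w y else 0) + (f y * w y) * u x := by
    intro y
    rw [rk1_apply]
    split_ifs <;> ring
  rw [Finset.sum_congr rfl (fun y _ => this y), Finset.sum_add_distrib, Finset.sum_ite_eq, if_pos (Finset.mem_univ _), ← Finset.sum_mul]
  rfl

theorem fun_eq (φ : (ι → F) →ₗ[F] F) (w : ι → F) : φ w = ∑ z, φ (Pi.single z 1) * w z := by
  conv_lhs => rw [← Finset.univ_sum_single w]
  rw [map_sum]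
  apply Finset.sum_congr rfl
  intro z _
  have : (Pi.single z (w z) : ι → F) = w z • Pi.single z 1 := by
    rw [← Pi.single_smul, smul_eq_mul, mul_one]
  rw [this, map_smul, smul_eq_mul, mul_comm]

/-- commuting with the transvections of `Q` -/
theorem tv_comm {i : ℕ} {v : ι → F} (hv : v ∈ Ws R i) (φ : (ι → F) →ₗ[F] F) (hφ : Ws R i ≤ LinearMap.ker φ)
    {c : Matrix.SpecialLinearGroup ι F} (hc : c ∈ Subgroup.centralizer (Qs R : Set (Matrix.SpecialLinearGroup ι F))) (w : ι → F) :
    φ w • ac c v = φ (ac c w) • v := by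
  have h0 : ∑ z, v z * φ (Pi.single z 1) = 0 := by
    have h1 : φ v = 0 := hφ hv
    rw [fun_eq] at h1
    rw [← h1]
    exact Finset.sum_congr rfl (fun _ _ => mul_comm _ _)
  have hQ : rk1 v (fun z => φ (Pi.single z 1)) h0 ∈ Qs R := by
    intro l w hw
    rw [ac_rk1, ← fun_eq, add_sub_cancel_left]
    rcases Nat.lt_or_ge l i with h | h
    · have : φ w = 0 := hφ (Ws_mono h hw)
      rw [this, zero_smul]
      exact Submodule.zero_mem _
    · exact Submodule.smul_mem _ _ (Ws_mono h hv)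
  have h1 := Subgroup.mem_centralizer_iff.1 hc _ hQ
  have h2 : ac (rk1 v (fun z => φ (Pi.single z 1)) h0 * c) w = ac (c * rk1 v (fun z => φ (Pi.single z 1)) h0) w := by rw [h1]
  rw [ac_mul, ac_mul, ac_rk1, ac_rk1, ← fun_eq, ← fun_eq, ac_add, ac_smul] at h2
  exact (add_left_cancel h2).symm

theorem btz {p : ℕ} [hp : Fact p.Prime] [CharP F p] : BTZ p (Matrix.SpecialLinearGroup ι F) (Subgroup.center (Matrix.SpecialLinearGroup ι F)) := by
  classical
  intro R hR hR1
  have hex := Ws_top hR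
  refine ⟨Qs R, Qs_pgroup (Nat.find_spec hex), le_Qs, norm_Qs, ?_⟩
  set m := Nat.find hex with hm
  have hmt : Ws R m = ⊤ := Nat.find_spec hex
  have hmin : ∀ l, l < m → Ws R l ≠ ⊤ := fun l hl => Nat.find_min hex hl
  obtain ⟨r, hr, hr1⟩ : ∃ r ∈ R, r ≠ 1 := by
    by_contra h
    push Not at h
    exact hR1 (eq_bot_iff.2 (fun x hx => Subgroup.mem_bot.2 (h x hx)))
  have hm2 : 2 ≤ m := by
    by_contra hlt
    have h1 : Ws R 1 = ⊤ := by
      rw [eq_top_iff, ← hmt]
      exact Ws_mono (by omega)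
    apply hr1
    apply ac_ext
    intro v
    have h2 : v ∈ Ws R (0 + 1) := by rw [zero_add, h1]; exact Submodule.mem_top
    have h3 := h2 r hr
    rw [Ws_zero, sub_eq_zero] at h3
    rw [h3, ac_one]
  intro c hc
  -- a nonzero vector of `W 1`
  obtain ⟨v1, hv1, hv10⟩ := exists_fixed hR (i := 0) (hmin 0 (by omega))
  rw [Ws_zero] at hv10
  -- scalar behaviour
  have key : ∀ i, 1 ≤ i → i < m → ∃ lam : F, (∀ v ∈ Ws R i, ac c v = lam • v) ∧ ∀ w, ac c w - lam • w ∈ Ws R i := by
    intro i hi him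
    obtain ⟨w0, hw0⟩ : ∃ w0, w0 ∉ Ws R i := by
      by_contra h
      push Not at h
      exact hmin i him (eq_top_iff.2 (fun v _ => h v))
    obtain ⟨φ, hφ0, hφ⟩ := Submodule.exists_le_ker_of_notMem hw0
    have h1 : ∀ v ∈ Ws R i, ac c v = ((φ w0)⁻¹ * φ (ac c w0)) • v := by
      intro v hv
      have h2 := tv_comm hv φ hφ hc w0
      rw [mul_smul, ← h2, smul_smul, inv_mul_cancel₀ hφ0, one_smul]
    refine ⟨_, h1, ?_⟩
    set lam := (φ w0)⁻¹ * φ (ac c w0) with hlam
    intro w
    by_contra hcon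
    obtain ⟨ψ, hψ0, hψ⟩ := Submodule.exists_le_ker_of_notMem hcon
    have hv1i : v1 ∈ Ws R i := Ws_mono hi hv1
    have h3 := tv_comm hv1i ψ hψ hc w
    rw [h1 v1 hv1i, smul_smul] at h3
    have h4 : (ψ w * lam - ψ (ac c w)) • v1 = 0 := by rw [sub_smul, h3, sub_self]
    rcases smul_eq_zero.1 h4 with h5 | h5
    · apply hψ0
      rw [map_sub, map_smul, smul_eq_mul]
      linear_combination -h5
    · exact hv10 h5
  obtain ⟨lam, hl1, hl2⟩ := key 1 le_rfl (by omega)
  obtain ⟨lam', hl1', hl2'⟩ := key (m - 1) (by omega) (by omega)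
  have hll : lam' = lam := by
    have h1 := hl1 v1 hv1
    have h2 := hl1' v1 (Ws_mono (by omega) hv1)
    rw [h1] at h2
    have h3 : (lam - lam') • v1 = 0 := by rw [sub_smul, h2, sub_self]
    rcases smul_eq_zero.1 h3 with h5 | h5
    · exact (sub_eq_zero.1 h5).symm
    · exact absurd h5 hv10
  rw [hll] at hl1'
  have hlam0 : lam ≠ 0 := by
    rintro rfl
    have h1 := hl1 v1 hv1
    rw [zero_smul] at h1
    have h2 := ac_inv c v1
    rw [h1, ac_zero] at h2
    exact hv10 h2.symm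
  -- the unipotent part
  let N : Matrix ι ι F := lam⁻¹ • (c : Matrix ι ι F)
  have hNv : ∀ v, N.mulVec v = lam⁻¹ • ac c v := fun v => Matrix.smul_mulVec _ _ _
  have hN1 : ∀ v, (N - 1).mulVec v ∈ Ws R 1 := by
    intro v
    have e : (N - 1).mulVec v = lam⁻¹ • (ac c v - lam • v) := by
      rw [Matrix.sub_mulVec, Matrix.one_mulVec, hNv, smul_sub, smul_smul, inv_mul_cancel₀ hlam0, one_smul]
    rw [e]
    exact Submodule.smul_mem _ _ (hl2 v)
  have hN2 : ∀ v ∈ Ws R (m - 1), (N - 1).mulVec v = 0 := by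
    intro v hv
    rw [Matrix.sub_mulVec, Matrix.one_mulVec, hNv, hl1' v hv, smul_smul, inv_mul_cancel₀ hlam0, one_smul, sub_self]
  have hsq : (N - 1) ^ 2 = 0 := by
    apply Matrix.toLin'.injective
    apply LinearMap.ext
    intro v
    rw [Matrix.toLin'_apply, pow_two, ← Matrix.mulVec_mulVec, hN2 _ (Ws_mono (by omega) (hN1 v)), map_zero, LinearMap.zero_apply]
  have hι : Nonempty ι := by
    by_contra h
    rw [not_nonempty_iff] at h
    apply hv10
    funext x
    exact (h.false x).elim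
  have hdetN : N.det = 1 := by
    have h1 : N ^ p = 1 := by
      have e : N = 1 + (N - 1) := by abel
      rw [e, add_pow_char_of_commute _ (Commute.one_left _), one_pow]
      have h2 : 2 ≤ p := hp.out.two_le
      rw [← Nat.sub_add_cancel h2, pow_add, hsq, mul_zero, add_zero]
    have h2 : N.det ^ p = 1 := by rw [← Matrix.det_pow, h1, Matrix.det_one]
    have h3 : (N.det - 1) ^ p = 0 := by rw [sub_pow_char, h2, one_pow, sub_self]
    exact sub_eq_zero.1 (pow_eq_zero_iff (hp.out.ne_zero) |>.1 h3)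
  have hlamn : lam ^ Fintype.card ι = 1 := by
    have h1 : N.det = lam⁻¹ ^ Fintype.card ι * (c : Matrix ι ι F).det := Matrix.det_smul _ _
    rw [hdetN, c.2, mul_one, inv_pow] at h1
    exact (inv_eq_one.1 h1.symm)
  let z : Matrix.SpecialLinearGroup ι F := ⟨Matrix.scalar ι lam, by
    rw [Matrix.scalar_apply, Matrix.det_diagonal, Finset.prod_const, Finset.card_univ, hlamn]⟩
  have hz : z ∈ Subgroup.center (Matrix.SpecialLinearGroup ι F) :=
    Matrix.SpecialLinearGroup.mem_center_iff.2 ⟨lam, hlamn, rfl⟩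
  have hacz : ∀ v, ac z v = lam • v := by
    intro v
    show (Matrix.scalar ι lam).mulVec v = _
    rw [Matrix.scalar_apply]
    funext x
    rw [Matrix.mulVec_diagonal]
    rfl
  refine ⟨c * z⁻¹, ?_, z, hz, by group⟩
  have hq : ∀ v, ac (c * z⁻¹) v = lam⁻¹ • ac c v := by
    intro v
    have h1 : ac z⁻¹ v = lam⁻¹ • v := by
      have h2 := ac_inv z (lam⁻¹ • v)
      rw [hacz, smul_smul, mul_inv_cancel₀ hlam0, one_smul] at h2
      exact h2
    rw [ac_mul, h1, ac_smul]
  intro l v hv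
  rw [hq]
  rcases Nat.lt_or_ge l (m - 1) with h | h
  · have hv' : v ∈ Ws R (m - 1) := Ws_mono (by omega) hv
    rw [hl1' v hv', smul_smul, inv_mul_cancel₀ hlam0, one_smul, sub_self]
    exact Submodule.zero_mem _
  · have e : lam⁻¹ • ac c v - v = lam⁻¹ • (ac c v - lam • v) := by
      rw [smul_sub, smul_smul, inv_mul_cancel₀ hlam0, one_smul]
    rw [e]
    exact Submodule.smul_mem _ _ (Ws_mono (by omega) (hl2 v))

end CfsgLib.SLB
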