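import Cfsg.Agent.LibG2M
import Cfsg.Agent.LibTorG

set_option autoImplicit false
set_option linter.unusedSectionVars false

/-! Non-split tori of SL_2(q), q odd. -/

namespace CfsgLib.SLD15

open CfsgLib.G2A CfsgLib.G2B CfsgLib.G2C CfsgLib.G2I CfsgLib.Tor Matrix

variable {F : Type*} [Field F]

/-- data of a non-split torus -/
structure NT (C : Subgroup (SpecialLinearGroup (Fin 2) F)) : Prop where
  card : Nat.card C = Nat.card F + 1
  comm : ∀ g ∈ C, ∀ h ∈ C, g * h = h * g
  cent : ∀ g ∈ C, ¬ IsSc (g : Matrix (Fin 2) (Fin 2) F) → Subgroup.centralizer ({g} : Set (SpecialLinearGroup (Fin 2) F)) = C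
  cardN : Nat.card (Subgroup.normalizer (C : Set (SpecialLinearGroup (Fin 2) F))) = 2 * Nat.card C
  inv : ∀ g ∈ Subgroup.normalizer (C : Set (SpecialLinearGroup (Fin 2) F)), g ∉ C → ∀ t ∈ C, g * t * g⁻¹ = t⁻¹
  ell : ∀ g ∈ C, ¬ IsSc (g : Matrix (Fin 2) (Fin 2) F) → Ell (g : Matrix (Fin 2) (Fin 2) F)
  neg : -1 ∈ C

theorem ell_conj' {g : SpecialLinearGroup (Fin 2) F} (x : SpecialLinearGroup (Fin 2) F)
    (h : Ell ((x * g * x⁻¹ : SpecialLinearGroup (Fin 2) F) : Matrix (Fin 2) (Fin 2) F)) : Ell (g : Matrix (Fin 2) (Fin 2) F) := by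
  intro c v hv hc
  have e2 := gi_left x
  apply h c ((x : Matrix (Fin 2) (Fin 2) F).mulVec v)
  · intro h0
    apply hv
    have := congrArg (fun y => ((x⁻¹ : SpecialLinearGroup (Fin 2) F) : Matrix (Fin 2) (Fin 2) F).mulVec y) h0
    simp only [mulVec_mulVec, mulVec_zero] at this
    rwa [e2, one_mulVec] at this
  · change ((x : Matrix (Fin 2) (Fin 2) F) * (g : Matrix (Fin 2) (Fin 2) F) * ((x⁻¹ : SpecialLinearGroup (Fin 2) F) : Matrix (Fin 2) (Fin 2) F)).mulVec
      ((x : Matrix (Fin 2) (Fin 2) F).mulVec v) = c • ((x : Matrix (Fin 2) (Fin 2) F).mulVec v)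
    rw [mulVec_mulVec, mul_assoc, e2, mul_one, ← mulVec_mulVec, hc, mulVec_smul]

theorem ell_JN {ν : F} (hν : ¬ IsSquare ν) {A : Matrix (Fin 2) (Fin 2) F} {x y : F} (hA : A = x • (1 : Matrix (Fin 2) (Fin 2) F) + y • JN ν)
    (hy : y ≠ 0) : Ell A := by
  intro c v hv hc
  have h0 := congrFun hc 0
  have h1 := congrFun hc 1
  rw [hA] at h0 h1
  simp [JN, Matrix.mulVec, dotProduct, Fin.sum_univ_two] at h0 h1
  have hv1 : v 1 ≠ 0 := by
    intro h
    apply hv
    rw [h] at h1
    have h2 : v 0 = 0 := by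
      have h3 : y * v 0 = 0 := by linear_combination h1
      exact (mul_eq_zero.mp h3).resolve_left hy
    ext i
    fin_cases i
    · exact h2
    · exact h
  apply hν
  refine ⟨(c - x) / y, ?_⟩
  have h2 : v 0 = (c - x) * v 1 / y := by
    field_simp
    linear_combination h1
  rw [h2] at h0
  field_simp at h0 ⊢
  linear_combination h0

/-- elements with an eigenvector are conjugate into the Borel subgroup -/
theorem conj_B {g : SpecialLinearGroup (Fin 2) F} (h : ¬ Ell (g : Matrix (Fin 2) (Fin 2) F)) :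
    ∃ x : SpecialLinearGroup (Fin 2) F, x⁻¹ * g * x ∈ (frSL F).B := by
  unfold Ell at h
  push Not at h
  obtain ⟨c, v, hv, hc⟩ := h
  have h0 := congrFun hc 0
  have h1 := congrFun hc 1
  simp [Matrix.mulVec, dotProduct, Fin.sum_univ_two] at h0 h1
  by_cases hv1 : v 1 = 0
  · refine ⟨1, ?_⟩
    rw [inv_one, one_mul, mul_one, (frSL F).mem_B]
    rw [hv1] at h1
    have hv0 : v 0 ≠ 0 := by
      intro h
      apply hv
      ext i
      fin_cases i
      · exact h
      · exact hv1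
    have h3 : (g : Matrix (Fin 2) (Fin 2) F) 1 0 * v 0 = 0 := by linear_combination h1
    exact (mul_eq_zero.mp h3).resolve_right hv0
  · refine ⟨(frSL F).u (v 0 / v 1) * (frSL F).w, ?_⟩
    rw [(frSL F).mem_B, (frSL F).mat_conj_rep]
    change (frSL F).ε * ((g : Matrix (Fin 2) (Fin 2) F) 0 1 + v 0 / v 1 * ((g : Matrix (Fin 2) (Fin 2) F) 0 0 - (g : Matrix (Fin 2) (Fin 2) F) 1 1) -
      (v 0 / v 1) ^ 2 * (g : Matrix (Fin 2) (Fin 2) F) 1 0) = 0
    have h4 : (g : Matrix (Fin 2) (Fin 2) F) 0 1 + v 0 / v 1 * ((g : Matrix (Fin 2) (Fin 2) F) 0 0 - (g : Matrix (Fin 2) (Fin 2) F) 1 1) -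
      (v 0 / v 1) ^ 2 * (g : Matrix (Fin 2) (Fin 2) F) 1 0 = 0 := by
      field_simp
      linear_combination v 1 * h0 - v 0 * h1
    rw [h4, mul_zero]

theorem card_B [Fintype F] : Nat.card (frSL F).B = (Fintype.card F - 1) * Fintype.card F := by
  classical
  change Nat.card ((Cfsg.upperTriangularGL 2 F).comap Matrix.SpecialLinearGroup.toGL) = _
  rw [← Nat.card_congr (borEquiv (F := F)), Nat.card_congr (borProd (F := F)), Nat.card_prod, Nat.card_eq_fintype_card,
    Nat.card_eq_fintype_card, Fintype.card_units]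

/-- a cyclic subgroup of order `q + 1` is a non-split torus -/
theorem nt_of [Fintype F] (hodd : Odd (Fintype.card F)) (C : Subgroup (SpecialLinearGroup (Fin 2) F)) (hC : IsCyclic C)
    (hcard : Nat.card C = Fintype.card F + 1) : NT C := by
  classical
  have h2 := two_ne_of_odd hodd
  obtain ⟨ν, hν⟩ := FiniteField.exists_nonsquare (ringChar_ne_two h2)
  have hν0 : ν ≠ 0 := fun h => hν (h ▸ IsSquare.zero)
  have hTc := card_TN h2 hν
  have hq2 : 2 ≤ Fintype.card F := Fintype.one_lt_card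
  have hq3 : 3 ≤ Fintype.card F := by
    obtain ⟨k, hk⟩ := hodd
    omega
  obtain ⟨g0, hg0⟩ := hC.exists_generator
  have hord : orderOf (g0 : SpecialLinearGroup (Fin 2) F) = Fintype.card F + 1 := by
    rw [Subgroup.orderOf_coe, orderOf_eq_card_of_forall_mem_zpowers hg0, hcard]
  have hCz : C = Subgroup.zpowers (g0 : SpecialLinearGroup (Fin 2) F) := by
    apply le_antisymm
    · intro x hx
      obtain ⟨k, hk⟩ := Subgroup.mem_zpowers_iff.mp (hg0 ⟨x, hx⟩)
      rw [Subgroup.mem_zpowers_iff]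
      exact ⟨k, by have := congrArg Subtype.val hk; simpa using this⟩
    · rw [Subgroup.zpowers_le]; exact g0.2
  have hell : Ell ((g0 : SpecialLinearGroup (Fin 2) F) : Matrix (Fin 2) (Fin 2) F) := by
    by_contra hne
    obtain ⟨x, hx⟩ := conj_B hne
    have h3 : orderOf (x⁻¹ * (g0 : SpecialLinearGroup (Fin 2) F) * x) ∣ Nat.card (frSL F).B := by
      have := orderOf_dvd_natCard (⟨_, hx⟩ : (frSL F).B)
      rwa [← Subgroup.orderOf_coe] at this
    have h4 : orderOf (x⁻¹ * (g0 : SpecialLinearGroup (Fin 2) F) * x) = Fintype.card F + 1 := by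
      rw [← hord]
      have : x⁻¹ * (g0 : SpecialLinearGroup (Fin 2) F) * x = MulAut.conj x⁻¹ (g0 : SpecialLinearGroup (Fin 2) F) := by simp [MulAut.conj_apply]
      rw [this]
      exact orderOf_injective (MulAut.conj x⁻¹).toMonoidHom (MulAut.conj x⁻¹).injective _
    rw [h4, card_B] at h3
    have h5 : Nat.Coprime (Fintype.card F + 1) (Fintype.card F) := by
      rw [Nat.coprime_self_add_left]
      exact Nat.coprime_one_left _
    have h6 := Nat.le_of_dvd (by omega) (h5.dvd_of_dvd_mul_right h3)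
    omega
  obtain ⟨h, hh⟩ := ell_conj hodd hν hell
  obtain ⟨w, hw⟩ := w_TN (F := F) hodd hν0
  have htd := td_conj h2 (JN_t ν) (JN_d hν0) (cyc_TN hν) (by omega) hw h⁻¹
  set J' := (((h⁻¹ : SpecialLinearGroup (Fin 2) F) : Matrix (Fin 2) (Fin 2) F) * JN ν * (((h⁻¹)⁻¹ : SpecialLinearGroup (Fin 2) F) : Matrix (Fin 2) (Fin 2) F)) with hJ'
  have hmem : ∀ x, x ∈ TJ J' ↔ h * x * h⁻¹ ∈ TJ (JN ν) := by
    intro x
    rw [hJ', mem_TJ_conj, inv_inv]
  have hCT : C = TJ J' := by
    rw [hCz]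
    apply Subgroup.eq_of_le_of_card_ge
    · rw [Subgroup.zpowers_le, hmem]
      exact hh
    · rw [htd.2, hTc, Nat.card_zpowers, hord]
  rw [hCT]
  refine ⟨by rw [htd.2, hTc, Nat.card_eq_fintype_card], htd.1.comm, htd.1.cent, htd.1.cardN, htd.1.inv, ?_, ?_⟩
  · intro g hg hns
    apply ell_conj' h
    obtain ⟨x, y, hxy⟩ := TJ_form h2 (JN_t ν) (JN_d hν0) ((hmem g).1 hg)
    apply ell_JN hν hxy
    rintro rfl
    apply hns
    rw [zero_smul, add_zero] at hxy
    have h3 : h * g * h⁻¹ = 1 ∨ h * g * h⁻¹ = -1 := sc_of _ (by rw [hxy]; exact isSc_smul x)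
    have h4 : g = 1 ∨ g = -1 := by
      rcases h3 with h3 | h3
      · left
        have := congrArg (fun y => h⁻¹ * y * h) h3
        simpa [mul_assoc] using this
      · right
        have := congrArg (fun y => h⁻¹ * y * h) h3
        simpa [mul_assoc] using this
    rcases h4 with rfl | rfl
    · exact ⟨by simp, by simp, by simp⟩
    · exact ⟨by simp, by simp, by simp⟩
  · rw [mem_TJ]
    simp

end CfsgLib.SLD15
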