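import Cfsg.Agent.LibSLD15a
import Cfsg.Agent.LibCharBasic2
import Cfsg.Agent.LibCharBasic3

set_option autoImplicit false
set_option linter.unusedSectionVars false

/-! The discrete series of SL_2(q), q odd. -/

open scoped ComplexConjugate
open Cfsg

namespace CfsgLib.SLD15

open CfsgLib.CharBasic CfsgLib.CharIndA CfsgLib.G2A CfsgLib.G2B CfsgLib.G2C CfsgLib.G2D CfsgLib.G2E CfsgLib.G2I CfsgLib.Tor Matrix

theorem sum_ite_mem {G : Type*} [Group G] [Fintype G] (H : Subgroup G) [DecidablePred (· ∈ H)] (a : ℂ) :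
    ∑ x : G, (if x ∈ H then a else 0) = Nat.card H * a := by
  rw [← Finset.sum_filter, Finset.sum_const, nsmul_eq_mul]
  congr 2
  rw [Nat.card_eq_fintype_card, Fintype.card_subtype]

universe v
variable {F : Type v} [Field F] [Fintype F] [DecidableEq F]

/-- the character of SL_2 induced from a torus -/
noncomputable def II (C : Subgroup (SpecialLinearGroup (Fin 2) F)) (θ : C →* ℂˣ) : SpecialLinearGroup (Fin 2) F → ℂ :=
  indFun C (fun c => (θ c : ℂ))

section tor

variable {C : Subgroup (SpecialLinearGroup (Fin 2) F)} (hC : NT C) (θ : C →* ℂˣ)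

theorem II_char : IsCharacter (SpecialLinearGroup (Fin 2) F) (II C θ) := isCharacter_ind C (isCharacter_hom θ)

include hC in
theorem cardC : Nat.card C = Fintype.card F + 1 := by rw [hC.card, Nat.card_eq_fintype_card]

include hC in
theorem II_nonsc {c : SpecialLinearGroup (Fin 2) F} (hc : c ∈ C) (hns : ¬ IsSc (c : Matrix (Fin 2) (Fin 2) F)) :
    II C θ c = (θ ⟨c, hc⟩ : ℂ) + ((θ ⟨c, hc⟩)⁻¹ : ℂˣ) := by
  classical
  have hcard := cardC hC
  have hC0 : (Nat.card C : ℂ) ≠ 0 := by exact_mod_cast Nat.card_pos.ne'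
  have hCN : C ≤ Subgroup.normalizer (C : Set (SpecialLinearGroup (Fin 2) F)) := Subgroup.le_normalizer
  have key : ∀ x : SpecialLinearGroup (Fin 2) F, extendByZero C (fun c : C => (θ c : ℂ)) (x⁻¹ * c * x) =
      (if x ∈ C then (θ ⟨c, hc⟩ : ℂ) - ((θ ⟨c, hc⟩)⁻¹ : ℂˣ) else 0) +
      (if x ∈ Subgroup.normalizer (C : Set (SpecialLinearGroup (Fin 2) F)) then (((θ ⟨c, hc⟩)⁻¹ : ℂˣ) : ℂ) else 0) := by
    intro x
    by_cases hxC : x ∈ C
    · rw [if_pos hxC, if_pos (hCN hxC), sub_add_cancel]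
      have e : x⁻¹ * c * x = c := by
        rw [mul_assoc, hC.comm c hc x hxC, ← mul_assoc, inv_mul_cancel, one_mul]
      rw [e, ext_mem _ _ hc]
    · rw [if_neg hxC, zero_add]
      by_cases hxN : x ∈ Subgroup.normalizer (C : Set (SpecialLinearGroup (Fin 2) F))
      · rw [if_pos hxN]
        have e : x⁻¹ * c * x = c⁻¹ := by
          have := hC.inv x⁻¹ (Subgroup.inv_mem _ hxN) (fun h => hxC (by simpa using C.inv_mem h)) c hc
          rwa [inv_inv] at this
        rw [e, ext_mem _ _ (C.inv_mem hc)]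
        have e2 : (⟨c⁻¹, C.inv_mem hc⟩ : C) = (⟨c, hc⟩ : C)⁻¹ := rfl
        rw [e2, map_inv]
      · rw [if_neg hxN, ext_not_mem]
        intro hy
        apply hxN
        set y := x⁻¹ * c * x with hy'
        have hyns : ¬ IsSc (y : Matrix (Fin 2) (Fin 2) F) := by
          intro hsc
          apply hns
          have h4 : c = 1 ∨ c = -1 := by
            rcases sc_of _ hsc with h3 | h3
            · left
              have := congrArg (fun z => x * z * x⁻¹) h3
              simpa [hy', mul_assoc] using this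
            · right
              have := congrArg (fun z => x * z * x⁻¹) h3
              simpa [hy', mul_assoc] using this
          rcases h4 with h4 | h4
          · rw [h4]; exact ⟨by simp, by simp, by simp⟩
          · rw [h4]; exact ⟨by simp, by simp, by simp⟩
        have c1 := hC.cent y hy hyns
        have c2 := hC.cent c hc hns
        rw [Subgroup.mem_normalizer_iff]
        intro h
        change h ∈ C ↔ x * h * x⁻¹ ∈ C
        rw [← c1, Subgroup.mem_centralizer_singleton_iff]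
        conv_rhs => rw [c1, ← c2, Subgroup.mem_centralizer_singleton_iff]
        have hcy : c = x * y * x⁻¹ := by rw [hy']; group
        rw [hcy]
        constructor
        · intro h5
          calc x * h * x⁻¹ * (x * y * x⁻¹) = x * (h * y) * x⁻¹ := by group
            _ = x * (y * h) * x⁻¹ := by rw [h5]
            _ = _ := by group
        · intro h5
          have := congrArg (fun z => x⁻¹ * z * x) h5
          calc h * y = x⁻¹ * (x * h * x⁻¹ * (x * y * x⁻¹)) * x := by group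
            _ = x⁻¹ * (x * y * x⁻¹ * (x * h * x⁻¹)) * x := this
            _ = _ := by group
  rw [II, ind_apply, Finset.sum_congr rfl (fun x _ => key x), Finset.sum_add_distrib, sum_ite_mem, sum_ite_mem, hC.cardN]
  push_cast
  field_simp
  ring

theorem II_central {z : SpecialLinearGroup (Fin 2) F} (hz : z ∈ C) (hcen : ∀ x, x * z = z * x) :
    (Nat.card C : ℂ) * II C θ z = (Nat.card (SpecialLinearGroup (Fin 2) F) : ℂ) * (θ ⟨z, hz⟩ : ℂ) := by
  classical
  have hC0 : (Nat.card C : ℂ) ≠ 0 := by exact_mod_cast Nat.card_pos.ne'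
  have key : ∀ x : SpecialLinearGroup (Fin 2) F, extendByZero C (fun c : C => (θ c : ℂ)) (x⁻¹ * z * x) = (θ ⟨z, hz⟩ : ℂ) := by
    intro x
    have e : x⁻¹ * z * x = z := by rw [mul_assoc, ← hcen, ← mul_assoc, inv_mul_cancel, one_mul]
    rw [e, ext_mem _ _ hz]
  rw [II, ind_apply, Finset.sum_congr rfl (fun x _ => key x), Finset.sum_const, Finset.card_univ, nsmul_eq_mul,
    ← Nat.card_eq_fintype_card, ← mul_assoc, mul_inv_cancel₀ hC0, one_mul]

include hC in
theorem II_sc {z : SpecialLinearGroup (Fin 2) F} (hz : z ∈ C) (hcen : ∀ x, x * z = z * x) :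
    II C θ z = (Fintype.card F : ℂ) * ((Fintype.card F : ℂ) - 1) * (θ ⟨z, hz⟩ : ℂ) := by
  have h1 := II_central θ hz hcen
  have h2 : 1 ≤ Fintype.card F := Fintype.card_pos
  have hC0 : (Nat.card C : ℂ) ≠ 0 := by exact_mod_cast Nat.card_pos.ne'
  apply mul_left_cancel₀ hC0
  rw [h1, card_SL, cardC hC]
  push_cast [Nat.cast_sub h2]
  ring

include hC in
theorem II_zero {g : SpecialLinearGroup (Fin 2) F} (hns : ¬ IsSc (g : Matrix (Fin 2) (Fin 2) F))
    (hell : ¬ Ell (g : Matrix (Fin 2) (Fin 2) F)) : II C θ g = 0 := by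
  rw [II, ind_apply, Finset.sum_eq_zero, mul_zero]
  intro x _
  rw [ext_not_mem]
  intro hy
  apply hell
  apply ell_conj' x⁻¹
  rw [inv_inv]
  apply hC.ell _ hy
  intro hsc
  apply hns
  have h4 : g = 1 ∨ g = -1 := by
    rcases sc_of _ hsc with h3 | h3
    · left
      have := congrArg (fun z => x * z * x⁻¹) h3
      simpa [mul_assoc] using this
    · right
      have := congrArg (fun z => x * z * x⁻¹) h3
      simpa [mul_assoc] using this
  rcases h4 with rfl | rfl
  · exact ⟨by simp, by simp, by simp⟩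
  · exact ⟨by simp, by simp, by simp⟩

include hC in
theorem II_neg (g : SpecialLinearGroup (Fin 2) F) : II C θ (-1 * g) = (θ ⟨-1, hC.neg⟩ : ℂ) * II C θ g := by
  have key : ∀ x : SpecialLinearGroup (Fin 2) F, extendByZero C (fun c : C => (θ c : ℂ)) (x⁻¹ * (-1 * g) * x) =
      (θ ⟨-1, hC.neg⟩ : ℂ) * extendByZero C (fun c : C => (θ c : ℂ)) (x⁻¹ * g * x) := by
    intro x
    have e : x⁻¹ * (-1 * g) * x = -1 * (x⁻¹ * g * x) := by simp [mul_assoc]
    rw [e]
    by_cases h : x⁻¹ * g * x ∈ C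
    · rw [ext_mem _ _ h, ext_mem _ _ (C.mul_mem hC.neg h), ← Units.val_mul, ← map_mul]
      rfl
    · rw [ext_not_mem _ _ h, ext_not_mem, mul_zero]
      intro h'
      apply h
      have := C.mul_mem hC.neg h'
      rwa [← mul_assoc, show (-1 : SpecialLinearGroup (Fin 2) F) * -1 = 1 by simp, one_mul] at this
  rw [II, ind_apply, ind_apply, Finset.sum_congr rfl (fun x _ => key x), ← Finset.mul_sum]
  ring

end tor

/-! ### principal series -/

/-- the principal series -/
noncomputable def PP (α : MulChar F ℂ) : SpecialLinearGroup (Fin 2) F → ℂ :=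
  indFun (frSL F).B ((frSL F).lam (fun a _ => α a))

theorem PP_char (α : MulChar F ℂ) : IsCharacter (SpecialLinearGroup (Fin 2) F) (PP α) := by
  have : (frSL F).lam (fun a _ => α a) = fun b => (fSL α b : ℂ) := funext fun b => fSL_apply α b
  rw [PP, this]
  exact isCharacter_ind _ (isCharacter_hom _)

theorem PP_ell (α : MulChar F ℂ) {g : SpecialLinearGroup (Fin 2) F} (h : Ell (g : Matrix (Fin 2) (Fin 2) F)) : PP α g = 0 :=
  ind_ell (frSL F) _ h

theorem PP_unip (α : MulChar F ℂ) {g : SpecialLinearGroup (Fin 2) F} (h10 : (g : Matrix (Fin 2) (Fin 2) F) 1 0 = 0)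
    (h00 : (g : Matrix (Fin 2) (Fin 2) F) 0 0 = (g : Matrix (Fin 2) (Fin 2) F) 1 1) (h01 : (g : Matrix (Fin 2) (Fin 2) F) 0 1 ≠ 0) :
    PP α g = α ((g : Matrix (Fin 2) (Fin 2) F) 0 0) :=
  ind_unip (frSL F) _ h10 h00 h01

theorem PP_split (α : MulChar F ℂ) {g : SpecialLinearGroup (Fin 2) F} (h10 : (g : Matrix (Fin 2) (Fin 2) F) 1 0 = 0)
    (hne : (g : Matrix (Fin 2) (Fin 2) F) 0 0 ≠ (g : Matrix (Fin 2) (Fin 2) F) 1 1) :
    PP α g = α ((g : Matrix (Fin 2) (Fin 2) F) 0 0) + α ((g : Matrix (Fin 2) (Fin 2) F) 1 1) := by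
  have h1 := (frSL F).ind_value (fun a _ => α a) g
  change PP α g = (if (g : Matrix (Fin 2) (Fin 2) F) 1 0 = 0 then α ((g : Matrix (Fin 2) (Fin 2) F) 0 0) else 0) +
    ∑ c : F, (if (g : Matrix (Fin 2) (Fin 2) F) 0 1 + c * ((g : Matrix (Fin 2) (Fin 2) F) 0 0 - (g : Matrix (Fin 2) (Fin 2) F) 1 1) -
      c ^ 2 * (g : Matrix (Fin 2) (Fin 2) F) 1 0 = 0 then α ((g : Matrix (Fin 2) (Fin 2) F) 1 1 + c * (g : Matrix (Fin 2) (Fin 2) F) 1 0) else 0) at h1
  rw [h1, if_pos h10]
  congr 1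
  have hd : (g : Matrix (Fin 2) (Fin 2) F) 0 0 - (g : Matrix (Fin 2) (Fin 2) F) 1 1 ≠ 0 := sub_ne_zero.mpr hne
  rw [Finset.sum_eq_single (-(g : Matrix (Fin 2) (Fin 2) F) 0 1 / ((g : Matrix (Fin 2) (Fin 2) F) 0 0 - (g : Matrix (Fin 2) (Fin 2) F) 1 1))]
  · rw [if_pos (by rw [h10, div_mul_cancel₀ _ hd]; ring), h10, mul_zero, add_zero]
  · intro c _ hc
    rw [if_neg]
    intro h
    apply hc
    rw [h10, mul_zero, sub_zero] at h
    rw [eq_div_iff hd]
    linear_combination h
  · intro h; exact absurd (Finset.mem_univ _) h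

theorem PP_sc (α : MulChar F ℂ) {g : SpecialLinearGroup (Fin 2) F} (hg : IsSc (g : Matrix (Fin 2) (Fin 2) F)) :
    PP α g = ((Fintype.card F : ℂ) + 1) * α ((g : Matrix (Fin 2) (Fin 2) F) 0 0) := by
  have h1 := (frSL F).ind_value (fun a _ => α a) g
  change PP α g = (if (g : Matrix (Fin 2) (Fin 2) F) 1 0 = 0 then α ((g : Matrix (Fin 2) (Fin 2) F) 0 0) else 0) +
    ∑ c : F, (if (g : Matrix (Fin 2) (Fin 2) F) 0 1 + c * ((g : Matrix (Fin 2) (Fin 2) F) 0 0 - (g : Matrix (Fin 2) (Fin 2) F) 1 1) -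
      c ^ 2 * (g : Matrix (Fin 2) (Fin 2) F) 1 0 = 0 then α ((g : Matrix (Fin 2) (Fin 2) F) 1 1 + c * (g : Matrix (Fin 2) (Fin 2) F) 1 0) else 0) at h1
  rw [h1, hg.1, hg.2.1, if_pos rfl, ← hg.2.2]
  simp
  ring

theorem PP_neg (α : MulChar F ℂ) (g : SpecialLinearGroup (Fin 2) F) : PP α (-1 * g) = α (-1) * PP α g := by
  have hm : (-1 : SpecialLinearGroup (Fin 2) F) ∈ (frSL F).B := by
    rw [(frSL F).mem_B]
    change ((-1 : SpecialLinearGroup (Fin 2) F) : Matrix (Fin 2) (Fin 2) F) 1 0 = 0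
    simp
  have key : ∀ x : SpecialLinearGroup (Fin 2) F, extendByZero (frSL F).B ((frSL F).lam (fun a _ => α a)) (x⁻¹ * (-1 * g) * x) =
      α (-1) * extendByZero (frSL F).B ((frSL F).lam (fun a _ => α a)) (x⁻¹ * g * x) := by
    intro x
    have e : x⁻¹ * (-1 * g) * x = -1 * (x⁻¹ * g * x) := by simp [mul_assoc]
    rw [e]
    by_cases h : x⁻¹ * g * x ∈ (frSL F).B
    · rw [ext_mem _ _ h, ext_mem _ _ ((frSL F).B.mul_mem hm h)]
      change α (((-1 * (x⁻¹ * g * x) : SpecialLinearGroup (Fin 2) F) : Matrix (Fin 2) (Fin 2) F) 0 0) = α (-1) * α (((x⁻¹ * g * x : SpecialLinearGroup (Fin 2) F) : Matrix (Fin 2) (Fin 2) F) 0 0)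
      rw [← map_mul]
      congr 1
      rw [neg_one_mul, neg_one_mul]
      rfl
    · rw [ext_not_mem _ _ h, ext_not_mem, mul_zero]
      intro h'
      apply h
      have := (frSL F).B.mul_mem hm h'
      rwa [← mul_assoc, show (-1 : SpecialLinearGroup (Fin 2) F) * -1 = 1 by simp, one_mul] at this
  rw [PP, ind_apply, ind_apply, Finset.sum_congr rfl (fun x _ => key x), ← Finset.mul_sum]
  ring

end CfsgLib.SLD15
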