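import Cfsg.Agent.LibSLD15b

set_option autoImplicit false
set_option linter.unusedSectionVars false

/-! The discrete series of SL_2(q), q odd: norms. -/

open scoped ComplexConjugate
open Cfsg

namespace CfsgLib.SLD15

open CfsgLib.CharBasic CfsgLib.CharIndA CfsgLib.G2A CfsgLib.G2B CfsgLib.G2C CfsgLib.G2D CfsgLib.G2E CfsgLib.G2I CfsgLib.Tor Matrix

theorem sum_two {X : Type*} [Fintype X] [DecidableEq X] {a b : X} (h : a ≠ b) (z : ℂ) :
    ∑ x : X, (if x = a ∨ x = b then z else 0) = 2 * z := by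
  rw [← Finset.sum_filter, Finset.sum_const, nsmul_eq_mul]
  have : (Finset.univ.filter (fun x : X => x = a ∨ x = b)) = {a, b} := by
    ext x; simp
  rw [this, Finset.card_pair h]
  norm_num

universe v
variable {F : Type v} [Field F] [Fintype F] [DecidableEq F]

/-- the discrete series generalized characters -/
noncomputable def chi (C : Subgroup (SpecialLinearGroup (Fin 2) F)) (α : MulChar F ℂ) (θ : C →* ℂˣ) :
    SpecialLinearGroup (Fin 2) F → ℂ := PP 1 * PP α - (PP α + PP α) - II C θ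

theorem chi_gen (C : Subgroup (SpecialLinearGroup (Fin 2) F)) (α : MulChar F ℂ) (θ : C →* ℂˣ) :
    IsGeneralizedCharacter (SpecialLinearGroup (Fin 2) F) (chi C α θ) :=
  gen_sub (gen_sub (gen_mul (gen_of_char (PP_char 1)) (gen_of_char (PP_char α)))
    (gen_add (gen_of_char (PP_char α)) (gen_of_char (PP_char α)))) (gen_of_char (II_char θ))

theorem chi_apply (C : Subgroup (SpecialLinearGroup (Fin 2) F)) (α : MulChar F ℂ) (θ : C →* ℂˣ) (g : SpecialLinearGroup (Fin 2) F) :
    chi C α θ g = PP 1 g * PP α g - (PP α g + PP α g) - II C θ g := rfl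

theorem one_mulChar {a : F} (h : a ≠ 0) : (1 : MulChar F ℂ) a = 1 := MulChar.one_apply (isUnit_iff_ne_zero.mpr h)

theorem diag_ne {g : SpecialLinearGroup (Fin 2) F} (h10 : (g : Matrix (Fin 2) (Fin 2) F) 1 0 = 0) :
    (g : Matrix (Fin 2) (Fin 2) F) 0 0 ≠ 0 ∧ (g : Matrix (Fin 2) (Fin 2) F) 1 1 ≠ 0 := by
  have hd := g.2
  rw [Matrix.det_fin_two, h10, mul_zero, sub_zero] at hd
  exact ⟨fun h => by rw [h, zero_mul] at hd; exact zero_ne_one hd, fun h => by rw [h, mul_zero] at hd; exact zero_ne_one hd⟩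

theorem not_ell_of {g : SpecialLinearGroup (Fin 2) F} (h10 : (g : Matrix (Fin 2) (Fin 2) F) 1 0 = 0) :
    ¬ Ell (g : Matrix (Fin 2) (Fin 2) F) := fun h => h.ne h10

section

variable {C : Subgroup (SpecialLinearGroup (Fin 2) F)} (hC : NT C) (α : MulChar F ℂ) (θ : C →* ℂˣ)

include hC

theorem chi_ell {c : SpecialLinearGroup (Fin 2) F} (hc : c ∈ C) (hns : ¬ IsSc (c : Matrix (Fin 2) (Fin 2) F)) :
    chi C α θ c = -((θ ⟨c, hc⟩ : ℂ) + ((θ ⟨c, hc⟩)⁻¹ : ℂˣ)) := by
  rw [chi_apply, PP_ell _ (hC.ell c hc hns), PP_ell _ (hC.ell c hc hns), II_nonsc hC θ hc hns]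
  ring

theorem chi_split {g : SpecialLinearGroup (Fin 2) F} (h10 : (g : Matrix (Fin 2) (Fin 2) F) 1 0 = 0)
    (hne : (g : Matrix (Fin 2) (Fin 2) F) 0 0 ≠ (g : Matrix (Fin 2) (Fin 2) F) 1 1) : chi C α θ g = 0 := by
  rw [chi_apply, PP_split _ h10 hne, PP_split _ h10 hne, one_mulChar (diag_ne h10).1, one_mulChar (diag_ne h10).2,
    II_zero hC θ (fun h => hne h.2.2) (not_ell_of h10)]
  ring

theorem chi_unip {g : SpecialLinearGroup (Fin 2) F} (h10 : (g : Matrix (Fin 2) (Fin 2) F) 1 0 = 0)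
    (h00 : (g : Matrix (Fin 2) (Fin 2) F) 0 0 = (g : Matrix (Fin 2) (Fin 2) F) 1 1) (h01 : (g : Matrix (Fin 2) (Fin 2) F) 0 1 ≠ 0) :
    chi C α θ g = -α ((g : Matrix (Fin 2) (Fin 2) F) 0 0) := by
  rw [chi_apply, PP_unip _ h10 h00 h01, PP_unip _ h10 h00 h01, one_mulChar (diag_ne h10).1,
    II_zero hC θ (fun h => h01 h.1) (not_ell_of h10)]
  ring

variable (hα : α (-1) = (θ ⟨-1, hC.neg⟩ : ℂ))

theorem chi_neg {θ} (hα : α (-1) = (θ ⟨-1, hC.neg⟩ : ℂ)) (g : SpecialLinearGroup (Fin 2) F) :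
    chi C α θ (-1 * g) = (θ ⟨-1, hC.neg⟩ : ℂ) * chi C α θ g := by
  rw [chi_apply, chi_apply, PP_neg, PP_neg, II_neg hC, ← hα, one_mulChar (by simp)]
  ring

theorem chi_one : chi C α θ 1 = (Fintype.card F : ℂ) - 1 := by
  have hsc : IsSc ((1 : SpecialLinearGroup (Fin 2) F) : Matrix (Fin 2) (Fin 2) F) := ⟨by simp, by simp, by simp⟩
  rw [chi_apply, PP_sc _ hsc, PP_sc _ hsc, II_sc hC θ C.one_mem (fun x => by rw [mul_one, one_mul])]
  have h1 : θ ⟨1, C.one_mem⟩ = 1 := map_one θ
  rw [h1]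
  simp
  ring

theorem chi_sc {θ} (hα : α (-1) = (θ ⟨-1, hC.neg⟩ : ℂ)) {g : SpecialLinearGroup (Fin 2) F} (hg : IsSc (g : Matrix (Fin 2) (Fin 2) F)) :
    chi C α θ g = ((Fintype.card F : ℂ) - 1) * α ((g : Matrix (Fin 2) (Fin 2) F) 0 0) := by
  rcases sc_of _ hg with rfl | rfl
  · rw [chi_one hC]; simp
  · have := chi_neg hC α hα 1
    rw [mul_one, chi_one hC] at this
    rw [this, ← hα]
    simp
    ring

end

theorem alpha_sq (α : MulChar F ℂ) {ε : F} (h : ε ^ 2 = 1) : α ε * conj (α ε) = 1 := by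
  rcases sq_one_cases h with rfl | rfl
  · simp
  · have h1 : α (-1) * α (-1) = 1 := by rw [← map_mul]; simp
    have h2 : (α (-1) - 1) * (α (-1) + 1) = 0 := by linear_combination h1
    rcases mul_eq_zero.mp h2 with h3 | h3
    · rw [sub_eq_zero.mp h3]; simp
    · rw [eq_neg_of_add_eq_zero_left h3]; simp

theorem sumB (hodd : Odd (Fintype.card F)) [Fintype (frSL F).B] (f : SpecialLinearGroup (Fin 2) F → ℂ) (X : ℂ)
    (h0 : ∀ g : SpecialLinearGroup (Fin 2) F, (g : Matrix (Fin 2) (Fin 2) F) 1 0 = 0 → (g : Matrix (Fin 2) (Fin 2) F) 0 0 ≠ (g : Matrix (Fin 2) (Fin 2) F) 1 1 → f g = 0)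
    (h1 : ∀ g : SpecialLinearGroup (Fin 2) F, (g : Matrix (Fin 2) (Fin 2) F) 1 0 = 0 → (g : Matrix (Fin 2) (Fin 2) F) 0 0 = (g : Matrix (Fin 2) (Fin 2) F) 1 1 →
      (g : Matrix (Fin 2) (Fin 2) F) 0 1 ≠ 0 → f g = 1)
    (hs : ∀ g : SpecialLinearGroup (Fin 2) F, IsSc (g : Matrix (Fin 2) (Fin 2) F) → f g = X) :
    ∑ b : (frSL F).B, f b = 2 * (X + ((Fintype.card F : ℂ) - 1)) := by
  classical
  have h2 := two_ne_of_odd hodd
  let e : Fˣ × F ≃ (frSL F).B := (borProd (F := F)).symm.trans (borEquiv (F := F))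
  rw [← Equiv.sum_comp e, Fintype.sum_prod_type]
  have key : ∀ (a : Fˣ) (b : F), f (e (a, b)) = if a = 1 ∨ a = -1 then (if b = 0 then X else 1) else 0 := by
    intro a b
    have hm : ((e (a, b) : SpecialLinearGroup (Fin 2) F) : Matrix (Fin 2) (Fin 2) F) = !![(a : F), b; 0, ((a⁻¹ : Fˣ) : F)] := rfl
    by_cases ha : a = 1 ∨ a = -1
    · have haa : (a : F) = ((a⁻¹ : Fˣ) : F) := by rcases ha with rfl | rfl <;> simp
      rw [if_pos ha]
      by_cases hb : b = 0
      · rw [if_pos hb]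
        apply hs
        rw [hm, hb]
        exact ⟨rfl, rfl, haa⟩
      · rw [if_neg hb]
        apply h1
        · rw [hm]; rfl
        · rw [hm]; exact haa
        · rw [hm]; exact hb
    · rw [if_neg ha]
      apply h0
      · rw [hm]; rfl
      · rw [hm]
        intro h
        apply ha
        have h3 : (a : F) = ((a⁻¹ : Fˣ) : F) := h
        have h4 : (a : F) ^ 2 = 1 := by
          rw [sq]
          nth_rewrite 2 [h3]
          simp
        rcases sq_one_cases h4 with h5 | h5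
        · left; exact Units.ext h5
        · right; exact Units.ext h5
  have key2 : ∀ a : Fˣ, ∑ b : F, f (e (a, b)) = if a = 1 ∨ a = -1 then X + ((Fintype.card F : ℂ) - 1) else 0 := by
    intro a
    rw [Finset.sum_congr rfl (fun b _ => key a b)]
    split_ifs with h
    · rw [← Finset.add_sum_erase _ _ (Finset.mem_univ (0 : F)), if_pos rfl]
      congr 1
      rw [Finset.sum_congr rfl (fun b hb => if_neg (Finset.ne_of_mem_erase hb)), Finset.sum_const, nsmul_eq_mul, mul_one,
        Finset.card_erase_of_mem (Finset.mem_univ _), Finset.card_univ, Nat.cast_sub Fintype.card_pos, Nat.cast_one]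
    · exact Finset.sum_const_zero
  rw [Finset.sum_congr rfl (fun a _ => key2 a)]
  apply sum_two
  intro h
  have := congrArg Units.val h
  simp at this
  apply h2
  linear_combination this

theorem theta_conj {C : Subgroup (SpecialLinearGroup (Fin 2) F)} (θ : C →* ℂˣ) (c : C) : conj (θ c : ℂ) = ((θ c)⁻¹ : ℂˣ) := by
  rw [Units.val_inv_eq_inv_val]
  exact (Complex.inv_eq_conj (norm_hom θ c)).symm

section norm

variable {C : Subgroup (SpecialLinearGroup (Fin 2) F)} (hC : NT C) (α : MulChar F ℂ) (θ : C →* ℂˣ)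

theorem II_one_val {C : Subgroup (SpecialLinearGroup (Fin 2) F)} (hC : NT C) {c : SpecialLinearGroup (Fin 2) F} (hc : c ∈ C)
    (hns : ¬ IsSc (c : Matrix (Fin 2) (Fin 2) F)) : II C (1 : C →* ℂˣ) c = 2 := by
  rw [II_nonsc hC 1 hc hns]
  simp
  norm_num

theorem sc_central {g : SpecialLinearGroup (Fin 2) F} (hg : IsSc (g : Matrix (Fin 2) (Fin 2) F)) (x : SpecialLinearGroup (Fin 2) F) :
    x * g = g * x := by
  rcases sc_of _ hg with rfl | rfl
  · rw [mul_one, one_mul]
  · exact neg_one_central x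

/-- pointwise decomposition of the squared norm -/
theorem F2_id (hodd : Odd (Fintype.card F)) (hall : ∀ g : SpecialLinearGroup (Fin 2) F, Ell (g : Matrix (Fin 2) (Fin 2) F) → ∃ x, x * g * x⁻¹ ∈ C)
    (hC : NT C) {θ : C →* ℂˣ} (hα : α (-1) = (θ ⟨-1, hC.neg⟩ : ℂ)) (g : SpecialLinearGroup (Fin 2) F) :
    chi C α θ g * conj (chi C α θ g) = chi C α θ g * conj (chi C α θ g) * conj (PP 1 g) +
      (1 / 2) * (chi C α θ g * conj (chi C α θ g) * conj (II C (1 : C →* ℂˣ) g)) -
      (if g = 1 ∨ g = -1 then ((Fintype.card F : ℂ) - 1) ^ 2 * ((Fintype.card F : ℂ) * ((Fintype.card F : ℂ) + 1) / 2) else 0) := by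
  have hcf1 := gen_classFun (chi_gen C α θ)
  have hcf2 := gen_classFun (gen_of_char (PP_char (F := F) 1))
  have hcf3 := gen_classFun (gen_of_char (II_char (C := C) (1 : C →* ℂˣ)))
  by_cases hsc : IsSc (g : Matrix (Fin 2) (Fin 2) F)
  · have h1 : g = 1 ∨ g = -1 := sc_of _ hsc
    have hgC : g ∈ C := by
      rcases h1 with rfl | rfl
      · exact C.one_mem
      · exact hC.neg
    rw [if_pos h1, chi_sc hC α hα hsc, PP_sc _ hsc, II_sc hC 1 hgC (sc_central hsc)]
    have h2 : (g : Matrix (Fin 2) (Fin 2) F) 0 0 ^ 2 = 1 := by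
      rcases h1 with rfl | rfl <;> simp
    have h3 : (g : Matrix (Fin 2) (Fin 2) F) 0 0 ≠ 0 := by
      intro h; rw [h] at h2; simp at h2
    have h4 := alpha_sq α h2
    rw [one_mulChar h3]
    simp only [map_mul, map_sub, map_add, Complex.conj_natCast, map_one, mul_one, MonoidHom.one_apply, Units.val_one]
    have h5 : ((Fintype.card F : ℂ) - 1) * α ((g : Matrix (Fin 2) (Fin 2) F) 0 0) * (((Fintype.card F : ℂ) - 1) * conj (α ((g : Matrix (Fin 2) (Fin 2) F) 0 0))) =
      ((Fintype.card F : ℂ) - 1) ^ 2 := by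
      linear_combination ((Fintype.card F : ℂ) - 1) ^ 2 * h4
    rw [h5]
    ring
  · have hne : ¬ (g = 1 ∨ g = -1) := by
      rintro (rfl | rfl)
      · exact hsc ⟨by simp, by simp, by simp⟩
      · exact hsc ⟨by simp, by simp, by simp⟩
    rw [if_neg hne, sub_zero]
    by_cases hell : Ell (g : Matrix (Fin 2) (Fin 2) F)
    · obtain ⟨x, hx⟩ := hall g hell
      have hns : ¬ IsSc ((x * g * x⁻¹ : SpecialLinearGroup (Fin 2) F) : Matrix (Fin 2) (Fin 2) F) := by
        intro h
        apply hne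
        rcases sc_of _ h with h3 | h3
        · left
          have := congrArg (fun z => x⁻¹ * z * x) h3
          simpa [mul_assoc] using this
        · right
          have := congrArg (fun z => x⁻¹ * z * x) h3
          simpa [mul_assoc] using this
      have c2 : conj (2 : ℂ) = 2 := map_ofNat _ 2
      rw [PP_ell _ hell, ← hcf3 g x, II_one_val hC hx hns, c2, map_zero]
      ring
    · obtain ⟨x, hx⟩ := conj_B hell
      have e1 : chi C α θ g = chi C α θ (x⁻¹ * g * x) := by
        have := hcf1 g x⁻¹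
        rw [inv_inv] at this
        exact this.symm
      have e2 : PP (1 : MulChar F ℂ) g = PP 1 (x⁻¹ * g * x) := by
        have := hcf2 g x⁻¹
        rw [inv_inv] at this
        exact this.symm
      rw [II_zero hC 1 hsc hell, e1, e2]
      set y := x⁻¹ * g * x with hy
      have h10 : (y : Matrix (Fin 2) (Fin 2) F) 1 0 = 0 := ((frSL F).mem_B y).1 hx
      by_cases h00 : (y : Matrix (Fin 2) (Fin 2) F) 0 0 = (y : Matrix (Fin 2) (Fin 2) F) 1 1
      · have h01 : (y : Matrix (Fin 2) (Fin 2) F) 0 1 ≠ 0 := by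
          intro h01
          apply hne
          rcases sc_of y ⟨h01, h10, h00⟩ with h3 | h3
          · left
            have := congrArg (fun z => x * z * x⁻¹) h3
            simpa [hy, mul_assoc] using this
          · right
            have := congrArg (fun z => x * z * x⁻¹) h3
            simpa [hy, mul_assoc] using this
        rw [PP_unip _ h10 h00 h01, one_mulChar (diag_ne h10).1]
        simp
      · rw [chi_split hC α θ h10 h00]
        simp

/-- the norm -/
theorem chi_norm (hodd : Odd (Fintype.card F)) (hall : ∀ g : SpecialLinearGroup (Fin 2) F, Ell (g : Matrix (Fin 2) (Fin 2) F) → ∃ x, x * g * x⁻¹ ∈ C)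
    (hC : NT C) {θ : C →* ℂˣ} (hα : α (-1) = (θ ⟨-1, hC.neg⟩ : ℂ)) [Fintype C] :
    classInner (chi C α θ) (chi C α θ) = 1 + (∑ c : C, (θ c : ℂ) ^ 2 + ∑ c : C, (((θ c)⁻¹ : ℂˣ) : ℂ) ^ 2) / (2 * ((Fintype.card F : ℂ) + 1)) := by
  classical
  have h2 := two_ne_of_odd hodd
  have hq1 : 1 ≤ Fintype.card F := Fintype.card_pos
  have hq2 : 1 < Fintype.card F := Fintype.one_lt_card
  have hqz : (Fintype.card F : ℂ) ≠ 0 := by exact_mod_cast (by omega : Fintype.card F ≠ 0)
  have hqm : (Fintype.card F : ℂ) - 1 ≠ 0 := by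
    rw [sub_ne_zero]; exact_mod_cast hq2.ne'
  have hqp : (Fintype.card F : ℂ) + 1 ≠ 0 := by exact_mod_cast (by omega : Fintype.card F + 1 ≠ 0)
  let F2 : SpecialLinearGroup (Fin 2) F → ℂ := fun g => chi C α θ g * conj (chi C α θ g)
  have hF2 : IsClassFunction (SpecialLinearGroup (Fin 2) F) F2 := by
    intro g h
    have := gen_classFun (chi_gen C α θ) g h
    simp only [F2, this]
  let _ : Fintype (frSL F).B := Fintype.ofFinite _
  have hcG : (Nat.card (SpecialLinearGroup (Fin 2) F) : ℂ) = (Fintype.card F : ℂ) * (((Fintype.card F : ℂ) - 1) * ((Fintype.card F : ℂ) + 1)) := by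
    rw [card_SL]; push_cast [Nat.cast_sub hq1]; ring
  have hcG0 : (Nat.card (SpecialLinearGroup (Fin 2) F) : ℂ) ≠ 0 := by exact_mod_cast Nat.card_pos.ne'
  have hm1 : (1 : SpecialLinearGroup (Fin 2) F) ≠ -1 := (neg_one_ne h2).symm
  have e1 : classInner F2 (PP 1) = 2 := by
    rw [PP, frobenius' _ _ hF2]
    unfold classInner
    have h3 : ∀ b : (frSL F).B, F2 b * conj ((frSL F).lam (fun a _ => (1 : MulChar F ℂ) a) b) = F2 b := by
      intro b
      have h10 : ((b : SpecialLinearGroup (Fin 2) F) : Matrix (Fin 2) (Fin 2) F) 1 0 = 0 := ((frSL F).mem_B _).1 b.2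
      have : (frSL F).lam (fun a _ => (1 : MulChar F ℂ) a) b = 1 := one_mulChar (diag_ne h10).1
      rw [this]; simp
    rw [Finset.sum_congr rfl (fun b _ => h3 b), sumB hodd F2 (((Fintype.card F : ℂ) - 1) ^ 2), card_B]
    · push_cast [Nat.cast_sub hq1]
      field_simp
      ring
    · intro g h10 hne
      simp only [F2]
      rw [chi_split hC α θ h10 hne]; simp
    · intro g h10 h00 h01
      simp only [F2]
      rw [chi_unip hC α θ h10 h00 h01, map_neg, neg_mul_neg]
      apply alpha_sq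
      have hd := g.2
      rw [Matrix.det_fin_two, h10, mul_zero, sub_zero, ← h00] at hd
      rw [sq]; exact hd
    · intro g hsc
      simp only [F2]
      rw [chi_sc hC α hα hsc]
      have h4 : (g : Matrix (Fin 2) (Fin 2) F) 0 0 ^ 2 = 1 := by
        rcases sc_of _ hsc with rfl | rfl <;> simp
      have h5 := alpha_sq α h4
      simp only [map_mul, map_sub, Complex.conj_natCast, map_one]
      linear_combination ((Fintype.card F : ℂ) - 1) ^ 2 * h5
  have e2 : classInner F2 (II C (1 : C →* ℂˣ)) = ((Fintype.card F : ℂ) + 1)⁻¹ * (2 * ((Fintype.card F : ℂ) + 1) + 2 * (((Fintype.card F : ℂ) - 1) ^ 2 - 4) +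
      (∑ c : C, (θ c : ℂ) ^ 2 + ∑ c : C, (((θ c)⁻¹ : ℂˣ) : ℂ) ^ 2)) := by
    rw [II, frobenius' _ _ hF2]
    unfold classInner
    rw [cardC hC]
    push_cast
    congr 1
    have h3 : ∀ c : C, F2 c * conj (((1 : C →* ℂˣ) c : ℂˣ) : ℂ) = (2 + (θ c : ℂ) ^ 2 + (((θ c)⁻¹ : ℂˣ) : ℂ) ^ 2) +
        (if c = 1 ∨ c = ⟨-1, hC.neg⟩ then ((Fintype.card F : ℂ) - 1) ^ 2 - 4 else 0) := by
      intro c
      rw [MonoidHom.one_apply, Units.val_one, map_one, mul_one]
      by_cases hsc : IsSc ((c : SpecialLinearGroup (Fin 2) F) : Matrix (Fin 2) (Fin 2) F)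
      · have h4 : (c : SpecialLinearGroup (Fin 2) F) = 1 ∨ (c : SpecialLinearGroup (Fin 2) F) = -1 := sc_of _ hsc
        have h5 : c = 1 ∨ c = ⟨-1, hC.neg⟩ := by
          rcases h4 with h4 | h4
          · left; exact Subtype.ext h4
          · right; exact Subtype.ext h4
        rw [if_pos h5]
        simp only [F2]
        rw [chi_sc hC α hα hsc]
        have h6 : ((c : SpecialLinearGroup (Fin 2) F) : Matrix (Fin 2) (Fin 2) F) 0 0 ^ 2 = 1 := by
          rcases h4 with h4 | h4 <;> rw [h4] <;> simp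
        have h7 := alpha_sq α h6
        have hcc : θ c ^ 2 = 1 := by
          rw [← map_pow]
          have : c ^ 2 = 1 := by
            apply Subtype.ext
            rw [Subgroup.coe_pow]
            rcases h4 with h4 | h4 <;> rw [h4] <;> simp
          rw [this, map_one]
        have h8 : (θ c : ℂ) ^ 2 = 1 := by rw [← Units.val_pow_eq_pow_val, hcc, Units.val_one]
        have h9 : (((θ c)⁻¹ : ℂˣ) : ℂ) ^ 2 = 1 := by
          rw [← Units.val_pow_eq_pow_val, inv_pow, hcc, inv_one, Units.val_one]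
        rw [h8, h9]
        simp only [map_mul, map_sub, Complex.conj_natCast, map_one]
        linear_combination ((Fintype.card F : ℂ) - 1) ^ 2 * h7
      · have h5 : ¬ (c = 1 ∨ c = ⟨-1, hC.neg⟩) := by
          rintro (rfl | rfl)
          · exact hsc ⟨by simp, by simp, by simp⟩
          · exact hsc ⟨by simp, by simp, by simp⟩
        rw [if_neg h5, add_zero]
        simp only [F2]
        rw [chi_ell hC α θ c.2 hsc]
        change -((θ c : ℂ) + (((θ c)⁻¹ : ℂˣ) : ℂ)) * conj (-((θ c : ℂ) + (((θ c)⁻¹ : ℂˣ) : ℂ))) = _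
        have h6 := theta_conj θ c
        have h7 : conj (((θ c)⁻¹ : ℂˣ) : ℂ) = (θ c : ℂ) := by rw [← h6, Complex.conj_conj]
        have h8 : (θ c : ℂ) * (((θ c)⁻¹ : ℂˣ) : ℂ) = 1 := by rw [← Units.val_mul, mul_inv_cancel, Units.val_one]
        rw [map_neg, map_add, h6, h7]
        linear_combination 2 * h8
    rw [Finset.sum_congr rfl (fun c _ => h3 c), Finset.sum_add_distrib, Finset.sum_add_distrib, Finset.sum_add_distrib,
      Finset.sum_const, Finset.card_univ, nsmul_eq_mul, ← Nat.card_eq_fintype_card, cardC hC, sum_two]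
    · push_cast
      ring
    · intro h
      have := congrArg Subtype.val h
      exact hm1 this
  have e3 : classInner (chi C α θ) (chi C α θ) = classInner F2 (PP 1) + (1 / 2) * classInner F2 (II C (1 : C →* ℂˣ)) -
      (Nat.card (SpecialLinearGroup (Fin 2) F) : ℂ)⁻¹ * (2 * (((Fintype.card F : ℂ) - 1) ^ 2 * ((Fintype.card F : ℂ) * ((Fintype.card F : ℂ) + 1) / 2))) := by
    rw [← sum_two hm1]
    unfold classInner
    rw [Finset.sum_congr rfl (fun g _ => F2_id α hodd hall hC hα g), Finset.sum_sub_distrib, Finset.sum_add_distrib, ← Finset.mul_sum]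
    ring
  rw [e3, e1, e2, hcG]
  field_simp
  ring

end norm

end CfsgLib.SLD15
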