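import Cfsg.Agent.LibSLD15c

set_option autoImplicit false
set_option linter.unusedSectionVars false

/-! The discrete series of SL_2(q), q odd: irreducibility and counting. -/

open scoped ComplexConjugate
open Cfsg

namespace CfsgLib.SLD15

open CfsgLib.CharBasic CfsgLib.CharIndA CfsgLib.G2A CfsgLib.G2B CfsgLib.G2C CfsgLib.G2D CfsgLib.G2E CfsgLib.G2I CfsgLib.Tor Matrix

universe v
variable {F : Type v} [Field F] [Fintype F] [DecidableEq F]

theorem exists_alpha (h2 : (2 : F) ≠ 0) {C : Subgroup (SpecialLinearGroup (Fin 2) F)} (hC : NT C) (θ : C →* ℂˣ) :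
    ∃ α : MulChar F ℂ, α (-1) = (θ ⟨-1, hC.neg⟩ : ℂ) := by
  have h1 : (θ ⟨-1, hC.neg⟩ : ℂ) * (θ ⟨-1, hC.neg⟩ : ℂ) = 1 := by
    rw [← Units.val_mul, ← map_mul]
    have : (⟨-1, hC.neg⟩ : C) * ⟨-1, hC.neg⟩ = 1 := Subtype.ext (by simp)
    rw [this, map_one, Units.val_one]
  have h3 : ((θ ⟨-1, hC.neg⟩ : ℂ) - 1) * ((θ ⟨-1, hC.neg⟩ : ℂ) + 1) = 0 := by linear_combination h1
  rcases mul_eq_zero.mp h3 with h | h
  · refine ⟨1, ?_⟩
    rw [one_mulChar (by simp), sub_eq_zero.mp h]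
  · obtain ⟨α, hα⟩ := MulChar.exists_apply_ne_one_of_hasEnoughRootsOfUnity F ℂ (a := (-1 : F)) (by
      intro h
      apply h2
      linear_combination -h)
    refine ⟨α, ?_⟩
    have h4 : α (-1) * α (-1) = 1 := by rw [← map_mul]; simp
    have h5 : (α (-1) - 1) * (α (-1) + 1) = 0 := by linear_combination h4
    rw [eq_neg_of_add_eq_zero_left h]
    exact eq_neg_of_add_eq_zero_left ((mul_eq_zero.mp h5).resolve_left (sub_ne_zero.mpr hα))

/-- elements without eigenvector are conjugate into any non-split torus -/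
theorem hall_of (hodd : Odd (Fintype.card F)) {C : Subgroup (SpecialLinearGroup (Fin 2) F)} (hC : IsCyclic C)
    (hcard : Nat.card C = Fintype.card F + 1) :
    ∀ g : SpecialLinearGroup (Fin 2) F, Ell (g : Matrix (Fin 2) (Fin 2) F) → ∃ x, x * g * x⁻¹ ∈ C := by
  have h2 := two_ne_of_odd hodd
  obtain ⟨ν, hν⟩ := FiniteField.exists_nonsquare (ringChar_ne_two h2)
  have hν0 : ν ≠ 0 := fun h => hν (h ▸ IsSquare.zero)
  have hTc := card_TN h2 hν
  have hq2 : 2 ≤ Fintype.card F := Fintype.one_lt_card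
  have hq3 : 3 ≤ Fintype.card F := by
    obtain ⟨k, hk⟩ := hodd
    omega
  have hNT := nt_of hodd C hC hcard
  obtain ⟨g0, hg0⟩ := hC.exists_generator
  have hord : orderOf (g0 : SpecialLinearGroup (Fin 2) F) = Fintype.card F + 1 := by
    rw [Subgroup.orderOf_coe, orderOf_eq_card_of_forall_mem_zpowers hg0, hcard]
  have hns : ¬ IsSc ((g0 : SpecialLinearGroup (Fin 2) F) : Matrix (Fin 2) (Fin 2) F) := by
    intro h
    have h3 : (g0 : SpecialLinearGroup (Fin 2) F) ^ 2 = 1 := by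
      rcases sc_of _ h with h | h <;> rw [h] <;> simp
    have h4 := Nat.le_of_dvd (by norm_num) (orderOf_dvd_of_pow_eq_one h3)
    rw [hord] at h4
    omega
  obtain ⟨h, hh⟩ := ell_conj hodd hν (hNT.ell _ g0.2 hns)
  have hzp : ∀ z : SpecialLinearGroup (Fin 2) F, z ∈ TJ (JN ν) → h⁻¹ * z * h ∈ C := by
    have hTz : TJ (JN ν) = Subgroup.zpowers (h * (g0 : SpecialLinearGroup (Fin 2) F) * h⁻¹) := by
      symm
      apply Subgroup.eq_of_le_of_card_ge
      · rw [Subgroup.zpowers_le]; exact hh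
      · rw [hTc, Nat.card_zpowers]
        have : h * (g0 : SpecialLinearGroup (Fin 2) F) * h⁻¹ = MulAut.conj h (g0 : SpecialLinearGroup (Fin 2) F) := by simp
        rw [this]
        have h5 : orderOf (MulAut.conj h (g0 : SpecialLinearGroup (Fin 2) F)) = orderOf (g0 : SpecialLinearGroup (Fin 2) F) :=
          orderOf_injective (MulAut.conj h).toMonoidHom (MulAut.conj h).injective _
        rw [h5, hord]
    intro z hz
    rw [hTz, Subgroup.mem_zpowers_iff] at hz
    obtain ⟨k, rfl⟩ := hz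
    rw [← MulAut.conj_apply, ← map_zpow, MulAut.conj_apply]
    have : h⁻¹ * (h * (g0 : SpecialLinearGroup (Fin 2) F) ^ k * h⁻¹) * h = (g0 : SpecialLinearGroup (Fin 2) F) ^ k := by group
    rw [this]
    exact C.zpow_mem g0.2 k
  intro g hg
  obtain ⟨y, hy⟩ := ell_conj hodd hν hg
  refine ⟨h⁻¹ * y, ?_⟩
  have := hzp _ hy
  have e : h⁻¹ * y * g * (h⁻¹ * y)⁻¹ = h⁻¹ * (y * g * y⁻¹) * h := by group
  rw [e]
  exact this

theorem sum_theta_sq {C : Type*} [Group C] [Fintype C] (θ : C →* ℂˣ) (h : ∃ c : C, θ c ^ 2 ≠ 1) :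
    ∑ c : C, (θ c : ℂ) ^ 2 = 0 ∧ ∑ c : C, (((θ c)⁻¹ : ℂˣ) : ℂ) ^ 2 = 0 := by
  obtain ⟨c, hc⟩ := h
  have key : ∀ f : C →* ℂˣ, f ≠ 1 → ∑ c : C, (f c : ℂ) = 0 := by
    intro f hf
    have := sum_hom_units_eq_zero ((Units.coeHom ℂ).comp f) (by
      intro h
      apply hf
      ext x
      exact congrArg (fun k : C →* ℂ => k x) h)
    exact this
  constructor
  · have := key (θ * θ) (by
      intro h
      apply hc
      have := congrArg (fun k : C →* ℂˣ => k c) h
      rw [sq]; exact this)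
    rw [← this]
    refine Finset.sum_congr rfl fun x _ => ?_
    rw [MonoidHom.mul_apply, Units.val_mul, sq]
  · have := key (θ * θ)⁻¹ (by
      intro h
      apply hc
      have := congrArg (fun k : C →* ℂˣ => k c) h
      have h2 : ((θ * θ) c)⁻¹ = 1 := this
      rw [inv_eq_one] at h2
      rw [sq]; exact h2)
    rw [← this]
    refine Finset.sum_congr rfl fun x _ => ?_
    rw [MonoidHom.inv_apply, MonoidHom.mul_apply, mul_inv, Units.val_mul, sq]

theorem chi_irr (hodd : Odd (Fintype.card F)) {C : Subgroup (SpecialLinearGroup (Fin 2) F)} (hcyc : IsCyclic C)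
    (hcard : Nat.card C = Fintype.card F + 1) (hC : NT C) (α : MulChar F ℂ) {θ : C →* ℂˣ} (hα : α (-1) = (θ ⟨-1, hC.neg⟩ : ℂ))
    (hθ : ∃ c : C, θ c ^ 2 ≠ 1) : IsIrrCharacter (SpecialLinearGroup (Fin 2) F) (chi C α θ) := by
  let _ : Fintype C := Fintype.ofFinite _
  apply irr_of_gen_norm_one_pos (chi_gen C α θ)
  · rw [chi_norm α hodd (hall_of hodd hcyc hcard) hC hα, (sum_theta_sq θ hθ).1, (sum_theta_sq θ hθ).2]
    simp
  · rw [chi_one hC]
    have h1 : 1 < Fintype.card F := Fintype.one_lt_card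
    have h2 : (1 : ℝ) < Fintype.card F := by exact_mod_cast h1
    simp
    exact h1

theorem chi_u {C : Subgroup (SpecialLinearGroup (Fin 2) F)} (hC : NT C) (α : MulChar F ℂ) (θ : C →* ℂˣ) {c : F} (hc : c ≠ 0) :
    chi C α θ ((frSL F).u c) = -1 := by
  have h1 : (((frSL F).u c : SpecialLinearGroup (Fin 2) F) : Matrix (Fin 2) (Fin 2) F) = !![1, c; 0, 1] := (frSL F).mat_u c
  rw [chi_unip hC α θ (by rw [h1]; rfl) (by rw [h1]; rfl) (by rw [h1]; exact hc), h1]
  simp

theorem chi_sum_u {C : Subgroup (SpecialLinearGroup (Fin 2) F)} (hC : NT C) (α : MulChar F ℂ) (θ : C →* ℂˣ) :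
    ∑ c : F, chi C α θ ((frSL F).u c) = 0 := by
  rw [← Finset.add_sum_erase _ _ (Finset.mem_univ (0 : F)), (frSL F).u_zero, chi_one hC,
    Finset.sum_congr rfl (fun c hc => chi_u hC α θ (Finset.ne_of_mem_erase hc)), Finset.sum_const, nsmul_eq_mul,
    Finset.card_erase_of_mem (Finset.mem_univ _), Finset.card_univ, Nat.cast_sub Fintype.card_pos, Nat.cast_one]
  ring

theorem sq_eq_one_units {x : ℂˣ} (h : x ^ 2 = 1) : x = 1 ∨ x = -1 := by
  have h1 : ((x : ℂ) - 1) * ((x : ℂ) + 1) = 0 := by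
    have := congrArg Units.val h
    simp only [Units.val_pow_eq_pow_val, Units.val_one] at this
    linear_combination this
  rcases mul_eq_zero.mp h1 with h2 | h2
  · left; exact Units.ext (sub_eq_zero.mp h2)
  · right; exact Units.ext (by simpa using eq_neg_of_add_eq_zero_left h2)

/-- the number of homomorphisms with nontrivial square -/
theorem card_theta {C : Type*} [Group C] [Finite C] [IsCyclic C] :
    Nat.card C ≤ Nat.card {θ : C →* ℂˣ // ∃ c : C, θ c ^ 2 ≠ 1} + 2 := by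
  classical
  letI : CommGroup C := IsCyclic.commGroup
  obtain ⟨g0, hg0⟩ := IsCyclic.exists_generator (α := C)
  have hext : ∀ f f' : C →* ℂˣ, f g0 = f' g0 → f = f' := by
    intro f f' h
    ext x
    obtain ⟨k, rfl⟩ := Subgroup.mem_zpowers_iff.mp (hg0 x)
    rw [map_zpow, map_zpow, h]
  have hfin : Finite (C →* ℂˣ) := by
    apply Nat.finite_of_card_ne_zero
    rw [card_hom_of_comm]
    exact Nat.card_pos.ne'
  have h1 : Nat.card (C →* ℂˣ) = Nat.card {θ : C →* ℂˣ // ∃ c : C, θ c ^ 2 ≠ 1} + Nat.card {θ : C →* ℂˣ // ¬ ∃ c : C, θ c ^ 2 ≠ 1} := by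
    rw [← Nat.card_sum]
    exact Nat.card_congr (Equiv.sumCompl _).symm
  rw [← card_hom_of_comm, h1]
  apply Nat.add_le_add_left
  have h2 : Nat.card {θ : C →* ℂˣ // ¬ ∃ c : C, θ c ^ 2 ≠ 1} ≤ Nat.card Bool := by
    apply Nat.card_le_card_of_injective (fun θ => decide ((θ.1 g0) = 1))
    intro θ θ' h
    apply Subtype.ext
    apply hext
    have key : ∀ θ : {θ : C →* ℂˣ // ¬ ∃ c : C, θ c ^ 2 ≠ 1}, θ.1 g0 = 1 ∨ θ.1 g0 = -1 := by
      intro θ
      have h3 := θ.2
      push Not at h3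
      have h4 := h3 g0
      exact sq_eq_one_units h4
    have h5 : (θ.1 g0 = 1) ↔ (θ'.1 g0 = 1) := by
      have : decide (θ.1 g0 = 1) = decide (θ'.1 g0 = 1) := h
      exact decide_eq_decide.mp this
    rcases key θ with k1 | k1
    · rw [k1, h5.1 k1]
    · rcases key θ' with k2 | k2
      · rw [h5.2 k2, k2]
      · rw [k1, k2]
  simpa using h2

end CfsgLib.SLD15
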