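import Cfsg.Agent.LibSLD15d

set_option autoImplicit false
set_option linter.unusedSectionVars false

/-! The characters of SL_2(q) of degree (q-1)/2. -/

open scoped ComplexConjugate
open Cfsg

namespace CfsgLib.SLD15

open CfsgLib.CharBasic CfsgLib.CharIndA CfsgLib.G2A CfsgLib.G2B CfsgLib.G2C CfsgLib.G2D CfsgLib.G2E CfsgLib.G2F CfsgLib.G2G CfsgLib.G2H CfsgLib.G2I CfsgLib.G2J CfsgLib.G2K CfsgLib.G2L CfsgLib.G2M CfsgLib.Tor Matrix

theorem two_sq {ι : Type*} [Fintype ι] (m : ι → ℤ) (h : ∑ i, m i ^ 2 = 2) :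
    ∃ i j, i ≠ j ∧ (m i = 1 ∨ m i = -1) ∧ (m j = 1 ∨ m j = -1) ∧ ∀ k, k ≠ i → k ≠ j → m k = 0 := by
  classical
  have small : ∀ z : ℤ, z ≠ 0 → z ^ 2 ≤ 2 → (z = 1 ∨ z = -1) := by
    intro z hz h2
    have h3 : z ≤ 1 := by nlinarith
    have h4 : -1 ≤ z := by nlinarith
    omega
  have hex : ∃ i, m i ≠ 0 := by
    by_contra hcon
    push Not at hcon
    simp [hcon] at h
  obtain ⟨i, hi⟩ := hex
  rw [← Finset.add_sum_erase _ _ (Finset.mem_univ i)] at h
  have hnn : 0 ≤ ∑ j ∈ Finset.univ.erase i, m j ^ 2 := Finset.sum_nonneg fun _ _ => by positivity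
  have hi1 := small (m i) hi (by omega)
  have hi2 : m i ^ 2 = 1 := by rcases hi1 with h | h <;> rw [h] <;> norm_num
  have hr : ∑ j ∈ Finset.univ.erase i, m j ^ 2 = 1 := by omega
  have hex2 : ∃ j ∈ Finset.univ.erase i, m j ≠ 0 := by
    by_contra hcon
    push Not at hcon
    rw [Finset.sum_eq_zero (fun j hj => by rw [hcon j hj]; norm_num)] at hr
    norm_num at hr
  obtain ⟨j, hj, hj0⟩ := hex2
  rw [← Finset.add_sum_erase _ _ hj] at hr
  have hnn2 : 0 ≤ ∑ k ∈ (Finset.univ.erase i).erase j, m k ^ 2 := Finset.sum_nonneg fun _ _ => by positivity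
  have hj1 := small (m j) hj0 (by omega)
  have hj2 : m j ^ 2 = 1 := by rcases hj1 with h | h <;> rw [h] <;> norm_num
  have hz : ∑ k ∈ (Finset.univ.erase i).erase j, m k ^ 2 = 0 := by omega
  refine ⟨i, j, (Finset.ne_of_mem_erase hj).symm, hi1, hj1, ?_⟩
  intro k hki hkj
  have := (Finset.sum_eq_zero_iff_of_nonneg (fun _ _ => by positivity)).1 hz k
    (Finset.mem_erase.2 ⟨hkj, Finset.mem_erase.2 ⟨hki, Finset.mem_univ _⟩⟩)
  exact pow_eq_zero_iff (two_ne_zero) |>.1 this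

universe v
variable {F : Type v} [Field F] [Fintype F] [DecidableEq F]

theorem half_disc (hodd : Odd (Fintype.card F)) {C : Subgroup (SpecialLinearGroup (Fin 2) F)} (hcyc : IsCyclic C)
    (hcard : Nat.card C = Fintype.card F + 1) (hC : NT C) {θ : C →* ℂˣ} (hθ2 : ∀ c, θ c ^ 2 = 1)
    {c0 : SpecialLinearGroup (Fin 2) F} (hc0 : c0 ∈ C) (hns0 : ¬ IsSc (c0 : Matrix (Fin 2) (Fin 2) F)) (hθ0 : θ ⟨c0, hc0⟩ = -1)
    {ν : F} (hν : ¬ IsSquare ν) {ψ : AddChar F ℂ} (hψ : ψ ≠ 1) {K a b : IrrCharacter (SpecialLinearGroup (Fin 2) F) → ℕ}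
    (m0 : ∀ χ : IrrCharacter (SpecialLinearGroup (Fin 2) F), ∑ c : F, (χ : SpecialLinearGroup (Fin 2) F → ℂ) ((frSL F).u c) = (Fintype.card F : ℂ) * K χ)
    (m1 : ∀ χ : IrrCharacter (SpecialLinearGroup (Fin 2) F), 2 * (χ : SpecialLinearGroup (Fin 2) F → ℂ) 1 = 2 * K χ + ((Fintype.card F : ℂ) - 1) * (a χ + b χ))
    (m2 : ∀ χ : IrrCharacter (SpecialLinearGroup (Fin 2) F), (χ : SpecialLinearGroup (Fin 2) F → ℂ) ((frSL F).u 1) + (χ : SpecialLinearGroup (Fin 2) F → ℂ) ((frSL F).u ν) = 2 * K χ - (a χ + b χ))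
    (m3 : ∀ χ : IrrCharacter (SpecialLinearGroup (Fin 2) F), (χ : SpecialLinearGroup (Fin 2) F → ℂ) ((frSL F).u 1) - (χ : SpecialLinearGroup (Fin 2) F → ℂ) ((frSL F).u ν) = (a χ - b χ) * gs ψ)
    (ha : ∀ χ, a χ ≤ 1) (hb : ∀ χ, b χ ≤ 1) (hK : ∀ χ, K χ ≤ 2) (hK2 : ∀ χ, K χ = 2 → a χ = 1 ∧ b χ = 1) (hK0 : ∀ χ, a χ = 0 → b χ = 0 → K χ = 1)
    (n5 : Nat.card {χ // K χ = 0 ∧ a χ + b χ = 1} = 2)
    (χ : IrrCharacter (SpecialLinearGroup (Fin 2) F)) (hKχ : K χ = 0) (hsχ : a χ + b χ = 1)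
    {c : SpecialLinearGroup (Fin 2) F} (hc : c ∈ C) (hns : ¬ IsSc (c : Matrix (Fin 2) (Fin 2) F)) :
    (χ : SpecialLinearGroup (Fin 2) F → ℂ) c = -(θ ⟨c, hc⟩ : ℂ) := by
  classical
  have h2 := two_ne_of_odd hodd
  have hν0 : ν ≠ 0 := fun h => hν (h ▸ IsSquare.zero)
  have hq2 : 2 ≤ Fintype.card F := Fintype.one_lt_card
  have hqm : (Fintype.card F : ℂ) - 1 ≠ 0 := by
    rw [sub_ne_zero]; exact_mod_cast (by omega : Fintype.card F ≠ 1)
  have hqz : (Fintype.card F : ℂ) ≠ 0 := by exact_mod_cast (by omega : Fintype.card F ≠ 0)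
  have hqp : (Fintype.card F : ℂ) + 1 ≠ 0 := by exact_mod_cast (by omega : Fintype.card F + 1 ≠ 0)
  obtain ⟨α, hα⟩ := exists_alpha h2 hC θ
  let _ : Fintype C := Fintype.ofFinite _
  have hθi : ∀ c, (θ c)⁻¹ = θ c := by
    intro c
    have := hθ2 c
    rw [sq] at this
    exact inv_eq_of_mul_eq_one_left this
  have hn : classInner (chi C α θ) (chi C α θ) = 2 := by
    rw [chi_norm α hodd (hall_of hodd hcyc hcard) hC hα]
    have e1 : ∀ c : C, (θ c : ℂ) ^ 2 = 1 := by
      intro c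
      rw [← Units.val_pow_eq_pow_val, hθ2, Units.val_one]
    have e2 : ∀ c : C, (((θ c)⁻¹ : ℂˣ) : ℂ) ^ 2 = 1 := by
      intro c
      rw [hθi, e1]
    rw [Finset.sum_congr rfl (fun c _ => e1 c), Finset.sum_congr rfl (fun c _ => e2 c), Finset.sum_const, Finset.card_univ,
      nsmul_eq_mul, ← Nat.card_eq_fintype_card, cardC hC]
    push_cast
    field_simp
    ring
  obtain ⟨m, hm, hexp, hn2⟩ := gen_expand (chi_gen C α θ)
  rw [hn] at hn2
  have hn3 : ∑ χ, m χ ^ 2 = 2 := by exact_mod_cast hn2.symm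
  obtain ⟨i, j, hij, hi, hj, hk⟩ := two_sq m hn3
  have hval : ∀ g, chi C α θ g = (m i : ℂ) * (i : SpecialLinearGroup (Fin 2) F → ℂ) g + (m j : ℂ) * (j : SpecialLinearGroup (Fin 2) F → ℂ) g := by
    intro g
    have h3 := congrFun hexp g
    rw [Finset.sum_apply, ← Finset.add_sum_erase _ _ (Finset.mem_univ i),
      ← Finset.add_sum_erase _ _ (Finset.mem_erase.2 ⟨hij.symm, Finset.mem_univ j⟩),
      Finset.sum_eq_zero (fun k hk' => by
        rw [Finset.mem_erase, Finset.mem_erase] at hk'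
        rw [hk k hk'.2.1 hk'.1]; simp)] at h3
    rw [h3]
    simp
  have s0 : m i * (K i : ℤ) + m j * (K j : ℤ) = 0 := by
    have h3 := chi_sum_u hC α θ
    rw [Finset.sum_congr rfl (fun c _ => hval _), Finset.sum_add_distrib, ← Finset.mul_sum, ← Finset.mul_sum, m0, m0] at h3
    have h4 : (Fintype.card F : ℂ) * ((m i * (K i : ℤ) + m j * (K j : ℤ) : ℤ) : ℂ) = 0 := by
      push_cast
      linear_combination h3
    exact_mod_cast (mul_eq_zero.mp h4).resolve_left hqz
  have s1 : m i * ((a i : ℤ) + b i) + m j * ((a j : ℤ) + b j) = 2 := by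
    have h3 := hval 1
    rw [chi_one hC] at h3
    have h4 : ((Fintype.card F : ℂ) - 1) * ((m i * ((a i : ℤ) + b i) + m j * ((a j : ℤ) + b j) - 2 : ℤ) : ℂ) = 0 := by
      have h5 : ((m i * (K i : ℤ) + m j * (K j : ℤ) : ℤ) : ℂ) = 0 := by rw [s0]; simp
      push_cast at h5 ⊢
      linear_combination -(m i : ℂ) * m1 i - (m j : ℂ) * m1 j - 2 * h3 - 2 * h5
    have h5 : m i * ((a i : ℤ) + b i) + m j * ((a j : ℤ) + b j) - 2 = 0 := by
      exact_mod_cast (mul_eq_zero.mp h4).resolve_left hqm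
    omega
  have s3 : m i * ((a i : ℤ) - b i) + m j * ((a j : ℤ) - b j) = 0 := by
    have h3 : chi C α θ ((frSL F).u 1) - chi C α θ ((frSL F).u ν) = 0 := by
      rw [chi_u hC α θ one_ne_zero, chi_u hC α θ hν0, sub_self]
    rw [hval, hval] at h3
    have h4 : gs ψ * ((m i * ((a i : ℤ) - b i) + m j * ((a j : ℤ) - b j) : ℤ) : ℂ) = 0 := by
      push_cast
      linear_combination h3 - (m i : ℂ) * m3 i - (m j : ℂ) * m3 j
    exact_mod_cast (mul_eq_zero.mp h4).resolve_left (gs_ne h2 hψ)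
  have hc0v : chi C α θ c0 = 2 := by
    rw [chi_ell hC α θ hc0 hns0, hθ0]
    simp
    norm_num
  have hell0 := hC.ell c0 hc0 hns0
  -- the exceptional case
  have exc : ∀ i j : IrrCharacter (SpecialLinearGroup (Fin 2) F), K i = 1 → a i + b i = 2 → K j = 1 → a j = 0 → b j = 0 →
      (i : SpecialLinearGroup (Fin 2) F → ℂ) c0 = -1 ∧ (j : SpecialLinearGroup (Fin 2) F → ℂ) c0 = 1 := by
    intro i j k1 k2 k3 k4 k5
    constructor
    · have hdeg : (i : SpecialLinearGroup (Fin 2) F → ℂ) 1 = (Fintype.card F : ℂ) := by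
        have h3 := m1 i
        have h4 : ((a i : ℂ) + b i) = 2 := by exact_mod_cast k2
        rw [k1, h4] at h3
        push_cast at h3
        linear_combination (1 / 2) * h3
      obtain ⟨f, L, hL, hf, hv⟩ := steinberg i.2 hdeg (by rw [m0, k1]; simp)
      rw [hv, ind_ell (frSL F) L hell0]
      ring
    · apply linear_trivial (irr_isCharacter j.2)
      · have h3 := m1 j
        rw [k3, k4, k5] at h3
        push_cast at h3
        linear_combination (1 / 2) * h3
      · rw [m0, k3]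
        simpa using hqz
  have ai := ha i
  have bi := hb i
  have aj := ha j
  have bj := hb j
  have Ki := hK i
  have Kj := hK j
  have K0i := hK0 i
  have K0j := hK0 j
  have hmain : m i = 1 ∧ m j = 1 ∧ K i = 0 ∧ K j = 0 ∧ a i + b i = 1 ∧ a j + b j = 1 := by
    rcases hi with hi | hi <;> rcases hj with hj | hj
    · rw [hi, hj] at s0 s1 s3
      have q1 : K i = 0 := by omega
      have q2 : K j = 0 := by omega
      refine ⟨hi, hj, q1, q2, ?_, ?_⟩
      · by_contra hne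
        have : a i + b i = 0 ∨ a i + b i = 2 := by omega
        rcases this with h | h
        · have := K0i (by omega) (by omega); omega
        · have := K0j (by omega) (by omega); omega
      · by_contra hne
        have : a j + b j = 0 ∨ a j + b j = 2 := by omega
        rcases this with h | h
        · have := K0j (by omega) (by omega); omega
        · have := K0i (by omega) (by omega); omega
    · exfalso
      rw [hi, hj] at s0 s1 s3
      have q1 : a j = 0 := by omega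
      have q2 : b j = 0 := by omega
      have q3 := K0j q1 q2
      have q4 : K i = 1 := by omega
      have := exc i j q4 (by omega) q3 q1 q2
      have h3 := hval c0
      rw [hc0v, this.1, this.2, hi, hj] at h3
      norm_num at h3
    · exfalso
      rw [hi, hj] at s0 s1 s3
      have q1 : a i = 0 := by omega
      have q2 : b i = 0 := by omega
      have q3 := K0i q1 q2
      have q4 : K j = 1 := by omega
      have := exc j i q4 (by omega) q3 q1 q2
      have h3 := hval c0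
      rw [hc0v, this.1, this.2, hi, hj] at h3
      norm_num at h3
    · exfalso
      rw [hi, hj] at s1
      omega
  obtain ⟨hi1, hj1, ki, kj, si, sj⟩ := hmain
  have hell := hC.ell c hc hns
  have hpart := partner hν hψ m1 m2 m3 h2 (Units.mk0 ν hν0) rfl 0 n5 i j ⟨ki, si⟩ ⟨kj, sj⟩ hij c
  have hjc : (j : SpecialLinearGroup (Fin 2) F → ℂ) c = (i : SpecialLinearGroup (Fin 2) F → ℂ) c := by
    rw [hpart]
    exact isClassFunction_iff_mem.mp (irr_classFun i.2) _ _ (sgm_conj hodd _ hell)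
  have hic : (i : SpecialLinearGroup (Fin 2) F → ℂ) c = -(θ ⟨c, hc⟩ : ℂ) := by
    have h3 := hval c
    rw [chi_ell hC α θ hc hns, hi1, hj1, hjc, hθi] at h3
    push_cast at h3
    linear_combination -(1 / 2) * h3
  have hcases : χ = i ∨ χ = j := by
    by_contra hcon
    push Not at hcon
    let _ : Fintype {χ : IrrCharacter (SpecialLinearGroup (Fin 2) F) // K χ = 0 ∧ a χ + b χ = 1} := Fintype.ofFinite _
    have h3 : ({⟨χ, hKχ, hsχ⟩, ⟨i, ki, si⟩, ⟨j, kj, sj⟩} : Finset {χ : IrrCharacter (SpecialLinearGroup (Fin 2) F) // K χ = 0 ∧ a χ + b χ = 1}).card = 3 := by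
      rw [Finset.card_eq_three]
      exact ⟨_, _, _, fun h => hcon.1 (congrArg Subtype.val h), fun h => hcon.2 (congrArg Subtype.val h), fun h => hij (congrArg Subtype.val h), rfl⟩
    have h4 := Finset.card_le_univ ({⟨χ, hKχ, hsχ⟩, ⟨i, ki, si⟩, ⟨j, kj, sj⟩} : Finset {χ : IrrCharacter (SpecialLinearGroup (Fin 2) F) // K χ = 0 ∧ a χ + b χ = 1})
    rw [h3, ← Nat.card_eq_fintype_card, n5] at h4
    omega
  rcases hcases with rfl | rfl
  · exact hic
  · rw [hjc, hic]

end CfsgLib.SLD15
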