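import Cfsg.Agent.LibSLn6
import Cfsg.Agent.LibSuzM1

set_option autoImplicit false
set_option maxHeartbeats 1000000

/-! Central extensions of `SL_n`: commuting root subgroups have commuting lifts. -/

namespace CfsgLib.SLn

open Matrix CfsgLib.SuzM

section gen

variable {Γ G : Type*} [Group Γ] [Group G] {σ : Γ →* G} (hσ : Function.Surjective σ) (hc : σ.ker ≤ Subgroup.center Γ)

include hc in
theorem cm_eq_one {g1 g2 h : G} (h1 : g1 * h = h * g1) (h2 : g2 * h = h * g2) :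
    cm hσ (g1 * g2 * g1⁻¹ * g2⁻¹) h = 1 := by
  obtain ⟨x1, hx1⟩ := hσ g1
  obtain ⟨x2, hx2⟩ := hσ g2
  obtain ⟨y, hy⟩ := hσ h
  have e1 : σ (y * x1 * y⁻¹) = σ x1 := by rw [map_mul, map_mul, map_inv, hx1, hy, ← h1, mul_inv_cancel_right]
  have e2 : σ (y * x2 * y⁻¹) = σ x2 := by rw [map_mul, map_mul, map_inv, hx2, hy, ← h2, mul_inv_cancel_right]
  have e3 := comm_lift hc e1 e2
  have e4 : σ (x1 * x2 * x1⁻¹ * x2⁻¹) = g1 * g2 * g1⁻¹ * g2⁻¹ := by
    simp only [map_mul, map_inv, hx1, hx2]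
  rw [← cm_eq hσ hc e4 hy]
  have e5 : y * (x1 * x2 * x1⁻¹ * x2⁻¹) * y⁻¹ = x1 * x2 * x1⁻¹ * x2⁻¹ := by
    refine Eq.trans ?_ e3
    group
  have e6 : y * (x1 * x2 * x1⁻¹ * x2⁻¹) = (x1 * x2 * x1⁻¹ * x2⁻¹) * y := by
    exact mul_inv_eq_iff_eq_mul.1 e5
  calc (x1 * x2 * x1⁻¹ * x2⁻¹) * y * (x1 * x2 * x1⁻¹ * x2⁻¹)⁻¹ * y⁻¹ =
      (y * (x1 * x2 * x1⁻¹ * x2⁻¹)) * (x1 * x2 * x1⁻¹ * x2⁻¹)⁻¹ * y⁻¹ := by rw [e6]
    _ = 1 := by group

include hc in
theorem cm_symm (g h : G) : cm hσ h g = (cm hσ g h)⁻¹ := by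
  obtain ⟨x, hx⟩ := hσ g
  obtain ⟨y, hy⟩ := hσ h
  rw [← cm_eq hσ hc hx hy, ← cm_eq hσ hc hy hx]
  group

end gen

variable {n : ℕ} {K : Type*} [Field K]

theorem TT_commutator {i j k : Fin n} (h1 : i ≠ j) (h2 : j ≠ k) (h3 : i ≠ k) (a b : K) :
    TT h3 (a * b) = TT h1 a * TT h2 b * (TT h1 a)⁻¹ * (TT h2 b)⁻¹ := by
  rw [TT_mulc h1 h2 h3]; group

/-- the tautological Steinberg data -/
def taut (hn : 3 ≤ n) : StG n K (SpecialLinearGroup (Fin n) K) where
  x := fun i j a => if h : i ≠ j then TT h a else 1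
  add := fun i j h a b => by rw [dif_pos h, dif_pos h, dif_pos h, TT_add]
  comm := fun i j k l h1 h2 h3 h4 a b => by rw [dif_pos h1, dif_pos h2, TT_comm h1 h2 h3 h4]
  mulc := fun i j k h1 h2 h3 a b => by rw [dif_pos h1, dif_pos h2, dif_pos h3, TT_mulc h1 h2 h3]
  pi := MonoidHom.id _
  hpi := fun i j h a => by rw [dif_pos h]; exact TT_coe h a
  gen := by
    rw [eq_top_iff, ← TT_gen (K := K) (n := n) (by omega), Subgroup.closure_le]
    rintro _ ⟨i, j, h, a, rfl⟩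
    apply Subgroup.subset_closure
    exact ⟨i, j, h, a, by rw [dif_pos h]⟩
  h3 := hn

theorem taut_x (hn : 3 ≤ n) {i j : Fin n} (h : i ≠ j) (a : K) : (taut (K := K) hn).x i j a = TT h a := by
  show (if h : i ≠ j then TT h a else 1) = _
  rw [dif_pos h]

/-- diagonal elements -/
def dg (t : Fin n → Kˣ) (ht : ∏ k, t k = 1) : SpecialLinearGroup (Fin n) K :=
  ⟨diagonal (fun k => (t k : K)), by
    rw [det_diagonal, ← Units.coe_prod, ht, Units.val_one]⟩

theorem dg_conj (t : Fin n → Kˣ) (ht : ∏ k, t k = 1) {i j : Fin n} (h : i ≠ j) (a : K) :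
    dg t ht * TT h a * (dg t ht)⁻¹ = TT h ((t i : K) * a * (((t j)⁻¹ : Kˣ) : K)) := by
  rw [mul_inv_eq_iff_eq_mul]
  apply Subtype.ext
  have e1 : (dg t ht * TT h a).1 = diagonal (fun k => (t k : K)) * transvection i j a := by
    rw [← TT_coe h a]; rfl
  have e2 : (TT h ((t i : K) * a * (((t j)⁻¹ : Kˣ) : K)) * dg t ht).1 =
      transvection i j ((t i : K) * a * (((t j)⁻¹ : Kˣ) : K)) * diagonal (fun k => (t k : K)) := by
    rw [← TT_coe h]; rfl
  rw [e1, e2, transvection, transvection, mul_add, add_mul, mul_one, one_mul]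
  congr 1
  ext p q
  rw [diagonal_mul, mul_diagonal, Matrix.single_apply, Matrix.single_apply]
  by_cases hpq : i = p ∧ j = q
  · obtain ⟨rfl, rfl⟩ := hpq
    have := (t j).ne_zero
    rw [if_pos ⟨rfl, rfl⟩, if_pos ⟨rfl, rfl⟩]
    push_cast
    field_simp
  · rw [if_neg hpq, if_neg hpq, mul_zero, zero_mul]

theorem dg_comm (t : Fin n → Kˣ) (ht : ∏ k, t k = 1) (t' : Fin n → Kˣ) (ht' : ∏ k, t' k = 1) :
    dg t ht * dg t' ht' * (dg t ht)⁻¹ = dg t' ht' := by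
  rw [mul_inv_eq_iff_eq_mul]
  apply Subtype.ext
  show diagonal _ * diagonal _ = diagonal _ * diagonal _
  rw [diagonal_mul_diagonal, diagonal_mul_diagonal]
  congr 1
  funext k
  exact mul_comm _ _

/-- three entries -/
theorem exists_dg {i j l : Fin n} (hij : i ≠ j) (hil : i ≠ l) (hjl : j ≠ l) (u v : Kˣ) :
    ∃ t : Fin n → Kˣ, ∏ k, t k = 1 ∧ t i = u ∧ t j = v ∧ t l = (u * v)⁻¹ := by
  refine ⟨fun k => (Pi.mulSingle i u : Fin n → Kˣ) k * (Pi.mulSingle j v : Fin n → Kˣ) k *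
    (Pi.mulSingle l (u * v)⁻¹ : Fin n → Kˣ) k, ?_, ?_, ?_, ?_⟩
  · rw [Finset.prod_mul_distrib, Finset.prod_mul_distrib]
    simp [Pi.mulSingle_apply]
  · simp [Pi.mulSingle_apply, hij, hil]
  · simp [Pi.mulSingle_apply, hij.symm, hjl]
  · simp [Pi.mulSingle_apply, hil.symm, hjl.symm]

variable {Γ : Type*} [Group Γ] {σ : Γ →* SpecialLinearGroup (Fin n) K} (hσ : Function.Surjective σ)
  (hc : σ.ker ≤ Subgroup.center Γ)

include hc in
theorem B_add_left {i j k l : Fin n} (h : i ≠ j) (h' : k ≠ l) (h1 : j ≠ k) (h2 : i ≠ l) (a a' b : K) :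
    cm hσ (TT h (a + a')) (TT h' b) = cm hσ (TT h a) (TT h' b) * cm hσ (TT h a') (TT h' b) := by
  rw [TT_add, cm_mul_left hσ hc (fun w _ => cm_central hσ hc (TT_comm h h' h1 h2 a' b) w)]
  exact cm_central hσ hc (TT_comm h h' h1 h2 a b) _

include hc in
theorem B_scale {i j k l : Fin n} (h : i ≠ j) (h' : k ≠ l) (h1 : j ≠ k) (h2 : i ≠ l) (t : Fin n → Kˣ)
    (ht : ∏ k, t k = 1) (a b : K) :
    cm hσ (TT h ((t i : K) * a * (((t j)⁻¹ : Kˣ) : K))) (TT h' ((t k : K) * b * (((t l)⁻¹ : Kˣ) : K))) =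
      cm hσ (TT h a) (TT h' b) := by
  obtain ⟨w, hw⟩ := hσ (dg t ht)
  have e1 := cm_conj hσ hc (g := TT h a) (h := TT h' b) hw
  rw [dg_conj, dg_conj] at e1
  rw [← e1, cm_central hσ hc (TT_comm h h' h1 h2 a b) w, mul_inv_cancel_right]

include hc in
/-- an invariant additive map with respect to a nontrivial scalar on the left vanishes -/
theorem B_van {i j k l : Fin n} (h : i ≠ j) (h' : k ≠ l) (h1 : j ≠ k) (h2 : i ≠ l) (t : Fin n → Kˣ)
    (ht : ∏ k, t k = 1) (h3 : t i ≠ t j) (h4 : t k = t l) (a b : K) : cm hσ (TT h a) (TT h' b) = 1 := by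
  have key : ∀ a, cm hσ (TT h (((t i : K) * (((t j)⁻¹ : Kˣ) : K) - 1) * a)) (TT h' b) = 1 := by
    intro a
    have e1 := B_scale hσ hc h h' h1 h2 t ht a b
    have e2 : (t k : K) * b * (((t l)⁻¹ : Kˣ) : K) = b := by
      rw [h4]
      have := (t l).ne_zero
      push_cast
      field_simp
    rw [e2] at e1
    have e3 : (t i : K) * a * (((t j)⁻¹ : Kˣ) : K) = a + ((t i : K) * (((t j)⁻¹ : Kˣ) : K) - 1) * a := by ring
    rw [e3, B_add_left hσ hc h h' h1 h2] at e1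
    exact mul_eq_left.1 e1
  have hne : (t i : K) * (((t j)⁻¹ : Kˣ) : K) - 1 ≠ 0 := by
    intro h0
    apply h3
    have h5 : (t i : K) * (((t j)⁻¹ : Kˣ) : K) = 1 := by linear_combination h0
    rw [← Units.val_mul, Units.val_eq_one, mul_inv_eq_one] at h5
    exact h5
  have e4 := key (((t i : K) * (((t j)⁻¹ : Kˣ) : K) - 1)⁻¹ * a)
  rw [mul_inv_cancel_left₀ hne] at e4
  exact e4

include hc in
theorem C_same (hn : 3 ≤ n) {i j : Fin n} (h : i ≠ j) (a b : K) : cm hσ (TT h a) (TT h b) = 1 := by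
  obtain ⟨l, hli, hlj⟩ := (taut (K := K) hn).third i j
  have e1 := TT_commutator (K := K) hli.symm hlj h a 1
  rw [mul_one] at e1
  rw [e1]
  exact cm_eq_one hσ hc (TT_comm _ _ hli h a b) (TT_comm _ _ h.symm hlj 1 b)

theorem fourth (hn : 4 ≤ n) (i j k : Fin n) : ∃ l, l ≠ i ∧ l ≠ j ∧ l ≠ k := by
  by_contra hcon
  push Not at hcon
  have h1 : (Finset.univ : Finset (Fin n)) ⊆ {i, j, k} := by
    intro l _
    rw [Finset.mem_insert, Finset.mem_insert, Finset.mem_singleton]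
    by_cases h : l = i
    · exact Or.inl h
    by_cases h' : l = j
    · exact Or.inr (Or.inl h')
    · exact Or.inr (Or.inr (hcon l h h'))
  have h2 := Finset.card_le_card h1
  rw [Finset.card_univ, Fintype.card_fin] at h2
  have h4 : ({i, j, k} : Finset (Fin n)).card ≤ 3 := Finset.card_le_three
  omega

theorem fifth (hn : 5 ≤ n) (i j k l : Fin n) : ∃ m, m ≠ i ∧ m ≠ j ∧ m ≠ k ∧ m ≠ l := by
  by_contra hcon
  push Not at hcon
  have h1 : (Finset.univ : Finset (Fin n)) ⊆ {i, j, k, l} := by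
    intro m _
    rw [Finset.mem_insert, Finset.mem_insert, Finset.mem_insert, Finset.mem_singleton]
    by_cases h : m = i
    · exact Or.inl h
    by_cases h' : m = j
    · exact Or.inr (Or.inl h')
    by_cases h'' : m = k
    · exact Or.inr (Or.inr (Or.inl h''))
    · exact Or.inr (Or.inr (Or.inr (hcon m h h' h'')))
  have h2 := Finset.card_le_card h1
  rw [Finset.card_univ, Fintype.card_fin] at h2
  have h4 : ({i, j, k, l} : Finset (Fin n)).card ≤ 4 := Finset.card_le_four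
  omega

/-- there are enough torus elements in rank two -/
def Big (n : ℕ) (K : Type*) [Field K] : Prop := 4 ≤ n ∨ ∃ r : Kˣ, r ^ 3 ≠ 1

include hc in
theorem C_row (hn : 3 ≤ n) (hb : Big n K) {i j k : Fin n} (h : i ≠ j) (h' : i ≠ k) (hjk : j ≠ k) (a b : K) :
    cm hσ (TT h a) (TT h' b) = 1 := by
  rcases hb with hn4 | ⟨r, hr⟩
  · obtain ⟨l, hli, hlj, hlk⟩ := fourth hn4 i j k
    have e1 := TT_commutator (K := K) hli.symm hlj h a 1
    rw [mul_one] at e1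
    rw [e1]
    exact cm_eq_one hσ hc (TT_comm _ _ hli h' a b) (TT_comm _ _ h.symm hlk 1 b)
  · obtain ⟨t, ht, t1, t2, t3⟩ := exists_dg h' h hjk.symm r r
    refine B_van hσ hc h h' h.symm h' t ht ?_ (by rw [t1, t2]) a b
    rw [t1, t3]
    intro h0
    apply hr
    rw [eq_inv_iff_mul_eq_one] at h0
    rw [← h0]
    simp only [pow_succ, pow_zero, one_mul, mul_assoc]

include hc in
theorem C_col (hn : 3 ≤ n) (hb : Big n K) {i j k : Fin n} (h : i ≠ j) (h' : k ≠ j) (hik : i ≠ k) (a b : K) :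
    cm hσ (TT h a) (TT h' b) = 1 := by
  rcases hb with hn4 | ⟨r, hr⟩
  · obtain ⟨l, hli, hlj, hlk⟩ := fourth hn4 i j k
    have e1 := TT_commutator (K := K) hli.symm hlj h a 1
    rw [mul_one] at e1
    rw [e1]
    exact cm_eq_one hσ hc (TT_comm _ _ hlk h a b) (TT_comm _ _ h'.symm hlj 1 b)
  · obtain ⟨t, ht, t1, t2, t3⟩ := exists_dg h' hik.symm h.symm r r
    refine B_van hσ hc h h' h'.symm h t ht ?_ (by rw [t1, t2]) a b
    rw [t2, t3]
    intro h0
    apply hr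
    rw [inv_eq_iff_mul_eq_one] at h0
    rw [← h0]
    simp only [pow_succ, pow_zero, one_mul, mul_assoc]

end CfsgLib.SLn
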