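import Cfsg.Agent.LibSLn7
import Cfsg.Agent.LibMul1

set_option autoImplicit false
set_option maxHeartbeats 1000000

/-! The Schur multiplier of `SL_n(q)`, `n ≥ 3`. -/

namespace CfsgLib.SLn

open Matrix CfsgLib.SuzM

variable {n : ℕ} {K : Type*} [Field K]
variable {Γ : Type*} [Group Γ] {σ : Γ →* SpecialLinearGroup (Fin n) K} (hσ : Function.Surjective σ)
  (hc : σ.ker ≤ Subgroup.center Γ)

include hc in
/-- the relation between disjoint root pairs -/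
theorem star (hn4 : 4 ≤ n) {i j k l : Fin n} (hij : i ≠ j) (hik : i ≠ k) (hil : i ≠ l) (hjk : j ≠ k) (hjl : j ≠ l)
    (hkl : k ≠ l) (a b : K) :
    cm hσ (TT hij b) (TT hkl a) = cm hσ (TT hjk.symm (-(a * b))) (TT hil 1) := by
  have hn : 3 ≤ n := by omega
  obtain ⟨X, hX⟩ := hσ (TT hik.symm a)
  obtain ⟨Y, hY⟩ := hσ (TT hil (1 : K))
  obtain ⟨Z, hZ⟩ := hσ (TT hij b)
  have e1 : σ (X * Y * X⁻¹ * Y⁻¹) = TT hkl a := by
    have := TT_commutator (K := K) hik.symm hil hkl a 1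
    rw [mul_one] at this
    rw [this]
    simp only [map_mul, map_inv, hX, hY]
  -- Z and Y commute
  have hZY : Z * Y = Y * Z := comm_of_cm hσ hc (C_row hσ hc hn (Or.inl hn4) hij hil hjl b 1) hZ hY
  -- D
  obtain ⟨D, hD⟩ : ∃ D, D = Z * X * Z⁻¹ * X⁻¹ := ⟨_, rfl⟩
  have hσD : σ D = TT hjk.symm (-(a * b)) := by
    rw [hD]
    simp only [map_mul, map_inv, hX, hZ]
    have h1 := ((taut (K := K) hn).sc3 hij hik.symm hjk.symm b a).eq
    rw [taut_x _ hij, taut_x _ hik.symm, taut_x _ hjk.symm] at h1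
    rw [h1]; group
  have hDX : Z * X * Z⁻¹ = D * X := by rw [hD]; group
  -- D commutes with [X,Y]
  have hD2 : D * (X * Y * X⁻¹ * Y⁻¹) = (X * Y * X⁻¹ * Y⁻¹) * D :=
    comm_of_cm hσ hc (C_row hσ hc hn (Or.inl hn4) hjk.symm hkl hjl _ _) hσD e1
  rw [← cm_eq hσ hc hZ e1, ← cm_eq hσ hc hσD hY]
  have hcen : ∀ w, w * (D * Y * D⁻¹ * Y⁻¹) = (D * Y * D⁻¹ * Y⁻¹) * w := by
    intro w
    rw [cm_eq hσ hc hσD hY]
    exact cm_central hσ hc (TT_comm _ _ hij.symm hkl _ _) w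
  calc Z * (X * Y * X⁻¹ * Y⁻¹) * Z⁻¹ * (X * Y * X⁻¹ * Y⁻¹)⁻¹
      = (Z * X * Z⁻¹) * (Z * Y * Z⁻¹) * (Z * X * Z⁻¹)⁻¹ * (Z * Y * Z⁻¹)⁻¹ * (X * Y * X⁻¹ * Y⁻¹)⁻¹ := by group
    _ = (D * X) * Y * (D * X)⁻¹ * Y⁻¹ * (X * Y * X⁻¹ * Y⁻¹)⁻¹ := by
        rw [hDX, hZY, mul_inv_cancel_right]
    _ = (D * (X * Y * X⁻¹ * Y⁻¹)) * D⁻¹ * (D * Y * D⁻¹ * Y⁻¹) * (X * Y * X⁻¹ * Y⁻¹)⁻¹ := by group
    _ = (X * Y * X⁻¹ * Y⁻¹) * (D * Y * D⁻¹ * Y⁻¹) * (X * Y * X⁻¹ * Y⁻¹)⁻¹ := by rw [hD2]; group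
    _ = D * Y * D⁻¹ * Y⁻¹ := by rw [hcen]; group

include hc in
theorem C_disj (hn4 : 4 ≤ n) (hb : 5 ≤ n ∨ (2 : K) ≠ 0 ∨ ∃ r : Kˣ, r ^ 2 ≠ 1) {i j k l : Fin n} (hij : i ≠ j) (hik : i ≠ k)
    (hil : i ≠ l) (hjk : j ≠ k) (hjl : j ≠ l) (hkl : k ≠ l) (a b : K) : cm hσ (TT hij a) (TT hkl b) = 1 := by
  have hn : 3 ≤ n := by omega
  rcases hb with h5 | h2 | ⟨r, hr⟩
  · obtain ⟨m, hmi, hmj, hmk, hml⟩ := fifth h5 i j k l
    have e1 := TT_commutator (K := K) hmi.symm hmj hij a 1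
    rw [mul_one] at e1
    rw [e1]
    exact cm_eq_one hσ hc (TT_comm _ _ hmk hil a b) (TT_comm _ _ hjk hml 1 b)
  · -- B(b,a) = B'(ab,1)
    have s1 : ∀ a b, cm hσ (TT hij b) (TT hkl a) = cm hσ (TT hij (a * b)) (TT hkl 1) := by
      intro a b
      rw [star hσ hc hn4 hij hik hil hjk hjl hkl a b, star hσ hc hn4 hjk.symm hik.symm hkl hij.symm hjl hil 1 (-(a * b))]
      congr 2
      ring
    have s2 : ∀ a b, cm hσ (TT hjk.symm a) (TT hil b) = cm hσ (TT hij (-(b * a))) (TT hkl 1) :=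
      fun a b => star hσ hc hn4 hjk.symm hik.symm hkl hij.symm hjl hil b a
    have s3 : ∀ a b, cm hσ (TT hij b) (TT hkl a) = cm hσ (TT hil (-b)) (TT hjk.symm a) := by
      intro a b
      obtain ⟨w, hw⟩ := hσ ((taut (K := K) hn).w j l ((1 : Kˣ) : K))
      have e1 := cm_conj hσ hc (g := TT hij b) (h := TT hkl a) hw
      have h1 := ((taut (K := K) hn).w_x hjl 1 hij b).eq
      have h2 := ((taut (K := K) hn).w_x hjl 1 hkl a).eq
      rw [Equiv.swap_apply_of_ne_of_ne hij hil, Equiv.swap_apply_left, taut_x _ hij, taut_x _ hil, ← mul_inv_eq_iff_eq_mul] at h1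
      rw [Equiv.swap_apply_of_ne_of_ne hjk.symm hkl, Equiv.swap_apply_right, taut_x _ hkl, taut_x _ hjk.symm, ← mul_inv_eq_iff_eq_mul] at h2
      rw [h1, h2] at e1
      have c1 : ((StG.cf j l (1 : Kˣ) i : Kˣ) : K) * b * (((StG.cf j l (1 : Kˣ) j)⁻¹ : Kˣ) : K) = -b := by
        unfold StG.cf
        rw [if_neg hij, if_neg hil, if_pos rfl]
        simp
      have c2 : ((StG.cf j l (1 : Kˣ) k : Kˣ) : K) * a * (((StG.cf j l (1 : Kˣ) l)⁻¹ : Kˣ) : K) = a := by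
        unfold StG.cf
        rw [if_neg hjk.symm, if_neg hkl, if_neg hjl.symm, if_pos rfl]
        simp
      rw [c1, c2] at e1
      rw [← e1, cm_central hσ hc (TT_comm _ _ hjk hil b a) w, mul_inv_cancel_right]
    have s4 : ∀ a b, cm hσ (TT hij b) (TT hkl a) * cm hσ (TT hij b) (TT hkl a) = 1 := by
      intro a b
      have e1 := s3 a b
      rw [cm_symm hσ hc (TT hjk.symm a) (TT hil (-b)), s2 a (-b)] at e1
      have e2 : -(-b * a) = a * b := by ring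
      rw [e2, ← s1] at e1
      exact mul_eq_one_iff_eq_inv.2 e1
    have s5 : a = a / 2 + a / 2 := by
      field_simp
      ring
    rw [s5, B_add_left hσ hc hij hkl hjk hil, s4]
  · obtain ⟨t, ht, t1, t2, t3⟩ := exists_dg hij hik hjk r r⁻¹
    have h1 : t k = 1 := by rw [t3, mul_inv_cancel, inv_one]
    obtain ⟨t', ht', t1', t2', t3', t4'⟩ : ∃ t' : Fin n → Kˣ, ∏ k, t' k = 1 ∧ t' i = r ∧ t' j = r⁻¹ ∧ t' k = 1 ∧ t' l = 1 := by
      refine ⟨fun m => (Pi.mulSingle i r : Fin n → Kˣ) m * (Pi.mulSingle j r⁻¹ : Fin n → Kˣ) m, ?_, ?_, ?_, ?_, ?_⟩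
      · rw [Finset.prod_mul_distrib]
        simp [Pi.mulSingle_apply]
      · simp [Pi.mulSingle_apply, hij]
      · simp [Pi.mulSingle_apply, hij.symm]
      · simp [Pi.mulSingle_apply, hik.symm, hjk.symm]
      · simp [Pi.mulSingle_apply, hil.symm, hjl.symm]
    refine B_van hσ hc hij hkl hjk hil t' ht' ?_ (by rw [t3', t4']) a b
    rw [t1', t2']
    intro h0
    apply hr
    rw [eq_inv_iff_mul_eq_one] at h0
    rw [pow_two]; exact h0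

/-- lifts with the right commutators give a splitting -/
theorem ker_bot_of_lifts [Finite K] (hn : 3 ≤ n) (hcm : σ.ker ≤ commutator Γ)
    (hC : ∀ i j k l, ∀ h : i ≠ j, ∀ h' : k ≠ l, j ≠ k → i ≠ l → ∀ a b, cm hσ (TT (K := K) h a) (TT h' b) = 1)
    (y : Fin n → Fin n → K → Γ) (hy : ∀ i j, ∀ h : i ≠ j, ∀ a, σ (y i j a) = TT h a)
    (hadd : ∀ i j, i ≠ j → ∀ a b, y i j (a + b) = y i j a * y i j b)
    (hG : ∀ i j k, ∀ h1 : i ≠ j, ∀ h2 : j ≠ k, i ≠ k → ∀ a b, cm hσ (TT h1 a) (TT h2 b) = y i k (a * b))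
    (hc : σ.ker ≤ Subgroup.center Γ) : σ.ker = ⊥ := by
  have hinj := inj_of_rel hn σ y hadd
    (fun i j k l h h' h1 h2 a b => comm_of_cm hσ hc (hC i j k l h h' h1 h2 a b) (hy i j h a) (hy k l h' b))
    (fun i j k h1 h2 h3 a b => by
      have e1 := cm_eq hσ hc (hy i j h1 a) (hy j k h2 b)
      rw [hG i j k h1 h2 h3] at e1
      rw [← e1]; group)
    hy
  rw [eq_bot_iff]
  intro z hz
  rw [Subgroup.mem_bot]
  refine hinj z ?_ hz
  have hall : ∀ g : Γ, ∃ g0 ∈ Subgroup.closure {z | ∃ i j, i ≠ j ∧ ∃ a, z = y i j a}, σ g0 = σ g := by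
    intro g
    have h1 : (Subgroup.closure {z | ∃ i j, i ≠ j ∧ ∃ a, z = y i j a}).map σ = ⊤ := by
      rw [eq_top_iff, ← TT_gen (K := K) (n := n) (by omega), Subgroup.closure_le]
      rintro _ ⟨i, j, h, a, rfl⟩
      exact ⟨y i j a, Subgroup.subset_closure ⟨i, j, h, a, rfl⟩, hy i j h a⟩
    have h2 : σ g ∈ (Subgroup.closure {z | ∃ i j, i ≠ j ∧ ∃ a, z = y i j a}).map σ := by rw [h1]; trivial
    obtain ⟨g0, h3, h4⟩ := h2
    exact ⟨g0, h3, h4⟩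
  have hle : commutator Γ ≤ Subgroup.closure {z | ∃ i j, i ≠ j ∧ ∃ a, z = y i j a} := by
    rw [_root_.commutator_def, Subgroup.commutator_le]
    intro g _ h _
    obtain ⟨g0, hg0, hg1⟩ := hall g
    obtain ⟨h0, hh0, hh1⟩ := hall h
    rw [commutatorElement_def, comm_lift hc hg1.symm hh1.symm]
    exact Subgroup.mul_mem _ (Subgroup.mul_mem _ (Subgroup.mul_mem _ hg0 hh0) (Subgroup.inv_mem _ hg0)) (Subgroup.inv_mem _ hh0)
  exact hle (hcm hz)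

end CfsgLib.SLn
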