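import Cfsg.Agent.LibSLn8

set_option autoImplicit false
set_option maxHeartbeats 1000000

/-! The Schur multiplier of `SL_n(q)`, `n ≥ 3`. -/

namespace CfsgLib.SLn

open Matrix CfsgLib.SuzM

variable {n : ℕ} {K : Type*} [Field K]
variable {Γ : Type*} [Group Γ] {σ : Γ →* SpecialLinearGroup (Fin n) K} (hσ : Function.Surjective σ)
  (hc : σ.ker ≤ Subgroup.center Γ)

/-- all commuting root pairs have commuting lifts -/
def AllC : Prop := ∀ i j k l, ∀ h : i ≠ j, ∀ h' : k ≠ l, j ≠ k → i ≠ l → ∀ a b,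
  cm hσ (TT (K := K) h a) (TT h' b) = 1

/-- the excluded cases are (3,2), (3,4), (4,2) -/
def Cond (n : ℕ) (K : Type*) [Field K] : Prop :=
  (n = 3 ∧ ∃ r : Kˣ, r ^ 3 ≠ 1) ∨ (n = 4 ∧ ((2 : K) ≠ 0 ∨ ∃ r : Kˣ, r ^ 2 ≠ 1)) ∨ 5 ≤ n

include hc in
theorem allC (hcond : Cond n K) : AllC hσ := by
  have hn : 3 ≤ n := by rcases hcond with h | h | h <;> omega
  have hb : Big n K := by
    rcases hcond with h | h | h
    · exact Or.inr h.2
    · exact Or.inl (by omega)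
    · exact Or.inl (by omega)
  intro i j k l h h' h1 h2 a b
  by_cases hik : i = k
  · subst hik
    by_cases hjl : j = l
    · subst hjl
      exact C_same hσ hc hn h a b
    · exact C_row hσ hc hn hb h h' hjl a b
  · by_cases hjl : j = l
    · subst hjl
      exact C_col hσ hc hn hb h h' hik a b
    · rcases hcond with h3 | h4 | h5
      · exfalso
        have hn3 := h3.1
        subst hn3
        have a1 : (i : ℕ) ≠ j := fun e => h (Fin.ext e)
        have a2 : (i : ℕ) ≠ k := fun e => hik (Fin.ext e)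
        have a3 : (i : ℕ) ≠ l := fun e => h2 (Fin.ext e)
        have a4 : (j : ℕ) ≠ k := fun e => h1 (Fin.ext e)
        have a5 : (j : ℕ) ≠ l := fun e => hjl (Fin.ext e)
        have a6 : (k : ℕ) ≠ l := fun e => h' (Fin.ext e)
        omega
      · exact C_disj hσ hc (by omega) (Or.inr h4.2) h hik h2 h1 hjl h' a b
      · exact C_disj hσ hc (by omega) (Or.inl h5) h hik h2 h1 hjl h' a b

include hc in
/-- change of the middle index -/
theorem G_change (hA : AllC hσ) {i j k l : Fin n} (hij : i ≠ j) (hik : i ≠ k) (hil : i ≠ l) (hjk : j ≠ k) (hjl : j ≠ l)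
    (hkl : k ≠ l) (t u : K) : cm hσ (TT hij t) (TT hjk u) = cm hσ (TT hil (t * u)) (TT hkl.symm 1) := by
  obtain ⟨a, ha⟩ := hσ (TT hij t)
  obtain ⟨b, hb⟩ := hσ (TT hjl u)
  obtain ⟨c, hc'⟩ := hσ (TT hkl.symm (1 : K))
  obtain ⟨D, hD⟩ : ∃ D, D = a * b * a⁻¹ * b⁻¹ := ⟨_, rfl⟩
  obtain ⟨E, hE⟩ : ∃ E, E = b * c * b⁻¹ * c⁻¹ := ⟨_, rfl⟩
  obtain ⟨F, hF⟩ : ∃ F, F = D * c * D⁻¹ * c⁻¹ := ⟨_, rfl⟩
  have hσD : σ D = TT hil (t * u) := by
    rw [hD, TT_commutator hij hjl hil]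
    simp only [map_mul, map_inv, ha, hb]
  have hσE : σ E = TT hjk u := by
    have := TT_commutator hjl hkl.symm hjk u 1
    rw [mul_one] at this
    rw [hE, this]
    simp only [map_mul, map_inv, hc', hb]
  have hσF : σ F = TT hik (t * u) := by
    have := TT_commutator hil hkl.symm hik (t * u) 1
    rw [mul_one] at this
    rw [hF, this]
    simp only [map_mul, map_inv, hc', hσD]
  have hac : a * c = c * a := comm_of_cm hσ hc (hA i j l k hij hkl.symm hjl hik t 1) ha hc'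
  have hDE : D * E = E * D := comm_of_cm hσ hc (hA i l j k hil hjk hjl.symm hik _ _) hσD hσE
  have hFE : F * E = E * F := comm_of_cm hσ hc (hA i k j k hik hjk hjk.symm hik _ _) hσF hσE
  rw [← cm_eq hσ hc ha hσE, ← cm_eq hσ hc hσD hc', ← hF]
  have e1 : a * b * a⁻¹ = D * b := by rw [hD]; group
  have e2 : a * c * a⁻¹ = c := by rw [hac, mul_inv_cancel_right]
  have e3 : b * c * b⁻¹ = E * c := by rw [hE]; group
  calc a * E * a⁻¹ * E⁻¹ = (a * b * a⁻¹) * (a * c * a⁻¹) * (a * b * a⁻¹)⁻¹ * (a * c * a⁻¹)⁻¹ * E⁻¹ := by rw [hE]; group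
    _ = (D * b) * c * (D * b)⁻¹ * c⁻¹ * E⁻¹ := by rw [e1, e2]
    _ = D * (b * c * b⁻¹) * D⁻¹ * c⁻¹ * E⁻¹ := by group
    _ = (D * E) * c * D⁻¹ * c⁻¹ * E⁻¹ := by rw [e3]; group
    _ = E * (D * c * D⁻¹ * c⁻¹) * E⁻¹ := by rw [hDE]; group
    _ = F := by rw [← hF, ← hFE, mul_inv_cancel_right]

include hc in
theorem G_add (hA : AllC hσ) {i j k : Fin n} (hij : i ≠ j) (hjk : j ≠ k) (hik : i ≠ k) (a a' b : K) :
    cm hσ (TT hij (a + a')) (TT hjk b) = cm hσ (TT hij a') (TT hjk b) * cm hσ (TT hij a) (TT hjk b) := by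
  rw [TT_add]
  apply cm_mul_left hσ hc
  intro w hw
  have e1 : σ (cm hσ (TT hij a') (TT hjk b)) = TT hik (a' * b) := by rw [map_cm, ← TT_commutator hij hjk hik]
  exact comm_of_cm hσ hc (hA i j i k hij hik hij.symm hik _ _) hw e1

include hc in
theorem lifts_four (hn4 : 4 ≤ n) (hA : AllC hσ) : ∃ y : Fin n → Fin n → K → Γ,
    (∀ i j, ∀ h : i ≠ j, ∀ a, σ (y i j a) = TT h a) ∧
    (∀ i j, i ≠ j → ∀ a b, y i j (a + b) = y i j a * y i j b) ∧
    (∀ i j k, ∀ h1 : i ≠ j, ∀ h2 : j ≠ k, i ≠ k → ∀ a b, cm hσ (TT h1 a) (TT h2 b) = y i k (a * b)) := by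
  have hn : 3 ≤ n := by omega
  choose J hJ using fun (i k : Fin n) => (taut (K := K) hn).third i k
  have hG : ∀ i j k, ∀ h1 : i ≠ j, ∀ h2 : j ≠ k, i ≠ k → ∀ a b : K, cm hσ (TT h1 a) (TT h2 b) =
      cm hσ (TT (hJ i k).1.symm (a * b)) (TT (hJ i k).2 1) := by
    intro i j k h1 h2 h3 a b
    by_cases hj : j = J i k
    · obtain ⟨l, hli, hlk, hlj⟩ := fourth hn4 i k j
      rw [G_change hσ hc hA h1 h3 hli.symm h2 hlj.symm hlk.symm a b]
      have h4 : k ≠ J i k := (hJ i k).2.symm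
      have h5 : l ≠ J i k := by rw [← hj]; exact hlj
      have := G_change hσ hc hA hli.symm h3 (hJ i k).1.symm hlk h5 h4 (a * b) 1
      rw [mul_one] at this
      exact this
    · exact G_change hσ hc hA h1 h3 (hJ i k).1.symm h2 hj (hJ i k).2.symm a b
  refine ⟨fun i k t => cm hσ (TT (hJ i k).1.symm t) (TT (hJ i k).2 1), ?_, ?_, ?_⟩
  · intro i j h a
    have := TT_commutator (hJ i j).1.symm (hJ i j).2 h a 1
    rw [mul_one] at this
    rw [map_cm, ← this]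
  · intro i j h a b
    have e1 := G_add hσ hc hA (hJ i j).1.symm (hJ i j).2 h b a 1
    rw [add_comm b a] at e1
    exact e1
  · intro i j k h1 h2 h3 a b
    exact hG i j k h1 h2 h3 a b

include hc in
theorem lifts_three (hn : 3 ≤ n) (r : Kˣ) (hr : r ^ 3 ≠ 1) (hA : AllC hσ) : ∃ y : Fin n → Fin n → K → Γ,
    (∀ i j, ∀ h : i ≠ j, ∀ a, σ (y i j a) = TT h a) ∧
    (∀ i j, i ≠ j → ∀ a b, y i j (a + b) = y i j a * y i j b) ∧
    (∀ i j k, ∀ h1 : i ≠ j, ∀ h2 : j ≠ k, i ≠ k → ∀ a b, cm hσ (TT h1 a) (TT h2 b) = y i k (a * b)) := by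
  have hr1 : r ≠ 1 := by rintro rfl; exact hr (one_pow 3)
  have hr2 : (r : K) - 1 ≠ 0 := by
    intro h
    apply hr1
    apply Units.ext
    rw [Units.val_one]
    linear_combination h
  have hT : ∀ i j : Fin n, i ≠ j → ∃ t : Fin n → Kˣ, ∏ k, t k = 1 ∧ t i = r ∧ t j = 1 := by
    intro i j h
    obtain ⟨l, hli, hlj⟩ := (taut (K := K) hn).third i j
    obtain ⟨t, h1, h2, h3, -⟩ := exists_dg h hli.symm hlj.symm r 1
    exact ⟨t, h1, h2, h3⟩
  choose T hT1 hT2 hT3 using hT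
  obtain ⟨y, hydef⟩ : ∃ y : Fin n → Fin n → K → Γ, ∀ i j, ∀ h : i ≠ j, ∀ a,
      y i j a = cm hσ (dg (T i j h) (hT1 i j h)) (TT h (a / ((r : K) - 1))) := by
    refine ⟨fun i j a => if h : i ≠ j then cm hσ (dg (T i j h) (hT1 i j h)) (TT h (a / ((r : K) - 1))) else 1, ?_⟩
    intro i j h a
    simp only
    rw [dif_pos h]
  have hy : ∀ i j, ∀ h : i ≠ j, ∀ a, σ (y i j a) = TT h a := by
    intro i j h a
    rw [hydef i j h, map_cm, dg_conj, hT2, hT3, mul_inv_eq_iff_eq_mul, ← TT_add]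
    congr 1
    rw [inv_one, Units.val_one, mul_one]
    field_simp
    ring
  have hadd : ∀ i j, i ≠ j → ∀ a b, y i j (a + b) = y i j a * y i j b := by
    intro i j h a b
    rw [hydef i j h, hydef i j h, hydef i j h, add_div, TT_add]
    apply cm_mul_right hσ hc
    intro w hw
    rw [← hydef i j h]
    exact comm_of_cm hσ hc (hA i j i j h h h.symm h _ _) hw (hy i j h b)
  refine ⟨y, hy, hadd, ?_⟩
  intro i j k h1 h2 h3 a b
  -- the defect
  obtain ⟨f, hf⟩ : ∃ f : K → Γ, ∀ a, f a = cm hσ (TT h1 a) (TT h2 b) * (y i k (a * b))⁻¹ := ⟨_, fun _ => rfl⟩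
  have hfc : ∀ a w, w * f a = f a * w := by
    intro a w
    refine Subgroup.mem_center_iff.1 (hc ?_) w
    rw [MonoidHom.mem_ker, hf, map_mul, map_inv, map_cm, ← TT_commutator h1 h2 h3, hy i k h3, mul_inv_cancel]
  have hfadd : ∀ a a', f (a + a') = f a * f a' := by
    intro a a'
    have e1 := G_add hσ hc hA h1 h2 h3 a a' b
    have e2 : cm hσ (TT h1 a) (TT h2 b) = f a * y i k (a * b) := by rw [hf]; group
    have e3 : y i k (a * b) * (y i k (a' * b))⁻¹ = (y i k (a' * b))⁻¹ * y i k (a * b) := by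
      have := comm_of_cm hσ hc (hA i k i k h3 h3 h3.symm h3 _ _) (hy i k h3 (a * b)) (hy i k h3 (a' * b))
      rw [eq_inv_mul_iff_mul_eq, ← mul_assoc, ← this, mul_inv_cancel_right]
    rw [hf (a + a'), e1, add_mul, hadd i k h3, e2, _root_.mul_inv_rev]
    calc cm hσ (TT h1 a') (TT h2 b) * (f a * y i k (a * b)) * ((y i k (a' * b))⁻¹ * (y i k (a * b))⁻¹)
        = (cm hσ (TT h1 a') (TT h2 b) * f a) * (y i k (a * b) * (y i k (a' * b))⁻¹) * (y i k (a * b))⁻¹ := by group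
      _ = f a * (cm hσ (TT h1 a') (TT h2 b) * (y i k (a' * b))⁻¹) := by rw [e3, hfc]; group
      _ = f a * f a' := by rw [hf a']
  obtain ⟨t, ht, t1, t2, t3⟩ := exists_dg h2 h1.symm h3.symm r r
  obtain ⟨α, hα⟩ : ∃ α : Kˣ, α = (r * r)⁻¹ * r⁻¹ := ⟨_, rfl⟩
  have hα1 : (α : K) - 1 ≠ 0 := by
    intro h
    apply hr
    have h4 : α = 1 := Units.ext (by rw [Units.val_one]; linear_combination h)
    rw [hα, ← _root_.mul_inv_rev, inv_eq_one] at h4
    rw [← h4]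
    simp only [pow_succ, pow_zero, one_mul, mul_assoc]
  have hinv : ∀ a, f a = f (α * a) := by
    intro a
    obtain ⟨w, hw⟩ := hσ (dg t ht)
    have e1 := cm_conj hσ hc (g := TT h1 a) (h := TT h2 b) hw
    rw [dg_conj, dg_conj, t1, t2, t3] at e1
    have c1 : (((r * r)⁻¹ : Kˣ) : K) * a * ((r⁻¹ : Kˣ) : K) = (α : K) * a := by rw [hα]; push_cast; ring
    have c2 : (r : K) * b * ((r⁻¹ : Kˣ) : K) = b := by
      have := r.ne_zero
      push_cast
      field_simp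
    rw [c1, c2] at e1
    have e2 := cm_conj hσ hc (g := dg (T i k h3) (hT1 i k h3)) (h := TT h3 ((a * b) / ((r : K) - 1))) hw
    rw [dg_conj, dg_comm, t2, t3] at e2
    have c3 : (((r * r)⁻¹ : Kˣ) : K) * (a * b / ((r : K) - 1)) * ((r⁻¹ : Kˣ) : K) = (α : K) * a * b / ((r : K) - 1) := by
      rw [hα]; push_cast; ring
    rw [c3, ← hydef i k h3, ← hydef i k h3] at e2
    rw [hf (α * a), ← e1, ← e2]
    have e3 : w * cm hσ (TT h1 a) (TT h2 b) * w⁻¹ * (w * y i k (a * b) * w⁻¹)⁻¹ = w * f a * w⁻¹ := by rw [hf a]; group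
    rw [e3, hfc a w, mul_inv_cancel_right]
  have hz : ∀ a, f (((α : K) - 1) * a) = 1 := by
    intro a
    have e1 := hinv a
    have e2 : (α : K) * a = a + ((α : K) - 1) * a := by ring
    rw [e2, hfadd] at e1
    exact mul_eq_left.1 e1.symm
  have e4 := hz (((α : K) - 1)⁻¹ * a)
  rw [mul_inv_cancel_left₀ hα1, hf, mul_inv_eq_one] at e4
  exact e4

/-- the multiplier of `SL_n(q)` is trivial -/
theorem ker_bot [Finite K] (hcond : Cond n K) (hst : Cfsg.IsStemExtension σ) : σ.ker = ⊥ := by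
  obtain ⟨hσ, hc, hcm⟩ := hst
  have hn : 3 ≤ n := by rcases hcond with h | h | h <;> omega
  have hA := allC hσ hc hcond
  have hex : ∃ y : Fin n → Fin n → K → Γ,
      (∀ i j, ∀ h : i ≠ j, ∀ a, σ (y i j a) = TT h a) ∧
      (∀ i j, i ≠ j → ∀ a b, y i j (a + b) = y i j a * y i j b) ∧
      (∀ i j k, ∀ h1 : i ≠ j, ∀ h2 : j ≠ k, i ≠ k → ∀ a b, cm hσ (TT h1 a) (TT h2 b) = y i k (a * b)) := by
    rcases hcond with h | h | h
    · obtain ⟨r, hr⟩ := h.2
      exact lifts_three hσ hc hn r hr hA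
    · exact lifts_four hσ hc (by omega) hA
    · exact lifts_four hσ hc (by omega) hA
  obtain ⟨y, hy, hadd, hG⟩ := hex
  exact ker_bot_of_lifts hσ hn hcm hA y hy hadd hG hc

end CfsgLib.SLn
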