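import Cfsg.Agent.LibStU3
import Cfsg.Agent.LibChevCent

/-! Schur multipliers of Chevalley groups, 1: lifting Steinberg's relations to central extensions, simply laced case (lead). -/

set_option autoImplicit false
set_option linter.unusedSectionVars false

namespace CfsgLib.Chev

open Cfsg.Lie Matrix

/-- simply laced check -/
noncomputable def Tb.chkSL (T : Tb) : Bool := (List.range T.l).all fun i => (List.range T.n).all fun s =>
  decide (T.pair s (T.sim i) = T.A i s) &&
    (Nat.beq s (T.sim i) || Nat.beq s (T.n - 1 - T.sim i) || (decide (-1 ≤ T.A i s) && decide (T.A i s ≤ 1)))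

def isPm (L : List (ℕ × ℤ × ℕ × ℕ)) (c : ℕ) : Bool :=
  match L with
  | [x] => Nat.beq x.1 c && (Nat.beq x.2.2.1 1 && (Nat.beq x.2.2.2 1 && (decide (x.2.1 = 1) || decide (x.2.1 = -1))))
  | _ => false

theorem isPm_sound {L : List (ℕ × ℤ × ℕ × ℕ)} {c : ℕ} (h : isPm L c = true) : L = [(c, 1, 1, 1)] ∨ L = [(c, -1, 1, 1)] := by
  match L, h with
  | [(x1, x2, x3, x4)], h =>
    simp only [isPm, Bool.and_eq_true, Bool.or_eq_true, Nat.beq_eq, decide_eq_true_eq] at h
    obtain ⟨h1, h2, h3, h4⟩ := h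
    rcases h4 with h4 | h4
    · left; rw [h1, h2, h3, h4]
    · right; rw [h1, h2, h3, h4]

noncomputable def Tb.chkK (T : Tb) : Bool := (List.range T.l).all fun i => (List.range T.n).all fun s =>
  !decide (T.A i s = -1) || isPm (Tb.commT T.ent s (T.sim i)) (T.w i s)

noncomputable def Tb.chkD1 (T : Tb) : Bool := (List.range T.l).all fun i => (List.range T.n).all fun s =>
  !decide (0 ≤ T.A i s) || (List.range T.n).any fun a => decide (T.A i a = 1) &&
    (decide (0 ≤ T.pair a s) && decide (T.pair a s ≤ T.A i s))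

noncomputable def Tb.chkD2 (T : Tb) : Bool := (List.range T.l).all fun i => (List.range T.n).any fun a0 =>
  decide (T.A i a0 = 1) && (List.range T.n).all fun a => !decide (T.A i a = 1) || (Nat.beq a a0 || (decide (T.pair a0 a = 1) ||
    (Nat.beq (T.n - 1 - T.w i a) a0 || (List.range T.n).any fun a2 => decide (T.A i a2 = 1) &&
      (decide (T.pair a0 a2 = 1) && decide (T.pair a2 a = 1)))))

noncomputable def Tb.chkD3 (T : Tb) : Bool := (List.range T.l).all fun i => (List.range T.n).all fun a =>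
  !decide (T.A i a = 1) || (List.range T.n).any fun a2 => decide (T.A i a2 = 1) && decide (T.pair a a2 = 1)

/-- the collected checks -/
structure SLOK (T : Tb) : Prop where
  sl : T.chkSL = true
  k : T.chkK = true
  d1 : T.chkD1 = true
  d2 : T.chkD2 = true
  d3 : T.chkD3 = true

/-- `c = a + b` for roots -/
def Sm (T : Tb) (a b c : ℕ) : Prop := ∀ j < T.l, T.v c j = T.v a j + T.v b j

namespace Good3

variable {D : ChevalleyDatum} {T : Tb} (g : Good3 D T)
include g

theorem sl_base (h : T.chkSL = true) {i s : ℕ} (hi : i < T.l) (hs : s < T.n) :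
    T.pair s (T.sim i) = T.A i s ∧ (s = T.sim i ∨ s = T.n - 1 - T.sim i ∨ (-1 ≤ T.A i s ∧ T.A i s ≤ 1)) := by
  unfold Tb.chkSL at h
  simp only [List.all_eq_true, List.mem_range, Bool.or_eq_true, Bool.and_eq_true, decide_eq_true_eq, Nat.beq_eq] at h
  have := h i hi s hs
  tauto

theorem sl_sym (h : T.chkSL = true) : ∀ r < T.n, ∀ s < T.n, T.pair r s = T.pair s r := by
  apply g.root_ind
  · intro i hi s hs
    rw [g.pair_sim hi, (g.sl_base h hi hs).1]
  · intro i hi r hr ih s hs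
    rw [← g.pair_w hi hr hs, ih _ (g.w_lt hi hs), g.pair_w hi hs hr]

theorem sl_rg (h : T.chkSL = true) : ∀ r < T.n, ∀ s < T.n, s ≠ r → s ≠ T.n - 1 - r → -1 ≤ T.pair r s ∧ T.pair r s ≤ 1 := by
  apply g.root_ind
  · intro i hi s hs h1 h2
    rw [g.pair_sim hi]
    rcases (g.sl_base h hi hs).2 with h3 | h3 | h3
    · exact absurd h3 h1
    · exact absurd h3 h2
    · exact h3
  · intro i hi r hr ih s hs h1 h2
    have := ih (T.w i s) (g.w_lt hi hs) (fun h => h1 (g.w_inj hi hs hr h)) (fun h => by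
      rw [← g.w_neg hi hr] at h
      exact h2 (g.w_inj hi hs (by omega) h))
    rwa [g.pair_w hi hr hs] at this

theorem sm_pair {a b c : ℕ} (h : Sm T a b c) (ha : a < T.n) (hb : b < T.n) (hc : c < T.n) (x : ℕ) :
    T.pair x c = T.pair x a + T.pair x b := by
  rw [g.pair_lin x ha, g.pair_lin x hb, g.pair_lin x hc, ← Finset.sum_add_distrib]
  apply Finset.sum_congr rfl
  intro j hj
  rw [h j (Finset.mem_range.1 hj)]; ring

theorem sm_A {a b c : ℕ} (h : Sm T a b c) (ha : a < T.n) (hb : b < T.n) (hc : c < T.n) {i : ℕ} (hi : i < T.l) :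
    T.A i c = T.A i a + T.A i b := by
  rw [g.A_eq ha hi, g.A_eq hb hi, g.A_eq hc hi, ← Finset.sum_add_distrib]
  apply Finset.sum_congr rfl
  intro j hj
  rw [h j (Finset.mem_range.1 hj)]; ring

theorem sm_w {a b c : ℕ} (h : Sm T a b c) (ha : a < T.n) (hb : b < T.n) (hc : c < T.n) {i : ℕ} (hi : i < T.l) :
    Sm T (T.w i a) (T.w i b) (T.w i c) := by
  intro j hj
  rw [g.v_w hi ha hj, g.v_w hi hb hj, g.v_w hi hc hj, h j hj, g.sm_A h ha hb hc hi]
  split_ifs <;> ring

theorem sm_w' {a b c : ℕ} (ha : a < T.n) (hb : b < T.n) (hc : c < T.n) {i : ℕ} (hi : i < T.l) (h : Sm T (T.w i a) (T.w i b) c) :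
    Sm T a b (T.w i c) := by
  have := g.sm_w h (g.w_lt hi ha) (g.w_lt hi hb) hc hi
  rwa [g.w_w hi ha, g.w_w hi hb] at this

omit g in
theorem sm_comm {a b c : ℕ} (h : Sm T a b c) : Sm T b a c := fun j hj => by rw [h j hj]; ring

theorem sm_uniq {a b c c' : ℕ} (h : Sm T a b c) (h' : Sm T a b c') (hc : c < T.n) (hc' : c' < T.n) : c = c' :=
  g.idx_ext hc hc' (fun j hj => by rw [h j hj, h' j hj])

theorem sm_uniq_r {a b b' c : ℕ} (h : Sm T a b c) (h' : Sm T a b' c) (hb : b < T.n) (hb' : b' < T.n) : b = b' :=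
  g.idx_ext hb hb' (fun j hj => by have := h j hj; rw [h' j hj] at this; linarith)

/-- exponents in the commutator formula, simply laced case -/
theorem sl_exp (h : T.chkSL = true) {r s : ℕ} (hr : r < T.n) (hs : s < T.n) (h1 : s ≠ r) (h2 : s ≠ T.n - 1 - r) :
    ∀ c ∈ Tb.commT T.ent r s, T.pair r s = -1 ∧ c.2.2.1 = 1 ∧ c.2.2.2 = 1 ∧ Sm T r s c.1 ∧ c.1 < T.n := by
  intro c hc
  have hcl := g.commT_lt hr hs c hc
  obtain ⟨hi1, hj1, hv⟩ := g.comm_v hr hs h1 h2 c hc
  have hpc := g.pair_comm hr hs h1 h2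
  have e0 : T.pair c.1 c.1 = 2 := g.pair_self hcl
  have e1 := hpc c.1 c hc
  have e2 := hpc r c hc
  have e3 := hpc s c hc
  rw [g.pair_self hr] at e2
  rw [g.pair_self hs, g.sl_sym h s hs r hr] at e3
  rw [e0, g.sl_sym h c.1 hcl r hr, g.sl_sym h c.1 hcl s hs, e2, e3] at e1
  obtain ⟨hl, hu⟩ := g.sl_rg h r hr s hs h1 h2
  set i : ℤ := (c.2.2.1 : ℤ) with hi
  set j : ℤ := (c.2.2.2 : ℤ) with hj
  set q := T.pair r s with hq
  have hi' : 1 ≤ i := by rw [hi]; exact_mod_cast hi1
  have hj' : 1 ≤ j := by rw [hj]; exact_mod_cast hj1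
  have hij : 1 ≤ i * j := by nlinarith
  have hq1 : q = -1 := by
    by_contra hne
    have hq0 : 0 ≤ q := by omega
    nlinarith [mul_nonneg (by linarith : (0 : ℤ) ≤ i * j) hq0]
  rw [hq1] at e1
  have h3 : (i - j) * (i - j) + i * j = 1 := by nlinarith
  have h4 : i * j = 1 := by nlinarith [mul_self_nonneg (i - j)]
  have h5 : i = 1 := by nlinarith
  have h6 : j = 1 := by rw [h5] at h4; linarith
  have h7 : c.2.2.1 = 1 := by rw [hi] at h5; exact_mod_cast h5
  have h8 : c.2.2.2 = 1 := by rw [hj] at h6; exact_mod_cast h6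
  refine ⟨hq1, h7, h8, ?_, hcl⟩
  intro k hk
  rw [hv k hk, h5, h6]; ring

variable {F : Type*} [Field F]

theorem sl_X_comm (h : T.chkSL = true) {r s : ℕ} (hr : r < T.n) (hs : s < T.n) (hp : 0 ≤ T.pair r s) (t u : F) :
    g.X s u * g.X r t = g.X r t * g.X s u := by
  by_cases h1 : s = r
  · subst h1
    rw [← g.X_add, ← g.X_add, add_comm]
  · have h2 : s ≠ T.n - 1 - r := by
      intro h2
      rw [h2, g.sl_sym h r hr _ (by omega), g.pair_neg_left hr, g.pair_self hr] at hp
      omega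
    rw [g.X_comm hr hs h1 h2]
    have : Tb.commT T.ent r s = [] := by
      apply List.eq_nil_iff_forall_not_mem.2
      intro c hc
      have := (g.sl_exp h hr hs h1 h2 c hc).1
      omega
    rw [this, List.map_nil, List.prod_nil, mul_one]

/-- the commutator of root elements at an obtuse angle -/
theorem sl_K (h : T.chkSL = true) (hK : T.chkK = true) : ∀ a < T.n, ∀ b < T.n, T.pair a b = -1 → ∃ c < T.n, Sm T a b c ∧
    ∃ κ : F, κ ≠ 0 ∧ ∀ t u : F, g.X a t * g.X b u * (g.X a t)⁻¹ * (g.X b u)⁻¹ = g.X c (κ * (t * u)) := by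
  apply g.root_ind
  · intro i hi b hb hp
    rw [g.pair_sim hi] at hp
    have hsl := g.sim_lt hi
    have hwl := g.w_lt hi hb
    have hsm : Sm T (T.sim i) b (T.w i b) := by
      intro j hj
      rw [g.v_w hi hb hj, g.v_sim hi hj, hp]
      by_cases e : j = i
      · rw [if_pos e, if_pos e.symm]; ring
      · rw [if_neg e, if_neg (Ne.symm e)]; ring
    have hne1 : T.sim i ≠ b := by
      intro e
      rw [← e, ← g.pair_sim hi, g.pair_self hsl] at hp
      omega
    have hne2 : T.sim i ≠ T.n - 1 - b := by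
      intro e
      have hb' : b = T.n - 1 - T.sim i := by omega
      rw [hb', g.A_neg hsl hi, ← g.pair_sim hi, g.pair_self hsl] at hp
      omega
    have h1 : isPm (Tb.commT T.ent b (T.sim i)) (T.w i b) = true := by
      unfold Tb.chkK at hK
      simp only [List.all_eq_true, List.mem_range, Bool.or_eq_true, Bool.not_eq_true', decide_eq_false_iff_not] at hK
      rcases hK i hi b hb with h2 | h2
      · exact absurd hp h2
      · exact h2
    refine ⟨T.w i b, hwl, hsm, ?_⟩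
    have hpa : 0 ≤ T.pair (T.w i b) (T.sim i) := by
      rw [g.sl_sym h _ hwl _ hsl, g.sm_pair hsm hsl hb hwl, g.pair_self hsl, g.pair_sim hi, hp]; norm_num
    have hpb : 0 ≤ T.pair (T.w i b) b := by
      rw [g.sl_sym h _ hwl _ hb, g.sm_pair hsm hsl hb hwl, g.pair_self hb, (g.sl_base h hi hb).1, hp]; norm_num
    have hX := fun (t u : F) => g.X_comm (F := F) hb hsl hne1 hne2 t u
    have key : ∀ d : ℤ, Tb.commT T.ent b (T.sim i) = [(T.w i b, d, 1, 1)] → ∀ t u : F,
        g.X (T.sim i) t * g.X b u * (g.X (T.sim i) t)⁻¹ * (g.X b u)⁻¹ = g.X (T.w i b) (-(d : F) * (t * u)) := by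
      intro d hd t u
      have e1 := hX u t
      rw [hd] at e1
      simp only [List.map_cons, List.map_nil, List.prod_cons, List.prod_nil, mul_one, pow_one] at e1
      rw [e1]
      have e2 : g.X (T.w i b) ((d : F) * -u * t) * (g.X (T.sim i) t)⁻¹ = (g.X (T.sim i) t)⁻¹ * g.X (T.w i b) ((d : F) * -u * t) := by
        rw [← g.X_neg]
        exact (g.sl_X_comm h hwl hsl hpa _ _).symm
      have e3 : g.X (T.w i b) ((d : F) * -u * t) * (g.X b u)⁻¹ = (g.X b u)⁻¹ * g.X (T.w i b) ((d : F) * -u * t) := by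
        rw [← g.X_neg]
        exact (g.sl_X_comm h hwl hb hpb _ _).symm
      calc g.X b u * g.X (T.sim i) t * g.X (T.w i b) ((d : F) * -u * t) * (g.X (T.sim i) t)⁻¹ * (g.X b u)⁻¹
          = g.X b u * g.X (T.sim i) t * (g.X (T.w i b) ((d : F) * -u * t) * (g.X (T.sim i) t)⁻¹) * (g.X b u)⁻¹ := by group
        _ = g.X b u * (g.X (T.w i b) ((d : F) * -u * t) * (g.X b u)⁻¹) := by rw [e2]; group
        _ = g.X (T.w i b) ((d : F) * -u * t) := by rw [e3]; group
        _ = _ := by congr 1; ring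
    rcases isPm_sound h1 with h2 | h2
    · exact ⟨-((1 : ℤ) : F), by simp, key 1 h2⟩
    · exact ⟨-((-1 : ℤ) : F), by simp, key (-1) h2⟩
  · intro i hi a ha ih b hb hp
    obtain ⟨c, hc, hsm, κ, hκ, hX⟩ := ih (T.w i b) (g.w_lt hi hb) (by rw [g.pair_w hi ha hb]; exact hp)
    refine ⟨T.w i c, g.w_lt hi hc, g.sm_w' ha hb hc hi hsm,
      ((T.eta i (T.w i c) : ℤ) : F) * (κ * ((T.eta i a : ℤ) : F) * ((T.eta i b : ℤ) : F)), ?_, ?_⟩
    · have he : ∀ s, ((T.eta i s : ℤ) : F) ≠ 0 := by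
        intro s h0
        have := Good.eta_cast_mul_self (T := T) (F := F) i s
        rw [h0, zero_mul] at this
        exact zero_ne_one this
      exact mul_ne_zero (he _) (mul_ne_zero (mul_ne_zero hκ (he _)) (he _))
    · intro t u
      have ea := g.nn_X_conj (F := F) hi ha t
      have eb := g.nn_X_conj (F := F) hi hb u
      have e := hX (((T.eta i a : ℤ) : F) * t) (((T.eta i b : ℤ) : F) * u)
      rw [← ea, ← eb] at e
      have e2 := g.nn_X_conj' (F := F) hi hc (κ * (((T.eta i a : ℤ) : F) * t * (((T.eta i b : ℤ) : F) * u)))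
      rw [← e] at e2
      have e3 : (g.nn i)⁻¹ * (g.nn i * g.X a t * (g.nn i)⁻¹ * (g.nn i * g.X b u * (g.nn i)⁻¹) * (g.nn i * g.X a t * (g.nn i)⁻¹)⁻¹ *
          (g.nn i * g.X b u * (g.nn i)⁻¹)⁻¹) * g.nn i = g.X a t * g.X b u * (g.X a t)⁻¹ * (g.X b u)⁻¹ := by group
      rw [e3] at e2
      rw [e2]
      congr 1
      ring

theorem sl_conn (h2 : T.chkD2 = true) : ∀ r < T.n, ∃ a0 < T.n, T.pair r a0 = 1 ∧ ∀ a < T.n, T.pair r a = 1 →
    a = a0 ∨ T.pair a0 a = 1 ∨ Sm T a a0 r ∨ ∃ a2 < T.n, T.pair r a2 = 1 ∧ T.pair a0 a2 = 1 ∧ T.pair a2 a = 1 := by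
  apply g.root_ind
  · intro i hi
    unfold Tb.chkD2 at h2
    rw [List.all_eq_true] at h2
    have h3 := h2 i (List.mem_range.2 hi)
    rw [List.any_eq_true] at h3
    obtain ⟨a0, ha0, h4⟩ := h3
    rw [List.mem_range] at ha0
    rw [Bool.and_eq_true, decide_eq_true_eq, List.all_eq_true] at h4
    refine ⟨a0, ha0, by rw [g.pair_sim hi]; exact h4.1, ?_⟩
    intro a ha hp
    rw [g.pair_sim hi] at hp
    have h5 := h4.2 a (List.mem_range.2 ha)
    rw [Bool.or_eq_true, Bool.or_eq_true, Bool.or_eq_true, Bool.or_eq_true, Bool.not_eq_true', decide_eq_false_iff_not, Nat.beq_eq,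
      decide_eq_true_eq, Nat.beq_eq, List.any_eq_true] at h5
    rcases h5 with h5 | h5 | h5 | h5 | ⟨a2, ha2, h5⟩
    · exact absurd hp h5
    · exact Or.inl h5
    · exact Or.inr (Or.inl h5)
    · right; right; left
      intro j hj
      have hwl := g.w_lt hi ha
      rw [← h5, g.v_neg hwl hj, g.v_w hi ha hj, hp, g.v_sim hi hj]
      by_cases e : j = i
      · rw [if_pos e, if_pos e.symm]; ring
      · rw [if_neg e, if_neg (Ne.symm e)]; ring
    · rw [Bool.and_eq_true, Bool.and_eq_true, decide_eq_true_eq, decide_eq_true_eq, decide_eq_true_eq] at h5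
      exact Or.inr (Or.inr (Or.inr ⟨a2, List.mem_range.1 ha2, by rw [g.pair_sim hi]; exact h5.1, h5.2.1, h5.2.2⟩))
  · intro i hi r hr ih
    obtain ⟨a0, ha0, hp0, hall⟩ := ih
    have hw0 := g.w_lt hi ha0
    refine ⟨T.w i a0, hw0, by rw [← g.pair_w hi hr hw0, g.w_w hi ha0]; exact hp0, ?_⟩
    intro a ha hp
    have hwa := g.w_lt hi ha
    rcases hall (T.w i a) hwa (by rw [g.pair_w hi hr ha]; exact hp) with h | h | h | ⟨a2, ha2, h3, h4, h5⟩
    · left
      rw [← g.w_w hi ha, h]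
    · right; left
      rw [← g.pair_w hi hw0 ha, g.w_w hi ha0]; exact h
    · right; right; left
      have := g.sm_w h hwa ha0 (g.w_lt hi hr) hi
      rwa [g.w_w hi ha, g.w_w hi hr] at this
    · right; right; right
      have hw2 := g.w_lt hi ha2
      refine ⟨T.w i a2, hw2, ?_, ?_, ?_⟩
      · rw [← g.pair_w hi hr hw2, g.w_w hi ha2]; exact h3
      · rw [← g.pair_w hi hw0 hw2, g.w_w hi ha0, g.w_w hi ha2]; exact h4
      · rw [← g.pair_w hi hw2 ha, g.w_w hi ha2]; exact h5

theorem sl_nbr (h3 : T.chkD3 = true) : ∀ r < T.n, ∀ a < T.n, T.pair r a = 1 → ∃ a2 < T.n, T.pair r a2 = 1 ∧ T.pair a a2 = 1 := by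
  apply g.root_ind
  · intro i hi a ha hp
    rw [g.pair_sim hi] at hp
    unfold Tb.chkD3 at h3
    simp only [List.all_eq_true, List.any_eq_true, List.mem_range, Bool.or_eq_true, Bool.not_eq_true', decide_eq_false_iff_not,
      Bool.and_eq_true, decide_eq_true_eq] at h3
    rcases h3 i hi a ha with h4 | ⟨a2, ha2, h4, h5⟩
    · exact absurd hp h4
    · exact ⟨a2, ha2, by rw [g.pair_sim hi]; exact h4, h5⟩
  · intro i hi r hr ih a ha hp
    have hwa := g.w_lt hi ha
    obtain ⟨a2, ha2, h4, h5⟩ := ih (T.w i a) hwa (by rw [g.pair_w hi hr ha]; exact hp)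
    have hw2 := g.w_lt hi ha2
    refine ⟨T.w i a2, hw2, ?_, ?_⟩
    · rw [← g.pair_w hi hr hw2, g.w_w hi ha2]; exact h4
    · rw [← g.pair_w hi ha hw2, g.w_w hi ha2]; exact h5

end Good3
end CfsgLib.Chev
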