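import Cfsg.Agent.LibSM9

/-! Schur multipliers of Chevalley groups, 10: orthogonal roots in type D4 (lead). -/

set_option autoImplicit false
set_option linter.unusedSectionVars false
set_option maxRecDepth 100000

namespace CfsgLib.Chev

open Cfsg.Lie Matrix

/-- commutator data with unit coefficient -/
noncomputable def Tb.pm (T : Tb) (a b c : ℕ) (d : ℤ) : Bool :=
  !Nat.beq a b && (!Nat.beq a (T.n - 1 - b) && (T.nl a c && (T.nl b c &&
  (match Tb.commT T.ent b a with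
  | [x] => Nat.beq x.1 c && (Nat.beq x.2.2.1 1 && (Nat.beq x.2.2.2 1 && decide (x.2.1 = -d)))
  | _ => false))))

/-- data for one orthogonal pair -/
noncomputable def Tb.orq (T : Tb) (r s a b q b2 : ℕ) (d1 d2 d3 d4 : ℤ) : Bool :=
  T.pm a b r d1 && (T.pm b s q d2 && (T.pm s b2 a d3 && (T.pm b2 q r d4 && (decide (d1 * d2 * d3 * d4 = 1) &&
  (decide (d1 * d1 = 1) && (decide (d2 * d2 = 1) && (decide (d3 * d3 = 1) && (decide (d4 * d4 = 1) &&
  (T.nl r s && (T.nl a q && (T.nl a s && (T.nl r q && (T.nl s q && (T.nl a r &&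
  (T.hasT a s && (T.hasT r q && (T.hasT s q && T.hasT a r)))))))))))))))))

noncomputable def pmd : List ℤ := [1, -1]

noncomputable def Tb.orx (T : Tb) (r s : ℕ) : Bool :=
  (List.range T.n).any fun a => T.nl a s && (T.nl a r && (List.range T.n).any fun b => pmd.any fun d1 => T.pm a b r d1 &&
    (List.range T.n).any fun q => pmd.any fun d2 => T.pm b s q d2 && (List.range T.n).any fun b2 => pmd.any fun d3 => T.pm s b2 a d3 &&
      pmd.any fun d4 => T.orq r s a b q b2 d1 d2 d3 d4)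

noncomputable def Tb.chkO (T : Tb) : Bool := (List.range T.l).all fun i => (List.range T.n).all fun s =>
  Nat.beq s (T.sim i) || (Nat.beq s (T.n - 1 - T.sim i) || (T.hasT (T.sim i) s || T.orx (T.sim i) s))

theorem Tb.pm_sound {T : Tb} {a b c : ℕ} {d : ℤ} (h : T.pm a b c d = true) :
    a ≠ b ∧ a ≠ T.n - 1 - b ∧ T.nl a c = true ∧ T.nl b c = true ∧ Tb.commT T.ent b a = [(c, -d, 1, 1)] := by
  unfold Tb.pm at h
  simp only [Bool.and_eq_true] at h
  obtain ⟨h1, h2, h3, h4, h5⟩ := h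
  refine ⟨nbeq_false h1, nbeq_false h2, h3, h4, ?_⟩
  revert h5
  match Tb.commT T.ent b a with
  | [] => intro h; exact absurd h (by simp)
  | [(x1, x2, x3, x4)] =>
    intro h
    simp only [Bool.and_eq_true, Nat.beq_eq, decide_eq_true_eq] at h
    obtain ⟨h1, h2, h3, h4⟩ := h
    rw [h1, h2, h3, h4]
  | _ :: _ :: _ => intro h; exact absurd h (by simp)

theorem Good3.pm_K {D : ChevalleyDatum} {T : Tb} (g : Good3 D T) {F : Type*} [Field F] {a b c : ℕ} {d : ℤ} (ha : a < T.n) (hb : b < T.n)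
    (hc : c < T.n) (h : T.pm a b c d = true) (t v : F) :
    g.X a t * g.X b v * (g.X a t)⁻¹ * (g.X b v)⁻¹ = g.X c ((d : F) * (t * v)) := by
  obtain ⟨h1, h2, h3, h4, h5⟩ := Tb.pm_sound h
  have e1 := g.X_comm (F := F) hb ha h1 h2 v t
  rw [h5] at e1
  simp only [List.map_cons, List.map_nil, List.prod_cons, List.prod_nil, mul_one, pow_one] at e1
  have e2 : ((-d : ℤ) : F) * -v * t = (d : F) * (t * v) := by push_cast; ring
  rw [e2] at e1
  have c1 := g.nl_comm ha hc h3 ((d : F) * (t * v)) t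
  have c2 := g.nl_comm hb hc h4 ((d : F) * (t * v)) v
  rw [e1, mul_assoc (g.X b v), c1]
  calc g.X b v * (g.X c ((d : F) * (t * v)) * g.X a t) * (g.X a t)⁻¹ * (g.X b v)⁻¹ = (g.X b v * g.X c ((d : F) * (t * v))) * (g.X b v)⁻¹ := by group
    _ = _ := by rw [c2]; group

namespace CX

variable {D : ChevalleyDatum} {T : Tb} {g : Good3 D T} {F : Type*} [Field F] {E : Type*} [Group E] (C : CX g F E)

theorem cm_hasT {r s : ℕ} (hr : r < T.n) (hs : s < T.n) (h : T.hasT r s = true) {c : Fˣ} (hc : c ≠ 1)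
    (hcm : ∀ t u : F, g.X s u * g.X r t = g.X r t * g.X s u) (t u : F) : C.cm (g.X s u) (g.X r t) = 1 := by
  obtain ⟨q, hq, h1, h2⟩ := Good3.hasT_sound h
  have ph : C.p (C.lf (hd D T q c)) = hd D T q c := C.p_lf (g.hd_G hq c)
  refine C.cm_tor hcm (e := C.lf (hd D T q c)) (χ := c ^ T.pair q s) ?_ ?_ ?_ t u
  · intro t
    rw [ph, g.hd_X hr hq, h1, _root_.zpow_zero, Units.val_one, one_mul]
  · intro u
    rw [ph, g.hd_X hs hq]
  · rcases h2 with h2 | h2
    · rw [h2]; simpa using hc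
    · rw [h2]; simpa using hc

theorem orth_step {r s a b q : ℕ} {d1 d2 : ℤ} (hr : r < T.n) (hs : s < T.n) (ha : a < T.n) (hb : b < T.n) (hq : q < T.n)
    (h1 : T.pm a b r d1 = true) (h2 : T.pm b s q d2 = true) (hrs : ∀ t u : F, g.X r t * g.X s u = g.X s u * g.X r t)
    (has : ∀ t u : F, C.cm (g.X a t) (g.X s u) = 1) (hrq : ∀ t u : F, C.cm (g.X r t) (g.X q u) = 1) (t v u : F) :
    C.cm (g.X a t) (g.X q ((d2 : F) * (v * u))) = C.cm (g.X r ((d1 : F) * (t * v))) (g.X s u) := by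
  set x := C.lf (g.X a t) with hx
  set y := C.lf (g.X b v) with hy
  set z := C.lf (g.X s u) with hz
  have px : C.p x = g.X a t := C.p_lf (g.X_mem_G _ _)
  have py : C.p y = g.X b v := C.p_lf (g.X_mem_G _ _)
  have pz : C.p z = g.X s u := C.p_lf (g.X_mem_G _ _)
  have pw : C.p (x * y * x⁻¹ * y⁻¹) = g.X r ((d1 : F) * (t * v)) := by
    rw [map_mul, map_mul, map_mul, map_inv, map_inv, px, py, g.pm_K ha hb hr h1]
  have pq : C.p (y * z * y⁻¹ * z⁻¹) = g.X q ((d2 : F) * (v * u)) := by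
    rw [map_mul, map_mul, map_mul, map_inv, map_inv, py, pz, g.pm_K hb hs hq h2]
  have cxz : x * z = z * x := C.comm_of_cm px pz (has _ _)
  have cwq := C.comm_of_cm pw pq (hrq _ _)
  rw [← C.cm_eq px pq, ← C.cm_eq pw pz]
  set w := x * y * x⁻¹ * y⁻¹ with hw
  set Q := y * z * y⁻¹ * z⁻¹ with hQ
  have hxz' : x * z * x⁻¹ = z := by rw [cxz]; group
  have key : x * Q * x⁻¹ = w * Q * w⁻¹ * (w * z * w⁻¹ * z⁻¹) := by
    have e1 : x * Q * x⁻¹ = (x * y * x⁻¹) * (x * z * x⁻¹) * (x * y * x⁻¹)⁻¹ * (x * z * x⁻¹)⁻¹ := by rw [hQ]; group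
    rw [e1, hxz']
    have e2 : x * y * x⁻¹ = w * y := by rw [hw]; group
    rw [e2, hQ]; group
  have key2 : w * Q * w⁻¹ = Q := by rw [cwq]; group
  have pc : C.p (w * z * w⁻¹ * z⁻¹) = 1 := by
    rw [map_mul, map_mul, map_mul, map_inv, map_inv, pw, pz, hrs]; group
  rw [key, key2]
  have := C.central pc Q
  calc Q * (w * z * w⁻¹ * z⁻¹) * Q⁻¹ = (w * z * w⁻¹ * z⁻¹) * Q * Q⁻¹ := by rw [this]
    _ = _ := by group

theorem orq_cm {r s a b q b2 : ℕ} {d1 d2 d3 d4 : ℤ} (hr : r < T.n) (hs : s < T.n) (ha : a < T.n) (hb : b < T.n) (hq : q < T.n)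
    (hb2 : b2 < T.n) (h : T.orq r s a b q b2 d1 d2 d3 d4 = true) {c : Fˣ} (hc : c ≠ 1) (h20 : (2 : F) ≠ 0) (t u : F) :
    C.cm (g.X r t) (g.X s u) = 1 := by
  unfold Tb.orq at h
  simp only [Bool.and_eq_true, decide_eq_true_eq] at h
  obtain ⟨k1, k2, k3, k4, kd, kd1, kd2, kd3, kd4, n1, n2, n3, n4, n5, n6, m1, m2, m3, m4⟩ := h
  have c_rs := fun t u : F => g.nl_comm hr hs n1 u t
  have c_aq := fun t u : F => g.nl_comm ha hq n2 u t
  have c_as := fun t u : F => g.nl_comm ha hs n3 u t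
  have c_rq := fun t u : F => g.nl_comm hr hq n4 u t
  have c_sq := fun t u : F => g.nl_comm hs hq n5 u t
  have c_ar := fun t u : F => g.nl_comm ha hr n6 u t
  have E_as : ∀ t u : F, C.cm (g.X a t) (g.X s u) = 1 := fun t u => by
    rw [← C.cm_inv, C.cm_hasT ha hs m1 hc (fun t u => (c_as t u).symm), inv_one]
  have E_rq : ∀ t u : F, C.cm (g.X r t) (g.X q u) = 1 := fun t u => by
    rw [← C.cm_inv, C.cm_hasT hr hq m2 hc (fun t u => (c_rq t u).symm), inv_one]
  have E_sq : ∀ t u : F, C.cm (g.X s t) (g.X q u) = 1 := fun t u => by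
    rw [← C.cm_inv, C.cm_hasT hs hq m3 hc (fun t u => (c_sq t u).symm), inv_one]
  have E_ar : ∀ t u : F, C.cm (g.X a t) (g.X r u) = 1 := fun t u => by
    rw [← C.cm_inv, C.cm_hasT ha hr m4 hc (fun t u => (c_ar t u).symm), inv_one]
  have A1 := C.orth_step hr hs ha hb hq k1 k2 c_rs E_as E_rq
  have A2 := C.orth_step ha hq hs hb2 hr k3 k4 c_aq E_sq E_ar
  have i1 : (d1 : F) * (d1 : F) = 1 := by exact_mod_cast congrArg (Int.cast (R := F)) kd1
  have i2 : (d2 : F) * (d2 : F) = 1 := by exact_mod_cast congrArg (Int.cast (R := F)) kd2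
  have i3 : (d3 : F) * (d3 : F) = 1 := by exact_mod_cast congrArg (Int.cast (R := F)) kd3
  have i4 : (d4 : F) * (d4 : F) = 1 := by exact_mod_cast congrArg (Int.cast (R := F)) kd4
  have i0 : (d1 : F) * (d2 : F) * (d3 : F) * (d4 : F) = 1 := by exact_mod_cast congrArg (Int.cast (R := F)) kd
  let f : F → F → E := fun t u => C.cm (g.X r t) (g.X s u)
  have hA : ∀ t u, C.cm (g.X a t) (g.X q u) = f ((d1 : F) * t) ((d2 : F) * u) := by
    intro t u
    have := A1 t 1 ((d2 : F) * u)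
    rw [one_mul, mul_one, ← mul_assoc, i2, one_mul] at this
    exact this
  have hB : ∀ t v u, f t (v * u) = f (t * v) u := by
    intro t v u
    have e := A1 ((d1 : F) * t) v u
    rw [hA, ← mul_assoc, i1, one_mul, ← mul_assoc (d2 : F), i2, one_mul] at e
    rw [e]
    show f _ _ = _
    congr 1
    rw [← mul_assoc, ← mul_assoc, i1, one_mul]
  have hC : ∀ t u, f t u = f (t * u) 1 := by
    intro t u
    have := hB t u 1
    rwa [mul_one] at this
  have hD' : ∀ w, (f ((d4 : F) * w) 1)⁻¹ = f ((d4 : F) * w) 1 := by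
    intro w
    have e := A2 w 1 1
    rw [hA, mul_one, mul_one, mul_one, ← C.cm_inv] at e
    have e' : (f (d4 : F) w)⁻¹ = f ((d1 : F) * ((d3 : F) * w)) ((d2 : F) * 1) := e
    have e2 : (d1 : F) * ((d3 : F) * w) * ((d2 : F) * 1) = (d4 : F) * w := by
      have : (d1 : F) * (d2 : F) * (d3 : F) = (d4 : F) := by
        calc (d1 : F) * (d2 : F) * (d3 : F) = (d1 : F) * (d2 : F) * (d3 : F) * ((d4 : F) * (d4 : F)) := by rw [i4, mul_one]
          _ = ((d1 : F) * (d2 : F) * (d3 : F) * (d4 : F)) * (d4 : F) := by ring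
          _ = _ := by rw [i0, one_mul]
      calc (d1 : F) * ((d3 : F) * w) * ((d2 : F) * 1) = ((d1 : F) * (d2 : F) * (d3 : F)) * w := by ring
        _ = _ := by rw [this]
    have e3 := hC (d4 : F) w
    have e4 := hC ((d1 : F) * ((d3 : F) * w)) ((d2 : F) * 1)
    rw [e2] at e4
    rw [e4, e3] at e'
    exact e'
  have hD : ∀ w, (f w 1)⁻¹ = f w 1 := by
    intro w
    have := hD' ((d4 : F) * w)
    rwa [← mul_assoc, i4, one_mul] at this
  have hadd : ∀ w w', f (w + w') 1 = f w' 1 * f w 1 := by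
    intro w w'
    show C.cm (g.X r (w + w')) (g.X s 1) = _
    rw [g.X_add]
    exact C.cm_mul_cent (g.X_mem_G _ _) (g.X_mem_G _ _) (g.X_mem_G _ _) (c_rs _ _)
  show f t u = 1
  rw [hC]
  have e := hadd (t * u / 2) (t * u / 2)
  rw [show t * u / 2 + t * u / 2 = t * u by field_simp; ring] at e
  rw [e]
  have := hD (t * u / 2)
  rw [inv_eq_iff_mul_eq_one] at this
  exact this

theorem hex_of_chkO (hT : T.chkO = true) {c : Fˣ} (hc : c ≠ 1) (h2 : (2 : F) ≠ 0) : ∀ r < T.n, ∀ s < T.n, s ≠ r → s ≠ T.n - 1 - r →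
      (∃ q < T.n, T.pair q r = 0 ∧ (T.pair q s = 1 ∨ T.pair q s = -1)) ∨ ∀ t u : F, C.cm (g.X s u) (g.X r t) = 1 := by
  apply g.root_ind
  · intro i hi s hs h3 h4
    unfold Tb.chkO at hT
    simp only [List.all_eq_true, List.mem_range, Bool.or_eq_true, Nat.beq_eq] at hT
    rcases hT i hi s hs with h5 | h5 | h5 | h5
    · exact absurd h5 h3
    · exact absurd h5 h4
    · exact Or.inl (Good3.hasT_sound h5)
    · right
      intro t u
      unfold Tb.orx at h5
      simp only [List.any_eq_true, List.mem_range, Bool.and_eq_true] at h5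
      obtain ⟨a, ha, -, -, b, hb, d1, -, -, q, hq, d2, -, -, b2, hb2, d3, -, -, d4, -, h6⟩ := h5
      rw [← C.cm_inv, C.orq_cm (g.sim_lt hi) hs ha hb hq hb2 h6 hc h2 t u, inv_one]
  · intro i hi r hr ih s hs h3 h4
    have hwr := g.w_lt hi hr
    have hws := g.w_lt hi hs
    rcases ih (T.w i s) hws (fun h => h3 (g.w_inj hi hs hr h)) (fun h => by
      rw [← g.w_neg hi hr] at h
      exact h4 (g.w_inj hi hs (by omega) h)) with ⟨q, hq, h5, h6⟩ | h5
    · left
      have hwq := g.w_lt hi hq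
      refine ⟨T.w i q, hwq, ?_, ?_⟩
      · rw [← g.pair_w hi hwq hr, g.w_w hi hq]; exact h5
      · rw [← g.pair_w hi hwq hs, g.w_w hi hq]; exact h6
    · right
      exact C.cm_w hi hr hs h5

end CX

theorem tok_D4 : TOK tD4 := ⟨by decide +kernel, by decide +kernel, by decide +kernel⟩

theorem o_D4 : tD4.chkO = true := by decide +kernel

theorem lift_D4 {F : Type*} [Field F] {c : Fˣ} (hc : c ≠ 1) {E : Type*} [Group E] (p : E →* GL chevD4.Idx F) (hr : p.range = chevD4.group F)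
    (hk : p.ker ≤ Subgroup.center E) :
    ∃ τ : chevD4.SteinbergCover F →* E, ∀ r < tD4.n, ∀ t : F, p (τ (chevD4.scGen F r t)) = good3_D4.X r t := by
  let C : CX good3_D4 F E := ⟨p, hr, hk⟩
  exact C.lift_of_chk tok_D4 hc (fun h2 => C.hex_of_chkO o_D4 hc h2)

universe u

theorem mult_st_D4 {F : Type u} [Field F] [Fintype F] (h : Cov chevD4 F) {c : Fˣ} (hc : c ≠ 1) :
    Cfsg.HasCyclicSchurMultiplier (chevD4.SteinbergGroup F) 1 := by
  refine good3_D4.hasCyclic_st tr_D4 h (perf_sc good3_D4 (by simp) (by decide) (by decide)) ?_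
  intro Γ _ _ p hr hk
  exact lift_D4 hc p hr hk

end CfsgLib.Chev
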