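import Cfsg.Agent.LibSM11

/-! Schur multipliers of Chevalley groups, 12: type B2 over the field with three elements (lead). -/

set_option autoImplicit false
set_option linter.unusedSectionVars false
set_option maxRecDepth 100000

namespace CfsgLib.Chev

open Cfsg.Lie Matrix

namespace B23

/-- short roots -/
def sh (r : ℕ) : Bool := Nat.beq r 1 || (Nat.beq r 2 || (Nat.beq r 5 || Nat.beq r 6))

def fa (r : ℕ) : ℕ := if r = 7 then 5 else if r = 3 then 5 else if r = 4 then 6 else 1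
def fb (r : ℕ) : ℕ := if r = 7 then 6 else if r = 3 then 1 else if r = 4 then 2 else 2

theorem b1 : ∀ r < 8, sh r = false → tB2.pm (fa r) (fb r) r 2 = true ∧ fa r < 8 ∧ fb r < 8 ∧ sh (fa r) = true ∧ sh (fb r) = true := by
  decide +kernel

theorem b2 : ∀ r < 8, ∀ s < 8, sh r = false → sh s = true → tB2.hasT r s = true := by decide +kernel

set_option synthInstance.maxHeartbeats 2000000 in
set_option synthInstance.maxSize 100000 in
theorem b3 : ∀ r < 8, ∀ s < 8, sh r = true → sh s = true → s ≠ r → s ≠ 7 - r → ∃ q < 8, sh q = false ∧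
    (tB2.pm s r q 2 = true ∨ tB2.pm s r q (-2) = true) := by decide +kernel

set_option synthInstance.maxHeartbeats 2000000 in
set_option synthInstance.maxSize 100000 in
theorem b4 : ∀ r < 8, sh r = false → ∀ a < 8, ∀ b < 8, sh a = true → sh b = true → 
    (tB2.pm a b r 2 = true → a = fa r ∧ b = fb r) ∧ (tB2.pm a b r (-2) = true → b = fa r ∧ a = fb r) := by decide +kernel

theorem b5 : ∀ i < 2, ∀ r < 8, sh (tB2.w i r) = sh r := by decide +kernel

theorem b5' : ∀ i < 2, ∀ r < 8, sh r = false → (tB2.pm (tB2.w i (fa r)) (tB2.w i (fb r)) (tB2.w i r) 2 = true ∨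
    tB2.pm (tB2.w i (fa r)) (tB2.w i (fb r)) (tB2.w i r) (-2) = true) := by decide +kernel

theorem b6 : ∀ r < 8, (sh r = true → tB2.pair 7 r = 1 ∨ tB2.pair 7 r = -1) ∧
    (sh r = false → tB2.pair 7 r = 0 ∨ tB2.pair 7 r = 2 ∨ tB2.pair 7 r = -2) := by decide +kernel

set_option synthInstance.maxHeartbeats 2000000 in
set_option synthInstance.maxSize 100000 in
theorem b7 : ∀ r < 8, ∀ s < 8, sh r = false → sh s = false → s ≠ r → s ≠ 7 - r → tB2.nl r s = true ∧ tB2.nl s r = true ∧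
    ((wact tB2 [0] r = s ∧ wact tB2 [0] s = r ∧ sgn tB2 [0] r * sgn tB2 [0] s = 1) ∨
     (wact tB2 [1, 0, 1] r = s ∧ wact tB2 [1, 0, 1] s = r ∧ sgn tB2 [1, 0, 1] r * sgn tB2 [1, 0, 1] s = 1)) := by decide +kernel

end B23

/-- the field with three elements -/
structure F3 (F : Type*) [Field F] : Prop where
  all : ∀ x : F, x = 0 ∨ x = 1 ∨ x = -1
  two : (2 : F) ≠ 0

theorem biadd3 {F : Type*} [Field F] (hF : F3 F) {E : Type*} [Group E] (f : F → F → E) (h1 : ∀ t t' u, f (t + t') u = f t u * f t' u)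
    (h2 : ∀ t u u', f t (u + u') = f t u * f t u') (t u : F) : f t u = f (t * u) 1 := by
  have z1 : ∀ u, f 0 u = 1 := by
    intro u
    have := h1 0 0 u
    rw [add_zero] at this
    exact left_eq_mul.1 this
  have z2 : ∀ t, f t 0 = 1 := by
    intro t
    have := h2 t 0 0
    rw [add_zero] at this
    exact left_eq_mul.1 this
  rcases hF.all u with h | h | h
  · rw [h, mul_zero, z1, z2]
  · rw [h, mul_one]
  · rw [h, mul_neg, mul_one]
    have e1 := h2 t (-1) 1
    rw [neg_add_cancel, z2] at e1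
    have e2 := h1 (-t) t 1
    rw [neg_add_cancel, z1] at e2
    exact mul_right_cancel (e1.symm.trans e2)

namespace CX

section
variable {D : ChevalleyDatum} {T : Tb} {g : Good3 D T} {F : Type*} [Field F] {E : Type*} [Group E] (C : CX g F E)

theorem cm_self3 (hF : F3 F) (r : ℕ) (t u : F) : C.cm (g.X r t) (g.X r u) = 1 := by
  have key : ∀ t : F, ∃ k : ℤ, g.X r t = (g.X r 1) ^ k := by
    intro t
    rcases hF.all t with h | h | h
    · exact ⟨0, by rw [h, g.X_zero, _root_.zpow_zero]⟩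
    · exact ⟨1, by rw [h, _root_.zpow_one]⟩
    · exact ⟨-1, by rw [h, g.X_neg, _root_.zpow_neg, _root_.zpow_one]⟩
  obtain ⟨k, hk⟩ := key t
  obtain ⟨m, hm⟩ := key u
  have p1 : C.p (C.lf (g.X r 1)) = g.X r 1 := C.p_lf (g.X_mem_G _ _)
  rw [← C.cm_eq (e := (C.lf (g.X r 1)) ^ k) (f := (C.lf (g.X r 1)) ^ m) (by rw [map_zpow, p1, hk]) (by rw [map_zpow, p1, hm])]
  rw [← _root_.zpow_add, ← _root_.zpow_neg, ← _root_.zpow_neg, ← _root_.zpow_add, ← _root_.zpow_add]
  have : k + m + -k + -m = 0 := by ring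
  rw [this, _root_.zpow_zero]

theorem nw_of_nn (y : ℕ → F → E) (hnn : ∀ i < T.l, ∀ e : E, C.p e = g.nn i → ∀ r < T.n, ∀ t : F,
    e * y r t * e⁻¹ = y (T.w i r) (((T.eta i r : ℤ) : F) * t)) :
    ∀ (w : List ℕ), VW T w → ∀ e : E, C.p e = g.nw w → ∀ r < T.n, ∀ t : F, e * y r t * e⁻¹ = y (wact T w r) (((sgn T w r : ℤ) : F) * t) := by
  intro w
  induction w with
  | nil =>
    intro _ e he r hr t
    have h1 : C.p e = 1 := he
    rw [C.central h1 (y r t), Good3.wact_nil, mul_assoc, mul_inv_cancel, mul_one]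
    simp [sgn]
  | cons i w ih =>
    intro hw e he r hr t
    have hi : i < T.l := hw i (by simp)
    have hw' : VW T w := fun j hj => hw j (List.mem_cons_of_mem _ hj)
    have h2 : C.p (C.lf (g.nw w)) = g.nw w := C.p_lf (g.nw_mem_G w)
    have h3 : C.p (e * (C.lf (g.nw w))⁻¹) = g.nn i := by
      rw [map_mul, map_inv, h2, he]
      show g.nn i * g.nw w * (g.nw w)⁻¹ = g.nn i
      group
    have h4 := ih hw' _ h2 r hr t
    have h5 := hnn i hi _ h3 (wact T w r) (g.wact_lt hw' hr) (((sgn T w r : ℤ) : F) * t)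
    have e1 : e * y r t * e⁻¹ = (e * (C.lf (g.nw w))⁻¹) * ((C.lf (g.nw w)) * y r t * (C.lf (g.nw w))⁻¹) * (e * (C.lf (g.nw w))⁻¹)⁻¹ := by group
    rw [e1, h4, h5, Good3.wact_cons]
    congr 1
    simp only [sgn]
    push_cast
    ring

end

end CX

end CfsgLib.Chev
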