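import Cfsg.Agent.LibSM12

/-! Schur multipliers of Chevalley groups, 13: canonical lifts in type B2 over the field with three elements (lead). -/

set_option autoImplicit false
set_option linter.unusedSectionVars false
set_option maxRecDepth 100000

namespace CfsgLib.Chev

open Cfsg.Lie Matrix

namespace B23

variable {F : Type*} [Field F] {E : Type*} [Group E] (C : CX good3_B2 F E) (hF : F3 F)
include hF

theorem hc : (-1 : Fˣ) ≠ 1 := by
  intro h
  apply hF.two
  have h1 := congrArg Units.val h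
  rw [Units.val_neg, Units.val_one] at h1
  have : (2 : F) = 1 - (-1) := by ring
  rw [this, h1, sub_self]

include C

/-- short and long root elements commute -/
theorem sl {r s : ℕ} (hr : r < 8) (hs : s < 8) (h1 : sh r = false) (h2 : sh s = true) (h3 : tB2.nl s r = true) (t u : F) :
    C.cm (good3_B2.X s u) (good3_B2.X r t) = 1 :=
  C.cm_hasT (c := -1) hr hs (b2 r hr s hs h1 h2) (hc hF) (fun t u => good3_B2.nl_comm hs hr h3 t u) t u

theorem f_add1 {a b r : ℕ} {d : ℤ} (ha : a < 8) (hb : b < 8) (hr : r < 8) (sa : sh a = true) (sr : sh r = false)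
    (h : tB2.pm a b r d = true) (t t' u : F) :
    C.cm (good3_B2.X a (t + t')) (good3_B2.X b u) = C.cm (good3_B2.X a t) (good3_B2.X b u) * C.cm (good3_B2.X a t') (good3_B2.X b u) := by
  obtain ⟨-, -, h3, -, -⟩ := Tb.pm_sound h
  rw [good3_B2.X_add, C.cm_mul_left (good3_B2.X_mem_G _ _) (good3_B2.X_mem_G _ _) (good3_B2.X_mem_G _ _)]
  have p1 : ∀ t, C.p (C.cm (good3_B2.X a t) (good3_B2.X b u)) = good3_B2.X r ((d : F) * (t * u)) := by
    intro t
    rw [C.p_cm (good3_B2.X_mem_G _ _) (good3_B2.X_mem_G _ _), good3_B2.pm_K ha hb hr h]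
  have c1 : C.lf (good3_B2.X a t) * C.cm (good3_B2.X a t') (good3_B2.X b u) = C.cm (good3_B2.X a t') (good3_B2.X b u) * C.lf (good3_B2.X a t) :=
    C.comm_of_cm (C.p_lf (good3_B2.X_mem_G _ _)) (p1 t') (sl C hF hr ha sr sa h3 _ _)
  have c2 := C.comm_of_cm (p1 t) (p1 t') (C.cm_self3 hF r _ _)
  rw [c1, mul_assoc (C.cm _ _) (C.lf _), mul_inv_cancel, mul_one, c2]

theorem f_add2 {a b r : ℕ} {d : ℤ} (ha : a < 8) (hb : b < 8) (hr : r < 8) (sb : sh b = true) (sr : sh r = false)
    (h : tB2.pm a b r d = true) (t u u' : F) :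
    C.cm (good3_B2.X a t) (good3_B2.X b (u + u')) = C.cm (good3_B2.X a t) (good3_B2.X b u) * C.cm (good3_B2.X a t) (good3_B2.X b u') := by
  obtain ⟨-, -, -, h3, -⟩ := Tb.pm_sound h
  have p1 : ∀ u, C.p (C.cm (good3_B2.X a t) (good3_B2.X b u)) = good3_B2.X r ((d : F) * (t * u)) := by
    intro u
    rw [C.p_cm (good3_B2.X_mem_G _ _) (good3_B2.X_mem_G _ _), good3_B2.pm_K ha hb hr h]
  have px : C.p (C.lf (good3_B2.X a t)) = good3_B2.X a t := C.p_lf (good3_B2.X_mem_G _ _)
  have py : ∀ u, C.p (C.lf (good3_B2.X b u)) = good3_B2.X b u := fun u => C.p_lf (good3_B2.X_mem_G _ _)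
  have c1 : C.lf (good3_B2.X b u) * C.cm (good3_B2.X a t) (good3_B2.X b u') = C.cm (good3_B2.X a t) (good3_B2.X b u') * C.lf (good3_B2.X b u) :=
    C.comm_of_cm (py u) (p1 u') (sl C hF hr hb sr sb h3 _ _)
  have e1 : C.cm (good3_B2.X a t) (good3_B2.X b (u + u')) = C.lf (good3_B2.X a t) * (C.lf (good3_B2.X b u) * C.lf (good3_B2.X b u')) *
      (C.lf (good3_B2.X a t))⁻¹ * (C.lf (good3_B2.X b u) * C.lf (good3_B2.X b u'))⁻¹ := by
    rw [C.cm_eq px (y := good3_B2.X b (u + u'))]
    rw [map_mul, py, py, good3_B2.X_add]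
  have e2 : C.cm (good3_B2.X a t) (good3_B2.X b u') = C.lf (good3_B2.X a t) * C.lf (good3_B2.X b u') *
      (C.lf (good3_B2.X a t))⁻¹ * (C.lf (good3_B2.X b u'))⁻¹ := rfl
  have e3 : C.cm (good3_B2.X a t) (good3_B2.X b u) = C.lf (good3_B2.X a t) * C.lf (good3_B2.X b u) *
      (C.lf (good3_B2.X a t))⁻¹ * (C.lf (good3_B2.X b u))⁻¹ := rfl
  have e4 : C.lf (good3_B2.X b u) * C.cm (good3_B2.X a t) (good3_B2.X b u') * (C.lf (good3_B2.X b u))⁻¹ = C.cm (good3_B2.X a t) (good3_B2.X b u') := by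
    rw [c1, mul_assoc, mul_inv_cancel, mul_one]
  rw [e1, ← e4, e2, e3]
  group

theorem f_prod {a b r : ℕ} {d : ℤ} (ha : a < 8) (hb : b < 8) (hr : r < 8) (sa : sh a = true) (sb : sh b = true) (sr : sh r = false)
    (h : tB2.pm a b r d = true) (t u : F) :
    C.cm (good3_B2.X a t) (good3_B2.X b u) = C.cm (good3_B2.X a (t * u)) (good3_B2.X b 1) :=
  biadd3 hF (fun t u => C.cm (good3_B2.X a t) (good3_B2.X b u)) (f_add1 C hF ha hb hr sa sr h) (f_add2 C hF ha hb hr sb sr h) t u

omit hF in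
/-- the lifts -/
noncomputable def Y (C : CX good3_B2 F E) (r : ℕ) (t : F) : E :=
  if sh r = true then C.V 7 (-1) r t else C.cm (good3_B2.X (fa r) (t / 2)) (good3_B2.X (fb r) 1)

omit hF in
theorem Y_short {r : ℕ} (h : sh r = true) (t : F) : Y C r t = C.V 7 (-1) r t := if_pos h

omit hF in
theorem Y_long {r : ℕ} (h : sh r = false) (t : F) : Y C r t = C.cm (good3_B2.X (fa r) (t / 2)) (good3_B2.X (fb r) 1) := by
  unfold Y
  rw [if_neg (by rw [h]; exact Bool.false_ne_true)]

omit C in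
theorem pw_short {r : ℕ} (hr : r < 8) (h : sh r = true) : (-1 : Fˣ) ^ tB2.pair 7 r = -1 := by
  rcases (b6 r hr).1 h with h | h
  · rw [h, _root_.zpow_one]
  · rw [h, _root_.zpow_neg, _root_.zpow_one, inv_neg, inv_one]

omit C hF in
theorem pw_long {r : ℕ} (hr : r < 8) (h : sh r = false) : (-1 : Fˣ) ^ tB2.pair 7 r = 1 := by
  rcases (b6 r hr).2 h with h | h | h
  · rw [h, _root_.zpow_zero]
  · rw [h]; norm_num
  · rw [h, _root_.zpow_neg]; norm_num

theorem p_Y {r : ℕ} (hr : r < 8) (t : F) : C.p (Y C r t) = good3_B2.X r t := by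
  by_cases h : sh r = true
  · rw [Y_short C h]
    exact C.p_V (by decide) hr (by rw [pw_short hF hr h]; exact hc hF) t
  · have h' : sh r = false := by simpa using h
    obtain ⟨h1, h2, h3, -, -⟩ := b1 r hr h'
    rw [Y_long C h', C.p_cm (good3_B2.X_mem_G _ _) (good3_B2.X_mem_G _ _), good3_B2.pm_K h2 h3 hr h1]
    congr 1
    have := hF.two
    push_cast
    field_simp

theorem Y3 {a b r : ℕ} {d : ℤ} (ha : a < 8) (hb : b < 8) (hr : r < 8) (sa : sh a = true) (sb : sh b = true) (sr : sh r = false)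
    (h : tB2.pm a b r d = true) (hd : d = 2 ∨ d = -2) (t u : F) : C.cm (good3_B2.X a t) (good3_B2.X b u) = Y C r ((d : F) * (t * u)) := by
  have h2 := hF.two
  rcases hd with hd | hd
  · subst hd
    obtain ⟨e1, e2⟩ := (b4 r hr sr a ha b hb sa sb).1 h
    rw [f_prod C hF ha hb hr sa sb sr h, Y_long C sr, ← e1, ← e2]
    congr 2
    push_cast
    field_simp
  · subst hd
    obtain ⟨e1, e2⟩ := (b4 r hr sr a ha b hb sa sb).2 h
    obtain ⟨h1, h2', h3, h4, h5⟩ := b1 r hr sr
    rw [← C.cm_inv, e1, e2, f_prod C hF h2' h3 hr h4 h5 sr h1, Y_long C sr]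
    have e3 := f_add1 C hF h2' h3 hr h4 sr h1 (u * t) (-(u * t)) 1
    rw [add_neg_cancel, good3_B2.X_zero, C.cm_one_left (good3_B2.X_mem_G _ _)] at e3
    rw [inv_eq_of_mul_eq_one_right e3.symm]
    congr 2
    push_cast
    field_simp

theorem Y_cmm {r s : ℕ} (hr : r < 8) (hs : s < 8) {t u : F} (h : C.cm (good3_B2.X s u) (good3_B2.X r t) = 1) :
    Y C s u * Y C r t = Y C r t * Y C s u := C.comm_of_cm (p_Y C hF hs u) (p_Y C hF hr t) h

theorem Y_add {r : ℕ} (hr : r < 8) (t u : F) : Y C r (t + u) = Y C r t * Y C r u := by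
  by_cases h : sh r = true
  · rw [Y_short C h, Y_short C h, Y_short C h]
    exact C.V_add (by decide) hr (by rw [pw_short hF hr h]; exact hc hF) (fun t u => C.cm_self3 hF r t u) t u
  · have h' : sh r = false := by simpa using h
    obtain ⟨h1, h2, h3, h4, -⟩ := b1 r hr h'
    rw [Y_long C h', Y_long C h', Y_long C h', add_div]
    exact f_add1 C hF h2 h3 hr h4 h' h1 _ _ _

theorem Y_nn {i : ℕ} (hi : i < 2) {e : E} (he : C.p e = good3_B2.nn i) {r : ℕ} (hr : r < 8) (t : F) :
    e * Y C r t * e⁻¹ = Y C (tB2.w i r) (((tB2.eta i r : ℤ) : F) * t) := by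
  have hwr : tB2.w i r < 8 := good3_B2.w_lt hi hr
  have hsw := b5 i hi r hr
  have hpe : ∀ t : F, C.p e * good3_B2.X r t * (C.p e)⁻¹ = good3_B2.X (tB2.w i r) (((tB2.eta i r : ℤ) : F) * t) := by
    intro t; rw [he, good3_B2.nn_X_conj hi hr]
  by_cases h : sh r = true
  · rw [Y_short C h, Y_short C (by rw [hsw]; exact h)]
    have e1 := C.nw_V (w := [i]) (good3_B2.VW_single hi) (e := e) (by rw [he]; simp [Good3.nw]) (q := 7) (by decide) hr (-1) t
    rw [e1]
    have e2 : wact tB2 [i] r = tB2.w i r := rfl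
    have e3 : sgn tB2 [i] r = tB2.eta i r := by simp [sgn, Good3.wact_nil]
    rw [e2, e3]
    refine C.V_indep (by decide) (good3_B2.wact_lt (good3_B2.VW_single hi) (by decide)) hwr ?_ ?_ (fun t u => C.cm_self3 hF _ t u) _
    · rw [pw_short hF hwr (by rw [hsw]; exact h)]; exact hc hF
    · rw [← e2, good3_B2.pair_wact (good3_B2.VW_single hi) (by decide) hr, pw_short hF hr h]; exact hc hF
  · have h' : sh r = false := by simpa using h
    have h'' : sh (tB2.w i r) = false := by rw [hsw]; exact h'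
    obtain ⟨h1, h2, h3, h4, h5⟩ := b1 r hr h'
    have hwa : tB2.w i (fa r) < 8 := good3_B2.w_lt hi h2
    have hwb : tB2.w i (fb r) < 8 := good3_B2.w_lt hi h3
    have e1 : e * Y C r t * e⁻¹ = C.cm (good3_B2.X (tB2.w i (fa r)) (((tB2.eta i (fa r) : ℤ) : F) * (t / 2)))
        (good3_B2.X (tB2.w i (fb r)) (((tB2.eta i (fb r) : ℤ) : F) * 1)) := by
      rw [Y_long C h', C.cm_conj e (good3_B2.X_mem_G _ _) (good3_B2.X_mem_G _ _), he, good3_B2.nn_X_conj hi h2, good3_B2.nn_X_conj hi h3]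
    have key : ∀ d : ℤ, (d = 2 ∨ d = -2) → tB2.pm (tB2.w i (fa r)) (tB2.w i (fb r)) (tB2.w i r) d = true →
        e * Y C r t * e⁻¹ = Y C (tB2.w i r) (((tB2.eta i r : ℤ) : F) * t) := by
      intro d hd hpm
      have e2 := Y3 C hF hwa hwb hwr (by rw [b5 i hi _ h2]; exact h4) (by rw [b5 i hi _ h3]; exact h5) h'' hpm hd
        (((tB2.eta i (fa r) : ℤ) : F) * (t / 2)) (((tB2.eta i (fb r) : ℤ) : F) * 1)
      rw [e1, e2]
      have e3 := congrArg C.p (e1.trans e2)
      rw [map_mul, map_mul, map_inv, p_Y C hF hr, p_Y C hF hwr, hpe] at e3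
      rw [← good3_B2.X_inj hwr e3]
    rcases b5' i hi r hr h' with h6 | h6
    · exact key 2 (Or.inl rfl) h6
    · exact key (-2) (Or.inr rfl) h6

/-- torus action on the lifts -/
theorem Y_hd {e : E} (he : C.p e = hd chevB2 tB2 7 (-1)) {r : ℕ} (hr : r < 8) (t : F) :
    e * Y C r t * e⁻¹ = Y C r (((((-1 : Fˣ) ^ tB2.pair 7 r : Fˣ)) : F) * t) := by
  by_cases h : sh r = true
  · rw [Y_short C h, Y_short C h]
    exact C.hd_V (by decide) he (by decide) hr (-1) t
  · have h' : sh r = false := by simpa using h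
    obtain ⟨h1, h2, h3, h4, h5⟩ := b1 r hr h'
    have hpe : ∀ t : F, C.p e * good3_B2.X r t * (C.p e)⁻¹ = good3_B2.X r (((((-1 : Fˣ) ^ tB2.pair 7 r : Fˣ)) : F) * t) := by
      intro t; rw [he, good3_B2.hd_X hr (by decide)]
    have e1 : e * Y C r t * e⁻¹ = C.cm (good3_B2.X (fa r) ((((-1 : Fˣ) ^ tB2.pair 7 (fa r) : Fˣ) : F) * (t / 2)))
        (good3_B2.X (fb r) ((((-1 : Fˣ) ^ tB2.pair 7 (fb r) : Fˣ) : F) * 1)) := by
      rw [Y_long C h', C.cm_conj e (good3_B2.X_mem_G _ _) (good3_B2.X_mem_G _ _), he, good3_B2.hd_X h2 (by decide), good3_B2.hd_X h3 (by decide)]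
    have e2 := Y3 C hF h2 h3 hr h4 h5 h' h1 (Or.inl rfl) ((((-1 : Fˣ) ^ tB2.pair 7 (fa r) : Fˣ) : F) * (t / 2))
      ((((-1 : Fˣ) ^ tB2.pair 7 (fb r) : Fˣ) : F) * 1)
    have e3 := congrArg C.p (e1.trans e2)
    rw [map_mul, map_mul, map_inv, p_Y C hF hr, p_Y C hF hr, hpe] at e3
    rw [e1, e2, ← good3_B2.X_inj hr e3]

/-- orthogonal long root elements -/
theorem ll {r s : ℕ} (hr : r < 8) (hs : s < 8) (h1 : sh r = false) (h2 : sh s = false) (h3 : s ≠ r) (h4 : s ≠ 7 - r) (t u : F) :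
    C.cm (good3_B2.X r t) (good3_B2.X s u) = 1 := by
  obtain ⟨n1, n2, hw⟩ := b7 r hr s hs h1 h2 h3 h4
  have cG : ∀ t u : F, good3_B2.X r t * good3_B2.X s u = good3_B2.X s u * good3_B2.X r t := fun t u => good3_B2.nl_comm hr hs n1 u t
  let f : F → F → E := fun t u => C.cm (good3_B2.X r t) (good3_B2.X s u)
  have hcen : ∀ t u, C.p (f t u) = 1 := fun t u => C.cm_central (good3_B2.X_mem_G _ _) (good3_B2.X_mem_G _ _) (cG t u)
  have a1 : ∀ t t' u, f (t + t') u = f t u * f t' u := by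
    intro t t' u
    show C.cm (good3_B2.X r (t + t')) (good3_B2.X s u) = _
    rw [good3_B2.X_add, C.cm_mul_cent (good3_B2.X_mem_G _ _) (good3_B2.X_mem_G _ _) (good3_B2.X_mem_G _ _) (cG _ _)]
    exact C.central (hcen _ _) _
  have a2 : ∀ t u u', f t (u + u') = f t u * f t u' := by
    intro t u u'
    show C.cm (good3_B2.X r t) (good3_B2.X s (u + u')) = _
    rw [← C.cm_inv, good3_B2.X_add, C.cm_mul_cent (good3_B2.X_mem_G _ _) (good3_B2.X_mem_G _ _) (good3_B2.X_mem_G _ _) (cG _ _).symm,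
      _root_.mul_inv_rev, C.cm_inv, C.cm_inv]
  have hpr := biadd3 hF f a1 a2
  have hsw : ∀ w : List ℕ, VW tB2 w → wact tB2 w r = s → wact tB2 w s = r → sgn tB2 w r * sgn tB2 w s = 1 → ∀ w' : F, f w' 1 = (f w' 1)⁻¹ := by
    intro w hw q1 q2 q3 x
    have pe : C.p (C.lf (good3_B2.nw w)) = good3_B2.nw w := C.p_lf (good3_B2.nw_mem_G w)
    have e1 := C.cm_conj_inv (C.lf (good3_B2.nw w)) (good3_B2.X_mem_G r x) (good3_B2.X_mem_G s 1) (cG x 1)
    rw [pe, good3_B2.nw_X hw hr, good3_B2.nw_X hw hs, q1, q2, ← C.cm_inv] at e1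
    have e2 : (f (((sgn tB2 w s : ℤ) : F) * 1) (((sgn tB2 w r : ℤ) : F) * x))⁻¹ = f x 1 := e1
    rw [hpr] at e2
    have e3 : ((sgn tB2 w s : ℤ) : F) * 1 * (((sgn tB2 w r : ℤ) : F) * x) = x := by
      have : ((sgn tB2 w s : ℤ) : F) * ((sgn tB2 w r : ℤ) : F) = 1 := by
        rw [← Int.cast_mul, mul_comm, q3, Int.cast_one]
      calc ((sgn tB2 w s : ℤ) : F) * 1 * (((sgn tB2 w r : ℤ) : F) * x) = (((sgn tB2 w s : ℤ) : F) * ((sgn tB2 w r : ℤ) : F)) * x := by ring
        _ = x := by rw [this, one_mul]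
    rw [e3] at e2
    exact e2.symm
  have hinv : ∀ w' : F, f w' 1 = (f w' 1)⁻¹ := by
    rcases hw with ⟨q1, q2, q3⟩ | ⟨q1, q2, q3⟩
    · exact hsw [0] (by intro i hi; simp at hi; subst hi; decide) q1 q2 q3
    · exact hsw [1, 0, 1] (by intro i hi; simp at hi; rcases hi with rfl | rfl | rfl <;> decide) q1 q2 q3
  show f t u = 1
  rw [hpr]
  have h2' := hF.two
  have e := a1 (t * u / 2) (t * u / 2) 1
  rw [show t * u / 2 + t * u / 2 = t * u by field_simp; ring] at e
  rw [e]
  have := hinv (t * u / 2)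
  rw [eq_inv_iff_mul_eq_one] at this
  exact this

/-- the system of lifts -/
theorem exists_lift3 : ∃ τ : chevB2.SteinbergCover F →* E, ∀ r < tB2.n, ∀ t : F, C.p (τ (chevB2.scGen F r t)) = good3_B2.X r t := by
  have hn : tB2.n = 8 := rfl
  let S : YT good3_B2 F E :=
    { toCX := C
      y := fun r t => Y C r t
      p_y := fun {r} hr t => p_Y C hF hr t
      add := fun r hr t u => Y_add C hF hr t u
      nw_y := by
        intro e w hw he r hr t
        exact C.nw_of_nn (fun r t => Y C r t) (fun i hi e he r hr t => Y_nn C hF hi he hr t) w hw e he r hr t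
      tor := by
        intro r s hr hs h1 h2
        have h2' : s ≠ 7 - r := h2
        have htor : ∀ {r s : ℕ}, r < 8 → s < 8 → s ≠ r → s ≠ tB2.n - 1 - r → ∀ c ∈ Tb.commT tB2.ent r s,
            ((-1 : Fˣ) ^ tB2.pair 7 c.1) = ((-1 : Fˣ) ^ tB2.pair 7 r) ^ c.2.2.1 * ((-1 : Fˣ) ^ tB2.pair 7 s) ^ c.2.2.2 := by
          intro r s hr hs h1 h2 c hc
          rw [good3_B2.pair_comm hr hs h1 h2 7 c hc, _root_.zpow_add,
            mul_comm (c.2.2.1 : ℤ), mul_comm (c.2.2.2 : ℤ), _root_.zpow_mul, _root_.zpow_mul, zpow_natCast, zpow_natCast]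
        have pe : C.p (C.lf (hd chevB2 tB2 7 (-1))) = hd chevB2 tB2 7 (-1) := C.p_lf (good3_B2.hd_G (by decide) _)
        by_cases hsr : sh r = true
        · by_cases hss : sh s = true
          · right
            intro t u
            obtain ⟨q, hq, hqs, hpm⟩ := b3 r hr s hs hsr hss h1 h2'
            have key : ∀ d : ℤ, (d = 2 ∨ d = -2) → tB2.pm s r q d = true → Y C s u * Y C r t = Y C r t * Y C s u *
                ((Tb.commT tB2.ent r s).map fun c => Y C c.1 ((c.2.1 : F) * (-t) ^ c.2.2.1 * u ^ c.2.2.2)).prod := by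
              intro d hd hpm
              obtain ⟨-, -, n1, n2, hL⟩ := Tb.pm_sound hpm
              have e1 := Y3 C hF hs hr hq hss hsr hqs hpm hd u t
              rw [← C.cm_eq (p_Y C hF hs u) (p_Y C hF hr t)] at e1
              have c1 : Y C q ((d : F) * (u * t)) * Y C r t = Y C r t * Y C q ((d : F) * (u * t)) :=
                (Y_cmm C hF hq hr (sl C hF hq hr hqs hsr n2 _ _)).symm
              have c2 : Y C q ((d : F) * (u * t)) * Y C s u = Y C s u * Y C q ((d : F) * (u * t)) :=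
                (Y_cmm C hF hq hs (sl C hF hq hs hqs hss n1 _ _)).symm
              rw [hL]
              simp only [List.map_cons, List.map_nil, List.prod_cons, List.prod_nil, mul_one, pow_one]
              have e2 : ((-d : ℤ) : F) * -t * u = (d : F) * (u * t) := by push_cast; ring
              rw [e2]
              have e3 : Y C s u * Y C r t = Y C q ((d : F) * (u * t)) * (Y C r t * Y C s u) := by
                rw [← e1]; group
              rw [e3, ← mul_assoc, c1, mul_assoc, c2, mul_assoc]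
            rcases hpm with h | h
            · exact key 2 (Or.inl rfl) h
            · exact key (-2) (Or.inr rfl) h
          · have hss' : sh s = false := by simpa using hss
            left
            refine ⟨C.lf (hd chevB2 tB2 7 (-1)), fun k => (-1) ^ tB2.pair 7 k, fun k hk t => Y_hd C hF pe hk t, Or.inr ⟨pw_long hs hss', ?_⟩,
              htor hr hs h1 h2, htor hs hr (Ne.symm h1) (by omega)⟩
            show (-1 : Fˣ) ^ tB2.pair 7 r ≠ 1
            rw [pw_short hF hr hsr]; exact hc hF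
        · have hsr' : sh r = false := by simpa using hsr
          by_cases hss : sh s = true
          · left
            refine ⟨C.lf (hd chevB2 tB2 7 (-1)), fun k => (-1) ^ tB2.pair 7 k, fun k hk t => Y_hd C hF pe hk t, Or.inl ⟨pw_long hr hsr', ?_⟩,
              htor hr hs h1 h2, htor hs hr (Ne.symm h1) (by omega)⟩
            show (-1 : Fˣ) ^ tB2.pair 7 s ≠ 1
            rw [pw_short hF hs hss]; exact hc hF
          · have hss' : sh s = false := by simpa using hss
            right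
            intro t u
            obtain ⟨-, n2, -⟩ := b7 r hr s hs hsr' hss' h1 h2'
            have hL : Tb.commT tB2.ent r s = [] := by
              unfold Tb.nl at n2
              simp only [Bool.and_eq_true, List.isEmpty_iff] at n2
              exact n2.2.2
            rw [hL, List.map_nil, List.prod_nil, mul_one]
            exact Y_cmm C hF hr hs (by rw [← C.cm_inv, ll C hF hr hs hsr' hss' h1 h2' t u, inv_one]) }
  exact S.lift

end B23

end CfsgLib.Chev
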