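import Cfsg.Agent.LibSM13

/-! Schur multipliers of Chevalley groups, 14: type B2 in characteristic two, and all fields with more than two elements (lead). -/

set_option autoImplicit false
set_option linter.unusedSectionVars false
set_option maxRecDepth 100000

namespace CfsgLib.Chev

open Cfsg.Lie Matrix

namespace B24

theorem l1 : Tb.commT tB2.ent 6 3 = [(5, -1, 1, 1), (7, 1, 2, 1)] := by decide +kernel
theorem l2 : Tb.commT tB2.ent 2 7 = [(6, 1, 1, 1), (4, -1, 2, 1)] := by decide +kernel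
theorem l3 : Tb.commT tB2.ent 5 6 = [(7, 2, 1, 1)] := by decide +kernel
theorem n1 : tB2.nl 3 5 = true := by decide +kernel
theorem n2 : tB2.nl 7 5 = true := by decide +kernel
theorem n3 : tB2.nl 7 4 = true := by decide +kernel
theorem n4 : tB2.nl 2 4 = true := by decide +kernel
theorem n5 : tB2.nl 6 4 = true := by decide +kernel

theorem pr : ∀ r < 8, ∀ s < 8, s ≠ r → s ≠ 7 - r → (tB2.pair r s = 0 ∧ tB2.pair s r = 0) ∨ tB2.pair r s * tB2.pair s r = 2 := by
  decide +kernel

variable {F : Type*} [Field F] {E : Type*} [Group E] (C : CX good3_B2 F E)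

theorem sq_ne {c : Fˣ} (hc : c ≠ 1) (h2 : (2 : F) = 0) : c ^ (2 : ℤ) ≠ 1 := by
  rw [show (2 : ℤ) = ((2 : ℕ) : ℤ) from rfl, zpow_natCast]
  exact CX.unit_sq_ne hc h2

theorem torA {c : Fˣ} (hc : c ≠ 1) (h2 : (2 : F) = 0) {r s : ℕ} (hr : r < 8) (hs : s < 8) (h1 : s ≠ r) (h3 : s ≠ 7 - r) :
    ∃ v1 v2 : Fˣ, v1 ^ tB2.pair s r * v2 ^ tB2.pair r r = 1 ∧ v1 ^ tB2.pair s s * v2 ^ tB2.pair r s ≠ 1 := by
  have hps : tB2.pair s s = 2 := good3_B2.pair_self hs
  have hpr : tB2.pair r r = 2 := good3_B2.pair_self hr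
  rcases pr r hr s hs h1 h3 with ⟨h4, h5⟩ | h4
  · refine ⟨c, 1, by rw [h5]; simp, ?_⟩
    rw [hps, _root_.one_zpow, mul_one]
    exact sq_ne hc h2
  · refine ⟨c ^ (2 : ℤ), c ^ (-tB2.pair s r), ?_, ?_⟩
    · rw [hpr, ← _root_.zpow_mul, ← _root_.zpow_mul, ← _root_.zpow_add]
      have : 2 * tB2.pair s r + -tB2.pair s r * 2 = 0 := by ring
      rw [this, zpow_zero]
    · rw [hps, ← _root_.zpow_mul, ← _root_.zpow_mul, ← _root_.zpow_add]
      have : 2 * 2 + -tB2.pair s r * tB2.pair r s = 2 := by rw [neg_mul, mul_comm (tB2.pair s r), h4]; norm_num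
      rw [this]
      exact sq_ne hc h2

/-- vanishing for different roots -/
theorem cm_ne {c : Fˣ} (hc : c ≠ 1) (h2 : (2 : F) = 0) {r s : ℕ} (hr : r < 8) (hs : s < 8) (h1 : s ≠ r) (h3 : s ≠ 7 - r)
    (hcm : ∀ t u : F, good3_B2.X s u * good3_B2.X r t = good3_B2.X r t * good3_B2.X s u) (t u : F) :
    C.cm (good3_B2.X s u) (good3_B2.X r t) = 1 := by
  obtain ⟨v1, v2, h4, h5⟩ := torA hc h2 hr hs h1 h3
  have p1 : C.p (C.lf (hd chevB2 tB2 s v1)) = hd chevB2 tB2 s v1 := C.p_lf (good3_B2.hd_G hs _)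
  have p2 : C.p (C.lf (hd chevB2 tB2 r v2)) = hd chevB2 tB2 r v2 := C.p_lf (good3_B2.hd_G hr _)
  have hact : ∀ {k : ℕ}, k < 8 → ∀ t : F, C.p (C.lf (hd chevB2 tB2 s v1) * C.lf (hd chevB2 tB2 r v2)) * good3_B2.X k t *
      (C.p (C.lf (hd chevB2 tB2 s v1) * C.lf (hd chevB2 tB2 r v2)))⁻¹ =
      good3_B2.X k (((v1 ^ tB2.pair s k * v2 ^ tB2.pair r k : Fˣ) : F) * t) := by
    intro k hk t
    rw [map_mul, p1, p2]
    have e : hd chevB2 tB2 s v1 * hd chevB2 tB2 r v2 * good3_B2.X k t * (hd chevB2 tB2 s v1 * hd chevB2 tB2 r v2)⁻¹ =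
      hd chevB2 tB2 s v1 * (hd chevB2 tB2 r v2 * good3_B2.X k t * (hd chevB2 tB2 r v2)⁻¹) * (hd chevB2 tB2 s v1)⁻¹ := by group
    rw [e, good3_B2.hd_X hk hr, good3_B2.hd_X hk hs, Units.val_mul, mul_assoc]
  refine C.cm_tor hcm (e := C.lf (hd chevB2 tB2 s v1) * C.lf (hd chevB2 tB2 r v2)) (χ := v1 ^ tB2.pair s s * v2 ^ tB2.pair r s) ?_ ?_ h5 t u
  · intro t
    rw [hact hr, h4, Units.val_one, one_mul]
  · intro u
    rw [hact hs]

theorem cm_self {c : Fˣ} (hc : c ≠ 1) (h2 : (2 : F) = 0) : ∀ r < tB2.n, ∀ t u : F, C.cm (good3_B2.X r t) (good3_B2.X r u) = 1 := by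
  apply good3_B2.root_ind
  · intro i hi t v
    have hi' : i < 2 := hi
    have hneg : ∀ x : F, -x = x := by
      intro x
      have : x + x = 0 := by rw [← two_mul, h2, zero_mul]
      exact (eq_neg_of_add_eq_zero_left this).symm
    interval_cases i
    · show C.cm (good3_B2.X 5 t) (good3_B2.X 5 v) = 1
      have c6 : ∀ t u : F, good3_B2.X 6 u * good3_B2.X 5 t = good3_B2.X 5 t * good3_B2.X 6 u := by
        intro t u
        have := good3_B2.X_comm (F := F) (r := 5) (s := 6) (by decide) (by decide) (by decide) (by decide) t u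
        rw [l3] at this
        simp only [List.map_cons, List.map_nil, List.prod_cons, List.prod_nil, mul_one, pow_one] at this
        rw [this]
        have e : ((2 : ℤ) : F) = 0 := by push_cast; exact h2
        rw [e, zero_mul, zero_mul, good3_B2.X_zero, mul_one]
      have c3 : ∀ t u : F, good3_B2.X 3 u * good3_B2.X 5 t = good3_B2.X 5 t * good3_B2.X 3 u :=
        fun t u => good3_B2.nl_comm (by decide) (by decide) n1 t u
      have c7 : ∀ t u : F, good3_B2.X 7 u * good3_B2.X 5 t = good3_B2.X 5 t * good3_B2.X 7 u :=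
        fun t u => good3_B2.nl_comm (by decide) (by decide) n2 t u
      have h := C.cm_prod (a := 3) (b := 6) (by decide) (by decide) (by decide) (by decide) (good3_B2.X_mem_G 5 v) (fun u => c3 v u)
        (fun t => c6 v t) t 1
      rw [l1] at h
      simp only [List.map_cons, List.map_nil, List.prod_cons, List.prod_nil, mul_one, pow_one] at h
      rw [C.cm_mul_cent (good3_B2.X_mem_G _ _) (good3_B2.X_mem_G _ _) (good3_B2.X_mem_G _ _) (c7 _ _),
        cm_ne C hc h2 (by decide) (by decide) (by decide) (by decide) c7, one_mul] at h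
      have e : ((-1 : ℤ) : F) * -t = t := by push_cast; ring
      rwa [e] at h
    · show C.cm (good3_B2.X 4 t) (good3_B2.X 4 v) = 1
      have c7 : ∀ t u : F, good3_B2.X 7 u * good3_B2.X 4 t = good3_B2.X 4 t * good3_B2.X 7 u :=
        fun t u => good3_B2.nl_comm (by decide) (by decide) n3 t u
      have c2 : ∀ t u : F, good3_B2.X 2 u * good3_B2.X 4 t = good3_B2.X 4 t * good3_B2.X 2 u :=
        fun t u => good3_B2.nl_comm (by decide) (by decide) n4 t u
      have c6 : ∀ t u : F, good3_B2.X 6 u * good3_B2.X 4 t = good3_B2.X 4 t * good3_B2.X 6 u :=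
        fun t u => good3_B2.nl_comm (by decide) (by decide) n5 t u
      have h := C.cm_prod (a := 7) (b := 2) (by decide) (by decide) (by decide) (by decide) (good3_B2.X_mem_G 4 v) (fun u => c7 v u)
        (fun t => c2 v t) 1 (-t)
      rw [l2] at h
      simp only [List.map_cons, List.map_nil, List.prod_cons, List.prod_nil, mul_one, pow_one] at h
      rw [C.cm_mul_cent (good3_B2.X_mem_G _ _) (good3_B2.X_mem_G _ _) (good3_B2.X_mem_G _ _) (by
        intros
        first
        | rfl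
        | rw [← good3_B2.X_add, ← good3_B2.X_add, add_comm])] at h
      have e6 : ∀ w, C.cm (good3_B2.X 6 w) (good3_B2.X 4 v) = 1 := fun w => cm_ne C hc h2 (by decide) (by decide) (by decide) (by decide) c6 v w
      rw [e6, mul_one] at h
      have e : ((-1 : ℤ) : F) * (-1) ^ 2 * -t = t := by push_cast; ring
      rwa [e] at h
  · intro i hi r hr ih t u
    exact C.cm_w hi hr hr (fun t u => ih u t) u t

theorem exists_lift4 {c : Fˣ} (hc : c ≠ 1) (h2 : (2 : F) = 0) :
    ∃ τ : chevB2.SteinbergCover F →* E, ∀ r < tB2.n, ∀ t : F, C.p (τ (chevB2.scGen F r t)) = good3_B2.X r t := by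
  apply C.lift_tor (cm_self C hc h2)
  · intro r hr
    refine ⟨r, hr, c, ?_⟩
    rw [good3_B2.pair_self hr]
    exact sq_ne hc h2
  · intro r hr s hs h1 h3
    left
    obtain ⟨v1, v2, h4, h5⟩ := torA hc h2 hr hs h1 h3
    exact ⟨s, hs, r, hr, v1, v2, h4, h5⟩

end B24

theorem lift_B2 {F : Type*} [Field F] [Fintype F] (hF : 3 ≤ Fintype.card F) {E : Type*} [Group E] (p : E →* GL chevB2.Idx F)
    (hr : p.range = chevB2.group F) (hk : p.ker ≤ Subgroup.center E) :
    ∃ τ : chevB2.SteinbergCover F →* E, ∀ r < tB2.n, ∀ t : F, p (τ (chevB2.scGen F r t)) = good3_B2.X r t := by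
  classical
  let C : CX good3_B2 F E := ⟨p, hr, hk⟩
  by_cases h5 : 5 ≤ Fintype.card F
  · have hK5 : ∃ s : Finset F, 4 < s.card := ⟨Finset.univ, by rw [Finset.card_univ]; omega⟩
    obtain ⟨hF', v, h0, h1, -⟩ := field_five hK5
    obtain ⟨a, ha⟩ := hF' 2 (by omega)
    have ha' : (a : F) ^ 2 - 1 ≠ 0 := by
      intro h
      apply ha
      apply Units.ext
      push_cast
      exact sub_eq_zero.1 h
    let C' : CE good3_B2 F E := ⟨p, hr, hk, a, ha'⟩
    obtain ⟨τ, hτ⟩ := good3_B2.lift_CE pq_B2 self_B2 hK5 C'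
    exact ⟨τ, fun r hr t => by rw [hτ r hr t]; exact C'.p_y hr t⟩
  · by_cases h2 : (2 : F) = 0
    · have h2' : 2 < (Finset.univ : Finset F).card := by rw [Finset.card_univ]; omega
      obtain ⟨x, -, hx⟩ := Finset.exists_mem_notMem_of_card_lt_card (s := {0, 1}) (t := Finset.univ)
        (lt_of_le_of_lt Finset.card_le_two h2')
      simp only [Finset.mem_insert, Finset.mem_singleton, not_or] at hx
      exact B24.exists_lift4 C (c := Units.mk0 x hx.1) (fun h => hx.2 (congrArg Units.val h)) h2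
    · -- three elements
      have h01 : (1 : F) ≠ -1 := by
        intro h
        apply h2
        have : (2 : F) = 1 - (-1) := by ring
        rw [this, ← h, sub_self]
      have hne4 : Fintype.card F ≠ 4 := by
        intro h4
        have e : ((4 : ℕ) : F) = 0 := by rw [← h4]; exact FiniteField.cast_card_eq_zero F
        have e2 : (2 : F) * 2 = 0 := by
          have : (2 : F) * 2 = ((4 : ℕ) : F) := by push_cast; norm_num
          rw [this, e]
        rcases mul_eq_zero.1 e2 with h | h <;> exact h2 h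
      have hc3 : Fintype.card F = 3 := by omega
      have hall : ∀ x : F, x = 0 ∨ x = 1 ∨ x = -1 := by
        intro x
        by_contra hx
        push Not at hx
        have : ({0, 1, -1, x} : Finset F).card = 4 := by
          rw [Finset.card_insert_of_notMem, Finset.card_insert_of_notMem, Finset.card_insert_of_notMem, Finset.card_singleton]
          · simp [Ne.symm hx.2.2]
          · simp only [Finset.mem_insert, Finset.mem_singleton, not_or]; exact ⟨h01, Ne.symm hx.2.1⟩
          · simp only [Finset.mem_insert, Finset.mem_singleton, not_or]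
            exact ⟨zero_ne_one, fun h => one_ne_zero (neg_eq_zero.1 h.symm), Ne.symm hx.1⟩
        have h4 := Finset.card_le_univ ({0, 1, -1, x} : Finset F)
        omega
      exact B23.exists_lift3 C ⟨hall, h2⟩

universe u

theorem mult_st_B2 {F : Type u} [Field F] [Fintype F] (h : Cov chevB2 F) (hF : 3 ≤ Fintype.card F)
    (hx : ∃ x : F, x ≠ 0 ∧ x ≠ 1) : Cfsg.HasCyclicSchurMultiplier (chevB2.SteinbergGroup F) 1 := by
  have hperf : commutator (chevB2.SteinbergCover F) = ⊤ := by
    obtain ⟨T', g', hT', h⟩ := RG3.perf_all (Γ := chevB2.SteinbergCover F) (F := F) (D := chevB2) (by simp) (fun _ => hx)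
    obtain ⟨R, -⟩ := g'.exists_RG3 (F := F) hT'
    exact h R
  refine good3_B2.hasCyclic_st tr_B2 h hperf ?_
  intro Γ _ _ p hr hk
  exact lift_B2 hF p hr hk

end CfsgLib.Chev
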