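import Cfsg.Agent.LibSM1

/-! Schur multipliers of Chevalley groups, 2: central extensions of the simply laced groups (lead). -/

set_option autoImplicit false
set_option linter.unusedSectionVars false

namespace CfsgLib.Chev

open Cfsg.Lie Matrix

/-- a central extension of the Chevalley group -/
structure CX {D : ChevalleyDatum} {T : Tb} (g : Good3 D T) (F : Type*) [Field F] (E : Type*) [Group E] where
  p : E →* GL D.Idx F
  hr : p.range = D.group F
  hc : p.ker ≤ Subgroup.center E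

/-- a decomposition `r = a + b` with structure constant `κ` -/
structure Dcm {D : ChevalleyDatum} {T : Tb} (g : Good3 D T) (F : Type*) [Field F] (r a b : ℕ) (κ : F) : Prop where
  hr : r < T.n
  ha : a < T.n
  hb : b < T.n
  sm : Sm T a b r
  hab : T.pair a b = -1
  hκ : κ ≠ 0
  hX : ∀ t u : F, g.X a t * g.X b u * (g.X a t)⁻¹ * (g.X b u)⁻¹ = g.X r (κ * (t * u))

namespace Good3

variable {D : ChevalleyDatum} {T : Tb} (g : Good3 D T) {F : Type*} [Field F]
include g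

theorem sm_symm_pair (h : T.chkSL = true) {a b c : ℕ} (hs : Sm T a b c) (ha : a < T.n) (hb : b < T.n) (hc : c < T.n) (x : ℕ) (hx : x < T.n) :
    T.pair c x = T.pair a x + T.pair b x := by
  rw [g.sl_sym h c hc x hx, g.sl_sym h a ha x hx, g.sl_sym h b hb x hx, g.sm_pair hs ha hb hc]

theorem dcm_of (hS : SLOK T) {r a : ℕ} (hr : r < T.n) (ha : a < T.n) (hp : T.pair r a = 1) : ∃ b κ, Dcm g F r a b κ := by
  have hna : T.n - 1 - a < T.n := by omega
  have h1 : T.pair r (T.n - 1 - a) = -1 := by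
    rw [g.sl_sym hS.sl r hr _ hna, g.pair_neg_left ha, g.sl_sym hS.sl a ha r hr, hp]
  obtain ⟨b, hb, hsm, -⟩ := g.sl_K (F := F) hS.sl hS.k r hr _ hna h1
  have hsm' : Sm T a b r := by
    intro j hj
    have := hsm j hj
    rw [g.v_neg ha hj] at this
    linarith
  have hab : T.pair a b = -1 := by
    have e1 := g.sm_pair hsm' ha hb hr a
    rw [g.sl_sym hS.sl a ha r hr, hp, g.pair_self ha] at e1
    linarith
  obtain ⟨c, hc, hsmc, κ, hκ, hX⟩ := g.sl_K (F := F) hS.sl hS.k a ha b hb hab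
  have hcr : c = r := g.sm_uniq hsmc hsm' hc hr
  subst hcr
  exact ⟨b, κ, hc, ha, hb, hsm', hab, hκ, hX⟩

theorem dcm_uniq {r a b b' : ℕ} {κ κ' : F} (d : Dcm g F r a b κ) (d' : Dcm g F r a b' κ') : b = b' ∧ κ = κ' := by
  have h1 : b = b' := g.sm_uniq_r d.sm d'.sm d.hb d'.hb
  subst h1
  refine ⟨rfl, ?_⟩
  have := d.hX 1 1
  rw [d'.hX 1 1] at this
  have := g.X_inj d.hr this
  rw [mul_one, mul_one, mul_one] at this
  exact this.symm

theorem dcm_swap (hS : SLOK T) {r a b : ℕ} {κ : F} (d : Dcm g F r a b κ) : Dcm g F r b a (-κ) := by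
  refine ⟨d.hr, d.hb, d.ha, sm_comm d.sm, by rw [g.sl_sym hS.sl b d.hb a d.ha]; exact d.hab, neg_ne_zero.2 d.hκ, ?_⟩
  intro t u
  have h := d.hX u t
  have e : g.X r (-κ * (t * u)) = (g.X r (κ * (u * t)))⁻¹ := by
    rw [← g.X_neg]; congr 1; ring
  rw [e, ← h]; group

theorem dcm_pa (hS : SLOK T) {r a b : ℕ} {κ : F} (d : Dcm g F r a b κ) : T.pair r a = 1 := by
  rw [g.sm_symm_pair hS.sl d.sm d.ha d.hb d.hr a d.ha, g.pair_self d.ha, g.sl_sym hS.sl b d.hb a d.ha, d.hab]; norm_num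

theorem dcm_pb (hS : SLOK T) {r a b : ℕ} {κ : F} (d : Dcm g F r a b κ) : T.pair r b = 1 := g.dcm_pa hS (g.dcm_swap hS d)

end Good3

namespace CX

variable {D : ChevalleyDatum} {T : Tb} {g : Good3 D T} {F : Type*} [Field F] {E : Type*} [Group E] (C : CX g F E)

theorem central {e : E} (he : C.p e = 1) (x : E) : e * x = x * e := by
  have := C.hc (MonoidHom.mem_ker.2 he)
  rw [Subgroup.mem_center_iff] at this
  exact (this x).symm

theorem comm_congr {a a' b b' : E} (h1 : C.p a = C.p a') (h2 : C.p b = C.p b') :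
    a * b * a⁻¹ * b⁻¹ = a' * b' * a'⁻¹ * b'⁻¹ := by
  obtain ⟨z, ea, e1⟩ : ∃ z, a = a' * z ∧ C.p z = 1 := ⟨a'⁻¹ * a, by group, by rw [map_mul, map_inv, h1, inv_mul_cancel]⟩
  obtain ⟨z', eb, e2⟩ : ∃ z, b = b' * z ∧ C.p z = 1 := ⟨b'⁻¹ * b, by group, by rw [map_mul, map_inv, h2, inv_mul_cancel]⟩
  have c1 := C.central e1
  have c2 := C.central e2
  rw [ea, eb, _root_.mul_inv_rev, _root_.mul_inv_rev]
  calc a' * z * (b' * z') * (z⁻¹ * a'⁻¹) * (z'⁻¹ * b'⁻¹) = a' * (z * (b' * z')) * (z⁻¹ * a'⁻¹) * (z'⁻¹ * b'⁻¹) := by group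
    _ = a' * b' * (z' * a'⁻¹) * (z'⁻¹ * b'⁻¹) := by rw [c1]; group
    _ = _ := by rw [c2]; group

theorem ex_lift {z : GL D.Idx F} (hz : z ∈ D.group F) : ∃ e, C.p e = z := by
  rw [← C.hr] at hz; exact hz

open Classical in
noncomputable def lf (z : GL D.Idx F) : E := if h : z ∈ D.group F then (C.ex_lift h).choose else 1

theorem p_lf {z : GL D.Idx F} (hz : z ∈ D.group F) : C.p (C.lf z) = z := by
  unfold lf
  rw [dif_pos hz]
  exact (C.ex_lift hz).choose_spec

/-- the commutator of lifts -/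
noncomputable def cm (x y : GL D.Idx F) : E := C.lf x * C.lf y * (C.lf x)⁻¹ * (C.lf y)⁻¹

theorem cm_eq {e f : E} {x y : GL D.Idx F} (h1 : C.p e = x) (h2 : C.p f = y) : e * f * e⁻¹ * f⁻¹ = C.cm x y := by
  have hx : x ∈ D.group F := by rw [← C.hr, ← h1]; exact ⟨e, rfl⟩
  have hy : y ∈ D.group F := by rw [← C.hr, ← h2]; exact ⟨f, rfl⟩
  unfold cm
  exact C.comm_congr (by rw [C.p_lf hx, h1]) (by rw [C.p_lf hy, h2])

theorem p_cm {x y : GL D.Idx F} (hx : x ∈ D.group F) (hy : y ∈ D.group F) : C.p (C.cm x y) = x * y * x⁻¹ * y⁻¹ := by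
  unfold cm
  rw [map_mul, map_mul, map_mul, map_inv, map_inv, C.p_lf hx, C.p_lf hy]

theorem cm_inv (x y : GL D.Idx F) : (C.cm x y)⁻¹ = C.cm y x := by unfold cm; group

theorem cm_conj (e : E) {x y : GL D.Idx F} (hx : x ∈ D.group F) (hy : y ∈ D.group F) :
    e * C.cm x y * e⁻¹ = C.cm (C.p e * x * (C.p e)⁻¹) (C.p e * y * (C.p e)⁻¹) := by
  have h := C.cm_eq (e := e * C.lf x * e⁻¹) (f := e * C.lf y * e⁻¹) (x := C.p e * x * (C.p e)⁻¹) (y := C.p e * y * (C.p e)⁻¹)
    (by rw [map_mul, map_mul, map_inv, C.p_lf hx]) (by rw [map_mul, map_mul, map_inv, C.p_lf hy])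
  rw [← h]
  unfold cm; group

/-- elements whose images commute and have trivial `cm` commute -/
theorem comm_of_cm {e f : E} {x y : GL D.Idx F} (h1 : C.p e = x) (h2 : C.p f = y) (h : C.cm x y = 1) : e * f = f * e := by
  rw [← C.cm_eq h1 h2] at h
  calc e * f = (e * f * e⁻¹ * f⁻¹) * (f * e) := by group
    _ = f * e := by rw [h, one_mul]

theorem cm_mul_left {x y z : GL D.Idx F} (hx : x ∈ D.group F) (hy : y ∈ D.group F) (hz : z ∈ D.group F) :
    C.cm (x * y) z = C.lf x * C.cm y z * (C.lf x)⁻¹ * C.cm x z := by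
  rw [← C.cm_eq (e := C.lf x * C.lf y) (f := C.lf z) (by rw [map_mul, C.p_lf hx, C.p_lf hy]) (C.p_lf hz)]
  unfold cm; group

/-- bilinearity on the centralizer -/
theorem cm_mul_cent {x y z : GL D.Idx F} (hx : x ∈ D.group F) (hy : y ∈ D.group F) (hz : z ∈ D.group F) (hyz : y * z = z * y) :
    C.cm (x * y) z = C.cm y z * C.cm x z := by
  rw [C.cm_mul_left hx hy hz]
  have h1 : C.p (C.cm y z) = 1 := by rw [C.p_cm hy hz, hyz]; group
  rw [← C.central h1]; group

theorem cm_one_left {z : GL D.Idx F} (hz : z ∈ D.group F) : C.cm 1 z = 1 := by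
  rw [← C.cm_eq (e := 1) (f := C.lf z) (map_one _) (C.p_lf hz)]; group

theorem cm_inv_cent {x z : GL D.Idx F} (hx : x ∈ D.group F) (hz : z ∈ D.group F) (hxz : x * z = z * x) :
    C.cm x⁻¹ z = (C.cm x z)⁻¹ := by
  have h := C.cm_mul_cent (Subgroup.inv_mem _ hx) hx hz hxz
  rw [inv_mul_cancel, C.cm_one_left hz] at h
  exact (inv_eq_of_mul_eq_one_right h.symm).symm

/-- the commutator of two elements centralizing `z` -/
theorem cm_comm_cent {x y z : GL D.Idx F} (hx : x ∈ D.group F) (hy : y ∈ D.group F) (hz : z ∈ D.group F) (hxz : x * z = z * x)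
    (hyz : y * z = z * y) : C.cm (x * y * x⁻¹ * y⁻¹) z = 1 := by
  have hxi : x⁻¹ * z = z * x⁻¹ := by
    rw [inv_mul_eq_iff_eq_mul, ← mul_assoc, hxz]; group
  have hyi : y⁻¹ * z = z * y⁻¹ := by
    rw [inv_mul_eq_iff_eq_mul, ← mul_assoc, hyz]; group
  rw [C.cm_mul_cent (mul_mem (mul_mem hx hy) (inv_mem hx)) (inv_mem hy) hz hyi,
    C.cm_mul_cent (mul_mem hx hy) (inv_mem hx) hz hxi, C.cm_mul_cent hx hy hz hyz, C.cm_inv_cent hx hz hxz, C.cm_inv_cent hy hz hyz]
  have h1 : C.p (C.cm x z) = 1 := by rw [C.p_cm hx hz, hxz]; group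
  have h2 := C.central h1 (C.cm y z)
  calc (C.cm y z)⁻¹ * ((C.cm x z)⁻¹ * (C.cm y z * C.cm x z)) = (C.cm y z)⁻¹ * ((C.cm x z)⁻¹ * (C.cm x z * C.cm y z)) := by rw [h2]
    _ = 1 := by group

/-- root elements at a non-obtuse angle commute -/
theorem cl (hS : SLOK T) : ∀ r < T.n, ∀ s < T.n, 0 ≤ T.pair r s → ∀ t u : F, C.cm (g.X r t) (g.X s u) = 1 := by
  apply g.root_ind
  · intro i hi s hs hp t u
    rw [g.pair_sim hi] at hp
    have hsl := g.sim_lt hi
    have h1 := hS.d1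
    unfold Tb.chkD1 at h1
    simp only [List.all_eq_true, List.any_eq_true, List.mem_range, Bool.or_eq_true, Bool.not_eq_true', decide_eq_false_iff_not,
      Bool.and_eq_true, decide_eq_true_eq] at h1
    rcases h1 i hi s hs with h2 | ⟨a, ha, h3, h4, h5⟩
    · exact absurd hp h2
    · obtain ⟨b, κ, d⟩ := g.dcm_of (F := F) hS hsl ha (by rw [g.pair_sim hi]; exact h3)
      have e1 := g.sm_symm_pair hS.sl d.sm d.ha d.hb d.hr s hs
      rw [g.pair_sim hi] at e1
      have h6 : 0 ≤ T.pair b s := by linarith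
      have c1 := fun t => g.sl_X_comm hS.sl ha hs h4 t u
      have c2 := fun t => g.sl_X_comm hS.sl d.hb hs h6 t u
      have e2 := d.hX (t / κ) 1
      rw [show κ * (t / κ * 1) = t by have := d.hκ; field_simp] at e2
      rw [← e2]
      exact C.cm_comm_cent (g.X_mem_G _ _) (g.X_mem_G _ _) (g.X_mem_G _ _) (c1 _).symm (c2 _).symm
  · intro i hi r hr ih s hs hp t u
    have hG := g.N_le_G (g.nn_mem_N (F := F) hi)
    have e := C.cm_conj (C.lf (g.nn i)) (g.X_mem_G r t) (g.X_mem_G s u)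
    rw [C.p_lf hG, g.nn_X_conj hi hr, g.nn_X_conj hi hs, ih _ (g.w_lt hi hs) (by rw [g.pair_w hi hr hs]; exact hp),
      mul_inv_eq_one] at e
    exact mul_left_cancel (e.trans (mul_one _).symm)

theorem lift_comm (hS : SLOK T) {r s : ℕ} (hr : r < T.n) (hs : s < T.n) (hp : 0 ≤ T.pair r s) {t u : F} {e f : E} (h1 : C.p e = g.X r t)
    (h2 : C.p f = g.X s u) : e * f = f * e := C.comm_of_cm h1 h2 (C.cl hS r hr s hs hp t u)

theorem p_dcm {r a b : ℕ} {κ : F} (d : Dcm g F r a b κ) (t u : F) : C.p (C.cm (g.X a t) (g.X b u)) = g.X r (κ * (t * u)) := by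
  rw [C.p_cm (g.X_mem_G _ _) (g.X_mem_G _ _), d.hX]

/-- additivity in the first variable -/
theorem dcm_add (hS : SLOK T) {r a b : ℕ} {κ : F} (d : Dcm g F r a b κ) (t t' u : F) :
    C.cm (g.X a (t + t')) (g.X b u) = C.cm (g.X a t) (g.X b u) * C.cm (g.X a t') (g.X b u) := by
  rw [g.X_add, C.cm_mul_left (g.X_mem_G _ _) (g.X_mem_G _ _) (g.X_mem_G _ _)]
  have hra : T.pair a r = 1 := by rw [g.sl_sym hS.sl a d.ha r d.hr]; exact g.dcm_pa hS d
  have h1 := C.lift_comm hS d.ha d.hr (by omega) (C.p_lf (g.X_mem_G a t)) (C.p_dcm d t' u)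
  have h2 := C.lift_comm hS d.hr d.hr (by rw [g.pair_self d.hr]; norm_num) (C.p_dcm d t u) (C.p_dcm d t' u)
  rw [h1, mul_assoc (C.cm _ _) (C.lf _), mul_inv_cancel, mul_one, h2]

/-- the move between decompositions -/
theorem move (hS : SLOK T) {r a b a' b' : ℕ} {κ κ' : F} (d : Dcm g F r a b κ) (d' : Dcm g F r a' b' κ') (hp : T.pair a a' = 1) :
    ∃ k1 k2 : F, k1 ≠ 0 ∧ k2 ≠ 0 ∧ ∀ t v u : F, C.cm (g.X a t) (g.X b (k2 * (v * u))) = C.cm (g.X a' (k1 * (t * v))) (g.X b' u) := by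
  have hsym := g.sl_sym hS.sl
  have hra := g.dcm_pa hS d
  have hra' := g.dcm_pa hS d'
  have hrb := g.dcm_pb hS d
  have hrb' := g.dcm_pb hS d'
  have hab' : T.pair a b' = 0 := by
    have := g.sm_pair d'.sm d'.ha d'.hb d'.hr a
    rw [hsym a d.ha r d.hr, hra, hp] at this
    linarith
  have hab0 : T.pair a' b = 0 := by
    have := g.sm_pair d.sm d.ha d.hb d.hr a'
    rw [hsym a' d'.ha r d.hr, hra', hsym a' d'.ha a d.ha, hp] at this
    linarith
  -- a' = a + e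
  obtain ⟨e, k1, d1⟩ := g.dcm_of (F := F) hS d'.ha d.ha (by rw [hsym a' d'.ha a d.ha]; exact hp)
  -- b = e + b'
  have hsb : Sm T e b' b := by
    intro j hj
    have := d.sm j hj
    have h2 := d'.sm j hj
    have h3 := d1.sm j hj
    linarith
  have heb : T.pair e b' = -1 := by
    have h1 := g.sm_pair d'.sm d'.ha d'.hb d'.hr e
    have h2 := g.sm_pair d1.sm d1.ha d1.hb d1.hr r
    have h3 := g.sm_pair d1.sm d1.ha d1.hb d1.hr e
    rw [g.pair_self d1.hb, hsym e d1.hb a d.ha, d1.hab] at h3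
    rw [hra, hra'] at h2
    rw [hsym e d1.hb r d.hr] at h1
    linarith
  obtain ⟨b2, hb2, hsm2, k2, hk2, hX2⟩ := g.sl_K (F := F) hS.sl hS.k e d1.hb b' d'.hb heb
  have hbb : b2 = b := g.sm_uniq hsm2 hsb hb2 d.hb
  subst hbb
  refine ⟨k1, k2, d1.hκ, hk2, ?_⟩
  intro t v u
  set x := C.lf (g.X a t) with hx
  set y := C.lf (g.X e v) with hy
  set z := C.lf (g.X b' u) with hz
  have px : C.p x = g.X a t := C.p_lf (g.X_mem_G _ _)
  have py : C.p y = g.X e v := C.p_lf (g.X_mem_G _ _)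
  have pz : C.p z = g.X b' u := C.p_lf (g.X_mem_G _ _)
  have pw : C.p (x * y * x⁻¹ * y⁻¹) = g.X a' (k1 * (t * v)) := by
    rw [map_mul, map_mul, map_mul, map_inv, map_inv, px, py, d1.hX]
  have pq : C.p (y * z * y⁻¹ * z⁻¹) = g.X b2 (k2 * (v * u)) := by
    rw [map_mul, map_mul, map_mul, map_inv, map_inv, py, pz, hX2]
  have pr : C.p ((x * y * x⁻¹ * y⁻¹) * z * (x * y * x⁻¹ * y⁻¹)⁻¹ * z⁻¹) = g.X r (κ' * (k1 * (t * v) * u)) := by
    rw [map_mul, map_mul, map_mul, map_inv, map_inv, pw, pz, d'.hX]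
  have cxz : x * z = z * x := C.lift_comm hS d.ha d'.hb (by omega) px pz
  have cwq := C.lift_comm hS d'.ha d.hb (by omega) pw pq
  have crq := C.lift_comm hS d.hr d.hb (by omega) pr pq
  rw [← C.cm_eq px pq, ← C.cm_eq pw pz]
  set w := x * y * x⁻¹ * y⁻¹ with hw
  set q := y * z * y⁻¹ * z⁻¹ with hq
  have hxz' : x * z * x⁻¹ = z := by rw [cxz]; group
  have key : x * q * x⁻¹ = w * q * w⁻¹ * (w * z * w⁻¹ * z⁻¹) := by
    have e1 : x * q * x⁻¹ = (x * y * x⁻¹) * (x * z * x⁻¹) * (x * y * x⁻¹)⁻¹ * (x * z * x⁻¹)⁻¹ := by rw [hq]; group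
    rw [e1, hxz']
    have e2 : x * y * x⁻¹ = w * y := by rw [hw]; group
    rw [e2, hq]; group
  have key2 : w * q * w⁻¹ = q := by rw [cwq]; group
  rw [key, key2]
  have : w * z * w⁻¹ * z⁻¹ * q = q * (w * z * w⁻¹ * z⁻¹) := crq
  calc q * (w * z * w⁻¹ * z⁻¹) * q⁻¹ = (w * z * w⁻¹ * z⁻¹) * q * q⁻¹ := by rw [← this]
    _ = _ := by group

/-- the commutator depends only on the product -/
theorem dcm_prod (hS : SLOK T) {r a b : ℕ} {κ : F} (d : Dcm g F r a b κ) (t u : F) :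
    C.cm (g.X a t) (g.X b u) = C.cm (g.X a (t * u)) (g.X b 1) := by
  obtain ⟨a', ha', h1, h2⟩ := g.sl_nbr hS.d3 r d.hr a d.ha (g.dcm_pa hS d)
  obtain ⟨b', κ', d'⟩ := g.dcm_of (F := F) hS d.hr ha' h1
  obtain ⟨k1, k2, hk1, hk2, h⟩ := C.move hS d d' h2
  have e1 := h t u (1 / k2)
  have e2 := h (t * u) 1 (1 / k2)
  rw [mul_one (t * u), ← e1] at e2
  rw [show k2 * (1 * (1 / k2)) = 1 by field_simp, show k2 * (u * (1 / k2)) = u by field_simp] at e2
  exact e2.symm

/-- the value attached to a decomposition -/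
noncomputable def Z (a b : ℕ) (κ s : F) (g : Good3 D T) (C : CX g F E) : E := C.cm (g.X a (s / κ)) (g.X b 1)

theorem Z_move (hS : SLOK T) {r a b a' b' : ℕ} {κ κ' : F} (d : Dcm g F r a b κ) (d' : Dcm g F r a' b' κ') (hp : T.pair a a' = 1) (s : F) :
    Z a b κ s g C = Z a' b' κ' s g C := by
  obtain ⟨k1, k2, hk1, hk2, h⟩ := C.move hS d d' hp
  have hκ := d.hκ
  have hκ' := d'.hκ
  have e := h (s / (κ * k2)) 1 1
  rw [one_mul, mul_one, mul_one, C.dcm_prod hS d] at e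
  have e2 := congrArg C.p e
  rw [C.p_dcm d, C.p_dcm d'] at e2
  have e3 := g.X_inj d.hr e2
  rw [show κ * (s / (κ * k2) * k2 * 1) = s by field_simp] at e3
  rw [show s / (κ * k2) * k2 = s / κ by field_simp, show k1 * (s / (κ * k2)) = s / κ' by
    rw [eq_div_iff hκ']; rw [mul_one] at e3; rw [mul_comm, ← e3]] at e
  exact e

theorem Z_add (hS : SLOK T) {r a b : ℕ} {κ : F} (d : Dcm g F r a b κ) (s s' : F) :
    Z a b κ (s + s') g C = Z a b κ s g C * Z a b κ s' g C := by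
  unfold Z
  rw [add_div, C.dcm_add hS d]

theorem Z_neg (hS : SLOK T) {r a b : ℕ} {κ : F} (d : Dcm g F r a b κ) (s : F) :
    Z a b κ (-s) g C = (Z a b κ s g C)⁻¹ := by
  have h0 : Z a b κ 0 g C = 1 := by
    have := C.Z_add hS d 0 0
    rw [add_zero] at this
    exact left_eq_mul.1 this
  rw [eq_inv_iff_mul_eq_one, ← C.Z_add hS d, neg_add_cancel, h0]

theorem Z_swap (hS : SLOK T) {r a b : ℕ} {κ : F} (d : Dcm g F r a b κ) (s : F) :
    Z b a (-κ) s g C = Z a b κ s g C := by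
  have hκ := d.hκ
  have e1 : Z b a (-κ) s g C = (Z a b κ (-s) g C)⁻¹ := by
    unfold Z
    rw [← C.cm_inv, C.dcm_prod hS d, one_mul]
    congr 3
    field_simp
  rw [e1, C.Z_neg hS d, inv_inv]

/-- independence of the decomposition -/
theorem Z_ind (hS : SLOK T) {r a b a' b' : ℕ} {κ κ' : F} (d : Dcm g F r a b κ) (d' : Dcm g F r a' b' κ') (s : F) :
    Z a b κ s g C = Z a' b' κ' s g C := by
  obtain ⟨a0, ha0, hp0, hall⟩ := g.sl_conn hS.d2 r d.hr
  obtain ⟨b0, κ0, d0⟩ := g.dcm_of (F := F) hS d.hr ha0 hp0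
  have key : ∀ {a b : ℕ} {κ : F}, Dcm g F r a b κ → Z a b κ s g C = Z a0 b0 κ0 s g C := by
    intro a b κ d
    rcases hall a d.ha (g.dcm_pa hS d) with h | h | h | ⟨a2, ha2, h3, h4, h5⟩
    · subst h
      obtain ⟨rfl, rfl⟩ := g.dcm_uniq d d0
      rfl
    · exact (C.Z_move hS d0 d h s).symm
    · have hb : b = a0 := g.sm_uniq_r d.sm h d.hb ha0
      subst hb
      obtain ⟨rfl, rfl⟩ := g.dcm_uniq (g.dcm_swap hS d) d0
      exact (C.Z_swap hS d s).symm
    · obtain ⟨b2, κ2, d2⟩ := g.dcm_of (F := F) hS d.hr ha2 h3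
      rw [C.Z_move hS d0 d2 h4 s, C.Z_move hS d2 d h5 s]
  rw [key d, key d']

end CX

/-- list lemma -/
theorem prod_add_list {F : Type*} [Field F] {Γ : Type*} [Group Γ] (y : ℕ → F → Γ) (q : ℕ) (hy : ∀ t u : F, y q (t + u) = y q t * y q u)
    (f : ℕ × ℤ × ℕ × ℕ → F) : ∀ L : List (ℕ × ℤ × ℕ × ℕ), (∀ c ∈ L, c.1 = q) →
    (L.map fun c => y c.1 (f c)).prod = y q ((L.map f).sum) := by
  have h0 : y q 0 = 1 := by
    have := hy 0 0
    rw [add_zero] at this
    exact left_eq_mul.1 this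
  intro L
  induction L with
  | nil => intro _; simp [h0]
  | cons c L ih =>
    intro h
    rw [List.map_cons, List.prod_cons, ih (fun c hc => h c (List.mem_cons_of_mem _ hc)), h c (List.mem_cons_self ..), ← hy,
      List.map_cons, List.sum_cons]

/-- Steinberg's relations lift to every central extension of a simply laced Chevalley group -/
theorem Good3.lift_SL {D : ChevalleyDatum} {T : Tb} (g : Good3 D T) {F : Type*} [Field F] (hS : SLOK T) {E : Type*} [Group E]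
    (p : E →* GL D.Idx F) (hr : p.range = D.group F) (hc : p.ker ≤ Subgroup.center E) :
    ∃ τ : D.SteinbergCover F →* E, ∀ r < T.n, ∀ t : F, p (τ (D.scGen F r t)) = g.X r t := by
  classical
  let C : CX g F E := ⟨p, hr, hc⟩
  have hex : ∀ r, ∃ a b : ℕ, ∃ κ : F, r < T.n → Dcm g F r a b κ := by
    intro r
    by_cases hr : r < T.n
    · obtain ⟨a0, ha0, hp0, -⟩ := g.sl_conn hS.d2 r hr
      obtain ⟨b0, κ0, d0⟩ := g.dcm_of (F := F) hS hr ha0 hp0
      exact ⟨a0, b0, κ0, fun _ => d0⟩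
    · exact ⟨0, 0, 0, fun h => absurd h hr⟩
  choose a b κ hd using hex
  let y : ℕ → F → E := fun r s => CX.Z (a r) (b r) (κ r) s g C
  have hy1 : ∀ r < T.n, ∀ t u : F, y r (t + u) = y r t * y r u := fun r hr t u => C.Z_add hS (hd r hr) t u
  have hpy : ∀ r < T.n, ∀ t : F, C.p (y r t) = g.X r t := by
    intro r hr t
    show C.p (CX.Z (a r) (b r) (κ r) t g C) = _
    unfold CX.Z
    rw [C.p_dcm (hd r hr)]
    have := (hd r hr).hκ
    congr 1
    field_simp
  have hy3 : ∀ {r a b : ℕ} {κ : F}, Dcm g F r a b κ → ∀ t u : F, C.cm (g.X a t) (g.X b u) = y r (κ * (t * u)) := by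
    intro r a' b' κ' d t u
    have hκ := d.hκ
    have e := C.Z_ind hS (hd r d.hr) d (κ' * (t * u))
    show _ = CX.Z (a r) (b r) (κ r) (κ' * (t * u)) g C
    rw [e, C.dcm_prod hS d]
    unfold CX.Z
    congr 2
    field_simp
  obtain ⟨τ, hτ⟩ := g.exists_liftC y hy1 (by
    intro r hr s hs h1 h2 t u
    have hsym := g.sl_sym hS.sl
    rcases lt_or_ge (T.pair r s) 0 with hlt | hge
    · have hps : T.pair s r = -1 := by
        have := g.sl_rg hS.sl r hr s hs h1 h2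
        rw [hsym s hs r hr]; omega
      obtain ⟨q, hq, hsm, k, hk, hX⟩ := g.sl_K (F := F) hS.sl hS.k s hs r hr hps
      have d : Dcm g F q s r k := ⟨hq, hs, hr, hsm, hps, hk, hX⟩
      have hall : ∀ c ∈ Tb.commT T.ent r s, c.1 = q := by
        intro c hc
        obtain ⟨-, -, -, h5, h6⟩ := g.sl_exp hS.sl hr hs h1 h2 c hc
        exact g.sm_uniq (sm_comm h5) hsm h6 hq
      have e1 := prod_add_list (fun r t => g.X r t) q (g.X_add q) (fun c => (c.2.1 : F) * (-t) ^ c.2.2.1 * u ^ c.2.2.2) _ hall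
      have e2 := prod_add_list y q (hy1 q hq) (fun c => (c.2.1 : F) * (-t) ^ c.2.2.1 * u ^ c.2.2.2) _ hall
      rw [e2]
      set S := ((Tb.commT T.ent r s).map (fun c => (c.2.1 : F) * (-t) ^ c.2.2.1 * u ^ c.2.2.2)).sum with hSd
      have hG := g.X_comm (F := F) hr hs h1 h2 t u
      rw [e1] at hG
      have hpa := g.dcm_pa hS d
      have hpb := g.dcm_pb hS d
      have c1 : y q (k * (u * t)) * y r t = y r t * y q (k * (u * t)) := C.lift_comm hS hq hr (by omega) (hpy q hq _) (hpy r hr _)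
      have c2 : y q (k * (u * t)) * y s u = y s u * y q (k * (u * t)) := C.lift_comm hS hq hs (by omega) (hpy q hq _) (hpy s hs _)
      have c3 : y s u * y r t = y q (k * (u * t)) * (y r t * y s u) := by
        rw [← hy3 d u t, ← C.cm_eq (hpy s hs u) (hpy r hr t)]; group
      have c4 : y s u * y r t = y r t * y s u * y q (k * (u * t)) := by
        rw [c3, ← mul_assoc, c1, mul_assoc, c2, mul_assoc]
      rw [c4]
      have e5 := congrArg C.p c4
      rw [map_mul, map_mul, map_mul, hpy s hs, hpy r hr, hpy q hq, hG] at e5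
      have e6 := g.X_inj hq (mul_left_cancel e5)
      have e7 : k * (u * t) = S := e6.symm
      rw [e7]
    · have hnil : Tb.commT T.ent r s = [] := by
        apply List.eq_nil_iff_forall_not_mem.2
        intro c hc
        have := (g.sl_exp hS.sl hr hs h1 h2 c hc).1
        omega
      rw [hnil, List.map_nil, List.prod_nil, mul_one]
      exact (C.lift_comm hS hr hs hge (hpy r hr t) (hpy s hs u)).symm)
  refine ⟨τ, ?_⟩
  intro r hr t
  rw [hτ r hr t]
  exact hpy r hr t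

end CfsgLib.Chev
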