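import Cfsg.Agent.LibSM2

/-! Schur multipliers of Chevalley groups, 3a: the combinatorial checks for E6 and E7 (lead). -/

set_option autoImplicit false
set_option maxRecDepth 100000

namespace CfsgLib.Chev

theorem sl_E6 : SLOK tE6 := ⟨by decide +kernel, by decide +kernel, by decide +kernel, by decide +kernel, by decide +kernel⟩

theorem sl_E7 : SLOK tE7 := ⟨by decide +kernel, by decide +kernel, by decide +kernel, by decide +kernel, by decide +kernel⟩

end CfsgLib.Chev
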