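import Cfsg.Agent.LibSM2

/-! Schur multipliers of Chevalley groups, 3b: the combinatorial checks for E8 (lead). -/

set_option autoImplicit false
set_option maxRecDepth 100000

namespace CfsgLib.Chev

theorem sl_E8 : SLOK tE8 := ⟨by decide +kernel, by decide +kernel, by decide +kernel, by decide +kernel, by decide +kernel⟩

end CfsgLib.Chev
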