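import Cfsg.Agent.LibSt2

set_option autoImplicit false
set_option maxRecDepth 100000
set_option linter.unusedSectionVars false

/-! Embeddings of Steinberg groups; the centre for types E6, E7 -/

namespace CfsgLib.Chev

open Cfsg.Lie Matrix

/-- index map given by digits -/
def io (R r : ℕ) : ℕ := dig 8 256 R r

/-- check of an embedding of root systems compatible with the tables -/
noncomputable def chkEmb (T1 T2 : Tb) (R : ℕ) : Bool :=
  allB T1.n (fun r => Nat.ble (io R r + 1) T2.n && (Nat.beq (io R (T1.n - 1 - r)) (T2.n - 1 - io R r) &&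
    allB T1.n (fun s => (Nat.beq s r || Nat.beq s (T1.n - 1 - r)) || (!Nat.beq (io R s) (io R r) && (!Nat.beq (io R s) (T2.n - 1 - io R r) &&
      eqT (Tb.commT T2.ent (io R r) (io R s)) ((Tb.commT T1.ent r s).map fun c => (io R c.1, c.2)))))))

theorem list_range_prod {M : Type*} [CommMonoid M] (l : ℕ) (f : ℕ → M) : ((List.range l).map f).prod = ∏ i ∈ Finset.range l, f i := by
  induction l with
  | zero => simp
  | succ l ih => rw [List.range_succ, List.map_append, List.prod_append, ih, Finset.prod_range_succ]; simp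

theorem zpow_sum_eq' {M ι : Type*} [CommGroup M] (c : M) (s : Finset ι) (f : ι → ℤ) : c ^ (∑ j ∈ s, f j) = ∏ j ∈ s, c ^ f j := by
  classical
  induction s using Finset.induction_on with
  | empty => simp
  | insert a s ha ih => rw [Finset.sum_insert ha, Finset.prod_insert ha, _root_.zpow_add, ih]

section
variable {D1 D2 : ChevalleyDatum} {T1 T2 : Tb} (g1 : Good3 D1 T1) (g2 : Good3 D2 T2) {F : Type*} [Field F]
include g1 g2

theorem exists_emb {R : ℕ} (h : chkEmb T1 T2 R = true) :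
    (∀ r < T1.n, io R r < T2.n) ∧
    ∃ φ : D1.SteinbergGroup F →* GL D2.Idx F, (∀ r < T1.n, ∀ t : F, φ (D1.stGen F r t) = g2.X (io R r) t) ∧
      (∀ r < T1.n, ∀ c : Fˣ, φ (Hf T1 (D1.stGen F) r (c : F)) = hd D2 T2 (io R r) c) := by
  unfold chkEmb at h
  rw [allB_iff] at h
  have h1 : ∀ r < T1.n, io R r < T2.n := by
    intro r hr
    have := h r hr
    simp only [Bool.and_eq_true, Nat.ble_eq] at this
    omega
  have h2 : ∀ r < T1.n, io R (T1.n - 1 - r) = T2.n - 1 - io R r := by
    intro r hr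
    have := h r hr
    simp only [Bool.and_eq_true, Nat.beq_eq] at this
    exact this.2.1
  have h3 : ∀ r < T1.n, ∀ s < T1.n, s ≠ r → s ≠ T1.n - 1 - r → io R s ≠ io R r ∧ io R s ≠ T2.n - 1 - io R r ∧
      Tb.commT T2.ent (io R r) (io R s) = (Tb.commT T1.ent r s).map fun c => (io R c.1, c.2) := by
    intro r hr s hs hne hne'
    have := h r hr
    rw [Bool.and_eq_true, Bool.and_eq_true] at this
    have := this.2.2
    rw [allB_iff] at this
    have := this s hs
    simp only [Bool.or_eq_true, Bool.and_eq_true, Nat.beq_eq] at this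
    rcases this with (h | h) | ⟨ha, hb, hc⟩
    · exact absurd h hne
    · exact absurd h hne'
    · exact ⟨nbeq_false ha, nbeq_false hb, eqT_sound _ _ hc⟩
  refine ⟨h1, ?_⟩
  have hN : ∀ r < T1.n, ∀ t : F, Hf T1 (fun r t => g2.X (io R r) t) r t = g2.Hg (io R r) t := by
    intro r hr t
    unfold Hf Nf Good3.Hg Good3.Ng
    simp only
    rw [h2 r hr]
  obtain ⟨φ, hφ⟩ := g1.exists_lift (F := F) (fun r t => g2.X (io R r) t) (fun r hr t u => g2.X_add _ t u)
    (fun r hr s hs hne hne' t u => by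
      obtain ⟨ha, hb, hc⟩ := h3 r hr s hs hne hne'
      rw [g2.X_comm (h1 r hr) (h1 s hs) ha hb t u, hc, List.map_map]
      rfl)
    (fun r hr c d => by
      rw [hN r hr, hN r hr, hN r hr, g2.Hg_eq (h1 r hr), g2.Hg_eq (h1 r hr), g2.Hg_eq (h1 r hr), Good3.hd_mul])
  refine ⟨φ, hφ, ?_⟩
  intro r hr c
  have hev := g1.even
  rw [← g2.Hg_eq (h1 r hr), ← hN r hr]
  unfold Hf Nf
  simp only [map_mul]
  rw [hφ r hr, hφ (T1.n - 1 - r) (by omega), hφ r hr, hφ (T1.n - 1 - r) (by omega)]

theorem emb_inj {R : ℕ} (h : chkEmb T1 T2 R = true) (B : List (List ℤ))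
    (hB : ∀ i k : Fin T1.l, ∑ j : Fin T2.l, T2.pair (io R (T1.sim i)) (T2.sim j) * (B.getD j []).getD k 0 = if i = k then 1 else 0)
    (a b : Fin T1.l → Fˣ)
    (hab : ((List.range T1.l).map fun i => Hf T1 (D1.stGen F) (T1.sim i) ((ext1 a i : Fˣ) : F)).prod =
      ((List.range T1.l).map fun i => Hf T1 (D1.stGen F) (T1.sim i) ((ext1 b i : Fˣ) : F)).prod) : a = b := by
  obtain ⟨h1, φ, _, hφ⟩ := exists_emb g1 g2 (F := F) h
  have key : ∀ (L : List ℕ) (a : ℕ → Fˣ), (∀ i ∈ L, i < T1.l) →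
      φ ((L.map fun i => Hf T1 (D1.stGen F) (T1.sim i) ((a i : Fˣ) : F)).prod) =
      dg D2 (fun s => (L.map fun i => (a i) ^ T2.pair (io R (T1.sim i)) s).prod) := by
    intro L a
    induction L with
    | nil =>
      intro _
      simp only [List.map_nil, List.prod_nil, map_one]
      exact Good3.dg_one.symm
    | cons i L ih =>
      intro hL
      rw [List.map_cons, List.prod_cons, map_mul, ih (fun j hj => hL j (List.mem_cons_of_mem _ hj)),
        hφ _ (g1.sim_lt (hL i List.mem_cons_self)), hd, Good3.dg_mul]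
      rfl
  have hval : ∀ (a : Fin T1.l → Fˣ) (s : ℕ), ((List.range T1.l).map fun i => (ext1 a i) ^ T2.pair (io R (T1.sim i)) s).prod =
      ∏ i : Fin T1.l, (a i) ^ T2.pair (io R (T1.sim i)) s := by
    intro a s
    rw [list_range_prod, Finset.prod_range]
    apply Finset.prod_congr rfl
    intro i _
    unfold ext1
    rw [dif_pos i.2]
  have hchi : ∀ s < T2.n, ∏ i : Fin T1.l, (a i) ^ T2.pair (io R (T1.sim i)) s = ∏ i : Fin T1.l, (b i) ^ T2.pair (io R (T1.sim i)) s := by
    intro s hs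
    have e1 := congrArg φ hab
    rw [key _ _ (fun i hi => List.mem_range.1 hi), key _ _ (fun i hi => List.mem_range.1 hi)] at e1
    have e2 := Good3.dg_inj e1 s (by rw [g2.hn]; exact hs)
    rw [← hval, ← hval]
    exact e2
  have hrec : ∀ (a : Fin T1.l → Fˣ) (k : Fin T1.l), a k = ∏ j : Fin T2.l, (∏ i : Fin T1.l, (a i) ^ T2.pair (io R (T1.sim i)) (T2.sim j)) ^ (B.getD j []).getD k 0 := by
    intro a k
    have e1 : ∀ j : Fin T2.l, (∏ i : Fin T1.l, (a i) ^ T2.pair (io R (T1.sim i)) (T2.sim j)) ^ (B.getD j []).getD k 0 =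
        ∏ i : Fin T1.l, (a i) ^ (T2.pair (io R (T1.sim i)) (T2.sim j) * (B.getD j []).getD k 0) := by
      intro j
      rw [← Finset.prod_zpow]
      apply Finset.prod_congr rfl
      intro i _
      rw [_root_.zpow_mul]
    rw [Finset.prod_congr rfl (fun j _ => e1 j), Finset.prod_comm]
    have e2 : ∀ i : Fin T1.l, ∏ j : Fin T2.l, (a i) ^ (T2.pair (io R (T1.sim i)) (T2.sim j) * (B.getD j []).getD k 0) =
        (a i) ^ (if i = k then (1 : ℤ) else 0) := by
      intro i
      rw [← hB i k, zpow_sum_eq']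
    rw [Finset.prod_congr rfl (fun i _ => e2 i), Finset.prod_eq_single k]
    · rw [if_pos rfl, _root_.zpow_one]
    · intro i _ hik
      rw [if_neg hik, _root_.zpow_zero]
    · intro hn; exact absurd (Finset.mem_univ k) hn
  ext1 k
  rw [hrec a k, hrec b k]
  apply Finset.prod_congr rfl
  intro j _
  rw [hchi _ (g2.sim_lt j.2)]

theorem center_card (hT : T1.TrOK) {R : ℕ} (h : chkEmb T1 T2 R = true) (B : List (List ℤ))
    (hB : ∀ i k : Fin T1.l, ∑ j : Fin T2.l, T2.pair (io R (T1.sim i)) (T2.sim j) * (B.getD j []).getD k 0 = if i = k then 1 else 0) :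
    Nat.card (Subgroup.center (D1.SteinbergGroup F)) = Nat.card (CfsgLib.Tor.nu (M := Fˣ) T1.CM).ker := by
  obtain ⟨S, hS⟩ := g1.exists_RG2 (F := F) hT
  have hHb : ∀ (r : ℕ) (t : F), S.Hb r t = Hf T1 (D1.stGen F) r t := by
    intro r t
    rw [← hS]
    rfl
  rw [S.center_eq]
  symm
  refine Nat.card_eq_of_bijective (fun a => ⟨((List.range T1.l).map fun i => S.Hb (T1.sim i) ((ext1 a.1 i : Fˣ) : F)).prod, ?_⟩) ⟨?_, ?_⟩
  · rw [MonoidHom.mem_ker, S.pi_prod]
    have h2 : a.1 ∈ (helHom D1 T1 : (Fin T1.l → Fˣ) →* GL D1.Idx F).ker := by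
      rw [g1.helHom_ker]; exact a.2
    exact MonoidHom.mem_ker.1 h2
  · intro a b hab
    have h3 := Subtype.ext_iff.1 hab
    simp only [hHb] at h3
    exact Subtype.ext (emb_inj g1 g2 h B hB a.1 b.1 h3)
  · rintro ⟨z, hz⟩
    obtain ⟨a, ha, e⟩ := S.ker_prod hz
    exact ⟨⟨a, ha⟩, Subtype.ext e.symm⟩

omit g2 in
theorem card_nu_ker [Fintype F] {P Pi Q Qi : List (List ℤ)} {s : List ℤ} (h : T1.SmithChk P Pi Q Qi s) (hs : s.length = T1.l) :
    Nat.card (CfsgLib.Tor.nu (M := Fˣ) T1.CM).ker = (s.map fun z => Nat.gcd z.natAbs (Fintype.card F - 1)).prod := by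
  have h1 := g1.card_H (F := F)
  have h2 := g1.card_H_list (F := F) h hs
  have hr : (Fintype.card F - 1) ^ D1.rank = (Fintype.card F - 1) ^ T1.l := congrArg _ g1.hl
  rw [hr, ← h1] at h2
  have h3 : 0 < Nat.card (D1.diagonalSubgroup F) := Nat.card_pos
  exact (Nat.eq_of_mul_eq_mul_right h3 h2).symm

end

def RE6 : ℕ := 115405654456261975262062563519370248459153122930113167453877683025277421099657617807453909370359699450632505700151916789492471309899131733474062792756324204620920313313298950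

theorem emb_E6 : chkEmb tE6 tE7 RE6 = true := by decide +kernel

theorem embB_E6 : ∀ i k : Fin tE6.l, ∑ j : Fin tE7.l, tE7.pair (io RE6 (tE6.sim i)) (tE7.sim j) * (([[-2, 1, -1, 0, 0, 0], [-4, 2, -2, 0, 0, 0], [-5, 2, -2, 0, 0, 0], [-8, 3, -4, 0, 0, 0], [-7, 2, -4, -1, 0, 0], [-6, 1, -4, -2, -1, 0], [-5, 0, -4, -3, -2, -1]] : List (List ℤ)).getD j []).getD k 0 = if i = k then 1 else 0 := by
  decide +kernel

def RE7 : ℕ := 2430810997004866598444401240238742686892022899567541319682954425287167460260763023210395046641608905787741593400045937092517025071470630088513929100882265937055017271469174884988986077504446333275414838194854552575824525579080592657593264928194488327118387149962421491912665312065144265886464730302321677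

theorem emb_E7 : chkEmb tE7 tE8 RE7 = true := by decide +kernel

theorem embB_E7 : ∀ i k : Fin tE7.l, ∑ j : Fin tE8.l, tE8.pair (io RE7 (tE7.sim i)) (tE8.sim j) * (([[-2, 1, -1, 0, 0, 0, 0], [-4, 2, -2, 0, 0, 0, 0], [-5, 2, -2, 0, 0, 0, 0], [-8, 3, -4, 0, 0, 0, 0], [-7, 2, -4, -1, 0, 0, 0], [-6, 1, -4, -2, -1, 0, 0], [-5, 0, -4, -3, -2, -1, 0], [-4, -1, -4, -4, -3, -2, -1]] : List (List ℤ)).getD j []).getD k 0 = if i = k then 1 else 0 := by
  decide +kernel

end CfsgLib.Chev
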