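import Cfsg.Agent.LibSM3a
import Cfsg.Agent.LibSM3b
import Cfsg.Agent.LibSchur2
import Cfsg.Agent.LibSt2
import Cfsg.Agent.LibStEmb

/-! Schur multipliers of Chevalley groups, 4: assembly (lead). -/

set_option autoImplicit false
set_option linter.unusedSectionVars false

namespace CfsgLib.Chev

open Cfsg.Lie Matrix
open scoped commutatorElement

section general

universe u

theorem stem_lift_surj {G Γ₀ Γ : Type*} [Group G] [Group Γ₀] [Group Γ] (σ : Γ →* G) (hσ : Cfsg.IsStemExtension σ) (σ₀ : Γ₀ →* G)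
    (h₀ : Function.Surjective σ₀) (τ : Γ₀ →* Γ) (h : σ.comp τ = σ₀) : Function.Surjective τ := by
  have key : ∀ x : Γ, ∃ y : Γ₀, ∃ z ∈ σ.ker, x = τ y * z := by
    intro x
    obtain ⟨y, hy⟩ := h₀ (σ x)
    refine ⟨y, (τ y)⁻¹ * x, ?_, by group⟩
    rw [MonoidHom.mem_ker, map_mul, map_inv]
    have : σ (τ y) = σ₀ y := DFunLike.congr_fun h y
    rw [this, hy, inv_mul_cancel]
  have hcm := Schur.commutator_eq_map τ (fun x => by
    obtain ⟨y, z, hz, e⟩ := key x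
    exact ⟨y, z, hσ.2.1 hz, e⟩)
  intro x
  obtain ⟨y, z, hz, rfl⟩ := key x
  have hz2 := hσ.2.2 hz
  rw [hcm] at hz2
  obtain ⟨w, -, rfl⟩ := hz2
  exact ⟨y * w, map_mul _ _ _⟩

theorem hasCyclic_of_univ {G Γ₀ : Type u} [Group G] [Group Γ₀] [Finite Γ₀] (σ₀ : Γ₀ →* G) (hs : Function.Surjective σ₀)
    (hc : σ₀.ker ≤ Subgroup.center Γ₀) (hp : commutator Γ₀ = ⊤)
    (hU : ∀ (Γ : Type u) [Group Γ] [Finite Γ] (σ : Γ →* G), Function.Surjective σ → σ.ker ≤ Subgroup.center Γ → ∃ τ : Γ₀ →* Γ, σ.comp τ = σ₀)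
    {n : ℕ} (e : Nonempty (σ₀.ker ≃* Multiplicative (ZMod n))) : Cfsg.HasCyclicSchurMultiplier G n := by
  obtain ⟨e⟩ := e
  refine ⟨⟨Γ₀, inferInstance, inferInstance, σ₀, ⟨hs, hc, by rw [hp]; exact le_top⟩, ⟨e⟩⟩, ?_⟩
  intro Γ _ _ σ hσ
  obtain ⟨τ, hτ⟩ := hU Γ σ hσ.1 hσ.2.1
  have hτs := stem_lift_surj σ hσ σ₀ hs τ hτ
  let f : σ₀.ker →* σ.ker := (τ.comp σ₀.ker.subtype).codRestrict σ.ker (fun x => by
    rw [MonoidHom.mem_ker]
    have h1 : σ (τ (x : Γ₀)) = σ₀ (x : Γ₀) := DFunLike.congr_fun hτ (x : Γ₀)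
    exact h1.trans (MonoidHom.mem_ker.1 x.2))
  have hf : Function.Surjective f := by
    rintro ⟨x, hx⟩
    obtain ⟨y, rfl⟩ := hτs x
    refine ⟨⟨y, ?_⟩, Subtype.ext rfl⟩
    rw [MonoidHom.mem_ker] at hx ⊢
    rw [← hx, ← hτ]; rfl
  exact ⟨f.comp e.symm.toMonoidHom, hf.comp e.symm.surjective⟩

theorem perfect_of_stem {G Γ : Type*} [Group G] [Group Γ] (σ : Γ →* G) (hσ : Cfsg.IsStemExtension σ) (hG : commutator G = ⊤) :
    commutator Γ = ⊤ := by
  rw [eq_top_iff]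
  intro x _
  have h1 : (commutator Γ).map σ = ⊤ := by
    rw [commutator_def, Subgroup.map_commutator, ← MonoidHom.range_eq_map, MonoidHom.range_eq_top.2 hσ.1, ← commutator_def, hG]
  have h2 : σ x ∈ (commutator Γ).map σ := by rw [h1]; exact Subgroup.mem_top _
  obtain ⟨y, hy, e⟩ := h2
  have h3 : y⁻¹ * x ∈ commutator Γ := hσ.2.2 (by rw [MonoidHom.mem_ker, map_mul, map_inv, e, inv_mul_cancel])
  have : x = y * (y⁻¹ * x) := by group
  rw [this]
  exact mul_mem hy h3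

/-- an element that is central modulo a central kernel is central, in a perfect group -/
theorem central_of_perfect {G Γ : Type*} [Group G] [Group Γ] (σ : Γ →* G) (hc : σ.ker ≤ Subgroup.center Γ) (hp : commutator Γ = ⊤) {x : Γ}
    (hx : ∀ y, σ y * σ x = σ x * σ y) : x ∈ Subgroup.center Γ := by
  have h1 : ∀ y, x * y * x⁻¹ * y⁻¹ ∈ Subgroup.center Γ := by
    intro y
    apply hc
    rw [MonoidHom.mem_ker, map_mul, map_mul, map_mul, map_inv, map_inv, ← hx]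
    group
  have h2 : ∀ y z : Γ, x * (y * z) * x⁻¹ * (y * z)⁻¹ = (x * y * x⁻¹ * y⁻¹) * (x * z * x⁻¹ * z⁻¹) := by
    intro y z
    have h3 := Subgroup.mem_center_iff.1 (h1 z) y
    have e1 : x * (y * z) * x⁻¹ * (y * z)⁻¹ = (x * y * x⁻¹ * y⁻¹) * (y * (x * z * x⁻¹ * z⁻¹)) * y⁻¹ := by group
    rw [e1, h3]
    group
  have h3 : commutator Γ ≤ Subgroup.centralizer {x} := by
    rw [commutator_def, Subgroup.commutator_le]
    intro a _ b _
    rw [Subgroup.mem_centralizer_singleton_iff, commutatorElement_def]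
    have c1 : x * a⁻¹ * x⁻¹ * (a⁻¹)⁻¹ = (x * a * x⁻¹ * a⁻¹)⁻¹ := by
      have := h2 a a⁻¹
      rw [mul_inv_cancel] at this
      rw [eq_inv_iff_mul_eq_one, Subgroup.mem_center_iff.1 (h1 a), ← this]; group
    have c2 : x * b⁻¹ * x⁻¹ * (b⁻¹)⁻¹ = (x * b * x⁻¹ * b⁻¹)⁻¹ := by
      have := h2 b b⁻¹
      rw [mul_inv_cancel] at this
      rw [eq_inv_iff_mul_eq_one, Subgroup.mem_center_iff.1 (h1 b), ← this]; group
    have h4 := h2 (a * b * a⁻¹) b⁻¹
    rw [h2 (a * b) a⁻¹, h2 a b, c1, c2] at h4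
    have h5 : x * (a * b * a⁻¹ * b⁻¹) * x⁻¹ * (a * b * a⁻¹ * b⁻¹)⁻¹ = 1 := by
      rw [h4, Subgroup.mem_center_iff.1 (h1 b) (x * a * x⁻¹ * a⁻¹)]
      group
    have h6 : x * (a * b * a⁻¹ * b⁻¹) = (x * (a * b * a⁻¹ * b⁻¹) * x⁻¹ * (a * b * a⁻¹ * b⁻¹)⁻¹) * ((a * b * a⁻¹ * b⁻¹) * x) := by group
    rw [h6, h5, one_mul]
  rw [Subgroup.mem_center_iff]
  intro y
  have h4 : y ∈ Subgroup.centralizer {x} := h3 (by rw [hp]; exact Subgroup.mem_top y)
  rw [Subgroup.mem_centralizer_singleton_iff] at h4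
  exact h4

theorem hasCyclic_one_of_cover {G Γ₀ : Type u} [Group G] [Group Γ₀] [Finite Γ₀] (σ₀ : Γ₀ →* G) (hs : Function.Surjective σ₀)
    (hc : σ₀.ker ≤ Subgroup.center Γ₀) (hp : commutator Γ₀ = ⊤)
    (hU : ∀ (Γ : Type u) [Group Γ] [Finite Γ] (σ : Γ →* G), Function.Surjective σ → σ.ker ≤ Subgroup.center Γ → ∃ τ : Γ₀ →* Γ, σ.comp τ = σ₀) :
    Cfsg.HasCyclicSchurMultiplier Γ₀ 1 := by
  rw [Schur.hasCyclic_one_iff']
  intro Γ _ _ σ hσ
  have hpΓ := perfect_of_stem σ hσ hp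
  have hcc : (σ₀.comp σ).ker ≤ Subgroup.center Γ := by
    intro x hx
    apply central_of_perfect σ hσ.2.1 hpΓ
    have : σ x ∈ Subgroup.center Γ₀ := hc hx
    exact fun y => Subgroup.mem_center_iff.1 this _
  obtain ⟨τ, hτ⟩ := hU Γ (σ₀.comp σ) (hs.comp hσ.1) hcc
  have hτs := stem_lift_surj (σ₀.comp σ) ⟨hs.comp hσ.1, hcc, by rw [hpΓ]; exact le_top⟩ σ₀ hs τ hτ
  have e : σ.comp τ = MonoidHom.id Γ₀ := by
    apply hom_eq_of_central hp _ _ σ₀ hc
    rw [MonoidHom.comp_id, ← MonoidHom.comp_assoc, hτ]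
  rw [eq_bot_iff]
  intro x hx
  obtain ⟨y, rfl⟩ := hτs x
  have : y = 1 := by
    have h1 : σ (τ y) = y := DFunLike.congr_fun e y
    rw [← h1]; exact hx
  rw [this, map_one]; exact Subgroup.one_mem _

theorem equiv_zmod_of_card {K : Type*} [Group K] {n : ℕ} (hn : n = 1 ∨ n.Prime) (h : Nat.card K = n) : Nonempty (K ≃* Multiplicative (ZMod n)) := by
  have hcyc : IsCyclic K := by
    rcases hn with rfl | hn
    · have := Nat.card_eq_one_iff_unique.1 h
      have := this.1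
      infer_instance
    · have : Fact n.Prime := ⟨hn⟩
      exact isCyclic_of_prime_card h
  subst h
  exact ⟨(zmodCyclicMulEquiv hcyc).symm⟩

end general

section
variable {D : ChevalleyDatum} {T : Tb} (g : Good3 D T)
include g

theorem Good3.finite_st {F : Type*} [Field F] [Finite F] (hT : T.TrOK) : Finite (D.SteinbergGroup F) := by
  obtain ⟨R, hR⟩ := g.exists_RG2 (F := F) hT
  obtain ⟨θ, hs, hk, -⟩ := g.steinberg (F := F) hT
  apply Schur.finite_of_ker θ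
  rw [hk, R.center_eq]
  let f : (Fin T.l → Fˣ) → D.SteinbergGroup F := fun a => ((List.range T.l).map fun i => R.Hb (T.sim i) ((ext1 a i : Fˣ) : F)).prod
  have hsub : (R.pi.ker : Set (D.SteinbergGroup F)) ⊆ Set.range f := by
    intro z hz
    obtain ⟨a, -, e⟩ := R.ker_prod hz
    exact ⟨a, e.symm⟩
  exact ((Set.finite_range f).subset hsub).to_subtype

theorem Good3.st_univ {F : Type*} [Field F]
    (hcov : ∃ e : D.SteinbergCover F ≃* D.SteinbergGroup F, ∀ (r : ℕ) (t : F), e (D.scGen F r t) = D.stGen F r t)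
    (θ : D.SteinbergGroup F →* ↥(D.group F))
    (hθ : ∀ (r : ℕ) (t : F), r < D.nroots → ((θ (D.stGen F r t) : GL D.Idx F) : Matrix D.Idx D.Idx F) = D.x F r t)
    {Γ : Type*} [Group Γ] (σ : Γ →* ↥(D.group F)) (hs : Function.Surjective σ) (hc : σ.ker ≤ Subgroup.center Γ)
    (hlift : ∀ (p : Γ →* GL D.Idx F), p.range = D.group F → p.ker ≤ Subgroup.center Γ →
      ∃ τ : D.SteinbergCover F →* Γ, ∀ r < T.n, ∀ t : F, p (τ (D.scGen F r t)) = g.X r t) :
    ∃ τ : D.SteinbergGroup F →* Γ, σ.comp τ = θ := by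
  obtain ⟨e, he⟩ := hcov
  obtain ⟨τ, hτ⟩ := hlift ((D.group F).subtype.comp σ) (by
    rw [MonoidHom.range_comp, MonoidHom.range_eq_top.2 hs, ← MonoidHom.range_eq_map, Subgroup.range_subtype]) (by
    intro x hx
    apply hc
    rw [MonoidHom.mem_ker] at hx ⊢
    exact Subtype.ext hx)
  refine ⟨τ.comp e.symm.toMonoidHom, ?_⟩
  apply PresentedGroup.ext
  rintro ⟨r, t⟩
  have hr : (r : ℕ) < T.n := lt_of_lt_of_eq r.2 g.hn
  have e1 : (PresentedGroup.of (rels := D.steinbergRels F) (r, t)) = D.stGen F r t := by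
    unfold ChevalleyDatum.stGen ChevalleyDatum.stX
    rw [dif_pos r.2]
    rfl
  rw [e1]
  apply Subtype.ext
  apply Units.ext
  rw [hθ r t r.2]
  have h1 := hτ r hr t
  show (((σ (τ (e.symm (D.stGen F r t))) : ↥(D.group F)) : GL D.Idx F) : Matrix D.Idx D.Idx F) = _
  rw [← he, e.symm_apply_apply]
  have h2 : ((σ (τ (D.scGen F r t)) : ↥(D.group F)) : GL D.Idx F) = g.X r t := h1
  rw [h2]
  rfl

omit g in
theorem perf_of_surj {A B : Type*} [Group A] [Group B] (f : A →* B) (hf : Function.Surjective f) (hA : commutator A = ⊤) :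
    commutator B = ⊤ := by
  have h : (commutator A).map f = commutator B := by
    rw [commutator_def, Subgroup.map_commutator, ← MonoidHom.range_eq_map, MonoidHom.range_eq_top.2 hf, ← commutator_def]
  rw [← h, hA, ← MonoidHom.range_eq_map, MonoidHom.range_eq_top.2 hf]

omit g in
theorem perf_st {F : Type*} [Field F]
    (hcov : ∃ e : D.SteinbergCover F ≃* D.SteinbergGroup F, ∀ (r : ℕ) (t : F), e (D.scGen F r t) = D.stGen F r t)
    (hp : commutator (D.SteinbergCover F) = ⊤) : commutator (D.SteinbergGroup F) = ⊤ := by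
  obtain ⟨e, -⟩ := hcov
  exact perf_of_surj e.toMonoidHom e.surjective hp

theorem Good3.hasCyclic.{u} {F : Type u} [Field F] [Finite F] (hT : T.TrOK)
    (hcov : ∃ e : D.SteinbergCover F ≃* D.SteinbergGroup F, ∀ (r : ℕ) (t : F), e (D.scGen F r t) = D.stGen F r t)
    (hp : commutator (D.SteinbergCover F) = ⊤)
    (hlift : ∀ (Γ : Type u) [Group Γ] [Finite Γ] (p : Γ →* GL D.Idx F), p.range = D.group F → p.ker ≤ Subgroup.center Γ →
      ∃ τ : D.SteinbergCover F →* Γ, ∀ r < T.n, ∀ t : F, p (τ (D.scGen F r t)) = g.X r t)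
    {n : ℕ} (hn : n = 1 ∨ n.Prime) (hcard : Nat.card (Subgroup.center (D.SteinbergGroup F)) = n) :
    Cfsg.HasCyclicSchurMultiplier ↥(D.group F) n := by
  obtain ⟨θ, hs, hk, hθ⟩ := g.steinberg (F := F) hT
  have := g.finite_st (F := F) hT
  refine hasCyclic_of_univ θ hs hk.le (perf_st hcov hp) ?_ (equiv_zmod_of_card hn (by rw [hk]; exact hcard))
  intro Γ _ _ σ hσ hc
  exact g.st_univ hcov θ hθ σ hσ hc (fun p h1 h2 => hlift Γ p h1 h2)

theorem Good3.hasCyclic_st.{u} {F : Type u} [Field F] [Finite F] (hT : T.TrOK)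
    (hcov : ∃ e : D.SteinbergCover F ≃* D.SteinbergGroup F, ∀ (r : ℕ) (t : F), e (D.scGen F r t) = D.stGen F r t)
    (hp : commutator (D.SteinbergCover F) = ⊤)
    (hlift : ∀ (Γ : Type u) [Group Γ] [Finite Γ] (p : Γ →* GL D.Idx F), p.range = D.group F → p.ker ≤ Subgroup.center Γ →
      ∃ τ : D.SteinbergCover F →* Γ, ∀ r < T.n, ∀ t : F, p (τ (D.scGen F r t)) = g.X r t) :
    Cfsg.HasCyclicSchurMultiplier (D.SteinbergGroup F) 1 := by
  obtain ⟨θ, hs, hk, hθ⟩ := g.steinberg (F := F) hT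
  have := g.finite_st (F := F) hT
  refine hasCyclic_one_of_cover θ hs hk.le (perf_st hcov hp) ?_
  intro Γ _ _ σ hσ hc
  exact g.st_univ hcov θ hθ σ hσ hc (fun p h1 h2 => hlift Γ p h1 h2)

end

end CfsgLib.Chev
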