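import Cfsg.Agent.LibSM4

/-! Schur multipliers of Chevalley groups, 5: E6, E7, E8, assuming (R3) follows from (R1), (R2) (lead). -/

set_option autoImplicit false
set_option maxRecDepth 100000

namespace CfsgLib.Chev

open Cfsg.Lie Matrix

universe u

theorem ne_of_n {D D' : ChevalleyDatum} {T T' : Tb} (g : Good3 D T) (g' : Good3 D' T') (h : T.n ≠ T'.n) : D ≠ D' := by
  intro e
  subst e
  exact h (g.hn.symm.trans g'.hn)

theorem perf_sc {D : ChevalleyDatum} {T : Tb} (g : Good3 D T) {F : Type*} [Field F]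
    (hD : D ∈ [chevG2, chevB2, chevD4, chevF4, chevE6, chevE7, chevE8]) (h1 : T.n ≠ tB2.n) (h2 : T.n ≠ tG2.n) :
    commutator (D.SteinbergCover F) = ⊤ := by
  obtain ⟨T', g', hT', h⟩ := RG3.perf_all (Γ := D.SteinbergCover F) (F := F) hD (by
    intro hm
    simp only [List.mem_cons, List.not_mem_nil, or_false] at hm
    rcases hm with hm | hm
    · exact absurd hm (ne_of_n g good3_B2 h1)
    · exact absurd hm (ne_of_n g good3_G2 h2))
  obtain ⟨R, -⟩ := g'.exists_RG3 (F := F) hT'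
  exact h R

theorem one_or_prime_gcd {p m : ℕ} (hp : p.Prime) : Nat.gcd p m = 1 ∨ (Nat.gcd p m).Prime := by
  rcases (Nat.dvd_prime hp).1 (Nat.gcd_dvd_left p m) with h | h
  · exact Or.inl h
  · exact Or.inr (h.symm ▸ hp)

/-- (R3) is a consequence of (R1), (R2) -/
def Cov (D : ChevalleyDatum) (F : Type u) [Field F] : Prop :=
  ∃ e : D.SteinbergCover F ≃* D.SteinbergGroup F, ∀ (r : ℕ) (t : F), e (D.scGen F r t) = D.stGen F r t

theorem mult_E6 {F : Type u} [Field F] [Fintype F] (h : Cov chevE6 F) :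
    Cfsg.HasCyclicSchurMultiplier ↥(chevE6.group F) (Nat.gcd 3 (Fintype.card F - 1)) := by
  refine good3_E6.hasCyclic tr_E6 h (perf_sc good3_E6 (by simp) (by decide) (by decide)) ?_ (one_or_prime_gcd Nat.prime_three) ?_
  · intro Γ _ _ p hr hc
    exact good3_E6.lift_SL sl_E6 p hr hc
  · rw [center_card good3_E6 good3_E7 tr_E6 emb_E6 _ embB_E6, card_nu_ker good3_E6 smith_E6 rfl]
    simp

theorem mult_E7 {F : Type u} [Field F] [Fintype F] (h : Cov chevE7 F) :
    Cfsg.HasCyclicSchurMultiplier ↥(chevE7.group F) (Nat.gcd 2 (Fintype.card F - 1)) := by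
  refine good3_E7.hasCyclic tr_E7 h (perf_sc good3_E7 (by simp) (by decide) (by decide)) ?_ (one_or_prime_gcd Nat.prime_two) ?_
  · intro Γ _ _ p hr hc
    exact good3_E7.lift_SL sl_E7 p hr hc
  · rw [center_card good3_E7 good3_E8 tr_E7 emb_E7 _ embB_E7, card_nu_ker good3_E7 smith_E7 rfl]
    simp

theorem mult_E8 {F : Type u} [Field F] [Fintype F] (h : Cov chevE8 F) :
    Cfsg.HasCyclicSchurMultiplier ↥(chevE8.group F) 1 := by
  refine good3_E8.hasCyclic tr_E8 h (perf_sc good3_E8 (by simp) (by decide) (by decide)) ?_ (Or.inl rfl) ?_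
  · intro Γ _ _ p hr hc
    exact good3_E8.lift_SL sl_E8 p hr hc
  · rw [Subgroup.card_eq_one]
    exact good3_E8.steinberg_center_trivial tr_E8 smith_E8 (by decide)

theorem mult_st_E6 {F : Type u} [Field F] [Finite F] (h : Cov chevE6 F) :
    Cfsg.HasCyclicSchurMultiplier (chevE6.SteinbergGroup F) 1 := by
  refine good3_E6.hasCyclic_st tr_E6 h (perf_sc good3_E6 (by simp) (by decide) (by decide)) ?_
  intro Γ _ _ p hr hc
  exact good3_E6.lift_SL sl_E6 p hr hc

theorem mult_st_E7 {F : Type u} [Field F] [Finite F] (h : Cov chevE7 F) :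
    Cfsg.HasCyclicSchurMultiplier (chevE7.SteinbergGroup F) 1 := by
  refine good3_E7.hasCyclic_st tr_E7 h (perf_sc good3_E7 (by simp) (by decide) (by decide)) ?_
  intro Γ _ _ p hr hc
  exact good3_E7.lift_SL sl_E7 p hr hc

end CfsgLib.Chev
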