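import Cfsg.Agent.LibSM5

/-! Schur multipliers of Chevalley groups, 6: G2 over fields with at least five elements (lead). -/

set_option autoImplicit false
set_option maxRecDepth 100000

namespace CfsgLib.Chev

open Cfsg.Lie Matrix

universe u

theorem mult_G2 {F : Type u} [Field F] [Fintype F] (h : Cov chevG2 F) (hF : 5 ≤ Fintype.card F) :
    Cfsg.HasCyclicSchurMultiplier ↥(chevG2.group F) 1 := by
  have hK5 : ∃ s : Finset F, 4 < s.card := ⟨Finset.univ, by rw [Finset.card_univ]; omega⟩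
  obtain ⟨hF', v, h0, h1, -⟩ := field_five hK5
  obtain ⟨a, ha⟩ := hF' 2 (by omega)
  have ha' : (a : F) ^ 2 - 1 ≠ 0 := by
    intro h
    apply ha
    apply Units.ext
    push_cast
    exact sub_eq_zero.1 h
  have hperf : commutator (chevG2.SteinbergCover F) = ⊤ := by
    obtain ⟨T', g', hT', h⟩ := RG3.perf_all (Γ := chevG2.SteinbergCover F) (F := F) (D := chevG2) (by simp) (fun _ => ⟨v, h0, h1⟩)
    obtain ⟨R, -⟩ := g'.exists_RG3 (F := F) hT'
    exact h R
  refine good3_G2.hasCyclic tr_G2 h hperf ?_ (Or.inl rfl) ?_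
  · intro Γ _ _ p hr hc
    let C : CE good3_G2 F Γ := ⟨p, hr, hc, a, ha'⟩
    obtain ⟨τ, hτ⟩ := good3_G2.lift_CE pq_G2 self_G2 hK5 C
    exact ⟨τ, fun r hr t => by rw [hτ r hr t]; exact C.p_y hr t⟩
  · rw [Subgroup.card_eq_one]
    exact good3_G2.steinberg_center_trivial tr_G2 smith_G2 (by decide)

end CfsgLib.Chev
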