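import Cfsg.Agent.LibSM7

/-! Schur multipliers of Chevalley groups, 8: canonical lifts by torus elements (lead). -/

set_option autoImplicit false
set_option linter.unusedSectionVars false

namespace CfsgLib.Chev

open Cfsg.Lie Matrix

namespace Good3

variable {D : ChevalleyDatum} {T : Tb} (g : Good3 D T) {F : Type*} [Field F]
include g

theorem hd_G {q : ℕ} (hq : q < T.n) (a : Fˣ) : hd D T q a ∈ D.group F := g.H_le_G (g.hd_mem hq a)

omit g in
theorem hd_cm (q q' : ℕ) (a a' : Fˣ) : hd D T q a * hd D T q' a' = hd D T q' a' * hd D T q a := by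
  rw [hd, hd, Good3.dg_mul, Good3.dg_mul]
  apply Good3.dg_congr
  intro k _
  rw [mul_comm]

end Good3

namespace CX

variable {D : ChevalleyDatum} {T : Tb} {g : Good3 D T} {F : Type*} [Field F] {E : Type*} [Group E] (C : CX g F E)

/-- central elements from commuting images -/
theorem cm_central {x z : GL D.Idx F} (hx : x ∈ D.group F) (hz : z ∈ D.group F) (hxz : x * z = z * x) : C.p (C.cm x z) = 1 := by
  rw [C.p_cm hx hz, hxz]; group

theorem cm_conj_inv (e : E) {x y : GL D.Idx F} (hx : x ∈ D.group F) (hy : y ∈ D.group F) (hxy : x * y = y * x) :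
    C.cm (C.p e * x * (C.p e)⁻¹) (C.p e * y * (C.p e)⁻¹) = C.cm x y := by
  rw [← C.cm_conj e hx hy]
  have h := C.central (C.cm_central hx hy hxy) e
  rw [← h]; group

/-- vanishing by a torus element -/
theorem cm_tor {r s : ℕ} (hcomm : ∀ t u : F, g.X s u * g.X r t = g.X r t * g.X s u) {e : E} {χ : Fˣ}
    (h1 : ∀ t : F, C.p e * g.X r t * (C.p e)⁻¹ = g.X r t) (h2 : ∀ u : F, C.p e * g.X s u * (C.p e)⁻¹ = g.X s ((χ : F) * u))
    (h : χ ≠ 1) (t u : F) : C.cm (g.X s u) (g.X r t) = 1 := by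
  have hne : ((χ : F)) - 1 ≠ 0 := by
    intro h'; apply h; rw [sub_eq_zero] at h'; exact Units.ext h'
  have hinv : ∀ w : F, C.cm (g.X s ((χ : F) * w)) (g.X r t) = C.cm (g.X s w) (g.X r t) := by
    intro w
    have := C.cm_conj_inv e (g.X_mem_G s w) (g.X_mem_G r t) (hcomm t w)
    rwa [h1, h2] at this
  have hadd : ∀ w w' : F, C.cm (g.X s (w + w')) (g.X r t) = C.cm (g.X s w') (g.X r t) * C.cm (g.X s w) (g.X r t) := by
    intro w w'
    rw [g.X_add]
    exact C.cm_mul_cent (g.X_mem_G _ _) (g.X_mem_G _ _) (g.X_mem_G _ _) (hcomm _ _)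
  have h3 := hadd (u / ((χ : F) - 1)) u
  rw [show u / ((χ : F) - 1) + u = (χ : F) * (u / ((χ : F) - 1)) by field_simp; ring, hinv] at h3
  exact (right_eq_mul.1 h3)

/-- canonical lifts attached to a torus element -/
noncomputable def V (q : ℕ) (a : Fˣ) (r : ℕ) (t : F) : E :=
  C.cm (hd D T q a) (g.X r (t / (((a ^ T.pair q r : Fˣ) : F) - 1)))

theorem sub_one_ne {a : Fˣ} (h : a ≠ 1) : ((a : Fˣ) : F) - 1 ≠ 0 := by
  intro h'; apply h; rw [sub_eq_zero] at h'; exact Units.ext h'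

theorem p_V {q r : ℕ} (hq : q < T.n) (hr : r < T.n) {a : Fˣ} (ha : a ^ T.pair q r ≠ 1) (t : F) : C.p (C.V q a r t) = g.X r t := by
  unfold V
  have h := sub_one_ne ha
  rw [C.p_cm (g.hd_G hq a) (g.X_mem_G _ _), g.hd_X hr hq, ← g.X_neg, ← g.X_add]
  congr 1
  field_simp
  ring

theorem V_add {q r : ℕ} (hq : q < T.n) (hr : r < T.n) {a : Fˣ} (ha : a ^ T.pair q r ≠ 1)
    (hself : ∀ t u : F, C.cm (g.X r t) (g.X r u) = 1) (t u : F) : C.V q a r (t + u) = C.V q a r t * C.V q a r u := by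
  set c := (((a ^ T.pair q r : Fˣ) : F) - 1) with hc
  set h := C.lf (hd D T q a) with hh
  set x := C.lf (g.X r (t / c)) with hx
  set y := C.lf (g.X r (u / c)) with hy
  have ph : C.p h = hd D T q a := C.p_lf (g.hd_G hq a)
  have px : C.p x = g.X r (t / c) := C.p_lf (g.X_mem_G _ _)
  have py : C.p y = g.X r (u / c) := C.p_lf (g.X_mem_G _ _)
  have e1 : C.V q a r (t + u) = h * (x * y) * h⁻¹ * (x * y)⁻¹ := by
    unfold V
    rw [← C.cm_eq ph (f := x * y) (y := g.X r ((t + u) / c))]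
    rw [map_mul, px, py, ← g.X_add, add_div]
  have e2 : C.V q a r t = h * x * h⁻¹ * x⁻¹ := by
    unfold V; rw [← C.cm_eq ph px]
  have e3 : C.V q a r u = h * y * h⁻¹ * y⁻¹ := by
    unfold V; rw [← C.cm_eq ph py]
  have e4 : x * C.V q a r u = C.V q a r u * x := C.comm_of_cm px (C.p_V hq hr ha u) (hself _ _)
  rw [e1, e2]
  have e5 : h * (x * y) * h⁻¹ * (x * y)⁻¹ = (h * x * h⁻¹ * x⁻¹) * (x * (h * y * h⁻¹ * y⁻¹) * x⁻¹) := by group
  rw [e5, ← e3, e4]
  group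

theorem hd_V {e : E} {s : ℕ} (hs : s < T.n) {v : Fˣ} (he : C.p e = hd D T s v) {q r : ℕ} (hq : q < T.n) (hr : r < T.n) (a : Fˣ) (t : F) :
    e * C.V q a r t * e⁻¹ = C.V q a r (((v ^ T.pair s r : Fˣ) : F) * t) := by
  unfold V
  rw [C.cm_conj e (g.hd_G hq a) (g.X_mem_G _ _), he, g.hd_X hr hs, Good3.hd_cm s q v a, mul_assoc (hd D T q a), mul_inv_cancel, mul_one,
    mul_div_assoc]

theorem V_indep {q q' r : ℕ} (hq : q < T.n) (hq' : q' < T.n) (hr : r < T.n) {a a' : Fˣ} (ha : a ^ T.pair q r ≠ 1) (ha' : a' ^ T.pair q' r ≠ 1)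
    (hself : ∀ t u : F, C.cm (g.X r t) (g.X r u) = 1) (t : F) : C.V q' a' r t = C.V q a r t := by
  have h := sub_one_ne ha'
  set c := (((a' ^ T.pair q' r : Fˣ) : F) - 1) with hc
  have ph : C.p (C.lf (hd D T q' a')) = hd D T q' a' := C.p_lf (g.hd_G hq' a')
  have e1 : C.V q' a' r t = C.lf (hd D T q' a') * C.V q a r (t / c) * (C.lf (hd D T q' a'))⁻¹ * (C.V q a r (t / c))⁻¹ := by
    unfold V
    rw [← C.cm_eq ph (C.p_V hq hr ha (t / c))]
    rfl
  have e2 := C.V_add hq hr ha hself t (t / c)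
  rw [e1, C.hd_V hq' ph hq hr, mul_inv_eq_iff_eq_mul, ← e2]
  congr 1
  have : (((a' ^ T.pair q' r : Fˣ) : F)) = c + 1 := by rw [hc]; ring
  rw [this]
  field_simp

theorem nw_V {e : E} {w : List ℕ} (hw : VW T w) (he : C.p e = g.nw w) {q r : ℕ} (hq : q < T.n) (hr : r < T.n) (a : Fˣ) (t : F) :
    e * C.V q a r t * e⁻¹ = C.V (wact T w q) a (wact T w r) (((sgn T w r : ℤ) : F) * t) := by
  unfold V
  rw [C.cm_conj e (g.hd_G hq a) (g.X_mem_G _ _), he, g.nw_hd hw hq, g.nw_X hw hr, g.pair_wact hw hq hr, mul_div_assoc]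

/-- lifting by canonical lifts -/
theorem lift_tor (hself : ∀ r < T.n, ∀ t u : F, C.cm (g.X r t) (g.X r u) = 1)
    (hq : ∀ r < T.n, ∃ q < T.n, ∃ a : Fˣ, a ^ T.pair q r ≠ 1)
    (htor : ∀ r < T.n, ∀ s < T.n, s ≠ r → s ≠ T.n - 1 - r →
      (∃ q1 < T.n, ∃ q2 < T.n, ∃ v1 v2 : Fˣ, v1 ^ T.pair q1 r * v2 ^ T.pair q2 r = 1 ∧ v1 ^ T.pair q1 s * v2 ^ T.pair q2 s ≠ 1) ∨
      (Tb.commT T.ent r s = [] ∧ ∀ t u : F, C.cm (g.X s u) (g.X r t) = 1)) :
    ∃ τ : D.SteinbergCover F →* E, ∀ r < T.n, ∀ t : F, C.p (τ (D.scGen F r t)) = g.X r t := by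
  classical
  have hq' : ∀ r : ℕ, ∃ (q : ℕ) (a : Fˣ), r < T.n → q < T.n ∧ a ^ T.pair q r ≠ 1 := by
    intro r
    by_cases hr : r < T.n
    · obtain ⟨q, h1, a, h2⟩ := hq r hr
      exact ⟨q, a, fun _ => ⟨h1, h2⟩⟩
    · exact ⟨0, 1, fun h => absurd h hr⟩
  choose q a hqa using hq'
  let S : YS g F E :=
    { toCX := C
      y := fun r t => C.V (q r) (a r) r t
      p_y := fun {r} hr t => C.p_V (hqa r hr).1 hr (hqa r hr).2 t
      add := fun r hr t u => C.V_add (hqa r hr).1 hr (hqa r hr).2 (hself r hr) t u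
      nw_y := by
        intro e w hw he r hr t
        have hwr := g.wact_lt hw hr
        rw [C.nw_V hw he (hqa r hr).1 hr]
        refine C.V_indep (hqa _ hwr).1 (g.wact_lt hw (hqa r hr).1) hwr (hqa _ hwr).2 ?_ (hself _ hwr) _
        rw [g.pair_wact hw (hqa r hr).1 hr]
        exact (hqa r hr).2
      tor := by
        intro r s hr hs h1 h2
        rcases htor r hr s hs h1 h2 with ⟨q1, hq1, q2, hq2, v1, v2, h3, h4⟩ | ⟨h3, h4⟩
        · left
          obtain ⟨e1, he1⟩ := C.ex_lift (g.hd_G hq1 v1)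
          obtain ⟨e2, he2⟩ := C.ex_lift (g.hd_G hq2 v2)
          refine ⟨e1 * e2, fun k => v1 ^ T.pair q1 k * v2 ^ T.pair q2 k, ?_, h3, h4, ?_⟩
          · intro k hk t
            have e : e1 * e2 * C.V (q k) (a k) k t * (e1 * e2)⁻¹ = e1 * (e2 * C.V (q k) (a k) k t * e2⁻¹) * e1⁻¹ := by group
            rw [e, C.hd_V hq2 he2 (hqa k hk).1 hk, C.hd_V hq1 he1 (hqa k hk).1 hk, Units.val_mul, mul_assoc]
          · intro c hc
            simp only
            rw [g.pair_comm hr hs h1 h2 q1 c hc, g.pair_comm hr hs h1 h2 q2 c hc, _root_.zpow_add, _root_.zpow_add, mul_pow, mul_pow,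
              mul_comm (c.2.2.1 : ℤ), mul_comm (c.2.2.2 : ℤ), mul_comm (c.2.2.1 : ℤ), mul_comm (c.2.2.2 : ℤ),
              _root_.zpow_mul, _root_.zpow_mul, _root_.zpow_mul, _root_.zpow_mul, zpow_natCast, zpow_natCast, zpow_natCast, zpow_natCast]
            exact mul_mul_mul_comm _ _ _ _
        · right
          intro t u
          rw [h3, List.map_nil, List.prod_nil, mul_one]
          exact C.comm_of_cm (C.p_V (hqa s hs).1 hs (hqa s hs).2 u) (C.p_V (hqa r hr).1 hr (hqa r hr).2 t) (h4 t u) }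
  exact S.lift

/-- the commutator relation kills the product -/
theorem cm_prod {a b : ℕ} (ha : a < T.n) (hb : b < T.n) (h1 : a ≠ b) (h2 : a ≠ T.n - 1 - b) {z : GL D.Idx F} (hz : z ∈ D.group F)
    (haz : ∀ u : F, g.X a u * z = z * g.X a u) (hbz : ∀ t : F, g.X b t * z = z * g.X b t) (t u : F) :
    C.cm (((Tb.commT T.ent b a).map fun c => g.X c.1 ((c.2.1 : F) * (-t) ^ c.2.2.1 * u ^ c.2.2.2)).prod) z = 1 := by
  have h := g.X_comm (F := F) hb ha h1 h2 t u
  have e : ((Tb.commT T.ent b a).map fun c => g.X c.1 ((c.2.1 : F) * (-t) ^ c.2.2.1 * u ^ c.2.2.2)).prod =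
      g.X a (-u) * g.X b (-t) * (g.X a (-u))⁻¹ * (g.X b (-t))⁻¹ := by
    have e1 : ((Tb.commT T.ent b a).map fun c => g.X c.1 ((c.2.1 : F) * (-t) ^ c.2.2.1 * u ^ c.2.2.2)).prod =
      (g.X b t * g.X a u)⁻¹ * (g.X a u * g.X b t) := by rw [h]; group
    rw [e1, g.X_neg, g.X_neg]; group
  rw [e]
  exact C.cm_comm_cent (g.X_mem_G _ _) (g.X_mem_G _ _) hz (haz _) (hbz _)

/-- one-term case -/
theorem cm_one {a b r : ℕ} {d : ℤ} (ha : a < T.n) (hb : b < T.n) (h1 : a ≠ b) (h2 : a ≠ T.n - 1 - b) {z : GL D.Idx F} (hz : z ∈ D.group F)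
    (haz : ∀ u : F, g.X a u * z = z * g.X a u) (hbz : ∀ t : F, g.X b t * z = z * g.X b t)
    (hL : Tb.commT T.ent b a = [(r, d, 1, 1)]) (hd : (d : F) ≠ 0) (w : F) : C.cm (g.X r w) z = 1 := by
  have h := C.cm_prod ha hb h1 h2 hz haz hbz (-(w / (d : F))) 1
  rw [hL] at h
  simp only [List.map_cons, List.map_nil, List.prod_cons, List.prod_nil, mul_one, pow_one, neg_neg] at h
  rwa [mul_div_cancel₀ _ hd] at h

/-- transport of vanishing commutators by the Weyl group -/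
theorem cm_w {r s : ℕ} {i : ℕ} (hi : i < T.l) (hr : r < T.n) (hs : s < T.n)
    (h : ∀ t u : F, C.cm (g.X (T.w i s) u) (g.X (T.w i r) t) = 1) (t u : F) : C.cm (g.X s u) (g.X r t) = 1 := by
  have hG := g.N_le_G (g.nn_mem_N (F := F) hi)
  have e := C.cm_conj (C.lf (g.nn i)) (g.X_mem_G s u) (g.X_mem_G r t)
  rw [C.p_lf hG, g.nn_X_conj hi hr, g.nn_X_conj hi hs, h, mul_inv_eq_one] at e
  exact mul_left_cancel (e.trans (mul_one _).symm)

end CX

end CfsgLib.Chev
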