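import Cfsg.Agent.LibSM8
import Cfsg.Agent.LibSM5

/-! Schur multipliers of Chevalley groups, 9: types F4 and D4 (lead). -/

set_option autoImplicit false
set_option linter.unusedSectionVars false
set_option maxRecDepth 100000

namespace CfsgLib.Chev

open Cfsg.Lie Matrix

/-- a torus element fixing `r` and moving `s` -/
noncomputable def Tb.hasT (T : Tb) (r s : ℕ) : Bool := (List.range T.n).any fun q =>
  decide (T.pair q r = 0) && (decide (T.pair q s = 1) || decide (T.pair q s = -1))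

noncomputable def Tb.chkT (T : Tb) : Bool := (List.range T.n).all fun r => (List.range T.n).all fun s =>
  Nat.beq s r || (Nat.beq s (T.n - 1 - r) || (T.hasT r s || ((Tb.commT T.ent r s).isEmpty && decide (T.pair s r = 0))))

noncomputable def Tb.chkQ (T : Tb) : Bool := (List.range T.n).all fun r => (List.range T.n).any fun q =>
  decide (T.pair q r = 1) || decide (T.pair q r = -1)

/-- the commutator list is empty -/
noncomputable def Tb.nl (T : Tb) (a s : ℕ) : Bool :=
  !Nat.beq a s && (!Nat.beq a (T.n - 1 - s) && (Tb.commT T.ent s a).isEmpty)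

def isSg (L : List (ℕ × ℤ × ℕ × ℕ)) (c : ℕ) : Bool :=
  match L with
  | [x] => Nat.beq x.1 c && (Nat.beq x.2.2.1 1 && (Nat.beq x.2.2.2 1 && (Nat.beq x.2.1.natAbs 1 || Nat.beq x.2.1.natAbs 2)))
  | _ => false

theorem isSg_sound {L : List (ℕ × ℤ × ℕ × ℕ)} {c : ℕ} (h : isSg L c = true) : ∃ d : ℤ, L = [(c, d, 1, 1)] ∧ (d.natAbs = 1 ∨ d.natAbs = 2) := by
  match L, h with
  | [(x1, x2, x3, x4)], h =>
    simp only [isSg, Bool.and_eq_true, Bool.or_eq_true, Nat.beq_eq] at h
    obtain ⟨h1, h2, h3, h4⟩ := h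
    exact ⟨x2, by rw [h1, h2, h3], h4⟩

noncomputable def Tb.dec2 (T : Tb) (P : List (ℕ × ℤ × ℕ × ℕ) → ℕ → Bool) (r s : ℕ) : Bool :=
  (List.range T.n).any fun a => T.nl a s && (List.range T.n).any fun b => !Nat.beq a b && (!Nat.beq a (T.n - 1 - b) &&
    (T.nl b s && P (Tb.commT T.ent b a) r))

/-- roots decomposed inside their own centralizer -/
noncomputable def Tb.chkSf (T : Tb) : Bool := (List.range T.l).all fun i => T.dec2 isPm (T.sim i) (T.sim i)

noncomputable def Tb.chkOL (T : Tb) : Bool := (List.range T.l).all fun i => (List.range T.n).all fun s =>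
  Nat.beq s (T.sim i) || (Nat.beq s (T.n - 1 - T.sim i) || (T.hasT (T.sim i) s || T.dec2 isSg (T.sim i) s))

structure TOK (T : Tb) : Prop where
  t : T.chkT = true
  q : T.chkQ = true
  sf : T.chkSf = true

namespace Good3

variable {D : ChevalleyDatum} {T : Tb} (g : Good3 D T) {F : Type*} [Field F]
include g

omit g in
theorem hasT_sound {r s : ℕ} (h : T.hasT r s = true) : ∃ q < T.n, T.pair q r = 0 ∧ (T.pair q s = 1 ∨ T.pair q s = -1) := by
  unfold Tb.hasT at h
  simpa only [List.any_eq_true, List.mem_range, Bool.and_eq_true, Bool.or_eq_true, decide_eq_true_eq] using h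

theorem nl_comm {a s : ℕ} (ha : a < T.n) (hs : s < T.n) (h : T.nl a s = true) (t u : F) : g.X a u * g.X s t = g.X s t * g.X a u := by
  unfold Tb.nl at h
  simp only [Bool.and_eq_true, List.isEmpty_iff] at h
  obtain ⟨h1, h2, h3⟩ := h
  have h := g.X_comm (F := F) hs ha (nbeq_false h1) (nbeq_false h2) t u
  rwa [h3, List.map_nil, List.prod_nil, mul_one] at h

end Good3

namespace CX

variable {D : ChevalleyDatum} {T : Tb} {g : Good3 D T} {F : Type*} [Field F] {E : Type*} [Group E] (C : CX g F E)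

theorem cm_dec2 {P : List (ℕ × ℤ × ℕ × ℕ) → ℕ → Bool} {r s : ℕ} (hs : s < T.n) (h : T.dec2 P r s = true)
    (hP : ∀ L c, P L c = true → ∃ d : ℤ, L = [(c, d, 1, 1)] ∧ (d : F) ≠ 0) (t u : F) : C.cm (g.X r t) (g.X s u) = 1 := by
  unfold Tb.dec2 at h
  simp only [List.any_eq_true, List.mem_range, Bool.and_eq_true] at h
  obtain ⟨a, ha, h1, b, hb, h2, h3, h4, h5⟩ := h
  obtain ⟨d, hL, hd⟩ := hP _ _ h5
  refine C.cm_one ha hb (nbeq_false h2) (nbeq_false h3) (g.X_mem_G s u) ?_ ?_ hL hd t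
  · intro u'; exact g.nl_comm ha hs h1 u u'
  · intro t'; exact g.nl_comm hb hs h4 u t'

theorem isPm_nz (F : Type*) [Field F] : ∀ L c, isPm L c = true → ∃ d : ℤ, L = [(c, d, 1, 1)] ∧ (d : F) ≠ 0 := by
  intro L c h
  rcases isPm_sound h with h | h
  · exact ⟨1, h, by simp⟩
  · exact ⟨-1, h, by simp⟩

theorem isSg_nz (F : Type*) [Field F] (h2 : (2 : F) ≠ 0) : ∀ L c, isSg L c = true → ∃ d : ℤ, L = [(c, d, 1, 1)] ∧ (d : F) ≠ 0 := by
  intro L c h
  obtain ⟨d, hL, hd⟩ := isSg_sound h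
  refine ⟨d, hL, ?_⟩
  rcases hd with hd | hd
  · rcases Int.natAbs_eq_iff.1 hd with h | h <;> rw [h] <;> simp
  · rcases Int.natAbs_eq_iff.1 hd with h | h <;> rw [h] <;> simp [h2]

/-- root subgroups lift to abelian groups -/
theorem self_of_chk (hT : T.chkSf = true) : ∀ r < T.n, ∀ t u : F, C.cm (g.X r t) (g.X r u) = 1 := by
  apply g.root_ind
  · intro i hi t u
    unfold Tb.chkSf at hT
    simp only [List.all_eq_true, List.mem_range] at hT
    exact C.cm_dec2 (g.sim_lt hi) (hT i hi) (isPm_nz F) t u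
  · intro i hi r hr ih t u
    exact C.cm_w hi hr hr (fun t u => ih u t) u t

theorem unit_sq_ne {c : Fˣ} (hc : c ≠ 1) (h2 : (2 : F) = 0) : c ^ 2 ≠ 1 := by
  intro h
  apply hc
  apply Units.ext
  have h1 : ((c : F)) ^ 2 = 1 := by
    have := congrArg Units.val h
    simpa using this
  have h3 : ((c : F) - 1) ^ 2 = 0 := by
    have : ((c : F) - 1) ^ 2 = (c : F) ^ 2 - 1 + 2 * (1 - (c : F)) := by ring
    rw [this, h1, h2]; ring
  have := pow_eq_zero_iff (two_ne_zero) |>.1 h3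
  rw [Units.val_one]
  exact sub_eq_zero.1 this

/-- lifting from the tables and the vanishing of the exceptional commutators -/
theorem lift_of_chk (hT : TOK T) {c : Fˣ} (hc : c ≠ 1)
    (hex : (2 : F) ≠ 0 → ∀ r < T.n, ∀ s < T.n, s ≠ r → s ≠ T.n - 1 - r →
      (∃ q < T.n, T.pair q r = 0 ∧ (T.pair q s = 1 ∨ T.pair q s = -1)) ∨ ∀ t u : F, C.cm (g.X s u) (g.X r t) = 1) :
    ∃ τ : D.SteinbergCover F →* E, ∀ r < T.n, ∀ t : F, C.p (τ (D.scGen F r t)) = g.X r t := by
  have hpm : ∀ z : ℤ, z = 1 ∨ z = -1 → c ^ z ≠ 1 := by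
    rintro z (rfl | rfl)
    · simpa using hc
    · simpa using hc
  have hA : ∀ r s, (∃ q < T.n, T.pair q r = 0 ∧ (T.pair q s = 1 ∨ T.pair q s = -1)) →
      (∃ q1 < T.n, ∃ q2 < T.n, ∃ v1 v2 : Fˣ, v1 ^ T.pair q1 r * v2 ^ T.pair q2 r = 1 ∧ v1 ^ T.pair q1 s * v2 ^ T.pair q2 s ≠ 1) := by
    rintro r s ⟨q, hq, h1, h2⟩
    refine ⟨q, hq, q, hq, c, 1, by rw [h1]; simp, ?_⟩
    rw [_root_.one_zpow, mul_one]
    exact hpm _ h2
  apply C.lift_tor (C.self_of_chk hT.sf)
  · intro r hr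
    have h := hT.q
    unfold Tb.chkQ at h
    simp only [List.all_eq_true, List.any_eq_true, List.mem_range, Bool.or_eq_true, decide_eq_true_eq] at h
    obtain ⟨q, hq, h1⟩ := h r hr
    exact ⟨q, hq, c, hpm _ h1⟩
  · intro r hr s hs h1 h2
    have h := hT.t
    unfold Tb.chkT at h
    simp only [List.all_eq_true, List.mem_range, Bool.or_eq_true, Bool.and_eq_true, decide_eq_true_eq, Nat.beq_eq, List.isEmpty_iff] at h
    rcases h r hr s hs with h3 | h3 | h3 | ⟨h3, h4⟩
    · exact absurd h3 h1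
    · exact absurd h3 h2
    · exact Or.inl (hA r s (Good3.hasT_sound h3))
    · by_cases h5 : (2 : F) = 0
      · left
        refine ⟨s, hs, s, hs, c, 1, by rw [h4]; simp, ?_⟩
        rw [_root_.one_zpow, mul_one, g.pair_self hs]
        have := unit_sq_ne hc h5
        intro h6
        apply this
        rw [← h6, show (2 : ℤ) = ((2 : ℕ) : ℤ) from rfl, zpow_natCast]
      · rcases hex h5 r hr s hs h1 h2 with h6 | h6
        · exact Or.inl (hA r s h6)
        · exact Or.inr ⟨h3, h6⟩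

theorem hex_of_chkOL (hT : T.chkOL = true) (h2 : (2 : F) ≠ 0) : ∀ r < T.n, ∀ s < T.n, s ≠ r → s ≠ T.n - 1 - r →
      (∃ q < T.n, T.pair q r = 0 ∧ (T.pair q s = 1 ∨ T.pair q s = -1)) ∨ ∀ t u : F, C.cm (g.X s u) (g.X r t) = 1 := by
  apply g.root_ind
  · intro i hi s hs h3 h4
    unfold Tb.chkOL at hT
    simp only [List.all_eq_true, List.mem_range, Bool.or_eq_true, Nat.beq_eq] at hT
    rcases hT i hi s hs with h5 | h5 | h5 | h5
    · exact absurd h5 h3
    · exact absurd h5 h4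
    · exact Or.inl (Good3.hasT_sound h5)
    · right
      intro t u
      rw [← C.cm_inv, C.cm_dec2 hs h5 (isSg_nz F h2) t u, inv_one]
  · intro i hi r hr ih s hs h3 h4
    have hwr := g.w_lt hi hr
    have hws := g.w_lt hi hs
    rcases ih (T.w i s) hws (fun h => h3 (g.w_inj hi hs hr h)) (fun h => by
      rw [← g.w_neg hi hr] at h
      exact h4 (g.w_inj hi hs (by omega) h)) with ⟨q, hq, h5, h6⟩ | h5
    · left
      have hwq := g.w_lt hi hq
      refine ⟨T.w i q, hwq, ?_, ?_⟩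
      · rw [← g.pair_w hi hwq hr, g.w_w hi hq]; exact h5
      · rw [← g.pair_w hi hwq hs, g.w_w hi hq]; exact h6
    · right
      exact C.cm_w hi hr hs h5

end CX

theorem tok_F4 : TOK tF4 := ⟨by decide +kernel, by decide +kernel, by decide +kernel⟩

theorem ol_F4 : tF4.chkOL = true := by decide +kernel

theorem lift_F4 {F : Type*} [Field F] {c : Fˣ} (hc : c ≠ 1) {E : Type*} [Group E] (p : E →* GL chevF4.Idx F) (hr : p.range = chevF4.group F)
    (hk : p.ker ≤ Subgroup.center E) :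
    ∃ τ : chevF4.SteinbergCover F →* E, ∀ r < tF4.n, ∀ t : F, p (τ (chevF4.scGen F r t)) = good3_F4.X r t := by
  let C : CX good3_F4 F E := ⟨p, hr, hk⟩
  exact C.lift_of_chk tok_F4 hc (fun h2 => C.hex_of_chkOL ol_F4 h2)

universe u

theorem mult_F4 {F : Type u} [Field F] [Fintype F] (h : Cov chevF4 F) {c : Fˣ} (hc : c ≠ 1) :
    Cfsg.HasCyclicSchurMultiplier ↥(chevF4.group F) 1 := by
  refine good3_F4.hasCyclic tr_F4 h (perf_sc good3_F4 (by simp) (by decide) (by decide)) ?_ (Or.inl rfl) ?_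
  · intro Γ _ _ p hr hk
    exact lift_F4 hc p hr hk
  · rw [Subgroup.card_eq_one]
    exact good3_F4.steinberg_center_trivial tr_F4 smith_F4 (by decide)

end CfsgLib.Chev
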