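import Mathlib
import Cfsg.Agent.LibCP2H13

/-! Semisimple unitary elements (seat helper13). -/

namespace CfsgLib.SU

open Module Polynomial CfsgLib.Typ CfsgLib.SS

universe u

variable {F : Type u} [Field F] {V : Type u} [AddCommGroup V] [Module F V]

/-- polynomials in a cyclic semisimple operator take every determinant -/
theorem cyc_det [Finite F] [FiniteDimensional F V] [Nontrivial V] {p' : ℕ} [Fact p'.Prime] [CharP F p'] (T : End F V) {N : ℕ} (hN : N.Coprime p') (hT : T ^ N = 1)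
    (u : V) (hu : ∀ w, ∃ f : F[X], aeval T f u = w) (a : F) : ∃ h : F[X], LinearMap.det (aeval T h) = a := by
  classical
  obtain ⟨ι, hι, p, e, hirr, hmon, he, φ, hφ⟩ := CfsgLib.Str.exists_decomp T
  have hne : Nonempty ι := by
    by_contra h
    rw [not_nonempty_iff] at h
    obtain ⟨v, hv⟩ := exists_ne (0 : V)
    exact hv (φ.injective (Subsingleton.elim _ _))
  have he1 : ∀ i, e i = 1 := fun i => exp_eq_one' (p' := p') (hirr i) (he i) hN (exp_eq_one hirr he φ hφ hT i)
  obtain ⟨i⟩ := hne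
  haveI : Module.Finite F (∀ i, AdjoinRoot (p i ^ e i)) := Module.Finite.equiv φ
  haveI hfin : ∀ j, Module.Finite F (AdjoinRoot (p j ^ e j)) := fun j =>
    Module.Finite.of_surjective (LinearMap.proj j : (∀ i, AdjoinRoot (p i ^ e i)) →ₗ[F] AdjoinRoot (p j ^ e j)) (Function.surjective_eval j)
  haveI : Fact (Irreducible (p i ^ e i)) := ⟨by rw [he1 i, pow_one]; exact hirr i⟩
  haveI : Finite (AdjoinRoot (p i ^ e i)) := Module.finite_of_finite F
  obtain ⟨α, hα⟩ := FiniteField.norm_surjective F (AdjoinRoot (p i ^ e i)) a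
  have hcomp := fun f v j => aeval_comp φ hφ f v j
  have hfld : ∀ j, Fact (Irreducible (p j ^ e j)) := fun j => ⟨by rw [he1 j, pow_one]; exact hirr j⟩
  -- the factors are distinct
  have hdist : ∀ j, j ≠ i → p j ≠ p i := by
    intro j hj hpe
    haveI := hfld j
    obtain ⟨f, hf⟩ := hu (φ.symm (Pi.single i 1))
    obtain ⟨g, hg⟩ := hu (φ.symm (Pi.single j 1))
    have h1 : AdjoinRoot.mk (p i ^ e i) f * φ u i = 1 := by
      rw [← hcomp, hf, LinearEquiv.apply_symm_apply, Pi.single_eq_same]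
    have h2 : AdjoinRoot.mk (p i ^ e i) g * φ u i = 0 := by
      rw [← hcomp, hg, LinearEquiv.apply_symm_apply, Pi.single_eq_of_ne hj.symm]
    have h3 : AdjoinRoot.mk (p j ^ e j) g * φ u j = 1 := by
      rw [← hcomp, hg, LinearEquiv.apply_symm_apply, Pi.single_eq_same]
    have h4 : φ u i ≠ 0 := by
      intro h; rw [h, mul_zero] at h1; exact zero_ne_one h1
    have h5 : AdjoinRoot.mk (p i ^ e i) g = 0 := (mul_eq_zero.1 h2).resolve_right h4
    rw [AdjoinRoot.mk_eq_zero, he1 i, ← hpe, ← he1 j] at h5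
    rw [AdjoinRoot.mk_eq_zero.2 h5, zero_mul] at h3
    exact zero_ne_one h3
  obtain ⟨α', hα'⟩ := AdjoinRoot.mk_surjective α
  have hcop : IsCoprime (p i) (∏ j ∈ Finset.univ.erase i, p j) := by
    refine IsCoprime.prod_right fun j hj => ?_
    rw [(hirr i).coprime_iff_not_dvd]
    intro hd
    exact hdist j (Finset.ne_of_mem_erase hj) (eq_of_monic_of_associated (hmon i) (hmon j) ((hirr i).associated_of_dvd (hirr j) hd)).symm
  obtain ⟨s, t, hst⟩ := hcop
  let h : F[X] := α' * (t * ∏ j ∈ Finset.univ.erase i, p j) + s * p i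
  have hhi : AdjoinRoot.mk (p i ^ e i) h = α := by
    rw [← hα', ← sub_eq_zero, ← map_sub, AdjoinRoot.mk_eq_zero, he1 i, pow_one]
    refine ⟨s - α' * s, ?_⟩
    have : t * ∏ j ∈ Finset.univ.erase i, p j = 1 - s * p i := by rw [← hst]; ring
    simp only [h, this]; ring
  have hhj : ∀ j, j ≠ i → AdjoinRoot.mk (p j ^ e j) h = 1 := by
    intro j hj
    rw [← map_one (AdjoinRoot.mk (p j ^ e j)), ← sub_eq_zero, ← map_sub, AdjoinRoot.mk_eq_zero, he1 j, pow_one]
    have h1 : p j ∣ ∏ j ∈ Finset.univ.erase i, p j := Finset.dvd_prod_of_mem _ (Finset.mem_erase.2 ⟨hj, Finset.mem_univ _⟩)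
    have h2 : h - 1 = (α' - 1) * t * ∏ j ∈ Finset.univ.erase i, p j := by
      simp only [h]
      linear_combination hst
    rw [h2]
    exact Dvd.dvd.mul_left h1 _
  refine ⟨h, ?_⟩
  let f : ∀ j, End F (AdjoinRoot (p j ^ e j)) := Function.update (fun j => 1) i (LinearMap.mulLeft F α)
  let f' : End F (∀ i, AdjoinRoot (p i ^ e i)) := LinearMap.pi fun i => (f i).comp (LinearMap.proj i)
  have hf' : aeval T h = (φ.symm : _ →ₗ[F] V) ∘ₗ f' ∘ₗ (φ : V →ₗ[F] _) := by
    apply LinearMap.ext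
    intro v
    apply φ.injective
    funext j
    show φ (aeval T h v) j = φ (φ.symm (f' (φ v))) j
    rw [LinearEquiv.apply_symm_apply, hcomp]
    show _ = f j (φ v j)
    by_cases hj : j = i
    · subst hj
      simp only [f, Function.update_self, LinearMap.mulLeft_apply, hhi]
    · simp only [f, Function.update_of_ne hj, Module.End.one_apply, hhj j hj, one_mul]
  have h1 := LinearMap.det_conj f' φ.symm
  rw [LinearEquiv.symm_symm] at h1
  have h2 := det_update (fun j => AdjoinRoot (p j ^ e j)) i (LinearMap.mulLeft F α)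
  rw [hf', h1, ← hα, Algebra.norm_apply]
  exact h2

/-- a cyclic nondegenerate summand -/
theorem exists_proj [FiniteDimensional F V] {p' : ℕ} [Fact p'.Prime] [CharP F p'] {σ : F →+* F} (H : V → V → F) (hadd : ∀ u u' w, H (u + u') w = H u w + H u' w)
    (hsmul : ∀ (c : F) u w, H (c • u) w = c * H u w) (hsym : ∀ u w, H w u = σ (H u w)) (T : End F V) {N : ℕ} (hN : N.Coprime p') (hT : T ^ N = 1)
    (hTH : ∀ u w, H (T u) (T w) = H u w) (v : V) (hv : H v v ≠ 0) :
    ∃ (π : End F V) (u : V), π * π = π ∧ Commute π T ∧ (∀ a b, H (π a) b = H a (π b)) ∧ π u = u ∧ u ≠ 0 ∧ (∀ w, π w = w → ∃ f : F[X], aeval T f u = w) := by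
  classical
  have hN0 : N ≠ 0 := by
    rintro rfl
    rw [Nat.coprime_zero_left] at hN
    exact (Fact.out : p'.Prime).one_lt.ne' hN
  have hadd' : ∀ u w w', H u (w + w') = H u w + H u w' := by
    intro u w w'; rw [hsym _ u, hsym w u, hsym w' u, hadd, map_add]
  have hsmul' : ∀ (c : F) u w, H u (c • w) = σ c * H u w := by
    intro c u w; rw [hsym _ u, hsym w u, hsmul, map_mul]
  have hzero : ∀ w, H 0 w = 0 := by
    intro w
    have := hsmul 0 0 w
    rwa [zero_smul, zero_mul] at this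
  have hzero' : ∀ w, H w 0 = 0 := by
    intro w; rw [hsym, hzero, map_zero]
  have hadj : ∀ u w, H (T u) w = H u ((T ^ (N - 1)) w) := by
    intro u w
    rw [← hTH u, ← Module.End.mul_apply, ← pow_succ', Nat.sub_add_cancel (Nat.one_le_iff_ne_zero.2 hN0), hT, Module.End.one_apply]
  have hss : T.IsSemisimple := by
    refine Module.End.isSemisimple_of_squarefree_aeval_eq_zero (p := X ^ N - 1) ?_ ?_
    · apply Separable.squarefree
      rw [X_pow_sub_one_separable_iff, Ne, CharP.cast_eq_zero_iff F p']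
      intro h
      have := Nat.Coprime.eq_one_of_dvd hN.symm h
      exact (Fact.out : p'.Prime).one_lt.ne' this
    · rw [map_sub, map_pow, aeval_X, hT, map_one, sub_self]
  -- the cyclic space
  let U : Submodule F V := LinearMap.range ((LinearMap.applyₗ v : (End F V) →ₗ[F] V) ∘ₗ (aeval T : F[X] →ₐ[F] End F V).toLinearMap)
  have hU : ∀ w, w ∈ U ↔ ∃ f : F[X], aeval T f v = w := fun w => Iff.rfl
  have hTU : ∀ w ∈ U, T w ∈ U := by
    intro w hw
    obtain ⟨f, rfl⟩ := (hU w).1 hw
    exact (hU _).2 ⟨X * f, by rw [map_mul, aeval_X, Module.End.mul_apply]⟩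
  have hpowm : ∀ (W : Submodule F V), (∀ w ∈ W, T w ∈ W) → ∀ k, ∀ w ∈ W, (T ^ k) w ∈ W := by
    intro W hW k
    induction k with
    | zero => intro w hw; exact hw
    | succ k ih => intro w hw; rw [pow_succ', Module.End.mul_apply]; exact hW _ (ih w hw)
  have hpolm : ∀ (W : Submodule F V), (∀ w ∈ W, T w ∈ W) → ∀ f : F[X], ∀ w ∈ W, aeval T f w ∈ W := by
    intro W hW f w hw
    rw [aeval_eq_sum_range, LinearMap.sum_apply]
    refine Submodule.sum_mem _ fun i _ => ?_
    rw [LinearMap.smul_apply]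
    exact Submodule.smul_mem _ _ (hpowm W hW i w hw)
  let perp : Submodule F V → Submodule F V := fun W =>
    { carrier := {x | ∀ w ∈ W, H x w = 0}
      add_mem' := fun {a b} ha hb w hw => by rw [hadd, ha w hw, hb w hw, add_zero]
      zero_mem' := fun w _ => hzero w
      smul_mem' := fun c x hx w hw => by rw [hsmul, hx w hw, mul_zero] }
  have hperp : ∀ W x, x ∈ perp W ↔ ∀ w ∈ W, H x w = 0 := fun W x => Iff.rfl
  have hTperp : ∀ W, (∀ w ∈ W, T w ∈ W) → ∀ x ∈ perp W, T x ∈ perp W := by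
    intro W hW x hx
    rw [hperp] at hx ⊢
    intro w hw
    rw [hadj]
    exact hx _ (hpowm W hW _ w hw)
  let R : Submodule F V := U ⊓ perp U
  obtain ⟨R', hR', hcR⟩ := Module.End.isSemisimple_iff.1 hss R (fun x hx => ⟨hTU x hx.1, hTperp U hTU x hx.2⟩)
  let U1 : Submodule F V := U ⊓ R'
  have hTU1 : ∀ w ∈ U1, T w ∈ U1 := fun w hw => ⟨hTU w hw.1, hR' hw.2⟩
  have hdec : ∀ u ∈ U, ∃ r ∈ R, ∃ u1 ∈ U1, r + u1 = u := by
    intro u hu
    obtain ⟨r, hr, r', hr', hsum⟩ := Submodule.mem_sup.1 (show u ∈ R ⊔ R' by rw [hcR.sup_eq_top]; trivial)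
    refine ⟨r, hr, r', ⟨?_, hr'⟩, hsum⟩
    have : r' = u - r := by rw [← hsum]; abel
    rw [this]
    exact U.sub_mem hu hr.1
  have hdisj : ∀ x, x ∈ R → x ∈ U1 → x = 0 := fun x h1 h2 => by
    have : x ∈ R ⊓ R' := ⟨h1, h2.2⟩
    rw [hcR.inf_eq_bot] at this
    exact (Submodule.mem_bot F).1 this
  obtain ⟨r0, hr0, u, hu, hru⟩ := hdec v ((hU v).2 ⟨1, by rw [map_one]; rfl⟩)
  have hu0 : u ≠ 0 := by
    rintro rfl
    rw [add_zero] at hru
    rw [← hru] at hv
    exact hv (hr0.2 r0 hr0.1)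
  have hcyc : ∀ w ∈ U1, ∃ f : F[X], aeval T f u = w := by
    intro w hw
    obtain ⟨f, hf⟩ := (hU w).1 hw.1
    refine ⟨f, ?_⟩
    rw [← hru, map_add] at hf
    have h1 : aeval T f r0 = 0 := by
      apply hdisj
      · exact hpolm R (fun x hx => ⟨hTU x hx.1, hTperp U hTU x hx.2⟩) f r0 hr0
      · have : aeval T f r0 = w - aeval T f u := by rw [← hf]; abel
        rw [this]
        exact U1.sub_mem hw (hpolm U1 hTU1 f u hu)
    rw [h1, zero_add] at hf
    exact hf
  have hnd : ∀ x, x ∈ U1 → x ∈ perp U1 → x = 0 := by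
    intro x hx hx'
    apply hdisj x _ hx
    refine ⟨hx.1, fun w hw => ?_⟩
    obtain ⟨r, hr, u1, hu1, rfl⟩ := hdec w hw
    rw [hadd', hx' u1 hu1, add_zero, hsym r x, hr.2 x hx.1, map_zero]
  have hcompl : IsCompl U1 (perp U1) := by
    have hdj : Disjoint U1 (perp U1) := by
      rw [Submodule.disjoint_def]; exact hnd
    refine ⟨hdj, codisjoint_iff.2 ?_⟩
    apply Submodule.eq_top_of_disjoint _ _ _ hdj
    let b := Module.finBasis F U1
    let L : V →ₗ[F] (Fin (finrank F U1) → F) :=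
      { toFun := fun x i => H x (b i : V)
        map_add' := fun x y => funext fun i => hadd x y _
        map_smul' := fun c x => funext fun i => hsmul c x _ }
    have h1 : LinearMap.ker L ≤ perp U1 := by
      intro x hx w hw
      have hx' : ∀ i, H x (b i : V) = 0 := fun i => congrFun hx i
      have h2 : (⟨w, hw⟩ : U1) = ∑ i, b.repr ⟨w, hw⟩ i • b i := (b.sum_repr _).symm
      have h3 : w = ∑ i, b.repr ⟨w, hw⟩ i • (b i : V) :=
        (congrArg Subtype.val h2).trans (by rw [AddSubmonoidClass.coe_finsetSum]; rfl)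
      rw [h3]
      have hsumH : ∀ (s : Finset (Fin (finrank F U1))) (g : Fin (finrank F U1) → V), H x (∑ i ∈ s, g i) = ∑ i ∈ s, H x (g i) := by
        intro s g
        induction s using Finset.induction_on with
        | empty => rw [Finset.sum_empty, Finset.sum_empty, hzero']
        | insert a s ha ih => rw [Finset.sum_insert ha, Finset.sum_insert ha, hadd', ih]
      rw [hsumH]
      refine Finset.sum_eq_zero fun i _ => ?_
      rw [hsmul', hx', mul_zero]
    have h2 := LinearMap.finrank_range_add_finrank_ker L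
    have h3 : finrank F (LinearMap.range L) ≤ finrank F U1 := by
      refine (Submodule.finrank_le _).trans ?_
      rw [finrank_fin_fun]
    have h4 := Submodule.finrank_mono h1
    omega
  let π : End F V := U1.subtype ∘ₗ U1.projectionOnto (perp U1) hcompl
  have hπ1 : ∀ x, π x ∈ U1 := fun x => (U1.projectionOnto (perp U1) hcompl x).2
  have hπ2 : ∀ x ∈ U1, π x = x := fun x hx => congrArg Subtype.val (Submodule.projectionOnto_apply_left hcompl ⟨x, hx⟩)
  have hπ3 : ∀ x ∈ perp U1, π x = 0 := fun x hx => congrArg Subtype.val (Submodule.projectionOnto_apply_right hcompl ⟨x, hx⟩)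
  have hπ4 : ∀ x, x - π x ∈ perp U1 := by
    intro x
    obtain ⟨a, ha, b, hb, rfl⟩ := Submodule.mem_sup.1 (show x ∈ U1 ⊔ perp U1 by rw [hcompl.sup_eq_top]; trivial)
    rw [map_add, hπ2 a ha, hπ3 b hb, add_zero, add_sub_cancel_left]
    exact hb
  refine ⟨π, u, LinearMap.ext fun x => hπ2 _ (hπ1 x), LinearMap.ext fun x => ?_, ?_, hπ2 u hu, hu0, fun w hw => hcyc w (hw ▸ hπ1 w)⟩
  · show π (T x) = T (π x)
    have h1 : T x = T (π x) + T (x - π x) := by rw [← map_add, add_sub_cancel]
    rw [h1, map_add, hπ2 _ (hTU1 _ (hπ1 x)), hπ3 _ (hTperp U1 hTU1 _ (hπ4 x)), add_zero]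
  · have h1 : ∀ a b, H (π a) b = H (π a) (π b) := by
      intro a b
      have h2 : b = π b + (b - π b) := by abel
      conv_lhs => rw [h2, hadd', hsym (b - π b) (π a), hπ4 b (π a) (hπ1 a), map_zero, add_zero]
    have h2 : ∀ a b, H a (π b) = H (π a) (π b) := by
      intro a b
      have h2 : a = π a + (a - π a) := by abel
      conv_lhs => rw [h2, hadd, hπ4 a (π b) (hπ1 b), add_zero]
    intro a b
    exact (h1 a b).trans (h2 a b).symm

end CfsgLib.SU
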