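import Mathlib
import Cfsg.Agent.LibSUH13

/-! Normal elements of centralisers (seat helper13). -/

namespace CfsgLib.SU

open Module Polynomial CfsgLib.Typ CfsgLib.SS

universe u

variable {F : Type u} [Field F] {V : Type u} [AddCommGroup V] [Module F V]

theorem comm_aeval {A B : End F V} (h : Commute A B) (f : F[X]) : Commute A (aeval B f) := by
  induction f using Polynomial.induction_on' with
  | add a b ha hb => rw [map_add]; exact ha.add_right hb
  | monomial n a =>
    rw [aeval_monomial]
    exact (show Commute A (algebraMap F (End F V) a) from (Algebra.commutes a A).symm).mul_right (h.pow_right n)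

theorem normal_det [Finite F] [FiniteDimensional F V] {p' : ℕ} [Fact p'.Prime] [CharP F p'] {σ : F →+* F} (hσ : ∀ x, σ (σ x) = x) (H : V → V → F) (hadd : ∀ u u' w, H (u + u') w = H u w + H u' w)
    (hsmul : ∀ (c : F) u w, H (c • u) w = c * H u w) (hsym : ∀ u w, H w u = σ (H u w)) (T : End F V) {N : ℕ} (hN : N.Coprime p') (hT : T ^ N = 1)
    (hTH : ∀ u w, H (T u) (T w) = H u w) (v : V) (hv : H v v ≠ 0) (c : F) :
    ∃ (x y : End F V), Commute x T ∧ Commute x y ∧ (∀ a b, H (x a) b = H a (y b)) ∧ LinearMap.det x = c := by
  classical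
  obtain ⟨π, u, hππ, hπT, hπH, hπu, hu0, hcyc⟩ := exists_proj H hadd hsmul hsym T hN hT hTH v hv
  have hN0 : N ≠ 0 := by
    rintro rfl
    rw [Nat.coprime_zero_left] at hN
    exact (Fact.out : p'.Prime).one_lt.ne' hN
  have hadd' : ∀ u w w', H u (w + w') = H u w + H u w' := by
    intro u w w'; rw [hsym _ u, hsym w u, hsym w' u, hadd, map_add]
  have hsmul' : ∀ (c : F) u w, H u (c • w) = σ c * H u w := by
    intro c u w; rw [hsym _ u, hsym w u, hsmul, map_mul]
  have hneg : ∀ u w, H (-u) w = - H u w := by
    intro u w
    rw [← neg_one_smul F u, hsmul, neg_one_mul]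
  have hneg' : ∀ u w, H u (-w) = - H u w := by
    intro u w
    rw [hsym _ u, hneg, map_neg, ← hsym]
  have hadj : ∀ u w, H (T u) w = H u ((T ^ (N - 1)) w) := by
    intro u w
    rw [← hTH u, ← Module.End.mul_apply, ← pow_succ', Nat.sub_add_cancel (Nat.one_le_iff_ne_zero.2 hN0), hT, Module.End.one_apply]
  have hadjp : ∀ k u w, H ((T ^ k) u) w = H u (((T ^ (N - 1)) ^ k) w) := by
    intro k
    induction k with
    | zero => intro u w; rfl
    | succ k ih => intro u w; rw [pow_succ', Module.End.mul_apply, hadj, ih, pow_succ (T ^ (N - 1)), Module.End.mul_apply]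
  have hadjf : ∀ f : F[X], ∀ u w, H (aeval T f u) w = H u (aeval (T ^ (N - 1)) (f.map σ) w) := by
    intro f
    induction f using Polynomial.induction_on' with
    | add a b ha hb =>
      intro u w
      rw [map_add, LinearMap.add_apply, hadd, ha, hb, Polynomial.map_add, map_add, LinearMap.add_apply, hadd']
    | monomial n a =>
      intro u w
      rw [map_monomial, aeval_monomial, aeval_monomial, Module.End.mul_apply, Module.End.mul_apply, Module.algebraMap_end_apply,
        Module.algebraMap_end_apply, hsmul, hsmul', hσ, hadjp]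
  have hc : IsCompl (LinearMap.range π) (LinearMap.ker π) := LinearMap.IsIdempotentElem.isCompl hππ
  have hrange : ∀ w, w ∈ LinearMap.range π ↔ π w = w := by
    intro w
    constructor
    · rintro ⟨z, rfl⟩; exact LinearMap.congr_fun hππ z
    · intro h; exact ⟨w, h⟩
  have hTr : ∀ w ∈ LinearMap.range π, T w ∈ LinearMap.range π := by
    intro w hw
    rw [hrange] at hw ⊢
    have := LinearMap.congr_fun hπT w
    rw [Module.End.mul_apply, Module.End.mul_apply, hw] at this
    exact this
  let T1 : End F (LinearMap.range π) := T.restrict hTr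
  have hT1 : ∀ w : LinearMap.range π, ((T1 w : LinearMap.range π) : V) = T w := fun w => rfl
  have hT1p : ∀ k, ∀ w : LinearMap.range π, (((T1 ^ k) w : LinearMap.range π) : V) = (T ^ k) w := by
    intro k
    induction k with
    | zero => intro w; rfl
    | succ k ih => intro w; rw [pow_succ', Module.End.mul_apply, hT1, ih, pow_succ', Module.End.mul_apply]
  have hT1f : ∀ f : F[X], ∀ w : LinearMap.range π, ((aeval T1 f w : LinearMap.range π) : V) = aeval T f w := by
    intro f
    induction f using Polynomial.induction_on' with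
    | add a b ha hb => intro w; rw [map_add, map_add, LinearMap.add_apply, LinearMap.add_apply, Submodule.coe_add, ha, hb]
    | monomial n a =>
      intro w
      rw [aeval_monomial, aeval_monomial, Module.End.mul_apply, Module.End.mul_apply, Module.algebraMap_end_apply,
        Module.algebraMap_end_apply, Submodule.coe_smul, hT1p]
  have hur : u ∈ LinearMap.range π := (hrange u).2 hπu
  haveI : Nontrivial (LinearMap.range π) := ⟨⟨⟨u, hur⟩, 0, fun h => hu0 (congrArg Subtype.val h)⟩⟩
  obtain ⟨h, hh⟩ := cyc_det (p' := p') T1 hN (LinearMap.ext fun w => Subtype.ext (by rw [hT1p, hT]; rfl)) ⟨u, hur⟩ (by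
    rintro ⟨w, hw⟩
    obtain ⟨f, hf⟩ := hcyc w ((hrange w).1 hw)
    exact ⟨f, Subtype.ext (by rw [hT1f]; exact hf)⟩) c
  refine ⟨aeval T h * π + (1 - π), π * aeval (T ^ (N - 1)) (h.map σ) + (1 - π), ?_, ?_, ?_, ?_⟩
  · exact (((comm_aeval (Commute.refl T) h).symm).mul_left hπT).add_left ((Commute.one_left T).sub_left hπT)
  · have h1 : Commute (aeval T h) π := (comm_aeval hπT h).symm
    have h2 : Commute π (aeval (T ^ (N - 1)) (h.map σ)) := comm_aeval (hπT.pow_right _) _
    have h3 : Commute (aeval T h) (aeval (T ^ (N - 1)) (h.map σ)) := comm_aeval ((comm_aeval (Commute.refl T) h).symm.pow_right _) _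
    have h4 : Commute (1 - π) π := (Commute.one_left π).sub_left (Commute.refl π)
    have h5 : Commute (1 - π) (aeval (T ^ (N - 1)) (h.map σ)) := (Commute.one_left _).sub_left h2
    refine Commute.add_left ?_ ?_
    · refine Commute.add_right ?_ ?_
      · exact (h1.mul_left (Commute.refl π)).mul_right (h3.mul_left h2)
      · exact (Commute.one_right _).sub_right (h1.mul_left (Commute.refl π))
    · refine Commute.add_right (h4.mul_right h5) ?_
      exact Commute.refl _
  · intro a b
    rw [LinearMap.add_apply, LinearMap.add_apply, Module.End.mul_apply, Module.End.mul_apply, LinearMap.sub_apply, LinearMap.sub_apply,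
      Module.End.one_apply, Module.End.one_apply, hadd, hadd', hadjf, hπH, sub_eq_add_neg, sub_eq_add_neg, hadd, hadd', hneg, hneg', hπH]
  · let e := Submodule.prodEquivOfIsCompl _ _ hc
    have h1 : (aeval T h * π + (1 - π) : End F V) = e.conj ((aeval T1 h).prodMap LinearMap.id) := by
      refine LinearMap.ext fun z => ?_
      obtain ⟨⟨a, b⟩, rfl⟩ := e.surjective z
      rw [LinearEquiv.conj_apply_apply, LinearEquiv.symm_apply_apply, LinearMap.prodMap_apply, LinearMap.id_apply]
      have he : ∀ x : (LinearMap.range π) × (LinearMap.ker π), e x = (x.1 : V) + (x.2 : V) := fun x => rfl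
      rw [he, he]
      have ha : π (a : V) = a := (hrange _).1 a.2
      have hb : π (b : V) = 0 := b.2
      rw [LinearMap.add_apply, Module.End.mul_apply, LinearMap.sub_apply, Module.End.one_apply, map_add, ha, hb, add_zero, add_sub_cancel_left, hT1f]
    rw [h1, LinearEquiv.conj_apply, LinearMap.comp_assoc, LinearMap.det_conj, LinearMap.det_prodMap, hh, LinearMap.det_id, mul_one]

end CfsgLib.SU
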