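import Cfsg.Statements.S2588
import Cfsg.Agent.S2587
import Cfsg.Agent.S2580

set_option autoImplicit false
open Cfsg

namespace Cfsg.Agent.S2588

open Cfsg.Agent.H22 CfsgLib.Norm Cfsg.Agent.S2587
open Matrix (mulVec)
open scoped Matrix

theorem exists_idem {M : Type*} [Monoid M] [Finite M] (x : M) : ∃ N, 0 < N ∧ x ^ N * x ^ N = x ^ N := by
  classical
  obtain ⟨i, j, hij, hx⟩ : ∃ i j : ℕ, i < j ∧ x ^ i = x ^ j := by
    obtain ⟨i, j, hne, h⟩ := Finite.exists_ne_map_eq_of_infinite (fun n : ℕ => x ^ n)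
    rcases lt_or_gt_of_ne hne with h1 | h1
    · exact ⟨i, j, h1, h⟩
    · exact ⟨j, i, h1, h.symm⟩
  obtain ⟨p, rfl⟩ : ∃ p, j = i + p := ⟨j - i, by omega⟩
  have hp : 0 < p := by omega
  have h1 : ∀ m, i ≤ m → ∀ k, x ^ m = x ^ (m + p * k) := by
    intro m hm k
    induction k with
    | zero => simp
    | succ k ih =>
      rw [ih]
      obtain ⟨t, rfl⟩ : ∃ t, m = i + t := ⟨m - i, by omega⟩
      rw [show i + t + p * k = i + (t + p * k) by ring, show i + t + p * (k + 1) = (i + p) + (t + p * k) by ring,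
        pow_add x i, pow_add x (i + p), ← hx]
  refine ⟨(i + 1) * p, Nat.mul_pos (by omega) hp, ?_⟩
  rw [← pow_add]
  have h2 : i ≤ (i + 1) * p := by nlinarith
  have := h1 _ h2 (i + 1)
  rw [this]
  congr 1
  ring

section

variable {E : Type*} [Ring E] [Finite E] {st : E → E} (hadd : ∀ x y, st (x + y) = st x + st y) (hmul : ∀ x y, st (x * y) = st y * st x)
    (hone : st 1 = 1) (hinv : ∀ x, st (st x) = x)

include hadd hmul hone hinv

/-- A non-degenerate "sesquilinear form" preserved by `A` gives a hermitian one. -/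
theorem exists_herm {A P θ θ' : E} (hP : IsUnit P) (hA : IsUnit A) (hAP : st A * P * A = P) (hθ : st θ = θ') (hc : ∀ x, θ * x = x * θ)
    (hc' : ∀ x, θ' * x = x * θ') (hθθ : IsUnit (θ - θ')) :
    ∃ H, IsUnit H ∧ st H = H ∧ st A * H * A = H := by
  classical
  have hzero : st 0 = 0 := by
    have := hadd 0 0
    rw [add_zero] at this
    exact left_eq_add.mp this
  have hneg : ∀ x, st (-x) = -st x := by
    intro x
    have := hadd x (-x)
    rw [add_neg_cancel, hzero] at this
    exact (neg_eq_of_add_eq_zero_right this.symm).symm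
  have hθ' : st θ' = θ := by rw [← hθ, hinv]
  obtain ⟨Pi, hPi1, hPi2⟩ := isUnit_iff_exists.mp hP
  obtain ⟨Ai, hAi1, hAi2⟩ := isUnit_iff_exists.mp hA
  -- P * Pi = 1, Pi * P = 1
  have hsPi1 : st Pi * st P = 1 := by rw [← hmul, hPi1, hone]
  have hsPi2 : st P * st Pi = 1 := by rw [← hmul, hPi2, hone]
  have hAsP : st A * st P * A = st P := by
    have := congrArg st hAP
    rw [hmul, hmul, hinv] at this
    rw [← mul_assoc] at this
    exact this
  set U := Pi * st P with hU
  set Ui := st Pi * P with hUi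
  have hUUi : U * Ui = 1 := by
    rw [hU, hUi]
    calc Pi * st P * (st Pi * P) = Pi * (st P * st Pi) * P := by simp only [mul_assoc]
      _ = 1 := by rw [hsPi2, mul_one, hPi2]
  have hUiU : Ui * U = 1 := by
    rw [hU, hUi]
    calc st Pi * P * (Pi * st P) = st Pi * (P * Pi) * st P := by simp only [mul_assoc]
      _ = 1 := by rw [hPi1, mul_one, hsPi1]
  have hPU : P * U = st P := by rw [hU, ← mul_assoc, hPi1, one_mul]
  -- U commutes with A
  have hUA : U * A = A * U := by
    -- P A U = (st A)⁻¹ P U = (st A)⁻¹ st P = st P A = P U A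
    have hsA1 : st A * st Ai = 1 := by rw [← hmul, hAi2, hone]
    have hsA2 : st Ai * st A = 1 := by rw [← hmul, hAi1, hone]
    have e1 : P * A = st Ai * P := by
      calc P * A = (st Ai * st A) * P * A := by rw [hsA2, one_mul]
        _ = st Ai * (st A * P * A) := by simp only [mul_assoc]
        _ = st Ai * P := by rw [hAP]
    have e2 : st P * A = st Ai * st P := by
      calc st P * A = (st Ai * st A) * st P * A := by rw [hsA2, one_mul]
        _ = st Ai * (st A * st P * A) := by simp only [mul_assoc]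
        _ = st Ai * st P := by rw [hAsP]
    have e3 : P * (U * A) = P * (A * U) := by
      rw [← mul_assoc, hPU, e2, ← mul_assoc, e1, mul_assoc, hPU]
    calc U * A = (Pi * P) * (U * A) := by rw [hPi2, one_mul]
      _ = Pi * (P * (A * U)) := by rw [mul_assoc, e3]
      _ = A * U := by rw [← mul_assoc, hPi2, one_mul]
  -- ψ x = Pi * st x * P
  have hψU : st U * P = P * Ui := by
    rw [hU, hUi, hmul, hinv]
    simp only [mul_assoc]
  clear_value U Ui
  obtain ⟨N, hN, hidem⟩ := exists_idem (U + 1)
  set f := (U + 1) ^ N with hf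
  -- st f * P = P * f'  where f' = (Ui + 1)^N = Ui^N f
  have h1 : st (U + 1) * P = P * (Ui + 1) := by
    rw [hadd, hone, add_mul, one_mul, hψU, mul_add, mul_one]
  have h2 : ∀ k, st ((U + 1) ^ k) * P = P * (Ui + 1) ^ k := by
    intro k
    induction k with
    | zero => rw [pow_zero, pow_zero, hone, one_mul, mul_one]
    | succ k ih =>
      rw [pow_succ, hmul, mul_assoc, ih, ← mul_assoc, h1, mul_assoc, ← pow_succ']
  have h3 : (Ui + 1) ^ N = Ui ^ N * f := by
    have e1 : Ui + 1 = Ui * (U + 1) := by rw [mul_add, hUiU, mul_one, add_comm]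
    have e2 : Commute Ui (U + 1) := by
      show Ui * (U + 1) = (U + 1) * Ui
      rw [mul_add, add_mul, hUiU, hUUi, mul_one, one_mul]
    rw [e1, e2.mul_pow]
  have hcUf : U * f = f * U := by
    have : Commute U (U + 1) := (Commute.refl U).add_right (Commute.one_right U)
    exact (this.pow_right N).eq
  have hcUif : Ui * f = f * Ui := by
    have e2 : Commute Ui (U + 1) := by
      show Ui * (U + 1) = (U + 1) * Ui
      rw [mul_add, add_mul, hUiU, hUUi, mul_one, one_mul]
    exact (e2.pow_right N).eq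
  set f' := (Ui + 1) ^ N with hf'
  -- f' idempotent
  have hstf : st f * P = P * f' := h2 N
  have hf'idem : f' * f' = f' := by
    have e1 : st f * st f = st f := by rw [← hmul, hidem]
    have e2 : P * (f' * f') = P * f' := by
      rw [← mul_assoc, ← hstf, mul_assoc, ← hstf, ← mul_assoc, e1]
    calc f' * f' = (Pi * P) * (f' * f') := by rw [hPi2, one_mul]
      _ = Pi * (P * f') := by rw [mul_assoc, e2]
      _ = f' := by rw [← mul_assoc, hPi2, one_mul]
  have hff : f' = f := by
    -- f' f = f' (since f' = Ui^N f), and f = U^N f' so f f' = f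
    have e1 : f' * f = f' := by rw [h3, mul_assoc, hidem]
    have hc : Commute Ui U := by show Ui * U = U * Ui; rw [hUiU, hUUi]
    have e2 : f = U ^ N * f' := by
      rw [h3, ← mul_assoc, ← hc.symm.mul_pow, hUUi, one_pow, one_mul]
    have e3 : f * f' = f := by
      calc f * f' = U ^ N * (f' * f') := by rw [← mul_assoc, ← e2]
        _ = f := by rw [hf'idem, ← e2]
    have hcUiN : Commute (Ui ^ N) f := Commute.pow_left hcUif N
    have e4 : f * f' = f' := by
      rw [h3, ← mul_assoc, ← hcUiN.eq, mul_assoc, hidem]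
    rw [← e4, e3]
  rw [hff] at hstf
  -- e = 1 - f
  have hsfP : st f * st P = st P * f := by
    have := congrArg st hstf
    rw [hmul, hmul, hinv] at this
    exact this.symm
  have hfA : f * A = A * f := by
    have : Commute (U + 1) A := by
      show (U + 1) * A = A * (U + 1)
      rw [add_mul, mul_add, hUA, one_mul, mul_one]
    exact (this.pow_left N).eq
  set e := 1 - f with he
  have hste : st e = 1 - st f := by rw [he, sub_eq_add_neg, hadd, hneg, hone, sub_eq_add_neg]
  have hseP : st e * P = P * e := by rw [hste, sub_mul, one_mul, hstf, he, mul_sub, mul_one]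
  have hsesP : st e * st P = st P * e := by rw [hste, sub_mul, one_mul, hsfP, he, mul_sub, mul_one]
  have heA : e * A = A * e := by rw [he, sub_mul, mul_sub, hfA, one_mul, mul_one]
  have hee : e * e = e := by rw [he, sub_mul, one_mul, mul_sub, mul_one, hidem, sub_self, sub_zero]
  have hef : e * f = 0 := by rw [he, sub_mul, hidem, one_mul, sub_self]
  have hfe : f * e = 0 := by rw [he, mul_sub, hidem, mul_one, sub_self]
  set Q1 := θ * P + θ' * st P with hQ1
  set Q2 := P + st P with hQ2
  have hstQ1 : st Q1 = Q1 := by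
    rw [hQ1, hadd, hmul, hmul, hinv, hθ, hθ', ← hc', ← hc, add_comm]
  have hstQ2 : st Q2 = Q2 := by rw [hQ2, hadd, hinv, add_comm]
  have hseQ1 : st e * Q1 = Q1 * e := by
    rw [hQ1, mul_add, add_mul, ← mul_assoc, ← mul_assoc, ← hc, ← hc', mul_assoc, mul_assoc, hseP, hsesP, mul_assoc, mul_assoc]
  have hsfQ2 : st f * Q2 = Q2 * f := by rw [hQ2, mul_add, add_mul, hstf, hsfP]
  set H := Q1 * e + Q2 * f with hH
  have hstH : st H = H := by
    rw [hH, hadd, hmul, hmul, hstQ1, hstQ2, hseQ1, hsfQ2]
  have hAQ1 : st A * Q1 * A = Q1 := by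
    rw [hQ1, mul_add, add_mul]
    congr 1
    · calc st A * (θ * P) * A = (st A * θ) * P * A := by simp only [mul_assoc]
        _ = θ * (st A * P * A) := by rw [← hc]; simp only [mul_assoc]
        _ = _ := by rw [hAP]
    · calc st A * (θ' * st P) * A = (st A * θ') * st P * A := by simp only [mul_assoc]
        _ = θ' * (st A * st P * A) := by rw [← hc']; simp only [mul_assoc]
        _ = _ := by rw [hAsP]
  have hAQ2 : st A * Q2 * A = Q2 := by rw [hQ2, mul_add, add_mul, hAP, hAsP]
  have hAH : st A * H * A = H := by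
    rw [hH, mul_add, add_mul]
    congr 1
    · calc st A * (Q1 * e) * A = st A * Q1 * (e * A) := by simp only [mul_assoc]
        _ = (st A * Q1 * A) * e := by rw [heA]; simp only [mul_assoc]
        _ = _ := by rw [hAQ1]
    · calc st A * (Q2 * f) * A = st A * Q2 * (f * A) := by simp only [mul_assoc]
        _ = (st A * Q2 * A) * f := by rw [hfA]; simp only [mul_assoc]
        _ = _ := by rw [hAQ2]
  refine ⟨H, ?_, hstH, hAH⟩
  -- H = P * ((θ + θ' U) e + (1 + U) f)
  have hHP : H = P * ((θ + θ' * U) * e + (1 + U) * f) := by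
    rw [hH, hQ1, hQ2, mul_add P, ← mul_assoc P, ← mul_assoc P, mul_add P θ, mul_add P 1, mul_one, ← mul_assoc P θ', ← hc', mul_assoc θ' P U, hPU, ← hc P]
  rw [hHP]
  refine hP.mul ?_
  -- left regular: injective
  have hinj : ∀ w, ((θ + θ' * U) * e + (1 + U) * f) * w = 0 → w = 0 := by
    intro w hw
    have hθe : θ * e = e * θ := hc e
    have hcUe : U * e = e * U := by rw [he, mul_sub, sub_mul, hcUf, mul_one, one_mul]
    have hx : (θ + θ' * U) * (e * w) = 0 := by
      have h4 : e * ((θ + θ' * U) * e + (1 + U) * f) = (θ + θ' * U) * e := by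
        have e1 : e * (θ + θ' * U) = (θ + θ' * U) * e := by
          rw [mul_add, add_mul, ← hc e, ← mul_assoc, ← hc' e, mul_assoc, mul_assoc, hcUe]
        have e2 : e * (1 + U) = (1 + U) * e := by rw [mul_add, add_mul, mul_one, one_mul, hcUe]
        calc e * ((θ + θ' * U) * e + (1 + U) * f) = (e * (θ + θ' * U)) * e + (e * (1 + U)) * f := by
              rw [mul_add e ((θ + θ' * U) * e), mul_assoc e (θ + θ' * U) e, mul_assoc e (1 + U) f]
          _ = (θ + θ' * U) * (e * e) + (1 + U) * (e * f) := by rw [e1, e2]; simp only [mul_assoc]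
          _ = _ := by rw [hee, hef, mul_zero, add_zero]
      have h5 := congrArg (e * ·) hw
      simp only [mul_zero] at h5
      rw [← mul_assoc, h4, mul_assoc] at h5
      exact h5
    have hy : (1 + U) * (f * w) = 0 := by
      have h4 : f * ((θ + θ' * U) * e + (1 + U) * f) = (1 + U) * f := by
        have e1 : f * (θ + θ' * U) = (θ + θ' * U) * f := by
          rw [mul_add, add_mul, ← hc f, ← mul_assoc, ← hc' f, mul_assoc, mul_assoc, hcUf]
        have e2 : f * (1 + U) = (1 + U) * f := by rw [mul_add, add_mul, mul_one, one_mul, hcUf]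
        calc f * ((θ + θ' * U) * e + (1 + U) * f) = (f * (θ + θ' * U)) * e + (f * (1 + U)) * f := by
              rw [mul_add f ((θ + θ' * U) * e), mul_assoc f (θ + θ' * U) e, mul_assoc f (1 + U) f]
          _ = (θ + θ' * U) * (f * e) + (1 + U) * (f * f) := by rw [e1, e2]; simp only [mul_assoc]
          _ = _ := by rw [hidem, hfe, mul_zero, zero_add]
      have h5 := congrArg (f * ·) hw
      simp only [mul_zero] at h5
      rw [← mul_assoc, h4, mul_assoc] at h5
      exact h5
    -- f w = (U+1)^N (f w) = 0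
    have hfw : f * w = 0 := by
      obtain ⟨k, rfl⟩ : ∃ k, N = k + 1 := ⟨N - 1, by omega⟩
      calc f * w = f * (f * w) := by rw [← mul_assoc, hidem]
        _ = (U + 1) ^ k * ((1 + U) * (f * w)) := by rw [hf]; conv_lhs => rw [pow_succ, mul_assoc]
                                                    rw [add_comm 1 U, pow_succ]
        _ = 0 := by rw [hy, mul_zero]
    -- e w : (θ + θ' U) x = 0 → (U + 1) x = ((θ' - θ)/θ') x
    have hew : e * w = 0 := by
      set x := e * w with hxd
      have hfx : (U + 1) ^ N * x = 0 := by rw [hxd, ← mul_assoc, ← hf, hfe, zero_mul]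
      -- θ' (U + 1) x = (θ' - θ) x
      have h6 : θ' * ((U + 1) * x) = (θ' - θ) * x := by
        have : θ * x + θ' * (U * x) = 0 := by rw [← hx, add_mul, mul_assoc]
        rw [add_mul, one_mul, mul_add, sub_mul]
        have h7 : θ' * (U * x) = -(θ * x) := (neg_eq_of_add_eq_zero_right this).symm
        rw [h7]; abel
      have h8 : ∀ k, θ' ^ k * ((U + 1) ^ k * x) = (θ' - θ) ^ k * x := by
        intro k
        induction k with
        | zero => simp
        | succ k ih =>
          have hcU : Commute θ' ((U + 1) ^ k) := hc' _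
          have hcD : Commute (θ' - θ) ((U + 1) ^ k) := by
            show (θ' - θ) * _ = _ * (θ' - θ)
            rw [sub_mul, mul_sub, hc', hc]
          calc θ' ^ (k + 1) * ((U + 1) ^ (k + 1) * x) = θ' ^ k * ((θ' * (U + 1) ^ k) * ((U + 1) * x)) := by
                rw [pow_succ, pow_succ]; simp only [mul_assoc]
            _ = θ' ^ k * ((U + 1) ^ k * (θ' * ((U + 1) * x))) := by rw [hcU.eq]; simp only [mul_assoc]
            _ = θ' ^ k * (((U + 1) ^ k * (θ' - θ)) * x) := by rw [h6]; simp only [mul_assoc]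
            _ = θ' ^ k * ((θ' - θ) * ((U + 1) ^ k * x)) := by rw [← hcD.eq]; simp only [mul_assoc]
            _ = (θ' - θ) * (θ' ^ k * ((U + 1) ^ k * x)) := by
                have : Commute (θ' - θ) (θ' ^ k) := by
                  show (θ' - θ) * _ = _ * (θ' - θ)
                  rw [sub_mul, mul_sub, hc', hc]
                rw [← mul_assoc, ← this.eq, mul_assoc]
            _ = (θ' - θ) ^ (k + 1) * x := by rw [ih, pow_succ', mul_assoc]
      have h9 := h8 N
      rw [hfx, mul_zero] at h9
      have h10 : IsUnit (θ' - θ) := by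
        have : θ' - θ = -(θ - θ') := by abel
        rw [this]; exact hθθ.neg
      have h11 : IsUnit ((θ' - θ) ^ N) := h10.pow N
      exact (h11.mul_right_eq_zero.mp h9.symm)
    have : w = e * w + f * w := by rw [he, sub_mul, one_mul]; abel
    rw [this, hew, hfw, add_zero]
  -- a left-regular element of a finite ring is a unit
  have hinj' : Function.Injective (fun w : E => ((θ + θ' * U) * e + (1 + U) * f) * w) := by
    intro w w' hww
    have : ((θ + θ' * U) * e + (1 + U) * f) * (w - w') = 0 := by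
      simp only at hww
      rw [mul_sub, hww, sub_self]
    exact sub_eq_zero.mp (hinj _ this)
  obtain ⟨z, hz⟩ := (Finite.injective_iff_surjective.mp hinj') 1
  have hz1 : ((θ + θ' * U) * e + (1 + U) * f) * z = 1 := hz
  have hz2 : z * ((θ + θ' * U) * e + (1 + U) * f) = 1 := by
    apply hinj'
    show ((θ + θ' * U) * e + (1 + U) * f) * (z * ((θ + θ' * U) * e + (1 + U) * f)) = ((θ + θ' * U) * e + (1 + U) * f) * 1
    rw [← mul_assoc, hz1, one_mul, mul_one]
  exact isUnit_iff_exists.mpr ⟨z, hz1, hz2⟩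

end

section
variable {K : Type*} [Field K] [Fintype K] {q n : ℕ}

theorem similar_unitary (hK : Fintype.card K = q ^ 2) (A : GL (Fin n) K)
    (h : IsConj (A : Matrix (Fin n) (Fin n) K) (((A : Matrix (Fin n) (Fin n) K).map (fun x : K => x ^ q)).transpose)⁻¹) :
    ∃ B : ↥(Cfsg.GU n K q), IsConj A (B : GL (Fin n) K) := by
  classical
  obtain ⟨σ, hσ, hσ2, hσi⟩ := exists_sigma hK
  obtain ⟨a0, ha0⟩ : ∃ a : K, a - σ a ≠ 0 := by
    by_contra hcon
    push Not at hcon
    apply hσi
    ext x
    exact (sub_eq_zero.mp (hcon x)).symm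
  let st : Matrix (Fin n) (Fin n) K → Matrix (Fin n) (Fin n) K := fun X => (X.map σ).transpose
  have hadd : ∀ x y, st (x + y) = st x + st y := fun x y => by
    show ((x + y).map σ).transpose = (x.map σ).transpose + (y.map σ).transpose
    rw [Matrix.map_add σ (map_add σ), Matrix.transpose_add]
  have hmul : ∀ x y, st (x * y) = st y * st x := fun x y => by
    show ((x * y).map σ).transpose = (y.map σ).transpose * (x.map σ).transpose
    rw [Matrix.map_mul, Matrix.transpose_mul]
  have hone : st 1 = 1 := by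
    show ((1 : Matrix (Fin n) (Fin n) K).map σ).transpose = 1
    rw [Matrix.map_one σ (map_zero σ) (map_one σ), Matrix.transpose_one]
  have hinv : ∀ x, st (st x) = x := fun x => by
    show ((x.map σ).transpose.map σ).transpose = x
    ext i j
    exact hσ2 _
  have hstA : ((A : Matrix (Fin n) (Fin n) K).map (fun x : K => x ^ q)).transpose = st (A : Matrix (Fin n) (Fin n) K) := by
    show _ = ((A : Matrix (Fin n) (Fin n) K).map σ).transpose
    congr 2
    funext x
    exact (hσ x).symm
  rw [hstA] at h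
  obtain ⟨P, hP⟩ := h
  have hstAu : IsUnit (st (A : Matrix (Fin n) (Fin n) K)) := by
    refine isUnit_iff_exists.mpr ⟨st ((A⁻¹ : GL (Fin n) K) : Matrix (Fin n) (Fin n) K), ?_, ?_⟩
    · rw [← hmul, Units.inv_mul, hone]
    · rw [← hmul, Units.mul_inv, hone]
  have hdet : IsUnit (st (A : Matrix (Fin n) (Fin n) K)).det := (Matrix.isUnit_iff_isUnit_det _).mp hstAu
  have hPA : st (A : Matrix (Fin n) (Fin n) K) * (P : Matrix (Fin n) (Fin n) K) * (A : Matrix (Fin n) (Fin n) K) = (P : Matrix (Fin n) (Fin n) K) := by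
    have h1 : (P : Matrix (Fin n) (Fin n) K) * (A : Matrix (Fin n) (Fin n) K) = (st (A : Matrix (Fin n) (Fin n) K))⁻¹ * (P : Matrix (Fin n) (Fin n) K) := hP
    rw [mul_assoc, h1, ← mul_assoc, Matrix.mul_nonsing_inv _ hdet, one_mul]
  have hsc : ∀ a : K, st (Matrix.scalar (Fin n) a) = Matrix.scalar (Fin n) (σ a) := by
    intro a
    show ((Matrix.scalar (Fin n) a).map σ).transpose = _
    rw [Matrix.scalar_apply, Matrix.scalar_apply, Matrix.diagonal_map (map_zero σ), Matrix.diagonal_transpose]
  have hcent : ∀ (a : K) (x : Matrix (Fin n) (Fin n) K), Matrix.scalar (Fin n) a * x = x * Matrix.scalar (Fin n) a :=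
    fun a x => (Matrix.scalar_commute a (fun r => Commute.all _ _) x)
  have hθu : IsUnit (Matrix.scalar (Fin n) a0 - Matrix.scalar (Fin n) (σ a0)) := by
    rw [← map_sub]
    exact (IsUnit.mk0 _ ha0).map (Matrix.scalar (Fin n))
  obtain ⟨H, hHu, hHst, hAH⟩ := exists_herm hadd hmul hone hinv (A := (A : Matrix (Fin n) (Fin n) K)) (P := (P : Matrix (Fin n) (Fin n) K))
    (θ := Matrix.scalar (Fin n) a0) (θ' := Matrix.scalar (Fin n) (σ a0)) P.isUnit A.isUnit hPA (hsc a0) (hcent a0) (hcent (σ a0)) hθu
  obtain ⟨d, -, hd, -, hdu⟩ := exists_star_mul st hadd hmul hone hinv {H, Matrix.scalar (Fin n) a0, Matrix.scalar (Fin n) (σ a0)} (by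
      intro x hx y hy
      simp only [Set.mem_insert_iff, Set.mem_singleton_iff] at hx hy
      rcases hx with rfl | rfl | rfl
      · rcases hy with rfl | rfl | rfl
        · rfl
        · exact (hcent _ _).symm
        · exact (hcent _ _).symm
      · exact hcent _ _
      · exact hcent _ _) (by
      intro x hx
      simp only [Set.mem_insert_iff, Set.mem_singleton_iff] at hx ⊢
      rcases hx with rfl | rfl | rfl
      · left; exact hHst
      · right; right; exact hsc _
      · right; left; rw [hsc, hσ2]) (Matrix.scalar (Fin n) a0) (by simp) (by rw [hsc]; exact hθu) H (by simp) hHu hHst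
  obtain ⟨D, hD⟩ := hdu
  let B : GL (Fin n) K := D * A * D⁻¹
  have hstD : st ((D⁻¹ : GL (Fin n) K) : Matrix (Fin n) (Fin n) K) * st (D : Matrix (Fin n) (Fin n) K) = 1 := by
    rw [← hmul, Units.mul_inv, hone]
  have hB : B ∈ Cfsg.GU n K q := by
    rw [mem_GU hσ]
    show st (B : Matrix (Fin n) (Fin n) K) * (B : Matrix (Fin n) (Fin n) K) = 1
    have hBv : (B : Matrix (Fin n) (Fin n) K) = (D : Matrix (Fin n) (Fin n) K) * (A : Matrix (Fin n) (Fin n) K) * ((D⁻¹ : GL (Fin n) K) : Matrix (Fin n) (Fin n) K) := rfl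
    rw [hBv, hmul, hmul]
    calc _ = st ((D⁻¹ : GL (Fin n) K) : Matrix (Fin n) (Fin n) K) * (st (A : Matrix (Fin n) (Fin n) K) * (st (D : Matrix (Fin n) (Fin n) K) * (D : Matrix (Fin n) (Fin n) K)) * (A : Matrix (Fin n) (Fin n) K)) * ((D⁻¹ : GL (Fin n) K) : Matrix (Fin n) (Fin n) K) := by
          simp only [Matrix.mul_assoc]
      _ = st ((D⁻¹ : GL (Fin n) K) : Matrix (Fin n) (Fin n) K) * H * ((D⁻¹ : GL (Fin n) K) : Matrix (Fin n) (Fin n) K) := by rw [hD, hd, hAH]
      _ = (st ((D⁻¹ : GL (Fin n) K) : Matrix (Fin n) (Fin n) K) * st (D : Matrix (Fin n) (Fin n) K)) * ((D : Matrix (Fin n) (Fin n) K) * ((D⁻¹ : GL (Fin n) K) : Matrix (Fin n) (Fin n) K)) := by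
          rw [← hd, ← hD]; simp only [Matrix.mul_assoc]
      _ = 1 := by rw [hstD, Units.mul_inv, one_mul]
  refine ⟨⟨B, hB⟩, ?_⟩
  rw [isConj_iff]
  exact ⟨D, rfl⟩
end

/-- An invertible matrix A over the field with q² elements is conjugate in GL_n(q²) to an element of the general unitary group GU_n(q) (isometries of the Hermitian form Σ u_i v_i^q) if and only if A is similar to the inverse transpose of its entrywise q-th power (A ~ A^(−qT), the image of A under the map sending a matrix to the inverse transpose of its entrywise q-th power — inverse transpose composed with the field automorphism — whose fixed points form GU_n(q)). -/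
theorem result {K : Type*} [Field K] [Fintype K] {q n : ℕ} (hK : Fintype.card K = q ^ 2) (A : GL (Fin n) K) : (∃ B : ↥(Cfsg.GU n K q), IsConj A (B : GL (Fin n) K)) ↔ IsConj (A : Matrix (Fin n) (Fin n) K) (((A : Matrix (Fin n) (Fin n) K).map (fun x : K => x ^ q)).transpose)⁻¹ := by
  classical
  constructor
  · rintro ⟨B, hB⟩
    obtain ⟨σ, hσ, hσ2, hσi⟩ := exists_sigma hK
    have hBG := (mem_GU hσ B.1).mp B.2
    have hmapq : ∀ X : Matrix (Fin n) (Fin n) K, X.map (fun x : K => x ^ q) = X.map σ := by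
      intro X
      congr 1
      funext x
      exact (hσ x).symm
    rw [hmapq]
    rw [isConj_iff] at hB
    obtain ⟨g, hg⟩ := hB
    -- B = g A g⁻¹ ; (st B)⁻¹ = B;  st A = st g⁻¹ ... 
    let st : Matrix (Fin n) (Fin n) K → Matrix (Fin n) (Fin n) K := fun X => (X.map σ).transpose
    have hmul : ∀ x y, st (x * y) = st y * st x := fun x y => by
      show ((x * y).map σ).transpose = (y.map σ).transpose * (x.map σ).transpose
      rw [Matrix.map_mul, Matrix.transpose_mul]
    have hone : st 1 = 1 := by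
      show ((1 : Matrix (Fin n) (Fin n) K).map σ).transpose = 1
      rw [Matrix.map_one σ (map_zero σ) (map_one σ), Matrix.transpose_one]
    show IsConj (A : Matrix (Fin n) (Fin n) K) (st (A : Matrix (Fin n) (Fin n) K))⁻¹
    have hgA : (g : Matrix (Fin n) (Fin n) K) * (A : Matrix (Fin n) (Fin n) K) = (B.1 : Matrix (Fin n) (Fin n) K) * (g : Matrix (Fin n) (Fin n) K) := by
      rw [mul_inv_eq_iff_eq_mul] at hg
      exact congrArg Units.val hg
    have hBG' : st (B.1 : Matrix (Fin n) (Fin n) K) * (B.1 : Matrix (Fin n) (Fin n) K) = 1 := hBG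
    have hBG'' : (B.1 : Matrix (Fin n) (Fin n) K) * st (B.1 : Matrix (Fin n) (Fin n) K) = 1 := mul_eq_one_comm.mp hBG'
    -- C = st g * g;  C A = (st A)⁻¹ C
    have hstg : st (A : Matrix (Fin n) (Fin n) K) * st (g : Matrix (Fin n) (Fin n) K) = st (g : Matrix (Fin n) (Fin n) K) * st (B.1 : Matrix (Fin n) (Fin n) K) := by
      rw [← hmul, ← hmul, hgA]
    have hCA : st (A : Matrix (Fin n) (Fin n) K) * ((st (g : Matrix (Fin n) (Fin n) K) * (g : Matrix (Fin n) (Fin n) K)) * (A : Matrix (Fin n) (Fin n) K)) = st (g : Matrix (Fin n) (Fin n) K) * (g : Matrix (Fin n) (Fin n) K) := by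
      calc _ = (st (A : Matrix (Fin n) (Fin n) K) * st (g : Matrix (Fin n) (Fin n) K)) * ((g : Matrix (Fin n) (Fin n) K) * (A : Matrix (Fin n) (Fin n) K)) := by simp only [Matrix.mul_assoc]
        _ = st (g : Matrix (Fin n) (Fin n) K) * (st (B.1 : Matrix (Fin n) (Fin n) K) * (B.1 : Matrix (Fin n) (Fin n) K)) * (g : Matrix (Fin n) (Fin n) K) := by
            rw [hstg, hgA]; simp only [Matrix.mul_assoc]
        _ = _ := by rw [hBG', mul_one]
    have hCu : IsUnit (st (g : Matrix (Fin n) (Fin n) K) * (g : Matrix (Fin n) (Fin n) K)) := by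
      refine IsUnit.mul ?_ g.isUnit
      refine isUnit_iff_exists.mpr ⟨st ((g⁻¹ : GL (Fin n) K) : Matrix (Fin n) (Fin n) K), ?_, ?_⟩
      · rw [← hmul, Units.inv_mul, hone]
      · rw [← hmul, Units.mul_inv, hone]
    have hstAu : IsUnit (st (A : Matrix (Fin n) (Fin n) K)) := by
      refine isUnit_iff_exists.mpr ⟨st ((A⁻¹ : GL (Fin n) K) : Matrix (Fin n) (Fin n) K), ?_, ?_⟩
      · rw [← hmul, Units.inv_mul, hone]
      · rw [← hmul, Units.mul_inv, hone]
    have hdet : IsUnit (st (A : Matrix (Fin n) (Fin n) K)).det := (Matrix.isUnit_iff_isUnit_det _).mp hstAu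
    refine ⟨hCu.unit, ?_⟩
    show (st (g : Matrix (Fin n) (Fin n) K) * (g : Matrix (Fin n) (Fin n) K)) * (A : Matrix (Fin n) (Fin n) K) = (st (A : Matrix (Fin n) (Fin n) K))⁻¹ * (st (g : Matrix (Fin n) (Fin n) K) * (g : Matrix (Fin n) (Fin n) K))
    conv_rhs => rw [← hCA]
    rw [← Matrix.mul_assoc (st (A : Matrix (Fin n) (Fin n) K))⁻¹, Matrix.nonsing_inv_mul _ hdet, one_mul]
  · exact similar_unitary hK A

end Cfsg.Agent.S2588
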