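import Mathlib
import Cfsg.Agent.LibSU2H13
import Cfsg.Agent.S2587
import Cfsg.Agent.S2588

/-! Semisimple unitary matrices (seat helper13). -/

namespace CfsgLib.SU

open Module Polynomial Cfsg.Agent.H22 Cfsg.Agent.S2587 Cfsg.Agent.S2588
open scoped Matrix

variable {K : Type*} [Field K] [Fintype K] {q n : ℕ}

theorem hilbert {σ : K →+* K} (hσi : σ ≠ RingHom.id K) (hσ2 : ∀ x, σ (σ x) = x) {b : K} (hb : b * σ b = 1) : ∃ c : K, c ≠ 0 ∧ c = b * σ c := by
  have hb0 : b ≠ 0 := by rintro rfl; rw [zero_mul] at hb; exact zero_ne_one hb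
  obtain ⟨u, hu⟩ : ∃ u : K, u + b * σ u ≠ 0 := by
    by_contra hcon
    push Not at hcon
    have h1 := hcon 1
    rw [map_one, mul_one] at h1
    have h2 : b = -1 := by linear_combination h1
    apply hσi
    ext x
    have h3 := hcon x
    rw [h2] at h3
    rw [RingHom.id_apply]
    linear_combination -h3
  refine ⟨u + b * σ u, hu, ?_⟩
  rw [map_add, map_mul, hσ2]
  linear_combination (-u) * hb

/-- centralisers of semisimple unitary elements take every unitary determinant -/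
theorem gu_det (hK : Fintype.card K = q ^ 2) {p : ℕ} [Fact p.Prime] [CharP K p] (hn : 1 ≤ n) {σ : K →+* K} (hσ : ∀ x, σ x = x ^ q) (hσ2 : ∀ x, σ (σ x) = x) (hσi : σ ≠ RingHom.id K)
    (g : ↥(Cfsg.GU n K q)) (hg : (orderOf g).Coprime p) (a : K) (ha : a * σ a = 1) :
    ∃ z : ↥(Cfsg.GU n K q), z * g = g * z ∧ ((z : GL (Fin n) K) : Matrix (Fin n) (Fin n) K).det = a := by
  classical
  obtain ⟨c, hc0, hc⟩ := hilbert hσi hσ2 ha
  let V := Fin n → K
  let H : V → V → K := fun u w => ∑ i, u i * σ (w i)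
  have hH : ∀ u w, H u w = ∑ i, u i * σ (w i) := fun u w => rfl
  have hgU := (mem_GU hσ g.1).1 g.2
  have hgU' := (mem_GU_iff' hσ g.1).1 g.2
  have hadd : ∀ u u' w, H (u + u') w = H u w + H u' w := fun u u' w => by
    rw [hH, hH, hH, ← Finset.sum_add_distrib]
    exact Finset.sum_congr rfl fun i _ => by rw [Pi.add_apply, add_mul]
  have hsmul : ∀ (c : K) u w, H (c • u) w = c * H u w := fun c u w => by
    rw [hH, hH, Finset.mul_sum]
    exact Finset.sum_congr rfl fun i _ => by rw [Pi.smul_apply, smul_eq_mul, mul_assoc]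
  have hsym : ∀ u w, H w u = σ (H u w) := fun u w => by
    rw [hH, hH, map_sum]
    exact Finset.sum_congr rfl fun i _ => by rw [map_mul, hσ2, mul_comm]
  have hHd : ∀ u w, H u w = u ⬝ᵥ (fun i => σ (w i)) := fun u w => rfl
  have hmv : ∀ (A : Matrix (Fin n) (Fin n) K) (w : V), (fun i => σ ((A *ᵥ w) i)) = (A.map σ) *ᵥ (fun i => σ (w i)) := by
    intro A w
    funext i
    rw [Matrix.mulVec, Matrix.mulVec, dotProduct, dotProduct, map_sum]
    exact Finset.sum_congr rfl fun j _ => by rw [map_mul, Matrix.map_apply]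
  obtain ⟨x, y, hxT, hxy, hadj, hdet⟩ := normal_det (p' := p) hσ2 H hadd hsmul hsym (Matrix.toLin' ((g : GL (Fin n) K) : Matrix (Fin n) (Fin n) K)) hg (by
      rw [← Matrix.toLin'_pow]
      have : ((g : GL (Fin n) K) : Matrix (Fin n) (Fin n) K) ^ orderOf g = (((g ^ orderOf g : ↥(Cfsg.GU n K q)) : GL (Fin n) K) : Matrix (Fin n) (Fin n) K) := rfl
      rw [this, pow_orderOf_eq_one]
      exact Matrix.toLin'_one) (by
      intro u w
      rw [Matrix.toLin'_apply, Matrix.toLin'_apply, hHd, hmv, ← Matrix.vecMul_transpose, ← Matrix.dotProduct_mulVec, Matrix.mulVec_mulVec, hgU', Matrix.one_mulVec]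
      rfl) (Pi.single ⟨0, hn⟩ 1) (by
      rw [hH, Finset.sum_eq_single ⟨0, hn⟩]
      · rw [Pi.single_eq_same, map_one, mul_one]; exact one_ne_zero
      · intro i _ hi; rw [Pi.single_eq_of_ne hi, zero_mul]
      · intro h; exact absurd (Finset.mem_univ _) h) c
  let X : Matrix (Fin n) (Fin n) K := LinearMap.toMatrix' x
  let Y : Matrix (Fin n) (Fin n) K := LinearMap.toMatrix' y
  have hYX : Y = (X.map σ).transpose := by
    ext i j
    have h1 := hadj (Pi.single i 1) (Pi.single j 1)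
    have h2 : H (x (Pi.single i 1)) (Pi.single j 1) = X j i := by
      rw [hH, Finset.sum_eq_single j]
      · rw [Pi.single_eq_same, map_one, mul_one]
        have h0 : X *ᵥ Pi.single i 1 = x (Pi.single i 1) := LinearMap.toMatrix'_mulVec x _
        rw [← h0, Matrix.mulVec_single_one]; rfl
      · intro k _ hk; rw [Pi.single_eq_of_ne hk, map_zero, mul_zero]
      · intro h; exact absurd (Finset.mem_univ _) h
    have h3 : H (Pi.single i 1) (y (Pi.single j 1)) = σ (Y i j) := by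
      rw [hH, Finset.sum_eq_single i]
      · rw [Pi.single_eq_same, one_mul]
        have h0 : Y *ᵥ Pi.single j 1 = y (Pi.single j 1) := LinearMap.toMatrix'_mulVec y _
        rw [← h0, Matrix.mulVec_single_one]; rfl
      · intro k _ hk; rw [Pi.single_eq_of_ne hk, zero_mul]
      · intro h; exact absurd (Finset.mem_univ _) h
    rw [h2, h3] at h1
    rw [Matrix.transpose_apply, Matrix.map_apply, h1, hσ2]
  have hXY : X * Y = Y * X := by
    rw [← LinearMap.toMatrix'_mul, ← LinearMap.toMatrix'_mul, hxy.eq]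
  have hXdet : X.det = c := by rw [LinearMap.det_toMatrix', hdet]
  have hYdet : Y.det = σ c := by
    rw [hYX, Matrix.det_transpose, ← RingHom.mapMatrix_apply, ← RingHom.map_det, hXdet]
  have hσc : σ c ≠ 0 := by rw [Ne, map_eq_zero]; exact hc0
  let Xg : GL (Fin n) K := Matrix.GeneralLinearGroup.mkOfDetNeZero X (by rw [hXdet]; exact hc0)
  let Yg : GL (Fin n) K := Matrix.GeneralLinearGroup.mkOfDetNeZero Y (by rw [hYdet]; exact hσc)
  have hXg : (Xg : Matrix (Fin n) (Fin n) K) = X := rfl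
  have hYg : (Yg : Matrix (Fin n) (Fin n) K) = Y := rfl
  have hXYg : Xg * Yg = Yg * Xg := Units.ext hXY
  have hXG : Xg * (g : GL (Fin n) K) = (g : GL (Fin n) K) * Xg := by
    apply Units.ext
    apply Matrix.toLin'.injective
    rw [Units.val_mul, Units.val_mul, hXg, Matrix.toLin'_mul, Matrix.toLin'_mul, Matrix.toLin'_toMatrix']
    exact hxT.eq
  let st : Matrix (Fin n) (Fin n) K → Matrix (Fin n) (Fin n) K := fun A => (A.map σ).transpose
  have hst : ∀ A B, st (A * B) = st B * st A := fun A B => by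
    show ((A * B).map σ).transpose = (B.map σ).transpose * (A.map σ).transpose
    rw [Matrix.map_mul, Matrix.transpose_mul]
  have hstY : st Y = X := by
    rw [hYX]
    ext i j
    exact hσ2 _
  have hYG : Yg * (g : GL (Fin n) K) = (g : GL (Fin n) K) * Yg := by
    have h1 : st ((g : GL (Fin n) K) : Matrix (Fin n) (Fin n) K) = (((g : GL (Fin n) K)⁻¹ : GL (Fin n) K) : Matrix (Fin n) (Fin n) K) := by
      have h2 : st ((g : GL (Fin n) K) : Matrix (Fin n) (Fin n) K) * ((g : GL (Fin n) K) : Matrix (Fin n) (Fin n) K) = 1 := hgU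
      calc st ((g : GL (Fin n) K) : Matrix (Fin n) (Fin n) K) = st ((g : GL (Fin n) K) : Matrix (Fin n) (Fin n) K) * (((g : GL (Fin n) K) : Matrix (Fin n) (Fin n) K) * (((g : GL (Fin n) K)⁻¹ : GL (Fin n) K) : Matrix (Fin n) (Fin n) K)) := by
            rw [Units.mul_inv, mul_one]
        _ = _ := by rw [← mul_assoc, h2, one_mul]
    have h3 := congrArg (fun A : GL (Fin n) K => st (A : Matrix (Fin n) (Fin n) K)) hXG
    simp only [Units.val_mul, hst, h1] at h3
    have h4 : st (Xg : Matrix (Fin n) (Fin n) K) = (Yg : Matrix (Fin n) (Fin n) K) := hYX.symm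
    rw [h4, ← Units.val_mul, ← Units.val_mul] at h3
    have h5 : (g : GL (Fin n) K)⁻¹ * Yg = Yg * (g : GL (Fin n) K)⁻¹ := Units.ext h3
    have h6 : Commute (g : GL (Fin n) K)⁻¹ Yg := h5
    exact ((Commute.inv_left_iff.1 h6).eq).symm
  have hZ : Xg * Yg⁻¹ ∈ Cfsg.GU n K q := by
    rw [mem_GU hσ]
    have h1 : ((Xg * Yg⁻¹ : GL (Fin n) K) : Matrix (Fin n) (Fin n) K) * Y = X := by
      rw [← hYg, ← Units.val_mul, inv_mul_cancel_right, hXg]
    have h2 := congrArg st h1
    rw [hst, hstY] at h2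
    have h2' : (Xg : Matrix (Fin n) (Fin n) K) * st ((Xg * Yg⁻¹ : GL (Fin n) K) : Matrix (Fin n) (Fin n) K) = (Yg : Matrix (Fin n) (Fin n) K) := h2.trans hYX.symm
    have h3 : st ((Xg * Yg⁻¹ : GL (Fin n) K) : Matrix (Fin n) (Fin n) K) = ((Xg⁻¹ * Yg : GL (Fin n) K) : Matrix (Fin n) (Fin n) K) := by
      rw [Units.val_mul Xg⁻¹ Yg, ← h2', ← mul_assoc, Units.inv_mul, one_mul]
    change st ((Xg * Yg⁻¹ : GL (Fin n) K) : Matrix (Fin n) (Fin n) K) * _ = 1
    rw [h3, ← Units.val_mul]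
    have h4 : Xg⁻¹ * Yg * (Xg * Yg⁻¹) = 1 := by
      rw [mul_assoc, ← mul_assoc Yg, ← hXYg]; group
    rw [h4]; rfl
  refine ⟨⟨Xg * Yg⁻¹, hZ⟩, ?_, ?_⟩
  · apply Subtype.ext
    show Xg * Yg⁻¹ * (g : GL (Fin n) K) = (g : GL (Fin n) K) * (Xg * Yg⁻¹)
    have h1 : Commute Xg (g : GL (Fin n) K) := hXG
    have h2 : Commute Yg (g : GL (Fin n) K) := hYG
    exact (h1.mul_left h2.inv_left).eq
  · have h1 : ((Xg * Yg⁻¹ : GL (Fin n) K) : Matrix (Fin n) (Fin n) K) * Y = X := by
      rw [← hYg, ← Units.val_mul, inv_mul_cancel_right, hXg]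
    have h2 := congrArg Matrix.det h1
    rw [Matrix.det_mul, hYdet, hXdet] at h2
    apply mul_right_cancel₀ hσc
    rw [← hc]
    exact h2

end CfsgLib.SU
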