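import Mathlib
import Cfsg.Agent.LibSU3H13
import Cfsg.Agent.LibClsH13

/-! Semisimple classes of special unitary groups (seat helper13). -/

namespace CfsgLib.SU

open Module Polynomial Cfsg.Agent.H22 Cfsg.Agent.S2587 Cfsg.Agent.S2588 CfsgLib.CP CfsgLib.Cls
open scoped Matrix

section count
variable {K : Type*} [Field K] [Fintype K] {q : ℕ}

theorem card_fix (hK : Fintype.card K = q ^ 2) {σ : K →+* K} (hσ2 : ∀ x, σ (σ x) = x) (hσi : σ ≠ RingHom.id K) (m : ℕ) (ε : K) (hε : ε * ε = 1) (hσε : σ ε = ε) :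
    Nat.card {c : Fin m → K // ∀ i, c i = ε * σ (c i.rev)} = q ^ m := by
  classical
  obtain ⟨θ, hθ⟩ : ∃ θ : K, θ - σ θ ≠ 0 := by
    by_contra hcon
    push Not at hcon
    apply hσi
    ext x
    exact (sub_eq_zero.mp (hcon x)).symm
  let A := {c : Fin m → K // ∀ i, c i = ε * σ (c i.rev)}
  have hcard : Nat.card (A × A) = Nat.card (Fin m → K) := by
    refine Nat.card_congr (Equiv.ofBijective (fun ab => fun i => ab.1.1 i + θ * ab.2.1 i) ⟨?_, ?_⟩)
    · rintro ⟨⟨a, ha⟩, ⟨b, hb⟩⟩ ⟨⟨a', ha'⟩, ⟨b', hb'⟩⟩ h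
      have h1 : ∀ i, a i + θ * b i = a' i + θ * b' i := fun i => congrFun h i
      have h2 : ∀ i, a i + σ θ * b i = a' i + σ θ * b' i := by
        intro i
        have h3 := congrArg (fun x => ε * σ x) (h1 i.rev)
        simp only [map_add, map_mul, mul_add] at h3
        have e1 := ha i
        have e2 := hb i
        have e3 := ha' i
        have e4 := hb' i
        linear_combination h3 + e1 + σ θ * e2 - e3 - σ θ * e4
      have h3 : ∀ i, b i = b' i := by
        intro i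
        apply mul_left_cancel₀ hθ
        linear_combination h1 i - h2 i
      have h4 : ∀ i, a i = a' i := fun i => by
        have := h1 i
        rw [h3 i] at this
        exact add_right_cancel this
      exact Prod.ext (Subtype.ext (funext h4)) (Subtype.ext (funext h3))
    · intro x
      have hb : ∀ i, (θ - σ θ)⁻¹ * (x i - ε * σ (x i.rev)) = ε * σ ((θ - σ θ)⁻¹ * (x i.rev - ε * σ (x i.rev.rev))) := by
        intro i
        rw [Fin.rev_rev, map_mul, map_inv₀, map_sub, map_sub, map_mul, hσ2, hσ2, hσε]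
        have h1 : (σ θ - θ) ≠ 0 := by
          intro h; apply hθ; linear_combination -h
        field_simp
        linear_combination (θ - σ θ) * (x i) * hε
      refine ⟨(⟨fun i => x i - θ * ((θ - σ θ)⁻¹ * (x i - ε * σ (x i.rev))), fun i => ?_⟩, ⟨fun i => (θ - σ θ)⁻¹ * (x i - ε * σ (x i.rev)), hb⟩), ?_⟩
      · have h1 := hb i
        rw [map_sub, map_mul, mul_sub, show ε * (σ θ * σ ((θ - σ θ)⁻¹ * (x i.rev - ε * σ (x i.rev.rev)))) = σ θ * (ε * σ ((θ - σ θ)⁻¹ * (x i.rev - ε * σ (x i.rev.rev)))) by ring, ← h1]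
        field_simp
        ring
      · funext i
        simp only
        ring
  rw [Nat.card_prod, Nat.card_fun, Nat.card_eq_fintype_card (α := K), hK, Nat.card_eq_fintype_card (α := Fin m), Fintype.card_fin, ← pow_mul, mul_comm 2 m, pow_mul, ← sq] at hcard
  exact Nat.pow_left_injective (n := 2) two_ne_zero hcard

end count

section
variable {K : Type*} [Field K] [Fintype K] {q n : ℕ}

theorem coeff_of_rev {σ : K →+* K} {P : K[X]} (hn : P.natDegree = n) {i : ℕ} (hi : i ≤ n) :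
    (P.map σ).reverse.coeff i = σ (P.coeff (n - i)) := by
  rw [coeff_reverse, natDegree_map, hn, revAt_le hi, coeff_map]

/-- existence -/
theorem exists_su (hK : Fintype.card K = q ^ 2) {p : ℕ} [Fact p.Prime] [CharP K p] {σ : K →+* K} (hσ : ∀ x, σ x = x ^ q) (hσ2 : ∀ x, σ (σ x) = x) {P : K[X]} (hP : P.Monic) (hn : P.natDegree = n)
    (h0 : P.coeff 0 = (-1) ^ n) (hsd : ∀ i ≤ n, P.coeff i = (-1) ^ n * σ (P.coeff (n - i))) :
    ∃ g : ↥(Cfsg.SU n K q), (orderOf g).Coprime p ∧ ((g : Matrix.SpecialLinearGroup (Fin n) K) : Matrix (Fin n) (Fin n) K).charpoly = P := by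
  classical
  obtain ⟨M, hM⟩ := exists_companion hP hn
  have hε : ((-1 : K) ^ n) * (-1) ^ n = 1 := by rw [← mul_pow]; simp
  have hdet : M.det = 1 := by
    rw [Matrix.det_eq_sign_charpoly_coeff, hM, Fintype.card_fin, h0, hε]
  let G0 : Matrix.SpecialLinearGroup (Fin n) K := ⟨M, hdet⟩
  obtain ⟨N, hN⟩ := exists_pow_coprime (F := K) (p := p) G0
  obtain ⟨G1, hG1⟩ : ∃ G1 : Matrix.SpecialLinearGroup (Fin n) K, G1 = G0 ^ (Fintype.card K ^ N) := ⟨_, rfl⟩
  rw [← hG1] at hN
  have hG1c : (G1 : Matrix (Fin n) (Fin n) K).charpoly = P := by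
    rw [hG1, Matrix.SpecialLinearGroup.coe_pow, charpoly_pow]
    exact hM
  let A : GL (Fin n) K := (G1 : GL (Fin n) K)
  have hA : (A : Matrix (Fin n) (Fin n) K) = (G1 : Matrix (Fin n) (Fin n) K) := rfl
  have hAr : A ^ orderOf G1 = 1 := by
    show (Matrix.SpecialLinearGroup.toGL G1) ^ orderOf G1 = 1
    rw [← map_pow, pow_orderOf_eq_one, map_one]
  let D : Matrix (Fin n) (Fin n) K := ((A : Matrix (Fin n) (Fin n) K).map σ).transpose
  have hDdet : D.det = 1 := by
    show (((A : Matrix (Fin n) (Fin n) K).map σ).transpose).det = 1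
    rw [Matrix.det_transpose, ← RingHom.mapMatrix_apply, ← RingHom.map_det, hA, G1.2, map_one]
  have hDu : IsUnit D := by rw [Matrix.isUnit_iff_isUnit_det, hDdet]; exact isUnit_one
  have hDc : D⁻¹.charpoly = P := by
    rw [Matrix.charpoly_inv D hDu, hDdet, Ring.inverse_one, map_one, mul_one, Fintype.card_fin, ← Matrix.reverse_charpoly]
    have h1 : D.charpoly = P.map σ := by
      show (((A : Matrix (Fin n) (Fin n) K).map σ).transpose).charpoly = _
      rw [Matrix.charpoly_transpose, Matrix.charpoly_map, hA, hG1c]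
    rw [h1]
    have h2 : ((-1 : K[X]) ^ n) = C ((-1) ^ n) := by rw [map_pow, map_neg, map_one]
    rw [h2]
    ext i
    rw [coeff_C_mul]
    by_cases hi : i ≤ n
    · rw [coeff_of_rev hn hi, hsd i hi]
    · rw [coeff_reverse, natDegree_map, hn, revAt_eq_self_of_lt (by omega), coeff_map, coeff_eq_zero_of_natDegree_lt (by omega), map_zero, mul_zero]
  have hDr : D⁻¹ ^ orderOf G1 = 1 := by
    have h1 : D ^ orderOf G1 = 1 := by
      show (((A : Matrix (Fin n) (Fin n) K).map σ).transpose) ^ orderOf G1 = 1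
      rw [← Matrix.transpose_pow]
      have h2 : ((A : Matrix (Fin n) (Fin n) K).map σ) ^ orderOf G1 = ((A : Matrix (Fin n) (Fin n) K) ^ orderOf G1).map σ := by
        rw [← RingHom.mapMatrix_apply, ← map_pow, RingHom.mapMatrix_apply]
      rw [h2, ← Units.val_pow_eq_pow_val, hAr, Units.val_one, Matrix.map_one σ (map_zero σ) (map_one σ), Matrix.transpose_one]
    rw [Matrix.inv_pow', h1, inv_one]
  obtain ⟨ψ, hψ⟩ := conj_of_charpoly (p := p) (T := Matrix.toLin' (A : Matrix (Fin n) (Fin n) K)) (T' := Matrix.toLin' D⁻¹) hN (by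
      rw [← Matrix.toLin'_pow, ← Units.val_pow_eq_pow_val, hAr]; exact Matrix.toLin'_one) hN (by
      rw [← Matrix.toLin'_pow, hDr]; exact Matrix.toLin'_one) (by
      rw [Matrix.charpoly_toLin', Matrix.charpoly_toLin', hDc, hA, hG1c])
  obtain ⟨G, -, hG⟩ := exists_GL_conj (A := (A : Matrix (Fin n) (Fin n) K)) (B := D⁻¹) ψ hψ
  have hmapq : ∀ X : Matrix (Fin n) (Fin n) K, X.map (fun x : K => x ^ q) = X.map σ := by
    intro X; ext i j; rw [Matrix.map_apply, Matrix.map_apply, hσ]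
  obtain ⟨B, hB⟩ := similar_unitary hK A (by
    rw [hmapq]
    exact ⟨G, hG⟩)
  rw [isConj_iff] at hB
  obtain ⟨k, hk⟩ := hB
  have hBc : ((B : GL (Fin n) K) : Matrix (Fin n) (Fin n) K).charpoly = P := by
    rw [← hk, Units.val_mul, Matrix.charpoly_mul_comm, ← Units.val_mul, inv_mul_cancel_left, hA, hG1c]
  have hBd : ((B : GL (Fin n) K) : Matrix (Fin n) (Fin n) K).det = 1 := by
    rw [Matrix.det_eq_sign_charpoly_coeff, hBc, Fintype.card_fin, h0, hε]
  let B' : Matrix.SpecialLinearGroup (Fin n) K := ⟨((B : GL (Fin n) K) : Matrix (Fin n) (Fin n) K), hBd⟩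
  have hB' : B' ∈ Cfsg.SU n K q := B.2
  refine ⟨⟨B', hB'⟩, ?_, hBc⟩
  have hpow : (⟨B', hB'⟩ : ↥(Cfsg.SU n K q)) ^ orderOf G1 = 1 := by
    apply Subtype.ext
    apply Matrix.SpecialLinearGroup.toGL_injective
    rw [Subgroup.coe_pow, map_pow]
    have h1 : Matrix.SpecialLinearGroup.toGL B' = k * A * k⁻¹ := by
      rw [hk]
      exact Units.ext rfl
    rw [h1, conj_pow, hAr]
    simp
  exact Nat.Coprime.coprime_dvd_left (orderOf_dvd_of_pow_eq_one hpow) hN

theorem su_gu (g : ↥(Cfsg.SU n K q)) : Matrix.SpecialLinearGroup.toGL (g : Matrix.SpecialLinearGroup (Fin n) K) ∈ Cfsg.GU n K q := g.2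

/-- palindromicity -/
theorem su_pal {σ : K →+* K} (hσ : ∀ x, σ x = x ^ q) (g : ↥(Cfsg.SU n K q)) {i : ℕ} (hi : i ≤ n) :
    ((g : Matrix.SpecialLinearGroup (Fin n) K) : Matrix (Fin n) (Fin n) K).charpoly.coeff i =
      (-1) ^ n * σ (((g : Matrix.SpecialLinearGroup (Fin n) K) : Matrix (Fin n) (Fin n) K).charpoly.coeff (n - i)) := by
  classical
  have hε : ((-1 : K) ^ n) * (-1) ^ n = 1 := by rw [← mul_pow]; simp
  obtain ⟨A, hA⟩ : ∃ A : Matrix (Fin n) (Fin n) K, A = ((g : Matrix.SpecialLinearGroup (Fin n) K) : Matrix (Fin n) (Fin n) K) := ⟨_, rfl⟩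
  have h1 : (A.map σ).transpose * A = 1 := by
    rw [hA]
    exact (mem_GU hσ _).1 (su_gu g)
  have hdet : A.det = 1 := by rw [hA]; exact (g : Matrix.SpecialLinearGroup (Fin n) K).2
  have hu : IsUnit A := by rw [Matrix.isUnit_iff_isUnit_det, hdet]; exact isUnit_one
  have h2 : A⁻¹ = (A.map σ).transpose := Matrix.inv_eq_left_inv h1
  have h3 := Matrix.charpoly_inv A hu
  rw [h2, hdet, Ring.inverse_one, map_one, mul_one, Fintype.card_fin, ← Matrix.reverse_charpoly, Matrix.charpoly_transpose, Matrix.charpoly_map] at h3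
  rw [← hA]
  have h4 := congrArg (fun P : K[X] => P.coeff (n - i)) h3
  have h5 : ((-1 : K[X]) ^ n) = C ((-1) ^ n) := by rw [map_pow, map_neg, map_one]
  simp only [h5, coeff_C_mul, coeff_map] at h4
  have hnd : A.charpoly.natDegree = n := by rw [Matrix.charpoly_natDegree_eq_dim, Fintype.card_fin]
  rw [coeff_reverse, hnd, revAt_le (Nat.sub_le _ _), Nat.sub_sub_self hi] at h4
  rw [h4, ← mul_assoc, hε, one_mul]

/-- conjugacy -/
theorem su_conj (hK : Fintype.card K = q ^ 2) {p : ℕ} [Fact p.Prime] [CharP K p] (hn : 1 ≤ n) {g h : ↥(Cfsg.SU n K q)} (hg : (orderOf g).Coprime p) (hh : (orderOf h).Coprime p)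
    (e : ((g : Matrix.SpecialLinearGroup (Fin n) K) : Matrix (Fin n) (Fin n) K).charpoly = ((h : Matrix.SpecialLinearGroup (Fin n) K) : Matrix (Fin n) (Fin n) K).charpoly) : IsConj g h := by
  classical
  obtain ⟨σ, hσ, hσ2, hσi⟩ := exists_sigma hK
  let g' : ↥(Cfsg.GU n K q) := ⟨Matrix.SpecialLinearGroup.toGL (g : Matrix.SpecialLinearGroup (Fin n) K), su_gu g⟩
  let h' : ↥(Cfsg.GU n K q) := ⟨Matrix.SpecialLinearGroup.toGL (h : Matrix.SpecialLinearGroup (Fin n) K), su_gu h⟩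
  have hgp : ∀ g : ↥(Cfsg.SU n K q), (Matrix.SpecialLinearGroup.toGL (g : Matrix.SpecialLinearGroup (Fin n) K)) ^ orderOf g = 1 := by
    intro g
    rw [← map_pow, ← Subgroup.coe_pow, pow_orderOf_eq_one, Subgroup.coe_one, map_one]
  have hlin : ∀ g : ↥(Cfsg.SU n K q), (Matrix.toLin' (((Matrix.SpecialLinearGroup.toGL (g : Matrix.SpecialLinearGroup (Fin n) K)) : GL (Fin n) K) : Matrix (Fin n) (Fin n) K)) ^ orderOf g = 1 := by
    intro g
    rw [← Matrix.toLin'_pow, ← Units.val_pow_eq_pow_val, hgp]; exact Matrix.toLin'_one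
  obtain ⟨ψ, hψ⟩ := conj_of_charpoly (p := p) hg (hlin g) hh (hlin h) (by
    rw [Matrix.charpoly_toLin', Matrix.charpoly_toLin']; exact e)
  have h1 : IsConj (g' : GL (Fin n) K) (h' : GL (Fin n) K) := isConj_of_lin ψ hψ
  have h2 := gu_conj hK g' h' h1
  rw [isConj_iff] at h2
  obtain ⟨k, hk⟩ := h2
  have hkd : ((k : GL (Fin n) K) : Matrix (Fin n) (Fin n) K).det * σ ((k : GL (Fin n) K) : Matrix (Fin n) (Fin n) K).det = 1 := by
    have h3 := congrArg Matrix.det ((mem_GU hσ k.1).1 k.2)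
    rw [Matrix.det_mul, Matrix.det_transpose, ← RingHom.mapMatrix_apply, ← RingHom.map_det, Matrix.det_one] at h3
    rw [mul_comm]; exact h3
  have hk0 : ((k : GL (Fin n) K) : Matrix (Fin n) (Fin n) K).det ≠ 0 := (Matrix.isUnits_det_units _).ne_zero
  have hg'o : (orderOf g').Coprime p := by
    refine Nat.Coprime.coprime_dvd_left (orderOf_dvd_of_pow_eq_one ?_) hg
    exact Subtype.ext (hgp g)
  obtain ⟨z, hz1, hz2⟩ := gu_det hK (p := p) hn hσ hσ2 hσi g' hg'o (((k : GL (Fin n) K) : Matrix (Fin n) (Fin n) K).det)⁻¹ (by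
    rw [map_inv₀, ← mul_inv, hkd, inv_one])
  have hkz : (((k * z : ↥(Cfsg.GU n K q)) : GL (Fin n) K) : Matrix (Fin n) (Fin n) K).det = 1 := by
    rw [Subgroup.coe_mul, Units.val_mul, Matrix.det_mul, hz2, mul_inv_cancel₀ hk0]
  let k' : Matrix.SpecialLinearGroup (Fin n) K := ⟨(((k * z : ↥(Cfsg.GU n K q)) : GL (Fin n) K) : Matrix (Fin n) (Fin n) K), hkz⟩
  have hk' : k' ∈ Cfsg.SU n K q := (k * z).2
  have hk'g : Matrix.SpecialLinearGroup.toGL k' = ((k * z : ↥(Cfsg.GU n K q)) : GL (Fin n) K) := Units.ext rfl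
  rw [isConj_iff]
  refine ⟨⟨k', hk'⟩, ?_⟩
  apply Subtype.ext
  apply Matrix.SpecialLinearGroup.toGL_injective
  rw [Subgroup.coe_mul, Subgroup.coe_mul, Subgroup.coe_inv, map_mul, map_mul, map_inv, hk'g]
  have h4 : (k * z) * g' * (k * z)⁻¹ = h' := by
    rw [← hk, mul_assoc k z g', hz1]; group
  exact congrArg Subtype.val h4

theorem su_main (hK : Fintype.card K = q ^ 2) (p : ℕ) [Fact p.Prime] [CharP K p] (m : ℕ) :
    Nat.card {c : ConjClasses ↥(Cfsg.SU (m + 1) K q) // ∃ g : ↥(Cfsg.SU (m + 1) K q), ConjClasses.mk g = c ∧ (orderOf g).Coprime p} = q ^ m := by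
  classical
  obtain ⟨σ, hσ, hσ2, hσi⟩ := exists_sigma hK
  have hε : ((-1 : K) ^ (m + 1)) * (-1) ^ (m + 1) = 1 := by rw [← mul_pow]; simp
  rw [← card_fix hK hσ2 hσi m ((-1) ^ (m + 1)) hε (by rw [map_pow, map_neg, map_one])]
  have hc0 : ∀ g : ↥(Cfsg.SU (m + 1) K q), ((g : Matrix.SpecialLinearGroup (Fin (m + 1)) K) : Matrix (Fin (m + 1)) (Fin (m + 1)) K).charpoly.coeff 0 = (-1) ^ (m + 1) := by
    intro g
    have h1 := Matrix.det_eq_sign_charpoly_coeff ((g : Matrix.SpecialLinearGroup (Fin (m + 1)) K) : Matrix (Fin (m + 1)) (Fin (m + 1)) K)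
    rw [(g : Matrix.SpecialLinearGroup (Fin (m + 1)) K).2, Fintype.card_fin] at h1
    calc _ = ((-1 : K) ^ (m + 1) * (-1) ^ (m + 1)) * ((g : Matrix.SpecialLinearGroup (Fin (m + 1)) K) : Matrix (Fin (m + 1)) (Fin (m + 1)) K).charpoly.coeff 0 := by rw [hε, one_mul]
      _ = (-1) ^ (m + 1) := by rw [mul_assoc, ← h1, mul_one]
  refine card_eq_of_fibres (G := {g : ↥(Cfsg.SU (m + 1) K q) // (orderOf g).Coprime p})
    (fun g => ⟨ConjClasses.mk g.1, g.1, rfl, g.2⟩)
    (fun g => ⟨fun i => ((g.1 : Matrix.SpecialLinearGroup (Fin (m + 1)) K) : Matrix (Fin (m + 1)) (Fin (m + 1)) K).charpoly.coeff (i.1 + 1), fun i => ?_⟩) ?_ ?_ ?_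
  · have e1 : m + 1 - (i.1 + 1) = i.rev.1 + 1 := by
      have := i.2
      rw [Fin.val_rev]; omega
    have h1 := su_pal hσ g.1 (i := i.1 + 1) (by have := i.2; omega)
    rw [e1] at h1
    exact h1
  · rintro ⟨c, g, rfl, hg⟩
    exact ⟨⟨g, hg⟩, rfl⟩
  · rintro ⟨c, hc⟩
    obtain ⟨P, hP1, hP2, hP3⟩ := exists_monic (Fin.cons ((-1) ^ (m + 1)) c : Fin (m + 1) → K)
    have hP0 : P.coeff 0 = (-1) ^ (m + 1) := hP3 0
    have hPs : ∀ i : Fin m, P.coeff (i.1 + 1) = c i := fun i => hP3 i.succ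
    have hPn : P.coeff (m + 1) = 1 := by rw [← hP2]; exact hP1.coeff_natDegree
    obtain ⟨g, hg1, hg2⟩ := exists_su (q := q) hK (p := p) hσ hσ2 hP1 hP2 hP0 (by
      intro i hi
      rcases Nat.eq_zero_or_pos i with rfl | hi0
      · rw [Nat.sub_zero, hP0, hPn, map_one, mul_one]
      · rcases Nat.lt_or_ge m i with hmi | hmi
        · have : i = m + 1 := by omega
          rw [this, Nat.sub_self, hP0, hPn, map_pow, map_neg, map_one, hε]
        · have h1 := hPs ⟨i - 1, by omega⟩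
          have h2 := hPs (⟨i - 1, by omega⟩ : Fin m).rev
          rw [Fin.val_rev] at h2
          have e1 : m - (((⟨i - 1, by omega⟩ : Fin m) : ℕ) + 1) + 1 = m + 1 - i := by simp only; omega
          have e2 : (((⟨i - 1, by omega⟩ : Fin m) : ℕ)) + 1 = i := by simp only; omega
          rw [e1] at h2
          rw [e2] at h1
          rw [h1, h2]
          exact hc _)
    refine ⟨⟨g, hg1⟩, Subtype.ext (funext fun i => ?_)⟩
    show ((g : Matrix.SpecialLinearGroup (Fin (m + 1)) K) : Matrix (Fin (m + 1)) (Fin (m + 1)) K).charpoly.coeff (i.1 + 1) = c i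
    rw [hg2, hPs]
  · rintro ⟨g, hg⟩ ⟨h, hh⟩
    constructor
    · intro e
      have e1 := congrArg Subtype.val e
      rw [ConjClasses.mk_eq_mk_iff_isConj, isConj_iff] at e1
      obtain ⟨c, hc⟩ := e1
      change c * g * c⁻¹ = h at hc
      have h1 : ((h : Matrix.SpecialLinearGroup (Fin (m + 1)) K) : Matrix (Fin (m + 1)) (Fin (m + 1)) K).charpoly = ((g : Matrix.SpecialLinearGroup (Fin (m + 1)) K) : Matrix (Fin (m + 1)) (Fin (m + 1)) K).charpoly := by
        rw [← hc, Subgroup.coe_mul, Matrix.SpecialLinearGroup.coe_mul, Matrix.charpoly_mul_comm, ← Matrix.SpecialLinearGroup.coe_mul, ← Subgroup.coe_mul, inv_mul_cancel_left]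
      refine Subtype.ext (funext fun i => ?_)
      exact (congrArg (fun P : K[X] => P.coeff (i.1 + 1)) h1).symm
    · intro e
      refine Subtype.ext ?_
      rw [ConjClasses.mk_eq_mk_iff_isConj]
      refine su_conj hK (by omega) hg hh (monic_ext (n := m + 1) (Matrix.charpoly_monic _) (Matrix.charpoly_monic _)
        (by rw [Matrix.charpoly_natDegree_eq_dim, Fintype.card_fin]) (by rw [Matrix.charpoly_natDegree_eq_dim, Fintype.card_fin]) fun i => ?_)
      refine Fin.cases ?_ (fun j => ?_) i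
      · exact (hc0 g).trans (hc0 h).symm
      · exact congrFun (congrArg Subtype.val e) j

end

end CfsgLib.SU
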