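import Cfsg.Agent.LibPConj20
import Cfsg.Agent.LibBlockQP

set_option autoImplicit false
set_option linter.all false

/-! # Schur's bound for `p`-rational characters (helper20) -/

namespace CfsgLib.Schur20

open Cfsg CfsgLib.CharInt CfsgLib.CharInt2 CfsgLib.CharBasic CfsgLib.GalChar CfsgLib.PConj20
open scoped ComplexConjugate

universe u

variable {P : Type u} [Group P] [Finite P]

theorem gen_prod [Fintype P] {ι : Type*} (s : Finset ι) (f : ι → P → ℂ) (h : ∀ i ∈ s, IsGeneralizedCharacter P (f i)) :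
    IsGeneralizedCharacter P (∏ i ∈ s, f i) := by
  classical
  induction s using Finset.induction_on with
  | empty =>
    rw [Finset.prod_empty]
    exact gen_of_char (isCharacter_one (G := P))
  | insert i s hi ih =>
    rw [Finset.prod_insert hi]
    exact gen_mul (h i (Finset.mem_insert_self _ _)) (ih fun j hj => h j (Finset.mem_insert_of_mem hj))

/-- lower bound on a rational value -/
theorem value_lower {p : ℕ} (hp : p.Prime) {χ : P → ℂ} (hχ : IsCharacter P χ) {n : ℕ} (hn : χ 1 = n)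
    {g : P} {m : ℕ} (hg : orderOf g = p ^ (m + 1)) (hinv : ∀ k : ℕ, k.Coprime p → χ (g ^ k) = χ g) :
    0 ≤ ((p - 1 : ℕ) : ℝ) * (χ g).re + n := by
  classical
  have hpos : (0 : ℝ) < (p : ℝ) ^ m := pow_pos (by exact_mod_cast hp.pos) _
  -- the full sum is nonnegative
  have h1 : 0 ≤ (∑ i ∈ Finset.range (p ^ (m + 1)), χ (g ^ i)).re := by
    obtain ⟨N, ρ, rfl⟩ := hχ
    obtain ⟨b, ω, hω, hb⟩ := exists_diag_rep ρ g
    have h2 : ∀ i : ℕ, ρ.character (g ^ i) = ∑ j, ω j ^ i := by
      intro i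
      exact trace_of_diag b (ρ (g ^ i)) (fun j => ω j ^ i) (fun j => diag_pow ρ g (hb j) i)
    simp only [h2]
    rw [Finset.sum_comm, Complex.re_sum]
    apply Finset.sum_nonneg
    intro j _
    by_cases h3 : ω j = 1
    · rw [h3]
      simp only [one_pow, Finset.sum_const, Finset.card_range, nsmul_eq_mul, mul_one]
      rw [Complex.natCast_re]
      positivity
    · have h4 := mul_geom_sum (ω j) (p ^ (m + 1))
      have h5 := hω j
      rw [hg] at h5
      rw [h5, sub_self] at h4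
      rcases mul_eq_zero.mp h4 with h6 | h6
      · exact absurd (sub_eq_zero.mp h6) h3
      · rw [h6]; simp
  -- splitting
  have h2 : (∑ i ∈ Finset.range (p ^ (m + 1)), χ (g ^ i)) =
      ∑ i ∈ (Finset.range (p ^ (m + 1))).filter (fun i => (p ^ (m + 1)).Coprime i), χ (g ^ i) +
      ∑ i ∈ (Finset.range (p ^ (m + 1))).filter (fun i => ¬ (p ^ (m + 1)).Coprime i), χ (g ^ i) :=
    (Finset.sum_filter_add_sum_filter_not _ _ _).symm
  have hφ : ((Finset.range (p ^ (m + 1))).filter (fun i => (p ^ (m + 1)).Coprime i)).card = p ^ m * (p - 1) := by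
    have := Nat.totient_prime_pow_succ hp m
    rw [← this]; rfl
  have hφ2 : ((Finset.range (p ^ (m + 1))).filter (fun i => ¬ (p ^ (m + 1)).Coprime i)).card = p ^ m := by
    have h3 := Finset.card_filter_add_card_filter_not (s := Finset.range (p ^ (m + 1))) (fun i => (p ^ (m + 1)).Coprime i)
    rw [hφ, Finset.card_range] at h3
    obtain ⟨l, rfl⟩ : ∃ l, p = l + 1 := ⟨p - 1, by have := hp.pos; omega⟩
    rw [Nat.add_sub_cancel] at h3
    have h4 : (l + 1) ^ (m + 1) = (l + 1) ^ m * l + (l + 1) ^ m := by ring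
    omega
  have h3 : ∑ i ∈ (Finset.range (p ^ (m + 1))).filter (fun i => (p ^ (m + 1)).Coprime i), χ (g ^ i) =
      ((p ^ m * (p - 1) : ℕ) : ℂ) * χ g := by
    rw [Finset.sum_congr rfl (g := fun _ => χ g), Finset.sum_const, hφ, nsmul_eq_mul]
    intro i hi
    apply hinv
    have h4 := (Finset.mem_filter.mp hi).2
    exact (Nat.Coprime.coprime_dvd_left (dvd_pow_self p (Nat.succ_ne_zero m)) h4).symm
  have h4 : (∑ i ∈ (Finset.range (p ^ (m + 1))).filter (fun i => ¬ (p ^ (m + 1)).Coprime i), χ (g ^ i)).re ≤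
      ((p ^ m : ℕ) : ℝ) * n := by
    rw [Complex.re_sum]
    calc ∑ i ∈ (Finset.range (p ^ (m + 1))).filter (fun i => ¬ (p ^ (m + 1)).Coprime i), (χ (g ^ i)).re ≤
        ∑ i ∈ (Finset.range (p ^ (m + 1))).filter (fun i => ¬ (p ^ (m + 1)).Coprime i), (n : ℝ) := by
          apply Finset.sum_le_sum
          intro i _
          have h5 := char_norm_le hχ (g ^ i)
          rw [hn, Complex.natCast_re] at h5
          exact (Complex.re_le_norm _).trans h5
      _ = _ := by rw [Finset.sum_const, hφ2, nsmul_eq_mul]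
  have h30 : (((p ^ m * (p - 1) : ℕ) : ℂ) * χ g).re = ((p ^ m * (p - 1) : ℕ) : ℝ) * (χ g).re := by
    rw [Complex.mul_re, Complex.natCast_re, Complex.natCast_im, zero_mul, sub_zero]
  rw [h2, h3, Complex.add_re, h30] at h1
  have h5 : (0 : ℝ) ≤ (p : ℝ) ^ m * (((p - 1 : ℕ) : ℝ) * (χ g).re + n) := by
    push_cast at h1 h4
    nlinarith [h1, h4]
  exact nonneg_of_mul_nonneg_right h5 hpos

/-- **Schur**: a `p`-group with a faithful rational character of degree `n` has order dividing
`p ^ N * N!` with `N = n / (p - 1)`. -/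
theorem schur_dvd {p : ℕ} [hpf : Fact p.Prime] (hP : IsPGroup p P) {χ : P → ℂ} (hχ : IsCharacter P χ)
    {n : ℕ} (hn : χ 1 = n) (hfaith : ∀ g, χ g = χ 1 → g = 1)
    (hinv : ∀ g, ∀ k : ℕ, k.Coprime p → χ (g ^ k) = χ g) :
    Nat.card P ∣ p ^ (n / (p - 1)) * (n / (p - 1)).factorial := by
  classical
  letI := Fintype.ofFinite P
  have hp : p.Prime := hpf.out
  obtain ⟨M, hM⟩ := CfsgLib.BlockReg2.exists_modular p hp
  set N := n / (p - 1) with hN
  have hp1 : 0 < p - 1 := by have := hp.one_lt; omega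
  -- integrality of the values
  have hint : ∀ g, ∃ z : ℤ, χ g = z := by
    intro g
    apply exists_int_of_fixed (CfsgLib.CharBasic.char_isIntegral hχ g)
    intro σ
    obtain ⟨k, hk, hk2⟩ := exists_coprime_of_gal P σ
    rw [← hk2 χ hχ g]
    by_cases h1 : p ∣ Nat.card P
    · exact hinv g k (Nat.Coprime.coprime_dvd_right h1 hk)
    · have h2 : Nat.card P = 1 := by
        obtain ⟨m, hm⟩ := IsPGroup.iff_card.mp hP
        rcases m with _ | m
        · rw [hm, pow_zero]
        · exact absurd (by rw [hm]; exact dvd_pow_self p (Nat.succ_ne_zero m)) h1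
      haveI : Subsingleton P := (Nat.card_eq_one_iff_unique.mp h2).1
      congr 1
      exact Subsingleton.elim _ _
  choose z hz using hint
  have hz1 : z 1 = n := by
    have h1 := hz 1
    rw [hn] at h1
    exact_mod_cast h1.symm
  -- the deficiency
  have htt : ∀ g, g ≠ 1 → ∃ t : ℕ, 1 ≤ t ∧ t ≤ N ∧ z g = n - p * t := by
    intro g hg
    obtain ⟨m', hm'⟩ := (IsPGroup.iff_orderOf.mp hP) g
    obtain ⟨m, rfl⟩ : ∃ m, m' = m + 1 := by
      rcases m' with _ | m
      · rw [pow_zero, orderOf_eq_one_iff] at hm'; exact absurd hm' hg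
      · exact ⟨m, rfl⟩
    have h1 : (p : ℤ) ∣ n - z g := by
      have h2 := CfsgLib.BlockQP.char_congr hM hχ (u := g) (x := 1) (Commute.one_right g) ⟨_, hm'⟩
      rw [mul_one, hz, hn] at h2
      have h3 : ((z g : ℤ) : ℂ) - (n : ℂ) = ((z g - n : ℤ) : ℂ) := by push_cast; ring
      rw [h3, CfsgLib.BlockR.ideal_int_iff hM] at h2
      have := (dvd_neg (α := ℤ)).mpr h2
      rwa [neg_sub] at this
    obtain ⟨s, hs⟩ := h1
    have h4 : z g < n := by
      have h5 := char_norm_le hχ g
      rw [hn, Complex.natCast_re] at h5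
      have h6 : (z g : ℝ) ≤ n := by
        have h7 : (χ g).re = z g := by rw [hz]; simp
        rw [← h7]
        exact (Complex.re_le_norm _).trans h5
      have h8 : z g ≤ n := by exact_mod_cast h6
      refine lt_of_le_of_ne h8 ?_
      intro h9
      apply hg
      apply hfaith
      rw [hz, h9, hn]; simp
    have h5 : 0 < s := by
      have : 0 < (p : ℤ) * s := by rw [← hs]; omega
      by_contra h9
      push Not at h9
      have h10 : (p : ℤ) * s ≤ 0 := mul_nonpos_of_nonneg_of_nonpos (by exact_mod_cast hp.pos.le) h9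
      omega
    have h6 : (0 : ℝ) ≤ ((p - 1 : ℕ) : ℝ) * (χ g).re + n := value_lower hp hχ hn hm' (hinv g)
    have h7 : (χ g).re = z g := by rw [hz]; simp
    rw [h7] at h6
    have h8 : (0 : ℤ) ≤ ((p - 1 : ℕ) : ℤ) * z g + n := by exact_mod_cast h6
    refine ⟨s.toNat, ?_, ?_, ?_⟩
    · omega
    · rw [hN, Nat.le_div_iff_mul_le hp1]
      have h9 : (s.toNat : ℤ) = s := Int.toNat_of_nonneg h5.le
      have h10 : (s : ℤ) * ((p - 1 : ℕ) : ℤ) ≤ n := by
        have h11 : z g = n - p * s := by omega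
        rw [h11] at h8
        have hpc : ((p - 1 : ℕ) : ℤ) = (p : ℤ) - 1 := by
          have := hp.pos
          omega
        rw [hpc] at h8 ⊢
        have hpp : (0 : ℤ) < p := by exact_mod_cast hp.pos
        have h12 : (p : ℤ) * (s * ((p : ℤ) - 1)) ≤ p * n := by nlinarith
        exact le_of_mul_le_mul_left h12 hpp
      rw [← h9] at h10
      exact_mod_cast h10
    · have h9 : (s.toNat : ℤ) = s := Int.toNat_of_nonneg h5.le
      rw [h9]; omega
  -- the generalized character
  set f : P → ℂ := ∏ t ∈ Finset.Icc 1 N, (χ - fun _ => (((n : ℤ) - p * t : ℤ) : ℂ)) with hf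
  have hfg : IsGeneralizedCharacter P f := by
    apply gen_prod
    intro t _
    apply gen_sub (gen_of_char hχ)
    have h1 : (fun _ : P => (((n : ℤ) - p * t : ℤ) : ℂ)) = (((n : ℤ) - p * t : ℤ) : ℂ) • (fun _ : P => (1 : ℂ)) := by
      funext x; simp
    rw [h1]
    exact gen_intsmul (gen_of_char (isCharacter_one (G := P))) _
  have hfv : ∀ g, f g = ∏ t ∈ Finset.Icc 1 N, (((z g - ((n : ℤ) - p * t) : ℤ)) : ℂ) := by
    intro g
    rw [hf, Finset.prod_apply]
    apply Finset.prod_congr rfl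
    intro t _
    rw [Pi.sub_apply, hz]
    push_cast; ring
  have hf0 : ∀ g, g ≠ 1 → f g = 0 := by
    intro g hg
    obtain ⟨t, ht1, ht2, ht3⟩ := htt g hg
    rw [hfv]
    apply Finset.prod_eq_zero (Finset.mem_Icc.mpr ⟨ht1, ht2⟩)
    rw [ht3]; simp
  have hf1 : f 1 = ((p ^ N * N.factorial : ℕ) : ℂ) := by
    rw [hfv, hz1]
    have h1 : ∀ t ∈ Finset.Icc 1 N, ((((n : ℤ) - ((n : ℤ) - p * t) : ℤ)) : ℂ) = (p : ℂ) * (t : ℂ) := by
      intro t _; push_cast; ring
    rw [Finset.prod_congr rfl h1, Finset.prod_mul_distrib, Finset.prod_const, Nat.card_Icc, Nat.add_sub_cancel]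
    push_cast
    congr 1
    have h9 : Finset.Icc 1 N = Finset.Ico 1 (N + 1) := by ext t; simp [Nat.lt_succ_iff]
    rw [← Finset.prod_Ico_id_eq_factorial, h9]
    push_cast
    rfl
  obtain ⟨k, hk⟩ := gen_inner_int hfg (gen_of_char (isCharacter_one (G := P)))
  rw [inner_one_right] at hk
  rw [Finset.sum_eq_single (1 : P) (fun g _ hg => hf0 g hg) (fun h => absurd (Finset.mem_univ _) h), hf1] at hk
  have hP0 : (Nat.card P : ℂ) ≠ 0 := by exact_mod_cast Nat.card_pos.ne'
  have h1 : ((p ^ N * N.factorial : ℕ) : ℂ) = (Nat.card P : ℂ) * k := by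
    rw [← hk, mul_inv_cancel_left₀ hP0]
  have h2 : ((p ^ N * N.factorial : ℕ) : ℤ) = (Nat.card P : ℤ) * k := by exact_mod_cast h1
  have h3 : (Nat.card P : ℤ) ∣ ((p ^ N * N.factorial : ℕ) : ℤ) := ⟨k, h2⟩
  exact_mod_cast h3

end CfsgLib.Schur20
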