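import Cfsg.Agent.LibSchur3

/-! Generation lemmas for stem extensions. -/

set_option autoImplicit false
set_option linter.style.haveILetI false
set_option linter.unusedSectionVars false

namespace CfsgLib.Schur

open Subgroup
open scoped commutatorElement

universe u v w

theorem comm_le_of_gen {Γ : Type u} [Group Γ] (N : Subgroup Γ) [N.Normal] (X : Set Γ)
    (hX : closure X = ⊤) (h : ∀ a ∈ X, ∀ b ∈ X, ⁅a, b⁆ ∈ N) : commutator Γ ≤ N := by
  have key : ∀ a : Γ, (∀ b ∈ X, ⁅a, b⁆ ∈ N) → ∀ b : Γ, ⁅a, b⁆ ∈ N := by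
    intro a ha b
    have h1 : X ⊆ ((centralizer {(QuotientGroup.mk' N a)}).comap (QuotientGroup.mk' N) : Subgroup Γ) := by
      intro x hx
      rw [SetLike.mem_coe, mem_comap, mem_centralizer_iff]
      intro y hy
      rw [Set.mem_singleton_iff] at hy
      subst hy
      have h2 : QuotientGroup.mk' N ⁅a, x⁆ = 1 := (QuotientGroup.eq_one_iff _).mpr (ha x hx)
      rw [map_commutatorElement, commutatorElement_eq_one_iff_commute] at h2
      exact h2
    have h2 : b ∈ ((centralizer {(QuotientGroup.mk' N a)}).comap (QuotientGroup.mk' N) : Subgroup Γ) := by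
      have : b ∈ closure X := hX ▸ mem_top b
      exact (closure_le _).mpr h1 this
    rw [mem_comap, mem_centralizer_iff] at h2
    have h3 := h2 _ rfl
    apply (QuotientGroup.eq_one_iff (N := N) _).mp
    change QuotientGroup.mk' N ⁅a, b⁆ = 1
    rw [map_commutatorElement, commutatorElement_eq_one_iff_commute]
    exact h3
  have h1 : ∀ a ∈ X, ∀ b : Γ, ⁅a, b⁆ ∈ N := fun a ha b => key a (h a ha) b
  have h2 : ∀ b : Γ, ∀ a : Γ, ⁅b, a⁆ ∈ N := fun b a => key b (fun a ha => by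
    rw [← commutatorElement_inv]; exact inv_mem (h1 a ha b)) a
  rw [_root_.commutator_def, Subgroup.commutator_le]
  intro a _ b _
  exact h2 a b

/-- Lifts of generators generate a stem extension. -/
theorem closure_eq_top_of_stem {Γ : Type u} {Q : Type v} [Group Γ] [Group Q] (σ : Γ →* Q)
    (hσ : Cfsg.IsStemExtension σ) (X : Set Γ) (hX : closure (σ '' X) = ⊤) : closure X = ⊤ := by
  have h1 : ∀ g : Γ, ∃ x : closure X, ∃ z ∈ center Γ, g = (closure X).subtype x * z := by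
    intro g
    have h2 : σ g ∈ (closure X).map σ := by
      rw [MonoidHom.map_closure, hX]; trivial
    obtain ⟨x, hx, hxg⟩ := h2
    refine ⟨⟨x, hx⟩, x⁻¹ * g, hσ.2.1 ?_, ?_⟩
    · rw [MonoidHom.mem_ker, map_mul, map_inv, hxg, inv_mul_cancel]
    · change g = x * (x⁻¹ * g); group
  have h2 := commutator_eq_map (closure X).subtype h1
  rw [eq_top_iff]
  intro g _
  have h3 : σ g ∈ (closure X).map σ := by
    rw [MonoidHom.map_closure, hX]; trivial
  obtain ⟨x, hx, hxg⟩ := h3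
  have h4 : x⁻¹ * g ∈ σ.ker := by
    rw [MonoidHom.mem_ker, map_mul, map_inv, hxg, inv_mul_cancel]
  have h5 := hσ.2.2 h4
  rw [h2] at h5
  obtain ⟨y, -, hy⟩ := h5
  have h6 : g = x * y.1 := by
    have : y.1 = x⁻¹ * g := hy
    rw [this]; group
  rw [h6]
  exact mul_mem hx y.2

theorem exists_hom_zmod {A : Type u} [Group A] (m : ℕ) (z : A) (hz : z ^ m = 1) :
    ∃ f : Multiplicative (ZMod m) →* A, f (Multiplicative.ofAdd 1) = z := by
  let f : ZMod m →+ Additive (zpowers z) :=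
    ZMod.lift m ⟨(zmultiplesHom (Additive (zpowers z))) (Additive.ofMul ⟨z, mem_zpowers z⟩), by
      rw [zmultiplesHom_apply, natCast_zsmul, ← ofMul_pow]
      have : (⟨z, mem_zpowers z⟩ : zpowers z) ^ m = 1 := Subtype.ext hz
      rw [this]; rfl⟩
  refine ⟨{ toFun := fun k => ((Additive.toMul (f (Multiplicative.toAdd k)) : zpowers z) : A)
            map_one' := by rw [toAdd_one, map_zero]; rfl
            map_mul' := fun a b => by rw [toAdd_mul, map_add]; rfl }, ?_⟩
  change ((Additive.toMul (f 1) : zpowers z) : A) = z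
  have h1 : f 1 = Additive.ofMul ⟨z, mem_zpowers z⟩ := by
    have h2 := ZMod.lift_coe m (⟨(zmultiplesHom (Additive (zpowers z))) (Additive.ofMul ⟨z, mem_zpowers z⟩), by
      rw [zmultiplesHom_apply, natCast_zsmul, ← ofMul_pow]
      have : (⟨z, mem_zpowers z⟩ : zpowers z) ^ m = 1 := Subtype.ext hz
      rw [this]; rfl⟩ : { f : ℤ →+ Additive (zpowers z) // f m = 0 }) 1
    rw [Int.cast_one] at h2
    rw [h2]
    change (zmultiplesHom (Additive (zpowers z))) (Additive.ofMul ⟨z, mem_zpowers z⟩) 1 = _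
    rw [zmultiplesHom_apply, one_zsmul]
  rw [h1]; rfl

theorem exists_surj_zmod {A : Type u} [Group A] (m : ℕ) (z : A) (hz : z ^ m = 1) (hA : ∀ a, a ∈ zpowers z) :
    ∃ f : Multiplicative (ZMod m) →* A, Function.Surjective f := by
  obtain ⟨f, hf⟩ := exists_hom_zmod m z hz
  refine ⟨f, fun a => ?_⟩
  obtain ⟨k, hk⟩ := mem_zpowers_iff.mp (hA a)
  exact ⟨(Multiplicative.ofAdd 1) ^ k, by rw [map_zpow, hf, hk]⟩

/-- Analysis of stem extensions of dihedral-like groups. -/
theorem dihedral_like {Γ : Type u} [Group Γ] (Z : Subgroup Γ) (hZ : Z ≤ center Γ) (x y : Γ)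
    (hgen : closure {x, y} = (⊤ : Subgroup Γ)) (ha : y * x * y⁻¹ * x ∈ Z) (n : ℕ) (hn : y * x ^ n = x ^ n * y) :
    commutator Γ ≤ zpowers ⁅x, y⁆ ∧ ⁅x, y⁆ ^ n = 1 := by
  have hz : ∀ z ∈ Z, ∀ g, g * z = z * g := fun z hz g => mem_center_iff.mp (hZ hz) g
  obtain ⟨a, ha'⟩ : ∃ a, a = y * x * y⁻¹ * x := ⟨_, rfl⟩
  rw [← ha'] at ha
  have hca : ∀ g, Commute a g := fun g => (hz a ha g).symm
  have hyx : y * x * y⁻¹ = x⁻¹ * a := by rw [hz a ha, ha']; group
  obtain ⟨c, hc⟩ : ∃ c, c = ⁅x, y⁆ := ⟨_, rfl⟩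
  rw [← hc]
  have hc1 : c = x ^ 2 * a⁻¹ := by
    have h1 : c = x * (y * x * y⁻¹)⁻¹ := by rw [hc, commutatorElement_def]; group
    have h2 : a⁻¹ * x = x * a⁻¹ := ((hca x).inv_left).eq
    rw [h1, hyx, mul_inv_rev, inv_inv, h2, pow_two, mul_assoc]
  have hcx : x * c * x⁻¹ = c := by
    have h2 : a⁻¹ * x⁻¹ = x⁻¹ * a⁻¹ := ((hca x⁻¹).inv_left).eq
    rw [hc1, mul_assoc, mul_assoc, h2, pow_two]; group
  have hcy : y * c * y⁻¹ = c⁻¹ := by
    have h2 : y * a⁻¹ = a⁻¹ * y := ((hca y).inv_left).eq.symm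
    calc y * c * y⁻¹ = (y * x * y⁻¹) * (y * x * y⁻¹) * (y * a⁻¹ * y⁻¹) := by rw [hc1, pow_two]; group
      _ = (x⁻¹ * a) * (x⁻¹ * a) * a⁻¹ := by rw [hyx, h2, mul_inv_cancel_right]
      _ = x⁻¹ * (a * x⁻¹) := by group
      _ = x⁻¹ * (x⁻¹ * a) := by rw [(hca x⁻¹).eq]
      _ = (x ^ 2)⁻¹ * a := by rw [pow_two]; group
      _ = a * (x ^ 2)⁻¹ := ((hca (x ^ 2)⁻¹).eq).symm
      _ = c⁻¹ := by rw [hc1]; group
  have hNx : ∀ g : Γ, g * c * g⁻¹ ∈ zpowers c → g⁻¹ * c * g ∈ zpowers c → g ∈ normalizer (zpowers c : Set Γ) := by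
    intro g h1 h2
    rw [mem_normalizer_iff]
    intro h
    constructor
    · intro hh
      obtain ⟨k, rfl⟩ := mem_zpowers_iff.mp hh
      rw [← conj_zpow]; exact zpow_mem h1 k
    · intro hh
      obtain ⟨k, hk⟩ := mem_zpowers_iff.mp hh
      have h3 : h = g⁻¹ * c ^ k * g := by rw [hk]; group
      have h4 : g⁻¹ * c ^ k * g = (g⁻¹ * c * g) ^ k := by
        have := (conj_zpow (i := k) (a := g⁻¹) (b := c))
        rw [inv_inv] at this
        exact this.symm
      rw [h3, h4]; exact zpow_mem h2 k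
  have hNn : (zpowers c).Normal := by
    rw [← normalizer_eq_top_iff, eq_top_iff, ← hgen, closure_le]
    rintro g (rfl | rfl)
    · apply hNx
      · rw [hcx]; exact mem_zpowers c
      · have : g⁻¹ * c * g = c := by
          nth_rewrite 1 [← hcx]; group
        rw [this]; exact mem_zpowers c
    · apply hNx
      · rw [hcy]; exact inv_mem (mem_zpowers c)
      · have : g⁻¹ * c * g = c⁻¹ := by
          have h5 : c = (g * c * g⁻¹)⁻¹ := by rw [hcy, inv_inv]
          nth_rewrite 1 [h5]; group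
        rw [this]; exact inv_mem (mem_zpowers c)
  refine ⟨?_, ?_⟩
  · apply comm_le_of_gen (zpowers c) {x, y} hgen
    rintro g (rfl | rfl) h (rfl | rfl)
    · rw [commutatorElement_self]; exact one_mem _
    · rw [← hc]; exact mem_zpowers c
    · rw [← commutatorElement_inv, ← hc]; exact inv_mem (mem_zpowers c)
    · rw [commutatorElement_self]; exact one_mem _
  · have h1 : (y * x * y⁻¹) ^ n = x ^ n := by
      rw [conj_pow, hn, mul_inv_cancel_right]
    rw [hyx, ((hca x⁻¹).symm).mul_pow, inv_pow, inv_mul_eq_iff_eq_mul] at h1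
    rw [hc1, ((hca (x ^ 2)).inv_left.symm).mul_pow, ← pow_mul, inv_pow, h1, mul_comm 2 n, pow_mul, pow_two, mul_inv_cancel]

end CfsgLib.Schur
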