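import Cfsg.Agent.LibSchur4
import Mathlib.RingTheory.TensorProduct.Finite

/-! The Schur multiplier of a direct product. -/

set_option autoImplicit false
set_option linter.style.haveILetI false
set_option linter.unusedSectionVars false

namespace CfsgLib.Schur

open Subgroup
open scoped commutatorElement TensorProduct

universe u v w

section prod

variable (Q₁ : Type u) (Q₂ : Type v) [Group Q₁] [Group Q₂]

/-- tensor product of the abelianizations -/
abbrev TT : Type (max u v) := (Additive (Abelianization Q₁)) ⊗[ℤ] (Additive (Abelianization Q₂))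

theorem card_smul_TT [Finite Q₁] (x : TT Q₁ Q₂) : (Nat.card (Abelianization Q₁) : ℤ) • x = 0 := by
  induction x using TensorProduct.induction_on with
  | zero => simp
  | tmul a b =>
    rw [TensorProduct.smul_tmul']
    have : (Nat.card (Abelianization Q₁) : ℤ) • a = 0 := by
      rw [natCast_zsmul]
      apply Additive.toMul.injective
      rw [toMul_nsmul, toMul_zero]
      exact pow_card_eq_one'
    rw [this, TensorProduct.zero_tmul]
  | add a b ha hb => rw [smul_add, ha, hb, add_zero]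

theorem card_smul_TT' [Finite Q₂] (x : TT Q₁ Q₂) : (Nat.card (Abelianization Q₂) : ℤ) • x = 0 := by
  induction x using TensorProduct.induction_on with
  | zero => simp
  | tmul a b =>
    rw [← TensorProduct.tmul_smul]
    have : (Nat.card (Abelianization Q₂) : ℤ) • b = 0 := by
      rw [natCast_zsmul]
      apply Additive.toMul.injective
      rw [toMul_nsmul, toMul_zero]
      exact pow_card_eq_one'
    rw [this, TensorProduct.tmul_zero]
  | add a b ha hb => rw [smul_add, ha, hb, add_zero]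

theorem finite_TT [Finite Q₁] [Finite Q₂] : Finite (TT Q₁ Q₂) := by
  have h1 : Module.Finite ℤ (Additive (Abelianization Q₁)) := inferInstance
  have h2 : Module.Finite ℤ (Additive (Abelianization Q₂)) := inferInstance
  have h3 := Module.Finite.tensorProduct ℤ (Additive (Abelianization Q₁)) (Additive (Abelianization Q₂))
  refine @Module.finite_of_fg_torsion (TT Q₁ Q₂) _ _ h3 ?_
  intro x
  refine ⟨⟨(Nat.card (Abelianization Q₁) : ℤ), ?_⟩, card_smul_TT Q₁ Q₂ x⟩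
  rw [mem_nonZeroDivisors_iff_ne_zero]
  exact_mod_cast Nat.card_pos.ne'

variable {Q₁ Q₂}

theorem tensor_ind {p : TT Q₁ Q₂ → Prop} (h0 : p 0)
    (h1 : ∀ (a : Q₁) (b : Q₂), p (Additive.ofMul (Abelianization.of a) ⊗ₜ Additive.ofMul (Abelianization.of b)))
    (h2 : ∀ x y, p x → p y → p (x + y)) (x : TT Q₁ Q₂) : p x := by
  induction x using TensorProduct.induction_on with
  | zero => exact h0
  | tmul a b =>
    obtain ⟨a, ha⟩ := QuotientGroup.mk'_surjective _ (Additive.toMul a)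
    obtain ⟨b, hb⟩ := QuotientGroup.mk'_surjective _ (Additive.toMul b)
    have := h1 a b
    have e1 : Additive.ofMul (Abelianization.of a) = (Additive.ofMul (QuotientGroup.mk' (commutator Q₁) a) : Additive (Abelianization Q₁)) := rfl
    have e2 : Additive.ofMul (Abelianization.of b) = (Additive.ofMul (QuotientGroup.mk' (commutator Q₂) b) : Additive (Abelianization Q₂)) := rfl
    rw [e1, e2, ha, hb] at this
    exact this
  | add a b ha hb => exact h2 a b ha hb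

/-! ### The covering group of a product -/

section cover

variable {Γ₁ : Type u} {Γ₂ : Type v} [Group Γ₁] [Group Γ₂] (σ₁ : Γ₁ →* Q₁) (σ₂ : Γ₂ →* Q₂)

/-- the bilinear cocycle -/
def pbil : Γ₁ × Γ₂ →* Γ₁ × Γ₂ →* Multiplicative (TT Q₁ Q₂) where
  toFun := fun a =>
    { toFun := fun b => Multiplicative.ofAdd (Additive.ofMul (Abelianization.of (σ₁ a.1)) ⊗ₜ Additive.ofMul (Abelianization.of (σ₂ b.2)))
      map_one' := by
        rw [Prod.snd_one, map_one, map_one, ofMul_one, TensorProduct.tmul_zero]; rfl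
      map_mul' := by
        intro b c
        rw [Prod.snd_mul, map_mul, map_mul, ofMul_mul, TensorProduct.tmul_add]; rfl }
  map_one' := by
    apply MonoidHom.ext
    intro b
    change Multiplicative.ofAdd (Additive.ofMul (Abelianization.of (σ₁ (1 : Γ₁ × Γ₂).1)) ⊗ₜ Additive.ofMul (Abelianization.of (σ₂ b.2))) = 1
    rw [Prod.fst_one, map_one, map_one, ofMul_one, TensorProduct.zero_tmul]; rfl
  map_mul' := by
    intro a a'
    apply MonoidHom.ext
    intro b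
    change Multiplicative.ofAdd (Additive.ofMul (Abelianization.of (σ₁ (a * a').1)) ⊗ₜ Additive.ofMul (Abelianization.of (σ₂ b.2))) = _
    rw [Prod.fst_mul, map_mul, map_mul, ofMul_mul, TensorProduct.add_tmul]; rfl

theorem pbil_apply (a b : Γ₁ × Γ₂) : pbil σ₁ σ₂ a b =
    Multiplicative.ofAdd (Additive.ofMul (Abelianization.of (σ₁ a.1)) ⊗ₜ Additive.ofMul (Abelianization.of (σ₂ b.2))) := rfl

theorem pbil_eq_one_left {a b : Γ₁ × Γ₂} (h : σ₁ a.1 = 1) : pbil σ₁ σ₂ a b = 1 := by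
  rw [pbil_apply, h, map_one, ofMul_one, TensorProduct.zero_tmul]; rfl

theorem pbil_eq_one_right {a b : Γ₁ × Γ₂} (h : σ₂ b.2 = 1) : pbil σ₁ σ₂ a b = 1 := by
  rw [pbil_apply, h, map_one, ofMul_one, TensorProduct.tmul_zero]; rfl

/-- the projection to the product -/
def psig : BExt (pbil σ₁ σ₂) →* Q₁ × Q₂ := (σ₁.prodMap σ₂).comp (BExt.proj _)

theorem psig_apply (x : BExt (pbil σ₁ σ₂)) : psig σ₁ σ₂ x = (σ₁ x.g.1, σ₂ x.g.2) := rfl

theorem mem_ker_psig {x : BExt (pbil σ₁ σ₂)} : x ∈ (psig σ₁ σ₂).ker ↔ σ₁ x.g.1 = 1 ∧ σ₂ x.g.2 = 1 := by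
  rw [MonoidHom.mem_ker, psig_apply, Prod.ext_iff]; rfl

theorem psig_stem (h₁ : Cfsg.IsStemExtension σ₁) (h₂ : Cfsg.IsStemExtension σ₂) :
    Cfsg.IsStemExtension (psig σ₁ σ₂) := by
  refine ⟨?_, ?_, ?_⟩
  · rintro ⟨a, b⟩
    obtain ⟨a', ha⟩ := h₁.1 a
    obtain ⟨b', hb⟩ := h₂.1 b
    exact ⟨⟨(a', b'), 1⟩, by rw [psig_apply, ha, hb]⟩
  · intro x hx
    obtain ⟨hx1, hx2⟩ := (mem_ker_psig σ₁ σ₂).mp hx
    have c1 := mem_center_iff.mp (h₁.2.1 (show x.g.1 ∈ σ₁.ker from hx1))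
    have c2 := mem_center_iff.mp (h₂.2.1 (show x.g.2 ∈ σ₂.ker from hx2))
    rw [mem_center_iff]
    intro y
    apply BExt.ext
    · rw [BExt.mul_g, BExt.mul_g]
      exact Prod.ext (c1 y.g.1) (c2 y.g.2)
    · rw [BExt.mul_t, BExt.mul_t, pbil_eq_one_left σ₁ σ₂ hx1, pbil_eq_one_right σ₁ σ₂ hx2, mul_one, mul_one, mul_comm]
  · have hincl : ∀ t, BExt.incl (pbil σ₁ σ₂) t ∈ commutator (BExt (pbil σ₁ σ₂)) := by
      intro t
      have key : ∀ s : TT Q₁ Q₂, BExt.incl (pbil σ₁ σ₂) (Multiplicative.ofAdd s) ∈ commutator (BExt (pbil σ₁ σ₂)) := by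
        apply tensor_ind
        · rw [ofAdd_zero, map_one]; exact one_mem _
        · intro q r
          obtain ⟨a, ha⟩ := h₁.1 q
          obtain ⟨b, hb⟩ := h₂.1 r
          have h3 := BExt.comm_eq (β := pbil σ₁ σ₂) ⟨(a, 1), 1⟩ ⟨(1, b), 1⟩ (by
            apply Prod.ext
            · change a * 1 = 1 * a; rw [mul_one, one_mul]
            · change 1 * b = b * 1; rw [mul_one, one_mul])
          have h4 : pbil σ₁ σ₂ (1, b) (a, 1) = 1 := pbil_eq_one_left σ₁ σ₂ (map_one σ₁)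
          rw [h4, inv_one, mul_one, pbil_apply] at h3
          change _ = BExt.incl (pbil σ₁ σ₂) (Multiplicative.ofAdd (Additive.ofMul (Abelianization.of (σ₁ a)) ⊗ₜ Additive.ofMul (Abelianization.of (σ₂ b)))) at h3
          rw [ha, hb] at h3
          rw [← h3]
          exact commutator_mem_commutator (mem_top _) (mem_top _)
        · intro x y hx hy
          rw [ofAdd_add, map_mul]; exact mul_mem hx hy
      exact key (Multiplicative.toAdd t)
    intro x hx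
    obtain ⟨hx1, hx2⟩ := (mem_ker_psig σ₁ σ₂).mp hx
    have c1 : x.g.1 ∈ commutator Γ₁ := h₁.2.2 hx1
    have c2 : x.g.2 ∈ commutator Γ₂ := h₂.2.2 hx2
    have h5 : x.g ∈ commutator (Γ₁ × Γ₂) := by
      have e1 : (x.g.1, (1 : Γ₂)) ∈ commutator (Γ₁ × Γ₂) := by
        have : (commutator Γ₁).map (MonoidHom.inl Γ₁ Γ₂) ≤ commutator (Γ₁ × Γ₂) := by
          rw [_root_.commutator_def, _root_.commutator_def, Subgroup.map_commutator]
          exact commutator_mono le_top le_top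
        exact this ⟨x.g.1, c1, rfl⟩
      have e2 : ((1 : Γ₁), x.g.2) ∈ commutator (Γ₁ × Γ₂) := by
        have : (commutator Γ₂).map (MonoidHom.inr Γ₁ Γ₂) ≤ commutator (Γ₁ × Γ₂) := by
          rw [_root_.commutator_def, _root_.commutator_def, Subgroup.map_commutator]
          exact commutator_mono le_top le_top
        exact this ⟨x.g.2, c2, rfl⟩
      have := mul_mem e1 e2
      rwa [Prod.mk_mul_mk, mul_one, one_mul] at this
    have h6 : commutator (Γ₁ × Γ₂) = (commutator (BExt (pbil σ₁ σ₂))).map (BExt.proj _) := by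
      rw [_root_.commutator_def, _root_.commutator_def, Subgroup.map_commutator,
        Subgroup.map_top_of_surjective _ BExt.proj_surj]
    rw [h6] at h5
    obtain ⟨y, hy, hyx⟩ := h5
    have h7 : y⁻¹ * x ∈ (BExt.proj (pbil σ₁ σ₂)).ker := by
      rw [MonoidHom.mem_ker, map_mul, map_inv, hyx]
      exact inv_mul_cancel _
    rw [BExt.ker_proj] at h7
    obtain ⟨t, ht⟩ := h7
    have h8 : x = y * BExt.incl (pbil σ₁ σ₂) t := by rw [ht]; group
    rw [h8]; exact mul_mem hy (hincl t)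

/-- the kernel -/
def pker : (psig σ₁ σ₂).ker ≃* σ₁.ker × σ₂.ker × Multiplicative (TT Q₁ Q₂) where
  toFun := fun x => (⟨x.1.g.1, ((mem_ker_psig σ₁ σ₂).mp x.2).1⟩, ⟨x.1.g.2, ((mem_ker_psig σ₁ σ₂).mp x.2).2⟩, x.1.t)
  invFun := fun y => ⟨⟨(y.1, y.2.1), y.2.2⟩, (mem_ker_psig σ₁ σ₂).mpr ⟨y.1.2, y.2.1.2⟩⟩
  left_inv := fun x => Subtype.ext (BExt.ext rfl rfl)
  right_inv := fun y => rfl
  map_mul' := by
    intro x y
    have h := pbil_eq_one_left σ₁ σ₂ (b := y.1.g) ((mem_ker_psig σ₁ σ₂).mp x.2).1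
    apply Prod.ext
    · rfl
    · apply Prod.ext
      · rfl
      · change x.1.t * y.1.t * pbil σ₁ σ₂ x.1.g y.1.g = x.1.t * y.1.t
        rw [h, mul_one]

end cover

/-! ### The upper bound -/

section upper

variable {Γ : Type w} [Group Γ] (σ : Γ →* Q₁ × Q₂) (hσ : Cfsg.IsStemExtension σ)

theorem comm_comm_mul {x y z : Γ} (h : ⁅x, z⁆ ∈ center Γ) : ⁅x, y * z⁆ = ⁅x, y⁆ * ⁅x, z⁆ := by
  have h1 : ⁅x, y * z⁆ = ⁅x, y⁆ * (y * ⁅x, z⁆ * y⁻¹) := by
    simp only [commutatorElement_def]; group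
  rw [h1, mem_center_iff.mp h y, mul_inv_cancel_right]

theorem comm_mul_comm {x y z : Γ} (h : ⁅y, z⁆ ∈ center Γ) : ⁅x * y, z⁆ = ⁅x, z⁆ * ⁅y, z⁆ := by
  have h1 : ⁅x * y, z⁆ = (x * ⁅y, z⁆ * x⁻¹) * ⁅x, z⁆ := by
    simp only [commutatorElement_def]; group
  rw [h1, mem_center_iff.mp h x, mul_inv_cancel_right]
  exact (mem_center_iff.mp h ⁅x, z⁆).symm

include hσ in
theorem exists_surj_prod : ∃ f : M Q₁ × M Q₂ × Multiplicative (TT Q₁ Q₂) →* σ.ker, Function.Surjective f := by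
  classical
  letI : CommGroup σ.ker :=
    { (inferInstance : Group σ.ker) with
      mul_comm := fun a b => Subtype.ext (mem_center_iff.mp (hσ.2.1 b.2) a) }
  obtain ⟨φ₁, h₁⟩ := exists_lift' σ hσ.1 hσ.2.1 (MonoidHom.inl Q₁ Q₂)
  obtain ⟨φ₂, h₂⟩ := exists_lift' σ hσ.1 hσ.2.1 (MonoidHom.inr Q₁ Q₂)
  have h₁' : ∀ x, σ (φ₁ x) = (e Q₁ x, 1) := fun x => DFunLike.congr_fun h₁ x
  have h₂' : ∀ x, σ (φ₂ x) = (1, e Q₂ x) := fun x => DFunLike.congr_fun h₂ x
  -- commutators of lifts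
  have hck : ∀ a b : Γ, (σ a).2 = 1 → (σ b).1 = 1 → ⁅a, b⁆ ∈ σ.ker := by
    intro a b ha hb
    rw [MonoidHom.mem_ker, map_commutatorElement, commutatorElement_eq_one_iff_commute]
    apply Prod.ext
    · change (σ a).1 * (σ b).1 = (σ b).1 * (σ a).1
      rw [hb, mul_one, one_mul]
    · change (σ a).2 * (σ b).2 = (σ b).2 * (σ a).2
      rw [ha, mul_one, one_mul]
  choose g₁ hg₁ using fun q : Q₁ => hσ.1 (q, (1 : Q₂))
  choose g₂ hg₂ using fun r : Q₂ => hσ.1 ((1 : Q₁), r)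
  have hcc : ∀ q r, ⁅g₁ q, g₂ r⁆ ∈ σ.ker := fun q r => hck _ _ (by rw [hg₁]) (by rw [hg₂])
  have hind : ∀ (a b : Γ) (q : Q₁) (r : Q₂), σ a = (q, 1) → σ b = (1, r) → ⁅a, b⁆ = ⁅g₁ q, g₂ r⁆ := by
    intro a b q r ha hb
    have e1 : (g₁ q)⁻¹ * a ∈ center Γ := hσ.2.1 (by rw [MonoidHom.mem_ker, map_mul, map_inv, hg₁, ha, inv_mul_cancel])
    have e2 : (g₂ r)⁻¹ * b ∈ center Γ := hσ.2.1 (by rw [MonoidHom.mem_ker, map_mul, map_inv, hg₂, hb, inv_mul_cancel])
    have e3 : a = g₁ q * ((g₁ q)⁻¹ * a) := by group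
    have e4 : b = g₂ r * ((g₂ r)⁻¹ * b) := by group
    rw [e3, e4, comm_of_central e1 e2]
  let c : Q₁ →* Q₂ →* σ.ker :=
    { toFun := fun q =>
        { toFun := fun r => ⟨⁅g₁ q, g₂ r⁆, hcc q r⟩
          map_one' := Subtype.ext (by
            change ⁅g₁ q, g₂ 1⁆ = 1
            rw [← hind (g₁ q) 1 q 1 (hg₁ q) (map_one σ), commutatorElement_one_right])
          map_mul' := by
            intro r s
            apply Subtype.ext
            change ⁅g₁ q, g₂ (r * s)⁆ = ⁅g₁ q, g₂ r⁆ * ⁅g₁ q, g₂ s⁆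
            rw [← comm_comm_mul (hσ.2.1 (hcc q s))]
            exact (hind _ _ q (r * s) (hg₁ q) (by rw [map_mul, hg₂, hg₂, Prod.mk_mul_mk, one_mul])).symm }
      map_one' := by
        apply MonoidHom.ext
        intro r
        apply Subtype.ext
        change ⁅g₁ 1, g₂ r⁆ = 1
        rw [← hind 1 (g₂ r) 1 r (map_one σ) (hg₂ r), commutatorElement_one_left]
      map_mul' := by
        intro q s
        apply MonoidHom.ext
        intro r
        apply Subtype.ext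
        change ⁅g₁ (q * s), g₂ r⁆ = ⁅g₁ q, g₂ r⁆ * ⁅g₁ s, g₂ r⁆
        rw [← comm_mul_comm (hσ.2.1 (hcc s r))]
        exact (hind _ _ (q * s) r (by rw [map_mul, hg₁, hg₁, Prod.mk_mul_mk, one_mul]) (hg₂ r)).symm }
  have hc : ∀ q r, ((c q r : σ.ker) : Γ) = ⁅g₁ q, g₂ r⁆ := fun q r => rfl
  let cA : Abelianization Q₁ →* (Abelianization Q₂ →* σ.ker) := Abelianization.lift
    { toFun := fun q => Abelianization.lift (c q)
      map_one' := by
        ext r
        simp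
      map_mul' := by
        intro q s
        ext r
        simp }
  have hcA : ∀ q r, cA (Abelianization.of q) (Abelianization.of r) = c q r := by
    intro q r
    simp [cA]
  let f : Additive (Abelianization Q₁) →+ Additive (Abelianization Q₂) →+ Additive σ.ker :=
    { toFun := fun a => MonoidHom.toAdditive (cA (Additive.toMul a))
      map_zero' := by
        apply AddMonoidHom.ext
        intro b
        change Additive.ofMul (cA (Additive.toMul 0) (Additive.toMul b)) = 0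
        rw [toMul_zero, map_one]; rfl
      map_add' := by
        intro a a'
        apply AddMonoidHom.ext
        intro b
        change Additive.ofMul (cA (Additive.toMul (a + a')) (Additive.toMul b)) = _
        rw [toMul_add, map_mul]; rfl }
  let τ : TT Q₁ Q₂ →+ Additive σ.ker := TensorProduct.liftAddHom f (by
    intro r m n
    rw [map_zsmul, map_zsmul]
    rfl)
  have hτ : ∀ (q : Q₁) (r : Q₂), τ (Additive.ofMul (Abelianization.of q) ⊗ₜ Additive.ofMul (Abelianization.of r)) = Additive.ofMul (c q r) := by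
    intro q r
    have h3 : τ (Additive.ofMul (Abelianization.of q) ⊗ₜ Additive.ofMul (Abelianization.of r)) =
      f (Additive.ofMul (Abelianization.of q)) (Additive.ofMul (Abelianization.of r)) := TensorProduct.liftAddHom_tmul _ _ _ _
    rw [h3]
    exact congrArg Additive.ofMul (hcA q r)
  -- the homomorphism
  let α₁ : M Q₁ →* σ.ker := (φ₁.comp (MS Q₁).subtype).codRestrict σ.ker (fun x => by
    rw [MonoidHom.mem_ker, MonoidHom.comp_apply, h₁']
    exact Prod.ext (MS_le_ker Q₁ x.2) rfl)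
  let α₂ : M Q₂ →* σ.ker := (φ₂.comp (MS Q₂).subtype).codRestrict σ.ker (fun x => by
    rw [MonoidHom.mem_ker, MonoidHom.comp_apply, h₂']
    exact Prod.ext rfl (MS_le_ker Q₂ x.2))
  let τ' : Multiplicative (TT Q₁ Q₂) →* σ.ker :=
    { toFun := fun t => Additive.toMul (τ (Multiplicative.toAdd t))
      map_one' := by rw [toAdd_one, map_zero]; rfl
      map_mul' := by intro a b; rw [toAdd_mul, map_add]; rfl }
  -- commuting facts
  have hcomm1 : ∀ a ∈ commutator (E Q₁), ∀ b : E Q₂, Commute (φ₁ a) (φ₂ b) := by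
    intro a ha b
    rw [← commutatorElement_eq_one_iff_commute, hind _ _ (e Q₁ a) (e Q₂ b) (h₁' a) (h₂' b), ← hc]
    have h3 : e Q₁ a ∈ commutator Q₁ := by
      have : (commutator (E Q₁)).map (e Q₁) ≤ commutator Q₁ := by
        rw [_root_.commutator_def, _root_.commutator_def, Subgroup.map_commutator]
        exact commutator_mono le_top le_top
      exact this ⟨a, ha, rfl⟩
    have h4 : c (e Q₁ a) = 1 := Abelianization.commutator_subset_ker c h3
    rw [h4]; rfl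
  have hcomm2 : ∀ a : E Q₁, ∀ b ∈ commutator (E Q₂), Commute (φ₁ a) (φ₂ b) := by
    intro a b hb
    rw [← commutatorElement_eq_one_iff_commute, hind _ _ (e Q₁ a) (e Q₂ b) (h₁' a) (h₂' b), ← hc]
    have h3 : e Q₂ b ∈ commutator Q₂ := by
      have : (commutator (E Q₂)).map (e Q₂) ≤ commutator Q₂ := by
        rw [_root_.commutator_def, _root_.commutator_def, Subgroup.map_commutator]
        exact commutator_mono le_top le_top
      exact this ⟨b, hb, rfl⟩
    have h4 : c (e Q₁ a) (e Q₂ b) = 1 := Abelianization.commutator_subset_ker (c (e Q₁ a)) h3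
    rw [h4]; rfl
  have hzc : ∀ (z : σ.ker) (g : Γ), Commute g (z : Γ) := fun z g => mem_center_iff.mp (hσ.2.1 z.2) g
  let g' : commutator (E Q₂) × Multiplicative (TT Q₁ Q₂) →* Γ :=
    (φ₂.comp (commutator (E Q₂)).subtype).noncommCoprod (σ.ker.subtype.comp τ') (fun m n => hzc (τ' n) _)
  have hg' : ∀ b t, g' (b, t) = φ₂ (b : E Q₂) * (τ' t : Γ) := fun b t => rfl
  let Φ : commutator (E Q₁) × commutator (E Q₂) × Multiplicative (TT Q₁ Q₂) →* Γ :=
    (φ₁.comp (commutator (E Q₁)).subtype).noncommCoprod g' (fun a n => by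
      change Commute (φ₁ (a : E Q₁)) (φ₂ (n.1 : E Q₂) * (τ' n.2 : Γ))
      exact (hcomm1 a a.2 n.1).mul_right (hzc (τ' n.2) _))
  have hΦ : ∀ a b t, Φ (a, b, t) = φ₁ (a : E Q₁) * (φ₂ (b : E Q₂) * (τ' t : Γ)) := fun a b t => rfl
  -- generation
  have hXtop : closure ((φ₁.range : Set Γ) ∪ (φ₂.range : Set Γ) ∪ (σ.ker : Set Γ)) = ⊤ := by
    rw [eq_top_iff]
    intro g _
    obtain ⟨a, ha⟩ := e_surj Q₁ (σ g).1
    obtain ⟨b, hb⟩ := e_surj Q₂ (σ g).2
    have h3 : (φ₁ a * φ₂ b)⁻¹ * g ∈ σ.ker := by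
      have h4 : σ (φ₁ a * φ₂ b) = σ g := by
        rw [map_mul, h₁', h₂', Prod.mk_mul_mk, mul_one, one_mul, ha, hb]
      rw [MonoidHom.mem_ker, map_mul, map_inv, h4, inv_mul_cancel]
    have h5 : g = φ₁ a * φ₂ b * ((φ₁ a * φ₂ b)⁻¹ * g) := by group
    rw [h5]
    refine mul_mem (mul_mem (subset_closure ?_) (subset_closure ?_)) (subset_closure ?_)
    · exact Or.inl (Or.inl ⟨a, rfl⟩)
    · exact Or.inl (Or.inr ⟨b, rfl⟩)
    · exact Or.inr h3
  -- conjugation invariance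
  have hconj : ∀ x ∈ (φ₁.range : Set Γ) ∪ (φ₂.range : Set Γ) ∪ (σ.ker : Set Γ), ∀ y ∈ Φ.range, x * y * x⁻¹ ∈ Φ.range := by
    rintro x ((⟨d, rfl⟩ | ⟨d, rfl⟩) | hx) _ ⟨⟨a, b, t⟩, rfl⟩
    · have h3 : d * (a : E Q₁) * d⁻¹ ∈ commutator (E Q₁) := by
        have : (commutator (E Q₁)).Normal := inferInstance
        exact this.conj_mem a a.2 d
      refine ⟨(⟨_, h3⟩, b, t), ?_⟩
      rw [hΦ, hΦ]
      have h4 : Commute (φ₁ d) (φ₂ (b : E Q₂)) := hcomm2 d b b.2
      have h5 : Commute (φ₁ d) (τ' t : Γ) := hzc _ _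
      have h6 : Commute (φ₁ d) (φ₂ (b : E Q₂) * (τ' t : Γ)) := h4.mul_right h5
      change φ₁ (d * (a : E Q₁) * d⁻¹) * _ = _
      rw [map_mul, map_mul, map_inv]
      calc φ₁ d * φ₁ a * (φ₁ d)⁻¹ * (φ₂ b * (τ' t : Γ)) = φ₁ d * φ₁ a * ((φ₁ d)⁻¹ * (φ₂ b * (τ' t : Γ))) := by group
        _ = φ₁ d * φ₁ a * ((φ₂ b * (τ' t : Γ)) * (φ₁ d)⁻¹) := by rw [(h6.inv_left).eq]
        _ = _ := by group
    · have h3 : d * (b : E Q₂) * d⁻¹ ∈ commutator (E Q₂) := by
        have : (commutator (E Q₂)).Normal := inferInstance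
        exact this.conj_mem b b.2 d
      refine ⟨(a, ⟨_, h3⟩, t), ?_⟩
      rw [hΦ, hΦ]
      have h4 : Commute (φ₁ (a : E Q₁)) (φ₂ d) := hcomm1 a a.2 d
      have h5 : Commute (φ₂ d)⁻¹ (τ' t : Γ) := hzc _ _
      change _ * (φ₂ (d * (b : E Q₂) * d⁻¹) * _) = _
      rw [map_mul, map_mul, map_inv]
      calc φ₁ a * (φ₂ d * φ₂ b * (φ₂ d)⁻¹ * (τ' t : Γ)) = (φ₁ a * φ₂ d) * φ₂ b * ((φ₂ d)⁻¹ * (τ' t : Γ)) := by group
        _ = (φ₂ d * φ₁ a) * φ₂ b * ((τ' t : Γ) * (φ₂ d)⁻¹) := by rw [h4.eq, h5.eq]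
        _ = _ := by group
    · have h3 := hzc ⟨x, hx⟩ (Φ (a, b, t))
      have h4 : x * Φ (a, b, t) * x⁻¹ = Φ (a, b, t) := by
        have h5 : Φ (a, b, t) * x = x * Φ (a, b, t) := h3.eq
        rw [← h5, mul_inv_cancel_right]
      rw [h4]; exact ⟨_, rfl⟩
  have hinv : ∀ x ∈ (φ₁.range : Set Γ) ∪ (φ₂.range : Set Γ) ∪ (σ.ker : Set Γ), x⁻¹ ∈ (φ₁.range : Set Γ) ∪ (φ₂.range : Set Γ) ∪ (σ.ker : Set Γ) := by
    rintro x ((hx | hx) | hx)
    · exact Or.inl (Or.inl (φ₁.range.inv_mem hx))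
    · exact Or.inl (Or.inr (φ₂.range.inv_mem hx))
    · exact Or.inr (σ.ker.inv_mem hx)
  haveI hHn : Φ.range.Normal := by
    rw [← normalizer_eq_top_iff, eq_top_iff, ← hXtop, closure_le]
    intro x hx
    rw [SetLike.mem_coe, mem_normalizer_iff]
    intro y
    constructor
    · exact hconj x hx y
    · intro hy
      have := hconj x⁻¹ (hinv x hx) _ hy
      have h3 : x⁻¹ * (x * y * x⁻¹) * x⁻¹⁻¹ = y := by group
      rwa [h3] at this
  have hτmem : ∀ a b, ⁅φ₁ a, φ₂ b⁆ ∈ Φ.range := by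
    intro a b
    refine ⟨(1, 1, Multiplicative.ofAdd (Additive.ofMul (Abelianization.of (e Q₁ a)) ⊗ₜ Additive.ofMul (Abelianization.of (e Q₂ b)))), ?_⟩
    rw [hΦ, hind _ _ (e Q₁ a) (e Q₂ b) (h₁' a) (h₂' b), ← hc]
    change φ₁ 1 * (φ₂ 1 * ((Additive.toMul (τ (Additive.ofMul (Abelianization.of (e Q₁ a)) ⊗ₜ Additive.ofMul (Abelianization.of (e Q₂ b)))) : σ.ker) : Γ)) = _
    rw [hτ, map_one, map_one, one_mul, one_mul]; rfl
  have hcomm : commutator Γ ≤ Φ.range := by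
    apply comm_le_of_gen Φ.range _ hXtop
    rintro x ((⟨a, rfl⟩ | ⟨a, rfl⟩) | hx) y ((⟨b, rfl⟩ | ⟨b, rfl⟩) | hy)
    · refine ⟨(⟨⁅a, b⁆, commutator_mem_commutator (mem_top _) (mem_top _)⟩, 1, 1), ?_⟩
      rw [hΦ, ← map_commutatorElement]
      change φ₁ ⁅a, b⁆ * (φ₂ 1 * ((τ' 1 : σ.ker) : Γ)) = _
      rw [map_one, map_one, Subgroup.coe_one, mul_one, mul_one]
    · exact hτmem a b
    · have := commutatorElement_eq_one_iff_commute.mpr (hzc ⟨y, hy⟩ (φ₁ a))
      change ⁅φ₁ a, y⁆ = 1 at this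
      rw [this]; exact one_mem _
    · rw [← commutatorElement_inv]; exact inv_mem (hτmem b a)
    · refine ⟨(1, ⟨⁅a, b⁆, commutator_mem_commutator (mem_top _) (mem_top _)⟩, 1), ?_⟩
      rw [hΦ, ← map_commutatorElement]
      change φ₁ 1 * (φ₂ ⁅a, b⁆ * ((τ' 1 : σ.ker) : Γ)) = _
      rw [map_one, map_one, Subgroup.coe_one, mul_one, one_mul]
    · have := commutatorElement_eq_one_iff_commute.mpr (hzc ⟨y, hy⟩ (φ₂ a))
      change ⁅φ₂ a, y⁆ = 1 at this
      rw [this]; exact one_mem _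
    · have := commutatorElement_eq_one_iff_commute.mpr (hzc ⟨x, hx⟩ (φ₁ b)).symm
      change ⁅x, φ₁ b⁆ = 1 at this
      rw [this]; exact one_mem _
    · have := commutatorElement_eq_one_iff_commute.mpr (hzc ⟨x, hx⟩ (φ₂ b)).symm
      change ⁅x, φ₂ b⁆ = 1 at this
      rw [this]; exact one_mem _
    · have := commutatorElement_eq_one_iff_commute.mpr (hzc ⟨y, hy⟩ x)
      change ⁅x, y⁆ = 1 at this
      rw [this]; exact one_mem _
  refine ⟨α₁.coprod (α₂.coprod τ'), ?_⟩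
  rintro ⟨x, hx⟩
  obtain ⟨⟨a, b, t⟩, habt⟩ := hcomm (hσ.2.2 hx)
  have hx' := hx
  rw [← habt, hΦ, MonoidHom.mem_ker, map_mul, map_mul, h₁', h₂', (MonoidHom.mem_ker).mp (τ' t).2, mul_one,
    Prod.mk_mul_mk, mul_one, one_mul, Prod.mk_eq_one] at hx'
  refine ⟨(⟨a, Subgroup.mem_inf.mpr ⟨hx'.1, a.2⟩⟩, ⟨b, Subgroup.mem_inf.mpr ⟨hx'.2, b.2⟩⟩, t), ?_⟩
  apply Subtype.ext
  change φ₁ (a : E Q₁) * (φ₂ (b : E Q₂) * (τ' t : Γ)) = x
  rw [← habt, hΦ]

end upper

end prod

end CfsgLib.Schur
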