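import Cfsg.Agent.LibSchur2
import Mathlib.Algebra.Category.Grp.Injective

/-! Extension of homomorphisms to divisible groups; twisted regular representations;
lifting projective representations. -/

set_option autoImplicit false
set_option linter.style.haveILetI false
set_option linter.unusedSectionVars false

namespace CfsgLib.Schur

open Subgroup
open scoped commutatorElement MatrixGroups

universe u v w

theorem exists_extend {A : Type u} {B : Type v} {D : Type w} [CommGroup A] [CommGroup B] [CommGroup D]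
    (hD : ∀ n : ℤ, n ≠ 0 → ∀ x : D, ∃ y : D, y ^ n = x) (i : A →* B) (hi : Function.Injective i)
    (f : A →* D) : ∃ g : B →* D, g.comp i = f := by
  letI : DivisibleBy (Additive D) ℤ := divisibleByOfSMulRightSurj (Additive D) ℤ (by
    intro n hn x
    obtain ⟨y, hy⟩ := hD n hn (Additive.toMul x)
    exact ⟨Additive.ofMul y, congrArg Additive.ofMul hy⟩)
  obtain ⟨g, hg⟩ := (Module.Baer.of_divisible (Additive D)).extension_property_addMonoidHom
    (MonoidHom.toAdditive i) hi (MonoidHom.toAdditive f)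
  refine ⟨MonoidHom.toAdditive.symm g, ?_⟩
  ext a
  exact DFunLike.congr_fun hg (Additive.ofMul a)

theorem divisible_complex : ∀ n : ℤ, n ≠ 0 → ∀ x : ℂˣ, ∃ y : ℂˣ, y ^ n = x := by
  have key : ∀ n : ℕ, n ≠ 0 → ∀ x : ℂˣ, ∃ y : ℂˣ, y ^ n = x := by
    intro n hn x
    obtain ⟨z, hz⟩ := IsAlgClosed.exists_pow_nat_eq (x : ℂ) (Nat.pos_of_ne_zero hn)
    have hz0 : z ≠ 0 := by
      rintro rfl
      rw [zero_pow hn] at hz
      exact x.ne_zero hz.symm
    exact ⟨Units.mk0 z hz0, Units.ext (by simpa using hz)⟩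
  intro n hn x
  obtain ⟨m, rfl | rfl⟩ := n.eq_nat_or_neg
  · obtain ⟨y, hy⟩ := key m (by simpa using hn) x
    exact ⟨y, by rw [zpow_natCast, hy]⟩
  · obtain ⟨y, hy⟩ := key m (by simpa using hn) x
    exact ⟨y⁻¹, by rw [zpow_neg, zpow_natCast, inv_pow, hy, inv_inv]⟩

theorem divisible_center (n : ℕ) : ∀ k : ℤ, k ≠ 0 → ∀ x : center (GL (Fin n) ℂ), ∃ y : center (GL (Fin n) ℂ), y ^ k = x := by
  intro k hk x
  obtain ⟨a, ha⟩ : (x : GL (Fin n) ℂ) ∈ (Matrix.GeneralLinearGroup.scalar (Fin n) : ℂˣ →* GL (Fin n) ℂ).range := by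
    have h := Matrix.GeneralLinearGroup.center_eq_range_scalar (n := Fin n) (R := ℂ)
    exact h.le x.2
  obtain ⟨b, rfl⟩ := divisible_complex k hk a
  refine ⟨⟨Matrix.GeneralLinearGroup.scalar (Fin n) b, ?_⟩, ?_⟩
  · rw [Matrix.GeneralLinearGroup.center_eq_range_scalar]
    exact ⟨b, rfl⟩
  · apply Subtype.ext
    rw [← ha, map_zpow]
    rfl

section rep

variable {H : Type u} [Group H] (K : Subgroup H) (lam : K →* ℂˣ)

open Classical in
/-- extension by zero of a linear character -/
noncomputable def ext0 (x : H) : ℂ := if h : x ∈ K then ((lam ⟨x, h⟩ : ℂˣ) : ℂ) else 0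

theorem ext0_of_mem {x : H} (h : x ∈ K) : ext0 K lam x = (lam ⟨x, h⟩ : ℂˣ) := dif_pos h

theorem ext0_of_not_mem {x : H} (h : x ∉ K) : ext0 K lam x = 0 := dif_neg h

theorem ext0_mul {x y : H} (h : y ∈ K) : ext0 K lam (x * y) = ext0 K lam x * ext0 K lam y := by
  by_cases hx : x ∈ K
  · rw [ext0_of_mem K lam hx, ext0_of_mem K lam h, ext0_of_mem K lam (mul_mem hx h), ← Units.val_mul, ← map_mul]
    rfl
  · rw [ext0_of_not_mem K lam hx, zero_mul, ext0_of_not_mem]
    intro h'
    exact hx ((mul_mem_cancel_right h).mp h')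

theorem ext0_one : ext0 K lam 1 = 1 := by
  rw [ext0_of_mem K lam (one_mem K)]
  have : (⟨1, one_mem K⟩ : K) = 1 := rfl
  rw [this, map_one, Units.val_one]

theorem exists_scalar_rep (hK : K ≤ center H) [K.FiniteIndex] :
    ∃ n : ℕ, n ≠ 0 ∧ ∃ P : H →* GL (Fin n) ℂ, ∀ z : K, P z = Matrix.GeneralLinearGroup.scalar (Fin n) (lam z) := by
  classical
  haveI : Finite (H ⧸ K) := Subgroup.finite_quotient_of_finiteIndex
  let n := Nat.card (H ⧸ K)
  let ι : Fin n ≃ H ⧸ K := (Finite.equivFin (H ⧸ K)).symm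
  have hmem : ∀ (g : H) (a b : H ⧸ K), a.out⁻¹ * g * b.out ∈ K ↔ a = g • b := by
    intro g a b
    have h1 : g • b = QuotientGroup.mk (g * b.out) := by
      conv_lhs => rw [← QuotientGroup.out_eq' b]
      rfl
    have h2 : a = QuotientGroup.mk a.out := (QuotientGroup.out_eq' a).symm
    rw [h1]
    conv_rhs => rw [h2]
    rw [QuotientGroup.eq, mul_assoc]
  let P0 : H →* Matrix (Fin n) (Fin n) ℂ :=
    { toFun := fun g => Matrix.of fun i j => ext0 K lam ((ι i).out⁻¹ * g * (ι j).out)
      map_one' := by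
        ext i j
        rw [Matrix.of_apply, Matrix.one_apply]
        by_cases hij : i = j
        · subst hij
          rw [if_pos rfl, mul_one, inv_mul_cancel, ext0_one]
        · rw [if_neg hij]
          apply ext0_of_not_mem
          rw [hmem, one_smul]
          exact fun h => hij (ι.injective h)
      map_mul' := by
        intro g h
        ext i k
        rw [Matrix.mul_apply]
        simp only [Matrix.of_apply]
        rw [Finset.sum_eq_single (ι.symm (h • ι k))]
        · rw [Equiv.apply_symm_apply, ← ext0_mul K lam ((hmem h _ _).mpr rfl)]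
          congr 1
          group
        · intro j _ hj
          rw [ext0_of_not_mem K lam (x := (ι j).out⁻¹ * h * (ι k).out), mul_zero]
          rw [hmem]
          intro h'
          exact hj (by rw [← h', Equiv.symm_apply_apply])
        · intro h'
          exact absurd (Finset.mem_univ _) h' }
  refine ⟨n, Nat.card_pos.ne', P0.toHomUnits, ?_⟩
  intro z
  apply Units.ext
  rw [MonoidHom.coe_toHomUnits]
  ext i j
  change ext0 K lam ((ι i).out⁻¹ * z * (ι j).out) = _
  rw [mem_center_iff.mp (hK z.2) ((ι i).out⁻¹), mul_assoc]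
  rw [Matrix.GeneralLinearGroup.coe_scalar, Matrix.scalar_apply, Matrix.diagonal_apply]
  have hz : ext0 K lam z = (lam z : ℂˣ) := ext0_of_mem K lam z.2
  by_cases hij : i = j
  · subst hij
    rw [if_pos rfl, inv_mul_cancel, mul_one, hz]
  · rw [if_neg hij]
    apply ext0_of_not_mem
    intro h
    have h1 := (mul_mem_cancel_left z.2).mp h
    have h2 : (ι i).out⁻¹ * 1 * (ι j).out ∈ K := by simpa using h1
    rw [hmem, one_smul] at h2
    exact hij (ι.injective h2)

end rep

/-- modify a homomorphism by a central one to kill a central subgroup meeting the commutator subgroup trivially -/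
theorem exists_kill {H : Type u} [Group H] {Γ : Type w} [Group Γ] (S : Subgroup H) (hSc : S ⊓ commutator H = ⊥)
    (hS : S ≤ center H) (φ : H →* Γ) (hφ : ∀ s ∈ S, φ s ∈ center Γ)
    (hD : ∀ n : ℤ, n ≠ 0 → ∀ x : center Γ, ∃ y : center Γ, y ^ n = x) :
    ∃ φ' : H →* Γ, (∀ x, ∃ z ∈ center Γ, φ' x = φ x * z) ∧ ∀ s ∈ S, φ' s = 1 := by
  letI : CommGroup S :=
    { (inferInstance : Group S) with
      mul_comm := fun a b => Subtype.ext (mem_center_iff.mp (hS b.2) a) }
  letI : CommGroup (center Γ) :=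
    { (inferInstance : Group (center Γ)) with
      mul_comm := fun a b => Subtype.ext (mem_center_iff.mp b.2 a) }
  let i : S →* Abelianization H := Abelianization.of.comp S.subtype
  have hi : Function.Injective i := by
    rw [injective_iff_map_eq_one]
    intro a ha
    have h1 : (a : H) ∈ commutator H := (QuotientGroup.eq_one_iff _).mp ha
    have h2 : (a : H) ∈ S ⊓ commutator H := Subgroup.mem_inf.mpr ⟨a.2, h1⟩
    rw [hSc, mem_bot] at h2
    exact Subtype.ext h2
  let f : S →* center Γ := (φ.comp S.subtype).codRestrict (center Γ) (fun s => hφ s s.2)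
  obtain ⟨g, hg⟩ := exists_extend (A := S) (D := center Γ) hD i hi f
  have hg' : ∀ s : S, g (Abelianization.of (s : H)) = f s := fun s => DFunLike.congr_fun hg s
  refine ⟨
    { toFun := fun x => φ x * ((g (Abelianization.of x) : center Γ) : Γ)⁻¹
      map_one' := by simp
      map_mul' := by
        intro x y
        have hz := mem_center_iff.mp (inv_mem (g (Abelianization.of x)).2) (φ y)
        rw [map_mul, map_mul, map_mul, Subgroup.coe_mul, mul_inv_rev]
        have hz2 := mem_center_iff.mp (inv_mem (g (Abelianization.of x)).2) ((g (Abelianization.of y) : Γ)⁻¹)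
        rw [hz2, mul_assoc, ← mul_assoc (φ y), hz, mul_assoc, mul_assoc] }, ?_, ?_⟩
  · intro x
    exact ⟨_, inv_mem (g (Abelianization.of x)).2, rfl⟩
  · intro s hs
    change φ s * ((g (Abelianization.of s) : center Γ) : Γ)⁻¹ = 1
    rw [hg' ⟨s, hs⟩]
    exact mul_inv_cancel _

section cov

variable {Q : Type u} [Group Q] [Finite Q] {A : Type v} [CommGroup A] {Γ : Type w} [Group Γ]

/-- For a covering group the kernel of the lift is a complement of the multiplier. -/
theorem ker_lift_inf (hA : Cfsg.HasSchurMultiplier Q A) {σ : Γ →* Q} (hσ : Cfsg.IsStemExtension σ)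
    (hk : Nonempty (σ.ker ≃* A)) {φ : E Q →* Γ} (h : σ.comp φ = e Q) : φ.ker ⊓ commutator (E Q) = ⊥ := by
  obtain ⟨ε⟩ := equiv_of_hasSchur hA
  obtain ⟨δ⟩ := hk
  have h1 := map_MS hσ.2.1 h
  have h2 : σ.ker ⊓ commutator Γ = σ.ker := inf_eq_left.mpr hσ.2.2
  rw [h2] at h1
  let f : MS Q → σ.ker := fun x => ⟨φ x, by rw [← h1]; exact mem_map_of_mem _ x.2⟩
  have hf : Function.Surjective f := by
    rintro ⟨x, hx⟩
    rw [← h1] at hx
    obtain ⟨y, hy, rfl⟩ := hx
    exact ⟨⟨y, hy⟩, rfl⟩
  haveI : Finite (MS Q) := finite_MS Q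
  have hc : Nat.card (MS Q) = Nat.card σ.ker := Nat.card_congr (ε.toEquiv.trans δ.symm.toEquiv)
  have hinj : Function.Injective f := ((Nat.bijective_iff_surjective_and_card f).mpr ⟨hf, hc⟩).1
  rw [eq_bot_iff]
  intro x hx
  obtain ⟨hx1, hx2⟩ := Subgroup.mem_inf.mp hx
  have hxk : x ∈ (e Q).ker := by
    rw [MonoidHom.mem_ker, ← lift_apply h, (MonoidHom.mem_ker).mp hx1, map_one]
  have hxM : x ∈ MS Q := Subgroup.mem_inf.mpr ⟨hxk, hx2⟩
  have h3 : f ⟨x, hxM⟩ = f 1 := Subtype.ext (((MonoidHom.mem_ker).mp hx1).trans (map_one φ).symm)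
  exact congrArg Subtype.val (hinj h3)

theorem ker_lift_le {σ : Γ →* Q} {φ : E Q →* Γ} (h : σ.comp φ = e Q) : φ.ker ≤ (e Q).ker := by
  intro x hx
  rw [MonoidHom.mem_ker, ← lift_apply h, (MonoidHom.mem_ker).mp hx, map_one]

end cov

end CfsgLib.Schur
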