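import Cfsg.Agent.LibSchur6
import Mathlib.GroupTheory.FreeGroup.NielsenSchreier

/-! Hopf's formula for an arbitrary free presentation. -/

set_option autoImplicit false
set_option linter.style.haveILetI false
set_option linter.unusedSectionVars false

namespace CfsgLib.Schur

open Subgroup
open scoped commutatorElement

universe u v w

section free

variable {F : Type v} [Group F] [IsFreeGroup F] {Q : Type u} [Group Q] {Γ : Type w} [Group Γ]

theorem exists_lift_free (π : F →* Q) (σ : Γ →* Q) (hσ : Function.Surjective σ) :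
    ∃ φ : F →* Γ, ∀ x, σ (φ x) = π x := by
  choose s hs using hσ
  let φ : F →* Γ := IsFreeGroup.lift (fun a => s (π (IsFreeGroup.of a)))
  have h : σ.comp φ = π := by
    apply IsFreeGroup.ext_hom
    intro a
    rw [MonoidHom.comp_apply]
    change σ (IsFreeGroup.lift (fun a => s (π (IsFreeGroup.of a))) (IsFreeGroup.of a)) = _
    rw [IsFreeGroup.lift_of, hs]
  exact ⟨φ, fun x => DFunLike.congr_fun h x⟩

/-- For a stem extension: every kernel element comes from `ker π ∩ F'`. -/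
theorem free_ker {π : F →* Q} (hπ : Function.Surjective π) {σ : Γ →* Q} (hσ : Cfsg.IsStemExtension σ)
    {φ : F →* Γ} (hφ : ∀ x, σ (φ x) = π x) : ∀ x ∈ σ.ker, ∃ y ∈ π.ker ⊓ commutator F, φ y = x := by
  intro x hx
  have h1 : ∀ g : Γ, ∃ y : F, ∃ z ∈ center Γ, g = φ y * z := by
    intro g
    obtain ⟨y, hy⟩ := hπ (σ g)
    refine ⟨y, (φ y)⁻¹ * g, ?_, by group⟩
    apply hσ.2.1
    rw [MonoidHom.mem_ker, map_mul, map_inv, hφ, hy, inv_mul_cancel]
  have h2 := hσ.2.2 hx
  rw [commutator_eq_map φ h1] at h2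
  obtain ⟨y, hy, rfl⟩ := h2
  refine ⟨y, Subgroup.mem_inf.mpr ⟨?_, hy⟩, rfl⟩
  rw [MonoidHom.mem_ker, ← hφ]; exact hx

theorem free_surj {π : F →* Q} (hπ : Function.Surjective π) {σ : Γ →* Q} (hσ : Cfsg.IsStemExtension σ)
    {φ : F →* Γ} (hφ : ∀ x, σ (φ x) = π x) : Function.Surjective φ := by
  intro g
  obtain ⟨y, hy⟩ := hπ (σ g)
  obtain ⟨t, -, ht⟩ := free_ker hπ hσ hφ ((φ y)⁻¹ * g) (by
    rw [MonoidHom.mem_ker, map_mul, map_inv, hφ, hy, inv_mul_cancel])
  exact ⟨y * t, by rw [map_mul, ht]; group⟩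

end free

end CfsgLib.Schur
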