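import Cfsg.Agent.LibSchur7
import Mathlib.GroupTheory.Transfer

/-! Hopf's formula for an arbitrary free presentation, transfer for the multiplier. -/

set_option autoImplicit false
set_option linter.style.haveILetI false
set_option linter.unusedSectionVars false

namespace CfsgLib.Schur

open Subgroup
open scoped commutatorElement

universe u v w

section pres

variable {F : Type v} [Group F] {Q : Type u} [Group Q] (π : F →* Q)

/-- `[ker π, F]` -/
def KP : Subgroup F := ⁅π.ker, (⊤ : Subgroup F)⁆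

instance : (KP π).Normal := by unfold KP; infer_instance

theorem KP_le_ker : KP π ≤ π.ker := by
  unfold KP; exact commutator_le_left _ _

/-- `F / [ker π, F]` -/
def EP : Type v := F ⧸ KP π

instance : Group (EP π) := by unfold EP; infer_instance

/-- `F → F / [R, F]` -/
def toEP : F →* EP π := QuotientGroup.mk' (KP π)

theorem toEP_surj : Function.Surjective (toEP π) := QuotientGroup.mk'_surjective (KP π)

/-- `F / [R, F] → Q` -/
def eP : EP π →* Q := QuotientGroup.lift (KP π) π (fun _ hx => (MonoidHom.mem_ker).mp (KP_le_ker π hx))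

theorem eP_toEP (x : F) : eP π (toEP π x) = π x := rfl

theorem eP_surj (hπ : Function.Surjective π) : Function.Surjective (eP π) := fun q => by
  obtain ⟨x, hx⟩ := hπ q
  exact ⟨toEP π x, by rw [eP_toEP, hx]⟩

theorem ker_toEP : (toEP π).ker = KP π := QuotientGroup.ker_mk' _

theorem eP_central : (eP π).ker ≤ center (EP π) := by
  intro x hx
  obtain ⟨x, rfl⟩ := toEP_surj π x
  rw [mem_center_iff]
  intro y
  obtain ⟨y, rfl⟩ := toEP_surj π y
  have hx' : x ∈ π.ker := by
    rw [MonoidHom.mem_ker, ← eP_toEP]; exact hx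
  have h1 : ⁅x, y⁆ ∈ KP π := commutator_mem_commutator hx' (mem_top y)
  have h2 : ⁅toEP π x, toEP π y⁆ = 1 := by
    rw [← map_commutatorElement, ← MonoidHom.mem_ker, ker_toEP]
    exact h1
  exact (commutatorElement_eq_one_iff_commute.mp h2).eq.symm

/-- `R ∩ F' / [R, F]`. -/
def MP : Subgroup (EP π) := (eP π).ker ⊓ commutator (EP π)

instance instCommKer : CommGroup (eP π).ker :=
  { (inferInstance : Group (eP π).ker) with
    mul_comm := fun a b => Subtype.ext (mem_center_iff.mp (eP_central π b.2) a) }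

instance instCommMP : CommGroup (MP π) :=
  { (inferInstance : Group (MP π)) with
    mul_comm := fun a b => Subtype.ext (mem_center_iff.mp (eP_central π (inf_le_left (a := (eP π).ker) b.2)) a) }

/-- Hopf's formula does not depend on the free presentation. -/
theorem hopf [Finite Q] [IsFreeGroup F] (hπ : Function.Surjective π) : Nonempty (M Q ≃* MP π) := by
  obtain ⟨f, hf⟩ := exists_surj_inf (eP π) (eP_surj π hπ) (eP_central π)
  obtain ⟨⟨Γ, _, _, σ, hσ, ⟨ε⟩⟩, -⟩ := hasSchur_M (Q := Q)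
  obtain ⟨φ, hφ⟩ := exists_lift_free π σ hσ.1
  have hK : KP π ≤ φ.ker := by
    unfold KP
    rw [Subgroup.commutator_le]
    intro x hx y _
    have h1 : φ x ∈ center Γ := hσ.2.1 (by rw [MonoidHom.mem_ker, hφ]; exact hx)
    rw [MonoidHom.mem_ker, map_commutatorElement, commutatorElement_eq_one_iff_commute]
    exact (mem_center_iff.mp h1 (φ y)).symm
  let φ' : EP π →* Γ := QuotientGroup.lift (KP π) φ (fun x hx => hK hx)
  have hφ' : ∀ x, φ' (toEP π x) = φ x := fun x => rfl
  have hmem : ∀ x : MP π, φ' (x : EP π) ∈ σ.ker := by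
    rintro ⟨x, hx⟩
    obtain ⟨x, rfl⟩ := toEP_surj π x
    rw [MonoidHom.mem_ker, hφ', hφ]
    exact (Subgroup.mem_inf.mp hx).1
  let g : MP π →* σ.ker := (φ'.comp (MP π).subtype).codRestrict σ.ker hmem
  have hg : Function.Surjective g := by
    rintro ⟨x, hx⟩
    obtain ⟨y, hy, rfl⟩ := free_ker hπ hσ hφ x hx
    obtain ⟨hy1, hy2⟩ := Subgroup.mem_inf.mp hy
    refine ⟨⟨toEP π y, Subgroup.mem_inf.mpr ⟨hy1, ?_⟩⟩, rfl⟩
    have h2 : (commutator F).map (toEP π) ≤ commutator (EP π) := by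
      rw [_root_.commutator_def, _root_.commutator_def, Subgroup.map_commutator]
      exact commutator_mono le_top le_top
    exact h2 (mem_map_of_mem _ hy2)
  haveI : Finite (M Q) := finite_MS Q
  exact bij_of_surj f (ε.toMonoidHom.comp g) hf (ε.surjective.comp hg)

end pres

section tr

theorem transfer_of_fix {F A : Type*} [Group F] [CommGroup A] {H : Subgroup F} [H.FiniteIndex] (ϕ : H →* A) (r : F)
    (hr : ∀ t : F, t⁻¹ * r * t ∈ H) [inst : Fintype (F ⧸ H)] :
    MonoidHom.transfer ϕ r = ∏ q : F ⧸ H, ϕ ⟨q.out⁻¹ * r * q.out, hr _⟩ := by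
  classical
  obtain rfl : inst = H.fintypeQuotientOfFiniteIndex := Subsingleton.elim _ _
  have hout : ∀ q : F ⧸ H, ((Quotient.out q : F) : F ⧸ H) = q := fun q => QuotientGroup.out_eq' q
  let T : H.LeftTransversal := ⟨Set.range (Quotient.out : F ⧸ H → F), isComplement_range_left hout⟩
  have hT : ∀ q : F ⧸ H, (T.2.leftQuotientEquiv q : F) = q.out := fun q =>
    IsComplement.leftQuotientEquiv_apply hout q
  rw [MonoidHom.transfer_def ϕ T r]
  have hfix : ∀ q : F ⧸ H, r⁻¹ • q = q := by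
    intro q
    conv_rhs => rw [← hout q]
    conv_lhs => rw [← hout q]
    change ((r⁻¹ * q.out : F) : F ⧸ H) = _
    rw [QuotientGroup.eq]
    have := hr q.out
    rw [mul_inv_rev, inv_inv]
    exact this
  unfold Subgroup.leftTransversals.diff
  refine Finset.prod_congr rfl (fun q _ => ?_)
  congr 1
  apply Subtype.ext
  change ((T.2.leftQuotientEquiv q : F))⁻¹ * (((r • T).2.leftQuotientEquiv q : F)) = q.out⁻¹ * r * q.out
  rw [smul_apply_eq_smul_apply_inv_smul, hfix, hT, smul_eq_mul, mul_assoc]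

end tr

section transfer

variable {G : Type u} [Group G] [Finite G] (P : Subgroup G)

/-- the preimage of `P` in the free group -/
abbrev HP : Subgroup (FreeGroup G) := P.comap (pr G)

/-- `H → P` -/
def pH : HP P →* P := (pr G).subgroupComap P

theorem pH_surj : Function.Surjective (pH P) :=
  MonoidHom.subgroupComap_surjective_of_surjective _ _ (pr_surj G)

theorem mem_ker_pH (x : HP P) : x ∈ (pH P).ker ↔ (x : FreeGroup G) ∈ (pr G).ker := by
  rw [MonoidHom.mem_ker, MonoidHom.mem_ker]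
  have h : ((pH P x : P) : G) = pr G x := rfl
  rw [← h]
  exact ⟨fun h => by rw [h]; rfl, fun h => Subtype.ext h⟩

instance instFI : (HP P).FiniteIndex := ⟨by
  rw [index_comap_of_surjective _ (pr_surj G)]
  exact FiniteIndex.index_ne_zero⟩

theorem conj_mem_ker {r : FreeGroup G} (hr : r ∈ (pr G).ker) (t : FreeGroup G) : t⁻¹ * r * t ∈ (pr G).ker := by
  have h := (inferInstance : (pr G).ker.Normal).conj_mem r hr t⁻¹
  rwa [inv_inv] at h

theorem ker_le_HP : (pr G).ker ≤ HP P := by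
  intro x hx
  rw [mem_comap, (MonoidHom.mem_ker).mp hx]
  exact one_mem P

/-- r ↦ t⁻¹ r t mod [R,H] -/
def rho (t : FreeGroup G) : (pr G).ker →* (eP (pH P)).ker :=
  { toFun := fun r => ⟨toEP (pH P) ⟨t⁻¹ * r * t, ker_le_HP P (conj_mem_ker r.2 t)⟩, by
      rw [MonoidHom.mem_ker, eP_toEP, ← MonoidHom.mem_ker, mem_ker_pH]
      exact conj_mem_ker r.2 t⟩
    map_one' := by
      apply Subtype.ext
      change toEP (pH P) _ = 1
      rw [← map_one (toEP (pH P))]
      congr 1
      apply Subtype.ext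
      simp
    map_mul' := by
      intro r s
      apply Subtype.ext
      change toEP (pH P) _ = toEP (pH P) _ * toEP (pH P) _
      rw [← map_mul]
      congr 1
      apply Subtype.ext
      change t⁻¹ * ((r : FreeGroup G) * s) * t = (t⁻¹ * r * t) * (t⁻¹ * s * t)
      group }

theorem rho_coe (t : FreeGroup G) (r : (pr G).ker) :
    ((rho P t r : (eP (pH P)).ker) : EP (pH P)) = toEP (pH P) ⟨t⁻¹ * r * t, ker_le_HP P (conj_mem_ker r.2 t)⟩ := rfl

theorem rho_mul (t : FreeGroup G) (h : HP P) : rho P (t * h) = rho P t := by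
  ext r
  rw [rho_coe]
  have h1 : (⟨(t * h)⁻¹ * r * (t * h), ker_le_HP P (conj_mem_ker r.2 _)⟩ : HP P) =
      h⁻¹ * ⟨t⁻¹ * r * t, ker_le_HP P (conj_mem_ker r.2 t)⟩ * h := by
    apply Subtype.ext
    change (t * (h : FreeGroup G))⁻¹ * r * (t * h) = (h : FreeGroup G)⁻¹ * (t⁻¹ * r * t) * h
    group
  rw [h1, map_mul, map_mul, map_inv]
  have h2 := mem_center_iff.mp (eP_central (pH P) (rho P t r).2) ((toEP (pH P) h)⁻¹)
  rw [rho_coe] at h2
  rw [h2, inv_mul_cancel_right]
  rfl

theorem rho_conj (t f : FreeGroup G) (r : (pr G).ker) (h : f * r * f⁻¹ ∈ (pr G).ker) :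
    rho P t ⟨f * r * f⁻¹, h⟩ = rho P (f⁻¹ * t) r := by
  apply Subtype.ext
  rw [rho_coe, rho_coe]
  congr 1
  apply Subtype.ext
  change t⁻¹ * (f * r * f⁻¹) * t = (f⁻¹ * t)⁻¹ * r * (f⁻¹ * t)
  group

theorem rho_eq {s t : FreeGroup G} (h : (s : FreeGroup G ⧸ HP P) = t) : rho P s = rho P t := by
  rw [QuotientGroup.eq] at h
  have h1 : t = s * ((⟨s⁻¹ * t, h⟩ : HP P) : FreeGroup G) := by
    change t = s * (s⁻¹ * t)
    group
  rw [h1, rho_mul]

noncomputable instance instFT : Fintype (FreeGroup G ⧸ HP P) := (HP P).fintypeQuotientOfFiniteIndex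

/-- the transfer on `R` -/
noncomputable def T0 : (pr G).ker →* (eP (pH P)).ker := ∏ q : FreeGroup G ⧸ HP P, rho P q.out

theorem T0_apply (r : (pr G).ker) : T0 P r = ∏ q : FreeGroup G ⧸ HP P, rho P q.out r := by
  unfold T0
  rw [MonoidHom.finsetProd_apply]

theorem T0_conj (f : FreeGroup G) (r : (pr G).ker) (h : f * r * f⁻¹ ∈ (pr G).ker) :
    T0 P ⟨f * r * f⁻¹, h⟩ = T0 P r := by
  rw [T0_apply, T0_apply]
  rw [← Equiv.prod_comp (MulAction.toPerm f⁻¹ : Equiv.Perm (FreeGroup G ⧸ HP P)) (fun q => rho P q.out r)]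
  refine Finset.prod_congr rfl (fun q _ => ?_)
  rw [rho_conj]
  have h1 : rho P (f⁻¹ * q.out) = rho P (MulAction.toPerm f⁻¹ q : FreeGroup G ⧸ HP P).out := by
    apply rho_eq
    rw [QuotientGroup.out_eq']
    rw [MulAction.toPerm_apply]
    conv_rhs => rw [← QuotientGroup.out_eq' q]
    rfl
  rw [h1]

theorem T0_KK (r : (pr G).ker) (hr : (r : FreeGroup G) ∈ KK G) : T0 P r = 1 := by
  have h : KK G ≤ (T0 P).ker.map (pr G).ker.subtype := by
    unfold KK
    rw [Subgroup.commutator_le]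
    intro x hx y _
    have hx' : y * ((⟨x, hx⟩ : (pr G).ker)⁻¹ : (pr G).ker) * y⁻¹ ∈ (pr G).ker :=
      (inferInstance : (pr G).ker.Normal).conj_mem _ (((⟨x, hx⟩ : (pr G).ker)⁻¹ : (pr G).ker)).2 y
    refine ⟨(⟨x, hx⟩ : (pr G).ker) * ⟨y * ((⟨x, hx⟩ : (pr G).ker)⁻¹ : (pr G).ker) * y⁻¹, hx'⟩, ?_, ?_⟩
    · change T0 P _ = 1
      rw [map_mul, T0_conj, map_inv, mul_inv_cancel]
    · change x * (y * x⁻¹ * y⁻¹) = ⁅x, y⁆
      rw [commutatorElement_def]; group
  obtain ⟨s, hs, hs'⟩ := h hr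
  have : s = r := Subtype.ext hs'
  rw [← this]; exact hs

/-- corestriction -/
def cc : EP (pH P) →* E G := QuotientGroup.lift (KP (pH P)) ((toE G).comp (HP P).subtype) (by
  have h : KP (pH P) ≤ ((toE G).comp (HP P).subtype).ker := by
    unfold KP
    rw [Subgroup.commutator_le]
    intro x hx y _
    rw [mem_ker_pH] at hx
    have h1 : toE G (x : FreeGroup G) ∈ center (E G) := e_central G (by
      rw [MonoidHom.mem_ker, e_toE]; exact hx)
    rw [MonoidHom.mem_ker, map_commutatorElement, commutatorElement_eq_one_iff_commute]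
    exact (mem_center_iff.mp h1 _).symm
  exact fun x hx => h hx)

theorem cc_toEP (x : HP P) : cc P (toEP (pH P) x) = toE G (x : FreeGroup G) := rfl

theorem cc_rho (t : FreeGroup G) (r : (pr G).ker) : cc P (rho P t r : (eP (pH P)).ker) = toE G (r : FreeGroup G) := by
  rw [rho_coe, cc_toEP]
  change toE G (t⁻¹ * r * t) = _
  have h1 : toE G (r : FreeGroup G) ∈ center (E G) := e_central G (by
      rw [MonoidHom.mem_ker, e_toE]; exact r.2)
  rw [map_mul, map_mul, mem_center_iff.mp h1, mul_assoc, ← map_mul, inv_mul_cancel, map_one, mul_one]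

theorem cc_T0 (r : (pr G).ker) : cc P (T0 P r : (eP (pH P)).ker) = toE G (r : FreeGroup G) ^ P.index := by
  have h1 : ∀ x : (eP (pH P)).ker, cc P x ∈ center (E G) := by
    rintro ⟨x, hx⟩
    obtain ⟨x, rfl⟩ := toEP_surj _ x
    change toE G (x : FreeGroup G) ∈ _
    apply e_central G
    rw [MonoidHom.mem_ker, e_toE, ← MonoidHom.mem_ker, ← mem_ker_pH]
    exact hx
  letI : CommGroup (center (E G)) :=
    { (inferInstance : Group (center (E G))) with
      mul_comm := fun a b => Subtype.ext (mem_center_iff.mp b.2 a) }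
  let c1 : (eP (pH P)).ker →* center (E G) := ((cc P).comp (eP (pH P)).ker.subtype).codRestrict _ h1
  have h2 : c1 (T0 P r) = ∏ q : FreeGroup G ⧸ HP P, c1 (rho P q.out r) := by
    rw [T0_apply, map_prod]
  have h3 : ∀ q : FreeGroup G ⧸ HP P, c1 (rho P q.out r) = ⟨toE G (r : FreeGroup G), by
      rw [← cc_rho P 1 r]; exact h1 _⟩ := fun q => Subtype.ext (cc_rho P q.out r)
  have h4 : c1 (T0 P r) = (⟨toE G (r : FreeGroup G), by
      rw [← cc_rho P 1 r]; exact h1 _⟩ : center (E G)) ^ P.index := by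
    rw [h2, Finset.prod_congr rfl (fun q _ => h3 q), Finset.prod_const, Finset.card_univ,
      ← Nat.card_eq_fintype_card]
    have h5 : Nat.card (FreeGroup G ⧸ HP P) = P.index := index_comap_of_surjective P (pr_surj G)
    rw [h5]
  exact congrArg Subtype.val h4

/-- `R → R / [R, F]` -/
def tau : (pr G).ker →* (e G).ker := ((toE G).comp (pr G).ker.subtype).codRestrict _ (fun r => by
  rw [MonoidHom.mem_ker]
  change e G (toE G (r : FreeGroup G)) = 1
  rw [e_toE]; exact r.2)

theorem tau_surj : Function.Surjective (tau (G := G)) := by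
  rintro ⟨x, hx⟩
  obtain ⟨x, rfl⟩ := toE_surj G x
  exact ⟨⟨x, hx⟩, rfl⟩

theorem exists_T1 : ∃ T1 : M G →* MP (pH P), ∃ c1 : MP (pH P) →* M G, ∀ x, c1 (T1 x) = x ^ P.index := by
  have hker : ∀ x ∈ (tau (G := G)).ker, T0 P x = 1 := by
    intro x hx
    apply T0_KK
    rw [← ker_toE, MonoidHom.mem_ker]
    exact congrArg Subtype.val ((MonoidHom.mem_ker).mp hx)
  let Tb : (e G).ker →* (eP (pH P)).ker := (MonoidHom.liftOfSurjective (tau (G := G)) tau_surj) ⟨T0 P, hker⟩
  have hTb : ∀ r, Tb (tau r) = T0 P r := fun r =>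
    MonoidHom.liftOfRightInverse_comp_apply tau _ (Function.rightInverse_surjInv tau_surj) ⟨T0 P, hker⟩ r
  have hcomm : ∀ x : M G, ((Tb ⟨x, MS_le_ker G x.2⟩ : (eP (pH P)).ker) : EP (pH P)) ∈ commutator (EP (pH P)) := by
    rintro ⟨x, hx⟩
    have hx1 := MS_le_comm G hx
    have h2 : commutator (E G) = (commutator (FreeGroup G)).map (toE G) := by
      rw [_root_.commutator_def, _root_.commutator_def, Subgroup.map_commutator,
        Subgroup.map_top_of_surjective _ (toE_surj G)]
    rw [h2] at hx1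
    obtain ⟨r, hr, rfl⟩ := hx1
    have hrk : r ∈ (pr G).ker := by
      rw [MonoidHom.mem_ker, ← e_toE]
      exact MS_le_ker G hx
    have h3 : Tb ⟨toE G r, MS_le_ker G hx⟩ = T0 P ⟨r, hrk⟩ := hTb ⟨r, hrk⟩
    rw [h3]
    let ϕ : HP P →* Abelianization (EP (pH P)) := Abelianization.of.comp (toEP (pH P))
    have h4 := transfer_of_fix ϕ r (fun t => ker_le_HP P (conj_mem_ker hrk t))
    have h5 : MonoidHom.transfer ϕ r = 1 := Abelianization.commutator_subset_ker _ hr
    have h6 : (Abelianization.of ((T0 P ⟨r, hrk⟩ : (eP (pH P)).ker) : EP (pH P)) : Abelianization (EP (pH P))) = 1 := by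
      rw [← h5, h4, T0_apply]
      have h7 := map_prod (Abelianization.of.comp (eP (pH P)).ker.subtype : (eP (pH P)).ker →* Abelianization (EP (pH P)))
        (fun q : FreeGroup G ⧸ HP P => rho P q.out ⟨r, hrk⟩) Finset.univ
      exact h7
    exact (QuotientGroup.eq_one_iff _).mp h6
  let T1 : M G →* MP (pH P) := (((eP (pH P)).ker.subtype.comp Tb).comp (inclusion (MS_le_ker G))).codRestrict (MP (pH P))
    (fun x => Subgroup.mem_inf.mpr ⟨(Tb ⟨x, MS_le_ker G x.2⟩).2, hcomm x⟩)
  have hc : ∀ x : MP (pH P), cc P (x : EP (pH P)) ∈ MS G := by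
    rintro ⟨x, hx⟩
    obtain ⟨hx1, hx2⟩ := Subgroup.mem_inf.mp hx
    refine Subgroup.mem_inf.mpr ⟨?_, ?_⟩
    · obtain ⟨x, rfl⟩ := toEP_surj _ x
      change toE G (x : FreeGroup G) ∈ _
      rw [MonoidHom.mem_ker, e_toE, ← MonoidHom.mem_ker, ← mem_ker_pH]
      exact hx1
    · have h2 : (commutator (EP (pH P))).map (cc P) ≤ commutator (E G) := by
        rw [_root_.commutator_def, _root_.commutator_def, Subgroup.map_commutator]
        exact commutator_mono le_top le_top
      exact h2 (mem_map_of_mem _ hx2)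
  let c1 : MP (pH P) →* M G := ((cc P).comp (MP (pH P)).subtype).codRestrict (MS G) hc
  refine ⟨T1, c1, ?_⟩
  rintro ⟨x, hx⟩
  obtain ⟨r, hr⟩ := tau_surj ⟨x, MS_le_ker G hx⟩
  apply Subtype.ext
  change cc P ((Tb ⟨x, MS_le_ker G hx⟩ : (eP (pH P)).ker) : EP (pH P)) = x ^ P.index
  rw [← hr, hTb, cc_T0]
  have h1 : toE G (r : FreeGroup G) = x := congrArg Subtype.val hr
  rw [h1]

end transfer

section split

open scoped Classical in
/-- Splitting of the `p`-part. -/
theorem split_primary {A : Type u} {B : Type v} [CommGroup A] [Finite A] [CommGroup B] (p : ℕ) [hp : Fact p.Prime]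
    (T : A →* B) (c : B →* A) (m : ℕ) (hm : Nat.Coprime p m) (h : ∀ a, c (T a) = a ^ m) :
    ∃ C D : Subgroup B, C ⊓ D = ⊥ ∧ C ⊔ D = ⊤ ∧ Nonempty (CommGroup.primaryComponent A p ≃* C) := by
  set Ap := CommGroup.primaryComponent A p with hAp
  have hmemA : ∀ a : A, a ∈ Ap ↔ ∃ k, a ^ p ^ k = 1 := by
    intro a
    exact CommGroup.mem_primaryComponent
  obtain ⟨k, N, hN, hcard⟩ := Nat.exists_eq_pow_mul_and_not_dvd (n := Nat.card A) Nat.card_pos.ne' p hp.out.ne_one
  have hpN : Nat.Coprime p N := (hp.out.coprime_iff_not_dvd).mpr hN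
  have hcop : Nat.Coprime p (m * N) := Nat.Coprime.mul_right hm hpN
  have htriv : ∀ a ∈ Ap, a ^ (m * N) = 1 → a = 1 := by
    intro a ha h1
    obtain ⟨j, hj⟩ := (hmemA a).mp ha
    have h2 := orderOf_dvd_of_pow_eq_one hj
    have h3 := orderOf_dvd_of_pow_eq_one h1
    have h4 : orderOf a ∣ 1 := by
      have : Nat.Coprime (p ^ j) (m * N) := Nat.Coprime.pow_left j hcop
      rw [← Nat.Coprime.gcd_eq_one this]
      exact Nat.dvd_gcd h2 h3
    exact orderOf_eq_one_iff.mp (Nat.dvd_one.mp h4)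
  let C : Subgroup B := Ap.map T
  let D : Subgroup B := ((powMonoidHom N : A →* A).comp c).ker
  refine ⟨C, D, ?_, ?_, ?_⟩
  · rw [eq_bot_iff]
    rintro x hx
    obtain ⟨⟨a, ha, rfl⟩, h2⟩ := Subgroup.mem_inf.mp hx
    have h3 : (c (T a)) ^ N = 1 := h2
    rw [h, ← pow_mul] at h3
    rw [mem_bot, htriv a ha h3, map_one]
  · rw [eq_top_iff]
    intro b _
    have h1 : c b ^ N ∈ Ap := by
      rw [hmemA]
      refine ⟨k, ?_⟩
      rw [← pow_mul, mul_comm, ← hcard]
      exact pow_card_eq_one'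
    -- root
    obtain ⟨a', ha', ha'2⟩ : ∃ a' ∈ Ap, a' ^ (m * N) = c b ^ N := by
      obtain ⟨j, hj⟩ := (hmemA _).mp h1
      have hcop2 : Nat.Coprime (p ^ j) (m * N) := Nat.Coprime.pow_left j hcop
      rcases Nat.lt_or_ge 1 (p ^ j) with h5 | h5
      · obtain ⟨u, -, hu⟩ := Nat.exists_mul_mod_eq_one_of_coprime hcop2.symm h5
        refine ⟨(c b ^ N) ^ u, pow_mem h1 u, ?_⟩
        rw [← pow_mul, mul_comm u]
        have h6 : (m * N) * u ≡ 1 [MOD orderOf (c b ^ N)] := by
          have : (m * N) * u ≡ 1 [MOD p ^ j] := by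
            change _ % _ = _ % _
            rw [hu, Nat.mod_eq_of_lt h5]
          exact this.of_dvd (orderOf_dvd_of_pow_eq_one hj)
        rw [(pow_eq_pow_iff_modEq).mpr h6, pow_one]
      · have h6 : p ^ j = 1 := by
          have := Nat.pos_of_ne_zero (pow_ne_zero j hp.out.ne_zero)
          omega
        rw [h6, pow_one] at hj
        exact ⟨1, one_mem _, by rw [hj, one_pow]⟩
    have h2 : b = T a' * ((T a')⁻¹ * b) := by group
    rw [h2]
    refine mul_mem (mem_sup_left (mem_map_of_mem _ ha')) (mem_sup_right ?_)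
    change (c ((T a')⁻¹ * b)) ^ N = 1
    rw [map_mul, map_inv, h, mul_pow, inv_pow, ← pow_mul, ha'2, inv_mul_cancel]
  · let f : Ap →* B := T.comp Ap.subtype
    have hf : Function.Injective f := by
      rw [injective_iff_map_eq_one]
      rintro ⟨a, ha⟩ hx
      have h1 : T a = 1 := hx
      have h2 : a ^ m = 1 := by rw [← h, h1, map_one]
      have h3 : a ^ (m * N) = 1 := by rw [pow_mul, h2, one_pow]
      exact Subtype.ext (htriv a ha h3)
    have h1 : f.range = C := by
      ext x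
      constructor
      · rintro ⟨⟨a, ha⟩, rfl⟩
        exact mem_map_of_mem _ ha
      · rintro ⟨a, ha, rfl⟩
        exact ⟨⟨a, ha⟩, rfl⟩
    rw [← h1]
    exact ⟨MonoidHom.ofInjective hf⟩

end split

end CfsgLib.Schur
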