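import Mathlib

/-! Maps of prime order: irreducible invariant subspaces and decompositions (seat helper29). -/

namespace CfsgLib.Semi29

open Module Polynomial

variable {F V : Type*} [Field F] [AddCommGroup V] [Module F V]

/-- `R` is a minimal nonzero invariant subspace. -/
def IsMinInv (x : V →ₗ[F] V) (R : Submodule F V) : Prop :=
  R ≠ ⊥ ∧ (∀ u ∈ R, x u ∈ R) ∧ ∀ W ≤ R, (∀ u ∈ W, x u ∈ W) → W = ⊥ ∨ W = R

lemma exists_minInv [FiniteDimensional F V] (x : V →ₗ[F] V) :
    ∀ n, ∀ W : Submodule F V, finrank F W = n → W ≠ ⊥ → (∀ u ∈ W, x u ∈ W) → ∃ R ≤ W, IsMinInv x R := by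
  intro n
  induction n using Nat.strong_induction_on with
  | _ n ih =>
    intro W hn hW hx
    by_cases h : ∀ W' ≤ W, (∀ u ∈ W', x u ∈ W') → W' = ⊥ ∨ W' = W
    · exact ⟨W, le_rfl, hW, hx, h⟩
    · push Not at h
      obtain ⟨W', h1, h2, h3, h4⟩ := h
      obtain ⟨R, hR, hR2⟩ := ih _ (by rw [← hn]; exact Submodule.finrank_lt_finrank_of_lt (lt_of_le_of_ne h1 h4)) W' rfl h3 h2
      exact ⟨R, hR.trans h1, hR2⟩

lemma aeval_mem {x : V →ₗ[F] V} {W : Submodule F V} (hx : ∀ u ∈ W, x u ∈ W) (f : F[X]) : ∀ u ∈ W, (aeval x f) u ∈ W := by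
  induction f using Polynomial.induction_on' with
  | add f g hf hg =>
    intro u hu
    rw [map_add, LinearMap.add_apply]
    exact W.add_mem (hf u hu) (hg u hu)
  | monomial n a =>
    intro u hu
    rw [aeval_monomial]
    show (algebraMap F (Module.End F V) a * x ^ n) u ∈ W
    rw [Module.End.mul_apply, Module.algebraMap_end_apply]
    refine W.smul_mem _ ?_
    clear a
    induction n with
    | zero => simpa using hu
    | succ n ih => rw [pow_succ', Module.End.mul_apply]; exact hx _ ih

/-- the dimension of a minimal invariant subspace killed by an irreducible polynomial -/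
theorem finrank_min [FiniteDimensional F V] (x : V →ₗ[F] V) (R : Submodule F V) (hR : IsMinInv x R) (P : F[X])
    (hP : Irreducible P) (hPx : ∀ u ∈ R, (aeval x P) u = 0) : finrank F R = P.natDegree := by
  obtain ⟨hR0, hRx, hRm⟩ := hR
  obtain ⟨v, hvR, hv⟩ := (Submodule.ne_bot_iff R).1 hR0
  set d := P.natDegree with hd
  have hPd : P.coeff d ≠ 0 := by
    rw [hd, coeff_natDegree]
    exact leadingCoeff_ne_zero.2 hP.ne_zero
  have hd0 : 0 < d := hP.natDegree_pos
  let b : Fin d → V := fun j => (x ^ (j : ℕ)) v
  have hb : LinearIndependent F b := by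
    rw [Fintype.linearIndependent_iff]
    intro g hg
    by_contra hcon
    push Not at hcon
    obtain ⟨j0, hj0⟩ := hcon
    let A : F[X] := ∑ j : Fin d, monomial (j : ℕ) (g j)
    have hAv : (aeval x A) v = 0 := by
      rw [map_sum, LinearMap.sum_apply, ← hg]
      refine Finset.sum_congr rfl fun j _ => ?_
      rw [aeval_monomial, Module.End.mul_apply, Module.algebraMap_end_apply]
    have hA0 : A ≠ 0 := by
      intro h
      apply hj0
      have h1 := congrArg (fun f => f.coeff (j0 : ℕ)) h
      simp only [A, finset_sum_coeff, coeff_monomial, coeff_zero] at h1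
      rw [Finset.sum_eq_single j0] at h1
      · simpa using h1
      · intro j _ hj
        rw [if_neg]
        intro h2
        exact hj (Fin.ext h2)
      · intro h; exact absurd (Finset.mem_univ _) h
    have hAdeg : A.natDegree < d := by
      refine lt_of_le_of_lt (natDegree_sum_le _ _) ?_
      rw [Finset.fold_max_lt]
      refine ⟨hd0, fun j _ => ?_⟩
      exact lt_of_le_of_lt (natDegree_monomial_le _) j.2
    have hcop : IsCoprime P A := by
      refine (hP.coprime_iff_not_dvd).2 fun hdvd => ?_
      have := natDegree_le_of_dvd hdvd hA0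
      omega
    obtain ⟨u, w, huw⟩ := hcop
    apply hv
    have h1 := congrArg (fun f => (aeval x f) v) huw
    simp only [map_add, map_mul, map_one, LinearMap.add_apply, Module.End.mul_apply, hAv, hPx v hvR, map_zero, add_zero] at h1
    exact h1.symm
  have hspan : Submodule.span F (Set.range b) = R := by
    have hle : Submodule.span F (Set.range b) ≤ R := by
      rw [Submodule.span_le]
      rintro _ ⟨j, rfl⟩
      have := aeval_mem hRx (X ^ (j : ℕ)) v hvR
      simpa using this
    have hinv : ∀ u ∈ Submodule.span F (Set.range b), x u ∈ Submodule.span F (Set.range b) := by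
      have h1 : Submodule.span F (Set.range b) ≤ (Submodule.span F (Set.range b)).comap x := by
        rw [Submodule.span_le]
        rintro _ ⟨j, rfl⟩
        show x ((x ^ (j : ℕ)) v) ∈ Submodule.span F (Set.range b)
        have e1 : x ((x ^ (j : ℕ)) v) = (x ^ ((j : ℕ) + 1)) v := by rw [pow_succ']; rfl
        rw [e1]
        rcases Nat.lt_or_ge ((j : ℕ) + 1) d with h2 | h2
        · exact Submodule.subset_span ⟨⟨_, h2⟩, rfl⟩
        · have h3 : (j : ℕ) + 1 = d := by have := j.2; omega
          rw [h3]
          have h4 := hPx v hvR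
          rw [aeval_eq_sum_range, ← hd, Finset.sum_range_succ, LinearMap.add_apply, LinearMap.smul_apply, LinearMap.sum_apply] at h4
          have h5 : (x ^ d) v = -((P.coeff d)⁻¹ • ∑ i ∈ Finset.range d, (P.coeff i • x ^ i) v) := by
            have h6 : P.coeff d • (x ^ d) v = -∑ i ∈ Finset.range d, (P.coeff i • x ^ i) v :=
              eq_neg_of_add_eq_zero_right h4
            calc (x ^ d) v = (P.coeff d)⁻¹ • (P.coeff d • (x ^ d) v) := by
                  rw [smul_smul, inv_mul_cancel₀ hPd, one_smul]
              _ = _ := by rw [h6, smul_neg]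
          rw [h5]
          refine Submodule.neg_mem _ (Submodule.smul_mem _ _ (Submodule.sum_mem _ fun i hi => ?_))
          rw [LinearMap.smul_apply]
          exact Submodule.smul_mem _ _ (Submodule.subset_span ⟨⟨i, Finset.mem_range.1 hi⟩, rfl⟩)
      intro u hu
      exact h1 hu
    rcases hRm _ hle hinv with h | h
    · exfalso
      apply hv
      have : v ∈ Submodule.span F (Set.range b) := Submodule.subset_span ⟨⟨0, hd0⟩, by simp [b]⟩
      rw [h] at this
      exact this
    · exact h
  rw [← hspan, finrank_span_eq_card hb, Fintype.card_fin]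

/-- a minimal invariant subspace is killed by some irreducible factor of any annihilating polynomial -/
theorem exists_factor [FiniteDimensional F V] (x : V →ₗ[F] V) (R : Submodule F V) (hR : IsMinInv x R) (f : F[X])
    (hf : ∀ u ∈ R, (aeval x f) u = 0) (hf0 : f ≠ 0) : ∃ P : F[X], Irreducible P ∧ P ∣ f ∧ ∀ u ∈ R, (aeval x P) u = 0 := by
  obtain ⟨hR0, hRx, hRm⟩ := hR
  obtain ⟨v, hvR, hv⟩ := (Submodule.ne_bot_iff R).1 hR0
  have key : ∀ g : F[X], g ≠ 0 → (∀ u ∈ R, (aeval x g) u = 0) → ∃ P : F[X], Irreducible P ∧ P ∣ g ∧ ∀ u ∈ R, (aeval x P) u = 0 := by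
    intro g
    induction g using WfDvdMonoid.induction_on_irreducible with
    | zero => intro h; exact absurd rfl h
    | unit u hu =>
      intro _ h
      exfalso
      obtain ⟨c, hc, rfl⟩ := Polynomial.isUnit_iff.1 hu
      have h1 := h v hvR
      rw [aeval_C, Module.algebraMap_end_apply] at h1
      exact hv ((smul_eq_zero.1 h1).resolve_left hc.ne_zero)
    | mul a i ha0 hi ih =>
      intro _ h
      by_cases hker : ∃ u ∈ R, u ≠ 0 ∧ (aeval x i) u = 0
      · obtain ⟨u, huR, hu0, hu⟩ := hker
        refine ⟨i, hi, dvd_mul_right _ _, ?_⟩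
        have h1 : R ⊓ LinearMap.ker (aeval x i) = R := by
          rcases hRm (R ⊓ LinearMap.ker (aeval x i)) inf_le_left (by
            rintro w ⟨hw1, hw2⟩
            refine ⟨hRx w hw1, ?_⟩
            show (aeval x i) (x w) = 0
            have hcomm : (aeval x i) (x w) = x ((aeval x i) w) := by
              have : aeval x i * x = x * aeval x i := by
                have h2 : aeval x (i * X) = aeval x (X * i) := by rw [mul_comm]
                rwa [map_mul, map_mul, aeval_X] at h2
              exact LinearMap.congr_fun this w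
            have hw2' : (aeval x i) w = 0 := hw2
            rw [hcomm, hw2', map_zero]) with h3 | h3
          · exfalso
            apply hu0
            have : u ∈ R ⊓ LinearMap.ker (aeval x i) := ⟨huR, hu⟩
            rw [h3] at this
            exact this
          · exact h3
        intro w hw
        rw [← h1] at hw
        exact hw.2
      · push Not at hker
        obtain ⟨P, hP1, hP2, hP3⟩ := ih ha0 (fun u hu => by
          by_contra hne
          have h1 := h u hu
          rw [map_mul, Module.End.mul_apply] at h1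
          exact hker _ (aeval_mem hRx a u hu) hne h1)
        exact ⟨P, hP1, hP2.mul_left i, hP3⟩
  exact key f hf0 hf

/-- dimension of the irreducible constituents of a map of prime order -/
theorem finrank_of_prime_order [Fintype F] [FiniteDimensional F V] {p : ℕ} [Fact p.Prime] [CharP F p] (r : ℕ) [hr : Fact r.Prime]
    (hrp : r ≠ p) (x : V →ₗ[F] V) (hxr : x ^ r = 1) (R : Submodule F V) (hR : IsMinInv x R) (hfix : ∃ u ∈ R, x u ≠ u) :
    finrank F R = orderOf ((Fintype.card F : ℕ) : ZMod r) := by
  obtain ⟨P, hP1, hP2, hP3⟩ := exists_factor x R hR (X ^ r - 1) (by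
    intro u _
    rw [map_sub, map_pow, aeval_X, map_one, hxr, sub_self]; rfl) (by
    have := X_pow_sub_C_ne_zero (R := F) hr.out.pos 1
    simpa using this)
  rw [finrank_min x R hR P hP1 hP3]
  have hfac : (X ^ r - 1 : F[X]) = (X - 1) * cyclotomic r F := by
    rw [← prod_cyclotomic_eq_X_pow_sub_one hr.out.pos, hr.out.divisors, Finset.prod_pair hr.out.one_lt.ne, cyclotomic_one]
  rw [hfac] at hP2
  have hP4 : P ∣ cyclotomic r F := by
    rcases hP1.prime.dvd_or_dvd hP2 with h | h
    · exfalso
      obtain ⟨u, hu, hne⟩ := hfix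
      apply hne
      obtain ⟨c, hc⟩ := h
      have h1 : (aeval x (X - 1 : F[X])) u = 0 := by
        rw [hc, mul_comm, map_mul, Module.End.mul_apply, hP3 u hu, map_zero]
      rw [map_sub, aeval_X, map_one, LinearMap.sub_apply, Module.End.one_apply, sub_eq_zero] at h1
      exact h1
    · exact h
  obtain ⟨f, hf⟩ := FiniteField.card F p
  have hcop : p.Coprime r := (Nat.coprime_primes Fact.out hr.out).2 (Ne.symm hrp)
  rw [natDegree_of_dvd_cyclotomic_of_irreducible hf.2 hcop hP4 hP1, ← orderOf_units, ZMod.coe_unitOfCoprime, hf.2]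

end CfsgLib.Semi29
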