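import Cfsg.Agent.LibSemi29a

/-! Invariant subspaces of semisimple maps: dimensions (seat helper29). -/

namespace CfsgLib.Semi29

open Module Polynomial

variable {F V : Type*} [Field F] [AddCommGroup V] [Module F V]

/-- invariance -/
def Inv (x : V →ₗ[F] V) (W : Submodule F V) : Prop := ∀ u ∈ W, x u ∈ W

/-- every invariant subspace has an invariant complement -/
def Semi (x : V →ₗ[F] V) : Prop := ∀ W : Submodule F V, Inv x W → ∃ W' : Submodule F V, Inv x W' ∧ IsCompl W W'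

/-- the fixed space -/
def Fx (x : V →ₗ[F] V) : Submodule F V := LinearMap.ker (x - 1)

lemma mem_Fx {x : V →ₗ[F] V} {u : V} : u ∈ Fx x ↔ x u = u := by
  rw [Fx, LinearMap.mem_ker, LinearMap.sub_apply, Module.End.one_apply, sub_eq_zero]

lemma inv_of_le_Fx {x : V →ₗ[F] V} {W : Submodule F V} (h : W ≤ Fx x) : Inv x W := by
  intro u hu
  rw [mem_Fx.1 (h hu)]; exact hu

lemma Inv.sup {x : V →ₗ[F] V} {U W : Submodule F V} (hU : Inv x U) (hW : Inv x W) : Inv x (U ⊔ W) := by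
  intro u hu
  obtain ⟨a, ha, b, hb, rfl⟩ := Submodule.mem_sup.1 hu
  rw [map_add]
  exact Submodule.add_mem_sup (hU a ha) (hW b hb)

lemma Inv.inf {x : V →ₗ[F] V} {U W : Submodule F V} (hU : Inv x U) (hW : Inv x W) : Inv x (U ⊓ W) :=
  fun u hu => ⟨hU u hu.1, hW u hu.2⟩

lemma inv_Fx (x : V →ₗ[F] V) : Inv x (Fx x) := inv_of_le_Fx le_rfl
lemma inv_bot (x : V →ₗ[F] V) : Inv x ⊥ := fun u hu => by
  rw [(Submodule.mem_bot F).1 hu, map_zero]; exact Submodule.zero_mem _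
lemma inv_top (x : V →ₗ[F] V) : Inv x ⊤ := fun _ _ => trivial

lemma semi_of_squarefree {x : V →ₗ[F] V} {f : F[X]} (hf : Squarefree f) (hx : aeval x f = 0) : Semi x := by
  have h1 : Module.End.IsSemisimple x := Module.End.isSemisimple_of_squarefree_aeval_eq_zero hf hx
  rw [Module.End.isSemisimple_iff] at h1
  intro W hW
  obtain ⟨W', h2, h3⟩ := h1 W (by
    rw [Module.End.mem_invtSubmodule]
    intro u hu
    exact hW u hu)
  refine ⟨W', ?_, h3⟩
  rw [Module.End.mem_invtSubmodule] at h2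
  intro u hu
  exact h2 hu

lemma rel_compl {x : V →ₗ[F] V} (hss : Semi x) {U W : Submodule F V} (hU : Inv x U) (hW : Inv x W) (h : U ≤ W) :
    ∃ U' ≤ W, Inv x U' ∧ U ⊓ U' = ⊥ ∧ U ⊔ U' = W := by
  obtain ⟨C, hC, hUC⟩ := hss U hU
  refine ⟨W ⊓ C, inf_le_left, hW.inf hC, ?_, ?_⟩
  · rw [eq_bot_iff, ← hUC.inf_eq_bot]
    exact inf_le_inf_left _ inf_le_right
  · have := sup_inf_assoc_of_le C h
    rw [hUC.sup_eq_top, top_inf_eq] at this
    rw [inf_comm W C]; exact this.symm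

lemma finrank_add [FiniteDimensional F V] {U U' W : Submodule F V} (h1 : U ⊓ U' = ⊥) (h2 : U ⊔ U' = W) :
    finrank F W = finrank F U + finrank F U' := by
  have := Submodule.finrank_sup_add_finrank_inf_eq U U'
  rw [h1, h2, finrank_bot, add_zero] at this
  exact this

lemma block_dvd [FiniteDimensional F V] {x : V →ₗ[F] V} (hss : Semi x) (e : ℕ) :
    ∀ N, ∀ W : Submodule F V, finrank F W = N → Inv x W → (∀ R ≤ W, IsMinInv x R → finrank F R = e) → e ∣ N := by
  intro N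
  induction N using Nat.strong_induction_on with
  | _ N ih =>
    intro W hN hW hmin
    by_cases h0 : W = ⊥
    · rw [← hN, h0, finrank_bot]; exact dvd_zero e
    · obtain ⟨R, hRW, hR⟩ := exists_minInv x _ W rfl h0 hW
      obtain ⟨U', h1, h2, h3, h4⟩ := rel_compl hss hR.2.1 hW hRW
      have h5 := finrank_add h3 h4
      have h6 : 0 < finrank F R := by
        rw [Module.finrank_pos_iff]
        exact Submodule.nontrivial_iff_ne_bot.2 hR.1
      have h7 := ih (finrank F U') (by omega) U' rfl h2 (fun R' hR' => hmin R' (hR'.trans h1))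
      rw [← hN, h5, hmin R hRW hR]
      exact Dvd.dvd.add (dvd_refl e) h7

lemma block_exists [FiniteDimensional F V] {x : V →ₗ[F] V} (hss : Semi x) (e : ℕ) (W : Submodule F V) (hW : Inv x W)
    (hmin : ∀ R ≤ W, IsMinInv x R → finrank F R = e) :
    ∀ k, k * e ≤ finrank F W → ∃ W' ≤ W, Inv x W' ∧ finrank F W' = k * e := by
  intro k
  induction k with
  | zero => intro _; exact ⟨⊥, bot_le, inv_bot x, by simp⟩
  | succ k ih =>
    intro hk
    rw [add_mul, one_mul] at hk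
    obtain ⟨W', h1, h2, h3⟩ := ih (by omega)
    rcases Nat.eq_zero_or_pos e with he | he
    · exact ⟨W', h1, h2, by rw [h3, he]; simp⟩
    · obtain ⟨C, h4, h5, h6, h7⟩ := rel_compl hss h2 hW h1
      have h8 := finrank_add h6 h7
      have hC0 : C ≠ ⊥ := by
        intro h
        rw [h, finrank_bot] at h8
        omega
      obtain ⟨R, hRC, hR⟩ := exists_minInv x _ C rfl hC0 h5
      refine ⟨W' ⊔ R, sup_le h1 (hRC.trans h4), h2.sup hR.2.1, ?_⟩
      have h9 : W' ⊓ R = ⊥ := by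
        rw [eq_bot_iff, ← h6]
        exact inf_le_inf_left _ hRC
      rw [finrank_add h9 rfl, h3, hmin R (hRC.trans h4) hR, add_mul, one_mul]

lemma exists_sub [FiniteDimensional F V] (C : Submodule F V) (m : ℕ) (hm : m ≤ Module.finrank F C) : ∃ W ≤ C, Module.finrank F W = m := by
  obtain ⟨b, hb⟩ : ∃ b : Fin (Module.finrank F C) → C, LinearIndependent F b :=
    ⟨Module.finBasis F C, (Module.finBasis F C).linearIndependent⟩
  let v : Fin m → V := fun i => (b (Fin.castLE hm i) : V)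
  have hv : LinearIndependent F v := by
    have h1 : LinearIndependent F (fun i => ((b i : C) : V)) := hb.map' C.subtype (Submodule.ker_subtype _)
    exact h1.comp _ (Fin.castLE_injective hm)
  refine ⟨Submodule.span F (Set.range v), ?_, ?_⟩
  · rw [Submodule.span_le]
    rintro _ ⟨i, rfl⟩
    exact (b _).2
  · rw [finrank_span_eq_card hv, Fintype.card_fin]

/-- minimal invariant subspaces with a nonfixed vector have dimension `e` -/
def Dim (x : V →ₗ[F] V) (e : ℕ) : Prop := ∀ R : Submodule F V, IsMinInv x R → (∃ u ∈ R, x u ≠ u) → finrank F R = e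

lemma min_nonfix {x : V →ₗ[F] V} {W R : Submodule F V} (hW : W ⊓ Fx x = ⊥) (hRW : R ≤ W) (hR : IsMinInv x R) : ∃ u ∈ R, x u ≠ u := by
  obtain ⟨u, hu, hu0⟩ := (Submodule.ne_bot_iff R).1 hR.1
  refine ⟨u, hu, fun h => hu0 ?_⟩
  have : u ∈ W ⊓ Fx x := ⟨hRW hu, mem_Fx.2 h⟩
  rw [hW] at this
  exact this

theorem dims [FiniteDimensional F V] {x : V →ₗ[F] V} (hss : Semi x) {e : ℕ} (hmin : Dim x e) (W : Submodule F V) (hW : Inv x W) :
    ∃ k, finrank F W = finrank F (W ⊓ Fx x : Submodule F V) + k * e := by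
  obtain ⟨U', h1, h2, h3, h4⟩ := rel_compl hss (hW.inf (inv_Fx x)) hW inf_le_left
  have h5 := finrank_add h3 h4
  have h6 : U' ⊓ Fx x = ⊥ := by
    rw [eq_bot_iff, ← h3]
    exact le_inf (le_inf (inf_le_left.trans h1) inf_le_right) inf_le_left
  obtain ⟨k, hk⟩ := block_dvd hss e _ U' rfl h2 (fun R hR hR2 => hmin R hR2 (min_nonfix h6 hR hR2))
  exact ⟨k, by rw [h5, hk, mul_comm]⟩

theorem exists_dims [FiniteDimensional F V] {x : V →ₗ[F] V} (hss : Semi x) {e : ℕ} (hmin : Dim x e) (a1 a2 k1 k2 : ℕ)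
    (ha : a1 + a2 ≤ finrank F (Fx x)) (hk : finrank F (Fx x) + (k1 + k2) * e ≤ finrank F V) :
    ∃ U1 U2 : Submodule F V, Inv x U1 ∧ Inv x U2 ∧ U1 ⊓ U2 = ⊥ ∧ finrank F U1 = a1 + k1 * e ∧ finrank F U2 = a2 + k2 * e := by
  obtain ⟨D, _, hD, hD1, hD2⟩ := rel_compl hss (inv_Fx x) (inv_top x) le_top
  have hD3 := finrank_add hD1 hD2
  rw [finrank_top] at hD3
  have hminD : ∀ R ≤ D, IsMinInv x R → finrank F R = e := fun R hR hR2 => hmin R hR2 (min_nonfix (by rw [inf_comm]; exact hD1) hR hR2)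
  rw [add_mul] at hk
  obtain ⟨A1, hA1, hA1d⟩ := exists_sub (Fx x) a1 (by omega)
  obtain ⟨A', hA', _, hA2, hA3⟩ := rel_compl hss (inv_of_le_Fx hA1) (inv_Fx x) hA1
  have hA4 := finrank_add hA2 hA3
  obtain ⟨A2, hA5, hA5d⟩ := exists_sub A' a2 (by omega)
  obtain ⟨D1, hD4, hD5, hD6⟩ := block_exists hss e D hD hminD k1 (by omega)
  obtain ⟨D', hD', hD'i, hD7, hD8⟩ := rel_compl hss hD5 hD hD4
  have hD9 := finrank_add hD7 hD8
  obtain ⟨D2, hE1, hE2, hE3⟩ := block_exists hss e D' hD'i (fun R hR => hminD R (hR.trans hD')) k2 (by omega)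
  have hA12 : A1 ⊓ A2 = ⊥ := by
    rw [eq_bot_iff, ← hA2]; exact inf_le_inf_left _ hA5
  have hD12 : D1 ⊓ D2 = ⊥ := by
    rw [eq_bot_iff, ← hD7]; exact inf_le_inf_left _ hE1
  have hAD : ∀ A ≤ Fx x, ∀ E ≤ D, A ⊓ E = ⊥ := by
    intro A hA E hE
    rw [eq_bot_iff, ← hD1]; exact inf_le_inf hA hE
  refine ⟨A1 ⊔ D1, A2 ⊔ D2, (inv_of_le_Fx hA1).sup hD5, (inv_of_le_Fx (hA5.trans hA')).sup hE2, ?_, ?_, ?_⟩
  · rw [eq_bot_iff]
    rintro u ⟨hu1, hu2⟩
    obtain ⟨a, ha, d, hd, rfl⟩ := Submodule.mem_sup.1 hu1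
    obtain ⟨a', ha', d', hd', h⟩ := Submodule.mem_sup.1 hu2
    have h1 : a' - a ∈ Fx x ⊓ D := by
      refine ⟨(Fx x).sub_mem (hA' (hA5 ha')) (hA1 ha), ?_⟩
      have : a' - a = d - d' := by rw [sub_eq_sub_iff_add_eq_add, h, add_comm]
      rw [this]
      exact D.sub_mem (hD4 hd) (hD' (hE1 hd'))
    rw [hD1, Submodule.mem_bot, sub_eq_zero] at h1
    subst h1
    have h2 : d' = d := add_left_cancel h
    subst h2
    have h3 : a' ∈ A1 ⊓ A2 := ⟨ha, ha'⟩
    have h4 : d' ∈ D1 ⊓ D2 := ⟨hd, hd'⟩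
    rw [hA12, Submodule.mem_bot] at h3
    rw [hD12, Submodule.mem_bot] at h4
    rw [h3, h4, add_zero]
    exact Submodule.zero_mem _
  · rw [finrank_add (hAD A1 hA1 D1 hD4) rfl, hA1d, hD6]
  · rw [finrank_add (hAD A2 (hA5.trans hA') D2 (hE1.trans hD')) rfl, hA5d, hE3]

/-- maps of prime order different from the characteristic -/
theorem semi_of_pow [FiniteDimensional F V] {p : ℕ} [Fact p.Prime] [CharP F p] {r : ℕ} (hr : r.Prime) (hrp : r ≠ p) {c : F} (hc : c ≠ 0)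
    (x : V →ₗ[F] V) (hx : x ^ r = c • 1) : Semi x := by
  have hrF : (r : F) ≠ 0 := by
    intro h
    rw [CharP.cast_eq_zero_iff F p] at h
    exact hrp ((Nat.prime_dvd_prime_iff_eq Fact.out hr).1 h).symm
  have h1 : (X ^ r - C c : F[X]).Separable := separable_X_pow_sub_C c hrF hc
  refine semi_of_squarefree h1.squarefree ?_
  rw [map_sub, map_pow, aeval_X, aeval_C, hx, Algebra.algebraMap_eq_smul_one, sub_self]

theorem dim_of_pow [Fintype F] [FiniteDimensional F V] {p : ℕ} [Fact p.Prime] [CharP F p] {r : ℕ} [hr : Fact r.Prime] (hrp : r ≠ p)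
    (x : V →ₗ[F] V) (hx : x ^ r = 1) : Dim x (orderOf ((Fintype.card F : ℕ) : ZMod r)) :=
  fun R hR h => finrank_of_prime_order r hrp x hx R hR h

theorem dim_of_irred [FiniteDimensional F V] {r : ℕ} {c : F} (hirr : Irreducible (X ^ r - C c : F[X]))
    (x : V →ₗ[F] V) (hx : x ^ r = c • 1) (R : Submodule F V) (hR : IsMinInv x R) : finrank F R = r := by
  rw [finrank_min x R hR _ hirr, natDegree_X_pow_sub_C]
  intro u _
  rw [map_sub, map_pow, aeval_X, aeval_C, hx, Algebra.algebraMap_eq_smul_one, sub_self]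
  rfl

end CfsgLib.Semi29
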