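import Cfsg.Agent.LibSemi29b

/-! Elements of prime order in `SL_n(q)` with few invariant subspaces (seat helper29). -/

namespace CfsgLib.Semi29

open Module Polynomial

variable {F : Type*} [Field F]

lemma toLin_pow {n r : ℕ} (x : Matrix.SpecialLinearGroup (Fin n) F) {c : F}
    (h : ((x ^ r : Matrix.SpecialLinearGroup (Fin n) F) : Matrix (Fin n) (Fin n) F) = c • (1 : Matrix (Fin n) (Fin n) F)) :
    (Matrix.toLin' (x : Matrix (Fin n) (Fin n) F)) ^ r = c • (1 : (Fin n → F) →ₗ[F] (Fin n → F)) := by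
  rw [← Matrix.toLin'_pow, ← Matrix.SpecialLinearGroup.coe_pow, h, map_smul, Matrix.toLin'_one]; rfl

lemma map_le_iff {n : ℕ} (M : Matrix (Fin n) (Fin n) F) (W : Submodule F (Fin n → F)) :
    W.map (Matrix.toLin' M) ≤ W ↔ Inv (Matrix.toLin' M) W := by
  rw [Submodule.map_le_iff_le_comap]; rfl

lemma pow_one_of [Fintype F] {r : ℕ} (hr : r.Prime) (h : ¬ r ∣ Fintype.card F - 1) {a : F} (ha : a ^ r = 1) : a = 1 := by
  have ha0 : a ≠ 0 := by
    rintro rfl
    rw [zero_pow hr.ne_zero] at ha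
    exact zero_ne_one ha
  have h1 := FiniteField.pow_card_sub_one_eq_one a ha0
  have h2 : a ^ (Nat.gcd r (Fintype.card F - 1)) = 1 := pow_gcd_eq_one.2 ⟨ha, h1⟩
  rw [(Nat.Prime.coprime_iff_not_dvd hr).2 h, pow_one] at h2
  exact h2

lemma exists_root_of [Fintype F] {r : ℕ} (hr : r.Prime) (h : ¬ r ∣ Fintype.card F - 1) (c : F) (hc : c ≠ 0) : ∃ b : F, b ^ r = c := by
  have hinj : Function.Injective (fun u : Fˣ => u ^ r) := by
    intro u v huv
    have h1 : (u * v⁻¹) ^ r = 1 := by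
      rw [mul_pow, inv_pow]
      have : u ^ r = v ^ r := huv
      rw [this, mul_inv_cancel]
    have h2 : ((u * v⁻¹ : Fˣ) : F) = 1 := pow_one_of hr h (by rw [← Units.val_pow_eq_pow_val, h1, Units.val_one])
    have h3 : u * v⁻¹ = 1 := Units.ext h2
    rwa [mul_inv_eq_one] at h3
  obtain ⟨u, hu⟩ := (Finite.injective_iff_surjective.1 hinj) (Units.mk0 c hc)
  exact ⟨u, by rw [← Units.val_pow_eq_pow_val]; exact congrArg Units.val hu⟩

lemma dvd_of_order {q r : ℕ} (hr : r.Prime) (hq : 0 < q) (j : ℕ) : r ∣ q ^ j - 1 ↔ orderOf ((q : ℕ) : ZMod r) ∣ j := by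
  rw [orderOf_dvd_iff_pow_eq_one, ← Nat.cast_pow]
  have h1 : 1 ≤ q ^ j := Nat.one_le_pow _ _ hq
  rw [← ZMod.natCast_eq_zero_iff, Nat.cast_sub h1, sub_eq_zero, Nat.cast_one]

/-- an element of order `r` of `SL_n` with the smallest possible fixed space -/
theorem exists_block [Fintype F] {p r i n : ℕ} [Fact p.Prime] [CharP F p] [hr : Fact r.Prime] (hrp : r ≠ p)
    (hi : orderOf ((Fintype.card F : ℕ) : ZMod r) = i) (h2 : 2 ≤ i) (hn : i ≤ n) :
    ∃ x : Matrix.SpecialLinearGroup (Fin n) F, x ^ r = 1 ∧ x ≠ 1 ∧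
      finrank F (Fx (Matrix.toLin' (x : Matrix (Fin n) (Fin n) F))) ≤ n % i := by
  classical
  have hq0 : 0 < Fintype.card F := Fintype.card_pos
  have hnd : ¬ r ∣ Fintype.card F - 1 := by
    intro h
    have h3 : r ∣ Fintype.card F ^ 1 - 1 := by rwa [pow_one]
    rw [dvd_of_order hr.out hq0, hi] at h3
    have := Nat.le_of_dvd one_pos h3
    omega
  -- an element of order `r` of `GL_i`
  obtain ⟨y, hy⟩ : ∃ y : GL (Fin i) F, orderOf y = r := by
    apply exists_prime_orderOf_dvd_card'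
    rw [Matrix.card_GL_field]
    have hi0 : 0 < i := by omega
    refine Dvd.dvd.trans ?_ (Finset.dvd_prod_of_mem _ (Finset.mem_univ (⟨0, hi0⟩ : Fin i)))
    have := (dvd_of_order hr.out hq0 i).2 (by rw [hi])
    simpa using this
  obtain ⟨Y, hY⟩ : ∃ Y : (Fin i → F) →ₗ[F] (Fin i → F), Y = Matrix.toLin' (y : Matrix (Fin i) (Fin i) F) := ⟨_, rfl⟩
  have hYr : Y ^ r = 1 := by
    rw [hY, ← Matrix.toLin'_pow, ← Units.val_pow_eq_pow_val, ← hy, pow_orderOf_eq_one, Units.val_one, Matrix.toLin'_one]; rfl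
  have hY1 : Y ≠ 1 := by
    intro h
    have h3 : (y : Matrix (Fin i) (Fin i) F) = 1 := by
      apply Matrix.toLin'.injective
      rw [← hY, h, Matrix.toLin'_one]; rfl
    have h4 : y = 1 := Units.ext h3
    rw [h4, orderOf_one] at hy
    exact hr.out.one_lt.ne hy
  have hYfix : ∀ w, Y w = w → w = 0 := by
    obtain ⟨k, hk⟩ := dims (semi_of_pow hr.out hrp one_ne_zero Y (by rw [hYr, one_smul])) (dim_of_pow hrp Y hYr) ⊤ (inv_top Y)
    rw [top_inf_eq, finrank_top, hi, Module.finrank_fin_fun] at hk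
    have hlt : finrank F (Fx Y) ≠ i := by
      intro h
      apply hY1
      have h3 : Fx Y = ⊤ := Submodule.eq_top_of_finrank_eq (by rw [h, Module.finrank_fin_fun])
      have h4 : ∀ w, Y w = w := fun w => mem_Fx.1 (by rw [h3]; trivial)
      exact LinearMap.ext h4
    have h0 : finrank F (Fx Y) = 0 := by
      rcases Nat.eq_zero_or_pos k with h3 | h3
      · rw [h3] at hk; omega
      · have : i ≤ k * i := Nat.le_mul_of_pos_left i h3
        omega
    rw [Submodule.finrank_eq_zero] at h0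
    intro w hw
    have : w ∈ Fx Y := mem_Fx.2 hw
    rw [h0] at this
    exact this
  -- glue copies
  have hdim : finrank F (Fin n → F) = finrank F ((Fin (n / i) → (Fin i → F)) × (Fin (n % i) → F)) := by
    rw [Module.finrank_fin_fun, Module.finrank_prod, Module.finrank_pi_fintype, Module.finrank_fin_fun]
    simp only [Module.finrank_fin_fun, Finset.sum_const, Finset.card_univ, Fintype.card_fin, smul_eq_mul]
    exact (Nat.div_add_mod' n i).symm
  obtain ⟨E⟩ : Nonempty ((Fin n → F) ≃ₗ[F] ((Fin (n / i) → (Fin i → F)) × (Fin (n % i) → F))) :=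
    FiniteDimensional.nonempty_linearEquiv_of_finrank_eq hdim
  let X0 : ((Fin (n / i) → (Fin i → F)) × (Fin (n % i) → F)) →ₗ[F] ((Fin (n / i) → (Fin i → F)) × (Fin (n % i) → F)) :=
    LinearMap.prodMap (LinearMap.pi fun k => Y ∘ₗ LinearMap.proj k) LinearMap.id
  let T : (Fin n → F) →ₗ[F] (Fin n → F) := E.symm.toLinearMap ∘ₗ X0 ∘ₗ E.toLinearMap
  have hTv : ∀ v, E (T v) = (fun j => Y ((E v).1 j), (E v).2) := by
    intro v
    show E (E.symm (X0 (E v))) = _
    rw [LinearEquiv.apply_symm_apply]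
    rfl
  have hTk : ∀ k v, E ((T ^ k) v) = (fun j => (Y ^ k) ((E v).1 j), (E v).2) := by
    intro k
    induction k with
    | zero => intro v; simp
    | succ k ih =>
      intro v
      rw [pow_succ', Module.End.mul_apply, hTv, ih]
      simp only [pow_succ', Module.End.mul_apply]
  have hTr : T ^ r = 1 := by
    apply LinearMap.ext
    intro v
    apply E.injective
    rw [hTk, hYr]
    rfl
  obtain ⟨M, hM⟩ : ∃ M : Matrix (Fin n) (Fin n) F, M = LinearMap.toMatrix' T := ⟨_, rfl⟩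
  have hMT : Matrix.toLin' M = T := by rw [hM, Matrix.toLin'_toMatrix']
  have hMr : M ^ r = 1 := by
    apply Matrix.toLin'.injective
    rw [Matrix.toLin'_pow, hMT, hTr, Matrix.toLin'_one]; rfl
  have hdet : M.det = 1 := by
    apply pow_one_of hr.out hnd
    rw [← Matrix.det_pow, hMr, Matrix.det_one]
  let x0 : Matrix.SpecialLinearGroup (Fin n) F := ⟨M, hdet⟩
  refine ⟨x0, ?_, ?_, ?_⟩
  · apply Subtype.ext
    rw [Matrix.SpecialLinearGroup.coe_pow]
    exact hMr
  · intro h
    have h3 : M = 1 := congrArg Subtype.val h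
    have h4 : T = 1 := by rw [← hMT, h3, Matrix.toLin'_one]; rfl
    apply hY1
    have hs : 0 < n / i := Nat.div_pos hn (by omega)
    apply LinearMap.ext
    intro w
    have h5 := hTv (E.symm (fun _ => w, 0))
    rw [h4, Module.End.one_apply, LinearEquiv.apply_symm_apply] at h5
    have h6 := congrFun (congrArg Prod.fst h5) ⟨0, hs⟩
    exact h6.symm
  · show finrank F (Fx (Matrix.toLin' M)) ≤ n % i
    rw [hMT]
    have hle : Fx T ≤ LinearMap.range (E.symm.toLinearMap ∘ₗ LinearMap.inr F (Fin (n / i) → (Fin i → F)) (Fin (n % i) → F)) := by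
      intro v hv
      have h3 := hTv v
      rw [mem_Fx.1 hv] at h3
      have h4 : (E v).1 = 0 := by
        funext j
        have h5 := congrFun (congrArg Prod.fst h3) j
        exact hYfix _ h5.symm
      refine ⟨(E v).2, ?_⟩
      show E.symm ((0 : Fin (n / i) → (Fin i → F)), (E v).2) = v
      rw [LinearEquiv.symm_apply_eq, ← h4]
    refine (Submodule.finrank_mono hle).trans ((LinearMap.finrank_range_le _).trans ?_)
    rw [Module.finrank_fin_fun]

/-- an element of `SL_n` whose `r`-th power is a scalar without `r`-th root -/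
theorem exists_irr {r n : ℕ} (hr : r.Prime) (hrn : r ∣ n) {c : F}
    (hdet : ((-1) ^ (r + 1) * c) ^ (n / r) = 1) :
    ∃ x : Matrix.SpecialLinearGroup (Fin n) F, ((x ^ r : Matrix.SpecialLinearGroup (Fin n) F) : Matrix (Fin n) (Fin n) F) = c • (1 : Matrix (Fin n) (Fin n) F) := by
  classical
  have hmon : (X ^ r - C c : F[X]).Monic := monic_X_pow_sub_C c hr.ne_zero
  let pb := AdjoinRoot.powerBasis' hmon
  have hdim : pb.dim = r := by
    rw [AdjoinRoot.powerBasis'_dim, natDegree_X_pow_sub_C]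
  have hgen : pb.gen ^ r = algebraMap F _ c := by
    have h1 : (aeval (AdjoinRoot.root (X ^ r - C c : F[X]))) (X ^ r - C c : F[X]) = 0 := by
      rw [AdjoinRoot.aeval_eq, AdjoinRoot.mk_self]
    rw [map_sub, map_pow, aeval_X, aeval_C, sub_eq_zero] at h1
    rw [AdjoinRoot.powerBasis'_gen]
    exact h1
  obtain ⟨A, hA⟩ : ∃ A : Matrix (Fin pb.dim) (Fin pb.dim) F, A = Algebra.leftMulMatrix pb.basis pb.gen := ⟨_, rfl⟩
  have hAr : A ^ r = c • (1 : Matrix (Fin pb.dim) (Fin pb.dim) F) := by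
    rw [hA, ← map_pow, hgen, AlgHom.commutes, Algebra.algebraMap_eq_smul_one]
  have hAdet : A.det = (-1) ^ (r + 1) * c := by
    have h1 := Algebra.norm_eq_matrix_det pb.basis pb.gen
    rw [hA, ← h1, Algebra.PowerBasis.norm_gen_eq_coeff_zero_minpoly, hdim, AdjoinRoot.powerBasis'_gen, AdjoinRoot.minpoly_root hmon.ne_zero,
      hmon.leadingCoeff, inv_one, C_1, mul_one]
    rw [coeff_sub, coeff_X_pow, if_neg hr.ne_zero.symm, coeff_C_zero, pow_succ]
    ring
  have hcard : Fintype.card (Fin pb.dim × Fin (n / r)) = n := by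
    rw [Fintype.card_prod, Fintype.card_fin, Fintype.card_fin, hdim, Nat.mul_div_cancel' hrn]
  let e : Fin pb.dim × Fin (n / r) ≃ Fin n := Fintype.equivFinOfCardEq hcard
  obtain ⟨M, hM⟩ : ∃ M : Matrix (Fin n) (Fin n) F, M = Matrix.reindexAlgEquiv F F e (Matrix.blockDiagonal (fun _ : Fin (n / r) => A)) := ⟨_, rfl⟩
  have hMr : M ^ r = c • (1 : Matrix (Fin n) (Fin n) F) := by
    rw [hM, ← map_pow, ← Matrix.blockDiagonal_pow]
    have h1 : (fun _ : Fin (n / r) => A) ^ r = c • (1 : Fin (n / r) → Matrix (Fin pb.dim) (Fin pb.dim) F) := by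
      funext j
      rw [Pi.pow_apply, hAr]; rfl
    rw [h1, Matrix.blockDiagonal_smul, Matrix.blockDiagonal_one, map_smul, map_one]
  have hMdet : M.det = 1 := by
    rw [hM, Matrix.coe_reindexAlgEquiv, Matrix.det_reindex_self, Matrix.det_blockDiagonal]
    rw [Finset.prod_const, Finset.card_univ, Fintype.card_fin, hAdet, hdet]
  let x0 : Matrix.SpecialLinearGroup (Fin n) F := ⟨M, hMdet⟩
  refine ⟨x0, ?_⟩
  rw [Matrix.SpecialLinearGroup.coe_pow]
  exact hMr

/-- nonpowers of small order -/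
theorem pw1 [Fintype F] {r N : ℕ} (hr : r.Prime) {c : F} (hc : c ≠ 0) (hnp : ¬ ∃ b : F, b ^ r = c) (hN : N ≠ 0) (hcN : c ^ N = 1) :
    padicValNat r (Fintype.card F - 1) ≤ padicValNat r N := by
  classical
  haveI := Fact.mk hr
  obtain ⟨g, hg⟩ := IsCyclic.exists_generator (α := Fˣ)
  have hog : orderOf g = Fintype.card F - 1 := by
    rw [orderOf_eq_card_of_forall_mem_zpowers hg, Nat.card_eq_fintype_card, Fintype.card_units]
  have h1 : Units.mk0 c hc ∈ Submonoid.powers g := mem_powers_iff_mem_zpowers.2 (hg _)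
  obtain ⟨k, hk⟩ := h1
  have hk' : (g : F) ^ k = c := by
    rw [← Units.val_pow_eq_pow_val]; exact congrArg Units.val hk
  have hrk : ¬ r ∣ k := by
    rintro ⟨j, rfl⟩
    exact hnp ⟨(g : F) ^ j, by rw [← pow_mul, mul_comm j r, hk']⟩
  have hk0 : k ≠ 0 := by rintro rfl; exact hrk (dvd_zero r)
  have h2 : Fintype.card F - 1 ∣ k * N := by
    rw [← hog, orderOf_dvd_iff_pow_eq_one]
    apply Units.ext
    rw [Units.val_pow_eq_pow_val, Units.val_one, pow_mul, hk', hcN]
  have h3 : padicValNat r (Fintype.card F - 1) ≤ padicValNat r (k * N) :=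
    (padicValNat_dvd_iff_le (mul_ne_zero hk0 hN)).1 (pow_padicValNat_dvd.trans h2)
  rw [padicValNat.mul hk0 hN, padicValNat.eq_zero_of_not_dvd hrk, zero_add] at h3
  exact h3

theorem pw2 [Fintype F] {r N : ℕ} (hr : r.Prime) (hrq : r ∣ Fintype.card F - 1) (hN : N ≠ 0)
    (h : padicValNat r (Fintype.card F - 1) ≤ padicValNat r N) : ∃ c : F, c ≠ 0 ∧ (¬ ∃ b : F, b ^ r = c) ∧ c ^ N = 1 := by
  classical
  haveI := Fact.mk hr
  have hq1 : 0 < Fintype.card F - 1 := by
    have := Fintype.one_lt_card (α := F)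
    omega
  obtain ⟨g, hg⟩ := IsCyclic.exists_generator (α := Fˣ)
  have hog : orderOf g = Fintype.card F - 1 := by
    rw [orderOf_eq_card_of_forall_mem_zpowers hg, Nat.card_eq_fintype_card, Fintype.card_units]
  obtain ⟨k, hk⟩ : r ^ padicValNat r (Fintype.card F - 1) ∣ Fintype.card F - 1 := pow_padicValNat_dvd
  have hrk : ¬ r ∣ k := by
    rintro ⟨j, rfl⟩
    have h1 : r ^ (padicValNat r (Fintype.card F - 1) + 1) ∣ Fintype.card F - 1 := by
      refine ⟨j, ?_⟩
      rw [pow_succ, mul_assoc]; exact hk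
    exact pow_succ_padicValNat_not_dvd hq1.ne' h1
  refine ⟨((g ^ k : Fˣ) : F), Units.ne_zero _, ?_, ?_⟩
  · rintro ⟨b, hb⟩
    have hb0 : b ≠ 0 := by
      rintro rfl
      rw [zero_pow hr.ne_zero] at hb
      exact Units.ne_zero _ hb.symm
    have h1 : (Units.mk0 b hb0) ^ r = g ^ k := Units.ext (by rw [Units.val_pow_eq_pow_val]; exact hb)
    obtain ⟨t, ht⟩ := hrq
    have h2 : (g ^ k) ^ t = 1 := by
      rw [← h1, ← pow_mul, ← ht]
      apply Units.ext
      rw [Units.val_pow_eq_pow_val, Units.val_one]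
      exact FiniteField.pow_card_sub_one_eq_one _ (Units.ne_zero _)
    rw [← pow_mul, ← orderOf_dvd_iff_pow_eq_one, hog, ht] at h2
    have ht0 : 0 < t := Nat.pos_of_ne_zero (by rintro rfl; omega)
    exact hrk (Nat.dvd_of_mul_dvd_mul_right ht0 h2)
  · rw [← Units.val_pow_eq_pow_val, ← Units.val_one, Units.val_inj, ← pow_mul, ← orderOf_dvd_iff_pow_eq_one, hog]
    have h1 : r ^ padicValNat r (Fintype.card F - 1) ∣ N := (padicValNat_dvd_iff_le hN).2 h
    have h2 := mul_dvd_mul h1 (dvd_refl k)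
    rw [← hk, mul_comm N k] at h2
    exact h2

end CfsgLib.Semi29
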