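import Cfsg.Agent.LibSemi29c
import Cfsg.Agent.LibH22Stab

/-! Numbers of subspaces (seat helper29). -/

namespace CfsgLib.Semi29

open Module Finset

/-- q-factorial -/
def fac (q k : ℕ) : ℕ := ∏ j ∈ range k, (q ^ (j + 1) - 1)

lemma fac_pos {q : ℕ} (hq : 1 < q) (k : ℕ) : 0 < fac q k := by
  refine Finset.prod_pos fun j _ => ?_
  have : 1 < q ^ (j + 1) := Nat.one_lt_pow (Nat.succ_ne_zero j) hq
  omega

lemma fac_split (q n : ℕ) : ∀ m ≤ n, fac q n = fac q (n - m) * ∏ i ∈ range m, (q ^ (n - i) - 1) := by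
  intro m
  induction m with
  | zero => intro _; simp
  | succ m ih =>
    intro hm
    rw [ih (by omega), prod_range_succ]
    have h1 : fac q (n - m) = fac q (n - (m + 1)) * (q ^ (n - m) - 1) := by
      obtain ⟨t, ht⟩ : ∃ t, n - m = t + 1 := ⟨n - m - 1, by omega⟩
      have ht2 : n - (m + 1) = t := by omega
      rw [ht, ht2, fac, prod_range_succ]; rfl
    rw [h1]; ring

lemma fac_self (q m : ℕ) : fac q m = ∏ i ∈ range m, (q ^ (m - i) - 1) := by
  have := fac_split q m m le_rfl
  rw [Nat.sub_self] at this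
  rw [this, fac, prod_range_zero, one_mul]

lemma prod_factor (q n m : ℕ) (hm : m ≤ n) : ∏ i ∈ range m, (q ^ n - q ^ i) = (∏ i ∈ range m, q ^ i) * ∏ i ∈ range m, (q ^ (n - i) - 1) := by
  rw [← prod_mul_distrib]
  refine prod_congr rfl fun i hi => ?_
  have hi2 := mem_range.1 hi
  rw [Nat.mul_sub, mul_one, ← pow_add]
  congr 2
  omega

variable {F : Type*} [Field F] [Fintype F] {V : Type*} [AddCommGroup V] [Module F V] [FiniteDimensional F V]

/-- the number of subspaces of dimension `m` -/
theorem card_sub_mul (m : ℕ) (hm : m ≤ finrank F V) :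
    Nat.card {W : Submodule F V // finrank F W = m} * fac (Fintype.card F) m = ∏ i ∈ range m, (Fintype.card F ^ (finrank F V - i) - 1) := by
  classical
  haveI : Finite V := Module.finite_of_finite F
  haveI : Finite (Submodule F V) := Finite.of_injective (fun W : Submodule F V => (W : Set V)) SetLike.coe_injective
  haveI : Fintype {W : Submodule F V // finrank F W = m} := Fintype.ofFinite _
  have h1 := card_linearIndependent (K := F) (V := V) (k := m) hm
  have h2 : Nat.card {s : Fin m → V // LinearIndependent F s} = Nat.card (Σ W : {W : Submodule F V // finrank F W = m}, {s : Fin m → V // LinearIndependent F s ∧ Submodule.span F (Set.range s) = W.1}) := by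
    refine Nat.card_congr ⟨fun s => ⟨⟨Submodule.span F (Set.range s.1), by rw [finrank_span_eq_card s.2, Fintype.card_fin]⟩, ⟨s.1, s.2, rfl⟩⟩,
      fun x => ⟨x.2.1, x.2.2.1⟩, fun s => rfl, ?_⟩
    rintro ⟨⟨W, hW⟩, ⟨s, hs1, hs2⟩⟩
    obtain rfl : Submodule.span F (Set.range s) = W := hs2
    rfl
  rw [h1, Nat.card_sigma] at h2
  have h3 : ∀ W : {W : Submodule F V // finrank F W = m}, Nat.card {s : Fin m → V // LinearIndependent F s ∧ Submodule.span F (Set.range s) = W.1} = ∏ i ∈ range m, (Fintype.card F ^ m - Fintype.card F ^ i) := by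
    intro W
    rw [Cfsg.Agent.H22.card_bases W.1 W.2, ← Fin.prod_univ_eq_prod_range (fun i => Fintype.card F ^ m - Fintype.card F ^ i)]
  have hcW : Fintype.card {W : Submodule F V // finrank F W = m} = Nat.card {W : Submodule F V // finrank F W = m} := Nat.card_eq_fintype_card.symm
  rw [Finset.sum_congr rfl (fun W _ => h3 W), Finset.sum_const, Finset.card_univ, smul_eq_mul, hcW,
    Fin.prod_univ_eq_prod_range (fun i => Fintype.card F ^ (finrank F V) - Fintype.card F ^ i),
    prod_factor _ _ _ hm, prod_factor _ _ _ le_rfl, ← fac_self] at h2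
  have hq : 0 < Fintype.card F := Fintype.card_pos
  have h4 : 0 < ∏ i ∈ range m, Fintype.card F ^ i := prod_pos fun i _ => pow_pos hq i
  apply Nat.eq_of_mul_eq_mul_left h4
  rw [h2]; ring

theorem card_sub_fac (m : ℕ) (hm : m ≤ finrank F V) :
    Nat.card {W : Submodule F V // finrank F W = m} * fac (Fintype.card F) m * fac (Fintype.card F) (finrank F V - m) = fac (Fintype.card F) (finrank F V) := by
  rw [card_sub_mul m hm, fac_split _ _ m hm, mul_comm]

lemma prime_dvd {q r n m : ℕ} (hr : r.Prime) (h : r ∣ ∏ i ∈ range m, (q ^ (n - i) - 1)) : ∃ j < m, r ∣ q ^ (n - j) - 1 := by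
  obtain ⟨j, hj, h2⟩ := (Prime.dvd_finsetProd_iff hr.prime _).1 h
  exact ⟨j, mem_range.1 hj, h2⟩

theorem dvd_count {r m : ℕ} (hr : r.Prime) (hm : m ≤ finrank F V) (h : r ∣ Nat.card {W : Submodule F V // finrank F W = m}) :
    ∃ j < m, r ∣ Fintype.card F ^ (finrank F V - j) - 1 := by
  apply prime_dvd hr
  rw [← card_sub_mul m hm]
  exact Dvd.dvd.mul_right h _

/-- the number of flags -/
theorem dvd_count_flags {r m : ℕ} (hr : r.Prime) (hm : 2 * m ≤ finrank F V)
    (h : r ∣ Nat.card {P : Submodule F V × Submodule F V // P.1 ≤ P.2 ∧ finrank F P.1 = m ∧ finrank F P.2 = finrank F V - m}) :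
    ∃ j < 2 * m, r ∣ Fintype.card F ^ (finrank F V - j) - 1 := by
  classical
  haveI : Finite V := Module.finite_of_finite F
  haveI : Finite (Submodule F V) := Finite.of_injective (fun W : Submodule F V => (W : Set V)) SetLike.coe_injective
  haveI : Fintype {W : Submodule F V // finrank F W = finrank F V - m} := Fintype.ofFinite _
  have hq : 1 < Fintype.card F := Fintype.one_lt_card
  have h1 : Nat.card {P : Submodule F V × Submodule F V // P.1 ≤ P.2 ∧ finrank F P.1 = m ∧ finrank F P.2 = finrank F V - m} =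
      Nat.card (Σ W : {W : Submodule F V // finrank F W = finrank F V - m}, {U : Submodule F V // U ≤ W.1 ∧ finrank F U = m}) := by
    refine Nat.card_congr ⟨fun P => ⟨⟨P.1.2, P.2.2.2⟩, ⟨P.1.1, P.2.1, P.2.2.1⟩⟩, fun x => ⟨(x.2.1, x.1.1), x.2.2.1, x.2.2.2, x.1.2⟩, fun P => rfl, fun x => rfl⟩
  rw [Nat.card_sigma] at h1
  have h2 : ∀ W : {W : Submodule F V // finrank F W = finrank F V - m}, Nat.card {U : Submodule F V // U ≤ W.1 ∧ finrank F U = m} * fac (Fintype.card F) m * fac (Fintype.card F) (finrank F V - 2 * m) = fac (Fintype.card F) (finrank F V - m) := by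
    rintro ⟨W, hW⟩
    have h3 : Nat.card {U : Submodule F V // U ≤ W ∧ finrank F U = m} = Nat.card {U : Submodule F W // finrank F U = m} := by
      refine Nat.card_congr ⟨fun U => ⟨U.1.comap W.subtype, ?_⟩, fun U => ⟨U.1.map W.subtype, ?_, ?_⟩, ?_, ?_⟩
      · have h4 : (U.1.comap W.subtype).map W.subtype = U.1 := by
          rw [Submodule.map_comap_subtype, inf_eq_right.2 U.2.1]
        rw [← Submodule.finrank_map_subtype_eq W (U.1.comap W.subtype), h4, U.2.2]
      · exact Submodule.map_subtype_le W U.1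
      · rw [Submodule.finrank_map_subtype_eq, U.2]
      · rintro ⟨U, h4, h5⟩
        apply Subtype.ext
        show (U.comap W.subtype).map W.subtype = U
        rw [Submodule.map_comap_subtype, inf_eq_right.2 h4]
      · rintro ⟨U, h4⟩
        apply Subtype.ext
        exact Submodule.comap_map_eq_of_injective W.injective_subtype U
    rw [h3]
    have h4 := card_sub_fac (F := F) (V := W) m (by rw [hW]; omega)
    rw [hW] at h4
    have e : finrank F V - m - m = finrank F V - 2 * m := by omega
    rw [e] at h4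
    exact h4
  have h3 : Nat.card {P : Submodule F V × Submodule F V // P.1 ≤ P.2 ∧ finrank F P.1 = m ∧ finrank F P.2 = finrank F V - m} * fac (Fintype.card F) m * fac (Fintype.card F) (finrank F V - 2 * m)
      = Nat.card {W : Submodule F V // finrank F W = finrank F V - m} * fac (Fintype.card F) (finrank F V - m) := by
    rw [h1, Finset.sum_mul, Finset.sum_mul, Finset.sum_congr rfl (fun W _ => h2 W), Finset.sum_const, Finset.card_univ, smul_eq_mul, ← Nat.card_eq_fintype_card]
  have h4 := card_sub_fac (F := F) (V := V) (finrank F V - m) (Nat.sub_le _ _)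
  have e : finrank F V - (finrank F V - m) = m := by omega
  rw [e] at h4
  have h5 : Nat.card {P : Submodule F V × Submodule F V // P.1 ≤ P.2 ∧ finrank F P.1 = m ∧ finrank F P.2 = finrank F V - m} * fac (Fintype.card F) m * fac (Fintype.card F) m
      = ∏ i ∈ range (2 * m), (Fintype.card F ^ (finrank F V - i) - 1) := by
    apply Nat.eq_of_mul_eq_mul_left (fac_pos hq (finrank F V - 2 * m))
    rw [← fac_split _ _ _ hm, ← h4]
    calc _ = (Nat.card {P : Submodule F V × Submodule F V // P.1 ≤ P.2 ∧ finrank F P.1 = m ∧ finrank F P.2 = finrank F V - m} * fac (Fintype.card F) m * fac (Fintype.card F) (finrank F V - 2 * m)) * fac (Fintype.card F) m := by ring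
      _ = _ := by rw [h3]
  apply prime_dvd hr
  rw [← h5]
  exact Dvd.dvd.mul_right (Dvd.dvd.mul_right h _) _

/-- the number of complements of a subspace -/
theorem card_compl (U : Submodule F V) : Nat.card {W : Submodule F V // IsCompl U W} = Fintype.card F ^ ((finrank F V - finrank F U) * finrank F U) := by
  classical
  obtain ⟨C, hC⟩ := Submodule.exists_isCompl U
  have e1 := Nat.card_congr (Submodule.isComplEquivProj U)
  rw [e1]
  obtain ⟨f0, hf0⟩ : ∃ f0 : V →ₗ[F] U, ∀ x : U, f0 x = x := ⟨_, (Submodule.isComplEquivProj U ⟨C, hC⟩).2⟩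
  let L : (V →ₗ[F] U) →ₗ[F] (U →ₗ[F] U) := LinearMap.lcomp F U U.subtype
  have hL : Function.Surjective L := by
    intro g
    refine ⟨g ∘ₗ f0, ?_⟩
    apply LinearMap.ext
    intro x
    show g (f0 (x : V)) = g x
    rw [hf0]
  have e2 : Nat.card {f : V →ₗ[F] U // ∀ x : U, f x = x} = Nat.card (LinearMap.ker L) := by
    refine Nat.card_congr ⟨fun f => ⟨f.1 - f0, ?_⟩, fun k => ⟨k.1 + f0, ?_⟩, ?_, ?_⟩
    · rw [LinearMap.mem_ker]
      apply LinearMap.ext
      intro x
      show f.1 (x : V) - f0 (x : V) = 0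
      rw [f.2, hf0, sub_self]
    · intro x
      have h := LinearMap.congr_fun (LinearMap.mem_ker.1 k.2) x
      have h' : k.1 (x : V) = 0 := h
      rw [LinearMap.add_apply, h', hf0, zero_add]
    · intro f
      apply Subtype.ext
      exact sub_add_cancel _ _
    · intro k
      apply Subtype.ext
      exact add_sub_cancel_right _ _
  rw [e2, Module.natCard_eq_pow_finrank (K := F), Nat.card_eq_fintype_card]
  congr 1
  have h1 := LinearMap.finrank_range_add_finrank_ker L
  rw [LinearMap.range_eq_top.2 hL, finrank_top, Module.finrank_linearMap, Module.finrank_linearMap] at h1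
  have h2 : finrank F U ≤ finrank F V := Submodule.finrank_le U
  rw [Nat.sub_mul]
  omega

theorem dvd_count_pairs {p : ℕ} [Fact p.Prime] [CharP F p] {r m : ℕ} (hr : r.Prime) (hrp : r ≠ p) (hm : m ≤ finrank F V)
    (h : r ∣ Nat.card {P : Submodule F V × Submodule F V // IsCompl P.1 P.2 ∧ finrank F P.1 = m}) :
    ∃ j < m, r ∣ Fintype.card F ^ (finrank F V - j) - 1 := by
  classical
  haveI : Finite V := Module.finite_of_finite F
  haveI : Finite (Submodule F V) := Finite.of_injective (fun W : Submodule F V => (W : Set V)) SetLike.coe_injective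
  haveI : Fintype {W : Submodule F V // finrank F W = m} := Fintype.ofFinite _
  have h1 : Nat.card {P : Submodule F V × Submodule F V // IsCompl P.1 P.2 ∧ finrank F P.1 = m} =
      Nat.card (Σ W : {W : Submodule F V // finrank F W = m}, {U : Submodule F V // IsCompl W.1 U}) := by
    refine Nat.card_congr ⟨fun P => ⟨⟨P.1.1, P.2.2⟩, ⟨P.1.2, P.2.1⟩⟩, fun x => ⟨(x.1.1, x.2.1), x.2.2, x.1.2⟩, fun P => rfl, fun x => rfl⟩
  have h2 : ∀ W : {W : Submodule F V // finrank F W = m}, Nat.card {U : Submodule F V // IsCompl W.1 U} = Fintype.card F ^ ((finrank F V - m) * m) := by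
    intro W
    rw [card_compl, W.2]
  rw [h1, Nat.card_sigma, Finset.sum_congr rfl (fun W _ => h2 W), Finset.sum_const, Finset.card_univ, smul_eq_mul, ← Nat.card_eq_fintype_card] at h
  rcases (Nat.Prime.dvd_mul hr).1 h with h3 | h3
  · exact dvd_count hr hm h3
  · exfalso
    have h4 := hr.dvd_of_dvd_pow h3
    obtain ⟨f, _, hf⟩ := FiniteField.card F p
    rw [hf] at h4
    exact hrp ((Nat.prime_dvd_prime_iff_eq hr Fact.out).1 (hr.dvd_of_dvd_pow h4))

/-- `p` does not divide `q ^ j - 1` -/
lemma not_dvd_char {p : ℕ} [hp : Fact p.Prime] [CharP F p] {j : ℕ} (hj : 0 < j) : ¬ p ∣ Fintype.card F ^ j - 1 := by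
  obtain ⟨f, _, hf⟩ := FiniteField.card F p
  intro h
  have h1 : p ∣ Fintype.card F ^ j := by
    rw [hf, ← pow_mul]
    exact dvd_pow_self p (Nat.mul_pos f.2 hj).ne'
  have h2 : 1 ≤ Fintype.card F ^ j := Nat.one_le_pow _ _ Fintype.card_pos
  have h3 : p ∣ 1 := by
    have := (Nat.dvd_sub h1 h)
    rwa [Nat.sub_sub_self h2] at this
  exact hp.out.one_lt.ne' (Nat.dvd_one.1 h3)

end CfsgLib.Semi29
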