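import Cfsg.Agent.LibSemi29d

/-! Invariant subspaces of elements of prime order of `PSL_n(q)` (seat helper29). -/

namespace CfsgLib.Semi29

open Module Polynomial

variable {F : Type*} [Field F]

lemma norm_root {r : ℕ} (hr : r ≠ 0) (c : F) :
    Algebra.norm F (AdjoinRoot.root (X ^ r - C c : F[X])) = (-1) ^ (r + 1) * c := by
  have hmon : (X ^ r - C c : F[X]).Monic := monic_X_pow_sub_C c hr
  let pb := AdjoinRoot.powerBasis' hmon
  have hdim : pb.dim = r := by
    rw [AdjoinRoot.powerBasis'_dim, natDegree_X_pow_sub_C]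
  have h1 := Algebra.PowerBasis.norm_gen_eq_coeff_zero_minpoly pb
  rw [hdim, AdjoinRoot.powerBasis'_gen, AdjoinRoot.minpoly_root hmon.ne_zero, hmon.leadingCoeff, inv_one, C_1, mul_one,
    coeff_sub, coeff_X_pow, if_neg hr.symm, coeff_C_zero] at h1
  rw [h1, pow_succ]; ring

theorem det_of_irr {V : Type*} [AddCommGroup V] [Module F V] [FiniteDimensional F V] {r : ℕ} (hr : r ≠ 0) {c : F}
    (hirr : Irreducible (X ^ r - C c : F[X])) (T : V →ₗ[F] V) (hT : T ^ r = c • 1) :
    LinearMap.det T = ((-1) ^ (r + 1) * c) ^ (finrank F V / r) := by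
  haveI := Fact.mk hirr
  have hT0 : aeval T (X ^ r - C c : F[X]) = 0 := by
    rw [map_sub, map_pow, aeval_X, aeval_C, hT, Algebra.algebraMap_eq_smul_one, sub_self]
  let φ : AdjoinRoot (X ^ r - C c : F[X]) →+* Module.End F V :=
    Ideal.Quotient.lift (Ideal.span {(X ^ r - C c : F[X])}) ((aeval T : F[X] →ₐ[F] Module.End F V) : F[X] →+* Module.End F V) (by
      intro a ha
      obtain ⟨g, rfl⟩ := Ideal.mem_span_singleton.1 ha
      show aeval T ((X ^ r - C c) * g) = 0
      rw [map_mul, hT0, zero_mul])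
  have hφmk : ∀ g : F[X], φ (AdjoinRoot.mk _ g) = aeval T g := fun g => Ideal.Quotient.lift_mk _ _ _
  letI iK : Module (AdjoinRoot (X ^ r - C c : F[X])) V := Module.compHom V φ
  have hsm : ∀ (k : AdjoinRoot (X ^ r - C c : F[X])) (v : V), k • v = φ k v := fun _ _ => rfl
  have hC : ∀ a : F, φ (algebraMap F _ a) = algebraMap F (Module.End F V) a := by
    intro a
    have h1 : algebraMap F (AdjoinRoot (X ^ r - C c : F[X])) a = AdjoinRoot.mk _ (C a) := rfl
    rw [h1, hφmk, aeval_C]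
  haveI iT : IsScalarTower F (AdjoinRoot (X ^ r - C c : F[X])) V := by
    refine ⟨fun a k v => ?_⟩
    rw [hsm, hsm, Algebra.smul_def, map_mul, hC, Module.End.mul_apply, Module.algebraMap_end_apply]
  haveI : FiniteDimensional (AdjoinRoot (X ^ r - C c : F[X])) V := Module.Finite.of_restrictScalars_finite F _ V
  have hdimK : finrank F (AdjoinRoot (X ^ r - C c : F[X])) = r := by
    rw [(AdjoinRoot.powerBasis' (monic_X_pow_sub_C c hr)).finrank, AdjoinRoot.powerBasis'_dim, natDegree_X_pow_sub_C]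
  have hdim : finrank F V / r = finrank (AdjoinRoot (X ^ r - C c : F[X])) V := by
    rw [← Module.finrank_mul_finrank F (AdjoinRoot (X ^ r - C c : F[X])) V, hdimK, Nat.mul_div_cancel_left _ (Nat.pos_of_ne_zero hr)]
  let f : V →ₗ[AdjoinRoot (X ^ r - C c : F[X])] V := (AdjoinRoot.root (X ^ r - C c : F[X])) • LinearMap.id
  have hf : f.restrictScalars F = T := by
    apply LinearMap.ext
    intro v
    show AdjoinRoot.root (X ^ r - C c : F[X]) • v = T v
    rw [hsm]
    have h1 : AdjoinRoot.root (X ^ r - C c : F[X]) = AdjoinRoot.mk _ X := rfl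
    rw [h1, hφmk, aeval_X]
  have h1 := LinearMap.det_restrictScalars (R := F) (S := AdjoinRoot (X ^ r - C c : F[X])) (f := f)
  rw [hf] at h1
  rw [h1, LinearMap.det_smul, LinearMap.det_id, mul_one, map_pow, norm_root hr, hdim]

lemma inv_smul {V : Type*} [AddCommGroup V] [Module F V] {T : V →ₗ[F] V} {b : F} (hb : b ≠ 0) {W : Submodule F V} : Inv (b⁻¹ • T) W ↔ Inv T W := by
  constructor
  · intro h u hu
    have h1 := W.smul_mem b (h u hu)
    rwa [LinearMap.smul_apply, smul_smul, mul_inv_cancel₀ hb, one_smul] at h1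
  · intro h u hu
    exact W.smul_mem _ (h u hu)

/-- the data of a map `T` with `T ^ r` a scalar that is an `r`-th power -/
theorem data_pow [Fintype F] {V : Type*} [AddCommGroup V] [Module F V] [FiniteDimensional F V] {p : ℕ} [Fact p.Prime] [CharP F p] {r : ℕ} [hr : Fact r.Prime] (hrp : r ≠ p)
    (T : V →ₗ[F] V) {c b : F} (hb : b ≠ 0) (hbc : b ^ r = c) (hT : T ^ r = c • 1) :
    Semi (b⁻¹ • T) ∧ Dim (b⁻¹ • T) (orderOf ((Fintype.card F : ℕ) : ZMod r)) ∧
      ∃ s, finrank F V = finrank F (Fx (b⁻¹ • T)) + s * orderOf ((Fintype.card F : ℕ) : ZMod r) := by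
  have h1 : (b⁻¹ • T) ^ r = 1 := by
    rw [_root_.smul_pow, hT, smul_smul, ← hbc, ← mul_pow, inv_mul_cancel₀ hb, one_pow, one_smul]
  have h2 : Semi (b⁻¹ • T) := semi_of_pow hr.out hrp one_ne_zero _ (by rw [h1, one_smul])
  have h3 := dim_of_pow hrp _ h1
  refine ⟨h2, h3, ?_⟩
  obtain ⟨s, hs⟩ := dims h2 h3 ⊤ (inv_top _)
  rw [top_inf_eq, finrank_top] at hs
  exact ⟨s, hs⟩

/-- maps with irreducible `X ^ r - c` -/
theorem exists_of_irred {V : Type*} [AddCommGroup V] [Module F V] [FiniteDimensional F V] {p : ℕ} [Fact p.Prime] [CharP F p] {r : ℕ} [hr : Fact r.Prime] (hrp : r ≠ p)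
    (T : V →ₗ[F] V) {c : F} (hc : c ≠ 0) (hnp : ¬ ∃ b : F, b ^ r = c) (hT : T ^ r = c • 1) :
    (∀ W, Inv T W → r ∣ finrank F W) ∧ (∀ m1 m2, r ∣ m1 → r ∣ m2 → m1 + m2 ≤ finrank F V →
      ∃ U1 U2 : Submodule F V, Inv T U1 ∧ Inv T U2 ∧ U1 ⊓ U2 = ⊥ ∧ finrank F U1 = m1 ∧ finrank F U2 = m2) ∧ Semi T := by
  push Not at hnp
  have hirr : Irreducible (X ^ r - C c : F[X]) := X_pow_sub_C_irreducible_of_prime hr.out hnp
  have hss : Semi T := semi_of_pow hr.out hrp hc T hT
  have hfx : Fx T = ⊥ := by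
    rw [eq_bot_iff]
    intro u hu
    have h1 := mem_Fx.1 hu
    have h2 : ∀ k, (T ^ k) u = u := by
      intro k
      induction k with
      | zero => simp
      | succ k ih => rw [pow_succ, Module.End.mul_apply, h1, ih]
    have h3 := h2 r
    rw [hT, LinearMap.smul_apply, Module.End.one_apply] at h3
    by_contra h0
    have h4 : (c - 1) • u = 0 := by rw [sub_smul, one_smul, h3, sub_self]
    rcases smul_eq_zero.1 h4 with h5 | h5
    · exact hnp 1 (by rw [one_pow]; exact (sub_eq_zero.1 h5).symm)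
    · exact h0 ((Submodule.mem_bot F).2 h5)
  refine ⟨?_, ?_, hss⟩
  · intro W hW
    exact block_dvd hss r _ W rfl hW (fun R _ hR => dim_of_irred hirr T hT R hR)
  · rintro m1 m2 ⟨k1, rfl⟩ ⟨k2, rfl⟩ h
    obtain ⟨U1, U2, h1, h2, h3, h4, h5⟩ := exists_dims hss (e := r) (fun R hR _ => dim_of_irred hirr T hT R hR) 0 0 k1 k2 (by omega) (by
      rw [hfx, finrank_bot, zero_add]
      refine le_trans (le_of_eq ?_) h
      ring)
    exact ⟨U1, U2, h1, h2, h3, by rw [h4]; ring, by rw [h5]; ring⟩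

/-- `r`-th powers: the sufficient condition for `i = 1` -/
theorem pow_of_cond [Fintype F] {p : ℕ} [Fact p.Prime] [CharP F p] {r n : ℕ} [hr : Fact r.Prime] (hrp : r ≠ p) (hn : 0 < n)
    (hcond : padicValNat r n ≤ padicValNat r (Fintype.card F - 1) ∧ (r = 2 → Even n → Fintype.card F % 4 = 1))
    (x : Matrix.SpecialLinearGroup (Fin n) F) {c : F}
    (h : ((x ^ r : Matrix.SpecialLinearGroup (Fin n) F) : Matrix (Fin n) (Fin n) F) = c • (1 : Matrix (Fin n) (Fin n) F)) :
    ∃ b : F, b ^ r = c := by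
  classical
  by_contra hnp
  have hc : c ≠ 0 := by
    rintro rfl
    exact hnp ⟨0, zero_pow hr.out.ne_zero⟩
  have hT := toLin_pow x h
  have hdvd := (exists_of_irred hrp _ hc hnp hT).1 ⊤ (inv_top _)
  rw [finrank_top, Module.finrank_fin_fun] at hdvd
  have hnp' := hnp
  push Not at hnp'
  have hirr : Irreducible (X ^ r - C c : F[X]) := X_pow_sub_C_irreducible_of_prime hr.out hnp'
  have hdet := det_of_irr hr.out.ne_zero hirr _ hT
  rw [LinearMap.det_toLin', x.2, Module.finrank_fin_fun] at hdet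
  obtain ⟨N, hN⟩ := hdvd
  have hN0 : N ≠ 0 := by rintro rfl; omega
  rw [hN, Nat.mul_div_cancel_left _ hr.out.pos] at hdet
  have hval : padicValNat r n = padicValNat r N + 1 := by
    rw [hN, padicValNat.mul hr.out.ne_zero hN0, padicValNat_self, add_comm]
  rcases hr.out.eq_two_or_odd' with h2 | h2
  · subst h2
    have heven : Even n := ⟨N, by rw [hN]; ring⟩
    have hq4 := hcond.2 rfl heven
    -- `-1` is a square
    obtain ⟨s, hs⟩ : ∃ s : F, s ^ 2 = -1 := by
      have : IsSquare (-1 : F) := by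
        rw [FiniteField.isSquare_neg_one_iff]
        omega
      obtain ⟨s, hs⟩ := this
      exact ⟨s, by rw [sq]; exact hs.symm⟩
    have h3 : padicValNat 2 (Fintype.card F - 1) ≤ padicValNat 2 N := by
      apply pw1 Nat.prime_two (c := (-1) ^ (2 + 1) * c)
      · exact mul_ne_zero (pow_ne_zero _ (neg_ne_zero.2 one_ne_zero)) hc
      · rintro ⟨b, hb⟩
        apply hnp
        refine ⟨s * b, ?_⟩
        rw [mul_pow, hs, hb]; ring
      · exact hN0
      · exact hdet.symm
    have := hcond.1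
    omega
  · have hr1 : (-1 : F) ^ (r + 1) = 1 := Even.neg_one_pow (by
      obtain ⟨k, hk⟩ := h2
      exact ⟨k + 1, by omega⟩)
    rw [hr1, one_mul] at hdet
    have h3 := pw1 hr.out hc hnp hN0 hdet.symm
    have := hcond.1
    omega

/-- the general sufficient condition: two independent invariant subspaces of dimensions `m`, `m'` (`m' = 0` or `m' = m`) -/
theorem forward [Fintype F] {p : ℕ} [Fact p.Prime] [CharP F p] {r n : ℕ} [hr : Fact r.Prime] (hrp : r ≠ p) (hn : 0 < n) (m m' : ℕ)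
    (hm' : m' = 0 ∨ m' = m) (hmn : m + m' ≤ n)
    (hcond : ((orderOf ((Fintype.card F : ℕ) : ZMod r) = 1 ∧ (r ∣ m ∨ (padicValNat r n ≤ padicValNat r (Fintype.card F - 1) ∧ (r = 2 → Even n → Fintype.card F % 4 = 1)))) ∨
       (2 ≤ orderOf ((Fintype.card F : ℕ) : ZMod r) ∧ orderOf ((Fintype.card F : ℕ) : ZMod r) ≤ m ∧
        m % orderOf ((Fintype.card F : ℕ) : ZMod r) + m' % orderOf ((Fintype.card F : ℕ) : ZMod r) ≤ n % orderOf ((Fintype.card F : ℕ) : ZMod r))))
    (x : Matrix.SpecialLinearGroup (Fin n) F) {c : F}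
    (h : ((x ^ r : Matrix.SpecialLinearGroup (Fin n) F) : Matrix (Fin n) (Fin n) F) = c • (1 : Matrix (Fin n) (Fin n) F)) :
    ∃ U1 U2 : Submodule F (Fin n → F), Inv (Matrix.toLin' (x : Matrix (Fin n) (Fin n) F)) U1 ∧ Inv (Matrix.toLin' (x : Matrix (Fin n) (Fin n) F)) U2 ∧
      U1 ⊓ U2 = ⊥ ∧ finrank F U1 = m ∧ finrank F U2 = m' := by
  classical
  have hT := toLin_pow x h
  obtain ⟨T, hTdef⟩ : ∃ T, T = Matrix.toLin' (x : Matrix (Fin n) (Fin n) F) := ⟨_, rfl⟩
  rw [← hTdef] at hT ⊢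
  have hc : c ≠ 0 := by
    rintro rfl
    rw [zero_smul] at h
    have h1 := congrArg Matrix.det h
    haveI : Nonempty (Fin n) := Fin.pos_iff_nonempty.1 hn
    rw [(x ^ r).2, Matrix.det_zero] at h1
    exact one_ne_zero h1
  have key : ∀ b : F, b ^ r = c → orderOf ((Fintype.card F : ℕ) : ZMod r) = 1 ∨ (2 ≤ orderOf ((Fintype.card F : ℕ) : ZMod r) ∧ orderOf ((Fintype.card F : ℕ) : ZMod r) ≤ m ∧
        m % orderOf ((Fintype.card F : ℕ) : ZMod r) + m' % orderOf ((Fintype.card F : ℕ) : ZMod r) ≤ n % orderOf ((Fintype.card F : ℕ) : ZMod r)) →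
      ∃ U1 U2 : Submodule F (Fin n → F), Inv T U1 ∧ Inv T U2 ∧ U1 ⊓ U2 = ⊥ ∧ finrank F U1 = m ∧ finrank F U2 = m' := by
    intro b hbc hc2
    have hb : b ≠ 0 := by
      rintro rfl
      rw [zero_pow hr.out.ne_zero] at hbc
      exact hc hbc.symm
    obtain ⟨h1, h2, s, hs⟩ := data_pow hrp T hb hbc hT
    rw [Module.finrank_fin_fun] at hs
    obtain ⟨i, hi⟩ : ∃ i, i = orderOf ((Fintype.card F : ℕ) : ZMod r) := ⟨_, rfl⟩
    obtain ⟨f, hf⟩ : ∃ f, f = finrank F (Fx (b⁻¹ • T)) := ⟨_, rfl⟩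
    rw [← hi] at hs h2 hc2
    rw [← hf] at hs
    obtain ⟨a1, a2, k1, k2, e1, e2, e3, e4⟩ : ∃ a1 a2 k1 k2, a1 + a2 ≤ f ∧ k1 + k2 ≤ s ∧ m = a1 + k1 * i ∧ m' = a2 + k2 * i := by
      rcases hc2 with h3 | ⟨h3, h4, h5⟩
      · rw [h3] at hs ⊢
        refine ⟨min m f, min m' (f - min m f), m - min m f, m' - min m' (f - min m f), ?_, ?_, ?_, ?_⟩ <;> omega
      · have hdm := Nat.div_add_mod' m i
        have hdn := Nat.div_add_mod' n i
        have hfi : n % i ≤ f := by
          rw [hs, Nat.add_mul_mod_self_right]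
          exact Nat.mod_le _ _
        rcases hm' with h6 | h6
        · subst h6
          rcases Nat.le_total (m / i) s with h7 | h7
          · exact ⟨m % i, 0, m / i, 0, by omega, by omega, by omega, by omega⟩
          · refine ⟨m - s * i, 0, s, 0, by omega, by omega, ?_, by omega⟩
            have : s * i ≤ m / i * i := Nat.mul_le_mul_right i h7
            omega
        · subst h6
          rcases Nat.le_total (m' / i + m' / i) s with h7 | h7
          · exact ⟨m' % i, m' % i, m' / i, m' / i, by omega, by omega, by omega, by omega⟩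
          · obtain ⟨k1, hk1⟩ : ∃ k1, k1 = min (m' / i) s := ⟨_, rfl⟩
            have hk1a : k1 ≤ m' / i := by rw [hk1]; exact min_le_left _ _
            have hk1s : k1 ≤ s := by rw [hk1]; exact min_le_right _ _
            have hk2a : s - k1 ≤ m' / i := by omega
            have h8 : k1 * i ≤ m' / i * i := Nat.mul_le_mul_right i hk1a
            have h9 : (s - k1) * i ≤ m' / i * i := Nat.mul_le_mul_right i hk2a
            have h10 : k1 * i + (s - k1) * i = s * i := by rw [← add_mul, Nat.add_sub_cancel' hk1s]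
            exact ⟨m' - k1 * i, m' - (s - k1) * i, k1, s - k1, by omega, by omega, by omega, by omega⟩
    obtain ⟨U1, U2, h6, h7, h8, h9, h10⟩ := exists_dims h1 h2 a1 a2 k1 k2 (by rw [← hf]; exact e1) (by
      rw [← hf, Module.finrank_fin_fun, hs]
      have := Nat.mul_le_mul_right i e2
      omega)
    exact ⟨U1, U2, (inv_smul hb).1 h6, (inv_smul hb).1 h7, h8, by rw [h9, e3], by rw [h10, e4]⟩
  rcases hcond with ⟨h1, h2⟩ | ⟨h1, h2, h3⟩
  · by_cases hp : ∃ b : F, b ^ r = c
    · obtain ⟨b, hb⟩ := hp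
      exact key b hb (Or.inl h1)
    · rcases h2 with h2 | h2
      · have h4 : r ∣ m' := by
          rcases hm' with h5 | h5
          · rw [h5]; exact dvd_zero r
          · rw [h5]; exact h2
        exact (exists_of_irred hrp T hc hp hT).2.1 m m' h2 h4 (by rw [Module.finrank_fin_fun]; exact hmn)
      · exact absurd (pow_of_cond hrp hn h2 x h) hp
  · have hnd : ¬ r ∣ Fintype.card F - 1 := by
      intro h4
      have h5 : r ∣ Fintype.card F ^ 1 - 1 := by rwa [pow_one]
      rw [dvd_of_order hr.out Fintype.card_pos] at h5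
      have := Nat.le_of_dvd one_pos h5
      omega
    obtain ⟨b, hb⟩ := exists_root_of hr.out hnd c hc
    exact key b hb (Or.inr ⟨h1, h2, h3⟩)

end CfsgLib.Semi29
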