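import Cfsg.Agent.LibSemi29e

/-! Necessary conditions (seat helper29). -/

namespace CfsgLib.Semi29

open Module Polynomial

variable {F : Type*} [Field F]

theorem onlyif_one [Fintype F] {p : ℕ} [Fact p.Prime] [CharP F p] {r n : ℕ} [hr : Fact r.Prime] (hrp : r ≠ p) (hn : 0 < n) (m : ℕ)
    (hi : orderOf ((Fintype.card F : ℕ) : ZMod r) = 1)
    (hL : ∀ x : Matrix.SpecialLinearGroup (Fin n) F,
      (∃ c : F, ((x ^ r : Matrix.SpecialLinearGroup (Fin n) F) : Matrix (Fin n) (Fin n) F) = c • (1 : Matrix (Fin n) (Fin n) F)) →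
      (∀ c : F, (x : Matrix (Fin n) (Fin n) F) ≠ c • (1 : Matrix (Fin n) (Fin n) F)) →
      ∃ W : Submodule F (Fin n → F), finrank F ↥W = m ∧ Inv (Matrix.toLin' (x : Matrix (Fin n) (Fin n) F)) W) :
    r ∣ m ∨ (padicValNat r n ≤ padicValNat r (Fintype.card F - 1) ∧ (r = 2 → Even n → Fintype.card F % 4 = 1)) := by
  classical
  have hrq : r ∣ Fintype.card F - 1 := by
    have h5 : r ∣ Fintype.card F ^ 1 - 1 := by
      rw [dvd_of_order hr.out Fintype.card_pos, hi]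
    rwa [pow_one] at h5
  have hq1 : 0 < Fintype.card F - 1 := by
    have := Fintype.one_lt_card (α := F)
    omega
  -- a bad scalar gives the conclusion
  have key : r ∣ n → ∀ c : F, c ≠ 0 → (¬ ∃ b : F, b ^ r = c) → ((-1) ^ (r + 1) * c) ^ (n / r) = 1 → r ∣ m := by
    intro hrn c hc hnp hdet
    obtain ⟨x, hx⟩ := exists_irr hr.out hrn hdet
    obtain ⟨W, hW1, hW2⟩ := hL x ⟨c, hx⟩ (by
      intro a ha
      apply hnp
      refine ⟨a, ?_⟩
      rw [Matrix.SpecialLinearGroup.coe_pow, ha, _root_.smul_pow, one_pow] at hx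
      have h1 := congrFun (congrFun hx ⟨0, hn⟩) ⟨0, hn⟩
      simpa using h1)
    rw [← hW1]
    exact (exists_of_irred hrp _ hc hnp (toLin_pow x hx)).1 W hW2
  by_contra hcon
  push Not at hcon
  obtain ⟨hrm, hcon⟩ := hcon
  apply hrm
  by_cases h1 : padicValNat r n ≤ padicValNat r (Fintype.card F - 1)
  · obtain ⟨h2, h3, h4⟩ := hcon h1
    subst h2
    -- `-1` is not a square
    have hq2 : Fintype.card F % 2 = 1 := by
      obtain ⟨t, ht⟩ := hrq
      omega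
    have hq4 : Fintype.card F % 4 = 3 := by omega
    have h5 : ¬ ∃ b : F, b ^ 2 = -1 := by
      rintro ⟨b, hb⟩
      have : IsSquare (-1 : F) := ⟨b, by rw [← hb, sq]⟩
      rw [FiniteField.isSquare_neg_one_iff] at this
      exact this hq4
    refine key h3.two_dvd (-1) (neg_ne_zero.2 one_ne_zero) h5 ?_
    norm_num
  · push Not at h1
    have hrn : r ∣ n := by
      by_contra h
      rw [padicValNat.eq_zero_of_not_dvd h] at h1
      exact Nat.not_lt_zero _ h1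
    obtain ⟨N, hN⟩ := id hrn
    have hN0 : N ≠ 0 := by rintro rfl; omega
    have hval : padicValNat r n = padicValNat r N + 1 := by
      rw [hN, padicValNat.mul hr.out.ne_zero hN0, padicValNat_self, add_comm]
    have hnr : n / r = N := by rw [hN, Nat.mul_div_cancel_left _ hr.out.pos]
    obtain ⟨c, hc, hnp, hcN⟩ := pw2 (F := F) hr.out hrq hN0 (by omega)
    rcases hr.out.eq_two_or_odd' with h2 | h2
    · subst h2
      have hq2 : Fintype.card F % 2 = 1 := by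
        obtain ⟨t, ht⟩ := hrq
        omega
      have h6 : Fintype.card F % 4 = 1 ∨ Fintype.card F % 4 = 3 := by omega
      rcases h6 with h6 | h6
      · obtain ⟨s, hs⟩ : ∃ s : F, s ^ 2 = -1 := by
          have : IsSquare (-1 : F) := by
            rw [FiniteField.isSquare_neg_one_iff]
            omega
          obtain ⟨s, hs⟩ := this
          exact ⟨s, by rw [sq]; exact hs.symm⟩
        refine key hrn (-c) (neg_ne_zero.2 hc) ?_ ?_
        · rintro ⟨b, hb⟩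
          apply hnp
          refine ⟨s * b, ?_⟩
          rw [mul_pow, hs, hb]; ring
        · rw [hnr]
          have e : ((-1 : F) ^ (2 + 1) * -c) = c := by ring
          rw [e, hcN]
      · have h5 : ¬ ∃ b : F, b ^ 2 = -1 := by
          rintro ⟨b, hb⟩
          have : IsSquare (-1 : F) := ⟨b, by rw [← hb, sq]⟩
          rw [FiniteField.isSquare_neg_one_iff] at this
          exact this h6
        refine key hrn (-1) (neg_ne_zero.2 one_ne_zero) h5 ?_
        norm_num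
    · have hr1 : (-1 : F) ^ (r + 1) = 1 := Even.neg_one_pow (by
        obtain ⟨k, hk⟩ := h2
        exact ⟨k + 1, by omega⟩)
      refine key hrn c hc hnp ?_
      rw [hr1, one_mul, hnr, hcN]

/-- the element used for `i ≥ 2` -/
theorem elem_two [Fintype F] {p : ℕ} [Fact p.Prime] [CharP F p] {r n : ℕ} [hr : Fact r.Prime] (hrp : r ≠ p) (M : ℕ)
    (h2 : 2 ≤ orderOf ((Fintype.card F : ℕ) : ZMod r)) (hMn : M ≤ n)
    (hj : ∃ j < M, r ∣ Fintype.card F ^ (n - j) - 1) :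
    ∃ x : Matrix.SpecialLinearGroup (Fin n) F,
      ((x ^ r : Matrix.SpecialLinearGroup (Fin n) F) : Matrix (Fin n) (Fin n) F) = (1 : F) • (1 : Matrix (Fin n) (Fin n) F) ∧
      (∀ c : F, (x : Matrix (Fin n) (Fin n) F) ≠ c • (1 : Matrix (Fin n) (Fin n) F)) ∧
      Semi (Matrix.toLin' (x : Matrix (Fin n) (Fin n) F)) ∧
      finrank F (Fx (Matrix.toLin' (x : Matrix (Fin n) (Fin n) F))) ≤ n % orderOf ((Fintype.card F : ℕ) : ZMod r) ∧
      (∀ W, Inv (Matrix.toLin' (x : Matrix (Fin n) (Fin n) F)) W → ∃ k, finrank F W = finrank F (W ⊓ Fx (Matrix.toLin' (x : Matrix (Fin n) (Fin n) F)) : Submodule F (Fin n → F)) + k * orderOf ((Fintype.card F : ℕ) : ZMod r)) ∧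
      (M ≤ orderOf ((Fintype.card F : ℕ) : ZMod r) → n % orderOf ((Fintype.card F : ℕ) : ZMod r) < M) := by
  classical
  obtain ⟨i, hi⟩ : ∃ i, i = orderOf ((Fintype.card F : ℕ) : ZMod r) := ⟨_, rfl⟩
  obtain ⟨j, hjM, hj2⟩ := hj
  rw [dvd_of_order hr.out Fintype.card_pos, ← hi] at hj2
  rw [← hi] at h2 ⊢
  have hin : i ≤ n := (Nat.le_of_dvd (by omega) hj2).trans (Nat.sub_le _ _)
  obtain ⟨x, hx1, hx2, hx3⟩ := exists_block hrp hi.symm h2 hin
  have hxr : ((x ^ r : Matrix.SpecialLinearGroup (Fin n) F) : Matrix (Fin n) (Fin n) F) = (1 : F) • (1 : Matrix (Fin n) (Fin n) F) := by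
    rw [hx1, one_smul]; rfl
  have hT := toLin_pow x hxr
  rw [one_smul] at hT
  have hnd : ¬ r ∣ Fintype.card F - 1 := by
    intro h4
    have h5 : r ∣ Fintype.card F ^ 1 - 1 := by rwa [pow_one]
    rw [dvd_of_order hr.out Fintype.card_pos, ← hi] at h5
    have := Nat.le_of_dvd one_pos h5
    omega
  have hS : Semi (Matrix.toLin' (x : Matrix (Fin n) (Fin n) F)) := semi_of_pow hr.out hrp one_ne_zero _ (by rw [hT, one_smul])
  have hD := dim_of_pow hrp _ hT
  rw [← hi] at hD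
  refine ⟨x, hxr, ?_, hS, hx3, fun W hW => dims hS hD W hW, ?_⟩
  · intro a ha
    have hn0 : 0 < n := by omega
    have h1 : a ^ r = 1 := by
      rw [Matrix.SpecialLinearGroup.coe_pow, ha, _root_.smul_pow, one_pow] at hxr
      have h1 := congrFun (congrFun hxr ⟨0, hn0⟩) ⟨0, hn0⟩
      simpa using h1
    have h2 := pow_one_of hr.out hnd h1
    apply hx2
    apply Subtype.ext
    rw [ha, h2, one_smul]; rfl
  · intro hMi
    obtain ⟨t, ht⟩ := hj2
    have h1 : n = j + i * t := by omega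
    rw [h1, Nat.add_mul_mod_self_left, Nat.mod_eq_of_lt (by omega)]
    exact hjM

theorem onlyif_two [Fintype F] {p : ℕ} [Fact p.Prime] [CharP F p] {r n : ℕ} [hr : Fact r.Prime] (hrp : r ≠ p) (m : ℕ) (hm : 1 ≤ m)
    (h2 : 2 ≤ orderOf ((Fintype.card F : ℕ) : ZMod r)) (hmn : 2 * m ≤ n)
    (hj : ∃ j < m, r ∣ Fintype.card F ^ (n - j) - 1)
    (hL : ∀ x : Matrix.SpecialLinearGroup (Fin n) F,
      (∃ c : F, ((x ^ r : Matrix.SpecialLinearGroup (Fin n) F) : Matrix (Fin n) (Fin n) F) = c • (1 : Matrix (Fin n) (Fin n) F)) →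
      (∀ c : F, (x : Matrix (Fin n) (Fin n) F) ≠ c • (1 : Matrix (Fin n) (Fin n) F)) →
      ∃ W : Submodule F (Fin n → F), finrank F ↥W = m ∧ Inv (Matrix.toLin' (x : Matrix (Fin n) (Fin n) F)) W) :
    orderOf ((Fintype.card F : ℕ) : ZMod r) ≤ m ∧ m % orderOf ((Fintype.card F : ℕ) : ZMod r) ≤ n % orderOf ((Fintype.card F : ℕ) : ZMod r) := by
  classical
  obtain ⟨x, hx1, hx2, hx3, hx4, hx5, hx6⟩ := elem_two (F := F) (n := n) hrp m h2 (by omega) hj
  obtain ⟨i, hi⟩ : ∃ i, i = orderOf ((Fintype.card F : ℕ) : ZMod r) := ⟨_, rfl⟩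
  rw [← hi] at h2 hx4 hx5 hx6 ⊢
  obtain ⟨W, hW1, hW2⟩ := hL x ⟨1, hx1⟩ hx2
  obtain ⟨k, hk⟩ := hx5 W hW2
  have h3 : finrank F (W ⊓ Fx (Matrix.toLin' (x : Matrix (Fin n) (Fin n) F)) : Submodule F (Fin n → F)) ≤ n % i :=
    (Submodule.finrank_mono inf_le_right).trans hx4
  rw [hW1] at hk
  have hni : n % i < i := Nat.mod_lt _ (by omega)
  rcases Nat.lt_or_ge m i with h4 | h4
  · exfalso
    have h5 := hx6 h4.le
    rcases Nat.eq_zero_or_pos k with h6 | h6
    · rw [h6] at hk; omega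
    · have : i ≤ k * i := Nat.le_mul_of_pos_left i h6
      omega
  · refine ⟨h4, ?_⟩
    rw [hk, Nat.add_mul_mod_self_right]
    exact (Nat.mod_le _ _).trans h3

theorem onlyif_flag [Fintype F] {p : ℕ} [Fact p.Prime] [CharP F p] {r n : ℕ} [hr : Fact r.Prime] (hrp : r ≠ p) (m : ℕ) (hm : 1 ≤ m)
    (h2 : 2 ≤ orderOf ((Fintype.card F : ℕ) : ZMod r)) (hmn : 2 * m ≤ n)
    (hj : ∃ j < 2 * m, r ∣ Fintype.card F ^ (n - j) - 1)
    (hL : ∀ x : Matrix.SpecialLinearGroup (Fin n) F,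
      (∃ c : F, ((x ^ r : Matrix.SpecialLinearGroup (Fin n) F) : Matrix (Fin n) (Fin n) F) = c • (1 : Matrix (Fin n) (Fin n) F)) →
      (∀ c : F, (x : Matrix (Fin n) (Fin n) F) ≠ c • (1 : Matrix (Fin n) (Fin n) F)) →
      ∃ U W : Submodule F (Fin n → F), U ≤ W ∧ finrank F ↥U = m ∧ finrank F ↥W = n - m ∧
        Inv (Matrix.toLin' (x : Matrix (Fin n) (Fin n) F)) U ∧ Inv (Matrix.toLin' (x : Matrix (Fin n) (Fin n) F)) W) :
    orderOf ((Fintype.card F : ℕ) : ZMod r) ≤ m ∧ 2 * (m % orderOf ((Fintype.card F : ℕ) : ZMod r)) ≤ n % orderOf ((Fintype.card F : ℕ) : ZMod r) := by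
  classical
  obtain ⟨x, hx1, hx2, hx3, hx4, hx5, hx6⟩ := elem_two (F := F) (n := n) hrp (2 * m) h2 hmn hj
  obtain ⟨i, hi⟩ : ∃ i, i = orderOf ((Fintype.card F : ℕ) : ZMod r) := ⟨_, rfl⟩
  rw [← hi] at h2 hx4 hx5 hx6 ⊢
  obtain ⟨U, W, hUW, hU1, hW1, hU2, hW2⟩ := hL x ⟨1, hx1⟩ hx2
  obtain ⟨T, hTdef⟩ : ∃ T, T = Matrix.toLin' (x : Matrix (Fin n) (Fin n) F) := ⟨_, rfl⟩
  rw [← hTdef] at hx3 hx4 hx5 hU2 hW2
  obtain ⟨W', hW3, hW4⟩ := hx3 W hW2
  have hW5 : finrank F W' = m := by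
    have := Submodule.finrank_add_eq_of_isCompl hW4
    rw [Module.finrank_fin_fun, hW1] at this
    omega
  have hUW' : U ⊓ W' = ⊥ := by
    rw [eq_bot_iff, ← hW4.inf_eq_bot]
    exact inf_le_inf_right _ hUW
  obtain ⟨k, hk⟩ := hx5 U hU2
  obtain ⟨k', hk'⟩ := hx5 W' hW3
  have h3 : finrank F (U ⊓ Fx T : Submodule F (Fin n → F)) + finrank F (W' ⊓ Fx T : Submodule F (Fin n → F)) ≤ n % i := by
    refine le_trans ?_ hx4
    have h4 : (U ⊓ Fx T) ⊓ (W' ⊓ Fx T) = ⊥ := by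
      rw [eq_bot_iff, ← hUW']
      exact inf_le_inf inf_le_left inf_le_left
    rw [← finrank_add h4 rfl]
    exact Submodule.finrank_mono (sup_le inf_le_right inf_le_right)
  rw [hU1] at hk
  rw [hW5] at hk'
  have hni : n % i < i := Nat.mod_lt _ (by omega)
  obtain ⟨a, ha⟩ : ∃ a, a = finrank F (U ⊓ Fx T : Submodule F (Fin n → F)) := ⟨_, rfl⟩
  obtain ⟨a', ha'⟩ : ∃ a, a = finrank F (W' ⊓ Fx T : Submodule F (Fin n → F)) := ⟨_, rfl⟩
  rw [← ha] at hk h3
  rw [← ha'] at hk' h3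
  have h7 : m % i = a := by rw [hk, Nat.add_mul_mod_self_right, Nat.mod_eq_of_lt (by omega)]
  have h8 : m % i = a' := by
    conv_lhs => rw [hk']
    rw [Nat.add_mul_mod_self_right, Nat.mod_eq_of_lt (by omega)]
  rcases Nat.lt_or_ge m i with h4 | h4
  · exfalso
    rw [Nat.mod_eq_of_lt h4] at h7 h8
    have h5 := hx6 (by omega)
    omega
  · exact ⟨h4, by omega⟩

end CfsgLib.Semi29
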