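import Cfsg.Agent.LibSemi29f
import Cfsg.Agent.LibNil29e

/-! Invariant pairs of complementary subspaces of nilpotent maps (seat helper29). -/

namespace CfsgLib.Semi29

open Module CfsgLib.Nil29

lemma exists_subset {ι : Type} [DecidableEq ι] (s : ι → ℕ) (S : Finset ι) : ∀ ν : Multiset ℕ, ν ≤ S.val.map s → ∃ T ⊆ S, T.val.map s = ν := by
  induction S using Finset.induction_on with
  | empty =>
    intro ν h
    refine ⟨∅, le_rfl, ?_⟩
    have : ν = 0 := by
      rw [Finset.empty_val, Multiset.map_zero] at h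
      exact Multiset.le_zero.1 h
    rw [this]; rfl
  | insert a S ha ih =>
    intro ν h
    rw [Finset.insert_val_of_notMem ha, Multiset.map_cons] at h
    by_cases hm : s a ∈ ν
    · obtain ⟨ν', rfl⟩ := Multiset.exists_cons_of_mem hm
      obtain ⟨T, hT1, hT2⟩ := ih ν' ((Multiset.cons_le_cons_iff _).1 h)
      refine ⟨insert a T, Finset.insert_subset_insert a hT1, ?_⟩
      rw [Finset.insert_val_of_notMem (fun h' => ha (hT1 h')), Multiset.map_cons, hT2]
    · obtain ⟨T, hT1, hT2⟩ := ih ν ((Multiset.le_cons_of_notMem hm).1 h)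
      exact ⟨T, hT1.trans (Finset.subset_insert a S), hT2⟩

/-- splitting a Jordan decomposition -/
theorem JT_split {F V : Type*} [Field F] [AddCommGroup V] [Module F V] [FiniteDimensional F V] {N : V →ₗ[F] V} {μ ν : Multiset ℕ}
    (h : JT N ⊤ μ) (hν : ν ≤ μ) : ∃ U W : Submodule F V, IsCompl U W ∧ finrank F U = ν.sum ∧ (∀ u ∈ U, N u ∈ U) ∧ (∀ u ∈ W, N u ∈ W) := by
  classical
  obtain ⟨ι, _, s, b, h1, h2, h3, h4, h5⟩ := h
  rw [← h5] at hν
  obtain ⟨T, -, hT⟩ := exists_subset s Finset.univ ν hν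
  have hinv : ∀ A : Set ι, ∀ u ∈ Submodule.span F (b '' {p | p.1 ∈ A}), N u ∈ Submodule.span F (b '' {p | p.1 ∈ A}) := by
    intro A
    have h6 : Submodule.span F (b '' {p | p.1 ∈ A}) ≤ (Submodule.span F (b '' {p | p.1 ∈ A})).comap N := by
      rw [Submodule.span_le]
      rintro _ ⟨⟨i, j⟩, hi, rfl⟩
      show N (b ⟨i, j⟩) ∈ Submodule.span F (b '' {p | p.1 ∈ A})
      rw [h4]
      split_ifs with h7
      · exact Submodule.subset_span ⟨⟨i, ⟨j + 1, h7⟩⟩, hi, rfl⟩
      · exact Submodule.zero_mem _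
    intro u hu
    exact h6 hu
  refine ⟨Submodule.span F (b '' {p | p.1 ∈ (T : Set ι)}), Submodule.span F (b '' {p | p.1 ∈ ((T : Set ι))ᶜ}), ⟨?_, ?_⟩, ?_, hinv _, hinv _⟩
  · apply h2.disjoint_span_image
    rw [Set.disjoint_left]
    intro p hp hp2
    exact hp2 hp
  · rw [codisjoint_iff, ← Submodule.span_union, ← Set.image_union]
    have h6 : {p : Σ i, Fin (s i) | p.1 ∈ (T : Set ι)} ∪ {p | p.1 ∈ ((T : Set ι))ᶜ} = Set.univ := by
      ext p
      simp only [Set.mem_union, Set.mem_ofPred_eq, Set.mem_compl_iff, Set.mem_univ, iff_true]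
      exact em _
    rw [h6, Set.image_univ, h3]
  · have h6 : b '' {p | p.1 ∈ (T : Set ι)} = Set.range (fun p : {p : Σ i, Fin (s i) // p.1 ∈ T} => b p.1) := by
      ext v
      constructor
      · rintro ⟨p, hp, rfl⟩
        exact ⟨⟨p, hp⟩, rfl⟩
      · rintro ⟨⟨p, hp⟩, rfl⟩
        exact ⟨p, hp, rfl⟩
    have hli : LinearIndependent F (fun p : {p : Σ i, Fin (s i) // p.1 ∈ T} => b p.1) := h2.comp _ Subtype.val_injective
    rw [h6, finrank_span_eq_card hli, Fintype.card_subtype]
    have hcard : (Finset.univ.filter (fun p : Σ i, Fin (s i) => p.1 ∈ T)) = T.sigma (fun i => (Finset.univ : Finset (Fin (s i)))) := by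
      ext p
      simp
    rw [hcard, Finset.card_sigma, ← hT]
    simp only [Finset.card_univ, Fintype.card_fin]
    rfl

/-- partitions into parts of size at most two -/
theorem part_two {n m : ℕ} (hmn : 2 * m < n) :
    (∀ μ : Multiset ℕ, (∀ a ∈ μ, 0 < a ∧ a ≤ 2) → μ.sum = n → ∃ ν : Multiset ℕ, ν ≤ μ ∧ ν.sum = m) ↔ (Odd n ∨ Even m) := by
  constructor
  · intro h
    by_contra hcon
    push Not at hcon
    rw [Nat.not_odd_iff_even, Nat.not_even_iff_odd] at hcon
    obtain ⟨⟨k, hk⟩, hm⟩ := hcon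
    obtain ⟨ν, h1, h2⟩ := h (Multiset.replicate k 2) (by
      intro a ha
      rw [Multiset.eq_of_mem_replicate ha]
      omega) (by rw [Multiset.sum_replicate, smul_eq_mul]; omega)
    have h3 : ν = Multiset.replicate ν.card 2 := by
      rw [Multiset.eq_replicate]
      exact ⟨rfl, fun a ha => Multiset.eq_of_mem_replicate (Multiset.mem_of_le h1 ha)⟩
    rw [h3, Multiset.sum_replicate, smul_eq_mul] at h2
    rw [← h2] at hm
    exact (Nat.not_odd_iff_even.2 (even_two.mul_left _)) hm
  · intro h μ hμ hs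
    have h1 : ∀ μ : Multiset ℕ, (∀ a ∈ μ, 0 < a ∧ a ≤ 2) → ∃ a b, μ = Multiset.replicate a 2 + Multiset.replicate b 1 := by
      intro μ
      induction μ using Multiset.induction_on with
      | empty => intro _; exact ⟨0, 0, rfl⟩
      | cons c μ ih =>
        intro hc
        obtain ⟨a, b, hab⟩ := ih (fun x hx => hc x (Multiset.mem_cons_of_mem hx))
        have h2 := hc c (Multiset.mem_cons_self c μ)
        have h3 : c = 1 ∨ c = 2 := by omega
        rcases h3 with h3 | h3
        · refine ⟨a, b + 1, ?_⟩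
          rw [hab, h3, Multiset.replicate_succ, Multiset.add_cons]
        · refine ⟨a + 1, b, ?_⟩
          rw [hab, h3, Multiset.replicate_succ, Multiset.cons_add]
    obtain ⟨a, b, rfl⟩ := h1 μ hμ
    rw [Multiset.sum_add, Multiset.sum_replicate, Multiset.sum_replicate, smul_eq_mul, smul_eq_mul] at hs
    have h2 : ∃ u v, u ≤ a ∧ v ≤ b ∧ u * 2 + v * 1 = m := by
      have hpar : (n % 2 = 1 ∨ m % 2 = 0) := by
        rcases h with h | h
        · left; exact Nat.odd_iff.1 h
        · right; exact Nat.even_iff.1 h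
      rcases Nat.lt_or_ge (2 * a) m with h3 | h3
      · exact ⟨a, m - 2 * a, le_rfl, by omega, by omega⟩
      · refine ⟨m / 2, m % 2, by omega, ?_, by omega⟩
        rcases hpar with h4 | h4 <;> omega
    obtain ⟨u, v, hu, hv, huv⟩ := h2
    refine ⟨Multiset.replicate u 2 + Multiset.replicate v 1, ?_, ?_⟩
    · exact add_le_add ((Multiset.replicate_le_replicate 2).2 hu) ((Multiset.replicate_le_replicate 1).2 hv)
    · rw [Multiset.sum_add, Multiset.sum_replicate, Multiset.sum_replicate, smul_eq_mul, smul_eq_mul]; exact huv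

/-- elements of order `p` on pairs of complementary subspaces -/
theorem pairs_char {F : Type*} [Field F] [Fintype F] {p : ℕ} [Fact p.Prime] [CharP F p] (n m : ℕ) (hmn : m ≤ n) (hn : 0 < n) :
    (∀ x : Matrix.SpecialLinearGroup (Fin n) F,
      (∃ c : F, ((x ^ p : Matrix.SpecialLinearGroup (Fin n) F) : Matrix (Fin n) (Fin n) F) = c • (1 : Matrix (Fin n) (Fin n) F)) →
      (∀ c : F, (x : Matrix (Fin n) (Fin n) F) ≠ c • (1 : Matrix (Fin n) (Fin n) F)) →
      ∃ U W : Submodule F (Fin n → F), IsCompl U W ∧ finrank F ↥U = m ∧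
        Inv (Matrix.toLin' (x : Matrix (Fin n) (Fin n) F)) U ∧ Inv (Matrix.toLin' (x : Matrix (Fin n) (Fin n) F)) W) ↔
    (∀ μ : Multiset ℕ, (∀ a ∈ μ, 0 < a ∧ a ≤ p) → μ.sum = n → ∃ ν : Multiset ℕ, ν ≤ μ ∧ ν.sum = m) := by
  classical
  constructor
  · intro hL μ hμ hs
    by_cases h1 : ∀ a ∈ μ, a ≤ 1
    · have h2 : μ = Multiset.replicate n 1 := by
        have h3 : μ = Multiset.replicate μ.card 1 := by
          rw [Multiset.eq_replicate]
          refine ⟨rfl, fun a ha => ?_⟩
          have := (hμ a ha).1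
          have := h1 a ha
          omega
        rw [h3, Multiset.sum_replicate, smul_eq_mul, mul_one] at hs
        rw [h3, hs]
      refine ⟨Multiset.replicate m 1, ?_, ?_⟩
      · rw [h2]; exact (Multiset.replicate_le_replicate 1).2 hmn
      · rw [Multiset.sum_replicate, smul_eq_mul, mul_one]
    · obtain ⟨x, hx1, hx2⟩ := exists_unipotent (F := F) p n μ hμ hs
      obtain ⟨N, hN⟩ : ∃ N, N = Matrix.toLin' (x : Matrix (Fin n) (Fin n) F) - LinearMap.id := ⟨_, rfl⟩
      rw [← hN] at hx1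
      obtain ⟨U, W, hUW, hU1, hU, hW⟩ := hL x ⟨1, by rw [hx2, one_smul]; rfl⟩ (by
        intro c hc
        have hc1 : c ^ p = 1 := by
          have h3 : ((x ^ p : Matrix.SpecialLinearGroup (Fin n) F) : Matrix (Fin n) (Fin n) F) = 1 := by rw [hx2]; rfl
          rw [Matrix.SpecialLinearGroup.coe_pow, hc, _root_.smul_pow, one_pow] at h3
          have h4 := congrFun (congrFun h3 ⟨0, hn⟩) ⟨0, hn⟩
          simpa using h4
        have hc2 : c = 1 := by
          apply frobenius_inj F p
          show c ^ p = 1 ^ p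
          rw [hc1, one_pow]
        have hN0 : N = 0 := by
          rw [hN, hc, hc2, one_smul, Matrix.toLin'_one, sub_self]
        apply h1
        have h3 := hx1.finrank_map 1
        rw [hN0, pow_one, Submodule.map_zero, finrank_bot] at h3
        intro a ha
        by_contra h4
        push Not at h4
        have h5 : a - 1 ≤ CfsgLib.Nil29.tsum μ 1 := by
          unfold CfsgLib.Nil29.tsum
          exact Multiset.single_le_sum (fun _ _ => Nat.zero_le _) _ (Multiset.mem_map.2 ⟨a, ha, rfl⟩)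
        omega)
      have hNU : ∀ W : Submodule F (Fin n → F), Inv (Matrix.toLin' (x : Matrix (Fin n) (Fin n) F)) W → ∀ w ∈ W, N w ∈ W := by
        intro W hW w hw
        rw [hN, LinearMap.sub_apply]
        exact W.sub_mem (hW w hw) hw
      have hNp : N ^ p = 0 := by
        apply LinearMap.range_eq_bot.1
        have h3 := hx1.finrank_map p
        rw [tsum_eq_zero μ p (fun a ha => (hμ a ha).2)] at h3
        rw [LinearMap.range_eq_map]
        exact Submodule.finrank_eq_zero.1 h3
      obtain ⟨ν, hν⟩ := exists_JT (strN N _ U rfl (hNU U hU) ⟨p, fun w _ => by rw [hNp]; rfl⟩)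
      obtain ⟨κ, hκ⟩ := exists_JT (strN N _ W rfl (hNU W hW) ⟨p, fun w _ => by rw [hNp]; rfl⟩)
      have h3 := hν.sup hκ hUW.disjoint
      rw [hUW.sup_eq_top] at h3
      have h4 := h3.unique hx1
      exact ⟨ν, by rw [← h4]; exact Multiset.le_add_right ν κ, by rw [hν.sum, hU1]⟩
  · intro hP x hx _
    obtain ⟨c, hc⟩ := hx
    have hT := toLin_pow x hc
    obtain ⟨T, hTdef⟩ : ∃ T, T = Matrix.toLin' (x : Matrix (Fin n) (Fin n) F) := ⟨_, rfl⟩
    rw [← hTdef] at hT ⊢
    have hc0 : c ≠ 0 := by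
      rintro rfl
      rw [zero_smul] at hc
      have h6 := congrArg Matrix.det hc
      haveI : Nonempty (Fin n) := Fin.pos_iff_nonempty.1 hn
      rw [(x ^ p).2, Matrix.det_zero] at h6
      exact one_ne_zero h6
    obtain ⟨b, hb⟩ : ∃ b : F, b ^ p = c := by
      obtain ⟨b, hb⟩ := (Finite.injective_iff_surjective.1 (frobenius_inj F p)) c
      exact ⟨b, hb⟩
    have hb0 : b ≠ 0 := by
      rintro rfl
      rw [zero_pow (Fact.out : p.Prime).ne_zero] at hb
      exact hc0 hb.symm
    obtain ⟨N, hN⟩ : ∃ N : (Fin n → F) →ₗ[F] (Fin n → F), N = b⁻¹ • T - 1 := ⟨_, rfl⟩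
    have hNp : N ^ p = 0 := by
      haveI : CharP ((Fin n → F) →ₗ[F] (Fin n → F)) p := by
        haveI : Nonempty (Fin n) := Fin.pos_iff_nonempty.1 hn
        exact charP_of_injective_algebraMap (FaithfulSMul.algebraMap_injective F (Module.End F (Fin n → F))) p
      have h1 : (b⁻¹ • T - 1) ^ p = (b⁻¹ • T) ^ p - 1 ^ p := sub_pow_char_of_commute p (Commute.one_right (b⁻¹ • T))
      rw [hN, h1, _root_.smul_pow, hT, smul_smul, ← hb, ← mul_pow, inv_mul_cancel₀ hb0, one_pow, one_pow, one_smul, sub_self]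
    obtain ⟨μ, hμ⟩ := exists_JT (strN N _ ⊤ rfl (fun _ _ => trivial) ⟨p, fun w _ => by rw [hNp]; rfl⟩)
    obtain ⟨ν, h1, h2⟩ := hP μ (by
      intro a ha
      refine ⟨hμ.pos a ha, ?_⟩
      by_contra h4
      push Not at h4
      have h3 := hμ.finrank_map p
      rw [hNp, Submodule.map_zero, finrank_bot] at h3
      have h5 : a - p ≤ CfsgLib.Nil29.tsum μ p := by
        unfold CfsgLib.Nil29.tsum
        exact Multiset.single_le_sum (fun _ _ => Nat.zero_le _) _ (Multiset.mem_map.2 ⟨a, ha, rfl⟩)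
      omega) (by rw [hμ.sum, finrank_top, Module.finrank_fin_fun])
    obtain ⟨U, W, h3, h4, h5, h6⟩ := JT_split hμ h1
    have hinv : ∀ W : Submodule F (Fin n → F), (∀ u ∈ W, N u ∈ W) → Inv T W := by
      intro W hW
      rw [← inv_smul hb0]
      intro u hu
      have h7 : (b⁻¹ • T) u = N u + u := by
        rw [hN, LinearMap.sub_apply, Module.End.one_apply, sub_add_cancel]
      rw [h7]
      exact W.add_mem (hW u hu) hu
    exact ⟨U, W, h3, by rw [h4, h2], hinv U h5, hinv W h6⟩

end CfsgLib.Semi29
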