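import Mathlib
import Cfsg.Agent.EqBase
import Cfsg.Agent.LibEltG28
import Cfsg.Agent.LibCnt28
import Cfsg.Agent.LibInvB28

set_option autoImplicit false

/-! Elements of order 7 of `M24` (helper28). -/

namespace CfsgLib.Sev28

open Cfsg CfsgLib.M24 CfsgLib.Golay CfsgLib.Syn28 CfsgLib.Elt28 CfsgLib.EltD28 CfsgLib.OrbG28 CfsgLib.Cnt28
  CfsgLib.EltE28 CfsgLib.OrbM28 CfsgLib.OrbF28 CfsgLib.TrioKey28 CfsgLib.EltF28 CfsgLib.EltG28 CfsgLib.InvB28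
open scoped Pointwise

/-- an element of order 7 -/
def g7 : List ℕ := [1, 2, 3, 5, 20, 17, 15, 19, 12, 9, 6, 7, 10, 13, 14, 22, 18, 23, 4, 16, 11, 8, 21, 0]

/-- its matrix -/
def g7A : List ℕ := [2002, 3038, 109, 770, 3467, 3412, 488, 61, 3187, 2714, 1099, 2048]

/-- coset representatives -/
def Ms : List (List ℕ) := [
   [1, 2, 3, 5, 15, 17, 20, 21, 11, 10, 7, 6, 9, 16, 14, 4, 8, 23, 22, 13, 12, 18, 19, 0],
   [2, 3, 5, 17, 19, 14, 12, 22, 21, 13, 8, 7, 9, 6, 0, 4, 10, 23, 15, 18, 11, 16, 20, 1],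
   [3, 5, 17, 23, 20, 0, 10, 4, 15, 19, 8, 11, 6, 12, 14, 22, 7, 1, 16, 18, 9, 21, 13, 2],
   [5, 17, 23, 0, 10, 2, 15, 18, 21, 20, 8, 12, 9, 13, 1, 4, 19, 14, 16, 22, 6, 7, 11, 3],
   [20, 11, 7, 19, 8, 16, 0, 15, 23, 21, 3, 13, 5, 1, 9, 2, 12, 18, 22, 10, 6, 14, 17, 4],
   [17, 23, 0, 1, 7, 14, 8, 10, 12, 21, 22, 20, 11, 13, 3, 4, 6, 2, 15, 9, 19, 18, 16, 5],
   [15, 22, 21, 8, 1, 12, 4, 17, 18, 0, 7, 14, 19, 20, 13, 11, 2, 10, 23, 3, 5, 9, 16, 6],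
   [19, 16, 18, 4, 0, 9, 22, 8, 21, 15, 6, 17, 23, 13, 11, 5, 12, 20, 10, 14, 1, 3, 2, 7],
   [12, 10, 6, 15, 11, 21, 7, 14, 4, 0, 19, 18, 5, 16, 22, 2, 17, 13, 1, 20, 9, 3, 23, 8],
   [6, 15, 22, 21, 5, 13, 16, 7, 4, 20, 11, 1, 0, 18, 12, 3, 9, 8, 19, 17, 23, 14, 2, 10],
   [7, 19, 16, 18, 12, 9, 3, 0, 1, 14, 2, 8, 13, 17, 20, 15, 5, 4, 23, 6, 21, 10, 22, 11],
   [10, 6, 15, 22, 1, 8, 17, 4, 5, 7, 0, 14, 19, 3, 21, 18, 9, 13, 11, 2, 23, 20, 16, 12],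
   [22, 21, 8, 12, 1, 10, 16, 14, 9, 2, 18, 23, 20, 7, 13, 11, 17, 6, 5, 0, 3, 4, 19, 15],
   [18, 4, 20, 11, 17, 7, 22, 3, 12, 2, 13, 1, 15, 8, 9, 6, 14, 19, 0, 23, 5, 21, 10, 16],
   [23, 0, 1, 2, 8, 5, 13, 18, 10, 4, 12, 22, 11, 21, 3, 9, 20, 14, 7, 15, 6, 19, 16, 17],
   [4, 20, 11, 7, 6, 9, 17, 3, 0, 1, 2, 8, 21, 23, 16, 10, 14, 19, 5, 15, 22, 13, 12, 18],
   [16, 18, 4, 20, 0, 7, 14, 12, 2, 10, 1, 17, 15, 23, 11, 13, 6, 9, 22, 5, 3, 21, 8, 19],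
   [11, 7, 19, 16, 23, 9, 15, 8, 6, 21, 13, 14, 1, 12, 4, 0, 10, 18, 22, 3, 17, 5, 2, 20],
   [8, 12, 10, 6, 2, 13, 7, 9, 18, 20, 19, 3, 0, 11, 22, 5, 4, 15, 16, 1, 17, 23, 14, 21],
   [21, 8, 12, 10, 23, 13, 4, 7, 18, 11, 9, 14, 1, 19, 15, 0, 16, 6, 20, 3, 17, 5, 2, 22],
   [0, 1, 2, 3, 4, 5, 6, 7, 8, 9, 10, 11, 12, 13, 14, 15, 16, 17, 18, 19, 20, 21, 22, 23]]

/-- the centraliser -/
def Ce : List (List ℕ) := [
   [1, 2, 3, 5, 20, 17, 15, 19, 12, 9, 6, 7, 10, 13, 14, 22, 18, 23, 4, 16, 11, 8, 21, 0],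
   [1, 2, 3, 5, 22, 17, 4, 12, 19, 13, 18, 8, 16, 9, 14, 20, 6, 23, 15, 10, 21, 7, 11, 0],
   [2, 3, 5, 17, 11, 23, 22, 16, 10, 9, 15, 19, 6, 13, 14, 21, 4, 0, 20, 18, 7, 12, 8, 1],
   [2, 3, 5, 17, 21, 23, 20, 10, 16, 13, 4, 12, 18, 9, 14, 11, 15, 0, 22, 6, 8, 19, 7, 1],
   [3, 5, 17, 23, 8, 0, 11, 6, 18, 13, 20, 10, 4, 9, 14, 7, 22, 1, 21, 15, 12, 16, 19, 2],
   [3, 5, 17, 23, 7, 0, 21, 18, 6, 9, 22, 16, 15, 13, 14, 8, 20, 1, 11, 4, 19, 10, 12, 2],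
   [5, 17, 23, 0, 19, 1, 8, 4, 15, 9, 21, 18, 22, 13, 14, 12, 11, 2, 7, 20, 16, 6, 10, 3],
   [5, 17, 23, 0, 12, 1, 7, 15, 4, 13, 11, 6, 20, 9, 14, 19, 21, 2, 8, 22, 10, 18, 16, 3],
   [20, 11, 7, 19, 15, 16, 17, 8, 2, 13, 5, 21, 3, 14, 9, 23, 10, 18, 6, 12, 22, 1, 0, 4],
   [20, 11, 7, 19, 23, 16, 6, 2, 8, 14, 10, 1, 12, 13, 9, 15, 5, 18, 17, 3, 0, 21, 22, 4],
   [17, 23, 0, 1, 10, 2, 19, 22, 20, 13, 7, 15, 11, 9, 14, 16, 8, 3, 12, 21, 6, 4, 18, 5],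
   [17, 23, 0, 1, 16, 2, 12, 20, 22, 9, 8, 4, 21, 13, 14, 10, 7, 3, 19, 11, 18, 15, 6, 5],
   [15, 22, 21, 8, 17, 12, 16, 1, 11, 14, 19, 0, 7, 9, 13, 18, 3, 10, 5, 2, 23, 20, 4, 6],
   [15, 22, 21, 8, 18, 12, 5, 11, 1, 9, 3, 20, 2, 14, 13, 17, 19, 10, 16, 7, 4, 0, 23, 6],
   [19, 16, 18, 4, 8, 20, 1, 6, 17, 13, 0, 10, 23, 14, 9, 2, 22, 11, 21, 15, 12, 5, 3, 7],
   [19, 16, 18, 4, 2, 20, 21, 17, 6, 14, 22, 5, 15, 13, 9, 8, 0, 11, 1, 23, 3, 10, 12, 7],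
   [12, 10, 6, 15, 2, 22, 11, 17, 18, 14, 20, 5, 4, 9, 13, 7, 0, 21, 1, 23, 3, 16, 19, 8],
   [12, 10, 6, 15, 7, 22, 1, 18, 17, 9, 0, 16, 23, 14, 13, 2, 20, 21, 11, 4, 19, 5, 3, 8],
   [6, 15, 22, 21, 5, 8, 19, 0, 20, 14, 7, 23, 11, 9, 13, 16, 2, 12, 3, 1, 17, 4, 18, 10],
   [6, 15, 22, 21, 16, 8, 3, 20, 0, 9, 2, 4, 1, 14, 13, 5, 7, 12, 19, 11, 18, 23, 17, 10],
   [7, 19, 16, 18, 21, 4, 0, 10, 5, 13, 23, 12, 17, 14, 9, 1, 15, 20, 22, 6, 8, 3, 2, 11],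
   [7, 19, 16, 18, 1, 4, 22, 5, 10, 14, 15, 3, 6, 13, 9, 21, 23, 20, 0, 17, 2, 12, 8, 11],
   [10, 6, 15, 22, 19, 21, 2, 4, 23, 9, 1, 18, 0, 14, 13, 3, 11, 8, 7, 20, 16, 17, 5, 12],
   [10, 6, 15, 22, 3, 21, 7, 23, 4, 14, 11, 17, 20, 9, 13, 19, 1, 8, 2, 0, 5, 18, 16, 12],
   [22, 21, 8, 12, 23, 10, 18, 2, 7, 14, 16, 1, 19, 9, 13, 4, 5, 6, 17, 3, 0, 11, 20, 15],
   [22, 21, 8, 12, 4, 10, 17, 7, 2, 9, 5, 11, 3, 14, 13, 23, 16, 6, 18, 19, 20, 1, 0, 15],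
   [18, 4, 20, 11, 5, 7, 12, 0, 22, 14, 8, 23, 21, 13, 9, 10, 2, 19, 3, 1, 17, 15, 6, 16],
   [18, 4, 20, 11, 10, 7, 3, 22, 0, 13, 2, 15, 1, 14, 9, 5, 8, 19, 12, 21, 6, 23, 17, 16],
   [23, 0, 1, 2, 18, 3, 10, 11, 21, 9, 12, 20, 8, 13, 14, 6, 19, 5, 16, 7, 4, 22, 15, 17],
   [23, 0, 1, 2, 6, 3, 16, 21, 11, 13, 19, 22, 7, 9, 14, 18, 12, 5, 10, 8, 15, 20, 4, 17],
   [4, 20, 11, 7, 6, 19, 5, 21, 1, 13, 3, 22, 2, 14, 9, 17, 12, 16, 10, 8, 15, 0, 23, 18],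
   [4, 20, 11, 7, 17, 19, 10, 1, 21, 14, 12, 0, 8, 13, 9, 6, 3, 16, 5, 2, 23, 22, 15, 18],
   [16, 18, 4, 20, 12, 11, 2, 15, 23, 13, 1, 6, 0, 14, 9, 3, 21, 7, 8, 22, 10, 17, 5, 19],
   [16, 18, 4, 20, 3, 11, 8, 23, 15, 14, 21, 17, 22, 13, 9, 12, 1, 7, 2, 0, 5, 6, 10, 19],
   [11, 7, 19, 16, 0, 18, 15, 3, 12, 14, 6, 2, 10, 13, 9, 22, 17, 4, 23, 5, 1, 8, 21, 20],
   [11, 7, 19, 16, 22, 18, 23, 12, 3, 13, 17, 8, 5, 14, 9, 0, 6, 4, 15, 10, 21, 2, 1, 20],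
   [8, 12, 10, 6, 11, 15, 0, 16, 5, 9, 23, 19, 17, 14, 13, 1, 4, 22, 20, 18, 7, 3, 2, 21],
   [8, 12, 10, 6, 1, 15, 20, 5, 16, 14, 4, 3, 18, 9, 13, 11, 23, 22, 0, 17, 2, 19, 7, 21],
   [21, 8, 12, 10, 0, 6, 4, 3, 19, 14, 18, 2, 16, 9, 13, 20, 17, 15, 23, 5, 1, 7, 11, 22],
   [21, 8, 12, 10, 20, 6, 23, 19, 3, 9, 17, 7, 5, 14, 13, 0, 18, 15, 4, 16, 11, 2, 1, 22],
   [0, 1, 2, 3, 4, 5, 6, 7, 8, 9, 10, 11, 12, 13, 14, 15, 16, 17, 18, 19, 20, 21, 22, 23],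
   [0, 1, 2, 3, 15, 5, 18, 8, 7, 13, 16, 21, 19, 9, 14, 4, 10, 17, 6, 12, 22, 11, 20, 23]]

/-- two noncommuting members of the centraliser -/
def cx : List ℕ := [1, 2, 3, 5, 22, 17, 4, 12, 19, 13, 18, 8, 16, 9, 14, 20, 6, 23, 15, 10, 21, 7, 11, 0]

/-- two noncommuting members of the centraliser -/
def cy : List ℕ := [20, 11, 7, 19, 15, 16, 17, 8, 2, 13, 5, 21, 3, 14, 9, 23, 10, 18, 6, 12, 22, 1, 0, 4]

/-- codes of the fixed octads -/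
def f1 : ℕ := 1773
/-- codes of the fixed octads -/
def f2 : ℕ := 1834
/-- codes of the fixed octads -/
def f3 : ℕ := 2503

theorem g7_ok : okA g7 g7A = true := by decide +kernel
theorem g7A_lt : ∀ b ∈ g7A, b < 2 ^ 12 := by decide
theorem g7_M24 : isM24 g7 = true := by decide +kernel

theorem Ms_check : (Ms.all fun M => all5 M (fun R => or (not (commB R g7)) (memL R Ce))) = true := by decide +kernel

theorem Ms_ok : (Ms.all fun M => and (isM24 M) (and (Nat.beq (M.getD 0 0) (g7.getD (M.getD 23 0) 0))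
    (and (Nat.beq (M.getD 1 0) (g7.getD (M.getD 0 0) 0)) (and (Nat.beq (M.getD 2 0) (g7.getD (M.getD 1 0) 0))
      (Nat.beq (M.getD 3 0) (g7.getD (M.getD 2 0) 0)))))) = true := by decide +kernel

theorem Ms_cover : ∀ i < 24, g7.getD i 0 = i ∨ ∃ M ∈ Ms, M.getD 23 0 = i := by decide +kernel

theorem Ce_ok : (Ce.all fun R => and (isM24 R) (commB R g7)) = true := by decide +kernel

theorem Ce_nodup : Ce.Nodup := by decide +kernel

theorem Ce_length : Ce.length = 42 := by decide +kernel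

theorem comm_of_commB {g h : Equiv.Perm GolayPt} {R S : List ℕ} (hg : Rep g R) (hh : Rep h S)
    (hc : commB R S = true) : g * h = h * g := by
  apply Equiv.ext
  intro p
  rw [commB, allN_iff] at hc
  apply idx_injective
  rw [Equiv.Perm.mul_apply, Equiv.Perm.mul_apply, hg.idx, hh.idx, hh.idx, hg.idx]
  exact beq_iff.1 (hc _ (idx_lt p))

theorem rep7 : Rep (mkPerm g7) g7 := rep_mkPerm (valid_of_isM24 g7_M24)

theorem step7 {i j : ℕ} (hi : i < 24) (hj : j < 24) (h : g7.getD i 0 = j) : mkPerm g7 (pt i) = pt j :=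
  apply_of_getD rep7 hi hj h

theorem cent_eq : {c : Equiv.Perm GolayPt | c ∈ M24 ∧ c * mkPerm g7 = mkPerm g7 * c} =
    mkPerm '' ((Ce.toFinset : Finset (List ℕ)) : Set (List ℕ)) := by
  ext c
  rw [Set.mem_image]
  constructor
  · rintro ⟨hc, hcg⟩
    have hcg' : ∀ p, c (mkPerm g7 p) = mkPerm g7 (c p) := by
      intro p
      rw [← Equiv.Perm.mul_apply, hcg]; rfl
    rcases Ms_cover (idx (c (pt 23))) (idx_lt _) with h | ⟨M, hM, h⟩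
    · exfalso
      rw [← rep7.idx, idx_injective.eq_iff, ← hcg'] at h
      have := c.injective h
      revert this
      rw [step7 (i := 23) (j := 0) (by norm_num) (by norm_num) (by decide +kernel)]
      decide +kernel
    · have h1 := List.all_eq_true.1 Ms_ok M hM
      rw [Bool.and_eq_true, Bool.and_eq_true, Bool.and_eq_true, Bool.and_eq_true, beq_iff, beq_iff, beq_iff,
        beq_iff] at h1
      obtain ⟨hM24, h0, h1, h2, h3⟩ := h1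
      have e0 : idx (c (pt 0)) = M.getD 0 0 := by
        rw [h0, h, ← step7 (i := 23) (j := 0) (by norm_num) (by norm_num) (by decide +kernel), hcg', rep7.idx]
      have e1 : idx (c (pt 1)) = M.getD 1 0 := by
        rw [h1, ← e0, ← step7 (i := 0) (j := 1) (by norm_num) (by norm_num) (by decide +kernel), hcg', rep7.idx]
      have e2 : idx (c (pt 2)) = M.getD 2 0 := by
        rw [h2, ← e1, ← step7 (i := 1) (j := 2) (by norm_num) (by norm_num) (by decide +kernel), hcg', rep7.idx]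
      have e3 : idx (c (pt 3)) = M.getD 3 0 := by
        rw [h3, ← e2, ← step7 (i := 2) (j := 3) (by norm_num) (by norm_num) (by decide +kernel), hcg', rep7.idx]
      obtain ⟨R, hR, hR2⟩ := all5_spec (List.all_eq_true.1 Ms_check M hM) hM24 (g := c) hc (by
        intro i hi
        simp only [List.mem_cons, List.not_mem_nil, or_false] at hi
        rcases hi with rfl | rfl | rfl | rfl | rfl
        · exact h.symm
        · exact e0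
        · exact e1
        · exact e2
        · exact e3)
      rw [commB_of hR rep7 hcg, Bool.not_true, Bool.false_or] at hR2
      exact ⟨R, by rw [Finset.mem_coe, List.mem_toFinset]; exact memL_spec hR2, hR.valid.symm⟩
  · rintro ⟨R, hR, rfl⟩
    rw [Finset.mem_coe, List.mem_toFinset] at hR
    have h1 := List.all_eq_true.1 Ce_ok R hR
    rw [Bool.and_eq_true] at h1
    exact ⟨isM24_spec h1.1, comm_of_commB (rep_mkPerm (valid_of_isM24 h1.1)) rep7 h1.2⟩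

theorem cent_ncard : {c : Equiv.Perm GolayPt | c ∈ M24 ∧ c * mkPerm g7 = mkPerm g7 * c}.ncard = 42 := by
  rw [cent_eq, Set.ncard_image_of_injOn, Set.ncard_coe_finset, List.toFinset_card_of_nodup Ce_nodup, Ce_length]
  intro R hR S hS hRS
  rw [Finset.mem_coe, List.mem_toFinset] at hR hS
  have key : ∀ R ∈ Ce, Rep (mkPerm R) R := by
    intro R hR
    have h1 := List.all_eq_true.1 Ce_ok R hR
    rw [Bool.and_eq_true] at h1
    exact rep_mkPerm (valid_of_isM24 h1.1)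
  have h2 := key S hS
  rw [← hRS] at h2
  exact (key R hR).unique' h2

theorem pow7 : mkPerm g7 ^ 7 = 1 := by
  have h2 := ((((((rep7.mul rep7).mul rep7).mul rep7).mul rep7).mul rep7).mul rep7)
  rw [show cmp (cmp (cmp (cmp (cmp (cmp g7 g7) g7) g7) g7) g7) g7 = idL by decide +kernel] at h2
  have := h2.unique rep_one
  rw [← this]
  rfl

theorem g7_ne : mkPerm g7 ≠ 1 := by
  intro h
  have := step7 (i := 23) (j := 0) (by norm_num) (by norm_num) (by decide +kernel)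
  rw [h] at this
  revert this; decide +kernel

/-! ### fixed octads -/

theorem oct_check : allB (fun k => or (not (and (Nat.beq (xs g7A k) k) (Nat.beq (pop (cw k)) 8)))
    (or (Nat.beq k f1) (or (Nat.beq k f2) (Nat.beq k f3)))) 12 0 = true := by decide +kernel

theorem f_check : (Nat.beq (xs g7A f1) f1 && Nat.beq (xs g7A f2) f2 && Nat.beq (xs g7A f3) f3 &&
    isTrio (cw f1) (cw f2) && Nat.beq (tmid f1 f2) f3) = true := by decide +kernel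

/-- the set of octads fixed by `g` is a trio -/
theorem fixed_octads : ∃ T ∈ trios, ∀ o : Finset GolayPt, o ∈ T ↔ (o ∈ octads ∧ mkPerm g7 • o = o) := by
  have hf := f_check
  simp only [Bool.and_eq_true, beq_iff] at hf
  obtain ⟨⟨⟨⟨h1, h2⟩, h3⟩, h4⟩, h5⟩ := hf
  have hT := isTrio_spec h4
  have hl : f1 < 4096 ∧ f2 < 4096 ∧ f3 < 4096 := by decide
  have hne : fset (cw f1) ≠ fset (cw f2) := by
    intro h
    have := cw_inj hl.1 hl.2.1 h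
    exact absurd this (by decide)
  have hd : Disjoint (fset (cw f1)) (fset (cw f2)) :=
    hT.2.2 _ (Finset.mem_insert_self _ _) _ (Finset.mem_insert_of_mem (Finset.mem_insert_self _ _)) hne
  refine ⟨_, hT, ?_⟩
  intro o
  rw [mem_tri hd, h5]
  constructor
  · have key : ∀ k < 4096, fset (cw k) ∈ CfsgLib.Trio28.trioOf (fset (cw f1)) (fset (cw f2)) → xs g7A k = k →
        fset (cw k) ∈ octads ∧ mkPerm g7 • fset (cw k) = fset (cw k) := by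
      intro k hk hkT hx
      exact ⟨hT.2.1 _ hkT, by rw [act_cw g7_ok hk, hx]⟩
    rintro (rfl | rfl | rfl)
    · exact key _ hl.1 (by rw [mem_tri hd]; exact Or.inl rfl) h1
    · exact key _ hl.2.1 (by rw [mem_tri hd]; exact Or.inr (Or.inl rfl)) h2
    · exact key _ hl.2.2 (by rw [mem_tri hd, h5]; exact Or.inr (Or.inr rfl)) h3
  · rintro ⟨ho, hgo⟩
    obtain ⟨k, hk, rfl⟩ := mem_supports.1 ho.1
    have h8 := ho.2
    rw [card_fset] at h8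
    rw [act_cw g7_ok hk] at hgo
    have hx := cw_inj (xs_lt g7A 12 g7A_lt k) hk hgo
    have h9 := allB_spec _ _ _ oct_check k (Nat.zero_le _) (by omega)
    rw [beq_iff.2 hx, beq_iff.2 h8] at h9
    simp only [Bool.and_self, Bool.not_true, Bool.false_or, Bool.or_eq_true, beq_iff] at h9
    rcases h9 with h | h | h
    · exact Or.inl (by rw [h])
    · exact Or.inr (Or.inl (by rw [h]))
    · exact Or.inr (Or.inr (by rw [h]))

theorem cxy_check : (isM24 cx && isM24 cy && commB cx g7 && commB cy g7 && not (commB cx cy)) = true := by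
  decide +kernel

end CfsgLib.Sev28
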