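import Mathlib
set_option autoImplicit false
namespace CfsgLib.ShH14
open MulAction

/-- sharply `k`-transitive, with lists -/
def ShL (G X : Type*) [Group G] [MulAction G X] (k : ℕ) : Prop :=
  (∀ l l' : List X, l.Nodup → l'.Nodup → l.length = k → l'.length = k → ∃ g : G, l.map (fun x => g • x) = l') ∧
  (∀ (l : List X) (g : G), l.Nodup → l.length = k → (∀ x ∈ l, g • x = x) → g = 1)

theorem shL_of {α : Type*} [DecidableEq α] (G : Subgroup (Equiv.Perm α)) (k : ℕ)
    (ht : MulAction.IsMultiplyPretransitive G α k) (hs : ∀ x : Fin k ↪ α, MulAction.stabilizer G x = ⊥) : ShL G α k := by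
  constructor
  · rintro l l' hl hl' rfl hk
    let x : Fin l.length ↪ α := ⟨l.get, List.nodup_iff_injective_get.1 hl⟩
    let y : Fin l.length ↪ α := ⟨fun i => l'.get (Fin.cast hk.symm i), fun i j h => by
      have := List.nodup_iff_injective_get.1 hl' h
      exact Fin.cast_injective _ this⟩
    obtain ⟨g, hg⟩ := ht.exists_smul_eq x y
    refine ⟨g, ?_⟩
    apply List.ext_get
    · rw [List.length_map, hk]
    · intro n h1 h2
      rw [List.length_map] at h1
      have := congrArg (fun e : Fin l.length ↪ α => e ⟨n, h1⟩) hg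
      simp only [Function.Embedding.smul_apply] at this
      simp only [List.get_eq_getElem, List.getElem_map]
      exact this
  · rintro l g hl rfl hfix
    let x : Fin l.length ↪ α := ⟨l.get, List.nodup_iff_injective_get.1 hl⟩
    have : g ∈ MulAction.stabilizer G x := by
      rw [MulAction.mem_stabilizer_iff]
      ext i
      show g • (x i) = x i
      exact hfix _ (List.get_mem l i)
    rw [hs x] at this
    exact this

variable {G X : Type*} [Group G] [MulAction G X] {k : ℕ}

/-- point stabilizers -/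
theorem ShL.stab (h : ShL G X (k + 1)) (a : X) : ShL (stabilizer G a) (SubMulAction.ofStabilizer G a) k := by
  have hne : ∀ x : SubMulAction.ofStabilizer G a, (x : X) ≠ a := fun x => x.2
  have key : ∀ l : List (SubMulAction.ofStabilizer G a), l.Nodup → (a :: l.map Subtype.val).Nodup := by
    intro l hl
    rw [List.nodup_cons]
    refine ⟨?_, hl.map Subtype.val_injective⟩
    rw [List.mem_map]
    rintro ⟨x, -, hx⟩
    exact hne x hx
  constructor
  · intro l l' hl hl' hk hk'
    obtain ⟨g, hg⟩ := h.1 _ _ (key l hl) (key l' hl') (by simp [hk]) (by simp [hk'])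
    rw [List.map_cons, List.cons_eq_cons] at hg
    obtain ⟨hga, hgl⟩ := hg
    refine ⟨⟨g, hga⟩, ?_⟩
    apply List.map_injective_iff.2 Subtype.val_injective
    refine Eq.trans ?_ hgl
    rw [List.map_map, List.map_map]
    rfl
  · intro l g hl hk hfix
    apply Subtype.ext
    refine h.2 _ g (key l hl) (by simp [hk]) ?_
    intro x hx
    rw [List.mem_cons, List.mem_map] at hx
    rcases hx with rfl | ⟨y, hy, rfl⟩
    · exact g.2
    · exact congrArg Subtype.val (hfix y hy)

/-- the counting principle -/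
theorem ShL.count (h : ShL G X k) (t : G) {β : Type*} [MulAction G β] (B : Set β) (L : β → List X) (π : List X → List X)
    (hL : ∀ b ∈ B, (L b).Nodup ∧ (L b).length = k)
    (hLg : ∀ g ∈ Subgroup.centralizer ({t} : Set G), ∀ b, L (g • b) = (L b).map (fun x => g • x))
    (hinj : ∀ b b', L b = L b' → b = b')
    (hπ : ∀ b ∈ B, (L b).map (fun x => t • x) = π (L b))
    (hπm : ∀ (l : List X) (g : G), π (l.map (fun x => g • x)) = (π l).map (fun x => g • x))
    (hB : ∀ g ∈ Subgroup.centralizer ({t} : Set G), ∀ b ∈ B, g • b ∈ B) (b0 : β) (hb0 : b0 ∈ B) :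
    Nat.card (Subgroup.centralizer ({t} : Set G)) = Nat.card B := by
  apply Nat.card_eq_of_bijective (fun g : Subgroup.centralizer ({t} : Set G) => (⟨(g : G) • b0, hB g g.2 b0 hb0⟩ : B))
  constructor
  · intro g g' hgg
    have h1 : (g : G) • b0 = (g' : G) • b0 := congrArg Subtype.val hgg
    have h2 : (L b0).map (fun x => (g : G) • x) = (L b0).map (fun x => (g' : G) • x) := by
      rw [← hLg g g.2, ← hLg g' g'.2, h1]
    have h3 : ((g : G)⁻¹ * (g' : G)) = 1 := by
      apply h.2 (L b0) _ (hL b0 hb0).1 (hL b0 hb0).2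
      intro x hx
      have := List.map_inj_left.1 h2 x hx
      rw [mul_smul, ← this, inv_smul_smul]
    apply Subtype.ext
    exact (inv_mul_eq_one.1 h3)
  · rintro ⟨b, hb⟩
    obtain ⟨g, hg⟩ := h.1 (L b0) (L b) (hL b0 hb0).1 (hL b hb).1 (hL b0 hb0).2 (hL b hb).2
    have hgC : g ∈ Subgroup.centralizer ({t} : Set G) := by
      rw [Subgroup.mem_centralizer_singleton_iff]
      have h1 : (L b0).map (fun x => (t * g) • x) = (L b0).map (fun x => (g * t) • x) := by
        have e1 : (L b0).map (fun x => (t * g) • x) = ((L b0).map (fun x => g • x)).map (fun x => t • x) := by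
          rw [List.map_map]
          apply List.map_congr_left
          intro x _
          exact mul_smul _ _ _
        have e2 : (L b0).map (fun x => (g * t) • x) = ((L b0).map (fun x => t • x)).map (fun x => g • x) := by
          rw [List.map_map]
          apply List.map_congr_left
          intro x _
          exact mul_smul _ _ _
        rw [e1, e2, hg, hπ b hb, hπ b0 hb0, ← hπm, hg]
      have h2 : (t * g)⁻¹ * (g * t) = 1 := by
        apply h.2 (L b0) _ (hL b0 hb0).1 (hL b0 hb0).2
        intro x hx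
        have := List.map_inj_left.1 h1 x hx
        rw [mul_smul, ← this, inv_smul_smul]
      exact (inv_mul_eq_one.1 h2).symm
    refine ⟨⟨g, hgC⟩, ?_⟩
    apply Subtype.ext
    apply hinj
    show L (g • b0) = L b
    rw [hLg g hgC, hg]


open Classical in
/-- counting: one two-cycle and fixed points -/
theorem ShL.count1 [Fintype X] {m : ℕ} (h : ShL G X (m + 2)) (t : G) (ht : t * t = 1)
    (c : X) (hc : t • c ≠ c) (hf : m ≤ (Finset.univ.filter (fun x : X => t • x = x)).card) :
    Nat.card (Subgroup.centralizer ({t} : Set G)) = (Finset.univ.filter (fun x : X => t • x ≠ x)).card *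
      (Finset.univ.filter (fun x : X => t • x = x)).card.descFactorial m := by
  have htt : ∀ x : X, t • t • x = x := fun x => by rw [← mul_smul, ht, one_smul]
  obtain ⟨e0⟩ : Nonempty (Fin m ↪ {x : X // t • x = x}) := by
    apply Function.Embedding.nonempty_of_card_le
    rw [Fintype.card_fin, Fintype.card_subtype]; exact hf
  have hcard : Nat.card {p : X × (Fin m → X) | t • p.1 ≠ p.1 ∧ (∀ i, t • p.2 i = p.2 i) ∧ Function.Injective p.2} =
      (Finset.univ.filter (fun x : X => t • x ≠ x)).card *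
      (Finset.univ.filter (fun x : X => t • x = x)).card.descFactorial m := by
    have e : {p : X × (Fin m → X) | t • p.1 ≠ p.1 ∧ (∀ i, t • p.2 i = p.2 i) ∧ Function.Injective p.2} ≃
        {x : X // t • x ≠ x} × (Fin m ↪ {x : X // t • x = x}) :=
      { toFun := fun p => (⟨p.1.1, p.2.1⟩, ⟨fun i => ⟨p.1.2 i, p.2.2.1 i⟩, fun i j hij => p.2.2.2 (congrArg Subtype.val hij)⟩)
        invFun := fun q => ⟨(q.1.1, fun i => (q.2 i).1), q.1.2, fun i => (q.2 i).2, fun i j hij => q.2.injective (Subtype.ext hij)⟩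
        left_inv := fun p => rfl
        right_inv := fun q => rfl }
    rw [Nat.card_congr e, Nat.card_prod, Nat.card_eq_fintype_card, Nat.card_eq_fintype_card, Fintype.card_embedding_eq,
      Fintype.card_subtype, Fintype.card_subtype, Fintype.card_fin]
  rw [← hcard]
  refine h.count t {p : X × (Fin m → X) | t • p.1 ≠ p.1 ∧ (∀ i, t • p.2 i = p.2 i) ∧ Function.Injective p.2}
    (fun p => p.1 :: t • p.1 :: List.ofFn p.2) (fun l => match l with | a :: b :: l => b :: a :: l | l => l)
    ?_ ?_ ?_ ?_ ?_ ?_ (c, fun i => (e0 i).1) ⟨hc, fun i => (e0 i).2, fun i j hij => e0.injective (Subtype.ext hij)⟩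
  · rintro ⟨a, x⟩ ⟨h1, h2, h3⟩
    refine ⟨?_, by simp⟩
    simp only at h1 h2 h3
    have h4 : ∀ i, x i ≠ a := fun i hi => h1 (by rw [← hi]; exact h2 i)
    have h5 : ∀ i, x i ≠ t • a := fun i hi => h1 (by
      have := h2 i
      rw [hi, htt] at this
      exact this.symm)
    simp only [List.nodup_cons, List.mem_cons, List.mem_ofFn, not_or, not_exists, List.nodup_ofFn]
    exact ⟨⟨Ne.symm h1, h4⟩, h5, h3⟩
  · rintro g hg ⟨a, x⟩
    rw [Subgroup.mem_centralizer_singleton_iff] at hg
    simp only [Prod.smul_mk, List.map_cons, List.map_ofFn]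
    rw [← mul_smul, ← hg, mul_smul]
    rfl
  · rintro ⟨a, x⟩ ⟨b, y⟩ hab
    simp only [List.cons.injEq] at hab
    obtain ⟨h1, -, h2⟩ := hab
    rw [List.ofFn_injective h2, h1]
  · rintro ⟨a, x⟩ ⟨h1, h2, h3⟩
    simp only [List.map_cons, List.map_ofFn, htt]
    congr 2
    congr 1
    funext i
    exact h2 i
  · intro l g
    rcases l with _ | ⟨a, _ | ⟨b, l⟩⟩ <;> rfl
  · rintro g hg ⟨a, x⟩ ⟨h1, h2, h3⟩
    rw [Subgroup.mem_centralizer_singleton_iff] at hg
    refine ⟨?_, ?_, ?_⟩
    · intro h4
      apply h1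
      have h5 : t • g • a = g • a := h4
      rw [← mul_smul, ← hg, mul_smul] at h5
      exact smul_left_cancel g h5
    · intro i
      show t • g • x i = g • x i
      rw [← mul_smul, ← hg, mul_smul]
      exact congrArg (fun z => g • z) (h2 i)
    · intro i j hij
      have h5 : g • x i = g • x j := hij
      exact h3 (smul_left_cancel g h5)


open Classical in
/-- counting: two two-cycles -/
theorem ShL.count2 [Fintype X] (h : ShL G X 4) (t : G) (ht : t * t = 1)
    (c : X) (hc : t • c ≠ c) (hf : 3 ≤ (Finset.univ.filter (fun x : X => t • x ≠ x)).card) :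
    Nat.card (Subgroup.centralizer ({t} : Set G)) = (Finset.univ.filter (fun x : X => t • x ≠ x)).card *
      ((Finset.univ.filter (fun x : X => t • x ≠ x)).card - 2) := by
  have htt : ∀ x : X, t • t • x = x := fun x => by rw [← mul_smul, ht, one_smul]
  set M := Finset.univ.filter (fun x : X => t • x ≠ x) with hM
  have hMem : ∀ x, x ∈ M ↔ t • x ≠ x := fun x => by rw [hM, Finset.mem_filter]; simp
  have hsub : ∀ a ∈ M, ({a, t • a} : Finset X) ⊆ M := by
    intro a ha x hx
    rw [Finset.mem_insert, Finset.mem_singleton] at hx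
    rcases hx with rfl | rfl
    · exact ha
    · rw [hMem, htt]
      exact Ne.symm ((hMem _).1 ha)
  have hc2 : ∀ a ∈ M, ({a, t • a} : Finset X).card = 2 := fun a ha => Finset.card_pair (Ne.symm ((hMem _).1 ha))
  have hcM : c ∈ M := (hMem c).2 hc
  obtain ⟨e, heM, he⟩ : ∃ e ∈ M, e ∉ ({c, t • c} : Finset X) :=
    Finset.exists_mem_notMem_of_card_lt_card (by rw [hc2 c hcM]; omega)
  have hcard : Nat.card (M.sigma (fun a => M \ {a, t • a})) = M.card * (M.card - 2) := by
    rw [Nat.card_eq_fintype_card, Fintype.card_coe, Finset.card_sigma, Finset.sum_congr rfl (fun a ha => by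
      rw [Finset.card_sdiff_of_subset (hsub a ha), hc2 a ha]), Finset.sum_const, smul_eq_mul]
  have hcard2 : Nat.card {p : X × X | p.1 ∈ M ∧ p.2 ∈ M ∧ p.2 ∉ ({p.1, t • p.1} : Finset X)} = M.card * (M.card - 2) := by
    rw [← hcard]
    refine Nat.card_congr
      { toFun := fun p => ⟨⟨p.1.1, p.1.2⟩, Finset.mem_sigma.2 ⟨p.2.1, Finset.mem_sdiff.2 ⟨p.2.2.1, p.2.2.2⟩⟩⟩
        invFun := fun q => ⟨(q.1.1, q.1.2), (Finset.mem_sigma.1 q.2).1, (Finset.mem_sdiff.1 (Finset.mem_sigma.1 q.2).2).1, (Finset.mem_sdiff.1 (Finset.mem_sigma.1 q.2).2).2⟩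
        left_inv := fun p => rfl
        right_inv := fun q => rfl }
  rw [← hcard2]
  have hinv : ∀ g ∈ Subgroup.centralizer ({t} : Set G), ∀ x : X, t • g • x = g • t • x := by
    intro g hg x
    rw [Subgroup.mem_centralizer_singleton_iff] at hg
    rw [← mul_smul, ← hg, mul_smul]
  refine h.count t {p : X × X | p.1 ∈ M ∧ p.2 ∈ M ∧ p.2 ∉ ({p.1, t • p.1} : Finset X)}
    (fun p => [p.1, t • p.1, p.2, t • p.2]) (fun l => match l with | [a, b, c, d] => [b, a, d, c] | l => l)
    ?_ ?_ ?_ ?_ ?_ ?_ (c, e) ⟨hcM, heM, he⟩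
  · rintro ⟨a, x⟩ ⟨h1, h2, h3⟩
    refine ⟨?_, by simp⟩
    simp only [hMem, Finset.mem_insert, Finset.mem_singleton, not_or] at h1 h2 h3
    have h4 : a ≠ t • x := fun h => h3.2 (by rw [h, htt])
    have h5 : t • a ≠ t • x := fun h => h3.1 (smul_left_cancel t h).symm
    simp only [List.nodup_cons, List.mem_cons, List.not_mem_nil, not_or, List.nodup_nil]
    exact ⟨⟨Ne.symm h1, Ne.symm h3.1, h4, not_false⟩, ⟨Ne.symm h3.2, h5, not_false⟩, ⟨Ne.symm h2, not_false⟩, not_false, trivial⟩
  · rintro g hg ⟨a, x⟩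
    simp only [Prod.smul_mk, List.map_cons, List.map_nil, hinv g hg]
  · rintro ⟨a, x⟩ ⟨b, y⟩ hab
    simp only [List.cons.injEq] at hab
    obtain ⟨h1, -, h2, -⟩ := hab
    rw [h1, h2]
  · rintro ⟨a, x⟩ ⟨h1, h2, h3⟩
    simp only [List.map_cons, List.map_nil, htt]
  · intro l g
    rcases l with _ | ⟨a, _ | ⟨b, _ | ⟨c, _ | ⟨d, _ | ⟨e, l⟩⟩⟩⟩⟩ <;> rfl
  · rintro g hg ⟨a, x⟩ ⟨h1, h2, h3⟩
    simp only [hMem, Finset.mem_insert, Finset.mem_singleton, not_or] at h1 h2 h3
    refine ⟨?_, ?_, ?_⟩
    · show g • a ∈ M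
      rw [hMem, hinv g hg]
      exact fun h => h1 (smul_left_cancel g h)
    · show g • x ∈ M
      rw [hMem, hinv g hg]
      exact fun h => h2 (smul_left_cancel g h)
    · show g • x ∉ ({g • a, t • g • a} : Finset X)
      rw [hinv g hg, Finset.mem_insert, Finset.mem_singleton, not_or]
      exact ⟨fun h => h3.1 (smul_left_cancel g h), fun h => h3.2 (smul_left_cancel g h)⟩

open Classical in
/-- counting: three two-cycles -/
theorem ShL.count3 [Fintype X] (h : ShL G X 6) (t : G) (ht : t * t = 1)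
    (c : X) (hc : t • c ≠ c) (hf : 5 ≤ (Finset.univ.filter (fun x : X => t • x ≠ x)).card) :
    Nat.card (Subgroup.centralizer ({t} : Set G)) = (Finset.univ.filter (fun x : X => t • x ≠ x)).card *
      (((Finset.univ.filter (fun x : X => t • x ≠ x)).card - 2) * ((Finset.univ.filter (fun x : X => t • x ≠ x)).card - 4)) := by
  have htt : ∀ x : X, t • t • x = x := fun x => by rw [← mul_smul, ht, one_smul]
  set M := Finset.univ.filter (fun x : X => t • x ≠ x) with hM
  have hMem : ∀ x, x ∈ M ↔ t • x ≠ x := fun x => by rw [hM, Finset.mem_filter]; simp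
  have hMt : ∀ x, x ∈ M → t • x ∈ M := fun x hx => by
    rw [hMem, htt]
    exact Ne.symm ((hMem _).1 hx)
  have hsub : ∀ a ∈ M, ({a, t • a} : Finset X) ⊆ M := by
    intro a ha x hx
    rw [Finset.mem_insert, Finset.mem_singleton] at hx
    rcases hx with rfl | rfl
    · exact ha
    · exact hMt _ ha
  have hc2 : ∀ a ∈ M, ({a, t • a} : Finset X).card = 2 := fun a ha => Finset.card_pair (Ne.symm ((hMem _).1 ha))
  have hcM : c ∈ M := (hMem c).2 hc
  have hsub4 : ∀ a ∈ M, ∀ b ∈ M \ {a, t • a}, ({a, t • a, b, t • b} : Finset X) ⊆ M := by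
    intro a ha b hb x hx
    have hb' := (Finset.mem_sdiff.1 hb).1
    simp only [Finset.mem_insert, Finset.mem_singleton] at hx
    rcases hx with rfl | rfl | rfl | rfl
    · exact ha
    · exact hMt _ ha
    · exact hb'
    · exact hMt _ hb'
  have hc4 : ∀ a ∈ M, ∀ b ∈ M \ {a, t • a}, ({a, t • a, b, t • b} : Finset X).card = 4 := by
    intro a ha b hb
    rw [Finset.mem_sdiff, Finset.mem_insert, Finset.mem_singleton, not_or] at hb
    obtain ⟨h1, h2, h3⟩ := hb
    have h4 : a ≠ t • b := fun h => h3 (by rw [h, htt])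
    have h5 : t • a ≠ t • b := fun h => h2 (smul_left_cancel t h).symm
    have h6 := (hMem _).1 ha
    have h7 := (hMem _).1 h1
    rw [Finset.card_insert_of_notMem, Finset.card_insert_of_notMem, Finset.card_pair (Ne.symm h7)]
    · simp only [Finset.mem_insert, Finset.mem_singleton, not_or]
      exact ⟨Ne.symm h3, h5⟩
    · simp only [Finset.mem_insert, Finset.mem_singleton, not_or]
      exact ⟨Ne.symm h6, Ne.symm h2, h4⟩
  obtain ⟨e, heM, he⟩ : ∃ e ∈ M, e ∉ ({c, t • c} : Finset X) :=
    Finset.exists_mem_notMem_of_card_lt_card (by rw [hc2 c hcM]; omega)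
  obtain ⟨d, hdM, hd⟩ : ∃ d ∈ M, d ∉ ({c, t • c, e, t • e} : Finset X) :=
    Finset.exists_mem_notMem_of_card_lt_card (by rw [hc4 c hcM e (Finset.mem_sdiff.2 ⟨heM, he⟩)]; omega)
  have hcard : Nat.card (M.sigma (fun a => (M \ {a, t • a}).sigma (fun b => M \ {a, t • a, b, t • b}))) = M.card * ((M.card - 2) * (M.card - 4)) := by
    rw [Nat.card_eq_fintype_card, Fintype.card_coe, Finset.card_sigma, Finset.sum_congr rfl (fun a ha => by
      rw [Finset.card_sigma, Finset.sum_congr rfl (fun b hb => by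
        rw [Finset.card_sdiff_of_subset (hsub4 a ha b hb), hc4 a ha b hb]), Finset.sum_const, smul_eq_mul,
        Finset.card_sdiff_of_subset (hsub a ha), hc2 a ha]), Finset.sum_const, smul_eq_mul]
  have hcard2 : Nat.card {p : X × X × X | p.1 ∈ M ∧ (p.2.1 ∈ M ∧ p.2.1 ∉ ({p.1, t • p.1} : Finset X)) ∧ p.2.2 ∈ M ∧ p.2.2 ∉ ({p.1, t • p.1, p.2.1, t • p.2.1} : Finset X)} = M.card * ((M.card - 2) * (M.card - 4)) := by
    rw [← hcard]
    refine Nat.card_congr
      { toFun := fun p => ⟨⟨p.1.1, ⟨p.1.2.1, p.1.2.2⟩⟩, Finset.mem_sigma.2 ⟨p.2.1, Finset.mem_sigma.2 ⟨Finset.mem_sdiff.2 p.2.2.1, Finset.mem_sdiff.2 p.2.2.2⟩⟩⟩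
        invFun := fun q => ⟨(q.1.1, q.1.2.1, q.1.2.2), (Finset.mem_sigma.1 q.2).1, Finset.mem_sdiff.1 (Finset.mem_sigma.1 (Finset.mem_sigma.1 q.2).2).1, Finset.mem_sdiff.1 (Finset.mem_sigma.1 (Finset.mem_sigma.1 q.2).2).2⟩
        left_inv := fun p => rfl
        right_inv := fun q => rfl }
  rw [← hcard2]
  have hinv : ∀ g ∈ Subgroup.centralizer ({t} : Set G), ∀ x : X, t • g • x = g • t • x := by
    intro g hg x
    rw [Subgroup.mem_centralizer_singleton_iff] at hg
    rw [← mul_smul, ← hg, mul_smul]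
  refine h.count t {p : X × X × X | p.1 ∈ M ∧ (p.2.1 ∈ M ∧ p.2.1 ∉ ({p.1, t • p.1} : Finset X)) ∧ p.2.2 ∈ M ∧ p.2.2 ∉ ({p.1, t • p.1, p.2.1, t • p.2.1} : Finset X)}
    (fun p => [p.1, t • p.1, p.2.1, t • p.2.1, p.2.2, t • p.2.2]) (fun l => match l with | [a, b, c, d, e, f] => [b, a, d, c, f, e] | l => l)
    ?_ ?_ ?_ ?_ ?_ ?_ (c, e, d) ⟨hcM, ⟨heM, he⟩, hdM, hd⟩
  · rintro ⟨a, x, y⟩ ⟨h1, ⟨h2, h3⟩, h4, h5⟩
    refine ⟨?_, by simp⟩
    simp only [hMem, Finset.mem_insert, Finset.mem_singleton, not_or] at h1 h2 h3 h4 h5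
    obtain ⟨h31, h32⟩ := h3
    obtain ⟨h51, h52, h53, h54⟩ := h5
    have key : ∀ u v : X, u ≠ t • v → v ≠ t • u := fun u v h h' => h (by rw [h', htt])
    have key2 : ∀ u v : X, u ≠ v → t • u ≠ t • v := fun u v h h' => h (smul_left_cancel t h')
    simp only [List.nodup_cons, List.mem_cons, List.not_mem_nil, not_or, List.nodup_nil]
    exact ⟨⟨Ne.symm h1, Ne.symm h31, key _ _ h32, Ne.symm h51, key _ _ h52, not_false⟩,
      ⟨Ne.symm h32, key2 _ _ (Ne.symm h31), Ne.symm h52, key2 _ _ (Ne.symm h51), not_false⟩,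
      ⟨Ne.symm h2, Ne.symm h53, key _ _ h54, not_false⟩, ⟨Ne.symm h54, key2 _ _ (Ne.symm h53), not_false⟩,
      ⟨Ne.symm h4, not_false⟩, not_false, trivial⟩
  · rintro g hg ⟨a, x, y⟩
    simp only [Prod.smul_mk, List.map_cons, List.map_nil, hinv g hg]
  · rintro ⟨a, x, y⟩ ⟨b, z, w⟩ hab
    simp only [List.cons.injEq] at hab
    obtain ⟨h1, -, h2, -, h3, -⟩ := hab
    rw [h1, h2, h3]
  · rintro ⟨a, x, y⟩ -
    simp only [List.map_cons, List.map_nil, htt]
  · intro l g
    rcases l with _ | ⟨a, _ | ⟨b, _ | ⟨c, _ | ⟨d, _ | ⟨e, _ | ⟨f, _ | ⟨p, l⟩⟩⟩⟩⟩⟩⟩ <;> rfl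
  · rintro g hg ⟨a, x, y⟩ ⟨h1, ⟨h2, h3⟩, h4, h5⟩
    simp only [hMem, Finset.mem_insert, Finset.mem_singleton, not_or] at h1 h2 h3 h4 h5
    refine ⟨?_, ⟨?_, ?_⟩, ?_, ?_⟩
    · show g • a ∈ M
      rw [hMem, hinv g hg]
      exact fun h => h1 (smul_left_cancel g h)
    · show g • x ∈ M
      rw [hMem, hinv g hg]
      exact fun h => h2 (smul_left_cancel g h)
    · show g • x ∉ ({g • a, t • g • a} : Finset X)
      rw [hinv g hg, Finset.mem_insert, Finset.mem_singleton, not_or]
      exact ⟨fun h => h3.1 (smul_left_cancel g h), fun h => h3.2 (smul_left_cancel g h)⟩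
    · show g • y ∈ M
      rw [hMem, hinv g hg]
      exact fun h => h4 (smul_left_cancel g h)
    · show g • y ∉ ({g • a, t • g • a, g • x, t • g • x} : Finset X)
      simp only [hinv g hg, Finset.mem_insert, Finset.mem_singleton, not_or]
      exact ⟨fun h => h5.1 (smul_left_cancel g h), fun h => h5.2.1 (smul_left_cancel g h),
        fun h => h5.2.2.1 (smul_left_cancel g h), fun h => h5.2.2.2 (smul_left_cancel g h)⟩

open Classical in
theorem ShL.four [Fintype X] (h : ShL G X 4) (h4 : 4 ≤ Fintype.card X) :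
    Fintype.card X = 4 ∨ Fintype.card X = 5 ∨ Fintype.card X = 6 ∨ Fintype.card X = 11 := by
  by_cases h7 : Fintype.card X < 7
  · omega
  push Not at h7
  obtain ⟨x, y, c, d, hn⟩ : ∃ x y c d : X, [x, y, c, d].Nodup := by
    obtain ⟨e⟩ : Nonempty (Fin 4 ↪ X) := Function.Embedding.nonempty_of_card_le (by rw [Fintype.card_fin]; exact h4)
    refine ⟨e 0, e 1, e 2, e 3, ?_⟩
    have := List.nodup_ofFn.2 e.injective
    simpa [List.ofFn_succ] using this
  have hn' : [x, y, d, c].Nodup := by
    simp only [List.nodup_cons, List.mem_cons, List.not_mem_nil, not_or, List.nodup_nil] at hn ⊢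
    obtain ⟨⟨h1, h2, h3, -⟩, ⟨h4, h5, -⟩, ⟨h6, -⟩, -⟩ := hn
    exact ⟨⟨h1, h3, h2, not_false⟩, ⟨h5, h4, not_false⟩, ⟨Ne.symm h6, not_false⟩, not_false, trivial⟩
  obtain ⟨t, ht⟩ := h.1 _ _ hn hn' rfl rfl
  simp only [List.map_cons, List.map_nil, List.cons.injEq, and_true] at ht
  obtain ⟨tx, ty, tc, td⟩ := ht
  have ht2 : t * t = 1 := by
    apply h.2 _ _ hn rfl
    intro z hz
    simp only [List.mem_cons, List.not_mem_nil, or_false] at hz
    rw [mul_smul]
    rcases hz with rfl | rfl | rfl | rfl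
    · rw [tx, tx]
    · rw [ty, ty]
    · rw [tc, td]
    · rw [td, tc]
  simp only [List.nodup_cons, List.mem_cons, List.not_mem_nil, not_or, List.nodup_nil] at hn
  obtain ⟨⟨h1, h2, h3, -⟩, ⟨h4', h5, -⟩, ⟨h6, -⟩, -⟩ := hn
  have hc : t • c ≠ c := by rw [tc]; exact Ne.symm h6
  have hf2 : 2 ≤ (Finset.univ.filter (fun x : X => t • x = x)).card := by
    have : ({x, y} : Finset X) ⊆ Finset.univ.filter (fun x : X => t • x = x) := by
      intro z hz
      rw [Finset.mem_insert, Finset.mem_singleton] at hz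
      rw [Finset.mem_filter]
      rcases hz with rfl | rfl
      · exact ⟨Finset.mem_univ _, tx⟩
      · exact ⟨Finset.mem_univ _, ty⟩
    have h7 := Finset.card_le_card this
    rwa [Finset.card_pair h1] at h7
  have hf3 : (Finset.univ.filter (fun x : X => t • x = x)).card ≤ 3 := by
    by_contra hcon
    push Not at hcon
    obtain ⟨e⟩ : Nonempty (Fin 4 ↪ {x : X // t • x = x}) := by
      apply Function.Embedding.nonempty_of_card_le
      rw [Fintype.card_fin, Fintype.card_subtype]; exact hcon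
    have h8 : t = 1 := by
      apply h.2 (List.ofFn (fun i => (e i).1)) t
      · rw [List.nodup_ofFn]
        exact fun i j hij => e.injective (Subtype.ext hij)
      · simp
      · intro z hz
        rw [List.mem_ofFn] at hz
        obtain ⟨i, rfl⟩ := hz
        exact (e i).2
    rw [h8, one_smul] at hc
    exact hc rfl
  have hsum : (Finset.univ.filter (fun x : X => t • x = x)).card + (Finset.univ.filter (fun x : X => t • x ≠ x)).card = Fintype.card X := by
    rw [Finset.card_filter_add_card_filter_not, Finset.card_univ]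
  have c1 := ShL.count1 (m := 2) h t ht2 c hc hf2
  have c2 := ShL.count2 h t ht2 c hc (by omega)
  rw [c1] at c2
  generalize (Finset.univ.filter (fun x : X => t • x = x)).card = f at *
  generalize (Finset.univ.filter (fun x : X => t • x ≠ x)).card = M at *
  have hM : 0 < M := by omega
  have c3 := Nat.eq_of_mul_eq_mul_left hM c2
  have : f = 2 ∨ f = 3 := by omega
  rcases this with rfl | rfl
  · rw [show Nat.descFactorial 2 2 = 2 by decide] at c3
    omega
  · rw [show Nat.descFactorial 3 2 = 6 by decide] at c3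
    omega


open Classical in
/-- no sharply 6-transitive group of degree 13 -/
theorem ShL.six [Fintype X] (h : ShL G X 6) (h4 : Fintype.card X = 13) : False := by
  obtain ⟨e⟩ : Nonempty (Fin 6 ↪ X) := Function.Embedding.nonempty_of_card_le (by rw [Fintype.card_fin]; omega)
  have hn : [e 0, e 1, e 2, e 3, e 4, e 5].Nodup := by
    have := List.nodup_ofFn.2 e.injective
    simpa [List.ofFn_succ] using this
  have hn' : [e 0, e 1, e 2, e 3, e 5, e 4].Nodup := by
    refine hn.perm ?_
    exact (((((List.Perm.swap _ _ _).cons _).cons _).cons _).cons _)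
  obtain ⟨t, ht⟩ := h.1 _ _ hn hn' rfl rfl
  simp only [List.map_cons, List.map_nil, List.cons.injEq, and_true] at ht
  obtain ⟨t0, t1, t2, t3, t4, t5⟩ := ht
  have ht2 : t * t = 1 := by
    apply h.2 _ _ hn rfl
    intro z hz
    simp only [List.mem_cons, List.not_mem_nil, or_false] at hz
    rw [mul_smul]
    rcases hz with rfl | rfl | rfl | rfl | rfl | rfl
    · rw [t0, t0]
    · rw [t1, t1]
    · rw [t2, t2]
    · rw [t3, t3]
    · rw [t4, t5]
    · rw [t5, t4]
  have hc : t • e 4 ≠ e 4 := by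
    rw [t4]
    intro h
    exact absurd (e.injective h) (by decide)
  have hf2 : 4 ≤ (Finset.univ.filter (fun x : X => t • x = x)).card := by
    have : (Finset.univ : Finset (Fin 4)).map ⟨fun i => e (Fin.castLE (by norm_num) i), fun i j hij => Fin.castLE_injective _ (e.injective hij)⟩ ⊆ Finset.univ.filter (fun x : X => t • x = x) := by
      intro z hz
      rw [Finset.mem_map] at hz
      obtain ⟨i, -, rfl⟩ := hz
      rw [Finset.mem_filter]
      refine ⟨Finset.mem_univ _, ?_⟩
      fin_cases i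
      · exact t0
      · exact t1
      · exact t2
      · exact t3
    have h7 := Finset.card_le_card this
    rwa [Finset.card_map, Finset.card_univ, Fintype.card_fin] at h7
  have hf3 : (Finset.univ.filter (fun x : X => t • x = x)).card ≤ 5 := by
    by_contra hcon
    push Not at hcon
    obtain ⟨e'⟩ : Nonempty (Fin 6 ↪ {x : X // t • x = x}) := by
      apply Function.Embedding.nonempty_of_card_le
      rw [Fintype.card_fin, Fintype.card_subtype]; exact hcon
    have h8 : t = 1 := by
      apply h.2 (List.ofFn (fun i => (e' i).1)) t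
      · rw [List.nodup_ofFn]
        exact fun i j hij => e'.injective (Subtype.ext hij)
      · simp
      · intro z hz
        rw [List.mem_ofFn] at hz
        obtain ⟨i, rfl⟩ := hz
        exact (e' i).2
    rw [h8, one_smul] at hc
    exact hc rfl
  have hsum : (Finset.univ.filter (fun x : X => t • x = x)).card + (Finset.univ.filter (fun x : X => t • x ≠ x)).card = Fintype.card X := by
    rw [Finset.card_filter_add_card_filter_not, Finset.card_univ]
  have c1 := ShL.count1 (m := 4) h t ht2 _ hc hf2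
  have c2 := ShL.count3 h t ht2 _ hc (by omega)
  rw [c1] at c2
  generalize (Finset.univ.filter (fun x : X => t • x = x)).card = f at *
  generalize (Finset.univ.filter (fun x : X => t • x ≠ x)).card = M at *
  have : f = 4 ∨ f = 5 := by omega
  rcases this with rfl | rfl
  · have hM : M = 9 := by omega
    subst hM
    rw [show Nat.descFactorial 4 4 = 24 by decide] at c2
    omega
  · have hM : M = 8 := by omega
    subst hM
    rw [show Nat.descFactorial 5 4 = 120 by decide] at c2
    omega

theorem ShL.four_add {G X : Type*} [Group G] [MulAction G X] [Fintype X] (j : ℕ) (h : ShL G X (4 + j)) (hc : 4 + j ≤ Fintype.card X) :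
    Fintype.card X = 4 + j ∨ Fintype.card X = 5 + j ∨ Fintype.card X = 6 + j ∨ Fintype.card X = 11 + j := by
  induction j generalizing G X with
  | zero => exact h.four hc
  | succ j ih =>
    classical
    obtain ⟨a⟩ : Nonempty X := Fintype.card_pos_iff.1 (by omega)
    have h1 := h.stab a
    have h2 := SubMulAction.nat_card_ofStabilizer_add_one_eq (G := G) a
    haveI : Fintype (SubMulAction.ofStabilizer G a) := Fintype.ofFinite _
    rw [Nat.card_eq_fintype_card, Nat.card_eq_fintype_card] at h2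
    have := ih h1 (by omega)
    omega

theorem ShL.six_add {G X : Type*} [Group G] [MulAction G X] [Fintype X] (j : ℕ) (h : ShL G X (6 + j)) (hc : Fintype.card X = 13 + j) :
    False := by
  induction j generalizing G X with
  | zero => exact h.six hc
  | succ j ih =>
    classical
    obtain ⟨a⟩ : Nonempty X := Fintype.card_pos_iff.1 (by omega)
    have h1 := h.stab a
    have h2 := SubMulAction.nat_card_ofStabilizer_add_one_eq (G := G) a
    haveI : Fintype (SubMulAction.ofStabilizer G a) := Fintype.ofFinite _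
    rw [Nat.card_eq_fintype_card, Nat.card_eq_fintype_card] at h2
    exact ih h1 (by omega)

end CfsgLib.ShH14
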