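import Cfsg.Agent.LibShH14
set_option autoImplicit false
namespace CfsgLib.ShH14
open MulAction

variable {G X : Type*} [Group G] [MulAction G X] {k : ℕ}

theorem ShL.multi (h : ShL G X k) : MulAction.IsMultiplyPretransitive G X k := by
  constructor
  intro x y
  obtain ⟨g, hg⟩ := h.1 (List.ofFn x) (List.ofFn y) (List.nodup_ofFn.2 x.injective) (List.nodup_ofFn.2 y.injective) (by simp) (by simp)
  refine ⟨g, ?_⟩
  rw [List.map_ofFn] at hg
  have := List.ofFn_injective hg
  ext i
  exact congrFun this i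

theorem ShL.free (h : ShL G X k) (x : Fin k ↪ X) (g : G) (hg : ∀ i, g • x i = x i) : g = 1 := by
  apply h.2 (List.ofFn x) g (List.nodup_ofFn.2 x.injective) (by simp)
  intro z hz
  rw [List.mem_ofFn] at hz
  obtain ⟨i, rfl⟩ := hz
  exact hg i

theorem ShL.card_eq [Fintype X] (h : ShL G X k) (hk : k ≤ Fintype.card X) : Nat.card G = (Fintype.card X).descFactorial k := by
  classical
  obtain ⟨e⟩ : Nonempty (Fin k ↪ X) := Function.Embedding.nonempty_of_card_le (by rw [Fintype.card_fin]; exact hk)
  have hb : Function.Bijective (fun g : G => g • e) := by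
    constructor
    · intro g g' hgg
      have h1 : g⁻¹ * g' = 1 := by
        apply h.free e
        intro i
        have h2 : g • e i = g' • e i := congrArg (fun f : Fin k ↪ X => f i) hgg
        rw [mul_smul, ← h2, inv_smul_smul]
      exact inv_mul_eq_one.1 h1
    · intro y
      exact h.multi.exists_smul_eq e y
  rw [Nat.card_eq_of_bijective _ hb, Nat.card_eq_fintype_card, Fintype.card_embedding_eq, Fintype.card_fin]

theorem ShL.faithful [Fintype X] (h : ShL G X k) (hk : k ≤ Fintype.card X) (g : G) (hg : ∀ x : X, g • x = x) : g = 1 := by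
  obtain ⟨e⟩ : Nonempty (Fin k ↪ X) := Function.Embedding.nonempty_of_card_le (by rw [Fintype.card_fin]; exact hk)
  exact h.free e g (fun i => hg _)

theorem ShL.normal_trans [Fintype X] (h : ShL G X k) (hk : k ≤ Fintype.card X) (h2 : 2 ≤ k) (N : Subgroup G) [N.Normal] (hN : N ≠ ⊥) :
    IsPretransitive N X := by
  haveI := h.multi
  haveI : IsMultiplyPretransitive G X 2 := isMultiplyPretransitive_of_le h2 (by rw [Nat.card_eq_fintype_card]; exact hk)
  haveI : IsPreprimitive G X := isPreprimitive_of_is_two_pretransitive inferInstance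
  apply IsQuasiPreprimitive.isPretransitive_of_normal (N := N)
  intro hfix
  apply hN
  rw [eq_bot_iff]
  intro n hn
  rw [Subgroup.mem_bot]
  apply h.faithful hk
  intro x
  have : x ∈ fixedPoints N X := by rw [hfix]; exact Set.mem_univ x
  exact this ⟨n, hn⟩

theorem ShL.card_dvd_normal [Fintype X] (h : ShL G X k) (hk : k ≤ Fintype.card X) (h2 : 2 ≤ k) (N : Subgroup G) [N.Normal] (hN : N ≠ ⊥) :
    Fintype.card X ∣ Nat.card N := by
  haveI := h.normal_trans hk h2 N hN
  obtain ⟨x⟩ : Nonempty X := Fintype.card_pos_iff.1 (by omega)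
  have := index_stabilizer_of_transitive N x
  rw [Nat.card_eq_fintype_card] at this
  rw [← this]
  exact Subgroup.index_dvd_card _

theorem ShL.m11 [Fintype X] (h : ShL G X 4) (hX : Fintype.card X = 11) : IsSimpleGroup G ∧ Nat.card G = 7920 := by
  classical
  have hG : Nat.card G = 7920 := by
    rw [h.card_eq (by omega), hX]; decide
  haveI : Finite G := Nat.finite_of_card_ne_zero (by rw [hG]; norm_num)
  haveI : Fact (Nat.Prime 11) := ⟨by norm_num⟩
  refine ⟨?_, hG⟩
  obtain ⟨P⟩ : Nonempty (Sylow 11 G) := inferInstance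
  have hP : Nat.card P = 11 := by
    obtain ⟨m, hm⟩ := IsPGroup.iff_card.1 P.isPGroup'
    have h1 : 11 ^ m ∣ 7920 := by
      rw [← hm, ← hG]; exact Subgroup.card_subgroup_dvd_card _
    have h2 : 11 ∣ Nat.card P := P.dvd_card_of_dvd_card (by rw [hG]; norm_num)
    have hm1 : m < 2 := by
      by_contra hcon
      push Not at hcon
      have := (pow_dvd_pow 11 hcon).trans h1
      norm_num at this
    interval_cases m
    · rw [hm] at h2; norm_num at h2
    · rw [hm]; norm_num
  have hfaith : ∀ g : G, (∀ x : X, g • x = x) → g = 1 := fun g hg => h.faithful (by omega) g hg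
  -- P is transitive
  have hPne : (P : Subgroup G) ≠ ⊥ := by
    intro h0
    rw [h0] at hP
    simp at hP
  obtain ⟨p, hp, hp1⟩ : ∃ p : G, p ∈ (P : Subgroup G) ∧ p ≠ 1 := by
    by_contra hcon
    push Not at hcon
    exact hPne ((Subgroup.eq_bot_iff_forall _).2 hcon)
  obtain ⟨x0, hx0⟩ : ∃ x0 : X, p • x0 ≠ x0 := by
    by_contra hcon
    push Not at hcon
    exact hp1 (hfaith p hcon)
  have horb : ∀ x : X, Nat.card (orbit P x) * Nat.card (stabilizer P x) = 11 := by
    intro x
    refine Eq.trans ?_ hP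
    rw [Nat.card_coe_set_eq, ← index_stabilizer, mul_comm]
    exact Subgroup.card_mul_index _
  have htr0 : Nat.card (orbit P x0) = 11 := by
    have h1 : Nat.card (orbit P x0) ∣ 11 := ⟨_, (horb x0).symm⟩
    rcases (Nat.dvd_prime (by norm_num)).1 h1 with h2 | h2
    · exfalso
      have h3 := (Nat.card_eq_one_iff_unique.1 h2).1
      have h4 := h3.elim ⟨x0, mem_orbit_self x0⟩ ⟨p • x0, ⟨⟨p, hp⟩, rfl⟩⟩
      exact hx0 (congrArg Subtype.val h4).symm
    · exact h2
  have htr : ∀ x : X, x ∈ orbit P x0 := by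
    have h1 : orbit P x0 = Set.univ := by
      apply Set.eq_of_subset_of_ncard_le (Set.subset_univ _)
      rw [Set.ncard_univ, Nat.card_eq_fintype_card, hX, ← Nat.card_coe_set_eq, htr0]
    intro x
    rw [h1]; exact Set.mem_univ x
  have hsemi : ∀ q ∈ (P : Subgroup G), ∀ x : X, q • x = x → q = 1 := by
    intro q hq x hqx
    have h1 : Nat.card (orbit P x) = 11 := by
      rw [MulAction.orbit_eq_iff.2 (htr x)]
      exact htr0
    have h2 := horb x
    rw [h1] at h2
    have h3 : Nat.card (stabilizer P x) = 1 := by omega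
    have h4 := (Nat.card_eq_one_iff_unique.1 h3).1
    have h5 := h4.elim ⟨⟨q, hq⟩, hqx⟩ 1
    exact congrArg (fun z : stabilizer P x => ((z : P) : G)) h5
  -- the normalizer is small
  have hPp : ∀ q ∈ (P : Subgroup G), ∃ n : ℕ, q = p ^ n := by
    intro q hq
    have h1 : (⟨q, hq⟩ : P) ∈ Subgroup.zpowers (⟨p, hp⟩ : P) := by
      exact mem_zpowers_of_prime_card (p := 11) (g := (⟨p, hp⟩ : P)) (g' := ⟨q, hq⟩) hP (fun h => hp1 (congrArg Subtype.val h))
    obtain ⟨n, hn⟩ := (Submonoid.mem_powers_iff _ _).1 ((mem_powers_iff_mem_zpowers).2 h1)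
    exact ⟨n, (congrArg Subtype.val hn).symm⟩
  have hH : Nat.card (Subgroup.normalizer ((P : Subgroup G) : Set G)) ≤ 110 := by
    let f : Subgroup.normalizer ((P : Subgroup G) : Set G) → {z : X × X // z.1 ≠ z.2} := fun g =>
      ⟨((g : G) • x0, (g : G) • p • x0), fun hh => hx0 (smul_left_cancel _ hh).symm⟩
    have hf : Function.Injective f := by
      intro g g' hgg
      have h1 : (g : G) • x0 = (g' : G) • x0 := congrArg (fun z : {z : X × X // z.1 ≠ z.2} => z.1.1) hgg
      have h2 : (g : G) • p • x0 = (g' : G) • p • x0 := congrArg (fun z : {z : X × X // z.1 ≠ z.2} => z.1.2) hgg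
      set u : G := (g' : G)⁻¹ * g with hu
      have hu1 : u • x0 = x0 := by rw [hu, mul_smul, h1, inv_smul_smul]
      have hu2 : u • p • x0 = p • x0 := by rw [hu, mul_smul, h2, inv_smul_smul]
      have huN : u ∈ Subgroup.normalizer ((P : Subgroup G) : Set G) := mul_mem (inv_mem g'.2) g.2
      have h3 : u * p * u⁻¹ ∈ (P : Subgroup G) := (Subgroup.mem_normalizer_iff.1 huN p).1 hp
      have h4 : p⁻¹ * (u * p * u⁻¹) = 1 := by
        apply hsemi _ (mul_mem (inv_mem hp) h3) x0
        have e1 : u⁻¹ • x0 = x0 := by rw [inv_smul_eq_iff, hu1]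
        rw [mul_smul, mul_smul, mul_smul, e1, hu2, inv_smul_smul]
      have h5 : u * p = p * u := by
        have h6 : p = u * p * u⁻¹ := inv_mul_eq_one.1 h4
        rw [eq_mul_inv_iff_mul_eq] at h6
        exact h6.symm
      have h7 : u = 1 := by
        apply hfaith
        intro x
        obtain ⟨⟨q, hq⟩, hqx⟩ := htr x
        obtain ⟨n, rfl⟩ := hPp q hq
        have h8 : u * p ^ n = p ^ n * u := (Commute.pow_right h5 n).eq
        have h9 : p ^ n • x0 = x := hqx
        rw [← h9, ← mul_smul, h8, mul_smul, hu1]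
      apply Subtype.ext
      exact (inv_mul_eq_one.1 h7).symm
    have h1 := Nat.card_le_card_of_injective f hf
    refine h1.trans ?_
    have e : {z : X × X // z.1 ≠ z.2} ≃ ((Finset.univ : Finset X).offDiag : Finset (X × X)) :=
      Equiv.subtypeEquivRight (fun z => by simp)
    rw [Nat.card_congr e, Nat.card_eq_fintype_card, Fintype.card_coe, Finset.offDiag_card, Finset.card_univ, hX]
  have hn1 : Nat.card (Sylow 11 G) ≡ 1 [MOD 11] := card_sylow_modEq_one 11 G
  have hn2 : Nat.card (Sylow 11 G) = (Subgroup.normalizer ((P : Subgroup G) : Set G)).index := P.card_eq_index_normalizer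
  have hn3 := (Subgroup.normalizer ((P : Subgroup G) : Set G)).card_mul_index
  rw [← hn2, hG] at hn3
  have hn4 : Nat.card P ∣ Nat.card (Subgroup.normalizer ((P : Subgroup G) : Set G)) :=
    Subgroup.card_dvd_of_le Subgroup.le_normalizer
  rw [hP] at hn4
  obtain ⟨m, hm⟩ := hn4
  have hH55 : Nat.card (Subgroup.normalizer ((P : Subgroup G) : Set G)) = 55 := by
    rw [hm] at hn3 hH ⊢
    have hm10 : m ≤ 10 := by omega
    unfold Nat.ModEq at hn1
    generalize Nat.card (Sylow 11 G) = n at *
    interval_cases m <;> omega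
  -- simplicity
  haveI hnt : Nontrivial G := Finite.one_lt_card_iff_nontrivial.1 (by rw [hG]; norm_num)
  refine ⟨fun N hN => ?_⟩
  by_contra hcon
  rw [not_or] at hcon
  obtain ⟨hb, ht⟩ := hcon
  have hN11 := h.card_dvd_normal (by omega) (by norm_num) N hb
  rw [hX] at hN11
  have hNi := N.card_mul_index
  rw [hG] at hNi
  have hPN : (P : Subgroup G) ≤ N := by
    intro x hx
    have h1 : (x : G ⧸ N) ^ 11 = 1 := by
      have h2 : x ^ 11 = 1 := by
        have := pow_card_eq_one' (x := (⟨x, hx⟩ : (P : Subgroup G)))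
        rw [show Nat.card (P : Subgroup G) = 11 from hP] at this
        exact congrArg Subtype.val this
      rw [← QuotientGroup.mk_pow, h2]; rfl
    have h2 : orderOf (x : G ⧸ N) ∣ 11 := orderOf_dvd_of_pow_eq_one h1
    have h3 : orderOf (x : G ⧸ N) ∣ N.index := orderOf_dvd_natCard _
    rcases (Nat.dvd_prime (by norm_num)).1 h2 with h4 | h4
    · rw [orderOf_eq_one_iff] at h4
      exact (QuotientGroup.eq_one_iff x).1 h4
    · exfalso
      rw [h4] at h3
      have h5 := mul_dvd_mul hN11 h3
      rw [hNi] at h5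
      norm_num at h5
  have hF : Subgroup.normalizer ((P : Subgroup G) : Set G) ⊔ N = ⊤ := Sylow.normalizer_sup_eq_top' P hPN
  have hi : N.index ∣ 5 := by
    have h1 : N.index = N.relIndex (Subgroup.normalizer ((P : Subgroup G) : Set G)) := by
      rw [← Subgroup.relIndex_top_right, ← hF, Subgroup.relIndex_sup_right]
    have h2 : N.relIndex (Subgroup.normalizer ((P : Subgroup G) : Set G)) ∣ (P : Subgroup G).relIndex (Subgroup.normalizer ((P : Subgroup G) : Set G)) :=
      Subgroup.relIndex_dvd_of_le_left _ hPN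
    have h3 := Subgroup.relIndex_mul_relIndex ⊥ (P : Subgroup G) (Subgroup.normalizer ((P : Subgroup G) : Set G)) bot_le Subgroup.le_normalizer
    rw [Subgroup.relIndex_bot_left, Subgroup.relIndex_bot_left] at h3
    rw [hH55] at h3
    have h4 : (P : Subgroup G).relIndex (Subgroup.normalizer ((P : Subgroup G) : Set G)) = 5 := by
      have hP' : Nat.card (P : Subgroup G) = 11 := hP
      rw [hP'] at h3
      omega
    rw [h1, ← h4]; exact h2
  rcases (Nat.dvd_prime (by norm_num)).1 hi with h5 | h5
  · exact ht (Subgroup.index_eq_one.1 h5)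
  · rw [h5] at hNi
    have hN : Nat.card N = 1584 := by omega
    have h1 := h.stab x0
    have h2 := SubMulAction.nat_card_ofStabilizer_add_one_eq (G := G) x0
    haveI : Fintype (SubMulAction.ofStabilizer G x0) := Fintype.ofFinite _
    rw [Nat.card_eq_fintype_card, Nat.card_eq_fintype_card, hX] at h2
    have h3 : N.subgroupOf (stabilizer G x0) ≠ ⊥ := by
      intro hbot
      have h4 : Function.Injective (fun n : N => (n : G) • x0) := by
        intro n n' hnn
        have h6 : (n' : G)⁻¹ * n ∈ stabilizer G x0 := by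
          rw [mem_stabilizer_iff, mul_smul]
          have h7 : (n : G) • x0 = (n' : G) • x0 := hnn
          rw [h7, inv_smul_smul]
        have h8 : (⟨(n' : G)⁻¹ * n, h6⟩ : stabilizer G x0) ∈ N.subgroupOf (stabilizer G x0) :=
          Subgroup.mem_subgroupOf.2 (mul_mem (inv_mem n'.2) n.2)
        rw [hbot, Subgroup.mem_bot] at h8
        apply Subtype.ext
        exact (inv_mul_eq_one.1 (congrArg Subtype.val h8)).symm
      have h9 := Nat.card_le_card_of_injective _ h4
      rw [hN, Nat.card_eq_fintype_card, hX] at h9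
      omega
    have h4 := h1.card_dvd_normal (by omega) (by norm_num) _ h3
    have h6 : Nat.card (N.subgroupOf (stabilizer G x0)) ∣ Nat.card N := by
      have h7 : Nat.card (N.subgroupOf (stabilizer G x0)) = Nat.card ((N.subgroupOf (stabilizer G x0)).map (stabilizer G x0).subtype) :=
        (Subgroup.card_map_of_injective (Subgroup.subtype_injective _)).symm
      rw [h7]
      apply Subgroup.card_dvd_of_le
      rw [Subgroup.subgroupOf_map_subtype]
      exact inf_le_left
    have h7 : Fintype.card (SubMulAction.ofStabilizer G x0) = 10 := by omega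
    rw [h7] at h4
    rw [hN] at h6
    have := h4.trans h6
    norm_num at this

theorem ShL.m12 [Fintype X] (h : ShL G X 5) (hX : Fintype.card X = 12) : IsSimpleGroup G ∧ Nat.card G = 95040 := by
  classical
  have hG : Nat.card G = 95040 := by
    rw [h.card_eq (by omega), hX]; decide
  haveI : Finite G := Nat.finite_of_card_ne_zero (by rw [hG]; norm_num)
  refine ⟨?_, hG⟩
  haveI hnt : Nontrivial G := Finite.one_lt_card_iff_nontrivial.1 (by rw [hG]; norm_num)
  refine ⟨fun N hN => ?_⟩
  by_contra hcon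
  rw [not_or] at hcon
  obtain ⟨hb, ht⟩ := hcon
  have hN12 := h.card_dvd_normal (by omega) (by norm_num) N hb
  rw [hX] at hN12
  haveI := h.normal_trans (by omega) (by norm_num) N hb
  obtain ⟨x0⟩ : Nonempty X := Fintype.card_pos_iff.1 (by omega)
  have h1 := h.stab x0
  have h2 := SubMulAction.nat_card_ofStabilizer_add_one_eq (G := G) x0
  haveI : Fintype (SubMulAction.ofStabilizer G x0) := Fintype.ofFinite _
  rw [Nat.card_eq_fintype_card, Nat.card_eq_fintype_card, hX] at h2
  obtain ⟨hs, -⟩ := h1.m11 (by omega)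
  rcases hs.eq_bot_or_eq_top_of_normal (N.subgroupOf (stabilizer G x0)) inferInstance with h3 | h3
  · -- regular
    have hreg : ∀ n ∈ N, n • x0 = x0 → n = 1 := by
      intro n hn hnx
      have h8 : (⟨n, hnx⟩ : stabilizer G x0) ∈ N.subgroupOf (stabilizer G x0) := Subgroup.mem_subgroupOf.2 hn
      rw [h3, Subgroup.mem_bot] at h8
      exact congrArg Subtype.val h8
    have hconj : ∀ n ∈ N, n ≠ 1 → ∀ n' ∈ N, n' ≠ 1 → ∃ g : G, g * n * g⁻¹ = n' := by
      intro n hn hn1 n' hn' hn1'
      have e1 : n • x0 ≠ x0 := fun hh => hn1 (hreg n hn hh)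
      have e2 : n' • x0 ≠ x0 := fun hh => hn1' (hreg n' hn' hh)
      haveI := h.multi
      haveI : IsMultiplyPretransitive G X 2 := isMultiplyPretransitive_of_le (n := 5) (by norm_num) (by rw [Nat.card_eq_fintype_card]; omega)
      obtain ⟨g, hg1, hg2⟩ := is_two_pretransitive_iff.1 (inferInstance : IsMultiplyPretransitive G X 2) (Ne.symm e1) (Ne.symm e2)
      refine ⟨g, ?_⟩
      have e3 : g⁻¹ • x0 = x0 := by rw [inv_smul_eq_iff, hg1]
      have h8 : n'⁻¹ * (g * n * g⁻¹) = 1 := by
        apply hreg _ (mul_mem (inv_mem hn') (hN.conj_mem n hn g))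
        rw [mul_smul, mul_smul, mul_smul, e3, hg2, inv_smul_smul]
      exact (inv_mul_eq_one.1 h8).symm
    haveI : Fact (Nat.Prime 2) := ⟨by norm_num⟩
    haveI : Fact (Nat.Prime 3) := ⟨by norm_num⟩
    obtain ⟨a, ha⟩ := exists_prime_orderOf_dvd_card' 2 (show 2 ∣ Nat.card N from (by norm_num : 2 ∣ 12).trans hN12)
    obtain ⟨b, hb'⟩ := exists_prime_orderOf_dvd_card' 3 (show 3 ∣ Nat.card N from (by norm_num : 3 ∣ 12).trans hN12)
    have ha1 : (a : G) ≠ 1 := by
      intro hh
      have : a = 1 := Subtype.ext hh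
      rw [this, orderOf_one] at ha
      norm_num at ha
    have hb1 : (b : G) ≠ 1 := by
      intro hh
      have : b = 1 := Subtype.ext hh
      rw [this, orderOf_one] at hb'
      norm_num at hb'
    obtain ⟨g, hg⟩ := hconj a a.2 ha1 b b.2 hb1
    have h4 : orderOf (g * (a : G) * g⁻¹) = orderOf (a : G) := MulEquiv.orderOf_eq (MulAut.conj g) (a : G)
    rw [hg, Subgroup.orderOf_coe, Subgroup.orderOf_coe, ha, hb'] at h4
    norm_num at h4
  · apply ht
    rw [eq_top_iff]
    intro g _
    obtain ⟨n, hn⟩ := exists_smul_eq N x0 (g • x0)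
    have hn' : (n : G) • x0 = g • x0 := hn
    have h4 : (n : G)⁻¹ * g ∈ stabilizer G x0 := by
      rw [mem_stabilizer_iff, mul_smul, ← hn', inv_smul_smul]
    have h5 : (⟨(n : G)⁻¹ * g, h4⟩ : stabilizer G x0) ∈ N.subgroupOf (stabilizer G x0) := by
      rw [h3]; trivial
    have h6 : (n : G)⁻¹ * g ∈ N := Subgroup.mem_subgroupOf.1 h5
    have := mul_mem n.2 h6
    rwa [mul_inv_cancel_left] at this

end CfsgLib.ShH14
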