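import Cfsg.Agent.EqBase
import Mathlib

set_option autoImplicit false

/-!
Sums of signs `∑ λ(x²)` over a finite group of class at most two whose squares and commutators lie in a central
elementary abelian `2`-subgroup.
-/

namespace CfsgLib.SignSum

open Subgroup

variable {G : Type*} [Group G] [Fintype G]

/-- The radical of the commutator form composed with `l`. -/
def rad (Z0 : Subgroup G) (hc : Z0 ≤ center G) (hcomm : ∀ x u : G, x⁻¹ * u * x * u⁻¹ ∈ Z0)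
    (l : G → ℤ) (hlm : ∀ a ∈ Z0, ∀ b ∈ Z0, l (a * b) = l a * l b) (hl1 : l 1 = 1) : Subgroup G where
  carrier := {u | ∀ x : G, l (x⁻¹ * u * x * u⁻¹) = 1}
  one_mem' := by intro x; simpa using hl1
  mul_mem' := by
    intro a b ha hb x
    have hca := mem_center_iff.mp (hc (hcomm x b))
    have h1 : x⁻¹ * (a * b) * x * (a * b)⁻¹ = (x⁻¹ * a * x * a⁻¹) * (x⁻¹ * b * x * b⁻¹) := by
      have h2 : x⁻¹ * (a * b) * x * (a * b)⁻¹ =
          (x⁻¹ * a * x) * (x⁻¹ * b * x * b⁻¹) * a⁻¹ := by group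
      rw [h2, mul_assoc (x⁻¹ * a * x), ← hca a⁻¹, ← mul_assoc]
    rw [h1, hlm _ (hcomm x a) _ (hcomm x b), ha x, hb x, mul_one]
  inv_mem' := by
    intro a ha x
    have hca := mem_center_iff.mp (hc (hcomm x a))
    have h1 : (x⁻¹ * a⁻¹ * x * (a⁻¹)⁻¹) * (x⁻¹ * a * x * a⁻¹) = 1 := by
      have h0 : (x⁻¹ * a⁻¹ * x * (a⁻¹)⁻¹) * (x⁻¹ * a * x * a⁻¹) =
          x⁻¹ * a⁻¹ * x * (a * (x⁻¹ * a * x * a⁻¹)) := by group
      rw [h0, hca a]
      group
    have h2 := hlm _ (hcomm x a⁻¹) _ (hcomm x a)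
    rw [h1, hl1, ha x, mul_one] at h2
    exact h2.symm

theorem mem_rad {Z0 : Subgroup G} {hc : Z0 ≤ center G} {hcomm : ∀ x u : G, x⁻¹ * u * x * u⁻¹ ∈ Z0}
    {l : G → ℤ} {hlm : ∀ a ∈ Z0, ∀ b ∈ Z0, l (a * b) = l a * l b} {hl1 : l 1 = 1} {u : G} :
    u ∈ rad Z0 hc hcomm l hlm hl1 ↔ ∀ x : G, l (x⁻¹ * u * x * u⁻¹) = 1 := Iff.rfl

theorem center_le_rad (Z0 : Subgroup G) (hc : Z0 ≤ center G)
    (hcomm : ∀ x u : G, x⁻¹ * u * x * u⁻¹ ∈ Z0)
    (l : G → ℤ) (hlm : ∀ a ∈ Z0, ∀ b ∈ Z0, l (a * b) = l a * l b) (hl1 : l 1 = 1) :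
    center G ≤ rad Z0 hc hcomm l hlm hl1 := by
  intro u hu
  rw [mem_rad]
  intro x
  have h1 := mem_center_iff.mp hu x⁻¹
  rw [h1]
  simpa using hl1

theorem sq_mul (x u : G) : (x * u) ^ 2 = x ^ 2 * (x⁻¹ * u * x * u⁻¹) * u ^ 2 := by
  rw [pow_two, pow_two, pow_two]; group

theorem sq_sum (Z0 : Subgroup G) (hc : Z0 ≤ center G)
    (hcomm : ∀ x u : G, x⁻¹ * u * x * u⁻¹ ∈ Z0) (hsq : ∀ x : G, x ^ 2 ∈ Z0)
    (l : G → ℤ) (hlm : ∀ a ∈ Z0, ∀ b ∈ Z0, l (a * b) = l a * l b) (hl1 : l 1 = 1)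
    (hl2 : ∀ a ∈ Z0, l a = 1 ∨ l a = -1) :
    (∑ x : G, l (x ^ 2)) ^ 2 = 0 ∨
      (∑ x : G, l (x ^ 2)) ^ 2 = Nat.card G * Nat.card (rad Z0 hc hcomm l hlm hl1) := by
  classical
  set R := rad Z0 hc hcomm l hlm hl1 with hR
  have hll : ∀ a ∈ Z0, l a * l a = 1 := by
    intro a ha
    rcases hl2 a ha with h | h <;> rw [h] <;> norm_num
  have h1 : (∑ x : G, l (x ^ 2)) ^ 2 =
      ∑ u : G, l (u ^ 2) * ∑ x : G, l (x⁻¹ * u * x * u⁻¹) := by
    rw [pow_two, Finset.sum_mul_sum]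
    have h2 : ∀ x : G, ∑ y : G, l (x ^ 2) * l (y ^ 2) =
        ∑ u : G, l (u ^ 2) * l (x⁻¹ * u * x * u⁻¹) := by
      intro x
      rw [← Equiv.sum_comp (Equiv.mulLeft x)]
      apply Finset.sum_congr rfl
      intro u _
      rw [Equiv.coe_mulLeft, sq_mul, hlm _ (Z0.mul_mem (hsq x) (hcomm x u)) _ (hsq u),
        hlm _ (hsq x) _ (hcomm x u)]
      have := hll _ (hsq x)
      calc l (x ^ 2) * (l (x ^ 2) * l (x⁻¹ * u * x * u⁻¹) * l (u ^ 2))
          = (l (x ^ 2) * l (x ^ 2)) * (l (u ^ 2) * l (x⁻¹ * u * x * u⁻¹)) := by ring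
        _ = _ := by rw [this, one_mul]
    rw [Finset.sum_congr rfl (fun x _ => h2 x), Finset.sum_comm]
    apply Finset.sum_congr rfl
    intro u _
    rw [Finset.mul_sum]
  have h3 : ∀ u : G, ∑ x : G, l (x⁻¹ * u * x * u⁻¹) = if u ∈ R then (Nat.card G : ℤ) else 0 := by
    intro u
    split_ifs with hu
    · rw [Finset.sum_congr rfl (fun x _ => mem_rad.mp hu x)]
      simp [Nat.card_eq_fintype_card]
    · have h4 : ∃ g : G, l (g⁻¹ * u * g * u⁻¹) = -1 := by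
        by_contra hcon
        push Not at hcon
        apply hu
        rw [hR, mem_rad]
        intro x
        rcases hl2 _ (hcomm x u) with h | h
        · exact h
        · exact absurd h (hcon x)
      obtain ⟨g, hg⟩ := h4
      have h5 : ∑ x : G, l (x⁻¹ * u * x * u⁻¹) = - ∑ x : G, l (x⁻¹ * u * x * u⁻¹) := by
        conv_lhs => rw [← Equiv.sum_comp (Equiv.mulRight g)]
        rw [← Finset.sum_neg_distrib]
        apply Finset.sum_congr rfl
        intro x _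
        rw [Equiv.coe_mulRight]
        have hca := mem_center_iff.mp (hc (hcomm x u))
        have h6 : (x * g)⁻¹ * u * (x * g) * u⁻¹ = (x⁻¹ * u * x * u⁻¹) * (g⁻¹ * u * g * u⁻¹) := by
          have h7 : (x * g)⁻¹ * u * (x * g) * u⁻¹ = g⁻¹ * (x⁻¹ * u * x * u⁻¹) * (u * g * u⁻¹) := by
            group
          rw [h7, hca g⁻¹]
          group
        rw [h6, hlm _ (hcomm x u) _ (hcomm g u), hg]
        ring
      omega
  have h8 : (∑ x : G, l (x ^ 2)) ^ 2 = Nat.card G * ∑ u : R, l ((u : G) ^ 2) := by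
    rw [h1, Finset.mul_sum]
    have h9 : ∀ u : G, l (u ^ 2) * ∑ x : G, l (x⁻¹ * u * x * u⁻¹) =
        if u ∈ R then (Nat.card G : ℤ) * l (u ^ 2) else 0 := by
      intro u
      rw [h3 u]
      split_ifs
      · ring
      · ring
    rw [Finset.sum_congr rfl (fun u _ => h9 u), ← Finset.sum_filter]
    apply Finset.sum_subtype
    intro x
    simp
  have h10 : ∀ u ∈ R, ∀ v ∈ R, l ((u * v) ^ 2) = l (u ^ 2) * l (v ^ 2) := by
    intro u hu v hv
    rw [sq_mul, hlm _ (Z0.mul_mem (hsq u) (hcomm u v)) _ (hsq v), hlm _ (hsq u) _ (hcomm u v),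
      mem_rad.mp hv u, mul_one]
  by_cases h11 : ∀ u ∈ R, l (u ^ 2) = 1
  · right
    rw [h8, Finset.sum_congr rfl (fun (u : R) _ => h11 u u.2)]
    simp [Nat.card_eq_fintype_card]
  · left
    push Not at h11
    obtain ⟨v, hv, hv1⟩ := h11
    have hv2 : l (v ^ 2) = -1 := (hl2 _ (hsq v)).resolve_left hv1
    have h12 : ∑ u : R, l ((u : G) ^ 2) = - ∑ u : R, l ((u : G) ^ 2) := by
      conv_lhs => rw [← Equiv.sum_comp (Equiv.mulRight (⟨v, hv⟩ : R))]
      rw [← Finset.sum_neg_distrib]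
      apply Finset.sum_congr rfl
      intro u _
      rw [Equiv.coe_mulRight]
      show l (((u : G) * v) ^ 2) = _
      rw [h10 u u.2 v hv, hv2]
      ring
    have h13 : ∑ u : R, l ((u : G) ^ 2) = 0 := by omega
    rw [h8, h13, mul_zero]

theorem sq_sum_ne (Z0 : Subgroup G) (hc : Z0 ≤ center G)
    (hcomm : ∀ x u : G, x⁻¹ * u * x * u⁻¹ ∈ Z0) (hsq : ∀ x : G, x ^ 2 ∈ Z0)
    (l : G → ℤ) (hlm : ∀ a ∈ Z0, ∀ b ∈ Z0, l (a * b) = l a * l b) (hl1 : l 1 = 1)
    (hl2 : ∀ a ∈ Z0, l a = 1 ∨ l a = -1)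
    (h11 : ∀ u ∈ rad Z0 hc hcomm l hlm hl1, l (u ^ 2) = 1) :
    (∑ x : G, l (x ^ 2)) ^ 2 = Nat.card G * Nat.card (rad Z0 hc hcomm l hlm hl1) := by
  classical
  rcases sq_sum Z0 hc hcomm hsq l hlm hl1 hl2 with h | h
  · exfalso
    -- redo the computation
    set R := rad Z0 hc hcomm l hlm hl1 with hR
    have hll : ∀ a ∈ Z0, l a * l a = 1 := by
      intro a ha
      rcases hl2 a ha with h | h <;> rw [h] <;> norm_num
    have h1 : (∑ x : G, l (x ^ 2)) ^ 2 =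
        ∑ u : G, l (u ^ 2) * ∑ x : G, l (x⁻¹ * u * x * u⁻¹) := by
      rw [pow_two, Finset.sum_mul_sum]
      have h2 : ∀ x : G, ∑ y : G, l (x ^ 2) * l (y ^ 2) =
          ∑ u : G, l (u ^ 2) * l (x⁻¹ * u * x * u⁻¹) := by
        intro x
        rw [← Equiv.sum_comp (Equiv.mulLeft x)]
        apply Finset.sum_congr rfl
        intro u _
        rw [Equiv.coe_mulLeft, sq_mul, hlm _ (Z0.mul_mem (hsq x) (hcomm x u)) _ (hsq u),
          hlm _ (hsq x) _ (hcomm x u)]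
        have := hll _ (hsq x)
        calc l (x ^ 2) * (l (x ^ 2) * l (x⁻¹ * u * x * u⁻¹) * l (u ^ 2))
            = (l (x ^ 2) * l (x ^ 2)) * (l (u ^ 2) * l (x⁻¹ * u * x * u⁻¹)) := by ring
          _ = _ := by rw [this, one_mul]
      rw [Finset.sum_congr rfl (fun x _ => h2 x), Finset.sum_comm]
      apply Finset.sum_congr rfl
      intro u _
      rw [Finset.mul_sum]
    have h3 : ∀ u : G, 0 ≤ l (u ^ 2) * ∑ x : G, l (x⁻¹ * u * x * u⁻¹) := by
      intro u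
      by_cases hu : u ∈ R
      · rw [h11 u hu, Finset.sum_congr rfl (fun x _ => mem_rad.mp hu x)]
        simp
      · have h4 : ∃ g : G, l (g⁻¹ * u * g * u⁻¹) = -1 := by
          by_contra hcon
          push Not at hcon
          apply hu
          rw [hR, mem_rad]
          intro x
          rcases hl2 _ (hcomm x u) with h | h
          · exact h
          · exact absurd h (hcon x)
        obtain ⟨g, hg⟩ := h4
        have h5 : ∑ x : G, l (x⁻¹ * u * x * u⁻¹) = - ∑ x : G, l (x⁻¹ * u * x * u⁻¹) := by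
          conv_lhs => rw [← Equiv.sum_comp (Equiv.mulRight g)]
          rw [← Finset.sum_neg_distrib]
          apply Finset.sum_congr rfl
          intro x _
          rw [Equiv.coe_mulRight]
          have hca := mem_center_iff.mp (hc (hcomm x u))
          have h6 : (x * g)⁻¹ * u * (x * g) * u⁻¹ = (x⁻¹ * u * x * u⁻¹) * (g⁻¹ * u * g * u⁻¹) := by
            have h7 : (x * g)⁻¹ * u * (x * g) * u⁻¹ = g⁻¹ * (x⁻¹ * u * x * u⁻¹) * (u * g * u⁻¹) := by
              group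
            rw [h7, hca g⁻¹]
            group
          rw [h6, hlm _ (hcomm x u) _ (hcomm g u), hg]
          ring
        have h6 : ∑ x : G, l (x⁻¹ * u * x * u⁻¹) = 0 := by omega
        rw [h6, mul_zero]
    rw [h] at h1
    have h7 := (Finset.sum_eq_zero_iff_of_nonneg (fun u _ => h3 u)).mp h1.symm 1 (Finset.mem_univ _)
    simp [hl1] at h7
  · exact h

end CfsgLib.SignSum
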