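import Mathlib
import Cfsg.Agent.EqBase
import Cfsg.Prelude.Def_Characters
import Cfsg.Agent.LibFixIrr19
import Cfsg.Agent.LibCharMore

/-!
# All irreducible character degrees smaller than `p` (helper1)
-/

set_option autoImplicit false

namespace CfsgLib.SmallDeg

open Cfsg CfsgLib.CharBasic CfsgLib.Clifford
open scoped ComplexConjugate Pointwise

universe u v

/-- all character degrees are `< p` -/
def SD (p : ℕ) (G : Type u) [Group G] : Prop := ∀ χ : IrrCharacter G, charDegree (χ : G → ℂ) < p

variable {G : Type u} [Group G] {p : ℕ}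

theorem SD.sub [Finite G] (h : SD p G) (H : Subgroup G) : SD p H := by
  classical
  haveI := Fintype.ofFinite G
  haveI := Fintype.ofFinite H
  intro θ
  obtain ⟨χ, hχ, hne⟩ := exists_above H θ.2
  refine lt_of_le_of_lt ?_ (h ⟨χ, hχ⟩)
  exact CfsgLib.CharMore.degree_le_of_mult (isCharacter_restrict (CfsgLib.CharInt.irr_isCharacter hχ) H) θ.2 hne
    (CfsgLib.CharInt.irr_one_eq_charDegree θ.2) (CfsgLib.CharInt.irr_one_eq_charDegree hχ)

theorem SD.quot [Finite G] (h : SD p G) (N : Subgroup G) [N.Normal] : SD p (G ⧸ N) := by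
  intro ξ
  obtain ⟨χ, _, h2⟩ := CfsgLib.FixIrr19.charDegree_infl N ξ
  rw [← h2]; exact h χ

theorem SD.comm [Finite G] [hp : Fact p.Prime] (h : SD p G) (hG : IsPGroup p G) (a b : G) : a * b = b * a := by
  apply CfsgLib.FixIrr19.comm_of_linear
  intro χ
  obtain ⟨n, hn⟩ := IsPGroup.iff_card.1 hG
  have h3 := CfsgLib.CharInt2.charDegree_dvd_card χ.2
  rw [hn] at h3
  obtain ⟨k, _, hk⟩ := (Nat.dvd_prime_pow hp.out).1 h3
  have h4 : k = 0 := by
    by_contra hk0
    have := h χ
    rw [hk] at this
    exact absurd (Nat.le_self_pow hk0 p) (not_le.2 this)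
  rw [CfsgLib.CharInt.irr_one_eq_charDegree χ.2, hk, h4]; simp

theorem burnside [Fintype G] (X : Type v) [MulAction G X] [Finite X] :
    ∑ g : G, Nat.card (MulAction.fixedBy X g) = Nat.card (Quotient (MulAction.orbitRel G X)) * Nat.card G := by
  classical
  haveI := Fintype.ofFinite X
  haveI : Fintype (Quotient (MulAction.orbitRel G X)) := Fintype.ofFinite _
  have h := MulAction.sum_card_fixedBy_eq_card_orbits_mul_card_group G X
  simp only [Nat.card_eq_fintype_card]
  convert h

theorem card_fixedBy_prod (X : Type v) [MulAction G X] (g : G) :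
    Nat.card (MulAction.fixedBy (X × X) g) = Nat.card (MulAction.fixedBy X g) ^ 2 := by
  rw [sq, ← Nat.card_prod]
  refine Nat.card_congr
    { toFun := fun q => (⟨q.1.1, congrArg Prod.fst q.2⟩, ⟨q.1.2, congrArg Prod.snd q.2⟩)
      invFun := fun q => ⟨(q.1.1, q.2.1), Prod.ext q.1.2 q.2.2⟩
      left_inv := fun q => rfl
      right_inv := fun q => rfl }

theorem inner_perm [Fintype G] (X : Type v) [MulAction G X] [Finite X] :
    classInner (fun g : G => (Nat.card (MulAction.fixedBy X g) : ℂ)) (fun g : G => (Nat.card (MulAction.fixedBy X g) : ℂ)) =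
      (Nat.card (Quotient (MulAction.orbitRel G (X × X))) : ℂ) := by
  have h := burnside (G := G) (X × X)
  have hG : (Nat.card G : ℂ) ≠ 0 := by exact_mod_cast Nat.card_pos.ne'
  unfold classInner
  rw [inv_mul_eq_iff_eq_mul₀ hG]
  have h2 : ((∑ g : G, Nat.card (MulAction.fixedBy (X × X) g) : ℕ) : ℂ) =
      (Nat.card G : ℂ) * (Nat.card (Quotient (MulAction.orbitRel G (X × X))) : ℂ) := by
    rw [h]; push_cast; ring
  rw [← h2]
  push_cast
  refine Finset.sum_congr rfl fun g _ => ?_
  rw [card_fixedBy_prod]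
  simp [sq]

theorem inner_perm_one [Fintype G] (X : Type v) [MulAction G X] [Finite X] :
    classInner (fun g : G => (Nat.card (MulAction.fixedBy X g) : ℂ)) (fun g : G => (((1 : G →* ℂˣ) g : ℂˣ) : ℂ)) =
      (Nat.card (Quotient (MulAction.orbitRel G X)) : ℂ) := by
  have h := burnside (G := G) X
  have hG : (Nat.card G : ℂ) ≠ 0 := by exact_mod_cast Nat.card_pos.ne'
  unfold classInner
  rw [inv_mul_eq_iff_eq_mul₀ hG]
  have h2 : ((∑ g : G, Nat.card (MulAction.fixedBy X g) : ℕ) : ℂ) =
      (Nat.card G : ℂ) * (Nat.card (Quotient (MulAction.orbitRel G X)) : ℂ) := by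
    rw [h]; push_cast; ring
  rw [← h2]
  push_cast
  refine Finset.sum_congr rfl fun g _ => ?_
  simp

theorem count [Finite G] [hp : Fact p.Prime] (h : SD p G) (P : Sylow p G)
    (hTI : ∀ x ∈ (P : Subgroup G), x ≠ 1 → ∀ Q : Sylow p G, x ∈ (Q : Subgroup G) → Q = P) :
    (P : Subgroup G).Normal := by
  classical
  haveI := Fintype.ofFinite G
  by_cases hP1 : (P : Subgroup G) = ⊥
  · rw [hP1]; infer_instance
  have hPp : p ≤ Nat.card (P : Subgroup G) := by
    have := (IsPGroup.iff_card.1 P.2)
    obtain ⟨n, hn⟩ := this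
    change Nat.card (P : Subgroup G) = p ^ n at hn
    rw [hn]
    have hn0 : n ≠ 0 := by
      rintro rfl
      apply hP1
      rw [Subgroup.eq_bot_iff_card, hn, pow_zero]
    exact Nat.le_self_pow hn0 p
  -- P-orbits on (Sylow p G)
  have hfixP : ∀ x : (P : Subgroup G), x ≠ 1 → Nat.card (MulAction.fixedBy (Sylow p G) x) = 1 := by
    intro x hx
    rw [Nat.card_eq_one_iff_exists]
    have hxne : (x : G) ≠ 1 := fun e => hx (Subtype.ext e)
    refine ⟨⟨P, ?_⟩, ?_⟩
    · change (x : G) • P = P
      rw [Sylow.smul_eq_iff_mem_normalizer]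
      exact Subgroup.le_normalizer x.2
    · rintro ⟨Q, hQ⟩
      apply Subtype.ext
      change (x : G) • Q = Q at hQ
      rw [Sylow.smul_eq_iff_mem_normalizer] at hQ
      have h1 : (P : Subgroup G) ⊓ Subgroup.normalizer ((Q : Subgroup G) : Set G) = (P : Subgroup G) ⊓ (Q : Subgroup G) :=
        P.2.inf_normalizer_sylow Q
      have h2 : (x : G) ∈ (P : Subgroup G) ⊓ (Q : Subgroup G) := by rw [← h1]; exact ⟨x.2, hQ⟩
      exact hTI x x.2 hxne Q h2.2
  have hfixP1 : Nat.card (MulAction.fixedBy (Sylow p G) (1 : (P : Subgroup G))) = Nat.card (Sylow p G) := by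
    have : MulAction.fixedBy (Sylow p G) (1 : (P : Subgroup G)) = Set.univ := by
      ext Q; simp
    rw [this]; simp
  have hB := burnside (G := (P : Subgroup G)) (Sylow p G)
  rw [← Finset.add_sum_erase Finset.univ _ (Finset.mem_univ (1 : (P : Subgroup G))), hfixP1,
    Finset.sum_congr rfl (fun x hx => hfixP x (Finset.ne_of_mem_erase hx)), Finset.sum_const, Finset.card_erase_of_mem (Finset.mem_univ _),
    Finset.card_univ, smul_eq_mul, mul_one, ← Nat.card_eq_fintype_card] at hB
  set R := Nat.card (Quotient (MulAction.orbitRel (P : Subgroup G) (Sylow p G))) with hR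
  -- orbits of G on Sylow p G × Sylow p G
  have hsurj : Nat.card (Quotient (MulAction.orbitRel G (Sylow p G × Sylow p G))) ≤ R := by
    let f : Quotient (MulAction.orbitRel (P : Subgroup G) (Sylow p G)) → Quotient (MulAction.orbitRel G (Sylow p G × Sylow p G)) :=
      Quotient.map' (fun Q => (P, Q)) (by
        intro Q Q' hQ
        rw [MulAction.orbitRel_apply] at hQ
        obtain ⟨y, hy⟩ := hQ
        change MulAction.orbitRel G (Sylow p G × Sylow p G) (P, Q) (P, Q')
        rw [MulAction.orbitRel_apply]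
        refine ⟨(y : G), ?_⟩
        change ((y : G) • P, (y : G) • Q') = (P, Q)
        have h1 : (y : G) • P = P := by
          rw [Sylow.smul_eq_iff_mem_normalizer]
          exact Subgroup.le_normalizer y.2
        rw [h1]
        congr 1)
    apply Nat.card_le_card_of_surjective f
    intro q
    induction q using Quotient.inductionOn' with
    | h q =>
      obtain ⟨A, B⟩ := q
      obtain ⟨g, hg⟩ := MulAction.exists_smul_eq G A P
      refine ⟨Quotient.mk'' (g • B), ?_⟩
      change Quotient.mk'' (P, g • B) = Quotient.mk'' (A, B)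
      apply Quotient.sound'
      change MulAction.orbitRel G (Sylow p G × Sylow p G) (P, g • B) (A, B)
      rw [MulAction.orbitRel_apply]
      exact ⟨g, by change (g • A, g • B) = _; rw [hg]⟩
  have hone : Nat.card (Quotient (MulAction.orbitRel G (Sylow p G))) = 1 := by
    rw [Nat.card_eq_one_iff_exists]
    refine ⟨Quotient.mk'' P, fun q => ?_⟩
    induction q using Quotient.inductionOn' with
    | h q =>
      apply Quotient.sound'
      obtain ⟨g, hg⟩ := MulAction.exists_smul_eq G P q
      change MulAction.orbitRel G (Sylow p G) q P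
      rw [MulAction.orbitRel_apply]
      exact ⟨g, hg⟩
  -- characters
  set π : G → ℂ := fun g => (Nat.card (MulAction.fixedBy (Sylow p G) g) : ℂ) with hπ
  have hπc : IsCharacter G π := isCharacter_perm
  choose a ha using fun χ : IrrCharacter G => char_mult hπc (CfsgLib.CharInt.irr_isCharacter χ.2)
  let χ₀ : IrrCharacter G := ⟨fun g : G => (((1 : G →* ℂˣ) g : ℂˣ) : ℂ), isIrrCharacter_hom 1⟩
  have ha0 : a χ₀ = 1 := by
    have h1 := inner_perm_one (G := G) (Sylow p G)
    rw [hone] at h1
    have h2 := ha χ₀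
    have h3 : ((a χ₀ : ℕ) : ℂ) = ((1 : ℕ) : ℂ) := by rw [← h2]; exact h1
    exact_mod_cast h3
  have hd0 : charDegree (χ₀ : G → ℂ) = 1 := by
    have h1 := CfsgLib.CharInt.irr_one_eq_charDegree χ₀.2
    have h2 : (χ₀ : G → ℂ) 1 = 1 := by simp [χ₀]
    rw [h2] at h1
    exact_mod_cast h1.symm
  have hsq : ∑ χ : IrrCharacter G, a χ ^ 2 = Nat.card (Quotient (MulAction.orbitRel G (Sylow p G × Sylow p G))) := by
    have h1 := parseval (char_classFun hπc) (char_classFun hπc)
    rw [hπ, inner_perm (Sylow p G)] at h1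
    have h2 : (Nat.card (Quotient (MulAction.orbitRel G (Sylow p G × Sylow p G))) : ℂ) = ((∑ χ : IrrCharacter G, a χ ^ 2 : ℕ) : ℂ) := by
      rw [h1]; push_cast
      refine Finset.sum_congr rfl fun χ _ => ?_
      change classInner π χ * conj (classInner π χ) = _
      rw [ha χ]; simp [sq]
    exact_mod_cast h2.symm
  have hdeg : ∑ χ : IrrCharacter G, a χ * charDegree (χ : G → ℂ) = Nat.card (Sylow p G) := by
    have h1 := classFun_expand_apply (char_classFun hπc) 1
    have h2 : π 1 = (Nat.card (Sylow p G) : ℂ) := by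
      rw [hπ]
      have : MulAction.fixedBy (Sylow p G) (1 : G) = Set.univ := by ext Q; simp
      simp only [this]; simp
    rw [h2] at h1
    have h3 : (Nat.card (Sylow p G) : ℂ) = ((∑ χ : IrrCharacter G, a χ * charDegree (χ : G → ℂ) : ℕ) : ℂ) := by
      rw [h1]; push_cast
      refine Finset.sum_congr rfl fun χ _ => ?_
      rw [ha χ, CfsgLib.CharInt.irr_one_eq_charDegree χ.2]
    exact_mod_cast h3.symm
  rw [← Finset.add_sum_erase Finset.univ _ (Finset.mem_univ χ₀), ha0] at hsq
  rw [← Finset.add_sum_erase Finset.univ _ (Finset.mem_univ χ₀), ha0, hd0] at hdeg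
  have hle : ∑ χ ∈ Finset.univ.erase χ₀, a χ * charDegree (χ : G → ℂ) ≤ (p - 1) * ∑ χ ∈ Finset.univ.erase χ₀, a χ ^ 2 := by
    rw [Finset.mul_sum]
    refine Finset.sum_le_sum fun χ _ => ?_
    have h1 : charDegree (χ : G → ℂ) ≤ p - 1 := Nat.le_sub_one_of_lt (h χ)
    rcases Nat.eq_zero_or_pos (a χ) with h0 | h0
    · rw [h0]; simp
    · calc a χ * charDegree (χ : G → ℂ) ≤ a χ * (p - 1) := Nat.mul_le_mul_left _ h1
        _ ≤ (a χ * (p - 1)) * a χ := Nat.le_mul_of_pos_right _ h0
        _ = (p - 1) * a χ ^ 2 := by ring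
  have hn1 : Nat.card (Sylow p G) = 1 := by
    set S2 := ∑ χ ∈ Finset.univ.erase χ₀, a χ ^ 2 with hS2
    set S1 := ∑ χ ∈ Finset.univ.erase χ₀, a χ * charDegree (χ : G → ℂ) with hS1
    set c := Nat.card (P : Subgroup G) with hc
    have hp1 := hp.out.one_lt
    have h1 : S2 + 1 ≤ R := by omega
    obtain ⟨m, hm⟩ : ∃ m, R = m + 1 := ⟨R - 1, by omega⟩
    rw [hm] at hB h1
    have h2 : S1 = m * c := by
      have : (m + 1) * c = m * c + c := by ring
      omega
    have h3 : S2 ≤ m := by omega
    have h4 : m * c ≤ (p - 1) * m := by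
      calc m * c = S1 := h2.symm
        _ ≤ (p - 1) * S2 := hle
        _ ≤ (p - 1) * m := Nat.mul_le_mul_left _ h3
    have h5 : m = 0 := by
      by_contra hm0
      have : m * p ≤ (p - 1) * m := le_trans (Nat.mul_le_mul_left _ hPp) h4
      rw [mul_comm m p] at this
      have h6 := Nat.le_of_mul_le_mul_right this (Nat.pos_of_ne_zero hm0)
      omega
    rw [h5] at h2
    omega
  haveI : Subsingleton (Sylow p G) := (Nat.card_eq_one_iff_unique.1 hn1).1
  exact Sylow.normal_of_subsingleton P

theorem central_normal [Finite G] [hp : Fact p.Prime] (P : Sylow p G) {x : G} (hxP : x ∈ (P : Subgroup G))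
    (hx : x ∈ Subgroup.center G) (ih : ∀ [(Subgroup.zpowers x).Normal] (Q : Sylow p (G ⧸ Subgroup.zpowers x)), (Q : Subgroup (G ⧸ Subgroup.zpowers x)).Normal) :
    (P : Subgroup G).Normal := by
  haveI : (Subgroup.zpowers x).Normal := ⟨fun n hn g => by
    have : n ∈ Subgroup.center G := (Subgroup.zpowers_le.2 hx) hn
    rw [Subgroup.mem_center_iff] at this
    rw [this g, mul_inv_cancel_right]; exact hn⟩
  have h1 := ih (P.mapSurjective (QuotientGroup.mk'_surjective (Subgroup.zpowers x)))
  rw [Sylow.coe_mapSurjective] at h1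
  have h2 : ((P : Subgroup G).map (QuotientGroup.mk' (Subgroup.zpowers x))).comap (QuotientGroup.mk' (Subgroup.zpowers x)) = P := by
    rw [Subgroup.comap_map_eq, QuotientGroup.ker_mk', sup_eq_left, Subgroup.zpowers_le]
    exact hxP
  rw [← h2]
  exact h1.comap _

theorem main (p : ℕ) [hp : Fact p.Prime] : ∀ (n : ℕ) (G : Type u) [Group G] [Finite G], Nat.card G = n → SD p G →
    ∀ P : Sylow p G, (P : Subgroup G).Normal := by
  intro n
  induction n using Nat.strong_induction_on with
  | _ n ih =>
    intro G _ _ hn h P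
    by_cases hc : ∃ x ∈ (P : Subgroup G), x ≠ 1 ∧ x ∈ Subgroup.center G
    · obtain ⟨x, hxP, hx1, hxc⟩ := hc
      refine central_normal P hxP hxc ?_
      intro _ Q
      refine ih _ ?_ _ rfl (h.quot _) Q
      rw [← hn]
      have h1 := Subgroup.card_eq_card_quotient_mul_card_subgroup (Subgroup.zpowers x)
      have h2 : 1 < Nat.card (Subgroup.zpowers x) := by
        rw [Subgroup.one_lt_card_iff_ne_bot]
        rw [Ne, Subgroup.zpowers_eq_bot]; exact hx1
      rw [h1]
      exact lt_mul_of_one_lt_right Nat.card_pos h2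
    · push Not at hc
      apply count h P
      intro x hxP hx1 Q hxQ
      have hcen : Subgroup.centralizer ({x} : Set G) ≠ ⊤ := by
        intro htop
        apply hc x hxP hx1
        rw [Subgroup.mem_center_iff]
        intro g
        have : g ∈ Subgroup.centralizer ({x} : Set G) := by rw [htop]; trivial
        rw [Subgroup.mem_centralizer_singleton_iff] at this
        exact this
      have hle : ∀ Q : Sylow p G, x ∈ (Q : Subgroup G) → (Q : Subgroup G) ≤ Subgroup.centralizer ({x} : Set G) := by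
        intro Q hxQ y hy
        rw [Subgroup.mem_centralizer_singleton_iff]
        have := (h.sub (Q : Subgroup G)).comm Q.2 ⟨y, hy⟩ ⟨x, hxQ⟩
        exact congrArg Subtype.val this
      have hlt : Nat.card (Subgroup.centralizer ({x} : Set G)) < n := by
        rw [← hn]
        exact lt_of_le_of_ne (Subgroup.card_le_card_group _) (fun e => hcen (Subgroup.eq_top_of_card_eq _ e))
      have hN := ih _ hlt (Subgroup.centralizer ({x} : Set G)) rfl (h.sub _)
      have hnP := hN (P.subtype (hle P hxP))
      haveI : Subsingleton (Sylow p (Subgroup.centralizer ({x} : Set G))) :=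
        (Sylow.unique_of_normal _ hnP).instSubsingleton
      have heq : Q.subtype (hle Q hxQ) = P.subtype (hle P hxP) := Subsingleton.elim _ _
      have h3 := congrArg (fun S : Sylow p (Subgroup.centralizer ({x} : Set G)) => (S : Subgroup ↥(Subgroup.centralizer ({x} : Set G))).map (Subgroup.subtype _)) heq
      simp only [Sylow.coe_subtype, Subgroup.map_subgroupOf_eq_of_le (hle Q hxQ), Subgroup.map_subgroupOf_eq_of_le (hle P hxP)] at h3
      exact Sylow.ext h3

end CfsgLib.SmallDeg
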