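import Cfsg.Statements.S0190
import Cfsg.Agent.LibCharIndA

set_option autoImplicit false
set_option linter.all false
open Cfsg

namespace Cfsg.Agent.S0190

/-- For a transitive action of a finite group on X, the permutation character g ↦ (number of fixed points of g) is the function induced from the principal character of the stabilizer of any point. -/
theorem result {G : Type*} [Group G] [Fintype G] (X : Type*) [MulAction G X] [Finite X] [MulAction.IsPretransitive G X] (x : X) : (fun g : G => (Nat.card (MulAction.fixedBy X g) : ℂ)) = Cfsg.indFun (MulAction.stabilizer G x) (fun _ => 1) := by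
  classical
  haveI := Fintype.ofFinite X
  ext g
  rw [CfsgLib.CharIndA.ind_apply]
  have h1 : ∀ y : G, extendByZero (MulAction.stabilizer G x) (fun _ => (1 : ℂ)) (y⁻¹ * g * y) =
      if g • (y • x) = y • x then 1 else 0 := by
    intro y
    by_cases h : y⁻¹ * g * y ∈ MulAction.stabilizer G x
    · rw [CfsgLib.CharIndA.ext_mem _ _ h, if_pos]
      rw [MulAction.mem_stabilizer_iff, mul_smul, mul_smul, inv_smul_eq_iff] at h
      exact h
    · rw [CfsgLib.CharIndA.ext_not_mem _ _ h, if_neg]
      rw [MulAction.mem_stabilizer_iff, mul_smul, mul_smul, inv_smul_eq_iff] at h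
      exact h
  rw [Finset.sum_congr rfl fun y _ => h1 y]
  -- sum over fibers of y ↦ y • x
  have h2 : ∑ y : G, (if g • (y • x) = y • x then (1:ℂ) else 0) =
      ∑ z : X, (Nat.card (MulAction.stabilizer G x) : ℂ) * (if g • z = z then 1 else 0) := by
    rw [← Finset.sum_fiberwise (s := Finset.univ) (g := fun y : G => y • x)]
    refine Finset.sum_congr rfl fun z _ => ?_
    have h3 : ∀ y ∈ Finset.univ.filter (fun y : G => y • x = z), (if g • (y • x) = y • x then (1:ℂ) else 0) = if g • z = z then 1 else 0 := by
      intro y hy
      rw [(Finset.mem_filter.mp hy).2]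
    rw [Finset.sum_congr rfl h3, Finset.sum_const, nsmul_eq_mul]
    congr 2
    obtain ⟨y0, hy0⟩ := MulAction.exists_smul_eq G x z
    rw [Nat.card_eq_fintype_card, Fintype.card_subtype]
    apply Finset.card_bij' (fun y _ => y0⁻¹ * y) (fun y _ => y0 * y)
    · intro y hy
      simp only [Finset.mem_filter, Finset.mem_univ, true_and] at hy ⊢
      rw [MulAction.mem_stabilizer_iff, mul_smul, hy, ← hy0, inv_smul_smul]
    · intro y hy
      simp only [Finset.mem_filter, Finset.mem_univ, true_and, MulAction.mem_stabilizer_iff] at hy ⊢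
      rw [mul_smul, hy, hy0]
    · intro y _; simp
    · intro y _; simp
  rw [h2, ← Finset.mul_sum, Finset.sum_boole]
  have hS : (Nat.card (MulAction.stabilizer G x) : ℂ) ≠ 0 := by exact_mod_cast Nat.card_pos.ne'
  rw [← mul_assoc, inv_mul_cancel₀ hS, one_mul, Nat.card_eq_fintype_card, ← Fintype.card_subtype]
  rfl

end Cfsg.Agent.S0190
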