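import Cfsg.Agent.EqBase
import Cfsg.Agent.LibBrauerInd
import Cfsg.Agent.LibInd2
import Cfsg.Agent.S0190
/-!
# Products of permutation characters and Solomon's local theorem (helper16)
-/
set_option autoImplicit false
set_option linter.all false
open Cfsg CfsgLib.CharBasic CfsgLib.CharIndA
open scoped ComplexConjugate
namespace CfsgLib.Solomon

universe u
variable {G : Type u} [Group G]

/-- `p`-quasi-elementary subgroups -/
def QE (p : ℕ) (H : Subgroup G) : Prop :=
  ∃ C : Subgroup G, C ≤ H ∧ H ≤ Subgroup.normalizer (C : Set G) ∧ IsCyclic C ∧ Nat.Coprime (Nat.card C) p ∧ ∃ k : ℕ, C.relIndex H = p ^ k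

theorem QE.sub [Finite G] {p : ℕ} (hp : p.Prime) {H U : Subgroup G} (h : QE p H) (hU : U ≤ H) : QE p U := by
  obtain ⟨C, h1, h2, h3, h4, k, h5⟩ := h
  refine ⟨C ⊓ U, inf_le_right, ?_, ?_, ?_, ?_⟩
  · intro u hu
    rw [Subgroup.mem_normalizer_iff]
    have h6 := Subgroup.mem_normalizer_iff.mp (h2 (hU hu))
    intro c
    constructor
    · rintro ⟨ha, hb⟩
      exact ⟨(h6 c).mp ha, U.mul_mem (U.mul_mem hu hb) (U.inv_mem hu)⟩
    · rintro ⟨ha, hb⟩
      refine ⟨(h6 c).mpr ha, ?_⟩
      have := U.mul_mem (U.mul_mem (U.inv_mem hu) hb) hu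
      simpa [mul_assoc] using this
  · haveI := h3
    exact isCyclic_of_injective (Subgroup.inclusion (inf_le_left : C ⊓ U ≤ C)) (Subgroup.inclusion_injective _)
  · exact Nat.Coprime.coprime_dvd_left (Subgroup.card_dvd_of_le inf_le_left) h4
  · have hn : (C.subgroupOf H).Normal := by
      constructor
      intro c hc g
      rw [Subgroup.mem_subgroupOf] at hc ⊢
      exact ((Subgroup.mem_normalizer_iff.mp (h2 g.2)) c).mp hc
    have h6 : (C.subgroupOf H).relIndex (U.subgroupOf H) ∣ (C.subgroupOf H).index := Subgroup.relIndex_dvd_index_of_normal _ _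
    rw [Subgroup.relIndex_subgroupOf hU] at h6
    have h7 : (C.subgroupOf H).index = p ^ k := h5
    rw [h7] at h6
    obtain ⟨j, -, hj⟩ := (Nat.dvd_prime_pow hp).mp h6
    exact ⟨j, by rw [Subgroup.inf_relIndex_right, hj]⟩

variable [Fintype G]

theorem one_apply (H : Subgroup G) (g : G) :
    indFun H (fun _ => 1) g = (Nat.card H : ℂ)⁻¹ * (Nat.card {y : G // y⁻¹ * g * y ∈ H} : ℂ) := by
  classical
  rw [ind_apply]
  congr 1
  have h1 : ∀ y : G, extendByZero H (fun _ => (1 : ℂ)) (y⁻¹ * g * y) = if y⁻¹ * g * y ∈ H then 1 else 0 := by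
    intro y
    by_cases h : y⁻¹ * g * y ∈ H
    · rw [ext_mem _ _ h, if_pos h]
    · rw [ext_not_mem _ _ h, if_neg h]
  rw [Finset.sum_congr rfl fun y _ => h1 y, Finset.sum_boole, Nat.card_eq_fintype_card, Fintype.card_subtype]

theorem one_fixed (H : Subgroup G) (g : G) :
    indFun H (fun _ => 1) g = (Nat.card (MulAction.fixedBy (G ⧸ H) g) : ℂ) := by
  have h1 := congrFun (Cfsg.Agent.S0190.result (G := G) (G ⧸ H) ((1 : G) : G ⧸ H)) g
  rw [h1]
  have h2 : MulAction.stabilizer G ((1 : G) : G ⧸ H) = H := MulAction.stabilizer_quotient H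
  rw [one_apply, one_apply, h2]

theorem card_conj_map (H : Subgroup G) (x : G) : Nat.card (H.map (MulAut.conj x).toMonoidHom) = Nat.card H :=
  Subgroup.card_map_of_injective (MulAut.conj x).injective

theorem mem_map_conj {H : Subgroup G} {x y : G} : y ∈ H.map (MulAut.conj x).toMonoidHom ↔ x⁻¹ * y * x ∈ H := by
  rw [Subgroup.mem_map]
  constructor
  · rintro ⟨h, hh, rfl⟩
    show x⁻¹ * (x * h * x⁻¹) * x ∈ H
    have : x⁻¹ * (x * h * x⁻¹) * x = h := by group
    rw [this]; exact hh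
  · intro h
    refine ⟨_, h, ?_⟩
    show x * (x⁻¹ * y * x) * x⁻¹ = y
    group

theorem one_conj (H : Subgroup G) (x : G) : indFun (H.map (MulAut.conj x).toMonoidHom) (fun _ => 1) = indFun H (fun _ => 1) := by
  ext g
  rw [one_apply, one_apply, card_conj_map]
  congr 2
  apply Nat.card_congr
  refine ⟨fun y => ⟨y.1 * x, ?_⟩, fun y => ⟨y.1 * x⁻¹, ?_⟩, fun y => ?_, fun y => ?_⟩
  · have := mem_map_conj.mp y.2
    have e : (y.1 * x)⁻¹ * g * (y.1 * x) = x⁻¹ * (y.1⁻¹ * g * y.1) * x := by group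
    rw [e]; exact this
  · rw [mem_map_conj]
    have e : x⁻¹ * ((y.1 * x⁻¹)⁻¹ * g * (y.1 * x⁻¹)) * x = y.1⁻¹ * g * y.1 := by group
    rw [e]; exact y.2
  · apply Subtype.ext; simp
  · apply Subtype.ext; simp

/-- the intersections occurring in Mackey's formula -/
def UU (H K : Subgroup G) (z : G) : Subgroup G := H ⊓ K.map (MulAut.conj z).toMonoidHom

theorem mem_UU {H K : Subgroup G} {z y : G} : y ∈ UU H K z ↔ y ∈ H ∧ z⁻¹ * y * z ∈ K := by
  unfold UU
  rw [Subgroup.mem_inf, mem_map_conj]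

theorem UU_act (H K : Subgroup G) (h : H) (k : K) (z : G) :
    UU H K (h * z * (k : G)⁻¹) = (UU H K z).map (MulAut.conj (h : G)).toMonoidHom := by
  ext y
  rw [mem_map_conj, mem_UU, mem_UU]
  have e1 : y ∈ H ↔ (h : G)⁻¹ * y * h ∈ H :=
    ⟨fun hy => H.mul_mem (H.mul_mem (H.inv_mem h.2) hy) h.2, fun hy => by
      have := H.mul_mem (H.mul_mem h.2 hy) (H.inv_mem h.2)
      simpa [mul_assoc] using this⟩
  have e2 : ((h : G) * z * (k : G)⁻¹)⁻¹ * y * (h * z * (k : G)⁻¹) = k * (z⁻¹ * ((h : G)⁻¹ * y * h) * z) * (k : G)⁻¹ := by group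
  rw [e2, ← e1]
  have e3 : (k : G) * (z⁻¹ * ((h : G)⁻¹ * y * h) * z) * (k : G)⁻¹ ∈ K ↔ z⁻¹ * ((h : G)⁻¹ * y * h) * z ∈ K :=
    ⟨fun hy => by
      have := K.mul_mem (K.mul_mem (K.inv_mem k.2) hy) k.2
      have e : (k : G)⁻¹ * ((k : G) * (z⁻¹ * ((h : G)⁻¹ * y * h) * z) * (k : G)⁻¹) * k = z⁻¹ * ((h : G)⁻¹ * y * h) * z := by group
      rwa [e] at this, fun hy => K.mul_mem (K.mul_mem k.2 hy) (K.inv_mem k.2)⟩
  rw [e3]

/-- the two-sided action -/
@[reducible] def act (H K : Subgroup G) : MulAction (H × K) G where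
  smul p z := (p.1 : G) * z * (p.2 : G)⁻¹
  one_smul z := by
    show ((1 : H) : G) * z * ((1 : K) : G)⁻¹ = z
    simp
  mul_smul p q z := by
    show ((p.1 * q.1 : H) : G) * z * ((p.2 * q.2 : K) : G)⁻¹ = (p.1 : G) * ((q.1 : G) * z * (q.2 : G)⁻¹) * (p.2 : G)⁻¹
    push_cast
    group

/-- the product of two permutation characters as a sum over all elements -/
theorem mul_eq_sum (H K : Subgroup G) : indFun H (fun _ => 1) * indFun K (fun _ => 1) =
    ∑ z : G, ((Nat.card (UU H K z) : ℂ) / ((Nat.card H : ℂ) * (Nat.card K : ℂ))) • indFun (UU H K z) (fun _ => 1) := by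
  classical
  ext g
  rw [Pi.mul_apply, one_apply, one_apply, Finset.sum_apply]
  have hH : (Nat.card H : ℂ) ≠ 0 := by exact_mod_cast Nat.card_pos.ne'
  have hK : (Nat.card K : ℂ) ≠ 0 := by exact_mod_cast Nat.card_pos.ne'
  have h1 : ∀ z : G, (((Nat.card (UU H K z) : ℂ) / ((Nat.card H : ℂ) * (Nat.card K : ℂ))) • indFun (UU H K z) (fun _ => 1)) g =
      ((Nat.card H : ℂ) * (Nat.card K : ℂ))⁻¹ * (Nat.card {y : G // y⁻¹ * g * y ∈ UU H K z} : ℂ) := by
    intro z
    have hU : (Nat.card (UU H K z) : ℂ) ≠ 0 := by exact_mod_cast Nat.card_pos.ne'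
    rw [Pi.smul_apply, smul_eq_mul, one_apply]
    field_simp
  rw [Finset.sum_congr rfl fun z _ => h1 z, ← Finset.mul_sum]
  have h2 : (Nat.card {y : G // y⁻¹ * g * y ∈ H} : ℂ) * (Nat.card {y : G // y⁻¹ * g * y ∈ K} : ℂ) =
      ∑ z : G, (Nat.card {y : G // y⁻¹ * g * y ∈ UU H K z} : ℂ) := by
    rw [← Nat.cast_mul, ← Nat.cast_sum]
    congr 1
    rw [← Nat.card_prod, ← Nat.card_sigma]
    apply Nat.card_congr
    refine ⟨fun p => ⟨p.1.1⁻¹ * p.2.1, ⟨p.1.1, ?_⟩⟩, fun q => (⟨q.2.1, ?_⟩, ⟨q.2.1 * q.1, ?_⟩), ?_, ?_⟩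
    · rw [mem_UU]
      refine ⟨p.1.2, ?_⟩
      have e : (p.1.1⁻¹ * p.2.1)⁻¹ * (p.1.1⁻¹ * g * p.1.1) * (p.1.1⁻¹ * p.2.1) = p.2.1⁻¹ * g * p.2.1 := by group
      rw [e]; exact p.2.2
    · exact (mem_UU.mp q.2.2).1
    · have := (mem_UU.mp q.2.2).2
      have e : (q.2.1 * q.1)⁻¹ * g * (q.2.1 * q.1) = q.1⁻¹ * (q.2.1⁻¹ * g * q.2.1) * q.1 := by group
      rw [e]; exact this
    · rintro ⟨⟨x, hx⟩, ⟨y, hy⟩⟩
      simp
    · rintro ⟨z, ⟨x, hx⟩⟩
      have e : x⁻¹ * (x * z) = z := by group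
      apply Sigma.ext
      · exact e
      · simp only
        congr 1
        · ext y; rw [e]
        · exact proof_irrel_heq _ _
  rw [← h2, mul_inv]
  ring

/-- S0870 -/
theorem product (H K : Subgroup G) : ∃ a : Subgroup G → ℕ, (∀ U, a U ≠ 0 → U ≤ H) ∧
    indFun H (fun _ => 1) * indFun K (fun _ => 1) = ∑ U : Subgroup G, (a U : ℂ) • indFun U (fun _ => 1) := by
  classical
  letI := act H K
  let Ω := MulAction.orbitRel.Quotient (H × K) G
  haveI : Fintype Ω := Fintype.ofFinite Ω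
  haveI := Fintype.ofFinite (Subgroup G)
  let u : Ω → Subgroup G := fun ω => UU H K (Quotient.out ω)
  refine ⟨fun U => (Finset.univ.filter (fun ω : Ω => u ω = U)).card, ?_, ?_⟩
  · intro U hU
    obtain ⟨ω, hω⟩ := Finset.card_pos.mp (Nat.pos_of_ne_zero hU)
    rw [← (Finset.mem_filter.mp hω).2]
    exact inf_le_left
  · rw [mul_eq_sum]
    have hH : (Nat.card H : ℂ) ≠ 0 := by exact_mod_cast Nat.card_pos.ne'
    have hK : (Nat.card K : ℂ) ≠ 0 := by exact_mod_cast Nat.card_pos.ne'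
    have h1 : ∑ z : G, ((Nat.card (UU H K z) : ℂ) / ((Nat.card H : ℂ) * (Nat.card K : ℂ))) • indFun (UU H K z) (fun _ => 1) =
        ∑ ω : Ω, indFun (u ω) (fun _ => 1) := by
      rw [← Finset.sum_fiberwise (s := Finset.univ) (g := fun z : G => (Quotient.mk'' z : Ω))]
      refine Finset.sum_congr rfl fun ω _ => ?_
      set z₀ : G := Quotient.out ω with hz₀
      have h2 : ∀ z ∈ Finset.univ.filter (fun z : G => (Quotient.mk'' z : Ω) = ω),
          ((Nat.card (UU H K z) : ℂ) / ((Nat.card H : ℂ) * (Nat.card K : ℂ))) • indFun (UU H K z) (fun _ => 1) =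
          ((Nat.card (UU H K z₀) : ℂ) / ((Nat.card H : ℂ) * (Nat.card K : ℂ))) • indFun (UU H K z₀) (fun _ => 1) := by
        intro z hz
        have h3 : (Quotient.mk'' z : Ω) = Quotient.mk'' z₀ := by
          rw [(Finset.mem_filter.mp hz).2, hz₀]
          exact (Quotient.out_eq ω).symm
        have h4 : z ∈ MulAction.orbit (H × K) z₀ := MulAction.orbitRel_apply.mp (Quotient.exact h3)
        obtain ⟨⟨h, k⟩, hhk⟩ := h4
        have h5 : z = (h : G) * z₀ * (k : G)⁻¹ := hhk.symm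
        rw [h5, UU_act, card_conj_map, one_conj]
      rw [Finset.sum_congr rfl h2, Finset.sum_const]
      have h6 : (Finset.univ.filter (fun z : G => (Quotient.mk'' z : Ω) = ω)).card * Nat.card (UU H K z₀) = Nat.card H * Nat.card K := by
        have h7 : (Finset.univ.filter (fun z : G => (Quotient.mk'' z : Ω) = ω)).card = Nat.card (MulAction.orbit (H × K) z₀) := by
          rw [Nat.card_eq_fintype_card, ← Set.toFinset_card]
          congr 1
          ext z
          rw [Finset.mem_filter, Set.mem_toFinset]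
          have h8 : (Quotient.mk'' z₀ : Ω) = ω := Quotient.out_eq ω
          constructor
          · rintro ⟨-, h3⟩
            exact MulAction.orbitRel_apply.mp (Quotient.exact (h3.trans h8.symm))
          · intro h3
            exact ⟨Finset.mem_univ _, (Quotient.sound (MulAction.orbitRel_apply.mpr h3)).trans h8⟩
        have h9 : Nat.card (UU H K z₀) = Nat.card (MulAction.stabilizer (H × K) z₀) := by
          apply Nat.card_congr
          refine ⟨fun y => ⟨(⟨y.1, (mem_UU.mp y.2).1⟩, ⟨z₀⁻¹ * y.1 * z₀, (mem_UU.mp y.2).2⟩), ?_⟩, fun p => ⟨p.1.1, ?_⟩, fun y => rfl, fun p => ?_⟩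
          · rw [MulAction.mem_stabilizer_iff]
            show y.1 * z₀ * (z₀⁻¹ * y.1 * z₀)⁻¹ = z₀
            group
          · have h10 := MulAction.mem_stabilizer_iff.mp p.2
            have h11 : (p.1.1 : G) * z₀ * (p.1.2 : G)⁻¹ = z₀ := h10
            rw [mem_UU]
            refine ⟨p.1.1.2, ?_⟩
            have h12 : z₀⁻¹ * (p.1.1 : G) * z₀ = p.1.2 := by
              have : (p.1.1 : G) * z₀ = z₀ * p.1.2 := mul_inv_eq_iff_eq_mul.mp h11
              rw [mul_assoc, this]; group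
            rw [h12]; exact p.1.2.2
          · have h11 : (p.1.1 : G) * z₀ * (p.1.2 : G)⁻¹ = z₀ := MulAction.mem_stabilizer_iff.mp p.2
            apply Subtype.ext
            apply Prod.ext
            · rfl
            · apply Subtype.ext
              have : (p.1.1 : G) * z₀ = z₀ * p.1.2 := mul_inv_eq_iff_eq_mul.mp h11
              show z₀⁻¹ * (p.1.1 : G) * z₀ = p.1.2
              rw [mul_assoc, this]; group
        rw [h7, h9, ← Nat.card_prod, Nat.card_congr (MulAction.orbitProdStabilizerEquivGroup (H × K) z₀), Nat.card_prod]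
      have hU : (Nat.card (UU H K z₀) : ℂ) ≠ 0 := by exact_mod_cast Nat.card_pos.ne'
      have h6' : ((Finset.univ.filter (fun z : G => (Quotient.mk'' z : Ω) = ω)).card : ℂ) * (Nat.card (UU H K z₀) : ℂ) = (Nat.card H : ℂ) * (Nat.card K : ℂ) := by
        exact_mod_cast h6
      rw [← Nat.cast_smul_eq_nsmul ℂ, smul_smul, ← mul_div_assoc, h6', div_self (mul_ne_zero hH hK), one_smul]
    rw [h1]
    have h3 : ∑ ω : Ω, indFun (u ω) (fun _ => (1 : ℂ)) = ∑ U : Subgroup G, ∑ ω ∈ Finset.univ.filter (fun ω : Ω => u ω = U), indFun (u ω) (fun _ => 1) :=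
      (Finset.sum_fiberwise _ _ _).symm
    rw [h3]
    have hinst : ∀ (i1 i2 : Fintype (Subgroup G)) (f : Subgroup G → G → ℂ), @Finset.sum _ _ _ (@Finset.univ _ i1) f = @Finset.sum _ _ _ (@Finset.univ _ i2) f := by
      intro i1 i2 f
      congr 1
      ext x; simp
    rw [hinst _ _]
    refine Finset.sum_congr rfl fun U _ => ?_
    have h4 : ∀ ω ∈ Finset.univ.filter (fun ω : Ω => u ω = U), indFun (u ω) (fun _ => (1 : ℂ)) = indFun U (fun _ => 1) := by
      intro ω hω
      rw [(Finset.mem_filter.mp hω).2]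
    rw [Finset.sum_congr rfl h4, Finset.sum_const, Nat.cast_smul_eq_nsmul]

end CfsgLib.Solomon

namespace CfsgLib.Solomon
section Local
universe u
variable {G : Type u} [Group G] [Fintype G]

/-- S0871 -/
theorem exists_local (x : G) (p : ℕ) (hp : p.Prime) : ∃ H : Subgroup G, QE p H ∧ ∃ n : ℕ, indFun H (fun _ => 1) x = (n : ℂ) ∧ ¬ p ∣ n := by
  classical
  haveI := Fact.mk hp
  obtain ⟨s, t, k, hx, hst, hs, ⟨a, ht⟩, hsk, -, -⟩ := CfsgLib.BrauerInd.exists_parts p hp x
  set C := Subgroup.zpowers s with hC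
  set N := Subgroup.normalizer (C : Set G) with hN
  have hCN : C ≤ N := Subgroup.le_normalizer
  have hsN : s ∈ N := hCN (Subgroup.mem_zpowers s)
  have htN : t ∈ N := by
    rw [hN, Subgroup.mem_normalizer_iff]
    intro y
    have h1 : ∀ j : ℤ, t * s ^ j * t⁻¹ = s ^ j := by
      intro j
      have : t * s ^ j = s ^ j * t := (Commute.zpow_right (show Commute t s from hst.symm) j).eq
      rw [this]; group
    constructor
    · intro hy
      obtain ⟨j, rfl⟩ := Subgroup.mem_zpowers_iff.mp hy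
      rw [h1]; exact hy
    · intro hy
      obtain ⟨j, hj⟩ := Subgroup.mem_zpowers_iff.mp hy
      have : y = s ^ j := by
        have h2 : t⁻¹ * (t * y * t⁻¹) * t = y := by group
        rw [← hj] at h2
        rw [← h2]
        have := h1 j
        calc t⁻¹ * s ^ j * t = t⁻¹ * (t * s ^ j * t⁻¹) * t := by rw [this]
          _ = s ^ j := by group
      rw [this]; exact Subgroup.zpow_mem_zpowers _ _
  haveI hCn : (C.subgroupOf N).Normal := inferInstance
  let q := QuotientGroup.mk' (C.subgroupOf N)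
  have hxt : (q ⟨t, htN⟩) ^ (p ^ a) = 1 := by
    rw [← map_pow]
    have : (⟨t, htN⟩ : N) ^ (p ^ a) = 1 := Subtype.ext ht
    rw [this, map_one]
  have hpg : IsPGroup p (Subgroup.zpowers (q ⟨t, htN⟩)) := by
    obtain ⟨b, hb, hb'⟩ := (Nat.dvd_prime_pow hp).mp (orderOf_dvd_of_pow_eq_one hxt)
    exact IsPGroup.of_card (n := b) (by rw [Nat.card_zpowers, hb'])
  obtain ⟨P, hP⟩ := hpg.exists_le_sylow
  set H' : Subgroup N := (P : Subgroup (N ⧸ C.subgroupOf N)).comap q with hH'
  have hCH' : C.subgroupOf N ≤ H' := by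
    intro c hc
    rw [hH', Subgroup.mem_comap]
    have : q c = 1 := (QuotientGroup.eq_one_iff c).mpr hc
    rw [this]; exact Subgroup.one_mem _
  have htH' : (⟨t, htN⟩ : N) ∈ H' := hP (Subgroup.mem_zpowers _)
  set H := H'.map N.subtype with hH
  have hHN : H ≤ N := Subgroup.map_subtype_le H'
  have hmemH : ∀ y (hy : y ∈ N), y ∈ H ↔ (⟨y, hy⟩ : N) ∈ H' := by
    intro y hy
    constructor
    · rintro ⟨z, hz, hz'⟩
      have : (⟨y, hy⟩ : N) = z := Subtype.ext hz'.symm
      rw [this]; exact hz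
    · intro h; exact ⟨_, h, rfl⟩
  have hCH : C ≤ H := fun c hc => (hmemH c (hCN hc)).mpr (hCH' (Subgroup.mem_subgroupOf.mpr hc))
  have hrel : ∃ k : ℕ, C.relIndex H = p ^ k := by
    obtain ⟨k, hk⟩ := IsPGroup.iff_card.mp P.isPGroup'
    refine ⟨k, ?_⟩
    have e1 : C.relIndex H = (C.subgroupOf N).relIndex H' := by
      have e2 := Subgroup.relIndex_subgroupOf (H := C) (K := H) (L := N) hHN
      rw [← e2]
      congr 1
      exact Subgroup.comap_map_eq_self_of_injective N.subtype_injective H'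
    have e3 : (C.subgroupOf N).relIndex H' = Nat.card P := by
      have e4 : (C.subgroupOf N).relIndex H' = q.ker.relIndex H' := by
        congr 1
        exact (QuotientGroup.ker_mk' _).symm
      rw [e4, Subgroup.relIndex_ker]
      have e5 : H'.map q = (P : Subgroup (N ⧸ C.subgroupOf N)) := Subgroup.map_comap_eq_self_of_surjective (QuotientGroup.mk'_surjective _) _
      rw [e5]
    rw [e1, e3, hk]
  have hcard : ¬ p ∣ H'.index := by
    rw [hH', Subgroup.index_comap_of_surjective _ (QuotientGroup.mk'_surjective _)]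
    exact P.not_dvd_index
  refine ⟨H, ⟨C, hCH, hHN, inferInstance, by rw [Nat.card_zpowers]; exact hs, hrel⟩, Nat.card (MulAction.fixedBy (N ⧸ H') (⟨t, htN⟩ : N)), ?_, ?_⟩
  · haveI := Fintype.ofFinite N
    have h1 := one_fixed H' (⟨t, htN⟩ : N)
    rw [one_apply] at h1 ⊢
    rw [← h1]
    have hcH : Nat.card H = Nat.card H' := Subgroup.card_map_of_injective N.subtype_injective
    rw [hcH]
    congr 2
    have hyN : ∀ y : G, y⁻¹ * x * y ∈ H → y ∈ N := by
      intro y hy
      -- `y⁻¹ s y ∈ H` has order prime to `p`, so lies in `C`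
      have h2 : y⁻¹ * s * y ∈ H := by
        have : y⁻¹ * s * y = (y⁻¹ * x * y) ^ k := by
          rw [hsk]
          have : y⁻¹ * x * y = y⁻¹ * x * y⁻¹⁻¹ := by rw [inv_inv]
          rw [this, conj_pow, inv_inv]
        rw [this]; exact H.pow_mem hy k
      have h3 : y⁻¹ * s * y ∈ C := by
        have h4 : (⟨_, hHN h2⟩ : N) ∈ H' := (hmemH _ (hHN h2)).mp h2
        have h5 : q ⟨_, hHN h2⟩ ∈ (P : Subgroup (N ⧸ C.subgroupOf N)) := h4
        have h6 : orderOf (q ⟨_, hHN h2⟩) ∣ orderOf s := by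
          refine (orderOf_map_dvd q _).trans ?_
          rw [Subgroup.orderOf_mk]
          have := MulEquiv.orderOf_eq (MulAut.conj y⁻¹) s
          rw [MulAut.conj_apply, inv_inv] at this
          rw [this]
        obtain ⟨b, hb⟩ := IsPGroup.iff_orderOf.mp P.isPGroup' ⟨_, h5⟩
        rw [Subgroup.orderOf_mk] at hb
        rw [hb] at h6
        have h7 : p ^ b = 1 := Nat.eq_one_of_dvd_coprimes (hs.pow_right b) h6 dvd_rfl
        rw [h7, orderOf_eq_one_iff] at hb
        exact Subgroup.mem_subgroupOf.mp ((QuotientGroup.eq_one_iff _).mp hb)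
      have h8 : y⁻¹ ∈ N := by
        have h9 : C.map (MulAut.conj y⁻¹).toMonoidHom ≤ C := by
          rw [Subgroup.map_le_iff_le_comap, hC, Subgroup.zpowers_le, Subgroup.mem_comap]
          show y⁻¹ * s * y⁻¹⁻¹ ∈ Subgroup.zpowers s
          rw [inv_inv]; exact h3
        have h10 : C.map (MulAut.conj y⁻¹).toMonoidHom = C := Subgroup.eq_of_le_of_card_ge h9 (by rw [card_conj_map])
        rw [hN, Subgroup.mem_normalizer_iff]
        intro c
        constructor
        · intro hc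
          rw [← h10]
          exact ⟨c, hc, rfl⟩
        · intro hc
          rw [← h10] at hc
          obtain ⟨c', hc', he⟩ := hc
          have : c' = c := (MulAut.conj y⁻¹).injective he
          rw [← this]; exact hc'
      simpa using N.inv_mem h8
    apply Nat.card_congr
    have hiff : ∀ y (hy : y ∈ N), y⁻¹ * x * y ∈ H ↔ (⟨y, hy⟩ : N)⁻¹ * ⟨t, htN⟩ * ⟨y, hy⟩ ∈ H' := by
      intro y hy
      have e1 : y⁻¹ * x * y = (y⁻¹ * s * y) * (y⁻¹ * t * y) := by rw [hx]; group
      have e2 : y⁻¹ * s * y ∈ C := by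
        have := (Subgroup.mem_normalizer_iff.mp (N.inv_mem hy) s).mp (Subgroup.mem_zpowers s)
        simpa using this
      rw [e1, H.mul_mem_cancel_left (hCH e2)]
      exact hmemH _ (N.mul_mem (N.mul_mem (N.inv_mem hy) htN) hy)
    refine ⟨fun y => ⟨⟨y.1, hyN y.1 y.2⟩, (hiff _ _).mp y.2⟩, fun y => ⟨y.1.1, (hiff _ y.1.2).mpr y.2⟩, fun y => rfl, fun y => rfl⟩
  · intro hdvd
    apply hcard
    have h1 := CfsgLib.BrauerInd.card_fixedBy_modEq (X := N ⧸ H') p hp (⟨t, htN⟩ : N) ⟨a, Subtype.ext ht⟩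
    rw [← Subgroup.index_eq_card] at h1
    exact (Nat.modEq_zero_iff_dvd).mp (h1.trans ((Nat.modEq_zero_iff_dvd).mpr hdvd))

/-- S0872 -/
theorem solomon_local (p : ℕ) (hp : p.Prime) : ∃ (m : ℤ) (a : Subgroup G → ℤ), ¬ (p : ℤ) ∣ m ∧ (∀ H, a H ≠ 0 → QE p H) ∧
    (fun _ : G => (m : ℂ)) = ∑ H : Subgroup G, (a H : ℂ) • indFun H (fun _ => 1) := by
  classical
  let V : Submodule ℤ (G → ℂ) := Submodule.span ℤ {f | ∃ H : Subgroup G, QE p H ∧ f = indFun H (fun _ => 1)}
  have hmem : ∀ f ∈ V, ∃ a : Subgroup G → ℤ, (∀ H, a H ≠ 0 → QE p H) ∧ f = ∑ H : Subgroup G, (a H : ℂ) • indFun H (fun _ => 1) := by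
    intro f hf
    induction hf using Submodule.span_induction with
    | mem f hf =>
      obtain ⟨H, hH, rfl⟩ := hf
      refine ⟨fun K => if K = H then 1 else 0, ?_, ?_⟩
      · intro K hK
        have : K = H := by by_contra hne; exact hK (if_neg hne)
        rw [this]; exact hH
      · rw [Finset.sum_eq_single H]
        · simp
        · intro K _ hne
          have : (if K = H then (1 : ℤ) else 0) = 0 := if_neg hne
          show (((if K = H then (1 : ℤ) else 0) : ℤ) : ℂ) • _ = _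
          rw [this]; simp
        · intro h; exact absurd (Finset.mem_univ _) h
    | zero => exact ⟨0, fun H h => absurd rfl h, by simp⟩
    | add f g _ _ hf hg =>
      obtain ⟨a, ha, rfl⟩ := hf
      obtain ⟨b, hb, rfl⟩ := hg
      refine ⟨a + b, ?_, ?_⟩
      · intro H hH
        by_cases h1 : a H = 0
        · apply hb; intro h2; apply hH; rw [Pi.add_apply, h1, h2, add_zero]
        · exact ha H h1
      · rw [← Finset.sum_add_distrib]
        refine Finset.sum_congr rfl fun H _ => ?_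
        rw [← add_smul, Pi.add_apply]; push_cast; rfl
    | smul n f _ hf =>
      obtain ⟨a, ha, rfl⟩ := hf
      refine ⟨fun H => n * a H, ?_, ?_⟩
      · intro H hH
        apply ha; intro h2; apply hH
        show n * a H = 0
        rw [h2, mul_zero]
      · rw [Finset.smul_sum]
        refine Finset.sum_congr rfl fun H _ => ?_
        rw [← Int.cast_smul_eq_zsmul ℂ, smul_smul]; push_cast; rfl
  have hV : ∀ f ∈ V, ∀ g ∈ V, f * g ∈ V := by
    have key : ∀ H K : Subgroup G, QE p H → QE p K → indFun H (fun _ => (1 : ℂ)) * indFun K (fun _ => 1) ∈ V := by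
      intro H K hH hK
      obtain ⟨a, ha, he⟩ := product H K
      rw [he]
      apply Submodule.sum_mem
      intro U _
      by_cases h0 : a U = 0
      · rw [h0]; simp
      · have : (a U : ℂ) • indFun U (fun _ => (1 : ℂ)) = (a U : ℤ) • indFun U (fun _ => 1) := by
          ext g; simp
        rw [this]
        exact Submodule.smul_mem _ _ (Submodule.subset_span ⟨U, hH.sub hp (ha U h0), rfl⟩)
    intro f hf g hg
    induction hf using Submodule.span_induction with
    | mem f hf =>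
      obtain ⟨H, hH, rfl⟩ := hf
      induction hg using Submodule.span_induction with
      | mem g hg =>
        obtain ⟨K, hK, rfl⟩ := hg
        exact key H K hH hK
      | zero => rw [mul_zero]; exact V.zero_mem
      | add f g _ _ h1 h2 => rw [mul_add]; exact V.add_mem h1 h2
      | smul n f _ h1 => rw [mul_smul_comm]; exact V.smul_mem _ h1
    | zero => rw [zero_mul]; exact V.zero_mem
    | add f g _ _ h1 h2 => rw [add_mul]; exact V.add_mem h1 h2
    | smul n f _ h1 => rw [smul_mul_assoc]; exact V.smul_mem _ h1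
  choose H hH n hn hpn using fun x : G => exists_local x p hp
  have h1 := CfsgLib.BrauerInd.smul_one_mem V hV (fun x => indFun (H x) (fun _ => 1)) (fun x => Submodule.subset_span ⟨H x, hH x, rfl⟩)
    (fun x => (n x : ℤ)) (fun x => by rw [hn x]; simp)
  obtain ⟨a, ha, he⟩ := hmem _ h1
  refine ⟨∏ x, (n x : ℤ), a, ?_, ha, ?_⟩
  · intro hd
    obtain ⟨x, -, hx⟩ := (Prime.dvd_finset_prod_iff (Nat.prime_iff_prime_int.mp hp) _).mp hd
    exact hpn x (Int.natCast_dvd_natCast.mp hx)
  · rw [← he]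
    ext g
    simp

end Local
end CfsgLib.Solomon
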