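import Cfsg.Agent.LibInvo29e
import Cfsg.Agent.LibSemi29c

/-! Similarities of alternating forms: parity of eigenspaces (seat helper29). -/

namespace CfsgLib.Sp29

open Module CfsgLib.Invo29 CfsgLib.Semi29

variable {F V : Type*} [Field F] [AddCommGroup V] [Module F V]

lemma even_top [FiniteDimensional F V] (f : V →ₗ[F] V →ₗ[F] F) (halt : ∀ v, f v v = 0) (hND : NDon f ⊤) : Even (finrank F V) := by
  obtain ⟨ι, _, e, -, -⟩ := exists_hyp f halt hND
  rw [finrank_eq_card_basis e, Fintype.card_prod, Fintype.card_fin]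
  exact ⟨Fintype.card ι, by ring⟩

lemma even_sub [FiniteDimensional F V] (f : V →ₗ[F] V →ₗ[F] F) (halt : ∀ v, f v v = 0) (W : Submodule F V) (hND : NDon f W) :
    Even (finrank F W) := by
  let g : W →ₗ[F] W →ₗ[F] F := f.compl₁₂ W.subtype W.subtype
  refine even_top g (fun v => halt v) ?_
  intro u _ h
  have := hND u u.2 (fun v hv => h ⟨v, hv⟩ trivial)
  exact Subtype.ext this

/-- an eigenspace for `ν` with `ν² = λ` has even dimension -/
theorem even_eig [FiniteDimensional F V] (f : V →ₗ[F] V →ₗ[F] F) (halt : ∀ v, f v v = 0) (hND : NDon f ⊤)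
    (x : V →ₗ[F] V) (hss : Semi x) (lam ν : F) (hν : ν ≠ 0) (hl : ν * ν = lam) (hx : ∀ u v, f (x u) (x v) = lam * f u v)
    (W : Submodule F V) (hW : ∀ u, u ∈ W ↔ x u = ν • u) : Even (finrank F W) := by
  have hWi : Inv x W := by
    intro u hu
    rw [(hW u).1 hu]
    exact W.smul_mem _ hu
  obtain ⟨D, hD, hWD⟩ := hss W hWi
  -- surjectivity of x - ν on D
  have hsurj : ∀ d ∈ D, ∃ d' ∈ D, x d' - ν • d' = d := by
    let g : D →ₗ[F] D := (x - ν • LinearMap.id).restrict (p := D) (q := D) (fun u hu => D.sub_mem (hD u hu) (D.smul_mem _ hu))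
    have hinj : Function.Injective g := by
      rw [← LinearMap.ker_eq_bot, eq_bot_iff]
      intro u hu
      have h1 : x u - ν • (u : V) = 0 := congrArg Subtype.val hu
      have h2 : (u : V) ∈ W ⊓ D := ⟨(hW _).2 (sub_eq_zero.1 h1), u.2⟩
      rw [hWD.inf_eq_bot] at h2
      exact Subtype.ext h2
    intro d hd
    obtain ⟨d', hd'⟩ := (LinearMap.injective_iff_surjective.1 hinj) ⟨d, hd⟩
    exact ⟨d', d'.2, congrArg Subtype.val hd'⟩
  have horth : ∀ w ∈ W, ∀ d ∈ D, f w d = 0 := by
    intro w hw d hd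
    obtain ⟨d', -, rfl⟩ := hsurj d hd
    have h1 := hx w d'
    rw [(hW w).1 hw, map_smul, LinearMap.smul_apply, smul_eq_mul, ← hl, mul_assoc] at h1
    have h2 := mul_left_cancel₀ hν h1
    rw [map_sub, map_smul, h2, smul_eq_mul, sub_self]
  refine even_sub f halt W ?_
  intro u hu h
  refine hND u trivial ?_
  intro v _
  obtain ⟨w, hw, d, hd, rfl⟩ := Submodule.mem_sup.1 (by rw [hWD.sup_eq_top]; trivial : v ∈ W ⊔ D)
  rw [map_add, h w hw, horth u hu d hd, add_zero]

/-- isotropic subspaces are at most half-dimensional -/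
lemma iso_le [FiniteDimensional F V] (f : V →ₗ[F] V →ₗ[F] F) (hND : NDon f ⊤) (W : Submodule F V)
    (h : ∀ u ∈ W, ∀ v ∈ W, f u v = 0) : 2 * finrank F W ≤ finrank F V := by
  -- W embeds in the annihilator of W
  let g : W →ₗ[F] Module.Dual F (V ⧸ W) :=
    { toFun := fun u => W.liftQ (f u) (fun v hv => h u u.2 v hv)
      map_add' := by
        intro a b
        refine LinearMap.ext fun v => ?_
        obtain ⟨v, rfl⟩ := Submodule.mkQ_surjective W v
        show f ((a + b : W) : V) v = f (a : V) v + f (b : V) v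
        rw [Submodule.coe_add, map_add, LinearMap.add_apply]
      map_smul' := by
        intro a b
        refine LinearMap.ext fun v => ?_
        obtain ⟨v, rfl⟩ := Submodule.mkQ_surjective W v
        show f ((a • b : W) : V) v = a * f (b : V) v
        rw [Submodule.coe_smul, map_smul, LinearMap.smul_apply, smul_eq_mul] }
  have hinj : Function.Injective g := by
    rw [← LinearMap.ker_eq_bot, eq_bot_iff]
    intro u hu
    refine Subtype.ext (hND u trivial fun v _ => ?_)
    have h1 := LinearMap.congr_fun (LinearMap.mem_ker.1 hu) (W.mkQ v)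
    exact h1
  have h1 := LinearMap.finrank_le_finrank_of_injective hinj
  rw [Subspace.dual_finrank_eq] at h1
  have h2 := Submodule.finrank_quotient_add_finrank W
  omega

/-- a large eigenspace has even dimension -/
theorem even_of_large [FiniteDimensional F V] (f : V →ₗ[F] V →ₗ[F] F) (halt : ∀ v, f v v = 0) (hND : NDon f ⊤)
    (x : V →ₗ[F] V) (hss : Semi x) (lam ν : F) (hν : ν ≠ 0) (hx : ∀ u v, f (x u) (x v) = lam * f u v)
    (W : Submodule F V) (hW : ∀ u, u ∈ W ↔ x u = ν • u) (hlarge : finrank F V < 2 * finrank F W) : Even (finrank F W) := by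
  refine even_eig f halt hND x hss lam ν hν ?_ hx W hW
  by_contra hne
  have h1 := iso_le f hND W (by
    intro u hu v hv
    have h1 := hx u v
    rw [(hW u).1 hu, (hW v).1 hv, map_smul, map_smul, LinearMap.smul_apply, smul_eq_mul, smul_eq_mul, ← mul_assoc] at h1
    by_contra h0
    exact hne (mul_right_cancel₀ h0 h1))
  omega

/-- unipotent elements with one block of size three -/
theorem no_three (hF2 : (2 : F) ≠ 0) (f : V →ₗ[F] V →ₗ[F] F) (halt : ∀ v, f v v = 0) (hND : NDon f ⊤)
    (x N : V →ₗ[F] V) (hxN : ∀ v, x v = v + N v) (hx : ∀ u v, f (x u) (x v) = f u v) (h3 : ∀ v, N (N (N v)) = 0)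
    (u0 : V) (hu0 : N (N u0) ≠ 0) (hrk : ∀ v, ∃ c : F, N (N v) = c • N (N u0)) : False := by
  have skew := skew_of_alt f halt
  have h1 : ∀ a b, f (N a) b = - f (x a) (N b) := by
    intro a b
    have h := hx a b
    have e1 : x b = b + N b := hxN b
    rw [e1, map_add] at h
    have e2 : f (x a) b = f a b + f (N a) b := by rw [hxN a, map_add, LinearMap.add_apply]
    rw [e2] at h
    linear_combination h
  have hcomm : ∀ v, N (x v) = x (N v) := by
    intro v
    rw [hxN v, map_add, hxN (N v)]
  have h2 : ∀ u v, f (N (N u)) v = f u (N (N v)) := by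
    intro u v
    rw [h1 (N u) v, ← hcomm, h1 (x u) (N v), neg_neg]
    have e1 : x (x u) = u + N (u + x u) := by
      rw [hxN (x u), map_add]
      nth_rewrite 1 [hxN u]
      abel
    rw [e1, map_add, LinearMap.add_apply, h1 _ (N (N v)), h3, map_zero, neg_zero, add_zero]
  have h4 : f (N (N u0)) u0 = 0 := by
    have := h2 u0 u0
    rw [skew u0 (N (N u0))] at this
    have h5 : (2 : F) * f (N (N u0)) u0 = 0 := by linear_combination this
    exact (mul_eq_zero.1 h5).resolve_left hF2
  refine hu0 (hND _ trivial fun v _ => ?_)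
  obtain ⟨c, hc⟩ := hrk v
  rw [h2, hc, map_smul, smul_eq_mul, skew, h4, neg_zero, mul_zero]

end CfsgLib.Sp29
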