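import Cfsg.Agent.LibSp29c
import Cfsg.Agent.LibInvo29g
import Cfsg.Prelude.Def_GeometricClasses

/-! Derangements of odd prime order on cosets of symplectic-type subgroups (seat helper29). -/

namespace CfsgLib.Sp29

open Module Matrix CfsgLib.Invo29 CfsgLib.Semi29 CfsgLib.Nil29

variable {F : Type*} [Field F]

lemma transport {n : ℕ} (f : (Fin n → F) → (Fin n → F) → F) (hf : Cfsg.Geo.IsSymplecticForm f)
    (x P : Matrix.SpecialLinearGroup (Fin n) F)
    (h : P⁻¹ * x * P ∈ (Cfsg.Geo.similarityGroup f).comap (Matrix.SpecialLinearGroup.toGL : Matrix.SpecialLinearGroup (Fin n) F →* GL (Fin n) F)) :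
    ∃ (B : (Fin n → F) →ₗ[F] (Fin n → F) →ₗ[F] F) (c : F), c ≠ 0 ∧ (∀ v, B v v = 0) ∧ NDon B ⊤ ∧
      ∀ u v, B (Matrix.toLin' (x : Matrix (Fin n) (Fin n) F) u) (Matrix.toLin' (x : Matrix (Fin n) (Fin n) F) v) = c * B u v := by
  obtain ⟨c, hc⟩ := h
  have hc' : ∀ u v, f (((P⁻¹ * x * P : Matrix.SpecialLinearGroup (Fin n) F) : Matrix (Fin n) (Fin n) F) *ᵥ u)
      (((P⁻¹ * x * P : Matrix.SpecialLinearGroup (Fin n) F) : Matrix (Fin n) (Fin n) F) *ᵥ v) = (c : F) * f u v := hc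
  let L : (Fin n → F) →ₗ[F] (Fin n → F) := Matrix.toLin' ((P⁻¹ : Matrix.SpecialLinearGroup (Fin n) F) : Matrix (Fin n) (Fin n) F)
  have hL : ∀ u, L u = ((P⁻¹ : Matrix.SpecialLinearGroup (Fin n) F) : Matrix (Fin n) (Fin n) F) *ᵥ u := fun u => Matrix.toLin'_apply _ _
  have hPP : ∀ u, (P : Matrix (Fin n) (Fin n) F) *ᵥ (((P⁻¹ : Matrix.SpecialLinearGroup (Fin n) F) : Matrix (Fin n) (Fin n) F) *ᵥ u) = u := by
    intro u
    rw [Matrix.mulVec_mulVec, ← Matrix.SpecialLinearGroup.coe_mul, mul_inv_cancel, Matrix.SpecialLinearGroup.coe_one, Matrix.one_mulVec]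
  have hPP' : ∀ u, ((P⁻¹ : Matrix.SpecialLinearGroup (Fin n) F) : Matrix (Fin n) (Fin n) F) *ᵥ ((P : Matrix (Fin n) (Fin n) F) *ᵥ u) = u := by
    intro u
    rw [Matrix.mulVec_mulVec, ← Matrix.SpecialLinearGroup.coe_mul, inv_mul_cancel, Matrix.SpecialLinearGroup.coe_one, Matrix.one_mulVec]
  refine ⟨(bil f hf).compl₁₂ L L, c, c.ne_zero, ?_, ?_, ?_⟩
  · intro v
    exact hf.alternating _
  · intro u _ h
    by_contra hu
    have h0 : L u ≠ 0 := by
      intro h1
      apply hu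
      rw [← hPP u, ← hL, h1, Matrix.mulVec_zero]
    obtain ⟨w, hw⟩ := (hf.nondegenerate (L u) h0).2
    apply hw
    have h2 := h ((P : Matrix (Fin n) (Fin n) F) *ᵥ w) trivial
    have h3 : f (L u) (L ((P : Matrix (Fin n) (Fin n) F) *ᵥ w)) = 0 := h2
    rw [hL ((P : Matrix (Fin n) (Fin n) F) *ᵥ w), hPP'] at h3
    exact h3
  · intro u v
    show f (L _) (L _) = c * f (L u) (L v)
    have key : ∀ w, ((P⁻¹ * x * P : Matrix.SpecialLinearGroup (Fin n) F) : Matrix (Fin n) (Fin n) F) *ᵥ (L w) =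
        L (Matrix.toLin' (x : Matrix (Fin n) (Fin n) F) w) := by
      intro w
      rw [hL, hL, Matrix.toLin'_apply, Matrix.SpecialLinearGroup.coe_mul, Matrix.SpecialLinearGroup.coe_mul, ← Matrix.mulVec_mulVec,
        hPP, ← Matrix.mulVec_mulVec]
    rw [← key, ← key]
    exact hc' _ _

lemma mult_pow {V : Type*} [AddCommGroup V] [Module F V] (B : V →ₗ[F] V →ₗ[F] F) (hND : NDon B ⊤) (v0 : V) (hv0 : v0 ≠ 0) (X : V →ₗ[F] V) (c : F)
    (hX : ∀ u v, B (X u) (X v) = c * B u v) (r : ℕ) (hr : X ^ r = 1) : c ^ r = 1 := by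
  have h1 : ∀ k u v, B ((X ^ k) u) ((X ^ k) v) = c ^ k * B u v := by
    intro k
    induction k with
    | zero => intro u v; simp
    | succ k ih =>
      intro u v
      rw [pow_succ', Module.End.mul_apply, Module.End.mul_apply, hX, ih, pow_succ]
      ring
  obtain ⟨w, hw⟩ : ∃ w, B v0 w ≠ 0 := by
    by_contra h
    push Not at h
    exact hv0 (hND v0 trivial fun w _ => h w)
  have h2 := h1 r v0 w
  rw [hr, Module.End.one_apply, Module.End.one_apply] at h2
  exact (mul_right_cancel₀ hw (by rw [one_mul]; exact h2)).symm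

theorem case_p {p n : ℕ} [hp : Fact p.Prime] [CharP F p] (hp2 : p ≠ 2) (hn : 4 ≤ n) :
    ∃ x : Matrix.SpecialLinearGroup (Fin n) F, x ^ p = 1 ∧
      ∀ (B : (Fin n → F) →ₗ[F] (Fin n → F) →ₗ[F] F) (c : F), (∀ v, B v v = 0) → NDon B ⊤ →
      (∀ u v, B (Matrix.toLin' (x : Matrix (Fin n) (Fin n) F) u) (Matrix.toLin' (x : Matrix (Fin n) (Fin n) F) v) = c * B u v) → False := by
  have hp3 : 3 ≤ p := by
    have := hp.out.two_le
    omega
  obtain ⟨x, hJ, hxp⟩ := exists_unipotent (F := F) p n (3 ::ₘ Multiset.replicate (n - 3) 1) (by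
    intro b hb
    rcases Multiset.mem_cons.1 hb with h | h
    · subst h; exact ⟨by norm_num, hp3⟩
    · rw [Multiset.eq_of_mem_replicate h]; exact ⟨by norm_num, by omega⟩) (by
    rw [Multiset.sum_cons, Multiset.sum_replicate, smul_eq_mul, mul_one]; omega)
  refine ⟨x, hxp, ?_⟩
  intro B c halt hND hB
  obtain ⟨X, hX⟩ : ∃ X, X = Matrix.toLin' (x : Matrix (Fin n) (Fin n) F) := ⟨_, rfl⟩
  rw [← hX] at hB hJ
  have hXp : X ^ p = 1 := by
    have h1 := toLin_pow (r := p) (c := 1) x (by rw [hxp, Matrix.SpecialLinearGroup.coe_one, one_smul])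
    rw [one_smul] at h1
    rw [hX]; exact h1
  obtain ⟨N, hN⟩ : ∃ N, N = X - LinearMap.id := ⟨_, rfl⟩
  rw [← hN] at hJ
  have h2 := hJ.finrank_map 2
  have h3 := hJ.finrank_map 3
  rw [tsum_eq_zero _ 3 (by
    intro b hb
    rcases Multiset.mem_cons.1 hb with h | h
    · exact h.le
    · rw [Multiset.eq_of_mem_replicate h]; norm_num), Submodule.finrank_eq_zero] at h3
  have h2' : CfsgLib.Nil29.tsum (3 ::ₘ Multiset.replicate (n - 3) 1) 2 = 1 := by
    simp [CfsgLib.Nil29.tsum]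
  rw [h2', finrank_eq_one_iff'] at h2
  obtain ⟨⟨e, u0, hu0t, he⟩, hne, hsp⟩ := h2
  have hNN : ∀ v, (N ^ 2) v = N (N v) := fun v => by rw [pow_two]; rfl
  have hu0 : N (N u0) ≠ 0 := by
    rw [← hNN, he]
    intro h
    exact hne (Subtype.ext h)
  have h00 : u0 ≠ 0 := by
    rintro rfl
    rw [map_zero, map_zero] at hu0
    exact hu0 rfl
  have hc1 : c = 1 := by
    have h4 := mult_pow B hND u0 h00 X c hB p hXp
    have h5 : frobenius F p c = frobenius F p 1 := by
      rw [map_one]; exact h4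
    exact frobenius_inj F p h5
  have hF2 : (2 : F) ≠ 0 := by
    intro h
    have h6 : ((2 : ℕ) : F) = 0 := by exact_mod_cast h
    rw [CharP.cast_eq_zero_iff F p] at h6
    have := Nat.le_of_dvd (by norm_num) h6
    omega
  refine no_three hF2 B halt hND X N (fun v => ?_) (fun u v => by rw [hB, hc1, one_mul]) (fun v => ?_) u0 hu0 (fun v => ?_)
  · rw [hN, LinearMap.sub_apply, LinearMap.id_apply]; abel
  · have h6 : (N ^ 3) v ∈ (⊤ : Submodule F (Fin n → F)).map (N ^ 3) := ⟨v, trivial, rfl⟩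
    rw [h3, Submodule.mem_bot] at h6
    have h7 : (N ^ 3) v = N (N (N v)) := by rw [pow_succ', pow_two]; rfl
    rw [← h7]; exact h6
  · obtain ⟨a, ha⟩ := hsp ⟨(N ^ 2) v, v, trivial, rfl⟩
    refine ⟨a, ?_⟩
    have h6 := congrArg Subtype.val ha
    have h7 : a • e = (N ^ 2) v := h6
    rw [← hNN, ← h7, ← he, hNN]

theorem derange [Fintype F] {p : ℕ} [hp : Fact p.Prime] [CharP F p]
    (n : ℕ) (hn : 4 ≤ n) (he : Even n) (f : (Fin n → F) → (Fin n → F) → F) (hf : Cfsg.Geo.IsSymplecticForm f)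
    (r : ℕ) [hr : Fact r.Prime] (hr2 : r ≠ 2) (hgap : ¬ (n = 6 ∧ r = 3))
    (hΩ : r ∣ ((Cfsg.Geo.similarityGroup f).comap (Matrix.SpecialLinearGroup.toGL : Matrix.SpecialLinearGroup (Fin n) F →* GL (Fin n) F)).index) :
    ∃ x : Matrix.SpecialLinearGroup (Fin n) F, x ^ r = 1 ∧
      ∀ (B : (Fin n → F) →ₗ[F] (Fin n → F) →ₗ[F] F) (c : F), (∀ v, B v v = 0) → NDon B ⊤ →
      (∀ u v, B (Matrix.toLin' (x : Matrix (Fin n) (Fin n) F) u) (Matrix.toLin' (x : Matrix (Fin n) (Fin n) F) v) = c * B u v) → False := by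
  obtain ⟨m, hm⟩ := he
  have hm' : n = 2 * m := by omega
  have hND : NDon (bil f hf) ⊤ := by
    intro u _ h
    by_contra hu
    obtain ⟨w, hw⟩ := (hf.nondegenerate u hu).2
    exact hw (h w trivial)
  have hH : ∀ x : Matrix.SpecialLinearGroup (Fin n) F,
      (∀ u v, bil f hf (Matrix.toLin' (x : Matrix (Fin n) (Fin n) F) u) (Matrix.toLin' (x : Matrix (Fin n) (Fin n) F) v) = bil f hf u v) →
      x ∈ (Cfsg.Geo.similarityGroup f).comap (Matrix.SpecialLinearGroup.toGL : Matrix.SpecialLinearGroup (Fin n) F →* GL (Fin n) F) := by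
    intro x hx
    refine ⟨1, fun u v => ?_⟩
    have := hx u v
    rw [Matrix.toLin'_apply, Matrix.toLin'_apply] at this
    rw [Units.val_one, one_mul]
    exact this
  have h1 := of_dvd_index (p := p) hm' (bil f hf) (fun v => hf.alternating v) hND _ hH r hr.out hΩ
  by_cases hrp : r = p
  · subst hrp
    exact case_p hr2 hn
  have h2 := h1.resolve_left hrp
  obtain ⟨j, hj, hjr⟩ := h2
  rw [dvd_of_order hr.out Fintype.card_pos] at hjr
  obtain ⟨i, hi⟩ : ∃ i, i = orderOf ((Fintype.card F : ℕ) : ZMod r) := ⟨_, rfl⟩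
  rw [← hi] at hjr
  have hile := Nat.le_of_dvd (by omega) hjr
  have hiodd : Odd i := by
    obtain ⟨t, ht⟩ := hjr
    rcases Nat.even_or_odd i with h | h
    · exfalso
      have : Even (2 * j + 1) := by rw [ht]; exact h.mul_right t
      rw [Nat.even_add_one] at this
      exact this (even_two_mul j)
    · exact h
  have hev0 : Even n := ⟨m, hm⟩
  haveI : Nonempty (Fin n) := ⟨⟨0, by omega⟩⟩
  have hss : ∀ x : Matrix.SpecialLinearGroup (Fin n) F, x ^ r = 1 → Semi (Matrix.toLin' (x : Matrix (Fin n) (Fin n) F)) := by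
    intro x hx
    exact semi_of_pow hr.out hrp one_ne_zero _ (toLin_pow (c := 1) x (by rw [hx, Matrix.SpecialLinearGroup.coe_one, one_smul]))
  by_cases hi1 : i = 1
  · have hrq : r ∣ Fintype.card F - 1 := by
      have h3 := (dvd_of_order hr.out (Fintype.card_pos (α := F)) 1).2 (by rw [← hi, hi1])
      rwa [pow_one] at h3
    by_cases hn8 : 8 ≤ n
    · obtain ⟨x, W, hx, hW, hd⟩ := exists_three_eig (p := p) (n := n) hr.out hr2 hrq (by omega)
      refine ⟨x, hx, fun B c halt hB hxB => ?_⟩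
      have h3 := even_of_large B halt hB _ (hss x hx) c 1 one_ne_zero hxB W hW (by rw [Module.finrank_fin_fun]; omega)
      obtain ⟨a, ha⟩ := h3
      omega
    · have hrn : ¬ r ∣ n := by
        intro h
        have h46 : n = 4 ∨ n = 6 := by omega
        have h3 := hr.out.two_le
        rcases h46 with h4 | h6
        · rw [h4] at h
          have := hr.out.dvd_of_dvd_pow (show r ∣ 2 ^ 2 by exact h)
          exact hr2 ((Nat.prime_dvd_prime_iff_eq hr.out Nat.prime_two).1 this)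
        · rw [h6, show 6 = 2 * 3 by norm_num] at h
          rcases (Nat.Prime.dvd_mul hr.out).1 h with h | h
          · exact hr2 ((Nat.prime_dvd_prime_iff_eq hr.out Nat.prime_two).1 h)
          · exact hgap ⟨h6, (Nat.prime_dvd_prime_iff_eq hr.out Nat.prime_three).1 h⟩
      obtain ⟨x, ν, W, hx, hν, hW, hd⟩ := exists_homology (p := p) (n := n) hr.out hrq hrn (by omega)
      refine ⟨x, hx, fun B c halt hB hxB => ?_⟩
      have h3 := even_of_large B halt hB _ (hss x hx) c ν hν hxB W hW (by rw [Module.finrank_fin_fun]; omega)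
      obtain ⟨a, ha⟩ := h3
      omega
  · have hi2 : 2 ≤ i := by
      obtain ⟨t, ht⟩ := hiodd
      omega
    obtain ⟨x, hx, hd⟩ := exists_one_block (p := p) (n := n) hrp hi.symm hi2 (by omega)
    refine ⟨x, hx, fun B c halt hB hxB => ?_⟩
    have hnd : ¬ r ∣ Fintype.card F - 1 := by
      intro h
      have h3 : r ∣ Fintype.card F ^ 1 - 1 := by rwa [pow_one]
      rw [dvd_of_order hr.out Fintype.card_pos, ← hi] at h3
      have := Nat.le_of_dvd one_pos h3
      omega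
    have hXr : (Matrix.toLin' (x : Matrix (Fin n) (Fin n) F)) ^ r = 1 := by
      have h3 := toLin_pow (r := r) (c := 1) x (by rw [hx, Matrix.SpecialLinearGroup.coe_one, one_smul])
      rw [one_smul] at h3
      exact h3
    obtain ⟨v0, hv0⟩ := exists_ne (0 : Fin n → F)
    have hc1 : c = 1 := pow_one_of hr.out hnd (mult_pow B hB v0 hv0 _ c hxB r hXr)
    have h3 := even_eig B halt hB _ (hss x hx) c 1 one_ne_zero (by rw [hc1, one_mul]) hxB (Fx (Matrix.toLin' (x : Matrix (Fin n) (Fin n) F)))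
      (fun u => by rw [mem_Fx, one_smul])
    obtain ⟨a, ha⟩ := h3
    obtain ⟨b, hb⟩ := hiodd
    omega

end CfsgLib.Sp29
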