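import Mathlib

set_option autoImplicit false
set_option maxHeartbeats 1000000

/-! Groups of isometries of a symplectic space containing the transvections. -/

namespace CfsgLib.SyM

open Module

/-- a group acting faithfully by isometries of a symplectic space, containing the transvections -/
structure Sy (K V G : Type*) [Field K] [AddCommGroup V] [Module K V] [Group G] where
  f : V →ₗ[K] V →ₗ[K] K
  alt : ∀ v, f v v = 0
  nd : ∀ v, (∀ w, f v w = 0) → v = 0
  ρ : G →* Module.End K V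
  inj : Function.Injective ρ
  inv : ∀ g x y, f (ρ g x) (ρ g y) = f x y
  t : V → K → G
  ht : ∀ v a w, ρ (t v a) w = w + (a * f w v) • v

namespace Sy

variable {K V G : Type*} [Field K] [AddCommGroup V] [Module K V] [Group G] (S : Sy K V G)

theorem skew (x y : V) : S.f x y = - S.f y x := by
  have h := S.alt (x + y)
  rw [map_add, map_add, LinearMap.add_apply, LinearMap.add_apply, S.alt, S.alt, zero_add, add_zero] at h
  exact eq_neg_of_add_eq_zero_right h

theorem skew_ne {x y : V} (h : S.f x y ≠ 0) : S.f y x ≠ 0 := by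
  rw [S.skew]; exact neg_ne_zero.2 h

theorem skew_eq {x y : V} (h : S.f x y = 0) : S.f y x = 0 := by
  rw [S.skew, h, neg_zero]

theorem add_l (x y z : V) : S.f (x + y) z = S.f x z + S.f y z := by rw [map_add, LinearMap.add_apply]
theorem sub_l (x y z : V) : S.f (x - y) z = S.f x z - S.f y z := by rw [map_sub, LinearMap.sub_apply]
theorem smul_l (c : K) (y z : V) : S.f (c • y) z = c * S.f y z := by rw [map_smul, LinearMap.smul_apply, smul_eq_mul]
theorem neg_l (y z : V) : S.f (-y) z = - S.f y z := by rw [map_neg, LinearMap.neg_apply]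
theorem zero_l (z : V) : S.f 0 z = 0 := by rw [map_zero, LinearMap.zero_apply]
theorem add_r (x y z : V) : S.f z (x + y) = S.f z x + S.f z y := map_add _ _ _
theorem sub_r (x y z : V) : S.f z (x - y) = S.f z x - S.f z y := map_sub _ _ _
theorem smul_r (c : K) (y z : V) : S.f z (c • y) = c * S.f z y := by rw [map_smul, smul_eq_mul]
theorem neg_r (y z : V) : S.f z (-y) = - S.f z y := map_neg _ _
theorem zero_r (z : V) : S.f z 0 = 0 := map_zero _

theorem ρmul (g h : G) (v : V) : S.ρ (g * h) v = S.ρ g (S.ρ h v) := by rw [map_mul]; rfl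
theorem ρone (v : V) : S.ρ 1 v = v := by rw [map_one]; rfl
theorem ρinv (g : G) (v : V) : S.ρ g⁻¹ (S.ρ g v) = v := by rw [← S.ρmul, inv_mul_cancel, S.ρone]
theorem ρinv' (g : G) (v : V) : S.ρ g (S.ρ g⁻¹ v) = v := by rw [← S.ρmul, mul_inv_cancel, S.ρone]

theorem ext_g {g h : G} (H : ∀ v, S.ρ g v = S.ρ h v) : g = h := S.inj (LinearMap.ext H)

theorem adj (g : G) (x y : V) : S.f (S.ρ g x) y = S.f x (S.ρ g⁻¹ y) := by
  rw [← S.inv g x, S.ρinv']

theorem eq_one {g : G} (H : ∀ v, S.ρ g v = v) : g = 1 := S.ext_g (fun v => by rw [H, S.ρone])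

theorem ρ_inv_fix {g : G} {v : V} (h : S.ρ g v = v) : S.ρ g⁻¹ v = v := by
  conv_lhs => rw [← h]
  rw [S.ρinv]

theorem t_zero (v : V) : S.t v 0 = 1 := S.eq_one (fun w => by rw [S.ht, zero_mul, zero_smul, add_zero])

theorem t_zero' (a : K) : S.t 0 a = 1 := S.eq_one (fun w => by rw [S.ht, smul_zero, add_zero])

theorem t_add (v : V) (a b : K) : S.t v (a + b) = S.t v a * S.t v b := by
  apply S.ext_g
  intro w
  rw [S.ρmul, S.ht, S.ht, S.ht, S.add_l, S.smul_l, S.alt]
  module

theorem t_neg (v : V) (a : K) : S.t v (-a) = (S.t v a)⁻¹ := by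
  rw [eq_inv_iff_mul_eq_one, ← S.t_add, neg_add_cancel, S.t_zero]

theorem t_smul (v : V) (c a : K) : S.t (c • v) a = S.t v (c ^ 2 * a) := by
  apply S.ext_g
  intro w
  rw [S.ht, S.ht, S.smul_r]
  module

theorem t_negv (v : V) (a : K) : S.t (-v) a = S.t v a := by
  rw [← neg_one_smul K v, S.t_smul]; congr 1; ring

theorem t_conj (g : G) (v : V) (a : K) : g * S.t v a * g⁻¹ = S.t (S.ρ g v) a := by
  apply S.ext_g
  intro w
  rw [S.ρmul, S.ρmul, S.ht, S.ht, map_add, S.ρinv', map_smul]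
  congr 3
  rw [S.skew, S.skew w, ← S.adj]

theorem t_fix {v w : V} (h : S.f w v = 0) (a : K) : S.ρ (S.t v a) w = w := by
  rw [S.ht, h, mul_zero, zero_smul, add_zero]

theorem t_comm {u v : V} (h : S.f u v = 0) (a b : K) : S.t u a * S.t v b = S.t v b * S.t u a := by
  have h1 := S.t_conj (S.t u a) v b
  rw [S.t_fix (S.skew_eq h)] at h1
  rw [mul_inv_eq_iff_eq_mul] at h1
  exact h1

/-- the transvection moving `u` to `v` -/
theorem t_move {u v : V} (h : S.f u v ≠ 0) : S.ρ (S.t (v - u) (S.f u v)⁻¹) u = v := by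
  rw [S.ht, S.sub_r, S.alt, sub_zero, inv_mul_cancel₀ h, one_smul]; abel

theorem t_ne_one {v : V} {a : K} (hv : v ≠ 0) (h : S.t v a = 1) : a = 0 := by
  by_contra ha
  apply hv
  apply S.nd
  intro w
  have h1 := S.ht v a w
  rw [h, S.ρone] at h1
  have h2 : (a * S.f w v) • v = 0 := by
    have := congrArg (fun z => z - w) h1
    simpa using this.symm
  rcases smul_eq_zero.1 h2 with h3 | h3
  · rcases mul_eq_zero.1 h3 with h4 | h4
    · exact absurd h4 ha
    · exact S.skew_eq h4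
  · exact absurd h3 hv

/-! ### subgroups attached to subspaces -/

/-- elements moving vectors inside `X` -/
def M (X : Submodule K V) : Subgroup G where
  carrier := {g | ∀ v, S.ρ g v - v ∈ X}
  one_mem' := fun v => by rw [S.ρone, sub_self]; exact X.zero_mem
  mul_mem' := by
    intro a b ha hb v
    have h := X.add_mem (ha (S.ρ b v)) (hb v)
    rw [S.ρmul]
    convert h using 1; abel
  inv_mem' := by
    intro a ha v
    have h := X.neg_mem (ha (S.ρ a⁻¹ v))
    rw [S.ρinv'] at h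
    convert h using 1; abel

theorem mem_M {X : Submodule K V} {g : G} : g ∈ S.M X ↔ ∀ v, S.ρ g v - v ∈ X := Iff.rfl

theorem M_mono {X Y : Submodule K V} (h : X ≤ Y) : S.M X ≤ S.M Y := fun _ hg v => h (hg v)

theorem t_mem {X : Submodule K V} {x : V} (hx : x ∈ X) (a : K) : S.t x a ∈ S.M X := by
  intro v
  rw [S.ht, add_sub_cancel_left]
  exact X.smul_mem _ hx

theorem M_pres {X : Submodule K V} {g : G} (hg : g ∈ S.M X) {x : V} (hx : x ∈ X) : S.ρ g x ∈ X := by
  have := X.add_mem (hg x) hx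
  rwa [sub_add_cancel] at this

theorem M_bot : S.M ⊥ = ⊥ := by
  rw [eq_bot_iff]
  intro g hg
  rw [Subgroup.mem_bot]
  apply S.eq_one
  intro v
  have := hg v
  rw [Submodule.mem_bot, sub_eq_zero] at this
  exact this

/-- an element of `M X` fixes the vectors perpendicular to `X` -/
theorem M_perp {X : Submodule K V} {g : G} (hg : g ∈ S.M X) {u : V} (hu : ∀ x ∈ X, S.f u x = 0) : S.ρ g u = u := by
  rw [← sub_eq_zero]
  apply S.nd
  intro y
  rw [S.sub_l, S.adj, ← S.sub_r]
  exact hu _ ((S.M X).inv_mem hg y)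

/-- the fixed points -/
theorem M_fix {X : Submodule K V} {g : G} (hg : g ∈ S.M X) {u : V} (hu : S.ρ g u = u) : g ∈ S.M (X ⊓ LinearMap.ker (S.f u)) := by
  intro y
  refine ⟨hg y, ?_⟩
  have h1 := S.inv g u y
  rw [hu] at h1
  change S.f u (S.ρ g y - y) = 0
  rw [S.sub_r, h1, sub_self]

theorem M_fix_iff {X : Submodule K V} {g : G} {u : V} : g ∈ S.M (X ⊓ LinearMap.ker (S.f u)) ↔ g ∈ S.M X ∧ S.ρ g u = u := by
  constructor
  · intro h
    refine ⟨S.M_mono inf_le_left h, ?_⟩
    exact S.M_perp h (fun x hx => hx.2)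
  · rintro ⟨h1, h2⟩
    exact S.M_fix h1 h2

/-- two functionals nonzero on `X` have a common nonzero value -/
theorem exists_two {X : Submodule K V} {φ ψ : V →ₗ[K] K} (h1 : ∃ x ∈ X, φ x ≠ 0) (h2 : ∃ x ∈ X, ψ x ≠ 0) :
    ∃ x ∈ X, φ x ≠ 0 ∧ ψ x ≠ 0 := by
  obtain ⟨x, hx, hx1⟩ := h1
  obtain ⟨y, hy, hy1⟩ := h2
  by_cases hx2 : ψ x = 0
  · by_cases hy2 : φ y = 0
    · exact ⟨x + y, X.add_mem hx hy, by rwa [map_add, hy2, add_zero], by rwa [map_add, hx2, zero_add]⟩
    · exact ⟨y, hy, hy2, hy1⟩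
  · exact ⟨x, hx, hx1, hx2⟩

/-- the group generated by the transvections with direction in `X` -/
def T (X : Submodule K V) : Subgroup G := Subgroup.closure {g | ∃ x ∈ X, ∃ a, g = S.t x a}

theorem t_memT {X : Submodule K V} {x : V} (hx : x ∈ X) (a : K) : S.t x a ∈ S.T X := Subgroup.subset_closure ⟨x, hx, a, rfl⟩

theorem T_mono {X Y : Submodule K V} (h : X ≤ Y) : S.T X ≤ S.T Y :=
  Subgroup.closure_mono (by rintro _ ⟨x, hx, a, rfl⟩; exact ⟨x, h hx, a, rfl⟩)

theorem T_le (X : Submodule K V) : S.T X ≤ S.M X := by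
  rw [T, Subgroup.closure_le]
  rintro _ ⟨x, hx, a, rfl⟩
  exact S.t_mem hx a

/-- moving by transvections with direction in `X`: two vectors in a common coset of `X`, both not perpendicular to `X` -/
theorem exists_moveT {X : Submodule K V} {u v : V} (huv : v - u ∈ X) (hu : ∃ x ∈ X, S.f u x ≠ 0)
    (hv : ∃ x ∈ X, S.f v x ≠ 0) : ∃ g ∈ S.T X, S.ρ g u = v := by
  by_cases h : S.f u v = 0
  · obtain ⟨x, hx, h1, h2⟩ := exists_two hu hv
    have h3 : S.ρ (S.t x (S.f u x)⁻¹) u = u + x := by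
      rw [S.ht, inv_mul_cancel₀ h1, one_smul]
    have h4 : S.f (u + x) v ≠ 0 := by
      rw [S.add_l, h, zero_add]; exact S.skew_ne h2
    refine ⟨S.t (v - (u + x)) (S.f (u + x) v)⁻¹ * S.t x (S.f u x)⁻¹, ?_, ?_⟩
    · refine (S.T X).mul_mem (S.t_memT ?_ _) (S.t_memT hx _)
      have := X.sub_mem huv hx
      convert this using 1; abel
    · rw [S.ρmul, h3, S.t_move h4]
  · exact ⟨_, S.t_memT huv _, S.t_move h⟩

variable [FiniteDimensional K V]

theorem M_le_T : ∀ (n : ℕ) (X : Submodule K V), finrank K X ≤ n → S.M X ≤ S.T X := by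
  intro n
  induction n with
  | zero =>
    intro X hX g hg
    have h0 : X = ⊥ := by
      rw [← Submodule.finrank_eq_zero (R := K)]; omega
    rw [h0, S.M_bot, Subgroup.mem_bot] at hg
    rw [hg]; exact one_mem _
  | succ n ih =>
    intro X hX g hg
    by_cases h1 : g = 1
    · rw [h1]; exact one_mem _
    obtain ⟨u, hu⟩ : ∃ u, S.ρ g u ≠ u := by
      by_contra hcon
      push Not at hcon
      exact h1 (S.eq_one hcon)
    have hX1 : ∃ x ∈ X, S.f u x ≠ 0 := by
      by_contra hcon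
      push Not at hcon
      exact hu (S.M_perp hg hcon)
    have hX2 : ∃ x ∈ X, S.f (S.ρ g u) x ≠ 0 := by
      obtain ⟨x, hx, hx1⟩ := hX1
      exact ⟨S.ρ g x, S.M_pres hg hx, by rwa [S.inv]⟩
    obtain ⟨k, hk, hk1⟩ := S.exists_moveT (hg u) hX1 hX2
    have h2 : k⁻¹ * g ∈ S.M (X ⊓ LinearMap.ker (S.f u)) := by
      apply S.M_fix ((S.M X).mul_mem ((S.M X).inv_mem (S.T_le X hk)) hg)
      rw [S.ρmul, ← hk1, S.ρinv]
    have h3 : finrank K (X ⊓ LinearMap.ker (S.f u) : Submodule K V) < finrank K X := by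
      apply Submodule.finrank_lt_finrank_of_lt
      refine lt_of_le_of_ne inf_le_left ?_
      intro h
      obtain ⟨x, hx, hx1⟩ := hX1
      rw [← h] at hx
      exact hx1 hx.2
    have h4 := S.T_mono (inf_le_left : X ⊓ LinearMap.ker (S.f u) ≤ X) (ih _ (by omega) h2)
    have h5 := (S.T X).mul_mem hk h4
    rwa [mul_inv_cancel_left] at h5

theorem M_eq_T (X : Submodule K V) : S.M X = S.T X := le_antisymm (S.M_le_T _ X le_rfl) (S.T_le X)

/-- the form represents all functionals -/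
theorem riesz (φ : V →ₗ[K] K) : ∃ z, ∀ x, S.f z x = φ x := by
  have h1 : Function.Injective S.f := by
    rw [injective_iff_map_eq_zero]
    intro v hv
    exact S.nd v (fun w => by rw [hv, LinearMap.zero_apply])
  have h2 : Function.Surjective S.f := by
    have h3 : finrank K V = finrank K (V →ₗ[K] K) := (Subspace.dual_finrank_eq (K := K) (V := V)).symm
    exact (LinearMap.injective_iff_surjective_of_finrank_eq_finrank h3).1 h1
  obtain ⟨z, hz⟩ := h2 φ
  exact ⟨z, fun x => by rw [hz]⟩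

/-- separation -/
theorem exists_perp {X : Submodule K V} {y : V} (hy : y ∉ X) : ∃ z, (∀ x ∈ X, S.f z x = 0) ∧ S.f z y = 1 := by
  obtain ⟨φ, h1, h2⟩ := Submodule.exists_le_ker_of_notMem hy
  obtain ⟨z, hz⟩ := S.riesz ((φ y)⁻¹ • φ)
  refine ⟨z, fun x hx => ?_, ?_⟩
  · rw [hz, LinearMap.smul_apply, LinearMap.mem_ker.1 (h2 hx), smul_zero]
  · rw [hz, LinearMap.smul_apply, smul_eq_mul, inv_mul_cancel₀ h1]

end Sy

end CfsgLib.SyM
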