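import Cfsg.Agent.LibSpCov1
import Cfsg.Agent.LibSym1

set_option autoImplicit false
set_option maxHeartbeats 1000000

/-! Canonical lifts of `p`-elements in a central extension with kernel of order prime to `p`; rank one groups. -/

namespace CfsgLib.SyM

open Module

/-- canonical lifts of `p`-elements -/
structure Ld {E G : Type*} [Group E] [Group G] (σ : E →* G) (p : ℕ) where
  surj : Function.Surjective σ
  cen : σ.ker ≤ Subgroup.center E
  s : G → E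
  s_conj : ∀ e g, e * s g * e⁻¹ = s (σ e * g * (σ e)⁻¹)
  s_map : ∀ g, (∃ k, g ^ (p ^ k) = 1) → σ (s g) = g
  s_comm : ∀ x y, x * y = y * x → (∃ k, x ^ (p ^ k) = 1) → (∃ k, y ^ (p ^ k) = 1) → s (x * y) = s x * s y
  s_mul : ∀ P : Subgroup G, IsPGroup p P → ∀ x ∈ P, ∀ y ∈ P, s (x * y) = s x * s y

section exist

variable {E G : Type*} [Group E] [Finite E] [Group G] {σ : E →* G}

theorem pow_eq_self {Γ : Type*} [Group Γ] {p : ℕ} (hp : p.Prime) {N n : ℕ} (hn : n ≡ 1 [MOD p ^ N]) {x : Γ}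
    (hx : orderOf x ≤ N) (hx0 : 0 < orderOf x) (h : ∃ k, x ^ (p ^ k) = 1) : x ^ n = x := by
  obtain ⟨k, hk⟩ := h
  obtain ⟨j, -, hj⟩ := (Nat.dvd_prime_pow hp).1 (orderOf_dvd_of_pow_eq_one hk)
  have h1 : j ≤ N := by
    have := (Nat.lt_pow_self hp.one_lt (n := j)).le
    omega
  have h2 : n ≡ 1 [MOD orderOf x] := by
    rw [hj]; exact hn.of_dvd (pow_dvd_pow p h1)
  conv_rhs => rw [← pow_one x]
  exact pow_eq_pow_iff_modEq.2 h2

theorem exists_Ld (hσ : Function.Surjective σ) (hc : σ.ker ≤ Subgroup.center E) (p : ℕ) [hp : Fact p.Prime]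
    (hco : (Nat.card σ.ker).Coprime p) : Nonempty (Ld σ p) := by
  have hco' : (Nat.card σ.ker).Coprime (p ^ Nat.card E) := Nat.Coprime.pow_right _ hco
  obtain ⟨n, hn0, hn1⟩ := Nat.chineseRemainder hco' 0 1
  have hdvd : Nat.card σ.ker ∣ n := (Nat.modEq_zero_iff_dvd).1 hn0
  have hker : ∀ a ∈ σ.ker, a ^ n = 1 := by
    intro a ha
    obtain ⟨m, hm⟩ := hdvd
    rw [hm, pow_mul]
    have : (⟨a, ha⟩ : σ.ker) ^ Nat.card σ.ker = 1 := pow_card_eq_one'
    have h2 : a ^ Nat.card σ.ker = 1 := congrArg Subtype.val this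
    rw [h2, one_pow]
  have spec : ∀ e : E, (Function.surjInv hσ (σ e)) ^ n = e ^ n := by
    intro e
    obtain ⟨a, ha⟩ : ∃ a, a = e⁻¹ * Function.surjInv hσ (σ e) := ⟨_, rfl⟩
    have ha1 : a ∈ σ.ker := by
      rw [ha, MonoidHom.mem_ker, map_mul, Function.surjInv_eq hσ, map_inv, inv_mul_cancel]
    have h1 : Function.surjInv hσ (σ e) = e * a := by rw [ha]; group
    have h2 : Commute e a := (Subgroup.mem_center_iff.1 (hc ha1) e)
    rw [h1, h2.mul_pow, hker a ha1, mul_one]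
  haveI : Finite G := Finite.of_surjective σ hσ
  have hcardG : Nat.card G ≤ Nat.card E := Nat.card_le_card_of_surjective σ hσ
  have hE : ∀ e : E, (∃ k, e ^ (p ^ k) = 1) → e ^ n = e := fun e he =>
    pow_eq_self hp.out hn1 (orderOf_le_card (x := e)) (orderOf_pos e) he
  have hG : ∀ g : G, (∃ k, g ^ (p ^ k) = 1) → g ^ n = g := fun g he =>
    pow_eq_self hp.out hn1 ((orderOf_le_card (x := g)).trans hcardG) (orderOf_pos g) he
  let s : G → E := fun g => (Function.surjInv hσ g) ^ n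
  have s_spec : ∀ e, s (σ e) = e ^ n := spec
  have s_E : ∀ e, (∃ k, e ^ (p ^ k) = 1) → s (σ e) = e := fun e he => by rw [s_spec, hE e he]
  have s_p : ∀ g, (∃ k, g ^ (p ^ k) = 1) → ∃ k, s g ^ (p ^ k) = 1 := by
    rintro g ⟨k, hk⟩
    refine ⟨k, ?_⟩
    change ((Function.surjInv hσ g) ^ n) ^ (p ^ k) = 1
    rw [← pow_mul, mul_comm, pow_mul]
    apply hker
    rw [MonoidHom.mem_ker, map_pow, Function.surjInv_eq hσ, hk]
  have s_map : ∀ g, (∃ k, g ^ (p ^ k) = 1) → σ (s g) = g := by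
    intro g hg
    change σ ((Function.surjInv hσ g) ^ n) = g
    rw [map_pow, Function.surjInv_eq hσ, hG g hg]
  have s_conj : ∀ e g, e * s g * e⁻¹ = s (σ e * g * (σ e)⁻¹) := by
    intro e g
    obtain ⟨x, rfl⟩ := hσ g
    rw [s_spec, ← map_inv, ← map_mul, ← map_mul, s_spec, conj_pow]
  refine ⟨⟨hσ, hc, s, s_conj, s_map, ?_, ?_⟩⟩
  · intro x y hxy hx hy
    have h1 : s x * s y * (s x)⁻¹ = s y := by
      rw [s_conj, s_map x hx, hxy, mul_inv_cancel_right]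
    have h2 : Commute (s x) (s y) := by
      have := mul_inv_eq_iff_eq_mul.1 h1
      exact this
    obtain ⟨k, hk⟩ := s_p x hx
    obtain ⟨l, hl⟩ := s_p y hy
    have h3 : ∃ m, (s x * s y) ^ (p ^ m) = 1 := by
      refine ⟨k + l, ?_⟩
      rw [h2.mul_pow, pow_add, pow_mul, hk, one_pow, one_mul, mul_comm, pow_mul, hl, one_pow]
    have h4 := s_E _ h3
    rw [map_mul, s_map x hx, s_map y hy] at h4
    exact h4
  · intro P hP
    let N : Subgroup (P.comap σ) := σ.ker.subgroupOf (P.comap σ)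
    have hle : σ.ker ≤ P.comap σ := by
      intro a ha
      rw [Subgroup.mem_comap, MonoidHom.mem_ker.1 ha]; exact one_mem _
    have hN : Nat.card N = Nat.card σ.ker := Nat.card_congr (Subgroup.subgroupOfEquivOfLe hle).toEquiv
    have hidx : ∃ k, N.index = p ^ k := by
      have h1 : N.index = Nat.card P := by
        let φ : P.comap σ →* P := (σ.comp (P.comap σ).subtype).codRestrict P (fun x => x.2)
        have hφ : Function.Surjective φ := by
          rintro ⟨y, hy⟩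
          obtain ⟨x, rfl⟩ := hσ y
          exact ⟨⟨x, hy⟩, rfl⟩
        have hk : φ.ker = N := by
          ext x
          rw [MonoidHom.mem_ker, Subgroup.mem_subgroupOf, MonoidHom.mem_ker]
          exact Subtype.ext_iff
        rw [← hk, Subgroup.index_ker, MonoidHom.range_eq_top.2 hφ]
        exact Nat.card_congr Subgroup.topEquiv.toEquiv
      rw [h1]
      exact IsPGroup.iff_card.1 hP
    obtain ⟨k, hk⟩ := hidx
    obtain ⟨H, hH⟩ := Subgroup.exists_right_complement'_of_coprime (N := N) (by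
      rw [hN, hk]; exact Nat.Coprime.pow_right _ hco)
    have hHp : ∀ h ∈ H, ∃ m, (h : E) ^ (p ^ m) = 1 := by
      intro h hh
      refine ⟨k, ?_⟩
      have h1 : Nat.card H = p ^ k := by
        have := hH.card_mul
        have h2 := N.card_mul_index
        rw [hk] at h2
        have hpos : 0 < Nat.card N := Nat.card_pos
        exact Nat.eq_of_mul_eq_mul_left hpos (by rw [this, h2])
      have h3 : (⟨h, hh⟩ : H) ^ Nat.card H = 1 := pow_card_eq_one'
      rw [h1] at h3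
      have h4 : h ^ p ^ k = 1 := congrArg Subtype.val h3
      exact congrArg Subtype.val h4
    have key : ∀ x ∈ P, ∃ h ∈ H, σ (h : E) = x ∧ s x = h := by
      intro x hx
      obtain ⟨y, rfl⟩ := hσ x
      obtain ⟨⟨a, b⟩, hab⟩ := hH.surjective ⟨y, hx⟩
      have hab' : ((a : P.comap σ) : E) * ((b : P.comap σ) : E) = y := congrArg Subtype.val hab
      have hσa : σ ((a : P.comap σ) : E) = 1 := by
        have := a.2
        exact this
      refine ⟨b, b.2, ?_, ?_⟩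
      · rw [← hab', map_mul, hσa, one_mul]
      · rw [← hab', map_mul, hσa, one_mul]
        exact s_E _ (hHp _ b.2)
    intro x hx y hy
    obtain ⟨h1, hh1, e1, e1'⟩ := key x hx
    obtain ⟨h2, hh2, e2, e2'⟩ := key y hy
    rw [e1', e2']
    have h3 := s_E ((h1 : E) * (h2 : E)) (hHp (h1 * h2) (H.mul_mem hh1 hh2))
    rw [map_mul, e1, e2] at h3
    exact h3

end exist

end CfsgLib.SyM

namespace CfsgLib.Sym.Rk1

variable {F Γ : Type*} [Field F] [Group Γ] (R : Rk1 F Γ)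

theorem w_one_H {c : F} (hc : c ≠ 0) : R.w 1 * R.H c = R.w c⁻¹ := by
  have h1 : R.w 1 * R.w c * R.w (-1) = R.w c⁻¹ := by
    rw [w_neg]
    have h2 : R.w c = R.x c * R.y (-c⁻¹) * R.x c := rfl
    rw [h2]
    have hx : ∀ a, R.w 1 * R.x a * (R.w 1)⁻¹ = R.y (-a) := by
      intro a
      rw [R.wx one_ne_zero]
      rw [mul_inv_cancel_right]; congr 1; field_simp
    have hy : ∀ a, R.w 1 * R.y a * (R.w 1)⁻¹ = R.x (-a) := by
      intro a
      rw [R.wy one_ne_zero]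
      rw [mul_inv_cancel_right]; congr 1; ring
    calc R.w 1 * (R.x c * R.y (-c⁻¹) * R.x c) * (R.w 1)⁻¹
        = (R.w 1 * R.x c * (R.w 1)⁻¹) * (R.w 1 * R.y (-c⁻¹) * (R.w 1)⁻¹) * (R.w 1 * R.x c * (R.w 1)⁻¹) := by group
      _ = R.y (-c) * R.x c⁻¹ * R.y (-c) := by rw [hx, hy, neg_neg]
      _ = R.w c⁻¹ := by rw [R.w_alt (inv_ne_zero hc), inv_inv]
  rw [H, ← mul_assoc, h1]

theorem w_eq_H (c : F) : R.w c = R.H c * R.w 1 := by
  rw [H, mul_assoc, R.w_neg, inv_mul_cancel, mul_one]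

theorem wy_eq {a c : F} (hc : c ≠ 0) : R.y a * R.w c = R.w c * R.x (-(c ^ 2) * a) := by
  rw [R.wx hc]
  congr 2
  field_simp

theorem y_eq {a : F} : R.y (-a⁻¹) = R.x (-a) * R.w a * R.x (-a) := by
  rw [w, R.x_neg]; group

variable [Finite F]

theorem cells {g : Γ} (hg : g ∈ Subgroup.closure {z | ∃ a, z = R.x a ∨ z = R.y a}) :
    (∃ a c, c ≠ 0 ∧ g = R.x a * R.H c) ∨ (∃ a c b, c ≠ 0 ∧ g = R.x a * R.w c * R.x b) := by
  have Hinv : ∀ c, c ≠ 0 → (R.H c)⁻¹ = R.H c⁻¹ := by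
    intro c hc
    rw [inv_eq_iff_mul_eq_one, ← R.H_mul hc (inv_ne_zero hc), mul_inv_cancel₀ hc, R.H_one]
  have ww : ∀ c, c ≠ 0 → R.w 1 * R.w c = R.H (-c⁻¹) := by
    intro c hc
    have h1 : R.H (-c) = (R.w 1 * R.w c)⁻¹ := by
      rw [H, R.w_neg, R.w_neg, mul_inv_rev]
    have h2 : -c ≠ 0 := neg_ne_zero.2 hc
    rw [← inv_inv (R.w 1 * R.w c), ← h1, Hinv _ h2]
    congr 1; rw [inv_neg]
  have wH : ∀ c d, c ≠ 0 → d ≠ 0 → R.w c * R.H d = R.w (c * d⁻¹) := by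
    intro c d hc hd
    rw [R.w_eq_H c, mul_assoc, R.w_one_H hd, R.w_eq_H d⁻¹, ← mul_assoc, ← R.H_mul hc (inv_ne_zero hd), ← R.w_eq_H]
  -- the set of cells
  let C : Γ → Prop := fun g => (∃ a c, c ≠ 0 ∧ g = R.x a * R.H c) ∨ (∃ a c b, c ≠ 0 ∧ g = R.x a * R.w c * R.x b)
  have hCx : ∀ a g, C g → C (R.x a * g) := by
    rintro a g (⟨b, c, hc, rfl⟩ | ⟨b, c, d, hc, rfl⟩)
    · exact Or.inl ⟨a + b, c, hc, by rw [R.x_add, mul_assoc]⟩
    · exact Or.inr ⟨a + b, c, d, hc, by rw [R.x_add, mul_assoc, mul_assoc, mul_assoc]⟩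
  have hCw : ∀ g, C g → C (R.w 1 * g) := by
    rintro g (⟨a, c, hc, rfl⟩ | ⟨a, c, b, hc, rfl⟩)
    · right
      refine ⟨0, c⁻¹, -((c⁻¹) ^ 2) * -a, inv_ne_zero hc, ?_⟩
      rw [R.x_zero, one_mul, ← mul_assoc, R.wx one_ne_zero, mul_assoc, R.w_one_H hc, R.wy_eq (inv_ne_zero hc)]
      congr 2; simp
    · by_cases ha : a = 0
      · left
        refine ⟨(-c⁻¹) ^ 2 * b, -c⁻¹, neg_ne_zero.2 (inv_ne_zero hc), ?_⟩
        rw [ha, R.x_zero, one_mul, ← mul_assoc, ww c hc, R.Hx (neg_ne_zero.2 (inv_ne_zero hc))]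
      · right
        have ha' : a⁻¹ ≠ 0 := inv_ne_zero ha
        have hc' : -c⁻¹ ≠ 0 := neg_ne_zero.2 (inv_ne_zero hc)
        have e1 : R.w 1 * (R.x a * R.w c * R.x b) = R.y (-a) * (R.w 1 * R.w c) * R.x b := by
          have h1 : R.w 1 * R.x a = R.y (-a) * R.w 1 := by
            rw [R.wx one_ne_zero]; congr 2; simp
          calc R.w 1 * (R.x a * R.w c * R.x b) = (R.w 1 * R.x a) * R.w c * R.x b := by group
            _ = _ := by rw [h1]; group
        have e2 : R.y (-a) = R.x (-a⁻¹) * R.w a⁻¹ * R.x (-a⁻¹) := by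
          rw [← R.y_eq, inv_inv]
        have e3 : R.x (-a⁻¹) * R.H (-c⁻¹) = R.H (-c⁻¹) * R.x (((-c⁻¹) ^ 2)⁻¹ * -a⁻¹) := by
          rw [R.Hx hc']; congr 2; field_simp
        refine ⟨-a⁻¹, a⁻¹ * (-c⁻¹)⁻¹, ((-c⁻¹) ^ 2)⁻¹ * -a⁻¹ + b, mul_ne_zero ha' (inv_ne_zero hc'), ?_⟩
        rw [e1, ww c hc, e2]
        calc R.x (-a⁻¹) * R.w a⁻¹ * R.x (-a⁻¹) * R.H (-c⁻¹) * R.x b
            = R.x (-a⁻¹) * R.w a⁻¹ * (R.x (-a⁻¹) * R.H (-c⁻¹)) * R.x b := by group
          _ = R.x (-a⁻¹) * (R.w a⁻¹ * R.H (-c⁻¹)) * (R.x (((-c⁻¹) ^ 2)⁻¹ * -a⁻¹) * R.x b) := by rw [e3]; group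
          _ = _ := by rw [wH _ _ ha' hc', R.x_add]
  have hCw' : ∀ g, C g → C ((R.w 1)⁻¹ * g) := by
    intro g hg
    have h1 : (R.w 1)⁻¹ = R.w 1 * R.H (-1) := by
      rw [R.w_one_H (neg_ne_zero.2 one_ne_zero), ← R.w_neg]; congr 1; simp
    have hH : ∀ g, C g → C (R.H (-1) * g) := by
      rintro g (⟨b, c, hc, rfl⟩ | ⟨b, c, d, hc, rfl⟩)
      · left
        refine ⟨(-1) ^ 2 * b, -1 * c, mul_ne_zero (neg_ne_zero.2 one_ne_zero) hc, ?_⟩
        rw [← mul_assoc, R.Hx (neg_ne_zero.2 one_ne_zero), mul_assoc, R.H_mul (neg_ne_zero.2 one_ne_zero) hc]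
      · right
        refine ⟨(-1) ^ 2 * b, -1 * c, d, mul_ne_zero (neg_ne_zero.2 one_ne_zero) hc, ?_⟩
        rw [← mul_assoc, ← mul_assoc, R.Hx (neg_ne_zero.2 one_ne_zero), mul_assoc (R.x _), R.w_eq_H c, ← mul_assoc (R.H (-1)),
          ← R.H_mul (neg_ne_zero.2 one_ne_zero) hc, ← R.w_eq_H]
    rw [h1, mul_assoc]
    exact hCw _ (hH _ hg)
  have hCy : ∀ a g, C g → C (R.y a * g) := by
    intro a g hg
    have h1 : R.y a = R.w 1 * R.x (-a) * (R.w 1)⁻¹ := by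
      rw [R.wx one_ne_zero, mul_inv_cancel_right]; congr 1; simp
    rw [h1, mul_assoc, mul_assoc]
    exact hCw _ (hCx _ _ (hCw' _ hg))
  have h1 : C 1 := Or.inl ⟨0, 1, one_ne_zero, by rw [R.x_zero, R.H_one, one_mul]⟩
  have main : ∀ z ∈ Subgroup.closure {z | ∃ a, z = R.x a ∨ z = R.y a}, ∀ g, C g → C (z * g) := by
    intro z hz
    induction hz using Subgroup.closure_induction'' with
    | mem z hz =>
      obtain ⟨a, rfl | rfl⟩ := hz
      · exact hCx a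
      · exact hCy a
    | inv_mem z hz =>
      obtain ⟨a, rfl | rfl⟩ := hz
      · rw [← R.x_neg]; exact hCx (-a)
      · rw [← R.y_neg]; exact hCy (-a)
    | one => intro g hg; rwa [one_mul]
    | mul x y _ _ hx hy => intro g hg; rw [mul_assoc]; exact hx _ (hy _ hg)
  have := main g hg 1 h1
  rwa [mul_one] at this

end CfsgLib.Sym.Rk1
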