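import Cfsg.Agent.LibSpCov2

set_option autoImplicit false
set_option maxHeartbeats 1000000
set_option linter.unusedSectionVars false

/-! Lifts of transvections (kernel of order prime to `p`): rank one and degenerate subspaces. -/

namespace CfsgLib.SyM

open Module

section

variable {K V G E : Type*} [Field K] [AddCommGroup V] [Module K V] [FiniteDimensional K V] [Group G] [Group E]
variable (S : Sy K V G) {σ : E →* G} {p : ℕ} [hp : Fact p.Prime] [CharP K p] (L : Ld σ p)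

include hp

theorem t_pow (v : V) (a : K) : ∃ k, S.t v a ^ (p ^ k) = 1 := by
  have h1 : ∀ n : ℕ, S.t v a ^ n = S.t v (n * a) := by
    intro n
    induction n with
    | zero => rw [pow_zero, Nat.cast_zero, zero_mul, S.t_zero]
    | succ n ih => rw [pow_succ, ih, Nat.cast_succ, add_mul, one_mul, S.t_add]
  refine ⟨1, ?_⟩
  rw [pow_one, h1, CharP.cast_eq_zero, zero_mul, S.t_zero]

/-- the lifts of transvections -/
def tl (v : V) (a : K) : E := L.s (S.t v a)

theorem map_tl (v : V) (a : K) : σ (tl S L v a) = S.t v a := L.s_map _ (t_pow S v a)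

theorem tl_conj (e : E) (v : V) (a : K) : e * tl S L v a * e⁻¹ = tl S L (S.ρ (σ e) v) a := by
  rw [tl, tl, L.s_conj, S.t_conj]

theorem s_one : L.s 1 = 1 := by
  have h := L.s_mul ⊥ (IsPGroup.of_bot) 1 (one_mem _) 1 (one_mem _)
  rw [mul_one] at h
  exact left_eq_mul.1 h

theorem tl_add (v : V) (a b : K) : tl S L v (a + b) = tl S L v a * tl S L v b := by
  rw [tl, S.t_add]
  exact L.s_comm _ _ (S.t_comm (S.alt v) a b) (t_pow S v a) (t_pow S v b)

theorem tl_zero (v : V) : tl S L v 0 = 1 := by rw [tl, S.t_zero, s_one L]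

theorem tl_zero' (a : K) : tl S L 0 a = 1 := by rw [tl, S.t_zero', s_one L]

theorem tl_neg (v : V) (a : K) : tl S L v (-a) = (tl S L v a)⁻¹ := by
  rw [eq_inv_iff_mul_eq_one, ← tl_add, neg_add_cancel, tl_zero]

theorem tl_smul (v : V) (c a : K) : tl S L (c • v) a = tl S L v (c ^ 2 * a) := by rw [tl, S.t_smul, tl]

/-- the group generated by the lifts of transvections with direction in `X` -/
def TE (X : Submodule K V) : Subgroup E := Subgroup.closure {g | ∃ x ∈ X, ∃ a, g = tl S L x a}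

theorem tl_mem {X : Submodule K V} {x : V} (hx : x ∈ X) (a : K) : tl S L x a ∈ TE S L X :=
  Subgroup.subset_closure ⟨x, hx, a, rfl⟩

theorem TE_mono {X Y : Submodule K V} (h : X ≤ Y) : TE S L X ≤ TE S L Y :=
  Subgroup.closure_mono (by rintro _ ⟨x, hx, a, rfl⟩; exact ⟨x, h hx, a, rfl⟩)

theorem map_TE (X : Submodule K V) : (TE S L X).map σ = S.T X := by
  rw [TE, Sy.T, MonoidHom.map_closure]
  congr 1
  ext g
  constructor
  · rintro ⟨_, ⟨x, hx, a, rfl⟩, rfl⟩
    exact ⟨x, hx, a, map_tl S L x a⟩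
  · rintro ⟨x, hx, a, rfl⟩
    exact ⟨_, ⟨x, hx, a, rfl⟩, map_tl S L x a⟩

theorem TE_M {X : Submodule K V} {e : E} (he : e ∈ TE S L X) : σ e ∈ S.M X := by
  rw [S.M_eq_T, ← map_TE S L]; exact ⟨e, he, rfl⟩

theorem exists_TE {X : Submodule K V} {g : G} (hg : g ∈ S.M X) : ∃ e ∈ TE S L X, σ e = g := by
  rw [S.M_eq_T, ← map_TE S L] at hg; exact hg

/-- the radical case -/
theorem TE_rad {X : Submodule K V} {r : V} (hr : r ∈ X) (hr0 : r ≠ 0) (hrX : ∀ x ∈ X, S.f r x = 0)
    (ih : ∀ Y : Submodule K V, finrank K Y < finrank K X → ∀ e ∈ TE S L Y, σ e = 1 → e = 1) :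
    ∀ e ∈ TE S L X, σ e = 1 → e = 1 := by
  obtain ⟨z, -, hz⟩ := S.exists_perp (X := ⊥) (y := r) (by rwa [Submodule.mem_bot])
  obtain ⟨X', hX'⟩ : ∃ X', X' = X ⊓ LinearMap.ker (S.f z) := ⟨_, rfl⟩
  have hrX' : ∀ c : K, c • r ∈ X' → c = 0 := by
    intro c hc
    rw [hX'] at hc
    have h1 : S.f z (c • r) = 0 := hc.2
    rwa [S.smul_r, hz, mul_one] at h1
  have hle : X' ≤ X := by rw [hX']; exact inf_le_left
  have hlt : finrank K X' < finrank K X := by
    apply Submodule.finrank_lt_finrank_of_lt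
    refine lt_of_le_of_ne hle ?_
    intro h
    have h1 := hrX' 1 (by rw [one_smul, h]; exact hr)
    exact one_ne_zero h1
  have hdec : ∀ x ∈ X, ∃ x' ∈ X', ∃ c : K, x = x' + c • r := by
    intro x hx
    refine ⟨x - S.f z x • r, ?_, S.f z x, by abel⟩
    rw [hX']
    refine ⟨X.sub_mem hx (X.smul_mem _ hr), ?_⟩
    change S.f z (x - S.f z x • r) = 0
    rw [S.sub_r, S.smul_r, hz, mul_one, sub_self]
  -- the p-group
  let R : Subgroup G :=
    { carrier := {g | S.ρ g r = r ∧ ∀ y, S.f r y = 0 → ∃ c : K, S.ρ g y = y + c • r}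
      one_mem' := ⟨S.ρone r, fun y _ => ⟨0, by rw [S.ρone, zero_smul, add_zero]⟩⟩
      mul_mem' := by
        rintro a b ⟨ha, ha'⟩ ⟨hb, hb'⟩
        refine ⟨by rw [S.ρmul, hb, ha], fun y hy => ?_⟩
        obtain ⟨c, hc⟩ := hb' y hy
        obtain ⟨d, hd⟩ := ha' y hy
        exact ⟨d + c, by rw [S.ρmul, hc, map_add, map_smul, ha, hd]; module⟩
      inv_mem' := by
        rintro a ⟨ha, ha'⟩
        refine ⟨S.ρ_inv_fix ha, fun y hy => ?_⟩
        obtain ⟨c, hc⟩ := ha' y hy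
        refine ⟨-c, ?_⟩
        have h1 : S.ρ a⁻¹ (S.ρ a y) = S.ρ a⁻¹ (y + c • r) := by rw [hc]
        rw [S.ρinv, map_add, map_smul, S.ρ_inv_fix ha] at h1
        conv_rhs => rw [h1]
        module }
  have hRp : IsPGroup p R := by
    rintro ⟨g, hg, hg'⟩
    refine ⟨2, Subtype.ext ?_⟩
    change g ^ (p ^ 2) = 1
    apply S.inj
    rw [map_pow, map_one]
    obtain ⟨a, ha⟩ : ∃ a, a = S.ρ g - 1 := ⟨_, rfl⟩
    have h1 : S.ρ g = 1 + a := by rw [ha]; abel
    have ha' : ∀ w, a w = S.ρ g w - w := fun w => by rw [ha]; rfl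
    have hcube : a ^ 3 = 0 := by
      ext v
      have e1 : S.f r (a v) = 0 := by
        rw [ha', S.sub_r]
        have h2 := S.inv g r v
        rw [hg] at h2
        rw [h2, sub_self]
      obtain ⟨c, hc⟩ := hg' _ e1
      have e2 : a (a v) = c • r := by
        rw [ha' (a v), hc]; abel
      have e3 : a r = 0 := by
        rw [ha', hg, sub_self]
      change a (a (a v)) = 0
      rw [e2, map_smul, e3, smul_zero]
    haveI : CharP (Module.End K V) p := by
      haveI : Nontrivial V := ⟨⟨r, 0, hr0⟩⟩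
      exact charP_of_injective_algebraMap (algebraMap K (Module.End K V)).injective p
    rw [h1, add_pow_char_pow_of_commute p 2 (Commute.one_left a), one_pow]
    have h3 : 3 ≤ p ^ 2 := by nlinarith [hp.out.two_le]
    rw [← Nat.sub_add_cancel h3, pow_add, hcube, mul_zero, add_zero]
  have hRconj : ∀ k : G, S.ρ k r = r → ∀ g ∈ R, k * g * k⁻¹ ∈ R := by
    rintro k hk g ⟨hg, hg'⟩
    refine ⟨?_, fun y hy => ?_⟩
    · rw [S.ρmul, S.ρmul, S.ρ_inv_fix hk, hg, hk]
    · have h1 : S.f r (S.ρ k⁻¹ y) = 0 := by rw [← S.adj, hk, hy]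
      obtain ⟨c, hc⟩ := hg' _ h1
      exact ⟨c, by rw [S.ρmul, S.ρmul, hc, map_add, map_smul, hk, S.ρinv']⟩
  have hsinv : ∀ g ∈ R, (L.s g)⁻¹ = L.s g⁻¹ := by
    intro g hg
    rw [inv_eq_iff_mul_eq_one, ← L.s_mul R hRp g hg g⁻¹ (R.inv_mem hg), mul_inv_cancel, s_one L]
  have hfix : ∀ k ∈ TE S L X', S.ρ (σ k) r = r := by
    intro k hk
    exact S.M_perp (TE_M S L hk) (fun x hx => hrX x (hle hx))
  -- the product set
  let N : Subgroup E :=
    { carrier := {e | ∃ g ∈ R, ∃ k ∈ TE S L X', e = L.s g * k}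
      one_mem' := ⟨1, one_mem _, 1, one_mem _, by rw [s_one L, mul_one]⟩
      mul_mem' := by
        rintro _ _ ⟨g, hg, k, hk, rfl⟩ ⟨g', hg', k', hk', rfl⟩
        refine ⟨g * (σ k * g' * (σ k)⁻¹), R.mul_mem hg (hRconj _ (hfix k hk) _ hg'), k * k', mul_mem hk hk', ?_⟩
        rw [L.s_mul R hRp g hg _ (hRconj _ (hfix k hk) _ hg'), ← L.s_conj]; group
      inv_mem' := by
        rintro _ ⟨g, hg, k, hk, rfl⟩
        have h1 := hRconj _ (hfix k⁻¹ (inv_mem hk)) _ (R.inv_mem hg)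
        refine ⟨_, h1, k⁻¹, inv_mem hk, ?_⟩
        rw [← L.s_conj, ← hsinv g hg]; group }
  have hTN : TE S L X ≤ N := by
    rw [TE, Subgroup.closure_le]
    rintro _ ⟨x, hx, a, rfl⟩
    obtain ⟨x', hx', c, rfl⟩ := hdec x hx
    have h0 : S.f x' r = 0 := S.skew_eq (hrX x' (hle hx'))
    have h0' : S.f r x' = 0 := hrX x' (hle hx')
    have h1 : S.f (x' + c • r) x' = 0 := by
      rw [S.add_l, S.alt, S.smul_l, h0', mul_zero, zero_add]
    have h2 : S.t (x' + c • r) a * S.t x' (-a) ∈ R := by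
      refine ⟨?_, fun y hy => ?_⟩
      · rw [S.ρmul, S.t_fix h0', S.t_fix]
        rw [S.add_r, S.smul_r, S.alt, mul_zero, add_zero, h0']
      · refine ⟨a * c * S.f y x', ?_⟩
        have hy' : S.f y r = 0 := S.skew_eq hy
        rw [S.ρmul, S.ht, S.ht]
        simp only [S.add_l, S.add_r, S.smul_l, S.smul_r, S.alt, hy', h0, h0']
        module
    refine ⟨_, h2, tl S L x' a, tl_mem S L hx' a, ?_⟩
    have h3 : L.s (S.t (x' + c • r) a * S.t x' (-a)) = tl S L (x' + c • r) a * tl S L x' (-a) :=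
      L.s_comm _ _ (S.t_comm h1 _ _) (t_pow S _ _) (t_pow S _ _)
    rw [h3, tl_neg, inv_mul_cancel_right]
  intro e he hσe
  obtain ⟨g, hg, k, hk, rfl⟩ := hTN he
  have hgp : ∃ k, g ^ (p ^ k) = 1 := by
    obtain ⟨n, hn⟩ := hRp ⟨g, hg⟩
    exact ⟨n, congrArg Subtype.val hn⟩
  rw [map_mul, L.s_map g hgp] at hσe
  have hkR : σ k ∈ R := by
    rw [← inv_eq_of_mul_eq_one_right hσe]; exact R.inv_mem hg
  have hkM : σ k ∈ S.M X' := TE_M S L hk
  have hperp : ∀ y, S.f r y = 0 → S.ρ (σ k) y = y := by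
    intro y hy
    obtain ⟨c, hc⟩ := hkR.2 y hy
    have h1 := hkM y
    rw [hc, add_sub_cancel_left] at h1
    rw [hc, hrX' c h1, zero_smul, add_zero]
  have hk1 : σ k = 1 := by
    apply S.eq_one
    intro y
    have hd : S.ρ (σ k) y - y ∈ Submodule.span K {r} := by
      by_contra hcon
      obtain ⟨w, hw1, hw2⟩ := S.exists_perp hcon
      have hw3 : S.f w r = 0 := hw1 r (Submodule.mem_span_singleton_self r)
      have hw4 : S.ρ (σ k)⁻¹ w = w := S.ρ_inv_fix (hperp w (S.skew_eq hw3))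
      have h5 : S.f w (S.ρ (σ k) y) = S.f w y := by
        rw [S.skew, S.adj, hw4, ← S.skew]
      rw [S.sub_r, h5, sub_self] at hw2
      exact zero_ne_one hw2
    obtain ⟨c, hc⟩ := Submodule.mem_span_singleton.1 hd
    have h1 := hkM y
    rw [← hc] at h1
    have h2 := hrX' c h1
    rw [h2, zero_smul] at hc
    exact sub_eq_zero.1 hc.symm
  rw [hk1, mul_one] at hσe
  rw [hσe, s_one L, one_mul]
  exact ih X' hlt k hk hk1

/-- the rank one case -/
theorem TE_two [Finite K] {v v' : V} (hv : S.f v v' = 1) :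
    ∀ e ∈ TE S L (Submodule.span K {v, v'}), σ e = 1 → e = 1 := by
  have hv' : S.f v' v = -1 := by rw [S.skew, hv]
  have w_act : ∀ c : K, c ≠ 0 → S.ρ (S.t v (-c) * S.t v' (-c⁻¹) * S.t v (-c)) v = (-c⁻¹) • v' := by
    intro c hc
    simp only [S.ρmul, S.ht, S.add_l, S.smul_l, S.alt, hv, hv']
    have : (-c⁻¹ * (1 + -c * 0 * 1)) = -c⁻¹ := by ring
    match_scalars <;> field_simp <;> ring
  have w_act' : ∀ c : K, c ≠ 0 → S.ρ (S.t v (-c) * S.t v' (-c⁻¹) * S.t v (-c)) v' = c • v := by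
    intro c hc
    simp only [S.ρmul, S.ht, S.add_l, S.smul_l, S.alt, hv, hv']
    match_scalars <;> field_simp <;> ring
  let R : CfsgLib.Sym.Rk1 K E :=
    { x := fun a => tl S L v (-a)
      y := fun a => tl S L v' a
      x_add := fun a b => by rw [neg_add, tl_add]
      y_add := fun a b => tl_add S L v' a b
      wx' := fun c hc a => by
        have h := tl_conj S L (tl S L v (-c) * tl S L v' (-c⁻¹) * tl S L v (-c)) v (-a)
        rw [map_mul σ, map_mul σ, map_tl, map_tl, w_act c hc, tl_smul, mul_inv_eq_iff_eq_mul] at h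
        rw [h]; congr 2; ring
      wy' := fun c hc a => by
        have h := tl_conj S L (tl S L v (-c) * tl S L v' (-c⁻¹) * tl S L v (-c)) v' a
        rw [map_mul σ, map_mul σ, map_tl, map_tl, w_act' c hc, tl_smul, mul_inv_eq_iff_eq_mul] at h
        rw [h]; congr 2; ring }
  have hRx : ∀ a, R.x a = tl S L v (-a) := fun a => rfl
  have hRy : ∀ a, R.y a = tl S L v' a := fun a => rfl
  obtain ⟨C, hC⟩ : ∃ C, C = Subgroup.closure {z | ∃ a, z = R.x a ∨ z = R.y a} := ⟨_, rfl⟩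
  have hx : ∀ a, tl S L v a ∈ C := by
    intro a
    rw [hC]
    exact Subgroup.subset_closure ⟨-a, Or.inl (by rw [hRx, neg_neg])⟩
  have hy : ∀ a, tl S L v' a ∈ C := by
    intro a
    rw [hC]
    exact Subgroup.subset_closure ⟨a, Or.inr rfl⟩
  have hle : TE S L (Submodule.span K {v, v'}) ≤ C := by
    rw [TE, Subgroup.closure_le]
    rintro _ ⟨z, hz, a, rfl⟩
    obtain ⟨α, β, rfl⟩ := Submodule.mem_span_pair.1 hz
    by_cases hβ : β = 0
    · rw [hβ, zero_smul, add_zero, tl_smul]; exact hx _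
    · -- move `v` to the vector
      have hg : S.ρ (σ (tl S L v (-((α - 1) / β)) * tl S L v' β)) v = α • v + β • v' := by
        rw [map_mul, map_tl, map_tl, S.ρmul, S.ht, S.ht]
        simp only [S.add_l, S.smul_l, S.alt, hv, hv']
        match_scalars <;> field_simp <;> ring
      rw [← hg, ← tl_conj S L]
      exact mul_mem (mul_mem (mul_mem (hx _) (hy _)) (hx _)) (inv_mem (mul_mem (hx _) (hy _)))
  intro e he hσe
  have he' := hle he
  rw [hC] at he'
  have hw : ∀ c : K, σ (R.w c) = S.t v (-c) * S.t v' (-c⁻¹) * S.t v (-c) := by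
    intro c
    rw [CfsgLib.Sym.Rk1.w, map_mul, map_mul, hRx, hRy, map_tl, map_tl]
  rcases R.cells he' with ⟨a, c, hc, rfl⟩ | ⟨a, c, b, hc, rfl⟩
  · have hm1 : (-1 : K) ≠ 0 := neg_ne_zero.2 one_ne_zero
    have h1 : S.ρ (σ (R.H c)) v = c • v := by
      rw [CfsgLib.Sym.Rk1.H, map_mul, hw, hw, S.ρmul, w_act _ hm1, map_smul, w_act' c hc]
      rw [smul_smul]; congr 1; rw [inv_neg, inv_one, neg_neg, one_mul]
    have h2 : S.ρ (σ (R.H c)) v' = c⁻¹ • v' := by
      rw [CfsgLib.Sym.Rk1.H, map_mul, hw, hw, S.ρmul, w_act' _ hm1, map_smul, w_act c hc]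
      rw [smul_smul]; congr 1; ring
    have h3 : S.ρ (σ (R.x a * R.H c)) v = c • v := by
      rw [map_mul, S.ρmul, h1, map_smul, hRx, map_tl, S.t_fix (S.alt v)]
    have h4 : c = 1 := by
      rw [hσe, S.ρone] at h3
      have h5 := congrArg (fun z => S.f z v') h3
      simp only [S.smul_l, hv, mul_one] at h5
      exact h5.symm
    subst h4
    rw [CfsgLib.Sym.Rk1.H_one, mul_one] at hσe ⊢
    have h6 : S.t v (-a) = 1 := by rw [← map_tl S L, ← hRx, hσe]
    have hv0 : v ≠ 0 := by rintro rfl; rw [S.zero_l] at hv; exact zero_ne_one hv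
    have h7 := S.t_ne_one hv0 h6
    rw [hRx, h7, tl_zero]
  · exfalso
    have h1 : S.ρ (σ (R.x a * R.w c * R.x b)) v = S.ρ (S.t v (-a)) ((-c⁻¹) • v') := by
      rw [map_mul σ, map_mul σ, S.ρmul, S.ρmul, hw, hRx, hRx, map_tl, map_tl, S.t_fix (S.alt v), w_act c hc]
    rw [hσe, S.ρone] at h1
    have h2 := congrArg (fun z => S.f z v) h1
    simp only [S.ht, S.alt, S.smul_l, S.add_l, hv'] at h2
    have h3 : c⁻¹ ≠ 0 := inv_ne_zero hc
    apply h3
    linear_combination -h2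

end

end CfsgLib.SyM
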