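import Cfsg.Agent.LibSpCov3

set_option autoImplicit false
set_option maxHeartbeats 1000000
set_option linter.unusedSectionVars false

/-! Lifts of transvections (kernel of order prime to `p`): the covering argument. -/

namespace CfsgLib.SyM

open Module

/-- avoiding two values -/
theorem avoid {K : Type*} [Field K] {c : K} (hc0 : c ≠ 0) (hc1 : c ≠ 1) {a a' b b' : K} (h1 : a ≠ 0 ∨ a' ≠ 0)
    (h2 : b ≠ 0 ∨ b' ≠ 0) : ∃ α : K, a + α * a' ≠ 0 ∧ b + α * b' ≠ 0 := by
  have key : ∀ {a a' : K}, (a ≠ 0 ∨ a' ≠ 0) → ∀ x y : K, x ≠ y → a + x * a' = 0 → a + y * a' = 0 → False := by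
    intro a a' h x y hxy e1 e2
    have e3 : (x - y) * a' = 0 := by linear_combination e1 - e2
    rcases mul_eq_zero.1 e3 with h3 | h3
    · exact hxy (sub_eq_zero.1 h3)
    · rw [h3, mul_zero, add_zero] at e1
      rcases h with h | h
      · exact h e1
      · exact h h3
  by_contra hcon
  push Not at hcon
  have p0 := hcon 0
  have p1 := hcon 1
  have pc := hcon c
  have k1 := fun x y hxy => key h1 x y hxy
  have k2 := fun x y hxy => key h2 x y hxy
  have n01 : (0 : K) ≠ 1 := zero_ne_one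
  by_cases a0 : a + 0 * a' = 0
  · by_cases a1 : a + 1 * a' = 0
    · exact k1 0 1 n01 a0 a1
    · have b1 := p1 a1
      by_cases ac : a + c * a' = 0
      · exact k1 0 c (Ne.symm hc0) a0 ac
      · exact k2 1 c (Ne.symm hc1) b1 (pc ac)
  · have b0 := p0 a0
    by_cases a1 : a + 1 * a' = 0
    · by_cases ac : a + c * a' = 0
      · exact k1 1 c (Ne.symm hc1) a1 ac
      · exact k2 0 c (Ne.symm hc0) b0 (pc ac)
    · exact k2 0 1 n01 b0 (p1 a1)

section

variable {K V G E : Type*} [Field K] [AddCommGroup V] [Module K V] [FiniteDimensional K V] [Group G] [Group E]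
variable (S : Sy K V G)

/-- nondegenerate subspaces -/
def Nd (X : Submodule K V) : Prop := ∀ x ∈ X, x ≠ 0 → ∃ y ∈ X, S.f x y ≠ 0

variable {S}

theorem Nd.riesz {X : Submodule K V} (hX : Nd S X) (φ : V →ₗ[K] K) : ∃ z ∈ X, ∀ x ∈ X, S.f z x = φ x := by
  let T : X →ₗ[K] (X →ₗ[K] K) := (LinearMap.lcomp K K X.subtype).comp (S.f.comp X.subtype)
  have hT : ∀ z x : X, T z x = S.f z x := fun z x => rfl
  have h1 : Function.Injective T := by
    rw [injective_iff_map_eq_zero]
    intro v hv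
    by_contra hne
    obtain ⟨y, hy, hy1⟩ := hX v v.2 (fun h => hne (Subtype.ext h))
    apply hy1
    have := hT v ⟨y, hy⟩
    rw [hv] at this
    exact this.symm
  have h2 : Function.Surjective T := by
    have h3 : finrank K X = finrank K (X →ₗ[K] K) := (Subspace.dual_finrank_eq (K := K) (V := X)).symm
    exact (LinearMap.injective_iff_surjective_of_finrank_eq_finrank h3).1 h1
  obtain ⟨z, hz⟩ := h2 (φ.comp X.subtype)
  refine ⟨z, z.2, fun x hx => ?_⟩
  rw [← hT z ⟨x, hx⟩, hz]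
  rfl

theorem Nd.perp {X D : Submodule K V} (hX : Nd S X) (hD : D ≤ X) {y : V} (hyX : y ∈ X) (hy : y ∉ D) :
    ∃ z ∈ X, (∀ x ∈ D, S.f z x = 0) ∧ S.f z y = 1 := by
  obtain ⟨w, hw1, hw2⟩ := S.exists_perp hy
  obtain ⟨z, hz, hz1⟩ := hX.riesz (S.f w)
  exact ⟨z, hz, fun x hx => by rw [hz1 x (hD hx), hw1 x hx], by rw [hz1 y hyX, hw2]⟩

theorem Nd.two {X : Submodule K V} (hX : Nd S X) {u v : V} (hu : u ∈ X) (hu0 : u ≠ 0) (hv : v ∈ X) (hv0 : v ≠ 0) :
    ∃ y ∈ X, S.f y u ≠ 0 ∧ S.f y v ≠ 0 := by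
  obtain ⟨y, hy, h1, h2⟩ := Sy.exists_two (hX u hu hu0) (hX v hv hv0)
  exact ⟨y, hy, S.skew_ne h1, S.skew_ne h2⟩

/-- a common neighbour of three vectors -/
theorem Nd.three' {X : Submodule K V} (hX : Nd S X) {v₀ u v : V} (h0 : v₀ ∈ X) (h00 : v₀ ≠ 0) (hu : u ∈ X) (hv : v ∈ X)
    (huv : S.f u v ≠ 0) (h : S.f v₀ u = 0) : ∃ y ∈ X, S.f y v₀ ≠ 0 ∧ S.f y u ≠ 0 ∧ S.f y v ≠ 0 := by
  have hu0 : u ≠ 0 := by rintro rfl; exact huv (S.zero_l v)
  have hv0 : v ≠ 0 := by rintro rfl; exact huv (S.zero_r u)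
  by_cases hK : ∃ c : K, c ≠ 0 ∧ c ≠ 1
  · obtain ⟨c, hc0, hc1⟩ := hK
    obtain ⟨y, hy, h1, h2⟩ := hX.two h0 h00 hv hv0
    obtain ⟨α, ha1, ha2⟩ := avoid hc0 hc1 (a := S.f y u) (a' := S.f v u) (b := S.f y v₀) (b' := S.f v v₀)
      (Or.inr (S.skew_ne huv)) (Or.inl h1)
    refine ⟨y + α • v, X.add_mem hy (X.smul_mem _ hv), ?_, ?_, ?_⟩
    · rw [S.add_l, S.smul_l]; exact ha2
    · rw [S.add_l, S.smul_l]; exact ha1
    · rwa [S.add_l, S.smul_l, S.alt, mul_zero, add_zero]
  · push Not at hK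
    have one : ∀ c : K, c ≠ 0 → c = 1 := hK
    have huv1 : S.f u v = 1 := one _ huv
    have hvu1 : S.f v u = 1 := one _ (S.skew_ne huv)
    have hu0' : S.f u v₀ = 0 := S.skew_eq h
    have hnot : u ∉ Submodule.span K {u - v, u - v₀} := by
      intro hmem
      obtain ⟨a, b, hab⟩ := Submodule.mem_span_pair.1 hmem
      have e1 := congrArg (fun z => S.f z u) hab
      simp only [S.add_l, S.sub_l, S.smul_l, S.alt, h, hvu1] at e1
      have ha : a = 0 := by linear_combination -e1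
      rw [ha, zero_smul, zero_add] at hab
      by_cases hb : b = 0
      · rw [hb, zero_smul] at hab; exact hu0 hab.symm
      · rw [one b hb, one_smul, sub_eq_self] at hab; exact h00 hab
    obtain ⟨z, hz, hz1, hz2⟩ := hX.perp (D := Submodule.span K {u - v, u - v₀}) (by
      rw [Submodule.span_le]
      rintro x (rfl | rfl)
      · exact X.sub_mem hu hv
      · exact X.sub_mem hu h0) hu hnot
    have e1 := hz1 (u - v) (Submodule.subset_span (by simp))
    have e2 := hz1 (u - v₀) (Submodule.subset_span (by simp))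
    rw [S.sub_r, sub_eq_zero, hz2] at e1 e2
    refine ⟨z, hz, ?_, ?_, ?_⟩
    · rw [← e2]; exact one_ne_zero
    · rw [hz2]; exact one_ne_zero
    · rw [← e1]; exact one_ne_zero

/-- a common neighbour of four vectors -/
theorem Nd.four {X : Submodule K V} (hX : Nd S X) {v₀ v y y' : V} (h0 : v₀ ∈ X) (hv : v ∈ X) (hy : y ∈ X) (hy' : y' ∈ X)
    (h1 : S.f v₀ y ≠ 0) (h2 : S.f v₀ y' ≠ 0) (h3 : S.f y v ≠ 0) (h4 : S.f y' v ≠ 0) (h5 : S.f v₀ v = 0) (h6 : S.f y y' = 0) :
    ∃ z ∈ X, S.f z v₀ ≠ 0 ∧ S.f z v ≠ 0 ∧ S.f z y ≠ 0 ∧ S.f z y' ≠ 0 := by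
  have hy0 : y ≠ 0 := by rintro rfl; exact h3 (S.zero_l v)
  have hy0' : y' ≠ 0 := by rintro rfl; exact h4 (S.zero_l v)
  by_cases hK : ∃ c : K, c ≠ 0 ∧ c ≠ 1
  · obtain ⟨c, hc0, hc1⟩ := hK
    obtain ⟨z, hz, e1, e2⟩ := hX.two hy hy0 hy' hy0'
    obtain ⟨α, ha1, ha2⟩ := avoid hc0 hc1 (a := S.f z v₀) (a' := S.f y v₀) (b := S.f z v) (b' := S.f y v)
      (Or.inr (S.skew_ne h1)) (Or.inr h3)
    refine ⟨z + α • y, X.add_mem hz (X.smul_mem _ hy), ?_, ?_, ?_, ?_⟩
    · rw [S.add_l, S.smul_l]; exact ha1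
    · rw [S.add_l, S.smul_l]; exact ha2
    · rwa [S.add_l, S.smul_l, S.alt, mul_zero, add_zero]
    · rwa [S.add_l, S.smul_l, h6, mul_zero, add_zero]
  · push Not at hK
    have one : ∀ c : K, c ≠ 0 → c = 1 := hK
    have two : (2 : K) = 0 := by
      by_contra h
      have := one 2 h
      have h' : (1 : K) = 0 := by linear_combination this
      exact one_ne_zero h'
    have hnot : y ∉ Submodule.span K {y - v₀, y - v, y - y'} := by
      intro hmem
      obtain ⟨a, b, c, habc⟩ := Submodule.mem_span_triple.1 hmem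
      have e1 := congrArg (fun z => S.f z y) habc
      have e2 := congrArg (fun z => S.f z v₀) habc
      have f1 : S.f v₀ y = 1 := one _ h1
      have f2 : S.f v y = 1 := one _ (S.skew_ne h3)
      have f3 : S.f y' y = 0 := S.skew_eq h6
      have f4 : S.f y v₀ = 1 := one _ (S.skew_ne h1)
      have f5 : S.f v v₀ = 0 := S.skew_eq h5
      have f6 : S.f y' v₀ = 1 := one _ (S.skew_ne h2)
      simp only [S.add_l, S.sub_l, S.smul_l, S.alt, f1, f2, f3, f4, f5, f6] at e1 e2
      have h' : (1 : K) = 0 := by linear_combination -e1 - e2 + 0 * two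
      exact one_ne_zero h'
    obtain ⟨z, hz, hz1, hz2⟩ := hX.perp (D := Submodule.span K {y - v₀, y - v, y - y'}) (by
      rw [Submodule.span_le]
      rintro x (rfl | rfl | rfl)
      · exact X.sub_mem hy h0
      · exact X.sub_mem hy hv
      · exact X.sub_mem hy hy') hy hnot
    have e1 := hz1 (y - v₀) (Submodule.subset_span (by simp))
    have e2 := hz1 (y - v) (Submodule.subset_span (by simp))
    have e3 := hz1 (y - y') (Submodule.subset_span (by simp))
    rw [S.sub_r, sub_eq_zero, hz2] at e1 e2 e3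
    refine ⟨z, hz, ?_, ?_, ?_, ?_⟩
    · rw [← e1]; exact one_ne_zero
    · rw [← e2]; exact one_ne_zero
    · rw [hz2]; exact one_ne_zero
    · rw [← e3]; exact one_ne_zero

variable {σ : E →* G} {p : ℕ} [hp : Fact p.Prime] [CharP K p] (L : Ld σ p)

variable (S) in
/-- the edge element -/
def ed (u v : V) : E := tl S L (v - u) (S.f u v)⁻¹

theorem ed_inv (u v : V) : ed S L v u = (ed S L u v)⁻¹ := by
  rw [ed, ed, ← tl_neg]
  have h1 : u - v = (-1 : K) • (v - u) := by rw [neg_one_smul]; abel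
  rw [h1, tl_smul, S.skew v u]
  congr 1
  rw [inv_neg]; ring

theorem ed_move {u v : V} (h : S.f u v ≠ 0) : S.ρ (σ (ed S L u v)) u = v := by
  rw [ed, map_tl, S.t_move h]

theorem ed_mem {X : Submodule K V} {u v : V} (hu : u ∈ X) (hv : v ∈ X) : ed S L u v ∈ TE S L X :=
  tl_mem S L (X.sub_mem hv hu) _

section cover

variable (S) (X : Submodule K V) (v₀ : V)

/-- the coset space -/
abbrev Q0 : Type _ := E ⧸ TE S L (X ⊓ LinearMap.ker (S.f v₀))

/-- `x` lies above `u` -/
def At (x : Q0 S L X v₀) (u : V) : Prop := ∃ e ∈ TE S L X, x = (e : Q0 S L X v₀) ∧ S.ρ (σ e) v₀ = u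

variable {S X v₀}

theorem At.mem {x : Q0 S L X v₀} {u : V} (h0 : v₀ ∈ X) (h : At S L X v₀ x u) : u ∈ X := by
  obtain ⟨e, he, -, rfl⟩ := h
  exact S.M_pres (TE_M S L he) h0

theorem At.smul {x : Q0 S L X v₀} {u : V} (h : At S L X v₀ x u) {k : E} (hk : k ∈ TE S L X) :
    At S L X v₀ (k • x) (S.ρ (σ k) u) := by
  obtain ⟨e, he, rfl, rfl⟩ := h
  exact ⟨k * e, mul_mem hk he, rfl, by rw [map_mul, S.ρmul]⟩

theorem At.fix {x : Q0 S L X v₀} {u : V} (h : At S L X v₀ x u) {k : E}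
    (hk : k ∈ TE S L (X ⊓ LinearMap.ker (S.f u))) : k • x = x := by
  obtain ⟨e, he, rfl, rfl⟩ := h
  have h1 : e⁻¹ * k * e ∈ TE S L (X ⊓ LinearMap.ker (S.f v₀)) := by
    have h2 : ∀ k ∈ TE S L (X ⊓ LinearMap.ker (S.f (S.ρ (σ e) v₀))), e⁻¹ * k * e ∈ TE S L (X ⊓ LinearMap.ker (S.f v₀)) := by
      intro k hk
      induction hk using Subgroup.closure_induction with
      | mem k hk =>
        obtain ⟨x, hx, a, rfl⟩ := hk
        have h3 := tl_conj S L e⁻¹ x a
        rw [inv_inv] at h3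
        rw [h3]
        apply tl_mem
        have h5 := TE_M S L (inv_mem he)
        refine ⟨S.M_pres h5 hx.1, ?_⟩
        change S.f v₀ (S.ρ (σ e⁻¹) x) = 0
        rw [map_inv, ← S.adj]
        exact hx.2
      | one => rw [mul_one, inv_mul_cancel]; exact one_mem _
      | mul a b _ _ ha hb =>
        have : e⁻¹ * (a * b) * e = (e⁻¹ * a * e) * (e⁻¹ * b * e) := by group
        rw [this]; exact mul_mem ha hb
      | inv a _ ha =>
        have : e⁻¹ * a⁻¹ * e = (e⁻¹ * a * e)⁻¹ := by group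
        rw [this]; exact inv_mem ha
    exact h2 k hk
  change ((k * e : E) : Q0 S L X v₀) = (e : Q0 S L X v₀)
  rw [eq_comm, QuotientGroup.eq, ← mul_assoc]
  exact h1

variable (ih : ∀ Y : Submodule K V, finrank K Y < finrank K X → ∀ e ∈ TE S L Y, σ e = 1 → e = 1)

include ih in
theorem At.tri {x : Q0 S L X v₀} {u v w : V} (h : At S L X v₀ x u) (hu : u ∈ X) (hv : v ∈ X) (hw : w ∈ X) (h4 : 4 ≤ finrank K X)
    (h1 : S.f u v ≠ 0) (h2 : S.f v w ≠ 0) (h3 : S.f u w ≠ 0) :
    ed S L v w • ed S L u v • x = ed S L u w • x := by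
  let Y : Submodule K V := Submodule.span K {u, v, w}
  have hYX : Y ≤ X := by
    rw [Submodule.span_le]
    rintro z (rfl | rfl | rfl) <;> assumption
  have hY3 : finrank K Y < finrank K X := by
    have h5 : finrank K Y ≤ 3 := by
      classical
      have h6 := finrank_span_finset_le_card (R := K) ({u, v, w} : Finset V)
      have h7 : (({u, v, w} : Finset V) : Set V) = {u, v, w} := by simp
      rw [h7] at h6
      exact h6.trans Finset.card_le_three
    omega
  have hu' : u ∈ Y := Submodule.subset_span (by simp)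
  have hv' : v ∈ Y := Submodule.subset_span (by simp)
  have hw' : w ∈ Y := Submodule.subset_span (by simp)
  obtain ⟨g, hg⟩ : ∃ g, g = (ed S L u w)⁻¹ * (ed S L v w * ed S L u v) := ⟨_, rfl⟩
  have hgY : g ∈ TE S L Y := by
    rw [hg]
    exact mul_mem (inv_mem (ed_mem L hu' hw')) (mul_mem (ed_mem L hv' hw') (ed_mem L hu' hv'))
  have hgu : S.ρ (σ g) u = u := by
    rw [hg, map_mul σ, map_mul σ, map_inv σ, S.ρmul, S.ρmul, ed_move L h1, ed_move L h2]
    have h9 := S.ρinv (σ (ed S L u w)) u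
    rwa [ed_move L h3] at h9
  obtain ⟨k, hk, hk1⟩ := exists_TE S L (S.M_fix (TE_M S L hgY) hgu)
  have hkY : k ∈ TE S L Y := TE_mono S L inf_le_left hk
  have hkg : k = g := by
    have h5 := ih Y hY3 (k⁻¹ * g) (mul_mem (inv_mem hkY) hgY) (by rw [map_mul, map_inv, hk1, inv_mul_cancel])
    exact inv_mul_eq_one.1 h5
  have h6 : g • x = x := by
    rw [← hkg]
    exact h.fix L (TE_mono S L (inf_le_inf_right _ hYX) hk)
  conv_rhs => rw [← h6]
  rw [smul_smul, smul_smul, hg, mul_inv_cancel_left]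


variable (hX : Nd S X) (h0 : v₀ ∈ X) (h00 : v₀ ≠ 0) (h4 : 4 ≤ finrank K X)

include h0 in
theorem at_base : At S L X v₀ ((1 : E) : Q0 S L X v₀) v₀ := ⟨1, one_mem _, rfl, by rw [map_one, S.ρone]⟩

variable (S X v₀) in
/-- the section -/
def Cn (x : Q0 S L X v₀) (v : V) : Prop :=
  ∃ y ∈ X, S.f v₀ y ≠ 0 ∧ S.f y v ≠ 0 ∧ x = ed S L y v • ed S L v₀ y • ((1 : E) : Q0 S L X v₀)

include ih hX h0 h4 in
theorem cn_unique {v : V} (hv : v ∈ X) {x x' : Q0 S L X v₀} (h : Cn S L X v₀ x v) (h' : Cn S L X v₀ x' v) : x = x' := by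
  obtain ⟨y, hy, a1, a2, rfl⟩ := h
  obtain ⟨y', hy', b1, b2, rfl⟩ := h'
  have hb := at_base (S := S) L h0
  by_cases hv0 : S.f v₀ v = 0
  · -- adjacent case
    have adj : ∀ y ∈ X, ∀ y' ∈ X, S.f v₀ y ≠ 0 → S.f y v ≠ 0 → S.f v₀ y' ≠ 0 → S.f y' v ≠ 0 → S.f y y' ≠ 0 →
        ed S L y v • ed S L v₀ y • ((1 : E) : Q0 S L X v₀) = ed S L y' v • ed S L v₀ y' • ((1 : E) : Q0 S L X v₀) := by
      intro y hy y' hy' a1 a2 b1 b2 hyy
      have hx := hb.smul L (ed_mem (S := S) L h0 hy)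
      rw [ed_move L a1] at hx
      rw [← hb.tri L ih h0 hy hy' h4 a1 hyy b1, hx.tri L ih hy hy' hv h4 hyy b2 a2]
    by_cases hyy : S.f y y' = 0
    · obtain ⟨z, hz, c1, c2, c3, c4⟩ := hX.four h0 hv hy hy' a1 b1 a2 b2 hv0 hyy
      rw [adj y hy z hz a1 a2 (S.skew_ne c1) c2 (S.skew_ne c3), adj z hz y' hy' (S.skew_ne c1) c2 b1 b2 c4]
    · exact adj y hy y' hy' a1 a2 b1 b2 hyy
  · rw [hb.tri L ih h0 hy hv h4 a1 a2 hv0, hb.tri L ih h0 hy' hv h4 b1 b2 hv0]

include ih hX h0 h4 in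
theorem cn_direct {v : V} (hv : v ∈ X) {x : Q0 S L X v₀} (h : Cn S L X v₀ x v) (hv0 : S.f v₀ v ≠ 0) :
    x = ed S L v₀ v • ((1 : E) : Q0 S L X v₀) := by
  obtain ⟨y, hy, a1, a2, rfl⟩ := h
  exact (at_base (S := S) L h0).tri L ih h0 hy hv h4 a1 a2 hv0

include ih hX h0 h4 h00 in
theorem cn_of_direct {v : V} (hv : v ∈ X) (hv0 : S.f v₀ v ≠ 0) :
    Cn S L X v₀ (ed S L v₀ v • ((1 : E) : Q0 S L X v₀)) v := by
  have hvne : v ≠ 0 := by rintro rfl; exact hv0 (S.zero_r _)
  obtain ⟨y, hy, h1, h2⟩ := hX.two h0 h00 hv hvne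
  refine ⟨y, hy, S.skew_ne h1, h2, ?_⟩
  exact ((at_base (S := S) L h0).tri L ih h0 hy hv h4 (S.skew_ne h1) h2 hv0).symm

include ih hX h0 h00 h4 in
theorem cn_edge {u v : V} (hu : u ∈ X) (hv : v ∈ X) {x : Q0 S L X v₀} (h : Cn S L X v₀ x u) (huv : S.f u v ≠ 0) :
    Cn S L X v₀ (ed S L u v • x) v := by
  have hb := at_base (S := S) L h0
  by_cases hc : S.f v₀ u ≠ 0 ∧ S.f v₀ v ≠ 0
  · rw [cn_direct L ih hX h0 h4 hu h hc.1, hb.tri L ih h0 hu hv h4 hc.1 huv hc.2]
    exact cn_of_direct L ih hX h0 h00 h4 hv hc.2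
  · have hex : ∃ y ∈ X, S.f y v₀ ≠ 0 ∧ S.f y u ≠ 0 ∧ S.f y v ≠ 0 := by
      by_cases hc1 : S.f v₀ u = 0
      · exact hX.three' h0 h00 hu hv huv hc1
      · have hc2 : S.f v₀ v = 0 := by
          by_contra h'
          exact hc ⟨hc1, h'⟩
        obtain ⟨y, hy, e1, e2, e3⟩ := hX.three' h0 h00 hv hu (S.skew_ne huv) hc2
        exact ⟨y, hy, e1, e3, e2⟩
    obtain ⟨y, hy, e1, e2, e3⟩ := hex
    have h1 : x = ed S L y u • ed S L v₀ y • ((1 : E) : Q0 S L X v₀) :=
      cn_unique L ih hX h0 h4 hu h ⟨y, hy, S.skew_ne e1, e2, rfl⟩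
    have hx := hb.smul L (ed_mem (S := S) L h0 hy)
    rw [ed_move L (S.skew_ne e1)] at hx
    rw [h1, hx.tri L ih hy hu hv h4 e2 huv e3]
    exact ⟨y, hy, S.skew_ne e1, e3, rfl⟩

theorem Cn.at {x : Q0 S L X v₀} {u : V} (h0 : v₀ ∈ X) (hu : u ∈ X) (h : Cn S L X v₀ x u) : At S L X v₀ x u := by
  obtain ⟨y, hy, h1, h2, rfl⟩ := h
  have hb := at_base (S := S) L h0
  have hx := hb.smul L (ed_mem (S := S) L h0 hy)
  rw [ed_move L h1] at hx
  have hx2 := hx.smul L (ed_mem (S := S) L hy hu)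
  rwa [ed_move L h2] at hx2

include ih hX h0 h00 h4 in
theorem TE_cover : ∀ e ∈ TE S L X, σ e = 1 → e = 1 := by
  have gen : ∀ w ∈ X, ∀ a : K, ∀ u ∈ X, ∀ x : Q0 S L X v₀, Cn S L X v₀ x u →
      Cn S L X v₀ (tl S L w a • x) (S.ρ (S.t w a) u) := by
    intro w hw a u hu x hx
    by_cases h1 : S.f u w = 0
    · rw [(hx.at L h0 hu).fix L (tl_mem S L (X := X ⊓ LinearMap.ker (S.f u)) (Submodule.mem_inf.2 ⟨hw, h1⟩) a), S.t_fix h1]
      exact hx
    · by_cases ha : a = 0
      · rw [ha, tl_zero, one_smul, S.t_zero, S.ρone]; exact hx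
      · have hu' : S.ρ (S.t w a) u = u + (a * S.f u w) • w := S.ht _ _ _
        have h2 : S.f u (S.ρ (S.t w a) u) = a * S.f u w * S.f u w := by
          rw [hu', S.add_r, S.alt, S.smul_r, zero_add]
        have h3 : S.f u (S.ρ (S.t w a) u) ≠ 0 := by
          rw [h2]; exact mul_ne_zero (mul_ne_zero ha h1) h1
        have h4' : tl S L w a = ed S L u (S.ρ (S.t w a) u) := by
          rw [ed, h2, hu', add_sub_cancel_left, tl_smul]
          congr 1
          field_simp
        have h5 : S.ρ (S.t w a) u ∈ X := S.M_pres (S.t_mem hw a) hu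
        rw [h4']
        exact cn_edge L ih hX h0 h00 h4 hu h5 hx h3
  have main : ∀ e ∈ TE S L X, ∀ u ∈ X, ∀ x : Q0 S L X v₀, Cn S L X v₀ x u → Cn S L X v₀ (e • x) (S.ρ (σ e) u) := by
    intro e he
    induction he using Subgroup.closure_induction'' with
    | mem e he =>
      obtain ⟨w, hw, a, rfl⟩ := he
      intro u hu x hx
      rw [map_tl]
      exact gen w hw a u hu x hx
    | inv_mem e he =>
      obtain ⟨w, hw, a, rfl⟩ := he
      intro u hu x hx
      rw [← tl_neg, map_tl]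
      exact gen w hw (-a) u hu x hx
    | one => intro u hu x hx; rwa [one_smul, map_one, S.ρone]
    | mul a b ha hb iha ihb =>
      intro u hu x hx
      rw [mul_smul, map_mul σ, S.ρmul]
      exact iha _ (S.M_pres (TE_M S L hb) hu) _ (ihb u hu x hx)
  have hb : Cn S L X v₀ ((1 : E) : Q0 S L X v₀) v₀ := by
    obtain ⟨y, hy, h1⟩ := hX v₀ h0 h00
    refine ⟨y, hy, h1, S.skew_ne h1, ?_⟩
    rw [ed_inv L v₀ y, inv_smul_smul]
  intro e he hσ
  have h1 := main e he v₀ h0 _ hb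
  rw [hσ, S.ρone] at h1
  have h2 := cn_unique L ih hX h0 h4 h0 h1 hb
  have h3 : e ∈ TE S L (X ⊓ LinearMap.ker (S.f v₀)) := by
    have h5 : ((e * 1 : E) : Q0 S L X v₀) = ((1 : E) : Q0 S L X v₀) := h2
    rw [eq_comm, QuotientGroup.eq, inv_one, one_mul, mul_one] at h5
    exact h5
  refine ih _ ?_ e h3 hσ
  apply Submodule.finrank_lt_finrank_of_lt
  refine lt_of_le_of_ne inf_le_left ?_
  intro h
  obtain ⟨y, hy, h1⟩ := hX v₀ h0 h00
  rw [← h] at hy
  exact h1 hy.2

end cover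

variable [Finite K]

/-- the lifts of transvections generate a group meeting the kernel trivially -/
theorem TE_main : ∀ (n : ℕ) (X : Submodule K V), finrank K X ≤ n → ∀ e ∈ TE S L X, σ e = 1 → e = 1 := by
  intro n
  induction n with
  | zero =>
    intro X hX e he _
    have h0 : X = ⊥ := by
      rw [← Submodule.finrank_eq_zero (R := K)]; omega
    have h1 : TE S L X = ⊥ := by
      rw [eq_bot_iff, TE, Subgroup.closure_le]
      rintro _ ⟨x, hx, a, rfl⟩
      rw [h0, Submodule.mem_bot] at hx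
      rw [hx, tl_zero']
      exact one_mem _
    rwa [h1, Subgroup.mem_bot] at he
  | succ n ih =>
    intro X hXn
    have ih' : ∀ Y : Submodule K V, finrank K Y < finrank K X → ∀ e ∈ TE S L Y, σ e = 1 → e = 1 :=
      fun Y hY => ih Y (by omega)
    by_cases hX : Nd S X
    · by_cases h0 : X = ⊥
      · intro e he _
        have h1 : TE S L X = ⊥ := by
          rw [eq_bot_iff, TE, Subgroup.closure_le]
          rintro _ ⟨x, hx, a, rfl⟩
          rw [h0, Submodule.mem_bot] at hx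
          rw [hx, tl_zero']
          exact one_mem _
        rwa [h1, Subgroup.mem_bot] at he
      · obtain ⟨v, hv, hv0⟩ := Submodule.exists_mem_ne_zero_of_ne_bot h0
        obtain ⟨w, hw, hvw⟩ := hX v hv hv0
        obtain ⟨v', hv'⟩ : ∃ v', v' = (S.f v w)⁻¹ • w := ⟨_, rfl⟩
        have hv'X : v' ∈ X := by rw [hv']; exact X.smul_mem _ hw
        have hvv' : S.f v v' = 1 := by rw [hv', S.smul_r, inv_mul_cancel₀ hvw]
        have hv'v : S.f v' v = -1 := by rw [S.skew, hvv']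
        by_cases hsp : X ≤ Submodule.span K {v, v'}
        · intro e he
          exact TE_two S L hvv' e (TE_mono S L hsp he)
        · obtain ⟨z, hz, hz1⟩ := Set.not_subset.1 hsp
          obtain ⟨z0, hz0⟩ : ∃ z0, z0 = z - S.f z v' • v + S.f z v • v' := ⟨_, rfl⟩
          have hz0X : z0 ∈ X := by
            rw [hz0]; exact X.add_mem (X.sub_mem hz (X.smul_mem _ hv)) (X.smul_mem _ hv'X)
          have hz0v : S.f z0 v = 0 := by
            rw [hz0]; simp only [S.add_l, S.sub_l, S.smul_l, S.alt, hv'v]; ring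
          have hz0v' : S.f z0 v' = 0 := by
            rw [hz0]; simp only [S.add_l, S.sub_l, S.smul_l, S.alt, hvv']; ring
          have hz00 : z0 ≠ 0 := by
            intro h
            apply hz1
            have : z = S.f z v' • v + (-S.f z v) • v' := by
              rw [hz0] at h
              have h2 : z = (z - S.f z v' • v + S.f z v • v') + (S.f z v' • v + (-S.f z v) • v') := by module
              rw [h, zero_add] at h2
              exact h2
            rw [this]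
            exact Submodule.mem_span_pair.2 ⟨_, _, rfl⟩
          obtain ⟨y, hy, hzy⟩ := hX z0 hz0X hz00
          obtain ⟨y0, hy0⟩ : ∃ y0, y0 = y - S.f y v' • v + S.f y v • v' := ⟨_, rfl⟩
          have hy0X : y0 ∈ X := by
            rw [hy0]; exact X.add_mem (X.sub_mem hy (X.smul_mem _ hv)) (X.smul_mem _ hv'X)
          have hy0v : S.f y0 v = 0 := by
            rw [hy0]; simp only [S.add_l, S.sub_l, S.smul_l, S.alt, hv'v]; ring
          have hy0v' : S.f y0 v' = 0 := by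
            rw [hy0]; simp only [S.add_l, S.sub_l, S.smul_l, S.alt, hvv']; ring
          have hzy0 : S.f z0 y0 ≠ 0 := by
            rw [hy0, S.add_r, S.sub_r, S.smul_r, S.smul_r, hz0v, hz0v']
            simpa using hzy
          have hli : LinearIndependent K ![(⟨v, hv⟩ : X), ⟨v', hv'X⟩, ⟨z0, hz0X⟩, ⟨y0, hy0X⟩] := by
            rw [Fintype.linearIndependent_iff]
            intro g hg
            rw [Fin.sum_univ_four] at hg
            have hg' : g 0 • v + g 1 • v' + g 2 • z0 + g 3 • y0 = 0 := congrArg Subtype.val hg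
            have hvz : S.f v z0 = 0 := S.skew_eq hz0v
            have hvz' : S.f v' z0 = 0 := S.skew_eq hz0v'
            have hvy : S.f v y0 = 0 := S.skew_eq hy0v
            have hvy' : S.f v' y0 = 0 := S.skew_eq hy0v'
            have e1 := congrArg (fun z => S.f z v') hg'
            have e2 := congrArg (fun z => S.f z v) hg'
            have e3 := congrArg (fun z => S.f z y0) hg'
            have e4 := congrArg (fun z => S.f z z0) hg'
            have hyz : S.f y0 z0 = -S.f z0 y0 := S.skew _ _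
            simp only [S.add_l, S.smul_l, S.zero_l, S.alt, hvv', hv'v, hz0v, hz0v', hy0v, hy0v', hvz, hvz', hvy, hvy', hyz] at e1 e2 e3 e4
            have g0 : g 0 = 0 := by linear_combination e1
            have g1 : g 1 = 0 := by linear_combination -e2
            have g2 : g 2 = 0 := by
              have : g 2 * S.f z0 y0 = 0 := by linear_combination e3
              exact (mul_eq_zero.1 this).resolve_right hzy0
            have g3 : g 3 = 0 := by
              have : g 3 * S.f z0 y0 = 0 := by linear_combination -e4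
              exact (mul_eq_zero.1 this).resolve_right hzy0
            intro i
            fin_cases i
            · exact g0
            · exact g1
            · exact g2
            · exact g3
          have h4 : 4 ≤ finrank K X := by
            have := hli.fintype_card_le_finrank
            simpa using this
          exact TE_cover L ih' hX hv hv0 h4
    · obtain ⟨r, hr, hr0, hr1⟩ : ∃ r ∈ X, r ≠ 0 ∧ ∀ y ∈ X, S.f r y = 0 := by
        unfold Nd at hX
        push Not at hX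
        exact hX
      exact TE_rad S L hr hr0 hr1 ih'

end

end CfsgLib.SyM
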