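import Cfsg.Agent.LibSpCov4
import Cfsg.Agent.LibSuzM1

set_option autoImplicit false
set_option maxHeartbeats 1000000
set_option linter.unusedSectionVars false

/-! Central extensions with kernel a `p`-group: lifts of commuting transvections commute. -/

namespace CfsgLib.SyM

open Module CfsgLib.SuzM

section gen

variable {E G : Type*} [Group E] [Group G] {σ : E →* G} (hσ : Function.Surjective σ) (hc : σ.ker ≤ Subgroup.center E)

include hc in
theorem cm_eq_one' {g1 g2 h : G} (h1 : g1 * h = h * g1) (h2 : g2 * h = h * g2) :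
    cm hσ (g1 * g2 * g1⁻¹ * g2⁻¹) h = 1 := by
  obtain ⟨x1, hx1⟩ := hσ g1
  obtain ⟨x2, hx2⟩ := hσ g2
  obtain ⟨y, hy⟩ := hσ h
  have e1 : σ (y * x1 * y⁻¹) = σ x1 := by rw [map_mul, map_mul, map_inv, hx1, hy, ← h1, mul_inv_cancel_right]
  have e2 : σ (y * x2 * y⁻¹) = σ x2 := by rw [map_mul, map_mul, map_inv, hx2, hy, ← h2, mul_inv_cancel_right]
  have e3 := comm_lift hc e1 e2
  have e4 : σ (x1 * x2 * x1⁻¹ * x2⁻¹) = g1 * g2 * g1⁻¹ * g2⁻¹ := by
    simp only [map_mul, map_inv, hx1, hx2]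
  rw [← cm_eq hσ hc e4 hy]
  have e5 : y * (x1 * x2 * x1⁻¹ * x2⁻¹) * y⁻¹ = x1 * x2 * x1⁻¹ * x2⁻¹ := by
    refine Eq.trans ?_ e3
    group
  have e6 : y * (x1 * x2 * x1⁻¹ * x2⁻¹) = (x1 * x2 * x1⁻¹ * x2⁻¹) * y := by
    exact mul_inv_eq_iff_eq_mul.1 e5
  calc (x1 * x2 * x1⁻¹ * x2⁻¹) * y * (x1 * x2 * x1⁻¹ * x2⁻¹)⁻¹ * y⁻¹ =
      (y * (x1 * x2 * x1⁻¹ * x2⁻¹)) * (x1 * x2 * x1⁻¹ * x2⁻¹)⁻¹ * y⁻¹ := by rw [e6]
    _ = 1 := by group

include hc in
theorem cm_symm' (g h : G) : cm hσ h g = (cm hσ g h)⁻¹ := by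
  obtain ⟨x, hx⟩ := hσ g
  obtain ⟨y, hy⟩ := hσ h
  rw [← cm_eq hσ hc hx hy, ← cm_eq hσ hc hy hx]
  group

/-- elements all of whose lifts commute with the lifts of `x` -/
def CC (hσ : Function.Surjective σ) (hc : σ.ker ≤ Subgroup.center E) (x : G) : Subgroup G where
  carrier := {y | ∀ a b : E, σ a = x → σ b = y → a * b = b * a}
  one_mem' := by
    intro a b _ hb
    exact Subgroup.mem_center_iff.1 (hc (MonoidHom.mem_ker.2 hb)) a
  mul_mem' := by
    intro y y' hy hy' a b ha hb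
    obtain ⟨b1, hb1⟩ := hσ y
    have h1 := hy a b1 ha hb1
    have h2 := hy' a (b1⁻¹ * b) ha (by rw [map_mul, map_inv, hb, hb1, inv_mul_cancel_left])
    calc a * b = (a * b1) * (b1⁻¹ * b) := by group
      _ = b1 * (a * (b1⁻¹ * b)) := by rw [h1, mul_assoc]
      _ = b1 * ((b1⁻¹ * b) * a) := by rw [h2]
      _ = b * a := by group
  inv_mem' := by
    intro y hy a b ha hb
    have h1 := hy a b⁻¹ ha (by rw [map_inv, hb, inv_inv])
    calc a * b = b * (b⁻¹ * a) * b := by group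
      _ = b * (a * b⁻¹) * b := by rw [h1]
      _ = b * a := by group

theorem mem_CC {x y : G} : y ∈ CC hσ hc x ↔ ∀ a b : E, σ a = x → σ b = y → a * b = b * a := Iff.rfl

theorem CC_iff {x y : G} : y ∈ CC hσ hc x ↔ cm hσ x y = 1 := by
  obtain ⟨a, ha⟩ := hσ x
  obtain ⟨b, hb⟩ := hσ y
  constructor
  · intro h
    rw [← cm_eq hσ hc ha hb, h a b ha hb]; group
  · intro h a b ha hb
    exact comm_of_cm hσ hc h ha hb

theorem CC_symm {x y : G} (h : y ∈ CC hσ hc x) : x ∈ CC hσ hc y := by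
  intro a b ha hb
  exact (h b a hb ha).symm

theorem CC_self (x : G) : x ∈ CC hσ hc x := by
  rw [CC_iff]
  obtain ⟨a, ha⟩ := hσ x
  rw [← cm_eq hσ hc ha ha]; group

theorem CC_commutator {g1 g2 h : G} (h1 : g1 * h = h * g1) (h2 : g2 * h = h * g2) :
    g1 * g2 * g1⁻¹ * g2⁻¹ ∈ CC hσ hc h := by
  apply CC_symm
  rw [CC_iff]
  exact cm_eq_one' hσ hc h1 h2

theorem CC_conj {x y : G} (k : G) (h : y ∈ CC hσ hc x) : k * y * k⁻¹ ∈ CC hσ hc (k * x * k⁻¹) := by
  obtain ⟨w, hw⟩ := hσ k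
  rw [CC_iff] at h ⊢
  rw [← cm_conj hσ hc hw, h]; group

/-- elements of coprime order -/
theorem CC_coprime {p : ℕ} [hp : Fact p.Prime] (hA : ∀ a ∈ σ.ker, ∃ k, a ^ (p ^ k) = 1) {x y : G} (hxy : x * y = y * x) {n : ℕ}
    (hx : x ^ n = 1) (hn : n.Coprime p) : y ∈ CC hσ hc x := by
  rw [CC_iff]
  obtain ⟨a, ha⟩ := hσ x
  obtain ⟨b, hb⟩ := hσ y
  obtain ⟨z, hz⟩ : ∃ z, z = a * b * a⁻¹ * b⁻¹ := ⟨_, rfl⟩
  rw [← cm_eq hσ hc ha hb, ← hz]
  have hzk : z ∈ σ.ker := by
    rw [hz, MonoidHom.mem_ker]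
    simp only [map_mul, map_inv, ha, hb, hxy]; group
  have hzc : ∀ w, w * z = z * w := Subgroup.mem_center_iff.1 (hc hzk)
  -- `b⁻¹`-conjugation
  have h1 : a * b = b * (z * a) := by
    have : z * (b * a) = a * b := by rw [hz]; group
    rw [← this, ← mul_assoc, ← mul_assoc, hzc b]
  have h2 : ∀ m : ℕ, a ^ m * b = b * (z ^ m * a ^ m) := by
    intro m
    induction m with
    | zero => simp
    | succ m ihm =>
      have hzp : a ^ m * z = z * a ^ m := hzc _
      calc a ^ (m + 1) * b = a ^ m * (a * b) := by rw [pow_succ, mul_assoc]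
        _ = (a ^ m * b) * (z * a) := by rw [h1]; group
        _ = b * z ^ m * (a ^ m * z) * a := by rw [ihm]; group
        _ = b * (z ^ (m + 1) * a ^ (m + 1)) := by rw [hzp, pow_succ, pow_succ]; group
  have h3 : a ^ n ∈ σ.ker := by rw [MonoidHom.mem_ker, map_pow, ha, hx]
  have h4 : a ^ n * b = b * a ^ n := (Subgroup.mem_center_iff.1 (hc h3) b).symm
  have h5 : z ^ n = 1 := by
    have h6 := h2 n
    rw [h4] at h6
    have h7 := mul_left_cancel h6
    exact right_eq_mul.1 h7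
  obtain ⟨k, hk⟩ := hA z hzk
  have h6 : orderOf z ∣ n := orderOf_dvd_of_pow_eq_one h5
  have h7 : orderOf z ∣ p ^ k := orderOf_dvd_of_pow_eq_one hk
  have h8 : Nat.Coprime n (p ^ k) := Nat.Coprime.pow_right k hn
  exact orderOf_eq_one_iff.1 (Nat.eq_one_of_dvd_coprimes h8 h6 h7)

end gen

section

variable {K V G : Type*} [Field K] [AddCommGroup V] [Module K V] [Group G] (S : Sy K V G)

theorem comm_of_fix {k : G} {v : V} (h : S.ρ k v = v) (a : K) : k * S.t v a = S.t v a * k := by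
  have h1 := S.t_conj k v a
  rw [h] at h1
  exact mul_inv_eq_iff_eq_mul.1 h1

/-- the Weyl elements -/
def wv (u u' : V) (c : K) : G := S.t u (-c) * S.t u' (-c⁻¹) * S.t u (-c)

/-- torus elements -/
def hh (u u' : V) (c : K) : G := wv S u u' c * wv S u u' (-1)

variable {S}

theorem wv_l {u u' : V} (h : S.f u u' = 1) {c : K} (hc : c ≠ 0) : S.ρ (wv S u u' c) u = (-c⁻¹) • u' := by
  have h' : S.f u' u = -1 := by rw [S.skew, h]
  simp only [wv, S.ρmul, S.ht, S.add_l, S.smul_l, S.alt, h, h']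
  match_scalars <;> field_simp <;> ring

theorem wv_r {u u' : V} (h : S.f u u' = 1) {c : K} (hc : c ≠ 0) : S.ρ (wv S u u' c) u' = c • u := by
  have h' : S.f u' u = -1 := by rw [S.skew, h]
  simp only [wv, S.ρmul, S.ht, S.add_l, S.smul_l, S.alt, h, h']
  match_scalars <;> field_simp <;> ring

theorem wv_fix {u u' w : V} (c : K) (h1 : S.f w u = 0) (h2 : S.f w u' = 0) : S.ρ (wv S u u' c) w = w := by
  rw [wv, S.ρmul, S.ρmul, S.t_fix h1, S.t_fix h2, S.t_fix h1]

theorem hh_l {u u' : V} (h : S.f u u' = 1) {c : K} (hc : c ≠ 0) : S.ρ (hh S u u' c) u = c • u := by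
  rw [hh, S.ρmul, wv_l h (neg_ne_zero.2 one_ne_zero), map_smul, wv_r h hc, smul_smul]
  congr 1; rw [inv_neg, inv_one, neg_neg, one_mul]

theorem hh_r {u u' : V} (h : S.f u u' = 1) {c : K} (hc : c ≠ 0) : S.ρ (hh S u u' c) u' = c⁻¹ • u' := by
  rw [hh, S.ρmul, wv_r h (neg_ne_zero.2 one_ne_zero), map_smul, wv_l h hc, smul_smul]
  congr 1; ring

theorem hh_fix {u u' w : V} (c : K) (h1 : S.f w u = 0) (h2 : S.f w u' = 0) : S.ρ (hh S u u' c) w = w := by
  rw [hh, S.ρmul, wv_fix _ h1 h2, wv_fix _ h1 h2]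

variable [FiniteDimensional K V]

/-- independence of a pair -/
theorem exists_partner {v u : V} (h : u ∉ Submodule.span K {v}) : ∃ x, S.f v x = 0 ∧ S.f u x = 1 := by
  obtain ⟨z, h1, h2⟩ := S.exists_perp h
  refine ⟨-z, ?_, ?_⟩
  · rw [S.neg_r, S.skew, h1 v (Submodule.mem_span_singleton_self v), neg_zero, neg_zero]
  · rw [S.neg_r, S.skew, h2, neg_neg]

theorem exists_perp_indep {D : Submodule K V} (h : 2 * finrank K D < finrank K V) : ∃ u, (∀ x ∈ D, S.f x u = 0) ∧ u ∉ D := by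
  by_contra hcon
  push Not at hcon
  -- the map `V → Dual D`
  let T : V →ₗ[K] (D →ₗ[K] K) := (LinearMap.lcomp K K D.subtype).comp S.f
  have hT : ∀ (z : V) (x : D), T z x = S.f z x := fun z x => rfl
  have hker : LinearMap.ker T ≤ D := by
    intro z hz
    apply hcon z
    intro x hx
    apply S.skew_eq
    have := hT z ⟨x, hx⟩
    rw [LinearMap.mem_ker.1 hz] at this
    exact this.symm
  have h1 := LinearMap.finrank_range_add_finrank_ker T
  have h2 : finrank K (LinearMap.range T) ≤ finrank K (D →ₗ[K] K) := Submodule.finrank_le _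
  have h3 : finrank K (D →ₗ[K] K) = finrank K D := Subspace.dual_finrank_eq (K := K) (V := D)
  have h4 : finrank K (LinearMap.ker T) ≤ finrank K D := Submodule.finrank_mono hker
  omega

variable {E : Type*} [Group E] {σ : E →* G} (hσ : Function.Surjective σ) (hc : σ.ker ≤ Subgroup.center E)

/-- long root subgroups lift to abelian groups -/
theorem cc_same (hV : 4 ≤ finrank K V) (v : V) (a b : K) : S.t v b ∈ CC hσ hc (S.t v a) := by
  by_cases hv0 : v = 0
  · rw [hv0, S.t_zero' b]; exact one_mem _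
  by_cases hK : ∃ c : K, c ≠ 0 ∧ c ≠ 1
  · obtain ⟨c, hc0, hc1⟩ := hK
    have hc1' : c - 1 ≠ 0 := sub_ne_zero.2 hc1
    obtain ⟨u, hu1, hu2⟩ := exists_perp_indep (S := S) (D := Submodule.span K {v}) (by
      rw [finrank_span_singleton hv0]; omega)
    have hvu : S.f v u = 0 := hu1 v (Submodule.mem_span_singleton_self v)
    have huv : S.f u v = 0 := S.skew_eq hvu
    obtain ⟨x, hvx, hux⟩ := exists_partner (S := S) hu2
    have hxv : S.f x v = 0 := S.skew_eq hvx
    have hxu : S.f x u = -1 := by rw [S.skew, hux]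
    -- the commutators
    have hP : ∀ b c : K, S.t (u + c • v) b * S.t u (-b) ∈ CC hσ hc (S.t v a) := by
      intro b c
      have hg : S.ρ (S.t (x + v) c * S.t x (-c)) u = u + c • v := by
        simp only [S.ρmul, S.ht, S.add_l, S.add_r, S.smul_l, S.alt, hux, huv, hxv]
        module
      have hgv : S.ρ (S.t (x + v) c * S.t x (-c)) v = v := by
        simp only [S.ρmul, S.ht, S.add_l, S.add_r, S.smul_l, S.alt, hvx, hxv]
        module
      have h1 := CC_commutator hσ hc (comm_of_fix S hgv a) (comm_of_fix S (S.t_fix hvu b) a)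
      rwa [S.t_conj, hg, ← S.t_neg] at h1
    obtain ⟨b', hb'⟩ : ∃ b', b' = b / (c * (c - 1)) := ⟨_, rfl⟩
    have h2 : S.t v b = (S.t (u + (1 : K) • v) (-(b' * c)) * S.t u (b' * c)) * (S.t (u + c • v) b' * S.t u (-b')) := by
      apply S.ext_g
      intro w
      simp only [S.ρmul, S.ht, S.add_l, S.add_r, S.smul_l, S.smul_r, S.alt, huv, hvu]
      have hb : b = b' * (c * (c - 1)) := by
        rw [hb']; field_simp
      rw [hb]
      module
    rw [h2]
    have h3 := hP (-(b' * c)) 1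
    rw [neg_neg] at h3
    exact mul_mem h3 (hP b' c)
  · push Not at hK
    by_cases ha : a = 0
    · rw [ha, S.t_zero]; refine CC_symm hσ hc ?_; exact one_mem _
    by_cases hb : b = 0
    · rw [hb, S.t_zero]; exact one_mem _
    rw [hK a ha, hK b hb]
    exact CC_self hσ hc _

/-- orthogonal root subgroups, large field -/
theorem cc_large {l : K} (hl : l ≠ 0) (hl2 : l ^ 2 ≠ 1) {v u : V} (hvu : S.f v u = 0) (hu : u ∉ Submodule.span K {v}) (a b : K) :
    S.t u b ∈ CC hσ hc (S.t v a) := by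
  obtain ⟨x, hvx, hux⟩ := exists_partner (S := S) hu
  have h1 := CC_commutator hσ hc (comm_of_fix S (hh_fix (u := u) (u' := x) (w := v) l hvu hvx) a)
    (comm_of_fix S (S.t_fix hvu (b / (l ^ 2 - 1))) a)
  rw [S.t_conj, hh_l hux hl, S.t_smul, ← S.t_neg, ← S.t_add] at h1
  have h2 : l ^ 2 - 1 ≠ 0 := sub_ne_zero.2 hl2
  have h3 : l ^ 2 * (b / (l ^ 2 - 1)) + -(b / (l ^ 2 - 1)) = b := by field_simp; ring
  rwa [h3] at h1

/-- orthogonal root subgroups, three elements -/
theorem cc_three {p : ℕ} [hp : Fact p.Prime] [CharP K p] (h2 : (2 : K) ≠ 0) (hA : ∀ a ∈ σ.ker, ∃ k, a ^ (p ^ k) = 1)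
    (h3 : ∀ c : K, c = 0 ∨ c = 1 ∨ c = -1) {v u : V} (hvu : S.f v u = 0)
    (hu : u ∉ Submodule.span K {v}) (hv : v ∉ Submodule.span K {u}) (a b : K) :
    S.t u b ∈ CC hσ hc (S.t v a) := by
  have huv := S.skew_eq hvu
  obtain ⟨u', hvu', huu'⟩ := exists_partner (S := S) hu
  obtain ⟨v', huv', hvv'⟩ := exists_partner (S := S) hv
  -- the rotation
  have he : ∀ w, S.ρ (S.t (v + u') 1 * S.t v (-1) * S.t u' (-1)) w = w + (S.f w v • u' + S.f w u' • v) := by
    intro w
    have hu'v : S.f u' v = 0 := S.skew_eq hvu'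
    simp only [S.ρmul, S.ht, S.add_l, S.add_r, S.smul_l, S.smul_r, S.alt, hvu', hu'v]
    module
  have hf : ∀ w, S.ρ (S.t (u + v') (-1) * S.t u 1 * S.t v' 1) w = w - (S.f w u • v' + S.f w v' • u) := by
    intro w
    have hv'u : S.f v' u = 0 := S.skew_eq huv'
    simp only [S.ρmul, S.ht, S.add_l, S.add_r, S.smul_l, S.smul_r, S.alt, huv', hv'u]
    module
  obtain ⟨g, hg⟩ : ∃ g, g = (S.t (v + u') 1 * S.t v (-1) * S.t u' (-1)) * (S.t (u + v') (-1) * S.t u 1 * S.t v' 1) *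
      (S.t (v + u') 1 * S.t v (-1) * S.t u' (-1)) := ⟨_, rfl⟩
  have hgv : S.ρ g v = -u := by
    rw [hg, S.ρmul, S.ρmul, he v, hf, he]
    simp only [S.alt, hvu', hvu, hvv', S.add_l, S.sub_l, S.smul_l, S.zero_l, huv, huu', zero_smul, add_zero, one_smul]
    module
  have hgu : S.ρ g u = v := by
    rw [hg, S.ρmul, S.ρmul, he u, hf, he]
    simp only [S.alt, hvu', hvu, hvv', S.add_l, S.sub_l, S.smul_l, S.zero_l, huv, huu', huv', zero_smul, add_zero, zero_add, one_smul, sub_zero]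
    module
  obtain ⟨w, hw⟩ := hσ g
  -- the basic commutator
  have key : cm hσ (S.t v 1) (S.t u 1) = 1 := by
    have e1 := cm_conj hσ hc (g := S.t v 1) (h := S.t u 1) hw
    rw [S.t_conj, S.t_conj, hgv, hgu, S.t_negv, cm_central hσ hc (S.t_comm hvu 1 1), mul_inv_cancel_right,
      cm_symm' hσ hc (S.t v 1) (S.t u 1)] at e1
    obtain ⟨z, hz⟩ : ∃ z, z = cm hσ (S.t v 1) (S.t u 1) := ⟨_, rfl⟩
    rw [← hz] at e1 ⊢
    have hz2 : z ^ 2 = 1 := by rw [pow_two]; nth_rewrite 1 [e1]; exact inv_mul_cancel z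
    have hzk : z ∈ σ.ker := by
      rw [hz, MonoidHom.mem_ker, map_cm, S.t_comm hvu 1 1]; group
    obtain ⟨k, hk⟩ := hA z hzk
    have hp2 : p ≠ 2 := by
      rintro rfl
      apply h2
      exact_mod_cast CharP.cast_eq_zero K 2
    have h8 : Nat.Coprime 2 (p ^ k) := Nat.Coprime.pow_right k ((Nat.coprime_primes Nat.prime_two hp.out).2 (Ne.symm hp2))
    exact orderOf_eq_one_iff.1 (Nat.eq_one_of_dvd_coprimes h8 (orderOf_dvd_of_pow_eq_one hz2) (orderOf_dvd_of_pow_eq_one hk))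
  have k1 : S.t u 1 ∈ CC hσ hc (S.t v 1) := (CC_iff hσ hc).2 key
  have k2 : ∀ b : K, S.t u b ∈ CC hσ hc (S.t v 1) := by
    intro b
    rcases h3 b with rfl | rfl | rfl
    · rw [S.t_zero]; exact one_mem _
    · exact k1
    · rw [S.t_neg]; exact inv_mem k1
  have k3 := CC_symm hσ hc (k2 b)
  apply CC_symm
  rcases h3 a with rfl | rfl | rfl
  · rw [S.t_zero]; exact one_mem _
  · exact k3
  · rw [S.t_neg]; exact inv_mem k3


/-- orthogonal root subgroups, two elements -/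
theorem cc_two (h2 : (2 : K) = 0) (hK : ∀ c : K, c = 0 ∨ c = 1) (hV : 8 ≤ finrank K V) {v u : V} (hvu : S.f v u = 0)
    (hv0 : v ≠ 0) (hu : u ∉ Submodule.span K {v}) (a b : K) : S.t u b ∈ CC hσ hc (S.t v a) := by
  have neg1 : ∀ x : K, -x = x := fun x => by linear_combination (-x) * h2
  have sym : ∀ x y : V, S.f x y = S.f y x := fun x y => by rw [S.skew, neg1]
  -- reduction
  suffices h : cm hσ (S.t v 1) (S.t u 1) = 1 by
    have k1 : S.t u 1 ∈ CC hσ hc (S.t v 1) := (CC_iff hσ hc).2 h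
    rcases hK a with rfl | rfl
    · rw [S.t_zero]; refine CC_symm hσ hc ?_; exact one_mem _
    · rcases hK b with rfl | rfl
      · rw [S.t_zero]; exact one_mem _
      · exact k1
  have const : ∀ x y : V, S.f v x = 0 → S.f v y = 0 → S.f x y = 1 → cm hσ (S.t v 1) (S.t x 1) = cm hσ (S.t v 1) (S.t y 1) := by
    intro x y hx hy hxy
    obtain ⟨w, hw⟩ := hσ (S.t (x + y) 1)
    have hkx : S.ρ (S.t (x + y) 1) x = y := by
      rw [S.ht, S.add_r, S.alt, hxy]
      have : x + ((1 : K) * (0 + 1)) • (x + y) = (2 : K) • x + y := by module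
      rw [this, h2, zero_smul, zero_add]
    have hkv : S.ρ (S.t (x + y) 1) v = v := S.t_fix (by rw [S.add_r, hx, hy, add_zero]) 1
    have e1 := cm_conj hσ hc (g := S.t v 1) (h := S.t x 1) hw
    rw [S.t_conj, S.t_conj, hkx, hkv, cm_central hσ hc (S.t_comm hx 1 1), mul_inv_cancel_right] at e1
    exact e1
  have const2 : ∀ x y : V, S.f v x = 0 → S.f v y = 0 → x ∉ Submodule.span K {v} → y ∉ Submodule.span K {v, x} →
      cm hσ (S.t v 1) (S.t x 1) = cm hσ (S.t v 1) (S.t y 1) := by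
    intro x y hx hy hx1 hy1
    have h3 : x ∉ Submodule.span K {v, x - y} := by
      intro hmem
      obtain ⟨α, β, hαβ⟩ := Submodule.mem_span_pair.1 hmem
      rcases hK β with rfl | rfl
      · rw [zero_smul, add_zero] at hαβ
        exact hx1 (Submodule.mem_span_singleton.2 ⟨α, hαβ⟩)
      · apply hy1
        refine Submodule.mem_span_pair.2 ⟨α, 0, ?_⟩
        rw [one_smul] at hαβ
        have h4 : y = α • v + (x - y) - x + y := by rw [hαβ]; abel
        rw [zero_smul, add_zero]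
        rw [show α • v + (x - y) - x + y = α • v by abel] at h4
        exact h4.symm
    obtain ⟨z, hz1, hz2⟩ := S.exists_perp h3
    have hzv : S.f z v = 0 := hz1 v (Submodule.subset_span (by simp))
    have hzxy : S.f z (x - y) = 0 := hz1 _ (Submodule.subset_span (by simp))
    have hzy : S.f z y = 1 := by rw [S.sub_r, sub_eq_zero] at hzxy; rw [← hzxy, hz2]
    rw [const x z hx (by rw [sym, hzv]) (by rw [sym, hz2]), const y z hy (by rw [sym, hzv]) (by rw [sym, hzy])]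
  -- three more vectors
  obtain ⟨u2, h21, h22⟩ := exists_perp_indep (S := S) (D := Submodule.span K {v, u}) (by
    have : finrank K (Submodule.span K {v, u}) ≤ 2 := by
      classical
      have h6 := finrank_span_finset_le_card (R := K) ({v, u} : Finset V)
      have h7 : (({v, u} : Finset V) : Set V) = {v, u} := by simp
      rw [h7] at h6
      exact h6.trans Finset.card_le_two
    omega)
  obtain ⟨u3, h31, h32⟩ := exists_perp_indep (S := S) (D := Submodule.span K {v, u, u2}) (by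
    have : finrank K (Submodule.span K {v, u, u2}) ≤ 3 := by
      classical
      have h6 := finrank_span_finset_le_card (R := K) ({v, u, u2} : Finset V)
      have h7 : (({v, u, u2} : Finset V) : Set V) = {v, u, u2} := by simp
      rw [h7] at h6
      exact h6.trans Finset.card_le_three
    omega)
  have fv2 : S.f v u2 = 0 := h21 v (Submodule.subset_span (by simp))
  have fu2 : S.f u u2 = 0 := h21 u (Submodule.subset_span (by simp))
  have fv3 : S.f v u3 = 0 := h31 v (Submodule.subset_span (by simp))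
  have fu3 : S.f u u3 = 0 := h31 u (Submodule.subset_span (by simp))
  have f23 : S.f u2 u3 = 0 := h31 u2 (Submodule.subset_span (by simp))
  have g2u : S.f u2 u = 0 := S.skew_eq fu2
  have g3u : S.f u3 u = 0 := S.skew_eq fu3
  have g32 : S.f u3 u2 = 0 := S.skew_eq f23
  have hle : Submodule.span K {v, u} ≤ Submodule.span K {v, u, u2} := by
    apply Submodule.span_mono
    intro x hx
    rcases hx with rfl | rfl <;> simp
  have hum : u ∈ Submodule.span K {v, u} := Submodule.subset_span (by simp)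
  have hu2m : u2 ∈ Submodule.span K {v, u, u2} := Submodule.subset_span (by simp)
  have n3 : u3 ∉ Submodule.span K {v, u} := fun h => h32 (hle h)
  have n12 : u + u2 ∉ Submodule.span K {v, u} := fun h => h22 (by
    have := Submodule.sub_mem _ h hum; rwa [add_sub_cancel_left] at this)
  have n13 : u + u3 ∉ Submodule.span K {v, u} := fun h => n3 (by
    have := Submodule.sub_mem _ h hum; rwa [add_sub_cancel_left] at this)
  have n23 : u2 + u3 ∉ Submodule.span K {v, u} := fun h => h32 (by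
    have := Submodule.sub_mem _ (hle h) hu2m; rwa [add_sub_cancel_left] at this)
  have n123 : u + (u2 + u3) ∉ Submodule.span K {v, u} := fun h => n23 (by
    have := Submodule.sub_mem _ h hum; rwa [add_sub_cancel_left] at this)
  obtain ⟨C, hC⟩ : ∃ C, C = cm hσ (S.t v 1) (S.t u 1) := ⟨_, rfl⟩
  have c2 := const2 u u2 hvu fv2 hu h22
  have c3 := const2 u u3 hvu fv3 hu n3
  have c12 := const2 u (u + u2) hvu (by rw [S.add_r, hvu, fv2, add_zero]) hu n12
  have c13 := const2 u (u + u3) hvu (by rw [S.add_r, hvu, fv3, add_zero]) hu n13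
  have c23 := const2 u (u2 + u3) hvu (by rw [S.add_r, fv2, fv3, add_zero]) hu n23
  have c123 := const2 u (u + (u2 + u3)) hvu (by rw [S.add_r, S.add_r, hvu, fv2, fv3, add_zero, add_zero]) hu n123
  rw [← hC] at c2 c3 c12 c13 c23 c123
  -- multiplicativity
  have mulr : ∀ g g' : G, S.ρ g' v = v → cm hσ (S.t v 1) (g * g') = cm hσ (S.t v 1) g * cm hσ (S.t v 1) g' := by
    intro g g' hg'
    apply cm_mul_right hσ hc
    intro w _
    exact cm_central hσ hc (comm_of_fix S hg' 1).symm w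
  have one' : cm hσ (S.t v 1) 1 = 1 := by
    rw [cm_symm' hσ hc 1 (S.t v 1), cm_one_left hσ hc, inv_one]
  have fixt : ∀ x, S.f v x = 0 → S.ρ (S.t x 1) v = v := fun x hx => S.t_fix hx 1
  have sq : C * C = 1 := by
    rw [hC, ← mulr _ _ (fixt u hvu), ← S.t_add]
    have : (1 : K) + 1 = 0 := by linear_combination h2
    rw [this, S.t_zero, one']
  have prod : S.t u 1 * (S.t u2 1 * (S.t u3 1 * (S.t (u + u2) 1 * (S.t (u + u3) 1 * (S.t (u2 + u3) 1 * S.t (u + (u2 + u3)) 1))))) = 1 := by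
    apply S.eq_one
    intro w
    simp only [S.ρmul, S.ht, S.add_l, S.add_r, S.smul_l, S.alt, fu2, fu3, f23, g2u, g3u, g32]
    have e : ∀ a b c : K, w + (2 : K) • (a • ((2 : K) • u + u2 + u3) + b • (u + (2 : K) • u2 + u3) + c • (u + u2 + (2 : K) • u3)) = w := by
      intro a b c; rw [h2]; simp
    refine Eq.trans ?_ (e (S.f w u) (S.f w u2) (S.f w u3))
    module
  have p7 : C * (C * (C * (C * (C * (C * C))))) = 1 := by
    have h1 := congrArg (cm hσ (S.t v 1)) prod
    have f7 : S.ρ (S.t (u + (u2 + u3)) 1) v = v := fixt _ (by rw [S.add_r, S.add_r, hvu, fv2, fv3, add_zero, add_zero])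
    have f6 : S.ρ (S.t (u2 + u3) 1) v = v := fixt _ (by rw [S.add_r, fv2, fv3, add_zero])
    have f5 : S.ρ (S.t (u + u3) 1) v = v := fixt _ (by rw [S.add_r, hvu, fv3, add_zero])
    have f4 : S.ρ (S.t (u + u2) 1) v = v := fixt _ (by rw [S.add_r, hvu, fv2, add_zero])
    have f3 : S.ρ (S.t u3 1) v = v := fixt _ fv3
    have f2 : S.ρ (S.t u2 1) v = v := fixt _ fv2
    rw [mulr, mulr, mulr, mulr, mulr, mulr, one', ← c2, ← c3, ← c12, ← c13, ← c23, ← c123, ← hC] at h1
    · exact h1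
    all_goals simp only [S.ρmul, f7, f6, f5, f4, f3, f2]
  rw [← hC]
  have e1 : C * (C * (C * (C * (C * (C * C))))) = (C * C) * (C * C) * (C * C) * C := by group
  rw [e1, sq, one_mul, one_mul, one_mul] at p7
  exact p7

variable (S) in
/-- the lifts of a transvection are centralised by the lifts of the elements fixing its centre -/
def Vc : Prop := ∀ (v : V) (a : K) (k : G), S.ρ k v = v → k ∈ CC hσ hc (S.t v a)

theorem vc_aux (hV : 4 ≤ finrank K V)
    (H : ∀ v u : V, v ≠ 0 → S.f v u = 0 → u ∉ Submodule.span K {v} → ∀ a b : K, S.t u b ∈ CC hσ hc (S.t v a)) :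
    Vc S hσ hc := by
  intro v a k hk
  by_cases hv0 : v = 0
  · rw [hv0, S.t_zero']; refine CC_symm hσ hc ?_; exact one_mem _
  have h1 : k ∈ S.M (⊤ ⊓ LinearMap.ker (S.f v)) := S.M_fix (fun w => Submodule.mem_top) hk
  rw [S.M_eq_T] at h1
  have h2 : S.T (⊤ ⊓ LinearMap.ker (S.f v)) ≤ CC hσ hc (S.t v a) := by
    rw [Sy.T, Subgroup.closure_le]
    rintro _ ⟨x, hx, b, rfl⟩
    by_cases hxv : x ∈ Submodule.span K {v}
    · obtain ⟨c, rfl⟩ := Submodule.mem_span_singleton.1 hxv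
      rw [S.t_smul]
      exact cc_same hσ hc hV v a _
    · exact H v x hv0 hx.2 hxv a b
  exact h2 h1

theorem vc_of (p : ℕ) [hp : Fact p.Prime] [CharP K p] (hA : ∀ a ∈ σ.ker, ∃ k, a ^ (p ^ k) = 1) (hV : 4 ≤ finrank K V)
    (hcase : (∃ l : K, l ≠ 0 ∧ l ^ 2 ≠ 1) ∨ ((2 : K) ≠ 0 ∧ ∀ c : K, c = 0 ∨ c = 1 ∨ c = -1) ∨
      ((2 : K) = 0 ∧ (∀ c : K, c = 0 ∨ c = 1) ∧ 8 ≤ finrank K V)) : Vc S hσ hc := by
  apply vc_aux hσ hc hV
  intro v u hv0 hvu hu a b
  rcases hcase with ⟨l, hl, hl2⟩ | ⟨h2, h3⟩ | ⟨h2, hK, h8⟩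
  · exact cc_large hσ hc hl hl2 hvu hu a b
  · refine cc_three hσ hc (p := p) h2 hA h3 hvu hu ?_ a b
    intro h
    apply hu
    obtain ⟨c, hc'⟩ := Submodule.mem_span_singleton.1 h
    have hc0 : c ≠ 0 := by
      rintro rfl
      rw [zero_smul] at hc'
      exact hv0 hc'.symm
    exact Submodule.mem_span_singleton.2 ⟨c⁻¹, by rw [← hc', smul_smul, inv_mul_cancel₀ hc0, one_smul]⟩
  · exact cc_two hσ hc h2 hK h8 hvu hv0 hu a b

end

end CfsgLib.SyM
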