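import Cfsg.Agent.LibSpCov5

set_option autoImplicit false
set_option maxHeartbeats 1000000
set_option linter.unusedSectionVars false

/-! Central extensions with kernel a `p`-group: induction by transfer to vector stabilisers. -/

namespace CfsgLib.SyM

open Module CfsgLib.SuzM

theorem comm_RB {E : Type*} [Group E] (R B N : Subgroup E) (hN : ∀ n ∈ N, ∃ r ∈ R, ∃ b ∈ B, n = r * b)
    (hR : ∀ b ∈ B, ∀ r ∈ R, b * r * b⁻¹ ∈ R) : ∀ z ∈ ⁅N, N⁆, ∃ r ∈ R, ∃ b ∈ ⁅B, B⁆, z = r * b := by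
  have hBB : ⁅B, B⁆ ≤ B := by
    rw [Subgroup.commutator_le]
    intro a ha b hb
    rw [commutatorElement_def]
    exact mul_mem (mul_mem (mul_mem ha hb) (inv_mem ha)) (inv_mem hb)
  have hR' : ∀ b ∈ B, ∀ r ∈ R, b⁻¹ * r * b ∈ R := by
    intro b hb r hr
    have := hR b⁻¹ (inv_mem hb) r hr
    rwa [inv_inv] at this
  let M' : Subgroup E :=
    { carrier := {z | ∃ r ∈ R, ∃ b ∈ ⁅B, B⁆, z = r * b}
      one_mem' := ⟨1, one_mem _, 1, one_mem _, by rw [one_mul]⟩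
      mul_mem' := by
        rintro _ _ ⟨r, hr, b, hb, rfl⟩ ⟨r', hr', b', hb', rfl⟩
        exact ⟨r * (b * r' * b⁻¹), mul_mem hr (hR b (hBB hb) r' hr'), b * b', mul_mem hb hb', by group⟩
      inv_mem' := by
        rintro _ ⟨r, hr, b, hb, rfl⟩
        exact ⟨b⁻¹ * r⁻¹ * b, hR' b (hBB hb) _ (inv_mem hr), b⁻¹, inv_mem hb, by group⟩ }
  have hle : ⁅N, N⁆ ≤ M' := by
    rw [Subgroup.commutator_le]
    intro n1 hn1 n2 hn2
    obtain ⟨r1, hr1, b1, hb1, rfl⟩ := hN n1 hn1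
    obtain ⟨r2, hr2, b2, hb2, rfl⟩ := hN n2 hn2
    obtain ⟨c, hc⟩ : ∃ c, c = b1 * b2 * b1⁻¹ * b2⁻¹ := ⟨_, rfl⟩
    have hcB : c ∈ ⁅B, B⁆ := by
      have h1 := Subgroup.commutator_mem_commutator hb1 hb2
      rwa [commutatorElement_def, ← hc] at h1
    refine ⟨r1 * (b1 * r2 * b1⁻¹) * ((b1 * b2 * b1⁻¹) * r1⁻¹ * (b1 * b2 * b1⁻¹)⁻¹) * (c * r2⁻¹ * c⁻¹), ?_, c, hcB, ?_⟩
    · refine mul_mem (mul_mem (mul_mem hr1 (hR b1 hb1 r2 hr2)) ?_) ?_
      · exact hR _ (mul_mem (mul_mem hb1 hb2) (inv_mem hb1)) _ (inv_mem hr1)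
      · exact hR _ (hBB hcB) _ (inv_mem hr2)
    · rw [commutatorElement_def, hc]; group
  exact fun z hz => hle hz

theorem pow_index_mem {Γ : Type*} [Group Γ] (H : Subgroup Γ) [H.FiniteIndex] {a : Γ}
    (ha : a ∈ Subgroup.center Γ) (hac : a ∈ commutator Γ) : a ^ H.index ∈ ⁅H, H⁆ := by
  have key : ∀ (k : ℕ) (g₀ : Γ), g₀⁻¹ * a ^ k * g₀ ∈ H → g₀⁻¹ * a ^ k * g₀ = a ^ k := by
    intro k g₀ _
    have h1 := Subgroup.mem_center_iff.mp ((Subgroup.center Γ).pow_mem ha k) g₀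
    rw [mul_assoc, ← h1, inv_mul_cancel_left]
  let τ : Γ →* Abelianization H := MonoidHom.transfer (Abelianization.of)
  have h1 : τ a = 1 := Abelianization.commutator_subset_ker τ hac
  have h2 : τ a = Abelianization.of ⟨a ^ H.index, MonoidHom.transfer_eq_pow_aux a key⟩ :=
    MonoidHom.transfer_eq_pow _ a key
  rw [h1] at h2
  have h3 : (⟨a ^ H.index, MonoidHom.transfer_eq_pow_aux a key⟩ : H) ∈ commutator H := by
    rw [← Abelianization.ker_of]
    exact h2.symm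
  have h5 : (commutator H).map H.subtype = ⁅H, H⁆ := by
    rw [commutator_def, Subgroup.map_commutator, ← MonoidHom.range_eq_map, Subgroup.range_subtype]
  rw [← h5]
  exact ⟨_, h3, rfl⟩

theorem pow_relIndex_mem {E : Type*} [Group E] [Finite E] {N M : Subgroup E} (hNM : N ≤ M) {a : E}
    (ha : a ∈ Subgroup.center E) (hac : a ∈ ⁅M, M⁆) : a ^ N.relIndex M ∈ ⁅N, N⁆ := by
  have hMM : ⁅M, M⁆ ≤ M := by
    rw [Subgroup.commutator_le]
    intro a ha b hb
    rw [commutatorElement_def]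
    exact mul_mem (mul_mem (mul_mem ha hb) (inv_mem ha)) (inv_mem hb)
  have h5 : (commutator M).map M.subtype = ⁅M, M⁆ := by
    rw [commutator_def, Subgroup.map_commutator, ← MonoidHom.range_eq_map, Subgroup.range_subtype]
  have hac' : (⟨a, hMM hac⟩ : M) ∈ commutator M := by
    rw [← h5] at hac
    obtain ⟨b, hb, hba⟩ := hac
    have : b = ⟨a, hMM (by rw [← h5]; exact ⟨b, hb, hba⟩)⟩ := Subtype.ext hba
    rwa [this] at hb
  have ha' : (⟨a, hMM hac⟩ : M) ∈ Subgroup.center M := by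
    rw [Subgroup.mem_center_iff]
    intro g
    exact Subtype.ext (Subgroup.mem_center_iff.1 ha g)
  have h1 := pow_index_mem (N.subgroupOf M) ha' hac'
  have h2 : (⁅N.subgroupOf M, N.subgroupOf M⁆).map M.subtype = ⁅N, N⁆ := by
    rw [Subgroup.map_commutator, Subgroup.subgroupOf_map_subtype, inf_eq_left.2 hNM]
  rw [← h2]
  exact ⟨_, h1, rfl⟩

section

variable {K V G : Type*} [Field K] [AddCommGroup V] [Module K V] [Group G] (S : Sy K V G)

/-- the elements of the unipotent radical of a vector stabiliser -/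
def gx (v x : V) : G := S.t (x + v) 1 * S.t x (-1)

variable {S}

theorem gx_act {v x : V} (h : S.f v x = 0) (w : V) :
    S.ρ (gx S v x) w = w + (S.f w v • v + (S.f w v • x + S.f w x • v)) := by
  have h' : S.f x v = 0 := S.skew_eq h
  simp only [gx, S.ρmul, S.ht, S.add_l, S.add_r, S.smul_l, S.alt, h']
  module

theorem gx_fix {v x : V} (h : S.f v x = 0) : S.ρ (gx S v x) v = v := by
  rw [gx_act h, S.alt, h]; simp

theorem gx_mul {v x y : V} (hx : S.f v x = 0) (hy : S.f v y = 0) :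
    gx S v x * gx S v y = S.t v (1 + S.f y x) * gx S v (x + y) := by
  apply S.ext_g
  intro w
  have hx' : S.f x v = 0 := S.skew_eq hx
  have hy' : S.f y v = 0 := S.skew_eq hy
  have hxy : S.f v (x + y) = 0 := by rw [S.add_r, hx, hy, add_zero]
  rw [S.ρmul, S.ρmul, gx_act hx, gx_act hy, gx_act hxy, S.ht]
  simp only [S.add_l, S.add_r, S.smul_l, S.alt, hx, hx', hy', hy]
  module

theorem gx_conj {v x : V} (k : G) (hk : S.ρ k v = v) : k * gx S v x * k⁻¹ = gx S v (S.ρ k x) := by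
  rw [gx, gx]
  have : k * (S.t (x + v) 1 * S.t x (-1)) * k⁻¹ = (k * S.t (x + v) 1 * k⁻¹) * (k * S.t x (-1) * k⁻¹) := by group
  rw [this, S.t_conj, S.t_conj, map_add, hk]

theorem gx_comm {v x y : V} (hx : S.f v x = 0) (hy : S.f v y = 0) :
    gx S v x * gx S v y * (gx S v x)⁻¹ * (gx S v y)⁻¹ = S.t v (2 * S.f y x) := by
  have h1 : gx S v x * gx S v y = S.t v (2 * S.f y x) * (gx S v y * gx S v x) := by
    rw [gx_mul hx hy, gx_mul hy hx, add_comm y x, ← mul_assoc, ← S.t_add]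
    congr 2
    rw [S.skew x y]; ring
  rw [h1]; group

theorem gx_zero (v : V) : gx S v 0 = S.t v 1 := by rw [gx, S.t_zero', mul_one, zero_add]

variable {E : Type*} [Group E] {σ : E →* G}

variable (S σ) in
/-- preimages -/
def Mt (X : Submodule K V) : Subgroup E := (S.M X).comap σ

variable (S σ) in
/-- the kernel meets the derived group of the preimage trivially -/
def Pc (X : Submodule K V) : Prop := ∀ a ∈ σ.ker, a ∈ ⁅Mt S σ X, Mt S σ X⁆ → a = 1

variable (S σ) in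
/-- complement in the preimage of the radical -/
def RIf (v : V) (X₁ : Submodule K V) : Prop :=
  ∃ R : Subgroup E, (∀ r ∈ R, ∃ x ∈ X₁, ∃ c, σ r = S.t v c * gx S v x) ∧ (∀ r ∈ R, σ r = 1 → r = 1) ∧
    (∀ x ∈ X₁, ∀ c, ∃ r ∈ R, σ r = S.t v c * gx S v x) ∧ (∀ b, σ b ∈ S.M X₁ → ∀ r ∈ R, b * r * b⁻¹ ∈ R)

variable [FiniteDimensional K V]

theorem Pc_step {v v' : V} {X : Submodule K V} (hv : v ∈ X) (hv' : v' ∈ X) (hvv' : S.f v v' = 1)
    (hR : RIf S σ v (X ⊓ LinearMap.ker (S.f v) ⊓ LinearMap.ker (S.f v')))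
    (hP : Pc S σ (X ⊓ LinearMap.ker (S.f v) ⊓ LinearMap.ker (S.f v'))) : Pc S σ (X ⊓ LinearMap.ker (S.f v)) := by
  obtain ⟨X₁, hX₁⟩ : ∃ X₁, X₁ = X ⊓ LinearMap.ker (S.f v) ⊓ LinearMap.ker (S.f v') := ⟨_, rfl⟩
  rw [← hX₁] at hR hP
  have hv'v : S.f v' v = -1 := by rw [S.skew, hvv']
  have hX1v : ∀ x ∈ X₁, S.f v x = 0 := fun x hx => by rw [hX₁] at hx; exact hx.1.2
  have hX1v' : ∀ x ∈ X₁, S.f v' x = 0 := fun x hx => by rw [hX₁] at hx; exact hx.2
  have hX1X : ∀ x ∈ X₁, x ∈ X := fun x hx => by rw [hX₁] at hx; exact hx.1.1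
  obtain ⟨R, R1, R2, R3, R4⟩ := hR
  have act : ∀ x ∈ X₁, ∀ c : K, S.ρ (S.t v c * gx S v x) v' = v' - (1 + c) • v - x := by
    intro x hx c
    rw [S.ρmul, gx_act (hX1v x hx), S.ht]
    have e1 : S.f x v = 0 := S.skew_eq (hX1v x hx)
    simp only [S.add_l, S.smul_l, S.alt, hv'v, hX1v' x hx, e1]
    module
  have key : ∀ n ∈ Mt S σ (X ⊓ LinearMap.ker (S.f v)), ∃ r ∈ R, ∃ b ∈ Mt S σ X₁, n = r * b := by
    intro n hn
    have hn' : σ n ∈ S.M (X ⊓ LinearMap.ker (S.f v)) := hn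
    obtain ⟨y, hy⟩ : ∃ y, y = S.ρ (σ n) v' - v' := ⟨_, rfl⟩
    have hyX : y ∈ X ⊓ LinearMap.ker (S.f v) := by rw [hy]; exact hn' v'
    have hyv : S.f v y = 0 := hyX.2
    obtain ⟨x, hx⟩ : ∃ x, x = -(y + S.f v' y • v) := ⟨_, rfl⟩
    have hxX1 : x ∈ X₁ := by
      rw [hX₁]
      refine ⟨⟨?_, ?_⟩, ?_⟩
      · rw [hx]; exact X.neg_mem (X.add_mem hyX.1 (X.smul_mem _ hv))
      · change S.f v x = 0
        rw [hx, S.neg_r, S.add_r, S.smul_r, S.alt, hyv]; simp
      · change S.f v' x = 0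
        rw [hx, S.neg_r, S.add_r, S.smul_r, hv'v]; ring
    obtain ⟨r, hr, hσr⟩ := R3 x hxX1 (S.f v' y - 1)
    refine ⟨r, hr, r⁻¹ * n, ?_, by group⟩
    have hgM : S.t v (S.f v' y - 1) * gx S v x ∈ S.M X := by
      refine mul_mem (S.t_mem hv _) (mul_mem (S.t_mem (X.add_mem (hX1X x hxX1) hv) _) (S.t_mem (hX1X x hxX1) _))
    have hMX : σ (r⁻¹ * n) ∈ S.M X := by
      rw [map_mul, map_inv, hσr]
      exact mul_mem (inv_mem hgM) (S.M_mono inf_le_left hn')
    have hnv : S.ρ (σ n) v = v := S.M_perp hn' (fun x hx => hx.2)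
    have hrv : S.ρ (S.t v (S.f v' y - 1) * gx S v x) v = v := by
      rw [S.ρmul, gx_fix (hX1v x hxX1), S.t_fix (S.alt v)]
    have h1 : S.ρ (σ (r⁻¹ * n)) v = v := by
      rw [map_mul σ, map_inv σ, hσr, S.ρmul, hnv, S.ρ_inv_fix hrv]
    have h2 : S.ρ (σ (r⁻¹ * n)) v' = v' := by
      have e1 : S.ρ (σ n) v' = v' + y := by rw [hy]; abel
      have e2 : S.ρ (S.t v (S.f v' y - 1) * gx S v x) v' = v' + y := by
        rw [act x hxX1, hx]; module
      rw [map_mul σ, map_inv σ, hσr, S.ρmul, e1]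
      conv_lhs => rw [← e2]
      rw [S.ρinv]
    change σ (r⁻¹ * n) ∈ S.M X₁
    rw [hX₁]
    exact S.M_fix (S.M_fix hMX h1) h2
  intro a ha hac
  obtain ⟨r, hr, b, hb, rfl⟩ := comm_RB R (Mt S σ X₁) _ key (fun b hb r hr => R4 b hb r hr) a hac
  obtain ⟨x, hx, c, hσr⟩ := R1 r hr
  have hBB : ⁅Mt S σ X₁, Mt S σ X₁⁆ ≤ Mt S σ X₁ := by
    rw [Subgroup.commutator_le]
    intro a ha b hb
    rw [commutatorElement_def]
    exact mul_mem (mul_mem (mul_mem ha hb) (inv_mem ha)) (inv_mem hb)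
  have hσb : σ b ∈ S.M X₁ := hBB hb
  have h1 : σ r * σ b = 1 := by rw [← map_mul]; exact ha
  have hbv' : S.ρ (σ b) v' = v' := S.M_perp hσb hX1v'
  have h2 : S.ρ (σ r) v' = v' := by
    have := S.ρmul (σ r) (σ b) v'
    rw [h1, S.ρone, hbv'] at this
    exact this.symm
  rw [hσr, act x hx] at h2
  have h3 : (1 + c) • v + x = 0 := by
    have : v' - (1 + c) • v - x - v' = 0 := by rw [h2, sub_self]
    have h4 : -((1 + c) • v + x) = 0 := by rw [← this]; abel
    exact neg_eq_zero.1 h4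
  have h4 : 1 + c = 0 := by
    have := congrArg (fun z => S.f v' z) h3
    simp only [S.add_r, S.smul_r, hv'v, hX1v' x hx, S.zero_r] at this
    linear_combination -this
  have h5 : x = 0 := by rwa [h4, zero_smul, zero_add] at h3
  have h6 : r = 1 := by
    apply R2 r hr
    have : c = -1 := by linear_combination h4
    rw [hσr, h5, gx_zero, ← S.t_add, this, neg_add_cancel, S.t_zero]
  rw [h6, one_mul] at ha ⊢
  exact hP b ha hb

theorem Nd.perp_nd {v v' : V} {X : Submodule K V} (hX : Nd S X) (hv : v ∈ X) (hv' : v' ∈ X) (hvv' : S.f v v' = 1) :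
    Nd S (X ⊓ LinearMap.ker (S.f v) ⊓ LinearMap.ker (S.f v')) := by
  have hv'v : S.f v' v = -1 := by rw [S.skew, hvv']
  intro x hx hx0
  obtain ⟨y, hy, hxy⟩ := hX x hx.1.1 hx0
  refine ⟨y + S.f v' y • v - S.f v y • v', ⟨⟨?_, ?_⟩, ?_⟩, ?_⟩
  · exact X.sub_mem (X.add_mem hy (X.smul_mem _ hv)) (X.smul_mem _ hv')
  · change S.f v _ = 0
    rw [S.sub_r, S.add_r, S.smul_r, S.smul_r, S.alt, hvv']; ring
  · change S.f v' _ = 0
    rw [S.sub_r, S.add_r, S.smul_r, S.smul_r, S.alt, hv'v]; ring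
  · have e1 : S.f x v = 0 := S.skew_eq hx.1.2
    have e2 : S.f x v' = 0 := S.skew_eq hx.2
    rw [S.sub_r, S.add_r, S.smul_r, S.smul_r, e1, e2]
    simpa using hxy

variable [Finite K] [Finite E] (hc : σ.ker ≤ Subgroup.center E) {p : ℕ} [hp : Fact p.Prime] [CharP K p]

include hp hc in
theorem Pc_transfer (hσ : Function.Surjective σ) (hA : ∀ a ∈ σ.ker, ∃ k, a ^ (p ^ k) = 1) {v : V} {X : Submodule K V} (hX : Nd S X)
    (hv : v ∈ X) (hv0 : v ≠ 0) (hP : Pc S σ (X ⊓ LinearMap.ker (S.f v))) : Pc S σ X := by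
  classical
  haveI : Fintype K := Fintype.ofFinite K
  haveI : Finite V := Module.finite_of_finite K
  intro a ha hac
  have hle : Mt S σ (X ⊓ LinearMap.ker (S.f v)) ≤ Mt S σ X := Subgroup.comap_mono (S.M_mono inf_le_left)
  have h1 := pow_relIndex_mem hle (hc ha) hac
  have h2 := hP _ (σ.ker.pow_mem ha _) h1
  -- the index
  let act : MulAction (Mt S σ X) V :=
    { smul := fun g v => S.ρ (σ (g : E)) v
      one_smul := fun v => by
        change S.ρ (σ ((1 : Mt S σ X) : E)) v = v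
        rw [OneMemClass.coe_one, map_one, S.ρone]
      mul_smul := fun g h v => by
        change S.ρ (σ ((g * h : Mt S σ X) : E)) v = S.ρ (σ (g : E)) (S.ρ (σ (h : E)) v)
        rw [Subgroup.coe_mul, map_mul σ, S.ρmul] }
  have hact : ∀ (g : Mt S σ X) (v : V), g • v = S.ρ (σ (g : E)) v := fun g v => rfl
  have hstab : MulAction.stabilizer (Mt S σ X) v = (Mt S σ (X ⊓ LinearMap.ker (S.f v))).subgroupOf (Mt S σ X) := by
    ext g
    rw [MulAction.mem_stabilizer_iff, Subgroup.mem_subgroupOf, hact]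
    constructor
    · intro h; exact S.M_fix g.2 h
    · intro h; exact (S.M_fix_iff.1 h).2
  have horb : MulAction.orbit (Mt S σ X) v = {x | x ∈ X ∧ x ≠ 0} := by
    ext x
    constructor
    · rintro ⟨g, rfl⟩
      refine ⟨?_, ?_⟩
      · exact S.M_pres g.2 hv
      · change S.ρ (σ (g : E)) v ≠ 0
        intro h0
        apply hv0
        rw [← S.ρinv (σ (g : E)) v, h0, map_zero]
    · rintro ⟨hx, hx0⟩
      obtain ⟨g, hg, hgx⟩ := S.exists_moveT (X.sub_mem hx hv) (hX v hv hv0) (hX x hx hx0)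
      obtain ⟨e, he⟩ := hσ g
      exact ⟨⟨e, show σ e ∈ S.M X by rw [he]; exact S.T_le X hg⟩, by rw [← hgx]; change S.ρ (σ e) v = _; rw [he]⟩
  have hidx : (Mt S σ (X ⊓ LinearMap.ker (S.f v))).relIndex (Mt S σ X) + 1 = Nat.card X := by
    have e1 : (Mt S σ (X ⊓ LinearMap.ker (S.f v))).relIndex (Mt S σ X) = (MulAction.orbit (Mt S σ X) v).ncard := by
      rw [← MulAction.index_stabilizer, hstab]; rfl
    rw [e1, horb]
    have e2 : {x | x ∈ X ∧ x ≠ 0} = (X : Set V) \ {0} := by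
      ext x; simp
    rw [e2, Set.ncard_sdiff_singleton_add_one (s := (X : Set V)) X.zero_mem (Set.toFinite _)]
    exact (Nat.card_coe_set_eq (X : Set V)).symm
  have hpX : p ∣ Nat.card X := by
    have e1 : Nat.card X = Nat.card K ^ finrank K X := Module.natCard_eq_pow_finrank
    have e2 : 0 < finrank K X := by
      have : Nontrivial X := ⟨⟨⟨v, hv⟩, 0, fun h => hv0 (congrArg Subtype.val h)⟩⟩
      exact Module.finrank_pos
    have e3 : p ∣ Nat.card K := by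
      rw [Nat.card_eq_fintype_card]
      exact (CharP.cast_eq_zero_iff K p _).1 (FiniteField.cast_card_eq_zero K)
    rw [e1]
    exact e3.trans (dvd_pow_self _ e2.ne')
  have hcop : Nat.Coprime ((Mt S σ (X ⊓ LinearMap.ker (S.f v))).relIndex (Mt S σ X)) p := by
    rw [Nat.coprime_comm, Nat.Prime.coprime_iff_not_dvd hp.out]
    intro hdvd
    have e1 : p ∣ 1 := by
      rw [← hidx] at hpX
      exact (Nat.dvd_add_right hdvd).1 hpX
    exact hp.out.one_lt.ne' (Nat.dvd_one.1 e1)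
  obtain ⟨k, hk⟩ := hA a ha
  exact orderOf_eq_one_iff.1 (Nat.eq_one_of_dvd_coprimes (Nat.Coprime.pow_right k hcop)
    (orderOf_dvd_of_pow_eq_one h2) (orderOf_dvd_of_pow_eq_one hk))

include hp hc in
theorem Pc_all (hσ : Function.Surjective σ) (hA : ∀ a ∈ σ.ker, ∃ k, a ^ (p ^ k) = 1)
    (hR : ∀ (v v' : V) (X₁ : Submodule K V), S.f v v' = 1 → Nd S X₁ → (∀ x ∈ X₁, S.f v x = 0) → (∀ x ∈ X₁, S.f v' x = 0) → RIf S σ v X₁) :
    ∀ (n : ℕ) (X : Submodule K V), finrank K X ≤ n → Nd S X → Pc S σ X := by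
  intro n
  induction n with
  | zero =>
    intro X hX _ a _ hac
    have h0 : X = ⊥ := by
      rw [← Submodule.finrank_eq_zero (R := K)]; omega
    have h1 : ⁅Mt S σ X, Mt S σ X⁆ ≤ ⊥ := by
      rw [Subgroup.commutator_le]
      intro x hx y hy
      have hx' : σ x ∈ S.M X := hx
      rw [h0, S.M_bot, Subgroup.mem_bot] at hx'
      have := Subgroup.mem_center_iff.1 (hc (MonoidHom.mem_ker.2 hx')) y
      rw [Subgroup.mem_bot, commutatorElement_def, ← this]; group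
    exact Subgroup.mem_bot.1 (h1 hac)
  | succ n ih =>
    intro X hXn hX
    by_cases h0 : X = ⊥
    · exact ih X (by rw [h0, finrank_bot]; omega) hX
    · obtain ⟨v, hv, hv0⟩ := Submodule.exists_mem_ne_zero_of_ne_bot h0
      obtain ⟨w, hw, hvw⟩ := hX v hv hv0
      obtain ⟨v', hv'⟩ : ∃ v', v' = (S.f v w)⁻¹ • w := ⟨_, rfl⟩
      have hv'X : v' ∈ X := by rw [hv']; exact X.smul_mem _ hw
      have hvv' : S.f v v' = 1 := by rw [hv', S.smul_r, inv_mul_cancel₀ hvw]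
      have hnd := hX.perp_nd hv hv'X hvv'
      have hlt : finrank K (X ⊓ LinearMap.ker (S.f v) ⊓ LinearMap.ker (S.f v') : Submodule K V) < finrank K X := by
        apply Submodule.finrank_lt_finrank_of_lt
        refine lt_of_le_of_ne (inf_le_left.trans inf_le_left) ?_
        intro h
        rw [← h] at hw
        exact hvw hw.1.2
      apply Pc_transfer hc hσ hA hX hv hv0
      apply Pc_step hv hv'X hvv'
      · exact hR v v' _ hvv' hnd (fun x hx => hx.1.2) (fun x hx => hx.2)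
      · exact ih _ (by omega) hnd

end

end CfsgLib.SyM
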