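import Cfsg.Agent.LibSpCov6

set_option autoImplicit false
set_option maxHeartbeats 1000000
set_option linter.unusedSectionVars false

/-! Central extensions with kernel a `p`-group: the radical of a vector stabiliser, more than two field elements. -/

namespace CfsgLib.SyM

open Module CfsgLib.SuzM

section

variable {K V G : Type*} [Field K] [AddCommGroup V] [Module K V] [Group G] {S : Sy K V G}
variable {E : Type*} [Group E] {σ : E →* G} (hσ : Function.Surjective σ) (hc : σ.ker ≤ Subgroup.center E)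

include hc in
theorem vcomm (hVc : Vc S hσ hc) {v : V} {c : K} {e b : E} (he : σ e = S.t v c) (hb : S.ρ (σ b) v = v) : b * e = e * b :=
  ((hVc v c (σ b) hb) e b he rfl).symm

variable (S) in
/-- commutators in the radical -/
noncomputable def be (v x y : V) : E := cm hσ (gx S v x) (gx S v y)

theorem map_be {v x y : V} (hx : S.f v x = 0) (hy : S.f v y = 0) : σ (be S hσ v x y) = S.t v (2 * S.f y x) := by
  rw [be, map_cm, gx_comm hx hy]

theorem cm_tl (hVc : Vc S hσ hc) {v : V} (a b : K) {g g' : G} (hg : S.ρ g v = v) (hg' : S.ρ g' v = v) :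
    cm hσ (S.t v a * g) (S.t v b * g') = cm hσ g g' := by
  obtain ⟨x, hx⟩ := hσ g
  obtain ⟨y, hy⟩ := hσ g'
  obtain ⟨s, hs⟩ := hσ (S.t v a)
  obtain ⟨t, ht⟩ := hσ (S.t v b)
  rw [← cm_eq hσ hc (x := s * x) (y := t * y) (by rw [map_mul, hs, hx]) (by rw [map_mul, ht, hy]), ← cm_eq hσ hc hx hy]
  have h1 : x * t = t * x := vcomm hσ hc hVc ht (by rw [hx, hg])
  have h2 : y * s = s * y := vcomm hσ hc hVc hs (by rw [hy, hg'])
  have h3 : s * t = t * s := vcomm hσ hc hVc ht (by rw [hs, S.t_fix (S.alt v)])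
  have h4 : s * x = x * s := (vcomm hσ hc hVc hs (by rw [hx, hg])).symm
  have h5 : t * y = y * t := (vcomm hσ hc hVc ht (by rw [hy, hg'])).symm
  calc s * x * (t * y) * (s * x)⁻¹ * (t * y)⁻¹ = s * (x * t) * y * x⁻¹ * s⁻¹ * y⁻¹ * t⁻¹ := by group
    _ = (s * t) * x * y * x⁻¹ * s⁻¹ * y⁻¹ * t⁻¹ := by rw [h1]; group
    _ = t * (s * x) * y * x⁻¹ * s⁻¹ * y⁻¹ * t⁻¹ := by rw [h3]; group
    _ = t * x * (s * y) * x⁻¹ * s⁻¹ * y⁻¹ * t⁻¹ := by rw [h4]; group
    _ = t * x * y * (s * x⁻¹) * s⁻¹ * y⁻¹ * t⁻¹ := by rw [← h2]; group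
    _ = t * x * y * (x⁻¹ * s) * s⁻¹ * y⁻¹ * t⁻¹ := by
        rw [show s * x⁻¹ = x⁻¹ * s by
          calc s * x⁻¹ = x⁻¹ * (x * s) * x⁻¹ := by group
            _ = x⁻¹ * (s * x) * x⁻¹ := by rw [h4]
            _ = x⁻¹ * s := by group]
    _ = t * (x * y * x⁻¹ * y⁻¹) * t⁻¹ := by group
    _ = x * y * x⁻¹ * y⁻¹ := by
        have h6 : t * (x * y * x⁻¹ * y⁻¹) = (x * y * x⁻¹ * y⁻¹) * t := by
          refine (vcomm hσ hc hVc ht ?_).symm
          simp only [map_mul σ, map_inv σ, S.ρmul, hx, hy, S.ρ_inv_fix hg, S.ρ_inv_fix hg', hg, hg']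
        rw [h6, mul_inv_cancel_right]

theorem be_add_left (hVc : Vc S hσ hc) {v x y z : V} (hx : S.f v x = 0) (hy : S.f v y = 0) (hz : S.f v z = 0) :
    be S hσ v (x + y) z = be S hσ v y z * be S hσ v x z := by
  have hxy : S.f v (x + y) = 0 := by rw [S.add_r, hx, hy, add_zero]
  have h1 : cm hσ (gx S v x * gx S v y) (gx S v z) = cm hσ (gx S v y) (gx S v z) * cm hσ (gx S v x) (gx S v z) := by
    apply cm_mul_left hσ hc
    intro w hw
    exact vcomm hσ hc hVc (map_be hσ hy hz) (by rw [hw, gx_fix hx])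
  have h2 := cm_tl hσ hc hVc (v := v) (1 + S.f y x) 0 (gx_fix hxy) (gx_fix hz)
  rw [S.t_zero, one_mul, ← gx_mul hx hy, h1] at h2
  exact h2.symm

include hc in
theorem be_symm (v x y : V) : be S hσ v y x = (be S hσ v x y)⁻¹ := by
  rw [be, cm_symm' hσ hc, ← be]

theorem be_add_right (hVc : Vc S hσ hc) {v x y z : V} (hx : S.f v x = 0) (hy : S.f v y = 0) (hz : S.f v z = 0) :
    be S hσ v z (x + y) = be S hσ v z x * be S hσ v z y := by
  rw [be_symm hσ hc v (x + y) z, be_add_left hσ hc hVc hx hy hz, mul_inv_rev, ← be_symm hσ hc, ← be_symm hσ hc]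

theorem be_inv (hVc : Vc S hσ hc) {v x y : V} (hx : S.f v x = 0) (hy : S.f v y = 0) {k : G} (hk : S.ρ k v = v) :
    be S hσ v (S.ρ k x) (S.ρ k y) = be S hσ v x y := by
  obtain ⟨w, hw⟩ := hσ k
  have h1 := cm_conj hσ hc (g := gx S v x) (h := gx S v y) hw
  rw [gx_conj k hk, gx_conj k hk] at h1
  have h2 : w * be S hσ v x y = be S hσ v x y * w := vcomm hσ hc hVc (map_be hσ hx hy) (by rw [hw, hk])
  rw [be, ← h1, ← be, h2, mul_inv_cancel_right]

variable [FiniteDimensional K V]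

theorem gx_span (v : V) (c : K) : gx S v (c • v) = S.t v ((c + 1) ^ 2 - c ^ 2) := by
  have h1 : c • v + v = (c + 1) • v := by module
  rw [gx, h1, S.t_smul, S.t_smul, ← S.t_add]
  congr 1; ring

theorem be_zero (hVc : Vc S hσ hc) {v x y : V} (hx : S.f v x = 0) (hy : S.f v y = 0) (hxy : S.f x y = 0) :
    be S hσ v x y = 1 := by
  by_cases h : y ∈ Submodule.span K {v}
  · obtain ⟨c, rfl⟩ := Submodule.mem_span_singleton.1 h
    rw [be, gx_span]
    have h1 := CC_symm hσ hc (hVc v ((c + 1) ^ 2 - c ^ 2) (gx S v x) (gx_fix hx))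
    exact (CC_iff hσ hc).1 h1
  · obtain ⟨z, hz1, hz2⟩ := exists_partner (S := S) h
    have hw1 : S.f v (-z) = 0 := by rw [S.neg_r, hz1, neg_zero]
    have hkv : S.ρ (S.t y 1) v = v := S.t_fix hy 1
    have hkx : S.ρ (S.t y 1) x = x := S.t_fix hxy 1
    have hkw : S.ρ (S.t y 1) (-z) = -z + y := by
      rw [S.ht, S.neg_l, S.skew z y, hz2, neg_neg, one_mul, one_smul]
    have h1 := be_inv hσ hc hVc hx hw1 hkv
    rw [hkx, hkw, be_add_right hσ hc hVc hw1 hy hx] at h1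
    exact mul_eq_left.1 h1

theorem be_phi (hVc : Vc S hσ hc) {v x₀ y₀ : V} (hx₀ : S.f v x₀ = 0) (hy₀ : S.f v y₀ = 0) (hxy₀ : S.f x₀ y₀ = 1) {x y : V}
    (hx : S.f v x = 0) (hy : S.f v y = 0) : be S hσ v x y = be S hσ v x₀ (S.f x y • y₀) := by
  have hcy : ∀ c : K, S.f v (c • y₀) = 0 := fun c => by rw [S.smul_r, hy₀, mul_zero]
  by_cases h : x ∈ Submodule.span K {v}
  · obtain ⟨c, rfl⟩ := Submodule.mem_span_singleton.1 h
    have h1 : S.f (c • v) y = 0 := by rw [S.smul_l, hy, mul_zero]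
    rw [h1, zero_smul, be_zero hσ hc hVc hx hy h1, be_zero hσ hc hVc hx₀ (S.zero_r v) (S.zero_r x₀)]
  · obtain ⟨z, hz1, hz2⟩ := exists_partner (S := S) h
    obtain ⟨k, hk, hkx⟩ := S.exists_moveT (X := LinearMap.ker (S.f v)) (u := x₀) (v := x)
      (by change S.f v (x - x₀) = 0; rw [S.sub_r, hx, hx₀, sub_zero]) ⟨y₀, hy₀, by rw [hxy₀]; exact one_ne_zero⟩
      ⟨z, hz1, by rw [hz2]; exact one_ne_zero⟩
    have hkv : S.ρ k v = v := S.M_perp (S.T_le _ hk) (fun x hx => hx)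
    obtain ⟨y', hy'⟩ : ∃ y', y' = S.ρ k⁻¹ y := ⟨_, rfl⟩
    have hky : S.ρ k y' = y := by rw [hy', S.ρinv']
    have hvy' : S.f v y' = 0 := by rw [hy', ← S.adj, hkv, hy]
    have hxy' : S.f x₀ y' = S.f x y := by rw [hy', ← S.adj, hkx]
    have h1 := be_inv hσ hc hVc hx₀ hvy' hkv
    rw [hkx, hky] at h1
    have h2 : S.f v (y' - S.f x y • y₀) = 0 := by rw [S.sub_r, hvy', hcy, sub_zero]
    have h3 : S.f x₀ (y' - S.f x y • y₀) = 0 := by rw [S.sub_r, hxy', S.smul_r, hxy₀, mul_one, sub_self]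
    have h4 := be_add_right hσ hc hVc h2 (hcy (S.f x y)) hx₀
    rw [sub_add_cancel, be_zero hσ hc hVc hx₀ h2 h3, one_mul] at h4
    rw [h1, h4]

theorem hh_conj_gx {v v' x : V} (hvv' : S.f v v' = 1) (hx : S.f v x = 0) (hx' : S.f v' x = 0) {l : K} (hl : l ≠ 0) :
    hh S v v' l * gx S v x * (hh S v v' l)⁻¹ = S.t v (l ^ 2 - 1) * gx S v (l • x) := by
  have e1 : S.f x v = 0 := S.skew_eq hx
  have e2 : S.f x v' = 0 := S.skew_eq hx'
  have e3 : S.f v (l • x) = 0 := by rw [S.smul_r, hx, mul_zero]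
  have h1 : hh S v v' l * gx S v x * (hh S v v' l)⁻¹ = (hh S v v' l * S.t (x + v) 1 * (hh S v v' l)⁻¹) *
      (hh S v v' l * S.t x (-1) * (hh S v v' l)⁻¹) := by rw [gx]; group
  rw [h1, S.t_conj, S.t_conj, map_add, hh_l hvv' hl, hh_fix l e1 e2]
  apply S.ext_g
  intro w
  rw [S.ρmul, S.ρmul, gx_act e3]
  simp only [S.ht, S.add_l, S.add_r, S.smul_l, S.smul_r, S.alt, e1, hx]
  module

/-- the group `D` -/
theorem exists_D (hVc : Vc S hσ hc) (hV : 4 ≤ finrank K V) {v v' : V} (hvv' : S.f v v' = 1) {l : K} (hl : l ≠ 0) (hl1 : l ≠ 1) :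
    ∃ D : Subgroup E, (∀ d ∈ D, ∃ c, σ d = S.t v c) ∧ (∀ d ∈ D, σ d = 1 → d = 1) ∧
      (∀ x y, S.f v x = 0 → S.f v y = 0 → be S hσ v x y ∈ D) ∧ (∀ c, cm hσ (hh S v v' l) (S.t v c) ∈ D) ∧
      (∀ c, ∃ d ∈ D, σ d = S.t v c) := by
  have hv0 : v ≠ 0 := by rintro rfl; rw [S.zero_l] at hvv'; exact zero_ne_one hvv'
  obtain ⟨x₁, h11, h12⟩ := exists_perp_indep (S := S) (D := Submodule.span K {v}) (by
    rw [finrank_span_singleton hv0]; omega)
  have hvx1 : S.f v x₁ = 0 := h11 v (Submodule.mem_span_singleton_self v)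
  obtain ⟨y₁, hvy1, hxy1⟩ := exists_partner (S := S) h12
  obtain ⟨x₀, hx₀⟩ : ∃ x₀, x₀ = x₁ - S.f x₁ v' • v := ⟨_, rfl⟩
  obtain ⟨y₀, hy₀⟩ : ∃ y₀, y₀ = y₁ - S.f y₁ v' • v := ⟨_, rfl⟩
  have hx1v : S.f x₁ v = 0 := S.skew_eq hvx1
  have hvx0 : S.f v x₀ = 0 := by rw [hx₀, S.sub_r, S.smul_r, S.alt, hvx1]; ring
  have hvy0 : S.f v y₀ = 0 := by rw [hy₀, S.sub_r, S.smul_r, S.alt, hvy1]; ring
  have hx0v' : S.f x₀ v' = 0 := by rw [hx₀, S.sub_l, S.smul_l, hvv']; ring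
  have hy0v' : S.f y₀ v' = 0 := by rw [hy₀, S.sub_l, S.smul_l, hvv']; ring
  have hxy0 : S.f x₀ y₀ = 1 := by
    rw [hx₀, hy₀, S.sub_l, S.smul_l, S.sub_r, S.sub_r, S.smul_r, S.smul_r, S.alt, hx1v, hvy1, hxy1]; ring
  have hv'x0 : S.f v' x₀ = 0 := S.skew_eq hx0v'
  have hv'y0 : S.f v' y₀ = 0 := S.skew_eq hy0v'
  have hcy : ∀ c : K, S.f v (c • y₀) = 0 := fun c => by rw [S.smul_r, hvy0, mul_zero]
  have hcy' : ∀ c : K, S.f v' (c • y₀) = 0 := fun c => by rw [S.smul_r, hv'y0, mul_zero]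
  have phi_add : ∀ c d : K, be S hσ v x₀ ((c + d) • y₀) = be S hσ v x₀ (c • y₀) * be S hσ v x₀ (d • y₀) := by
    intro c d
    rw [add_smul, be_add_right hσ hc hVc (hcy c) (hcy d) hvx0]
  have phi_zero : be S hσ v x₀ ((0 : K) • y₀) = 1 := by
    rw [zero_smul]; exact be_zero hσ hc hVc hvx0 (S.zero_r v) (S.zero_r x₀)
  have phi_map : ∀ c : K, σ (be S hσ v x₀ (c • y₀)) = S.t v (-2 * c) := by
    intro c
    rw [map_be hσ hvx0 (hcy c), S.smul_l, S.skew y₀ x₀, hxy0]; congr 1; ring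
  have phi_all : ∀ x y, S.f v x = 0 → S.f v y = 0 → be S hσ v x y = be S hσ v x₀ (S.f x y • y₀) :=
    fun x y hx hy => be_phi hσ hc hVc hvx0 hvy0 hxy0 hx hy
  obtain ⟨w, hw⟩ := hσ (hh S v v' l)
  have phi_conj : ∀ c : K, w * be S hσ v x₀ (c • y₀) * w⁻¹ = be S hσ v x₀ ((l ^ 2 * c) • y₀) := by
    intro c
    have e1 : S.f v (l • x₀) = 0 := by rw [S.smul_r, hvx0, mul_zero]
    have e2 : S.f v (l • c • y₀) = 0 := by rw [S.smul_r, hcy, mul_zero]
    rw [be, cm_conj hσ hc hw, hh_conj_gx hvv' hvx0 hv'x0 hl, hh_conj_gx hvv' (hcy c) (hcy' c) hl,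
      cm_tl hσ hc hVc _ _ (gx_fix e1) (gx_fix e2), ← be, phi_all _ _ e1 e2]
    congr 2
    rw [S.smul_l, S.smul_r, S.smul_r, hxy0]; ring
  by_cases h2 : (2 : K) = 0
  · -- characteristic two
    have phi_one : ∀ c : K, be S hσ v x₀ (c • y₀) = 1 := by
      have hne : 1 - l ^ 2 ≠ 0 := by
        intro h
        have h3 : (l - 1) ^ 2 = 0 := by linear_combination -h + (1 - l) * h2
        have h4 : l - 1 = 0 := by
          rcases pow_eq_zero_iff (two_ne_zero) |>.1 h3 with h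
          exact h
        exact hl1 (sub_eq_zero.1 h4)
      intro c
      obtain ⟨d, hd⟩ : ∃ d, d = c / (1 - l ^ 2) := ⟨_, rfl⟩
      have hc1 : c = d + -(l ^ 2 * d) := by rw [hd]; field_simp; ring
      have hk : be S hσ v x₀ (d • y₀) ∈ σ.ker := by
        rw [MonoidHom.mem_ker, phi_map]
        have : -2 * d = 0 := by linear_combination (-d) * h2
        rw [this, S.t_zero]
      have h5 := phi_conj d
      rw [Subgroup.mem_center_iff.1 (hc hk) w, mul_inv_cancel_right] at h5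
      have h6 := phi_add (l ^ 2 * d) (-(l ^ 2 * d))
      rw [add_neg_cancel, phi_zero, ← h5, ← phi_add, ← hc1] at h6
      exact h6.symm
    obtain ⟨δ, hδ⟩ : ∃ δ : K → E, ∀ c, δ c = cm hσ (hh S v v' l) (S.t v c) := ⟨_, fun c => rfl⟩
    have hmap : ∀ c, σ (δ c) = S.t v ((l ^ 2 - 1) * c) := by
      intro c
      rw [hδ, map_cm, S.t_conj, hh_l hvv' hl, S.t_smul, ← S.t_neg, ← S.t_add]; congr 1; ring
    have hadd : ∀ c d, δ (c + d) = δ c * δ d := by
      intro c d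
      rw [hδ, S.t_add, cm_mul_right hσ hc, hδ, hδ]
      intro e he
      rw [← hδ]
      exact vcomm hσ hc hVc (hmap d) (by rw [he, S.t_fix (S.alt v)])
    have hzero : δ 0 = 1 := by
      have := hadd 0 0
      rw [add_zero] at this
      exact left_eq_mul.1 this
    have hne : l ^ 2 - 1 ≠ 0 := by
      intro h
      have h3 : (l - 1) ^ 2 = 0 := by linear_combination h + (1 - l) * h2
      have h4 : l - 1 = 0 := by
        rcases pow_eq_zero_iff (two_ne_zero) |>.1 h3 with h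
        exact h
      exact hl1 (sub_eq_zero.1 h4)
    refine ⟨{ carrier := {e | ∃ c, e = δ c}
              one_mem' := ⟨0, hzero.symm⟩
              mul_mem' := by
                rintro _ _ ⟨c, rfl⟩ ⟨d, rfl⟩
                exact ⟨c + d, (hadd c d).symm⟩
              inv_mem' := by
                rintro _ ⟨c, rfl⟩
                refine ⟨-c, ?_⟩
                rw [inv_eq_iff_mul_eq_one, ← hadd, add_neg_cancel, hzero] }, ?_, ?_, ?_, ?_, ?_⟩
    · rintro _ ⟨c, rfl⟩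
      exact ⟨_, hmap c⟩
    · rintro _ ⟨c, rfl⟩ h
      rw [hmap] at h
      have h3 := S.t_ne_one hv0 h
      have h4 : c = 0 := (mul_eq_zero.1 h3).resolve_left hne
      rw [h4, hzero]
    · intro x y hx hy
      refine ⟨0, ?_⟩
      rw [hzero, phi_all x y hx hy, phi_one]
    · intro c
      exact ⟨c, (hδ c).symm⟩
    · intro c
      refine ⟨_, ⟨c / (l ^ 2 - 1), rfl⟩, ?_⟩
      rw [hmap]; congr 1; field_simp
  · -- odd characteristic
    refine ⟨{ carrier := {e | ∃ c : K, e = be S hσ v x₀ (c • y₀)}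
              one_mem' := ⟨0, phi_zero.symm⟩
              mul_mem' := by
                rintro _ _ ⟨c, rfl⟩ ⟨d, rfl⟩
                exact ⟨c + d, (phi_add c d).symm⟩
              inv_mem' := by
                rintro _ ⟨c, rfl⟩
                refine ⟨-c, ?_⟩
                rw [inv_eq_iff_mul_eq_one, ← phi_add, add_neg_cancel, phi_zero] }, ?_, ?_, ?_, ?_, ?_⟩
    · rintro _ ⟨c, rfl⟩
      exact ⟨_, phi_map c⟩
    · rintro _ ⟨c, rfl⟩ h
      rw [phi_map] at h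
      have h3 := S.t_ne_one hv0 h
      have h4 : c = 0 := by
        rcases mul_eq_zero.1 h3 with h5 | h5
        · exact absurd (neg_eq_zero.1 h5) h2
        · exact h5
      rw [h4, phi_zero]
    · intro x y hx hy
      exact ⟨_, phi_all x y hx hy⟩
    · intro c
      have h3 : S.t v c = σ (be S hσ v x₀ ((-c / 2) • y₀)) := by
        rw [phi_map]; congr 1; field_simp
      rw [← cm_eq hσ hc hw h3.symm, phi_conj]
      refine ⟨l ^ 2 * (-c / 2) + -(-c / 2), ?_⟩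
      rw [phi_add]
      congr 1
      rw [inv_eq_iff_mul_eq_one, ← phi_add, add_neg_cancel, phi_zero]
    · intro c
      refine ⟨_, ⟨-c / 2, rfl⟩, ?_⟩
      rw [phi_map]; congr 1; field_simp

/-- the complement in the radical, more than two field elements -/
theorem RIf_large (hVc : Vc S hσ hc) (hV : 4 ≤ finrank K V) {v v' : V} (hvv' : S.f v v' = 1) {l : K} (hl : l ≠ 0) (hl1 : l ≠ 1)
    {X₁ : Submodule K V} (hX1 : ∀ x ∈ X₁, S.f v x = 0) (hX1' : ∀ x ∈ X₁, S.f v' x = 0) : RIf S σ v X₁ := by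
  obtain ⟨D, D1, D2, D3, D4, D5⟩ := exists_D hσ hc hVc hV hvv' hl hl1
  have hv'v : S.f v' v = -1 := by rw [S.skew, hvv']
  have hl1' : l - 1 ≠ 0 := sub_ne_zero.2 hl1
  obtain ⟨η, hη⟩ : ∃ η : V → E, ∀ x, η x = cm hσ (hh S v v' l) (gx S v x) := ⟨_, fun x => rfl⟩
  have hmap : ∀ x ∈ X₁, σ (η x) = S.t v (l ^ 2 - 1 - 1) * gx S v ((l - 1) • x) := by
    intro x hx
    have e1 : S.f v ((l - 1) • x) = 0 := by rw [S.smul_r, hX1 x hx, mul_zero]
    have e2 := gx_mul e1 (hX1 x hx)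
    have e3 : (l - 1) • x + x = l • x := by module
    rw [e3, S.smul_r, S.alt, mul_zero, add_zero] at e2
    have e4 : gx S v (l • x) = S.t v (-1) * (gx S v ((l - 1) • x) * gx S v x) := by
      rw [e2, ← mul_assoc, ← S.t_add, neg_add_cancel, S.t_zero, one_mul]
    rw [hη, map_cm, hh_conj_gx hvv' (hX1 x hx) (hX1' x hx) hl, e4]
    have e5 : S.t v (l ^ 2 - 1) * (S.t v (-1) * (gx S v ((l - 1) • x) * gx S v x)) * (gx S v x)⁻¹ =
        (S.t v (l ^ 2 - 1) * S.t v (-1)) * gx S v ((l - 1) • x) := by group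
    rw [e5, ← S.t_add]; congr 2; ring
  have hfixη : ∀ x ∈ X₁, S.ρ (σ (η x)) v = v := by
    intro x hx
    rw [hmap x hx, S.ρmul, gx_fix (by rw [S.smul_r, hX1 x hx, mul_zero]), S.t_fix (S.alt v)]
  have dcomm : ∀ d ∈ D, ∀ b : E, S.ρ (σ b) v = v → b * d = d * b := by
    intro d hd b hb
    obtain ⟨c, hc'⟩ := D1 d hd
    exact vcomm hσ hc hVc hc' hb
  have hη0 : η 0 ∈ D := by rw [hη, gx_zero]; exact D4 1
  have hmul : ∀ x ∈ X₁, ∀ y ∈ X₁, ∃ d ∈ D, η x * η y = η (x + y) * d := by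
    intro x hx y hy
    have hxy := X₁.add_mem hx hy
    have hly := X₁.smul_mem (l - 1) hy
    obtain ⟨w, hw⟩ := hσ (hh S v v' l)
    obtain ⟨a, ha⟩ := hσ (gx S v x)
    obtain ⟨b, hb⟩ := hσ (gx S v y)
    obtain ⟨g, hg⟩ := hσ (gx S v (x + y))
    obtain ⟨t, ht⟩ := hσ (S.t v (1 + S.f y x))
    have e0 : η x = w * a * w⁻¹ * a⁻¹ := by rw [hη, cm_eq hσ hc hw ha]
    have e1 : η y = w * b * w⁻¹ * b⁻¹ := by rw [hη, cm_eq hσ hc hw hb]
    have e2 : η (x + y) = w * g * w⁻¹ * g⁻¹ := by rw [hη, cm_eq hσ hc hw hg]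
    have e3 : cm hσ (hh S v v' l) (S.t v (1 + S.f y x)) = w * t * w⁻¹ * t⁻¹ := (cm_eq hσ hc hw ht).symm
    have e4 : w * (a * b) * w⁻¹ * (a * b)⁻¹ = w * (t * g) * w⁻¹ * (t * g)⁻¹ := by
      apply comm_lift hc rfl
      rw [map_mul, map_mul, ha, hb, ht, hg, gx_mul (hX1 x hx) (hX1 y hy)]
    have e5 : w * (a * b) * w⁻¹ * (a * b)⁻¹ = η x * (a * η y * a⁻¹) := by rw [e0, e1]; group
    have e6 : a * η y * a⁻¹ = be S hσ v x ((l - 1) • y) * η y := by
      have e7 : a * η y * a⁻¹ * (η y)⁻¹ = be S hσ v x ((l - 1) • y) := by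
        rw [cm_eq hσ hc ha (hmap y hy)]
        have e8 := cm_tl hσ hc hVc (v := v) 0 (l ^ 2 - 1 - 1) (gx_fix (hX1 x hx)) (gx_fix (hX1 _ hly))
        rwa [S.t_zero, one_mul] at e8
      rw [← e7]; group
    have e7 : w * (t * g) * w⁻¹ * (t * g)⁻¹ = (w * t * w⁻¹ * t⁻¹) * η (x + y) := by
      have e8 : t * η (x + y) = η (x + y) * t := (vcomm hσ hc hVc ht (hfixη _ hxy)).symm
      have e9 : w * (t * g) * w⁻¹ * (t * g)⁻¹ = (w * t * w⁻¹ * t⁻¹) * (t * η (x + y) * t⁻¹) := by rw [e2]; group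
      rw [e9, e8, mul_inv_cancel_right]
    have hd1 : be S hσ v x ((l - 1) • y) ∈ D := D3 _ _ (hX1 x hx) (hX1 _ hly)
    have hd2 : w * t * w⁻¹ * t⁻¹ ∈ D := by rw [← e3]; exact D4 _
    refine ⟨w * t * w⁻¹ * t⁻¹ * (be S hσ v x ((l - 1) • y))⁻¹, mul_mem hd2 (inv_mem hd1), ?_⟩
    have e8 : η x * (be S hσ v x ((l - 1) • y) * η y) = (w * t * w⁻¹ * t⁻¹) * η (x + y) := by
      rw [← e6, ← e5, e4, e7]
    have e9 := dcomm _ hd1 (η x) (hfixη x hx)
    have e10 := dcomm _ (mul_mem hd2 (inv_mem hd1)) (η (x + y)) (hfixη _ hxy)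
    have e11 : be S hσ v x ((l - 1) • y) * (η x * η y) = (w * t * w⁻¹ * t⁻¹) * η (x + y) := by
      rw [← e8, ← mul_assoc, ← e9, mul_assoc]
    rw [e10]
    have e12 := dcomm _ hd2 _ (by
      obtain ⟨c, hc'⟩ := D1 _ (inv_mem hd1)
      rw [hc', S.t_fix (S.alt v)] : S.ρ (σ (be S hσ v x ((l - 1) • y))⁻¹) v = v)
    rw [← e12, mul_assoc, ← e11]; group
  have hηinv : ∀ x ∈ X₁, ∃ d ∈ D, (η x)⁻¹ = η (-x) * d := by
    intro x hx
    obtain ⟨d, hd, h⟩ := hmul x hx (-x) (X₁.neg_mem hx)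
    rw [add_neg_cancel] at h
    refine ⟨(η 0 * d)⁻¹, inv_mem (mul_mem hη0 hd), ?_⟩
    rw [← h]; group
  refine ⟨{ carrier := {e | ∃ x ∈ X₁, ∃ d ∈ D, e = η x * d}
            one_mem' := ⟨0, X₁.zero_mem, (η 0)⁻¹, inv_mem hη0, by rw [mul_inv_cancel]⟩
            mul_mem' := by
              rintro _ _ ⟨x, hx, d, hd, rfl⟩ ⟨y, hy, d', hd', rfl⟩
              obtain ⟨d₂, hd₂, h⟩ := hmul x hx y hy
              refine ⟨x + y, X₁.add_mem hx hy, d₂ * (d * d'), mul_mem hd₂ (mul_mem hd hd'), ?_⟩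
              have h1 := dcomm d hd (η y) (hfixη y hy)
              calc η x * d * (η y * d') = η x * (d * η y) * d' := by group
                _ = (η x * η y) * (d * d') := by rw [← h1]; group
                _ = _ := by rw [h]; group
            inv_mem' := by
              rintro _ ⟨x, hx, d, hd, rfl⟩
              obtain ⟨d₂, hd₂, h⟩ := hηinv x hx
              refine ⟨-x, X₁.neg_mem hx, d₂ * d⁻¹, mul_mem hd₂ (inv_mem hd), ?_⟩
              have h1 := dcomm _ (inv_mem hd) _ (hfixη _ (X₁.neg_mem hx))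
              have h2 : d⁻¹ * d₂ = d₂ * d⁻¹ := dcomm _ hd₂ _ (by
                obtain ⟨c, hc'⟩ := D1 _ (inv_mem hd)
                rw [hc', S.t_fix (S.alt v)])
              rw [mul_inv_rev, h, ← mul_assoc, ← h1, mul_assoc, h2] }, ?_, ?_, ?_, ?_⟩
  · rintro _ ⟨x, hx, d, hd, rfl⟩
    obtain ⟨c, hc'⟩ := D1 d hd
    refine ⟨(l - 1) • x, X₁.smul_mem _ hx, l ^ 2 - 1 - 1 + c, ?_⟩
    have e1 : S.f v ((l - 1) • x) = 0 := by rw [S.smul_r, hX1 x hx, mul_zero]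
    rw [map_mul, hmap x hx, hc', mul_assoc, comm_of_fix S (gx_fix e1) c, ← mul_assoc, ← S.t_add]
  · rintro _ ⟨x, hx, d, hd, rfl⟩ h
    obtain ⟨c, hc'⟩ := D1 d hd
    have e1 : S.f v ((l - 1) • x) = 0 := by rw [S.smul_r, hX1 x hx, mul_zero]
    have e1' : S.f v' ((l - 1) • x) = 0 := by rw [S.smul_r, hX1' x hx, mul_zero]
    have e2 : S.f x v = 0 := S.skew_eq (hX1 x hx)
    have h1 : S.t v (l ^ 2 - 1 - 1 + c) * gx S v ((l - 1) • x) = 1 := by
      rw [← h, map_mul, hmap x hx, hc', mul_assoc, comm_of_fix S (gx_fix e1) c, ← mul_assoc, ← S.t_add]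
    have h2 : S.ρ (S.t v (l ^ 2 - 1 - 1 + c) * gx S v ((l - 1) • x)) v' = v' := by rw [h1, S.ρone]
    rw [S.ρmul, gx_act e1, S.ht] at h2
    simp only [S.add_l, S.smul_l, S.alt, hv'v, e1', e2] at h2
    have h3 : (l - 1) • x = -((l ^ 2 - 1 - 1 + c + 1) • v) := by
      have h4 := congrArg (fun z => v' - z) h2
      simp only [sub_self] at h4
      have h5 : (l - 1) • x + ((l ^ 2 - 1 - 1 + c + 1) • v) = 0 := by
        rw [← h4]; module
      exact eq_neg_of_add_eq_zero_left h5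
    have h4 : l ^ 2 - 1 - 1 + c + 1 = 0 := by
      have h5 := congrArg (fun z => S.f v' z) h3
      simp only [e1', S.neg_r, S.smul_r, hv'v] at h5
      linear_combination -h5
    rw [h4, zero_smul, neg_zero] at h3
    have h5 : x = 0 := (smul_eq_zero.1 h3).resolve_left hl1'
    subst h5
    exact D2 _ (mul_mem hη0 hd) h
  · intro x hx c
    obtain ⟨d, hd, hd'⟩ := D5 (c - (l ^ 2 - 1 - 1))
    refine ⟨η ((l - 1)⁻¹ • x) * d, ⟨_, X₁.smul_mem _ hx, d, hd, rfl⟩, ?_⟩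
    rw [map_mul, hmap _ (X₁.smul_mem _ hx), hd', smul_smul, mul_inv_cancel₀ hl1', one_smul, mul_assoc,
      comm_of_fix S (gx_fix (hX1 x hx)), ← mul_assoc, ← S.t_add, add_sub_cancel]
  · rintro b hb _ ⟨x, hx, d, hd, rfl⟩
    have hbv : S.ρ (σ b) v = v := S.M_perp hb hX1
    have hbv' : S.ρ (σ b) v' = v' := S.M_perp hb hX1'
    refine ⟨S.ρ (σ b) x, S.M_pres hb hx, d, hd, ?_⟩
    have h1 := dcomm d hd b hbv
    have h2 : b * η x * b⁻¹ = η (S.ρ (σ b) x) := by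
      rw [hη, cm_conj hσ hc (rfl : σ b = σ b), gx_conj _ hbv, hη]
      congr 1
      rw [mul_inv_eq_iff_eq_mul]
      have c1 : ∀ a, Commute (σ b) (S.t v a) := fun a => comm_of_fix S hbv a
      have c2 : ∀ a, Commute (σ b) (S.t v' a) := fun a => comm_of_fix S hbv' a
      have c3 : ∀ a, Commute (σ b) (wv S v v' a) := fun a => ((c1 _).mul_right (c2 _)).mul_right (c1 _)
      exact (c3 _).mul_right (c3 _)
    calc b * (η x * d) * b⁻¹ = (b * η x * b⁻¹) * (b * d) * b⁻¹ := by group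
      _ = η (S.ρ (σ b) x) * d := by rw [h1, h2, mul_assoc, mul_inv_cancel_right]

end

end CfsgLib.SyM
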