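import Cfsg.Agent.LibSpCov7

set_option autoImplicit false
set_option maxHeartbeats 1000000
set_option linter.unusedSectionVars false

/-! Central extensions with kernel a `2`-group: the radical of a vector stabiliser, two field elements. -/

namespace CfsgLib.SyM

open Module CfsgLib.SuzM

section

variable {K V G : Type*} [Field K] [AddCommGroup V] [Module K V] [Group G] {S : Sy K V G}
variable {E : Type*} [Group E] {σ : E →* G} (hσ : Function.Surjective σ) (hc : σ.ker ≤ Subgroup.center E)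
variable [FiniteDimensional K V]

/-- equivariant lifts of transvections -/
theorem exists_tau (hVc : Vc S hσ hc) {w₀ : V} (hw₀ : w₀ ≠ 0) :
    ∃ τ : V → E, (∀ w, σ (τ w) = S.t w 1) ∧ (∀ e w, e * τ w * e⁻¹ = τ (S.ρ (σ e) w)) := by
  classical
  have hnd : ∀ w : V, w ≠ 0 → ∃ x ∈ (⊤ : Submodule K V), S.f w x ≠ 0 := by
    intro w hw
    by_contra hcon
    push Not at hcon
    exact hw (S.nd w (fun x => hcon x Submodule.mem_top))
  have hk : ∀ w : V, ∃ k : E, w ≠ 0 → S.ρ (σ k) w₀ = w := by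
    intro w
    by_cases hw : w = 0
    · exact ⟨1, fun h => absurd hw h⟩
    · obtain ⟨g, -, hg⟩ := S.exists_moveT (X := ⊤) (u := w₀) (v := w) Submodule.mem_top (hnd w₀ hw₀) (hnd w hw)
      obtain ⟨k, hk⟩ := hσ g
      exact ⟨k, fun _ => by rw [hk, hg]⟩
  choose k hk using hk
  obtain ⟨τ₀, hτ₀⟩ := hσ (S.t w₀ 1)
  obtain ⟨τ, hτ⟩ : ∃ τ : V → E, ∀ w, τ w = if w = 0 then 1 else k w * τ₀ * (k w)⁻¹ := ⟨_, fun w => rfl⟩
  refine ⟨τ, ?_, ?_⟩
  · intro w
    by_cases hw : w = 0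
    · rw [hτ, if_pos hw, map_one, hw, S.t_zero']
    · rw [hτ, if_neg hw, map_mul, map_mul, map_inv, hτ₀, S.t_conj, hk w hw]
  · intro e w
    by_cases hw : w = 0
    · rw [hw, map_zero, hτ, if_pos rfl, mul_one, mul_inv_cancel]
    · have hw' : S.ρ (σ e) w ≠ 0 := by
        intro h
        apply hw
        rw [← S.ρinv (σ e) w, h, map_zero]
      rw [hτ w, if_neg hw, hτ, if_neg hw']
      obtain ⟨w', hw'eq⟩ : ∃ w', w' = S.ρ (σ e) w := ⟨_, rfl⟩
      rw [← hw'eq] at hw' ⊢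
      obtain ⟨u, hu⟩ : ∃ u, u = (k w')⁻¹ * (e * k w) := ⟨_, rfl⟩
      have huw : S.ρ (σ u) w₀ = w₀ := by
        rw [hu, map_mul σ, map_mul σ, map_inv σ, S.ρmul, S.ρmul, hk w hw, ← hw'eq]
        have h9 := S.ρinv (σ (k w')) w₀
        rwa [hk w' hw'] at h9
      have h1 : u * τ₀ = τ₀ * u := vcomm hσ hc hVc hτ₀ huw
      calc e * (k w * τ₀ * (k w)⁻¹) * e⁻¹ = k w' * (u * τ₀) * u⁻¹ * (k w')⁻¹ := by rw [hu]; group
        _ = k w' * τ₀ * (k w')⁻¹ := by rw [h1]; group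

/-- transitivity on pairs -/
theorem exists_pair {v x y x' y' : V} (hx : S.f v x = 0) (hy : S.f v y = 0) (hx' : S.f v x' = 0) (hy' : S.f v y' = 0)
    (h1 : x ∉ Submodule.span K {v}) (h1' : x' ∉ Submodule.span K {v}) (h2 : y ∉ Submodule.span K {v, x})
    (h2' : y' ∉ Submodule.span K {v, x'}) (hxy : S.f x y = S.f x' y') :
    ∃ k, S.ρ k v = v ∧ S.ρ k x = x' ∧ S.ρ k y = y' := by
  obtain ⟨z, hz1, hz2⟩ := exists_partner (S := S) h1
  obtain ⟨z', hz1', hz2'⟩ := exists_partner (S := S) h1'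
  obtain ⟨k₁, hk₁, hk1x⟩ := S.exists_moveT (X := LinearMap.ker (S.f v)) (u := x) (v := x')
    (by change S.f v (x' - x) = 0; rw [S.sub_r, hx, hx', sub_zero]) ⟨z, hz1, by rw [hz2]; exact one_ne_zero⟩
    ⟨z', hz1', by rw [hz2']; exact one_ne_zero⟩
  have hk1v : S.ρ k₁ v = v := S.M_perp (S.T_le _ hk₁) (fun x hx => hx)
  obtain ⟨y₁, hy₁⟩ : ∃ y₁, y₁ = S.ρ k₁ y := ⟨_, rfl⟩
  have hvy1 : S.f v y₁ = 0 := by
    have := S.inv k₁ v y
    rw [hk1v, hy, ← hy₁] at this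
    exact this
  have hxy1 : S.f x' y₁ = S.f x' y' := by
    have := S.inv k₁ x y
    rw [hk1x, hxy, ← hy₁] at this
    exact this
  have h2₁ : y₁ ∉ Submodule.span K {v, x'} := by
    intro h
    apply h2
    obtain ⟨a, b, hab⟩ := Submodule.mem_span_pair.1 h
    refine Submodule.mem_span_pair.2 ⟨a, b, ?_⟩
    have h3 : S.ρ k₁ (a • v + b • x) = S.ρ k₁ y := by
      rw [map_add, map_smul, map_smul, hk1v, hk1x, hab, hy₁]
    rw [← S.ρinv k₁ (a • v + b • x), h3, S.ρinv]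
  obtain ⟨w, hw1, hw2⟩ := S.exists_perp h2₁
  obtain ⟨w', hw1', hw2'⟩ := S.exists_perp h2'
  have memv : v ∈ Submodule.span K {v, x'} := Submodule.subset_span (by simp)
  have memx : x' ∈ Submodule.span K {v, x'} := Submodule.subset_span (by simp)
  obtain ⟨k₂, hk₂, hk2y⟩ := S.exists_moveT (X := LinearMap.ker (S.f v) ⊓ LinearMap.ker (S.f x')) (u := y₁) (v := y')
    ⟨by change S.f v (y' - y₁) = 0; rw [S.sub_r, hvy1, hy', sub_zero],
      by change S.f x' (y' - y₁) = 0; rw [S.sub_r, hxy1, sub_self]⟩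
    ⟨w, ⟨S.skew_eq (hw1 v memv), S.skew_eq (hw1 x' memx)⟩, S.skew_ne (by rw [hw2]; exact one_ne_zero)⟩
    ⟨w', ⟨S.skew_eq (hw1' v memv), S.skew_eq (hw1' x' memx)⟩, S.skew_ne (by rw [hw2']; exact one_ne_zero)⟩
  have hk2v : S.ρ k₂ v = v := S.M_perp (S.T_le _ hk₂) (fun x hx => hx.1)
  have hk2x : S.ρ k₂ x' = x' := S.M_perp (S.T_le _ hk₂) (fun x hx => hx.2)
  refine ⟨k₂ * k₁, ?_, ?_, ?_⟩
  · rw [S.ρmul, hk1v, hk2v]
  · rw [S.ρmul, hk1x, hk2x]
  · rw [S.ρmul, ← hy₁, hk2y]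

/-- the complement in the radical, two field elements -/
theorem RIf_two (hVc : Vc S hσ hc) (hV : 8 ≤ finrank K V) (h2 : (2 : K) = 0) (hK : ∀ c : K, c = 0 ∨ c = 1)
    {v v' : V} (hvv' : S.f v v' = 1)
    {X₁ : Submodule K V} (hX1 : ∀ x ∈ X₁, S.f v x = 0) (hX1' : ∀ x ∈ X₁, S.f v' x = 0) : RIf S σ v X₁ := by
  classical
  have hv'v : S.f v' v = -1 := by rw [S.skew, hvv']
  have hv0 : v ≠ 0 := by rintro rfl; rw [S.zero_l] at hvv'; exact zero_ne_one hvv'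
  have neg1 : ∀ x : K, -x = x := fun x => by linear_combination (-x) * h2
  have sym : ∀ x y : V, S.f x y = S.f y x := fun x y => by rw [S.skew, neg1]
  have two : ∀ x : V, x + x = 0 := fun x => by rw [← two_smul K x, h2, zero_smul]
  obtain ⟨τ, hτ, hτe⟩ := exists_tau hσ hc hVc hv0
  have hcomm : ∀ u w, S.f u w = 0 → τ u * τ w = τ w * τ u := by
    intro u w h
    have h1 := hτe (τ u) w
    rw [hτ, S.t_fix (S.skew_eq h)] at h1
    exact mul_inv_eq_iff_eq_mul.1 h1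
  obtain ⟨ε, hε⟩ : ∃ ε, ε = τ v * τ v := ⟨_, rfl⟩
  have hεk : ε ∈ σ.ker := by
    rw [hε, MonoidHom.mem_ker, map_mul, hτ, ← S.t_add]
    have : (1 : K) + 1 = 0 := by linear_combination h2
    rw [this, S.t_zero]
  have hsq : ∀ w, w ≠ 0 → τ w * τ w = ε := by
    intro w hw
    have hnd : ∀ w : V, w ≠ 0 → ∃ x ∈ (⊤ : Submodule K V), S.f w x ≠ 0 := by
      intro w hw
      by_contra hcon
      push Not at hcon
      exact hw (S.nd w (fun x => hcon x Submodule.mem_top))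
    obtain ⟨g, -, hg⟩ := S.exists_moveT (X := ⊤) (u := v) (v := w) Submodule.mem_top (hnd v hv0) (hnd w hw)
    obtain ⟨k, hk⟩ := hσ g
    have h1 := hτe k v
    rw [hk, hg] at h1
    have h3 := Subgroup.mem_center_iff.1 (hc hεk) k
    calc τ w * τ w = k * (τ v * τ v) * k⁻¹ := by rw [← h1]; group
      _ = ε := by rw [← hε, h3, mul_inv_cancel_right]
  have cε : ∀ e, e * ε = ε * e := Subgroup.mem_center_iff.1 (hc hεk)
  obtain ⟨r, hr⟩ : ∃ r : V → E, ∀ x, r x = τ x * τ (x + v) := ⟨_, fun x => rfl⟩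
  have hσr : ∀ x, S.f v x = 0 → σ (r x) = gx S v x := by
    intro x hx
    have e1 : S.f x (x + v) = 0 := by rw [S.add_r, S.alt, S.skew_eq hx, add_zero]
    rw [hr, map_mul, hτ, hτ, gx, S.t_comm e1]
    congr 2
    exact (neg1 1).symm
  have hre : ∀ (e : E) (x : V), S.ρ (σ e) v = v → e * r x * e⁻¹ = r (S.ρ (σ e) x) := by
    intro e x he
    have e1 := hτe e x
    have e2 := hτe e (x + v)
    rw [map_add, he] at e2
    calc e * r x * e⁻¹ = (e * τ x * e⁻¹) * (e * τ (x + v) * e⁻¹) := by rw [hr]; group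
      _ = _ := by rw [e1, e2, ← hr]
  have hrv : ∀ x, S.f v x = 0 → r (x + v) = r x := by
    intro x hx
    rw [hr, hr, add_assoc, two, add_zero]
    apply hcomm
    rw [S.add_l, S.alt, hx, add_zero]
  have rcomm : ∀ x y, S.f v x = 0 → S.f v y = 0 → r y * r x = r x * r y := by
    intro x y hx hy
    have h1 := hre (r y) x (by rw [hσr y hy, gx_fix hy])
    rw [hσr y hy, gx_act hy, S.skew_eq hx, zero_smul, zero_smul, zero_add, zero_add] at h1
    have h3 : r (x + S.f x y • v) = r x := by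
      rcases hK (S.f x y) with h | h
      · rw [h, zero_smul, add_zero]
      · rw [h, one_smul, hrv x hx]
    rw [h3] at h1
    exact mul_inv_eq_iff_eq_mul.1 h1
  have rsq : ∀ x, S.f v x = 0 → x ∉ Submodule.span K {v} → r x * r x = ε * ε := by
    intro x hx hx1
    have hx0 : x ≠ 0 := by rintro rfl; exact hx1 (Submodule.zero_mem _)
    have hxv : x + v ≠ 0 := by
      intro h
      apply hx1
      rw [eq_neg_of_add_eq_zero_left h]
      exact Submodule.neg_mem _ (Submodule.mem_span_singleton_self v)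
    have h1 : τ (x + v) * τ x = τ x * τ (x + v) := by
      apply hcomm
      rw [S.add_l, S.alt, hx, add_zero]
    rw [hr]
    calc τ x * τ (x + v) * (τ x * τ (x + v)) = τ x * (τ (x + v) * τ x) * τ (x + v) := by group
      _ = (τ x * τ x) * (τ (x + v) * τ (x + v)) := by rw [h1]; group
      _ = ε * ε := by rw [hsq x hx0, hsq _ hxv]
  obtain ⟨θ, hθ⟩ : ∃ θ : V → V → E, ∀ x y, θ x y = r x * r y * (r (x + y))⁻¹ := ⟨_, fun x y => rfl⟩
  have hσθ : ∀ x y, S.f v x = 0 → S.f v y = 0 → σ (θ x y) = S.t v (1 + S.f y x) := by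
    intro x y hx hy
    have hxy : S.f v (x + y) = 0 := by rw [S.add_r, hx, hy, add_zero]
    rw [hθ, map_mul, map_mul, map_inv, hσr x hx, hσr y hy, hσr _ hxy, gx_mul hx hy, mul_inv_cancel_right]
  have θcomm : ∀ x y, S.f v x = 0 → S.f v y = 0 → ∀ e, S.ρ (σ e) v = v → e * θ x y = θ x y * e :=
    fun x y hx hy e he => vcomm hσ hc hVc (hσθ x y hx hy) he
  have θeq : ∀ x y x' y', S.f v x = 0 → S.f v y = 0 → S.f v x' = 0 → S.f v y' = 0 →
      x ∉ Submodule.span K {v} → x' ∉ Submodule.span K {v} → y ∉ Submodule.span K {v, x} → y' ∉ Submodule.span K {v, x'} →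
      S.f x y = S.f x' y' → θ x y = θ x' y' := by
    intro x y x' y' hx hy hx' hy' a1 a2 a3 a4 a5
    obtain ⟨g, hg1, hg2, hg3⟩ := exists_pair hx hy hx' hy' a1 a2 a3 a4 a5
    obtain ⟨e, rfl⟩ := hσ g
    have h1 : e * θ x y * e⁻¹ = θ x' y' := by
      have e1 := hre e x hg1
      have e2 := hre e y hg1
      have e3 := hre e (x + y) hg1
      rw [hg2] at e1
      rw [hg3] at e2
      rw [map_add, hg2, hg3] at e3
      calc e * θ x y * e⁻¹ = (e * r x * e⁻¹) * (e * r y * e⁻¹) * (e * r (x + y) * e⁻¹)⁻¹ := by rw [hθ]; group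
        _ = _ := by rw [e1, e2, e3, ← hθ]
    rw [← h1, θcomm x y hx hy e hg1, mul_inv_cancel_right]
  -- base pairs
  obtain ⟨x₀, h01, h02⟩ := exists_perp_indep (S := S) (D := Submodule.span K {v}) (by
    rw [finrank_span_singleton hv0]; omega)
  have hvx0 : S.f v x₀ = 0 := h01 v (Submodule.mem_span_singleton_self v)
  obtain ⟨y₀, hvy0, hxy0⟩ := exists_partner (S := S) h02
  have nspan : ∀ x y, S.f v x = 0 → S.f v y = 0 → S.f x y = 1 → x ∉ Submodule.span K {v} ∧ y ∉ Submodule.span K {v, x} := by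
    intro x y hx hy hxy
    constructor
    · intro h
      obtain ⟨c, rfl⟩ := Submodule.mem_span_singleton.1 h
      rw [S.smul_l, hy, mul_zero] at hxy
      exact zero_ne_one hxy
    · intro h
      obtain ⟨a, b, rfl⟩ := Submodule.mem_span_pair.1 h
      rw [S.add_r, S.smul_r, S.smul_r, S.alt, S.skew_eq hx] at hxy
      exact zero_ne_one (by rw [← hxy]; ring)
  obtain ⟨y₁, h11, h12⟩ := exists_perp_indep (S := S) (D := Submodule.span K {v, x₀}) (by
    have : finrank K (Submodule.span K {v, x₀}) ≤ 2 := by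
      have h6 := finrank_span_finset_le_card (R := K) ({v, x₀} : Finset V)
      have h7 : (({v, x₀} : Finset V) : Set V) = {v, x₀} := by simp
      rw [h7] at h6
      exact h6.trans Finset.card_le_two
    omega)
  have hvy1 : S.f v y₁ = 0 := h11 v (Submodule.subset_span (by simp))
  have hxy1 : S.f x₀ y₁ = 0 := h11 x₀ (Submodule.subset_span (by simp))
  obtain ⟨α, hα⟩ : ∃ α, α = θ x₀ y₀ := ⟨_, rfl⟩
  obtain ⟨ζ₀, hζ₀⟩ : ∃ ζ₀, ζ₀ = θ x₀ y₁ := ⟨_, rfl⟩
  have hαk : α ∈ σ.ker := by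
    rw [hα, MonoidHom.mem_ker, hσθ _ _ hvx0 hvy0, sym, hxy0]
    have : (1 : K) + 1 = 0 := by linear_combination h2
    rw [this, S.t_zero]
  have cα : ∀ e, e * α = α * e := Subgroup.mem_center_iff.1 (hc hαk)
  have hσζ₀ : σ ζ₀ = S.t v 1 := by
    rw [hζ₀, hσθ _ _ hvx0 hvy1, sym, hxy1, add_zero]
  have cζ₀ : ∀ e, S.ρ (σ e) v = v → e * ζ₀ = ζ₀ * e := fun e he => vcomm hσ hc hVc hσζ₀ he
  have relN : ∀ x y, S.f v x = 0 → S.f v y = 0 → S.f x y = 1 → r x * r y = α * r (x + y) := by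
    intro x y hx hy hxy
    obtain ⟨a1, a2⟩ := nspan x y hx hy hxy
    obtain ⟨b1, b2⟩ := nspan x₀ y₀ hvx0 hvy0 hxy0
    rw [hα, θeq x₀ y₀ x y hvx0 hvy0 hx hy b1 a1 b2 a2 (by rw [hxy0, hxy]), hθ, inv_mul_cancel_right]
  have relP : ∀ x y, S.f v x = 0 → S.f v y = 0 → S.f x y = 0 → x ∉ Submodule.span K {v} → y ∉ Submodule.span K {v, x} →
      r x * r y = ζ₀ * r (x + y) := by
    intro x y hx hy hxy a1 a2
    rw [hζ₀, θeq x₀ y₁ x y hvx0 hvy1 hx hy h02 a1 h12 a2 (by rw [hxy1, hxy]), hθ, inv_mul_cancel_right]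
  have hrfix : ∀ x, S.f v x = 0 → S.ρ (σ (r x)) v = v := fun x hx => by rw [hσr x hx, gx_fix hx]
  have sqα : α * α = ε * ε := by
    have f1 : S.f v (x₀ + y₀) = 0 := by rw [S.add_r, hvx0, hvy0, add_zero]
    have e1 := relN x₀ y₀ hvx0 hvy0 hxy0
    have e2 := relN y₀ (x₀ + y₀) hvy0 f1 (by rw [S.add_r, S.alt, sym, hxy0, add_zero])
    rw [show y₀ + (x₀ + y₀) = x₀ by rw [add_comm x₀, ← add_assoc, two, zero_add]] at e2
    have e3 := rsq y₀ hvy0 (nspan y₀ x₀ hvy0 hvx0 (by rw [sym, hxy0])).1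
    have e4 : (r x₀ * r y₀) * (r y₀ * r (x₀ + y₀)) = (α * r (x₀ + y₀)) * (α * r x₀) := by rw [e1, e2]
    have e5 : (r x₀ * r y₀) * (r y₀ * r (x₀ + y₀)) = ε * ε * (r x₀ * r (x₀ + y₀)) := by
      calc (r x₀ * r y₀) * (r y₀ * r (x₀ + y₀)) = r x₀ * (r y₀ * r y₀) * r (x₀ + y₀) := by group
        _ = r x₀ * (ε * ε) * r (x₀ + y₀) := by rw [e3]
        _ = _ := by
          have : r x₀ * (ε * ε) = ε * ε * r x₀ := by rw [← mul_assoc, cε, mul_assoc, cε, ← mul_assoc]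
          rw [this]; group
    have e6 : (α * r (x₀ + y₀)) * (α * r x₀) = α * α * (r x₀ * r (x₀ + y₀)) := by
      rw [← rcomm _ _ hvx0 f1]
      calc (α * r (x₀ + y₀)) * (α * r x₀) = α * (r (x₀ + y₀) * α) * r x₀ := by group
        _ = _ := by rw [cα]; group
    rw [e5, e6] at e4
    exact (mul_right_cancel e4).symm
  have sqζ₀ : ζ₀ * ζ₀ = ε * ε := by
    have f1 : S.f v (x₀ + y₁) = 0 := by rw [S.add_r, hvx0, hvy1, add_zero]
    have n1 : y₁ ∉ Submodule.span K {v} := fun h => h12 (Submodule.span_mono (by simp) h)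
    have n2 : x₀ + y₁ ∉ Submodule.span K {v, y₁} := by
      intro h
      obtain ⟨a, b, hab⟩ := Submodule.mem_span_pair.1 h
      rcases hK b with rfl | rfl
      · apply h12
        refine Submodule.mem_span_pair.2 ⟨a, -1, ?_⟩
        rw [zero_smul, add_zero] at hab
        rw [hab]; module
      · apply h02
        refine Submodule.mem_span_singleton.2 ⟨a, ?_⟩
        rw [one_smul] at hab
        exact add_right_cancel hab
    have e1 := relP x₀ y₁ hvx0 hvy1 hxy1 h02 h12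
    have e2 := relP y₁ (x₀ + y₁) hvy1 f1 (by rw [S.add_r, S.alt, sym, hxy1, add_zero]) n1 n2
    rw [show y₁ + (x₀ + y₁) = x₀ by rw [add_comm x₀, ← add_assoc, two, zero_add]] at e2
    have e3 := rsq y₁ hvy1 n1
    have e4 : (r x₀ * r y₁) * (r y₁ * r (x₀ + y₁)) = (ζ₀ * r (x₀ + y₁)) * (ζ₀ * r x₀) := by rw [e1, e2]
    have e5 : (r x₀ * r y₁) * (r y₁ * r (x₀ + y₁)) = ε * ε * (r x₀ * r (x₀ + y₁)) := by
      calc (r x₀ * r y₁) * (r y₁ * r (x₀ + y₁)) = r x₀ * (r y₁ * r y₁) * r (x₀ + y₁) := by group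
        _ = r x₀ * (ε * ε) * r (x₀ + y₁) := by rw [e3]
        _ = _ := by
          have : r x₀ * (ε * ε) = ε * ε * r x₀ := by rw [← mul_assoc, cε, mul_assoc, cε, ← mul_assoc]
          rw [this]; group
    have e6 : (ζ₀ * r (x₀ + y₁)) * (ζ₀ * r x₀) = ζ₀ * ζ₀ * (r x₀ * r (x₀ + y₁)) := by
      rw [← rcomm _ _ hvx0 f1]
      calc (ζ₀ * r (x₀ + y₁)) * (ζ₀ * r x₀) = ζ₀ * (r (x₀ + y₁) * ζ₀) * r x₀ := by group
        _ = _ := by rw [cζ₀ _ (hrfix _ f1)]; group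
    rw [e5, e6] at e4
    exact (mul_right_cancel e4).symm
  -- normalised elements
  have hX0 : ∀ x ∈ X₁, x ≠ 0 → x ∉ Submodule.span K {v} := by
    intro x hx hx0 h
    obtain ⟨c, rfl⟩ := Submodule.mem_span_singleton.1 h
    have := hX1' _ hx
    rw [S.smul_r, hv'v] at this
    have hc0 : c = 0 := by linear_combination -this
    exact hx0 (by rw [hc0, zero_smul])
  have hX2 : ∀ x ∈ X₁, ∀ y ∈ X₁, y ≠ 0 → x ≠ y → y ∉ Submodule.span K {v, x} := by
    intro x hx y hy hy0 hxy h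
    obtain ⟨a, b, hab⟩ := Submodule.mem_span_pair.1 h
    have h1 := congrArg (fun z => S.f v' z) hab
    simp only [S.add_r, S.smul_r, hv'v, hX1' x hx, hX1' y hy] at h1
    have ha : a = 0 := by linear_combination -h1
    rw [ha, zero_smul, zero_add] at hab
    rcases hK b with rfl | rfl
    · rw [zero_smul] at hab; exact hy0 hab.symm
    · rw [one_smul] at hab; exact hxy hab
  obtain ⟨ζ, hζ⟩ : ∃ ζ, ζ = ζ₀ * α⁻¹ := ⟨_, rfl⟩
  have hσζ : σ ζ = S.t v 1 := by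
    rw [hζ, map_mul, map_inv, hσζ₀, MonoidHom.mem_ker.1 hαk, inv_one, mul_one]
  have cζ : ∀ e, S.ρ (σ e) v = v → e * ζ = ζ * e := fun e he => vcomm hσ hc hVc hσζ he
  have cα' : ∀ e, e * α⁻¹ = α⁻¹ * e := fun e => by
    rw [eq_comm, inv_mul_eq_iff_eq_mul, ← mul_assoc, ← cα, mul_inv_cancel_right]
  have sqζ : ζ * ζ = 1 := by
    rw [hζ]
    calc ζ₀ * α⁻¹ * (ζ₀ * α⁻¹) = ζ₀ * (α⁻¹ * ζ₀) * α⁻¹ := by group
      _ = (ζ₀ * ζ₀) * (α * α)⁻¹ := by rw [← cα']; group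
      _ = 1 := by rw [sqζ₀, sqα, mul_inv_cancel]
  obtain ⟨ψ, hψ⟩ : ∃ ψ : V → E, ∀ x, ψ x = if x = 0 then 1 else r x * α⁻¹ := ⟨_, fun x => rfl⟩
  have ψ0 : ψ 0 = 1 := by rw [hψ, if_pos rfl]
  have ψ1 : ∀ x, x ≠ 0 → ψ x = r x * α⁻¹ := fun x hx => by rw [hψ, if_neg hx]
  have σψ : ∀ x ∈ X₁, x ≠ 0 → σ (ψ x) = gx S v x := by
    intro x hx hx0
    rw [ψ1 x hx0, map_mul, map_inv, MonoidHom.mem_ker.1 hαk, inv_one, mul_one, hσr x (hX1 x hx)]
  have ψfix : ∀ x ∈ X₁, S.ρ (σ (ψ x)) v = v := by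
    intro x hx
    by_cases hx0 : x = 0
    · rw [hx0, ψ0, map_one, S.ρone]
    · rw [σψ x hx hx0, gx_fix (hX1 x hx)]
  have ψsq : ∀ x ∈ X₁, ψ x * ψ x = 1 := by
    intro x hx
    by_cases hx0 : x = 0
    · rw [hx0, ψ0, one_mul]
    · rw [ψ1 x hx0]
      calc r x * α⁻¹ * (r x * α⁻¹) = r x * (α⁻¹ * r x) * α⁻¹ := by group
        _ = (r x * r x) * (α * α)⁻¹ := by rw [← cα']; group
        _ = 1 := by rw [rsq x (hX1 x hx) (hX0 x hx hx0), sqα, mul_inv_cancel]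
  have ψmul : ∀ x ∈ X₁, ∀ y ∈ X₁, ∃ n : ℕ, ψ x * ψ y = ψ (x + y) * ζ ^ n := by
    intro x hx y hy
    by_cases hx0 : x = 0
    · exact ⟨0, by rw [hx0, ψ0, one_mul, zero_add, pow_zero, mul_one]⟩
    by_cases hy0 : y = 0
    · exact ⟨0, by rw [hy0, ψ0, mul_one, add_zero, pow_zero, mul_one]⟩
    by_cases hxy : x = y
    · exact ⟨0, by rw [← hxy, two, ψ0, ψsq x hx, pow_zero, mul_one]⟩
    have hxy0 : x + y ≠ 0 := by
      intro h
      apply hxy
      have := eq_neg_of_add_eq_zero_left h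
      rw [this, ← neg_one_smul K y, neg1, one_smul]
    have h3 : ψ x * ψ y = (r x * r y) * (α⁻¹ * α⁻¹) := by
      rw [ψ1 x hx0, ψ1 y hy0]
      calc r x * α⁻¹ * (r y * α⁻¹) = r x * (α⁻¹ * r y) * α⁻¹ := by group
        _ = _ := by rw [← cα']; group
    rcases hK (S.f x y) with h | h
    · refine ⟨1, ?_⟩
      rw [h3, relP x y (hX1 x hx) (hX1 y hy) h (hX0 x hx hx0) (hX2 x hx y hy hy0 hxy), pow_one, ψ1 _ hxy0, hζ]
      have f1 : S.f v (x + y) = 0 := hX1 _ (X₁.add_mem hx hy)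
      calc ζ₀ * r (x + y) * (α⁻¹ * α⁻¹) = (ζ₀ * r (x + y)) * α⁻¹ * α⁻¹ := by group
        _ = r (x + y) * (ζ₀ * α⁻¹) * α⁻¹ := by rw [← cζ₀ _ (hrfix _ f1)]; group
        _ = r (x + y) * (α⁻¹ * (ζ₀ * α⁻¹)) := by rw [← cα' (ζ₀ * α⁻¹)]; group
        _ = _ := by group
    · refine ⟨0, ?_⟩
      rw [h3, relN x y (hX1 x hx) (hX1 y hy) h, pow_zero, mul_one, ψ1 _ hxy0]
      calc α * r (x + y) * (α⁻¹ * α⁻¹) = (r (x + y) * α) * (α⁻¹ * α⁻¹) := by rw [cα]
        _ = _ := by group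
  have cζn : ∀ (n : ℕ) e, S.ρ (σ e) v = v → e * ζ ^ n = ζ ^ n * e := by
    intro n e he
    exact (Commute.pow_right (show Commute e ζ from cζ e he) n).eq
  have σζn : ∀ n : ℕ, σ (ζ ^ n) = S.t v n := by
    intro n
    induction n with
    | zero => rw [pow_zero, map_one, Nat.cast_zero, S.t_zero]
    | succ n ih => rw [pow_succ, map_mul, ih, hσζ, Nat.cast_succ, S.t_add]
  have ζeven : ∀ n : ℕ, (n : K) = 0 → ζ ^ n = 1 := by
    intro n hn
    rcases Nat.even_or_odd' n with ⟨k, rfl | rfl⟩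
    · rw [pow_mul, pow_two, sqζ, one_pow]
    · exfalso
      push_cast at hn
      rw [h2, zero_mul, zero_add] at hn
      exact one_ne_zero hn
  refine ⟨{ carrier := {e | ∃ x ∈ X₁, ∃ n : ℕ, e = ψ x * ζ ^ n}
            one_mem' := ⟨0, X₁.zero_mem, 0, by rw [ψ0, pow_zero, mul_one]⟩
            mul_mem' := by
              rintro _ _ ⟨x, hx, n, rfl⟩ ⟨y, hy, m, rfl⟩
              obtain ⟨j, hj⟩ := ψmul x hx y hy
              refine ⟨x + y, X₁.add_mem hx hy, j + (n + m), ?_⟩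
              have h1 := cζn n (ψ y) (ψfix y hy)
              calc ψ x * ζ ^ n * (ψ y * ζ ^ m) = ψ x * (ζ ^ n * ψ y) * ζ ^ m := by group
                _ = (ψ x * ψ y) * (ζ ^ n * ζ ^ m) := by rw [← h1]; group
                _ = _ := by rw [hj, pow_add, pow_add]; group
            inv_mem' := by
              rintro _ ⟨x, hx, n, rfl⟩
              refine ⟨x, hx, n, ?_⟩
              rw [inv_eq_iff_mul_eq_one]
              have h1 := cζn n (ψ x) (ψfix x hx)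
              calc ψ x * ζ ^ n * (ψ x * ζ ^ n) = ψ x * (ζ ^ n * ψ x) * ζ ^ n := by group
                _ = (ψ x * ψ x) * (ζ ^ n * ζ ^ n) := by rw [← h1]; group
                _ = 1 := by rw [ψsq x hx, one_mul, ← (Commute.refl ζ).mul_pow, sqζ, one_pow] }, ?_, ?_, ?_, ?_⟩
  · rintro _ ⟨x, hx, n, rfl⟩
    by_cases hx0 : x = 0
    · refine ⟨0, X₁.zero_mem, n - 1, ?_⟩
      rw [hx0, ψ0, one_mul, σζn, gx_zero, ← S.t_add, sub_add_cancel]
    · refine ⟨x, hx, n, ?_⟩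
      rw [map_mul, σψ x hx hx0, σζn, comm_of_fix S (gx_fix (hX1 x hx))]
  · rintro _ ⟨x, hx, n, rfl⟩ h
    by_cases hx0 : x = 0
    · rw [hx0, ψ0, one_mul] at h ⊢
      rw [σζn] at h
      exact ζeven n (S.t_ne_one hv0 h)
    · exfalso
      rw [map_mul, σψ x hx hx0, σζn, comm_of_fix S (gx_fix (hX1 x hx))] at h
      have h3 : S.ρ (S.t v (n : K) * gx S v x) v' = v' := by rw [h, S.ρone]
      rw [S.ρmul, gx_act (hX1 x hx), S.ht] at h3
      have e2 : S.f x v = 0 := S.skew_eq (hX1 x hx)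
      simp only [S.add_l, S.smul_l, S.alt, hv'v, hX1' x hx, e2] at h3
      have h4 : x = -(((n : K) + 1) • v) := by
        have h5 := congrArg (fun z => v' - z) h3
        simp only [sub_self] at h5
        have h6 : x + ((n : K) + 1) • v = 0 := by
          rw [← h5]; module
        exact eq_neg_of_add_eq_zero_left h6
      apply hX0 x hx hx0
      rw [h4]
      exact Submodule.neg_mem _ (Submodule.smul_mem _ _ (Submodule.mem_span_singleton_self v))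
  · intro x hx c
    by_cases hx0 : x = 0
    · have hn : ∃ n : ℕ, (n : K) = c + 1 := by
        rcases hK c with rfl | rfl
        · exact ⟨1, by rw [Nat.cast_one, zero_add]⟩
        · exact ⟨0, by rw [Nat.cast_zero]; linear_combination -h2⟩
      obtain ⟨n, hn⟩ := hn
      refine ⟨ψ 0 * ζ ^ n, ⟨0, X₁.zero_mem, n, rfl⟩, ?_⟩
      rw [hx0, ψ0, one_mul, σζn, gx_zero, ← S.t_add, hn]
    · have hn : ∃ n : ℕ, (n : K) = c := by
        rcases hK c with rfl | rfl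
        · exact ⟨0, Nat.cast_zero⟩
        · exact ⟨1, Nat.cast_one⟩
      obtain ⟨n, hn⟩ := hn
      refine ⟨ψ x * ζ ^ n, ⟨x, hx, n, rfl⟩, ?_⟩
      rw [map_mul, σψ x hx hx0, σζn, comm_of_fix S (gx_fix (hX1 x hx)), hn]
  · rintro b hb _ ⟨x, hx, n, rfl⟩
    have hbv : S.ρ (σ b) v = v := S.M_perp hb hX1
    refine ⟨S.ρ (σ b) x, S.M_pres hb hx, n, ?_⟩
    have h1 := cζn n b hbv
    have h3 : b * ψ x * b⁻¹ = ψ (S.ρ (σ b) x) := by
      by_cases hx0 : x = 0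
      · rw [hx0, map_zero, ψ0, mul_one, mul_inv_cancel]
      · have hx0' : S.ρ (σ b) x ≠ 0 := by
          intro h
          apply hx0
          rw [← S.ρinv (σ b) x, h, map_zero]
        rw [ψ1 x hx0, ψ1 _ hx0', ← hre b x hbv]
        calc b * (r x * α⁻¹) * b⁻¹ = b * r x * (α⁻¹ * b⁻¹) := by group
          _ = _ := by rw [← cα']; group
    calc b * (ψ x * ζ ^ n) * b⁻¹ = (b * ψ x * b⁻¹) * (b * ζ ^ n) * b⁻¹ := by group
      _ = ψ (S.ρ (σ b) x) * ζ ^ n := by rw [h1, h3, mul_assoc, mul_inv_cancel_right]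

end

end CfsgLib.SyM
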