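import Cfsg.Agent.LibSpCov8

set_option autoImplicit false
set_option maxHeartbeats 1000000
set_option linter.unusedSectionVars false

/-! Perfect central extensions of symplectic groups are trivial. -/

namespace CfsgLib.SyM

open Module CfsgLib.SuzM

universe u

theorem split_ker {Γ : Type u} {G : Type*} [Group Γ] [Finite Γ] [Group G] (σ : Γ →* G) (hσ : Function.Surjective σ)
    (hc : σ.ker ≤ Subgroup.center Γ) (p : ℕ) [hp : Fact p.Prime]
    (h1 : ∀ (N : Subgroup Γ) [N.Normal] (τ : Γ ⧸ N →* G), Function.Surjective τ → τ.ker ≤ Subgroup.center (Γ ⧸ N) →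
      (∀ a ∈ τ.ker, ∃ k, a ^ (p ^ k) = 1) → τ.ker = ⊥)
    (h2 : (Nat.card σ.ker).Coprime p → σ.ker = ⊥) : σ.ker = ⊥ := by
  have hcomm : ∀ a ∈ σ.ker, ∀ b, b * a = a * b := fun a ha b => Subgroup.mem_center_iff.1 (hc ha) b
  let N : Subgroup Γ :=
    { carrier := {a | a ∈ σ.ker ∧ ∃ n : ℕ, n.Coprime p ∧ a ^ n = 1}
      one_mem' := ⟨one_mem _, 1, Nat.coprime_one_left p, one_pow 1⟩
      mul_mem' := by
        rintro a b ⟨ha, n, hn, han⟩ ⟨hb, m, hm, hbm⟩
        refine ⟨mul_mem ha hb, n * m, Nat.Coprime.mul_left hn hm, ?_⟩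
        have h : Commute a b := hcomm b hb a
        rw [h.mul_pow, pow_mul, han, one_pow, one_mul, mul_comm, pow_mul, hbm, one_pow]
      inv_mem' := by
        rintro a ⟨ha, n, hn, han⟩
        exact ⟨inv_mem ha, n, hn, by rw [inv_pow, han, inv_one]⟩ }
  have hNk : N ≤ σ.ker := fun a ha => ha.1
  haveI : N.Normal := ⟨fun a ha g => by
    have : g * a * g⁻¹ = a := by rw [hcomm a (hNk ha) g, mul_inv_cancel_right]
    rwa [this]⟩
  let τ : Γ ⧸ N →* G := QuotientGroup.lift N σ (fun a ha => hNk ha)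
  have hτ : ∀ x : Γ, τ (x : Γ ⧸ N) = σ x := fun x => rfl
  have hτk : ∀ x : Γ, (x : Γ ⧸ N) ∈ τ.ker → x ∈ σ.ker := fun x hx => hx
  have hker : τ.ker = ⊥ := by
    apply h1 N τ
    · intro g
      obtain ⟨x, hx⟩ := hσ g
      exact ⟨(x : Γ ⧸ N), hx⟩
    · intro y hy
      obtain ⟨x, rfl⟩ := QuotientGroup.mk_surjective y
      rw [Subgroup.mem_center_iff]
      intro z
      obtain ⟨w, rfl⟩ := QuotientGroup.mk_surjective z
      have := hcomm x (hτk x hy) w
      change ((w * x : Γ) : Γ ⧸ N) = ((x * w : Γ) : Γ ⧸ N)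
      rw [this]
    · intro y hy
      obtain ⟨x, rfl⟩ := QuotientGroup.mk_surjective y
      obtain ⟨k, m, hm, hkm⟩ := Nat.exists_eq_pow_mul_and_not_dvd (orderOf_pos x).ne' p hp.out.ne_one
      refine ⟨k, ?_⟩
      change ((x ^ (p ^ k) : Γ) : Γ ⧸ N) = 1
      rw [QuotientGroup.eq_one_iff]
      refine ⟨σ.ker.pow_mem (hτk x hy) _, m, ?_, ?_⟩
      · rw [Nat.coprime_comm]; exact (Nat.Prime.coprime_iff_not_dvd hp.out).2 hm
      · rw [← pow_mul, ← hkm, pow_orderOf_eq_one]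
  apply h2
  rw [Nat.coprime_comm, Nat.Prime.coprime_iff_not_dvd hp.out]
  intro hdvd
  obtain ⟨a, ha⟩ := exists_prime_orderOf_dvd_card' p hdvd
  have h3 : ((a : Γ) : Γ ⧸ N) ∈ τ.ker := a.2
  rw [hker, Subgroup.mem_bot, QuotientGroup.eq_one_iff] at h3
  obtain ⟨-, n, hn, han⟩ := h3
  have h4 : orderOf (a : Γ) = p := by rw [Subgroup.orderOf_coe]; exact ha
  have h5 : p ∣ n := by rw [← h4]; exact orderOf_dvd_of_pow_eq_one han
  have h6 := (Nat.Prime.coprime_iff_not_dvd hp.out).1 (Nat.coprime_comm.1 hn)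
  exact h6 h5

/-- admissible fields and dimensions -/
def Adm (K V : Type*) [Field K] [AddCommGroup V] [Module K V] : Prop :=
  (∃ l : K, l ≠ 0 ∧ l ^ 2 ≠ 1) ∨ ((2 : K) ≠ 0 ∧ ∀ c : K, c = 0 ∨ c = 1 ∨ c = -1) ∨
    ((2 : K) = 0 ∧ (∀ c : K, c = 0 ∨ c = 1) ∧ 8 ≤ finrank K V)

variable {K V G : Type*} [Field K] [Finite K] [AddCommGroup V] [Module K V] [FiniteDimensional K V] [Group G] (S : Sy K V G)

include S in
theorem ker_bot_p {E : Type*} [Group E] [Finite E] {σ : E →* G} (hσ : Function.Surjective σ)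
    (hc : σ.ker ≤ Subgroup.center E) (hE : commutator E = ⊤) (p : ℕ) [hp : Fact p.Prime] [CharP K p]
    (hA : ∀ a ∈ σ.ker, ∃ k, a ^ (p ^ k) = 1) (hV : 4 ≤ finrank K V) (hcase : Adm K V) : σ.ker = ⊥ := by
  have hVc : Vc S hσ hc := vc_of hσ hc p hA hV hcase
  have hR : ∀ (v v' : V) (X₁ : Submodule K V), S.f v v' = 1 → Nd S X₁ → (∀ x ∈ X₁, S.f v x = 0) → (∀ x ∈ X₁, S.f v' x = 0) →
      RIf S σ v X₁ := by
    intro v v' X₁ hvv' _ hX hX'
    rcases hcase with ⟨l, hl, hl2⟩ | ⟨h2, -⟩ | ⟨h2, hK, h8⟩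
    · exact RIf_large hσ hc hVc hV hvv' hl (by rintro rfl; exact hl2 (one_pow 2)) hX hX'
    · refine RIf_large hσ hc hVc hV hvv' (l := -1) (neg_ne_zero.2 one_ne_zero) ?_ hX hX'
      intro h
      apply h2
      linear_combination -h
    · exact RIf_two hσ hc hVc h8 h2 hK hvv' hX hX'
  have hnd : Nd S (⊤ : Submodule K V) := by
    intro x _ hx
    by_contra hcon
    push Not at hcon
    exact hx (S.nd x (fun w => hcon w Submodule.mem_top))
  have h1 := Pc_all (S := S) hc (p := p) hσ hA hR _ ⊤ le_rfl hnd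
  have htop : Mt S σ (⊤ : Submodule K V) = ⊤ := by
    rw [eq_top_iff]
    intro x _ v
    exact Submodule.mem_top
  rw [eq_bot_iff]
  intro a ha
  rw [Subgroup.mem_bot]
  apply h1 a ha
  rw [htop, ← commutator_def, hE]
  exact Subgroup.mem_top a

include S in
theorem ker_bot_p' {E : Type*} [Group E] [Finite E] {σ : E →* G} (hσ : Function.Surjective σ)
    (hc : σ.ker ≤ Subgroup.center E) (hE : commutator E = ⊤) (p : ℕ) [hp : Fact p.Prime] [CharP K p]
    (hA : (Nat.card σ.ker).Coprime p) : σ.ker = ⊥ := by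
  obtain ⟨L⟩ := exists_Ld hσ hc p hA
  have h1 := TE_main (S := S) L _ (⊤ : Submodule K V) le_rfl
  have hdec : ∀ e : E, ∃ t ∈ TE S L (⊤ : Submodule K V), ∃ a ∈ σ.ker, e = t * a := by
    intro e
    obtain ⟨t, ht, hte⟩ := exists_TE S L (X := ⊤) (g := σ e) (fun v => Submodule.mem_top)
    exact ⟨t, ht, t⁻¹ * e, by rw [MonoidHom.mem_ker, map_mul, map_inv, hte, inv_mul_cancel], by group⟩
  have htop : TE S L (⊤ : Submodule K V) = ⊤ := by
    rw [eq_top_iff, ← hE, commutator_def, Subgroup.commutator_le]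
    intro x _ y _
    obtain ⟨t, ht, a, ha, rfl⟩ := hdec x
    obtain ⟨t', ht', a', ha', rfl⟩ := hdec y
    have h2 : (t * a) * (t' * a') * (t * a)⁻¹ * (t' * a')⁻¹ = t * t' * t⁻¹ * t'⁻¹ := by
      apply comm_lift hc
      · rw [map_mul, MonoidHom.mem_ker.1 ha, mul_one]
      · rw [map_mul, MonoidHom.mem_ker.1 ha', mul_one]
    rw [commutatorElement_def, h2]
    exact mul_mem (mul_mem (mul_mem ht ht') (inv_mem ht)) (inv_mem ht')
  rw [eq_bot_iff]
  intro a ha
  rw [Subgroup.mem_bot]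
  exact h1 a (by rw [htop]; exact Subgroup.mem_top a) ha

include S in
theorem sp_ker_bot {E : Type u} [Group E] [Finite E] {σ : E →* G} (hσ : Function.Surjective σ)
    (hc : σ.ker ≤ Subgroup.center E) (hE : commutator E = ⊤) (hV : 4 ≤ finrank K V) (hcase : Adm K V) : σ.ker = ⊥ := by
  obtain ⟨p, hpc⟩ := CharP.exists K
  haveI : Fintype K := Fintype.ofFinite K
  haveI hp : Fact p.Prime := ⟨CharP.char_is_prime K p⟩
  apply split_ker σ hσ hc p
  · intro N _ τ hτ hτc hτA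
    refine ker_bot_p S hτ hτc ?_ p hτA hV hcase
    have h1 : (commutator E).map (QuotientGroup.mk' N) = commutator (E ⧸ N) := by
      rw [commutator_def, Subgroup.map_commutator, ← MonoidHom.range_eq_map,
        MonoidHom.range_eq_top.2 (QuotientGroup.mk'_surjective N)]
      rfl
    rw [← h1, hE, ← MonoidHom.range_eq_map, MonoidHom.range_eq_top.2 (QuotientGroup.mk'_surjective N)]
  · intro h
    exact ker_bot_p' S hσ hc hE p h

end CfsgLib.SyM
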