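import Cfsg.Agent.LibDec29e
import Cfsg.Agent.LibSp29a

/-! Orthogonal decompositions invariant under an isometry of prime order of an alternating form (seat helper29). -/

namespace CfsgLib.SpD29

open Module CfsgLib.Semi29 CfsgLib.Invo29 CfsgLib.Sp29 CfsgLib.Dec29 Polynomial

variable {F V : Type*} [Field F] [AddCommGroup V] [Module F V]

/-- orthogonal complement of a nondegenerate invariant subspace -/
lemma orth_compl [FiniteDimensional F V] (f : V →ₗ[F] V →ₗ[F] F) (halt : ∀ v, f v v = 0) {x : V →ₗ[F] V} {r : ℕ} (hr : 0 < r)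
    (hx : x ^ r = 1) (hiso : ∀ u v, f (x u) (x v) = f u v) {R W : Submodule F V} (hRi : Inv x R) (hRN : NDon f R) (hW : Inv x W)
    (hWN : NDon f W) (hRW : R ≤ W) :
    ∃ C ≤ W, Inv x C ∧ NDon f C ∧ R ⊓ C = ⊥ ∧ R ⊔ C = W ∧ ∀ u ∈ R, ∀ v ∈ C, f u v = 0 := by
  have skew := skew_of_alt f halt
  have hrefl : ∀ u v, f u v = 0 → f v u = 0 := fun u v h => by rw [skew, h, neg_zero]
  let B : LinearMap.BilinForm F V := f
  have hBr : B.IsRefl := fun u v h => hrefl u v h
  have hdis : Disjoint R (B.orthogonal R) := by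
    rw [Submodule.disjoint_def]
    intro u hu hu2
    refine hRN u hu fun v hv => hrefl _ _ ?_
    exact (LinearMap.BilinForm.mem_orthogonal_iff.1 hu2) v hv
  have hcom : IsCompl R (B.orthogonal R) := (LinearMap.BilinForm.isCompl_orthogonal_iff_disjoint hBr).2 hdis
  have hC1 : ∀ c ∈ W ⊓ B.orthogonal R, ∀ u ∈ R, f u c = 0 := fun c hc u hu => (LinearMap.BilinForm.mem_orthogonal_iff.1 hc.2) u hu
  have hsup : R ⊔ (W ⊓ B.orthogonal R) = W := by
    apply le_antisymm (sup_le hRW inf_le_left)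
    intro w hw
    have : w ∈ R ⊔ B.orthogonal R := by rw [hcom.sup_eq_top]; exact Submodule.mem_top
    obtain ⟨u, hu, c, hc, rfl⟩ := Submodule.mem_sup.1 this
    refine Submodule.add_mem_sup hu ⟨?_, hc⟩
    have := W.sub_mem hw (hRW hu)
    simpa using this
  refine ⟨W ⊓ B.orthogonal R, inf_le_left, ?_, ?_, (hdis.mono_right inf_le_right).eq_bot, hsup, fun u hu v hv => hC1 v hv u hu⟩
  · intro c hc
    refine ⟨hW c hc.1, ?_⟩
    refine LinearMap.BilinForm.mem_orthogonal_iff.2 fun u hu => ?_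
    show f u (x c) = 0
    have e1 : x ((x ^ (r - 1)) u) = u := by
      rw [← Module.End.mul_apply, ← pow_succ', Nat.sub_add_cancel hr, hx, Module.End.one_apply]
    rw [← e1, hiso]
    exact hC1 c hc _ (mem_pow hRi _ u hu)
  · intro u hu huv
    refine hWN u hu.1 fun w hw => ?_
    rw [← hsup] at hw
    obtain ⟨v, hv, c, hc, rfl⟩ := Submodule.mem_sup.1 hw
    rw [map_add, huv c hc, hrefl _ _ (hC1 u hu v hv), add_zero]

/-- the fixed part is nondegenerate -/
lemma fix_nondeg [FiniteDimensional F V] (f : V →ₗ[F] V →ₗ[F] F) {x : V →ₗ[F] V} (hss : Semi x)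
    (hiso : ∀ u v, f (x u) (x v) = f u v) {W : Submodule F V} (hW : Inv x W) (hWN : NDon f W) : NDon f (W ⊓ Fx x) := by
  obtain ⟨C, hC, hCi, hC1, hC2⟩ := rel_compl hss (hW.inf (inv_Fx x)) hW inf_le_left
  have hCF : C ⊓ Fx x = ⊥ := by
    rw [eq_bot_iff, ← hC1]
    exact le_inf (le_inf (inf_le_left.trans hC) inf_le_right) inf_le_left
  have hsurj : ∀ d ∈ C, ∃ d' ∈ C, x d' - d' = d := by
    let g : C →ₗ[F] C := (x - LinearMap.id).restrict (p := C) (q := C) (fun u hu => C.sub_mem (hCi u hu) hu)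
    have hinj : Function.Injective g := by
      rw [← LinearMap.ker_eq_bot, eq_bot_iff]
      intro u hu
      have h1 : x u - (u : V) = 0 := congrArg Subtype.val hu
      have h2 : (u : V) ∈ C ⊓ Fx x := ⟨u.2, mem_Fx.2 (sub_eq_zero.1 h1)⟩
      rw [hCF] at h2
      exact Subtype.ext h2
    intro d hd
    obtain ⟨d', hd'⟩ := (LinearMap.injective_iff_surjective.1 hinj) ⟨d, hd⟩
    exact ⟨d', d'.2, congrArg Subtype.val hd'⟩
  intro u hu h
  refine hWN u hu.1 fun w hw => ?_
  rw [← hC2] at hw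
  obtain ⟨v, hv, d, hd, rfl⟩ := Submodule.mem_sup.1 hw
  rw [map_add, h v hv, zero_add]
  obtain ⟨d', -, rfl⟩ := hsurj d hd
  have h1 := hiso u d'
  rw [mem_Fx.1 hu.2] at h1
  rw [map_sub, h1, sub_self]

/-- cyclic subspaces killed by irreducible polynomials are minimal -/
lemma min_of_irred (x : V →ₗ[F] V) (P : F[X]) (hP : Irreducible P) (u : V) (hu0 : u ≠ 0) (hu : (aeval x P) u = 0)
    {T : Submodule F V} (hT : Inv x T) (huT : u ∈ T) : ∃ S ≤ T, IsMinInv x S ∧ u ∈ S := by
  let φ : F[X] →ₗ[F] V := (LinearMap.applyₗ u) ∘ₗ (aeval x).toLinearMap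
  have hφ : ∀ g, φ g = (aeval x g) u := fun g => rfl
  refine ⟨LinearMap.range φ, ?_, ⟨?_, ?_, ?_⟩, ⟨1, by rw [hφ, map_one, Module.End.one_apply]⟩⟩
  · rintro _ ⟨g, rfl⟩
    exact aeval_mem hT g u huT
  · intro h
    have : φ 1 ∈ LinearMap.range φ := ⟨1, rfl⟩
    rw [h, Submodule.mem_bot, hφ, map_one, Module.End.one_apply] at this
    exact hu0 this
  · rintro _ ⟨g, rfl⟩
    refine ⟨X * g, ?_⟩
    rw [hφ, hφ, map_mul, aeval_X, Module.End.mul_apply]
  · intro W hWS hW
    by_cases hb : W = ⊥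
    · left; exact hb
    right
    apply le_antisymm hWS
    obtain ⟨w, hw, hw0⟩ := (Submodule.ne_bot_iff W).1 hb
    obtain ⟨g, rfl⟩ := hWS hw
    have hcop : IsCoprime P g := by
      refine (hP.coprime_iff_not_dvd).2 ?_
      rintro ⟨k, rfl⟩
      apply hw0
      rw [hφ, mul_comm, map_mul, Module.End.mul_apply, hu, map_zero]
    obtain ⟨α, β, hαβ⟩ := hcop
    have huW : u ∈ W := by
      have h1 : u = (aeval x β) (φ g) := by
        have h2 := congrArg (fun k => (aeval x k) u) hαβ
        simp only [map_add, map_mul, map_one, LinearMap.add_apply, Module.End.mul_apply, hu, map_zero, zero_add] at h2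
        exact h2.symm
      rw [h1]
      exact aeval_mem hW β _ hw
    rintro _ ⟨k, rfl⟩
    exact aeval_mem hW k u huW

lemma aeval_adj (f : V →ₗ[F] V →ₗ[F] F) {x y : V →ₗ[F] V} (hxy : ∀ u v, f u (x v) = f (y u) v) (P : F[X]) (u v : V) :
    f u ((aeval x P) v) = f ((aeval y P) u) v := by
  have hpow : ∀ (k : ℕ) (u v : V), f u ((x ^ k) v) = f ((y ^ k) u) v := by
    intro k
    induction k with
    | zero => intro u v; simp
    | succ k ih => intro u v; rw [pow_succ', Module.End.mul_apply, hxy, ih, pow_succ, Module.End.mul_apply]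
  induction P using Polynomial.induction_on' with
  | add P Q hP hQ => rw [map_add, map_add, LinearMap.add_apply, LinearMap.add_apply, map_add, map_add, LinearMap.add_apply, hP, hQ]
  | monomial n a =>
    rw [aeval_monomial, aeval_monomial, Module.End.mul_apply, Module.End.mul_apply, Module.algebraMap_end_apply, Module.algebraMap_end_apply,
      map_smul, map_smul, LinearMap.smul_apply, hpow]

lemma expand_card_pow [Fintype F] (k : ℕ) (P : F[X]) : expand F (Fintype.card F ^ k) P = P ^ (Fintype.card F ^ k) := by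
  induction k with
  | zero => rw [pow_zero, expand_one, pow_one]
  | succ k ih => rw [pow_succ, mul_comm, ← expand_expand, ih, FiniteField.expand_card, ← pow_mul, mul_comm]

/-- a nondegenerate invariant subspace of dimension `c` -/
theorem exists_nd_block [Fintype F] [FiniteDimensional F V] {p : ℕ} [Fact p.Prime] [CharP F p] (f : V →ₗ[F] V →ₗ[F] F) (halt : ∀ v, f v v = 0)
    {x : V →ₗ[F] V} {r : ℕ} [hr : Fact r.Prime] (hrp : r ≠ p) (hr2 : r ≠ 2) (hx : x ^ r = 1) (hiso : ∀ u v, f (x u) (x v) = f u v)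
    {i c : ℕ} (hi : i = orderOf ((Fintype.card F : ℕ) : ZMod r)) (hc : c = if Even i then i else 2 * i)
    {C : Submodule F V} (hC : Inv x C) (hCN : NDon f C) (hC0 : C ≠ ⊥) (hCF : C ⊓ Fx x = ⊥) :
    ∃ R ≤ C, Inv x R ∧ NDon f R ∧ finrank F R = c := by
  have skew := skew_of_alt f halt
  have hrefl : ∀ u v, f u v = 0 → f v u = 0 := fun u v h => by rw [skew, h, neg_zero]
  have hss : Semi x := semi_of_pow hr.out hrp one_ne_zero x (by rw [hx, one_smul])
  have hdim : Dim x i := by rw [hi]; exact dim_of_pow hrp x hx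
  have hmind : ∀ R ≤ C, IsMinInv x R → finrank F R = i := fun R hR hR2 => hdim R hR2 (min_nonfix hCF hR hR2)
  by_cases hex : ∃ R ≤ C, IsMinInv x R ∧ NDon f R
  · obtain ⟨R, hRC, hR, hRN⟩ := hex
    have h1 := hmind R hRC hR
    have h2 := even_sub f halt R hRN
    rw [h1] at h2
    exact ⟨R, hRC, hR.2.1, hRN, by rw [h1, hc, if_pos h2]⟩
  -- all minimal invariant subspaces are isotropic
  have hisot : ∀ R ≤ C, IsMinInv x R → ∀ u ∈ R, ∀ v ∈ R, f u v = 0 := by
    intro R hRC hR
    by_contra hcon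
    apply hex
    refine ⟨R, hRC, hR, ?_⟩
    have hinv : Inv x (R ⊓ LinearMap.BilinForm.orthogonal (f : LinearMap.BilinForm F V) R) := by
      intro u hu
      refine ⟨hR.2.1 u hu.1, ?_⟩
      refine LinearMap.BilinForm.mem_orthogonal_iff.2 fun v hv => ?_
      show f v (x u) = 0
      have e1 : x ((x ^ (r - 1)) v) = v := by
        rw [← Module.End.mul_apply, ← pow_succ', Nat.sub_add_cancel hr.out.pos, hx, Module.End.one_apply]
      rw [← e1, hiso]
      exact (LinearMap.BilinForm.mem_orthogonal_iff.1 hu.2) _ (mem_pow hR.2.1 _ v hv)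
    rcases hR.2.2 _ inf_le_left hinv with h | h
    · intro u hu huv
      have : u ∈ R ⊓ LinearMap.BilinForm.orthogonal (f : LinearMap.BilinForm F V) R :=
        ⟨hu, LinearMap.BilinForm.mem_orthogonal_iff.2 fun v hv => hrefl _ _ (huv v hv)⟩
      rw [h] at this
      exact this
    · exfalso
      apply hcon
      intro u hu v hv
      have hv' : v ∈ R ⊓ LinearMap.BilinForm.orthogonal (f : LinearMap.BilinForm F V) R := by rw [h]; exact hv
      exact (LinearMap.BilinForm.mem_orthogonal_iff.1 hv'.2) u hu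
  obtain ⟨R, hRC, hR⟩ := exists_minInv x _ C rfl hC0 hC
  -- the orthogonal of `R` in `C`
  have hOinv : Inv x (C ⊓ LinearMap.BilinForm.orthogonal (f : LinearMap.BilinForm F V) R) := by
    intro u hu
    refine ⟨hC u hu.1, ?_⟩
    refine LinearMap.BilinForm.mem_orthogonal_iff.2 fun v hv => ?_
    show f v (x u) = 0
    have e1 : x ((x ^ (r - 1)) v) = v := by
      rw [← Module.End.mul_apply, ← pow_succ', Nat.sub_add_cancel hr.out.pos, hx, Module.End.one_apply]
    rw [← e1, hiso]
    exact (LinearMap.BilinForm.mem_orthogonal_iff.1 hu.2) _ (mem_pow hR.2.1 _ v hv)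
  obtain ⟨K, hKC, hKi, hK1, hK2⟩ := rel_compl hss hOinv hC inf_le_left
  have hK0 : K ≠ ⊥ := by
    intro hK
    rw [hK, sup_bot_eq] at hK2
    obtain ⟨v, hv, hv0⟩ := (Submodule.ne_bot_iff R).1 hR.1
    apply hv0
    refine hCN v (hRC hv) fun w hw => ?_
    rw [← hK2] at hw
    exact (LinearMap.BilinForm.mem_orthogonal_iff.1 hw.2) v hv
  obtain ⟨R1, hR1K, hR1⟩ := exists_minInv x _ K rfl hK0 hKi
  have hR1C : R1 ≤ C := hR1K.trans hKC
  have hR1O : ∀ w ∈ R1, (∀ u ∈ R, f u w = 0) → w = 0 := by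
    intro w hw h
    have : w ∈ C ⊓ LinearMap.BilinForm.orthogonal (f : LinearMap.BilinForm F V) R ⊓ K :=
      ⟨⟨hR1C hw, LinearMap.BilinForm.mem_orthogonal_iff.2 fun v hv => h v hv⟩, hR1K hw⟩
    rw [hK1] at this
    exact this
  have hRO : ∀ u ∈ R, (∀ w ∈ R1, f u w = 0) → u = 0 := by
    have hinv : Inv x (R ⊓ LinearMap.BilinForm.orthogonal (f : LinearMap.BilinForm F V) R1) := by
      intro u hu
      refine ⟨hR.2.1 u hu.1, ?_⟩
      refine LinearMap.BilinForm.mem_orthogonal_iff.2 fun v hv => ?_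
      show f v (x u) = 0
      have e1 : x ((x ^ (r - 1)) v) = v := by
        rw [← Module.End.mul_apply, ← pow_succ', Nat.sub_add_cancel hr.out.pos, hx, Module.End.one_apply]
      rw [← e1, hiso]
      exact (LinearMap.BilinForm.mem_orthogonal_iff.1 hu.2) _ (mem_pow hR1.2.1 _ v hv)
    rcases hR.2.2 _ inf_le_left hinv with h | h
    · intro u hu huw
      have : u ∈ R ⊓ LinearMap.BilinForm.orthogonal (f : LinearMap.BilinForm F V) R1 :=
        ⟨hu, LinearMap.BilinForm.mem_orthogonal_iff.2 fun v hv => hrefl _ _ (huw v hv)⟩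
      rw [h] at this
      exact this
    · exfalso
      obtain ⟨w, hw, hw0⟩ := (Submodule.ne_bot_iff R1).1 hR1.1
      apply hw0
      refine hR1O w hw fun u hu => ?_
      have hu' : u ∈ R ⊓ LinearMap.BilinForm.orthogonal (f : LinearMap.BilinForm F V) R1 := by rw [h]; exact hu
      exact hrefl _ _ ((LinearMap.BilinForm.mem_orthogonal_iff.1 hu'.2) w hw)
  have hTN : NDon f (R ⊔ R1) := by
    intro t ht h
    obtain ⟨u, hu, w, hw, rfl⟩ := Submodule.mem_sup.1 ht
    have h1 : w = 0 := by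
      refine hR1O w hw fun v hv => ?_
      have h2 := h v (Submodule.mem_sup_left hv)
      rw [map_add, LinearMap.add_apply, hisot R hRC hR u hu v hv, zero_add] at h2
      exact hrefl _ _ h2
    subst h1
    rw [add_zero]
    refine hRO u hu fun v hv => ?_
    have h2 := h v (Submodule.mem_sup_right hv)
    rw [add_zero] at h2
    exact h2
  have hTi : Inv x (R ⊔ R1) := Inv.sup hR.2.1 hR1.2.1
  have hRR1 : R ⊓ R1 = ⊥ := by
    rw [eq_bot_iff]
    rintro u ⟨hu, hu1⟩
    exact hR1O u hu1 fun v hv => hisot R hRC hR v hv u hu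
  have hTd : finrank F (R ⊔ R1 : Submodule F V) = 2 * i := by
    rw [finrank_add hRR1 rfl, hmind R hRC hR, hmind R1 hR1C hR1]; ring
  by_cases hev : Even i
  · exfalso
    obtain ⟨P, hP1, hP2, hP3⟩ := exists_factor x R hR (X ^ r - 1) (by
      intro u _
      rw [map_sub, map_pow, aeval_X, map_one, hx, sub_self]; rfl) (by
      have := X_pow_sub_C_ne_zero (R := F) hr.out.pos 1
      simpa using this)
    -- inverse
    have hi0 : 0 < i := by
      rw [← hmind R hRC hR]
      rw [Module.finrank_pos_iff]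
      exact Submodule.nontrivial_iff_ne_bot.2 hR.1
    obtain ⟨j, hj⟩ := hev
    have hqj : ((Fintype.card F : ℕ) : ZMod r) ^ j = -1 := by
      have h1 : ((Fintype.card F : ℕ) : ZMod r) ^ j * ((Fintype.card F : ℕ) : ZMod r) ^ j = 1 := by
        rw [← pow_add, ← hj, hi, pow_orderOf_eq_one]
      rcases mul_self_eq_one_iff.1 h1 with h2 | h2
      · exfalso
        have h3 := orderOf_dvd_of_pow_eq_one h2
        rw [← hi] at h3
        have := Nat.le_of_dvd (by omega) h3
        omega
      · exact h2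
    have hmod : Fintype.card F ^ j ≡ r - 1 [MOD r] := by
      rw [← ZMod.natCast_eq_natCast_iff, Nat.cast_pow, hqj, Nat.cast_sub hr.out.one_lt.le, ZMod.natCast_self, Nat.cast_one, zero_sub]
    have hxinv : x ^ (Fintype.card F ^ j) = x ^ (r - 1) := by
      have h1 : ∀ k, x ^ k = x ^ (k % r) := fun k => pow_eq_pow_mod k hx
      rw [h1 (Fintype.card F ^ j), h1 (r - 1), hmod]
    have hPinv : ∀ u ∈ R, (aeval (x ^ (r - 1)) P) u = 0 := by
      intro u hu
      rw [← hxinv, ← expand_aeval, expand_card_pow, map_pow]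
      have hpos : Fintype.card F ^ j = (Fintype.card F ^ j - 1) + 1 := by
        have : 0 < Fintype.card F ^ j := pow_pos Fintype.card_pos _
        omega
      rw [hpos, pow_succ, Module.End.mul_apply, hP3 u hu, map_zero]
    have hadj : ∀ u v, f u (x v) = f ((x ^ (r - 1)) u) v := by
      intro u v
      have e1 : x ((x ^ (r - 1)) u) = u := by
        rw [← Module.End.mul_apply, ← pow_succ', Nat.sub_add_cancel hr.out.pos, hx, Module.End.one_apply]
      rw [← hiso ((x ^ (r - 1)) u) v, e1]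
    have hPR1 : ∀ w ∈ R1, (aeval x P) w = 0 := by
      intro w hw
      refine hR1O _ (aeval_mem hR1.2.1 P w hw) fun u hu => ?_
      rw [aeval_adj f hadj, hPinv u hu, map_zero, LinearMap.zero_apply]
    have hPT : ∀ t ∈ R ⊔ R1, (aeval x P) t = 0 := by
      intro t ht
      obtain ⟨u, hu, w, hw, rfl⟩ := Submodule.mem_sup.1 ht
      rw [map_add, hP3 u hu, hPR1 w hw, add_zero]
    have hTC : R ⊔ R1 ≤ C := sup_le hRC hR1C
    have hqz : ∀ t ∈ R ⊔ R1, f t (x t) = 0 := by
      intro t ht
      by_cases ht0 : t = 0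
      · rw [ht0, map_zero, LinearMap.zero_apply]
      · obtain ⟨S, hST, hS, htS⟩ := min_of_irred x P hP1 t ht0 (hPT t ht) hTi ht
        exact hisot S (hST.trans hTC) hS t htS _ (hS.2.1 t htS)
    have hsq : ∀ t ∈ R ⊔ R1, x (x t) = t := by
      intro t ht
      have h1 : x t - (x ^ (r - 1)) t = 0 := by
        refine hTN _ (Submodule.sub_mem _ (hTi t ht) (mem_pow hTi _ t ht)) fun v hv => ?_
        have h2 := hqz (v + t) (Submodule.add_mem _ hv ht)
        rw [map_add, map_add, map_add, LinearMap.add_apply, LinearMap.add_apply, hqz v hv, hqz t ht, zero_add, add_zero] at h2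
        have h3 : f t (x v) = - f v ((x ^ (r - 1)) t) := by rw [hadj, skew]
        rw [skew, map_sub]
        rw [h3] at h2
        rw [neg_eq_zero, sub_eq_add_neg]
        linear_combination h2
      rw [sub_eq_zero.1 h1, ← Module.End.mul_apply, ← pow_succ', Nat.sub_add_cancel hr.out.pos, hx, Module.End.one_apply]
    obtain ⟨v, hv, hv0⟩ := (Submodule.ne_bot_iff R).1 hR.1
    apply hv0
    have hvT : v ∈ R ⊔ R1 := Submodule.mem_sup_left hv
    have h4 : ∀ k, (x ^ (2 * k)) v = v := by
      intro k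
      induction k with
      | zero => simp
      | succ k ih =>
        rw [show 2 * (k + 1) = 2 * k + 2 by ring, pow_add, Module.End.mul_apply]
        have : (x ^ 2) v = v := by rw [pow_two]; exact hsq v hvT
        rw [this, ih]
    obtain ⟨k, hk⟩ := hr.out.odd_of_ne_two hr2
    have h5 : x v = v := by
      have h6 : (x ^ r) v = v := by rw [hx, Module.End.one_apply]
      rw [hk, pow_succ', Module.End.mul_apply, h4] at h6
      exact h6
    have h7 : v ∈ C ⊓ Fx x := ⟨hRC hv, mem_Fx.2 h5⟩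
    rw [hCF] at h7
    exact h7
  · exact ⟨R ⊔ R1, sup_le hRC hR1C, hTi, hTN, by rw [hTd, hc, if_neg hev]⟩

end CfsgLib.SpD29
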