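import Cfsg.Agent.LibSpD29a

/-! Orthogonal decompositions invariant under an isometry of prime order, part two (seat helper29). -/

namespace CfsgLib.SpD29

open Module CfsgLib.Semi29 CfsgLib.Invo29 CfsgLib.Sp29 CfsgLib.Dec29 Polynomial

variable {F V : Type*} [Field F] [AddCommGroup V] [Module F V]

/-- many blocks -/
lemma blocks [FiniteDimensional F V] (f : V →ₗ[F] V →ₗ[F] F) (halt : ∀ v, f v v = 0)
    {x : V →ₗ[F] V} {r : ℕ} (hr : 0 < r) (hx : x ^ r = 1) (hiso : ∀ u v, f (x u) (x v) = f u v) {c : ℕ} {W : Submodule F V}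
    (hW : Inv x W) (hWN : NDon f W)
    (hblk : ∀ C ≤ W, Inv x C → NDon f C → C ≠ ⊥ → ∃ R ≤ C, Inv x R ∧ NDon f R ∧ finrank F R = c) :
    ∀ k, k * c ≤ finrank F W → ∃ B ≤ W, Inv x B ∧ NDon f B ∧ finrank F B = k * c := by
  intro k
  induction k with
  | zero =>
    intro _
    refine ⟨⊥, bot_le, inv_bot x, ?_, by simp⟩
    intro u hu _
    exact hu
  | succ k ih =>
    intro hk
    rw [add_mul, one_mul] at hk
    obtain ⟨B, hB, hBi, hBN, hBd⟩ := ih (by omega)
    rcases Nat.eq_zero_or_pos c with hc | hc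
    · exact ⟨B, hB, hBi, hBN, by rw [hBd, hc]; simp⟩
    obtain ⟨C, hC, hCi, hCN, h1, h2, h3⟩ := orth_compl f halt hr hx hiso hBi hBN hW hWN hB
    have h4 := finrank_add h1 h2
    have hC0 : C ≠ ⊥ := by
      intro h
      rw [h, finrank_bot] at h4
      omega
    obtain ⟨R, hRC, hRi, hRN, hRd⟩ := hblk C hC hCi hCN hC0
    have hBR : B ⊓ R = ⊥ := by
      rw [eq_bot_iff, ← h1]; exact inf_le_inf_left _ hRC
    refine ⟨B ⊔ R, sup_le hB (hRC.trans hC), hBi.sup hRi, ?_, ?_⟩
    · intro t ht h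
      obtain ⟨u, hu, w, hw, rfl⟩ := Submodule.mem_sup.1 ht
      have h5 : u = 0 := by
        refine hBN u hu fun v hv => ?_
        have h6 := h v (Submodule.mem_sup_left hv)
        rw [map_add, LinearMap.add_apply] at h6
        have h7 : f w v = 0 := by rw [skew_of_alt f halt, h3 v hv w (hRC hw), neg_zero]
        rw [h7, add_zero] at h6
        exact h6
      subst h5
      rw [zero_add]
      refine hRN w hw fun v hv => ?_
      have h6 := h v (Submodule.mem_sup_right hv)
      rw [zero_add] at h6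
      exact h6
    · rw [finrank_add hBR rfl, hBd, hRd, add_mul, one_mul]

/-- the dimension is divisible by the block size -/
lemma blocks_dvd [FiniteDimensional F V] (f : V →ₗ[F] V →ₗ[F] F) (halt : ∀ v, f v v = 0)
    {x : V →ₗ[F] V} {r : ℕ} (hr : 0 < r) (hx : x ^ r = 1) (hiso : ∀ u v, f (x u) (x v) = f u v) {c : ℕ} :
    ∀ N, ∀ W : Submodule F V, finrank F W = N → Inv x W → NDon f W →
    (∀ C ≤ W, Inv x C → NDon f C → C ≠ ⊥ → ∃ R ≤ C, Inv x R ∧ NDon f R ∧ finrank F R = c) → (0 < c) → c ∣ N := by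
  intro N
  induction N using Nat.strong_induction_on with
  | _ N ih =>
    intro W hN hW hWN hblk hc
    by_cases h0 : W = ⊥
    · rw [← hN, h0, finrank_bot]; exact dvd_zero c
    · obtain ⟨R, hRW, hRi, hRN, hRd⟩ := hblk W le_rfl hW hWN h0
      obtain ⟨C, hC, hCi, hCN, h1, h2, h3⟩ := orth_compl f halt hr hx hiso hRi hRN hW hWN hRW
      have h4 := finrank_add h1 h2
      have h5 := ih (finrank F C) (by omega) C rfl hCi hCN (fun C' hC' => hblk C' (hC'.trans hC)) hc
      rw [← hN, h4, hRd]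
      exact Dvd.dvd.add (dvd_refl c) h5

/-- hyperbolic planes in spaces of fixed vectors -/
lemma fix_block [FiniteDimensional F V] (f : V →ₗ[F] V →ₗ[F] F) (halt : ∀ v, f v v = 0) {x : V →ₗ[F] V}
    {C : Submodule F V} (hCF : C ≤ Fx x) (hCN : NDon f C) (hC0 : C ≠ ⊥) :
    ∃ R ≤ C, Inv x R ∧ NDon f R ∧ finrank F R = 2 := by
  obtain ⟨v, hv, hv0⟩ := (Submodule.ne_bot_iff C).1 hC0
  obtain ⟨w, hw, hvw⟩ : ∃ w ∈ C, f v w ≠ 0 := by
    by_contra h
    push Not at h
    exact hv0 (hCN v hv h)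
  have hle : Submodule.span F {v, w} ≤ C := by
    rw [Submodule.span_le]
    rintro u (rfl | rfl)
    · exact hv
    · exact hw
  have hwv : f w v ≠ 0 := by
    rw [skew_of_alt f halt]; exact neg_ne_zero.2 hvw
  refine ⟨Submodule.span F {v, w}, hle, inv_of_le_Fx (hle.trans hCF), ?_, ?_⟩
  · intro u hu h
    obtain ⟨α, β, rfl⟩ := Submodule.mem_span_pair.1 hu
    have h1 := h w (Submodule.subset_span (by simp))
    have h2 := h v (Submodule.subset_span (by simp))
    simp only [map_add, map_smul, LinearMap.add_apply, LinearMap.smul_apply, smul_eq_mul, halt, mul_zero, add_zero, zero_add] at h1 h2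
    have h3 := (mul_eq_zero.1 h1).resolve_right hvw
    have h4 := (mul_eq_zero.1 h2).resolve_right hwv
    rw [h3, h4, zero_smul, zero_smul, add_zero]
  · apply finrank_pair
    rw [LinearIndependent.pair_iff]
    intro α β h
    have h1 := congrArg (fun u => f u w) h
    have h2 := congrArg (fun u => f u v) h
    simp only [map_add, map_smul, LinearMap.add_apply, LinearMap.smul_apply, smul_eq_mul, halt, mul_zero, add_zero, zero_add, map_zero,
      LinearMap.zero_apply] at h1 h2
    exact ⟨(mul_eq_zero.1 h1).resolve_right hvw, (mul_eq_zero.1 h2).resolve_right hwv⟩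

section iso
variable [Fintype F] [FiniteDimensional F V] {p : ℕ} [Fact p.Prime] [CharP F p] (f : V →ₗ[F] V →ₗ[F] F) (halt : ∀ v, f v v = 0)
    {x : V →ₗ[F] V} {r : ℕ} [hr : Fact r.Prime] (hrp : r ≠ p) (hr2 : r ≠ 2) (hx : x ^ r = 1) (hiso : ∀ u v, f (x u) (x v) = f u v)
    {i c : ℕ} (hi : i = orderOf ((Fintype.card F : ℕ) : ZMod r)) (hc : c = if Even i then i else 2 * i) (hc0 : 0 < c)

include halt hrp hr2 hx hiso hi hc hc0

/-- dimensions of nondegenerate invariant subspaces -/
theorem nd_dims {W : Submodule F V} (hW : Inv x W) (hWN : NDon f W) :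
    ∃ k, finrank F W = finrank F (W ⊓ Fx x : Submodule F V) + k * c := by
  have hss : Semi x := semi_of_pow hr.out hrp one_ne_zero x (by rw [hx, one_smul])
  have h1 := fix_nondeg f hss hiso hW hWN
  obtain ⟨C, hC, hCi, hCN, h2, h3, h4⟩ := orth_compl f halt hr.out.pos hx hiso (hW.inf (inv_Fx x)) h1 hW hWN inf_le_left
  have hCF : C ⊓ Fx x = ⊥ := by
    rw [eq_bot_iff, ← h2]
    exact le_inf (le_inf (inf_le_left.trans hC) inf_le_right) inf_le_left
  obtain ⟨k, hk⟩ := blocks_dvd f halt hr.out.pos hx hiso _ C rfl hCi hCN (fun C' hC' h5 h6 h7 =>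
    exists_nd_block f halt hrp hr2 hx hiso hi hc h5 h6 h7 (by
      rw [eq_bot_iff, ← hCF]; exact inf_le_inf_right _ hC')) hc0
  exact ⟨k, by rw [finrank_add h2 h3, hk, mul_comm]⟩

/-- splitting off a nondegenerate invariant subspace of prescribed dimension -/
theorem nd_split {W : Submodule F V} (hW : Inv x W) (hWN : NDon f W) (m κ : ℕ) (hm : 2 * m ≤ finrank F (W ⊓ Fx x : Submodule F V))
    (hκ : finrank F (W ⊓ Fx x : Submodule F V) + κ * c ≤ finrank F W) :
    ∃ D W' : Submodule F V, Inv x D ∧ NDon f D ∧ Inv x W' ∧ NDon f W' ∧ D ⊓ W' = ⊥ ∧ D ⊔ W' = W ∧ finrank F D = 2 * m + κ * c ∧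
      finrank F (W' ⊓ Fx x : Submodule F V) + 2 * m = finrank F (W ⊓ Fx x : Submodule F V) ∧ ∀ u ∈ D, ∀ v ∈ W', f u v = 0 := by
  have skew := skew_of_alt f halt
  have hss : Semi x := semi_of_pow hr.out hrp one_ne_zero x (by rw [hx, one_smul])
  have h1 := fix_nondeg f hss hiso hW hWN
  obtain ⟨C, hC, hCi, hCN, h2, h3, h4⟩ := orth_compl f halt hr.out.pos hx hiso (hW.inf (inv_Fx x)) h1 hW hWN inf_le_left
  have hCF : C ⊓ Fx x = ⊥ := by
    rw [eq_bot_iff, ← h2]
    exact le_inf (le_inf (inf_le_left.trans hC) inf_le_right) inf_le_left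
  have h5 := finrank_add h2 h3
  obtain ⟨A, hA, hAi, hAN, hAd⟩ := blocks f halt hr.out.pos hx hiso (c := 2) (hW.inf (inv_Fx x)) h1
    (fun C' hC' _ h6 h7 => fix_block f halt (hC'.trans inf_le_right) h6 h7) m (by rw [mul_comm]; exact hm)
  obtain ⟨B, hB, hBi, hBN, hBd⟩ := blocks f halt hr.out.pos hx hiso (c := c) hCi hCN
    (fun C' hC' h5 h6 h7 => exists_nd_block f halt hrp hr2 hx hiso hi hc h5 h6 h7 (by
      rw [eq_bot_iff, ← hCF]; exact inf_le_inf_right _ hC')) κ (by omega)
  have hAB : A ⊓ B = ⊥ := by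
    rw [eq_bot_iff, ← h2]
    exact inf_le_inf hA hB
  have hDN : NDon f (A ⊔ B) := by
    intro t ht h
    obtain ⟨u, hu, w, hw, rfl⟩ := Submodule.mem_sup.1 ht
    have h6 : u = 0 := by
      refine hAN u hu fun v hv => ?_
      have h7 := h v (Submodule.mem_sup_left hv)
      rw [map_add, LinearMap.add_apply] at h7
      have h8 : f w v = 0 := by rw [skew, h4 v (hA hv) w (hB hw), neg_zero]
      rw [h8, add_zero] at h7
      exact h7
    subst h6
    rw [zero_add]
    refine hBN w hw fun v hv => ?_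
    have h7 := h v (Submodule.mem_sup_right hv)
    rw [zero_add] at h7
    exact h7
  have hDW : A ⊔ B ≤ W := sup_le (hA.trans inf_le_left) (hB.trans hC)
  obtain ⟨W', hW', hW'i, hW'N, h6, h7, h8⟩ := orth_compl f halt hr.out.pos hx hiso (hAi.sup hBi) hDN hW hWN hDW
  refine ⟨A ⊔ B, W', hAi.sup hBi, hDN, hW'i, hW'N, h6, h7, ?_, ?_, h8⟩
  · rw [finrank_add hAB rfl, hAd, hBd, mul_comm m 2]
  · have h9 := e_add (hAi.sup hBi) hW'i h6
    have h10 := e_add hAi hBi hAB
    rw [h7, h10] at h9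
    have h11 : A ⊓ Fx x = A := inf_eq_left.2 (hA.trans inf_le_right)
    have h12 : B ⊓ Fx x = ⊥ := by
      rw [eq_bot_iff, ← hCF]
      exact inf_le_inf_right _ hB
    rw [h11, h12, finrank_bot, hAd] at h9
    omega

/-- orthogonal decompositions into invariant summands -/
theorem nd_decomp (a : ℕ) (hae : Even a) (hce : Even c) :
    ∀ t, ∀ W : Submodule F V, Inv x W → NDon f W → finrank F W = t * a → t * (a % c) ≤ finrank F (W ⊓ Fx x : Submodule F V) →
    ∃ D : Fin t → Submodule F V, (∀ k, finrank F (D k) = a) ∧ (∀ k, Inv x (D k)) ∧ (∀ k, NDon f (D k)) ∧ iSup D = W ∧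
      ∀ j k, j ≠ k → ∀ u ∈ D j, ∀ v ∈ D k, f u v = 0 := by
  have skew := skew_of_alt f halt
  intro t
  induction t with
  | zero =>
    intro W hW hWN h1 _
    rw [zero_mul, Submodule.finrank_eq_zero] at h1
    refine ⟨fun k => k.elim0, fun k => k.elim0, fun k => k.elim0, fun k => k.elim0, ?_, fun k => k.elim0⟩
    rw [h1, iSup_of_empty]
  | succ t ih =>
    intro W hW hWN h1 h2
    obtain ⟨K, hK⟩ := nd_dims f halt hrp hr2 hx hiso hi hc hc0 hW hWN
    have hac := Nat.mod_add_div a c
    have hmul : (t + 1) * a = t * a + a := by ring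
    have hmul2 : (t + 1) * (a % c) = t * (a % c) + a % c := by ring
    rw [hmul] at h1
    rw [hmul2] at h2
    have hle : t * (a % c) ≤ t * a := Nat.mul_le_mul_left t (Nat.mod_le a c)
    have h10 : a / c * c = c * (a / c) := mul_comm _ _
    have hmodev : Even (a % c) := by
      obtain ⟨c', hc'⟩ := hce
      rw [← hac, hc'] at hae
      rw [hc']
      have h3 : Even ((c' + c') * (a / (c' + c'))) := Even.mul_right ⟨c', rfl⟩ _
      exact (Nat.even_add.1 hae).2 h3
    -- a uniform statement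
    obtain ⟨m, κ, hm1, hm2, hm3, hm4⟩ : ∃ m κ, 2 * m + κ * c = a ∧ 2 * m ≤ finrank F (W ⊓ Fx x : Submodule F V) ∧
        finrank F (W ⊓ Fx x : Submodule F V) + κ * c ≤ finrank F W ∧ t * (a % c) + 2 * m ≤ finrank F (W ⊓ Fx x : Submodule F V) := by
      rcases le_total (a / c) K with h3 | h3
      · have h4 : (a / c) * c ≤ K * c := Nat.mul_le_mul_right c h3
        obtain ⟨m, hm⟩ := hmodev
        exact ⟨m, a / c, by omega, by omega, by omega, by omega⟩
      · have h4 : K * c ≤ (a / c) * c := Nat.mul_le_mul_right c h3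
        have hev : Even (a - K * c) := by
          rw [Nat.even_sub (by omega)]
          exact ⟨fun _ => hce.mul_left K, fun _ => hae⟩
        obtain ⟨m, hm⟩ := hev
        exact ⟨m, K, by omega, by omega, by omega, by omega⟩
    obtain ⟨D, W', hD, hDN, hW', hW'N, h5, h6, h7, h8, h9⟩ := nd_split f halt hrp hr2 hx hiso hi hc hc0 hW hWN m κ hm2 hm3
    have h11 := finrank_add h5 h6
    obtain ⟨E, hE1, hE2, hE3, hE4, hE5⟩ := ih W' hW' hW'N (by omega) (by omega)
    have hEW : ∀ k, E k ≤ W' := fun k => by rw [← hE4]; exact le_iSup E k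
    refine ⟨Fin.cons D E, ?_, ?_, ?_, ?_, ?_⟩
    · intro k
      refine Fin.cases ?_ (fun k => ?_) k
      · rw [Fin.cons_zero, h7, hm1]
      · rw [Fin.cons_succ, hE1]
    · intro k
      refine Fin.cases ?_ (fun k => ?_) k
      · rw [Fin.cons_zero]; exact hD
      · rw [Fin.cons_succ]; exact hE2 k
    · intro k
      refine Fin.cases ?_ (fun k => ?_) k
      · rw [Fin.cons_zero]; exact hDN
      · rw [Fin.cons_succ]; exact hE3 k
    · rw [← h6, ← hE4]
      apply le_antisymm
      · refine iSup_le fun k => ?_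
        refine Fin.cases ?_ (fun k => ?_) k
        · rw [Fin.cons_zero]; exact le_sup_left
        · rw [Fin.cons_succ]; exact le_sup_of_le_right (le_iSup E k)
      · refine sup_le ?_ (iSup_le fun k => ?_)
        · have := le_iSup (Fin.cons D E : Fin (t + 1) → Submodule F V) 0
          rwa [Fin.cons_zero] at this
        · have := le_iSup (Fin.cons D E : Fin (t + 1) → Submodule F V) k.succ
          rwa [Fin.cons_succ] at this
    · intro j k
      refine Fin.cases ?_ (fun j => ?_) j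
      · refine Fin.cases (fun h => absurd rfl h) (fun k => ?_) k
        intro _ u hu v hv
        rw [Fin.cons_zero] at hu
        rw [Fin.cons_succ] at hv
        exact h9 u hu v (hEW k hv)
      · refine Fin.cases ?_ (fun k => ?_) k
        · intro _ u hu v hv
          rw [Fin.cons_succ] at hu
          rw [Fin.cons_zero] at hv
          rw [skew, h9 v hv u (hEW j hu), neg_zero]
        · intro hjk u hu v hv
          rw [Fin.cons_succ] at hu hv
          exact hE5 j k (fun h => hjk (by rw [h])) u hu v hv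

end iso

/-- orthogonal nondegenerate families are independent -/
lemma indep_of_orth (f : V →ₗ[F] V →ₗ[F] F) {t : ℕ} {D : Fin t → Submodule F V} (hN : ∀ k, NDon f (D k))
    (ho : ∀ j k, j ≠ k → ∀ u ∈ D j, ∀ v ∈ D k, f u v = 0) : iSupIndep D := by
  intro k
  rw [Submodule.disjoint_def]
  intro u hu hu2
  refine hN k u hu fun v hv => ?_
  have h1 : (⨆ j, ⨆ (_ : j ≠ k), D j) ≤ LinearMap.ker (f.flip v) := by
    refine iSup₂_le fun j hj w hw => ?_
    exact ho j k hj w hw v hv
  exact h1 hu2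

end CfsgLib.SpD29
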