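import Cfsg.Agent.LibSpD29b
import Cfsg.Agent.LibInvo29d

/-! Symplectic spaces of equal dimension are isometric; elements of prime order of symplectic groups (seat helper29). -/

namespace CfsgLib.SpD29

open Module CfsgLib.Semi29 CfsgLib.Invo29 CfsgLib.Sp29 CfsgLib.Dec29 Cfsg.Agent.H22

variable {F : Type*} [Field F]

/-- the standard gram matrix -/
def g2 (k l : Fin 2) : F := if k = 0 ∧ l = 1 then 1 else if k = 1 ∧ l = 0 then -1 else 0

lemma gram {V : Type*} [AddCommGroup V] [Module F V] (f : V →ₗ[F] V →ₗ[F] F) (halt : ∀ v, f v v = 0) {ι : Type} [DecidableEq ι] (e : ι × Fin 2 → V)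
    (h1 : ∀ i, f (e (i, 0)) (e (i, 1)) = 1) (h2 : ∀ i j, i ≠ j → ∀ k l, f (e (i, k)) (e (j, l)) = 0) (i j : ι) (k l : Fin 2) :
    f (e (i, k)) (e (j, l)) = if i = j then g2 k l else 0 := by
  by_cases hij : i = j
  · subst hij
    rw [if_pos rfl, g2]
    fin_cases k <;> fin_cases l
    · simpa using halt _
    · simpa using h1 i
    · have := h1 i
      rw [skew_of_alt f halt] at this
      simp only [Fin.mk_one, Fin.zero_eta]
      rw [skew_of_alt f halt, h1]
      simp
    · simpa using halt _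
  · rw [if_neg hij]
    exact h2 i j hij k l

/-- a hyperbolic basis indexed by `Fin m × Fin 2` -/
lemma exists_hyp' {V : Type*} [AddCommGroup V] [Module F V] [FiniteDimensional F V] (f : V →ₗ[F] V →ₗ[F] F) (halt : ∀ v, f v v = 0) (hND : NDon f ⊤) (m : ℕ)
    (hm : finrank F V = 2 * m) : ∃ e : Basis (Fin m × Fin 2) F V, ∀ i j k l, f (e (i, k)) (e (j, l)) = if i = j then g2 k l else 0 := by
  classical
  obtain ⟨ι, _, b, h1, h2⟩ := exists_hyp f halt hND
  have hc : Fintype.card ι = m := by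
    have h3 := finrank_eq_card_basis b
    rw [Fintype.card_prod, Fintype.card_fin] at h3
    omega
  let σ : ι ≃ Fin m := Fintype.equivFinOfCardEq hc
  refine ⟨b.reindex (σ.prodCongr (Equiv.refl _)), fun i j k l => ?_⟩
  rw [Basis.reindex_apply, Basis.reindex_apply]
  show f (b (σ.symm i, k)) (b (σ.symm j, l)) = _
  rw [gram f halt b h1 h2]
  simp only [EmbeddingLike.apply_eq_iff_eq]

/-- isometry of symplectic spaces of the same dimension -/
theorem exists_isom {V V' : Type*} [AddCommGroup V] [Module F V] [FiniteDimensional F V] [AddCommGroup V'] [Module F V'] [FiniteDimensional F V']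
    (f : V →ₗ[F] V →ₗ[F] F) (halt : ∀ v, f v v = 0) (hND : NDon f ⊤) (f' : V' →ₗ[F] V' →ₗ[F] F) (halt' : ∀ v, f' v v = 0) (hND' : NDon f' ⊤)
    (hd : finrank F V = finrank F V') : ∃ E : V ≃ₗ[F] V', ∀ u v, f' (E u) (E v) = f u v := by
  obtain ⟨m, hm⟩ := even_top f halt hND
  obtain ⟨e, he⟩ := exists_hyp' f halt hND m (by omega)
  obtain ⟨e', he'⟩ := exists_hyp' f' halt' hND' m (by omega)
  have key : f'.compl₁₂ (e.equiv e' (Equiv.refl _)).toLinearMap (e.equiv e' (Equiv.refl _)).toLinearMap = f := by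
    refine LinearMap.ext_basis e e ?_
    rintro ⟨i, k⟩ ⟨j, l⟩
    rw [LinearMap.compl₁₂_apply, he]
    show f' (e.equiv e' (Equiv.refl _) (e (i, k))) (e.equiv e' (Equiv.refl _) (e (j, l))) = _
    rw [Basis.equiv_apply, Basis.equiv_apply, Equiv.refl_apply, Equiv.refl_apply, he']
  exact ⟨e.equiv e' (Equiv.refl _), fun u v => LinearMap.congr_fun (LinearMap.congr_fun key u) v⟩

lemma spB_ND (d : ℕ) : NDon (spB d F : (Fin d ⊕ Fin d → F) →ₗ[F] (Fin d ⊕ Fin d → F) →ₗ[F] F) ⊤ := by
  intro u _ hu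
  exact spB_nondeg.1 u (fun v => hu v Submodule.mem_top)

lemma spB_alt (d : ℕ) (v : Fin d ⊕ Fin d → F) : (spB d F : (Fin d ⊕ Fin d → F) →ₗ[F] (Fin d ⊕ Fin d → F) →ₗ[F] F) v v = 0 := spB_isAlt v

lemma toLin_sp {d : ℕ} (A : Matrix.symplecticGroup (Fin d) F) : Matrix.toLin' (A : Matrix (Fin d ⊕ Fin d) (Fin d ⊕ Fin d) F) = (spToLin A).toLinearMap := by
  apply LinearMap.ext
  intro v
  rw [Matrix.toLin'_apply]
  exact (spToLin_apply A v).symm

lemma toLin_sp_iso {d : ℕ} (A : Matrix.symplecticGroup (Fin d) F) (u v : Fin d ⊕ Fin d → F) :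
    (spB d F : (Fin d ⊕ Fin d → F) →ₗ[F] (Fin d ⊕ Fin d → F) →ₗ[F] F) (Matrix.toLin' (A : Matrix (Fin d ⊕ Fin d) (Fin d ⊕ Fin d) F) u)
      (Matrix.toLin' (A : Matrix (Fin d ⊕ Fin d) (Fin d ⊕ Fin d) F) v) = spB d F u v := spToLin_isometry A u v

lemma sp_pow {d r : ℕ} (A : Matrix.symplecticGroup (Fin d) F) (h : A ^ r = 1) :
    (Matrix.toLin' (A : Matrix (Fin d ⊕ Fin d) (Fin d ⊕ Fin d) F)) ^ r = 1 := by
  rw [← Matrix.toLin'_pow]
  have h1 : ((A ^ r : Matrix.symplecticGroup (Fin d) F) : Matrix (Fin d ⊕ Fin d) (Fin d ⊕ Fin d) F) = 1 := by rw [h]; rfl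
  have h2 : (A : Matrix (Fin d ⊕ Fin d) (Fin d ⊕ Fin d) F) ^ r = 1 := h1
  rw [h2, Matrix.toLin'_one]; rfl

/-- elements with `s` blocks -/
theorem exists_elem [Fintype F] {p : ℕ} [Fact p.Prime] [CharP F p] {r : ℕ} [hr : Fact r.Prime] (hrp : r ≠ p) (hr2 : r ≠ 2)
    {i c : ℕ} (hi : i = orderOf ((Fintype.card F : ℕ) : ZMod r)) (hc : c = if Even i then i else 2 * i) (hc0 : 0 < c)
    (d s : ℕ) (hs : s * c ≤ 2 * d) :
    ∃ A : Matrix.symplecticGroup (Fin d) F, A ^ r = 1 ∧
      finrank F (Fx (Matrix.toLin' (A : Matrix (Fin d ⊕ Fin d) (Fin d ⊕ Fin d) F))) + s * c = 2 * d := by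
  classical
  have hcev : Even c := by
    rw [hc]
    split_ifs with h
    · exact h
    · exact even_two_mul i
  obtain ⟨c', hc'⟩ := hcev
  have hic : i ∣ c := by
    rw [hc]
    split_ifs with h
    · exact dvd_refl i
    · exact dvd_mul_left i 2
  -- an element of order `r` of `Sp_c`
  obtain ⟨h0, hh0⟩ : ∃ h0 : Matrix.symplecticGroup (Fin c') F, orderOf h0 = r := by
    apply exists_prime_orderOf_dvd_card'
    rw [card_sp]
    refine Dvd.dvd.mul_left ?_ _
    refine Dvd.dvd.trans ?_ (Finset.dvd_prod_of_mem _ (Finset.mem_range.2 (show c' - 1 < c' by omega)))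
    rw [dvd_of_order hr.out Fintype.card_pos, ← hi, show 2 * (c' - 1 + 1) = c by omega]
    exact hic
  obtain ⟨Y, hY⟩ : ∃ Y, Y = Matrix.toLin' (h0 : Matrix (Fin c' ⊕ Fin c') (Fin c' ⊕ Fin c') F) := ⟨_, rfl⟩
  have hYr : Y ^ r = 1 := by rw [hY]; exact sp_pow h0 (by rw [← hh0, pow_orderOf_eq_one])
  have hYiso : ∀ u v, (spB c' F : (Fin c' ⊕ Fin c' → F) →ₗ[F] (Fin c' ⊕ Fin c' → F) →ₗ[F] F) (Y u) (Y v) = spB c' F u v := by
    intro u v
    rw [hY]; exact toLin_sp_iso h0 u v
  have hY1 : Y ≠ 1 := by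
    intro h
    have h3 : (h0 : Matrix (Fin c' ⊕ Fin c') (Fin c' ⊕ Fin c') F) = 1 := by
      apply Matrix.toLin'.injective
      rw [← hY, h, Matrix.toLin'_one]; rfl
    have h4 : h0 = 1 := Subtype.ext h3
    rw [h4, orderOf_one] at hh0
    exact hr.out.one_lt.ne hh0
  have hUdim : finrank F (Fin c' ⊕ Fin c' → F) = c := by
    rw [Module.finrank_pi, Fintype.card_sum, Fintype.card_fin]; omega
  have hYfix : ∀ w, Y w = w → w = 0 := by
    obtain ⟨k, hk⟩ := nd_dims (spB c' F : (Fin c' ⊕ Fin c' → F) →ₗ[F] (Fin c' ⊕ Fin c' → F) →ₗ[F] F) (spB_alt c') hrp hr2 hYr hYiso hi hc hc0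
      (inv_top Y) (spB_ND c')
    rw [top_inf_eq, finrank_top, hUdim] at hk
    have hlt : finrank F (Fx Y) ≠ c := by
      intro h
      apply hY1
      have h3 : Fx Y = ⊤ := Submodule.eq_top_of_finrank_eq (by rw [h, hUdim])
      have h4 : ∀ w, Y w = w := fun w => mem_Fx.1 (by rw [h3]; trivial)
      exact LinearMap.ext h4
    have h0 : finrank F (Fx Y) = 0 := by
      rcases Nat.eq_zero_or_pos k with h3 | h3
      · rw [h3] at hk; omega
      · have : c ≤ k * c := Nat.le_mul_of_pos_left c h3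
        omega
    rw [Submodule.finrank_eq_zero] at h0
    intro w hw
    have : w ∈ Fx Y := mem_Fx.2 hw
    rw [h0] at this
    exact this
  -- glue
  obtain ⟨d', hd'⟩ : ∃ d', 2 * d' + s * c = 2 * d := by
    refine ⟨d - s * c', ?_⟩
    have h1 : s * c = 2 * (s * c') := by rw [hc']; ring
    omega
  let U := Fin c' ⊕ Fin c' → F
  let U' := Fin d' ⊕ Fin d' → F
  let fU : U →ₗ[F] U →ₗ[F] F := spB c' F
  let fU' : U' →ₗ[F] U' →ₗ[F] F := spB d' F
  let f' : ((Fin s → U) × U') →ₗ[F] ((Fin s → U) × U') →ₗ[F] F :=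
    (∑ j : Fin s, fU.compl₁₂ ((LinearMap.proj j) ∘ₗ (LinearMap.fst F (Fin s → U) U')) ((LinearMap.proj j) ∘ₗ (LinearMap.fst F (Fin s → U) U'))) +
      fU'.compl₁₂ (LinearMap.snd F (Fin s → U) U') (LinearMap.snd F (Fin s → U) U')
  have hf' : ∀ u v, f' u v = (∑ j : Fin s, fU (u.1 j) (v.1 j)) + fU' u.2 v.2 := by
    intro u v
    simp [f', LinearMap.add_apply, LinearMap.sum_apply]
  have halt' : ∀ v, f' v v = 0 := by
    intro v
    rw [hf', Finset.sum_eq_zero (fun j _ => spB_alt c' _), zero_add]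
    exact spB_alt d' _
  have hND' : NDon f' ⊤ := by
    intro u _ hu
    have h1 : u.2 = 0 := by
      refine spB_ND d' _ trivial fun w _ => ?_
      have h2 := hu ((0 : Fin s → U), w) trivial
      rw [hf'] at h2
      simp only [Pi.zero_apply, map_zero, Finset.sum_const_zero, zero_add] at h2
      exact h2
    have h2 : ∀ j, u.1 j = 0 := by
      intro j
      refine spB_ND c' _ trivial fun w _ => ?_
      have h3 : ∑ k : Fin s, fU (u.1 k) ((Pi.single j w : Fin s → U) k) = 0 := by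
        have h4 := hu ((Pi.single j w : Fin s → U), (0 : U')) trivial
        rw [hf', map_zero, add_zero] at h4
        exact h4
      rw [Finset.sum_eq_single j] at h3
      · rw [Pi.single_eq_same] at h3
        exact h3
      · intro k _ hk
        rw [Pi.single_eq_of_ne hk, map_zero]
      · intro h; exact absurd (Finset.mem_univ j) h
    exact Prod.ext (funext h2) h1
  have hdim : finrank F (Fin d ⊕ Fin d → F) = finrank F ((Fin s → U) × U') := by
    have e1 : finrank F (Fin d ⊕ Fin d → F) = 2 * d := by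
      rw [Module.finrank_pi, Fintype.card_sum, Fintype.card_fin]; ring
    have e2 : finrank F U' = 2 * d' := by
      rw [Module.finrank_pi, Fintype.card_sum, Fintype.card_fin]; ring
    have e3 : finrank F (Fin s → U) = s * c := by
      rw [Module.finrank_pi_fintype]
      have h1 : ∀ j ∈ (Finset.univ : Finset (Fin s)), finrank F U = c := fun _ _ => hUdim
      rw [Finset.sum_congr rfl h1, Finset.sum_const, Finset.card_univ, Fintype.card_fin, smul_eq_mul]
    rw [Module.finrank_prod, e1, e2, e3]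
    omega
  obtain ⟨E, hE⟩ := exists_isom (spB d F : (Fin d ⊕ Fin d → F) →ₗ[F] (Fin d ⊕ Fin d → F) →ₗ[F] F) (spB_alt d) (spB_ND d) f' halt' hND' hdim
  let X0 : ((Fin s → U) × U') →ₗ[F] ((Fin s → U) × U') :=
    LinearMap.prodMap (LinearMap.pi fun k => Y ∘ₗ LinearMap.proj k) LinearMap.id
  let T : (Fin d ⊕ Fin d → F) →ₗ[F] (Fin d ⊕ Fin d → F) := E.symm.toLinearMap ∘ₗ X0 ∘ₗ E.toLinearMap
  have hTv : ∀ v, E (T v) = (fun j => Y ((E v).1 j), (E v).2) := by
    intro v
    show E (E.symm (X0 (E v))) = _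
    rw [LinearEquiv.apply_symm_apply]
    rfl
  have hTk : ∀ k v, E ((T ^ k) v) = (fun j => (Y ^ k) ((E v).1 j), (E v).2) := by
    intro k
    induction k with
    | zero => intro v; simp
    | succ k ih =>
      intro v
      rw [pow_succ', Module.End.mul_apply, hTv, ih]
      simp only [pow_succ', Module.End.mul_apply]
  have hTr : T ^ r = 1 := by
    apply LinearMap.ext
    intro v
    apply E.injective
    rw [hTk, hYr]
    rfl
  have hTiso : ∀ u v, (spB d F : (Fin d ⊕ Fin d → F) →ₗ[F] (Fin d ⊕ Fin d → F) →ₗ[F] F) (T u) (T v) = spB d F u v := by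
    intro u v
    rw [← hE, hTv, hTv, ← hE u v, hf', hf']
    congr 1
    exact Finset.sum_congr rfl fun j _ => hYiso _ _
  have hTinj : Function.Injective T := by
    intro u v h
    have h1 : (T ^ r) u = (T ^ r) v := by
      rw [← Nat.sub_add_cancel hr.out.pos, pow_succ, Module.End.mul_apply, Module.End.mul_apply, h]
    rw [hTr] at h1
    exact h1
  obtain ⟨A, hA⟩ := exists_spToLin (LinearEquiv.ofInjectiveEndo T hTinj) (fun u v => hTiso u v)
  have hAT : Matrix.toLin' (A : Matrix (Fin d ⊕ Fin d) (Fin d ⊕ Fin d) F) = T := by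
    rw [toLin_sp, hA]
    rfl
  refine ⟨A, ?_, ?_⟩
  · apply Subtype.ext
    show (A : Matrix (Fin d ⊕ Fin d) (Fin d ⊕ Fin d) F) ^ r = 1
    apply Matrix.toLin'.injective
    rw [Matrix.toLin'_pow, hAT, hTr, Matrix.toLin'_one]; rfl
  · rw [hAT]
    have hle : Fx T = LinearMap.range (E.symm.toLinearMap ∘ₗ LinearMap.inr F (Fin s → U) U') := by
      apply le_antisymm
      · intro v hv
        have h3 := hTv v
        rw [mem_Fx.1 hv] at h3
        have h4 : (E v).1 = 0 := by
          funext j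
          have h5 := congrFun (congrArg Prod.fst h3) j
          exact hYfix _ h5.symm
        refine ⟨(E v).2, ?_⟩
        show E.symm ((0 : Fin s → U), (E v).2) = v
        rw [LinearEquiv.symm_apply_eq, ← h4]
      · rintro _ ⟨w, rfl⟩
        rw [mem_Fx]
        apply E.injective
        rw [hTv]
        show ((fun j => Y ((E (E.symm ((0 : Fin s → U), w))).1 j)), (E (E.symm ((0 : Fin s → U), w))).2) = E (E.symm ((0 : Fin s → U), w))
        rw [LinearEquiv.apply_symm_apply]
        refine Prod.ext (funext fun j => ?_) rfl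
        exact map_zero Y
    rw [hle, LinearMap.finrank_range_of_inj, Module.finrank_pi, Fintype.card_sum, Fintype.card_fin]
    · omega
    · intro a b hab
      have h1 : E.symm ((0 : Fin s → U), a) = E.symm ((0 : Fin s → U), b) := hab
      exact congrArg Prod.snd (E.symm.injective h1)

end CfsgLib.SpD29
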