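import Cfsg.Agent.LibSpD29c

/-! Orthogonal decompositions of symplectic spaces: counting and elements of prime order (seat helper29). -/

namespace CfsgLib.SpD29

open Module CfsgLib.Semi29 CfsgLib.Invo29 CfsgLib.Sp29 CfsgLib.Dec29 Cfsg.Agent.H22

variable {F : Type*} [Field F] {d a t : ℕ}

/-- orthogonal decompositions -/
def OD (d a t : ℕ) (F : Type*) [Field F] (D : Fin t → Submodule F (Fin d ⊕ Fin d → F)) : Prop :=
  Cfsg.Geo.IsMDecomposition a D ∧ (∀ j, ∀ u ∈ D j, u ≠ 0 → ∃ v ∈ D j, Cfsg.sympForm d F u v ≠ 0) ∧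
          (∀ j j', j ≠ j' → ∀ u ∈ D j, ∀ v ∈ D j', Cfsg.sympForm d F u v = 0)

lemma od_injective {D : Fin t → Submodule F (Fin d ⊕ Fin d → F)} (h : Cfsg.Geo.IsMDecomposition a D) : Function.Injective D := by
  refine h.indep.injective fun k hk => ?_
  have h1 := h.finrank_eq k
  rw [hk, finrank_bot] at h1
  have := h.pos
  omega

lemma od_nd {D : Fin t → Submodule F (Fin d ⊕ Fin d → F)} (h : OD d a t F D) (k : Fin t) :
    NDon (spB d F : (Fin d ⊕ Fin d → F) →ₗ[F] (Fin d ⊕ Fin d → F) →ₗ[F] F) (D k) := by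
  intro u hu huv
  by_contra h0
  obtain ⟨v, hv, hne⟩ := h.2.1 k u hu h0
  apply hne
  rw [← spB_apply]
  exact huv v hv

theorem fact_dvd' : Nat.factorial t ∣ Nat.card {D : Fin t → Submodule F (Fin d ⊕ Fin d → F) // OD d a t F D} := by
  classical
  letI : MulAction (Equiv.Perm (Fin t)) {D : Fin t → Submodule F (Fin d ⊕ Fin d → F) // OD d a t F D} :=
    { smul := fun σ D => ⟨fun k => D.1 (σ.symm k), ⟨⟨D.2.1.two_le, D.2.1.pos, fun i => D.2.1.finrank_eq _,
        D.2.1.indep.comp σ.symm.injective, by rw [← D.2.1.iSup_eq_top]; exact σ.symm.iSup_comp⟩,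
        fun j => D.2.2.1 _, fun j j' hjj => D.2.2.2 _ _ (fun h => hjj (σ.symm.injective h))⟩⟩
      one_smul := fun D => rfl
      mul_smul := fun σ τ D => rfl }
  have hst : ∀ D : {D : Fin t → Submodule F (Fin d ⊕ Fin d → F) // OD d a t F D}, MulAction.stabilizer (Equiv.Perm (Fin t)) D = ⊥ := by
    intro D
    rw [eq_bot_iff]
    intro σ hσ
    rw [MulAction.mem_stabilizer_iff] at hσ
    rw [Subgroup.mem_bot]
    have h1 : ∀ k, D.1 (σ.symm k) = D.1 k := fun k => congrFun (congrArg Subtype.val hσ) k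
    have h2 : ∀ k, σ.symm k = k := fun k => od_injective D.2.1 (h1 k)
    ext k
    rw [Equiv.Perm.one_apply]
    congr 1
    have := h2 (σ k)
    rw [Equiv.symm_apply_apply] at this
    exact this.symm
  rw [Nat.card_congr (MulAction.selfEquivOrbitsQuotientProd hst), Nat.card_prod, Nat.card_perm, Nat.card_fin]
  exact dvd_mul_left _ _

lemma trans_od (hae : Even a) {D D' : Fin t → Submodule F (Fin d ⊕ Fin d → F)} (h : OD d a t F D) (h' : OD d a t F D') :
    ∃ A : Matrix.symplecticGroup (Fin d) F, ∀ k, (D k).map (spToLin A).toLinearMap = D' k := by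
  classical
  obtain ⟨a', ha'⟩ := hae
  let f : (Fin d ⊕ Fin d → F) →ₗ[F] (Fin d ⊕ Fin d → F) →ₗ[F] F := spB d F
  have hI := DirectSum.isInternal_submodule_of_iSupIndep_of_iSup_eq_top h.1.indep h.1.iSup_eq_top
  have hI' := DirectSum.isInternal_submodule_of_iSupIndep_of_iSup_eq_top h'.1.indep h'.1.iSup_eq_top
  have hex : ∀ (E : Fin t → Submodule F (Fin d ⊕ Fin d → F)), OD d a t F E → ∀ k, ∃ e : Basis (Fin a' × Fin 2) F (E k),
      ∀ i j κ l, f (e (i, κ) : Fin d ⊕ Fin d → F) (e (j, l) : Fin d ⊕ Fin d → F) = if i = j then g2 κ l else 0 := by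
    intro E hE k
    let fk : (E k) →ₗ[F] (E k) →ₗ[F] F := f.compl₁₂ (E k).subtype (E k).subtype
    have halt : ∀ v, fk v v = 0 := fun v => spB_alt d _
    have hND : NDon fk ⊤ := by
      intro u _ hu
      exact Subtype.ext (od_nd hE k u u.2 fun v hv => hu ⟨v, hv⟩ trivial)
    obtain ⟨e, he⟩ := exists_hyp' fk halt hND a' (by rw [hE.1.finrank_eq]; omega)
    exact ⟨e, he⟩
  choose v hv using hex D h
  choose v' hv' using hex D' h'
  let B := hI.collectedBasis v
  let B' := hI'.collectedBasis v'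
  have hB : ∀ i k, B ⟨i, k⟩ = (v i k : Fin d ⊕ Fin d → F) := fun i k => by
    show (hI.collectedBasis v) ⟨i, k⟩ = _
    rw [hI.collectedBasis_coe]
  have hB' : ∀ i k, B' ⟨i, k⟩ = (v' i k : Fin d ⊕ Fin d → F) := fun i k => by
    show (hI'.collectedBasis v') ⟨i, k⟩ = _
    rw [hI'.collectedBasis_coe]
  let g := B.equiv B' (Equiv.refl _)
  have hg : ∀ i k, g (v i k : Fin d ⊕ Fin d → F) = (v' i k : Fin d ⊕ Fin d → F) := by
    intro i k
    rw [← hB, ← hB']
    show B.equiv B' (Equiv.refl _) (B ⟨i, k⟩) = _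
    rw [Basis.equiv_apply]; rfl
  have hgiso : f.compl₁₂ g.toLinearMap g.toLinearMap = f := by
    refine LinearMap.ext_basis B B ?_
    rintro ⟨i, κ, l⟩ ⟨j, κ', l'⟩
    rw [LinearMap.compl₁₂_apply, hB, hB]
    show f (g (v i (κ, l))) (g (v j (κ', l'))) = _
    rw [hg, hg]
    by_cases hij : i = j
    · subst hij
      rw [hv, hv']
    · have e1 : f (v' i (κ, l) : Fin d ⊕ Fin d → F) (v' j (κ', l') : Fin d ⊕ Fin d → F) = 0 := by
        show spB d F _ _ = 0
        rw [spB_apply]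
        exact h'.2.2 i j hij _ (v' i (κ, l)).2 _ (v' j (κ', l')).2
      have e2 : f (v i (κ, l) : Fin d ⊕ Fin d → F) (v j (κ', l') : Fin d ⊕ Fin d → F) = 0 := by
        show spB d F _ _ = 0
        rw [spB_apply]
        exact h.2.2 i j hij _ (v i (κ, l)).2 _ (v j (κ', l')).2
      rw [e1, e2]
  obtain ⟨A, hA⟩ := exists_spToLin g (fun u w => LinearMap.congr_fun (LinearMap.congr_fun hgiso u) w)
  refine ⟨A, fun k => ?_⟩
  rw [hA]
  have hsp : Submodule.span F (Set.range fun l => (v k l : Fin d ⊕ Fin d → F)) = D k := by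
    have e1 : Set.range (fun l => (v k l : Fin d ⊕ Fin d → F)) = (D k).subtype '' Set.range (v k) := by
      rw [← Set.range_comp]; rfl
    rw [e1, ← Submodule.map_span, (v k).span_eq, Submodule.map_top, Submodule.range_subtype]
  have hle : (D k).map g.toLinearMap ≤ D' k := by
    rw [← hsp, Submodule.map_span, Submodule.span_le]
    rintro _ ⟨_, ⟨l, rfl⟩, rfl⟩
    show g (v k l : Fin d ⊕ Fin d → F) ∈ D' k
    rw [hg]
    exact (v' k l).2
  refine Submodule.eq_of_le_of_finrank_eq hle ?_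
  rw [h'.1.finrank_eq, ← (Submodule.equivMapOfInjective g.toLinearMap g.injective (D k)).finrank_eq, h.1.finrank_eq]

theorem dvd_sp (hae : Even a) (D0 : Fin t → Submodule F (Fin d ⊕ Fin d → F)) (hD0 : OD d a t F D0) :
    Nat.card {D : Fin t → Submodule F (Fin d ⊕ Fin d → F) // OD d a t F D} ∣ Nat.card (Matrix.symplecticGroup (Fin d) F) := by
  classical
  letI : MulAction (Matrix.symplecticGroup (Fin d) F) {D : Fin t → Submodule F (Fin d ⊕ Fin d → F) // OD d a t F D} :=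
    { smul := fun g D => ⟨fun k => (D.1 k).map (spToLin g).toLinearMap, ⟨⟨D.2.1.two_le, D.2.1.pos, fun i => by
          rw [← (Submodule.equivMapOfInjective (spToLin g).toLinearMap (spToLin g).injective (D.1 i)).finrank_eq]; exact D.2.1.finrank_eq _,
        (iSupIndep_map_orderIso_iff (Submodule.orderIsoMapComap (spToLin g))).2 D.2.1.indep, by
          rw [← Submodule.map_iSup, show iSup (fun i => D.1 i) = iSup D.1 from rfl, D.2.1.iSup_eq_top, Submodule.map_top]
          exact LinearMap.range_eq_top.2 (spToLin g).surjective⟩, by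
          rintro j _ ⟨u, hu, rfl⟩ hu0
          obtain ⟨v, hv, hne⟩ := D.2.2.1 j u hu (by
            rintro rfl
            exact hu0 (map_zero _))
          refine ⟨spToLin g v, ⟨v, hv, rfl⟩, ?_⟩
          show Cfsg.sympForm d F (spToLin g u) (spToLin g v) ≠ 0
          rw [← spB_apply, spToLin_isometry, spB_apply]
          exact hne, by
          rintro j j' hjj _ ⟨u, hu, rfl⟩ _ ⟨v, hv, rfl⟩
          show Cfsg.sympForm d F (spToLin g u) (spToLin g v) = 0
          rw [← spB_apply, spToLin_isometry, spB_apply]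
          exact D.2.2.2 j j' hjj u hu v hv⟩⟩
      one_smul := fun D => Subtype.ext (funext fun k => by
        show (D.1 k).map (spToLin (1 : Matrix.symplecticGroup (Fin d) F)).toLinearMap = D.1 k
        rw [map_one]
        exact Submodule.map_id _)
      mul_smul := fun g h D => Subtype.ext (funext fun k => by
        show (D.1 k).map (spToLin (g * h)).toLinearMap = ((D.1 k).map (spToLin h).toLinearMap).map (spToLin g).toLinearMap
        rw [map_mul]
        exact Submodule.map_comp _ _ _) }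
  haveI : MulAction.IsPretransitive (Matrix.symplecticGroup (Fin d) F) {D : Fin t → Submodule F (Fin d ⊕ Fin d → F) // OD d a t F D} := by
    refine ⟨fun D D' => ?_⟩
    obtain ⟨g, hg⟩ := trans_od hae D.2 D'.2
    exact ⟨g, Subtype.ext (funext hg)⟩
  rw [← MulAction.index_stabilizer_of_transitive (Matrix.symplecticGroup (Fin d) F) (⟨D0, hD0⟩ : {D : Fin t → Submodule F (Fin d ⊕ Fin d → F) // OD d a t F D})]
  exact Subgroup.index_dvd_card _

section main
variable [Fintype F] {p : ℕ} [Fact p.Prime] [CharP F p] {r : ℕ} [hr : Fact r.Prime]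

/-- orthogonal decompositions into invariant summands, from a symplectic map of order `r` -/
theorem exists_od (hrp : r ≠ p) (hr2 : r ≠ 2) {i c : ℕ} (hi : i = orderOf ((Fintype.card F : ℕ) : ZMod r)) (hc : c = if Even i then i else 2 * i)
    (hc0 : 0 < c) (hat : 2 * d = a * t) (ha : 2 ≤ a) (hae : Even a) (ht : 2 ≤ t) (Y : (Fin d ⊕ Fin d → F) →ₗ[F] (Fin d ⊕ Fin d → F)) (hY : Y ^ r = 1)
    (hiso : ∀ u v, (spB d F : (Fin d ⊕ Fin d → F) →ₗ[F] (Fin d ⊕ Fin d → F) →ₗ[F] F) (Y u) (Y v) = spB d F u v)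
    (he : t * (a % c) ≤ finrank F (Fx Y)) : ∃ D : Fin t → Submodule F (Fin d ⊕ Fin d → F), OD d a t F D ∧ ∀ k, Inv Y (D k) := by
  have hcev : Even c := by
    rw [hc]
    split_ifs with h
    · exact h
    · exact even_two_mul i
  have hdim : finrank F (⊤ : Submodule F (Fin d ⊕ Fin d → F)) = t * a := by
    rw [finrank_top, Module.finrank_pi, Fintype.card_sum, Fintype.card_fin]
    linarith
  obtain ⟨D, h1, h2, h3, h4, h5⟩ := nd_decomp (spB d F : (Fin d ⊕ Fin d → F) →ₗ[F] (Fin d ⊕ Fin d → F) →ₗ[F] F) (spB_alt d) hrp hr2 hY hiso hi hc hc0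
    a hae hcev t ⊤ (inv_top Y) (spB_ND d) hdim (by rw [top_inf_eq]; exact he)
  refine ⟨D, ⟨⟨ht, by omega, h1, indep_of_orth _ h3 h5, h4⟩, ?_, ?_⟩, h2⟩
  · intro j u hu hu0
    by_contra hcon
    push Not at hcon
    apply hu0
    refine h3 j u hu fun v hv => ?_
    show spB d F u v = 0
    rw [spB_apply]
    exact hcon v hv
  · intro j j' hjj u hu v hv
    rw [← spB_apply]
    exact h5 j j' hjj u hu v hv

theorem order_le' (hrp : r ≠ p) (hr2 : r ≠ 2) {i c : ℕ} (hi : i = orderOf ((Fintype.card F : ℕ) : ZMod r)) (hc : c = if Even i then i else 2 * i)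
    (hc0 : 0 < c) (hat : 2 * d = a * t) (ha : 2 ≤ a) (hae : Even a) (ht : 2 ≤ t)
    (h : r ∣ Nat.card {D : Fin t → Submodule F (Fin d ⊕ Fin d → F) // OD d a t F D} / Nat.factorial t) : c ≤ 2 * d := by
  classical
  obtain ⟨D0, hD0, -⟩ := exists_od (F := F) hrp hr2 hi hc hc0 hat ha hae ht (1 : (Fin d ⊕ Fin d → F) →ₗ[F] (Fin d ⊕ Fin d → F)) (one_pow r)
    (fun u v => rfl) (by
      have h1 : Fx (1 : (Fin d ⊕ Fin d → F) →ₗ[F] (Fin d ⊕ Fin d → F)) = ⊤ := by
        rw [eq_top_iff]; intro u _; rw [mem_Fx]; rfl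
      rw [h1, finrank_top, Module.finrank_pi, Fintype.card_sum, Fintype.card_fin]
      have h2 : t * (a % c) ≤ t * a := Nat.mul_le_mul_left t (Nat.mod_le a c)
      linarith)
  have h1 := (h.trans (Nat.div_dvd_of_dvd (fact_dvd' (F := F) (d := d) (a := a) (t := t)))).trans (dvd_sp hae D0 hD0)
  rw [card_sp] at h1
  rcases (Nat.Prime.dvd_mul hr.out).1 h1 with h3 | h3
  · exfalso
    have h4 := hr.out.dvd_of_dvd_pow h3
    obtain ⟨k, -, hk⟩ := FiniteField.card F p
    rw [hk] at h4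
    exact hrp ((Nat.prime_dvd_prime_iff_eq hr.out Fact.out).1 (hr.out.dvd_of_dvd_pow h4))
  · rw [Prime.dvd_finsetProd_iff hr.out.prime] at h3
    obtain ⟨j, hj, hjr⟩ := h3
    rw [Finset.mem_range] at hj
    rw [dvd_of_order hr.out Fintype.card_pos, ← hi] at hjr
    have h5 : c ∣ 2 * (j + 1) := by
      rw [hc]
      split_ifs with hev
      · exact hjr
      · have hcop : Nat.Coprime i 2 := Nat.coprime_two_right.2 (Nat.not_even_iff_odd.1 hev)
        exact Nat.mul_dvd_mul_left 2 (hcop.dvd_of_dvd_mul_left hjr)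
    exact (Nat.le_of_dvd (by omega) h5).trans (by omega)

theorem c_facts (hrp : r ≠ p) (hr2 : r ≠ 2) {i c : ℕ} (hi : i = orderOf ((Fintype.card F : ℕ) : ZMod r)) (hc : c = if Even i then i else 2 * i) :
    0 < c ∧ c ≤ r - 1 := by
  have hrt := hr.out.two_le
  have hq0 : ((Fintype.card F : ℕ) : ZMod r) ≠ 0 := by
    intro h
    rw [ZMod.natCast_eq_zero_iff] at h
    obtain ⟨k, -, hk⟩ := FiniteField.card F p
    rw [hk] at h
    exact hrp ((Nat.prime_dvd_prime_iff_eq hr.out Fact.out).1 (hr.out.dvd_of_dvd_pow h))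
  have hir : i ∣ r - 1 := by
    rw [hi]
    exact orderOf_dvd_of_pow_eq_one (ZMod.pow_card_sub_one_eq_one hq0)
  have hi0 : 0 < i := Nat.pos_of_dvd_of_pos hir (by omega)
  refine ⟨by rw [hc]; split_ifs <;> omega, ?_⟩
  rw [hc]
  split_ifs with hev
  · exact Nat.le_of_dvd (by omega) hir
  · have hcop : Nat.Coprime i 2 := Nat.coprime_two_right.2 (Nat.not_even_iff_odd.1 hev)
    have h2 : 2 ∣ r - 1 := by
      obtain ⟨k, hk⟩ := hr.out.odd_of_ne_two hr2
      exact ⟨k, by omega⟩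
    have h3 := Nat.Coprime.mul_dvd_of_dvd_of_dvd hcop hir h2
    have h4 := Nat.le_of_dvd (by omega) h3
    omega

theorem backward' (hrp : r ≠ p) (hr2 : r ≠ 2) (hd : 2 ≤ d) {i c : ℕ} (hi : i = orderOf ((Fintype.card F : ℕ) : ZMod r)) (hc : c = if Even i then i else 2 * i)
    (hat : 2 * d = a * t) (ha : 2 ≤ a) (hae : Even a) (ht : 2 ≤ t) (hcond : (2 * d) % c = t * (a % c))
    (x : Matrix.symplecticGroup (Fin d) F) (z : F)
    (hx : ((x ^ r : ↥(Matrix.symplecticGroup (Fin d) F)) : Matrix (Fin d ⊕ Fin d) (Fin d ⊕ Fin d) F) = z • (1 : Matrix (Fin d ⊕ Fin d) (Fin d ⊕ Fin d) F)) :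
    ∃ D : Fin t → Submodule F (Fin d ⊕ Fin d → F), OD d a t F D ∧
        ∃ σ : Equiv.Perm (Fin t), ∀ j, (D j).map (Matrix.toLin' (x : Matrix (Fin d ⊕ Fin d) (Fin d ⊕ Fin d) F)) = D (σ j) := by
  classical
  obtain ⟨hc0, -⟩ := c_facts (F := F) hrp hr2 hi hc
  obtain ⟨X, hX⟩ : ∃ X, X = Matrix.toLin' (x : Matrix (Fin d ⊕ Fin d) (Fin d ⊕ Fin d) F) := ⟨_, rfl⟩
  have hXiso : ∀ u v, (spB d F : (Fin d ⊕ Fin d → F) →ₗ[F] (Fin d ⊕ Fin d → F) →ₗ[F] F) (X u) (X v) = spB d F u v := by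
    intro u v; rw [hX]; exact toLin_sp_iso x u v
  have hXr : X ^ r = z • 1 := by
    have h1 : (x : Matrix (Fin d ⊕ Fin d) (Fin d ⊕ Fin d) F) ^ r = z • (1 : Matrix (Fin d ⊕ Fin d) (Fin d ⊕ Fin d) F) := hx
    rw [hX, ← Matrix.toLin'_pow, h1, map_smul, Matrix.toLin'_one]; rfl
  have hXinj : Function.Injective X := by
    rw [hX, toLin_sp]; exact (spToLin x).injective
  have hzz : z * z = 1 := by
    have hk : ∀ (k : ℕ) u v, (spB d F : (Fin d ⊕ Fin d → F) →ₗ[F] (Fin d ⊕ Fin d → F) →ₗ[F] F) ((X ^ k) u) ((X ^ k) v) = spB d F u v := by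
      intro k
      induction k with
      | zero => intro u v; simp
      | succ k ih => intro u v; rw [pow_succ', Module.End.mul_apply, Module.End.mul_apply, hXiso, ih]
    obtain ⟨u, v, huv⟩ : ∃ u v, (spB d F : (Fin d ⊕ Fin d → F) →ₗ[F] (Fin d ⊕ Fin d → F) →ₗ[F] F) u v ≠ 0 := by
      by_contra hcon
      push Not at hcon
      have h1 : (Pi.single (Sum.inl ⟨0, by omega⟩) (1 : F) : Fin d ⊕ Fin d → F) = 0 :=
        spB_ND d _ trivial (fun v _ => hcon _ v)
      have h2 := congrFun h1 (Sum.inl ⟨0, by omega⟩)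
      simp at h2
    have h3 := hk r u v
    rw [hXr] at h3
    simp only [LinearMap.smul_apply, Module.End.one_apply, map_smul, smul_eq_mul, ← mul_assoc] at h3
    exact mul_right_cancel₀ huv (by rw [h3, one_mul])
  obtain ⟨k, hk⟩ := hr.out.odd_of_ne_two hr2
  have hzr : z ^ r = z := by
    rw [hk, pow_succ, pow_mul, pow_two, hzz, one_pow, one_mul]
  obtain ⟨Y, hY⟩ : ∃ Y, Y = z • X := ⟨_, rfl⟩
  have hYr : Y ^ r = 1 := by
    rw [hY, smul_pow, hXr, hzr, smul_smul, hzz, one_smul]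
  have hYiso : ∀ u v, (spB d F : (Fin d ⊕ Fin d → F) →ₗ[F] (Fin d ⊕ Fin d → F) →ₗ[F] F) (Y u) (Y v) = spB d F u v := by
    intro u v
    rw [hY]
    simp only [LinearMap.smul_apply, map_smul, smul_eq_mul, ← mul_assoc]
    rw [hXiso, hzz, one_mul]
  have hXY : ∀ u, X u = z • Y u := by
    intro u
    rw [hY, LinearMap.smul_apply, smul_smul, hzz, one_smul]
  obtain ⟨K, hK⟩ := nd_dims (spB d F : (Fin d ⊕ Fin d → F) →ₗ[F] (Fin d ⊕ Fin d → F) →ₗ[F] F) (spB_alt d) hrp hr2 hYr hYiso hi hc hc0 (inv_top Y) (spB_ND d)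
  have hfin : finrank F (⊤ : Submodule F (Fin d ⊕ Fin d → F)) = 2 * d := by
    rw [finrank_top, Module.finrank_pi, Fintype.card_sum, Fintype.card_fin]; ring
  rw [hfin, top_inf_eq] at hK
  obtain ⟨D, hD, hDi⟩ := exists_od (F := F) hrp hr2 hi hc hc0 hat ha hae ht Y hYr hYiso (by
    rw [← hcond, hK, Nat.add_mul_mod_self_right]
    exact Nat.mod_le _ _)
  refine ⟨D, hD, 1, fun j => ?_⟩
  rw [← hX, Equiv.Perm.one_apply]
  refine Submodule.eq_of_le_of_finrank_eq ?_ ?_
  · rintro _ ⟨u, hu, rfl⟩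
    rw [hXY]
    exact (D j).smul_mem _ (hDi j u hu)
  · rw [← (Submodule.equivMapOfInjective X hXinj (D j)).finrank_eq]

theorem forward' (hrp : r ≠ p) (hr2 : r ≠ 2) (hd : 2 ≤ d) {i c : ℕ} (hi : i = orderOf ((Fintype.card F : ℕ) : ZMod r)) (hc : c = if Even i then i else 2 * i)
    (hat : 2 * d = a * t) (ha : 2 ≤ a) (hae : Even a) (ht : 2 ≤ t)
    (hΩ : r ∣ Nat.card {D : Fin t → Submodule F (Fin d ⊕ Fin d → F) // OD d a t F D} / Nat.factorial t)
    (H : ∀ x : Matrix.symplecticGroup (Fin d) F, x ^ r = 1 →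
      (∀ z : F, (x : Matrix (Fin d ⊕ Fin d) (Fin d ⊕ Fin d) F) ≠ z • (1 : Matrix (Fin d ⊕ Fin d) (Fin d ⊕ Fin d) F)) →
      ∃ D : Fin t → Submodule F (Fin d ⊕ Fin d → F), OD d a t F D ∧
        ∃ σ : Equiv.Perm (Fin t), ∀ j, (D j).map (Matrix.toLin' (x : Matrix (Fin d ⊕ Fin d) (Fin d ⊕ Fin d) F)) = D (σ j)) :
    c ≤ a ∧ (2 * d) % c = t * (a % c) := by
  classical
  obtain ⟨hc0, hcr⟩ := c_facts (F := F) hrp hr2 hi hc
  have hcn : c ≤ 2 * d := order_le' hrp hr2 hi hc hc0 hat ha hae ht hΩ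
  have hrt := hr.out.two_le
  have hfin : finrank F (Fin d ⊕ Fin d → F) = 2 * d := by
    rw [Module.finrank_pi, Fintype.card_sum, Fintype.card_fin]; ring
  -- nonscalar elements
  have H' : ∀ x : Matrix.symplecticGroup (Fin d) F, x ^ r = 1 →
      finrank F (Fx (Matrix.toLin' (x : Matrix (Fin d ⊕ Fin d) (Fin d ⊕ Fin d) F))) < 2 * d →
      ∃ D : Fin t → Submodule F (Fin d ⊕ Fin d → F), OD d a t F D ∧
        ∃ σ : Equiv.Perm (Fin t), ∀ j, (D j).map (Matrix.toLin' (x : Matrix (Fin d ⊕ Fin d) (Fin d ⊕ Fin d) F)) = D (σ j) := by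
    intro x hx hlt
    refine H x hx ?_
    intro z hz
    have hX : ∀ v, Matrix.toLin' (x : Matrix (Fin d ⊕ Fin d) (Fin d ⊕ Fin d) F) v = z • v := by
      intro v
      rw [hz, map_smul, Matrix.toLin'_one, LinearMap.smul_apply, LinearMap.id_apply]
    obtain ⟨u, v, huv⟩ : ∃ u v, (spB d F : (Fin d ⊕ Fin d → F) →ₗ[F] (Fin d ⊕ Fin d → F) →ₗ[F] F) u v ≠ 0 := by
      by_contra hcon
      push Not at hcon
      have h1 : (Pi.single (Sum.inl ⟨0, by omega⟩) (1 : F) : Fin d ⊕ Fin d → F) = 0 :=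
        spB_ND d _ trivial (fun v _ => hcon _ v)
      have h2 := congrFun h1 (Sum.inl ⟨0, by omega⟩)
      simp at h2
    have hzz : z * z = 1 := by
      have h3 := toLin_sp_iso x u v
      rw [hX, hX] at h3
      simp only [map_smul, LinearMap.smul_apply, smul_eq_mul, ← mul_assoc] at h3
      exact mul_right_cancel₀ huv (by rw [h3, one_mul])
    obtain ⟨k, hk⟩ := hr.out.odd_of_ne_two hr2
    have hz1 : z = 1 := by
      have h4 : ∀ (k : ℕ) w, ((Matrix.toLin' (x : Matrix (Fin d ⊕ Fin d) (Fin d ⊕ Fin d) F)) ^ k) w = z ^ k • w := by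
        intro k
        induction k with
        | zero => intro w; simp
        | succ k ih => intro w; rw [pow_succ', Module.End.mul_apply, ih, map_smul, hX, smul_smul, pow_succ]
      have h5 := h4 r u
      rw [sp_pow x hx, Module.End.one_apply, hk, pow_succ, pow_mul, pow_two, hzz, one_pow, one_mul] at h5
      have hu0 : u ≠ 0 := by
        rintro rfl
        rw [map_zero, LinearMap.zero_apply] at huv
        exact huv rfl
      have h6 : (z - 1) • u = 0 := by rw [sub_smul, ← h5, one_smul, sub_self]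
      exact sub_eq_zero.1 ((smul_eq_zero.1 h6).resolve_right hu0)
    have h7 : Fx (Matrix.toLin' (x : Matrix (Fin d ⊕ Fin d) (Fin d ⊕ Fin d) F)) = ⊤ := by
      rw [eq_top_iff]; intro w _; rw [mem_Fx, hX, hz1, one_smul]
    rw [h7, finrank_top, hfin] at hlt
    omega
  have hne : ∀ D : Fin t → Submodule F (Fin d ⊕ Fin d → F), OD d a t F D → ∀ k, D k ≠ ⊥ := by
    intro D hD k hk
    have h1 := hD.1.finrank_eq k
    rw [hk, finrank_bot] at h1
    omega
  have hinvs : ∀ (x : Matrix.symplecticGroup (Fin d) F), x ^ r = 1 → ∀ D : Fin t → Submodule F (Fin d ⊕ Fin d → F), OD d a t F D →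
      ∀ i, Inv (Matrix.toLin' (x : Matrix (Fin d ⊕ Fin d) (Fin d ⊕ Fin d) F)) (D i) →
      ∃ k, a = finrank F (D i ⊓ Fx (Matrix.toLin' (x : Matrix (Fin d ⊕ Fin d) (Fin d ⊕ Fin d) F)) : Submodule F (Fin d ⊕ Fin d → F)) + k * c := by
    intro x hx D hD i hDi
    obtain ⟨k, hk⟩ := nd_dims (spB d F : (Fin d ⊕ Fin d → F) →ₗ[F] (Fin d ⊕ Fin d → F) →ₗ[F] F) (spB_alt d) hrp hr2 (sp_pow x hx) (toLin_sp_iso x)
      ‹_› hc hc0 hDi (od_nd hD i)
    rw [hD.1.finrank_eq] at hk
    exact ⟨k, hk⟩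
  by_cases hca : c ≤ a
  · refine ⟨hca, ?_⟩
    obtain ⟨x, hx, hfix⟩ := exists_elem (F := F) hrp hr2 hi hc hc0 d (2 * d / c) (Nat.div_mul_le_self _ _)
    have hmod : finrank F (Fx (Matrix.toLin' (x : Matrix (Fin d ⊕ Fin d) (Fin d ⊕ Fin d) F))) = (2 * d) % c := by
      have h1 := Nat.mod_add_div' (2 * d) c
      omega
    have hlt : (2 * d) % c < c := Nat.mod_lt _ hc0
    obtain ⟨D, hD, σ, hσ⟩ := H' x hx (by omega)
    by_cases hall : ∀ j, σ j = j
    · have h1 : t * (a % c) ≤ (2 * d) % c := by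
        rw [← hmod]
        refine sum_fix hD.1.indep (a % c) fun j => ?_
        have hj : Inv (Matrix.toLin' (x : Matrix (Fin d ⊕ Fin d) (Fin d ⊕ Fin d) F)) (D j) := by
          intro u hu
          have h2 := hσ j
          rw [hall j] at h2
          rw [← h2]
          exact ⟨u, hu, rfl⟩
        obtain ⟨k, hk⟩ := hinvs x hx D hD j hj
        have h3 : a % c = (finrank F (D j ⊓ Fx (Matrix.toLin' (x : Matrix (Fin d ⊕ Fin d) (Fin d ⊕ Fin d) F)) : Submodule F (Fin d ⊕ Fin d → F))) % c := by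
          conv_lhs => rw [hk]
          rw [Nat.add_mul_mod_self_right]
        rw [h3]
        exact Nat.mod_le _ _
      have h2 : (2 * d) % c = (t * (a % c)) % c := by
        rw [hat, mul_comm a t, Nat.mul_mod t a c, Nat.mul_mod t (a % c) c, Nat.mod_mod]
      rw [h2]
      exact Nat.mod_eq_of_lt (lt_of_le_of_lt h1 hlt)
    · exfalso
      push Not at hall
      obtain ⟨j, hj⟩ := hall
      have h1 := (moved hr.out (sp_pow x hx) hD.1.indep (hne D hD) hσ j hj).1
      rw [hD.1.finrank_eq, hmod] at h1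
      omega
  · exfalso
    obtain ⟨x, hx, hfix⟩ := exists_elem (F := F) hrp hr2 hi hc hc0 d 1 (by rw [one_mul]; exact hcn)
    rw [one_mul] at hfix
    obtain ⟨D, hD, σ, hσ⟩ := H' x hx (by omega)
    by_cases hall : ∀ j, σ j = j
    · have h2 : ∀ j, D j ≤ Fx (Matrix.toLin' (x : Matrix (Fin d ⊕ Fin d) (Fin d ⊕ Fin d) F)) := by
        intro j
        have hj : Inv (Matrix.toLin' (x : Matrix (Fin d ⊕ Fin d) (Fin d ⊕ Fin d) F)) (D j) := by
          intro u hu
          have h2 := hσ j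
          rw [hall j] at h2
          rw [← h2]
          exact ⟨u, hu, rfl⟩
        obtain ⟨k, hk⟩ := hinvs x hx D hD j hj
        have hk0 : k = 0 := by
          by_contra hk0
          have h3 : c ≤ k * c := Nat.le_mul_of_pos_left c (Nat.pos_of_ne_zero hk0)
          omega
        rw [hk0, zero_mul, add_zero] at hk
        exact inf_eq_left.1 (Submodule.eq_of_le_of_finrank_eq inf_le_left (by rw [hD.1.finrank_eq]; exact hk.symm))
      have h3 : Fx (Matrix.toLin' (x : Matrix (Fin d ⊕ Fin d) (Fin d ⊕ Fin d) F)) = ⊤ := by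
        rw [eq_top_iff, ← hD.1.iSup_eq_top]
        exact iSup_le h2
      rw [h3, finrank_top, hfin] at hfix
      omega
    · push Not at hall
      obtain ⟨j, hj⟩ := hall
      have h2 := (moved hr.out (sp_pow x hx) hD.1.indep (hne D hD) hσ j hj).2
      rw [hD.1.finrank_eq, hfin] at h2
      have h3 : (r - 1) * a ≤ c := by omega
      have h4 : (r - 1) * 2 ≤ (r - 1) * a := Nat.mul_le_mul_left _ ha
      omega

end main

end CfsgLib.SpD29
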