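import Cfsg.Agent.EqBase
import Cfsg.Agent.LibAschF20

/-!
# Maximal subgroups of small symplectic groups: properness of the geometric classes, parameters
-/

set_option autoImplicit false
set_option linter.all false

open Module Cfsg Cfsg.Geo
open scoped Matrix MatrixGroups Kronecker

namespace CfsgLib.SpMax19

open CfsgLib.AschF
open CfsgLib.SympTv29 (st st_mulVec st_fix st_mem_iso st_conj iso mem_iso zero_left zero_right neg_left neg_right swap_ne swap_eq exists_perp)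
open CfsgLib.MaxTv29 (gl_ext mem_stab mulVec_inv_mulVec inv_mulVec_mulVec mulVec_injective)

section gen
variable {ι : Type} [Fintype ι] [DecidableEq ι] {F : Type*} [Field F]
variable {f : (ι → F) → (ι → F) → F}

/-- a proper invariant set of vectors -/
theorem not_of_set (hf : IsSymplecticForm f) {X : Subgroup (GL ι F)} (S : Set (ι → F))
    (hS : ∀ g ∈ X, ∀ v ∈ S, (g : Matrix ι ι F) *ᵥ v ∈ S) {u v : ι → F} (hu : u ≠ 0) (huS : u ∈ S) (hv : v ≠ 0) (hvS : v ∉ S) :
    ¬ (∀ v c, st hf v c ∈ X) := by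
  intro h
  obtain ⟨g, hg, hgu⟩ := CfsgLib.SympTv29.exists_move hf X h hu hv
  exact hvS (hgu ▸ hS g hg u huS)

theorem stab_mem {W : Submodule F (ι → F)} {g : GL ι F} (hg : g ∈ subspaceStabilizer W) {v : ι → F} (hv : v ∈ W) :
    (g : Matrix ι ι F) *ᵥ v ∈ W := by
  have h1 := (mem_stab g W).1 hg
  first
  | exact h1 v hv
  | exact (h1 v).1 hv
  | exact (h1 v).2 hv

theorem not_stab (hf : IsSymplecticForm f) {W : Submodule F (ι → F)} (h0 : W ≠ ⊥) (h1 : W ≠ ⊤) :
    ¬ (∀ v c, st hf v c ∈ subspaceStabilizer W) := by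
  obtain ⟨u, hu, hu0⟩ := Submodule.exists_mem_ne_zero_of_ne_bot h0
  obtain ⟨v, hv⟩ : ∃ v, v ∉ W := by
    by_contra hcon
    push Not at hcon
    exact h1 (eq_top_iff.2 fun v _ => hcon v)
  refine not_of_set hf (W : Set (ι → F)) (fun g hg w hw => stab_mem hg hw) hu0 hu (v := v) ?_ hv
  rintro rfl
  exact hv W.zero_mem

theorem mdec_disj {t k : ℕ} {D : Fin t → Submodule F (ι → F)} (hD : IsMDecomposition k D) {i j : Fin t} (hij : i ≠ j) :
    Disjoint (D i) (D j) := hD.indep.pairwiseDisjoint hij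

theorem mdec_ne_bot {t k : ℕ} {D : Fin t → Submodule F (ι → F)} (hD : IsMDecomposition k D) (i : Fin t) : D i ≠ ⊥ := by
  intro h
  have h1 := hD.finrank_eq i
  rw [h, finrank_bot] at h1
  have := hD.pos
  omega

theorem not_dec (hf : IsSymplecticForm f) {t k : ℕ} {D : Fin t → Submodule F (ι → F)} (hD : IsMDecomposition k D) :
    ¬ (∀ v c, st hf v c ∈ decompositionStabilizer D) := by
  have h2 := hD.two_le
  let i0 : Fin t := ⟨0, by omega⟩
  let i1 : Fin t := ⟨1, by omega⟩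
  have h01 : i0 ≠ i1 := by
    intro h
    have := congrArg Fin.val h
    simp [i0, i1] at this
  obtain ⟨u, hu, hu0⟩ := Submodule.exists_mem_ne_zero_of_ne_bot (mdec_ne_bot hD i0)
  obtain ⟨w, hw, hw0⟩ := Submodule.exists_mem_ne_zero_of_ne_bot (mdec_ne_bot hD i1)
  have hnot : ∀ j, u + w ∉ D j := by
    intro j hj
    by_cases h0 : j = i0
    · rw [h0] at hj
      have h3 : w ∈ D i0 := by
        have := (D i0).sub_mem hj hu
        rwa [add_sub_cancel_left] at this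
      exact hw0 ((Submodule.disjoint_def.1 (mdec_disj hD h01)) w h3 hw)
    by_cases h1 : j = i1
    · rw [h1] at hj
      have h3 : u ∈ D i1 := by
        have := (D i1).sub_mem hj hw
        rwa [add_sub_cancel_right] at this
      exact hu0 ((Submodule.disjoint_def.1 (mdec_disj hD h01)) u hu h3)
    -- u = (u+w) - w in the span of the others
    have hi := hD.indep i0
    have h4 : u ∈ ⨆ j, ⨆ (_ : j ≠ i0), D j := by
      have h5 : u = (u + w) - w := by rw [add_sub_cancel_right]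
      rw [h5]
      refine Submodule.sub_mem _ ?_ ?_
      · exact (le_iSup_of_le j (le_iSup_of_le h0 le_rfl) : D j ≤ ⨆ j, ⨆ (_ : j ≠ i0), D j) hj
      · exact (le_iSup_of_le i1 (le_iSup_of_le h01.symm le_rfl) : D i1 ≤ ⨆ j, ⨆ (_ : j ≠ i0), D j) hw
    exact hu0 (Submodule.disjoint_def.1 hi u hu h4)
  refine not_of_set hf {v | ∃ i, v ∈ D i} ?_ hu0 ⟨i0, hu⟩ (v := u + w) ?_ (fun ⟨j, hj⟩ => hnot j hj)
  · rintro g ⟨σ, hσ⟩ v ⟨i, hi⟩
    refine ⟨σ i, ?_⟩
    rw [← hσ i]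
    exact ⟨v, hi, Matrix.toLin'_apply _ _⟩
  · intro h
    exact hnot i0 (h ▸ (D i0).zero_mem)

/-- a non-zero vector orthogonal to two given ones -/
theorem exists_perp_two (hf : IsSymplecticForm f) (hn : 3 ≤ Fintype.card ι) (u v : ι → F) : ∃ a, a ≠ 0 ∧ f u a = 0 ∧ f v a = 0 := by
  have hW : Submodule.span F ({u, v} : Set (ι → F)) ≠ ⊤ := by
    intro h
    have h1 : finrank F (Submodule.span F ({u, v} : Set (ι → F))) ≤ 2 := by
      classical
      have h2 := finrank_span_finset_le_card (R := F) (M := ι → F) ({u, v} : Finset (ι → F))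
      have h3 : ((({u, v} : Finset (ι → F)) : Set (ι → F))) = {u, v} := by simp
      rw [h3] at h2
      exact h2.trans (Finset.card_le_two)
    rw [h, finrank_top, Module.finrank_fintype_fun_eq_card] at h1
    omega
  obtain ⟨x, hx⟩ : ∃ x, x ∉ Submodule.span F ({u, v} : Set (ι → F)) := by
    by_contra hcon
    push Not at hcon
    exact hW (eq_top_iff.2 fun v _ => hcon v)
  obtain ⟨z, hz1, hz2⟩ := exists_perp hf _ x hx
  refine ⟨z, ?_, hz2 u (Submodule.subset_span (by simp)), hz2 v (Submodule.subset_span (by simp))⟩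
  rintro rfl
  rw [zero_right hf] at hz1
  exact zero_ne_one hz1

theorem not_fld (hf : IsSymplecticForm f) (hn : 3 ≤ Fintype.card ι) {r : ℕ} {K : Subalgebra F (Matrix ι ι F)}
    (hK : IsFieldSubalgebra r K) (hr : 2 ≤ r) : ¬ (∀ v c, st hf v c ∈ subalgebraNormalizer K) := by
  intro h
  -- a non-scalar element
  obtain ⟨k, hk, hks⟩ : ∃ k ∈ K, ∀ c : F, k ≠ c • (1 : Matrix ι ι F) := by
    by_contra hcon
    push Not at hcon
    have hb : K = ⊥ := by
      rw [eq_bot_iff]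
      intro k hk
      obtain ⟨c, hc⟩ := hcon k hk
      rw [Algebra.mem_bot]
      exact ⟨c, by rw [hc, Algebra.algebraMap_eq_smul_one]⟩
    have h1 := hK.finrank_eq
    have hne : Nonempty ι := Fintype.card_pos_iff.1 (by omega)
    rw [hb, Subalgebra.finrank_bot] at h1
    omega
  have hinj : ∀ x ∈ K, ∀ v : ι → F, v ≠ 0 → x *ᵥ v = 0 → x = 0 := by
    intro x hx v hv h0
    by_contra hne
    obtain ⟨y, hy, hxy⟩ := hK.inv x hx hne
    have h1 : y * x = 1 := by rw [hK.comm y hy x hx, hxy]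
    apply hv
    have h2 : (y * x) *ᵥ v = y *ᵥ (x *ᵥ v) := (Matrix.mulVec_mulVec v y x).symm
    rw [h1, Matrix.one_mulVec, h0, Matrix.mulVec_zero] at h2
    exact h2
  have hne : Nonempty ι := Fintype.card_pos_iff.1 (by omega)
  obtain ⟨v, hv⟩ := exists_ne (0 : ι → F)
  obtain ⟨a, ha0, ha1, ha2⟩ := exists_perp_two hf hn v (k *ᵥ v)
  have hg := h a 1
  set g : GL ι F := st hf a 1 with hgdef
  have h1 : (g : Matrix ι ι F) * k * ((g⁻¹ : GL ι F) : Matrix ι ι F) ∈ K := (hg k).1 hk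
  have hgv : (g : Matrix ι ι F) *ᵥ v = v := st_fix hf a 1 v ha1
  have hgi : ((g⁻¹ : GL ι F) : Matrix ι ι F) *ᵥ v = v := by
    conv_lhs => rw [← hgv]
    exact inv_mulVec_mulVec g v
  have hgk : (g : Matrix ι ι F) *ᵥ (k *ᵥ v) = k *ᵥ v := st_fix hf a 1 _ ha2
  have h2 : (g : Matrix ι ι F) * k * ((g⁻¹ : GL ι F) : Matrix ι ι F) - k = 0 := by
    apply hinj _ (K.sub_mem h1 hk) v hv
    rw [Matrix.sub_mulVec, ← Matrix.mulVec_mulVec, ← Matrix.mulVec_mulVec, hgi, hgk, sub_self]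
  have h3 : (g : Matrix ι ι F) * k = k * (g : Matrix ι ι F) := by
    have h4 := sub_eq_zero.1 h2
    calc (g : Matrix ι ι F) * k = (g : Matrix ι ι F) * k * (((g⁻¹ : GL ι F) : Matrix ι ι F) * (g : Matrix ι ι F)) := by
          rw [← Units.val_mul, inv_mul_cancel, Units.val_one, mul_one]
      _ = k * (g : Matrix ι ι F) := by rw [← mul_assoc, h4]
  obtain ⟨⟨w, hw⟩, _⟩ := hf.nondegenerate a ha0
  have h4 : (g : Matrix ι ι F) *ᵥ (k *ᵥ w) = k *ᵥ ((g : Matrix ι ι F) *ᵥ w) := by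
    rw [Matrix.mulVec_mulVec, Matrix.mulVec_mulVec, h3]
  rw [hgdef, st_mulVec, st_mulVec, Matrix.mulVec_add, Matrix.mulVec_smul] at h4
  have h5 : (1 * f (k *ᵥ w) a) • a = (1 * f w a) • k *ᵥ a := by
    exact add_left_cancel h4
  rw [one_mul, one_mul] at h5
  have h6 : (k - (f (k *ᵥ w) a * (f w a)⁻¹) • (1 : Matrix ι ι F)) = 0 := by
    apply hinj _ (K.sub_mem hk (K.smul_mem K.one_mem _)) a ha0
    rw [Matrix.sub_mulVec, Matrix.smul_mulVec, Matrix.one_mulVec, mul_comm, mul_smul, h5, smul_smul, inv_mul_cancel₀ hw,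
      one_smul, sub_self]
  exact hks _ (sub_eq_zero.1 h6)

theorem mem_conj_map {X : Subgroup (GL ι F)} {P g : GL ι F} (hg : g ∈ X.map (MulAut.conj P).toMonoidHom) :
    ∃ x ∈ X, g = P * x * P⁻¹ := by
  obtain ⟨x, hx, rfl⟩ := hg
  exact ⟨x, hx, rfl⟩

/-- the image of a vector under a change of index -/
theorem reindex_mulVec {κ : Type} [Fintype κ] [DecidableEq κ] (e : ι ≃ κ) (x : GL κ F) (y : κ → F) :
    ((glReindex e.symm x : GL ι F) : Matrix ι ι F) *ᵥ (y ∘ e) = ((x : Matrix κ κ F) *ᵥ y) ∘ e := by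
  have h1 : ((glReindex e.symm x : GL ι F) : Matrix ι ι F) = Matrix.reindex e.symm e.symm (x : Matrix κ κ F) := rfl
  rw [h1]
  ext i
  simp only [Matrix.mulVec, dotProduct, Matrix.reindex_apply, Matrix.submatrix_apply, Function.comp, Equiv.symm_symm]
  exact Fintype.sum_equiv e _ _ fun j => rfl

/-- invariant sets for conjugates of reindexed groups -/
theorem not_of_std (hf : IsSymplecticForm f) {κ : Type} [Fintype κ] [DecidableEq κ] (e : ι ≃ κ) (P : GL ι F)
    {X : Subgroup (GL κ F)} (S : Set (κ → F)) (hS : ∀ g ∈ X, ∀ v ∈ S, (g : Matrix κ κ F) *ᵥ v ∈ S)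
    {u v : κ → F} (hu : u ≠ 0) (huS : u ∈ S) (hv : v ≠ 0) (hvS : v ∉ S) :
    ¬ (∀ v c, st hf v c ∈ (X.map (glReindex e.symm).toMonoidHom).map (MulAut.conj P).toMonoidHom) := by
  have hcomp : ∀ w : κ → F, w ≠ 0 → (P : Matrix ι ι F) *ᵥ (w ∘ e) ≠ 0 := by
    intro w hw h
    apply hw
    have h1 : (P : Matrix ι ι F) *ᵥ (w ∘ e) = (P : Matrix ι ι F) *ᵥ 0 := by rw [h, Matrix.mulVec_zero]
    have h2 := mulVec_injective P h1
    ext k
    have := congrFun h2 (e.symm k)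
    simpa using this
  refine not_of_set hf {x | ∃ y ∈ S, x = (P : Matrix ι ι F) *ᵥ (y ∘ e)} ?_ (hcomp u hu) ⟨u, huS, rfl⟩ (hcomp v hv) ?_
  · rintro g hg _ ⟨y, hy, rfl⟩
    obtain ⟨x, ⟨z, hz, rfl⟩, rfl⟩ := mem_conj_map hg
    refine ⟨(z : Matrix κ κ F) *ᵥ y, hS z hz y hy, ?_⟩
    rw [← reindex_mulVec, Units.val_mul, Units.val_mul, ← Matrix.mulVec_mulVec, ← Matrix.mulVec_mulVec, inv_mulVec_mulVec]
    rfl
  · rintro ⟨y, hy, h⟩
    have h2 := mulVec_injective P h
    apply hvS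
    have h3 : v = y := by
      ext k
      have := congrFun h2 (e.symm k)
      simpa using this
    rw [h3]; exact hy

theorem not_tp (hf : IsSymplecticForm f) {n₁ n₂ : ℕ} (h1 : 2 ≤ n₁) (h2 : 2 ≤ n₂) (e : ι ≃ Fin n₁ × Fin n₂) (P : GL ι F) :
    ¬ (∀ v c, st hf v c ∈ tensorProductSubgroup n₁ n₂ e P) := by
  classical
  let i0 : Fin n₁ := ⟨0, by omega⟩
  let i1 : Fin n₁ := ⟨1, by omega⟩
  let j0 : Fin n₂ := ⟨0, by omega⟩
  let j1 : Fin n₂ := ⟨1, by omega⟩
  have hi : i0 ≠ i1 := by intro h; have := congrArg Fin.val h; simp [i0, i1] at this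
  have hj : j0 ≠ j1 := by intro h; have := congrArg Fin.val h; simp [j0, j1] at this
  refine not_of_std hf e P {x | ∃ (u : Fin n₁ → F) (w : Fin n₂ → F), x = fun p => u p.1 * w p.2} ?_
    (u := fun p => (Pi.single i0 1 : Fin n₁ → F) p.1 * (Pi.single j0 1 : Fin n₂ → F) p.2)
    (v := fun p => (Pi.single i0 1 : Fin n₁ → F) p.1 * (Pi.single j0 1 : Fin n₂ → F) p.2 +
      (Pi.single i1 1 : Fin n₁ → F) p.1 * (Pi.single j1 1 : Fin n₂ → F) p.2) ?_ ⟨_, _, rfl⟩ ?_ ?_
  · rintro g ⟨a, b, hab⟩ _ ⟨u, w, rfl⟩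
    refine ⟨(a : Matrix _ _ F) *ᵥ u, (b : Matrix _ _ F) *ᵥ w, ?_⟩
    ext ⟨i, j⟩
    rw [hab]
    simp only [Matrix.mulVec, dotProduct, Matrix.kroneckerMap_apply, Fintype.sum_prod_type, Finset.sum_mul_sum]
    refine Finset.sum_congr rfl fun x _ => Finset.sum_congr rfl fun y _ => ?_
    ring
  · intro h
    have := congrFun h (i0, j0)
    simp at this
  · intro h
    have := congrFun h (i0, j0)
    simp [hi] at this
  · rintro ⟨u, w, h⟩
    have h00 := congrFun h (i0, j0)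
    have h11 := congrFun h (i1, j1)
    have h01 := congrFun h (i0, j1)
    simp [hi, hi.symm, hj, hj.symm] at h00 h11 h01
    rcases h01 with h | h
    · rw [h, zero_mul] at h00; exact one_ne_zero h00
    · rw [h, mul_zero] at h11; exact one_ne_zero h11

end gen

end CfsgLib.SpMax19
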