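import Cfsg.Agent.EqBase
import Cfsg.Agent.LibSpMax19

/-!
# Properness of the geometric classes in symplectic groups, continued
-/

set_option autoImplicit false
set_option linter.all false
set_option maxHeartbeats 400000

open Module Cfsg Cfsg.Geo
open scoped Matrix MatrixGroups Kronecker

namespace CfsgLib.SpMax19

open CfsgLib.AschF
open CfsgLib.SympTv29 (st st_mulVec st_fix st_mem_iso st_conj iso mem_iso zero_left zero_right neg_left neg_right swap_ne swap_eq exists_perp)
open CfsgLib.MaxTv29 (gl_ext mem_stab mulVec_inv_mulVec inv_mulVec_mulVec mulVec_injective)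

section gen
variable {ι : Type} [Fintype ι] [DecidableEq ι] {F : Type*} [Field F]
variable {f : (ι → F) → (ι → F) → F}

theorem not_tw [Finite F] (hf : IsSymplecticForm f) {k t : ℕ} (h1 : 2 ≤ k) (h2 : 2 ≤ t) (e : ι ≃ (Fin t → Fin k)) (P : GL ι F) :
    ¬ (∀ v c, st hf v c ∈ tensorWreathSubgroup k t e P) := by
  classical
  let i0 : Fin k := ⟨0, by omega⟩
  let i1 : Fin k := ⟨1, by omega⟩
  let s0 : Fin t := ⟨0, by omega⟩
  let s1 : Fin t := ⟨1, by omega⟩
  have hi : i0 ≠ i1 := by intro h; have := congrArg Fin.val h; simp [i0, i1] at this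
  have hs : s0 ≠ s1 := by intro h; have := congrArg Fin.val h; simp [s0, s1] at this
  let S : Set ((Fin t → Fin k) → F) := {x | ∃ us : Fin t → Fin k → F, x = fun p => ∏ s, us s (p s)}
  have hgen : ∀ g ∈ tensorWreathStandard k t F, ∀ v ∈ S, (g : Matrix _ _ F) *ᵥ v ∈ S := by
    intro g hg
    refine Subgroup.closure_induction (p := fun (g : GL (Fin t → Fin k) F) _ => ∀ v ∈ S, (g : Matrix _ _ F) *ᵥ v ∈ S) ?_ ?_ ?_ ?_ hg
    · rintro g (⟨gs, hgs⟩ | ⟨σ, hσ⟩) _ ⟨us, rfl⟩
      · refine ⟨fun s => (gs s : Matrix _ _ F) *ᵥ us s, ?_⟩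
        ext x
        simp only [Matrix.mulVec, dotProduct, hgs]
        rw [Finset.prod_univ_sum, Fintype.piFinset_univ]
        refine Finset.sum_congr rfl fun y _ => ?_
        rw [Finset.prod_mul_distrib]
      · refine ⟨fun s => us (σ.symm s), ?_⟩
        ext x
        simp only [Matrix.mulVec, dotProduct, hσ, ite_mul, one_mul, zero_mul, Finset.sum_ite_eq', Finset.mem_univ, if_true]
        rw [← Equiv.prod_comp σ (fun s => us (σ.symm s) (x s))]
        refine Finset.prod_congr rfl fun s _ => ?_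
        rw [Equiv.symm_apply_apply]; rfl
    · intro v hv
      rw [Units.val_one, Matrix.one_mulVec]; exact hv
    · intro a b _ _ ha hb v hv
      rw [Units.val_mul, ← Matrix.mulVec_mulVec]
      exact ha _ (hb v hv)
    · intro a _ ha v hv
      let φ : S → S := fun w => ⟨(a : Matrix _ _ F) *ᵥ (w : (Fin t → Fin k) → F), ha w w.2⟩
      have hφ : Function.Injective φ := by
        intro x y hxy
        exact Subtype.ext (mulVec_injective a (congrArg Subtype.val hxy))
      obtain ⟨w, hw⟩ := (Finite.injective_iff_surjective.1 hφ) ⟨v, hv⟩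
      have hwv : (a : Matrix _ _ F) *ᵥ (w : (Fin t → Fin k) → F) = v := congrArg Subtype.val hw
      rw [← hwv, inv_mulVec_mulVec]
      exact w.2
  refine not_of_std hf e P S hgen
    (u := fun p => ∏ s, (Pi.single i0 1 : Fin k → F) (p s))
    (v := fun p => (∏ s, (Pi.single i0 1 : Fin k → F) (p s)) + ∏ s, (Pi.single i1 1 : Fin k → F) (p s)) ?_ ⟨fun _ => Pi.single i0 1, rfl⟩ ?_ ?_
  · intro h
    have := congrFun h (fun _ => i0)
    simp at this
  · intro h
    have := congrFun h (fun _ => i0)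
    have hz : (∏ s : Fin t, (Pi.single i1 1 : Fin k → F) i0) = 0 :=
      Finset.prod_eq_zero (Finset.mem_univ s0) (by simp [hi])
    simp only [hz, add_zero] at this
    simp at this
  · rintro ⟨us, h⟩
    have h00 := congrFun h (fun _ => i0)
    have h11 := congrFun h (fun _ => i1)
    have h01 := congrFun h (Function.update (fun _ => i1) s0 i0)
    have hz1 : (∏ s : Fin t, (Pi.single i1 1 : Fin k → F) i0) = 0 :=
      Finset.prod_eq_zero (Finset.mem_univ s0) (by simp [hi])
    have hz2 : (∏ s : Fin t, (Pi.single i0 1 : Fin k → F) i1) = 0 :=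
      Finset.prod_eq_zero (Finset.mem_univ s0) (by simp [hi.symm])
    have hz3 : (∏ s : Fin t, (Pi.single i1 1 : Fin k → F) ((Function.update (fun _ => i1) s0 i0 : Fin t → Fin k) s)) = 0 :=
      Finset.prod_eq_zero (Finset.mem_univ s0) (by simp [hi])
    have hz4 : (∏ s : Fin t, (Pi.single i0 1 : Fin k → F) ((Function.update (fun _ => i1) s0 i0 : Fin t → Fin k) s)) = 0 :=
      Finset.prod_eq_zero (Finset.mem_univ s1) (by simp [hi.symm, hs.symm])
    simp only [hz1, hz2, hz3, hz4, add_zero, zero_add] at h00 h11 h01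
    have h00' : (1 : F) = ∏ s, us s i0 := by simpa using h00
    have h11' : (1 : F) = ∏ s, us s i1 := by simpa using h11
    have hne0 : ∀ s, us s i0 ≠ 0 := by
      intro s hs0
      rw [Finset.prod_eq_zero (Finset.mem_univ s) hs0] at h00'
      exact one_ne_zero h00'
    have hne1 : ∀ s, us s i1 ≠ 0 := by
      intro s hs0
      rw [Finset.prod_eq_zero (Finset.mem_univ s) hs0] at h11'
      exact one_ne_zero h11'
    have h3 : (∏ s, us s ((Function.update (fun _ => i1) s0 i0 : Fin t → Fin k) s)) ≠ 0 := by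
      refine Finset.prod_ne_zero_iff.2 fun s _ => ?_
      by_cases hss : s = s0
      · rw [hss, Function.update_self]; exact hne0 s0
      · rw [Function.update_of_ne hss]; exact hne1 s
    exact h3 h01.symm


theorem map_val (F₀ : Subfield F) (z : GL ι F₀) (k l : ι) :
    ((Matrix.GeneralLinearGroup.map (F₀.subtype : F₀ →+* F) z : GL ι F) : Matrix ι ι F) k l ∈ F₀ := by
  rw [Matrix.GeneralLinearGroup.map_apply]
  exact (((z : Matrix ι ι F₀) k l)).2

/-- preserved set of a subfield group -/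
def SF (F₀ : Subfield F) (P : GL ι F) : Set (ι → F) :=
  {x | ∃ (c : F) (y : ι → F), (∀ i, y i ∈ F₀) ∧ x = (P : Matrix ι ι F) *ᵥ (c • y)}

theorem SF_inv {F₀ : Subfield F} {P g : GL ι F} (hg : g ∈ subfieldSubgroup F₀ P) {v : ι → F} (hv : v ∈ SF F₀ P) :
    (g : Matrix ι ι F) *ᵥ v ∈ SF F₀ P := by
  obtain ⟨c, y, hy, rfl⟩ := hv
  obtain ⟨x, hx, rfl⟩ := mem_conj_map hg
  obtain ⟨x1, ⟨z, rfl⟩, x2, hx2, rfl⟩ := Subgroup.mem_sup_of_normal_right.1 hx
  obtain ⟨d, hd⟩ := (mem_scalars_iff _).1 hx2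
  set M : GL ι F := Matrix.GeneralLinearGroup.map (F₀.subtype : F₀ →+* F) z with hM
  refine ⟨(d : F) * c, (M : Matrix ι ι F) *ᵥ y, ?_, ?_⟩
  · intro k
    simp only [Matrix.mulVec, dotProduct]
    refine Subfield.sum_mem _ fun l _ => Subfield.mul_mem _ ?_ (hy l)
    exact map_val F₀ z k l
  · rw [Units.val_mul, Units.val_mul, ← Matrix.mulVec_mulVec, ← Matrix.mulVec_mulVec, inv_mulVec_mulVec, Units.val_mul,
      ← Matrix.mulVec_mulVec, hd, Matrix.smul_mulVec, Matrix.one_mulVec, smul_smul, Matrix.mulVec_smul]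

theorem not_sub (hf : IsSymplecticForm f) (hn : 2 ≤ Fintype.card ι) {F₀ : Subfield F} (h0 : F₀ ≠ ⊤) (P : GL ι F) :
    ¬ (∀ v c, st hf v c ∈ subfieldSubgroup F₀ P) := by
  classical
  have : Nontrivial ι := Fintype.one_lt_card_iff_nontrivial.1 (by omega)
  obtain ⟨i, j, hij⟩ := exists_pair_ne ι
  obtain ⟨a, ha⟩ : ∃ a : F, a ∉ F₀ := by
    by_contra hcon
    push Not at hcon
    exact h0 (eq_top_iff.2 fun a _ => hcon a)
  have hcomp : ∀ w : ι → F, w ≠ 0 → (P : Matrix ι ι F) *ᵥ w ≠ 0 := by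
    intro w hw h
    apply hw
    have h1 : (P : Matrix ι ι F) *ᵥ w = (P : Matrix ι ι F) *ᵥ 0 := by rw [h, Matrix.mulVec_zero]
    exact mulVec_injective P h1
  refine not_of_set hf (SF F₀ P) (fun g hg v hv => SF_inv hg hv)
    (hcomp (Pi.single i 1) ?_) ⟨1, Pi.single i 1, ?_, by rw [one_smul]⟩ (hcomp (Pi.single i 1 + a • Pi.single j 1) ?_) ?_
  · simp
  · intro k
    rw [Pi.single_apply]
    split_ifs
    · exact F₀.one_mem
    · exact F₀.zero_mem
  · intro h
    have := congrFun h i
    simp [hij] at this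
  · rintro ⟨c, y, hy, h⟩
    have h1 : (Pi.single i 1 + a • Pi.single j 1 : ι → F) = c • y := mulVec_injective P h
    have hi := congrFun h1 i
    have hj := congrFun h1 j
    rw [Pi.add_apply, Pi.smul_apply, Pi.single_eq_same, Pi.single_eq_of_ne hij, smul_zero, add_zero, Pi.smul_apply, smul_eq_mul] at hi
    rw [Pi.add_apply, Pi.smul_apply, Pi.single_eq_same, Pi.single_eq_of_ne hij.symm, zero_add, Pi.smul_apply, smul_eq_mul, smul_eq_mul,
      mul_one] at hj
    have hyi : y i ≠ 0 := by intro h; rw [h, mul_zero] at hi; exact one_ne_zero hi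
    apply ha
    have h2 : a = y j * (y i)⁻¹ := by
      rw [hj, eq_mul_inv_iff_mul_eq₀ hyi]
      linear_combination -(y j) * hi
    rw [h2]
    exact F₀.mul_mem (hy j) (F₀.inv_mem (hy i))

end gen

end CfsgLib.SpMax19
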