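import Cfsg.Agent.EqBase
import Cfsg.Agent.LibSpMaxB19

/-!
# Symplectic geometric classes: quadratic forms, symplectic type groups, dimensions
-/

set_option autoImplicit false
set_option linter.all false
set_option maxHeartbeats 400000

open Module Cfsg Cfsg.Geo
open scoped Matrix MatrixGroups Kronecker

namespace CfsgLib.SpMax19

open CfsgLib.AschF CfsgLib.Asch9 CfsgLib.Asch10 CfsgLib.Asch16
open CfsgLib.SympTv29 (st st_mulVec st_fix st_mem_iso st_conj iso mem_iso zero_left zero_right neg_left neg_right swap_ne swap_eq exists_perp)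
open CfsgLib.MaxTv29 (gl_ext mem_stab mulVec_inv_mulVec inv_mulVec_mulVec mulVec_injective)

section gen
variable {ι : Type} [Fintype ι] [DecidableEq ι] {F : Type*} [Field F]
variable {f : (ι → F) → (ι → F) → F}

/-- two orthogonal independent vectors -/
theorem exists_orth (hf : IsSymplecticForm f) (hn : 3 ≤ Fintype.card ι) {a : ι → F} (ha : a ≠ 0) :
    ∃ w, f w a = 0 ∧ f a w = 0 ∧ w ≠ 0 ∧ w ∉ Submodule.span F ({a} : Set (ι → F)) := by
  obtain ⟨⟨u, hu⟩, _⟩ := hf.nondegenerate a ha
  obtain ⟨w, hw0, hw1, hw2⟩ := exists_perp_two hf hn a u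
  refine ⟨w, swap_eq hf hw1, hw1, hw0, ?_⟩
  rw [Submodule.mem_span_singleton]
  rintro ⟨c, rfl⟩
  rw [hf.bilinear.smul_right] at hw2
  rcases mul_eq_zero.1 hw2 with h | h
  · rw [h, zero_smul] at hw0; exact hw0 rfl
  · exact hu h

theorem not_quad (hf : IsSymplecticForm f) (hn : 3 ≤ Fintype.card ι) {Q : (ι → F) → F} (hQ : QF f Q) (h2 : (2 : F) = 0) :
    ¬ (∀ v c, st hf v c ∈ quadSimilarityGroup Q) := by
  intro h
  -- every non-zero vector has value one
  have hall : ∀ a : ι → F, a ≠ 0 → Q a = 1 := by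
    intro a ha
    obtain ⟨l, hl⟩ : ∃ l : Fˣ, ∀ v, Q (((st hf a 1 : GL ι F) : Matrix ι ι F) *ᵥ v) = (l : F) * Q v := h a 1
    obtain ⟨w, hw1, hw2, hw0, hwa⟩ := exists_orth hf hn ha
    obtain ⟨z, hz1, hz2⟩ := exists_perp hf _ w hwa
    have hza : f z a = 0 := swap_eq hf (hz2 a (Submodule.mem_span_singleton_self a))
    have hl1 : ∀ v, f v a = 0 → Q v = l * Q v := by
      intro v hv
      have := hl v
      rwa [st_fix hf a 1 v hv] at this
    have hone : (l : F) = 1 := by
      by_contra hne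
      have hz : ∀ v, f v a = 0 → Q v = 0 := by
        intro v hv
        have h3 := hl1 v hv
        have h4 : ((l : F) - 1) * Q v = 0 := by linear_combination -h3
        exact (mul_eq_zero.1 h4).resolve_left (sub_ne_zero.2 hne)
      have h3 := hQ.add w z
      rw [hz w hw1, hz z hza, hz1, hz (w + z) (by rw [hf.bilinear.add_left, hw1, hza, add_zero])] at h3
      apply one_ne_zero (α := F)
      linear_combination -h3
    obtain ⟨⟨u, hu⟩, _⟩ := hf.nondegenerate a ha
    set v : ι → F := (f u a)⁻¹ • u with hv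
    have hva : f v a = 1 := by rw [hv, hf.bilinear.smul_left, inv_mul_cancel₀ hu]
    have h3 := hl v
    rw [hone, one_mul, st_mulVec, hva, mul_one, one_smul, hQ.add, hva] at h3
    linear_combination h3 - h2
  have hne : Nonempty ι := Fintype.card_pos_iff.1 (by omega)
  obtain ⟨a, ha⟩ := exists_ne (0 : ι → F)
  obtain ⟨w, hw1, hw2, hw0, hwa⟩ := exists_orth hf hn ha
  have h3 := hQ.add a w
  have haw : a + w ≠ 0 := by
    intro h0
    apply hwa
    rw [Submodule.mem_span_singleton]
    exact ⟨-1, by rw [neg_one_smul]; exact (eq_neg_of_add_eq_zero_right h0).symm⟩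
  rw [hall a ha, hall w hw0, hall _ haw, hw2] at h3
  apply one_ne_zero (α := F)
  linear_combination -h3

theorem sq_scalar [Nonempty ι] (hf : IsSymplecticForm f) {R : Subgroup (GL ι F)} (hI : Iso f R) (hal : alg R = ⊤)
    (hc : ⁅R, R⁆ ≤ scalars ι F) {y : GL ι F} (hy : y ∈ R) : y * y ∈ scalars ι F := by
  refine scalar_of_comm hal fun x hx => ?_
  have h1 : x * y * x⁻¹ * y⁻¹ ∈ scalars ι F := hc (Subgroup.commutator_mem_commutator hx hy)
  have hxy : x * y * x⁻¹ * y⁻¹ ∈ R := R.mul_mem (R.mul_mem (R.mul_mem hx hy) (R.inv_mem hx)) (R.inv_mem hy)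
  obtain ⟨c, hcc⟩ := (mem_scalars_iff _).1 h1
  have hpm := scalar_pm (fd_of_symp hf) (hI _ hxy) hcc
  have hz : (x * y * x⁻¹ * y⁻¹) * (x * y * x⁻¹ * y⁻¹) = 1 := by
    apply Units.ext
    rw [Units.val_mul, hcc, Matrix.smul_mul, Matrix.one_mul, smul_smul, Units.val_one]
    rcases hpm with h | h <;> rw [h] <;> simp
  have hcent : ∀ g : GL ι F, g * (x * y * x⁻¹ * y⁻¹) = (x * y * x⁻¹ * y⁻¹) * g := by
    intro g
    apply Units.ext
    rw [Units.val_mul g, Units.val_mul _ g, hcc, Matrix.smul_mul, Matrix.mul_smul, Matrix.one_mul, Matrix.mul_one]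
  have h2 : x * y = (x * y * x⁻¹ * y⁻¹) * (y * x) := by group
  set z := x * y * x⁻¹ * y⁻¹ with hzdef
  clear_value z
  calc y * y * x = y * (y * x) := by group
    _ = y * (z * z * (y * x)) := by rw [hz, one_mul]
    _ = y * (z * (z * (y * x))) := by group
    _ = y * (z * (x * y)) := by rw [← h2]
    _ = (y * z) * (x * y) := by group
    _ = (z * y) * (x * y) := by rw [hcent]
    _ = z * (y * x) * y := by group
    _ = x * (y * y) := by rw [← h2]; group

theorem not_st [Nonempty ι] (hf : IsSymplecticForm f) (hn : 3 ≤ Fintype.card ι) (h2 : (2 : F) ≠ 0)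
    {R : Subgroup (GL ι F)} (hI : Iso f R) (hal : alg R = ⊤) (hc : ⁅R, R⁆ ≤ scalars ι F) :
    ¬ (∀ v c, st hf v c ∈ subgroupNormalizer R) := by
  intro h
  -- a non-scalar element
  obtain ⟨x, hx, hxs⟩ : ∃ x ∈ R, x ∉ scalars ι F := by
    by_contra hcon
    push Not at hcon
    exact not_scal_of_alg (by omega) hal hcon
  obtain ⟨a, ha⟩ : ∃ a : ι → F, ∀ c : F, (x : Matrix ι ι F) *ᵥ a ≠ c • a := by
    by_contra hcon
    push Not at hcon
    apply hxs
    choose c hcc using hcon
    have hnn : Nontrivial ι := Fintype.one_lt_card_iff_nontrivial.1 (by omega)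
    obtain ⟨i0⟩ := (inferInstance : Nonempty ι)
    have hcol : ∀ i, c (Pi.single i 1) = c (Pi.single i0 1) := by
      intro i
      by_cases hi : i = i0
      · rw [hi]
      have h1 := hcc (Pi.single i 1 + Pi.single i0 1)
      rw [Matrix.mulVec_add, hcc, hcc] at h1
      have h3 := congrFun h1 i
      have h4 := congrFun h1 i0
      simp [hi, Ne.symm hi] at h3 h4
      rw [h3, h4]
    have hne : c (Pi.single i0 1) ≠ 0 := by
      intro h0
      have h1 := hcc (Pi.single i0 1)
      rw [h0, zero_smul] at h1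
      have h3 : (Pi.single i0 1 : ι → F) = 0 := mulVec_injective x (by
        show (x : Matrix ι ι F) *ᵥ _ = (x : Matrix ι ι F) *ᵥ 0
        rw [h1, Matrix.mulVec_zero])
      have := congrFun h3 i0
      simp at this
    refine (mem_scalars_iff _).2 ⟨Units.mk0 _ hne, ?_⟩
    refine ext_basis (Pi.basisFun F ι) fun k => ?_
    rw [Pi.basisFun_apply, hcc, hcol, Matrix.smul_mulVec, Matrix.one_mulVec, Units.val_mk0]
  set b : ι → F := (x : Matrix ι ι F) *ᵥ a with hb
  have hxI : x ∈ iso f := (mem_iso x).2 (hI x hx)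
  have ha0 : a ≠ 0 := by
    rintro rfl
    exact ha 0 (by rw [zero_smul, hb, Matrix.mulVec_zero])
  -- the commutator
  have hyR : st hf a 1 * st hf b (-1) ∈ R := by
    have h1 : st hf a 1 * x * (st hf a 1)⁻¹ ∈ R := (Subgroup.mem_normalizer_iff.1 (h a 1) x).1 hx
    have h3 := R.mul_mem h1 (R.inv_mem hx)
    have h4 : st hf a 1 * x * (st hf a 1)⁻¹ * x⁻¹ = st hf a 1 * st hf b (-1) := by
      have h5 : (st hf a 1)⁻¹ = st hf a (-1) := by
        rw [inv_eq_iff_mul_eq_one]
        apply gl_ext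
        intro v
        rw [Units.val_mul, ← Matrix.mulVec_mulVec, st_mulVec, st_mulVec, Units.val_one, Matrix.one_mulVec]
        rw [hf.bilinear.add_left, hf.bilinear.smul_left, hf.alternating]
        module
      rw [h5]
      have h6 := st_conj hf x hxI a (-1)
      rw [← hb] at h6
      rw [← h6]
      group
    rwa [h4] at h3
  set y := st hf a 1 * st hf b (-1) with hy
  obtain ⟨c, hcs⟩ := (mem_scalars_iff _).1 (sq_scalar hf hI hal hc hyR)
  have hyv : ∀ v, (y : Matrix ι ι F) *ᵥ v = v - f v b • b + (f v a - f v b * f b a) • a := by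
    intro v
    rw [hy, Units.val_mul, ← Matrix.mulVec_mulVec, st_mulVec, st_mulVec, hf.bilinear.add_left, hf.bilinear.smul_left]
    module
  have hyy : ∀ v, (y : Matrix ι ι F) *ᵥ ((y : Matrix ι ι F) *ᵥ v) = (c : F) • v := by
    intro v
    rw [Matrix.mulVec_mulVec, ← Units.val_mul, hcs, Matrix.smul_mulVec, Matrix.one_mulVec]
  have hc1 : (c : F) = 1 := by
    obtain ⟨w, hw0, hwa, hwb⟩ := exists_perp_two hf hn a b
    have h1 : (y : Matrix ι ι F) *ᵥ w = w := by
      rw [hyv, swap_eq hf hwa, swap_eq hf hwb]; module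
    have h3 := hyy w
    rw [h1, h1] at h3
    obtain ⟨i, hi⟩ := Function.ne_iff.1 hw0
    have h4 := congrFun h3 i
    rw [Pi.smul_apply, smul_eq_mul] at h4
    have h5 : ((c : F) - 1) * w i = 0 := by linear_combination -h4
    have := (mul_eq_zero.1 h5).resolve_right hi
    linear_combination this
  have hindep : ∀ α β : F, α • a + β • b = 0 → β = 0 ∧ α = 0 := by
    intro α β h0
    have hβ : β = 0 := by
      by_contra hne
      apply ha (-(β⁻¹ * α))
      have h1 : β • b = -(α • a) := (eq_neg_of_add_eq_zero_right h0)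
      calc b = β⁻¹ • (β • b) := by rw [smul_smul, inv_mul_cancel₀ hne, one_smul]
        _ = -(β⁻¹ * α) • a := by rw [h1]; module
    refine ⟨hβ, ?_⟩
    rw [hβ, zero_smul, add_zero] at h0
    exact (smul_eq_zero.1 h0).resolve_right ha0
  set d := f b a with hd
  have hdab : f a b = -d := by rw [hd, hf.skew]
  have hd0 : d = 0 := by
    have h1 := hyy b
    rw [hc1, one_smul] at h1
    have e1 : (y : Matrix ι ι F) *ᵥ b = b + d • a := by
      rw [hyv, hf.alternating]; module
    have e2 : (y : Matrix ι ι F) *ᵥ a = a + d • b + (d * d) • a := by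
      rw [hyv, hf.alternating, hdab]; module
    rw [e1, Matrix.mulVec_add, Matrix.mulVec_smul, e1, e2] at h1
    have h3 : (2 * d + d * d * d) • a + (d * d) • b = 0 := by
      have h4 : b + d • a + d • (a + d • b + (d * d) • a) - b = 0 := by rw [h1, sub_self]
      rw [← h4]; module
    have := (hindep _ _ h3).1
    exact mul_self_eq_zero.1 this
  obtain ⟨⟨v, hv⟩, _⟩ := hf.nondegenerate a ha0
  have h1 := hyy v
  rw [hc1, one_smul] at h1
  have e1 : (y : Matrix ι ι F) *ᵥ b = b := by
    rw [hyv, hf.alternating, ← hd, hd0]; module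
  have e2 : (y : Matrix ι ι F) *ᵥ a = a := by
    rw [hyv, hf.alternating, hdab, hd0]; module
  have e3 : (y : Matrix ι ι F) *ᵥ v = v - f v b • b + f v a • a := by
    rw [hyv, hd0, mul_zero, sub_zero]
  rw [e3, Matrix.mulVec_add, Matrix.mulVec_sub, Matrix.mulVec_smul, Matrix.mulVec_smul, e1, e2, e3] at h1
  have h3 : (2 * f v a) • a + (-(2 * f v b)) • b = 0 := by
    have h4 : v - f v b • b + f v a • a - f v b • b + f v a • a - v = 0 := by rw [h1, sub_self]
    rw [← h4]; module
  have h5 := (hindep _ _ h3).2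
  rcases mul_eq_zero.1 h5 with h6 | h6
  · exact h2 h6
  · exact hv h6

/-! dimensions -/

theorem dvd_finrank [Nonempty ι] {r : ℕ} {K : Subalgebra F (Matrix ι ι F)} (hK : IsFieldSubalgebra r K) (L : Submodule F (ι → F))
    (hL : ∀ k ∈ K, ∀ v ∈ L, k *ᵥ v ∈ L) : r ∣ finrank F L := by
  have hfield : IsField K :=
    { exists_pair_ne := ⟨0, 1, zero_ne_one⟩
      mul_comm := fun x y => Subtype.ext (hK.comm x x.2 y y.2)
      mul_inv_cancel := by
        intro a ha
        obtain ⟨y, hy, hxy⟩ := hK.inv a a.2 (fun h => ha (Subtype.ext h))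
        exact ⟨⟨y, hy⟩, Subtype.ext hxy⟩ }
  let : CommRing K := { (inferInstance : Ring K) with mul_comm := hfield.mul_comm }
  let : Field K := hfield.toField
  let algFK : Algebra F K := inferInstance
  letI : Module K L :=
    { smul := fun k v => ⟨(k : Matrix ι ι F) *ᵥ (v : ι → F), hL k k.2 v v.2⟩
      one_smul := fun v => Subtype.ext (Matrix.one_mulVec (v : ι → F))
      mul_smul := fun x y v => Subtype.ext (Matrix.mulVec_mulVec (v : ι → F) (x : Matrix ι ι F) (y : Matrix ι ι F)).symm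
      smul_zero := fun x => Subtype.ext (Matrix.mulVec_zero (x : Matrix ι ι F))
      smul_add := fun x v w => Subtype.ext (Matrix.mulVec_add (x : Matrix ι ι F) (v : ι → F) (w : ι → F))
      add_smul := fun x y v => Subtype.ext (Matrix.add_mulVec (x : Matrix ι ι F) (y : Matrix ι ι F) (v : ι → F))
      zero_smul := fun v => Subtype.ext (Matrix.zero_mulVec (v : ι → F)) }
  haveI : IsScalarTower F K L := ⟨fun a k v => Subtype.ext (Matrix.smul_mulVec a (k : Matrix ι ι F) (v : ι → F))⟩
  rw [← hK.finrank_eq]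
  exact ⟨_, (Module.finrank_mul_finrank F K L).symm⟩

/-- restriction of a form to a subspace -/
noncomputable def resB (hf : IsSymplecticForm f) (W : Submodule F (ι → F)) : LinearMap.BilinForm F W :=
  LinearMap.mk₂ F (fun x y => f (x : ι → F) (y : ι → F))
    (fun x y v => hf.bilinear.add_left _ _ _) (fun c x v => hf.bilinear.smul_left _ _ _)
    (fun v x y => hf.bilinear.add_right _ _ _) (fun c v x => hf.bilinear.smul_right _ _ _)

theorem resB_apply (hf : IsSymplecticForm f) (W : Submodule F (ι → F)) (x y : W) : resB hf W x y = f x y := rfl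

/-- a Lagrangian stable under a self-adjoint algebra -/
theorem lagrangian (hf : IsSymplecticForm f) {W : Submodule F (ι → F)} (hW : IsNondegenerateOn f W)
    (K : Subalgebra F (Matrix ι ι F)) (hcomm : ∀ x ∈ K, ∀ y ∈ K, x * y = y * x)
    (hs : IsSelfAdjointFor f K) (hz : ∀ k ∈ K, ∀ v, f (k *ᵥ v) v = 0)
    (hKW : ∀ k ∈ K, ∀ v ∈ W, k *ᵥ v ∈ W) :
    ∃ L : Submodule F (ι → F), L ≤ W ∧ (∀ k ∈ K, ∀ v ∈ L, k *ᵥ v ∈ L) ∧ finrank F W = 2 * finrank F L := by
  let S : Set (Submodule F (ι → F)) := {L | L ≤ W ∧ (∀ k ∈ K, ∀ v ∈ L, k *ᵥ v ∈ L) ∧ ∀ u ∈ L, ∀ v ∈ L, f u v = 0}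
  obtain ⟨L, ⟨hLW, hLK, hLi⟩, hmax⟩ := WellFounded.has_min
    (wellFounded_gt : WellFounded ((· > ·) : Submodule F (ι → F) → Submodule F (ι → F) → Prop)) S
    ⟨⊥, bot_le, by
      intro k _ v hv
      rw [Submodule.mem_bot] at hv ⊢
      rw [hv, Matrix.mulVec_zero], by
      intro u hu v _
      rw [Submodule.mem_bot] at hu
      rw [hu, zero_left hf]⟩
  refine ⟨L, hLW, hLK, ?_⟩
  -- the perpendicular space is L
  have hperp : ∀ v ∈ W, (∀ u ∈ L, f u v = 0) → v ∈ L := by
    intro v hv h0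
    by_contra hvL
    let Kv : Submodule F (ι → F) :=
      { carrier := {x | ∃ k ∈ K, x = k *ᵥ v}
        add_mem' := by
          rintro _ _ ⟨k, hk, rfl⟩ ⟨l, hl, rfl⟩
          exact ⟨k + l, K.add_mem hk hl, (Matrix.add_mulVec k l v).symm⟩
        zero_mem' := ⟨0, K.zero_mem, (Matrix.zero_mulVec v).symm⟩
        smul_mem' := by
          rintro c _ ⟨k, hk, rfl⟩
          exact ⟨c • k, K.smul_mem hk c, (Matrix.smul_mulVec c k v).symm⟩ }
    have hin : L ⊔ Kv ∈ S := by
      refine ⟨sup_le hLW ?_, ?_, ?_⟩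
      · rintro _ ⟨k, hk, rfl⟩
        exact hKW k hk v hv
      · intro k hk x hx
        obtain ⟨y, hy, z, ⟨l, hl, rfl⟩, rfl⟩ := Submodule.mem_sup.1 hx
        rw [Matrix.mulVec_add]
        refine Submodule.add_mem_sup (hLK k hk y hy) ?_
        exact ⟨k * l, K.mul_mem hk hl, by rw [Matrix.mulVec_mulVec]⟩
      · intro x hx x' hx'
        obtain ⟨y, hy, z, ⟨l, hl, rfl⟩, rfl⟩ := Submodule.mem_sup.1 hx
        obtain ⟨y', hy', z', ⟨l', hl', rfl⟩, rfl⟩ := Submodule.mem_sup.1 hx'
        have e1 : f y (l' *ᵥ v) = 0 := by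
          rw [← hs l' hl']
          exact h0 _ (hLK l' hl' y hy)
        have e2 : f (l *ᵥ v) y' = 0 := by
          rw [hs l hl, hf.skew, h0 _ (hLK l hl y' hy'), neg_zero]
        have e3 : f (l *ᵥ v) (l' *ᵥ v) = 0 := by
          rw [← hs l' hl', Matrix.mulVec_mulVec]
          exact hz _ (K.mul_mem hl' hl) v
        rw [hf.bilinear.add_left, hf.bilinear.add_right, hf.bilinear.add_right, hLi y hy y' hy', e1, e2, e3]
        ring
    refine hmax _ hin (lt_of_le_of_ne le_sup_left ?_)
    intro h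
    apply hvL
    rw [h]
    exact Submodule.mem_sup_right ⟨1, K.one_mem, (Matrix.one_mulVec v).symm⟩
  have hnd : (resB hf W).Nondegenerate := by
    refine ⟨?_, ?_⟩
    · intro x hx
      by_contra hne
      obtain ⟨_, ⟨y, hy, hxy⟩⟩ := hW x x.2 (fun h => hne (Subtype.ext h))
      exact hxy (hx ⟨y, hy⟩)
    · intro x hx
      by_contra hne
      obtain ⟨⟨y, hy, hxy⟩, _⟩ := hW x x.2 (fun h => hne (Subtype.ext h))
      exact hxy (hx ⟨y, hy⟩)
  have hrefl : (resB hf W).IsRefl := by
    intro x y h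
    rw [resB_apply] at h ⊢
    exact swap_eq hf h
  have h1 := LinearMap.BilinForm.finrank_orthogonal hnd (L.comap W.subtype)
  have h2 : (resB hf W).orthogonal (L.comap W.subtype) = L.comap W.subtype := by
    ext x
    rw [LinearMap.BilinForm.mem_orthogonal_iff, Submodule.mem_comap]
    constructor
    · intro hx
      refine hperp x x.2 fun u hu => ?_
      exact hx ⟨u, hLW hu⟩ hu
    · intro hx y hy
      exact hLi y hy x hx
  rw [h2] at h1
  have h3 : finrank F (L.comap W.subtype) = finrank F L := by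
    rw [LinearEquiv.finrank_eq (Submodule.comapSubtypeEquivOfLe hLW)]
  have h4 := Submodule.finrank_le (L.comap W.subtype)
  rw [h3] at h1 h4
  omega

/-- non-degenerate subspaces have even dimension -/
theorem even_of_nondeg (hf : IsSymplecticForm f) {W : Submodule F (ι → F)} (hW : IsNondegenerateOn f W) : Even (finrank F W) := by
  obtain ⟨L, _, _, h⟩ := lagrangian hf hW ⊥ (by
    intro x hx y hy
    rw [Algebra.mem_bot] at hx hy
    obtain ⟨a, rfl⟩ := hx
    obtain ⟨b, rfl⟩ := hy
    rw [← map_mul, ← map_mul, mul_comm]) (by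
    intro k hk u v
    rw [Algebra.mem_bot] at hk
    obtain ⟨a, rfl⟩ := hk
    rw [Algebra.algebraMap_eq_smul_one, Matrix.smul_mulVec, Matrix.smul_mulVec, Matrix.one_mulVec, Matrix.one_mulVec,
      hf.bilinear.smul_left, hf.bilinear.smul_right]) (by
    intro k hk v
    rw [Algebra.mem_bot] at hk
    obtain ⟨a, rfl⟩ := hk
    rw [Algebra.algebraMap_eq_smul_one, Matrix.smul_mulVec, Matrix.one_mulVec, hf.bilinear.smul_left, hf.alternating, mul_zero]) (by
    intro k hk v hv
    rw [Algebra.mem_bot] at hk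
    obtain ⟨a, rfl⟩ := hk
    rw [Algebra.algebraMap_eq_smul_one, Matrix.smul_mulVec, Matrix.one_mulVec]
    exact W.smul_mem a hv)
  exact ⟨finrank F L, by rw [h, two_mul]⟩

/-- the degree of a self-adjoint field divides half the dimension -/
theorem dvd_of_selfadj [Nonempty ι] (hf : IsSymplecticForm f) {r : ℕ} {K : Subalgebra F (Matrix ι ι F)} (hK : IsFieldSubalgebra r K)
    (hs : IsSelfAdjointFor f K) (hz : ∀ k ∈ K, ∀ v, f (k *ᵥ v) v = 0) : 2 * r ∣ Fintype.card ι := by
  obtain ⟨L, _, hL, h⟩ := lagrangian hf (W := ⊤) (fun w _ hw0 => by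
    obtain ⟨⟨x, hx⟩, ⟨y, hy⟩⟩ := hf.nondegenerate w hw0
    exact ⟨⟨x, trivial, hx⟩, ⟨y, trivial, hy⟩⟩) K hK.comm hs hz (fun _ _ _ _ => trivial)
  rw [finrank_top, Module.finrank_fintype_fun_eq_card] at h
  rw [h]
  exact mul_dvd_mul_left 2 (dvd_finrank hK L hL)

end gen

end CfsgLib.SpMax19
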