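import Cfsg.Agent.EqBase
import Cfsg.Agent.LibSpMaxC19

/-!
# Maximal subgroups of symplectic groups: the alternatives
-/

set_option autoImplicit false
set_option linter.all false
set_option maxHeartbeats 400000

open Module Cfsg Cfsg.Geo
open scoped Matrix MatrixGroups Kronecker

namespace CfsgLib.SpMax19

open CfsgLib.AschF CfsgLib.Asch9 CfsgLib.Asch10 CfsgLib.Asch16 CfsgLib.Asch18 CfsgLib.Asch7 CfsgLib.Asch12 CfsgLib.Asch11 CfsgLib.Asch17
open CfsgLib.SympTv29 (st st_mulVec st_fix st_mem_iso st_conj iso mem_iso zero_left zero_right neg_left neg_right swap_ne swap_eq exists_perp)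

section main
variable {F : Type*} [Field F] [Fintype F]

theorem eq_inf {m : ℕ} {H : Subgroup (GL (Fin m ⊕ Fin m) F)} (hH : IsMaximalIn (spGL m F) H) {X : Subgroup (GL (Fin m ⊕ Fin m) F)}
    (hle : H ≤ X) (hn : ¬ (∀ v c, st (CfsgLib.SympTv29.sympForm_symplectic m F) v c ∈ X)) : H = X ⊓ spGL m F := by
  rcases hH.2 (X ⊓ spGL m F) (le_inf hle hH.1.le) inf_le_right with h | h
  · exact h.symm
  · exfalso
    apply hn
    intro v c
    have h1 : st (CfsgLib.SympTv29.sympForm_symplectic m F) v c ∈ X ⊓ spGL m F := by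
      rw [h]
      exact st_mem_iso _ v c
    exact h1.1

/-- the geometric alternatives for maximal subgroups of the symplectic group -/
inductive SpAlt (m : ℕ) (F : Type*) [Field F] [Fintype F] (H : Subgroup (GL (Fin m ⊕ Fin m) F)) : Prop
  | sing (W : Submodule F (Fin m ⊕ Fin m → F)) (h0 : W ≠ ⊥) (hs : IsTotallySingularFor (sympForm m F) W)
      (h : H = subspaceStabilizer W ⊓ spGL m F)
  | nond (W : Submodule F (Fin m ⊕ Fin m → F)) (h0 : W ≠ ⊥) (hs : IsNondegenerateOn (sympForm m F) W)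
      (hd : finrank F W < m) (he : Even (finrank F W)) (h : H = subspaceStabilizer W ⊓ spGL m F)
  | dec (t k : ℕ) (D : Fin t → Submodule F (Fin m ⊕ Fin m → F)) (hD : IsNondegenerateMDecomposition (sympForm m F) k D)
      (he : Even k) (ht : t * k = 2 * m) (h : H = decompositionStabilizer D ⊓ spGL m F)
  | pair (D : Fin 2 → Submodule F (Fin m ⊕ Fin m → F)) (h2 : (2 : F) ≠ 0) (ho : Odd (Fintype.card F)) (hD : IsMDecomposition m D)
      (hs : ∀ i, IsTotallySingularFor (sympForm m F) (D i)) (h : H = decompositionStabilizer D ⊓ spGL m F)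
  | fldS (r : ℕ) (K : Subalgebra F (Matrix (Fin m ⊕ Fin m) (Fin m ⊕ Fin m) F)) (hr : r.Prime) (hK : IsFieldSubalgebra r K)
      (hs : IsSelfAdjointFor (sympForm m F) K) (hz : ∀ k ∈ K, ∀ v, (sympForm m F) (k *ᵥ v) v = 0) (hd : r ∣ m)
      (h : H = subalgebraNormalizer K ⊓ spGL m F)
  | fldU (K : Subalgebra F (Matrix (Fin m ⊕ Fin m) (Fin m ⊕ Fin m) F)) (h2 : (2 : F) ≠ 0) (ho : Odd (Fintype.card F))
      (hK : IsFieldSubalgebra 2 K) (ha : IsAdjointClosedFor (sympForm m F) K) (hs : ¬ IsSelfAdjointFor (sympForm m F) K)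
      (h : H = subalgebraNormalizer K ⊓ spGL m F)
  | tp (n₁ n₂ : ℕ) (b : Basis (Fin n₁ × Fin n₂) F (Fin m ⊕ Fin m → F)) (e : (Fin m ⊕ Fin m) ≃ Fin n₁ × Fin n₂)
      (P : GL (Fin m ⊕ Fin m) F) (f₁ : (Fin n₁ → F) → (Fin n₁ → F) → F) (f₂ : (Fin n₂ → F) → (Fin n₂ → F) → F)
      (h2 : (2 : F) ≠ 0) (ho : Odd (Fintype.card F)) (he : Even n₁) (h1 : 2 ≤ n₁) (hn₂ : 3 ≤ n₂) (hc : n₁ * n₂ = 2 * m)
      (hf₁ : IsSymplecticForm f₁) (hf₂ : IsSymmetricForm f₂)
      (hF₁ : FD (RingEquiv.refl F) (-1) f₁) (hF₂ : FD (RingEquiv.refl F) 1 f₂)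
      (hform : ∀ i l j l', sympForm m F (b (i, l)) (b (j, l')) = gramMatrix f₁ i j * gramMatrix f₂ l l')
      (hirr : ActsIrreducibly (matrixSet H))
      (hkr : ∀ h ∈ H, ∃ (A : (Matrix (Fin n₁) (Fin n₁) F)ˣ) (N : (Matrix (Fin n₂) (Fin n₂) F)ˣ), KA b (h : Matrix _ _ F) A.1 N.1)
      (hst : IsTensorFormStructure id (sympForm m F) f₁ f₂ e P)
      (h : H = tensorProductSubgroup n₁ n₂ e P ⊓ spGL m F)
  | sub (F₀ : Subfield F) (r : ℕ) (P : GL (Fin m ⊕ Fin m) F) (ζ : F) (hr : r.Prime) (hc : Fintype.card F = Nat.card F₀ ^ r)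
      (hζ : ζ ≠ 0) (hS : IsFormRationalStructure (sympForm m F) F₀ ζ P) (h : H = subfieldSubgroup F₀ P ⊓ spGL m F)
  | st (p k : ℕ) (R : Subgroup (GL (Fin m ⊕ Fin m) F)) (hs : IsSymplecticTypeGroup 2 R)
      (ha : ActsAbsolutelyIrreducibly (matrixSet R)) (hsim : R ≤ similarityGroup (sympForm m F)) (hp : p.Prime) (hpo : Odd p)
      (hcard : Fintype.card F = p) (hR : Nat.card R = 2 ^ (1 + 2 * k)) (hz : Nat.card (Subgroup.center R) = 2)
      (hm : IsOfMinusType k R) (hdeg : 2 * m = 2 ^ k) (h : H = subgroupNormalizer R ⊓ spGL m F)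
  | tw (k t : ℕ) (e : (Fin m ⊕ Fin m) ≃ (Fin t → Fin k)) (P : GL (Fin m ⊕ Fin m) F) (f₁ : (Fin k → F) → (Fin k → F) → F)
      (ho : Odd (Fintype.card F)) (hto : Odd t) (ht : 3 ≤ t) (hex : ¬ (Fintype.card F = 3 ∧ k = 2)) (hk : 2 ≤ k) (hc : k ^ t = 2 * m)
      (hf₁ : IsSymplecticForm f₁) (hst : IsTensorPowerFormStructure id (sympForm m F) f₁ e P)
      (h : H = tensorWreathSubgroup k t e P ⊓ spGL m F)
  | quad (Q : (Fin m ⊕ Fin m → F) → F) (ho : ¬ Odd (Fintype.card F)) (hQ : IsNondegenerateQuadraticForm Q)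
      (hp : ∀ u v, QuadraticMap.polar Q u v = sympForm m F u v) (h : H = quadSimilarityGroup Q ⊓ spGL m F)
  | res (h : InSymplecticResidualClass H)

theorem sub_ne_top {F₀ : Subfield F} {r : ℕ} (hr : r.Prime) (hc : Fintype.card F = Nat.card F₀ ^ r) : F₀ ≠ ⊤ := by
  rintro rfl
  have h1 : Nat.card (⊤ : Subfield F) = Fintype.card F := by
    rw [← Nat.card_eq_fintype_card]
    exact Nat.card_congr Subfield.topEquiv.toEquiv
  rw [h1] at hc
  have h2 := Fintype.one_lt_card (α := F)
  have h3 : Fintype.card F ^ 1 < Fintype.card F ^ r := Nat.pow_lt_pow_right h2 hr.one_lt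
  rw [pow_one, ← hc] at h3
  exact lt_irrefl _ h3

theorem dec_card {m t k : ℕ} {D : Fin t → Submodule F (Fin m ⊕ Fin m → F)} (hD : IsMDecomposition k D) : t * k = 2 * m := by
  classical
  have h1 : DirectSum.IsInternal D := (DirectSum.isInternal_submodule_iff_iSupIndep_and_iSup_eq_top D).2 ⟨hD.indep, hD.iSup_eq_top⟩
  have h2 : finrank F (Fin m ⊕ Fin m → F) = ∑ i, finrank F (D i) := by
    rw [← (LinearEquiv.ofBijective (DirectSum.coeLinearMap D) h1).finrank_eq]
    exact Module.finrank_directSum F _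
  rw [Module.finrank_fintype_fun_eq_card] at h2
  simp only [hD.finrank_eq, Fintype.card_sum, Fintype.card_fin, Finset.sum_const, Finset.card_univ, smul_eq_mul] at h2
  omega

theorem sp_alt {m : ℕ} (hm : 2 ≤ m) (H : Subgroup (GL (Fin m ⊕ Fin m) F))
    (hmax : IsMaximalIn (spGL m F) H) : SpAlt m F H := by
  classical
  have hH := hmax.1.le
  have hcard : Fintype.card (Fin m ⊕ Fin m) = 2 * m := by simp; ring
  have hne : Nonempty (Fin m ⊕ Fin m) := ⟨Sum.inl ⟨0, by omega⟩⟩
  have hsym := CfsgLib.SympTv29.sympForm_symplectic m F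
  have hf := fd_of_symp hsym
  have halt := hsym.alternating
  have hI : Iso (sympForm m F) H := fun g hg u v => hH hg u v
  have hquad : (2 : F) = 0 → (∃ Q, QF (sympForm m F) Q ∧ ∀ g ∈ H, ∀ v, Q ((g : Matrix _ _ F) *ᵥ v) = Q v) →
      SpAlt m F H := by
    rintro h2 ⟨Q, hQ, hQH⟩
    exact SpAlt.quad Q (not_odd_of_two h2) (hQ.nondegQ hf) hQ.polar (eq_inf hmax (qsim_of hQH) (not_quad _ (by omega) hQ h2))
  have hdec : ∀ (t k : ℕ) (D : Fin t → Submodule F (Fin m ⊕ Fin m → F)), IsNondegenerateMDecomposition (sympForm m F) k D →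
      H ≤ decompositionStabilizer D → SpAlt m F H := by
    intro t k D hD h
    refine SpAlt.dec t k D hD ?_ (dec_card hD.decomp) (eq_inf hmax h (not_dec _ hD.decomp))
    have h1 := even_of_nondeg hsym (hD.nondegenerate ⟨0, by have := hD.decomp.two_le; omega⟩)
    rwa [hD.decomp.finrank_eq] at h1
  have hpair : ∀ (k : ℕ) (D : Fin 2 → Submodule F (Fin m ⊕ Fin m → F)), IsMDecomposition k D →
      (∀ i, IsTotallySingularFor (sympForm m F) (D i)) →
      H ≤ decompositionStabilizer D → SpAlt m F H := by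
    intro k D hD hs h
    by_cases h2 : (2 : F) = 0
    · exact hquad h2 (pair_quad hf halt h2 hI hD hs h)
    · have hkm : k = m := by
        have := mdec_card hD
        rw [hcard] at this
        omega
      subst hkm
      exact SpAlt.pair D h2 (odd_card h2) hD hs (eq_inf hmax h (not_dec _ hD))
  have hfld : ∀ (r : ℕ) (K : Subalgebra F (Matrix (Fin m ⊕ Fin m) (Fin m ⊕ Fin m) F)), r.Prime → IsFieldSubalgebra r K →
      H ≤ subalgebraNormalizer K → IsAdjointClosedFor (sympForm m F) K →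
      (IsSelfAdjointFor (sympForm m F) K ∨ (r = 2 ∧ ¬ IsSelfAdjointFor (sympForm m F) K)) →
      SpAlt m F H := by
    intro r K hr hK h ha hc
    have hnot := not_fld hsym (by omega) hK hr.two_le
    rcases hc with hs | ⟨hr2, hs⟩
    · refine SpAlt.fldS r K hr hK hs (self_adj_zero hf halt hK hs) ?_ (eq_inf hmax h hnot)
      have h1 := dvd_of_selfadj hsym hK hs (self_adj_zero hf halt hK hs)
      rw [hcard] at h1
      exact Nat.dvd_of_mul_dvd_mul_left (by norm_num) h1
    · subst hr2
      by_cases h2 : (2 : F) = 0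
      · exact hquad h2 (fld_two_quad hf h2 hI hK h ha hs)
      · exact SpAlt.fldU K h2 (odd_card h2) hK ha hs (eq_inf hmax h hnot)
  -- tensor products in odd characteristic
  have htp : ∀ (n₁ n₂ : ℕ) (b : Basis (Fin n₁ × Fin n₂) F (Fin m ⊕ Fin m → F))
      (f₁ : (Fin n₁ → F) → (Fin n₁ → F) → F) (f₂ : (Fin n₂ → F) → (Fin n₂ → F) → F)
      (h1 : 2 ≤ n₁) (h2 : 2 ≤ n₂) (hf₁ : FD (RingEquiv.refl F) (-1) f₁) (hf₂ : FD (RingEquiv.refl F) 1 f₂)
      (hform : ∀ i l j l', sympForm m F (b (i, l)) (b (j, l')) = gramMatrix f₁ i j * gramMatrix f₂ l l')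
      (hirr : ActsIrreducibly (matrixSet H))
      (hkr : ∀ h ∈ H, ∃ (A : (Matrix (Fin n₁) (Fin n₁) F)ˣ) (N : (Matrix (Fin n₂) (Fin n₂) F)ˣ),
        KA b (h : Matrix _ _ F) A.1 N.1), (2 : F) ≠ 0 → SpAlt m F H := by
    intro n₁ n₂ b f₁ f₂ h1 h2 hf₁ hf₂ hform hirr hkr h20
    rcases (by omega : n₂ = 2 ∨ 3 ≤ n₂) with hn2 | hn2
    · subst hn2
      rcases tp_two b hf h20 hI hirr (by omega) hf₁ hf₂ hform hkr with ⟨t, k, D, hD, h⟩ | ⟨k, D, hD, hs, h⟩ | ⟨r, K, hr, hK, h, ha, hc⟩
      · exact hdec t k D hD h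
      · exact hpair k D hD hs h
      · exact hfld r K hr hK h ha hc
    · have hcn : Fintype.card (Fin m ⊕ Fin m) = n₁ * n₂ := by
        have := Module.finrank_eq_card_basis b
        rw [Module.finrank_fintype_fun_eq_card, Fintype.card_prod, Fintype.card_fin, Fintype.card_fin] at this
        exact this
      have e : (Fin m ⊕ Fin m) ≃ Fin n₁ × Fin n₂ := Fintype.equivOfCardEq (by
        rw [hcn, Fintype.card_prod, Fintype.card_fin, Fintype.card_fin])
      obtain ⟨P, hP⟩ := exists_P (b.reindex e.symm)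
      have hs1 := symp_of_fd hf₁ (alt_of_neg hf₁ h20)
      have hev : Even n₁ := by
        have := CfsgLib.Asch13.symplectic_even hs1
        rwa [Fintype.card_fin] at this
      exact SpAlt.tp n₁ n₂ b e P f₁ f₂ h20 (odd_card h20) hev h1 hn2 (by rw [← hcn, hcard]) hs1 (symm_of_fd hf₂) hf₁ hf₂ hform hirr hkr
        (tensor_structure hf b hform e P hP) (eq_inf hmax (le_tensorProduct_P b H hkr e P hP) (not_tp hsym h1 h2 e P))
  rcases aschbacherF hf (by rw [hcard]; omega) H hI with h | ⟨hirr, N, hcore, hreal⟩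
  · cases h with
    | sing W h0 hs h =>
      refine SpAlt.sing W h0 hs (eq_inf hmax h (not_stab hsym h0 ?_))
      rintro rfl
      obtain ⟨v, hv⟩ := exists_ne (0 : Fin m ⊕ Fin m → F)
      obtain ⟨⟨x, hx⟩, _⟩ := hsym.nondegenerate v hv
      exact hx (hs x trivial v trivial)
    | nond W h0 hs hd h =>
      rw [hcard] at hd
      refine SpAlt.nond W h0 hs (by omega) (even_of_nondeg hsym hs) (eq_inf hmax h (not_stab hsym h0 ?_))
      rintro rfl
      rw [finrank_top, Module.finrank_fintype_fun_eq_card, hcard] at hd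
      omega
    | dec t k D hD _ h => exact hdec t k D hD h
    | pair k D hD hs _ h => exact hpair k D hD hs h
    | fld r K hr hK h ha hc _ =>
      rcases hc with ⟨_, hc⟩ | ⟨hc, _⟩
      · exact hfld r K hr hK h ha hc
      · exact absurd rfl hc
    | tp n₁ n₂ b ε₁ ε₂ f₁ f₂ h1 h2 hf₁ hf₂ hε _ hform hirr hkr =>
      by_cases h20 : (2 : F) = 0
      · exact hquad h20 (tp_even b hf halt h20 hI hirr h1 h2 hf₁ hf₂ hform hkr)
      · rcases hf₁.eps with he | he
        · rw [he] at hε hf₁
          rw [one_mul] at hε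
          rw [hε] at hf₂
          exact htp n₂ n₁ (b.reindex (Equiv.prodComm _ _)) f₂ f₁ h2 h1 hf₂ hf₁ (form_swap b hform) hirr
            (fun h hh => by
              obtain ⟨A, N, hk⟩ := hkr h hh
              exact ⟨N, A, KA_swap b hk⟩) h20
        · rw [he] at hε hf₁
          have : ε₂ = 1 := by linear_combination -hε
          rw [this] at hf₂
          exact htp n₁ n₂ b f₁ f₂ h1 h2 hf₁ hf₂ hform hirr hkr h20
    | sub F₀ r P ζ hr hc hζ hS h _ _ _ _ =>
      exact SpAlt.sub F₀ r P ζ hr hc hζ hS (eq_inf hmax h (not_sub hsym (by omega) (sub_ne_top hr hc) P))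
    | st r k z p e R hR hk hal hc hRH hrp hmf h =>
      have hIR := hI.mono hRH
      have hz2 : z ≤ 2 := by
        rw [← hR.center]
        have hinj : ∀ x : Subgroup.center R, ∃ s : Bool, (((x : R) : GL (Fin m ⊕ Fin m) F) : Matrix (Fin m ⊕ Fin m) (Fin m ⊕ Fin m) F) =
            (if s then (1 : F) else -1) • (1 : Matrix (Fin m ⊕ Fin m) (Fin m ⊕ Fin m) F) := by
          intro x
          have h1 : (x : R) ∈ (scalars (Fin m ⊕ Fin m) F).subgroupOf R := by rw [← center_eq hal]; exact x.2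
          rw [Subgroup.mem_subgroupOf, mem_scalars_iff] at h1
          obtain ⟨c, hc'⟩ := h1
          rcases scalar_pm hf (hIR _ (x : R).2) hc' with h | h
          · exact ⟨true, by rw [hc', h]; simp⟩
          · exact ⟨false, by rw [hc', h]; simp⟩
        choose s hs using hinj
        have h1 : Function.Injective s := by
          intro x y hxy
          ext1; ext1; ext1
          rw [hs, hs, hxy]
        have h3 := Nat.card_le_card_of_injective s h1
        rwa [Nat.card_eq_fintype_card (α := Bool), Fintype.card_bool] at h3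
      have hr2 : r = 2 ∧ z = 2 := by
        rcases hR.hz with ⟨ho, hz⟩ | ⟨h1, hz⟩
        · exfalso
          have := hR.prime.two_le
          rw [hz] at hz2
          have : r = 2 := by omega
          rw [this] at ho
          exact absurd ho (by decide)
        · exact ⟨h1, by omega⟩
      obtain ⟨hr2, hz⟩ := hr2
      subst hr2
      subst hz
      have h20 : (2 : F) ≠ 0 := by
        have := hR.rne
        exact_mod_cast this
      obtain ⟨hp, hchar, hcd, hzd, hmin⟩ := hmf
      have hpo : Odd p := by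
        rcases hp.eq_two_or_odd' with h1 | h1
        · exact absurd h1.symm hrp
        · exact h1
      have he0 : 0 < e := by
        rw [Nat.pos_iff_ne_zero]
        rintro rfl
        rw [pow_zero] at hcd
        have := Fintype.one_lt_card (α := F)
        omega
      have he1 : e = 1 := by
        by_contra hne'
        apply hmin 1 (by norm_num) (by omega)
        rw [pow_one]
        obtain ⟨j, hj⟩ := hpo
        exact ⟨j, by omega⟩
      rw [he1, pow_one] at hcd
      refine SpAlt.st p k R hR.st (absIrred_of_alg hal) ?_ hp hpo hcd ?_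
        hR.center (minus_type hf halt h20 hIR hal hc hR.card hR.deg) ?_ (eq_inf hmax h (not_st hsym (by omega) h20 hIR hal hc))
      · intro x hx
        exact ⟨1, fun u v => by rw [hIR x hx, Units.val_one, one_mul]⟩
      · rw [hR.card, pow_add, pow_one, mul_comm]
      · rw [← hcard, hR.deg]
    | tw m' t e P b hP ε₁ f₁ hf₁ hε _ hm' ht c hc hform hS hTW N hNH hnrd halg hperf hPT h =>
      by_cases h20 : (2 : F) = 0
      · exact hquad h20 (tw_even b hf halt h20 ht hI hf₁ hc hform hTW)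
      · have hε := hε rfl
        have hε1 : ε₁ = -1 := by
          rcases hf₁.eps with h1 | h1
          · rw [h1, one_pow] at hε
            exfalso; apply h20; linear_combination hε
          · exact h1
        have hto : Odd t := by
          rcases Nat.even_or_odd t with h1 | h1
          · rw [hε1, h1.neg_one_pow] at hε
            exfalso; apply h20; linear_combination hε
          · exact h1
        rw [hε1] at hf₁
        refine SpAlt.tw m' t e P f₁ (odd_card h20) hto ?_ ?_ hm' ?_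
          (symp_of_fd hf₁ (alt_of_neg hf₁ h20)) hS (eq_inf hmax h (not_tw hsym hm' ht e P))
        · obtain ⟨j, hj⟩ := hto
          omega
        · rintro ⟨h3, hm2⟩
          subst hm2
          have hsolv := gl_two_three h3
          have h1 := PT_solvable b hperf (K := ⊤) (fun x hx => by
            obtain ⟨P, hP⟩ := hPT x hx
            exact ⟨P, fun s => Subgroup.mem_top _, hP⟩)
          apply not_scal_of_alg (by rw [hcard]; omega) halg
          rw [h1]; exact bot_le
        · have h1 := Fintype.card_congr e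
          rw [hcard, Fintype.card_fun, Fintype.card_fin, Fintype.card_fin] at h1
          exact h1.symm
  · have hIN := hI.mono hcore.le
    by_cases hq : ∃ Q : (Fin m ⊕ Fin m → F) → F, IsNondegenerateQuadraticForm Q ∧ FixesQuadForm (matrixSet N) Q
    · obtain ⟨Q, hQ, hfix⟩ := hq
      obtain ⟨h2, h⟩ := quad_core (by rw [hcard]; omega) hf halt hI hcore.le hcore.normal hcore.alg hQ hfix
      exact hquad h2 h
    · exact SpAlt.res ⟨N, ⟨hcore.le, hcore.normal, hcore.perfect, hcore.simple, hcore.nonabelian, hcore.centralizer_scalar,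
        absIrred_of_alg hcore.alg, hreal⟩, hq, no_unitary hf hcore.alg hIN hreal⟩

end main

end CfsgLib.SpMax19
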