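import Cfsg.Agent.EqBase
import Cfsg.Agent.LibSpMaxD19

/-!
# Small fields: binary decompositions are quadratic, ternary orthogonal groups are monomial
-/

set_option autoImplicit false
set_option linter.all false
set_option maxHeartbeats 400000

open Module Cfsg Cfsg.Geo
open scoped Matrix MatrixGroups Kronecker

namespace CfsgLib.SpMax19

open CfsgLib.AschF CfsgLib.Asch9 CfsgLib.Asch10 CfsgLib.Asch16
open CfsgLib.SympTv29 (st st_mulVec st_fix st_mem_iso st_conj iso mem_iso zero_left zero_right neg_left neg_right swap_ne swap_eq exists_perp)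
open CfsgLib.MaxTv29 (gl_ext mem_stab mulVec_inv_mulVec inv_mulVec_mulVec mulVec_injective)

section gen
variable {ι : Type} [Fintype ι] [DecidableEq ι] {F : Type*} [Field F]
variable {f : (ι → F) → (ι → F) → F}

theorem nd_indep (hf : IsSymplecticForm f) {t : ℕ} {D : Fin t → Submodule F (ι → F)} (hnd : ∀ i, IsNondegenerateOn f (D i))
    (horth : ∀ i j, i ≠ j → AreOrthogonalFor f (D i) (D j)) : iSupIndep D := by
  intro i
  rw [Submodule.disjoint_def]
  intro x hx hx'
  by_contra hne
  obtain ⟨⟨y, hy, hyx⟩, _⟩ := hnd i x hx hne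
  apply hyx
  let Z : Submodule F (ι → F) :=
    { carrier := {z | f y z = 0}
      add_mem' := fun {a b} ha hb => by
        change f y a = 0 at ha
        change f y b = 0 at hb
        change f y (a + b) = 0
        rw [hf.bilinear.add_right, ha, hb, add_zero]
      zero_mem' := zero_right hf y
      smul_mem' := fun c a ha => by
        change f y a = 0 at ha
        change f y (c • a) = 0
        rw [hf.bilinear.smul_right, ha, mul_zero] }
  have h1 : (⨆ j, ⨆ (_ : j ≠ i), D j) ≤ Z := by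
    refine iSup_le fun j => iSup_le fun hj => ?_
    intro z hz
    exact horth i j (Ne.symm hj) y hy z hz
  exact h1 hx'

theorem card_two_eq [Fintype F] (hq : Fintype.card F = 2) (c : F) : c = 0 ∨ c = 1 := by
  have h1 := FiniteField.pow_card c
  rw [hq] at h1
  have h2 : c * (c - 1) = 0 := by linear_combination h1
  rcases mul_eq_zero.1 h2 with h | h
  · exact Or.inl h
  · exact Or.inr (by linear_combination h)

theorem card_two_two [Fintype F] (hq : Fintype.card F = 2) : (2 : F) = 0 := by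
  have h1 := FiniteField.pow_card (2 : F)
  rw [hq] at h1
  linear_combination h1

/-- over the field with two elements, decompositions into planes preserve a quadratic form -/
theorem dec_quad [Fintype F] (hf : IsSymplecticForm f) (hq : Fintype.card F = 2) {t : ℕ} {D : Fin t → Submodule F (ι → F)}
    (hD : IsNondegenerateMDecomposition f 2 D) {H : Subgroup (GL ι F)} (hI : Iso f H) (h : H ≤ decompositionStabilizer D) :
    ∃ Q, QF f Q ∧ ∀ g ∈ H, ∀ v, Q ((g : Matrix ι ι F) *ᵥ v) = Q v := by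
  classical
  have h2 := card_two_two hq
  have hint : DirectSum.IsInternal D :=
    (DirectSum.isInternal_submodule_iff_iSupIndep_and_iSup_eq_top D).2 ⟨hD.decomp.indep, hD.decomp.iSup_eq_top⟩
  let v : ∀ i, Basis (Fin 2) F (D i) := fun i => Module.finBasisOfFinrankEq F (D i) (hD.decomp.finrank_eq i)
  let b : Basis (Σ _ : Fin t, Fin 2) F (ι → F) := hint.collectedBasis v
  have hb : ∀ i k, b ⟨i, k⟩ = (v i k : ι → F) := fun i k => congrFun (hint.collectedBasis_coe v) ⟨i, k⟩
  obtain ⟨Q₀, hQ₀, hQb⟩ := exists_QF (fd_of_symp hf) hf.alternating h2 b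
  let Q : (ι → F) → F := fun x => Q₀ x + ∑ k, b.repr x k
  have hsq : ∀ c : F, c ^ 2 = c := by
    intro c
    rcases card_two_eq hq c with h | h <;> rw [h] <;> simp
  have hQ : QF f Q := by
    refine ⟨fun c x => ?_, fun x y => ?_⟩
    · simp only [Q, hQ₀.smul, map_smul, Finsupp.smul_apply, smul_eq_mul, ← Finset.mul_sum]
      rw [hsq]; ring
    · simp only [Q, hQ₀.add, map_add, Finsupp.add_apply, Finset.sum_add_distrib]
      ring
  have hQk : ∀ k, Q (b k) = 1 := by
    intro k
    simp only [Q, hQb, Basis.repr_self, zero_add]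
    rw [Finset.sum_eq_single k]
    · simp
    · intro j _ hj
      rw [Finsupp.single_apply, if_neg (Ne.symm hj)]
    · simp
  have hone : ∀ i, f (v i 0 : ι → F) (v i 1 : ι → F) = 1 := by
    intro i
    have hne : (v i 0 : ι → F) ≠ 0 := fun h0 => (v i).ne_zero 0 (Subtype.ext h0)
    obtain ⟨_, ⟨x, hx, hfx⟩⟩ := hD.nondegenerate i (v i 0) (v i 0).2 hne
    have h1 : x = (v i).repr ⟨x, hx⟩ 0 • (v i 0 : ι → F) + (v i).repr ⟨x, hx⟩ 1 • (v i 1 : ι → F) := by
      have := congrArg Subtype.val ((v i).sum_repr ⟨x, hx⟩)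
      rw [Fin.sum_univ_two] at this
      exact this.symm
    rcases card_two_eq hq (f (v i 0 : ι → F) (v i 1 : ι → F)) with h | h
    · exfalso
      apply hfx
      rw [h1, hf.bilinear.add_right, hf.bilinear.smul_right, hf.bilinear.smul_right, hf.alternating, h]
      ring
    · exact h
  have hQ1 : ∀ i, ∀ w ∈ D i, w ≠ 0 → Q w = 1 := by
    intro i w hw hw0
    have h1 : w = (v i).repr ⟨w, hw⟩ 0 • (v i 0 : ι → F) + (v i).repr ⟨w, hw⟩ 1 • (v i 1 : ι → F) := by
      have := congrArg Subtype.val ((v i).sum_repr ⟨w, hw⟩)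
      rw [Fin.sum_univ_two] at this
      exact this.symm
    have q0 : Q (v i 0 : ι → F) = 1 := by rw [← hb]; exact hQk _
    have q1 : Q (v i 1 : ι → F) = 1 := by rw [← hb]; exact hQk _
    rcases card_two_eq hq ((v i).repr ⟨w, hw⟩ 0) with ha | ha <;> rcases card_two_eq hq ((v i).repr ⟨w, hw⟩ 1) with hc | hc <;>
      rw [ha, hc] at h1
    · exfalso; apply hw0; rw [h1]; simp
    · rw [h1, zero_smul, zero_add, one_smul, q1]
    · rw [h1, zero_smul, add_zero, one_smul, q0]
    · rw [h1, one_smul, one_smul, hQ.add, q0, q1, hone]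
      linear_combination h2
  refine ⟨Q, hQ, fun g hg x => ?_⟩
  refine hQ.preserve b g (hI g hg) ?_ x
  rintro ⟨i, k⟩
  obtain ⟨σ, hσ⟩ := h hg
  rw [hQk, hb]
  apply hQ1 (σ i)
  · rw [← hσ i]
    exact ⟨_, (v i k).2, Matrix.toLin'_apply _ _⟩
  · intro h0
    have h3 : (v i k : ι → F) = 0 := mulVec_injective g (by
      show (g : Matrix ι ι F) *ᵥ _ = (g : Matrix ι ι F) *ᵥ 0
      rw [h0, Matrix.mulVec_zero])
    exact (v i).ne_zero k (Subtype.ext h3)

end gen

section three
variable {F : Type*} [Field F] [Fintype F]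

theorem card_three_eq (hq : Fintype.card F = 3) (c : F) : c = 0 ∨ c = 1 ∨ c = -1 := by
  have h1 := FiniteField.pow_card c
  rw [hq] at h1
  have h2 : c * ((c - 1) * (c + 1)) = 0 := by linear_combination h1
  rcases mul_eq_zero.1 h2 with h | h
  · exact Or.inl h
  · rcases mul_eq_zero.1 h with h | h
    · exact Or.inr (Or.inl (by linear_combination h))
    · exact Or.inr (Or.inr (by linear_combination h))

theorem card_three_three (hq : Fintype.card F = 3) : (3 : F) = 0 := by
  have h1 := FiniteField.cast_card_eq_zero F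
  rw [hq] at h1
  exact_mod_cast h1

theorem card_three_sq (hq : Fintype.card F = 3) {c : F} (hc : c ≠ 0) : c ^ 2 = 1 := by
  rcases card_three_eq hq c with h | h | h
  · exact absurd h hc
  · rw [h]; ring
  · rw [h]; ring

theorem card_three_two (hq : Fintype.card F = 3) : (2 : F) ≠ 0 := by
  intro h
  apply one_ne_zero (α := F)
  linear_combination card_three_three hq - h

/-- orthonormal-like triples over the field with three elements -/
def Tri (g : (Fin 3 → F) → (Fin 3 → F) → F) (d : F) (u : Fin 3 → (Fin 3 → F)) : Prop :=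
  ∀ i j, g (u i) (u j) = if i = j then d else 0

theorem exists_ortho {g : (Fin 3 → F) → (Fin 3 → F) → F} (hg : IsSymmetricForm g) (h2 : (2 : F) ≠ 0) :
    ∃ u : Fin 3 → (Fin 3 → F), ∀ i j, (i ≠ j → g (u i) (u j) = 0) ∧ g (u i) (u i) ≠ 0 := by
  classical
  let B : LinearMap.BilinForm F (Fin 3 → F) := LinearMap.mk₂ F g hg.bilinear.add_left
    (fun c x v => hg.bilinear.smul_left c x v) (fun v x y => hg.bilinear.add_right v x y) (fun c v x => hg.bilinear.smul_right c v x)
  have hB : ∀ x y, B x y = g x y := fun x y => rfl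
  have hsymm : LinearMap.IsSymm B := ⟨fun x y => hg.symm x y⟩
  letI : Invertible (2 : F) := invertibleOfNonzero h2
  obtain ⟨v, hv⟩ := LinearMap.BilinForm.exists_orthogonal_basis hsymm
  have hfr : finrank F (Fin 3 → F) = 3 := by simp
  let v' : Basis (Fin 3) F (Fin 3 → F) := v.reindex (finCongr hfr)
  have hv' : ∀ i j, i ≠ j → g (v' i) (v' j) = 0 := by
    intro i j hij
    simp only [v', Basis.reindex_apply]
    have h3 : (finCongr hfr).symm i ≠ (finCongr hfr).symm j := fun h => hij ((finCongr hfr).symm.injective h)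
    have := hv h3
    exact this
  refine ⟨v', fun i j => ⟨hv' i j, fun h0 => ?_⟩⟩
  obtain ⟨⟨x, hx⟩, _⟩ := hg.nondegenerate (v' i) (v'.ne_zero i)
  apply hx
  have h3 : x = ∑ j, v'.repr x j • v' j := (v'.sum_repr x).symm
  have h4 : B x (v' i) = ∑ j, v'.repr x j * B (v' j) (v' i) := by
    conv_lhs => rw [h3]
    rw [map_sum, LinearMap.sum_apply]
    refine Finset.sum_congr rfl fun j _ => ?_
    rw [map_smul, LinearMap.smul_apply, smul_eq_mul]
  rw [← hB, h4]
  refine Finset.sum_eq_zero fun j _ => ?_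
  rw [hB]
  by_cases hj : j = i
  · rw [hj, h0, mul_zero]
  · rw [hv' j i hj, mul_zero]

theorem tri_fix (hq : Fintype.card F = 3) {g : (Fin 3 → F) → (Fin 3 → F) → F} (hg : IsSymmetricForm g) {a : F} (ha : a ≠ 0)
    {x y z : Fin 3 → F} (hx : g x x = a) (hy : g y y = a) (hz : g z z = -a) (hxy : g x y = 0) (hxz : g x z = 0) (hyz : g y z = 0) :
    ∃ (d : F) (u : Fin 3 → (Fin 3 → F)), d ≠ 0 ∧ Tri g d u := by
  have h3 := card_three_three hq
  refine ⟨-a, ![x + y, x - y, z], neg_ne_zero.2 ha, ?_⟩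
  have hnl : ∀ a b, g (-a) b = - g a b := by
    intro a b
    have := hg.bilinear.smul_left (-1) a b
    rwa [neg_one_smul, neg_one_mul] at this
  have hnr : ∀ a b, g a (-b) = - g a b := by
    intro a b
    have := hg.bilinear.smul_right (-1) a b
    rwa [neg_one_smul, neg_one_mul] at this
  have hyx : g y x = 0 := by rw [hg.symm, hxy]
  have hzx : g z x = 0 := by rw [hg.symm, hxz]
  have hzy : g z y = 0 := by rw [hg.symm, hyz]
  intro i j
  fin_cases i <;> fin_cases j <;> simp [sub_eq_add_neg, hg.bilinear.add_left, hg.bilinear.add_right, hnl, hnr,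
    hx, hy, hz, hxy, hxz, hyz, hyx, hzx, hzy]
  · linear_combination a * h3
  · linear_combination a * h3

theorem exists_tri (hq : Fintype.card F = 3) {g : (Fin 3 → F) → (Fin 3 → F) → F} (hg : IsSymmetricForm g) :
    ∃ (d : F) (u : Fin 3 → (Fin 3 → F)), d ≠ 0 ∧ Tri g d u := by
  obtain ⟨u, hu⟩ := exists_ortho hg (card_three_two hq)
  have h01 := (hu 0 1).1 (by decide)
  have h02 := (hu 0 2).1 (by decide)
  have h12 := (hu 1 2).1 (by decide)
  have h10 := (hu 1 0).1 (by decide)
  have h20 := (hu 2 0).1 (by decide)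
  have h21 := (hu 2 1).1 (by decide)
  have hpm : ∀ i, g (u i) (u i) = 1 ∨ g (u i) (u i) = -1 := by
    intro i
    rcases card_three_eq hq (g (u i) (u i)) with h | h | h
    · exact absurd h (hu i i).2
    · exact Or.inl h
    · exact Or.inr h
  have h1 : (1 : F) ≠ 0 := one_ne_zero
  have h1' : (-1 : F) ≠ 0 := neg_ne_zero.2 h1
  have hall : ∀ d : F, d ≠ 0 → (∀ i, g (u i) (u i) = d) → ∃ (d : F) (u : Fin 3 → (Fin 3 → F)), d ≠ 0 ∧ Tri g d u := by
    intro d hd h
    refine ⟨d, u, hd, fun i j => ?_⟩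
    split_ifs with hij
    · rw [← hij]; exact h i
    · exact (hu i j).1 hij
  rcases hpm 0 with h0 | h0 <;> rcases hpm 1 with h1 | h1 <;> rcases hpm 2 with h2 | h2
  · exact hall 1 one_ne_zero (fun i => by fin_cases i <;> assumption)
  · exact tri_fix hq hg one_ne_zero h0 h1 (by rw [h2]) h01 h02 h12
  · exact tri_fix hq hg one_ne_zero h0 h2 (by rw [h1]) h02 h01 h21
  · exact tri_fix hq hg (neg_ne_zero.2 one_ne_zero) h1 h2 (by rw [h0, neg_neg]) h12 h10 h20
  · exact tri_fix hq hg one_ne_zero h1 h2 (by rw [h0]) h12 h10 h20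
  · exact tri_fix hq hg (neg_ne_zero.2 one_ne_zero) h0 h2 (by rw [h1, neg_neg]) h02 h01 h21
  · exact tri_fix hq hg (neg_ne_zero.2 one_ne_zero) h0 h1 (by rw [h2, neg_neg]) h01 h02 h12
  · exact hall (-1) (neg_ne_zero.2 one_ne_zero) (fun i => by fin_cases i <;> assumption)

theorem Tri.li {g : (Fin 3 → F) → (Fin 3 → F) → F} (hg : IsSymmetricForm g) {d : F} {u : Fin 3 → (Fin 3 → F)} (hd : d ≠ 0) (hu : Tri g d u) :
    LinearIndependent F u := by
  classical
  rw [Fintype.linearIndependent_iff]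
  intro c hc i
  let B : LinearMap.BilinForm F (Fin 3 → F) := LinearMap.mk₂ F g hg.bilinear.add_left
    (fun c x v => hg.bilinear.smul_left c x v) (fun v x y => hg.bilinear.add_right v x y) (fun c v x => hg.bilinear.smul_right c v x)
  have hB : ∀ x y, B x y = g x y := fun x y => rfl
  have h1 : B (∑ j, c j • u j) (u i) = 0 := by rw [hc, map_zero, LinearMap.zero_apply]
  rw [map_sum, LinearMap.sum_apply, Finset.sum_eq_single i] at h1
  · rw [map_smul, LinearMap.smul_apply, smul_eq_mul, hB, hu, if_pos rfl] at h1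
    exact (mul_eq_zero.1 h1).resolve_right hd
  · intro j _ hj
    rw [map_smul, LinearMap.smul_apply, smul_eq_mul, hB, hu, if_neg hj, mul_zero]
  · simp

theorem Tri.basis {g : (Fin 3 → F) → (Fin 3 → F) → F} (hg : IsSymmetricForm g) {d : F} {u : Fin 3 → (Fin 3 → F)} (hd : d ≠ 0) (hu : Tri g d u) :
    ∃ B : Basis (Fin 3) F (Fin 3 → F), ∀ i, B i = u i := by
  refine ⟨basisOfLinearIndependentOfCardEqFinrank (Tri.li hg hd hu) (by simp), fun i => ?_⟩
  rw [coe_basisOfLinearIndependentOfCardEqFinrank]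

theorem Tri.form {g : (Fin 3 → F) → (Fin 3 → F) → F} (hg : IsSymmetricForm g) {d : F} {u : Fin 3 → (Fin 3 → F)} (hu : Tri g d u)
    (a b : Fin 3 → F) : g (∑ i, a i • u i) (∑ i, b i • u i) = d * ∑ i, a i * b i := by
  have h00 := hu 0 0
  have h01 := hu 0 1
  have h02 := hu 0 2
  have h10 := hu 1 0
  have h11 := hu 1 1
  have h12 := hu 1 2
  have h20 := hu 2 0
  have h21 := hu 2 1
  have h22 := hu 2 2
  simp at h00 h01 h02 h10 h11 h12 h20 h21 h22
  simp only [Fin.sum_univ_three, hg.bilinear.add_left, hg.bilinear.add_right, hg.bilinear.smul_left, hg.bilinear.smul_right,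
    h00, h01, h02, h10, h11, h12, h20, h21, h22]
  ring

/-- similarities permute the frame -/
theorem tri_perm (hq : Fintype.card F = 3) {g : (Fin 3 → F) → (Fin 3 → F) → F} (hg : IsSymmetricForm g) {d : F} {u : Fin 3 → (Fin 3 → F)}
    (hd : d ≠ 0) (hu : Tri g d u) {N : Matrix (Fin 3) (Fin 3) F} {c : F} (hc : c ≠ 0) (hN : ∀ v w, g (N *ᵥ v) (N *ᵥ w) = c * g v w) :
    ∃ σ : Equiv.Perm (Fin 3), ∀ i, ∃ e : F, e ≠ 0 ∧ N *ᵥ u i = e • u (σ i) := by
  classical
  obtain ⟨B, hB⟩ := Tri.basis hg hd hu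
  obtain ⟨C, hC⟩ : ∃ C : Matrix (Fin 3) (Fin 3) F, ∀ j, N *ᵥ u j = ∑ i, C i j • u i := by
    refine ⟨Matrix.of fun i j => B.repr (N *ᵥ u j) i, fun j => ?_⟩
    conv_lhs => rw [← B.sum_repr (N *ᵥ u j)]
    refine Finset.sum_congr rfl fun i _ => ?_
    rw [hB, Matrix.of_apply]
  have hprod : ∀ j k, g (N *ᵥ u j) (N *ᵥ u k) = d * ∑ i, C i j * C i k := by
    intro j k
    rw [hC j, hC k]
    exact Tri.form hg hu _ _
  have hCC : C.transpose * C = c • (1 : Matrix (Fin 3) (Fin 3) F) := by
    ext j k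
    rw [Matrix.mul_apply, Matrix.smul_apply, smul_eq_mul]
    have h1 := hprod j k
    rw [hN, hu] at h1
    simp only [Matrix.transpose_apply]
    rw [Matrix.one_apply]
    split_ifs at h1 ⊢ with hjk
    · have h3 : d * (∑ i, C i j * C i k - c * 1) = 0 := by linear_combination -h1
      exact sub_eq_zero.1 ((mul_eq_zero.1 h3).resolve_left hd)
    · have h3 : d * (∑ i, C i j * C i k - c * 0) = 0 := by linear_combination -h1
      exact sub_eq_zero.1 ((mul_eq_zero.1 h3).resolve_left hd)
  have hc1 : c = 1 := by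
    have h1 := congrArg Matrix.det hCC
    rw [Matrix.det_mul, Matrix.det_transpose, Matrix.det_smul, Matrix.det_one, mul_one, Fintype.card_fin] at h1
    have h3 : C.det ≠ 0 := by
      intro h0
      rw [h0, mul_zero] at h1
      exact pow_ne_zero 3 hc h1.symm
    have h4 := card_three_sq hq h3
    have h5 := card_three_sq hq hc
    have h6 : c ^ 3 = c := by linear_combination c * h5
    rw [← h6, ← h1]
    linear_combination h4
  -- each column has exactly one non-zero entry
  have hcol : ∀ j, ∃ i, C i j ≠ 0 ∧ ∀ k, k ≠ i → C k j = 0 := by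
    intro j
    have h1 := congrFun (congrFun hCC j) j
    rw [Matrix.mul_apply, Matrix.smul_apply, Matrix.one_apply_eq, hc1, smul_eq_mul, mul_one, Fin.sum_univ_three] at h1
    simp only [Matrix.transpose_apply] at h1
    have h3 := card_three_three hq
    have hsq : ∀ x : F, x ≠ 0 → x * x = 1 := fun x hx => by have := card_three_sq hq hx; linear_combination this
    have h10 : (1 : F) ≠ 0 := one_ne_zero
    have h20 := card_three_two hq
    by_cases h0 : C 0 j = 0 <;> by_cases h1' : C 1 j = 0 <;> by_cases h2' : C 2 j = 0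
    · rw [h0, h1', h2'] at h1; exfalso; apply h10; linear_combination -h1
    · exact ⟨2, h2', fun k hk => by fin_cases k <;> simp_all⟩
    · exact ⟨1, h1', fun k hk => by fin_cases k <;> simp_all⟩
    · rw [h0, hsq _ h1', hsq _ h2'] at h1; exfalso; apply h10; linear_combination h1
    · exact ⟨0, h0, fun k hk => by fin_cases k <;> simp_all⟩
    · rw [h1', hsq _ h0, hsq _ h2'] at h1; exfalso; apply h10; linear_combination h1
    · rw [h2', hsq _ h0, hsq _ h1'] at h1; exfalso; apply h10; linear_combination h1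
    · rw [hsq _ h0, hsq _ h1', hsq _ h2'] at h1; exfalso; apply h20; linear_combination h1
  choose s hs1 hs2 using hcol
  have hact : ∀ j, N *ᵥ u j = C (s j) j • u (s j) := by
    intro j
    rw [hC j, Finset.sum_eq_single (s j)]
    · intro k _ hk
      rw [hs2 j k hk, zero_smul]
    · simp
  have hinj : Function.Injective s := by
    intro j k hjk
    by_contra hne
    have h1 := congrFun (congrFun hCC j) k
    rw [Matrix.mul_apply, Matrix.smul_apply, Matrix.one_apply_ne hne, smul_zero, Finset.sum_eq_single (s j)] at h1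
    · simp only [Matrix.transpose_apply] at h1
      rcases mul_eq_zero.1 h1 with h | h
      · exact hs1 j h
      · rw [hjk] at h; exact hs1 k h
    · intro l _ hl
      simp only [Matrix.transpose_apply]
      rw [hs2 j l hl, zero_mul]
    · simp
  exact ⟨Equiv.ofBijective s (Finite.injective_iff_bijective.1 hinj), fun j => ⟨C (s j) j, hs1 j, hact j⟩⟩

/-- tensor products with a ternary three-space are imprimitive -/
theorem tp_dec {ι : Type} [Fintype ι] [DecidableEq ι] {f : (ι → F) → (ι → F) → F} (hf : IsSymplecticForm f)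
    (hq : Fintype.card F = 3) {n₁ : ℕ} (hn : 1 ≤ n₁) (b : Basis (Fin n₁ × Fin 3) F (ι → F)) {H : Subgroup (GL ι F)} (hI : Iso f H)
    {f₁ : (Fin n₁ → F) → (Fin n₁ → F) → F} {f₂ : (Fin 3 → F) → (Fin 3 → F) → F}
    (hF₁ : FD (RingEquiv.refl F) (-1) f₁) (hF₂ : FD (RingEquiv.refl F) 1 f₂)
    (hform : ∀ i l j l', f (b (i, l)) (b (j, l')) = gramMatrix f₁ i j * gramMatrix f₂ l l')
    (hkr : ∀ h ∈ H, ∃ (A : (Matrix (Fin n₁) (Fin n₁) F)ˣ) (N : (Matrix (Fin 3) (Fin 3) F)ˣ), KA b (h : Matrix _ _ F) A.1 N.1) :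
    ∃ D : Fin 3 → Submodule F (ι → F), IsNondegenerateMDecomposition f n₁ D ∧ H ≤ decompositionStabilizer D := by
  classical
  have hs2 := symm_of_fd hF₂
  obtain ⟨d, u, hd, hu⟩ := exists_tri hq hs2
  have hff := fd_of_symp hf
  have hform' := ten_form b hff hF₁ hF₂ hform
  have hu0 : ∀ i, u i ≠ 0 := by
    intro i h0
    have h1 := hu i i
    rw [h0, if_pos rfl] at h1
    apply hd
    rw [← h1]
    have := hs2.bilinear.smul_left 0 0 (0 : Fin 3 → F)
    simpa using this
  let T : Fin 3 → ((Fin n₁ → F) →ₗ[F] (ι → F)) := fun j =>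
    { toFun := fun x => ten b x (u j)
      map_add' := fun x y => ten_add_left b x y (u j)
      map_smul' := fun c x => ten_smul_left b c x (u j) }
  have hT : ∀ j x, T j x = ten b x (u j) := fun j x => rfl
  have hTinj : ∀ j, Function.Injective (T j) := by
    intro j
    rw [← LinearMap.ker_eq_bot, eq_bot_iff]
    intro x hx
    rw [Submodule.mem_bot]
    by_contra hne
    exact ten_ne_zero b hne (hu0 j) hx
  let D : Fin 3 → Submodule F (ι → F) := fun j => LinearMap.range (T j)
  have hrank : ∀ j, finrank F (D j) = n₁ := by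
    intro j
    have := LinearMap.finrank_range_of_inj (hTinj j)
    rw [Module.finrank_fintype_fun_eq_card, Fintype.card_fin] at this
    exact this
  have hnd : ∀ j, IsNondegenerateOn f (D j) := by
    rintro j _ ⟨x, rfl⟩ hne
    have hx0 : x ≠ 0 := by rintro rfl; exact hne (map_zero _)
    obtain ⟨⟨y, hy⟩, ⟨z, hz⟩⟩ := hF₁.nd x hx0
    refine ⟨⟨T j y, ⟨y, rfl⟩, ?_⟩, ⟨T j z, ⟨z, rfl⟩, ?_⟩⟩
    · rw [hT, hT, hform', hu, if_pos rfl]; exact mul_ne_zero hy hd
    · rw [hT, hT, hform', hu, if_pos rfl]; exact mul_ne_zero hz hd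
  have horth : ∀ i j, i ≠ j → AreOrthogonalFor f (D i) (D j) := by
    rintro i j hij _ ⟨x, rfl⟩ _ ⟨y, rfl⟩
    rw [hT, hT, hform', hu, if_neg hij, mul_zero]
  obtain ⟨B, hB⟩ := Tri.basis hs2 hd hu
  have htop : iSup D = ⊤ := by
    rw [eq_top_iff, ← b.span_eq, Submodule.span_le]
    rintro _ ⟨⟨i, l⟩, rfl⟩
    rw [← ten_single, SetLike.mem_coe]
    have h1 : (Pi.single l 1 : Fin 3 → F) = ∑ j, B.repr (Pi.single l 1) j • u j := by
      conv_lhs => rw [← B.sum_repr (Pi.single l 1)]
      refine Finset.sum_congr rfl fun j _ => ?_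
      rw [hB]
    rw [h1, Fin.sum_univ_three, ten_add_right, ten_add_right, ten_smul_right, ten_smul_right, ten_smul_right]
    have hm : ∀ j : Fin 3, ∀ c : F, c • ten b (Pi.single i 1) (u j) ∈ iSup D := by
      intro j c
      exact (iSup D).smul_mem c ((le_iSup D j) ⟨Pi.single i 1, rfl⟩)
    exact (iSup D).add_mem ((iSup D).add_mem (hm 0 _) (hm 1 _)) (hm 2 _)
  refine ⟨D, ⟨⟨by norm_num, hn, hrank, nd_indep hf hnd horth, htop⟩, hnd, horth⟩, ?_⟩
  intro h hh
  obtain ⟨A, N, hk⟩ := hkr h hh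
  obtain ⟨c, hc, hsim⟩ := ten_sim b hff hF₁ hF₂ hn hform (hI h hh) hk (by norm_num)
  obtain ⟨σ, hσ⟩ := tri_perm hq hs2 hd hu hc hsim
  refine ⟨σ, fun i => ?_⟩
  obtain ⟨e, he, hNe⟩ := hσ i
  ext x
  constructor
  · rintro ⟨_, ⟨y, rfl⟩, rfl⟩
    rw [Matrix.toLin'_apply, hT, ten_act b hk, hNe, ten_smul_right, ← ten_smul_left]
    exact ⟨e • (A.1 *ᵥ y), rfl⟩
  · rintro ⟨y, rfl⟩
    refine ⟨T i (e⁻¹ • ((A⁻¹).1 *ᵥ y)), ⟨_, rfl⟩, ?_⟩
    rw [Matrix.toLin'_apply, hT, ten_act b hk, hNe, ten_smul_right, ← ten_smul_left, hT]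
    congr 1
    rw [Matrix.mulVec_smul, Matrix.mulVec_mulVec, smul_smul, mul_inv_cancel₀ he, one_smul]
    have : A.1 * (A⁻¹).1 = 1 := A.mul_inv
    rw [this, Matrix.one_mulVec]

end three

end CfsgLib.SpMax19
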