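import Cfsg.Agent.EqBase
import Cfsg.Agent.LibSpMaxE19

/-!
# Symplectic type groups from irreducible groups with scalar commutators; Kronecker products of groups
-/

set_option autoImplicit false
set_option linter.all false
set_option maxHeartbeats 400000

open Module Cfsg Cfsg.Geo
open scoped Matrix MatrixGroups Kronecker

namespace CfsgLib.SpMax19

open CfsgLib.AschF CfsgLib.Asch9 CfsgLib.Asch10 CfsgLib.Asch16 CfsgLib.Asch14
open CfsgLib.SympTv29 (st st_mulVec st_fix st_mem_iso st_conj iso mem_iso zero_left zero_right neg_left neg_right swap_ne swap_eq exists_perp)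
open CfsgLib.MaxTv29 (gl_ext mem_stab mulVec_inv_mulVec inv_mulVec_mulVec mulVec_injective)

section gen
variable {ι : Type} [Fintype ι] [DecidableEq ι] {F : Type*} [Field F]
variable {f : (ι → F) → (ι → F) → F}

theorem scal_pm [Nonempty ι] (hf : IsSymplecticForm f) {R : Subgroup (GL ι F)} (hI : Iso f R) {x : GL ι F} (hx : x ∈ R)
    (hs : x ∈ scalars ι F) : (x : Matrix ι ι F) = 1 ∨ (x : Matrix ι ι F) = -1 := by
  obtain ⟨c, hc⟩ := (mem_scalars_iff _).1 hs
  rcases scalar_pm (fd_of_symp hf) (hI x hx) hc with h | h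
  · left; rw [hc, h, one_smul]
  · right; rw [hc, h, neg_one_smul]

theorem sq_pm [Nonempty ι] (hf : IsSymplecticForm f) {R : Subgroup (GL ι F)} (hI : Iso f R) (hal : alg R = ⊤)
    (hc : ⁅R, R⁆ ≤ scalars ι F) {y : GL ι F} (hy : y ∈ R) :
    (y : Matrix ι ι F) * (y : Matrix ι ι F) = 1 ∨ (y : Matrix ι ι F) * (y : Matrix ι ι F) = -1 := by
  have := scal_pm hf hI (R.mul_mem hy hy) (sq_scalar hf hI hal hc hy)
  rwa [Units.val_mul] at this

theorem comm_pm [Nonempty ι] (hf : IsSymplecticForm f) {R : Subgroup (GL ι F)} (hI : Iso f R)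
    (hc : ⁅R, R⁆ ≤ scalars ι F) {x y : GL ι F} (hx : x ∈ R) (hy : y ∈ R) :
    (x : Matrix ι ι F) * (y : Matrix ι ι F) = (y : Matrix ι ι F) * (x : Matrix ι ι F) ∨
    (x : Matrix ι ι F) * (y : Matrix ι ι F) = -((y : Matrix ι ι F) * (x : Matrix ι ι F)) := by
  have h1 : x * y * x⁻¹ * y⁻¹ ∈ scalars ι F := hc (Subgroup.commutator_mem_commutator hx hy)
  have hxy : x * y * x⁻¹ * y⁻¹ ∈ R := R.mul_mem (R.mul_mem (R.mul_mem hx hy) (R.inv_mem hx)) (R.inv_mem hy)
  have h2 : x * y = (x * y * x⁻¹ * y⁻¹) * (y * x) := by group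
  have h3 : ((x * y : GL ι F) : Matrix ι ι F) = (((x * y * x⁻¹ * y⁻¹) * (y * x) : GL ι F) : Matrix ι ι F) := congrArg _ h2
  rw [Units.val_mul, Units.val_mul _ (y * x), Units.val_mul y x] at h3
  rcases scal_pm hf hI hxy h1 with h | h
  · left; rw [h3, h, one_mul]
  · right; rw [h3, h, neg_one_mul]

/-- an irreducible group of isometries with scalar commutators in dimension at least three is of symplectic type -/
theorem st_of [Fintype F] [Nonempty ι] (hf : IsSymplecticForm f) (h2 : (2 : F) ≠ 0) (hn : 3 ≤ Fintype.card ι)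
    {R : Subgroup (GL ι F)} (hI : Iso f R) (hal : alg R = ⊤) (hc : ⁅R, R⁆ ≤ scalars ι F) :
    IsSymplecticTypeGroup 2 R ∧ Nat.card (Subgroup.center R) = 2 ∧ Nat.card R = Fintype.card ι ^ 2 * 2 := by
  classical
  have hcen := center_eq hal
  have hnR : ¬ R ≤ scalars ι F := not_scal_of_alg (by omega) hal
  have hone : (1 : Matrix ι ι F) ≠ -1 := by
    intro h
    obtain ⟨i⟩ := (inferInstance : Nonempty ι)
    have := congrFun (congrFun h i) i
    rw [Matrix.neg_apply, Matrix.one_apply_eq] at this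
    apply h2
    linear_combination this
  -- non-commuting elements
  have hnc : ∀ x ∈ R, x ∉ scalars ι F → ∃ v ∈ R, (x : Matrix ι ι F) * (v : Matrix ι ι F) = -((v : Matrix ι ι F) * (x : Matrix ι ι F)) := by
    intro x hx hxs
    by_contra hcon
    push Not at hcon
    apply hxs
    refine scalar_of_comm hal fun y hy => ?_
    rcases comm_pm hf hI hc hx hy with h | h
    · exact Units.ext (by rw [Units.val_mul, Units.val_mul]; exact h)
    · exact absurd h (hcon y hy)
  obtain ⟨x0, hx0, hx0s⟩ : ∃ x ∈ R, x ∉ scalars ι F := by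
    by_contra hcon
    push Not at hcon
    exact hnR hcon
  obtain ⟨y0, hy0, hxy0⟩ := hnc x0 hx0 hx0s
  -- minus one
  have hm1 : ∃ z ∈ R, (z : Matrix ι ι F) = -1 := by
    refine ⟨x0 * y0 * x0⁻¹ * y0⁻¹, R.mul_mem (R.mul_mem (R.mul_mem hx0 hy0) (R.inv_mem hx0)) (R.inv_mem hy0), ?_⟩
    have h1 : x0 * y0 * x0⁻¹ * y0⁻¹ = (x0 * y0) * (y0 * x0)⁻¹ := by group
    have h3 : ((x0 * y0 : GL ι F) : Matrix ι ι F) = -((y0 * x0 : GL ι F) : Matrix ι ι F) := by
      rw [Units.val_mul, Units.val_mul]; exact hxy0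
    rw [h1, Units.val_mul, h3, neg_mul, ← Units.val_mul, mul_inv_cancel, Units.val_one]
  obtain ⟨z1, hz1, hz1m⟩ := hm1
  have hz1s : z1 ∈ scalars ι F := (mem_scalars_iff _).2 ⟨-1, by rw [hz1m]; simp⟩
  have hccard : Nat.card (Subgroup.center R) = 2 := by
    apply le_antisymm
    · have hinj : ∀ x : Subgroup.center R, ∃ s : Bool, (((x : R) : GL ι F) : Matrix ι ι F) =
          (if s then (1 : Matrix ι ι F) else -1) := by
        intro x
        have h1 : (x : R) ∈ (scalars ι F).subgroupOf R := by rw [← hcen]; exact x.2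
        rw [Subgroup.mem_subgroupOf] at h1
        rcases scal_pm hf hI (x : R).2 h1 with h | h
        · exact ⟨true, by rw [h]; simp⟩
        · exact ⟨false, by rw [h]; simp⟩
      choose s hs using hinj
      have h1 : Function.Injective s := by
        intro x y hxy
        ext1; ext1; ext1
        rw [hs, hs, hxy]
      have h3 := Nat.card_le_card_of_injective s h1
      rwa [Nat.card_eq_fintype_card (α := Bool), Fintype.card_bool] at h3
    · have hfin : Finite (Subgroup.center R) := inferInstance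
      have hnt : Nontrivial (Subgroup.center R) := by
        refine ⟨⟨⟨z1, hz1⟩, by rw [hcen, Subgroup.mem_subgroupOf]; exact hz1s⟩, 1, ?_⟩
        intro h
        have h3 : z1 = 1 := congrArg (fun z : Subgroup.center R => ((z : R) : GL ι F)) h
        rw [h3, Units.val_one] at hz1m
        exact hone hz1m
      exact Finite.one_lt_card_iff_nontrivial.2 hnt
  refine ⟨?_, hccard, by rw [card_eq hal hc, hccard]⟩
  have hfour : ∀ x : R, x ^ 4 = 1 := by
    rintro ⟨x, hx⟩
    apply Subtype.ext
    apply Units.ext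
    have h1 : ((x ^ 4 : GL ι F) : Matrix ι ι F) = ((x : Matrix ι ι F) * (x : Matrix ι ι F)) * ((x : Matrix ι ι F) * (x : Matrix ι ι F)) := by
      rw [Units.val_pow_eq_pow_val]; noncomm_ring
    change ((x ^ 4 : GL ι F) : Matrix ι ι F) = ((1 : GL ι F) : Matrix ι ι F)
    rw [h1, Units.val_one]
    rcases sq_pm hf hI hal hc hx with h | h <;> rw [h] <;> simp
  -- an element anticommuting with a given one and of square minus one
  have hex : ∀ x ∈ R, x ∉ scalars ι F → ∃ v ∈ R, (v : Matrix ι ι F) * (v : Matrix ι ι F) = -1 ∧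
      (x : Matrix ι ι F) * (v : Matrix ι ι F) = -((v : Matrix ι ι F) * (x : Matrix ι ι F)) := by
    intro x hx hxs
    by_contra hcon
    push Not at hcon
    have hcon' : ∀ v ∈ R, (x : Matrix ι ι F) * (v : Matrix ι ι F) = -((v : Matrix ι ι F) * (x : Matrix ι ι F)) →
        (v : Matrix ι ι F) * (v : Matrix ι ι F) = 1 := by
      intro v hv hxv
      rcases sq_pm hf hI hal hc hv with h | h
      · exact h
      · exact absurd hxv (hcon v hv h)
    obtain ⟨v0, hv0, hxv0⟩ := hnc x hx hxs
    have hv0s := hcon' v0 hv0 hxv0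
    -- elements commuting with x
    have hC1 : ∀ c ∈ R, (x : Matrix ι ι F) * (c : Matrix ι ι F) = (c : Matrix ι ι F) * (x : Matrix ι ι F) →
        (c : Matrix ι ι F) * (v0 : Matrix ι ι F) * (c : Matrix ι ι F) = (v0 : Matrix ι ι F) := by
      intro c hcR hxc
      have h1 : (x : Matrix ι ι F) * ((v0 * c : GL ι F) : Matrix ι ι F) = -(((v0 * c : GL ι F) : Matrix ι ι F) * (x : Matrix ι ι F)) := by
        rw [Units.val_mul, ← mul_assoc, hxv0, neg_mul, mul_assoc, hxc, mul_assoc]
      have h3 := hcon' (v0 * c) (R.mul_mem hv0 hcR) h1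
      rw [Units.val_mul] at h3
      calc (c : Matrix ι ι F) * (v0 : Matrix ι ι F) * (c : Matrix ι ι F)
          = ((v0 : Matrix ι ι F) * (v0 : Matrix ι ι F)) * ((c : Matrix ι ι F) * (v0 : Matrix ι ι F) * (c : Matrix ι ι F)) := by rw [hv0s, one_mul]
        _ = (v0 : Matrix ι ι F) * (((v0 : Matrix ι ι F) * (c : Matrix ι ι F)) * ((v0 : Matrix ι ι F) * (c : Matrix ι ι F))) := by noncomm_ring
        _ = (v0 : Matrix ι ι F) := by rw [h3, mul_one]
    have hCcomm : ∀ c ∈ R, (x : Matrix ι ι F) * (c : Matrix ι ι F) = (c : Matrix ι ι F) * (x : Matrix ι ι F) →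
        ∀ d ∈ R, (x : Matrix ι ι F) * (d : Matrix ι ι F) = (d : Matrix ι ι F) * (x : Matrix ι ι F) →
        (c : Matrix ι ι F) * (d : Matrix ι ι F) = (d : Matrix ι ι F) * (c : Matrix ι ι F) := by
      intro c hcR hxc d hdR hxd
      have h1 : (x : Matrix ι ι F) * ((c * d : GL ι F) : Matrix ι ι F) = ((c * d : GL ι F) : Matrix ι ι F) * (x : Matrix ι ι F) := by
        rw [Units.val_mul, ← mul_assoc, hxc, mul_assoc, hxd, mul_assoc]
      have h3 := hC1 (c * d) (R.mul_mem hcR hdR) h1
      have h4 := hC1 c hcR hxc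
      have h5 := hC1 d hdR hxd
      rw [Units.val_mul] at h3
      have h6 : ((c * d * v0 * (c * d) : GL ι F)) = c * d * v0 * (d * c) := by
        apply Units.ext
        simp only [Units.val_mul]
        calc (c : Matrix ι ι F) * d * v0 * (c * d) = v0 := h3
          _ = c * v0 * c := h4.symm
          _ = c * (d * v0 * d) * c := by rw [h5]
          _ = c * d * v0 * (d * c) := by noncomm_ring
      have h7 : c * d = d * c := mul_left_cancel h6
      have := congrArg (fun z : GL ι F => (z : Matrix ι ι F)) h7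
      simpa [Units.val_mul] using this
    have hcen1 : ∀ c ∈ R, (x : Matrix ι ι F) * (c : Matrix ι ι F) = (c : Matrix ι ι F) * (x : Matrix ι ι F) →
        (c : Matrix ι ι F) * (c : Matrix ι ι F) = 1 → c ∈ scalars ι F := by
      intro c hcR hxc hcc
      refine scalar_of_comm hal fun y hy => Units.ext ?_
      rw [Units.val_mul, Units.val_mul]
      have hcv : (c : Matrix ι ι F) * (v0 : Matrix ι ι F) = (v0 : Matrix ι ι F) * (c : Matrix ι ι F) := by
        have h4 := hC1 c hcR hxc
        calc (c : Matrix ι ι F) * (v0 : Matrix ι ι F) = (c : Matrix ι ι F) * (v0 : Matrix ι ι F) * ((c : Matrix ι ι F) * (c : Matrix ι ι F)) := by rw [hcc, mul_one]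
          _ = ((c : Matrix ι ι F) * (v0 : Matrix ι ι F) * (c : Matrix ι ι F)) * (c : Matrix ι ι F) := by noncomm_ring
          _ = (v0 : Matrix ι ι F) * (c : Matrix ι ι F) := by rw [h4]
      rcases comm_pm hf hI hc hx hy with h | h
      · exact hCcomm c hcR hxc y hy h
      · -- y = v0 * (v0 * y)
        have h1 : (x : Matrix ι ι F) * ((v0 * y : GL ι F) : Matrix ι ι F) = ((v0 * y : GL ι F) : Matrix ι ι F) * (x : Matrix ι ι F) := by
          rw [Units.val_mul, ← mul_assoc, hxv0, neg_mul, mul_assoc, h, mul_neg, neg_neg, mul_assoc]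
        have h3 := hCcomm c hcR hxc (v0 * y) (R.mul_mem hv0 hy) h1
        rw [Units.val_mul] at h3
        have h4 : (y : Matrix ι ι F) = (v0 : Matrix ι ι F) * ((v0 : Matrix ι ι F) * (y : Matrix ι ι F)) := by
          rw [← mul_assoc, hv0s, one_mul]
        rw [h4]
        calc (c : Matrix ι ι F) * ((v0 : Matrix ι ι F) * ((v0 : Matrix ι ι F) * (y : Matrix ι ι F)))
            = ((c : Matrix ι ι F) * (v0 : Matrix ι ι F)) * ((v0 : Matrix ι ι F) * (y : Matrix ι ι F)) := by noncomm_ring
          _ = (v0 : Matrix ι ι F) * ((c : Matrix ι ι F) * ((v0 : Matrix ι ι F) * (y : Matrix ι ι F))) := by rw [hcv]; noncomm_ring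
          _ = (v0 : Matrix ι ι F) * ((v0 : Matrix ι ι F) * (y : Matrix ι ι F)) * (c : Matrix ι ι F) := by rw [h3]; noncomm_ring
    have hxx : (x : Matrix ι ι F) * (x : Matrix ι ι F) = -1 := by
      rcases sq_pm hf hI hal hc hx with h | h
      · exact absurd (hcen1 x hx rfl h) hxs
      · exact h
    -- everything is in the span of four matrices
    let S : Finset (Matrix ι ι F) := {1, (x : Matrix ι ι F), (v0 : Matrix ι ι F), (v0 : Matrix ι ι F) * (x : Matrix ι ι F)}
    have hC2 : ∀ c ∈ R, (x : Matrix ι ι F) * (c : Matrix ι ι F) = (c : Matrix ι ι F) * (x : Matrix ι ι F) →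
        ∃ (a : F) , (c : Matrix ι ι F) = a • (1 : Matrix ι ι F) ∨ (c : Matrix ι ι F) = a • (x : Matrix ι ι F) := by
      intro c hcR hxc
      rcases sq_pm hf hI hal hc hcR with h | h
      · obtain ⟨a, ha⟩ := (mem_scalars_iff _).1 (hcen1 c hcR hxc h)
        exact ⟨a, Or.inl ha⟩
      · have h1 : (x : Matrix ι ι F) * ((c * x : GL ι F) : Matrix ι ι F) = ((c * x : GL ι F) : Matrix ι ι F) * (x : Matrix ι ι F) := by
          rw [Units.val_mul, ← mul_assoc, hxc]
        have h3 : ((c * x : GL ι F) : Matrix ι ι F) * ((c * x : GL ι F) : Matrix ι ι F) = 1 := by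
          rw [Units.val_mul]
          calc (c : Matrix ι ι F) * (x : Matrix ι ι F) * ((c : Matrix ι ι F) * (x : Matrix ι ι F))
              = (c : Matrix ι ι F) * ((x : Matrix ι ι F) * (c : Matrix ι ι F)) * (x : Matrix ι ι F) := by noncomm_ring
            _ = ((c : Matrix ι ι F) * (c : Matrix ι ι F)) * ((x : Matrix ι ι F) * (x : Matrix ι ι F)) := by rw [hxc]; noncomm_ring
            _ = 1 := by rw [h, hxx]; simp
        obtain ⟨a, ha⟩ := (mem_scalars_iff _).1 (hcen1 (c * x) (R.mul_mem hcR hx) h1 h3)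
        refine ⟨-a, Or.inr ?_⟩
        rw [Units.val_mul] at ha
        calc (c : Matrix ι ι F) = -((c : Matrix ι ι F) * ((x : Matrix ι ι F) * (x : Matrix ι ι F))) := by rw [hxx]; simp
          _ = -((c : Matrix ι ι F) * (x : Matrix ι ι F) * (x : Matrix ι ι F)) := by rw [mul_assoc]
          _ = -(a : F) • (x : Matrix ι ι F) := by rw [ha, Matrix.smul_mul, Matrix.one_mul, neg_smul]
    have hsub : matrixSet R ⊆ (Submodule.span F (S : Set (Matrix ι ι F)) : Set (Matrix ι ι F)) := by
      rintro _ ⟨y, hy, rfl⟩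
      have hm : ∀ s ∈ S, s ∈ Submodule.span F (S : Set (Matrix ι ι F)) := fun s hs => Submodule.subset_span (Finset.mem_coe.2 hs)
      rcases comm_pm hf hI hc hx hy with h | h
      · obtain ⟨a, ha | ha⟩ := hC2 y hy h
        · show (y : Matrix ι ι F) ∈ _
          rw [ha]; exact Submodule.smul_mem _ _ (hm 1 (by simp [S]))
        · show (y : Matrix ι ι F) ∈ _
          rw [ha]; exact Submodule.smul_mem _ _ (hm _ (by simp [S]))
      · have h1 : (x : Matrix ι ι F) * ((v0 * y : GL ι F) : Matrix ι ι F) = ((v0 * y : GL ι F) : Matrix ι ι F) * (x : Matrix ι ι F) := by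
          rw [Units.val_mul, ← mul_assoc, hxv0, neg_mul, mul_assoc, h, mul_neg, neg_neg, mul_assoc]
        have h4 : (y : Matrix ι ι F) = (v0 : Matrix ι ι F) * ((v0 * y : GL ι F) : Matrix ι ι F) := by
          rw [Units.val_mul, ← mul_assoc, hv0s, one_mul]
        obtain ⟨a, ha | ha⟩ := hC2 (v0 * y) (R.mul_mem hv0 hy) h1
        · show (y : Matrix ι ι F) ∈ _
          rw [h4, ha, Matrix.mul_smul, mul_one]; exact Submodule.smul_mem _ _ (hm _ (by simp [S]))
        · show (y : Matrix ι ι F) ∈ _
          rw [h4, ha, Matrix.mul_smul]; exact Submodule.smul_mem _ _ (hm _ (by simp [S]))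
    have htop : Submodule.span F (S : Set (Matrix ι ι F)) = ⊤ := by
      rw [eq_top_iff]
      have h1 : (⊤ : Submodule F (Matrix ι ι F)) = Submodule.span F (matrixSet R) := by
        rw [span_eq_alg, hal]; rfl
      rw [h1, Submodule.span_le]
      exact hsub
    have h4 := finrank_span_finset_le_card (R := F) S
    rw [Set.finrank, htop, finrank_top, Module.finrank_matrix, Module.finrank_self, mul_one] at h4
    have h5 : S.card ≤ 4 := Finset.card_le_four
    nlinarith
  refine ⟨Nat.prime_two, fun x => ⟨2, by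
      have := hfour x
      simpa using this⟩, ?_, ?_⟩
  · intro A hA hAc
    have hle : A ≤ Subgroup.center R := by
      intro x hxA
      by_contra hxc
      have hxs : ((x : R) : GL ι F) ∉ scalars ι F := by
        intro h
        apply hxc
        rw [hcen, Subgroup.mem_subgroupOf]; exact h
      obtain ⟨v, hv, hvv, hxv⟩ := hex x x.2 hxs
      have hinv2 : ((2 : F)⁻¹ * 2) = 1 := inv_mul_cancel₀ h2
      -- the unit 1 + v
      let w : GL ι F := ⟨1 + (v : Matrix ι ι F), (2 : F)⁻¹ • (1 - (v : Matrix ι ι F)), by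
          rw [Matrix.mul_smul]
          have : (1 + (v : Matrix ι ι F)) * (1 - (v : Matrix ι ι F)) = (2 : F) • 1 := by
            calc (1 + (v : Matrix ι ι F)) * (1 - (v : Matrix ι ι F)) = 1 - (v : Matrix ι ι F) * (v : Matrix ι ι F) := by noncomm_ring
              _ = (2 : F) • 1 := by rw [hvv, two_smul]; abel
          rw [this, smul_smul, hinv2, one_smul], by
          rw [Matrix.smul_mul]
          have : (1 - (v : Matrix ι ι F)) * (1 + (v : Matrix ι ι F)) = (2 : F) • 1 := by
            calc (1 - (v : Matrix ι ι F)) * (1 + (v : Matrix ι ι F)) = 1 - (v : Matrix ι ι F) * (v : Matrix ι ι F) := by noncomm_ring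
              _ = (2 : F) • 1 := by rw [hvv, two_smul]; abel
          rw [this, smul_smul, hinv2, one_smul]⟩
      have hw : (w : Matrix ι ι F) = 1 + (v : Matrix ι ι F) := rfl
      have hconj1 : ∀ g : GL ι F, (g : Matrix ι ι F) * (v : Matrix ι ι F) = (v : Matrix ι ι F) * (g : Matrix ι ι F) → w * g * w⁻¹ = g := by
        intro g hg
        rw [mul_inv_eq_iff_eq_mul]
        apply Units.ext
        rw [Units.val_mul, Units.val_mul, hw, mul_add, add_mul, hg, one_mul, mul_one]
      have hconj2 : ∀ g : GL ι F, (g : Matrix ι ι F) * (v : Matrix ι ι F) = -((v : Matrix ι ι F) * (g : Matrix ι ι F)) →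
          w * g * w⁻¹ = z1 * (g * v) := by
        intro g hg
        rw [mul_inv_eq_iff_eq_mul]
        apply Units.ext
        rw [Units.val_mul, Units.val_mul, Units.val_mul, Units.val_mul, hw, hz1m]
        have e1 : (v : Matrix ι ι F) * (g : Matrix ι ι F) = -((g : Matrix ι ι F) * (v : Matrix ι ι F)) := by rw [hg, neg_neg]
        calc (1 + (v : Matrix ι ι F)) * (g : Matrix ι ι F) = (g : Matrix ι ι F) + (v : Matrix ι ι F) * (g : Matrix ι ι F) := by noncomm_ring
          _ = (g : Matrix ι ι F) - (g : Matrix ι ι F) * (v : Matrix ι ι F) := by rw [e1, sub_eq_add_neg]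
          _ = -((g : Matrix ι ι F) * ((v : Matrix ι ι F) * (v : Matrix ι ι F))) - (g : Matrix ι ι F) * (v : Matrix ι ι F) := by
              rw [hvv]; simp
          _ = -1 * ((g : Matrix ι ι F) * (v : Matrix ι ι F)) * (1 + (v : Matrix ι ι F)) := by noncomm_ring
      have hstab : ∀ g ∈ R, w * g * w⁻¹ ∈ R := by
        intro g hg
        rcases comm_pm hf hI hc hg hv with h | h
        · rw [hconj1 g h]; exact hg
        · rw [hconj2 g h]; exact R.mul_mem hz1 (R.mul_mem hg hv)
      have hmap : R.map (MulAut.conj w).toMonoidHom = R := by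
        have hle' : R.map (MulAut.conj w).toMonoidHom ≤ R := by
          rintro _ ⟨g, hg, rfl⟩
          exact hstab g hg
        refine SetLike.coe_injective (Set.eq_of_subset_of_ncard_le hle' ?_ (Set.toFinite _))
        rw [Set.ncard_eq_toFinset_card', Set.ncard_eq_toFinset_card']
        rw [← Nat.card_eq_card_toFinset, ← Nat.card_eq_card_toFinset]
        exact (Nat.card_congr ((R.equivMapOfInjective _ (MulAut.conj w).injective).toEquiv)).le
      let φ : R ≃* R := (R.equivMapOfInjective (MulAut.conj w).toMonoidHom (MulAut.conj w).injective).trans (MulEquiv.subgroupCongr hmap)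
      have hφ : ∀ g : R, ((φ g : R) : GL ι F) = w * g * w⁻¹ := fun g => rfl
      have hφx : φ x ∈ A := by
        have h1 := hA.fixed φ
        rw [← h1] at hxA
        exact hxA
      have h1 : x * φ x = φ x * x := by
        haveI := hAc
        have := mul_comm' (⟨x, hxA⟩ : A) ⟨φ x, hφx⟩
        exact congrArg Subtype.val this
      have h3 : (x : GL ι F) * (z1 * ((x : GL ι F) * v)) = (z1 * ((x : GL ι F) * v)) * x := by
        have := congrArg (fun z : R => (z : GL ι F)) h1
        simp only [Subgroup.coe_mul, hφ] at this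
        rw [hconj2 _ hxv] at this
        exact this
      have h4 := congrArg (fun z : GL ι F => (z : Matrix ι ι F)) h3
      simp only [Units.val_mul, hz1m] at h4
      have h5 : (2 : F) • (((x : GL ι F) : Matrix ι ι F) * ((x : GL ι F) : Matrix ι ι F) * (v : Matrix ι ι F)) = 0 := by
        have e2 : ((x : GL ι F) : Matrix ι ι F) * (-1 * (((x : GL ι F) : Matrix ι ι F) * (v : Matrix ι ι F))) =
            -(((x : GL ι F) : Matrix ι ι F) * ((x : GL ι F) : Matrix ι ι F) * (v : Matrix ι ι F)) := by noncomm_ring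
        have e3 : (-1 * (((x : GL ι F) : Matrix ι ι F) * (v : Matrix ι ι F))) * ((x : GL ι F) : Matrix ι ι F) =
            ((x : GL ι F) : Matrix ι ι F) * ((x : GL ι F) : Matrix ι ι F) * (v : Matrix ι ι F) := by
          have e4 : (v : Matrix ι ι F) * ((x : GL ι F) : Matrix ι ι F) = -(((x : GL ι F) : Matrix ι ι F) * (v : Matrix ι ι F)) := by
            rw [hxv, neg_neg]
          calc (-1 * (((x : GL ι F) : Matrix ι ι F) * (v : Matrix ι ι F))) * ((x : GL ι F) : Matrix ι ι F)
              = -(((x : GL ι F) : Matrix ι ι F) * ((v : Matrix ι ι F) * ((x : GL ι F) : Matrix ι ι F))) := by noncomm_ring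
            _ = _ := by rw [e4]; noncomm_ring
        rw [e2, e3] at h4
        rw [two_smul]
        nth_rewrite 1 [← h4]
        rw [neg_add_cancel]
      have h6 := (smul_eq_zero.1 h5).resolve_left h2
      have h7 : ((((x : GL ι F) * x * v) : GL ι F) : Matrix ι ι F) = 0 := by rw [Units.val_mul, Units.val_mul]; exact h6
      exact Units.ne_zero _ h7
    have hcyc : IsCyclic (Subgroup.center R) := isCyclic_of_prime_card (p := 2) hccard
    exact isCyclic_of_injective (Subgroup.inclusion hle) (Subgroup.inclusion_injective hle)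
  · -- the exponent
    have h4 : Monoid.exponent R ∣ 4 := Monoid.exponent_dvd_of_forall_pow_eq_one hfour
    obtain ⟨v, hv, hvv, _⟩ := hex x0 hx0 hx0s
    have h5 : ¬ Monoid.exponent R ∣ 2 := by
      intro h
      have h6 := Monoid.exponent_dvd_iff_forall_pow_eq_one.1 h ⟨v, hv⟩
      have h7 : ((((⟨v, hv⟩ : R) ^ 2 : R) : GL ι F) : Matrix ι ι F) = (((1 : R) : GL ι F) : Matrix ι ι F) := by rw [h6]
      have h8 : ((((⟨v, hv⟩ : R) ^ 2 : R) : GL ι F) : Matrix ι ι F) = (v : Matrix ι ι F) * (v : Matrix ι ι F) := by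
        rw [sq]; rfl
      rw [h8, hvv, Subgroup.coe_one, Units.val_one] at h7
      exact hone h7.symm
    have h6 : Monoid.exponent R ≤ 4 := Nat.le_of_dvd (by norm_num) h4
    interval_cases h : Monoid.exponent R
    · omega
    · exact absurd (one_dvd 2) h5
    · exact absurd dvd_rfl h5
    · omega
    · rfl

end gen

end CfsgLib.SpMax19
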