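import Cfsg.Agent.EqBase
import Cfsg.Agent.LibSpMaxG19

/-!
# Kronecker products of groups; quaternion group over the field with three elements
-/

set_option autoImplicit false
set_option linter.all false
set_option maxHeartbeats 400000

open Module Cfsg Cfsg.Geo
open scoped Matrix MatrixGroups Kronecker

namespace CfsgLib.SpMax19

open CfsgLib.AschF CfsgLib.Asch9 CfsgLib.Asch10 CfsgLib.Asch16 CfsgLib.Asch14
open CfsgLib.SympTv29 (st st_mulVec st_fix st_mem_iso st_conj iso mem_iso zero_left zero_right neg_left neg_right swap_ne swap_eq exists_perp)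
open CfsgLib.MaxTv29 (gl_ext mem_stab mulVec_inv_mulVec inv_mulVec_mulVec mulVec_injective)

section kron
variable {ι : Type} [Fintype ι] [DecidableEq ι] {F : Type*} [Field F]
variable {n₁ n₂ : ℕ} (b : Basis (Fin n₁ × Fin n₂) F (ι → F))

theorem KA_of_ten {h : Matrix ι ι F} {A : Matrix (Fin n₁) (Fin n₁) F} {N : Matrix (Fin n₂) (Fin n₂) F}
    (hh : ∀ u v, h *ᵥ ten b u v = ten b (A *ᵥ u) (N *ᵥ v)) : KA b h A N := by
  intro j l
  rw [← ten_single, hh, ten]
  refine Finset.sum_congr rfl fun i _ => Finset.sum_congr rfl fun l' _ => ?_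
  rw [Matrix.mulVec_single_one, Matrix.mulVec_single_one]
  rfl

theorem KA_mul {h h' : Matrix ι ι F} {A A' : Matrix (Fin n₁) (Fin n₁) F} {N N' : Matrix (Fin n₂) (Fin n₂) F}
    (h1 : KA b h A N) (h2 : KA b h' A' N') : KA b (h * h') (A * A') (N * N') := by
  apply KA_of_ten
  intro u v
  rw [← Matrix.mulVec_mulVec, ten_act b h2, ten_act b h1, Matrix.mulVec_mulVec, Matrix.mulVec_mulVec]

theorem KA_one : KA b (1 : Matrix ι ι F) 1 1 := by
  apply KA_of_ten
  intro u v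
  rw [Matrix.one_mulVec, Matrix.one_mulVec, Matrix.one_mulVec]

theorem KA_unique {h h' : Matrix ι ι F} {A : Matrix (Fin n₁) (Fin n₁) F} {N : Matrix (Fin n₂) (Fin n₂) F}
    (h1 : KA b h A N) (h2 : KA b h' A N) : h = h' := by
  apply ext_ten b
  intro u v
  rw [ten_act b h1, ten_act b h2]

/-- the first factor -/
noncomputable def psiL (A : Matrix (Fin n₁) (Fin n₁) F) : Matrix ι ι F := psi (b.reindex (Equiv.prodComm (Fin n₁) (Fin n₂))) A

theorem psiL_KA (A : Matrix (Fin n₁) (Fin n₁) F) : KA b (psiL b A) A 1 := by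
  apply KA_of_ten
  intro u v
  rw [psiL, ← ten_swap, psi_ten, ten_swap, Matrix.one_mulVec]

/-- the Kronecker product of two invertible matrices in a given basis -/
noncomputable def kron (A : GL (Fin n₁) F) (N : GL (Fin n₂) F) : GL ι F where
  val := psiL b A * psi b N
  inv := psi b ((N⁻¹ : GL (Fin n₂) F) : Matrix _ _ F) * psiL b ((A⁻¹ : GL (Fin n₁) F) : Matrix _ _ F)
  val_inv := by
    have h1 := KA_mul b (KA_mul b (psiL_KA b A) (psi_KA b N)) (KA_mul b (psi_KA b (N⁻¹).1) (psiL_KA b (A⁻¹).1))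
    refine KA_unique b h1 ?_
    simp only [one_mul, mul_one]
    rw [Units.mul_inv, Units.mul_inv]
    exact KA_one b
  inv_val := by
    have h1 := KA_mul b (KA_mul b (psi_KA b (N⁻¹).1) (psiL_KA b (A⁻¹).1)) (KA_mul b (psiL_KA b A) (psi_KA b N))
    refine KA_unique b h1 ?_
    simp only [one_mul, mul_one]
    rw [Units.inv_mul, Units.inv_mul]
    exact KA_one b

theorem kron_KA (A : GL (Fin n₁) F) (N : GL (Fin n₂) F) : KA b (kron b A N : Matrix ι ι F) A N := by
  have := KA_mul b (psiL_KA b A) (psi_KA b N)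
  rwa [mul_one, one_mul] at this

theorem KA_inv {g : GL ι F} {A : GL (Fin n₁) F} {N : GL (Fin n₂) F} (h : KA b (g : Matrix ι ι F) A N) :
    KA b ((g⁻¹ : GL ι F) : Matrix ι ι F) ((A⁻¹ : GL (Fin n₁) F) : Matrix _ _ F) ((N⁻¹ : GL (Fin n₂) F) : Matrix _ _ F) := by
  apply KA_of_ten
  intro u v
  have h1 : (g : Matrix ι ι F) *ᵥ ten b (((A⁻¹ : GL (Fin n₁) F) : Matrix _ _ F) *ᵥ u) (((N⁻¹ : GL (Fin n₂) F) : Matrix _ _ F) *ᵥ v) = ten b u v := by
    rw [ten_act b h, mulVec_inv_mulVec, mulVec_inv_mulVec]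
  rw [← h1, inv_mulVec_mulVec]

/-- the Kronecker product of two groups -/
def KR (R₁ : Subgroup (GL (Fin n₁) F)) (R₂ : Subgroup (GL (Fin n₂) F)) : Subgroup (GL ι F) where
  carrier := {g | ∃ A ∈ R₁, ∃ N ∈ R₂, KA b (g : Matrix ι ι F) (A : Matrix _ _ F) (N : Matrix _ _ F)}
  mul_mem' := by
    rintro g h ⟨A, hA, N, hN, h1⟩ ⟨A', hA', N', hN', h2⟩
    exact ⟨A * A', R₁.mul_mem hA hA', N * N', R₂.mul_mem hN hN', by
      rw [Units.val_mul, Units.val_mul, Units.val_mul]; exact KA_mul b h1 h2⟩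
  one_mem' := ⟨1, R₁.one_mem, 1, R₂.one_mem, KA_one b⟩
  inv_mem' := by
    rintro g ⟨A, hA, N, hN, h1⟩
    exact ⟨A⁻¹, R₁.inv_mem hA, N⁻¹, R₂.inv_mem hN, KA_inv b h1⟩

theorem mem_KR {R₁ : Subgroup (GL (Fin n₁) F)} {R₂ : Subgroup (GL (Fin n₂) F)} {g : GL ι F} :
    g ∈ KR b R₁ R₂ ↔ ∃ A ∈ R₁, ∃ N ∈ R₂, KA b (g : Matrix ι ι F) (A : Matrix _ _ F) (N : Matrix _ _ F) := Iff.rfl

theorem psi_mem {R₁ : Subgroup (GL (Fin n₁) F)} {R₂ : Subgroup (GL (Fin n₂) F)} (h2 : alg R₂ = ⊤) (N : Matrix (Fin n₂) (Fin n₂) F) :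
    psi b N ∈ alg (KR b R₁ R₂) := by
  have hN : N ∈ Algebra.adjoin F (matrixSet R₂) := by
    change N ∈ alg R₂
    rw [h2]; trivial
  induction hN using Algebra.adjoin_induction with
  | mem x hx =>
    obtain ⟨y, hy, rfl⟩ := hx
    have h1 : kron b 1 y ∈ KR b R₁ R₂ := ⟨1, R₁.one_mem, y, hy, kron_KA b 1 y⟩
    have h3 := mem_alg h1
    have h4 : psi b ((fun g : GL (Fin n₂) F => (g : Matrix _ _ F)) y) = (kron b 1 y : Matrix ι ι F) :=
      KA_unique b (psi_KA b _) (kron_KA b 1 y)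
    rw [h4]; exact h3
  | algebraMap c =>
    rw [Algebra.algebraMap_eq_smul_one, psi_smul, psi_one]
    exact Subalgebra.smul_mem _ (Subalgebra.one_mem _) c
  | add x y _ _ hx hy => rw [psi_add]; exact Subalgebra.add_mem _ hx hy
  | mul x y _ _ hx hy => rw [← psi_mul]; exact Subalgebra.mul_mem _ hx hy

theorem psiL_mem {R₁ : Subgroup (GL (Fin n₁) F)} {R₂ : Subgroup (GL (Fin n₂) F)} (h1 : alg R₁ = ⊤) (A : Matrix (Fin n₁) (Fin n₁) F) :
    psiL b A ∈ alg (KR b R₁ R₂) := by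
  have hA : A ∈ Algebra.adjoin F (matrixSet R₁) := by
    change A ∈ alg R₁
    rw [h1]; trivial
  induction hA using Algebra.adjoin_induction with
  | mem x hx =>
    obtain ⟨y, hy, rfl⟩ := hx
    have h1 : kron b y 1 ∈ KR b R₁ R₂ := ⟨y, hy, 1, R₂.one_mem, kron_KA b y 1⟩
    have h3 := mem_alg h1
    have h4 : psiL b ((fun g : GL (Fin n₁) F => (g : Matrix _ _ F)) y) = (kron b y 1 : Matrix ι ι F) :=
      KA_unique b (psiL_KA b _) (kron_KA b y 1)
    rw [h4]; exact h3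
  | algebraMap c =>
    rw [psiL, Algebra.algebraMap_eq_smul_one, psi_smul, psi_one]
    exact Subalgebra.smul_mem _ (Subalgebra.one_mem _) c
  | add x y _ _ hx hy => rw [psiL, psi_add]; exact Subalgebra.add_mem _ hx hy
  | mul x y _ _ hx hy => rw [psiL, ← psi_mul]; exact Subalgebra.mul_mem _ hx hy

theorem KR_alg {R₁ : Subgroup (GL (Fin n₁) F)} {R₂ : Subgroup (GL (Fin n₂) F)} (h1 : alg R₁ = ⊤) (h2 : alg R₂ = ⊤) :
    alg (KR b R₁ R₂) = ⊤ := by
  classical
  rw [eq_top_iff]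
  intro X _
  have hX : X = ∑ p : Fin n₁ × Fin n₂, ∑ q : Fin n₁ × Fin n₂, (b.repr (X *ᵥ b q) p) •
      (psiL b (Matrix.single p.1 q.1 1) * psi b (Matrix.single p.2 q.2 1)) := by
    apply ext_basis b
    rintro ⟨j, l⟩
    simp only [Matrix.sum_mulVec, Matrix.smul_mulVec]
    have hkey : ∀ p q : Fin n₁ × Fin n₂, (psiL b (Matrix.single p.1 q.1 1) * psi b (Matrix.single p.2 q.2 1)) *ᵥ b (j, l) =
        if q = (j, l) then b p else 0 := by
      intro p q
      have h3 := ten_act b (KA_mul b (psiL_KA b (Matrix.single p.1 q.1 1)) (psi_KA b (Matrix.single p.2 q.2 1)))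
        (Pi.single j 1) (Pi.single l 1)
      rw [ten_single] at h3
      rw [h3, mul_one, one_mul, Matrix.mulVec_single_one, Matrix.mulVec_single_one]
      split_ifs with hq
      · subst hq
        have e1 : (Matrix.single p.1 j (1 : F)).col j = Pi.single p.1 1 := by
          ext i; simp [Matrix.single_apply, Pi.single_apply, eq_comm]
        have e2 : (Matrix.single p.2 l (1 : F)).col l = Pi.single p.2 1 := by
          ext i; simp [Matrix.single_apply, Pi.single_apply, eq_comm]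
        rw [e1, e2, ten_single]
      · have h4 : q.1 ≠ j ∨ q.2 ≠ l := by
          by_contra hcon
          push Not at hcon
          exact hq (Prod.ext hcon.1 hcon.2)
        rcases h4 with h4 | h4
        · have e1 : (Matrix.single p.1 q.1 (1 : F)).col j = 0 := by
            ext i; simp [Matrix.single_apply, h4]
          rw [e1]
          simp [ten]
        · have e1 : (Matrix.single p.2 q.2 (1 : F)).col l = 0 := by
            ext i; simp [Matrix.single_apply, h4]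
          rw [e1]
          simp [ten]
    have hstep : ∀ p : Fin n₁ × Fin n₂, (∑ q : Fin n₁ × Fin n₂, (b.repr (X *ᵥ b q) p) •
        ((psiL b (Matrix.single p.1 q.1 1) * psi b (Matrix.single p.2 q.2 1)) *ᵥ b (j, l))) = (b.repr (X *ᵥ b (j, l)) p) • b p := by
      intro p
      rw [Finset.sum_eq_single (j, l)]
      · rw [hkey, if_pos rfl]
      · intro q _ hq
        rw [hkey, if_neg hq, smul_zero]
      · simp
    rw [Finset.sum_congr rfl fun p _ => hstep p]
    exact (b.sum_repr (X *ᵥ b (j, l))).symm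
  rw [hX]
  refine Subalgebra.sum_mem _ fun p _ => Subalgebra.sum_mem _ fun q _ => Subalgebra.smul_mem _ ?_ _
  exact Subalgebra.mul_mem _ (psiL_mem b h1 _) (psi_mem b h2 _)

theorem KR_comm {R₁ : Subgroup (GL (Fin n₁) F)} {R₂ : Subgroup (GL (Fin n₂) F)} (h1 : ⁅R₁, R₁⁆ ≤ scalars (Fin n₁) F)
    (h2 : ⁅R₂, R₂⁆ ≤ scalars (Fin n₂) F) : ⁅KR b R₁ R₂, KR b R₁ R₂⁆ ≤ scalars ι F := by
  rw [Subgroup.commutator_le]
  rintro g ⟨A, hA, N, hN, hg⟩ h ⟨A', hA', N', hN', hh⟩
  have e1 : A * A' * A⁻¹ * A'⁻¹ ∈ scalars (Fin n₁) F := h1 (Subgroup.commutator_mem_commutator hA hA')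
  have e2 : N * N' * N⁻¹ * N'⁻¹ ∈ scalars (Fin n₂) F := h2 (Subgroup.commutator_mem_commutator hN hN')
  obtain ⟨c, hc⟩ := (mem_scalars_iff _).1 e1
  obtain ⟨d, hd⟩ := (mem_scalars_iff _).1 e2
  have hk := KA_mul b (KA_mul b (KA_mul b hg hh) (KA_inv b hg)) (KA_inv b hh)
  rw [← Units.val_mul, ← Units.val_mul, ← Units.val_mul, ← Units.val_mul, ← Units.val_mul, ← Units.val_mul,
    ← Units.val_mul, ← Units.val_mul, ← Units.val_mul, hc, hd] at hk
  refine (mem_scalars_iff _).2 ⟨c * d, ?_⟩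
  change ((g * h * g⁻¹ * h⁻¹ : GL ι F) : Matrix ι ι F) = _
  apply ext_ten b
  intro u v
  rw [ten_act b hk]
  simp only [Matrix.smul_mulVec, Matrix.one_mulVec, ten_smul_left, ten_smul_right, smul_smul, Units.val_mul]
  rw [mul_comm]

theorem KR_iso {ε ε₁ ε₂ : F} {f : (ι → F) → (ι → F) → F} {f₁ : (Fin n₁ → F) → (Fin n₁ → F) → F} {f₂ : (Fin n₂ → F) → (Fin n₂ → F) → F}
    (hf : FD (RingEquiv.refl F) ε f) (hf₁ : FD (RingEquiv.refl F) ε₁ f₁) (hf₂ : FD (RingEquiv.refl F) ε₂ f₂)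
    (hform : ∀ i l j l', f (b (i, l)) (b (j, l')) = gramMatrix f₁ i j * gramMatrix f₂ l l')
    {R₁ : Subgroup (GL (Fin n₁) F)} {R₂ : Subgroup (GL (Fin n₂) F)} (h1 : Iso f₁ R₁) (h2 : Iso f₂ R₂) :
    Iso f (KR b R₁ R₂) := by
  rintro g ⟨A, hA, N, hN, hg⟩ x y
  have hg' : CfsgLib.Asch13.Sesq ((RingEquiv.refl F : F ≃+* F) : F →+* F) (fun x y => f ((g : Matrix ι ι F) *ᵥ x) ((g : Matrix ι ι F) *ᵥ y)) :=
    ⟨fun x y v => by simp only [Matrix.mulVec_add, hf.add_left], fun c x v => by simp only [Matrix.mulVec_smul, hf.smul_left],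
     fun v x y => by simp only [Matrix.mulVec_add, hf.add_right], fun c v x => by simp only [Matrix.mulVec_smul, hf.smul_right]; rfl⟩
  symm
  refine bil_ten_ext b hf hg' ?_ x y
  intro u v u' v'
  beta_reduce
  rw [ten_act b hg, ten_act b hg, ten_form b hf hf₁ hf₂ hform, ten_form b hf hf₁ hf₂ hform, h1 A hA, h2 N hN]

theorem KR_norm {R₁ : Subgroup (GL (Fin n₁) F)} {R₂ : Subgroup (GL (Fin n₂) F)} {h : GL ι F} {B : GL (Fin n₁) F} {C : GL (Fin n₂) F}
    (hk : KA b (h : Matrix ι ι F) (B : Matrix _ _ F) (C : Matrix _ _ F))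
    (hB : B ∈ subgroupNormalizer R₁) (hC : C ∈ subgroupNormalizer R₂) : h ∈ subgroupNormalizer (KR b R₁ R₂) := by
  have key : ∀ (h : GL ι F) (B : GL (Fin n₁) F) (C : GL (Fin n₂) F), KA b (h : Matrix ι ι F) (B : Matrix _ _ F) (C : Matrix _ _ F) →
      B ∈ subgroupNormalizer R₁ → C ∈ subgroupNormalizer R₂ → ∀ g ∈ KR b R₁ R₂, h * g * h⁻¹ ∈ KR b R₁ R₂ := by
    rintro h B C hk hB hC g ⟨A, hA, N, hN, hg⟩
    refine ⟨B * A * B⁻¹, (Subgroup.mem_normalizer_iff.1 hB A).1 hA, C * N * C⁻¹, (Subgroup.mem_normalizer_iff.1 hC N).1 hN, ?_⟩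
    have := KA_mul b (KA_mul b hk hg) (KA_inv b hk)
    rw [← Units.val_mul, ← Units.val_mul, ← Units.val_mul, ← Units.val_mul, ← Units.val_mul, ← Units.val_mul] at this
    exact this
  refine Subgroup.mem_normalizer_iff.2 fun g => ⟨fun hg => key h B C hk hB hC g hg, fun hg => ?_⟩
  have := key h⁻¹ B⁻¹ C⁻¹ (KA_inv b hk) (Subgroup.inv_mem _ hB) (Subgroup.inv_mem _ hC) _ hg
  have e : h⁻¹ * (h * g * h⁻¹) * h⁻¹⁻¹ = g := by group
  rwa [e] at this

end kron

section q8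
variable {F : Type*} [Field F] [Fintype F]

theorem z3 : ∀ a b c : ZMod 3, a * a + b * c = -1 →
    (a = 0 ∧ b = 1 ∧ c = -1) ∨ (a = 0 ∧ b = -1 ∧ c = 1) ∨ (a = 1 ∧ b = 1 ∧ c = 1) ∨ (a = 1 ∧ b = -1 ∧ c = -1) ∨
    (a = -1 ∧ b = 1 ∧ c = 1) ∨ (a = -1 ∧ b = -1 ∧ c = -1) := by decide

theorem card_three_cases (hq : Fintype.card F = 3) {a b c : F} (h : a * a + b * c = -1) :
    (a = 0 ∧ b = 1 ∧ c = -1) ∨ (a = 0 ∧ b = -1 ∧ c = 1) ∨ (a = 1 ∧ b = 1 ∧ c = 1) ∨ (a = 1 ∧ b = -1 ∧ c = -1) ∨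
    (a = -1 ∧ b = 1 ∧ c = 1) ∨ (a = -1 ∧ b = -1 ∧ c = -1) := by
  haveI : Fact (Nat.Prime 3) := ⟨Nat.prime_three⟩
  haveI : CharP F 3 := by
    have h3 := card_three_three hq
    obtain ⟨p, hp⟩ := CharP.exists F
    have hpd : p ∣ 3 := (CharP.cast_eq_zero_iff F p 3).1 (by exact_mod_cast h3)
    have hpp : p.Prime := CharP.char_is_prime F p
    have : p = 3 := (Nat.prime_dvd_prime_iff_eq hpp Nat.prime_three).1 hpd
    rw [← this]; exact hp
  obtain e : ZMod 3 ≃+* F := ZMod.ringEquiv F hq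
  have h1 := z3 (e.symm a) (e.symm b) (e.symm c) (by rw [← map_mul, ← map_mul, ← map_add, h, map_neg, map_one])
  have k0 : ∀ x : F, e.symm x = 0 → x = 0 := fun x hx => by rw [← e.apply_symm_apply x, hx, map_zero]
  have k1 : ∀ x : F, e.symm x = 1 → x = 1 := fun x hx => by rw [← e.apply_symm_apply x, hx, map_one]
  have k2 : ∀ x : F, e.symm x = -1 → x = -1 := fun x hx => by rw [← e.apply_symm_apply x, hx, map_neg, map_one]
  rcases h1 with ⟨x, y, z⟩ | ⟨x, y, z⟩ | ⟨x, y, z⟩ | ⟨x, y, z⟩ | ⟨x, y, z⟩ | ⟨x, y, z⟩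
  · exact Or.inl ⟨k0 _ x, k1 _ y, k2 _ z⟩
  · exact Or.inr (Or.inl ⟨k0 _ x, k2 _ y, k1 _ z⟩)
  · exact Or.inr (Or.inr (Or.inl ⟨k1 _ x, k1 _ y, k1 _ z⟩))
  · exact Or.inr (Or.inr (Or.inr (Or.inl ⟨k1 _ x, k2 _ y, k2 _ z⟩)))
  · exact Or.inr (Or.inr (Or.inr (Or.inr (Or.inl ⟨k2 _ x, k1 _ y, k1 _ z⟩))))
  · exact Or.inr (Or.inr (Or.inr (Or.inr (Or.inr ⟨k2 _ x, k2 _ y, k2 _ z⟩))))

/-- quaternion condition -/
def QC (A : Matrix (Fin 2) (Fin 2) F) : Prop := A.det = 1 ∧ (A * A = 1 ∨ A * A = -1)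

theorem qc_shape (hq : Fintype.card F = 3) {A : Matrix (Fin 2) (Fin 2) F} (hA : QC A) :
    A = 1 ∨ A = -1 ∨ ∃ a b c : F, A = !![a, b; c, -a] ∧ a * a + b * c = -1 := by
  obtain ⟨hd, hs⟩ := hA
  have h20 := card_three_two hq
  rw [Matrix.det_fin_two] at hd
  set a := A 0 0 with ha
  set b := A 0 1 with hb
  set c := A 1 0 with hc
  set d := A 1 1 with hdd
  have hA : A = !![a, b; c, d] := by
    ext i j; fin_cases i <;> fin_cases j <;> rfl
  have hmul : A * A = !![a * a + b * c, a * b + b * d; c * a + d * c, c * b + d * d] := by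
    rw [hA, Matrix.mul_fin_two]
  rcases hs with hs | hs
  · rw [hmul] at hs
    have e00 : a * a + b * c = 1 := by simpa using congrFun (congrFun hs 0) 0
    have e01 : a * b + b * d = 0 := by simpa using congrFun (congrFun hs 0) 1
    have e10 : c * a + d * c = 0 := by simpa using congrFun (congrFun hs 1) 0
    have e11 : c * b + d * d = 1 := by simpa using congrFun (congrFun hs 1) 1
    have hne : a + d ≠ 0 := by
      intro h
      apply h20
      have hd' : d = -a := by linear_combination h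
      rw [hd'] at hd
      linear_combination -e00 - hd
    have hb0 : b = 0 := (mul_eq_zero.1 (by linear_combination e01 : b * (a + d) = 0)).resolve_right hne
    have hc0 : c = 0 := (mul_eq_zero.1 (by linear_combination e10 : c * (a + d) = 0)).resolve_right hne
    have had : a = d := by
      have h1 : (a - d) * (a + d) = 0 := by rw [hb0] at e00 e11; linear_combination e00 - e11
      exact sub_eq_zero.1 ((mul_eq_zero.1 h1).resolve_right hne)
    have ha1 : (a - 1) * (a + 1) = 0 := by rw [hb0] at e00; linear_combination e00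
    rcases mul_eq_zero.1 ha1 with h | h
    · left
      have h1 : a = 1 := by linear_combination h
      rw [hA, hb0, hc0, ← had, h1]
      ext i j; fin_cases i <;> fin_cases j <;> simp
    · right; left
      have h1 : a = -1 := by linear_combination h
      rw [hA, hb0, hc0, ← had, h1]
      ext i j; fin_cases i <;> fin_cases j <;> simp
  · right; right
    rw [hmul] at hs
    have e00 : a * a + b * c = -1 := by simpa using congrFun (congrFun hs 0) 0
    have e01 : a * b + b * d = 0 := by simpa using congrFun (congrFun hs 0) 1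
    have e10 : c * a + d * c = 0 := by simpa using congrFun (congrFun hs 1) 0
    have e11 : c * b + d * d = -1 := by simpa using congrFun (congrFun hs 1) 1
    have hne : a + d = 0 := by
      by_contra hne
      have hb0 : b = 0 := (mul_eq_zero.1 (by linear_combination e01 : b * (a + d) = 0)).resolve_right hne
      have hc0 : c = 0 := (mul_eq_zero.1 (by linear_combination e10 : c * (a + d) = 0)).resolve_right hne
      have had : a = d := by
        have h1 : (a - d) * (a + d) = 0 := by rw [hb0] at e00 e11; linear_combination e00 - e11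
        exact sub_eq_zero.1 ((mul_eq_zero.1 h1).resolve_right hne)
      rw [hb0, ← had] at hd
      rw [hb0] at e00
      apply h20
      linear_combination e00 - hd
    refine ⟨a, b, c, ?_, e00⟩
    rw [← (by linear_combination hne : d = -a)]
    exact hA

theorem qc_comm (hq : Fintype.card F = 3) {A B : Matrix (Fin 2) (Fin 2) F} (hA : QC A) (hB : QC B) :
    A * B = B * A ∨ A * B = -(B * A) := by
  rcases qc_shape hq hA with h | h | ⟨a, b, c, h, he⟩
  · left; rw [h]; simp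
  · left; rw [h]; simp
  rcases qc_shape hq hB with h' | h' | ⟨a', b', c', h', he'⟩
  · left; rw [h']; simp
  · left; rw [h']; simp
  have h3 := card_three_three hq
  subst h h'
  rw [Matrix.mul_fin_two, Matrix.mul_fin_two]
  rcases card_three_cases hq he with ⟨x, y, z⟩ | ⟨x, y, z⟩ | ⟨x, y, z⟩ | ⟨x, y, z⟩ | ⟨x, y, z⟩ | ⟨x, y, z⟩ <;>
  rcases card_three_cases hq he' with ⟨x', y', z'⟩ | ⟨x', y', z'⟩ | ⟨x', y', z'⟩ | ⟨x', y', z'⟩ | ⟨x', y', z'⟩ | ⟨x', y', z'⟩ <;>
  subst x y z x' y' z' <;>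
  first
  | (left; ext i j; fin_cases i <;> fin_cases j <;> simp <;> done)
  | (right; ext i j; fin_cases i <;> fin_cases j <;> simp <;> done)
  | (right; ext i j; fin_cases i <;> fin_cases j <;> simp <;> first | done | linear_combination h3 | linear_combination -h3)

theorem qc_mul (hq : Fintype.card F = 3) {A B : Matrix (Fin 2) (Fin 2) F} (hA : QC A) (hB : QC B) : QC (A * B) := by
  refine ⟨by rw [Matrix.det_mul, hA.1, hB.1, one_mul], ?_⟩
  have e : A * B * (A * B) = A * (B * A) * B := by noncomm_ring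
  have h1 : A * B * (A * B) = (A * A) * (B * B) ∨ A * B * (A * B) = -((A * A) * (B * B)) := by
    rcases qc_comm hq hA hB with h | h
    · left; rw [e, ← h]; noncomm_ring
    · right
      have h' : B * A = -(A * B) := by rw [h, neg_neg]
      rw [e, h']; noncomm_ring
  rcases hA.2 with h2 | h2 <;> rcases hB.2 with h3 | h3 <;> rw [h2, h3] at h1 <;> rcases h1 with h1 | h1 <;> rw [h1] <;> simp

/-- the quaternion group over the field with three elements -/
def Q8 (hq : Fintype.card F = 3) : Subgroup (GL (Fin 2) F) where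
  carrier := {A | QC (A : Matrix (Fin 2) (Fin 2) F)}
  mul_mem' := fun {A B} hA hB => by
    change QC (((A * B : GL (Fin 2) F)) : Matrix (Fin 2) (Fin 2) F)
    rw [Units.val_mul]; exact qc_mul hq hA hB
  one_mem' := ⟨by simp, Or.inl (by simp)⟩
  inv_mem' := fun {A} hA => by
    change QC (((A⁻¹ : GL (Fin 2) F)) : Matrix (Fin 2) (Fin 2) F)
    obtain ⟨h1, h2⟩ := hA
    have hinv : (((A⁻¹ : GL (Fin 2) F)) : Matrix (Fin 2) (Fin 2) F) = (A : Matrix (Fin 2) (Fin 2) F) ∨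
        (((A⁻¹ : GL (Fin 2) F)) : Matrix (Fin 2) (Fin 2) F) = -(A : Matrix (Fin 2) (Fin 2) F) := by
      rcases h2 with h2 | h2
      · left
        calc (((A⁻¹ : GL (Fin 2) F)) : Matrix (Fin 2) (Fin 2) F) = ((A⁻¹ : GL (Fin 2) F) : Matrix (Fin 2) (Fin 2) F) * ((A : Matrix (Fin 2) (Fin 2) F) * A) := by rw [h2, mul_one]
          _ = A := by rw [← mul_assoc, Units.inv_mul, one_mul]
      · right
        calc (((A⁻¹ : GL (Fin 2) F)) : Matrix (Fin 2) (Fin 2) F) = -(((A⁻¹ : GL (Fin 2) F) : Matrix (Fin 2) (Fin 2) F) * ((A : Matrix (Fin 2) (Fin 2) F) * A)) := by rw [h2]; simp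
          _ = -A := by rw [← mul_assoc, Units.inv_mul, one_mul]
    refine ⟨?_, ?_⟩
    · have h3 : (((A⁻¹ : GL (Fin 2) F)) : Matrix (Fin 2) (Fin 2) F).det * (A : Matrix (Fin 2) (Fin 2) F).det = 1 := by
        rw [← Matrix.det_mul, Units.inv_mul, Matrix.det_one]
      rwa [h1, mul_one] at h3
    · rcases hinv with h | h <;> rw [h]
      · exact h2
      · rw [neg_mul_neg]; exact h2

theorem mem_Q8 (hq : Fintype.card F = 3) {A : GL (Fin 2) F} : A ∈ Q8 hq ↔ QC (A : Matrix (Fin 2) (Fin 2) F) := Iff.rfl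

theorem Q8_comm (hq : Fintype.card F = 3) : ⁅Q8 (F := F) hq, Q8 hq⁆ ≤ scalars (Fin 2) F := by
  rw [Subgroup.commutator_le]
  intro A hA B hB
  change A * B * A⁻¹ * B⁻¹ ∈ _
  have e : A * B * A⁻¹ * B⁻¹ = (A * B) * (B * A)⁻¹ := by group
  rw [e]
  rcases qc_comm hq hA hB with h | h
  · have h1 : A * B = B * A := Units.ext (by rw [Units.val_mul, Units.val_mul]; exact h)
    rw [h1, mul_inv_cancel]; exact Subgroup.one_mem _
  · refine (mem_scalars_iff _).2 ⟨-1, ?_⟩
    have h1 : ((A * B : GL (Fin 2) F) : Matrix (Fin 2) (Fin 2) F) = -((B * A : GL (Fin 2) F) : Matrix (Fin 2) (Fin 2) F) := by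
      rw [Units.val_mul, Units.val_mul]; exact h
    rw [Units.val_mul, h1, neg_mul, Units.mul_inv]
    simp

theorem Q8_norm (hq : Fintype.card F = 3) (B : GL (Fin 2) F) : B ∈ subgroupNormalizer (Q8 (F := F) hq) := by
  have key : ∀ B : GL (Fin 2) F, ∀ A ∈ Q8 (F := F) hq, B * A * B⁻¹ ∈ Q8 hq := by
    rintro B A ⟨h1, h2⟩
    have hBB : (B : Matrix (Fin 2) (Fin 2) F) * ((B⁻¹ : GL (Fin 2) F) : Matrix (Fin 2) (Fin 2) F) = 1 := Units.mul_inv B
    have hBB' : ((B⁻¹ : GL (Fin 2) F) : Matrix (Fin 2) (Fin 2) F) * (B : Matrix (Fin 2) (Fin 2) F) = 1 := Units.inv_mul B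
    refine ⟨?_, ?_⟩
    · rw [Units.val_mul, Units.val_mul, Matrix.det_mul, Matrix.det_mul, h1, mul_one, ← Matrix.det_mul, hBB, Matrix.det_one]
    · rw [Units.val_mul, Units.val_mul]
      have e : (B : Matrix (Fin 2) (Fin 2) F) * A * ((B⁻¹ : GL (Fin 2) F) : Matrix (Fin 2) (Fin 2) F) *
          ((B : Matrix (Fin 2) (Fin 2) F) * A * ((B⁻¹ : GL (Fin 2) F) : Matrix (Fin 2) (Fin 2) F)) =
          (B : Matrix (Fin 2) (Fin 2) F) * (A * A) * ((B⁻¹ : GL (Fin 2) F) : Matrix (Fin 2) (Fin 2) F) := by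
        calc _ = (B : Matrix (Fin 2) (Fin 2) F) * A * (((B⁻¹ : GL (Fin 2) F) : Matrix (Fin 2) (Fin 2) F) *
          (B : Matrix (Fin 2) (Fin 2) F)) * A * ((B⁻¹ : GL (Fin 2) F) : Matrix (Fin 2) (Fin 2) F) := by noncomm_ring
          _ = _ := by rw [hBB']; noncomm_ring
      rw [e]
      rcases h2 with h2 | h2
      · left; rw [h2, mul_one, hBB]
      · right; rw [h2, mul_neg, mul_one, neg_mul, hBB]
  refine Subgroup.mem_normalizer_iff.2 fun g => ⟨fun hg => key B g hg, fun hg => ?_⟩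
  have := key B⁻¹ _ hg
  have e : B⁻¹ * (B * g * B⁻¹) * B⁻¹⁻¹ = g := by group
  rwa [e] at this

theorem Q8_alg (hq : Fintype.card F = 3) : alg (Q8 (F := F) hq) = ⊤ := by
  have h20 := card_three_two hq
  have h3 := card_three_three hq
  let I : Matrix (Fin 2) (Fin 2) F := !![0, 1; -1, 0]
  let J : Matrix (Fin 2) (Fin 2) F := !![1, 1; 1, -1]
  have hI : QC I := by
    refine ⟨by simp [I, Matrix.det_fin_two], Or.inr ?_⟩
    ext i j; fin_cases i <;> fin_cases j <;> simp [I, Matrix.mul_apply, Fin.sum_univ_two]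
  have hJ : QC J := by
    refine ⟨?_, Or.inr ?_⟩
    · simp only [J, Matrix.det_fin_two_of]
      linear_combination -h3
    · ext i j; fin_cases i <;> fin_cases j <;> simp [J, Matrix.mul_apply, Fin.sum_univ_two] <;> linear_combination h3
  have hmem : ∀ M : Matrix (Fin 2) (Fin 2) F, QC M → M ∈ alg (Q8 (F := F) hq) := by
    intro M hM
    let m : GL (Fin 2) F := Matrix.GeneralLinearGroup.mkOfDetNeZero M (by rw [hM.1]; exact one_ne_zero)
    exact mem_alg (x := m) (show QC (m : Matrix (Fin 2) (Fin 2) F) from hM)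
  have h1 : (1 : Matrix (Fin 2) (Fin 2) F) ∈ alg (Q8 (F := F) hq) := Subalgebra.one_mem _
  have hIJ := Subalgebra.mul_mem _ (hmem I hI) (hmem J hJ)
  rw [eq_top_iff]
  intro M _
  -- 1, I, J, IJ is a basis
  have hM : M = ((-1) * (M 0 0 + M 1 1)) • (1 : Matrix (Fin 2) (Fin 2) F) + ((-1) * (M 0 1 - M 1 0)) • I +
      (M 0 0 - M 1 1 + (M 0 1 + M 1 0)) • J + ((-1) * (M 0 1 + M 1 0) + (M 0 0 - M 1 1)) • (I * J) := by
    ext i j
    fin_cases i <;> fin_cases j <;> simp [I, J, Matrix.mul_apply, Fin.sum_univ_two]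
    · linear_combination (M 1 1) * h3
    · linear_combination -(M 1 0) * h3
    · linear_combination -(M 0 1) * h3
    · linear_combination (M 0 0) * h3
  rw [hM]
  exact Subalgebra.add_mem _ (Subalgebra.add_mem _ (Subalgebra.add_mem _ (Subalgebra.smul_mem _ h1 _) (Subalgebra.smul_mem _ (hmem I hI) _))
    (Subalgebra.smul_mem _ (hmem J hJ) _)) (Subalgebra.smul_mem _ hIJ _)

theorem alt_det {g : (Fin 2 → F) → (Fin 2 → F) → F} (hg : FD (RingEquiv.refl F) (-1) g) (h2 : (2 : F) ≠ 0) (x y : Fin 2 → F) :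
    g x y = (x 0 * y 1 - x 1 * y 0) * g (Pi.single 0 1) (Pi.single 1 1) := by
  have ha := alt_of_neg hg h2
  have hx : ∀ z : Fin 2 → F, z = z 0 • (Pi.single 0 1 : Fin 2 → F) + z 1 • (Pi.single 1 1 : Fin 2 → F) := by
    intro z; ext i; fin_cases i <;> simp
  have h10 : g (Pi.single 1 1) (Pi.single 0 1) = - g (Pi.single 0 1) (Pi.single 1 1) := by
    rw [hg.herm, RingEquiv.refl_apply]; ring
  conv_lhs => rw [hx x, hx y]
  rw [hg.add_left, hg.add_right, hg.add_right, hg.smul_left, hg.smul_left, hg.smul_left, hg.smul_left, hg.smul_right, hg.smul_right,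
    hg.smul_right, hg.smul_right, ha, ha, h10]
  simp only [RingEquiv.refl_apply]
  ring

theorem det_iso {g : (Fin 2 → F) → (Fin 2 → F) → F} (hg : FD (RingEquiv.refl F) (-1) g) (h2 : (2 : F) ≠ 0)
    (A : Matrix (Fin 2) (Fin 2) F) (x y : Fin 2 → F) : g (A *ᵥ x) (A *ᵥ y) = A.det * g x y := by
  rw [alt_det hg h2 (A *ᵥ x), alt_det hg h2 x, Matrix.det_fin_two]
  simp only [Matrix.mulVec, dotProduct, Fin.sum_univ_two]
  ring

theorem Q8_iso (hq : Fintype.card F = 3) {g : (Fin 2 → F) → (Fin 2 → F) → F} (hg : FD (RingEquiv.refl F) (-1) g) (h2 : (2 : F) ≠ 0) :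
    Iso g (Q8 (F := F) hq) := by
  intro A hA x y
  rw [det_iso hg h2, hA.1, one_mul]

end q8

end CfsgLib.SpMax19
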