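import Cfsg.Agent.EqBase
import Cfsg.Agent.LibSpMaxI19

/-!
# The four-dimensional symplectic group over the field with three elements
-/

set_option autoImplicit false
set_option linter.all false
set_option maxHeartbeats 400000

open Module Cfsg Cfsg.Geo
open scoped Matrix MatrixGroups Kronecker

namespace CfsgLib.SpMax19

open CfsgLib.AschF CfsgLib.Asch9 CfsgLib.Asch10 CfsgLib.Asch16 CfsgLib.Asch14
open CfsgLib.SympTv29 (st st_mulVec st_fix st_mem_iso st_conj iso mem_iso zero_left zero_right neg_left neg_right swap_ne swap_eq exists_perp)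
open CfsgLib.MaxTv29 (gl_ext mem_stab mulVec_inv_mulVec inv_mulVec_mulVec mulVec_injective)

section std
variable {F : Type*} [Field F]

/-- standard alternating form on the plane -/
def s1 (x y : Fin 2 → F) : F := x 0 * y 1 - x 1 * y 0

/-- standard symmetric form on the plane -/
def s2 (x y : Fin 2 → F) : F := x 0 * y 0 + x 1 * y 1

/-- hyperbolic form on the plane -/
def s3 (x y : Fin 2 → F) : F := x 0 * y 1 + x 1 * y 0

theorem s1_fd : FD (RingEquiv.refl F) (-1) (s1 : (Fin 2 → F) → (Fin 2 → F) → F) where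
  sesq := ⟨fun x y v => by simp [s1]; ring, fun c x v => by simp [s1]; ring, fun v x y => by simp [s1]; ring,
    fun c v x => by simp [s1]; ring⟩
  nd := by
    intro v hv
    obtain ⟨i, hi⟩ := Function.ne_iff.1 hv
    fin_cases i
    · exact ⟨⟨![0, 1], by simpa [s1] using hi⟩, ⟨![0, 1], by simpa [s1] using hi⟩⟩
    · exact ⟨⟨![1, 0], by simpa [s1] using hi⟩, ⟨![1, 0], by simpa [s1] using hi⟩⟩
  sq := fun a => rfl
  herm := fun u v => by simp [s1]; ring
  eps := Or.inr rfl

theorem s2_fd : FD (RingEquiv.refl F) 1 (s2 : (Fin 2 → F) → (Fin 2 → F) → F) where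
  sesq := ⟨fun x y v => by simp [s2]; ring, fun c x v => by simp [s2]; ring, fun v x y => by simp [s2]; ring,
    fun c v x => by simp [s2]; ring⟩
  nd := by
    intro v hv
    obtain ⟨i, hi⟩ := Function.ne_iff.1 hv
    fin_cases i
    · exact ⟨⟨![1, 0], by simpa [s2] using hi⟩, ⟨![1, 0], by simpa [s2] using hi⟩⟩
    · exact ⟨⟨![0, 1], by simpa [s2] using hi⟩, ⟨![0, 1], by simpa [s2] using hi⟩⟩
  sq := fun a => rfl
  herm := fun u v => by simp [s2]; ring
  eps := Or.inl rfl

theorem s3_fd : FD (RingEquiv.refl F) 1 (s3 : (Fin 2 → F) → (Fin 2 → F) → F) where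
  sesq := ⟨fun x y v => by simp [s3]; ring, fun c x v => by simp [s3]; ring, fun v x y => by simp [s3]; ring,
    fun c v x => by simp [s3]; ring⟩
  nd := by
    intro v hv
    obtain ⟨i, hi⟩ := Function.ne_iff.1 hv
    fin_cases i
    · exact ⟨⟨![0, 1], by simpa [s3] using hi⟩, ⟨![0, 1], by simpa [s3] using hi⟩⟩
    · exact ⟨⟨![1, 0], by simpa [s3] using hi⟩, ⟨![1, 0], by simpa [s3] using hi⟩⟩
  sq := fun a => rfl
  herm := fun u v => by simp [s3]; ring
  eps := Or.inl rfl

end std

section gen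
variable {ι : Type} [Fintype ι] [DecidableEq ι] {F : Type*} [Field F]
variable {f : (ι → F) → (ι → F) → F}

theorem basis_of_gram (hf : IsSymplecticForm f) {κ : Type} [Fintype κ] [DecidableEq κ] (hcard : Fintype.card κ = Fintype.card ι)
    (v : κ → (ι → F)) (s : κ → κ) (c : κ → F) (hc : ∀ k, c k ≠ 0) (hg : ∀ j k, f (v j) (v (s k)) = if j = k then c k else 0) :
    ∃ b : Basis κ F (ι → F), ∀ k, b k = v k := by
  have hsum : ∀ (a : κ → F) (z : ι → F), f (∑ j, a j • v j) z = ∑ j, a j * f (v j) z := by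
    intro a z
    have : ∀ S : Finset κ, f (∑ j ∈ S, a j • v j) z = ∑ j ∈ S, a j * f (v j) z := by
      intro S
      induction S using Finset.induction_on with
      | empty => simp [zero_left hf]
      | insert x S hx ih => rw [Finset.sum_insert hx, Finset.sum_insert hx, hf.bilinear.add_left, hf.bilinear.smul_left, ih]
    exact this _
  have hli : LinearIndependent F v := by
    rw [Fintype.linearIndependent_iff]
    intro a ha k
    have h1 := hsum a (v (s k))
    rw [ha, zero_left hf, Finset.sum_eq_single k] at h1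
    · rw [hg, if_pos rfl] at h1
      exact (mul_eq_zero.1 h1.symm).resolve_right (hc k)
    · intro j _ hj
      rw [hg, if_neg hj, mul_zero]
    · simp
  have hfr : Fintype.card κ = finrank F (ι → F) := by rw [Module.finrank_fintype_fun_eq_card, hcard]
  have hne : Nonempty κ ∨ IsEmpty κ := by
    rcases isEmpty_or_nonempty κ with h | h
    · exact Or.inr h
    · exact Or.inl h
  refine ⟨Basis.mk hli ?_, fun k => by rw [Basis.mk_apply]⟩
  rw [hli.span_eq_top_of_card_eq_finrank' hfr]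

/-- decompositions from orthogonal bases of the second factor -/
theorem tdec {n₁ k : ℕ} (hf : IsSymplecticForm f) (hn : 1 ≤ n₁) (hk : 2 ≤ k) (b : Basis (Fin n₁ × Fin k) F (ι → F))
    {f₁ : (Fin n₁ → F) → (Fin n₁ → F) → F} {f₂ : (Fin k → F) → (Fin k → F) → F}
    (hF₁ : FD (RingEquiv.refl F) (-1) f₁) (hF₂ : FD (RingEquiv.refl F) 1 f₂)
    (hform : ∀ i l j l', f (b (i, l)) (b (j, l')) = gramMatrix f₁ i j * gramMatrix f₂ l l')
    (B : Basis (Fin k) F (Fin k → F)) (d : Fin k → F) (hd : ∀ i, d i ≠ 0) (hB : ∀ i j, f₂ (B i) (B j) = if i = j then d i else 0) :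
    ∃ D : Fin k → Submodule F (ι → F), IsNondegenerateMDecomposition f n₁ D ∧ (∀ j x, x ∈ D j ↔ ∃ y, x = ten b y (B j)) := by
  classical
  have hff := fd_of_symp hf
  have hform' := ten_form b hff hF₁ hF₂ hform
  let T : Fin k → ((Fin n₁ → F) →ₗ[F] (ι → F)) := fun j =>
    { toFun := fun x => ten b x (B j)
      map_add' := fun x y => ten_add_left b x y (B j)
      map_smul' := fun c x => ten_smul_left b c x (B j) }
  have hT : ∀ j x, T j x = ten b x (B j) := fun j x => rfl
  have hTinj : ∀ j, Function.Injective (T j) := by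
    intro j
    rw [← LinearMap.ker_eq_bot, eq_bot_iff]
    intro x hx
    rw [Submodule.mem_bot]
    by_contra hne
    exact ten_ne_zero b hne (B.ne_zero j) hx
  let D : Fin k → Submodule F (ι → F) := fun j => LinearMap.range (T j)
  have hrank : ∀ j, finrank F (D j) = n₁ := by
    intro j
    have := LinearMap.finrank_range_of_inj (hTinj j)
    rw [Module.finrank_fintype_fun_eq_card, Fintype.card_fin] at this
    exact this
  have hnd : ∀ j, IsNondegenerateOn f (D j) := by
    rintro j _ ⟨x, rfl⟩ hne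
    have hx0 : x ≠ 0 := by rintro rfl; exact hne (map_zero _)
    obtain ⟨⟨y, hy⟩, ⟨z, hz⟩⟩ := hF₁.nd x hx0
    refine ⟨⟨T j y, ⟨y, rfl⟩, ?_⟩, ⟨T j z, ⟨z, rfl⟩, ?_⟩⟩
    · rw [hT, hT, hform', hB, if_pos rfl]; exact mul_ne_zero hy (hd j)
    · rw [hT, hT, hform', hB, if_pos rfl]; exact mul_ne_zero hz (hd j)
  have horth : ∀ i j, i ≠ j → AreOrthogonalFor f (D i) (D j) := by
    rintro i j hij _ ⟨x, rfl⟩ _ ⟨y, rfl⟩
    rw [hT, hT, hform', hB, if_neg hij, mul_zero]
  have htop : iSup D = ⊤ := by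
    rw [eq_top_iff, ← b.span_eq, Submodule.span_le]
    rintro _ ⟨⟨i, l⟩, rfl⟩
    rw [← ten_single, SetLike.mem_coe]
    have hlin : ∀ (S : Finset (Fin k)) (c : Fin k → F), ten b (Pi.single i 1) (∑ j ∈ S, c j • B j) =
        ∑ j ∈ S, c j • ten b (Pi.single i 1) (B j) := by
      intro S c
      induction S using Finset.induction_on with
      | empty => simp [ten]
      | insert x S hx ih => rw [Finset.sum_insert hx, Finset.sum_insert hx, ten_add_right, ten_smul_right, ih]
    have h1 : (Pi.single l 1 : Fin k → F) = ∑ j, B.repr (Pi.single l 1) j • B j := (B.sum_repr _).symm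
    rw [h1, hlin]
    refine Submodule.sum_mem _ fun j _ => ?_
    exact (iSup D).smul_mem _ ((le_iSup D j) ⟨Pi.single i 1, rfl⟩)
  refine ⟨D, ⟨⟨hk, hn, hrank, nd_indep hf hnd horth, htop⟩, hnd, horth⟩, ?_⟩
  intro j x
  constructor
  · rintro ⟨y, rfl⟩; exact ⟨y, rfl⟩
  · rintro ⟨y, rfl⟩; exact ⟨y, rfl⟩

/-- psi as an algebra map -/
noncomputable def psiHom {n₁ n₂ : ℕ} (b : Basis (Fin n₁ × Fin n₂) F (ι → F)) : Matrix (Fin n₂) (Fin n₂) F →ₐ[F] End F (ι → F) :=
  (Matrix.toLinAlgEquiv' : Matrix ι ι F ≃ₐ[F] _).toAlgHom.comp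
    { toFun := psi b
      map_one' := psi_one b
      map_mul' := fun x y => (psi_mul b x y).symm
      map_zero' := by
        have := psi_smul b (0 : F) 0
        simpa using this
      map_add' := fun x y => psi_add b x y
      commutes' := fun c => by rw [Algebra.algebraMap_eq_smul_one, psi_smul, psi_one, Algebra.algebraMap_eq_smul_one] }

theorem psiHom_apply {n₁ n₂ : ℕ} (b : Basis (Fin n₁ × Fin n₂) F (ι → F)) (N : Matrix (Fin n₂) (Fin n₂) F) :
    psiHom b N = Matrix.toLin' (psi b N) := rfl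

theorem KA_of_psi_norm [Nonempty ι] {n₁ n₂ : ℕ} [NeZero n₁] [NeZero n₂] (b : Basis (Fin n₁ × Fin n₂) F (ι → F)) (h : GL ι F)
    (hn : ∀ N, ∃ N', (h : Matrix ι ι F) * psi b N * ((h⁻¹ : GL ι F) : Matrix ι ι F) = psi b N') :
    ∃ (A : GL (Fin n₁) F) (N : GL (Fin n₂) F), KA b (h : Matrix ι ι F) (A : Matrix _ _ F) (N : Matrix _ _ F) := by
  obtain ⟨N, A, hk⟩ := kron_of_norm (psiHom b) (b.reindex (Equiv.prodComm (Fin n₁) (Fin n₂))) (by
    intro M j l
    rw [psiHom_apply, Matrix.toLin'_apply, Basis.reindex_apply]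
    have h1 : (Equiv.prodComm (Fin n₁) (Fin n₂)).symm (j, l) = (l, j) := rfl
    rw [h1, psi_basis]
    refine Finset.sum_congr rfl fun i _ => ?_
    rw [Basis.reindex_apply]
    rfl) h (by
    intro M
    obtain ⟨M', hM'⟩ := hn M
    refine ⟨M', ?_⟩
    rw [psiHom_apply, psiHom_apply, ← hM', Matrix.toLin'_mul, Matrix.toLin'_mul]
    rfl)
  refine ⟨A, N, ?_⟩
  have h3 := KA_swap (b.reindex (Equiv.prodComm (Fin n₁) (Fin n₂))) hk
  have h4 : (b.reindex (Equiv.prodComm (Fin n₁) (Fin n₂))).reindex (Equiv.prodComm (Fin n₂) (Fin n₁)) = b := by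
    ext1 p
    rw [Basis.reindex_apply, Basis.reindex_apply]
    rfl
  rw [h4] at h3
  exact h3

end gen

end CfsgLib.SpMax19
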