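import Cfsg.Agent.EqBase
import Cfsg.Agent.LibSpMaxJ19

/-!
# The four-dimensional symplectic group over the field with three elements, continued
-/

set_option autoImplicit false
set_option linter.all false
set_option maxHeartbeats 400000

open Module Cfsg Cfsg.Geo
open scoped Matrix MatrixGroups Kronecker

namespace CfsgLib.SpMax19

open CfsgLib.AschF CfsgLib.Asch9 CfsgLib.Asch10 CfsgLib.Asch16 CfsgLib.Asch14
open CfsgLib.SympTv29 (st st_mulVec st_fix st_mem_iso st_conj iso mem_iso zero_left zero_right neg_left neg_right swap_ne swap_eq exists_perp)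
open CfsgLib.MaxTv29 (gl_ext mem_stab mulVec_inv_mulVec inv_mulVec_mulVec mulVec_injective)

section gen
variable {ι : Type} [Fintype ι] [DecidableEq ι] {F : Type*} [Field F]
variable {f : (ι → F) → (ι → F) → F}

/-- conjugates of self-adjoint matrices are self-adjoint -/
theorem adj_conj {H : Subgroup (GL ι F)} (hI : Iso f H) {g : GL ι F} (hg : g ∈ H) {S : Matrix ι ι F}
    (hS : ∀ u v, f (S *ᵥ u) v = f u (S *ᵥ v)) (u v : ι → F) :
    f (((g : Matrix ι ι F) * S * ((g⁻¹ : GL ι F) : Matrix ι ι F)) *ᵥ u) v = f u (((g : Matrix ι ι F) * S * ((g⁻¹ : GL ι F) : Matrix ι ι F)) *ᵥ v) := by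
  have e : ∀ w, ((g : Matrix ι ι F) * S * ((g⁻¹ : GL ι F) : Matrix ι ι F)) *ᵥ w =
      (g : Matrix ι ι F) *ᵥ (S *ᵥ (((g⁻¹ : GL ι F) : Matrix ι ι F) *ᵥ w)) := by
    intro w; rw [Matrix.mulVec_mulVec, Matrix.mulVec_mulVec, mul_assoc]
  rw [e, e]
  conv_lhs => rw [← mulVec_inv_mulVec g v]
  conv_rhs => rw [← mulVec_inv_mulVec g u]
  rw [hI g hg, hI g hg, hS]

/-- a self-adjoint matrix commuting up to sign -/
theorem adj_zero (hf : IsSymplecticForm f) (h2 : (2 : F) ≠ 0) {S : Matrix ι ι F} (hS : ∀ u v, f (S *ᵥ u) v = f u (S *ᵥ v)) (u : ι → F) :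
    f u (S *ᵥ u) = 0 := by
  have h1 := hS u u
  rw [hf.skew] at h1
  have h3 : (2 : F) * f u (S *ᵥ u) = 0 := by linear_combination -h1
  exact (mul_eq_zero.1 h3).resolve_left h2

theorem mul_conj (g : GL ι F) (X Y : Matrix ι ι F) :
    (g : Matrix ι ι F) * (X * Y) * ((g⁻¹ : GL ι F) : Matrix ι ι F) =
    ((g : Matrix ι ι F) * X * ((g⁻¹ : GL ι F) : Matrix ι ι F)) * ((g : Matrix ι ι F) * Y * ((g⁻¹ : GL ι F) : Matrix ι ι F)) := by
  calc _ = (g : Matrix ι ι F) * X * (((g⁻¹ : GL ι F) : Matrix ι ι F) * (g : Matrix ι ι F)) * Y * ((g⁻¹ : GL ι F) : Matrix ι ι F) := by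
        rw [Units.inv_mul]; noncomm_ring
    _ = _ := by noncomm_ring

theorem gram_s1 (i j : Fin 2) : gramMatrix (s1 : (Fin 2 → F) → (Fin 2 → F) → F) i j = !![0, 1; -1, 0] i j := by
  fin_cases i <;> fin_cases j <;> simp [gramMatrix, s1]

theorem gram_s2 (i j : Fin 2) : gramMatrix (s2 : (Fin 2 → F) → (Fin 2 → F) → F) i j = !![1, 0; 0, 1] i j := by
  fin_cases i <;> fin_cases j <;> simp [gramMatrix, s2]

theorem gram_s3 (i j : Fin 2) : gramMatrix (s3 : (Fin 2 → F) → (Fin 2 → F) → F) i j = !![0, 1; 1, 0] i j := by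
  fin_cases i <;> fin_cases j <;> simp [gramMatrix, s3]

/-- isotropic pairs in dimension four have a tensor basis -/
theorem pair_basis (hf : IsSymplecticForm f) (hcard : Fintype.card ι = 4) {D : Fin 2 → Submodule F (ι → F)} (hD : IsMDecomposition 2 D)
    (hs : ∀ i, IsTotallySingularFor f (D i)) :
    ∃ b : Basis (Fin 2 × Fin 2) F (ι → F), (∀ i l, b (i, l) ∈ D l) ∧
      ∀ i l j l', f (b (i, l)) (b (j, l')) = gramMatrix s1 i j * gramMatrix s3 l l' := by
  classical
  have hc := compl_of_mdec hD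
  let v := Module.finBasisOfFinrankEq F (D 0) (hD.finrank_eq 0)
  have hli : LinearIndependent F v := v.linearIndependent
  -- dual vectors
  have hdual : ∀ x y : ι → F, x ∈ D 0 → y ∈ D 0 → x ∉ Submodule.span F ({y} : Set (ι → F)) →
      ∃ z ∈ D 1, f x z = 1 ∧ f y z = 0 := by
    intro x y hx hy hxy
    obtain ⟨z, hz1, hz2⟩ := exists_perp hf _ x hxy
    have hz : z ∈ D 0 ⊔ D 1 := by rw [hc.sup_eq_top]; trivial
    obtain ⟨z0, hz0, z1, hz1', rfl⟩ := Submodule.mem_sup.1 hz
    refine ⟨z1, hz1', ?_, ?_⟩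
    · rw [hf.bilinear.add_right, hs 0 x hx z0 hz0, zero_add] at hz1; exact hz1
    · have := hz2 y (Submodule.mem_span_singleton_self y)
      rw [hf.bilinear.add_right, hs 0 y hy z0 hz0, zero_add] at this; exact this
  have hn01 : (v 0 : ι → F) ∉ Submodule.span F ({(v 1 : ι → F)} : Set (ι → F)) := by
    intro h
    obtain ⟨c, hcc⟩ := Submodule.mem_span_singleton.1 h
    have h1 : (1 : F) • v 0 + (-c) • v 1 = 0 := by
      apply Subtype.ext
      simp only [Submodule.coe_add, Submodule.coe_smul, Submodule.coe_zero]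
      rw [← hcc]; module
    have h3 := (LinearIndependent.pair_iff.1 (by
      have := hli
      rwa [← List.ofFn_inj.1 (by simp : List.ofFn ![v 0, v 1] = List.ofFn v)] at this : LinearIndependent F ![v 0, v 1])) 1 (-c) h1
    exact one_ne_zero h3.1
  have hn10 : (v 1 : ι → F) ∉ Submodule.span F ({(v 0 : ι → F)} : Set (ι → F)) := by
    intro h
    obtain ⟨c, hcc⟩ := Submodule.mem_span_singleton.1 h
    have h1 : (-c) • v 0 + (1 : F) • v 1 = 0 := by
      apply Subtype.ext
      simp only [Submodule.coe_add, Submodule.coe_smul, Submodule.coe_zero]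
      rw [← hcc]; module
    have h3 := (LinearIndependent.pair_iff.1 (by
      have := hli
      rwa [← List.ofFn_inj.1 (by simp : List.ofFn ![v 0, v 1] = List.ofFn v)] at this : LinearIndependent F ![v 0, v 1])) (-c) 1 h1
    exact one_ne_zero h3.2
  obtain ⟨d0, hd0, h00, h10⟩ := hdual _ _ (v 0).2 (v 1).2 hn01
  obtain ⟨d1, hd1, h11, h01⟩ := hdual _ _ (v 1).2 (v 0).2 hn10
  set e0 : ι → F := (v 0 : ι → F) with he0
  set e1 : ι → F := (v 1 : ι → F) with he1
  let w : Fin 2 × Fin 2 → (ι → F) := fun p => !![e0, -d1; e1, d0] p.1 p.2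
  have hw : ∀ p, w p ∈ D p.2 := by
    rintro ⟨i, l⟩
    fin_cases i <;> fin_cases l
    · exact (v 0).2
    · exact (D 1).neg_mem hd1
    · exact (v 1).2
    · exact hd0
  have hform : ∀ i l j l', f (w (i, l)) (w (j, l')) = gramMatrix s1 i j * gramMatrix s3 l l' := by
    have q1 : f e0 e0 = 0 := hf.alternating _
    have q2 : f e0 e1 = 0 := hs 0 _ (v 0).2 _ (v 1).2
    have q3 : f e1 e0 = 0 := hs 0 _ (v 1).2 _ (v 0).2
    have q4 : f e1 e1 = 0 := hf.alternating _
    have q5 : f d0 d1 = 0 := hs 1 _ hd0 _ hd1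
    have q6 : f d1 d0 = 0 := hs 1 _ hd1 _ hd0
    have q7 : f d0 d0 = 0 := hf.alternating _
    have q8 : f d1 d1 = 0 := hf.alternating _
    have r00 : f d0 e0 = -1 := by rw [hf.skew, h00]
    have r11 : f d1 e1 = -1 := by rw [hf.skew, h11]
    have r01 : f d0 e1 = 0 := by rw [hf.skew, h10, neg_zero]
    have r10 : f d1 e0 = 0 := by rw [hf.skew, h01, neg_zero]
    intro i l j l'
    rw [gram_s1, gram_s3]
    fin_cases i <;> fin_cases l <;> fin_cases j <;> fin_cases l' <;>
      simp [w, neg_left hf, neg_right hf, q1, q2, q3, q4, q5, q6, q7, q8, h00, h11, h01, h10, r00, r11, r01, r10]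
  obtain ⟨b, hb⟩ := basis_of_gram hf (κ := Fin 2 × Fin 2) (by simp [hcard]) w (fun p => (p.1 + 1, p.2 + 1))
    (fun p => if p.1 = 0 then 1 else -1) (by
      intro p; split_ifs
      · exact one_ne_zero
      · exact neg_ne_zero.2 one_ne_zero) (by
      rintro ⟨i, l⟩ ⟨j, l'⟩
      rw [hform, gram_s1, gram_s3]
      fin_cases i <;> fin_cases l <;> fin_cases j <;> fin_cases l' <;> simp)
  refine ⟨b, fun i l => by rw [hb]; exact hw (i, l), fun i l j l' => by rw [hb, hb]; exact hform i l j l'⟩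

end gen

section three
variable {ι : Type} [Fintype ι] [DecidableEq ι] {F : Type*} [Field F] [Fintype F]
variable {f : (ι → F) → (ι → F) → F}

/-- orthogonal basis of the hyperbolic plane -/
theorem hyp_basis (h2 : (2 : F) ≠ 0) : ∃ B : Basis (Fin 2) F (Fin 2 → F), B 0 = ![1, 1] ∧ B 1 = ![1, -1] := by
  have hli : LinearIndependent F ![![(1 : F), 1], ![1, -1]] := by
    rw [LinearIndependent.pair_iff]
    intro s t h
    have h0 := congrFun h 0
    have h1 := congrFun h 1
    simp at h0 h1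
    have e1 : (2 : F) * s = 0 := by linear_combination h0 + h1
    have e2 : (2 : F) * t = 0 := by linear_combination h0 - h1
    exact ⟨(mul_eq_zero.1 e1).resolve_left h2, (mul_eq_zero.1 e2).resolve_left h2⟩
  refine ⟨basisOfLinearIndependentOfCardEqFinrank hli (by simp), ?_, ?_⟩
  · rw [coe_basisOfLinearIndependentOfCardEqFinrank]; rfl
  · rw [coe_basisOfLinearIndependentOfCardEqFinrank]; rfl

theorem pair_dec3 (hf : IsSymplecticForm f) (hcard : Fintype.card ι = 4) (hq : Fintype.card F = 3) {D : Fin 2 → Submodule F (ι → F)}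
    (hD : IsMDecomposition 2 D) (hs : ∀ i, IsTotallySingularFor f (D i)) {H : Subgroup (GL ι F)} (hI : Iso f H)
    (h : H ≤ decompositionStabilizer D) :
    ∃ E : Fin 2 → Submodule F (ι → F), IsNondegenerateMDecomposition f 2 E ∧ H ≤ decompositionStabilizer E := by
  classical
  have h2 := card_three_two hq
  obtain ⟨b, hbD, hform⟩ := pair_basis hf hcard hD hs
  obtain ⟨B, hB0, hB1⟩ := hyp_basis h2
  obtain ⟨E, hE, hmem⟩ := tdec hf (by norm_num) (le_refl 2) b s1_fd s3_fd hform B ![2, -2] (by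
    intro i; fin_cases i
    · simpa using h2
    · simpa using h2) (by
    intro i j
    fin_cases i <;> fin_cases j <;> simp [hB0, hB1, s3] <;> norm_num)
  refine ⟨E, hE, ?_⟩
  -- the swap
  let S₂ : Matrix (Fin 2) (Fin 2) F := !![0, 1; 1, 0]
  let S := psi b S₂
  have hSS : S * S = 1 := by
    rw [psi_mul, ← psi_one b]
    congr 1
    ext i j; fin_cases i <;> fin_cases j <;> simp [S₂, Matrix.mul_apply, Fin.sum_univ_two]
  have hSadj : ∀ u v, f (S *ᵥ u) v = f u (S *ᵥ v) := by
    refine psi_adj b (fd_of_symp hf) s1_fd s3_fd hform (N := S₂) (N' := S₂) ?_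
    intro u v
    simp only [S₂, s3, Matrix.mulVec, dotProduct, Fin.sum_univ_two]
    simp
    ring
  have hSb0 : ∀ i, S *ᵥ b (i, 0) = b (i, 1) := by
    intro i
    rw [psi_basis, Fin.sum_univ_two]
    simp [S₂]
  have hSb1 : ∀ i, S *ᵥ b (i, 1) = b (i, 0) := by
    intro i
    rw [psi_basis, Fin.sum_univ_two]
    simp [S₂]
  -- elements of D l in terms of the basis
  have hDl : ∀ l, ∀ x ∈ D l, ∃ α β : F, x = α • b (0, l) + β • b (1, l) := by
    intro l x hx
    have h1 : x = ∑ p : Fin 2 × Fin 2, b.repr x p • b p := (b.sum_repr x).symm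
    rw [Fintype.sum_prod_type, Fin.sum_univ_two, Fin.sum_univ_two, Fin.sum_univ_two] at h1
    have hdis : Disjoint (D 0) (D 1) := mdec_disj hD (by decide)
    fin_cases l
    · refine ⟨b.repr x (0, 0), b.repr x (1, 0), ?_⟩
      have h3 : b.repr x (0, 1) • b (0, 1) + b.repr x (1, 1) • b (1, 1) ∈ D 0 := by
        have : b.repr x (0, 1) • b (0, 1) + b.repr x (1, 1) • b (1, 1) = x - (b.repr x (0, 0) • b (0, 0) + b.repr x (1, 0) • b (1, 0)) :=
          eq_sub_of_add_eq (Eq.trans (by abel) h1.symm)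
        rw [this]
        exact (D 0).sub_mem hx ((D 0).add_mem ((D 0).smul_mem _ (hbD 0 0)) ((D 0).smul_mem _ (hbD 1 0)))
      have h4 := Submodule.disjoint_def.1 hdis _ h3 ((D 1).add_mem ((D 1).smul_mem _ (hbD 0 1)) ((D 1).smul_mem _ (hbD 1 1)))
      calc x = (b.repr x (0, 0) • b (0, 0) + b.repr x (1, 0) • b (1, 0)) + (b.repr x (0, 1) • b (0, 1) + b.repr x (1, 1) • b (1, 1)) :=
            h1.trans (by abel)
        _ = _ := by rw [h4, add_zero]; rfl
    · refine ⟨b.repr x (0, 1), b.repr x (1, 1), ?_⟩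
      have h3 : b.repr x (0, 0) • b (0, 0) + b.repr x (1, 0) • b (1, 0) ∈ D 1 := by
        have : b.repr x (0, 0) • b (0, 0) + b.repr x (1, 0) • b (1, 0) = x - (b.repr x (0, 1) • b (0, 1) + b.repr x (1, 1) • b (1, 1)) :=
          eq_sub_of_add_eq (Eq.trans (by abel) h1.symm)
        rw [this]
        exact (D 1).sub_mem hx ((D 1).add_mem ((D 1).smul_mem _ (hbD 0 1)) ((D 1).smul_mem _ (hbD 1 1)))
      have h4 := Submodule.disjoint_def.1 hdis _ ((D 0).add_mem ((D 0).smul_mem _ (hbD 0 0)) ((D 0).smul_mem _ (hbD 1 0))) h3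
      calc x = (b.repr x (0, 0) • b (0, 0) + b.repr x (1, 0) • b (1, 0)) + (b.repr x (0, 1) • b (0, 1) + b.repr x (1, 1) • b (1, 1)) :=
            h1.trans (by abel)
        _ = _ := by rw [h4, zero_add]; rfl
  -- membership in E
  have hE0 : ∀ x, x ∈ E 0 ↔ S *ᵥ x = x := by
    intro x
    rw [hmem, hB0]
    constructor
    · rintro ⟨y, rfl⟩
      rw [psi_ten]
      congr 1
      ext i; fin_cases i <;> simp [S₂, Matrix.mulVec, dotProduct, Fin.sum_univ_two]
    · intro hx
      refine ⟨fun i => b.repr x (i, 0), ?_⟩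
      have h1 : x = ∑ p : Fin 2 × Fin 2, b.repr x p • b p := (b.sum_repr x).symm
      have h3 : ∀ i, b.repr x (i, 1) = b.repr x (i, 0) := by
        intro i
        have h4 : S *ᵥ x = ∑ p : Fin 2 × Fin 2, b.repr x p • (S *ᵥ b p) := by
          conv_lhs => rw [h1]
          rw [Matrix.mulVec_sum]
          exact Finset.sum_congr rfl fun p _ => Matrix.mulVec_smul _ _ _
        have h5 := congrArg (fun z => b.repr z (i, 0)) h4
        rw [hx] at h5
        simp only [Fintype.sum_prod_type, Fin.sum_univ_two, hSb0, hSb1, map_add, map_smul, Finsupp.add_apply, Finsupp.smul_apply,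
          Basis.repr_self, smul_eq_mul] at h5
        fin_cases i <;> simp [Finsupp.single_apply] at h5 ⊢ <;> exact h5.symm
      conv_lhs => rw [h1]
      rw [ten]
      rw [Fintype.sum_prod_type]
      refine Finset.sum_congr rfl fun i _ => ?_
      rw [Fin.sum_univ_two, Fin.sum_univ_two, h3]
      simp
  have hE1 : ∀ x, x ∈ E 1 ↔ S *ᵥ x = -x := by
    intro x
    rw [hmem, hB1]
    constructor
    · rintro ⟨y, rfl⟩
      rw [psi_ten]
      have : -ten b y ![1, -1] = ten b y ![-1, 1] := by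
        rw [← neg_one_smul F, ← ten_smul_right]
        congr 1
        ext i; fin_cases i <;> simp
      rw [this]
      congr 1
      ext i; fin_cases i <;> simp [S₂, Matrix.mulVec, dotProduct, Fin.sum_univ_two]
    · intro hx
      refine ⟨fun i => b.repr x (i, 0), ?_⟩
      have h1 : x = ∑ p : Fin 2 × Fin 2, b.repr x p • b p := (b.sum_repr x).symm
      have h3 : ∀ i, b.repr x (i, 1) = -b.repr x (i, 0) := by
        intro i
        have h4 : S *ᵥ x = ∑ p : Fin 2 × Fin 2, b.repr x p • (S *ᵥ b p) := by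
          conv_lhs => rw [h1]
          rw [Matrix.mulVec_sum]
          exact Finset.sum_congr rfl fun p _ => Matrix.mulVec_smul _ _ _
        have h5 := congrArg (fun z => b.repr z (i, 0)) h4
        rw [hx] at h5
        simp only [Fintype.sum_prod_type, Fin.sum_univ_two, hSb0, hSb1, map_add, map_smul, Finsupp.add_apply, Finsupp.smul_apply,
          Basis.repr_self, smul_eq_mul, map_neg, Finsupp.neg_apply] at h5
        fin_cases i <;> simp [Finsupp.single_apply] at h5 ⊢ <;> exact h5.symm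
      conv_lhs => rw [h1]
      rw [ten]
      rw [Fintype.sum_prod_type]
      refine Finset.sum_congr rfl fun i _ => ?_
      rw [Fin.sum_univ_two, Fin.sum_univ_two, h3]
      simp
  -- conjugation
  have hconj : ∀ g ∈ H, (g : Matrix ι ι F) * S * ((g⁻¹ : GL ι F) : Matrix ι ι F) = S ∨
      (g : Matrix ι ι F) * S * ((g⁻¹ : GL ι F) : Matrix ι ι F) = -S := by
    intro g hg
    set T := (g : Matrix ι ι F) * S * ((g⁻¹ : GL ι F) : Matrix ι ι F) with hT
    have hTT : T * T = 1 := by
      rw [hT, ← mul_conj, hSS, mul_one, Units.mul_inv]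
    have hTadj := adj_conj hI hg hSadj
    rw [← hT] at hTadj
    have hTz := adj_zero hf h2 hTadj
    -- T swaps the two spaces
    have hgD : ∀ l, ∃ l', ∀ x ∈ D l, (g : Matrix ι ι F) *ᵥ x ∈ D l' := by
      intro l
      obtain ⟨σ, hσ⟩ := h hg
      exact ⟨σ l, fun x hx => by rw [← hσ l]; exact ⟨x, hx, Matrix.toLin'_apply _ _⟩⟩
    have hswap : ∀ l, ∀ x ∈ D l, T *ᵥ x ∈ D (l + 1) := by
      obtain ⟨σ, hσ⟩ := h hg
      have hinv : ∀ l, ∀ x ∈ D (σ l), ((g⁻¹ : GL ι F) : Matrix ι ι F) *ᵥ x ∈ D l := by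
        intro l x hx
        rw [← hσ l] at hx
        obtain ⟨y, hy, rfl⟩ := hx
        rw [Matrix.toLin'_apply, inv_mulVec_mulVec]; exact hy
      have hfw : ∀ l, ∀ x ∈ D l, (g : Matrix ι ι F) *ᵥ x ∈ D (σ l) := fun l x hx => by
        rw [← hσ l]; exact ⟨x, hx, Matrix.toLin'_apply _ _⟩
      have hSD : ∀ l, ∀ x ∈ D l, S *ᵥ x ∈ D (l + 1) := by
        intro l x hx
        obtain ⟨α, β, rfl⟩ := hDl l x hx
        rw [Matrix.mulVec_add, Matrix.mulVec_smul, Matrix.mulVec_smul]
        fin_cases l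
        · exact (D 1).add_mem ((D 1).smul_mem _ (by rw [show (⟨0, by norm_num⟩ : Fin 2) = 0 from rfl, hSb0]; exact hbD 0 1))
            ((D 1).smul_mem _ (by rw [show (⟨0, by norm_num⟩ : Fin 2) = 0 from rfl, hSb0]; exact hbD 1 1))
        · exact (D 0).add_mem ((D 0).smul_mem _ (by rw [show (⟨1, by norm_num⟩ : Fin 2) = 1 from rfl, hSb1]; exact hbD 0 0))
            ((D 0).smul_mem _ (by rw [show (⟨1, by norm_num⟩ : Fin 2) = 1 from rfl, hSb1]; exact hbD 1 0))
      intro l x hx
      have hl : σ (σ.symm l) = l := σ.apply_symm_apply l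
      have h1 : ((g⁻¹ : GL ι F) : Matrix ι ι F) *ᵥ x ∈ D (σ.symm l) := hinv _ x (by rw [hl]; exact hx)
      have h3 := hfw _ _ (hSD _ _ h1)
      have h4 : σ (σ.symm l + 1) = l + 1 := by
        have hne : σ (σ.symm l + 1) ≠ l := by
          intro h
          have h5 : σ.symm l + 1 = σ.symm l := σ.injective (by rw [h, hl])
          revert h5
          generalize σ.symm l = z
          fin_cases z <;> simp
        revert hne
        generalize σ (σ.symm l + 1) = z
        fin_cases z <;> fin_cases l <;> simp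
      rw [h4] at h3
      rw [hT, ← Matrix.mulVec_mulVec, ← Matrix.mulVec_mulVec]
      exact h3
    -- coefficients
    obtain ⟨α, α', hα⟩ := hDl 1 _ (hswap 0 _ (hbD 0 0))
    obtain ⟨γ', γ, hγ⟩ := hDl 1 _ (hswap 0 _ (hbD 1 0))
    have z1 := hTz (b (0, 0))
    rw [hα, hf.bilinear.add_right, hf.bilinear.smul_right, hf.bilinear.smul_right, hform, hform, gram_s1, gram_s1, gram_s3] at z1
    simp at z1
    have z2 := hTz (b (1, 0))
    rw [hγ, hf.bilinear.add_right, hf.bilinear.smul_right, hf.bilinear.smul_right, hform, hform, gram_s1, gram_s1, gram_s3] at z2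
    simp at z2
    have z3 := hTadj (b (0, 0)) (b (1, 0))
    rw [hα, hγ, hf.bilinear.add_left, hf.bilinear.add_right, hf.bilinear.smul_left, hf.bilinear.smul_left, hf.bilinear.smul_right,
      hf.bilinear.smul_right, hform, hform, hform, hform, gram_s1, gram_s1, gram_s1, gram_s3, gram_s3] at z3
    simp [z1, z2] at z3
    rw [z1, zero_smul, add_zero] at hα
    rw [z2, zero_smul, zero_add, ← z3] at hγ
    have hα0 : α ≠ 0 := by
      rintro rfl
      rw [zero_smul] at hα
      have h5 : (T * T) *ᵥ b (0, 0) = 0 := by rw [← Matrix.mulVec_mulVec, hα, Matrix.mulVec_zero]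
      rw [hTT, Matrix.one_mulVec] at h5
      exact b.ne_zero _ h5
    have hα1 := card_three_sq hq hα0
    have hT0 : ∀ i, T *ᵥ b (i, 0) = α • b (i, 1) := by
      intro i; fin_cases i
      · exact hα
      · exact hγ
    have hT1 : ∀ i, T *ᵥ b (i, 1) = α • b (i, 0) := by
      intro i
      have h5 : (T * T) *ᵥ b (i, 0) = b (i, 0) := by rw [hTT, Matrix.one_mulVec]
      rw [← Matrix.mulVec_mulVec, hT0, Matrix.mulVec_smul] at h5
      calc T *ᵥ b (i, 1) = (α ^ 2) • (T *ᵥ b (i, 1)) := by rw [hα1, one_smul]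
        _ = α • (α • (T *ᵥ b (i, 1))) := by rw [smul_smul, sq]
        _ = α • b (i, 0) := by rw [h5]
    have hTS : T = α • S := by
      apply ext_basis b
      rintro ⟨i, l⟩
      fin_cases l
      · exact (hT0 i).trans (by rw [Matrix.smul_mulVec]; exact congrArg _ (hSb0 i).symm)
      · exact (hT1 i).trans (by rw [Matrix.smul_mulVec]; exact congrArg _ (hSb1 i).symm)
    rcases card_three_eq hq α with h5 | h5 | h5
    · exact absurd h5 hα0
    · left; rw [hTS, h5, one_smul]
    · right; rw [hTS, h5, neg_one_smul]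
  -- conclusion
  intro g hg
  have hgS : ∀ x, S *ᵥ ((g : Matrix ι ι F) *ᵥ x) = (g : Matrix ι ι F) *ᵥ ((((g⁻¹ : GL ι F) : Matrix ι ι F) * S * (g : Matrix ι ι F)) *ᵥ x) := by
    intro x
    rw [Matrix.mulVec_mulVec, Matrix.mulVec_mulVec, ← mul_assoc, ← mul_assoc, Units.mul_inv, one_mul]
  have hginv := hconj g⁻¹ (H.inv_mem hg)
  rw [inv_inv] at hginv
  rcases hginv with h1 | h1
  · refine ⟨1, fun i => ?_⟩
    have hle : ∀ i, ∀ x, x ∈ E i ↔ (g : Matrix ι ι F) *ᵥ x ∈ E i := by
      intro i x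
      fin_cases i
      · change x ∈ E 0 ↔ _ ∈ E 0
        rw [hE0, hE0, hgS, h1]
        exact ⟨fun h => by rw [h], fun h => mulVec_injective g h⟩
      · change x ∈ E 1 ↔ _ ∈ E 1
        rw [hE1, hE1, hgS, h1, ← Matrix.mulVec_neg]
        exact ⟨fun h => by rw [h], fun h => mulVec_injective g h⟩
    ext x
    constructor
    · rintro ⟨y, hy, rfl⟩
      rw [Matrix.toLin'_apply]; exact (hle i y).1 hy
    · intro hx
      refine ⟨((g⁻¹ : GL ι F) : Matrix ι ι F) *ᵥ x, ?_, by rw [Matrix.toLin'_apply, mulVec_inv_mulVec]⟩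
      exact (hle i _).2 (by rw [mulVec_inv_mulVec]; exact hx)
  · refine ⟨Equiv.swap 0 1, fun i => ?_⟩
    have hle : ∀ i, ∀ x, x ∈ E i ↔ (g : Matrix ι ι F) *ᵥ x ∈ E (Equiv.swap 0 1 i) := by
      intro i x
      fin_cases i
      · change x ∈ E 0 ↔ _ ∈ E 1
        rw [hE0, hE1, hgS, h1, ← Matrix.mulVec_neg, Matrix.neg_mulVec]
        exact ⟨fun h => by rw [h], fun h => neg_injective (mulVec_injective g h)⟩
      · change x ∈ E 1 ↔ _ ∈ E 0
        rw [hE1, hE0, hgS, h1, Matrix.neg_mulVec]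
        constructor
        · intro h; rw [h, neg_neg]
        · intro h
          have := mulVec_injective g h
          exact neg_eq_iff_eq_neg.1 this
    ext x
    constructor
    · rintro ⟨y, hy, rfl⟩
      rw [Matrix.toLin'_apply]; exact (hle i y).1 hy
    · intro hx
      refine ⟨((g⁻¹ : GL ι F) : Matrix ι ι F) *ᵥ x, ?_, by rw [Matrix.toLin'_apply, mulVec_inv_mulVec]⟩
      exact (hle i _).2 (by rw [mulVec_inv_mulVec]; exact hx)

end three

end CfsgLib.SpMax19
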