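import Cfsg.Agent.EqBase
import Cfsg.Agent.LibSpMaxL19

/-!
# Unitary type subgroups of the four-dimensional symplectic group over the field with three elements
-/

set_option autoImplicit false
set_option linter.all false
set_option maxHeartbeats 400000

open Module Cfsg Cfsg.Geo
open scoped Matrix MatrixGroups Kronecker

namespace CfsgLib.SpMax19

open CfsgLib.AschF CfsgLib.Asch9 CfsgLib.Asch10 CfsgLib.Asch16 CfsgLib.Asch14
open CfsgLib.SympTv29 (st st_mulVec st_fix st_mem_iso st_conj iso mem_iso zero_left zero_right neg_left neg_right swap_ne swap_eq exists_perp)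
open CfsgLib.MaxTv29 (gl_ext mem_stab mulVec_inv_mulVec inv_mulVec_mulVec mulVec_injective)

section three
variable {ι : Type} [Fintype ι] [DecidableEq ι] {F : Type*} [Field F] [Fintype F]
variable {f : (ι → F) → (ι → F) → F}

theorem ext_right (hf : IsSymplecticForm f) {x y : ι → F} (h : ∀ u, f u x = f u y) : x = y := by
  by_contra hne
  obtain ⟨⟨u, hu⟩, _⟩ := hf.nondegenerate (x - y) (sub_ne_zero.2 hne)
  apply hu
  rw [sub_eq_add_neg, hf.bilinear.add_right, neg_right hf, h]; ring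

/-- the square root of minus one in a unitary type field -/
theorem exists_J [Nonempty ι] (hf : IsSymplecticForm f) (hq : Fintype.card F = 3) {K : Subalgebra F (Matrix ι ι F)}
    (hK : IsFieldSubalgebra 2 K) (ha : IsAdjointClosedFor f K) (hs : ¬ IsSelfAdjointFor f K) :
    ∃ J : Matrix ι ι F, J * J = -1 ∧ (∀ u v, f (J *ᵥ u) v = - f u (J *ᵥ v)) ∧
      ∀ h ∈ subalgebraNormalizer K, (h : Matrix ι ι F) * J * ((h⁻¹ : GL ι F) : Matrix ι ι F) = J ∨
        (h : Matrix ι ι F) * J * ((h⁻¹ : GL ι F) : Matrix ι ι F) = -J := by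
  have h2 := card_three_two hq
  have h3 := card_three_three hq
  -- no zero divisors
  have hzd : ∀ x ∈ K, ∀ y ∈ K, x * y = 0 → x = 0 ∨ y = 0 := by
    intro x hx y hy hxy
    by_contra hcon
    push Not at hcon
    obtain ⟨z, hz, hxz⟩ := hK.inv x hx hcon.1
    apply hcon.2
    have h1 : z * x = 1 := by rw [hK.comm z hz x hx, hxz]
    calc y = (z * x) * y := by rw [h1, one_mul]
      _ = 0 := by rw [mul_assoc, hxy, mul_zero]
  unfold IsSelfAdjointFor at hs
  push Not at hs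
  obtain ⟨k, hk, u0, v0, huv⟩ := hs
  have hks : ∀ c : F, k ≠ c • (1 : Matrix ι ι F) := by
    rintro c rfl
    apply huv
    rw [Matrix.smul_mulVec, Matrix.smul_mulVec, Matrix.one_mulVec, Matrix.one_mulVec, hf.bilinear.smul_left, hf.bilinear.smul_right]
  -- K is spanned by 1 and k
  have hspan : ∀ x ∈ K, ∃ a b : F, x = a • (1 : Matrix ι ι F) + b • k := by
    have hli : LinearIndependent F ![(1 : K), ⟨k, hk⟩] := by
      rw [LinearIndependent.pair_iff]
      intro s t hst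
      have h1 : s • (1 : Matrix ι ι F) + t • k = 0 := congrArg Subtype.val hst
      by_cases ht : t = 0
      · rw [ht, zero_smul, add_zero] at h1
        refine ⟨?_, ht⟩
        rcases smul_eq_zero.1 h1 with h | h
        · exact h
        · exact absurd h one_ne_zero
      · exfalso
        apply hks (-(t⁻¹ * s))
        have h4 : t • k = -(s • (1 : Matrix ι ι F)) := eq_neg_of_add_eq_zero_right h1
        calc k = t⁻¹ • (t • k) := by rw [smul_smul, inv_mul_cancel₀ ht, one_smul]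
          _ = -(t⁻¹ * s) • (1 : Matrix ι ι F) := by rw [h4, smul_neg, smul_smul, neg_smul]
    have htop := hli.span_eq_top_of_card_eq_finrank' (by rw [hK.finrank_eq]; simp)
    intro x hx
    have h1 : (⟨x, hx⟩ : K) ∈ Submodule.span F (Set.range ![(1 : K), ⟨k, hk⟩]) := by rw [htop]; trivial
    rw [Matrix.range_cons, Matrix.range_cons, Matrix.range_empty, Set.union_empty, Set.singleton_union,
      Submodule.mem_span_pair] at h1
    obtain ⟨a, b, hab⟩ := h1
    exact ⟨a, b, (congrArg Subtype.val hab).symm⟩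
  obtain ⟨a, b, hab⟩ := hspan (k * k) (K.mul_mem hk hk)
  set J := k + b • (1 : Matrix ι ι F) with hJ
  have hJK : J ∈ K := K.add_mem hk (K.smul_mem K.one_mem b)
  have hJJ : J * J = (a + b * b) • (1 : Matrix ι ι F) := by
    have e : J * J = k * k + (2 * b) • k + (b * b) • (1 : Matrix ι ι F) := by
      rw [hJ, add_mul, mul_add, mul_add]
      simp only [Matrix.smul_mul, Matrix.mul_smul, one_mul, mul_one, smul_smul]
      module
    rw [e, hab]
    have h4 : b • k + (2 * b) • k = 0 := by rw [← add_smul, show b + 2 * b = 3 * b by ring, h3, zero_mul, zero_smul]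
    calc a • (1 : Matrix ι ι F) + b • k + (2 * b) • k + (b * b) • (1 : Matrix ι ι F)
        = (a • (1 : Matrix ι ι F) + (b * b) • (1 : Matrix ι ι F)) + (b • k + (2 * b) • k) := by abel
      _ = _ := by rw [h4, add_zero, ← add_smul]
  have hJs : ∀ c : F, J ≠ c • (1 : Matrix ι ι F) := by
    intro c hc
    apply hks (c - b)
    rw [sub_smul, ← hc, hJ, add_sub_cancel_right]
  clear_value J
  have hJ1 : J * J = -1 := by
    rcases card_three_eq hq (a + b * b) with h | h | h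
    · exfalso
      rw [h, zero_smul] at hJJ
      apply hJs 0
      rw [zero_smul]
      rcases hzd J hJK J hJK hJJ with h | h <;> exact h
    · exfalso
      rw [h, one_smul] at hJJ
      have h1 : (J - 1) * (J + 1) = 0 := by
        calc (J - 1) * (J + 1) = J * J - 1 := by noncomm_ring
          _ = 0 := by rw [hJJ, sub_self]
      rcases hzd _ (K.sub_mem hJK K.one_mem) _ (K.add_mem hJK K.one_mem) h1 with h | h
      · apply hJs 1; rw [one_smul]; exact sub_eq_zero.1 h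
      · apply hJs (-1); rw [neg_one_smul]; exact eq_neg_of_add_eq_zero_left h
    · rw [hJJ, h, neg_one_smul]
  -- roots of minus one
  have hroot : ∀ x ∈ K, x * x = -1 → x = J ∨ x = -J := by
    intro x hx hxx
    have h1 : (x - J) * (x + J) = 0 := by
      calc (x - J) * (x + J) = x * x - J * J + (x * J - J * x) := by noncomm_ring
        _ = 0 := by rw [hxx, hJ1, hK.comm x hx J hJK, sub_self, sub_self, add_zero]
    rcases hzd _ (K.sub_mem hx hJK) _ (K.add_mem hx hJK) h1 with h | h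
    · exact Or.inl (sub_eq_zero.1 h)
    · exact Or.inr (eq_neg_of_add_eq_zero_left h)
  refine ⟨J, hJ1, ?_, ?_⟩
  · obtain ⟨J', hJ'K, hJ'⟩ := ha J hJK
    have hJ'J' : J' * J' = -1 := by
      apply (Matrix.toLin' : Matrix ι ι F ≃ₗ[F] _).injective
      refine LinearMap.ext fun v => ?_
      rw [Matrix.toLin'_apply, Matrix.toLin'_apply]
      apply ext_right hf
      intro u
      rw [← Matrix.mulVec_mulVec, ← hJ', ← hJ', Matrix.mulVec_mulVec, hJ1, Matrix.neg_mulVec, Matrix.neg_mulVec, Matrix.one_mulVec,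
        Matrix.one_mulVec, neg_left hf, neg_right hf]
    rcases hroot J' hJ'K hJ'J' with h | h
    · exfalso
      rw [h] at hJ'
      apply huv
      have hk' : k = J + (-b) • (1 : Matrix ι ι F) := by rw [hJ]; module
      rw [hk', Matrix.add_mulVec, Matrix.add_mulVec, Matrix.smul_mulVec, Matrix.smul_mulVec, Matrix.one_mulVec, Matrix.one_mulVec,
        hf.bilinear.add_left, hf.bilinear.add_right, hf.bilinear.smul_left, hf.bilinear.smul_right, hJ']
    · intro u v
      rw [hJ', h, Matrix.neg_mulVec, neg_right hf]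
  · intro h hh
    have h1 := (hh J).1 hJK
    refine hroot _ h1 ?_
    rw [← mul_conj, hJ1, mul_neg, mul_one, neg_mul, Units.mul_inv]

theorem exists_unit (hf : IsSymplecticForm f) (hq : Fintype.card F = 3) {J : Matrix ι ι F} (hJ : J * J = -1)
    (hJa : ∀ u v, f (J *ᵥ u) v = - f u (J *ᵥ v)) (W : Submodule F (ι → F)) (hW : ∀ u ∈ W, J *ᵥ u ∈ W)
    (hnd : ∃ u ∈ W, ∃ v ∈ W, f u v ≠ 0) : ∃ u ∈ W, f (J *ᵥ u) u = 1 := by
  have h2 := card_three_two hq
  have hJJ : ∀ u, J *ᵥ (J *ᵥ u) = -u := by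
    intro u; rw [Matrix.mulVec_mulVec, hJ, Matrix.neg_mulVec, Matrix.one_mulVec]
  have hsym : ∀ u v, f (J *ᵥ u) v = f (J *ᵥ v) u := by
    intro u v
    rw [hJa, hf.skew u, neg_neg]
  obtain ⟨u, hu, h0⟩ : ∃ u ∈ W, f (J *ᵥ u) u ≠ 0 := by
    by_contra hcon
    push Not at hcon
    obtain ⟨u, hu, v, hv, huv⟩ := hnd
    apply huv
    have hz : ∀ u ∈ W, ∀ v ∈ W, f (J *ᵥ u) v = 0 := by
      intro u hu v hv
      have h1 := hcon (u + v) (W.add_mem hu hv)
      rw [Matrix.mulVec_add, hf.bilinear.add_left, hf.bilinear.add_right, hf.bilinear.add_right, hcon u hu, hcon v hv, hsym v u] at h1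
      have h3 : (2 : F) * f (J *ᵥ u) v = 0 := by linear_combination h1
      exact (mul_eq_zero.1 h3).resolve_left h2
    have h1 := hz (J *ᵥ u) (hW u hu) v hv
    rw [hJJ, neg_left hf, neg_eq_zero] at h1
    exact h1
  rcases card_three_eq hq (f (J *ᵥ u) u) with h | h | h
  · exact absurd h h0
  · exact ⟨u, hu, h⟩
  · refine ⟨u + J *ᵥ u, W.add_mem hu (hW u hu), ?_⟩
    have e : f u (J *ᵥ u) = 1 := by
      have := hJa u u
      rw [h] at this
      linear_combination this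
    rw [Matrix.mulVec_add, hJJ, hf.bilinear.add_left, hf.bilinear.add_right, hf.bilinear.add_right, h, hf.alternating, neg_left hf, neg_left hf,
      hf.alternating, e]
    linear_combination -(card_three_three hq)

/-- tensor basis adapted to a complex structure -/
theorem unit_basis (hf : IsSymplecticForm f) (hcard : Fintype.card ι = 4) (hq : Fintype.card F = 3) {J : Matrix ι ι F} (hJ : J * J = -1)
    (hJa : ∀ u v, f (J *ᵥ u) v = - f u (J *ᵥ v)) :
    ∃ b : Basis (Fin 2 × Fin 2) F (ι → F), (∀ i, J *ᵥ b (i, 0) = b (i, 1)) ∧ (∀ i, J *ᵥ b (i, 1) = -b (i, 0)) ∧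
      ∀ i l j l', f (b (i, l)) (b (j, l')) = gramMatrix s1 i j * gramMatrix s2 l l' := by
  classical
  have h2 := card_three_two hq
  have h3 := card_three_three hq
  have hJJ : ∀ u, J *ᵥ (J *ᵥ u) = -u := by
    intro u; rw [Matrix.mulVec_mulVec, hJ, Matrix.neg_mulVec, Matrix.one_mulVec]
  have hne : Nonempty ι := Fintype.card_pos_iff.1 (by omega)
  obtain ⟨u1, _, hu1⟩ := exists_unit hf hq hJ hJa ⊤ (fun _ _ => trivial) (by
    obtain ⟨v, hv⟩ := exists_ne (0 : ι → F)
    obtain ⟨⟨x, hx⟩, _⟩ := hf.nondegenerate v hv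
    exact ⟨x, trivial, v, trivial, hx⟩)
  have hu1' : f u1 (J *ᵥ u1) = -1 := by
    have := hJa u1 u1
    rw [hu1] at this
    linear_combination this
  let W : Submodule F (ι → F) :=
    { carrier := {v | f u1 v = 0 ∧ f (J *ᵥ u1) v = 0}
      add_mem' := fun {a b} ha hb => ⟨by rw [hf.bilinear.add_right, ha.1, hb.1, add_zero], by rw [hf.bilinear.add_right, ha.2, hb.2, add_zero]⟩
      zero_mem' := ⟨zero_right hf _, zero_right hf _⟩
      smul_mem' := fun c a ha => ⟨by rw [hf.bilinear.smul_right, ha.1, mul_zero], by rw [hf.bilinear.smul_right, ha.2, mul_zero]⟩ }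
  have hWJ : ∀ v ∈ W, J *ᵥ v ∈ W := by
    rintro v ⟨hv1, hv2⟩
    refine ⟨?_, ?_⟩
    · have := hJa u1 v
      rw [hv2] at this
      linear_combination this
    · rw [hJa, hJJ, neg_right hf, neg_neg]; exact hv1
  obtain ⟨u2, ⟨k1, k2⟩, hu2⟩ := exists_unit hf hq hJ hJa W hWJ (by
    obtain ⟨v, hv0, hv1, hv2⟩ := exists_perp_two hf (by omega) u1 (J *ᵥ u1)
    obtain ⟨_, ⟨x, hx⟩⟩ := hf.nondegenerate v hv0
    have hv1' : f v u1 = 0 := swap_eq hf hv1
    have hv2' : f v (J *ᵥ u1) = 0 := swap_eq hf hv2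
    refine ⟨v, ⟨hv1, hv2⟩, x + (-(f (J *ᵥ u1) x)) • u1 + (f u1 x) • (J *ᵥ u1), ⟨?_, ?_⟩, ?_⟩
    · rw [hf.bilinear.add_right, hf.bilinear.add_right, hf.bilinear.smul_right, hf.bilinear.smul_right, hf.alternating, hu1']; ring
    · rw [hf.bilinear.add_right, hf.bilinear.add_right, hf.bilinear.smul_right, hf.bilinear.smul_right, hf.alternating, hu1]; ring
    · rw [hf.bilinear.add_right, hf.bilinear.add_right, hf.bilinear.smul_right, hf.bilinear.smul_right, hv1', hv2', mul_zero, mul_zero,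
        add_zero, add_zero]
      exact hx)
  have hu2' : f u2 (J *ᵥ u2) = -1 := by
    have := hJa u2 u2
    rw [hu2] at this
    linear_combination this
  have k3 : f u2 u1 = 0 := swap_eq hf k1
  have k4 : f u2 (J *ᵥ u1) = 0 := swap_eq hf k2
  obtain ⟨k5, k6⟩ := hWJ u2 ⟨k1, k2⟩
  have k7 : f (J *ᵥ u2) u1 = 0 := swap_eq hf k5
  have k8 : f (J *ᵥ u2) (J *ᵥ u1) = 0 := swap_eq hf k6
  have z1 := hf.alternating u1
  have z2 := hf.alternating u2
  have z3 := hf.alternating (J *ᵥ u1)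
  have z4 := hf.alternating (J *ᵥ u2)
  set v1 := J *ᵥ u1 with hv1
  set v2 := J *ᵥ u2 with hv2
  have hJv1 : J *ᵥ v1 = -u1 := hJJ u1
  have hJv2 : J *ᵥ v2 = -u2 := hJJ u2
  let w : Fin 2 × Fin 2 → (ι → F) := fun p => !![u1 + u2 + v2, v1 + v2 + -u2; v1 + u2 + -v2, -u1 + v2 + u2] p.1 p.2
  have hform : ∀ i l j l', f (w (i, l)) (w (j, l')) = gramMatrix s1 i j * gramMatrix s2 l l' := by
    intro i l j l'
    rw [gram_s1, gram_s2]
    fin_cases i <;> fin_cases l <;> fin_cases j <;> fin_cases l' <;>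
      simp [w, hf.bilinear.add_left, hf.bilinear.add_right, neg_left hf, neg_right hf, hu1, hu1', hu2, hu2', k1, k2, k3, k4, k5, k6, k7, k8,
        z1, z2, z3, z4] <;> first | done | linear_combination h3 | linear_combination -h3
  obtain ⟨b, hb⟩ := basis_of_gram hf (κ := Fin 2 × Fin 2) (by simp [hcard]) w (fun p => (p.1 + 1, p.2))
    (fun p => if p.1 = 0 then 1 else -1) (by
      intro p; split_ifs
      · exact one_ne_zero
      · exact neg_ne_zero.2 one_ne_zero) (by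
      rintro ⟨i, l⟩ ⟨j, l'⟩
      rw [hform, gram_s1, gram_s2]
      fin_cases i <;> fin_cases l <;> fin_cases j <;> fin_cases l' <;> simp)
  refine ⟨b, fun i => ?_, fun i => ?_, fun i l j l' => by rw [hb, hb]; exact hform i l j l'⟩
  · rw [hb, hb]
    fin_cases i
    · change J *ᵥ (u1 + u2 + v2) = v1 + v2 + -u2
      rw [Matrix.mulVec_add, Matrix.mulVec_add, hJv2]
    · change J *ᵥ (v1 + u2 + -v2) = -u1 + v2 + u2
      rw [Matrix.mulVec_add, Matrix.mulVec_add, Matrix.mulVec_neg, hJv1, hJv2, neg_neg]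
  · rw [hb, hb]
    fin_cases i
    · change J *ᵥ (v1 + v2 + -u2) = -(u1 + u2 + v2)
      rw [Matrix.mulVec_add, Matrix.mulVec_add, Matrix.mulVec_neg, hJv1, hJv2]
      change -u1 + -u2 + -v2 = _
      abel
    · change J *ᵥ (-u1 + v2 + u2) = -(v1 + u2 + -v2)
      rw [Matrix.mulVec_add, Matrix.mulVec_add, Matrix.mulVec_neg, hJv2]
      change -v1 + -u2 + v2 = _
      abel

/-- the tensor decomposition of a unitary type group -/
theorem unit_KA (hf : IsSymplecticForm f) (hcard : Fintype.card ι = 4) (hq : Fintype.card F = 3) {J : Matrix ι ι F}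
    (hJ : J * J = -1) (hJa : ∀ u v, f (J *ᵥ u) v = - f u (J *ᵥ v)) {H : Subgroup (GL ι F)} (hI : Iso f H)
    (hHJ : ∀ h ∈ H, (h : Matrix ι ι F) * J * ((h⁻¹ : GL ι F) : Matrix ι ι F) = J ∨ (h : Matrix ι ι F) * J * ((h⁻¹ : GL ι F) : Matrix ι ι F) = -J) :
    ∃ b : Basis (Fin 2 × Fin 2) F (ι → F), (∀ i l j l', f (b (i, l)) (b (j, l')) = gramMatrix s1 i j * gramMatrix s2 l l') ∧
      ∀ h ∈ H, ∃ (A : GL (Fin 2) F) (N : GL (Fin 2) F), KA b (h : Matrix ι ι F) (A : Matrix _ _ F) (N : Matrix _ _ F) := by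
  classical
  have h2 := card_three_two hq
  have hne : Nonempty ι := Fintype.card_pos_iff.1 (by omega)
  obtain ⟨b, hb0, hb1, hform⟩ := unit_basis hf hcard hq hJ hJa
  refine ⟨b, hform, fun h hh => KA_of_psi_norm b h ?_⟩
  let J₂ : Matrix (Fin 2) (Fin 2) F := !![0, -1; 1, 0]
  let T₂ : Matrix (Fin 2) (Fin 2) F := !![1, 0; 0, -1]
  have hJpsi : J = psi b J₂ := by
    apply ext_basis b
    rintro ⟨i, l⟩
    rw [psi_basis, Fin.sum_univ_two]
    fin_cases l
    · refine (hb0 i).trans ?_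
      simp [J₂]
    · refine (hb1 i).trans ?_
      simp [J₂]
  have hTadj0 : ∀ u v, f (psi b T₂ *ᵥ u) v = f u (psi b T₂ *ᵥ v) := by
    refine psi_adj b (fd_of_symp hf) s1_fd s2_fd hform (N := T₂) (N' := T₂) ?_
    intro u v
    simp only [T₂, s2, Matrix.mulVec, dotProduct, Fin.sum_univ_two]
    simp
  set T := (h : Matrix ι ι F) * psi b T₂ * ((h⁻¹ : GL ι F) : Matrix ι ι F) with hT
  have hTadj := adj_conj hI hh hTadj0
  rw [← hT] at hTadj
  have hTz := adj_zero hf h2 hTadj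
  have hTJ : T * J = -(J * T) := by
    have e0 : psi b T₂ * J = -(J * psi b T₂) := by
      rw [hJpsi, psi_mul, psi_mul, ← neg_one_smul F, ← psi_smul]
      congr 1
      ext i j; fin_cases i <;> fin_cases j <;> simp [T₂, J₂, Matrix.mul_apply, Fin.sum_univ_two]
    have e1 : (h : Matrix ι ι F) * (psi b T₂ * J) * ((h⁻¹ : GL ι F) : Matrix ι ι F) = T * ((h : Matrix ι ι F) * J * ((h⁻¹ : GL ι F) : Matrix ι ι F)) := mul_conj h _ _
    have e2 : (h : Matrix ι ι F) * (J * psi b T₂) * ((h⁻¹ : GL ι F) : Matrix ι ι F) = ((h : Matrix ι ι F) * J * ((h⁻¹ : GL ι F) : Matrix ι ι F)) * T := mul_conj h _ _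
    rw [e0, mul_neg, neg_mul, e2] at e1
    rcases hHJ h hh with h5 | h5
    · rw [h5] at e1; exact e1.symm
    · rw [h5, neg_mul, neg_neg, mul_neg] at e1
      rw [e1, neg_neg]
  have hx : ∀ x : ι → F, x = b.repr x (0, 0) • b (0, 0) + b.repr x (0, 1) • b (0, 1) + (b.repr x (1, 0) • b (1, 0) + b.repr x (1, 1) • b (1, 1)) := by
    intro x
    have h1 : x = ∑ p : Fin 2 × Fin 2, b.repr x p • b p := (b.sum_repr x).symm
    rw [Fintype.sum_prod_type, Fin.sum_univ_two, Fin.sum_univ_two, Fin.sum_univ_two] at h1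
    exact h1
  have hJz : ∀ u, f (J *ᵥ u) (T *ᵥ u) = 0 := by
    intro u
    have e1 : f (J *ᵥ u) (T *ᵥ u) = -f (J *ᵥ u) (T *ᵥ u) := by
      calc f (J *ᵥ u) (T *ᵥ u) = - f u (J *ᵥ (T *ᵥ u)) := hJa _ _
        _ = f u (T *ᵥ (J *ᵥ u)) := by
            rw [Matrix.mulVec_mulVec, Matrix.mulVec_mulVec, hTJ, Matrix.neg_mulVec, neg_right hf]
        _ = f (T *ᵥ u) (J *ᵥ u) := (hTadj _ _).symm
        _ = -f (J *ᵥ u) (T *ᵥ u) := hf.skew _ _
    have e3 : (2 : F) * f (J *ᵥ u) (T *ᵥ u) = 0 := by linear_combination e1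
    exact (mul_eq_zero.1 e3).resolve_left h2
  have hsh0 : ∃ γ δ : F, T *ᵥ b (0, 0) = γ • b (0, 0) + δ • b (0, 1) := by
    have h1 := hx (T *ᵥ b (0, 0))
    set c1 := b.repr (T *ᵥ b (0, 0)) (0, 0)
    set c2 := b.repr (T *ᵥ b (0, 0)) (0, 1)
    set c3 := b.repr (T *ᵥ b (0, 0)) (1, 0)
    set c4 := b.repr (T *ᵥ b (0, 0)) (1, 1)
    have a1 := hTz (b (0, 0))
    have a2 := hJz (b (0, 0))
    rw [hb0, h1] at a2
    rw [h1] at a1
    simp [hf.bilinear.add_right, hf.bilinear.smul_right, hform, gram_s1, gram_s2] at a1 a2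
    refine ⟨c1, c2, ?_⟩
    rw [h1, a1, a2]; simp
  have hsh1 : ∃ γ δ : F, T *ᵥ b (1, 0) = γ • b (1, 0) + δ • b (1, 1) := by
    have h1 := hx (T *ᵥ b (1, 0))
    set c1 := b.repr (T *ᵥ b (1, 0)) (0, 0)
    set c2 := b.repr (T *ᵥ b (1, 0)) (0, 1)
    set c3 := b.repr (T *ᵥ b (1, 0)) (1, 0)
    set c4 := b.repr (T *ᵥ b (1, 0)) (1, 1)
    have a1 := hTz (b (1, 0))
    have a2 := hJz (b (1, 0))
    rw [hb0, h1] at a2
    rw [h1] at a1
    simp [hf.bilinear.add_right, hf.bilinear.smul_right, hform, gram_s1, gram_s2] at a1 a2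
    refine ⟨c3, c4, ?_⟩
    rw [h1, a1, a2]; simp
  obtain ⟨γ, δ, hγ⟩ := hsh0
  obtain ⟨γ', δ', hγ'⟩ := hsh1
  have e1 : γ = γ' := by
    have := hTadj (b (0, 0)) (b (1, 0))
    rw [hγ, hγ'] at this
    simpa [hf.bilinear.add_right, hf.bilinear.smul_right, hf.bilinear.add_left, hf.bilinear.smul_left, hform, gram_s1, gram_s2] using this
  have hT1 : ∀ i, T *ᵥ b (i, 1) = -(J *ᵥ (T *ᵥ b (i, 0))) := by
    intro i
    rw [← hb0, Matrix.mulVec_mulVec, Matrix.mulVec_mulVec, hTJ, Matrix.neg_mulVec]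
  have e2 : δ = δ' := by
    have := hTadj (b (0, 0)) (b (1, 1))
    rw [hT1, hγ, hγ', neg_right hf, ← hJa, hb0] at this
    simpa [hf.bilinear.add_right, hf.bilinear.smul_right, hf.bilinear.add_left, hf.bilinear.smul_left, hform, gram_s1, gram_s2] using this
  subst e1 e2
  have hT0' : ∀ i, T *ᵥ b (i, 0) = γ • b (i, 0) + δ • b (i, 1) := by
    intro i; fin_cases i
    · exact hγ
    · exact hγ'
  let N' : Matrix (Fin 2) (Fin 2) F := !![γ, δ; δ, -γ]
  have hTpsi : T = psi b N' := by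
    apply ext_basis b
    rintro ⟨i, l⟩
    rw [psi_basis, Fin.sum_univ_two]
    fin_cases l
    · refine (hT0' i).trans ?_
      simp [N']
    · refine (hT1 i).trans ?_
      rw [hT0', Matrix.mulVec_add, Matrix.mulVec_smul, Matrix.mulVec_smul, hb0, hb1]
      simp [N']
  -- general element
  have hJ' : ∃ ε : F, (h : Matrix ι ι F) * J * ((h⁻¹ : GL ι F) : Matrix ι ι F) = ε • J := by
    rcases hHJ h hh with h5 | h5
    · exact ⟨1, by rw [h5, one_smul]⟩
    · exact ⟨-1, by rw [h5, neg_one_smul]⟩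
  obtain ⟨ε, hε⟩ := hJ'
  intro N
  have h2i : (2 : F)⁻¹ * 2 = 1 := inv_mul_cancel₀ h2
  have hN : N = ((2 : F)⁻¹ * (N 0 0 + N 1 1)) • (1 : Matrix (Fin 2) (Fin 2) F) + ((2 : F)⁻¹ * (N 1 0 - N 0 1)) • J₂ +
      ((2 : F)⁻¹ * (N 0 0 - N 1 1)) • T₂ + ((2 : F)⁻¹ * (N 1 0 + N 0 1)) • (J₂ * T₂) := by
    ext i j
    fin_cases i <;> fin_cases j <;> simp [J₂, T₂, Matrix.mul_apply, Fin.sum_univ_two]
    · linear_combination -(N 0 0) * h2i
    · linear_combination -(N 0 1) * h2i
    · linear_combination -(N 1 0) * h2i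
    · linear_combination -(N 1 1) * h2i
  set α := (2 : F)⁻¹ * (N 0 0 + N 1 1)
  set β := (2 : F)⁻¹ * (N 1 0 - N 0 1)
  set γ₁ := (2 : F)⁻¹ * (N 0 0 - N 1 1)
  set δ₁ := (2 : F)⁻¹ * (N 1 0 + N 0 1)
  refine ⟨α • 1 + β • (ε • J₂) + γ₁ • N' + δ₁ • ((ε • J₂) * N'), ?_⟩
  rw [hN]
  simp only [psi_add, psi_smul, psi_one, ← psi_mul, ← hTpsi, ← hJpsi]
  simp only [mul_add, add_mul, Matrix.mul_smul, Matrix.smul_mul, mul_one, Units.mul_inv, mul_conj h J (psi b T₂), hε]
  rw [← hT]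

end three

end CfsgLib.SpMax19
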