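import Cfsg.Agent.EqBase
import Cfsg.Agent.LibSpMaxN19

/-!
# The extraspecial overgroup of unitary type subgroups of the four-dimensional symplectic group in characteristic three
-/

set_option autoImplicit false
set_option linter.all false
set_option maxHeartbeats 400000

open Module Cfsg Cfsg.Geo
open scoped Matrix MatrixGroups Kronecker

namespace CfsgLib.SpMax19

open CfsgLib.AschF CfsgLib.Asch9 CfsgLib.Asch10 CfsgLib.Asch16 CfsgLib.Asch14 CfsgLib.Asch11
open CfsgLib.SympTv29 (st st_mulVec st_fix st_mem_iso st_conj iso mem_iso zero_left zero_right neg_left neg_right swap_ne swap_eq exists_perp)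
open CfsgLib.MaxTv29 (gl_ext mem_stab mulVec_inv_mulVec inv_mulVec_mulVec mulVec_injective)

section o2
variable {F : Type*} [Field F] [Fintype F]

theorem o2_entries {N : GL (Fin 2) F} (hN : N ∈ iso (s2 : (Fin 2 → F) → (Fin 2 → F) → F)) :
    (N : Matrix (Fin 2) (Fin 2) F) 0 0 * (N : Matrix (Fin 2) (Fin 2) F) 0 0 + (N : Matrix (Fin 2) (Fin 2) F) 1 0 * (N : Matrix (Fin 2) (Fin 2) F) 1 0 = 1 ∧
    (N : Matrix (Fin 2) (Fin 2) F) 0 1 * (N : Matrix (Fin 2) (Fin 2) F) 0 1 + (N : Matrix (Fin 2) (Fin 2) F) 1 1 * (N : Matrix (Fin 2) (Fin 2) F) 1 1 = 1 ∧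
    (N : Matrix (Fin 2) (Fin 2) F) 0 0 * (N : Matrix (Fin 2) (Fin 2) F) 0 1 + (N : Matrix (Fin 2) (Fin 2) F) 1 0 * (N : Matrix (Fin 2) (Fin 2) F) 1 1 = 0 := by
  rw [mem_iso] at hN
  have h1 := hN (Pi.single 0 1) (Pi.single 0 1)
  have h2 := hN (Pi.single 1 1) (Pi.single 1 1)
  have h3 := hN (Pi.single 0 1) (Pi.single 1 1)
  simp [s2] at h1 h2 h3
  exact ⟨h1, h2, h3⟩

theorem o2_shape (hq : Fintype.card F = 3) {N : GL (Fin 2) F} (hN : N ∈ iso (s2 : (Fin 2 → F) → (Fin 2 → F) → F)) :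
    ∃ a d : F, a * a = 1 ∧ d * d = 1 ∧ ((N : Matrix (Fin 2) (Fin 2) F) = !![a, 0; 0, d] ∨ (N : Matrix (Fin 2) (Fin 2) F) = !![0, a; d, 0]) := by
  obtain ⟨h1, h2, h3⟩ := o2_entries hN
  have h20 := card_three_two hq
  have hsq : ∀ x : F, x ≠ 0 → x * x = 1 := fun x hx => by have := card_three_sq hq hx; linear_combination this
  have hN' : (N : Matrix (Fin 2) (Fin 2) F) = !![(N : Matrix (Fin 2) (Fin 2) F) 0 0, (N : Matrix (Fin 2) (Fin 2) F) 0 1; (N : Matrix (Fin 2) (Fin 2) F) 1 0, (N : Matrix (Fin 2) (Fin 2) F) 1 1] := by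
    ext i j; fin_cases i <;> fin_cases j <;> rfl
  set a := (N : Matrix (Fin 2) (Fin 2) F) 0 0
  set b := (N : Matrix (Fin 2) (Fin 2) F) 0 1
  set c := (N : Matrix (Fin 2) (Fin 2) F) 1 0
  set d := (N : Matrix (Fin 2) (Fin 2) F) 1 1
  by_cases ha : a = 0
  · have hc : c * c = 1 := by rw [ha] at h1; linear_combination h1
    have hc0 : c ≠ 0 := by rintro h; rw [h] at hc; simp at hc
    have hd : d = 0 := by
      rw [ha] at h3
      have : c * d = 0 := by linear_combination h3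
      exact (mul_eq_zero.1 this).resolve_left hc0
    refine ⟨b, c, by rw [hd] at h2; linear_combination h2, hc, Or.inr ?_⟩
    rw [hN', ha, hd]
  · have ha1 := hsq a ha
    have hc : c = 0 := by
      have : c * c = 0 := by linear_combination h1 - ha1
      exact mul_self_eq_zero.1 this
    have hb : b = 0 := by
      rw [hc] at h3
      have : a * b = 0 := by linear_combination h3
      exact (mul_eq_zero.1 this).resolve_left ha
    refine ⟨a, d, ha1, by rw [hb] at h2; linear_combination h2, Or.inl ?_⟩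
    rw [hN', hc, hb]

theorem o2_comm (hq : Fintype.card F = 3) {N M : GL (Fin 2) F} (hN : N ∈ iso (s2 : (Fin 2 → F) → (Fin 2 → F) → F))
    (hM : M ∈ iso (s2 : (Fin 2 → F) → (Fin 2 → F) → F)) :
    ∃ e : F, e * e = 1 ∧ (N : Matrix (Fin 2) (Fin 2) F) * (M : Matrix (Fin 2) (Fin 2) F) = e • ((M : Matrix (Fin 2) (Fin 2) F) * (N : Matrix (Fin 2) (Fin 2) F)) := by
  obtain ⟨a, d, ha, hd, h⟩ := o2_shape hq hN
  obtain ⟨a', d', ha', hd', h'⟩ := o2_shape hq hM
  rcases h with h | h <;> rcases h' with h' | h' <;> rw [h, h']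
  · refine ⟨1, by ring, ?_⟩
    ext i j; fin_cases i <;> fin_cases j <;> simp [Matrix.mul_apply, Fin.sum_univ_two, mul_comm]
  · refine ⟨a * d, by linear_combination (d * d) * ha + hd, ?_⟩
    ext i j; fin_cases i <;> fin_cases j <;> simp [Matrix.mul_apply, Fin.sum_univ_two]
    · linear_combination -(a * a') * hd
    · linear_combination -(d * d') * ha
  · refine ⟨a' * d', by linear_combination (d' * d') * ha' + hd', ?_⟩
    ext i j; fin_cases i <;> fin_cases j <;> simp [Matrix.mul_apply, Fin.sum_univ_two]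
    · linear_combination -(a * d') * ha'
    · linear_combination -(d * a') * hd'
  · refine ⟨a * d * (a' * d'), by linear_combination (a * a * d * d * d' * d') * ha' + (a * a * d * d) * hd' + (d * d) * ha + hd, ?_⟩
    ext i j; fin_cases i <;> fin_cases j <;> simp [Matrix.mul_apply, Fin.sum_univ_two]
    · linear_combination -(a * d' * d * d) * ha' - (a * d') * hd
    · linear_combination -(d * a' * a * a) * hd' - (d * a') * ha

theorem o2_comm_scalars (hq : Fintype.card F = 3) :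
    ⁅(iso (s2 : (Fin 2 → F) → (Fin 2 → F) → F)), iso (s2 : (Fin 2 → F) → (Fin 2 → F) → F)⁆ ≤ scalars (Fin 2) F := by
  rw [Subgroup.commutator_le]
  intro A hA B hB
  change A * B * A⁻¹ * B⁻¹ ∈ _
  have e : A * B * A⁻¹ * B⁻¹ = (A * B) * (B * A)⁻¹ := by group
  rw [e]
  obtain ⟨c, hc, h⟩ := o2_comm hq hA hB
  have hc0 : c ≠ 0 := by rintro rfl; simp at hc
  refine (mem_scalars_iff _).2 ⟨Units.mk0 c hc0, ?_⟩
  rw [Units.val_mul, Units.val_mul A B, h, ← Units.val_mul B A, Matrix.smul_mul, Units.mul_inv, Units.val_mk0]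

theorem o2_alg (hq : Fintype.card F = 3) : alg (iso (s2 : (Fin 2 → F) → (Fin 2 → F) → F)) = ⊤ := by
  have h20 := card_three_two hq
  let I : Matrix (Fin 2) (Fin 2) F := !![1, 0; 0, -1]
  let J : Matrix (Fin 2) (Fin 2) F := !![0, 1; 1, 0]
  have hmem : ∀ M : Matrix (Fin 2) (Fin 2) F, M.det ≠ 0 → (∀ u v, s2 (M *ᵥ u) (M *ᵥ v) = s2 u v) →
      M ∈ alg (iso (s2 : (Fin 2 → F) → (Fin 2 → F) → F)) := by
    intro M hM h
    let m : GL (Fin 2) F := Matrix.GeneralLinearGroup.mkOfDetNeZero M hM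
    exact mem_alg (x := m) ((mem_iso m).2 h)
  have hI := hmem I (by simp [I, Matrix.det_fin_two]) (by intro u v; simp [I, s2, Matrix.mulVec, dotProduct, Fin.sum_univ_two])
  have hJ := hmem J (by simp [J, Matrix.det_fin_two]) (by intro u v; simp [J, s2, Matrix.mulVec, dotProduct, Fin.sum_univ_two]; ring)
  have h1 : (1 : Matrix (Fin 2) (Fin 2) F) ∈ alg (iso (s2 : (Fin 2 → F) → (Fin 2 → F) → F)) := Subalgebra.one_mem _
  have hIJ := Subalgebra.mul_mem _ hI hJ
  have h2i : (2 : F)⁻¹ * 2 = 1 := inv_mul_cancel₀ h20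
  rw [eq_top_iff]
  intro N _
  have hN : N = ((2 : F)⁻¹ * (N 0 0 + N 1 1)) • (1 : Matrix (Fin 2) (Fin 2) F) + ((2 : F)⁻¹ * (N 0 0 - N 1 1)) • I +
      ((2 : F)⁻¹ * (N 1 0 + N 0 1)) • J + ((2 : F)⁻¹ * (N 0 1 - N 1 0)) • (I * J) := by
    ext i j
    fin_cases i <;> fin_cases j <;> simp [I, J, Matrix.mul_apply, Fin.sum_univ_two]
    · linear_combination -(N 0 0) * h2i
    · linear_combination -(N 0 1) * h2i
    · linear_combination -(N 1 0) * h2i
    · linear_combination -(N 1 1) * h2i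
  rw [hN]
  exact Subalgebra.add_mem _ (Subalgebra.add_mem _ (Subalgebra.add_mem _ (Subalgebra.smul_mem _ h1 _) (Subalgebra.smul_mem _ hI _))
    (Subalgebra.smul_mem _ hJ _)) (Subalgebra.smul_mem _ hIJ _)

/-- similarities normalise the isometry group -/
theorem sim_norm {κ : Type} [Fintype κ] [DecidableEq κ] {g : (κ → F) → (κ → F) → F} {C : GL κ F} {c : F} (hc : c ≠ 0)
    (hC : ∀ v w, g ((C : Matrix κ κ F) *ᵥ v) ((C : Matrix κ κ F) *ᵥ w) = c * g v w) : C ∈ subgroupNormalizer (iso g) := by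
  have hC' : ∀ v w, g (((C⁻¹ : GL κ F) : Matrix κ κ F) *ᵥ v) (((C⁻¹ : GL κ F) : Matrix κ κ F) *ᵥ w) = c⁻¹ * g v w := by
    intro v w
    have := hC (((C⁻¹ : GL κ F) : Matrix κ κ F) *ᵥ v) (((C⁻¹ : GL κ F) : Matrix κ κ F) *ᵥ w)
    rw [mulVec_inv_mulVec, mulVec_inv_mulVec] at this
    rw [this, ← mul_assoc, inv_mul_cancel₀ hc, one_mul]
  refine Subgroup.mem_normalizer_iff.2 fun x => ?_
  rw [mem_iso, mem_iso]
  constructor
  · intro h v w
    simp only [Units.val_mul, ← Matrix.mulVec_mulVec]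
    rw [hC, h, hC', ← mul_assoc, mul_inv_cancel₀ hc, one_mul]
  · intro h v w
    have h1 := h ((C : Matrix κ κ F) *ᵥ v) ((C : Matrix κ κ F) *ᵥ w)
    simp only [Units.val_mul, ← Matrix.mulVec_mulVec, inv_mulVec_mulVec] at h1
    rw [hC, hC] at h1
    exact mul_left_cancel₀ hc h1

/-- the extraspecial group normalised by a unitary type group -/
theorem unit_R {ι : Type} [Fintype ι] [DecidableEq ι] {f : (ι → F) → (ι → F) → F} (hf : IsSymplecticForm f)
    (hcard : Fintype.card ι = 4) (hq : Fintype.card F = 3) {K : Subalgebra F (Matrix ι ι F)}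
    (hK : IsFieldSubalgebra 2 K) (ha : IsAdjointClosedFor f K) (hs : ¬ IsSelfAdjointFor f K)
    {H : Subgroup (GL ι F)} (hI : Iso f H) (h : H ≤ subalgebraNormalizer K) :
    ∃ R : Subgroup (GL ι F), Iso f R ∧ alg R = ⊤ ∧ ⁅R, R⁆ ≤ scalars ι F ∧ H ≤ subgroupNormalizer R := by
  have h2 := card_three_two hq
  have hne : Nonempty ι := Fintype.card_pos_iff.1 (by omega)
  obtain ⟨J, hJ, hJa, hJn⟩ := exists_J hf hq hK ha hs
  obtain ⟨b, hform, hKA⟩ := unit_KA hf hcard hq hJ hJa hI (fun g hg => hJn g (h hg))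
  refine ⟨KR b (Q8 hq) (iso s2), ?_, KR_alg b (Q8_alg hq) (o2_alg hq), KR_comm b (Q8_comm hq) (o2_comm_scalars hq), ?_⟩
  · exact KR_iso b (fd_of_symp hf) s1_fd s2_fd hform (Q8_iso hq s1_fd h2) (fun g hg u v => (mem_iso g).1 hg u v)
  · intro g hg
    obtain ⟨A, N, hk⟩ := hKA g hg
    obtain ⟨c, hc, hsim⟩ := ten_sim b (fd_of_symp hf) s1_fd s2_fd (by norm_num) hform (hI g hg) hk (by norm_num)
    exact KR_norm b hk (Q8_norm hq A) (sim_norm hc hsim)

end o2

/-- packaging -/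
theorem st_pack {F : Type*} [Field F] [Fintype F] {m k : ℕ} (hm : 2 ≤ m) (hk : 2 * m = 2 ^ k) (h2 : (2 : F) ≠ 0)
    {H : Subgroup (GL (Fin m ⊕ Fin m) F)} (hmax : IsMaximalIn (spGL m F) H) {R : Subgroup (GL (Fin m ⊕ Fin m) F)}
    (hI : Iso (sympForm m F) R) (hal : alg R = ⊤) (hc : ⁅R, R⁆ ≤ scalars _ F) (hH : H ≤ subgroupNormalizer R) :
    IsSymplecticTypeGroup 2 R ∧ ActsAbsolutelyIrreducibly (matrixSet R) ∧ R ≤ similarityGroup (sympForm m F) ∧
      Nat.card R = 2 ^ (1 + 2 * k) ∧ Nat.card (Subgroup.center R) = 2 ∧ IsOfMinusType k R ∧ H = subgroupNormalizer R ⊓ spGL m F := by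
  have hcard : Fintype.card (Fin m ⊕ Fin m) = 2 * m := by simp; ring
  have hne : Nonempty (Fin m ⊕ Fin m) := ⟨Sum.inl ⟨0, by omega⟩⟩
  have hsym := CfsgLib.SympTv29.sympForm_symplectic m F
  obtain ⟨h1, h3, h4⟩ := st_of hsym h2 (by omega) hI hal hc
  have h5 : Nat.card R = 2 ^ (2 * k) * 2 := by
    rw [h4, hcard, hk, ← pow_mul, mul_comm k 2]
  refine ⟨h1, absIrred_of_alg hal, ?_, ?_, h3, minus_type (fd_of_symp hsym) hsym.alternating h2 hI hal hc h5 (by rw [hcard, hk]),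
    eq_inf hmax hH (not_st hsym (by omega) h2 hI hal hc)⟩
  · intro x hx
    exact ⟨1, fun u v => by rw [hI x hx, Units.val_one, one_mul]⟩
  · rw [h5, pow_add, pow_one, mul_comm]

end CfsgLib.SpMax19
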