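import Cfsg.Agent.EqBase
import Cfsg.Agent.LibSpMaxO19

/-!
# Plus type tensor factors in dimension four: the eight-dimensional symplectic group
-/

set_option autoImplicit false
set_option linter.all false
set_option maxHeartbeats 400000

open Module Cfsg Cfsg.Geo
open scoped Matrix MatrixGroups Kronecker

namespace CfsgLib.SpMax19

open CfsgLib.AschF CfsgLib.Asch9 CfsgLib.Asch10 CfsgLib.Asch16 CfsgLib.Asch14 CfsgLib.Asch11 CfsgLib.Asch7
open CfsgLib.SympTv29 (st st_mulVec st_fix st_mem_iso st_conj iso mem_iso zero_left zero_right neg_left neg_right swap_ne swap_eq exists_perp)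
open CfsgLib.MaxTv29 (gl_ext mulVec_inv_mulVec inv_mulVec_mulVec mulVec_injective)

section sym
variable {ι : Type} [Fintype ι] [DecidableEq ι] {F : Type*} [Field F]
variable {σ : F ≃+* F} {ε : F} {f : (ι → F) → (ι → F) → F}

theorem basis_of_gram' (hf : FD σ ε f) {κ : Type} [Fintype κ] [DecidableEq κ] (hcard : Fintype.card κ = Fintype.card ι)
    (v : κ → (ι → F)) (s : κ → κ) (c : κ → F) (hc : ∀ k, c k ≠ 0) (hg : ∀ j k, f (v j) (v (s k)) = if j = k then c k else 0) :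
    ∃ b : Basis κ F (ι → F), ∀ k, b k = v k := by
  have hsum : ∀ (a : κ → F) (z : ι → F), f (∑ j, a j • v j) z = ∑ j, a j * f (v j) z := by
    intro a z
    rw [hf.sum_left]
    exact Finset.sum_congr rfl fun j _ => hf.smul_left _ _ _
  have hli : LinearIndependent F v := by
    rw [Fintype.linearIndependent_iff]
    intro a ha k
    have h1 := hsum a (v (s k))
    rw [ha, hf.zero_left, Finset.sum_eq_single k] at h1
    · rw [hg, if_pos rfl] at h1
      exact (mul_eq_zero.1 h1.symm).resolve_right (hc k)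
    · intro j _ hj
      rw [hg, if_neg hj, mul_zero]
    · simp
  have hfr : Fintype.card κ = finrank F (ι → F) := by rw [Module.finrank_fintype_fun_eq_card, hcard]
  refine ⟨Basis.mk hli ?_, fun k => by rw [Basis.mk_apply]⟩
  rw [hli.span_eq_top_of_card_eq_finrank' hfr]

variable {g : (ι → F) → (ι → F) → F}

theorem sep [Finite F] (hg : FD (RingEquiv.refl F) ε g) {x y : ι → F} (h : x ∉ Submodule.span F ({y} : Set (ι → F))) :
    ∃ z, g x z = 1 ∧ g y z = 0 := by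
  have h1 : ∃ z ∈ perp hg (Submodule.span F ({y} : Set (ι → F))), g x z ≠ 0 := by
    by_contra hcon
    push Not at hcon
    apply h
    rw [← perp_perp hg (Submodule.span F ({y} : Set (ι → F)))]
    exact (mem_perp' hg).2 hcon
  obtain ⟨z, hz, hxz⟩ := h1
  refine ⟨(g x z)⁻¹ • z, ?_, ?_⟩
  · rw [hg.smul_right, RingEquiv.refl_apply, inv_mul_cancel₀ hxz]
  · rw [hg.smul_right, RingEquiv.refl_apply, (mem_perp hg).1 hz y (Submodule.mem_span_singleton_self y), mul_zero]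

theorem FD.neg_left' (hg : FD σ ε g) (x y : ι → F) : g (-x) y = -g x y := by
  rw [← neg_one_smul F x, hg.smul_left, neg_one_mul]

theorem FD.neg_right' (hg : FD σ ε g) (x y : ι → F) : g x (-y) = -g x y := by
  rw [← neg_one_smul F y, hg.smul_right, map_neg, map_one, neg_one_mul]

/-- a hyperbolic tensor basis of a quadratic space of dimension four and plus type -/
theorem plus_basis [Finite F] (hg : FD (RingEquiv.refl F) 1 g) (h2 : (2 : F) ≠ 0) (hcard : Fintype.card ι = 4)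
    {U : Submodule F (ι → F)} (hU : finrank F U = 2) (hs : ∀ u ∈ U, g u u = 0) :
    ∃ β : Basis (Fin 2 × Fin 2) F (ι → F), ∀ i j k l, g (β (i, j)) (β (k, l)) = gramMatrix s1 i k * gramMatrix s1 j l := by
  have hsym : ∀ x y, g x y = g y x := fun x y => by rw [hg.herm]; simp
  have hUU : ∀ u ∈ U, ∀ v ∈ U, g u v = 0 := by
    intro u hu v hv
    have h1 := hs (u + v) (U.add_mem hu hv)
    rw [hg.add_left, hg.add_right, hg.add_right, hs u hu, hs v hv, hsym v u] at h1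
    have h3 : (2 : F) * g u v = 0 := by linear_combination h1
    exact (mul_eq_zero.1 h3).resolve_left h2
  let v := Module.finBasisOfFinrankEq F U hU
  have hli : LinearIndependent F v := v.linearIndependent
  have hn01 : (v 0 : ι → F) ∉ Submodule.span F ({(v 1 : ι → F)} : Set (ι → F)) := by
    intro h
    obtain ⟨c, hcc⟩ := Submodule.mem_span_singleton.1 h
    have h1 : (1 : F) • v 0 + (-c) • v 1 = 0 := by
      apply Subtype.ext
      simp only [Submodule.coe_add, Submodule.coe_smul, Submodule.coe_zero]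
      rw [← hcc]; module
    have h3 := (LinearIndependent.pair_iff.1 (by
      have := hli
      rwa [← List.ofFn_inj.1 (by simp : List.ofFn ![v 0, v 1] = List.ofFn v)] at this : LinearIndependent F ![v 0, v 1])) 1 (-c) h1
    exact one_ne_zero h3.1
  have hn10 : (v 1 : ι → F) ∉ Submodule.span F ({(v 0 : ι → F)} : Set (ι → F)) := by
    intro h
    obtain ⟨c, hcc⟩ := Submodule.mem_span_singleton.1 h
    have h1 : (-c) • v 0 + (1 : F) • v 1 = 0 := by
      apply Subtype.ext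
      simp only [Submodule.coe_add, Submodule.coe_smul, Submodule.coe_zero]
      rw [← hcc]; module
    have h3 := (LinearIndependent.pair_iff.1 (by
      have := hli
      rwa [← List.ofFn_inj.1 (by simp : List.ofFn ![v 0, v 1] = List.ofFn v)] at this : LinearIndependent F ![v 0, v 1])) (-c) 1 h1
    exact one_ne_zero h3.2
  obtain ⟨z0, h00, h10⟩ := sep hg hn01
  obtain ⟨z1, h11, h01⟩ := sep hg hn10
  have q1 : g (v 0) (v 0) = 0 := hs _ (v 0).2
  have q2 : g (v 0) (v 1) = 0 := hUU _ (v 0).2 _ (v 1).2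
  have q4 : g (v 1) (v 1) = 0 := hs _ (v 1).2
  set e0 : ι → F := (v 0 : ι → F) with he0
  set e1 : ι → F := (v 1 : ι → F) with he1
  have q3 : g e1 e0 = 0 := by rw [hsym, q2]
  have r00 : g z0 e0 = 1 := by rw [hsym, h00]
  have r01 : g z0 e1 = 0 := by rw [hsym, h10]
  have r10 : g z1 e0 = 0 := by rw [hsym, h01]
  have r11 : g z1 e1 = 1 := by rw [hsym, h11]
  have hinv : (2 : F)⁻¹ * 2 = 1 := inv_mul_cancel₀ h2
  -- correct the dual vectors
  set d0 : ι → F := z0 - ((2 : F)⁻¹ * g z0 z0) • e0 with hd0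
  set d1 : ι → F := z1 - ((2 : F)⁻¹ * g z1 z1) • e1 - (g z0 z1) • e0 with hd1
  have a1 : g e0 d0 = 1 := by
    rw [hd0, hg.sub_right, hg.smul_right, h00, q1, mul_zero, sub_zero]
  have a2 : g e1 d0 = 0 := by
    rw [hd0, hg.sub_right, hg.smul_right, h10, q3, mul_zero, sub_zero]
  have a3 : g e0 d1 = 0 := by
    rw [hd1, hg.sub_right, hg.sub_right, hg.smul_right, hg.smul_right, h01, q2, q1, mul_zero, mul_zero, sub_zero, sub_zero]
  have a4 : g e1 d1 = 1 := by
    rw [hd1, hg.sub_right, hg.sub_right, hg.smul_right, hg.smul_right, h11, q4, q3, mul_zero, mul_zero, sub_zero, sub_zero]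
  have a5 : g d0 d0 = 0 := by
    have : g z0 d0 = (2 : F)⁻¹ * g z0 z0 := by
      rw [hd0, hg.sub_right, hg.smul_right, r00, RingEquiv.refl_apply]
      linear_combination -(g z0 z0) * hinv
    conv_lhs => rw [hd0]
    rw [← hd0, hg.sub_left, hg.smul_left, a1, this]
    ring
  have a6 : g d0 d1 = 0 := by
    have h1 : g z0 d1 = 0 := by
      rw [hd1, hg.sub_right, hg.sub_right, hg.smul_right, hg.smul_right, r00, r01]
      simp only [RingEquiv.refl_apply]
      ring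
    conv_lhs => rw [hd0]
    rw [hg.sub_left, hg.smul_left, h1, a3]
    ring
  have a7 : g d1 d1 = 0 := by
    have h1 : g z1 d1 = (2 : F)⁻¹ * g z1 z1 := by
      rw [hd1, hg.sub_right, hg.sub_right, hg.smul_right, hg.smul_right, r10, r11]
      simp only [RingEquiv.refl_apply]
      linear_combination -(g z1 z1) * hinv
    conv_lhs => arg 1; rw [hd1]
    rw [hg.sub_left, hg.sub_left, hg.smul_left, hg.smul_left, h1, a3, a4]
    ring
  have b1 : g d0 e0 = 1 := by rw [hsym, a1]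
  have b2 : g d0 e1 = 0 := by rw [hsym, a2]
  have b3 : g d1 e0 = 0 := by rw [hsym, a3]
  have b4 : g d1 e1 = 1 := by rw [hsym, a4]
  have b6 : g d1 d0 = 0 := by rw [hsym, a6]
  let w : Fin 2 × Fin 2 → (ι → F) := fun p => !![e0, e1; -d1, d0] p.1 p.2
  have hform : ∀ i j k l, g (w (i, j)) (w (k, l)) = gramMatrix s1 i k * gramMatrix s1 j l := by
    intro i j k l
    rw [gram_s1, gram_s1]
    fin_cases i <;> fin_cases j <;> fin_cases k <;> fin_cases l <;>
      simp [w, FD.neg_left' hg, FD.neg_right' hg, q1, q2, q3, q4, a1, a2, a3, a4, a5, a6, a7, b1, b2, b3, b4, b6]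
  obtain ⟨b, hb⟩ := basis_of_gram' hg (κ := Fin 2 × Fin 2) (by simp [hcard]) w (fun p => (p.1 + 1, p.2 + 1))
    (fun p => if p.1 = p.2 then 1 else -1) (by
      intro p; split_ifs
      · exact one_ne_zero
      · exact neg_ne_zero.2 one_ne_zero) (by
      rintro ⟨i, l⟩ ⟨j, l'⟩
      rw [hform, gram_s1, gram_s1]
      fin_cases i <;> fin_cases l <;> fin_cases j <;> fin_cases l' <;> simp)
  exact ⟨b, fun i l j l' => by rw [hb, hb]; exact hform i l j l'⟩

theorem basis_expand (β : Basis (Fin 2 × Fin 2) F (ι → F)) (x : ι → F) : x = β.repr x (0, 0) • β (0, 0) + β.repr x (0, 1) • β (0, 1) +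
    β.repr x (1, 0) • β (1, 0) + β.repr x (1, 1) • β (1, 1) := by
  conv_lhs => rw [← β.sum_repr x]
  rw [Fintype.sum_prod_type]
  simp only [Fin.sum_univ_two]
  module

theorem ten_two (β : Basis (Fin 2 × Fin 2) F (ι → F)) (u v : Fin 2 → F) : ten β u v = (u 0 * v 0) • β (0, 0) + (u 0 * v 1) • β (0, 1) +
    (u 1 * v 0) • β (1, 0) + (u 1 * v 1) • β (1, 1) := by
  rw [ten]
  simp only [Fin.sum_univ_two]
  module

/-- singular vectors are pure tensors -/
theorem singular_pure (hg : FD (RingEquiv.refl F) 1 g) (h2 : (2 : F) ≠ 0) (β : Basis (Fin 2 × Fin 2) F (ι → F))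
    (hβ : ∀ i j k l, g (β (i, j)) (β (k, l)) = gramMatrix s1 i k * gramMatrix s1 j l) {x : ι → F} (hx : g x x = 0) :
    ∃ u v : Fin 2 → F, x = ten β u v := by
  set a := β.repr x (0, 0)
  set b := β.repr x (0, 1)
  set c := β.repr x (1, 0)
  set d := β.repr x (1, 1)
  have hxe : x = a • β (0, 0) + b • β (0, 1) + c • β (1, 0) + d • β (1, 1) := basis_expand β x
  have h1 : (2 : F) * (a * d - b * c) = 0 := by
    rw [← hx]
    conv_rhs => rw [hxe]
    simp only [hg.add_left, hg.add_right, hg.smul_left, hg.smul_right, hβ, gram_s1, RingEquiv.refl_apply]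
    simp
    ring
  have h3 : a * d = b * c := by
    have := (mul_eq_zero.1 h1).resolve_left h2
    linear_combination this
  by_cases ha : a = 0
  · rw [ha, zero_mul] at h3
    rcases mul_eq_zero.1 h3.symm with hb | hc
    · refine ⟨![0, 1], ![c, d], ?_⟩
      rw [ten_two, hxe, ha, hb]
      simp
    · refine ⟨![b, d], ![0, 1], ?_⟩
      rw [ten_two, hxe, ha, hc]
      simp
  · refine ⟨![1, c * a⁻¹], ![a, b], ?_⟩
    rw [ten_two, hxe]
    have e1 : c * a⁻¹ * a = c := by field_simp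
    have e2 : c * a⁻¹ * b = d := by
      field_simp
      linear_combination -h3
    simp [e1, e2]

theorem s1_smul_form (hg : FD (RingEquiv.refl F) 1 g) (β : Basis (Fin 2 × Fin 2) F (ι → F))
    (hβ : ∀ i j k l, g (β (i, j)) (β (k, l)) = gramMatrix s1 i k * gramMatrix s1 j l) (u u' v v' : Fin 2 → F) :
    g (ten β u v) (ten β u' v') = s1 u u' * s1 v v' :=
  ten_form β hg s1_fd s1_fd hβ u u' v v'

/-- similarities of a plus type space of dimension four are tensor products up to a swap -/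
theorem plus_sim [Fintype F] (hg : FD (RingEquiv.refl F) 1 g) (h2 : (2 : F) ≠ 0) (β : Basis (Fin 2 × Fin 2) F (ι → F))
    (hβ : ∀ i j k l, g (β (i, j)) (β (k, l)) = gramMatrix s1 i k * gramMatrix s1 j l) (N : GL ι F) {ν : F} (hν : ν ≠ 0)
    (hN : ∀ x y, g ((N : Matrix ι ι F) *ᵥ x) ((N : Matrix ι ι F) *ᵥ y) = ν * g x y) :
    ∃ B C : GL (Fin 2) F, (∀ u v, (N : Matrix ι ι F) *ᵥ ten β u v = ten β ((B : Matrix (Fin 2) (Fin 2) F) *ᵥ u) ((C : Matrix (Fin 2) (Fin 2) F) *ᵥ v)) ∨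
      (∀ u v, (N : Matrix ι ι F) *ᵥ ten β u v = ten β ((B : Matrix (Fin 2) (Fin 2) F) *ᵥ v) ((C : Matrix (Fin 2) (Fin 2) F) *ᵥ u)) := by
  have hsym : ∀ x y, g x y = g y x := fun x y => by rw [hg.herm]; simp
  have c00 : g (β (0, 0)) (β (0, 0)) = 0 := by rw [hβ, gram_s1]; simp
  have c11 : g (β (1, 1)) (β (1, 1)) = 0 := by rw [hβ, gram_s1]; simp
  have c01 : g (β (0, 0)) (β (1, 1)) = 1 := by rw [hβ, gram_s1]; simp
  obtain ⟨p, q, hpq⟩ := singular_pure hg h2 β hβ (x := (N : Matrix ι ι F) *ᵥ β (0, 0)) (by rw [hN, c00, mul_zero])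
  obtain ⟨r, s, hrs⟩ := singular_pure hg h2 β hβ (x := (N : Matrix ι ι F) *ᵥ β (1, 1)) (by rw [hN, c11, mul_zero])
  have hν1 : s1 p r * s1 q s = ν := by
    rw [← s1_smul_form hg β hβ, ← hpq, ← hrs, hN, c01, mul_one]
  have hpr : s1 p r ≠ 0 := by rintro h; rw [h, zero_mul] at hν1; exact hν hν1.symm
  have hqs : s1 q s ≠ 0 := by rintro h; rw [h, mul_zero] at hν1; exact hν hν1.symm
  have hB : (!![p 0, r 0; p 1, r 1] : Matrix (Fin 2) (Fin 2) F).det = s1 p r := by rw [Matrix.det_fin_two_of, s1]; ring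
  have hC : (!![q 0, s 0; q 1, s 1] : Matrix (Fin 2) (Fin 2) F).det = s1 q s := by rw [Matrix.det_fin_two_of, s1]; ring
  let B : GL (Fin 2) F := Matrix.GeneralLinearGroup.mkOfDetNeZero !![p 0, r 0; p 1, r 1] (by rw [hB]; exact hpr)
  let C : GL (Fin 2) F := Matrix.GeneralLinearGroup.mkOfDetNeZero !![q 0, s 0; q 1, s 1] (by rw [hC]; exact hqs)
  have hB0 : (B : Matrix (Fin 2) (Fin 2) F) *ᵥ (Pi.single 0 1) = p := by
    rw [Matrix.mulVec_single_one]; ext i; fin_cases i <;> rfl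
  have hB1 : (B : Matrix (Fin 2) (Fin 2) F) *ᵥ (Pi.single 1 1) = r := by
    rw [Matrix.mulVec_single_one]; ext i; fin_cases i <;> rfl
  have hC0 : (C : Matrix (Fin 2) (Fin 2) F) *ᵥ (Pi.single 0 1) = q := by
    rw [Matrix.mulVec_single_one]; ext i; fin_cases i <;> rfl
  have hC1 : (C : Matrix (Fin 2) (Fin 2) F) *ᵥ (Pi.single 1 1) = s := by
    rw [Matrix.mulVec_single_one]; ext i; fin_cases i <;> rfl
  have hBd : (B : Matrix (Fin 2) (Fin 2) F).det = s1 p r := hB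
  have hCd : (C : Matrix (Fin 2) (Fin 2) F).det = s1 q s := hC
  have hK := kron_KA β B C
  set K := kron β B C with hKdef
  have hKten := fun u v => ten_act β hK u v
  have hKg : ∀ x y, g ((K : Matrix ι ι F) *ᵥ x) ((K : Matrix ι ι F) *ᵥ y) = ν * g x y := by
    have hg' : CfsgLib.Asch13.Sesq ((RingEquiv.refl F : F ≃+* F) : F →+* F) (fun x y => ν⁻¹ * g ((K : Matrix ι ι F) *ᵥ x) ((K : Matrix ι ι F) *ᵥ y)) :=
      ⟨fun x y v => by simp only [Matrix.mulVec_add, hg.add_left, mul_add], fun c x v => by simp only [Matrix.mulVec_smul, hg.smul_left]; ring,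
       fun v x y => by simp only [Matrix.mulVec_add, hg.add_right, mul_add], fun c v x => by simp only [Matrix.mulVec_smul, hg.smul_right, RingEquiv.coe_toRingHom]; ring⟩
    have h1 := bil_ten_ext β hg hg' (by
      intro u v u' v'
      beta_reduce
      rw [hKten, hKten, s1_smul_form hg β hβ, s1_smul_form hg β hβ, det_iso s1_fd h2, det_iso s1_fd h2, hBd, hCd, ← hν1]
      field_simp)
    intro x y
    rw [h1 x y]
    field_simp
  -- the normalised map
  set M := K⁻¹ * N with hMdef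
  have hNM : N = K * M := by rw [hMdef]; group
  have hM : ∀ x, (K : Matrix ι ι F) *ᵥ ((M : Matrix ι ι F) *ᵥ x) = (N : Matrix ι ι F) *ᵥ x := by
    intro x; rw [Matrix.mulVec_mulVec, ← Units.val_mul, ← hNM]
  have hMg : ∀ x y, g ((M : Matrix ι ι F) *ᵥ x) ((M : Matrix ι ι F) *ᵥ y) = g x y := by
    intro x y
    have h1 := hKg ((M : Matrix ι ι F) *ᵥ x) ((M : Matrix ι ι F) *ᵥ y)
    rw [hM, hM, hN] at h1
    exact (mul_left_cancel₀ hν h1).symm
  have hKinj : ∀ x y, (K : Matrix ι ι F) *ᵥ x = (K : Matrix ι ι F) *ᵥ y → x = y := by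
    intro x y h
    rw [← inv_mulVec_mulVec K x, h, inv_mulVec_mulVec]
  have hM00 : (M : Matrix ι ι F) *ᵥ β (0, 0) = β (0, 0) := by
    apply hKinj
    rw [hM, ← ten_single β 0 0, hKten, hB0, hC0, ten_single, hpq]
  have hM11 : (M : Matrix ι ι F) *ᵥ β (1, 1) = β (1, 1) := by
    apply hKinj
    rw [hM, ← ten_single β 1 1, hKten, hB1, hC1, ten_single, hrs]
  have shape : ∀ x, g (β (0, 0)) x = 0 → g (β (1, 1)) x = 0 → g x x = 0 →
      ∃ a b : F, x = a • β (0, 1) + b • β (1, 0) ∧ a * b = 0 := by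
    intro x h0 h1 hx
    have hxe := basis_expand β x
    set a := β.repr x (0, 0)
    set b := β.repr x (0, 1)
    set c := β.repr x (1, 0)
    set d := β.repr x (1, 1)
    rw [hxe] at h0 h1
    simp only [hg.add_left, hg.add_right, hg.smul_left, hg.smul_right, hβ, gram_s1, RingEquiv.refl_apply] at h0 h1
    have hd : d = 0 := by simpa using h0
    have ha : a = 0 := by simpa using h1
    rw [ha, hd] at hxe
    refine ⟨b, c, by rw [hxe]; simp, ?_⟩
    rw [hxe] at hx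
    simp only [hg.add_left, hg.add_right, hg.smul_left, hg.smul_right, hβ, gram_s1, RingEquiv.refl_apply] at hx
    have h3 : (2 : F) * (b * c) = 0 := by
      simp at hx
      linear_combination -hx
    exact (mul_eq_zero.1 h3).resolve_left h2
  obtain ⟨a, b, hY, hab⟩ := shape ((M : Matrix ι ι F) *ᵥ β (0, 1))
    (by rw [← hM00, hMg, hβ, gram_s1]; simp) (by rw [← hM11, hMg, hβ, gram_s1, gram_s1]; simp) (by rw [hMg, hβ, gram_s1]; simp)
  obtain ⟨c, d, hZ, hcd⟩ := shape ((M : Matrix ι ι F) *ᵥ β (1, 0))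
    (by rw [← hM00, hMg, hβ, gram_s1, gram_s1]; simp) (by rw [← hM11, hMg, hβ, gram_s1]; simp) (by rw [hMg, hβ, gram_s1]; simp)
  have hYZ : a * d + b * c = 1 := by
    have h1 := hMg (β (0, 1)) (β (1, 0))
    rw [hY, hZ] at h1
    simp only [hg.add_left, hg.add_right, hg.smul_left, hg.smul_right, hβ, gram_s1, RingEquiv.refl_apply] at h1
    simp at h1
    linear_combination -h1
  have hMten : ∀ u v : Fin 2 → F, (M : Matrix ι ι F) *ᵥ ten β u v = (u 0 * v 0) • β (0, 0) + (u 0 * v 1) • (a • β (0, 1) + b • β (1, 0)) +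
    (u 1 * v 0) • (c • β (0, 1) + d • β (1, 0)) + (u 1 * v 1) • β (1, 1) := by
    intro u v
    rw [ten_two, Matrix.mulVec_add, Matrix.mulVec_add, Matrix.mulVec_add, Matrix.mulVec_smul, Matrix.mulVec_smul, Matrix.mulVec_smul,
      Matrix.mulVec_smul, hM00, hM11, hY, hZ]
  rcases mul_eq_zero.1 hab with ha | hb
  · -- swapped
    have hbc : b * c = 1 := by rw [ha] at hYZ; linear_combination hYZ
    have hc0 : c ≠ 0 := by rintro rfl; simp at hbc
    have hb0 : b ≠ 0 := by rintro rfl; simp at hbc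
    have hd : d = 0 := (mul_eq_zero.1 hcd).resolve_left hc0
    let D1 : GL (Fin 2) F := Matrix.GeneralLinearGroup.mkOfDetNeZero !![1, 0; 0, b] (by rw [Matrix.det_fin_two_of]; simpa using hb0)
    let D2 : GL (Fin 2) F := Matrix.GeneralLinearGroup.mkOfDetNeZero !![1, 0; 0, c] (by rw [Matrix.det_fin_two_of]; simpa using hc0)
    refine ⟨B * D1, C * D2, Or.inr fun u v => ?_⟩
    have hMs : (M : Matrix ι ι F) *ᵥ ten β u v = ten β ((D1 : Matrix (Fin 2) (Fin 2) F) *ᵥ v) ((D2 : Matrix (Fin 2) (Fin 2) F) *ᵥ u) := by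
      rw [hMten, ten_two]
      have e1 : ((D1 : Matrix (Fin 2) (Fin 2) F) *ᵥ v) 0 = v 0 := by
        change ((!![1, 0; 0, b] : Matrix (Fin 2) (Fin 2) F) *ᵥ v) 0 = _
        simp [Matrix.mulVec, dotProduct, Fin.sum_univ_two]
      have e2 : ((D1 : Matrix (Fin 2) (Fin 2) F) *ᵥ v) 1 = b * v 1 := by
        change ((!![1, 0; 0, b] : Matrix (Fin 2) (Fin 2) F) *ᵥ v) 1 = _
        simp [Matrix.mulVec, dotProduct, Fin.sum_univ_two]
      have e3 : ((D2 : Matrix (Fin 2) (Fin 2) F) *ᵥ u) 0 = u 0 := by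
        change ((!![1, 0; 0, c] : Matrix (Fin 2) (Fin 2) F) *ᵥ u) 0 = _
        simp [Matrix.mulVec, dotProduct, Fin.sum_univ_two]
      have e4 : ((D2 : Matrix (Fin 2) (Fin 2) F) *ᵥ u) 1 = c * u 1 := by
        change ((!![1, 0; 0, c] : Matrix (Fin 2) (Fin 2) F) *ᵥ u) 1 = _
        simp [Matrix.mulVec, dotProduct, Fin.sum_univ_two]
      rw [e1, e2, e3, e4, ha, hd]
      have e5 : b * v 1 * (c * u 1) = u 1 * v 1 := by linear_combination (u 1 * v 1) * hbc
      rw [e5]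
      module
    rw [← hM, hMs, hKten, Matrix.mulVec_mulVec, Matrix.mulVec_mulVec, ← Units.val_mul, ← Units.val_mul]
  · have had : a * d = 1 := by rw [hb] at hYZ; linear_combination hYZ
    have ha0 : a ≠ 0 := by rintro rfl; simp at had
    have hd0 : d ≠ 0 := by rintro rfl; simp at had
    have hc : c = 0 := (mul_eq_zero.1 hcd).resolve_right hd0
    let D1 : GL (Fin 2) F := Matrix.GeneralLinearGroup.mkOfDetNeZero !![1, 0; 0, d] (by rw [Matrix.det_fin_two_of]; simpa using hd0)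
    let D2 : GL (Fin 2) F := Matrix.GeneralLinearGroup.mkOfDetNeZero !![1, 0; 0, a] (by rw [Matrix.det_fin_two_of]; simpa using ha0)
    refine ⟨B * D1, C * D2, Or.inl fun u v => ?_⟩
    have hMs : (M : Matrix ι ι F) *ᵥ ten β u v = ten β ((D1 : Matrix (Fin 2) (Fin 2) F) *ᵥ u) ((D2 : Matrix (Fin 2) (Fin 2) F) *ᵥ v) := by
      rw [hMten, ten_two]
      have e1 : ((D1 : Matrix (Fin 2) (Fin 2) F) *ᵥ u) 0 = u 0 := by
        change ((!![1, 0; 0, d] : Matrix (Fin 2) (Fin 2) F) *ᵥ u) 0 = _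
        simp [Matrix.mulVec, dotProduct, Fin.sum_univ_two]
      have e2 : ((D1 : Matrix (Fin 2) (Fin 2) F) *ᵥ u) 1 = d * u 1 := by
        change ((!![1, 0; 0, d] : Matrix (Fin 2) (Fin 2) F) *ᵥ u) 1 = _
        simp [Matrix.mulVec, dotProduct, Fin.sum_univ_two]
      have e3 : ((D2 : Matrix (Fin 2) (Fin 2) F) *ᵥ v) 0 = v 0 := by
        change ((!![1, 0; 0, a] : Matrix (Fin 2) (Fin 2) F) *ᵥ v) 0 = _
        simp [Matrix.mulVec, dotProduct, Fin.sum_univ_two]
      have e4 : ((D2 : Matrix (Fin 2) (Fin 2) F) *ᵥ v) 1 = a * v 1 := by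
        change ((!![1, 0; 0, a] : Matrix (Fin 2) (Fin 2) F) *ᵥ v) 1 = _
        simp [Matrix.mulVec, dotProduct, Fin.sum_univ_two]
      rw [e1, e2, e3, e4, hb, hc]
      have e5 : d * u 1 * (a * v 1) = u 1 * v 1 := by linear_combination (u 1 * v 1) * had
      rw [e5]
      module
    rw [← hM, hMs, hKten, Matrix.mulVec_mulVec, Matrix.mulVec_mulVec, ← Units.val_mul, ← Units.val_mul]

end sym

section main
variable {ι : Type} [Fintype ι] [DecidableEq ι] {F : Type*} [Field F] [Fintype F]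
variable {f : (ι → F) → (ι → F) → F}

theorem gram_shift (i k : Fin 2) : gramMatrix (s1 : (Fin 2 → F) → (Fin 2 → F) → F) i (k + 1) = if i = k then (if k = 0 then 1 else -1) else 0 := by
  rw [gram_s1]
  fin_cases i <;> fin_cases k <;> simp

theorem ten_sum_right {n₁ n₂ : ℕ} (b : Basis (Fin n₁ × Fin n₂) F (ι → F)) (u : Fin n₁ → F) {α : Type*} (S : Finset α) (w : α → Fin n₂ → F) :
    ten b u (∑ a ∈ S, w a) = ∑ a ∈ S, ten b u (w a) := by
  classical
  induction S using Finset.induction_on with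
  | empty =>
    rw [Finset.sum_empty, Finset.sum_empty]
    have := ten_smul_right b 0 u 0
    rwa [zero_smul, zero_smul] at this
  | insert a S ha ih => rw [Finset.sum_insert ha, Finset.sum_insert ha, ten_add_right, ih]

theorem ten_expand_left {n₁ n₂ : ℕ} (b : Basis (Fin n₁ × Fin n₂) F (ι → F)) (u : Fin n₁ → F) (w : Fin n₂ → F) :
    ten b u w = ∑ i, u i • ten b (Pi.single i 1) w := by
  have h1 : u = ∑ i, u i • (Pi.single i 1 : Fin n₁ → F) := by
    ext j; simp [Finset.sum_apply, Pi.single_apply]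
  have h2 : ∀ S : Finset (Fin n₁), ten b (∑ i ∈ S, u i • (Pi.single i 1 : Fin n₁ → F)) w = ∑ i ∈ S, u i • ten b (Pi.single i 1) w := by
    intro S
    classical
    induction S using Finset.induction_on with
    | empty =>
      rw [Finset.sum_empty, Finset.sum_empty]
      have := ten_smul_left b 0 0 w
      rwa [zero_smul, zero_smul] at this
    | insert a S ha ih => rw [Finset.sum_insert ha, Finset.sum_insert ha, ten_add_left, ih, ten_smul_left]
  conv_lhs => rw [h1]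
  exact h2 _

/-- the triple tensor basis -/
theorem triple_basis {ε : F} (hf : FD (RingEquiv.refl F) ε f) (hcard : Fintype.card ι = 8) (b : Basis (Fin 2 × Fin 4) F (ι → F))
    {f₁ : (Fin 2 → F) → (Fin 2 → F) → F} {f₂ : (Fin 4 → F) → (Fin 4 → F) → F}
    (hF₁ : FD (RingEquiv.refl F) (-1) f₁) (hF₂ : FD (RingEquiv.refl F) 1 f₂) (h2 : (2 : F) ≠ 0)
    (hform : ∀ i l j l', f (b (i, l)) (b (j, l')) = gramMatrix f₁ i j * gramMatrix f₂ l l')
    (β : Basis (Fin 2 × Fin 2) F (Fin 4 → F))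
    (hβ : ∀ i j k l, f₂ (β (i, j)) (β (k, l)) = gramMatrix s1 i k * gramMatrix s1 j l) :
    ∃ (c : F) (b' : Basis (Fin 3 → Fin 2) F (ι → F)), c ≠ 0 ∧
      (∀ x y, f (b' x) (b' y) = c * ∏ s, gramMatrix s1 (x s) (y s)) ∧
      (∀ u v w : Fin 2 → F, ten b u (ten β v w) = ∑ y : Fin 3 → Fin 2, (u (y 0) * v (y 1) * w (y 2)) • b' y) ∧
      (∀ x, b' x = ten b (Pi.single (x 0) 1) (β (x 1, x 2))) := by
  classical
  have hg1 : ∀ i j, f₁ (Pi.single i 1) (Pi.single j 1) = f₁ (Pi.single 0 1) (Pi.single 1 1) * gramMatrix s1 i j := by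
    intro i j
    rw [alt_det hF₁ h2, gram_s1]
    fin_cases i <;> fin_cases j <;> simp
  set c := f₁ (Pi.single 0 1) (Pi.single 1 1) with hc
  have hc0 : c ≠ 0 := by
    intro h0
    obtain ⟨⟨u', hu'⟩, _⟩ := hF₁.nd (Pi.single (0 : Fin 2) 1) (by simp)
    apply hu'
    rw [alt_det hF₁ h2, ← hc, h0, mul_zero]
  let w : (Fin 3 → Fin 2) → (ι → F) := fun x => ten b (Pi.single (x 0) 1) (β (x 1, x 2))
  have hwf : ∀ x y, f (w x) (w y) = c * ∏ s, gramMatrix s1 (x s) (y s) := by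
    intro x y
    rw [ten_form b hf hF₁ hF₂ hform, hβ, hg1, Fin.prod_univ_three]
    ring
  obtain ⟨b', hb'⟩ := basis_of_gram' hf (κ := Fin 3 → Fin 2) (by simp [hcard]) w (fun x => x + 1)
    (fun x => c * ∏ s, (if x s = 0 then 1 else -1)) (by
      intro x
      refine mul_ne_zero hc0 (Finset.prod_ne_zero_iff.2 fun s _ => ?_)
      split_ifs
      · exact one_ne_zero
      · exact neg_ne_zero.2 one_ne_zero) (by
      intro x y
      rw [hwf]
      simp only [Pi.add_apply, Pi.one_apply, gram_shift]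
      by_cases h : x = y
      · subst h; simp
      · rw [if_neg h]
        obtain ⟨s, hs⟩ := Function.ne_iff.1 h
        rw [Finset.prod_eq_zero (Finset.mem_univ s) (if_neg hs), mul_zero])
  refine ⟨c, b', hc0, fun x y => by rw [hb', hb', hwf], ?_, hb'⟩
  intro u v z
  have h1 : ten β v z = ∑ p : Fin 2 × Fin 2, (v p.1 * z p.2) • β p := by
    rw [ten, Fintype.sum_prod_type]
  rw [ten_expand_left, h1]
  simp only [ten_sum_right, ten_smul_right, Finset.smul_sum, smul_smul]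
  rw [← Fintype.sum_prod_type' (f := fun (i : Fin 2) (p : Fin 2 × Fin 2) => (u i * (v p.1 * z p.2)) • ten b (Pi.single i 1) (β p))]
  refine Fintype.sum_equiv
    (⟨fun p => ![p.1, p.2.1, p.2.2], fun x => (x 0, x 1, x 2), fun p => rfl, fun x => by
      ext s; fin_cases s <;> rfl⟩ : Fin 2 × Fin 2 × Fin 2 ≃ (Fin 3 → Fin 2)) _ _ fun p => ?_
  rw [hb']
  change _ = (u p.1 * v p.2.1 * z p.2.2) • ten b (Pi.single p.1 1) (β (p.2.1, p.2.2))
  rw [mul_assoc]

/-- the wreath form -/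
theorem triple_TW (b : Basis (Fin 2 × Fin 4) F (ι → F)) (β : Basis (Fin 2 × Fin 2) F (Fin 4 → F))
    (b' : Basis (Fin 3 → Fin 2) F (ι → F))
    (hexp : ∀ u v w : Fin 2 → F, ten b u (ten β v w) = ∑ y : Fin 3 → Fin 2, (u (y 0) * v (y 1) * w (y 2)) • b' y)
    (hb' : ∀ x, b' x = ten b (Pi.single (x 0) 1) (β (x 1, x 2)))
    {h : GL ι F} {A : GL (Fin 2) F} {N : GL (Fin 4) F} (hk : KA b (h : Matrix ι ι F) (A : Matrix (Fin 2) (Fin 2) F) (N : Matrix (Fin 4) (Fin 4) F))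
    {B C : GL (Fin 2) F} (hN : (∀ u v, (N : Matrix (Fin 4) (Fin 4) F) *ᵥ ten β u v = ten β ((B : Matrix (Fin 2) (Fin 2) F) *ᵥ u) ((C : Matrix (Fin 2) (Fin 2) F) *ᵥ v)) ∨
      (∀ u v, (N : Matrix (Fin 4) (Fin 4) F) *ᵥ ten β u v = ten β ((B : Matrix (Fin 2) (Fin 2) F) *ᵥ v) ((C : Matrix (Fin 2) (Fin 2) F) *ᵥ u))) :
    TW b' (h : Matrix ι ι F) := by
  rcases hN with hN | hN
  · refine ⟨1, ![A, B, C], fun x => ?_⟩
    rw [hb', ten_act b hk, ← ten_single β, hN, hexp]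
    refine Finset.sum_congr rfl fun y _ => ?_
    rw [Fin.prod_univ_three, Matrix.mulVec_single_one, Matrix.mulVec_single_one, Matrix.mulVec_single_one]
    rfl
  · refine ⟨Equiv.swap 1 2, ![A, C, B], fun x => ?_⟩
    rw [hb', ten_act b hk, ← ten_single β, hN, hexp]
    refine Fintype.sum_equiv (⟨fun y => y ∘ Equiv.swap 1 2, fun y => y ∘ Equiv.swap 1 2, fun y => by
      ext s; simp, fun y => by ext s; simp⟩ : (Fin 3 → Fin 2) ≃ (Fin 3 → Fin 2)) _ _ fun y => ?_
    rw [Fin.prod_univ_three, Matrix.mulVec_single_one, Matrix.mulVec_single_one, Matrix.mulVec_single_one]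
    have e1 : (y ∘ Equiv.swap (1 : Fin 3) 2) ∘ (Equiv.swap (1 : Fin 3) 2).symm = y := by
      ext s; simp
    change _ = _ • b' ((y ∘ Equiv.swap (1 : Fin 3) 2) ∘ (Equiv.swap (1 : Fin 3) 2).symm)
    rw [e1]
    congr 1
    change A.1 (y 0) (x 0) * B.1 (y 1) (x 2) * C.1 (y 2) (x 1) = A.1 ((y ∘ Equiv.swap (1 : Fin 3) 2) 0) (x 0) *
      C.1 ((y ∘ Equiv.swap (1 : Fin 3) 2) 1) (x 1) * B.1 ((y ∘ Equiv.swap (1 : Fin 3) 2) 2) (x 2)
    have f0 : (y ∘ Equiv.swap (1 : Fin 3) 2) 0 = y 0 := by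
      rw [Function.comp_apply, Equiv.swap_apply_of_ne_of_ne (by decide) (by decide)]
    have f1 : (y ∘ Equiv.swap (1 : Fin 3) 2) 1 = y 2 := by
      rw [Function.comp_apply, Equiv.swap_apply_left]
    have f2 : (y ∘ Equiv.swap (1 : Fin 3) 2) 2 = y 1 := by
      rw [Function.comp_apply, Equiv.swap_apply_right]
    rw [f0, f1, f2]
    ring

/-- tensor cube structure for plus type -/
theorem plus_tw {m : ℕ} (hm : m = 4) {H : Subgroup (GL (Fin m ⊕ Fin m) F)} (hmax : IsMaximalIn (spGL m F) H)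
    (b : Basis (Fin 2 × Fin 4) F (Fin m ⊕ Fin m → F))
    {f₁ : (Fin 2 → F) → (Fin 2 → F) → F} {f₂ : (Fin 4 → F) → (Fin 4 → F) → F}
    (hF₁ : FD (RingEquiv.refl F) (-1) f₁) (hF₂ : FD (RingEquiv.refl F) 1 f₂) (h2 : (2 : F) ≠ 0)
    (hform : ∀ i l j l', sympForm m F (b (i, l)) (b (j, l')) = gramMatrix f₁ i j * gramMatrix f₂ l l')
    (hkr : ∀ h ∈ H, ∃ (A : (Matrix (Fin 2) (Fin 2) F)ˣ) (N : (Matrix (Fin 4) (Fin 4) F)ˣ), KA b (h : Matrix _ _ F) A.1 N.1)
    (hp : IsPlusTypeOn (fun v : Fin 4 → F => f₂ v v) ⊤) :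
    ∃ (e : (Fin m ⊕ Fin m) ≃ (Fin 3 → Fin 2)) (P : GL (Fin m ⊕ Fin m) F) (f₁ : (Fin 2 → F) → (Fin 2 → F) → F),
      IsSymplecticForm f₁ ∧ IsTensorPowerFormStructure id (sympForm m F) f₁ e P ∧ H = tensorWreathSubgroup 2 3 e P ⊓ spGL m F := by
  classical
  have hsym := CfsgLib.SympTv29.sympForm_symplectic m F
  have hf := fd_of_symp hsym
  have hcard : Fintype.card (Fin m ⊕ Fin m) = 8 := by simp [hm]
  obtain ⟨U, _, hU, hdim⟩ := hp
  rw [finrank_top, Module.finrank_fintype_fun_eq_card, Fintype.card_fin] at hdim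
  obtain ⟨β, hβ⟩ := plus_basis hF₂ h2 (by simp) (U := U) (by omega) (fun u hu => hU u hu)
  obtain ⟨c, b', hc, hb'f, hexp, hb'⟩ := triple_basis hf hcard b hF₁ hF₂ h2 hform β hβ
  have e : (Fin m ⊕ Fin m) ≃ (Fin 3 → Fin 2) := Fintype.equivOfCardEq (by rw [hcard]; simp)
  obtain ⟨P, hP⟩ := exists_P (b'.reindex e.symm)
  refine ⟨e, P, s1, symp_of_fd s1_fd (alt_of_neg s1_fd h2), ⟨c, hc, fun x y => ?_⟩, ?_⟩
  · rw [form_P hf b' e P hP, Finset.mul_sum]
    refine Finset.sum_congr rfl fun p _ => ?_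
    rw [Finset.mul_sum]
    refine Finset.sum_congr rfl fun q _ => ?_
    rw [hb'f]
    simp only [RingEquiv.refl_apply, id]
    ring
  · refine eq_inf hmax (le_tensorWreath_P b' H ?_ e P hP) (not_tw hsym (le_refl 2) (by norm_num) e P)
    intro h hh
    obtain ⟨A, N, hk⟩ := hkr h hh
    have hiso : ∀ u v, sympForm m F ((h : Matrix _ _ F) *ᵥ u) ((h : Matrix _ _ F) *ᵥ v) = sympForm m F u v := fun u v => hmax.1.le hh u v
    obtain ⟨ν, hν, hsim⟩ := ten_sim b hf hF₁ hF₂ (by norm_num) hform hiso hk (by norm_num)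
    obtain ⟨B, C, hBC⟩ := plus_sim hF₂ h2 β hβ N hν hsim
    exact triple_TW b β b' hexp hb' hk hBC

/-- extraspecial structure for plus type over the field with three elements -/
theorem plus_R (hf : IsSymplecticForm f) (hq : Fintype.card F = 3) (b : Basis (Fin 2 × Fin 4) F (ι → F))
    {f₁ : (Fin 2 → F) → (Fin 2 → F) → F} {f₂ : (Fin 4 → F) → (Fin 4 → F) → F}
    (hF₁ : FD (RingEquiv.refl F) (-1) f₁) (hF₂ : FD (RingEquiv.refl F) 1 f₂)
    (hform : ∀ i l j l', f (b (i, l)) (b (j, l')) = gramMatrix f₁ i j * gramMatrix f₂ l l')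
    {H : Subgroup (GL ι F)} (hI : Iso f H)
    (hkr : ∀ h ∈ H, ∃ (A : (Matrix (Fin 2) (Fin 2) F)ˣ) (N : (Matrix (Fin 4) (Fin 4) F)ˣ), KA b (h : Matrix _ _ F) A.1 N.1)
    (hp : IsPlusTypeOn (fun v : Fin 4 → F => f₂ v v) ⊤) :
    ∃ R : Subgroup (GL ι F), Iso f R ∧ alg R = ⊤ ∧ ⁅R, R⁆ ≤ scalars ι F ∧ H ≤ subgroupNormalizer R := by
  classical
  have h2 := card_three_two hq
  obtain ⟨U, _, hU, hdim⟩ := hp
  rw [finrank_top, Module.finrank_fintype_fun_eq_card, Fintype.card_fin] at hdim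
  obtain ⟨β, hβ⟩ := plus_basis hF₂ h2 (by simp) (U := U) (by omega) (fun u hu => hU u hu)
  have hne : Nonempty (Fin 4) := ⟨0⟩
  refine ⟨KR b (Q8 hq) (KR β (Q8 hq) (Q8 hq)), ?_, KR_alg b (Q8_alg hq) (KR_alg β (Q8_alg hq) (Q8_alg hq)),
    KR_comm b (Q8_comm hq) (KR_comm β (Q8_comm hq) (Q8_comm hq)), ?_⟩
  · exact KR_iso b (fd_of_symp hf) hF₁ hF₂ hform (Q8_iso hq hF₁ h2) (KR_iso β hF₂ s1_fd s1_fd hβ (Q8_iso hq s1_fd h2) (Q8_iso hq s1_fd h2))
  · intro g hg
    obtain ⟨A, N, hk⟩ := hkr g hg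
    obtain ⟨ν, hν, hsim⟩ := ten_sim b (fd_of_symp hf) hF₁ hF₂ (by norm_num) hform (hI g hg) hk (by norm_num)
    refine KR_norm b hk (Q8_norm hq A) ?_
    obtain ⟨B, C, hBC⟩ := plus_sim hF₂ h2 β hβ N hν hsim
    rcases hBC with hBC | hBC
    · exact KR_norm β (KA_of_ten β hBC) (Q8_norm hq B) (Q8_norm hq C)
    · have key : ∀ (N : GL (Fin 4) F) (B C : GL (Fin 2) F), (∀ u v, (N : Matrix (Fin 4) (Fin 4) F) *ᵥ ten β u v = ten β ((B : Matrix (Fin 2) (Fin 2) F) *ᵥ v) ((C : Matrix (Fin 2) (Fin 2) F) *ᵥ u)) →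
          ∀ g ∈ KR β (Q8 (F := F) hq) (Q8 hq), N * g * N⁻¹ ∈ KR β (Q8 (F := F) hq) (Q8 hq) := by
        rintro N B C hBC g ⟨A', hA', C', hC', hg⟩
        have hinv : ∀ u v, ((N⁻¹ : GL (Fin 4) F) : Matrix (Fin 4) (Fin 4) F) *ᵥ ten β u v =
            ten β (((C⁻¹ : GL (Fin 2) F) : Matrix (Fin 2) (Fin 2) F) *ᵥ v) (((B⁻¹ : GL (Fin 2) F) : Matrix (Fin 2) (Fin 2) F) *ᵥ u) := by
          intro u v
          have h1 := hBC (((C⁻¹ : GL (Fin 2) F) : Matrix (Fin 2) (Fin 2) F) *ᵥ v) (((B⁻¹ : GL (Fin 2) F) : Matrix (Fin 2) (Fin 2) F) *ᵥ u)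
          rw [mulVec_inv_mulVec, mulVec_inv_mulVec] at h1
          rw [← h1, inv_mulVec_mulVec]
        refine ⟨B * C' * B⁻¹, (Subgroup.mem_normalizer_iff.1 (Q8_norm hq B) C').1 hC', C * A' * C⁻¹,
          (Subgroup.mem_normalizer_iff.1 (Q8_norm hq C) A').1 hA', ?_⟩
        apply KA_of_ten
        intro u v
        simp only [Units.val_mul, ← Matrix.mulVec_mulVec]
        rw [hinv, ten_act β hg, hBC]
      have hinvN : ∀ u v, ((N⁻¹ : GL (Fin 4) F) : Matrix (Fin 4) (Fin 4) F) *ᵥ ten β u v =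
            ten β (((C⁻¹ : GL (Fin 2) F) : Matrix (Fin 2) (Fin 2) F) *ᵥ v) (((B⁻¹ : GL (Fin 2) F) : Matrix (Fin 2) (Fin 2) F) *ᵥ u) := by
        intro u v
        have h1 := hBC (((C⁻¹ : GL (Fin 2) F) : Matrix (Fin 2) (Fin 2) F) *ᵥ v) (((B⁻¹ : GL (Fin 2) F) : Matrix (Fin 2) (Fin 2) F) *ᵥ u)
        rw [mulVec_inv_mulVec, mulVec_inv_mulVec] at h1
        rw [← h1, inv_mulVec_mulVec]
      refine Subgroup.mem_normalizer_iff.2 fun g => ⟨fun hg => key N B C hBC g hg, fun hg => ?_⟩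
      have := key N⁻¹ C⁻¹ B⁻¹ hinvN _ hg
      have e : N⁻¹ * (N * g * N⁻¹) * N⁻¹⁻¹ = g := by group
      rwa [e] at this

end main

end CfsgLib.SpMax19
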