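import Mathlib
import Cfsg.Agent.LibSemi2H13
import Cfsg.Agent.LibClsH13

/-! Regular unipotent elements of symplectic groups in odd characteristic. -/

namespace CfsgLib.SpReg

open Module CfsgLib.Semi CfsgLib.Reg CfsgLib.Cls

section chi

variable {F V : Type*} [Field F] [AddCommGroup V] [Module F V] [FiniteDimensional F V] {w : End F V} {n : ℕ} (h : Regular w n) (hn : 1 ≤ n)

include h hn in
theorem chi_unique {a b : F} {X : End F V} (hX : Commute X w) (ha : IsNilpotent (X - a • (1 : End F V))) (hb : IsNilpotent (X - b • (1 : End F V))) : a = b := by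
  have hc : Commute (X - a • (1 : End F V)) (X - b • (1 : End F V)) := by
    apply Commute.sub_left
    · exact (Commute.refl X).sub_right ((Commute.one_right X).smul_right b)
    · exact ((Commute.one_left _).smul_left a)
  have h1 := hc.isNilpotent_sub ha hb
  have h2 : (X - a • (1 : End F V)) - (X - b • (1 : End F V)) = (b - a) • (1 : End F V) := by
    rw [sub_smul]; abel
  rw [h2] at h1
  obtain ⟨k, hk⟩ := h1
  rw [smul_pow, one_pow] at hk
  obtain ⟨v, hv⟩ := h.exists_cyclic hn
  have hv0 : v ≠ 0 := by rintro rfl; exact hv (map_zero _)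
  have h3 := congrArg (fun Y : End F V => Y v) hk
  have h4 : (b - a) ^ k • v = 0 := h3
  have h5 := (smul_eq_zero.mp h4).resolve_right hv0
  have h6 : b - a = 0 := isNilpotent_iff_eq_zero.mp ⟨k, h5⟩
  exact (sub_eq_zero.mp h6).symm

include h in
theorem chi_mul {c d e : Fin n → F} (hcd : Regular.pol w c * Regular.pol w d = Regular.pol w e) :
    e ⟨0, hn⟩ = c ⟨0, hn⟩ * d ⟨0, hn⟩ := by
  apply chi_unique h hn (Regular.pol_comm w e) (pol_sub_nilpotent h hn e)
  rw [← hcd]
  have h1 := pol_sub_nilpotent h hn c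
  have h2 := pol_sub_nilpotent h hn d
  have hc : Commute (Regular.pol w c) (Regular.pol w d) := by
    unfold Regular.pol
    exact Commute.sum_right _ _ _ (fun i _ => ((Regular.pol_comm w c).pow_right _).smul_right _)
  have h3 : Regular.pol w c * Regular.pol w d - (c ⟨0, hn⟩ * d ⟨0, hn⟩) • (1 : End F V) =
      (Regular.pol w c - c ⟨0, hn⟩ • (1 : End F V)) * Regular.pol w d + c ⟨0, hn⟩ • (Regular.pol w d - d ⟨0, hn⟩ • (1 : End F V)) := by
    rw [sub_mul, smul_mul_assoc, one_mul, smul_sub, smul_smul]; abel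
  rw [h3]
  have c1 : Commute (Regular.pol w c - c ⟨0, hn⟩ • (1 : End F V)) (Regular.pol w d) := hc.sub_left ((Commute.one_left _).smul_left _)
  apply Commute.isNilpotent_add
  · apply Commute.smul_right
    apply Commute.mul_left
    · exact c1.sub_right ((Commute.one_right _).smul_right _)
    · exact (Commute.refl _).sub_right ((Commute.one_right _).smul_right _)
  · exact c1.isNilpotent_mul_right h1
  · obtain ⟨k, hk⟩ := h2
    exact ⟨k, by rw [smul_pow, hk, smul_zero]⟩

end chi

/-- an element `1 + nilpotent` in odd characteristic has a square root which is a power -/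
theorem exists_sqrt {F V : Type*} [Field F] [AddCommGroup V] [Module F V] {p : ℕ} [Fact p.Prime] [CharP F p] (hp : p ≠ 2)
    {E1 : End F V} (hE : IsNilpotent (E1 - 1)) : ∃ j : ℕ, E1 ^ j * E1 ^ j = E1 := by
  obtain ⟨k, hk⟩ := hE
  have hpk : k ≤ p ^ k := (Nat.lt_pow_self (Fact.out : p.Prime).one_lt).le
  rcases subsingleton_or_nontrivial (End F V) with hs | hs
  · exact ⟨0, Subsingleton.elim _ _⟩
  haveI : CharP (End F V) p := charP_of_injective_algebraMap (algebraMap F (End F V)).injective p
  have h1 : E1 ^ (p ^ k) = 1 := by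
    have h2 : (E1 - 1) ^ (p ^ k) = 0 := by
      obtain ⟨t, ht⟩ := Nat.exists_eq_add_of_le hpk
      rw [ht, pow_add, hk, zero_mul]
    rw [sub_pow_char_pow_of_commute (p := p) k (Commute.one_right E1), one_pow, sub_eq_zero] at h2
    exact h2
  have hodd : Odd (p ^ k) := ((Fact.out : p.Prime).odd_of_ne_two hp).pow
  obtain ⟨t, ht⟩ := hodd
  refine ⟨t + 1, ?_⟩
  rw [← pow_add, show t + 1 + (t + 1) = p ^ k + 1 by omega, pow_succ, h1, one_mul]

section main

variable {F V : Type*} [Field F] [AddCommGroup V] [Module F V] [FiniteDimensional F V] (B : LinearMap.BilinForm F V) (hB : B.Nondegenerate)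

theorem adj_smul (a : F) (X : End F V) : adj B hB (a • X) = a • adj B hB X := by
  ext x
  apply ext_left B hB
  intro y
  rw [adj_left, LinearMap.smul_apply, map_smul, LinearMap.smul_apply, map_smul, LinearMap.smul_apply, adj_left]

theorem adj_pow (X : End F V) (k : ℕ) : adj B hB (X ^ k) = adj B hB X ^ k := by
  induction k with
  | zero => rw [pow_zero, pow_zero, adj_one]
  | succ k ih => rw [pow_succ, adj_mul, ih, ← pow_succ']

theorem adj_sum {ι : Type*} (s : Finset ι) (f : ι → End F V) : adj B hB (∑ i ∈ s, f i) = ∑ i ∈ s, adj B hB (f i) := by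
  classical
  induction s using Finset.induction_on with
  | empty =>
    rw [Finset.sum_empty, Finset.sum_empty]
    ext x
    apply ext_left B hB
    intro y
    rw [adj_left]; simp
  | insert a s ha ih => rw [Finset.sum_insert ha, Finset.sum_insert ha, adj_add, ih]

variable {w : End F V} (hw : adj B hB w = -w)

include hw in
theorem adj_pol {n : ℕ} (c : Fin n → F) : adj B hB (Regular.pol w c) = Regular.pol w (fun i => (-1) ^ (i : ℕ) * c i) := by
  unfold Regular.pol
  rw [adj_sum]
  refine Finset.sum_congr rfl fun i _ => ?_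
  rw [adj_smul, adj_pow, hw, neg_pow, mul_smul]
  rcases Nat.even_or_odd (i : ℕ) with hi | hi
  · rw [hi.neg_one_pow, hi.neg_one_pow, one_smul, one_mul]
  · rw [hi.neg_one_pow, hi.neg_one_pow, neg_one_mul, neg_one_smul, smul_neg]

variable {n : ℕ} (h : Regular w n) (hn : 1 ≤ n)

include hw h hn in
/-- symmetric elements of the commutant -/
theorem sym_iff (h2 : (2 : F) ≠ 0) (c : Fin n → F) : adj B hB (Regular.pol w c) = Regular.pol w c ↔ ∀ i : Fin n, Odd (i : ℕ) → c i = 0 := by
  rw [adj_pol B hB hw]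
  constructor
  · intro hc i hi
    have h3 := congrFun (h.pol_injective hn hc) i
    simp only [hi.neg_one_pow] at h3
    have : 2 * c i = 0 := by linear_combination -h3
    exact (mul_eq_zero.mp this).resolve_left h2
  · intro hc
    congr 1
    funext i
    rcases Nat.even_or_odd (i : ℕ) with hi | hi
    · rw [hi.neg_one_pow, one_mul]
    · rw [hc i hi, mul_zero]

include hw h in
/-- the norm of an element of the commutant -/
theorem norm_form (h2 : (2 : F) ≠ 0) {ε : F} (hε : ε * ε = 1) (hs : ∀ x y, B x y = ε * B y x) (d : Fin n → F) :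
    ∃ c : Fin n → F, adj B hB (Regular.pol w d) * Regular.pol w d = Regular.pol w c ∧ (∀ i : Fin n, Odd (i : ℕ) → c i = 0) ∧
      c ⟨0, hn⟩ = d ⟨0, hn⟩ * d ⟨0, hn⟩ := by
  have hcomm : Commute (adj B hB (Regular.pol w d) * Regular.pol w d) w := by
    rw [adj_pol B hB hw]
    exact (Regular.pol_comm w _).mul_left (Regular.pol_comm w d)
  obtain ⟨c, hc⟩ := h.exists_pol hn hcomm
  refine ⟨c, hc, ?_, ?_⟩
  · rw [← sym_iff B hB hw h hn h2, ← hc, adj_mul, adj_adj B hB hε hs]
  · rw [adj_pol B hB hw] at hc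
    have := chi_mul h hn hc
    simpa using this

include hw h in
/-- every symmetric element with square constant term is a norm -/
theorem exists_norm {p : ℕ} [Fact p.Prime] [CharP F p] (hp : p ≠ 2) (c : Fin n → F) (hc : ∀ i : Fin n, Odd (i : ℕ) → c i = 0) {a : F}
    (ha : a ≠ 0) (hca : c ⟨0, hn⟩ = a * a) :
    ∃ d : Fin n → F, d ⟨0, hn⟩ ≠ 0 ∧ adj B hB (Regular.pol w d) * Regular.pol w d = Regular.pol w c := by
  have h2 : (2 : F) ≠ 0 := by
    intro h0
    have : ((2 : ℕ) : F) = 0 := by exact_mod_cast h0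
    rw [CharP.cast_eq_zero_iff F p] at this
    exact hp ((Nat.prime_dvd_prime_iff_eq (Fact.out : p.Prime) Nat.prime_two).mp this)
  set E0 := Regular.pol w c with hE0
  have hsym : adj B hB E0 = E0 := (sym_iff B hB hw h hn h2 c).mpr hc
  set E1 := (a * a)⁻¹ • E0 with hE1
  have haa : a * a ≠ 0 := mul_ne_zero ha ha
  have hE1n : IsNilpotent (E1 - 1) := by
    obtain ⟨k, hk⟩ := pol_sub_nilpotent h hn c
    refine ⟨k, ?_⟩
    have : E1 - 1 = (a * a)⁻¹ • (E0 - c ⟨0, hn⟩ • (1 : End F V)) := by
      rw [smul_sub, smul_smul, hca, inv_mul_cancel₀ haa, one_smul]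
    rw [this, smul_pow, hk, smul_zero]
  obtain ⟨j, hj⟩ := exists_sqrt (F := F) hp hE1n
  have hE1s : adj B hB E1 = E1 := by rw [hE1, adj_smul, hsym]
  set D := a • E1 ^ j with hD
  have hDs : adj B hB D = D := by rw [hD, adj_smul, adj_pow, hE1s]
  have hDD : D * D = E0 := by
    rw [hD, smul_mul_assoc, mul_smul_comm, smul_smul, hj, hE1, smul_smul, mul_inv_cancel₀ haa, one_smul]
  have hDw : Commute D w := by
    rw [hD, hE1]
    exact (((Regular.pol_comm w c).smul_left _).pow_left j).smul_left a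
  obtain ⟨d, hd⟩ := h.exists_pol hn hDw
  refine ⟨d, ?_, by rw [← hd, hDs, hDD]⟩
  intro hd0
  rw [hd] at hDD
  have := chi_mul h hn hDD
  rw [hd0, zero_mul, hca] at this
  exact haa this

end main

section isom

variable {F V : Type*} [Field F] [AddCommGroup V] [Module F V] [FiniteDimensional F V]

/-- `w = T - T⁻¹` is regular nilpotent if `T - 1` is. -/
theorem regular_w (T : V ≃ₗ[F] V) (h2 : (2 : F) ≠ 0) {n : ℕ} (h : Regular ((T : V →ₗ[F] V) - 1) n) :
    Regular ((T : V →ₗ[F] V) - (T.symm : V →ₗ[F] V)) n := by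
  have hTT : (T : V →ₗ[F] V) * (T.symm : V →ₗ[F] V) = (1 : End F V) := by
    ext x; show T (T.symm x) = x; rw [LinearEquiv.apply_symm_apply]
  have hTT' : (T.symm : V →ₗ[F] V) * (T : V →ₗ[F] V) = (1 : End F V) := by
    ext x; show T.symm (T x) = x; rw [LinearEquiv.symm_apply_apply]
  set N : End F V := (T : V →ₗ[F] V) - 1 with hN
  set t : End F V := (T : V →ₗ[F] V) with ht
  set s : End F V := (T.symm : V →ₗ[F] V) with hs
  have e1 : t - s = (s * (t + 1)) * N := by
    rw [hN, mul_assoc, add_mul, one_mul, mul_sub, mul_one, mul_add, mul_sub, mul_sub, mul_one, ← mul_assoc, hTT', one_mul]; abel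
  have hcN : Commute (s * (t + 1)) N := by
    have c1 : Commute s t := hTT'.trans hTT.symm
    rw [hN]
    apply Commute.sub_right _ (Commute.one_right _)
    exact Commute.mul_left c1 ((Commute.refl t).add_left (Commute.one_left t))
  have hu : IsUnit (s * (t + 1)) := by
    have hsu : IsUnit s := isUnit_iff_exists.mpr ⟨t, hTT', hTT⟩
    have h1 : t + 1 = (2 : F) • (1 : End F V) + N := by
      rw [hN, two_smul]; abel
    have h3 : IsUnit ((2 : F) • (1 : End F V) + N) := by
      have hu2 : IsUnit ((2 : F) • (1 : End F V)) := by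
        refine isUnit_iff_exists.mpr ⟨(2 : F)⁻¹ • 1, ?_, ?_⟩
        · rw [smul_mul_smul_comm, mul_one, mul_inv_cancel₀ h2, one_smul]
        · rw [smul_mul_smul_comm, mul_one, inv_mul_cancel₀ h2, one_smul]
      have hNn : IsNilpotent N := ⟨n, h.nil⟩
      exact hNn.isUnit_add_left_of_commute hu2 ((Commute.one_right N).smul_right _)
    rw [← h1] at h3
    exact hsu.mul h3
  refine ⟨?_, ?_, h.dim⟩
  · rw [e1, hcN.mul_pow, h.nil, mul_zero]
  · rw [e1]
    have hinj := ((Module.End.isUnit_iff _).mp hu).1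
    rw [← h.rank]
    have : LinearMap.range ((s * (t + 1)) * N) = (LinearMap.range N).map (s * (t + 1)) := LinearMap.range_comp _ _
    rw [this]
    exact (Submodule.equivMapOfInjective _ hinj _).finrank_eq.symm

theorem adj_w (B : LinearMap.BilinForm F V) (hB : B.Nondegenerate) (T : V ≃ₗ[F] V) (hT : ∀ x y, B (T x) (T y) = B x y) :
    adj B hB ((T : V →ₗ[F] V) - (T.symm : V →ₗ[F] V)) = -((T : V →ₗ[F] V) - (T.symm : V →ₗ[F] V)) := by
  have hT' : ∀ x y, B (T.symm x) (T.symm y) = B x y := by
    intro x y; rw [← hT, LinearEquiv.apply_symm_apply, LinearEquiv.apply_symm_apply]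
  have h1 := adj_isom B hB T hT
  have h2 := adj_isom B hB T.symm hT'
  rw [LinearEquiv.symm_symm] at h2
  have h3 : ((T : V →ₗ[F] V) - (T.symm : V →ₗ[F] V)) = (T : V →ₗ[F] V) + (-1 : F) • (T.symm : V →ₗ[F] V) := by
    rw [neg_one_smul, sub_eq_add_neg]
  rw [h3, adj_add, adj_smul, h1, h2, neg_one_smul, neg_one_smul]; abel

end isom

end CfsgLib.SpReg
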