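import Cfsg.Agent.LibSubfield29d
import Cfsg.Agent.LibSympTv29e

/-! Overgroups of Sp(F₀) in Sp(F): rational root elements. -/

namespace CfsgLib.SpSub29

open scoped MatrixGroups Matrix
open Cfsg CfsgLib.MaxTv29 CfsgLib.SympTv29 CfsgLib.Subfield29

/-- a finite group with an abelian p-subgroup controlling all its fusion: normal complement and fusion of cosets -/
theorem frob_abelian {K : Type*} [Group K] [Finite K] {p : ℕ} [Fact p.Prime] (U : Subgroup K) (hUp : IsPGroup p U)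
    (hU1 : ∃ s ∈ U, s ≠ 1) (hcomm : ∀ k ∈ U, ∀ l ∈ U, k * l = l * k)
    (h : ∀ s ∈ U, s ≠ 1 → ∀ k : K, k * s * k⁻¹ ∈ U → k ∈ U) :
    ∃ N : Subgroup K, N.Normal ∧ (∀ x ∈ N, x ∈ U → x = 1) ∧ ((∀ x ∈ N, x = 1) → ∀ x, x ∈ U) ∧
      ∀ x ∈ N, ∀ s ∈ U, s ≠ 1 → ∃ y, x * s = y * s * y⁻¹ := by
  obtain ⟨s1, hs1U, hs1ne⟩ := hU1
  obtain ⟨P, hUP⟩ := hUp.exists_le_sylow
  have hPU : (P : Subgroup K) ≤ U := by
    have hs1P : s1 ∈ (P : Subgroup K) := hUP hs1U
    haveI : Nontrivial P := ⟨⟨⟨s1, hs1P⟩, 1, fun h => hs1ne (congrArg Subtype.val h)⟩⟩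
    haveI := P.2.center_nontrivial
    obtain ⟨⟨z, hzc⟩, hz1⟩ := exists_ne (1 : Subgroup.center P)
    have hzne : (z : K) ≠ 1 := fun h => hz1 (Subtype.ext (Subtype.ext h))
    have hzcomm : ∀ y : P, (y : K) * (z : K) = (z : K) * (y : K) := fun y => congrArg Subtype.val (Subgroup.mem_center_iff.mp hzc y)
    have hzU : (z : K) ∈ U := by
      apply h s1 hs1U hs1ne
      have h1 := hzcomm ⟨s1, hs1P⟩
      rw [← h1]
      simpa using hs1U
    intro y hy
    apply h z hzU hzne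
    rw [hzcomm ⟨y, hy⟩]
    simpa using hzU
  have hPeq : (P : Subgroup K) = U := le_antisymm hPU hUP
  have hPn : Subgroup.normalizer (P : Set K) ≤ Subgroup.centralizer (P : Set K) := by
    intro k hk
    have hkU : k ∈ U := h s1 hs1U hs1ne k (hPU ((Subgroup.mem_normalizer_iff.mp hk s1).mp (hUP hs1U)))
    rw [Subgroup.mem_centralizer_iff]
    intro l hl
    exact hcomm l (hPU hl) k hkU
  haveI : (P : Subgroup K).FiniteIndex := inferInstance
  have hcompl := MonoidHom.ker_transferSylow_isComplement' P hPn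
  refine ⟨(MonoidHom.transferSylow P hPn).ker, inferInstance, ?_, ?_, ?_⟩
  · intro x h1 h2
    exact hcompl.disjoint.le_bot (show x ∈ (MonoidHom.transferSylow P hPn).ker ⊓ P from ⟨h1, hUP h2⟩)
  · intro hN x
    have hNbot : (MonoidHom.transferSylow P hPn).ker = ⊥ := by
      rw [eq_bot_iff]
      intro x hx
      exact Subgroup.mem_bot.mpr (hN x hx)
    rw [hNbot] at hcompl
    have := Subgroup.isComplement'_bot_left.mp hcompl
    rw [← hPeq, this]; exact Subgroup.mem_top _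
  · have hNP : ∀ x, x ∈ (MonoidHom.transferSylow P hPn).ker → x ∈ U → x = 1 := by
      intro x h1 h2
      exact hcompl.disjoint.le_bot (show x ∈ (MonoidHom.transferSylow P hPn).ker ⊓ P from ⟨h1, hUP h2⟩)
    intro x hx s hsU hs1
    have hNn : (MonoidHom.transferSylow P hPn).ker.Normal := inferInstance
    let fN : (MonoidHom.transferSylow P hPn).ker → (MonoidHom.transferSylow P hPn).ker :=
      fun y => ⟨y * (s * (y : K)⁻¹ * s⁻¹), (MonoidHom.transferSylow P hPn).ker.mul_mem y.2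
        (hNn.conj_mem _ ((MonoidHom.transferSylow P hPn).ker.inv_mem y.2) s)⟩
    have hf : Function.Injective fN := by
      intro y z hyz
      have h1 : (y : K) * (s * (y : K)⁻¹ * s⁻¹) = z * (s * (z : K)⁻¹ * s⁻¹) := congrArg Subtype.val hyz
      have h2 : ((z : K)⁻¹ * y) * s = s * ((z : K)⁻¹ * y) := by
        have h3 : (z : K)⁻¹ * (y * (s * (y : K)⁻¹ * s⁻¹)) * s * y = (z : K)⁻¹ * (z * (s * (z : K)⁻¹ * s⁻¹)) * s * y := by rw [h1]
        have e1 : (z : K)⁻¹ * (y * (s * (y : K)⁻¹ * s⁻¹)) * s * y = ((z : K)⁻¹ * y) * s := by group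
        have e2 : (z : K)⁻¹ * (z * (s * (z : K)⁻¹ * s⁻¹)) * s * y = s * ((z : K)⁻¹ * y) := by group
        rw [e1, e2] at h3
        exact h3
      have h3 : ((z : K)⁻¹ * y) ∈ U := by
        apply h s hsU hs1
        rw [h2, mul_inv_cancel_right]; exact hsU
      have h4 := hNP _ ((MonoidHom.transferSylow P hPn).ker.mul_mem ((MonoidHom.transferSylow P hPn).ker.inv_mem z.2) y.2) h3
      exact Subtype.ext (inv_mul_eq_one.mp h4).symm
    obtain ⟨y, hy⟩ := (Finite.injective_iff_surjective.mp hf) ⟨x, hx⟩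
    have h1 : (y : K) * (s * (y : K)⁻¹ * s⁻¹) = x := congrArg Subtype.val hy
    exact ⟨y, by rw [← h1]; group⟩

section avoid
variable {ι : Type} [Fintype ι] [DecidableEq ι] {K : Type*} [Field K] {g : (ι → K) → (ι → K) → K}

theorem exists_perp_avoid (hg : Geo.IsSymplecticForm g) (L : List (ι → K)) (A B : Submodule K (ι → K))
    (hA : Module.finrank K A ≤ 2) (hB : Module.finrank K B ≤ 2) (h : L.length + 2 < Fintype.card ι) :
    ∃ x, (∀ v ∈ L, g v x = 0) ∧ x ∉ A ∧ x ∉ B := by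
  set W := Submodule.span K {x | x ∈ L} with hW
  have h1 : Module.finrank K W ≤ L.length := finrank_span_list_le L
  have h2 := finrank_perp_ge hg W
  rw [Module.finrank_fintype_fun_eq_card] at h2
  by_contra hcon
  push Not at hcon
  have h3 : ∀ x ∈ perp hg W, x ∈ A ∨ x ∈ B := by
    intro x hx
    by_cases hxA : x ∈ A
    · exact Or.inl hxA
    · right
      exact hcon x (fun v hv => hx v (Submodule.subset_span hv)) hxA
  rcases le_or_le' _ _ _ h3 with h4 | h4
  · have := Submodule.finrank_mono h4; omega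
  · have := Submodule.finrank_mono h4; omega

omit [Fintype ι] [DecidableEq ι] in
theorem finrank_pair_le (p q : ι → K) : Module.finrank K (Submodule.span K {p, q}) ≤ 2 := by
  classical
  have := finrank_span_finset_le_card (R := K) ({p, q} : Finset (ι → K))
  rw [Finset.coe_pair] at this
  exact this.trans Finset.card_le_two

theorem exists_dualv (hg : Geo.IsSymplecticForm g) (L : List (ι → K)) (x : ι → K) (hx : x ∉ Submodule.span K {x | x ∈ L}) :
    ∃ z, g x z = 1 ∧ ∀ w ∈ L, g w z = 0 := by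
  obtain ⟨z, h1, h2⟩ := exists_perp hg _ x hx
  exact ⟨z, h1, fun w hw => h2 w (Submodule.subset_span hw)⟩

omit [Fintype ι] [DecidableEq ι] in
theorem span_list_pair (a b : ι → K) : Submodule.span K {x | x ∈ [a, b]} = Submodule.span K {a, b} := by
  congr 1; ext x; simp

omit [Fintype ι] [DecidableEq ι] in
/-- exchange -/
theorem notMem_pair {a b e : ι → K} (hab : b ∉ Submodule.span K {a}) (he : e ∉ Submodule.span K {a, b}) : b ∉ Submodule.span K {a, e} := by
  intro h
  obtain ⟨α, β, h1⟩ := Submodule.mem_span_pair.mp h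
  by_cases hβ : β = 0
  · apply hab
    rw [Submodule.mem_span_singleton]
    exact ⟨α, by rw [← h1, hβ, zero_smul, add_zero]⟩
  · apply he
    rw [Submodule.mem_span_pair]
    refine ⟨-(β⁻¹ * α), β⁻¹, ?_⟩
    rw [← h1, smul_add, smul_smul, smul_smul, inv_mul_cancel₀ hβ]
    module

end avoid

variable {ι : Type} [Fintype ι] [DecidableEq ι] {F : Type*} [Field F]
variable {f : (ι → F) → (ι → F) → F}

theorem sg_conj (hf : Geo.IsSymplecticForm f) {g : GL ι F} (hg : g ∈ iso f) (a b : ι → F) :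
    g * sg hf a b * g⁻¹ = sg hf ((g : Matrix ι ι F) *ᵥ a) ((g : Matrix ι ι F) *ᵥ b) := by
  unfold sg
  rw [← Matrix.mulVec_add, ← st_conj hf g hg, ← st_conj hf g hg, ← st_conj hf g hg]
  group

theorem sg_mem_conj (hf : Geo.IsSymplecticForm f) {M : Subgroup (GL ι F)} {g : GL ι F} (hgM : g ∈ M) (hg : g ∈ iso f) {a b : ι → F}
    (h : sg hf a b ∈ M) : sg hf ((g : Matrix ι ι F) *ᵥ a) ((g : Matrix ι ι F) *ᵥ b) ∈ M := by
  rw [← sg_conj hf hg]
  exact M.mul_mem (M.mul_mem hgM h) (M.inv_mem hgM)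

theorem sg_comm (hf : Geo.IsSymplecticForm f) {a b : ι → F} (h : f a b = 0) : sg hf a b = sg hf b a := by
  apply gl_ext
  intro x
  rw [sg_mulVec hf a b h, sg_mulVec hf b a (swap_eq hf h)]
  abel

theorem sg_smul (hf : Geo.IsSymplecticForm f) {a b : ι → F} (h : f a b = 0) (c : F) : sg hf (c • a) b = sg hf a (c • b) := by
  apply gl_ext
  intro x
  rw [sg_mulVec hf _ _ (by rw [hf.bilinear.smul_left, h, mul_zero]), sg_mulVec hf _ _ (by rw [hf.bilinear.smul_right, h, mul_zero]),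
    hf.bilinear.smul_right, hf.bilinear.smul_right]
  module

theorem sg_mul_add (hf : Geo.IsSymplecticForm f) {a b b' : ι → F} (h : f a b = 0) (h' : f a b' = 0) (hb : f b b' = 0) :
    sg hf a b * sg hf a b' = sg hf a (b + b') := by
  apply gl_ext
  intro x
  rw [Units.val_mul, ← Matrix.mulVec_mulVec, sg_mulVec hf _ _ h', sg_mulVec hf _ _ h, sg_mulVec hf _ _ (by rw [hf.bilinear.add_right, h, h', add_zero])]
  simp only [hf.bilinear.add_left, hf.bilinear.add_right, hf.bilinear.smul_left, hf.alternating, h, swap_eq hf h', swap_eq hf hb]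
  module

theorem sg_right_mem (hf : Geo.IsSymplecticForm f) {M : Subgroup (GL ι F)} {a b b' : ι → F} (h : f a b = 0) (h' : f a b' = 0) (hb : f b b' = 0)
    (h1 : sg hf a (b + b') ∈ M) (h2 : sg hf a b ∈ M) : sg hf a b' ∈ M := by
  rw [← sg_mul_add hf h h' hb] at h1
  have := M.mul_mem (M.inv_mem h2) h1
  rwa [inv_mul_cancel_left] at this

variable (F₀ : Subfield F) {f₀ : (ι → F₀) → (ι → F₀) → F₀}

/-- `s_{a,b}(c) ∈ M` for rational vectors -/
def RS (hf : Geo.IsSymplecticForm f) (M : Subgroup (GL ι F)) (a b : ι → F₀) (c : F) : Prop := sg hf (c • emb F₀ a) (emb F₀ b) ∈ M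

section rs
variable (hf : Geo.IsSymplecticForm f) (hf₀ : Geo.IsSymplecticForm f₀) (hc : ∀ x y, f (emb F₀ x) (emb F₀ y) = (f₀ x y : F))
  {M : Subgroup (GL ι F)}
include hc

omit [DecidableEq ι] [Fintype ι] in
theorem comp_zero {x y : ι → F₀} (h : f₀ x y = 0) : f (emb F₀ x) (emb F₀ y) = 0 := by rw [hc, h]; rfl

omit [DecidableEq ι] [Fintype ι] in
theorem comp_one {x y : ι → F₀} (h : f₀ x y = 1) : f (emb F₀ x) (emb F₀ y) = 1 := by rw [hc, h]; rfl

variable (hM : ∀ (a : ι → F₀) (l : F₀), st hf (emb F₀ a) (l : F) ∈ M)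

omit hc in
include hM in
theorem sg_rat (a b : ι → F₀) : sg hf (emb F₀ a) (emb F₀ b) ∈ M := by
  unfold sg
  have h1 := hM (a + b) 1
  have h2 := hM a (-1)
  have h3 := hM b (-1)
  rw [emb_add] at h1
  push_cast at h1 h2 h3
  exact M.mul_mem (M.mul_mem h1 h2) h3

omit hc in
include hM in
theorem RS.of_rat (a b : ι → F₀) (l : F₀) : RS F₀ hf M a b (l : F) := by
  unfold RS
  rw [← emb_smul]
  exact sg_rat F₀ hf hM _ _

include hf₀ in
theorem RS.comm {a b : ι → F₀} (h0 : f₀ a b = 0) {c : F} (h : RS F₀ hf M a b c) : RS F₀ hf M b a c := by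
  unfold RS at h ⊢
  rw [sg_comm hf (by rw [hf.bilinear.smul_left, hc, swap_eq hf₀ h0]; simp), ← sg_smul hf (comp_zero F₀ hc h0)]
  exact h

include hM hf₀ in
theorem RS.step {a b e : ι → F₀} (h0 : f₀ a b = 0) {c : F} (h : RS F₀ hf M a b c) (hae : f₀ a e = 0) (hbe : f₀ b e = 0)
    (hb : b ∉ Submodule.span F₀ {a, e}) : RS F₀ hf M a e c := by
  obtain ⟨d, hd1, hd2⟩ := exists_dualv hf₀ [a, e] b (by rw [span_list_pair]; exact hb)
  have hda := hd2 a (by simp)
  have hde := hd2 e (by simp)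
  have h1 := sg_mem_conj hf (sg_rat F₀ hf hM d e) (sg_mem_iso hf _ _) h
  rw [sg_mulVec hf _ _ (comp_zero F₀ hc (swap_eq hf₀ hde)), sg_mulVec hf _ _ (comp_zero F₀ hc (swap_eq hf₀ hde)),
    hf.bilinear.smul_left, hf.bilinear.smul_left, comp_zero F₀ hc hda, comp_zero F₀ hc hae, comp_zero F₀ hc hbe, comp_one F₀ hc hd1] at h1
  simp only [mul_zero, zero_smul, add_zero, one_smul] at h1
  exact sg_right_mem hf (by rw [hf.bilinear.smul_left, comp_zero F₀ hc h0, mul_zero])
    (by rw [hf.bilinear.smul_left, comp_zero F₀ hc hae, mul_zero]) (comp_zero F₀ hc hbe) h1 h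

include hM hf₀ in
theorem RS.all (hn : 7 ≤ Fintype.card ι) {a b : ι → F₀} (h0 : f₀ a b = 0) {c : F} (h : RS F₀ hf M a b c) (hab : b ∉ Submodule.span F₀ {a}) (ha : a ≠ 0)
    {a' b' : ι → F₀} (h0' : f₀ a' b' = 0) : RS F₀ hf M a' b' c := by
  obtain ⟨e, he, he1, he2⟩ := exists_perp_avoid hf₀ [a, b, a', b'] (Submodule.span F₀ {a, b}) (Submodule.span F₀ {a', b'})
    (finrank_pair_le _ _) (finrank_pair_le _ _) (by simp; omega)
  obtain ⟨e', he', he1', he2'⟩ := exists_perp_avoid hf₀ [a, a', b', e] (Submodule.span F₀ {e, a}) (Submodule.span F₀ {e, a'})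
    (finrank_pair_le _ _) (finrank_pair_le _ _) (by simp; omega)
  have e1 := he a (by simp)
  have e2 := he b (by simp)
  have e3 := he a' (by simp)
  have e4 := he b' (by simp)
  have e5 := he' a (by simp)
  have e6 := he' a' (by simp)
  have e8 := he' e (by simp)
  have he0 : e ≠ 0 := by rintro rfl; exact he1 (Submodule.zero_mem _)
  have s1 : RS F₀ hf M a e c := RS.step F₀ hf hf₀ hc hM h0 h e1 e2 (notMem_pair hab he1)
  have s2 : RS F₀ hf M e a c := RS.comm F₀ hf hf₀ hc e1 s1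
  have s3 : RS F₀ hf M e e' c := by
    refine RS.step F₀ hf hf₀ hc hM (swap_eq hf₀ e1) s2 e8 e5 (notMem_pair ?_ he1')
    intro hcon
    obtain ⟨k, hk⟩ := Submodule.mem_span_singleton.mp hcon
    have hk0 : k ≠ 0 := by rintro rfl; rw [zero_smul] at hk; exact ha hk.symm
    apply he1
    rw [Submodule.mem_span_pair]
    exact ⟨k⁻¹, 0, by rw [← hk, smul_smul, inv_mul_cancel₀ hk0]; simp⟩
  have s4 : RS F₀ hf M e a' c := by
    refine RS.step F₀ hf hf₀ hc hM e8 s3 (swap_eq hf₀ e3) (swap_eq hf₀ e6) he2'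
  have s5 : RS F₀ hf M a' e c := RS.comm F₀ hf hf₀ hc (swap_eq hf₀ e3) s4
  exact RS.step F₀ hf hf₀ hc hM e3 s5 h0' (swap_eq hf₀ e4) he2

theorem RS.add {a b : ι → F₀} (h0 : f₀ a b = 0) {c d : F} (h : RS F₀ hf M a b c) (h' : RS F₀ hf M a b d) : RS F₀ hf M a b (c + d) := by
  have hab := comp_zero F₀ hc h0
  unfold RS at h h' ⊢
  rw [sg_smul hf hab] at h h' ⊢
  have := M.mul_mem h h'
  rwa [sg_mul_add hf (by rw [hf.bilinear.smul_right, hab, mul_zero]) (by rw [hf.bilinear.smul_right, hab, mul_zero])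
    (by rw [hf.bilinear.smul_right, hf.bilinear.smul_left, hf.alternating]; ring), ← add_smul] at this

theorem RS.mul {a b a' b' : ι → F₀} (h0 : f₀ a b = 0) (h0' : f₀ a' b' = 0) (h1 : f₀ b a' = 1) (h2 : f₀ a a' = 0) (h3 : f₀ a b' = 0) (h4 : f₀ b b' = 0)
    {c d : F} (h : RS F₀ hf M a b c) (h' : RS F₀ hf M a' b' d) : RS F₀ hf M a b' (c * d) := by
  have h5 := sg_mem_conj hf h' (sg_mem_iso hf _ _) h
  rw [sg_mulVec hf _ _ (by rw [hf.bilinear.smul_left, comp_zero F₀ hc h0', mul_zero]),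
    sg_mulVec hf _ _ (by rw [hf.bilinear.smul_left, comp_zero F₀ hc h0', mul_zero])] at h5
  simp only [hf.bilinear.smul_left, hf.bilinear.smul_right, comp_zero F₀ hc h2, comp_zero F₀ hc h3, comp_zero F₀ hc h4,
    comp_one F₀ hc h1, mul_zero, zero_smul, add_zero, mul_one] at h5
  have h6 := sg_right_mem hf (by rw [hf.bilinear.smul_left, comp_zero F₀ hc h0, mul_zero])
    (by rw [hf.bilinear.smul_left, hf.bilinear.smul_right, comp_zero F₀ hc h3, mul_zero, mul_zero])
    (by rw [hf.bilinear.smul_right, comp_zero F₀ hc h4, mul_zero]) h5 h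
  unfold RS
  rw [mul_comm, mul_smul, sg_smul hf (by rw [hf.bilinear.smul_left, comp_zero F₀ hc h3, mul_zero])]
  exact h6

end rs

/-- coefficient algebra for short root elements -/
def coefS (hf : Geo.IsSymplecticForm f) (hf₀ : Geo.IsSymplecticForm f₀) (hc : ∀ x y, f (emb F₀ x) (emb F₀ y) = (f₀ x y : F))
    (M : Subgroup (GL ι F)) (hM : ∀ (a : ι → F₀) (l : F₀), st hf (emb F₀ a) (l : F) ∈ M) (hn : 7 ≤ Fintype.card ι) : Subalgebra F₀ F where
  carrier := {c | ∀ a b, f₀ a b = 0 → RS F₀ hf M a b c}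
  mul_mem' := by
    intro c d hcm hdm
    obtain ⟨a, _, ha, _⟩ := exists_perp_avoid hf₀ [] ⊥ ⊥ (by simp) (by simp) (by simp; omega)
    have ha0 : a ≠ 0 := fun h => ha (by rw [h]; exact Submodule.zero_mem _)
    obtain ⟨b, hb, hb1, _⟩ := exists_perp_avoid hf₀ [a] (Submodule.span F₀ {a, a}) ⊥ (finrank_pair_le _ _) (by simp) (by simp; omega)
    obtain ⟨b', hb', hb1', _⟩ := exists_perp_avoid hf₀ [a, b] (Submodule.span F₀ {a, b}) ⊥ (finrank_pair_le _ _) (by simp) (by simp; omega)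
    have hba : b ∉ Submodule.span F₀ {a} := by rwa [Set.pair_eq_singleton] at hb1
    obtain ⟨a', ha1', ha2'⟩ := exists_dualv hf₀ [a, b'] b (by
      rw [span_list_pair]; exact notMem_pair hba hb1')
    have e1 := hb a (by simp)
    have e2 := hb' a (by simp)
    have e3 := hb' b (by simp)
    have e4 := ha2' a (by simp)
    have e5 := ha2' b' (by simp)
    have h1 := RS.mul F₀ hf hc e1 (swap_eq hf₀ e5) ha1' e4 e2 e3 (hcm a b e1) (hdm a' b' (swap_eq hf₀ e5))
    intro x y hxy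
    exact RS.all F₀ hf hf₀ hc hM hn e2 h1 (by
      intro hcon
      apply hb1'
      obtain ⟨k, hk⟩ := Submodule.mem_span_singleton.mp hcon
      exact Submodule.mem_span_pair.mpr ⟨k, 0, by rw [zero_smul, add_zero]; exact hk⟩) ha0 hxy
  add_mem' := by
    intro c d hcm hdm a b h
    exact RS.add F₀ hf hc h (hcm a b h) (hdm a b h)
  algebraMap_mem' := by
    intro k a b _
    exact RS.of_rat F₀ hf hM a b k

end CfsgLib.SpSub29
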