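import Cfsg.Agent.LibSpSub29

/-! Overgroups of Sp(F₀) in Sp(F): consequences of the coefficient algebra. -/

namespace CfsgLib.SpSub29

open scoped MatrixGroups Matrix
open Cfsg CfsgLib.MaxTv29 CfsgLib.SympTv29 CfsgLib.Subfield29

variable {ι : Type} [Fintype ι] [DecidableEq ι] {F : Type*} [Field F]
variable {f : (ι → F) → (ι → F) → F}

theorem st_add (hf : Geo.IsSymplecticForm f) (v : ι → F) (c d : F) : st hf v c * st hf v d = st hf v (c + d) := by
  apply gl_ext
  intro x
  rw [Units.val_mul, ← Matrix.mulVec_mulVec, st_mulVec, st_mulVec, st_mulVec, hf.bilinear.add_left, hf.bilinear.smul_left, hf.alternating]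
  module

/-- `st (u + v) c` for orthogonal `u, v` -/
theorem st_sum (hf : Geo.IsSymplecticForm f) {u v : ι → F} (h : f u v = 0) (c : F) : st hf (u + v) c = sg hf (c • u) v * st hf u c * st hf v c := by
  apply gl_ext
  intro x
  rw [Units.val_mul, Units.val_mul, ← Matrix.mulVec_mulVec, ← Matrix.mulVec_mulVec, sg_mulVec hf _ _ (by rw [hf.bilinear.smul_left, h, mul_zero]),
    st_mulVec, st_mulVec, st_mulVec]
  simp only [hf.bilinear.add_left, hf.bilinear.add_right, hf.bilinear.smul_left, hf.bilinear.smul_right, hf.alternating, h, swap_eq hf h]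
  module

theorem st_mem_conj (hf : Geo.IsSymplecticForm f) {M : Subgroup (GL ι F)} {g : GL ι F} (hgM : g ∈ M) (hg : g ∈ iso f) {v : ι → F} {c : F}
    (h : st hf v c ∈ M) : st hf ((g : Matrix ι ι F) *ᵥ v) c ∈ M := by
  rw [← st_conj hf g hg]
  exact M.mul_mem (M.mul_mem hgM h) (M.inv_mem hgM)

variable (F₀ : Subfield F) {f₀ : (ι → F₀) → (ι → F₀) → F₀}

section rs
variable (hf : Geo.IsSymplecticForm f) (hf₀ : Geo.IsSymplecticForm f₀) (hc : ∀ x y, f (emb F₀ x) (emb F₀ y) = (f₀ x y : F))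
  {M : Subgroup (GL ι F)} (hM : ∀ (a : ι → F₀) (l : F₀), st hf (emb F₀ a) (l : F) ∈ M)
include hc hf₀ hM

/-- move along the rational transvections -/
theorem exists_move_rat {u v : ι → F₀} (hu : u ≠ 0) (hv : v ≠ 0) : ∃ g ∈ M, g ∈ iso f ∧ (g : Matrix ι ι F) *ᵥ emb F₀ u = emb F₀ v := by
  obtain ⟨w, h1, h2⟩ := exists_both hf₀ hu hv
  have key : ∀ (x y : ι → F₀), f₀ x y ≠ 0 → ((st hf (emb F₀ (y - x)) ((f₀ x y)⁻¹ : F₀) : GL ι F) : Matrix ι ι F) *ᵥ emb F₀ x = emb F₀ y := by
    intro x y hxy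
    rw [st_mulVec, hc, sub_right hf₀, hf₀.alternating, sub_zero, ← Subfield.coe_mul, inv_mul_cancel₀ hxy, OneMemClass.coe_one, one_smul]
    funext i
    simp [emb]
  refine ⟨st hf (emb F₀ (v - w)) ((f₀ w v)⁻¹ : F₀) * st hf (emb F₀ (w - u)) ((f₀ u w)⁻¹ : F₀), M.mul_mem (hM _ _) (hM _ _),
    (iso f).mul_mem (st_mem_iso hf _ _) (st_mem_iso hf _ _), ?_⟩
  rw [Units.val_mul, ← Matrix.mulVec_mulVec, key u w h1, key w v (swap_ne hf₀ h2)]

/-- from a long root element with coefficient `c` to the short ones -/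
theorem rs_of_st (hn : 7 ≤ Fintype.card ι) {b : ι → F₀} (hb : b ≠ 0) {c : F} (h : st hf (emb F₀ b) c ∈ M) :
    ∀ x y, f₀ x y = 0 → RS F₀ hf M x y c := by
  obtain ⟨d, hd, hd1, _⟩ := exists_perp_avoid hf₀ [b] (Submodule.span F₀ {b, b}) ⊥ (finrank_pair_le _ _) (by simp) (by simp; omega)
  have hbd := hd b (by simp)
  rw [Set.pair_eq_singleton] at hd1
  have hd0 : d ≠ 0 := by rintro rfl; exact hd1 (Submodule.zero_mem _)
  have hsum0 : b + d ≠ 0 := by
    intro h0
    apply hd1
    rw [Submodule.mem_span_singleton]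
    exact ⟨-1, by rw [neg_smul, one_smul]; exact (eq_neg_of_add_eq_zero_right h0).symm⟩
  obtain ⟨g1, hg1, hg1i, e1⟩ := exists_move_rat F₀ hf hf₀ hc hM hb hd0
  obtain ⟨g2, hg2, hg2i, e2⟩ := exists_move_rat F₀ hf hf₀ hc hM hb hsum0
  have h1 := st_mem_conj hf hg1 hg1i h
  have h2 := st_mem_conj hf hg2 hg2i h
  rw [e1] at h1
  rw [e2, emb_add, st_sum hf (comp_zero F₀ hc hbd)] at h2
  have h3 : RS F₀ hf M b d c := by
    have := M.mul_mem (M.mul_mem h2 (M.inv_mem h1)) (M.inv_mem h)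
    rwa [mul_inv_cancel_right, mul_inv_cancel_right] at this
  intro x y hxy
  exact RS.all F₀ hf hf₀ hc hM hn hbd h3 hd1 hb hxy

/-- if all coefficients occur in short root elements then `M` is everything -/
theorem iso_le_of_coefS [Finite F] (hn : 7 ≤ Fintype.card ι) (hall : ∀ (c : F) (a b : ι → F₀), f₀ a b = 0 → RS F₀ hf M a b c) : iso f ≤ M := by
  -- squares for rational long root elements
  have hsq : ∀ (b : ι → F₀) (c : F), b ≠ 0 → st hf (emb F₀ b) (c ^ 2) ∈ M := by
    intro b c hb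
    obtain ⟨d, hd, hd1, _⟩ := exists_perp_avoid hf₀ [b] (Submodule.span F₀ {b, b}) ⊥ (finrank_pair_le _ _) (by simp) (by simp; omega)
    rw [Set.pair_eq_singleton] at hd1
    have hbd := hd b (by simp)
    obtain ⟨a, ha1, ha2⟩ := exists_dualv hf₀ [b] d (by
      have : Submodule.span F₀ {x | x ∈ [b]} = Submodule.span F₀ {b} := by congr 1; ext x; simp
      rw [this]; exact hd1)
    have hba := ha2 b (by simp)
    -- conjugate st d by s_{a,b}(c)
    have h1 := hall c a b (swap_eq hf₀ hba)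
    have h2 := st_mem_conj hf h1 (sg_mem_iso hf _ _) (by have := hM d 1; push_cast at this; exact this)
    rw [sg_mulVec hf _ _ (by rw [hf.bilinear.smul_left, comp_zero F₀ hc (swap_eq hf₀ hba), mul_zero]), hf.bilinear.smul_right,
      comp_one F₀ hc ha1, comp_zero F₀ hc (swap_eq hf₀ hbd), zero_smul, add_zero, mul_one] at h2
    rw [st_sum hf (by rw [hf.bilinear.smul_right, comp_zero F₀ hc (swap_eq hf₀ hbd), mul_zero])] at h2
    have h3 : sg hf ((1 : F) • emb F₀ d) (c • emb F₀ b) ∈ M := by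
      rw [one_smul, ← sg_smul hf (comp_zero F₀ hc (swap_eq hf₀ hbd))]
      exact hall c d b (swap_eq hf₀ hbd)
    have h4 : st hf (emb F₀ d) 1 ∈ M := by have := hM d 1; push_cast at this; exact this
    have h5 := M.mul_mem (M.inv_mem (M.mul_mem h3 h4)) h2
    rw [inv_mul_cancel_left] at h5
    have : st hf (c • emb F₀ b) 1 = st hf (emb F₀ b) (c ^ 2) := by
      apply gl_ext
      intro x
      rw [st_mulVec, st_mulVec, hf.bilinear.smul_right, smul_smul]
      congr 2
      ring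
    rwa [this] at h5
  have hrat : ∀ (b : ι → F₀), SFull hf M (emb F₀ b) := by
    intro b
    by_cases hb : b = 0
    · subst hb; rw [emb_zero]; exact sfull_zero hf M
    intro c
    by_cases h2 : (2 : F) = 0
    · haveI : CharP F 2 := CharTwo.of_one_ne_zero_of_two_eq_zero one_ne_zero h2
      haveI := Fintype.ofFinite F
      haveI : Fact (Nat.Prime 2) := ⟨Nat.prime_two⟩
      obtain ⟨d, hd⟩ := (frobeniusEquiv F 2).surjective c
      have : d ^ 2 = c := by rw [← hd]; rfl
      rw [← this]; exact hsq b d hb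
    · have e : c = (c + 1) ^ 2 * (2⁻¹ : F) ^ 2 + - ((c - 1) ^ 2 * (2⁻¹) ^ 2) := by
        field_simp; ring
      rw [e, ← st_add, ← mul_pow, ← mul_pow]
      refine M.mul_mem (hsq b _ hb) ?_
      have h3 := M.inv_mem (hsq b ((c - 1) * 2⁻¹) hb)
      have : (st hf (emb F₀ b) (((c - 1) * 2⁻¹) ^ 2))⁻¹ = st hf (emb F₀ b) (- ((c - 1) * 2⁻¹) ^ 2) := by
        rw [inv_eq_iff_mul_eq_one, st_add, add_neg_cancel]
        apply gl_ext
        intro x
        rw [st_mulVec]; simp
      rwa [this] at h3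
  apply iso_le_of_sfull hf M
  -- add rational vectors
  have hadd : ∀ (u : ι → F) (a : ι → F₀) (c : F), SFull hf M u → SFull hf M (u + c • emb F₀ a) := by
    intro u a c hu
    by_cases ha : a = 0
    · subst ha; rw [emb_zero, smul_zero, add_zero]; exact hu
    by_cases h0 : f u (emb F₀ a) = 0
    · by_cases hw : ∃ w : ι → F₀, f₀ a w = 0 ∧ f u (emb F₀ w) ≠ 0
      · obtain ⟨w, hw1, hw2⟩ := hw
        have h1 := hu.mulVec (hall (c * (f u (emb F₀ w))⁻¹) w a (swap_eq hf₀ hw1)) (sg_mem_iso hf _ _)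
        rw [sg_mulVec hf _ _ (by rw [hf.bilinear.smul_left, comp_zero F₀ hc (swap_eq hf₀ hw1), mul_zero]), h0, hf.bilinear.smul_right,
          inv_mul_cancel_right₀ hw2, zero_smul, add_zero] at h1
        exact h1
      · push Not at hw
        -- then u is a multiple of a
        have : ∃ k : F, u = k • emb F₀ a := by
          apply prop_of_ann F₀ ha
          intro χ hχ
          obtain ⟨z, hz⟩ := riesz hf₀ χ
          have h2 : ext F₀ χ = fd hf (emb F₀ z) := by
            apply LinearMap.pi_ext'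
            intro i
            apply LinearMap.ext_ring
            simp only [LinearMap.comp_apply, LinearMap.single_apply]
            rw [← emb_single F₀ i, ext_emb, fd_apply, hc, hz]
          rw [h2, fd_apply]
          exact hw z (by rw [← hz]; exact hχ)
        obtain ⟨k, rfl⟩ := this
        rw [← add_smul]
        exact (hrat a).smul _
    · exact hu.add (hrat a) h0 c
  intro v
  have hv : v = ∑ i, v i • emb F₀ (Pi.single i 1) := by
    conv_lhs => rw [← Finset.univ_sum_single v]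
    refine Finset.sum_congr rfl fun i _ => ?_
    rw [emb_single, ← Pi.single_smul, smul_eq_mul, mul_one]
  rw [hv]
  have key : ∀ s : Finset ι, SFull hf M (∑ i ∈ s, v i • emb F₀ (Pi.single i 1)) := by
    classical
    intro s
    induction s using Finset.induction_on with
    | empty => rw [Finset.sum_empty]; exact sfull_zero hf M
    | insert i s hi ih => rw [Finset.sum_insert hi, add_comm]; exact hadd _ _ _ ih
  exact key _

omit hM hf₀ hc in
theorem rational_span (v : ι → F) : v = ∑ i, v i • emb F₀ (Pi.single i 1) := by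
  conv_lhs => rw [← Finset.univ_sum_single v]
  refine Finset.sum_congr rfl fun i _ => ?_
  rw [emb_single, ← Pi.single_smul, smul_eq_mul, mul_one]

omit hM hf₀ hc in
include hf in
theorem eq_of_rat {u v : ι → F} (h : ∀ x : ι → F₀, f u (emb F₀ x) = f v (emb F₀ x)) : u = v := by
  by_contra hne
  obtain ⟨_, ⟨y, hy⟩⟩ := hf.nondegenerate (u - v) (sub_ne_zero.mpr hne)
  apply hy
  have h1 : (-(fd hf (u - v))) y = 0 := by
    rw [rational_span F₀ y, map_sum]
    apply Finset.sum_eq_zero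
    intro i _
    rw [map_smul, LinearMap.neg_apply, fd_apply, ← hf.skew, sub_left hf, h, sub_self, smul_zero]
  rw [LinearMap.neg_apply, fd_apply, ← hf.skew] at h1
  exact h1

omit hM in
include hf in
theorem prop_of_perp {b : ι → F₀} (hb : b ≠ 0) {u : ι → F} (hw : ∀ w : ι → F₀, f₀ b w = 0 → f u (emb F₀ w) = 0) : ∃ k : F, u = k • emb F₀ b := by
  apply prop_of_ann F₀ hb
  intro χ hχ
  obtain ⟨z, hz⟩ := riesz hf₀ χ
  have h2 : ext F₀ χ = fd hf (emb F₀ z) := by
    apply LinearMap.pi_ext'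
    intro i
    apply LinearMap.ext_ring
    simp only [LinearMap.comp_apply, LinearMap.single_apply]
    rw [← emb_single F₀ i, ext_emb, fd_apply, hc, hz]
  rw [h2, fd_apply]
  exact hw z (by rw [← hz]; exact hχ)

variable (hn : 7 ≤ Fintype.card ι) (hC : ∀ c, (∀ a b, f₀ a b = 0 → RS F₀ hf M a b c) → c ∈ F₀)
include hn hC

theorem mem_of_rs {a b : ι → F₀} (h0 : f₀ a b = 0) (ha : a ≠ 0) (hab : b ∉ Submodule.span F₀ {a}) {c : F} (h : RS F₀ hf M a b c) : c ∈ F₀ :=
  hC c fun _ _ hxy => RS.all F₀ hf hf₀ hc hM hn h0 h hab ha hxy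

omit hn hC hM hc hf₀ in
theorem sg_comm_st {a b : ι → F} (h : f a b = 0) (c : F) : sg hf a b * st hf a c = st hf a c * sg hf a b := by
  have h1 := sg_conj hf (st_mem_iso hf a c) a b
  rw [st_fix hf a c a (hf.alternating a), st_fix hf a c b (swap_eq hf h)] at h1
  exact (mul_inv_eq_iff_eq_mul.mp h1).symm

theorem lemP0 {u : ι → F} (hu : st hf u 1 ∈ M) {b : ι → F₀} (hb : b ≠ 0) (hub : f u (emb F₀ b) = 0) {c d : ι → F₀}
    (hbc : f₀ b c = 0) (hbd : f₀ b d = 0) : f u (emb F₀ c) * f u (emb F₀ d) ∈ F₀ := by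
  by_cases hdb : d ∈ Submodule.span F₀ {b}
  · obtain ⟨k, rfl⟩ := Submodule.mem_span_singleton.mp hdb
    rw [emb_smul, hf.bilinear.smul_right, hub, mul_zero, mul_zero]
    exact F₀.zero_mem
  set κ := f u (emb F₀ c) with hκ
  set δ := f u (emb F₀ d) with hδ
  have e1 := comp_zero F₀ hc hbc
  have e2 := comp_zero F₀ hc hbd
  -- first conjugation
  have h1 := st_mem_conj hf (sg_rat F₀ hf hM b c) (sg_mem_iso hf _ _) hu
  rw [sg_mulVec hf _ _ e1, hub, zero_smul, add_zero, ← hκ, add_comm u, st_sum hf (by rw [hf.bilinear.smul_left, swap_eq hf hub, mul_zero])] at h1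
  have h2 : sg hf ((1 : F) • κ • emb F₀ b) u * st hf (κ • emb F₀ b) 1 ∈ M := by
    have := M.mul_mem h1 (M.inv_mem hu)
    rwa [mul_inv_cancel_right] at this
  rw [one_smul] at h2
  -- second conjugation
  have hd1 : st hf (emb F₀ d) 1 ∈ M := by have := hM d 1; push_cast at this; exact this
  have h3 := st_mem_conj hf h2 ((iso f).mul_mem (sg_mem_iso hf _ _) (st_mem_iso hf _ _)) hd1
  set x := -(δ * κ) with hx
  have h4 : ((sg hf (κ • emb F₀ b) u * st hf (κ • emb F₀ b) 1 : GL ι F) : Matrix ι ι F) *ᵥ emb F₀ d = x • emb F₀ b + emb F₀ d := by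
    rw [Units.val_mul, ← Matrix.mulVec_mulVec, st_fix hf _ _ _ (by rw [hf.bilinear.smul_right, swap_eq hf e2, mul_zero]),
      sg_mulVec hf _ _ (by rw [hf.bilinear.smul_left, swap_eq hf hub, mul_zero]), hf.bilinear.smul_right, swap_eq hf e2, mul_zero, zero_smul, add_zero,
      hf.skew (emb F₀ d) u, ← hδ, hx]
    module
  rw [h4, st_sum hf (by rw [hf.bilinear.smul_left, e2, mul_zero])] at h3
  have h5 : sg hf (x • emb F₀ b) (emb F₀ d) * st hf (x • emb F₀ b) 1 ∈ M := by
    have := M.mul_mem h3 (M.inv_mem hd1)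
    rwa [mul_inv_cancel_right, one_smul] at this
  -- third conjugation
  obtain ⟨e, he1, he2⟩ := exists_dualv hf₀ [b] d (by
    have : Submodule.span F₀ {x | x ∈ [b]} = Submodule.span F₀ {b} := by congr 1; ext x; simp
    rw [this]; exact hdb)
  have hbe := he2 b (by simp)
  obtain ⟨a, ha, ha1, _⟩ := exists_perp_avoid hf₀ [b, d, e] (Submodule.span F₀ {b, b}) ⊥ (finrank_pair_le _ _) (by simp) (by simp; omega)
  rw [Set.pair_eq_singleton] at ha1
  have hba := ha b (by simp)
  have hda := ha d (by simp)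
  have hea := ha e (by simp)
  have hai := sg_mem_iso hf (emb F₀ a) (emb F₀ e)
  have haM := sg_rat F₀ hf hM a e
  have hab0 := comp_zero F₀ hc (swap_eq hf₀ hea)
  have m1 : ((sg hf (emb F₀ a) (emb F₀ e) : GL ι F) : Matrix ι ι F) *ᵥ (x • emb F₀ b) = x • emb F₀ b := by
    rw [sg_mulVec hf _ _ hab0, hf.bilinear.smul_left, hf.bilinear.smul_left, comp_zero F₀ hc hba, comp_zero F₀ hc hbe]
    module
  have m2 : ((sg hf (emb F₀ a) (emb F₀ e) : GL ι F) : Matrix ι ι F) *ᵥ (emb F₀ d) = emb F₀ d + emb F₀ a := by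
    rw [sg_mulVec hf _ _ hab0, comp_zero F₀ hc hda, comp_one F₀ hc he1]
    module
  have h6 : sg hf (x • emb F₀ b) (emb F₀ d + emb F₀ a) * st hf (x • emb F₀ b) 1 ∈ M := by
    have := M.mul_mem (M.mul_mem haM h5) (M.inv_mem haM)
    have e : sg hf (emb F₀ a) (emb F₀ e) * (sg hf (x • emb F₀ b) (emb F₀ d) * st hf (x • emb F₀ b) 1) * (sg hf (emb F₀ a) (emb F₀ e))⁻¹
      = (sg hf (emb F₀ a) (emb F₀ e) * sg hf (x • emb F₀ b) (emb F₀ d) * (sg hf (emb F₀ a) (emb F₀ e))⁻¹) *
        (sg hf (emb F₀ a) (emb F₀ e) * st hf (x • emb F₀ b) 1 * (sg hf (emb F₀ a) (emb F₀ e))⁻¹) := by group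
    rw [e, sg_conj hf hai, st_conj hf _ hai, m1, m2] at this
    exact this
  have z1 : f (x • emb F₀ b) (emb F₀ d) = 0 := by rw [hf.bilinear.smul_left, e2, mul_zero]
  have z2 : f (x • emb F₀ b) (emb F₀ a) = 0 := by rw [hf.bilinear.smul_left, comp_zero F₀ hc hba, mul_zero]
  rw [← sg_mul_add hf z1 z2 (comp_zero F₀ hc hda), mul_assoc, sg_comm_st hf z2, ← mul_assoc] at h6
  have h7 : RS F₀ hf M b a x := by
    have := M.mul_mem (M.inv_mem h5) h6
    rwa [inv_mul_cancel_left] at this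
  have h8 := mem_of_rs F₀ hf hf₀ hc hM hn hC hba hb ha1 h7
  have h9 : κ * δ = -x := by rw [hx]; ring
  rw [h9]; exact F₀.neg_mem h8

/-- a non-rational centre is not perpendicular to any rational vector -/
theorem lemP {u : ι → F} (huN : NR F₀ u) (hu : st hf u 1 ∈ M) {b : ι → F₀} (hb : b ≠ 0) : f u (emb F₀ b) ≠ 0 := by
  intro hub
  obtain ⟨c₀, hc0, hκ⟩ : ∃ c₀, f₀ b c₀ = 0 ∧ f u (emb F₀ c₀) ≠ 0 := by
    by_contra hcon
    push Not at hcon
    obtain ⟨k, hk⟩ := prop_of_perp F₀ hf hf₀ hc hb hcon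
    have hk0 : k ≠ 0 := by
      rintro rfl
      exact huN.ne_zero F₀ (by rw [hk, zero_smul])
    exact huN k⁻¹ (inv_ne_zero hk0) b (by rw [hk, smul_smul, inv_mul_cancel₀ hk0, one_smul])
  set κ := f u (emb F₀ c₀) with hκd
  have hk1 : ∀ x, f₀ b x = 0 → κ * f u (emb F₀ x) ∈ F₀ := fun x hx => lemP0 F₀ hf hf₀ hc hM hn hC hu hb hub hc0 hx
  have hk2 : ∀ c, κ * f u (emb F₀ c) ∈ F₀ := by
    intro c
    set B := perp hf₀ (Submodule.span F₀ {x | x ∈ [b, c, c₀]}) with hB
    have hBr : 2 ≤ Module.finrank F₀ B := by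
      have h1 := finrank_perp_ge hf₀ (Submodule.span F₀ {x | x ∈ [b, c, c₀]})
      have h2 : Module.finrank F₀ (Submodule.span F₀ {x | x ∈ [b, c, c₀]}) ≤ 3 := finrank_span_list_le [b, c, c₀]
      rw [Module.finrank_fintype_fun_eq_card, ← hB] at h1
      omega
    have hBm : ∀ x ∈ B, f₀ b x = 0 ∧ f₀ c x = 0 ∧ f₀ c₀ x = 0 := fun x hx =>
      ⟨hx b (Submodule.subset_span (by simp)), hx c (Submodule.subset_span (by simp)), hx c₀ (Submodule.subset_span (by simp))⟩
    let L : B →ₗ[F₀] F₀ :=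
      { toFun := fun x => ⟨κ * f u (emb F₀ (x : ι → F₀)), hk1 x (hBm x x.2).1⟩
        map_add' := fun x y => by
          apply Subtype.ext
          change κ * f u (emb F₀ (x : ι → F₀) + emb F₀ (y : ι → F₀)) = κ * f u (emb F₀ (x : ι → F₀)) + κ * f u (emb F₀ (y : ι → F₀))
          rw [hf.bilinear.add_right]; ring
        map_smul' := fun k x => by
          apply Subtype.ext
          change κ * f u ((k : F) • emb F₀ (x : ι → F₀)) = (k : F) * (κ * f u (emb F₀ (x : ι → F₀)))
          rw [hf.bilinear.smul_right]; ring }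
    have hker := LinearMap.ker_ne_bot_of_finrank_lt (f := L) (by rw [Module.finrank_self]; omega)
    obtain ⟨⟨b', hb'B⟩, hb', hb'0⟩ := Submodule.exists_mem_ne_zero_of_ne_bot hker
    have hb'0' : b' ≠ 0 := fun h => hb'0 (Subtype.ext h)
    have h1 : κ * f u (emb F₀ b') = 0 := congrArg Subtype.val (show L ⟨b', hb'B⟩ = 0 from hb')
    have h2 : f u (emb F₀ b') = 0 := (mul_eq_zero.mp h1).resolve_left hκ
    obtain ⟨_, h3, h4⟩ := hBm b' hb'B
    exact lemP0 F₀ hf hf₀ hc hM hn hC hu hb'0' h2 (swap_eq hf₀ h4) (swap_eq hf₀ h3)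
  -- κ • u is rational
  let θ : Module.Dual F₀ (ι → F₀) :=
    { toFun := fun x => ⟨κ * f u (emb F₀ x), hk2 x⟩
      map_add' := fun x y => by
        apply Subtype.ext
        change κ * f u (emb F₀ x + emb F₀ y) = κ * f u (emb F₀ x) + κ * f u (emb F₀ y)
        rw [hf.bilinear.add_right]; ring
      map_smul' := fun k x => by
        apply Subtype.ext
        change κ * f u ((k : F) • emb F₀ x) = (k : F) * (κ * f u (emb F₀ x))
        rw [hf.bilinear.smul_right]; ring }
  obtain ⟨z, hz⟩ := riesz hf₀ θ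
  apply huN κ hκ (-z)
  apply eq_of_rat F₀ hf
  intro x
  have h1 : κ * f u (emb F₀ x) = (f₀ x z : F) := congrArg Subtype.val (hz x)
  rw [hf.bilinear.smul_left, h1, hc, hf₀.skew x z, neg_left hf₀]

theorem lemBs (hMi : M ≤ iso f) {g : GL ι F} (hg : g ∈ M) {b b' : ι → F₀} (hb : b ≠ 0) {c : F} (h : (g : Matrix ι ι F) *ᵥ emb F₀ b = c • emb F₀ b') :
    Rat F₀ g := by
  have hgi := hMi hg
  have hgb : (g : Matrix ι ι F) *ᵥ emb F₀ b ≠ 0 := fun h0 => emb_ne_zero F₀ hb (mulVec_injective g (h0.trans (Matrix.mulVec_zero _).symm))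
  have hc0 : c ≠ 0 := by rintro rfl; exact hgb (by rw [h, zero_smul])
  have hb'0 : b' ≠ 0 := by rintro rfl; exact hgb (by rw [h, emb_zero, smul_zero])
  have hst : ∀ a : ι → F₀, st hf ((g : Matrix ι ι F) *ᵥ emb F₀ a) 1 ∈ M := fun a =>
    st_mem_conj hf hg hgi (by have := hM a 1; push_cast at this; exact this)
  apply lemR F₀ g
  intro a ha hNa
  obtain ⟨a₂, ha2, ha21, _⟩ := exists_perp_avoid hf₀ [a, b] ⊥ ⊥ (by simp) (by simp) (by simp; omega)
  have ha20 : a₂ ≠ 0 := fun h => ha21 (by rw [h]; exact Submodule.zero_mem _)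
  have e1 := ha2 a (by simp)
  have e2 := ha2 b (by simp)
  have h1 : f ((g : Matrix ι ι F) *ᵥ emb F₀ a₂) (emb F₀ b') = 0 := by
    have : emb F₀ b' = c⁻¹ • ((g : Matrix ι ι F) *ᵥ emb F₀ b) := by rw [h, smul_smul, inv_mul_cancel₀ hc0, one_smul]
    rw [this, hf.bilinear.smul_right, (mem_iso g).mp hgi, comp_zero F₀ hc (swap_eq hf₀ e2), mul_zero]
  have h2 : ¬ NR F₀ ((g : Matrix ι ι F) *ᵥ emb F₀ a₂) := fun hN => lemP F₀ hf hf₀ hc hM hn hC hN (hst a₂) hb'0 h1
  unfold NR at h2
  push Not at h2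
  obtain ⟨k, hk0, y, hy⟩ := h2
  have hy0 : y ≠ 0 := by
    rintro rfl
    rw [emb_zero] at hy
    rcases smul_eq_zero.mp hy with h3 | h3
    · exact hk0 h3
    · exact emb_ne_zero F₀ ha20 (mulVec_injective g (h3.trans (Matrix.mulVec_zero _).symm))
  refine lemP F₀ hf hf₀ hc hM hn hC hNa (hst a) hy0 ?_
  rw [← hy, hf.bilinear.smul_right, (mem_iso g).mp hgi, comp_zero F₀ hc e1, mul_zero]

end rs

/-- a scalar making `k` rational is rational when `k` has small displacement -/
theorem nu_mem (hr : (Module.finrank F₀ F).Prime) {k : GL ι F} {W : Submodule F (ι → F)} (hkd : ∀ x, (k : Matrix ι ι F) *ᵥ x - x ∈ W)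
    {d : ℕ} (hWd : Module.finrank F W < d) (e : Fin d ↪ ι) (hdr : d < Module.finrank F₀ F) {ν : F}
    (hν : ∀ x : ι → F₀, ∃ y : ι → F₀, ν • ((k : Matrix ι ι F) *ᵥ emb F₀ x) = emb F₀ y) : ν ∈ F₀ := by
  by_contra hνF
  have he := e.injective
  let E : (Fin d → F) →ₗ[F] (ι → F) :=
    { toFun := fun α => ∑ j, α j • Pi.single (e j) 1
      map_add' := fun α β => by
        rw [← Finset.sum_add_distrib]
        exact Finset.sum_congr rfl fun j _ => by rw [Pi.add_apply, add_smul]
      map_smul' := fun k α => by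
        rw [RingHom.id_apply, Finset.smul_sum]
        exact Finset.sum_congr rfl fun j _ => by rw [Pi.smul_apply, smul_eq_mul, mul_smul] }
  let L : (Fin d → F) →ₗ[F] W :=
    ((le k).toLinearMap - LinearMap.id).codRestrict W (fun x => hkd x) ∘ₗ E
  have hker := LinearMap.ker_ne_bot_of_finrank_lt (f := L) (by rw [Module.finrank_fin_fun]; omega)
  obtain ⟨α, hα, hα0⟩ := Submodule.exists_mem_ne_zero_of_ne_bot hker
  have hy1 : (k : Matrix ι ι F) *ᵥ (E α) = E α := by
    have : L α = 0 := hα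
    have h2 := congrArg Subtype.val this
    exact sub_eq_zero.mp h2
  have hEval : ∀ j, (E α) (e j) = α j := by
    intro j
    change (∑ l, α l • (Pi.single (e l) 1 : ι → F)) (e j) = α j
    rw [Finset.sum_apply, Finset.sum_eq_single_of_mem j (Finset.mem_univ _)]
    · simp
    · intro l _ hl
      have : e j ≠ e l := fun h => hl (he h).symm
      simp [this]
  have hEval' : ∀ i, (∀ j, i ≠ e j) → (E α) i = 0 := by
    intro i hi
    change (∑ l, α l • (Pi.single (e l) 1 : ι → F)) i = 0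
    rw [Finset.sum_apply]
    apply Finset.sum_eq_zero
    intro l _
    simp [hi l]
  let Y : Submodule F₀ F := Submodule.span F₀ (Set.range α)
  have hYi : ∀ i, (E α) i ∈ Y := by
    intro i
    by_cases hi : ∀ j, i ≠ e j
    · rw [hEval' i hi]; exact Y.zero_mem
    · push Not at hi
      obtain ⟨j, rfl⟩ := hi
      rw [hEval]; exact Submodule.subset_span ⟨j, rfl⟩
  have hYν : ∀ d ∈ Y, ν * d ∈ Y := by
    intro d hd
    induction hd using Submodule.span_induction with
    | mem d hd =>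
      obtain ⟨j, rfl⟩ := hd
      rw [← hEval j]
      have h1 : ν * (E α) (e j) = (ν • ((k : Matrix ι ι F) *ᵥ (E α))) (e j) := by rw [hy1]; rfl
      rw [h1]
      have h2 : (ν • ((k : Matrix ι ι F) *ᵥ (E α))) (e j) = ∑ i, (ν * (k : Matrix ι ι F) (e j) i) * (E α) i := by
        rw [Pi.smul_apply, smul_eq_mul, Matrix.mulVec, dotProduct, Finset.mul_sum]
        exact Finset.sum_congr rfl fun i _ => by ring
      rw [h2]
      apply Submodule.sum_mem
      intro i _
      obtain ⟨y, hy⟩ := hν (Pi.single i 1)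
      have h3 : ν * (k : Matrix ι ι F) (e j) i = (y (e j) : F) := by
        have := congrFun hy (e j)
        rw [emb_single, Pi.smul_apply, smul_eq_mul, Matrix.mulVec_single] at this
        simp only [MulOpposite.op_one, one_smul] at this
        exact this
      rw [h3]
      exact Y.smul_mem (y (e j)) (hYi i)
    | zero => rw [mul_zero]; exact Y.zero_mem
    | add x y _ _ hx hy => rw [mul_add]; exact Y.add_mem hx hy
    | smul c x _ hx =>
      have : ν * (c • x) = c • (ν * x) := by rw [mul_smul_comm]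
      rw [this]; exact Y.smul_mem c hx
  have hadj : Algebra.adjoin F₀ {ν} = ⊤ := by
    haveI := Subalgebra.isSimpleOrder_of_finrank_prime F₀ F hr
    rcases eq_bot_or_eq_top (Algebra.adjoin F₀ {ν}) with h | h
    · exfalso
      apply hνF
      have h1 : ν ∈ Algebra.adjoin F₀ {ν} := Algebra.self_mem_adjoin_singleton _ _
      rw [h, Algebra.mem_bot] at h1
      obtain ⟨x, hx⟩ := h1
      rw [← hx]; exact x.2
    · exact h
  have hYall : ∀ c : F, ∀ d ∈ Y, c * d ∈ Y := by
    intro c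
    have hc : c ∈ Algebra.adjoin F₀ {ν} := by rw [hadj]; exact Algebra.mem_top
    induction hc using Algebra.adjoin_induction with
    | mem x hx => rw [Set.mem_singleton_iff.mp hx]; exact hYν
    | algebraMap r => intro d hd; exact Y.smul_mem r hd
    | add x y _ _ hx hy => intro d hd; rw [add_mul]; exact Y.add_mem (hx d hd) (hy d hd)
    | mul x y _ _ hx hy => intro d hd; rw [mul_assoc]; exact hx _ (hy d hd)
  obtain ⟨j, hj⟩ := Function.ne_iff.mp hα0
  have hYtop : Y = ⊤ := by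
    rw [eq_top_iff]
    intro x _
    have := hYall (x / α j) (α j) (Submodule.subset_span ⟨j, rfl⟩)
    rwa [div_mul_cancel₀ _ hj] at this
  have h3 : Module.finrank F₀ Y ≤ d := by
    have := finrank_range_le_card (R := F₀) α
    simpa [Set.finrank] using this
  rw [hYtop, finrank_top] at h3
  omega

end CfsgLib.SpSub29
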