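import Cfsg.Agent.LibUoB29

set_option autoImplicit false

/-! Unitary groups over the quadratic extension inside symplectic groups. -/

namespace CfsgLib.SpU29

open scoped MatrixGroups Matrix
open Cfsg CfsgLib.MaxTv29 CfsgLib.OM29 Cfsg.Agent.H22 Module CfsgLib.OS29 CfsgLib.Uo29 CfsgLib.SympTv29

variable {ι : Type} [Fintype ι] [DecidableEq ι] {F : Type*} [Field F]

/-- a quadratic extension acting -/
structure Fd (W : Matrix ι ι F) (τ ν : F) : Prop where
  hsq : ∀ x, W *ᵥ (W *ᵥ x) = τ • (W *ᵥ x) - ν • x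
  heig : ∀ x, x ≠ 0 → W *ᵥ x ∉ Submodule.span F {x}

namespace Fd

variable {W : Matrix ι ι F} {τ ν : F} (D : Fd W τ ν)

include D

theorem W_stab {x y : ι → F} (h : y ∈ Kl W x) : W *ᵥ y ∈ Kl W x := by
  obtain ⟨a, b, rfl⟩ := mem_Kl.mp h
  rw [Matrix.mulVec_add, Matrix.mulVec_smul, Matrix.mulVec_smul, D.hsq]
  exact mem_Kl.mpr ⟨-(b * ν), a + b * τ, by module⟩

theorem Kl_symm {x y : ι → F} (h : y ∈ Kl W x) (hy : y ≠ 0) : x ∈ Kl W y := by
  obtain ⟨a, b, hab⟩ := mem_Kl.mp h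
  have h1 : (a + b * τ) • y - b • (W *ᵥ y) = (a * a + a * b * τ + b * b * ν) • x := by
    rw [← hab, Matrix.mulVec_add, Matrix.mulVec_smul, Matrix.mulVec_smul, D.hsq]; module
  by_cases hN : a * a + a * b * τ + b * b * ν = 0
  · exfalso
    rw [hN, zero_smul, sub_eq_zero] at h1
    by_cases hb : b = 0
    · rw [hb, zero_smul, zero_mul, add_zero] at h1
      rcases smul_eq_zero.mp h1 with h2 | h2
      · rw [h2, hb, zero_smul, zero_smul, add_zero] at hab
        exact hy hab.symm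
      · exact hy h2
    · apply D.heig y hy
      rw [Submodule.mem_span_singleton]
      refine ⟨b⁻¹ * (a + b * τ), ?_⟩
      rw [← smul_smul, h1, smul_smul, inv_mul_cancel₀ hb, one_smul]
  · have h2 : x = (a * a + a * b * τ + b * b * ν)⁻¹ • ((a + b * τ) • y - b • (W *ᵥ y)) := by
      rw [h1, smul_smul, inv_mul_cancel₀ hN, one_smul]
    have hmem : (a * a + a * b * τ + b * b * ν)⁻¹ • ((a + b * τ) • y - b • (W *ᵥ y)) ∈ Kl W y :=
      Submodule.smul_mem _ _ (Submodule.sub_mem _ (Submodule.smul_mem _ _ (self_mem_Kl W y)) (Submodule.smul_mem _ _ (W_mem_Kl W y)))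
    rw [← h2] at hmem
    exact hmem

theorem stable_mem {Z : Submodule F (ι → F)} (hZ : ∀ z ∈ Z, W *ᵥ z ∈ Z) {x : ι → F} (hx : x ≠ 0) {c : F} (h : W *ᵥ x - c • x ∈ Z) : x ∈ Z := by
  have h1 : W *ᵥ x - c • x ∈ Kl W x := Submodule.sub_mem _ (W_mem_Kl W x) (Submodule.smul_mem _ _ (self_mem_Kl W x))
  have h2 : W *ᵥ x - c • x ≠ 0 := by
    intro h0
    apply D.heig x hx
    rw [sub_eq_zero.mp h0]
    exact Submodule.smul_mem _ _ (Submodule.mem_span_singleton_self x)
  have h3 := D.Kl_symm h1 h2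
  have h4 : Kl W (W *ᵥ x - c • x) ≤ Z := by
    unfold Kl
    rw [Submodule.span_le]
    rintro z (rfl | rfl)
    · exact h
    · exact hZ _ h
  exact h4 h3

theorem list4_stable (a b : ι → F) : ∀ z ∈ Submodule.span F {y | y ∈ [a, W *ᵥ a, b, W *ᵥ b]}, W *ᵥ z ∈ Submodule.span F {y | y ∈ [a, W *ᵥ a, b, W *ᵥ b]} := by
  intro z hz
  induction hz using Submodule.span_induction with
  | mem d hd =>
    have hd' : d ∈ [a, W *ᵥ a, b, W *ᵥ b] := hd
    simp only [List.mem_cons, List.not_mem_nil, or_false] at hd'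
    have m : ∀ y ∈ [a, W *ᵥ a, b, W *ᵥ b], y ∈ Submodule.span F {y | y ∈ [a, W *ᵥ a, b, W *ᵥ b]} := fun y hy => Submodule.subset_span hy
    rcases hd' with rfl | rfl | rfl | rfl
    · exact m _ (by simp)
    · rw [D.hsq]; exact Submodule.sub_mem _ (Submodule.smul_mem _ _ (m _ (by simp))) (Submodule.smul_mem _ _ (m _ (by simp)))
    · exact m _ (by simp)
    · rw [D.hsq]; exact Submodule.sub_mem _ (Submodule.smul_mem _ _ (m _ (by simp))) (Submodule.smul_mem _ _ (m _ (by simp)))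
  | zero => rw [Matrix.mulVec_zero]; exact zero_mem _
  | add x y _ _ hx hy => rw [Matrix.mulVec_add]; exact Submodule.add_mem _ hx hy
  | smul c x _ hx => rw [Matrix.mulVec_smul]; exact Submodule.smul_mem _ _ hx

/-- maps preserving singular K-lines are scalars -/
theorem scalar [Finite F] {Q : QuadraticForm F (ι → F)} (hQ : (QuadraticMap.polarBilin Q).Nondegenerate) (h13 : 13 ≤ Fintype.card ι) (φ : Matrix ι ι F)
    (h : ∀ y, Q y = 0 → φ *ᵥ y ∈ Kl W y) : ∃ α β : F, ∀ x, φ *ᵥ x = α • x + β • (W *ᵥ x) := by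
  choose! α β hab using fun (y : ι → F) (hy : Q y = 0) => mem_Kl.mp (h y hy)
  have key : ∀ y z, Q y = 0 → Q z = 0 → y ≠ 0 → z ≠ 0 → QuadraticMap.polar Q y z = 0 → z ∉ Kl W y → α y = α z ∧ β y = β z := by
    intro y z hy hz hy0 hz0 hyz hzK
    have hs : Q (y + z) = 0 := by rw [qadd, hy, hz, hyz]; ring
    have h1 := hab (y + z) hs
    rw [Matrix.mulVec_add φ, ← hab y hy, ← hab z hz, Matrix.mulVec_add] at h1
    obtain ⟨a, ha⟩ : ∃ a, a = α (y + z) := ⟨_, rfl⟩
    obtain ⟨b, hb⟩ : ∃ b, b = β (y + z) := ⟨_, rfl⟩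
    rw [← ha, ← hb] at h1
    have h2 : (α y - a) • y + (β y - b) • (W *ᵥ y) = (a - α z) • z + (b - β z) • (W *ᵥ z) := by
      have h3 : (a • (y + z) + b • (W *ᵥ y + W *ᵥ z)) - (α y • y + β y • (W *ᵥ y) + (α z • z + β z • (W *ᵥ z))) = 0 := sub_eq_zero.mpr h1
      rw [← sub_eq_zero]
      have h4 : (α y - a) • y + (β y - b) • (W *ᵥ y) - ((a - α z) • z + (b - β z) • (W *ᵥ z)) = -((a • (y + z) + b • (W *ᵥ y + W *ᵥ z)) - (α y • y + β y • (W *ᵥ y) + (α z • z + β z • (W *ᵥ z)))) := by module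
      rw [h4, h3, neg_zero]
    have hz2 : (a - α z) • z + (b - β z) • (W *ᵥ z) ∈ Kl W z := mem_Kl.mpr ⟨_, _, rfl⟩
    have hy2 : (a - α z) • z + (b - β z) • (W *ᵥ z) ∈ Kl W y := by rw [← h2]; exact mem_Kl.mpr ⟨_, _, rfl⟩
    have h0 : (a - α z) • z + (b - β z) • (W *ᵥ z) = 0 := by
      by_contra hne
      have h5 := D.Kl_symm hz2 hne
      obtain ⟨c, d, hcd⟩ := mem_Kl.mp h5
      apply hzK
      rw [← hcd]
      exact Submodule.add_mem _ (Submodule.smul_mem _ _ hy2) (Submodule.smul_mem _ _ (D.W_stab hy2))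
    have h0' : (α y - a) • y + (β y - b) • (W *ᵥ y) = 0 := by rw [h2, h0]
    have sep : ∀ (u : ι → F) (c d : F), u ≠ 0 → c • u + d • (W *ᵥ u) = 0 → c = 0 ∧ d = 0 := by
      intro u c d hu hcd
      have hd : d = 0 := by
        by_contra hd
        apply D.heig u hu
        rw [Submodule.mem_span_singleton]
        refine ⟨-(d⁻¹ * c), ?_⟩
        have : d • (W *ᵥ u) = -(c • u) := eq_neg_of_add_eq_zero_right hcd
        have h6 : W *ᵥ u = d⁻¹ • (-(c • u)) := by rw [← this, smul_smul, inv_mul_cancel₀ hd, one_smul]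
        rw [h6]; module
      rw [hd, zero_smul, add_zero] at hcd
      exact ⟨(smul_eq_zero.mp hcd).resolve_right hu, hd⟩
    obtain ⟨s1, s2⟩ := sep z _ _ hz0 h0
    obtain ⟨s3, s4⟩ := sep y _ _ hy0 h0'
    exact ⟨by linear_combination s3 + s1, by linear_combination s4 + s2⟩
  have key2 : ∀ y z, Q y = 0 → Q z = 0 → y ≠ 0 → z ≠ 0 → α y = α z ∧ β y = β z := by
    intro y z hy hz hy0 hz0
    obtain ⟨u, hQu, hu, huA⟩ := pick hQ [y, z] [y, W *ᵥ y, z, W *ᵥ z] (by simp only [List.length_cons, List.length_nil]; omega)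
    have hu0 : u ≠ 0 := by rintro rfl; exact huA (Submodule.zero_mem _)
    have m : ∀ x ∈ [y, W *ᵥ y, z, W *ᵥ z], x ∈ Submodule.span F {x | x ∈ [y, W *ᵥ y, z, W *ᵥ z]} := fun x hx => Submodule.subset_span hx
    have k1 := key y u hy hQu hy0 hu0 (hu y (by simp)) (fun h => huA (by
      obtain ⟨c, d, hcd⟩ := mem_Kl.mp h
      rw [← hcd]
      exact Submodule.add_mem _ (Submodule.smul_mem _ _ (m _ (by simp))) (Submodule.smul_mem _ _ (m _ (by simp)))))
    have k2 := key z u hz hQu hz0 hu0 (hu z (by simp)) (fun h => huA (by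
      obtain ⟨c, d, hcd⟩ := mem_Kl.mp h
      rw [← hcd]
      exact Submodule.add_mem _ (Submodule.smul_mem _ _ (m _ (by simp))) (Submodule.smul_mem _ _ (m _ (by simp)))))
    exact ⟨k1.1.trans k2.1.symm, k1.2.trans k2.2.symm⟩
  obtain ⟨y, hQy, _, hy0'⟩ := pick hQ [] [] (by simp only [List.length_nil]; omega)
  have hy0 : y ≠ 0 := by rintro rfl; exact hy0' (Submodule.zero_mem _)
  refine ⟨α y, β y, ?_⟩
  let C : Submodule F (ι → F) :=
    { carrier := {x | φ *ᵥ x = α y • x + β y • (W *ᵥ x)}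
      add_mem' := by
        intro x x' hx hx'
        change φ *ᵥ (x + x') = _
        rw [Matrix.mulVec_add, hx, hx', Matrix.mulVec_add]; module
      zero_mem' := by
        change φ *ᵥ (0 : ι → F) = _
        simp
      smul_mem' := by
        intro c x hx
        change φ *ᵥ (c • x) = _
        rw [Matrix.mulVec_smul, hx, Matrix.mulVec_smul]; module }
  have hC := rich_list hQ [] (by simp only [List.length_nil]; omega) C (fun x hQx _ => by
    by_cases hx0 : x = 0
    · rw [hx0]; exact C.zero_mem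
    · obtain ⟨k1, k2⟩ := key2 y x hQy hQx hy0 hx0
      change φ *ᵥ x = _
      rw [← hab x hQx, k1, k2])
  exact fun x => hC x (by simp)

end Fd

/-- overgroups of the unitary group inside the symplectic group -/
structure Su {f : (ι → F) → (ι → F) → F} (hf : Geo.IsSymplecticForm f) (Q : QuadraticForm F (ι → F)) (W : Matrix ι ι F) (ε : F) (M : Subgroup (GL ι F)) : Prop where
  hQ : (QuadraticMap.polarBilin Q).Nondegenerate
  h13 : 13 ≤ Fintype.card ι
  h2 : (2 : F) ≠ 0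
  fd : Fd W 0 (-ε)
  hε : ε ≠ 0
  hpol : ∀ x y, QuadraticMap.polar Q x y = f x (W *ᵥ y)
  hMi : M ≤ iso f
  hM : ∀ x, Q x = 0 → ∀ c : F, st hf (W *ᵥ x) c * st hf x (-(ε * c)) ∈ M

namespace Su

variable {f : (ι → F) → (ι → F) → F} {hf : Geo.IsSymplecticForm f} {Q : QuadraticForm F (ι → F)} {W : Matrix ι ι F} {ε : F} {M : Subgroup (GL ι F)} (D : Su hf Q W ε M)

local notation "B" => QuadraticMap.polar Q

include D

theorem hW (x : ι → F) : W *ᵥ (W *ᵥ x) = ε • x := by rw [D.fd.hsq]; module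

theorem fW (x y : ι → F) : B x (W *ᵥ y) = ε * f x y := by rw [D.hpol, D.hW, hf.bilinear.smul_right]

theorem fWl (x y : ι → F) : f (W *ᵥ x) y = - B x y := by
  rw [hf.skew, ← D.hpol, bsymm]

theorem f0 {x y : ι → F} (h : B x (W *ᵥ y) = 0) : f x y = 0 := by
  rw [D.fW] at h
  exact (mul_eq_zero.mp h).resolve_left D.hε

theorem f0' {x y : ι → F} (h : B (W *ᵥ x) y = 0) : f x y = 0 := by
  have h1 : B (W *ᵥ x) y = f (W *ᵥ x) (W *ᵥ y) := D.hpol _ _
  rw [h1, D.fWl, D.fW] at h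
  exact (mul_eq_zero.mp (neg_eq_zero.mp h)).resolve_left D.hε

theorem BWW (x y : ι → F) : B (W *ᵥ x) y = - B x (W *ᵥ y) := by
  rw [D.hpol, D.fWl]

theorem qW {x : ι → F} (h : Q x = 0) : Q (W *ᵥ x) = 0 := by
  have h1 : B (W *ᵥ x) (W *ᵥ x) = -ε * B x x := by
    rw [D.BWW, D.hW, QuadraticMap.polar_smul_right, smul_eq_mul]; ring
  rw [pself, pself, h, mul_zero, mul_zero] at h1
  exact (mul_eq_zero.mp h1).resolve_left D.h2

/-- the unitary transvection -/
theorem t_apply {x : ι → F} (hx : Q x = 0) (c : F) (y : ι → F) :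
    ((st hf (W *ᵥ x) c * st hf x (-(ε * c)) : GL ι F) : Matrix ι ι F) *ᵥ y = y - (ε * c * f y x) • x + (c * B y x) • (W *ᵥ x) := by
  rw [Units.val_mul, ← Matrix.mulVec_mulVec, st_mulVec, st_mulVec, hf.bilinear.add_left, hf.bilinear.smul_left, ← D.hpol, ← D.hpol, bself hx]
  module

/-- step one -/
theorem step1 [Finite F] {a b : ι → F} (ha0 : a ≠ 0) (hab : f a b = 0) (hbK : b ∉ Kl W a) (hE : ∀ c : F, st hf b c * st hf a (-(ε * c)) ∈ M) :
    ∃ z, z ≠ 0 ∧ Q z = 0 ∧ SFull hf M z := by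
  have h13 := D.h13
  have hb0 : b ≠ 0 := by rintro rfl; exact hbK (Submodule.zero_mem _)
  obtain ⟨z, hQz, hz, hzA⟩ := pick D.hQ [a, W *ᵥ a, b, W *ᵥ b] [a, W *ᵥ a, b, W *ᵥ b] (by simp only [List.length_cons, List.length_nil]; omega)
  have hz0 : z ≠ 0 := by rintro rfl; exact hzA (Submodule.zero_mem _)
  have haz : B a z = 0 := hz a (by simp)
  have hWaz : B (W *ᵥ a) z = 0 := hz _ (by simp)
  have hbz : B b z = 0 := hz b (by simp)
  have hWbz : B (W *ᵥ b) z = 0 := hz _ (by simp)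
  have hwb : W *ᵥ b ∉ Submodule.span F {y | y ∈ [a, W *ᵥ a, z, W *ᵥ z, b]} := by
    intro h
    have e1 : {y | y ∈ [a, W *ᵥ a, z, W *ᵥ z, b]} = {a, W *ᵥ a, z, W *ᵥ z, b} := by ext y; simp
    rw [e1] at h
    simp only [Submodule.mem_span_insert, Submodule.mem_span_singleton] at h
    obtain ⟨α, _, ⟨β, _, ⟨γ, _, ⟨δ, _, ⟨η, rfl⟩, rfl⟩, rfl⟩, rfl⟩, h⟩ := h
    have m : ∀ y ∈ [a, W *ᵥ a, z, W *ᵥ z], y ∈ Submodule.span F {y | y ∈ [a, W *ᵥ a, z, W *ᵥ z]} := fun y hy => Submodule.subset_span hy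
    have hb' : b ∈ Submodule.span F {y | y ∈ [a, W *ᵥ a, z, W *ᵥ z]} := by
      apply D.fd.stable_mem (D.fd.list4_stable a z) hb0 (c := η)
      have : W *ᵥ b - η • b = α • a + β • (W *ᵥ a) + γ • z + δ • (W *ᵥ z) := by
        rw [sub_eq_iff_eq_add]
        exact h.trans (by module)
      rw [this]
      exact Submodule.add_mem _ (Submodule.add_mem _ (Submodule.add_mem _ (Submodule.smul_mem _ _ (m _ (by simp))) (Submodule.smul_mem _ _ (m _ (by simp)))) (Submodule.smul_mem _ _ (m _ (by simp))))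
        (Submodule.smul_mem _ _ (m _ (by simp)))
    have e2 : {y | y ∈ [a, W *ᵥ a, z, W *ᵥ z]} = {a, W *ᵥ a, z, W *ᵥ z} := by ext y; simp
    rw [e2] at hb'
    simp only [Submodule.mem_span_insert, Submodule.mem_span_singleton] at hb'
    obtain ⟨α', _, ⟨β', _, ⟨γ', _, ⟨δ', rfl⟩, rfl⟩, rfl⟩, h'⟩ := hb'
    -- `γ' z + δ' W z ∈ Kl a + span b`
    have h3 : γ' • z + δ' • (W *ᵥ z) = b - α' • a - β' • (W *ᵥ a) := by rw [h']; module
    have m' : ∀ y ∈ [a, W *ᵥ a, b, W *ᵥ b], y ∈ Submodule.span F {y | y ∈ [a, W *ᵥ a, b, W *ᵥ b]} := fun y hy => Submodule.subset_span hy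
    have h4 : γ' • z + δ' • (W *ᵥ z) ∈ Submodule.span F {y | y ∈ [a, W *ᵥ a, b, W *ᵥ b]} := by
      rw [h3]
      exact Submodule.sub_mem _ (Submodule.sub_mem _ (m' _ (by simp)) (Submodule.smul_mem _ _ (m' _ (by simp)))) (Submodule.smul_mem _ _ (m' _ (by simp)))
    have h5 : γ' • z + δ' • (W *ᵥ z) ≠ 0 := by
      intro h0
      apply hbK
      rw [h0] at h3
      have : b = α' • a + β' • (W *ᵥ a) := by
        have h6 : b - α' • a - β' • (W *ᵥ a) = 0 := h3.symm
        rw [sub_sub, sub_eq_zero] at h6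
        exact h6
      exact mem_Kl.mpr ⟨α', β', this.symm⟩
    have h6 := D.fd.Kl_symm (mem_Kl.mpr ⟨γ', δ', rfl⟩) h5
    obtain ⟨c, d, hcd⟩ := mem_Kl.mp h6
    apply hzA
    rw [← hcd]
    exact Submodule.add_mem _ (Submodule.smul_mem _ _ h4) (Submodule.smul_mem _ _ (D.fd.list4_stable a b _ h4))
  obtain ⟨w, hQw, hw, hbw⟩ := sing_ne_list D.hQ [a, W *ᵥ a, z, W *ᵥ z, b] (by simp only [List.length_cons, List.length_nil]; omega) hwb
  have haw : B a w = 0 := hw a (by simp)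
  have hWaw : B (W *ᵥ a) w = 0 := hw _ (by simp)
  have hzw : B z w = 0 := hw z (by simp)
  have hWzw : B (W *ᵥ z) w = 0 := hw _ (by simp)
  have hbw0 : B b w = 0 := hw b (by simp)
  have hfbw : f b w ≠ 0 := by
    intro h
    apply hbw
    rw [D.BWW, D.fW, h, mul_zero, neg_zero]
  have faz : f a z = 0 := D.f0' hWaz
  have fbz : f b z = 0 := D.f0' hWbz
  have faw : f a w = 0 := D.f0' hWaw
  have fzw : f z w = 0 := D.f0' hWzw
  have fwz : f w z = 0 := swap_eq hf fzw
  have fza : f z a = 0 := swap_eq hf faz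
  have fzb : f z b = 0 := swap_eq hf fbz
  have fba : f b a = 0 := swap_eq hf hab
  have hQzw : Q (z + w) = 0 := by rw [qadd, hQz, hQw, hzw]; ring
  -- the root element
  have hR : ∀ s : F, ∃ g ∈ M, (g : Matrix ι ι F) *ᵥ a = a ∧ (g : Matrix ι ι F) *ᵥ b = b + s • z := by
    intro s
    obtain ⟨d, hd⟩ : ∃ d : F, -(ε * d * f b w) = s := ⟨-(s * (ε * f b w)⁻¹), by
      have := D.hε
      field_simp⟩
    have hneg : ∀ x, Q x = 0 → ∀ c : F, ∀ y, ((st hf (W *ᵥ x) c * st hf x (-(ε * c)) : GL ι F) : Matrix ι ι F) *ᵥ y = y - (ε * c * f y x) • x + (c * B y x) • (W *ᵥ x) :=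
      fun x hx c y => D.t_apply hx c y
    refine ⟨(st hf (W *ᵥ (z + w)) d * st hf (z + w) (-(ε * d))) * (st hf (W *ᵥ z) (-d) * st hf z (-(ε * -d))) * (st hf (W *ᵥ w) (-d) * st hf w (-(ε * -d))),
      M.mul_mem (M.mul_mem (D.hM _ hQzw d) (D.hM _ hQz (-d))) (D.hM _ hQw (-d)), ?_, ?_⟩
    · rw [Units.val_mul, ← Matrix.mulVec_mulVec, Units.val_mul, ← Matrix.mulVec_mulVec, hneg w hQw, faw, haw]
      simp only [mul_zero, zero_smul, sub_zero, add_zero]
      rw [hneg z hQz, faz, haz]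
      simp only [mul_zero, zero_smul, sub_zero, add_zero]
      rw [hneg (z + w) hQzw, hf.bilinear.add_right, faz, faw, QuadraticMap.polar_add_right, haz, haw]
      simp
    · rw [Units.val_mul, ← Matrix.mulVec_mulVec, Units.val_mul, ← Matrix.mulVec_mulVec, hneg w hQw, hbw0]
      simp only [mul_zero, zero_smul, add_zero]
      rw [hneg z hQz]
      have e1 : f (b - (ε * -d * f b w) • w) z = 0 := by rw [sub_left hf, hf.bilinear.smul_left, fbz, fwz]; ring
      have e2 : B (b - (ε * -d * f b w) • w) z = 0 := by rw [QuadraticMap.polar_sub_left, QuadraticMap.polar_smul_left, hbz, bsymm w z, hzw]; simp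
      rw [e1, e2]
      simp only [mul_zero, zero_smul, sub_zero, add_zero]
      rw [hneg (z + w) hQzw]
      have e3 : f (b - (ε * -d * f b w) • w) (z + w) = f b w := by
        rw [sub_left hf, hf.bilinear.smul_left, hf.bilinear.add_right, hf.bilinear.add_right, fbz, fwz, hf.alternating]; ring
      have e4 : B (b - (ε * -d * f b w) • w) (z + w) = 0 := by
        rw [QuadraticMap.polar_sub_left, QuadraticMap.polar_smul_left, QuadraticMap.polar_add_right, QuadraticMap.polar_add_right, hbz, hbw0, bsymm w z, hzw, bself hQw]; simp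
      rw [e3, e4, ← hd]
      module
  refine ⟨z, hz0, hQz, ?_⟩
  have hE' : ∀ s c : F, st hf (b + s • z) c * st hf a (-(ε * c)) ∈ M := by
    intro s c
    obtain ⟨g, hg, hga, hgb⟩ := hR s
    have h1 := M.mul_mem (M.mul_mem hg (hE c)) (M.inv_mem hg)
    have h3 : g * (st hf b c * st hf a (-(ε * c))) * g⁻¹ = (g * st hf b c * g⁻¹) * (g * st hf a (-(ε * c)) * g⁻¹) := by group
    rw [h3, st_conj hf g (D.hMi hg), st_conj hf g (D.hMi hg), hga, hgb] at h1
    exact h1
  intro c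
  obtain ⟨d, hd⟩ : ∃ d : F, 2 * d = c := ⟨c / 2, by have := D.h2; field_simp⟩
  have h1 := M.mul_mem (M.mul_mem (hE' 1 d) (hE' (-1) d)) (hE (-(2 * d)))
  have h3 : (st hf (b + (1 : F) • z) d * st hf a (-(ε * d))) * (st hf (b + (-1 : F) • z) d * st hf a (-(ε * d))) * (st hf b (-(2 * d)) * st hf a (-(ε * -(2 * d)))) = st hf z c := by
    apply gl_ext
    intro x
    simp only [Units.val_mul, ← Matrix.mulVec_mulVec, st_mulVec]
    simp only [hf.bilinear.add_left, hf.bilinear.add_right, hf.bilinear.smul_left, hf.bilinear.smul_right, hf.alternating, hab, fba, faz, fza, fbz, fzb]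
    rw [← hd]
    match_scalars <;> ring
  rw [h3] at h1
  exact h1

/-- step two: from one isotropic vector to the others -/
theorem step2 [Finite F] {z y : ι → F} (hz0 : z ≠ 0) (hQz : Q z = 0) (hz : SFull hf M z) (hy0 : y ≠ 0) (hQy : Q y = 0) (hyK : y ∉ Kl W z) : SFull hf M y := by
  have h13 := D.h13
  -- one move
  have move : ∀ z x, SFull hf M z → Q x = 0 → B x z = 0 → f x z ≠ 0 → SFull hf M x := by
    intro z x hz hQx hxz hfx
    -- use the transvection with center `W⁻¹ x`, i.e. `u = W x`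
    obtain ⟨c, hc⟩ : ∃ c : F, ε * c * f z x = -1 := ⟨-(ε * f z x)⁻¹, by
      have := D.hε
      have := swap_ne hf hfx
      field_simp⟩
    have hzx : B z x = 0 := by rw [bsymm]; exact hxz
    have h1 := hz.mulVec (D.hM x hQx c) (D.hMi (D.hM x hQx c))
    rw [D.t_apply hQx, hzx, mul_zero, zero_smul, add_zero, hc] at h1
    -- `z + x`
    have h3 := h1.add hz (by
      rw [sub_left hf, hf.alternating, hf.bilinear.smul_left, zero_sub]
      intro h
      apply hfx
      linear_combination h) (-1)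
    have e1 : z - (-1 : F) • x + (-1 : F) • z = x := by module
    rw [e1] at h3
    exact h3
  have n1 : W *ᵥ z ∉ Submodule.span F {u | u ∈ [z, y]} := by
    intro h
    have e1 : {u | u ∈ [z, y]} = {z, y} := by ext u; simp
    rw [e1] at h
    obtain ⟨α, β, hab⟩ := Submodule.mem_span_pair.mp h
    have hβ : β ≠ 0 := by
      rintro rfl
      rw [zero_smul, add_zero] at hab
      exact D.fd.heig z hz0 (Submodule.mem_span_singleton.mpr ⟨α, hab⟩)
    apply hyK
    refine mem_Kl.mpr ⟨-(β⁻¹ * α), β⁻¹, ?_⟩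
    rw [← hab, smul_add, smul_smul, smul_smul, inv_mul_cancel₀ hβ]; module
  have hzK : z ∉ Kl W y := fun h => hyK (D.fd.Kl_symm h hz0)
  have n2 : W *ᵥ y ∉ Submodule.span F {u | u ∈ [z, y]} := by
    intro h
    have e1 : {u | u ∈ [z, y]} = {z, y} := by ext u; simp
    rw [e1] at h
    obtain ⟨α, β, hab⟩ := Submodule.mem_span_pair.mp h
    have hα : α ≠ 0 := by
      rintro rfl
      rw [zero_smul, zero_add] at hab
      exact D.fd.heig y hy0 (Submodule.mem_span_singleton.mpr ⟨β, hab⟩)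
    apply hzK
    refine mem_Kl.mpr ⟨-(α⁻¹ * β), α⁻¹, ?_⟩
    rw [← hab, smul_add, smul_smul, smul_smul, inv_mul_cancel₀ hα]; module
  obtain ⟨x, hQx, hx, hzx, hyx⟩ := pick2 D.hQ [z, y] (by simp only [List.length_cons, List.length_nil]; omega) n1 n2
  have hzx0 : B z x = 0 := hx z (by simp)
  have hyx0 : B y x = 0 := hx y (by simp)
  have hxS : SFull hf M x := by
    apply move z x hz hQx (by rw [bsymm]; exact hzx0)
    intro h
    apply hzx
    rw [D.BWW, D.fW, swap_eq hf h, mul_zero, neg_zero]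
  apply move x y hxS hQy hyx0
  intro h
  apply hyx
  rw [D.BWW, D.fW, h, mul_zero, neg_zero]

theorem step3 [Finite F] {z : ι → F} (hz0 : z ≠ 0) (hQz : Q z = 0) (hz : SFull hf M z) : iso f ≤ M := by
  have h13 := D.h13
  have hall : ∀ y, Q y = 0 → SFull hf M y := by
    intro y hQy
    by_cases hy0 : y = 0
    · rw [hy0]; exact sfull_zero hf M
    by_cases hyK : y ∈ Kl W z
    · obtain ⟨u, hQu, _, huA⟩ := pick D.hQ [] [z, W *ᵥ z] (by simp only [List.length_cons, List.length_nil]; omega)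
      have e1 : {x | x ∈ [z, W *ᵥ z]} = {z, W *ᵥ z} := by ext x; simp
      rw [e1] at huA
      have huK : u ∉ Kl W z := huA
      have hu0 : u ≠ 0 := by rintro rfl; exact huA (Submodule.zero_mem _)
      have hu := D.step2 hz0 hQz hz hu0 hQu huK
      refine D.step2 hu0 hQu hu hy0 hQy (fun h => huK ?_)
      -- `u ∈ Kl y ≤ Kl z`
      have h1 := D.fd.Kl_symm h hy0
      obtain ⟨c, d, hcd⟩ := mem_Kl.mp h1
      rw [← hcd]
      exact Submodule.add_mem _ (Submodule.smul_mem _ _ hyK) (Submodule.smul_mem _ _ (D.fd.W_stab hyK))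
    · exact D.step2 hz0 hQz hz hy0 hQy hyK
  apply iso_le_of_sfull hf
  intro v
  by_cases hQv : Q v = 0
  · exact hall v hQv
  have hv0 : v ≠ 0 := by rintro rfl; exact hQv (QuadraticMap.map_zero Q)
  have hWv0 : W *ᵥ v ≠ 0 := by
    intro h
    apply D.fd.heig v hv0
    rw [h]; exact Submodule.zero_mem _
  have nil : ∀ u : ι → F, u ≠ 0 → u ∉ Submodule.span F {x : ι → F | x ∈ ([] : List (ι → F))} := by
    intro u hu h
    have e1 : {x : ι → F | x ∈ ([] : List (ι → F))} = ∅ := by ext x; simp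
    rw [e1, Submodule.span_empty, Submodule.mem_bot] at h
    exact hu h
  obtain ⟨x, hQx, _, hvx, hWvx⟩ := pick2 D.hQ [] (by simp only [List.length_nil]; omega) (nil v hv0) (nil _ hWv0)
  set c := Q v / B v x with hc
  have hc0 : c ≠ 0 := div_ne_zero hQv hvx
  have h1 : SFull hf M (c • x) := (hall x hQx).smul c
  have hQvx : Q (v + (-c) • x) = 0 := by
    rw [qadd, qsmul, hQx, QuadraticMap.polar_smul_right, smul_eq_mul, hc]
    have := div_mul_cancel₀ (Q v) hvx
    linear_combination -this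
  have h3 : SFull hf M (v + (-c) • x) := hall _ hQvx
  have h4 := h1.add h3 (by
    rw [hf.bilinear.add_right, hf.bilinear.smul_left, hf.bilinear.smul_left, hf.bilinear.smul_right, hf.alternating, mul_zero, mul_zero, add_zero]
    refine mul_ne_zero hc0 ?_
    intro h
    apply hWvx
    rw [D.BWW, D.fW, swap_eq hf h, mul_zero, neg_zero]) 1
  have e1 : c • x + (1 : F) • (v + (-c) • x) = v := by module
  rw [e1] at h4
  exact h4

end Su

end CfsgLib.SpU29
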