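import Cfsg.Agent.LibSpU29

set_option autoImplicit false

/-! Unitary groups over the quadratic extension inside symplectic groups: maximality. -/

namespace CfsgLib.SpU29

open scoped MatrixGroups Matrix
open Cfsg CfsgLib.MaxTv29 CfsgLib.OM29 Cfsg.Agent.H22 Module CfsgLib.OS29 CfsgLib.Uo29 CfsgLib.SympTv29

variable {ι : Type} [Fintype ι] [DecidableEq ι] {F : Type*} [Field F]

theorem su_maximal [Finite F] {f : (ι → F) → (ι → F) → F} (hf : Geo.IsSymplecticForm f) (h13 : 13 ≤ Fintype.card ι) (h2 : (2 : F) ≠ 0) (K : Subalgebra F (Matrix ι ι F))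
    (hK : Geo.IsFieldSubalgebra 2 K) (hac : Geo.IsAdjointClosedFor f K) (hnsa : ¬ Geo.IsSelfAdjointFor f K) :
    Geo.IsMaximalIn (iso f) (Geo.subalgebraNormalizer K ⊓ iso f) := by
  haveI : Fintype F := Fintype.ofFinite F
  haveI : Nonempty ι := Fintype.card_pos_iff.mp (by omega)
  obtain ⟨W0, hW0, hgen0, hns0⟩ := exists_gen hK
  obtain ⟨ν', τ, hsq'⟩ := hgen0 _ (K.mul_mem hW0 hW0)
  -- trace zero generator
  obtain ⟨W, hWdef⟩ : ∃ W, W = W0 - (τ / 2) • (1 : Matrix ι ι F) := ⟨_, rfl⟩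
  have hW : W ∈ K := by rw [hWdef]; exact K.sub_mem hW0 (K.smul_mem K.one_mem _)
  have hW0W : W0 = W + (τ / 2) • (1 : Matrix ι ι F) := by rw [hWdef]; abel
  have hgen : ∀ k ∈ K, ∃ α β : F, k = α • (1 : Matrix ι ι F) + β • W := by
    intro k hk
    obtain ⟨α, β, rfl⟩ := hgen0 k hk
    refine ⟨α + β * (τ / 2), β, ?_⟩
    rw [hW0W]; module
  have hns : ∀ α : F, W ≠ α • (1 : Matrix ι ι F) := by
    intro α h
    apply hns0 (α + τ / 2)
    rw [hW0W, h]; module
  obtain ⟨ε, hεd⟩ : ∃ ε, ε = ν' + (τ / 2) * (τ / 2) := ⟨_, rfl⟩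
  have hWW : W * W = ε • (1 : Matrix ι ι F) := by
    have e1 : W * W = W0 * W0 - τ • W0 + ((τ / 2) * (τ / 2)) • (1 : Matrix ι ι F) := by
      rw [hWdef, sub_mul, mul_sub, mul_sub]
      simp only [Matrix.mul_smul, Matrix.smul_mul, mul_one, one_mul, smul_smul]
      have : τ • W0 = (τ / 2) • W0 + (τ / 2) • W0 := by rw [← add_smul]; congr 1; field_simp; ring
      rw [this]; abel
    rw [e1, hsq', hεd]; module
  have hWWv : ∀ x, W *ᵥ (W *ᵥ x) = ε • x := by
    intro x
    rw [Matrix.mulVec_mulVec, hWW, Matrix.smul_mulVec, Matrix.one_mulVec]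
  have heig : ∀ x, x ≠ 0 → W *ᵥ x ∉ Submodule.span F {x} := by
    intro x hx h
    obtain ⟨c, hc⟩ := Submodule.mem_span_singleton.mp h
    have h1 : (W - c • (1 : Matrix ι ι F)) *ᵥ x = 0 := by
      rw [Matrix.sub_mulVec, Matrix.smul_mulVec, Matrix.one_mulVec, hc, sub_self]
    have h2 := eig_free hK (K.sub_mem hW (K.smul_mem (K.one_mem) c)) hx h1
    exact hns c (sub_eq_zero.mp h2)
  have hfd : Fd W 0 (-ε) := ⟨fun x => by rw [hWWv]; module, heig⟩
  have hε : ε ≠ 0 := by
    rintro h0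
    obtain ⟨x, hx⟩ : ∃ x : ι → F, x ≠ 0 := exists_ne 0
    have hWx : W *ᵥ x ≠ 0 := by
      intro h
      apply heig x hx
      rw [h]; exact Submodule.zero_mem _
    apply heig _ hWx
    rw [hWWv, h0, zero_smul]; exact Submodule.zero_mem _
  -- adjoint
  obtain ⟨W', hW', hadj'⟩ := hac W hW
  have hndg : ∀ x : ι → F, (∀ y, f y x = 0) → x = 0 := by
    intro x h
    by_contra hx
    obtain ⟨⟨y, hy⟩, _⟩ := hf.nondegenerate x hx
    exact hy (h y)
  have hW'ne : W' ≠ W := by
    intro h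
    apply hnsa
    intro k hk u v
    obtain ⟨α, β, rfl⟩ := hgen k hk
    simp only [Matrix.add_mulVec, Matrix.smul_mulVec, Matrix.one_mulVec, hf.bilinear.add_left, hf.bilinear.add_right, hf.bilinear.smul_left, hf.bilinear.smul_right]
    rw [hadj', h]
  have hsqW' : W' * W' = ε • (1 : Matrix ι ι F) := CfsgLib.Uo29.mat_ext fun x => by
    rw [← sub_eq_zero]
    apply hndg
    intro y
    rw [← Matrix.mulVec_mulVec, sub_right hf, ← hadj', ← hadj', hWWv, Matrix.smul_mulVec, Matrix.one_mulVec, hf.bilinear.smul_left, hf.bilinear.smul_right, sub_self]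
  have hW'eq : W' = - W := by
    by_contra hne
    obtain ⟨y, hy, hxy⟩ := hK.inv _ (K.sub_mem hW' hW) (sub_ne_zero.mpr hW'ne)
    have h3 : (W' - W) * (W' + W) = 0 := by
      have e3 := hK.comm W' hW' W hW
      rw [sub_mul, mul_add, mul_add, hsqW', hWW, e3]; abel
    have h4 := hK.comm _ (K.sub_mem hW' hW) y hy
    have h5 : W' + W = 0 := by
      calc W' + W = (y * (W' - W)) * (W' + W) := by rw [← h4, hxy, one_mul]
        _ = 0 := by rw [mul_assoc, h3, mul_zero]
    exact hne (eq_neg_of_add_eq_zero_left h5)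
  have hadj : ∀ x y, f (W *ᵥ x) y = - f x (W *ᵥ y) := by
    intro x y
    rw [hadj', hW'eq, Matrix.neg_mulVec, neg_right hf]
  have hsymm : ∀ x y, f x (W *ᵥ y) = f y (W *ᵥ x) := by
    intro x y
    have h3 : f (W *ᵥ y) x = - f x (W *ᵥ y) := hf.skew _ _
    have h4 := hadj y x
    rw [h3] at h4
    exact neg_injective h4
  -- the quadratic form
  let bl : LinearMap.BilinMap F (ι → F) F := LinearMap.mk₂ F (fun x y => f x (W *ᵥ y) * 2⁻¹)
    (fun x x' y => by rw [hf.bilinear.add_left, add_mul])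
    (fun c x y => by rw [hf.bilinear.smul_left, smul_eq_mul, mul_assoc])
    (fun x y y' => by rw [Matrix.mulVec_add, hf.bilinear.add_right, add_mul])
    (fun c x y => by rw [Matrix.mulVec_smul, hf.bilinear.smul_right, smul_eq_mul, mul_assoc])
  let Q : QuadraticForm F (ι → F) := bl.toQuadraticMap
  have hQap : ∀ x, Q x = f x (W *ᵥ x) * 2⁻¹ := fun x => rfl
  have hpol : ∀ x y, QuadraticMap.polar Q x y = f x (W *ᵥ y) := by
    intro x y
    unfold QuadraticMap.polar
    rw [hQap, hQap, hQap, Matrix.mulVec_add, hf.bilinear.add_left, hf.bilinear.add_right, hf.bilinear.add_right, hsymm y x]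
    have := inv_mul_cancel₀ h2
    linear_combination (f x (W *ᵥ y)) * this
  have hQ : (QuadraticMap.polarBilin Q).Nondegenerate := by
    have hl : ∀ x, (∀ y, QuadraticMap.polar Q x y = 0) → x = 0 := by
      intro x h
      have h3 : ∀ y, f y x = 0 := by
        intro y
        have h4 := h (W *ᵥ y)
        rw [hpol, hWWv, hf.bilinear.smul_right] at h4
        exact swap_eq hf ((mul_eq_zero.mp h4).resolve_left hε)
      exact hndg x h3
    constructor
    · intro x h
      exact hl x h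
    · intro x h
      apply hl x
      intro y
      rw [bsymm]
      exact h y
  -- normaliser
  have hcomm_norm : ∀ g : GL ι F, (∀ x, (g : Matrix ι ι F) *ᵥ (W *ᵥ x) = W *ᵥ ((g : Matrix ι ι F) *ᵥ x)) → g ∈ Geo.subalgebraNormalizer K := by
    intro g hg k
    have h1 : (g : Matrix ι ι F) * W = W * (g : Matrix ι ι F) := CfsgLib.Uo29.mat_ext fun x => by
      rw [← Matrix.mulVec_mulVec, ← Matrix.mulVec_mulVec, hg]
    have hgg : (g : Matrix ι ι F) * ((g⁻¹ : GL ι F) : Matrix ι ι F) = 1 := by rw [← Units.val_mul, mul_inv_cancel, Units.val_one]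
    have hgg' : ((g⁻¹ : GL ι F) : Matrix ι ι F) * (g : Matrix ι ι F) = 1 := by rw [← Units.val_mul, inv_mul_cancel, Units.val_one]
    have h3 : ∀ k ∈ K, (g : Matrix ι ι F) * k * ((g⁻¹ : GL ι F) : Matrix ι ι F) = k := by
      intro k hk
      obtain ⟨α, β, rfl⟩ := hgen k hk
      rw [mul_add, Matrix.mul_smul, Matrix.mul_smul, mul_one, h1, add_mul, Matrix.smul_mul, Matrix.smul_mul, mul_assoc, hgg, mul_one]
    constructor
    · intro hk; rw [h3 k hk]; exact hk
    · intro hk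
      obtain ⟨α, β, hab⟩ := hgen _ hk
      have h4 : k = ((g⁻¹ : GL ι F) : Matrix ι ι F) * (α • (1 : Matrix ι ι F) + β • W) * (g : Matrix ι ι F) := by
        rw [← hab]
        calc k = (((g⁻¹ : GL ι F) : Matrix ι ι F) * (g : Matrix ι ι F)) * k * (((g⁻¹ : GL ι F) : Matrix ι ι F) * (g : Matrix ι ι F)) := by rw [hgg', one_mul, mul_one]
          _ = _ := by simp only [mul_assoc]
      have h5 : ((g⁻¹ : GL ι F) : Matrix ι ι F) * (α • (1 : Matrix ι ι F) + β • W) * (g : Matrix ι ι F) = α • (1 : Matrix ι ι F) + β • W := by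
        rw [mul_add, Matrix.mul_smul, Matrix.mul_smul, mul_one, add_mul, Matrix.smul_mul, Matrix.smul_mul, hgg', mul_assoc, ← h1, ← mul_assoc, hgg', one_mul]
      rw [h4, h5]
      exact K.add_mem (K.smul_mem K.one_mem _) (K.smul_mem hW _)
  have hself : ∀ x, Q x = 0 → f x (W *ᵥ x) = 0 := by
    intro x hx
    rw [hQap] at hx
    exact (mul_eq_zero.mp hx).resolve_right (inv_ne_zero h2)
  have hHM : ∀ x, Q x = 0 → ∀ c : F, st hf (W *ᵥ x) c * st hf x (-(ε * c)) ∈ Geo.subalgebraNormalizer K ⊓ iso f := by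
    intro x hx c
    refine ⟨hcomm_norm _ fun y => ?_, (iso f).mul_mem (st_mem_iso hf _ _) (st_mem_iso hf _ _)⟩
    simp only [Units.val_mul, ← Matrix.mulVec_mulVec, st_mulVec, hf.bilinear.add_left, hf.bilinear.smul_left, Matrix.mulVec_add, Matrix.mulVec_smul, hWWv, hadj, hself x hx,
      hf.bilinear.smul_right]
    module
  have mkD : ∀ M : Subgroup (GL ι F), Geo.subalgebraNormalizer K ⊓ iso f ≤ M → M ≤ iso f → Su hf Q W ε M := fun M hHM' hMS =>
    ⟨hQ, h13, h2, hfd, hε, hpol, hMS, fun x hx c => hHM' (hHM x hx c)⟩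
  refine ⟨lt_of_le_of_ne inf_le_right ?_, fun M hHM' hMS => ?_⟩
  · intro heq
    obtain ⟨v, hv⟩ : ∃ v : ι → F, v ≠ 0 := exists_ne 0
    have hg := st_mem_iso hf v 1
    rw [← heq] at hg
    have h1 := (hg.1 W).mp hW
    obtain ⟨α, β, hαβ⟩ := hgen _ h1
    have h3 : ∀ x, ((st hf v 1 : GL ι F) : Matrix ι ι F) *ᵥ (W *ᵥ x) = α • (((st hf v 1 : GL ι F) : Matrix ι ι F) *ᵥ x) + β • (W *ᵥ (((st hf v 1 : GL ι F) : Matrix ι ι F) *ᵥ x)) := by
      intro x
      have h4 : ((st hf v 1 : GL ι F) : Matrix ι ι F) * W = (α • (1 : Matrix ι ι F) + β • W) * ((st hf v 1 : GL ι F) : Matrix ι ι F) := by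
        rw [← hαβ, mul_assoc, ← Units.val_mul, inv_mul_cancel, Units.val_one, mul_one]
      rw [Matrix.mulVec_mulVec, h4, ← Matrix.mulVec_mulVec, Matrix.add_mulVec, Matrix.smul_mulVec, Matrix.smul_mulVec, Matrix.one_mulVec]
    obtain ⟨x, hQx, hx, hx0'⟩ := pick hQ [v, W *ᵥ v] [] (by simp only [List.length_cons, List.length_nil]; omega)
    have hx0 : x ≠ 0 := by rintro rfl; exact hx0' (Submodule.zero_mem _)
    have b1 : QuadraticMap.polar Q v x = 0 := hx v (by simp)
    have b2 : QuadraticMap.polar Q (W *ᵥ v) x = 0 := hx _ (by simp)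
    have x1 : f x v = 0 := by
      have D := mkD (iso f) inf_le_right le_rfl
      exact swap_eq hf (D.f0' b2)
    have x2 : f (W *ᵥ x) v = 0 := by
      rw [hadj, hsymm, ← hpol, b1, neg_zero]
    have h4 := h3 x
    rw [st_mulVec, st_mulVec, x1, x2] at h4
    simp only [mul_zero, zero_smul, add_zero] at h4
    have h5 : (1 - β) • (W *ᵥ x) = α • x := by
      have : (1 - β) • (W *ᵥ x) = W *ᵥ x - β • (W *ᵥ x) := by module
      rw [this, sub_eq_iff_eq_add]; exact h4
    have hβ : β = 1 := by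
      by_contra hne
      apply heig x hx0
      rw [Submodule.mem_span_singleton]
      refine ⟨(1 - β)⁻¹ * α, ?_⟩
      rw [← smul_smul, ← h5, smul_smul, inv_mul_cancel₀ (sub_ne_zero.mpr (Ne.symm hne)), one_smul]
    have hα : α = 0 := by
      rw [hβ, sub_self, zero_smul] at h5
      exact (smul_eq_zero.mp h5.symm).resolve_right hx0
    obtain ⟨⟨y, hy⟩, _⟩ := hf.nondegenerate v hv
    have h6 := h3 y
    rw [hα, hβ, zero_smul, zero_add, one_smul, st_mulVec, st_mulVec, Matrix.mulVec_add, Matrix.mulVec_smul, add_right_inj] at h6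
    apply heig v hv
    rw [Submodule.mem_span_singleton]
    refine ⟨(1 * f y v)⁻¹ * (1 * f (W *ᵥ y) v), ?_⟩
    rw [← smul_smul, h6, smul_smul, inv_mul_cancel₀ (by rw [one_mul]; exact hy), one_smul]
  · by_cases hbad : iso f ≤ M
    · exact Or.inr (le_antisymm hMS hbad)
    left
    refine le_antisymm (le_inf ?_ hMS) hHM'
    have D := mkD M hHM' hMS
    have hline : ∀ g ∈ M, ∀ x, Q x = 0 → (g : Matrix ι ι F) *ᵥ (W *ᵥ x) ∈ Kl W ((g : Matrix ι ι F) *ᵥ x) := by
      intro g hg x hx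
      have hgi : g ∈ iso f := hMS hg
      by_contra hne
      apply hbad
      have hx0 : x ≠ 0 := by rintro rfl; simp at hne
      obtain ⟨z, hz0, hQz, hz⟩ := D.step1 (a := (g : Matrix ι ι F) *ᵥ x) (b := (g : Matrix ι ι F) *ᵥ (W *ᵥ x)) (by
          intro h
          exact hx0 (mulVec_injective g (by simp only [h, Matrix.mulVec_zero])))
        (by rw [(mem_iso g).mp hgi]; exact hself x hx) hne (by
          intro c
          have h1 := M.mul_mem (M.mul_mem hg (D.hM x hx c)) (M.inv_mem hg)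
          have h3 : g * (st hf (W *ᵥ x) c * st hf x (-(ε * c))) * g⁻¹ = (g * st hf (W *ᵥ x) c * g⁻¹) * (g * st hf x (-(ε * c)) * g⁻¹) := by group
          rw [h3, st_conj hf g hgi, st_conj hf g hgi] at h1
          exact h1)
      exact D.step3 hz0 hQz hz
    have hconj : ∀ g ∈ M, ∀ k ∈ K, (g : Matrix ι ι F) * k * ((g⁻¹ : GL ι F) : Matrix ι ι F) ∈ K := by
      intro g hg k hk
      have hgg : (g : Matrix ι ι F) * ((g⁻¹ : GL ι F) : Matrix ι ι F) = 1 := by rw [← Units.val_mul, mul_inv_cancel, Units.val_one]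
      have hgg' : ((g⁻¹ : GL ι F) : Matrix ι ι F) * (g : Matrix ι ι F) = 1 := by rw [← Units.val_mul, inv_mul_cancel, Units.val_one]
      set Wg := ((g⁻¹ : GL ι F) : Matrix ι ι F) * W * (g : Matrix ι ι F) with hWg
      have hWgv : ∀ x, Wg *ᵥ x = ((g⁻¹ : GL ι F) : Matrix ι ι F) *ᵥ (W *ᵥ ((g : Matrix ι ι F) *ᵥ x)) := by
        intro x
        rw [hWg, ← Matrix.mulVec_mulVec, ← Matrix.mulVec_mulVec]
      have hfdg : Fd Wg 0 (-ε) := by
        refine ⟨fun x => ?_, fun x hx h => ?_⟩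
        · rw [hWgv, hWgv, mulVec_inv_mulVec, hWWv, Matrix.mulVec_smul, inv_mulVec_mulVec]; module
        · obtain ⟨c, hc⟩ := Submodule.mem_span_singleton.mp h
          rw [hWgv] at hc
          have h1 : W *ᵥ ((g : Matrix ι ι F) *ᵥ x) = c • ((g : Matrix ι ι F) *ᵥ x) := by
            rw [← Matrix.mulVec_smul, hc, mulVec_inv_mulVec]
          apply heig ((g : Matrix ι ι F) *ᵥ x) (fun h0 => hx (mulVec_injective g (by simp only [h0, Matrix.mulVec_zero])))
          rw [h1]
          exact Submodule.smul_mem _ _ (Submodule.mem_span_singleton_self _)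
      obtain ⟨α, β, hφ⟩ := hfdg.scalar hQ h13 W (by
        intro y hy
        obtain ⟨α, β, hab⟩ := mem_Kl.mp (hline g hg y hy)
        refine mem_Kl.mpr ⟨α, β, ?_⟩
        rw [hWgv]
        apply mulVec_injective g
        simp only [Matrix.mulVec_add, Matrix.mulVec_smul, mulVec_inv_mulVec]
        exact hab)
      -- `g W g⁻¹ = α + β W`
      have h1 : (g : Matrix ι ι F) * W * ((g⁻¹ : GL ι F) : Matrix ι ι F) = α • (1 : Matrix ι ι F) + β • W := CfsgLib.Uo29.mat_ext fun x => by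
        rw [← Matrix.mulVec_mulVec, ← Matrix.mulVec_mulVec, hφ, hWgv, mulVec_inv_mulVec, Matrix.mulVec_add, Matrix.mulVec_smul, Matrix.mulVec_smul, mulVec_inv_mulVec, mulVec_inv_mulVec,
          Matrix.add_mulVec, Matrix.smul_mulVec, Matrix.smul_mulVec, Matrix.one_mulVec]
      obtain ⟨γ, δ, rfl⟩ := hgen k hk
      have h3 : (g : Matrix ι ι F) * (γ • (1 : Matrix ι ι F) + δ • W) * ((g⁻¹ : GL ι F) : Matrix ι ι F) = γ • (1 : Matrix ι ι F) + δ • (α • (1 : Matrix ι ι F) + β • W) := by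
        rw [mul_add, Matrix.mul_smul, Matrix.mul_smul, mul_one, add_mul, Matrix.smul_mul, Matrix.smul_mul, hgg, h1]
      rw [h3]
      exact K.add_mem (K.smul_mem K.one_mem _) (K.smul_mem (K.add_mem (K.smul_mem K.one_mem _) (K.smul_mem hW _)) _)
    intro g hg k
    refine ⟨hconj g hg k, fun h => ?_⟩
    have h1 := hconj g⁻¹ (M.inv_mem hg) _ h
    rw [inv_inv] at h1
    have h3 : ((g⁻¹ : GL ι F) : Matrix ι ι F) * ((g : Matrix ι ι F) * k * ((g⁻¹ : GL ι F) : Matrix ι ι F)) * (g : Matrix ι ι F) = k := by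
      calc _ = (((g⁻¹ : GL ι F) : Matrix ι ι F) * (g : Matrix ι ι F)) * k * (((g⁻¹ : GL ι F) : Matrix ι ι F) * (g : Matrix ι ι F)) := by
            simp only [mul_assoc]
        _ = k := by rw [← Units.val_mul, inv_mul_cancel, Units.val_one, one_mul, mul_one]
    rw [h3] at h1
    exact h1

end CfsgLib.SpU29
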