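import Cfsg.Prelude.Def_SporCoxeter
set_option autoImplicit false
set_option linter.all false

/-! The subgroup of the presented Fi₂₂ on the letters b, …, i. -/

namespace Cfsg
namespace Spor

namespace Fi22W

inductive Gen
  | b
  | c
  | d
  | e
  | f
  | g
  | h
  | i
  deriving DecidableEq

abbrev b : FreeGroup Gen := FreeGroup.of Gen.b
abbrev c : FreeGroup Gen := FreeGroup.of Gen.c
abbrev d : FreeGroup Gen := FreeGroup.of Gen.d
abbrev e : FreeGroup Gen := FreeGroup.of Gen.e
abbrev f : FreeGroup Gen := FreeGroup.of Gen.f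
abbrev g : FreeGroup Gen := FreeGroup.of Gen.g
abbrev h : FreeGroup Gen := FreeGroup.of Gen.h
abbrev i : FreeGroup Gen := FreeGroup.of Gen.i

def edges : List (Gen × ℕ × Gen) :=
  [(.b, 3, .c), (.c, 3, .d), (.d, 3, .e), (.d, 3, .h), (.e, 3, .f), (.f, 3, .g), (.h, 3, .i)]

def extra : List (FreeGroup Gen) := [
  (d * c * b * d * e * f * d * h * i) ^ 10,
  (b * c * d * e * f * g * h) ^ 9 ]

end Fi22W

abbrev Fi22W : Type := CoxPresented Fi22W.Gen Fi22W.edges Fi22W.extra

end Spor
end Cfsg
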