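import Cfsg.Agent.LibDC15b
import Cfsg.Agent.LibCharBasic3

set_option autoImplicit false
set_option linter.unusedSectionVars false

/-! The Steinberg character is irreducible (seat helper15). -/

namespace CfsgLib.Chev

open Cfsg.Lie Matrix Cfsg CfsgLib.CharBasic
open scoped ComplexConjugate

theorem fpc_char {G : Type*} [Group G] [Finite G] (P : Subgroup G) : IsCharacter G (fixedPointCharacter P) := by
  have : Fintype (G ⧸ P) := Fintype.ofFinite _
  exact isCharacter_perm (X := G ⧸ P)

namespace Good3

variable {D : ChevalleyDatum} {T : Tb} (g : Good3 D T)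
include g

section Mat
variable {F : Type*} [Field F]

theorem stein_eq : D.steinbergCharacter F = fun x => ∑ J ∈ (Finset.range T.l).powerset,
    (-1 : ℂ) ^ J.card * fixedPointCharacter (D.parabolicIn F J) x := by
  have hrk : (Finset.range D.rank).powerset = (Finset.range T.l).powerset := congrArg (fun k => (Finset.range k).powerset) g.hl
  funext x
  unfold ChevalleyDatum.steinbergCharacter
  rw [hrk]

theorem stein_gen [Finite F] : IsGeneralizedCharacter ↥(D.group F) (D.steinbergCharacter F) := by
  have : Fintype ↥(D.group F) := Fintype.ofFinite _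
  have e : D.steinbergCharacter F = ∑ J ∈ (Finset.range T.l).powerset,
      (((-1 : ℤ) ^ J.card : ℤ) : ℂ) • fixedPointCharacter (D.parabolicIn F J) := by
    rw [g.stein_eq]
    funext x
    rw [Finset.sum_apply]
    apply Finset.sum_congr rfl
    intro J _
    rw [Pi.smul_apply, smul_eq_mul]
    push_cast
    rfl
  rw [e]
  apply gen_sum
  intro J _
  exact gen_intsmul (gen_of_char (fpc_char _)) _

theorem stein_conj (x : ↥(D.group F)) : conj (D.steinbergCharacter F x) = D.steinbergCharacter F x := by
  rw [g.stein_eq]
  simp only [map_sum, map_mul, map_pow, map_neg, map_one]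
  apply Finset.sum_congr rfl
  intro J _
  unfold fixedPointCharacter
  rw [Complex.conj_natCast]

theorem stein_norm [Fintype F] [Fintype ↥(D.group F)] : classInner (D.steinbergCharacter F) (D.steinbergCharacter F) = 1 := by
  unfold classInner
  have e1 : ∀ x : ↥(D.group F), D.steinbergCharacter F x * conj (D.steinbergCharacter F x) =
      ∑ I ∈ (Finset.range T.l).powerset, ∑ J ∈ (Finset.range T.l).powerset, (-1 : ℂ) ^ I.card * ((-1 : ℂ) ^ J.card *
        (fixedPointCharacter (D.parabolicIn F I) x * fixedPointCharacter (D.parabolicIn F J) x)) := by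
    intro x
    rw [g.stein_conj, g.stein_eq, Finset.sum_mul_sum]
    apply Finset.sum_congr rfl
    intro I _
    apply Finset.sum_congr rfl
    intro J _
    ring
  rw [Finset.sum_congr rfl (fun x _ => e1 x), Finset.sum_comm, Finset.mul_sum]
  have e2 : ∀ I ∈ (Finset.range T.l).powerset, (Nat.card ↥(D.group F) : ℂ)⁻¹ * ∑ x : ↥(D.group F),
      ∑ J ∈ (Finset.range T.l).powerset, (-1 : ℂ) ^ I.card * ((-1 : ℂ) ^ J.card *
        (fixedPointCharacter (D.parabolicIn F I) x * fixedPointCharacter (D.parabolicIn F J) x)) =
      ∑ J ∈ (Finset.range T.l).powerset, (-1 : ℂ) ^ I.card * ((-1 : ℂ) ^ J.card *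
        (Nat.card (MulAction.orbitRel.Quotient ↥(D.group F) ((↥(D.group F) ⧸ D.parabolicIn F I) × (↥(D.group F) ⧸ D.parabolicIn F J))) : ℂ)) := by
    intro I _
    rw [Finset.sum_comm, Finset.mul_sum]
    apply Finset.sum_congr rfl
    intro J _
    rw [← CfsgLib.Unip.burnside_pair, ← Finset.mul_sum, ← Finset.mul_sum]
    ring
  rw [Finset.sum_congr rfl e2]
  have h := AltSum.norm_sum (g.sys2 (F := F))
  have h2 := congrArg (Int.cast : ℤ → ℂ) h
  push_cast at h2
  exact h2

theorem stein_irr [Fintype F] : IsIrrCharacter ↥(D.group F) (D.steinbergCharacter F) := by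
  have : Fintype ↥(D.group F) := Fintype.ofFinite _
  apply irr_of_gen_norm_one_pos g.stein_gen g.stein_norm
  rw [g.stein_one]
  have : 0 < Nat.card ↥(D.posUnipotent F) := Nat.card_pos
  simp only [Complex.natCast_re]
  exact_mod_cast this

end Mat

end Good3

end CfsgLib.Chev
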