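import Cfsg.Agent.LibStIrr15
import Cfsg.Agent.LibDZ19

set_option autoImplicit false
set_option linter.unusedSectionVars false

/-! The Steinberg character has defect zero (seat helper15). -/

namespace CfsgLib.Chev

open Cfsg.Lie Matrix Cfsg CfsgLib.CharBasic
open scoped ComplexConjugate

namespace Good3

variable {D : ChevalleyDatum} {T : Tb} (g : Good3 D T)
include g

section Mat
variable {F : Type*} [Field F]

theorem card_U_part [Fintype F] {p : ℕ} [Fact p.Prime] [CharP F p] :
    Nat.card ↥(D.posUnipotent F) = p ^ (Nat.card ↥(D.group F)).factorization p := by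
  have hp : p.Prime := Fact.out
  have h1 : IsPGroup p ↥(D.posUnipotent F) := g.U_pgroup
  obtain ⟨k, hk⟩ := IsPGroup.iff_card.1 h1
  have h2 := ((D.posUnipotent F).subgroupOf (D.group F)).card_mul_index
  rw [g.card_sub g.U_le_G] at h2
  have h3 := g.index_U (F := F) (p := p)
  rw [← h2, hk, Nat.factorization_mul (pow_ne_zero _ hp.ne_zero) (Subgroup.index_ne_zero_of_finite), Finsupp.add_apply,
    Nat.factorization_pow, Finsupp.smul_apply, hp.factorization_self, Nat.factorization_eq_zero_of_not_dvd h3]
  simp

theorem stein_deg [Fintype F] {p : ℕ} [Fact p.Prime] [CharP F p] :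
    (charDegree (D.steinbergCharacter F)).factorization p = (Nat.card ↥(D.group F)).factorization p := by
  have hp : p.Prime := Fact.out
  have h1 : charDegree (D.steinbergCharacter F) = Nat.card ↥(D.posUnipotent F) := by
    unfold charDegree
    rw [g.stein_one]
    simp
  rw [h1, g.card_U_part (p := p), Nat.factorization_pow, Finsupp.smul_apply, hp.factorization_self]
  simp

theorem stein_vanish [Fintype F] {p : ℕ} [Fact p.Prime] [CharP F p] {x : ↥(D.group F)} (hx : p ∣ orderOf x) :
    D.steinbergCharacter F x = 0 :=
  CfsgLib.DZ19.vanish g.stein_irr g.stein_deg hx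

end Mat

end Good3

end CfsgLib.Chev
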