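import Cfsg.Agent.LibStC

set_option autoImplicit false
set_option linter.unusedSectionVars false
set_option linter.unusedVariables false

/-! Central extensions of Chevalley groups: lifting the root elements -/

namespace CfsgLib.Chev

open Cfsg.Lie Matrix

namespace Good3

variable {D : ChevalleyDatum} {T : Tb} (g : Good3 D T)
include g

theorem both_aux : ∀ (k s r : ℕ), s = k → s < T.n → T.n / 2 ≤ s → r < T.n → T.n / 2 ≤ r → r ≠ s →
    ∃ w, VW T w ∧ ((T.n / 2 ≤ wact T w r ∧ T.n / 2 ≤ wact T w (T.n - 1 - s)) ∨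
      (wact T w r < T.n / 2 ∧ wact T w (T.n - 1 - s) < T.n / 2)) := by
  have hev := g.even
  intro k
  induction k using Nat.strong_induction_on with
  | _ k ih =>
    intro s r hk hs hsp hr hrp hne
    have hsim : ∀ j < T.l, s = T.sim j → ∃ w, VW T w ∧ ((T.n / 2 ≤ wact T w r ∧ T.n / 2 ≤ wact T w (T.n - 1 - s)) ∨
      (wact T w r < T.n / 2 ∧ wact T w (T.n - 1 - s) < T.n / 2)) := by
      intro j hj hsj
      refine ⟨[j], g.VW_single hj, Or.inl ⟨?_, ?_⟩⟩
      · rw [wact_cons, wact_nil]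
        exact g.w_pos hj hr hrp (fun h => hne (h.trans hsj.symm))
      · rw [wact_cons, wact_nil, g.w_neg hj hs, hsj, g.w_sim hj]
        have := g.sim_lt hj
        have := g.sim_pos hj
        omega
    rcases g.down hs hsp with ⟨j, hj, hsj⟩ | ⟨j, hj, hlt⟩
    · exact hsim j hj hsj
    · by_cases hsj : s = T.sim j
      · exact hsim j hj hsj
      · have h1 := g.w_pos hj hs hsp hsj
        have h2 := g.w_lt hj hs
        by_cases hrj : r = T.sim j
        · refine ⟨[j], g.VW_single hj, Or.inr ⟨?_, ?_⟩⟩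
          · rw [wact_cons, wact_nil, hrj, g.w_sim hj]
            have := g.sim_lt hj
            have := g.sim_pos hj
            omega
          · rw [wact_cons, wact_nil, g.w_neg hj hs]
            omega
        · have h3 := g.w_pos hj hr hrp hrj
          have h4 := g.w_lt hj hr
          obtain ⟨w, hw, h5⟩ := ih (T.w j s) (by omega) (T.w j s) (T.w j r) rfl h2 h1 h4 h3
            (fun h => hne (g.w_inj hj hr hs h))
          refine ⟨w ++ [j], g.VW_append hw (g.VW_single hj), ?_⟩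
          rw [wact_append, wact_cons, wact_nil, wact_append, wact_cons, wact_nil, g.w_neg hj hs]
          exact h5

theorem both_neg {r s : ℕ} (hr : r < T.n) (hs : s < T.n) (h1 : r < T.n / 2) (h2 : s < T.n / 2) :
    ∃ w, VW T w ∧ T.n / 2 ≤ wact T w r ∧ T.n / 2 ≤ wact T w s := by
  have hev := g.even
  obtain ⟨w, hw, hl⟩ := g.exists_longest
  have key : ∀ r < T.n / 2, T.n / 2 ≤ wact T w r := by
    intro r hr
    have h3 := hl (T.n - 1 - r) (by omega) (by omega)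
    rw [g.wact_neg hw (by omega)] at h3
    have := g.wact_lt hw (s := r) (by omega)
    omega
  exact ⟨w, hw, key r h1, key s h2⟩

/-- two roots, not opposite, can be made positive simultaneously -/
theorem both_pos {r s : ℕ} (hr : r < T.n) (hs : s < T.n) (h1 : s ≠ T.n - 1 - r) :
    ∃ w, VW T w ∧ T.n / 2 ≤ wact T w r ∧ T.n / 2 ≤ wact T w s := by
  have hev := g.even
  have step : ∀ w r s, VW T w → r < T.n → s < T.n → wact T w r < T.n / 2 → wact T w s < T.n / 2 →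
      ∃ w, VW T w ∧ T.n / 2 ≤ wact T w r ∧ T.n / 2 ≤ wact T w s := by
    intro w r s hw hr hs h3 h4
    obtain ⟨w', hw', h5, h6⟩ := g.both_neg (g.wact_lt hw hr) (g.wact_lt hw hs) h3 h4
    exact ⟨w' ++ w, g.VW_append hw' hw, by rw [wact_append]; exact h5, by rw [wact_append]; exact h6⟩
  by_cases hrp : T.n / 2 ≤ r
  · by_cases hsp : T.n / 2 ≤ s
    · exact ⟨[], by intro i hi; simp at hi, hrp, hsp⟩
    · obtain ⟨w, hw, h⟩ := g.both_aux _ (T.n - 1 - s) r rfl (by omega) (by omega) hr hrp (by omega)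
      have e : T.n - 1 - (T.n - 1 - s) = s := by omega
      rw [e] at h
      rcases h with h | h
      · exact ⟨w, hw, h⟩
      · exact step w r s hw hr hs h.1 h.2
  · by_cases hsp : T.n / 2 ≤ s
    · obtain ⟨w, hw, h⟩ := g.both_aux _ (T.n - 1 - r) s rfl (by omega) (by omega) hs hsp (by omega)
      have e : T.n - 1 - (T.n - 1 - r) = r := by omega
      rw [e] at h
      rcases h with h | h
      · exact ⟨w, hw, h.2, h.1⟩
      · exact step w r s hw hr hs h.2 h.1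
    · exact g.both_neg hr hs (by omega) (by omega)

theorem pair_comm {r s : ℕ} (hr : r < T.n) (hs : s < T.n) (h1 : s ≠ r) (h2 : s ≠ T.n - 1 - r) (x : ℕ) :
    ∀ c ∈ Tb.commT T.ent r s, T.pair x c.1 = (c.2.2.1 : ℤ) * T.pair x r + (c.2.2.2 : ℤ) * T.pair x s := by
  intro c hc
  obtain ⟨_, _, hv⟩ := g.comm_v hr hs h1 h2 c hc
  rw [g.pair_lin x (g.commT_lt hr hs c hc), g.pair_lin x hr, g.pair_lin x hs, Finset.mul_sum, Finset.mul_sum, ← Finset.sum_add_distrib]
  apply Finset.sum_congr rfl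
  intro j hj
  rw [hv j (Finset.mem_range.1 hj)]
  ring

theorem hd_X {F : Type*} [Field F] {r s : ℕ} (hr : r < T.n) (hs : s < T.n) (c : Fˣ) (t : F) :
    hd D T s c * g.X r t * (hd D T s c)⁻¹ = g.X r (((c ^ T.pair s r : Fˣ) : F) * t) := by
  rw [g.hd_eq_tor, g.tor_X _ hr]
  have h5 := CfsgLib.Chev.Good3.dg_inj (g.hd_eq_tor (D := D) (F := F) s c) r (by rw [g.hn]; exact hr)
  have h6 : chi T (fun j => c ^ T.pair s (T.sim j)) r = c ^ T.pair s r := h5.symm
  rw [h6]; group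

end Good3

/-- a central extension of the Chevalley group -/
structure CE {D : ChevalleyDatum} {T : Tb} (g : Good3 D T) (F : Type*) [Field F] (E : Type*) [Group E] where
  p : E →* GL D.Idx F
  hr : p.range = D.group F
  hc : p.ker ≤ Subgroup.center E
  a : Fˣ
  ha : (a : F) ^ 2 - 1 ≠ 0

namespace CE

variable {D : ChevalleyDatum} {T : Tb} {g : Good3 D T} {F : Type*} [Field F] {E : Type*} [Group E] (C : CE g F E)

theorem central {e : E} (he : C.p e = 1) (x : E) : e * x = x * e := by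
  have := C.hc (MonoidHom.mem_ker.2 he)
  rw [Subgroup.mem_center_iff] at this
  exact (this x).symm

theorem comm_congr {a a' b b' : E} (h1 : C.p a = C.p a') (h2 : C.p b = C.p b') :
    a * b * a⁻¹ * b⁻¹ = a' * b' * a'⁻¹ * b'⁻¹ := by
  obtain ⟨z, ea, e1⟩ : ∃ z, a = a' * z ∧ C.p z = 1 := ⟨a'⁻¹ * a, by group, by rw [map_mul, map_inv, h1, inv_mul_cancel]⟩
  obtain ⟨z', eb, e2⟩ : ∃ z, b = b' * z ∧ C.p z = 1 := ⟨b'⁻¹ * b, by group, by rw [map_mul, map_inv, h2, inv_mul_cancel]⟩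
  have c1 := C.central e1
  have c2 := C.central e2
  rw [ea, eb, _root_.mul_inv_rev, _root_.mul_inv_rev]
  calc a' * z * (b' * z') * (z⁻¹ * a'⁻¹) * (z'⁻¹ * b'⁻¹) = a' * (z * (b' * z')) * (z⁻¹ * a'⁻¹) * (z'⁻¹ * b'⁻¹) := by group
    _ = a' * b' * (z' * a'⁻¹) * (z'⁻¹ * b'⁻¹) := by rw [c1]; group
    _ = _ := by rw [c2]; group

theorem ex_lift {z : GL D.Idx F} (hz : z ∈ D.group F) : ∃ e, C.p e = z := by
  rw [← C.hr] at hz; exact hz

open Classical in
noncomputable def lf (z : GL D.Idx F) : E := if h : z ∈ D.group F then (C.ex_lift h).choose else 1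

theorem p_lf {z : GL D.Idx F} (hz : z ∈ D.group F) : C.p (C.lf z) = z := by
  unfold lf
  rw [dif_pos hz]
  exact (C.ex_lift hz).choose_spec

/-- the canonical lifts of the root elements -/
noncomputable def y (r : ℕ) (t : F) : E :=
  C.lf (hd D T r C.a) * C.lf (g.X r (t / ((C.a : F) ^ 2 - 1))) * (C.lf (hd D T r C.a))⁻¹ * (C.lf (g.X r (t / ((C.a : F) ^ 2 - 1))))⁻¹

theorem y_eq {r : ℕ} (hr : r < T.n) {t : F} {e1 e2 : E} (h1 : C.p e1 = hd D T r C.a)
    (h2 : C.p e2 = g.X r (t / ((C.a : F) ^ 2 - 1))) : e1 * e2 * e1⁻¹ * e2⁻¹ = C.y r t := by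
  unfold y
  apply C.comm_congr
  · rw [h1, C.p_lf (g.H_le_G (g.hd_mem hr _))]
  · rw [h2, C.p_lf (g.X_mem_G _ _)]

theorem p_y {r : ℕ} (hr : r < T.n) (t : F) : C.p (C.y r t) = g.X r t := by
  unfold y
  rw [map_mul, map_mul, map_mul, map_inv, map_inv, C.p_lf (g.H_le_G (g.hd_mem hr _)), C.p_lf (g.X_mem_G _ _),
    g.hd_X hr hr, g.pair_self hr, ← g.X_neg, ← g.X_add]
  congr 1
  have := C.ha
  have e : ((C.a ^ (2 : ℤ) : Fˣ) : F) = (C.a : F) ^ 2 := by
    rw [show (2 : ℤ) = ((2 : ℕ) : ℤ) from rfl, zpow_natCast, Units.val_pow_eq_pow_val]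
  rw [e]
  field_simp
  ring

theorem conj_y {e : E} {r r' : ℕ} (hr : r < T.n) (hr' : r' < T.n) {t t' : F}
    (hh : C.p e * hd D T r C.a * (C.p e)⁻¹ = hd D T r' C.a)
    (hx : C.p e * g.X r (t / ((C.a : F) ^ 2 - 1)) * (C.p e)⁻¹ = g.X r' (t' / ((C.a : F) ^ 2 - 1))) :
    e * C.y r t * e⁻¹ = C.y r' t' := by
  rw [← C.y_eq hr' (t := t') (e1 := e * C.lf (hd D T r C.a) * e⁻¹) (e2 := e * C.lf (g.X r (t / ((C.a : F) ^ 2 - 1))) * e⁻¹)]
  · unfold y; group
  · rw [map_mul, map_mul, map_inv, C.p_lf (g.H_le_G (g.hd_mem hr _)), hh]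
  · rw [map_mul, map_mul, map_inv, C.p_lf (g.X_mem_G _ _), hx]

theorem hd_y {e : E} {s : ℕ} (hs : s < T.n) {v : Fˣ} (he : C.p e = hd D T s v) {r : ℕ} (hr : r < T.n) (t : F) :
    e * C.y r t * e⁻¹ = C.y r (((v ^ T.pair s r : Fˣ) : F) * t) := by
  apply C.conj_y hr hr
  · rw [he, hd, hd, Good3.dg_mul, Good3.dg_inv, Good3.dg_mul]
    apply Good3.dg_congr
    intro k _
    rw [mul_comm (v ^ T.pair s k), mul_assoc, mul_inv_cancel, mul_one]
  · rw [he, g.hd_X hr hs, mul_div_assoc]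

theorem nn_y {e : E} {i : ℕ} (hi : i < T.l) (he : C.p e = g.nn i) {r : ℕ} (hr : r < T.n) (t : F) :
    e * C.y r t * e⁻¹ = C.y (T.w i r) (((T.eta i r : ℤ) : F) * t) := by
  apply C.conj_y hr (g.w_lt hi hr)
  · rw [he, g.nn_hd hi hr]
  · rw [he, g.nn_X_conj hi hr, mul_div_assoc]

theorem nw_y {e : E} {w : List ℕ} (hw : VW T w) (he : C.p e = g.nw w) {r : ℕ} (hr : r < T.n) (t : F) :
    e * C.y r t * e⁻¹ = C.y (wact T w r) (((sgn T w r : ℤ) : F) * t) := by
  apply C.conj_y hr (g.wact_lt hw hr)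
  · rw [he, g.nw_hd hw hr]
  · rw [he, g.nw_X hw hr, mul_div_assoc]

/-- check on pairings -/
noncomputable def _root_.CfsgLib.Chev.chkPQ (T : Tb) : Bool :=
  (List.range T.l).all fun i => (List.range T.n).all fun s => Nat.beq s (T.sim i) || Nat.beq s (T.n - 1 - T.sim i) ||
    (decide (T.pair (T.sim i) s = 0) && decide (T.pair s (T.sim i) = 0)) || decide (T.pair (T.sim i) s * T.pair s (T.sim i) = 1) ||
    decide (T.pair (T.sim i) s * T.pair s (T.sim i) = 2) || decide (T.pair (T.sim i) s * T.pair s (T.sim i) = 3)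

theorem _root_.CfsgLib.Chev.Good3.pq {D : ChevalleyDatum} {T : Tb} (g : Good3 D T) (h : chkPQ T = true) : ∀ r < T.n, ∀ s < T.n,
    s ≠ r → s ≠ T.n - 1 - r → (T.pair r s = 0 ∧ T.pair s r = 0) ∨ T.pair r s * T.pair s r = 1 ∨ T.pair r s * T.pair s r = 2 ∨
      T.pair r s * T.pair s r = 3 := by
  apply g.root_ind
  · intro i hi s hs h1 h2
    unfold chkPQ at h
    simp only [List.all_eq_true, List.mem_range, Bool.or_eq_true, Bool.and_eq_true, decide_eq_true_eq, Nat.beq_eq] at h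
    have := h i hi s hs
    tauto
  · intro i hi r hr ih s hs h1 h2
    have := ih (T.w i s) (g.w_lt hi hs) (fun h => h1 (g.w_inj hi hs hr h)) (fun h => by
      rw [← g.w_neg hi hr] at h
      exact h2 (g.w_inj hi hs (by omega) h))
    rwa [g.pair_w hi hr hs, g.pair_w hi hs hr] at this

/-- torus elements fixing one root element and moving the other -/
theorem ex_tor (hpq : chkPQ T = true) (hF : ∀ k : ℕ, k = 1 ∨ k = 2 ∨ k = 3 → ∃ v : Fˣ, v ^ k ≠ 1)
    {r s : ℕ} (hr : r < T.n) (hs : s < T.n) (h1 : s ≠ r) (h2 : s ≠ T.n - 1 - r) :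
    ∃ (e : E) (χ : ℕ → Fˣ), (∀ k < T.n, ∀ t : F, e * C.y k t * e⁻¹ = C.y k ((χ k : F) * t)) ∧ χ r = 1 ∧ χ s ≠ 1 ∧
      ∀ c ∈ Tb.commT T.ent r s, χ c.1 = χ r ^ c.2.2.1 * χ s ^ c.2.2.2 := by
  have hcomb : ∀ (u v : Fˣ), ∃ (e : E) (χ : ℕ → Fˣ), (∀ k < T.n, ∀ t : F, e * C.y k t * e⁻¹ = C.y k ((χ k : F) * t)) ∧
      (∀ k, χ k = u ^ T.pair s k * v ^ T.pair r k) ∧ ∀ c ∈ Tb.commT T.ent r s, χ c.1 = χ r ^ c.2.2.1 * χ s ^ c.2.2.2 := by
    intro u v
    obtain ⟨e1, he1⟩ := C.ex_lift (g.H_le_G (g.hd_mem hs u))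
    obtain ⟨e2, he2⟩ := C.ex_lift (g.H_le_G (g.hd_mem hr v))
    refine ⟨e1 * e2, fun k => u ^ T.pair s k * v ^ T.pair r k, ?_, fun k => rfl, ?_⟩
    · intro k hk t
      have e : e1 * e2 * C.y k t * (e1 * e2)⁻¹ = e1 * (e2 * C.y k t * e2⁻¹) * e1⁻¹ := by group
      rw [e, C.hd_y hr he2 hk, C.hd_y hs he1 hk, Units.val_mul, mul_assoc]
    · intro c hc
      simp only
      rw [g.pair_comm hr hs h1 h2 s c hc, g.pair_comm hr hs h1 h2 r c hc, _root_.zpow_add, _root_.zpow_add, mul_pow, mul_pow,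
        mul_comm (c.2.2.1 : ℤ), mul_comm (c.2.2.2 : ℤ), mul_comm (c.2.2.1 : ℤ), mul_comm (c.2.2.2 : ℤ),
        _root_.zpow_mul, _root_.zpow_mul, _root_.zpow_mul, _root_.zpow_mul, zpow_natCast, zpow_natCast, zpow_natCast, zpow_natCast]
      exact mul_mul_mul_comm _ _ _ _
  have hps : T.pair s s = 2 := g.pair_self hs
  have hpr : T.pair r r = 2 := g.pair_self hr
  rcases g.pq hpq r hr s hs h1 h2 with ⟨h3, h4⟩ | h
  · obtain ⟨v, hv⟩ := hF 2 (by omega)
    obtain ⟨e, χ, ha, hb, hc⟩ := hcomb v 1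
    refine ⟨e, χ, ha, by rw [hb, h4]; simp, ?_, hc⟩
    rw [hb, hps, _root_.one_zpow, mul_one]
    intro h5
    apply hv
    rw [← h5, show (2 : ℤ) = ((2 : ℕ) : ℤ) from rfl, zpow_natCast]
  · have h' : ∃ k : ℕ, (k = 1 ∨ k = 2 ∨ k = 3) ∧ 4 - T.pair r s * T.pair s r = k := by
      rcases h with h | h | h
      · exact ⟨3, by omega, by rw [h]; rfl⟩
      · exact ⟨2, by omega, by rw [h]; rfl⟩
      · exact ⟨1, by omega, by rw [h]; rfl⟩
    obtain ⟨k, hk1, hk2⟩ := h'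
    obtain ⟨v, hv⟩ := hF k hk1
    obtain ⟨e, χ, ha, hb, hc⟩ := hcomb (v ^ (2 : ℤ)) (v ^ (-T.pair s r))
    refine ⟨e, χ, ha, ?_, ?_, hc⟩
    · rw [hb, hpr, ← _root_.zpow_mul, ← _root_.zpow_mul, ← _root_.zpow_add]
      have : 2 * T.pair s r + -T.pair s r * 2 = 0 := by ring
      rw [this, zpow_zero]
    · rw [hb, hps, ← _root_.zpow_mul, ← _root_.zpow_mul, ← _root_.zpow_add]
      have : 2 * 2 + -T.pair s r * T.pair r s = (k : ℤ) := by rw [← hk2]; ring
      rw [this, zpow_natCast]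
      exact hv

/-- lifts of commuting root elements commute -/
theorem comm_of_nil (hpq : chkPQ T = true) (hF : ∀ k : ℕ, k = 1 ∨ k = 2 ∨ k = 3 → ∃ v : Fˣ, v ^ k ≠ 1)
    {r s : ℕ} (hr : r < T.n) (hs : s < T.n) (h1 : s ≠ r) (h2 : s ≠ T.n - 1 - r) (hnil : Tb.commT T.ent r s = [])
    (t u : F) : C.y s u * C.y r t = C.y r t * C.y s u := by
  obtain ⟨e, χ, ha, hb, hc, _⟩ := C.ex_tor hpq hF hr hs h1 h2
  let f : F → E := fun u => C.y s u * C.y r t * (C.y s u)⁻¹ * (C.y r t)⁻¹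
  have hp : ∀ u, C.p (f u) = 1 := by
    intro u
    have h3 := g.X_comm (F := F) hr hs h1 h2 t u
    rw [hnil] at h3
    simp only [List.map_nil, List.prod_nil, mul_one] at h3
    show C.p (C.y s u * C.y r t * (C.y s u)⁻¹ * (C.y r t)⁻¹) = 1
    rw [map_mul, map_mul, map_mul, map_inv, map_inv, C.p_y hs, C.p_y hr, h3]
    group
  have hadd : ∀ u u', f (u + u') = f u * f u' := by
    intro u u'
    have h4 : f (u + u') = (C.y s u * C.y s u') * C.y r t * (C.y s u * C.y s u')⁻¹ * (C.y r t)⁻¹ := by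
      apply C.comm_congr
      · rw [map_mul, C.p_y hs, C.p_y hs, C.p_y hs, g.X_add]
      · rfl
    have h5 : (C.y s u * C.y s u') * C.y r t * (C.y s u * C.y s u')⁻¹ * (C.y r t)⁻¹ =
        C.y s u * f u' * C.y r t * (C.y s u)⁻¹ * (C.y r t)⁻¹ := by
      show _ = C.y s u * (C.y s u' * C.y r t * (C.y s u')⁻¹ * (C.y r t)⁻¹) * C.y r t * (C.y s u)⁻¹ * (C.y r t)⁻¹
      group
    rw [h4, h5, ← C.central (hp u')]
    have h6 : f u' * C.y s u * C.y r t * (C.y s u)⁻¹ * (C.y r t)⁻¹ = f u' * f u := by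
      show _ = f u' * (C.y s u * C.y r t * (C.y s u)⁻¹ * (C.y r t)⁻¹)
      group
    rw [h6]
    exact C.central (hp u') _
  have hinv : ∀ u, f ((χ s : F) * u) = f u := by
    intro u
    have h7 : e * f u * e⁻¹ = f u := by rw [← C.central (hp u)]; group
    rw [← h7]
    have h8 : e * f u * e⁻¹ = (e * C.y s u * e⁻¹) * (e * C.y r t * e⁻¹) * (e * C.y s u * e⁻¹)⁻¹ * (e * C.y r t * e⁻¹)⁻¹ := by
      show e * (C.y s u * C.y r t * (C.y s u)⁻¹ * (C.y r t)⁻¹) * e⁻¹ = _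
      group
    rw [h8, ha s hs, ha r hr, hb, Units.val_one, one_mul]
  have hne : ((χ s : F)) - 1 ≠ 0 := by
    intro h; apply hc; rw [sub_eq_zero] at h; exact Units.ext h
  have h9 : f u = 1 := by
    have h10 : f u * f (u / ((χ s : F) - 1)) = f (u / ((χ s : F) - 1)) := by
      rw [← hadd]
      rw [← hinv (u / ((χ s : F) - 1))]
      congr 1
      field_simp
      ring
    exact mul_eq_right.1 h10
  have h11 : C.y s u * C.y r t * (C.y s u)⁻¹ * (C.y r t)⁻¹ = 1 := h9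
  rw [mul_inv_eq_one, mul_inv_eq_iff_eq_mul] at h11
  exact h11

/-- biadditive functions with invariance are trivial -/
theorem biadd {M : Type*} [Group M] (f : F → F → M) (h1 : ∀ t t' u, f (t + t') u = f t u * f t' u)
    (h2 : ∀ t u u', f t (u + u') = f t u * f t u') (h3 : ∀ (v : Fˣ) t u, f ((v : F) * t) ((v : F) * u) = f t u)
    {v : F} (hv0 : v ≠ 0) (hv1 : v ≠ 1) (hv2 : v ^ 2 - v + 1 ≠ 0) (t u : F) : f t u = 1 := by
  have hv1' : (1 : F) - v ≠ 0 := fun h => hv1 (sub_eq_zero.1 h).symm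
  have e1 : ∀ (w : Fˣ) t u, f ((w : F) * t) u = f t (((w⁻¹ : Fˣ) : F) * u) := by
    intro w t u
    have := h3 w t (((w⁻¹ : Fˣ) : F) * u)
    rw [← mul_assoc, ← Units.val_mul, mul_inv_cancel, Units.val_one, one_mul] at this
    exact this
  have e2 : ∀ t u, f (v * (1 - v) * t) u = f t u := by
    intro t u
    have h4 := e1 (Units.mk0 (v * (1 - v)) (mul_ne_zero hv0 hv1')) t u
    rw [Units.val_mk0] at h4
    rw [h4]
    have h5 : (((Units.mk0 (v * (1 - v)) (mul_ne_zero hv0 hv1'))⁻¹ : Fˣ) : F) * u =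
        (((Units.mk0 v hv0)⁻¹ : Fˣ) : F) * u + (((Units.mk0 (1 - v) hv1')⁻¹ : Fˣ) : F) * u := by
      rw [Units.val_inv_eq_inv_val, Units.val_inv_eq_inv_val, Units.val_inv_eq_inv_val, Units.val_mk0, Units.val_mk0, Units.val_mk0]
      field_simp
      ring
    rw [h5, h2, ← e1, ← e1, Units.val_mk0, Units.val_mk0, ← h1]
    congr 1
    ring
  have h6 : v * (1 - v) - 1 ≠ 0 := by
    intro h; apply hv2
    have : v ^ 2 - v + 1 = -(v * (1 - v) - 1) := by ring
    rw [this, h, neg_zero]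
  have h7 : f t u * f (t / (v * (1 - v) - 1)) u = f (t / (v * (1 - v) - 1)) u := by
    rw [← h1, ← e2 (t / (v * (1 - v) - 1)) u]
    congr 1
    field_simp
    ring
  exact mul_eq_right.1 h7

/-- the lifts of a root subgroup commute: first criterion -/
theorem comm_self_of_pair {r s : ℕ} (hr : r < T.n) (hs : s < T.n) (hp1 : T.pair s r = 1 ∨ T.pair s r = -1)
    {v : F} (hv0 : v ≠ 0) (hv1 : v ≠ 1) (hv2 : v ^ 2 - v + 1 ≠ 0) (t u : F) : C.y r t * C.y r u = C.y r u * C.y r t := by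
  let f : F → F → E := fun t u => C.y r t * C.y r u * (C.y r t)⁻¹ * (C.y r u)⁻¹
  have hp : ∀ t u, C.p (f t u) = 1 := by
    intro t u
    show C.p (C.y r t * C.y r u * (C.y r t)⁻¹ * (C.y r u)⁻¹) = 1
    rw [map_mul, map_mul, map_mul, map_inv, map_inv, C.p_y hr, C.p_y hr, ← g.X_add, add_comm, g.X_add]
    group
  have h1 : ∀ t t' u, f (t + t') u = f t u * f t' u := by
    intro t t' u
    have h4 : f (t + t') u = (C.y r t * C.y r t') * C.y r u * (C.y r t * C.y r t')⁻¹ * (C.y r u)⁻¹ := by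
      apply C.comm_congr
      · rw [map_mul, C.p_y hr, C.p_y hr, C.p_y hr, g.X_add]
      · rfl
    have h5 : (C.y r t * C.y r t') * C.y r u * (C.y r t * C.y r t')⁻¹ * (C.y r u)⁻¹ =
        C.y r t * f t' u * C.y r u * (C.y r t)⁻¹ * (C.y r u)⁻¹ := by
      show _ = C.y r t * (C.y r t' * C.y r u * (C.y r t')⁻¹ * (C.y r u)⁻¹) * C.y r u * (C.y r t)⁻¹ * (C.y r u)⁻¹
      group
    rw [h4, h5, ← C.central (hp t' u)]
    have h6 : f t' u * C.y r t * C.y r u * (C.y r t)⁻¹ * (C.y r u)⁻¹ = f t' u * f t u := by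
      show _ = f t' u * (C.y r t * C.y r u * (C.y r t)⁻¹ * (C.y r u)⁻¹)
      group
    rw [h6]
    exact C.central (hp t' u) _
  have hsymm : ∀ t u, f t u = (f u t)⁻¹ := by
    intro t u
    show C.y r t * C.y r u * (C.y r t)⁻¹ * (C.y r u)⁻¹ = (C.y r u * C.y r t * (C.y r u)⁻¹ * (C.y r t)⁻¹)⁻¹
    group
  have h2 : ∀ t u u', f t (u + u') = f t u * f t u' := by
    intro t u u'
    rw [hsymm, h1, hsymm t u, hsymm t u', ← _root_.mul_inv_rev]
    congr 1
    exact C.central (hp _ _) _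
  have h3 : ∀ (v : Fˣ) t u, f ((v : F) * t) ((v : F) * u) = f t u := by
    have key : ∀ (v : Fˣ) t u, f (((v ^ T.pair s r : Fˣ) : F) * t) (((v ^ T.pair s r : Fˣ) : F) * u) = f t u := by
      intro v t u
      obtain ⟨e, he⟩ := C.ex_lift (g.H_le_G (g.hd_mem hs v))
      have h7 : e * f t u * e⁻¹ = f t u := by rw [← C.central (hp t u)]; group
      rw [← h7]
      have h8 : e * f t u * e⁻¹ = (e * C.y r t * e⁻¹) * (e * C.y r u * e⁻¹) * (e * C.y r t * e⁻¹)⁻¹ * (e * C.y r u * e⁻¹)⁻¹ := by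
        show e * (C.y r t * C.y r u * (C.y r t)⁻¹ * (C.y r u)⁻¹) * e⁻¹ = _
        group
      rw [h8, C.hd_y hs he hr, C.hd_y hs he hr]
    intro v t u
    rcases hp1 with h | h
    · have := key v t u
      rwa [h, _root_.zpow_one] at this
    · have := key v⁻¹ t u
      rwa [h, _root_.zpow_neg, _root_.zpow_one, inv_inv] at this
  have h9 := biadd f h1 h2 h3 hv0 hv1 hv2 t u
  have h11 : C.y r t * C.y r u * (C.y r t)⁻¹ * (C.y r u)⁻¹ = 1 := h9
  rw [mul_inv_eq_one, mul_inv_eq_iff_eq_mul] at h11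
  exact h11

end CE

end CfsgLib.Chev
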