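import Cfsg.Agent.LibStU
import Cfsg.Agent.LibStC2

set_option autoImplicit false
set_option linter.unusedSectionVars false
set_option linter.unusedVariables false

/-! Central extensions of Chevalley groups: Steinberg's relations for the lifts -/

namespace CfsgLib.Chev

open Cfsg.Lie Matrix

/-- data for the second commutation criterion -/
def Tb.chkSelf (T : Tb) (r r1 r2 m : ℕ) : Bool :=
  let ok : ℕ → Bool := fun x => Nat.ble (x + 1) T.n && (!Nat.beq x r && (!Nat.beq x (T.n - 1 - r) && (Tb.commT T.ent x r).isEmpty))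
  Nat.ble (r + 1) T.n && (ok r1 && (ok r2 && (!Nat.beq r2 r1 && (!Nat.beq r2 (T.n - 1 - r1) &&
  ((match (Tb.commT T.ent r1 r2)[m]? with
    | none => false
    | some c => Nat.beq c.1 r && (Nat.beq c.2.1.natAbs 1 && (Nat.beq c.2.2.1 1 || Nat.beq c.2.2.2 1))) &&
  (((Tb.commT T.ent r1 r2).take m).all (fun c => ok c.1) &&
   ((Tb.commT T.ent r1 r2).drop (m + 1)).all (fun c => ok c.1)))))))

namespace CE

variable {D : ChevalleyDatum} {T : Tb} {g : Good3 D T} {F : Type*} [Field F] {E : Type*} [Group E] (C : CE g F E)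

/-- right hand side of the commutator relation -/
noncomputable def Pr (r s : ℕ) (t u : F) : E :=
  ((Tb.commT T.ent r s).map fun c => C.y c.1 ((c.2.1 : F) * (-t) ^ c.2.2.1 * u ^ c.2.2.2)).prod

def R2 (r s : ℕ) : Prop := ∀ t u : F, C.y s u * C.y r t = C.y r t * C.y s u * C.Pr r s t u

theorem p_Pr {r s : ℕ} (hr : r < T.n) (hs : s < T.n) (t u : F) : C.p (C.Pr r s t u) =
    ((Tb.commT T.ent r s).map fun c => g.X c.1 ((c.2.1 : F) * (-t) ^ c.2.2.1 * u ^ c.2.2.2)).prod := by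
  unfold Pr
  rw [map_list_prod, List.map_map]
  congr 1
  apply List.map_congr_left
  intro c hc
  exact C.p_y (g.commT_lt hr hs c hc) _

/-- the relation holds modulo the kernel -/
theorem R2_mod {r s : ℕ} (hr : r < T.n) (hs : s < T.n) (h1 : s ≠ r) (h2 : s ≠ T.n - 1 - r) (t u : F) :
    ∃ z, C.p z = 1 ∧ C.y s u * C.y r t = C.y r t * C.y s u * C.Pr r s t u * z := by
  refine ⟨(C.y r t * C.y s u * C.Pr r s t u)⁻¹ * (C.y s u * C.y r t), ?_, by group⟩
  rw [map_mul, map_inv, map_mul, map_mul, map_mul, C.p_Pr hr hs, C.p_y hr, C.p_y hs, g.X_comm hr hs h1 h2 t u]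
  group

theorem comm_self_of_chk (hpq : chkPQ T = true) (hF : ∀ k : ℕ, k = 1 ∨ k = 2 ∨ k = 3 → ∃ v : Fˣ, v ^ k ≠ 1)
    {r r1 r2 m : ℕ} (h : T.chkSelf r r1 r2 m = true) (t' u' : F) : C.y r t' * C.y r u' = C.y r u' * C.y r t' := by
  unfold Tb.chkSelf at h
  simp only [Bool.and_eq_true, Nat.ble_eq] at h
  obtain ⟨h0, ⟨a1, a2, a3, a4⟩, ⟨b1, b2, b3, b4⟩, h7, h8, h10, h11, h12⟩ := h
  have a2 := nbeq_false a2
  have a3 := nbeq_false a3
  have b2 := nbeq_false b2
  have b3 := nbeq_false b3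
  have h7 := nbeq_false h7
  have h8 := nbeq_false h8
  rw [List.isEmpty_iff] at a4 b4
  simp only [List.all_eq_true, Bool.and_eq_true, Nat.ble_eq] at h11 h12
  have hr : r < T.n := by omega
  have hr1 : r1 < T.n := by omega
  have hr2 : r2 < T.n := by omega
  set L := Tb.commT T.ent r1 r2 with hL
  obtain ⟨c0, hc0⟩ : ∃ c0, L[m]? = some c0 := by
    cases hh : L[m]? with
    | none => rw [hh] at h10; simp at h10
    | some c => exact ⟨c, rfl⟩
  rw [hc0] at h10
  simp only [Bool.and_eq_true, Bool.or_eq_true, Nat.beq_eq] at h10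
  obtain ⟨hcs, hcC, hcab⟩ := h10
  have hsplit : L = L.take m ++ c0 :: L.drop (m + 1) := by
    obtain ⟨hlt, hget⟩ := List.getElem?_eq_some_iff.1 hc0
    rw [← hget, ← List.drop_eq_getElem_cons hlt, List.take_append_drop]
  set Z := Subgroup.centralizer ({C.y r t'} : Set E) with hZ
  have hmem : ∀ x < T.n, x ≠ r → x ≠ T.n - 1 - r → Tb.commT T.ent x r = [] → ∀ t, C.y x t ∈ Z := by
    intro x hx hx1 hx2 hx3 t
    rw [hZ, Subgroup.mem_centralizer_iff]
    intro v hv
    rw [Set.mem_singleton_iff] at hv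
    subst hv
    exact C.comm_of_nil hpq hF hx hr (Ne.symm hx1) (by omega) hx3 t t'
  have key : ∀ t u : F, C.y c0.1 ((c0.2.1 : F) * (-t) ^ c0.2.2.1 * u ^ c0.2.2.2) ∈ Z := by
    intro t u
    obtain ⟨z, hz, e⟩ := C.R2_mod hr1 hr2 h7 h8 t u
    have hzZ : z ∈ Z := by
      rw [hZ, Subgroup.mem_centralizer_iff]
      intro v _
      exact (C.central hz v).symm
    have hP : C.Pr r1 r2 t u ∈ Z := by
      have e2 : C.Pr r1 r2 t u = (C.y r1 t * C.y r2 u)⁻¹ * (C.y r2 u * C.y r1 t) * z⁻¹ := by rw [e]; group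
      rw [e2]
      have m1 := hmem r1 hr1 a2 a3 a4 t
      have m2 := hmem r2 hr2 b2 b3 b4 u
      exact Subgroup.mul_mem _ (Subgroup.mul_mem _ (Subgroup.inv_mem _ (Subgroup.mul_mem _ m1 m2)) (Subgroup.mul_mem _ m2 m1)) (Subgroup.inv_mem _ hzZ)
    unfold Pr at hP
    rw [← hL, hsplit, List.map_append, List.prod_append, List.map_cons, List.prod_cons] at hP
    have hlist : ∀ M : List (ℕ × ℤ × ℕ × ℕ), (∀ c ∈ M, c.1 < T.n ∧ c.1 ≠ r ∧ c.1 ≠ T.n - 1 - r ∧ Tb.commT T.ent c.1 r = []) →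
        (M.map fun c => C.y c.1 ((c.2.1 : F) * (-t) ^ c.2.2.1 * u ^ c.2.2.2)).prod ∈ Z := by
      intro M hM
      apply Subgroup.list_prod_mem
      intro x hx
      rw [List.mem_map] at hx
      obtain ⟨c, hc, rfl⟩ := hx
      obtain ⟨q1, q2, q3, q4⟩ := hM c hc
      exact hmem _ q1 q2 q3 q4 _
    have hA := hlist (L.take m) (fun c hc => by
      obtain ⟨q1, q2, q3, q4⟩ := h11 c hc
      exact ⟨q1, nbeq_false q2, nbeq_false q3, List.isEmpty_iff.1 q4⟩)
    have hB := hlist (L.drop (m + 1)) (fun c hc => by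
      obtain ⟨q1, q2, q3, q4⟩ := h12 c hc
      exact ⟨q1, nbeq_false q2, nbeq_false q3, List.isEmpty_iff.1 q4⟩)
    rwa [Subgroup.mul_mem_cancel_left _ hA, Subgroup.mul_mem_cancel_right _ hB] at hP
  have hC : (c0.2.1 : F) * (c0.2.1 : F) = 1 := by
    rcases Int.natAbs_eq_iff.1 hcC with h | h <;> rw [h] <;> simp
  have hfin : C.y r u' ∈ Z := by
    rw [← hcs]
    rcases hcab with ha | hb
    · have := key (-((c0.2.1 : F) * u')) 1
      rw [ha, pow_one, neg_neg, one_pow, mul_one, ← mul_assoc, hC, one_mul] at this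
      exact this
    · have := key (-1) ((c0.2.1 : F) * u')
      rw [hb, pow_one, neg_neg, one_pow, mul_one, ← mul_assoc, hC, one_mul] at this
      exact this
  rw [hZ, Subgroup.mem_centralizer_iff] at hfin
  exact hfin _ rfl

/-- existence of the data for the commutation of lifts of a root subgroup -/
def _root_.CfsgLib.Chev.Tb.SelfOK (T : Tb) : Prop := ∀ i < T.l, (∃ s < T.n, T.pair s (T.sim i) = 1 ∨ T.pair s (T.sim i) = -1) ∨
  (∃ r1 r2 m, T.chkSelf (T.sim i) r1 r2 m = true)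

theorem comm_self (hpq : chkPQ T = true) (hF : ∀ k : ℕ, k = 1 ∨ k = 2 ∨ k = 3 → ∃ v : Fˣ, v ^ k ≠ 1)
    (hS : T.SelfOK) {v : F} (hv0 : v ≠ 0) (hv1 : v ≠ 1) (hv2 : v ^ 2 - v + 1 ≠ 0) :
    ∀ r < T.n, ∀ t u : F, C.y r t * C.y r u = C.y r u * C.y r t := by
  apply g.root_ind
  · intro i hi t u
    rcases hS i hi with ⟨s, hs, h⟩ | ⟨r1, r2, m, h⟩
    · exact C.comm_self_of_pair (g.sim_lt hi) hs h hv0 hv1 hv2 t u
    · exact C.comm_self_of_chk hpq hF h t u
  · intro i hi r hr ih t u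
    have hw := g.w_lt hi hr
    obtain ⟨e, he⟩ := C.ex_lift (g.Ng_mem_G (F := F) (T.sim i) 1)
    have h1 : ∀ t : F, C.y r t = e * C.y (T.w i r) (((T.eta i (T.w i r) : ℤ) : F) * t) * e⁻¹ := by
      intro t
      have := C.nn_y hi he hw (((T.eta i (T.w i r) : ℤ) : F) * t)
      rw [g.w_w hi hr, ← mul_assoc, Good.eta_cast_mul_self, one_mul] at this
      exact this.symm
    rw [h1 t, h1 u]
    have h2 := ih (((T.eta i (T.w i r) : ℤ) : F) * t) (((T.eta i (T.w i r) : ℤ) : F) * u)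
    set A := C.y (T.w i r) (((T.eta i (T.w i r) : ℤ) : F) * t)
    set B := C.y (T.w i r) (((T.eta i (T.w i r) : ℤ) : F) * u)
    calc e * A * e⁻¹ * (e * B * e⁻¹) = e * (A * B) * e⁻¹ := by group
      _ = e * (B * A) * e⁻¹ := by rw [h2]
      _ = _ := by group

theorem add_of_comm (hcm : ∀ r < T.n, ∀ t u : F, C.y r t * C.y r u = C.y r u * C.y r t) :
    ∀ r < T.n, ∀ t u : F, C.y r (t + u) = C.y r t * C.y r u := by
  intro r hr t u
  have ph : C.p (C.lf (hd D T r C.a)) = hd D T r C.a := C.p_lf (g.H_le_G (g.hd_mem hr _))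
  set h := C.lf (hd D T r C.a) with hh
  set c := (C.a : F) ^ 2 - 1 with hc
  have e1 := C.y_eq hr (t := t + u) (e1 := h) (e2 := C.y r (t / c) * C.y r (u / c)) ph (by
    rw [map_mul, C.p_y hr, C.p_y hr, ← g.X_add, ← add_div])
  have e2 := C.y_eq hr (t := t) (e1 := h) (e2 := C.y r (t / c)) ph (C.p_y hr _)
  have e3 := C.y_eq hr (t := u) (e1 := h) (e2 := C.y r (u / c)) ph (C.p_y hr _)
  rw [← e1]
  have e4 : h * (C.y r (t / c) * C.y r (u / c)) * h⁻¹ * (C.y r (t / c) * C.y r (u / c))⁻¹ =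
      (h * C.y r (t / c) * h⁻¹ * (C.y r (t / c))⁻¹) * (C.y r (t / c) * (h * C.y r (u / c) * h⁻¹ * (C.y r (u / c))⁻¹) * (C.y r (t / c))⁻¹) := by group
  rw [e4, e2, e3, hcm r hr (t / c) u]
  group

section Add
variable (hadd : ∀ r < T.n, ∀ t u : F, C.y r (t + u) = C.y r t * C.y r u)
include hadd

theorem y_zero {r : ℕ} (hr : r < T.n) : C.y r 0 = 1 := by
  have := hadd r hr 0 0
  rw [add_zero] at this
  exact (mul_eq_left.1 this.symm)

theorem y_neg {r : ℕ} (hr : r < T.n) (t : F) : C.y r (-t) = (C.y r t)⁻¹ := by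
  rw [eq_inv_iff_mul_eq_one, ← hadd r hr, neg_add_cancel, C.y_zero hadd hr]

/-- the group of the roots ≥ k -/
def V (k : ℕ) : Subgroup E := Subgroup.closure {z | ∃ s, k ≤ s ∧ s < T.n ∧ ∃ u : F, z = C.y s u}

omit hadd in
theorem y_mem_V {k s : ℕ} (h1 : k ≤ s) (h2 : s < T.n) (u : F) : C.y s u ∈ C.V k := Subgroup.subset_closure ⟨s, h1, h2, u, rfl⟩

omit hadd in
theorem V_le {k : ℕ} {K : Subgroup E} (h : ∀ s, k ≤ s → s < T.n → ∀ u : F, C.y s u ∈ K) : C.V k ≤ K := by
  unfold V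
  rw [Subgroup.closure_le]
  rintro z ⟨s, h1, h2, u, rfl⟩
  exact h s h1 h2 u

theorem V_norm {k r : ℕ} (hk : T.n / 2 ≤ k) (hr : r < T.n) (hrp : T.n / 2 ≤ r)
    (H : ∀ s, k ≤ s → s < T.n → s ≠ r ∧ C.R2 r s) (t : F) {z : E} (hz : z ∈ C.V k) :
    C.y r t * z * (C.y r t)⁻¹ ∈ C.V k := by
  have hev := g.even
  have : C.V k ≤ (C.V k).comap (MulAut.conj (C.y r t)).toMonoidHom := by
    apply C.V_le
    intro s h1 h2 u
    show C.y r t * C.y s u * (C.y r t)⁻¹ ∈ C.V k
    obtain ⟨hne, hR⟩ := H s h1 h2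
    have h5 := hR (-t) u
    rw [C.y_neg hadd hr t] at h5
    have h6 : C.y r t * C.y s u * (C.y r t)⁻¹ = C.y s u * C.Pr r s (-t) u := by
      calc C.y r t * C.y s u * (C.y r t)⁻¹ = C.y r t * (C.y s u * (C.y r t)⁻¹) := by group
        _ = _ := by rw [h5, ← mul_assoc, ← mul_assoc, mul_inv_cancel, one_mul]
    rw [h6]
    apply Subgroup.mul_mem _ (C.y_mem_V h1 h2 u)
    apply Subgroup.list_prod_mem
    intro x hx
    rw [List.mem_map] at hx
    obtain ⟨c, hc, rfl⟩ := hx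
    obtain ⟨h7, h8, h9⟩ := g.comm_gt hr h2 hrp (by omega) hne c hc
    exact C.y_mem_V (by omega) h9 _
  exact this hz

theorem V_decomp {k : ℕ} (hk : T.n / 2 ≤ k) (hkn : k < T.n) (H : ∀ s, k < s → s < T.n → C.R2 k s) {z : E} (hz : z ∈ C.V k) :
    ∃ t : F, ∃ z' ∈ C.V (k + 1), z = C.y k t * z' := by
  have hev := g.even
  have hnorm : ∀ (t : F) (z : E), z ∈ C.V (k + 1) → C.y k t * z * (C.y k t)⁻¹ ∈ C.V (k + 1) := by
    intro t z hz
    exact C.V_norm hadd (by omega) hkn hk (fun s h1 h2 => ⟨by omega, H s (by omega) h2⟩) t hz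
  let S : Subgroup E :=
    { carrier := {x | ∃ t : F, ∃ z ∈ C.V (k + 1), x = C.y k t * z}
      mul_mem' := by
        rintro _ _ ⟨t, z, hz, rfl⟩ ⟨t', z', hz', rfl⟩
        refine ⟨t + t', (C.y k t')⁻¹ * z * C.y k t' * z', Subgroup.mul_mem _ ?_ hz', ?_⟩
        · have := hnorm (-t') z hz
          rwa [C.y_neg hadd hkn, inv_inv] at this
        · rw [hadd _ hkn]; group
      one_mem' := ⟨0, 1, Subgroup.one_mem _, by rw [C.y_zero hadd hkn]; simp⟩
      inv_mem' := by
        rintro _ ⟨t, z, hz, rfl⟩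
        refine ⟨-t, C.y k t * z⁻¹ * (C.y k t)⁻¹, hnorm t _ (Subgroup.inv_mem _ hz), ?_⟩
        rw [C.y_neg hadd hkn]; group }
  have hle : C.V k ≤ S := by
    apply C.V_le
    intro s h1 h2 u
    by_cases hs : s = k
    · subst hs
      exact ⟨u, 1, Subgroup.one_mem _, by simp⟩
    · exact ⟨0, C.y s u, C.y_mem_V (by omega) h2 u, by rw [C.y_zero hadd hkn]; simp⟩
  exact hle hz

omit hadd in
theorem p_V {k : ℕ} {z : E} (hz : z ∈ C.V k) : C.p z ∈ g.Uge k := by
  have : C.V k ≤ (g.Uge k).comap C.p := by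
    apply C.V_le
    intro s h1 h2 u
    show C.p (C.y s u) ∈ g.Uge k
    rw [C.p_y h2]
    exact g.X_mem_Uge h1 h2 u
  exact this hz

theorem V_inj : ∀ (m k : ℕ), T.n - k = m → T.n / 2 ≤ k → k ≤ T.n →
    (∀ c c', k ≤ c → c < T.n → c < c' → c' < T.n → C.R2 c c') → ∀ z ∈ C.V k, C.p z = 1 → z = 1 := by
  intro m
  induction m with
  | zero =>
    intro k hm hk hkn _ z hz _
    have hk' : k = T.n := by omega
    subst hk'
    have : C.V T.n ≤ ⊥ := by
      apply C.V_le
      intro s h1 h2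
      omega
    have := this hz
    rwa [Subgroup.mem_bot] at this
  | succ m ih =>
    intro k hm hk hkn H z hz hpz
    have hkn' : k < T.n := by omega
    obtain ⟨t, z', hz', rfl⟩ := C.V_decomp hadd hk hkn' (fun s h1 h2 => H k s le_rfl hkn' h1 h2) hz
    have h1 := C.p_V hz'
    rw [map_mul, C.p_y hkn'] at hpz
    have h2 : g.X k t * C.p z' = g.X k 0 * 1 := by rw [hpz, g.X_zero, mul_one]
    obtain ⟨h6, h7⟩ := g.Uge_unique hk hkn' h1 (Subgroup.one_mem _) h2
    subst h6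
    rw [C.y_zero hadd hkn', one_mul]
    exact ih (k + 1) (by omega) (by omega) (by omega) (fun c c' h3 h4 h5 h6 => H c c' (by omega) h4 h5 h6) z' hz' h7

theorem R2_pos (hpq : chkPQ T = true) (hF : ∀ k : ℕ, k = 1 ∨ k = 2 ∨ k = 3 → ∃ v : Fˣ, v ^ k ≠ 1) :
    ∀ (N r s : ℕ), 2 * T.n - (r + s) = N → r < T.n → s < T.n → T.n / 2 ≤ r → T.n / 2 ≤ s → s ≠ r → C.R2 r s := by
  have hev := g.even
  intro N
  induction N using Nat.strong_induction_on with
  | _ N ih =>
    intro r s hN hr hs hrp hsp hne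
    have h2 : s ≠ T.n - 1 - r := by omega
    have IH : ∀ r' s', r + s < r' + s' → r' < T.n → s' < T.n → T.n / 2 ≤ r' → T.n / 2 ≤ s' → s' ≠ r' → C.R2 r' s' := by
      intro r' s' h hr' hs' hrp' hsp' hne'
      exact ih (2 * T.n - (r' + s')) (by omega) r' s' rfl hr' hs' hrp' hsp' hne'
    -- k = max r s + 1
    set k := max r s + 1 with hk
    have hkr : r < k := by omega
    have hks : s < k := by omega
    have hinj : ∀ z ∈ C.V k, C.p z = 1 → z = 1 := by
      by_cases hkn : k ≤ T.n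
      · apply C.V_inj hadd _ k rfl (by omega) hkn
        intro c c' h3 h4 h5 h6
        exact IH c c' (by omega) h4 h6 (by omega) (by omega) (by omega)
      · exfalso; omega
    have hPV : ∀ t u : F, C.Pr r s t u ∈ C.V k := by
      intro t u
      apply Subgroup.list_prod_mem
      intro x hx
      rw [List.mem_map] at hx
      obtain ⟨c, hc, rfl⟩ := hx
      obtain ⟨h7, h8, h9⟩ := g.comm_gt hr hs hrp hsp hne c hc
      exact C.y_mem_V (by omega) h9 _
    have hsV : ∀ (u : F) (z : E), z ∈ C.V k → C.y s u * z * (C.y s u)⁻¹ ∈ C.V k := by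
      intro u z hz
      refine C.V_norm hadd (by omega) hs hsp (fun x h3 h4 => ⟨by omega, ?_⟩) u hz
      exact IH s x (by omega) hs h4 hsp (by omega) (by omega)
    -- the central function
    let f : F → F → E := fun t u => (C.y r t * C.y s u * C.Pr r s t u)⁻¹ * (C.y s u * C.y r t)
    have hp : ∀ t u, C.p (f t u) = 1 := by
      intro t u
      show C.p ((C.y r t * C.y s u * C.Pr r s t u)⁻¹ * (C.y s u * C.y r t)) = 1
      rw [map_mul, map_inv, map_mul, map_mul, map_mul, C.p_Pr hr hs, C.p_y hr, C.p_y hs, g.X_comm hr hs hne h2 t u]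
      group
    have hf : ∀ t u, C.y s u * C.y r t = C.y r t * C.y s u * C.Pr r s t u * f t u := by
      intro t u
      show _ = C.y r t * C.y s u * C.Pr r s t u * ((C.y r t * C.y s u * C.Pr r s t u)⁻¹ * (C.y s u * C.y r t))
      group
    have hfadd : ∀ t u u', f t (u + u') = f t u * f t u' := by
      intro t u u'
      have e1 := hf t (u + u')
      rw [hadd s hs] at e1
      have e2 : C.y s u * C.y s u' * C.y r t = C.y r t * (C.y s u * C.y s u') *
          (((C.y s u')⁻¹ * C.Pr r s t u * C.y s u') * C.Pr r s t u') * (f t u * f t u') := by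
        calc C.y s u * C.y s u' * C.y r t = C.y s u * (C.y s u' * C.y r t) := by group
          _ = C.y s u * (C.y r t * C.y s u' * C.Pr r s t u' * f t u') := by rw [hf t u']
          _ = (C.y s u * C.y r t) * C.y s u' * C.Pr r s t u' * f t u' := by group
          _ = (C.y r t * C.y s u * C.Pr r s t u * f t u) * C.y s u' * C.Pr r s t u' * f t u' := by rw [hf t u]
          _ = C.y r t * C.y s u * C.Pr r s t u * (f t u * (C.y s u' * C.Pr r s t u')) * f t u' := by group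
          _ = C.y r t * C.y s u * C.Pr r s t u * ((C.y s u' * C.Pr r s t u') * f t u) * f t u' := by
              rw [C.central (hp t u)]
          _ = _ := by group
      have e3 : C.Pr r s t (u + u') * f t (u + u') =
          (((C.y s u')⁻¹ * C.Pr r s t u * C.y s u') * C.Pr r s t u') * (f t u * f t u') := by
        have e4 := e1.symm.trans e2
        rw [mul_assoc (C.y r t * (C.y s u * C.y s u')), mul_assoc (C.y r t * (C.y s u * C.y s u'))] at e4
        exact mul_left_cancel e4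
      have hV1 : ((C.y s u')⁻¹ * C.Pr r s t u * C.y s u') * C.Pr r s t u' ∈ C.V k := by
        apply Subgroup.mul_mem _ _ (hPV t u')
        have := hsV (-u') _ (hPV t u)
        rwa [C.y_neg hadd hs, inv_inv] at this
      have e5 : (C.Pr r s t (u + u'))⁻¹ * (((C.y s u')⁻¹ * C.Pr r s t u * C.y s u') * C.Pr r s t u') = 1 := by
        apply hinj _ (Subgroup.mul_mem _ (Subgroup.inv_mem _ (hPV t _)) hV1)
        have e6 := congrArg C.p e3
        rw [map_mul, map_mul _ (((C.y s u')⁻¹ * C.Pr r s t u * C.y s u') * C.Pr r s t u'), map_mul _ (f t u), hp, hp, hp,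
          mul_one, mul_one, mul_one] at e6
        rw [map_mul, map_inv, e6, inv_mul_cancel]
      rw [inv_mul_eq_one] at e5
      rw [← e5] at e3
      exact mul_left_cancel e3
    obtain ⟨e, χ, ha, hb, hc, hd⟩ := C.ex_tor hpq hF hr hs hne h2
    have hinv : ∀ t u, f t ((χ s : F) * u) = f t u := by
      intro t u
      have h7 : e * f t u * e⁻¹ = f t u := by rw [← C.central (hp t u)]; group
      rw [← h7]
      have hPc : e * C.Pr r s t u * e⁻¹ = C.Pr r s ((χ r : F) * t) ((χ s : F) * u) := by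
        unfold Pr
        have hlist : ∀ M : List (ℕ × ℤ × ℕ × ℕ), (∀ c ∈ M, c.1 < T.n ∧ χ c.1 = χ r ^ c.2.2.1 * χ s ^ c.2.2.2) →
            e * (M.map fun c => C.y c.1 ((c.2.1 : F) * (-t) ^ c.2.2.1 * u ^ c.2.2.2)).prod * e⁻¹ =
            (M.map fun c => C.y c.1 ((c.2.1 : F) * (-((χ r : F) * t)) ^ c.2.2.1 * ((χ s : F) * u) ^ c.2.2.2)).prod := by
          intro M
          induction M with
          | nil => intro _; simp
          | cons c M ihM =>
            intro hM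
            rw [List.map_cons, List.map_cons, List.prod_cons, List.prod_cons, ← ihM (fun c' hc' => hM c' (List.mem_cons_of_mem _ hc'))]
            obtain ⟨q1, q2⟩ := hM c List.mem_cons_self
            have e8 := ha c.1 q1 ((c.2.1 : F) * (-t) ^ c.2.2.1 * u ^ c.2.2.2)
            have e9 : ((χ c.1 : Fˣ) : F) * ((c.2.1 : F) * (-t) ^ c.2.2.1 * u ^ c.2.2.2) =
                (c.2.1 : F) * (-((χ r : F) * t)) ^ c.2.2.1 * ((χ s : F) * u) ^ c.2.2.2 := by
              rw [q2]; push_cast; ring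
            rw [e9] at e8
            rw [← e8]; group
        exact hlist _ (fun c hc' => ⟨g.commT_lt hr hs c hc', hd c hc'⟩)
      have h8 : e * f t u * e⁻¹ = ((e * C.y r t * e⁻¹) * (e * C.y s u * e⁻¹) * (e * C.Pr r s t u * e⁻¹))⁻¹ *
          ((e * C.y s u * e⁻¹) * (e * C.y r t * e⁻¹)) := by
        show e * ((C.y r t * C.y s u * C.Pr r s t u)⁻¹ * (C.y s u * C.y r t)) * e⁻¹ = _
        group
      rw [h8, hPc, ha s hs, ha r hr, hb, Units.val_one, one_mul]
    have hne' : ((χ s : F)) - 1 ≠ 0 := by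
      intro h; apply hc; rw [sub_eq_zero] at h; exact Units.ext h
    intro t u
    have h9 : f t u = 1 := by
      have h10 : f t u * f t (u / ((χ s : F) - 1)) = f t (u / ((χ s : F) - 1)) := by
        rw [← hfadd]
        rw [← hinv t (u / ((χ s : F) - 1))]
        congr 1
        field_simp
        ring
      exact mul_eq_right.1 h10
    rw [hf t u, h9, mul_one]

theorem R2_all (hpq : chkPQ T = true) (hF : ∀ k : ℕ, k = 1 ∨ k = 2 ∨ k = 3 → ∃ v : Fˣ, v ^ k ≠ 1)
    {r s : ℕ} (hr : r < T.n) (hs : s < T.n) (h1 : s ≠ r) (h2 : s ≠ T.n - 1 - r) : C.R2 r s := by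
  have hev := g.even
  have hpos : ∀ r s, r < T.n → s < T.n → T.n / 2 ≤ r → T.n / 2 ≤ s → s ≠ r → C.R2 r s :=
    fun r s hr hs hrp hsp hne => C.R2_pos hadd hpq hF _ r s rfl hr hs hrp hsp hne
  obtain ⟨w', hw', hp1, hp2⟩ := g.both_pos hr hs h2
  set w := w'.reverse with hwdef
  have hw : VW T w := Good3.VWrev hw'
  set r0 := wact T w' r with hr0
  set s0 := wact T w' s with hs0
  have hr0n : r0 < T.n := g.wact_lt hw' hr
  have hs0n : s0 < T.n := g.wact_lt hw' hs
  have er : wact T w r0 = r := g.wact_rev hw' hr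
  have es : wact T w s0 = s := g.wact_rev hw' hs
  have hne0 : s0 ≠ r0 := fun h => h1 (by rw [← er, ← es, h])
  obtain ⟨e, he⟩ := C.ex_lift (g.nw_mem_G (F := F) w)
  have hey : ∀ k < T.n, ∀ t : F, C.y (wact T w k) t = e * C.y k (((sgn T w k : ℤ) : F) * t) * e⁻¹ := by
    intro k hk t
    rw [C.nw_y hw he hk]
    congr 1
    rcases Good3.sgn_cases (T := T) w k with h | h <;> rw [h] <;> simp
  intro t u
  have hinj := C.V_inj hadd _ (T.n / 2) rfl le_rfl (Nat.div_le_self _ _)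
    (fun c c' h3 h4 h5 h6 => hpos c c' h4 h6 h3 (by omega) (by omega))
  set t0 := ((sgn T w r0 : ℤ) : F) * t with ht0
  set u0 := ((sgn T w s0 : ℤ) : F) * u with hu0
  have hrel := hpos r0 s0 hr0n hs0n hp1 hp2 hne0 t0 u0
  have yr : C.y r t = e * C.y r0 t0 * e⁻¹ := by rw [← er]; exact hey r0 hr0n t
  have ys : C.y s u = e * C.y s0 u0 * e⁻¹ := by rw [← es]; exact hey s0 hs0n u
  have e1 : C.y s u * C.y r t = C.y r t * C.y s u * (e * C.Pr r0 s0 t0 u0 * e⁻¹) := by
    rw [yr, ys]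
    calc e * C.y s0 u0 * e⁻¹ * (e * C.y r0 t0 * e⁻¹) = e * (C.y s0 u0 * C.y r0 t0) * e⁻¹ := by group
      _ = e * (C.y r0 t0 * C.y s0 u0 * C.Pr r0 s0 t0 u0) * e⁻¹ := by rw [hrel]
      _ = _ := by group
  have hV1 : C.Pr r0 s0 t0 u0 ∈ C.V (T.n / 2) := by
    apply Subgroup.list_prod_mem
    intro x hx
    rw [List.mem_map] at hx
    obtain ⟨c, hc, rfl⟩ := hx
    obtain ⟨h7, h8, h9⟩ := g.comm_gt hr0n hs0n hp1 hp2 hne0 c hc
    exact C.y_mem_V (by omega) h9 _
  have hV2 : e⁻¹ * C.Pr r s t u * e ∈ C.V (T.n / 2) := by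
    unfold Pr
    have hlist : ∀ M : List (ℕ × ℤ × ℕ × ℕ), (∀ c ∈ M, ∃ c0 < T.n, T.n / 2 ≤ c0 ∧ wact T w c0 = c.1) →
        e⁻¹ * (M.map fun c => C.y c.1 ((c.2.1 : F) * (-t) ^ c.2.2.1 * u ^ c.2.2.2)).prod * e ∈ C.V (T.n / 2) := by
      intro M
      induction M with
      | nil => intro _; simp [Subgroup.one_mem]
      | cons c M ihM =>
        intro hM
        obtain ⟨c0, q1, q2, q3⟩ := hM c List.mem_cons_self
        rw [List.map_cons, List.prod_cons]
        have e3 : ∀ x y : E, e⁻¹ * (x * y) * e = (e⁻¹ * x * e) * (e⁻¹ * y * e) := by intro x y; group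
        rw [e3]
        apply Subgroup.mul_mem _ _ (ihM (fun c' hc' => hM c' (List.mem_cons_of_mem _ hc')))
        rw [← q3, hey c0 q1]
        have e4 : ∀ x : E, e⁻¹ * (e * x * e⁻¹) * e = x := by intro x; group
        rw [e4]
        exact C.y_mem_V q2 q1 _
    apply hlist
    intro c hc
    have h3 := g.comm_w hw hr0n hs0n hp1 hp2 hne0 c (by rw [er, es]; exact hc)
    obtain ⟨c0, q1, q2, q3, q4⟩ := h3
    exact ⟨c0, q1, by omega, q4⟩
  have e5 : (C.Pr r0 s0 t0 u0)⁻¹ * (e⁻¹ * C.Pr r s t u * e) = 1 := by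
    apply hinj _ (Subgroup.mul_mem _ (Subgroup.inv_mem _ hV1) hV2)
    have e6 := congrArg C.p e1
    rw [map_mul, map_mul, map_mul, C.p_y hr, C.p_y hs, g.X_comm hr hs h1 h2 t u, ← C.p_Pr hr hs] at e6
    have e7 := mul_left_cancel e6
    rw [map_mul, map_inv, map_mul, map_mul, e7, map_mul, map_mul, map_inv]
    group
  rw [e1]
  congr 1
  rw [inv_mul_eq_one] at e5
  rw [e5]
  group

end Add

end CE

end CfsgLib.Chev
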