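import Cfsg.Agent.LibStU2

set_option autoImplicit false
set_option maxRecDepth 100000

/-! Universality of the group presented by Steinberg's relations (R1), (R2) -/

namespace CfsgLib.Chev

open Cfsg.Lie Matrix
open scoped commutatorElement

theorem pq_B2 : chkPQ tB2 = true := by decide +kernel

theorem self_B2 : tB2.SelfOK := by
  intro i hi
  have hi' : i < 2 := hi
  interval_cases i
  · exact Or.inl ⟨7, by decide, by decide +kernel⟩
  · exact Or.inr ⟨7, 2, 1, by decide +kernel⟩

theorem pq_G2 : chkPQ tG2 = true := by decide +kernel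

theorem self_G2 : tG2.SelfOK := by
  intro i hi
  have hi' : i < 2 := hi
  interval_cases i
  · exact Or.inl ⟨10, by decide, by decide +kernel⟩
  · exact Or.inl ⟨11, by decide, by decide +kernel⟩

theorem pq_D4 : chkPQ tD4 = true := by decide +kernel

theorem self_D4 : tD4.SelfOK := by
  intro i hi
  have hi' : i < 4 := hi
  interval_cases i
  · exact Or.inl ⟨22, by decide, by decide +kernel⟩
  · exact Or.inl ⟨23, by decide, by decide +kernel⟩
  · exact Or.inl ⟨22, by decide, by decide +kernel⟩
  · exact Or.inl ⟨22, by decide, by decide +kernel⟩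

theorem pq_F4 : chkPQ tF4 = true := by decide +kernel

theorem self_F4 : tF4.SelfOK := by
  intro i hi
  have hi' : i < 4 := hi
  interval_cases i
  · exact Or.inl ⟨44, by decide, by decide +kernel⟩
  · exact Or.inl ⟨45, by decide, by decide +kernel⟩
  · exact Or.inl ⟨46, by decide, by decide +kernel⟩
  · exact Or.inl ⟨47, by decide, by decide +kernel⟩

theorem pq_E6 : chkPQ tE6 = true := by decide +kernel

theorem self_E6 : tE6.SelfOK := by
  intro i hi
  have hi' : i < 6 := hi
  interval_cases i
  · exact Or.inl ⟨66, by decide, by decide +kernel⟩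
  · exact Or.inl ⟨71, by decide, by decide +kernel⟩
  · exact Or.inl ⟨69, by decide, by decide +kernel⟩
  · exact Or.inl ⟨70, by decide, by decide +kernel⟩
  · exact Or.inl ⟨69, by decide, by decide +kernel⟩
  · exact Or.inl ⟨68, by decide, by decide +kernel⟩

theorem pq_E7 : chkPQ tE7 = true := by decide +kernel

theorem self_E7 : tE7.SelfOK := by
  intro i hi
  have hi' : i < 7 := hi
  interval_cases i
  · exact Or.inl ⟨125, by decide, by decide +kernel⟩
  · exact Or.inl ⟨122, by decide, by decide +kernel⟩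
  · exact Or.inl ⟨124, by decide, by decide +kernel⟩
  · exact Or.inl ⟨123, by decide, by decide +kernel⟩
  · exact Or.inl ⟨122, by decide, by decide +kernel⟩
  · exact Or.inl ⟨121, by decide, by decide +kernel⟩
  · exact Or.inl ⟨120, by decide, by decide +kernel⟩

theorem pq_E8 : chkPQ tE8 = true := by decide +kernel

theorem self_E8 : tE8.SelfOK := by
  intro i hi
  have hi' : i < 8 := hi
  interval_cases i
  · exact Or.inl ⟨233, by decide, by decide +kernel⟩
  · exact Or.inl ⟨234, by decide, by decide +kernel⟩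
  · exact Or.inl ⟨234, by decide, by decide +kernel⟩
  · exact Or.inl ⟨235, by decide, by decide +kernel⟩
  · exact Or.inl ⟨236, by decide, by decide +kernel⟩
  · exact Or.inl ⟨237, by decide, by decide +kernel⟩
  · exact Or.inl ⟨238, by decide, by decide +kernel⟩
  · exact Or.inl ⟨239, by decide, by decide +kernel⟩


theorem pq_self_of_mem {D : ChevalleyDatum} (hD : D ∈ [chevG2, chevB2, chevD4, chevF4, chevE6, chevE7, chevE8]) :
    ∃ (T : Tb) (_ : Good3 D T), T.TrOK ∧ chkPQ T = true ∧ T.SelfOK := by
  simp only [List.mem_cons, List.not_mem_nil, or_false] at hD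
  rcases hD with rfl | rfl | rfl | rfl | rfl | rfl | rfl
  · exact ⟨_, good3_G2, tr_G2, pq_G2, self_G2⟩
  · exact ⟨_, good3_B2, tr_B2, pq_B2, self_B2⟩
  · exact ⟨_, good3_D4, tr_D4, pq_D4, self_D4⟩
  · exact ⟨_, good3_F4, tr_F4, pq_F4, self_F4⟩
  · exact ⟨_, good3_E6, tr_E6, pq_E6, self_E6⟩
  · exact ⟨_, good3_E7, tr_E7, pq_E7, self_E7⟩
  · exact ⟨_, good3_E8, tr_E8, pq_E8, self_E8⟩

/-- fields with more than four elements -/
theorem field_five {K : Type*} [Field K] (hK5 : ∃ s : Finset K, 4 < s.card) :
    (∀ k : ℕ, k = 1 ∨ k = 2 ∨ k = 3 → ∃ v : Kˣ, v ^ k ≠ 1) ∧ (∃ v : K, v ≠ 0 ∧ v ≠ 1 ∧ v ^ 2 - v + 1 ≠ 0) := by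
  obtain ⟨s, hs⟩ := hK5
  have key : ∀ p : Polynomial K, p ≠ 0 → p.natDegree ≤ 4 → ∃ x ∈ s, p.eval x ≠ 0 := by
    intro p hp hd
    by_contra hcon
    push Not at hcon
    exact hp (Polynomial.eq_zero_of_natDegree_lt_card_of_eval_eq_zero' p s hcon (by omega))
  constructor
  · intro k hk
    have hk1 : 1 ≤ k ∧ k ≤ 3 := by omega
    have hm : (Polynomial.X ^ (k + 1) - Polynomial.X : Polynomial K).Monic := by
      apply Polynomial.monic_X_pow_sub
      rw [Polynomial.degree_X]
      have : 1 < k + 1 := by omega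
      exact_mod_cast this
    obtain ⟨x, _, hx⟩ := key _ hm.ne_zero (by
      have : (Polynomial.X ^ (k + 1) - Polynomial.X : Polynomial K).natDegree ≤ k + 1 := by
        apply le_trans (Polynomial.natDegree_sub_le _ _)
        simp
      omega)
    simp only [Polynomial.eval_sub, Polynomial.eval_pow, Polynomial.eval_X] at hx
    have hx0 : x ≠ 0 := by
      rintro rfl
      apply hx
      simp
    refine ⟨Units.mk0 x hx0, ?_⟩
    intro h
    apply hx
    have h2 := congrArg Units.val h
    rw [Units.val_pow_eq_pow_val, Units.val_mk0, Units.val_one] at h2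
    rw [pow_succ, h2]
    simp
  · have hm : (Polynomial.X * (Polynomial.X - Polynomial.C 1) * (Polynomial.X ^ 2 - Polynomial.X + Polynomial.C 1) : Polynomial K) ≠ 0 := by
      apply mul_ne_zero (mul_ne_zero Polynomial.X_ne_zero (Polynomial.X_sub_C_ne_zero 1))
      intro h
      have := congrArg (Polynomial.eval 0) h
      simp at this
    obtain ⟨x, _, hx⟩ := key _ hm (by
      apply le_trans Polynomial.natDegree_mul_le
      have h1 : (Polynomial.X * (Polynomial.X - Polynomial.C 1) : Polynomial K).natDegree ≤ 2 := by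
        apply le_trans Polynomial.natDegree_mul_le
        rw [Polynomial.natDegree_X, Polynomial.natDegree_X_sub_C]
      have h2 : (Polynomial.X ^ 2 - Polynomial.X + Polynomial.C 1 : Polynomial K).natDegree ≤ 2 := by
        apply le_trans (Polynomial.natDegree_add_le _ _)
        apply max_le
        · apply le_trans (Polynomial.natDegree_sub_le _ _)
          simp
        · simp
      omega)
    simp only [Polynomial.eval_mul, Polynomial.eval_sub, Polynomial.eval_add, Polynomial.eval_pow, Polynomial.eval_X, Polynomial.eval_C,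
      ne_eq, mul_eq_zero, not_or] at hx
    exact ⟨x, hx.1.1, fun h => hx.1.2 (sub_eq_zero.2 h), hx.2⟩

/-- homomorphisms from a perfect group agreeing modulo a central kernel are equal -/
theorem hom_eq_of_central {A B C : Type*} [Group A] [Group B] [Group C] (hA : commutator A = ⊤) (f f' : A →* B) (π : B →* C)
    (hπ : π.ker ≤ Subgroup.center B) (h : π.comp f = π.comp f') : f = f' := by
  have h1 : commutator A ≤ f.eqLocus f' := by
    rw [commutator_def, Subgroup.commutator_le]
    intro a _ b _
    show f ⁅a, b⁆ = f' ⁅a, b⁆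
    have key : ∀ x, ∃ z ∈ Subgroup.center B, f x = f' x * z := by
      intro x
      refine ⟨(f' x)⁻¹ * f x, hπ ?_, by group⟩
      rw [MonoidHom.mem_ker, map_mul, map_inv]
      have := DFunLike.congr_fun h x
      rw [MonoidHom.comp_apply, MonoidHom.comp_apply] at this
      rw [this, inv_mul_cancel]
    obtain ⟨z, hz, ea⟩ := key a
    obtain ⟨z', hz', eb⟩ := key b
    rw [map_commutatorElement, map_commutatorElement, ea, eb, commutatorElement_def, commutatorElement_def]
    rw [Subgroup.mem_center_iff] at hz hz'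
    rw [_root_.mul_inv_rev, _root_.mul_inv_rev]
    calc f' a * z * (f' b * z') * (z⁻¹ * (f' a)⁻¹) * (z'⁻¹ * (f' b)⁻¹) =
        f' a * (z * (f' b * z')) * z⁻¹ * (f' a)⁻¹ * (z'⁻¹ * (f' b)⁻¹) := by group
      _ = f' a * f' b * (z' * (f' a)⁻¹) * z'⁻¹ * (f' b)⁻¹ := by rw [← hz]; group
      _ = _ := by rw [← hz']; group
  rw [hA] at h1
  ext x
  exact h1 (Subgroup.mem_top x)

namespace Good3

variable {D : ChevalleyDatum} {T : Tb} (g : Good3 D T) {F : Type*} [Field F]
include g

theorem comm_img {A B : Type*} [Group A] [Group B] (f : A →* B) (hf : Function.Surjective f) (hB : commutator B = ⊤) :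
    (commutator A).map f = ⊤ := by
  rw [commutator_def, Subgroup.map_commutator, ← MonoidHom.range_eq_map, MonoidHom.range_eq_top.2 hf, ← commutator_def, hB]

/-- every central extension of the Chevalley group is dominated by the presented group -/
theorem lift_CE (hpq : chkPQ T = true) (hS : T.SelfOK) (hK5 : ∃ s : Finset F, 4 < s.card) {E : Type*} [Group E] (C : CE g F E) :
    ∃ τ : D.SteinbergCover F →* E, ∀ r < T.n, ∀ t : F, τ (D.scGen F r t) = C.y r t := by
  obtain ⟨hF, v, hv0, hv1, hv2⟩ := field_five hK5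
  have hcm := C.comm_self hpq hF hS hv0 hv1 hv2
  have hadd := C.add_of_comm hcm
  apply g.exists_liftC (fun r t => C.y r t) hadd
  intro r hr s hs h1 h2 t u
  exact C.R2_all hadd hpq hF hr hs h1 h2 t u

theorem univ (hpq : chkPQ T = true) (hS : T.SelfOK) (hT : T.TrOK) (hK5 : ∃ s : Finset F, 4 < s.card)
    (hperf : commutator (D.SteinbergCover F) = ⊤)
    {G₁ E : Type*} [Group G₁] [Group E] (π₁ : E →* G₁) (hπ : Function.Surjective π₁) (hc : π₁.ker ≤ Subgroup.center E)
    (σ : D.SteinbergCover F →* G₁) : ∃! τ : D.SteinbergCover F →* E, π₁.comp τ = σ := by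
  obtain ⟨R, hR⟩ := g.exists_RG3 (F := F) hT
  -- the pullback
  let P := ((π₁.comp (MonoidHom.fst E (D.SteinbergCover F))).eqLocus (σ.comp (MonoidHom.snd E (D.SteinbergCover F))))
  let p2 : P →* D.SteinbergCover F := (MonoidHom.snd E (D.SteinbergCover F)).comp P.subtype
  let p1 : P →* E := (MonoidHom.fst E (D.SteinbergCover F)).comp P.subtype
  have hp12 : ∀ x : P, π₁ (p1 x) = σ (p2 x) := fun x => x.2
  have hp2 : Function.Surjective p2 := by
    intro d
    obtain ⟨e, he⟩ := hπ (σ d)
    exact ⟨⟨(e, d), he⟩, rfl⟩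
  have hp2c : ∀ x : P, p2 x = 1 → ∀ z : P, z * x = x * z := by
    intro x hx z
    have h1 : π₁ (p1 x) = 1 := by rw [hp12, hx, map_one]
    have h2 := hc (MonoidHom.mem_ker.2 h1)
    rw [Subgroup.mem_center_iff] at h2
    apply Subtype.ext
    apply Prod.ext
    · exact h2 (p1 z)
    · show p2 z * p2 x = p2 x * p2 z
      rw [hx, mul_one, one_mul]
  let q : P →* GL D.Idx F := R.pi.comp p2
  have hqc : ∀ x : P, q x = 1 → ∀ z ∈ commutator P, z * x = x * z := by
    intro x hx z hz
    have h1 : p2 x ∈ Subgroup.center (D.SteinbergCover F) := R.ker_central (MonoidHom.mem_ker.2 hx)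
    have h2 : commutator P ≤ Subgroup.centralizer {x} := by
      rw [commutator_def, Subgroup.commutator_le]
      intro a _ b _
      have key : ∀ y : P, ∃ z : P, (∀ u : P, u * z = z * u) ∧ x * y * x⁻¹ = y * z := by
        intro y
        refine ⟨y⁻¹ * (x * y * x⁻¹), ?_, by group⟩
        apply hp2c
        rw [map_mul, map_mul, map_mul, map_inv, map_inv]
        rw [Subgroup.mem_center_iff] at h1
        rw [← h1 (p2 y)]
        group
      obtain ⟨z, hz, ea⟩ := key a
      obtain ⟨z', hz', eb⟩ := key b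
      rw [Subgroup.mem_centralizer_iff]
      intro u hu
      rw [Set.mem_singleton_iff] at hu
      subst hu
      have e1 : u * ⁅a, b⁆ * u⁻¹ = ⁅a, b⁆ := by
        have e2 : u * ⁅a, b⁆ * u⁻¹ = ⁅u * a * u⁻¹, u * b * u⁻¹⁆ := by
          rw [commutatorElement_def, commutatorElement_def]; group
        rw [e2, ea, eb, commutatorElement_def, commutatorElement_def, _root_.mul_inv_rev, _root_.mul_inv_rev]
        calc a * z * (b * z') * (z⁻¹ * a⁻¹) * (z'⁻¹ * b⁻¹) =
            a * (z * (b * z')) * z⁻¹ * a⁻¹ * (z'⁻¹ * b⁻¹) := by group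
          _ = a * b * (z' * a⁻¹) * z'⁻¹ * b⁻¹ := by rw [← hz]; group
          _ = _ := by rw [← hz']; group
      exact mul_inv_eq_iff_eq_mul.1 e1
    have h3 := h2 hz
    rw [Subgroup.mem_centralizer_iff] at h3
    exact (h3 x rfl).symm
  -- the perfect central extension
  let E2 := commutator P
  have hmap : E2.map p2 = ⊤ := g.comm_img p2 hp2 hperf
  let p : E2 →* GL D.Idx F := q.comp E2.subtype
  have hpr : p.range = D.group F := by
    rw [← R.pi_range, MonoidHom.range_eq_map, ← Subgroup.map_map, ← MonoidHom.range_eq_map, Subgroup.range_subtype]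
    show E2.map (R.pi.comp p2) = _
    rw [← Subgroup.map_map, hmap, ← MonoidHom.range_eq_map]
  have hpc : p.ker ≤ Subgroup.center E2 := by
    intro x hx
    rw [Subgroup.mem_center_iff]
    intro z
    apply Subtype.ext
    exact hqc x.1 hx z.1 z.2
  obtain ⟨hF, _⟩ := field_five hK5
  obtain ⟨a, ha⟩ := hF 2 (by omega)
  have ha' : (a : F) ^ 2 - 1 ≠ 0 := by
    intro h
    apply ha
    rw [sub_eq_zero] at h
    apply Units.ext
    rw [Units.val_pow_eq_pow_val, h, Units.val_one]
  let C : CE g F E2 := ⟨p, hpr, hpc, a, ha'⟩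
  obtain ⟨lam, hlam⟩ := g.lift_CE hpq hS hK5 C
  let μ : D.SteinbergCover F →* D.SteinbergCover F := (p2.comp E2.subtype).comp lam
  have hμ : μ = MonoidHom.id _ := by
    apply hom_eq_of_central hperf _ _ R.pi R.ker_central
    apply MonoidHom.eq_of_eqOn_dense g.sc_gen
    rintro _ ⟨r, hr, t, rfl⟩
    show R.pi (p2 (E2.subtype (lam (D.scGen F r t)))) = R.pi (D.scGen F r t)
    rw [hlam r hr]
    have h1 := C.p_y hr t
    have h2 := R.hpi r hr t
    rw [hR] at h2
    rw [h2]
    exact h1
  refine ⟨(p1.comp E2.subtype).comp lam, ?_, ?_⟩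
  · refine MonoidHom.ext fun x => ?_
    show π₁ (p1 (E2.subtype (lam x))) = σ x
    rw [hp12]
    have := DFunLike.congr_fun hμ x
    have h2 : p2 (E2.subtype (lam x)) = x := this
    rw [h2]
  · intro τ hτ
    apply hom_eq_of_central hperf _ _ π₁ hc
    rw [hτ]
    refine MonoidHom.ext fun x => ?_
    show σ x = π₁ (p1 (E2.subtype (lam x)))
    rw [hp12]
    have := DFunLike.congr_fun hμ x
    have h2 : p2 (E2.subtype (lam x)) = x := this
    rw [h2]

end Good3

end CfsgLib.Chev
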