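import Cfsg.Agent.LibStU3

set_option autoImplicit false
set_option linter.unusedSectionVars false
set_option linter.unusedVariables false

/-! Central extensions of finite Chevalley groups with kernel of order prime to the characteristic -/

namespace CfsgLib.Chev

open Cfsg.Lie Matrix
open scoped commutatorElement

namespace Good3

variable {D : ChevalleyDatum} {T : Tb} (g : Good3 D T) {F : Type*} [Field F]
include g

/-- the subgroup of p-elements of a central p'-extension of the group U -/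
theorem exists_S [Finite F] {ℓ : ℕ} [hℓ : Fact ℓ.Prime] [CharP F ℓ] {E : Type*} [Group E] [Finite E] (p : E →* GL D.Idx F)
    (hr : p.range = D.group F) (hc : p.ker ≤ Subgroup.center E) (hco : (Nat.card p.ker).Coprime ℓ) :
    ∃ S : Subgroup E, (∀ x ∈ S, ∀ y ∈ S, p x = p y → x = y) ∧ ∀ x : E, p x ∈ D.posUnipotent F → x ^ ℓ = 1 → x ∈ S := by
  classical
  have := Fintype.ofFinite F
  set N := (D.posUnipotent F).comap p with hN
  set K := p.ker.subgroupOf N with hK
  have : K.Normal := by rw [hK]; infer_instance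
  have hkerN : p.ker ≤ N := by
    intro x hx
    rw [hN, Subgroup.mem_comap, MonoidHom.mem_ker.1 hx]
    exact Subgroup.one_mem _
  have hKcard : Nat.card K = Nat.card p.ker := Nat.card_congr (Subgroup.subgroupOfEquivOfLe hkerN).toEquiv
  -- index
  let f : N →* D.posUnipotent F := (p.comp N.subtype).codRestrict _ (fun x => x.2)
  have hf : f.ker = K := by
    ext x
    rw [MonoidHom.mem_ker, hK, Subgroup.mem_subgroupOf, MonoidHom.mem_ker, ← Subtype.coe_inj]
    rfl
  have hUle : D.posUnipotent F ≤ D.group F := g.U_le_G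
  have hfs : Function.Surjective f := by
    rintro ⟨u, hu⟩
    have h1 := hUle hu
    rw [← hr] at h1
    obtain ⟨x, hx⟩ := h1
    exact ⟨⟨x, by rw [hN, Subgroup.mem_comap, hx]; exact hu⟩, Subtype.ext hx⟩
  have hidx : K.index = Nat.card (D.posUnipotent F) := by
    rw [← hf, Subgroup.index_ker, MonoidHom.range_eq_top.2 hfs, Subgroup.card_top]
  obtain ⟨n, _, hn⟩ := FiniteField.card F ℓ
  have hcop : Nat.Coprime (Nat.card K) K.index := by
    rw [hKcard, hidx, g.card_U, hn, ← pow_mul]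
    exact Nat.Coprime.pow_right _ hco
  obtain ⟨S0, hS0⟩ := Subgroup.exists_right_complement'_of_coprime hcop
  have hdisj := hS0.disjoint
  refine ⟨S0.map N.subtype, ?_, ?_⟩
  · rintro _ ⟨x, hx, rfl⟩ _ ⟨y, hy, rfl⟩ h
    have h1 : x * y⁻¹ ∈ K := by
      rw [← hf, MonoidHom.mem_ker, map_mul, map_inv, mul_inv_eq_one]
      exact Subtype.ext h
    have h2 : x * y⁻¹ ∈ S0 := Subgroup.mul_mem _ hx (Subgroup.inv_mem _ hy)
    have h3 : x * y⁻¹ ∈ (⊥ : Subgroup N) := by
      rw [← hdisj.eq_bot]; exact ⟨h1, h2⟩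
    rw [Subgroup.mem_bot, mul_inv_eq_one] at h3
    rw [h3]
  · intro x hx hxl
    have hxN : x ∈ N := hx
    obtain ⟨⟨⟨k, hk⟩, ⟨s, hs⟩⟩, e⟩ := hS0.2 (⟨x, hxN⟩ : N)
    have e : k * s = (⟨x, hxN⟩ : N) := e
    have hk : k ∈ K := hk
    have hs : s ∈ S0 := hs
    have hkc : ∀ y : N, k * y = y * k := by
      intro y
      rw [hK, Subgroup.mem_subgroupOf] at hk
      have := hc hk
      rw [Subgroup.mem_center_iff] at this
      exact Subtype.ext (this y).symm
    have h2 : (k * s) ^ ℓ = 1 := by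
      rw [e]
      exact Subtype.ext hxl
    have h3 : k ^ ℓ * s ^ ℓ = 1 := by
      rw [← (show Commute k s from hkc s).mul_pow, h2]
    have h4 : k ^ ℓ ∈ (⊥ : Subgroup N) := by
      rw [← hdisj.eq_bot]
      refine ⟨Subgroup.pow_mem _ hk _, ?_⟩
      rw [mul_eq_one_iff_eq_inv] at h3
      rw [h3]
      exact Subgroup.inv_mem _ (Subgroup.pow_mem _ hs _)
    rw [Subgroup.mem_bot] at h4
    have h5 : orderOf k ∣ ℓ := orderOf_dvd_of_pow_eq_one h4
    have h6 : orderOf k ∣ Nat.card p.ker := by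
      rw [← hKcard]
      have := orderOf_dvd_natCard (⟨k, hk⟩ : K)
      rwa [Subgroup.orderOf_mk] at this
    have h7 : orderOf k = 1 := Nat.eq_one_of_dvd_coprimes hco h6 h5
    rw [orderOf_eq_one_iff] at h7
    rw [h7, one_mul] at e
    exact ⟨s, hs, by rw [e]; rfl⟩

theorem X_pow (r : ℕ) (t : F) (m : ℕ) : (g.X r t) ^ m = g.X r ((m : F) * t) := by
  induction m with
  | zero => simp [g.X_zero]
  | succ m ih => rw [pow_succ, ih, ← g.X_add]; congr 1; push_cast; ring

/-- lifting to a central extension by a group of order prime to the characteristic -/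
theorem lift_finite [Finite F] {ℓ : ℕ} [hℓ : Fact ℓ.Prime] [CharP F ℓ] {E : Type*} [Group E] [Finite E] (p : E →* GL D.Idx F)
    (hr : p.range = D.group F) (hc : p.ker ≤ Subgroup.center E) (hco : (Nat.card p.ker).Coprime ℓ) :
    ∃ τ : D.SteinbergCover F →* E, ∀ r < T.n, ∀ t : F, p (τ (D.scGen F r t)) = g.X r t := by
  have hev := g.even
  have hcen : ∀ z : E, p z = 1 → ∀ x : E, z * x = x * z := by
    intro z hz x
    have := hc (MonoidHom.mem_ker.2 hz)
    rw [Subgroup.mem_center_iff] at this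
    exact (this x).symm
  have hlift : ∀ z ∈ D.group F, ∃ e, p e = z := by
    intro z hz; rw [← hr] at hz; exact hz
  have hex : ∀ (r : ℕ) (t : F), ∃ e : E, p e = g.X r t ∧ e ^ ℓ = 1 := by
    intro r t
    obtain ⟨e, he⟩ := hlift _ (g.X_mem_G r t)
    have h1 : e ^ ℓ ∈ p.ker := by
      rw [MonoidHom.mem_ker, map_pow, he, g.X_pow, CharP.cast_eq_zero, zero_mul, g.X_zero]
    obtain ⟨k, hk1, hk2⟩ := Nat.chineseRemainder hco 0 1
    refine ⟨e ^ k, ?_, ?_⟩
    · rw [map_pow, he, g.X_pow]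
      have h2 : (k : F) = 1 := by
        have := (CharP.natCast_eq_natCast F ℓ).2 hk2
        rwa [Nat.cast_one] at this
      rw [h2, one_mul]
    · rw [← pow_mul, mul_comm, pow_mul]
      obtain ⟨m, hm⟩ := (Nat.modEq_zero_iff_dvd).1 hk1
      rw [hm, pow_mul]
      have h3 : (⟨e ^ ℓ, h1⟩ : p.ker) ^ Nat.card p.ker = 1 := pow_card_eq_one'
      have h4 := congrArg Subtype.val h3
      have h5 : (e ^ ℓ) ^ Nat.card p.ker = 1 := h4
      rw [h5, one_pow]
  choose y hy hyl using hex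
  have huniq : ∀ e e' : E, p e = p e' → e ^ ℓ = 1 → e' ^ ℓ = 1 → e = e' := by
    intro e e' h h1 h2
    have hz : p (e'⁻¹ * e) = 1 := by rw [map_mul, map_inv, h, inv_mul_cancel]
    set z := e'⁻¹ * e with hzdef
    have e1 : e = e' * z := by rw [hzdef]; group
    have h3 : z ^ ℓ = 1 := by
      rw [e1, (show Commute e' z from (hcen z hz e').symm).mul_pow, h2, one_mul] at h1
      exact h1
    have h4 : orderOf z ∣ ℓ := orderOf_dvd_of_pow_eq_one h3
    have h5 : orderOf z ∣ Nat.card p.ker := by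
      have := orderOf_dvd_natCard (⟨z, MonoidHom.mem_ker.2 hz⟩ : p.ker)
      rwa [Subgroup.orderOf_mk] at this
    have h6 : orderOf z = 1 := Nat.eq_one_of_dvd_coprimes hco h5 h4
    rw [orderOf_eq_one_iff] at h6
    rw [e1, h6, mul_one]
  have hconj : ∀ (e : E) (w : List ℕ), VW T w → p e = g.nw w → ∀ r < T.n, ∀ t : F,
      e * y r t * e⁻¹ = y (wact T w r) (((sgn T w r : ℤ) : F) * t) := by
    intro e w hw he r hr' t
    apply huniq
    · rw [map_mul, map_mul, map_inv, he, hy, hy, g.nw_X hw hr']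
    · rw [conj_pow, hyl]; group
    · exact hyl _ _
  obtain ⟨S, hS1, hS2⟩ := g.exists_S (ℓ := ℓ) p hr hc hco
  have hyS : ∀ r < T.n, T.n / 2 ≤ r → ∀ t : F, y r t ∈ S := by
    intro r hr' hp t
    apply hS2 _ _ (hyl r t)
    rw [hy]
    exact g.X_mem_U hp hr' t
  -- transport
  have htr : ∀ (e : E) (w : List ℕ), VW T w → p e = g.nw w → ∀ r0 < T.n, T.n / 2 ≤ r0 → ∀ t : F,
      e⁻¹ * y (wact T w r0) t * e ∈ S := by
    intro e w hw he r0 hr0 hp t
    have h1 := hconj e w hw he r0 hr0 (((sgn T w r0 : ℤ) : F) * t)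
    have h2 : ((sgn T w r0 : ℤ) : F) * (((sgn T w r0 : ℤ) : F) * t) = t := by
      rcases Good3.sgn_cases (T := T) w r0 with h | h <;> rw [h] <;> simp
    rw [h2] at h1
    rw [← h1]
    have h3 : e⁻¹ * (e * y r0 (((sgn T w r0 : ℤ) : F) * t) * e⁻¹) * e = y r0 (((sgn T w r0 : ℤ) : F) * t) := by group
    rw [h3]
    exact hyS r0 hr0 hp _
  have hfin : ∀ (e a b : E), e⁻¹ * a * e ∈ S → e⁻¹ * b * e ∈ S → p a = p b → a = b := by
    intro e a b ha hb h
    have h1 := hS1 _ ha _ hb (by rw [map_mul, map_mul, map_mul, map_mul, h])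
    have h2 : e * (e⁻¹ * a * e) * e⁻¹ = e * (e⁻¹ * b * e) * e⁻¹ := by rw [h1]
    have h3 : ∀ x : E, e * (e⁻¹ * x * e) * e⁻¹ = x := by intro x; group
    rwa [h3, h3] at h2
  have hmulS : ∀ (e a b : E), e⁻¹ * a * e ∈ S → e⁻¹ * b * e ∈ S → e⁻¹ * (a * b) * e ∈ S := by
    intro e a b ha hb
    have : e⁻¹ * (a * b) * e = (e⁻¹ * a * e) * (e⁻¹ * b * e) := by group
    rw [this]; exact Subgroup.mul_mem _ ha hb
  obtain ⟨τ, hτ⟩ := g.exists_liftC (F := F) y (by
    intro r hr' t u
    obtain ⟨w', hw', hp1, hp2⟩ := g.both_pos hr' hr' (by omega)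
    have hw := Good3.VWrev hw'
    obtain ⟨e, he⟩ := hlift _ (g.nw_mem_G (F := F) w'.reverse)
    have er : wact T w'.reverse (wact T w' r) = r := g.wact_rev hw' hr'
    have h1 : ∀ t, e⁻¹ * y r t * e ∈ S := by
      intro t
      have := htr e w'.reverse hw he (wact T w' r) (g.wact_lt hw' hr') hp1 t
      rwa [er] at this
    apply hfin e _ _ (h1 _) (hmulS e _ _ (h1 _) (h1 _))
    rw [map_mul, hy, hy, hy, g.X_add]) (by
    intro r hr' s hs h1 h2 t u
    obtain ⟨w', hw', hp1, hp2⟩ := g.both_pos hr' hs h2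
    have hw := Good3.VWrev hw'
    obtain ⟨e, he⟩ := hlift _ (g.nw_mem_G (F := F) w'.reverse)
    have er : wact T w'.reverse (wact T w' r) = r := g.wact_rev hw' hr'
    have es : wact T w'.reverse (wact T w' s) = s := g.wact_rev hw' hs
    have hr1 : ∀ t, e⁻¹ * y r t * e ∈ S := by
      intro t
      have := htr e w'.reverse hw he (wact T w' r) (g.wact_lt hw' hr') hp1 t
      rwa [er] at this
    have hs1 : ∀ t, e⁻¹ * y s t * e ∈ S := by
      intro t
      have := htr e w'.reverse hw he (wact T w' s) (g.wact_lt hw' hs) hp2 t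
      rwa [es] at this
    have hne0 : wact T w' s ≠ wact T w' r := fun h => h1 (g.wact_inj hw' hs hr' h)
    have hprod : ∀ M : List (ℕ × ℤ × ℕ × ℕ), (∀ c ∈ M, ∃ c0 < T.n, T.n / 2 ≤ c0 ∧ wact T w'.reverse c0 = c.1) →
        e⁻¹ * (M.map fun c => y c.1 ((c.2.1 : F) * (-t) ^ c.2.2.1 * u ^ c.2.2.2)).prod * e ∈ S := by
      intro M
      induction M with
      | nil => intro _; simp
      | cons c M ihM =>
        intro hM
        obtain ⟨c0, q1, q2, q3⟩ := hM c List.mem_cons_self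
        rw [List.map_cons, List.prod_cons]
        apply hmulS e _ _ _ (ihM (fun c' hc' => hM c' (List.mem_cons_of_mem _ hc')))
        rw [← q3]
        exact htr e w'.reverse hw he c0 q1 q2 _
    apply hfin e _ _ (hmulS e _ _ (hs1 _) (hr1 _)) (hmulS e _ _ (hmulS e _ _ (hr1 _) (hs1 _)) (hprod _ ?_))
    · rw [map_mul, map_mul, map_mul, hy, hy, map_list_prod, List.map_map, g.X_comm hr' hs h1 h2 t u]
      congr 2
      apply List.map_congr_left
      intro c hc
      show g.X _ _ = p (y _ _)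
      rw [hy]
    · intro c hc
      have h3 := g.comm_w hw (g.wact_lt hw' hr') (g.wact_lt hw' hs) hp1 hp2 hne0 c (by rw [er, es]; exact hc)
      obtain ⟨c0, q1, q2, q3, q4⟩ := h3
      exact ⟨c0, q1, by omega, q4⟩)
  exact ⟨τ, fun r hr' t => by rw [hτ r hr', hy]⟩

end Good3

end CfsgLib.Chev
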