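import Cfsg.Agent.LibCoprime
import Mathlib

set_option autoImplicit false
set_option linter.unusedSectionVars false

/-! Counting fixed cosets in a coset of a subgroup; p-regular elements of a coset (seat helper15). -/

namespace CfsgLib.StVal

universe u

section
variable {Γ : Type u} [Group Γ] [Finite Γ]

/-- counting pairs `(u, q)` with `s u q = q` -/
theorem pairs_count (U P : Subgroup Γ) (s : Γ) {C : Type*} (x : C → Γ)
    (h1 : ∀ u ∈ U, ∀ q : Γ ⧸ P, (s * u) • q = q → ∃ c, ∃ v ∈ U, q = v • ((x c : Γ) : Γ ⧸ P))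
    (h2 : ∀ c c', ∀ v ∈ U, ∀ v' ∈ U, v • ((x c : Γ) : Γ ⧸ P) = v' • ((x c' : Γ) : Γ ⧸ P) → c = c')
    (h3 : ∀ c, ∀ v ∈ U, ∃ v1 ∈ U, s⁻¹ • (v • ((x c : Γ) : Γ ⧸ P)) = v1 • ((x c : Γ) : Γ ⧸ P)) :
    Nat.card {z : U × (Γ ⧸ P) // (s * (z.1 : Γ)) • z.2 = z.2} = Nat.card U * Nat.card C := by
  classical
  rw [← Nat.card_prod]
  have h1' : ∀ q : {q : Γ ⧸ P // ∃ c, ∃ v ∈ U, q = v • ((x c : Γ) : Γ ⧸ P)}, ∃ c, ∃ v : U, q.1 = (v : Γ) • ((x c : Γ) : Γ ⧸ P) := by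
    rintro ⟨q, c, v, hv, e⟩
    exact ⟨c, ⟨v, hv⟩, e⟩
  choose c v0 hv0 using h1'
  have h4 : ∀ q : {q : Γ ⧸ P // ∃ c, ∃ v ∈ U, q = v • ((x c : Γ) : Γ ⧸ P)}, ∃ u0 : U, (s * (u0 : Γ)) • q.1 = q.1 := by
    intro q
    obtain ⟨v1, hv1, e⟩ := h3 (c q) (v0 q) (v0 q).2
    refine ⟨⟨v1, hv1⟩ * (v0 q)⁻¹, ?_⟩
    have e1 : ((⟨v1, hv1⟩ * (v0 q)⁻¹ : U) : Γ) • q.1 = v1 • ((x (c q) : Γ) : Γ ⧸ P) := by
      conv_lhs => rw [hv0 q]
      rw [smul_smul]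
      congr 1
      show v1 * ((v0 q : Γ))⁻¹ * (v0 q : Γ) = v1
      group
    rw [mul_smul, e1, ← e, ← hv0 q, smul_inv_smul]
  choose u0 hu0 using h4
  let Q : Type _ := {q : Γ ⧸ P // ∃ c, ∃ v ∈ U, q = v • ((x c : Γ) : Γ ⧸ P)}
  apply Nat.card_congr
  refine
    { toFun := fun z => ((u0 ⟨z.1.2, h1 _ z.1.1.2 _ z.2⟩)⁻¹ * z.1.1 * v0 ⟨z.1.2, h1 _ z.1.1.2 _ z.2⟩, c ⟨z.1.2, h1 _ z.1.1.2 _ z.2⟩)
      invFun := fun y => ⟨(u0 ⟨(y.1 : Γ) • ((x y.2 : Γ) : Γ ⧸ P), y.2, y.1, y.1.2, rfl⟩ * y.1 *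
        (v0 ⟨(y.1 : Γ) • ((x y.2 : Γ) : Γ ⧸ P), y.2, y.1, y.1.2, rfl⟩)⁻¹, (y.1 : Γ) • ((x y.2 : Γ) : Γ ⧸ P)), ?_⟩
      left_inv := ?_
      right_inv := ?_ }
  · -- fixed
    obtain ⟨v, d⟩ := y
    simp only
    set q : {q : Γ ⧸ P // ∃ c, ∃ v ∈ U, q = v • ((x c : Γ) : Γ ⧸ P)} := ⟨(v : Γ) • ((x d : Γ) : Γ ⧸ P), d, v, v.2, rfl⟩ with hq
    have hc : c q = d := h2 _ _ _ (v0 q).2 _ v.2 (hv0 q).symm
    have e1 : ((v0 q : Γ))⁻¹ • q.1 = ((x d : Γ) : Γ ⧸ P) := by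
      conv_lhs => rw [hv0 q]
      rw [inv_smul_smul, hc]
    have e2 : ((u0 q * v * (v0 q)⁻¹ : U) : Γ) • q.1 = (u0 q : Γ) • q.1 := by
      have : ((u0 q * v * (v0 q)⁻¹ : U) : Γ) = (u0 q : Γ) * ((v : Γ) * (v0 q : Γ)⁻¹) := by push_cast; group
      rw [this, mul_smul, mul_smul, e1]
    have e3 : (s * ((u0 q * v * (v0 q)⁻¹ : U) : Γ)) • q.1 = q.1 := by
      rw [mul_smul, e2, ← mul_smul, hu0 q]
    exact e3
  · rintro ⟨⟨u, q⟩, hz⟩
    simp only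
    set q' : {q : Γ ⧸ P // ∃ c, ∃ v ∈ U, q = v • ((x c : Γ) : Γ ⧸ P)} := ⟨q, h1 _ u.2 _ hz⟩ with hq'
    have hst : ((u0 q' : Γ))⁻¹ • ((u : Γ) • q) = q := by
      have a1 := hu0 q'
      have a2 : (s * (u : Γ)) • q = (s * (u0 q' : Γ)) • q := by rw [a1]; exact hz
      rw [mul_smul, mul_smul] at a2
      have a3 := smul_left_cancel s a2
      rw [a3, inv_smul_smul]
    have e1 : (((u0 q')⁻¹ * u * v0 q' : U) : Γ) • ((x (c q') : Γ) : Γ ⧸ P) = q := by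
      have : (((u0 q')⁻¹ * u * v0 q' : U) : Γ) = (u0 q' : Γ)⁻¹ * ((u : Γ) * (v0 q' : Γ)) := by push_cast; group
      rw [this, mul_smul, mul_smul, ← hv0 q']
      exact hst
    apply Subtype.ext
    apply Prod.ext
    · simp only
      have e2 : (⟨(((u0 q')⁻¹ * u * v0 q' : U) : Γ) • ((x (c q') : Γ) : Γ ⧸ P), c q', ((u0 q')⁻¹ * u * v0 q' : U),
          ((u0 q')⁻¹ * u * v0 q' : U).2, rfl⟩ : {q : Γ ⧸ P // ∃ c, ∃ v ∈ U, q = v • ((x c : Γ) : Γ ⧸ P)}) = q' := Subtype.ext e1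
      rw [e2]
      show u0 q' * ((u0 q')⁻¹ * u * v0 q') * (v0 q')⁻¹ = u
      group
    · exact e1
  · rintro ⟨v, d⟩
    simp only
    set q : {q : Γ ⧸ P // ∃ c, ∃ v ∈ U, q = v • ((x c : Γ) : Γ ⧸ P)} := ⟨(v : Γ) • ((x d : Γ) : Γ ⧸ P), d, v, v.2, rfl⟩ with hq
    have hc : c q = d := h2 _ _ _ (v0 q).2 _ v.2 (hv0 q).symm
    apply Prod.ext
    · simp only
      group
    · exact hc

theorem coset_pow {V : Subgroup Γ} {s u : Γ} (hs : ∀ v ∈ V, s⁻¹ * v * s ∈ V) (hu : u ∈ V) (k : ℕ) :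
    ∃ v ∈ V, (s * u) ^ k = s ^ k * v := by
  induction k with
  | zero => exact ⟨1, V.one_mem, by simp⟩
  | succ k ih =>
    obtain ⟨v, hv, e⟩ := ih
    refine ⟨s⁻¹ * v * s * u, V.mul_mem (hs v hv) hu, ?_⟩
    rw [pow_succ, e, pow_succ]; group

/-- p-regular elements of a coset `sV` of a p-group are conjugate -/
theorem coset_conj {p : ℕ} [Fact p.Prime] {V : Subgroup Γ} (hV : IsPGroup p V) {s u : Γ} (hs : ∀ v, v ∈ V ↔ s * v * s⁻¹ ∈ V)
    (hu : u ∈ V) (h1 : ¬ p ∣ orderOf s) (h2 : ¬ p ∣ orderOf (s * u)) : ∃ v ∈ V, v * s * v⁻¹ = s * u := by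
  classical
  have hp : p.Prime := Fact.out
  have hs' : ∀ v ∈ V, s⁻¹ * v * s ∈ V := by
    intro v hv
    rw [hs]
    have : s * (s⁻¹ * v * s) * s⁻¹ = v := by group
    rw [this]; exact hv
  have key : ∀ x : Γ, x ∈ V → ∀ y : Γ, ¬ p ∣ orderOf y → x ∈ Subgroup.zpowers y → x = 1 := by
    intro x hx y hy hxy
    obtain ⟨k, hk⟩ := (IsPGroup.iff_orderOf.1 hV) ⟨x, hx⟩
    have hk' : orderOf x = p ^ k := by
      rw [← hk]; exact orderOf_injective V.subtype V.subtype_injective ⟨x, hx⟩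
    have hd : orderOf x ∣ orderOf y := orderOf_dvd_of_mem_zpowers hxy
    rcases Nat.eq_zero_or_pos k with h0 | h0
    · rw [h0, pow_zero, orderOf_eq_one_iff] at hk'; exact hk'
    · exfalso
      apply hy
      rw [hk'] at hd
      exact (dvd_pow_self p h0.ne').trans hd
  have hord : orderOf (s * u) = orderOf s := by
    apply Nat.dvd_antisymm
    · apply orderOf_dvd_of_pow_eq_one
      obtain ⟨v, hv, e⟩ := coset_pow hs' hu (orderOf s)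
      rw [pow_orderOf_eq_one, one_mul] at e
      rw [e]
      exact key v hv (s * u) h2 (e ▸ Subgroup.npow_mem_zpowers _ _)
    · apply orderOf_dvd_of_pow_eq_one
      obtain ⟨v, hv, e⟩ := coset_pow hs' hu (orderOf (s * u))
      rw [pow_orderOf_eq_one] at e
      have e2 : s ^ orderOf (s * u) = v⁻¹ := by rw [eq_inv_iff_mul_eq_one, ← e]
      rw [e2]
      exact key v⁻¹ (V.inv_mem hv) s h1 (e2 ▸ Subgroup.npow_mem_zpowers _ _)
  have hnorm : Subgroup.zpowers s ≤ Subgroup.normalizer (V : Set Γ) := by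
    rw [Subgroup.zpowers_le, Subgroup.mem_normalizer_iff]
    exact hs
  obtain ⟨n, hn, e⟩ := CfsgLib.Coprime.sz_conj (N := V) (H := Subgroup.zpowers s) (K := Subgroup.zpowers (s * u)) hnorm
    (by
      rw [Nat.card_zpowers]
      obtain ⟨k, hk⟩ := IsPGroup.iff_card.1 hV
      rw [hk]
      exact (Nat.Coprime.pow_right _ ((Nat.coprime_comm.1 ((Nat.Prime.coprime_iff_not_dvd hp).2 h1)))))
    (Or.inl inferInstance)
    (by
      rw [Subgroup.zpowers_le]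
      exact Subgroup.mul_mem _ (Subgroup.mem_sup_right (Subgroup.mem_zpowers s)) (Subgroup.mem_sup_left hu))
    (by rw [Nat.card_zpowers, Nat.card_zpowers, hord])
  refine ⟨n, hn, ?_⟩
  have h5 : n * s * n⁻¹ ∈ Subgroup.zpowers (s * u) := by
    rw [← e]
    exact ⟨s, Subgroup.mem_zpowers s, rfl⟩
  rw [mem_zpowers_iff_mem_range_orderOf] at h5
  rw [Finset.mem_image] at h5
  obtain ⟨k, _, hk⟩ := h5
  obtain ⟨v, hv, e3⟩ := coset_pow hs' hu k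
  -- n s n⁻¹ = s ^ k v
  have e4 : n * s * n⁻¹ = s ^ k * v := by rw [← hk]; exact e3
  have e5 : s⁻¹ * (n * s * n⁻¹) ∈ V := by
    have : s⁻¹ * (n * s * n⁻¹) = (s⁻¹ * n * s) * n⁻¹ := by group
    rw [this]; exact V.mul_mem (hs' n hn) (V.inv_mem hn)
  have e6 : s⁻¹ * s ^ k ∈ V := by
    have : s⁻¹ * s ^ k = s⁻¹ * (n * s * n⁻¹) * v⁻¹ := by rw [e4]; group
    rw [this]; exact V.mul_mem e5 (V.inv_mem hv)
  have e7 : s⁻¹ * s ^ k = 1 := key _ e6 s h1 (Subgroup.mul_mem _ (Subgroup.inv_mem _ (Subgroup.mem_zpowers s))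
    (Subgroup.npow_mem_zpowers _ _))
  have e8 : s ^ k = s ^ 1 := by rw [pow_one]; exact (inv_mul_eq_one.1 e7).symm
  have e9 : (s * u) ^ k = (s * u) ^ 1 := by
    rw [pow_eq_pow_iff_modEq] at e8 ⊢
    rw [hord]; exact e8
  rw [← hk, e9, pow_one]

open scoped Classical in
/-- sum of a class function vanishing on p-singular elements over the coset `sV` -/
theorem sum_coset {p : ℕ} [Fact p.Prime] {V : Subgroup Γ} (hV : IsPGroup p V) {s : Γ} (hs : ∀ v, v ∈ V ↔ s * v * s⁻¹ ∈ V)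
    (h1 : ¬ p ∣ orderOf s) (f : Γ → ℂ) (hf : ∀ x y, f (y * x * y⁻¹) = f x) (h0 : ∀ x, p ∣ orderOf x → f x = 0) [Fintype V] :
    (∑ u : V, f (s * u)) * Nat.card ↥(V ⊓ Subgroup.centralizer {s}) = Nat.card V * f s := by
  -- map v ↦ s⁻¹ v s v⁻¹
  have hs' : ∀ v ∈ V, s⁻¹ * v * s ∈ V := by
    intro v hv
    rw [hs]
    have : s * (s⁻¹ * v * s) * s⁻¹ = v := by group
    rw [this]; exact hv
  let φ : V → V := fun v => ⟨s⁻¹ * v * s * (v : Γ)⁻¹, V.mul_mem (hs' v v.2) (V.inv_mem v.2)⟩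
  have hφ : ∀ v, s * (φ v : Γ) = v * s * (v : Γ)⁻¹ := by
    intro v
    show s * (s⁻¹ * v * s * (v : Γ)⁻¹) = _
    group
  have hfib : ∀ u ∈ Set.range φ, (Finset.univ.filter (fun v : V => φ v = u)).card = Nat.card ↥(V ⊓ Subgroup.centralizer {s}) := by
    rintro _ ⟨v0, rfl⟩
    rw [← Fintype.card_subtype, ← Nat.card_eq_fintype_card]
    apply Nat.card_congr
    refine
      { toFun := fun v => ⟨(v0 : Γ)⁻¹ * v.1, V.mul_mem (V.inv_mem v0.2) v.1.2, ?_⟩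
        invFun := fun c => ⟨⟨v0 * c.1, V.mul_mem v0.2 c.2.1⟩, ?_⟩
        left_inv := ?_
        right_inv := ?_ }
    · show (v0 : Γ)⁻¹ * v.1 ∈ Subgroup.centralizer {s}
      rw [Subgroup.mem_centralizer_singleton_iff]
      have e := v.2
      have e1 : (v.1 : Γ) * s * (v.1 : Γ)⁻¹ = v0 * s * (v0 : Γ)⁻¹ := by rw [← hφ, ← hφ, e]
      have e2 : (v.1 : Γ) * s = v0 * s * (v0 : Γ)⁻¹ * v.1 := by rw [← e1]; group
      rw [mul_assoc, e2]; group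
    · have hc : (c : Γ) ∈ Subgroup.centralizer {s} := c.2.2
      rw [Subgroup.mem_centralizer_singleton_iff] at hc
      apply Subtype.ext
      apply mul_left_cancel (a := s)
      rw [hφ, hφ]
      show (v0 : Γ) * c.1 * s * ((v0 : Γ) * c.1)⁻¹ = _
      rw [mul_assoc (v0 : Γ), hc]; group
    · intro v; apply Subtype.ext; apply Subtype.ext; simp
    · intro c; apply Subtype.ext; simp
  have hsum : ∑ v : V, f (s * (φ v : Γ)) = ∑ u : V, (∑ v ∈ Finset.univ.filter (fun v : V => φ v = u), f (s * u)) := by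
    rw [← Finset.sum_fiberwise (s := Finset.univ) (g := φ)]
    apply Finset.sum_congr rfl
    intro u _
    apply Finset.sum_congr rfl
    intro v hv
    rw [(Finset.mem_filter.1 hv).2]
  have e1 : ∑ v : V, f (s * (φ v : Γ)) = Nat.card V * f s := by
    rw [Finset.sum_congr rfl (fun v _ => by rw [hφ, hf]), Finset.sum_const, Finset.card_univ, nsmul_eq_mul,
      Nat.card_eq_fintype_card]
  rw [← e1, hsum, Finset.sum_mul]
  apply Finset.sum_congr rfl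
  intro u _
  rw [Finset.sum_const, nsmul_eq_mul]
  by_cases hu : u ∈ Set.range φ
  · rw [hfib u hu, mul_comm]
  · have h3 : p ∣ orderOf (s * (u : Γ)) := by
      by_contra hcon
      obtain ⟨v, hv, e⟩ := coset_conj hV hs u.2 h1 hcon
      apply hu
      refine ⟨⟨v, hv⟩, Subtype.ext ?_⟩
      apply mul_left_cancel (a := s)
      rw [hφ]
      exact e
    rw [h0 _ h3]; simp

end

end CfsgLib.StVal
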