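import Cfsg.Agent.LibDC15c
import Cfsg.Agent.LibStVal15
import Cfsg.Agent.LibStIrr15b

set_option autoImplicit false
set_option linter.unusedSectionVars false

/-! Values of the Steinberg character at p-regular elements (seat helper15). -/

namespace CfsgLib.Chev

open Cfsg.Lie Matrix Cfsg CfsgLib.AltSum
open scoped ComplexConjugate

theorem sum_between (S K R : Finset ℕ) (hKR : K ⊆ R) (hRS : R ⊆ S) :
    ∑ J ∈ S.powerset, (-1 : ℤ) ^ J.card * (if K ⊆ J ∧ J ⊆ R then 1 else 0) = if K = R then (-1) ^ K.card else 0 := by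
  classical
  have e1 : ∑ J ∈ S.powerset, (-1 : ℤ) ^ J.card * (if K ⊆ J ∧ J ⊆ R then 1 else 0) =
      ∑ L ∈ (R \ K).powerset, (-1 : ℤ) ^ K.card * (-1) ^ L.card := by
    rw [Finset.sum_congr rfl (fun J _ => mul_ite_zero _ _ _), ← Finset.sum_filter]
    apply Finset.sum_nbij' (fun J => J \ K) (fun L => K ∪ L)
    · intro J hJ
      rw [Finset.mem_filter] at hJ
      rw [Finset.mem_powerset]
      exact Finset.sdiff_subset_sdiff hJ.2.2 subset_rfl
    · intro L hL
      rw [Finset.mem_powerset] at hL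
      rw [Finset.mem_filter, Finset.mem_powerset]
      have h1 : K ∪ L ⊆ R := Finset.union_subset hKR (hL.trans Finset.sdiff_subset)
      exact ⟨h1.trans hRS, Finset.subset_union_left, h1⟩
    · intro J hJ
      rw [Finset.mem_filter] at hJ
      exact Finset.union_sdiff_of_subset hJ.2.1
    · intro L hL
      rw [Finset.mem_powerset] at hL
      rw [Finset.union_sdiff_left]
      apply Finset.sdiff_eq_self_of_disjoint
      exact (Finset.disjoint_of_subset_left hL Finset.sdiff_disjoint)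
    · intro J hJ
      rw [Finset.mem_filter] at hJ
      rw [mul_one, ← pow_add]
      congr 1
      have := Finset.card_sdiff_add_card_eq_card hJ.2.1
      omega
  rw [e1, ← Finset.mul_sum, Finset.sum_powerset_neg_one_pow_card]
  have h2 : R \ K = ∅ ↔ K = R := by
    rw [Finset.sdiff_eq_empty_iff_subset]
    exact ⟨fun h => subset_antisymm hKR h, fun h => h.symm.subset⟩
  by_cases h : K = R
  · rw [if_pos (h2.2 h), if_pos h, mul_one]
  · rw [if_neg (fun h' => h (h2.1 h')), if_neg h, mul_zero]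

namespace Good3

variable {D : ChevalleyDatum} {T : Tb} (g : Good3 D T)
include g

theorem sim_inj15 {i j : ℕ} (hi : i < T.l) (hj : j < T.l) (e : T.sim i = T.sim j) : i = j := by
  have h1 := g.v_sim hi hj
  rw [e, g.v_sim hj hj, if_pos rfl] at h1
  by_contra h
  rw [if_neg h] at h1
  omega

theorem wact_inj15 {w : List ℕ} (hw : VW T w) {r s : ℕ} (hr : r < T.n) (hs : s < T.n) (e : wact T w r = wact T w s) : r = s := by
  rw [← g.wact_rev hw hr, e, g.wact_rev hw hs]

section Mat
variable {F : Type*} [Field F]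

/-- representative in the group -/
noncomputable def ew (w : List ℕ) : ↥(D.group F) := ⟨g.nw w, g.nw_mem_G w⟩

theorem ew_wd {w w' : List ℕ} (hw : VW T w) (hw' : VW T w')
    (e : cl ((D.borelSubgroup F).subgroupOf (D.group F)) (g.ew (F := F) w) = cl ((D.borelSubgroup F).subgroupOf (D.group F)) (g.ew w')) :
    ∀ r < T.n, wact T w r = wact T w' r := by
  obtain ⟨b, hb, b', hb', e⟩ := cl_eq_iff.1 e
  have e2 : g.nw (F := F) w' = (b : GL D.Idx F) * g.nw w * (b' : GL D.Idx F) := congrArg Subtype.val e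
  intro r hr
  exact (g.dc_wact hw' hw (Subgroup.one_mem _) (Subgroup.one_mem _) hb hb' (by rw [one_mul, mul_one]; exact e2) r hr).symm

/-- classes relevant for `P_I` and `P_J` -/
def Cls (F : Type*) [Field F] (I J : Finset ℕ) : Type _ :=
  {c : Set ↥(D.group F) // ∃ w, VW T w ∧ c = cl ((D.borelSubgroup F).subgroupOf (D.group F)) (g.ew (F := F) w) ∧
    (∀ j ∈ J, T.n / 2 ≤ wact T w (T.sim j)) ∧ ∀ i ∈ I, ∃ j ∈ J, wact T w (T.sim j) = T.sim i}

theorem alt_cls [Finite F] (I : Finset ℕ) (hI : I ⊆ Finset.range T.l) :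
    ∑ J ∈ (Finset.range T.l).powerset, (-1 : ℤ) ^ J.card * (Nat.card (g.Cls F I J) : ℤ) = (-1) ^ I.card := by
  classical
  have hfin : Fintype (Set ↥(D.group F)) := Fintype.ofFinite _
  set B := (D.borelSubgroup F).subgroupOf (D.group F) with hB
  let Y : Finset (Set ↥(D.group F)) := Finset.univ.filter (fun c => ∃ w, VW T w ∧ c = cl B (g.ew (F := F) w))
  let K : Set ↥(D.group F) → Finset ℕ := fun c => (Finset.range T.l).filter (fun j => ∃ w, VW T w ∧ c = cl B (g.ew (F := F) w) ∧
    ∃ i ∈ I, wact T w (T.sim j) = T.sim i)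
  let R : Set ↥(D.group F) → Finset ℕ := fun c => (Finset.range T.l).filter (fun j => ∃ w, VW T w ∧ c = cl B (g.ew (F := F) w) ∧
    T.n / 2 ≤ wact T w (T.sim j))
  let G : Set ↥(D.group F) → Prop := fun c => ∃ w, VW T w ∧ c = cl B (g.ew (F := F) w) ∧
    ∀ i ∈ I, ∃ j ∈ Finset.range T.l, wact T w (T.sim j) = T.sim i
  have hK : ∀ w, VW T w → ∀ j, j ∈ K (cl B (g.ew w)) ↔ j ∈ Finset.range T.l ∧ ∃ i ∈ I, wact T w (T.sim j) = T.sim i := by
    intro w hw j
    simp only [K, Finset.mem_filter]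
    constructor
    · rintro ⟨hj, w', hw', e, i, hi, e2⟩
      exact ⟨hj, i, hi, by rw [g.ew_wd hw hw' e _ (g.sim_lt (Finset.mem_range.1 hj))]; exact e2⟩
    · rintro ⟨hj, i, hi, e2⟩
      exact ⟨hj, w, hw, rfl, i, hi, e2⟩
  have hR : ∀ w, VW T w → ∀ j, j ∈ R (cl B (g.ew w)) ↔ j ∈ Finset.range T.l ∧ T.n / 2 ≤ wact T w (T.sim j) := by
    intro w hw j
    simp only [R, Finset.mem_filter]
    constructor
    · rintro ⟨hj, w', hw', e, e2⟩
      exact ⟨hj, by rw [g.ew_wd hw hw' e _ (g.sim_lt (Finset.mem_range.1 hj))]; exact e2⟩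
    · rintro ⟨hj, e2⟩
      exact ⟨hj, w, hw, rfl, e2⟩
  have hG : ∀ w, VW T w → (G (cl B (g.ew w)) ↔ ∀ i ∈ I, ∃ j ∈ Finset.range T.l, wact T w (T.sim j) = T.sim i) := by
    intro w hw
    constructor
    · rintro ⟨w', hw', e, h⟩ i hi
      obtain ⟨j, hj, e2⟩ := h i hi
      exact ⟨j, hj, by rw [g.ew_wd hw hw' e _ (g.sim_lt (Finset.mem_range.1 hj))]; exact e2⟩
    · intro h
      exact ⟨w, hw, rfl, h⟩
  have hKR : ∀ c ∈ Y, K c ⊆ R c := by
    intro c hc
    simp only [Y, Finset.mem_filter, Finset.mem_univ, true_and] at hc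
    obtain ⟨w, hw, rfl⟩ := hc
    intro j hj
    rw [hK w hw] at hj
    rw [hR w hw]
    obtain ⟨hj, i, hi, e⟩ := hj
    exact ⟨hj, by rw [e]; exact g.sim_pos (Finset.mem_range.1 (hI hi))⟩
  have e1 : ∀ J ∈ (Finset.range T.l).powerset, (Nat.card (g.Cls F I J) : ℤ) =
      ∑ c ∈ Y, (if G c then 1 else 0) * (if K c ⊆ J ∧ J ⊆ R c then 1 else 0) := by
    intro J hJ
    rw [Finset.mem_powerset] at hJ
    unfold Cls
    rw [Nat.card_eq_fintype_card, Fintype.card_subtype, Finset.card_filter, Finset.sum_filter]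
    push_cast
    apply Finset.sum_congr rfl
    intro c _
    by_cases hc : ∃ w, VW T w ∧ c = cl B (g.ew (F := F) w)
    · rw [if_pos hc]
      obtain ⟨w, hw, rfl⟩ := hc
      have : (∃ w', VW T w' ∧ cl B (g.ew w) = cl B (g.ew (F := F) w') ∧ (∀ j ∈ J, T.n / 2 ≤ wact T w' (T.sim j)) ∧
          ∀ i ∈ I, ∃ j ∈ J, wact T w' (T.sim j) = T.sim i) ↔ G (cl B (g.ew w)) ∧ (K (cl B (g.ew w)) ⊆ J ∧ J ⊆ R (cl B (g.ew w))) := by
        rw [hG w hw]
        constructor
        · rintro ⟨w', hw', e, h1, h2⟩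
          have hwd := g.ew_wd hw hw' e
          refine ⟨?_, ?_, ?_⟩
          · intro i hi
            obtain ⟨j, hj, e2⟩ := h2 i hi
            exact ⟨j, hJ hj, by rw [hwd _ (g.sim_lt (Finset.mem_range.1 (hJ hj)))]; exact e2⟩
          · intro j hj
            rw [hK w hw] at hj
            obtain ⟨hj, i, hi, e2⟩ := hj
            obtain ⟨j', hj', e3⟩ := h2 i hi
            have hjl := Finset.mem_range.1 hj
            have hj'l := Finset.mem_range.1 (hJ hj')
            rw [hwd _ (g.sim_lt hjl)] at e2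
            have e4 := g.wact_inj15 hw' (g.sim_lt hjl) (g.sim_lt hj'l) (e2.trans e3.symm)
            rw [g.sim_inj15 hjl hj'l e4]; exact hj'
          · intro j hj
            rw [hR w hw]
            exact ⟨hJ hj, by rw [hwd _ (g.sim_lt (Finset.mem_range.1 (hJ hj)))]; exact h1 j hj⟩
        · rintro ⟨h1, h2, h3⟩
          refine ⟨w, hw, rfl, ?_, ?_⟩
          · intro j hj
            exact ((hR w hw j).1 (h3 hj)).2
          · intro i hi
            obtain ⟨j, hj, e2⟩ := h1 i hi
            exact ⟨j, h2 ((hK w hw j).2 ⟨hj, i, hi, e2⟩), e2⟩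
      rw [if_congr this rfl rfl]
      by_cases ha : G (cl B (g.ew w))
      · by_cases hb : K (cl B (g.ew w)) ⊆ J ∧ J ⊆ R (cl B (g.ew w))
        · rw [if_pos ⟨ha, hb⟩, if_pos ha, if_pos hb]; rfl
        · rw [if_neg (fun h => hb h.2), if_neg hb]; simp
      · rw [if_neg (fun h => ha h.1), if_neg ha]; simp
    · rw [if_neg hc, if_neg]
      rintro ⟨w, hw, e, _⟩
      exact hc ⟨w, hw, e⟩
  rw [Finset.sum_congr rfl (fun J hJ => by rw [e1 J hJ, Finset.mul_sum]), Finset.sum_comm]
  have e2 : ∀ c ∈ Y, ∑ J ∈ (Finset.range T.l).powerset, (-1 : ℤ) ^ J.card * ((if G c then 1 else 0) * (if K c ⊆ J ∧ J ⊆ R c then 1 else 0)) =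
      (if G c then 1 else 0) * (if K c = R c then (-1) ^ (K c).card else 0) := by
    intro c hc
    rw [← sum_between (Finset.range T.l) (K c) (R c) (hKR c hc) (Finset.filter_subset _ _), Finset.mul_sum]
    apply Finset.sum_congr rfl
    intro J _
    ring
  rw [Finset.sum_congr rfl e2]
  obtain ⟨w, hwo⟩ := g.exists_opp (↑I : Set ℕ)
  have hw := hwo.1
  have e3 : ∀ c ∈ Y, (if G c then (1 : ℤ) else 0) * (if K c = R c then (-1) ^ (K c).card else 0) =
      if c = cl B (g.ew w) then (-1) ^ I.card else 0 := by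
    intro c hc
    simp only [Y, Finset.mem_filter, Finset.mem_univ, true_and] at hc
    obtain ⟨w', hw', rfl⟩ := hc
    by_cases e : cl B (g.ew w') = cl B (g.ew (F := F) w)
    · rw [if_pos e, e]
      have hG' : G (cl B (g.ew w)) := by
        rw [hG w hw]
        intro i hi
        obtain ⟨j, hj, e4⟩ := hwo.2.1 i (Finset.mem_range.1 (hI hi)) (by exact_mod_cast hi)
        exact ⟨j, Finset.mem_range.2 hj, e4⟩
      have hKR' : K (cl B (g.ew w)) = R (cl B (g.ew w)) := by
        ext j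
        rw [hK w hw, hR w hw]
        constructor
        · rintro ⟨hj, i, hi, e4⟩
          exact ⟨hj, by rw [e4]; exact g.sim_pos (Finset.mem_range.1 (hI hi))⟩
        · rintro ⟨hj, h1⟩
          rcases hwo.2.2 j (Finset.mem_range.1 hj) with ⟨i, hi, hiI, e4⟩ | h2
          · exact ⟨hj, i, by exact_mod_cast hiI, e4⟩
          · omega
      rw [if_pos hG', if_pos hKR', one_mul]
      congr 1
      -- card K = card I
      symm
      have hch : ∀ i : I, ∃ j ∈ Finset.range T.l, wact T w (T.sim j) = T.sim i.1 := fun i => (hG w hw).1 hG' i.1 i.2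
      choose f hf1 hf2 using hch
      refine Finset.card_bij (fun i hi => f ⟨i, hi⟩) ?_ ?_ ?_
      · intro i hi
        rw [hK w hw]
        exact ⟨hf1 _, i, hi, hf2 ⟨i, hi⟩⟩
      · intro i hi i' hi' e4
        have e5 := hf2 ⟨i, hi⟩
        have e6 := hf2 ⟨i', hi'⟩
        simp only at e4 e5 e6
        rw [e4, e6] at e5
        exact (g.sim_inj15 (Finset.mem_range.1 (hI hi')) (Finset.mem_range.1 (hI hi)) e5).symm
      · intro j hj
        rw [hK w hw] at hj
        obtain ⟨hj, i, hi, e4⟩ := hj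
        refine ⟨i, hi, ?_⟩
        have e5 := hf2 ⟨i, hi⟩
        have hfl := Finset.mem_range.1 (hf1 ⟨i, hi⟩)
        exact g.sim_inj15 hfl (Finset.mem_range.1 hj) (g.wact_inj15 hw (g.sim_lt hfl) (g.sim_lt (Finset.mem_range.1 hj)) (e5.trans e4.symm))
    · rw [if_neg e]
      by_cases h1 : G (cl B (g.ew w'))
      · by_cases h2 : K (cl B (g.ew w')) = R (cl B (g.ew w'))
        · exfalso
          apply e
          rw [hG w' hw'] at h1
          have hwo' : OppW T (↑I : Set ℕ) w' := by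
            refine ⟨hw', ?_, ?_⟩
            · intro i hi hiI
              obtain ⟨j, hj, e4⟩ := h1 i (by exact_mod_cast hiI)
              exact ⟨j, Finset.mem_range.1 hj, e4⟩
            · intro j hj
              by_cases h3 : T.n / 2 ≤ wact T w' (T.sim j)
              · left
                have h4 : j ∈ R (cl B (g.ew w')) := (hR w' hw' j).2 ⟨Finset.mem_range.2 hj, h3⟩
                rw [← h2, hK w' hw'] at h4
                obtain ⟨_, i, hi, e4⟩ := h4
                exact ⟨i, Finset.mem_range.1 (hI hi), by exact_mod_cast hi, e4⟩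
              · right; omega
          obtain ⟨x, hx, e5⟩ := g.nw_congr15 (F := F) hw' hw (g.opp_unique hwo' hwo)
          rw [cl_eq_iff]
          refine ⟨1, B.one_mem, ⟨x, g.H_le_G hx⟩, H_le_B hx, ?_⟩
          rw [one_mul]
          exact Subtype.ext e5
        · rw [if_neg h2, mul_zero]
      · rw [if_neg h1, zero_mul]
  rw [Finset.sum_congr rfl e3, Finset.sum_ite_eq', if_pos]
  simp only [Y, Finset.mem_filter, Finset.mem_univ, true_and]
  exact ⟨w, hw, rfl⟩

end Mat

end Good3

end CfsgLib.Chev
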