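import Cfsg.Agent.LibStVal15b

set_option autoImplicit false
set_option linter.unusedSectionVars false

/-! Values of the Steinberg character at p-regular elements, II (seat helper15). -/

namespace CfsgLib.Chev

open Cfsg.Lie Matrix Cfsg CfsgLib.AltSum
open scoped ComplexConjugate

namespace Good3

variable {D : ChevalleyDatum} {T : Tb} (g : Good3 D T)
include g

section Mat
variable {F : Type*} [Field F]

theorem levi_conj {I J : Set ℕ} {w : List ℕ} (hw : VW T w) (h : ∀ i < T.l, i ∈ I → ∃ j < T.l, j ∈ J ∧ wact T w (T.sim j) = T.sim i)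
    {x : GL D.Idx F} (hx : x ∈ D.leviSubgroup F I) : (g.nw w)⁻¹ * x * g.nw w ∈ D.parabolicSubgroup F J := by
  have hr := VW_reverse hw
  have hroot : ∀ r, D.InRootSub I r → D.InRootSub J (wact T w.reverse r) := by
    intro r hrI
    rw [g.inSub_iff] at hrI ⊢
    refine ⟨g.wact_lt hr hrI.1, fun m hm hmJ => ?_⟩
    rw [g.v_wact hr hrI.1 hm]
    apply Finset.sum_eq_zero
    intro k hk
    have hk' := Finset.mem_range.1 hk
    by_cases hkI : k ∈ I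
    · obtain ⟨j, hj, hjJ, e⟩ := h k hk' hkI
      rw [← e, g.wact_rev hw (g.sim_lt hj), g.v_sim hj hm, if_neg (by rintro rfl; exact hmJ hjJ), mul_zero]
    · rw [hrI.2 k hk' hkI, zero_mul]
  obtain ⟨y, hy, e1⟩ := g.nw_inv15 (F := F) hw
  have key : D.leviSubgroup F I ≤ (D.parabolicSubgroup F J).comap (MulAut.conj (g.nw w)⁻¹).toMonoidHom := by
    unfold ChevalleyDatum.leviSubgroup
    rw [sup_le_iff]
    constructor
    · intro z hz
      show (g.nw w)⁻¹ * z * ((g.nw w)⁻¹)⁻¹ ∈ D.parabolicSubgroup F J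
      exact B_le_par _ (H_le_B (g.N_H (Subgroup.inv_mem _ (g.nw_mem_N hw)) hz))
    · rw [Subgroup.closure_le]
      rintro z ⟨r, t, hrI, hz⟩
      rw [g.X_iff] at hz
      subst hz
      show (g.nw w)⁻¹ * g.X r t * ((g.nw w)⁻¹)⁻¹ ∈ D.parabolicSubgroup F J
      have hrn := (g.inSub_iff.1 hrI).1
      obtain ⟨χ, -, -, hχ⟩ := g.H_X hy
      have e2 : (g.nw w)⁻¹ * g.X r t * ((g.nw w)⁻¹)⁻¹ = g.nw w.reverse * (y * g.X r t * y⁻¹) * (g.nw w.reverse)⁻¹ := by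
        rw [e1]; group
      rw [e2, hχ r hrn t, g.nw_X hr hrn]
      exact g.X_mem_par (hroot r hrI) _
  have := key hx
  have e2 : (MulAut.conj (g.nw w)⁻¹).toMonoidHom x = (g.nw w)⁻¹ * x * g.nw w := by
    show (g.nw w)⁻¹ * x * ((g.nw w)⁻¹)⁻¹ = _
    rw [inv_inv]
  rw [← e2]; exact this

theorem par_split {I : Set ℕ} {a : GL D.Idx F} (ha : a ∈ D.parabolicSubgroup F I) :
    ∃ v ∈ D.unipotentRadical F I, ∃ x ∈ D.leviSubgroup F I, a = v * x := by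
  rw [← g.levi_sup I] at ha
  apply mem_sup_norm _ ha
  intro b hb c hc
  have hbP : b ∈ D.parabolicSubgroup F I := by
    rw [← g.levi_sup I]; exact Subgroup.mem_sup_right hb
  exact g.conj_UJ hbP hc

/-- the orbit of `n_w P_J` under `P_I` is an orbit of `U_I` -/
theorem orbit15 {I J : Finset ℕ} (hJ : J ⊆ Finset.range T.l) {w : List ℕ} (hw : VW T w)
    (h : ∀ i ∈ I, ∃ j ∈ J, wact T w (T.sim j) = T.sim i)
    {a : ↥(D.group F)} (ha : a ∈ D.parabolicIn F I) :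
    ∃ v ∈ (D.unipotentRadical F (↑I : Set ℕ)).subgroupOf (D.group F),
      a • ((g.ew w : ↥(D.group F)) : ↥(D.group F) ⧸ D.parabolicIn F J) = v • ((g.ew w : ↥(D.group F)) : ↥(D.group F) ⧸ D.parabolicIn F J) := by
  obtain ⟨v, hv, x, hx, e⟩ := g.par_split (I := (↑I : Set ℕ)) (a := (a : GL D.Idx F)) ha
  have hvG : v ∈ D.group F := g.U_le_G (g.UJ_le_U _ hv)
  refine ⟨⟨v, hvG⟩, hv, ?_⟩
  have h1 : (g.nw w)⁻¹ * x⁻¹ * g.nw w ∈ D.parabolicSubgroup F (↑J : Set ℕ) := by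
    apply g.levi_conj (I := (↑I : Set ℕ)) hw _ (Subgroup.inv_mem _ hx)
    intro i _ hiI
    obtain ⟨j, hj, e⟩ := h i (by exact_mod_cast hiI)
    exact ⟨j, Finset.mem_range.1 (hJ hj), by exact_mod_cast hj, e⟩
  show ((a * g.ew w : ↥(D.group F)) : ↥(D.group F) ⧸ D.parabolicIn F J) = ((⟨v, hvG⟩ * g.ew w : ↥(D.group F)) : ↥(D.group F) ⧸ D.parabolicIn F J)
  rw [QuotientGroup.eq]
  show ((a * g.ew w)⁻¹ * (⟨v, hvG⟩ * g.ew w) : ↥(D.group F)).1 ∈ D.parabolicSubgroup F (↑J : Set ℕ)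
  have e2 : ((a * g.ew w)⁻¹ * (⟨v, hvG⟩ * g.ew w) : ↥(D.group F)).1 = (g.nw w)⁻¹ * x⁻¹ * g.nw w := by
    show ((a : GL D.Idx F) * g.nw w)⁻¹ * (v * g.nw w) = _
    rw [e]; group
  rw [e2]; exact h1

theorem posG_nw {w : List ℕ} (hw : VW T w) {j : ℕ} (h : T.n / 2 ≤ wact T w (T.sim j)) : PosG g (g.nw (F := F) w) j := by
  intro hj
  exact ⟨w, hw, ⟨1, Subgroup.one_mem _, 1, Subgroup.one_mem _, by group⟩, h⟩

/-- number of pairs for a minimal parabolic containing `s` -/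
theorem pairs15 [Finite F] {I J : Finset ℕ} (hI : I ⊆ Finset.range T.l) (hJ : J ⊆ Finset.range T.l) {s : ↥(D.group F)}
    (hs : s ∈ D.parabolicIn F I)
    (hmin : ∀ c ∈ D.parabolicIn F I, ∀ I' ⊆ I, c⁻¹ * s * c ∈ D.parabolicIn F I' → I' = I) :
    Nat.card {z : ((D.unipotentRadical F (↑I : Set ℕ)).subgroupOf (D.group F)) × (↥(D.group F) ⧸ D.parabolicIn F J) //
      (s * (z.1 : ↥(D.group F))) • z.2 = z.2} =
    Nat.card ((D.unipotentRadical F (↑I : Set ℕ)).subgroupOf (D.group F)) * Nat.card (g.Cls F I J) := by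
  classical
  have hch : ∀ c : g.Cls F I J, ∃ w, VW T w ∧ c.1 = cl ((D.borelSubgroup F).subgroupOf (D.group F)) (g.ew (F := F) w) ∧
    (∀ j ∈ J, T.n / 2 ≤ wact T w (T.sim j)) ∧ ∀ i ∈ I, ∃ j ∈ J, wact T w (T.sim j) = T.sim i := fun c => c.2
  choose W hW1 hW2 hW3 hW4 using hch
  have hUP : ∀ v ∈ (D.unipotentRadical F (↑I : Set ℕ)).subgroupOf (D.group F), v ∈ D.parabolicIn F I :=
    fun v hv => B_le_par _ (U_le_B (g.UJ_le_U _ hv))
  apply CfsgLib.StVal.pairs_count _ _ s (fun c => g.ew (W c))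
  · -- h1
    intro u hu q hq
    obtain ⟨y, rfl⟩ := QuotientGroup.mk_surjective q
    obtain ⟨p, hp, q1, hq1, hpos1, hpos2⟩ := g.dc_ex (I := (↑I : Set ℕ)) (J := (↑J : Set ℕ)) y.2
    have hpG := g.par_le_G _ hp
    have hq1G := g.par_le_G _ hq1
    obtain ⟨b, hb, w, hw, b', hb', e⟩ := g.bruhat_nw (Subgroup.mul_mem _ (Subgroup.mul_mem _ hpG y.2) hq1G)
    rw [e] at hpos1 hpos2
    have h3 : ∀ j < T.l, j ∈ (↑J : Set ℕ) → T.n / 2 ≤ wact T w (T.sim j) := fun j hj hjJ => (g.PosG_iff hw hb hb' hj).1 (hpos1 j hjJ)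
    have h4 : ∀ i < T.l, i ∈ (↑I : Set ℕ) → T.n / 2 ≤ wact T w.reverse (T.sim i) := fun i hi hiI => (g.PosG_inv_iff hw hb hb' hi).1 (hpos2 i hiI)
    have hc0 : p⁻¹ * b ∈ D.parabolicSubgroup F (↑I : Set ℕ) := Subgroup.mul_mem _ (Subgroup.inv_mem _ hp) (B_le_par _ hb)
    have hr0 : b' * q1⁻¹ ∈ D.parabolicSubgroup F (↑J : Set ℕ) := Subgroup.mul_mem _ (B_le_par _ hb') (Subgroup.inv_mem _ hq1)
    have ey : (y : GL D.Idx F) = (p⁻¹ * b) * g.nw w * (b' * q1⁻¹) := by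
      calc (y : GL D.Idx F) = p⁻¹ * (p * y * q1) * q1⁻¹ := by group
        _ = _ := by rw [e]; group
    have hq' : (y : GL D.Idx F)⁻¹ * ((s : GL D.Idx F) * (u : GL D.Idx F)) * (y : GL D.Idx F) ∈ D.parabolicSubgroup F (↑J : Set ℕ) := by
      have h5 : ((s * u * y : ↥(D.group F)) : ↥(D.group F) ⧸ D.parabolicIn F J) = (y : ↥(D.group F) ⧸ D.parabolicIn F J) := hq
      rw [eq_comm, QuotientGroup.eq, ← mul_assoc] at h5
      exact h5
    set c0 := p⁻¹ * b with hc0d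
    have hk : (g.nw w)⁻¹ * (c0⁻¹ * ((s : GL D.Idx F) * (u : GL D.Idx F)) * c0) * g.nw w ∈ D.parabolicSubgroup F (↑J : Set ℕ) := by
      have e5 : (g.nw w)⁻¹ * (c0⁻¹ * ((s : GL D.Idx F) * (u : GL D.Idx F)) * c0) * g.nw w =
          (b' * q1⁻¹) * ((y : GL D.Idx F)⁻¹ * ((s : GL D.Idx F) * (u : GL D.Idx F)) * (y : GL D.Idx F)) * (b' * q1⁻¹)⁻¹ := by
        rw [ey]; group
      rw [e5]
      exact Subgroup.mul_mem _ (Subgroup.mul_mem _ hr0 hq') (Subgroup.inv_mem _ hr0)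
    have hsu : c0⁻¹ * ((s : GL D.Idx F) * (u : GL D.Idx F)) * c0 ∈ D.parabolicSubgroup F (↑I : Set ℕ) :=
      Subgroup.mul_mem _ (Subgroup.mul_mem _ (Subgroup.inv_mem _ hc0) (Subgroup.mul_mem _ hs (hUP u hu))) hc0
    have h5 := g.kil hw h3 h4 hsu hk
    -- the filtered set
    let I' : Finset ℕ := I.filter (fun i => ∃ j ∈ J, wact T w (T.sim j) = T.sim i)
    have hI' : {i | i ∈ (↑I : Set ℕ) ∧ ∃ j < T.l, j ∈ (↑J : Set ℕ) ∧ wact T w (T.sim j) = T.sim i} = (↑I' : Set ℕ) := by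
      ext i
      simp only [I', Finset.coe_filter, Finset.mem_coe]
      constructor
      · rintro ⟨h1, j, hj, hjJ, e⟩; exact ⟨h1, j, hjJ, e⟩
      · rintro ⟨h1, j, hjJ, e⟩; exact ⟨h1, j, Finset.mem_range.1 (hJ hjJ), hjJ, e⟩
    rw [hI'] at h5
    have hu' : c0⁻¹ * (u : GL D.Idx F) * c0 ∈ D.parabolicSubgroup F (↑I' : Set ℕ) :=
      B_le_par _ (U_le_B (g.UJ_le_U _ (g.conj_UJ' hc0 hu)))
    have hs' : c0⁻¹ * (s : GL D.Idx F) * c0 ∈ D.parabolicSubgroup F (↑I' : Set ℕ) := by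
      have e6 : c0⁻¹ * (s : GL D.Idx F) * c0 = (c0⁻¹ * ((s : GL D.Idx F) * (u : GL D.Idx F)) * c0) * (c0⁻¹ * (u : GL D.Idx F) * c0)⁻¹ := by group
      rw [e6]
      exact Subgroup.mul_mem _ h5 (Subgroup.inv_mem _ hu')
    have hc0G := g.par_le_G _ hc0
    have h6 : I' = I := hmin ⟨c0, hc0G⟩ hc0 I' (Finset.filter_subset _ _) hs'
    have h7 : ∀ i ∈ I, ∃ j ∈ J, wact T w (T.sim j) = T.sim i := by
      intro i hi
      rw [← h6] at hi
      exact (Finset.mem_filter.1 hi).2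
    let c : g.Cls F I J := ⟨cl ((D.borelSubgroup F).subgroupOf (D.group F)) (g.ew (F := F) w), w, hw, rfl,
      fun j hj => h3 j (Finset.mem_range.1 (hJ hj)) (by exact_mod_cast hj), h7⟩
    refine ⟨c, ?_⟩
    have hwd := g.ew_wd hw (hW1 c) (hW2 c)
    obtain ⟨x, hx, e8⟩ := g.nw_congr15 (F := F) (hW1 c) hw (fun r hr => (hwd r hr).symm)
    obtain ⟨v, hv, e9⟩ := g.orbit15 hJ (hW1 c) (hW4 c) (a := ⟨c0, hc0G⟩) hc0
    refine ⟨v, hv, ?_⟩
    rw [← e9]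
    show (y : ↥(D.group F) ⧸ D.parabolicIn F J) = (((⟨c0, hc0G⟩ : ↥(D.group F)) * g.ew (W c) : ↥(D.group F)) : ↥(D.group F) ⧸ D.parabolicIn F J)
    rw [eq_comm, QuotientGroup.eq]
    show (c0 * g.nw (W c))⁻¹ * (y : GL D.Idx F) ∈ D.parabolicSubgroup F (↑J : Set ℕ)
    have e10 : (c0 * g.nw (W c))⁻¹ * (y : GL D.Idx F) = x * (b' * q1⁻¹) := by
      rw [ey, e8]; group
    rw [e10]
    exact Subgroup.mul_mem _ (B_le_par _ (H_le_B hx)) hr0
  · -- h2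
    intro c c' v hv v' hv' e
    have e1 : ((v * g.ew (W c) : ↥(D.group F)) : ↥(D.group F) ⧸ D.parabolicIn F J) = ((v' * g.ew (W c') : ↥(D.group F)) : ↥(D.group F) ⧸ D.parabolicIn F J) := e
    rw [eq_comm, QuotientGroup.eq] at e1
    have e2 : ((v' : GL D.Idx F) * g.nw (W c'))⁻¹ * ((v : GL D.Idx F) * g.nw (W c)) ∈ D.parabolicSubgroup F (↑J : Set ℕ) := e1
    set q := ((v' : GL D.Idx F) * g.nw (W c'))⁻¹ * ((v : GL D.Idx F) * g.nw (W c)) with hq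
    have e3 : (v : GL D.Idx F)⁻¹ * (v' : GL D.Idx F) * g.nw (W c') * q = g.nw (W c) := by rw [hq]; group
    have hleft : ∀ d : g.Cls F I J, ∀ i ∈ (↑I : Set ℕ), PosG g (g.nw (F := F) (W d))⁻¹ i := by
      intro d i hi hil
      have e4 : (g.nw (F := F) (W d))⁻¹ = (1 * g.nw (W d) * 1)⁻¹ := by group
      rw [e4]
      refine (g.PosG_inv_iff (hW1 d) (Subgroup.one_mem _) (Subgroup.one_mem _) hil).2 ?_ hil
      obtain ⟨j, hj, e5⟩ := hW4 d i (by exact_mod_cast hi)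
      have hjl := Finset.mem_range.1 (hJ hj)
      rw [← e5, g.wact_rev (hW1 d) (g.sim_lt hjl)]
      exact g.sim_pos hjl
    obtain ⟨b, hb, b', hb', e4⟩ := g.dc_un (I := (↑I : Set ℕ)) (J := (↑J : Set ℕ)) (g.nw_mem_G (F := F) (W c'))
      (p := (v : GL D.Idx F)⁻¹ * (v' : GL D.Idx F)) (q := q)
      (Subgroup.mul_mem _ (Subgroup.inv_mem _ (hUP v hv)) (hUP v' hv')) e2
      (fun j hj => g.posG_nw (hW1 c') (hW3 c' j (by exact_mod_cast hj))) (hleft c')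
      (by rw [e3]; exact fun j hj => g.posG_nw (hW1 c) (hW3 c j (by exact_mod_cast hj))) (by rw [e3]; exact hleft c)
    apply Subtype.ext
    rw [hW2 c, hW2 c', eq_comm, cl_eq_iff]
    refine ⟨⟨b, g.B_le_G hb⟩, hb, ⟨b', g.B_le_G hb'⟩, hb', Subtype.ext ?_⟩
    show g.nw (W c) = b * g.nw (W c') * b'
    rw [← e4, e3]
  · -- h3
    intro c v hv
    obtain ⟨v1, hv1, e⟩ := g.orbit15 hJ (hW1 c) (hW4 c) (a := s⁻¹ * v) (Subgroup.mul_mem _ (Subgroup.inv_mem _ hs) (hUP v hv))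
    exact ⟨v1, hv1, by rw [← e, mul_smul]⟩

theorem min_sum [Finite F] {I : Finset ℕ} (hI : I ⊆ Finset.range T.l) {s : ↥(D.group F)}
    (hs : s ∈ D.parabolicIn F I)
    (hmin : ∀ c ∈ D.parabolicIn F I, ∀ I' ⊆ I, c⁻¹ * s * c ∈ D.parabolicIn F I' → I' = I)
    [Fintype ((D.unipotentRadical F (↑I : Set ℕ)).subgroupOf (D.group F))] :
    ∑ u : ((D.unipotentRadical F (↑I : Set ℕ)).subgroupOf (D.group F)), D.steinbergCharacter F (s * (u : ↥(D.group F))) =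
      (Nat.card ((D.unipotentRadical F (↑I : Set ℕ)).subgroupOf (D.group F)) : ℂ) * (-1) ^ I.card := by
  have e1 : ∀ J ∈ (Finset.range T.l).powerset, ∑ u : ((D.unipotentRadical F (↑I : Set ℕ)).subgroupOf (D.group F)),
      fixedPointCharacter (D.parabolicIn F J) (s * (u : ↥(D.group F))) =
      (Nat.card ((D.unipotentRadical F (↑I : Set ℕ)).subgroupOf (D.group F)) : ℂ) * (Nat.card (g.Cls F I J) : ℂ) := by
    intro J hJ
    rw [Finset.mem_powerset] at hJ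
    rw [← Nat.cast_mul, ← g.pairs15 hI hJ hs hmin]
    have : Fintype (↥(D.group F) ⧸ D.parabolicIn F J) := Fintype.ofFinite _
    unfold fixedPointCharacter
    rw [← Nat.cast_sum]
    congr 1
    have e2 : {z : ((D.unipotentRadical F (↑I : Set ℕ)).subgroupOf (D.group F)) × (↥(D.group F) ⧸ D.parabolicIn F J) // (s * (z.1 : ↥(D.group F))) • z.2 = z.2} ≃
        (Σ u : ((D.unipotentRadical F (↑I : Set ℕ)).subgroupOf (D.group F)), MulAction.fixedBy (↥(D.group F) ⧸ D.parabolicIn F J) (s * (u : ↥(D.group F)))) :=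
      { toFun := fun z => ⟨z.1.1, z.1.2, z.2⟩
        invFun := fun z => ⟨(z.1, z.2.1), z.2.2⟩
        left_inv := fun _ => rfl
        right_inv := fun _ => rfl }
    rw [Nat.card_congr e2, Nat.card_sigma]
  rw [g.stein_eq]
  simp only
  rw [Finset.sum_comm, Finset.sum_congr rfl (fun J hJ => by rw [← Finset.mul_sum, e1 J hJ])]
  have h := g.alt_cls (F := F) I hI
  have h2 := congrArg (Int.cast : ℤ → ℂ) h
  push_cast at h2
  rw [← h2, Finset.mul_sum]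
  apply Finset.sum_congr rfl
  intro J _
  ring

end Mat

end Good3

end CfsgLib.Chev
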