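import Cfsg.Agent.LibStVal15
import Cfsg.Agent.LibStVal15c
import Cfsg.Agent.LibStIrr15b
import Cfsg.Agent.LibChevBT4
import Cfsg.Agent.LibCharBasic2

set_option autoImplicit false
set_option linter.unusedSectionVars false

/-! Values of the Steinberg character at p-regular elements, III (seat helper15). -/

namespace CfsgLib.Chev

open Cfsg.Lie Matrix Cfsg CfsgLib.AltSum CfsgLib.CharBasic
open scoped ComplexConjugate

namespace Good3

variable {D : ChevalleyDatum} {T : Tb} (g : Good3 D T)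
include g

section Mat
variable {F : Type*} [Field F]

theorem UJ_anti {I J : Set ℕ} (h : I ⊆ J) : D.unipotentRadical F J ≤ D.unipotentRadical F I := by
  unfold ChevalleyDatum.unipotentRadical
  apply Subgroup.closure_mono
  rintro x ⟨r, t, h1, h2, h3⟩
  refine ⟨r, t, h1, ?_, h3⟩
  intro h4
  apply h2
  rw [g.inSub_iff] at h4 ⊢
  exact ⟨h4.1, fun i hi hiJ => h4.2 i hi (fun hiI => hiJ (h hiI))⟩

theorem UJ_range {J : Set ℕ} {K : Finset ℕ} (h : ∀ i < T.l, i ∈ J ↔ i ∈ K) :
    D.unipotentRadical F J ≤ D.unipotentRadical F (↑K : Set ℕ) := by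
  unfold ChevalleyDatum.unipotentRadical
  apply Subgroup.closure_mono
  rintro x ⟨r, t, h1, h2, h3⟩
  refine ⟨r, t, h1, ?_, h3⟩
  intro h4
  apply h2
  rw [g.inSub_iff] at h4 ⊢
  exact ⟨h4.1, fun i hi hiJ => h4.2 i hi (fun hiI => hiJ ((h i hi).2 hiI))⟩

theorem par_range {J : Set ℕ} {K : Finset ℕ} (h : ∀ i < T.l, i ∈ J ↔ i ∈ K) :
    D.parabolicSubgroup F J ≤ D.parabolicSubgroup F (↑K : Set ℕ) := by
  unfold ChevalleyDatum.parabolicSubgroup
  apply sup_le_sup le_rfl
  apply Subgroup.closure_mono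
  rintro x ⟨j, hj, h1, h2⟩
  have h1' : j < T.l := by rw [← g.hl]; exact h1
  exact ⟨j, by exact_mod_cast (h j h1').1 hj, h1, h2⟩

theorem val_min [Fintype F] {p : ℕ} [Fact p.Prime] [CharP F p] {I : Finset ℕ} (hI : I ⊆ Finset.range T.l) {s : ↥(D.group F)}
    (hs : s ∈ D.parabolicIn F I)
    (hmin : ∀ c ∈ D.parabolicIn F I, ∀ I' ⊆ I, c⁻¹ * s * c ∈ D.parabolicIn F I' → I' = I) (h1 : ¬ p ∣ orderOf s) :
    D.steinbergCharacter F s = (-1) ^ I.card *
      (Nat.card ↥(((D.unipotentRadical F (↑I : Set ℕ)).subgroupOf (D.group F)) ⊓ Subgroup.centralizer {s}) : ℂ) := by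
  have : Fintype ↥(D.group F) := Fintype.ofFinite _
  have : Fintype ((D.unipotentRadical F (↑I : Set ℕ)).subgroupOf (D.group F)) := Fintype.ofFinite _
  have hV : IsPGroup p ((D.unipotentRadical F (↑I : Set ℕ)).subgroupOf (D.group F)) := by
    have h2 : IsPGroup p ↥(D.posUnipotent F) := g.U_pgroup
    have h3 : IsPGroup p ↥(D.unipotentRadical F (↑I : Set ℕ)) := h2.to_le (g.UJ_le_U _)
    exact h3.of_equiv (Subgroup.subgroupOfEquivOfLe ((g.UJ_le_U _).trans g.U_le_G)).symm
  have e1 := g.min_sum hI hs hmin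
  have e2 := CfsgLib.StVal.sum_coset hV (s := s)
    (by
      intro v
      constructor
      · intro hv
        exact g.conj_UJ (J := (↑I : Set ℕ)) hs hv
      · intro hv
        have h3 := g.conj_UJ' (J := (↑I : Set ℕ)) hs hv
        have h4 : (s : GL D.Idx F)⁻¹ * ((s * v * s⁻¹ : ↥(D.group F)) : GL D.Idx F) * (s : GL D.Idx F) = v := by
          show (s : GL D.Idx F)⁻¹ * ((s : GL D.Idx F) * v * (s : GL D.Idx F)⁻¹) * (s : GL D.Idx F) = v
          group
        have h5 : (v : GL D.Idx F) ∈ D.unipotentRadical F (↑I : Set ℕ) := by rw [← h4]; exact h3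
        exact h5)
    h1 (D.steinbergCharacter F) (fun x y => gen_classFun g.stein_gen x y)
    (fun x hx => g.stein_vanish hx)
  rw [e1] at e2
  have h0 : (Nat.card ((D.unipotentRadical F (↑I : Set ℕ)).subgroupOf (D.group F)) : ℂ) ≠ 0 := by
    rw [Nat.cast_ne_zero]
    exact Nat.card_pos.ne'
  apply mul_left_cancel₀ h0
  rw [← e2, mul_assoc]

/-- choose a minimal parabolic -/
theorem exists_min (s : ↥(D.group F)) {K : Finset ℕ} (hs : s ∈ D.parabolicIn F K) :
    ∃ c ∈ D.parabolicIn F K, ∃ I ⊆ K, c⁻¹ * s * c ∈ D.parabolicIn F I ∧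
      ∀ c' ∈ D.parabolicIn F I, ∀ I' ⊆ I, c'⁻¹ * (c⁻¹ * s * c) * c' ∈ D.parabolicIn F I' → I' = I := by
  classical
  let P : ℕ → Prop := fun n => ∃ c ∈ D.parabolicIn F K, ∃ I ⊆ K, I.card = n ∧ c⁻¹ * s * c ∈ D.parabolicIn F I
  have hP : ∃ n, P n := ⟨K.card, 1, Subgroup.one_mem _, K, le_rfl, rfl, by simpa using hs⟩
  obtain ⟨c, hc, I, hI, hcard, h⟩ := Nat.find_spec hP
  refine ⟨c, hc, I, hI, h, ?_⟩
  intro c' hc' I' hI' h'
  apply Finset.eq_of_subset_of_card_le hI'
  rw [hcard]
  apply Nat.find_min'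
  have hc'K : c' ∈ D.parabolicIn F K := g.par_mono (by exact_mod_cast hI) hc'
  refine ⟨c * c', Subgroup.mul_mem _ hc hc'K, I', hI'.trans hI, rfl, ?_⟩
  have e : (c * c')⁻¹ * s * (c * c') = c'⁻¹ * (c⁻¹ * s * c) * c' := by group
  rw [e]; exact h'

theorem exists_good [Fintype F] {p : ℕ} [Fact p.Prime] [CharP F p] (hl : 0 < T.l) (s : ↥(D.group F)) :
    ∃ y : ↥(D.group F), ∃ I ⊆ Finset.range T.l, y⁻¹ * s * y ∈ D.parabolicIn F I ∧
      (∀ c' ∈ D.parabolicIn F I, ∀ I' ⊆ I, c'⁻¹ * (y⁻¹ * s * y) * c' ∈ D.parabolicIn F I' → I' = I) ∧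
      p ^ (Nat.card ↥(Subgroup.centralizer ({s} : Set ↥(D.group F)))).factorization p ≤
        Nat.card ↥(((D.unipotentRadical F (↑I : Set ℕ)).subgroupOf (D.group F)) ⊓ Subgroup.centralizer {y⁻¹ * s * y}) := by
  classical
  have hp : p.Prime := Fact.out
  obtain ⟨Q⟩ : Nonempty (Sylow p ↥(Subgroup.centralizer ({s} : Set ↥(D.group F)))) := inferInstance
  have hQc := Q.card_eq_multiplicity
  set Q1 : Subgroup ↥(D.group F) := Q.1.map (Subgroup.centralizer ({s} : Set ↥(D.group F))).subtype with hQ1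
  have hQ1c : Nat.card Q1 = p ^ (Nat.card ↥(Subgroup.centralizer ({s} : Set ↥(D.group F)))).factorization p := by
    rw [hQ1, Nat.card_congr (Q.1.equivMapOfInjective _ (Subgroup.subtype_injective _)).symm.toEquiv]
    exact hQc
  have hQs : ∀ q ∈ Q1, q * s = s * q := by
    rintro _ ⟨q, hq, rfl⟩
    have := q.2
    rw [Subgroup.mem_centralizer_singleton_iff] at this
    exact this
  rw [← hQ1c]
  -- first: find x, K
  have hx : ∃ x : ↥(D.group F), ∃ K ⊆ Finset.range T.l, x⁻¹ * s * x ∈ D.parabolicIn F K ∧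
      ∀ q ∈ Q1, x⁻¹ * q * x ∈ (D.unipotentRadical F (↑K : Set ℕ)).subgroupOf (D.group F) := by
    by_cases hb : Q1 = ⊥
    · refine ⟨1, Finset.range T.l, le_rfl, ?_, ?_⟩
      · show ((1⁻¹ * s * 1 : ↥(D.group F)) : GL D.Idx F) ∈ D.parabolicSubgroup F (↑(Finset.range T.l) : Set ℕ)
        rw [g.par_top]
        exact (1⁻¹ * s * 1 : ↥(D.group F)).2
      · intro q hq
        rw [hb, Subgroup.mem_bot] at hq
        subst hq
        simp [Subgroup.one_mem]
    · set R : Subgroup (GL D.Idx F) := Q1.map (D.group F).subtype with hR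
      have hRG : R ≤ D.group F := by
        rintro _ ⟨q, _, rfl⟩
        exact q.2
      have hRp : IsPGroup p R := by
        have h1 : IsPGroup p Q1 := Q.2.map _
        exact h1.map _
      have hRne : R ≠ ⊥ := by
        intro h
        apply hb
        rw [hR, Subgroup.map_eq_bot_iff_of_injective _ (Subgroup.subtype_injective _)] at h
        exact h
      obtain ⟨x, hxG, J, _, h2, h3⟩ := g.borel_tits (p := p) hl R hRG hRp hRne
      have hK : ∀ i < T.l, i ∈ J ↔ i ∈ (Finset.range T.l).filter (fun i => i ∈ J) := by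
        intro i hi
        simp [hi]
      refine ⟨⟨x, hxG⟩, (Finset.range T.l).filter (fun i => i ∈ J), Finset.filter_subset _ _, ?_, ?_⟩
      · have h4 : (s : GL D.Idx F) ∈ Subgroup.normalizer (R : Set (GL D.Idx F)) ⊓ D.group F := by
          refine ⟨?_, s.2⟩
          show (s : GL D.Idx F) ∈ Subgroup.normalizer (R : Set (GL D.Idx F))
          rw [Subgroup.mem_normalizer_iff]
          have key : ∀ z ∈ Q1, s * z * s⁻¹ = z := by
            intro z hz
            rw [← hQs z hz]; group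
          have key' : ∀ z ∈ Q1, s⁻¹ * z * s = z := by
            intro z hz
            rw [mul_assoc, hQs z hz]; group
          intro z
          constructor
          · rintro ⟨z, hz, rfl⟩
            refine ⟨z, hz, ?_⟩
            have := congrArg (Subtype.val) (key z hz)
            exact this.symm
          · rintro ⟨z', hz', e⟩
            refine ⟨z', hz', ?_⟩
            have e1 : z = (s : GL D.Idx F)⁻¹ * (z' : GL D.Idx F) * (s : GL D.Idx F) := by
              have e' : (z' : GL D.Idx F) = (s : GL D.Idx F) * z * (s : GL D.Idx F)⁻¹ := e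
              rw [e']; group
            rw [e1]
            exact (congrArg Subtype.val (key' z' hz')).symm
        obtain ⟨y, hy, e⟩ := h2 h4
        have e' : x * y * x⁻¹ = (s : GL D.Idx F) := e
        show x⁻¹ * (s : GL D.Idx F) * x ∈ D.parabolicSubgroup F (↑((Finset.range T.l).filter (fun i => i ∈ J)) : Set ℕ)
        have e2 : x⁻¹ * (s : GL D.Idx F) * x = y := by rw [← e']; group
        rw [e2]
        exact g.par_range hK hy
      · intro q hq
        obtain ⟨y, hy, e⟩ := h3 ⟨q, hq, rfl⟩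
        have e' : x * y * x⁻¹ = (q : GL D.Idx F) := e
        show x⁻¹ * (q : GL D.Idx F) * x ∈ D.unipotentRadical F (↑((Finset.range T.l).filter (fun i => i ∈ J)) : Set ℕ)
        have e2 : x⁻¹ * (q : GL D.Idx F) * x = y := by rw [← e']; group
        rw [e2]
        exact g.UJ_range hK hy
  obtain ⟨x, K, hK, hsK, hQK⟩ := hx
  obtain ⟨c, hc, I, hI, h4, h5⟩ := g.exists_min (x⁻¹ * s * x) hsK
  have e0 : (x * c)⁻¹ * s * (x * c) = c⁻¹ * (x⁻¹ * s * x) * c := by group
  refine ⟨x * c, I, hI.trans hK, ?_, ?_, ?_⟩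
  · rw [e0]; exact h4
  · rw [e0]; exact h5
  · have h6 : ∀ q : Q1, (x * c)⁻¹ * (q : ↥(D.group F)) * (x * c) ∈
        ((D.unipotentRadical F (↑I : Set ℕ)).subgroupOf (D.group F)) ⊓ Subgroup.centralizer {(x * c)⁻¹ * s * (x * c)} := by
      intro q
      refine ⟨?_, ?_⟩
      · have h7 := hQK q q.2
        have h8 : (c : GL D.Idx F)⁻¹ * ((x⁻¹ * (q : ↥(D.group F)) * x : ↥(D.group F)) : GL D.Idx F) * (c : GL D.Idx F) ∈
            D.unipotentRadical F (↑K : Set ℕ) := g.conj_UJ' (J := (↑K : Set ℕ)) hc h7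
        show ((x * c : ↥(D.group F)) : GL D.Idx F)⁻¹ * (q : GL D.Idx F) * ((x * c : ↥(D.group F)) : GL D.Idx F) ∈ D.unipotentRadical F (↑I : Set ℕ)
        apply g.UJ_anti (I := (↑I : Set ℕ)) (J := (↑K : Set ℕ)) (by exact_mod_cast hI)
        have e1 : ((x * c : ↥(D.group F)) : GL D.Idx F)⁻¹ * (q : GL D.Idx F) * ((x * c : ↥(D.group F)) : GL D.Idx F) =
            (c : GL D.Idx F)⁻¹ * ((x⁻¹ * (q : ↥(D.group F)) * x : ↥(D.group F)) : GL D.Idx F) * (c : GL D.Idx F) := by
          show ((x : GL D.Idx F) * (c : GL D.Idx F))⁻¹ * (q : GL D.Idx F) * ((x : GL D.Idx F) * (c : GL D.Idx F)) =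
            (c : GL D.Idx F)⁻¹ * ((x : GL D.Idx F)⁻¹ * (q : GL D.Idx F) * (x : GL D.Idx F)) * (c : GL D.Idx F)
          group
        rw [e1]; exact h8
      · show _ ∈ Subgroup.centralizer {(x * c)⁻¹ * s * (x * c)}
        rw [Subgroup.mem_centralizer_singleton_iff]
        have h9 := hQs q q.2
        have e1 : (x * c)⁻¹ * (q : ↥(D.group F)) * (x * c) * ((x * c)⁻¹ * s * (x * c)) = (x * c)⁻¹ * ((q : ↥(D.group F)) * s) * (x * c) := by group
        rw [e1, h9]; group
    apply Nat.card_le_card_of_injective (fun q : Q1 => (⟨_, h6 q⟩ : ↥(((D.unipotentRadical F (↑I : Set ℕ)).subgroupOf (D.group F)) ⊓ Subgroup.centralizer {(x * c)⁻¹ * s * (x * c)})))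
    intro q q' e
    have e1 : (x * c)⁻¹ * (q : ↥(D.group F)) * (x * c) = (x * c)⁻¹ * (q' : ↥(D.group F)) * (x * c) := congrArg Subtype.val e
    apply Subtype.ext
    exact mul_left_cancel (mul_right_cancel e1)

theorem val_thm [Fintype F] {p : ℕ} [Fact p.Prime] [CharP F p] (hl : 0 < T.l) (s : ↥(D.group F)) (h1 : ¬ p ∣ orderOf s) :
    D.steinbergCharacter F s = ((p ^ (Nat.card ↥(Subgroup.centralizer ({s} : Set ↥(D.group F)))).factorization p : ℕ) : ℂ) ∨
      D.steinbergCharacter F s = -((p ^ (Nat.card ↥(Subgroup.centralizer ({s} : Set ↥(D.group F)))).factorization p : ℕ) : ℂ) := by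
  have hp : p.Prime := Fact.out
  have : Fintype ↥(D.group F) := Fintype.ofFinite _
  obtain ⟨y, I, hI, h2, h3, h4⟩ := g.exists_good (p := p) hl s
  have h5 : ¬ p ∣ orderOf (y⁻¹ * s * y) := by
    have e : y⁻¹ * s * y = MulAut.conj y⁻¹ s := by simp [MulAut.conj_apply]
    rw [e, MulEquiv.orderOf_eq]; exact h1
  have h6 := g.val_min hI h2 h3 h5
  have h7 : D.steinbergCharacter F (y⁻¹ * s * y) = D.steinbergCharacter F s := by
    have := gen_classFun (g.stein_gen (F := F)) s y⁻¹
    rw [inv_inv] at this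
    exact this
  have h8 : Nat.card ↥(((D.unipotentRadical F (↑I : Set ℕ)).subgroupOf (D.group F)) ⊓ Subgroup.centralizer {y⁻¹ * s * y}) =
      p ^ (Nat.card ↥(Subgroup.centralizer ({s} : Set ↥(D.group F)))).factorization p := by
    apply le_antisymm _ h4
    have hV : IsPGroup p ↥(((D.unipotentRadical F (↑I : Set ℕ)).subgroupOf (D.group F)) ⊓ Subgroup.centralizer {y⁻¹ * s * y}) := by
      have h2 : IsPGroup p ↥(D.posUnipotent F) := g.U_pgroup
      have h3 : IsPGroup p ↥(D.unipotentRadical F (↑I : Set ℕ)) := h2.to_le (g.UJ_le_U _)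
      have h4 := h3.of_equiv (Subgroup.subgroupOfEquivOfLe ((g.UJ_le_U (F := F) (↑I : Set ℕ)).trans g.U_le_G)).symm
      exact h4.to_le inf_le_left
    obtain ⟨m, hm⟩ := IsPGroup.iff_card.1 hV
    rw [hm]
    apply Nat.pow_le_pow_right hp.pos
    have hd : p ^ m ∣ Nat.card ↥(Subgroup.centralizer ({y⁻¹ * s * y} : Set ↥(D.group F))) := by
      rw [← hm]
      exact Subgroup.card_dvd_of_le inf_le_right
    have hc : Nat.card ↥(Subgroup.centralizer ({y⁻¹ * s * y} : Set ↥(D.group F))) =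
        Nat.card ↥(Subgroup.centralizer ({s} : Set ↥(D.group F))) := by
      apply Nat.card_congr
      refine
        { toFun := fun z => ⟨y * z.1 * y⁻¹, ?_⟩
          invFun := fun z => ⟨y⁻¹ * z.1 * y, ?_⟩
          left_inv := ?_
          right_inv := ?_ }
      · have := z.2
        rw [Subgroup.mem_centralizer_singleton_iff] at this ⊢
        have e : y * z.1 * y⁻¹ * s = y * (z.1 * (y⁻¹ * s * y)) * y⁻¹ := by group
        rw [e, this]; group
      · have := z.2
        rw [Subgroup.mem_centralizer_singleton_iff] at this ⊢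
        have e : y⁻¹ * z.1 * y * (y⁻¹ * s * y) = y⁻¹ * (z.1 * s) * y := by group
        rw [e, this]; group
      · intro z; apply Subtype.ext; simp only; group
      · intro z; apply Subtype.ext; simp only; group
    rw [hc] at hd
    exact (hp.pow_dvd_iff_le_factorization Nat.card_pos.ne').1 hd
  rw [h7, h8] at h6
  rcases neg_one_pow_eq_or ℂ I.card with h9 | h9
  · left; rw [h6, h9, one_mul]
  · right; rw [h6, h9, neg_one_mul]

end Mat

end Good3

end CfsgLib.Chev
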