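import Mathlib
import Cfsg.Agent.EqBase
import Cfsg.Agent.LibStar20

/-!
# Star construction, XXI: S4684 (helper18)
-/

set_option autoImplicit false
set_option linter.unusedSectionVars false
set_option linter.style.haveILetI false
set_option linter.unusedSimpArgs false
set_option linter.unusedVariables false

namespace CfsgLib.Star

open Cfsg CfsgLib.BrP CfsgLib.BlockR

universe u

variable {M : Ideal AlgInt} {G : Type u} [Group G] [Fintype G]
variable {p : ℕ} [hp : Fact p.Prime]

theorem s4684 (hM : IsPModular p M) {B : Set (IrrCharacter G)} {P : Subgroup G}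
    {e : Set (IrrCharacter (Subgroup.centralizer (P : Set G)))}
    (hmax : IsMaximalBrauerPair p M B P e) {F : FusionSystem P}
    (hF : IsBlockFusionSystemOn p M B P e F) :
    (F.focalSubgroup.subgroupOf P).index ∣
      Nat.card {χ : IrrCharacter G // χ ∈ B ∧ blockHeight p B (χ : G → ℂ) = 0} := by
  haveI hPr : M.IsPrime := isPrime_of_modular hM
  haveI := charP_kM hM
  have hB : IsPBlock M B := hmax.1.2.1
  obtain ⟨he, hmx⟩ := (g_mx hM hB).1 hmax
  obtain ⟨h1, h2⟩ := fus_focal hM he hmx.1.1 hF
  have h3 := dvd_height hM hB hmx h1 h2 ⊤ 0 (fun χ hχ h0 w _ =>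
    dv_ne_zero_height hM hB hmx hχ h0 w.2)
  rwa [Subgroup.relIndex_top_right] at h3

end CfsgLib.Star
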