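import Mathlib
import Cfsg.Agent.EqBase
import Cfsg.Agent.LibStar42

/-!
# Star construction, XLIII: relative traces and defect groups (helper18)
-/

set_option autoImplicit false
set_option linter.unusedSectionVars false
set_option linter.style.haveILetI false
set_option linter.unusedSimpArgs false
set_option linter.unusedVariables false

namespace CfsgLib.Star

open CfsgLib.BrP CfsgLib.BlockFMT

section QS

variable {G : Type*} [Group G] [Fintype G] {E : Type*} [AddCommMonoid E]

theorem out_mul {D : Subgroup G} {F : G → E} (hF : ∀ y, ∀ d ∈ D, F (y * d) = F y) (y : G) :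
    F ((y : G ⧸ D).out) = F y := by
  have h1 : (((y : G ⧸ D).out : G) : G ⧸ D) = y := Quotient.out_eq' _
  rw [QuotientGroup.eq] at h1
  have h2 := hF ((y : G ⧸ D).out) _ h1
  rw [mul_inv_cancel_left] at h2
  exact h2.symm

open Classical in
/-- translation invariance of sums over cosets -/
theorem qs_trans {D : Subgroup G} {F : G → E} (hF : ∀ y, ∀ d ∈ D, F (y * d) = F y) (s : G) :
    ∑ q : G ⧸ D, F (s * q.out) = ∑ q : G ⧸ D, F q.out := by
  rw [← Equiv.sum_comp (MulAction.toPerm s : Equiv.Perm (G ⧸ D)) (fun q => F q.out)]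
  refine Finset.sum_congr rfl fun q _ => ?_
  show F (s * q.out) = F ((s • q).out)
  have h1 : s • q = ((s * q.out : G) : G ⧸ D) := by
    conv_lhs => rw [← Quotient.out_eq' q]
    rfl
  rw [h1, out_mul hF]

open Classical in
/-- sums over `G` and over cosets -/
theorem qs_sum {D : Subgroup G} [Fintype D] (h : G → E) :
    ∑ y : G, h y = ∑ q : G ⧸ D, ∑ d : D, h (q.out * d) := by
  have hbij : Function.Bijective (fun x : (G ⧸ D) × D => x.1.out * (x.2 : G)) := by
    constructor
    · rintro ⟨q, d⟩ ⟨q', d'⟩ hh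
      have hh' : q.out * (d : G) = q'.out * (d' : G) := hh
      have h1 : q = q' := by
        rw [← Quotient.out_eq' q, ← Quotient.out_eq' q']
        show ((q.out : G) : G ⧸ D) = (q'.out : G)
        rw [QuotientGroup.eq]
        have : q.out⁻¹ * q'.out = (d : G) * (d' : G)⁻¹ := by
          rw [inv_mul_eq_iff_eq_mul, ← mul_assoc, hh', mul_inv_cancel_right]
        rw [this]
        exact D.mul_mem d.2 (D.inv_mem d'.2)
      subst h1
      rw [Prod.mk.injEq]
      exact ⟨rfl, Subtype.ext (mul_left_cancel hh')⟩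
    · intro y
      have h1 : (((y : G ⧸ D).out : G) : G ⧸ D) = y := Quotient.out_eq' _
      rw [QuotientGroup.eq] at h1
      exact ⟨⟨(y : G ⧸ D), ⟨_, h1⟩⟩, mul_inv_cancel_left _ _⟩
  rw [← Equiv.sum_comp (Equiv.ofBijective _ hbij) h, Fintype.sum_prod_type]
  rfl

end QS

section TR

variable {k : Type*} [Field k] {G : Type*} [Group G] [Fintype G] {p : ℕ}
variable [hp : Fact p.Prime] [CharP k p]

/-- the `D`-part is a Sylow subgroup of the centralizer -/
def GoodR (p : ℕ) (H D : Subgroup G) (r : G) : Prop :=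
  ¬ p ∣ D.relIndex (H ⊓ Subgroup.centralizer ({r} : Set G))

omit [Fintype G] hp in
theorem cS_centralizer_singleton (x g : G) :
    cS x (Subgroup.centralizer ({g} : Set G)) = Subgroup.centralizer ({x * g * x⁻¹} : Set G) := by
  ext y
  rw [mem_cS, Subgroup.mem_centralizer_singleton_iff, Subgroup.mem_centralizer_singleton_iff]
  constructor
  · intro h
    have h1 : x * (x⁻¹ * y * x * g) * x⁻¹ = x * (g * (x⁻¹ * y * x)) * x⁻¹ := by rw [h]
    calc y * (x * g * x⁻¹) = x * (x⁻¹ * y * x * g) * x⁻¹ := by group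
      _ = x * (g * (x⁻¹ * y * x)) * x⁻¹ := h1
      _ = _ := by group
  · intro h
    have h1 : x⁻¹ * (y * (x * g * x⁻¹)) * x = x⁻¹ * (x * g * x⁻¹ * y) * x := by rw [h]
    calc x⁻¹ * y * x * g = x⁻¹ * (y * (x * g * x⁻¹)) * x := by group
      _ = x⁻¹ * (x * g * x⁻¹ * y) * x := h1
      _ = _ := by group

theorem exists_good {H D : Subgroup G} {b : MonoidAlgebra k G} (hb : DI p H D b) {g : G}
    (hg : b.coeff g ≠ 0) : ∃ x ∈ H, GoodR p H D (x⁻¹ * g * x) := by
  obtain ⟨Q, hQ⟩ := exists_sylIn (p := p) (H ⊓ Subgroup.centralizer ({g} : Set G))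
  have hQle := hQ.le
  have hQp : IsPGroup p Q := hQ.isPGroup
  obtain ⟨x, hx, hQx⟩ := hb.2 g hg Q (hQle.trans inf_le_left) hQp
    (le_centralizer_singleton_iff.1 (hQle.trans inf_le_right))
  refine ⟨x, hx, ?_⟩
  intro hdvd
  have h1 : cS x⁻¹ Q ≤ D := by
    have := cS_mono (x := x⁻¹) hQx
    rwa [cS_inv_cS] at this
  have h2 : cS x⁻¹ (H ⊓ Subgroup.centralizer ({g} : Set G)) =
      H ⊓ Subgroup.centralizer ({x⁻¹ * g * x} : Set G) := by
    rw [cS_inf, cS_of_mem (H.inv_mem hx), cS_centralizer_singleton, inv_inv]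
  have h3 : cS x⁻¹ Q ≤ H ⊓ Subgroup.centralizer ({x⁻¹ * g * x} : Set G) := by
    rw [← h2]; exact cS_mono hQle
  have h4 : (cS x⁻¹ Q).relIndex (H ⊓ Subgroup.centralizer ({x⁻¹ * g * x} : Set G)) =
      Q.relIndex (H ⊓ Subgroup.centralizer ({g} : Set G)) := by
    have e1 := Subgroup.card_mul_index
      (Q.subgroupOf (H ⊓ Subgroup.centralizer ({g} : Set G)))
    have e2 := Subgroup.card_mul_index
      ((cS x⁻¹ Q).subgroupOf (H ⊓ Subgroup.centralizer ({x⁻¹ * g * x} : Set G)))
    rw [Nat.card_congr (Subgroup.subgroupOfEquivOfLe hQle).toEquiv] at e1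
    rw [Nat.card_congr (Subgroup.subgroupOfEquivOfLe h3).toEquiv, ← h2, card_cS, card_cS,
      ← e1] at e2
    rw [h2] at e2
    exact Nat.eq_of_mul_eq_mul_left Nat.card_pos e2
  have h5 : D.relIndex (H ⊓ Subgroup.centralizer ({x⁻¹ * g * x} : Set G)) ∣
      (cS x⁻¹ Q).relIndex (H ⊓ Subgroup.centralizer ({x⁻¹ * g * x} : Set G)) :=
    Subgroup.relIndex_dvd_of_le_left _ h1
  rw [h4] at h5
  obtain ⟨S, hS⟩ := hQ
  apply Sylow.not_dvd_index S
  have h6 : Q.relIndex (H ⊓ Subgroup.centralizer ({g} : Set G)) =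
      S.toSubgroup.index := by
    unfold Subgroup.relIndex
    congr 1
    rw [← hS]
    exact Subgroup.comap_map_eq_self_of_injective (Subgroup.subtype_injective _) S.toSubgroup
  rw [← h6]
  exact hdvd.trans h5

/-- the class representative -/
noncomputable def repR (p : ℕ) (H D : Subgroup G) (g : G) : G :=
  Classical.epsilon fun r => (∃ x ∈ H, x * r * x⁻¹ = g) ∧ GoodR p H D r

omit [Fintype G] hp in
theorem repR_conj {H D : Subgroup G} {x : G} (hx : x ∈ H) (g : G) :
    repR p H D (x * g * x⁻¹) = repR p H D g := by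
  unfold repR
  congr 1
  funext r
  apply propext
  constructor
  · rintro ⟨⟨y, hy, h⟩, h2⟩
    refine ⟨⟨x⁻¹ * y, H.mul_mem (H.inv_mem hx) hy, ?_⟩, h2⟩
    calc x⁻¹ * y * r * (x⁻¹ * y)⁻¹ = x⁻¹ * (y * r * y⁻¹) * x := by group
      _ = g := by rw [h]; group
  · rintro ⟨⟨y, hy, h⟩, h2⟩
    refine ⟨⟨x * y, H.mul_mem hx hy, ?_⟩, h2⟩
    calc x * y * r * (x * y)⁻¹ = x * (y * r * y⁻¹) * x⁻¹ := by group
      _ = _ := by rw [h]

theorem repR_spec {H D : Subgroup G} {b : MonoidAlgebra k G} (hb : DI p H D b) {g : G}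
    (hg : b.coeff g ≠ 0) :
    (∃ x ∈ H, x * repR p H D g * x⁻¹ = g) ∧ GoodR p H D (repR p H D g) := by
  obtain ⟨x, hx, h⟩ := exists_good hb hg
  exact Classical.epsilon_spec (p := fun r => (∃ x ∈ H, x * r * x⁻¹ = g) ∧ GoodR p H D r)
    ⟨x⁻¹ * g * x, ⟨x, hx, by group⟩, h⟩

open Classical in
/-- **relative projectivity**: the ideal of elements with defect group `D` consists of traces -/
theorem exists_tr {H D : Subgroup G} (hDH : D ≤ H) {b : MonoidAlgebra k G} (hb : DI p H D b) :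
    ∃ b' : MonoidAlgebra k G, Supp H b' ∧ Fx D b' ∧
      ∀ g, (∑ q : G ⧸ D, if q.out ∈ H then b'.coeff (q.out⁻¹ * g * q.out) else 0) =
        b.coeff g := by
  set th : G → k := fun h => if ∃ d ∈ D, d * repR p H D h * d⁻¹ = h then
    ((D.relIndex (H ⊓ Subgroup.centralizer ({repR p H D h} : Set G)) : ℕ) : k)⁻¹ else 0 with hth
  refine ⟨mk fun h => b.coeff h * th h, fun g hg => ?_, fun x hx g => ?_, fun g => ?_⟩
  · rw [mk_coeff, hb.1.1 g hg, zero_mul]
  · rw [mk_coeff, mk_coeff, hb.1.2 x (hDH hx)]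
    congr 1
    rw [hth]
    simp only [repR_conj (p := p) (D := D) (hDH hx)]
    congr 1
    apply propext
    constructor
    · rintro ⟨d, hd, h⟩
      refine ⟨x⁻¹ * d, D.mul_mem (D.inv_mem hx) hd, ?_⟩
      calc x⁻¹ * d * repR p H D g * (x⁻¹ * d)⁻¹ = x⁻¹ * (d * repR p H D g * d⁻¹) * x := by group
        _ = g := by rw [h]; group
    · rintro ⟨d, hd, h⟩
      refine ⟨x * d, D.mul_mem hx hd, ?_⟩
      calc x * d * repR p H D g * (x * d)⁻¹ = x * (d * repR p H D g * d⁻¹) * x⁻¹ := by group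
        _ = _ := by rw [h]
  · have hcj : ∀ q : G, q ∈ H → b.coeff (q⁻¹ * g * q) = b.coeff g := by
      intro q hq
      have := hb.1.2 q⁻¹ (H.inv_mem hq) g
      rwa [inv_inv] at this
    have e1 : (∑ q : G ⧸ D, if q.out ∈ H then
        (mk fun h => b.coeff h * th h : MonoidAlgebra k G).coeff (q.out⁻¹ * g * q.out) else 0) =
        b.coeff g * ∑ q : G ⧸ D, if q.out ∈ H then th (q.out⁻¹ * g * q.out) else 0 := by
      rw [Finset.mul_sum]
      refine Finset.sum_congr rfl fun q _ => ?_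
      split_ifs with hq
      · rw [mk_coeff, hcj _ hq]
      · rw [mul_zero]
    rw [e1]
    by_cases hg : b.coeff g = 0
    · rw [hg, zero_mul]
    obtain ⟨⟨s, hs, hsr⟩, hgood⟩ := repR_spec hb hg
    set r := repR p H D g with hr
    set K := H ⊓ Subgroup.centralizer ({r} : Set G) with hK
    have hrep : ∀ q : G, q ∈ H → repR p H D (q⁻¹ * g * q) = r := by
      intro q hq
      have := repR_conj (p := p) (D := D) (H.inv_mem hq) g
      rwa [inv_inv] at this
    have e2 : (∑ q : G ⧸ D, if q.out ∈ H then th (q.out⁻¹ * g * q.out) else 0) =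
        ∑ q : G ⧸ D, if q.out ∈ H ∧ ∃ d ∈ D, d * r * d⁻¹ = q.out⁻¹ * g * q.out then
          ((D.relIndex K : ℕ) : k)⁻¹ else 0 := by
      refine Finset.sum_congr rfl fun q _ => ?_
      by_cases hq : q.out ∈ H
      · rw [if_pos hq]
        show (if ∃ d ∈ D, d * repR p H D (q.out⁻¹ * g * q.out) * d⁻¹ = q.out⁻¹ * g * q.out then
          _ else _) = _
        rw [hrep _ hq]
        simp only [hq, true_and]
        rfl
      · rw [if_neg hq, if_neg (fun h => hq h.1)]
    rw [e2, ← Finset.sum_filter, Finset.sum_const]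
    have hcard : (Finset.univ.filter fun q : G ⧸ D =>
        q.out ∈ H ∧ ∃ d ∈ D, d * r * d⁻¹ = q.out⁻¹ * g * q.out).card = D.relIndex K := by
      have h1 : MulAction.stabilizer K ((1 : G) : G ⧸ D) = D.subgroupOf K := by
        ext x
        rw [MulAction.mem_stabilizer_iff, Subgroup.mem_subgroupOf]
        have : x • ((1 : G) : G ⧸ D) = ((x * 1 : G) : G ⧸ D) := rfl
        rw [this, mul_one, eq_comm, QuotientGroup.eq, inv_one, one_mul]
      have h2 : D.relIndex K = (MulAction.orbit K ((1 : G) : G ⧸ D)).ncard := by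
        rw [← MulAction.index_stabilizer, h1]; rfl
      rw [h2, ← Set.ncard_image_of_injective _ (MulAction.injective s), ← Set.ncard_coe_finset]
      congr 1
      ext q
      simp only [Finset.coe_filter, Finset.mem_univ, true_and, Set.mem_ofPred_eq, Set.mem_image]
      constructor
      · rintro ⟨hq, d, hd, h⟩
        refine ⟨((s⁻¹ * q.out * d : G) : G ⧸ D), ⟨⟨s⁻¹ * q.out * d, ⟨H.mul_mem (H.mul_mem
          (H.inv_mem hs) hq) (hDH hd), ?_⟩⟩, ?_⟩, ?_⟩
        · show s⁻¹ * q.out * d ∈ Subgroup.centralizer ({r} : Set G)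
          rw [Subgroup.mem_centralizer_singleton_iff]
          have h3 : q.out * (d * r * d⁻¹) * q.out⁻¹ = g := by rw [h]; group
          have h4 : s * r * s⁻¹ = q.out * (d * r * d⁻¹) * q.out⁻¹ := by rw [h3, hsr]
          calc s⁻¹ * q.out * d * r = s⁻¹ * (q.out * (d * r * d⁻¹) * q.out⁻¹) * (q.out * d) := by
                group
            _ = s⁻¹ * (s * r * s⁻¹) * (q.out * d) := by rw [h4]
            _ = _ := by group
        · show (((s⁻¹ * q.out * d) * 1 : G) : G ⧸ D) = _
          rw [mul_one]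
        · show ((s * (s⁻¹ * q.out * d) : G) : G ⧸ D) = q
          conv_rhs => rw [← Quotient.out_eq' q]
          show ((s * (s⁻¹ * q.out * d) : G) : G ⧸ D) = (q.out : G)
          rw [QuotientGroup.eq]
          have : (s * (s⁻¹ * q.out * d))⁻¹ * q.out = d⁻¹ := by group
          rw [this]
          exact D.inv_mem hd
      · rintro ⟨_, ⟨⟨c, hc⟩, rfl⟩, rfl⟩
        have e3 : s • ((⟨c, hc⟩ : K) • ((1 : G) : G ⧸ D)) = ((s * c : G) : G ⧸ D) := by
          show ((s * (c * 1) : G) : G ⧸ D) = _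
          rw [mul_one]
        simp only [e3]
        obtain ⟨d, hd, hq⟩ : ∃ d ∈ D, (((s * c : G) : G ⧸ D).out : G) = s * c * d := by
          have h1 : ((((s * c : G) : G ⧸ D).out : G) : G ⧸ D) = (s * c : G) := Quotient.out_eq' _
          rw [eq_comm, QuotientGroup.eq] at h1
          exact ⟨_, h1, (mul_inv_cancel_left _ _).symm⟩
        rw [hq]
        refine ⟨H.mul_mem (H.mul_mem hs hc.1) (hDH hd), d⁻¹, D.inv_mem hd, ?_⟩
        have hcr : c * r = r * c := Subgroup.mem_centralizer_singleton_iff.1 hc.2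
        have h5 : c⁻¹ * r * c = r := by rw [mul_assoc, ← hcr, inv_mul_cancel_left]
        rw [← hsr]
        calc d⁻¹ * r * d⁻¹⁻¹ = d⁻¹ * (c⁻¹ * r * c) * d⁻¹⁻¹ := by rw [h5]
          _ = _ := by group
    rw [hcard, nsmul_eq_mul, mul_inv_cancel₀, mul_one]
    intro h0
    exact hgood ((CharP.cast_eq_zero_iff k p _).1 h0)

end TR

end CfsgLib.Star
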