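import Mathlib
import Cfsg.Agent.EqBase
import Cfsg.Agent.LibStar43

/-!
# Star construction, XLIV: a central nilpotent element of a nilpotent block (helper18)
-/

set_option autoImplicit false
set_option linter.unusedSectionVars false
set_option linter.style.haveILetI false
set_option linter.unusedSimpArgs false
set_option linter.unusedVariables false

namespace CfsgLib.Star

open Cfsg CfsgLib.GalChar CfsgLib.GalField CfsgLib.BlockReg CfsgLib.BlockReg2 CfsgLib.LocR
  CfsgLib.BrP CfsgLib.Car CfsgLib.BlockQP CfsgLib.BlockDefect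
  CfsgLib.Points CfsgLib.PLocalInd CfsgLib.CharBasic CfsgLib.BlockCore CfsgLib.BlockSec
  CfsgLib.BlockR CfsgLib.BlockIdem CfsgLib.BlockOrth CfsgLib.CharIndA CfsgLib.CharNorm
open scoped ComplexConjugate Pointwise

universe u

section Gen

variable {k : Type*} [Field k] {G : Type*} [Group G] [Fintype G] {p : ℕ}
variable [hp : Fact p.Prime] [CharP k p]

open Classical in
/-- relative trace inside the group algebra -/
theorem exists_tr' {H D : Subgroup G} (hDH : D ≤ H) {b : MonoidAlgebra k G} (hb : DI p H D b) :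
    ∃ b' : MonoidAlgebra k G, Supp H b' ∧ Fx D b' ∧
      (∑ q : G ⧸ D, if q.out ∈ H then cj q.out b' else 0) = b := by
  obtain ⟨b', h1, h2, h3⟩ := exists_tr hDH hb
  refine ⟨b', h1, h2, ext' fun g => ?_⟩
  rw [sum_coeff, ← h3 g]
  refine Finset.sum_congr rfl fun q _ => ?_
  split_ifs
  · rw [cj_coeff]
  · rfl

open Classical in
/-- the image of a relative trace under the Brauer map -/
theorem br_tr {D : Subgroup G} (hD : IsPGroup p D) {u : MonoidAlgebra k G} (hu : Fx D u)
    (hus : Supp (Subgroup.centralizer (D : Set G)) u) :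
    Br D (∑ q : G ⧸ D, cj q.out u) =
      ∑ q : G ⧸ D, if q.out ∈ Subgroup.normalizer (D : Set G) then cj q.out u else 0 := by
  apply ext'
  intro g
  have hF : ∀ g : G, ∀ y : G, ∀ d ∈ D, u.coeff ((y * d)⁻¹ * g * (y * d)) =
      u.coeff (y⁻¹ * g * y) := by
    intro g y d hd
    have := hu d⁻¹ (D.inv_mem hd) (y⁻¹ * g * y)
    rw [← this]
    congr 1
    group
  by_cases hg : g ∈ Subgroup.centralizer (D : Set G)
  · rw [br_coeff_of _ hg, sum_coeff, sum_coeff]
    simp only [cj_coeff]
    have h1 := sum_fixed (k := k) (P := D) (X := G ⧸ D) hD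
      (fun q => u.coeff (q.out⁻¹ * g * q.out)) (fun d q => by
        have e1 : ((d • q : G ⧸ D)) = ((((d : G) * q.out : G)) : G ⧸ D) := by
          conv_lhs => rw [← Quotient.out_eq' q]
          rfl
        show u.coeff ((d • q).out⁻¹ * g * (d • q).out) = _
        rw [e1, out_mul (F := fun y => u.coeff (y⁻¹ * g * y)) (hF g)]
        congr 1
        have h2 := Subgroup.mem_centralizer_iff.1 hg d d.2
        have h3 : (d : G)⁻¹ * g * d = g := by rw [mul_assoc, ← h2, inv_mul_cancel_left]
        calc ((d : G) * q.out)⁻¹ * g * ((d : G) * q.out) = q.out⁻¹ * ((d : G)⁻¹ * g * d) * q.out := by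
              group
          _ = _ := by rw [h3])
    rw [h1, Finset.sum_filter]
    refine Finset.sum_congr rfl fun q _ => ?_
    have e2 : q ∈ MulAction.fixedPoints D (G ⧸ D) ↔
        q.out ∈ Subgroup.normalizer (D : Set G) := by
      rw [MulAction.mem_fixedPoints]
      have e3 : ∀ d : D, (d • q = q ↔ q.out⁻¹ * d * q.out ∈ D) := by
        intro d
        have e1 : ((d • q : G ⧸ D)) = ((((d : G) * q.out : G)) : G ⧸ D) := by
          conv_lhs => rw [← Quotient.out_eq' q]
          rfl
        have e4 : q = ((q.out : G) : G ⧸ D) := (Quotient.out_eq' q).symm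
        rw [e1]
        conv_lhs => rw [e4]
        rw [show (((q.out : G) : G ⧸ D).out) = q.out by rw [← e4], eq_comm, QuotientGroup.eq]
        rw [← mul_assoc]
      have e5 : q.out ∈ Subgroup.normalizer (D : Set G) ↔ ∀ d ∈ D, q.out⁻¹ * d * q.out ∈ D := by
        rw [mem_normalizer_iff_cS]
        constructor
        · intro h d hd
          rw [← h, mem_cS] at hd
          exact hd
        · intro h
          have h6 : D ≤ cS q.out D := fun d hd => mem_cS.2 (h d hd)
          exact (cS_eq_of_le_card h6 (le_refl _)).symm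
      rw [e5]
      constructor
      · intro h d hd
        exact (e3 ⟨d, hd⟩).1 (h ⟨d, hd⟩)
      · intro h d
        exact (e3 d).2 (h d d.2)
    by_cases hq : q.out ∈ Subgroup.normalizer (D : Set G)
    · rw [if_pos (e2.2 hq), if_pos hq, cj_coeff]
    · rw [if_neg (fun h => hq (e2.1 h)), if_neg hq]; rfl
  · rw [br_coeff_not _ hg, sum_coeff]
    symm
    refine Finset.sum_eq_zero fun q _ => ?_
    split_ifs with hq
    · rw [cj_coeff]
      apply hus
      intro h
      apply hg
      have h1 : cS q.out (Subgroup.centralizer (D : Set G)) = Subgroup.centralizer (D : Set G) := by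
        rw [← centralizer_cS, cS_of_normalizer hq]
      rw [← h1, mem_cS]
      exact h
    · rfl

theorem cj_sg (x y : G) : cj x (sg k y) = sg k (x * y * x⁻¹) := by
  classical
  apply ext'
  intro g
  rw [cj_coeff]
  unfold sg
  rw [MonoidAlgebra.coeff_single, MonoidAlgebra.coeff_single, Finsupp.single_apply,
    Finsupp.single_apply]
  congr 1
  apply propext
  constructor
  · rintro rfl; group
  · rintro rfl; group

theorem supp_sg {H : Subgroup G} {y : G} (hy : y ∈ H) : Supp H (sg k y) := supp_single hy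

/-- a central nilpotent element -/
theorem exists_x {b c : MonoidAlgebra k G} {D : Subgroup G} (hb : IsBlk ⊤ b)
    (hmx : IsMx p ⊤ b D c) (hT : TS ⊤ D c ≤ Subgroup.centralizer (D : Set G))
    (hab : ∀ x ∈ D, ∀ y ∈ D, x * y = y * x) {y : G} (hy : y ∈ D) :
    ∃ x, ZH ⊤ x ∧ x * b = x ∧ IsNilpotent x ∧ Br D x * c = (sg k y - 1) * c := by
  classical
  have hPc := hmx.1.1
  have hDp := hPc.pg
  set K := Subgroup.centralizer (D : Set G) with hK
  have hCH : CH ⊤ D = K := by rw [CH, top_inf_eq]
  have hTK : TS ⊤ D c = K := le_antisymm hT (by rw [← hCH]; exact CH_le_TS hPc)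
  have hdef : IsDef p K c D := by
    have := (hmx.data hb).1
    rwa [hTK] at this
  have hcblk : IsBlk K c := by rw [← hCH]; exact hPc.blk
  obtain ⟨a, ha1, ha2, ha3⟩ := exists_tr' hdef.le hdef.di
  have hycK : y ∈ Subgroup.centralizer (K : Set G) := by
    rw [Subgroup.mem_centralizer_iff]
    intro h hh
    exact (Subgroup.mem_centralizer_iff.1 hh y hy).symm
  have hDK : D ≤ K := hdef.le
  -- the element
  set u := sg k y * (a * c) with hu
  have hac : Supp K (a * c) := supp_mul ha1 hcblk.zh.1
  have hus : Supp K u := supp_mul (supp_sg (hDK hy)) hac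
  have hufx : Fx D u := by
    rw [hK] at hus
    exact fx_of_supp_centralizer hus
  have huc : u * c = u := by rw [hu, mul_assoc, mul_assoc, hcblk.idem]
  set z := ∑ q : G ⧸ D, cj q.out u with hz
  have hF : ∀ v : MonoidAlgebra k G, Fx D v → ∀ w : G, ∀ d ∈ D, cj (w * d) v = cj w v := by
    intro v hv w d hd
    rw [← cj_cj, fx_iff.1 hv d hd]
  have hzZ : ZH ⊤ z := by
    refine ⟨supp_top z, ?_⟩
    rw [fx_iff]
    intro s _
    rw [hz, cj_sum]
    have h1 := qs_trans (F := fun w => cj w u) (hF u hufx) s
    simp only [← cj_cj] at h1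
    exact h1
  have hbrz : Br D z * c = sg k y * c := by
    rw [hz, br_tr hDp hufx hus, Finset.sum_mul]
    have e1 : ∀ q : G ⧸ D, (if q.out ∈ Subgroup.normalizer (D : Set G) then cj q.out u else 0) *
        c = sg k y * ((if q.out ∈ K then cj q.out a else 0) * c) := by
      intro q
      by_cases hq : q.out ∈ K
      · rw [if_pos (centralizer_le_normalizer D hq), if_pos hq, hu, cj_mul, cj_mul, cj_sg,
          fx_iff.1 hcblk.zh.2 _ hq]
        have h3 : q.out * y * q.out⁻¹ = y := by
          have := Subgroup.mem_centralizer_iff.1 hq y hy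
          rw [← this, mul_inv_cancel_right]
        rw [h3, mul_assoc, mul_assoc, hcblk.idem]
      · rw [if_neg hq, zero_mul, mul_zero]
        split_ifs with hN
        · have h4 : cj q.out u * c = cj q.out (u * (c * cj q.out⁻¹ c)) := by
            calc cj q.out u * c = cj q.out u * cj q.out (cj q.out⁻¹ c) := by rw [cj_cj_inv]
              _ = cj q.out (u * cj q.out⁻¹ c) := (cj_mul _ _ _).symm
              _ = _ := by rw [← mul_assoc, huc]
          have h5 : IsBlk K (cj q.out⁻¹ c) := by
            have := hcblk.cj q.out⁻¹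
            have h6 : cS q.out⁻¹ K = K := by
              rw [hK, ← centralizer_cS, cS_of_normalizer (Subgroup.inv_mem _ hN)]
            change IsBlk (cS q.out⁻¹ K) (cj q.out⁻¹ c) at this
            rwa [h6] at this
          rw [h4]
          by_cases h7 : c = cj q.out⁻¹ c
          · exfalso
            apply hq
            rw [← hTK]
            refine ⟨Subgroup.mem_top _, hN, ?_⟩
            conv_lhs => rw [h7]
            rw [cj_cj_inv]
          · rw [hcblk.orth h5 h7, mul_zero, cj_zero]
        · rw [zero_mul]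
    rw [Finset.sum_congr rfl fun q _ => e1 q, ← Finset.mul_sum, ← Finset.sum_mul, ha3,
      hcblk.idem]
  have hbfx : Fx D b := fx_mono le_top hb.zh.2
  have hzfx : Fx D z := fx_mono le_top hzZ.2
  have hbrb : Br D b * c = c := hmx.1.2
  have hx : ZH ⊤ (z * b - b) := zh_sub (zh_mul hzZ hb.zh) hb.zh
  have hbrx : Br D (z * b - b) * c = (sg k y - 1) * c := by
    rw [br_sub, br_mul hDp hzfx hbfx, sub_mul, mul_assoc, hbrb, hbrz, sub_mul, one_mul]
  refine ⟨z * b - b, hx, by rw [sub_mul, mul_assoc, hb.idem], ?_, hbrx⟩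
  rcases hb.unit_or_nilpotent hx with h | ⟨w, hw, hw1⟩
  · rwa [sub_mul, mul_assoc, hb.idem] at h
  · exfalso
    have h1 : Br D (z * b - b) * Br D w = Br D b := by
      rw [← br_mul hDp (fx_mono le_top hx.2) (fx_mono le_top hw.2), hw1]
    obtain ⟨n, hn⟩ : ∃ n : ℕ, (sg k y - 1) ^ (p ^ n) = 0 := by
      haveI : CharP (MonoidAlgebra k G) p :=
        charP_of_injective_algebraMap (FaithfulSMul.algebraMap_injective k (MonoidAlgebra k G)) p
      obtain ⟨n, hn⟩ := IsPGroup.iff_orderOf.1 hDp ⟨y, hy⟩
      refine ⟨n, ?_⟩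
      have h2 : orderOf y = p ^ n := by
        rw [← hn]; exact (Subgroup.orderOf_mk y hy).symm
      rw [sub_pow_char_pow_of_commute p n (Commute.one_right (sg k y)), sg_pow, ← h2,
        pow_orderOf_eq_one, sg_one, one_pow, sub_self]
    have hcm : ∀ v : MonoidAlgebra k G, Supp K v → Commute c v := by
      intro v hv
      exact comm_of_fx_supp hcblk.zh.2 hv
    have hBw : Commute c (Br D w) := hcm _ (supp_br_self D w)
    have hyc : Commute c (sg k y - 1) :=
      hcm _ (supp_sub (supp_sg (hDK hy)) supp_one)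
    have h3 : (sg k y - 1) * Br D w * c = c := by
      calc (sg k y - 1) * Br D w * c = (sg k y - 1) * c * Br D w := by
            rw [mul_assoc, ← hBw.eq, mul_assoc]
        _ = Br D (z * b - b) * c * Br D w := by rw [hbrx]
        _ = Br D (z * b - b) * Br D w * c := by rw [mul_assoc, hBw.eq, mul_assoc]
        _ = c := by rw [h1, hbrb]
    have hyw : Commute (sg k y - 1) (Br D w) := by
      have : Commute (sg k y) (Br D w) := by
        refine comm_of_fx_supp (H := K) ?_ (supp_br_self D w)
        rw [fx_iff]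
        intro x hx
        rw [cj_sg]
        congr 1
        have := Subgroup.mem_centralizer_iff.1 hx y hy
        rw [← this, mul_inv_cancel_right]
      exact this.sub_left (Commute.one_left _)
    have h4 : ∀ m : ℕ, (sg k y - 1) ^ m * Br D w ^ m * c = c := by
      intro m
      induction m with
      | zero => rw [pow_zero, pow_zero, one_mul, one_mul]
      | succ m ih =>
        calc (sg k y - 1) ^ (m + 1) * Br D w ^ (m + 1) * c =
            (sg k y - 1) ^ m * ((sg k y - 1) * Br D w ^ m) * Br D w * c := by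
              rw [pow_succ, pow_succ]; simp only [mul_assoc]
          _ = (sg k y - 1) ^ m * (Br D w ^ m * (sg k y - 1)) * Br D w * c := by
              rw [(hyw.pow_right m).eq]
          _ = (sg k y - 1) ^ m * Br D w ^ m * ((sg k y - 1) * Br D w * c) := by
              simp only [mul_assoc]
          _ = c := by rw [h3, ih]
    have h5 := h4 (p ^ n)
    rw [hn, zero_mul, zero_mul] at h5
    exact hcblk.ne h5.symm

end Gen

section Reg

variable {M : Ideal AlgInt} [hPr : M.IsPrime] {G : Type u} [Group G] [Fintype G]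
variable {p : ℕ} [hp : Fact p.Prime] [hch : CharP (kM M) p]

/-- block idempotents are supported on `p`-regular elements -/
theorem blk_reg (hM : IsPModular p M) {H : Subgroup G} {c : MonoidAlgebra (kM M) G}
    (hc : IsBlk H c) {g : G} (hg : p ∣ orderOf g) : c.coeff g = 0 := by
  by_cases hgH : g ∈ H
  · obtain ⟨b, hb, rfl⟩ := h_surj hc
    have h1 := bk_coeff (M := M) (ι := H.subtype) (Subgroup.subtype_injective H) b ⟨g, hgH⟩
    rw [show H.subtype ⟨g, hgH⟩ = g from rfl] at h1
    rw [h1, blockCoeff_eq_zero hM hb (by rwa [Subgroup.orderOf_mk]), rd_zero]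
  · exact hc.zh.1 g hgH

/-- powers of the augmentation generator on a block of `C(D)` -/
theorem aug_pow_ne (hM : IsPModular p M) {c : MonoidAlgebra (kM M) G} {D : Subgroup G}
    (hc : IsBlk (CH ⊤ D) c) (hD : IsPGroup p D) {y : G} (hy : y ∈ D) {n : ℕ}
    (hn : n < orderOf y) : (sg (kM M) y - 1) ^ n * c ≠ 0 := by
  classical
  intro h0
  obtain ⟨s, hs⟩ : ∃ s, c.coeff s ≠ 0 := by
    by_contra h
    push Not at h
    exact hc.ne (ext' h)
  have hsD : s ∈ Subgroup.centralizer (D : Set G) := by
    by_contra h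
    exact hs (hc.zh.1 s (fun h' => h h'.2))
  have hsr : ¬ p ∣ orderOf s := fun h => hs (blk_reg hM hc h)
  have h1 : ((sg (kM M) y - 1) ^ n * c).coeff s = (-1) ^ n * c.coeff s := by
    rw [sub_eq_add_neg, (Commute.neg_right (Commute.one_right (sg (kM M) y))).add_pow,
      Finset.sum_mul, sum_coeff, Finset.sum_eq_single 0]
    · rw [pow_zero, one_mul, Nat.sub_zero, Nat.choose_zero_right, Nat.cast_one, mul_one]
      rcases neg_one_pow_eq_or (MonoidAlgebra (kM M) G) n with h | h <;>
        rcases neg_one_pow_eq_or (kM M) n with h' | h'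
      · rw [h, h', one_mul, one_mul]
      · have h5 : ((-1 : kM M)) ^ n • (1 : MonoidAlgebra (kM M) G) = (-1) ^ n := by
          rw [Algebra.smul_def, map_pow, map_neg, map_one, mul_one]
        rw [← h5, h']
        rw [smul_mul_assoc, one_mul]
        rfl
      · have h5 : ((-1 : kM M)) ^ n • (1 : MonoidAlgebra (kM M) G) = (-1) ^ n := by
          rw [Algebra.smul_def, map_pow, map_neg, map_one, mul_one]
        rw [← h5, h']
        rw [smul_mul_assoc, one_mul]
        rfl
      · rw [h, h', neg_mul, neg_mul, one_mul, one_mul]; rfl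
    · intro i hi hi0
      have hin : i < orderOf y := lt_of_le_of_lt (Nat.lt_succ_iff.1 (Finset.mem_range.1 hi)) hn
      have h5 : ((-1 : MonoidAlgebra (kM M) G)) ^ (n - i) * ((n.choose i : ℕ) :
          MonoidAlgebra (kM M) G) = ((-1 : kM M) ^ (n - i) * (n.choose i : ℕ)) •
            (1 : MonoidAlgebra (kM M) G) := by
        rw [Algebra.smul_def, map_mul, map_pow, map_neg, map_one, map_natCast, mul_one]
      rw [mul_assoc (sg (kM M) y ^ i), h5, mul_smul_comm, mul_one, smul_mul_assoc, smul_coeff,
        sg_pow]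
      have h6 : (sg (kM M) (y ^ i) * c).coeff s = c.coeff ((y ^ i)⁻¹ * s) := by
        rw [sg_mul_coeff]
      rw [h6, blk_reg hM hc, mul_zero]
      -- order
      have hcomm : Commute (y ^ i)⁻¹ s := by
        have h7 := Subgroup.mem_centralizer_iff.1 hsD y hy
        have h8 : Commute y s := h7
        exact (h8.pow_left i).inv_left
      by_contra hnd
      have hyi : (y ^ i)⁻¹ ≠ 1 := by
        rw [ne_eq, inv_eq_one]
        intro h9
        have := orderOf_dvd_of_pow_eq_one h9
        exact absurd (Nat.le_of_dvd (Nat.pos_of_ne_zero hi0) this) (not_le.2 hin)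
      obtain ⟨j, hj⟩ := IsPGroup.iff_orderOf.1 hD ⟨(y ^ i)⁻¹, D.inv_mem (D.pow_mem hy i)⟩
      rw [Subgroup.orderOf_mk] at hj
      have hcop : Nat.Coprime (orderOf (y ^ i)⁻¹) (orderOf s) := by
        rw [hj]
        exact Nat.Coprime.pow_left _ ((Nat.Prime.coprime_iff_not_dvd hp.out).2 hsr)
      rw [hcomm.orderOf_mul_eq_mul_orderOf_of_coprime hcop] at hnd
      apply hnd
      refine Dvd.dvd.mul_right ?_ _
      rw [hj]
      apply dvd_pow_self
      rintro rfl
      rw [pow_zero, orderOf_eq_one_iff] at hj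
      exact hyi hj
    · intro h; exact absurd (Finset.mem_range.2 (Nat.succ_pos n)) h
  rw [h0, zero_coeff] at h1
  have h2 : ((-1 : kM M)) ^ n ≠ 0 := pow_ne_zero _ (neg_ne_zero.2 one_ne_zero)
  exact (mul_ne_zero h2 hs) h1.symm

end Reg

end CfsgLib.Star
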