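import Mathlib
import Cfsg.Agent.EqBase
import Cfsg.Agent.LibSymLoc

/-!
# Star construction, XLV: local symmetric algebras generated by one central element (helper18)
-/

set_option autoImplicit false
set_option linter.unusedSectionVars false
set_option linter.style.haveILetI false
set_option linter.unusedSimpArgs false
set_option linter.unusedVariables false

namespace CfsgLib.SymLoc

variable {k : Type*} [Field k] {A : Type*} [Ring A] [Algebra k A]

theorem nilp_li {N u : A} {m : ℕ} (hm : N ^ m * u = 0) (hm1 : N ^ (m - 1) * u ≠ 0)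
    {c : ℕ → k} (hc : ∑ i ∈ Finset.range m, c i • (N ^ i * u) = 0) : ∀ i < m, c i = 0 := by
  intro i
  induction i using Nat.strong_induction_on with
  | _ i ih =>
    intro hi
    have h1 : N ^ (m - 1 - i) * ∑ j ∈ Finset.range m, c j • (N ^ j * u) = c i • (N ^ (m - 1) * u) := by
      rw [Finset.mul_sum, Finset.sum_eq_single i]
      · rw [mul_smul_comm, ← mul_assoc, ← pow_add]
        congr 3
        omega
      · intro j hj hji
        rw [Finset.mem_range] at hj
        rcases lt_or_gt_of_ne hji with h | h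
        · rw [ih j h hj, zero_smul, mul_zero]
        · rw [mul_smul_comm, ← mul_assoc, ← pow_add,
            show m - 1 - i + j = (j - i - 1) + m by omega, pow_add, mul_assoc, hm, mul_zero,
            smul_zero]
      · intro h; exact absurd (Finset.mem_range.2 hi) h
    rw [hc, mul_zero] at h1
    rcases smul_eq_zero.1 h1.symm with h | h
    · exact h
    · exact absurd h hm1

theorem nilp_span {N : A} (hN : IsNilpotent N) {u : A} {q : ℕ} (hq0 : 0 < q)
    (hq : N ^ (q - 1) * u ≠ 0) (W : Submodule k A) [FiniteDimensional k W]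
    (hW : ∀ i, N ^ i * u ∈ W) (hdim : Module.finrank k W ≤ q) :
    N ^ q * u = 0 ∧ ∀ w ∈ W, ∃ c : ℕ → k, w = ∑ i ∈ Finset.range q, c i • (N ^ i * u) := by
  classical
  have hex : ∃ m, N ^ m * u = 0 := by
    obtain ⟨m, hm⟩ := hN
    exact ⟨m, by rw [hm, zero_mul]⟩
  set m := Nat.find hex with hmdef
  have hm : N ^ m * u = 0 := Nat.find_spec hex
  have hm0 : 0 < m := by
    rw [Nat.pos_iff_ne_zero]
    intro h
    rw [h, pow_zero, one_mul] at hm
    rw [hm, mul_zero] at hq
    exact hq rfl
  have hm1 : N ^ (m - 1) * u ≠ 0 := Nat.find_min hex (by omega)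
  have hqm : q ≤ m := by
    by_contra h
    push Not at h
    apply hq
    rw [show q - 1 = (q - 1 - m) + m by omega, pow_add, mul_assoc, hm, mul_zero]
  let v : Fin m → W := fun i => ⟨N ^ (i : ℕ) * u, hW i⟩
  have hli : LinearIndependent k v := by
    rw [Fintype.linearIndependent_iff]
    intro c hc i
    let c' : ℕ → k := fun j => if h : j < m then c ⟨j, h⟩ else 0
    have h1 : ∑ j ∈ Finset.range m, c' j • (N ^ j * u) = 0 := by
      rw [Finset.sum_range]
      have := congrArg Subtype.val hc
      rw [AddSubmonoidClass.coe_finsetSum] at this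
      rw [ZeroMemClass.coe_zero] at this
      rw [← this]
      refine Finset.sum_congr rfl fun j _ => ?_
      show (if h : (j : ℕ) < m then c ⟨j, h⟩ else 0) • _ = _
      rw [dif_pos j.2]
      rfl
    have h2 := nilp_li hm hm1 h1 i i.2
    have h3 : c' i = c i := dif_pos i.2
    rw [← h3]; exact h2
  have hcard := hli.fintype_card_le_finrank
  rw [Fintype.card_fin] at hcard
  have hmq : m = q := by omega
  refine ⟨by rw [← hmq]; exact hm, fun w hw => ?_⟩
  have hsp : Submodule.span k (Set.range v) = ⊤ := by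
    apply Submodule.eq_top_of_finrank_eq
    rw [finrank_span_eq_card hli, Fintype.card_fin]
    omega
  have hw' : (⟨w, hw⟩ : W) ∈ Submodule.span k (Set.range v) := by rw [hsp]; exact Submodule.mem_top
  rw [Submodule.mem_span_range_iff_exists_fun] at hw'
  obtain ⟨c, hc⟩ := hw'
  refine ⟨fun j => if h : j < m then c ⟨j, h⟩ else 0, ?_⟩
  have := congrArg Subtype.val hc
  rw [AddSubmonoidClass.coe_finsetSum] at this
  rw [← hmq, Finset.sum_range]
  rw [← show ((⟨w, hw⟩ : W) : A) = w from rfl, ← this]
  refine Finset.sum_congr rfl fun j _ => ?_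
  show _ = (if h : (j : ℕ) < m then c ⟨j, h⟩ else 0) • _
  rw [dif_pos j.2]
  rfl

namespace SL

variable {l : A →ₗ[k] k} {J : Submodule k A} [FiniteDimensional k A]

/-- a local symmetric algebra whose centre is generated by one nilpotent element is generated by
this element -/
theorem top_of_gen (h : SL l J) {x : A} (hx : x ∈ Subalgebra.center k A) (hxn : IsNilpotent x)
    {q : ℕ} (hq0 : 1 < q) (hq : x ^ (q - 1) ≠ 0)
    (hdim : Module.finrank k (Subalgebra.center k A) ≤ q) :
    x ^ q = 0 ∧ ∀ a : A, ∃ c : ℕ → k, a = ∑ i ∈ Finset.range q, c i • x ^ i := by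
  classical
  have hxZ : ∀ a, a * x = x * a := Subalgebra.mem_center_iff.1 hx
  obtain ⟨h1, h2⟩ := nilp_span (k := k) hxn (u := 1) (by omega : 0 < q) (by rwa [mul_one])
    (Subalgebra.toSubmodule (Subalgebra.center k A)) (fun i => by
      rw [mul_one]; exact Subalgebra.pow_mem _ hx i) hdim
  simp only [mul_one] at h1 h2
  refine ⟨h1, ?_⟩
  have h2' : ∀ z ∈ Subalgebra.center k A, ∃ c : ℕ → k, z = ∑ i ∈ Finset.range q, c i • x ^ i := h2
  -- `x ∈ J`
  have hJnil : ∀ y ∈ J, IsNilpotent y := by
    intro y hy
    obtain ⟨N, hN⟩ := h.nil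
    refine ⟨N, ?_⟩
    have : y ^ N ∈ J ^ N := Submodule.pow_mem_pow J hy N
    rwa [hN, Submodule.mem_bot] at this
  have hnilJ : ∀ y ∈ Subalgebra.center k A, IsNilpotent y → y ∈ J := by
    intro y hyZ hy
    obtain ⟨c, hc⟩ := h.top y
    by_cases hc0 : c = 0
    · rwa [hc0, zero_smul, sub_zero] at hc
    · exfalso
      apply h.one
      have h3 : Commute y (y - c • (1 : A)) :=
        (Commute.refl y).sub_right ((Commute.one_right y).smul_right c)
      have h4 : IsNilpotent (c • (1 : A)) := by
        have := h3.isNilpotent_sub hy (hJnil _ hc)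
        rwa [sub_sub_cancel] at this
      obtain ⟨n, hn⟩ := h4
      rw [smul_pow, one_pow] at hn
      rcases smul_eq_zero.1 hn with h5 | h5
      · exact absurd h5 (pow_ne_zero n hc0)
      · rw [h5]; exact J.zero_mem
  have hxJ : x ∈ J := hnilJ x hx hxn
  have hpow : ∀ i, 0 < i → x ^ i ∈ J := by
    intro i hi
    obtain ⟨j, rfl⟩ := Nat.exists_eq_add_of_lt hi
    rw [zero_add, pow_succ]
    exact h.mulL _ _ hxJ
  have hm1 : x ^ (q - 1) * (1 : A) ≠ 0 := by rwa [mul_one]
  have hli : ∀ c : ℕ → k, ∑ i ∈ Finset.range q, c i • x ^ i = 0 → ∀ i < q, c i = 0 := by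
    intro c hc
    refine nilp_li (N := x) (u := 1) (by rw [mul_one]; exact h1) hm1 ?_
    simpa using hc
  -- the socle
  have hS : x ^ (q - 1) ∈ (bf l).orthogonal J := by
    have hfr := h.finrank_S
    obtain ⟨s, hs0⟩ : ∃ s : (bf l).orthogonal J, s ≠ 0 :=
      (Module.finrank_pos_iff_exists_ne_zero (R := k)).1 (by omega)
    have hsZ : (s : A) ∈ Subalgebra.center k A := by
      rw [Subalgebra.mem_center_iff]
      intro a
      obtain ⟨c, hc⟩ := h.top a
      have e1 : a = c • (1 : A) + (a - c • (1 : A)) := by abel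
      rw [e1, add_mul, mul_add, h.J_mul_S s.2 hc, h.S_mul_J s.2 hc, smul_mul_assoc,
        mul_smul_comm, one_mul, mul_one]
    obtain ⟨c, hc⟩ := h2' _ hsZ
    have hxs : x * (s : A) = 0 := h.J_mul_S s.2 hxJ
    have h3 : ∀ i < q, i ≠ q - 1 → c i = 0 := by
      have h4 : ∑ i ∈ Finset.range q, (if i = 0 then 0 else c (i - 1)) • x ^ i = 0 := by
        obtain ⟨r, rfl⟩ : ∃ r, q = r + 1 := ⟨q - 1, by omega⟩
        rw [hc, Finset.mul_sum, Finset.sum_range_succ] at hxs
        rw [Finset.sum_range_succ']
        rw [if_pos rfl, zero_smul, add_zero]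
        rw [mul_smul_comm, ← pow_succ', h1, smul_zero, add_zero] at hxs
        rw [← hxs]
        refine Finset.sum_congr rfl fun i _ => ?_
        rw [if_neg (Nat.succ_ne_zero i), Nat.add_sub_cancel, mul_smul_comm, ← pow_succ']
      intro i hi hi1
      have h5 := hli _ h4 (i + 1) (by omega)
      rwa [if_neg (Nat.succ_ne_zero i), Nat.add_sub_cancel] at h5
    have h4 : (s : A) = c (q - 1) • x ^ (q - 1) := by
      rw [hc, Finset.sum_eq_single (q - 1)]
      · intro i hi hi1
        rw [h3 i (Finset.mem_range.1 hi) hi1, zero_smul]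
      · intro h'; exact absurd (Finset.mem_range.2 (by omega)) h'
    have h5 : c (q - 1) ≠ 0 := by
      intro h6
      rw [h6, zero_smul] at h4
      exact hs0 (Subtype.ext h4)
    have h6 : x ^ (q - 1) = (c (q - 1))⁻¹ • (s : A) := by
      rw [h4, smul_smul, inv_mul_cancel₀ h5, one_smul]
    rw [h6]
    exact Submodule.smul_mem _ _ s.2
  have hlq : l (x ^ (q - 1)) ≠ 0 := fun h0 => hq (h.S_zero hS h0)
  -- centre and commutators are complementary
  have hdisj : Disjoint (Subalgebra.toSubmodule (Subalgebra.center k A)) (K k A) := by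
    rw [Submodule.disjoint_def]
    intro z hz hzK
    have hzZ : z ∈ Subalgebra.center k A := hz
    obtain ⟨c, hc⟩ := h2' z hzZ
    have hl : ∀ z' ∈ Subalgebra.center k A, l (z * z') = 0 := by
      intro z' hz'
      have := (h.mem_center_iff z').1 hz' z hzK
      rwa [h.symm] at this
    have h3 : ∀ i < q, c i = 0 := by
      intro i
      induction i using Nat.strong_induction_on with
      | _ i ih =>
        intro hi
        have h4 := hl (x ^ (q - 1 - i)) (Subalgebra.pow_mem _ hx _)
        rw [hc, Finset.sum_mul, Finset.sum_eq_single i] at h4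
        · rw [smul_mul_assoc, ← pow_add, show i + (q - 1 - i) = q - 1 by omega, map_smul,
            smul_eq_mul] at h4
          exact (mul_eq_zero.1 h4).resolve_right hlq
        · intro j hj hji
          rw [Finset.mem_range] at hj
          rcases lt_or_gt_of_ne hji with h5 | h5
          · rw [ih j h5 hj, zero_smul, zero_mul]
          · rw [smul_mul_assoc, ← pow_add, show j + (q - 1 - i) = (j - i - 1) + q by omega,
              pow_add, h1, mul_zero, smul_zero]
        · intro h'; exact absurd (Finset.mem_range.2 hi) h'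
    rw [hc]
    refine Finset.sum_eq_zero fun i hi => ?_
    rw [h3 i (Finset.mem_range.1 hi), zero_smul]
  have hcompl : (Subalgebra.toSubmodule (Subalgebra.center k A)) ⊔ (K k A) = ⊤ := by
    apply Submodule.eq_top_of_finrank_eq
    have h3 := Submodule.finrank_sup_add_finrank_inf_eq
      (Subalgebra.toSubmodule (Subalgebra.center k A)) (K k A)
    rw [hdisj.eq_bot, finrank_bot, add_zero] at h3
    rw [h3]
    exact h.finrank_K
  -- commutators lie in `J ^ 2`
  have hK2 : K k A ≤ J ^ 2 := by
    unfold K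
    rw [Submodule.span_le]
    rintro _ ⟨a, b, rfl⟩
    obtain ⟨c, hc⟩ := h.top a
    obtain ⟨d, hd⟩ := h.top b
    have e1 : a * b - b * a = (a - c • (1 : A)) * (b - d • (1 : A)) -
        (b - d • (1 : A)) * (a - c • (1 : A)) := by
      simp only [sub_mul, mul_sub, smul_mul_assoc, mul_smul_comm, one_mul, mul_one, smul_sub]
      rw [smul_comm c d]
      abel
    rw [e1, pow_two]
    exact Submodule.sub_mem _ (Submodule.mul_mem_mul hc hd) (Submodule.mul_mem_mul hd hc)
  have hJ2J : J ^ 2 ≤ J := by
    rw [pow_two, Submodule.mul_le]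
    intro a ha b hb
    exact h.mulL a b hb
  have hgen : J ≤ Submodule.span k {x} ⊔ J ^ 2 := by
    intro y hy
    have hyT : y ∈ (Subalgebra.toSubmodule (Subalgebra.center k A)) ⊔ (K k A) := by
      rw [hcompl]; exact Submodule.mem_top
    obtain ⟨z, hz, κ, hκ, rfl⟩ := Submodule.mem_sup.1 hyT
    have hzJ : z ∈ J := by
      have := J.sub_mem hy (hJ2J (hK2 hκ))
      rwa [add_sub_cancel_right] at this
    obtain ⟨c, hc⟩ := h2' z hz
    obtain ⟨r, rfl⟩ : ∃ r, q = r + 1 := ⟨q - 1, by omega⟩
    rw [Finset.sum_range_succ'] at hc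
    have hc0 : c 0 = 0 := by
      by_contra hne
      apply h.one
      have h3 : c 0 • (1 : A) ∈ J := by
        have h4 : c 0 • (1 : A) = z - ∑ i ∈ Finset.range r, c (i + 1) • x ^ (i + 1) := by
          rw [hc, pow_zero]; abel
        rw [h4]
        exact J.sub_mem hzJ (Submodule.sum_mem _ fun i _ =>
          Submodule.smul_mem _ _ (hpow _ (Nat.succ_pos i)))
      have := J.smul_mem (c 0)⁻¹ h3
      rwa [smul_smul, inv_mul_cancel₀ hne, one_smul] at this
    rw [hc0, zero_smul, add_zero] at hc
    refine Submodule.add_mem _ ?_ (Submodule.mem_sup_right (hK2 hκ))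
    rw [hc]
    refine Submodule.sum_mem _ fun i _ => ?_
    rcases Nat.eq_zero_or_pos i with h0 | h0
    · rw [h0, zero_add, pow_one]
      exact Submodule.mem_sup_left (Submodule.smul_mem _ _ (Submodule.mem_span_singleton_self x))
    · refine Submodule.mem_sup_right (Submodule.smul_mem _ _ ?_)
      rw [pow_two, pow_succ x i]
      exact Submodule.mul_mem_mul (hpow i h0) hxJ
  have hle := h.le_adjoin (s := {x}) (by rintro y rfl; exact hxJ) hgen
  have hadj : Algebra.adjoin k {x} ≤ Subalgebra.center k A := by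
    rw [Algebra.adjoin_le_iff]
    rintro y rfl
    exact hx
  intro a
  apply h2' a
  obtain ⟨c, hc⟩ := h.top a
  have e1 : a = c • (1 : A) + (a - c • (1 : A)) := by abel
  rw [e1]
  exact (Subalgebra.center k A).add_mem (Subalgebra.smul_mem _ (Subalgebra.one_mem _) c)
    (hadj (hle hc))

end SL

end CfsgLib.SymLoc
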