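import Mathlib
import Cfsg.Agent.EqBase
import Cfsg.Agent.LibStar44
import Cfsg.Agent.LibStar45

/-!
# Star construction, XLVI: structure of nilpotent blocks with cyclic defect group (helper18)
-/

set_option autoImplicit false
set_option linter.unusedSectionVars false
set_option linter.style.haveILetI false
set_option linter.unusedSimpArgs false
set_option linter.unusedVariables false

namespace CfsgLib.Star

open Cfsg CfsgLib.GalChar CfsgLib.GalField CfsgLib.BlockReg CfsgLib.BlockReg2 CfsgLib.LocR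
  CfsgLib.BrP CfsgLib.Car CfsgLib.BlockQP CfsgLib.BlockDefect
  CfsgLib.Points CfsgLib.PLocalInd CfsgLib.CharBasic CfsgLib.BlockCore CfsgLib.BlockSec
  CfsgLib.BlockR CfsgLib.BlockIdem CfsgLib.BlockOrth CfsgLib.CharIndA CfsgLib.CharNorm
open scoped ComplexConjugate Pointwise

universe u

/-- primitive idempotent of `k[H]`, inside `k[G]` -/
structure PrimIn {k : Type*} [Field k] {G : Type*} [Group G] [Fintype G] (H : Subgroup G)
    (j : MonoidAlgebra k G) : Prop where
  supp : Supp H j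
  idem : j * j = j
  ne : j ≠ 0
  prim : ∀ z, Supp H z → z * z = z → j * z = z → z * j = z → z = 0 ∨ z = j

/-- structure of a nilpotent block with cyclic defect group -/
structure STr {k : Type*} [Field k] {G : Type*} [Group G] [Fintype G] (H : Subgroup G)
    (b i x : MonoidAlgebra k G) (q : ℕ) : Prop where
  blk : IsBlk H b
  prim : PrimIn H i
  ib : i * b = i
  zx : ZH H x
  xb : x * b = x
  pow : x ^ q = 0
  top : x ^ (q - 1) * i ≠ 0
  cen : ∀ z, ZH H z → z * b = z → ∃ (c : k) (z' : MonoidAlgebra k G), ZH H z' ∧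
    z = c • b + x * z'
  cor : ∀ a, Supp H a → Cor i a → ∃ c : ℕ → k, a = ∑ n ∈ Finset.range q, c n • (x ^ n * i)
  sum : ∃ (n : ℕ) (Y X : Fin n → MonoidAlgebra k G), (∀ l, Supp H (Y l)) ∧ (∀ l, Supp H (X l)) ∧
    ∑ l, Y l * i * X l = b
  ker : ∀ a, Supp H a → b * a = a → x * a = 0 → ∃ a', Supp H a' ∧ a = x ^ (q - 1) * a'
  iso : ∀ i', PrimIn H i' → i' * b = i' → ∃ X Y, Supp H X ∧ Supp H Y ∧ i * X = X ∧ X * i' = X ∧
    i' * Y = Y ∧ Y * i = Y ∧ X * Y = i ∧ Y * X = i'

section Top

variable {M : Ideal AlgInt} [hPr : M.IsPrime] {G : Type u} [Group G] [Fintype G]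
variable {p : ℕ} [hp : Fact p.Prime] [hch : CharP (kM M) p]

theorem st_top (hM : IsPModular p M) [M.IsMaximal] {B : Set (IrrCharacter G)}
    (hnil : IsNilpotentBlock p M B) {D : Subgroup G} (hD : IsDefectGroup p M B D) {y : G}
    (hy : D = Subgroup.zpowers y) (hq : 1 < Nat.card D) :
    ∃ i x, STr ⊤ (JB M B) i x (Nat.card D) := by
  classical
  have hB : IsPBlock M B := hnil.1
  have hblk := g_blk hB
  have hab : ∀ x ∈ D, ∀ y ∈ D, x * y = y * x := by
    rw [hy]
    rintro _ ⟨m, rfl⟩ _ ⟨n, rfl⟩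
    show y ^ m * y ^ n = y ^ n * y ^ m
    rw [← zpow_add, ← zpow_add, add_comm]
  have hdef : IsDef p ⊤ (JB M B) D := (g_def hM hB).1 hD
  obtain ⟨c, hc⟩ := exists_of_br_ne hblk hdef.le hdef.pg hdef.br
  have hmx := isMx_of_isDef hblk hdef hc
  have hTS := (nilp_abelian hblk hmx hab).1 ((nilp_iff_g hM hB).1 hnil)
  have hyD : y ∈ D := by rw [hy]; exact Subgroup.mem_zpowers y
  have hyo : orderOf y = Nat.card D := by rw [hy, Nat.card_zpowers]
  obtain ⟨x, hx, hxb, hxn, hxbr⟩ := exists_x hblk hmx hTS hab hyD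
  have hl := (nil_S4689 hM hnil).1
  have hk : Nat.card B = Nat.card D := by
    obtain ⟨Φ, _⟩ := nil_S4690 hM hnil hD
    rw [Nat.card_congr Φ]
    letI : CommGroup D := { (inferInstance : Group D) with
      mul_comm := fun a b => Subtype.ext (hab a a.2 b b.2) }
    rw [card_irr]
    exact Nat.card_congr (ConjClasses.mkEquiv (α := D)).symm
  have hbc : ∀ a, JB M B * a = a * JB M B := fun a =>
    comm_of_fx_supp (H := ⊤) hblk.zh.2 (fun g hg => absurd (Subgroup.mem_top g) hg)
  have hxc : ∀ a, x * a = a * x := fun a =>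
    comm_of_fx_supp (H := ⊤) hx.2 (fun g hg => absurd (Subgroup.mem_top g) hg)
  obtain ⟨L, hL⟩ := exists_dec (kM M) (A := MonoidAlgebra (kM M) G) (e := 1) (one_mul 1)
  have hDD := dec_filter hL hblk.idem hbc
  set DD := L.filter (fun l => l * JB M B = l) with hDdef
  obtain ⟨e, heD⟩ : DD.Nonempty := by
    rw [Finset.nonempty_iff_ne_empty]
    intro h0
    have := hDD.sum
    rw [h0, Finset.sum_empty] at this
    exact hblk.ne this.symm
  have heL := (Finset.mem_filter.1 heD).1
  have heb := (Finset.mem_filter.1 heD).2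
  have hpe := hDD.prim e heD
  have he := hpe.idem
  have hiso : ∀ l ∈ DD, Iso e l := fun l hl' => iso_of_rank_one hM hB hl hL heL
    (Finset.mem_filter.1 hl').1 (Finset.mem_filter.1 heD).2 (Finset.mem_filter.1 hl').2
  -- the top power of `x`
  have hDp := hdef.pg
  have hcK : IsBlk (CH ⊤ D) c := hmx.1.1.blk
  have hpowbr : ∀ n : ℕ, Br D (x ^ n) * c = (sg (kM M) y - 1) ^ n * c := by
    intro n
    induction n with
    | zero => rw [pow_zero, pow_zero, br_one]
    | succ n ih =>
      have hyc : Commute c (sg (kM M) y - 1) := by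
        refine comm_of_fx_supp hcK.zh.2 (supp_sub (supp_sg ?_) supp_one)
        refine ⟨Subgroup.mem_top _, ?_⟩
        show y ∈ Subgroup.centralizer (D : Set G)
        rw [Subgroup.mem_centralizer_iff]
        intro h hh
        exact hab h hh y hyD
      rw [pow_succ, br_mul hDp (fx_pow (fx_mono le_top hx.2) n) (fx_mono le_top hx.2), mul_assoc,
        hxbr, ← hyc.eq, ← mul_assoc, ih, mul_assoc, hyc.eq, ← mul_assoc, ← pow_succ]
  have hxtop : x ^ (Nat.card D - 1) ≠ 0 := by
    intro h0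
    have h1 := hpowbr (Nat.card D - 1)
    rw [h0, br_zero, zero_mul] at h1
    exact aug_pow_ne hM hcK hDp hyD (n := Nat.card D - 1) (by rw [hyo]; omega) h1.symm
  have hxpb : ∀ n : ℕ, 0 < n → x ^ n * JB M B = x ^ n := by
    intro n hn
    obtain ⟨m, rfl⟩ := Nat.exists_eq_add_of_lt hn
    rw [zero_add, pow_succ, mul_assoc, hxb]
  have hxi : x ^ (Nat.card D - 1) * e ≠ 0 := by
    intro h0
    apply hxtop
    rw [← hxpb _ (by omega), ← hDD.sum, Finset.mul_sum]
    refine Finset.sum_eq_zero fun l hl' => ?_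
    obtain ⟨X, Y, h1, h2, h3, h4, h5, h6⟩ := hiso l hl'
    have hcx : Commute (x ^ (Nat.card D - 1)) Y := (show Commute x Y from hxc Y).pow_left _
    rw [← h6, ← mul_assoc, hcx.eq, mul_assoc, ← h1, ← mul_assoc (x ^ _), h0, zero_mul, mul_zero]
  -- the centre of the block
  have hcenW : ∃ W : Submodule (kM M) (MonoidAlgebra (kM M) G),
      ∀ z, z ∈ W ↔ ZH ⊤ z ∧ z * JB M B = z :=
    ⟨{ carrier := {z | ZH ⊤ z ∧ z * JB M B = z}
       add_mem' := fun {a b} ha hb => ⟨zh_add ha.1 hb.1, by rw [add_mul, ha.2, hb.2]⟩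
       zero_mem' := ⟨zh_zero, zero_mul _⟩
       smul_mem' := fun r a ha => ⟨zh_smul r ha.1, by rw [smul_mul_assoc, ha.2]⟩ },
      fun z => Iff.rfl⟩
  obtain ⟨W, hW⟩ := hcenW
  have hWle : Module.finrank (kM M) W ≤ Nat.card D := by
    rw [← hk]; exact center_le hB W fun z hz => (hW z).1 hz
  obtain ⟨hxq, hWspan⟩ := CfsgLib.SymLoc.nilp_span (k := kM M) hxn (u := JB M B)
    (by omega : 0 < Nat.card D) (by rw [hxpb _ (by omega)]; exact hxtop) W
    (fun n => (hW _).2 ⟨zh_mul (zh_pow hx n) hblk.zh, by rw [mul_assoc, hblk.idem]⟩) hWle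
  have hxq' : x ^ Nat.card D = 0 := by rw [← hxpb _ (by omega)]; exact hxq
  -- the corner
  obtain ⟨F, hF⟩ := center_ext (k := kM M) he hbc hDD heD hiso
  have hzle : Module.finrank (kM M) (Subalgebra.center (kM M) (CA (kM M) he)) ≤ Nat.card B := by
    let F' : Subalgebra.center (kM M) (CA (kM M) he) →ₗ[kM M] MonoidAlgebra (kM M) G :=
      F.comp (Subalgebra.toSubmodule (Subalgebra.center (kM M) (CA (kM M) he))).subtype
    have hF' : ∀ z, F' z = F z.1 := fun z => rfl
    have hinj : Function.Injective F' := by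
      intro z w hzw
      rw [hF', hF'] at hzw
      apply Subtype.ext
      apply CA.ext
      rw [← (hF z.1 z.2).2.2, ← (hF w.1 w.2).2.2, hzw]
    have h1 := LinearMap.finrank_range_of_inj hinj
    rw [← h1]
    apply center_le hB
    rintro _ ⟨z, rfl⟩
    obtain ⟨h2, h3, h4⟩ := hF z.1 z.2
    exact ⟨zh_top_of_comm h2, h3⟩
  have hsl := CA.sl (he := he) hpe (l1 (kM M) G) l1_symm l1_nd
  have hxecor : Cor e (x * e) := ⟨by rw [← mul_assoc, ← hxc, mul_assoc, he],
    by rw [mul_assoc, he]⟩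
  let xc : CA (kM M) he := CA.mk (x * e) hxecor
  have hxcval : ∀ n : ℕ, (xc ^ n).val = x ^ n * e := by
    intro n
    induction n with
    | zero => rw [pow_zero, pow_zero, one_mul]; rfl
    | succ n ih =>
      rw [pow_succ, CA.val_mul, ih]
      show x ^ n * e * (x * e) = _
      rw [pow_succ, mul_assoc, ← mul_assoc e, ← hxc, mul_assoc x, he, ← mul_assoc]
  have hxcZ : xc ∈ Subalgebra.center (kM M) (CA (kM M) he) := by
    rw [Subalgebra.mem_center_iff]
    intro a
    apply CA.ext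
    rw [CA.val_mul, CA.val_mul]
    show a.val * (x * e) = x * e * a.val
    rw [← mul_assoc, ← hxc, mul_assoc, a.cor.2, mul_assoc, a.cor.1]
  obtain ⟨h7, h8⟩ := hsl.top_of_gen hxcZ (by
      obtain ⟨n, hn⟩ := hxn
      exact ⟨n, CA.ext (by rw [hxcval, hn, zero_mul]; rfl)⟩) hq
    (fun h => hxi (by rw [← hxcval, h]; rfl)) (by rw [← hk]; exact hzle)
  have hcor : ∀ a, Cor e a → ∃ c : ℕ → kM M,
      a = ∑ n ∈ Finset.range (Nat.card D), c n • (x ^ n * e) := by
    intro a ha
    obtain ⟨c, hc⟩ := h8 (CA.mk a ha)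
    refine ⟨c, ?_⟩
    have := congrArg CA.val hc
    rw [CA.val_sum] at this
    rw [show (CA.mk a ha : CA (kM M) he).val = a from rfl] at this
    rw [this]
    refine Finset.sum_congr rfl fun n _ => ?_
    rw [CA.val_smul, hxcval]
  -- elements killed by `x`
  have hker : ∀ a, JB M B * a = a → x * a = 0 → ∃ a', a = x ^ (Nat.card D - 1) * a' := by
    intro a hba hxa
    choose! X Y h1 h2 h3 h4 h5 h6 using hiso
    have hlm : ∀ l ∈ DD, ∀ m ∈ DD, ∃ r : kM M, X l * a * Y m =
        r • (x ^ (Nat.card D - 1) * e) := by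
      intro l hl' m hm
      have hcr : Cor e (X l * a * Y m) := ⟨by rw [← mul_assoc, ← mul_assoc, h1 l hl'],
        by rw [mul_assoc, h4 m hm]⟩
      obtain ⟨c, hc⟩ := hcor _ hcr
      have h0 : x * (X l * a * Y m) = 0 := by
        rw [← mul_assoc, ← mul_assoc, hxc (X l), mul_assoc (X l), hxa, mul_zero, zero_mul]
      have h9 : ∑ n ∈ Finset.range (Nat.card D), (if n = 0 then 0 else c (n - 1)) •
          (x ^ n * e) = 0 := by
        obtain ⟨r, hr⟩ : ∃ r, Nat.card D = r + 1 := ⟨Nat.card D - 1, by omega⟩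
        rw [hc, hr, Finset.mul_sum, Finset.sum_range_succ] at h0
        rw [hr, Finset.sum_range_succ']
        rw [if_pos rfl, zero_smul, add_zero]
        rw [mul_smul_comm, ← mul_assoc x, ← pow_succ', ← hr, hxq', zero_mul, smul_zero,
          add_zero] at h0
        rw [← h0]
        refine Finset.sum_congr rfl fun i _ => ?_
        rw [if_neg (Nat.succ_ne_zero i), Nat.add_sub_cancel, mul_smul_comm, ← mul_assoc,
          ← pow_succ']
      have h10 := CfsgLib.SymLoc.nilp_li (N := x) (u := e) (m := Nat.card D)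
        (by rw [hxq', zero_mul]) hxi h9
      refine ⟨c (Nat.card D - 1), ?_⟩
      rw [hc, Finset.sum_eq_single (Nat.card D - 1)]
      · intro n hn hn1
        rw [Finset.mem_range] at hn
        have h11 := h10 (n + 1) (by omega)
        rw [if_neg (Nat.succ_ne_zero n), Nat.add_sub_cancel] at h11
        rw [h11, zero_smul]
      · intro h'; exact absurd (Finset.mem_range.2 (by omega)) h'
    choose! r hr using hlm
    have hab' : a * JB M B = a := by rw [← hbc]; exact hba
    refine ⟨∑ l ∈ DD, ∑ m ∈ DD, r l m • (Y l * e * X m), ?_⟩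
    have e1 : a = ∑ l ∈ DD, ∑ m ∈ DD, l * a * m := by
      calc a = JB M B * a * JB M B := by rw [hba, hab']
        _ = (∑ l ∈ DD, l) * a * (∑ m ∈ DD, m) := by rw [hDD.sum]
        _ = _ := by
          rw [Finset.sum_mul, Finset.sum_mul]
          refine Finset.sum_congr rfl fun l _ => ?_
          rw [Finset.mul_sum]
    conv_lhs => rw [e1]
    rw [Finset.mul_sum]
    refine Finset.sum_congr rfl fun l hl' => ?_
    rw [Finset.mul_sum]
    refine Finset.sum_congr rfl fun m hm => ?_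
    have hcx : Commute (x ^ (Nat.card D - 1)) (Y l) := (show Commute x (Y l) from hxc (Y l)).pow_left _
    have e2 : l * a * m = Y l * (X l * a * Y m) * X m := by
      conv_lhs => rw [← h6 l hl', ← h6 m hm]
      simp only [mul_assoc]
    rw [e2, hr l hl' m hm, mul_smul_comm, smul_mul_assoc, mul_smul_comm]
    congr 1
    rw [← mul_assoc (Y l), ← hcx.eq]
    simp only [mul_assoc]
  refine ⟨e, x, ⟨hblk, ⟨supp_top _, he, hpe.ne, fun z _ => hpe.prim z⟩, heb, hx, hxb, hxq', hxi,
    ?_, fun a _ => hcor a, ?_, fun a _ h1 h2 => ?_, ?_⟩⟩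
  · intro z hz hzb
    obtain ⟨c, hc⟩ := hWspan z ((hW z).2 ⟨hz, hzb⟩)
    obtain ⟨r, hr⟩ : ∃ r, Nat.card D = r + 1 := ⟨Nat.card D - 1, by omega⟩
    rw [hr, Finset.sum_range_succ', pow_zero, one_mul, add_comm] at hc
    refine ⟨c 0, ∑ n ∈ Finset.range r, c (n + 1) • (x ^ n * JB M B), ?_, ?_⟩
    · exact zh_sum _ _ fun n _ => zh_smul _ (zh_mul (zh_pow hx n) hblk.zh)
    · rw [hc, Finset.mul_sum]
      congr 1
      refine Finset.sum_congr rfl fun n _ => ?_
      rw [mul_smul_comm, ← mul_assoc, ← pow_succ']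
  · choose! X Y h1 h2 h3 h4 h5 h6 using hiso
    let eq := DD.equivFin
    refine ⟨DD.card, fun n => Y (eq.symm n), fun n => X (eq.symm n), fun l => supp_top _,
      fun l => supp_top _, ?_⟩
    rw [Equiv.sum_comp eq.symm (fun l : DD => Y l * e * X l)]
    have e1 : ∀ l : DD, Y l * e * X l = l := fun l => by rw [h4 l l.2, h6 l l.2]
    rw [Finset.sum_congr rfl fun l _ => e1 l, Finset.sum_coe_sort DD (fun l => l), hDD.sum]
  · obtain ⟨a', ha'⟩ := hker a h1 h2
    exact ⟨a', supp_top _, ha'⟩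
  · intro i' hi' hib
    have hp' : Prim i' := ⟨hi'.idem, hi'.ne, fun z => hi'.prim z (supp_top _)⟩
    obtain ⟨l, hlL, hil⟩ := exists_iso_L (kM M) hL (O := fun _ => True) (fun _ _ _ _ _ => Iff.rfl) hp'
    have hlb : l * JB M B = l := by
      obtain ⟨X, Y, h1, h2, h3, h4, h5, h6⟩ := hil
      have h9 : X * JB M B = X := by
        calc X * JB M B = i' * X * JB M B := by rw [h1]
          _ = i' * (JB M B * X) := by rw [mul_assoc, hbc X]
          _ = X := by rw [← mul_assoc, hib, h1]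
      rw [← h6, mul_assoc, h9]
    have h9 := (hiso l (Finset.mem_filter.2 ⟨hlL, hlb⟩)).trans hil.symm
    obtain ⟨X, Y, h1, h2, h3, h4, h5, h6⟩ := h9
    exact ⟨X, Y, supp_top _, supp_top _, h1, h2, h3, h4, h5, h6⟩

end Top

end CfsgLib.Star
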