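import Mathlib
import Cfsg.Agent.EqBase
import Cfsg.Agent.LibStar46

/-!
# Star construction, XLVII: transport to subgroups (helper18)
-/

set_option autoImplicit false
set_option linter.unusedSectionVars false
set_option linter.style.haveILetI false
set_option linter.unusedSimpArgs false
set_option linter.unusedVariables false

namespace CfsgLib.Star

open Cfsg CfsgLib.GalChar CfsgLib.GalField CfsgLib.BlockReg CfsgLib.BlockReg2 CfsgLib.LocR
  CfsgLib.BrP CfsgLib.Car CfsgLib.BlockQP CfsgLib.BlockDefect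
  CfsgLib.Points CfsgLib.PLocalInd CfsgLib.CharBasic CfsgLib.BlockCore CfsgLib.BlockSec
  CfsgLib.BlockR CfsgLib.BlockIdem CfsgLib.BlockOrth CfsgLib.CharIndA CfsgLib.CharNorm
open scoped ComplexConjugate Pointwise

universe u

section Em

variable {k : Type*} [Field k] {G : Type*} [Group G] [Fintype G] {H : Subgroup G} [Fintype H]

open Classical in
/-- embedding of the group algebra of a subgroup -/
noncomputable def em (a : MonoidAlgebra k H) : MonoidAlgebra k G :=
  mk fun g => if h : g ∈ H then a.coeff ⟨g, h⟩ else 0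

theorem em_coeff (a : MonoidAlgebra k H) (g : H) : (em a).coeff (g : G) = a.coeff g := by
  unfold em
  rw [mk_coeff, dif_pos g.2]

theorem em_supp (a : MonoidAlgebra k H) : Supp H (em a) := by
  intro g hg
  unfold em
  rw [mk_coeff, dif_neg hg]

theorem em_ext {a b : MonoidAlgebra k G} (ha : Supp H a) (hb : Supp H b)
    (h : ∀ g : H, a.coeff g = b.coeff g) : a = b := by
  apply ext'
  intro g
  by_cases hg : g ∈ H
  · exact h ⟨g, hg⟩
  · rw [ha g hg, hb g hg]

theorem em_inj {a b : MonoidAlgebra k H} (h : em a = em b) : a = b := by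
  apply ext'
  intro g
  rw [← em_coeff, h, em_coeff]

theorem em_surj {z : MonoidAlgebra k G} (hz : Supp H z) : ∃ a : MonoidAlgebra k H, em a = z := by
  refine ⟨mk fun g => z.coeff g, em_ext (em_supp _) hz fun g => ?_⟩
  rw [em_coeff, mk_coeff]

theorem sum_sub_eq (F : G → k) (hF : ∀ g, g ∉ H → F g = 0) :
    ∑ g : G, F g = ∑ x : H, F x := by
  classical
  rw [← Finset.sum_image (s := Finset.univ) (g := fun x : H => (x : G)) (f := F)
    (fun x _ y _ h => Subtype.ext h)]
  symm
  refine Finset.sum_subset (Finset.subset_univ _) fun g _ hg => hF g fun h => hg ?_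
  exact Finset.mem_image.2 ⟨⟨g, h⟩, Finset.mem_univ _, rfl⟩

theorem em_mul (a b : MonoidAlgebra k H) : em (a * b) = em a * em b := by
  classical
  refine em_ext (em_supp _) (supp_mul (em_supp _) (em_supp _)) fun g => ?_
  rw [em_coeff, mul_coeff, mul_coeff, sum_sub_eq (H := H)
    (fun x => (em a).coeff x * (em b).coeff (x⁻¹ * (g : G)))
    (fun x hx => by rw [em_supp a x hx, zero_mul])]
  refine Finset.sum_congr rfl fun x _ => ?_
  rw [em_coeff]
  congr 1
  have : (x : G)⁻¹ * (g : G) = ((x⁻¹ * g : H) : G) := rfl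
  rw [this, em_coeff]

theorem em_one : em (1 : MonoidAlgebra k H) = (1 : MonoidAlgebra k G) := by
  classical
  refine em_ext (em_supp _) supp_one fun g => ?_
  rw [em_coeff, one_coeff, one_coeff]
  by_cases h : g = 1
  · rw [if_pos h, if_pos (by rw [h]; rfl)]
  · rw [if_neg h]
    exact (if_neg (fun h' => h (Subtype.ext h'))).symm

theorem em_add (a b : MonoidAlgebra k H) : em (a + b) = em a + em b := by
  refine em_ext (em_supp _) (supp_add (em_supp _) (em_supp _)) fun g => ?_
  rw [em_coeff, add_coeff, add_coeff, em_coeff, em_coeff]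

theorem em_zero : em (0 : MonoidAlgebra k H) = (0 : MonoidAlgebra k G) := by
  refine em_ext (em_supp _) supp_zero fun g => ?_
  rw [em_coeff]; rfl

theorem em_smul (c : k) (a : MonoidAlgebra k H) : em (c • a) = c • em a := by
  refine em_ext (em_supp _) (supp_smul c (em_supp _)) fun g => ?_
  rw [em_coeff, smul_coeff, smul_coeff, em_coeff]

theorem em_sum {ι : Type*} (s : Finset ι) (f : ι → MonoidAlgebra k H) :
    em (∑ i ∈ s, f i) = ∑ i ∈ s, em (f i) := by
  classical
  induction s using Finset.induction_on with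
  | empty => rw [Finset.sum_empty, Finset.sum_empty, em_zero]
  | insert a s ha ih => rw [Finset.sum_insert ha, Finset.sum_insert ha, em_add, ih]

theorem em_pow (a : MonoidAlgebra k H) (n : ℕ) : em (a ^ n) = em a ^ n := by
  induction n with
  | zero => rw [pow_zero, pow_zero, em_one]
  | succ n ih => rw [pow_succ, pow_succ, em_mul, ih]

theorem em_zh {a : MonoidAlgebra k H} : ZH H (em a) ↔ ZH ⊤ a := by
  constructor
  · rintro ⟨_, h⟩
    refine ⟨supp_top a, fun x _ g => ?_⟩
    have := h x x.2 g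
    rw [em_coeff] at this
    rw [← this, ← em_coeff]
    rfl
  · rintro ⟨_, h⟩
    refine ⟨em_supp a, fun x hx g => ?_⟩
    by_cases hg : g ∈ H
    · have h1 := h ⟨x, hx⟩ (Subgroup.mem_top _) ⟨g, hg⟩
      rw [← em_coeff, ← em_coeff] at h1
      exact h1
    · rw [em_supp a g hg, em_supp a _ (fun h' => hg ?_)]
      have := H.mul_mem (H.mul_mem (H.inv_mem hx) h') hx
      simpa [mul_assoc] using this

theorem em_prim {j : MonoidAlgebra k H} (h : PrimIn ⊤ j) : PrimIn H (em j) := by
  refine ⟨em_supp j, by rw [← em_mul, h.idem], fun h0 => h.ne (em_inj (by rw [h0, em_zero])),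
    fun z hz h1 h2 h3 => ?_⟩
  obtain ⟨w, rfl⟩ := em_surj hz
  rw [← em_mul] at h1 h2 h3
  rcases h.prim w (supp_top w) (em_inj h1) (em_inj h2) (em_inj h3) with h4 | h4
  · left; rw [h4, em_zero]
  · right; rw [h4]

theorem prim_em {j : MonoidAlgebra k H} (h : PrimIn H (em j)) : PrimIn ⊤ j := by
  refine ⟨supp_top j, em_inj (by rw [em_mul, h.idem]), fun h0 => h.ne (by rw [h0, em_zero]),
    fun z hz h1 h2 h3 => ?_⟩
  rcases h.prim (em z) (em_supp z) (by rw [← em_mul, h1]) (by rw [← em_mul, h2])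
    (by rw [← em_mul, h3]) with h4 | h4
  · left; exact em_inj (by rw [h4, em_zero])
  · right; exact em_inj h4

theorem STr.em {b i x : MonoidAlgebra k H} {q : ℕ} (h : STr ⊤ b i x q)
    (hb : IsBlk H (em b : MonoidAlgebra k G)) :
    STr H (em b : MonoidAlgebra k G) (em i) (em x) q := by
  refine ⟨hb, em_prim h.prim, by rw [← em_mul, h.ib], em_zh.2 h.zx, by rw [← em_mul, h.xb],
    by rw [← em_pow, h.pow, em_zero], fun h0 => h.top ?_, ?_, ?_, ?_, ?_, ?_⟩
  · rw [← em_pow, ← em_mul] at h0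
    exact em_inj (by rw [h0, em_zero])
  · intro z hz hzb
    obtain ⟨w, rfl⟩ := em_surj hz.1
    rw [← em_mul] at hzb
    obtain ⟨c, z', h1, h2⟩ := h.cen w (em_zh.1 hz) (em_inj hzb)
    exact ⟨c, CfsgLib.Star.em z', em_zh.2 h1, by rw [h2, em_add, em_smul, em_mul]⟩
  · intro a ha hc
    obtain ⟨w, rfl⟩ := em_surj ha
    obtain ⟨c, hc⟩ := h.cor w (supp_top w) ⟨em_inj (by rw [em_mul]; exact hc.1),
      em_inj (by rw [em_mul]; exact hc.2)⟩
    refine ⟨c, ?_⟩
    rw [hc, em_sum]
    refine Finset.sum_congr rfl fun n _ => ?_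
    rw [em_smul, em_mul, em_pow]
  · obtain ⟨n, Y, X, h1, h2, h3⟩ := h.sum
    refine ⟨n, fun l => CfsgLib.Star.em (Y l), fun l => CfsgLib.Star.em (X l),
      fun l => em_supp _, fun l => em_supp _, ?_⟩
    rw [← h3, em_sum]
    refine Finset.sum_congr rfl fun l _ => ?_
    rw [em_mul, em_mul]
  · intro a ha h1 h2
    obtain ⟨w, rfl⟩ := em_surj ha
    rw [← em_mul] at h1 h2
    obtain ⟨a', _, h3⟩ := h.ker w (supp_top w) (em_inj h1) (em_inj (by rw [h2, em_zero]))
    exact ⟨CfsgLib.Star.em a', em_supp _, by rw [h3, em_mul, em_pow]⟩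
  · intro i' hi' hib
    obtain ⟨w, rfl⟩ := em_surj hi'.supp
    rw [← em_mul] at hib
    obtain ⟨X, Y, _, _, h1, h2, h3, h4, h5, h6⟩ := h.iso w (prim_em hi') (em_inj hib)
    refine ⟨CfsgLib.Star.em X, CfsgLib.Star.em Y, em_supp _, em_supp _, ?_, ?_, ?_, ?_, ?_, ?_⟩
    · rw [← em_mul, h1]
    · rw [← em_mul, h2]
    · rw [← em_mul, h3]
    · rw [← em_mul, h4]
    · rw [← em_mul, h5]
    · rw [← em_mul, h6]

end Em

section Sub

variable {M : Ideal AlgInt} [hPr : M.IsPrime] {G : Type u} [Group G] [Fintype G]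
variable {p : ℕ} [hp : Fact p.Prime] [hch : CharP (kM M) p]

theorem em_JB {H : Subgroup G} [Fintype H] (B : Set (IrrCharacter H)) :
    (em (JB M B) : MonoidAlgebra (kM M) G) = bk M H.subtype B := by
  refine em_ext (em_supp _) ?_ fun g => ?_
  · have := supp_Ph (M := M) (ι := H.subtype) (ind B)
    rw [Subgroup.range_subtype] at this
    exact this
  · rw [em_coeff]
    have h1 := bk_coeff (M := M) (ι := H.subtype) (Subgroup.subtype_injective H) B g
    have h2 := bk_coeff (M := M) (ι := MonoidHom.id H) id_inj B g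
    exact h2.trans h1.symm

/-- nilpotent blocks of subgroups with cyclic defect group -/
theorem st_sub (hM : IsPModular p M) [M.IsMaximal] {H : Subgroup G} {b : MonoidAlgebra (kM M) G}
    (hb : IsBlk H b) {D : Subgroup G} (hD : IsDef p H b D) (hnil : Nilp p H b) {y : G}
    (hy : D = Subgroup.zpowers y) (hq : 1 < Nat.card D) :
    ∃ i x, STr H b i x (Nat.card D) := by
  classical
  haveI := Fintype.ofFinite H
  obtain ⟨B, hB, rfl⟩ := h_surj hb
  have hnil' := (nilp_iff_h hM hB).2 hnil
  have hD' := (h_def' hM hB hD.le).2 hD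
  have hyD : y ∈ D := by rw [hy]; exact Subgroup.mem_zpowers y
  have hc : Nat.card (D.subgroupOf H) = Nat.card D :=
    Nat.card_congr (Subgroup.subgroupOfEquivOfLe hD.le).toEquiv
  obtain ⟨i, x, h⟩ := st_top hM hnil' hD' (y := (⟨y, hD.le hyD⟩ : H)) (by
    ext g
    have hmem : (g : G) ∈ D ↔ (g : G) ∈ Subgroup.zpowers y := by rw [← hy]
    rw [Subgroup.mem_subgroupOf, hmem, Subgroup.mem_zpowers_iff, Subgroup.mem_zpowers_iff]
    constructor
    · rintro ⟨n, hn⟩
      exact ⟨n, Subtype.ext hn⟩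
    · rintro ⟨n, hn⟩
      exact ⟨n, congrArg Subtype.val hn⟩) (by rw [hc]; exact hq)
  rw [hc] at h
  refine ⟨em i, em x, ?_⟩
  rw [← em_JB] at hb ⊢
  exact h.em hb

end Sub

end CfsgLib.Star
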