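import Mathlib
import Cfsg.Agent.EqBase
import Cfsg.Agent.LibStar47

/-!
# Star construction, XLVIII: restriction of simple modules, preparations (helper18)
-/

set_option autoImplicit false
set_option linter.unusedSectionVars false
set_option linter.style.haveILetI false
set_option linter.unusedSimpArgs false
set_option linter.unusedVariables false

namespace CfsgLib.Star

open CfsgLib.BrP CfsgLib.Points

section FreeOrb

open Classical in
/-- sums over a free part of a finite `D`-set -/
theorem free_sum {D X E : Type*} [Group D] [Fintype D] [Fintype X] [MulAction D X]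
    [AddCommMonoid E] (P : X → Prop) (hP : ∀ (d : D) (x : X), P x → P (d • x))
    (hfree : ∀ (d : D) (x : X), P x → d • x = x → d = 1) (h : X → E) :
    ∃ R : Finset X, (∑ x : X, if P x then h x else 0) = ∑ d : D, ∑ x ∈ R, h (d • x) := by
  let rep : X → X := fun x => Quotient.out (Quotient.mk (MulAction.orbitRel D X) x)
  have hrep : ∀ x, ∃ d : D, d • rep x = x := by
    intro x
    have h1 : (MulAction.orbitRel D X).r (rep x) x := Quotient.exact (Quotient.out_eq _)
    obtain ⟨d, hd⟩ := h1
    refine ⟨d⁻¹, ?_⟩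
    change d • x = rep x at hd
    rw [← hd, inv_smul_smul]
  have hrep2 : ∀ (d : D) x, rep (d • x) = rep x := by
    intro d x
    show Quotient.out _ = Quotient.out _
    congr 1
    exact Quotient.sound ⟨d, rfl⟩
  let R : Finset X := Finset.univ.filter fun x => P x ∧ rep x = x
  refine ⟨R, ?_⟩
  rw [← Finset.sum_filter]
  rw [← Finset.sum_product']
  symm
  refine Finset.sum_bij (fun (y : D × X) _ => y.1 • y.2) ?_ ?_ ?_ ?_
  · rintro ⟨d, x⟩ hx
    rw [Finset.mem_product, Finset.mem_filter] at hx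
    exact Finset.mem_filter.2 ⟨Finset.mem_univ _, hP d x hx.2.2.1⟩
  · rintro ⟨d, x⟩ hx ⟨d', x'⟩ hx' he
    rw [Finset.mem_product, Finset.mem_filter] at hx hx'
    have he' : d • x = d' • x' := he
    have h1 : x = x' := by
      have h2 := congrArg rep he'
      rw [hrep2, hrep2] at h2
      have h3 : rep x = x := hx.2.2.2
      have h4 : rep x' = x' := hx'.2.2.2
      rw [h3, h4] at h2
      exact h2
    subst h1
    have h5 : (d'⁻¹ * d) • x = x := by rw [mul_smul, he', inv_smul_smul]
    have h6 := hfree _ _ hx.2.2.1 h5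
    rw [inv_mul_eq_one] at h6
    rw [h6]
  · intro x hx
    rw [Finset.mem_filter] at hx
    obtain ⟨d, hd⟩ := hrep x
    refine ⟨(d, rep x), ?_, hd⟩
    rw [Finset.mem_product, Finset.mem_filter]
    refine ⟨Finset.mem_univ _, Finset.mem_univ _, ?_, ?_⟩
    · have := hP d⁻¹ x hx.2
      rw [← hd, inv_smul_smul] at this
      exact this
    · have := hrep2 d (rep x)
      rw [hd] at this
      exact this.symm
  · rintro ⟨d, x⟩ _
    rfl

end FreeOrb

variable {k : Type*} [Field k] {G : Type*} [Group G] [Fintype G]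
variable {V : Type*} [AddCommGroup V] [Module k V] [FiniteDimensional k V]
variable (ρ : MonoidAlgebra k G →ₐ[k] Module.End k V)

theorem rho_expand (a : MonoidAlgebra k G) (v : V) :
    ρ a v = ∑ g : G, a.coeff g • ρ (sg k g) v := by
  conv_lhs => rw [eq_sum_sg a]
  rw [map_sum, LinearMap.sum_apply]
  refine Finset.sum_congr rfl fun g _ => ?_
  rw [map_smul, LinearMap.smul_apply]

theorem rho_sg (g h : G) (v : V) : ρ (sg k g) (ρ (sg k h) v) = ρ (sg k (g * h)) v := by
  rw [← sg_mul, map_mul]; rfl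

theorem rho_sg_one (v : V) : ρ (sg k (1 : G)) v = v := by rw [sg_one, map_one]; rfl

open Classical in
/-- the Casimir argument -/
theorem casimir {C : Subgroup G} {b x : MonoidAlgebra k G} {n : ℕ} (hbC : Supp C b)
    (hxC : Supp C x)
    (hker : ∀ a, Supp C a → b * a = a → x * a = 0 → ∃ a', Supp C a' ∧ a = x ^ n * a')
    (ψ : Module.End k V) {w : V} (hbw : ρ b w = w) (hxw : ρ x w = 0) :
    ∃ u, (∑ s : G, if s ∈ C then ρ (sg k s) (ψ (ρ (sg k s⁻¹) w)) else 0) = ρ (x ^ n) u := by
  classical
  let e := Module.finBasis k V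
  -- the element attached to a linear form
  have key : ∀ h : V →ₗ[k] k, ∃ a', (∑ s : G, if s ∈ C then h (ρ (sg k s⁻¹) w) • sg k s else 0 :
      MonoidAlgebra k G) = x ^ n * a' := by
    intro h
    set a : MonoidAlgebra k G := ∑ s : G, if s ∈ C then h (ρ (sg k s⁻¹) w) • sg k s else 0 with ha
    have hcoef : ∀ s, a.coeff s = if s ∈ C then h (ρ (sg k s⁻¹) w) else 0 := by
      intro s
      rw [ha, sum_coeff, Finset.sum_eq_single s]
      · split_ifs
        · rw [smul_coeff]
          unfold sg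
          rw [MonoidAlgebra.coeff_single, Finsupp.single_eq_same, mul_one]
        · rfl
      · intro t _ hts
        split_ifs
        · rw [smul_coeff]
          unfold sg
          rw [MonoidAlgebra.coeff_single, Finsupp.single_apply, if_neg hts, mul_zero]
        · rfl
      · intro h'; exact absurd (Finset.mem_univ _) h'
    have hmul : ∀ y : MonoidAlgebra k G, Supp C y → ∀ s, (y * a).coeff s =
        if s ∈ C then h (ρ (sg k s⁻¹) (ρ y w)) else 0 := by
      intro y hy s
      rw [mul_coeff]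
      by_cases hs : s ∈ C
      · rw [if_pos hs, rho_expand ρ y w, map_sum, map_sum]
        refine Finset.sum_congr rfl fun t _ => ?_
        by_cases ht : t ∈ C
        · rw [hcoef, if_pos (C.mul_mem (C.inv_mem ht) hs), map_smul, map_smul, smul_eq_mul,
            rho_sg]
          congr 4
          group
        · rw [hy t ht, zero_mul, zero_smul, map_zero, map_zero]
      · rw [if_neg hs]
        refine Finset.sum_eq_zero fun t _ => ?_
        by_cases ht : t ∈ C
        · rw [hcoef, if_neg, mul_zero]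
          intro h'
          apply hs
          have := C.mul_mem ht h'
          rwa [mul_inv_cancel_left] at this
        · rw [hy t ht, zero_mul]
    obtain ⟨a', _, ha'⟩ := hker a (fun s hs => by rw [hcoef, if_neg hs])
      (ext' fun s => by rw [hmul b hbC, hbw, hcoef])
      (ext' fun s => by
        rw [hmul x hxC, hxw, map_zero, map_zero, ite_self, zero_coeff])
    exact ⟨a', ha'⟩
  choose a' ha' using fun i => key (e.coord i)
  refine ⟨∑ i, ρ (a' i) (ψ (e i)), ?_⟩
  rw [map_sum]
  have h1 : ∀ i, ρ (x ^ n) (ρ (a' i) (ψ (e i))) =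
      ∑ s : G, if s ∈ C then e.coord i (ρ (sg k s⁻¹) w) • ρ (sg k s) (ψ (e i)) else 0 := by
    intro i
    have h2 : ρ (x ^ n) (ρ (a' i) (ψ (e i))) = ρ (x ^ n * a' i) (ψ (e i)) := by
      rw [map_mul]; rfl
    rw [h2, ← ha' i, map_sum, LinearMap.sum_apply]
    refine Finset.sum_congr rfl fun s _ => ?_
    split_ifs
    · rw [map_smul, LinearMap.smul_apply]
    · rw [map_zero, LinearMap.zero_apply]
  rw [Finset.sum_congr rfl fun i _ => h1 i, Finset.sum_comm]
  refine Finset.sum_congr rfl fun s _ => ?_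
  split_ifs
  · have h3 : ρ (sg k s⁻¹) w = ∑ i, e.coord i (ρ (sg k s⁻¹) w) • e i := by
      conv_lhs => rw [← e.sum_repr (ρ (sg k s⁻¹) w)]
      rfl
    conv_lhs => rw [h3]
    rw [map_sum, map_sum]
    refine Finset.sum_congr rfl fun i _ => ?_
    rw [map_smul, map_smul]
  · rw [Finset.sum_const_zero]

/-- the projection onto a cyclic summand -/
theorem exists_pi {x : MonoidAlgebra k G} {i : MonoidAlgebra k G} (hii : i * i = i)
    (hix : i * x = x * i) {n : ℕ} {w : V} (hiw : ρ i w = w) (hxw : ρ x w = 0)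
    (hw : ∀ u, w ≠ ρ (x ^ n) u) :
    ∃ (π : Module.End k V) (f : V →ₗ[k] k), f w = 1 ∧ (∀ u, π (ρ x u) = ρ x (π u)) ∧
      (∀ u, ρ i (π u) = π u) ∧ (∀ u, ρ x u = 0 → π u = f u • w) := by
  classical
  have hex : ∃ n, ∀ u, w ≠ ρ (x ^ n) u := ⟨n, hw⟩
  set m := Nat.find hex with hm
  have hm1 : ∀ u, w ≠ ρ (x ^ m) u := Nat.find_spec hex
  have hm0 : 0 < m := by
    rw [Nat.pos_iff_ne_zero]
    intro h0
    apply hm1 w
    rw [h0, pow_zero, map_one]; rfl
  obtain ⟨r, hr⟩ : ∃ r, m = r + 1 := ⟨m - 1, by omega⟩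
  have h2 := Nat.find_min hex (m := r) (by omega)
  push Not at h2
  obtain ⟨v₀, hv₀⟩ := h2
  have hcomm : ∀ s : ℕ, i * x ^ s = x ^ s * i := fun s => (show Commute i x from hix).pow_right s
  set v := ρ i v₀ with hv
  have hiv : ρ i v = v := by
    rw [hv, ← Module.End.mul_apply, ← map_mul, hii]
  have hwv : w = ρ (x ^ r) v := by
    rw [hv, ← Module.End.mul_apply, ← map_mul, ← hcomm, map_mul, Module.End.mul_apply, ← hv₀, hiw]
  have hnm : w ∉ LinearMap.range (ρ (x ^ m)) := by
    rintro ⟨u, hu⟩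
    exact hm1 u hu.symm
  obtain ⟨f₀, hf₀, hf₀'⟩ := Submodule.exists_le_ker_of_notMem hnm
  set f : V →ₗ[k] k := (f₀ w)⁻¹ • f₀ with hf
  have hfw : f w = 1 := by rw [hf, LinearMap.smul_apply, smul_eq_mul, inv_mul_cancel₀ hf₀]
  have hfm : ∀ u, f (ρ (x ^ m) u) = 0 := by
    intro u
    have : ρ (x ^ m) u ∈ LinearMap.ker f₀ := hf₀' ⟨u, rfl⟩
    rw [LinearMap.mem_ker] at this
    rw [hf, LinearMap.smul_apply, this, smul_zero]
  let π : Module.End k V := ∑ s ∈ Finset.range (r + 1),
    (f.comp (ρ (x ^ (r - s)))).smulRight (ρ (x ^ s) v)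
  have hπ : ∀ u, π u = ∑ s ∈ Finset.range (r + 1), f (ρ (x ^ (r - s)) u) • ρ (x ^ s) v := by
    intro u
    show (∑ s ∈ Finset.range (r + 1), (f.comp (ρ (x ^ (r - s)))).smulRight (ρ (x ^ s) v)) u = _
    rw [LinearMap.sum_apply]
    rfl
  refine ⟨π, f, hfw, fun u => ?_, fun u => ?_, fun u hu => ?_⟩
  · rw [hπ, hπ, map_sum, Finset.sum_range_succ', Finset.sum_range_succ]
    have e1 : f (ρ (x ^ (r - 0)) (ρ x u)) • ρ (x ^ 0) v = 0 := by
      rw [← Module.End.mul_apply, ← map_mul, ← pow_succ, Nat.sub_zero, ← hr, hfm, zero_smul]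
    have e2 : ρ x (f (ρ (x ^ (r - r)) u) • ρ (x ^ r) v) = 0 := by
      rw [map_smul, ← hwv, hxw, smul_zero]
    rw [e1, e2, add_zero, add_zero]
    refine Finset.sum_congr rfl fun s hs => ?_
    rw [Finset.mem_range] at hs
    rw [map_smul, ← Module.End.mul_apply, ← map_mul, ← pow_succ,
      ← Module.End.mul_apply (ρ x), ← map_mul, ← pow_succ', show r - (s + 1) + 1 = r - s by omega]
  · rw [hπ, map_sum]
    refine Finset.sum_congr rfl fun s _ => ?_
    rw [map_smul]
    congr 1
    rw [← Module.End.mul_apply, ← map_mul, hcomm, map_mul, Module.End.mul_apply, hiv]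
  · rw [hπ, Finset.sum_range_succ, Finset.sum_eq_zero, zero_add, Nat.sub_self, pow_zero, map_one,
      ← hwv]
    · rfl
    · intro s hs
      rw [Finset.mem_range] at hs
      obtain ⟨j, hj⟩ : ∃ j, r - s = j + 1 := ⟨r - s - 1, by omega⟩
      rw [hj, pow_succ, map_mul, Module.End.mul_apply, hu, map_zero, map_zero, zero_smul]

/-- extension to a `C`-endomorphism -/
theorem exists_phi {C : Subgroup G} {b i x : MonoidAlgebra k G} {q : ℕ} (h : STr C b i x q)
    {w : V} (hiw : ρ i w = w) (hxw : ρ x w = 0) (hw : ∀ u, w ≠ ρ (x ^ (q - 1)) u) :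
    ∃ (φ : Module.End k V) (f : V →ₗ[k] k), f w = 1 ∧
      (∀ a, Supp C a → φ * ρ a = ρ a * φ) ∧ ρ b * φ = φ ∧
      (∀ u, ρ i u = u → ρ x u = 0 → φ u = f u • w) := by
  classical
  have hix : i * x = x * i := (comm_of_fx_supp h.zx.2 h.prim.supp).symm
  have hbb := h.blk.idem
  have hii := h.prim.idem
  have hbC := h.blk.zh
  have hbi : b * i = i := by rw [comm_of_fx_supp hbC.2 h.prim.supp, h.ib]
  obtain ⟨π, f, hf, hπx, hπi, hπw⟩ := exists_pi ρ hii hix hiw hxw hw
  obtain ⟨n, Y, X, hY, hX, hsum⟩ := h.sum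
  have hmul : ∀ (a c : MonoidAlgebra k G) (u : V), ρ (a * c) u = ρ a (ρ c u) := fun a c u => by
    rw [map_mul]; rfl
  have hπpow : ∀ (m : ℕ) u, π (ρ (x ^ m) u) = ρ (x ^ m) (π u) := by
    intro m
    induction m with
    | zero => intro u; rw [pow_zero, map_one]; rfl
    | succ m ih => intro u; rw [pow_succ, hmul, ih, hπx, ← hmul]
  have hcorner : ∀ a, Supp C a → ∀ u, ρ i u = u → π (ρ (i * a * i) u) = ρ (i * a * i) (π u) := by
    intro a ha u hu
    obtain ⟨c, hc⟩ := h.cor (i * a * i) (supp_mul (supp_mul h.prim.supp ha) h.prim.supp)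
      (cor_of hii a)
    rw [hc, map_sum, LinearMap.sum_apply, LinearMap.sum_apply, map_sum]
    refine Finset.sum_congr rfl fun m _ => ?_
    rw [map_smul, LinearMap.smul_apply, LinearMap.smul_apply, map_smul, hmul, hmul, hu, hπi,
      hπpow]
  set φ : Module.End k V := ∑ l, ρ (Y l * i) * π * ρ (i * X l) with hφ
  have hφu : ∀ u, φ u = ∑ l, ρ (Y l * i) (π (ρ (i * X l) u)) := by
    intro u
    rw [hφ, LinearMap.sum_apply]
    rfl
  have hYi : ∀ l, b * (Y l * i) = Y l * i := by
    intro l
    rw [← mul_assoc, comm_of_fx_supp hbC.2 (hY l), mul_assoc, hbi]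
  have hiX : ∀ l, i * X l * b = i * X l := by
    intro l
    rw [mul_assoc, ← comm_of_fx_supp hbC.2 (hX l), ← mul_assoc, h.ib]
  refine ⟨φ, f, hf, fun a ha => ?_, ?_, fun u hu hxu => ?_⟩
  · apply LinearMap.ext
    intro u
    rw [Module.End.mul_apply, Module.End.mul_apply, hφu, hφu]
    have hab : a * b = b * a := (comm_of_fx_supp hbC.2 ha).symm
    have e1 : ∀ l, i * X l * a = ∑ m, (i * (X l * a * Y m) * i) * (i * X m) := by
      intro l
      calc i * X l * a = i * X l * b * a * b := by
            rw [mul_assoc _ b a, ← hab, ← mul_assoc, mul_assoc _ b b, hbb, mul_assoc _ a b, hab,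
              ← mul_assoc, hiX]
        _ = i * X l * a * b := by rw [hiX]
        _ = ∑ m, i * X l * a * (Y m * i * X m) := by rw [← Finset.mul_sum, hsum]
        _ = _ := by
          refine Finset.sum_congr rfl fun m _ => ?_
          calc i * X l * a * (Y m * i * X m) = i * X l * a * Y m * i * X m := by
                simp only [mul_assoc]
            _ = i * X l * a * Y m * (i * i) * X m := by rw [hii]
            _ = _ := by simp only [mul_assoc]
    have e2 : ∀ l, ρ (Y l * i) (π (ρ (i * X l) (ρ a u))) =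
        ∑ m, ρ (Y l * i * X l * a * (Y m * i)) (π (ρ (i * X m) u)) := by
      intro l
      rw [← hmul, e1, map_sum, LinearMap.sum_apply, map_sum, map_sum]
      refine Finset.sum_congr rfl fun m _ => ?_
      have h3 : ρ i (ρ (i * X m) u) = ρ (i * X m) u := by rw [← hmul, ← mul_assoc, hii]
      rw [hmul (i * (X l * a * Y m) * i) (i * X m) u,
        hcorner _ (supp_mul (supp_mul (hX l) ha) (hY m)) _ h3, ← hmul]
      congr 2
      calc Y l * i * (i * (X l * a * Y m) * i) = Y l * (i * i) * X l * a * Y m * i := by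
            simp only [mul_assoc]
        _ = _ := by rw [hii]; simp only [mul_assoc]
    rw [Finset.sum_congr rfl fun l _ => e2 l, Finset.sum_comm, map_sum]
    refine Finset.sum_congr rfl fun m _ => ?_
    rw [← LinearMap.sum_apply, ← map_sum, ← hmul]
    congr 2
    rw [← Finset.sum_mul, ← Finset.sum_mul, hsum, ← hab, mul_assoc, hYi]
  · apply LinearMap.ext
    intro u
    rw [Module.End.mul_apply, hφu, map_sum]
    refine Finset.sum_congr rfl fun l _ => ?_
    rw [← hmul, hYi]
  · rw [← hπw u hxu, hφu]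
    have e3 : ∀ l, ρ (Y l * i) (π (ρ (i * X l) u)) = ρ (Y l * i * X l) (π u) := by
      intro l
      have h3 : ρ (i * X l) u = ρ (i * X l * i) u := by rw [hmul _ i, hu]
      rw [h3, hcorner _ (hX l) u hu, ← hmul]
      have h4 : Y l * i * (i * X l * i) = Y l * i * X l * i := by
        calc Y l * i * (i * X l * i) = Y l * (i * i) * X l * i := by simp only [mul_assoc]
          _ = _ := by rw [hii]
      rw [h4, hmul _ i, hπi]
    rw [Finset.sum_congr rfl fun l _ => e3 l, ← LinearMap.sum_apply, ← map_sum, hsum,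
      ← hπi u, ← hmul, hbi]

end CfsgLib.Star
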