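import Mathlib
import Cfsg.Agent.EqBase
import Cfsg.Agent.LibStar48

/-!
# Star construction, XLIX: restriction of simple modules (helper18)
-/

set_option autoImplicit false
set_option linter.unusedSectionVars false
set_option linter.style.haveILetI false
set_option linter.unusedSimpArgs false
set_option linter.unusedVariables false

namespace CfsgLib.Star

open CfsgLib.BrP CfsgLib.Points

variable {k : Type*} [Field k] {G : Type*} [Group G] [Fintype G]

theorem sg_conj (y : G) (a : MonoidAlgebra k G) : sg k y * a * sg k y⁻¹ = cj y a := by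
  apply ext'
  intro g
  rw [cj_coeff, mul_sg_coeff, sg_mul_coeff, inv_inv, mul_assoc]

theorem sg_comm_of_fx {D : Subgroup G} {a : MonoidAlgebra k G} (ha : Fx D a) {d : G} (hd : d ∈ D) :
    sg k d * a = a * sg k d := by
  have h1 := sg_conj d a
  rw [fx_iff.1 ha d hd] at h1
  calc sg k d * a = sg k d * a * sg k d⁻¹ * sg k d := by
        rw [mul_assoc _ (sg k d⁻¹), sg_mul, inv_mul_cancel, sg_one, mul_one]
    _ = _ := by rw [h1]

open Classical in
/-- the configuration of a cyclic defect group -/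
structure Cfg (C N D : Subgroup G) (b i x : MonoidAlgebra k G) (q : ℕ) (t : G) (e : ℕ)
    (g g' : MonoidAlgebra k G) : Prop where
  str : STr C b i x q
  DC : D ≤ C
  CN : C ≤ N
  nrm : ∀ y ∈ N, ∀ c ∈ C, y * c * y⁻¹ ∈ C
  free : ∀ y, y ∉ N → ∀ d ∈ D, y⁻¹ * d * y ∈ D → d = 1
  orth : ∀ y ∈ N, cj y b ≠ b → cj y b * b = 0
  tN : t ∈ N
  tb : cj t b = b
  cov : ∀ y ∈ N, cj y b = b → ∃ j < e, (t ^ j)⁻¹ * y ∈ C
  uni : ∀ j < e, ∀ j' < e, (t ^ j)⁻¹ * t ^ j' ∈ C → j = j'
  tr : ∃ b', Supp C b' ∧ Fx D b' ∧ (∑ s : G ⧸ D, if s.out ∈ C then cj s.out b' else 0) = b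
  e0 : (e : k) ≠ 0
  ig : i * g = g
  gi : g * i = g
  ig' : i * g' = g'
  gi' : g' * i = g'
  gg : g * g' = i
  gg' : g' * g = i
  gC : ∀ j : ℕ, Supp C (g ^ j * i * sg k (t ^ j)⁻¹)
  gC' : ∀ j : ℕ, Supp C (sg k (t ^ j) * (i * g' ^ j))
  gx : ∃ m, Supp C m ∧ g * x * g' = x * m
  gx' : ∃ m, Supp C m ∧ g' * x * g = x * m

variable {C N D : Subgroup G} {b i x : MonoidAlgebra k G} {q : ℕ} {t : G} {e : ℕ}
  {g g' : MonoidAlgebra k G}

theorem Cfg.tpow (h : Cfg C N D b i x q t e g g') (j : ℕ) : t ^ j ∈ N ∧ cj (t ^ j) b = b := by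
  induction j with
  | zero => rw [pow_zero]; exact ⟨N.one_mem, cj_one_left b⟩
  | succ j ih =>
    rw [pow_succ]
    exact ⟨N.mul_mem ih.1 h.tN, by rw [← cj_cj, h.tb, ih.2]⟩

theorem Cfg.hx (h : Cfg C N D b i x q t e g g') {a : MonoidAlgebra k G} (ha : Supp C a) :
    x * a = a * x := comm_of_fx_supp h.str.zx.2 ha

theorem Cfg.xg' (h : Cfg C N D b i x q t e g g') :
    ∃ m : MonoidAlgebra k G, x * g' = g' * (m * x) := by
  obtain ⟨m, hm, h1⟩ := h.gx
  refine ⟨m, ?_⟩
  have hxi := h.hx h.str.prim.supp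
  calc x * g' = x * (i * g') := by rw [h.ig']
    _ = i * (x * g') := by rw [← mul_assoc, hxi, mul_assoc]
    _ = g' * (g * x * g') := by
      conv_lhs => rw [← h.gg']
      simp only [mul_assoc]
    _ = g' * (m * x) := by rw [h1, h.hx hm]

theorem Cfg.xg (h : Cfg C N D b i x q t e g g') :
    ∃ m : MonoidAlgebra k G, x * g = g * (m * x) := by
  obtain ⟨m, hm, h1⟩ := h.gx'
  refine ⟨m, ?_⟩
  have hxi := h.hx h.str.prim.supp
  calc x * g = x * (i * g) := by rw [h.ig]
    _ = i * (x * g) := by rw [← mul_assoc, hxi, mul_assoc]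
    _ = g * (g' * x * g) := by
      conv_lhs => rw [← h.gg]
      simp only [mul_assoc]
    _ = g * (m * x) := by rw [h1, h.hx hm]

variable {V : Type*} [AddCommGroup V] [Module k V] [FiniteDimensional k V]
variable (ρ : MonoidAlgebra k G →ₐ[k] Module.End k V)

/-- **restriction of simple modules** -/
theorem partB (h : Cfg C N D b i x q t e g g')
    (hsch : ∀ Φ : Module.End k V, (∀ a, Φ * ρ a = ρ a * Φ) → ∃ l : k, ∀ v, Φ v = l • v)
    {w : V} {γ : k} (hiw : ρ i w = w) (hxw : ρ x w = 0) (hgw : ρ g w = γ • w)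
    (hw : ∀ u, w ≠ ρ (x ^ (q - 1)) u) {w' : V} (hiw' : ρ i w' = w') (hxw' : ρ x w' = 0) :
    ∃ (c : k) (u : V), w' = c • w + ρ (x ^ (q - 1)) u := by
  classical
  have hmul : ∀ (a c : MonoidAlgebra k G) (u : V), ρ (a * c) u = ρ a (ρ c u) := fun a c u => by
    rw [map_mul]; rfl
  obtain ⟨φ, f, hf, hφC, hbφ, hφw⟩ := exists_phi ρ h.str hiw hxw hw
  obtain ⟨b', hb'C, hb'D, hb'⟩ := h.tr
  have hbC := h.str.blk.zh
  have hφb : φ * ρ b = φ := by rw [hφC b hbC.1, hbφ]
  set φ₁ : Module.End k V := φ * ρ b' with hφ₁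
  set F : G → Module.End k V := fun y => ρ (sg k y) * φ₁ * ρ (sg k y⁻¹) with hF
  have hsgC : ∀ d ∈ C, φ * ρ (sg k d) = ρ (sg k d) * φ := fun d hd => hφC _ (supp_sg hd)
  have hone : ∀ s : G, ρ (sg k s) * ρ (sg k s⁻¹) = 1 := fun s => by
    rw [← map_mul, sg_mul, mul_inv_cancel, sg_one, map_one]
  have hone' : ∀ s : G, ρ (sg k s⁻¹) * ρ (sg k s) = 1 := fun s => by
    rw [← map_mul, sg_mul, inv_mul_cancel, sg_one, map_one]
  have hFC : ∀ y ∈ C, F y = φ * ρ (cj y b') := by
    intro y hy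
    show ρ (sg k y) * (φ * ρ b') * ρ (sg k y⁻¹) = _
    rw [← sg_conj, map_mul, map_mul, ← mul_assoc, ← hsgC y hy]
    simp only [mul_assoc]
  have hFs : ∀ s y : G, F (s * y) = ρ (sg k s) * F y * ρ (sg k s⁻¹) := by
    intro s y
    show ρ (sg k (s * y)) * φ₁ * ρ (sg k (s * y)⁻¹) = ρ (sg k s) * (ρ (sg k y) * φ₁ *
      ρ (sg k y⁻¹)) * ρ (sg k s⁻¹)
    rw [mul_inv_rev, ← sg_mul, ← sg_mul, map_mul, map_mul]
    simp only [mul_assoc]
  have hFD : ∀ y, ∀ d ∈ D, F (y * d) = F y := by
    intro y d hd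
    rw [hFs, hFC d (h.DC hd), fx_iff.1 hb'D d hd]
  -- the endomorphism
  set Φ : Module.End k V := ∑ s : G ⧸ D, F s.out with hΦ
  have hΦs : ∀ s : G, ρ (sg k s) * Φ * ρ (sg k s⁻¹) = Φ := by
    intro s
    rw [hΦ, Finset.mul_sum, Finset.sum_mul, ← qs_trans hFD s]
    exact Finset.sum_congr rfl fun r _ => (hFs s r.out).symm
  have hΦc : ∀ a, Φ * ρ a = ρ a * Φ := by
    intro a
    rw [eq_sum_sg a, map_sum, Finset.mul_sum, Finset.sum_mul]
    refine Finset.sum_congr rfl fun s _ => ?_
    rw [map_smul, mul_smul_comm, smul_mul_assoc]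
    congr 1
    conv_lhs => rw [← hΦs s]
    rw [mul_assoc, hone', mul_one]
  obtain ⟨l, hl⟩ := hsch Φ hΦc
  -- the `C`-part
  have hsumC : (∑ s : G ⧸ D, if s.out ∈ C then F s.out else 0) = φ := by
    have e1 : ∀ s : G ⧸ D, (if s.out ∈ C then F s.out else 0) =
        φ * ρ (if s.out ∈ C then cj s.out b' else 0) := by
      intro s
      split_ifs with hs
      · exact hFC _ hs
      · rw [map_zero, mul_zero]
    rw [Finset.sum_congr rfl fun s _ => e1 s, ← Finset.mul_sum, ← map_sum, hb', hφb]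
  -- the part on `t ^ j C`
  have hsumj : ∀ j : ℕ, (∑ s : G ⧸ D, if (t ^ j)⁻¹ * s.out ∈ C then F s.out else 0) =
      ρ (sg k (t ^ j)) * φ * ρ (sg k (t ^ j)⁻¹) := by
    intro j
    have hFj : ∀ y, ∀ d ∈ D, (if (t ^ j)⁻¹ * (y * d) ∈ C then F (y * d) else 0) =
        (if (t ^ j)⁻¹ * y ∈ C then F y else 0) := by
      intro y d hd
      have e1 : (t ^ j)⁻¹ * (y * d) ∈ C ↔ (t ^ j)⁻¹ * y ∈ C := by
        rw [← mul_assoc]
        constructor
        · intro h1
          have := C.mul_mem h1 (C.inv_mem (h.DC hd))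
          rwa [mul_inv_cancel_right] at this
        · intro h1; exact C.mul_mem h1 (h.DC hd)
      rw [hFD y d hd]
      simp only [e1]
    have hq := qs_trans (F := fun y => if (t ^ j)⁻¹ * y ∈ C then F y else 0) hFj (t ^ j)
    beta_reduce at hq
    rw [← hq]
    simp only [inv_mul_cancel_left]
    rw [← hsumC, Finset.mul_sum, Finset.sum_mul]
    refine Finset.sum_congr rfl fun s _ => ?_
    split_ifs
    · exact hFs _ _
    · rw [mul_zero, zero_mul]
  -- evaluation of the `t ^ j C`-part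
  have hgpow : ∀ j : ℕ, ρ (g ^ j) w = γ ^ j • w := by
    intro j
    induction j with
    | zero => rw [pow_zero, pow_zero, one_smul, map_one]; rfl
    | succ j ih => rw [pow_succ, hmul, hgw, map_smul, ih, smul_smul, pow_succ, mul_comm]
  have hw'j : ∀ j : ℕ, ∀ v : V, ρ i v = v → ρ x v = 0 →
      ρ i (ρ (g' ^ j) v) = ρ (g' ^ j) v ∧ ρ x (ρ (g' ^ j) v) = 0 := by
    intro j
    induction j with
    | zero => intro v h1 h2; rw [pow_zero, map_one]; exact ⟨h1, h2⟩
    | succ j ih =>
      intro v h1 h2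
      rw [pow_succ, hmul]
      obtain ⟨m, hm⟩ := h.xg'
      exact ih (ρ g' v) (by rw [← hmul, h.ig']) (by rw [← hmul, hm, hmul, hmul, h2, map_zero, map_zero])
  have hggj : ∀ j : ℕ, g ^ j * i * (i * g' ^ j) = i := by
    intro j
    have hii := h.str.prim.idem
    induction j with
    | zero => rw [pow_zero, pow_zero, one_mul, mul_one, hii]
    | succ j ih =>
      calc g ^ (j + 1) * i * (i * g' ^ (j + 1)) = g ^ (j + 1) * (i * i) * g' ^ (j + 1) := by
            simp only [mul_assoc]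
        _ = g ^ j * (g * i * g') * g' ^ j := by rw [hii, pow_succ, pow_succ']; simp only [mul_assoc]
        _ = g ^ j * i * (i * g' ^ j) := by
            rw [h.gi, h.gg]
            calc g ^ j * i * g' ^ j = g ^ j * (i * i) * g' ^ j := by rw [hii]
              _ = _ := by simp only [mul_assoc]
        _ = i := ih
  have hevj : ∀ (j : ℕ) (v : V), ρ i v = v → ρ x v = 0 →
      (ρ (sg k (t ^ j)) * φ * ρ (sg k (t ^ j)⁻¹)) v = (f (ρ (g' ^ j) v) * γ ^ j) • w := by
    intro j v hv1 hv2
    set ψ := ρ (sg k (t ^ j)) * φ * ρ (sg k (t ^ j)⁻¹) with hψ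
    have hψC : ∀ a, Supp C a → ψ * ρ a = ρ a * ψ := by
      intro a ha
      have h1 : Supp C (sg k (t ^ j)⁻¹ * a * sg k (t ^ j)) := by
        have h2 := sg_conj (t ^ j)⁻¹ a
        rw [inv_inv] at h2
        rw [h2]
        intro y hy
        rw [cj_coeff]
        apply ha
        intro h3
        apply hy
        have := h.nrm _ (N.inv_mem (h.tpow j).1) _ h3
        simpa [mul_assoc] using this
      have h2 := hφC _ h1
      calc ψ * ρ a = ρ (sg k (t ^ j)) * (φ * ρ (sg k (t ^ j)⁻¹ * a * sg k (t ^ j))) *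
            ρ (sg k (t ^ j)⁻¹) := by
            rw [map_mul, map_mul, hψ]
            simp only [mul_assoc]
            rw [hone, mul_one]
        _ = ρ (sg k (t ^ j)) * (ρ (sg k (t ^ j)⁻¹ * a * sg k (t ^ j)) * φ) *
            ρ (sg k (t ^ j)⁻¹) := by rw [h2]
        _ = ρ a * ψ := by
            rw [map_mul, map_mul, hψ]
            simp only [← mul_assoc]
            rw [hone, one_mul]
    have h3 : ψ * ρ i = ρ (g ^ j * i) * φ * ρ (i * g' ^ j) := by
      have e1 : ρ (g ^ j * i) = ρ (g ^ j * i * sg k (t ^ j)⁻¹) * ρ (sg k (t ^ j)) := by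
        rw [map_mul _ _ (sg k (t ^ j)⁻¹), mul_assoc, hone', mul_one]
      have e2 : ρ (i * g' ^ j) = ρ (sg k (t ^ j)⁻¹) * ρ (sg k (t ^ j) * (i * g' ^ j)) := by
        rw [map_mul _ (sg k (t ^ j)), ← mul_assoc, hone', one_mul]
      have e3 : ρ (g ^ j * i * sg k (t ^ j)⁻¹) * ρ (sg k (t ^ j) * (i * g' ^ j)) = ρ i := by
        rw [← map_mul]
        congr 1
        calc g ^ j * i * sg k (t ^ j)⁻¹ * (sg k (t ^ j) * (i * g' ^ j)) =
            g ^ j * i * (sg k (t ^ j)⁻¹ * sg k (t ^ j)) * (i * g' ^ j) := by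
              simp only [mul_assoc]
          _ = i := by rw [sg_mul, inv_mul_cancel, sg_one, mul_one, hggj]
      calc ψ * ρ i = ψ * (ρ (g ^ j * i * sg k (t ^ j)⁻¹) * ρ (sg k (t ^ j) * (i * g' ^ j))) := by
            rw [e3]
        _ = ρ (g ^ j * i * sg k (t ^ j)⁻¹) * ψ * ρ (sg k (t ^ j) * (i * g' ^ j)) := by
            rw [← mul_assoc, hψC _ (h.gC j)]
        _ = ρ (g ^ j * i) * φ * ρ (i * g' ^ j) := by
            rw [e1, e2, hψ]; simp only [mul_assoc]
    have h4 : ψ v = (ψ * ρ i) v := by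
      show ψ v = ψ (ρ i v)
      rw [hv1]
    obtain ⟨h5, h6⟩ := hw'j j v hv1 hv2
    rw [h4, h3, Module.End.mul_apply, Module.End.mul_apply, hmul i, h5, hφw _ h5 h6, map_smul,
      hmul, hiw, hgpow, smul_smul]
  -- the free part
  have hfree : ∀ v : V, ρ b v = v → ρ x v = 0 → ∃ u,
      ρ b ((∑ s : G ⧸ D, if s.out ∉ N then F s.out else 0) v) = ρ (x ^ (q - 1)) u := by
    intro v hbv hxv
    set S := (∑ s : G ⧸ D, if s.out ∉ N then F s.out else 0) with hS
    haveI := Fintype.ofFinite D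
    have hDN : D ≤ N := h.DC.trans h.CN
    have hout : ∀ (d : D) (s : G ⧸ D), ∃ d' ∈ D, (d • s).out = (d : G) * s.out * d' := by
      intro d s
      have e1 : d • s = (((d : G) * s.out : G) : G ⧸ D) := by
        conv_lhs => rw [← Quotient.out_eq' s]
        rfl
      have e2 : (((d • s).out : G) : G ⧸ D) = ((d : G) * s.out : G) := by
        rw [← e1]; exact Quotient.out_eq' _
      rw [eq_comm, QuotientGroup.eq] at e2
      exact ⟨_, e2, (mul_inv_cancel_left _ _).symm⟩
    obtain ⟨R, hR⟩ := free_sum (D := D) (fun s : G ⧸ D => s.out ∉ N) (fun d s hs => by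
        obtain ⟨d', hd', h1⟩ := hout d s
        rw [h1]
        intro h2
        apply hs
        have := N.mul_mem (N.mul_mem (N.inv_mem (hDN d.2)) h2) (N.inv_mem (hDN hd'))
        simpa [mul_assoc] using this) (fun d s hs h0 => by
        obtain ⟨d', hd', h1⟩ := hout d s
        rw [h0] at h1
        apply Subtype.ext
        apply h.free s.out hs d d.2
        have : s.out⁻¹ * d * s.out = d'⁻¹ := by
          rw [eq_inv_iff_mul_eq_one]
          calc s.out⁻¹ * d * s.out * d' = s.out⁻¹ * (d * s.out * d') := by group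
            _ = 1 := by rw [← h1, inv_mul_cancel]
        rw [this]
        exact D.inv_mem hd') (fun s => F s.out)
    set ψ : Module.End k V := ∑ s ∈ R, F s.out with hψ
    have hSψ : S = ∑ d : D, ρ (sg k (d : G)) * ψ * ρ (sg k (d : G)⁻¹) := by
      have hSR : S = ∑ d : D, ∑ s ∈ R, F (d • s).out := by
        rw [hS, ← hR]
        exact Finset.sum_congr rfl fun s _ => by congr
      rw [hSR]
      refine Finset.sum_congr rfl fun d _ => ?_
      rw [hψ, Finset.mul_sum, Finset.sum_mul]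
      refine Finset.sum_congr rfl fun s _ => ?_
      obtain ⟨d', hd', h1⟩ := hout d s
      rw [h1, hFD _ d' hd', hFs]
    have hSs : ∀ s ∈ C, ρ (sg k s⁻¹) * S = S * ρ (sg k s⁻¹) := by
      intro s hs
      have hFN : ∀ y, ∀ d ∈ D, (if y * d ∉ N then F (y * d) else 0) =
          (if y ∉ N then F y else 0) := by
        intro y d hd
        have e1 : y * d ∈ N ↔ y ∈ N := by
          constructor
          · intro h1
            have := N.mul_mem h1 (N.inv_mem (hDN hd))
            rwa [mul_inv_cancel_right] at this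
          · intro h1; exact N.mul_mem h1 (hDN hd)
        rw [hFD y d hd]
        simp only [e1]
      have h1 : ρ (sg k s) * S * ρ (sg k s⁻¹) = S := by
        have hq := qs_trans (F := fun y => if y ∉ N then F y else 0) hFN s
        beta_reduce at hq
        rw [hS, Finset.mul_sum, Finset.sum_mul]
        conv_rhs => rw [← hq]
        refine Finset.sum_congr rfl fun r _ => ?_
        have e1 : s * r.out ∈ N ↔ r.out ∈ N := by
          constructor
          · intro h1
            have := N.mul_mem (N.inv_mem (h.CN hs)) h1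
            rwa [inv_mul_cancel_left] at this
          · intro h1; exact N.mul_mem (h.CN hs) h1
        by_cases hr : r.out ∈ N
        · rw [if_neg (not_not.2 hr), if_neg (not_not.2 (e1.2 hr)), mul_zero, zero_mul]
        · rw [if_pos hr, if_pos (fun h => hr (e1.1 h))]
          exact (hFs _ _).symm
      conv_lhs => rw [← h1]
      rw [← mul_assoc, ← mul_assoc, hone', one_mul]
    obtain ⟨u, hu⟩ := casimir ρ (C := C) (n := q - 1) hbC.1 h.str.zx.1 h.str.ker
      (ρ b' * ψ) hbv hxv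
    refine ⟨u, ?_⟩
    rw [← hu, qs_sum (D := D)]
    have e2 : ∀ (s : G ⧸ D) (d : D), s.out * (d : G) ∈ C ↔ s.out ∈ C := by
      intro s d
      constructor
      · intro h1
        have := C.mul_mem h1 (C.inv_mem (h.DC d.2))
        rwa [mul_inv_cancel_right] at this
      · intro h1; exact C.mul_mem h1 (h.DC d.2)
    simp only [e2]
    rw [← hb', map_sum, LinearMap.sum_apply]
    refine Finset.sum_congr rfl fun s _ => ?_
    split_ifs with hs
    · rw [← sg_conj, hmul, hmul]
      have e3 : ρ (sg k s.out⁻¹) (S v) = S (ρ (sg k s.out⁻¹) v) := by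
        rw [← Module.End.mul_apply, hSs _ hs, Module.End.mul_apply]
      rw [e3]
      have e4 : S (ρ (sg k s.out⁻¹) v) = ∑ d : D, ρ (sg k (d : G))
          (ψ (ρ (sg k (d : G)⁻¹) (ρ (sg k s.out⁻¹) v))) := by
        rw [hSψ, LinearMap.sum_apply]
        rfl
      rw [e4, map_sum, map_sum]
      refine Finset.sum_congr rfl fun d _ => ?_
      rw [Module.End.mul_apply, mul_inv_rev, ← rho_sg ρ (d : G)⁻¹, ← rho_sg ρ s.out d,
        ← hmul b', ← sg_comm_of_fx hb'D d.2, hmul]
    · rw [map_zero, LinearMap.zero_apply, Finset.sum_const_zero]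
  -- assemble
  have hbi : b * i = i := by rw [comm_of_fx_supp hbC.2 h.str.prim.supp, h.str.ib]
  have hbw : ∀ v, ρ i v = v → ρ b v = v := by
    intro v hv
    rw [← hv, ← hmul, hbi]
  have key : ∀ v, ρ i v = v → ρ x v = 0 → ∃ u,
      l • v = (∑ j ∈ Finset.range e, f (ρ (g' ^ j) v) * γ ^ j) • w + ρ (x ^ (q - 1)) u := by
    intro v hv1 hv2
    obtain ⟨u, hu⟩ := hfree v (hbw v hv1) hv2
    refine ⟨u, ?_⟩
    rw [← hu]
    have e1 : ∀ s : G ⧸ D, F s.out = (∑ j ∈ Finset.range e,
        if (t ^ j)⁻¹ * s.out ∈ C then F s.out else 0) +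
        (if s.out ∉ N then F s.out else 0) +
        (if s.out ∈ N ∧ cj s.out b ≠ b then F s.out else 0) := by
      intro s
      by_cases hN : s.out ∈ N
      · rw [if_neg (not_not.2 hN), add_zero]
        by_cases hs : cj s.out b = b
        · rw [if_neg (fun h' => h'.2 hs), add_zero]
          obtain ⟨j, hj, hjC⟩ := h.cov _ hN hs
          rw [Finset.sum_eq_single j, if_pos hjC]
          · intro j' hj' hne
            rw [if_neg]
            intro h1
            apply hne
            apply h.uni j' (Finset.mem_range.1 hj') j hj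
            have := C.mul_mem h1 (C.inv_mem hjC)
            simpa [mul_assoc] using this
          · intro h'; exact absurd (Finset.mem_range.2 hj) h'
        · rw [if_pos ⟨hN, hs⟩, Finset.sum_eq_zero, zero_add]
          intro j hj
          rw [if_neg]
          intro h1
          apply hs
          have h2 : s.out = t ^ j * ((t ^ j)⁻¹ * s.out) := (mul_inv_cancel_left _ _).symm
          rw [h2, ← cj_cj, fx_iff.1 hbC.2 _ h1, (h.tpow j).2]
      · rw [if_pos hN, if_neg (fun h' => hN h'.1), add_zero, Finset.sum_eq_zero, zero_add]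
        intro j hj
        rw [if_neg]
        intro h1
        apply hN
        have := N.mul_mem (h.tpow j).1 (h.CN h1)
        rwa [mul_inv_cancel_left] at this
    have e2 : ρ b (Φ v) = ρ b (∑ j ∈ Finset.range e,
        (ρ (sg k (t ^ j)) * φ * ρ (sg k (t ^ j)⁻¹)) v) +
        ρ b ((∑ s : G ⧸ D, if s.out ∉ N then F s.out else 0) v) := by
      rw [hΦ, Finset.sum_congr rfl fun s _ => e1 s, Finset.sum_add_distrib,
        Finset.sum_add_distrib, LinearMap.add_apply, LinearMap.add_apply, map_add, map_add,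
        Finset.sum_comm, Finset.sum_congr rfl fun j _ => hsumj j, LinearMap.sum_apply]
      have e3 : ρ b ((∑ s : G ⧸ D, if s.out ∈ N ∧ cj s.out b ≠ b then F s.out else 0) v) = 0 := by
        rw [LinearMap.sum_apply, map_sum]
        refine Finset.sum_eq_zero fun s _ => ?_
        split_ifs with hs
        · show ρ b ((ρ (sg k s.out) * (φ * ρ b') * ρ (sg k s.out⁻¹)) v) = 0
          have hsN := N.inv_mem hs.1
          have h5 : cj s.out⁻¹ b ≠ b := fun h6 => hs.2 (by
            conv_lhs => rw [← h6]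
            rw [cj_cj_inv])
          have h6 := h.orth _ hsN h5
          have h7 : ρ b * ρ (sg k s.out) * φ = 0 := by
            have h8 : b * sg k s.out = sg k s.out * cj s.out⁻¹ b := by
              rw [← sg_conj, inv_inv, ← mul_assoc, ← mul_assoc, sg_mul, mul_inv_cancel, sg_one,
                one_mul]
            rw [← map_mul, h8, map_mul, mul_assoc]
            conv_lhs => rw [← hbφ]
            rw [← mul_assoc (ρ (cj s.out⁻¹ b)), ← map_mul, h6, map_zero, zero_mul, mul_zero]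
          have h8 : ρ b ((ρ (sg k s.out) * (φ * ρ b') * ρ (sg k s.out⁻¹)) v) =
              (ρ b * ρ (sg k s.out) * φ * ρ b' * ρ (sg k s.out⁻¹)) v := by
            simp only [Module.End.mul_apply]
          rw [h8, h7, zero_mul, zero_mul, LinearMap.zero_apply]
        · rw [LinearMap.zero_apply, map_zero]
      rw [e3, add_zero]
    rw [hl, map_smul, hbw v hv1] at e2
    rw [e2]
    congr 1
    rw [Finset.sum_congr rfl fun j _ => hevj j v hv1 hv2, ← Finset.sum_smul, map_smul,
      hbw w hiw]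
  -- the scalar is `e`
  have hw0 : w ≠ 0 := fun h0 => hw 0 (by rw [h0, map_zero])
  have hγ0 : γ ≠ 0 := by
    intro h0
    rw [h0, zero_smul] at hgw
    apply hw0
    rw [← hiw, ← h.gg', hmul, hgw, map_zero]
  have hg'w : ∀ j : ℕ, ρ (g' ^ j) w = (γ⁻¹) ^ j • w := by
    have h1 : ρ g' w = γ⁻¹ • w := by
      have h2 : w = γ • ρ g' w := by
        conv_lhs => rw [← hiw, ← h.gg', hmul, hgw, map_smul]
      conv_rhs => rw [h2]
      rw [smul_smul, inv_mul_cancel₀ hγ0, one_smul]
    intro j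
    induction j with
    | zero => rw [pow_zero, pow_zero, one_smul, map_one]; rfl
    | succ j ih => rw [pow_succ, hmul, h1, map_smul, ih, smul_smul, pow_succ, mul_comm]
  obtain ⟨u₁, hu₁⟩ := key w hiw hxw
  have hsum : ∑ j ∈ Finset.range e, f (ρ (g' ^ j) w) * γ ^ j = (e : k) := by
    have : ∀ j ∈ Finset.range e, f (ρ (g' ^ j) w) * γ ^ j = 1 := by
      intro j _
      rw [hg'w, map_smul, hf, smul_eq_mul, mul_one, ← mul_pow, inv_mul_cancel₀ hγ0, one_pow]
    rw [Finset.sum_congr rfl this, Finset.sum_const, Finset.card_range, nsmul_eq_mul, mul_one]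
  rw [hsum] at hu₁
  have hle : l = (e : k) := by
    by_contra hne
    have h1 : (l - e) • w = ρ (x ^ (q - 1)) u₁ := by
      rw [sub_smul, hu₁, add_sub_cancel_left]
    apply hw ((l - e)⁻¹ • u₁)
    rw [map_smul, ← h1, smul_smul, inv_mul_cancel₀ (sub_ne_zero.2 hne), one_smul]
  obtain ⟨u₂, hu₂⟩ := key w' hiw' hxw'
  have hl0 : l ≠ 0 := by rw [hle]; exact h.e0
  refine ⟨l⁻¹ * ∑ j ∈ Finset.range e, f (ρ (g' ^ j) w') * γ ^ j, l⁻¹ • u₂, ?_⟩
  rw [map_smul, mul_smul, ← smul_add, ← hu₂, smul_smul, inv_mul_cancel₀ hl0, one_smul]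

end CfsgLib.Star
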