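import Mathlib
import Cfsg.Agent.EqBase
import Cfsg.Agent.LibStar49

/-!
# Star construction, L: the functionals attached to the eigenvalues (helper18)
-/

set_option autoImplicit false
set_option linter.unusedSectionVars false
set_option linter.style.haveILetI false
set_option linter.unusedSimpArgs false
set_option linter.unusedVariables false

namespace CfsgLib.Star

open CfsgLib.BrP CfsgLib.Points

variable {k : Type*} [Field k] {G : Type*} [Group G] [Fintype G]
variable {C N D : Subgroup G} {b i x : MonoidAlgebra k G} {q : ℕ} {t : G} {e : ℕ}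
  {g g' : MonoidAlgebra k G}

theorem l1_mul (a m : MonoidAlgebra k G) : l1 k G (a * m) = ∑ y : G, a.coeff y * m.coeff y⁻¹ := by
  show (a * m).coeff 1 = _
  rw [mul_coeff]
  simp only [mul_one]

/-- corner elements -/
theorem STr.cor0 (h : STr C b i x q) (hq : 1 < q) {a : MonoidAlgebra k G} (ha : Supp C a)
    (hc : Cor i a) : ∃ (c : k) (m : MonoidAlgebra k G), Supp C m ∧ a = c • i + x * m := by
  obtain ⟨c, hc⟩ := h.cor a ha hc
  obtain ⟨r, rfl⟩ : ∃ r, q = r + 1 := ⟨q - 1, by omega⟩
  rw [Finset.sum_range_succ', pow_zero, one_mul, add_comm] at hc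
  refine ⟨c 0, ∑ n ∈ Finset.range r, c (n + 1) • (x ^ n * i), ?_, ?_⟩
  · exact supp_sum _ _ fun n _ => supp_smul _ (supp_mul (zh_pow h.zx n).1 h.prim.supp)
  · rw [hc, Finset.mul_sum]
    congr 1
    refine Finset.sum_congr rfl fun n _ => ?_
    rw [mul_smul_comm, ← mul_assoc, ← pow_succ']

theorem STr.hx (h : STr C b i x q) {a : MonoidAlgebra k G} (ha : Supp C a) :
    x * a = a * x := comm_of_fx_supp h.zx.2 ha

theorem STr.hxn (h : STr C b i x q) (n : ℕ) {a : MonoidAlgebra k G} (ha : Supp C a) :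
    x ^ n * a = a * x ^ n := comm_of_fx_supp (zh_pow h.zx n).2 ha

theorem STr.xtop (h : STr C b i x q) (hq : 1 < q) (m : MonoidAlgebra k G) :
    x ^ (q - 1) * (x * m) = 0 := by
  rw [← mul_assoc, ← pow_succ, show q - 1 + 1 = q by omega, h.pow, zero_mul]

/-- the value of the symmetrizing form at the socle -/
theorem STr.l1_ne (h : STr C b i x q) (hq : 1 < q) : l1 k G (x ^ (q - 1) * i) ≠ 0 := by
  intro h0
  apply h.top
  have hxC : Supp C (x ^ (q - 1) * i) := supp_mul (zh_pow h.zx _).1 h.prim.supp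
  apply ext'
  intro s
  rw [zero_coeff]
  by_cases hs : s ∈ C
  · have hsC : Supp C (sg k s⁻¹) := supp_sg (C.inv_mem hs)
    have e1 : (x ^ (q - 1) * i).coeff s = l1 k G (x ^ (q - 1) * i * sg k s⁻¹) := by
      show _ = (x ^ (q - 1) * i * sg k s⁻¹).coeff 1
      rw [mul_sg_coeff, inv_inv, one_mul]
    obtain ⟨c, m, hm, hcm⟩ := h.cor0 hq (a := i * sg k s⁻¹ * i)
      (supp_mul (supp_mul h.prim.supp hsC) h.prim.supp) (cor_of h.prim.idem _)
    have e2 : l1 k G (x ^ (q - 1) * i * sg k s⁻¹) = l1 k G (x ^ (q - 1) * (i * sg k s⁻¹ * i)) := by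
      have e3 : x ^ (q - 1) * i * sg k s⁻¹ = i * (x ^ (q - 1) * (i * sg k s⁻¹)) := by
        calc x ^ (q - 1) * i * sg k s⁻¹ = x ^ (q - 1) * (i * i) * sg k s⁻¹ := by rw [h.prim.idem]
          _ = (x ^ (q - 1) * i) * (i * sg k s⁻¹) := by simp only [mul_assoc]
          _ = _ := by rw [h.hxn _ h.prim.supp, mul_assoc]
      rw [e3, l1_symm]
      simp only [mul_assoc]
    rw [e1, e2, hcm, mul_add, h.xtop hq, add_zero, mul_smul_comm, map_smul, h0, smul_zero]
  · exact hxC s hs

theorem Cfg.gxn (h : Cfg C N D b i x q t e g g') (n : ℕ) :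
    ∃ m : MonoidAlgebra k G, Supp C m ∧ g * x ^ n = x ^ n * (m * g) := by
  obtain ⟨m, hm, h1⟩ := h.gx
  have hxm := h.hx hm
  have hgx : g * x = x * (m * g) := by
    calc g * x = g * i * x := by rw [h.gi]
      _ = g * (x * i) := by rw [mul_assoc, ← h.hx h.str.prim.supp]
      _ = (g * x * g') * g := by rw [← h.gg']; simp only [mul_assoc]
      _ = _ := by rw [h1]; simp only [mul_assoc]
  induction n with
  | zero =>
    refine ⟨1, supp_one, ?_⟩
    rw [pow_zero, mul_one, one_mul, one_mul]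
  | succ n ih =>
    obtain ⟨m', hm', h2⟩ := ih
    refine ⟨m' * m, supp_mul hm' hm, ?_⟩
    have hxm' := h.hx hm'
    calc g * x ^ (n + 1) = (g * x ^ n) * x := by rw [pow_succ, mul_assoc]
      _ = x ^ n * m' * (g * x) := by rw [h2]; simp only [mul_assoc]
      _ = x ^ n * (m' * x) * (m * g) := by rw [hgx]; simp only [mul_assoc]
      _ = x ^ (n + 1) * (m' * m * g) := by rw [← hxm', pow_succ]; simp only [mul_assoc]

theorem Cfg.xg'n (h : Cfg C N D b i x q t e g g') (j : ℕ) :
    ∃ m : MonoidAlgebra k G, x * g' ^ j = m * x := by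
  induction j with
  | zero => exact ⟨1, by rw [pow_zero, mul_one, one_mul]⟩
  | succ j ih =>
    obtain ⟨m, h1⟩ := ih
    obtain ⟨m', h2⟩ := h.xg'
    refine ⟨g' * m' * m, ?_⟩
    calc x * g' ^ (j + 1) = (x * g') * g' ^ j := by rw [pow_succ', mul_assoc]
      _ = g' * m' * (x * g' ^ j) := by rw [h2]; simp only [mul_assoc]
      _ = _ := by rw [h1]; simp only [mul_assoc]

/-- **the functional attached to an eigenvalue** -/
theorem exists_eta (h : Cfg C N D b i x q t e g g') (hq : 1 < q) {Z : Subgroup G}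
    (hCZ : C = Subgroup.centralizer (Z : Set G)) (hZC : Z ≤ C)
    (htZ : ∀ z ∈ Z, t * z * t⁻¹ ∈ Z) (hzb : ∀ z ∈ Z, z ≠ 1 → (sg k z - 1) * b ≠ 0)
    {B : MonoidAlgebra k G} (hB : ZH ⊤ B) (hBB : B * B = B) (hbr : Br Z B * b = b)
    {α γ : k} (hα : α ≠ 0) (hγ : γ ^ e = α)
    (hge : ∃ a, Supp C a ∧ g ^ e = α • i + x * a) (he : 0 < e) :
    ∃ η : MonoidAlgebra k G →ₗ[k] k, (∀ n, η (n * (1 - i)) = 0) ∧ (∀ n, η (n * x) = 0) ∧
      (∀ n, η (n * (g - γ • (1 : MonoidAlgebra k G))) = 0) ∧ (∀ n, η (n * (1 - B)) = 0) ∧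
      (∀ n, η (x ^ (q - 1) * n) = 0) ∧ η 1 ≠ 0 := by
  classical
  have hBc : ∀ a, B * a = a * B := fun a => comm_of_fx_supp hB.2 (supp_top a)
  have hii := h.str.prim.idem
  have hiC := h.str.prim.supp
  obtain ⟨s, hs⟩ : ∃ s, s = x ^ (q - 1) * i := ⟨_, rfl⟩
  have hsC : Supp C s := by rw [hs]; exact supp_mul (zh_pow h.str.zx _).1 hiC
  have hsi : s * i = s := by rw [hs, mul_assoc, hii]
  have his : i * s = s := by rw [hs, ← mul_assoc, ← h.str.hxn _ hiC, mul_assoc, hii]
  have hxs : x * s = 0 := by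
    rw [hs, ← mul_assoc, ← pow_succ', show q - 1 + 1 = q by omega, h.str.pow, zero_mul]
  obtain ⟨Ω, hΩ⟩ : ∃ Ω, Ω = ∑ j ∈ Finset.range e, γ ^ j • (i * g' ^ j * s) := ⟨_, rfl⟩
  have hiΩ : i * Ω = Ω := by
    rw [hΩ, Finset.mul_sum]
    refine Finset.sum_congr rfl fun j _ => ?_
    rw [mul_smul_comm, ← mul_assoc, ← mul_assoc, hii]
  have hxΩ : x * Ω = 0 := by
    rw [hΩ, Finset.mul_sum]
    refine Finset.sum_eq_zero fun j _ => ?_
    obtain ⟨m, hm⟩ := h.xg'n j
    rw [mul_smul_comm]
    have : x * (i * g' ^ j * s) = i * (m * (x * s)) := by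
      calc x * (i * g' ^ j * s) = (x * i) * g' ^ j * s := by simp only [mul_assoc]
        _ = i * (x * g' ^ j) * s := by rw [h.hx hiC]; simp only [mul_assoc]
        _ = _ := by rw [hm]; simp only [mul_assoc]
    rw [this, hxs, mul_zero, mul_zero, smul_zero]
  have hΩx : Ω * x ^ (q - 1) = 0 := by
    rw [hΩ, Finset.sum_mul]
    refine Finset.sum_eq_zero fun j _ => ?_
    rw [smul_mul_assoc]
    have : i * g' ^ j * s * x ^ (q - 1) = 0 := by
      have h1 : s * x ^ (q - 1) = 0 := by
        rw [← h.str.hxn _ hsC, hs, ← mul_assoc, ← pow_add,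
          show q - 1 + (q - 1) = q + (q - 2) by omega, pow_add, h.str.pow, zero_mul, zero_mul]
      rw [mul_assoc, h1, mul_zero]
    rw [this, smul_zero]
  -- the eigenvalue
  have hgg'j : ∀ j : ℕ, g * (i * g' ^ (j + 1)) = i * g' ^ j := by
    intro j
    rw [← mul_assoc, h.gi, pow_succ', ← mul_assoc, h.gg]
  have hg'e : ∀ m : ℕ, g' ^ m * g ^ m * i = i := by
    intro m
    induction m with
    | zero => rw [pow_zero, pow_zero, one_mul, one_mul]
    | succ m ih =>
      calc g' ^ (m + 1) * g ^ (m + 1) * i = g' ^ m * (g' * g) * g ^ m * i := by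
            rw [pow_succ, pow_succ' g]; simp only [mul_assoc]
        _ = g' ^ m * (i * g ^ m * i) := by rw [h.gg']; simp only [mul_assoc]
        _ = g' ^ m * g ^ m * i := by
          rcases Nat.eq_zero_or_pos m with h0 | h0
          · rw [h0, pow_zero, pow_zero, mul_one, one_mul, one_mul, one_mul, hii]
          · obtain ⟨r, rfl⟩ := Nat.exists_eq_add_of_lt h0
            rw [zero_add, pow_succ' g, ← mul_assoc i, h.ig]
            simp only [mul_assoc]
        _ = i := ih
  obtain ⟨a₀, ha₀, hga₀⟩ := hge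
  have hse : s = α • (g' ^ e * s) := by
    have h1 : g ^ e * s = α • s := by
      rw [hga₀, add_mul, smul_mul_assoc, his, h.hx ha₀, mul_assoc, hxs, mul_zero, add_zero]
    calc s = g' ^ e * g ^ e * i * s := by rw [hg'e, his]
      _ = g' ^ e * (g ^ e * s) := by rw [mul_assoc _ i, his, mul_assoc]
      _ = _ := by rw [h1, mul_smul_comm]
  have hgΩ : g * Ω = γ • Ω := by
    obtain ⟨r, rfl⟩ : ∃ r, e = r + 1 := ⟨e - 1, by omega⟩
    have h1 : g * Ω = (∑ j ∈ Finset.range r, γ ^ (j + 1) • (i * g' ^ j * s)) + g * s := by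
      rw [hΩ, Finset.mul_sum, Finset.sum_range_succ']
      congr 1
      · refine Finset.sum_congr rfl fun j _ => ?_
        rw [mul_smul_comm, ← mul_assoc, hgg'j]
      · rw [pow_zero, one_smul, pow_zero, mul_one, his]
    have h2 : γ • Ω = (∑ j ∈ Finset.range r, γ ^ (j + 1) • (i * g' ^ j * s)) +
        γ ^ (r + 1) • (i * g' ^ r * s) := by
      rw [hΩ, Finset.smul_sum, Finset.sum_range_succ]
      congr 1
      · refine Finset.sum_congr rfl fun j _ => ?_
        rw [smul_smul, ← pow_succ']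
      · rw [smul_smul, ← pow_succ']
    rw [h1, h2]
    congr 1
    rw [hγ]
    conv_lhs => rw [hse]
    rw [mul_smul_comm, pow_succ', ← mul_assoc, ← mul_assoc, h.gg]
  -- supports
  have htpow : ∀ j : ℕ, ∀ z ∈ Z, t ^ j * z * (t ^ j)⁻¹ ∈ Z := by
    intro j
    induction j with
    | zero => intro z hz; simpa using hz
    | succ j ih =>
      intro z hz
      have := ih _ (htZ z hz)
      rw [pow_succ]
      have e1 : t ^ j * t * z * (t ^ j * t)⁻¹ = t ^ j * (t * z * t⁻¹) * (t ^ j)⁻¹ := by group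
      rw [e1]; exact this
  -- the value at one
  have hval : ∀ j < e, l1 k G (B * (i * g' ^ j * s)) = if j = 0 then l1 k G s else 0 := by
    intro j hj
    by_cases hj0 : j = 0
    · subst hj0
      rw [if_pos rfl, pow_zero, mul_one, his, l1_mul]
      have h1 : l1 k G s = l1 k G (Br Z B * s) := by
        have h2 : Br Z B * s = s := by
          rw [← his, ← h.str.ib]
          have hbi : i * b = b * i := (comm_of_fx_supp h.str.blk.zh.2 hiC).symm
          rw [hbi, mul_assoc b, ← mul_assoc (Br Z B), hbr]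
        rw [h2]
      rw [h1, l1_mul]
      refine Finset.sum_congr rfl fun y _ => ?_
      by_cases hy : y ∈ C
      · rw [br_coeff_of B (by rw [hCZ] at hy; exact hy)]
      · rw [hsC y⁻¹ (fun h' => hy (by have := C.inv_mem h'; rwa [inv_inv] at this)), mul_zero,
          mul_zero]
    · rw [if_neg hj0]
      obtain ⟨P, hP⟩ : ∃ P : MonoidAlgebra k G,
        P = mk fun y => if (t ^ j)⁻¹ * y ∈ C then B.coeff y else 0 := ⟨_, rfl⟩
      obtain ⟨m, hm⟩ : ∃ m, m = i * g' ^ j := ⟨_, rfl⟩
      rw [← hm]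
      have hmC : Supp C (sg k (t ^ j) * m) := by rw [hm]; exact h.gC' j
      have htj := (h.tpow j).1
      have hcj : ∀ c ∈ C, (t ^ j)⁻¹ * c * t ^ j ∈ C := by
        intro c hc
        have := h.nrm _ (N.inv_mem htj) c hc
        rwa [inv_inv] at this
      have hmsupp : ∀ a : MonoidAlgebra k G, Supp C a → ∀ y, (m * a).coeff y⁻¹ ≠ 0 →
          (t ^ j)⁻¹ * y ∈ C := by
        intro a ha y hy
        have h1 : Supp C (sg k (t ^ j) * (m * a)) := by
          rw [← mul_assoc]; exact supp_mul hmC ha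
        have h2 : (sg k (t ^ j) * (m * a)).coeff (t ^ j * y⁻¹) = (m * a).coeff y⁻¹ := by
          rw [sg_mul_coeff, inv_mul_cancel_left]
        have h3 : t ^ j * y⁻¹ ∈ C := by
          by_contra h4
          apply hy
          rw [← h2, h1 _ h4]
        have h4 := hcj _ (C.inv_mem h3)
        have e1 : (t ^ j)⁻¹ * (t ^ j * y⁻¹)⁻¹ * t ^ j = (t ^ j)⁻¹ * y := by group
        rwa [e1] at h4
      have hPB : l1 k G (B * (m * s)) = l1 k G (P * (m * s)) := by
        rw [l1_mul, l1_mul]
        refine Finset.sum_congr rfl fun y _ => ?_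
        by_cases hy : (m * s).coeff y⁻¹ = 0
        · rw [hy, mul_zero, mul_zero]
        · rw [hP, mk_coeff, if_pos (hmsupp s hsC y hy)]
      rw [hPB]
      -- the corner element
      have hPm : Supp C (P * m) := by
        have h1 : Supp C (P * sg k (t ^ j)⁻¹) := by
          intro y hy
          rw [mul_sg_coeff, inv_inv, hP, mk_coeff, if_neg]
          intro h2
          apply hy
          have := h.nrm _ htj _ h2
          have e1 : t ^ j * ((t ^ j)⁻¹ * (y * t ^ j)) * (t ^ j)⁻¹ = y := by group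
          rwa [e1] at this
        have h2 : P * m = (P * sg k (t ^ j)⁻¹) * (sg k (t ^ j) * m) := by
          rw [mul_assoc, ← mul_assoc (sg k (t ^ j)⁻¹), sg_mul, inv_mul_cancel, sg_one, one_mul]
        rw [h2]
        exact supp_mul h1 hmC
      obtain ⟨c₀, m₀, hm₀, hcm⟩ := h.str.cor0 hq (a := i * (P * m) * i)
        (supp_mul (supp_mul hiC hPm) hiC) (cor_of hii _)
      have hfin : l1 k G (P * (m * s)) = c₀ * l1 k G s := by
        have e1 : P * (m * s) = (P * m * i) * (s * i) := by
          rw [hsi, mul_assoc (P * m), his, mul_assoc]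
        rw [e1, l1_symm]
        have e2 : s * i * (P * m * i) = x ^ (q - 1) * (i * (P * m) * i) := by
          rw [hsi, hs]; simp only [mul_assoc]
        rw [e2, hcm, mul_add, h.str.xtop hq, add_zero, mul_smul_comm, map_smul, smul_eq_mul, hs]
      rw [hfin]
      have hc₀ : c₀ = 0 := by
        by_contra hc0
        -- an element of `Z` not commuting with `t ^ j`
        have hnC : t ^ j ∉ C := by
          intro h1
          apply hj0
          symm
          apply h.uni 0 he j hj
          rw [pow_zero, inv_one, one_mul]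
          exact h1
        obtain ⟨z, hz, hzne⟩ : ∃ z ∈ Z, z * t ^ j ≠ t ^ j * z := by
          by_contra hcon
          push Not at hcon
          apply hnC
          rw [hCZ, Subgroup.mem_centralizer_iff]
          intro z hz
          exact hcon z hz
        set z₁ := z * (t ^ j * z⁻¹ * (t ^ j)⁻¹) with hz₁
        have hz₁Z : z₁ ∈ Z := Z.mul_mem hz (htpow j _ (Z.inv_mem hz))
        have hz₁1 : z₁ ≠ 1 := by
          intro h1
          apply hzne
          have h2 : z * (t ^ j * z⁻¹ * (t ^ j)⁻¹) * (t ^ j) * z = t ^ j * z := by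
            rw [← hz₁, h1, one_mul]
          calc z * t ^ j = z * (t ^ j * z⁻¹ * (t ^ j)⁻¹) * (t ^ j) * z := by group
            _ = _ := h2
        have hPz : sg k z₁ * P = P := by
          apply ext'
          intro y
          rw [sg_mul_coeff, hP, mk_coeff, mk_coeff]
          have h1 : (t ^ j)⁻¹ * (z₁⁻¹ * y) ∈ C ↔ (t ^ j)⁻¹ * y ∈ C := by
            have h2 : (t ^ j)⁻¹ * (z₁⁻¹ * y) = ((t ^ j)⁻¹ * z₁⁻¹ * t ^ j) * ((t ^ j)⁻¹ * y) := by
              group
            have h3 : (t ^ j)⁻¹ * z₁⁻¹ * t ^ j ∈ C := hcj _ (C.inv_mem (hZC hz₁Z))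
            rw [h2]
            constructor
            · intro h4
              have := C.mul_mem (C.inv_mem h3) h4
              rwa [inv_mul_cancel_left] at this
            · intro h4; exact C.mul_mem h3 h4
          by_cases hy : (t ^ j)⁻¹ * y ∈ C
          · rw [if_pos (h1.2 hy), if_pos hy]
            have h4 := hB.2 z (Subgroup.mem_top z) (z₁⁻¹ * y)
            rw [← h4]
            congr 1
            have h5 : (t ^ j)⁻¹ * y * z⁻¹ = z⁻¹ * ((t ^ j)⁻¹ * y) := by
              rw [hCZ] at hy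
              exact (Subgroup.mem_centralizer_iff.1 hy z⁻¹ (Z.inv_mem hz)).symm
            have h6 : y * z⁻¹ = t ^ j * z⁻¹ * (t ^ j)⁻¹ * y := by
              calc y * z⁻¹ = t ^ j * ((t ^ j)⁻¹ * y * z⁻¹) := by group
                _ = t ^ j * (z⁻¹ * ((t ^ j)⁻¹ * y)) := by rw [h5]
                _ = _ := by group
            have h7 : z₁⁻¹ * z = z * z₁⁻¹ := by
              have hz₁C := hZC hz₁Z
              rw [hCZ] at hz₁C
              have h8 := Subgroup.mem_centralizer_iff.1 hz₁C z hz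
              rw [inv_mul_eq_iff_eq_mul, ← mul_assoc, ← h8, mul_inv_cancel_right]
            calc z * (z₁⁻¹ * y) * z⁻¹ = z * z₁⁻¹ * (y * z⁻¹) := by group
              _ = z₁⁻¹ * z * (t ^ j * z⁻¹ * (t ^ j)⁻¹ * y) := by rw [h6, h7]
              _ = z₁⁻¹ * (z * (t ^ j * z⁻¹ * (t ^ j)⁻¹)) * y := by group
              _ = y := by rw [← hz₁, inv_mul_cancel, one_mul]
          · rw [if_neg (fun h' => hy (h1.1 h')), if_neg hy]
        have hz₁i : sg k z₁ * i = i * sg k z₁ := by
          have hz₁C := hZC hz₁Z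
          have h1 : Fx C (sg k z₁) := by
            rw [fx_iff]
            intro c hc
            rw [cj_sg]
            rw [hCZ] at hc
            have := Subgroup.mem_centralizer_iff.1 hc z₁ hz₁Z
            rw [← this, mul_inv_cancel_right]
          exact comm_of_fx_supp h1 hiC
        have h1 : (sg k z₁ - 1) * (i * (P * m) * i) = 0 := by
          have h2 : sg k z₁ * (i * (P * m) * i) = i * ((sg k z₁ * P) * m) * i := by
            rw [← mul_assoc, ← mul_assoc, hz₁i]; simp only [mul_assoc]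
          rw [sub_mul, one_mul, h2, hPz, sub_self]
        have hnz : Fx C (sg k z₁ - 1) := by
          refine fx_sub ?_ fx_one
          rw [fx_iff]
          intro c hc
          rw [cj_sg]
          rw [hCZ] at hc
          have := Subgroup.mem_centralizer_iff.1 hc z₁ hz₁Z
          rw [← this, mul_inv_cancel_right]
        obtain ⟨n₀, hn₀⟩ : ∃ n₀, n₀ = (sg k z₁ - 1) * i := ⟨_, rfl⟩
        have hn₀C : Supp C n₀ := by
          rw [hn₀]; exact supp_mul (supp_sub (supp_sg (hZC hz₁Z)) supp_one) hiC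
        have h2 : n₀ = -(c₀⁻¹ • (x * (m₀ * (sg k z₁ - 1)))) := by
          rw [hcm, mul_add, mul_smul_comm, ← hn₀] at h1
          have h3 : (sg k z₁ - 1) * (x * m₀) = x * (m₀ * (sg k z₁ - 1)) := by
            rw [comm_of_fx_supp hnz (supp_mul h.str.zx.1 hm₀), mul_assoc]
          rw [h3] at h1
          have h4 := eq_neg_of_add_eq_zero_left h1
          calc n₀ = c₀⁻¹ • (c₀ • n₀) := by rw [smul_smul, inv_mul_cancel₀ hc0, one_smul]
            _ = _ := by rw [h4, smul_neg]
        have h3 : ∀ r : ℕ, ∃ m₁ : MonoidAlgebra k G, Supp C m₁ ∧ n₀ = x ^ r * m₁ := by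
          have h2' : n₀ = x * (-(c₀⁻¹ • m₀) * n₀) := by
            have e1 : n₀ * i = n₀ := by rw [hn₀, mul_assoc, hii]
            conv_lhs => rw [← e1, h2]
            rw [hn₀]
            simp only [neg_mul, mul_neg, smul_mul_assoc, mul_smul_comm, mul_assoc]
          intro r
          induction r with
          | zero => exact ⟨n₀, hn₀C, by rw [pow_zero, one_mul]⟩
          | succ r ih =>
            obtain ⟨m₁, hm₁, h4⟩ := ih
            have hcm' : Supp C (-(c₀⁻¹ • m₀)) := by
              intro y hy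
              rw [neg_coeff, smul_coeff, hm₀ y hy, mul_zero, neg_zero]
            refine ⟨-(c₀⁻¹ • m₀) * m₁, supp_mul hcm' hm₁, ?_⟩
            calc n₀ = x * (-(c₀⁻¹ • m₀) * n₀) := h2'
              _ = x * (-(c₀⁻¹ • m₀) * (x ^ r * m₁)) := by rw [← h4]
              _ = x * ((-(c₀⁻¹ • m₀) * x ^ r) * m₁) := by simp only [mul_assoc]
              _ = x * ((x ^ r * -(c₀⁻¹ • m₀)) * m₁) := by rw [h.str.hxn r hcm']
              _ = _ := by rw [pow_succ']; simp only [mul_assoc]
        obtain ⟨m₁, _, h4⟩ := h3 q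
        rw [h.str.pow, zero_mul] at h4
        apply hzb z₁ hz₁Z hz₁1
        obtain ⟨n, Y, X, hY, hX, hsum⟩ := h.str.sum
        rw [← hsum, Finset.mul_sum]
        refine Finset.sum_eq_zero fun l _ => ?_
        calc (sg k z₁ - 1) * (Y l * i * X l) = ((sg k z₁ - 1) * Y l) * i * X l := by
              simp only [mul_assoc]
          _ = Y l * ((sg k z₁ - 1) * i) * X l := by
              rw [comm_of_fx_supp hnz (hY l)]; simp only [mul_assoc]
          _ = 0 := by rw [← hn₀, h4, mul_zero, zero_mul]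
      rw [hc₀, zero_mul]
  refine ⟨(l1 k G).comp (LinearMap.mulRight k (B * Ω)), fun n => ?_, fun n => ?_, fun n => ?_,
    fun n => ?_, fun n => ?_, ?_⟩
  · show l1 k G (n * (1 - i) * (B * Ω)) = 0
    rw [← mul_assoc, mul_assoc n, ← hBc, ← mul_assoc, mul_assoc _ (1 - i) Ω, sub_mul, one_mul, hiΩ,
      sub_self, mul_zero, map_zero]
  · show l1 k G (n * x * (B * Ω)) = 0
    rw [← mul_assoc, mul_assoc n, ← hBc, ← mul_assoc, mul_assoc _ x Ω, hxΩ, mul_zero, map_zero]
  · show l1 k G (n * (g - γ • (1 : MonoidAlgebra k G)) * (B * Ω)) = 0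
    rw [← mul_assoc, mul_assoc n, ← hBc, ← mul_assoc, mul_assoc _ (g - _) Ω, sub_mul,
      smul_mul_assoc, one_mul, hgΩ, sub_self, mul_zero, map_zero]
  · show l1 k G (n * (1 - B) * (B * Ω)) = 0
    rw [mul_assoc n, ← mul_assoc (1 - B), sub_mul, one_mul, hBB, sub_self, zero_mul, mul_zero,
      map_zero]
  · show l1 k G (x ^ (q - 1) * n * (B * Ω)) = 0
    rw [mul_assoc, l1_symm, mul_assoc, mul_assoc, hΩx, mul_zero, mul_zero, map_zero]
  · show l1 k G (1 * (B * Ω)) ≠ 0
    rw [one_mul, hΩ, Finset.mul_sum, map_sum, Finset.sum_eq_single 0]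
    · rw [pow_zero, one_smul, hval 0 he, if_pos rfl, hs]
      exact h.str.l1_ne hq
    · intro j hj hj0
      rw [mul_smul_comm, map_smul, hval j (Finset.mem_range.1 hj), if_neg hj0, smul_zero]
    · intro h'; exact absurd (Finset.mem_range.2 he) h'

end CfsgLib.Star
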