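import Mathlib
import Cfsg.Agent.EqBase
import Cfsg.Agent.LibStar50

/-!
# Star construction, LI: simple modules attached to the eigenvalues (helper18)
-/

set_option autoImplicit false
set_option linter.unusedSectionVars false
set_option linter.style.haveILetI false
set_option linter.unusedSimpArgs false
set_option linter.unusedVariables false

namespace CfsgLib.Star

open CfsgLib.BrP CfsgLib.Points

variable {k : Type*} [Field k] {G : Type*} [Group G] [Fintype G]
variable {C N D : Subgroup G} {b i x : MonoidAlgebra k G} {q : ℕ} {t : G} {e : ℕ}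
  {g g' : MonoidAlgebra k G}

/-- the eigenvalue occurs in the subquotient -/
def WQ (i x g : MonoidAlgebra k G) (q : ℕ) (γ : k)
    (N₁ N₂ : Submodule (MonoidAlgebra k G) (MonoidAlgebra k G)) : Prop :=
  ∃ w ∈ N₂, i * w - w ∈ N₁ ∧ x * w ∈ N₁ ∧ g * w - γ • w ∈ N₁ ∧
    ∀ u ∈ N₂, w - x ^ (q - 1) * u ∉ N₁

theorem sub_smul_mem {L : Submodule (MonoidAlgebra k G) (MonoidAlgebra k G)}
    {a : MonoidAlgebra k G} (ha : a ∈ L) (c : k) : c • a ∈ L := by
  have h1 : c • a = (c • (1 : MonoidAlgebra k G)) * a := by rw [smul_mul_assoc, one_mul]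
  rw [h1]
  exact L.smul_mem _ ha

theorem sub_mul_mem {L : Submodule (MonoidAlgebra k G) (MonoidAlgebra k G)}
    {a : MonoidAlgebra k G} (ha : a ∈ L) (c : MonoidAlgebra k G) : c * a ∈ L := L.smul_mem _ ha

/-- half exactness -/
theorem WQ_split (h : Cfg C N D b i x q t e g g') (hq : 1 < q) {α γ : k} (hα : α ≠ 0)
    (hγ : γ ^ e = α) (hge : ∃ a, Supp C a ∧ g ^ e = α • i + x * a)
    {N₁ L N₂ : Submodule (MonoidAlgebra k G) (MonoidAlgebra k G)} (h1 : N₁ ≤ L) (h2 : L ≤ N₂)
    (hw : WQ i x g q γ N₁ N₂) : WQ i x g q γ N₁ L ∨ WQ i x g q γ L N₂ := by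
  classical
  obtain ⟨w, hwN, hiw, hxw, hgw, hwu⟩ := hw
  by_cases hcase : ∀ u ∈ N₂, w - x ^ (q - 1) * u ∉ L
  · exact Or.inr ⟨w, hwN, h1 hiw, h1 hxw, h1 hgw, hcase⟩
  left
  push Not at hcase
  obtain ⟨u, hu, huL⟩ := hcase
  have hii := h.str.prim.idem
  have hiC := h.str.prim.supp
  have he0 : e ≠ 0 := fun h0 => h.e0 (by rw [h0, Nat.cast_zero])
  have hγ0 : γ ≠ 0 := fun h0 => hα (by rw [← hγ, h0, zero_pow he0])
  obtain ⟨m, hm⟩ : ∃ m, m = i * (w - x ^ (q - 1) * u) := ⟨_, rfl⟩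
  have hmL : m ∈ L := by rw [hm]; exact sub_mul_mem huL i
  have him : i * m = m := by rw [hm, ← mul_assoc, hii]
  have hxm : x * m ∈ N₁ := by
    have e1 : x * m = i * (x * w) := by
      rw [hm, ← mul_assoc, h.hx hiC, mul_assoc, mul_sub, ← mul_assoc x (x ^ _), ← pow_succ',
        show q - 1 + 1 = q by omega, h.str.pow, zero_mul, sub_zero]
    rw [e1]; exact sub_mul_mem hxw i
  obtain ⟨m₁, hxg⟩ := h.xg
  have hxgj : ∀ j : ℕ, x * (g ^ j * m) ∈ N₁ := by
    intro j
    have : ∃ a : MonoidAlgebra k G, x * g ^ j = a * x := by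
      induction j with
      | zero => exact ⟨1, by rw [pow_zero, mul_one, one_mul]⟩
      | succ j ih =>
        obtain ⟨a, ha⟩ := ih
        exact ⟨g * m₁ * a, by
          calc x * g ^ (j + 1) = (x * g) * g ^ j := by rw [pow_succ', mul_assoc]
            _ = g * m₁ * (x * g ^ j) := by rw [hxg]; simp only [mul_assoc]
            _ = _ := by rw [ha]; simp only [mul_assoc]⟩
    obtain ⟨a, ha⟩ := this
    rw [← mul_assoc, ha, mul_assoc]
    exact sub_mul_mem hxm a
  have higj : ∀ j : ℕ, i * (g ^ j * m) = g ^ j * m := by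
    intro j
    rcases Nat.eq_zero_or_pos j with h0 | h0
    · rw [h0, pow_zero, one_mul, him]
    · obtain ⟨r, rfl⟩ := Nat.exists_eq_add_of_lt h0
      rw [zero_add, pow_succ', ← mul_assoc, ← mul_assoc, h.ig]
  obtain ⟨a₀, ha₀, hga₀⟩ := hge
  have hgem : g ^ e * m - α • m ∈ N₁ := by
    have e1 : g ^ e * m - α • m = a₀ * (x * m) := by
      rw [hga₀, add_mul, smul_mul_assoc, him, add_sub_cancel_left, h.hx ha₀, mul_assoc]
    rw [e1]; exact sub_mul_mem hxm a₀
  obtain ⟨E, hE⟩ : ∃ E, E = ∑ j ∈ Finset.range e, (γ⁻¹) ^ j • (g ^ j * m) := ⟨_, rfl⟩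
  have hgE : g * E - γ • E ∈ N₁ := by
    have e1 : g * E = γ • ∑ j ∈ Finset.range e, (γ⁻¹) ^ (j + 1) • (g ^ (j + 1) * m) := by
      rw [hE, Finset.mul_sum, Finset.smul_sum]
      refine Finset.sum_congr rfl fun j _ => ?_
      rw [mul_smul_comm, ← mul_assoc, ← pow_succ', smul_smul]
      congr 1
      rw [pow_succ', ← mul_assoc, mul_inv_cancel₀ hγ0, one_mul]
    have e2 : ∑ j ∈ Finset.range e, (γ⁻¹) ^ (j + 1) • (g ^ (j + 1) * m) - E =
        (γ⁻¹) ^ e • (g ^ e * m) - m := by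
      have h3 := Finset.sum_range_succ (fun j => (γ⁻¹) ^ j • (g ^ j * m)) e
      have h4 := Finset.sum_range_succ' (fun j => (γ⁻¹) ^ j • (g ^ j * m)) e
      rw [h3] at h4
      rw [← hE] at h4
      simp only [pow_zero, one_smul, one_mul] at h4
      have h5 := eq_sub_of_add_eq h4.symm
      rw [h5]
      abel
    rw [e1, ← smul_sub, e2]
    apply sub_smul_mem
    have e3 : (γ⁻¹) ^ e • (g ^ e * m) - m = (γ⁻¹) ^ e • (g ^ e * m - α • m) := by
      rw [smul_sub, smul_smul, ← hγ, ← mul_pow, inv_mul_cancel₀ hγ0, one_pow, one_smul]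
    rw [e3]
    exact sub_smul_mem hgem _
  have hEL : E ∈ L := by
    rw [hE]
    exact Submodule.sum_mem _ fun j _ => sub_smul_mem (sub_mul_mem hmL _) _
  refine ⟨(e : k)⁻¹ • E, sub_smul_mem hEL _, ?_, ?_, ?_, ?_⟩
  · have : i * ((e : k)⁻¹ • E) - (e : k)⁻¹ • E = 0 := by
      have h3 : i * E = E := by
        rw [hE, Finset.mul_sum]
        refine Finset.sum_congr rfl fun j _ => ?_
        rw [mul_smul_comm, higj]
      rw [mul_smul_comm, h3, sub_self]
    rw [this]; exact N₁.zero_mem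
  · rw [mul_smul_comm]
    apply sub_smul_mem
    rw [hE, Finset.mul_sum]
    refine Submodule.sum_mem _ fun j _ => ?_
    rw [mul_smul_comm]
    exact sub_smul_mem (hxgj j) _
  · rw [mul_smul_comm, smul_comm γ, ← smul_sub]
    exact sub_smul_mem hgE _
  · intro u' hu' hcon
    -- comparison with `w`
    have hgjw : ∀ j : ℕ, g ^ j * (i * w) - γ ^ j • w ∈ N₁ := by
      intro j
      have h3 : g ^ j * w - γ ^ j • w ∈ N₁ := by
        induction j with
        | zero => rw [pow_zero, pow_zero, one_mul, one_smul, sub_self]; exact N₁.zero_mem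
        | succ j ih =>
          have e1 : g ^ (j + 1) * w - γ ^ (j + 1) • w =
              g ^ j * (g * w - γ • w) + γ • (g ^ j * w - γ ^ j • w) := by
            rw [mul_sub, mul_smul_comm, smul_sub, smul_smul, ← pow_succ', ← mul_assoc, ← pow_succ]
            abel
          rw [e1]
          exact N₁.add_mem (sub_mul_mem hgw _) (sub_smul_mem ih _)
      have e1 : g ^ j * (i * w) - γ ^ j • w = g ^ j * (i * w - w) + (g ^ j * w - γ ^ j • w) := by
        rw [mul_sub]; abel
      rw [e1]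
      exact N₁.add_mem (sub_mul_mem hiw _) h3
    have hgjx : ∀ j : ℕ, ∃ a : MonoidAlgebra k G, g ^ j * (i * (x ^ (q - 1) * u)) =
        x ^ (q - 1) * (a * u) := by
      intro j
      have h3 : ∃ a : MonoidAlgebra k G, g ^ j * x ^ (q - 1) = x ^ (q - 1) * a := by
        induction j with
        | zero => exact ⟨1, by rw [pow_zero, mul_one, one_mul]⟩
        | succ j ih =>
          obtain ⟨a, ha⟩ := ih
          obtain ⟨m₂, hm₂, hgx⟩ := h.gxn (q - 1)
          refine ⟨a * (m₂ * g), ?_⟩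
          calc g ^ (j + 1) * x ^ (q - 1) = g ^ j * (g * x ^ (q - 1)) := by
                rw [pow_succ, mul_assoc]
            _ = (g ^ j * x ^ (q - 1)) * (m₂ * g) := by rw [hgx]; simp only [mul_assoc]
            _ = _ := by rw [ha]; simp only [mul_assoc]
      obtain ⟨a, ha⟩ := h3
      refine ⟨a * i, ?_⟩
      calc g ^ j * (i * (x ^ (q - 1) * u)) = g ^ j * ((i * x ^ (q - 1)) * u) := by
            simp only [mul_assoc]
        _ = (g ^ j * x ^ (q - 1)) * i * u := by
            rw [← h.str.hxn _ hiC]; simp only [mul_assoc]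
        _ = _ := by rw [ha]; simp only [mul_assoc]
    choose a ha using hgjx
    have hEw : (e : k)⁻¹ • E - (w - x ^ (q - 1) * ((e : k)⁻¹ • ∑ j ∈ Finset.range e,
        (γ⁻¹) ^ j • (a j * u))) ∈ N₁ := by
      have e1 : (e : k)⁻¹ • E - (w - x ^ (q - 1) * ((e : k)⁻¹ • ∑ j ∈ Finset.range e,
          (γ⁻¹) ^ j • (a j * u))) = (e : k)⁻¹ • ∑ j ∈ Finset.range e, (γ⁻¹) ^ j •
            (g ^ j * (i * w) - γ ^ j • w) := by
        have e2 : w = (e : k)⁻¹ • ∑ j ∈ Finset.range e, (γ⁻¹) ^ j • (γ ^ j • w) := by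
          have : ∀ j ∈ Finset.range e, (γ⁻¹) ^ j • (γ ^ j • w) = w := by
            intro j _
            rw [smul_smul, ← mul_pow, inv_mul_cancel₀ hγ0, one_pow, one_smul]
          rw [Finset.sum_congr rfl this, Finset.sum_const, Finset.card_range, ← Nat.cast_smul_eq_nsmul k,
            smul_smul, inv_mul_cancel₀ h.e0, one_smul]
        have e3 : E = ∑ j ∈ Finset.range e, (γ⁻¹) ^ j • (g ^ j * (i * w)) -
            x ^ (q - 1) * ∑ j ∈ Finset.range e, (γ⁻¹) ^ j • (a j * u) := by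
          rw [hE, Finset.mul_sum, ← Finset.sum_sub_distrib]
          refine Finset.sum_congr rfl fun j _ => ?_
          rw [mul_smul_comm, ← smul_sub, ← ha, ← mul_sub, ← mul_sub, hm]
        have e4 : ∑ j ∈ Finset.range e, (γ⁻¹) ^ j • (g ^ j * (i * w) - γ ^ j • w) =
            ∑ j ∈ Finset.range e, (γ⁻¹) ^ j • (g ^ j * (i * w)) -
            ∑ j ∈ Finset.range e, (γ⁻¹) ^ j • (γ ^ j • w) := by
          rw [← Finset.sum_sub_distrib]
          refine Finset.sum_congr rfl fun j _ => ?_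
          rw [smul_sub]
        rw [e4, smul_sub, ← e2, e3, smul_sub, mul_smul_comm]
        abel
      rw [e1]
      exact sub_smul_mem (Submodule.sum_mem _ fun j _ => sub_smul_mem (hgjw j) _) _
    apply hwu ((e : k)⁻¹ • ∑ j ∈ Finset.range e, (γ⁻¹) ^ j • (a j * u) + u')
      (N₂.add_mem (sub_smul_mem (Submodule.sum_mem _ fun j _ =>
        sub_smul_mem (sub_mul_mem hu _) _) _) (h2 hu'))
    have := N₁.sub_mem hcon hEw
    have e1 : w - x ^ (q - 1) * ((e : k)⁻¹ • ∑ j ∈ Finset.range e, (γ⁻¹) ^ j • (a j * u) + u') =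
        (e : k)⁻¹ • E - x ^ (q - 1) * u' - ((e : k)⁻¹ • E - (w - x ^ (q - 1) *
          ((e : k)⁻¹ • ∑ j ∈ Finset.range e, (γ⁻¹) ^ j • (a j * u)))) := by
      rw [mul_add]; abel
    rw [e1]; exact this

/-- a maximal left ideal carrying the eigenvalue -/
structure MI (i x g B : MonoidAlgebra k G) (q : ℕ) (γ : k)
    (P : Submodule (MonoidAlgebra k G) (MonoidAlgebra k G)) : Prop where
  one : (1 : MonoidAlgebra k G) ∉ P
  max : ∀ a, a ∉ P → ∃ c, 1 - c * a ∈ P
  hi : i - 1 ∈ P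
  hx : x ∈ P
  hg : g - γ • (1 : MonoidAlgebra k G) ∈ P
  hB : 1 - B ∈ P
  hw : ∀ u, 1 - x ^ (q - 1) * u ∉ P

theorem exists_MI (h : Cfg C N D b i x q t e g g') (hq : 1 < q) {α γ : k} (hα : α ≠ 0)
    (hγ : γ ^ e = α) (hge : ∃ a, Supp C a ∧ g ^ e = α • i + x * a) {B : MonoidAlgebra k G}
    (hBc : ∀ a, B * a = a * B) {J : Submodule (MonoidAlgebra k G) (MonoidAlgebra k G)}
    (hJB : 1 - B ∈ J) (n : ℕ) : ∀ N₁ N₂ : Submodule (MonoidAlgebra k G) (MonoidAlgebra k G),
    J ≤ N₁ → N₁ ≤ N₂ → Module.finrank k (N₂.restrictScalars k) -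
      Module.finrank k (N₁.restrictScalars k) ≤ n → WQ i x g q γ N₁ N₂ →
      ∃ P, MI i x g B q γ P := by
  classical
  have hlt : ∀ {L₁ L₂ : Submodule (MonoidAlgebra k G) (MonoidAlgebra k G)}, L₁ < L₂ →
      Module.finrank k (L₁.restrictScalars k) < Module.finrank k (L₂.restrictScalars k) := by
    intro L₁ L₂ hL
    apply Submodule.finrank_lt_finrank_of_lt
    exact hL
  induction n with
  | zero =>
    intro N₁ N₂ hJ h12 hn hW
    exfalso
    obtain ⟨w, hwN, _, _, _, hw⟩ := hW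
    have h1 : w ∉ N₁ := by
      have := hw 0 N₂.zero_mem
      rwa [mul_zero, sub_zero] at this
    have h2 : N₁ < N₂ := lt_of_le_of_ne h12 (fun h3 => h1 (h3 ▸ hwN))
    have := hlt h2
    omega
  | succ n ih =>
    intro N₁ N₂ hJ h12 hn hW
    by_cases hbet : ∃ L, N₁ < L ∧ L < N₂
    · obtain ⟨L, hL1, hL2⟩ := hbet
      have h3 := hlt hL1
      have h4 := hlt hL2
      rcases WQ_split h hq hα hγ hge hL1.le hL2.le hW with h5 | h5
      · exact ih N₁ L hJ hL1.le (by omega) h5
      · exact ih L N₂ (hJ.trans hL1.le) hL2.le (by omega) h5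
    · obtain ⟨w, hwN, hiw, hxw, hgw, hw⟩ := hW
      have hw1 : w ∉ N₁ := by
        have := hw 0 N₂.zero_mem
        rwa [mul_zero, sub_zero] at this
      let P : Submodule (MonoidAlgebra k G) (MonoidAlgebra k G) :=
        N₁.comap (LinearMap.toSpanSingleton (MonoidAlgebra k G) (MonoidAlgebra k G) w)
      have hP : ∀ a, a ∈ P ↔ a * w ∈ N₁ := fun a => Iff.rfl
      refine ⟨P, ?_, ?_, ?_, ?_, ?_, ?_, ?_⟩
      · rw [hP, one_mul]; exact hw1
      · intro a ha
        rw [hP] at ha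
        have h1 : N₁ < N₁ ⊔ Submodule.span (MonoidAlgebra k G) {a * w} := by
          refine lt_of_le_of_ne le_sup_left fun h2 => ha ?_
          rw [h2]
          exact Submodule.mem_sup_right (Submodule.mem_span_singleton_self _)
        have h2 : N₁ ⊔ Submodule.span (MonoidAlgebra k G) {a * w} ≤ N₂ := by
          refine sup_le h12 ?_
          rw [Submodule.span_le, Set.singleton_subset_iff]
          exact sub_mul_mem hwN a
        have h3 : N₁ ⊔ Submodule.span (MonoidAlgebra k G) {a * w} = N₂ := by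
          by_contra hne
          exact hbet ⟨_, h1, lt_of_le_of_ne h2 hne⟩
        rw [← h3] at hwN
        obtain ⟨n₁, hn₁, y, hy, hsum⟩ := Submodule.mem_sup.1 hwN
        obtain ⟨c, hc⟩ := Submodule.mem_span_singleton.1 hy
        refine ⟨c, ?_⟩
        rw [hP, sub_mul, one_mul, mul_assoc]
        have : w - c * (a * w) = n₁ := by
          rw [← smul_eq_mul c, hc]
          conv_lhs => rw [← hsum]
          abel
        rw [this]; exact hn₁
      · rw [hP, sub_mul, one_mul]; exact hiw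
      · rw [hP]; exact hxw
      · rw [hP, sub_mul, smul_mul_assoc, one_mul]; exact hgw
      · rw [hP]
        have : (1 - B) * w = w * (1 - B) := by rw [sub_mul, mul_sub, hBc, one_mul, mul_one]
        rw [this]
        exact sub_mul_mem (hJ hJB) w
      · intro u
        rw [hP, sub_mul, one_mul, mul_assoc]
        exact hw _ (sub_mul_mem hwN u)

/-- from the functional to the maximal left ideal -/
theorem MI_of_eta (h : Cfg C N D b i x q t e g g') (hq : 1 < q) {α γ : k} (hα : α ≠ 0)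
    (hγ : γ ^ e = α) (hge : ∃ a, Supp C a ∧ g ^ e = α • i + x * a) {B : MonoidAlgebra k G}
    (hBc : ∀ a, B * a = a * B) (η : MonoidAlgebra k G →ₗ[k] k) (h1 : ∀ n, η (n * (1 - i)) = 0)
    (h2 : ∀ n, η (n * x) = 0) (h3 : ∀ n, η (n * (g - γ • (1 : MonoidAlgebra k G))) = 0)
    (h4 : ∀ n, η (n * (1 - B)) = 0) (h5 : ∀ n, η (x ^ (q - 1) * n) = 0) (h6 : η 1 ≠ 0) :
    ∃ P, MI i x g B q γ P := by
  let J : Submodule (MonoidAlgebra k G) (MonoidAlgebra k G) :=
    { carrier := {a | ∀ n, η (n * a) = 0}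
      add_mem' := fun {a c} ha hc n => by rw [mul_add, map_add, ha n, hc n, add_zero]
      zero_mem' := fun n => by rw [mul_zero, map_zero]
      smul_mem' := fun r a ha n => by
        show η (n * (r * a)) = 0
        rw [← mul_assoc]; exact ha _ }
  have hJ : ∀ a, a ∈ J ↔ ∀ n, η (n * a) = 0 := fun a => Iff.rfl
  refine exists_MI h hq hα hγ hge hBc (J := J) h4 _ J ⊤ le_rfl le_top le_rfl ?_
  refine ⟨1, Submodule.mem_top, ?_, ?_, ?_, ?_⟩
  · rw [hJ]
    intro n
    have : n * (i * 1 - 1) = -(n * (1 - i)) := by rw [mul_one]; noncomm_ring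
    rw [this, map_neg, h1, neg_zero]
  · rw [hJ]; intro n; rw [mul_one]; exact h2 n
  · rw [hJ]; intro n; rw [mul_one]; exact h3 n
  · intro u _ hcon
    rw [hJ] at hcon
    have := hcon 1
    rw [one_mul, map_sub, h5, sub_zero] at this
    exact h6 this

end CfsgLib.Star
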