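import Mathlib
import Cfsg.Agent.EqBase
import Cfsg.Agent.LibStar51

/-!
# Star construction, LII: different eigenvalues give different points (helper18)
-/

set_option autoImplicit false
set_option linter.unusedSectionVars false
set_option linter.style.haveILetI false
set_option linter.unusedSimpArgs false
set_option linter.unusedVariables false

namespace CfsgLib.Star

open CfsgLib.BrP CfsgLib.Points

variable {k : Type*} [Field k] [IsAlgClosed k] {G : Type*} [Group G] [Fintype G]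
variable {C N D : Subgroup G} {b i x : MonoidAlgebra k G} {q : ℕ} {t : G} {e : ℕ}
  {g g' : MonoidAlgebra k G}

/-- annihilators of vectors attached to the same point -/
theorem ann_aux {j : MonoidAlgebra k G} (hj : Prim j)
    {P P' : Submodule (MonoidAlgebra k G) (MonoidAlgebra k G)}
    (hmax : ∀ a, a ∉ P' → ∃ c, 1 - c * a ∈ P') {v v' : MonoidAlgebra k G} (hv : v ∉ P)
    (hjv : j * v = v) (hv' : v' ∉ P') (hjv' : j * v' = v') {a : MonoidAlgebra k G}
    (ha : a * v' ∉ P') : a * v ∉ P := by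
  obtain ⟨c, hc⟩ := hmax _ ha
  obtain ⟨y, hy⟩ : ∃ y, y = j * (v' * c * a) * j := ⟨_, rfl⟩
  have hyv' : y * v' - v' ∈ P' := by
    have e1 : y * v' - v' = -((j * v') * (1 - c * (a * v'))) := by
      rw [hy, hjv']
      have : j * (v' * c * a) * j * v' = v' * c * a * v' := by
        calc j * (v' * c * a) * j * v' = (j * v') * c * a * (j * v') := by simp only [mul_assoc]
          _ = _ := by rw [hjv']
      rw [this]
      noncomm_ring
    rw [e1]
    exact P'.neg_mem (sub_mul_mem hc _)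
  have hcor : Cor j y := by rw [hy]; exact cor_of hj.idem _
  rcases unit_or_nil k hj hcor with hn | ⟨z, hz, h1, h2⟩
  · exfalso
    obtain ⟨n, hn⟩ := hn
    have h3 : ∀ m : ℕ, y ^ m * v' - v' ∈ P' := by
      intro m
      induction m with
      | zero => rw [pow_zero, one_mul, sub_self]; exact P'.zero_mem
      | succ m ih =>
        have e1 : y ^ (m + 1) * v' - v' = y ^ m * (y * v' - v') + (y ^ m * v' - v') := by
          rw [pow_succ]; noncomm_ring
        rw [e1]
        exact P'.add_mem (sub_mul_mem hyv' _) ih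
    have h4 := h3 n
    rw [hn, zero_mul, zero_sub] at h4
    exact hv' (by have := P'.neg_mem h4; rwa [neg_neg] at this)
  · intro hav
    apply hv
    have e1 : v = z * (j * (v' * c)) * (a * v) := by
      calc v = j * v := hjv.symm
        _ = z * y * v := by rw [h1]
        _ = z * (j * (v' * c * a)) * (j * v) := by rw [hy]; simp only [mul_assoc]
        _ = _ := by rw [hjv]; simp only [mul_assoc]
    rw [e1]
    exact sub_mul_mem hav _

theorem ann_iff {j : MonoidAlgebra k G} (hj : Prim j)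
    {P P' : Submodule (MonoidAlgebra k G) (MonoidAlgebra k G)}
    (hmax : ∀ a, a ∉ P → ∃ c, 1 - c * a ∈ P) (hmax' : ∀ a, a ∉ P' → ∃ c, 1 - c * a ∈ P')
    {v v' : MonoidAlgebra k G} (hv : v ∉ P)
    (hjv : j * v = v) (hv' : v' ∉ P') (hjv' : j * v' = v') (a : MonoidAlgebra k G) :
    a * v ∈ P ↔ a * v' ∈ P' := by
  constructor
  · intro h
    by_contra h'
    exact ann_aux hj hmax' hv hjv hv' hjv' h' h
  · intro h
    by_contra h'
    exact ann_aux hj hmax hv' hjv' hv hjv h' h

theorem pt_unique (h : Cfg C N D b i x q t e g g') {B : MonoidAlgebra k G} {γ γ' : k}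
    {P P' : Submodule (MonoidAlgebra k G) (MonoidAlgebra k G)} (hP : MI i x g B q γ P)
    (hP' : MI i x g B q γ' P') {j j' : MonoidAlgebra k G} (hj : Prim j) (hj' : Prim j')
    (hiso : Iso j j') (hjP : j ∉ P) (hjP' : j' ∉ P') : γ = γ' := by
  classical
  obtain ⟨X, Y, e1, e2, e3, e4, e5, e6⟩ := hiso
  have hYP : Y ∉ P := fun hY => hjP (by rw [← e5]; exact sub_mul_mem hY X)
  have hann := ann_iff hj' hP.max hP'.max hYP e3 hjP' hj'.idem
  obtain ⟨a₀, ha₀⟩ := hP'.max j' hjP'
  let V := MonoidAlgebra k G ⧸ P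
  let ρ : MonoidAlgebra k G →ₐ[k] Module.End k V := Algebra.lsmul k k V
  have hρ : ∀ a c : MonoidAlgebra k G, ρ a (Submodule.Quotient.mk c : V) =
      Submodule.Quotient.mk (a * c) := fun a c => rfl
  haveI : FiniteDimensional k V := by
    let f : MonoidAlgebra k G →ₗ[k] V := (Submodule.mkQ P).restrictScalars k
    exact Module.Finite.of_surjective f (Submodule.mkQ_surjective P)
  have hmk : ∀ a : MonoidAlgebra k G, (Submodule.Quotient.mk a : V) = 0 ↔ a ∈ P := fun a =>
    Submodule.Quotient.mk_eq_zero P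
  have hmk2 : ∀ a c : MonoidAlgebra k G, (Submodule.Quotient.mk a : V) =
      Submodule.Quotient.mk c ↔ a - c ∈ P := fun a c => Submodule.Quotient.eq P
  have hsm : ∀ (r : k) (a : MonoidAlgebra k G), (Submodule.Quotient.mk (r • a) : V) =
      r • (Submodule.Quotient.mk a : V) := fun r a => rfl
  have hsch : ∀ Φ : Module.End k V, (∀ a, Φ * ρ a = ρ a * Φ) → ∃ l : k, ∀ v, Φ v = l • v := by
    intro Φ hΦ
    haveI : Nontrivial V := ⟨⟨Submodule.Quotient.mk 1, 0, fun h0 => hP.one ((hmk 1).1 h0)⟩⟩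
    obtain ⟨l, hl⟩ := Module.End.exists_eigenvalue Φ
    obtain ⟨v, hv⟩ := hl.exists_hasEigenvector
    have hv1 := hv.apply_eq_smul
    have hv0 := hv.2
    obtain ⟨a, rfl⟩ := Submodule.Quotient.mk_surjective P v
    have ha : a ∉ P := fun h0 => hv0 ((hmk a).2 h0)
    obtain ⟨c, hc⟩ := hP.max a ha
    have h1 : (Submodule.Quotient.mk 1 : V) = ρ c (Submodule.Quotient.mk a) := by
      rw [hρ, hmk2]; exact hc
    have h2 : ∀ d, Φ (ρ d (Submodule.Quotient.mk a)) = l • ρ d (Submodule.Quotient.mk a) := by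
      intro d
      have := congrArg (fun f : Module.End k V => f (Submodule.Quotient.mk a)) (hΦ d)
      simp only [Module.End.mul_apply] at this
      rw [this, hv1, map_smul]
    refine ⟨l, fun v => ?_⟩
    obtain ⟨d, rfl⟩ := Submodule.Quotient.mk_surjective P v
    have h3 : (Submodule.Quotient.mk d : V) = ρ (d * c) (Submodule.Quotient.mk a) := by
      have h4 : (Submodule.Quotient.mk d : V) = ρ d (Submodule.Quotient.mk 1) := by
        rw [hρ, mul_one]
      rw [h4, h1, map_mul]; rfl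
    rw [h3, h2]
  -- transported conditions
  have hgen : ∀ y : MonoidAlgebra k G, y ∈ P' → y * (a₀ * Y) ∈ P := by
    intro y hy
    have h1 : y * a₀ * j' ∈ P' := by
      have h2 : y * a₀ * j' = y - y * (1 - a₀ * j') := by noncomm_ring
      rw [h2]
      exact P'.sub_mem hy (sub_mul_mem ha₀ y)
    have := (hann (y * a₀)).2 h1
    rwa [mul_assoc] at this
  obtain ⟨c, u, hcu⟩ := partB ρ h hsch (w := (Submodule.Quotient.mk 1 : V)) (γ := γ)
    (by rw [hρ, mul_one, hmk2]; exact hP.hi)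
    (by rw [hρ, mul_one, hmk]; exact hP.hx)
    (by rw [hρ, mul_one, ← hsm, hmk2]; exact hP.hg)
    (fun u hu => by
      obtain ⟨a, rfl⟩ := Submodule.Quotient.mk_surjective P u
      rw [hρ, hmk2] at hu
      exact hP.hw a hu)
    (w' := (Submodule.Quotient.mk (a₀ * Y) : V))
    (by
      rw [hρ, hmk2]
      have h1 : i * (a₀ * Y) - a₀ * Y = (i - 1) * (a₀ * Y) := by noncomm_ring
      rw [h1]
      exact hgen _ hP'.hi)
    (by rw [hρ, hmk]; exact hgen _ hP'.hx)
  have hg' : ρ g (Submodule.Quotient.mk (a₀ * Y) : V) = γ' • (Submodule.Quotient.mk (a₀ * Y) : V) := by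
    rw [hρ, ← hsm, hmk2]
    have h1 : g * (a₀ * Y) - γ' • (a₀ * Y) = (g - γ' • (1 : MonoidAlgebra k G)) * (a₀ * Y) := by
      rw [sub_mul, smul_mul_assoc, one_mul]
    rw [h1]
    exact hgen _ hP'.hg
  have hnx : ∀ u : V, (Submodule.Quotient.mk (a₀ * Y) : V) ≠ ρ (x ^ (q - 1)) u := by
    intro u hu
    obtain ⟨a, rfl⟩ := Submodule.Quotient.mk_surjective P u
    -- `a = c₁ Y` modulo `P`
    obtain ⟨c₁, hc₁⟩ := hP.max Y hYP
    rw [hρ, hmk2] at hu
    have h1 : (a₀ - x ^ (q - 1) * (a * c₁)) * Y ∈ P := by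
      have h2 : (a₀ - x ^ (q - 1) * (a * c₁)) * Y = (a₀ * Y - x ^ (q - 1) * a) +
          x ^ (q - 1) * a * (1 - c₁ * Y) := by noncomm_ring
      rw [h2]
      exact P.add_mem hu (sub_mul_mem hc₁ _)
    have h3 := (hann _).1 h1
    apply hP'.hw (a * c₁ * j')
    have h4 : 1 - x ^ (q - 1) * (a * c₁ * j') = (1 - a₀ * j') +
        (a₀ - x ^ (q - 1) * (a * c₁)) * j' := by noncomm_ring
    rw [h4]
    exact P'.add_mem ha₀ h3
  have hgw : ρ g (Submodule.Quotient.mk 1 : V) = γ • (Submodule.Quotient.mk 1 : V) := by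
    rw [hρ, mul_one, ← hsm, hmk2]; exact hP.hg
  by_contra hne
  obtain ⟨m, _, hgx⟩ := h.gxn (q - 1)
  have h1 := congrArg (ρ g) hcu
  rw [hg', map_add, map_smul, hgw] at h1
  have h2 : ρ g (ρ (x ^ (q - 1)) u) = ρ (x ^ (q - 1)) (ρ (m * g) u) := by
    rw [← Module.End.mul_apply, ← map_mul, hgx, map_mul, Module.End.mul_apply]
  rw [h2] at h1
  conv_lhs at h1 => rw [hcu, smul_add, ← map_smul]
  have h3 : (c * (γ' - γ)) • (Submodule.Quotient.mk 1 : V) =
      ρ (x ^ (q - 1)) (ρ (m * g) u - γ' • u) := by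
    rw [map_sub]
    have h4 : γ' • c • (Submodule.Quotient.mk 1 : V) - c • γ • (Submodule.Quotient.mk 1 : V) =
        ρ (x ^ (q - 1)) (ρ (m * g) u) - ρ (x ^ (q - 1)) (γ' • u) := by
      rw [sub_eq_sub_iff_add_eq_add, h1, add_comm]
    rw [← h4, smul_smul, smul_smul, ← sub_smul]
    congr 1
    ring
  by_cases hc0 : c = 0
  · rw [hc0, zero_smul, zero_add] at hcu
    exact hnx _ hcu
  · have h5 : c * (γ' - γ) ≠ 0 := mul_ne_zero hc0 (sub_ne_zero.2 (Ne.symm hne))
    have h6 : (Submodule.Quotient.mk 1 : V) = ρ (x ^ (q - 1))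
        ((c * (γ' - γ))⁻¹ • (ρ (m * g) u - γ' • u)) := by
      rw [map_smul, ← h3, smul_smul, inv_mul_cancel₀ h5, one_smul]
    obtain ⟨a, ha⟩ := Submodule.Quotient.mk_surjective P
      ((c * (γ' - γ))⁻¹ • (ρ (m * g) u - γ' • u))
    rw [← ha, hρ, hmk2] at h6
    exact hP.hw a h6

end CfsgLib.Star
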