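import Mathlib
import Cfsg.Agent.EqBase
import Cfsg.Agent.LibStar52
import Cfsg.Agent.LibStar38

/-!
# Star construction, LIII: lower bound for the rank of a block with cyclic defect group (helper18)
-/

set_option autoImplicit false
set_option linter.unusedSectionVars false
set_option linter.style.haveILetI false
set_option linter.unusedSimpArgs false
set_option linter.unusedVariables false

namespace CfsgLib.Star

open Cfsg CfsgLib.GalChar CfsgLib.GalField CfsgLib.BlockReg CfsgLib.BlockReg2 CfsgLib.LocR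
  CfsgLib.BrP CfsgLib.Car CfsgLib.BlockQP CfsgLib.BlockDefect
  CfsgLib.Points CfsgLib.PLocalInd CfsgLib.CharBasic CfsgLib.BlockCore CfsgLib.BlockSec
  CfsgLib.BlockR CfsgLib.BlockIdem CfsgLib.BlockOrth CfsgLib.CharIndA CfsgLib.CharNorm
open scoped ComplexConjugate Pointwise

universe u

section Cyc

variable {G : Type u} [Group G] [Finite G] {p : ℕ} [hp : Fact p.Prime]

/-- elements of order dividing `p` in a cyclic group -/
theorem mem_zp_of_pow {D : Subgroup G} (hcyc : IsCyclic D) {u v : G} (hu : u ∈ D) (hv : v ∈ D)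
    (hup : orderOf u = p) (hvp : v ^ p = 1) : v ∈ Subgroup.zpowers u := by
  classical
  haveI := Fintype.ofFinite D
  haveI := hcyc
  have h1 := IsCyclic.card_pow_eq_one_le (α := D) (n := p) hp.out.pos
  have hup' : orderOf (⟨u, hu⟩ : D) = p := by rw [Subgroup.orderOf_mk, hup]
  have h2 : ((Subgroup.zpowers (⟨u, hu⟩ : D) : Set D).toFinset) ⊆
      Finset.univ.filter (fun x : D => x ^ p = 1) := by
    intro x hx
    rw [Set.mem_toFinset] at hx
    rw [Finset.mem_filter]
    refine ⟨Finset.mem_univ _, ?_⟩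
    obtain ⟨n, rfl⟩ := hx
    show ((⟨u, hu⟩ : D) ^ n) ^ p = 1
    rw [← zpow_natCast, ← zpow_mul, mul_comm, zpow_mul, zpow_natCast, ← hup', pow_orderOf_eq_one,
      one_zpow]
  have h3 : ((Subgroup.zpowers (⟨u, hu⟩ : D) : Set D).toFinset).card = p := by
    rw [Set.toFinset_card, ← Nat.card_eq_fintype_card]
    have : Nat.card (Subgroup.zpowers (⟨u, hu⟩ : D)) = p := by rw [Nat.card_zpowers, hup']
    exact this
  have h4 := Finset.eq_of_subset_of_card_le h2 (by rw [h3]; exact h1)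
  have h5 : (⟨v, hv⟩ : D) ∈ Finset.univ.filter (fun x : D => x ^ p = 1) := by
    rw [Finset.mem_filter]
    exact ⟨Finset.mem_univ _, Subtype.ext hvp⟩
  rw [← h4, Set.mem_toFinset] at h5
  obtain ⟨n, hn⟩ := h5
  exact ⟨n, congrArg Subtype.val hn⟩

theorem exists_pow_order {D : Subgroup G} (hDp : IsPGroup p D) {d : G} (hd : d ∈ D)
    (hd1 : d ≠ 1) : ∃ n : ℕ, orderOf (d ^ n) = p := by
  obtain ⟨j, hj⟩ := IsPGroup.iff_orderOf.1 hDp ⟨d, hd⟩
  rw [Subgroup.orderOf_mk] at hj
  have hj0 : j ≠ 0 := by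
    rintro rfl
    rw [pow_zero, orderOf_eq_one_iff] at hj
    exact hd1 hj
  refine ⟨p ^ (j - 1), ?_⟩
  rw [orderOf_pow' d (pow_pos hp.out.pos _).ne', hj]
  obtain ⟨r, rfl⟩ := Nat.exists_eq_succ_of_ne_zero hj0
  rw [Nat.succ_sub_one, Nat.gcd_eq_right (pow_dvd_pow p (Nat.le_succ r)), pow_succ,
    Nat.mul_div_cancel_left _ (pow_pos hp.out.pos _)]

/-- freeness -/
theorem free_cyc {D : Subgroup G} (hcyc : IsCyclic D) (hDp : IsPGroup p D) {z : G} (hz : z ∈ D)
    (hzp : orderOf z = p) {y : G} (hy : y ∉ Subgroup.normalizer ((Subgroup.zpowers z : Subgroup G) :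
      Set G)) {d : G} (hd : d ∈ D) (hyd : y⁻¹ * d * y ∈ D) : d = 1 := by
  by_contra hd1
  apply hy
  obtain ⟨n, hn⟩ := exists_pow_order hDp hd hd1
  have h1 : Subgroup.zpowers (d ^ n) = Subgroup.zpowers z := by
    apply le_antisymm
    · rw [Subgroup.zpowers_le]
      exact mem_zp_of_pow hcyc hz (D.pow_mem hd n) hzp (by rw [← hn]; exact pow_orderOf_eq_one _)
    · rw [Subgroup.zpowers_le]
      exact mem_zp_of_pow hcyc (D.pow_mem hd n) hz hn (by rw [← hzp]; exact pow_orderOf_eq_one _)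
  rw [← h1]
  have h2 : y⁻¹ * (d ^ n) * y ∈ Subgroup.zpowers (d ^ n) := by
    have e1 : y⁻¹ * (d ^ n) * y = (y⁻¹ * d * y) ^ n := by
      have := conj_pow (a := y⁻¹) (b := d) (i := n)
      rw [inv_inv] at this
      rw [this]
    have e2 : orderOf (y⁻¹ * d ^ n * y) = p := by
      rw [← hn]
      have := MulEquiv.orderOf_eq (MulAut.conj y⁻¹) (d ^ n)
      rw [← this]
      congr 1
      rw [MulAut.conj_apply, inv_inv]
    refine mem_zp_of_pow hcyc (D.pow_mem hd n) ?_ hn (by rw [← e2]; exact pow_orderOf_eq_one _)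
    rw [e1]; exact D.pow_mem hyd n
  have h3 : cS y⁻¹ (Subgroup.zpowers (d ^ n)) ≤ Subgroup.zpowers (d ^ n) := by
    rintro _ ⟨_, ⟨m, rfl⟩, rfl⟩
    show y⁻¹ * ((d ^ n) ^ m) * y⁻¹⁻¹ ∈ _
    rw [← conj_zpow, inv_inv]
    exact Subgroup.zpow_mem _ h2 m
  have h4 : cS y⁻¹ (Subgroup.zpowers (d ^ n)) = Subgroup.zpowers (d ^ n) :=
    Subgroup.eq_of_le_of_card_ge h3 (by rw [card_cS])
  have h5 := Subgroup.inv_mem _ (mem_normalizer_of_cS h4)
  rwa [inv_inv] at h5

/-- automorphisms of cyclic groups of order prime to `p` -/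
theorem aut_cyc {D : Subgroup G} (hDp : IsPGroup p D) {y z t : G} (hD : D = Subgroup.zpowers y)
    (hz : z ∈ D) (hzp : orderOf z = p) (htN : t ∈ Subgroup.normalizer (D : Set G))
    (htz : t * z * t⁻¹ = z) {n : ℕ} (hn : ¬ p ∣ n)
    (htn : t ^ n ∈ Subgroup.centralizer (D : Set G)) :
    t ∈ Subgroup.centralizer (D : Set G) := by
  have hyD : y ∈ D := by rw [hD]; exact Subgroup.mem_zpowers y
  have h1 : t * y * t⁻¹ ∈ D := (Subgroup.mem_normalizer_iff.1 htN y).1 hyD
  rw [hD] at h1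
  obtain ⟨r, hr⟩ : ∃ r : ℤ, y ^ r = t * y * t⁻¹ := h1
  obtain ⟨s, hs⟩ : ∃ s : ℤ, y ^ s = z := by rw [hD] at hz; exact hz
  have hzr : z ^ r = z := by
    have h2 : t * z * t⁻¹ = z ^ r := by
      rw [← hs, ← conj_zpow, ← hr, ← zpow_mul, ← zpow_mul, mul_comm]
    rw [← h2, htz]
  have hpr : (p : ℤ) ∣ r - 1 := by
    rw [← hzp, orderOf_dvd_iff_zpow_eq_one, zpow_sub_one, hzr, mul_inv_cancel]
  have hpow : ∀ m : ℕ, t ^ m * y * (t ^ m)⁻¹ = y ^ (r ^ m) := by
    intro m
    induction m with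
    | zero => simp
    | succ m ih =>
      calc t ^ (m + 1) * y * (t ^ (m + 1))⁻¹ = t ^ m * (t * y * t⁻¹) * (t ^ m)⁻¹ := by
            rw [pow_succ]; group
        _ = (t ^ m * y * (t ^ m)⁻¹) ^ r := by rw [← hr, conj_zpow]
        _ = _ := by rw [ih, ← zpow_mul, ← pow_succ]
  have hq : (orderOf y : ℤ) ∣ r ^ n - 1 := by
    rw [orderOf_dvd_iff_zpow_eq_one, zpow_sub_one, ← hpow]
    have := Subgroup.mem_centralizer_iff.1 htn y hyD
    rw [← this, mul_inv_cancel_right, mul_inv_cancel]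
  obtain ⟨a, ha⟩ := IsPGroup.iff_orderOf.1 hDp ⟨y, hyD⟩
  rw [Subgroup.orderOf_mk] at ha
  have hgeom : r ^ n - 1 = (r - 1) * ∑ i ∈ Finset.range n, r ^ i := (mul_geom_sum r n).symm
  have hcop : IsCoprime ((orderOf y : ℕ) : ℤ) (∑ i ∈ Finset.range n, r ^ i) := by
    rw [ha, Nat.cast_pow]
    apply IsCoprime.pow_left
    rw [Irreducible.coprime_iff_not_dvd (Nat.prime_iff_prime_int.1 hp.out).irreducible]
    intro h4
    have h5 : (p : ℤ) ∣ ∑ i ∈ Finset.range n, (r ^ i - 1) :=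
      Finset.dvd_sum fun i _ => hpr.trans (sub_one_dvd_pow_sub_one r i)
    have h6 : ∑ i ∈ Finset.range n, (r ^ i - 1) = ∑ i ∈ Finset.range n, r ^ i - n := by
      rw [Finset.sum_sub_distrib, Finset.sum_const, Finset.card_range, nsmul_eq_mul, mul_one]
    rw [h6] at h5
    have h7 : (p : ℤ) ∣ n := by
      have := dvd_sub h4 h5
      rwa [sub_sub_cancel] at this
    exact hn (Int.natCast_dvd_natCast.1 h7)
  rw [hgeom] at hq
  have h8 := hcop.dvd_of_dvd_mul_right hq
  rw [orderOf_dvd_iff_zpow_eq_one, zpow_sub_one, mul_inv_eq_one] at h8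
  have hty : t * y * t⁻¹ = y := by rw [← hr, h8]
  rw [Subgroup.mem_centralizer_iff, hD]
  rintro _ ⟨m, rfl⟩
  show y ^ m * t = t * y ^ m
  have h9 : Commute t y := by
    show t * y = y * t
    conv_rhs => rw [← hty]
    rw [inv_mul_cancel_right]
  exact ((h9.zpow_right m).eq).symm

end Cyc

section Main

variable {M : Ideal AlgInt} [hPr : M.IsPrime] {G : Type u} [Group G] [Fintype G]
variable {p : ℕ} [hp : Fact p.Prime] [hch : CharP (kM M) p]

/-- conjugates of the central generator -/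
theorem STr.conj_x {k : Type*} [Field k] [IsAlgClosed k] {C : Subgroup G} {b i x : MonoidAlgebra k G} {q : ℕ}
    (h : STr C b i x q) {t : G} (htC : ∀ c, t * c * t⁻¹ ∈ C ↔ c ∈ C) (htb : cj t b = b) :
    ∃ m, Supp C m ∧ cj t x = x * m := by
  have hcS : cS t C = C := by
    ext c
    rw [mem_cS]
    have := htC (t⁻¹ * c * t)
    rw [← this]
    have e1 : t * (t⁻¹ * c * t) * t⁻¹ = c := by group
    rw [e1]
  have hz : ZH C (cj t x) := by
    have h1 : ZH (cS t C) (cj t x) := ⟨supp_cj h.zx.1 t, fx_cj h.zx.2 t⟩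
    rwa [hcS] at h1
  obtain ⟨c, z', hz', hc⟩ := h.cen (cj t x) hz (by
    conv_lhs => rw [← htb]
    rw [← cj_mul, h.xb])
  refine ⟨z', hz'.1, ?_⟩
  have hc0 : c = 0 := by
    by_contra hc0
    have h1 : IsNilpotent (c • b) := by
      have e1 : c • b = cj t x - x * z' := by rw [hc]; abel
      rw [e1]
      have hcomm : Commute (cj t x) (x * z') :=
        comm_of_fx_supp hz.2 (supp_mul h.zx.1 hz'.1)
      refine hcomm.isNilpotent_sub ?_ ?_
      · exact ⟨q, by rw [← cj_pow, h.pow, cj_zero]⟩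
      · have : Commute x z' := comm_of_fx_supp h.zx.2 hz'.1
        exact ⟨q, by rw [this.mul_pow, h.pow, zero_mul]⟩
    apply h.blk.not_nilpotent
    obtain ⟨n, hn⟩ := h1
    refine ⟨n, ?_⟩
    rw [smul_pow] at hn
    exact (smul_eq_zero.1 hn).resolve_left (pow_ne_zero n hc0)
  rw [hc, hc0, zero_smul, zero_add]

theorem PrimIn.conj {k : Type*} [Field k] {C : Subgroup G} {i : MonoidAlgebra k G}
    (h : PrimIn C i) {t : G} (htC : ∀ c, t * c * t⁻¹ ∈ C ↔ c ∈ C) : PrimIn C (cj t i) := by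
  have hs : ∀ a : MonoidAlgebra k G, Supp C a → Supp C (cj t a) := by
    intro a ha g hg
    rw [cj_coeff]
    apply ha
    intro h1
    apply hg
    have := (htC (t⁻¹ * g * t)).2 h1
    have e1 : t * (t⁻¹ * g * t) * t⁻¹ = g := by group
    rwa [e1] at this
  have hs' : ∀ a : MonoidAlgebra k G, Supp C a → Supp C (cj t⁻¹ a) := by
    intro a ha g hg
    rw [cj_coeff]
    apply ha
    intro h1
    apply hg
    rw [inv_inv] at h1
    exact (htC g).1 h1
  refine ⟨hs _ h.supp, by rw [← cj_mul, h.idem], fun h0 => h.ne (cj_eq_zero.1 h0),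
    fun z hz h1 h2 h3 => ?_⟩
  rcases h.prim (cj t⁻¹ z) (hs' z hz) (by rw [← cj_mul, h1]) (by
      rw [← cj_inv_cj t i, ← cj_mul, h2]) (by rw [← cj_inv_cj t i, ← cj_mul, h3]) with h4 | h4
  · left; exact cj_eq_zero.1 h4
  · right; rw [← h4, cj_cj_inv]

/-- **the lower bound** -/
theorem rank_ge (hM : IsPModular p M) [M.IsMaximal] {B : Set (IrrCharacter G)}
    (hB : IsPBlock M B) {D : Subgroup G} {c : MonoidAlgebra (kM M) G}
    (hmx : IsMx p ⊤ (JB M B) D c) (hcyc : IsCyclic D) (hD1 : 1 < Nat.card D) :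
    (Subgroup.centralizer (D : Set G)).relIndex (TS ⊤ D c) ≤ blockRank p B := by
  classical
  have hblk := g_blk hB
  have hPc := hmx.1.1
  have hDp := hPc.pg
  obtain ⟨⟨y, hyD⟩, hygen⟩ := hcyc.exists_generator
  have hDy : D = Subgroup.zpowers y := by
    apply le_antisymm
    · intro d hd
      obtain ⟨n, hn⟩ := hygen ⟨d, hd⟩
      exact ⟨n, congrArg Subtype.val hn⟩
    · rw [Subgroup.zpowers_le]; exact hyD
  have hab : ∀ x ∈ D, ∀ y ∈ D, x * y = y * x := by
    rw [hDy]
    rintro _ ⟨m, rfl⟩ _ ⟨n, rfl⟩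
    show y ^ m * y ^ n = y ^ n * y ^ m
    rw [← zpow_add, ← zpow_add, add_comm]
  have hy1 : y ≠ 1 := by
    rintro rfl
    rw [hDy, Nat.card_zpowers, orderOf_one] at hD1
    exact lt_irrefl _ hD1
  obtain ⟨n₀, hn₀⟩ := exists_pow_order hDp hyD hy1
  obtain ⟨z, hzdef⟩ : ∃ z, z = y ^ n₀ := ⟨_, rfl⟩
  have hzp : orderOf z = p := by rw [hzdef]; exact hn₀
  have hzD : z ∈ D := by rw [hzdef]; exact D.pow_mem hyD n₀
  obtain ⟨Z, hZ⟩ : ∃ Z, Z = Subgroup.zpowers z := ⟨_, rfl⟩
  have hzZ : z ∈ Z := by rw [hZ]; exact Subgroup.mem_zpowers z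
  have hZD : Z ≤ D := by rw [hZ, Subgroup.zpowers_le]; exact hzD
  have hZp : IsPGroup p Z := hDp.to_le hZD
  have hle := evH_spec hPc hzD
  rw [← hZ] at hle
  obtain ⟨b, hbdef⟩ : ∃ b, b = evH p ⊤ D c z := ⟨_, rfl⟩
  rw [← hbdef] at hle
  have hmx' := isMx_local hblk hmx hab hle
  have hbb : IsBlk (CH ⊤ Z) b := (hle.bp_left hPc).blk
  obtain ⟨C, hC⟩ : ∃ C, C = CH ⊤ Z := ⟨_, rfl⟩
  have hCZ : C = Subgroup.centralizer (Z : Set G) := by rw [hC, CH_top]
  rw [← hC] at hmx' hbb
  have hDC : D ≤ C := hmx'.1.1.le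
  obtain ⟨N, hN⟩ : ∃ N, N = Subgroup.normalizer (Z : Set G) := ⟨_, rfl⟩
  have hCN : C ≤ N := by rw [hCZ, hN]; exact centralizer_le_normalizer Z
  have hnrm : ∀ y ∈ N, ∀ c ∈ C, y * c * y⁻¹ ∈ C := by
    intro y hy c hc
    rw [hCZ] at hc ⊢
    rw [hN] at hy
    have h1 : cS y (Subgroup.centralizer (Z : Set G)) = Subgroup.centralizer (Z : Set G) := by
      rw [← centralizer_cS, cS_of_normalizer hy]
    rw [← h1, mem_cS]
    have e1 : y⁻¹ * (y * c * y⁻¹) * y = c := by group
    rw [e1]; exact hc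
  have hnrm' : ∀ y ∈ N, ∀ c, y * c * y⁻¹ ∈ C ↔ c ∈ C := by
    intro y hy c
    constructor
    · intro h1
      have := hnrm _ (N.inv_mem hy) _ h1
      have e1 : y⁻¹ * (y * c * y⁻¹) * y⁻¹⁻¹ = c := by group
      rwa [e1] at this
    · exact hnrm y hy c
  have hdef := hmx'.isDef hbb
  -- the action on `Z`
  obtain ⟨T, hT⟩ : ∃ T, T = TS ⊤ Z b := ⟨_, rfl⟩
  have hTmem : ∀ t, t ∈ T ↔ t ∈ N ∧ cj t b = b := by
    intro t
    rw [hT, mem_TS, hN]
    exact ⟨fun h => h.2, fun h => ⟨Subgroup.mem_top _, h⟩⟩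
  have hTN : T ≤ Subgroup.normalizer (Z : Set G) := fun t ht => by
    rw [← hN]; exact ((hTmem t).1 ht).1
  have hZcyc : IsCyclic Z := by rw [hZ]; infer_instance
  have hZcard : Nat.card Z = p := by rw [hZ, Nat.card_zpowers, hzp]
  have hautc : IsCyclic (MulAut Z) := by
    have h1 : IsCyclic (ZMod (Nat.card Z))ˣ := by
      rw [hZcard]; exact ZMod.isCyclic_units_prime hp.out
    exact isCyclic_of_surjective (IsCyclic.mulAutMulEquiv Z).symm.toMonoidHom
      (IsCyclic.mulAutMulEquiv Z).symm.surjective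
  have hautcard : Nat.card (MulAut Z) = p - 1 := by
    rw [IsCyclic.card_mulAut, hZcard, Nat.totient_prime hp.out]
  haveI := hautc
  obtain ⟨⟨_, ⟨t₀, rfl⟩⟩, ht₀⟩ := (inferInstance :
    IsCyclic (actHom Z T hTN).range).exists_generator
  obtain ⟨t, ht⟩ : ∃ t : G, t = t₀ := ⟨_, rfl⟩
  have htT : t ∈ T := by rw [ht]; exact t₀.2
  obtain ⟨e, he⟩ : ∃ e, e = Nat.card (actHom Z T hTN).range := ⟨_, rfl⟩
  have he0 : 0 < e := by rw [he]; exact Nat.card_pos
  have hep : ¬ p ∣ e := by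
    intro h1
    have h2 : e ∣ p - 1 := by rw [he, ← hautcard]; exact Subgroup.card_subgroup_dvd_card _
    have h3 := Nat.le_of_dvd (by have := hp.out.two_le; omega) (h1.trans h2)
    have := hp.out.two_le
    omega
  have hord : orderOf (actHom Z T hTN t₀) = e := by
    rw [he, ← Nat.card_zpowers]
    apply Nat.card_congr
    apply Equiv.setCongr
    ext α
    constructor
    · rintro ⟨n, rfl⟩
      exact ⟨t₀ ^ n, by rw [map_zpow]⟩
    · intro hα
      obtain ⟨n, hn⟩ := ht₀ ⟨α, hα⟩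
      exact ⟨n, congrArg Subtype.val hn⟩
  have hkerC : ∀ s : T, actHom Z T hTN s = 1 ↔ (s : G) ∈ C := by
    intro s; rw [hCZ]; exact actHom_eq_one hTN
  have htpT : ∀ j : ℕ, t ^ j ∈ T := fun j => T.pow_mem htT j
  have htN : t ∈ N := ((hTmem t).1 htT).1
  have htb : cj t b = b := ((hTmem t).1 htT).2
  have hcov : ∀ y ∈ N, cj y b = b → ∃ j < e, (t ^ j)⁻¹ * y ∈ C := by
    intro y hy hyb
    have hyT : y ∈ T := (hTmem y).2 ⟨hy, hyb⟩
    obtain ⟨n, hn⟩ := ht₀ ⟨actHom Z T hTN ⟨y, hyT⟩, ⟨_, rfl⟩⟩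
    have hn' : (actHom Z T hTN t₀) ^ n = actHom Z T hTN ⟨y, hyT⟩ := congrArg Subtype.val hn
    have h1 : actHom Z T hTN ⟨y, hyT⟩ ∈ Subgroup.zpowers (actHom Z T hTN t₀) := ⟨n, hn'⟩
    rw [← mem_powers_iff_mem_zpowers] at h1
    obtain ⟨m, hm⟩ := h1
    have hm' : (actHom Z T hTN t₀) ^ m = actHom Z T hTN ⟨y, hyT⟩ := hm
    refine ⟨m % e, Nat.mod_lt _ he0, ?_⟩
    have h2 : (actHom Z T hTN t₀) ^ (m % e) = actHom Z T hTN ⟨y, hyT⟩ := by
      rw [← hm', ← hord, pow_mod_orderOf]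
    have h3 := (hkerC ((t₀ ^ (m % e))⁻¹ * ⟨y, hyT⟩)).1 (by
      rw [map_mul, map_inv, map_pow, h2, inv_mul_cancel])
    rw [ht]; exact h3
  have huni : ∀ j < e, ∀ j' < e, (t ^ j)⁻¹ * t ^ j' ∈ C → j = j' := by
    intro j hj j' hj' hjj
    have h1 := (hkerC ((t₀ ^ j)⁻¹ * t₀ ^ j')).2 (by rw [ht] at hjj; exact hjj)
    rw [map_mul, map_inv, map_pow, map_pow, inv_mul_eq_one] at h1
    exact pow_injOn_Iio_orderOf (by rw [hord]; exact hj) (by rw [hord]; exact hj') h1
  have heC : t ^ e ∈ C := by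
    have h1 := (hkerC (t₀ ^ e)).1 (by rw [map_pow, ← hord, pow_orderOf_eq_one])
    rw [ht]; exact h1
  -- `b` is nilpotent
  have hTSC : TS C D c ≤ Subgroup.centralizer (D : Set G) := by
    intro s hs
    have hTN' : TS C D c ≤ Subgroup.normalizer (D : Set G) := TS_le_normalizer
    have hpel : ∀ R : Subgroup G, R ≤ TS C D c → IsPGroup p R →
        R ≤ Subgroup.centralizer (D : Set G) := by
      intro R hR hRp
      exact (mx_pelem hbb hmx' hR hRp).trans (sup_le (ab_cen hab) inf_le_right)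
    refine aut_cyc hDp hDy hzD hzp hs.2.1 ?_ (act_card hTN' hpel) ?_
    · have h1 := hs.1
      rw [hCZ] at h1
      have := Subgroup.mem_centralizer_iff.1 h1 z hzZ
      rw [← this, mul_inv_cancel_right]
    · refine (actHom_eq_one hTN' (t := (⟨s, hs⟩ : TS C D c) ^
        (Nat.card (actHom D (TS C D c) hTN').range))).1 ?_
      rw [map_pow]
      have h2 : actHom D (TS C D c) hTN' ⟨s, hs⟩ ∈ (actHom D (TS C D c) hTN').range := ⟨_, rfl⟩
      have h3 := pow_card_eq_one' (G := (actHom D (TS C D c) hTN').range) (x := ⟨_, h2⟩)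
      exact congrArg Subtype.val h3
  have hnilp : Nilp p C b := (nilp_abelian hbb hmx' hab).2 hTSC
  obtain ⟨i, x, hst⟩ := st_sub hM hbb hdef hnilp hDy hD1
  -- the elements `g`, `g'`
  have hii := hst.prim.idem
  obtain ⟨X, Y, hXC, hYC, h1, h2, h3, h4, h5, h6⟩ := hst.iso (cj t i)
    (hst.prim.conj (hnrm' t htN)) (by
      conv_lhs => rw [← htb]
      rw [← cj_mul, hst.ib])
  have hsti : sg (kM M) t * i = cj t i * sg (kM M) t := by
    rw [← sg_conj, mul_assoc, mul_assoc, sg_mul, inv_mul_cancel, sg_one, mul_one]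
  have hsti' : i * sg (kM M) t⁻¹ = sg (kM M) t⁻¹ * cj t i := by
    rw [← sg_conj, ← mul_assoc, ← mul_assoc, sg_mul, inv_mul_cancel, sg_one, one_mul]
  obtain ⟨g, hg⟩ : ∃ g, g = X * sg (kM M) t := ⟨_, rfl⟩
  obtain ⟨g', hg'⟩ : ∃ g', g' = sg (kM M) t⁻¹ * Y := ⟨_, rfl⟩
  have hig : i * g = g := by rw [hg, ← mul_assoc, h1]
  have hgi : g * i = g := by rw [hg, mul_assoc, hsti, ← mul_assoc, h2]
  have hig' : i * g' = g' := by rw [hg', ← mul_assoc, hsti', mul_assoc, h3]
  have hgi' : g' * i = g' := by rw [hg', mul_assoc, h4]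
  have hgg : g * g' = i := by
    rw [hg, hg', mul_assoc, ← mul_assoc (sg (kM M) t), sg_mul, mul_inv_cancel, sg_one, one_mul, h5]
  have hgg' : g' * g = i := by
    have e1 : g' * g = sg (kM M) t⁻¹ * (Y * X) * sg (kM M) t := by
      rw [hg, hg']; simp only [mul_assoc]
    rw [e1, h6, mul_assoc, ← hsti, ← mul_assoc, sg_mul, inv_mul_cancel, sg_one, one_mul]
  have hcjC : ∀ j : ℕ, ∀ a : MonoidAlgebra (kM M) G, Supp C a →
      Supp C (sg (kM M) (t ^ j) * a * sg (kM M) (t ^ j)⁻¹) := by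
    intro j a ha
    rw [sg_conj]
    intro s hs
    rw [cj_coeff]
    apply ha
    intro h7
    apply hs
    have := hnrm (t ^ j) (N.pow_mem htN j) _ h7
    have e1 : t ^ j * ((t ^ j)⁻¹ * s * t ^ j) * (t ^ j)⁻¹ = s := by group
    rwa [e1] at this
  have hgC : ∀ j : ℕ, Supp C (g ^ j * i * sg (kM M) (t ^ j)⁻¹) := by
    intro j
    induction j with
    | zero => rw [pow_zero, pow_zero, inv_one, sg_one, one_mul, mul_one]; exact hst.prim.supp
    | succ j ih =>
      have e1 : g ^ (j + 1) * i * sg (kM M) (t ^ (j + 1))⁻¹ = (g ^ j * i * sg (kM M) (t ^ j)⁻¹) *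
          (sg (kM M) (t ^ j) * X * sg (kM M) (t ^ j)⁻¹) := by
        have e2 : (t ^ (j + 1))⁻¹ = t⁻¹ * (t ^ j)⁻¹ := by rw [pow_succ, mul_inv_rev]
        calc g ^ (j + 1) * i * sg (kM M) (t ^ (j + 1))⁻¹ = g ^ j * (g * i) *
              (sg (kM M) t⁻¹ * sg (kM M) (t ^ j)⁻¹) := by
              rw [e2, ← sg_mul, pow_succ]; simp only [mul_assoc]
          _ = g ^ j * X * (sg (kM M) t * sg (kM M) t⁻¹) * sg (kM M) (t ^ j)⁻¹ := by
              rw [hgi, hg]; simp only [mul_assoc]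
          _ = g ^ j * (i * X) * sg (kM M) (t ^ j)⁻¹ := by
              rw [sg_mul, mul_inv_cancel, sg_one, mul_one, h1]
          _ = g ^ j * i * (sg (kM M) (t ^ j)⁻¹ * sg (kM M) (t ^ j)) * X * sg (kM M) (t ^ j)⁻¹ := by
              rw [sg_mul, inv_mul_cancel, sg_one, mul_one]; simp only [mul_assoc]
          _ = _ := by simp only [mul_assoc]
      rw [e1]
      exact supp_mul ih (hcjC j X hXC)
  have hgC' : ∀ j : ℕ, Supp C (sg (kM M) (t ^ j) * (i * g' ^ j)) := by
    intro j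
    induction j with
    | zero => rw [pow_zero, pow_zero, sg_one, one_mul, mul_one]; exact hst.prim.supp
    | succ j ih =>
      have e1 : sg (kM M) (t ^ (j + 1)) * (i * g' ^ (j + 1)) =
          (sg (kM M) (t ^ j) * Y * sg (kM M) (t ^ j)⁻¹) * (sg (kM M) (t ^ j) * (i * g' ^ j)) := by
        calc sg (kM M) (t ^ (j + 1)) * (i * g' ^ (j + 1)) =
              (sg (kM M) (t ^ j) * sg (kM M) t) * ((i * g') * g' ^ j) := by
              rw [sg_mul, ← pow_succ, pow_succ' g']; simp only [mul_assoc]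
          _ = sg (kM M) (t ^ j) * (sg (kM M) t * sg (kM M) t⁻¹) * Y * g' ^ j := by
              rw [hig', hg']; simp only [mul_assoc]
          _ = sg (kM M) (t ^ j) * (Y * i) * g' ^ j := by
              rw [sg_mul, mul_inv_cancel, sg_one, mul_one, h4]
          _ = sg (kM M) (t ^ j) * Y * (sg (kM M) (t ^ j)⁻¹ * sg (kM M) (t ^ j)) * i * g' ^ j := by
              rw [sg_mul, inv_mul_cancel, sg_one, mul_one]; simp only [mul_assoc]
          _ = _ := by simp only [mul_assoc]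
      rw [e1]
      exact supp_mul (hcjC j Y hYC) ih
  have hxC : ∀ a, Supp C a → x * a = a * x := fun a ha => hst.hx ha
  have hgx : ∃ m, Supp C m ∧ g * x * g' = x * m := by
    obtain ⟨m, hm, hmx⟩ := hst.conj_x (hnrm' t htN) htb
    refine ⟨X * m * Y, supp_mul (supp_mul hXC hm) hYC, ?_⟩
    have e1 : g * x * g' = X * (sg (kM M) t * x * sg (kM M) t⁻¹) * Y := by
      rw [hg, hg']; simp only [mul_assoc]
    rw [e1, sg_conj, hmx, ← mul_assoc, ← hxC X hXC]
    simp only [mul_assoc]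
  have hgx' : ∃ m, Supp C m ∧ g' * x * g = x * m := by
    have htinvb : cj t⁻¹ b = b := by
      conv_lhs => rw [← htb]
      rw [cj_inv_cj]
    obtain ⟨m, hm, hmx⟩ := hst.conj_x (hnrm' t⁻¹ (N.inv_mem htN)) htinvb
    refine ⟨m * i, supp_mul hm hst.prim.supp, ?_⟩
    have e1 : g' * x * g = (sg (kM M) t⁻¹ * x * sg (kM M) t) * (sg (kM M) t⁻¹ * (Y * X) *
        sg (kM M) t) := by
      calc g' * x * g = sg (kM M) t⁻¹ * (Y * x) * X * sg (kM M) t := by
            rw [hg, hg']; simp only [mul_assoc]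
        _ = sg (kM M) t⁻¹ * x * (Y * X) * sg (kM M) t := by
            rw [← hxC Y hYC]; simp only [mul_assoc]
        _ = sg (kM M) t⁻¹ * x * (sg (kM M) t * sg (kM M) t⁻¹) * (Y * X) * sg (kM M) t := by
            rw [sg_mul, mul_inv_cancel, sg_one, mul_one]
        _ = _ := by simp only [mul_assoc]
    have e2 : sg (kM M) t⁻¹ * (Y * X) * sg (kM M) t = i := by
      rw [h6, mul_assoc, ← hsti, ← mul_assoc, sg_mul, inv_mul_cancel, sg_one, one_mul]
    have e3 : sg (kM M) t⁻¹ * x * sg (kM M) t = cj t⁻¹ x := by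
      rw [← sg_conj, inv_inv]
    rw [e1, e2, e3, hmx, mul_assoc]
  obtain ⟨b', hb'1, hb'2, hb'3⟩ := exists_tr' hdef.le hdef.di
  have hcfg : Cfg C N D b i x (Nat.card D) t e g g' := by
    refine ⟨hst, hDC, hCN, hnrm, ?_, ?_, htN, htb, hcov, huni, ⟨b', hb'1, hb'2, hb'3⟩, ?_, hig,
      hgi, hig', hgi', hgg, hgg', hgC, hgC', hgx, hgx'⟩
    · intro s hs d hd hsd
      refine free_cyc hcyc hDp hzD hzp (y := s) ?_ hd hsd
      rw [← hZ, ← hN]; exact hs
    · intro s hs hne
      have h7 : IsBlk C (cj s b) := by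
        have h8 := hbb.cj s
        have h9 : cS s C = C := by
          ext c
          rw [mem_cS]
          have := hnrm' s hs (s⁻¹ * c * s)
          rw [← this]
          have e1 : s * (s⁻¹ * c * s) * s⁻¹ = c := by group
          rw [e1]
        change IsBlk (cS s C) (cj s b) at h8
        rwa [h9] at h8
      exact h7.orth hbb hne
    · intro h0
      exact hep ((CharP.cast_eq_zero_iff (kM M) p e).1 h0)
  -- `g ^ e`
  have hgei : g ^ e * i = g ^ e := by
    obtain ⟨r, rfl⟩ : ∃ r, e = r + 1 := ⟨e - 1, by omega⟩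
    rw [pow_succ, mul_assoc, hgi]
  have hige : i * g ^ e = g ^ e := by
    obtain ⟨r, rfl⟩ : ∃ r, e = r + 1 := ⟨e - 1, by omega⟩
    rw [pow_succ', ← mul_assoc, hig]
  have hgeC : Supp C (g ^ e) := by
    have h7 : g ^ e = (g ^ e * i * sg (kM M) (t ^ e)⁻¹) * sg (kM M) (t ^ e) := by
      rw [mul_assoc, sg_mul, inv_mul_cancel, sg_one, mul_one, hgei]
    rw [h7]
    exact supp_mul (hgC e) (supp_sg heC)
  obtain ⟨α, a₀, ha₀, hge⟩ := hst.cor0 hD1 hgeC ⟨hige, hgei⟩
  have hα : α ≠ 0 := by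
    intro h0
    rw [h0, zero_smul, zero_add] at hge
    have hg'eC : Supp C (i * g' ^ e) := by
      have h7 : i * g' ^ e = sg (kM M) (t ^ e)⁻¹ * (sg (kM M) (t ^ e) * (i * g' ^ e)) := by
        rw [← mul_assoc, sg_mul, inv_mul_cancel, sg_one, one_mul]
      rw [h7]
      exact supp_mul (supp_sg (C.inv_mem heC)) (hgC' e)
    have hgge : ∀ j : ℕ, g ^ j * i * (i * g' ^ j) = i := by
      intro j
      induction j with
      | zero => rw [pow_zero, pow_zero, one_mul, mul_one, hii]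
      | succ j ih =>
        calc g ^ (j + 1) * i * (i * g' ^ (j + 1)) = g ^ (j + 1) * (i * i) * g' ^ (j + 1) := by
              simp only [mul_assoc]
          _ = g ^ j * (g * i * g') * g' ^ j := by rw [hii, pow_succ, pow_succ']; simp only [mul_assoc]
          _ = g ^ j * i * (i * g' ^ j) := by
              rw [hgi, hgg]
              calc g ^ j * i * g' ^ j = g ^ j * (i * i) * g' ^ j := by rw [hii]
                _ = _ := by simp only [mul_assoc]
          _ = i := ih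
    have h7 : i = x * (a₀ * (i * g' ^ e)) := by
      rw [← mul_assoc, ← hge]
      conv_lhs => rw [← hgge e]
      rw [hgei]
    have h8 : ∀ n : ℕ, ∃ m, Supp C m ∧ i = x ^ n * m := by
      intro n
      induction n with
      | zero => exact ⟨i, hst.prim.supp, by rw [pow_zero, one_mul]⟩
      | succ n ih =>
        obtain ⟨m, hm, h9⟩ := ih
        refine ⟨(a₀ * (i * g' ^ e)) * m, supp_mul (supp_mul ha₀ hg'eC) hm, ?_⟩
        calc i = i * i := hii.symm
          _ = (x * (a₀ * (i * g' ^ e))) * (x ^ n * m) := by rw [← h7, ← h9]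
          _ = x * ((a₀ * (i * g' ^ e)) * x ^ n) * m := by simp only [mul_assoc]
          _ = _ := by
            rw [← hst.hxn n (supp_mul ha₀ hg'eC), pow_succ']; simp only [mul_assoc]
    obtain ⟨m, _, h9⟩ := h8 (Nat.card D)
    rw [hst.pow, zero_mul] at h9
    exact hst.prim.ne h9
  -- the eigenvalues
  obtain ⟨γ, hγinj, hγ⟩ : ∃ γ : Fin e → kM M, Function.Injective γ ∧ ∀ l, γ l ^ e = α := by
    have hek : (e : kM M) ≠ 0 := hcfg.e0
    have hsep := Polynomial.separable_X_pow_sub_C α hek hα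
    have hnd := Polynomial.nodup_roots hsep
    have hcard : (Polynomial.X ^ e - Polynomial.C α : Polynomial (kM M)).roots.toFinset.card = e := by
      rw [Multiset.toFinset_card_of_nodup hnd]
      have h7 := (IsAlgClosed.splits (Polynomial.X ^ e - Polynomial.C α :
        Polynomial (kM M))).natDegree_eq_card_roots
      rw [← h7, Polynomial.natDegree_X_pow_sub_C]
    let f := (Polynomial.X ^ e - Polynomial.C α : Polynomial (kM M)).roots.toFinset.equivFinOfCardEq hcard
    refine ⟨fun l => f.symm l, fun l l' h => f.symm.injective (Subtype.ext h), fun l => ?_⟩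
    have h7 := (f.symm l).2
    rw [Multiset.mem_toFinset, Polynomial.mem_roots'] at h7
    have h8 := h7.2
    rw [Polynomial.IsRoot.def, Polynomial.eval_sub, Polynomial.eval_pow, Polynomial.eval_X,
      Polynomial.eval_C, sub_eq_zero] at h8
    exact h8
  -- maximal left ideals
  have hBc : ∀ a, JB M B * a = a * JB M B := fun a =>
    comm_of_fx_supp (H := ⊤) hblk.zh.2 (fun g hg => absurd (Subgroup.mem_top g) hg)
  have hbr : Br Z (JB M B) * b = b := ((of_iff_of_le hblk hPc hle).1 hmx.1).2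
  have hMI : ∀ l : Fin e, ∃ P, MI i x g (JB M B) (Nat.card D) (γ l) P := by
    intro l
    obtain ⟨η, e1, e2, e3, e4, e5, e6⟩ := exists_eta hcfg hD1 (Z := Z) hCZ (hZD.trans hDC)
      (fun z hz => by
        have := hTN htT
        exact (Subgroup.mem_normalizer_iff.1 this z).1 hz)
      (fun z' hz' hz'1 => by
        have h7 := aug_pow_ne hM (c := b) (D := Z) (by rw [← hC]; exact hbb) hZp hz' (n := 1) (by
          rcases Nat.lt_or_ge 1 (orderOf z') with h8 | h8
          · exact h8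
          · exfalso
            apply hz'1
            rw [← orderOf_eq_one_iff]
            have := orderOf_pos z'
            omega)
        rwa [pow_one] at h7)
      hblk.zh hblk.idem hbr hα (hγ l) ⟨a₀, ha₀, hge⟩ he0
    exact MI_of_eta hcfg hD1 hα (hγ l) ⟨a₀, ha₀, hge⟩ hBc η e1 e2 e3 e4 e5 e6
  choose P hP using hMI
  obtain ⟨L, hL⟩ := exists_dec (kM M) (A := MonoidAlgebra (kM M) G) (e := 1) (one_mul 1)
  have hj : ∀ l : Fin e, ∃ j ∈ L, j ∉ P l := by
    intro l
    by_contra hcon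
    push Not at hcon
    apply (hP l).one
    rw [← hL.sum]
    exact Submodule.sum_mem _ hcon
  choose j hjL hjP using hj
  have hjB : ∀ l, j l * JB M B = j l := by
    intro l
    have hpj := hL.prim _ (hjL l)
    rcases hpj.prim (j l * JB M B) (by
        rw [mul_assoc, ← mul_assoc (JB M B), hBc (j l), mul_assoc (j l), hblk.idem, ← mul_assoc,
          hpj.idem]) (by rw [← mul_assoc, hpj.idem]) (by
        rw [mul_assoc, hBc, ← mul_assoc, hpj.idem]) with h7 | h7
    · exfalso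
      apply hjP l
      have h8 : j l = j l * (1 - JB M B) := by rw [mul_sub, h7, mul_one, sub_zero]
      rw [h8]
      exact sub_mul_mem (hP l).hB _
    · exact h7
  have hle1 : e ≤ blockRank p B := by
    refine points_le hM hB hL j hjL hjB fun l l' hne hiso => hne ?_
    exact hγinj (pt_unique hcfg (hP l) (hP l') (hL.prim _ (hjL l)) (hL.prim _ (hjL l')) hiso
      (hjP l) (hjP l'))
  refine le_trans ?_ hle1
  -- comparison of the indices
  have hTSle : TS ⊤ D c ≤ T := by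
    intro s hs
    rw [hTmem, hN, hZ]
    have hsN : s ∈ Subgroup.normalizer (D : Set G) := hs.2.1
    have hsZ : s ∈ Subgroup.normalizer (Z : Set G) := cyc_norm hcyc hZD hsN
    refine ⟨by rw [← hZ]; exact hsZ, ?_⟩
    have h7 := hle.cj' (Subgroup.mem_top s)
    simp only [cS_of_normalizer hsN, cS_of_normalizer hsZ, hs.2.2] at h7
    exact LEp.unique hPc h7 hle
  have hCr : (Subgroup.centralizer (D : Set G)).relIndex (TS ⊤ D c) = C.relIndex (TS ⊤ D c) := by
    rw [← Subgroup.inf_relIndex_right, ← Subgroup.inf_relIndex_right C]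
    congr 1
    apply le_antisymm
    · exact inf_le_inf_right _ (by rw [hCZ]; exact centralizer_anti hZD)
    · refine le_inf ?_ inf_le_right
      intro s hs
      exact hTSC ⟨hs.1, hs.2.2.1, hs.2.2.2⟩
  rw [hCr]
  have h7 : C.relIndex T = e := by
    rw [he]
    have h8 : C.subgroupOf T = (actHom Z T hTN).ker := by
      ext s
      rw [Subgroup.mem_subgroupOf, MonoidHom.mem_ker, hkerC]
    unfold Subgroup.relIndex
    rw [h8, Subgroup.index_ker]
  rw [← h7]
  exact Subgroup.relIndex_le_of_le_right hTSle Subgroup.index_ne_zero_of_finite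

omit hPr hch in
theorem s4649 (hM : IsPModular p M) {B : Set (IrrCharacter G)} (hB : IsPBlock M B)
    {P : Subgroup G} (hPD : IsDefectGroup p M B P) (hcyc : IsCyclic P) :
    IsNilpotentBlock p M B ↔ blockRank p B = 1 := by
  classical
  haveI hPr : M.IsPrime := isPrime_of_modular hM
  haveI : M.IsMaximal := hM.2.1
  haveI := charP_kM hM
  constructor
  · intro h
    exact (nil_S4689 hM h).1
  · intro hl
    have hblk := g_blk hB
    have hdef : IsDef p ⊤ (JB M B) P := (g_def hM hB).1 hPD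
    obtain ⟨c, hc⟩ := exists_of_br_ne hblk hdef.le hdef.pg hdef.br
    have hmx := isMx_of_isDef hblk hdef hc
    have hab : ∀ x ∈ P, ∀ y ∈ P, x * y = y * x := by
      intro x hx y hy
      letI := hcyc.commGroup
      exact congrArg Subtype.val (mul_comm (⟨x, hx⟩ : P) ⟨y, hy⟩)
    rw [nilp_iff_g hM hB, nilp_abelian hblk hmx hab]
    by_cases hP1 : 1 < Nat.card P
    · have h1 := rank_ge hM hB hmx hcyc hP1
      rw [hl] at h1
      have h2 : (Subgroup.centralizer (P : Set G)).relIndex (TS ⊤ P c) = 1 := by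
        have : (Subgroup.centralizer (P : Set G)).relIndex (TS ⊤ P c) ≠ 0 :=
          Subgroup.index_ne_zero_of_finite
        omega
      exact Subgroup.relIndex_eq_one.1 h2
    · have h2 : P = ⊥ := by
        rw [← Subgroup.card_eq_one]
        have : 0 < Nat.card P := Nat.card_pos
        omega
      rw [h2]
      intro x _
      rw [Subgroup.mem_centralizer_iff]
      intro y hy
      have : y = 1 := by simpa using hy
      rw [this, one_mul, mul_one]

end Main

end CfsgLib.Star
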