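import Mathlib
import Cfsg.Agent.EqBase
import Cfsg.Agent.LibStar53

/-!
# Star construction, LIV: linear algebra for free inertial quotients (helper18)
-/

set_option autoImplicit false
set_option linter.unusedSectionVars false
set_option linter.style.haveILetI false
set_option linter.unusedSimpArgs false
set_option linter.unusedVariables false

namespace CfsgLib.Star

open Cfsg CfsgLib.GalChar CfsgLib.GalField CfsgLib.BlockReg CfsgLib.BlockReg2 CfsgLib.LocR
  CfsgLib.BrP CfsgLib.Car CfsgLib.BlockQP CfsgLib.BlockDefect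
  CfsgLib.Points CfsgLib.PLocalInd CfsgLib.CharBasic CfsgLib.BlockCore CfsgLib.BlockSec
  CfsgLib.BlockR CfsgLib.BlockIdem CfsgLib.BlockOrth CfsgLib.CharIndA CfsgLib.CharNorm
open scoped ComplexConjugate Pointwise

/-- abstract data of generalized decomposition numbers -/
structure KD {P : Type*} [Group P] [Fintype P] {I : Type*} [Fintype I] [DecidableEq I]
    (A : Subgroup (MulAut P)) (κ : I → P → ℂ) (m : I → I → ℤ) : Prop where
  ab : ∀ x y : P, x * y = y * x
  free : ∀ α ∈ A, ∀ v : P, v ≠ 1 → α v = v → α = 1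
  one : ∀ i, κ i 1 = 0
  inv : ∀ i, ∀ α ∈ A, ∀ v, κ i (α v) = κ i v
  symm : ∀ i j, m i j = m j i
  row : ∀ i j, (m i j : ℂ) + (Nat.card A : ℂ)⁻¹ * ∑ v, κ i v * conj (κ j v) =
    if i = j then (Nat.card P : ℂ) else 0
  idem : ∀ i k, ∑ j, m i j * m j k = (Nat.card P : ℤ) * m i k
  col : ∀ v, v ≠ 1 → ∑ i, κ i v * conj (κ i v) = (Nat.card P : ℂ)
  int : ∀ (f : P →* ℂˣ) i, ∃ n : ℤ,
    (Nat.card P : ℂ)⁻¹ * ∑ v, (((f v : ℂˣ) : ℂ) - 1) * conj (κ i v) = n
  nz : ∀ i, ∃ v, κ i v ≠ 0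

section Dual

variable {P : Type*} [Group P] [Fintype P]

theorem conj_hom (f : P →* ℂˣ) (v : P) : conj ((f v : ℂˣ) : ℂ) = (((f⁻¹) v : ℂˣ) : ℂ) := by
  rw [MonoidHom.inv_apply, Units.val_inv_eq_inv_val]
  have h2 : ‖((f v : ℂˣ) : ℂ)‖ = 1 := by
    have h3 : ((f v : ℂˣ) : ℂ) ^ orderOf v = 1 := by
      rw [← Units.val_pow_eq_pow_val, ← map_pow, pow_orderOf_eq_one, map_one, Units.val_one]
    exact Complex.norm_eq_one_of_pow_eq_one h3 (orderOf_pos v).ne'
  exact (Complex.inv_eq_conj h2).symm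

theorem sum_hom (f : P →* ℂˣ) (hf : f ≠ 1) : ∑ v, ((f v : ℂˣ) : ℂ) = 0 := by
  obtain ⟨v₀, hv₀⟩ : ∃ v, f v ≠ 1 := by
    by_contra h
    push Not at h
    exact hf (MonoidHom.ext h)
  have h1 : ((f v₀ : ℂˣ) : ℂ) * ∑ v, ((f v : ℂˣ) : ℂ) = ∑ v, ((f v : ℂˣ) : ℂ) := by
    rw [Finset.mul_sum, ← Equiv.sum_comp (Equiv.mulLeft v₀) (fun v => ((f v : ℂˣ) : ℂ))]
    refine Finset.sum_congr rfl fun v _ => ?_
    rw [Equiv.coe_mulLeft, map_mul, Units.val_mul]
  have h2 : (((f v₀ : ℂˣ) : ℂ) - 1) * ∑ v, ((f v : ℂˣ) : ℂ) = 0 := by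
    rw [sub_mul, one_mul, h1, sub_self]
  rcases mul_eq_zero.1 h2 with h3 | h3
  · exact absurd (Units.ext (by rw [Units.val_one]; exact sub_eq_zero.1 h3)) hv₀
  · exact h3

open Classical in
theorem hom_orth (f g : P →* ℂˣ) : ∑ v, ((f v : ℂˣ) : ℂ) * conj ((g v : ℂˣ) : ℂ) =
    if f = g then (Nat.card P : ℂ) else 0 := by
  have h1 : ∀ v, ((f v : ℂˣ) : ℂ) * conj ((g v : ℂˣ) : ℂ) = (((f * g⁻¹) v : ℂˣ) : ℂ) := by
    intro v
    rw [conj_hom, MonoidHom.mul_apply, Units.val_mul]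
  rw [Finset.sum_congr rfl fun v _ => h1 v]
  split_ifs with h
  · have h2 : ∀ v, (((f * g⁻¹) v : ℂˣ) : ℂ) = 1 := by
      intro v
      rw [h, MonoidHom.mul_apply, MonoidHom.inv_apply, mul_inv_cancel, Units.val_one]
    rw [Finset.sum_congr rfl fun v _ => h2 v, Finset.sum_const, Finset.card_univ, nsmul_eq_mul,
      mul_one, Nat.card_eq_fintype_card]
  · refine sum_hom _ fun h' => h (MonoidHom.ext fun v => ?_)
    have h2 := DFunLike.congr_fun h' v
    rw [MonoidHom.mul_apply, MonoidHom.inv_apply, MonoidHom.one_apply, mul_inv_eq_one] at h2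
    exact h2

theorem sum_dual (hab : ∀ x y : P, x * y = y * x) [Fintype (P →* ℂˣ)] (y : P) (hy : y ≠ 1) :
    ∑ f : P →* ℂˣ, ((f y : ℂˣ) : ℂ) = 0 := by
  classical
  have hcomm : commutator P ≤ (⊥ : Subgroup P) := by
    rw [commutator_def, Subgroup.commutator_le]
    intro a _ b _
    rw [Subgroup.mem_bot, commutatorElement_eq_one_iff_mul_comm]
    exact hab a b
  haveI : Fintype (XN (⊥ : Subgroup P)) := Fintype.ofFinite _
  have h1 := (XN_sum hcomm y).2 (by rw [Subgroup.mem_bot]; exact hy)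
  rw [← h1]
  symm
  refine Finset.sum_bij (fun f _ => (f : P →* ℂˣ)) (fun _ _ => Finset.mem_univ _)
    (fun a _ b _ h => Subtype.ext h) (fun f _ => ?_) (fun _ _ => rfl)
  refine ⟨⟨f, fun x hx => ?_⟩, Finset.mem_univ _, rfl⟩
  rw [Subgroup.mem_bot] at hx
  rw [hx, map_one]

theorem card_dual (hab : ∀ x y : P, x * y = y * x) : Nat.card (P →* ℂˣ) = Nat.card P := by
  rw [card_hom]
  have hcomm : commutator P = (⊥ : Subgroup P) := by
    rw [eq_bot_iff, commutator_def, Subgroup.commutator_le]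
    intro a _ b _
    rw [Subgroup.mem_bot, commutatorElement_eq_one_iff_mul_comm]
    exact hab a b
  rw [hcomm, Subgroup.index_bot]

end Dual

namespace KD

variable {P : Type*} [Group P] [Fintype P] {I : Type*} [Fintype I] [DecidableEq I]
  {A : Subgroup (MulAut P)} {κ : I → P → ℂ} {m : I → I → ℤ}

theorem e0 (h : KD A κ m) : (Nat.card A : ℂ) ≠ 0 := by exact_mod_cast Nat.card_pos.ne'

theorem q0 (h : KD A κ m) : (Nat.card P : ℂ) ≠ 0 := by exact_mod_cast Nat.card_pos.ne'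

/-- the row relation applied to a vector -/
theorem vec (h : KD A κ m) (y : I → ℂ) (i : I) :
    ∑ j, (m i j : ℂ) * y j + (Nat.card A : ℂ)⁻¹ * ∑ v, κ i v * ∑ j, conj (κ j v) * y j =
      (Nat.card P : ℂ) * y i := by
  have h1 : ∑ j, ((m i j : ℂ) + (Nat.card A : ℂ)⁻¹ * ∑ v, κ i v * conj (κ j v)) * y j =
      (Nat.card P : ℂ) * y i := by
    simp_rw [h.row]
    simp
  rw [← h1]
  simp_rw [add_mul]
  rw [Finset.sum_add_distrib]
  congr 1
  simp_rw [mul_assoc]
  rw [← Finset.mul_sum]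
  congr 1
  simp_rw [Finset.mul_sum, Finset.sum_mul]
  rw [Finset.sum_comm]
  refine Finset.sum_congr rfl fun j _ => Finset.sum_congr rfl fun v _ => by ring

/-- the columns are in the kernel of `m` -/
theorem ker (h : KD A κ m) (w : P) (i : I) : ∑ j, (m i j : ℂ) * κ j w = 0 := by
  obtain ⟨y, hy⟩ : ∃ y : I → ℂ, y = fun i => ∑ j, (m i j : ℂ) * κ j w := ⟨_, rfl⟩
  have hmy : ∀ i, ∑ j, (m i j : ℂ) * y j = (Nat.card P : ℂ) * y i := by
    intro i
    rw [hy]
    simp_rw [Finset.mul_sum]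
    rw [Finset.sum_comm]
    refine Finset.sum_congr rfl fun k _ => ?_
    have h1 := h.idem i k
    have h2 : (∑ j, (m i j : ℂ) * (m j k : ℂ)) = (Nat.card P : ℂ) * (m i k : ℂ) := by
      exact_mod_cast h1
    rw [← mul_assoc, ← h2, Finset.sum_mul]
    refine Finset.sum_congr rfl fun j _ => by ring
  obtain ⟨c, hc⟩ : ∃ c : P → ℂ, c = fun v => ∑ j, conj (κ j v) * y j := ⟨_, rfl⟩
  have h3 : ∀ i, ∑ v, κ i v * c v = 0 := by
    intro i
    have h4 := h.vec y i
    rw [hmy i] at h4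
    have h5 : (Nat.card A : ℂ)⁻¹ * ∑ v, κ i v * ∑ j, conj (κ j v) * y j = 0 := by
      linear_combination h4
    rw [hc]
    exact (mul_eq_zero.1 h5).resolve_left (inv_ne_zero h.e0)
  have h4 : ∑ v, conj (c v) * c v = 0 := by
    have h5 : ∀ v, conj (c v) = ∑ i, conj (y i) * κ i v := by
      intro v
      rw [hc]
      simp only [map_sum, map_mul, Complex.conj_conj]
      exact Finset.sum_congr rfl fun i _ => mul_comm _ _
    simp_rw [h5, Finset.sum_mul]
    rw [Finset.sum_comm]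
    apply Finset.sum_eq_zero
    intro i _
    simp_rw [mul_assoc]
    rw [← Finset.mul_sum, h3 i, mul_zero]
  have h5 : ∀ v, c v = 0 := by
    have h6 : ∑ v, Complex.normSq (c v) = 0 := by
      have h7 : ((∑ v, Complex.normSq (c v) : ℝ) : ℂ) = 0 := by
        rw [Complex.ofReal_sum, ← h4]
        refine Finset.sum_congr rfl fun v _ => ?_
        rw [mul_comm, Complex.mul_conj]
      exact_mod_cast h7
    intro v
    have h8 := (Finset.sum_eq_zero_iff_of_nonneg (fun v _ => Complex.normSq_nonneg (c v))).1 h6 v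
      (Finset.mem_univ v)
    exact Complex.normSq_eq_zero.1 h8
  have h6 : ∑ i, conj (y i) * y i = 0 := by
    have h7 : ∀ i, conj (y i) = ∑ j, (m i j : ℂ) * conj (κ j w) := by
      intro i
      rw [hy]
      simp only [map_sum, map_mul, map_intCast]
    simp_rw [h7, Finset.sum_mul]
    rw [Finset.sum_comm]
    have h8 : ∀ j, ∑ i, (m i j : ℂ) * conj (κ j w) * y i =
        conj (κ j w) * ((Nat.card P : ℂ) * y j) := by
      intro j
      rw [← hmy j, Finset.mul_sum]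
      refine Finset.sum_congr rfl fun i _ => ?_
      rw [h.symm j i]; ring
    simp_rw [h8]
    have h9 := h5 w
    rw [hc] at h9
    have h10 : ∑ j, conj (κ j w) * ((Nat.card P : ℂ) * y j) =
        (Nat.card P : ℂ) * ∑ j, conj (κ j w) * y j := by
      rw [Finset.mul_sum]
      refine Finset.sum_congr rfl fun j _ => by ring
    rw [h10]
    have h11 : ∑ j, conj (κ j w) * y j = 0 := h9
    rw [h11, mul_zero]
  have h7 : y i = 0 := by
    have h8 : ∑ i, Complex.normSq (y i) = 0 := by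
      have h9 : ((∑ i, Complex.normSq (y i) : ℝ) : ℂ) = 0 := by
        rw [Complex.ofReal_sum, ← h6]
        refine Finset.sum_congr rfl fun v _ => ?_
        rw [mul_comm, Complex.mul_conj]
      exact_mod_cast h9
    have h10 := (Finset.sum_eq_zero_iff_of_nonneg (fun v _ => Complex.normSq_nonneg (y v))).1 h8 i
      (Finset.mem_univ i)
    exact Complex.normSq_eq_zero.1 h10
  rw [hy] at h7
  exact h7

/-- the Gram matrix of the columns -/
theorem orb_inj (h : KD A κ m) {w : P} (hw : w ≠ 1) :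
    Function.Injective (fun α : A => (α : MulAut P) w) := by
  intro α β hαβ
  have h1 : (α : MulAut P) w = (β : MulAut P) w := hαβ
  have h2 := h.free ((β : MulAut P)⁻¹ * α) (A.mul_mem (A.inv_mem β.2) α.2) w hw (by
    rw [MulAut.mul_apply, h1]
    exact MulEquiv.symm_apply_apply _ _)
  exact Subtype.ext (inv_mul_eq_one.1 h2).symm

theorem orth (h : KD A κ m) {w v : P} (hw : w ≠ 1) (hv : ∀ α ∈ A, α w ≠ v) :
    ∑ j, conj (κ j v) * κ j w = 0 := by
  classical
  haveI := Fintype.ofFinite A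
  obtain ⟨O, hO⟩ : ∃ O : P → ℂ, O = fun v => ∑ j, conj (κ j v) * κ j w := ⟨_, rfl⟩
  have h1 : ∀ i, ∑ v, κ i v * O v = (Nat.card A : ℂ) * (Nat.card P : ℂ) * κ i w := by
    intro i
    have h2 := h.vec (fun j => κ j w) i
    rw [h.ker w i, zero_add] at h2
    have h3 : ∑ v, κ i v * O v = (Nat.card A : ℂ) *
        ((Nat.card A : ℂ)⁻¹ * ∑ v, κ i v * ∑ j, conj (κ j v) * κ j w) := by
      rw [mul_inv_cancel_left₀ h.e0, hO]
    rw [h3, h2, mul_assoc]
  have hOw : ∀ α ∈ A, O (α w) = Nat.card P := by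
    intro α hα
    rw [hO]
    show ∑ j, conj (κ j (α w)) * κ j w = _
    rw [← h.col w hw]
    refine Finset.sum_congr rfl fun j _ => ?_
    rw [h.inv j α hα w, mul_comm]
  have h2 : ∑ v, Complex.normSq (O v) = (Nat.card A : ℝ) * (Nat.card P : ℝ) ^ 2 := by
    have h3 : ((∑ v, Complex.normSq (O v) : ℝ) : ℂ) =
        (((Nat.card A : ℝ) * (Nat.card P : ℝ) ^ 2 : ℝ) : ℂ) := by
      rw [Complex.ofReal_sum]
      have h4 : ∀ v, ((Complex.normSq (O v) : ℝ) : ℂ) = ∑ i, conj (κ i w) * (κ i v * O v) := by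
        intro v
        rw [← Complex.mul_conj]
        have h5 : conj (O v) = ∑ i, conj (κ i w) * κ i v := by
          rw [hO]
          simp only [map_sum, map_mul, Complex.conj_conj]
          exact Finset.sum_congr rfl fun i _ => mul_comm _ _
        rw [mul_comm, h5, Finset.sum_mul]
        exact Finset.sum_congr rfl fun i _ => by ring
      simp_rw [h4]
      rw [Finset.sum_comm]
      simp_rw [← Finset.mul_sum, h1]
      have h6 : ∀ i, conj (κ i w) * ((Nat.card A : ℂ) * (Nat.card P : ℂ) * κ i w) =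
          (Nat.card A : ℂ) * (Nat.card P : ℂ) * (κ i w * conj (κ i w)) := fun i => by ring
      simp_rw [h6]
      rw [← Finset.mul_sum, h.col w hw]
      push_cast
      ring
    exact_mod_cast h3
  have h3 : ∑ v ∈ Finset.univ.image (fun α : A => (α : MulAut P) w), Complex.normSq (O v) =
      (Nat.card A : ℝ) * (Nat.card P : ℝ) ^ 2 := by
    rw [Finset.sum_image (fun a _ b _ hab => h.orb_inj hw hab)]
    have h4 : ∀ α : A, Complex.normSq (O ((α : MulAut P) w)) = (Nat.card P : ℝ) ^ 2 := by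
      intro α
      rw [hOw α α.2, Complex.normSq_natCast, pow_two]
    simp_rw [h4]
    rw [Finset.sum_const, Finset.card_univ, nsmul_eq_mul, Nat.card_eq_fintype_card (α := A)]
  have h4 := Finset.sum_sdiff (Finset.subset_univ
    (Finset.univ.image (fun α : A => (α : MulAut P) w))) (f := fun v => Complex.normSq (O v))
  rw [h2, h3] at h4
  have h5 : ∑ v ∈ Finset.univ \ Finset.univ.image (fun α : A => (α : MulAut P) w),
      Complex.normSq (O v) = 0 := by linarith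
  have h6 := (Finset.sum_eq_zero_iff_of_nonneg (fun v _ => Complex.normSq_nonneg (O v))).1 h5 v
    (by
      rw [Finset.mem_sdiff]
      refine ⟨Finset.mem_univ _, fun hmem => ?_⟩
      obtain ⟨α, _, hα⟩ := Finset.mem_image.1 hmem
      exact hv α α.2 hα)
  have h7 := Complex.normSq_eq_zero.1 h6
  rw [hO] at h7
  exact h7

/-- sums against the Gram matrix of the columns -/
theorem sumO (h : KD A κ m) [Fintype A] (F : P → ℂ) {v : P} (hv : v ≠ 1) :
    ∑ w, F w * ∑ j, conj (κ j v) * κ j w = (Nat.card P : ℂ) * ∑ α : A, F ((α : MulAut P) v) := by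
  classical
  rw [← Finset.sum_sdiff (Finset.subset_univ
    (Finset.univ.image (fun α : A => (α : MulAut P) v)))]
  rw [Finset.sum_image (fun a _ b _ hab => h.orb_inj hv hab)]
  rw [Finset.sum_eq_zero, zero_add, Finset.mul_sum]
  · refine Finset.sum_congr rfl fun α _ => ?_
    have h1 : ∑ j, conj (κ j v) * κ j ((α : MulAut P) v) = Nat.card P := by
      rw [← h.col v hv]
      refine Finset.sum_congr rfl fun j _ => ?_
      rw [h.inv j α α.2 v, mul_comm]
    rw [h1, mul_comm]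
  · intro w hw
    rw [Finset.mem_sdiff] at hw
    have h1 : ∑ j, conj (κ j w) * κ j v = 0 := h.orth hv fun α hα hαv =>
      hw.2 (Finset.mem_image.2 ⟨⟨α, hα⟩, Finset.mem_univ _, hαv⟩)
    have h2 := congrArg conj h1
    simp only [map_sum, map_mul, Complex.conj_conj, map_zero] at h2
    have h3 : ∑ j, conj (κ j v) * κ j w = 0 := by
      rw [← h2]
      exact Finset.sum_congr rfl fun j _ => mul_comm _ _
    rw [h3, mul_zero]

/-- the integral vectors -/
theorem exists_n (h : KD A κ m) : ∃ N : (P →* ℂˣ) → I → ℤ, ∀ f i,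
    (Nat.card P : ℂ)⁻¹ * ∑ v, (((f v : ℂˣ) : ℂ) - 1) * conj (κ i v) = N f i := by
  choose N hN using h.int
  exact ⟨N, hN⟩

theorem N_conj (h : KD A κ m) {N : (P →* ℂˣ) → I → ℤ} (hN : ∀ f i,
    (Nat.card P : ℂ)⁻¹ * ∑ v, (((f v : ℂˣ) : ℂ) - 1) * conj (κ i v) = N f i) (f : P →* ℂˣ)
    (i : I) : (N f i : ℂ) =
      (Nat.card P : ℂ)⁻¹ * ∑ v, (conj ((f v : ℂˣ) : ℂ) - 1) * κ i v := by
  have h1 := congrArg conj (hN f i)
  simp only [map_mul, map_inv₀, map_sum, map_sub, map_one, Complex.conj_conj, map_natCast,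
    map_intCast] at h1
  exact h1.symm

theorem N_ker (h : KD A κ m) {N : (P →* ℂˣ) → I → ℤ} (hN : ∀ f i,
    (Nat.card P : ℂ)⁻¹ * ∑ v, (((f v : ℂˣ) : ℂ) - 1) * conj (κ i v) = N f i) (f : P →* ℂˣ)
    (i : I) : ∑ j, m i j * N f j = 0 := by
  have h1 : ((∑ j, m i j * N f j : ℤ) : ℂ) = 0 := by
    push_cast
    simp_rw [h.N_conj hN]
    have h2 : ∀ j, (m i j : ℂ) * ((Nat.card P : ℂ)⁻¹ * ∑ v, (conj ((f v : ℂˣ) : ℂ) - 1) * κ j v) =
        ∑ v, (Nat.card P : ℂ)⁻¹ * (conj ((f v : ℂˣ) : ℂ) - 1) * ((m i j : ℂ) * κ j v) := by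
      intro j
      rw [Finset.mul_sum, Finset.mul_sum]
      exact Finset.sum_congr rfl fun v _ => by ring
    simp_rw [h2]
    rw [Finset.sum_comm]
    apply Finset.sum_eq_zero
    intro v _
    rw [← Finset.mul_sum, h.ker v i, mul_zero]
  exact_mod_cast h1

theorem N_inv (h : KD A κ m) {N : (P →* ℂˣ) → I → ℤ} (hN : ∀ f i,
    (Nat.card P : ℂ)⁻¹ * ∑ v, (((f v : ℂˣ) : ℂ) - 1) * conj (κ i v) = N f i)
    [Fintype (P →* ℂˣ)] (i : I) (w : P) (hw : w ≠ 1) :
    κ i w = ∑ f : P →* ℂˣ, ((f w : ℂˣ) : ℂ) * (N f i : ℂ) := by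
  classical
  simp_rw [h.N_conj hN]
  have h1 : ∀ f : P →* ℂˣ, ((f w : ℂˣ) : ℂ) * ((Nat.card P : ℂ)⁻¹ *
      ∑ v, (conj ((f v : ℂˣ) : ℂ) - 1) * κ i v) =
      ∑ v, (Nat.card P : ℂ)⁻¹ * κ i v * (((f (w * v⁻¹) : ℂˣ) : ℂ) - ((f w : ℂˣ) : ℂ)) := by
    intro f
    rw [Finset.mul_sum, Finset.mul_sum]
    refine Finset.sum_congr rfl fun v _ => ?_
    rw [conj_hom, map_mul, map_inv, Units.val_mul, MonoidHom.inv_apply]
    ring
  simp_rw [h1]
  rw [Finset.sum_comm]
  have h2 : ∀ v : P, ∑ f : P →* ℂˣ, (Nat.card P : ℂ)⁻¹ * κ i v *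
      (((f (w * v⁻¹) : ℂˣ) : ℂ) - ((f w : ℂˣ) : ℂ)) = if v = w then κ i w else 0 := by
    intro v
    rw [← Finset.mul_sum, Finset.sum_sub_distrib, sum_dual h.ab w hw, sub_zero]
    split_ifs with hvw
    · rw [hvw, mul_inv_cancel]
      simp only [map_one, Units.val_one]
      rw [Finset.sum_const, Finset.card_univ, nsmul_eq_mul, mul_one, ← Nat.card_eq_fintype_card,
        card_dual h.ab]
      have := h.q0
      field_simp
    · rw [sum_dual h.ab _ (fun h' => hvw (mul_inv_eq_one.1 h').symm), mul_zero]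
  simp_rw [h2]
  rw [Finset.sum_ite_eq' Finset.univ w (fun _ => κ i w), if_pos (Finset.mem_univ _)]

/-- vectors orthogonal to all `N f` are eigenvectors of `m` -/
theorem N_perp (h : KD A κ m) {N : (P →* ℂˣ) → I → ℤ} (hN : ∀ f i,
    (Nat.card P : ℂ)⁻¹ * ∑ v, (((f v : ℂˣ) : ℂ) - 1) * conj (κ i v) = N f i)
    {D : I → ℤ} (hD : ∀ f, ∑ i, D i * N f i = 0) (i : I) :
    ∑ j, m i j * D j = (Nat.card P : ℤ) * D i := by
  classical
  haveI : Finite (P →* ℂˣ) := finite_hom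
  haveI := Fintype.ofFinite (P →* ℂˣ)
  have h1 : ∀ w, ∑ j, (D j : ℂ) * κ j w = 0 := by
    intro w
    by_cases hw : w = 1
    · rw [hw]
      exact Finset.sum_eq_zero fun j _ => by rw [h.one, mul_zero]
    · simp_rw [h.N_inv hN _ w hw, Finset.mul_sum]
      rw [Finset.sum_comm]
      apply Finset.sum_eq_zero
      intro f _
      have h2 : ∀ j, (D j : ℂ) * (((f w : ℂˣ) : ℂ) * (N f j : ℂ)) =
          ((f w : ℂˣ) : ℂ) * ((D j * N f j : ℤ) : ℂ) := by
        intro j; push_cast; ring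
      simp_rw [h2]
      rw [← Finset.mul_sum, ← Int.cast_sum, hD f, Int.cast_zero, mul_zero]
  have h2 := h.vec (fun j => (D j : ℂ)) i
  have h3 : ∀ v, ∑ j, conj (κ j v) * (D j : ℂ) = 0 := by
    intro v
    have h4 := congrArg conj (h1 v)
    simp only [map_sum, map_mul, map_intCast, map_zero] at h4
    rw [← h4]
    exact Finset.sum_congr rfl fun j _ => mul_comm _ _
  simp_rw [h3, mul_zero, Finset.sum_const_zero, mul_zero, add_zero] at h2
  exact_mod_cast h2

theorem N_ne (h : KD A κ m) {N : (P →* ℂˣ) → I → ℤ} (hN : ∀ f i,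
    (Nat.card P : ℂ)⁻¹ * ∑ v, (((f v : ℂˣ) : ℂ) - 1) * conj (κ i v) = N f i) (i : I) :
    ∃ f, N f i ≠ 0 := by
  classical
  haveI : Finite (P →* ℂˣ) := finite_hom
  haveI := Fintype.ofFinite (P →* ℂˣ)
  by_contra hcon
  push Not at hcon
  obtain ⟨w, hw⟩ := h.nz i
  have hw1 : w ≠ 1 := by
    rintro rfl
    exact hw (h.one i)
  apply hw
  rw [h.N_inv hN i w hw1]
  exact Finset.sum_eq_zero fun f _ => by rw [hcon f, Int.cast_zero, mul_zero]

theorem N_one (h : KD A κ m) {N : (P →* ℂˣ) → I → ℤ} (hN : ∀ f i,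
    (Nat.card P : ℂ)⁻¹ * ∑ v, (((f v : ℂˣ) : ℂ) - 1) * conj (κ i v) = N f i) (i : I) :
    N 1 i = 0 := by
  have h1 := hN 1 i
  simp only [MonoidHom.one_apply, Units.val_one, sub_self, zero_mul, Finset.sum_const_zero,
    mul_zero] at h1
  exact_mod_cast h1.symm

/-- composition with an automorphism -/
def dualAct (f : P →* ℂˣ) (α : MulAut P) : P →* ℂˣ := f.comp α.toMonoidHom

theorem dualAct_apply (f : P →* ℂˣ) (α : MulAut P) (v : P) : dualAct f α v = f (α v) := rfl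

open Classical in
/-- the Gram matrix of the integral vectors -/
theorem N_gram (h : KD A κ m) [Fintype A] {N : (P →* ℂˣ) → I → ℤ} (hN : ∀ f i,
    (Nat.card P : ℂ)⁻¹ * ∑ v, (((f v : ℂˣ) : ℂ) - 1) * conj (κ i v) = N f i)
    {f g : P →* ℂˣ} (hf : f ≠ 1) (hg : g ≠ 1) :
    ∑ i, N f i * N g i =
      ((Finset.univ.filter (fun α : A => f = dualAct g α)).card : ℤ) + Nat.card A := by
  have h1 : ((∑ i, N f i * N g i : ℤ) : ℂ) = (Nat.card P : ℂ)⁻¹ * (Nat.card P : ℂ)⁻¹ *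
      ∑ v, (((f v : ℂˣ) : ℂ) - 1) * ∑ w, (conj ((g w : ℂˣ) : ℂ) - 1) *
        ∑ i, conj (κ i v) * κ i w := by
    push_cast
    have h2 : ∀ i, (N f i : ℂ) * (N g i : ℂ) = (Nat.card P : ℂ)⁻¹ * (Nat.card P : ℂ)⁻¹ *
        ∑ v, ∑ w, (((f v : ℂˣ) : ℂ) - 1) * ((conj ((g w : ℂˣ) : ℂ) - 1) *
          (conj (κ i v) * κ i w)) := by
      intro i
      rw [h.N_conj hN g i, ← hN f i]
      have h3 : (Nat.card P : ℂ)⁻¹ * (∑ v, (((f v : ℂˣ) : ℂ) - 1) * conj (κ i v)) *
          ((Nat.card P : ℂ)⁻¹ * ∑ v, (conj ((g v : ℂˣ) : ℂ) - 1) * κ i v) =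
          (Nat.card P : ℂ)⁻¹ * (Nat.card P : ℂ)⁻¹ * ((∑ v, (((f v : ℂˣ) : ℂ) - 1) * conj (κ i v)) *
          (∑ v, (conj ((g v : ℂˣ) : ℂ) - 1) * κ i v)) := by ring
      rw [h3, Finset.sum_mul_sum]
      congr 1
      refine Finset.sum_congr rfl fun v _ => Finset.sum_congr rfl fun w _ => by ring
    simp_rw [h2]
    rw [← Finset.mul_sum]
    congr 1
    rw [Finset.sum_comm]
    refine Finset.sum_congr rfl fun v _ => ?_
    rw [Finset.sum_comm, Finset.mul_sum]
    refine Finset.sum_congr rfl fun w _ => ?_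
    rw [Finset.mul_sum, Finset.mul_sum]
  have h2 : ∀ v, (((f v : ℂˣ) : ℂ) - 1) * ∑ w, (conj ((g w : ℂˣ) : ℂ) - 1) *
        ∑ i, conj (κ i v) * κ i w = (Nat.card P : ℂ) * ∑ α : A, (((f v : ℂˣ) : ℂ) - 1) *
          (conj ((g ((α : MulAut P) v) : ℂˣ) : ℂ) - 1) := by
    intro v
    by_cases hv : v = 1
    · rw [hv, map_one, Units.val_one, sub_self, zero_mul]
      simp
    · rw [h.sumO (fun w => conj ((g w : ℂˣ) : ℂ) - 1) hv, Finset.mul_sum, Finset.mul_sum,
        Finset.mul_sum]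
      exact Finset.sum_congr rfl fun α _ => by ring
  simp_rw [h2] at h1
  rw [← Finset.mul_sum, Finset.sum_comm] at h1
  have h3 : ∀ α : A, ∑ v, (((f v : ℂˣ) : ℂ) - 1) *
      (conj ((g ((α : MulAut P) v) : ℂˣ) : ℂ) - 1) = (Nat.card P : ℂ) *
        ((if f = dualAct g α then 1 else 0) + 1) := by
    intro α
    have h4 : ∀ v, (((f v : ℂˣ) : ℂ) - 1) * (conj ((g ((α : MulAut P) v) : ℂˣ) : ℂ) - 1) =
        ((f v : ℂˣ) : ℂ) * conj ((dualAct g α v : ℂˣ) : ℂ) - ((f v : ℂˣ) : ℂ) -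
          conj ((dualAct g α v : ℂˣ) : ℂ) + 1 := by
      intro v
      rw [dualAct_apply]; ring
    simp_rw [h4]
    rw [Finset.sum_add_distrib, Finset.sum_sub_distrib, Finset.sum_sub_distrib, hom_orth,
      sum_hom f hf]
    have h5 : ∑ v, conj ((dualAct g α v : ℂˣ) : ℂ) = 0 := by
      rw [← map_sum, sum_hom, map_zero]
      intro h'
      apply hg
      apply MonoidHom.ext
      intro v
      have h6 := DFunLike.congr_fun h' ((α : MulAut P).symm v)
      rw [dualAct_apply] at h6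
      rw [show (α : MulAut P) ((α : MulAut P).symm v) = v from MulEquiv.apply_symm_apply _ _] at h6
      rw [h6]; rfl
    rw [h5, Finset.sum_const, Finset.card_univ, nsmul_eq_mul, mul_one, ← Nat.card_eq_fintype_card]
    split_ifs <;> ring
  simp_rw [h3] at h1
  rw [← Finset.mul_sum, Finset.sum_add_distrib, Finset.sum_boole, Finset.sum_const,
    Finset.card_univ, nsmul_eq_mul, mul_one] at h1
  have h4 : ((∑ i, N f i * N g i : ℤ) : ℂ) =
      (((Finset.univ.filter (fun α : A => f = dualAct g α)).card : ℤ) + Nat.card A : ℤ) := by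
    rw [h1]
    have := h.q0
    push_cast
    rw [Nat.card_eq_fintype_card (α := A)]
    field_simp
  exact_mod_cast h4

end KD

end CfsgLib.Star
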