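import Mathlib
import Cfsg.Agent.EqBase

/-!
# Star construction, LV: a combinatorial lemma on integral vectors (helper18)
-/

set_option autoImplicit false
set_option linter.unusedSectionVars false
set_option linter.style.haveILetI false
set_option linter.unusedSimpArgs false
set_option linter.unusedVariables false

namespace CfsgLib.Star

section Comb

variable {I J : Type*} [Fintype I] [DecidableEq I] [Fintype J] [DecidableEq J]

theorem var_ge {r : J → ℤ} {j₀ l₀ : J} (h : r j₀ ≠ r l₀) :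
    2 * ((Fintype.card J : ℤ) - 1) ≤ ∑ j, ∑ l, (r j - r l) ^ 2 := by
  classical
  obtain ⟨S, hS⟩ : ∃ S : Finset J, S = Finset.univ.filter (fun j => r j = r j₀) := ⟨_, rfl⟩
  have hmem : ∀ j, j ∈ S ↔ r j = r j₀ := by
    intro j; rw [hS, Finset.mem_filter]; simp
  have h1 : ∀ j l, (if j ∈ S ↔ l ∈ S then 0 else 1 : ℤ) ≤ (r j - r l) ^ 2 := by
    intro j l
    split_ifs with h1
    · positivity
    · have h2 : r j ≠ r l := by
        intro h3
        apply h1
        rw [hmem, hmem, h3]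
      have h3 : 0 < (r j - r l) ^ 2 := by
        have : r j - r l ≠ 0 := sub_ne_zero.2 h2
        positivity
      omega
  have h2 : ∑ j, ∑ l, (if j ∈ S ↔ l ∈ S then 0 else 1 : ℤ) ≤ ∑ j, ∑ l, (r j - r l) ^ 2 :=
    Finset.sum_le_sum fun j _ => Finset.sum_le_sum fun l _ => h1 j l
  refine le_trans ?_ h2
  have h3 : ∀ j, ∑ l, (if j ∈ S ↔ l ∈ S then 0 else 1 : ℤ) =
      if j ∈ S then ((Fintype.card J : ℤ) - S.card) else S.card := by
    intro j
    by_cases hj : j ∈ S
    · rw [if_pos hj]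
      have h4 : ∀ l, (if j ∈ S ↔ l ∈ S then 0 else 1 : ℤ) = if l ∈ Sᶜ then 1 else 0 := by
        intro l
        by_cases hl : l ∈ S
        · rw [if_pos (by simp [hj, hl]), if_neg (by simp [hl])]
        · rw [if_neg (by simp [hj, hl]), if_pos (by simp [hl])]
      simp_rw [h4]
      rw [Finset.sum_ite_mem, Finset.univ_inter, Finset.sum_const, nsmul_eq_mul, mul_one,
        Finset.card_compl]
      rw [Nat.cast_sub (Finset.card_le_univ S)]
    · rw [if_neg hj]
      have h4 : ∀ l, (if j ∈ S ↔ l ∈ S then 0 else 1 : ℤ) = if l ∈ S then 1 else 0 := by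
        intro l
        by_cases hl : l ∈ S
        · rw [if_neg (by simp [hj, hl]), if_pos hl]
        · rw [if_pos (by simp [hj, hl]), if_neg hl]
      simp_rw [h4]
      rw [Finset.sum_ite_mem, Finset.univ_inter, Finset.sum_const, nsmul_eq_mul, mul_one]
  simp_rw [h3]
  rw [Finset.sum_ite, Finset.sum_const, Finset.sum_const, nsmul_eq_mul, nsmul_eq_mul]
  have h4 : (Finset.univ.filter (fun j => j ∈ S)) = S := by
    ext j; simp
  have h5 : (Finset.univ.filter (fun j => ¬ j ∈ S)) = Sᶜ := by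
    ext j; simp
  rw [h4, h5, Finset.card_compl, Nat.cast_sub (Finset.card_le_univ S)]
  have h6 : (1 : ℤ) ≤ S.card := by
    have : 0 < S.card := Finset.card_pos.2 ⟨j₀, (hmem j₀).2 rfl⟩
    omega
  have h7 : (S.card : ℤ) + 1 ≤ Fintype.card J := by
    have h8 : S.card < Fintype.card J := by
      rw [← Finset.card_univ]
      apply Finset.card_lt_card
      rw [Finset.ssubset_univ_iff]
      intro h9
      have : l₀ ∈ S := by rw [h9]; exact Finset.mem_univ _
      exact h ((hmem l₀).1 this).symm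
    omega
  nlinarith [mul_nonneg (sub_nonneg.2 h6) (sub_nonneg.2 h7)]

theorem comb_two {r : I → J → ℤ} {e : ℕ} (hne : ∀ i, ∃ j, r i j ≠ 0)
    (hgram : ∀ j l, ∑ i, r i j * r i l = (if j = l then 1 else 0) + e)
    (hcard : Fintype.card J + e ≤ Fintype.card I) (ht : 2 ≤ Fintype.card J) :
    Fintype.card I = Fintype.card J + e ∧ ∃ (Y : J → I) (σ : J → ℤ) (δ : I → ℤ),
      Function.Injective Y ∧ (∀ j, σ j = 1 ∨ σ j = -1) ∧
      (∀ i, i ∉ Set.range Y → δ i = 1 ∨ δ i = -1) ∧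
      (∀ j l, r (Y j) l = if j = l then σ j else 0) ∧
      ∀ i, i ∉ Set.range Y → ∀ j, r i j = δ i := by
  classical
  obtain ⟨t, htdef⟩ : ∃ t : ℤ, t = (Fintype.card J : ℤ) := ⟨_, rfl⟩
  have ht2 : (2 : ℤ) ≤ t := by rw [htdef]; exact_mod_cast ht
  obtain ⟨N, hN⟩ : ∃ N : Finset I, N = Finset.univ.filter (fun i => ∃ j l, r i j ≠ r i l) :=
    ⟨_, rfl⟩
  have hmem : ∀ i, i ∈ N ↔ ∃ j l, r i j ≠ r i l := by
    intro i; rw [hN, Finset.mem_filter]; simp
  have hconst : ∀ i, i ∉ N → ∀ j l, r i j = r i l := by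
    intro i hi j l
    by_contra hcon
    exact hi ((hmem i).2 ⟨j, l, hcon⟩)
  have hV : ∑ i, ∑ j, ∑ l, (r i j - r i l) ^ 2 = 2 * (t * (t - 1)) := by
    have h1 : ∑ i, ∑ j, ∑ l, (r i j - r i l) ^ 2 =
        ∑ j : J, ∑ l : J, (2 - 2 * (if j = l then 1 else 0 : ℤ)) := by
      rw [Finset.sum_comm]
      refine Finset.sum_congr rfl fun j _ => ?_
      rw [Finset.sum_comm]
      refine Finset.sum_congr rfl fun l _ => ?_
      have h2 : ∀ i : I, (r i j - r i l) ^ 2 = r i j * r i j + r i l * r i l - 2 * (r i j * r i l) :=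
        fun i => by ring
      simp_rw [h2]
      rw [Finset.sum_sub_distrib, Finset.sum_add_distrib, ← Finset.mul_sum, hgram, hgram, hgram,
        if_pos rfl, if_pos rfl]
      ring
    rw [h1]
    simp_rw [Finset.sum_sub_distrib, ← Finset.mul_sum]
    simp only [Finset.sum_const, Finset.card_univ, Finset.sum_ite_eq, Finset.mem_univ, if_true,
      nsmul_eq_mul, mul_one]
    rw [← htdef]; ring
  have hVN : 2 * (t - 1) * N.card ≤ 2 * (t * (t - 1)) := by
    rw [← hV]
    have h1 : ∑ i ∈ N, 2 * (t - 1) ≤ ∑ i ∈ N, ∑ j, ∑ l, (r i j - r i l) ^ 2 := by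
      refine Finset.sum_le_sum fun i hi => ?_
      obtain ⟨j, l, hjl⟩ := (hmem i).1 hi
      rw [htdef]
      exact var_ge hjl
    rw [Finset.sum_const, nsmul_eq_mul] at h1
    have h2 : ∑ i ∈ N, ∑ j, ∑ l, (r i j - r i l) ^ 2 ≤ ∑ i, ∑ j, ∑ l, (r i j - r i l) ^ 2 :=
      Finset.sum_le_sum_of_subset_of_nonneg (Finset.subset_univ _)
        fun i _ _ => Finset.sum_nonneg fun j _ => Finset.sum_nonneg fun l _ => sq_nonneg _
    linarith
  have hNt : (N.card : ℤ) ≤ t := by
    have h1 : (t - 1) * (N.card : ℤ) ≤ (t - 1) * t := by linarith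
    exact le_of_mul_le_mul_left h1 (by linarith)
  have hSum : ∑ i, ∑ j, r i j * r i j = t * (1 + e) := by
    rw [Finset.sum_comm]
    have h1 : ∀ j, ∑ i, r i j * r i j = 1 + (e : ℤ) := by
      intro j; rw [hgram, if_pos rfl]
    simp_rw [h1]
    rw [Finset.sum_const, Finset.card_univ, nsmul_eq_mul, ← htdef]
  have hj0 : Nonempty J := Fintype.card_pos_iff.1 (by omega)
  obtain ⟨j₀⟩ := hj0
  have hK : ∀ i, i ∉ N → 1 ≤ r i j₀ * r i j₀ ∧ ∑ j, r i j * r i j = t * (r i j₀ * r i j₀) := by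
    intro i hi
    refine ⟨?_, ?_⟩
    · obtain ⟨j, hj⟩ := hne i
      rw [hconst i hi j j₀] at hj
      have : 0 < r i j₀ * r i j₀ := by
        rcases lt_or_gt_of_ne hj with h1 | h1
        · exact mul_pos_of_neg_of_neg h1 h1
        · exact mul_pos h1 h1
      omega
    · have h1 : ∀ j, r i j * r i j = r i j₀ * r i j₀ := fun j => by rw [hconst i hi j j₀]
      simp_rw [h1]
      rw [Finset.sum_const, Finset.card_univ, nsmul_eq_mul, ← htdef]
  have hNge : ∀ i, i ∈ N → 1 ≤ ∑ j, r i j * r i j := by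
    intro i hi
    obtain ⟨j, hj⟩ := hne i
    have h1 : r i j * r i j ≤ ∑ j, r i j * r i j :=
      Finset.single_le_sum (f := fun j => r i j * r i j) (fun j _ => mul_self_nonneg _)
        (Finset.mem_univ j)
    have h2 : 0 < r i j * r i j := by
      rcases lt_or_gt_of_ne hj with h1 | h1
      · exact mul_pos_of_neg_of_neg h1 h1
      · exact mul_pos h1 h1
    omega
  have hsplit : ∑ i ∈ N, ∑ j, r i j * r i j + ∑ i ∈ Nᶜ, ∑ j, r i j * r i j = t * (1 + e) := by
    rw [← hSum, Finset.sum_add_sum_compl]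
  have hKsum : t * ((Nᶜ.card : ℕ) : ℤ) ≤ ∑ i ∈ Nᶜ, ∑ j, r i j * r i j := by
    have h1 : ∑ i ∈ Nᶜ, t ≤ ∑ i ∈ Nᶜ, ∑ j, r i j * r i j := by
      refine Finset.sum_le_sum fun i hi => ?_
      obtain ⟨h1, h2⟩ := hK i (Finset.mem_compl.1 hi)
      rw [h2]
      nlinarith
    rw [Finset.sum_const, nsmul_eq_mul] at h1
    linarith
  have hNsum : (N.card : ℤ) ≤ ∑ i ∈ N, ∑ j, r i j * r i j := by
    have h1 : ∑ i ∈ N, (1 : ℤ) ≤ ∑ i ∈ N, ∑ j, r i j * r i j :=
      Finset.sum_le_sum fun i hi => hNge i hi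
    rw [Finset.sum_const, nsmul_eq_mul, mul_one] at h1
    exact h1
  have hcards : (N.card : ℤ) + (Nᶜ.card : ℤ) = Fintype.card I := by
    exact_mod_cast Finset.card_add_card_compl N
  have hcI : t + e ≤ (Fintype.card I : ℤ) := by rw [htdef]; exact_mod_cast hcard
  have hKe : (Nᶜ.card : ℤ) = e := by
    have h1 : (e : ℤ) ≤ Nᶜ.card := by linarith
    have h2 : ¬ (e : ℤ) + 1 ≤ Nᶜ.card := by
      intro h3
      have h4 : (N.card : ℤ) + t * Nᶜ.card ≤ t * (1 + e) := by linarith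
      have h5 : (N.card : ℤ) ≤ 0 := by nlinarith
      have h6 : N = ∅ := by
        rw [← Finset.card_eq_zero]
        have : (0 : ℤ) ≤ N.card := Nat.cast_nonneg _
        omega
      have h7 : ∑ i, ∑ j, ∑ l, (r i j - r i l) ^ 2 = 0 := by
        refine Finset.sum_eq_zero fun i _ => Finset.sum_eq_zero fun j _ =>
          Finset.sum_eq_zero fun l _ => ?_
        rw [hconst i (by rw [h6]; exact Finset.notMem_empty i) j l, sub_self]
        norm_num
      rw [hV] at h7
      nlinarith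
    omega
  have hNe : (N.card : ℤ) = t := by linarith
  have hcI' : Fintype.card I = Fintype.card J + e := by
    have : (Fintype.card I : ℤ) = Fintype.card J + e := by rw [← htdef]; linarith
    exact_mod_cast this
  have hN1 : ∀ i ∈ N, ∑ j, r i j * r i j = 1 := by
    have h1 : ∑ i ∈ N, ∑ j, r i j * r i j = ∑ i ∈ N, (1 : ℤ) := by
      rw [Finset.sum_const, nsmul_eq_mul, mul_one]
      have h2 : ∑ i ∈ N, ∑ j, r i j * r i j ≤ t := by
        rw [hKe] at hKsum
        linarith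
      rw [hNe] at hNsum ⊢
      exact le_antisymm h2 hNsum
    intro i hi
    have h2 := (Finset.sum_eq_sum_iff_of_le (fun i hi => hNge i hi)).1 h1.symm i hi
    exact h2.symm
  have hK1 : ∀ i, i ∉ N → r i j₀ * r i j₀ = 1 := by
    have h1 : ∑ i ∈ Nᶜ, ∑ j, r i j * r i j = t * e := by
      have h2 : ∑ i ∈ N, ∑ j, r i j * r i j = t := by
        rw [Finset.sum_congr rfl hN1, Finset.sum_const, nsmul_eq_mul, mul_one, hNe]
      rw [h2] at hsplit
      linarith
    have h2 : ∑ i ∈ Nᶜ, t = ∑ i ∈ Nᶜ, ∑ j, r i j * r i j := by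
      rw [Finset.sum_const, nsmul_eq_mul, hKe, h1, mul_comm]
    intro i hi
    have h3 := (Finset.sum_eq_sum_iff_of_le (fun i hi => by
      obtain ⟨h1, h2⟩ := hK i (Finset.mem_compl.1 hi)
      rw [h2]
      nlinarith)).1 h2 i (Finset.mem_compl.2 hi)
    obtain ⟨h4, h5⟩ := hK i hi
    rw [h5] at h3
    have h6 : t * (r i j₀ * r i j₀ - 1) = 0 := by linarith
    rcases mul_eq_zero.1 h6 with h7 | h7
    · omega
    · linarith
  -- rows in `N`
  have hex : ∀ j, ∃ i ∈ N, r i j ≠ 0 := by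
    intro j
    by_contra hcon
    push Not at hcon
    have h1 := hgram j j
    rw [if_pos rfl, ← Finset.sum_add_sum_compl N, Finset.sum_eq_zero (fun i hi => by
      rw [hcon i hi, mul_zero]), zero_add] at h1
    have h2 : ∑ i ∈ Nᶜ, r i j * r i j = ∑ i ∈ Nᶜ, (1 : ℤ) := by
      refine Finset.sum_congr rfl fun i hi => ?_
      rw [hconst i (Finset.mem_compl.1 hi) j j₀]
      exact hK1 i (Finset.mem_compl.1 hi)
    rw [h2, Finset.sum_const, nsmul_eq_mul, mul_one, hKe] at h1
    linarith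
  choose Y hYN hY using hex
  have hrow : ∀ j l, l ≠ j → r (Y j) l = 0 := by
    intro j l hlj
    by_contra hl
    have h1 := hN1 (Y j) (hYN j)
    have h2 : ∑ k ∈ ({j, l} : Finset J), r (Y j) k * r (Y j) k ≤
        ∑ k, r (Y j) k * r (Y j) k :=
      Finset.sum_le_sum_of_subset_of_nonneg (Finset.subset_univ _) fun k _ _ => mul_self_nonneg _
    rw [Finset.sum_pair hlj.symm, h1] at h2
    have h3 : 0 < r (Y j) j * r (Y j) j := by
      rcases lt_or_gt_of_ne (hY j) with h1 | h1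
      · exact mul_pos_of_neg_of_neg h1 h1
      · exact mul_pos h1 h1
    have h4 : 0 < r (Y j) l * r (Y j) l := by
      rcases lt_or_gt_of_ne hl with h1 | h1
      · exact mul_pos_of_neg_of_neg h1 h1
      · exact mul_pos h1 h1
    omega
  have hYj : ∀ j, r (Y j) j * r (Y j) j = 1 := by
    intro j
    have h1 := hN1 (Y j) (hYN j)
    rw [Finset.sum_eq_single j (fun l _ hl => by rw [hrow j l hl, mul_zero])
      (fun h => absurd (Finset.mem_univ _) h)] at h1
    exact h1
  have hYinj : Function.Injective Y := by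
    intro j l hjl
    by_contra hne'
    have h1 := hrow j l (Ne.symm hne')
    rw [hjl] at h1
    exact hY l h1
  have hrange : ∀ i, i ∉ Set.range Y → i ∉ N := by
    intro i hi hiN
    have h1 : Finset.univ.image Y ⊆ N := by
      intro x hx
      obtain ⟨j, _, rfl⟩ := Finset.mem_image.1 hx
      exact hYN j
    have h2 : Finset.univ.image Y = N := by
      apply Finset.eq_of_subset_of_card_le h1
      rw [Finset.card_image_of_injective _ hYinj, Finset.card_univ]
      have : (N.card : ℤ) ≤ Fintype.card J := by rw [hNe, htdef]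
      exact_mod_cast this
    rw [← h2] at hiN
    obtain ⟨j, _, hj⟩ := Finset.mem_image.1 hiN
    exact hi ⟨j, hj⟩
  have hsq : ∀ x : ℤ, x * x = 1 → x = 1 ∨ x = -1 := by
    intro x hx
    exact Int.isUnit_iff.1 (IsUnit.of_mul_eq_one x hx)
  refine ⟨hcI', Y, fun j => r (Y j) j, fun i => r i j₀, hYinj, fun j => hsq _ (hYj j),
    fun i hi => hsq _ (hK1 i (hrange i hi)), fun j l => ?_,
    fun i hi j => hconst i (hrange i hi) j j₀⟩
  split_ifs with h
  · rw [h]
  · exact hrow j l (Ne.symm h)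

theorem comb_one {r : I → J → ℤ} {e : ℕ} (hne : ∀ i, ∃ j, r i j ≠ 0)
    (hgram : ∀ j l, ∑ i, r i j * r i l = (if j = l then 1 else 0) + e)
    (hcard : Fintype.card J + e ≤ Fintype.card I) (ht : Fintype.card J = 1) :
    Fintype.card I = Fintype.card J + e ∧ ∃ (Y : J → I) (σ : J → ℤ) (δ : I → ℤ),
      Function.Injective Y ∧ (∀ j, σ j = 1 ∨ σ j = -1) ∧
      (∀ i, i ∉ Set.range Y → δ i = 1 ∨ δ i = -1) ∧
      (∀ j l, r (Y j) l = if j = l then σ j else 0) ∧
      ∀ i, i ∉ Set.range Y → ∀ j, r i j = δ i := by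
  classical
  obtain ⟨j₀, hj₀⟩ := Fintype.card_eq_one_iff.1 ht
  have hsub : ∀ j, j = j₀ := hj₀
  have h1 : ∀ i, 1 ≤ r i j₀ * r i j₀ := by
    intro i
    obtain ⟨j, hj⟩ := hne i
    rw [hsub j] at hj
    have h2 : 0 < r i j₀ * r i j₀ := by
      rcases lt_or_gt_of_ne hj with h1 | h1
      · exact mul_pos_of_neg_of_neg h1 h1
      · exact mul_pos h1 h1
    omega
  have h2 := hgram j₀ j₀
  rw [if_pos rfl] at h2
  have h3 : (Fintype.card I : ℤ) ≤ 1 + e := by
    rw [← h2]
    have : ∑ i : I, (1 : ℤ) ≤ ∑ i, r i j₀ * r i j₀ := Finset.sum_le_sum fun i _ => h1 i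
    simpa using this
  have h4 : Fintype.card I = Fintype.card J + e := by
    rw [ht] at hcard ⊢
    have : Fintype.card I ≤ 1 + e := by exact_mod_cast h3
    omega
  have h5 : ∀ i, r i j₀ * r i j₀ = 1 := by
    have h6 : ∑ i : I, (1 : ℤ) = ∑ i, r i j₀ * r i j₀ := by
      rw [h2, Finset.sum_const, Finset.card_univ, nsmul_eq_mul, mul_one, h4, ht]
      push_cast; ring
    intro i
    exact ((Finset.sum_eq_sum_iff_of_le (fun i _ => h1 i)).1 h6 i (Finset.mem_univ i)).symm
  have hI : Nonempty I := Fintype.card_pos_iff.1 (by rw [h4, ht]; omega)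
  obtain ⟨i₀⟩ := hI
  have hsq : ∀ x : ℤ, x * x = 1 → x = 1 ∨ x = -1 := by
    intro x hx
    exact Int.isUnit_iff.1 (IsUnit.of_mul_eq_one x hx)
  refine ⟨h4, fun _ => i₀, fun _ => r i₀ j₀, fun i => r i j₀, fun a b _ => ?_,
    fun _ => hsq _ (h5 i₀), fun i _ => hsq _ (h5 i), fun j l => ?_, fun i _ j => ?_⟩
  · rw [hsub a, hsub b]
  · rw [hsub j, hsub l, if_pos rfl]
  · rw [hsub j]

theorem comb {r : I → J → ℤ} {e : ℕ} (hne : ∀ i, ∃ j, r i j ≠ 0)
    (hgram : ∀ j l, ∑ i, r i j * r i l = (if j = l then 1 else 0) + e)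
    (hcard : Fintype.card J + e ≤ Fintype.card I) (ht : 0 < Fintype.card J) :
    Fintype.card I = Fintype.card J + e ∧ ∃ (Y : J → I) (σ : J → ℤ) (δ : I → ℤ),
      Function.Injective Y ∧ (∀ j, σ j = 1 ∨ σ j = -1) ∧
      (∀ i, i ∉ Set.range Y → δ i = 1 ∨ δ i = -1) ∧
      (∀ j l, r (Y j) l = if j = l then σ j else 0) ∧
      ∀ i, i ∉ Set.range Y → ∀ j, r i j = δ i := by
  rcases Nat.lt_or_ge 1 (Fintype.card J) with h | h
  · exact comb_two hne hgram hcard h
  · exact comb_one hne hgram hcard (by omega)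

end Comb

end CfsgLib.Star
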