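import Mathlib
import Cfsg.Agent.EqBase
import Cfsg.Agent.LibStar54
import Cfsg.Agent.LibStar55

/-!
# Star construction, LVI: coherence for free inertial quotients (helper18)
-/

set_option autoImplicit false
set_option linter.unusedSectionVars false
set_option linter.style.haveILetI false
set_option linter.unusedSimpArgs false
set_option linter.unusedVariables false

namespace CfsgLib.Star

open Cfsg CfsgLib.GalChar CfsgLib.GalField CfsgLib.BlockReg CfsgLib.BlockReg2 CfsgLib.LocR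
  CfsgLib.BrP CfsgLib.Car CfsgLib.BlockQP CfsgLib.BlockDefect
  CfsgLib.Points CfsgLib.PLocalInd CfsgLib.CharBasic CfsgLib.BlockCore CfsgLib.BlockSec
  CfsgLib.BlockR CfsgLib.BlockIdem CfsgLib.BlockOrth CfsgLib.CharIndA CfsgLib.CharNorm
open scoped ComplexConjugate Pointwise

namespace KD

variable {P : Type*} [Group P] [Fintype P] {I : Type*} [Fintype I] [DecidableEq I]
  {A : Subgroup (MulAut P)} {κ : I → P → ℂ} {m : I → I → ℤ}

/-- free automorphisms act freely on the dual -/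
theorem dual_free (hab : ∀ x y : P, x * y = y * x) {α : MulAut P}
    (hα : ∀ v : P, v ≠ 1 → α v ≠ v) {g : P →* ℂˣ} (hg : dualAct g α = g) : g = 1 := by
  have hinj : Function.Injective (fun v : P => v⁻¹ * α v) := by
    intro v w hvw
    have h1 : v⁻¹ * α v = w⁻¹ * α w := hvw
    by_contra hne
    apply hα (v * w⁻¹)
    · intro h2
      exact hne (mul_inv_eq_one.1 h2)
    · rw [map_mul, map_inv]
      have h2 : α v = v * w⁻¹ * α w := by
        rw [mul_assoc, ← h1, mul_inv_cancel_left]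
      rw [h2, mul_assoc, mul_inv_cancel, mul_one]
  have hsurj := Finite.surjective_of_injective hinj
  apply MonoidHom.ext
  intro w
  obtain ⟨v, hv⟩ := hsurj w
  have hv' : v⁻¹ * α v = w := hv
  rw [← hv', map_mul, map_inv]
  have h1 := DFunLike.congr_fun hg v
  rw [dualAct_apply] at h1
  rw [h1, inv_mul_cancel]; rfl

theorem N_act (h : KD A κ m) {N : (P →* ℂˣ) → I → ℤ} (hN : ∀ f i,
    (Nat.card P : ℂ)⁻¹ * ∑ v, (((f v : ℂˣ) : ℂ) - 1) * conj (κ i v) = N f i)
    (g : P →* ℂˣ) {α : MulAut P} (hα : α ∈ A) : N (dualAct g α) = N g := by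
  funext i
  have h1 : ((N (dualAct g α) i : ℤ) : ℂ) = (N g i : ℤ) := by
    rw [← hN, ← hN, ← Equiv.sum_comp α.toEquiv (fun v => (((g v : ℂˣ) : ℂ) - 1) * conj (κ i v))]
    congr 1
    refine Finset.sum_congr rfl fun v _ => ?_
    rw [dualAct_apply]
    have h2 : α.toEquiv v = α v := rfl
    rw [h2, h.inv i α hα v]
  exact_mod_cast h1

/-- **coherence** -/
theorem final (h : KD A κ m) {N : (P →* ℂˣ) → I → ℤ} (hN : ∀ f i,
    (Nat.card P : ℂ)⁻¹ * ∑ v, (((f v : ℂˣ) : ℂ) - 1) * conj (κ i v) = N f i)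
    (hP : 1 < Nat.card P)
    (hcard : (Nat.card P - 1) / Nat.card A + Nat.card A ≤ Fintype.card I) :
    Fintype.card I = (Nat.card P - 1) / Nat.card A + Nat.card A ∧
      Nat.card P - 1 = Nat.card A * ((Nat.card P - 1) / Nat.card A) ∧
    ∃ (Ys : Finset I) (y : (P →* ℂˣ) → I) (σ : I → ℤ),
      Ys.card = (Nat.card P - 1) / Nat.card A ∧ (∀ i, σ i = 1 ∨ σ i = -1) ∧
      (∀ i ∈ Ys, ∃ f, f ≠ 1 ∧ y f = i) ∧ (∀ f, f ≠ 1 → y f ∈ Ys) ∧
      (∀ f, f ≠ 1 → ∀ i ∈ Ys, N f i = if i = y f then σ i else 0) ∧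
      (∀ f, f ≠ 1 → ∀ i, i ∉ Ys → N f i = σ i) := by
  classical
  haveI : Finite (P →* ℂˣ) := finite_hom
  haveI := Fintype.ofFinite (P →* ℂˣ)
  haveI := Fintype.ofFinite A
  have hfree : ∀ α ∈ A, α ≠ 1 → ∀ v : P, v ≠ 1 → α v ≠ v := by
    intro α hα hα1 v hv hfix
    exact hα1 (h.free α hα v hv hfix)
  -- the fixed point count
  have hcnt_inj : ∀ g : P →* ℂˣ, g ≠ 1 → ∀ α β : A, dualAct g α = dualAct g β → α = β := by
    intro g hg α β hαβ
    by_contra hne
    apply hg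
    apply dual_free h.ab (α := (α : MulAut P) * (β : MulAut P)⁻¹)
    · apply hfree _ (A.mul_mem α.2 (A.inv_mem β.2))
      intro h1
      exact hne (Subtype.ext (mul_inv_eq_one.1 h1))
    · apply MonoidHom.ext
      intro v
      rw [dualAct_apply, MulAut.mul_apply]
      have h1 := DFunLike.congr_fun hαβ (((β : MulAut P)⁻¹) v)
      rw [dualAct_apply, dualAct_apply] at h1
      rw [h1]
      congr 1
      exact MulEquiv.apply_symm_apply _ _
  have hcnt : ∀ f g : P →* ℂˣ, f ≠ 1 → g ≠ 1 →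
      (Finset.univ.filter (fun α : A => f = dualAct g α)).card = if N f = N g then 1 else 0 := by
    intro f g hf hg
    have hle : (Finset.univ.filter (fun α : A => f = dualAct g α)).card ≤ 1 := by
      rw [Finset.card_le_one]
      intro α hα β hβ
      rw [Finset.mem_filter] at hα hβ
      exact hcnt_inj g hg α β (hα.2.symm.trans hβ.2)
    have h1 : ∀ f : P →* ℂˣ, f ≠ 1 →
        (Finset.univ.filter (fun α : A => f = dualAct f α)).card = 1 := by
      intro f hf
      apply le_antisymm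
      · rw [Finset.card_le_one]
        intro α hα β hβ
        rw [Finset.mem_filter] at hα hβ
        exact hcnt_inj f hf α β (hα.2.symm.trans hβ.2)
      · rw [Nat.one_le_iff_ne_zero, Finset.card_ne_zero]
        exact ⟨1, Finset.mem_filter.2 ⟨Finset.mem_univ _, rfl⟩⟩
    split_ifs with hfg
    · have h2 := h.N_gram hN hf hg
      have h3 := h.N_gram hN hf hf
      rw [h1 f hf, hfg] at h3
      rw [hfg] at h2
      rw [h2] at h3
      have h4 : (((Finset.univ.filter (fun α : A => f = dualAct g α)).card : ℕ) : ℤ) = 1 := by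
        push_cast at h3 ⊢
        linarith
      exact_mod_cast h4
    · rw [Finset.card_eq_zero, Finset.filter_eq_empty_iff]
      intro α _ hα
      apply hfg
      rw [hα, h.N_act hN g α.2]
  obtain ⟨J, hJ⟩ : ∃ J : Finset (I → ℤ), J = (Finset.univ.filter (fun f : P →* ℂˣ => f ≠ 1)).image N :=
    ⟨_, rfl⟩
  have hmem : ∀ a, a ∈ J ↔ ∃ f : P →* ℂˣ, f ≠ 1 ∧ N f = a := by
    intro a
    rw [hJ, Finset.mem_image]
    constructor
    · rintro ⟨f, hf, rfl⟩
      exact ⟨f, (Finset.mem_filter.1 hf).2, rfl⟩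
    · rintro ⟨f, hf, rfl⟩
      exact ⟨f, Finset.mem_filter.2 ⟨Finset.mem_univ _, hf⟩, rfl⟩
  -- the cardinality of `J`
  have hJcard : Nat.card P - 1 = Nat.card A * J.card := by
    have h1 : (Finset.univ.filter (fun f : P →* ℂˣ => f ≠ 1)).card = Nat.card P - 1 := by
      rw [Finset.filter_ne' Finset.univ (1 : P →* ℂˣ), Finset.card_erase_of_mem (Finset.mem_univ _),
        Finset.card_univ, ← Nat.card_eq_fintype_card, card_dual h.ab]
    rw [← h1, hJ]
    have h2 : ∀ a ∈ (Finset.univ.filter (fun f : P →* ℂˣ => f ≠ 1)).image N,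
        ((Finset.univ.filter (fun f : P →* ℂˣ => f ≠ 1)).filter (fun f => N f = a)).card =
          Nat.card A := by
      intro a ha
      rw [← hJ, hmem] at ha
      obtain ⟨g, hg, rfl⟩ := ha
      rw [Nat.card_eq_fintype_card, ← Finset.card_univ]
      symm
      refine Finset.card_bij (fun α _ => dualAct g (α : MulAut P)) ?_ ?_ ?_
      · intro α _
        rw [Finset.mem_filter, Finset.mem_filter]
        refine ⟨⟨Finset.mem_univ _, ?_⟩, h.N_act hN g α.2⟩
        intro h3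
        apply hg
        apply MonoidHom.ext
        intro v
        have h4 := DFunLike.congr_fun h3 ((α : MulAut P).symm v)
        rw [dualAct_apply, show (α : MulAut P) ((α : MulAut P).symm v) = v from
          MulEquiv.apply_symm_apply _ _] at h4
        rw [h4]; rfl
      · intro α _ β _ hαβ
        exact hcnt_inj g hg α β hαβ
      · intro f hf
        rw [Finset.mem_filter, Finset.mem_filter] at hf
        have h3 := hcnt f g hf.1.2 hg
        rw [if_pos hf.2] at h3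
        obtain ⟨α, hα⟩ := Finset.card_pos.1 (by rw [h3]; exact one_pos)
        exact ⟨α, Finset.mem_univ _, (Finset.mem_filter.1 hα).2.symm⟩
    rw [Finset.card_eq_sum_card_image N, Finset.sum_congr rfl h2, Finset.sum_const, smul_eq_mul,
      mul_comm]
  have hA0 : 0 < Nat.card A := Nat.card_pos
  have hJt : (Nat.card P - 1) / Nat.card A = J.card := by
    rw [hJcard, Nat.mul_div_cancel_left _ hA0]
  have hgram : ∀ a b : J, ∑ i, (a : I → ℤ) i * (b : I → ℤ) i =
      (if a = b then 1 else 0) + (Nat.card A : ℕ) := by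
    rintro ⟨a, ha⟩ ⟨b, hb⟩
    obtain ⟨f, hf, rfl⟩ := (hmem a).1 ha
    obtain ⟨g, hg, rfl⟩ := (hmem b).1 hb
    have h1 := h.N_gram hN hf hg
    rw [hcnt f g hf hg] at h1
    simp only [Subtype.mk.injEq]
    rw [h1]
    split_ifs <;> simp
  have hne : ∀ i, ∃ a : J, (a : I → ℤ) i ≠ 0 := by
    intro i
    obtain ⟨f, hf⟩ := h.N_ne hN i
    have hf1 : f ≠ 1 := by
      rintro rfl
      exact hf (h.N_one hN i)
    exact ⟨⟨N f, (hmem _).2 ⟨f, hf1, rfl⟩⟩, hf⟩
  have hJpos : 0 < Fintype.card J := by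
    rw [Fintype.card_coe]
    rcases Nat.eq_zero_or_pos J.card with h1 | h1
    · rw [h1, mul_zero] at hJcard
      omega
    · exact h1
  rw [hJt] at hcard ⊢
  have hfin := comb (r := fun i (a : J) => (a : I → ℤ) i) hne hgram
    (by rw [Fintype.card_coe]; exact hcard) hJpos
  rw [Fintype.card_coe] at hfin
  obtain ⟨h1, Y, σ, δ, hYinj, hσ, hδ, hY1, hY2⟩ := hfin
  refine ⟨h1, hJcard, ?_⟩
  obtain ⟨Ys, hYs⟩ : ∃ Ys : Finset I, Ys = Finset.univ.image Y := ⟨_, rfl⟩
  have hYsmem : ∀ i, i ∈ Ys ↔ i ∈ Set.range Y := by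
    intro i
    rw [hYs, Finset.mem_image]
    exact ⟨fun ⟨j, _, hj⟩ => ⟨j, hj⟩, fun ⟨j, hj⟩ => ⟨j, Finset.mem_univ _, hj⟩⟩
  have ha₀ : ∃ a₀ : J, True := by
    obtain ⟨a₀⟩ := Fintype.card_pos_iff.1 hJpos
    exact ⟨a₀, trivial⟩
  obtain ⟨a₀, -⟩ := ha₀
  let y : (P →* ℂˣ) → I := fun f => if hf : f ≠ 1 then Y ⟨N f, (hmem _).2 ⟨f, hf, rfl⟩⟩ else Y a₀
  have hy : ∀ f (hf : f ≠ 1), y f = Y ⟨N f, (hmem _).2 ⟨f, hf, rfl⟩⟩ := fun f hf => dif_pos hf
  let τ : I → ℤ := fun i => if hi : i ∈ Set.range Y then σ hi.choose else δ i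
  have hτY : ∀ j, τ (Y j) = σ j := by
    intro j
    have hi : Y j ∈ Set.range Y := ⟨j, rfl⟩
    show (if hi : Y j ∈ Set.range Y then σ hi.choose else δ (Y j)) = σ j
    rw [dif_pos hi, hYinj hi.choose_spec]
  have hτn : ∀ i, i ∉ Set.range Y → τ i = δ i := fun i hi => dif_neg hi
  refine ⟨Ys, y, τ, ?_, ?_, ?_, ?_, ?_, ?_⟩
  · rw [hYs, Finset.card_image_of_injective _ hYinj, Finset.card_univ, Fintype.card_coe]
  · intro i
    by_cases hi : i ∈ Set.range Y
    · obtain ⟨j, rfl⟩ := hi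
      rw [hτY]; exact hσ j
    · rw [hτn i hi]; exact hδ i hi
  · intro i hi
    obtain ⟨⟨a, ha⟩, rfl⟩ := (hYsmem i).1 hi
    obtain ⟨f, hf, rfl⟩ := (hmem a).1 ha
    exact ⟨f, hf, hy f hf⟩
  · intro f hf
    rw [hYsmem, hy f hf]
    exact ⟨_, rfl⟩
  · intro f hf i hi
    obtain ⟨⟨a, ha⟩, rfl⟩ := (hYsmem i).1 hi
    have h2 := hY1 ⟨a, ha⟩ ⟨N f, (hmem _).2 ⟨f, hf, rfl⟩⟩
    have h3 : N f (Y ⟨a, ha⟩) = _ := h2
    rw [h3, hτY]
    by_cases h4 : a = N f
    · subst h4
      rw [if_pos rfl, if_pos (hy f hf).symm]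
    · rw [if_neg (fun h5 => h4 (congrArg Subtype.val h5)), if_neg]
      intro h5
      rw [hy f hf] at h5
      exact h4 (congrArg Subtype.val (hYinj h5))
  · intro f hf i hi
    rw [hYsmem] at hi
    have h2 := hY2 i hi ⟨N f, (hmem _).2 ⟨f, hf, rfl⟩⟩
    have h3 : N f i = _ := h2
    rw [h3, hτn i hi]

end KD

end CfsgLib.Star
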