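import Mathlib
import Cfsg.Agent.EqBase
import Cfsg.Agent.LibStar53

/-!
# Star construction, LVII: transport of generalized decomposition functions (helper18)
-/

set_option autoImplicit false
set_option linter.unusedSectionVars false
set_option linter.style.haveILetI false
set_option linter.unusedSimpArgs false
set_option linter.unusedVariables false

namespace CfsgLib.Star

open Cfsg CfsgLib.GalChar CfsgLib.GalField CfsgLib.BlockReg CfsgLib.BlockReg2 CfsgLib.LocR
  CfsgLib.BrP CfsgLib.Car CfsgLib.BlockQP CfsgLib.BlockDefect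
  CfsgLib.Points CfsgLib.PLocalInd CfsgLib.CharBasic CfsgLib.BlockCore CfsgLib.BlockSec
  CfsgLib.BlockR CfsgLib.BlockIdem CfsgLib.BlockOrth CfsgLib.CharIndA CfsgLib.CharNorm
open scoped ComplexConjugate Pointwise

universe u

section Transp

variable {K K' : Type u} [Group K] [Finite K] [Group K'] [Finite K']
variable {M : Ideal AlgInt} [hPr : M.IsPrime] {G : Type u} [Group G] [Fintype G]

/-- block coefficients are determined by the block idempotent -/
theorem coef_eq {ι : K →* G} {ι' : K' →* G} (hι : Function.Injective ι)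
    (hι' : Function.Injective ι') {b : Set (IrrCharacter K)} {b' : Set (IrrCharacter K')}
    (hb : IsPBlock M b) (hb' : IsPBlock M b') (hr : ι.range = ι'.range)
    (h : bk M ι b = bk M ι' b') {x : K} {y : K'} (hxy : ι x = ι' y) :
    blockCoeff b x = blockCoeff b' y := by
  let φ : K ≃* K' := ((MonoidHom.ofInjective hι).trans (MulEquiv.subgroupCongr hr)).trans
    (MonoidHom.ofInjective hι').symm
  have hφ : ∀ k, ι' (φ k) = ι k := by
    intro k
    have h1 : (MonoidHom.ofInjective hι') (φ k) =
        (MulEquiv.subgroupCongr hr) ((MonoidHom.ofInjective hι) k) :=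
      (MonoidHom.ofInjective hι').apply_symm_apply _
    have h2 := congrArg Subtype.val h1
    exact h2
  have h1 := bk_pb' (M := M) hι hι' φ hφ b
  rw [h] at h1
  have h2 := bk_inj hι' (isPBlock_pb φ hb) hb' h1
  have h3 : y = φ x := hι' (by rw [hφ, hxy])
  rw [h3, ← h2, blockCoeff_pb]

theorem bk_conj {C : Subgroup G} (t : G) (b : Set (IrrCharacter C)) :
    bk M ((MulAut.conj t).toMonoidHom.comp C.subtype) b = cj t (bk M C.subtype b) := by
  have hι : Function.Injective ((MulAut.conj t).toMonoidHom.comp C.subtype) :=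
    (MulAut.conj t).injective.comp (Subgroup.subtype_injective C)
  refine ext_on hι (zh_Ph hι _).1 ?_ fun c => ?_
  · have h1 : Supp C (bk M C.subtype b) := by
      have := (zh_Ph (M := M) (Subgroup.subtype_injective C) (ind b)).1
      rw [Subgroup.range_subtype] at this
      exact this
    have h2 : (((MulAut.conj t).toMonoidHom.comp C.subtype).range) = cS t C := by
      rw [MonoidHom.range_comp, Subgroup.range_subtype]
    rw [h2]
    exact supp_cj h1 t
  · rw [bk_coeff hι, cj_coeff]
    have e1 : t⁻¹ * ((MulAut.conj t).toMonoidHom.comp C.subtype) c * t = C.subtype c := by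
      show t⁻¹ * (t * (c : G) * t⁻¹) * t = c
      group
    rw [e1, bk_coeff (Subgroup.subtype_injective C)]

theorem co_cj {C : Subgroup G} {e : MonoidAlgebra (kM M) G} (he : IsBlk C e) (t w : G) :
    co M (cS t C) (cj t e) (t * w * t⁻¹) = co M C e w := by
  have he' : IsBlk (cS t C) (cj t e) := he.cj t
  have hmem : t * w * t⁻¹ ∈ cS t C ↔ w ∈ C := by
    rw [mem_cS]
    have e1 : t⁻¹ * (t * w * t⁻¹) * t = w := by group
    rw [e1]
  by_cases hw : w ∈ C
  · rw [co_of _ hw, co_of _ (hmem.2 hw)]
    obtain ⟨h1, h2⟩ := bset_spec (M := M) he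
    obtain ⟨h3, h4⟩ := bset_spec (M := M) he'
    symm
    refine coef_eq (M := M) (ι := (MulAut.conj t).toMonoidHom.comp C.subtype)
      (ι' := (cS t C).subtype) ((MulAut.conj t).injective.comp (Subgroup.subtype_injective C))
      (Subgroup.subtype_injective _) h1 h3 ?_ ?_ rfl
    · rw [MonoidHom.range_comp, Subgroup.range_subtype, Subgroup.range_subtype]
    · rw [bk_conj, h2, h4]
  · rw [co_not _ hw, co_not _ (fun h => hw (hmem.1 h))]

theorem dv_cj {v : G} {e : MonoidAlgebra (kM M) G}
    (he : IsBlk (CH ⊤ (Subgroup.zpowers v)) e) (t s : G) (F : G → ℂ) :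
    dv M (t * v * t⁻¹) (cj t e) F (t * s * t⁻¹) = dv M v e (fun g => F (t * g * t⁻¹)) s := by
  unfold dv cpart
  have hC : CH ⊤ (Subgroup.zpowers (t * v * t⁻¹)) = cS t (CH ⊤ (Subgroup.zpowers v)) := by
    rw [← cS_zpowers, CH_cS' (Subgroup.mem_top t)]
  rw [hC, ← Equiv.sum_comp (MulAut.conj t).toEquiv]
  refine Finset.sum_congr rfl fun w _ => ?_
  have e0 : (MulAut.conj t).toEquiv w = t * w * t⁻¹ := rfl
  rw [e0, co_cj he]
  congr 2
  group

end Transp

section Rel

variable {M : Ideal AlgInt} [hPr : M.IsPrime] {G : Type u} [Group G] [Fintype G]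
variable {p : ℕ} [hp : Fact p.Prime] [hch : CharP (kM M) p]

/-- transport to the group `↥H`, with coefficients -/
theorem rel_data2 (hM : IsPModular p M) {H P : Subgroup G} [Fintype H]
    {b c : MonoidAlgebra (kM M) G} (hb : IsBlk H b) (hmx : IsMx p H b P c) :
    ∃ c' : MonoidAlgebra (kM M) H,
      IsMx p ⊤ (JB M (bset M H b)) (P.subgroupOf H) c' ∧
      (∀ x : H, x ∈ TS ⊤ (P.subgroupOf H) c' ↔ (x : G) ∈ TS H P c) ∧
      ∀ v : H, (v : G) ∈ P → ∀ w : H, co M (CH ⊤ (Subgroup.zpowers v))
        (ev p (P.subgroupOf H) c' v) w =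
          co M (CH H (Subgroup.zpowers (v : G))) (evH p H P c (v : G)) (w : G) := by
  classical
  haveI : M.IsMaximal := hM.2.1
  have hι : Function.Injective (H.subtype) := Subgroup.subtype_injective H
  obtain ⟨hB, hbk⟩ := bset_spec (M := M) hb
  have hPc := hmx.1.1
  have hPH : P ≤ H := hPc.le
  have hr : (H.subtype).range = H := Subgroup.range_subtype H
  have hmapP : (P.subgroupOf H).map H.subtype = P := Subgroup.map_subgroupOf_eq_of_le hPH
  obtain ⟨e, he, hec⟩ := iC_surj hι (P := P.subgroupOf H) (x := c) (by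
    rw [hr, hmapP]; exact hPc.blk)
  have hmaxK : IsMaximalBrauerPair p M (bset M H b) (P.subgroupOf H) e := by
    rw [isMx_iff hι hM hB, hr, hmapP, hec, hbk]
    exact ⟨he, hmx⟩
  have hmx' := ((g_mx hM hB).1 hmaxK).2
  refine ⟨J M (P.subgroupOf H) e, hmx', ?_, ?_⟩
  · intro x
    rw [← g_stab he, stab_iff hι he]
    have h0 : (H.subtype.comp (Subgroup.centralizer ((P.subgroupOf H : Subgroup H) : Set H)).subtype)
      = iC H.subtype (P.subgroupOf H) := rfl
    rw [h0, hec, ← map_mem_normalizer hι, hmapP]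
    constructor
    · rintro ⟨h1, h2, h3⟩; exact ⟨x.2, h1, h3⟩
    · rintro ⟨_, h1, h2⟩
      refine ⟨h1, ?_, h2⟩
      have h3 : x ∈ Subgroup.normalizer ((P.subgroupOf H : Subgroup H) : Set H) := by
        rw [← map_mem_normalizer hι, hmapP]; exact h1
      rw [mem_normalizer_iff_cS, ← centralizer_cS, cS_of_normalizer h3]
  · intro v hv w
    have hvP : v ∈ P.subgroupOf H := hv
    have hle := ev_spec hmx'.1.1 hvP
    have hblk := ev_blk hmx'.1.1 hvP
    obtain ⟨f, hf, hfe⟩ := g_surj hblk
    rw [← hfe] at hle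
    have h1 : SubpairLE p M (Subgroup.zpowers v) f (P.subgroupOf H) e := (g_le hM hf he).2 hle
    have h2 := (subpair_le_iff hι hM hf he).1 h1
    rw [hr, hmapP, hec, MonoidHom.map_zpowers] at h2
    have h3 : bk M (iC H.subtype (Subgroup.zpowers v)) f = evH p H P c (v : G) :=
      evH_unique hPc h2
    have hspec := bset_spec (M := M) hblk
    have hspec' := bset_spec (M := M) (evH_blk hPc hv)
    by_cases hw : w ∈ CH ⊤ (Subgroup.zpowers v)
    · have hw' : (w : G) ∈ CH H (Subgroup.zpowers (v : G)) := mem_CH_sub.1 hw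
      have hwc : w ∈ Subgroup.centralizer ((Subgroup.zpowers v : Subgroup H) : Set H) := by
        rw [← CH_top]; exact hw
      rw [co_of _ hw, co_of _ hw']
      have e1 := coef_eq (M := M) (ι := (CH ⊤ (Subgroup.zpowers v)).subtype)
        (ι' := (Subgroup.centralizer ((Subgroup.zpowers v : Subgroup H) : Set H)).subtype)
        (Subgroup.subtype_injective _) (Subgroup.subtype_injective _) hspec.1 hf
        (by rw [Subgroup.range_subtype, Subgroup.range_subtype, CH_top])
        (by rw [hspec.2, ← hfe]; rfl) (x := ⟨w, hw⟩) (y := ⟨w, hwc⟩) rfl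
      rw [e1]
      refine coef_eq (M := M) (ι := iC H.subtype (Subgroup.zpowers v))
        (ι' := (CH H (Subgroup.zpowers (v : G))).subtype)
        (iC_injective hι _) (Subgroup.subtype_injective _) hf hspec'.1 ?_ ?_ rfl
      · rw [range_iC hι, Subgroup.range_subtype, MonoidHom.map_zpowers, Subgroup.range_subtype]
        rfl
      · rw [hspec'.2, h3]
    · rw [co_not _ hw, co_not]
      exact fun h => hw (mem_CH_sub.2 h)

theorem evH_eq {K P : Subgroup G} {c : MonoidAlgebra (kM M) G} (hPc : BP p ⊤ P c)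
    (hPK : BP p K P c) (hab : ∀ x ∈ P, ∀ y ∈ P, x * y = y * x) {v : G} (hv : v ∈ P)
    (hvK : CH ⊤ (Subgroup.zpowers v) ≤ K) :
    CH K (Subgroup.zpowers v) = CH ⊤ (Subgroup.zpowers v) ∧
      evH p K P c v = ev p P c v := by
  have hC : CH K (Subgroup.zpowers v) = CH ⊤ (Subgroup.zpowers v) := by
    apply le_antisymm
    · exact inf_le_inf_right _ le_top
    · exact le_inf hvK inf_le_right
  refine ⟨hC, ?_⟩
  symm
  apply evH_unique hPK
  have hle := ev_spec hPc hv
  have hPN : P ≤ Subgroup.normalizer ((Subgroup.zpowers v : Subgroup G) : Set G) := by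
    intro x hx
    apply centralizer_le_normalizer
    rw [Subgroup.mem_centralizer_iff]
    rintro _ ⟨n, rfl⟩
    exact hab _ (P.zpow_mem hv n) x hx
  have hn := hle.nrm hPc hPN
  apply Relation.ReflTransGen.single
  refine ⟨⟨?_, hn.bpQ.pg, ?_⟩, hPK, hn.le, hn.norm, hn.fx, hn.br⟩
  · rw [Subgroup.zpowers_le]; exact hPK.le hv
  · rw [hC]; exact hn.bpQ.blk

/-- comparison of generalized decomposition functions -/
theorem dv_sub {K : Subgroup G} [Fintype K] {v : K} {e' : MonoidAlgebra (kM M) K}
    {e : MonoidAlgebra (kM M) G} (hvK : CH ⊤ (Subgroup.zpowers (v : G)) ≤ K)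
    (hco : ∀ w : K, co M (CH ⊤ (Subgroup.zpowers v)) e' w =
      co M (CH ⊤ (Subgroup.zpowers (v : G))) e (w : G)) (F : G → ℂ) (s : K) :
    dv M v e' (fun k : K => F k) s = dv M (v : G) e F (s : G) := by
  unfold dv cpart
  rw [← sum_subgroup (T := K) (fun w => co M (CH ⊤ (Subgroup.zpowers (v : G))) e w *
    F (w * ((v : G) * s))) (fun w hw => by
      rw [co_not e (fun h => hw (hvK h)), zero_mul])]
  refine Finset.sum_congr rfl fun w _ => ?_
  rw [hco w]
  rfl

end Rel

end CfsgLib.Star
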