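import Mathlib
import Cfsg.Agent.EqBase
import Cfsg.Agent.LibStar57

/-!
# Star construction, LVIII: nilpotent blocks with abelian defect groups (helper18)
-/

set_option autoImplicit false
set_option linter.unusedSectionVars false
set_option linter.style.haveILetI false
set_option linter.unusedSimpArgs false
set_option linter.unusedVariables false

namespace CfsgLib.Star

open Cfsg CfsgLib.GalChar CfsgLib.GalField CfsgLib.BlockReg CfsgLib.BlockReg2 CfsgLib.LocR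
  CfsgLib.BrP CfsgLib.Car CfsgLib.BlockQP CfsgLib.BlockDefect
  CfsgLib.Points CfsgLib.PLocalInd CfsgLib.CharBasic CfsgLib.BlockCore CfsgLib.BlockSec
  CfsgLib.BlockR CfsgLib.BlockIdem CfsgLib.BlockOrth CfsgLib.CharIndA CfsgLib.CharNorm
open scoped ComplexConjugate Pointwise

universe u

variable {M : Ideal AlgInt} [hPr : M.IsPrime] {G : Type u} [Group G] [Fintype G]
variable {p : ℕ} [hp : Fact p.Prime] [hch : CharP (kM M) p]

theorem inner_star_GG1 (hM : IsPModular p M) {B : Set (IrrCharacter G)} (hB : IsPBlock M B)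
    {P : Subgroup G} [Fintype P] {c : MonoidAlgebra (kM M) G} (hmx : IsMx p ⊤ (JB M B) P c)
    {η : G → ℂ} (hη : FSt p P c η) {χ : IrrCharacter G} (hχ : χ ∈ B)
    {ψ : G → ℂ} (hψ : IsClassFunction G ψ) :
    classInner (star p M (HF p P c η) (χ : G → ℂ)) ψ =
      (Nat.card P : ℂ)⁻¹ * ∑ v : P, η v * GG p P c (χ : G → ℂ) ψ v := by
  classical
  have h1 := inner_star_GG hM hB hmx hη (FSt_const P c 1) hχ hψ
  have h2 : classInner (star p M (HF p P c η) (χ : G → ℂ)) (star p M (HF p P c (fun _ => 1)) ψ) =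
      classInner (star p M (HF p P c η) (χ : G → ℂ)) ψ := by
    conv_rhs => rw [← star_one (p := p) (M := M) hψ]
    rw [inner_star hM (irr_classFun χ.2) hψ, inner_star hM (irr_classFun χ.2) hψ]
    congr 1
    refine Finset.sum_congr rfl fun u _ => Finset.sum_congr rfl fun e he => ?_
    rw [mem_bl] at he
    by_cases h : ∃ x, Mv p P c u e x
    · obtain ⟨x, hx⟩ := h
      rw [HF_of (FSt_const P c 1) hx]
    · rw [WW_not_mv hM hB hmx hχ he h]
      ring
  rw [← h2, h1]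
  congr 1
  refine Finset.sum_congr rfl fun v _ => ?_
  rw [map_one, mul_one]

theorem fus_bot {B : MonoidAlgebra (kM M) G} (hB : IsBlk ⊤ B)
    {P : Subgroup G} {c : MonoidAlgebra (kM M) G} (hmx : IsMx p ⊤ B P c)
    (hab : ∀ x ∈ P, ∀ y ∈ P, x * y = y * x)
    (hTS : TS ⊤ P c ≤ Subgroup.centralizer (P : Set G)) : Fus p P c ⊥ := by
  intro v w x hv hw hwx hT
  obtain ⟨e, h1, h2⟩ := hT
  obtain ⟨y, hy, d, hd, rfl⟩ := abelian_move hB hmx hab h1 (Subgroup.mem_top _) h2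
  have h3 : w = v := by
    rw [hwx]
    have h5 := comm_of_C hd
    have h6 := Subgroup.mem_centralizer_iff.1 (hTS hy) v hv
    calc y * d * v * (y * d)⁻¹ = y * (d * v) * d⁻¹ * y⁻¹ := by group
      _ = y * (v * d) * d⁻¹ * y⁻¹ := by rw [h5]
      _ = (y * v) * y⁻¹ := by group
      _ = (v * y) * y⁻¹ := by rw [h6]
      _ = v := by group
  subst h3
  rw [inv_mul_cancel]
  exact Subgroup.one_mem _

theorem FSt_ab {B : MonoidAlgebra (kM M) G} (hB : IsBlk ⊤ B)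
    {P : Subgroup G} {c : MonoidAlgebra (kM M) G} (hmx : IsMx p ⊤ B P c)
    (hab : ∀ x ∈ P, ∀ y ∈ P, x * y = y * x)
    (hTS : TS ⊤ P c ≤ Subgroup.centralizer (P : Set G)) (f : P →* ℂˣ) :
    FSt p P c (lx P f) :=
  FSt_lx (fus_bot hB hmx hab hTS) (f := f) (fun x hx => by
    rw [Subgroup.mem_bot] at hx; rw [hx, map_one])

/-- symmetry of the contributions -/
theorem GG_symm (P : Subgroup G) [Finite P] (c : MonoidAlgebra (kM M) G) (χ ψ : G → ℂ) (v : P) :
    GG p P c ψ χ v = conj (GG p P c χ ψ v) := by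
  unfold GG
  rw [map_div₀, map_mul, map_natCast, map_natCast]
  congr 2
  unfold WW
  rw [map_sum]
  refine Finset.sum_congr rfl fun s _ => ?_
  split_ifs
  · rw [map_mul, Complex.conj_conj, mul_comm]
  · rw [map_zero]

omit hPr hp hch [Fintype G] in
theorem span_one {V : Type*} [AddCommGroup V] [Module ℂ V] {S : Set V}
    (h : Module.finrank ℂ (Submodule.span ℂ S) = 1) :
    ∃ φ : V, ∀ w ∈ Submodule.span ℂ S, ∃ a : ℂ, w = a • φ := by
  obtain ⟨φ, _, hφ⟩ := finrank_eq_one_iff'.1 h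
  refine ⟨φ, fun w hw => ?_⟩
  obtain ⟨a, ha⟩ := hφ ⟨w, hw⟩
  exact ⟨a, (congrArg Subtype.val ha).symm⟩

omit hPr hch [Fintype G] in
theorem span_block {C : Type u} [Group C] [Fintype C] {b : Set (IrrCharacter C)}
    (h : blockRank p b = 1) : ∃ φ : C → ℂ, ∀ F : IrrCharacter C → ℂ, ∃ a : ℂ, ∀ x : C,
      ¬ p ∣ orderOf x → ∑ θ : IrrCharacter C, ind b θ * (F θ * (θ : C → ℂ) x) = a * φ x := by
  unfold blockRank at h
  obtain ⟨φ, hφ⟩ := span_one h
  refine ⟨φ, fun F => ?_⟩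
  obtain ⟨a, ha⟩ := hφ (∑ θ : IrrCharacter C, (ind b θ * F θ) • pRegularPart p (θ : C → ℂ)) (by
    refine Submodule.sum_mem _ fun θ _ => ?_
    by_cases hθ : θ ∈ b
    · exact Submodule.smul_mem _ _ (Submodule.subset_span ⟨θ, hθ, rfl⟩)
    · rw [ind_not hθ, zero_mul, zero_smul]
      exact Submodule.zero_mem _)
  refine ⟨a, fun x hx => ?_⟩
  have h1 := congrFun ha x
  rw [Finset.sum_apply, Pi.smul_apply, smul_eq_mul] at h1
  rw [← h1]
  refine Finset.sum_congr rfl fun θ _ => ?_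
  rw [Pi.smul_apply, smul_eq_mul]
  unfold pRegularPart
  rw [if_pos (show IsPRegular p x from hx)]
  ring

/-- the rank one property -/
theorem rank_one_dv (hM : IsPModular p M) {u : G} {e : MonoidAlgebra (kM M) G}
    (hrk : blockRank p (bset M (CH ⊤ (Subgroup.zpowers u)) e) = 1) :
    ∃ φ : G → ℂ, ∀ χ : G → ℂ, IsClassFunction G χ → ∃ a : ℂ, ∀ s, pp p (u * s) = u →
      dv M u e χ s = a * φ s := by
  classical
  haveI := Fintype.ofFinite (CH ⊤ (Subgroup.zpowers u))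
  obtain ⟨φ₀, hφ₀⟩ := span_block hrk
  refine ⟨ext0 (CH ⊤ (Subgroup.zpowers u)) φ₀, fun χ hχ => ?_⟩
  obtain ⟨a, ha⟩ := hφ₀ (fun θ => classInner
    (fun c : CH ⊤ (Subgroup.zpowers u) => χ (u * (c : G))) (θ : _ → ℂ))
  refine ⟨a, fun s hs => ?_⟩
  obtain ⟨h1, h2, h3⟩ := pp_iff.1 hs
  have hsC : s ∈ CH ⊤ (Subgroup.zpowers u) := mem_C h2
  rw [ext0_mem _ hsC, ← ha ⟨s, hsC⟩ (by rw [Subgroup.orderOf_mk]; exact h3)]
  exact dv_expand (M := M) e hχ ⟨s, hsC⟩

/-- the contributions as scalars -/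
theorem dv_GG (hM : IsPModular p M)
    {P : Subgroup G} [Finite P] {c : MonoidAlgebra (kM M) G} (hPc : BP p ⊤ P c) {v : P}
    (hrk : blockRank p (bset M (CH ⊤ (Subgroup.zpowers (v : G))) (ev p P c v)) = 1)
    {χ₀ : G → ℂ} (hχ₀ : IsClassFunction G χ₀) (h1 : GG p P c χ₀ χ₀ v = 1)
    {ψ : G → ℂ} (hψ : IsClassFunction G ψ) {s : G} (hs : pp p ((v : G) * s) = v) :
    dv M (v : G) (ev p P c v) ψ s = GG p P c ψ χ₀ v * dv M (v : G) (ev p P c v) χ₀ s := by
  classical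
  obtain ⟨φ, hφ⟩ := rank_one_dv hM hrk
  obtain ⟨a, ha⟩ := hφ ψ hψ
  obtain ⟨a₀, ha₀⟩ := hφ χ₀ hχ₀
  obtain ⟨R, hR⟩ : ∃ R : ℂ, R = ∑ s : G, if pp p ((v : G) * s) = v then φ s * conj (φ s) else 0 :=
    ⟨_, rfl⟩
  have hW : ∀ χ : G → ℂ, ∀ b : ℂ, (∀ s, pp p ((v : G) * s) = v →
      dv M (v : G) (ev p P c v) χ s = b * φ s) →
      WW p M (v : G) (ev p P c v) χ χ₀ = b * conj a₀ * R := by
    intro χ b hb
    unfold WW
    rw [hR, Finset.mul_sum]
    refine Finset.sum_congr rfl fun s _ => ?_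
    split_ifs with h
    · rw [hb s h, ha₀ s h, map_mul]; ring
    · rw [mul_zero]
  unfold GG at h1 ⊢
  rw [hW χ₀ a₀ ha₀] at h1
  rw [hW ψ a ha, ha s hs, ha₀ s hs]
  linear_combination (-(a * φ s)) * h1

/-- `GG` as a product -/
theorem GG_mul (hM : IsPModular p M)
    {P : Subgroup G} [Finite P] {c : MonoidAlgebra (kM M) G} (hPc : BP p ⊤ P c) {v : P}
    (hrk : blockRank p (bset M (CH ⊤ (Subgroup.zpowers (v : G))) (ev p P c v)) = 1)
    {χ₀ : G → ℂ} (hχ₀ : IsClassFunction G χ₀) (h1 : GG p P c χ₀ χ₀ v = 1)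
    {ψ ψ' : G → ℂ} (hψ : IsClassFunction G ψ) (hψ' : IsClassFunction G ψ') :
    GG p P c ψ ψ' v = GG p P c ψ χ₀ v * conj (GG p P c ψ' χ₀ v) := by
  classical
  have h2 : WW p M (v : G) (ev p P c v) ψ ψ' = GG p P c ψ χ₀ v * conj (GG p P c ψ' χ₀ v) *
      WW p M (v : G) (ev p P c v) χ₀ χ₀ := by
    unfold WW
    rw [Finset.mul_sum]
    refine Finset.sum_congr rfl fun s _ => ?_
    split_ifs with h
    · rw [dv_GG hM hPc hrk hχ₀ h1 hψ h, dv_GG hM hPc hrk hχ₀ h1 hψ' h, map_mul]; ring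
    · rw [mul_zero]
  have h3 : GG p P c ψ ψ' v = GG p P c ψ χ₀ v * conj (GG p P c ψ' χ₀ v) *
      GG p P c χ₀ χ₀ v := by
    conv_lhs => unfold GG
    rw [h2]
    conv_rhs => rw [show GG p P c χ₀ χ₀ v = (Nat.card P : ℂ) *
      WW p M (v : G) (ev p P c v) χ₀ χ₀ / ((AA p P c (v : G) (ev p P c v)).card : ℂ) from rfl]
    ring
  rw [h3, h1, mul_one]

section Nil

variable [hMx : M.IsMaximal]

/-- data of a nilpotent block with abelian defect group -/
theorem nil_ab (hM : IsPModular p M) {B : Set (IrrCharacter G)} (hB : IsPBlock M B)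
    {P : Subgroup G} [Fintype P] {c : MonoidAlgebra (kM M) G} (hmx : IsMx p ⊤ (JB M B) P c)
    (hab : ∀ x ∈ P, ∀ y ∈ P, x * y = y * x)
    (hTS : TS ⊤ P c ≤ Subgroup.centralizer (P : Set G)) :
    ∃ χ₀ : IrrCharacter G, χ₀ ∈ B ∧ (∀ v : P, GG p P c (χ₀ : G → ℂ) (χ₀ : G → ℂ) v = 1) ∧
      (∀ f : P →* ℂˣ, ∃ θ : IrrCharacter G, θ ∈ B ∧ ∀ (v : P) (s : G), pp p ((v : G) * s) = v →
        dv M (v : G) (ev p P c v) (θ : G → ℂ) s = ((f v : ℂˣ) : ℂ) *
          dv M (v : G) (ev p P c v) (χ₀ : G → ℂ) s) ∧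
      (∀ θ : IrrCharacter G, θ ∈ B → ∃ f : P →* ℂˣ, ∀ (v : P) (s : G), pp p ((v : G) * s) = v →
        dv M (v : G) (ev p P c v) (θ : G → ℂ) s = ((f v : ℂˣ) : ℂ) *
          dv M (v : G) (ev p P c v) (χ₀ : G → ℂ) s) := by
  classical
  have hPc := hmx.1.1
  have hnil : Nilp p ⊤ (JB M B) := (nilp_abelian (g_blk hB) hmx hab).2 hTS
  have hinn : Inn' p ⊤ P c := inn_of_nilp (g_blk hB) hmx hnil
  obtain ⟨χ, hχ, h0⟩ := exists_height_zero hM hB
  have h0' : blockHeight p B (χ : G → ℂ) = 0 := (height_zero_iff hM hB hχ).2 h0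
  have hst : ∀ f : P →* ℂˣ, FSt p P c (lx P f) := fun f =>
    FSt_ab (g_blk hB) hmx hab hTS f
  have hdv : ∀ (f : P →* ℂˣ) (v : P) (s : G), pp p ((v : G) * s) = v →
      dv M (v : G) (ev p P c v) (la hM hB hmx (hst f) hχ : G → ℂ) s = ((f v : ℂˣ) : ℂ) *
        dv M (v : G) (ev p P c v) (χ : G → ℂ) s := by
    intro f v s hs
    rw [la_eq]
    rw [dv_star hM (HF_hd hM hB hmx (hst f)) (irr_classFun χ.2) hs (ev_blk hPc v.2),
      HF_of (hst f) (ev_mv hPc v.2), one_mul, inv_one, mul_one, lx_mem _ v.2]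
  refine ⟨χ, hχ, nil_GG hM hB hmx hinn hχ h0', fun f => ⟨la hM hB hmx (hst f) hχ, la_mem _ _ _ _ _,
    hdv f⟩, fun θ hθ => ?_⟩
  by_contra hcon
  have hne : ∀ f : P →* ℂˣ, la hM hB hmx (hst f) hχ ≠ θ := by
    intro f hf
    apply hcon
    refine ⟨f, fun v s hs => ?_⟩
    rw [← hf]; exact hdv f v s hs
  haveI : Finite (P →* ℂˣ) := finite_hom
  haveI := Fintype.ofFinite (P →* ℂˣ)
  have hz : ∀ f : P →* ℂˣ, ∑ v : P, ((f v : ℂˣ) : ℂ) *
      GG p P c (χ : G → ℂ) (θ : G → ℂ) v = 0 := by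
    intro f
    have h1 := inner_star_GG1 hM hB hmx (hst f) hχ (irr_classFun θ.2)
    rw [← la_eq hM hB hmx (hst f) hχ, irr_inner (la hM hB hmx (hst f) hχ).2 θ.2,
      if_neg (fun h => hne f (Subtype.ext h))] at h1
    have hP' : (Nat.card P : ℂ) ≠ 0 := by exact_mod_cast Nat.card_pos.ne'
    have h2 := congrArg (fun z => (Nat.card P : ℂ) * z) h1
    simp only [mul_zero] at h2
    rw [mul_inv_cancel_left₀ hP'] at h2
    rw [h2]
    refine Finset.sum_congr rfl fun v _ => ?_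
    rw [lx_mem _ v.2]
  have h1 : ∑ f : P →* ℂˣ, ∑ v : P, ((f v : ℂˣ) : ℂ) *
      GG p P c (χ : G → ℂ) (θ : G → ℂ) v = 0 := Finset.sum_eq_zero fun f _ => hz f
  rw [Finset.sum_comm] at h1
  have hab' : ∀ x y : P, x * y = y * x := fun x y => Subtype.ext (hab x x.2 y y.2)
  rw [Finset.sum_eq_single (1 : P)] at h1
  · rw [← Finset.sum_mul] at h1
    simp only [map_one, Units.val_one] at h1
    rw [Finset.sum_const, Finset.card_univ, nsmul_eq_mul, mul_one, GG_one hM hB hmx hχ hθ] at h1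
    rcases mul_eq_zero.1 h1 with h2 | h2
    · have : 0 < Fintype.card (P →* ℂˣ) := Fintype.card_pos
      have h3 : Fintype.card (P →* ℂˣ) = 0 := by exact_mod_cast h2
      omega
    · exact mm_ne_zero hM hB hχ h0' hθ (by exact_mod_cast h2)
  · intro v _ hv
    rw [← Finset.sum_mul]
    have h2 : ∑ f : P →* ℂˣ, ((f v : ℂˣ) : ℂ) = 0 := by
      have hcomm : commutator P ≤ (⊥ : Subgroup P) := by
        rw [commutator_def, Subgroup.commutator_le]
        intro a _ b _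
        rw [Subgroup.mem_bot, commutatorElement_eq_one_iff_mul_comm]
        exact hab' a b
      haveI : Fintype (XN (⊥ : Subgroup P)) := Fintype.ofFinite _
      have h1 := (XN_sum hcomm v).2 (by rw [Subgroup.mem_bot]; exact hv)
      rw [← h1]
      symm
      refine Finset.sum_bij (fun f _ => (f : P →* ℂˣ)) (fun _ _ => Finset.mem_univ _)
        (fun a _ b _ h => Subtype.ext h) (fun f _ => ?_) (fun _ _ => rfl)
      refine ⟨⟨f, fun x hx => ?_⟩, Finset.mem_univ _, rfl⟩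
      rw [Subgroup.mem_bot] at hx
      rw [hx, map_one]
    rw [h2, zero_mul]
  · intro h; exact absurd (Finset.mem_univ _) h

end Nil

end CfsgLib.Star
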