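import Mathlib
import Cfsg.Agent.EqBase
import Cfsg.Agent.LibStar56
import Cfsg.Agent.LibStar58

/-!
# Star construction, LIX: local comparison for cyclic defect groups (helper18)
-/

set_option autoImplicit false
set_option linter.unusedSectionVars false
set_option linter.style.haveILetI false
set_option linter.unusedSimpArgs false
set_option linter.unusedVariables false

namespace CfsgLib.Star

open Cfsg CfsgLib.GalChar CfsgLib.GalField CfsgLib.BlockReg CfsgLib.BlockReg2 CfsgLib.LocR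
  CfsgLib.BrP CfsgLib.Car CfsgLib.BlockQP CfsgLib.BlockDefect
  CfsgLib.Points CfsgLib.PLocalInd CfsgLib.CharBasic CfsgLib.BlockCore CfsgLib.BlockSec
  CfsgLib.BlockR CfsgLib.BlockIdem CfsgLib.BlockOrth CfsgLib.CharIndA CfsgLib.CharNorm
open scoped ComplexConjugate Pointwise

universe u

variable {M : Ideal AlgInt} [hPr : M.IsPrime] {G : Type u} [Group G] [Fintype G]
variable {p : ℕ} [hp : Fact p.Prime]

/-- the normalized generalized decomposition number -/
noncomputable def kap (p : ℕ) [Fact p.Prime] (P : Subgroup G) (c : MonoidAlgebra (kM M) G)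
    (Θ χ : G → ℂ) (v : G) : ℂ :=
  (Nat.card P : ℂ) / (Nat.card (CH ⊤ (Subgroup.zpowers v)) : ℂ) * WW p M v (ev p P c v) χ Θ

section Abs

variable {P : Type*} [Group P] [Finite P]

/-- solving `f = (f ∘ α) μ` in the dual group -/
theorem dual_solve (hab : ∀ x y : P, x * y = y * x) {α : MulAut P}
    (hα : ∀ v : P, v ≠ 1 → α v ≠ v) (μ : P →* ℂˣ) : ∃ f : P →* ℂˣ, ∀ v, f v = f (α v) * μ v := by
  haveI := Fintype.ofFinite P
  haveI : Finite (P →* ℂˣ) := finite_hom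
  let Ψ : (P →* ℂˣ) → (P →* ℂˣ) := fun f =>
    { toFun := fun v => f v * (f (α v))⁻¹
      map_one' := by simp
      map_mul' := fun a b => by
        simp only [map_mul, mul_inv]
        exact mul_mul_mul_comm _ _ _ _ }
  have hΨ : ∀ f v, Ψ f v = f v * (f (α v))⁻¹ := fun _ _ => rfl
  have hinj : Function.Injective Ψ := by
    intro f g hfg
    let h : P →* ℂˣ :=
      { toFun := fun v => f v * (g v)⁻¹
        map_one' := by simp
        map_mul' := fun a b => by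
          simp only [map_mul, mul_inv]
          exact mul_mul_mul_comm _ _ _ _ }
    have hh : ∀ v, h v = f v * (g v)⁻¹ := fun _ => rfl
    have h1 : h = 1 := by
      apply KD.dual_free hab hα
      apply MonoidHom.ext
      intro v
      have h2 := DFunLike.congr_fun hfg v
      rw [hΨ, hΨ] at h2
      rw [KD.dualAct_apply, hh, hh]
      have h3 : f v * (g v)⁻¹ * ((f (α v))⁻¹ * g (α v)) = 1 := by
        calc f v * (g v)⁻¹ * ((f (α v))⁻¹ * g (α v)) =
              (f v * (f (α v))⁻¹) * (g v * (g (α v))⁻¹)⁻¹ := by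
              rw [mul_inv, inv_inv]
              exact mul_mul_mul_comm _ _ _ _
          _ = 1 := by rw [h2, mul_inv_cancel]
      have h4 : (f (α v) * (g (α v))⁻¹) = ((f (α v))⁻¹ * g (α v))⁻¹ := by
        rw [mul_inv, inv_inv]
      rw [h4]
      exact (mul_eq_one_iff_inv_eq'.1 h3)
    apply MonoidHom.ext
    intro v
    have h2 := DFunLike.congr_fun h1 v
    rw [hh] at h2
    exact mul_inv_eq_one.1 h2
  obtain ⟨f, hf⟩ := Finite.surjective_of_injective hinj μ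
  refine ⟨f, fun v => ?_⟩
  rw [← hf, hΨ]
  rw [mul_comm (f v), ← mul_assoc, mul_inv_cancel, one_mul]

end Abs

variable [hch : CharP (kM M) p] [hMx : M.IsMaximal]

open Classical in
theorem exists_theta (hM : IsPModular p M) {B : Set (IrrCharacter G)} (hB : IsPBlock M B)
    {P : Subgroup G} [Fintype P] {c : MonoidAlgebra (kM M) G} (hmx : IsMx p ⊤ (JB M B) P c)
    (hcyc : IsCyclic P) (hP1 : P ≠ ⊥) :
    ∃ Θ : G → ℂ,
      (∀ v ∈ P, v ≠ 1 → ∀ χ : G → ℂ, IsClassFunction G χ → ∀ s, pp p (v * s) = v →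
        dv M v (ev p P c v) χ s = kap p P c Θ χ v * dv M v (ev p P c v) Θ s) ∧
      (∀ v ∈ P, v ≠ 1 → (Nat.card P : ℂ) * WW p M v (ev p P c v) Θ Θ =
        Nat.card (CH ⊤ (Subgroup.zpowers v))) ∧
      (∀ x ∈ TS ⊤ P c, ∀ v ∈ P, v ≠ 1 → ∀ s, pp p (v * s) = v →
        dv M (x * v * x⁻¹) (ev p P c (x * v * x⁻¹)) Θ (x * s * x⁻¹) =
          dv M v (ev p P c v) Θ s) ∧
      (∀ (f : P →* ℂˣ) (χ : G → ℂ), IsCharacter G χ → ∃ n : ℤ,
        (Nat.card P : ℂ)⁻¹ * ∑ v : P, (((f v : ℂˣ) : ℂ) - 1) *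
          conj (if (v : G) = 1 then 0 else kap p P c Θ χ v) = n) := by
  classical
  have hblk := g_blk hB
  have hPc := hmx.1.1
  have hDp := hPc.pg
  have hab := cyc_comm hcyc
  obtain ⟨⟨y, hyP⟩, hy1⟩ := (Subgroup.ne_bot_iff_exists_ne_one).1 hP1
  have hy1' : y ≠ 1 := fun h' => hy1 (Subtype.ext h')
  obtain ⟨n₀, hn₀⟩ := exists_pow_order hDp hyP hy1'
  obtain ⟨z, hzdef⟩ : ∃ z, z = y ^ n₀ := ⟨_, rfl⟩
  have hzp : orderOf z = p := by rw [hzdef]; exact hn₀
  have hzP : z ∈ P := by rw [hzdef]; exact P.pow_mem hyP n₀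
  have hz1 : z ≠ 1 := by
    rintro rfl
    rw [orderOf_one] at hzp
    exact hp.out.one_lt.ne hzp
  have hzv : ∀ v ∈ P, v ≠ 1 → z ∈ Subgroup.zpowers v := by
    intro v hv hv1
    obtain ⟨n, hn⟩ := exists_pow_order hDp hv hv1
    have h1 := mem_zp_of_pow hcyc (P.pow_mem hv n) hzP hn (by rw [← hzp]; exact pow_orderOf_eq_one _)
    exact (Subgroup.zpowers_le.2 (Subgroup.pow_mem _ (Subgroup.mem_zpowers v) n)) h1
  have hle := ev_spec hPc hzP
  obtain ⟨b, hbdef⟩ : ∃ b, b = ev p P c z := ⟨_, rfl⟩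
  rw [← hbdef] at hle
  have hmxK := isMx_local hblk hmx hab hle
  have hbK : IsBlk (CH ⊤ (Subgroup.zpowers z)) b := by rw [hbdef]; exact ev_blk hPc hzP
  obtain ⟨K, hK⟩ : ∃ K, K = CH ⊤ (Subgroup.zpowers z) := ⟨_, rfl⟩
  rw [← hK] at hmxK hbK
  haveI : Fintype K := Fintype.ofFinite K
  have hPK : P ≤ K := hmxK.1.1.le
  have hvK : ∀ v ∈ P, v ≠ 1 → CH ⊤ (Subgroup.zpowers v) ≤ K := by
    intro v hv hv1
    rw [hK, CH_top, CH_top]
    exact centralizer_anti (by rw [Subgroup.zpowers_le]; exact hzv v hv hv1)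
  -- freeness
  have hTN : TS ⊤ P c ≤ Subgroup.normalizer (P : Set G) := TS_le_normalizer
  have hpel : ∀ R : Subgroup G, R ≤ TS ⊤ P c → IsPGroup p R →
      R ≤ Subgroup.centralizer (P : Set G) := by
    intro R hR hRp
    have h1 := mx_pelem hblk hmx hR hRp
    rw [CH_top, sup_eq_right.2 (ab_cen hab)] at h1
    exact h1
  have hcard := act_card hTN hpel
  obtain ⟨hAcyc, hAdvd, hAfree⟩ := cyclic_aut P hDp hcyc hP1 (actHom P (TS ⊤ P c) hTN).range hcard
  have hfree : ∀ x ∈ TS ⊤ P c, ∀ v ∈ P, v ≠ 1 → x * v * x⁻¹ = v →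
      x ∈ Subgroup.centralizer (P : Set G) := by
    intro x hx v hv hv1 hxv
    have h4 : actHom P (TS ⊤ P c) hTN ⟨x, hx⟩ = 1 := by
      refine hAfree _ ⟨_, rfl⟩ ⟨v, hv⟩ (fun h => hv1 (congrArg Subtype.val h)) ?_
      apply Subtype.ext
      rw [actHom_apply]
      exact hxv
    exact (actHom_eq_one hTN).1 h4
  -- the group `K`
  obtain ⟨c', hmx', hTS', hco⟩ := rel_data2 hM hbK hmxK
  obtain ⟨hB', hbk'⟩ := bset_spec (M := M) hbK
  obtain ⟨P', hP'⟩ : ∃ P' : Subgroup K, P' = P.subgroupOf K := ⟨_, rfl⟩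
  rw [← hP'] at hmx' hTS' hco
  haveI : Fintype P' := Fintype.ofFinite P'
  have hmemP' : ∀ v : K, v ∈ P' ↔ (v : G) ∈ P := by
    intro v; rw [hP', Subgroup.mem_subgroupOf]
  have hab' : ∀ x ∈ P', ∀ y ∈ P', x * y = y * x := by
    intro x hx y hy
    exact Subtype.ext (hab x ((hmemP' x).1 hx) y ((hmemP' y).1 hy))
  have hTSc : TS ⊤ P' c' ≤ Subgroup.centralizer (P' : Set K) := by
    intro x hx
    have h1 := (hTS' x).1 hx
    have h2 : (x : G) ∈ Subgroup.centralizer (P : Set G) := by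
      refine hfree x ⟨Subgroup.mem_top _, h1.2.1, h1.2.2⟩ z hzP hz1 ?_
      have h3 : (x : G) ∈ CH ⊤ (Subgroup.zpowers z) := by rw [← hK]; exact x.2
      rw [comm_of_C h3, mul_inv_cancel_right]
    rw [Subgroup.mem_centralizer_iff]
    intro y hy
    exact Subtype.ext (Subgroup.mem_centralizer_iff.1 h2 y ((hmemP' y).1 hy))
  obtain ⟨χ₀, hχ₀, hG1, hf1, hf2⟩ := nil_ab hM hB' hmx' hab' hTSc
  have hPc' := hmx'.1.1
  let j : P ≃* P' :=
    { toFun := fun v => ⟨⟨v, hPK v.2⟩, (hmemP' _).2 v.2⟩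
      invFun := fun v => ⟨v, (hmemP' _).1 v.2⟩
      left_inv := fun v => rfl
      right_inv := fun v => rfl
      map_mul' := fun v w => rfl }
  have hcardP : (Nat.card P' : ℂ) = Nat.card P := by
    rw [Nat.card_congr j.toEquiv]
  -- comparison
  have hcov : ∀ v : P, (v : G) ≠ 1 → ∀ w : K, co M (CH ⊤ (Subgroup.zpowers ((j v : P') : K)))
      (ev p P' c' ((j v : P') : K)) w = co M (CH ⊤ (Subgroup.zpowers (v : G)))
        (ev p P c v) (w : G) := by
    intro v hv1 w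
    obtain ⟨h1, h2⟩ := evH_eq hPc hmxK.1.1 hab v.2 (hvK v v.2 hv1)
    have h3 := hco ((j v : P') : K) v.2 w
    have e1 : (((j v : P') : K) : G) = v := rfl
    rw [e1, h1, h2] at h3
    exact h3
  have hdvK : ∀ v : P, (v : G) ≠ 1 → ∀ (F : G → ℂ) (s : K),
      dv M ((j v : P') : K) (ev p P' c' ((j v : P') : K)) (fun k : K => F k) s =
        dv M (v : G) (ev p P c v) F (s : G) := fun v hv1 F s =>
    dv_sub (v := ((j v : P') : K)) (hvK v v.2 hv1) (hcov v hv1) F s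
  have hppK : ∀ (v : P) (s : K), pp p (((j v : P') : K) * s) = ((j v : P') : K) ↔
      pp p ((v : G) * (s : G)) = (v : G) := by
    intro v s
    rw [pp_iff, pp_iff]
    have e1 : orderOf (((j v : P') : K)) = orderOf (v : G) :=
      (Subgroup.orderOf_coe ((j v : P') : K)).symm
    have e2 : orderOf s = orderOf (s : G) := (Subgroup.orderOf_coe s).symm
    rw [e1, e2]
    have e3 : Commute (((j v : P') : K)) s ↔ Commute (v : G) (s : G) :=
      ⟨fun h => congrArg Subtype.val h, fun h => Subtype.ext h⟩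
    rw [e3]
  have hsK : ∀ (v : P), (v : G) ≠ 1 → ∀ s : G, pp p ((v : G) * s) = v → s ∈ K := fun v hv1 s hs =>
    hvK v v.2 hv1 (mem_C (pp_iff.1 hs).2.1)
  have hWWK : ∀ v : P, (v : G) ≠ 1 → ∀ F F' : G → ℂ,
      WW p M ((j v : P') : K) (ev p P' c' ((j v : P') : K)) (fun k : K => F k)
        (fun k : K => F' k) = WW p M (v : G) (ev p P c v) F F' := by
    intro v hv1 F F'
    unfold WW
    rw [← sum_subgroup (T := K) (fun s => if pp p ((v : G) * s) = v then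
      dv M (v : G) (ev p P c v) F s * conj (dv M (v : G) (ev p P c v) F' s) else 0)
      (fun s hs => by
        rw [if_neg]
        intro h
        exact hs (hsK v hv1 s h))]
    refine Finset.sum_congr rfl fun s _ => ?_
    simp only [hppK v s, hdvK v hv1]
  have hAAK : ∀ v : P, (v : G) ≠ 1 → (AA p P' c' ((j v : P') : K)
      (ev p P' c' ((j v : P') : K))).card = Nat.card (CH ⊤ (Subgroup.zpowers (v : G))) := by
    intro v hv1
    have h1 := AA_abel (g_blk hB') hmx' hab' (j v).2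
    have h2 : TS ⊤ P' c' ⊓ CH ⊤ (Subgroup.zpowers ((j v : P') : K)) = TS ⊤ P' c' := by
      apply inf_eq_left.2
      refine hTSc.trans ?_
      rw [CH_top]
      exact centralizer_anti (by rw [Subgroup.zpowers_le]; exact (j v).2)
    rw [h2, mul_comm] at h1
    have h3 := Nat.eq_of_mul_eq_mul_left Nat.card_pos h1
    rw [h3]
    have h4 := (evH_eq hPc hmxK.1.1 hab v.2 (hvK v v.2 hv1)).1
    rw [← h4]
    exact card_sub (fun x hx => hx.1) (fun x => mem_CH_sub)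
  have hGGK : ∀ v : P, (v : G) ≠ 1 → ∀ F F' : G → ℂ,
      GG p P' c' (fun k : K => F k) (fun k : K => F' k) (j v) =
        (Nat.card P : ℂ) / (Nat.card (CH ⊤ (Subgroup.zpowers (v : G))) : ℂ) *
          WW p M (v : G) (ev p P c v) F F' := by
    intro v hv1 F F'
    unfold GG
    rw [hWWK v hv1, hAAK v hv1, hcardP]
    ring
  have hext : ∀ θ : K → ℂ, (fun k : K => ext0 K θ (k : G)) = θ := fun θ => funext fun k =>
    ext0_coe θ k
  have hD : ∀ (θ θ' : K → ℂ) (f : P' →* ℂˣ), (∀ (v : P') (s : K), pp p ((v : K) * s) = v →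
      dv M (v : K) (ev p P' c' v) θ s = ((f v : ℂˣ) : ℂ) * dv M (v : K) (ev p P' c' v) θ' s) →
      ∀ (v : P), (v : G) ≠ 1 → ∀ s : G, pp p ((v : G) * s) = v →
      dv M (v : G) (ev p P c v) (ext0 K θ) s = ((f (j v) : ℂˣ) : ℂ) *
        dv M (v : G) (ev p P c v) (ext0 K θ') s := by
    intro θ θ' f h v hv1 s hs
    have hsk := hsK v hv1 s hs
    have h1 := h (j v) ⟨s, hsk⟩ ((hppK v ⟨s, hsk⟩).2 hs)
    have h2 := hdvK v hv1 (ext0 K θ) ⟨s, hsk⟩
    have h3 := hdvK v hv1 (ext0 K θ') ⟨s, hsk⟩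
    rw [hext] at h2 h3
    rw [← h2, ← h3]
    exact h1
  -- the choice of `θ`
  obtain ⟨θ, hθB, f', hf'⟩ : ∃ θ : IrrCharacter K, θ ∈ bset M K b ∧ ∃ f' : P' →* ℂˣ,
      (∀ (v : P') (s : K), pp p ((v : K) * s) = v →
        dv M (v : K) (ev p P' c' v) (θ : K → ℂ) s = ((f' v : ℂˣ) : ℂ) *
          dv M (v : K) (ev p P' c' v) (χ₀ : K → ℂ) s) ∧
      (∀ x ∈ TS ⊤ P c, ∀ v ∈ P, v ≠ 1 → ∀ s, pp p (v * s) = v →
        dv M (x * v * x⁻¹) (ev p P c (x * v * x⁻¹)) (ext0 K (θ : K → ℂ)) (x * s * x⁻¹) =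
          dv M v (ev p P c v) (ext0 K (θ : K → ℂ)) s) := by
    obtain ⟨⟨α, ⟨⟨t, htTS⟩, htα⟩⟩, hgen⟩ := hAcyc.exists_generator
    have hαv : ∀ v : P, ((α v : P) : G) = t * v * t⁻¹ := by
      intro v
      rw [← htα, actHom_apply]
    have hTSP : ∀ x ∈ TS ⊤ P c, ∀ v ∈ P, x * v * x⁻¹ ∈ P := fun x hx v hv =>
      (Subgroup.mem_normalizer_iff.1 hx.2.1 v).1 hv
    have hTSZ : ∀ x ∈ TS ⊤ P c, x ∈ Subgroup.normalizer ((Subgroup.zpowers z : Subgroup G) : Set G) :=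
      fun x hx => cyc_norm hcyc (by rw [Subgroup.zpowers_le]; exact hzP) hx.2.1
    have hTSK : ∀ x ∈ TS ⊤ P c, ∀ g, x * g * x⁻¹ ∈ K ↔ g ∈ K := by
      intro x hx g
      have h1 : cS x K = K := by
        rw [hK, CH_top, ← centralizer_cS, cS_of_normalizer (hTSZ x hx)]
      have h2 : x * g * x⁻¹ ∈ cS x K ↔ g ∈ K := by
        rw [mem_cS]
        have e1 : x⁻¹ * (x * g * x⁻¹) * x = g := by group
        rw [e1]
      rw [h1] at h2
      exact h2
    have hcjb : ∀ x ∈ TS ⊤ P c, cj x b = b := by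
      intro x hx
      have h7 := hle.cj' (Subgroup.mem_top x)
      simp only [cS_of_normalizer hx.2.1, cS_of_normalizer (hTSZ x hx), hx.2.2] at h7
      exact LEp.unique hPc h7 hle
    have hev : ∀ x ∈ TS ⊤ P c, ∀ v ∈ P, ev p P c (x * v * x⁻¹) = cj x (ev p P c v) := by
      intro x hx v hv
      symm
      apply ev_unique hPc
      have h7 := (ev_spec hPc hv).cj' (Subgroup.mem_top x)
      simp only [cS_of_normalizer hx.2.1, hx.2.2, cS_zpowers] at h7
      exact h7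
    have hmove : ∀ x ∈ TS ⊤ P c, ∀ v ∈ P, ∀ (F : G → ℂ) (s : G),
        dv M (x * v * x⁻¹) (ev p P c (x * v * x⁻¹)) F (x * s * x⁻¹) =
          dv M v (ev p P c v) (fun g => F (x * g * x⁻¹)) s := by
      intro x hx v hv F s
      rw [hev x hx v hv]
      exact dv_cj (ev_blk hPc hv) x s F
    have hppc : ∀ (x v s : G), pp p (v * s) = v → pp p (x * v * x⁻¹ * (x * s * x⁻¹)) = x * v * x⁻¹ := by
      intro x v s h
      have e1 : x * v * x⁻¹ * (x * s * x⁻¹) = x * (v * s) * x⁻¹ := by group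
      rw [e1, pp_conj, h]
    have hne1 : ∀ (x v : G), v ≠ 1 → x * v * x⁻¹ ≠ 1 := by
      intro x v hv h
      apply hv
      have : v = x⁻¹ * (x * v * x⁻¹) * x := by group
      rw [this, h]; group
    have hcomm : ∀ x ∈ Subgroup.centralizer (P : Set G), ∀ v ∈ P, x * v * x⁻¹ = v := by
      intro x hx v hv
      rw [← Subgroup.mem_centralizer_iff.1 hx v hv, mul_inv_cancel_right]
    have hCK : Subgroup.centralizer (P : Set G) ≤ K := by
      rw [hK, CH_top]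
      exact centralizer_anti (by rw [Subgroup.zpowers_le]; exact hzP)
    -- invariance for elements of `K`
    have hKinv : ∀ θ : IrrCharacter K, ∀ x ∈ TS ⊤ P c, x ∈ Subgroup.centralizer (P : Set G) →
        ∀ v ∈ P, v ≠ 1 → ∀ s, pp p (v * s) = v →
        dv M (x * v * x⁻¹) (ev p P c (x * v * x⁻¹)) (ext0 K (θ : K → ℂ)) (x * s * x⁻¹) =
          dv M v (ev p P c v) (ext0 K (θ : K → ℂ)) s := by
      intro θ x hx hxC v hv hv1 s hs
      rw [hmove x hx v hv]
      congr 1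
      funext g
      by_cases hg : g ∈ K
      · rw [ext0_mem _ hg, ext0_mem _ ((hTSK x hx g).2 hg)]
        exact irr_classFun θ.2 ⟨g, hg⟩ ⟨x, hCK hxC⟩
      · rw [ext0_not _ hg, ext0_not _ (fun h => hg ((hTSK x hx g).1 h))]
    -- reduction to the generator
    have hred : ∀ θ : IrrCharacter K, (∀ v ∈ P, v ≠ 1 → ∀ s, pp p (v * s) = v →
        dv M (t * v * t⁻¹) (ev p P c (t * v * t⁻¹)) (ext0 K (θ : K → ℂ)) (t * s * t⁻¹) =
          dv M v (ev p P c v) (ext0 K (θ : K → ℂ)) s) →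
        ∀ x ∈ TS ⊤ P c, ∀ v ∈ P, v ≠ 1 → ∀ s, pp p (v * s) = v →
        dv M (x * v * x⁻¹) (ev p P c (x * v * x⁻¹)) (ext0 K (θ : K → ℂ)) (x * s * x⁻¹) =
          dv M v (ev p P c v) (ext0 K (θ : K → ℂ)) s := by
      intro θ ht x hx
      have hpw : ∀ m : ℕ, ∀ v ∈ P, v ≠ 1 → ∀ s, pp p (v * s) = v →
        dv M (t ^ m * v * (t ^ m)⁻¹) (ev p P c (t ^ m * v * (t ^ m)⁻¹)) (ext0 K (θ : K → ℂ))
          (t ^ m * s * (t ^ m)⁻¹) = dv M v (ev p P c v) (ext0 K (θ : K → ℂ)) s := by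
        intro m
        induction m with
        | zero => intro v _ _ s _; simp
        | succ m ih =>
          intro v hv hv1 s hs
          have e1 : ∀ g : G, t ^ (m + 1) * g * (t ^ (m + 1))⁻¹ =
              t ^ m * (t * g * t⁻¹) * (t ^ m)⁻¹ := by
            intro g; rw [pow_succ]; group
          rw [e1, e1, ih _ (hTSP t htTS v hv) (hne1 t v hv1) _ (hppc t v s hs)]
          exact ht v hv hv1 s hs
      have h1 := hgen ⟨actHom P (TS ⊤ P c) hTN ⟨x, hx⟩, ⟨_, rfl⟩⟩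
      rw [← mem_powers_iff_mem_zpowers] at h1
      obtain ⟨m, hm⟩ := h1
      have hm' : α ^ m = actHom P (TS ⊤ P c) hTN ⟨x, hx⟩ := congrArg Subtype.val hm
      have hk : ((⟨t, htTS⟩ : TS ⊤ P c) ^ m)⁻¹ * ⟨x, hx⟩ ∈ (actHom P (TS ⊤ P c) hTN).ker := by
        rw [MonoidHom.mem_ker, map_mul, map_inv, map_pow, htα, hm', inv_mul_cancel]
      have hkC : (t ^ m)⁻¹ * x ∈ Subgroup.centralizer (P : Set G) :=
        (actHom_eq_one hTN).1 (MonoidHom.mem_ker.1 hk)
      have hkTS : (t ^ m)⁻¹ * x ∈ TS ⊤ P c :=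
        (TS ⊤ P c).mul_mem ((TS ⊤ P c).inv_mem ((TS ⊤ P c).pow_mem htTS m)) hx
      intro v hv hv1 s hs
      obtain ⟨k, hkdef⟩ : ∃ k, k = (t ^ m)⁻¹ * x := ⟨_, rfl⟩
      rw [← hkdef] at hkC hkTS
      have hx' : x = t ^ m * k := by rw [hkdef]; group
      have e1 : ∀ g : G, x * g * x⁻¹ = t ^ m * (k * g * k⁻¹) * (t ^ m)⁻¹ := by
        intro g; rw [hx']; group
      rw [e1, e1, hpw m _ (hTSP k hkTS v hv) (hne1 k v hv1) _ (hppc k v s hs)]
      exact hKinv θ k hkTS hkC v hv hv1 s hs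
    by_cases hα1 : α = 1
    · refine ⟨χ₀, hχ₀, 1, fun v s _ => by rw [MonoidHom.one_apply, Units.val_one, one_mul],
        hred χ₀ ?_⟩
      have htC : t ∈ Subgroup.centralizer (P : Set G) := by
        have := (actHom_eq_one hTN (t := ⟨t, htTS⟩)).1 (by rw [htα, hα1])
        exact this
      exact hKinv χ₀ t htTS htC
    · have hαfree : ∀ v : P, v ≠ 1 → α v ≠ v := fun v hv hfix =>
        hα1 (hAfree α ⟨_, htα⟩ v hv hfix)
      -- the conjugate character
      let τ : K ≃* K :=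
        { toFun := fun k => ⟨t⁻¹ * k * t, by
            rw [← hTSK t htTS]
            have e1 : t * (t⁻¹ * (k : G) * t) * t⁻¹ = k := by group
            rw [e1]; exact k.2⟩
          invFun := fun k => ⟨t * k * t⁻¹, (hTSK t htTS k).2 k.2⟩
          left_inv := fun k => Subtype.ext (by
            show t * (t⁻¹ * (k : G) * t) * t⁻¹ = k
            group)
          right_inv := fun k => Subtype.ext (by
            show t⁻¹ * (t * (k : G) * t⁻¹) * t = k
            group)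
          map_mul' := fun k l => Subtype.ext (by
            show t⁻¹ * ((k : G) * l) * t = t⁻¹ * k * t * (t⁻¹ * l * t)
            group) }
      have hpb : pb τ (bset M K b) = bset M K b := by
        apply bk_inj (Subgroup.subtype_injective K) (isPBlock_pb τ hB') hB'
        rw [bk_pb' (M := M) (ι := (MulAut.conj t⁻¹).toMonoidHom.comp K.subtype)
          (ι' := K.subtype) ((MulAut.conj t⁻¹).injective.comp (Subgroup.subtype_injective K))
          (Subgroup.subtype_injective K) τ (fun k => by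
            show t⁻¹ * (k : G) * t = t⁻¹ * k * t⁻¹⁻¹
            rw [inv_inv]) (bset M K b), bk_conj, hbk']
        exact hcjb t⁻¹ ((TS ⊤ P c).inv_mem htTS)
      have hχ₁ : trI τ χ₀ ∈ bset M K b := by
        have h1 : trI τ χ₀ ∈ pb τ (bset M K b) := by
          rw [pb_eq_image]; exact ⟨χ₀, hχ₀, rfl⟩
        rwa [hpb] at h1
      obtain ⟨μ', hμ'⟩ := hf2 _ hχ₁
      have hext1 : ∀ g, ext0 K (trI τ χ₀ : K → ℂ) g = ext0 K (χ₀ : K → ℂ) (t * g * t⁻¹) := by
        intro g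
        by_cases hg : g ∈ K
        · rw [ext0_mem _ hg, ext0_mem _ ((hTSK t htTS g).2 hg)]
          rfl
        · rw [ext0_not _ hg, ext0_not _ (fun h => hg ((hTSK t htTS g).1 h))]
      have hμ : ∀ (v : P), (v : G) ≠ 1 → ∀ s : G, pp p ((v : G) * s) = v →
          dv M (t * v * t⁻¹) (ev p P c (t * v * t⁻¹)) (ext0 K (χ₀ : K → ℂ)) (t * s * t⁻¹) =
            ((μ' (j v) : ℂˣ) : ℂ) * dv M (v : G) (ev p P c v) (ext0 K (χ₀ : K → ℂ)) s := by
        intro v hv1 s hs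
        rw [hmove t htTS v v.2, ← hD _ _ μ' hμ' v hv1 s hs]
        congr 1
        funext g
        exact (hext1 g).symm
      obtain ⟨f, hf⟩ := dual_solve (fun x y => Subtype.ext (hab x x.2 y y.2)) hαfree
        (μ'.comp j.toMonoidHom)
      obtain ⟨θ, hθB, hθ⟩ := hf1 (f.comp j.symm.toMonoidHom)
      refine ⟨θ, hθB, _, hθ, hred θ ?_⟩
      intro v hv hv1 s hs
      have h1 := hD _ _ _ hθ ⟨t * v * t⁻¹, hTSP t htTS v hv⟩ (hne1 t v hv1) (t * s * t⁻¹)
        (hppc t v s hs)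
      have h2 := hD _ _ _ hθ ⟨v, hv⟩ hv1 s hs
      have h3 := hμ ⟨v, hv⟩ hv1 s hs
      have e1 : (f.comp j.symm.toMonoidHom) (j ⟨t * v * t⁻¹, hTSP t htTS v hv⟩) = f (α ⟨v, hv⟩) := by
        show f (j.symm (j _)) = _
        rw [MulEquiv.symm_apply_apply]
        congr 1
        exact Subtype.ext (hαv ⟨v, hv⟩).symm
      have e2 : (f.comp j.symm.toMonoidHom) (j ⟨v, hv⟩) = f (α ⟨v, hv⟩) * μ' (j ⟨v, hv⟩) := by
        show f (j.symm (j _)) = _
        rw [MulEquiv.symm_apply_apply, hf]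
        rfl
      rw [e1] at h1
      rw [e2, Units.val_mul] at h2
      have h1' : dv M (t * v * t⁻¹) (ev p P c (t * v * t⁻¹)) (ext0 K (θ : K → ℂ))
          (t * s * t⁻¹) = ((f (α ⟨v, hv⟩) : ℂˣ) : ℂ) *
            dv M (t * v * t⁻¹) (ev p P c (t * v * t⁻¹)) (ext0 K (χ₀ : K → ℂ)) (t * s * t⁻¹) := h1
      have h3' : dv M (t * v * t⁻¹) (ev p P c (t * v * t⁻¹)) (ext0 K (χ₀ : K → ℂ))
          (t * s * t⁻¹) = ((μ' (j ⟨v, hv⟩) : ℂˣ) : ℂ) *
            dv M v (ev p P c v) (ext0 K (χ₀ : K → ℂ)) s := h3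
      have h2' : dv M v (ev p P c v) (ext0 K (θ : K → ℂ)) s =
          ((f (α ⟨v, hv⟩) : ℂˣ) : ℂ) * ((μ' (j ⟨v, hv⟩) : ℂˣ) : ℂ) *
            dv M v (ev p P c v) (ext0 K (χ₀ : K → ℂ)) s := h2
      rw [h1', h3', h2']
      ring
  obtain ⟨hf', hinv⟩ := hf'
  have hGθ : ∀ v : P, (v : G) ≠ 1 → GG p P' c' (θ : K → ℂ) (θ : K → ℂ) (j v) = 1 := by
    intro v hv1
    rw [← hG1 (j v)]
    unfold GG
    congr 2
    unfold WW
    refine Finset.sum_congr rfl fun s _ => ?_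
    split_ifs with hs
    · rw [hf' (j v) s hs, map_mul]
      have h1 : ((f' (j v) : ℂˣ) : ℂ) * conj ((f' (j v) : ℂˣ) : ℂ) = 1 := by
        rw [conj_hom, MonoidHom.inv_apply, ← Units.val_mul, mul_inv_cancel, Units.val_one]
      linear_combination (dv M ((j v : P') : K) (ev p P' c' ((j v : P') : K)) (χ₀ : K → ℂ) s *
        conj (dv M ((j v : P') : K) (ev p P' c' ((j v : P') : K)) (χ₀ : K → ℂ) s)) * h1
    · rfl
  have hrk : ∀ v : P, blockRank p (bset M (CH ⊤ (Subgroup.zpowers (((j v : P') : K))))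
      (ev p P' c' ((j v : P') : K))) = 1 := by
    intro v
    exact rank_local hM (g_blk hB') hmx' hab' (j v).2 (fun x hx _ => hTSc hx)
  have hkap : ∀ v : P, (v : G) ≠ 1 → ∀ χ : G → ℂ,
      GG p P' c' (fun k : K => χ k) (θ : K → ℂ) (j v) =
        kap p P c (ext0 K (θ : K → ℂ)) χ (v : G) := by
    intro v hv1 χ
    have h1 := hGGK v hv1 χ (ext0 K (θ : K → ℂ))
    rw [hext] at h1
    exact h1
  refine ⟨ext0 K (θ : K → ℂ), ?_, ?_, hinv, ?_⟩
  · intro v hv hv1 χ hχ s hs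
    have hsk := hsK ⟨v, hv⟩ hv1 s hs
    have hχK : IsClassFunction K (fun k : K => χ k) := fun g h => hχ g h
    have h1 := dv_GG hM hPc' (hrk ⟨v, hv⟩) (irr_classFun θ.2) (hGθ ⟨v, hv⟩ hv1) hχK
      (s := ⟨s, hsk⟩) ((hppK ⟨v, hv⟩ ⟨s, hsk⟩).2 hs)
    rw [hkap ⟨v, hv⟩ hv1 χ] at h1
    have h2 := hdvK ⟨v, hv⟩ hv1 (ext0 K (θ : K → ℂ)) ⟨s, hsk⟩
    have h3 := hdvK ⟨v, hv⟩ hv1 χ ⟨s, hsk⟩
    rw [hext] at h2
    rw [h2, h3] at h1
    exact h1
  · intro v hv hv1
    have h1 := hGGK ⟨v, hv⟩ hv1 (ext0 K (θ : K → ℂ)) (ext0 K (θ : K → ℂ))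
    rw [hext, hGθ ⟨v, hv⟩ hv1] at h1
    have h2 : (Nat.card (CH ⊤ (Subgroup.zpowers v)) : ℂ) ≠ 0 := by
      exact_mod_cast Nat.card_pos.ne'
    have h3 : (1 : ℂ) = (Nat.card P : ℂ) / (Nat.card (CH ⊤ (Subgroup.zpowers v)) : ℂ) *
        WW p M v (ev p P c v) (ext0 K (θ : K → ℂ)) (ext0 K (θ : K → ℂ)) := h1
    field_simp at h3
    exact h3.symm
  · intro f χ hχ
    have hχK : IsCharacter K (fun k : K => χ k) := isCharacter_comp hχ K.subtype
    have hst : ∀ g : P' →* ℂˣ, FSt p P' c' (lx P' g) := fun g =>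
      FSt_ab (g_blk hB') hmx' hab' hTSc g
    let f₁ : P' →* ℂˣ := f.comp j.symm.toMonoidHom
    obtain ⟨n₁, hn₁⟩ := gen_inner_int (gen_of_irr (la hM hB' hmx' (hst f₁) hθB).2)
      (gen_of_char hχK)
    obtain ⟨n₂, hn₂⟩ := gen_inner_int (gen_of_irr (la hM hB' hmx' (hst 1) hθB).2)
      (gen_of_char hχK)
    refine ⟨n₁ - n₂, ?_⟩
    have h1 : ∀ g : P' →* ℂˣ, classInner (la hM hB' hmx' (hst g) hθB : K → ℂ)
        (fun k : K => χ k) = (Nat.card P : ℂ)⁻¹ * ∑ v : P, ((g (j v) : ℂˣ) : ℂ) *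
          GG p P' c' (θ : K → ℂ) (fun k : K => χ k) (j v) := by
      intro g
      rw [la_eq, inner_star_GG1 hM hB' hmx' (hst g) hθB (char_classFun hχK), hcardP,
        ← Equiv.sum_comp j.toEquiv]
      congr 1
      refine Finset.sum_congr rfl fun v _ => ?_
      have e1 : j.toEquiv v = j v := rfl
      rw [e1, lx_mem _ (j v).2]
    rw [h1] at hn₁ hn₂
    push_cast
    rw [← hn₁, ← hn₂, ← mul_sub, ← Finset.sum_sub_distrib]
    congr 1
    refine Finset.sum_congr rfl fun v _ => ?_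
    have e1 : f₁ (j v) = f v := by
      show f (j.symm (j v)) = f v
      rw [MulEquiv.symm_apply_apply]
    rw [e1]
    by_cases hv1 : (v : G) = 1
    · have hv1' : v = 1 := Subtype.ext hv1
      rw [if_pos hv1, hv1']
      simp
    · rw [if_neg hv1, ← hkap v hv1, ← GG_symm]
      rw [MonoidHom.one_apply, Units.val_one]
      ring

end CfsgLib.Star
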