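import Mathlib
import Cfsg.Agent.EqBase
import Cfsg.Agent.LibStar59

/-!
# Star construction, LX: decomposition data of blocks with cyclic defect groups (helper18)
-/

set_option autoImplicit false
set_option linter.unusedSectionVars false
set_option linter.style.haveILetI false
set_option linter.unusedSimpArgs false
set_option linter.unusedVariables false

namespace CfsgLib.Star

open Cfsg CfsgLib.GalChar CfsgLib.GalField CfsgLib.BlockReg CfsgLib.BlockReg2 CfsgLib.LocR
  CfsgLib.BrP CfsgLib.Car CfsgLib.BlockQP CfsgLib.BlockDefect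
  CfsgLib.Points CfsgLib.PLocalInd CfsgLib.CharBasic CfsgLib.BlockCore CfsgLib.BlockSec
  CfsgLib.BlockR CfsgLib.BlockIdem CfsgLib.BlockOrth CfsgLib.CharIndA CfsgLib.CharNorm
open scoped ComplexConjugate Pointwise

universe u

variable {M : Ideal AlgInt} [hPr : M.IsPrime] {G : Type u} [Group G] [Fintype G]
variable {p : ℕ} [hp : Fact p.Prime]

theorem mm_idem (hM : IsPModular p M) {B : Set (IrrCharacter G)} (hB : IsPBlock M B)
    {χ : IrrCharacter G} (hχ : χ ∈ B) (φ : IrrCharacter G) :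
    ∑ ψ : IrrCharacter G, mm p B χ ψ * mm p B ψ φ =
      (p ^ blockDefect p B : ℕ) * mm p B χ φ := by
  classical
  have h1 : ∀ g : G, ((p ^ blockDefect p B : ℕ) : ℂ) * reg p (χ : G → ℂ) g =
      ∑ ψ : IrrCharacter G, (mm p B χ ψ : ℂ) * reg p (ψ : G → ℂ) g := by
    intro g
    by_cases hg : p ∣ orderOf g
    · rw [reg_not hg, mul_zero]
      symm
      exact Finset.sum_eq_zero fun ψ _ => by rw [reg_not hg, mul_zero]
    · rw [pow_mul_reg hM hB hχ g]
      exact Finset.sum_congr rfl fun ψ _ => by rw [reg_of hg]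
  have h2 : ((p ^ blockDefect p B : ℕ) : ℂ) * classInner (reg p (χ : G → ℂ)) (φ : G → ℂ) =
      ∑ ψ : IrrCharacter G, (mm p B χ ψ : ℂ) * classInner (reg p (ψ : G → ℂ)) (φ : G → ℂ) := by
    unfold classInner
    have e1 : ((p ^ blockDefect p B : ℕ) : ℂ) * ((Nat.card G : ℂ)⁻¹ *
        ∑ g : G, reg p (χ : G → ℂ) g * conj ((φ : G → ℂ) g)) =
        (Nat.card G : ℂ)⁻¹ * ∑ g : G, (((p ^ blockDefect p B : ℕ) : ℂ) *
          reg p (χ : G → ℂ) g) * conj ((φ : G → ℂ) g) := by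
      rw [mul_left_comm, Finset.mul_sum]
      congr 1
      exact Finset.sum_congr rfl fun g _ => by ring
    rw [e1]
    simp_rw [h1, Finset.sum_mul]
    rw [Finset.sum_comm, Finset.mul_sum]
    refine Finset.sum_congr rfl fun ψ _ => ?_
    rw [Finset.mul_sum, Finset.mul_sum, Finset.mul_sum]
    exact Finset.sum_congr rfl fun g _ => by ring
  have h3 := congrArg (fun z => ((p ^ blockDefect p B : ℕ) : ℂ) * z) h2
  beta_reduce at h3
  rw [mm_spec hM hB hχ φ, Finset.mul_sum] at h3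
  have h4 : ((∑ ψ : IrrCharacter G, mm p B χ ψ * mm p B ψ φ : ℤ) : ℂ) =
      (((p ^ blockDefect p B : ℕ) * mm p B χ φ : ℤ) : ℂ) := by
    push_cast
    push_cast at h3
    rw [h3]
    refine Finset.sum_congr rfl fun ψ _ => ?_
    by_cases hψ : ψ ∈ B
    · rw [← mm_spec hM hB hψ φ]
      push_cast
      ring
    · rw [mm_out hM hB hχ hψ]
      simp
  exact_mod_cast h4

variable [hch : CharP (kM M) p] [hMx : M.IsMaximal]

open Classical in
/-- decomposition numbers of blocks with cyclic defect groups -/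
theorem exists_kd (hM : IsPModular p M) {B : Set (IrrCharacter G)} (hB : IsPBlock M B)
    {P : Subgroup G} [Fintype P] {c : MonoidAlgebra (kM M) G} (hmx : IsMx p ⊤ (JB M B) P c)
    (hcyc : IsCyclic P) (hP1 : P ≠ ⊥) [Fintype B] {Θ : G → ℂ}
    (hΘ1 : ∀ v ∈ P, v ≠ 1 → ∀ χ : G → ℂ, IsClassFunction G χ → ∀ s, pp p (v * s) = v →
        dv M v (ev p P c v) χ s = kap p P c Θ χ v * dv M v (ev p P c v) Θ s)
    (hΘ2 : ∀ v ∈ P, v ≠ 1 → (Nat.card P : ℂ) * WW p M v (ev p P c v) Θ Θ =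
        Nat.card (CH ⊤ (Subgroup.zpowers v)))
    (hΘ3 : ∀ x ∈ TS ⊤ P c, ∀ v ∈ P, v ≠ 1 → ∀ s, pp p (v * s) = v →
        dv M (x * v * x⁻¹) (ev p P c (x * v * x⁻¹)) Θ (x * s * x⁻¹) =
          dv M v (ev p P c v) Θ s)
    (hΘ4 : ∀ (f : P →* ℂˣ) (χ : G → ℂ), IsCharacter G χ → ∃ n : ℤ,
        (Nat.card P : ℂ)⁻¹ * ∑ v : P, (((f v : ℂˣ) : ℂ) - 1) *
          conj (if (v : G) = 1 then 0 else kap p P c Θ χ v) = n) :
    KD (actHom P (TS ⊤ P c) TS_le_normalizer).range
      (fun (i : B) (v : P) => if (v : G) = 1 then 0 else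
        kap p P c Θ ((i : IrrCharacter G) : G → ℂ) (v : G))
      (fun i j : B => mm p B i j) ∧
      Nat.card (actHom P (TS ⊤ P c) TS_le_normalizer).range =
        (Subgroup.centralizer (P : Set G)).relIndex (TS ⊤ P c) ∧
      Nat.card (actHom P (TS ⊤ P c) TS_le_normalizer).range ∣ p - 1 ∧
      (Nat.card B : ℂ) = blockRank p B +
        ((Nat.card P - 1 : ℕ) : ℂ) / (Subgroup.centralizer (P : Set G)).relIndex (TS ⊤ P c) := by
  have hblk := g_blk hB
  have hPc := hmx.1.1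
  have hDp := hPc.pg
  have hab := cyc_comm hcyc
  have hTN : TS ⊤ P c ≤ Subgroup.normalizer (P : Set G) := TS_le_normalizer
  have hpel : ∀ R : Subgroup G, R ≤ TS ⊤ P c → IsPGroup p R →
      R ≤ Subgroup.centralizer (P : Set G) := by
    intro R hR hRp
    have h1 := mx_pelem hblk hmx hR hRp
    rw [CH_top, sup_eq_right.2 (ab_cen hab)] at h1
    exact h1
  have hcard := act_card hTN hpel
  obtain ⟨hAcyc, hAdvd, hAfree⟩ := cyclic_aut P hDp hcyc hP1 (actHom P (TS ⊤ P c) hTN).range hcard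
  have hfree : ∀ x ∈ TS ⊤ P c, ∀ v ∈ P, v ≠ 1 → x * v * x⁻¹ = v →
      x ∈ Subgroup.centralizer (P : Set G) := by
    intro x hx v hv hv1 hxv
    have h4 : actHom P (TS ⊤ P c) hTN ⟨x, hx⟩ = 1 := by
      refine hAfree _ ⟨_, rfl⟩ ⟨v, hv⟩ (fun h => hv1 (congrArg Subtype.val h)) ?_
      apply Subtype.ext
      rw [actHom_apply]
      exact hxv
    exact (actHom_eq_one hTN).1 h4
  have hrel := relIndex_act hTN
  obtain ⟨e, he⟩ : ∃ e, e = Nat.card (actHom P (TS ⊤ P c) hTN).range := ⟨_, rfl⟩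
  have he0 : (e : ℂ) ≠ 0 := by rw [he]; exact_mod_cast Nat.card_pos.ne'
  have hP0 : (Nat.card P : ℂ) ≠ 0 := by exact_mod_cast Nat.card_pos.ne'
  have hCPT : Subgroup.centralizer (P : Set G) ≤ TS ⊤ P c := by
    have h := CH_le_TS hmx.1.1
    rwa [CH_top] at h
  have hcT : Nat.card (TS ⊤ P c) = e * Nat.card (Subgroup.centralizer (P : Set G)) := by
    rw [he, ← hrel, Subgroup.relIndex, mul_comm,
      ← Nat.card_congr (Subgroup.subgroupOfEquivOfLe hCPT).toEquiv]
    exact (Subgroup.card_mul_index _).symm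
  have hinter : ∀ v ∈ P, v ≠ 1 → TS ⊤ P c ⊓ CH ⊤ (Subgroup.zpowers v) =
      Subgroup.centralizer (P : Set G) := by
    intro v hv hv1
    apply le_antisymm
    · rintro x ⟨h1, h2⟩
      refine hfree x h1 v hv hv1 ?_
      rw [comm_of_C h2, mul_inv_cancel_right]
    · refine le_inf hCPT ?_
      rw [CH_top]
      exact centralizer_anti (by rw [Subgroup.zpowers_le]; exact hv)
  have hAA : ∀ v ∈ P, v ≠ 1 → ((AA p P c v (ev p P c v)).card : ℂ) =
      e * (Nat.card (CH ⊤ (Subgroup.zpowers v)) : ℂ) := by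
    intro v hv hv1
    have h1 := AA_abel hblk hmx hab hv
    rw [hinter v hv hv1, hcT] at h1
    have h2 : (AA p P c v (ev p P c v)).card = e * Nat.card (CH ⊤ (Subgroup.zpowers v)) := by
      apply Nat.eq_of_mul_eq_mul_right (Nat.card_pos (α := Subgroup.centralizer (P : Set G)))
      rw [h1]; ring
    rw [h2]; push_cast; ring
  have hC0 : ∀ v : G, (Nat.card (CH ⊤ (Subgroup.zpowers v)) : ℂ) ≠ 0 := fun v => by
    exact_mod_cast Nat.card_pos.ne'
  have hWW : ∀ v ∈ P, v ≠ 1 → ∀ χ ψ : G → ℂ, IsClassFunction G χ → IsClassFunction G ψ →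
      (Nat.card P : ℂ) * WW p M v (ev p P c v) χ ψ = kap p P c Θ χ v * conj (kap p P c Θ ψ v) *
        Nat.card (CH ⊤ (Subgroup.zpowers v)) := by
    intro v hv hv1 χ ψ hχ hψ
    rw [← hΘ2 v hv hv1]
    have h1 : WW p M v (ev p P c v) χ ψ = kap p P c Θ χ v * conj (kap p P c Θ ψ v) *
        WW p M v (ev p P c v) Θ Θ := by
      unfold WW
      rw [Finset.mul_sum]
      refine Finset.sum_congr rfl fun s _ => ?_
      split_ifs with hs
      · rw [hΘ1 v hv hv1 χ hχ s hs, hΘ1 v hv hv1 ψ hψ s hs, map_mul]; ring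
      · rw [mul_zero]
    rw [h1]; ring
  have hex : ∀ v ∈ P, v ≠ 1 → ∃ s, pp p (v * s) = v ∧ dv M v (ev p P c v) Θ s ≠ 0 := by
    intro v hv hv1
    by_contra hcon
    push Not at hcon
    have h1 := hΘ2 v hv hv1
    have h2 : WW p M v (ev p P c v) Θ Θ = 0 := by
      unfold WW
      refine Finset.sum_eq_zero fun s _ => ?_
      split_ifs with hs
      · rw [hcon s hs, zero_mul]
      · rfl
    rw [h2, mul_zero] at h1
    exact hC0 v h1.symm
  have hev : ∀ x ∈ TS ⊤ P c, ∀ v ∈ P, ev p P c (x * v * x⁻¹) = cj x (ev p P c v) := by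
    intro x hx v hv
    symm
    apply ev_unique hPc
    have h7 := (ev_spec hPc hv).cj' (Subgroup.mem_top x)
    simp only [cS_of_normalizer hx.2.1, hx.2.2, cS_zpowers] at h7
    exact h7
  have hTSP : ∀ x ∈ TS ⊤ P c, ∀ v ∈ P, x * v * x⁻¹ ∈ P := fun x hx v hv =>
    (Subgroup.mem_normalizer_iff.1 hx.2.1 v).1 hv
  have hne1 : ∀ (x v : G), v ≠ 1 → x * v * x⁻¹ ≠ 1 := by
    intro x v hv h
    apply hv
    have : v = x⁻¹ * (x * v * x⁻¹) * x := by group
    rw [this, h]; group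
  have hkinv : ∀ x ∈ TS ⊤ P c, ∀ v ∈ P, v ≠ 1 → ∀ χ : G → ℂ, IsClassFunction G χ →
      kap p P c Θ χ (x * v * x⁻¹) = kap p P c Θ χ v := by
    intro x hx v hv hv1 χ hχ
    obtain ⟨s, hs, hne⟩ := hex v hv hv1
    have hs' : pp p (x * v * x⁻¹ * (x * s * x⁻¹)) = x * v * x⁻¹ := by
      have e1 : x * v * x⁻¹ * (x * s * x⁻¹) = x * (v * s) * x⁻¹ := by group
      rw [e1, pp_conj, hs]
    have h1 := hΘ1 _ (hTSP x hx v hv) (hne1 x v hv1) χ hχ _ hs'
    have h2 := hΘ1 v hv hv1 χ hχ s hs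
    rw [hΘ3 x hx v hv hv1 s hs] at h1
    have h3 : dv M (x * v * x⁻¹) (ev p P c (x * v * x⁻¹)) χ (x * s * x⁻¹) =
        dv M v (ev p P c v) χ s := by
      rw [hev x hx v hv]
      exact dv_conj hM hχ hs (ev_blk hPc hv) x
    rw [h3, h2] at h1
    exact (mul_right_cancel₀ hne h1).symm
  have hrk : ∀ v ∈ P, v ≠ 1 →
      blockRank p (bset M (CH ⊤ (Subgroup.zpowers v)) (ev p P c v)) = 1 := by
    intro v hv hv1
    refine rank_local hM hblk hmx hab hv fun x hx hxC => ?_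
    refine hfree x hx v hv hv1 ?_
    rw [comm_of_C hxC, mul_inv_cancel_right]
  have hcd : Nat.card P = p ^ blockDefect p B :=
    card_defectGroup hM hB ((g_def hM hB).2 (hmx.isDef hblk))
  have hrow : ∀ i j : B, ((mm p B i j : ℤ) : ℂ) + (e : ℂ)⁻¹ * ∑ v : P,
      (if (v : G) = 1 then 0 else kap p P c Θ ((i : IrrCharacter G) : G → ℂ) (v : G)) *
      conj (if (v : G) = 1 then 0 else kap p P c Θ ((j : IrrCharacter G) : G → ℂ) (v : G)) =
      if i = j then (Nat.card P : ℂ) else 0 := by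
    intro i j
    have h4 := inner_star_GG hM hB hmx (FSt_const P c 1) (FSt_const P c 1) i.2 (irr_classFun j.1.2)
    rw [star_HF_one hM hB hmx i.2, star_HF_one hM hB hmx j.2, irr_inner i.1.2 j.1.2] at h4
    have h5 := congrArg (fun z => (Nat.card P : ℂ) * z) h4
    simp only [mul_one, map_one] at h5
    rw [mul_inv_cancel_left₀ hP0] at h5
    simp only [one_mul] at h5
    have h6 : (if i = j then (Nat.card P : ℂ) else 0) = (Nat.card P : ℂ) *
        (if ((i : IrrCharacter G) : G → ℂ) = ((j : IrrCharacter G) : G → ℂ) then 1 else 0) := by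
      by_cases hij : i = j
      · rw [if_pos hij, hij, if_pos rfl, mul_one]
      · rw [if_neg hij, if_neg (fun h => hij (Subtype.ext (Subtype.ext h))), mul_zero]
    rw [h6, h5]
    conv_rhs => rw [← Finset.add_sum_erase Finset.univ _ (Finset.mem_univ (1 : P)),
      GG_one hM hB hmx i.2 j.2]
    congr 1
    rw [Finset.mul_sum, ← Finset.add_sum_erase Finset.univ _ (Finset.mem_univ (1 : P))]
    rw [show ((1 : P) : G) = 1 from rfl, if_pos rfl, zero_mul, mul_zero, zero_add]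
    refine Finset.sum_congr rfl fun v hv => ?_
    have hv1 : (v : G) ≠ 1 := fun h => (Finset.ne_of_mem_erase hv) (Subtype.ext h)
    rw [if_neg hv1, if_neg hv1]
    unfold GG
    rw [hWW v v.2 hv1 _ _ (irr_classFun i.1.2) (irr_classFun j.1.2), hAA v v.2 hv1]
    have := hC0 (v : G)
    field_simp
  have hcol : ∀ v : P, v ≠ 1 → ∑ i : B,
      (if (v : G) = 1 then 0 else kap p P c Θ ((i : IrrCharacter G) : G → ℂ) (v : G)) *
      conj (if (v : G) = 1 then 0 else kap p P c Θ ((i : IrrCharacter G) : G → ℂ) (v : G)) =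
      (Nat.card P : ℂ) := by
    intro v hv
    have hv1 : (v : G) ≠ 1 := fun h => hv (Subtype.ext h)
    have h1 := sum_WW hM (pel_of hPc.pg v.2) (bset_induced hM hB hmx v.2)
    rw [hrk v v.2 hv1, Nat.cast_one, mul_one] at h1
    have h2 := congrArg (fun z => (Nat.card P : ℂ) * z) h1
    beta_reduce at h2
    rw [Finset.mul_sum] at h2
    have h3 : ∀ χ : IrrCharacter G, (Nat.card P : ℂ) * (ind B χ *
        WW p M (v : G) (ev p P c v) (χ : G → ℂ) (χ : G → ℂ)) = ind B χ *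
          (kap p P c Θ (χ : G → ℂ) v * conj (kap p P c Θ (χ : G → ℂ) v)) *
          Nat.card (CH ⊤ (Subgroup.zpowers (v : G))) := by
      intro χ
      rw [mul_left_comm, hWW v v.2 hv1 _ _ (irr_classFun χ.2) (irr_classFun χ.2)]
      ring
    simp_rw [h3] at h2
    rw [← Finset.sum_mul] at h2
    have h4 := mul_right_cancel₀ (hC0 (v : G)) h2
    rw [← h4]
    simp only [if_neg hv1]
    have h5 : ∀ χ : IrrCharacter G, ind B χ *
        (kap p P c Θ (χ : G → ℂ) v * conj (kap p P c Θ (χ : G → ℂ) v)) =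
        if χ ∈ B then (kap p P c Θ (χ : G → ℂ) v * conj (kap p P c Θ (χ : G → ℂ) v)) else 0 := by
      intro χ
      split_ifs with h
      · rw [ind_of h, one_mul]
      · rw [ind_not h, zero_mul]
    simp_rw [h5]
    rw [← Finset.sum_filter]
    symm
    refine Finset.sum_subtype _ (fun χ => ?_) _
    simp
  refine ⟨⟨?_, hAfree, ?_, ?_, ?_, ?_, ?_, hcol, ?_, ?_⟩, hrel.symm, hAdvd, ?_⟩
  · exact fun x y => Subtype.ext (hab x x.2 y y.2)
  · intro i
    exact if_pos rfl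
  · rintro i _ ⟨⟨x, hx⟩, rfl⟩ v
    have e1 : ((actHom P (TS ⊤ P c) hTN ⟨x, hx⟩ v : P) : G) = x * v * x⁻¹ := by
      rw [actHom_apply]
    show (if ((actHom P (TS ⊤ P c) hTN ⟨x, hx⟩ v : P) : G) = 1 then 0 else
      kap p P c Θ ((i : IrrCharacter G) : G → ℂ)
        ((actHom P (TS ⊤ P c) hTN ⟨x, hx⟩ v : P) : G)) = _
    rw [e1]
    by_cases hv1 : (v : G) = 1
    · rw [if_pos hv1, hv1, if_pos (by group)]
    · rw [if_neg hv1, if_neg (hne1 x v hv1)]
      exact hkinv x hx v v.2 hv1 _ (irr_classFun i.1.2)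
  · exact fun i j => mm_symm _ _
  · intro i j
    rw [← he]
    exact hrow i j
  · intro i k
    rw [hcd, ← mm_idem hM hB i.2 k]
    have h5 : ∀ χ : IrrCharacter G, mm p B i χ * mm p B χ k =
        if χ ∈ B then mm p B i χ * mm p B χ k else 0 := by
      intro χ
      split_ifs with h
      · rfl
      · rw [mm_out hM hB i.2 h, zero_mul]
    rw [Finset.sum_congr rfl fun χ _ => h5 χ, ← Finset.sum_filter]
    symm
    refine Finset.sum_subtype _ (fun χ => ?_) _
    simp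
  · intro f i
    exact hΘ4 f _ (irr_isCharacter i.1.2)
  · intro i
    obtain ⟨⟨v, hv⟩, hv1⟩ := (Subgroup.ne_bot_iff_exists_ne_one).1 hP1
    have hv1' : v ≠ 1 := fun h' => hv1 (Subtype.ext h')
    refine ⟨⟨v, hv⟩, ?_⟩
    show (if v = 1 then 0 else kap p P c Θ ((i : IrrCharacter G) : G → ℂ) v) ≠ 0
    rw [if_neg hv1']
    intro h0
    obtain ⟨s, hs, hne⟩ := dv_major hM hB hmx i.2 hv (fun w hw => hab w hw v hv)
    apply hne
    rw [hΘ1 v hv hv1' _ (irr_classFun i.1.2) s hs, h0, zero_mul]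
  · have hwt : ∀ v : P, v ≠ 1 → wt p P c (v : G) = 1 / (e : ℂ) := by
      intro v hv1
      have hv1' : (v : G) ≠ 1 := fun h => hv1 (Subtype.ext h)
      unfold wt
      rw [hrk v v.2 hv1', hAA v v.2 hv1', Nat.cast_one, mul_one]
      have := hC0 (v : G)
      field_simp
    have h1 := card_formula hM hB hmx
    rw [← Finset.add_sum_erase Finset.univ _ (Finset.mem_univ (1 : P)),
      Finset.sum_congr rfl (fun v hv => hwt v (Finset.ne_of_mem_erase hv)), Finset.sum_const,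
      Finset.card_erase_of_mem (Finset.mem_univ _), Finset.card_univ,
      ← Nat.card_eq_fintype_card (α := P)] at h1
    have h2 : wt p P c ((1 : P) : G) = blockRank p B := wt_one hB hmx
    rw [h2] at h1
    rw [h1, hrel, ← he, nsmul_eq_mul]
    ring

end CfsgLib.Star
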