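import Mathlib
import Cfsg.Agent.EqBase
import Cfsg.Agent.LibStar60

/-!
# Star construction, LXI: blocks with cyclic defect groups, S4695 and S4696 (helper18)
-/

set_option autoImplicit false
set_option linter.unusedSectionVars false
set_option linter.style.haveILetI false
set_option linter.unusedSimpArgs false
set_option linter.unusedVariables false

namespace CfsgLib.Star

open Cfsg CfsgLib.GalChar CfsgLib.GalField CfsgLib.BlockReg CfsgLib.BlockReg2 CfsgLib.LocR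
  CfsgLib.BrP CfsgLib.Car CfsgLib.BlockQP CfsgLib.BlockDefect
  CfsgLib.Points CfsgLib.PLocalInd CfsgLib.CharBasic CfsgLib.BlockCore CfsgLib.BlockSec
  CfsgLib.BlockR CfsgLib.BlockIdem CfsgLib.BlockOrth CfsgLib.CharIndA CfsgLib.CharNorm
open scoped ComplexConjugate Pointwise

universe u

theorem stab_conv {G : Type u} [Group G] [Finite G] {D : Subgroup G}
    {b : Set (IrrCharacter (Subgroup.centralizer (D : Set G)))} {g : G}
    (hg : g ∈ Subgroup.normalizer (D : Set G)) :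
    StabilizesBlock (Subgroup.centralizer (D : Set G)) b g ↔
      ∀ θ ∈ b, ∀ θ' : IrrCharacter (Subgroup.centralizer (D : Set G)),
        (∀ h h' : Subgroup.centralizer (D : Set G), (h' : G) = g * h * g⁻¹ →
          (θ' : Subgroup.centralizer (D : Set G) → ℂ) h' =
            (θ : Subgroup.centralizer (D : Set G) → ℂ) h) → θ' ∈ b := by
  have hC : cS g (Subgroup.centralizer (D : Set G)) = Subgroup.centralizer (D : Set G) := by
    rw [← centralizer_cS, cS_of_normalizer hg]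
  have hmem : ∀ x : G, g * x * g⁻¹ ∈ Subgroup.centralizer (D : Set G) ↔
      x ∈ Subgroup.centralizer (D : Set G) := by
    intro x
    have h2 : g * x * g⁻¹ ∈ cS g (Subgroup.centralizer (D : Set G)) ↔
        x ∈ Subgroup.centralizer (D : Set G) := by
      rw [mem_cS]
      have e1 : g⁻¹ * (g * x * g⁻¹) * g = x := by group
      rw [e1]
    rw [hC] at h2
    exact h2
  constructor
  · rintro ⟨_, h2⟩ θ hθ θ' hθ'
    obtain ⟨χ', hχ', hconj⟩ := h2 θ hθ
    have : θ' = χ' := by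
      apply Subtype.ext
      funext h'
      have e1 : g * (g⁻¹ * (h' : G) * g) * g⁻¹ = h' := by group
      have h3 : g⁻¹ * (h' : G) * g ∈ Subgroup.centralizer (D : Set G) := by
        rw [← hmem, e1]; exact h'.2
      rw [hθ' ⟨_, h3⟩ h' e1.symm, hconj ⟨_, h3⟩ h' e1.symm]
    rw [this]; exact hχ'
  · intro h
    refine ⟨mem_normalizer_of_cS hC, fun θ hθ => ?_⟩
    let τ : Subgroup.centralizer (D : Set G) ≃* Subgroup.centralizer (D : Set G) :=
      { toFun := fun k => ⟨g * k * g⁻¹, (hmem k).2 k.2⟩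
        invFun := fun k => ⟨g⁻¹ * k * g, by
          rw [← hmem]
          have e1 : g * (g⁻¹ * (k : G) * g) * g⁻¹ = k := by group
          rw [e1]; exact k.2⟩
        left_inv := fun k => Subtype.ext (by
          show g⁻¹ * (g * (k : G) * g⁻¹) * g = k
          group)
        right_inv := fun k => Subtype.ext (by
          show g * (g⁻¹ * (k : G) * g) * g⁻¹ = k
          group)
        map_mul' := fun k l => Subtype.ext (by
          show g * ((k : G) * l) * g⁻¹ = g * k * g⁻¹ * (g * l * g⁻¹)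
          group) }
    have hc : ∀ h h' : Subgroup.centralizer (D : Set G), (h' : G) = g * h * g⁻¹ →
          (trI τ θ : Subgroup.centralizer (D : Set G) → ℂ) h' =
            (θ : Subgroup.centralizer (D : Set G) → ℂ) h := by
      intro x x' hx
      have : x' = τ x := Subtype.ext hx
      rw [this, trI_apply]
    exact ⟨trI τ θ, h θ hθ _ hc, hc⟩

section Main

variable {M : Ideal AlgInt} {G : Type u} [Group G] [Fintype G]
variable {p : ℕ} [hp : Fact p.Prime]

/-- degrees of generalized characters vanishing on `p`-singular elements -/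
theorem deg_of_vanish {I : Type*} [Fintype I] {χ : I → IrrCharacter G} {D : I → ℤ}
    (h : ∀ g : G, p ∣ orderOf g → ∑ i, (D i : ℂ) * (χ i : G → ℂ) g = 0) {Q : Subgroup G}
    (hQ : IsPGroup p Q) : (Nat.card Q : ℤ) ∣ ∑ i, D i * (charDegree (χ i : G → ℂ) : ℤ) := by
  classical
  haveI := Fintype.ofFinite Q
  have hn : ∀ i, ∃ n : ℤ, (Nat.card Q : ℂ)⁻¹ * ∑ x : Q, (χ i : G → ℂ) (x : G) = n := by
    intro i
    obtain ⟨n, hn⟩ := gen_inner_int (gen_of_char (isCharacter_comp (irr_isCharacter (χ i).2)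
      Q.subtype)) (gen_of_char (isCharacter_one (G := Q)))
    refine ⟨n, ?_⟩
    rw [← hn]
    unfold classInner
    congr 1
    refine Finset.sum_congr rfl fun x _ => ?_
    have e1 : ((χ i : G → ℂ) ∘ Q.subtype) x = (χ i : G → ℂ) (x : G) := rfl
    rw [e1]
    simp
  choose n hn using hn
  refine ⟨∑ i, D i * n i, ?_⟩
  have hQ0 : (Nat.card Q : ℂ) ≠ 0 := by exact_mod_cast Nat.card_pos.ne'
  have h1 : ∑ x : Q, ∑ i, (D i : ℂ) * (χ i : G → ℂ) (x : G) =
      ∑ i, (D i : ℂ) * (χ i : G → ℂ) 1 := by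
    rw [Finset.sum_eq_single (1 : Q)]
    · rfl
    · intro x _ hx
      apply h
      obtain ⟨k, hk⟩ := IsPGroup.iff_orderOf.1 hQ x
      rw [← Subgroup.orderOf_coe] at hk
      rw [hk]
      apply dvd_pow_self
      rintro rfl
      rw [pow_zero, Subgroup.orderOf_coe, orderOf_eq_one_iff] at hk
      exact hx hk
    · intro h; exact absurd (Finset.mem_univ _) h
  have h2 : ∑ i, (D i : ℂ) * (χ i : G → ℂ) 1 = (Nat.card Q : ℂ) * ∑ i, (D i : ℂ) * (n i : ℂ) := by
    rw [← h1, Finset.sum_comm, Finset.mul_sum]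
    refine Finset.sum_congr rfl fun i _ => ?_
    rw [← hn i, ← Finset.mul_sum]
    field_simp
  have h3 : ((∑ i, D i * (charDegree (χ i : G → ℂ) : ℤ) : ℤ) : ℂ) =
      ((Nat.card Q : ℤ) * ∑ i, D i * n i : ℤ) := by
    push_cast
    rw [← h2]
    refine Finset.sum_congr rfl fun i _ => ?_
    rw [CfsgLib.CharInt.irr_one_eq_charDegree (χ i).2]
  exact_mod_cast h3

/-- regular parts of combinations -/
theorem reg_comb (hM : IsPModular p M) {B : Set (IrrCharacter G)} (hB : IsPBlock M B)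
    [Fintype B] (D : B → ℤ) (g : G) :
    ((p ^ blockDefect p B : ℕ) : ℂ) *
      ∑ i : B, (D i : ℂ) * reg p ((i : IrrCharacter G) : G → ℂ) g =
      ∑ k : B, ((∑ j : B, mm p B k j * D j : ℤ) : ℂ) * ((k : IrrCharacter G) : G → ℂ) g := by
  classical
  rw [Finset.mul_sum]
  have h1 : ∀ i : B, ((p ^ blockDefect p B : ℕ) : ℂ) *
      ((D i : ℂ) * reg p ((i : IrrCharacter G) : G → ℂ) g) =
      ∑ k : B, (D i : ℂ) * ((mm p B i k : ℂ) * ((k : IrrCharacter G) : G → ℂ) g) := by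
    intro i
    rw [mul_left_comm, pow_mul_reg hM hB i.2 g, ← Finset.mul_sum]
    congr 1
    have h5 : ∀ χ : IrrCharacter G, (mm p B i χ : ℂ) * (χ : G → ℂ) g =
        if χ ∈ B then (mm p B i χ : ℂ) * (χ : G → ℂ) g else 0 := by
      intro χ
      split_ifs with h
      · rfl
      · rw [mm_out hM hB i.2 h, Int.cast_zero, zero_mul]
    rw [Finset.sum_congr rfl fun χ _ => h5 χ, ← Finset.sum_filter]
    refine Finset.sum_subtype _ (fun χ => ?_) _
    simp
  simp_rw [h1]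
  rw [Finset.sum_comm]
  refine Finset.sum_congr rfl fun k _ => ?_
  push_cast
  rw [Finset.sum_mul]
  refine Finset.sum_congr rfl fun j _ => ?_
  rw [mm_symm (j : IrrCharacter G) k]
  ring

open Classical in
/-- the Brauer–Dade theorem -/
theorem cyc_main (hM : IsPModular p M) {B : Set (IrrCharacter G)} (hB : IsPBlock M B)
    {P : Subgroup G} (hPD : IsDefectGroup p M B P) (hP1 : P ≠ ⊥) (hcyc : IsCyclic P)
    {c : Set (IrrCharacter (Subgroup.centralizer (P : Set G)))}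
    (hc : IsInducedBlock M (Subgroup.centralizer (P : Set G)) c B)
    {T : Subgroup G} (hT : ∀ g : G, g ∈ T ↔ (g ∈ Subgroup.normalizer (P : Set G) ∧
      StabilizesBlock (Subgroup.centralizer (P : Set G)) c g))
    {e : ℕ} (he : (Subgroup.centralizer (P : Set G)).relIndex T = e) [Fintype B] :
    blockRank p B = e ∧ e ∣ p - 1 ∧ 0 < e ∧ Fintype.card B = (Nat.card P - 1) / e + e ∧
      Nat.card P - 1 = e * ((Nat.card P - 1) / e) ∧
      ∃ (Ys : Finset B) (σ : B → ℤ) (δ₀ : ℤ), Ys.card = (Nat.card P - 1) / e ∧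
        (∀ i, σ i = 1 ∨ σ i = -1) ∧ (δ₀ = 1 ∨ δ₀ = -1) ∧
        (∀ i ∈ Ys, ∀ g : G, ¬ p ∣ orderOf g → (δ₀ : ℂ) * ((i : IrrCharacter G) : G → ℂ) g +
          ∑ k ∈ Ysᶜ, (σ k : ℂ) * ((k : IrrCharacter G) : G → ℂ) g = 0) ∧
        (∀ i ∈ Ysᶜ, ∀ k ∈ Ysᶜ, ∀ g : G, p ∣ orderOf g →
          (σ i : ℂ) * ((i : IrrCharacter G) : G → ℂ) g =
            (σ k : ℂ) * ((k : IrrCharacter G) : G → ℂ) g) ∧
        (∀ i ∈ Ysᶜ, ∀ g : G, p ∣ orderOf g →
          (δ₀ : ℂ) * ∑ k ∈ Ys, ((k : IrrCharacter G) : G → ℂ) g =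
            (σ i : ℂ) * ((i : IrrCharacter G) : G → ℂ) g) := by
  haveI hPr : M.IsPrime := isPrime_of_modular hM
  haveI : M.IsMaximal := hM.2.1
  haveI := charP_kM hM
  haveI := Fintype.ofFinite P
  have hab := cyc_comm hcyc
  have hmx := ab_mx hM hB hPD hab hc
  have hTS := ab_TS hM hc.1 hT
  obtain ⟨Θ, hΘ1, hΘ2, hΘ3, hΘ4⟩ := exists_theta hM hB hmx hcyc hP1
  obtain ⟨hKD, hAe, hAdvd, hcount⟩ := exists_kd hM hB hmx hcyc hP1 hΘ1 hΘ2 hΘ3 hΘ4
  have hrel : (Subgroup.centralizer (P : Set G)).relIndex (TS ⊤ P (J M P c)) = e := by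
    rw [← hTS, he]
  rw [hrel] at hAe hcount
  rw [hAe] at hAdvd
  have hPcard : 1 < Nat.card P := by
    have h1 : 0 < Nat.card P := Nat.card_pos
    have h2 : Nat.card P ≠ 1 := fun h => hP1 (Subgroup.card_eq_one.1 h)
    omega
  have hge := rank_ge hM hB hmx hcyc hPcard
  rw [hrel] at hge
  have he0 : 0 < e := by rw [← hAe]; exact Nat.card_pos
  have heC : (e : ℂ) ≠ 0 := by exact_mod_cast he0.ne'
  have hcnt : Fintype.card B * e = blockRank p B * e + (Nat.card P - 1) := by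
    have h1 : (Nat.card B : ℂ) * e = blockRank p B * e + ((Nat.card P - 1 : ℕ) : ℂ) := by
      rw [hcount]; field_simp
    rw [Nat.card_eq_fintype_card] at h1
    exact_mod_cast h1
  have hdvd : e ∣ Nat.card P - 1 := by
    have h1 : e ∣ blockRank p B * e + (Nat.card P - 1) := ⟨Fintype.card B, by rw [← hcnt]; ring⟩
    exact (Nat.dvd_add_right (Dvd.intro_left _ rfl)).1 h1
  obtain ⟨t, ht⟩ := hdvd
  have htdiv : (Nat.card P - 1) / e = t := by rw [ht, Nat.mul_div_cancel_left _ he0]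
  have hcnt' : Fintype.card B = blockRank p B + t := by
    apply Nat.eq_of_mul_eq_mul_right he0
    rw [hcnt, ht]; ring
  obtain ⟨N, hN⟩ := hKD.exists_n
  have hfin := hKD.final hN hPcard (by rw [hAe, htdiv, hcnt']; omega)
  rw [hAe, htdiv] at hfin
  obtain ⟨hf1, hf2, Ys, y, σ, hYc, hσ, hYy, hyY, hNY, hNX⟩ := hfin
  have hrank : blockRank p B = e := by omega
  have hq : Nat.card P = p ^ blockDefect p B := card_defectGroup hM hB hPD
  have ht0 : 0 < t := by
    rcases Nat.eq_zero_or_pos t with h | h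
    · rw [h, mul_zero] at ht; omega
    · exact h
  -- the sum formula
  have hsplit : ∀ f : P →* ℂˣ, f ≠ 1 → ∀ F : B → ℂ, ∑ i, (N f i : ℂ) * F i =
      (σ (y f) : ℂ) * F (y f) + ∑ k ∈ Ysᶜ, (σ k : ℂ) * F k := by
    intro f hf F
    rw [← Finset.sum_add_sum_compl Ys]
    congr 1
    · rw [Finset.sum_eq_single (y f)]
      · rw [hNY f hf _ (hyY f hf), if_pos rfl]
      · intro i hi hne
        rw [hNY f hf i hi, if_neg hne, Int.cast_zero, zero_mul]
      · intro h; exact absurd (hyY f hf) h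
    · refine Finset.sum_congr rfl fun k hk => ?_
      rw [hNX f hf k (Finset.mem_compl.1 hk)]
  have hq0 : ((p ^ blockDefect p B : ℕ) : ℂ) ≠ 0 := by
    rw [← hq]; exact_mod_cast Nat.card_pos.ne'
  have hreg : ∀ f : P →* ℂˣ, f ≠ 1 → ∀ g : G, ¬ p ∣ orderOf g →
      (σ (y f) : ℂ) * ((y f : IrrCharacter G) : G → ℂ) g +
        ∑ k ∈ Ysᶜ, (σ k : ℂ) * ((k : IrrCharacter G) : G → ℂ) g = 0 := by
    intro f hf g hg
    rw [← hsplit f hf (fun i => ((i : IrrCharacter G) : G → ℂ) g)]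
    have h1 := reg_comb hM hB (N f) g
    have h2 : ∑ k : B, ((∑ j : B, mm p B k j * N f j : ℤ) : ℂ) *
        ((k : IrrCharacter G) : G → ℂ) g = 0 :=
      Finset.sum_eq_zero fun k _ => by rw [hKD.N_ker hN f k, Int.cast_zero, zero_mul]
    rw [h2] at h1
    have h3 := (mul_eq_zero.1 h1).resolve_left hq0
    rw [← h3]
    refine Finset.sum_congr rfl fun i _ => ?_
    rw [reg_of hg]
  have hsing : ∀ D : B → ℤ, (∀ f, ∑ i, D i * N f i = 0) → ∀ g : G, p ∣ orderOf g →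
      ∑ i : B, (D i : ℂ) * ((i : IrrCharacter G) : G → ℂ) g = 0 := by
    intro D hD g hg
    have h1 := reg_comb hM hB D g
    have h2 : ∑ i : B, (D i : ℂ) * reg p ((i : IrrCharacter G) : G → ℂ) g = 0 :=
      Finset.sum_eq_zero fun i _ => by rw [reg_not hg, mul_zero]
    rw [h2, mul_zero] at h1
    have h3 : ∀ k : B, ((∑ j : B, mm p B k j * D j : ℤ) : ℂ) *
        ((k : IrrCharacter G) : G → ℂ) g = ((p ^ blockDefect p B : ℕ) : ℂ) *
          ((D k : ℂ) * ((k : IrrCharacter G) : G → ℂ) g) := by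
      intro k
      rw [hKD.N_perp hN hD k, ← hq]
      push_cast; ring
    rw [Finset.sum_congr rfl fun k _ => h3 k, ← Finset.mul_sum] at h1
    exact (mul_eq_zero.1 h1.symm).resolve_left hq0
  -- the sign of the exceptional characters
  obtain ⟨i₀, hi₀⟩ : Ys.Nonempty := Finset.card_pos.1 (by rw [hYc]; exact ht0)
  have hsign : ∀ i ∈ Ys, σ i = σ i₀ := by
    intro i hi
    obtain ⟨f, hf, hfi⟩ := hYy i hi
    obtain ⟨f₀, hf₀, hfi₀⟩ := hYy i₀ hi₀
    have h1 := hreg f hf 1 (by rw [orderOf_one]; exact hp.out.not_dvd_one)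
    have h2 := hreg f₀ hf₀ 1 (by rw [orderOf_one]; exact hp.out.not_dvd_one)
    rw [hfi] at h1
    rw [hfi₀] at h2
    obtain ⟨n, hn0, hn⟩ := irr_one_nat (i : IrrCharacter G).2
    obtain ⟨n', hn0', hn'⟩ := irr_one_nat (i₀ : IrrCharacter G).2
    rw [hn] at h1
    rw [hn'] at h2
    have h3 : ((σ i * n : ℤ) : ℂ) = ((σ i₀ * n' : ℤ) : ℂ) := by
      push_cast
      linear_combination h1 - h2
    have h4 : σ i * (n : ℤ) = σ i₀ * (n' : ℤ) := by exact_mod_cast h3
    rcases hσ i with h5 | h5 <;> rcases hσ i₀ with h6 | h6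
    · rw [h5, h6]
    · exfalso; rw [h5, h6] at h4; omega
    · exfalso; rw [h5, h6] at h4; omega
    · rw [h5, h6]
  refine ⟨hrank, hAdvd, he0, by rw [htdiv, hf1], by rw [htdiv]; exact ht, Ys, σ, σ i₀, by
    rw [htdiv, hYc], hσ, hσ i₀, ?_, ?_, ?_⟩
  · intro i hi g hg
    obtain ⟨f, hf, hfi⟩ := hYy i hi
    have h1 := hreg f hf g hg
    rw [hfi, hsign i hi] at h1
    exact h1
  · intro i hi k hk g hg
    have h1 := hsing (fun l => (if l = i then σ i else 0) - (if l = k then σ k else 0)) (by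
      intro f
      by_cases hf : f = 1
      · rw [hf]
        exact Finset.sum_eq_zero fun l _ => by rw [hKD.N_one hN, mul_zero]
      · simp_rw [sub_mul, ite_mul, zero_mul]
        rw [Finset.sum_sub_distrib, Finset.sum_ite_eq' Finset.univ i (fun l => σ i * N f l),
          Finset.sum_ite_eq' Finset.univ k (fun l => σ k * N f l), if_pos (Finset.mem_univ _),
          if_pos (Finset.mem_univ _), hNX f hf i (Finset.mem_compl.1 hi),
          hNX f hf k (Finset.mem_compl.1 hk)]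
        rcases hσ i with h5 | h5 <;> rcases hσ k with h6 | h6 <;> rw [h5, h6] <;> norm_num) g hg
    push_cast at h1
    simp_rw [sub_mul, ite_mul, zero_mul] at h1
    rw [Finset.sum_sub_distrib, Finset.sum_ite_eq' Finset.univ i, Finset.sum_ite_eq' Finset.univ k,
      if_pos (Finset.mem_univ _), if_pos (Finset.mem_univ _)] at h1
    exact sub_eq_zero.1 h1
  · intro i hi g hg
    have h1 := hsing (fun l => (if l ∈ Ys then σ i₀ else 0) - (if l = i then σ i else 0)) (by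
      intro f
      by_cases hf : f = 1
      · rw [hf]
        exact Finset.sum_eq_zero fun l _ => by rw [hKD.N_one hN, mul_zero]
      · simp_rw [sub_mul, ite_mul, zero_mul]
        rw [Finset.sum_sub_distrib, Finset.sum_ite_eq' Finset.univ i (fun l => σ i * N f l),
          if_pos (Finset.mem_univ _), hNX f hf i (Finset.mem_compl.1 hi),
          Finset.sum_ite_mem, Finset.univ_inter, Finset.sum_eq_single (y f)]
        · rw [hNY f hf _ (hyY f hf), if_pos rfl, hsign _ (hyY f hf)]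
          rcases hσ i with h5 | h5 <;> rcases hσ i₀ with h6 | h6 <;> rw [h5, h6] <;> norm_num
        · intro l hl hne
          rw [hNY f hf l hl, if_neg hne, mul_zero]
        · intro h; exact absurd (hyY f hf) h) g hg
    push_cast at h1
    simp_rw [sub_mul, ite_mul, zero_mul] at h1
    rw [Finset.sum_sub_distrib, Finset.sum_ite_eq' Finset.univ i,
      if_pos (Finset.mem_univ _), Finset.sum_ite_mem, Finset.univ_inter, ← Finset.mul_sum] at h1
    exact sub_eq_zero.1 h1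

theorem ne_bot_of_card {D : Subgroup G} {a : ℕ} (ha : 1 ≤ a) (hDa : Nat.card D = p ^ a) : D ≠ ⊥ := by
  rintro rfl
  rw [Subgroup.card_bot] at hDa
  have := Nat.one_lt_pow (n := a) (by omega) hp.out.one_lt
  omega

theorem s4695 (hM : IsPModular p M) {D : Subgroup G} (hD : IsCyclic D) {a : ℕ} (ha : 1 ≤ a)
    (hDa : Nat.card D = p ^ a) {B : Set (IrrCharacter G)} (hB : IsPBlock M B)
    (hBD : IsDefectGroup p M B D)
    {b : Set (IrrCharacter (Subgroup.centralizer (D : Set G)))}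
    (hind : IsInducedBlock M (Subgroup.centralizer (D : Set G)) b B) {T : Subgroup G}
    (hT : ∀ g : G, g ∈ T ↔ (g ∈ Subgroup.normalizer (D : Set G) ∧
      ∀ θ ∈ b, ∀ θ' : IrrCharacter (Subgroup.centralizer (D : Set G)),
        (∀ h h' : Subgroup.centralizer (D : Set G), (h' : G) = g * h * g⁻¹ →
          (θ' : Subgroup.centralizer (D : Set G) → ℂ) h' =
            (θ : Subgroup.centralizer (D : Set G) → ℂ) h) → θ' ∈ b))
    {e : ℕ} (he : (Subgroup.centralizer (D : Set G)).relIndex T = e) : blockRank p B = e := by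
  classical
  haveI := Fintype.ofFinite B
  have hT' : ∀ g : G, g ∈ T ↔ (g ∈ Subgroup.normalizer (D : Set G) ∧
      StabilizesBlock (Subgroup.centralizer (D : Set G)) b g) := by
    intro g
    rw [hT]
    exact ⟨fun h => ⟨h.1, (stab_conv h.1).2 h.2⟩, fun h => ⟨h.1, (stab_conv h.1).1 h.2⟩⟩
  exact (cyc_main hM hB hBD (ne_bot_of_card ha hDa) hD hind hT' he).1

/-- heights are zero -/
theorem all_height_zero (hM : IsPModular p M) {B : Set (IrrCharacter G)} (hB : IsPBlock M B)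
    (hd : 1 ≤ blockDefect p B) {w : IrrCharacter G → ℤ}
    (hw : ∀ χ ∈ B, ∃ u : ℤ, ¬ (p : ℤ) ∣ u ∧ w χ = u * (charDegree (χ : G → ℂ) : ℤ))
    (hcong : ∀ χ ∈ B, ∀ ψ ∈ B, ((p ^ (Nat.card G).factorization p : ℕ) : ℤ) ∣ w χ - w ψ) :
    ∀ χ ∈ B, blockHeight p B (χ : G → ℂ) = 0 := by
  intro χ hχ
  by_contra hne
  obtain ⟨ψ, hψ, h0⟩ := exists_height_zero hM hB
  have h1 := CfsgLib.BlockM.degree_eq hM hB hχ
  have hc0 : charDegree (χ : G → ℂ) ≠ 0 := (CfsgLib.CharInt.irr_charDegree_pos χ.2).ne'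
  have hc0' : charDegree (ψ : G → ℂ) ≠ 0 := (CfsgLib.CharInt.irr_charDegree_pos ψ.2).ne'
  obtain ⟨n, hn⟩ : ∃ n, n = (charDegree (ψ : G → ℂ)).factorization p := ⟨_, rfl⟩
  have h2 : p ^ (n + 1) ∣ charDegree (χ : G → ℂ) := by
    rw [Nat.Prime.pow_dvd_iff_le_factorization hp.out hc0]
    omega
  have h3 : p ^ (n + 1) ∣ p ^ (Nat.card G).factorization p := pow_dvd_pow p (by omega)
  obtain ⟨u, hu, hwu⟩ := hw χ hχ
  obtain ⟨u', hu', hwu'⟩ := hw ψ hψ
  have h4 : ((p ^ (n + 1) : ℕ) : ℤ) ∣ w χ := by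
    rw [hwu]
    exact Dvd.dvd.mul_left (by exact_mod_cast h2) _
  have h5 : ((p ^ (n + 1) : ℕ) : ℤ) ∣ w χ - w ψ :=
    (show ((p ^ (n + 1) : ℕ) : ℤ) ∣ ((p ^ (Nat.card G).factorization p : ℕ) : ℤ) by
      exact_mod_cast h3).trans (hcong χ hχ ψ hψ)
  have h6 : ((p ^ (n + 1) : ℕ) : ℤ) ∣ w ψ := by
    have := dvd_sub h4 h5
    rwa [sub_sub_cancel] at this
  rw [hwu'] at h6
  have hcop : IsCoprime ((p ^ (n + 1) : ℕ) : ℤ) u' := by
    push_cast
    apply IsCoprime.pow_left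
    rw [Irreducible.coprime_iff_not_dvd (Nat.prime_iff_prime_int.1 hp.out).irreducible]
    exact hu'
  have h7 : ((p ^ (n + 1) : ℕ) : ℤ) ∣ (charDegree (ψ : G → ℂ) : ℤ) := hcop.dvd_of_dvd_mul_left h6
  have h8 : p ^ (n + 1) ∣ charDegree (ψ : G → ℂ) := by exact_mod_cast h7
  rw [Nat.Prime.pow_dvd_iff_le_factorization hp.out hc0'] at h8
  omega

theorem s4696 (hM : IsPModular p M) {D : Subgroup G} (hD : IsCyclic D) {a : ℕ} (ha : 1 ≤ a)
    (hDa : Nat.card D = p ^ a) {B : Set (IrrCharacter G)} (hB : IsPBlock M B)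
    (hBD : IsDefectGroup p M B D)
    {b : Set (IrrCharacter (Subgroup.centralizer (D : Set G)))}
    (hind : IsInducedBlock M (Subgroup.centralizer (D : Set G)) b B) {T : Subgroup G}
    (hT : ∀ g : G, g ∈ T ↔ (g ∈ Subgroup.normalizer (D : Set G) ∧
      ∀ θ ∈ b, ∀ θ' : IrrCharacter (Subgroup.centralizer (D : Set G)),
        (∀ h h' : Subgroup.centralizer (D : Set G), (h' : G) = g * h * g⁻¹ →
          (θ' : Subgroup.centralizer (D : Set G) → ℂ) h' =
            (θ : Subgroup.centralizer (D : Set G) → ℂ) h) → θ' ∈ b))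
    {e : ℕ} (he : (Subgroup.centralizer (D : Set G)).relIndex T = e) :
    e ∣ p - 1 ∧ (∀ χ ∈ B, blockHeight p B (χ : G → ℂ) = 0) ∧
      ∃ X Y : Set (IrrCharacter G), B = X ∪ Y ∧ Disjoint X Y ∧ Nat.card X = e ∧
        Nat.card Y = (p ^ a - 1) / e ∧
        (∀ ψ ∈ Y, ∀ ψ' ∈ Y, ∀ g : G, ¬ p ∣ orderOf g → (ψ : G → ℂ) g = (ψ' : G → ℂ) g) ∧
        ∃ (δ : IrrCharacter G → ℤ) (δ₀ : ℤ), (∀ χ ∈ X, δ χ = 1 ∨ δ χ = -1) ∧
          (δ₀ = 1 ∨ δ₀ = -1) ∧
          (∀ ψ ∈ Y, ∀ g : G, ¬ p ∣ orderOf g → (δ₀ : ℂ) * (ψ : G → ℂ) g +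
            ∑ᶠ χ ∈ X, (δ χ : ℂ) * (χ : G → ℂ) g = 0) ∧
          (∀ χ ∈ X, ∀ χ' ∈ X, δ χ * (charDegree (χ : G → ℂ) : ℤ) ≡
            δ χ' * (charDegree (χ' : G → ℂ) : ℤ) [ZMOD (p : ℤ) ^ a]) ∧
          (∀ ψ ∈ Y, ∀ χ ∈ X, (charDegree (ψ : G → ℂ) : ℤ) ≡
            -((e : ℤ) * δ₀ * δ χ * (charDegree (χ : G → ℂ) : ℤ)) [ZMOD (p : ℤ) ^ a]) := by
  classical
  haveI := Fintype.ofFinite B
  have hT' : ∀ g : G, g ∈ T ↔ (g ∈ Subgroup.normalizer (D : Set G) ∧
      StabilizesBlock (Subgroup.centralizer (D : Set G)) b g) := by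
    intro g
    rw [hT]
    exact ⟨fun h => ⟨h.1, (stab_conv h.1).2 h.2⟩, fun h => ⟨h.1, (stab_conv h.1).1 h.2⟩⟩
  obtain ⟨hrank, hedvd, he0, hcardB, hq, Ys, σ, δ₀, hYc, hσ, hδ₀, hreg, hX, hXY⟩ :=
    cyc_main hM hB hBD (ne_bot_of_card ha hDa) hD hind hT' he
  obtain ⟨t, ht⟩ : ∃ t, t = (Nat.card D - 1) / e := ⟨_, rfl⟩
  rw [← ht] at hcardB hq hYc
  have hDp : IsPGroup p D := IsPGroup.of_card hDa
  have hpa : 1 < p ^ a := Nat.one_lt_pow (by omega) hp.out.one_lt
  have ht0 : 0 < t := by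
    rcases Nat.eq_zero_or_pos t with h | h
    · rw [h, mul_zero, hDa] at hq; omega
    · exact h
  -- extension of the signs
  obtain ⟨δ, hδ⟩ : ∃ δ : IrrCharacter G → ℤ, ∀ i : B, δ i = σ i :=
    ⟨fun χ => if h : χ ∈ B then σ ⟨χ, h⟩ else 1, fun i => dif_pos i.2⟩
  have hσ2 : ∀ i, σ i * σ i = 1 := by
    intro i; rcases hσ i with h | h <;> rw [h] <;> norm_num
  have hδ2 : δ₀ * δ₀ = 1 := by rcases hδ₀ with h | h <;> rw [h] <;> norm_num
  -- degrees in `Ys`
  have hYdeg : ∀ i ∈ Ys, ∀ k ∈ Ys, ∀ g : G, ¬ p ∣ orderOf g →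
      ((i : IrrCharacter G) : G → ℂ) g = ((k : IrrCharacter G) : G → ℂ) g := by
    intro i hi k hk g hg
    have h1 := hreg i hi g hg
    have h2 := hreg k hk g hg
    have h3 : (δ₀ : ℂ) ≠ 0 := by
      rcases hδ₀ with h | h <;> rw [h] <;> norm_num
    apply mul_left_cancel₀ h3
    linear_combination h1 - h2
  have hYdeg1 : ∀ i ∈ Ys, ∀ k ∈ Ys, charDegree ((i : IrrCharacter G) : G → ℂ) =
      charDegree ((k : IrrCharacter G) : G → ℂ) := by
    intro i hi k hk
    have h1 := hYdeg i hi k hk 1 (by rw [orderOf_one]; exact hp.out.not_dvd_one)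
    rw [CfsgLib.CharInt.irr_one_eq_charDegree (i : IrrCharacter G).2,
      CfsgLib.CharInt.irr_one_eq_charDegree (k : IrrCharacter G).2] at h1
    exact_mod_cast h1
  -- congruences
  have hcX : ∀ (Q : Subgroup G), IsPGroup p Q → ∀ i ∈ Ysᶜ, ∀ k ∈ Ysᶜ, (Nat.card Q : ℤ) ∣
      σ i * (charDegree ((i : IrrCharacter G) : G → ℂ) : ℤ) -
        σ k * (charDegree ((k : IrrCharacter G) : G → ℂ) : ℤ) := by
    intro Q hQ i hi k hk
    have h1 := deg_of_vanish (p := p) (χ := fun l : B => (l : IrrCharacter G))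
      (D := fun l => (if l = i then σ i else 0) - (if l = k then σ k else 0)) (by
        intro g hg
        push_cast
        simp_rw [sub_mul, ite_mul, zero_mul]
        rw [Finset.sum_sub_distrib, Finset.sum_ite_eq' Finset.univ i,
          Finset.sum_ite_eq' Finset.univ k, if_pos (Finset.mem_univ _),
          if_pos (Finset.mem_univ _), hX i hi k hk g hg, sub_self]) hQ
    simp_rw [sub_mul, ite_mul, zero_mul] at h1
    rw [Finset.sum_sub_distrib, Finset.sum_ite_eq' Finset.univ i,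
      Finset.sum_ite_eq' Finset.univ k, if_pos (Finset.mem_univ _),
      if_pos (Finset.mem_univ _)] at h1
    exact h1
  have hcXY : ∀ (Q : Subgroup G), IsPGroup p Q → ∀ j ∈ Ys, ∀ i ∈ Ysᶜ, (Nat.card Q : ℤ) ∣
      δ₀ * (t : ℤ) * (charDegree ((j : IrrCharacter G) : G → ℂ) : ℤ) -
        σ i * (charDegree ((i : IrrCharacter G) : G → ℂ) : ℤ) := by
    intro Q hQ j hj i hi
    have h1 := deg_of_vanish (p := p) (χ := fun l : B => (l : IrrCharacter G))
      (D := fun l => (if l ∈ Ys then δ₀ else 0) - (if l = i then σ i else 0)) (by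
        intro g hg
        push_cast
        simp_rw [sub_mul, ite_mul, zero_mul]
        rw [Finset.sum_sub_distrib, Finset.sum_ite_eq' Finset.univ i,
          if_pos (Finset.mem_univ _), Finset.sum_ite_mem, Finset.univ_inter, ← Finset.mul_sum,
          hXY i hi g hg, sub_self]) hQ
    simp_rw [sub_mul, ite_mul, zero_mul] at h1
    rw [Finset.sum_sub_distrib, Finset.sum_ite_eq' Finset.univ i, if_pos (Finset.mem_univ _),
      Finset.sum_ite_mem, Finset.univ_inter, ← Finset.mul_sum] at h1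
    have h2 : ∑ l ∈ Ys, (charDegree ((l : IrrCharacter G) : G → ℂ) : ℤ) =
        (t : ℤ) * (charDegree ((j : IrrCharacter G) : G → ℂ) : ℤ) := by
      rw [Finset.sum_congr rfl fun l hl => by rw [hYdeg1 l hl j hj], Finset.sum_const,
        nsmul_eq_mul, hYc]
    rw [h2, ← mul_assoc] at h1
    exact h1
  have hXne : ∃ i₁, i₁ ∈ Ysᶜ := by
    have h1 : (Ysᶜ).card = e := by
      rw [Finset.card_compl, hYc, hcardB]; omega
    exact Finset.card_pos.1 (by rw [h1]; exact he0)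
  obtain ⟨i₁, hi₁⟩ := hXne
  have hpt : ¬ (p : ℤ) ∣ (t : ℤ) := by
    intro h
    have h1 : p ∣ t := by exact_mod_cast h
    have h2 : p ∣ Nat.card D - 1 := by rw [hq]; exact Dvd.dvd.mul_left h1 e
    have h3 : p ∣ Nat.card D := by rw [hDa]; exact dvd_pow_self p (by omega)
    have h4 : p ∣ 1 := by
      have h5 := Nat.dvd_sub h3 h2
      rw [hDa] at h5
      have h6 : p ^ a - (p ^ a - 1) = 1 := by omega
      rwa [h6] at h5
    exact hp.out.one_lt.ne' (Nat.dvd_one.1 h4)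
  have hp1 : ¬ (p : ℤ) ∣ 1 := by
    intro h
    have h1 : p ∣ 1 := by exact_mod_cast h
    exact hp.out.one_lt.ne' (Nat.dvd_one.1 h1)
  have hpu : ∀ s : ℤ, (s = 1 ∨ s = -1) → ∀ u : ℤ, ¬ (p : ℤ) ∣ u → ¬ (p : ℤ) ∣ s * u := by
    intro s hs u hu h
    rcases hs with h1 | h1
    · rw [h1, one_mul] at h; exact hu h
    · rw [h1, neg_one_mul, dvd_neg] at h; exact hu h
  have hdef : blockDefect p B = a := by
    have h1 := card_defectGroup hM hB hBD
    rw [hDa] at h1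
    exact (Nat.pow_right_injective hp.out.two_le h1).symm
  refine ⟨hedvd, ?_, Subtype.val '' (↑(Ysᶜ) : Set B), Subtype.val '' (↑Ys : Set B), ?_, ?_, ?_,
    ?_, ?_, δ, δ₀, ?_, hδ₀, ?_, ?_, ?_⟩
  · -- heights
    obtain ⟨S⟩ : Nonempty (Sylow p G) := inferInstance
    have hS : Nat.card (S : Subgroup G) = p ^ (Nat.card G).factorization p :=
      Sylow.card_eq_multiplicity S
    have hSp : IsPGroup p (S : Subgroup G) := S.isPGroup'
    let w : IrrCharacter G → ℤ := fun χ => if h : χ ∈ B then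
      (if (⟨χ, h⟩ : B) ∈ Ys then δ₀ * (t : ℤ) * (charDegree (χ : G → ℂ) : ℤ)
        else σ ⟨χ, h⟩ * (charDegree (χ : G → ℂ) : ℤ)) else 0
    have hwY : ∀ i : B, i ∈ Ys → w i = δ₀ * (t : ℤ) *
        (charDegree ((i : IrrCharacter G) : G → ℂ) : ℤ) := by
      intro i hi
      show (if h : (i : IrrCharacter G) ∈ B then _ else _) = _
      rw [dif_pos i.2, if_pos hi]
    have hwX : ∀ i : B, i ∉ Ys → w i = σ i *
        (charDegree ((i : IrrCharacter G) : G → ℂ) : ℤ) := by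
      intro i hi
      show (if h : (i : IrrCharacter G) ∈ B then _ else _) = _
      rw [dif_pos i.2, if_neg hi]
    have hw1 : ∀ i : B, ((p ^ (Nat.card G).factorization p : ℕ) : ℤ) ∣ w i - w i₁ := by
      intro i
      rw [hwX i₁ (Finset.mem_compl.1 hi₁), ← hS]
      by_cases hi : i ∈ Ys
      · rw [hwY i hi]
        exact hcXY _ hSp i hi i₁ hi₁
      · rw [hwX i hi]
        exact hcX _ hSp i (Finset.mem_compl.2 hi) i₁ hi₁
    refine all_height_zero hM hB (by rw [hdef]; exact ha) (w := w) ?_ ?_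
    · intro χ hχ
      by_cases hi : (⟨χ, hχ⟩ : B) ∈ Ys
      · exact ⟨δ₀ * t, hpu δ₀ hδ₀ _ hpt, hwY ⟨χ, hχ⟩ hi⟩
      · refine ⟨σ ⟨χ, hχ⟩, ?_, hwX ⟨χ, hχ⟩ hi⟩
        have := hpu _ (hσ ⟨χ, hχ⟩) 1 hp1
        rwa [mul_one] at this
    · intro χ hχ ψ hψ
      have h1 := hw1 ⟨χ, hχ⟩
      have h2 := hw1 ⟨ψ, hψ⟩
      have h3 := dvd_sub h1 h2
      have e1 : w ((⟨χ, hχ⟩ : B) : IrrCharacter G) - w i₁ -
        (w ((⟨ψ, hψ⟩ : B) : IrrCharacter G) - w i₁) = w χ - w ψ := by ring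
      rwa [e1] at h3
  · ext χ
    constructor
    · intro hχ
      by_cases hi : (⟨χ, hχ⟩ : B) ∈ Ys
      · right; exact ⟨⟨χ, hχ⟩, hi, rfl⟩
      · left; exact ⟨⟨χ, hχ⟩, Finset.mem_coe.2 (Finset.mem_compl.2 hi), rfl⟩
    · rintro (⟨i, _, rfl⟩ | ⟨i, _, rfl⟩)
      · exact i.2
      · exact i.2
  · rw [Set.disjoint_left]
    rintro _ ⟨i, hi, rfl⟩ ⟨k, hk, hik⟩
    have h1 : k = i := Subtype.ext hik
    rw [h1] at hk
    exact (Finset.mem_compl.1 (Finset.mem_coe.1 hi)) (Finset.mem_coe.1 hk)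
  · rw [Nat.card_image_of_injective Subtype.val_injective, Nat.card_coe_set_eq,
      Set.ncard_coe_finset, Finset.card_compl, hYc, hcardB]
    omega
  · rw [Nat.card_image_of_injective Subtype.val_injective, Nat.card_coe_set_eq,
      Set.ncard_coe_finset, hYc, ht, hDa]
  · rintro _ ⟨i, hi, rfl⟩ _ ⟨k, hk, rfl⟩ g hg
    exact hYdeg i hi k hk g hg
  · rintro _ ⟨i, _, rfl⟩
    rw [hδ]; exact hσ i
  · rintro _ ⟨j, hj, rfl⟩ g hg
    have h1 := hreg j hj g hg
    rw [← h1]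
    congr 1
    rw [finsum_mem_image (fun a _ b _ h => Subtype.val_injective h), finsum_mem_coe_finset]
    refine Finset.sum_congr rfl fun k _ => ?_
    rw [hδ]
  · rintro _ ⟨i, hi, rfl⟩ _ ⟨k, hk, rfl⟩
    rw [hδ, hδ]
    apply Int.ModEq.symm
    rw [Int.modEq_iff_dvd]
    have h1 := hcX D hDp i hi k hk
    rw [hDa] at h1
    push_cast at h1
    exact h1
  · rintro _ ⟨j, hj, rfl⟩ _ ⟨i, hi, rfl⟩
    rw [hδ, Int.modEq_iff_dvd]
    have h1 := hcXY D hDp j hj i hi
    rw [hDa] at h1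
    push_cast at h1
    obtain ⟨x, hx⟩ : ∃ x : ℤ, x = (charDegree ((j : IrrCharacter G) : G → ℂ) : ℤ) := ⟨_, rfl⟩
    obtain ⟨y, hy⟩ : ∃ y : ℤ, y = (charDegree ((i : IrrCharacter G) : G → ℂ) : ℤ) := ⟨_, rfl⟩
    rw [← hx, ← hy] at h1 ⊢
    have hqt : (e : ℤ) * t = (p : ℤ) ^ a - 1 := by
      have h2 : (e * t : ℕ) = p ^ a - 1 := by rw [← hq, hDa]
      have h3 : ((e * t : ℕ) : ℤ) = ((p ^ a - 1 : ℕ) : ℤ) := by rw [h2]
      rw [Nat.cast_sub hpa.le] at h3
      push_cast at h3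
      exact h3
    -- `-(e δ₀ σ y) - x = e δ₀ (δ₀ t x - σ y) - p^a x`
    have e1 : -((e : ℤ) * δ₀ * σ i * y) - x =
        (e : ℤ) * δ₀ * (δ₀ * t * x - σ i * y) - (p : ℤ) ^ a * x := by
      linear_combination (-(e : ℤ) * t * x) * hδ2 - x * hqt
    rw [e1]
    exact dvd_sub (Dvd.dvd.mul_left h1 _) (Dvd.intro _ rfl)

end Main

end CfsgLib.Star
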