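import Mathlib
import Cfsg.Agent.EqBase
import Cfsg.Agent.LibStar61

/-!
# Star construction, LXII: integrality of decomposition functions (helper18)
-/

set_option autoImplicit false
set_option linter.unusedSectionVars false
set_option linter.style.haveILetI false
set_option linter.unusedSimpArgs false
set_option linter.unusedVariables false

namespace CfsgLib.Star

open Cfsg CfsgLib.GalChar CfsgLib.GalField CfsgLib.BlockReg CfsgLib.BlockReg2 CfsgLib.LocR
  CfsgLib.BrP CfsgLib.Car CfsgLib.BlockQP CfsgLib.BlockDefect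
  CfsgLib.Points CfsgLib.PLocalInd CfsgLib.CharBasic CfsgLib.BlockCore CfsgLib.BlockSec
  CfsgLib.BlockR CfsgLib.BlockIdem CfsgLib.BlockOrth CfsgLib.CharIndA CfsgLib.CharNorm
open scoped ComplexConjugate Pointwise

universe u

section A

variable {M : Ideal AlgInt} {G : Type u} [Group G] [Fintype G]
variable {p : ℕ} [hp : Fact p.Prime]

/-- the block part of an `R`-combination -/
theorem rcomb_blockPart (hMp : M.IsPrime) {f : G → ℂ} (hf : RComb M f) (b : Set (IrrCharacter G)) :
    RComb M (blockPart b f) := by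
  refine ⟨CfsgLib.BlockOrth.blockPart_classFun b f, fun θ => ?_⟩
  rw [ci_blockPart]
  by_cases h : θ ∈ b
  · rw [ind_of h, one_mul]; exact hf.2 θ
  · rw [ind_not h, zero_mul]; exact memR_zero

/-- `p^d` times the regular part of the block part -/
theorem rcomb_pow_reg (hM : IsPModular p M) {f : G → ℂ} (hf : RComb M f)
    {b : Set (IrrCharacter G)} (hb : IsPBlock M b) :
    RComb M (((p ^ blockDefect p b : ℕ) : ℂ) • reg p (blockPart b f)) := by
  classical
  have hMp := isPrime_of_modular hM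
  have h1 : ((p ^ blockDefect p b : ℕ) : ℂ) • reg p (blockPart b f) =
      ∑ θ : IrrCharacter G, (ind b θ * classInner f (θ : G → ℂ)) •
        (((p ^ blockDefect p b : ℕ) : ℂ) • reg p (θ : G → ℂ)) := by
    funext x
    rw [Pi.smul_apply, Finset.sum_apply, smul_eq_mul]
    by_cases hx : p ∣ orderOf x
    · rw [reg_not hx, mul_zero]
      symm
      refine Finset.sum_eq_zero fun θ _ => ?_
      rw [Pi.smul_apply, Pi.smul_apply, reg_not hx, smul_zero, smul_zero]
    · rw [reg_of hx, CfsgLib.BlockOrth.blockPart_expand, Finset.mul_sum]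
      refine Finset.sum_congr rfl fun θ _ => ?_
      rw [Pi.smul_apply, Pi.smul_apply, reg_of hx, smul_eq_mul, smul_eq_mul]
      ring
  rw [h1]
  apply rcomb_sum hMp
  intro θ _
  by_cases h : θ ∈ b
  · apply rcomb_smul hMp
    · rw [ind_of h, one_mul]; exact hf.2 θ
    · apply rcomb_gen hMp
      apply gen_reg
      have := CfsgLib.BlockM.degree_eq hM hb h
      omega
  · rw [ind_not h, zero_mul, zero_smul]
    exact rcomb_zero hMp

variable [hPr : M.IsPrime]

theorem card_cen_aux {u : G} (h1 : ∃ k : ℕ, orderOf u = p ^ k) {C : Subgroup G}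
    (hC : C = Subgroup.centralizer ({u} : Set G)) (c : C) (h3 : ¬ p ∣ orderOf c) :
    Nat.card (Subgroup.centralizer ({u * (c : G)} : Set G)) =
      Nat.card (Subgroup.centralizer ({c} : Set C)) := by
  subst hC
  exact centralizer_mul_card (p := p) u h1 h3

/-- integrality of generalized decomposition functions -/
theorem dv_int (hM : IsPModular p M) {u s : G} (h : pp p (u * s) = u)
    {e : MonoidAlgebra (kM M) G} (he : IsBlk (CH ⊤ (Subgroup.zpowers u)) e) {χ : G → ℂ}
    (hχ : IsCharacter G χ) :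
    MemLocalRing M (dv M u e χ s) ∧
    MemLocalRing M (((p ^ blockDefect p (bset M (CH ⊤ (Subgroup.zpowers u)) e) : ℕ) : ℂ) *
      dv M u e χ s / Nat.card (Subgroup.centralizer ({u * s} : Set G))) := by
  classical
  haveI := Fintype.ofFinite (CH ⊤ (Subgroup.zpowers u))
  obtain ⟨h1, h2, h3⟩ := pp_iff.1 h
  have hMp := isPrime_of_modular hM
  obtain ⟨hb, hbk⟩ := bset_spec (M := M) he
  have hR : RComb M (fun v : CH ⊤ (Subgroup.zpowers u) => χ (u * (v : G))) := by
    have h4 := rcomb_translate hMp hχ (s := u) (CH ⊤ (Subgroup.zpowers u)) (by rw [CH_zp])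
    have e1 : (fun v : CH ⊤ (Subgroup.zpowers u) => χ (u * (v : G))) =
        fun v : CH ⊤ (Subgroup.zpowers u) => χ ((v : G) * u) := by
      funext v
      rw [comm_of_C v.2]
    rw [e1]; exact h4
  have hφ := dv_eq (M := M) e (char_classFun hχ) (⟨s, mem_C h2⟩ : CH ⊤ (Subgroup.zpowers u))
  have hφ' : dv M u e χ s = blockPart (bset M (CH ⊤ (Subgroup.zpowers u)) e)
      (fun c : CH ⊤ (Subgroup.zpowers u) => χ (u * (c : G)))
        (⟨s, mem_C h2⟩ : CH ⊤ (Subgroup.zpowers u)) := hφ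
  have hsr : ¬ p ∣ orderOf (⟨s, mem_C h2⟩ : CH ⊤ (Subgroup.zpowers u)) := by
    rw [← Subgroup.orderOf_coe]; exact h3
  refine ⟨?_, ?_⟩
  · rw [hφ']
    exact rcomb_ring hMp (rcomb_blockPart hMp hR _) _
  · have h5 := proj_value hM (rcomb_pow_reg hM hR hb) (by
      intro x hx
      rw [Pi.smul_apply, reg_not hx, smul_zero]) hsr
    rw [Pi.smul_apply, reg_of hsr, smul_eq_mul, ← hφ'] at h5
    have h6 := card_cen_aux h1 (CH_zp u) _ hsr
    rw [← h6] at h5
    exact h5

theorem card_cen_conj (g x : G) : Nat.card (Subgroup.centralizer ({x * g * x⁻¹} : Set G)) =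
    Nat.card (Subgroup.centralizer ({g} : Set G)) := by
  rw [← CfsgLib.BlockConj.map_centralizer_conj]
  exact (Nat.card_congr (Subgroup.equivMapOfInjective _ _ (MulAut.conj x).injective).toEquiv).symm

end A

/-- the values on singular elements are integral combinations of the columns -/
def Sect (p : ℕ) (M : Ideal AlgInt) {G : Type*} [Group G] {P : Type*} [Fintype P] {I : Type*}
    (κ : I → P → ℂ) (χ : I → G → ℂ) : Prop :=
  ∀ x : G, p ∣ orderOf x → ∃ a : P → ℂ,
    (∀ w, MemLocalRing M (a w) ∧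
      MemLocalRing M ((Nat.card P : ℂ) * a w / Nat.card (Subgroup.centralizer ({x} : Set G)))) ∧
    ∀ i, χ i x = ∑ w, κ i w * a w

section B

variable {M : Ideal AlgInt} [hPr : M.IsPrime] {G : Type u} [Group G] [Fintype G]
variable {p : ℕ} [hp : Fact p.Prime] [hch : CharP (kM M) p]

theorem card_bset (hM : IsPModular p M) {B : Set (IrrCharacter G)} (hB : IsPBlock M B)
    {P : Subgroup G} {c : MonoidAlgebra (kM M) G} (hmx : IsMx p ⊤ (JB M B) P c) {w : G}
    (hw : w ∈ P) (hcen : ∀ v ∈ P, v * w = w * v) :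
    p ^ blockDefect p (bset M (CH ⊤ (Subgroup.zpowers w)) (ev p P c w)) = Nat.card P := by
  have hblk := ev_blk hmx.1.1 hw
  obtain ⟨D, hD⟩ := exists_isDef (p := p) hblk
  rw [← bset_defect hM hblk hD, def_central (g_blk hB) hmx hw hcen hD]

open Classical in
theorem exists_sect (hM : IsPModular p M) {B : Set (IrrCharacter G)} (hB : IsPBlock M B)
    {P : Subgroup G} [Fintype P] {c : MonoidAlgebra (kM M) G} (hmx : IsMx p ⊤ (JB M B) P c)
    (hab : ∀ v ∈ P, ∀ w ∈ P, v * w = w * v) {Θ : G → ℂ}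
    (hΘ1 : ∀ v ∈ P, v ≠ 1 → ∀ χ : G → ℂ, IsClassFunction G χ → ∀ s, pp p (v * s) = v →
        dv M v (ev p P c v) χ s = kap p P c Θ χ v * dv M v (ev p P c v) Θ s)
    {i₁ : B} {σ₁ : ℂ} (hσ : σ₁ = 1 ∨ σ₁ = -1)
    (hi₁ : ∀ v ∈ P, v ≠ 1 → kap p P c Θ ((i₁ : IrrCharacter G) : G → ℂ) v = -σ₁) :
    Sect p M (fun (i : B) (v : P) => if (v : G) = 1 then 0 else
        kap p P c Θ ((i : IrrCharacter G) : G → ℂ) (v : G))
      (fun (i : B) => ((i : IrrCharacter G) : G → ℂ)) := by
  classical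
  have hMp := isPrime_of_modular hM
  have hPc := hmx.1.1
  have hσσ : σ₁ * σ₁ = 1 := by rcases hσ with h | h <;> rw [h] <;> norm_num
  have hσR : ∀ z : ℂ, MemLocalRing M z → MemLocalRing M (-σ₁ * z) := by
    intro z hz
    rcases hσ with h | h
    · rw [h, neg_one_mul]; exact ring_neg hz
    · rw [h, neg_neg, one_mul]; exact hz
  intro x hx
  obtain ⟨u, s, rfl, hus, hu, hs⟩ := exists_us (p := p) x
  have hpp : pp p (u * s) = u := pp_mul hu hs hus
  have hu1 : u ≠ 1 := by
    rintro rfl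
    rw [one_mul] at hx
    exact hs hx
  -- the local data
  have hloc : ∀ e ∈ bl (kM M) (CH ⊤ (Subgroup.zpowers u)), ∃ (w : P) (A : ℂ),
      MemLocalRing M A ∧ MemLocalRing M ((Nat.card P : ℂ) * A /
        Nat.card (Subgroup.centralizer ({u * s} : Set G))) ∧
      ∀ i : B, dv M u e ((i : IrrCharacter G) : G → ℂ) s =
        (if (w : G) = 1 then 0 else kap p P c Θ ((i : IrrCharacter G) : G → ℂ) (w : G)) * A := by
    intro e he
    rw [mem_bl] at he
    by_cases hmv : ∃ y, Mv p P c u e y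
    · obtain ⟨y, hy⟩ := hmv
      have hvP : y * u * y⁻¹ ∈ P := hy.mem
      have hv1 : y * u * y⁻¹ ≠ 1 := by
        intro h
        apply hu1
        have e1 : u = y⁻¹ * (y * u * y⁻¹) * y := by group
        rw [e1, h]; group
      have hev := ev_mv_conj hPc hy
      have hpp' : pp p (y * u * y⁻¹ * (y * s * y⁻¹)) = y * u * y⁻¹ := by
        have e1 : y * u * y⁻¹ * (y * s * y⁻¹) = y * (u * s) * y⁻¹ := by group
        rw [e1, pp_conj, hpp]
      have hdv : ∀ i : B, dv M u e ((i : IrrCharacter G) : G → ℂ) s =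
          kap p P c Θ ((i : IrrCharacter G) : G → ℂ) (y * u * y⁻¹) *
          dv M (y * u * y⁻¹) (ev p P c (y * u * y⁻¹)) Θ (y * s * y⁻¹) := by
        intro i
        rw [← dv_conj hM (irr_classFun i.1.2) hpp he y, hev]
        exact hΘ1 _ hvP hv1 _ (irr_classFun i.1.2) _ hpp'
      have h1 := dv_int hM hpp' (ev_blk hPc hvP) (irr_isCharacter i₁.1.2)
      have e1 : y * u * y⁻¹ * (y * s * y⁻¹) = y * (u * s) * y⁻¹ := by group
      rw [card_bset hM hB hmx hvP (fun v hv => hab v hv _ hvP), e1, card_cen_conj] at h1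
      have hA : dv M (y * u * y⁻¹) (ev p P c (y * u * y⁻¹)) Θ (y * s * y⁻¹) =
          -σ₁ * dv M (y * u * y⁻¹) (ev p P c (y * u * y⁻¹)) ((i₁ : IrrCharacter G) : G → ℂ)
            (y * s * y⁻¹) := by
        rw [hΘ1 _ hvP hv1 _ (irr_classFun i₁.1.2) _ hpp', hi₁ _ hvP hv1]
        linear_combination (-(dv M (y * u * y⁻¹) (ev p P c (y * u * y⁻¹)) Θ (y * s * y⁻¹))) * hσσ
      refine ⟨⟨_, hvP⟩, dv M (y * u * y⁻¹) (ev p P c (y * u * y⁻¹)) Θ (y * s * y⁻¹), ?_, ?_, ?_⟩
      · rw [hA]; exact hσR _ h1.1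
      · rw [hA]
        have e2 : ∀ a b d : ℂ, a * (-σ₁ * b) / d = -σ₁ * (a * b / d) := by intro a b d; ring
        rw [e2]
        exact hσR _ h1.2
      · intro i
        rw [hdv i]
        show _ = (if y * u * y⁻¹ = 1 then _ else _) * _
        rw [if_neg hv1]
    · refine ⟨1, 0, ring_zero hMp, ?_, fun i => ?_⟩
      · rw [mul_zero, zero_div]; exact ring_zero hMp
      · rw [mul_zero]
        exact dv_not_mv hM hB hmx i.2 he hmv hpp
  choose! w A hA1 hA2 hA3 using hloc
  refine ⟨fun v => ∑ e ∈ bl (kM M) (CH ⊤ (Subgroup.zpowers u)), if w e = v then A e else 0,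
    fun v => ⟨?_, ?_⟩, fun i => ?_⟩
  · apply ring_sum hMp
    intro e he
    split_ifs
    · exact hA1 e he
    · exact ring_zero hMp
  · rw [Finset.mul_sum, Finset.sum_div]
    apply ring_sum hMp
    intro e he
    split_ifs
    · exact hA2 e he
    · rw [mul_zero, zero_div]; exact ring_zero hMp
  · beta_reduce
    rw [← sum_dv (M := M) (irr_classFun i.1.2) hus, Finset.sum_congr rfl fun e he => hA3 e he i]
    simp_rw [Finset.mul_sum]
    rw [Finset.sum_comm]
    refine Finset.sum_congr rfl fun e _ => ?_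
    simp_rw [mul_ite, mul_zero]
    rw [Finset.sum_ite_eq Finset.univ (w e), if_pos (Finset.mem_univ _)]

end B

end CfsgLib.Star
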