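import Mathlib
import Cfsg.Agent.EqBase
import Cfsg.Agent.LibStar62

/-!
# Star construction, LXIII: coherent data of blocks with cyclic defect groups (helper18)
-/

set_option autoImplicit false
set_option linter.unusedSectionVars false
set_option linter.style.haveILetI false
set_option linter.unusedSimpArgs false
set_option linter.unusedVariables false

namespace CfsgLib.Star

open Cfsg CfsgLib.GalChar CfsgLib.GalField CfsgLib.BlockReg CfsgLib.BlockReg2 CfsgLib.LocR
  CfsgLib.BrP CfsgLib.Car CfsgLib.BlockQP CfsgLib.BlockDefect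
  CfsgLib.Points CfsgLib.PLocalInd CfsgLib.CharBasic CfsgLib.BlockCore CfsgLib.BlockSec
  CfsgLib.BlockR CfsgLib.BlockIdem CfsgLib.BlockOrth CfsgLib.CharIndA CfsgLib.CharNorm
open scoped ComplexConjugate Pointwise

universe u

section KDmore

variable {P : Type*} [Group P] [Fintype P] {I : Type*} [Fintype I] [DecidableEq I]
  {A : Subgroup (MulAut P)} {κ : I → P → ℂ} {m : I → I → ℤ}

theorem KD.conj_inv (h : KD A κ m) {N : (P →* ℂˣ) → I → ℤ} (hN : ∀ f i,
    (Nat.card P : ℂ)⁻¹ * ∑ v, (((f v : ℂˣ) : ℂ) - 1) * conj (κ i v) = N f i) (i : I) (v : P) :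
    conj (κ i v) = κ i v⁻¹ := by
  classical
  haveI : Finite (P →* ℂˣ) := finite_hom
  haveI := Fintype.ofFinite (P →* ℂˣ)
  by_cases hv : v = 1
  · rw [hv, inv_one, h.one, map_zero]
  · rw [h.N_inv hN i v hv, h.N_inv hN i v⁻¹ (fun h' => hv (inv_eq_one.1 h')), map_sum]
    refine Finset.sum_congr rfl fun f _ => ?_
    rw [map_mul, map_intCast, conj_hom, MonoidHom.inv_apply, map_inv]

theorem KD.orth' (h : KD A κ m) {N : (P →* ℂˣ) → I → ℤ} (hN : ∀ f i,
    (Nat.card P : ℂ)⁻¹ * ∑ v, (((f v : ℂˣ) : ℂ) - 1) * conj (κ i v) = N f i) (v w : P) :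
    ∑ i, κ i v * κ i w = 0 ∨ ∑ i, κ i v * κ i w = (Nat.card P : ℂ) := by
  by_cases hw : w = 1
  · left
    exact Finset.sum_eq_zero fun i _ => by rw [hw, h.one, mul_zero]
  · have h1 : ∀ i, κ i v * κ i w = conj (κ i v⁻¹) * κ i w := by
      intro i
      rw [h.conj_inv hN i v⁻¹, inv_inv]
    simp_rw [h1]
    by_cases hα : ∃ α ∈ A, α w = v⁻¹
    · right
      obtain ⟨α, hα, hαw⟩ := hα
      rw [← h.col w hw]
      refine Finset.sum_congr rfl fun i _ => ?_
      rw [← hαw, h.inv i α hα w, mul_comm]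
    · left
      push Not at hα
      exact h.orth hw hα

theorem KD.kX (h : KD A κ m) {N : (P →* ℂˣ) → I → ℤ} (hN : ∀ f i,
    (Nat.card P : ℂ)⁻¹ * ∑ v, (((f v : ℂˣ) : ℂ) - 1) * conj (κ i v) = N f i) {i : I} {s : ℤ}
    (hs : ∀ f, f ≠ 1 → N f i = s) {v : P} (hv : v ≠ 1) : κ i v = -(s : ℂ) := by
  classical
  haveI : Finite (P →* ℂˣ) := finite_hom
  haveI := Fintype.ofFinite (P →* ℂˣ)
  rw [h.N_inv hN i v hv, ← Finset.add_sum_erase Finset.univ _ (Finset.mem_univ (1 : P →* ℂˣ)),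
    h.N_one hN, Int.cast_zero, mul_zero, zero_add]
  have h1 : ∀ f ∈ Finset.univ.erase (1 : P →* ℂˣ), ((f v : ℂˣ) : ℂ) * (N f i : ℂ) =
      ((f v : ℂˣ) : ℂ) * (s : ℂ) := fun f hf => by rw [hs f (Finset.ne_of_mem_erase hf)]
  rw [Finset.sum_congr rfl h1, ← Finset.sum_mul]
  have h2 := sum_dual h.ab v hv
  rw [← Finset.add_sum_erase Finset.univ _ (Finset.mem_univ (1 : P →* ℂˣ)),
    MonoidHom.one_apply, Units.val_one] at h2
  linear_combination (s : ℂ) * h2

end KDmore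

open Classical in
/-- coherent data of a block with cyclic defect group -/
structure CD (p : ℕ) (M : Ideal AlgInt) {G : Type*} [Group G] {P : Type*} [Group P] [Fintype P]
    {I : Type*} [Fintype I] (A : Subgroup (MulAut P)) (χ : I → G → ℂ) (κ : I → P → ℂ)
    (Ys : Finset I) (y : (P →* ℂˣ) → I) (σ : I → ℤ) : Prop where
  sg : ∀ i, σ i = 1 ∨ σ i = -1
  yY : ∀ i ∈ Ys, ∃ f, f ≠ 1 ∧ y f = i
  Yy : ∀ f, f ≠ 1 → y f ∈ Ys
  one : ∀ i, κ i 1 = 0
  kX : ∀ i, i ∉ Ys → ∀ v, v ≠ 1 → κ i v = -(σ i : ℂ)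
  kY : ∀ [Fintype (P →* ℂˣ)], ∀ i ∈ Ys, ∀ v, v ≠ 1 → κ i v = (σ i : ℂ) *
    ∑ f : P →* ℂˣ, if f ≠ 1 ∧ y f = i then ((f v : ℂˣ) : ℂ) else 0
  orb : ∀ f g, f ≠ 1 → g ≠ 1 → (y f = y g ↔ ∃ α ∈ A, f = KD.dualAct g α)
  sect : Sect p M κ χ
  reg : ∀ w (g : G), ¬ p ∣ orderOf g → ∑ i, κ i w * χ i g = 0
  orth : ∀ v w, ∑ i, κ i v * κ i w = 0 ∨ ∑ i, κ i v * κ i w = (Nat.card P : ℂ)
  cX : Fintype.card I = Ys.card + Nat.card A
  cY : Ys.card = (Nat.card P - 1) / Nat.card A
  rel : ∀ i ∈ Ys, ∀ g : G, ¬ p ∣ orderOf g →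
    (σ i : ℂ) * χ i g + ∑ k, (if k ∈ Ys then 0 else (σ k : ℂ) * χ k g) = 0

section Main

variable {M : Ideal AlgInt} [hPr : M.IsPrime] {G : Type u} [Group G] [Fintype G]
variable {p : ℕ} [hp : Fact p.Prime] [hch : CharP (kM M) p] [hMx : M.IsMaximal]

open Classical in
theorem exists_cd (hM : IsPModular p M) {B : Set (IrrCharacter G)} (hB : IsPBlock M B)
    {P : Subgroup G} [Fintype P] {c : MonoidAlgebra (kM M) G} (hmx : IsMx p ⊤ (JB M B) P c)
    (hcyc : IsCyclic P) (hP1 : P ≠ ⊥) [Fintype B] {e : ℕ}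
    (hrel : (Subgroup.centralizer (P : Set G)).relIndex (TS ⊤ P c) = e) :
    blockRank p B = e ∧ 0 < e ∧ e ∣ p - 1 ∧
    Nat.card (actHom P (TS ⊤ P c) TS_le_normalizer).range = e ∧
    Fintype.card B = (Nat.card P - 1) / e + e ∧ Nat.card P - 1 = e * ((Nat.card P - 1) / e) ∧
    ∃ (κ : B → P → ℂ) (Ys : Finset B) (y : (P →* ℂˣ) → B) (σ : B → ℤ),
      CD p M (actHom P (TS ⊤ P c) TS_le_normalizer).range
        (fun i : B => ((i : IrrCharacter G) : G → ℂ)) κ Ys y σ := by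
  have hab := cyc_comm hcyc
  obtain ⟨Θ, hΘ1, hΘ2, hΘ3, hΘ4⟩ := exists_theta hM hB hmx hcyc hP1
  obtain ⟨hKD, hAe, hAdvd, hcount⟩ := exists_kd hM hB hmx hcyc hP1 hΘ1 hΘ2 hΘ3 hΘ4
  rw [hrel] at hAe hcount
  rw [hAe] at hAdvd
  have hPcard : 1 < Nat.card P := by
    have h1 : 0 < Nat.card P := Nat.card_pos
    have h2 : Nat.card P ≠ 1 := fun h => hP1 (Subgroup.card_eq_one.1 h)
    omega
  have hge := rank_ge hM hB hmx hcyc hPcard
  rw [hrel] at hge
  have he0 : 0 < e := by rw [← hAe]; exact Nat.card_pos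
  have heC : (e : ℂ) ≠ 0 := by exact_mod_cast he0.ne'
  have hcnt : Fintype.card B * e = blockRank p B * e + (Nat.card P - 1) := by
    have h1 : (Nat.card B : ℂ) * e = blockRank p B * e + ((Nat.card P - 1 : ℕ) : ℂ) := by
      rw [hcount]; field_simp
    rw [Nat.card_eq_fintype_card] at h1
    exact_mod_cast h1
  have hdvd : e ∣ Nat.card P - 1 := by
    have h1 : e ∣ blockRank p B * e + (Nat.card P - 1) := ⟨Fintype.card B, by rw [← hcnt]; ring⟩
    exact (Nat.dvd_add_right (Dvd.intro_left _ rfl)).1 h1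
  obtain ⟨t, ht⟩ := hdvd
  have htdiv : (Nat.card P - 1) / e = t := by rw [ht, Nat.mul_div_cancel_left _ he0]
  have hcnt' : Fintype.card B = blockRank p B + t := by
    apply Nat.eq_of_mul_eq_mul_right he0
    rw [hcnt, ht]; ring
  obtain ⟨N, hN⟩ := hKD.exists_n
  have hfin := hKD.final hN hPcard (by rw [hAe, htdiv, hcnt']; omega)
  rw [hAe, htdiv] at hfin
  obtain ⟨hf1, hf2, Ys, y, σ, hYc, hσ, hYy, hyY, hNY, hNX⟩ := hfin
  have hrank : blockRank p B = e := by omega
  have hq : Nat.card P = p ^ blockDefect p B :=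
    card_defectGroup hM hB ((g_def hM hB).2 (hmx.isDef (g_blk hB)))
  have ht0 : 0 < t := by
    rcases Nat.eq_zero_or_pos t with h | h
    · rw [h, mul_zero] at ht; omega
    · exact h
  have hcX : (Ysᶜ).card = e := by
    rw [Finset.card_compl, hYc, hcnt', hrank]; omega
  have hσ2 : ∀ i, σ i * σ i = 1 := by
    intro i; rcases hσ i with h | h <;> rw [h] <;> norm_num
  -- the sum formula
  have hsplit : ∀ f : P →* ℂˣ, f ≠ 1 → ∀ F : B → ℂ, ∑ i, (N f i : ℂ) * F i =
      (σ (y f) : ℂ) * F (y f) + ∑ k ∈ Ysᶜ, (σ k : ℂ) * F k := by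
    intro f hf F
    rw [← Finset.sum_add_sum_compl Ys]
    congr 1
    · rw [Finset.sum_eq_single (y f)]
      · rw [hNY f hf _ (hyY f hf), if_pos rfl]
      · intro i hi hne
        rw [hNY f hf i hi, if_neg hne, Int.cast_zero, zero_mul]
      · intro h; exact absurd (hyY f hf) h
    · refine Finset.sum_congr rfl fun k hk => ?_
      rw [hNX f hf k (Finset.mem_compl.1 hk)]
  have hq0 : ((p ^ blockDefect p B : ℕ) : ℂ) ≠ 0 := by
    rw [← hq]; exact_mod_cast Nat.card_pos.ne'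
  have hreg0 : ∀ f : P →* ℂˣ, ∀ g : G, ¬ p ∣ orderOf g →
      ∑ i : B, (N f i : ℂ) * ((i : IrrCharacter G) : G → ℂ) g = 0 := by
    intro f g hg
    have h1 := reg_comb hM hB (N f) g
    have h2 : ∑ k : B, ((∑ j : B, mm p B k j * N f j : ℤ) : ℂ) *
        ((k : IrrCharacter G) : G → ℂ) g = 0 :=
      Finset.sum_eq_zero fun k _ => by rw [hKD.N_ker hN f k, Int.cast_zero, zero_mul]
    rw [h2] at h1
    have h3 := (mul_eq_zero.1 h1).resolve_left hq0
    rw [← h3]
    refine Finset.sum_congr rfl fun i _ => ?_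
    rw [reg_of hg]
  have hkX : ∀ i, i ∉ Ys → ∀ v : P, v ≠ 1 → (if (v : G) = 1 then 0 else
      kap p P c Θ ((i : IrrCharacter G) : G → ℂ) (v : G)) = -(σ i : ℂ) := fun i hi v hv =>
    hKD.kX hN (fun f hf => hNX f hf i hi) hv
  obtain ⟨i₁, hi₁⟩ : (Ysᶜ).Nonempty := Finset.card_pos.1 (by rw [hcX]; exact he0)
  refine ⟨hrank, he0, hAdvd, hAe, by rw [htdiv]; exact hf1, by rw [htdiv]; exact ht,
    fun (i : B) (v : P) => if (v : G) = 1 then 0 else
        kap p P c Θ ((i : IrrCharacter G) : G → ℂ) (v : G), Ys, y, σ, ?_⟩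
  refine ⟨hσ, hYy, hyY, hKD.one, hkX, ?_, ?_, ?_, ?_, hKD.orth' hN, ?_, ?_, ?_⟩
  · intro inst i hi v hv
    have h1 := hKD.N_inv hN i v hv
    rw [h1, Finset.mul_sum]
    refine Finset.sum_congr rfl fun f _ => ?_
    by_cases hf : f = 1
    · rw [hf, hKD.N_one hN, Int.cast_zero, mul_zero, if_neg (fun h => h.1 rfl), mul_zero]
    · rw [hNY f hf i hi]
      by_cases hfi : y f = i
      · rw [if_pos hfi.symm, if_pos ⟨hf, hfi⟩, mul_comm]
      · rw [if_neg (fun h => hfi h.symm), if_neg (fun h => hfi h.2), Int.cast_zero, mul_zero,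
          mul_zero]
  · intro f g hf hg
    constructor
    · intro hfg
      haveI := Fintype.ofFinite (actHom P (TS ⊤ P c) TS_le_normalizer).range
      have h1 := hKD.N_gram hN hf hg
      rw [hAe] at h1
      have h2 : ∑ i, N f i * N g i = 1 + e := by
        rw [← Finset.sum_add_sum_compl Ys]
        congr 1
        · rw [Finset.sum_eq_single (y f)]
          · rw [hNY f hf _ (hyY f hf), if_pos rfl, hNY g hg _ (hyY f hf), if_pos hfg, hσ2]
          · intro i hi hne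
            rw [hNY f hf i hi, if_neg hne, zero_mul]
          · intro h; exact absurd (hyY f hf) h
        · rw [← hcX, Finset.card_eq_sum_ones, Nat.cast_sum]
          refine Finset.sum_congr rfl fun k hk => ?_
          rw [hNX f hf k (Finset.mem_compl.1 hk), hNX g hg k (Finset.mem_compl.1 hk), hσ2,
            Nat.cast_one]
      rw [h2] at h1
      have h3 : (Finset.univ.filter (fun α :
          (actHom P (TS ⊤ P c) TS_le_normalizer).range => f = KD.dualAct g α)).card = 1 := by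
        have h4 : ((Finset.univ.filter (fun α :
          (actHom P (TS ⊤ P c) TS_le_normalizer).range => f = KD.dualAct g α)).card : ℤ) = 1 := by
          linarith
        exact_mod_cast h4
      obtain ⟨α, hα⟩ := Finset.card_pos.1 (by rw [h3]; exact one_pos)
      exact ⟨α, α.2, (Finset.mem_filter.1 hα).2⟩
    · rintro ⟨α, hα, hfg⟩
      by_contra hne
      have h1 : N f = N g := by rw [hfg]; exact hKD.N_act hN g hα
      have h2 := hNY f hf (y g) (hyY g hg)
      rw [if_neg (Ne.symm hne), h1, hNY g hg (y g) (hyY g hg), if_pos rfl] at h2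
      rcases hσ (y g) with h | h <;> rw [h] at h2 <;> norm_num at h2
  · refine exists_sect hM hB hmx hab hΘ1 (i₁ := i₁) (σ₁ := (σ i₁ : ℂ)) ?_ ?_
    · rcases hσ i₁ with h | h
      · left; rw [h]; norm_num
      · right; rw [h]; norm_num
    · intro v hv hv1
      have h1 := hkX i₁ (Finset.mem_compl.1 hi₁) ⟨v, hv⟩ (fun h => hv1 (congrArg Subtype.val h))
      have h2 : (if v = 1 then 0 else kap p P c Θ ((i₁ : IrrCharacter G) : G → ℂ) v) =
        -(σ i₁ : ℂ) := h1
      rwa [if_neg hv1] at h2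
  · intro w g hg
    haveI : Finite (P →* ℂˣ) := finite_hom
    haveI := Fintype.ofFinite (P →* ℂˣ)
    by_cases hw : w = 1
    · exact Finset.sum_eq_zero fun i _ => by
        rw [hw]
        show (if ((1 : P) : G) = 1 then 0 else _) * _ = (0 : ℂ)
        rw [if_pos (show ((1 : P) : G) = 1 from rfl), zero_mul]
    · have h1 : ∀ i : B, (if (w : G) = 1 then 0 else
          kap p P c Θ ((i : IrrCharacter G) : G → ℂ) (w : G)) * ((i : IrrCharacter G) : G → ℂ) g =
          ∑ f : P →* ℂˣ, ((f w : ℂˣ) : ℂ) * ((N f i : ℂ) * ((i : IrrCharacter G) : G → ℂ) g) := by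
        intro i
        have h2 := hKD.N_inv hN i w hw
        rw [show (if (w : G) = 1 then 0 else
          kap p P c Θ ((i : IrrCharacter G) : G → ℂ) (w : G)) = _ from h2, Finset.sum_mul]
        exact Finset.sum_congr rfl fun f _ => by ring
      rw [Finset.sum_congr rfl fun i _ => h1 i, Finset.sum_comm]
      refine Finset.sum_eq_zero fun f _ => ?_
      rw [← Finset.mul_sum, hreg0 f g hg, mul_zero]
  · rw [hYc, hAe, hf1]
  · rw [hYc, hAe, htdiv]
  · intro i hi g hg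
    obtain ⟨f, hf, hfi⟩ := hYy i hi
    have h1 := hsplit f hf (fun i => ((i : IrrCharacter G) : G → ℂ) g)
    rw [hreg0 f g hg, hfi] at h1
    refine Eq.trans ?_ h1.symm
    congr 1
    rw [← Finset.sum_add_sum_compl Ys]
    exact (congrArg₂ (· + ·) (Finset.sum_eq_zero fun k hk => if_pos hk)
      (Finset.sum_congr rfl fun k hk => if_neg (Finset.mem_compl.1 hk))).trans (zero_add _)

end Main

end CfsgLib.Star
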