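import Mathlib
import Cfsg.Agent.EqBase
import Cfsg.Agent.LibStar63

/-!
# Star construction, LXIV: matching of coherent data, perfectness (helper18)
-/

set_option autoImplicit false
set_option linter.unusedSectionVars false
set_option linter.style.haveILetI false
set_option linter.unusedSimpArgs false
set_option linter.unusedVariables false

namespace CfsgLib.Star

open Cfsg CfsgLib.GalChar CfsgLib.GalField CfsgLib.BlockReg CfsgLib.BlockReg2 CfsgLib.LocR
  CfsgLib.BrP CfsgLib.Car CfsgLib.BlockQP CfsgLib.BlockDefect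
  CfsgLib.Points CfsgLib.PLocalInd CfsgLib.CharBasic CfsgLib.BlockCore CfsgLib.BlockSec
  CfsgLib.BlockR CfsgLib.BlockIdem CfsgLib.BlockOrth CfsgLib.CharIndA CfsgLib.CharNorm
open scoped ComplexConjugate Pointwise

section Match

variable {p : ℕ} {M : Ideal AlgInt} {G : Type*} [Group G] {P : Type*} [Group P] [Fintype P]
  {I : Type*} [Fintype I] {A : Subgroup (MulAut P)} {χ : I → G → ℂ} {κ : I → P → ℂ}
  {Ys : Finset I} {y : (P →* ℂˣ) → I} {σ : I → ℤ}
  {H : Type*} [Group H] {Q : Type*} [Group Q] [Fintype Q]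
  {J : Type*} [Fintype J] {A' : Subgroup (MulAut Q)} {χ' : J → H → ℂ} {κ' : J → Q → ℂ}
  {Ys' : Finset J} {y' : (Q →* ℂˣ) → J} {σ' : J → ℤ}

/-- matching of coherent data -/
theorem CD.matching (h : CD p M A χ κ Ys y σ) (h' : CD p M A' χ' κ' Ys' y' σ') (ι : Q ≃* P)
    (hA : ∀ α : MulAut P, α ∈ A ↔ (ι.trans (α.trans ι.symm) : MulAut Q) ∈ A')
    (hcA : Nat.card A' = Nat.card A) :
    ∃ φ : J ≃ I, (∀ j, φ j ∈ Ys ↔ j ∈ Ys') ∧
      ∀ j v, κ' j v = (σ (φ j) : ℂ) * (σ' j : ℂ) * κ (φ j) (ι v) := by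
  classical
  haveI : Finite (P →* ℂˣ) := finite_hom
  haveI := Fintype.ofFinite (P →* ℂˣ)
  haveI : Finite (Q →* ℂˣ) := finite_hom
  haveI := Fintype.ofFinite (Q →* ℂˣ)
  -- the dual map
  let T : (Q →* ℂˣ) ≃ (P →* ℂˣ) :=
    { toFun := fun f => f.comp ι.symm.toMonoidHom
      invFun := fun f => f.comp ι.toMonoidHom
      left_inv := fun f => MonoidHom.ext fun v => by
        show f (ι.symm (ι v)) = f v
        rw [ι.symm_apply_apply]
      right_inv := fun f => MonoidHom.ext fun v => by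
        show f (ι (ι.symm v)) = f v
        rw [ι.apply_symm_apply] }
  have hT : ∀ f v, T f v = f (ι.symm v) := fun f v => rfl
  have hTι : ∀ f v, T f (ι v) = f v := fun f v => by rw [hT, ι.symm_apply_apply]
  have hT1 : ∀ f, T f = 1 ↔ f = 1 := by
    intro f
    constructor
    · intro h1
      apply MonoidHom.ext
      intro v
      rw [← hTι f v, h1]; rfl
    · intro h1
      apply MonoidHom.ext
      intro v
      rw [hT, h1]; rfl
  have horb : ∀ f g, f ≠ 1 → g ≠ 1 → (y (T f) = y (T g) ↔ y' f = y' g) := by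
    intro f g hf hg
    rw [h.orb _ _ (fun h1 => hf ((hT1 f).1 h1)) (fun h1 => hg ((hT1 g).1 h1)), h'.orb f g hf hg]
    constructor
    · rintro ⟨α, hα, h1⟩
      refine ⟨ι.trans (α.trans ι.symm), (hA α).1 hα, MonoidHom.ext fun v => ?_⟩
      have h2 := DFunLike.congr_fun h1 (ι v)
      rw [hTι, KD.dualAct_apply, hT] at h2
      exact h2
    · rintro ⟨β, hβ, h1⟩
      have hα : (ι.symm.trans (β.trans ι) : MulAut P) ∈ A := by
        rw [hA]
        have e1 : (ι.trans ((ι.symm.trans (β.trans ι) : MulAut P).trans ι.symm) : MulAut Q) = β := by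
          apply MulEquiv.ext
          intro v
          show ι.symm (ι (β (ι.symm (ι v)))) = β v
          rw [ι.symm_apply_apply, ι.symm_apply_apply]
        rw [e1]; exact hβ
      refine ⟨_, hα, MonoidHom.ext fun v => ?_⟩
      have h2 := DFunLike.congr_fun h1 (ι.symm v)
      rw [hT, h2, KD.dualAct_apply, KD.dualAct_apply, hT]
      show g (β (ι.symm v)) = g (ι.symm (ι (β (ι.symm v))))
      rw [ι.symm_apply_apply]
  -- the bijection on exceptional characters
  have hF : ∀ j : {j // j ∈ Ys'}, ∃ f, f ≠ 1 ∧ y' f = j := fun j => h'.yY j j.2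
  choose F hF1 hF2 using hF
  have hTF : ∀ j, T (F j) ≠ 1 := fun j h1 => hF1 j ((hT1 _).1 h1)
  let eY : {j // j ∈ Ys'} ≃ {i // i ∈ Ys} := Equiv.ofBijective
    (fun j => ⟨y (T (F j)), h.Yy _ (hTF j)⟩) (by
      constructor
      · intro j k hjk
        have h1 : y (T (F j)) = y (T (F k)) := congrArg Subtype.val hjk
        rw [horb _ _ (hF1 j) (hF1 k), hF2, hF2] at h1
        exact Subtype.ext h1
      · rintro ⟨i, hi⟩
        obtain ⟨f, hf, hfi⟩ := h.yY i hi
        have hg : T.symm f ≠ 1 := by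
          intro h1
          apply hf
          have h2 := (hT1 (T.symm f)).2 h1
          rwa [T.apply_symm_apply] at h2
        refine ⟨⟨y' (T.symm f), h'.Yy _ hg⟩, Subtype.ext ?_⟩
        show y (T (F ⟨y' (T.symm f), _⟩)) = i
        rw [← hfi]
        have h3 := (horb (F ⟨y' (T.symm f), h'.Yy _ hg⟩) (T.symm f) (hF1 _) hg).2 (hF2 _)
        rw [T.apply_symm_apply] at h3
        exact h3)
  have heY : ∀ j, ((eY j : {i // i ∈ Ys}) : I) = y (T (F j)) := fun j => rfl
  have hcardc : Fintype.card {j // j ∉ Ys'} = Fintype.card {i // i ∉ Ys} := by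
    have h1 := h.cX
    have h2 := h'.cX
    have h3 : Fintype.card {j // j ∉ Ys'} = Fintype.card J - Ys'.card := by
      rw [Fintype.card_subtype_compl, Fintype.card_coe]
    have h4 : Fintype.card {j // j ∉ Ys} = Fintype.card I - Ys.card := by
      rw [Fintype.card_subtype_compl, Fintype.card_coe]
    omega
  let eX : {j // j ∉ Ys'} ≃ {i // i ∉ Ys} := Fintype.equivOfCardEq hcardc
  let φ : J ≃ I := (Equiv.sumCompl (· ∈ Ys')).symm.trans
    ((Equiv.sumCongr eY eX).trans (Equiv.sumCompl (· ∈ Ys)))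
  have hφY : ∀ j (hj : j ∈ Ys'), φ j = eY ⟨j, hj⟩ := by
    intro j hj
    show (Equiv.sumCompl (· ∈ Ys)) ((Equiv.sumCongr eY eX) ((Equiv.sumCompl (· ∈ Ys')).symm j)) = _
    rw [Equiv.sumCompl_symm_apply_of_pos hj]
    rfl
  have hφX : ∀ j (hj : j ∉ Ys'), φ j = eX ⟨j, hj⟩ := by
    intro j hj
    show (Equiv.sumCompl (· ∈ Ys)) ((Equiv.sumCongr eY eX) ((Equiv.sumCompl (· ∈ Ys')).symm j)) = _
    rw [Equiv.sumCompl_symm_apply_of_neg hj]
    rfl
  have hσ2 : ∀ i, (σ i : ℂ) * (σ i : ℂ) = 1 := by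
    intro i; rcases h.sg i with h1 | h1 <;> rw [h1] <;> norm_num
  refine ⟨φ, fun j => ?_, fun j v => ?_⟩
  · by_cases hj : j ∈ Ys'
    · rw [hφY j hj]
      exact ⟨fun _ => hj, fun _ => (eY ⟨j, hj⟩).2⟩
    · rw [hφX j hj]
      exact ⟨fun h1 => absurd h1 (eX ⟨j, hj⟩).2, fun h1 => absurd h1 hj⟩
  · by_cases hv : v = 1
    · rw [hv, h'.one, map_one, h.one, mul_zero]
    · have hιv : ι v ≠ 1 := fun h1 => hv (ι.map_eq_one_iff.1 h1)
      by_cases hj : j ∈ Ys'
      · have hi : φ j ∈ Ys := by rw [hφY j hj]; exact (eY ⟨j, hj⟩).2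
        have h1 := h'.kY j hj v hv
        have h2 := h.kY (φ j) hi (ι v) hιv
        rw [h1, h2]
        have h3 : ∑ f : P →* ℂˣ, (if f ≠ 1 ∧ y f = φ j then ((f (ι v) : ℂˣ) : ℂ) else 0) =
            ∑ f : Q →* ℂˣ, if f ≠ 1 ∧ y' f = j then ((f v : ℂˣ) : ℂ) else 0 := by
          rw [← Equiv.sum_comp T]
          refine Finset.sum_congr rfl fun f _ => ?_
          rw [hTι]
          by_cases hf : f = 1
          · rw [if_neg (fun h4 => h4.1 ((hT1 f).2 hf)), if_neg (fun h4 => h4.1 hf)]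
          · have h4 : y (T f) = φ j ↔ y' f = j := by
              rw [hφY j hj, heY, horb f _ hf (hF1 _), hF2]
            by_cases h5 : y' f = j
            · rw [if_pos ⟨fun h6 => hf ((hT1 f).1 h6), h4.2 h5⟩, if_pos ⟨hf, h5⟩]
            · rw [if_neg (fun h6 => h5 (h4.1 h6.2)), if_neg (fun h6 => h5 h6.2)]
        rw [h3]
        linear_combination (-(σ' j : ℂ) * ∑ f : Q →* ℂˣ,
          if f ≠ 1 ∧ y' f = j then ((f v : ℂˣ) : ℂ) else 0) * hσ2 (φ j)
      · have hi : φ j ∉ Ys := by rw [hφX j hj]; exact (eX ⟨j, hj⟩).2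
        rw [h'.kX j hj v hv, h.kX _ hi _ hιv]
        linear_combination (σ' j : ℂ) * hσ2 (φ j)

end Match

end CfsgLib.Star
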