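import Mathlib
import Cfsg.Agent.EqBase
import Cfsg.Agent.LibStar64

/-!
# Star construction, LXV: perfect isometries (helper18)
-/

set_option autoImplicit false
set_option linter.unusedSectionVars false
set_option linter.style.haveILetI false
set_option linter.unusedSimpArgs false
set_option linter.unusedVariables false

namespace CfsgLib.Star

open Cfsg CfsgLib.GalChar CfsgLib.GalField CfsgLib.BlockReg CfsgLib.BlockReg2 CfsgLib.LocR
  CfsgLib.BrP CfsgLib.Car CfsgLib.BlockQP CfsgLib.BlockDefect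
  CfsgLib.Points CfsgLib.PLocalInd CfsgLib.CharBasic CfsgLib.BlockCore CfsgLib.BlockSec
  CfsgLib.BlockR CfsgLib.BlockIdem CfsgLib.BlockOrth CfsgLib.CharIndA CfsgLib.CharNorm
open scoped ComplexConjugate Pointwise

universe u v

section Perf

variable {p : ℕ} [hp : Fact p.Prime] {M : Ideal AlgInt} {G : Type u} [Group G] [Fintype G]
  {H : Type v} [Group H] [Fintype H] {P Q : Type*} [Fintype P] [Fintype Q]
  {I J : Type*} [Fintype I] [Fintype J]

theorem perf_half (hM : IsPModular p M) (χ : I → IrrCharacter G) (χ' : J → IrrCharacter H)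
    (κ : I → P → ℂ) (κ' : J → Q → ℂ) (φ : J ≃ I) (ε : J → ℂ) (hε : ∀ j, ε j = 1 ∨ ε j = -1)
    (ι : Q ≃ P) (hκ : ∀ j v, κ' j v = ε j * κ (φ j) (ι v))
    (hs : Sect p M κ (fun i => (χ i : G → ℂ))) (hs' : Sect p M κ' (fun j => (χ' j : H → ℂ)))
    (hr : ∀ w (g : G), ¬ p ∣ orderOf g → ∑ i, κ i w * (χ i : G → ℂ) g = 0)
    (hr' : ∀ w (g : H), ¬ p ∣ orderOf g → ∑ j, κ' j w * (χ' j : H → ℂ) g = 0)
    (ho : ∀ v w, ∑ i, κ i v * κ i w = 0 ∨ ∑ i, κ i v * κ i w = (Nat.card P : ℂ)) (x : G) (y : H) :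
    MemLocalRing M ((∑ j, ε j * (χ (φ j) : G → ℂ) x * (χ' j : H → ℂ) y) /
      Nat.card (Subgroup.centralizer ({x} : Set G))) ∧
    ((¬ p ∣ orderOf x ↔ ¬ p ∣ orderOf y) ∨
      ∑ j, ε j * (χ (φ j) : G → ℂ) x * (χ' j : H → ℂ) y = 0) := by
  classical
  have hMp := isPrime_of_modular hM
  have hεε : ∀ j, ε j * ε j = 1 := by
    intro j; rcases hε j with h | h <;> rw [h] <;> norm_num
  have hεR : ∀ j, MemLocalRing M (ε j) := by
    intro j
    rcases hε j with h | h <;> rw [h]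
    · exact ring_one hMp
    · exact ring_neg (ring_one hMp)
  have hκ' : ∀ j w, κ (φ j) w = ε j * κ' j (ι.symm w) := by
    intro j w
    rw [hκ, ι.apply_symm_apply, ← mul_assoc, hεε, one_mul]
  -- separation
  have sep1 : ∀ (x : G) (y : H), ¬ p ∣ orderOf x → p ∣ orderOf y →
      ∑ j, ε j * (χ (φ j) : G → ℂ) x * (χ' j : H → ℂ) y = 0 := by
    intro x y hx hy
    obtain ⟨a, -, ha⟩ := hs' y hy
    beta_reduce at ha
    have h1 : ∀ j, ε j * (χ (φ j) : G → ℂ) x * (χ' j : H → ℂ) y =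
        ∑ w, a w * (κ (φ j) (ι w) * (χ (φ j) : G → ℂ) x) := by
      intro j
      rw [ha j, Finset.mul_sum]
      refine Finset.sum_congr rfl fun w _ => ?_
      rw [hκ]
      linear_combination ((χ (φ j) : G → ℂ) x * κ (φ j) (ι w) * a w) * hεε j
    rw [Finset.sum_congr rfl fun j _ => h1 j, Finset.sum_comm]
    refine Finset.sum_eq_zero fun w _ => ?_
    rw [← Finset.mul_sum, Equiv.sum_comp φ (fun i => κ i (ι w) * (χ i : G → ℂ) x),
      hr (ι w) x hx, mul_zero]
  have sep2 : ∀ (x : G) (y : H), p ∣ orderOf x → ¬ p ∣ orderOf y →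
      ∑ j, ε j * (χ (φ j) : G → ℂ) x * (χ' j : H → ℂ) y = 0 := by
    intro x y hx hy
    obtain ⟨a, -, ha⟩ := hs x hx
    beta_reduce at ha
    have h1 : ∀ j, ε j * (χ (φ j) : G → ℂ) x * (χ' j : H → ℂ) y =
        ∑ w, a w * (κ' j (ι.symm w) * (χ' j : H → ℂ) y) := by
      intro j
      rw [ha (φ j), Finset.mul_sum, Finset.sum_mul]
      refine Finset.sum_congr rfl fun w _ => ?_
      rw [hκ']
      linear_combination ((χ' j : H → ℂ) y * κ' j (ι.symm w) * a w) * hεε j
    rw [Finset.sum_congr rfl fun j _ => h1 j, Finset.sum_comm]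
    refine Finset.sum_eq_zero fun w _ => ?_
    rw [← Finset.mul_sum, hr' (ι.symm w) y hy, mul_zero]
  by_cases hx : p ∣ orderOf x
  · by_cases hy : p ∣ orderOf y
    · refine ⟨?_, Or.inl ⟨fun h => absurd hx h, fun h => absurd hy h⟩⟩
      obtain ⟨a, ha1, ha⟩ := hs x hx
      obtain ⟨b, hb1, hb⟩ := hs' y hy
      beta_reduce at ha hb
      have h1 : (∑ j, ε j * (χ (φ j) : G → ℂ) x * (χ' j : H → ℂ) y) /
          Nat.card (Subgroup.centralizer ({x} : Set G)) =
          ∑ v, ∑ w, b w * ((∑ i, κ i v * κ i (ι w)) * a v /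
            Nat.card (Subgroup.centralizer ({x} : Set G))) := by
        have h2 : ∀ j, ε j * (χ (φ j) : G → ℂ) x * (χ' j : H → ℂ) y =
            ∑ v, ∑ w, a v * b w * (κ (φ j) v * κ (φ j) (ι w)) := by
          intro j
          rw [ha (φ j), hb j, mul_assoc, Finset.sum_mul_sum, Finset.mul_sum]
          refine Finset.sum_congr rfl fun v _ => ?_
          rw [Finset.mul_sum]
          refine Finset.sum_congr rfl fun w _ => ?_
          rw [hκ]
          linear_combination (κ (φ j) v * a v * κ (φ j) (ι w) * b w) * hεε j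
        rw [Finset.sum_congr rfl fun j _ => h2 j, Finset.sum_comm, Finset.sum_div]
        refine Finset.sum_congr rfl fun v _ => ?_
        rw [Finset.sum_comm, Finset.sum_div]
        refine Finset.sum_congr rfl fun w _ => ?_
        rw [← Finset.mul_sum, Equiv.sum_comp φ (fun i => κ i v * κ i (ι w))]
        ring
      rw [h1]
      apply ring_sum hMp
      intro v _
      apply ring_sum hMp
      intro w _
      apply ring_mul hMp (hb1 w).1
      rcases ho v (ι w) with h2 | h2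
      · rw [h2, zero_mul, zero_div]; exact ring_zero hMp
      · rw [h2]; exact (ha1 v).2
    · have h1 := sep2 x y hx hy
      rw [h1, zero_div]
      exact ⟨ring_zero hMp, Or.inr rfl⟩
  · by_cases hy : p ∣ orderOf y
    · have h1 := sep1 x y hx hy
      rw [h1, zero_div]
      exact ⟨ring_zero hMp, Or.inr rfl⟩
    · refine ⟨?_, Or.inl ⟨fun _ => hy, fun _ => hx⟩⟩
      have hF : RComb M (∑ j, (ε j * (χ' j : H → ℂ) y) • (χ (φ j) : G → ℂ)) := by
        apply rcomb_sum hMp
        intro j _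
        exact rcomb_smul hMp (ring_mul hMp (hεR j) (irr_ring hMp _ y))
          (rcomb_char hMp (irr_isCharacter (χ (φ j)).2))
      have hFv : ∀ x : G, (∑ j, (ε j * (χ' j : H → ℂ) y) • (χ (φ j) : G → ℂ)) x =
          ∑ j, ε j * (χ (φ j) : G → ℂ) x * (χ' j : H → ℂ) y := by
        intro x
        rw [Finset.sum_apply]
        refine Finset.sum_congr rfl fun j _ => ?_
        rw [Pi.smul_apply, smul_eq_mul]; ring
      have h1 := proj_value hM hF (fun z hz => by rw [hFv]; exact sep2 z y hz hy) hx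
      rw [hFv] at h1
      exact h1

/-- the sum over a block -/
theorem kernel_eq {c : Set (IrrCharacter H)} [Fintype c] (I : IrrCharacter H → IrrCharacter G)
    (ε : IrrCharacter H → ℤ) (x : G) (y : H) : signedBijectionKernel c I ε x y =
      ∑ j : c, (ε j : ℂ) * (I j : G → ℂ) x * ((j : IrrCharacter H) : H → ℂ) y := by
  unfold signedBijectionKernel
  rw [finsum_mem_eq_finite_toFinset_sum _ (Set.toFinite c)]
  refine Finset.sum_subtype _ (fun η => ?_) _
  rw [Set.Finite.mem_toFinset]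

/-- the perfect isometry -/
theorem perf_main (hM : IsPModular p M) {B : Set (IrrCharacter G)} {c : Set (IrrCharacter H)}
    [Fintype B] [Fintype c] (κ : B → P → ℂ) (κ' : c → Q → ℂ) (φ : c ≃ B) (ε : c → ℤ)
    (hε : ∀ j, ε j = 1 ∨ ε j = -1)
    (ι : Q ≃ P) (hκ : ∀ j v, κ' j v = ε j * κ (φ j) (ι v))
    (hs : Sect p M κ (fun i : B => ((i : IrrCharacter G) : G → ℂ)))
    (hs' : Sect p M κ' (fun j : c => ((j : IrrCharacter H) : H → ℂ)))
    (hr : ∀ w (g : G), ¬ p ∣ orderOf g → ∑ i, κ i w * ((i : IrrCharacter G) : G → ℂ) g = 0)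
    (hr' : ∀ w (g : H), ¬ p ∣ orderOf g → ∑ j, κ' j w * ((j : IrrCharacter H) : H → ℂ) g = 0)
    (ho : ∀ v w, ∑ i, κ i v * κ i w = 0 ∨ ∑ i, κ i v * κ i w = (Nat.card P : ℂ))
    (ho' : ∀ v w, ∑ i, κ' i v * κ' i w = 0 ∨ ∑ i, κ' i v * κ' i w = (Nat.card Q : ℂ))
    (I : IrrCharacter H → IrrCharacter G) (hI : ∀ j : c, I j = φ j)
    (δ : IrrCharacter H → ℤ) (hδ : ∀ j : c, δ j = ε j) :
    IsPerfectIsometry p M c B I δ := by
  classical
  have hεC : ∀ j, (ε j : ℂ) = 1 ∨ (ε j : ℂ) = -1 := by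
    intro j
    rcases hε j with h | h
    · left; rw [h, Int.cast_one]
    · right; rw [h]; norm_num
  have hεε : ∀ j, (ε j : ℂ) * (ε j : ℂ) = 1 := by
    intro j; rcases hεC j with h | h <;> rw [h] <;> norm_num
  refine ⟨⟨?_, ?_, ?_⟩, ?_, ?_⟩
  · intro η hη
    rw [hI ⟨η, hη⟩]
    exact (φ ⟨η, hη⟩).2
  · intro η hη η' hη' h
    have h1 : φ ⟨η, hη⟩ = φ ⟨η', hη'⟩ := Subtype.ext (by rw [← hI, ← hI]; exact h)
    exact congrArg Subtype.val (φ.injective h1)
  · intro θ hθ
    refine ⟨(φ.symm ⟨θ, hθ⟩ : c), (φ.symm ⟨θ, hθ⟩).2, ?_⟩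
    rw [hI, φ.apply_symm_apply]
  · intro η hη
    rw [hδ ⟨η, hη⟩]
    exact hε _
  · intro x y
    have hk : signedBijectionKernel c I δ x y =
        ∑ j : c, (ε j : ℂ) * ((φ j : IrrCharacter G) : G → ℂ) x *
          ((j : IrrCharacter H) : H → ℂ) y := by
      rw [kernel_eq]
      exact Finset.sum_congr rfl fun j _ => by rw [hI, hδ]
    have hk2 : signedBijectionKernel c I δ x y =
        ∑ i : B, (ε (φ.symm i) : ℂ) * (((φ.symm i : c) : IrrCharacter H) : H → ℂ) y *
          ((i : IrrCharacter G) : G → ℂ) x := by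
      rw [hk, ← Equiv.sum_comp φ.symm]
      refine Finset.sum_congr rfl fun i _ => ?_
      rw [φ.apply_symm_apply]; ring
    have h1 := perf_half hM (fun i : B => (i : IrrCharacter G)) (fun j : c => (j : IrrCharacter H))
      κ κ' φ (fun j => (ε j : ℂ)) hεC ι hκ hs hs' hr hr' ho x y
    have h2 := perf_half hM (fun j : c => (j : IrrCharacter H)) (fun i : B => (i : IrrCharacter G))
      κ' κ φ.symm (fun i => (ε (φ.symm i) : ℂ)) (fun i => hεC _) ι.symm (fun i v => by
        rw [hκ, φ.apply_symm_apply, ι.apply_symm_apply, ← mul_assoc, hεε, one_mul])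
      hs' hs hr' hr ho' y x
    refine ⟨?_, ?_, ?_⟩
    · rw [hk]; exact h1.1
    · rw [hk2]; exact h2.1
    · rw [hk]
      exact h1.2

end Perf

end CfsgLib.Star
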