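import Mathlib
import Cfsg.Agent.EqBase
import Cfsg.Agent.LibStar65

/-!
# Star construction, LXVI: S4635 (helper18)
-/

set_option autoImplicit false
set_option linter.unusedSectionVars false
set_option linter.style.haveILetI false
set_option linter.unusedSimpArgs false
set_option linter.unusedVariables false

namespace CfsgLib.Star

open Cfsg CfsgLib.GalChar CfsgLib.GalField CfsgLib.BlockReg CfsgLib.BlockReg2 CfsgLib.LocR
  CfsgLib.BrP CfsgLib.Car CfsgLib.BlockQP CfsgLib.BlockDefect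
  CfsgLib.Points CfsgLib.PLocalInd CfsgLib.CharBasic CfsgLib.BlockCore CfsgLib.BlockSec
  CfsgLib.BlockR CfsgLib.BlockIdem CfsgLib.BlockOrth CfsgLib.CharIndA CfsgLib.CharNorm
open scoped ComplexConjugate Pointwise

universe u v

theorem card_of_conj {P Q : Type*} [Group P] [Group Q] {A : Subgroup (MulAut P)}
    {A' : Subgroup (MulAut Q)} (ι : Q ≃* P)
    (hA : ∀ α : MulAut P, α ∈ A ↔ (ι.trans (α.trans ι.symm) : MulAut Q) ∈ A') :
    Nat.card A' = Nat.card A := by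
  symm
  refine Nat.card_congr (Equiv.ofBijective (fun α : A =>
    (⟨ι.trans ((α : MulAut P).trans ι.symm), (hA α).1 α.2⟩ : A')) ⟨?_, ?_⟩)
  · intro α β h
    apply Subtype.ext
    apply MulEquiv.ext
    intro v
    have h1 := DFunLike.congr_fun (congrArg Subtype.val h) (ι.symm v)
    have h2 : ι.symm ((α : MulAut P) (ι (ι.symm v))) = ι.symm ((β : MulAut P) (ι (ι.symm v))) := h1
    rw [ι.apply_symm_apply] at h2
    exact ι.symm.injective h2
  · intro β
    have e1 : (ι.trans ((ι.symm.trans ((β : MulAut Q).trans ι) : MulAut P).trans ι.symm) :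
        MulAut Q) = β := by
      apply MulEquiv.ext
      intro v
      show ι.symm (ι ((β : MulAut Q) (ι.symm (ι v)))) = (β : MulAut Q) v
      rw [ι.symm_apply_apply, ι.symm_apply_apply]
    refine ⟨⟨ι.symm.trans ((β : MulAut Q).trans ι), ?_⟩, Subtype.ext e1⟩
    rw [hA, e1]
    exact β.2

section Perf

variable {p : ℕ} [hp : Fact p.Prime] {M : Ideal AlgInt} {G : Type u} [Group G] [Fintype G]
  {H : Type v} [Group H] [Fintype H] {P Q : Type*} [Group P] [Group Q] [Fintype P] [Fintype Q]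

theorem perf_cd (hM : IsPModular p M) {B : Set (IrrCharacter G)} (hB : IsPBlock M B)
    {c : Set (IrrCharacter H)} [Fintype B] [Fintype c] {A : Subgroup (MulAut P)}
    {A' : Subgroup (MulAut Q)} {κ : B → P → ℂ} {κ' : c → Q → ℂ} {Ys : Finset B} {Ys' : Finset c}
    {y : (P →* ℂˣ) → B} {y' : (Q →* ℂˣ) → c} {σ : B → ℤ} {σ' : c → ℤ}
    (h : CD p M A (fun i : B => ((i : IrrCharacter G) : G → ℂ)) κ Ys y σ)
    (h' : CD p M A' (fun j : c => ((j : IrrCharacter H) : H → ℂ)) κ' Ys' y' σ') (ι : Q ≃* P)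
    (hA : ∀ α : MulAut P, α ∈ A ↔ (ι.trans (α.trans ι.symm) : MulAut Q) ∈ A') :
    ∃ (I : IrrCharacter H → IrrCharacter G) (δ : IrrCharacter H → ℤ),
      IsPerfectIsometry p M c B I δ ∧
      ∀ j : c, ∃ i : B, (i ∈ Ys ↔ j ∈ Ys') ∧ δ j = σ i * σ' j := by
  classical
  obtain ⟨φ, hφ, hκ⟩ := h.matching h' ι hA (card_of_conj ι hA)
  obtain ⟨χ₀, hχ₀⟩ := block_nonempty (isPrime_of_modular hM) hB
  refine ⟨fun η => if hη : η ∈ c then (φ ⟨η, hη⟩ : IrrCharacter G) else χ₀,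
    fun η => if hη : η ∈ c then σ (φ ⟨η, hη⟩) * σ' ⟨η, hη⟩ else 1, ?_, ?_⟩
  · refine perf_main hM κ κ' φ (fun j => σ (φ j) * σ' j) ?_ ι.toEquiv ?_ h.sect h'.sect h.reg
      h'.reg h.orth h'.orth _ ?_ _ ?_
    · intro j
      rcases h.sg (φ j) with h1 | h1 <;> rcases h'.sg j with h2 | h2 <;> rw [h1, h2] <;> norm_num
    · intro j v
      rw [hκ]
      push_cast
      rfl
    · intro j
      exact dif_pos j.2
    · intro j
      exact dif_pos j.2
  · intro j
    exact ⟨φ j, hφ j, dif_pos j.2⟩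

end Perf

section Main

variable {M : Ideal AlgInt} {G : Type u} [Group G] [Fintype G]
variable {p : ℕ} [hp : Fact p.Prime]

theorem mx_up [hPr : M.IsPrime] [hch : CharP (kM M) p] (hM : IsPModular p M)
    {B : Set (IrrCharacter G)} (hB : IsPBlock M B)
    {P : Subgroup G} (hPD : IsDefectGroup p M B P) {Z H : Subgroup G} (hZP : Z ≤ P)
    (hPH : P ≤ H) (hHN : H ≤ Subgroup.normalizer (Z : Set G))
    (hCH : Subgroup.centralizer (Z : Set G) ≤ H) {c : Set (IrrCharacter H)}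
    (hcD : IsDefectGroup p M c (P.subgroupOf H)) (hc : IsInducedBlock M H c B) :
    ∃ c₁, IsMx p H (bk M H.subtype c) P c₁ ∧ IsMx p ⊤ (JB M B) P c₁ := by
  have hcb := hc.1
  have hblk := h_blk (M := M) hcb
  have hdef : IsDef p H (bk M H.subtype c) P := (h_def' hM hcb hPH).1 hcD
  obtain ⟨c₁, hof⟩ := exists_of_br_ne hblk hPH hdef.pg hdef.br
  refine ⟨c₁, isMx_of_isDef hblk hdef hof, ?_⟩
  have hPp := hdef.pg
  have hC : CH H P = CH ⊤ P := by
    rw [CH_top]
    exact inf_eq_right.2 ((centralizer_anti hZP).trans hCH)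
  have h1 := ind_br hM (hPp.to_le hZP) (hZP.trans hPH) hHN hCH hc
  have hf1 : Fx P (Br Z (JB M B)) := fx_br (hPH.trans hHN) (fx_mono le_top (g_blk hB).zh.2)
  have hf2 : Fx P (bk M H.subtype c) := fx_mono hPH hblk.zh.2
  have h2 : Br P (JB M B) * Br P (bk M H.subtype c) = Br P (bk M H.subtype c) := by
    rw [← br_br hZP (JB M B), ← br_mul hPp hf1 hf2, h1]
  refine isMx_of_isDef (g_blk hB) ((g_def hM hB).1 hPD) ⟨⟨le_top, hPp, ?_⟩, ?_⟩
  · rw [← hC]; exact hof.1.blk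
  · have h3 := hof.2
    calc Br P (JB M B) * c₁ = Br P (JB M B) * (Br P (bk M H.subtype c) * c₁) := by rw [h3]
      _ = (Br P (JB M B) * Br P (bk M H.subtype c)) * c₁ := by rw [mul_assoc]
      _ = c₁ := by rw [h2, h3]

theorem s4635 (hM : IsPModular p M) {B : Set (IrrCharacter G)} (hB : IsPBlock M B)
    {P : Subgroup G} (hPD : IsDefectGroup p M B P) (hP1 : P ≠ ⊥) (hcyc : IsCyclic P)
    {Z : Subgroup G} (hZ : Z ≤ P) {H : Subgroup G}
    (hH : H = Subgroup.normalizer (Z : Set G)) {c : Set (IrrCharacter H)}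
    (hcD : IsDefectGroup p M c (P.subgroupOf H)) (hc : IsInducedBlock M H c B) :
    Nat.card c = Nat.card B ∧ blockRank p c = blockRank p B ∧
      ∃ (I : IrrCharacter H → IrrCharacter G) (ε : IrrCharacter H → ℤ),
        IsPerfectIsometry p M c B I ε := by
  classical
  haveI hPr : M.IsPrime := isPrime_of_modular hM
  haveI : M.IsMaximal := hM.2.1
  haveI := charP_kM hM
  haveI := Fintype.ofFinite P
  haveI := Fintype.ofFinite B
  haveI := Fintype.ofFinite H
  haveI := Fintype.ofFinite c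
  have hNH : Subgroup.normalizer (P : Set G) ≤ H := by rw [hH]; exact cyc_norm hcyc hZ
  have hPH : P ≤ H := Subgroup.le_normalizer.trans hNH
  have hHN : H ≤ Subgroup.normalizer (Z : Set G) := hH.le
  have hCH : Subgroup.centralizer (Z : Set G) ≤ H := by rw [hH]; exact centralizer_le_normalizer _
  obtain ⟨c₁, hmxH, hmxG⟩ := mx_up hM hB hPD hZ hPH hHN hCH hcD hc
  obtain ⟨hr1, he0, -, hA1, hn1, -, κ, Ys, y, σ, hcd⟩ := exists_cd hM hB hmxG hcyc hP1 rfl
  obtain ⟨c', hmx', hTS', -⟩ := rel_data2 hM (h_blk hc.1) hmxH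
  rw [bset_bk hc.1] at hmx'
  have hcyc' : IsCyclic (P.subgroupOf H) :=
    (Subgroup.subgroupOfEquivOfLe hPH).isCyclic.2 hcyc
  have hP1' : P.subgroupOf H ≠ ⊥ := by
    intro h
    apply hP1
    rw [Subgroup.subgroupOf_eq_bot] at h
    rw [eq_bot_iff]
    exact fun x hx => h.le_bot ⟨hx, hPH hx⟩
  haveI := Fintype.ofFinite (P.subgroupOf H)
  obtain ⟨hr2, he0', -, hA2, hn2, -, κ', Ys', y', σ', hcd'⟩ :=
    exists_cd hM hc.1 hmx' hcyc' hP1' rfl
  have hTSH : TS ⊤ P c₁ ≤ H := TS_le_normalizer.trans hNH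
  have hmemTS : ∀ x : H, x ∈ TS ⊤ (P.subgroupOf H) c' ↔ (x : G) ∈ TS ⊤ P c₁ := by
    intro x
    rw [hTS']
    exact ⟨fun h => ⟨Subgroup.mem_top _, h.2⟩, fun h => ⟨x.2, h.2⟩⟩
  have hA : ∀ α : MulAut P, α ∈ (actHom P (TS ⊤ P c₁) TS_le_normalizer).range ↔
      ((Subgroup.subgroupOfEquivOfLe hPH).trans
        (α.trans (Subgroup.subgroupOfEquivOfLe hPH).symm) : MulAut (P.subgroupOf H)) ∈
      (actHom (P.subgroupOf H) (TS ⊤ (P.subgroupOf H) c') TS_le_normalizer).range := by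
    intro α
    constructor
    · rintro ⟨⟨t, ht⟩, rfl⟩
      refine ⟨⟨⟨t, hTSH ht⟩, (hmemTS _).2 ht⟩, ?_⟩
      apply MulEquiv.ext
      intro v
      apply Subtype.ext
      apply Subtype.ext
      rfl
    · rintro ⟨⟨t, ht⟩, h1⟩
      refine ⟨⟨(t : G), (hmemTS t).1 ht⟩, ?_⟩
      apply MulEquiv.ext
      intro v
      have h2 := DFunLike.congr_fun h1 ((Subgroup.subgroupOfEquivOfLe hPH).symm v)
      have h3 := congrArg (fun z : P.subgroupOf H => ((z : H) : G)) h2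
      apply Subtype.ext
      exact h3
  have hAA := card_of_conj (Subgroup.subgroupOfEquivOfLe hPH) hA
  rw [hA1, hA2] at hAA
  have hPc : Nat.card (P.subgroupOf H) = Nat.card P :=
    Nat.card_congr (Subgroup.subgroupOfEquivOfLe hPH).toEquiv
  refine ⟨?_, ?_, ?_⟩
  · rw [Nat.card_eq_fintype_card, Nat.card_eq_fintype_card, hn1, hn2, hAA, hPc]
  · rw [hr1, hr2, hAA]
  · obtain ⟨I, δ, h1, -⟩ := perf_cd hM hB hcd hcd' (Subgroup.subgroupOfEquivOfLe hPH) hA
    exact ⟨I, δ, h1⟩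

end Main

end CfsgLib.Star
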