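import Mathlib
import Cfsg.Agent.EqBase
import Cfsg.Agent.LibStar66

/-!
# Star construction, LXVII: groups with a self-centralizing cyclic Sylow subgroup (helper18)
-/

set_option autoImplicit false
set_option linter.unusedSectionVars false
set_option linter.style.haveILetI false
set_option linter.unusedSimpArgs false
set_option linter.unusedVariables false

namespace CfsgLib.Star

open Cfsg CfsgLib.GalChar CfsgLib.GalField CfsgLib.BlockReg CfsgLib.BlockReg2 CfsgLib.LocR
  CfsgLib.BrP CfsgLib.Car CfsgLib.BlockQP CfsgLib.BlockDefect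
  CfsgLib.Points CfsgLib.PLocalInd CfsgLib.CharBasic CfsgLib.BlockCore CfsgLib.BlockSec
  CfsgLib.BlockR CfsgLib.BlockIdem CfsgLib.BlockOrth CfsgLib.CharIndA CfsgLib.CharNorm
open scoped ComplexConjugate Pointwise

universe u v

section Aut

variable {G : Type u} [Group G] [Finite G] {p : ℕ} [hp : Fact p.Prime]

theorem mulAut_comm {P : Subgroup G} (hcyc : IsCyclic P) (α β : MulAut P) : α * β = β * α := by
  apply (IsCyclic.mulAutMulEquiv P).injective
  rw [map_mul, map_mul, mul_comm]

/-- subgroups of order `e ∣ p - 1` of the automorphism group of a cyclic `p`-group -/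
theorem aut_char (P : Subgroup G) (hP : IsPGroup p P) (hcyc : IsCyclic P) (hP1 : P ≠ ⊥)
    {A : Subgroup (MulAut P)} {e : ℕ} (hA : Nat.card A = e) (he : e ∣ p - 1) (α : MulAut P) :
    α ∈ A ↔ α ^ e = 1 := by
  have he0 : 0 < e := by rw [← hA]; exact Nat.card_pos
  have hep : e < p := by
    have h1 := hp.out.one_lt
    have h2 := Nat.le_of_dvd (by omega) he
    omega
  let X : Subgroup (MulAut P) :=
    { carrier := {α | α ^ e = 1}
      mul_mem' := fun {a b} ha hb => by
        show (a * b) ^ e = 1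
        have h1 : Commute a b := mulAut_comm hcyc a b
        rw [h1.mul_pow]
        have ha' : a ^ e = 1 := ha
        have hb' : b ^ e = 1 := hb
        rw [ha', hb', one_mul]
      one_mem' := one_pow e
      inv_mem' := fun {a} ha => by
        show a⁻¹ ^ e = 1
        have ha' : a ^ e = 1 := ha
        rw [inv_pow, ha', inv_one] }
  have hX : ∀ β, β ∈ X ↔ β ^ e = 1 := fun β => Iff.rfl
  have hpX : ¬ p ∣ Nat.card X := by
    intro h
    obtain ⟨x, hx⟩ := exists_prime_orderOf_dvd_card' p h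
    have h1 : x ^ e = 1 := Subtype.ext ((hX x).1 x.2)
    have h2 := orderOf_dvd_of_pow_eq_one h1
    rw [hx] at h2
    exact absurd (Nat.le_of_dvd he0 h2) (by omega)
  obtain ⟨hXc, -, -⟩ := cyclic_aut P hP hcyc hP1 X hpX
  have hcardX : Nat.card X ≤ e := by
    obtain ⟨g, hg⟩ := hXc.exists_generator
    have h1 : g ^ e = 1 := Subtype.ext ((hX g).1 g.2)
    have h2 := orderOf_dvd_of_pow_eq_one h1
    rw [orderOf_eq_card_of_forall_mem_zpowers hg] at h2
    exact Nat.le_of_dvd he0 h2
  have hAX : A ≤ X := by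
    intro β hβ
    rw [hX]
    have h1 : (⟨β, hβ⟩ : A) ^ Nat.card A = 1 := pow_card_eq_one'
    rw [hA] at h1
    exact congrArg Subtype.val h1
  have h2 : A = X := Subgroup.eq_of_le_of_card_ge hAX (by rw [hA]; exact hcardX)
  rw [h2]
  exact hX α

end Aut

section Frob

variable {F : Type v} [Group F] [Finite F] {p : ℕ} [hp : Fact p.Prime]

theorem frob_normal {Q : Subgroup F} (hQp : IsPGroup p Q) {e : ℕ} (he : e ∣ p - 1)
    (hcard : Nat.card F = Nat.card Q * e) :
    Q.index = e ∧ Q.Normal ∧ ∀ D : Subgroup F, IsPGroup p D → D ≤ Q := by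
  have hind : Q.index = e := by
    apply Nat.eq_of_mul_eq_mul_left (Nat.card_pos (α := Q))
    rw [Subgroup.card_mul_index, hcard]
  have he0 : 0 < e := by
    rw [← hind]
    exact Nat.pos_of_ne_zero Subgroup.index_ne_zero_of_finite
  have hep : e < p := by
    have h1 := hp.out.one_lt
    have h2 := Nat.le_of_dvd (by omega) he
    omega
  have hpi : ¬ p ∣ Q.index := by
    rw [hind]
    intro h
    exact absurd (Nat.le_of_dvd he0 h) (by omega)
  let S : Sylow p F := hQp.toSylow hpi
  have hSQ : (S : Subgroup F) = Q := rfl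
  have h1 := card_sylow_modEq_one p F
  have h2 := Sylow.card_dvd_index S
  have h3 : Nat.card (Sylow p F) ∣ e := by
    have h4 : (S : Subgroup F).index = e := by rw [hSQ]; exact hind
    rwa [← h4]
  have h4 := Nat.le_of_dvd he0 h3
  have h5 : Nat.card (Sylow p F) = 1 := by
    have h6 : Nat.card (Sylow p F) % p = 1 % p := h1
    rw [Nat.mod_eq_of_lt (by omega), Nat.mod_eq_of_lt hp.out.one_lt] at h6
    exact h6
  have hsub : Subsingleton (Sylow p F) := (Nat.card_eq_one_iff_unique.1 h5).1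
  refine ⟨hind, ?_, fun D hD => ?_⟩
  · have := Sylow.normal_of_subsingleton S
    rwa [hSQ] at this
  · obtain ⟨S', hS'⟩ := hD.exists_le_sylow
    rw [Subsingleton.elim S' S] at hS'
    exact hS'

end Frob

section Data

variable {M : Ideal AlgInt} {F : Type v} [Group F] [Fintype F] {p : ℕ} [hp : Fact p.Prime]

theorem univ_block (hM : IsPModular p M) {Q : Subgroup F} [Q.Normal] (hQ : IsPGroup p Q)
    (hC : Subgroup.centralizer (Q : Set F) ≤ Q) :
    IsPBlock M (Set.univ : Set (IrrCharacter F)) := by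
  refine ⟨⟨_, isIrrCharacter_hom 1⟩, ?_⟩
  symm
  rw [Set.eq_univ_iff_forall]
  intro ψ
  exact CfsgLib.BlockCov3.one_block hM Q hQ hC _ ψ

variable [hPr : M.IsPrime] [hch : CharP (kM M) p]

/-- a `p`-group has one block -/
theorem blk_unique (hM : IsPModular p M) {C : Subgroup F} (hC : IsPGroup p C)
    {e e' : MonoidAlgebra (kM M) F} (he : IsBlk C e) (he' : IsBlk C e') : e = e' := by
  haveI := Fintype.ofFinite C
  obtain ⟨h1, h2⟩ := bset_spec (M := M) he
  obtain ⟨h3, h4⟩ := bset_spec (M := M) he'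
  have hu : IsPBlock M (Set.univ : Set (IrrCharacter C)) :=
    univ_block hM (Q := (⊤ : Subgroup C)) (hC.of_equiv Subgroup.topEquiv.symm) le_top
  have key : ∀ b : Set (IrrCharacter C), IsPBlock M b → b = Set.univ := by
    intro b hb
    obtain ⟨χ, hχ⟩ := block_nonempty hPr hb
    rw [block_eq_blockOf hPr hb hχ, block_eq_blockOf hPr hu (Set.mem_univ χ)]
  rw [← h2, ← h4, key _ h1, key _ h3]

/-- the maximal pair -/
theorem frob_mx (hM : IsPModular p M) {Q : Subgroup F} [hN : Q.Normal] (hQ : IsPGroup p Q)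
    (hC : Subgroup.centralizer (Q : Set F) = Q) (hmax : ∀ D : Subgroup F, IsPGroup p D → D ≤ Q) :
    ∃ c₁, IsMx p ⊤ (JB M (Set.univ : Set (IrrCharacter F))) Q c₁ ∧ TS ⊤ Q c₁ = ⊤ := by
  classical
  have hB := univ_block hM hQ hC.le
  have hblk := g_blk (M := M) hB
  obtain ⟨D, hD⟩ := exists_isDef (p := p) hblk
  have hDQ : D = Q := by
    apply Subgroup.eq_of_le_of_card_ge (hmax D hD.pg)
    have h1 := card_defectGroup hM hB ((g_def hM hB).2 hD)
    have h2 := CfsgLib.BlockM.degree_eq hM hB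
      (Set.mem_univ (⟨_, isIrrCharacter_hom 1⟩ : IrrCharacter F))
    have h3 : charDegree (((⟨_, isIrrCharacter_hom 1⟩ : IrrCharacter F)) : F → ℂ) = 1 := by
      unfold charDegree
      show ⌊((((1 : F →* ℂˣ) 1 : ℂˣ) : ℂ)).re⌋₊ = 1
      rw [MonoidHom.one_apply, Units.val_one, Complex.one_re, Nat.floor_one]
    rw [h3, Nat.factorization_one, Finsupp.zero_apply, zero_add] at h2
    obtain ⟨n, hn⟩ := IsPGroup.iff_card.1 hQ
    rw [h1, hn]
    apply Nat.pow_le_pow_right hp.out.pos
    have h4 : p ^ n ∣ Nat.card F := by rw [← hn]; exact Subgroup.card_subgroup_dvd_card Q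
    rw [Nat.Prime.pow_dvd_iff_le_factorization hp.out Nat.card_pos.ne'] at h4
    omega
  rw [hDQ] at hD
  obtain ⟨c₁, hof⟩ := exists_of_br_ne hblk le_top hD.pg hD.br
  refine ⟨c₁, isMx_of_isDef hblk hD hof, ?_⟩
  rw [eq_top_iff]
  intro x _
  have hx : x ∈ Subgroup.normalizer (Q : Set F) := by
    rw [Subgroup.normalizer_eq_top]; exact Subgroup.mem_top _
  refine ⟨Subgroup.mem_top _, hx, ?_⟩
  have h1 := hof.1.blk
  have h2 : IsBlk (cS x (CH ⊤ Q)) (CfsgLib.BrP.cj x c₁) := h1.cj x
  have h3 : cS x (CH ⊤ Q) = CH ⊤ Q := by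
    rw [CH_top, ← centralizer_cS, cS_of_normalizer hx]
  rw [h3] at h2
  refine blk_unique hM ?_ h2 h1
  rw [CH_top, hC]
  exact hQ

end Data

end CfsgLib.Star
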