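import Mathlib
import Cfsg.Agent.EqBase
import Cfsg.Agent.LibStar67

/-!
# Star construction, LXVIII: S4634 (helper18)
-/

set_option autoImplicit false
set_option linter.unusedSectionVars false
set_option linter.style.haveILetI false
set_option linter.unusedSimpArgs false
set_option linter.unusedVariables false

namespace CfsgLib.Star

open Cfsg CfsgLib.GalChar CfsgLib.GalField CfsgLib.BlockReg CfsgLib.BlockReg2 CfsgLib.LocR
  CfsgLib.BrP CfsgLib.Car CfsgLib.BlockQP CfsgLib.BlockDefect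
  CfsgLib.Points CfsgLib.PLocalInd CfsgLib.CharBasic CfsgLib.BlockCore CfsgLib.BlockSec
  CfsgLib.BlockR CfsgLib.BlockIdem CfsgLib.BlockOrth CfsgLib.CharIndA CfsgLib.CharNorm
open scoped ComplexConjugate Pointwise commutatorElement

universe u v

section Signs

variable {p : ℕ} [hp : Fact p.Prime] {M : Ideal AlgInt} {G : Type u} [Group G] [Fintype G]
  {P : Type*} [Group P] [Fintype P] {I : Type*} [Fintype I] {A : Subgroup (MulAut P)}
  {χ : I → IrrCharacter G} {κ : I → P → ℂ} {Ys : Finset I} {y : (P →* ℂˣ) → I} {σ : I → ℤ}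

theorem CD.sgY (h : CD p M A (fun i => (χ i : G → ℂ)) κ Ys y σ) {i k : I} (hi : i ∈ Ys)
    (hk : k ∈ Ys) : σ i = σ k ∧ ∀ g : G, ¬ p ∣ orderOf g → (χ i : G → ℂ) g = (χ k : G → ℂ) g := by
  have h0 : ∀ g : G, ¬ p ∣ orderOf g →
      (σ i : ℂ) * (χ i : G → ℂ) g = (σ k : ℂ) * (χ k : G → ℂ) g := by
    intro g hg
    have h1 := h.rel i hi g hg
    have h2 := h.rel k hk g hg
    linear_combination h1 - h2
  have h1 : σ i = σ k := by
    have h2 := h0 1 (by rw [orderOf_one]; exact hp.out.not_dvd_one)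
    obtain ⟨n, hn0, hn⟩ := irr_one_nat (χ i).2
    obtain ⟨n', hn0', hn'⟩ := irr_one_nat (χ k).2
    rw [hn, hn'] at h2
    have h4 : σ i * (n : ℤ) = σ k * (n' : ℤ) := by exact_mod_cast h2
    rcases h.sg i with h5 | h5 <;> rcases h.sg k with h6 | h6
    · rw [h5, h6]
    · exfalso; rw [h5, h6] at h4; omega
    · exfalso; rw [h5, h6] at h4; omega
    · rw [h5, h6]
  refine ⟨h1, fun g hg => ?_⟩
  have h2 := h0 g hg
  rw [h1] at h2
  have h3 : (σ k : ℂ) ≠ 0 := by
    rcases h.sg k with h5 | h5 <;> rw [h5] <;> norm_num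
  exact mul_left_cancel₀ h3 h2

theorem CD.sgX (h : CD p M A (fun i => (χ i : G → ℂ)) κ Ys y σ) (hcard : Nat.card A = 1)
    {i k : I} (hi : i ∈ Ys) (hk : k ∉ Ys) : σ k = -σ i := by
  classical
  have hc := h.cX
  rw [hcard] at hc
  have huniq : ∀ l, l ∉ Ys → l = k := by
    intro l hl
    by_contra hne
    have h1 : (insert l (insert k Ys)).card = Ys.card + 1 + 1 := by
      rw [Finset.card_insert_of_notMem, Finset.card_insert_of_notMem hk]
      rw [Finset.mem_insert, not_or]
      exact ⟨hne, hl⟩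
    have h2 := Finset.card_le_univ (insert l (insert k Ys))
    omega
  have h1 := h.rel i hi 1 (by rw [orderOf_one]; exact hp.out.not_dvd_one)
  rw [Finset.sum_eq_single k] at h1
  · rw [if_neg hk] at h1
    obtain ⟨n, hn0, hn⟩ := irr_one_nat (χ i).2
    obtain ⟨n', hn0', hn'⟩ := irr_one_nat (χ k).2
    rw [hn, hn'] at h1
    have h4 : σ i * (n : ℤ) + σ k * (n' : ℤ) = 0 := by exact_mod_cast h1
    rcases h.sg i with h5 | h5 <;> rcases h.sg k with h6 | h6
    · exfalso; rw [h5, h6] at h4; omega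
    · rw [h5, h6]
    · rw [h5, h6]; norm_num
    · exfalso; rw [h5, h6] at h4; omega
  · intro l _ hl
    by_cases hlY : l ∈ Ys
    · exact if_pos hlY
    · exact absurd (huniq l hlY) hl
  · intro h2; exact absurd (Finset.mem_univ _) h2

end Signs

section Lin

variable {F : Type v} [Group F] [Fintype F] {p : ℕ} [hp : Fact p.Prime]

theorem comm_le {Q : Subgroup F} [hN : Q.Normal] (hcyc : IsCyclic Q)
    (hC : Subgroup.centralizer (Q : Set F) = Q) : commutator F ≤ Q := by
  rw [commutator_def, Subgroup.commutator_le]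
  intro a _ b _
  have h1 : (MulAut.conjNormal (H := Q) ⁅a, b⁆) = 1 := by
    rw [map_commutatorElement, commutatorElement_eq_one_iff_mul_comm]
    exact mulAut_comm hcyc _ _
  have h2 : ⁅a, b⁆ ∈ Subgroup.centralizer (Q : Set F) := by
    rw [Subgroup.mem_centralizer_iff]
    intro x hx
    have h3 : ((MulAut.conjNormal (H := Q) ⁅a, b⁆ ⟨x, hx⟩ : Q) : F) = x := by rw [h1]; rfl
    rw [MulAut.conjNormal_apply] at h3
    have h4 : ⁅a, b⁆ * x * ⁅a, b⁆⁻¹ = x := h3
    calc x * ⁅a, b⁆ = (⁅a, b⁆ * x * ⁅a, b⁆⁻¹) * ⁅a, b⁆ := by rw [h4]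
      _ = ⁅a, b⁆ * x := by group
  rwa [hC] at h2

/-- the linear characters, as irreducible characters -/
noncomputable def lin (f : F →* ℂˣ) : IrrCharacter F := ⟨fun g => (f g : ℂ), isIrrCharacter_hom f⟩

theorem lin_apply (f : F →* ℂˣ) (g : F) : (lin f : F → ℂ) g = ((f g : ℂˣ) : ℂ) := rfl

theorem lin_inj : Function.Injective (lin : (F →* ℂˣ) → IrrCharacter F) := by
  intro f g h
  exact hom_ext_fun (congrArg Subtype.val h)

/-- linear characters restrict trivially to `Q` if there is a nontrivial fixed point free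
automorphism -/
theorem hom_trivial {Q : Subgroup F} (hab : ∀ x ∈ Q, ∀ y ∈ Q, x * y = y * x)
    {T : Subgroup F} (hT : T ≤ Subgroup.normalizer (Q : Set F)) {α : MulAut Q}
    (hα : α ∈ (actHom Q T hT).range) (hfree : ∀ v : Q, v ≠ 1 → α v ≠ v) (f : F →* ℂˣ) :
    ∀ x ∈ Q, f x = 1 := by
  haveI := Fintype.ofFinite Q
  obtain ⟨t, rfl⟩ := hα
  have h1 : KD.dualAct (f.comp Q.subtype) (actHom Q T hT t) = f.comp Q.subtype := by
    apply MonoidHom.ext
    intro v
    rw [KD.dualAct_apply]
    show f ((actHom Q T hT t v : Q) : F) = f (v : F)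
    rw [actHom_apply, map_mul, map_mul, map_inv, mul_comm (f (t : F)), mul_inv_cancel_right]
  have h2 := KD.dual_free (fun x y => Subtype.ext (hab x x.2 y y.2)) hfree h1
  intro x hx
  have h3 := DFunLike.congr_fun h2 ⟨x, hx⟩
  exact h3

theorem hom_ext_reg {Q : Subgroup F} (hmax : ∀ D : Subgroup F, IsPGroup p D → D ≤ Q)
    {f f' : F →* ℂˣ} (hf : ∀ x ∈ Q, f x = 1) (hf' : ∀ x ∈ Q, f' x = 1)
    (h : ∀ g : F, ¬ p ∣ orderOf g → f g = f' g) : f = f' := by
  apply MonoidHom.ext
  intro g
  obtain ⟨u, s, rfl, hus, hu, hs⟩ := exists_us (p := p) g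
  have huQ : u ∈ Q := hmax _ (isPGroup_zp hu) (Subgroup.mem_zpowers u)
  rw [map_mul, map_mul, hf u huQ, hf' u huQ, h s hs]

end Lin

section Main

variable {p : ℕ} [hp : Fact p.Prime] {M : Ideal AlgInt} {G : Type u} [Group G] [Fintype G]
  {F : Type v} [Group F] [Fintype F]

theorem s4634 (hM : IsPModular p M) {B : Set (IrrCharacter G)} (hB : IsPBlock M B)
    {P : Subgroup G} (hPD : IsDefectGroup p M B P) (hP1 : P ≠ ⊥) (hcyc : IsCyclic P)
    {c : Set (IrrCharacter (Subgroup.centralizer (P : Set G)))}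
    (hc : IsInducedBlock M (Subgroup.centralizer (P : Set G)) c B)
    {T : Subgroup G} (hT : ∀ g : G, g ∈ T ↔ (g ∈ Subgroup.normalizer (P : Set G) ∧
      StabilizesBlock (Subgroup.centralizer (P : Set G)) c g))
    {e : ℕ} (he : (Subgroup.centralizer (P : Set G)).relIndex T = e)
    (hF : Nat.card F = Nat.card P * e) {Q : Subgroup F} (hQ : IsCyclic Q)
    (hQcard : Nat.card Q = Nat.card P) (hQC : Subgroup.centralizer (Q : Set F) = Q) :
    ∃ (I : IrrCharacter F → IrrCharacter G) (ε : IrrCharacter F → ℤ),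
      IsPerfectIsometry p M (Set.univ : Set (IrrCharacter F)) B I ε ∧
      ∀ η η' : IrrCharacter F, (∃ x ∈ Q, (η : F → ℂ) x ≠ (η : F → ℂ) 1) →
        (∃ x ∈ Q, (η' : F → ℂ) x ≠ (η' : F → ℂ) 1) → ε η = ε η' := by
  classical
  haveI hPr : M.IsPrime := isPrime_of_modular hM
  haveI : M.IsMaximal := hM.2.1
  haveI := charP_kM hM
  haveI := Fintype.ofFinite P
  haveI := Fintype.ofFinite B
  haveI := Fintype.ofFinite Q
  haveI : Fintype (Set.univ : Set (IrrCharacter F)) := Fintype.ofFinite _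
  -- the group `G`
  have hab := cyc_comm hcyc
  have hmx := ab_mx hM hB hPD hab hc
  have hTS := ab_TS hM hc.1 hT
  have hPp : IsPGroup p P := hmx.1.1.pg
  obtain ⟨-, he0, hep, hA1, -, hq, κ, Ys, y, σ, hcd⟩ := exists_cd hM hB hmx hcyc hP1
    (e := e) (by rw [← hTS]; exact he)
  -- the group `F`
  obtain ⟨n, hn⟩ := IsPGroup.iff_card.1 hPp
  have hQp : IsPGroup p Q := IsPGroup.of_card (by rw [hQcard, hn])
  obtain ⟨hind, hQN, hmax⟩ := frob_normal hQp hep (by rw [hQcard]; exact hF)
  haveI := hQN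
  have hQ1 : Q ≠ ⊥ := by
    rintro rfl
    rw [Subgroup.card_bot] at hQcard
    exact hP1 (Subgroup.card_eq_one.1 hQcard.symm)
  have habQ := cyc_comm hQ
  obtain ⟨c₁, hmxF, hTSF⟩ := frob_mx hM hQp hQC hmax
  have hBF := univ_block hM hQp hQC.le
  obtain ⟨-, -, -, hA2, hn2, hq2, κ', Ys', y', σ', hcd'⟩ := exists_cd hM hBF hmxF hQ hQ1
    (e := e) (by rw [hTSF, hQC, Subgroup.relIndex_top_right]; exact hind)
  -- the automorphisms
  let ι : Q ≃* P := mulEquivOfCyclicCardEq hQcard
  have hA : ∀ α : MulAut P,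
      α ∈ (actHom P (TS ⊤ P (J M P c)) TS_le_normalizer).range ↔
      (ι.trans (α.trans ι.symm) : MulAut Q) ∈
        (actHom Q (TS ⊤ Q c₁) TS_le_normalizer).range := by
    intro α
    rw [aut_char P hPp hcyc hP1 hA1 hep, aut_char Q hQp hQ hQ1 hA2 hep]
    have h1 : (ι.trans (α.trans ι.symm) : MulAut Q) = MulAut.congr ι.symm α := rfl
    rw [h1, ← map_pow]
    constructor
    · intro h; rw [h, map_one]
    · intro h
      exact (MulAut.congr ι.symm).injective (by rw [h, map_one])
  obtain ⟨I, δ, hI, hδ⟩ := perf_cd hM hB hcd hcd' ι hA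
  refine ⟨I, δ, hI, ?_⟩
  -- the signs
  obtain ⟨t, ht⟩ : ∃ t, t = (Nat.card Q - 1) / e := ⟨_, rfl⟩
  have hcY := hcd.cY
  have hcY' := hcd'.cY
  rw [hA1, ← hQcard, ← ht] at hcY
  rw [hA2, ← ht] at hcY'
  rw [← ht] at hq2 hn2
  have ht0 : 0 < t := by
    rcases Nat.eq_zero_or_pos t with h | h
    · rw [h, mul_zero] at hq2
      have h1 : 0 < Nat.card Q := Nat.card_pos
      have h2 : Nat.card Q ≠ 1 := fun h => hQ1 (Subgroup.card_eq_one.1 h)
      omega
    · exact h
  obtain ⟨i₀, hi₀⟩ : Ys.Nonempty := Finset.card_pos.1 (by rw [hcY]; exact ht0)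
  obtain ⟨j₀, hj₀⟩ : Ys'.Nonempty := Finset.card_pos.1 (by rw [hcY']; exact ht0)
  have hYval : ∀ j : (Set.univ : Set (IrrCharacter F)), j ∈ Ys' → δ j = σ i₀ * σ' j₀ := by
    intro j hj
    obtain ⟨i, hi, hd⟩ := hδ j
    rw [hd, (CD.sgY (χ := fun i : B => (i : IrrCharacter G)) hcd (hi.2 hj) hi₀).1,
      (CD.sgY (χ := fun i : (Set.univ : Set (IrrCharacter F)) => (i : IrrCharacter F))
        hcd' hj hj₀).1]
  intro η η' hη hη'
  by_cases he1 : e = 1
  · -- all signs agree
    have hall : ∀ j : (Set.univ : Set (IrrCharacter F)), δ j = σ i₀ * σ' j₀ := by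
      intro j
      by_cases hj : j ∈ Ys'
      · exact hYval j hj
      · obtain ⟨i, hi, hd⟩ := hδ j
        have hi' : i ∉ Ys := fun h => hj (hi.1 h)
        rw [hd, CD.sgX (χ := fun i : B => (i : IrrCharacter G)) hcd (by rw [hA1, he1]) hi₀ hi',
          CD.sgX (χ := fun i : (Set.univ : Set (IrrCharacter F)) => (i : IrrCharacter F))
            hcd' (by rw [hA2, he1]) hj₀ hj]
        ring
    exact (hall ⟨η, Set.mem_univ _⟩).trans (hall ⟨η', Set.mem_univ _⟩).symm
  · have he2 : 2 ≤ e := by omega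
    -- linear characters
    obtain ⟨-, -, hfree⟩ := cyclic_aut Q hQp hQ hQ1 (actHom Q (TS ⊤ Q c₁) TS_le_normalizer).range
      (by
        rw [hA2]
        intro h
        have h1 := Nat.le_of_dvd he0 h
        have h2 := Nat.le_of_dvd (by have := hp.out.one_lt; omega) hep
        have := hp.out.one_lt
        omega)
    obtain ⟨α, hα1⟩ : ∃ α : (actHom Q (TS ⊤ Q c₁) TS_le_normalizer).range, α ≠ 1 := by
      by_contra hcon
      push Not at hcon
      have h1 : Nat.card (actHom Q (TS ⊤ Q c₁) TS_le_normalizer).range = 1 :=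
        Nat.card_eq_one_iff_exists.2 ⟨1, hcon⟩
      omega
    have htriv : ∀ f : F →* ℂˣ, ∀ x ∈ Q, f x = 1 := by
      intro f
      refine hom_trivial habQ TS_le_normalizer α.2 (fun v hv h => hα1 ?_) f
      exact Subtype.ext (hfree α α.2 v hv h)
    haveI : Finite (F →* ℂˣ) := finite_hom
    haveI := Fintype.ofFinite (F →* ℂˣ)
    let L : Finset (Set.univ : Set (IrrCharacter F)) :=
      Finset.univ.image (fun f : F →* ℂˣ => ⟨lin f, Set.mem_univ _⟩)
    have hLc : e ≤ L.card := by
      rw [Finset.card_image_of_injective _ (fun f g h => lin_inj (congrArg Subtype.val h)),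
        Finset.card_univ, ← Nat.card_eq_fintype_card, card_hom, ← hind]
      exact Subgroup.index_antitone (comm_le hQ hQC)
    have hnL : ∀ j : (Set.univ : Set (IrrCharacter F)),
        (∃ x ∈ Q, ((j : IrrCharacter F) : F → ℂ) x ≠ ((j : IrrCharacter F) : F → ℂ) 1) →
        j ∉ L := by
      rintro j ⟨x, hx, hne⟩ hj
      obtain ⟨f, -, rfl⟩ := Finset.mem_image.1 hj
      apply hne
      show ((f x : ℂˣ) : ℂ) = ((f 1 : ℂˣ) : ℂ)
      rw [htriv f x hx, map_one]
    have h1 := hnL ⟨η, Set.mem_univ _⟩ hη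
    have h2 := hnL ⟨η', Set.mem_univ _⟩ hη'
    by_cases ht1 : t = 1
    · -- only one nonlinear character
      have hee : (⟨η, Set.mem_univ _⟩ : (Set.univ : Set (IrrCharacter F))) =
          ⟨η', Set.mem_univ _⟩ := by
        by_contra hne
        have h3 : (insert (⟨η, Set.mem_univ _⟩ : (Set.univ : Set (IrrCharacter F)))
            (insert ⟨η', Set.mem_univ _⟩ L)).card = L.card + 1 + 1 := by
          rw [Finset.card_insert_of_notMem, Finset.card_insert_of_notMem h2]
          rw [Finset.mem_insert, not_or]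
          exact ⟨hne, h1⟩
        have h4 := Finset.card_le_univ (insert (⟨η, Set.mem_univ _⟩ :
          (Set.univ : Set (IrrCharacter F))) (insert ⟨η', Set.mem_univ _⟩ L))
        omega
      have hee' : η = η' := congrArg Subtype.val hee
      rw [hee']
    · -- the characters outside `Ys'` are linear
      have hXL : ∀ j, j ∉ L → j ∈ Ys' := by
        intro j hjL
        by_contra hjY
        have h3 : ∃ k ∈ L, k ∈ Ys' := by
          by_contra hcon
          push Not at hcon
          have h4 : Disjoint (insert j L) Ys' := by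
            rw [Finset.disjoint_insert_left, Finset.disjoint_left]
            exact ⟨hjY, hcon⟩
          have h5 := Finset.card_le_univ (insert j L ∪ Ys')
          rw [Finset.card_union_of_disjoint h4, Finset.card_insert_of_notMem hjL] at h5
          omega
        obtain ⟨k, hkL, hkY⟩ := h3
        obtain ⟨k', hk'Y, hkk'⟩ : ∃ k' ∈ Ys', k' ≠ k := by
          apply Finset.exists_mem_ne
          omega
        obtain ⟨f, -, hf⟩ := Finset.mem_image.1 hkL
        have h4 := (CD.sgY (χ := fun i : (Set.univ : Set (IrrCharacter F)) =>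
          (i : IrrCharacter F)) hcd' hk'Y hkY).2
        have h5 : ((k' : IrrCharacter F) : F → ℂ) 1 = 1 := by
          rw [h4 1 (by rw [orderOf_one]; exact hp.out.not_dvd_one), ← hf]
          show ((f 1 : ℂˣ) : ℂ) = 1
          rw [map_one, Units.val_one]
        obtain ⟨f', hf'⟩ := exists_hom_of_linear (irr_isCharacter (k' : IrrCharacter F).2) h5
        have h6 : f' = f := by
          refine hom_ext_reg hmax (htriv f') (htriv f) (fun g hg => ?_)
          apply Units.ext
          rw [← hf' g, h4 g hg, ← hf]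
          rfl
        apply hkk'
        apply Subtype.ext
        apply Subtype.ext
        funext g
        rw [hf' g, h6, ← hf]
        rfl
      exact (hYval _ (hXL _ h1)).trans (hYval _ (hXL _ h2)).symm

end Main

end CfsgLib.Star
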