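import Mathlib
import Cfsg.Agent.EqBase
import Cfsg.Agent.LibStar68

/-!
# Star construction, LXIX: free inertial quotients with abelian defect groups (helper18)
-/

set_option autoImplicit false
set_option linter.unusedSectionVars false
set_option linter.style.haveILetI false
set_option linter.unusedSimpArgs false
set_option linter.unusedVariables false

namespace CfsgLib.Star

open Cfsg CfsgLib.GalChar CfsgLib.GalField CfsgLib.BlockReg CfsgLib.BlockReg2 CfsgLib.LocR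
  CfsgLib.BrP CfsgLib.Car CfsgLib.BlockQP CfsgLib.BlockDefect
  CfsgLib.Points CfsgLib.PLocalInd CfsgLib.CharBasic CfsgLib.BlockCore CfsgLib.BlockSec
  CfsgLib.BlockR CfsgLib.BlockIdem CfsgLib.BlockOrth CfsgLib.CharIndA CfsgLib.CharNorm
open scoped ComplexConjugate Pointwise

universe u v

section Free

variable {M : Ideal AlgInt} [hPr : M.IsPrime] {G : Type u} [Group G] [Fintype G]
variable {p : ℕ} [hp : Fact p.Prime] [hch : CharP (kM M) p] [hMx : M.IsMaximal]
variable {B : Set (IrrCharacter G)} {P : Subgroup G} [Fintype P] {c : MonoidAlgebra (kM M) G}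

theorem free_rk (hM : IsPModular p M) (hB : IsPBlock M B) (hmx : IsMx p ⊤ (JB M B) P c)
    (hab : ∀ x ∈ P, ∀ y ∈ P, x * y = y * x)
    (hfree : ∀ x ∈ TS ⊤ P c, ∀ v ∈ P, v ≠ 1 → x * v * x⁻¹ = v →
      x ∈ Subgroup.centralizer (P : Set G)) :
    ∀ v ∈ P, v ≠ 1 →
      blockRank p (bset M (CH ⊤ (Subgroup.zpowers v)) (ev p P c v)) = 1 := by
  intro v hv hv1
  refine rank_local hM (g_blk hB) hmx hab hv fun x hx hxC => ?_
  refine hfree x hx v hv hv1 ?_
  rw [comm_of_C hxC, mul_inv_cancel_right]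

theorem free_AA (hM : IsPModular p M) (hB : IsPBlock M B) (hmx : IsMx p ⊤ (JB M B) P c)
    (hab : ∀ x ∈ P, ∀ y ∈ P, x * y = y * x)
    (hfree : ∀ x ∈ TS ⊤ P c, ∀ v ∈ P, v ≠ 1 → x * v * x⁻¹ = v →
      x ∈ Subgroup.centralizer (P : Set G)) :
    ∀ v ∈ P, v ≠ 1 → ((AA p P c v (ev p P c v)).card : ℂ) =
      Nat.card (actHom P (TS ⊤ P c) TS_le_normalizer).range *
        (Nat.card (CH ⊤ (Subgroup.zpowers v)) : ℂ) := by
  have hblk := g_blk (M := M) hB
  have hTN : TS ⊤ P c ≤ Subgroup.normalizer (P : Set G) := TS_le_normalizer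
  have hrel := relIndex_act hTN
  obtain ⟨e, he⟩ : ∃ e, e = Nat.card (actHom P (TS ⊤ P c) TS_le_normalizer).range := ⟨_, rfl⟩
  rw [← he]
  have hCPT : Subgroup.centralizer (P : Set G) ≤ TS ⊤ P c := by
    have h := CH_le_TS hmx.1.1
    rwa [CH_top] at h
  have hcT : Nat.card (TS ⊤ P c) = e * Nat.card (Subgroup.centralizer (P : Set G)) := by
    rw [he, ← hrel, Subgroup.relIndex, mul_comm,
      ← Nat.card_congr (Subgroup.subgroupOfEquivOfLe hCPT).toEquiv]
    exact (Subgroup.card_mul_index _).symm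
  have hinter : ∀ v ∈ P, v ≠ 1 → TS ⊤ P c ⊓ CH ⊤ (Subgroup.zpowers v) =
      Subgroup.centralizer (P : Set G) := by
    intro v hv hv1
    apply le_antisymm
    · rintro x ⟨h1, h2⟩
      refine hfree x h1 v hv hv1 ?_
      rw [comm_of_C h2, mul_inv_cancel_right]
    · refine le_inf hCPT ?_
      rw [CH_top]
      exact centralizer_anti (by rw [Subgroup.zpowers_le]; exact hv)
  intro v hv hv1
  have h1 := AA_abel hblk hmx hab hv
  rw [hinter v hv hv1, hcT] at h1
  have h2 : (AA p P c v (ev p P c v)).card = e * Nat.card (CH ⊤ (Subgroup.zpowers v)) := by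
    apply Nat.eq_of_mul_eq_mul_right (Nat.card_pos (α := Subgroup.centralizer (P : Set G)))
    rw [h1]; ring
  rw [h2]; push_cast; ring

/-- contributions in terms of `kap` -/
theorem free_GG (hM : IsPModular p M) (hB : IsPBlock M B) (hmx : IsMx p ⊤ (JB M B) P c)
    (hab : ∀ x ∈ P, ∀ y ∈ P, x * y = y * x)
    (hfree : ∀ x ∈ TS ⊤ P c, ∀ v ∈ P, v ≠ 1 → x * v * x⁻¹ = v →
      x ∈ Subgroup.centralizer (P : Set G)) (χ ψ : G → ℂ) (v : P) (hv : v ≠ 1) :
    GG p P c χ ψ v = (Nat.card (actHom P (TS ⊤ P c) TS_le_normalizer).range : ℂ)⁻¹ *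
      kap p P c ψ χ v := by
  have hv1 : (v : G) ≠ 1 := fun h => hv (Subtype.ext h)
  unfold GG kap
  rw [free_AA hM hB hmx hab hfree v v.2 hv1]
  have h1 : (Nat.card (CH ⊤ (Subgroup.zpowers (v : G))) : ℂ) ≠ 0 := by
    exact_mod_cast Nat.card_pos.ne'
  have h2 : (Nat.card (actHom P (TS ⊤ P c) TS_le_normalizer).range : ℂ) ≠ 0 := by
    exact_mod_cast Nat.card_pos.ne'
  field_simp

theorem free_count (hM : IsPModular p M) (hB : IsPBlock M B) (hmx : IsMx p ⊤ (JB M B) P c)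
    (hab : ∀ x ∈ P, ∀ y ∈ P, x * y = y * x)
    (hfree : ∀ x ∈ TS ⊤ P c, ∀ v ∈ P, v ≠ 1 → x * v * x⁻¹ = v →
      x ∈ Subgroup.centralizer (P : Set G)) :
    Nat.card B * Nat.card (actHom P (TS ⊤ P c) TS_le_normalizer).range =
      blockRank p B * Nat.card (actHom P (TS ⊤ P c) TS_le_normalizer).range +
        (Nat.card P - 1) := by
  classical
  obtain ⟨e, he⟩ : ∃ e, e = Nat.card (actHom P (TS ⊤ P c) TS_le_normalizer).range := ⟨_, rfl⟩
  have he0 : (e : ℂ) ≠ 0 := by rw [he]; exact_mod_cast Nat.card_pos.ne'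
  have hwt : ∀ v : P, v ≠ 1 → wt p P c (v : G) = 1 / (e : ℂ) := by
    intro v hv1
    have hv1' : (v : G) ≠ 1 := fun h => hv1 (Subtype.ext h)
    unfold wt
    rw [free_rk hM hB hmx hab hfree v v.2 hv1', free_AA hM hB hmx hab hfree v v.2 hv1',
      Nat.cast_one, mul_one, ← he]
    have : (Nat.card (CH ⊤ (Subgroup.zpowers (v : G))) : ℂ) ≠ 0 := by
      exact_mod_cast Nat.card_pos.ne'
    field_simp
  have h1 := card_formula hM hB hmx
  rw [← Finset.add_sum_erase Finset.univ _ (Finset.mem_univ (1 : P)),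
    Finset.sum_congr rfl (fun v hv => hwt v (Finset.ne_of_mem_erase hv)), Finset.sum_const,
    Finset.card_erase_of_mem (Finset.mem_univ _), Finset.card_univ,
    ← Nat.card_eq_fintype_card (α := P)] at h1
  have h2 : wt p P c ((1 : P) : G) = blockRank p B := wt_one hB hmx
  rw [h2, nsmul_eq_mul] at h1
  rw [← he]
  have h3 : (Nat.card B : ℂ) * e = blockRank p B * e + ((Nat.card P - 1 : ℕ) : ℂ) := by
    rw [h1]; field_simp
  exact_mod_cast h3

open Classical in
/-- decomposition data from a reference character -/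
theorem exists_kd2 (hM : IsPModular p M) (hB : IsPBlock M B) (hmx : IsMx p ⊤ (JB M B) P c)
    (hab : ∀ x ∈ P, ∀ y ∈ P, x * y = y * x) (hP1 : P ≠ ⊥)
    (hfree : ∀ x ∈ TS ⊤ P c, ∀ v ∈ P, v ≠ 1 → x * v * x⁻¹ = v →
      x ∈ Subgroup.centralizer (P : Set G)) [Fintype B] {Θ : G → ℂ}
    (hΘ1 : ∀ v ∈ P, v ≠ 1 → ∀ χ : G → ℂ, IsClassFunction G χ → ∀ s, pp p (v * s) = v →
        dv M v (ev p P c v) χ s = kap p P c Θ χ v * dv M v (ev p P c v) Θ s)
    (hΘ2 : ∀ v ∈ P, v ≠ 1 → (Nat.card P : ℂ) * WW p M v (ev p P c v) Θ Θ =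
        Nat.card (CH ⊤ (Subgroup.zpowers v)))
    (hΘ3 : ∀ x ∈ TS ⊤ P c, ∀ v ∈ P, v ≠ 1 → ∀ s, pp p (v * s) = v →
        dv M (x * v * x⁻¹) (ev p P c (x * v * x⁻¹)) Θ (x * s * x⁻¹) =
          dv M v (ev p P c v) Θ s)
    (hΘ4 : ∀ (f : P →* ℂˣ) (i : B), ∃ n : ℤ,
        (Nat.card P : ℂ)⁻¹ * ∑ v : P, (((f v : ℂˣ) : ℂ) - 1) *
          conj (if (v : G) = 1 then 0 else kap p P c Θ ((i : IrrCharacter G) : G → ℂ) v) = n) :
    KD (actHom P (TS ⊤ P c) TS_le_normalizer).range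
      (fun (i : B) (v : P) => if (v : G) = 1 then 0 else
        kap p P c Θ ((i : IrrCharacter G) : G → ℂ) (v : G))
      (fun i j : B => mm p B i j) := by
  have hblk := g_blk (M := M) hB
  have hPc := hmx.1.1
  have hTN : TS ⊤ P c ≤ Subgroup.normalizer (P : Set G) := TS_le_normalizer
  obtain ⟨e, he⟩ : ∃ e, e = Nat.card (actHom P (TS ⊤ P c) TS_le_normalizer).range := ⟨_, rfl⟩
  have he0 : (e : ℂ) ≠ 0 := by rw [he]; exact_mod_cast Nat.card_pos.ne'
  have hP0 : (Nat.card P : ℂ) ≠ 0 := by exact_mod_cast Nat.card_pos.ne'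
  have hAA := free_AA hM hB hmx hab hfree
  rw [← he] at hAA
  have hC0 : ∀ v : G, (Nat.card (CH ⊤ (Subgroup.zpowers v)) : ℂ) ≠ 0 := fun v => by
    exact_mod_cast Nat.card_pos.ne'
  have hWW : ∀ v ∈ P, v ≠ 1 → ∀ χ ψ : G → ℂ, IsClassFunction G χ → IsClassFunction G ψ →
      (Nat.card P : ℂ) * WW p M v (ev p P c v) χ ψ = kap p P c Θ χ v * conj (kap p P c Θ ψ v) *
        Nat.card (CH ⊤ (Subgroup.zpowers v)) := by
    intro v hv hv1 χ ψ hχ hψ
    rw [← hΘ2 v hv hv1]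
    have h1 : WW p M v (ev p P c v) χ ψ = kap p P c Θ χ v * conj (kap p P c Θ ψ v) *
        WW p M v (ev p P c v) Θ Θ := by
      unfold WW
      rw [Finset.mul_sum]
      refine Finset.sum_congr rfl fun s _ => ?_
      split_ifs with hs
      · rw [hΘ1 v hv hv1 χ hχ s hs, hΘ1 v hv hv1 ψ hψ s hs, map_mul]; ring
      · rw [mul_zero]
    rw [h1]; ring
  have hex : ∀ v ∈ P, v ≠ 1 → ∃ s, pp p (v * s) = v ∧ dv M v (ev p P c v) Θ s ≠ 0 := by
    intro v hv hv1
    by_contra hcon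
    push Not at hcon
    have h1 := hΘ2 v hv hv1
    have h2 : WW p M v (ev p P c v) Θ Θ = 0 := by
      unfold WW
      refine Finset.sum_eq_zero fun s _ => ?_
      split_ifs with hs
      · rw [hcon s hs, zero_mul]
      · rfl
    rw [h2, mul_zero] at h1
    exact hC0 v h1.symm
  have hev : ∀ x ∈ TS ⊤ P c, ∀ v ∈ P, ev p P c (x * v * x⁻¹) = cj x (ev p P c v) := by
    intro x hx v hv
    symm
    apply ev_unique hPc
    have h7 := (ev_spec hPc hv).cj' (Subgroup.mem_top x)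
    simp only [cS_of_normalizer hx.2.1, hx.2.2, cS_zpowers] at h7
    exact h7
  have hTSP : ∀ x ∈ TS ⊤ P c, ∀ v ∈ P, x * v * x⁻¹ ∈ P := fun x hx v hv =>
    (Subgroup.mem_normalizer_iff.1 hx.2.1 v).1 hv
  have hne1 : ∀ (x v : G), v ≠ 1 → x * v * x⁻¹ ≠ 1 := by
    intro x v hv h
    apply hv
    have : v = x⁻¹ * (x * v * x⁻¹) * x := by group
    rw [this, h]; group
  have hkinv : ∀ x ∈ TS ⊤ P c, ∀ v ∈ P, v ≠ 1 → ∀ χ : G → ℂ, IsClassFunction G χ →
      kap p P c Θ χ (x * v * x⁻¹) = kap p P c Θ χ v := by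
    intro x hx v hv hv1 χ hχ
    obtain ⟨s, hs, hne⟩ := hex v hv hv1
    have hs' : pp p (x * v * x⁻¹ * (x * s * x⁻¹)) = x * v * x⁻¹ := by
      have e1 : x * v * x⁻¹ * (x * s * x⁻¹) = x * (v * s) * x⁻¹ := by group
      rw [e1, pp_conj, hs]
    have h1 := hΘ1 _ (hTSP x hx v hv) (hne1 x v hv1) χ hχ _ hs'
    have h2 := hΘ1 v hv hv1 χ hχ s hs
    rw [hΘ3 x hx v hv hv1 s hs] at h1
    have h3 : dv M (x * v * x⁻¹) (ev p P c (x * v * x⁻¹)) χ (x * s * x⁻¹) =
        dv M v (ev p P c v) χ s := by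
      rw [hev x hx v hv]
      exact dv_conj hM hχ hs (ev_blk hPc hv) x
    rw [h3, h2] at h1
    exact (mul_right_cancel₀ hne h1).symm
  have hrk := free_rk hM hB hmx hab hfree
  have hcd : Nat.card P = p ^ blockDefect p B :=
    card_defectGroup hM hB ((g_def hM hB).2 (hmx.isDef (g_blk hB)))
  have hrow : ∀ i j : B, ((mm p B i j : ℤ) : ℂ) + (e : ℂ)⁻¹ * ∑ v : P,
      (if (v : G) = 1 then 0 else kap p P c Θ ((i : IrrCharacter G) : G → ℂ) (v : G)) *
      conj (if (v : G) = 1 then 0 else kap p P c Θ ((j : IrrCharacter G) : G → ℂ) (v : G)) =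
      if i = j then (Nat.card P : ℂ) else 0 := by
    intro i j
    have h4 := inner_star_GG hM hB hmx (FSt_const P c 1) (FSt_const P c 1) i.2 (irr_classFun j.1.2)
    rw [star_HF_one hM hB hmx i.2, star_HF_one hM hB hmx j.2, irr_inner i.1.2 j.1.2] at h4
    have h5 := congrArg (fun z => (Nat.card P : ℂ) * z) h4
    simp only [mul_one, map_one] at h5
    rw [mul_inv_cancel_left₀ hP0] at h5
    simp only [one_mul] at h5
    have h6 : (if i = j then (Nat.card P : ℂ) else 0) = (Nat.card P : ℂ) *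
        (if ((i : IrrCharacter G) : G → ℂ) = ((j : IrrCharacter G) : G → ℂ) then 1 else 0) := by
      by_cases hij : i = j
      · rw [if_pos hij, hij, if_pos rfl, mul_one]
      · rw [if_neg hij, if_neg (fun h => hij (Subtype.ext (Subtype.ext h))), mul_zero]
    rw [h6, h5]
    conv_rhs => rw [← Finset.add_sum_erase Finset.univ _ (Finset.mem_univ (1 : P)),
      GG_one hM hB hmx i.2 j.2]
    congr 1
    rw [Finset.mul_sum, ← Finset.add_sum_erase Finset.univ _ (Finset.mem_univ (1 : P))]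
    rw [show ((1 : P) : G) = 1 from rfl, if_pos rfl, zero_mul, mul_zero, zero_add]
    refine Finset.sum_congr rfl fun v hv => ?_
    have hv1 : (v : G) ≠ 1 := fun h => (Finset.ne_of_mem_erase hv) (Subtype.ext h)
    rw [if_neg hv1, if_neg hv1]
    unfold GG
    rw [hWW v v.2 hv1 _ _ (irr_classFun i.1.2) (irr_classFun j.1.2), hAA v v.2 hv1]
    have := hC0 (v : G)
    field_simp
  have hcol : ∀ v : P, v ≠ 1 → ∑ i : B,
      (if (v : G) = 1 then 0 else kap p P c Θ ((i : IrrCharacter G) : G → ℂ) (v : G)) *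
      conj (if (v : G) = 1 then 0 else kap p P c Θ ((i : IrrCharacter G) : G → ℂ) (v : G)) =
      (Nat.card P : ℂ) := by
    intro v hv
    have hv1 : (v : G) ≠ 1 := fun h => hv (Subtype.ext h)
    have h1 := sum_WW hM (pel_of hPc.pg v.2) (bset_induced hM hB hmx v.2)
    rw [hrk v v.2 hv1, Nat.cast_one, mul_one] at h1
    have h2 := congrArg (fun z => (Nat.card P : ℂ) * z) h1
    beta_reduce at h2
    rw [Finset.mul_sum] at h2
    have h3 : ∀ χ : IrrCharacter G, (Nat.card P : ℂ) * (ind B χ *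
        WW p M (v : G) (ev p P c v) (χ : G → ℂ) (χ : G → ℂ)) = ind B χ *
          (kap p P c Θ (χ : G → ℂ) v * conj (kap p P c Θ (χ : G → ℂ) v)) *
          Nat.card (CH ⊤ (Subgroup.zpowers (v : G))) := by
      intro χ
      rw [mul_left_comm, hWW v v.2 hv1 _ _ (irr_classFun χ.2) (irr_classFun χ.2)]
      ring
    simp_rw [h3] at h2
    rw [← Finset.sum_mul] at h2
    have h4 := mul_right_cancel₀ (hC0 (v : G)) h2
    rw [← h4]
    simp only [if_neg hv1]
    have h5 : ∀ χ : IrrCharacter G, ind B χ *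
        (kap p P c Θ (χ : G → ℂ) v * conj (kap p P c Θ (χ : G → ℂ) v)) =
        if χ ∈ B then (kap p P c Θ (χ : G → ℂ) v * conj (kap p P c Θ (χ : G → ℂ) v)) else 0 := by
      intro χ
      split_ifs with h
      · rw [ind_of h, one_mul]
      · rw [ind_not h, zero_mul]
    simp_rw [h5]
    rw [← Finset.sum_filter]
    symm
    refine Finset.sum_subtype _ (fun χ => ?_) _
    simp
  refine ⟨?_, ?_, ?_, ?_, ?_, ?_, ?_, hcol, ?_, ?_⟩
  · exact fun x y => Subtype.ext (hab x x.2 y y.2)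
  · rintro _ ⟨⟨x, hx⟩, rfl⟩ v hv h
    rw [actHom_eq_one]
    refine hfree x hx v v.2 (fun h' => hv (Subtype.ext h')) ?_
    have h1 := congrArg (Subtype.val : P → G) h
    rw [actHom_apply] at h1
    exact h1
  · intro i
    exact if_pos rfl
  · rintro i _ ⟨⟨x, hx⟩, rfl⟩ v
    have e1 : ((actHom P (TS ⊤ P c) hTN ⟨x, hx⟩ v : P) : G) = x * v * x⁻¹ := by
      rw [actHom_apply]
    show (if ((actHom P (TS ⊤ P c) hTN ⟨x, hx⟩ v : P) : G) = 1 then 0 else
      kap p P c Θ ((i : IrrCharacter G) : G → ℂ)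
        ((actHom P (TS ⊤ P c) hTN ⟨x, hx⟩ v : P) : G)) = _
    rw [e1]
    by_cases hv1 : (v : G) = 1
    · rw [if_pos hv1, hv1, if_pos (by group)]
    · rw [if_neg hv1, if_neg (hne1 x v hv1)]
      exact hkinv x hx v v.2 hv1 _ (irr_classFun i.1.2)
  · exact fun i j => mm_symm _ _
  · intro i j
    rw [← he]
    exact hrow i j
  · intro i k
    rw [hcd, ← mm_idem hM hB i.2 k]
    have h5 : ∀ χ : IrrCharacter G, mm p B i χ * mm p B χ k =
        if χ ∈ B then mm p B i χ * mm p B χ k else 0 := by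
      intro χ
      split_ifs with h
      · rfl
      · rw [mm_out hM hB i.2 h, zero_mul]
    rw [Finset.sum_congr rfl fun χ _ => h5 χ, ← Finset.sum_filter]
    symm
    refine Finset.sum_subtype _ (fun χ => ?_) _
    simp
  · intro f i
    exact hΘ4 f i
  · intro i
    obtain ⟨⟨v, hv⟩, hv1⟩ := (Subgroup.ne_bot_iff_exists_ne_one).1 hP1
    have hv1' : v ≠ 1 := fun h' => hv1 (Subtype.ext h')
    refine ⟨⟨v, hv⟩, ?_⟩
    show (if v = 1 then 0 else kap p P c Θ ((i : IrrCharacter G) : G → ℂ) v) ≠ 0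
    rw [if_neg hv1']
    intro h0
    obtain ⟨s, hs, hne⟩ := dv_major hM hB hmx i.2 hv (fun w hw => hab w hw v hv)
    apply hne
    rw [hΘ1 v hv hv1' _ (irr_classFun i.1.2) s hs, h0, zero_mul]

end Free

end CfsgLib.Star
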