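import Mathlib
import Cfsg.Agent.EqBase
import Cfsg.Agent.LibStar69

/-!
# Star construction, LXX: coherent data from decomposition data (helper18)
-/

set_option autoImplicit false
set_option linter.unusedSectionVars false
set_option linter.style.haveILetI false
set_option linter.unusedSimpArgs false
set_option linter.unusedVariables false

namespace CfsgLib.Star

open Cfsg CfsgLib.GalChar CfsgLib.GalField CfsgLib.BlockReg CfsgLib.BlockReg2 CfsgLib.LocR
  CfsgLib.BrP CfsgLib.Car CfsgLib.BlockQP CfsgLib.BlockDefect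
  CfsgLib.Points CfsgLib.PLocalInd CfsgLib.CharBasic CfsgLib.BlockCore CfsgLib.BlockSec
  CfsgLib.BlockR CfsgLib.BlockIdem CfsgLib.BlockOrth CfsgLib.CharIndA CfsgLib.CharNorm
open scoped ComplexConjugate Pointwise

universe u v

section Main

variable {M : Ideal AlgInt} [hPr : M.IsPrime] {G : Type u} [Group G] [Fintype G]
variable {p : ℕ} [hp : Fact p.Prime] [hch : CharP (kM M) p] [hMx : M.IsMaximal]

open Classical in
theorem cd_of_kd (hM : IsPModular p M) {B : Set (IrrCharacter G)} (hB : IsPBlock M B)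
    {P : Subgroup G} [Fintype P] {c : MonoidAlgebra (kM M) G} (hmx : IsMx p ⊤ (JB M B) P c)
    (hab : ∀ x ∈ P, ∀ y ∈ P, x * y = y * x) (hP1 : P ≠ ⊥) [Fintype B] {Θ : G → ℂ}
    (hΘ1 : ∀ v ∈ P, v ≠ 1 → ∀ χ : G → ℂ, IsClassFunction G χ → ∀ s, pp p (v * s) = v →
        dv M v (ev p P c v) χ s = kap p P c Θ χ v * dv M v (ev p P c v) Θ s)
    (hKD : KD (actHom P (TS ⊤ P c) TS_le_normalizer).range
      (fun (i : B) (v : P) => if (v : G) = 1 then 0 else
        kap p P c Θ ((i : IrrCharacter G) : G → ℂ) (v : G))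
      (fun i j : B => mm p B i j)) {e : ℕ}
    (hAe : Nat.card (actHom P (TS ⊤ P c) TS_le_normalizer).range = e)
    (hge : (Nat.card P - 1) / e + e ≤ Fintype.card B) :
    Fintype.card B = (Nat.card P - 1) / e + e ∧
    ∃ (κ : B → P → ℂ) (Ys : Finset B) (y : (P →* ℂˣ) → B) (σ : B → ℤ),
      CD p M (actHom P (TS ⊤ P c) TS_le_normalizer).range
        (fun i : B => ((i : IrrCharacter G) : G → ℂ)) κ Ys y σ := by
  have hPcard : 1 < Nat.card P := by
    have h1 : 0 < Nat.card P := Nat.card_pos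
    have h2 : Nat.card P ≠ 1 := fun h => hP1 (Subgroup.card_eq_one.1 h)
    omega
  have he0 : 0 < e := by rw [← hAe]; exact Nat.card_pos
  obtain ⟨N, hN⟩ := hKD.exists_n
  have hfin := hKD.final hN hPcard (by rw [hAe]; exact hge)
  rw [hAe] at hfin
  obtain ⟨t, ht'⟩ : ∃ t, t = (Nat.card P - 1) / e := ⟨_, rfl⟩
  rw [← ht'] at hfin ⊢
  obtain ⟨hf1, ht, Ys, y, σ, hYc, hσ, hYy, hyY, hNY, hNX⟩ := hfin
  have hq : Nat.card P = p ^ blockDefect p B :=
    card_defectGroup hM hB ((g_def hM hB).2 (hmx.isDef (g_blk hB)))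
  have hcX : (Ysᶜ).card = e := by
    rw [Finset.card_compl, hYc, hf1]; omega
  have hσ2 : ∀ i, σ i * σ i = 1 := by
    intro i; rcases hσ i with h | h <;> rw [h] <;> norm_num
  -- the sum formula
  have hsplit : ∀ f : P →* ℂˣ, f ≠ 1 → ∀ F : B → ℂ, ∑ i, (N f i : ℂ) * F i =
      (σ (y f) : ℂ) * F (y f) + ∑ k ∈ Ysᶜ, (σ k : ℂ) * F k := by
    intro f hf F
    rw [← Finset.sum_add_sum_compl Ys]
    congr 1
    · rw [Finset.sum_eq_single (y f)]
      · rw [hNY f hf _ (hyY f hf), if_pos rfl]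
      · intro i hi hne
        rw [hNY f hf i hi, if_neg hne, Int.cast_zero, zero_mul]
      · intro h; exact absurd (hyY f hf) h
    · refine Finset.sum_congr rfl fun k hk => ?_
      rw [hNX f hf k (Finset.mem_compl.1 hk)]
  have hq0 : ((p ^ blockDefect p B : ℕ) : ℂ) ≠ 0 := by
    rw [← hq]; exact_mod_cast Nat.card_pos.ne'
  have hreg0 : ∀ f : P →* ℂˣ, ∀ g : G, ¬ p ∣ orderOf g →
      ∑ i : B, (N f i : ℂ) * ((i : IrrCharacter G) : G → ℂ) g = 0 := by
    intro f g hg
    have h1 := reg_comb hM hB (N f) g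
    have h2 : ∑ k : B, ((∑ j : B, mm p B k j * N f j : ℤ) : ℂ) *
        ((k : IrrCharacter G) : G → ℂ) g = 0 :=
      Finset.sum_eq_zero fun k _ => by rw [hKD.N_ker hN f k, Int.cast_zero, zero_mul]
    rw [h2] at h1
    have h3 := (mul_eq_zero.1 h1).resolve_left hq0
    rw [← h3]
    refine Finset.sum_congr rfl fun i _ => ?_
    rw [reg_of hg]
  have hkX : ∀ i, i ∉ Ys → ∀ v : P, v ≠ 1 → (if (v : G) = 1 then 0 else
      kap p P c Θ ((i : IrrCharacter G) : G → ℂ) (v : G)) = -(σ i : ℂ) := fun i hi v hv =>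
    hKD.kX hN (fun f hf => hNX f hf i hi) hv
  obtain ⟨i₁, hi₁⟩ : (Ysᶜ).Nonempty := Finset.card_pos.1 (by rw [hcX]; exact he0)
  refine ⟨hf1,
    fun (i : B) (v : P) => if (v : G) = 1 then 0 else
        kap p P c Θ ((i : IrrCharacter G) : G → ℂ) (v : G), Ys, y, σ, ?_⟩
  refine ⟨hσ, hYy, hyY, hKD.one, hkX, ?_, ?_, ?_, ?_, hKD.orth' hN, ?_, ?_, ?_⟩
  · intro inst i hi v hv
    have h1 := hKD.N_inv hN i v hv
    rw [h1, Finset.mul_sum]
    refine Finset.sum_congr rfl fun f _ => ?_
    by_cases hf : f = 1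
    · rw [hf, hKD.N_one hN, Int.cast_zero, mul_zero, if_neg (fun h => h.1 rfl), mul_zero]
    · rw [hNY f hf i hi]
      by_cases hfi : y f = i
      · rw [if_pos hfi.symm, if_pos ⟨hf, hfi⟩, mul_comm]
      · rw [if_neg (fun h => hfi h.symm), if_neg (fun h => hfi h.2), Int.cast_zero, mul_zero,
          mul_zero]
  · intro f g hf hg
    constructor
    · intro hfg
      haveI := Fintype.ofFinite (actHom P (TS ⊤ P c) TS_le_normalizer).range
      have h1 := hKD.N_gram hN hf hg
      rw [hAe] at h1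
      have h2 : ∑ i, N f i * N g i = 1 + e := by
        rw [← Finset.sum_add_sum_compl Ys]
        congr 1
        · rw [Finset.sum_eq_single (y f)]
          · rw [hNY f hf _ (hyY f hf), if_pos rfl, hNY g hg _ (hyY f hf), if_pos hfg, hσ2]
          · intro i hi hne
            rw [hNY f hf i hi, if_neg hne, zero_mul]
          · intro h; exact absurd (hyY f hf) h
        · rw [← hcX, Finset.card_eq_sum_ones, Nat.cast_sum]
          refine Finset.sum_congr rfl fun k hk => ?_
          rw [hNX f hf k (Finset.mem_compl.1 hk), hNX g hg k (Finset.mem_compl.1 hk), hσ2,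
            Nat.cast_one]
      rw [h2] at h1
      have h3 : (Finset.univ.filter (fun α :
          (actHom P (TS ⊤ P c) TS_le_normalizer).range => f = KD.dualAct g α)).card = 1 := by
        have h4 : ((Finset.univ.filter (fun α :
          (actHom P (TS ⊤ P c) TS_le_normalizer).range => f = KD.dualAct g α)).card : ℤ) = 1 := by
          linarith
        exact_mod_cast h4
      obtain ⟨α, hα⟩ := Finset.card_pos.1 (by rw [h3]; exact one_pos)
      exact ⟨α, α.2, (Finset.mem_filter.1 hα).2⟩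
    · rintro ⟨α, hα, hfg⟩
      by_contra hne
      have h1 : N f = N g := by rw [hfg]; exact hKD.N_act hN g hα
      have h2 := hNY f hf (y g) (hyY g hg)
      rw [if_neg (Ne.symm hne), h1, hNY g hg (y g) (hyY g hg), if_pos rfl] at h2
      rcases hσ (y g) with h | h <;> rw [h] at h2 <;> norm_num at h2
  · refine exists_sect hM hB hmx hab hΘ1 (i₁ := i₁) (σ₁ := (σ i₁ : ℂ)) ?_ ?_
    · rcases hσ i₁ with h | h
      · left; rw [h]; norm_num
      · right; rw [h]; norm_num
    · intro v hv hv1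
      have h1 := hkX i₁ (Finset.mem_compl.1 hi₁) ⟨v, hv⟩ (fun h => hv1 (congrArg Subtype.val h))
      have h2 : (if v = 1 then 0 else kap p P c Θ ((i₁ : IrrCharacter G) : G → ℂ) v) =
        -(σ i₁ : ℂ) := h1
      rwa [if_neg hv1] at h2
  · intro w g hg
    haveI : Finite (P →* ℂˣ) := finite_hom
    haveI := Fintype.ofFinite (P →* ℂˣ)
    by_cases hw : w = 1
    · exact Finset.sum_eq_zero fun i _ => by
        rw [hw]
        show (if ((1 : P) : G) = 1 then 0 else _) * _ = (0 : ℂ)
        rw [if_pos (show ((1 : P) : G) = 1 from rfl), zero_mul]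
    · have h1 : ∀ i : B, (if (w : G) = 1 then 0 else
          kap p P c Θ ((i : IrrCharacter G) : G → ℂ) (w : G)) * ((i : IrrCharacter G) : G → ℂ) g =
          ∑ f : P →* ℂˣ, ((f w : ℂˣ) : ℂ) * ((N f i : ℂ) * ((i : IrrCharacter G) : G → ℂ) g) := by
        intro i
        have h2 := hKD.N_inv hN i w hw
        rw [show (if (w : G) = 1 then 0 else
          kap p P c Θ ((i : IrrCharacter G) : G → ℂ) (w : G)) = _ from h2, Finset.sum_mul]
        exact Finset.sum_congr rfl fun f _ => by ring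
      rw [Finset.sum_congr rfl fun i _ => h1 i, Finset.sum_comm]
      refine Finset.sum_eq_zero fun f _ => ?_
      rw [← Finset.mul_sum, hreg0 f g hg, mul_zero]
  · rw [hYc, hAe, hf1]
  · rw [hYc, hAe, ht']
  · intro i hi g hg
    obtain ⟨f, hf, hfi⟩ := hYy i hi
    have h1 := hsplit f hf (fun i => ((i : IrrCharacter G) : G → ℂ) g)
    rw [hreg0 f g hg, hfi] at h1
    refine Eq.trans ?_ h1.symm
    congr 1
    rw [← Finset.sum_add_sum_compl Ys]
    exact (congrArg₂ (· + ·) (Finset.sum_eq_zero fun k hk => if_pos hk)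
      (Finset.sum_congr rfl fun k hk => if_neg (Finset.mem_compl.1 hk))).trans (zero_add _)

end Main

end CfsgLib.Star
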