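import Mathlib
import Cfsg.Agent.EqBase
import Cfsg.Agent.LibStar70

/-!
# Star construction, LXXI: Klein four defect groups (helper18)
-/

set_option autoImplicit false
set_option linter.unusedSectionVars false
set_option linter.style.haveILetI false
set_option linter.unusedSimpArgs false
set_option linter.unusedVariables false

namespace CfsgLib.Star

open Cfsg CfsgLib.GalChar CfsgLib.GalField CfsgLib.BlockReg CfsgLib.BlockReg2 CfsgLib.LocR
  CfsgLib.BrP CfsgLib.Car CfsgLib.BlockQP CfsgLib.BlockDefect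
  CfsgLib.Points CfsgLib.PLocalInd CfsgLib.CharBasic CfsgLib.BlockCore CfsgLib.BlockSec
  CfsgLib.BlockR CfsgLib.BlockIdem CfsgLib.BlockOrth CfsgLib.CharIndA CfsgLib.CharNorm
open scoped ComplexConjugate Pointwise

universe u v

section KF

variable {V : Type*} [Group V] [hV : IsKleinFour V]

theorem kf_sq_fix {α : MulAut V} {v : V} (hv : v ≠ 1) (hα : α v = v) : α * α = 1 := by
  apply MulEquiv.ext
  intro w
  rw [MulAut.mul_apply, MulAut.one_apply]
  by_cases hw1 : w = 1
  · rw [hw1, map_one, map_one]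
  by_cases hwv : w = v
  · rw [hwv, hα, hα]
  have h1 : α w ≠ 1 := fun h => hw1 ((MulEquiv.map_eq_one_iff α).1 h)
  have h2 : α w ≠ v := fun h => hwv (α.injective (h.trans hα.symm))
  by_cases h3 : α w = w
  · rw [h3, h3]
  · have h4 : α w = v * w := IsKleinFour.eq_mul_of_ne_all hv hw1 (Ne.symm hwv) h1 h2 h3
    rw [h4, map_mul, hα, h4, ← mul_assoc, IsKleinFour.mul_self, one_mul]

theorem kf_pm (f : V →* ℂˣ) (v : V) : ((f v : ℂˣ) : ℂ) = 1 ∨ ((f v : ℂˣ) : ℂ) = -1 := by
  rw [← mul_self_eq_one_iff, ← Units.val_mul, ← map_mul, IsKleinFour.mul_self, map_one,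
    Units.val_one]

theorem kf_exists (a : V) : ∃ b : V, b ≠ 1 ∧ b ≠ a := by
  classical
  haveI : Finite V := Nat.finite_of_card_ne_zero (by rw [IsKleinFour.card_four]; norm_num)
  haveI := Fintype.ofFinite V
  by_contra hcon
  push Not at hcon
  have h1 : (Finset.univ : Finset V) ⊆ {1, a} := by
    intro b _
    rw [Finset.mem_insert, Finset.mem_singleton]
    by_cases hb : b = 1
    · exact Or.inl hb
    · exact Or.inr (hcon b hb)
  have h2 := Finset.card_le_card h1
  rw [Finset.card_univ, ← Nat.card_eq_fintype_card, IsKleinFour.card_four] at h2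
  have h3 : ({1, a} : Finset V).card ≤ 2 := Finset.card_le_two
  omega

open Classical in
theorem kf_int [Fintype V] (f : V →* ℂˣ) (n : V → ℤ) (hn : ∀ v, v ≠ 1 → n v = 1 ∨ n v = -1) :
    ∃ k : ℤ, (Nat.card V : ℂ)⁻¹ * ∑ v, (((f v : ℂˣ) : ℂ) - 1) *
      (if v = 1 then 0 else (n v : ℂ)) = k := by
  by_cases hf : f = 1
  · refine ⟨0, ?_⟩
    rw [Finset.sum_eq_zero, mul_zero, Int.cast_zero]
    intro v _
    rw [hf, MonoidHom.one_apply, Units.val_one, sub_self, zero_mul]
  · obtain ⟨a, ha⟩ : ∃ a, f a ≠ 1 := by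
      by_contra hcon
      push Not at hcon
      exact hf (MonoidHom.ext hcon)
    have ha1 : a ≠ 1 := by
      rintro rfl
      exact ha (map_one f)
    have hfa : ((f a : ℂˣ) : ℂ) = -1 := by
      rcases kf_pm f a with h | h
      · exact absurd (Units.ext (by rw [h, Units.val_one])) ha
      · exact h
    obtain ⟨b, hb1, hba⟩ := kf_exists a
    have hab1 : a * b ≠ 1 := fun h => hba (by
      rw [mul_eq_one_iff_eq_inv, IsKleinFour.inv_eq_self] at h; exact h.symm)
    have habb : a * b ≠ b := fun h => ha1 (mul_eq_right.1 h)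
    have haba : a * b ≠ a := fun h => hb1 (mul_eq_left.1 h)
    rw [← IsKleinFour.eq_finset_univ ha1 hb1 (Ne.symm hba), Finset.sum_insert (by
      rw [Finset.mem_insert, Finset.mem_insert, Finset.mem_singleton]
      push Not
      exact ⟨haba, habb, hab1⟩), Finset.sum_insert (by
      rw [Finset.mem_insert, Finset.mem_singleton]
      push Not
      exact ⟨Ne.symm hba, ha1⟩), Finset.sum_insert (by
      rw [Finset.mem_singleton]
      exact hb1), Finset.sum_singleton, if_neg hab1, if_neg ha1, if_neg hb1, if_pos rfl, map_mul,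
      Units.val_mul, hfa, IsKleinFour.card_four]
    rcases kf_pm f b with h | h <;> rw [h] <;> rcases hn a ha1 with h1 | h1 <;>
      rcases hn b hb1 with h2 | h2 <;> rcases hn _ hab1 with h3 | h3 <;> rw [h1, h2, h3]
    · exact ⟨-1, by norm_num⟩
    · exact ⟨0, by norm_num⟩
    · exact ⟨-1, by norm_num⟩
    · exact ⟨0, by norm_num⟩
    · exact ⟨0, by norm_num⟩
    · exact ⟨1, by norm_num⟩
    · exact ⟨0, by norm_num⟩
    · exact ⟨1, by norm_num⟩
    · exact ⟨-1, by norm_num⟩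
    · exact ⟨-1, by norm_num⟩
    · exact ⟨0, by norm_num⟩
    · exact ⟨0, by norm_num⟩
    · exact ⟨0, by norm_num⟩
    · exact ⟨0, by norm_num⟩
    · exact ⟨1, by norm_num⟩
    · exact ⟨1, by norm_num⟩

theorem kf_A_free {p : ℕ} (hp2 : p = 2) {A : Subgroup (MulAut V)} (hA : ¬ p ∣ Nat.card A) :
    ∀ α ∈ A, ∀ v : V, v ≠ 1 → α v = v → α = 1 := by
  intro α hα v hv hαv
  haveI : Finite V := Nat.finite_of_card_ne_zero (by rw [IsKleinFour.card_four]; norm_num)
  have h1 := kf_sq_fix hv hαv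
  have h2 : orderOf α ∣ 2 := orderOf_dvd_of_pow_eq_one (by rw [pow_two, h1])
  have h3 : orderOf α ∣ Nat.card A := by
    have h4 := orderOf_dvd_natCard (⟨α, hα⟩ : A)
    rwa [Subgroup.orderOf_mk] at h4
  rcases (Nat.dvd_prime Nat.prime_two).1 h2 with h4 | h4
  · exact orderOf_eq_one_iff.1 h4
  · rw [h4, ← hp2] at h3
    exact absurd h3 hA

end KF

section RankOne

variable {M : Ideal AlgInt} [hPr : M.IsPrime] {G : Type u} [Group G] [Fintype G]
variable {p : ℕ} [hp : Fact p.Prime] [hch : CharP (kM M) p]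
variable {P : Subgroup G} {c : MonoidAlgebra (kM M) G}

theorem kap_rank1 (hM : IsPModular p M) {v : G}
    (hrk : blockRank p (bset M (CH ⊤ (Subgroup.zpowers v)) (ev p P c v)) = 1) :
    (∀ χ ψ : G → ℂ, IsClassFunction G χ → IsClassFunction G ψ →
      kap p P c ψ χ v * kap p P c χ ψ v = kap p P c χ χ v * kap p P c ψ ψ v) ∧
    (∀ ψ : G → ℂ, IsClassFunction G ψ → kap p P c ψ ψ v = 1 → ∀ χ : G → ℂ, IsClassFunction G χ →
      ∀ s, pp p (v * s) = v →
        dv M v (ev p P c v) χ s = kap p P c ψ χ v * dv M v (ev p P c v) ψ s) := by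
  classical
  obtain ⟨φ, hφ⟩ := rank_one_dv hM hrk
  obtain ⟨W, hW⟩ : ∃ W : ℂ, W = ∑ s : G, if pp p (v * s) = v then φ s * conj (φ s) else 0 :=
    ⟨_, rfl⟩
  have hWW : ∀ (χ ψ : G → ℂ) (a b : ℂ), (∀ s, pp p (v * s) = v → dv M v (ev p P c v) χ s = a * φ s) →
      (∀ s, pp p (v * s) = v → dv M v (ev p P c v) ψ s = b * φ s) →
      WW p M v (ev p P c v) χ ψ = a * conj b * W := by
    intro χ ψ a b ha hb
    rw [hW, Finset.mul_sum]
    unfold WW
    refine Finset.sum_congr rfl fun s _ => ?_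
    split_ifs with hs
    · rw [ha s hs, hb s hs, map_mul]; ring
    · rw [mul_zero]
  constructor
  · intro χ ψ hχ hψ
    obtain ⟨a, ha⟩ := hφ χ hχ
    obtain ⟨b, hb⟩ := hφ ψ hψ
    unfold kap
    rw [hWW _ _ _ _ ha hb, hWW _ _ _ _ hb ha, hWW _ _ _ _ ha ha, hWW _ _ _ _ hb hb]
    ring
  · intro ψ hψ h1 χ hχ s hs
    obtain ⟨a, ha⟩ := hφ χ hχ
    obtain ⟨b, hb⟩ := hφ ψ hψ
    unfold kap at h1 ⊢
    rw [hWW _ _ _ _ hb hb] at h1
    rw [hWW _ _ _ _ ha hb, ha s hs, hb s hs]
    linear_combination (-(a * φ s)) * h1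

theorem kap_conj (χ ψ : G → ℂ) (v : G) : conj (kap p P c χ ψ v) = kap p P c ψ χ v := by
  unfold kap
  rw [map_mul, map_div₀, Complex.conj_natCast, Complex.conj_natCast, WW_symm]

theorem kap_self (χ : G → ℂ) (v : G) : ∃ r : ℝ, 0 ≤ r ∧ kap p P c χ χ v = (r : ℂ) := by
  classical
  refine ⟨(Nat.card P : ℝ) / (Nat.card (CH ⊤ (Subgroup.zpowers v)) : ℝ) *
    ∑ s : G, if pp p (v * s) = v then ‖dv M v (ev p P c v) χ s‖ ^ 2 else 0, ?_, ?_⟩
  · apply mul_nonneg (div_nonneg (Nat.cast_nonneg _) (Nat.cast_nonneg _))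
    apply Finset.sum_nonneg
    intro s _
    split_ifs
    · positivity
    · exact le_refl 0
  · unfold kap
    rw [WW_self]
    push_cast
    rfl

theorem kap_ne (χ : G → ℂ) {v s : G} (hs : pp p (v * s) = v)
    (hne : dv M v (ev p P c v) χ s ≠ 0) : kap p P c χ χ v ≠ 0 := by
  classical
  unfold kap
  have h1 : (Nat.card P : ℂ) / (Nat.card (CH ⊤ (Subgroup.zpowers v)) : ℂ) ≠ 0 := by
    apply div_ne_zero
    · exact_mod_cast Nat.card_pos.ne'
    · exact_mod_cast Nat.card_pos.ne'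
  apply mul_ne_zero h1
  rw [WW_self]
  intro h2
  have h3 : (∑ s : G, if pp p (v * s) = v then ‖dv M v (ev p P c v) χ s‖ ^ 2 else 0) = (0 : ℝ) := by
    exact_mod_cast h2
  rw [Finset.sum_eq_zero_iff_of_nonneg (fun s _ => by split_ifs <;> positivity)] at h3
  have h4 := h3 s (Finset.mem_univ s)
  rw [if_pos hs] at h4
  apply hne
  have h5 : ‖dv M v (ev p P c v) χ s‖ = 0 := by
    rcases pow_eq_zero_iff (two_ne_zero) |>.1 h4 with h
    exact h
  exact norm_eq_zero.1 h5

end RankOne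

end CfsgLib.Star
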