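import Mathlib
import Cfsg.Agent.EqBase
import Cfsg.Agent.LibStar71

/-!
# Star construction, LXXII: Klein four defect groups, integrality (helper18)
-/

set_option autoImplicit false
set_option linter.unusedSectionVars false
set_option linter.style.haveILetI false
set_option linter.unusedSimpArgs false
set_option linter.unusedVariables false

namespace CfsgLib.Star

open Cfsg CfsgLib.GalChar CfsgLib.GalField CfsgLib.BlockReg CfsgLib.BlockReg2 CfsgLib.LocR
  CfsgLib.BrP CfsgLib.Car CfsgLib.BlockQP CfsgLib.BlockDefect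
  CfsgLib.Points CfsgLib.PLocalInd CfsgLib.CharBasic CfsgLib.BlockCore CfsgLib.BlockSec
  CfsgLib.BlockR CfsgLib.BlockIdem CfsgLib.BlockOrth CfsgLib.CharIndA CfsgLib.CharNorm
open scoped ComplexConjugate Pointwise

universe u v

section Main

variable {M : Ideal AlgInt} [hPr : M.IsPrime] {G : Type u} [Group G] [Fintype G]
variable {p : ℕ} [hp : Fact p.Prime] [hch : CharP (kM M) p] [hMx : M.IsMaximal]
variable {B : Set (IrrCharacter G)} {P : Subgroup G} [Fintype P] {c : MonoidAlgebra (kM M) G}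

theorem kf_ab (hV : IsKleinFour P) : ∀ x ∈ P, ∀ y ∈ P, x * y = y * x := by
  intro x hx y hy
  have h := mul_comm_of_exponent_two hV.exponent_two (⟨x, hx⟩ : P) ⟨y, hy⟩
  exact congrArg Subtype.val h

theorem kf_free (hp2 : p = 2) (hB : IsPBlock M B) (hmx : IsMx p ⊤ (JB M B) P c)
    (hV : IsKleinFour P) : ∀ x ∈ TS ⊤ P c, ∀ v ∈ P, v ≠ 1 → x * v * x⁻¹ = v →
      x ∈ Subgroup.centralizer (P : Set G) := by
  have hab := kf_ab hV
  have hpel : ∀ R : Subgroup G, R ≤ TS ⊤ P c → IsPGroup p R →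
      R ≤ Subgroup.centralizer (P : Set G) := by
    intro R hR hRp
    have h1 := mx_pelem (g_blk hB) hmx hR hRp
    rw [CH_top, sup_eq_right.2 (ab_cen hab)] at h1
    exact h1
  have hcard := act_card (TS_le_normalizer (H := ⊤) (P := P) (e := c)) hpel
  intro x hx v hv hv1 hxv
  have h1 := kf_A_free hp2 hcard (actHom P (TS ⊤ P c) TS_le_normalizer ⟨x, hx⟩) ⟨_, rfl⟩ ⟨v, hv⟩
    (fun h => hv1 (congrArg Subtype.val h)) (by
      apply Subtype.ext
      rw [actHom_apply]
      exact hxv)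
  exact (actHom_eq_one TS_le_normalizer).1 h1

theorem kf_e (hM : IsPModular p M) (hp2 : p = 2) (hB : IsPBlock M B)
    (hmx : IsMx p ⊤ (JB M B) P c) (hV : IsKleinFour P) :
    Nat.card (actHom P (TS ⊤ P c) TS_le_normalizer).range = 1 ∨
      Nat.card (actHom P (TS ⊤ P c) TS_le_normalizer).range = 3 := by
  have h1 := free_count hM hB hmx (kf_ab hV) (kf_free hp2 hB hmx hV)
  rw [hV.card_four] at h1
  obtain ⟨e, he⟩ : ∃ e, e = Nat.card (actHom P (TS ⊤ P c) TS_le_normalizer).range := ⟨_, rfl⟩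
  rw [← he] at h1 ⊢
  have h2 : e ∣ 3 := by
    have h3 : e ∣ blockRank p B * e + (4 - 1) := ⟨Nat.card B, by rw [← h1]; ring⟩
    exact (Nat.dvd_add_right (Dvd.intro_left _ rfl)).1 h3
  exact (Nat.dvd_prime Nat.prime_three).1 h2

open Classical in
/-- the first row relation -/
theorem row_GG (hM : IsPModular p M) (hB : IsPBlock M B) (hmx : IsMx p ⊤ (JB M B) P c)
    {χ ψ : IrrCharacter G} (hχ : χ ∈ B) (hψ : ψ ∈ B) :
    ∃ n : ℤ, ((Nat.card P : ℤ) * n - mm p B χ ψ : ℤ) =
      ∑ v ∈ (Finset.univ.filter (fun v : P => v ≠ 1)), GG p P c (χ : G → ℂ) (ψ : G → ℂ) v ∧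
      (χ = ψ → n = 1) := by
  classical
  have hP0 : (Nat.card P : ℂ) ≠ 0 := by exact_mod_cast Nat.card_pos.ne'
  have h4 := inner_star_GG hM hB hmx (FSt_const P c 1) (FSt_const P c 1) hχ (irr_classFun ψ.2)
  rw [star_HF_one hM hB hmx hχ, star_HF_one hM hB hmx hψ, irr_inner χ.2 ψ.2] at h4
  have h5 := congrArg (fun z => (Nat.card P : ℂ) * z) h4
  simp only [mul_one, map_one] at h5
  rw [mul_inv_cancel_left₀ hP0] at h5
  simp only [one_mul] at h5
  rw [← Finset.add_sum_erase Finset.univ _ (Finset.mem_univ (1 : P)),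
    GG_one hM hB hmx hχ hψ] at h5
  refine ⟨if (χ : G → ℂ) = (ψ : G → ℂ) then 1 else 0, ?_, ?_⟩
  · have h6 : (Finset.univ.filter (fun v : P => v ≠ 1)) = Finset.univ.erase 1 := by
      ext v; simp
    rw [h6]
    push_cast
    linear_combination h5
  · intro h
    rw [if_pos (by rw [h])]

open Classical in
theorem kf_inv (hM : IsPModular p M) (hp2 : p = 2) (hB : IsPBlock M B)
    (hmx : IsMx p ⊤ (JB M B) P c) (hV : IsKleinFour P)
    (he : Nat.card (actHom P (TS ⊤ P c) TS_le_normalizer).range = 3) {χ ψ : G → ℂ}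
    (hχ : IsClassFunction G χ) (hψ : IsClassFunction G ψ) {v : P} (hv : v ≠ 1) :
    ∀ {w : P}, w ≠ 1 → kap p P c ψ χ w = kap p P c ψ χ v := by
  have hfree := kf_free hp2 hB hmx hV
  have hPc := hmx.1.1
  haveI := Fintype.ofFinite (actHom P (TS ⊤ P c) TS_le_normalizer).range
  have hinj : Function.Injective (fun α : (actHom P (TS ⊤ P c) TS_le_normalizer).range =>
      (α : MulAut P) v) := by
    rintro ⟨_, ⟨⟨x, hx⟩, rfl⟩⟩ ⟨_, ⟨⟨y, hy⟩, rfl⟩⟩ hαβ
    apply Subtype.ext
    have h1 : actHom P (TS ⊤ P c) TS_le_normalizer (⟨y, hy⟩⁻¹ * ⟨x, hx⟩) = 1 := by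
      rw [actHom_eq_one]
      refine hfree _ (Subgroup.mul_mem _ (Subgroup.inv_mem _ hy) hx) v v.2
        (fun h => hv (Subtype.ext h)) ?_
      have h2 := congrArg (Subtype.val : P → G) hαβ
      have h3 : x * (v : G) * x⁻¹ = y * v * y⁻¹ := h2
      show (y⁻¹ * x) * (v : G) * (y⁻¹ * x)⁻¹ = v
      calc (y⁻¹ * x) * (v : G) * (y⁻¹ * x)⁻¹ = y⁻¹ * (x * v * x⁻¹) * y := by group
        _ = v := by rw [h3]; group
    rw [map_mul, map_inv, inv_mul_eq_one] at h1
    exact h1.symm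
  have himg : (Finset.univ.image (fun α : (actHom P (TS ⊤ P c) TS_le_normalizer).range =>
      (α : MulAut P) v)) = Finset.univ.filter (fun w : P => w ≠ 1) := by
    apply Finset.eq_of_subset_of_card_le
    · intro w hw
      obtain ⟨α, -, rfl⟩ := Finset.mem_image.1 hw
      rw [Finset.mem_filter]
      exact ⟨Finset.mem_univ _, fun h => hv ((MulEquiv.map_eq_one_iff (α : MulAut P)).1 h)⟩
    · have h6 : (Finset.univ.filter (fun v : P => v ≠ 1)) = Finset.univ.erase 1 := by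
        ext v; simp
      rw [h6, Finset.card_erase_of_mem (Finset.mem_univ _), Finset.card_univ,
        ← Nat.card_eq_fintype_card, hV.card_four, Finset.card_image_of_injective _ hinj,
        Finset.card_univ, ← Nat.card_eq_fintype_card, he]
  intro w hw
  have h1 : w ∈ Finset.univ.image (fun α : (actHom P (TS ⊤ P c) TS_le_normalizer).range =>
      (α : MulAut P) v) := by
    rw [himg, Finset.mem_filter]
    exact ⟨Finset.mem_univ _, hw⟩
  obtain ⟨⟨_, ⟨⟨x, hx⟩, rfl⟩⟩, -, h2⟩ := Finset.mem_image.1 h1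
  have h3 : (w : G) = x * v * x⁻¹ := by
    rw [← h2]
    exact actHom_apply _ _ _ _ _
  have hev : ev p P c (x * v * x⁻¹) = cj x (ev p P c v) := by
    symm
    apply ev_unique hPc
    have h7 := (ev_spec hPc v.2).cj' (Subgroup.mem_top x)
    simp only [cS_of_normalizer hx.2.1, hx.2.2, cS_zpowers] at h7
    exact h7
  rw [h3]
  unfold kap
  rw [hev, WW_conj hM hχ hψ v (ev_blk hPc v.2) x, CH_zp, CH_zp,
    card_cen_conj]

open Classical in
/-- integrality of the contributions -/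
theorem kf_kapint (hM : IsPModular p M) (hp2 : p = 2) (hB : IsPBlock M B)
    (hmx : IsMx p ⊤ (JB M B) P c) (hV : IsKleinFour P) {χ ψ : IrrCharacter G} (hχ : χ ∈ B)
    (hψ : ψ ∈ B) {v : P} (hv : v ≠ 1) :
    ∃ n : ℤ, kap p P c (ψ : G → ℂ) (χ : G → ℂ) v = n := by
  classical
  have hab := kf_ab hV
  have hfree := kf_free hp2 hB hmx hV
  have hP0 : (Nat.card P : ℂ) ≠ 0 := by exact_mod_cast Nat.card_pos.ne'
  have hGGk := free_GG hM hB hmx hab hfree (χ : G → ℂ) (ψ : G → ℂ)
  rcases kf_e hM hp2 hB hmx hV with he | he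
  · -- inertial index one
    have hTSc : TS ⊤ P c ≤ Subgroup.centralizer (P : Set G) := by
      intro x hx
      have h1 : (⟨actHom P (TS ⊤ P c) TS_le_normalizer ⟨x, hx⟩, ⟨_, rfl⟩⟩ :
          (actHom P (TS ⊤ P c) TS_le_normalizer).range) = 1 := by
        obtain ⟨a, ha⟩ := Nat.card_eq_one_iff_exists.1 he
        rw [ha ⟨actHom P (TS ⊤ P c) TS_le_normalizer ⟨x, hx⟩, ⟨_, rfl⟩⟩, ha 1]
      exact (actHom_eq_one TS_le_normalizer).1 (congrArg Subtype.val h1)
    have hst : ∀ g : P →* ℂˣ, FSt p P c (lx P g) := fun g =>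
      FSt_ab (g_blk hB) hmx hab hTSc g
    have hn : ∀ g : P →* ℂˣ, ∃ n : ℤ, (Nat.card P : ℂ)⁻¹ * ∑ w : P, ((g w : ℂˣ) : ℂ) *
        GG p P c (χ : G → ℂ) (ψ : G → ℂ) w = n := by
      intro g
      obtain ⟨n, hn⟩ := gen_inner_int (gen_of_irr (la hM hB hmx (hst g) hχ).2)
        (gen_of_irr ψ.2)
      refine ⟨n, ?_⟩
      rw [← hn, la_eq, inner_star_GG1 hM hB hmx (hst g) hχ (irr_classFun ψ.2)]
      congr 1
      refine Finset.sum_congr rfl fun w _ => ?_
      rw [lx_mem _ w.2]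
    choose n hn using hn
    haveI : Finite (P →* ℂˣ) := finite_hom
    haveI := Fintype.ofFinite (P →* ℂˣ)
    have hs : ∀ g : P →* ℂˣ, ∃ s : ℤ, ((g v : ℂˣ) : ℂ) = s := by
      intro g
      rcases kf_pm g v with h | h
      · exact ⟨1, by rw [h, Int.cast_one]⟩
      · exact ⟨-1, by rw [h]; norm_num⟩
    choose s hs using hs
    have habP : ∀ x y : P, x * y = y * x := fun x y => Subtype.ext (hab x x.2 y y.2)
    have key : ∑ g : P →* ℂˣ, ((g v : ℂˣ) : ℂ) * ((Nat.card P : ℂ)⁻¹ * ∑ w : P,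
        ((g w : ℂˣ) : ℂ) * GG p P c (χ : G → ℂ) (ψ : G → ℂ) w) =
        GG p P c (χ : G → ℂ) (ψ : G → ℂ) v := by
      have h1 : ∀ g : P →* ℂˣ, ((g v : ℂˣ) : ℂ) * ((Nat.card P : ℂ)⁻¹ * ∑ w : P,
          ((g w : ℂˣ) : ℂ) * GG p P c (χ : G → ℂ) (ψ : G → ℂ) w) =
          ∑ w : P, (Nat.card P : ℂ)⁻¹ * GG p P c (χ : G → ℂ) (ψ : G → ℂ) w *
            ((g (v * w) : ℂˣ) : ℂ) := by
        intro g
        rw [Finset.mul_sum, Finset.mul_sum]
        refine Finset.sum_congr rfl fun w _ => ?_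
        rw [map_mul, Units.val_mul]; ring
      rw [Finset.sum_congr rfl fun g _ => h1 g, Finset.sum_comm, Finset.sum_eq_single v]
      · rw [← Finset.mul_sum]
        have h2 : ∀ g : P →* ℂˣ, ((g (v * v) : ℂˣ) : ℂ) = 1 := by
          intro g
          rw [IsKleinFour.mul_self, map_one, Units.val_one]
        rw [Finset.sum_congr rfl fun g _ => h2 g, Finset.sum_const, Finset.card_univ,
          ← Nat.card_eq_fintype_card, card_dual habP, nsmul_eq_mul, mul_one]
        field_simp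
      · intro w _ hw
        rw [← Finset.mul_sum, sum_dual habP (v * w), mul_zero]
        intro h
        apply hw
        rw [mul_eq_one_iff_eq_inv, IsKleinFour.inv_eq_self] at h
        exact h.symm
      · intro h; exact absurd (Finset.mem_univ _) h
    refine ⟨∑ g : P →* ℂˣ, s g * n g, ?_⟩
    have h3 := hGGk v hv
    rw [he, Nat.cast_one, inv_one, one_mul] at h3
    rw [← h3, ← key]
    push_cast
    refine Finset.sum_congr rfl fun g _ => ?_
    rw [hn, hs]
  · -- inertial index three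
    have hinv := fun w (hw : w ≠ 1) => kf_inv hM hp2 hB hmx hV he (irr_classFun χ.2)
      (irr_classFun ψ.2) hv (w := w) hw
    obtain ⟨n, hn, -⟩ := row_GG hM hB hmx hχ hψ
    refine ⟨(Nat.card P : ℤ) * n - mm p B χ ψ, ?_⟩
    rw [hn]
    have h4 : ∀ w ∈ Finset.univ.filter (fun v : P => v ≠ 1),
        GG p P c (χ : G → ℂ) (ψ : G → ℂ) w = (3 : ℂ)⁻¹ * kap p P c (ψ : G → ℂ) (χ : G → ℂ) v := by
      intro w hw
      have hw1 := (Finset.mem_filter.1 hw).2
      rw [hGGk w hw1, he, hinv w hw1]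
      norm_num
    have h6 : (Finset.univ.filter (fun v : P => v ≠ 1)) = Finset.univ.erase 1 := by
      ext v; simp
    rw [Finset.sum_congr rfl h4, Finset.sum_const, h6, Finset.card_erase_of_mem
      (Finset.mem_univ _), Finset.card_univ, ← Nat.card_eq_fintype_card, hV.card_four,
      nsmul_eq_mul]
    norm_num
    ring

end Main

end CfsgLib.Star
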