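import Mathlib
import Cfsg.Agent.EqBase
import Cfsg.Agent.LibStar72

/-!
# Star construction, LXXIII: S4638 (helper18)
-/

set_option autoImplicit false
set_option linter.unusedSectionVars false
set_option linter.style.haveILetI false
set_option linter.unusedSimpArgs false
set_option linter.unusedVariables false

namespace CfsgLib.Star

open Cfsg CfsgLib.GalChar CfsgLib.GalField CfsgLib.BlockReg CfsgLib.BlockReg2 CfsgLib.LocR
  CfsgLib.BrP CfsgLib.Car CfsgLib.BlockQP CfsgLib.BlockDefect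
  CfsgLib.Points CfsgLib.PLocalInd CfsgLib.CharBasic CfsgLib.BlockCore CfsgLib.BlockSec
  CfsgLib.BlockR CfsgLib.BlockIdem CfsgLib.BlockOrth CfsgLib.CharIndA CfsgLib.CharNorm
open scoped ComplexConjugate Pointwise

universe u v

section Main

variable {M : Ideal AlgInt} [hPr : M.IsPrime] {G : Type u} [Group G] [Fintype G]
variable {p : ℕ} [hp : Fact p.Prime] [hch : CharP (kM M) p] [hMx : M.IsMaximal]
variable {B : Set (IrrCharacter G)} {P : Subgroup G} [Fintype P] {c : MonoidAlgebra (kM M) G}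

open Classical in
/-- the column relation -/
theorem kap_col (hM : IsPModular p M) (hB : IsPBlock M B) (hmx : IsMx p ⊤ (JB M B) P c)
    [Fintype B] {v : G} (hv : v ∈ P)
    (hrk : blockRank p (bset M (CH ⊤ (Subgroup.zpowers v)) (ev p P c v)) = 1) :
    ∑ i : B, kap p P c ((i : IrrCharacter G) : G → ℂ) ((i : IrrCharacter G) : G → ℂ) v =
      (Nat.card P : ℂ) := by
  have hC0 : (Nat.card (CH ⊤ (Subgroup.zpowers v)) : ℂ) ≠ 0 := by
    exact_mod_cast Nat.card_pos.ne'
  have h1 := sum_WW hM (pel_of hmx.1.1.pg hv) (bset_induced hM hB hmx hv)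
  rw [hrk, Nat.cast_one, mul_one] at h1
  have h5 : ∀ χ : IrrCharacter G, ind B χ * WW p M v (ev p P c v) (χ : G → ℂ) (χ : G → ℂ) =
      if χ ∈ B then WW p M v (ev p P c v) (χ : G → ℂ) (χ : G → ℂ) else 0 := by
    intro χ
    split_ifs with h
    · rw [ind_of h, one_mul]
    · rw [ind_not h, zero_mul]
  simp_rw [h5] at h1
  rw [← Finset.sum_filter] at h1
  have h6 : ∑ χ ∈ Finset.univ.filter (fun χ : IrrCharacter G => χ ∈ B),
      WW p M v (ev p P c v) (χ : G → ℂ) (χ : G → ℂ) =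
      ∑ i : B, WW p M v (ev p P c v) ((i : IrrCharacter G) : G → ℂ)
        ((i : IrrCharacter G) : G → ℂ) := by
    refine Finset.sum_subtype _ (fun χ => ?_) _
    simp
  rw [h6] at h1
  unfold kap
  rw [← Finset.mul_sum, h1]
  field_simp

open Classical in
/-- a reference character -/
theorem kf_ref (hM : IsPModular p M) (hp2 : p = 2) (hB : IsPBlock M B)
    (hmx : IsMx p ⊤ (JB M B) P c) (hV : IsKleinFour P) (hP1 : P ≠ ⊥) [Fintype B] :
    ∃ i₁ : B, ∀ v ∈ P, v ≠ 1 →
      kap p P c ((i₁ : IrrCharacter G) : G → ℂ) ((i₁ : IrrCharacter G) : G → ℂ) v = 1 := by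
  have hab := kf_ab hV
  have hfree := kf_free hp2 hB hmx hV
  have hrk := free_rk hM hB hmx hab hfree
  obtain ⟨χ, hχ, h0'⟩ := exists_height_zero hM hB
  have h0 : blockHeight p B (χ : G → ℂ) = 0 := (height_zero_iff hM hB hχ).2 h0'
  obtain ⟨hm0, hm4⟩ := mm_lt hM hB hmx hχ h0 hP1
  rw [hV.card_four] at hm4
  have hmodd := mm_not_dvd hM hB hχ h0 hχ
  have hmodd : ¬ (2 : ℤ) ∣ mm p B χ χ := by
    intro h
    apply hmodd
    rw [h0, zero_add, pow_one]
    have h2 : ((p : ℕ) : ℤ) = 2 := by rw [hp2]; norm_num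
    rw [h2]
    exact h
  -- integers
  have hint : ∀ (i : B) (v : P), v ≠ 1 → ∃ n : ℤ, 1 ≤ n ∧
      kap p P c ((i : IrrCharacter G) : G → ℂ) ((i : IrrCharacter G) : G → ℂ) v = n := by
    intro i v hv
    obtain ⟨n, hn⟩ := kf_kapint hM hp2 hB hmx hV i.2 i.2 hv
    refine ⟨n, ?_, hn⟩
    obtain ⟨r, hr, hr'⟩ := kap_self (p := p) (P := P) (c := c)
      ((i : IrrCharacter G) : G → ℂ) (v : G)
    obtain ⟨s, hs, hne⟩ := dv_major hM hB hmx i.2 v.2 (fun w hw => hab w hw v v.2)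
    have h1 := kap_ne ((i : IrrCharacter G) : G → ℂ) hs hne
    have h2 : (n : ℝ) = r := by
      have h3 : ((n : ℝ) : ℂ) = (r : ℂ) := by rw [← hr', hn]; push_cast; rfl
      exact_mod_cast h3
    have h3 : n ≠ 0 := by
      rintro rfl
      apply h1
      rw [hn, Int.cast_zero]
    have h4 : (0 : ℝ) ≤ n := by rw [h2]; exact hr
    have h5 : 0 ≤ n := by exact_mod_cast h4
    omega
  have hk : ∀ v : P, ∃ n : ℤ, v ≠ 1 → (1 ≤ n ∧
      kap p P c (χ : G → ℂ) (χ : G → ℂ) v = n) := by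
    intro v
    by_cases hv : v = 1
    · exact ⟨0, fun h => absurd hv h⟩
    · obtain ⟨n, hn⟩ := hint ⟨χ, hχ⟩ v hv
      exact ⟨n, fun _ => hn⟩
  choose k hk using hk
  obtain ⟨n, hn, hn1⟩ := row_GG hM hB hmx hχ hχ
  rw [hn1 rfl, mul_one, hV.card_four] at hn
  have hGG : ∀ v ∈ Finset.univ.filter (fun v : P => v ≠ 1),
      GG p P c (χ : G → ℂ) (χ : G → ℂ) v =
        (Nat.card (actHom P (TS ⊤ P c) TS_le_normalizer).range : ℂ)⁻¹ * (k v : ℂ) := by
    intro v hv
    have hv1 := (Finset.mem_filter.1 hv).2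
    rw [free_GG hM hB hmx hab hfree _ _ v hv1, (hk v hv1).2]
  rw [Finset.sum_congr rfl hGG] at hn
  have hcardf : (Finset.univ.filter (fun v : P => v ≠ 1)).card = 3 := by
    have h6 : (Finset.univ.filter (fun v : P => v ≠ 1)) = Finset.univ.erase 1 := by
      ext v; simp
    rw [h6, Finset.card_erase_of_mem (Finset.mem_univ _), Finset.card_univ,
      ← Nat.card_eq_fintype_card, hV.card_four]
  obtain ⟨m, hm⟩ : ∃ m, m = mm p B χ χ := ⟨_, rfl⟩
  rw [← hm] at hm0 hm4 hmodd hn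
  refine ⟨⟨χ, hχ⟩, ?_⟩
  intro v hv hv1
  have hv1' : (⟨v, hv⟩ : P) ≠ 1 := fun h => hv1 (congrArg Subtype.val h)
  show kap p P c (χ : G → ℂ) (χ : G → ℂ) ((⟨v, hv⟩ : P) : G) = 1
  rcases kf_e hM hp2 hB hmx hV with he | he
  · -- inertial index one
    rw [he] at hn
    have h1 : (4 : ℤ) - m = ∑ v ∈ Finset.univ.filter (fun v : P => v ≠ 1), k v := by
      have h2 : (((4 : ℤ) - m : ℤ) : ℂ) =
          ((∑ v ∈ Finset.univ.filter (fun v : P => v ≠ 1), k v : ℤ) : ℂ) := by
        push_cast at hn ⊢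
        rw [hn]
        refine Finset.sum_congr rfl fun v _ => by norm_num
      exact_mod_cast h2
    have h2 : ∑ v ∈ Finset.univ.filter (fun v : P => v ≠ 1), (k v - 1) = 1 - m := by
      rw [Finset.sum_sub_distrib, ← h1, Finset.sum_const, hcardf]
      simp
      ring
    have h3 : ∀ v ∈ Finset.univ.filter (fun v : P => v ≠ 1), 0 ≤ k v - 1 := by
      intro w hw
      have := (hk w (Finset.mem_filter.1 hw).2).1
      omega
    have h4 := Finset.sum_nonneg h3
    have h5 : ∑ v ∈ Finset.univ.filter (fun v : P => v ≠ 1), (k v - 1) = 0 := by omega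
    have h6 := (Finset.sum_eq_zero_iff_of_nonneg h3).1 h5 ⟨v, hv⟩
      (Finset.mem_filter.2 ⟨Finset.mem_univ _, hv1'⟩)
    rw [(hk _ hv1').2]
    have h7 : k ⟨v, hv⟩ = 1 := by omega
    rw [h7, Int.cast_one]
  · -- inertial index three
    rw [he] at hn
    have hconst : ∀ w ∈ Finset.univ.filter (fun v : P => v ≠ 1),
        ((3 : ℕ) : ℂ)⁻¹ * (k w : ℂ) = ((3 : ℕ) : ℂ)⁻¹ * (k ⟨v, hv⟩ : ℂ) := by
      intro w hw
      have hw1 := (Finset.mem_filter.1 hw).2
      rw [← (hk w hw1).2, ← (hk _ hv1').2,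
        kf_inv hM hp2 hB hmx hV he (irr_classFun χ.2) (irr_classFun χ.2) hv1' hw1]
    rw [Finset.sum_congr rfl hconst, Finset.sum_const, hcardf, nsmul_eq_mul] at hn
    have h1 : (4 : ℤ) - m = k ⟨v, hv⟩ := by
      have h2 : (((4 : ℤ) - m : ℤ) : ℂ) = ((k ⟨v, hv⟩ : ℤ) : ℂ) := by
        push_cast at hn ⊢
        rw [hn]; field_simp
      exact_mod_cast h2
    have hk1 := (hk _ hv1').1
    rw [(hk _ hv1').2]
    have h3 : k ⟨v, hv⟩ = 1 ∨ k ⟨v, hv⟩ = 3 := by
      push_cast at hmodd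
      omega
    rcases h3 with h3 | h3
    · rw [h3, Int.cast_one]
    · exfalso
      -- the column
      have hcol := kap_col hM hB hmx hv (hrk v hv hv1)
      have hii : ∀ i : B, ∃ n : ℤ, 1 ≤ n ∧
          kap p P c ((i : IrrCharacter G) : G → ℂ) ((i : IrrCharacter G) : G → ℂ) v = n :=
        fun i => hint i ⟨v, hv⟩ hv1'
      choose n hn1 hn2 using hii
      have h4 : ∑ i : B, n i = 4 := by
        have h5 : ((∑ i : B, n i : ℤ) : ℂ) = ((4 : ℤ) : ℂ) := by
          push_cast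
          rw [← Finset.sum_congr rfl fun i _ => hn2 i, hcol, hV.card_four]
          norm_num
        exact_mod_cast h5
      have hnχ : n ⟨χ, hχ⟩ = 3 := by
        have h5 := hn2 ⟨χ, hχ⟩
        have h6 := (hk _ hv1').2
        have h7 : ((n ⟨χ, hχ⟩ : ℤ) : ℂ) = ((3 : ℤ) : ℂ) := by
          rw [← h5, ← h3, ← h6]
        exact_mod_cast h7
      rw [← Finset.add_sum_erase Finset.univ _ (Finset.mem_univ (⟨χ, hχ⟩ : B)), hnχ] at h4
      have h5 : ∑ i ∈ Finset.univ.erase (⟨χ, hχ⟩ : B), n i = 1 := by omega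
      obtain ⟨j, hj, hj0⟩ : ∃ j ∈ Finset.univ.erase (⟨χ, hχ⟩ : B), n j ≠ 0 := by
        by_contra hcon
        push Not at hcon
        rw [Finset.sum_eq_zero hcon] at h5
        exact absurd h5 (by norm_num)
      have h6 : n j ≤ 1 := by
        rw [← h5]
        exact Finset.single_le_sum (fun i _ => by have := hn1 i; omega) hj
      have h7 : n j = 1 := by have := hn1 j; omega
      obtain ⟨q, hq⟩ := kf_kapint hM hp2 hB hmx hV j.2 hχ hv1'
      have h8 := (kap_rank1 hM (hrk v hv hv1)).1 ((j : IrrCharacter G) : G → ℂ) (χ : G → ℂ)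
        (irr_classFun j.1.2) (irr_classFun χ.2)
      have h9 := kap_conj (p := p) (P := P) (c := c) (χ : G → ℂ) ((j : IrrCharacter G) : G → ℂ) v
      have hq' : kap p P c (χ : G → ℂ) ((j : IrrCharacter G) : G → ℂ) v = q := hq
      rw [← h9, hq', hn2 j, h7] at h8
      have h10 : kap p P c (χ : G → ℂ) (χ : G → ℂ) v = 3 := by
        have h11 := (hk _ hv1').2
        have h12 : kap p P c (χ : G → ℂ) (χ : G → ℂ) v = (k ⟨v, hv⟩ : ℂ) := h11
        rw [h12, h3]; norm_num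
      rw [h10, map_intCast] at h8
      have h11 : q * q = 3 := by
        have h12 : ((q * q : ℤ) : ℂ) = ((3 : ℤ) : ℂ) := by
          push_cast
          rw [h8]; norm_num
        exact_mod_cast h12
      have h12 : q < 2 := by nlinarith
      have h13 : -2 < q := by nlinarith
      interval_cases q <;> omega

open Classical in
/-- coherent data for blocks with Klein four defect groups -/
theorem kf_cd (hM : IsPModular p M) (hp2 : p = 2) (hB : IsPBlock M B)
    (hmx : IsMx p ⊤ (JB M B) P c) (hV : IsKleinFour P) (hP1 : P ≠ ⊥) [Fintype B] :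
    ∃ (κ : B → P → ℂ) (Ys : Finset B) (y : (P →* ℂˣ) → B) (σ : B → ℤ),
      CD p M (actHom P (TS ⊤ P c) TS_le_normalizer).range
        (fun i : B => ((i : IrrCharacter G) : G → ℂ)) κ Ys y σ := by
  have hab := kf_ab hV
  have hfree := kf_free hp2 hB hmx hV
  have hrk := free_rk hM hB hmx hab hfree
  have hPc := hmx.1.1
  obtain ⟨i₁, hi₁⟩ := kf_ref hM hp2 hB hmx hV hP1
  obtain ⟨Θ, hΘ⟩ : ∃ Θ : G → ℂ, Θ = ((i₁ : IrrCharacter G) : G → ℂ) := ⟨_, rfl⟩
  have hΘc : IsClassFunction G Θ := by rw [hΘ]; exact irr_classFun i₁.1.2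
  rw [← hΘ] at hi₁
  have hint : ∀ (i : B) (v : P), ∃ n : ℤ, v ≠ 1 →
      kap p P c Θ ((i : IrrCharacter G) : G → ℂ) v = n := by
    intro i v
    by_cases hv : v = 1
    · exact ⟨0, fun h => absurd hv h⟩
    · obtain ⟨n, hn⟩ := kf_kapint hM hp2 hB hmx hV i.2 i₁.2 hv
      exact ⟨n, fun _ => by rw [hΘ]; exact hn⟩
  choose n hn using hint
  have hsq : ∀ (i : B) (v : P), v ≠ 1 →
      kap p P c ((i : IrrCharacter G) : G → ℂ) ((i : IrrCharacter G) : G → ℂ) v =
        ((n i v * n i v : ℤ) : ℂ) := by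
    intro i v hv
    have hv1 : (v : G) ≠ 1 := fun h => hv (Subtype.ext h)
    have h8 := (kap_rank1 hM (hrk v v.2 hv1)).1 ((i : IrrCharacter G) : G → ℂ) Θ
      (irr_classFun i.1.2) hΘc
    have h9 := kap_conj (p := p) (P := P) (c := c) Θ ((i : IrrCharacter G) : G → ℂ) (v : G)
    rw [← h9, hn i v hv, hi₁ v v.2 hv1, mul_one, map_intCast] at h8
    rw [← h8]
    push_cast
    rfl
  have hne : ∀ (i : B) (v : P), v ≠ 1 → 1 ≤ n i v * n i v := by
    intro i v hv
    obtain ⟨s, hs, hne⟩ := dv_major hM hB hmx i.2 v.2 (fun w hw => hab w hw v v.2)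
    have h1 := kap_ne ((i : IrrCharacter G) : G → ℂ) hs hne
    rw [hsq i v hv] at h1
    have h2 : n i v ≠ 0 := by
      intro h
      apply h1
      rw [h]; simp
    have h3 : 0 < n i v * n i v := mul_self_pos.2 h2
    omega
  have hcol : ∀ v : P, v ≠ 1 → ∑ i : B, n i v * n i v = 4 := by
    intro v hv
    have hv1 : (v : G) ≠ 1 := fun h => hv (Subtype.ext h)
    have h1 := kap_col hM hB hmx v.2 (hrk v v.2 hv1)
    rw [Finset.sum_congr rfl fun i _ => hsq i v hv, hV.card_four] at h1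
    have h2 : ((∑ i : B, n i v * n i v : ℤ) : ℂ) = ((4 : ℤ) : ℂ) := by
      push_cast at h1 ⊢
      rw [h1]
    exact_mod_cast h2
  have hn1 : ∀ v : P, v ≠ 1 → n i₁ v = 1 := by
    intro v hv
    have hv1 : (v : G) ≠ 1 := fun h => hv (Subtype.ext h)
    have h1 := hn i₁ v hv
    rw [← hΘ, hi₁ v v.2 hv1] at h1
    exact_mod_cast h1.symm
  have hone : ∀ (v : P), v ≠ 1 → ∀ i : B, n i v * n i v = 1 := by
    intro v hv i
    by_cases hi : i = i₁
    · rw [hi, hn1 v hv]; norm_num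
    · have h1 := hcol v hv
      rw [← Finset.add_sum_erase Finset.univ _ (Finset.mem_univ i₁), hn1 v hv] at h1
      have h2 : n i v * n i v ≤ ∑ i ∈ Finset.univ.erase i₁, n i v * n i v :=
        Finset.single_le_sum (f := fun i => n i v * n i v)
          (fun i _ => by have := hne i v hv; omega)
          (Finset.mem_erase.2 ⟨hi, Finset.mem_univ _⟩)
      have h3 : n i v * n i v ≤ 3 := by linarith
      have h4 := hne i v hv
      have h5 : n i v < 2 := by nlinarith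
      have h6 : -2 < n i v := by nlinarith
      have h7 : n i v = -1 ∨ n i v = 0 ∨ n i v = 1 := by omega
      rcases h7 with h7 | h7 | h7
      · rw [h7]; norm_num
      · rw [h7] at h4; exact absurd h4 (by norm_num)
      · rw [h7]; norm_num
  have hpm : ∀ (i : B) (v : P), v ≠ 1 → n i v = 1 ∨ n i v = -1 := fun i v hv =>
    mul_self_eq_one_iff.1 (hone v hv i)
  have hcardB : Fintype.card B = 4 := by
    obtain ⟨v, hv, -⟩ := kf_exists (1 : P)
    have h1 := hcol v hv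
    rw [Finset.sum_congr rfl fun i _ => hone v hv i, Finset.sum_const, Finset.card_univ,
      nsmul_eq_mul, mul_one] at h1
    exact_mod_cast h1
  have hΘ1 : ∀ v ∈ P, v ≠ 1 → ∀ χ : G → ℂ, IsClassFunction G χ → ∀ s, pp p (v * s) = v →
        dv M v (ev p P c v) χ s = kap p P c Θ χ v * dv M v (ev p P c v) Θ s :=
    fun v hv hv1 => (kap_rank1 hM (hrk v hv hv1)).2 Θ hΘc (hi₁ v hv hv1)
  have hΘ2 : ∀ v ∈ P, v ≠ 1 → (Nat.card P : ℂ) * WW p M v (ev p P c v) Θ Θ =
        Nat.card (CH ⊤ (Subgroup.zpowers v)) := by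
    intro v hv hv1
    have h1 := hi₁ v hv hv1
    unfold kap at h1
    have hC0 : (Nat.card (CH ⊤ (Subgroup.zpowers v)) : ℂ) ≠ 0 := by
      exact_mod_cast Nat.card_pos.ne'
    field_simp at h1
    exact h1
  have hΘ3 : ∀ x ∈ TS ⊤ P c, ∀ v ∈ P, v ≠ 1 → ∀ s, pp p (v * s) = v →
        dv M (x * v * x⁻¹) (ev p P c (x * v * x⁻¹)) Θ (x * s * x⁻¹) =
          dv M v (ev p P c v) Θ s := by
    intro x hx v hv hv1 s hs
    have hev : ev p P c (x * v * x⁻¹) = cj x (ev p P c v) := by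
      symm
      apply ev_unique hPc
      have h7 := (ev_spec hPc hv).cj' (Subgroup.mem_top x)
      simp only [cS_of_normalizer hx.2.1, hx.2.2, cS_zpowers] at h7
      exact h7
    rw [hev]
    exact dv_conj hM hΘc hs (ev_blk hPc hv) x
  have hΘ4 : ∀ (f : P →* ℂˣ) (i : B), ∃ k : ℤ,
        (Nat.card P : ℂ)⁻¹ * ∑ v : P, (((f v : ℂˣ) : ℂ) - 1) *
          conj (if (v : G) = 1 then 0 else kap p P c Θ ((i : IrrCharacter G) : G → ℂ) v) = k := by
    intro f i
    obtain ⟨k, hk⟩ := kf_int f (n i) (hpm i)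
    refine ⟨k, ?_⟩
    rw [← hk]
    congr 1
    refine Finset.sum_congr rfl fun v _ => ?_
    congr 1
    by_cases hv : v = 1
    · rw [if_pos hv, if_pos (show (v : G) = 1 by rw [hv]; rfl), map_zero]
    · rw [if_neg hv, if_neg (show ¬ ((v : G) = 1) from fun h => hv (Subtype.ext h)), hn i v hv,
        map_intCast]
  have hKD := exists_kd2 hM hB hmx hab hP1 hfree hΘ1 hΘ2 hΘ3 hΘ4
  obtain ⟨-, h⟩ := cd_of_kd hM hB hmx hab hP1 hΘ1 hKD rfl (by
    rw [hcardB, hV.card_four]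
    rcases kf_e hM hp2 hB hmx hV with he | he <;> rw [he])
  exact h

end Main

end CfsgLib.Star
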