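import Mathlib
import Cfsg.Agent.EqBase
import Cfsg.Agent.LibStar66
import Cfsg.Agent.LibStar73

/-!
# Star construction, LXXIV: S4638 (helper18)
-/

set_option autoImplicit false
set_option linter.unusedSectionVars false
set_option linter.style.haveILetI false
set_option linter.unusedSimpArgs false
set_option linter.unusedVariables false

namespace CfsgLib.Star

open Cfsg CfsgLib.GalChar CfsgLib.GalField CfsgLib.BlockReg CfsgLib.BlockReg2 CfsgLib.LocR
  CfsgLib.BrP CfsgLib.Car CfsgLib.BlockQP CfsgLib.BlockDefect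
  CfsgLib.Points CfsgLib.PLocalInd CfsgLib.CharBasic CfsgLib.BlockCore CfsgLib.BlockSec
  CfsgLib.BlockR CfsgLib.BlockIdem CfsgLib.BlockOrth CfsgLib.CharIndA CfsgLib.CharNorm
open scoped ComplexConjugate Pointwise

universe u v

theorem kf_transfer {P Q : Type*} [Group P] [Group Q] (ι : Q ≃* P) (hV : IsKleinFour P) :
    IsKleinFour Q where
  card_four := by rw [Nat.card_congr ι.toEquiv]; exact hV.card_four
  exponent_two := by rw [Monoid.exponent_eq_of_mulEquiv ι]; exact hV.exponent_two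

section Main

variable {M : Ideal AlgInt} {G : Type u} [Group G] [Fintype G]

theorem s4638 (hM : IsPModular 2 M) {B : Set (IrrCharacter G)} (hB : IsPBlock M B)
    {P : Subgroup G} (hPD : IsDefectGroup 2 M B P) (hV : IsKleinFour P)
    {H : Subgroup G}
    (hH : H = Subgroup.normalizer (P : Set G)) {c : Set (IrrCharacter H)}
    (hcD : IsDefectGroup 2 M c (P.subgroupOf H)) (hc : IsInducedBlock M H c B) :
      ∃ (I : IrrCharacter H → IrrCharacter G) (ε : IrrCharacter H → ℤ),
        IsPerfectIsometry 2 M c B I ε := by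
  classical
  haveI : Fact (Nat.Prime 2) := ⟨Nat.prime_two⟩
  haveI hPr : M.IsPrime := isPrime_of_modular hM
  haveI : M.IsMaximal := hM.2.1
  haveI := charP_kM hM
  haveI := Fintype.ofFinite P
  haveI := Fintype.ofFinite B
  haveI := Fintype.ofFinite H
  haveI := Fintype.ofFinite c
  have hNH : Subgroup.normalizer (P : Set G) ≤ H := hH.ge
  have hPH : P ≤ H := Subgroup.le_normalizer.trans hNH
  have hHN : H ≤ Subgroup.normalizer (P : Set G) := hH.le
  have hCH : Subgroup.centralizer (P : Set G) ≤ H := by rw [hH]; exact centralizer_le_normalizer _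
  have hne : ∀ {L : Type u} [Group L] {Q : Subgroup L}, IsKleinFour Q → Q ≠ ⊥ := by
    intro L _ Q hQ h
    have h1 := hQ.card_four
    rw [h, Subgroup.card_bot] at h1
    exact absurd h1 (by norm_num)
  obtain ⟨c₁, hmxH, hmxG⟩ := mx_up hM hB hPD le_rfl hPH hHN hCH hcD hc
  obtain ⟨κ, Ys, y, σ, hcd⟩ := kf_cd hM rfl hB hmxG hV (hne hV)
  obtain ⟨c', hmx', hTS', -⟩ := rel_data2 hM (h_blk hc.1) hmxH
  rw [bset_bk hc.1] at hmx'
  have hV' : IsKleinFour (P.subgroupOf H) :=
    kf_transfer (Subgroup.subgroupOfEquivOfLe hPH) hV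
  haveI := Fintype.ofFinite (P.subgroupOf H)
  obtain ⟨κ', Ys', y', σ', hcd'⟩ := kf_cd hM rfl hc.1 hmx' hV' (hne hV')
  have hTSH : TS ⊤ P c₁ ≤ H := TS_le_normalizer.trans hNH
  have hmemTS : ∀ x : H, x ∈ TS ⊤ (P.subgroupOf H) c' ↔ (x : G) ∈ TS ⊤ P c₁ := by
    intro x
    rw [hTS']
    exact ⟨fun h => ⟨Subgroup.mem_top _, h.2⟩, fun h => ⟨x.2, h.2⟩⟩
  have hA : ∀ α : MulAut P, α ∈ (actHom P (TS ⊤ P c₁) TS_le_normalizer).range ↔
      ((Subgroup.subgroupOfEquivOfLe hPH).trans
        (α.trans (Subgroup.subgroupOfEquivOfLe hPH).symm) : MulAut (P.subgroupOf H)) ∈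
      (actHom (P.subgroupOf H) (TS ⊤ (P.subgroupOf H) c') TS_le_normalizer).range := by
    intro α
    constructor
    · rintro ⟨⟨t, ht⟩, rfl⟩
      refine ⟨⟨⟨t, hTSH ht⟩, (hmemTS _).2 ht⟩, ?_⟩
      apply MulEquiv.ext
      intro v
      apply Subtype.ext
      apply Subtype.ext
      rfl
    · rintro ⟨⟨t, ht⟩, h1⟩
      refine ⟨⟨(t : G), (hmemTS t).1 ht⟩, ?_⟩
      apply MulEquiv.ext
      intro v
      have h2 := DFunLike.congr_fun h1 ((Subgroup.subgroupOfEquivOfLe hPH).symm v)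
      have h3 := congrArg (fun z : P.subgroupOf H => ((z : H) : G)) h2
      apply Subtype.ext
      exact h3
  obtain ⟨I, δ, h1, -⟩ := perf_cd hM hB hcd hcd' (Subgroup.subgroupOfEquivOfLe hPH) hA
  exact ⟨I, δ, h1⟩

end Main

end CfsgLib.Star
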