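import Mathlib
import Cfsg.Agent.EqBase
import Cfsg.Agent.LibStar81
import Cfsg.Agent.LibBlockSq

/-!
# Star construction, LXXXV: the dimension of a block (helper18)
-/

set_option autoImplicit false
set_option linter.unusedSectionVars false
set_option linter.style.haveILetI false
set_option linter.unusedSimpArgs false
set_option linter.unusedVariables false

namespace CfsgLib.Star

open Cfsg CfsgLib.GalChar CfsgLib.GalField CfsgLib.BlockReg CfsgLib.BlockReg2 CfsgLib.LocR
  CfsgLib.BrP CfsgLib.Car CfsgLib.BlockQP CfsgLib.BlockDefect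
  CfsgLib.Points CfsgLib.PLocalInd CfsgLib.CharBasic CfsgLib.BlockCore CfsgLib.BlockSec
  CfsgLib.BlockR CfsgLib.BlockIdem CfsgLib.BlockOrth CfsgLib.CharIndA CfsgLib.CharNorm CfsgLib.BlockM
open scoped ComplexConjugate Pointwise

universe u v

variable {M : Ideal AlgInt} [hPr : M.IsPrime] {G : Type u} [Group G] [Fintype G]
variable {p : ℕ} [hp : Fact p.Prime] [hch : CharP (kM M) p] [hMx : M.IsMaximal]
variable {B : Set (IrrCharacter G)}

open Classical in
/-- common divisors of the degrees divide the dimensions of the simple modules -/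
theorem dim_dvd' (hM : IsPModular p M) (hB : IsPBlock M B)
    {L : Finset (MonoidAlgebra (kM M) G)} (hL : Dec 1 L) {n : ℕ} (hn : 0 < n)
    {a : IrrCharacter G → ℕ} (hdeg : ∀ χ ∈ B, (χ : G → ℂ) 1 = n * a χ) : ∃ z : MonoidAlgebra (kM M) G → ℤ,
      ∀ i ∈ PT M B L, (((DB M B L).filter fun l => rp L l = i).card : ℤ) = n * z i := by
  have hn0 : (n : ℂ) ≠ 0 := by exact_mod_cast hn.ne'
  -- integrality
  have key : ∀ f ∈ Submodule.span ℤ (CfsgLib.Monomial.linSet
      (fun H : Subgroup G => ∃ p : ℕ, p.Prime ∧ IsElementary p H)),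
      ∃ z : MonoidAlgebra (kM M) G → ℤ, ∀ χ ∈ B, classInner (hat p (χ : G → ℂ)) f =
        ∑ i ∈ PT M B L, (z i : ℂ) * tau (χ : G → ℂ) 1 i := by
    intro f hf
    induction hf using Submodule.span_induction with
    | mem x hx =>
      obtain ⟨E, l, ⟨r, hr, hE⟩, rfl⟩ := hx
      obtain ⟨q, hq, h3⟩ := hat_ind hM (CfsgLib.Monomial.elementary_nilpotent hr hE) l
      obtain ⟨Lq, hLq⟩ := exists_dec (kM M) hq
      refine ⟨fun i => ((Lq.filter fun l => rp L l = i).card : ℤ), fun χ hχ => ?_⟩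
      rw [h3 _ (irr_classFun χ.2), tau_count hM hB hL hLq hχ]
      refine Finset.sum_congr rfl fun i _ => by push_cast; rfl
    | zero =>
      refine ⟨fun _ => 0, fun χ _ => ?_⟩
      unfold classInner
      simp
    | add x y _ _ hx hy =>
      obtain ⟨z, hz⟩ := hx
      obtain ⟨w, hw⟩ := hy
      refine ⟨fun i => z i + w i, fun χ hχ => ?_⟩
      have h3 : classInner (hat p (χ : G → ℂ)) (x + y) =
          classInner (hat p (χ : G → ℂ)) x + classInner (hat p (χ : G → ℂ)) y := by
        unfold classInner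
        rw [← mul_add, ← Finset.sum_add_distrib]
        congr 1
        refine Finset.sum_congr rfl fun g _ => ?_
        rw [Pi.add_apply, map_add]; ring
      rw [h3, hz χ hχ, hw χ hχ, ← Finset.sum_add_distrib]
      refine Finset.sum_congr rfl fun i _ => by push_cast; ring
    | smul a x _ hx =>
      obtain ⟨z, hz⟩ := hx
      refine ⟨fun i => a * z i, fun χ hχ => ?_⟩
      have h3 : classInner (hat p (χ : G → ℂ)) (a • x) =
          (a : ℂ) * classInner (hat p (χ : G → ℂ)) x := by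
        unfold classInner
        have e : ∀ g, hat p (χ : G → ℂ) g * conj ((a • x) g) =
            (a : ℂ) * (hat p (χ : G → ℂ) g * conj (x g)) := by
          intro g
          rw [Pi.smul_apply, zsmul_eq_mul, map_mul, map_intCast]; ring
        rw [Finset.sum_congr rfl fun g _ => e g, ← Finset.mul_sum]
        ring
      rw [h3, hz χ hχ, Finset.mul_sum]
      refine Finset.sum_congr rfl fun i _ => by push_cast; ring
  -- the weighted sum of the characters of the block
  set Ψ : G → ℂ := ∑ χ ∈ Finset.univ.filter (fun χ : IrrCharacter G => χ ∈ B), (a χ : ℤ) • (χ : G → ℂ)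
    with hΨ
  have hΨc : Ψ ∈ Submodule.span ℤ (CfsgLib.Monomial.linSet
      (fun H : Subgroup G => ∃ p : ℕ, p.Prime ∧ IsElementary p H)) := by
    refine Submodule.sum_mem _ fun χ _ => Submodule.smul_mem _ _ ?_
    exact CfsgLib.Monomial.lin_mem_span (CfsgLib.CharInt.irr_isCharacter χ.2)
  have hΨa : ∀ g, Ψ g = ∑ χ : IrrCharacter G, ind B χ * ((a χ : ℂ) * (χ : G → ℂ) g) := by
    intro g
    rw [hΨ, Finset.sum_apply, Finset.sum_filter]
    refine Finset.sum_congr rfl fun χ _ => ?_
    split_ifs with h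
    · rw [ind_of h, one_mul, Pi.smul_apply, zsmul_eq_mul, Int.cast_natCast]
    · rw [ind_not h, zero_mul]
  have h1r : ¬ p ∣ orderOf (1 : G) := by rw [orderOf_one]; exact hp.out.not_dvd_one
  have hΨ0 : ∀ g, p ∣ orderOf g → Ψ g = 0 := by
    intro g hg
    have h1 := KK_zero hM hB h1r hg
    unfold KK at h1
    have h2 : ∀ ψ : IrrCharacter G, ind B ψ * ((ψ : G → ℂ) 1 * conj ((ψ : G → ℂ) g)) =
        n * (ind B ψ * ((a ψ : ℂ) * conj ((ψ : G → ℂ) g))) := by
      intro ψ
      by_cases hψ : ψ ∈ B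
      · rw [hdeg ψ hψ]; ring
      · rw [ind_not hψ]; ring
    simp_rw [h2] at h1
    rw [← Finset.mul_sum] at h1
    have h3 := (mul_eq_zero.1 h1).resolve_left hn0
    have h4 : conj (Ψ g) = 0 := by
      rw [hΨa, map_sum, ← h3]
      refine Finset.sum_congr rfl fun ψ _ => ?_
      rw [map_mul, conj_ind', map_mul, map_natCast]
    have h5 := congrArg conj h4
    rwa [Complex.conj_conj, map_zero] at h5
  have hΨ1 : ∀ χ ∈ B, classInner (hat p (χ : G → ℂ)) Ψ = a χ := by
    intro χ hχ
    have h1 : classInner (hat p (χ : G → ℂ)) Ψ = classInner (χ : G → ℂ) Ψ := by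
      unfold classInner
      congr 1
      refine Finset.sum_congr rfl fun g _ => ?_
      by_cases hg : p ∣ orderOf g
      · rw [hΨ0 g hg, map_zero, mul_zero, mul_zero]
      · rw [hat_reg _ hg]
    rw [h1]
    have h2 : classInner (χ : G → ℂ) Ψ = ∑ ψ : IrrCharacter G, ind B ψ * ((a ψ : ℂ) *
        classInner (χ : G → ℂ) (ψ : G → ℂ)) := by
      unfold classInner
      simp_rw [hΨa, map_sum, Finset.mul_sum]
      rw [Finset.sum_comm]
      refine Finset.sum_congr rfl fun ψ _ => ?_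
      refine Finset.sum_congr rfl fun g _ => ?_
      rw [map_mul, conj_ind', map_mul, map_natCast]; ring
    rw [h2, Finset.sum_eq_single χ]
    · rw [ind_of hχ, (irr_iff_norm_one.mp χ.2).2, one_mul, mul_one]
    · intro ψ _ hψ
      have h3 := irr_inner χ.2 ψ.2
      rw [if_neg (fun h => hψ (Subtype.ext h).symm)] at h3
      rw [h3, mul_zero, mul_zero]
    · intro h; exact absurd (Finset.mem_univ _) h
  obtain ⟨z, hz⟩ := key Ψ hΨc
  refine ⟨z, ?_⟩
  have h1 := li_N hM hB hL (c := fun i =>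
    (((DB M B L).filter fun l => rp L l = i).card : ℂ) - n * z i) (by
      intro χ hχ
      have h2 := tau_count hM hB hL (DB_dec hB hL) hχ
      rw [tau_JB hM hB hχ, hdeg χ hχ] at h2
      have h3 := hz χ hχ
      rw [hΨ1 χ hχ] at h3
      simp_rw [sub_mul]
      rw [Finset.sum_sub_distrib, ← h2]
      simp_rw [mul_assoc]
      rw [← Finset.mul_sum, ← h3, sub_self])
  intro i hi
  have h2 := sub_eq_zero.1 (h1 i hi)
  exact_mod_cast h2

/-- the rank of a block is at most the number of its points -/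
theorem rank_le_points (hM : IsPModular p M) (hB : IsPBlock M B)
    {L : Finset (MonoidAlgebra (kM M) G)} (hL : Dec 1 L) :
    blockRank p B ≤ (PT M B L).card := by
  classical
  let v : B → (G → ℂ) := fun χ => pRegularPart p ((χ : IrrCharacter G) : G → ℂ)
  let w : B → ({i // i ∈ PT M B L} → ℂ) := fun χ i => tau ((χ : IrrCharacter G) : G → ℂ) 1
    (i : MonoidAlgebra (kM M) G)
  have hr : blockRank p B = Module.finrank ℂ (LinearMap.range (Fintype.linearCombination ℂ v)) := by
    have hset : (fun χ : IrrCharacter G => pRegularPart p (χ : G → ℂ)) '' B = Set.range v := by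
      ext f
      constructor
      · rintro ⟨χ, hχ, rfl⟩; exact ⟨⟨χ, hχ⟩, rfl⟩
      · rintro ⟨χ, rfl⟩; exact ⟨χ.1, χ.2, rfl⟩
    unfold blockRank
    rw [Fintype.range_linearCombination, hset]
  have h1 := LinearMap.finrank_range_add_finrank_ker (Fintype.linearCombination ℂ v)
  have h2 := LinearMap.finrank_range_add_finrank_ker (Fintype.linearCombination ℂ w)
  have h3 : LinearMap.ker (Fintype.linearCombination ℂ w) ≤
      LinearMap.ker (Fintype.linearCombination ℂ v) := by
    intro c hc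
    rw [LinearMap.mem_ker] at hc ⊢
    -- extend by zero
    let c' : IrrCharacter G → ℂ := fun χ => if h : χ ∈ B then c ⟨χ, h⟩ else 0
    have hsum : ∀ F : IrrCharacter G → ℂ, ∑ χ : IrrCharacter G, c' χ * F χ =
        ∑ χ : B, c χ * F χ := by
      intro F
      have e1 : ∀ χ : B, c χ * F χ = c' χ * F χ := by
        intro χ
        show _ = (if h : (χ : IrrCharacter G) ∈ B then c ⟨χ, h⟩ else 0) * _
        rw [dif_pos χ.2]
      rw [Finset.sum_congr rfl fun χ _ => e1 χ]
      rw [← Finset.sum_subtype (Finset.univ.filter fun χ : IrrCharacter G => χ ∈ B)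
        (fun χ => by simp) (fun χ => c' χ * F χ), Finset.sum_filter]
      refine Finset.sum_congr rfl fun χ _ => ?_
      split_ifs with h
      · rfl
      · show (if h : χ ∈ B then c ⟨χ, h⟩ else 0) * _ = 0
        rw [dif_neg h, zero_mul]
    have hc0 : ∀ i ∈ PT M B L, ∑ χ : IrrCharacter G, c' χ * tau (χ : G → ℂ) 1 i = 0 := by
      intro i hi
      rw [hsum]
      have h4 := congrFun hc ⟨i, hi⟩
      rw [Fintype.linearCombination_apply, Finset.sum_apply] at h4
      exact h4
    funext x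
    rw [Fintype.linearCombination_apply, Finset.sum_apply]
    show ∑ χ : B, c χ * pRegularPart p ((χ : IrrCharacter G) : G → ℂ) x = 0
    unfold pRegularPart
    by_cases hx : IsPRegular p x
    · have h5 := van_reg hM hB hL (c := c') (fun χ hχ => dif_neg hχ) (by
        intro l hl
        have hpl := hL.prim l (mem_DB.1 hl).1
        obtain ⟨h6, h7⟩ := rp_spec (kM M) hL hpl
        have h8 := hc0 (rp L l) (mem_PT.2 ⟨l, hl, rfl⟩)
        rw [← h8]
        refine Finset.sum_congr rfl fun χ _ => ?_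
        rw [tau_isoF hM (irr_classFun χ.2) (hL.prim _ h6).idem hpl.idem h7]) (s := x) hx
      rw [hsum] at h5
      rw [← h5]
      refine Finset.sum_congr rfl fun χ _ => ?_
      rw [if_pos hx]
    · refine Finset.sum_eq_zero fun χ _ => ?_
      rw [if_neg hx, mul_zero]
  have h4 := Submodule.finrank_mono h3
  have h5 : Module.finrank ℂ (LinearMap.range (Fintype.linearCombination ℂ w)) ≤
      (PT M B L).card := by
    refine (Submodule.finrank_le _).trans ?_
    rw [Module.finrank_fintype_fun_eq_card, Fintype.card_coe]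
  rw [hr]
  omega

/-- the dimensions of the projective indecomposable modules -/
theorem pim_ring (hM : IsPModular p M) {i : MonoidAlgebra (kM M) G} (hi : i * i = i) :
    MemLocalRing M ((∑ χ : IrrCharacter G, (χ : G → ℂ) 1 * tau (χ : G → ℂ) 1 i) /
      (Nat.card G : ℂ)) := by
  classical
  obtain ⟨a, haa, har⟩ := ex_lift hi
  have h1 : ∀ χ : IrrCharacter G, tau (χ : G → ℂ) 1 i =
      ∑ w : G, (a.coeff w : ℂ) * (χ : G → ℂ) w := fun χ => by
    rw [← har]; exact tau_tv hM (irr_classFun χ.2) haa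
  have h2 : ∑ χ : IrrCharacter G, (χ : G → ℂ) 1 * tau (χ : G → ℂ) 1 i =
      ∑ w : G, (a.coeff w : ℂ) * ∑ χ : IrrCharacter G, (χ : G → ℂ) w * conj ((χ : G → ℂ) 1) := by
    simp_rw [h1, Finset.mul_sum]
    rw [Finset.sum_comm]
    refine Finset.sum_congr rfl fun w _ => Finset.sum_congr rfl fun χ _ => ?_
    have h3 : conj ((χ : G → ℂ) 1) = (χ : G → ℂ) 1 := by
      rw [CfsgLib.CharInt.irr_one_eq_charDegree χ.2, Complex.conj_natCast]
    rw [h3]; ring
  have h0 : (Nat.card G : ℂ) ≠ 0 := by exact_mod_cast Nat.card_pos.ne'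
  have h4 : ∑ χ : IrrCharacter G, (χ : G → ℂ) 1 * tau (χ : G → ℂ) 1 i =
      (a.coeff 1 : ℂ) * Nat.card G := by
    rw [h2, Finset.sum_eq_single (1 : G)]
    · congr 1
      rw [CfsgLib.CharBasic.column_orthogonality, if_pos (IsConj.refl 1)]
      have h5 : Subgroup.centralizer ({1} : Set G) = ⊤ := by
        rw [eq_top_iff]
        intro x _
        rw [Subgroup.mem_centralizer_singleton_iff]
        simp
      rw [h5, Subgroup.card_top]
    · intro w _ hw
      rw [CfsgLib.CharBasic.column_orthogonality, if_neg, mul_zero]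
      intro h5
      exact hw (isConj_one_left.1 h5)
    · intro h; exact absurd (Finset.mem_univ _) h
  rw [h4, mul_div_assoc, div_self h0, mul_one]
  exact (a.coeff 1).2

theorem s4641 (hM : IsPModular p M) (hB : IsPBlock M B) {d g : ℕ}
    (hd : blockDefect p B = d)
    (hg1 : ∀ χ ∈ B, g ∣ charDegree (χ : G → ℂ))
    (hg2 : ∀ g' : ℕ, (∀ χ ∈ B, g' ∣ charDegree (χ : G → ℂ)) → g' ∣ g)
    (hsq : (∑ᶠ χ ∈ B, charDegree (χ : G → ℂ) ^ 2).factorization p =
      2 * (Nat.card G).factorization p - blockDefect p B) :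
    g.factorization p = (Nat.card G).factorization p - d ∧ ∃ v : ℕ, 0 < v ∧ ¬ p ∣ v ∧
      blockRank p B ≤ v ∧ ∑ᶠ χ ∈ B, charDegree (χ : G → ℂ) ^ 2 =
        p ^ (2 * (Nat.card G).factorization p - d) *
          (g / p ^ ((Nat.card G).factorization p - d)) ^ 2 * v := by
  classical
  subst hd
  set a := (Nat.card G).factorization p with ha
  set d := blockDefect p B with hd
  have hda : d ≤ a := defect_le p B
  obtain ⟨χ₀, hχ₀, hht⟩ := CfsgLib.BlockDefect.exists_height_zero hM hB
  have hdeg0 : ∀ χ : IrrCharacter G, charDegree (χ : G → ℂ) ≠ 0 := fun χ =>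
    (CfsgLib.CharInt.irr_charDegree_pos χ.2).ne'
  have hg0 : g ≠ 0 := by
    rintro rfl
    exact hdeg0 χ₀ (zero_dvd_iff.1 (hg1 χ₀ hχ₀))
  have hpg : p ^ (a - d) ∣ g := hg2 _ fun χ hχ => pow_dvd_degree hM hB hχ
  have hv : g.factorization p = a - d := by
    apply le_antisymm
    · have h1 := (Nat.factorization_le_iff_dvd hg0 (hdeg0 χ₀)).2 (hg1 χ₀ hχ₀) p
      omega
    · exact (Nat.Prime.pow_dvd_iff_le_factorization hp.out hg0).1 hpg
  refine ⟨hv, ?_⟩
  obtain ⟨u, hu⟩ := hpg
  have hpos : 0 < p ^ (a - d) := pow_pos hp.out.pos _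
  have hu0 : u ≠ 0 := by rintro rfl; exact hg0 (by rw [hu, mul_zero])
  have hgu : g / p ^ (a - d) = u := by rw [hu, Nat.mul_div_cancel_left _ hpos]
  have hpu : ¬ p ∣ u := by
    intro h
    have h1 : p ^ (a - d + 1) ∣ g := by
      rw [hu, pow_succ]; exact Nat.mul_dvd_mul_left _ h
    have h2 := (Nat.Prime.pow_dvd_iff_le_factorization hp.out hg0).1 h1
    omega
  rw [hgu]
  obtain ⟨L, hL⟩ := exists_dec (kM M) (A := MonoidAlgebra (kM M) G) (e := 1) (one_mul 1)
  have hD := DB_dec hB hL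
  set f : MonoidAlgebra (kM M) G → ℕ := fun i => ((DB M B L).filter fun l => rp L l = i).card
    with hf
  have hPD : ∀ i ∈ PT M B L, i ∈ DB M B L := fun i hi => (PT_spec hB hL hi).1
  have hid : ∀ l ∈ DB M B L, l * l = l := fun l hl => (hD.prim l hl).idem
  have hN' : ∀ (i : MonoidAlgebra (kM M) G) (χ : IrrCharacter G), ∃ N : ℕ, i ∈ DB M B L →
      tau (χ : G → ℂ) 1 i = N := by
    intro i χ
    by_cases hi : i ∈ DB M B L
    · obtain ⟨N, hN⟩ := tau_nat hM χ (hid i hi)
      exact ⟨N, fun _ => hN⟩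
    · exact ⟨0, fun h => absurd h hi⟩
  choose N hN using hN'
  have hsum : ∀ χ ∈ B, charDegree (χ : G → ℂ) = ∑ i ∈ PT M B L, f i * N i χ := by
    intro χ hχ
    have h2 := tau_count hM hB hL hD hχ
    rw [tau_JB hM hB hχ, CfsgLib.CharInt.irr_one_eq_charDegree χ.2] at h2
    have h3 : (charDegree (χ : G → ℂ) : ℂ) = ((∑ i ∈ PT M B L, f i * N i χ : ℕ) : ℂ) := by
      rw [h2]
      push_cast
      exact Finset.sum_congr rfl fun i hi => by rw [hN i χ (hPD i hi)]
    exact_mod_cast h3
  -- the dimensions of the simple modules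
  have hfz : ∀ i ∈ PT M B L, ∃ z : ℕ, 0 < z ∧ f i = g * z := by
    obtain ⟨z, hz⟩ := dim_dvd' hM hB hL (Nat.pos_of_ne_zero hg0)
      (a := fun χ => charDegree (χ : G → ℂ) / g) (by
        intro χ hχ
        rw [CfsgLib.CharInt.irr_one_eq_charDegree χ.2]
        have h1 := Nat.mul_div_cancel' (hg1 χ hχ)
        exact_mod_cast h1.symm)
    intro i hi
    have h1 : (f i : ℤ) = g * z i := hz i hi
    have h2 : 0 < f i := by
      apply Finset.card_pos.2
      exact ⟨i, Finset.mem_filter.2 ⟨hPD i hi, (PT_spec hB hL hi).2⟩⟩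
    have h3 : 0 < z i := by
      by_contra h
      push Not at h
      have : (g : ℤ) * z i ≤ 0 := mul_nonpos_of_nonneg_of_nonpos (by positivity) h
      omega
    obtain ⟨k, hk⟩ := Int.eq_ofNat_of_zero_le h3.le
    refine ⟨k, by omega, ?_⟩
    rw [hk] at h1
    exact_mod_cast h1
  -- the dimensions of the projective modules
  set P : MonoidAlgebra (kM M) G → ℕ := fun i =>
    ∑ χ ∈ (Set.toFinite B).toFinset, charDegree (χ : G → ℂ) * N i χ with hP
  have hP0 : ∀ i ∈ PT M B L, P i ≠ 0 := by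
    intro i hi h0
    have h1 : ∀ χ ∈ B, N i χ = 0 := by
      intro χ hχ
      have h2 := (Finset.sum_eq_zero_iff.1 h0) χ ((Set.Finite.mem_toFinset _).2 hχ)
      exact (Nat.mul_eq_zero.1 h2).resolve_left (hdeg0 χ)
    have h2 := li_N hM hB hL (c := fun j => if j = i then 1 else 0) (by
      intro χ hχ
      refine Finset.sum_eq_zero fun j hj => ?_
      show (if j = i then (1 : ℂ) else 0) * _ = 0
      split_ifs with h
      · rw [h, hN i χ (hPD i hi), h1 χ hχ, Nat.cast_zero, mul_zero]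
      · rw [zero_mul]) i hi
    simp at h2
  have hPw : ∀ i ∈ PT M B L, ∃ w : ℕ, 0 < w ∧ P i = p ^ a * u * w := by
    intro i hi
    have h1 : (∑ χ : IrrCharacter G, (χ : G → ℂ) 1 * tau (χ : G → ℂ) 1 i) = (P i : ℂ) := by
      rw [hP]
      push_cast
      rw [← Finset.sum_subset (Finset.subset_univ (Set.toFinite B).toFinset)]
      · refine Finset.sum_congr rfl fun χ _ => ?_
        rw [CfsgLib.CharInt.irr_one_eq_charDegree χ.2, hN i χ (hPD i hi)]
      · intro χ _ hχ
        rw [tau_in_out hM hB hL (fun h => hχ ((Set.Finite.mem_toFinset _).2 h)) (hPD i hi),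
          mul_zero]
    have h2 := pim_ring hM (hid i (hPD i hi))
    rw [h1, ring_div_nat_iff hM (hP0 i hi) Nat.card_pos.ne'] at h2
    have h3 : p ^ a ∣ P i := (Nat.Prime.pow_dvd_iff_le_factorization hp.out (hP0 i hi)).2 h2
    have h4 : u ∣ P i := by
      apply Finset.dvd_sum
      intro χ hχ
      exact Dvd.dvd.mul_right ((Dvd.intro_left _ hu.symm).trans
        (hg1 χ ((Set.Finite.mem_toFinset _).1 hχ))) _
    have h5 : p ^ a * u ∣ P i := Nat.Coprime.mul_dvd_of_dvd_of_dvd
      (Nat.Coprime.pow_left a ((Nat.Prime.coprime_iff_not_dvd hp.out).2 hpu)) h3 h4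
    obtain ⟨w, hw⟩ := h5
    refine ⟨w, Nat.pos_of_ne_zero ?_, hw⟩
    rintro rfl
    exact hP0 i hi (by rw [hw, mul_zero])
  have hz' : ∀ i : MonoidAlgebra (kM M) G, ∃ z : ℕ, i ∈ PT M B L → (0 < z ∧ f i = g * z) := by
    intro i
    by_cases hi : i ∈ PT M B L
    · obtain ⟨z, hz⟩ := hfz i hi
      exact ⟨z, fun _ => hz⟩
    · exact ⟨0, fun h => absurd h hi⟩
  have hw' : ∀ i : MonoidAlgebra (kM M) G, ∃ w : ℕ, i ∈ PT M B L →
      (0 < w ∧ P i = p ^ a * u * w) := by
    intro i
    by_cases hi : i ∈ PT M B L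
    · obtain ⟨z, hz⟩ := hPw i hi
      exact ⟨z, fun _ => hz⟩
    · exact ⟨0, fun h => absurd h hi⟩
  choose z hz using hz'
  choose w hw using hw'
  have hmain : ∑ᶠ χ ∈ B, charDegree (χ : G → ℂ) ^ 2 =
      p ^ (2 * a - d) * u ^ 2 * ∑ i ∈ PT M B L, z i * w i := by
    rw [finsum_mem_eq_finite_toFinset_sum _ (Set.toFinite B)]
    have h1 : ∀ χ ∈ (Set.toFinite B).toFinset, charDegree (χ : G → ℂ) ^ 2 =
        ∑ i ∈ PT M B L, f i * (charDegree (χ : G → ℂ) * N i χ) := by
      intro χ hχ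
      rw [pow_two]
      conv_lhs => rw [hsum χ ((Set.Finite.mem_toFinset _).1 hχ)]
      rw [← hsum χ ((Set.Finite.mem_toFinset _).1 hχ), hsum χ ((Set.Finite.mem_toFinset _).1 hχ),
        Finset.sum_mul]
      refine Finset.sum_congr rfl fun i _ => by ring
    rw [Finset.sum_congr rfl h1, Finset.sum_comm, Finset.mul_sum]
    refine Finset.sum_congr rfl fun i hi => ?_
    rw [← Finset.mul_sum]
    show f i * P i = _
    rw [(hz i hi).2, (hw i hi).2, hu]
    have h2 : p ^ (2 * a - d) = p ^ (a - d) * p ^ a := by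
      rw [← pow_add]; congr 1; omega
    rw [h2]; ring
  set v := ∑ i ∈ PT M B L, z i * w i with hvdef
  have hsum0 : ∑ᶠ χ ∈ B, charDegree (χ : G → ℂ) ^ 2 ≠ 0 := by
    rw [finsum_mem_eq_finite_toFinset_sum _ (Set.toFinite B)]
    intro h0
    have h2 := (Finset.sum_eq_zero_iff.1 h0) χ₀ ((Set.Finite.mem_toFinset _).2 hχ₀)
    exact hdeg0 χ₀ (pow_eq_zero_iff (two_ne_zero)|>.1 h2)
  have hv0 : v ≠ 0 := by
    intro h0
    apply hsum0
    rw [hmain, h0, mul_zero]
  refine ⟨v, Nat.pos_of_ne_zero hv0, ?_, ?_, hmain⟩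
  · intro hpv
    obtain ⟨t, ht⟩ := hpv
    have h1 : p ^ (2 * a - d + 1) ∣ ∑ᶠ χ ∈ B, charDegree (χ : G → ℂ) ^ 2 := by
      rw [hmain, ht, pow_succ]
      exact ⟨u ^ 2 * t, by ring⟩
    have h2 := (Nat.Prime.pow_dvd_iff_le_factorization hp.out hsum0).1 h1
    rw [hsq] at h2
    omega
  · refine (rank_le_points hM hB hL).trans ?_
    rw [Finset.card_eq_sum_ones]
    apply Finset.sum_le_sum
    intro i hi
    exact Nat.mul_pos (hz i hi).1 (hw i hi).1

omit hPr hch hMx in
theorem s4641' (hM : IsPModular p M) (hB : IsPBlock M B) {D : Subgroup G}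
    (hD : IsDefectGroup p M B D) {a d g : ℕ} (ha : (Nat.card G).factorization p = a)
    (hd : Nat.card D = p ^ d)
    (hg1 : ∀ χ ∈ B, g ∣ charDegree (χ : G → ℂ))
    (hg2 : ∀ g' : ℕ, (∀ χ ∈ B, g' ∣ charDegree (χ : G → ℂ)) → g' ∣ g)
    (hsq : (∑ᶠ χ ∈ B, charDegree (χ : G → ℂ) ^ 2).factorization p =
      2 * (Nat.card G).factorization p - blockDefect p B) :
    g.factorization p = a - d ∧ ∃ v : ℕ, 0 < v ∧ ¬ p ∣ v ∧
      blockRank p B ≤ v ∧ ∑ᶠ χ ∈ B, charDegree (χ : G → ℂ) ^ 2 =
        p ^ (2 * a - d) * (g / p ^ (a - d)) ^ 2 * v := by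
  haveI hPr : M.IsPrime := isPrime_of_modular hM
  haveI : M.IsMaximal := hM.2.1
  haveI := charP_kM hM
  subst ha
  have hbd : blockDefect p B = d :=
    Nat.pow_right_injective hp.out.two_le ((card_defectGroup hM hB hD).symm.trans hd)
  exact s4641 hM hB hbd hg1 hg2 hsq

end CfsgLib.Star
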