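import Mathlib
import Cfsg.Agent.EqBase
import Cfsg.Agent.LibStar85

/-!
# Star construction, LXXXVI: traces of automorphisms on blocks (helper18)
-/

set_option autoImplicit false
set_option linter.unusedSectionVars false
set_option linter.style.haveILetI false
set_option linter.unusedSimpArgs false
set_option linter.unusedVariables false

namespace CfsgLib.Star

open Cfsg CfsgLib.GalChar CfsgLib.GalField CfsgLib.BlockReg CfsgLib.BlockReg2 CfsgLib.LocR
  CfsgLib.BrP CfsgLib.Car CfsgLib.BlockQP CfsgLib.BlockDefect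
  CfsgLib.Points CfsgLib.PLocalInd CfsgLib.CharBasic CfsgLib.BlockCore CfsgLib.BlockSec
  CfsgLib.BlockR CfsgLib.BlockIdem CfsgLib.BlockOrth CfsgLib.CharIndA CfsgLib.CharNorm CfsgLib.BlockM
open scoped ComplexConjugate Pointwise

universe u v

variable {M : Ideal AlgInt} [hPr : M.IsPrime] {G : Type u} [Group G] [Fintype G]
variable {p : ℕ} [hp : Fact p.Prime] [hch : CharP (kM M) p] [hMx : M.IsMaximal]
variable {B : Set (IrrCharacter G)}


/-- duality between characters and points -/
theorem dual_pts (hM : IsPModular p M) (hB : IsPBlock M B)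
    {L : Finset (MonoidAlgebra (kM M) G)} (hL : Dec 1 L) :
    (∀ c : IrrCharacter G → ℂ, (∀ χ, χ ∉ B → c χ = 0) →
      (∀ x : G, ¬ p ∣ orderOf x → ∑ χ : IrrCharacter G, c χ * (χ : G → ℂ) x = 0) →
      ∀ i ∈ PT M B L, ∑ χ : IrrCharacter G, c χ * tau (χ : G → ℂ) 1 i = 0) ∧
    (∀ b : MonoidAlgebra (kM M) G → ℂ, ∃ c : IrrCharacter G → ℂ, (∀ χ, χ ∉ B → c χ = 0) ∧
      ∀ i ∈ PT M B L, ∑ χ : IrrCharacter G, c χ * tau (χ : G → ℂ) 1 i = b i) := by
  classical
  let v : B → (G → ℂ) := fun χ => pRegularPart p ((χ : IrrCharacter G) : G → ℂ)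
  let w : B → ({i // i ∈ PT M B L} → ℂ) := fun χ i => tau ((χ : IrrCharacter G) : G → ℂ) 1
    (i : MonoidAlgebra (kM M) G)
  have hr : blockRank p B = Module.finrank ℂ (LinearMap.range (Fintype.linearCombination ℂ v)) := by
    have hset : (fun χ : IrrCharacter G => pRegularPart p (χ : G → ℂ)) '' B = Set.range v := by
      ext f
      constructor
      · rintro ⟨χ, hχ, rfl⟩; exact ⟨⟨χ, hχ⟩, rfl⟩
      · rintro ⟨χ, rfl⟩; exact ⟨χ.1, χ.2, rfl⟩
    unfold blockRank
    rw [Fintype.range_linearCombination, hset]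
  have hPle : (PT M B L).card ≤ blockRank p B := by
    let ee := (PT M B L).equivFin.symm
    refine points_le hM hB hL (fun j => ((ee j : {i // i ∈ PT M B L}) : MonoidAlgebra (kM M) G))
      ?_ ?_ ?_
    · intro j; exact (mem_DB.1 (PT_spec hB hL (ee j).2).1).1
    · intro j; exact (mem_DB.1 (PT_spec hB hL (ee j).2).1).2
    · intro j j' hne h
      apply hne
      exact ee.injective (Subtype.ext (PT_iso hB hL (ee j).2 (ee j').2 h))
  have h1 := LinearMap.finrank_range_add_finrank_ker (Fintype.linearCombination ℂ v)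
  have h2 := LinearMap.finrank_range_add_finrank_ker (Fintype.linearCombination ℂ w)
  have hsum : ∀ (c : B → ℂ) (F : IrrCharacter G → ℂ),
      ∑ χ : IrrCharacter G, (if h : χ ∈ B then c ⟨χ, h⟩ else 0) * F χ = ∑ χ : B, c χ * F χ := by
    intro c F
    have e1 : ∀ χ : B, c χ * F χ = (if h : (χ : IrrCharacter G) ∈ B then c ⟨χ, h⟩ else 0) * F χ := by
      intro χ
      rw [dif_pos χ.2]
    rw [Finset.sum_congr rfl fun χ _ => e1 χ]
    rw [← Finset.sum_subtype (Finset.univ.filter fun χ : IrrCharacter G => χ ∈ B)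
      (fun χ => by simp) (fun χ => (if h : χ ∈ B then c ⟨χ, h⟩ else 0) * F χ), Finset.sum_filter]
    refine Finset.sum_congr rfl fun χ _ => ?_
    split_ifs with h
    · rfl
    · rw [zero_mul]
  have h3 : LinearMap.ker (Fintype.linearCombination ℂ w) ≤
      LinearMap.ker (Fintype.linearCombination ℂ v) := by
    intro c hc
    rw [LinearMap.mem_ker] at hc ⊢
    have hc0 : ∀ i ∈ PT M B L, ∑ χ : IrrCharacter G,
        (if h : χ ∈ B then c ⟨χ, h⟩ else 0) * tau (χ : G → ℂ) 1 i = 0 := by
      intro i hi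
      rw [hsum]
      have h4 := congrFun hc ⟨i, hi⟩
      rw [Fintype.linearCombination_apply, Finset.sum_apply] at h4
      exact h4
    funext x
    rw [Fintype.linearCombination_apply, Finset.sum_apply]
    show ∑ χ : B, c χ * pRegularPart p ((χ : IrrCharacter G) : G → ℂ) x = 0
    unfold pRegularPart
    by_cases hx : IsPRegular p x
    · have h5 := van_reg hM hB hL (c := fun χ => if h : χ ∈ B then c ⟨χ, h⟩ else 0)
        (fun χ hχ => dif_neg hχ) (by
        intro l hl
        have hpl := hL.prim l (mem_DB.1 hl).1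
        obtain ⟨h6, h7⟩ := rp_spec (kM M) hL hpl
        have h8 := hc0 (rp L l) (mem_PT.2 ⟨l, hl, rfl⟩)
        refine (Finset.sum_congr rfl fun χ _ => ?_).trans h8
        rw [tau_isoF hM (irr_classFun χ.2) (hL.prim _ h6).idem hpl.idem h7]) (s := x) hx
      rw [hsum] at h5
      rw [← h5]
      refine Finset.sum_congr rfl fun χ _ => ?_
      rw [if_pos hx]
    · refine Finset.sum_eq_zero fun χ _ => ?_
      rw [if_neg hx, mul_zero]
  have h4 := Submodule.finrank_mono h3
  have hcard : Module.finrank ℂ ({i // i ∈ PT M B L} → ℂ) = (PT M B L).card := by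
    rw [Module.finrank_fintype_fun_eq_card, Fintype.card_coe]
  have h5 : Module.finrank ℂ (LinearMap.range (Fintype.linearCombination ℂ w)) ≤
      (PT M B L).card := by
    rw [← hcard]; exact Submodule.finrank_le _
  have hker : LinearMap.ker (Fintype.linearCombination ℂ w) =
      LinearMap.ker (Fintype.linearCombination ℂ v) :=
    Submodule.eq_of_le_of_finrank_eq h3 (by omega)
  have hrange : LinearMap.range (Fintype.linearCombination ℂ w) = ⊤ :=
    Submodule.eq_top_of_finrank_eq (by rw [hcard]; omega)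
  constructor
  · intro c hc hreg i hi
    have h6 : (fun χ : B => c χ) ∈ LinearMap.ker (Fintype.linearCombination ℂ v) := by
      rw [LinearMap.mem_ker]
      funext x
      rw [Fintype.linearCombination_apply, Finset.sum_apply]
      show ∑ χ : B, c χ * pRegularPart p ((χ : IrrCharacter G) : G → ℂ) x = 0
      unfold pRegularPart
      by_cases hx : IsPRegular p x
      · have h7 := hreg x hx
        have h8 := hsum (fun χ : B => c χ) (fun χ => (χ : G → ℂ) x)
        rw [Finset.sum_congr rfl (g := fun χ : IrrCharacter G => c χ * (χ : G → ℂ) x) (by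
          intro χ _
          by_cases hχ : χ ∈ B
          · rw [dif_pos hχ]
          · rw [dif_neg hχ, hc χ hχ]), h7] at h8
        rw [h8]
        exact Finset.sum_congr rfl fun χ _ => by rw [if_pos hx]
      · exact Finset.sum_eq_zero fun χ _ => by rw [if_neg hx, mul_zero]
    rw [← hker, LinearMap.mem_ker] at h6
    have h7 := congrFun h6 ⟨i, hi⟩
    rw [Fintype.linearCombination_apply, Finset.sum_apply] at h7
    have h8 := hsum (fun χ : B => c χ) (fun χ => tau (χ : G → ℂ) 1 i)
    rw [Finset.sum_congr rfl (g := fun χ : IrrCharacter G => c χ * tau (χ : G → ℂ) 1 i) (by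
      intro χ _
      by_cases hχ : χ ∈ B
      · rw [dif_pos hχ]
      · rw [dif_neg hχ, hc χ hχ])] at h8
    rw [h8]
    exact h7
  · intro b
    obtain ⟨c, hc⟩ : (fun i : {i // i ∈ PT M B L} => b i) ∈
        LinearMap.range (Fintype.linearCombination ℂ w) := by rw [hrange]; trivial
    refine ⟨fun χ => if h : χ ∈ B then c ⟨χ, h⟩ else 0, fun χ hχ => dif_neg hχ, ?_⟩
    intro i hi
    rw [hsum]
    have h7 := congrFun hc ⟨i, hi⟩
    rw [Fintype.linearCombination_apply, Finset.sum_apply] at h7
    exact h7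

/-- the image of a lifted idempotent under an automorphism -/
theorem tau_aut (hM : IsPModular p M) (α : G ≃* G) {i : MonoidAlgebra (kM M) G} (hi : i * i = i) :
    ∃ j : MonoidAlgebra (kM M) G, j * j = j ∧ ∀ F : G → ℂ, IsClassFunction G F →
      tau (fun x => F (α x)) 1 i = tau F 1 j := by
  obtain ⟨a, haa, har⟩ := ex_lift hi
  let a' : RG M G := rmk (fun x => a.coeff (α.symm x))
  have haa' : a' * a' = a' := by
    apply rext
    intro g
    rw [rmul_coeff]
    have h1 : a.coeff (α.symm g) = ∑ x : G, a.coeff x * a.coeff (x⁻¹ * α.symm g) := by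
      conv_lhs => rw [← haa, rmul_coeff]
    show _ = a.coeff (α.symm g)
    rw [h1]
    refine Fintype.sum_equiv α.symm.toEquiv _ _ ?_
    intro x
    show a.coeff (α.symm x) * a.coeff (α.symm (x⁻¹ * g)) =
      a.coeff (α.symm x) * a.coeff ((α.symm x)⁻¹ * α.symm g)
    rw [map_mul, map_inv]
  refine ⟨red M G a', by rw [← map_mul, haa'], fun F hF => ?_⟩
  have hFα : IsClassFunction G (fun x => F (α x)) := by
    intro g h
    show F (α (h * g * h⁻¹)) = F (α g)
    rw [map_mul, map_mul, map_inv]
    exact hF _ _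
  rw [← har, tau_tv hM hFα haa, tau_tv hM hF haa']
  refine Fintype.sum_equiv α.toEquiv _ _ ?_
  intro x
  show _ = ((a.coeff (α.symm (α x)) : LocR.subring M) : ℂ) * F (α x)
  rw [MulEquiv.symm_apply_apply]

/-- the trace of an automorphism on a block -/
theorem trace_aut (hM : IsPModular p M) (hB : IsPBlock M B)
    {L : Finset (MonoidAlgebra (kM M) G)} (hL : Dec 1 L) (α : G ≃* G) :
    ∃ n : ℕ, ∑ s : G, (if p ∣ orderOf s then 0 else KK B (α s) s) = (Nat.card G : ℂ) * n ∧
      ((∀ x, α x = x) → n = (PT M B L).card) := by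
  classical
  obtain ⟨hT, hdual⟩ := dual_pts hM hB hL
  have hid : ∀ i ∈ PT M B L, i * i = i := fun i hi =>
    (hL.prim _ (mem_DB.1 (PT_spec hB hL hi).1).1).idem
  choose c hc1 hc2 using fun i : MonoidAlgebra (kM M) G => hdual (fun j => if j = i then 1 else 0)
  let φ : MonoidAlgebra (kM M) G → G → ℂ := fun i x => ∑ χ : IrrCharacter G, c i χ * (χ : G → ℂ) x
  have hφ : ∀ i, IsClassFunction G (φ i) := by
    intro i g h
    exact Finset.sum_congr rfl fun χ _ => by rw [irr_classFun χ.2 g h]
  -- expansion on regular elements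
  have hexp : ∀ χ ∈ B, ∀ x, ¬ p ∣ orderOf x →
      (χ : G → ℂ) x = ∑ i ∈ PT M B L, tau (χ : G → ℂ) 1 i * φ i x := by
    intro χ hχ x hx
    have h1 := van_reg hM hB hL (c := fun ψ => (if ψ = χ then 1 else 0) -
      ∑ i ∈ PT M B L, tau (χ : G → ℂ) 1 i * c i ψ) (by
        intro ψ hψ
        have h0 : ¬ ψ = χ := fun h => hψ (by rw [h]; exact hχ)
        show (if ψ = χ then (1 : ℂ) else 0) - ∑ i ∈ PT M B L, tau (χ : G → ℂ) 1 i * c i ψ = 0
        rw [if_neg h0, Finset.sum_eq_zero (fun i _ => by
          rw [hc1 i ψ hψ, mul_zero]), sub_zero]) (by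
        intro l hl
        have hpl := hL.prim l (mem_DB.1 hl).1
        obtain ⟨h6, h7⟩ := rp_spec (kM M) hL hpl
        have hm : rp L l ∈ PT M B L := mem_PT.2 ⟨l, hl, rfl⟩
        have h8 : ∀ ψ : IrrCharacter G, tau (ψ : G → ℂ) 1 l = tau (ψ : G → ℂ) 1 (rp L l) :=
          fun ψ => (tau_isoF hM (irr_classFun ψ.2) (hL.prim _ h6).idem hpl.idem h7).symm
        simp_rw [h8, sub_mul, Finset.sum_sub_distrib, Finset.sum_mul]
        rw [Finset.sum_comm]
        have h9 : ∀ i ∈ PT M B L, ∑ ψ : IrrCharacter G, tau (χ : G → ℂ) 1 i * c i ψ *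
            tau (ψ : G → ℂ) 1 (rp L l) = tau (χ : G → ℂ) 1 i * (if rp L l = i then 1 else 0) := by
          intro i _
          rw [← hc2 i (rp L l) hm, Finset.mul_sum]
          exact Finset.sum_congr rfl fun ψ _ => by ring
        rw [Finset.sum_congr rfl h9]
        simp [hm]) (s := x) hx
    simp_rw [sub_mul, Finset.sum_sub_distrib, Finset.sum_mul] at h1
    rw [Finset.sum_comm (s := Finset.univ) (t := PT M B L)] at h1
    have h10 : ∑ ψ : IrrCharacter G, (if ψ = χ then (1 : ℂ) else 0) * (ψ : G → ℂ) x =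
        (χ : G → ℂ) x := by simp
    rw [h10, sub_eq_zero] at h1
    rw [h1]
    refine Finset.sum_congr rfl fun i _ => ?_
    show _ = tau (χ : G → ℂ) 1 i * ∑ χ : IrrCharacter G, c i χ * (χ : G → ℂ) x
    rw [Finset.mul_sum]
    exact Finset.sum_congr rfl fun ψ _ => by ring
  have hG0 : (Nat.card G : ℂ) ≠ 0 := by exact_mod_cast Nat.card_pos.ne'
  have hα : ∀ s : G, orderOf (α s) = orderOf s := fun s => MulEquiv.orderOf_eq α s
  -- values
  have hval : ∀ i ∈ PT M B L, ∃ n : ℕ, tau (fun x => φ i (α x)) 1 i = n ∧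
      ((∀ x, α x = x) → n = 1) := by
    intro i hi
    obtain ⟨j, hj, hjF⟩ := tau_aut hM α (hid i hi)
    obtain ⟨Lj, hLj⟩ := exists_dec (kM M) hj
    have h1 : tau (fun x => φ i (α x)) 1 i = ((Lj.filter fun l => rp L l = i).card : ℂ) := by
      rw [hjF _ (hφ i), tau_lin hM (c i) hj]
      have h2 : ∀ χ : IrrCharacter G, c i χ * tau (χ : G → ℂ) 1 j = ∑ m ∈ PT M B L,
          ((Lj.filter fun l => rp L l = m).card : ℂ) * (c i χ * tau (χ : G → ℂ) 1 m) := by
        intro χ
        by_cases hχ : χ ∈ B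
        · rw [tau_count hM hB hL hLj hχ, Finset.mul_sum]
          exact Finset.sum_congr rfl fun m _ => by ring
        · rw [hc1 i χ hχ, zero_mul]
          symm
          exact Finset.sum_eq_zero fun m _ => by ring
      simp_rw [h2]
      rw [Finset.sum_comm]
      have h3 : ∀ m ∈ PT M B L, ∑ χ : IrrCharacter G, ((Lj.filter fun l => rp L l = m).card : ℂ) *
          (c i χ * tau (χ : G → ℂ) 1 m) = ((Lj.filter fun l => rp L l = m).card : ℂ) *
            (if m = i then 1 else 0) := by
        intro m hm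
        rw [← Finset.mul_sum, hc2 i m hm]
      rw [Finset.sum_congr rfl h3]
      simp [hi]
    refine ⟨_, h1, fun hx => ?_⟩
    have h4 : tau (fun x => φ i (α x)) 1 i = 1 := by
      have h5 : (fun x => φ i (α x)) = φ i := funext fun x => by rw [hx]
      rw [h5, tau_lin hM (c i) (hid i hi), hc2 i i hi, if_pos rfl]
    rw [h4] at h1
    exact_mod_cast h1.symm
  have hval' : ∀ i : MonoidAlgebra (kM M) G, ∃ n : ℕ, i ∈ PT M B L →
      (tau (fun x => φ i (α x)) 1 i = n ∧ ((∀ x, α x = x) → n = 1)) := by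
    intro i
    by_cases hi : i ∈ PT M B L
    · obtain ⟨n, hn⟩ := hval i hi
      exact ⟨n, fun _ => hn⟩
    · exact ⟨0, fun h => absurd h hi⟩
  choose n hn using hval'
  refine ⟨∑ i ∈ PT M B L, n i, ?_, ?_⟩
  · -- the trace
    have hFα : ∀ i, IsClassFunction G (fun x => φ i (α x)) := by
      intro i g h
      show φ i (α (h * g * h⁻¹)) = φ i (α g)
      rw [map_mul, map_mul, map_inv]
      exact hφ i _ _
    have h1 : ∀ s : G, (if p ∣ orderOf s then (0 : ℂ) else KK B (α s) s) =
        ∑ i ∈ PT M B L, ∑ ψ : IrrCharacter G, tau (ψ : G → ℂ) 1 i *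
          (reg p (fun x => φ i (α x)) s * conj ((ψ : G → ℂ) s)) := by
      intro s
      split_ifs with hs
      · symm
        refine Finset.sum_eq_zero fun i _ => Finset.sum_eq_zero fun ψ _ => ?_
        rw [CfsgLib.BlockReg2.reg_not hs]; ring
      · unfold KK
        rw [Finset.sum_comm]
        refine Finset.sum_congr rfl fun ψ _ => ?_
        by_cases hψ : ψ ∈ B
        · rw [ind_of hψ, one_mul, hexp ψ hψ (α s) (by rw [hα]; exact hs), Finset.sum_mul]
          refine Finset.sum_congr rfl fun i _ => ?_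
          rw [CfsgLib.BlockReg2.reg_of hs]; ring
        · rw [ind_not hψ, zero_mul]
          symm
          refine Finset.sum_eq_zero fun i hi => ?_
          rw [tau_in_out hM hB hL hψ (PT_spec hB hL hi).1, zero_mul]
    rw [Finset.sum_congr rfl fun s _ => h1 s, Finset.sum_comm]
    push_cast
    rw [Finset.mul_sum]
    refine Finset.sum_congr rfl fun i hi => ?_
    rw [Finset.sum_comm]
    have h2 : ∀ ψ : IrrCharacter G, ∑ s : G, tau (ψ : G → ℂ) 1 i *
        (reg p (fun x => φ i (α x)) s * conj ((ψ : G → ℂ) s)) = (Nat.card G : ℂ) *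
          (classInner (reg p (fun x => φ i (α x))) (ψ : G → ℂ) * tau (ψ : G → ℂ) 1 i) := by
      intro ψ
      rw [← Finset.mul_sum]
      unfold classInner
      field_simp
    rw [Finset.sum_congr rfl fun ψ _ => h2 ψ, ← Finset.mul_sum]
    congr 1
    rw [← (hn i hi).1]
    -- remove `reg`
    have h3 : tau (fun x => φ i (α x)) 1 i = ∑ ψ : IrrCharacter G,
        classInner (fun x => φ i (α x)) (ψ : G → ℂ) * tau (ψ : G → ℂ) 1 i := by
      rw [← tau_lin hM _ (hid i hi)]
      congr 1
      funext x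
      exact CfsgLib.CharBasic.classFun_expand_apply (hFα i) x
    rw [h3, ← sub_eq_zero, ← Finset.sum_sub_distrib]
    have h4 := hT (fun ψ => if ψ ∈ B then classInner (reg p (fun x => φ i (α x))) (ψ : G → ℂ) -
      classInner (fun x => φ i (α x)) (ψ : G → ℂ) else 0) (fun ψ hψ => if_neg hψ) (by
        intro x hx
        have h5 : ∑ χ : IrrCharacter G, (if χ ∈ B then
            classInner (reg p (fun x => φ i (α x))) (χ : G → ℂ) -
              classInner (fun x => φ i (α x)) (χ : G → ℂ) else 0) * (χ : G → ℂ) x =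
            (Nat.card G : ℂ)⁻¹ * ∑ g : G, (reg p (fun x => φ i (α x)) g - φ i (α g)) *
              KK B x g := by
          unfold KK classInner
          simp_rw [Finset.mul_sum]
          rw [Finset.sum_comm]
          refine Finset.sum_congr rfl fun χ _ => ?_
          by_cases hχ : χ ∈ B
          · rw [if_pos hχ, ind_of hχ, ← Finset.sum_sub_distrib, Finset.sum_mul]
            refine Finset.sum_congr rfl fun g _ => by ring
          · rw [if_neg hχ, ind_not hχ, zero_mul]
            symm
            exact Finset.sum_eq_zero fun g _ => by ring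
        rw [h5, Finset.sum_eq_zero, mul_zero]
        intro g _
        by_cases hg : p ∣ orderOf g
        · rw [KK_zero hM hB hx hg, mul_zero]
        · rw [CfsgLib.BlockReg2.reg_of hg, sub_self, zero_mul]) i hi
    rw [← h4]
    refine Finset.sum_congr rfl fun ψ _ => ?_
    split_ifs with hψ
    · ring
    · rw [tau_in_out hM hB hL hψ (PT_spec hB hL hi).1]; ring
  · intro hx
    rw [Finset.card_eq_sum_ones]
    exact Finset.sum_congr rfl fun i hi => (hn i hi).2 hx

end CfsgLib.Star
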