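import Mathlib
import Cfsg.Agent.EqBase
import Cfsg.Agent.LibStar86

/-!
# Star construction, LXXXVII: characters fixed by Galois automorphisms (helper18)
-/

set_option autoImplicit false
set_option linter.unusedSectionVars false
set_option linter.style.haveILetI false
set_option linter.unusedSimpArgs false
set_option linter.unusedVariables false

namespace CfsgLib.Star

open Cfsg CfsgLib.GalChar CfsgLib.GalField CfsgLib.BlockReg CfsgLib.BlockReg2 CfsgLib.LocR
  CfsgLib.BrP CfsgLib.Car CfsgLib.BlockQP CfsgLib.BlockDefect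
  CfsgLib.Points CfsgLib.PLocalInd CfsgLib.CharBasic CfsgLib.BlockCore CfsgLib.BlockSec
  CfsgLib.BlockR CfsgLib.BlockIdem CfsgLib.BlockOrth CfsgLib.CharIndA CfsgLib.CharNorm CfsgLib.BlockM
open scoped ComplexConjugate Pointwise

universe u v

variable {M : Ideal AlgInt} [hPr : M.IsPrime] {G : Type u} [Group G] [Fintype G]
variable {p : ℕ} [hp : Fact p.Prime] [hch : CharP (kM M) p] [hMx : M.IsMaximal]
variable {B : Set (IrrCharacter G)}



/-- traces over unions of blocks -/
theorem trace_union (hM : IsPModular p M) {U : Set (IrrCharacter G)}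
    (hU : ∀ ψ ∈ U, ∀ ψ' : IrrCharacter G, SameBlock M (ψ : G → ℂ) (ψ' : G → ℂ) → ψ' ∈ U)
    (α : G ≃* G) :
    ∃ n : ℕ, ∑ s : G, (if p ∣ orderOf s then 0 else KK U (α s) s) = (Nat.card G : ℂ) * n := by
  classical
  obtain ⟨L, hL⟩ := exists_dec (kM M) (A := MonoidAlgebra (kM M) G) (e := 1) (one_mul 1)
  let f : IrrCharacter G → ℂ := fun ψ => ∑ s : G, if p ∣ orderOf s then 0 else
    (ψ : G → ℂ) (α s) * conj ((ψ : G → ℂ) s)
  have hf : ∀ V : Set (IrrCharacter G), ∑ s : G, (if p ∣ orderOf s then (0 : ℂ) else KK V (α s) s) =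
      ∑ ψ ∈ Finset.univ.filter (fun ψ : IrrCharacter G => ψ ∈ V), f ψ := by
    intro V
    rw [Finset.sum_filter]
    have h1 : ∀ s : G, (if p ∣ orderOf s then (0 : ℂ) else KK V (α s) s) =
        ∑ ψ : IrrCharacter G, if ψ ∈ V then (if p ∣ orderOf s then 0 else
          (ψ : G → ℂ) (α s) * conj ((ψ : G → ℂ) s)) else 0 := by
      intro s
      split_ifs with hs
      · simp
      · unfold KK
        refine Finset.sum_congr rfl fun ψ _ => ?_
        by_cases hψ : ψ ∈ V
        · rw [if_pos hψ, ind_of hψ, one_mul]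
        · rw [if_neg hψ, ind_not hψ, zero_mul]
    rw [Finset.sum_congr rfl fun s _ => h1 s, Finset.sum_comm]
    refine Finset.sum_congr rfl fun ψ _ => ?_
    by_cases hψ : ψ ∈ V
    · simp_rw [if_pos hψ]; rfl
    · simp_rw [if_neg hψ]; exact Finset.sum_const_zero
  rw [hf U]
  let 𝓑 : Finset (Set (IrrCharacter G)) := Finset.image
    (fun ψ : IrrCharacter G => blockOf M (ψ : G → ℂ))
    (Finset.univ.filter (fun ψ : IrrCharacter G => ψ ∈ U))
  rw [← Finset.sum_fiberwise_of_maps_to (t := 𝓑) (g := fun ψ : IrrCharacter G =>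
    blockOf M (ψ : G → ℂ)) (fun ψ hψ => Finset.mem_image_of_mem _ hψ)]
  have key : ∀ e ∈ 𝓑, ∃ n : ℕ, ∑ ψ ∈ Finset.filter (fun ψ : IrrCharacter G =>
      blockOf M (ψ : G → ℂ) = e) (Finset.filter (fun ψ : IrrCharacter G => ψ ∈ U) Finset.univ),
      f ψ = (Nat.card G : ℂ) * n := by
    intro e he
    obtain ⟨ψ₀, hψ₀, rfl⟩ := Finset.mem_image.1 he
    have hψ₀U : ψ₀ ∈ U := (Finset.mem_filter.1 hψ₀).2
    have hb : IsPBlock M (blockOf M (ψ₀ : G → ℂ)) := ⟨ψ₀, rfl⟩
    obtain ⟨n, hn, _⟩ := trace_aut hM hb hL α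
    refine ⟨n, ?_⟩
    rw [← hn, hf]
    apply Finset.sum_congr _ fun _ _ => rfl
    ext ψ
    rw [Finset.mem_filter, Finset.mem_filter, Finset.mem_filter]
    have hself : ∀ χ : IrrCharacter G, χ ∈ blockOf M (χ : G → ℂ) := fun χ g => by
      rw [sub_self]; exact memI_zero
    constructor
    · rintro ⟨_, h⟩
      refine ⟨Finset.mem_univ _, ?_⟩
      rw [← h]; exact hself ψ
    · rintro ⟨_, h⟩
      have hsb : SameBlock M (ψ₀ : G → ℂ) (ψ : G → ℂ) := by
        intro g
        exact sameBlock_of_mem hPr hb (hself ψ₀) h g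
      refine ⟨⟨Finset.mem_univ _, hU _ hψ₀U _ hsb⟩, ?_⟩
      exact (block_eq_blockOf hPr hb h).symm
  choose! n hn using key
  refine ⟨∑ e ∈ 𝓑, n e, ?_⟩
  rw [Finset.sum_congr rfl hn, ← Finset.mul_sum]
  push_cast
  rfl

theorem US_iff (hM : IsPModular p M) (x : G) (B : Set (IrrCharacter G)) :
    ∀ ψ ∈ US x M B, ∀ ψ' : IrrCharacter (Subgroup.centralizer ({x} : Set G)),
      SameBlock M (ψ : Subgroup.centralizer ({x} : Set G) → ℂ)
        (ψ' : Subgroup.centralizer ({x} : Set G) → ℂ) → ψ' ∈ US x M B :=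
  US_sat x hPr B

theorem KK_conj' (U : Set (IrrCharacter G)) (t y g : G) : KK U (t * y * t⁻¹) g = KK U y g := by
  unfold KK
  exact Finset.sum_congr rfl fun ψ _ => by rw [irr_classFun ψ.2 y t]

open Classical in
/-- contribution of one section -/
theorem section_part (hM : IsPModular p M) (hB : IsPBlock M B) {k : ℕ}
    (hk : k.Coprime (Nat.card G)) (hk1 : ∀ s : G, ¬ p ∣ orderOf s → s ^ k = s) (u : G) :
    ∃ n : ℕ, ∑ s : G, (if pp p (u * s) = u then KK B ((u * s) ^ k) (u * s) else 0) = (n : ℂ) := by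
  classical
  by_cases hu : ∃ j : ℕ, orderOf u = p ^ j
  swap
  · refine ⟨0, ?_⟩
    rw [Nat.cast_zero]
    refine Finset.sum_eq_zero fun s _ => ?_
    rw [if_neg (fun h => hu (pp_iff.1 h).1)]
  have hpow : ∀ s : G, Commute u s → ¬ p ∣ orderOf s → (u * s) ^ k = u ^ k * s := by
    intro s hc hs
    rw [hc.mul_pow, hk1 s hs]
  by_cases hconj : IsConj (u ^ k) u
  swap
  · refine ⟨0, ?_⟩
    rw [Nat.cast_zero]
    refine Finset.sum_eq_zero fun s _ => ?_
    split_ifs with h
    · obtain ⟨_, hc, hs⟩ := pp_iff.1 h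
      have h1 : IsPPart p ((u * s) ^ k) (u ^ k) := by
        have h2 : pp p (u ^ k * s ^ k) = u ^ k := (pp_pow hk).2 h
        rw [hk1 s hs] at h2
        rw [hpow s hc hs]
        conv_rhs => rw [← h2]
        exact pp_spec _
      have h3 : IsPPart p (u * s) u := by
        conv_rhs => rw [← h]
        exact pp_spec _
      rw [← KK_eq]
      exact block_orth_conj hM hB h1 h3 hconj
    · rfl
  obtain ⟨t, ht⟩ := isConj_iff.1 hconj.symm
  -- `ht : t * u * t⁻¹ = u ^ k`
  haveI := Fintype.ofFinite (Subgroup.centralizer ({u} : Set G))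
  have hCpow : Subgroup.centralizer ({u ^ k} : Set G) = Subgroup.centralizer ({u} : Set G) := by
    rw [← CH_zp, ← CH_zp, zpowers_pow_of_coprime hk]
  have hcS : Subgroup.centralizer ({u} : Set G) =
      cS t⁻¹ (Subgroup.centralizer ({u} : Set G)) := by
    ext z
    rw [mem_cS, inv_inv]
    constructor
    · intro hz
      have h := Subgroup.mem_centralizer_singleton_iff.1 hz
      rw [← hCpow, Subgroup.mem_centralizer_singleton_iff, ← ht]
      calc t * z * t⁻¹ * (t * u * t⁻¹) = t * (z * u) * t⁻¹ := by group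
        _ = t * (u * z) * t⁻¹ := by rw [h]
        _ = t * u * t⁻¹ * (t * z * t⁻¹) := by group
    · intro hz
      rw [← hCpow, Subgroup.mem_centralizer_singleton_iff, ← ht] at hz
      rw [Subgroup.mem_centralizer_singleton_iff]
      calc z * u = t⁻¹ * (t * z * t⁻¹ * (t * u * t⁻¹)) * t := by group
        _ = t⁻¹ * (t * u * t⁻¹ * (t * z * t⁻¹)) * t := by rw [hz]
        _ = u * z := by group
  let α : Subgroup.centralizer ({u} : Set G) ≃* Subgroup.centralizer ({u} : Set G) := cI t⁻¹ hcS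
  have hα : ∀ s : Subgroup.centralizer ({u} : Set G), ((α s : _) : G) = t⁻¹ * s * t := by
    intro s
    have := cI_coe t⁻¹ hcS s
    rwa [inv_inv] at this
  obtain ⟨n, hn⟩ := trace_union hM (US_iff hM u B) α
  refine ⟨Nat.card (Subgroup.centralizer ({u} : Set G)) * n, ?_⟩
  push_cast
  rw [← hn]
  symm
  have h1 : ∀ s : Subgroup.centralizer ({u} : Set G),
      (if p ∣ orderOf s then (0 : ℂ) else KK (US u M B) (α s) s) =
        if pp p (u * (s : G)) = u then KK B ((u * (s : G)) ^ k) (u * s) else 0 := by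
    intro s
    have hc : Commute u (s : G) := (Subgroup.mem_centralizer_singleton_iff.1 s.2).symm
    by_cases hs : p ∣ orderOf s
    · rw [if_pos hs, if_neg]
      intro h
      have := (pp_iff.1 h).2.2
      rw [Subgroup.orderOf_coe] at this
      exact this hs
    · have hs' : ¬ p ∣ orderOf (s : G) := by rwa [Subgroup.orderOf_coe]
      rw [if_neg hs, if_pos (pp_iff.2 ⟨hu, hc, hs'⟩), hpow _ hc hs']
      have h2 : u ^ k * (s : G) = t * (u * ((α s : _) : G)) * t⁻¹ := by
        rw [hα, ← ht]; group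
      have h3 : ¬ p ∣ orderOf (α s) := by
        rw [MulEquiv.orderOf_eq α s]; exact hs
      rw [h2, KK_conj']
      exact (subsection u hM hu hB h3 hs).symm
  rw [Finset.sum_congr rfl fun s _ => h1 s]
  rw [← Finset.sum_subtype (Finset.univ.filter fun s : G =>
    s ∈ Subgroup.centralizer ({u} : Set G)) (fun s => by simp)
    (fun s : G => if pp p (u * s) = u then KK B ((u * s) ^ k) (u * s) else 0), Finset.sum_filter]
  refine Finset.sum_congr rfl fun s _ => ?_
  split_ifs with h2 h3 h3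
  · rfl
  · rfl
  · exfalso
    apply h2
    rw [Subgroup.mem_centralizer_singleton_iff]
    exact (pp_iff.1 h3).2.1.symm
  · rfl

end CfsgLib.Star
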