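import Mathlib
import Cfsg.Agent.EqBase
import Cfsg.Agent.LibStar87

/-!
# Star construction, LXXXVIII: S4712 (helper18)
-/

set_option autoImplicit false
set_option linter.unusedSectionVars false
set_option linter.style.haveILetI false
set_option linter.unusedSimpArgs false
set_option linter.unusedVariables false

namespace CfsgLib.Star

open Cfsg CfsgLib.GalChar CfsgLib.GalField CfsgLib.BlockReg CfsgLib.BlockReg2 CfsgLib.LocR
  CfsgLib.BrP CfsgLib.Car CfsgLib.BlockQP CfsgLib.BlockDefect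
  CfsgLib.Points CfsgLib.PLocalInd CfsgLib.CharBasic CfsgLib.BlockCore CfsgLib.BlockSec
  CfsgLib.BlockR CfsgLib.BlockIdem CfsgLib.BlockOrth CfsgLib.CharIndA CfsgLib.CharNorm CfsgLib.BlockM
open scoped ComplexConjugate Pointwise

universe u v

variable {M : Ideal AlgInt} [hPr : M.IsPrime] {G : Type u} [Group G] [Fintype G]
variable {p : ℕ} [hp : Fact p.Prime] [hch : CharP (kM M) p] [hMx : M.IsMaximal]
variable {B : Set (IrrCharacter G)}



omit [Fintype G] hPr hp hch hMx in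
theorem exists_gen {N m a p : ℕ} (hp : p.Prime) (hp2 : p ≠ 2) (hN : N = p ^ a * m)
    (hcop : (p ^ a).Coprime m) : ∃ k : ℕ, k.Coprime N ∧ k ≡ 1 [MOD m] ∧
      ∀ k' : ℕ, k'.Coprime N → k' ≡ 1 [MOD m] → ∃ j : ℕ, k' ≡ k ^ j [MOD N] := by
  haveI : NeZero (p ^ a) := ⟨(pow_pos hp.pos a).ne'⟩
  haveI := ZMod.isCyclic_units_of_prime_pow p hp hp2 a
  obtain ⟨g, hg⟩ := IsCyclic.exists_generator (α := (ZMod (p ^ a))ˣ)
  obtain ⟨k, hk1, hk2⟩ := Nat.chineseRemainder hcop (g : ZMod (p ^ a)).val 1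
  have hkg : ((k : ℕ) : ZMod (p ^ a)) = (g : ZMod (p ^ a)) := by
    have h1 := (ZMod.natCast_eq_natCast_iff _ _ _).2 hk1
    rw [h1, ZMod.natCast_zmod_val]
  refine ⟨k, ?_, hk2, ?_⟩
  · rw [hN]
    refine Nat.Coprime.mul_right ?_ ?_
    · have h1 := ZMod.val_coe_unit_coprime g
      have h2 : Nat.gcd k (p ^ a) = Nat.gcd (g : ZMod (p ^ a)).val (p ^ a) := hk1.gcd_eq
      unfold Nat.Coprime
      rw [h2]; exact h1
    · have h2 : Nat.gcd k m = Nat.gcd 1 m := hk2.gcd_eq
      unfold Nat.Coprime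
      rw [h2]; exact Nat.gcd_one_left m
  · intro k' hk' hk1'
    have hc : k'.Coprime (p ^ a) := by
      rw [hN] at hk'
      exact Nat.Coprime.coprime_mul_right_right hk'
    have h1 := hg (ZMod.unitOfCoprime k' hc)
    rw [← mem_powers_iff_mem_zpowers] at h1
    obtain ⟨j, hj⟩ := h1
    refine ⟨j, ?_⟩
    rw [hN]
    refine (Nat.modEq_and_modEq_iff_modEq_mul hcop).1 ⟨?_, ?_⟩
    · rw [← ZMod.natCast_eq_natCast_iff]
      push_cast
      rw [hkg, ← Units.val_pow_eq_pow_val]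
      have h2 : g ^ j = ZMod.unitOfCoprime k' hc := hj
      rw [h2, ZMod.coe_unitOfCoprime]
    · have h2 := hk2.pow j
      rw [one_pow] at h2
      exact hk1'.trans h2.symm

theorem fixed_ge (hM : IsPModular p M) (hB : IsPBlock M B) {k : ℕ}
    (hk : k.Coprime (Nat.card G)) (hk1 : ∀ s : G, ¬ p ∣ orderOf s → s ^ k = s) :
    blockRank p B ≤ Nat.card {χ : IrrCharacter G // χ ∈ B ∧ ∀ g : G, (χ : G → ℂ) (g ^ k) = (χ : G → ℂ) g} := by
  classical
  obtain ⟨L, hL⟩ := exists_dec (kM M) (A := MonoidAlgebra (kM M) G) (e := 1) (one_mul 1)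
  have hirr : ∀ χ : IrrCharacter G, IsIrrCharacter G (fun g => (χ : G → ℂ) (g ^ k)) := by
    intro χ
    obtain ⟨σ, hσ⟩ := CfsgLib.GalChar.exists_gal_of_coprime hk
    have h1 := CfsgLib.GalChar.isIrrCharacter_gal σ χ.2
    have h2 : (fun g => (χ : G → ℂ) (g ^ k)) = σ ∘ (χ : G → ℂ) :=
      funext fun g => hσ _ (CfsgLib.CharInt.irr_isCharacter χ.2) g
    rw [h2]
    exact h1
  have hG0 : (Nat.card G : ℂ) ≠ 0 := by exact_mod_cast Nat.card_pos.ne'
  set X := Nat.card {χ : IrrCharacter G // χ ∈ B ∧ ∀ g : G, (χ : G → ℂ) (g ^ k) = (χ : G → ℂ) g}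
    with hX
  have h1 : (X : ℂ) * Nat.card G = ∑ g : G, KK B (g ^ k) g := by
    have h2 : ∑ g : G, KK B (g ^ k) g = ∑ χ : IrrCharacter G, ind B χ *
        ((Nat.card G : ℂ) * classInner (fun g => (χ : G → ℂ) (g ^ k)) (χ : G → ℂ)) := by
      unfold KK classInner
      rw [Finset.sum_comm]
      refine Finset.sum_congr rfl fun χ _ => ?_
      rw [← Finset.mul_sum, mul_inv_cancel_left₀ hG0]
    rw [h2]
    have h3 : ∀ χ : IrrCharacter G, ind B χ *
        ((Nat.card G : ℂ) * classInner (fun g => (χ : G → ℂ) (g ^ k)) (χ : G → ℂ)) =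
        (if (χ ∈ B ∧ ∀ g : G, (χ : G → ℂ) (g ^ k) = (χ : G → ℂ) g) then 1 else 0) *
          (Nat.card G : ℂ) := by
      intro χ
      rw [irr_inner (hirr χ) χ.2]
      by_cases hχ : χ ∈ B
      · rw [ind_of hχ]
        by_cases h4 : ∀ g : G, (χ : G → ℂ) (g ^ k) = (χ : G → ℂ) g
        · rw [if_pos (show (fun g => (χ : G → ℂ) (g ^ k)) = (χ : G → ℂ) from funext h4),
            if_pos (show (χ ∈ B ∧ ∀ g : G, (χ : G → ℂ) (g ^ k) = (χ : G → ℂ) g) from ⟨hχ, h4⟩)]
          ring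
        · rw [if_neg (show ¬ (fun g => (χ : G → ℂ) (g ^ k)) = (χ : G → ℂ) from
              fun h => h4 fun g => congrFun h g),
            if_neg (show ¬ (χ ∈ B ∧ ∀ g : G, (χ : G → ℂ) (g ^ k) = (χ : G → ℂ) g) from
              fun h => h4 h.2)]
          ring
      · rw [ind_not hχ, if_neg (show ¬ (χ ∈ B ∧ ∀ g : G, (χ : G → ℂ) (g ^ k) = (χ : G → ℂ) g) from
          fun h => hχ h.1)]
        ring
    rw [Finset.sum_congr rfl fun χ _ => h3 χ, ← Finset.sum_mul]
    congr 1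
    rw [hX, Nat.card_eq_fintype_card, Fintype.card_subtype, Finset.sum_boole]
  rw [sum_us (p := p)] at h1
  choose n hn using fun u => section_part hM hB hk hk1 u
  have h4 : (X : ℂ) * Nat.card G = ∑ u : G, (n u : ℂ) := by
    rw [h1]
    refine Finset.sum_congr rfl fun u _ => ?_
    rw [← hn u]
  have h5 : X * Nat.card G = ∑ u : G, n u := by exact_mod_cast h4
  have h6 : n 1 = Nat.card G * (PT M B L).card := by
    obtain ⟨n', hn', hn1⟩ := trace_aut hM hB hL (MulEquiv.refl G)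
    rw [hn1 fun x => rfl] at hn'
    have h7 := hn 1
    have h8 : (n 1 : ℂ) = (Nat.card G : ℂ) * (PT M B L).card := by
      rw [← h7, ← hn']
      refine Finset.sum_congr rfl fun s _ => ?_
      have h9 : pp p (1 * s) = 1 ↔ ¬ p ∣ orderOf s := by
        rw [pp_iff]
        constructor
        · exact fun h => h.2.2
        · exact fun h => ⟨⟨0, by rw [orderOf_one, pow_zero]⟩, Commute.one_left s, h⟩
      by_cases hs : p ∣ orderOf s
      · rw [if_neg (fun h => (h9.1 h) hs), if_pos hs]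
      · rw [if_pos (h9.2 hs), if_neg hs, one_mul, hk1 s hs]; rfl
    exact_mod_cast h8
  have h7 : Nat.card G * (PT M B L).card ≤ X * Nat.card G := by
    rw [h5, ← h6]
    exact Finset.single_le_sum (f := n) (fun _ _ => Nat.zero_le _) (Finset.mem_univ 1)
  rw [mul_comm X] at h7
  exact (rank_le_points hM hB hL).trans (Nat.le_of_mul_le_mul_left h7 Nat.card_pos)

omit hPr hch hMx in
theorem s4712 (hM : IsPModular p M) (hB : IsPBlock M B) (hodd : p ≠ 2) :
    blockRank p B ≤ Nat.card {χ : IrrCharacter G // χ ∈ B ∧ ∀ k : ℕ, Nat.Coprime k (Nat.card G) →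
      k ≡ 1 [MOD Nat.card G / p ^ (Nat.card G).factorization p] →
        ∀ g : G, (χ : G → ℂ) (g ^ k) = (χ : G → ℂ) g} := by
  classical
  haveI hPr : M.IsPrime := isPrime_of_modular hM
  haveI : M.IsMaximal := hM.2.1
  haveI := charP_kM hM
  have hN : Nat.card G = p ^ (Nat.card G).factorization p *
      (Nat.card G / p ^ (Nat.card G).factorization p) :=
    (Nat.ordProj_mul_ordCompl_eq_self (Nat.card G) p).symm
  have hcop : (p ^ (Nat.card G).factorization p).Coprime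
      (Nat.card G / p ^ (Nat.card G).factorization p) :=
    Nat.Coprime.pow_left _ (Nat.coprime_ordCompl hp.out Nat.card_pos.ne')
  obtain ⟨k, hk, hkm, hgen⟩ := exists_gen hp.out hodd hN hcop
  have hk1 : ∀ s : G, ¬ p ∣ orderOf s → s ^ k = s := by
    intro s hs
    have h1 : orderOf s ∣ Nat.card G / p ^ (Nat.card G).factorization p := by
      have h2 : orderOf s ∣ p ^ (Nat.card G).factorization p *
          (Nat.card G / p ^ (Nat.card G).factorization p) := by
        rw [← hN]; exact orderOf_dvd_natCard s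
      refine Nat.Coprime.dvd_of_dvd_mul_left ?_ h2
      exact Nat.Coprime.pow_right _ ((Nat.Prime.coprime_iff_not_dvd hp.out).2 hs).symm
    conv_rhs => rw [← pow_one s]
    rw [pow_eq_pow_iff_modEq]
    exact hkm.of_dvd h1
  refine (fixed_ge hM hB hk hk1).trans ?_
  have hmem : ∀ χ : {χ : IrrCharacter G // χ ∈ B ∧ ∀ g : G, (χ : G → ℂ) (g ^ k) = (χ : G → ℂ) g},
      ∀ k : ℕ, Nat.Coprime k (Nat.card G) →
      k ≡ 1 [MOD Nat.card G / p ^ (Nat.card G).factorization p] →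
        ∀ g : G, (χ.1 : G → ℂ) (g ^ k) = (χ.1 : G → ℂ) g := by
    intro χ k' hk' hk1' g
    obtain ⟨j, hj⟩ := hgen k' hk' hk1'
    have h1 : ∀ (j : ℕ) (g : G), (χ.1 : G → ℂ) (g ^ (k ^ j)) = (χ.1 : G → ℂ) g := by
      intro j
      induction j with
      | zero => intro g; rw [pow_zero, pow_one]
      | succ j ih => intro g; rw [pow_succ, pow_mul, χ.2.2, ih]
    have h2 : g ^ k' = g ^ (k ^ j) := by
      rw [pow_eq_pow_iff_modEq]
      exact hj.of_dvd (orderOf_dvd_natCard g)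
    rw [h2, h1]
  refine Nat.card_le_card_of_injective
    (fun χ : {χ : IrrCharacter G // χ ∈ B ∧ ∀ g : G, (χ : G → ℂ) (g ^ k) = (χ : G → ℂ) g} =>
      (⟨χ.1, χ.2.1, hmem χ⟩ : {χ : IrrCharacter G // χ ∈ B ∧ ∀ k : ℕ,
        Nat.Coprime k (Nat.card G) → k ≡ 1 [MOD Nat.card G / p ^ (Nat.card G).factorization p] →
          ∀ g : G, (χ : G → ℂ) (g ^ k) = (χ : G → ℂ) g})) ?_
  intro χ χ' h
  have h' := Subtype.ext_iff.1 h
  exact Subtype.ext h'

end CfsgLib.Star
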