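import Cfsg.Agent.EqBase
import Cfsg.Agent.LibComp3
import Cfsg.Agent.LibPQ3

set_option autoImplicit false

/-! Components of centralizers: conjugation, standard subgroups. -/

namespace CfsgLib.Std

open Subgroup Cfsg CfsgLib.Comp CfsgLib.PQ3
open scoped commutatorElement Pointwise

variable {G : Type*} [Group G]

theorem comp_conj {H L H' : Subgroup G} (hLH : L ≤ H) (h : IsComponent (L.subgroupOf H)) (g : G)
    (hH' : H' = H.map (MulAut.conj g).toMonoidHom) :
    IsComponent ((L.map (MulAut.conj g).toMonoidHom).subgroupOf H') := by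
  subst hH'
  have h1 := isComponent_map_equiv ((MulAut.conj g).subgroupMap H) h
  have h2 : (L.map (MulAut.conj g).toMonoidHom).subgroupOf (H.map (MulAut.conj g).toMonoidHom) =
      (L.subgroupOf H).map ((MulAut.conj g).subgroupMap H).toMonoidHom := by
    apply Subgroup.ext
    rintro ⟨x, hx⟩
    rw [mem_subgroupOf]
    constructor
    · rintro ⟨l, hl, hlx⟩
      exact ⟨⟨l, hLH hl⟩, mem_subgroupOf.2 hl, Subtype.ext hlx⟩
    · rintro ⟨l, hl, hlx⟩
      exact ⟨l, mem_subgroupOf.1 hl, congrArg Subtype.val hlx⟩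
  rw [h2]
  exact h1

theorem centralizer_conj (g y : G) :
    centralizer ({g * y * g⁻¹} : Set G) =
      (centralizer ({y} : Set G)).map (MulAut.conj g).toMonoidHom := by
  ext z
  constructor
  · intro hz
    refine ⟨g⁻¹ * z * g, ?_, ?_⟩
    · rw [SetLike.mem_coe, mem_centralizer_one] at *
      calc y * (g⁻¹ * z * g) = g⁻¹ * (g * y * g⁻¹ * z) * g := by group
        _ = g⁻¹ * (z * (g * y * g⁻¹)) * g := by rw [hz]
        _ = _ := by group
    · change g * (g⁻¹ * z * g) * g⁻¹ = z
      group
  · rintro ⟨w, hw, rfl⟩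
    rw [SetLike.mem_coe, mem_centralizer_one] at hw
    rw [mem_centralizer_one]
    change g * y * g⁻¹ * (g * w * g⁻¹) = g * w * g⁻¹ * (g * y * g⁻¹)
    calc g * y * g⁻¹ * (g * w * g⁻¹) = g * (y * w) * g⁻¹ := by group
      _ = g * (w * y) * g⁻¹ := by rw [hw]
      _ = _ := by group

theorem centralizer_map_conj (L : Subgroup G) (g : G) :
    centralizer ((L.map (MulAut.conj g).toMonoidHom : Subgroup G) : Set G) =
      (centralizer (L : Set G)).map (MulAut.conj g).toMonoidHom := by
  ext z
  constructor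
  · intro hz
    refine ⟨g⁻¹ * z * g, ?_, ?_⟩
    · rw [SetLike.mem_coe, mem_centralizer_iff]
      intro l hl
      have h1 : g * l * g⁻¹ * z = z * (g * l * g⁻¹) := mem_centralizer_iff.1 hz _ ⟨l, hl, rfl⟩
      calc l * (g⁻¹ * z * g) = g⁻¹ * (g * l * g⁻¹ * z) * g := by group
        _ = g⁻¹ * (z * (g * l * g⁻¹)) * g := by rw [h1]
        _ = _ := by group
    · change g * (g⁻¹ * z * g) * g⁻¹ = z
      group
  · rintro ⟨w, hw, rfl⟩
    rw [mem_centralizer_iff]
    rintro _ ⟨l, hl, rfl⟩
    change g * l * g⁻¹ * (g * w * g⁻¹) = g * w * g⁻¹ * (g * l * g⁻¹)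
    have h1 := mem_centralizer_iff.1 hw l hl
    calc g * l * g⁻¹ * (g * w * g⁻¹) = g * (l * w) * g⁻¹ := by group
      _ = g * (w * l) * g⁻¹ := by rw [h1]
      _ = _ := by group

/-- conjugate of a component of `C(y)`. -/
theorem comp_conj_centralizer {L : Subgroup G} {y : G} (hL : L ≤ centralizer ({y} : Set G))
    (h : IsComponent (L.subgroupOf (centralizer ({y} : Set G)))) (g : G) :
    L.map (MulAut.conj g).toMonoidHom ≤ centralizer ({g * y * g⁻¹} : Set G) ∧
    IsComponent ((L.map (MulAut.conj g).toMonoidHom).subgroupOf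
      (centralizer ({g * y * g⁻¹} : Set G))) := by
  refine ⟨?_, comp_conj hL h g (centralizer_conj g y)⟩
  rw [centralizer_conj]
  exact map_mono hL

/-- distinct components of the same subgroup commute. -/
theorem comps_commute [Finite G] {H K L : Subgroup G} (hK : K ≤ H) (hL : L ≤ H)
    (hKc : IsComponent (K.subgroupOf H)) (hLc : IsComponent (L.subgroupOf H)) (hne : K ≠ L) :
    ⁅K, L⁆ = ⊥ := by
  have h1 : K.subgroupOf H ≠ L.subgroupOf H := by
    intro h
    apply hne
    have := congrArg (Subgroup.map H.subtype) h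
    rwa [map_subgroupOf_eq_of_le hK, map_subgroupOf_eq_of_le hL] at this
  have h2 := components_commute hKc hLc h1
  have h3 := congrArg (Subgroup.map H.subtype) h2
  rwa [map_commutator, map_subgroupOf_eq_of_le hK, map_subgroupOf_eq_of_le hL,
    Subgroup.map_bot] at h3

theorem standard_of [Finite G] (x : G) (hx : orderOf x = 2) (L : Subgroup G)
    (hLx : L ≤ centralizer ({x} : Set G))
    (hL : IsComponent (L.subgroupOf (centralizer ({x} : Set G))))
    (hne : ∀ y : G, orderOf y = 2 → y ∈ centralizer (L : Set G) →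
      L ≤ centralizer ({y} : Set G) ∧ IsComponent (L.subgroupOf (centralizer ({y} : Set G))))
    (hnc : ∀ g : G, L.map (MulAut.conj g).toMonoidHom ≠ L →
      ⁅L, L.map (MulAut.conj g).toMonoidHom⁆ ≠ ⊥) : IsStandardSubgroup L := by
  have hxL : x ∈ centralizer (L : Set G) := by
    rw [mem_centralizer_iff]
    intro l hl
    exact (mem_centralizer_one.1 (hLx hl)).symm
  -- the main point
  have key : ∀ (g y : G), orderOf y = 2 → y ∈ centralizer (L : Set G) →
      y ∈ centralizer ((L.map (MulAut.conj g).toMonoidHom : Subgroup G) : Set G) →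
      L.map (MulAut.conj g).toMonoidHom = L := by
    intro g y hy hyL hyLg
    by_contra hgL
    apply hnc g hgL
    obtain ⟨h1, h2⟩ := hne y hy hyL
    have hy' : g⁻¹ * y * g ∈ centralizer (L : Set G) := by
      rw [centralizer_map_conj] at hyLg
      obtain ⟨w, hw, hwy⟩ := hyLg
      change g * w * g⁻¹ = y at hwy
      rw [← hwy]
      have : g⁻¹ * (g * w * g⁻¹) * g = w := by group
      rw [this]; exact hw
    have hoy : orderOf (g⁻¹ * y * g) = 2 := by
      rw [← hy]
      have := MulEquiv.orderOf_eq (MulAut.conj g⁻¹) y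
      rw [MulAut.conj_apply, inv_inv] at this
      exact this
    obtain ⟨h3, h4⟩ := hne _ hoy hy'
    obtain ⟨h5, h6⟩ := comp_conj_centralizer h3 h4 g
    have e : g * (g⁻¹ * y * g) * g⁻¹ = y := by group
    rw [e] at h5 h6
    exact comps_commute h1 h5 h2 h6 (Ne.symm hgL)
  have hNle : normalizer (L : Set G) ≤ normalizer (centralizer (L : Set G) : Set G) := by
    intro g hg
    rw [← CfsgLib.PSub.map_conj_eq_iff_mem_normalizer] at hg ⊢
    rw [← centralizer_map_conj, hg]
  refine ⟨quasisimple_equiv (subgroupOfEquivOfLe hLx) hL.2, ⟨?_, ?_⟩, hnc, ?_⟩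
  · rw [even_iff_two_dvd, ← hx]
    exact Subgroup.orderOf_dvd_natCard _ hxL
  · intro g hg
    by_contra hodd
    rw [Nat.not_odd_iff_even, even_iff_two_dvd] at hodd
    haveI : Fact (Nat.Prime 2) := ⟨Nat.prime_two⟩
    obtain ⟨⟨y, hy⟩, hoy⟩ := exists_prime_orderOf_dvd_card' 2 hodd
    rw [Subgroup.orderOf_mk] at hoy
    obtain ⟨hy1, hy2⟩ := mem_inf.1 hy
    rw [← centralizer_map_conj] at hy2
    apply hg
    apply hNle
    rw [← CfsgLib.PSub.map_conj_eq_iff_mem_normalizer]
    exact key g y hoy hy1 hy2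
  · apply le_antisymm hNle
    intro g hg
    rw [← CfsgLib.PSub.map_conj_eq_iff_mem_normalizer] at hg ⊢
    apply key g x hx hxL
    rw [centralizer_map_conj, hg]
    exact hxL

end CfsgLib.Std
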