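import Mathlib

/-! The field of 1024 elements over the field of four elements: the hermitian trace form and the projective
special linear group of degree two over eleven elements (seat helper12). -/
set_option autoImplicit false
set_option linter.unusedSectionVars false

namespace CfsgLib.Su5H12

open Module

variable {F E : Type*} [Field F] [Field E] [Algebra F E]

section poly

variable {z : E} (h2 : (2 : E) = 0) (h11 : z ^ 11 = 1)
  (hs : 1 + z + z ^ 2 + z ^ 3 + z ^ 4 + z ^ 5 + z ^ 6 + z ^ 7 + z ^ 8 + z ^ 9 + z ^ 10 = 0)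

include h2 h11 hs

theorem minrel : z ^ 5 = (z + z ^ 3 + z ^ 4 + z ^ 5 + z ^ 9) * z ^ 4 + z ^ 3 + z ^ 2 + (z + z ^ 3 + z ^ 4 + z ^ 5 + z ^ 9 + 1) * z + 1 := by
  linear_combination ((-1)*z^2) * h11 + (1) * hs + ((-1) + (-1)*z + (-2)*z^2 + (-1)*z^3 + (-1)*z^4 + (-1)*z^5 + (-1)*z^6 + (-1)*z^7 + (-1)*z^8 + (-1)*z^9 + (-1)*z^10) * h2

theorem arel : (z + z ^ 3 + z ^ 4 + z ^ 5 + z ^ 9) ^ 2 + (z + z ^ 3 + z ^ 4 + z ^ 5 + z ^ 9) + 1 = 0 := by
  linear_combination ((2)*z + (2)*z^2 + (2)*z^3 + z^7) * h11 + (1) * hs + (z + z^2 + z^3 + z^4 + z^5 + z^6 + z^7 + z^8 + z^9 + z^10) * h2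

end poly

variable [Fintype F] (hF : Fintype.card F = 4)

include hF in
theorem two_F : (2 : F) = 0 := by
  obtain ⟨p, hchar, e, hp, hcard⟩ := FiniteField.card' F
  rw [hF] at hcard
  have h2 : p ∣ 4 := by rw [hcard]; exact dvd_pow_self p e.2.ne'
  have h3 : p ∣ 2 := hp.dvd_of_dvd_pow (show p ∣ 2 ^ 2 from h2)
  have h4 : p = 2 := (Nat.prime_dvd_prime_iff_eq hp Nat.prime_two).mp h3
  rw [h4] at hchar
  have : ((2 : ℕ) : F) = 0 := CharP.cast_eq_zero F 2
  exact_mod_cast this

include hF in
theorem two_E : (2 : E) = 0 := by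
  have h := congrArg (algebraMap F E) (two_F hF)
  rwa [map_ofNat, map_zero] at h

include hF in
theorem cube_F {x : F} (h : x ≠ 0) : x ^ 3 = 1 := by
  have := FiniteField.pow_card_sub_one_eq_one x h
  rwa [hF] at this

include hF in
/-- a primitive cube root of unity in the small field -/
theorem exists_omega : ∃ w : F, w ^ 2 + w + 1 = 0 := by
  classical
  obtain ⟨w, hw⟩ : ∃ w : F, w ∉ ({0, 1} : Finset F) := by
    by_contra h
    push Not at h
    have h1 := Finset.card_le_card (fun x _ => h x : (Finset.univ : Finset F) ⊆ {0, 1})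
    rw [Finset.card_univ, hF] at h1
    have h2 : ({0, 1} : Finset F).card ≤ 2 := Finset.card_le_two
    omega
  simp only [Finset.mem_insert, Finset.mem_singleton, not_or] at hw
  refine ⟨w, ?_⟩
  have h3 := cube_F hF hw.1
  have h4 : (w - 1) * (w ^ 2 + w + 1) = 0 := by linear_combination h3
  exact (mul_eq_zero.1 h4).resolve_left (sub_ne_zero.2 hw.2)

include hF in
theorem mem_F_of_rel {x : E} (h : x ^ 2 + x + 1 = 0) : ∃ c : F, algebraMap F E c = x ∧ c ^ 2 + c + 1 = 0 := by
  obtain ⟨w, hw⟩ := exists_omega hF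
  have h2 := two_E (E := E) hF
  have hw' : (algebraMap F E w) ^ 2 + algebraMap F E w + 1 = 0 := by
    have := congrArg (algebraMap F E) hw
    simpa using this
  have h3 : (x - algebraMap F E w) * (x + algebraMap F E w + 1) = 0 := by linear_combination h - hw'
  rcases mul_eq_zero.1 h3 with h4 | h4
  · exact ⟨w, (sub_eq_zero.1 h4).symm, hw⟩
  · refine ⟨w + 1, ?_, by linear_combination hw + (w + 1) * two_F hF⟩
    rw [map_add, map_one]
    linear_combination -h4 + (algebraMap F E w + 1) * h2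

include hF in
theorem mem_F_of_cube {x : E} (h : x ^ 3 = 1) : ∃ c : F, algebraMap F E c = x := by
  by_cases h1 : x = 1
  · exact ⟨1, by rw [map_one, h1]⟩
  · have h4 : (x - 1) * (x ^ 2 + x + 1) = 0 := by linear_combination h
    obtain ⟨c, hc, -⟩ := mem_F_of_rel hF ((mul_eq_zero.1 h4).resolve_left (sub_ne_zero.2 h1))
    exact ⟨c, hc⟩

/-- data: an eleventh root of unity -/
structure Root (z : E) : Prop where
  h11 : z ^ 11 = 1
  hs : 1 + z + z ^ 2 + z ^ 3 + z ^ 4 + z ^ 5 + z ^ 6 + z ^ 7 + z ^ 8 + z ^ 9 + z ^ 10 = 0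

theorem Root.ne_zero {z : E} (hz : Root z) : z ≠ 0 := by
  rintro rfl
  have := hz.h11
  norm_num at this

theorem Root.of_ne {z : E} (h : z ^ 11 = 1) (h1 : z ≠ 1) : Root z := by
  refine ⟨h, ?_⟩
  have h4 : (z - 1) * (1 + z + z ^ 2 + z ^ 3 + z ^ 4 + z ^ 5 + z ^ 6 + z ^ 7 + z ^ 8 + z ^ 9 + z ^ 10) = 0 := by
    linear_combination h
  exact (mul_eq_zero.1 h4).resolve_left (sub_ne_zero.2 h1)

include hF in
theorem Root.ne_one {z : E} (hz : Root z) : z ≠ 1 := by
  rintro rfl
  have h := hz.hs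
  have h2 := two_E (E := E) hF
  have : (1 : E) = 0 := by linear_combination h - 5 * h2
  exact one_ne_zero this

theorem Root.mod {z : E} (hz : Root z) (m : ℕ) : z ^ m = z ^ (m % 11) := by
  conv_lhs => rw [← Nat.mod_add_div m 11, pow_add, pow_mul, hz.h11, one_pow, mul_one]

include hF in
theorem exists_root (hE : finrank F E = 5) : ∃ z : E, Root z := by
  classical
  have hfin : Module.Finite F E := Module.finite_of_finrank_pos (by omega)
  have : Finite E := Module.finite_of_finite F
  have : Fintype E := Fintype.ofFinite E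
  have hc : Fintype.card E = 1024 := by
    rw [Module.card_eq_pow_finrank (K := F) (V := E), hE, hF]; norm_num
  obtain ⟨u, hu⟩ := exists_prime_orderOf_dvd_card (G := Eˣ) 11 (hp := ⟨by norm_num⟩) (by
    rw [Fintype.card_units, hc]; norm_num)
  refine ⟨(u : E), Root.of_ne ?_ ?_⟩
  · have := pow_orderOf_eq_one u
    rw [hu] at this
    rw [← Units.val_pow_eq_pow_val, this, Units.val_one]
  · intro h
    have : u = 1 := Units.ext h
    rw [this, orderOf_one] at hu
    norm_num at hu

include hF in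
theorem Root.not_mem {z : E} (hz : Root z) (c : F) : z ≠ algebraMap F E c := by
  intro h
  have hc0 : c ≠ 0 := by
    rintro rfl
    exact hz.ne_zero (by rw [h, map_zero])
  have h3 : z ^ 3 = 1 := by rw [h, ← map_pow, cube_F hF hc0, map_one]
  have h11 := hz.h11
  apply hz.ne_one hF
  calc z = (z ^ 3) ^ 4 * (z ^ 11)⁻¹ := by
        have := hz.ne_zero
        field_simp
    _ = 1 := by rw [h3, h11]; simp

include hF in
theorem Root.deg {z : E} (hz : Root z) (hE : finrank F E = 5) : (minpoly F z).natDegree = 5 := by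
  have hfin : Module.Finite F E := Module.finite_of_finrank_pos (by omega)
  have h1 : (minpoly F z).natDegree ∣ 5 := by
    rw [← hE]
    exact minpoly.degree_dvd (Algebra.IsIntegral.isIntegral z)
  rcases (Nat.dvd_prime (by norm_num)).1 h1 with h | h
  · exfalso
    obtain ⟨c, hc⟩ := minpoly.natDegree_eq_one_iff.1 h
    exact hz.not_mem hF c hc.symm
  · exact h

/-- the power basis -/
theorem Root.exists_basis {z : E} (hz : Root z) (hF : Fintype.card F = 4) (hE : finrank F E = 5) :
    ∃ b : Basis (Fin 5) F E, ∀ i, b i = z ^ (i : ℕ) := by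
  have hfin : Module.Finite F E := Module.finite_of_finrank_pos (by omega)
  have hd := hz.deg hF hE
  have hli := linearIndependent_pow (K := F) z
  have hli' : LinearIndependent F fun i : Fin 5 => z ^ (i : ℕ) :=
    (linearIndependent_equiv (finCongr hd.symm)).2 hli
  exact ⟨basisOfLinearIndependentOfCardEqFinrank hli' (by rw [Fintype.card_fin, hE]), fun i => by simp⟩

theorem Root.indep {z : E} (hz : Root z) (hF : Fintype.card F = 4) (hE : finrank F E = 5) {a b c d e : F}
    (h : algebraMap F E a + algebraMap F E b * z + algebraMap F E c * z ^ 2 + algebraMap F E d * z ^ 3 + algebraMap F E e * z ^ 4 = 0) :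
    a = 0 ∧ b = 0 ∧ c = 0 ∧ d = 0 ∧ e = 0 := by
  obtain ⟨B, hB⟩ := hz.exists_basis hF hE
  have h1 := Fintype.linearIndependent_iff.1 B.linearIndependent ![a, b, c, d, e] (by
    simp only [Fin.sum_univ_five, hB, Algebra.smul_def]
    simpa using h)
  exact ⟨h1 0, h1 1, h1 2, h1 3, h1 4⟩

end CfsgLib.Su5H12
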