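import Mathlib
import Cfsg.Agent.LibSu5H12

/-! The field of 1024 elements: the hermitian trace form, the extra isometry (seat helper12). -/
set_option autoImplicit false
set_option linter.unusedSectionVars false

namespace CfsgLib.Su5H12

open Module

variable {F E : Type*} [Field F] [Field E] [Algebra F E] [Fintype F]

/-- the data -/
structure Dat (st : E →+* E) (z : E) (α : F) : Prop where
  hF : Fintype.card F = 4
  hE : finrank F E = 5
  root : Root z
  al : algebraMap F E α = z + z ^ 3 + z ^ 4 + z ^ 5 + z ^ 9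
  al2 : α ^ 2 + α + 1 = 0
  stc : ∀ c : F, st (algebraMap F E c) = algebraMap F E (c ^ 2)
  stst : ∀ x, st (st x) = x
  stz : st z = z ^ 10

theorem prim {z : E} (hz : Root z) (hF : Fintype.card F = 4) : IsPrimitiveRoot z 11 := by
  haveI : Fact (Nat.Prime 11) := ⟨by norm_num⟩
  have h := orderOf_eq_prime hz.h11 (hz.ne_one (F := F) hF)
  rw [← h]
  exact IsPrimitiveRoot.orderOf z

theorem eq_pow {z : E} (hz : Root z) (hF : Fintype.card F = 4) {x : E} (hx : x ^ 11 = 1) : ∃ m, m < 11 ∧ x = z ^ m := by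
  obtain ⟨i, hi, h⟩ := (prim hz hF).eq_pow_of_pow_eq_one hx
  exact ⟨i, hi, h.symm⟩

theorem exists_dat (hF : Fintype.card F = 4) (hE : finrank F E = 5) (st : E →+* E)
    (stc : ∀ c : F, st (algebraMap F E c) = algebraMap F E (c ^ 2)) (stst : ∀ x, st (st x) = x) :
    ∃ (z : E) (α : F), Dat st z α := by
  obtain ⟨z, hz⟩ := exists_root (E := E) hF hE
  have h2 := two_E (E := E) hF
  obtain ⟨α, hα, hα2⟩ := mem_F_of_rel (x := z + z ^ 3 + z ^ 4 + z ^ 5 + z ^ 9) hF (arel h2 hz.h11 hz.hs)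
  refine ⟨z, α, hF, hE, hz, hα, hα2, stc, stst, ?_⟩
  obtain ⟨j, hj, hsj⟩ := eq_pow hz hF (x := st z) (by rw [← map_pow, hz.h11, map_one])
  have h1 : z ^ (j * j) = z ^ 1 := by
    have := stst z
    rw [hsj, map_pow, hsj, ← pow_mul] at this
    rw [this, pow_one]
  rw [hz.mod (j * j)] at h1
  have h3 : j * j % 11 = 1 := (prim hz hF).pow_inj (Nat.mod_lt _ (by norm_num)) (by norm_num) h1
  have h4 : j = 1 ∨ j = 10 := by
    clear h1 hsj
    interval_cases j <;> revert h3 <;> decide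
  rcases h4 with rfl | rfl
  · exfalso
    rw [pow_one] at hsj
    have h5 : st (algebraMap F E α) = algebraMap F E α := by
      rw [hα]
      simp only [map_add, map_pow, hsj]
    rw [stc] at h5
    have h6 : α ^ 2 = α := (algebraMap F E).injective h5
    have h7 : (1 : F) = 0 := by linear_combination hα2 - h6 - α * two_F hF
    exact one_ne_zero h7
  · exact hsj

section

variable {st : E →+* E} {z : E} {α : F} (hD : Dat st z α)

include hD

theorem Dat.two : (2 : F) = 0 := two_F hD.hF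
theorem Dat.two' : (2 : E) = 0 := two_E hD.hF

theorem Dat.min : z ^ 5 = algebraMap F E α * z ^ 4 + z ^ 3 + z ^ 2 + (algebraMap F E α + 1) * z + 1 := by
  rw [hD.al]
  exact minrel hD.two' hD.root.h11 hD.root.hs

theorem Dat.al2' : (algebraMap F E α) ^ 2 + algebraMap F E α + 1 = 0 := by
  have := congrArg (algebraMap F E) hD.al2
  simpa using this

theorem Dat.ne0 : α ≠ 0 := by
  intro h
  have := hD.al2
  rw [h] at this
  norm_num at this

theorem Dat.ne1 : 1 + α ≠ 0 := by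
  intro h
  have h1 := hD.al2
  have : (1 : F) = 0 := by linear_combination h1 - α * h
  exact one_ne_zero this

theorem Dat.fin : Module.Finite F E := Module.finite_of_finrank_pos (by rw [hD.hE]; norm_num)

/-- values of the trace -/
def chi (α : F) (m : ℕ) : F := if m % 11 = 0 then 1 else if m % 11 ∈ [1, 3, 4, 5, 9] then α else α + 1

theorem Dat.tr_pow (m : ℕ) : Algebra.trace F E (z ^ m) = chi α m := by
  have := hD.fin
  have : Finite E := Module.finite_of_finite F
  apply (algebraMap F E).injective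
  rw [FiniteField.algebraMap_trace_eq_sum_pow F E, hD.hE, Nat.card_eq_fintype_card, hD.hF]
  have hs := hD.root.hs
  have h2 := hD.two'
  have hal := hD.al
  unfold chi
  rw [hD.root.mod m]
  have hr : m % 11 < 11 := Nat.mod_lt _ (by norm_num)
  generalize m % 11 = r at hr
  have key : ∀ i, (z ^ r) ^ (4 ^ i) = z ^ ((r * 4 ^ i) % 11) := by
    intro i
    rw [← pow_mul, hD.root.mod]
  simp only [Finset.sum_range_succ, key, Finset.sum_range_zero]
  interval_cases r
  · norm_num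
    linear_combination 2 * h2
  · norm_num
    rw [hal]; ring
  · norm_num
    rw [hal]
    linear_combination hs - (z + z ^ 3 + z ^ 4 + z ^ 5 + z ^ 9 + 1) * h2
  · norm_num
    rw [hal]; ring
  · norm_num
    rw [hal]; ring
  · norm_num
    rw [hal]; ring
  · norm_num
    rw [hal]
    linear_combination hs - (z + z ^ 3 + z ^ 4 + z ^ 5 + z ^ 9 + 1) * h2
  · norm_num
    rw [hal]
    linear_combination hs - (z + z ^ 3 + z ^ 4 + z ^ 5 + z ^ 9 + 1) * h2
  · norm_num
    rw [hal]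
    linear_combination hs - (z + z ^ 3 + z ^ 4 + z ^ 5 + z ^ 9 + 1) * h2
  · norm_num
    rw [hal]; ring
  · norm_num
    rw [hal]
    linear_combination hs - (z + z ^ 3 + z ^ 4 + z ^ 5 + z ^ 9 + 1) * h2

theorem Dat.tr_st (x : E) : Algebra.trace F E (st x) = (Algebra.trace F E x) ^ 2 := by
  have := hD.fin
  have : Finite E := Module.finite_of_finite F
  apply (algebraMap F E).injective
  rw [← hD.stc, FiniteField.algebraMap_trace_eq_sum_pow F E, FiniteField.algebraMap_trace_eq_sum_pow F E, map_sum]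
  simp only [map_pow]

omit hD [Fintype F] in
/-- every functional is a translate of a given non-zero one -/
theorem fun_surj' (hfin : Module.Finite F E) (φ ψ : E →ₗ[F] F) (hφ : φ ≠ 0) : ∃ c : E, ∀ x : E, ψ x = φ (x * c) := by
  let T : E →ₗ[F] Module.Dual F E :=
    { toFun := fun c => φ.comp (LinearMap.mulRight F c)
      map_add' := by
        intro x y
        ext z
        simp [mul_add]
      map_smul' := by
        intro c x
        ext z
        simp }
  have hinj : Function.Injective T := by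
    rw [← LinearMap.ker_eq_bot, LinearMap.ker_eq_bot']
    intro x hx
    by_contra hx0
    apply hφ
    ext z
    have h1 := LinearMap.congr_fun hx (z * x⁻¹)
    have h2 : z * x⁻¹ * x = z := by field_simp
    have h3 : T x (z * x⁻¹) = φ (z * x⁻¹ * x) := rfl
    rw [h3, h2] at h1
    exact h1
  have hsurj : Function.Surjective T :=
    (LinearMap.injective_iff_surjective_of_finrank_eq_finrank (Subspace.dual_finrank_eq (K := F) (V := E)).symm).1 hinj
  obtain ⟨c, hc⟩ := hsurj ψ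
  exact ⟨c, fun x => by rw [← hc]; rfl⟩

omit hD [Fintype F] in
theorem fun_zero (φ : E →ₗ[F] F) (hφ : φ ≠ 0) {u : E} (h : ∀ x, φ (x * u) = 0) : u = 0 := by
  by_contra hu
  apply hφ
  ext y
  have := h (y * u⁻¹)
  rwa [inv_mul_cancel_right₀ hu] at this

theorem Dat.tr_ne : (Algebra.trace F E : E →ₗ[F] F) ≠ 0 := by
  intro h
  have h1 := hD.tr_pow 0
  rw [h] at h1
  simp [chi] at h1

/-- normalising a functional -/
theorem Dat.norm_fun (φ : E →ₗ[F] F) (hφ : φ ≠ 0) (hs : ∀ x, φ (st x) = (φ x) ^ 2) :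
    ∃ d : E, d ≠ 0 ∧ ∀ x, φ (x * (d * st d)) = Algebra.trace F E x := by
  have hfin := hD.fin
  have : Finite E := Module.finite_of_finite F
  obtain ⟨c, hc⟩ := fun_surj' hfin φ (Algebra.trace F E) hφ
  have h1 : c - st c = 0 := by
    apply fun_zero φ hφ
    intro y
    have h3 := hD.tr_st (st y)
    rw [hD.stst, hc y, hc (st y), ← hs, map_mul st, hD.stst] at h3
    rw [mul_sub, map_sub, h3, sub_self]
  have hc0 : c ≠ 0 := by
    rintro rfl
    apply hD.tr_ne
    ext y
    rw [hc y, mul_zero, map_zero, LinearMap.zero_apply]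
  have hch : ringChar E = 2 := by
    have h2 : ((2 : ℕ) : E) = 0 := by exact_mod_cast hD.two'
    exact CharP.ringChar_of_prime_eq_zero Nat.prime_two h2
  obtain ⟨d, hd⟩ := FiniteField.isSquare_of_char_two hch c
  have hd0 : d ≠ 0 := by
    rintro rfl
    rw [mul_zero] at hd
    exact hc0 hd
  have h4 : (st d - d) * (st d - d) = 0 := by
    have h5 : st d * st d = d * d := by rw [← map_mul, ← hd]; exact (sub_eq_zero.1 h1).symm
    linear_combination h5 + (d * d - st d * d) * hD.two'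
  have h6 : st d = d := by
    rcases mul_eq_zero.1 h4 with h | h <;> exact sub_eq_zero.1 h
  exact ⟨d, hd0, fun x => by rw [h6, ← hd, hc]⟩

/-- unitary elements -/
theorem Dat.unit_eq {k : E} (hk : k * st k = 1) : ∃ (c : F) (m : ℕ), c ≠ 0 ∧ k = algebraMap F E c * z ^ m := by
  have hfin := hD.fin
  have : Finite E := Module.finite_of_finite F
  have h2 : ((2 : ℕ) : E) = 0 := by exact_mod_cast hD.two'
  haveI : Fact (Nat.Prime 2) := ⟨Nat.prime_two⟩
  haveI : CharP E 2 := (CharP.charP_iff_prime_eq_zero Nat.prime_two).2 h2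
  have hst : ∀ x, st x = x ^ 32 := by
    obtain ⟨B, hB⟩ := hD.root.exists_basis hD.hF hD.hE
    intro x
    have h3 : x ^ 32 = iterateFrobenius E 2 5 x := by rw [iterateFrobenius_def]; norm_num
    rw [h3, ← B.sum_repr x, map_sum, map_sum]
    refine Finset.sum_congr rfl fun i _ => ?_
    rw [Algebra.smul_def, map_mul, map_mul, hD.stc, hB, map_pow st z, hD.stz, iterateFrobenius_def, iterateFrobenius_def]
    have h4 : ∀ c : F, c ^ (2 ^ 5) = c ^ 2 := by
      intro c
      have h5 : c ^ 4 = c := by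
        have := FiniteField.pow_card c
        rwa [hD.hF] at this
      calc c ^ (2 ^ 5) = (c ^ 4) ^ 8 := by ring
        _ = (c ^ 4) ^ 2 := by rw [h5]; calc c ^ 8 = (c ^ 4) ^ 2 := by ring
            _ = c ^ 2 := by rw [h5]
        _ = c ^ 2 := by rw [h5]
    rw [← map_pow (algebraMap F E), h4, ← pow_mul, ← pow_mul, hD.root.mod ((i : ℕ) * 2 ^ 5), hD.root.mod (10 * (i : ℕ))]
    congr 2
    omega
  have hk0 : k ≠ 0 := by
    rintro rfl
    rw [zero_mul] at hk
    exact zero_ne_one hk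
  have h33 : k ^ 33 = 1 := by
    rw [← hk, hst]; ring
  obtain ⟨m, -, hm⟩ := eq_pow hD.root hD.hF (x := k ^ 12) (by
    calc (k ^ 12) ^ 11 = (k ^ 33) ^ 4 := by ring
      _ = 1 := by rw [h33, one_pow])
  obtain ⟨c, hc⟩ := mem_F_of_cube (x := (k ^ 11) ^ 2) hD.hF (by
    calc ((k ^ 11) ^ 2) ^ 3 = (k ^ 33) ^ 2 := by ring
      _ = 1 := by rw [h33, one_pow])
  refine ⟨c, m, ?_, ?_⟩
  · rintro rfl
    rw [map_zero] at hc
    exact pow_ne_zero _ (pow_ne_zero _ hk0) hc.symm
  · rw [hc, ← hm]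
    calc k = k * 1 := (mul_one k).symm
      _ = k * k ^ 33 := by rw [h33]
      _ = (k ^ 11) ^ 2 * k ^ 12 := by ring

/-- the sixty-six lines -/
def SS (z : E) : Set E := {x | ∃ c : F, c ≠ 0 ∧ ((∃ i : ℕ, x = algebraMap F E c * z ^ i) ∨
  (∃ i j : ℕ, z ^ i ≠ z ^ j ∧ x = algebraMap F E c * (z ^ i + z ^ j)))}

theorem Dat.norm_one {c : F} (hc : c ≠ 0) (i : ℕ) : (algebraMap F E c * z ^ i) * st (algebraMap F E c * z ^ i) = 1 := by
  rw [map_mul, map_pow, hD.stz, hD.stc, ← pow_mul]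
  have h1 : algebraMap F E c * algebraMap F E (c ^ 2) = 1 := by
    rw [← map_mul, ← pow_succ', cube_F hD.hF hc, map_one]
  have h3 : z ^ i * z ^ (10 * i) = 1 := by
    rw [← pow_add, show i + 10 * i = 11 * i by ring, pow_mul, hD.root.h11, one_pow]
  calc _ = (algebraMap F E c * algebraMap F E (c ^ 2)) * (z ^ i * z ^ (10 * i)) := by ring
    _ = 1 := by rw [h1, h3, one_mul]

theorem Dat.norm_two {c : F} (hc : c ≠ 0) {i j : ℕ} (hij : z ^ i ≠ z ^ j) :
    ∃ k, 0 < k ∧ k < 11 ∧ (algebraMap F E c * (z ^ i + z ^ j)) * st (algebraMap F E c * (z ^ i + z ^ j)) = z ^ k + z ^ (11 - k) := by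
  have h0 : ∀ i j : ℕ, z ^ (i + 10 * j) = 1 → z ^ i = z ^ j := by
    intro i j h
    calc z ^ i = z ^ i * (z ^ 11) ^ j := by rw [hD.root.h11, one_pow, mul_one]
      _ = z ^ (i + 10 * j) * z ^ j := by ring
      _ = z ^ j := by rw [h, one_mul]
  refine ⟨(i + 10 * j) % 11, ?_, Nat.mod_lt _ (by norm_num), ?_⟩
  · rw [Nat.pos_iff_ne_zero]
    intro h
    apply hij
    apply h0
    rw [hD.root.mod, h, pow_zero]
  · have h5 : z ^ (11 - (i + 10 * j) % 11) = z ^ (j + 10 * i) := by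
      rw [hD.root.mod, hD.root.mod (j + 10 * i)]
      congr 1
      have h6 : (i + 10 * j) % 11 ≠ 0 := by
        intro h
        apply hij
        apply h0
        rw [hD.root.mod, h, pow_zero]
      omega
    rw [← hD.root.mod, h5, map_mul, map_add, map_pow, map_pow, hD.stz, hD.stc]
    have h1 : algebraMap F E c * algebraMap F E (c ^ 2) = 1 := by
      rw [← map_mul, ← pow_succ', cube_F hD.hF hc, map_one]
    have h7 : (z ^ 11) ^ i = 1 := by rw [hD.root.h11, one_pow]
    have h8 : (z ^ 11) ^ j = 1 := by rw [hD.root.h11, one_pow]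
    calc _ = (algebraMap F E c * algebraMap F E (c ^ 2)) * ((z ^ 11) ^ i + (z ^ 11) ^ j + z ^ (i + 10 * j) + z ^ (j + 10 * i)) := by ring
      _ = z ^ (i + 10 * j) + z ^ (j + 10 * i) + 2 := by rw [h1, h7, h8]; ring
      _ = _ := by rw [hD.two', add_zero]

theorem Dat.ne_case1 : algebraMap F E α * z + (algebraMap F E α + 1) * z ^ 10 ≠ z ^ 1 + z ^ 10 := by
  intro heq
  have hm := hD.min
  have ha := hD.al2'
  have h2 := hD.two'
  have h := hD.root.indep hD.hF hD.hE (a := 1) (b := 1) (c := α) (d := 1 + α) (e := α) (by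
    simp only [map_add, map_one, map_zero]
    generalize algebraMap F E α = a at *
    linear_combination heq - ((1) + (2)*a^1 + (-1)*z^1 + (-2)*z^1*a^1 + (-2)*z^2 + (1)*z^3 + (1)*z^3*a^1 + (-1)*z^4 + (-1)*z^4*a^1 + (1)*z^5*a^1) * hm - ((2)*z^1 + (-2)*z^2 + (3)*z^4 + (-3)*z^5 + (1)*z^6 + (1)*z^7 + (-1)*z^8 + (1)*z^9) * ha - ((1)*a^1 + (-2)*z^1 + (-1)*z^3 + (-1)*z^3*a^1 + (-3)*z^4 + (-2)*z^4*a^1) * h2)
  exact one_ne_zero h.1

theorem Dat.ne_case2 : algebraMap F E α * z + (algebraMap F E α + 1) * z ^ 10 ≠ z ^ 2 + z ^ 9 := by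
  intro heq
  have hm := hD.min
  have ha := hD.al2'
  have h2 := hD.two'
  have h := hD.root.indep hD.hF hD.hE (a := 1) (b := 1 + α) (c := 1 + α) (d := 1) (e := 0) (by
    simp only [map_add, map_one, map_zero]
    generalize algebraMap F E α = a at *
    linear_combination heq - ((3) + (-4)*z^1 + (-3)*z^1*a^1 + (3)*z^2*a^1 + (1)*z^3 + (-1)*z^3*a^1 + (-2)*z^4 + (1)*z^5 + (1)*z^5*a^1) * hm - ((-3)*z^2 + (3)*z^3 + (-1)*z^4 + (-3)*z^5 + (4)*z^6 + (-1)*z^7 + (1)*z^9) * ha - ((1) + (-1)*z^1 + (-1)*z^2*a^1 + (-2)*z^3 + (-2)*z^3*a^1 + (-2)*z^4 + (2)*z^4*a^1) * h2)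
  exact one_ne_zero h.1

theorem Dat.ne_case3 : algebraMap F E α * z + (algebraMap F E α + 1) * z ^ 10 ≠ z ^ 3 + z ^ 8 := by
  intro heq
  have hm := hD.min
  have ha := hD.al2'
  have h2 := hD.two'
  have h := hD.root.indep hD.hF hD.hE (a := α) (b := 1 + α) (c := 0) (d := α) (e := 0) (by
    simp only [map_add, map_one, map_zero]
    generalize algebraMap F E α = a at *
    linear_combination heq - ((-1)*a^1 + (-2)*z^1 + (1)*z^2*a^1 + (-1)*z^4 + (1)*z^5 + (1)*z^5*a^1) * hm - ((-1)*z^1 + (1)*z^3 + (-1)*z^4 + (2)*z^6 + (1)*z^9) * ha - ((-1)*a^1 + (-1)*z^1 + (-1)*z^2 + (-1)*z^2*a^1 + (-2)*z^3 + (-1)*z^3*a^1 + (-1)*z^4 + (1)*z^4*a^1) * h2)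
  exact hD.ne0 h.1

theorem Dat.ne_case4 : algebraMap F E α * z + (algebraMap F E α + 1) * z ^ 10 ≠ z ^ 4 + z ^ 7 := by
  intro heq
  have hm := hD.min
  have ha := hD.al2'
  have h2 := hD.two'
  have h := hD.root.indep hD.hF hD.hE (a := 0) (b := α) (c := 1) (d := α) (e := α) (by
    simp only [map_add, map_one, map_zero]
    generalize algebraMap F E α = a at *
    linear_combination heq - ((2) + (2)*a^1 + (-2)*z^1 + (-2)*z^1*a^1 + (-1)*z^2 + (2)*z^2*a^1 + (1)*z^3 + (-1)*z^4 + (1)*z^5 + (1)*z^5*a^1) * hm - ((2)*z^1 + (-2)*z^2 + (2)*z^3 + (2)*z^4 + (-2)*z^5 + (3)*z^6 + (1)*z^9) * ha - ((1) + (1)*a^1 + (-1)*z^1 + (1)*z^2*a^1 + (-1)*z^3 + (-1)*z^3*a^1 + (-3)*z^4) * h2)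
  exact one_ne_zero h.2.2.1

theorem Dat.ne_case5 : algebraMap F E α * z + (algebraMap F E α + 1) * z ^ 10 ≠ z ^ 5 + z ^ 6 := by
  intro heq
  have hm := hD.min
  have ha := hD.al2'
  have h2 := hD.two'
  have h := hD.root.indep hD.hF hD.hE (a := 1) (b := α) (c := 1 + α) (d := 1 + α) (e := 1 + α) (by
    simp only [map_add, map_one, map_zero]
    generalize algebraMap F E α = a at *
    linear_combination heq - ((1) + (-3)*z^1 + (-1)*z^1*a^1 + (2)*z^2*a^1 + (1)*z^3 + (-1)*z^4 + (1)*z^5 + (1)*z^5*a^1) * hm - ((-1)*z^2 + (2)*z^3 + (-1)*z^5 + (3)*z^6 + (1)*z^9) * ha - ((-1)*z^1 + (-1)*z^2 + (-1)*z^2*a^1 + (-2)*z^3 + (-1)*z^3*a^1 + (-2)*z^4 + (1)*z^4*a^1) * h2)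
  exact one_ne_zero h.1

theorem Dat.ne_case0 : algebraMap F E α * z + (algebraMap F E α + 1) * z ^ 10 ≠ 1 := by
  intro heq
  have hm := hD.min
  have ha := hD.al2'
  have h2 := hD.two'
  have h := hD.root.indep hD.hF hD.hE (a := 1 + α) (b := 1) (c := 1 + α) (d := 1) (e := 1 + α) (by
    simp only [map_add, map_one, map_zero]
    generalize algebraMap F E α = a at *
    linear_combination heq - ((2) + (1)*a^1 + (-2)*z^1 + (-1)*z^1*a^1 + (2)*z^2*a^1 + (1)*z^3 + (-1)*z^4 + (1)*z^5 + (1)*z^5*a^1) * hm - ((1)*z^1 + (-1)*z^2 + (2)*z^3 + (1)*z^4 + (-1)*z^5 + (3)*z^6 + (1)*z^9) * ha - ((-1)*z^1 + (1)*z^1*a^1 + (-1)*z^3 + (-2)*z^4 + (1)*z^4*a^1) * h2)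
  exact one_ne_zero h.2.1

/-- the isometry is not transitive on the lines of unit vectors -/
theorem Dat.witness : Algebra.trace F E ((1 + algebraMap F E α * z) * st (1 + algebraMap F E α * z)) = 1 ∧
    (1 + algebraMap F E α * z) ∉ SS (F := F) z := by
  have ha := hD.al2'
  have h2 := hD.two'
  have h11 := hD.root.h11
  have hN : (1 + algebraMap F E α * z) * st (1 + algebraMap F E α * z) = algebraMap F E α * z + (algebraMap F E α + 1) * z ^ 10 := by
    rw [map_add, map_one, map_mul, hD.stz, hD.stc, map_pow]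
    generalize algebraMap F E α = a at *
    linear_combination (a ^ 3) * h11 + (z ^ 10 + a - 1) * ha + (1 - z ^ 10 - a * z ^ 10) * h2
  constructor
  · rw [hN]
    have h1 : algebraMap F E α * z + (algebraMap F E α + 1) * z ^ 10 = α • z ^ 1 + (α + 1) • z ^ 10 := by
      rw [Algebra.smul_def, Algebra.smul_def, map_add, map_one, pow_one]
    rw [h1, map_add, map_smul, map_smul, hD.tr_pow, hD.tr_pow]
    norm_num [chi]
    linear_combination 2 * hD.al2 - (1 : F) * hD.two
  · rintro ⟨c, hc, ⟨i, hi⟩ | ⟨i, j, hij, h⟩⟩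
    · have := hD.norm_one hc i
      rw [← hi, hN] at this
      exact hD.ne_case0 this
    · obtain ⟨k, hk0, hk, hk'⟩ := hD.norm_two hc hij
      rw [← h, hN] at hk'
      interval_cases k
      · exact hD.ne_case1 hk'
      · exact hD.ne_case2 hk'
      · exact hD.ne_case3 hk'
      · exact hD.ne_case4 hk'
      · exact hD.ne_case5 hk'
      · exact hD.ne_case5 (by rw [hk', add_comm])
      · exact hD.ne_case4 (by rw [hk', add_comm])
      · exact hD.ne_case3 (by rw [hk', add_comm])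
      · exact hD.ne_case2 (by rw [hk', add_comm])
      · exact hD.ne_case1 (by rw [hk', add_comm])

/-- semilinear isometries of the extension field preserve the lines -/
theorem Dat.semi (θ : E →ₐ[F] E) {k : E} (hk : k * st k = 1) {x : E} (hx : x ∈ SS (F := F) z) : θ x * k ∈ SS (F := F) z := by
  obtain ⟨d, m, hd, rfl⟩ := hD.unit_eq hk
  obtain ⟨j, -, hj⟩ := eq_pow hD.root hD.hF (x := θ z) (by rw [← map_pow, hD.root.h11, map_one])
  obtain ⟨c, hc, ⟨i, rfl⟩ | ⟨i, l, hil, rfl⟩⟩ := hx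
  · refine ⟨c * d, mul_ne_zero hc hd, Or.inl ⟨j * i + m, ?_⟩⟩
    rw [map_mul, AlgHom.commutes, map_pow, hj, map_mul]
    ring
  · refine ⟨c * d, mul_ne_zero hc hd, Or.inr ⟨j * i + m, j * l + m, ?_, ?_⟩⟩
    · intro h
      rw [pow_add, pow_add] at h
      have h1 := mul_right_cancel₀ (pow_ne_zero m hD.root.ne_zero) h
      rw [pow_mul, pow_mul, ← hj, ← map_pow, ← map_pow] at h1
      exact hil (θ.injective h1)
    · rw [map_mul, AlgHom.commutes, map_add, map_pow, map_pow, hj, map_mul]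
      ring

/-- the involution on the exponents -/
def pI (r : ℕ) : ℕ := [0, 10, 5, 7, 8, 2, 9, 3, 4, 6, 1].getD r 0

theorem pI_lt : ∀ r, r < 11 → pI r < 11 := by decide
theorem pI_pI : ∀ r, r < 11 → pI (pI r) = r := by decide
theorem pI_pos : ∀ r, r < 11 → (0 < r → 0 < pI r) := by decide

/-- the extra isometry -/
theorem Dat.exists_T : ∃ T : E →ₗ[F] E, T 1 = 1 ∧ (∀ r, 0 < r → r < 11 → T (z ^ r) = z ^ (pI r) + 1) := by
  obtain ⟨B, hB⟩ := hD.root.exists_basis hD.hF hD.hE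
  have h2 := hD.two'
  have h11 := hD.root.h11
  have hs := hD.root.hs
  have hal := hD.al
  let T : E →ₗ[F] E := B.constr F ![1, z ^ 10 + 1, z ^ 5 + 1, z ^ 7 + 1, z ^ 8 + 1]
  have hT : ∀ i : Fin 5, T (z ^ (i : ℕ)) = ![1, z ^ 10 + 1, z ^ 5 + 1, z ^ 7 + 1, z ^ 8 + 1] i := by
    intro i
    rw [← hB, Basis.constr_basis]
  have t0 : T 1 = 1 := by have := hT 0; simpa using this
  have t1 : T (z ^ 1) = z ^ 10 + 1 := hT 1
  have t2 : T (z ^ 2) = z ^ 5 + 1 := hT 2
  have t3 : T (z ^ 3) = z ^ 7 + 1 := hT 3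
  have t4 : T (z ^ 4) = z ^ 8 + 1 := hT 4
  have hrec : ∀ i : ℕ, z ^ (i + 5) = α • z ^ (i + 4) + z ^ (i + 3) + z ^ (i + 2) + (α + 1) • z ^ (i + 1) + z ^ i := by
    intro i
    rw [Algebra.smul_def, Algebra.smul_def, map_add, map_one, pow_add z i 5, hD.min]
    ring
  have hTrec : ∀ i : ℕ, T (z ^ (i + 5)) = algebraMap F E α * T (z ^ (i + 4)) + T (z ^ (i + 3)) + T (z ^ (i + 2)) +
      (algebraMap F E α + 1) * T (z ^ (i + 1)) + T (z ^ i) := by
    intro i
    rw [hrec, map_add, map_add, map_add, map_add, map_smul, map_smul, Algebra.smul_def, Algebra.smul_def, map_add, map_one]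
  have t5 : T (z ^ 5) = z ^ 2 + 1 := by
    have h := hTrec 0
    norm_num only at h
    rw [t4, t3, t2, t1, pow_zero, t0, hal] at h
    rw [h]
    linear_combination ((2) + z + (2)*z^2 + z^3 + z^4 + z^6 + z^8) * h11 + (1) * hs + ((2) + z + z^3 + z^4 + z^5 + z^9) * h2
  have t6 : T (z ^ 6) = z ^ 9 + 1 := by
    have h := hTrec 1
    norm_num only at h
    rw [t5, t4, t3, t2, t1, hal] at h
    rw [h]
    linear_combination ((1) + z^3) * h11 + (0) * hs + ((2) + z + (2)*z^3 + z^4 + (2)*z^5 + z^6 + z^7 + z^8 + z^9 + z^10) * h2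
  have t7 : T (z ^ 7) = z ^ 3 + 1 := by
    have h := hTrec 2
    norm_num only at h
    rw [t6, t5, t4, t3, t2, hal] at h
    rw [h]
    linear_combination ((1) + (2)*z + z^2 + z^3 + z^5 + z^7) * h11 + (0) * hs + ((2) + (2)*z + z^2 + z^3 + z^4 + (2)*z^5 + z^7 + z^8 + z^9 + z^10) * h2
  have t8 : T (z ^ 8) = z ^ 4 + 1 := by
    have h := hTrec 3
    norm_num only at h
    rw [t7, t6, t5, t4, t3, hal] at h
    rw [h]
    linear_combination ((1) + (2)*z + z^2 + z^6) * h11 + (0) * hs + ((2) + (2)*z + z^2 + z^3 + z^4 + z^5 + z^6 + z^7 + z^8 + (2)*z^9) * h2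
  have t9 : T (z ^ 9) = z ^ 6 + 1 := by
    have h := hTrec 4
    norm_num only at h
    rw [t8, t7, t6, t5, t4, hal] at h
    rw [h]
    linear_combination ((1) + z^2) * h11 + (0) * hs + ((2) + z + z^2 + (2)*z^3 + z^4 + (2)*z^5 + z^7 + z^8 + (2)*z^9) * h2
  have t10 : T (z ^ 10) = z ^ 1 + 1 := by
    have h := hTrec 5
    norm_num only at h
    rw [t9, t8, t7, t6, t5, hal] at h
    rw [h]
    linear_combination ((1) + z + z^2 + z^3 + z^4 + z^7) * h11 + (0) * hs + ((2) + z + z^2 + (2)*z^3 + (2)*z^4 + z^5 + z^7 + (2)*z^9 + z^10) * h2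
  refine ⟨T, t0, fun r h0 hr => ?_⟩
  interval_cases r
  · exact t1
  · exact t2
  · exact t3
  · exact t4
  · exact t5
  · exact t6
  · exact t7
  · exact t8
  · exact t9
  · exact t10

end

end CfsgLib.Su5H12
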