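import Mathlib
import Cfsg.Agent.LibSu5bH12

/-! The field of 1024 elements: properties of the extra isometry (seat helper12). -/
set_option autoImplicit false
set_option linter.unusedSectionVars false

namespace CfsgLib.Su5H12

open Module

variable {F E : Type*} [Field F] [Field E] [Algebra F E] [Fintype F]
variable {st : E →+* E} {z : E} {α : F} (hD : Dat st z α)

include hD

/-- the hermitian form -/
theorem Dat.tr_symm (x y : E) : Algebra.trace F E (x * st y) = (Algebra.trace F E (y * st x)) ^ 2 := by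
  rw [← hD.tr_st, map_mul st, hD.stst, mul_comm]

theorem Dat.gram {T : E →ₗ[F] E} (t0 : T 1 = 1) (hT : ∀ r, 0 < r → r < 11 → T (z ^ r) = z ^ (pI r) + 1) (i j : Fin 5) :
    Algebra.trace F E (T (z ^ (i : ℕ)) * st (T (z ^ (j : ℕ)))) = Algebra.trace F E (z ^ (i : ℕ) * st (z ^ (j : ℕ))) := by
  have h2 := hD.two
  have ha := hD.al2
  have h00 : ∀ a b : ℕ, Algebra.trace F E (z ^ a * st (z ^ b)) = chi α (a + 10 * b) := by
    intro a b
    rw [map_pow, hD.stz, ← pow_mul, ← pow_add, hD.tr_pow]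
  have h11 : ∀ a b : ℕ, Algebra.trace F E ((z ^ a + 1) * st (z ^ b + 1)) = chi α (a + 10 * b) + chi α a + chi α (10 * b) + chi α 0 := by
    intro a b
    rw [map_add, map_one, map_pow, hD.stz, ← pow_mul, ← hD.tr_pow, ← hD.tr_pow, ← hD.tr_pow, ← hD.tr_pow, ← map_add, ← map_add, ← map_add]
    congr 1
    ring
  have h10 : ∀ a : ℕ, Algebra.trace F E ((z ^ a + 1) * st 1) = chi α a + chi α 0 := by
    intro a
    rw [map_one, ← hD.tr_pow, ← hD.tr_pow, ← map_add]
    congr 1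
    ring
  have h01 : ∀ b : ℕ, Algebra.trace F E (1 * st (z ^ b + 1)) = chi α (10 * b) + chi α 0 := by
    intro b
    rw [map_add, map_one, map_pow, hD.stz, ← pow_mul, ← hD.tr_pow, ← hD.tr_pow, ← map_add]
    congr 1
    ring
  have h0 : Algebra.trace F E (1 * st 1) = chi α 0 := by
    rw [map_one, ← hD.tr_pow]
    congr 1
    ring
  rw [h00]
  have e0 : T (z ^ ((0 : Fin 5) : ℕ)) = 1 := by
    rw [show ((0 : Fin 5) : ℕ) = 0 from rfl, pow_zero, t0]
  have e1 : T (z ^ ((1 : Fin 5) : ℕ)) = z ^ 10 + 1 := hT 1 (by norm_num) (by norm_num)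
  have e2 : T (z ^ ((2 : Fin 5) : ℕ)) = z ^ 5 + 1 := hT 2 (by norm_num) (by norm_num)
  have e3 : T (z ^ ((3 : Fin 5) : ℕ)) = z ^ 7 + 1 := hT 3 (by norm_num) (by norm_num)
  have e4 : T (z ^ ((4 : Fin 5) : ℕ)) = z ^ 8 + 1 := hT 4 (by norm_num) (by norm_num)
  have go : ∀ m : ℕ, chi α m = chi α (m % 11) := fun m => by unfold chi; rw [Nat.mod_mod]
  have c0 : chi α 0 = 1 := by norm_num [chi]
  have c1 : chi α 1 = α := by norm_num [chi]
  have c2 : chi α 2 = α + 1 := by norm_num [chi]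
  have c3 : chi α 3 = α := by norm_num [chi]
  have c4 : chi α 4 = α := by norm_num [chi]
  have c5 : chi α 5 = α := by norm_num [chi]
  have c6 : chi α 6 = α + 1 := by norm_num [chi]
  have c7 : chi α 7 = α + 1 := by norm_num [chi]
  have c8 : chi α 8 = α + 1 := by norm_num [chi]
  have c9 : chi α 9 = α := by norm_num [chi]
  have c10 : chi α 10 = α + 1 := by norm_num [chi]
  have f00 : Algebra.trace F E (T (z ^ ((0 : Fin 5) : ℕ)) * st (T (z ^ ((0 : Fin 5) : ℕ)))) = chi α (((0 : Fin 5) : ℕ) + 10 * ((0 : Fin 5) : ℕ)) := by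
    rw [e0, h0]
    have g0 : chi α (0) = 1 := by rw [go]; exact c0
    have gr : chi α (((0 : Fin 5) : ℕ) + 10 * ((0 : Fin 5) : ℕ)) = 1 := by rw [go]; exact c0
    linear_combination g0 - gr + (0 * α + 0) * h2
  have f01 : Algebra.trace F E (T (z ^ ((0 : Fin 5) : ℕ)) * st (T (z ^ ((1 : Fin 5) : ℕ)))) = chi α (((0 : Fin 5) : ℕ) + 10 * ((1 : Fin 5) : ℕ)) := by
    rw [e0, e1, h01 10]
    have g0 : chi α (10 * 10) = α := by rw [go]; exact c1
    have g1 : chi α (0) = 1 := by rw [go]; exact c0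
    have gr : chi α (((0 : Fin 5) : ℕ) + 10 * ((1 : Fin 5) : ℕ)) = α + 1 := by rw [go]; exact c10
    linear_combination g0 + g1 - gr + (0 * α + 0) * h2
  have f02 : Algebra.trace F E (T (z ^ ((0 : Fin 5) : ℕ)) * st (T (z ^ ((2 : Fin 5) : ℕ)))) = chi α (((0 : Fin 5) : ℕ) + 10 * ((2 : Fin 5) : ℕ)) := by
    rw [e0, e2, h01 5]
    have g0 : chi α (10 * 5) = α + 1 := by rw [go]; exact c6
    have g1 : chi α (0) = 1 := by rw [go]; exact c0
    have gr : chi α (((0 : Fin 5) : ℕ) + 10 * ((2 : Fin 5) : ℕ)) = α := by rw [go]; exact c9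
    linear_combination g0 + g1 - gr + (0 * α + 1) * h2
  have f03 : Algebra.trace F E (T (z ^ ((0 : Fin 5) : ℕ)) * st (T (z ^ ((3 : Fin 5) : ℕ)))) = chi α (((0 : Fin 5) : ℕ) + 10 * ((3 : Fin 5) : ℕ)) := by
    rw [e0, e3, h01 7]
    have g0 : chi α (10 * 7) = α := by rw [go]; exact c4
    have g1 : chi α (0) = 1 := by rw [go]; exact c0
    have gr : chi α (((0 : Fin 5) : ℕ) + 10 * ((3 : Fin 5) : ℕ)) = α + 1 := by rw [go]; exact c8
    linear_combination g0 + g1 - gr + (0 * α + 0) * h2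
  have f04 : Algebra.trace F E (T (z ^ ((0 : Fin 5) : ℕ)) * st (T (z ^ ((4 : Fin 5) : ℕ)))) = chi α (((0 : Fin 5) : ℕ) + 10 * ((4 : Fin 5) : ℕ)) := by
    rw [e0, e4, h01 8]
    have g0 : chi α (10 * 8) = α := by rw [go]; exact c3
    have g1 : chi α (0) = 1 := by rw [go]; exact c0
    have gr : chi α (((0 : Fin 5) : ℕ) + 10 * ((4 : Fin 5) : ℕ)) = α + 1 := by rw [go]; exact c7
    linear_combination g0 + g1 - gr + (0 * α + 0) * h2
  have f10 : Algebra.trace F E (T (z ^ ((1 : Fin 5) : ℕ)) * st (T (z ^ ((0 : Fin 5) : ℕ)))) = chi α (((1 : Fin 5) : ℕ) + 10 * ((0 : Fin 5) : ℕ)) := by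
    rw [e1, e0, h10 10]
    have g0 : chi α (10) = α + 1 := by rw [go]; exact c10
    have g1 : chi α (0) = 1 := by rw [go]; exact c0
    have gr : chi α (((1 : Fin 5) : ℕ) + 10 * ((0 : Fin 5) : ℕ)) = α := by rw [go]; exact c1
    linear_combination g0 + g1 - gr + (0 * α + 1) * h2
  have f11 : Algebra.trace F E (T (z ^ ((1 : Fin 5) : ℕ)) * st (T (z ^ ((1 : Fin 5) : ℕ)))) = chi α (((1 : Fin 5) : ℕ) + 10 * ((1 : Fin 5) : ℕ)) := by
    rw [e1, h11 10 10]
    have g0 : chi α (10 + 10 * 10) = 1 := by rw [go]; exact c0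
    have g1 : chi α (10) = α + 1 := by rw [go]; exact c10
    have g2 : chi α (10 * 10) = α := by rw [go]; exact c1
    have g3 : chi α (0) = 1 := by rw [go]; exact c0
    have gr : chi α (((1 : Fin 5) : ℕ) + 10 * ((1 : Fin 5) : ℕ)) = 1 := by rw [go]; exact c0
    linear_combination g0 + g1 + g2 + g3 - gr + (1 * α + 1) * h2
  have f12 : Algebra.trace F E (T (z ^ ((1 : Fin 5) : ℕ)) * st (T (z ^ ((2 : Fin 5) : ℕ)))) = chi α (((1 : Fin 5) : ℕ) + 10 * ((2 : Fin 5) : ℕ)) := by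
    rw [e1, e2, h11 10 5]
    have g0 : chi α (10 + 10 * 5) = α := by rw [go]; exact c5
    have g1 : chi α (10) = α + 1 := by rw [go]; exact c10
    have g2 : chi α (10 * 5) = α + 1 := by rw [go]; exact c6
    have g3 : chi α (0) = 1 := by rw [go]; exact c0
    have gr : chi α (((1 : Fin 5) : ℕ) + 10 * ((2 : Fin 5) : ℕ)) = α + 1 := by rw [go]; exact c10
    linear_combination g0 + g1 + g2 + g3 - gr + (1 * α + 1) * h2
  have f13 : Algebra.trace F E (T (z ^ ((1 : Fin 5) : ℕ)) * st (T (z ^ ((3 : Fin 5) : ℕ)))) = chi α (((1 : Fin 5) : ℕ) + 10 * ((3 : Fin 5) : ℕ)) := by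
    rw [e1, e3, h11 10 7]
    have g0 : chi α (10 + 10 * 7) = α := by rw [go]; exact c3
    have g1 : chi α (10) = α + 1 := by rw [go]; exact c10
    have g2 : chi α (10 * 7) = α := by rw [go]; exact c4
    have g3 : chi α (0) = 1 := by rw [go]; exact c0
    have gr : chi α (((1 : Fin 5) : ℕ) + 10 * ((3 : Fin 5) : ℕ)) = α := by rw [go]; exact c9
    linear_combination g0 + g1 + g2 + g3 - gr + (1 * α + 1) * h2
  have f14 : Algebra.trace F E (T (z ^ ((1 : Fin 5) : ℕ)) * st (T (z ^ ((4 : Fin 5) : ℕ)))) = chi α (((1 : Fin 5) : ℕ) + 10 * ((4 : Fin 5) : ℕ)) := by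
    rw [e1, e4, h11 10 8]
    have g0 : chi α (10 + 10 * 8) = α + 1 := by rw [go]; exact c2
    have g1 : chi α (10) = α + 1 := by rw [go]; exact c10
    have g2 : chi α (10 * 8) = α := by rw [go]; exact c3
    have g3 : chi α (0) = 1 := by rw [go]; exact c0
    have gr : chi α (((1 : Fin 5) : ℕ) + 10 * ((4 : Fin 5) : ℕ)) = α + 1 := by rw [go]; exact c8
    linear_combination g0 + g1 + g2 + g3 - gr + (1 * α + 1) * h2
  have f20 : Algebra.trace F E (T (z ^ ((2 : Fin 5) : ℕ)) * st (T (z ^ ((0 : Fin 5) : ℕ)))) = chi α (((2 : Fin 5) : ℕ) + 10 * ((0 : Fin 5) : ℕ)) := by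
    rw [e2, e0, h10 5]
    have g0 : chi α (5) = α := by rw [go]; exact c5
    have g1 : chi α (0) = 1 := by rw [go]; exact c0
    have gr : chi α (((2 : Fin 5) : ℕ) + 10 * ((0 : Fin 5) : ℕ)) = α + 1 := by rw [go]; exact c2
    linear_combination g0 + g1 - gr + (0 * α + 0) * h2
  have f21 : Algebra.trace F E (T (z ^ ((2 : Fin 5) : ℕ)) * st (T (z ^ ((1 : Fin 5) : ℕ)))) = chi α (((2 : Fin 5) : ℕ) + 10 * ((1 : Fin 5) : ℕ)) := by
    rw [e2, e1, h11 5 10]
    have g0 : chi α (5 + 10 * 10) = α + 1 := by rw [go]; exact c6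
    have g1 : chi α (5) = α := by rw [go]; exact c5
    have g2 : chi α (10 * 10) = α := by rw [go]; exact c1
    have g3 : chi α (0) = 1 := by rw [go]; exact c0
    have gr : chi α (((2 : Fin 5) : ℕ) + 10 * ((1 : Fin 5) : ℕ)) = α := by rw [go]; exact c1
    linear_combination g0 + g1 + g2 + g3 - gr + (1 * α + 1) * h2
  have f22 : Algebra.trace F E (T (z ^ ((2 : Fin 5) : ℕ)) * st (T (z ^ ((2 : Fin 5) : ℕ)))) = chi α (((2 : Fin 5) : ℕ) + 10 * ((2 : Fin 5) : ℕ)) := by
    rw [e2, h11 5 5]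
    have g0 : chi α (5 + 10 * 5) = 1 := by rw [go]; exact c0
    have g1 : chi α (5) = α := by rw [go]; exact c5
    have g2 : chi α (10 * 5) = α + 1 := by rw [go]; exact c6
    have g3 : chi α (0) = 1 := by rw [go]; exact c0
    have gr : chi α (((2 : Fin 5) : ℕ) + 10 * ((2 : Fin 5) : ℕ)) = 1 := by rw [go]; exact c0
    linear_combination g0 + g1 + g2 + g3 - gr + (1 * α + 1) * h2
  have f23 : Algebra.trace F E (T (z ^ ((2 : Fin 5) : ℕ)) * st (T (z ^ ((3 : Fin 5) : ℕ)))) = chi α (((2 : Fin 5) : ℕ) + 10 * ((3 : Fin 5) : ℕ)) := by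
    rw [e2, e3, h11 5 7]
    have g0 : chi α (5 + 10 * 7) = α := by rw [go]; exact c9
    have g1 : chi α (5) = α := by rw [go]; exact c5
    have g2 : chi α (10 * 7) = α := by rw [go]; exact c4
    have g3 : chi α (0) = 1 := by rw [go]; exact c0
    have gr : chi α (((2 : Fin 5) : ℕ) + 10 * ((3 : Fin 5) : ℕ)) = α + 1 := by rw [go]; exact c10
    linear_combination g0 + g1 + g2 + g3 - gr + (1 * α + 0) * h2
  have f24 : Algebra.trace F E (T (z ^ ((2 : Fin 5) : ℕ)) * st (T (z ^ ((4 : Fin 5) : ℕ)))) = chi α (((2 : Fin 5) : ℕ) + 10 * ((4 : Fin 5) : ℕ)) := by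
    rw [e2, e4, h11 5 8]
    have g0 : chi α (5 + 10 * 8) = α + 1 := by rw [go]; exact c8
    have g1 : chi α (5) = α := by rw [go]; exact c5
    have g2 : chi α (10 * 8) = α := by rw [go]; exact c3
    have g3 : chi α (0) = 1 := by rw [go]; exact c0
    have gr : chi α (((2 : Fin 5) : ℕ) + 10 * ((4 : Fin 5) : ℕ)) = α := by rw [go]; exact c9
    linear_combination g0 + g1 + g2 + g3 - gr + (1 * α + 1) * h2
  have f30 : Algebra.trace F E (T (z ^ ((3 : Fin 5) : ℕ)) * st (T (z ^ ((0 : Fin 5) : ℕ)))) = chi α (((3 : Fin 5) : ℕ) + 10 * ((0 : Fin 5) : ℕ)) := by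
    rw [e3, e0, h10 7]
    have g0 : chi α (7) = α + 1 := by rw [go]; exact c7
    have g1 : chi α (0) = 1 := by rw [go]; exact c0
    have gr : chi α (((3 : Fin 5) : ℕ) + 10 * ((0 : Fin 5) : ℕ)) = α := by rw [go]; exact c3
    linear_combination g0 + g1 - gr + (0 * α + 1) * h2
  have f31 : Algebra.trace F E (T (z ^ ((3 : Fin 5) : ℕ)) * st (T (z ^ ((1 : Fin 5) : ℕ)))) = chi α (((3 : Fin 5) : ℕ) + 10 * ((1 : Fin 5) : ℕ)) := by
    rw [e3, e1, h11 7 10]
    have g0 : chi α (7 + 10 * 10) = α + 1 := by rw [go]; exact c8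
    have g1 : chi α (7) = α + 1 := by rw [go]; exact c7
    have g2 : chi α (10 * 10) = α := by rw [go]; exact c1
    have g3 : chi α (0) = 1 := by rw [go]; exact c0
    have gr : chi α (((3 : Fin 5) : ℕ) + 10 * ((1 : Fin 5) : ℕ)) = α + 1 := by rw [go]; exact c2
    linear_combination g0 + g1 + g2 + g3 - gr + (1 * α + 1) * h2
  have f32 : Algebra.trace F E (T (z ^ ((3 : Fin 5) : ℕ)) * st (T (z ^ ((2 : Fin 5) : ℕ)))) = chi α (((3 : Fin 5) : ℕ) + 10 * ((2 : Fin 5) : ℕ)) := by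
    rw [e3, e2, h11 7 5]
    have g0 : chi α (7 + 10 * 5) = α + 1 := by rw [go]; exact c2
    have g1 : chi α (7) = α + 1 := by rw [go]; exact c7
    have g2 : chi α (10 * 5) = α + 1 := by rw [go]; exact c6
    have g3 : chi α (0) = 1 := by rw [go]; exact c0
    have gr : chi α (((3 : Fin 5) : ℕ) + 10 * ((2 : Fin 5) : ℕ)) = α := by rw [go]; exact c1
    linear_combination g0 + g1 + g2 + g3 - gr + (1 * α + 2) * h2
  have f33 : Algebra.trace F E (T (z ^ ((3 : Fin 5) : ℕ)) * st (T (z ^ ((3 : Fin 5) : ℕ)))) = chi α (((3 : Fin 5) : ℕ) + 10 * ((3 : Fin 5) : ℕ)) := by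
    rw [e3, h11 7 7]
    have g0 : chi α (7 + 10 * 7) = 1 := by rw [go]; exact c0
    have g1 : chi α (7) = α + 1 := by rw [go]; exact c7
    have g2 : chi α (10 * 7) = α := by rw [go]; exact c4
    have g3 : chi α (0) = 1 := by rw [go]; exact c0
    have gr : chi α (((3 : Fin 5) : ℕ) + 10 * ((3 : Fin 5) : ℕ)) = 1 := by rw [go]; exact c0
    linear_combination g0 + g1 + g2 + g3 - gr + (1 * α + 1) * h2
  have f34 : Algebra.trace F E (T (z ^ ((3 : Fin 5) : ℕ)) * st (T (z ^ ((4 : Fin 5) : ℕ)))) = chi α (((3 : Fin 5) : ℕ) + 10 * ((4 : Fin 5) : ℕ)) := by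
    rw [e3, e4, h11 7 8]
    have g0 : chi α (7 + 10 * 8) = α + 1 := by rw [go]; exact c10
    have g1 : chi α (7) = α + 1 := by rw [go]; exact c7
    have g2 : chi α (10 * 8) = α := by rw [go]; exact c3
    have g3 : chi α (0) = 1 := by rw [go]; exact c0
    have gr : chi α (((3 : Fin 5) : ℕ) + 10 * ((4 : Fin 5) : ℕ)) = α + 1 := by rw [go]; exact c10
    linear_combination g0 + g1 + g2 + g3 - gr + (1 * α + 1) * h2
  have f40 : Algebra.trace F E (T (z ^ ((4 : Fin 5) : ℕ)) * st (T (z ^ ((0 : Fin 5) : ℕ)))) = chi α (((4 : Fin 5) : ℕ) + 10 * ((0 : Fin 5) : ℕ)) := by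
    rw [e4, e0, h10 8]
    have g0 : chi α (8) = α + 1 := by rw [go]; exact c8
    have g1 : chi α (0) = 1 := by rw [go]; exact c0
    have gr : chi α (((4 : Fin 5) : ℕ) + 10 * ((0 : Fin 5) : ℕ)) = α := by rw [go]; exact c4
    linear_combination g0 + g1 - gr + (0 * α + 1) * h2
  have f41 : Algebra.trace F E (T (z ^ ((4 : Fin 5) : ℕ)) * st (T (z ^ ((1 : Fin 5) : ℕ)))) = chi α (((4 : Fin 5) : ℕ) + 10 * ((1 : Fin 5) : ℕ)) := by
    rw [e4, e1, h11 8 10]
    have g0 : chi α (8 + 10 * 10) = α := by rw [go]; exact c9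
    have g1 : chi α (8) = α + 1 := by rw [go]; exact c8
    have g2 : chi α (10 * 10) = α := by rw [go]; exact c1
    have g3 : chi α (0) = 1 := by rw [go]; exact c0
    have gr : chi α (((4 : Fin 5) : ℕ) + 10 * ((1 : Fin 5) : ℕ)) = α := by rw [go]; exact c3
    linear_combination g0 + g1 + g2 + g3 - gr + (1 * α + 1) * h2
  have f42 : Algebra.trace F E (T (z ^ ((4 : Fin 5) : ℕ)) * st (T (z ^ ((2 : Fin 5) : ℕ)))) = chi α (((4 : Fin 5) : ℕ) + 10 * ((2 : Fin 5) : ℕ)) := by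
    rw [e4, e2, h11 8 5]
    have g0 : chi α (8 + 10 * 5) = α := by rw [go]; exact c3
    have g1 : chi α (8) = α + 1 := by rw [go]; exact c8
    have g2 : chi α (10 * 5) = α + 1 := by rw [go]; exact c6
    have g3 : chi α (0) = 1 := by rw [go]; exact c0
    have gr : chi α (((4 : Fin 5) : ℕ) + 10 * ((2 : Fin 5) : ℕ)) = α + 1 := by rw [go]; exact c2
    linear_combination g0 + g1 + g2 + g3 - gr + (1 * α + 1) * h2
  have f43 : Algebra.trace F E (T (z ^ ((4 : Fin 5) : ℕ)) * st (T (z ^ ((3 : Fin 5) : ℕ)))) = chi α (((4 : Fin 5) : ℕ) + 10 * ((3 : Fin 5) : ℕ)) := by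
    rw [e4, e3, h11 8 7]
    have g0 : chi α (8 + 10 * 7) = α := by rw [go]; exact c1
    have g1 : chi α (8) = α + 1 := by rw [go]; exact c8
    have g2 : chi α (10 * 7) = α := by rw [go]; exact c4
    have g3 : chi α (0) = 1 := by rw [go]; exact c0
    have gr : chi α (((4 : Fin 5) : ℕ) + 10 * ((3 : Fin 5) : ℕ)) = α := by rw [go]; exact c1
    linear_combination g0 + g1 + g2 + g3 - gr + (1 * α + 1) * h2
  have f44 : Algebra.trace F E (T (z ^ ((4 : Fin 5) : ℕ)) * st (T (z ^ ((4 : Fin 5) : ℕ)))) = chi α (((4 : Fin 5) : ℕ) + 10 * ((4 : Fin 5) : ℕ)) := by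
    rw [e4, h11 8 8]
    have g0 : chi α (8 + 10 * 8) = 1 := by rw [go]; exact c0
    have g1 : chi α (8) = α + 1 := by rw [go]; exact c8
    have g2 : chi α (10 * 8) = α := by rw [go]; exact c3
    have g3 : chi α (0) = 1 := by rw [go]; exact c0
    have gr : chi α (((4 : Fin 5) : ℕ) + 10 * ((4 : Fin 5) : ℕ)) = 1 := by rw [go]; exact c0
    linear_combination g0 + g1 + g2 + g3 - gr + (1 * α + 1) * h2
  fin_cases i <;> fin_cases j
  · exact f00
  · exact f01
  · exact f02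
  · exact f03
  · exact f04
  · exact f10
  · exact f11
  · exact f12
  · exact f13
  · exact f14
  · exact f20
  · exact f21
  · exact f22
  · exact f23
  · exact f24
  · exact f30
  · exact f31
  · exact f32
  · exact f33
  · exact f34
  · exact f40
  · exact f41
  · exact f42
  · exact f43
  · exact f44

theorem Dat.isom {T : E →ₗ[F] E} (t0 : T 1 = 1) (hT : ∀ r, 0 < r → r < 11 → T (z ^ r) = z ^ (pI r) + 1) (x y : E) :
    Algebra.trace F E (T x * st (T y)) = Algebra.trace F E (x * st y) := by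
  obtain ⟨B, hB⟩ := hD.root.exists_basis hD.hF hD.hE
  have step : ∀ (u v : E), (∀ i : Fin 5, Algebra.trace F E (T (z ^ (i : ℕ)) * u) = Algebra.trace F E (z ^ (i : ℕ) * v)) →
      ∀ x, Algebra.trace F E (T x * u) = Algebra.trace F E (x * v) := by
    intro u v h x
    have : (Algebra.trace F E).comp ((LinearMap.mulRight F u).comp T) = (Algebra.trace F E).comp (LinearMap.mulRight F v) := by
      apply B.ext
      intro i
      have := h i
      rw [← hB] at this
      exact this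
    exact LinearMap.congr_fun this x
  have s1 : ∀ (j : Fin 5) (x : E), Algebra.trace F E (T x * st (T (z ^ (j : ℕ)))) = Algebra.trace F E (x * st (z ^ (j : ℕ))) := fun j =>
    step _ _ fun i => hD.gram t0 hT i j
  have s2 : ∀ (x : E), ∀ y, Algebra.trace F E (T y * st (T x)) = Algebra.trace F E (y * st x) := fun x =>
    step _ _ fun i => by rw [hD.tr_symm, s1 i x, ← hD.tr_symm]
  exact s2 y x

theorem Dat.invol {T : E →ₗ[F] E} (t0 : T 1 = 1) (hT : ∀ r, 0 < r → r < 11 → T (z ^ r) = z ^ (pI r) + 1) (x : E) : T (T x) = x := by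
  obtain ⟨B, hB⟩ := hD.root.exists_basis hD.hF hD.hE
  have : T.comp T = LinearMap.id := by
    apply B.ext
    intro i
    rw [hB, LinearMap.comp_apply, LinearMap.id_apply]
    rcases Nat.eq_zero_or_pos (i : ℕ) with h | h
    · rw [h, pow_zero, t0, t0]
    · have hi : (i : ℕ) < 11 := by omega
      rw [hT _ h hi, map_add, t0, hT _ (pI_pos hD _ hi h) (pI_lt hD _ hi), pI_pI hD _ hi]
      linear_combination hD.two'
  exact LinearMap.congr_fun this x

theorem Dat.pres {T : E →ₗ[F] E} (t0 : T 1 = 1) (hT : ∀ r, 0 < r → r < 11 → T (z ^ r) = z ^ (pI r) + 1) {x : E}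
    (hx : x ∈ SS (F := F) z) : T x ∈ SS (F := F) z := by
  have hinv := hD.invol t0 hT
  have h2 := hD.two'
  have hT0 : ∀ u : E, u ≠ 0 → T u ≠ 0 := by
    intro u hu h
    apply hu
    rw [← hinv u, h, map_zero]
  have hTc : ∀ (c : F) (u : E), T (algebraMap F E c * u) = algebraMap F E c * T u := by
    intro c u
    rw [← Algebra.smul_def, map_smul, Algebra.smul_def]
  have hval : ∀ i : ℕ, (i % 11 = 0 ∧ z ^ i = 1) ∨ (∃ m, T (z ^ i) = z ^ m + 1 ∧ z ^ m ≠ 1) := by
    intro i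
    rcases Nat.eq_zero_or_pos (i % 11) with h | h
    · left
      refine ⟨h, ?_⟩
      rw [hD.root.mod, h, pow_zero]
    · right
      have hlt : i % 11 < 11 := Nat.mod_lt _ (by norm_num)
      have h3 := hT _ h hlt
      rw [← hD.root.mod] at h3
      refine ⟨pI (i % 11), h3, ?_⟩
      intro h4
      apply hT0 (z ^ i) (pow_ne_zero _ hD.root.ne_zero)
      rw [h3, h4]
      linear_combination h2
  have hsum : ∀ a b : ℕ, z ^ a + z ^ b ≠ 0 → z ^ a ≠ z ^ b := by
    intro a b h h'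
    apply h
    rw [h']
    linear_combination (z ^ b) * h2
  obtain ⟨c, hc, ⟨i, rfl⟩ | ⟨i, j, hij, rfl⟩⟩ := hx
  · rw [hTc]
    rcases hval i with ⟨-, h⟩ | ⟨m, h, hm⟩
    · rw [h, t0]
      exact ⟨c, hc, Or.inl ⟨0, by rw [pow_zero]⟩⟩
    · rw [h]
      exact ⟨c, hc, Or.inr ⟨m, 0, by rwa [pow_zero], by rw [pow_zero]⟩⟩
  · rw [hTc]
    have hne : T (z ^ i + z ^ j) ≠ 0 := by
      apply hT0
      intro h
      apply hij
      linear_combination h - (z ^ j) * h2
    rcases hval i with ⟨-, h⟩ | ⟨m, h, hm⟩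
    · rcases hval j with ⟨-, h'⟩ | ⟨m', h', hm'⟩
      · exact absurd (h.trans h'.symm) hij
      · rw [map_add, h, t0, h']
        refine ⟨c, hc, Or.inl ⟨m', ?_⟩⟩
        linear_combination (algebraMap F E c) * h2
    · rcases hval j with ⟨-, h'⟩ | ⟨m', h', hm'⟩
      · rw [map_add, h', t0, h]
        refine ⟨c, hc, Or.inl ⟨m, ?_⟩⟩
        linear_combination (algebraMap F E c) * h2
      · rw [map_add, h, h'] at hne ⊢
        refine ⟨c, hc, Or.inr ⟨m, m', ?_, ?_⟩⟩
        · apply hsum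
          intro h3
          apply hne
          linear_combination h3 + h2
        · linear_combination (algebraMap F E c) * h2

theorem Dat.not_semi {T : E →ₗ[F] E} (hT : ∀ r, 0 < r → r < 11 → T (z ^ r) = z ^ (pI r) + 1) : T z * st (T z) ≠ 1 := by
  have h := hT 1 (by norm_num) (by norm_num)
  rw [pow_one] at h
  rw [h]
  have h11 := hD.root.h11
  have h2 := hD.two'
  have hp : pI 1 = 10 := rfl
  rw [hp, map_add, map_one, map_pow, hD.stz]
  intro h3
  have h4 : (algebraMap F E 1) + algebraMap F E 1 * z + algebraMap F E 1 * z ^ 2 + algebraMap F E 0 * z ^ 3 + algebraMap F E 0 * z ^ 4 = 0 := by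
    rw [map_one, map_zero]
    have h5 : (z ^ 10) ^ 10 = z := by
      calc (z ^ 10) ^ 10 = (z ^ 11) ^ 9 * z := by ring
        _ = z := by rw [h11, one_pow, one_mul]
    rw [h5] at h3
    linear_combination z * h3 - z * h11 - h11
  exact one_ne_zero (hD.root.indep hD.hF hD.hE h4).1

end CfsgLib.Su5H12
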