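import Mathlib
import Cfsg.Agent.LibSu5cH12
import Cfsg.Agent.LibOmE11
import Cfsg.Agent.LibUn29d

/-! The normaliser of a field of 1024 elements is not maximal in the special unitary group of degree five over
four elements (seat helper12). -/
set_option autoImplicit false
set_option linter.unusedSectionVars false

namespace CfsgLib.Su5H12

open Module Cfsg Cfsg.Geo CfsgLib.Un29 CfsgLib.OmE
open scoped Matrix MatrixGroups

/-- stabiliser of a set of vectors -/
def setStab {ι : Type} [Fintype ι] [DecidableEq ι] {F : Type*} [Field F] (S : Set (ι → F)) : Subgroup (GL ι F) where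
  carrier := {g | ∀ v, v ∈ S ↔ (g : Matrix ι ι F) *ᵥ v ∈ S}
  mul_mem' := by
    intro a b ha hb v
    rw [hb, ha, Matrix.mulVec_mulVec, Units.val_mul]
  one_mem' := by
    intro v
    rw [Units.val_one, Matrix.one_mulVec]
  inv_mem' := by
    intro a ha v
    rw [ha (((a⁻¹ : GL ι F) : Matrix ι ι F) *ᵥ v), Matrix.mulVec_mulVec, ← Units.val_mul, mul_inv_cancel, Units.val_one, Matrix.one_mulVec]

theorem fld_not_max {F : Type*} [Field F] [Fintype F] (hF : Fintype.card F = 4)
    {K : Subalgebra F (Matrix (Fin 5) (Fin 5) F)} (hK : IsFieldSubalgebra 5 K)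
    (hA : IsAdjointClosedFor (hermForm 5 F 2) K)
    (hmax : IsMaximalIn (GU 5 F 2 ⊓ specialLinear (Fin 5) F) (subalgebraNormalizer K ⊓ (GU 5 F 2 ⊓ specialLinear (Fin 5) F))) :
    False := by
  classical
  obtain ⟨σ, hσ, hf⟩ := hermForm_unitary (F := F) 5 (q := 2) (by rw [hF]; norm_num)
  have hGU : GU 5 F 2 = iso (hermForm 5 F 2) := rfl
  rw [hGU] at hmax
  generalize hermForm 5 F 2 = f at hf hA hmax
  have hfld := CfsgLib.AschNum.fld_isField hK
  letI : Field K := hfld.toField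
  have hE : finrank F K = 5 := hK.finrank_eq
  have hfinK : Module.Finite F K := Module.finite_of_finrank_pos (by rw [hE]; norm_num)
  -- the adjoint
  choose! adj hadjK hadj using hA
  have huniq : ∀ x y : Matrix (Fin 5) (Fin 5) F, (∀ u v, f u (x *ᵥ v) = f u (y *ᵥ v)) → x = y := by
    intro x y h
    apply Matrix.ext_iff_mulVec.2
    intro v
    by_contra hne
    obtain ⟨⟨u, hu⟩, -⟩ := hf.nondegenerate (x *ᵥ v - y *ᵥ v) (sub_ne_zero.2 hne)
    apply hu
    rw [sub_right hf, h, sub_self]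
  have hstc : ∀ c : F, adj (algebraMap F K c : K).1 = (algebraMap F K (c ^ 2) : K).1 := by
    intro c
    apply huniq
    intro u v
    rw [← hadj _ (algebraMap F K c).2]
    have h1 : ∀ d : F, ((algebraMap F K d : K) : Matrix (Fin 5) (Fin 5) F) = d • 1 := fun d => Algebra.algebraMap_eq_smul_one d
    rw [h1, h1, Matrix.smul_mulVec, Matrix.smul_mulVec, Matrix.one_mulVec, Matrix.one_mulVec, hf.smul_left, smul_right hf, ← hσ, hf.involutive]
  let st : K →+* K :=
    { toFun := fun k => ⟨adj k.1, hadjK k.1 k.2⟩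
      map_one' := by
        apply Subtype.ext
        apply huniq
        intro u v
        show f u (adj (1 : Matrix (Fin 5) (Fin 5) F) *ᵥ v) = f u ((1 : Matrix (Fin 5) (Fin 5) F) *ᵥ v)
        rw [← hadj 1 K.one_mem, Matrix.one_mulVec, Matrix.one_mulVec]
      map_mul' := by
        intro x y
        apply Subtype.ext
        apply huniq
        intro u v
        show f u (adj (x.1 * y.1) *ᵥ v) = f u ((adj x.1 * adj y.1) *ᵥ v)
        rw [← hadj _ (K.mul_mem x.2 y.2), hK.comm _ x.2 _ y.2, ← Matrix.mulVec_mulVec, ← Matrix.mulVec_mulVec, hadj _ y.2, hadj _ x.2,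
          Matrix.mulVec_mulVec]
      map_zero' := by
        apply Subtype.ext
        apply huniq
        intro u v
        show f u (adj (0 : Matrix (Fin 5) (Fin 5) F) *ᵥ v) = f u ((0 : Matrix (Fin 5) (Fin 5) F) *ᵥ v)
        rw [← hadj 0 K.zero_mem, Matrix.zero_mulVec, Matrix.zero_mulVec, zero_left hf, zero_right hf]
      map_add' := by
        intro x y
        apply Subtype.ext
        apply huniq
        intro u v
        show f u (adj (x.1 + y.1) *ᵥ v) = f u ((adj x.1 + adj y.1) *ᵥ v)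
        rw [← hadj _ (K.add_mem x.2 y.2), Matrix.add_mulVec, hf.add_left, Matrix.add_mulVec, add_right hf, hadj _ x.2, hadj _ y.2] }
  have hst : ∀ k : K, (st k).1 = adj k.1 := fun k => rfl
  have hstst : ∀ k : K, st (st k) = k := by
    intro k
    apply Subtype.ext
    apply huniq
    intro u v
    rw [hst, ← hadj _ (st k).2, hst, hf.herm, ← hadj _ k.2, ← hf.herm]
  obtain ⟨z, α, hD⟩ := exists_dat (E := K) hF hE st (fun c => Subtype.ext (hstc c)) hstst
  -- a vector
  set w : Fin 5 → F := Pi.single 0 1 with hw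
  have hw0 : w ≠ 0 := by
    intro h
    have := congrFun h 0
    rw [hw, Pi.single_eq_same] at this
    exact one_ne_zero this
  have hsurj : ∀ v0 : Fin 5 → F, v0 ≠ 0 → ∀ v, ∃ k ∈ K, v = k *ᵥ v0 := by
    intro v0 hv0 v
    have h1 : orbK K v0 = ⊤ := by
      apply Submodule.eq_top_of_finrank_eq
      rw [finrank_orbK hK hv0, Module.finrank_fintype_fun_eq_card, Fintype.card_fin]
    exact mem_orbK.1 (by rw [h1]; trivial)
  let φ : K →ₗ[F] F :=
    { toFun := fun k => f (k.1 *ᵥ w) w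
      map_add' := by
        intro x y
        show f ((x.1 + y.1) *ᵥ w) w = _
        rw [Matrix.add_mulVec, hf.add_left]
      map_smul' := by
        intro c x
        show f ((c • x.1) *ᵥ w) w = _
        rw [Matrix.smul_mulVec, hf.smul_left]; rfl }
  have hφ : ∀ k : K, φ k = f (k.1 *ᵥ w) w := fun k => rfl
  have hφ0 : φ ≠ 0 := by
    intro h
    obtain ⟨⟨u, hu⟩, -⟩ := hf.nondegenerate w hw0
    obtain ⟨k, hk, rfl⟩ := hsurj w hw0 u
    apply hu
    exact LinearMap.congr_fun h ⟨k, hk⟩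
  have hφs : ∀ x, φ (st x) = (φ x) ^ 2 := by
    intro x
    rw [hφ, hφ, hst, ← hσ, ← hf.herm, hadj _ (hadjK _ x.2)]
    have h1 : adj (adj x.1) = x.1 := congrArg Subtype.val (hstst x)
    rw [h1]
  obtain ⟨d, hd0, hd⟩ := hD.norm_fun φ hφ0 hφs
  obtain ⟨v0, hv0def⟩ : ∃ v0 : Fin 5 → F, v0 = d.1 *ᵥ w := ⟨_, rfl⟩
  have hv0 : v0 ≠ 0 := by
    intro h
    rw [hv0def] at h
    exact hd0 (Subtype.ext (smul_inj hK d.2 hw0 h))
  let e' : K →ₗ[F] (Fin 5 → F) :=
    { toFun := fun k => k.1 *ᵥ v0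
      map_add' := by
        intro x y
        show (x.1 + y.1) *ᵥ v0 = _
        rw [Matrix.add_mulVec]
      map_smul' := by
        intro c x
        show (c • x.1) *ᵥ v0 = _
        rw [Matrix.smul_mulVec]; rfl }
  have hbij : Function.Bijective e' := by
    constructor
    · rw [← LinearMap.ker_eq_bot, LinearMap.ker_eq_bot']
      intro x hx
      exact Subtype.ext (smul_inj hK x.2 hv0 hx)
    · intro v
      obtain ⟨k, hk, h⟩ := hsurj v0 hv0 v
      exact ⟨⟨k, hk⟩, h.symm⟩
  let e : K ≃ₗ[F] (Fin 5 → F) := LinearEquiv.ofBijective e' hbij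
  have he : ∀ k : K, e k = k.1 *ᵥ v0 := fun k => rfl
  have hform : ∀ x y : K, f (e x) (e y) = Algebra.trace F K (x * st y) := by
    intro x y
    rw [he, he, ← hd, hφ, hv0def, Matrix.mulVec_mulVec, Matrix.mulVec_mulVec]
    have h1 : f ((x.1 * d.1) *ᵥ w) ((y.1 * d.1) *ᵥ w) = f ((st (y * d)).1 *ᵥ ((x.1 * d.1) *ᵥ w)) w := by
      rw [hadj _ (st (y * d)).2, ← hst, hstst]
      rfl
    rw [h1, Matrix.mulVec_mulVec]
    have h2 : (st (y * d)).1 * (x.1 * d.1) = (x * st y * (d * st d)).1 := by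
      have : st (y * d) * (x * d) = x * st y * (d * st d) := by rw [map_mul]; ring
      rw [← this]; rfl
    rw [h2]
  obtain ⟨T, t0, hT⟩ := hD.exists_T
  have hTT := hD.invol t0 hT
  obtain ⟨M, hM⟩ : ∃ M : Matrix (Fin 5) (Fin 5) F, ∀ x : K, M *ᵥ e x = e (T x) := by
    refine ⟨LinearMap.toMatrix' (e.toLinearMap.comp (T.comp e.symm.toLinearMap)), fun x => ?_⟩
    rw [LinearMap.toMatrix'_mulVec]
    simp
  have hMM : M * M = 1 := by
    apply Matrix.ext_iff_mulVec.2
    intro v
    obtain ⟨x, rfl⟩ := e.surjective v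
    rw [← Matrix.mulVec_mulVec, hM, hM, hTT, Matrix.one_mulVec]
  let gT : GL (Fin 5) F := ⟨M, M, hMM, hMM⟩
  have hgT : ∀ x : K, (gT : Matrix (Fin 5) (Fin 5) F) *ᵥ e x = e (T x) := hM
  have hgTinv : gT⁻¹ = gT := by
    apply Units.ext
    rfl
  set G : Subgroup (GL (Fin 5) F) := iso f ⊓ specialLinear (Fin 5) F with hG
  have hTG : gT ∈ G := by
    constructor
    · intro u v
      obtain ⟨x, rfl⟩ := e.surjective u
      obtain ⟨y, rfl⟩ := e.surjective v
      change f ((gT : Matrix (Fin 5) (Fin 5) F) *ᵥ e x) ((gT : Matrix (Fin 5) (Fin 5) F) *ᵥ e y) = _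
      rw [hgT, hgT, hform, hform, hD.isom t0 hT]
    · have h1 : M.det * M.det = 1 := by rw [← Matrix.det_mul, hMM, Matrix.det_one]
      have h3 : M.det = 1 := by
        generalize M.det = m at h1
        have h2 : (m - 1) * (m - 1) = 0 := by linear_combination h1 - (m - 1) * hD.two
        rcases mul_eq_zero.1 h2 with h | h <;> exact sub_eq_zero.1 h
      show gT ∈ specialLinear (Fin 5) F
      rw [specialLinear, MonoidHom.mem_ker]
      refine Units.ext ?_
      rw [Units.val_one, Matrix.GeneralLinearGroup.val_det_apply]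
      exact h3
  obtain ⟨SV, hSV⟩ : ∃ SV : Set (Fin 5 → F), ∀ x : K, e x ∈ SV ↔ x ∈ SS (F := F) z :=
    ⟨e '' SS (F := F) z, fun x => e.injective.mem_set_image⟩
  have hTL : gT ∈ setStab SV := by
    intro v
    obtain ⟨x, rfl⟩ := e.surjective v
    rw [hgT, hSV, hSV]
    constructor
    · exact hD.pres t0 hT
    · intro h
      have := hD.pres t0 hT h
      rwa [hTT] at this
  -- elements of the normaliser
  have hnorm : ∀ h ∈ subalgebraNormalizer K ⊓ G, ∃ (θ : K →ₐ[F] K) (k : K), k * st k = 1 ∧ (k = e.symm ((h : Matrix (Fin 5) (Fin 5) F) *ᵥ e 1)) ∧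
      ∀ x : K, (h : Matrix (Fin 5) (Fin 5) F) *ᵥ e x = e (θ x * k) := by
    intro h hh
    have hN : ∀ x : K, (h : Matrix (Fin 5) (Fin 5) F) * x.1 * ((h⁻¹ : GL (Fin 5) F) : Matrix (Fin 5) (Fin 5) F) ∈ K := fun x => (hh.1 x.1).1 x.2
    have hN' : ∀ x : K, ((h⁻¹ : GL (Fin 5) F) : Matrix (Fin 5) (Fin 5) F) * x.1 * (h : Matrix (Fin 5) (Fin 5) F) ∈ K := by
      intro x
      have := ((subalgebraNormalizer K).inv_mem hh.1 x.1).1 x.2
      rwa [inv_inv] at this
    have hi1 : ((h⁻¹ : GL (Fin 5) F) : Matrix (Fin 5) (Fin 5) F) * (h : Matrix (Fin 5) (Fin 5) F) = 1 := by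
      rw [← Units.val_mul, inv_mul_cancel, Units.val_one]
    have hi2 : (h : Matrix (Fin 5) (Fin 5) F) * ((h⁻¹ : GL (Fin 5) F) : Matrix (Fin 5) (Fin 5) F) = 1 := by
      rw [← Units.val_mul, mul_inv_cancel, Units.val_one]
    let θ : K ≃ₐ[F] K :=
      { toFun := fun x => ⟨_, hN x⟩
        invFun := fun x => ⟨_, hN' x⟩
        left_inv := by
          intro x
          apply Subtype.ext
          show ((h⁻¹ : GL (Fin 5) F) : Matrix (Fin 5) (Fin 5) F) * ((h : Matrix (Fin 5) (Fin 5) F) * x.1 * ((h⁻¹ : GL (Fin 5) F) : Matrix (Fin 5) (Fin 5) F)) * (h : Matrix (Fin 5) (Fin 5) F) = x.1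
          calc _ = (((h⁻¹ : GL (Fin 5) F) : Matrix (Fin 5) (Fin 5) F) * (h : Matrix (Fin 5) (Fin 5) F)) * x.1 * (((h⁻¹ : GL (Fin 5) F) : Matrix (Fin 5) (Fin 5) F) * (h : Matrix (Fin 5) (Fin 5) F)) := by
                simp only [mul_assoc]
            _ = x.1 := by rw [hi1, one_mul, mul_one]
        right_inv := by
          intro x
          apply Subtype.ext
          show (h : Matrix (Fin 5) (Fin 5) F) * (((h⁻¹ : GL (Fin 5) F) : Matrix (Fin 5) (Fin 5) F) * x.1 * (h : Matrix (Fin 5) (Fin 5) F)) * ((h⁻¹ : GL (Fin 5) F) : Matrix (Fin 5) (Fin 5) F) = x.1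
          calc _ = ((h : Matrix (Fin 5) (Fin 5) F) * ((h⁻¹ : GL (Fin 5) F) : Matrix (Fin 5) (Fin 5) F)) * x.1 * ((h : Matrix (Fin 5) (Fin 5) F) * ((h⁻¹ : GL (Fin 5) F) : Matrix (Fin 5) (Fin 5) F)) := by
                simp only [mul_assoc]
            _ = x.1 := by rw [hi2, one_mul, mul_one]
        map_mul' := by
          intro x y
          apply Subtype.ext
          show (h : Matrix (Fin 5) (Fin 5) F) * (x.1 * y.1) * ((h⁻¹ : GL (Fin 5) F) : Matrix (Fin 5) (Fin 5) F) =
            ((h : Matrix (Fin 5) (Fin 5) F) * x.1 * ((h⁻¹ : GL (Fin 5) F) : Matrix (Fin 5) (Fin 5) F)) * ((h : Matrix (Fin 5) (Fin 5) F) * y.1 * ((h⁻¹ : GL (Fin 5) F) : Matrix (Fin 5) (Fin 5) F))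
          symm
          calc _ = (h : Matrix (Fin 5) (Fin 5) F) * x.1 * (((h⁻¹ : GL (Fin 5) F) : Matrix (Fin 5) (Fin 5) F) * (h : Matrix (Fin 5) (Fin 5) F)) * (y.1 * ((h⁻¹ : GL (Fin 5) F) : Matrix (Fin 5) (Fin 5) F)) := by
                simp only [mul_assoc]
            _ = _ := by rw [hi1, mul_one]; simp only [mul_assoc]
        map_add' := by
          intro x y
          apply Subtype.ext
          show (h : Matrix (Fin 5) (Fin 5) F) * (x.1 + y.1) * ((h⁻¹ : GL (Fin 5) F) : Matrix (Fin 5) (Fin 5) F) =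
            (h : Matrix (Fin 5) (Fin 5) F) * x.1 * ((h⁻¹ : GL (Fin 5) F) : Matrix (Fin 5) (Fin 5) F) + (h : Matrix (Fin 5) (Fin 5) F) * y.1 * ((h⁻¹ : GL (Fin 5) F) : Matrix (Fin 5) (Fin 5) F)
          rw [mul_add, add_mul]
        commutes' := by
          intro c
          apply Subtype.ext
          show (h : Matrix (Fin 5) (Fin 5) F) * (algebraMap F K c).1 * ((h⁻¹ : GL (Fin 5) F) : Matrix (Fin 5) (Fin 5) F) = (algebraMap F K c).1
          have h1 : ((algebraMap F K c : K) : Matrix (Fin 5) (Fin 5) F) = c • 1 := Algebra.algebraMap_eq_smul_one c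
          rw [h1, mul_smul_comm, mul_one, smul_mul_assoc, hi2] }
    have hθ : ∀ x : K, (θ x).1 = (h : Matrix (Fin 5) (Fin 5) F) * x.1 * ((h⁻¹ : GL (Fin 5) F) : Matrix (Fin 5) (Fin 5) F) := fun x => rfl
    set k : K := e.symm ((h : Matrix (Fin 5) (Fin 5) F) *ᵥ e 1) with hk
    have hek : e k = (h : Matrix (Fin 5) (Fin 5) F) *ᵥ e 1 := e.apply_symm_apply _
    have hact : ∀ x : K, (h : Matrix (Fin 5) (Fin 5) F) *ᵥ e x = e (θ x * k) := by
      intro x
      have h1 : e (θ x * k) = (θ x).1 *ᵥ e k := by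
        rw [he, he, Matrix.mulVec_mulVec]
        rfl
      have he1 : e 1 = v0 := by rw [he]; exact Matrix.one_mulVec v0
      rw [h1, hek, hθ, he1, he, Matrix.mulVec_mulVec, Matrix.mulVec_mulVec]
      congr 1
      rw [mul_assoc _ _ (h : Matrix (Fin 5) (Fin 5) F), hi1, mul_one]
    refine ⟨θ.toAlgHom, k, ?_, rfl, hact⟩
    have h5 : ∀ y : K, Algebra.trace F K (y * (k * st k - 1)) = 0 := by
      intro y
      obtain ⟨x, rfl⟩ := θ.surjective y
      have h6 : f (e (θ x * k)) (e (θ 1 * k)) = f (e x) (e 1) := by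
        rw [← hact, ← hact]
        exact hh.2.1 _ _
      rw [hform, hform, map_one, map_one, one_mul, mul_one] at h6
      have h7 : Algebra.trace F K (θ x) = Algebra.trace F K x := Algebra.trace_eq_of_algEquiv θ x
      rw [mul_sub, mul_one, map_sub, h7, ← h6, ← mul_assoc, sub_self]
    exact sub_eq_zero.1 (fun_zero _ hD.tr_ne h5)
  have hHL : subalgebraNormalizer K ⊓ G ≤ setStab SV ⊓ G := by
    intro h hh
    refine ⟨?_, hh.2⟩
    have key : ∀ h ∈ subalgebraNormalizer K ⊓ G, ∀ v, v ∈ SV → (h : Matrix (Fin 5) (Fin 5) F) *ᵥ v ∈ SV := by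
      intro h hh v hv
      obtain ⟨θ, k, hk, -, hact⟩ := hnorm h hh
      obtain ⟨x, rfl⟩ := e.surjective v
      rw [hact, hSV]
      exact hD.semi θ hk ((hSV x).1 hv)
    intro v
    refine ⟨key h hh v, fun hv => ?_⟩
    have := key h⁻¹ ((subalgebraNormalizer K ⊓ G).inv_mem hh) _ hv
    rwa [Matrix.mulVec_mulVec, ← Units.val_mul, inv_mul_cancel, Units.val_one, Matrix.one_mulVec] at this
  have h1S : (1 : K) ∈ SS (F := F) z := ⟨1, one_ne_zero, Or.inl ⟨0, by rw [map_one, pow_zero, one_mul]⟩⟩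
  rcases hmax.2 (setStab SV ⊓ G) hHL inf_le_right with h | h
  · -- the extra isometry is not in the normaliser
    have h1 : gT ∈ subalgebraNormalizer K ⊓ G := by
      rw [← h]
      exact ⟨hTL, hTG⟩
    obtain ⟨θ, k, hk, hk', hact⟩ := hnorm gT h1
    rw [hgT, t0, e.symm_apply_apply] at hk'
    subst hk'
    have h2 := hact z
    rw [hgT, mul_one] at h2
    have h3 : T z = θ z := e.injective h2
    apply hD.not_semi hT
    obtain ⟨j, -, hj⟩ := eq_pow hD.root hD.hF (x := θ z) (by rw [← map_pow, hD.root.h11, map_one])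
    have h4 := hD.norm_one (c := (1 : F)) one_ne_zero j
    rw [map_one, one_mul, ← hj, ← h3] at h4
    exact h4
  · -- transitivity
    obtain ⟨hw1, hw2⟩ := hD.witness
    set u : K := 1 + algebraMap F K α * z with hu
    have htr1 : Algebra.trace F K (1 * st 1) = 1 := by
      have := hD.tr_pow 0
      rw [pow_zero] at this
      rw [map_one, mul_one, this]
      simp [chi]
    have hn : f (e 1) (e 1) = f (e u) (e u) := by rw [hform, hform, hw1, htr1]
    have h10 : e 1 ≠ 0 := by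
      intro h
      exact one_ne_zero (e.injective (h.trans (map_zero e).symm))
    have hu0 : e u ≠ 0 := by
      intro h
      rw [h, zero_left hf, hform, htr1] at hn
      exact one_ne_zero hn
    obtain ⟨t, ht, htu⟩ := move5 hf (top_nondeg hf) (by rw [finrank_top, Module.finrank_fintype_fun_eq_card, Fintype.card_fin])
      (Submodule.mem_top) (Submodule.mem_top) h10 hn hu0
    have htG : t ∈ G := ⟨TG_le_iso hf _ ht, TG_le_special hf _ ht⟩
    rw [← h] at htG
    apply hw2
    rw [← hSV, ← htu]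
    exact (htG.1 _).1 ((hSV 1).2 h1S)

end CfsgLib.Su5H12
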