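import Cfsg.Agent.LibMaxTv29b

/-! Rational structures over a subfield: rational vectors, functionals, transvections, coefficient ring. -/

namespace CfsgLib.Subfield29

open scoped MatrixGroups Matrix
open Cfsg CfsgLib.MaxTv29

section general
variable {K E : Type*} [Field K] [AddCommGroup E] [Module K E]

theorem le_or_le' (X A B : Submodule K E) (h : ∀ x ∈ X, x ∈ A ∨ x ∈ B) : X ≤ A ∨ X ≤ B := by
  by_contra hcon
  push Not at hcon
  obtain ⟨h1, h2⟩ := hcon
  obtain ⟨x, hx, hxA⟩ := Set.not_subset.mp h1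
  obtain ⟨y, hy, hyB⟩ := Set.not_subset.mp h2
  have hxB : x ∈ B := (h x hx).resolve_left hxA
  have hyA : y ∈ A := (h y hy).resolve_right hyB
  rcases h (x + y) (X.add_mem hx hy) with h3 | h3
  · exact hxA ((A.add_mem_iff_left hyA).mp h3)
  · exact hyB ((B.add_mem_iff_right hxB).mp h3)

theorem exists_avoid2 [FiniteDimensional K E] (X : Submodule K E) (hX : 2 ≤ Module.finrank K X) (p q : E) :
    ∃ x ∈ X, x ∉ Submodule.span K {p} ∧ x ∉ Submodule.span K {q} := by
  by_contra hcon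
  push Not at hcon
  have h1 := le_or_le' X (Submodule.span K {p}) (Submodule.span K {q}) (by
    intro x hx
    by_cases h : x ∈ Submodule.span K {p}
    · exact Or.inl h
    · exact Or.inr (hcon x hx h))
  have h2 : ∀ r : E, Module.finrank K (Submodule.span K {r}) ≤ 1 := by
    intro r
    exact (finrank_span_le_card ({r} : Set E)).trans (by simp)
  rcases h1 with h1 | h1
  · have := Submodule.finrank_mono h1
    have := h2 p
    omega
  · have := Submodule.finrank_mono h1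
    have := h2 q
    omega

theorem notMem_span_symm {x a : E} (ha : a ≠ 0) (h : x ∉ Submodule.span K {a}) : a ∉ Submodule.span K {x} := by
  intro h1
  obtain ⟨k, hk⟩ := Submodule.mem_span_singleton.mp h1
  have hk0 : k ≠ 0 := by
    rintro rfl
    rw [zero_smul] at hk
    exact ha hk.symm
  apply h
  rw [← hk]
  exact Submodule.mem_span_singleton.mpr ⟨k⁻¹, by rw [smul_smul, inv_mul_cancel₀ hk0, one_smul]⟩

theorem exists_functional' (W : Submodule K E) (v : E) (hv : v ∉ W) :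
    ∃ φ : Module.Dual K E, φ v = 1 ∧ ∀ w ∈ W, φ w = 0 := by
  obtain ⟨f, hf, hW⟩ := Submodule.exists_le_ker_of_notMem hv
  refine ⟨(f v)⁻¹ • f, ?_, fun w hw => ?_⟩
  · rw [LinearMap.smul_apply, smul_eq_mul, inv_mul_cancel₀ hf]
  · have : f w = 0 := hW hw
    rw [LinearMap.smul_apply, this, smul_zero]

theorem dual_sep {θ η : Module.Dual K E} (h : θ ∉ Submodule.span K {η}) : ∃ z, η z = 0 ∧ θ z = 1 := by
  have h1 : ∃ z, η z = 0 ∧ θ z ≠ 0 := by
    by_contra hcon
    push Not at hcon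
    apply h
    by_cases hη : η = 0
    · have : θ = 0 := LinearMap.ext fun z => hcon z (by rw [hη]; rfl)
      rw [this]; exact Submodule.zero_mem _
    · obtain ⟨w, hw⟩ : ∃ w, η w ≠ 0 := by
        by_contra h2
        push Not at h2
        exact hη (LinearMap.ext h2)
      refine Submodule.mem_span_singleton.mpr ⟨θ w / η w, ?_⟩
      apply LinearMap.ext
      intro x
      have h3 := hcon (x - (η x / η w) • w) (by rw [map_sub, map_smul, smul_eq_mul, div_mul_cancel₀ _ hw, sub_self])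
      rw [map_sub, map_smul, smul_eq_mul, sub_eq_zero] at h3
      rw [LinearMap.smul_apply, smul_eq_mul, h3]
      field_simp
  obtain ⟨z, hz1, hz2⟩ := h1
  exact ⟨(θ z)⁻¹ • z, by rw [map_smul, hz1, smul_zero], by rw [map_smul, smul_eq_mul, inv_mul_cancel₀ hz2]⟩

end general

variable {ι : Type} [Fintype ι] [DecidableEq ι] {F : Type*} [Field F] (F₀ : Subfield F)

/-- embedding of rational vectors -/
def emb (x : ι → F₀) : ι → F := fun i => (x i : F)

omit [Fintype ι] [DecidableEq ι] in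
theorem emb_add (x y : ι → F₀) : emb F₀ (x + y) = emb F₀ x + emb F₀ y := rfl
omit [Fintype ι] [DecidableEq ι] in
theorem emb_smul (c : F₀) (x : ι → F₀) : emb F₀ (c • x) = (c : F) • emb F₀ x := rfl
omit [Fintype ι] [DecidableEq ι] in
theorem emb_zero : emb F₀ (0 : ι → F₀) = 0 := rfl
omit [Fintype ι] [DecidableEq ι] in
theorem emb_injective : Function.Injective (emb F₀ : (ι → F₀) → (ι → F)) := by
  intro x y h
  funext i
  exact Subtype.ext (congrFun h i)
omit [Fintype ι] [DecidableEq ι] in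
theorem emb_ne_zero {x : ι → F₀} (hx : x ≠ 0) : emb F₀ x ≠ 0 := fun h => hx (emb_injective F₀ (h.trans (emb_zero F₀).symm))
omit [Fintype ι] in
theorem emb_single (i : ι) : emb F₀ (Pi.single i 1) = (Pi.single i 1 : ι → F) := by
  funext j
  by_cases h : j = i
  · subst h; simp [emb]
  · simp [emb, h]

/-- extension of rational functionals -/
def ext (θ : Module.Dual F₀ (ι → F₀)) : Module.Dual F (ι → F) where
  toFun x := ∑ i, (θ (Pi.single i 1) : F) * x i
  map_add' x y := by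
    rw [← Finset.sum_add_distrib]
    exact Finset.sum_congr rfl fun i _ => by rw [Pi.add_apply, mul_add]
  map_smul' c x := by
    rw [RingHom.id_apply, smul_eq_mul, Finset.mul_sum]
    exact Finset.sum_congr rfl fun i _ => by rw [Pi.smul_apply, smul_eq_mul]; ring

theorem ext_apply (θ : Module.Dual F₀ (ι → F₀)) (x : ι → F) : ext F₀ θ x = ∑ i, (θ (Pi.single i 1) : F) * x i := rfl

theorem ext_emb (θ : Module.Dual F₀ (ι → F₀)) (x : ι → F₀) : ext F₀ θ (emb F₀ x) = (θ x : F) := by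
  rw [ext_apply]
  conv_rhs => rw [pi_eq_sum_univ' x, map_sum]
  push_cast
  apply Finset.sum_congr rfl
  intro i _
  rw [map_smul, smul_eq_mul, mul_comm]
  rfl

theorem ext_add (θ η : Module.Dual F₀ (ι → F₀)) : ext F₀ (θ + η) = ext F₀ θ + ext F₀ η := by
  apply LinearMap.ext
  intro x
  rw [LinearMap.add_apply, ext_apply, ext_apply, ext_apply, ← Finset.sum_add_distrib]
  exact Finset.sum_congr rfl fun i _ => by rw [LinearMap.add_apply]; push_cast; ring

theorem ext_smul (c : F₀) (θ : Module.Dual F₀ (ι → F₀)) : ext F₀ (c • θ) = (c : F) • ext F₀ θ := by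
  apply LinearMap.ext
  intro x
  rw [LinearMap.smul_apply, ext_apply, ext_apply, smul_eq_mul, Finset.mul_sum]
  exact Finset.sum_congr rfl fun i _ => by rw [LinearMap.smul_apply, smul_eq_mul]; push_cast; ring

theorem ext_injective : Function.Injective (ext F₀ : Module.Dual F₀ (ι → F₀) → Module.Dual F (ι → F)) := by
  intro θ η h
  apply LinearMap.ext
  intro x
  apply Subtype.ext
  rw [← ext_emb, ← ext_emb, h]

theorem ext_ne_zero {θ : Module.Dual F₀ (ι → F₀)} (h : θ ≠ 0) : ext F₀ θ ≠ 0 := by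
  intro h1
  apply h
  apply ext_injective F₀
  rw [h1]
  apply LinearMap.ext
  intro x
  rw [ext_apply]
  simp

/-- a functional with rational values on the basis is an extension -/
theorem exists_ext (χ : Module.Dual F (ι → F)) (h : ∀ i, χ (Pi.single i 1) ∈ F₀) : ∃ θ, χ = ext F₀ θ := by
  let θ : Module.Dual F₀ (ι → F₀) :=
    { toFun := fun x => ∑ i, (⟨χ (Pi.single i 1), h i⟩ : F₀) * x i
      map_add' := fun x y => by
        rw [← Finset.sum_add_distrib]
        exact Finset.sum_congr rfl fun i _ => by rw [Pi.add_apply, mul_add]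
      map_smul' := fun c x => by
        rw [RingHom.id_apply, smul_eq_mul, Finset.mul_sum]
        exact Finset.sum_congr rfl fun i _ => by rw [Pi.smul_apply, smul_eq_mul]; ring }
  refine ⟨θ, ?_⟩
  apply LinearMap.ext
  intro x
  have h1 : ∀ i, θ (Pi.single i 1) = ⟨χ (Pi.single i 1), h i⟩ := by
    intro i
    change ∑ j, (⟨χ (Pi.single j 1), h j⟩ : F₀) * (Pi.single i 1 : ι → F₀) j = _
    rw [Finset.sum_eq_single_of_mem i (Finset.mem_univ _)]
    · simp
    · intro b _ hb; simp [hb]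
  rw [ext_apply]
  conv_lhs => rw [pi_eq_sum_univ' x, map_sum]
  apply Finset.sum_congr rfl
  intro i _
  rw [h1, map_smul, smul_eq_mul, mul_comm]

/-- general conjugation formula -/
theorem conj_tv_tv (u : ι → F) (ψ : Module.Dual F (ι → F)) (hu : ψ u = 0) (b : ι → F) (χ : Module.Dual F (ι → F)) (hb : χ b = 0)
    (h' : (χ - χ u • ψ) (b + ψ b • u) = 0) :
    tv u ψ hu * tv b χ hb * (tv u ψ hu)⁻¹ = tv (b + ψ b • u) (χ - χ u • ψ) h' := by
  rw [mul_inv_eq_iff_eq_mul]
  apply gl_ext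
  intro x
  simp only [Units.val_mul, ← Matrix.mulVec_mulVec, tv_mulVec, map_add, map_smul, LinearMap.sub_apply, LinearMap.smul_apply, smul_eq_mul, hu]
  module

theorem conj_ok (u : ι → F) (ψ : Module.Dual F (ι → F)) (hu : ψ u = 0) (b : ι → F) (χ : Module.Dual F (ι → F)) (hb : χ b = 0) :
    (χ - χ u • ψ) (b + ψ b • u) = 0 := by
  simp only [map_add, map_smul, LinearMap.sub_apply, LinearMap.smul_apply, smul_eq_mul, hu, hb]; ring

theorem tv_congr {a a' : ι → F} {φ φ' : Module.Dual F (ι → F)} (h : φ a = 0) (h' : φ' a' = 0) (ha : a = a') (hφ : φ = φ') :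
    tv a φ h = tv a' φ' h' := by
  subst ha; subst hφ; rfl

theorem mem_of_center (M : Subgroup (GL ι F)) {u : ι → F} {ψ : Module.Dual F (ι → F)} {hu : ψ u = 0} {b : ι → F}
    {χ : Module.Dual F (ι → F)} {hb : χ b = 0} (hs : tv b χ hb ∈ M) (ht : tv u ψ hu ∈ M) (h : ψ b = 0) (h' : (χ u • ψ) b = 0) :
    tv b (χ u • ψ) h' ∈ M := by
  have h1 := conj_tv_tv u ψ hu b χ hb (conj_ok u ψ hu b χ hb)
  have h2 : tv u ψ hu * tv b χ hb * (tv u ψ hu)⁻¹ ∈ M := M.mul_mem (M.mul_mem ht hs) (M.inv_mem ht)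
  rw [h1] at h2
  have h3 : (χ - χ u • ψ) b = 0 := by
    rw [LinearMap.sub_apply, hb, h', sub_zero]
  have h4 : tv (b + ψ b • u) (χ - χ u • ψ) (conj_ok u ψ hu b χ hb) = tv b (χ - χ u • ψ) h3 :=
    tv_congr _ _ (by rw [h, zero_smul, add_zero]) rfl
  rw [h4] at h2
  have h5 : tv b χ hb * (tv b (χ - χ u • ψ) h3)⁻¹ = tv b (χ u • ψ) h' := by
    rw [mul_inv_eq_iff_eq_mul, ← tv_add b _ _ h' h3 (by rw [LinearMap.add_apply, h', h3, add_zero])]
    exact tv_congr _ _ rfl (by abel)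
  rw [← h5]
  exact M.mul_mem hs (M.inv_mem h2)

theorem tv_add_left (a b : ι → F) (χ : Module.Dual F (ι → F)) (ha : χ a = 0) (hb : χ b = 0) (h : χ (a + b) = 0) :
    tv (a + b) χ h = tv a χ ha * tv b χ hb := by
  apply gl_ext
  intro x
  simp only [Units.val_mul, ← Matrix.mulVec_mulVec, tv_mulVec, map_add, map_smul, hb, smul_eq_mul, mul_zero, add_zero]
  module

theorem mem_of_axis (M : Subgroup (GL ι F)) {u : ι → F} {ψ : Module.Dual F (ι → F)} {hu : ψ u = 0} {b : ι → F}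
    {χ : Module.Dual F (ι → F)} {hb : χ b = 0} (hs : tv b χ hb ∈ M) (ht : tv u ψ hu ∈ M) (h : χ u = 0) (h' : χ (ψ b • u) = 0) :
    tv (ψ b • u) χ h' ∈ M := by
  have h1 := conj_tv_tv u ψ hu b χ hb (conj_ok u ψ hu b χ hb)
  have h2 : tv u ψ hu * tv b χ hb * (tv u ψ hu)⁻¹ ∈ M := M.mul_mem (M.mul_mem ht hs) (M.inv_mem ht)
  rw [h1] at h2
  have h3 : χ (b + ψ b • u) = 0 := by rw [map_add, hb, h', add_zero]
  have h4 : tv (b + ψ b • u) (χ - χ u • ψ) (conj_ok u ψ hu b χ hb) = tv (b + ψ b • u) χ h3 :=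
    tv_congr _ _ rfl (by rw [h, zero_smul, sub_zero])
  rw [h4, tv_add_left b (ψ b • u) χ hb h' h3] at h2
  have h5 : tv (ψ b • u) χ h' = (tv b χ hb)⁻¹ * (tv b χ hb * tv (ψ b • u) χ h') := by group
  rw [h5]
  exact M.mul_mem (M.inv_mem hs) h2

/-- `RT M a θ c`: the transvection with rational centre `a`, rational axis `θ`, coefficient `c` lies in `M`. -/
def RT (M : Subgroup (GL ι F)) (a : ι → F₀) (θ : Module.Dual F₀ (ι → F₀)) (c : F) : Prop :=
  ∃ h : (c • ext F₀ θ) (emb F₀ a) = 0, tv (emb F₀ a) (c • ext F₀ θ) h ∈ M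

theorem rt_zero_of (a : ι → F₀) (θ : Module.Dual F₀ (ι → F₀)) (h : θ a = 0) (c : F) : (c • ext F₀ θ) (emb F₀ a) = 0 := by
  rw [LinearMap.smul_apply, ext_emb, h]; simp

theorem RT.mem {M : Subgroup (GL ι F)} {a : ι → F₀} {θ : Module.Dual F₀ (ι → F₀)} {c : F} (h : RT F₀ M a θ c)
    (h' : (c • ext F₀ θ) (emb F₀ a) = 0) : tv (emb F₀ a) (c • ext F₀ θ) h' ∈ M := h.2

theorem RT.center {M : Subgroup (GL ι F)} {a : ι → F₀} {θ : Module.Dual F₀ (ι → F₀)} {c : F} (h : RT F₀ M a θ c)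
    {y : ι → F₀} (hy : θ y = 0) {η : Module.Dual F₀ (ι → F₀)} {d : F} (h' : RT F₀ M y η d) (hηa : η a = 1) : RT F₀ M y θ (c * d) := by
  have h1 := rt_zero_of F₀ y θ hy c
  have h2 := mem_of_axis M h.2 h'.2 h1 (by rw [map_smul, h1, smul_zero])
  refine ⟨rt_zero_of F₀ y θ hy _, ?_⟩
  have h3 : tv (emb F₀ y) ((c * d) • ext F₀ θ) (rt_zero_of F₀ y θ hy _) = tv ((d • ext F₀ η) (emb F₀ a) • emb F₀ y) (c • ext F₀ θ) (by rw [map_smul, h1, smul_zero]) := by
    apply gl_ext
    intro x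
    rw [tv_mulVec, tv_mulVec, LinearMap.smul_apply, LinearMap.smul_apply, LinearMap.smul_apply, ext_emb, hηa]
    simp only [smul_eq_mul, OneMemClass.coe_one, mul_one, smul_smul]
    congr 2
    ring
  rw [h3]; exact h2

theorem RT.axis {M : Subgroup (GL ι F)} {y : ι → F₀} {θ : Module.Dual F₀ (ι → F₀)} {c : F} (h : RT F₀ M y θ c)
    {z : ι → F₀} {η : Module.Dual F₀ (ι → F₀)} {d : F} (h' : RT F₀ M z η d) (hηy : η y = 0) (hθz : θ z = 1) : RT F₀ M y η (c * d) := by
  have h1 := rt_zero_of F₀ y η hηy d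
  have h2 := mem_of_center M h.2 h'.2 h1 (by rw [LinearMap.smul_apply, h1, smul_zero])
  refine ⟨rt_zero_of F₀ y η hηy _, ?_⟩
  have h3 : tv (emb F₀ y) ((c * d) • ext F₀ η) (rt_zero_of F₀ y η hηy _) = tv (emb F₀ y) ((c • ext F₀ θ) (emb F₀ z) • (d • ext F₀ η)) (by rw [LinearMap.smul_apply, h1, smul_zero]) := by
    apply gl_ext
    intro x
    rw [tv_mulVec, tv_mulVec, LinearMap.smul_apply, LinearMap.smul_apply, LinearMap.smul_apply, LinearMap.smul_apply, ext_emb, hθz]
    simp only [smul_eq_mul, OneMemClass.coe_one, mul_one, mul_assoc]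
  rw [h3]; exact h2

theorem finrank_ker_inf (θ θ' : Module.Dual F₀ (ι → F₀)) :
    Fintype.card ι - 2 ≤ Module.finrank F₀ (LinearMap.ker θ ⊓ LinearMap.ker θ' : Submodule F₀ (ι → F₀)) := by
  have h1 := LinearMap.finrank_range_add_finrank_ker θ
  have h2 := LinearMap.finrank_range_add_finrank_ker θ'
  have h3 := Submodule.finrank_sup_add_finrank_inf_eq (LinearMap.ker θ) (LinearMap.ker θ')
  have h4 : Module.finrank F₀ (LinearMap.range θ) ≤ 1 := (Submodule.finrank_le _).trans (by simp)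
  have h5 : Module.finrank F₀ (LinearMap.range θ') ≤ 1 := (Submodule.finrank_le _).trans (by simp)
  have h6 := Submodule.finrank_le (LinearMap.ker θ ⊔ LinearMap.ker θ')
  rw [Module.finrank_fintype_fun_eq_card] at h1 h2 h6
  omega

theorem finrank_ann (y : ι → F₀) :
    Fintype.card ι - 1 ≤ Module.finrank F₀ (LinearMap.ker (Module.Dual.eval F₀ (ι → F₀) y)) := by
  have h1 := LinearMap.finrank_range_add_finrank_ker (Module.Dual.eval F₀ (ι → F₀) y)
  have h4 : Module.finrank F₀ (LinearMap.range (Module.Dual.eval F₀ (ι → F₀) y)) ≤ 1 := (Submodule.finrank_le _).trans (by simp)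
  rw [Subspace.dual_finrank_eq, Module.finrank_fintype_fun_eq_card] at h1
  omega

/-- independence of the coefficient set -/
theorem RT.all {M : Subgroup (GL ι F)} (hM : ∀ a θ, θ a = 0 → RT F₀ M a θ 1) (hn : 4 ≤ Fintype.card ι)
    {a : ι → F₀} {θ : Module.Dual F₀ (ι → F₀)} {c : F} (ha : a ≠ 0) (hθ : θ ≠ 0) (h : RT F₀ M a θ c)
    (a' : ι → F₀) (θ' : Module.Dual F₀ (ι → F₀)) (h' : θ' a' = 0) : RT F₀ M a' θ' c := by
  have htriv : a' = 0 ∨ θ' = 0 → RT F₀ M a' θ' c := by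
    intro h0
    refine ⟨rt_zero_of F₀ a' θ' h' c, ?_⟩
    have : tv (emb F₀ a') (c • ext F₀ θ') (rt_zero_of F₀ a' θ' h' c) = 1 := by
      apply gl_ext
      intro x
      rw [tv_mulVec, Units.val_one, Matrix.one_mulVec]
      rcases h0 with rfl | rfl
      · rw [emb_zero, smul_zero, add_zero]
      · rw [LinearMap.smul_apply, ext_apply]; simp
    rw [this]; exact M.one_mem
  by_cases ha' : a' = 0
  · exact htriv (Or.inl ha')
  by_cases hθ' : θ' = 0
  · exact htriv (Or.inr hθ')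
  obtain ⟨y, ⟨hy1, hy2⟩, hya, hya'⟩ := exists_avoid2 (LinearMap.ker θ ⊓ LinearMap.ker θ') (by
    have := finrank_ker_inf F₀ θ θ'
    omega) a a'
  obtain ⟨η, hηy, hηθ, hηθ'⟩ := exists_avoid2 (LinearMap.ker (Module.Dual.eval F₀ (ι → F₀) y)) (by
    have := finrank_ann F₀ y
    omega) θ θ'
  have hηy' : η y = 0 := hηy
  -- (a,θ) → (y,θ)
  obtain ⟨η1, h1a, h1y⟩ := exists_functional' (Submodule.span F₀ {y}) a (notMem_span_symm ha hya)
  have s1 := h.center F₀ hy1 (hM y η1 (h1y y (Submodule.mem_span_singleton_self y))) h1a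
  rw [mul_one] at s1
  -- (y,θ) → (y,η)
  obtain ⟨z, hz1, hz2⟩ := dual_sep (notMem_span_symm hθ hηθ)
  have s2 := s1.axis F₀ (hM z η hz1) hηy' hz2
  rw [mul_one] at s2
  -- (y,η) → (y,θ')
  obtain ⟨z', hz1', hz2'⟩ := dual_sep hηθ'
  have s3 := s2.axis F₀ (hM z' θ' hz1') hy2 hz2'
  rw [mul_one] at s3
  -- (y,θ') → (a',θ')
  obtain ⟨η2, h2y, h2a⟩ := exists_functional' (Submodule.span F₀ {a'}) y hya'
  have s4 := s3.center F₀ h' (hM a' η2 (h2a a' (Submodule.mem_span_singleton_self a'))) h2y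
  rw [mul_one] at s4
  exact s4

theorem RT.add {M : Subgroup (GL ι F)} {a : ι → F₀} {θ : Module.Dual F₀ (ι → F₀)} {c d : F} (hθa : θ a = 0) (h : RT F₀ M a θ c) (h' : RT F₀ M a θ d) :
    RT F₀ M a θ (c + d) := by
  refine ⟨rt_zero_of F₀ a θ hθa _, ?_⟩
  have : tv (emb F₀ a) ((c + d) • ext F₀ θ) (rt_zero_of F₀ a θ hθa _) =
      tv (emb F₀ a) (c • ext F₀ θ) (rt_zero_of F₀ a θ hθa _) * tv (emb F₀ a) (d • ext F₀ θ) (rt_zero_of F₀ a θ hθa _) := by
    rw [← tv_add _ _ _ _ _ (by rw [LinearMap.add_apply, rt_zero_of F₀ a θ hθa, rt_zero_of F₀ a θ hθa, add_zero])]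
    exact tv_congr _ _ rfl (add_smul _ _ _)
  rw [this]
  exact M.mul_mem h.2 h'.2

end CfsgLib.Subfield29
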