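import Cfsg.Agent.LibSubfield29

/-! Overgroups of SL_n(F₀) in SL_n(F). -/

namespace CfsgLib.Subfield29

open scoped MatrixGroups Matrix
open Cfsg CfsgLib.MaxTv29

variable {ι : Type} [Fintype ι] [DecidableEq ι] {F : Type*} [Field F] (F₀ : Subfield F)

theorem special_le_te (N : Subgroup (GL ι F)) (hN : ∀ (i j : ι) (hij : i ≠ j) (c : F), te hij c ∈ N) :
    Geo.specialLinear ι F ≤ N := by
  intro g hg
  have hdet : (g : Matrix ι ι F).det = 1 := by
    have h1 : Matrix.GeneralLinearGroup.det g = 1 := hg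
    rw [← Matrix.GeneralLinearGroup.val_det_apply, h1, Units.val_one]
  rcases subsingleton_or_nontrivial ι with hs | hs
  · have : g = 1 := by
      apply Units.ext
      rcases isEmpty_or_nonempty ι with he | ⟨⟨i⟩⟩
      · ext i; exact (he.false i).elim
      · rw [Matrix.det_eq_elem_of_subsingleton _ i] at hdet
        ext a b
        rw [Subsingleton.elim a i, Subsingleton.elim b i, hdet]
        simp
    rw [this]; exact N.one_mem
  · let G : Matrix.SpecialLinearGroup ι F := ⟨(g : Matrix ι ι F), hdet⟩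
    have hG : (G : GL ι F) = g := Units.ext rfl
    have key : ∀ M : Matrix.SpecialLinearGroup ι F, (M : GL ι F) ∈ N := by
      intro M
      refine Matrix.SpecialLinearGroup.diagonal_transvection_induction' (fun M => (M : GL ι F) ∈ N) M ?_ ?_ ?_
      · intro i j hij c hc
        rw [diag2n_decomp hij c hc]
        exact N.mul_mem (N.mul_mem (N.mul_mem (N.mul_mem (N.mul_mem (hN _ _ _ _) (hN _ _ _ _)) (hN _ _ _ _)) (hN _ _ _ _)) (hN _ _ _ _)) (hN _ _ _ _)
      · intro i j hij a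
        have : ((Matrix.SpecialLinearGroup.transvection hij a : Matrix.SpecialLinearGroup ι F) : GL ι F) = te hij a := by
          apply gl_ext
          intro x
          rw [te_mulVec]
          have h1 : (((Matrix.SpecialLinearGroup.transvection hij a : Matrix.SpecialLinearGroup ι F) : GL ι F) : Matrix ι ι F) =
            1 + Matrix.single i j a := rfl
          rw [h1, Matrix.add_mulVec, Matrix.one_mulVec, Matrix.single_mulVec]
          congr 1
          ext k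
          simp [Function.update_apply, Pi.single_apply]
        rw [this]; exact hN _ _ _ _
      · intro A B hA hB
        rw [map_mul]
        exact N.mul_mem hA hB
    rw [← hG]; exact key G

theorem rt_smul {M : Subgroup (GL ι F)} {a : ι → F₀} {θ : Module.Dual F₀ (ι → F₀)} (k : F₀) (h : RT F₀ M a (k • θ) 1) (h0 : θ a = 0) :
    RT F₀ M a θ (k : F) := by
  refine ⟨rt_zero_of F₀ a θ h0 _, ?_⟩
  have : tv (emb F₀ a) ((k : F) • ext F₀ θ) (rt_zero_of F₀ a θ h0 _) = tv (emb F₀ a) ((1 : F) • ext F₀ (k • θ)) h.1 :=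
    tv_congr _ _ rfl (by rw [one_smul, ext_smul])
  rw [this]; exact h.2

/-- coefficient subalgebra -/
def coef (M : Subgroup (GL ι F)) (hM : ∀ a θ, θ a = 0 → RT F₀ M a θ 1) (hn : 4 ≤ Fintype.card ι) : Subalgebra F₀ F where
  carrier := {c | ∀ a θ, θ a = 0 → RT F₀ M a θ c}
  mul_mem' := by
    intro c d hc hd
    obtain ⟨i, j, k, hij, hik, hjk⟩ := Fintype.two_lt_card_iff.mp (show 2 < Fintype.card ι by omega)
    -- a = e_i, y = e_j, θ = e_k*, η = e_i*
    have h1 : RT F₀ M (Pi.single i 1) (LinearMap.proj k) c := hc _ _ (by simp [hik.symm])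
    have h2 : RT F₀ M (Pi.single j 1) (LinearMap.proj i) d := hd _ _ (by simp [hij])
    have h3 := h1.center F₀ (y := Pi.single j 1) (by simp [hjk.symm]) h2 (by simp)
    exact h3.all F₀ hM hn (by simp) (by
      intro h
      have := congrArg (fun φ : Module.Dual F₀ (ι → F₀) => φ (Pi.single k 1)) h
      simp at this)
  add_mem' := by
    intro c d hc hd a θ h
    exact (hc a θ h).add F₀ h (hd a θ h)
  algebraMap_mem' := by
    intro k a θ h
    exact rt_smul F₀ k (hM a (k • θ) (by rw [LinearMap.smul_apply, h, smul_zero])) h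

theorem mem_coef (M : Subgroup (GL ι F)) (hM : ∀ a θ, θ a = 0 → RT F₀ M a θ 1) (hn : 4 ≤ Fintype.card ι) (c : F) :
    c ∈ coef F₀ M hM hn ↔ ∀ a θ, θ a = 0 → RT F₀ M a θ c := Iff.rfl

theorem special_le_of_coef (M : Subgroup (GL ι F)) (hM : ∀ a θ, θ a = 0 → RT F₀ M a θ 1) (hn : 4 ≤ Fintype.card ι)
    (h : coef F₀ M hM hn = ⊤) : Geo.specialLinear ι F ≤ M := by
  apply special_le_te
  intro i j hij c
  have h1 : c ∈ coef F₀ M hM hn := by rw [h]; exact Algebra.mem_top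
  have h2 : RT F₀ M (Pi.single i 1) (LinearMap.proj j) c := h1 _ _ (by simp [hij.symm])
  have h3 : te hij c = tv (emb F₀ (Pi.single i 1)) (c • ext F₀ (LinearMap.proj j)) h2.1 := by
    apply gl_ext
    intro x
    rw [te_mulVec, tv_mulVec, emb_single, LinearMap.smul_apply, ext_apply]
    congr 2
    rw [smul_eq_mul]
    congr 1
    rw [Finset.sum_eq_single_of_mem j (Finset.mem_univ _)]
    · simp
    · intro b _ hb; simp [hb.symm]
  rw [h3]; exact h2.2

theorem exists_dual_ne_zero (hn : 3 ≤ Fintype.card ι) (y b : ι → F₀) : ∃ θ : Module.Dual F₀ (ι → F₀), θ ≠ 0 ∧ θ y = 0 ∧ θ b = 0 := by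
  classical
  have h1 : ∃ v, v ∉ Submodule.span F₀ {y, b} := by
    by_contra hcon
    push Not at hcon
    have h2 : Submodule.span F₀ {y, b} = ⊤ := eq_top_iff.mpr fun v _ => hcon v
    have h3 : Module.finrank F₀ (Submodule.span F₀ ({y, b} : Set (ι → F₀))) ≤ 2 := by
      have := finrank_span_finset_le_card (R := F₀) ({y, b} : Finset (ι → F₀))
      rw [Finset.coe_pair] at this
      exact this.trans Finset.card_le_two
    rw [h2, finrank_top, Module.finrank_fintype_fun_eq_card] at h3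
    omega
  obtain ⟨v, hv⟩ := h1
  obtain ⟨φ, hφ1, hφ2⟩ := exists_functional' _ v hv
  refine ⟨φ, ?_, hφ2 y (Submodule.subset_span (by simp)), hφ2 b (Submodule.subset_span (by simp))⟩
  rintro rfl
  simp at hφ1

theorem exists_vec_ne_zero (hn : 3 ≤ Fintype.card ι) (θ η : Module.Dual F₀ (ι → F₀)) : ∃ y : ι → F₀, y ≠ 0 ∧ θ y = 0 ∧ η y = 0 := by
  have h1 := finrank_ker_inf F₀ θ η
  have h2 : 0 < Module.finrank F₀ (LinearMap.ker θ ⊓ LinearMap.ker η : Submodule F₀ (ι → F₀)) := by omega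
  rw [Module.finrank_pos_iff, Submodule.nontrivial_iff_ne_bot] at h2
  obtain ⟨y, hy, hy0⟩ := Submodule.exists_mem_ne_zero_of_ne_bot h2
  exact ⟨y, hy0, hy.1, hy.2⟩

section phi
variable {M : Subgroup (GL ι F)} (hM : ∀ a θ, θ a = 0 → RT F₀ M a θ 1) (hn : 4 ≤ Fintype.card ι)
  (hC : ∀ c, (∀ a θ, θ a = 0 → RT F₀ M a θ c) → c ∈ F₀)
include hM hn hC

theorem axis_rational {b : ι → F₀} (hb : b ≠ 0) {χ : Module.Dual F (ι → F)} {h : χ (emb F₀ b) = 0} (hM' : tv (emb F₀ b) χ h ∈ M) :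
    ∃ θ, χ = ext F₀ θ := by
  apply exists_ext
  intro i
  obtain ⟨θ, hθ0, hθy, hθb⟩ := exists_dual_ne_zero F₀ (by omega) (Pi.single i 1) b
  have h1 := hM (Pi.single i 1) θ hθy
  have h2 := mem_of_center M hM' h1.2 (rt_zero_of F₀ b θ hθb 1) (by rw [LinearMap.smul_apply, rt_zero_of F₀ b θ hθb 1, smul_zero])
  have h3 : RT F₀ M b θ (χ (Pi.single i 1)) := by
    refine ⟨rt_zero_of F₀ b θ hθb _, ?_⟩
    have : tv (emb F₀ b) (χ (Pi.single i 1) • ext F₀ θ) (rt_zero_of F₀ b θ hθb _) =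
        tv (emb F₀ b) (χ (emb F₀ (Pi.single i 1)) • ((1 : F) • ext F₀ θ)) (by rw [LinearMap.smul_apply, rt_zero_of F₀ b θ hθb 1, smul_zero]) :=
      tv_congr _ _ rfl (by rw [emb_single, one_smul])
    rw [this]; exact h2
  exact hC _ fun a θ' h' => h3.all F₀ hM hn hb hθ0 a θ' h'

theorem centre_rational {θ : Module.Dual F₀ (ι → F₀)} (hθ : θ ≠ 0) {u : ι → F} {h : (ext F₀ θ) u = 0} (hM' : tv u (ext F₀ θ) h ∈ M) :
    ∃ u₀, u = emb F₀ u₀ := by
  have key : ∀ i, u i ∈ F₀ := by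
    intro i
    obtain ⟨y, hy0, hy1, hy2⟩ := exists_vec_ne_zero F₀ (by omega) θ (LinearMap.proj i)
    have h1 := hM y (LinearMap.proj i) hy2
    have h0 : ext F₀ θ (emb F₀ y) = 0 := by rw [ext_emb, hy1]; rfl
    have h2 := mem_of_axis M hM' h1.2 h0 (by rw [map_smul, h0, smul_zero])
    have hui : ((1 : F) • ext F₀ (LinearMap.proj i : Module.Dual F₀ (ι → F₀))) u = u i := by
      rw [one_smul, ext_apply, Finset.sum_eq_single_of_mem i (Finset.mem_univ _)]
      · simp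
      · intro b _ hb; simp [hb.symm]
    have h3 : RT F₀ M y θ (u i) := by
      refine ⟨rt_zero_of F₀ y θ hy1 _, ?_⟩
      have : tv (emb F₀ y) (u i • ext F₀ θ) (rt_zero_of F₀ y θ hy1 _) =
          tv (((1 : F) • ext F₀ (LinearMap.proj i : Module.Dual F₀ (ι → F₀))) u • emb F₀ y) (ext F₀ θ) (by rw [map_smul, h0, smul_zero]) := by
        apply gl_ext
        intro x
        rw [tv_mulVec, tv_mulVec, hui, LinearMap.smul_apply, smul_smul, smul_eq_mul, mul_comm]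
      rw [this]; exact h2
    exact hC _ fun a θ' h' => h3.all F₀ hM hn hy0 hθ a θ' h'
  exact ⟨fun i => ⟨u i, key i⟩, rfl⟩

end phi

/-- `u` spans a non-rational point -/
def NR (u : ι → F) : Prop := ∀ c : F, c ≠ 0 → ∀ x : ι → F₀, c • u ≠ emb F₀ x

omit [Fintype ι] [DecidableEq ι] in
theorem NR.ne_zero {u : ι → F} (h : NR F₀ u) : u ≠ 0 := by
  rintro rfl
  exact h 1 one_ne_zero 0 (by rw [smul_zero, emb_zero])

theorem prop_of_ann {b : ι → F₀} (hb : b ≠ 0) (u : ι → F) (h : ∀ χ : Module.Dual F₀ (ι → F₀), χ b = 0 → ext F₀ χ u = 0) :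
    ∃ c : F, u = c • emb F₀ b := by
  obtain ⟨i, hi⟩ := Function.ne_iff.mp hb
  have hi' : (b i : F) ≠ 0 := fun h => hi (Subtype.ext h)
  refine ⟨u i / b i, ?_⟩
  have hproj : ∀ k, ext F₀ (LinearMap.proj k : Module.Dual F₀ (ι → F₀)) u = u k := by
    intro k
    rw [ext_apply, Finset.sum_eq_single_of_mem k (Finset.mem_univ _)]
    · simp
    · intro b _ hb; simp [hb.symm]
  funext j
  have h1 := h (b i • LinearMap.proj j + (-b j) • LinearMap.proj i) (by simp [mul_comm])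
  rw [ext_add, ext_smul, ext_smul, LinearMap.add_apply, LinearMap.smul_apply, LinearMap.smul_apply, hproj, hproj] at h1
  simp only [smul_eq_mul] at h1
  push_cast at h1
  rw [Pi.smul_apply, smul_eq_mul]
  change u j = u i / b i * b j
  field_simp
  linear_combination h1

section generic
variable {M : Subgroup (GL ι F)} (hM : ∀ a θ, θ a = 0 → RT F₀ M a θ 1) (hn : 4 ≤ Fintype.card ι)
  (hC : ∀ c, (∀ a θ, θ a = 0 → RT F₀ M a θ c) → c ∈ F₀)
include hM hn hC

theorem lemA {u : ι → F} (hu : NR F₀ u) {ψ : Module.Dual F (ι → F)} (hψ : ψ ≠ 0) {h : ψ u = 0} (ht : tv u ψ h ∈ M) {b : ι → F₀} (hb : b ≠ 0) :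
    ψ (emb F₀ b) ≠ 0 := by
  intro h0
  obtain ⟨χ, hχb, hχu⟩ : ∃ χ : Module.Dual F₀ (ι → F₀), χ b = 0 ∧ ext F₀ χ u ≠ 0 := by
    by_contra hcon
    push Not at hcon
    obtain ⟨c, hc⟩ := prop_of_ann F₀ hb u hcon
    have hc0 : c ≠ 0 := by
      rintro rfl
      rw [zero_smul] at hc
      exact hu.ne_zero F₀ hc
    exact hu c⁻¹ (inv_ne_zero hc0) b (by rw [hc, smul_smul, inv_mul_cancel₀ hc0, one_smul])
  have h1 := hM b χ hχb
  have h2 := mem_of_center M h1.2 ht h0 (by rw [LinearMap.smul_apply, h0, smul_zero])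
  obtain ⟨θ, hθ⟩ := axis_rational F₀ hM hn hC hb h2
  set μ := ((1 : F) • ext F₀ χ) u with hμ
  have hμ0 : μ ≠ 0 := by rw [hμ, one_smul]; exact hχu
  have hψθ : ψ = μ⁻¹ • ext F₀ θ := by rw [← hθ, smul_smul, inv_mul_cancel₀ hμ0, one_smul]
  have hθ0 : θ ≠ 0 := by
    rintro rfl
    apply hψ
    rw [hψθ]
    apply LinearMap.ext
    intro x
    rw [LinearMap.smul_apply, ext_apply]; simp
  have h3 : ext F₀ θ (μ⁻¹ • u) = 0 := by
    have : (μ⁻¹ • ext F₀ θ) u = 0 := by rw [← hψθ]; exact h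
    rw [map_smul]; exact this
  have h4 : tv (μ⁻¹ • u) (ext F₀ θ) h3 ∈ M := by
    have : tv (μ⁻¹ • u) (ext F₀ θ) h3 = tv u ψ h := by
      rw [tv_smul_left _ _ _ h3 (by rw [← hψθ]; exact h)]
      exact tv_congr _ _ rfl hψθ.symm
    rw [this]; exact ht
  obtain ⟨u₀, hu₀⟩ := centre_rational F₀ hM hn hC hθ0 h4
  exact hu μ⁻¹ (inv_ne_zero hμ0) u₀ hu₀

theorem lemA' {u : ι → F} (hu : NR F₀ u) {ψ : Module.Dual F (ι → F)} (hψ : ψ ≠ 0) {h : ψ u = 0} (ht : tv u ψ h ∈ M)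
    {χ : Module.Dual F₀ (ι → F₀)} (hχ : χ ≠ 0) : ext F₀ χ u ≠ 0 := by
  intro h0
  obtain ⟨b, hb0, hb1, _⟩ := exists_vec_ne_zero F₀ (by omega) χ χ
  have h1 := hM b χ hb1
  have h00 : ((1 : F) • ext F₀ χ) u = 0 := by rw [LinearMap.smul_apply, h0, smul_zero]
  have h2 := mem_of_center M ht h1.2 h00 (by rw [LinearMap.smul_apply, h00, smul_zero])
  refine lemA F₀ hM hn hC hu ?_ h2 hb0 ?_
  · apply smul_ne_zero
    · exact lemA F₀ hM hn hC hu hψ ht hb0
    · rw [one_smul]; exact ext_ne_zero F₀ hχ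
  · rw [LinearMap.smul_apply, rt_zero_of F₀ b χ hb1 1, smul_zero]

end generic

/-- `g` preserves the rational structure up to a scalar -/
def Rat (g : GL ι F) : Prop := ∃ c : F, c ≠ 0 ∧ ∀ x : ι → F₀, ∃ y : ι → F₀, c • ((g : Matrix ι ι F) *ᵥ emb F₀ x) = emb F₀ y

omit [DecidableEq ι] [Fintype ι] in
theorem rat_coeff [Fintype ι] [DecidableEq ι] {y₁ y₂ y' : ι → F₀} (h : emb F₀ y₁ ∉ Submodule.span F {emb F₀ y₂}) {α β : F} (h' : α • emb F₀ y₁ + β • emb F₀ y₂ = emb F₀ y') :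
    α ∈ F₀ := by
  have h1 : y₁ ∉ Submodule.span F₀ {y₂} := by
    intro h1
    obtain ⟨k, hk⟩ := Submodule.mem_span_singleton.mp h1
    apply h
    rw [← hk, emb_smul]
    exact Submodule.smul_mem _ _ (Submodule.mem_span_singleton_self _)
  obtain ⟨θ, h2, h3⟩ := exists_functional' _ y₁ h1
  have h4 := congrArg (ext F₀ θ) h'
  rw [map_add, map_smul, map_smul, ext_emb, ext_emb, ext_emb, h2, h3 y₂ (Submodule.mem_span_singleton_self _)] at h4
  simp only [OneMemClass.coe_one, smul_eq_mul, mul_one, ZeroMemClass.coe_zero, mul_zero, add_zero] at h4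
  rw [h4]; exact (θ y').2

theorem lemR (g : GL ι F) (h : ∀ a : ι → F₀, a ≠ 0 → ¬ NR F₀ ((g : Matrix ι ι F) *ᵥ emb F₀ a)) : Rat F₀ g := by
  rcases isEmpty_or_nonempty ι with he | ⟨⟨i0⟩⟩
  · exact ⟨1, one_ne_zero, fun x => ⟨0, by funext i; exact (he.false i).elim⟩⟩
  have h1 : ∀ a : ι → F₀, a ≠ 0 → ∃ c : F, c ≠ 0 ∧ ∃ y, c • ((g : Matrix ι ι F) *ᵥ emb F₀ a) = emb F₀ y := by
    intro a ha
    have := h a ha
    unfold NR at this
    push Not at this
    obtain ⟨c, hc, y, hy⟩ := this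
    exact ⟨c, hc, y, hy⟩
  obtain ⟨c0, hc0, y0, hy0⟩ := h1 (Pi.single i0 1) (by simp)
  refine ⟨c0, hc0, ?_⟩
  have hbasis : ∀ j, ∃ y, c0 • ((g : Matrix ι ι F) *ᵥ emb F₀ (Pi.single j 1)) = emb F₀ y := by
    intro j
    by_cases hj : j = i0
    · subst hj; exact ⟨y0, hy0⟩
    obtain ⟨c1, hc1, y1, hy1⟩ := h1 (Pi.single j 1) (by simp)
    obtain ⟨c', hc', y', hy'⟩ := h1 (Pi.single i0 1 + Pi.single j 1) (by
      intro h
      have := congrFun h i0
      simp [Ne.symm hj] at this)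
    -- independence
    have hind : ∀ k l : ι, k ≠ l → ∀ (c d : F) (y z : ι → F₀), d ≠ 0 → c ≠ 0 → c • ((g : Matrix ι ι F) *ᵥ emb F₀ (Pi.single k 1)) = emb F₀ y →
        d • ((g : Matrix ι ι F) *ᵥ emb F₀ (Pi.single l 1)) = emb F₀ z → emb F₀ y ∉ Submodule.span F {emb F₀ z} := by
      intro k l hkl c d y z hd hc hy hz hmem
      obtain ⟨e, he⟩ := Submodule.mem_span_singleton.mp hmem
      rw [← hy, ← hz, ← Matrix.mulVec_smul, ← Matrix.mulVec_smul, ← Matrix.mulVec_smul] at he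
      have h2 := mulVec_injective g he
      rw [emb_single, emb_single] at h2
      have h3 := congrFun h2 k
      simp [hkl] at h3
      exact hc h3.symm
    have e1 : (c' / c0) • emb F₀ y0 + (c' / c1) • emb F₀ y1 = emb F₀ y' := by
      rw [← hy0, ← hy1, ← hy', emb_add, Matrix.mulVec_add, smul_add, smul_smul, smul_smul, div_mul_cancel₀ _ hc0, div_mul_cancel₀ _ hc1]
    have e2 : c' / c0 ∈ F₀ := rat_coeff F₀ (hind i0 j (Ne.symm hj) c0 c1 y0 y1 hc1 hc0 hy0 hy1) e1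
    have e3 : c' / c1 ∈ F₀ := rat_coeff F₀ (hind j i0 hj c1 c0 y1 y0 hc0 hc1 hy1 hy0) ((add_comm _ _).trans e1)
    have e4 : c0 / c1 ∈ F₀ := by
      have : c0 / c1 = (c' / c1) / (c' / c0) := by field_simp
      rw [this]; exact F₀.div_mem e3 e2
    refine ⟨(⟨c0 / c1, e4⟩ : F₀) • y1, ?_⟩
    rw [emb_smul, ← hy1, smul_smul]
    change _ = (c0 / c1 * c1) • _
    rw [div_mul_cancel₀ _ hc1]
  choose Y hY using hbasis
  intro x
  refine ⟨∑ j, x j • Y j, ?_⟩
  have hsum : ∀ (s : Finset ι) (v : ι → (ι → F₀)), emb F₀ (∑ j ∈ s, v j) = ∑ j ∈ s, emb F₀ (v j) := by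
    intro s v
    funext i
    simp only [emb, Finset.sum_apply]
    push_cast
    rfl
  rw [hsum]
  simp only [emb_smul, ← hY]
  conv_lhs => rw [pi_eq_sum_univ' x, hsum]
  simp only [emb_smul]
  rw [Matrix.mulVec_sum, Finset.smul_sum]
  apply Finset.sum_congr rfl
  intro j _
  rw [Matrix.mulVec_smul, smul_comm]

section generic
variable {M : Subgroup (GL ι F)} (hM : ∀ a θ, θ a = 0 → RT F₀ M a θ 1) (hn : 4 ≤ Fintype.card ι)
  (hC : ∀ c, (∀ a θ, θ a = 0 → RT F₀ M a θ c) → c ∈ F₀)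
include hM hn hC

/-- transvections at a moved rational point -/
theorem exists_moved {g : GL ι F} (hg : g ∈ M) (a : ι → F₀) (φ : Module.Dual F₀ (ι → F₀)) (hφ : φ ≠ 0) (ha : φ a = 0) :
    ∃ (ψ : Module.Dual F (ι → F)) (h : ψ ((g : Matrix ι ι F) *ᵥ emb F₀ a) = 0), ψ ≠ 0 ∧ tv _ ψ h ∈ M ∧
      ∀ x, ψ ((g : Matrix ι ι F) *ᵥ x) = ext F₀ φ x := by
  obtain ⟨h', h''⟩ := conj_tv g (emb F₀ a) ((1 : F) • ext F₀ φ) (rt_zero_of F₀ a φ ha 1)
  have hval : ∀ x, (((1 : F) • ext F₀ φ).comp (le g).symm.toLinearMap) ((g : Matrix ι ι F) *ᵥ x) = ext F₀ φ x := by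
    intro x
    simp only [LinearMap.comp_apply, LinearEquiv.coe_coe, le_symm_apply, inv_mulVec_mulVec, one_smul]
  refine ⟨_, h', ?_, ?_, hval⟩
  · intro h0
    apply ext_ne_zero F₀ hφ
    apply LinearMap.ext
    intro x
    rw [← hval x, h0]; rfl
  · rw [← h'']
    exact M.mul_mem (M.mul_mem hg (hM a φ ha).2) (M.inv_mem hg)

theorem lemB {g : GL ι F} (hg : g ∈ M) {b b' : ι → F₀} (hb : b ≠ 0) {c : F} (hc : c ≠ 0) (h : (g : Matrix ι ι F) *ᵥ emb F₀ b = c • emb F₀ b') :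
    Rat F₀ g := by
  apply lemR
  intro a ha hNR
  obtain ⟨φ, hφ0, hφa, hφb⟩ := exists_dual_ne_zero F₀ (by omega) a b
  obtain ⟨ψ, h1, hψ0, hψM, hψ⟩ := exists_moved F₀ hM hn hC hg a φ hφ0 hφa
  have hb' : b' ≠ 0 := by
    rintro rfl
    rw [emb_zero, smul_zero] at h
    exact emb_ne_zero F₀ hb (mulVec_injective g (h.trans (Matrix.mulVec_zero _).symm))
  apply lemA F₀ hM hn hC hNR hψ0 hψM hb'
  have h2 := hψ (emb F₀ b)
  rw [h, map_smul, ext_emb, hφb] at h2
  exact (smul_eq_zero.mp h2).resolve_left hc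

end generic

end CfsgLib.Subfield29
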