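import Cfsg.Agent.LibSubfield29c

/-! The subfield subgroup in terms of rational matrices; conjugation of maximality. -/

namespace CfsgLib.Subfield29

open scoped MatrixGroups Matrix
open Cfsg CfsgLib.MaxTv29

theorem isMaximalIn_map {G : Type*} [Group G] (φ : G ≃* G) {K H : Subgroup G} (h : Geo.IsMaximalIn K H) :
    Geo.IsMaximalIn (K.map φ.toMonoidHom) (H.map φ.toMonoidHom) := by
  have hinj : Function.Injective φ.toMonoidHom := φ.injective
  refine ⟨?_, fun M hHM hMK => ?_⟩
  · exact (Subgroup.map_lt_map_iff_of_injective hinj).mpr h.1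
  · have e : (M.comap φ.toMonoidHom).map φ.toMonoidHom = M := Subgroup.map_comap_eq_self_of_surjective φ.surjective M
    have h1 : H ≤ M.comap φ.toMonoidHom := Subgroup.map_le_iff_le_comap.mp hHM
    have h2 : M.comap φ.toMonoidHom ≤ K := by
      rw [← e] at hMK
      exact (Subgroup.map_le_map_iff_of_injective hinj).mp hMK
    rcases h.2 _ h1 h2 with h3 | h3
    · left; rw [← e, h3]
    · right; rw [← e, h3]

/-- maximality in a normal subgroup is invariant under conjugation -/
theorem isMaximalIn_conj {G : Type*} [Group G] (K H : Subgroup G) [K.Normal] (P : G) (h : Geo.IsMaximalIn K (H ⊓ K)) :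
    Geo.IsMaximalIn K (H.map (MulAut.conj P).toMonoidHom ⊓ K) := by
  have hK : K.map (MulAut.conj P).toMonoidHom = K := by
    ext x
    rw [Subgroup.mem_map]
    constructor
    · rintro ⟨y, hy, rfl⟩
      exact (inferInstance : K.Normal).conj_mem y hy P
    · intro hx
      refine ⟨P⁻¹ * x * P, ?_, ?_⟩
      · have := (inferInstance : K.Normal).conj_mem x hx P⁻¹
        rwa [inv_inv] at this
      · simp [mul_assoc]
  have h1 := isMaximalIn_map (MulAut.conj P) h
  rw [Subgroup.map_inf _ _ _ (MulAut.conj P).injective, hK] at h1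
  exact h1

variable {ι : Type} [Fintype ι] [DecidableEq ι] {F : Type*} [Field F] (F₀ : Subfield F)

theorem mem_rational_iff (g : GL ι F) :
    g ∈ (Matrix.GeneralLinearGroup.map (n := ι) (F₀.subtype : F₀ →+* F)).range ⊔ Geo.scalars ι F ↔ Rat F₀ g := by
  haveI : (Geo.scalars ι F).Normal := by
    constructor
    intro n hn g
    rw [Geo.mem_scalars_iff] at hn ⊢
    obtain ⟨c, hc⟩ := hn
    refine ⟨c, ?_⟩
    rw [Units.val_mul, Units.val_mul, hc, mul_smul_comm, mul_one, smul_mul_assoc, ← Units.val_mul, mul_inv_cancel, Units.val_one]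
  rw [Subgroup.mem_sup_of_normal_right]
  constructor
  · rintro ⟨y, ⟨A, rfl⟩, z, hz, rfl⟩
    obtain ⟨c, hc⟩ := (Geo.mem_scalars_iff _).mp hz
    refine ⟨(c : F)⁻¹, inv_ne_zero c.ne_zero, fun x => ⟨(A : Matrix ι ι F₀) *ᵥ x, ?_⟩⟩
    rw [Units.val_mul, hc, mul_smul_comm, mul_one, Matrix.smul_mulVec, smul_smul, inv_mul_cancel₀ c.ne_zero, one_smul]
    funext i
    simp [emb, Matrix.mulVec, dotProduct, Matrix.GeneralLinearGroup.map]
  · rintro ⟨c, hc0, hc⟩
    choose y hy using fun j => hc (Pi.single j 1)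
    let A : Matrix ι ι F₀ := Matrix.of fun i j => y j i
    have hA : A.map F₀.subtype = c • (g : Matrix ι ι F) := by
      ext i j
      have := congrFun (hy j) i
      rw [emb_single, Pi.smul_apply, Matrix.mulVec_single] at this
      simp only [MulOpposite.op_one, one_smul] at this
      exact this.symm
    have hdet : A.det ≠ 0 := by
      intro h0
      have h1 : (A.map F₀.subtype).det = 0 := by
        have := RingHom.map_det (F₀.subtype) A
        rw [h0, map_zero] at this
        exact this.symm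
      rw [hA, Matrix.det_smul] at h1
      rcases mul_eq_zero.mp h1 with h2 | h2
      · exact hc0 (eq_zero_of_pow_eq_zero h2)
      · exact g.isUnit.map Matrix.detMonoidHom |>.ne_zero h2
    let A' : GL ι F₀ := Matrix.GeneralLinearGroup.mkOfDetNeZero A hdet
    refine ⟨Matrix.GeneralLinearGroup.map (F₀.subtype : F₀ →+* F) A', ⟨A', rfl⟩,
      (Matrix.GeneralLinearGroup.map (F₀.subtype : F₀ →+* F) A')⁻¹ * g, ?_, by simp⟩
    rw [Geo.mem_scalars_iff]
    refine ⟨(Units.mk0 c hc0)⁻¹, ?_⟩
    have h1 : ((Matrix.GeneralLinearGroup.map (F₀.subtype : F₀ →+* F) A' : GL ι F) : Matrix ι ι F) = c • (g : Matrix ι ι F) := hA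
    have h2 : (g : Matrix ι ι F) = c⁻¹ • ((Matrix.GeneralLinearGroup.map (F₀.subtype : F₀ →+* F) A' : GL ι F) : Matrix ι ι F) := by
      rw [h1, smul_smul, inv_mul_cancel₀ hc0, one_smul]
    rw [Units.val_mul, h2, mul_smul_comm, ← Units.val_mul, inv_mul_cancel]
    simp

theorem finrank_of_card [Finite F] {r : ℕ} (hcard : Nat.card F = Nat.card F₀ ^ r) : Module.finrank F₀ F = r := by
  classical
  haveI := Fintype.ofFinite F
  haveI := Fintype.ofFinite F₀
  have h1 := Module.card_eq_pow_finrank (K := F₀) (V := F)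
  rw [Nat.card_eq_fintype_card, Nat.card_eq_fintype_card, h1] at hcard
  exact Nat.pow_right_injective Fintype.one_lt_card hcard

/-- overgroups of the rational transvections -/
theorem rat_or_special [Finite F] (hn : 4 ≤ Fintype.card ι) (hr : (Module.finrank F₀ F).Prime) (M : Subgroup (GL ι F))
    (hM : ∀ a θ, θ a = 0 → RT F₀ M a θ 1) (hMS : M ≤ Geo.specialLinear ι F) :
    Geo.specialLinear ι F ≤ M ∨ ∀ g ∈ M, Rat F₀ g := by
  haveI := Subalgebra.isSimpleOrder_of_finrank_prime F₀ F hr
  rcases eq_bot_or_eq_top (coef F₀ M hM hn) with h | h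
  · right
    intro g hg
    refine all_rat F₀ hM hn ?_ hMS hr hg
    intro c hc
    have h1 : c ∈ coef F₀ M hM hn := hc
    rw [h, Algebra.mem_bot] at h1
    obtain ⟨x, hx⟩ := h1
    rw [← hx]; exact x.2
  · left
    exact special_le_of_coef F₀ M hM hn h

theorem subfield_maximal [Finite F] (hn : 4 ≤ Fintype.card ι) (hr : (Module.finrank F₀ F).Prime) (P : GL ι F) :
    Geo.IsMaximalIn (Geo.specialLinear ι F) (Geo.subfieldSubgroup F₀ P ⊓ Geo.specialLinear ι F) := by
  haveI : (Geo.specialLinear ι F).Normal := by unfold Geo.specialLinear; infer_instance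
  apply isMaximalIn_conj
  have hrt : ∀ (a : ι → F₀) (θ : Module.Dual F₀ (ι → F₀)), θ a = 0 →
      RT F₀ (((Matrix.GeneralLinearGroup.map (n := ι) (F₀.subtype : F₀ →+* F)).range ⊔ Geo.scalars ι F) ⊓ Geo.specialLinear ι F) a θ 1 := by
    intro a θ h
    refine ⟨rt_zero_of F₀ a θ h 1, ?_, tv_mem_special _ _ _⟩
    apply (mem_rational_iff F₀ _).mpr
    refine ⟨1, one_ne_zero, fun x => ⟨x + θ x • a, ?_⟩⟩
    rw [one_smul, tv_mulVec, one_smul, ext_emb]
    rfl
  refine ⟨⟨inf_le_right, fun hle => ?_⟩, fun M hHM hMK => ?_⟩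
  · -- an irrational transvection
    obtain ⟨c, hc⟩ : ∃ c : F, c ∉ F₀ := by
      by_contra hcon
      push Not at hcon
      have h1 : Function.Surjective (algebraMap F₀ F) := fun x => ⟨⟨x, hcon x⟩, rfl⟩
      have h2 : Module.finrank F₀ F ≤ 1 := by
        apply finrank_le_one (1 : F)
        intro w
        exact ⟨⟨w, hcon w⟩, by rw [Subfield.smul_def]; simp⟩
      have := hr.two_le
      omega
    obtain ⟨i, j, k, hij, hik, hjk⟩ := Fintype.two_lt_card_iff.mp (show 2 < Fintype.card ι by omega)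
    have h1 := hle (show te hij c ∈ Geo.specialLinear ι F from tv_mem_special _ _ _)
    obtain ⟨d, hd0, hd⟩ := (mem_rational_iff F₀ _).mp h1.1
    apply hc
    obtain ⟨y, hy⟩ := hd (Pi.single i 1)
    obtain ⟨z, hz⟩ := hd (Pi.single j 1)
    rw [te_mulVec, emb_single] at hy hz
    have e1 := congrFun hy i
    have e2 := congrFun hz i
    simp [hij, hij.symm, emb] at e1 e2
    have h3 : c = (z i : F) / (y i : F) := by
      rw [← e1, ← e2]; field_simp
    rw [h3]
    exact F₀.div_mem (z i).2 (y i).2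
  · rcases rat_or_special F₀ hn hr M (fun a θ h => ⟨(hrt a θ h).1, hHM (hrt a θ h).2⟩) hMK with h | h
    · right; exact le_antisymm hMK h
    · left
      refine le_antisymm (fun g hg => ⟨?_, hMK hg⟩) hHM
      exact (mem_rational_iff F₀ g).mpr (h g hg)

end CfsgLib.Subfield29
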