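import Cfsg.Agent.LibSuz12
import Cfsg.Agent.LibSuzM1

set_option autoImplicit false
set_option maxHeartbeats 1000000

/-! Central extensions of the Suzuki groups of order larger than 29120: commutators of lifts of the unipotent subgroup. -/

namespace CfsgLib.SuzM

open Cfsg.Agent.Suz

variable {F : Type*} [Field F] [Fintype F] {O : Set (Projectivization F (Fin 4 → F))} {m : ℕ}

theorem exists_z1 (D : Data F O m) : ∃ z : F, z ≠ 0 ∧ z + 1 ≠ 0 ∧ ((z + 1))⁻¹ + ((z)⁻¹ + 1) ≠ 0 := by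
  have hcard : 8 ≤ Fintype.card F := by rw [D.hF]; exact D.q_ge
  let R : Polynomial F := (Polynomial.X + 1) * (Polynomial.X ^ 2 + Polynomial.X + 1)
  have hR : R ≠ 0 := by
    intro h
    have h1 := congrArg (Polynomial.eval 0) h
    simp [R] at h1
  have hP : Polynomial.X * R ≠ 0 := mul_ne_zero Polynomial.X_ne_zero hR
  have hdeg : (Polynomial.X * R).natDegree < Fintype.card F := by
    refine lt_of_le_of_lt ?_ (lt_of_lt_of_le (by norm_num : 4 < 8) hcard)
    refine Polynomial.natDegree_mul_le_of_le (m := 1) (n := 3) Polynomial.natDegree_X_le ?_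
    refine Polynomial.natDegree_mul_le_of_le (m := 1) (n := 2) ?_ ?_
    · exact Polynomial.natDegree_add_le_of_degree_le Polynomial.natDegree_X_le (by simp)
    · refine Polynomial.natDegree_add_le_of_degree_le (Polynomial.natDegree_add_le_of_degree_le ?_ ?_) (by simp)
      · simp
      · exact Polynomial.natDegree_X_le.trans (by norm_num)
  obtain ⟨z, hz⟩ := Polynomial.exists_eval_ne_zero_of_natDegree_lt_card _ hP (by simpa using hdeg)
  simp only [R, Polynomial.eval_mul, Polynomial.eval_X, Polynomial.eval_add, Polynomial.eval_one, Polynomial.eval_pow] at hz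
  have h0 : z ≠ 0 := left_ne_zero_of_mul hz
  have h1 : z + 1 ≠ 0 := left_ne_zero_of_mul (right_ne_zero_of_mul hz)
  have h2 : z ^ 2 + z + 1 ≠ 0 := right_ne_zero_of_mul (right_ne_zero_of_mul hz)
  refine ⟨z, h0, h1, fun h => h2 ?_⟩
  have h3 := congrArg (fun x => x * (z * (z + 1))) h
  simp only [zero_mul] at h3
  field_simp at h3
  linear_combination h3 - z * D.h2

theorem exists_z2 (D : Data F O m) (hm2 : 2 ≤ m) : ∃ z : F, z ≠ 0 ∧ z + 1 ≠ 0 ∧
    (D.S (z + 1) * (z + 1))⁻¹ + ((D.S z * z)⁻¹ + 1) ≠ 0 := by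
  obtain ⟨k, hk⟩ : ∃ k, k = 2 ^ (m + 1) := ⟨_, rfl⟩
  have hk8 : 8 ≤ k := by
    rw [hk]
    calc 8 = 2 ^ 3 := by norm_num
      _ ≤ _ := Nat.pow_le_pow_right (by norm_num) (by omega)
  have hcard : 2 * Fintype.card F = k * k := by
    rw [D.hF, hk, ← pow_succ', ← pow_add]; congr 1; omega
  have hcard2 : 2 * k + 4 < Fintype.card F := by nlinarith
  let Q : Polynomial F := Polynomial.X ^ (k + 1) + (Polynomial.X ^ k + 1) * (Polynomial.X + 1) +
    Polynomial.X ^ (k + 1) * ((Polynomial.X ^ k + 1) * (Polynomial.X + 1))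
  let R : Polynomial F := (Polynomial.X + 1) * Q
  have hR : R ≠ 0 := by
    intro h
    have h1 := congrArg (Polynomial.eval 0) h
    have hk0 : k ≠ 0 := by omega
    simp [R, Q, hk0] at h1
  have hP : Polynomial.X * R ≠ 0 := mul_ne_zero Polynomial.X_ne_zero hR
  have hX1 : (Polynomial.X + 1 : Polynomial F).natDegree ≤ 1 :=
    Polynomial.natDegree_add_le_of_degree_le Polynomial.natDegree_X_le (by simp)
  have hXk : (Polynomial.X ^ k + 1 : Polynomial F).natDegree ≤ k :=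
    Polynomial.natDegree_add_le_of_degree_le (by simp) (by simp)
  have hXX : ((Polynomial.X ^ k + 1) * (Polynomial.X + 1) : Polynomial F).natDegree ≤ k + 1 :=
    Polynomial.natDegree_mul_le_of_le hXk hX1
  have hdeg : (Polynomial.X * R).natDegree < Fintype.card F := by
    refine lt_of_le_of_lt ?_ hcard2
    have h1 : 2 * k + 4 = 1 + (1 + (2 * k + 2)) := by ring
    rw [h1]
    refine Polynomial.natDegree_mul_le_of_le Polynomial.natDegree_X_le ?_
    refine Polynomial.natDegree_mul_le_of_le hX1 ?_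
    refine Polynomial.natDegree_add_le_of_degree_le (Polynomial.natDegree_add_le_of_degree_le ?_ ?_) ?_
    · rw [Polynomial.natDegree_X_pow]; omega
    · exact hXX.trans (by omega)
    · have h2 : 2 * k + 2 = (k + 1) + (k + 1) := by ring
      rw [h2]
      exact Polynomial.natDegree_mul_le_of_le (by rw [Polynomial.natDegree_X_pow]) hXX
  obtain ⟨z, hz⟩ := Polynomial.exists_eval_ne_zero_of_natDegree_lt_card _ hP (by simpa using hdeg)
  simp only [R, Q, Polynomial.eval_mul, Polynomial.eval_X, Polynomial.eval_add, Polynomial.eval_one, Polynomial.eval_pow] at hz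
  have h0 : z ≠ 0 := left_ne_zero_of_mul hz
  have h1 : z + 1 ≠ 0 := left_ne_zero_of_mul (right_ne_zero_of_mul hz)
  have h2 := right_ne_zero_of_mul (right_ne_zero_of_mul hz)
  have hS0 : D.S z ≠ 0 := fun h => h0 ((map_eq_zero D.S).1 h)
  have hS1 : D.S (z + 1) ≠ 0 := fun h => h1 ((map_eq_zero D.S).1 h)
  have hSz : D.S z = z ^ k := by rw [D.hSp, hk]
  refine ⟨z, h0, h1, fun h => h2 ?_⟩
  have h3 := congrArg (fun x => x * ((D.S z * z) * (D.S (z + 1) * (z + 1)))) h
  simp only [zero_mul] at h3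
  field_simp at h3
  rw [map_add, map_one, hSz] at h3
  have e : z ^ (k + 1) = z ^ k * z := pow_succ z k
  rw [e]
  linear_combination h3

variable {Γ : Type*} [Group Γ] {σ : Γ →* Gp O} (hσ : Function.Surjective σ) (hc : σ.ker ≤ Subgroup.center Γ)
include hσ hc

theorem cm_Z (D : Data F O m) (x y : F) : cm hσ (D.u 0 x) (D.u 0 y) = 1 := by
  obtain ⟨z, hz0, hz1, hz⟩ := exists_z1 D
  have hcomm : ∀ x y, D.u 0 x * D.u 0 y = D.u 0 y * D.u 0 x := by
    intro x y
    rw [D.u_mul, D.u_mul]; congr 1; simp only [map_zero, zero_mul]; ring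
  have hadd : ∀ x y, D.u 0 (x + y) = D.u 0 x * D.u 0 y := by
    intro x y
    rw [D.u_mul]; simp
  refine bi_one D.h2 (fun x => x) rfl (fun s hs => hs) hz0 hz1 hz (fun x y => cm hσ (D.u 0 x) (D.u 0 y)) ?_ ?_ ?_ x y
  · intro x x' y
    rw [add_comm x x', hadd, cm_mul_left hσ hc]
    intro w _
    exact cm_central hσ hc (hcomm _ _) w
  · intro x y y'
    rw [hadd, cm_mul_right hσ hc]
    intro w _
    exact cm_central hσ hc (hcomm _ _) w
  · intro s x y hs
    obtain ⟨t, ht⟩ := D.lam2_surj hs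
    obtain ⟨w, hw⟩ := hσ (D.h t)
    have h1 := cm_conj hσ hc (g := D.u 0 x) (h := D.u 0 y) hw
    rw [D.norm_h, D.norm_h, mul_zero, ht, cm_central hσ hc (hcomm x y), mul_inv_cancel_right] at h1
    exact h1.symm

theorem cm_ZU (D : Data F O m) (hm2 : 2 ≤ m) (y x : F) : cm hσ (D.u 0 y) (D.u x 0) = 1 := by
  obtain ⟨z, hz0, hz1, hz⟩ := exists_z2 D hm2
  have hcomm : ∀ a b y, D.u 0 y * D.u a b = D.u a b * D.u 0 y := by
    intro a b y
    rw [D.u_mul, D.u_mul]; congr 1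
    · ring
    · simp only [map_zero, zero_mul, mul_zero]; ring
  have hadd : ∀ x y, D.u 0 (x + y) = D.u 0 x * D.u 0 y := by
    intro x y
    rw [D.u_mul]; simp
  refine bi_one D.h2 (fun x => D.S x * x) (by simp) (fun s hs => mul_ne_zero (fun h => hs ((map_eq_zero D.S).1 h)) hs)
    hz0 hz1 hz (fun x y => cm hσ (D.u 0 y) (D.u x 0)) ?_ ?_ ?_ x y
  · intro x x' y
    have h1 : D.u x 0 * D.u x' 0 = D.u (x + x') 0 * D.u 0 (D.S x * x') := by
      rw [D.u_mul, D.u_mul]; simp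
    have h2 : cm hσ (D.u 0 y) (D.u x 0 * D.u x' 0) = cm hσ (D.u 0 y) (D.u (x + x') 0 * D.u 0 (D.S x * x')) := by rw [h1]
    rw [cm_mul_right hσ hc (fun w _ => cm_central hσ hc (hcomm _ _ _) w),
      cm_mul_right hσ hc (fun w _ => cm_central hσ hc (hcomm _ _ _) w), cm_Z hσ hc D, mul_one] at h2
    exact h2.symm
  · intro x y y'
    rw [add_comm y y', hadd, cm_mul_left hσ hc (fun w _ => cm_central hσ hc (hcomm _ _ _) w)]
  · intro s x y hs
    obtain ⟨t, ht⟩ := D.S_surj s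
    have ht0 : t ≠ 0 := by
      rintro rfl
      rw [map_zero] at ht
      exact hs ht.symm
    obtain ⟨w, hw⟩ := hσ (D.h (Units.mk0 t ht0))
    have h1 := cm_conj hσ hc (g := D.u 0 y) (h := D.u x 0) hw
    rw [D.norm_h, D.norm_h, mul_zero, mul_zero, Units.val_mk0, ht, cm_central hσ hc (hcomm _ _ _), mul_inv_cancel_right] at h1
    have h2 : t ^ 2 * s = D.S s * s := by rw [← ht, D.hS]
    rw [h2] at h1
    exact h1.symm

theorem cm_Zu (D : Data F O m) (hm2 : 2 ≤ m) (y a b : F) : cm hσ (D.u 0 y) (D.u a b) = 1 := by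
  have hcomm : ∀ a b y, D.u 0 y * D.u a b = D.u a b * D.u 0 y := by
    intro a b y
    rw [D.u_mul, D.u_mul]; congr 1
    · ring
    · simp only [map_zero, zero_mul, mul_zero]; ring
  have h1 : D.u a b = D.u a 0 * D.u 0 b := by rw [D.u_mul]; simp
  rw [h1, cm_mul_right hσ hc (fun w _ => cm_central hσ hc (hcomm _ _ _) w), cm_ZU hσ hc D hm2, cm_Z hσ hc D, mul_one]

/-- lifts of central elements commute with lifts of unipotent elements -/
theorem comm_Zu (D : Data F O m) (hm2 : 2 ≤ m) {y a b : F} {v w : Γ} (hv : σ v = D.u 0 y) (hw : σ w = D.u a b) :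
    v * w = w * v := comm_of_cm hσ hc (cm_Zu hσ hc D hm2 y a b) hv hw

/-- canonical lifts of the central elements -/
theorem exists_z0 (D : Data F O m) (hm2 : 2 ≤ m) : ∃ z0 : F → Γ, (∀ x, σ (z0 x) = D.u 0 x) ∧
    (∀ x y, z0 (x + y) = z0 x * z0 y) ∧ (∀ (t : Fˣ) (w : Γ) (x : F), σ w = D.h t → w * z0 x * w⁻¹ = z0 ((t : F) ^ 2 * D.S t * x)) := by
  obtain ⟨t, ht⟩ := D.exists_unit
  obtain ⟨μ, hμ⟩ : ∃ μ, μ = (t : F) ^ 2 * D.S t := ⟨_, rfl⟩
  have hμ1 : μ + 1 ≠ 0 := D.add_one_ne (by rw [hμ]; exact D.tSt_ne ht)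
  have hadd : ∀ x y, D.u 0 (x + y) = D.u 0 x * D.u 0 y := by
    intro x y
    rw [D.u_mul]; simp
  have hinv : ∀ x, (D.u 0 x)⁻¹ = D.u 0 x := by intro x; rw [D.u_inv]; simp
  have hσz : ∀ x, σ (cm hσ (D.h t) (D.u 0 x)) = D.u 0 ((μ + 1) * x) := by
    intro x
    rw [map_cm, D.norm_h, hinv, D.u_mul, ← hμ]
    simp only [mul_zero, add_zero, map_zero]
    congr 1; ring
  refine ⟨fun x => cm hσ (D.h t) (D.u 0 ((μ + 1)⁻¹ * x)), ?_, ?_, ?_⟩
  · intro x
    beta_reduce
    rw [hσz, ← mul_assoc, mul_inv_cancel₀ hμ1, one_mul]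
  · intro x y
    beta_reduce
    rw [mul_add, hadd, cm_mul_right hσ hc]
    intro w hw
    exact (comm_Zu hσ hc D hm2 hw (hσz _))
  · intro s w x hw
    beta_reduce
    rw [cm_conj hσ hc hw, D.norm_h, mul_zero]
    have h1 : D.h s * D.h t * (D.h s)⁻¹ = D.h t := by
      rw [D.h_mul, D.h_inv, D.h_mul, mul_comm s t, mul_inv_cancel_right]
    rw [h1]
    congr 2; ring

/-- commutators of unipotent lifts -/
theorem cm_U (D : Data F O m) (hm2 : 2 ≤ m) {z0 : F → Γ} (h1 : ∀ x, σ (z0 x) = D.u 0 x)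
    (h2 : ∀ x y, z0 (x + y) = z0 x * z0 y)
    (h3 : ∀ (t : Fˣ) (w : Γ) (x : F), σ w = D.h t → w * z0 x * w⁻¹ = z0 ((t : F) ^ 2 * D.S t * x)) (x y : F) :
    cm hσ (D.u x 0) (D.u y 0) = z0 (D.S x * y + D.S y * x) := by
  obtain ⟨z, hz0, hz1, hz⟩ := exists_z1 D
  have hσc : ∀ x y, σ (cm hσ (D.u x 0) (D.u y 0)) = D.u 0 (D.S x * y + D.S y * x) := by
    intro x y
    rw [map_cm, D.u_commutator]
  have hU : ∀ (x y a b : F) (w : Γ), σ w = D.u a b → w * cm hσ (D.u x 0) (D.u y 0) = cm hσ (D.u x 0) (D.u y 0) * w :=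
    fun x y a b w hw => (comm_Zu hσ hc D hm2 (hσc x y) hw).symm
  have hz00 : z0 0 = 1 := by
    have := h2 0 0
    rw [add_zero] at this
    exact mul_eq_left.1 this.symm
  have hzinv : ∀ x, (z0 x)⁻¹ = z0 x := by
    intro x
    rw [inv_eq_iff_mul_eq_one, ← h2]
    have : x + x = 0 := D.add_self x
    rw [this, hz00]
  have hker : ∀ x y, cm hσ (D.u x 0) (D.u y 0) * z0 (D.S x * y + D.S y * x) ∈ Subgroup.center Γ := by
    intro x y
    apply hc
    rw [MonoidHom.mem_ker, map_mul, hσc, h1, D.u_mul]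
    simp only [map_zero, zero_mul, add_zero, D.add_self, D.u_zero]
  have hcomm2 : ∀ x y x' y', cm hσ (D.u x 0) (D.u y 0) * z0 x' * (cm hσ (D.u x 0) (D.u y 0))⁻¹ = z0 x' ∧
      z0 x' * z0 y' = z0 y' * z0 x' := by
    intro x y x' y'
    refine ⟨?_, by rw [← h2, add_comm, h2]⟩
    have := comm_Zu hσ hc D hm2 (h1 x') (hσc x y)
    rw [← this, mul_inv_cancel_right]
  have key : (fun x y => cm hσ (D.u x 0) (D.u y 0) * z0 (D.S x * y + D.S y * x)) x y = 1 := by
    refine bi_one D.h2 (fun x => x) rfl (fun s hs => hs) hz0 hz1 hz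
      (fun x y => cm hσ (D.u x 0) (D.u y 0) * z0 (D.S x * y + D.S y * x)) ?_ ?_ ?_ x y
    · intro x x' y
      have e1 : D.u x 0 * D.u x' 0 = D.u (x + x') 0 * D.u 0 (D.S x * x') := by
        rw [D.u_mul, D.u_mul]; simp
      have e2 : cm hσ (D.u x 0 * D.u x' 0) (D.u y 0) = cm hσ (D.u (x + x') 0 * D.u 0 (D.S x * x')) (D.u y 0) := by rw [e1]
      rw [cm_mul_left hσ hc (fun w hw => hU _ _ _ _ w hw), cm_mul_left hσ hc (fun w hw => by
        rw [cm_Zu hσ hc D hm2]; group), cm_Zu hσ hc D hm2, one_mul] at e2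
      have e3 : z0 (D.S (x + x') * y + D.S y * (x + x')) = z0 (D.S x * y + D.S y * x) * z0 (D.S x' * y + D.S y * x') := by
        rw [← h2]; congr 1; rw [map_add]; ring
      show cm hσ (D.u (x + x') 0) (D.u y 0) * z0 (D.S (x + x') * y + D.S y * (x + x')) = _
      rw [← e2, e3]
      have e4 := Subgroup.mem_center_iff.1 (hker x y) (cm hσ (D.u x' 0) (D.u y 0))
      calc cm hσ (D.u x' 0) (D.u y 0) * cm hσ (D.u x 0) (D.u y 0) *
            (z0 (D.S x * y + D.S y * x) * z0 (D.S x' * y + D.S y * x'))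
          = (cm hσ (D.u x' 0) (D.u y 0) * (cm hσ (D.u x 0) (D.u y 0) * z0 (D.S x * y + D.S y * x))) *
            z0 (D.S x' * y + D.S y * x') := by group
        _ = _ := by rw [e4]; group
    · intro x y y'
      have e1 : D.u y 0 * D.u y' 0 = D.u (y + y') 0 * D.u 0 (D.S y * y') := by
        rw [D.u_mul, D.u_mul]; simp
      have e2 : cm hσ (D.u x 0) (D.u y 0 * D.u y' 0) = cm hσ (D.u x 0) (D.u (y + y') 0 * D.u 0 (D.S y * y')) := by rw [e1]
      have e5 : cm hσ (D.u x 0) (D.u 0 (D.S y * y')) = 1 := by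
        obtain ⟨v, hv⟩ := hσ (D.u x 0)
        obtain ⟨w, hw⟩ := hσ (D.u 0 (D.S y * y'))
        rw [← cm_eq hσ hc hv hw, ← comm_Zu hσ hc D hm2 hw hv]; group
      rw [cm_mul_right hσ hc (fun w hw => hU _ _ _ _ w hw), cm_mul_right hσ hc (fun w hw => by
        rw [e5]; group), e5, mul_one] at e2
      have e3 : z0 (D.S x * (y + y') + D.S (y + y') * x) = z0 (D.S x * y + D.S y * x) * z0 (D.S x * y' + D.S y' * x) := by
        rw [← h2]; congr 1; rw [map_add]; ring
      show cm hσ (D.u x 0) (D.u (y + y') 0) * z0 (D.S x * (y + y') + D.S (y + y') * x) = _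
      rw [← e2, e3]
      have e4 := Subgroup.mem_center_iff.1 (hker x y') (z0 (D.S x * y + D.S y * x))
      have e6 := (hcomm2 0 0 (D.S x * y + D.S y * x) (D.S x * y' + D.S y' * x)).2
      calc cm hσ (D.u x 0) (D.u y 0) * cm hσ (D.u x 0) (D.u y' 0) *
            (z0 (D.S x * y + D.S y * x) * z0 (D.S x * y' + D.S y' * x))
          = cm hσ (D.u x 0) (D.u y 0) * ((cm hσ (D.u x 0) (D.u y' 0) * z0 (D.S x * y' + D.S y' * x)) *
              z0 (D.S x * y + D.S y * x)) := by rw [e6]; group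
        _ = cm hσ (D.u x 0) (D.u y 0) * (z0 (D.S x * y + D.S y * x) * (cm hσ (D.u x 0) (D.u y' 0) * z0 (D.S x * y' + D.S y' * x))) := by
              rw [e4]
        _ = _ := by group
    · intro s x y hs
      obtain ⟨t, ht⟩ := D.S_surj s
      have ht0 : t ≠ 0 := by
        rintro rfl
        rw [map_zero] at ht
        exact hs ht.symm
      obtain ⟨w, hw⟩ := hσ (D.h (Units.mk0 t ht0))
      have e1 := cm_conj hσ hc (g := D.u x 0) (h := D.u y 0) hw
      have e2 := h3 _ w (D.S x * y + D.S y * x) hw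
      rw [D.norm_h, D.norm_h, mul_zero, Units.val_mk0, ht] at e1
      rw [Units.val_mk0, ht] at e2
      have e3 : t ^ 2 * s * (D.S x * y + D.S y * x) = D.S (s * x) * (s * y) + D.S (s * y) * (s * x) := by
        rw [map_mul, map_mul, ← ht, D.hS]; ring
      rw [e3] at e2
      show cm hσ (D.u (s * x) 0) (D.u (s * y) 0) * z0 (D.S (s * x) * (s * y) + D.S (s * y) * (s * x)) = _
      rw [← e1, ← e2]
      have e4 := Subgroup.mem_center_iff.1 (hker x y) w
      calc w * cm hσ (D.u x 0) (D.u y 0) * w⁻¹ * (w * z0 (D.S x * y + D.S y * x) * w⁻¹)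
          = w * (cm hσ (D.u x 0) (D.u y 0) * z0 (D.S x * y + D.S y * x)) * w⁻¹ := by group
        _ = _ := by rw [e4, mul_inv_cancel_right]
  have key' : cm hσ (D.u x 0) (D.u y 0) * z0 (D.S x * y + D.S y * x) = 1 := key
  rw [← hzinv]
  exact eq_inv_of_mul_eq_one_left key'

/-- commutators of arbitrary unipotent lifts -/
theorem cm_UU (D : Data F O m) (hm2 : 2 ≤ m) {z0 : F → Γ} (h1 : ∀ x, σ (z0 x) = D.u 0 x)
    (h2 : ∀ x y, z0 (x + y) = z0 x * z0 y)
    (h3 : ∀ (t : Fˣ) (w : Γ) (x : F), σ w = D.h t → w * z0 x * w⁻¹ = z0 ((t : F) ^ 2 * D.S t * x)) (x x' y y' : F) :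
    cm hσ (D.u x x') (D.u y y') = z0 (D.S x * y + D.S y * x) := by
  have e1 : D.u x x' = D.u x 0 * D.u 0 x' := by rw [D.u_mul]; simp
  have e2 : D.u y y' = D.u y 0 * D.u 0 y' := by rw [D.u_mul]; simp
  have e5 : ∀ a b c, cm hσ (D.u a b) (D.u 0 c) = 1 := by
    intro a b c
    obtain ⟨v, hv⟩ := hσ (D.u a b)
    obtain ⟨w, hw⟩ := hσ (D.u 0 c)
    rw [← cm_eq hσ hc hv hw, ← comm_Zu hσ hc D hm2 hw hv]; group
  rw [e1, cm_mul_left hσ hc (fun w hw => by rw [cm_Zu hσ hc D hm2]; group), cm_Zu hσ hc D hm2, one_mul, e2,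
    cm_mul_right hσ hc (fun w hw => by rw [e5]; group), e5, mul_one, cm_U hσ hc D hm2 h1 h2 h3]

end CfsgLib.SuzM
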