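import Cfsg.Agent.LibSuzM2
import Cfsg.Agent.LibSchur2

set_option autoImplicit false
set_option maxHeartbeats 1000000

/-! The Schur multiplier of the Suzuki groups of order larger than 29120 is trivial. -/

namespace CfsgLib.SuzM

open Cfsg.Agent.Suz

theorem mem_sylow_of_central {Γ : Type*} [Group Γ] [Finite Γ] {p : ℕ} [Fact p.Prime] (P : Sylow p Γ) {a : Γ}
    (ha : a ∈ Subgroup.center Γ) (hap : orderOf a = p) : a ∈ (P : Subgroup Γ) := by
  have h1 : IsPGroup p (Subgroup.zpowers a) := IsPGroup.of_card (n := 1) (by rw [Nat.card_zpowers, hap, pow_one])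
  obtain ⟨Q, hQ⟩ := h1.exists_le_sylow
  obtain ⟨g, hg⟩ := MulAction.exists_smul_eq Γ Q P
  have h2 : g * a * g⁻¹ ∈ (P : Subgroup Γ) := by
    rw [← hg]
    exact Subgroup.smul_mem_pointwise_smul a (MulAut.conj g) (Q : Subgroup Γ) (hQ (Subgroup.mem_zpowers a))
  rwa [Subgroup.mem_center_iff.1 ha g, mul_inv_cancel_right] at h2

variable {F : Type*} [Field F] [Fintype F] {O : Set (Projectivization F (Fin 4 → F))} {m : ℕ}
  {Γ : Type*} [Group Γ] [Finite Γ] {σ : Γ →* Gp O}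

theorem ker_eq_bot (D : Data F O m) (hm2 : 2 ≤ m) (hst : Cfsg.IsStemExtension σ)
    (hcyc : ∀ (p : ℕ) [Fact p.Prime], p ≠ 2 → ∀ P : Sylow p (Gp O), IsCyclic P) : σ.ker = ⊥ := by
  obtain ⟨hσ, hc, hcm⟩ := hst
  rw [eq_bot_iff]
  intro b hb
  rw [Subgroup.mem_bot]
  by_contra hb1
  have hord : orderOf b ≠ 1 := fun h => hb1 (orderOf_eq_one_iff.1 h)
  obtain ⟨p, hp, hpd⟩ := Nat.exists_prime_and_dvd hord
  haveI : Fact p.Prime := ⟨hp⟩
  obtain ⟨a, ha⟩ : ∃ a, a = b ^ (orderOf b / p) := ⟨_, rfl⟩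
  have hap : orderOf a = p := by rw [ha]; exact orderOf_pow_orderOf_div (orderOf_pos b).ne' hpd
  have hak : a ∈ σ.ker := by rw [ha]; exact σ.ker.pow_mem hb _
  have ha1 : a ≠ 1 := by
    intro h
    rw [h, orderOf_one] at hap
    exact hp.one_lt.ne hap
  apply ha1
  by_cases hp2 : p = 2
  · subst hp2
    obtain ⟨z0, h1, h2, h3⟩ := exists_z0 hσ hc D hm2
    -- a Sylow subgroup over the unipotent subgroup
    obtain ⟨Q⟩ : Nonempty (Sylow 2 Γ) := inferInstance
    have hQm : IsPGroup 2 ((Q : Subgroup Γ).map σ) := Q.2.map σ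
    obtain ⟨R, hR⟩ := hQm.exists_le_sylow
    obtain ⟨g, hg⟩ := D.sylow_conj R
    obtain ⟨w, hw⟩ := hσ g
    have hP : ∀ x ∈ ((w⁻¹ • Q : Sylow 2 Γ) : Subgroup Γ), ∃ a b, σ x = D.u a b := by
      intro x hx
      rw [Sylow.coe_subgroup_smul, Subgroup.mem_pointwise_smul_iff_inv_smul_mem, ← map_inv, inv_inv] at hx
      have h4 : w * x * w⁻¹ ∈ (Q : Subgroup Γ) := hx
      have h5 : σ (w * x * w⁻¹) ∈ (R : Subgroup (Gp O)) := hR ⟨_, h4, rfl⟩
      rw [hg, D.mem_conj_Us] at h5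
      obtain ⟨c, d, h6⟩ := h5
      rw [map_mul, map_mul, map_inv, hw] at h6
      exact ⟨c, d, mul_left_cancel (mul_right_cancel h6)⟩
    have hz00 : z0 0 = 1 := by
      have := h2 0 0
      rw [add_zero] at this
      exact mul_eq_left.1 this.symm
    let Z : Subgroup Γ :=
      { carrier := {x | ∃ y, x = z0 y}
        mul_mem' := by
          rintro _ _ ⟨x, rfl⟩ ⟨y, rfl⟩
          exact ⟨x + y, (h2 x y).symm⟩
        one_mem' := ⟨0, hz00.symm⟩
        inv_mem' := by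
          rintro _ ⟨x, rfl⟩
          refine ⟨x, ?_⟩
          rw [inv_eq_iff_mul_eq_one, ← h2, D.add_self, hz00] }
    have hcomm : ⁅((w⁻¹ • Q : Sylow 2 Γ) : Subgroup Γ), ((w⁻¹ • Q : Sylow 2 Γ) : Subgroup Γ)⁆ ≤ Z := by
      rw [Subgroup.commutator_le]
      intro x hx y hy
      obtain ⟨c, d, hcd⟩ := hP x hx
      obtain ⟨e, f, hef⟩ := hP y hy
      rw [commutatorElement_def, cm_eq hσ hc hcd hef, cm_UU hσ hc D hm2 h1 h2 h3]
      exact ⟨_, rfl⟩
    refine eq_one_of_transfer (w⁻¹ • Q) (hc hak) (hcm hak) (mem_sylow_of_central _ (hc hak) hap) ?_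
    intro k hk
    obtain ⟨y, hy⟩ := hcomm hk
    have h4 : σ (a ^ k) = 1 := (MonoidHom.mem_ker).1 (σ.ker.pow_mem hak k)
    rw [hy, h1] at h4
    obtain ⟨-, h5⟩ := D.u_eq_one h4
    rw [hy, h5, hz00]
  · obtain ⟨P⟩ : Nonempty (Sylow p Γ) := inferInstance
    refine eq_one_of_transfer P (hc hak) (hcm hak) (mem_sylow_of_central _ (hc hak) hap) ?_
    intro k hk
    -- the Sylow subgroup is abelian
    obtain ⟨R, hR⟩ := (P.2.map σ).exists_le_sylow
    haveI := hcyc p hp2 R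
    haveI : IsCyclic ((P : Subgroup Γ).map σ) := Subgroup.isCyclic_of_le hR
    have hab : ∀ x y : (P : Subgroup Γ), x * y = y * x := by
      refine commutative_of_cyclic_center_quotient (σ.subgroupMap (P : Subgroup Γ)) ?_
      intro x hx
      rw [Subgroup.mem_center_iff]
      intro y
      apply Subtype.ext
      have h1 : (x : Γ) ∈ σ.ker := by
        have := congrArg Subtype.val (MonoidHom.mem_ker.1 hx)
        exact this
      exact Subgroup.mem_center_iff.1 (hc h1) y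
    have h2 : ⁅(P : Subgroup Γ), (P : Subgroup Γ)⁆ = ⊥ := by
      rw [eq_bot_iff, Subgroup.commutator_le]
      intro x hx y hy
      have := congrArg Subtype.val (hab ⟨x, hx⟩ ⟨y, hy⟩)
      change x * y = y * x at this
      rw [Subgroup.mem_bot, commutatorElement_def, this]; group
    rw [h2] at hk
    exact hk

end CfsgLib.SuzM
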