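import Cfsg.Agent.LibSympTv29b

/-! Perps of non-degenerate subspaces for a symplectic form. -/

namespace CfsgLib.SympTv29

open scoped MatrixGroups Matrix
open Cfsg CfsgLib.MaxTv29

variable {ι : Type} [Fintype ι] [DecidableEq ι] {F : Type*} [Field F]
variable {f : (ι → F) → (ι → F) → F}

/-- perp of a subspace -/
def perp (hf : Geo.IsSymplecticForm f) (W : Submodule F (ι → F)) : Submodule F (ι → F) where
  carrier := {x | ∀ w ∈ W, f w x = 0}
  add_mem' := by
    intro a b ha hb w hw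
    rw [hf.bilinear.add_right, ha w hw, hb w hw, add_zero]
  zero_mem' := fun w _ => zero_right hf w
  smul_mem' := by
    intro c a ha w hw
    rw [hf.bilinear.smul_right, ha w hw, mul_zero]

theorem mem_perp (hf : Geo.IsSymplecticForm f) (W : Submodule F (ι → F)) (x : ι → F) : x ∈ perp hf W ↔ ∀ w ∈ W, f w x = 0 := Iff.rfl

theorem le_of_perp_perp (hf : Geo.IsSymplecticForm f) (W : Submodule F (ι → F)) (x : ι → F) (h : ∀ y ∈ perp hf W, f x y = 0) : x ∈ W := by
  by_contra hx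
  obtain ⟨z, hz1, hz2⟩ := exists_perp hf W x hx
  exact one_ne_zero (hz1.symm.trans (h z hz2))

theorem exists_proj (hf : Geo.IsSymplecticForm f) (W : Submodule F (ι → F)) (hW : Geo.IsNondegenerateOn f W) (x : ι → F) :
    ∃ w0 ∈ W, ∀ w ∈ W, f w x = f w w0 := by
  let R : W →ₗ[F] Module.Dual F W :=
    { toFun := fun z => (fd hf (z : ι → F)).domRestrict W
      map_add' := fun a b => LinearMap.ext fun x => hf.bilinear.add_right _ _ _
      map_smul' := fun c a => LinearMap.ext fun x => hf.bilinear.smul_right _ _ _ }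
  have hinj : Function.Injective R := by
    rw [← LinearMap.ker_eq_bot, eq_bot_iff]
    intro z hz
    rw [Submodule.mem_bot]
    by_contra hz0
    obtain ⟨⟨x, hxW, hx⟩, _⟩ := hW z z.2 (fun h => hz0 (Subtype.ext h))
    have : R z = 0 := hz
    exact hx (congrArg (fun ψ : Module.Dual F W => ψ ⟨x, hxW⟩) this)
  have hsurj : Function.Surjective R :=
    (LinearMap.injective_iff_surjective_of_finrank_eq_finrank (Subspace.dual_finrank_eq).symm).mp hinj
  obtain ⟨z, hz⟩ := hsurj ((fd hf x).domRestrict W)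
  exact ⟨z, z.2, fun w hw => (congrArg (fun ψ : Module.Dual F W => ψ ⟨w, hw⟩) hz).symm⟩

theorem exists_decomp (hf : Geo.IsSymplecticForm f) (W : Submodule F (ι → F)) (hW : Geo.IsNondegenerateOn f W) (x : ι → F) :
    ∃ a ∈ W, ∃ b ∈ perp hf W, x = a + b := by
  obtain ⟨a, haW, ha⟩ := exists_proj hf W hW x
  refine ⟨a, haW, x - a, ?_, by abel⟩
  intro w hw
  rw [sub_right hf, ha w hw, sub_self]

theorem inf_perp (hf : Geo.IsSymplecticForm f) (W : Submodule F (ι → F)) (hW : Geo.IsNondegenerateOn f W) : W ⊓ perp hf W = ⊥ := by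
  rw [eq_bot_iff]
  rintro x ⟨hx1, hx2⟩
  rw [Submodule.mem_bot]
  by_contra hx0
  obtain ⟨⟨y, hyW, hy⟩, _⟩ := hW x hx1 hx0
  exact hy (hx2 y hyW)

theorem sup_perp (hf : Geo.IsSymplecticForm f) (W : Submodule F (ι → F)) (hW : Geo.IsNondegenerateOn f W) : W ⊔ perp hf W = ⊤ := by
  rw [eq_top_iff]
  intro x _
  obtain ⟨a, ha, b, hb, rfl⟩ := exists_decomp hf W hW x
  exact Submodule.add_mem_sup ha hb

theorem finrank_perp (hf : Geo.IsSymplecticForm f) (W : Submodule F (ι → F)) (hW : Geo.IsNondegenerateOn f W) :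
    Module.finrank F W + Module.finrank F (perp hf W) = Module.finrank F (ι → F) := by
  have := Submodule.finrank_sup_add_finrank_inf_eq W (perp hf W)
  rw [sup_perp hf W hW, inf_perp hf W hW, finrank_top, finrank_bot, add_zero] at this
  exact this.symm

theorem perp_nondeg (hf : Geo.IsSymplecticForm f) (W : Submodule F (ι → F)) (hW : Geo.IsNondegenerateOn f W) :
    Geo.IsNondegenerateOn f (perp hf W) := by
  intro y hy hy0
  obtain ⟨⟨x, hx⟩, _⟩ := hf.nondegenerate y hy0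
  obtain ⟨a, ha, b, hb, rfl⟩ := exists_decomp hf W hW x
  have h1 : f b y ≠ 0 := by
    intro h
    rw [hf.bilinear.add_left, h, add_zero] at hx
    exact hx (hy a ha)
  exact ⟨⟨b, hb, h1⟩, ⟨b, hb, swap_ne hf h1⟩⟩

theorem exists_move_in (hf : Geo.IsSymplecticForm f) (U : Submodule F (ι → F)) (hU : Geo.IsNondegenerateOn f U)
    (M : Subgroup (GL ι F)) (hM : ∀ v ∈ U, SFull hf M v) {a c : ι → F} (ha : a ∈ U) (hc : c ∈ U) (ha0 : a ≠ 0) (hc0 : c ≠ 0) :
    ∃ h ∈ M, h ∈ iso f ∧ (h : Matrix ι ι F) *ᵥ a = c ∧ ∀ y, (∀ u ∈ U, f u y = 0) → (h : Matrix ι ι F) *ᵥ y = y := by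
  obtain ⟨w, hwU, h1, h2⟩ := exists_avoid U (fd hf a) (fd hf c) (by
    obtain ⟨⟨x, hxU, hx⟩, _⟩ := hU a ha ha0
    exact ⟨x, hxU, hx⟩) (by
    obtain ⟨⟨x, hxU, hx⟩, _⟩ := hU c hc hc0
    exact ⟨x, hxU, hx⟩)
  rw [fd_apply] at h1 h2
  refine ⟨st hf (c - w) (f w c)⁻¹ * st hf (w - a) (f a w)⁻¹,
    M.mul_mem (hM _ (U.sub_mem hc hwU) _) (hM _ (U.sub_mem hwU ha) _),
    (iso f).mul_mem (st_mem_iso hf _ _) (st_mem_iso hf _ _), ?_, ?_⟩
  · rw [Units.val_mul, ← Matrix.mulVec_mulVec, st_move hf a w (swap_ne hf h1), st_move hf w c h2]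
  · intro y hy
    rw [Units.val_mul, ← Matrix.mulVec_mulVec, st_fix hf (w - a) _ y, st_fix]
    · rw [sub_right hf, swap_eq hf (hy c hc), swap_eq hf (hy w hwU), sub_self]
    · rw [sub_right hf, swap_eq hf (hy w hwU), swap_eq hf (hy a ha), sub_self]

/-- a subspace contained in the union of two subspaces is contained in one of them -/
theorem le_or_le (X A B : Submodule F (ι → F)) (h : ∀ x ∈ X, x ∈ A ∨ x ∈ B) : X ≤ A ∨ X ≤ B := by
  by_contra hcon
  push Not at hcon
  obtain ⟨h1, h2⟩ := hcon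
  obtain ⟨x, hx, hxA⟩ := Set.not_subset.mp h1
  obtain ⟨y, hy, hyB⟩ := Set.not_subset.mp h2
  have hxB : x ∈ B := (h x hx).resolve_left hxA
  have hyA : y ∈ A := (h y hy).resolve_right hyB
  rcases h (x + y) (X.add_mem hx hy) with h3 | h3
  · exact hxA ((A.add_mem_iff_left hyA).mp h3)
  · exact hyB ((B.add_mem_iff_right hxB).mp h3)

end CfsgLib.SympTv29
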