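import Cfsg.Agent.LibSympTv29c

/-! More on perps for a symplectic form. -/

namespace CfsgLib.SympTv29

open scoped MatrixGroups Matrix
open Cfsg CfsgLib.MaxTv29

variable {ι : Type} [Fintype ι] [DecidableEq ι] {F : Type*} [Field F]
variable {f : (ι → F) → (ι → F) → F}

theorem finrank_perp_ge (hf : Geo.IsSymplecticForm f) (W : Submodule F (ι → F)) :
    Module.finrank F (ι → F) ≤ Module.finrank F W + Module.finrank F (perp hf W) := by
  let R : (ι → F) →ₗ[F] Module.Dual F W :=
    { toFun := fun z => (fd hf (z : ι → F)).domRestrict W
      map_add' := fun a b => LinearMap.ext fun x => hf.bilinear.add_right _ _ _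
      map_smul' := fun c a => LinearMap.ext fun x => hf.bilinear.smul_right _ _ _ }
  have hker : LinearMap.ker R = perp hf W := by
    ext x
    rw [LinearMap.mem_ker, mem_perp]
    constructor
    · intro h w hw
      exact congrArg (fun ψ : Module.Dual F W => ψ ⟨w, hw⟩) h
    · intro h
      apply LinearMap.ext
      intro w
      exact h w w.2
  have h1 := LinearMap.finrank_range_add_finrank_ker R
  have h2 : Module.finrank F (LinearMap.range R) ≤ Module.finrank F W := by
    refine (Submodule.finrank_le _).trans ?_
    rw [Subspace.dual_finrank_eq]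
  rw [hker] at h1
  omega

/-- if `2 dim W < n` then some vector is perpendicular to `W` but not in `W`. -/
theorem exists_perp_notMem (hf : Geo.IsSymplecticForm f) (W : Submodule F (ι → F)) (h : 2 * Module.finrank F W < Module.finrank F (ι → F)) :
    ∃ z, z ∉ W ∧ ∀ w ∈ W, f w z = 0 := by
  by_contra hcon
  push Not at hcon
  have h1 : perp hf W ≤ W := by
    intro z hz
    by_contra hzW
    obtain ⟨w, hw, hwz⟩ := hcon z hzW
    exact hwz (hz w hw)
  have h2 := Submodule.finrank_mono h1
  have h3 := finrank_perp_ge hf W
  omega

theorem finrank_span_list_le (l : List (ι → F)) : Module.finrank F (Submodule.span F {x | x ∈ l}) ≤ l.length := by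
  classical
  have h1 : ({x | x ∈ l} : Set (ι → F)) = (l.toFinset : Set (ι → F)) := by
    ext x; simp
  rw [h1]
  exact (finrank_span_finset_le_card _).trans (List.toFinset_card_le l)

end CfsgLib.SympTv29
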