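import Cfsg.Agent.EqBase
import Cfsg.Agent.LibTCV
set_option autoImplicit false
set_option linter.all false

/-! Simplicity of the derived group from a maximal core-free centraliser of an outer involution. -/

namespace CfsgLib.TC

section
variable {G : Type*} [Group G]

theorem comm_le_of_normal {H M : Subgroup G} {l : G} (hM : M.Normal) (hMH : M ⊔ H = ⊤)
    (hcent : ∀ h ∈ H, h * l = l * h) (hgen : Subgroup.normalClosure {l} = ⊤) : commutator G ≤ M := by
  have h1 : ∀ g : G, (QuotientGroup.mk l : G ⧸ M) * QuotientGroup.mk g = QuotientGroup.mk g * QuotientGroup.mk l := by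
    intro g
    have hg : g ∈ M ⊔ H := by rw [hMH]; trivial
    obtain ⟨m, hm, h, hh, rfl⟩ := Subgroup.mem_sup_of_normal_left.1 hg
    have hm1 : (QuotientGroup.mk m : G ⧸ M) = 1 := (QuotientGroup.eq_one_iff _).2 hm
    rw [QuotientGroup.mk_mul, hm1, one_mul, ← QuotientGroup.mk_mul, ← QuotientGroup.mk_mul, hcent h hh]
  have h2 : (⊤ : Subgroup G) ≤ (Subgroup.center (G ⧸ M)).comap (QuotientGroup.mk' M) := by
    rw [← hgen]
    apply Subgroup.normalClosure_le_normal
    rintro x hx
    rw [Set.mem_singleton_iff] at hx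
    subst hx
    show QuotientGroup.mk x ∈ Subgroup.center (G ⧸ M)
    rw [Subgroup.mem_center_iff]
    intro y
    obtain ⟨g, rfl⟩ := QuotientGroup.mk_surjective y
    exact (h1 g).symm
  rw [commutator_def, Subgroup.commutator_le]
  intro x _ y _
  have hx : QuotientGroup.mk x ∈ Subgroup.center (G ⧸ M) := h2 (Subgroup.mem_top x)
  rw [← QuotientGroup.eq_one_iff]
  have h3 := Subgroup.mem_center_iff.1 hx (QuotientGroup.mk y)
  rw [commutatorElement_def, QuotientGroup.mk_mul, QuotientGroup.mk_mul, QuotientGroup.mk_mul, QuotientGroup.mk_inv,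
    QuotientGroup.mk_inv, ← h3]
  group

theorem simple_comm [Finite G] {H : Subgroup G} {l : G} (hmax : ∀ K : Subgroup G, H ≤ K → K = H ∨ K = ⊤)
    (hcore : H.normalCore = ⊥) (hcent : ∀ h ∈ H, h * l = l * h) (hll : l * l = 1) (hgen : Subgroup.normalClosure {l} = ⊤)
    (hidx : (commutator G).index = 2) (hl : l ∉ commutator G) (hnt : Nontrivial (commutator G))
    (hsq : ∀ n : ℕ, n * n ≠ Nat.card (commutator G)) : IsSimpleGroup (commutator G) := by
  have hli : l⁻¹ = l := inv_eq_of_mul_eq_one_left hll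
  have key : ∀ M : Subgroup G, M.Normal → M ≠ ⊥ → commutator G ≤ M := fun M hM hb =>
    comm_le_of_normal hM (normal_sup_top hmax hcore hb) hcent hgen
  have hout : ∀ g : G, g ∉ commutator G → l * g ∈ commutator G := by
    intro g hg
    have := Subgroup.mul_mem_iff_of_index_two hidx (a := l) (b := g)
    rw [this]
    exact ⟨fun h => absurd h hl, fun h => absurd h hg⟩
  refine ⟨fun K hK => ?_⟩
  by_cases hb : K = ⊥
  · exact Or.inl hb
  right
  let c : MulAut (commutator G) := MulAut.conjNormal l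
  have hc : ∀ x : commutator G, ((c x : commutator G) : G) = l * x * l⁻¹ := fun x => MulAut.conjNormal_apply l x
  have hcc : ∀ x : commutator G, c (c x) = x := by
    intro x
    apply Subtype.ext
    rw [hc, hc, hli]
    calc l * (l * (x : G) * l) * l = (l * l) * x * (l * l) := by group
      _ = x := by rw [hll, one_mul, mul_one]
  let K2 : Subgroup (commutator G) := K.comap c.toMonoidHom
  have hK2 : ∀ x, x ∈ K2 ↔ c x ∈ K := fun x => Iff.rfl
  have hK2n : K2.Normal := by
    refine ⟨fun x hx g => ?_⟩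
    rw [hK2, map_mul, map_mul, map_inv]
    exact hK.conj_mem _ ((hK2 x).1 hx) _
  -- normality in G of a c-stable normal subgroup of the derived group
  have hnorm : ∀ T : Subgroup (commutator G), T.Normal → (∀ x ∈ T, c x ∈ T) → (T.map (commutator G).subtype).Normal := by
    intro T hT hTc
    refine ⟨fun x hx g => ?_⟩
    obtain ⟨y, hy, rfl⟩ := hx
    by_cases hg : g ∈ commutator G
    · exact ⟨⟨g, hg⟩ * y * ⟨g, hg⟩⁻¹, hT.conj_mem y hy _, rfl⟩
    · have h1 := hout g hg
      refine ⟨c (⟨l * g, h1⟩ * y * ⟨l * g, h1⟩⁻¹), hTc _ (hT.conj_mem y hy _), ?_⟩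
      show ((c (⟨l * g, h1⟩ * y * ⟨l * g, h1⟩⁻¹) : commutator G) : G) = _
      rw [hc]
      show l * ((l * g) * (y : G) * (l * g)⁻¹) * l⁻¹ = g * (y : G) * g⁻¹
      calc l * ((l * g) * (y : G) * (l * g)⁻¹) * l⁻¹ = (l * l) * g * y * g⁻¹ * (l⁻¹ * l⁻¹) := by group
        _ = g * (y : G) * g⁻¹ := by rw [hli, hll, one_mul, mul_one]
  have hmap_bot : ∀ T : Subgroup (commutator G), T ≠ ⊥ → T.map (commutator G).subtype ≠ ⊥ := by
    intro T hT h
    apply hT
    rwa [Subgroup.map_eq_bot_iff_of_injective _ (commutator G).subtype_injective] at h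
  have htop : ∀ T : Subgroup (commutator G), T.Normal → (∀ x ∈ T, c x ∈ T) → T ≠ ⊥ → T = ⊤ := by
    intro T hT hTc hTb
    have h1 := key _ (hnorm T hT hTc) (hmap_bot T hTb)
    rw [eq_top_iff]
    intro x _
    obtain ⟨y, hy, hyx⟩ := h1 x.2
    have : y = x := Subtype.ext hyx
    rwa [← this]
  by_cases hI : K ⊓ K2 = ⊥
  · exfalso
    have hS : K ⊔ K2 = ⊤ := by
      apply htop _ inferInstance
      · intro x hx
        obtain ⟨y, hy, z, hz, rfl⟩ := Subgroup.mem_sup_of_normal_left.1 hx
        rw [map_mul]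
        have h1 : c y ∈ K2 := by rw [hK2, hcc]; exact hy
        exact Subgroup.mul_mem _ (Subgroup.mem_sup_right h1) (Subgroup.mem_sup_left hz)
      · intro h
        exact hb (le_bot_iff.1 (by rw [← h]; exact le_sup_left))
    have h1 : K.index = Nat.card K2 := by
      rw [← Subgroup.relIndex_top_right, ← hS, sup_comm, Subgroup.relIndex_sup_right, ← Subgroup.inf_relIndex_right, hI,
        Subgroup.relIndex_bot_left]
    have h2 : Nat.card K2 = Nat.card K := by
      apply Nat.card_congr
      exact {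
        toFun := fun x => ⟨c x.1, x.2⟩
        invFun := fun x => ⟨c x.1, by rw [hK2, hcc]; exact x.2⟩
        left_inv := fun x => Subtype.ext (hcc x.1)
        right_inv := fun x => Subtype.ext (hcc x.1) }
    apply hsq (Nat.card K)
    have h3 := Subgroup.card_mul_index K
    rw [h1, h2] at h3
    exact h3
  · have h1 : K ⊓ K2 = ⊤ := by
      apply htop _ inferInstance _ hI
      intro x hx
      exact ⟨hx.2, (hK2 _).2 (by rw [hcc]; exact hx.1)⟩
    rw [eq_top_iff, ← h1]
    exact inf_le_left

/-- the order of a central extension by an involution -/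
theorem card_central {F : Type*} [Group F] [Finite F] (hF : IsSimpleGroup F) {H : Subgroup G} (l : H)
    (hll : l * l = 1) (hl1 : l ≠ 1) [hN : (Subgroup.zpowers l).Normal] (θ : F →* H ⧸ Subgroup.zpowers l)
    (hθ : Function.Surjective θ) (hne : ∃ x, θ x ≠ 1) :
    Nat.card H = 2 * Nat.card F ∧ Function.Bijective θ := by
  have hinj : Function.Injective θ := by
    rw [← MonoidHom.ker_eq_bot_iff]
    rcases hF.eq_bot_or_eq_top_of_normal θ.ker inferInstance with h | h
    · exact h
    exfalso
    obtain ⟨x, hx⟩ := hne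
    apply hx
    have : x ∈ θ.ker := by rw [h]; trivial
    exact this
  refine ⟨?_, hinj, hθ⟩
  have h1 : Nat.card F = Nat.card (H ⧸ Subgroup.zpowers l) := Nat.card_congr (Equiv.ofBijective θ ⟨hinj, hθ⟩)
  have h2 : Nat.card (Subgroup.zpowers l) = 2 := by
    rw [Nat.card_zpowers]
    exact orderOf_eq_prime (by rw [pow_two]; exact hll) hl1
  rw [h1, ← h2]
  exact (Subgroup.card_mul_index (Subgroup.zpowers l)).symm

/-- normal subgroups of a central extension of a simple group -/
theorem normal_central {F : Type*} [Group F] (hF : IsSimpleGroup F) {H : Subgroup G} (l : H)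
    [hN : (Subgroup.zpowers l).Normal] (θ : F →* H ⧸ Subgroup.zpowers l)
    (hθ : Function.Bijective θ) (C : Subgroup H) [hC : C.Normal] : C ≤ Subgroup.zpowers l ∨ ∀ h : H, ∃ c ∈ C, ∃ z ∈ Subgroup.zpowers l, h = c * z := by
  have hs : IsSimpleGroup (H ⧸ Subgroup.zpowers l) := (MulEquiv.ofBijective θ hθ).symm.isSimpleGroup
  have hn : (C.map (QuotientGroup.mk' (Subgroup.zpowers l))).Normal := hC.map _ (QuotientGroup.mk'_surjective _)
  rcases hs.eq_bot_or_eq_top_of_normal _ hn with h | h
  · left
    intro x hx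
    have : QuotientGroup.mk' (Subgroup.zpowers l) x ∈ C.map (QuotientGroup.mk' (Subgroup.zpowers l)) := ⟨x, hx, rfl⟩
    rw [h, Subgroup.mem_bot] at this
    exact (QuotientGroup.eq_one_iff _).1 this
  · right
    intro x
    have : QuotientGroup.mk' (Subgroup.zpowers l) x ∈ C.map (QuotientGroup.mk' (Subgroup.zpowers l)) := by rw [h]; trivial
    obtain ⟨c, hc, hcx⟩ := this
    refine ⟨c, hc, c⁻¹ * x, ?_, by group⟩
    exact QuotientGroup.eq.1 hcx

end
end CfsgLib.TC
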