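import Cfsg.Agent.EqBase
import Cfsg.Agent.LibTCFi22U
set_option autoImplicit false
set_option linter.all false
set_option maxRecDepth 1000000

/-! The transposition centraliser `2·U₆(2)` in Fi₂₂: the isomorphism. -/

namespace CfsgLib.TCFi22U
open CfsgLib.TC CfsgLib.MC Cfsg.Spor CfsgLib.TCG_Fi22 CfsgLib.TCFi22 CfsgLib.F4c Cfsg Cfsg.Agent.H22 CfsgLib.Un29 Matrix

abbrev SU6 := Cfsg.SU 6 F4 2
abbrev PSU6 := Cfsg.PSU 6 F4 2
noncomputable abbrev vv (q : ℕ) : Fin 6 → F4 := vec 6 (VT q)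

theorem card42 : Fintype.card F4 = 2 ^ 2 := by rw [F4.card]; norm_num

theorem un_iso' (c : C9) : hermForm 6 F4 2 (vec 6 (un c)) (vec 6 (un c)) = 0 := by
  rw [herm_vec, Nat.eq_of_beq_eq_true ((lall_iff _ _).1 un_iso c (hcs9 c))]
  rfl

noncomputable def m (c : C9) : SU6 := Classical.choose (exists_tr 6 _ (un_iso' c))
theorem m_spec (c : C9) : suM (m c) = unitaryTransvection 6 2 (vec 6 (un c)) 1 := Classical.choose_spec (exists_tr 6 _ (un_iso' c))

/-- the correspondence -/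
def Γ : Subgroup (H × SU6) := Subgroup.closure (Set.range fun c => (hg c, m c))

theorem ob_inv (h : H) (q : Om L) : OB (φ h.1 q).1 = OB q.1 :=
  inv_sound closed φ P φ_P H (le_of_eq H_eq) sub_inv h.1 h.2 q

def compat (x : H × SU6) : Prop := ∀ q : Om L, OB q.1 = 1 → ∃ l : F4, l ≠ 0 ∧ suM x.2 *ᵥ vv q.1 = l • vv (φ x.1.1 q).1

theorem compat_of_mem : ∀ x ∈ Γ, compat x := by
  intro x hx
  unfold Γ at hx
  induction hx using Subgroup.closure_induction with
  | mem x hx =>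
    obtain ⟨c, rfl⟩ := hx
    intro q hq
    have h1 := (Tr.all_iff _ _).1 eq_chk q.1 q.2
    unfold EQ at h1
    rw [hq] at h1
    have h2 := (lall_iff _ _).1 h1 c (hcs9 c)
    obtain ⟨l, hl, h3⟩ := prC_sound 6 h2
    refine ⟨l, hl, ?_⟩
    rw [m_spec, ← vec_trC, h3]
    congr 2
    have h4 : (φ (gw P (wd c)) q).1 = walk stp (wd c) q.1 := phi_gw closed φ P φ_P (wd c) q
    show VT _ = VT _
    rw [← h4]
    rfl
  | one =>
    intro q hq
    refine ⟨1, one_ne_zero, ?_⟩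
    show suM 1 *ᵥ vv q.1 = (1 : F4) • vv (φ 1 q).1
    rw [suM_one, Matrix.one_mulVec, one_smul, map_one, Equiv.Perm.one_apply]
  | mul x y _ _ hx hy =>
    intro q hq
    obtain ⟨l, hl, h1⟩ := hy q hq
    obtain ⟨l', hl', h2⟩ := hx (φ y.1.1 q) (by rw [ob_inv]; exact hq)
    refine ⟨l * l', mul_ne_zero hl hl', ?_⟩
    show suM (x.2 * y.2) *ᵥ vv q.1 = (l * l') • vv (φ (x.1.1 * y.1.1) q).1
    rw [suM_mul, ← Matrix.mulVec_mulVec, h1, Matrix.mulVec_smul, h2, smul_smul, map_mul, Equiv.Perm.mul_apply]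
  | inv x _ hx =>
    intro q hq
    have e : φ x.1.1 (φ x.1.1⁻¹ q) = q := by
      rw [← Equiv.Perm.mul_apply, ← map_mul, mul_inv_cancel, map_one, Equiv.Perm.one_apply]
    obtain ⟨l, hl, h1⟩ := hx (φ x.1.1⁻¹ q) (by
      have := ob_inv x.1⁻¹ q
      rw [← hq]; exact this)
    rw [e] at h1
    refine ⟨l⁻¹, inv_ne_zero hl, ?_⟩
    show suM x.2⁻¹ *ᵥ vv q.1 = l⁻¹ • vv (φ x.1.1⁻¹ q).1
    have h2 : suM x.2⁻¹ *ᵥ (suM x.2 *ᵥ vv (φ x.1.1⁻¹ q).1) = vv (φ x.1.1⁻¹ q).1 := by
      rw [Matrix.mulVec_mulVec, ← suM_mul, inv_mul_cancel, suM_one, Matrix.one_mulVec]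
    rw [h1, Matrix.mulVec_smul] at h2
    rw [← h2, smul_smul, inv_mul_cancel₀ hl, one_smul]

/-- every isotropic vector is (proportional to) a table vector -/
theorem cover (v : Fin 6 → F4) (hv0 : v ≠ 0) (hv : hermForm 6 F4 2 v v = 0) :
    ∃ q : Om L, OB q.1 = 1 ∧ ∃ l : F4, l ≠ 0 ∧ v = l • vv q.1 := by
  obtain ⟨a, ha, rfl⟩ := exists_code 6 v
  have h1 := allR_sound IS 12 0 is_chk a (Nat.zero_le _) (by
    have e : (4:ℕ) ^ 6 = 0 + 2 ^ 12 := by norm_num
    rw [← e]; exact ha)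
  rw [herm_vec] at hv
  have h2 : hC 6 a a = 0 := by
    have h3 := (hC_spec 6 a a).1
    generalize hC 6 a a = t at h3 hv
    interval_cases t
    · rfl
    · exact absurd hv (by decide)
    · exact absurd hv (by decide)
    · exact absurd hv (by decide)
  unfold IS at h1
  rw [h2] at h1
  have h3 : Bool.rec (motive := fun _ => Bool) (band (Nat.beq (OB (W a)) 1) (band (mem L (W a)) (prC 6 a (VT (W a))))) true (Nat.beq a 0) = true := h1
  cases h4 : Nat.beq a 0
  · rw [h4] at h3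
    have h5 : band (Nat.beq (OB (W a)) 1) (band (mem L (W a)) (prC 6 a (VT (W a)))) = true := h3
    rw [band_iff, band_iff] at h5
    exact ⟨⟨W a, mem_sound h5.2.1⟩, Nat.eq_of_beq_eq_true h5.1, prC_sound 6 h5.2.2⟩
  · exfalso
    apply hv0
    rw [Nat.eq_of_beq_eq_true h4]
    funext i
    show ι4 (Nat.mod (Nat.div 0 _) 4) = 0
    have : Nat.mod (Nat.div 0 (Nat.pow 4 i.1)) 4 = 0 := by
      show 0 / _ % 4 = 0
      rw [Nat.zero_div]
    rw [this]; rfl

theorem fix_central (s : SU6) (h : ((1 : H), s) ∈ Γ) : s ∈ Subgroup.center SU6 := by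
  apply su_center_of_fix card42 (by norm_num) (by norm_num)
  intro v hv0 hv
  obtain ⟨q, hq, l, hl, rfl⟩ := cover v hv0 hv
  obtain ⟨l', _, h1⟩ := compat_of_mem _ h q hq
  refine ⟨l', ?_⟩
  have h2 : (φ ((1 : H) : Fi22) q) = q := by
    show φ (1 : Fi22) q = q
    rw [map_one, Equiv.Perm.one_apply]
  have h3 : suM s *ᵥ vv q.1 = l' • vv q.1 := by
    have := h1
    rwa [h2] at this
  rw [Matrix.mulVec_smul, h3, smul_comm]

theorem exists_snd (h : H) : ∃ s : SU6, (h, s) ∈ Γ := by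
  have key : ∀ x ∈ Subgroup.closure {x | ∃ w ∈ SW0, gw P w = x}, ∀ hx : x ∈ H, ∃ s : SU6, ((⟨x, hx⟩ : H), s) ∈ Γ := by
    intro x hx
    induction hx using Subgroup.closure_induction with
    | mem x hx =>
      obtain ⟨w, hw, rfl⟩ := hx
      intro hx
      have hc : ∃ c : C9, wd c = w := by
        simp only [SW0, List.mem_cons, List.not_mem_nil, or_false] at hw
        rcases hw with rfl | rfl | rfl | rfl | rfl | rfl | rfl | rfl | rfl
        exacts [⟨.a, rfl⟩, ⟨.c, rfl⟩, ⟨.d, rfl⟩, ⟨.e, rfl⟩, ⟨.f, rfl⟩, ⟨.g, rfl⟩, ⟨.h, rfl⟩, ⟨.i, rfl⟩, ⟨.x, rfl⟩]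
      obtain ⟨c, rfl⟩ := hc
      exact ⟨m c, Subgroup.subset_closure ⟨c, rfl⟩⟩
    | one => intro hx; exact ⟨1, Subgroup.one_mem _⟩
    | mul x y hx' hy' hx hy =>
      intro hxy
      have h1 : x ∈ H := by rw [H_eq]; exact hx'
      have h2 : y ∈ H := by rw [H_eq]; exact hy'
      obtain ⟨s, hs⟩ := hx h1
      obtain ⟨t, ht⟩ := hy h2
      exact ⟨s * t, Subgroup.mul_mem _ hs ht⟩
    | inv x hx' hx =>
      intro hxi
      have h1 : x ∈ H := by rw [H_eq]; exact hx'
      obtain ⟨s, hs⟩ := hx h1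
      exact ⟨s⁻¹, Subgroup.inv_mem _ hs⟩
  exact key h.1 (by rw [← H_eq]; exact h.2) h.2

noncomputable def π : Γ →* H := (MonoidHom.fst H SU6).comp Γ.subtype
theorem π_surj : Function.Surjective π := fun h => by
  obtain ⟨s, hs⟩ := exists_snd h
  exact ⟨⟨(h, s), hs⟩, rfl⟩
noncomputable def ρ : Γ →* PSU6 := ((QuotientGroup.mk' (Subgroup.center SU6)).comp (MonoidHom.snd H SU6)).comp Γ.subtype

theorem ker_le : π.ker ≤ ρ.ker := by
  rintro ⟨⟨h, s⟩, hx⟩ hk
  have h1 : h = 1 := hk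
  subst h1
  exact (QuotientGroup.eq_one_iff s).2 (fix_central s hx)

noncomputable def f : H →* PSU6 := π.liftOfSurjective π_surj ⟨ρ, ker_le⟩
theorem f_π (x : Γ) : f (π x) = ρ x := MonoidHom.liftOfRightInverse_comp_apply _ _ _ _ x

/-! ### surjectivity -/

def R : Subgroup SU6 := Γ.map (MonoidHom.snd H SU6)
theorem mem_R {h : H} {s : SU6} (hx : (h, s) ∈ Γ) : s ∈ R := ⟨(h, s), hx, rfl⟩

theorem pow3 : ∀ l : F4, l ≠ 0 → l * l ^ 2 = 1 := by decide

theorem tr_mem (q : Om L) (hq : OB q.1 = 1) : ∃ B ∈ R, suM B = unitaryTransvection 6 2 (vv q.1) 1 := by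
  obtain ⟨σ, hσ, hf⟩ := hermForm_unitary (F := F4) (q := 2) 6 card42
  have hsm : ∀ (l : F4) (v : Fin 6 → F4), l ≠ 0 → unitaryTransvection 6 2 (l • v) (1 : F4) = unitaryTransvection 6 2 v 1 := by
    intro l v hl
    rw [uTrans_smul hf, hσ, pow3 l hl, mul_one]
  have hb : OB (⟨65579, mem_sound pt_mem⟩ : Om L).1 = OB q.1 := by rw [hq]; exact pt_ob
  obtain ⟨h, hh, hhq⟩ := (orbit_labels closed nodup φ P φ_P H H_SW sub_tree
    (fun h hh q => ob_inv ⟨h, hh⟩ q) ⟨65579, mem_sound pt_mem⟩ q).1 hb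
  obtain ⟨s, hs⟩ := exists_snd ⟨h, hh⟩
  obtain ⟨l, hl, h1⟩ := compat_of_mem _ hs ⟨65579, mem_sound pt_mem⟩ pt_ob
  obtain ⟨l0, hl0, h0⟩ := prC_sound 6 pt_pr
  have h2 : suM s *ᵥ vv 65579 = l • vv q.1 := by
    have h3 : φ h ⟨65579, mem_sound pt_mem⟩ = q := hhq
    have h4 : suM s *ᵥ vv 65579 = l • vv (φ h ⟨65579, mem_sound pt_mem⟩).1 := h1
    rw [h4, h3]
  have hc : (hg .c, m .c) ∈ Γ := Subgroup.subset_closure ⟨.c, rfl⟩
  refine ⟨s * m .c * s⁻¹, R.mul_mem (R.mul_mem (mem_R hs) (mem_R hc)) (R.inv_mem (mem_R hs)), ?_⟩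
  rw [suM_mul, suM_mul, m_spec, uTrans_conj hf]
  have h5 : vv 65579 = l0 • vec 6 (un .c) := h0
  have h6 : vec 6 (un .c) = l0⁻¹ • vv 65579 := by rw [h5, smul_smul, inv_mul_cancel₀ hl0, one_smul]
  rw [h6, Matrix.mulVec_smul, h2, hsm _ _ (inv_ne_zero hl0), hsm _ _ hl]

theorem R_top : R = ⊤ := by
  obtain ⟨σ, hσ, hf⟩ := hermForm_unitary (F := F4) (q := 2) 6 card42
  rw [eq_top_iff, ← suTG_top (n := 6) (F := F4) (q := 2) card42 (by norm_num) (by norm_num)]
  unfold suTG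
  rw [Subgroup.closure_le]
  rintro A ⟨v, c, hv, hA⟩
  have hA' : suM A = unitaryTransvection 6 2 v c := hA
  by_cases hv0 : v = 0
  · have : A = 1 := by
      apply su_ext'
      intro x
      rw [hA', uTrans_mulVec, suM_one, Matrix.one_mulVec, hv0, smul_zero, add_zero]
    rw [this]; exact R.one_mem
  by_cases hc0 : c = 0
  · have : A = 1 := by
      apply su_ext'
      intro x
      rw [hA', uTrans_mulVec, suM_one, Matrix.one_mulVec, hc0, zero_mul, zero_smul, add_zero]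
    rw [this]; exact R.one_mem
  have hsk : σ c = -c := skew_of_su hσ hf hv0 hv hA'
  have hc1 : c = 1 := by
    rw [hσ] at hsk
    revert hsk hc0
    clear * -
    revert c
    decide
  subst hc1
  obtain ⟨q, hq, l, hl, rfl⟩ := cover v hv0 hv
  obtain ⟨B, hB, hB'⟩ := tr_mem q hq
  have : A = B := by
    apply su_ext
    rw [hA', hB', uTrans_smul hf, hσ, pow3 l hl, mul_one]
  rw [this]; exact hB

theorem f_surj : Function.Surjective f := by
  intro y
  obtain ⟨A, rfl⟩ := QuotientGroup.mk_surjective y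
  have hA : A ∈ R := by rw [R_top]; trivial
  obtain ⟨x, hx, hxA⟩ := hA
  refine ⟨π ⟨x, hx⟩, ?_⟩
  rw [f_π]
  show QuotientGroup.mk x.2 = QuotientGroup.mk A
  have : x.2 = A := hxA
  rw [this]

theorem card_PSU : Nat.card PSU6 = 9196830720 := by
  have h : Nat.gcd 6 (2 + 1) * ((2 + 1) * Nat.card PSU6) = 2 ^ (6 * (6 - 1) / 2) * ∏ i ∈ Finset.range 6, (if Even i then 2 ^ (i + 1) + 1 else 2 ^ (i + 1) - 1) := by
    rw [← Cfsg.Agent.H22.card_SU card42 (by norm_num : 1 ≤ 6), ← Cfsg.Agent.H22.card_center_SU card42 (by norm_num : 2 ≤ 6),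
      Subgroup.card_eq_card_quotient_mul_card_subgroup (Subgroup.center (Cfsg.SU 6 F4 2))]
    ring
  have e : ∏ i ∈ Finset.range 6, (if Even i then 2 ^ (i + 1) + 1 else 2 ^ (i + 1) - 1 : ℕ) = 2525985 := by decide
  rw [e, show Nat.gcd 6 (2 + 1) = 3 from rfl, show 2 ^ (6 * (6 - 1) / 2) = 32768 from rfl] at h
  omega

theorem card_H : Nat.card H = 18393661440 := by
  have h := Subgroup.card_mul_index H
  rw [main.1, order_main.1] at h
  omega

theorem card_ker : Nat.card f.ker = 2 := by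
  have h1 := Subgroup.card_mul_index f.ker
  have h2 : f.ker.index = Nat.card PSU6 := Nat.card_congr (QuotientGroup.quotientKerEquivOfSurjective f f_surj).toEquiv
  rw [h2, card_H, card_PSU] at h1
  have h3 : Nat.card f.ker * 9196830720 = 2 * 9196830720 := h1
  exact Nat.eq_of_mul_eq_mul_right (by norm_num) h3

theorem ker_central : f.ker ≤ Subgroup.center H := by
  intro z hz
  rw [Subgroup.mem_center_iff]
  intro g
  have hn : g * z * g⁻¹ ∈ f.ker := (MonoidHom.normal_ker f).conj_mem z hz g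
  by_cases h1 : z = 1
  · rw [h1, mul_one, one_mul]
  have h2 : g * z * g⁻¹ ≠ 1 := by
    intro h
    apply h1
    have : g * z * g⁻¹ * g = g := by rw [h, one_mul]
    rw [inv_mul_cancel_right] at this
    exact mul_eq_left.1 this
  have hf2 : Finite f.ker := Nat.finite_of_card_ne_zero (by rw [card_ker]; norm_num)
  obtain ⟨a, b, hab, hu⟩ := Nat.card_eq_two_iff.1 card_ker
  have h3 : ∀ x y : f.ker, x ≠ 1 → y ≠ 1 → x = y := by
    intro x y hx hy
    have e : ∀ t : f.ker, t = a ∨ t = b := by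
      intro t
      have : t ∈ ({a, b} : Set f.ker) := by rw [hu]; trivial
      simpa using this
    rcases e 1 with h | h <;> rcases e x with h' | h' <;> rcases e y with h'' | h'' <;> simp_all
  have h4 := h3 ⟨g * z * g⁻¹, hn⟩ ⟨z, hz⟩ (fun h => h2 (congrArg Subtype.val h)) (fun h => h1 (congrArg Subtype.val h))
  have h5 : g * z * g⁻¹ = z := congrArg Subtype.val h4
  calc g * z = g * z * g⁻¹ * g := by group
    _ = z * g := by rw [h5]

/-! ### perfectness -/

theorem perfect_H : commutator H = ⊤ := by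
  apply perfect_of_homs
  have hrel : ∀ w : List C9, gw hg w = 1 → gw (fun c => (Abelianization.of (hg c) : Abelianization H)) w = 1 := by
    intro w h
    rw [← map_gw, h, map_one]
  generalize hT : (fun c => (Abelianization.of (hg c) : Abelianization H)) = T at hrel
  have sq : ∀ c : C9, gw hg [c, c] = 1 → T c * T c = 1 := by
    intro c h
    have := hrel _ h
    simpa only [gw_cons, gw_nil, one_mul] using this
  have eq : ∀ x y : C9, T x * T x = 1 → T y * T y = 1 → gw hg [x, y, x, y, x, y] = 1 → T x = T y := by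
    intro x y hx hy h
    have h1 := hrel _ h
    simp only [gw_cons, gw_nil, one_mul] at h1
    refine odd_eq hx hy (m := 3) ?_ rfl
    rw [← h1, pow_succ, pow_two]
    simp only [mul_comm, mul_left_comm]
  have hc := sq _ r_qc
  have hd := sq _ r_qd
  have he := sq _ r_qe
  have hf' := sq _ r_qf
  have hg' := sq _ r_qg
  have hh := sq _ r_qh
  have hi := sq _ r_qi
  have hx := sq _ r_qx
  have e1 := eq _ _ hc hd r_cd
  have e2 := eq _ _ hd he r_de
  have e3 := eq _ _ hd hh r_dh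
  have e4 := eq _ _ he hf' r_ef
  have e5 := eq _ _ hf' hg' r_fg
  have e6 := eq _ _ hh hi r_hi
  have e7 := eq _ _ hf' hx r_fx
  have h7 := hrel _ r_e7
  have key : T .c = 1 := by
    simp only [gw_cons, gw_nil, one_mul] at h7
    rw [← e6, ← e5, ← e4, ← e3, ← e2, ← e1] at h7
    simpa only [hc, one_mul] using h7
  have kd : T .d = 1 := by rw [← e1, key]
  have ke : T .e = 1 := by rw [← e2, kd]
  have kh : T .h = 1 := by rw [← e3, kd]
  have kf : T .f = 1 := by rw [← e4, ke]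
  have kg : T .g = 1 := by rw [← e5, kf]
  have ki : T .i = 1 := by rw [← e6, kh]
  have kx : T .x = 1 := by rw [← e7, kf]
  have ka : T .a = 1 := by
    have := hrel _ r_aa
    simpa only [gw_cons, gw_nil, one_mul, mul_one, key, kd, ke, kh, kf, kg, ki, kx] using this
  have kall : ∀ c, T c = 1 := by intro c; cases c <;> assumption
  have kall' : ∀ c, (Abelianization.of (hg c) : Abelianization H) = 1 := by
    intro c
    have := kall c
    rw [← hT] at this
    exact this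
  have key2 : ∀ x ∈ Subgroup.closure {x | ∃ w ∈ SW0, gw P w = x}, ∀ hx : x ∈ H, (Abelianization.of (⟨x, hx⟩ : H) : Abelianization H) = 1 := by
    intro x hx
    induction hx using Subgroup.closure_induction with
    | mem x hx =>
      obtain ⟨w, hw, rfl⟩ := hx
      intro hx
      have hc : ∃ c : C9, wd c = w := by
        simp only [SW0, List.mem_cons, List.not_mem_nil, or_false] at hw
        rcases hw with rfl | rfl | rfl | rfl | rfl | rfl | rfl | rfl | rfl
        exacts [⟨.a, rfl⟩, ⟨.c, rfl⟩, ⟨.d, rfl⟩, ⟨.e, rfl⟩, ⟨.f, rfl⟩, ⟨.g, rfl⟩, ⟨.h, rfl⟩, ⟨.i, rfl⟩, ⟨.x, rfl⟩]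
      obtain ⟨c, rfl⟩ := hc
      exact kall' c
    | one => intro hx; exact map_one _
    | mul x y hx' hy' hx hy =>
      intro hxy
      have h1 : x ∈ H := by rw [H_eq]; exact hx'
      have h2 : y ∈ H := by rw [H_eq]; exact hy'
      have e : (⟨x * y, hxy⟩ : H) = ⟨x, h1⟩ * ⟨y, h2⟩ := rfl
      rw [e, map_mul, hx h1, hy h2, mul_one]
    | inv x hx' hx =>
      intro hxi
      have h1 : x ∈ H := by rw [H_eq]; exact hx'
      have e : (⟨x⁻¹, hxi⟩ : H) = (⟨x, h1⟩ : H)⁻¹ := rfl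
      rw [e, map_inv, hx h1, inv_one]
  intro x
  exact key2 x.1 (by rw [← H_eq]; exact x.2) x.2

theorem dc_main : Cfsg.IsNonsplitDoubleCover H PSU6 := by
  have hs : IsSimpleGroup PSU6 := psu_simple card42 (by norm_num) (by norm_num)
  have hnt : Nontrivial PSU6 := hs.toNontrivial
  have hp : commutator PSU6 = ⊤ := by
    have h1 : (commutator H).map f = commutator PSU6 := by
      rw [commutator_def, commutator_def, Subgroup.map_commutator, ← MonoidHom.range_eq_map, MonoidHom.range_eq_top.2 f_surj]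
    rw [← h1, perfect_H, ← MonoidHom.range_eq_map, MonoidHom.range_eq_top.2 f_surj]
  exact dcover hs (noncomm_of_perfect hp) f.ker ker_central card_ker (QuotientGroup.quotientKerEquivOfSurjective f f_surj) perfect_H

end CfsgLib.TCFi22U
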