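import Cfsg.Agent.EqBase
import Cfsg.Agent.LibTCFi22WD
set_option autoImplicit false
set_option linter.all false
set_option maxRecDepth 1000000
set_option maxHeartbeats 0
namespace CfsgLib.TCFi22W
open CfsgLib.TC Cfsg.Spor CfsgLib.TCG_Fi22W
theorem re_0_0 : Tr.all Rf_0 L = true := by decide +kernel
theorem ce_0_0 : Tr.all CE_0 L = true := by decide +kernel
theorem tr_0 : Tr.all (transQ mt sd PT DT q0) L = true := by decide +kernel
theorem bs_0 : bst L 4096 (2 * 4096) = true := by decide +kernel
theorem pr_0 : prodT L = MM := by decide +kernel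
theorem sz_0 : size L = 351 := by decide +kernel
theorem gc_0 : Nat.gcd MM (prodTo 91) = 1 := by decide +kernel
end CfsgLib.TCFi22W
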