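import Cfsg.Agent.EqBase
import Cfsg.Agent.LibTCFi22WX0
set_option autoImplicit false
set_option linter.all false
set_option maxRecDepth 1000000
set_option maxHeartbeats 0
namespace CfsgLib.TCFi22W
open CfsgLib.TC Cfsg.Spor CfsgLib.TCG_Fi22W
theorem size_nd {k : ℕ} {l r : Tr ℕ} {a b : ℕ} (hl : size l = a) (hr : size r = b) : size (Tr.nd k l r) = a + b := by rw [← hl, ← hr]; rfl
theorem bst_nd {k lo hi : ℕ} {l r : Tr ℕ} (hl : bst l lo k = true) (hr : bst r k hi = true) : bst (Tr.nd k l r) lo hi = true := by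
  have : bst (Tr.nd k l r) lo hi = band (bst l lo k) (bst r k hi) := rfl
  rw [this, band_iff]; exact ⟨hl, hr⟩
theorem bst_chk : bst L 4096 (2 * 4096) = true := bs_0
theorem size_L : size L = 351 := sz_0
theorem q0_mem : q0 ∈ L.toList := mem_sound (by decide +kernel)
theorem ce_0 : Tr.all CE_0 L = true := ce_0_0
theorem tr : Tr.all (transQ mt sd PT DT q0) L = true := tr_0
theorem re_0 : Tr.all Rf_0 L = true := re_0_0
theorem pl_0 : ∀ q ∈ L.toList, q.Prime := prime_labels bs_0 pr_0 gc_0 (by norm_num) (by norm_num)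
theorem brecP {α : Type} {P : α → Prop} {x y : α} {b : Bool} (hx : P x) (hy : P y) : P (Bool.rec (motive := fun _ => α) x y b) := by
  cases b
  · exact hx
  · exact hy
theorem memM (x : ℕ) (h1 : 4096 ≤ x) (h2 : x < 2 * 4096) (h3 : MB x % x = 0) : x ∈ L.toList :=
  ((fun h => (mem_of_mod bs_0 pr_0 pl_0 h1 h2 (by norm_num) h)) : (fun M => M % x = 0 → x ∈ L.toList) (MB x)) h3
theorem mt_sound : ∀ x, mt x = true → x ∈ L.toList := fun x h => memt_sound (K := 4096) memM (x := x) h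
theorem pos : ∀ q ∈ L.toList, q ≠ 0 := fun q hq h => by
  have := ((bst_sound L _ _ bst_chk).1 q hq).1
  omega
theorem cu_0 (q : ℕ) : CE_0 q = true ↔ CD_b q = true ∧ CD_c q = true ∧ CD_d q = true ∧ CD_e q = true ∧ CD_f q = true ∧ CD_g q = true ∧ CD_h q = true ∧ CD_i q = true := by
  unfold CE_0
  simp only [bfalse_iff, and_true]
theorem cd_b : ∀ q ∈ L.toList, clQ mt F_b F_b q = true ∧ D_b q = true := fun q hq => (band_iff _ _).1 ((cu_0 q).1 ((Tr.all_iff _ _).1 ce_0 q hq)).1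
theorem cd_c : ∀ q ∈ L.toList, clQ mt F_c F_c q = true ∧ D_c q = true := fun q hq => (band_iff _ _).1 ((cu_0 q).1 ((Tr.all_iff _ _).1 ce_0 q hq)).2.1
theorem cd_d : ∀ q ∈ L.toList, clQ mt F_d F_d q = true ∧ D_d q = true := fun q hq => (band_iff _ _).1 ((cu_0 q).1 ((Tr.all_iff _ _).1 ce_0 q hq)).2.2.1
theorem cd_e : ∀ q ∈ L.toList, clQ mt F_e F_e q = true ∧ D_e q = true := fun q hq => (band_iff _ _).1 ((cu_0 q).1 ((Tr.all_iff _ _).1 ce_0 q hq)).2.2.2.1
theorem cd_f : ∀ q ∈ L.toList, clQ mt F_f F_f q = true ∧ D_f q = true := fun q hq => (band_iff _ _).1 ((cu_0 q).1 ((Tr.all_iff _ _).1 ce_0 q hq)).2.2.2.2.1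
theorem cd_g : ∀ q ∈ L.toList, clQ mt F_g F_g q = true ∧ D_g q = true := fun q hq => (band_iff _ _).1 ((cu_0 q).1 ((Tr.all_iff _ _).1 ce_0 q hq)).2.2.2.2.2.1
theorem cd_h : ∀ q ∈ L.toList, clQ mt F_h F_h q = true ∧ D_h q = true := fun q hq => (band_iff _ _).1 ((cu_0 q).1 ((Tr.all_iff _ _).1 ce_0 q hq)).2.2.2.2.2.2.1
theorem cd_i : ∀ q ∈ L.toList, clQ mt F_i F_i q = true ∧ D_i q = true := fun q hq => (band_iff _ _).1 ((cu_0 q).1 ((Tr.all_iff _ _).1 ce_0 q hq)).2.2.2.2.2.2.2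
theorem closed : Closed L stp inv := by
  refine ⟨?_, ?_, inv_inv⟩
  · intro q hq c
    cases c
    · exact mt_sound _ ((band_iff _ _).1 (cd_b q hq).1).1
    · exact mt_sound _ ((band_iff _ _).1 (cd_c q hq).1).1
    · exact mt_sound _ ((band_iff _ _).1 (cd_d q hq).1).1
    · exact mt_sound _ ((band_iff _ _).1 (cd_e q hq).1).1
    · exact mt_sound _ ((band_iff _ _).1 (cd_f q hq).1).1
    · exact mt_sound _ ((band_iff _ _).1 (cd_g q hq).1).1
    · exact mt_sound _ ((band_iff _ _).1 (cd_h q hq).1).1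
    · exact mt_sound _ ((band_iff _ _).1 (cd_i q hq).1).1
  · intro q hq c
    cases c
    · exact Nat.eq_of_beq_eq_true ((band_iff _ _).1 (cd_b q hq).1).2
    · exact Nat.eq_of_beq_eq_true ((band_iff _ _).1 (cd_c q hq).1).2
    · exact Nat.eq_of_beq_eq_true ((band_iff _ _).1 (cd_d q hq).1).2
    · exact Nat.eq_of_beq_eq_true ((band_iff _ _).1 (cd_e q hq).1).2
    · exact Nat.eq_of_beq_eq_true ((band_iff _ _).1 (cd_f q hq).1).2
    · exact Nat.eq_of_beq_eq_true ((band_iff _ _).1 (cd_g q hq).1).2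
    · exact Nat.eq_of_beq_eq_true ((band_iff _ _).1 (cd_h q hq).1).2
    · exact Nat.eq_of_beq_eq_true ((band_iff _ _).1 (cd_i q hq).1).2
theorem nodup : L.toList.Nodup := ((bst_sound L _ _ bst_chk).2.imp (fun h => Nat.ne_of_lt h))
theorem card_L : Nat.card (Om L) = 351 := by rw [card_Om L nodup, ← size_eq, size_L]
theorem hsd (d x : ℕ) : ∃ c, sd d x = stp c x := (brecP (P := fun y => ∃ c : Col, y = stp c x) (brecP (P := fun y => ∃ c : Col, y = stp c x) (brecP (P := fun y => ∃ c : Col, y = stp c x) ⟨.b, rfl⟩ ⟨.c, rfl⟩) (brecP (P := fun y => ∃ c : Col, y = stp c x) ⟨.d, rfl⟩ ⟨.e, rfl⟩)) (brecP (P := fun y => ∃ c : Col, y = stp c x) (brecP (P := fun y => ∃ c : Col, y = stp c x) ⟨.f, rfl⟩ ⟨.g, rfl⟩) (brecP (P := fun y => ∃ c : Col, y = stp c x) ⟨.h, rfl⟩ ⟨.i, rfl⟩)))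
theorem trans : ∀ q ∈ L.toList, ∃ w : List Col, walk stp w q0 = q := transQ_sound mt_sound hsd tr
theorem tau_lt (c : Col) {q : ℕ} (hq : 0 < q) : tau c q < q := by cases c <;> exact Nat.mod_lt _ hq
theorem tau_z : lall (fun c => Nat.ble 8192 (tau c 0)) cols = true := by decide +kernel
theorem hz : ∀ q ∈ L.toList, ∀ c c', tau c q ≤ tau c' 0 := by
  intro q hq c c'
  have h1 := (bst_sound L _ _ bst_chk).1 q hq
  have h2 := tau_lt c (q := q) (by omega)
  have h3 := Nat.le_of_ble_eq_true ((lall_iff _ _).1 tau_z c' (hcols c'))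
  omega
theorem ac_0 : agChk idx inv RW SW0 a_0 = true := by decide +kernel
theorem ac_1 : agChk idx inv RW SW0 a_1 = true := by decide +kernel
theorem ac_2 : agChk idx inv RW SW0 a_2 = true := by decide +kernel
theorem ac_3 : agChk idx inv RW SW0 a_3 = true := by decide +kernel
theorem ac_4 : agChk idx inv RW SW0 a_4 = true := by decide +kernel
theorem ac_5 : agChk idx inv RW SW0 a_5 = true := by decide +kernel
theorem ac_6 : agChk idx inv RW SW0 a_6 = true := by decide +kernel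
theorem ac_7 : agChk idx inv RW SW0 a_7 = true := by decide +kernel
theorem ac_8 : agChk idx inv RW SW0 a_8 = true := by decide +kernel
theorem ac_9 : agChk idx inv RW SW0 a_9 = true := by decide +kernel
theorem ac_10 : agChk idx inv RW SW0 a_10 = true := by decide +kernel
theorem ac_11 : agChk idx inv RW SW0 a_11 = true := by decide +kernel
theorem ac_12 : agChk idx inv RW SW0 a_12 = true := by decide +kernel
theorem ac_13 : agChk idx inv RW SW0 a_13 = true := by decide +kernel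
theorem ac_14 : agChk idx inv RW SW0 a_14 = true := by decide +kernel
theorem ac_15 : agChk idx inv RW SW0 a_15 = true := by decide +kernel
theorem ac_16 : agChk idx inv RW SW0 a_16 = true := by decide +kernel
theorem ac_17 : agChk idx inv RW SW0 a_17 = true := by decide +kernel
theorem ac_18 : agChk idx inv RW SW0 a_18 = true := by decide +kernel
theorem ac_19 : agChk idx inv RW SW0 a_19 = true := by decide +kernel
theorem ac_20 : agChk idx inv RW SW0 a_20 = true := by decide +kernel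
theorem ac_21 : agChk idx inv RW SW0 a_21 = true := by decide +kernel
theorem ac_22 : agChk idx inv RW SW0 a_22 = true := by decide +kernel
theorem ac_23 : agChk idx inv RW SW0 a_23 = true := by decide +kernel
theorem ac_24 : agChk idx inv RW SW0 a_24 = true := by decide +kernel
theorem ac_25 : agChk idx inv RW SW0 a_25 = true := by decide +kernel
theorem ac_26 : agChk idx inv RW SW0 a_26 = true := by decide +kernel
theorem ac_27 : agChk idx inv RW SW0 a_27 = true := by decide +kernel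
theorem ac_28 : agChk idx inv RW SW0 a_28 = true := by decide +kernel
theorem ac_29 : agChk idx inv RW SW0 a_29 = true := by decide +kernel
theorem ac_30 : agChk idx inv RW SW0 a_30 = true := by decide +kernel
theorem ac_31 : agChk idx inv RW SW0 a_31 = true := by decide +kernel
theorem ac_32 : agChk idx inv RW SW0 a_32 = true := by decide +kernel
theorem ac_33 : agChk idx inv RW SW0 a_33 = true := by decide +kernel
theorem ac_34 : agChk idx inv RW SW0 a_34 = true := by decide +kernel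
theorem ac_35 : agChk idx inv RW SW0 a_35 = true := by decide +kernel
theorem ac_36 : agChk idx inv RW SW0 a_36 = true := by decide +kernel
theorem ac_37 : agChk idx inv RW SW0 a_37 = true := by decide +kernel
theorem ac_38 : agChk idx inv RW SW0 a_38 = true := by decide +kernel
theorem ac_39 : agChk idx inv RW SW0 a_39 = true := by decide +kernel
theorem ac_40 : agChk idx inv RW SW0 a_40 = true := by decide +kernel
theorem ac_41 : agChk idx inv RW SW0 a_41 = true := by decide +kernel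
theorem ac_42 : agChk idx inv RW SW0 a_42 = true := by decide +kernel
theorem ac_43 : agChk idx inv RW SW0 a_43 = true := by decide +kernel
theorem ac_44 : agChk idx inv RW SW0 a_44 = true := by decide +kernel
theorem ac_45 : agChk idx inv RW SW0 a_45 = true := by decide +kernel
theorem ac_46 : agChk idx inv RW SW0 a_46 = true := by decide +kernel
theorem ac_47 : agChk idx inv RW SW0 a_47 = true := by decide +kernel
theorem ac_48 : agChk idx inv RW SW0 a_48 = true := by decide +kernel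
theorem ac_49 : agChk idx inv RW SW0 a_49 = true := by decide +kernel
theorem ac_50 : agChk idx inv RW SW0 a_50 = true := by decide +kernel
theorem ac_51 : agChk idx inv RW SW0 a_51 = true := by decide +kernel
theorem ac_52 : agChk idx inv RW SW0 a_52 = true := by decide +kernel
theorem ac_53 : agChk idx inv RW SW0 a_53 = true := by decide +kernel
theorem ac_54 : agChk idx inv RW SW0 a_54 = true := by decide +kernel
theorem ac_55 : agChk idx inv RW SW0 a_55 = true := by decide +kernel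
theorem ac_56 : agChk idx inv RW SW0 a_56 = true := by decide +kernel
theorem ac_57 : agChk idx inv RW SW0 a_57 = true := by decide +kernel
theorem ac_58 : agChk idx inv RW SW0 a_58 = true := by decide +kernel
theorem ac_59 : agChk idx inv RW SW0 a_59 = true := by decide +kernel
theorem ac_60 : agChk idx inv RW SW0 a_60 = true := by decide +kernel
theorem ac_61 : agChk idx inv RW SW0 a_61 = true := by decide +kernel
theorem ac_62 : agChk idx inv RW SW0 a_62 = true := by decide +kernel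
theorem ac_63 : agChk idx inv RW SW0 a_63 = true := by decide +kernel
theorem ac_64 : agChk idx inv RW SW0 a_64 = true := by decide +kernel
theorem ac_65 : agChk idx inv RW SW0 a_65 = true := by decide +kernel
theorem ac_66 : agChk idx inv RW SW0 a_66 = true := by decide +kernel
theorem ac_67 : agChk idx inv RW SW0 a_67 = true := by decide +kernel
theorem ac_68 : agChk idx inv RW SW0 a_68 = true := by decide +kernel
theorem ac_69 : agChk idx inv RW SW0 a_69 = true := by decide +kernel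
theorem ac_70 : agChk idx inv RW SW0 a_70 = true := by decide +kernel
theorem ac_71 : agChk idx inv RW SW0 a_71 = true := by decide +kernel
theorem ac_72 : agChk idx inv RW SW0 a_72 = true := by decide +kernel
theorem ac_73 : agChk idx inv RW SW0 a_73 = true := by decide +kernel
theorem ac_74 : agChk idx inv RW SW0 a_74 = true := by decide +kernel
theorem ac_75 : agChk idx inv RW SW0 a_75 = true := by decide +kernel
theorem ac_76 : agChk idx inv RW SW0 a_76 = true := by decide +kernel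
theorem ac_77 : agChk idx inv RW SW0 a_77 = true := by decide +kernel
theorem ac_78 : agChk idx inv RW SW0 a_78 = true := by decide +kernel
theorem ac_79 : agChk idx inv RW SW0 a_79 = true := by decide +kernel
theorem ac_80 : agChk idx inv RW SW0 a_80 = true := by decide +kernel
theorem ac_81 : agChk idx inv RW SW0 a_81 = true := by decide +kernel
theorem j_0 (q : ℕ) (h : E_0 (UU_b q) q = true) : Just stp tau idx inv RW SW0 PT DT q0 .b q := ⟨a_0, ac_0, rfl, h⟩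
theorem j_1 (q : ℕ) (h : E_1 (UU_b q) q = true) : Just stp tau idx inv RW SW0 PT DT q0 .b q := ⟨a_1, ac_1, rfl, h⟩
theorem j_2 (q : ℕ) (h : E_2 (UU_b q) q = true) : Just stp tau idx inv RW SW0 PT DT q0 .b q := ⟨a_2, ac_2, rfl, h⟩
theorem j_3 (q : ℕ) (h : E_3 (UU_b q) q = true) : Just stp tau idx inv RW SW0 PT DT q0 .b q := ⟨a_3, ac_3, rfl, h⟩
theorem j_4 (q : ℕ) (h : E_4 (UU_b q) q = true) : Just stp tau idx inv RW SW0 PT DT q0 .b q := ⟨a_4, ac_4, rfl, h⟩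
theorem j_5 (q : ℕ) (h : E_5 (UU_b q) q = true) : Just stp tau idx inv RW SW0 PT DT q0 .b q := ⟨a_5, ac_5, rfl, h⟩
theorem j_6 (q : ℕ) (h : E_6 (UU_b q) q = true) : Just stp tau idx inv RW SW0 PT DT q0 .b q := ⟨a_6, ac_6, rfl, h⟩
theorem j_7 (q : ℕ) (h : E_7 (UU_b q) q = true) : Just stp tau idx inv RW SW0 PT DT q0 .b q := ⟨a_7, ac_7, rfl, h⟩
theorem j_8 (q : ℕ) (h : E_8 (UU_b q) q = true) : Just stp tau idx inv RW SW0 PT DT q0 .b q := ⟨a_8, ac_8, rfl, h⟩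
theorem j_9 (q : ℕ) (h : E_9 (UU_b q) q = true) : Just stp tau idx inv RW SW0 PT DT q0 .b q := ⟨a_9, ac_9, rfl, h⟩
theorem j_10 (q : ℕ) (h : E_10 (UU_b q) q = true) : Just stp tau idx inv RW SW0 PT DT q0 .b q := ⟨a_10, ac_10, rfl, h⟩
theorem j_11 (q : ℕ) (h : E_11 (UU_c q) q = true) : Just stp tau idx inv RW SW0 PT DT q0 .c q := ⟨a_11, ac_11, rfl, h⟩
theorem j_12 (q : ℕ) (h : E_12 (UU_c q) q = true) : Just stp tau idx inv RW SW0 PT DT q0 .c q := ⟨a_12, ac_12, rfl, h⟩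
theorem j_13 (q : ℕ) (h : E_13 (UU_c q) q = true) : Just stp tau idx inv RW SW0 PT DT q0 .c q := ⟨a_13, ac_13, rfl, h⟩
theorem j_14 (q : ℕ) (h : E_14 (UU_c q) q = true) : Just stp tau idx inv RW SW0 PT DT q0 .c q := ⟨a_14, ac_14, rfl, h⟩
theorem j_15 (q : ℕ) (h : E_15 (UU_c q) q = true) : Just stp tau idx inv RW SW0 PT DT q0 .c q := ⟨a_15, ac_15, rfl, h⟩
theorem j_16 (q : ℕ) (h : E_16 (UU_c q) q = true) : Just stp tau idx inv RW SW0 PT DT q0 .c q := ⟨a_16, ac_16, rfl, h⟩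
theorem j_17 (q : ℕ) (h : E_17 (UU_c q) q = true) : Just stp tau idx inv RW SW0 PT DT q0 .c q := ⟨a_17, ac_17, rfl, h⟩
theorem j_18 (q : ℕ) (h : E_18 (UU_c q) q = true) : Just stp tau idx inv RW SW0 PT DT q0 .c q := ⟨a_18, ac_18, rfl, h⟩
theorem j_19 (q : ℕ) (h : E_19 (UU_c q) q = true) : Just stp tau idx inv RW SW0 PT DT q0 .c q := ⟨a_19, ac_19, rfl, h⟩
theorem j_20 (q : ℕ) (h : E_20 (UU_c q) q = true) : Just stp tau idx inv RW SW0 PT DT q0 .c q := ⟨a_20, ac_20, rfl, h⟩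
theorem j_21 (q : ℕ) (h : E_21 (UU_d q) q = true) : Just stp tau idx inv RW SW0 PT DT q0 .d q := ⟨a_21, ac_21, rfl, h⟩
theorem j_22 (q : ℕ) (h : E_22 (UU_d q) q = true) : Just stp tau idx inv RW SW0 PT DT q0 .d q := ⟨a_22, ac_22, rfl, h⟩
theorem j_23 (q : ℕ) (h : E_23 (UU_d q) q = true) : Just stp tau idx inv RW SW0 PT DT q0 .d q := ⟨a_23, ac_23, rfl, h⟩
theorem j_24 (q : ℕ) (h : E_24 (UU_d q) q = true) : Just stp tau idx inv RW SW0 PT DT q0 .d q := ⟨a_24, ac_24, rfl, h⟩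
theorem j_25 (q : ℕ) (h : E_25 (UU_d q) q = true) : Just stp tau idx inv RW SW0 PT DT q0 .d q := ⟨a_25, ac_25, rfl, h⟩
theorem j_26 (q : ℕ) (h : E_26 (UU_d q) q = true) : Just stp tau idx inv RW SW0 PT DT q0 .d q := ⟨a_26, ac_26, rfl, h⟩
theorem j_27 (q : ℕ) (h : E_27 (UU_d q) q = true) : Just stp tau idx inv RW SW0 PT DT q0 .d q := ⟨a_27, ac_27, rfl, h⟩
theorem j_28 (q : ℕ) (h : E_28 (UU_d q) q = true) : Just stp tau idx inv RW SW0 PT DT q0 .d q := ⟨a_28, ac_28, rfl, h⟩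
theorem j_29 (q : ℕ) (h : E_29 (UU_d q) q = true) : Just stp tau idx inv RW SW0 PT DT q0 .d q := ⟨a_29, ac_29, rfl, h⟩
theorem j_30 (q : ℕ) (h : E_30 (UU_d q) q = true) : Just stp tau idx inv RW SW0 PT DT q0 .d q := ⟨a_30, ac_30, rfl, h⟩
theorem j_31 (q : ℕ) (h : E_31 (UU_d q) q = true) : Just stp tau idx inv RW SW0 PT DT q0 .d q := ⟨a_31, ac_31, rfl, h⟩
theorem j_32 (q : ℕ) (h : E_32 (UU_d q) q = true) : Just stp tau idx inv RW SW0 PT DT q0 .d q := ⟨a_32, ac_32, rfl, h⟩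
theorem j_33 (q : ℕ) (h : E_33 (UU_e q) q = true) : Just stp tau idx inv RW SW0 PT DT q0 .e q := ⟨a_33, ac_33, rfl, h⟩
theorem j_34 (q : ℕ) (h : E_34 (UU_e q) q = true) : Just stp tau idx inv RW SW0 PT DT q0 .e q := ⟨a_34, ac_34, rfl, h⟩
theorem j_35 (q : ℕ) (h : E_35 (UU_e q) q = true) : Just stp tau idx inv RW SW0 PT DT q0 .e q := ⟨a_35, ac_35, rfl, h⟩
theorem j_36 (q : ℕ) (h : E_36 (UU_e q) q = true) : Just stp tau idx inv RW SW0 PT DT q0 .e q := ⟨a_36, ac_36, rfl, h⟩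
theorem j_37 (q : ℕ) (h : E_37 (UU_e q) q = true) : Just stp tau idx inv RW SW0 PT DT q0 .e q := ⟨a_37, ac_37, rfl, h⟩
theorem j_38 (q : ℕ) (h : E_38 (UU_e q) q = true) : Just stp tau idx inv RW SW0 PT DT q0 .e q := ⟨a_38, ac_38, rfl, h⟩
theorem j_39 (q : ℕ) (h : E_39 (UU_e q) q = true) : Just stp tau idx inv RW SW0 PT DT q0 .e q := ⟨a_39, ac_39, rfl, h⟩
theorem j_40 (q : ℕ) (h : E_40 (UU_e q) q = true) : Just stp tau idx inv RW SW0 PT DT q0 .e q := ⟨a_40, ac_40, rfl, h⟩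
theorem j_41 (q : ℕ) (h : E_41 (UU_e q) q = true) : Just stp tau idx inv RW SW0 PT DT q0 .e q := ⟨a_41, ac_41, rfl, h⟩
theorem j_42 (q : ℕ) (h : E_42 (UU_e q) q = true) : Just stp tau idx inv RW SW0 PT DT q0 .e q := ⟨a_42, ac_42, rfl, h⟩
theorem j_43 (q : ℕ) (h : E_43 (UU_f q) q = true) : Just stp tau idx inv RW SW0 PT DT q0 .f q := ⟨a_43, ac_43, rfl, h⟩
theorem j_44 (q : ℕ) (h : E_44 (UU_f q) q = true) : Just stp tau idx inv RW SW0 PT DT q0 .f q := ⟨a_44, ac_44, rfl, h⟩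
theorem j_45 (q : ℕ) (h : E_45 (UU_f q) q = true) : Just stp tau idx inv RW SW0 PT DT q0 .f q := ⟨a_45, ac_45, rfl, h⟩
theorem j_46 (q : ℕ) (h : E_46 (UU_f q) q = true) : Just stp tau idx inv RW SW0 PT DT q0 .f q := ⟨a_46, ac_46, rfl, h⟩
theorem j_47 (q : ℕ) (h : E_47 (UU_f q) q = true) : Just stp tau idx inv RW SW0 PT DT q0 .f q := ⟨a_47, ac_47, rfl, h⟩
theorem j_48 (q : ℕ) (h : E_48 (UU_f q) q = true) : Just stp tau idx inv RW SW0 PT DT q0 .f q := ⟨a_48, ac_48, rfl, h⟩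
theorem j_49 (q : ℕ) (h : E_49 (UU_f q) q = true) : Just stp tau idx inv RW SW0 PT DT q0 .f q := ⟨a_49, ac_49, rfl, h⟩
theorem j_50 (q : ℕ) (h : E_50 (UU_f q) q = true) : Just stp tau idx inv RW SW0 PT DT q0 .f q := ⟨a_50, ac_50, rfl, h⟩
theorem j_51 (q : ℕ) (h : E_51 (UU_f q) q = true) : Just stp tau idx inv RW SW0 PT DT q0 .f q := ⟨a_51, ac_51, rfl, h⟩
theorem j_52 (q : ℕ) (h : E_52 (UU_g q) q = true) : Just stp tau idx inv RW SW0 PT DT q0 .g q := ⟨a_52, ac_52, rfl, h⟩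
theorem j_53 (q : ℕ) (h : E_53 (UU_g q) q = true) : Just stp tau idx inv RW SW0 PT DT q0 .g q := ⟨a_53, ac_53, rfl, h⟩
theorem j_54 (q : ℕ) (h : E_54 (UU_g q) q = true) : Just stp tau idx inv RW SW0 PT DT q0 .g q := ⟨a_54, ac_54, rfl, h⟩
theorem j_55 (q : ℕ) (h : E_55 (UU_g q) q = true) : Just stp tau idx inv RW SW0 PT DT q0 .g q := ⟨a_55, ac_55, rfl, h⟩
theorem j_56 (q : ℕ) (h : E_56 (UU_g q) q = true) : Just stp tau idx inv RW SW0 PT DT q0 .g q := ⟨a_56, ac_56, rfl, h⟩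
theorem j_57 (q : ℕ) (h : E_57 (UU_g q) q = true) : Just stp tau idx inv RW SW0 PT DT q0 .g q := ⟨a_57, ac_57, rfl, h⟩
theorem j_58 (q : ℕ) (h : E_58 (UU_g q) q = true) : Just stp tau idx inv RW SW0 PT DT q0 .g q := ⟨a_58, ac_58, rfl, h⟩
theorem j_59 (q : ℕ) (h : E_59 (UU_g q) q = true) : Just stp tau idx inv RW SW0 PT DT q0 .g q := ⟨a_59, ac_59, rfl, h⟩
theorem j_60 (q : ℕ) (h : E_60 (UU_g q) q = true) : Just stp tau idx inv RW SW0 PT DT q0 .g q := ⟨a_60, ac_60, rfl, h⟩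
theorem j_61 (q : ℕ) (h : E_61 (UU_g q) q = true) : Just stp tau idx inv RW SW0 PT DT q0 .g q := ⟨a_61, ac_61, rfl, h⟩
theorem j_62 (q : ℕ) (h : E_62 (UU_h q) q = true) : Just stp tau idx inv RW SW0 PT DT q0 .h q := ⟨a_62, ac_62, rfl, h⟩
theorem j_63 (q : ℕ) (h : E_63 (UU_h q) q = true) : Just stp tau idx inv RW SW0 PT DT q0 .h q := ⟨a_63, ac_63, rfl, h⟩
theorem j_64 (q : ℕ) (h : E_64 (UU_h q) q = true) : Just stp tau idx inv RW SW0 PT DT q0 .h q := ⟨a_64, ac_64, rfl, h⟩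
theorem j_65 (q : ℕ) (h : E_65 (UU_h q) q = true) : Just stp tau idx inv RW SW0 PT DT q0 .h q := ⟨a_65, ac_65, rfl, h⟩
theorem j_66 (q : ℕ) (h : E_66 (UU_h q) q = true) : Just stp tau idx inv RW SW0 PT DT q0 .h q := ⟨a_66, ac_66, rfl, h⟩
theorem j_67 (q : ℕ) (h : E_67 (UU_h q) q = true) : Just stp tau idx inv RW SW0 PT DT q0 .h q := ⟨a_67, ac_67, rfl, h⟩
theorem j_68 (q : ℕ) (h : E_68 (UU_h q) q = true) : Just stp tau idx inv RW SW0 PT DT q0 .h q := ⟨a_68, ac_68, rfl, h⟩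
theorem j_69 (q : ℕ) (h : E_69 (UU_h q) q = true) : Just stp tau idx inv RW SW0 PT DT q0 .h q := ⟨a_69, ac_69, rfl, h⟩
theorem j_70 (q : ℕ) (h : E_70 (UU_h q) q = true) : Just stp tau idx inv RW SW0 PT DT q0 .h q := ⟨a_70, ac_70, rfl, h⟩
theorem j_71 (q : ℕ) (h : E_71 (UU_h q) q = true) : Just stp tau idx inv RW SW0 PT DT q0 .h q := ⟨a_71, ac_71, rfl, h⟩
theorem j_72 (q : ℕ) (h : E_72 (UU_i q) q = true) : Just stp tau idx inv RW SW0 PT DT q0 .i q := ⟨a_72, ac_72, rfl, h⟩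
theorem j_73 (q : ℕ) (h : E_73 (UU_i q) q = true) : Just stp tau idx inv RW SW0 PT DT q0 .i q := ⟨a_73, ac_73, rfl, h⟩
theorem j_74 (q : ℕ) (h : E_74 (UU_i q) q = true) : Just stp tau idx inv RW SW0 PT DT q0 .i q := ⟨a_74, ac_74, rfl, h⟩
theorem j_75 (q : ℕ) (h : E_75 (UU_i q) q = true) : Just stp tau idx inv RW SW0 PT DT q0 .i q := ⟨a_75, ac_75, rfl, h⟩
theorem j_76 (q : ℕ) (h : E_76 (UU_i q) q = true) : Just stp tau idx inv RW SW0 PT DT q0 .i q := ⟨a_76, ac_76, rfl, h⟩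
theorem j_77 (q : ℕ) (h : E_77 (UU_i q) q = true) : Just stp tau idx inv RW SW0 PT DT q0 .i q := ⟨a_77, ac_77, rfl, h⟩
theorem j_78 (q : ℕ) (h : E_78 (UU_i q) q = true) : Just stp tau idx inv RW SW0 PT DT q0 .i q := ⟨a_78, ac_78, rfl, h⟩
theorem j_79 (q : ℕ) (h : E_79 (UU_i q) q = true) : Just stp tau idx inv RW SW0 PT DT q0 .i q := ⟨a_79, ac_79, rfl, h⟩
theorem j_80 (q : ℕ) (h : E_80 (UU_i q) q = true) : Just stp tau idx inv RW SW0 PT DT q0 .i q := ⟨a_80, ac_80, rfl, h⟩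
theorem j_81 (q : ℕ) (h : E_81 (UU_i q) q = true) : Just stp tau idx inv RW SW0 PT DT q0 .i q := ⟨a_81, ac_81, rfl, h⟩
theorem jc_b (q : ℕ) (h : D_b q = true) : Just stp tau idx inv RW SW0 PT DT q0 .b q := (brec (brec (j_0 q) (j_1 q)) (brec (brec (brec (j_2 q) (j_3 q)) (brec (j_4 q) (j_5 q))) (brec (brec (j_6 q) (j_7 q)) (brec (j_8 q) (brec (j_9 q) (j_10 q)))))) h
theorem jc_c (q : ℕ) (h : D_c q = true) : Just stp tau idx inv RW SW0 PT DT q0 .c q := (brec (brec (j_11 q) (j_12 q)) (brec (brec (brec (j_13 q) (j_14 q)) (brec (j_15 q) (j_16 q))) (brec (brec (j_17 q) (j_18 q)) (brec (j_19 q) (j_20 q))))) h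
theorem jc_d (q : ℕ) (h : D_d q = true) : Just stp tau idx inv RW SW0 PT DT q0 .d q := (brec (brec (j_21 q) (j_22 q)) (brec (brec (brec (j_23 q) (j_24 q)) (brec (j_25 q) (brec (j_26 q) (j_27 q)))) (brec (brec (j_28 q) (j_29 q)) (brec (j_30 q) (brec (j_31 q) (j_32 q)))))) h
theorem jc_e (q : ℕ) (h : D_e q = true) : Just stp tau idx inv RW SW0 PT DT q0 .e q := (brec (brec (j_33 q) (j_34 q)) (brec (brec (brec (j_35 q) (j_36 q)) (brec (j_37 q) (j_38 q))) (brec (brec (j_39 q) (j_40 q)) (brec (j_41 q) (j_42 q))))) h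
theorem jc_f (q : ℕ) (h : D_f q = true) : Just stp tau idx inv RW SW0 PT DT q0 .f q := (brec (brec (j_43 q) (j_44 q)) (brec (brec (j_45 q) (brec (j_46 q) (j_47 q))) (brec (brec (j_48 q) (j_49 q)) (brec (j_50 q) (j_51 q))))) h
theorem jc_g (q : ℕ) (h : D_g q = true) : Just stp tau idx inv RW SW0 PT DT q0 .g q := (brec (brec (j_52 q) (j_53 q)) (brec (brec (brec (j_54 q) (j_55 q)) (brec (j_56 q) (j_57 q))) (brec (brec (j_58 q) (j_59 q)) (brec (j_60 q) (j_61 q))))) h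
theorem jc_h (q : ℕ) (h : D_h q = true) : Just stp tau idx inv RW SW0 PT DT q0 .h q := (brec (brec (j_62 q) (j_63 q)) (brec (brec (brec (j_64 q) (j_65 q)) (brec (j_66 q) (j_67 q))) (brec (brec (j_68 q) (j_69 q)) (brec (j_70 q) (j_71 q))))) h
theorem jc_i (q : ℕ) (h : D_i q = true) : Just stp tau idx inv RW SW0 PT DT q0 .i q := (brec (brec (j_72 q) (j_73 q)) (brec (brec (brec (j_74 q) (j_75 q)) (brec (j_76 q) (j_77 q))) (brec (brec (j_78 q) (j_79 q)) (brec (j_80 q) (j_81 q))))) h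
theorem hE : ∀ q ∈ L.toList, ∀ c, Just stp tau idx inv RW SW0 PT DT q0 c q := by
  intro q hq c
  cases c
  · exact jc_b q (cd_b q hq).2
  · exact jc_c q (cd_c q hq).2
  · exact jc_d q (cd_d q hq).2
  · exact jc_e q (cd_e q hq).2
  · exact jc_f q (cd_f q hq).2
  · exact jc_g q (cd_g q hq).2
  · exact jc_h q (cd_h q hq).2
  · exact jc_i q (cd_i q hq).2
theorem stp_b (q : ℕ) : stp Col.b q = F_b q := rfl
theorem stp_c (q : ℕ) : stp Col.c q = F_c q := rfl
theorem stp_d (q : ℕ) : stp Col.d q = F_d q := rfl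
theorem stp_e (q : ℕ) : stp Col.e q = F_e q := rfl
theorem stp_f (q : ℕ) : stp Col.f q = F_f q := rfl
theorem stp_g (q : ℕ) : stp Col.g q = F_g q := rfl
theorem stp_h (q : ℕ) : stp Col.h q = F_h q := rfl
theorem stp_i (q : ℕ) : stp Col.i q = F_i q := rfl
theorem ru_0 (q : ℕ) : Rf_0 q = true ↔ Nat.beq ((F_b (F_b q))) q = true ∧ Nat.beq ((F_b (F_c (F_b (F_c (F_b (F_c q))))))) q = true ∧ Nat.beq ((F_b (F_d (F_b (F_d q))))) q = true ∧ Nat.beq ((F_b (F_e (F_b (F_e q))))) q = true ∧ Nat.beq ((F_b (F_f (F_b (F_f q))))) q = true ∧ Nat.beq ((F_b (F_g (F_b (F_g q))))) q = true ∧ Nat.beq ((F_b (F_h (F_b (F_h q))))) q = true ∧ Nat.beq ((F_b (F_i (F_b (F_i q))))) q = true ∧ Nat.beq ((F_c (F_c q))) q = true ∧ Nat.beq ((F_c (F_d (F_c (F_d (F_c (F_d q))))))) q = true ∧ Nat.beq ((F_c (F_e (F_c (F_e q))))) q = true ∧ Nat.beq ((F_c (F_f (F_c (F_f q))))) q = true ∧ Nat.beq ((F_c (F_g (F_c (F_g q))))) q = true ∧ Nat.beq ((F_c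 (F_h (F_c (F_h q))))) q = true ∧ Nat.beq ((F_c (F_i (F_c (F_i q))))) q = true ∧ Nat.beq ((F_d (F_d q))) q = true ∧ Nat.beq ((F_d (F_e (F_d (F_e (F_d (F_e q))))))) q = true ∧ Nat.beq ((F_d (F_f (F_d (F_f q))))) q = true ∧ Nat.beq ((F_d (F_g (F_d (F_g q))))) q = true ∧ Nat.beq ((F_d (F_h (F_d (F_h (F_d (F_h q))))))) q = true ∧ Nat.beq ((F_d (F_i (F_d (F_i q))))) q = true ∧ Nat.beq ((F_e (F_e q))) q = true ∧ Nat.beq ((F_e (F_f (F_e (F_f (F_e (F_f q))))))) q = true ∧ Nat.beq ((F_e (F_g (F_e (F_g q))))) q = true ∧ Nat.beq ((F_e (F_h (F_e (F_h q))))) q = true ∧ Nat.beq ((F_e (F_i (F_e (F_i q))))) q = true ∧ Nat.beq ((F_f (F_f q))) q = true ∧ Nat.beq ((F_f (F_g (F_f (F_g (F_f (F_g q))))))) q = true ∧ Nat.beq ((F_f (F_h (F_f (F_h q))))) q = true ∧ Nat.beq ((F_f (F_i (F_f (F_i q))))) q = true ∧ Nat.beq ((F_g (F_g q))) q = true ∧ Nat.beq ((F_g (F_h (F_g (F_h q))))) q = true ∧ Nat.beq ((F_g (F_i (F_g (F_i q)))))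 q = true ∧ Nat.beq ((F_h (F_h q))) q = true ∧ Nat.beq ((F_h (F_i (F_h (F_i (F_h (F_i q))))))) q = true ∧ Nat.beq ((F_i (F_i q))) q = true ∧ Nat.beq ((F_d (F_c (F_b (F_d (F_e (F_f (F_d (F_h (F_i (F_d (F_c (F_b (F_d (F_e (F_f (F_d (F_h (F_i (F_d (F_c (F_b (F_d (F_e (F_f (F_d (F_h (F_i (F_d (F_c (F_b (F_d (F_e (F_f (F_d (F_h (F_i (F_d (F_c (F_b (F_d (F_e (F_f (F_d (F_h (F_i (F_d (F_c (F_b (F_d (F_e (F_f (F_d (F_h (F_i (F_d (F_c (F_b (F_d (F_e (F_f (F_d (F_h (F_i (F_d (F_c (F_b (F_d (F_e (F_f (F_d (F_h (F_i (F_d (F_c (F_b (F_d (F_e (F_f (F_d (F_h (F_i (F_d (F_c (F_b (F_d (F_e (F_f (F_d (F_h (F_i q))))))))))))))))))))))))))))))))))))))))))))))))))))))))))))))))))))))))))))))))))))))))))) q = true ∧ Nat.beq ((F_b (F_c (F_d (F_e (F_f (F_g (F_h (F_b (F_c (F_d (F_e (F_f (F_g (F_h (F_b (F_c (F_d (F_e (F_f (F_g (F_h (F_b (F_c (F_d (F_e (F_f (F_g (F_h (F_b (F_c (F_d (F_e (F_f (F_g (F_h (F_b (F_c (F_d (F_e (F_f (F_g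 (F_h (F_b (F_c (F_d (F_e (F_f (F_g (F_h (F_b (F_c (F_d (F_e (F_f (F_g (F_h (F_b (F_c (F_d (F_e (F_f (F_g (F_h q)))))))))))))))))))))))))))))))))))))))))))))))))))))))))))))))) q = true := by
  unfold Rf_0
  simp only [bfalse_iff, and_true]
theorem rel_0 : relChk L stp [Col.b, Col.b] = true := by
  rw [relChk, Tr.all_iff]
  intro q hq
  have h := ((ru_0 q).1 ((Tr.all_iff _ _).1 re_0 q hq)).1
  simp only [walk_cons, walk_nil, stp_b, stp_c, stp_d, stp_e, stp_f, stp_g, stp_h, stp_i]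
  exact h
theorem rel_1 : relChk L stp [Col.c, Col.b, Col.c, Col.b, Col.c, Col.b] = true := by
  rw [relChk, Tr.all_iff]
  intro q hq
  have h := ((ru_0 q).1 ((Tr.all_iff _ _).1 re_0 q hq)).2.1
  simp only [walk_cons, walk_nil, stp_b, stp_c, stp_d, stp_e, stp_f, stp_g, stp_h, stp_i]
  exact h
theorem rel_2 : relChk L stp [Col.d, Col.b, Col.d, Col.b] = true := by
  rw [relChk, Tr.all_iff]
  intro q hq
  have h := ((ru_0 q).1 ((Tr.all_iff _ _).1 re_0 q hq)).2.2.1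
  simp only [walk_cons, walk_nil, stp_b, stp_c, stp_d, stp_e, stp_f, stp_g, stp_h, stp_i]
  exact h
theorem rel_3 : relChk L stp [Col.e, Col.b, Col.e, Col.b] = true := by
  rw [relChk, Tr.all_iff]
  intro q hq
  have h := ((ru_0 q).1 ((Tr.all_iff _ _).1 re_0 q hq)).2.2.2.1
  simp only [walk_cons, walk_nil, stp_b, stp_c, stp_d, stp_e, stp_f, stp_g, stp_h, stp_i]
  exact h
theorem rel_4 : relChk L stp [Col.f, Col.b, Col.f, Col.b] = true := by
  rw [relChk, Tr.all_iff]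
  intro q hq
  have h := ((ru_0 q).1 ((Tr.all_iff _ _).1 re_0 q hq)).2.2.2.2.1
  simp only [walk_cons, walk_nil, stp_b, stp_c, stp_d, stp_e, stp_f, stp_g, stp_h, stp_i]
  exact h
theorem rel_5 : relChk L stp [Col.g, Col.b, Col.g, Col.b] = true := by
  rw [relChk, Tr.all_iff]
  intro q hq
  have h := ((ru_0 q).1 ((Tr.all_iff _ _).1 re_0 q hq)).2.2.2.2.2.1
  simp only [walk_cons, walk_nil, stp_b, stp_c, stp_d, stp_e, stp_f, stp_g, stp_h, stp_i]
  exact h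
theorem rel_6 : relChk L stp [Col.h, Col.b, Col.h, Col.b] = true := by
  rw [relChk, Tr.all_iff]
  intro q hq
  have h := ((ru_0 q).1 ((Tr.all_iff _ _).1 re_0 q hq)).2.2.2.2.2.2.1
  simp only [walk_cons, walk_nil, stp_b, stp_c, stp_d, stp_e, stp_f, stp_g, stp_h, stp_i]
  exact h
theorem rel_7 : relChk L stp [Col.i, Col.b, Col.i, Col.b] = true := by
  rw [relChk, Tr.all_iff]
  intro q hq
  have h := ((ru_0 q).1 ((Tr.all_iff _ _).1 re_0 q hq)).2.2.2.2.2.2.2.1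
  simp only [walk_cons, walk_nil, stp_b, stp_c, stp_d, stp_e, stp_f, stp_g, stp_h, stp_i]
  exact h
theorem rel_8 : relChk L stp [Col.c, Col.c] = true := by
  rw [relChk, Tr.all_iff]
  intro q hq
  have h := ((ru_0 q).1 ((Tr.all_iff _ _).1 re_0 q hq)).2.2.2.2.2.2.2.2.1
  simp only [walk_cons, walk_nil, stp_b, stp_c, stp_d, stp_e, stp_f, stp_g, stp_h, stp_i]
  exact h
theorem rel_9 : relChk L stp [Col.d, Col.c, Col.d, Col.c, Col.d, Col.c] = true := by
  rw [relChk, Tr.all_iff]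
  intro q hq
  have h := ((ru_0 q).1 ((Tr.all_iff _ _).1 re_0 q hq)).2.2.2.2.2.2.2.2.2.1
  simp only [walk_cons, walk_nil, stp_b, stp_c, stp_d, stp_e, stp_f, stp_g, stp_h, stp_i]
  exact h
theorem rel_10 : relChk L stp [Col.e, Col.c, Col.e, Col.c] = true := by
  rw [relChk, Tr.all_iff]
  intro q hq
  have h := ((ru_0 q).1 ((Tr.all_iff _ _).1 re_0 q hq)).2.2.2.2.2.2.2.2.2.2.1
  simp only [walk_cons, walk_nil, stp_b, stp_c, stp_d, stp_e, stp_f, stp_g, stp_h, stp_i]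
  exact h
theorem rel_11 : relChk L stp [Col.f, Col.c, Col.f, Col.c] = true := by
  rw [relChk, Tr.all_iff]
  intro q hq
  have h := ((ru_0 q).1 ((Tr.all_iff _ _).1 re_0 q hq)).2.2.2.2.2.2.2.2.2.2.2.1
  simp only [walk_cons, walk_nil, stp_b, stp_c, stp_d, stp_e, stp_f, stp_g, stp_h, stp_i]
  exact h
theorem rel_12 : relChk L stp [Col.g, Col.c, Col.g, Col.c] = true := by
  rw [relChk, Tr.all_iff]
  intro q hq
  have h := ((ru_0 q).1 ((Tr.all_iff _ _).1 re_0 q hq)).2.2.2.2.2.2.2.2.2.2.2.2.1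
  simp only [walk_cons, walk_nil, stp_b, stp_c, stp_d, stp_e, stp_f, stp_g, stp_h, stp_i]
  exact h
theorem rel_13 : relChk L stp [Col.h, Col.c, Col.h, Col.c] = true := by
  rw [relChk, Tr.all_iff]
  intro q hq
  have h := ((ru_0 q).1 ((Tr.all_iff _ _).1 re_0 q hq)).2.2.2.2.2.2.2.2.2.2.2.2.2.1
  simp only [walk_cons, walk_nil, stp_b, stp_c, stp_d, stp_e, stp_f, stp_g, stp_h, stp_i]
  exact h
theorem rel_14 : relChk L stp [Col.i, Col.c, Col.i, Col.c] = true := by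
  rw [relChk, Tr.all_iff]
  intro q hq
  have h := ((ru_0 q).1 ((Tr.all_iff _ _).1 re_0 q hq)).2.2.2.2.2.2.2.2.2.2.2.2.2.2.1
  simp only [walk_cons, walk_nil, stp_b, stp_c, stp_d, stp_e, stp_f, stp_g, stp_h, stp_i]
  exact h
theorem rel_15 : relChk L stp [Col.d, Col.d] = true := by
  rw [relChk, Tr.all_iff]
  intro q hq
  have h := ((ru_0 q).1 ((Tr.all_iff _ _).1 re_0 q hq)).2.2.2.2.2.2.2.2.2.2.2.2.2.2.2.1
  simp only [walk_cons, walk_nil, stp_b, stp_c, stp_d, stp_e, stp_f, stp_g, stp_h, stp_i]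
  exact h
theorem rel_16 : relChk L stp [Col.e, Col.d, Col.e, Col.d, Col.e, Col.d] = true := by
  rw [relChk, Tr.all_iff]
  intro q hq
  have h := ((ru_0 q).1 ((Tr.all_iff _ _).1 re_0 q hq)).2.2.2.2.2.2.2.2.2.2.2.2.2.2.2.2.1
  simp only [walk_cons, walk_nil, stp_b, stp_c, stp_d, stp_e, stp_f, stp_g, stp_h, stp_i]
  exact h
theorem rel_17 : relChk L stp [Col.f, Col.d, Col.f, Col.d] = true := by
  rw [relChk, Tr.all_iff]
  intro q hq
  have h := ((ru_0 q).1 ((Tr.all_iff _ _).1 re_0 q hq)).2.2.2.2.2.2.2.2.2.2.2.2.2.2.2.2.2.1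
  simp only [walk_cons, walk_nil, stp_b, stp_c, stp_d, stp_e, stp_f, stp_g, stp_h, stp_i]
  exact h
theorem rel_18 : relChk L stp [Col.g, Col.d, Col.g, Col.d] = true := by
  rw [relChk, Tr.all_iff]
  intro q hq
  have h := ((ru_0 q).1 ((Tr.all_iff _ _).1 re_0 q hq)).2.2.2.2.2.2.2.2.2.2.2.2.2.2.2.2.2.2.1
  simp only [walk_cons, walk_nil, stp_b, stp_c, stp_d, stp_e, stp_f, stp_g, stp_h, stp_i]
  exact h
theorem rel_19 : relChk L stp [Col.h, Col.d, Col.h, Col.d, Col.h, Col.d] = true := by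
  rw [relChk, Tr.all_iff]
  intro q hq
  have h := ((ru_0 q).1 ((Tr.all_iff _ _).1 re_0 q hq)).2.2.2.2.2.2.2.2.2.2.2.2.2.2.2.2.2.2.2.1
  simp only [walk_cons, walk_nil, stp_b, stp_c, stp_d, stp_e, stp_f, stp_g, stp_h, stp_i]
  exact h
theorem rel_20 : relChk L stp [Col.i, Col.d, Col.i, Col.d] = true := by
  rw [relChk, Tr.all_iff]
  intro q hq
  have h := ((ru_0 q).1 ((Tr.all_iff _ _).1 re_0 q hq)).2.2.2.2.2.2.2.2.2.2.2.2.2.2.2.2.2.2.2.2.1
  simp only [walk_cons, walk_nil, stp_b, stp_c, stp_d, stp_e, stp_f, stp_g, stp_h, stp_i]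
  exact h
theorem rel_21 : relChk L stp [Col.e, Col.e] = true := by
  rw [relChk, Tr.all_iff]
  intro q hq
  have h := ((ru_0 q).1 ((Tr.all_iff _ _).1 re_0 q hq)).2.2.2.2.2.2.2.2.2.2.2.2.2.2.2.2.2.2.2.2.2.1
  simp only [walk_cons, walk_nil, stp_b, stp_c, stp_d, stp_e, stp_f, stp_g, stp_h, stp_i]
  exact h
theorem rel_22 : relChk L stp [Col.f, Col.e, Col.f, Col.e, Col.f, Col.e] = true := by
  rw [relChk, Tr.all_iff]
  intro q hq
  have h := ((ru_0 q).1 ((Tr.all_iff _ _).1 re_0 q hq)).2.2.2.2.2.2.2.2.2.2.2.2.2.2.2.2.2.2.2.2.2.2.1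
  simp only [walk_cons, walk_nil, stp_b, stp_c, stp_d, stp_e, stp_f, stp_g, stp_h, stp_i]
  exact h
theorem rel_23 : relChk L stp [Col.g, Col.e, Col.g, Col.e] = true := by
  rw [relChk, Tr.all_iff]
  intro q hq
  have h := ((ru_0 q).1 ((Tr.all_iff _ _).1 re_0 q hq)).2.2.2.2.2.2.2.2.2.2.2.2.2.2.2.2.2.2.2.2.2.2.2.1
  simp only [walk_cons, walk_nil, stp_b, stp_c, stp_d, stp_e, stp_f, stp_g, stp_h, stp_i]
  exact h
theorem rel_24 : relChk L stp [Col.h, Col.e, Col.h, Col.e] = true := by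
  rw [relChk, Tr.all_iff]
  intro q hq
  have h := ((ru_0 q).1 ((Tr.all_iff _ _).1 re_0 q hq)).2.2.2.2.2.2.2.2.2.2.2.2.2.2.2.2.2.2.2.2.2.2.2.2.1
  simp only [walk_cons, walk_nil, stp_b, stp_c, stp_d, stp_e, stp_f, stp_g, stp_h, stp_i]
  exact h
theorem rel_25 : relChk L stp [Col.i, Col.e, Col.i, Col.e] = true := by
  rw [relChk, Tr.all_iff]
  intro q hq
  have h := ((ru_0 q).1 ((Tr.all_iff _ _).1 re_0 q hq)).2.2.2.2.2.2.2.2.2.2.2.2.2.2.2.2.2.2.2.2.2.2.2.2.2.1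
  simp only [walk_cons, walk_nil, stp_b, stp_c, stp_d, stp_e, stp_f, stp_g, stp_h, stp_i]
  exact h
theorem rel_26 : relChk L stp [Col.f, Col.f] = true := by
  rw [relChk, Tr.all_iff]
  intro q hq
  have h := ((ru_0 q).1 ((Tr.all_iff _ _).1 re_0 q hq)).2.2.2.2.2.2.2.2.2.2.2.2.2.2.2.2.2.2.2.2.2.2.2.2.2.2.1
  simp only [walk_cons, walk_nil, stp_b, stp_c, stp_d, stp_e, stp_f, stp_g, stp_h, stp_i]
  exact h
theorem rel_27 : relChk L stp [Col.g, Col.f, Col.g, Col.f, Col.g, Col.f] = true := by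
  rw [relChk, Tr.all_iff]
  intro q hq
  have h := ((ru_0 q).1 ((Tr.all_iff _ _).1 re_0 q hq)).2.2.2.2.2.2.2.2.2.2.2.2.2.2.2.2.2.2.2.2.2.2.2.2.2.2.2.1
  simp only [walk_cons, walk_nil, stp_b, stp_c, stp_d, stp_e, stp_f, stp_g, stp_h, stp_i]
  exact h
theorem rel_28 : relChk L stp [Col.h, Col.f, Col.h, Col.f] = true := by
  rw [relChk, Tr.all_iff]
  intro q hq
  have h := ((ru_0 q).1 ((Tr.all_iff _ _).1 re_0 q hq)).2.2.2.2.2.2.2.2.2.2.2.2.2.2.2.2.2.2.2.2.2.2.2.2.2.2.2.2.1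
  simp only [walk_cons, walk_nil, stp_b, stp_c, stp_d, stp_e, stp_f, stp_g, stp_h, stp_i]
  exact h
theorem rel_29 : relChk L stp [Col.i, Col.f, Col.i, Col.f] = true := by
  rw [relChk, Tr.all_iff]
  intro q hq
  have h := ((ru_0 q).1 ((Tr.all_iff _ _).1 re_0 q hq)).2.2.2.2.2.2.2.2.2.2.2.2.2.2.2.2.2.2.2.2.2.2.2.2.2.2.2.2.2.1
  simp only [walk_cons, walk_nil, stp_b, stp_c, stp_d, stp_e, stp_f, stp_g, stp_h, stp_i]
  exact h
theorem rel_30 : relChk L stp [Col.g, Col.g] = true := by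
  rw [relChk, Tr.all_iff]
  intro q hq
  have h := ((ru_0 q).1 ((Tr.all_iff _ _).1 re_0 q hq)).2.2.2.2.2.2.2.2.2.2.2.2.2.2.2.2.2.2.2.2.2.2.2.2.2.2.2.2.2.2.1
  simp only [walk_cons, walk_nil, stp_b, stp_c, stp_d, stp_e, stp_f, stp_g, stp_h, stp_i]
  exact h
theorem rel_31 : relChk L stp [Col.h, Col.g, Col.h, Col.g] = true := by
  rw [relChk, Tr.all_iff]
  intro q hq
  have h := ((ru_0 q).1 ((Tr.all_iff _ _).1 re_0 q hq)).2.2.2.2.2.2.2.2.2.2.2.2.2.2.2.2.2.2.2.2.2.2.2.2.2.2.2.2.2.2.2.1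
  simp only [walk_cons, walk_nil, stp_b, stp_c, stp_d, stp_e, stp_f, stp_g, stp_h, stp_i]
  exact h
theorem rel_32 : relChk L stp [Col.i, Col.g, Col.i, Col.g] = true := by
  rw [relChk, Tr.all_iff]
  intro q hq
  have h := ((ru_0 q).1 ((Tr.all_iff _ _).1 re_0 q hq)).2.2.2.2.2.2.2.2.2.2.2.2.2.2.2.2.2.2.2.2.2.2.2.2.2.2.2.2.2.2.2.2.1
  simp only [walk_cons, walk_nil, stp_b, stp_c, stp_d, stp_e, stp_f, stp_g, stp_h, stp_i]
  exact h
theorem rel_33 : relChk L stp [Col.h, Col.h] = true := by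
  rw [relChk, Tr.all_iff]
  intro q hq
  have h := ((ru_0 q).1 ((Tr.all_iff _ _).1 re_0 q hq)).2.2.2.2.2.2.2.2.2.2.2.2.2.2.2.2.2.2.2.2.2.2.2.2.2.2.2.2.2.2.2.2.2.1
  simp only [walk_cons, walk_nil, stp_b, stp_c, stp_d, stp_e, stp_f, stp_g, stp_h, stp_i]
  exact h
theorem rel_34 : relChk L stp [Col.i, Col.h, Col.i, Col.h, Col.i, Col.h] = true := by
  rw [relChk, Tr.all_iff]
  intro q hq
  have h := ((ru_0 q).1 ((Tr.all_iff _ _).1 re_0 q hq)).2.2.2.2.2.2.2.2.2.2.2.2.2.2.2.2.2.2.2.2.2.2.2.2.2.2.2.2.2.2.2.2.2.2.1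
  simp only [walk_cons, walk_nil, stp_b, stp_c, stp_d, stp_e, stp_f, stp_g, stp_h, stp_i]
  exact h
theorem rel_35 : relChk L stp [Col.i, Col.i] = true := by
  rw [relChk, Tr.all_iff]
  intro q hq
  have h := ((ru_0 q).1 ((Tr.all_iff _ _).1 re_0 q hq)).2.2.2.2.2.2.2.2.2.2.2.2.2.2.2.2.2.2.2.2.2.2.2.2.2.2.2.2.2.2.2.2.2.2.2.1
  simp only [walk_cons, walk_nil, stp_b, stp_c, stp_d, stp_e, stp_f, stp_g, stp_h, stp_i]
  exact h
theorem rel_36 : relChk L stp [Col.i, Col.h, Col.d, Col.f, Col.e, Col.d, Col.b, Col.c, Col.d, Col.i, Col.h, Col.d, Col.f, Col.e, Col.d, Col.b, Col.c, Col.d, Col.i, Col.h, Col.d, Col.f, Col.e, Col.d, Col.b, Col.c, Col.d, Col.i, Col.h, Col.d, Col.f, Col.e, Col.d, Col.b, Col.c, Col.d, Col.i, Col.h, Col.d, Col.f, Col.e, Col.d, Col.b, Col.c, Col.d, Col.i, Col.h, Col.d, Col.f, Col.e, Col.d, Col.b, Col.c, Col.d, Col.i, Col.h, Col.d, Col.f, Col.e, Col.d, Col.b, Col.c, Col.d, Col.i, Col.h, Col.d,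 Col.f, Col.e, Col.d, Col.b, Col.c, Col.d, Col.i, Col.h, Col.d, Col.f, Col.e, Col.d, Col.b, Col.c, Col.d, Col.i, Col.h, Col.d, Col.f, Col.e, Col.d, Col.b, Col.c, Col.d] = true := by
  rw [relChk, Tr.all_iff]
  intro q hq
  have h := ((ru_0 q).1 ((Tr.all_iff _ _).1 re_0 q hq)).2.2.2.2.2.2.2.2.2.2.2.2.2.2.2.2.2.2.2.2.2.2.2.2.2.2.2.2.2.2.2.2.2.2.2.2.1
  simp only [walk_cons, walk_nil, stp_b, stp_c, stp_d, stp_e, stp_f, stp_g, stp_h, stp_i]
  exact h
theorem rel_37 : relChk L stp [Col.h, Col.g, Col.f, Col.e, Col.d, Col.c, Col.b, Col.h, Col.g, Col.f, Col.e, Col.d, Col.c, Col.b, Col.h, Col.g, Col.f, Col.e, Col.d, Col.c, Col.b, Col.h, Col.g, Col.f, Col.e, Col.d, Col.c, Col.b, Col.h, Col.g, Col.f, Col.e, Col.d, Col.c, Col.b, Col.h, Col.g, Col.f, Col.e, Col.d, Col.c, Col.b, Col.h, Col.g, Col.f, Col.e, Col.d, Col.c, Col.b, Col.h, Col.g, Col.f, Col.e, Col.d, Col.c, Col.b, Col.h, Col.g, Col.f, Col.e, Col.d, Col.c,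 Col.b] = true := by
  rw [relChk, Tr.all_iff]
  intro q hq
  have h := ((ru_0 q).1 ((Tr.all_iff _ _).1 re_0 q hq)).2.2.2.2.2.2.2.2.2.2.2.2.2.2.2.2.2.2.2.2.2.2.2.2.2.2.2.2.2.2.2.2.2.2.2.2.2
  simp only [walk_cons, walk_nil, stp_b, stp_c, stp_d, stp_e, stp_f, stp_g, stp_h, stp_i]
  exact h
attribute [local irreducible] L stp tau PT DT
theorem closure_thm {G X : Type*} [Group G] [MulAction G X] (g : Col → G) (x0 : X) (hinv : ∀ c, g (inv c) = (g c)⁻¹)
    (hRW : ∀ w ∈ RW, gw g w = 1) (hSW : ∀ w ∈ SW0, gw g w • x0 = x0) :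
    ∃ f : ℕ → X, f q0 = x0 ∧ ∀ q ∈ L.toList, ∀ c, g c • f q = f (stp c q) := by
  exact closure_sound2 g x0 dec hdec hinv hRW hSW closed.mem pos q0_mem hz hE
theorem perm_RW : ∀ w ∈ RW, gw closed.perm w = 1 := by
  intro w hw
  simp only [RW, List.mem_cons, List.not_mem_nil, or_false] at hw
  rcases hw with rfl | rfl | rfl | rfl | rfl | rfl | rfl | rfl | rfl | rfl | rfl | rfl | rfl | rfl | rfl | rfl | rfl | rfl | rfl | rfl | rfl | rfl | rfl | rfl | rfl | rfl | rfl | rfl | rfl | rfl | rfl | rfl | rfl | rfl | rfl | rfl | rfl | rfl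
  · exact closed.gw_eq_one rel_0
  · exact closed.gw_eq_one rel_1
  · exact closed.gw_eq_one rel_2
  · exact closed.gw_eq_one rel_3
  · exact closed.gw_eq_one rel_4
  · exact closed.gw_eq_one rel_5
  · exact closed.gw_eq_one rel_6
  · exact closed.gw_eq_one rel_7
  · exact closed.gw_eq_one rel_8
  · exact closed.gw_eq_one rel_9
  · exact closed.gw_eq_one rel_10
  · exact closed.gw_eq_one rel_11
  · exact closed.gw_eq_one rel_12
  · exact closed.gw_eq_one rel_13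
  · exact closed.gw_eq_one rel_14
  · exact closed.gw_eq_one rel_15
  · exact closed.gw_eq_one rel_16
  · exact closed.gw_eq_one rel_17
  · exact closed.gw_eq_one rel_18
  · exact closed.gw_eq_one rel_19
  · exact closed.gw_eq_one rel_20
  · exact closed.gw_eq_one rel_21
  · exact closed.gw_eq_one rel_22
  · exact closed.gw_eq_one rel_23
  · exact closed.gw_eq_one rel_24
  · exact closed.gw_eq_one rel_25
  · exact closed.gw_eq_one rel_26
  · exact closed.gw_eq_one rel_27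
  · exact closed.gw_eq_one rel_28
  · exact closed.gw_eq_one rel_29
  · exact closed.gw_eq_one rel_30
  · exact closed.gw_eq_one rel_31
  · exact closed.gw_eq_one rel_32
  · exact closed.gw_eq_one rel_33
  · exact closed.gw_eq_one rel_34
  · exact closed.gw_eq_one rel_35
  · exact closed.gw_eq_one rel_36
  · exact closed.gw_eq_one rel_37
universe u
/-- upper bound for a relative index -/
theorem rel_upper {G : Type u} [Group G] (g : Col → G) (hinv : ∀ c, g (inv c) = (g c)⁻¹)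
    (hRW : ∀ w ∈ RW, gw g w = 1) (H : Subgroup G) (hSW : ∀ w ∈ SW0, gw g w ∈ H) :
    H.relIndex (genBy g) ≠ 0 ∧ H.relIndex (genBy g) ≤ 351 := by
  rw [← size_L]
  exact relIndex_of_closure closed.mem q0_mem g hinv hRW H hSW (fun X _ x0 h1 h2 h3 => closure_thm (liftGen g) x0 h1 h2 h3)
/-- the permutation representation -/
noncomputable def φ : Fi22W →* Equiv.Perm (Om L) :=
  homOf (sat_of_rwx (col := col) (inv := inv) h2 h3 closed.perm closed.perm_inv TV (by rw [rw_eq]; exact perm_RW))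
theorem φ_P : ∀ c, φ (P c) = closed.perm c := by
  have h : ∀ x : Fi22W.Gen, φ (PresentedGroup.of x) = closed.perm (col x) := fun x => homOf_of _ x
  intro c
  cases c
  · exact h .b
  · exact h .c
  · exact h .d
  · exact h .e
  · exact h .f
  · exact h .g
  · exact h .h
  · exact h .i
/-- the subgroup -/
abbrev H : Subgroup Fi22W := presSub Fi22W.edges Fi22W.extra HX
theorem H_eq : H = Subgroup.closure {x | ∃ w ∈ SW0, gw P w = x} := presSub_eq HX P P_inv P_col sw_eq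
theorem H_SW : ∀ w ∈ SW0, gw P w ∈ H := fun w hw => by rw [H_eq]; exact Subgroup.subset_closure ⟨w, hw, rfl⟩
theorem main : H.index = 351 ∧ (∀ x, φ x ⟨q0, q0_mem⟩ = ⟨q0, q0_mem⟩ ↔ x ∈ H) ∧ (∀ q : Om L, ∃ x, φ x ⟨q0, q0_mem⟩ = q) := by
  rw [← size_L]
  exact index_main closed nodup q0_mem trans P P_top φ φ_P H (le_of_eq H_eq) H_SW
    (fun w hw => Nat.eq_of_beq_eq_true ((lall_iff (fun w => Nat.beq (walk stp w q0) q0) SW0).1 (by decide +kernel) w hw))
    (fun h => closure_thm P _ P_inv P_RW h)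
end CfsgLib.TCFi22W
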