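import Cfsg.Agent.EqBase
import Cfsg.Agent.LibTCFi22W
import Cfsg.Agent.LibTCFi22WCX0
set_option autoImplicit false
set_option linter.all false
set_option maxRecDepth 1000000
set_option maxHeartbeats 0
namespace CfsgLib.TCFi22W.Chain
open CfsgLib.TC Cfsg.Spor CfsgLib.TCG_Fi22W CfsgLib.TCFi22W
theorem cnt_nd' {OB : ℕ → ℕ} {i k : ℕ} {l r : Tr ℕ} {a b : ℕ} (hl : cnt OB i l = a) (hr : cnt OB i r = b) : cnt OB i (Tr.nd k l r) = a + b := by rw [← hl, ← hr]; rfl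
theorem tree0 : Tr.all (treeR mt wl0 HP0 HR0 HW0 (nat_lit 4099)) L = true := tree0_0
theorem z0 : cnt HR0 0 L = 0 := z0_0
theorem hwl0 (j x : ℕ) : ∃ w ∈ WL0, wl0 j x = walk stp w x := (brecP (P := fun y => ∃ w ∈ WL0, y = walk stp w x) (brecP (P := fun y => ∃ w ∈ WL0, y = walk stp w x) (brecP (P := fun y => ∃ w ∈ WL0, y = walk stp w x) ⟨[TCG_Fi22W.Col.b], List.mem_cons_self, rfl⟩ ⟨[TCG_Fi22W.Col.c], (List.mem_cons_of_mem _ List.mem_cons_self), rfl⟩) (brecP (P := fun y => ∃ w ∈ WL0, y = walk stp w x) ⟨[TCG_Fi22W.Col.d], (List.mem_cons_of_mem _ (List.mem_cons_of_mem _ List.mem_cons_self)), rfl⟩ ⟨[TCG_Fi22W.Col.e], (List.mem_cons_of_mem _ (List.mem_cons_of_mem _ (List.mem_cons_of_mem _ List.mem_cons_self))), rfl⟩)) (brecP (P := fun y => ∃ w ∈ WL0, y = walk stp w x) (brecP (P := fun y => ∃ w ∈ WL0, y = walk stp w x) ⟨[TCG_Fi22W.Col.f],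 (List.mem_cons_of_mem _ (List.mem_cons_of_mem _ (List.mem_cons_of_mem _ (List.mem_cons_of_mem _ List.mem_cons_self)))), rfl⟩ ⟨[TCG_Fi22W.Col.g], (List.mem_cons_of_mem _ (List.mem_cons_of_mem _ (List.mem_cons_of_mem _ (List.mem_cons_of_mem _ (List.mem_cons_of_mem _ List.mem_cons_self))))), rfl⟩) (brecP (P := fun y => ∃ w ∈ WL0, y = walk stp w x) ⟨[TCG_Fi22W.Col.h], (List.mem_cons_of_mem _ (List.mem_cons_of_mem _ (List.mem_cons_of_mem _ (List.mem_cons_of_mem _ (List.mem_cons_of_mem _ (List.mem_cons_of_mem _ List.mem_cons_self)))))), rfl⟩ ⟨[TCG_Fi22W.Col.i], (List.mem_cons_of_mem _ (List.mem_cons_of_mem _ (List.mem_cons_of_mem _ (List.mem_cons_of_mem _ (List.mem_cons_of_mem _ (List.mem_cons_of_mem _ (List.mem_cons_of_mem _ List.mem_cons_self))))))), rfl⟩)))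
theorem tree1 : Tr.all (treeR mt wl1 HP1 HR1 HW1 (nat_lit 4111)) L = true := tree1_0
theorem z1 : cnt HR1 0 L = 127 := z1_0
theorem hwl1 (j x : ℕ) : ∃ w ∈ WL1, wl1 j x = walk stp w x := (brecP (P := fun y => ∃ w ∈ WL1, y = walk stp w x) (brecP (P := fun y => ∃ w ∈ WL1, y = walk stp w x) ⟨[TCG_Fi22W.Col.e], List.mem_cons_self, rfl⟩ ⟨[TCG_Fi22W.Col.b, TCG_Fi22W.Col.d], (List.mem_cons_of_mem _ List.mem_cons_self), rfl⟩) (brecP (P := fun y => ∃ w ∈ WL1, y = walk stp w x) ⟨[TCG_Fi22W.Col.c, TCG_Fi22W.Col.b], (List.mem_cons_of_mem _ (List.mem_cons_of_mem _ List.mem_cons_self)), rfl⟩ ⟨[TCG_Fi22W.Col.b, TCG_Fi22W.Col.f, TCG_Fi22W.Col.e, TCG_Fi22W.Col.g, TCG_Fi22W.Col.f, TCG_Fi22W.Col.h, TCG_Fi22W.Col.d, TCG_Fi22W.Col.e, TCG_Fi22W.Col.i, TCG_Fi22W.Col.h, TCG_Fi22W.Col.d, TCG_Fi22W.Col.c, TCG_Fi22W.Col.d, TCG_Fi22W.Col.h, TCG_Fi22W.Col.e,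 TCG_Fi22W.Col.f, TCG_Fi22W.Col.g, TCG_Fi22W.Col.d, TCG_Fi22W.Col.e, TCG_Fi22W.Col.f], (List.mem_cons_of_mem _ (List.mem_cons_of_mem _ (List.mem_cons_of_mem _ List.mem_cons_self))), rfl⟩))
theorem tree2 : Tr.all (treeR mt wl2 HP2 HR2 HW2 (nat_lit 4127)) L = true := tree2_0
theorem z2 : cnt HR2 0 L = 270 := z2_0
theorem hwl2 (j x : ℕ) : ∃ w ∈ WL2, wl2 j x = walk stp w x := (brecP (P := fun y => ∃ w ∈ WL2, y = walk stp w x) (brecP (P := fun y => ∃ w ∈ WL2, y = walk stp w x) ⟨[TCG_Fi22W.Col.d], List.mem_cons_self, rfl⟩ ⟨[TCG_Fi22W.Col.h], (List.mem_cons_of_mem _ List.mem_cons_self), rfl⟩) (brecP (P := fun y => ∃ w ∈ WL2, y = walk stp w x) ⟨[TCG_Fi22W.Col.i], (List.mem_cons_of_mem _ (List.mem_cons_of_mem _ List.mem_cons_self)), rfl⟩ (brecP (P := fun y => ∃ w ∈ WL2, y = walk stp w x) ⟨[TCG_Fi22W.Col.b, TCG_Fi22W.Col.c],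 (List.mem_cons_of_mem _ (List.mem_cons_of_mem _ (List.mem_cons_of_mem _ List.mem_cons_self))), rfl⟩ ⟨[TCG_Fi22W.Col.h, TCG_Fi22W.Col.c, TCG_Fi22W.Col.d, TCG_Fi22W.Col.e, TCG_Fi22W.Col.f, TCG_Fi22W.Col.g, TCG_Fi22W.Col.h, TCG_Fi22W.Col.c, TCG_Fi22W.Col.d, TCG_Fi22W.Col.e, TCG_Fi22W.Col.f, TCG_Fi22W.Col.g, TCG_Fi22W.Col.h, TCG_Fi22W.Col.c, TCG_Fi22W.Col.d, TCG_Fi22W.Col.e, TCG_Fi22W.Col.f, TCG_Fi22W.Col.g, TCG_Fi22W.Col.h, TCG_Fi22W.Col.c, TCG_Fi22W.Col.d, TCG_Fi22W.Col.e, TCG_Fi22W.Col.f, TCG_Fi22W.Col.g, TCG_Fi22W.Col.h, TCG_Fi22W.Col.c, TCG_Fi22W.Col.d, TCG_Fi22W.Col.e, TCG_Fi22W.Col.f, TCG_Fi22W.Col.g], (List.mem_cons_of_mem _ (List.mem_cons_of_mem _ (List.mem_cons_of_mem _ (List.mem_cons_of_mem _ List.mem_cons_self)))), rfl⟩)))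
theorem tree3 : Tr.all (treeR mt wl3 HP3 HR3 HW3 (nat_lit 4133)) L = true := tree3_0
theorem z3 : cnt HR3 0 L = 321 := z3_0
theorem hwl3 (j x : ℕ) : ∃ w ∈ WL3, wl3 j x = walk stp w x := (brecP (P := fun y => ∃ w ∈ WL3, y = walk stp w x) (brecP (P := fun y => ∃ w ∈ WL3, y = walk stp w x) ⟨[TCG_Fi22W.Col.h], List.mem_cons_self, rfl⟩ ⟨[TCG_Fi22W.Col.i], (List.mem_cons_of_mem _ List.mem_cons_self), rfl⟩) (brecP (P := fun y => ∃ w ∈ WL3, y = walk stp w x) ⟨[TCG_Fi22W.Col.b, TCG_Fi22W.Col.c], (List.mem_cons_of_mem _ (List.mem_cons_of_mem _ List.mem_cons_self)), rfl⟩ ⟨[TCG_Fi22W.Col.h, TCG_Fi22W.Col.c, TCG_Fi22W.Col.d, TCG_Fi22W.Col.e, TCG_Fi22W.Col.f, TCG_Fi22W.Col.g, TCG_Fi22W.Col.h, TCG_Fi22W.Col.c, TCG_Fi22W.Col.d, TCG_Fi22W.Col.e, TCG_Fi22W.Col.f, TCG_Fi22W.Col.g, TCG_Fi22W.Col.h, TCG_Fi22W.Col.c, TCG_Fi22W.Col.d, TCG_Fi22W.Col.e,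 TCG_Fi22W.Col.f, TCG_Fi22W.Col.g, TCG_Fi22W.Col.h, TCG_Fi22W.Col.c, TCG_Fi22W.Col.d, TCG_Fi22W.Col.e, TCG_Fi22W.Col.f, TCG_Fi22W.Col.g, TCG_Fi22W.Col.h, TCG_Fi22W.Col.c, TCG_Fi22W.Col.d, TCG_Fi22W.Col.e, TCG_Fi22W.Col.f, TCG_Fi22W.Col.g], (List.mem_cons_of_mem _ (List.mem_cons_of_mem _ (List.mem_cons_of_mem _ List.mem_cons_self))), rfl⟩))
theorem tree4 : Tr.all (treeR mt wl4 HP4 HR4 HW4 (nat_lit 4217)) L = true := tree4_0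
theorem z4 : cnt HR4 0 L = 339 := z4_0
theorem hwl4 (j x : ℕ) : ∃ w ∈ WL4, wl4 j x = walk stp w x := (brecP (P := fun y => ∃ w ∈ WL4, y = walk stp w x) ⟨[TCG_Fi22W.Col.b], List.mem_cons_self, rfl⟩ (brecP (P := fun y => ∃ w ∈ WL4, y = walk stp w x) ⟨[TCG_Fi22W.Col.i], (List.mem_cons_of_mem _ List.mem_cons_self), rfl⟩ ⟨[TCG_Fi22W.Col.h, TCG_Fi22W.Col.c, TCG_Fi22W.Col.d, TCG_Fi22W.Col.e, TCG_Fi22W.Col.f, TCG_Fi22W.Col.g, TCG_Fi22W.Col.h, TCG_Fi22W.Col.c, TCG_Fi22W.Col.d, TCG_Fi22W.Col.e, TCG_Fi22W.Col.f, TCG_Fi22W.Col.g, TCG_Fi22W.Col.h, TCG_Fi22W.Col.c, TCG_Fi22W.Col.d, TCG_Fi22W.Col.e, TCG_Fi22W.Col.f, TCG_Fi22W.Col.g, TCG_Fi22W.Col.h, TCG_Fi22W.Col.c, TCG_Fi22W.Col.d, TCG_Fi22W.Col.e, TCG_Fi22W.Col.f, TCG_Fi22W.Col.g, TCG_Fi22W.Col.h, TCG_Fi22W.Col.c, TCG_Fi22W.Col.d, TCG_Fi22W.Col.e, TCG_Fi22W.Col.f, TCG_Fi22W.Col.g],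 (List.mem_cons_of_mem _ (List.mem_cons_of_mem _ List.mem_cons_self)), rfl⟩))
theorem tree5 : Tr.all (treeR mt wl5 HP5 HR5 HW5 (nat_lit 4201)) L = true := tree5_0
theorem z5 : cnt HR5 0 L = 349 := z5_0
theorem hwl5 (j x : ℕ) : ∃ w ∈ WL5, wl5 j x = walk stp w x := ⟨[TCG_Fi22W.Col.h, TCG_Fi22W.Col.c, TCG_Fi22W.Col.d, TCG_Fi22W.Col.e, TCG_Fi22W.Col.f, TCG_Fi22W.Col.g, TCG_Fi22W.Col.h, TCG_Fi22W.Col.c, TCG_Fi22W.Col.d, TCG_Fi22W.Col.e, TCG_Fi22W.Col.f, TCG_Fi22W.Col.g, TCG_Fi22W.Col.h, TCG_Fi22W.Col.c, TCG_Fi22W.Col.d, TCG_Fi22W.Col.e, TCG_Fi22W.Col.f, TCG_Fi22W.Col.g, TCG_Fi22W.Col.h, TCG_Fi22W.Col.c, TCG_Fi22W.Col.d, TCG_Fi22W.Col.e, TCG_Fi22W.Col.f, TCG_Fi22W.Col.g, TCG_Fi22W.Col.h, TCG_Fi22W.Col.c, TCG_Fi22W.Col.d, TCG_Fi22W.Col.e, TCG_Fi22W.Col.f, TCG_Fi22W.Col.g], List.mem_cons_self, rfl⟩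
section
variable {Γ : Type} [Group Γ] [Finite Γ] (ψ : Γ →* Equiv.Perm (Om L)) (g : Col → Γ) (hψ : ∀ c, ψ (g c) = closed.perm c)
include hψ
omit hψ in
theorem lev6 : 1 ≤ Nat.card (stabN ψ [4201, 4217, 4133, 4127, 4111, 4099]) := lev_zero _ _
theorem lev5 : 2 ≤ Nat.card (stabN ψ [4217, 4133, 4127, 4111, 4099]) :=
  lev_step3 (n := 2) closed nodup ψ g hψ [4217, 4133, 4127, 4111, 4099] 4201 size_L (mt_sound _ (by decide +kernel)) mt_sound hwl5 (by decide +kernel) tree5 z5 (lev6 ψ) (by norm_num) (by norm_num)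
theorem lev4 : 24 ≤ Nat.card (stabN ψ [4133, 4127, 4111, 4099]) :=
  lev_step3 (n := 12) closed nodup ψ g hψ [4133, 4127, 4111, 4099] 4217 size_L (mt_sound _ (by decide +kernel)) mt_sound hwl4 (by decide +kernel) tree4 z4 (lev5 ψ g hψ) (by norm_num) (by norm_num)
theorem lev3 : 720 ≤ Nat.card (stabN ψ [4127, 4111, 4099]) :=
  lev_step3 (n := 30) closed nodup ψ g hψ [4127, 4111, 4099] 4133 size_L (mt_sound _ (by decide +kernel)) mt_sound hwl3 (by decide +kernel) tree3 z3 (lev4 ψ g hψ) (by norm_num) (by norm_num)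
theorem lev2 : 58320 ≤ Nat.card (stabN ψ [4111, 4099]) :=
  lev_step3 (n := 81) closed nodup ψ g hψ [4111, 4099] 4127 size_L (mt_sound _ (by decide +kernel)) mt_sound hwl2 (by decide +kernel) tree2 z2 (lev3 ψ g hψ) (by norm_num) (by norm_num)
theorem lev1 : 13063680 ≤ Nat.card (stabN ψ [4099]) :=
  lev_step3 (n := 224) closed nodup ψ g hψ [4099] 4111 size_L (mt_sound _ (by decide +kernel)) mt_sound hwl1 (by decide +kernel) tree1 z1 (lev2 ψ g hψ) (by norm_num) (by norm_num)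
theorem lev0 : 4585351680 ≤ Nat.card (stabN ψ []) :=
  lev_step3 (n := 351) closed nodup ψ g hψ [] 4099 size_L (mt_sound _ (by decide +kernel)) mt_sound hwl0 (by decide +kernel) tree0 z0 (lev1 ψ g hψ) (by norm_num) (by norm_num)
end
end CfsgLib.TCFi22W.Chain
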