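import Cfsg.Agent.EqBase
import Cfsg.Agent.LibTCFi22WOD
set_option autoImplicit false
set_option linter.all false
set_option maxRecDepth 1000000
set_option maxHeartbeats 0
namespace CfsgLib.TCFi22W
open CfsgLib.TC Cfsg.Spor CfsgLib.TCG_Fi22W
theorem iv_0 : Tr.all IV L = true := by decide +kernel
theorem ht_0 : Tr.all (treeQ mt (fun q => Nat.beq (RP (OB q)) q) wsH HP HR HW) L = true := by decide +kernel
theorem cn_1_0 : cnt OB 1 L = 126 := by decide +kernel
theorem cn_2_0 : cnt OB 2 L = 224 := by decide +kernel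
end CfsgLib.TCFi22W
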