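import Cfsg.Agent.EqBase
import Cfsg.Agent.LibTCFi22W
import Cfsg.Agent.LibTCFi22WOX0
set_option autoImplicit false
set_option linter.all false
set_option maxRecDepth 1000000
set_option maxHeartbeats 0
namespace CfsgLib.TCFi22W
open CfsgLib.TC Cfsg.Spor CfsgLib.TCG_Fi22W
theorem ht : Tr.all (treeQ mt (fun q => Nat.beq (RP (OB q)) q) wsH HP HR HW) L = true := ht_0
theorem iv : Tr.all IV L = true := iv_0
theorem cnt_nd {OB : ℕ → ℕ} {i k : ℕ} {l r : Tr ℕ} {a b : ℕ} (hl : cnt OB i l = a) (hr : cnt OB i r = b) : cnt OB i (Tr.nd k l r) = a + b := by rw [← hl, ← hr]; rfl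
theorem cnt_1 : cnt OB 1 L = 126 := cn_1_0
theorem cnt_2 : cnt OB 2 L = 224 := cn_2_0
theorem hwsH (j x : ℕ) : ∃ w ∈ SW0, wsH j x = walk stp w x := (brecP (P := fun y => ∃ w ∈ SW0, y = walk stp w x) (brecP (P := fun y => ∃ w ∈ SW0, y = walk stp w x) (brecP (P := fun y => ∃ w ∈ SW0, y = walk stp w x) ⟨[Col.b], List.mem_cons_self, rfl⟩ ⟨[Col.c], (List.mem_cons_of_mem _ List.mem_cons_self), rfl⟩) (brecP (P := fun y => ∃ w ∈ SW0, y = walk stp w x) ⟨[Col.d], (List.mem_cons_of_mem _ (List.mem_cons_of_mem _ List.mem_cons_self)), rfl⟩ ⟨[Col.e], (List.mem_cons_of_mem _ (List.mem_cons_of_mem _ (List.mem_cons_of_mem _ List.mem_cons_self))), rfl⟩)) (brecP (P := fun y => ∃ w ∈ SW0, y = walk stp w x) (brecP (P := fun y => ∃ w ∈ SW0, y = walk stp w x) ⟨[Col.g], (List.mem_cons_of_mem _ (List.mem_cons_of_mem _ (List.mem_cons_of_mem _ (List.mem_cons_of_mem _ List.mem_cons_self)))), rfl⟩ ⟨[Col.h], (List.mem_cons_of_mem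 _ (List.mem_cons_of_mem _ (List.mem_cons_of_mem _ (List.mem_cons_of_mem _ (List.mem_cons_of_mem _ List.mem_cons_self))))), rfl⟩) (brecP (P := fun y => ∃ w ∈ SW0, y = walk stp w x) ⟨[Col.i], (List.mem_cons_of_mem _ (List.mem_cons_of_mem _ (List.mem_cons_of_mem _ (List.mem_cons_of_mem _ (List.mem_cons_of_mem _ (List.mem_cons_of_mem _ List.mem_cons_self)))))), rfl⟩ ⟨[Col.h, Col.c, Col.d, Col.e, Col.f, Col.g, Col.h, Col.c, Col.d, Col.e, Col.f, Col.g, Col.h, Col.c, Col.d, Col.e, Col.f, Col.g, Col.h, Col.c, Col.d, Col.e, Col.f, Col.g, Col.h, Col.c, Col.d, Col.e, Col.f, Col.g], (List.mem_cons_of_mem _ (List.mem_cons_of_mem _ (List.mem_cons_of_mem _ (List.mem_cons_of_mem _ (List.mem_cons_of_mem _ (List.mem_cons_of_mem _ (List.mem_cons_of_mem _ List.mem_cons_self))))))), rfl⟩)))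
theorem iu (q : ℕ) : IV q = true ↔ Nat.ble (OB q) 2 = true ∧ Nat.beq (OB (F_b q)) (OB q) = true ∧ Nat.beq (OB (F_c q)) (OB q) = true ∧ Nat.beq (OB (F_d q)) (OB q) = true ∧ Nat.beq (OB (F_e q)) (OB q) = true ∧ Nat.beq (OB (F_g q)) (OB q) = true ∧ Nat.beq (OB (F_h q)) (OB q) = true ∧ Nat.beq (OB (F_i q)) (OB q) = true ∧ Nat.beq (OB (F_g (F_f (F_e (F_d (F_c (F_h (F_g (F_f (F_e (F_d (F_c (F_h (F_g (F_f (F_e (F_d (F_c (F_h (F_g (F_f (F_e (F_d (F_c (F_h (F_g (F_f (F_e (F_d (F_c (F_h q))))))))))))))))))))))))))))))) (OB q) = true := by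
  unfold IV
  simp only [bfalse_iff, and_true]
theorem hinvw : ∀ w ∈ SW0, ∀ q ∈ L.toList, OB (walk stp w q) = OB q := by
  intro w hw q hq
  have h := ((iu q).1 ((Tr.all_iff _ _).1 iv q hq)).2
  simp only [SW0, List.mem_cons, List.not_mem_nil, or_false] at hw
  rcases hw with rfl | rfl | rfl | rfl | rfl | rfl | rfl | rfl
  · simp only [walk_cons, walk_nil, stp_b, stp_c, stp_d, stp_e, stp_f, stp_g, stp_h, stp_i]
    exact Nat.eq_of_beq_eq_true (h.1)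
  · simp only [walk_cons, walk_nil, stp_b, stp_c, stp_d, stp_e, stp_f, stp_g, stp_h, stp_i]
    exact Nat.eq_of_beq_eq_true (h.2.1)
  · simp only [walk_cons, walk_nil, stp_b, stp_c, stp_d, stp_e, stp_f, stp_g, stp_h, stp_i]
    exact Nat.eq_of_beq_eq_true (h.2.2.1)
  · simp only [walk_cons, walk_nil, stp_b, stp_c, stp_d, stp_e, stp_f, stp_g, stp_h, stp_i]
    exact Nat.eq_of_beq_eq_true (h.2.2.2.1)
  · simp only [walk_cons, walk_nil, stp_b, stp_c, stp_d, stp_e, stp_f, stp_g, stp_h, stp_i]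
    exact Nat.eq_of_beq_eq_true (h.2.2.2.2.1)
  · simp only [walk_cons, walk_nil, stp_b, stp_c, stp_d, stp_e, stp_f, stp_g, stp_h, stp_i]
    exact Nat.eq_of_beq_eq_true (h.2.2.2.2.2.1)
  · simp only [walk_cons, walk_nil, stp_b, stp_c, stp_d, stp_e, stp_f, stp_g, stp_h, stp_i]
    exact Nat.eq_of_beq_eq_true (h.2.2.2.2.2.2.1)
  · simp only [walk_cons, walk_nil, stp_b, stp_c, stp_d, stp_e, stp_f, stp_g, stp_h, stp_i]
    exact Nat.eq_of_beq_eq_true (h.2.2.2.2.2.2.2)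
theorem hlt : Tr.all (fun q => Nat.ble (OB q) ([126, 224] : List ℕ).length) L = true := by
  rw [Tr.all_iff]
  intro q hq
  exact ((iu q).1 ((Tr.all_iff _ _).1 iv q hq)).1
theorem sub : Sub closed φ H OB ⟨q0, q0_mem⟩ := by
  refine ⟨main.2.1, main.2.2, orbit_labels2 φ (RP := RP) H (fun q => ?_)
    (invQ_sound closed φ P φ_P (SW := SW0) H (le_of_eq H_eq) hinvw)⟩
  obtain ⟨r, _, h2, h, hh, hhr⟩ := treeQ_sound closed φ P φ_P (LB := L) (SW := SW0) (fun q h => h) mt_sound hwsH H H_SW ht q q.2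
  exact ⟨r, Nat.eq_of_beq_eq_true h2, h, hh, hhr⟩
theorem ob_r1 : OB 4177 = 1 := by decide +kernel
theorem orb_1 : ∃ x : Fi22W, (φ x ⟨q0, q0_mem⟩).1 = 4177 ∧ (MulAction.orbit H ((x : Fi22W) : Fi22W ⧸ H)).ncard = 126 :=
  sub.size_orb nodup (mt_sound _ (by decide +kernel)) (by rw [ob_r1]; exact cnt_1)
theorem ob_r2 : OB 4111 = 2 := by decide +kernel
theorem orb_2 : ∃ x : Fi22W, (φ x ⟨q0, q0_mem⟩).1 = 4111 ∧ (MulAction.orbit H ((x : Fi22W) : Fi22W ⧸ H)).ncard = 224 :=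
  sub.size_orb nodup (mt_sound _ (by decide +kernel)) (by rw [ob_r2]; exact cnt_2)
theorem ob_q0 : OB q0 = 0 := by decide +kernel
theorem cnt_all : ∀ j (hj : j < ([126, 224] : List ℕ).length), cnt OB (j+1) L = ([126, 224] : List ℕ)[j] := by
  intro j hj
  match j, hj with
  | 0, _ => exact cnt_1
  | 1, _ => exact cnt_2
  | (j+2), hj => exact absurd hj (by simp)
theorem maximal : ∀ K : Subgroup Fi22W, H ≤ K → K = H ∨ K = ⊤ :=
  sub.maximal nodup P φ_P (s := [126, 224]) ob_q0 hlt cnt_all size_L [] (by simp) (by decide +kernel)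
end CfsgLib.TCFi22W
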