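import Cfsg.Agent.EqBase
import Cfsg.Agent.LibTCFi22WC
import Cfsg.Agent.LibTCFi22WO
import Cfsg.Agent.LibTCFi22c
import Cfsg.Agent.LibTCFi22d
import Cfsg.Agent.LibTCFi22e
import Cfsg.Agent.LibTCFi22f
set_option autoImplicit false
set_option linter.all false
set_option maxRecDepth 1000000

namespace CfsgLib.TCFi22W
open CfsgLib.TC Cfsg.Spor CfsgLib

noncomputable instance decColN : DecidableEq TCG_Fi22W.Col := fun x y =>
  decidable_of_iff (TCG_Fi22W.idx x = TCG_Fi22W.idx y) ⟨fun h => by rw [← TCG_Fi22W.hdec x, ← TCG_Fi22W.hdec y, h], fun h => by rw [h]⟩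

def em0 : TCFi22c.Col → TCG_Fi22W.Col
  | .b => .b
  | .c => .c
  | .d => .d
  | .e => .e
  | .f => .f
  | .g => .g
  | .h => .h
  | .i => .i
noncomputable abbrev PX0 : TCFi22c.Col → Fi22W := fun c => TCG_Fi22W.P (em0 c)
theorem em_RW0 : ∀ w ∈ TCFi22c.RW, w.map em0 ∈ TCG_Fi22W.RW := by decide +kernel
theorem PX_inv0 : ∀ c, PX0 (TCFi22c.inv c) = (PX0 c)⁻¹ := by
  intro c
  have h : em0 (TCFi22c.inv c) = TCG_Fi22W.inv (em0 c) := by cases c <;> rfl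
  rw [PX0, h]; exact TCG_Fi22W.P_inv _
theorem PX_RW0 : ∀ w ∈ TCFi22c.RW, gw PX0 w = 1 := by
  intro w hw
  have h := TCG_Fi22W.P_RW _ (em_RW0 w hw)
  rwa [gw_map] at h
def em1 : TCFi22d.Col → TCG_Fi22W.Col
  | .b => .b
  | .c => .c
  | .d => .d
  | .e => .e
  | .f => .f
  | .g => .g
  | .h => .h
noncomputable abbrev PX1 : TCFi22d.Col → Fi22W := fun c => TCG_Fi22W.P (em1 c)
theorem em_RW1 : ∀ w ∈ TCFi22d.RW, w.map em1 ∈ TCG_Fi22W.RW := by decide +kernel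
theorem PX_inv1 : ∀ c, PX1 (TCFi22d.inv c) = (PX1 c)⁻¹ := by
  intro c
  have h : em1 (TCFi22d.inv c) = TCG_Fi22W.inv (em1 c) := by cases c <;> rfl
  rw [PX1, h]; exact TCG_Fi22W.P_inv _
theorem PX_RW1 : ∀ w ∈ TCFi22d.RW, gw PX1 w = 1 := by
  intro w hw
  have h := TCG_Fi22W.P_RW _ (em_RW1 w hw)
  rwa [gw_map] at h
def em2 : TCFi22e.Col → TCG_Fi22W.Col
  | .b => .b
  | .c => .c
  | .d => .d
  | .e => .e
  | .f => .f
  | .h => .h
noncomputable abbrev PX2 : TCFi22e.Col → Fi22W := fun c => TCG_Fi22W.P (em2 c)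
theorem em_RW2 : ∀ w ∈ TCFi22e.RW, w.map em2 ∈ TCG_Fi22W.RW := by decide +kernel
theorem PX_inv2 : ∀ c, PX2 (TCFi22e.inv c) = (PX2 c)⁻¹ := by
  intro c
  have h : em2 (TCFi22e.inv c) = TCG_Fi22W.inv (em2 c) := by cases c <;> rfl
  rw [PX2, h]; exact TCG_Fi22W.P_inv _
theorem PX_RW2 : ∀ w ∈ TCFi22e.RW, gw PX2 w = 1 := by
  intro w hw
  have h := TCG_Fi22W.P_RW _ (em_RW2 w hw)
  rwa [gw_map] at h
def em3 : TCFi22f.Col → TCG_Fi22W.Col
  | .b => .b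
  | .c => .c
  | .d => .d
  | .e => .e
  | .f => .f
noncomputable abbrev PX3 : TCFi22f.Col → Fi22W := fun c => TCG_Fi22W.P (em3 c)
theorem em_RW3 : ∀ w ∈ TCFi22f.RW, w.map em3 ∈ TCG_Fi22W.RW := by decide +kernel
theorem PX_inv3 : ∀ c, PX3 (TCFi22f.inv c) = (PX3 c)⁻¹ := by
  intro c
  have h : em3 (TCFi22f.inv c) = TCG_Fi22W.inv (em3 c) := by cases c <;> rfl
  rw [PX3, h]; exact TCG_Fi22W.P_inv _
theorem PX_RW3 : ∀ w ∈ TCFi22f.RW, gw PX3 w = 1 := by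
  intro w hw
  have h := TCG_Fi22W.P_RW _ (em_RW3 w hw)
  rwa [gw_map] at h
theorem leX2 : genBy PX3 ≤ genBy PX2 := by
  rw [Subgroup.closure_le]
  rintro _ ⟨c, rfl⟩
  cases c
  · exact Subgroup.subset_closure ⟨.b, rfl⟩
  · exact Subgroup.subset_closure ⟨.c, rfl⟩
  · exact Subgroup.subset_closure ⟨.d, rfl⟩
  · exact Subgroup.subset_closure ⟨.e, rfl⟩
  · exact Subgroup.subset_closure ⟨.f, rfl⟩
theorem leX1 : genBy PX2 ≤ genBy PX1 := by
  rw [Subgroup.closure_le]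
  rintro _ ⟨c, rfl⟩
  cases c
  · exact Subgroup.subset_closure ⟨.b, rfl⟩
  · exact Subgroup.subset_closure ⟨.c, rfl⟩
  · exact Subgroup.subset_closure ⟨.d, rfl⟩
  · exact Subgroup.subset_closure ⟨.e, rfl⟩
  · exact Subgroup.subset_closure ⟨.f, rfl⟩
  · exact Subgroup.subset_closure ⟨.h, rfl⟩
theorem leX0 : genBy PX1 ≤ genBy PX0 := by
  rw [Subgroup.closure_le]
  rintro _ ⟨c, rfl⟩
  cases c
  · exact Subgroup.subset_closure ⟨.b, rfl⟩
  · exact Subgroup.subset_closure ⟨.c, rfl⟩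
  · exact Subgroup.subset_closure ⟨.d, rfl⟩
  · exact Subgroup.subset_closure ⟨.e, rfl⟩
  · exact Subgroup.subset_closure ⟨.f, rfl⟩
  · exact Subgroup.subset_closure ⟨.g, rfl⟩
  · exact Subgroup.subset_closure ⟨.h, rfl⟩
theorem cardX3 : Nat.card (genBy PX3) ≠ 0 ∧ Nat.card (genBy PX3) ≤ 720 :=
  card_of_bot (TCFi22f.rel_upper PX3 PX_inv3 PX_RW3 ⊥
    (fun w hw => absurd hw (by simp [TCFi22f.SW0])))
theorem memX2 : ∀ w ∈ TCFi22e.SW0, gw PX2 w ∈ genBy PX3 := by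
  intro w hw
  simp only [TCFi22e.SW0, List.mem_cons, List.not_mem_nil, or_false] at hw
  rcases hw with rfl | rfl | rfl | rfl | rfl <;> rw [gw_cons, gw_nil, one_mul]
  · exact Subgroup.subset_closure ⟨.b, rfl⟩
  · exact Subgroup.subset_closure ⟨.c, rfl⟩
  · exact Subgroup.subset_closure ⟨.d, rfl⟩
  · exact Subgroup.subset_closure ⟨.e, rfl⟩
  · exact Subgroup.subset_closure ⟨.f, rfl⟩
theorem cardX2 : Nat.card (genBy PX2) ≠ 0 ∧ Nat.card (genBy PX2) ≤ 51840 :=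
  card_chain leX2 (TCFi22e.rel_upper PX2 PX_inv2 PX_RW2 (genBy PX3) memX2) cardX3 (by norm_num)
theorem memX1 : ∀ w ∈ TCFi22d.SW0, gw PX1 w ∈ genBy PX2 := by
  intro w hw
  simp only [TCFi22d.SW0, List.mem_cons, List.not_mem_nil, or_false] at hw
  rcases hw with rfl | rfl | rfl | rfl | rfl | rfl <;> rw [gw_cons, gw_nil, one_mul]
  · exact Subgroup.subset_closure ⟨.b, rfl⟩
  · exact Subgroup.subset_closure ⟨.c, rfl⟩
  · exact Subgroup.subset_closure ⟨.d, rfl⟩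
  · exact Subgroup.subset_closure ⟨.e, rfl⟩
  · exact Subgroup.subset_closure ⟨.f, rfl⟩
  · exact Subgroup.subset_closure ⟨.h, rfl⟩
theorem cardX1 : Nat.card (genBy PX1) ≠ 0 ∧ Nat.card (genBy PX1) ≤ 1451520 :=
  card_chain leX1 (TCFi22d.rel_upper PX1 PX_inv1 PX_RW1 (genBy PX2) memX1) cardX2 (by norm_num)
theorem memX0 : ∀ w ∈ TCFi22c.SW0, gw PX0 w ∈ genBy PX1 := by
  intro w hw
  simp only [TCFi22c.SW0, List.mem_cons, List.not_mem_nil, or_false] at hw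
  rcases hw with rfl | rfl | rfl | rfl | rfl | rfl | rfl <;> rw [gw_cons, gw_nil, one_mul]
  · exact Subgroup.subset_closure ⟨.b, rfl⟩
  · exact Subgroup.subset_closure ⟨.c, rfl⟩
  · exact Subgroup.subset_closure ⟨.d, rfl⟩
  · exact Subgroup.subset_closure ⟨.e, rfl⟩
  · exact Subgroup.subset_closure ⟨.f, rfl⟩
  · exact Subgroup.subset_closure ⟨.g, rfl⟩
  · exact Subgroup.subset_closure ⟨.h, rfl⟩
theorem cardX0 : Nat.card (genBy PX0) ≠ 0 ∧ Nat.card (genBy PX0) ≤ 4585351680 :=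
  card_chain leX0 (TCFi22c.rel_upper PX0 PX_inv0 PX_RW0 (genBy PX1) memX0) cardX1 (by norm_num)
theorem topX : genBy PX0 = ⊤ := by
  rw [eq_top_iff, ← TCG_Fi22W.P_top, Subgroup.closure_le]
  rintro _ ⟨c, rfl⟩
  cases c
  · exact Subgroup.subset_closure ⟨.b, rfl⟩
  · exact Subgroup.subset_closure ⟨.c, rfl⟩
  · exact Subgroup.subset_closure ⟨.d, rfl⟩
  · exact Subgroup.subset_closure ⟨.e, rfl⟩
  · exact Subgroup.subset_closure ⟨.f, rfl⟩
  · exact Subgroup.subset_closure ⟨.g, rfl⟩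
  · exact Subgroup.subset_closure ⟨.h, rfl⟩
  · exact Subgroup.subset_closure ⟨.i, rfl⟩
theorem card_top : Nat.card Fi22W ≠ 0 ∧ Nat.card Fi22W ≤ 4585351680 := by
  have h := cardX0
  rw [topX, Subgroup.card_top] at h
  exact h
instance finite_Fi22W : Finite Fi22W := Nat.finite_of_card_ne_zero card_top.1

theorem order_main : Nat.card Fi22W = 4585351680 ∧ Function.Injective TCFi22W.φ :=
  order_faithful TCFi22W.φ card_top.2 (TCFi22W.Chain.lev0 TCFi22W.φ.range.subtype (rangeGen TCFi22W.φ TCG_Fi22W.P) TCFi22W.φ_P)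

end CfsgLib.TCFi22W
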