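import Cfsg.Agent.EqBase
import Cfsg.Agent.LibTCQ
import Cfsg.Agent.LibSporDefFi22W
set_option autoImplicit false
set_option linter.all false
set_option maxRecDepth 1000000

/-! The presentation of Fi22W in column form (generated). -/
namespace CfsgLib.TCG_Fi22W
open CfsgLib.TC Cfsg.Spor
inductive Col where
  | b
  | c
  | d
  | e
  | f
  | g
  | h
  | i
noncomputable def idx : Col → ℕ := fun c => Col.rec (motive := fun _ => ℕ) 0 1 2 3 4 5 6 7 c
noncomputable def inv : Col → Col := fun c => Col.rec (motive := fun _ => Col) .b .c .d .e .f .g .h .i c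
def dec : ℕ → Col := fun n => if n = 0 then .b else if n = 1 then .c else if n = 2 then .d else if n = 3 then .e else if n = 4 then .f else if n = 5 then .g else if n = 6 then .h else .i
theorem hdec : ∀ c, dec (idx c) = c := by intro c; cases c <;> rfl
theorem inv_inv : ∀ c, inv (inv c) = c := by intro c; cases c <;> rfl
def cols : List Col := [.b, .c, .d, .e, .f, .g, .h, .i]
theorem hcols : ∀ c, c ∈ cols := by intro c; cases c <;> simp [cols]
def col : Fi22W.Gen → Col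
  | .b => .b
  | .c => .c
  | .d => .d
  | .e => .e
  | .f => .f
  | .g => .g
  | .h => .h
  | .i => .i
def CL : List (Fi22W.Gen × Fi22W.Gen × ℕ) := [(.b, .b, 1), (.b, .c, 3), (.b, .d, 2), (.b, .e, 2), (.b, .f, 2), (.b, .g, 2), (.b, .h, 2), (.b, .i, 2), (.c, .c, 1), (.c, .d, 3), (.c, .e, 2), (.c, .f, 2), (.c, .g, 2), (.c, .h, 2), (.c, .i, 2), (.d, .d, 1), (.d, .e, 3), (.d, .f, 2), (.d, .g, 2), (.d, .h, 3), (.d, .i, 2), (.e, .e, 1), (.e, .f, 3), (.e, .g, 2), (.e, .h, 2), (.e, .i, 2), (.f, .f, 1), (.f, .g, 3), (.f, .h, 2), (.f, .i, 2), (.g, .g, 1), (.g, .h, 2), (.g, .i, 2), (.h, .h, 1), (.h, .i, 3), (.i, .i, 1)]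
def XL : List (Ex Fi22W.Gen) := [(.p (.m (.m (.m (.m (.m (.m (.m (.m (.v .d) (.v .c)) (.v .b)) (.v .d)) (.v .e)) (.v .f)) (.v .d)) (.v .h)) (.v .i)) 10),
  (.p (.m (.m (.m (.m (.m (.m (.v .b) (.v .c)) (.v .d)) (.v .e)) (.v .f)) (.v .g)) (.v .h)) 9)]
def TV : List Col := []
/-- relators as path words (first letter acts first) -/
def RW : List (List Col) := [[.b, .b],
  [.c, .b, .c, .b, .c, .b],
  [.d, .b, .d, .b],
  [.e, .b, .e, .b],
  [.f, .b, .f, .b],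
  [.g, .b, .g, .b],
  [.h, .b, .h, .b],
  [.i, .b, .i, .b],
  [.c, .c],
  [.d, .c, .d, .c, .d, .c],
  [.e, .c, .e, .c],
  [.f, .c, .f, .c],
  [.g, .c, .g, .c],
  [.h, .c, .h, .c],
  [.i, .c, .i, .c],
  [.d, .d],
  [.e, .d, .e, .d, .e, .d],
  [.f, .d, .f, .d],
  [.g, .d, .g, .d],
  [.h, .d, .h, .d, .h, .d],
  [.i, .d, .i, .d],
  [.e, .e],
  [.f, .e, .f, .e, .f, .e],
  [.g, .e, .g, .e],
  [.h, .e, .h, .e],
  [.i, .e, .i, .e],
  [.f, .f],
  [.g, .f, .g, .f, .g, .f],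
  [.h, .f, .h, .f],
  [.i, .f, .i, .f],
  [.g, .g],
  [.h, .g, .h, .g],
  [.i, .g, .i, .g],
  [.h, .h],
  [.i, .h, .i, .h, .i, .h],
  [.i, .i],
  [.i, .h, .d, .f, .e, .d, .b, .c, .d, .i, .h, .d, .f, .e, .d, .b, .c, .d, .i, .h, .d, .f, .e, .d, .b, .c, .d, .i, .h, .d, .f, .e, .d, .b, .c, .d, .i, .h, .d, .f, .e, .d, .b, .c, .d, .i, .h, .d, .f, .e, .d, .b, .c, .d, .i, .h, .d, .f, .e, .d, .b, .c, .d, .i, .h, .d, .f, .e, .d, .b, .c, .d, .i, .h, .d, .f, .e, .d, .b, .c, .d, .i, .h, .d, .f, .e, .d, .b, .c, .d],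
  [.h, .g, .f, .e, .d, .c, .b, .h, .g, .f, .e, .d, .c, .b, .h, .g, .f, .e, .d, .c, .b, .h, .g, .f, .e, .d, .c, .b, .h, .g, .f, .e, .d, .c, .b, .h, .g, .f, .e, .d, .c, .b, .h, .g, .f, .e, .d, .c, .b, .h, .g, .f, .e, .d, .c, .b, .h, .g, .f, .e, .d, .c, .b]]
theorem h1 : ∀ t ∈ CL, t.1 ∈ coxNodes Fi22W.edges ∧ t.2.1 ∈ coxNodes Fi22W.edges ∧ coxLabel Fi22W.edges t.1 t.2.1 = t.2.2 := by decide +kernel
theorem h2 : ∀ x ∈ coxNodes Fi22W.edges, ∀ y ∈ coxNodes Fi22W.edges, (x, y, coxLabel Fi22W.edges x y) ∈ CL ∨ (y, x, coxLabel Fi22W.edges x y) ∈ CL := by decide +kernel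
theorem h3 : XL.map Ex.toFree = Fi22W.extra := rfl
theorem rw_eq : RWx col inv CL XL TV = RW := lleq_sound dec hdec _ _ (by decide +kernel)
def Pc {G : Type*} [Group G] (f : Fi22W.Gen → G) : Col → G
  | .b => f .b
  | .c => f .c
  | .d => f .d
  | .e => f .e
  | .f => f .f
  | .g => f .g
  | .h => f .h
  | .i => f .i
theorem Pc_col {G : Type*} [Group G] (f : Fi22W.Gen → G) (x : Fi22W.Gen) : Pc f (col x) = f x := by cases x <;> rfl
theorem f_inv {G : Type*} [Group G] {f : Fi22W.Gen → G} (hs : Sat Fi22W.edges Fi22W.extra f) (x : Fi22W.Gen) (hx : (x, x, 1) ∈ CL) : (f x)⁻¹ = f x := by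
  have := sat_spx h1 h3 hs (Ex.p (Ex.m (Ex.v x) (Ex.v x)) 1)
    (List.mem_append_left _ (List.mem_map_of_mem (f := fun t : Fi22W.Gen × Fi22W.Gen × ℕ => Ex.p (Ex.m (Ex.v t.1) (Ex.v t.2.1)) t.2.2) hx))
  have h4 : f x * f x = 1 := by simpa [Ex.toFree] using this
  exact inv_eq_of_mul_eq_one_left h4
theorem Pc_inv {G : Type*} [Group G] {f : Fi22W.Gen → G} (hs : Sat Fi22W.edges Fi22W.extra f) : ∀ c, Pc f (inv c) = (Pc f c)⁻¹ := by
  intro c; cases c
  · exact (f_inv hs .b (by decide +kernel)).symm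
  · exact (f_inv hs .c (by decide +kernel)).symm
  · exact (f_inv hs .d (by decide +kernel)).symm
  · exact (f_inv hs .e (by decide +kernel)).symm
  · exact (f_inv hs .f (by decide +kernel)).symm
  · exact (f_inv hs .g (by decide +kernel)).symm
  · exact (f_inv hs .h (by decide +kernel)).symm
  · exact (f_inv hs .i (by decide +kernel)).symm
theorem Pc_RW {G : Type*} [Group G] {f : Fi22W.Gen → G} (hs : Sat Fi22W.edges Fi22W.extra f) : ∀ w ∈ RW, gw (Pc f) w = 1 := by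
  rw [← rw_eq]; exact rwx_of_sat h1 h3 hs (Pc f) (Pc_inv hs) (Pc_col f) TV
/-- the canonical family -/
abbrev P : Col → Fi22W := Pc PresentedGroup.of
theorem hsat : Sat Fi22W.edges Fi22W.extra (PresentedGroup.of (rels := coxRelators Fi22W.edges ∪ {r | r ∈ Fi22W.extra})) := sat_of _ _
theorem P_inv : ∀ c, P (inv c) = (P c)⁻¹ := Pc_inv hsat
theorem P_RW : ∀ w ∈ RW, gw P w = 1 := Pc_RW hsat
theorem P_col : ∀ x, P (col x) = PresentedGroup.of x := Pc_col _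
theorem P_top : Subgroup.closure (Set.range P) = ⊤ := closure_of_eq_top col P P_col
end CfsgLib.TCG_Fi22W
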