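import Cfsg.Agent.EqBase
import Cfsg.Agent.LibMC
import Cfsg.Agent.LibTCGFi22W
set_option autoImplicit false
set_option linter.all false
set_option maxRecDepth 1000000

/-! The matrix side of `Ω₇(3)`. -/

namespace CfsgLib.TCFi22WL
open CfsgLib.TC CfsgLib.MC Cfsg.Spor CfsgLib.TCG_Fi22W Matrix

abbrev ix7 := Unit ⊕ (Fin 3 ⊕ Fin 3)
instance fact3 : Fact (Nat.Prime 3) := ⟨by norm_num⟩
abbrev ι3 : ℕ → ZMod 3 := fun a => (a : ZMod 3)
theorem cod3 : Cod (ZMod 3) 3 ι3 (addp 3) (mulp 3) := cod_zmod 3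

def e7 : ix7 ≃ Fin 7 where
  toFun := fun x => match x with
    | .inl _ => 0
    | .inr (.inl i) => ⟨i.1 + 1, by omega⟩
    | .inr (.inr i) => ⟨i.1 + 4, by omega⟩
  invFun := fun k => match k with
    | 0 => .inl ()
    | 1 => .inr (.inl 0)
    | 2 => .inr (.inl 1)
    | 3 => .inr (.inl 2)
    | 4 => .inr (.inr 0)
    | 5 => .inr (.inr 1)
    | 6 => .inr (.inr 2)
  left_inv := by decide
  right_inv := by decide

noncomputable def mC : Col → ℕ := fun c => Col.rec (motive := fun _ => ℕ) 96940891133724177571952 159550100711867077879797 159611225049529309964757 96831406328050311946416 26114449625547453203979 15561829877257071940020 229580905427925488316846 159635319662563590876780 c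
noncomputable def jC : ℕ := 2954763066713861984492

/-- matrices on the index type of the form -/
noncomputable def MM (a : ℕ) : Matrix ix7 ix7 (ZMod 3) := (toM 3 ι3 7 a).submatrix e7 e7

theorem MM_mul (a b : ℕ) : MM (mulC 3 (addp 3) (mulp 3) 7 a b) = MM a * MM b := by
  unfold MM
  rw [toM_mul cod3, Matrix.submatrix_mul_equiv]

theorem MM_one : MM (scC 3 7 1) = 1 := by
  unfold MM
  rw [toM_one cod3, Matrix.submatrix_one_equiv]

theorem mC_sq (c : Col) : MM (mC c) * MM (mC c) = 1 := by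
  rw [← MM_mul, ← MM_one]
  congr 1
  cases c <;> decide +kernel

theorem J_sym (c : Col) : (MM jC * MM (mC c))ᵀ = MM jC * MM (mC c) := by
  rw [← MM_mul]
  have h : ∀ i j : Fin 7, dig 3 (mulC 3 (addp 3) (mulp 3) 7 jC (mC c)) (7 * i.1 + j.1) = dig 3 (mulC 3 (addp 3) (mulp 3) 7 jC (mC c)) (7 * j.1 + i.1) := by
    cases c <;> decide +kernel
  ext i j
  show ι3 _ = ι3 _
  rw [h]

theorem J_tr : (MM jC)ᵀ = MM jC := by
  have h : ∀ i j : Fin 7, dig 3 jC (7 * i.1 + j.1) = dig 3 jC (7 * j.1 + i.1) := by decide +kernel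
  ext i j
  show ι3 _ = ι3 _
  rw [h]

theorem J_pres (c : Col) : (MM (mC c))ᵀ * MM jC * MM (mC c) = MM jC := by
  have h := J_sym c
  rw [Matrix.transpose_mul, J_tr] at h
  rw [h, mul_assoc, mC_sq, mul_one]

def gram : ix7 → ix7 → ZMod 3
  | .inl _, .inl _ => 2
  | .inr (.inl a), .inr (.inr b) => if a = b then 1 else 0
  | .inr (.inr a), .inr (.inl b) => if a = b then 1 else 0
  | _, _ => 0

theorem gram_eq (i j : ix7) : MM jC i j = gram i j := by
  rcases i with i | i | i <;> rcases j with j | j | j <;> revert i j <;> decide +kernel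

theorem mv0 (v : ix7 → ZMod 3) : (MM jC *ᵥ v) (.inl ()) = 2 * v (.inl ()) := by
  simp [dotProduct, Matrix.mulVec, gram_eq, gram, Fintype.sum_sum_type]
theorem mv1 (v : ix7 → ZMod 3) (i : Fin 3) : (MM jC *ᵥ v) (.inr (.inl i)) = v (.inr (.inr i)) := by
  simp [dotProduct, Matrix.mulVec, gram_eq, gram, Fintype.sum_sum_type]
theorem mv2 (v : ix7 → ZMod 3) (i : Fin 3) : (MM jC *ᵥ v) (.inr (.inr i)) = v (.inr (.inl i)) := by
  simp [dotProduct, Matrix.mulVec, gram_eq, gram, Fintype.sum_sum_type]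

theorem Q_eq (v : ix7 → ZMod 3) : Cfsg.quadFormOdd 3 (ZMod 3) v = 2 * (v ⬝ᵥ (MM jC).mulVec v) := by
  unfold Cfsg.quadFormOdd dotProduct
  have h4 : (4 : ZMod 3) = 1 := by decide
  rw [Fintype.sum_sum_type, Fintype.sum_sum_type]
  simp only [mv1, mv2, Finset.univ_unique, Finset.sum_singleton]
  have h0 : (MM jC *ᵥ v) (.inl default) = 2 * v (.inl ()) := mv0 v
  rw [h0]
  have h5 : ∑ i : Fin 3, v (.inr (.inr i)) * v (.inr (.inl i)) = ∑ i : Fin 3, v (.inr (.inl i)) * v (.inr (.inr i)) :=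
    Finset.sum_congr rfl (fun _ _ => mul_comm _ _)
  rw [h5]
  generalize ∑ i : Fin 3, v (.inr (.inl i)) * v (.inr (.inr i)) = S
  have e : v (.inl (default : Unit)) = v (.inl ()) := rfl
  rw [e]
  have : 2 * (v (.inl ()) * (2 * v (.inl ())) + (S + S)) = 4 * (v (.inl ()) ^ 2 + S) := by ring
  rw [this, h4, one_mul]

theorem pres_gen {n R : Type*} [Fintype n] [CommRing R] (A J : Matrix n n R) (h : Aᵀ * J * A = J) (v : n → R) :
    (A *ᵥ v) ⬝ᵥ (J *ᵥ (A *ᵥ v)) = v ⬝ᵥ (J *ᵥ v) := by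
  calc (A *ᵥ v) ⬝ᵥ (J *ᵥ (A *ᵥ v)) = (v ᵥ* Aᵀ) ⬝ᵥ (J *ᵥ (A *ᵥ v)) := by
        rw [Matrix.vecMul_transpose]
    _ = v ⬝ᵥ (Aᵀ *ᵥ (J *ᵥ (A *ᵥ v))) := (Matrix.dotProduct_mulVec _ _ _).symm
    _ = v ⬝ᵥ ((Aᵀ * J * A) *ᵥ v) := by
        rw [Matrix.mulVec_mulVec, Matrix.mulVec_mulVec, Matrix.mul_assoc]
    _ = _ := by rw [h]

theorem pres (c : Col) (v : ix7 → ZMod 3) : Cfsg.quadFormOdd 3 (ZMod 3) ((MM (mC c)).mulVec v) = Cfsg.quadFormOdd 3 (ZMod 3) v :=
  (Q_eq _).trans ((congrArg (fun x => 2 * x) (pres_gen _ _ (J_pres c) v)).trans (Q_eq v).symm)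

abbrev GO := Cfsg.isometryGroup (ZMod 3) (Cfsg.quadFormOdd 3 (ZMod 3))

/-- the isometries -/
noncomputable def Y (c : Col) : GO := ⟨⟨MM (mC c), MM (mC c), mC_sq c, mC_sq c⟩, fun u _ => pres c u⟩

/-- coordinates -/
noncomputable def co : GO →* Matrix (Fin 7) (Fin 7) (ZMod 3) where
  toFun A := A.1.1.submatrix e7.symm e7.symm
  map_one' := Matrix.submatrix_one_equiv _
  map_mul' A B := (Matrix.submatrix_mul_equiv A.1.1 B.1.1 _ _ _).symm

theorem co_inj : Function.Injective co := by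
  intro A B h
  apply Subtype.ext
  apply Units.ext
  ext i j
  have := congrFun (congrFun h (e7 i)) (e7 j)
  simpa [co] using this

theorem co_Y (c : Col) : co (Y c) = toM 3 ι3 7 (mC c) := by
  ext i j
  show (toM 3 ι3 7 (mC c)) (e7 (e7.symm i)) (e7 (e7.symm j)) = _
  rw [Equiv.apply_symm_apply, Equiv.apply_symm_apply]

theorem rel_chk : lall (fun w => Nat.beq (gwC 3 (addp 3) (mulp 3) 7 mC w) (scC 3 7 1)) RW = true := by decide +kernel

theorem Y_RW : ∀ w ∈ RW, gw Y w = 1 := by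
  intro w hw
  have h := Nat.eq_of_beq_eq_true ((lall_iff _ _).1 rel_chk w hw)
  apply co_inj
  rw [gwC_spec cod3 co Y mC co_Y, h, toM_one cod3, map_one]

theorem Y_inv (c : Col) : Y (inv c) = (Y c)⁻¹ := by
  have h : Y c * Y c = 1 := Subtype.ext (Units.ext (mC_sq c))
  have h2 : inv c = c := by cases c <;> rfl
  rw [h2]
  exact eq_inv_of_mul_eq_one_left h

theorem Y_sat : Sat Fi22W.edges Fi22W.extra (fun x => Y (col x)) :=
  sat_of_rwx TCG_Fi22W.h2 TCG_Fi22W.h3 Y Y_inv TV (by rw [rw_eq]; exact Y_RW)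

noncomputable def ψ : Fi22W →* GO := homOf Y_sat

theorem ψ_of (x : Fi22W.Gen) : ψ (PresentedGroup.of x) = Y (col x) := homOf_of Y_sat x

theorem Y_ne : Y .b ≠ 1 := by
  intro h
  have h1 := congrArg co h
  rw [co_Y, map_one] at h1
  have h2 := congrFun (congrFun h1 0) 0
  revert h2
  decide +kernel

end CfsgLib.TCFi22WL
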