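import Cfsg.Agent.EqBase
import Cfsg.Agent.LibTCV
import Cfsg.Agent.LibTCFi22WF
import Cfsg.Agent.LibTCFi22WL
import Cfsg.Agent.LibH22POrd2
import Cfsg.Agent.LibTCFi22F
set_option autoImplicit false
set_option linter.all false
set_option maxRecDepth 1000000

/-! `⟨b, …, i⟩` in Fi₂₂ is `Ω₇(3)`. -/

namespace CfsgLib.TCFi22W
open CfsgLib.TC Cfsg.Spor CfsgLib.TCG_Fi22W CfsgLib.TCFi22WL

theorem cj (w z z' : List Col) (h : relChk L stp (invW inv w ++ (z ++ (w ++ invW inv z'))) = true) :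
    gw P w * gw P z * (gw P w)⁻¹ = gw P z' := conj_rel closed φ P φ_P order_main.2 P_inv w z z' h
theorem cj' (w z z' : List Col) (h : relChk L stp (w ++ (z ++ (invW inv w ++ invW inv z'))) = true) :
    (gw P w)⁻¹ * gw P z * (gw P w) = gw P z' := conj_rel' closed φ P φ_P order_main.2 P_inv w z z' h

theorem norm_gens : ∀ w ∈ SW0, gw P w * gw P [.g] * (gw P w)⁻¹ = gw P [.g] ∧ (gw P w)⁻¹ * gw P [.g] * gw P w = gw P [.g] := by
  intro w hw
  simp only [SW0, List.mem_cons, List.not_mem_nil, or_false] at hw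
  rcases hw with rfl | rfl | rfl | rfl | rfl | rfl | rfl | rfl <;>
    exact ⟨cj _ _ _ (by decide +kernel), cj' _ _ _ (by decide +kernel)⟩

theorem A_norm : ∀ h ∈ H, ∀ a ∈ Subgroup.zpowers (gw P [.g]), h * a * h⁻¹ ∈ Subgroup.zpowers (gw P [.g]) := by
  apply conj_mem_of_gens (le_of_eq H_eq)
  · rintro _ ⟨w, hw, rfl⟩
    apply zpowers_conj
    rw [(norm_gens w hw).1]; exact Subgroup.mem_zpowers _
  · rintro _ ⟨w, hw, rfl⟩
    intro a ha
    have := zpowers_conj (s := (gw P w)⁻¹) (z := gw P [.g]) (by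
      rw [_root_.inv_inv, (norm_gens w hw).2]; exact Subgroup.mem_zpowers _) a ha
    rwa [_root_.inv_inv] at this

section rels
variable {G : Type*} [Group G] {f : Fi22W.Gen → G} (hs : Sat Fi22W.edges Fi22W.extra f)
include hs
theorem sq (x : Fi22W.Gen) : f x * f x = 1 := by
  have := cox_rel h1 h3 hs x x 1 (by cases x <;> decide)
  rwa [pow_one] at this
theorem rbc : (f .b * f .c)^3 = 1 := cox_rel h1 h3 hs _ _ _ (by decide)
theorem rcd : (f .c * f .d)^3 = 1 := cox_rel h1 h3 hs _ _ _ (by decide)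
theorem rde : (f .d * f .e)^3 = 1 := cox_rel h1 h3 hs _ _ _ (by decide)
theorem rdh : (f .d * f .h)^3 = 1 := cox_rel h1 h3 hs _ _ _ (by decide)
theorem ref : (f .e * f .f)^3 = 1 := cox_rel h1 h3 hs _ _ _ (by decide)
theorem rfg : (f .f * f .g)^3 = 1 := cox_rel h1 h3 hs _ _ _ (by decide)
theorem rhi : (f .h * f .i)^3 = 1 := cox_rel h1 h3 hs _ _ _ (by decide)
theorem rx : (f .b * f .c * f .d * f .e * f .f * f .g * f .h)^9 = 1 := by
  have := hs ((Fi22W.b * Fi22W.c * Fi22W.d * Fi22W.e * Fi22W.f * Fi22W.g * Fi22W.h) ^ 9) (Or.inr (by simp [Fi22W.extra]))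
  simpa only [map_mul, map_inv, map_pow, FreeGroup.lift_apply_of] using this
end rels

theorem gen_top : Subgroup.normalClosure (Subgroup.zpowers (gw P [.g]) : Set Fi22W) = ⊤ := by
  apply normal_eq_top
  intro f hf hs
  have hg : f .g = 1 := by
    rw [hf]
    refine (QuotientGroup.eq_one_iff _).2 (Subgroup.subset_normalClosure ?_)
    have h := Subgroup.mem_zpowers (gw P [Col.g])
    have e : gw P [Col.g] = P Col.g := by rw [gw_cons, gw_nil, one_mul]
    rw [e] at h ⊢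
    exact h
  have hf' : f .f = 1 := odd_one' hg (sq hs _) (rfg hs) rfl
  have he : f .e = 1 := odd_one' hf' (sq hs _) (ref hs) rfl
  have hd : f .d = 1 := odd_one' he (sq hs _) (rde hs) rfl
  have hc : f .c = 1 := odd_one' hd (sq hs _) (rcd hs) rfl
  have hb : f .b = 1 := odd_one' hc (sq hs _) (rbc hs) rfl
  have hh : f .h = 1 := odd_one hd (sq hs _) (rdh hs) rfl
  have hi : f .i = 1 := odd_one hh (sq hs _) (rhi hs) rfl
  intro x
  cases x <;> assumption

theorem perfect : commutator Fi22W = ⊤ := by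
  apply perfect_of
  intro f hs
  have hbc := odd_eq (sq hs _) (sq hs _) (rbc hs) rfl
  have hcd := odd_eq (sq hs _) (sq hs _) (rcd hs) rfl
  have hde := odd_eq (sq hs _) (sq hs _) (rde hs) rfl
  have hdh := odd_eq (sq hs _) (sq hs _) (rdh hs) rfl
  have hef := odd_eq (sq hs _) (sq hs _) (ref hs) rfl
  have hfg := odd_eq (sq hs _) (sq hs _) (rfg hs) rfl
  have hhi := odd_eq (sq hs _) (sq hs _) (rhi hs) rfl
  have hx := rx hs
  rw [hbc, hcd, ← hdh, ← hfg, ← hef, ← hde] at hx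
  have hd2 := sq hs .d
  have hd : f .d = 1 := by
    simp only [hd2, one_mul] at hx
    rw [show (9:ℕ) = 2 * 4 + 1 from rfl, pow_add, pow_mul, pow_two (f .d), hd2, one_pow, one_mul, pow_one] at hx
    exact hx
  have hc : f .c = 1 := by rw [hcd, hd]
  have hb : f .b = 1 := by rw [hbc, hc]
  have he : f .e = 1 := by rw [← hde, hd]
  have hh : f .h = 1 := by rw [← hdh, hd]
  have hf' : f .f = 1 := by rw [← hef, he]
  have hg : f .g = 1 := by rw [← hfg, hf']
  have hi : f .i = 1 := by rw [← hhi, hh]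
  intro x
  cases x <;> assumption

theorem core_a : H.normalCore = ⊥ := core_bot_of_faithful φ order_main.2 _ main.2.1 main.2.2

instance : Nontrivial Fi22W := by
  rw [← Finite.one_lt_card_iff_nontrivial, order_main.1]
  norm_num

theorem simple : IsSimpleGroup Fi22W :=
  simple_iwasawa H (Subgroup.zpowers (gw P [.g])) maximal core_a
    ((Subgroup.zpowers_le).2 (H_SW [.g] (by simp [SW0]))) A_norm
    (fun a ha b hb => by
      obtain ⟨m, rfl⟩ := ha; obtain ⟨n, rfl⟩ := hb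
      exact (Commute.refl _).zpow_zpow m n) gen_top perfect

/-! ### the isomorphism with `Ω₇(3)` -/

abbrev Om7 := Cfsg.Omega (ZMod 3) (Cfsg.quadFormOdd 3 (ZMod 3))
abbrev PO7 := Cfsg.POmega (ZMod 3) (Cfsg.quadFormOdd 3 (ZMod 3))

theorem ψ_mem (x : Fi22W) : ψ x ∈ commutator GO := by
  have h : x ∈ commutator Fi22W := by rw [perfect]; trivial
  have h2 : (commutator Fi22W).map ψ ≤ commutator GO := by
    rw [commutator_def, commutator_def, Subgroup.map_commutator]
    exact Subgroup.commutator_mono le_top le_top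
  exact h2 (Subgroup.mem_map_of_mem _ h)

/-- the homomorphism to `Ω₇(3)` -/
noncomputable def ψ1 : Fi22W →* Om7 := ψ.codRestrict (commutator GO) ψ_mem

noncomputable def ψ2 : Fi22W →* PO7 := (QuotientGroup.mk' _).comp ψ1

theorem ψ2_inj : Function.Injective ψ2 := by
  rw [← MonoidHom.ker_eq_bot_iff]
  have hs := simple
  rcases hs.eq_bot_or_eq_top_of_normal ψ2.ker inferInstance with h | h
  · exact h
  exfalso
  have h1 : ∀ x, ψ1 x ∈ Subgroup.center Om7 := by
    intro x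
    have : x ∈ ψ2.ker := by rw [h]; trivial
    rw [MonoidHom.mem_ker] at this
    exact (QuotientGroup.eq_one_iff _).1 this
  have h2 : ∀ x, ψ1 x = 1 := by
    intro x
    have hx : x ∈ commutator Fi22W := by rw [perfect]; trivial
    have h3 : commutator Fi22W ≤ ψ1.ker := by
      rw [commutator_def, Subgroup.commutator_le]
      intro a _ b _
      rw [MonoidHom.mem_ker, map_commutatorElement, commutatorElement_eq_one_iff_mul_comm]
      exact (Subgroup.mem_center_iff.1 (h1 b) (ψ1 a))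
    exact MonoidHom.mem_ker.1 (h3 hx)
  have h4 := h2 (PresentedGroup.of .b)
  have h5 : ψ (PresentedGroup.of .b) = 1 := congrArg Subtype.val h4
  rw [ψ_of] at h5
  exact Y_ne h5

theorem card_PO7 : Nat.card PO7 = 4585351680 := by
  have h := Cfsg.Agent.H22.card_pomega_odd (F := ZMod 3) (by rw [ZMod.card]; decide) 3 (by norm_num)
  rw [ZMod.card, Finset.prod_range_succ, Finset.prod_range_succ, Finset.prod_range_succ, Finset.prod_range_zero] at h
  norm_num at h
  show Nat.card (Cfsg.POmega (ZMod 3) (Cfsg.quadFormOdd 3 (ZMod 3))) = _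
  omega

theorem iso_PO7 : Nonempty (Fi22W ≃* PO7) := by
  have hf : Finite PO7 := Nat.finite_of_card_ne_zero (by rw [card_PO7]; norm_num)
  have hb : Function.Bijective ψ2 := by
    rw [Nat.bijective_iff_injective_and_card]
    exact ⟨ψ2_inj, by rw [order_main.1, card_PO7]⟩
  exact ⟨MulEquiv.ofBijective ψ2 hb⟩

/-! ### the subgroup of Fi₂₂ -/

noncomputable instance dec22 : DecidableEq TCG_Fi22.Col := fun x y =>
  decidable_of_iff (TCG_Fi22.idx x = TCG_Fi22.idx y) ⟨fun h => by rw [← TCG_Fi22.hdec x, ← TCG_Fi22.hdec y, h], fun h => by rw [h]⟩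

def e22 : TCG_Fi22W.Col → TCG_Fi22.Col
  | .b => .b
  | .c => .c
  | .d => .d
  | .e => .e
  | .f => .f
  | .g => .g
  | .h => .h
  | .i => .i

theorem e22_RW : ∀ w ∈ TCG_Fi22W.RW, w.map e22 ∈ TCG_Fi22.RW := by decide +kernel

theorem P22_inv : ∀ c, TCG_Fi22.P (e22 (TCG_Fi22W.inv c)) = (TCG_Fi22.P (e22 c))⁻¹ := by
  intro c
  have h : e22 (TCG_Fi22W.inv c) = TCG_Fi22.inv (e22 c) := by cases c <;> rfl
  rw [h]; exact TCG_Fi22.P_inv _

theorem sat22 : Sat Fi22W.edges Fi22W.extra (fun x => TCG_Fi22.P (e22 (TCG_Fi22W.col x))) :=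
  sat_of_rwx TCG_Fi22W.h2 TCG_Fi22W.h3 (fun c => TCG_Fi22.P (e22 c)) P22_inv TCG_Fi22W.TV (by
    rw [TCG_Fi22W.rw_eq]
    intro w hw
    have h := TCG_Fi22.P_RW _ (e22_RW w hw)
    rwa [gw_map] at h)

noncomputable def Θ : Fi22W →* Fi22 := homOf sat22

theorem Θ_P (c : TCG_Fi22W.Col) : Θ (TCG_Fi22W.P c) = TCG_Fi22.P (e22 c) := by
  cases c
  · exact homOf_of sat22 .b
  · exact homOf_of sat22 .c
  · exact homOf_of sat22 .d
  · exact homOf_of sat22 .e
  · exact homOf_of sat22 .f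
  · exact homOf_of sat22 .g
  · exact homOf_of sat22 .h
  · exact homOf_of sat22 .i

theorem Θ_range : Θ.range = TCFi22b.H := by
  apply le_antisymm
  · rw [MonoidHom.range_eq_map, ← TCG_Fi22W.P_top, MonoidHom.map_closure, Subgroup.closure_le]
    rintro _ ⟨_, ⟨c, rfl⟩, rfl⟩
    rw [Θ_P]
    have k : ∀ x : TCG_Fi22.Col, [x] ∈ TCFi22b.SW0 → TCG_Fi22.P x ∈ TCFi22b.H := by
      intro x h
      have := TCFi22b.H_SW [x] h
      rwa [gw_cons, gw_nil, one_mul] at this
    cases c <;> exact k _ (by simp [TCFi22b.SW0, e22])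
  · rw [TCFi22b.H_eq, Subgroup.closure_le]
    rintro _ ⟨w, hw, rfl⟩
    simp only [TCFi22b.SW0, List.mem_cons, List.not_mem_nil, or_false] at hw
    rcases hw with rfl | rfl | rfl | rfl | rfl | rfl | rfl | rfl <;> rw [gw_cons, gw_nil, one_mul]
    · exact ⟨TCG_Fi22W.P .b, Θ_P .b⟩
    · exact ⟨TCG_Fi22W.P .c, Θ_P .c⟩
    · exact ⟨TCG_Fi22W.P .d, Θ_P .d⟩
    · exact ⟨TCG_Fi22W.P .e, Θ_P .e⟩
    · exact ⟨TCG_Fi22W.P .f, Θ_P .f⟩
    · exact ⟨TCG_Fi22W.P .g, Θ_P .g⟩
    · exact ⟨TCG_Fi22W.P .h, Θ_P .h⟩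
    · exact ⟨TCG_Fi22W.P .i, Θ_P .i⟩

theorem Θ_inj : Function.Injective Θ := by
  rw [← MonoidHom.ker_eq_bot_iff]
  rcases simple.eq_bot_or_eq_top_of_normal Θ.ker inferInstance with h | h
  · exact h
  exfalso
  have h1 : TCFi22b.H = ⊥ := by
    rw [← Θ_range, MonoidHom.range_eq_map, ← h]
    rw [eq_bot_iff]
    rintro _ ⟨x, hx, rfl⟩
    exact hx
  have h2 := TCFi22b.main.1
  have h3 := Subgroup.card_mul_index TCFi22b.H
  rw [h1, Subgroup.index_bot] at h2
  rw [TCFi22.order_main.1] at h2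
  norm_num at h2

theorem H22_iso : Nonempty (TCFi22b.H ≃* PO7) := by
  obtain ⟨e⟩ := iso_PO7
  have e1 : Fi22W ≃* Θ.range := MonoidHom.ofInjective Θ_inj
  have e2 : Θ.range ≃* TCFi22b.H := MulEquiv.subgroupCongr Θ_range
  exact ⟨(e2.symm.trans e1.symm).trans e⟩

end CfsgLib.TCFi22W
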