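import Cfsg.Agent.EqBase
import Cfsg.Agent.LibTC3
import Cfsg.Agent.LibTCGFi22W
set_option autoImplicit false
set_option linter.all false
set_option maxRecDepth 1000000
set_option maxHeartbeats 0
namespace CfsgLib.TCFi22W
open CfsgLib.TC Cfsg.Spor
open CfsgLib.TCG_Fi22W
noncomputable def SW0 : List (List Col) := [[Col.b], [Col.c], [Col.d], [Col.e], [Col.g], [Col.h], [Col.i], [Col.h, Col.c, Col.d, Col.e, Col.f, Col.g, Col.h, Col.c, Col.d, Col.e, Col.f, Col.g, Col.h, Col.c, Col.d, Col.e, Col.f, Col.g, Col.h, Col.c, Col.d, Col.e, Col.f, Col.g, Col.h, Col.c, Col.d, Col.e, Col.f, Col.g]]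
def HX : List (Ex Fi22W.Gen) := [(.v .b), (.v .c), (.v .d), (.v .e), (.v .g), (.v .h), (.v .i), (.p (.m (.m (.m (.m (.m (.v .g) (.v .f)) (.v .e)) (.v .d)) (.v .c)) (.v .h)) 5)]
theorem sw_eq : HX.map (fun e => e.word col inv) = SW0 := lleq_sound dec hdec _ _ (by decide +kernel)
end CfsgLib.TCFi22W
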