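import Cfsg.Agent.EqBase
import Cfsg.Agent.LibTC6
import Cfsg.Agent.LibTCFi23S
import Cfsg.Agent.LibTCFi22S
set_option autoImplicit false
set_option linter.all false
set_option maxRecDepth 1000000

/-! The double cover of Fi22 in Fi23. -/

namespace CfsgLib.TCFi23
open CfsgLib.TC Cfsg.Spor CfsgLib.TCG_Fi23

theorem tt_ne : tt ≠ 1 := by
  intro h
  obtain ⟨y, hy⟩ := conj_j
  rw [h, mul_one, mul_inv_cancel] at hy
  have h1 : φ (P .j) ⟨q0, q0_mem⟩ = ⟨q0, q0_mem⟩ := by rw [← hy, map_one, Equiv.Perm.one_apply]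
  rw [φ_P] at h1
  have h2 := congrArg Subtype.val h1
  have h3 : F_j q0 = q0 := h2
  have h4 : Nat.beq (F_j q0) q0 = false := by decide +kernel
  rw [h3] at h4
  revert h4
  decide

theorem P_sq (c : Col) : P c * P c = 1 := by
  have h : P (inv c) = (P c)⁻¹ := P_inv c
  have h2 : inv c = c := by cases c <;> rfl
  rw [h2] at h
  nth_rewrite 1 [h]
  exact inv_mul_cancel _

theorem tt_sq : tt * tt = 1 := by
  obtain ⟨y, hy⟩ := conj_j
  have h1 := P_sq .j
  rw [← hy] at h1
  have h2 : y * (tt * tt) * y⁻¹ = 1 := by rw [← h1]; group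
  have h3 : y * (tt * tt) = y := by rwa [mul_inv_eq_one] at h2
  exact mul_eq_left.1 h3

/-- `tt` as an element of `H` -/
noncomputable def zH : H := ⟨tt, tt_mem⟩

theorem zH_central (h : H) : h * zH = zH * h := Subtype.ext (central h.1 h.2)

noncomputable abbrev Z : Subgroup H := Subgroup.zpowers zH

theorem Z_le : Z ≤ Subgroup.center H := by
  rw [Subgroup.zpowers_le, Subgroup.mem_center_iff]
  exact zH_central

instance Z_normal : Z.Normal := by
  refine ⟨fun x hx g => ?_⟩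
  have h1 := Subgroup.mem_center_iff.1 (Z_le hx) g
  rw [h1, mul_inv_cancel_right]
  exact hx

theorem card_Z : Nat.card Z = 2 := by
  rw [Nat.card_zpowers]
  apply orderOf_eq_prime
  · rw [pow_two]; exact Subtype.ext tt_sq
  · intro h; exact tt_ne (congrArg Subtype.val h)

def emb : TCG_Fi22.Col → Col
  | .a => .a
  | .b => .b
  | .c => .c
  | .d => .d
  | .e => .e
  | .f => .f
  | .g => .g
  | .h => .h
  | .i => .i

theorem emb_mem (c : TCG_Fi22.Col) : P (emb c) ∈ H := by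
  have h0 := H_SW [emb c] (by cases c <;> simp [SW0, emb])
  rwa [gw_cons, gw_nil, one_mul] at h0

noncomputable def gH (c : TCG_Fi22.Col) : H := ⟨P (emb c), emb_mem c⟩

theorem gH_val (w : List TCG_Fi22.Col) : (gw gH w : H).1 = gw (fun c => P (emb c)) w := map_gw H.subtype gH w

theorem gH_inv (c : TCG_Fi22.Col) : gH (TCG_Fi22.inv c) = (gH c)⁻¹ := by
  apply Subtype.ext
  show P (emb (TCG_Fi22.inv c)) = (P (emb c))⁻¹
  rw [← P_inv]
  cases c <;> rfl

def lastw : List TCG_Fi22.Col := [.h, .g, .f, .e, .d, .c, .b, .h, .g, .f, .e, .d, .c, .b, .h, .g, .f, .e, .d, .c, .b,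
  .h, .g, .f, .e, .d, .c, .b, .h, .g, .f, .e, .d, .c, .b, .h, .g, .f, .e, .d, .c, .b, .h, .g, .f, .e, .d, .c, .b,
  .h, .g, .f, .e, .d, .c, .b, .h, .g, .f, .e, .d, .c, .b]

theorem RW_split : TCG_Fi22.RW = TCG_Fi22.RW.dropLast ++ [lastw] := rfl

def RI22 : List ℕ := [0, 1, 2, 3, 4, 5, 6, 8, 9, 10, 11, 12, 13, 14, 15, 17, 18, 19, 20, 21, 22, 23, 25, 26, 27, 28, 29, 30, 32, 33, 34, 35, 36, 38, 39, 40, 41, 43, 44, 45, 47, 48, 52, 53, 54, 55, 56]

theorem ri22 : lleq idx (mapR (nthR TCG_Fi23.RW) RI22) (mapR (mapR emb) TCG_Fi22.RW.dropLast) = true := by decide +kernel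

theorem last_eq : lastw.map emb = invW inv Tab.w_TT := rfl

theorem rel_H : ∀ w ∈ TCG_Fi22.RW.dropLast, gw gH w = 1 := by
  intro w hw
  apply Subtype.ext
  rw [gH_val]
  exact rw_sub dec hdec emb RI22 ri22 P P_RW w hw

theorem rel_last : gw gH lastw = zH⁻¹ := by
  apply Subtype.ext
  rw [gH_val, ← gw_map, last_eq, gw_invW P P_inv]
  rfl

noncomputable def gQ (c : TCG_Fi22.Col) : H ⧸ Z := QuotientGroup.mk' Z (gH c)

theorem gQ_rel : ∀ w ∈ TCG_Fi22.RW, gw gQ w = 1 := by
  intro w hw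
  have h1 : gw gQ w = QuotientGroup.mk' Z (gw gH w) := (map_gw (QuotientGroup.mk' Z) gH w).symm
  rw [h1]
  rw [RW_split, List.mem_append, List.mem_singleton] at hw
  rcases hw with hw | rfl
  · rw [rel_H w hw, map_one]
  · rw [rel_last, QuotientGroup.mk'_apply, QuotientGroup.eq_one_iff]
    exact Subgroup.inv_mem _ (Subgroup.mem_zpowers _)

theorem gQ_inv (c : TCG_Fi22.Col) : gQ (TCG_Fi22.inv c) = (gQ c)⁻¹ := by
  rw [gQ, gH_inv, map_inv]; rfl

noncomputable def ψ : Fi22 →* H ⧸ Z :=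
  homOf (sat_of_rwx (col := TCG_Fi22.col) (inv := TCG_Fi22.inv) TCG_Fi22.h2 TCG_Fi22.h3 gQ gQ_inv TCG_Fi22.TV
    (by rw [TCG_Fi22.rw_eq]; exact gQ_rel))

theorem ψ_of (x : Fi22.Gen) : ψ (PresentedGroup.of x) = gQ (TCG_Fi22.col x) := homOf_of _ x

theorem gQ_range (c : TCG_Fi22.Col) : gQ c ∈ ψ.range := by
  cases c
  · exact ⟨_, ψ_of .a⟩
  · exact ⟨_, ψ_of .b⟩
  · exact ⟨_, ψ_of .c⟩
  · exact ⟨_, ψ_of .d⟩
  · exact ⟨_, ψ_of .e⟩
  · exact ⟨_, ψ_of .f⟩
  · exact ⟨_, ψ_of .g⟩
  · exact ⟨_, ψ_of .h⟩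
  · exact ⟨_, ψ_of .i⟩

/-- induction principle for `H` -/
theorem H_ind {p : H → Prop} (hg : ∀ c, p (gH c)) (h1 : p 1) (hm : ∀ x y, p x → p y → p (x * y)) (hi : ∀ x, p x → p x⁻¹) :
    ∀ h, p h := by
  have key : ∀ x (hx : x ∈ Subgroup.closure {x | ∃ w ∈ SW0, gw P w = x}), ∀ h : x ∈ H, p ⟨x, h⟩ := by
    intro x hx
    induction hx using Subgroup.closure_induction with
    | mem x hx =>
      obtain ⟨w, hw, rfl⟩ := hx
      intro h
      simp only [SW0, List.mem_cons, List.not_mem_nil, or_false] at hw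
      have e : ∀ c : TCG_Fi22.Col, w = [emb c] → p ⟨gw P w, h⟩ := by
        intro c hc
        subst hc
        have := hg c
        convert this using 1
        apply Subtype.ext
        show gw P [emb c] = P (emb c)
        rw [gw_cons, gw_nil, one_mul]
      rcases hw with hw | hw | hw | hw | hw | hw | hw | hw | hw
      · exact e .a hw
      · exact e .b hw
      · exact e .c hw
      · exact e .d hw
      · exact e .e hw
      · exact e .f hw
      · exact e .g hw
      · exact e .h hw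
      · exact e .i hw
    | one => intro h; exact h1
    | mul x y hx hy ihx ihy =>
      intro h
      have hx' : x ∈ H := by rw [H_eq]; exact hx
      have hy' : y ∈ H := by rw [H_eq]; exact hy
      exact hm ⟨x, hx'⟩ ⟨y, hy'⟩ (ihx hx') (ihy hy')
    | inv x hx ih =>
      intro h
      have hx' : x ∈ H := by rw [H_eq]; exact hx
      exact hi ⟨x, hx'⟩ (ih hx')
  intro h
  exact key h.1 (by rw [← H_eq]; exact h.2) h.2

theorem ψ_surj : Function.Surjective ψ := by
  have key : ∀ h : H, QuotientGroup.mk' Z h ∈ ψ.range := by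
    apply H_ind
    · intro c; exact gQ_range c
    · rw [map_one]; exact Subgroup.one_mem _
    · intro x y hx hy; rw [map_mul]; exact Subgroup.mul_mem _ hx hy
    · intro x hx; rw [map_inv]; exact Subgroup.inv_mem _ hx
  intro q
  obtain ⟨h, rfl⟩ := QuotientGroup.mk'_surjective Z q
  exact key h

theorem card_H : Nat.card H = 129123503308800 := by
  have h1 := Subgroup.card_mul_index H
  rw [main.1, order_main.1] at h1
  omega

theorem card_Q : Nat.card (H ⧸ Z) = 64561751654400 := by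
  have h1 := Subgroup.card_mul_index Z
  rw [card_Z, card_H] at h1
  have : Z.index = Nat.card (H ⧸ Z) := rfl
  omega

theorem ψ_bij : Function.Bijective ψ := by
  have : Finite Fi22 := Nat.finite_of_card_ne_zero (by rw [TCFi22.order_main.1]; norm_num)
  have h := Nat.bijective_iff_surjective_and_card (f := ψ)
  exact h.2 ⟨ψ_surj, by rw [card_Q, TCFi22.order_main.1]⟩

theorem gH_all_one {A : Type*} [CommGroup A] (χ : H →* A) : ∀ h, χ h = 1 := by
  have hsq : ∀ c, χ (gH c) * χ (gH c) = 1 := by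
    intro c
    rw [← map_mul, ← map_one χ]
    congr 1
    exact Subtype.ext (P_sq (emb c))
  have hp : ∀ w ∈ TCG_Fi22.RW.dropLast, gw (fun c => χ (gH c)) w = 1 := by
    intro w hw
    rw [← map_gw χ gH w, rel_H w hw, map_one]
  have h3 : ∀ x y : TCG_Fi22.Col, [y, x, y, x, y, x] ∈ TCG_Fi22.RW.dropLast → χ (gH x) = χ (gH y) := by
    intro x y h
    apply odd_eq (hsq x) (hsq y) (m := 3) _ rfl
    have := hp _ h
    simp only [gw_cons, gw_nil, one_mul] at this
    rw [← this, pow_succ, pow_two]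
    simp only [mul_assoc]
  have hab := h3 .a .b (by simp [TCG_Fi22.RW])
  have hbc := h3 .b .c (by simp [TCG_Fi22.RW])
  have hcd := h3 .c .d (by simp [TCG_Fi22.RW])
  have hde := h3 .d .e (by simp [TCG_Fi22.RW])
  have hdh := h3 .d .h (by simp [TCG_Fi22.RW])
  have hef := h3 .e .f (by simp [TCG_Fi22.RW])
  have hfg := h3 .f .g (by simp [TCG_Fi22.RW])
  have hhi := h3 .h .i (by simp [TCG_Fi22.RW])
  have hx := hp [.h, .f, .e, .d, .c, .b, .a, .h, .f, .e, .d, .c, .b, .a, .h, .f, .e, .d, .c, .b, .a, .h, .f, .e, .d, .c, .b, .a, .h, .f, .e, .d, .c, .b, .a, .h, .f, .e, .d, .c, .b, .a, .h, .f, .e, .d, .c, .b, .a, .h, .f, .e, .d, .c, .b, .a, .h, .f, .e, .d, .c, .b, .a] (by simp [TCG_Fi22.RW])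
  simp only [gw_cons, gw_nil, one_mul] at hx
  rw [hab, hbc, hcd, ← hdh, ← hef, ← hde] at hx
  have hd : χ (gH .d) = 1 := by
    simpa only [hsq, one_mul, mul_one] using hx
  have hc : χ (gH .c) = 1 := by rw [hcd, hd]
  have hb : χ (gH .b) = 1 := by rw [hbc, hc]
  have ha : χ (gH .a) = 1 := by rw [hab, hb]
  have he : χ (gH .e) = 1 := by rw [← hde, hd]
  have hh : χ (gH .h) = 1 := by rw [← hdh, hd]
  have hf' : χ (gH .f) = 1 := by rw [← hef, he]
  have hg : χ (gH .g) = 1 := by rw [← hfg, hf']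
  have hi : χ (gH .i) = 1 := by rw [← hhi, hh]
  apply H_ind
  · intro c; cases c <;> assumption
  · exact map_one χ
  · intro x y hx hy; rw [map_mul, hx, hy, mul_one]
  · intro x hx; rw [map_inv, hx, inv_one]

theorem H_double_cover : Cfsg.IsNonsplitDoubleCover H Fi22 := by
  have : Finite Fi22 := Nat.finite_of_card_ne_zero (by rw [TCFi22.order_main.1]; norm_num)
  refine dcover TCFi22.simple (noncomm_of_perfect TCFi22.perfect) Z Z_le card_Z (MulEquiv.ofBijective ψ ψ_bij).symm ?_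
  apply perfect_of_homs
  intro x
  exact gH_all_one Abelianization.of x

end CfsgLib.TCFi23
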