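import Cfsg.Agent.EqBase
import Cfsg.Agent.LibTCFi24D
set_option autoImplicit false
set_option linter.all false
set_option maxRecDepth 1000000
set_option maxHeartbeats 0
namespace CfsgLib.TCFi24
open CfsgLib.TC Cfsg.Spor CfsgLib.TCG_Fi24
theorem re_3_0 : Tr.all Rf_3 L_0 = true := by decide +kernel
theorem re_3_57 : Tr.all Rf_3 L_57 = true := by decide +kernel
theorem re_1_2 : Tr.all Rf_1 L_2 = true := by decide +kernel
theorem re_4_9 : Tr.all Rf_4 L_9 = true := by decide +kernel
theorem re_4_28 : Tr.all Rf_4 L_28 = true := by decide +kernel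
theorem re_4_47 : Tr.all Rf_4 L_47 = true := by decide +kernel
theorem re_4_66 : Tr.all Rf_4 L_66 = true := by decide +kernel
theorem ce_0_59 : Tr.all CE_0 L_59 = true := by decide +kernel
theorem re_5_49 : Tr.all Rf_5 L_49 = true := by decide +kernel
theorem ce_1_32 : Tr.all CE_1 L_32 = true := by decide +kernel
theorem ce_2_12 : Tr.all CE_2 L_12 = true := by decide +kernel
theorem ce_2_39 : Tr.all CE_2 L_39 = true := by decide +kernel
theorem re_6_6 : Tr.all Rf_6 L_6 = true := by decide +kernel
theorem re_6_48 : Tr.all Rf_6 L_48 = true := by decide +kernel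
theorem tr_60 : Tr.all (transQ mt sd PT DT q0) L_60 = true := by decide +kernel
theorem bs_61 : bst L_61 5500000 (2 * 5500000) = true := by decide +kernel
theorem pr_22 : prodT L_22 = MM_22 := by decide +kernel
theorem sz_50 : size L_50 = 4096 := by decide +kernel
theorem gc_25 : Nat.gcd MM_25 (prodTo 3317) = 1 := by decide +kernel
theorem gc_46 : Nat.gcd MM_46 (prodTo 3317) = 1 := by decide +kernel
theorem gc_67 : Nat.gcd MM_67 (prodTo 3317) = 1 := by decide +kernel
end CfsgLib.TCFi24
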