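import Cfsg.Agent.EqBase
import Cfsg.Agent.LibTCFi24D
set_option autoImplicit false
set_option linter.all false
set_option maxRecDepth 1000000
set_option maxHeartbeats 0
namespace CfsgLib.TCFi24
open CfsgLib.TC Cfsg.Spor CfsgLib.TCG_Fi24
theorem re_3_1 : Tr.all Rf_3 L_1 = true := by decide +kernel
theorem re_3_58 : Tr.all Rf_3 L_58 = true := by decide +kernel
theorem re_2_2 : Tr.all Rf_2 L_2 = true := by decide +kernel
theorem re_1_10 : Tr.all Rf_1 L_10 = true := by decide +kernel
theorem re_1_29 : Tr.all Rf_1 L_29 = true := by decide +kernel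
theorem re_1_48 : Tr.all Rf_1 L_48 = true := by decide +kernel
theorem re_1_67 : Tr.all Rf_1 L_67 = true := by decide +kernel
theorem ce_0_60 : Tr.all CE_0 L_60 = true := by decide +kernel
theorem re_5_50 : Tr.all Rf_5 L_50 = true := by decide +kernel
theorem ce_1_33 : Tr.all CE_1 L_33 = true := by decide +kernel
theorem ce_2_13 : Tr.all CE_2 L_13 = true := by decide +kernel
theorem ce_2_40 : Tr.all CE_2 L_40 = true := by decide +kernel
theorem re_6_7 : Tr.all Rf_6 L_7 = true := by decide +kernel
theorem re_6_49 : Tr.all Rf_6 L_49 = true := by decide +kernel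
theorem tr_61 : Tr.all (transQ mt sd PT DT q0) L_61 = true := by decide +kernel
theorem bs_62 : bst L_62 5500000 (2 * 5500000) = true := by decide +kernel
theorem sz_22 : size L_22 = 4096 := by decide +kernel
theorem pr_51 : prodT L_51 = MM_51 := by decide +kernel
theorem gc_26 : Nat.gcd MM_26 (prodTo 3317) = 1 := by decide +kernel
theorem gc_47 : Nat.gcd MM_47 (prodTo 3317) = 1 := by decide +kernel
theorem gc_68 : Nat.gcd MM_68 (prodTo 3317) = 1 := by decide +kernel
end CfsgLib.TCFi24
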