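import Cfsg.Agent.EqBase
import Cfsg.Agent.LibTCFi24D
set_option autoImplicit false
set_option linter.all false
set_option maxRecDepth 1000000
set_option maxHeartbeats 0
namespace CfsgLib.TCFi24
open CfsgLib.TC Cfsg.Spor CfsgLib.TCG_Fi24
theorem re_3_10 : Tr.all Rf_3 L_10 = true := by decide +kernel
theorem re_3_67 : Tr.all Rf_3 L_67 = true := by decide +kernel
theorem re_2_5 : Tr.all Rf_2 L_5 = true := by decide +kernel
theorem re_1_13 : Tr.all Rf_1 L_13 = true := by decide +kernel
theorem re_1_32 : Tr.all Rf_1 L_32 = true := by decide +kernel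
theorem re_1_51 : Tr.all Rf_1 L_51 = true := by decide +kernel
theorem re_1_70 : Tr.all Rf_1 L_70 = true := by decide +kernel
theorem ce_0_69 : Tr.all CE_0 L_69 = true := by decide +kernel
theorem re_5_59 : Tr.all Rf_5 L_59 = true := by decide +kernel
theorem ce_1_42 : Tr.all CE_1 L_42 = true := by decide +kernel
theorem ce_2_22 : Tr.all CE_2 L_22 = true := by decide +kernel
theorem ce_2_49 : Tr.all CE_2 L_49 = true := by decide +kernel
theorem re_6_16 : Tr.all Rf_6 L_16 = true := by decide +kernel
theorem re_6_58 : Tr.all Rf_6 L_58 = true := by decide +kernel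
theorem tr_70 : Tr.all (transQ mt sd PT DT q0) L_70 = true := by decide +kernel
theorem bs_71 : bst L_71 5500000 (2 * 5500000) = true := by decide +kernel
theorem pr_27 : prodT L_27 = MM_27 := by decide +kernel
theorem sz_55 : size L_55 = 4096 := by decide +kernel
theorem gc_35 : Nat.gcd MM_35 (prodTo 3317) = 1 := by decide +kernel
theorem gc_56 : Nat.gcd MM_56 (prodTo 3317) = 1 := by decide +kernel
end CfsgLib.TCFi24
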