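import Cfsg.Agent.EqBase
import Cfsg.Agent.LibTCFi24D
set_option autoImplicit false
set_option linter.all false
set_option maxRecDepth 1000000
set_option maxHeartbeats 0
namespace CfsgLib.TCFi24
open CfsgLib.TC Cfsg.Spor CfsgLib.TCG_Fi24
theorem re_3_11 : Tr.all Rf_3 L_11 = true := by decide +kernel
theorem re_3_68 : Tr.all Rf_3 L_68 = true := by decide +kernel
theorem re_4_5 : Tr.all Rf_4 L_5 = true := by decide +kernel
theorem re_2_13 : Tr.all Rf_2 L_13 = true := by decide +kernel
theorem re_2_32 : Tr.all Rf_2 L_32 = true := by decide +kernel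
theorem re_2_51 : Tr.all Rf_2 L_51 = true := by decide +kernel
theorem re_2_70 : Tr.all Rf_2 L_70 = true := by decide +kernel
theorem ce_0_70 : Tr.all CE_0 L_70 = true := by decide +kernel
theorem re_5_60 : Tr.all Rf_5 L_60 = true := by decide +kernel
theorem ce_1_43 : Tr.all CE_1 L_43 = true := by decide +kernel
theorem ce_2_23 : Tr.all CE_2 L_23 = true := by decide +kernel
theorem ce_2_50 : Tr.all CE_2 L_50 = true := by decide +kernel
theorem re_6_17 : Tr.all Rf_6 L_17 = true := by decide +kernel
theorem re_6_59 : Tr.all Rf_6 L_59 = true := by decide +kernel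
theorem tr_71 : Tr.all (transQ mt sd PT DT q0) L_71 = true := by decide +kernel
theorem bs_72 : bst L_72 5500000 (2 * 5500000) = true := by decide +kernel
theorem sz_27 : size L_27 = 4096 := by decide +kernel
theorem pr_56 : prodT L_56 = MM_56 := by decide +kernel
theorem gc_36 : Nat.gcd MM_36 (prodTo 3317) = 1 := by decide +kernel
theorem gc_57 : Nat.gcd MM_57 (prodTo 3317) = 1 := by decide +kernel
end CfsgLib.TCFi24
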