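import Cfsg.Agent.EqBase
import Cfsg.Agent.LibTCFi24D
set_option autoImplicit false
set_option linter.all false
set_option maxRecDepth 1000000
set_option maxHeartbeats 0
namespace CfsgLib.TCFi24
open CfsgLib.TC Cfsg.Spor CfsgLib.TCG_Fi24
theorem re_3_12 : Tr.all Rf_3 L_12 = true := by decide +kernel
theorem re_3_69 : Tr.all Rf_3 L_69 = true := by decide +kernel
theorem re_1_6 : Tr.all Rf_1 L_6 = true := by decide +kernel
theorem re_4_13 : Tr.all Rf_4 L_13 = true := by decide +kernel
theorem re_4_32 : Tr.all Rf_4 L_32 = true := by decide +kernel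
theorem re_4_51 : Tr.all Rf_4 L_51 = true := by decide +kernel
theorem re_4_70 : Tr.all Rf_4 L_70 = true := by decide +kernel
theorem ce_0_71 : Tr.all CE_0 L_71 = true := by decide +kernel
theorem re_5_61 : Tr.all Rf_5 L_61 = true := by decide +kernel
theorem ce_1_44 : Tr.all CE_1 L_44 = true := by decide +kernel
theorem ce_2_24 : Tr.all CE_2 L_24 = true := by decide +kernel
theorem ce_2_51 : Tr.all CE_2 L_51 = true := by decide +kernel
theorem re_6_18 : Tr.all Rf_6 L_18 = true := by decide +kernel
theorem re_6_60 : Tr.all Rf_6 L_60 = true := by decide +kernel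
theorem tr_72 : Tr.all (transQ mt sd PT DT q0) L_72 = true := by decide +kernel
theorem bs_73 : bst L_73 5500000 (2 * 5500000) = true := by decide +kernel
theorem pr_28 : prodT L_28 = MM_28 := by decide +kernel
theorem sz_56 : size L_56 = 4096 := by decide +kernel
theorem gc_37 : Nat.gcd MM_37 (prodTo 3317) = 1 := by decide +kernel
theorem gc_58 : Nat.gcd MM_58 (prodTo 3317) = 1 := by decide +kernel
end CfsgLib.TCFi24
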