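import Cfsg.Agent.EqBase
import Cfsg.Agent.LibTCFi24D
set_option autoImplicit false
set_option linter.all false
set_option maxRecDepth 1000000
set_option maxHeartbeats 0
namespace CfsgLib.TCFi24
open CfsgLib.TC Cfsg.Spor CfsgLib.TCG_Fi24
theorem re_3_14 : Tr.all Rf_3 L_14 = true := by decide +kernel
theorem re_3_71 : Tr.all Rf_3 L_71 = true := by decide +kernel
theorem re_4_6 : Tr.all Rf_4 L_6 = true := by decide +kernel
theorem re_2_14 : Tr.all Rf_2 L_14 = true := by decide +kernel
theorem re_2_33 : Tr.all Rf_2 L_33 = true := by decide +kernel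
theorem re_2_52 : Tr.all Rf_2 L_52 = true := by decide +kernel
theorem re_2_71 : Tr.all Rf_2 L_71 = true := by decide +kernel
theorem ce_0_73 : Tr.all CE_0 L_73 = true := by decide +kernel
theorem re_5_63 : Tr.all Rf_5 L_63 = true := by decide +kernel
theorem ce_1_46 : Tr.all CE_1 L_46 = true := by decide +kernel
theorem ce_2_26 : Tr.all CE_2 L_26 = true := by decide +kernel
theorem ce_2_53 : Tr.all CE_2 L_53 = true := by decide +kernel
theorem re_6_20 : Tr.all Rf_6 L_20 = true := by decide +kernel
theorem re_6_62 : Tr.all Rf_6 L_62 = true := by decide +kernel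
theorem tr_74 : Tr.all (transQ mt sd PT DT q0) L_74 = true := by decide +kernel
theorem bs_39 : bst L_39 5500000 (2 * 5500000) = true := by decide +kernel
theorem sz_10 : size L_10 = 4096 := by decide +kernel
theorem pr_39 : prodT L_39 = MM_39 := by decide +kernel
theorem sz_67 : size L_67 = 4096 := by decide +kernel
end CfsgLib.TCFi24
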