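import Cfsg.Agent.EqBase
import Cfsg.Agent.LibTCFi24D
set_option autoImplicit false
set_option linter.all false
set_option maxRecDepth 1000000
set_option maxHeartbeats 0
namespace CfsgLib.TCFi24
open CfsgLib.TC Cfsg.Spor CfsgLib.TCG_Fi24
theorem re_3_15 : Tr.all Rf_3 L_15 = true := by decide +kernel
theorem re_3_72 : Tr.all Rf_3 L_72 = true := by decide +kernel
theorem re_1_7 : Tr.all Rf_1 L_7 = true := by decide +kernel
theorem re_4_14 : Tr.all Rf_4 L_14 = true := by decide +kernel
theorem re_4_33 : Tr.all Rf_4 L_33 = true := by decide +kernel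
theorem re_4_52 : Tr.all Rf_4 L_52 = true := by decide +kernel
theorem re_4_71 : Tr.all Rf_4 L_71 = true := by decide +kernel
theorem re_5_0 : Tr.all Rf_5 L_0 = true := by decide +kernel
theorem re_5_42 : Tr.all Rf_5 L_42 = true := by decide +kernel
theorem ce_1_25 : Tr.all CE_1 L_25 = true := by decide +kernel
theorem ce_2_5 : Tr.all CE_2 L_5 = true := by decide +kernel
theorem ce_2_32 : Tr.all CE_2 L_32 = true := by decide +kernel
theorem ce_2_73 : Tr.all CE_2 L_73 = true := by decide +kernel
theorem tr_1 : Tr.all (transQ mt sd PT DT q0) L_1 = true := by decide +kernel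
theorem tr_19 : Tr.all (transQ mt sd PT DT q0) L_19 = true := by decide +kernel
theorem tr_37 : Tr.all (transQ mt sd PT DT q0) L_37 = true := by decide +kernel
theorem bs_33 : bst L_33 5500000 (2 * 5500000) = true := by decide +kernel
theorem sz_7 : size L_7 = 4096 := by decide +kernel
theorem pr_36 : prodT L_36 = MM_36 := by decide +kernel
theorem sz_64 : size L_64 = 4096 := by decide +kernel
end CfsgLib.TCFi24
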