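import Cfsg.Agent.EqBase
import Cfsg.Agent.LibTCFi24D
set_option autoImplicit false
set_option linter.all false
set_option maxRecDepth 1000000
set_option maxHeartbeats 0
namespace CfsgLib.TCFi24
open CfsgLib.TC Cfsg.Spor CfsgLib.TCG_Fi24
theorem re_3_16 : Tr.all Rf_3 L_16 = true := by decide +kernel
theorem re_3_73 : Tr.all Rf_3 L_73 = true := by decide +kernel
theorem re_2_7 : Tr.all Rf_2 L_7 = true := by decide +kernel
theorem re_1_15 : Tr.all Rf_1 L_15 = true := by decide +kernel
theorem re_1_34 : Tr.all Rf_1 L_34 = true := by decide +kernel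
theorem re_1_53 : Tr.all Rf_1 L_53 = true := by decide +kernel
theorem re_1_72 : Tr.all Rf_1 L_72 = true := by decide +kernel
theorem re_5_1 : Tr.all Rf_5 L_1 = true := by decide +kernel
theorem re_5_43 : Tr.all Rf_5 L_43 = true := by decide +kernel
theorem ce_1_26 : Tr.all CE_1 L_26 = true := by decide +kernel
theorem ce_2_6 : Tr.all CE_2 L_6 = true := by decide +kernel
theorem ce_2_33 : Tr.all CE_2 L_33 = true := by decide +kernel
theorem re_6_0 : Tr.all Rf_6 L_0 = true := by decide +kernel
theorem re_6_37 : Tr.all Rf_6 L_37 = true := by decide +kernel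
theorem tr_49 : Tr.all (transQ mt sd PT DT q0) L_49 = true := by decide +kernel
theorem bs_50 : bst L_50 5500000 (2 * 5500000) = true := by decide +kernel
theorem sz_16 : size L_16 = 4096 := by decide +kernel
theorem pr_45 : prodT L_45 = MM_45 := by decide +kernel
theorem sz_73 : size L_73 = 4096 := by decide +kernel
end CfsgLib.TCFi24
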