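import Cfsg.Agent.EqBase
import Cfsg.Agent.LibTCFi24D
set_option autoImplicit false
set_option linter.all false
set_option maxRecDepth 1000000
set_option maxHeartbeats 0
namespace CfsgLib.TCFi24
open CfsgLib.TC Cfsg.Spor CfsgLib.TCG_Fi24
theorem re_3_17 : Tr.all Rf_3 L_17 = true := by decide +kernel
theorem re_0_0 : Tr.all Rf_0 L_0 = true := by decide +kernel
theorem re_0_40 : Tr.all Rf_0 L_40 = true := by decide +kernel
theorem re_2_15 : Tr.all Rf_2 L_15 = true := by decide +kernel
theorem re_2_34 : Tr.all Rf_2 L_34 = true := by decide +kernel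
theorem re_2_53 : Tr.all Rf_2 L_53 = true := by decide +kernel
theorem re_2_72 : Tr.all Rf_2 L_72 = true := by decide +kernel
theorem re_5_2 : Tr.all Rf_5 L_2 = true := by decide +kernel
theorem re_5_44 : Tr.all Rf_5 L_44 = true := by decide +kernel
theorem ce_1_27 : Tr.all CE_1 L_27 = true := by decide +kernel
theorem ce_2_7 : Tr.all CE_2 L_7 = true := by decide +kernel
theorem ce_2_34 : Tr.all CE_2 L_34 = true := by decide +kernel
theorem re_6_1 : Tr.all Rf_6 L_1 = true := by decide +kernel
theorem re_6_38 : Tr.all Rf_6 L_38 = true := by decide +kernel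
theorem tr_50 : Tr.all (transQ mt sd PT DT q0) L_50 = true := by decide +kernel
theorem bs_51 : bst L_51 5500000 (2 * 5500000) = true := by decide +kernel
theorem pr_17 : prodT L_17 = MM_17 := by decide +kernel
theorem sz_45 : size L_45 = 4096 := by decide +kernel
theorem pr_74 : prodT L_74 = MM_74 := by decide +kernel
end CfsgLib.TCFi24
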