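import Cfsg.Agent.EqBase
import Cfsg.Agent.LibTCFi24D
set_option autoImplicit false
set_option linter.all false
set_option maxRecDepth 1000000
set_option maxHeartbeats 0
namespace CfsgLib.TCFi24
open CfsgLib.TC Cfsg.Spor CfsgLib.TCG_Fi24
theorem re_3_18 : Tr.all Rf_3 L_18 = true := by decide +kernel
theorem re_0_1 : Tr.all Rf_0 L_1 = true := by decide +kernel
theorem re_0_41 : Tr.all Rf_0 L_41 = true := by decide +kernel
theorem re_4_15 : Tr.all Rf_4 L_15 = true := by decide +kernel
theorem re_4_34 : Tr.all Rf_4 L_34 = true := by decide +kernel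
theorem re_4_53 : Tr.all Rf_4 L_53 = true := by decide +kernel
theorem re_4_72 : Tr.all Rf_4 L_72 = true := by decide +kernel
theorem re_5_3 : Tr.all Rf_5 L_3 = true := by decide +kernel
theorem re_5_45 : Tr.all Rf_5 L_45 = true := by decide +kernel
theorem ce_1_28 : Tr.all CE_1 L_28 = true := by decide +kernel
theorem ce_2_8 : Tr.all CE_2 L_8 = true := by decide +kernel
theorem ce_2_35 : Tr.all CE_2 L_35 = true := by decide +kernel
theorem re_6_2 : Tr.all Rf_6 L_2 = true := by decide +kernel
theorem re_6_39 : Tr.all Rf_6 L_39 = true := by decide +kernel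
theorem tr_51 : Tr.all (transQ mt sd PT DT q0) L_51 = true := by decide +kernel
theorem bs_52 : bst L_52 5500000 (2 * 5500000) = true := by decide +kernel
theorem sz_17 : size L_17 = 4096 := by decide +kernel
theorem pr_46 : prodT L_46 = MM_46 := by decide +kernel
theorem sz_74 : size L_74 = 3832 := by decide +kernel
end CfsgLib.TCFi24
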