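import Cfsg.Agent.EqBase
import Cfsg.Agent.LibTCFi24D
set_option autoImplicit false
set_option linter.all false
set_option maxRecDepth 1000000
set_option maxHeartbeats 0
namespace CfsgLib.TCFi24
open CfsgLib.TC Cfsg.Spor CfsgLib.TCG_Fi24
theorem re_3_19 : Tr.all Rf_3 L_19 = true := by decide +kernel
theorem re_0_2 : Tr.all Rf_0 L_2 = true := by decide +kernel
theorem re_0_42 : Tr.all Rf_0 L_42 = true := by decide +kernel
theorem re_1_16 : Tr.all Rf_1 L_16 = true := by decide +kernel
theorem re_1_35 : Tr.all Rf_1 L_35 = true := by decide +kernel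
theorem re_1_54 : Tr.all Rf_1 L_54 = true := by decide +kernel
theorem re_1_73 : Tr.all Rf_1 L_73 = true := by decide +kernel
theorem re_5_4 : Tr.all Rf_5 L_4 = true := by decide +kernel
theorem re_5_46 : Tr.all Rf_5 L_46 = true := by decide +kernel
theorem ce_1_29 : Tr.all CE_1 L_29 = true := by decide +kernel
theorem ce_2_9 : Tr.all CE_2 L_9 = true := by decide +kernel
theorem ce_2_36 : Tr.all CE_2 L_36 = true := by decide +kernel
theorem re_6_3 : Tr.all Rf_6 L_3 = true := by decide +kernel
theorem re_6_40 : Tr.all Rf_6 L_40 = true := by decide +kernel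
theorem tr_52 : Tr.all (transQ mt sd PT DT q0) L_52 = true := by decide +kernel
theorem bs_53 : bst L_53 5500000 (2 * 5500000) = true := by decide +kernel
theorem pr_18 : prodT L_18 = MM_18 := by decide +kernel
theorem sz_46 : size L_46 = 4096 := by decide +kernel
theorem gc_0 : Nat.gcd MM_0 (prodTo 3317) = 1 := by decide +kernel
theorem gc_3 : Nat.gcd MM_3 (prodTo 3317) = 1 := by decide +kernel
theorem gc_6 : Nat.gcd MM_6 (prodTo 3317) = 1 := by decide +kernel
theorem gc_9 : Nat.gcd MM_9 (prodTo 3317) = 1 := by decide +kernel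
theorem gc_17 : Nat.gcd MM_17 (prodTo 3317) = 1 := by decide +kernel
theorem gc_38 : Nat.gcd MM_38 (prodTo 3317) = 1 := by decide +kernel
theorem gc_59 : Nat.gcd MM_59 (prodTo 3317) = 1 := by decide +kernel
end CfsgLib.TCFi24
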