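import Cfsg.Agent.EqBase
import Cfsg.Agent.LibTCFi24D
set_option autoImplicit false
set_option linter.all false
set_option maxRecDepth 1000000
set_option maxHeartbeats 0
namespace CfsgLib.TCFi24
open CfsgLib.TC Cfsg.Spor CfsgLib.TCG_Fi24
theorem re_3_2 : Tr.all Rf_3 L_2 = true := by decide +kernel
theorem re_3_59 : Tr.all Rf_3 L_59 = true := by decide +kernel
theorem re_4_2 : Tr.all Rf_4 L_2 = true := by decide +kernel
theorem re_2_10 : Tr.all Rf_2 L_10 = true := by decide +kernel
theorem re_2_29 : Tr.all Rf_2 L_29 = true := by decide +kernel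
theorem re_2_48 : Tr.all Rf_2 L_48 = true := by decide +kernel
theorem re_2_67 : Tr.all Rf_2 L_67 = true := by decide +kernel
theorem ce_0_61 : Tr.all CE_0 L_61 = true := by decide +kernel
theorem re_5_51 : Tr.all Rf_5 L_51 = true := by decide +kernel
theorem ce_1_34 : Tr.all CE_1 L_34 = true := by decide +kernel
theorem ce_2_14 : Tr.all CE_2 L_14 = true := by decide +kernel
theorem ce_2_41 : Tr.all CE_2 L_41 = true := by decide +kernel
theorem re_6_8 : Tr.all Rf_6 L_8 = true := by decide +kernel
theorem re_6_50 : Tr.all Rf_6 L_50 = true := by decide +kernel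
theorem tr_62 : Tr.all (transQ mt sd PT DT q0) L_62 = true := by decide +kernel
theorem bs_63 : bst L_63 5500000 (2 * 5500000) = true := by decide +kernel
theorem pr_23 : prodT L_23 = MM_23 := by decide +kernel
theorem sz_51 : size L_51 = 4096 := by decide +kernel
theorem gc_27 : Nat.gcd MM_27 (prodTo 3317) = 1 := by decide +kernel
theorem gc_48 : Nat.gcd MM_48 (prodTo 3317) = 1 := by decide +kernel
theorem gc_69 : Nat.gcd MM_69 (prodTo 3317) = 1 := by decide +kernel
end CfsgLib.TCFi24
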