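import Cfsg.Agent.EqBase
import Cfsg.Agent.LibTCFi24D
set_option autoImplicit false
set_option linter.all false
set_option maxRecDepth 1000000
set_option maxHeartbeats 0
namespace CfsgLib.TCFi24
open CfsgLib.TC Cfsg.Spor CfsgLib.TCG_Fi24
theorem re_3_20 : Tr.all Rf_3 L_20 = true := by decide +kernel
theorem re_0_3 : Tr.all Rf_0 L_3 = true := by decide +kernel
theorem re_0_43 : Tr.all Rf_0 L_43 = true := by decide +kernel
theorem re_2_16 : Tr.all Rf_2 L_16 = true := by decide +kernel
theorem re_2_35 : Tr.all Rf_2 L_35 = true := by decide +kernel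
theorem re_2_54 : Tr.all Rf_2 L_54 = true := by decide +kernel
theorem re_2_73 : Tr.all Rf_2 L_73 = true := by decide +kernel
theorem re_5_5 : Tr.all Rf_5 L_5 = true := by decide +kernel
theorem re_5_47 : Tr.all Rf_5 L_47 = true := by decide +kernel
theorem ce_1_30 : Tr.all CE_1 L_30 = true := by decide +kernel
theorem ce_2_10 : Tr.all CE_2 L_10 = true := by decide +kernel
theorem ce_2_37 : Tr.all CE_2 L_37 = true := by decide +kernel
theorem re_6_4 : Tr.all Rf_6 L_4 = true := by decide +kernel
theorem re_6_41 : Tr.all Rf_6 L_41 = true := by decide +kernel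
theorem tr_53 : Tr.all (transQ mt sd PT DT q0) L_53 = true := by decide +kernel
theorem bs_54 : bst L_54 5500000 (2 * 5500000) = true := by decide +kernel
theorem sz_18 : size L_18 = 4096 := by decide +kernel
theorem pr_47 : prodT L_47 = MM_47 := by decide +kernel
theorem gc_1 : Nat.gcd MM_1 (prodTo 3317) = 1 := by decide +kernel
theorem gc_4 : Nat.gcd MM_4 (prodTo 3317) = 1 := by decide +kernel
theorem gc_7 : Nat.gcd MM_7 (prodTo 3317) = 1 := by decide +kernel
theorem gc_10 : Nat.gcd MM_10 (prodTo 3317) = 1 := by decide +kernel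
theorem gc_18 : Nat.gcd MM_18 (prodTo 3317) = 1 := by decide +kernel
theorem gc_39 : Nat.gcd MM_39 (prodTo 3317) = 1 := by decide +kernel
theorem gc_60 : Nat.gcd MM_60 (prodTo 3317) = 1 := by decide +kernel
end CfsgLib.TCFi24
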