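import Cfsg.Agent.EqBase
import Cfsg.Agent.LibTCFi24D
set_option autoImplicit false
set_option linter.all false
set_option maxRecDepth 1000000
set_option maxHeartbeats 0
namespace CfsgLib.TCFi24
open CfsgLib.TC Cfsg.Spor CfsgLib.TCG_Fi24
theorem re_3_21 : Tr.all Rf_3 L_21 = true := by decide +kernel
theorem re_0_4 : Tr.all Rf_0 L_4 = true := by decide +kernel
theorem re_0_44 : Tr.all Rf_0 L_44 = true := by decide +kernel
theorem re_4_16 : Tr.all Rf_4 L_16 = true := by decide +kernel
theorem re_4_35 : Tr.all Rf_4 L_35 = true := by decide +kernel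
theorem re_4_54 : Tr.all Rf_4 L_54 = true := by decide +kernel
theorem re_4_73 : Tr.all Rf_4 L_73 = true := by decide +kernel
theorem re_5_6 : Tr.all Rf_5 L_6 = true := by decide +kernel
theorem re_5_48 : Tr.all Rf_5 L_48 = true := by decide +kernel
theorem ce_1_31 : Tr.all CE_1 L_31 = true := by decide +kernel
theorem ce_2_11 : Tr.all CE_2 L_11 = true := by decide +kernel
theorem ce_2_38 : Tr.all CE_2 L_38 = true := by decide +kernel
theorem re_6_5 : Tr.all Rf_6 L_5 = true := by decide +kernel
theorem re_6_42 : Tr.all Rf_6 L_42 = true := by decide +kernel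
theorem tr_54 : Tr.all (transQ mt sd PT DT q0) L_54 = true := by decide +kernel
theorem bs_55 : bst L_55 5500000 (2 * 5500000) = true := by decide +kernel
theorem pr_19 : prodT L_19 = MM_19 := by decide +kernel
theorem sz_47 : size L_47 = 4096 := by decide +kernel
theorem gc_2 : Nat.gcd MM_2 (prodTo 3317) = 1 := by decide +kernel
theorem gc_5 : Nat.gcd MM_5 (prodTo 3317) = 1 := by decide +kernel
theorem gc_8 : Nat.gcd MM_8 (prodTo 3317) = 1 := by decide +kernel
theorem gc_11 : Nat.gcd MM_11 (prodTo 3317) = 1 := by decide +kernel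
theorem gc_19 : Nat.gcd MM_19 (prodTo 3317) = 1 := by decide +kernel
theorem gc_40 : Nat.gcd MM_40 (prodTo 3317) = 1 := by decide +kernel
theorem gc_61 : Nat.gcd MM_61 (prodTo 3317) = 1 := by decide +kernel
end CfsgLib.TCFi24
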