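import Cfsg.Agent.EqBase
import Cfsg.Agent.LibTCFi24D
set_option autoImplicit false
set_option linter.all false
set_option maxRecDepth 1000000
set_option maxHeartbeats 0
namespace CfsgLib.TCFi24
open CfsgLib.TC Cfsg.Spor CfsgLib.TCG_Fi24
theorem re_3_22 : Tr.all Rf_3 L_22 = true := by decide +kernel
theorem re_0_5 : Tr.all Rf_0 L_5 = true := by decide +kernel
theorem re_0_45 : Tr.all Rf_0 L_45 = true := by decide +kernel
theorem re_1_17 : Tr.all Rf_1 L_17 = true := by decide +kernel
theorem re_1_36 : Tr.all Rf_1 L_36 = true := by decide +kernel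
theorem re_1_55 : Tr.all Rf_1 L_55 = true := by decide +kernel
theorem re_3_74 : Tr.all Rf_3 L_74 = true := by decide +kernel
theorem ce_0_52 : Tr.all CE_0 L_52 = true := by decide +kernel
theorem re_5_35 : Tr.all Rf_5 L_35 = true := by decide +kernel
theorem ce_1_18 : Tr.all CE_1 L_18 = true := by decide +kernel
theorem re_5_74 : Tr.all Rf_5 L_74 = true := by decide +kernel
theorem re_6_33 : Tr.all Rf_6 L_33 = true := by decide +kernel
theorem tr_14 : Tr.all (transQ mt sd PT DT q0) L_14 = true := by decide +kernel
theorem tr_32 : Tr.all (transQ mt sd PT DT q0) L_32 = true := by decide +kernel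
theorem bs_14 : bst L_14 5500000 (2 * 5500000) = true := by decide +kernel
theorem bs_34 : bst L_34 5500000 (2 * 5500000) = true := by decide +kernel
theorem pr_8 : prodT L_8 = MM_8 := by decide +kernel
theorem sz_36 : size L_36 = 4096 := by decide +kernel
theorem pr_65 : prodT L_65 = MM_65 := by decide +kernel
end CfsgLib.TCFi24
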