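import Cfsg.Agent.EqBase
import Cfsg.Agent.LibTCFi24D
set_option autoImplicit false
set_option linter.all false
set_option maxRecDepth 1000000
set_option maxHeartbeats 0
namespace CfsgLib.TCFi24
open CfsgLib.TC Cfsg.Spor CfsgLib.TCG_Fi24
theorem re_3_23 : Tr.all Rf_3 L_23 = true := by decide +kernel
theorem re_0_6 : Tr.all Rf_0 L_6 = true := by decide +kernel
theorem re_0_46 : Tr.all Rf_0 L_46 = true := by decide +kernel
theorem re_2_17 : Tr.all Rf_2 L_17 = true := by decide +kernel
theorem re_2_36 : Tr.all Rf_2 L_36 = true := by decide +kernel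
theorem re_2_55 : Tr.all Rf_2 L_55 = true := by decide +kernel
theorem re_0_74 : Tr.all Rf_0 L_74 = true := by decide +kernel
theorem ce_0_51 : Tr.all CE_0 L_51 = true := by decide +kernel
theorem re_5_34 : Tr.all Rf_5 L_34 = true := by decide +kernel
theorem ce_1_17 : Tr.all CE_1 L_17 = true := by decide +kernel
theorem ce_0_74 : Tr.all CE_0 L_74 = true := by decide +kernel
theorem re_6_31 : Tr.all Rf_6 L_31 = true := by decide +kernel
theorem tr_12 : Tr.all (transQ mt sd PT DT q0) L_12 = true := by decide +kernel
theorem tr_30 : Tr.all (transQ mt sd PT DT q0) L_30 = true := by decide +kernel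
theorem bs_12 : bst L_12 5500000 (2 * 5500000) = true := by decide +kernel
theorem bs_30 : bst L_30 5500000 (2 * 5500000) = true := by decide +kernel
theorem pr_6 : prodT L_6 = MM_6 := by decide +kernel
theorem sz_34 : size L_34 = 4096 := by decide +kernel
theorem pr_63 : prodT L_63 = MM_63 := by decide +kernel
end CfsgLib.TCFi24
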