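import Cfsg.Agent.EqBase
import Cfsg.Agent.LibTCFi24D
set_option autoImplicit false
set_option linter.all false
set_option maxRecDepth 1000000
set_option maxHeartbeats 0
namespace CfsgLib.TCFi24
open CfsgLib.TC Cfsg.Spor CfsgLib.TCG_Fi24
theorem re_3_24 : Tr.all Rf_3 L_24 = true := by decide +kernel
theorem re_0_7 : Tr.all Rf_0 L_7 = true := by decide +kernel
theorem re_0_47 : Tr.all Rf_0 L_47 = true := by decide +kernel
theorem re_4_17 : Tr.all Rf_4 L_17 = true := by decide +kernel
theorem re_4_36 : Tr.all Rf_4 L_36 = true := by decide +kernel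
theorem re_4_55 : Tr.all Rf_4 L_55 = true := by decide +kernel
theorem re_1_74 : Tr.all Rf_1 L_74 = true := by decide +kernel
theorem ce_0_48 : Tr.all CE_0 L_48 = true := by decide +kernel
theorem re_5_31 : Tr.all Rf_5 L_31 = true := by decide +kernel
theorem ce_1_14 : Tr.all CE_1 L_14 = true := by decide +kernel
theorem ce_1_71 : Tr.all CE_1 L_71 = true := by decide +kernel
theorem re_6_34 : Tr.all Rf_6 L_34 = true := by decide +kernel
theorem tr_15 : Tr.all (transQ mt sd PT DT q0) L_15 = true := by decide +kernel
theorem tr_33 : Tr.all (transQ mt sd PT DT q0) L_33 = true := by decide +kernel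
theorem bs_15 : bst L_15 5500000 (2 * 5500000) = true := by decide +kernel
theorem bs_35 : bst L_35 5500000 (2 * 5500000) = true := by decide +kernel
theorem sz_8 : size L_8 = 4096 := by decide +kernel
theorem pr_37 : prodT L_37 = MM_37 := by decide +kernel
theorem sz_65 : size L_65 = 4096 := by decide +kernel
end CfsgLib.TCFi24
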