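import Cfsg.Agent.EqBase
import Cfsg.Agent.LibTCFi24D
set_option autoImplicit false
set_option linter.all false
set_option maxRecDepth 1000000
set_option maxHeartbeats 0
namespace CfsgLib.TCFi24
open CfsgLib.TC Cfsg.Spor CfsgLib.TCG_Fi24
theorem re_3_25 : Tr.all Rf_3 L_25 = true := by decide +kernel
theorem re_0_8 : Tr.all Rf_0 L_8 = true := by decide +kernel
theorem re_0_48 : Tr.all Rf_0 L_48 = true := by decide +kernel
theorem re_1_18 : Tr.all Rf_1 L_18 = true := by decide +kernel
theorem re_1_37 : Tr.all Rf_1 L_37 = true := by decide +kernel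
theorem re_1_56 : Tr.all Rf_1 L_56 = true := by decide +kernel
theorem re_2_74 : Tr.all Rf_2 L_74 = true := by decide +kernel
theorem ce_0_49 : Tr.all CE_0 L_49 = true := by decide +kernel
theorem re_5_32 : Tr.all Rf_5 L_32 = true := by decide +kernel
theorem ce_1_15 : Tr.all CE_1 L_15 = true := by decide +kernel
theorem ce_1_72 : Tr.all CE_1 L_72 = true := by decide +kernel
theorem re_6_35 : Tr.all Rf_6 L_35 = true := by decide +kernel
theorem tr_16 : Tr.all (transQ mt sd PT DT q0) L_16 = true := by decide +kernel
theorem tr_34 : Tr.all (transQ mt sd PT DT q0) L_34 = true := by decide +kernel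
theorem bs_16 : bst L_16 5500000 (2 * 5500000) = true := by decide +kernel
theorem bs_36 : bst L_36 5500000 (2 * 5500000) = true := by decide +kernel
theorem pr_9 : prodT L_9 = MM_9 := by decide +kernel
theorem sz_37 : size L_37 = 4096 := by decide +kernel
theorem pr_66 : prodT L_66 = MM_66 := by decide +kernel
end CfsgLib.TCFi24
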