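import Cfsg.Agent.EqBase
import Cfsg.Agent.LibTCFi24D
set_option autoImplicit false
set_option linter.all false
set_option maxRecDepth 1000000
set_option maxHeartbeats 0
namespace CfsgLib.TCFi24
open CfsgLib.TC Cfsg.Spor CfsgLib.TCG_Fi24
theorem re_3_26 : Tr.all Rf_3 L_26 = true := by decide +kernel
theorem re_0_9 : Tr.all Rf_0 L_9 = true := by decide +kernel
theorem re_0_49 : Tr.all Rf_0 L_49 = true := by decide +kernel
theorem re_2_18 : Tr.all Rf_2 L_18 = true := by decide +kernel
theorem re_2_37 : Tr.all Rf_2 L_37 = true := by decide +kernel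
theorem re_2_56 : Tr.all Rf_2 L_56 = true := by decide +kernel
theorem re_4_74 : Tr.all Rf_4 L_74 = true := by decide +kernel
theorem ce_0_50 : Tr.all CE_0 L_50 = true := by decide +kernel
theorem re_5_33 : Tr.all Rf_5 L_33 = true := by decide +kernel
theorem ce_1_16 : Tr.all CE_1 L_16 = true := by decide +kernel
theorem ce_1_73 : Tr.all CE_1 L_73 = true := by decide +kernel
theorem re_6_36 : Tr.all Rf_6 L_36 = true := by decide +kernel
theorem tr_17 : Tr.all (transQ mt sd PT DT q0) L_17 = true := by decide +kernel
theorem tr_35 : Tr.all (transQ mt sd PT DT q0) L_35 = true := by decide +kernel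
theorem bs_17 : bst L_17 5500000 (2 * 5500000) = true := by decide +kernel
theorem bs_37 : bst L_37 5500000 (2 * 5500000) = true := by decide +kernel
theorem sz_9 : size L_9 = 4096 := by decide +kernel
theorem pr_38 : prodT L_38 = MM_38 := by decide +kernel
theorem sz_66 : size L_66 = 4096 := by decide +kernel
end CfsgLib.TCFi24
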