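import Cfsg.Agent.EqBase
import Cfsg.Agent.LibTCFi24D
set_option autoImplicit false
set_option linter.all false
set_option maxRecDepth 1000000
set_option maxHeartbeats 0
namespace CfsgLib.TCFi24
open CfsgLib.TC Cfsg.Spor CfsgLib.TCG_Fi24
theorem re_3_27 : Tr.all Rf_3 L_27 = true := by decide +kernel
theorem re_0_10 : Tr.all Rf_0 L_10 = true := by decide +kernel
theorem re_0_50 : Tr.all Rf_0 L_50 = true := by decide +kernel
theorem re_4_18 : Tr.all Rf_4 L_18 = true := by decide +kernel
theorem re_4_37 : Tr.all Rf_4 L_37 = true := by decide +kernel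
theorem re_4_56 : Tr.all Rf_4 L_56 = true := by decide +kernel
theorem ce_0_0 : Tr.all CE_0 L_0 = true := by decide +kernel
theorem ce_0_24 : Tr.all CE_0 L_24 = true := by decide +kernel
theorem re_5_7 : Tr.all Rf_5 L_7 = true := by decide +kernel
theorem re_5_64 : Tr.all Rf_5 L_64 = true := by decide +kernel
theorem ce_1_61 : Tr.all CE_1 L_61 = true := by decide +kernel
theorem re_6_21 : Tr.all Rf_6 L_21 = true := by decide +kernel
theorem tr_2 : Tr.all (transQ mt sd PT DT q0) L_2 = true := by decide +kernel
theorem tr_20 : Tr.all (transQ mt sd PT DT q0) L_20 = true := by decide +kernel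
theorem tr_39 : Tr.all (transQ mt sd PT DT q0) L_39 = true := by decide +kernel
theorem bs_40 : bst L_40 5500000 (2 * 5500000) = true := by decide +kernel
theorem pr_11 : prodT L_11 = MM_11 := by decide +kernel
theorem sz_39 : size L_39 = 4096 := by decide +kernel
theorem pr_68 : prodT L_68 = MM_68 := by decide +kernel
end CfsgLib.TCFi24
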