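import Cfsg.Agent.EqBase
import Cfsg.Agent.LibTCFi24D
set_option autoImplicit false
set_option linter.all false
set_option maxRecDepth 1000000
set_option maxHeartbeats 0
namespace CfsgLib.TCFi24
open CfsgLib.TC Cfsg.Spor CfsgLib.TCG_Fi24
theorem re_3_29 : Tr.all Rf_3 L_29 = true := by decide +kernel
theorem re_0_12 : Tr.all Rf_0 L_12 = true := by decide +kernel
theorem re_0_52 : Tr.all Rf_0 L_52 = true := by decide +kernel
theorem re_2_19 : Tr.all Rf_2 L_19 = true := by decide +kernel
theorem re_2_38 : Tr.all Rf_2 L_38 = true := by decide +kernel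
theorem re_2_57 : Tr.all Rf_2 L_57 = true := by decide +kernel
theorem ce_0_2 : Tr.all CE_0 L_2 = true := by decide +kernel
theorem ce_0_26 : Tr.all CE_0 L_26 = true := by decide +kernel
theorem re_5_9 : Tr.all Rf_5 L_9 = true := by decide +kernel
theorem re_5_66 : Tr.all Rf_5 L_66 = true := by decide +kernel
theorem ce_1_63 : Tr.all CE_1 L_63 = true := by decide +kernel
theorem re_6_23 : Tr.all Rf_6 L_23 = true := by decide +kernel
theorem tr_4 : Tr.all (transQ mt sd PT DT q0) L_4 = true := by decide +kernel
theorem tr_22 : Tr.all (transQ mt sd PT DT q0) L_22 = true := by decide +kernel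
theorem tr_41 : Tr.all (transQ mt sd PT DT q0) L_41 = true := by decide +kernel
theorem bs_42 : bst L_42 5500000 (2 * 5500000) = true := by decide +kernel
theorem pr_12 : prodT L_12 = MM_12 := by decide +kernel
theorem sz_40 : size L_40 = 4096 := by decide +kernel
theorem pr_69 : prodT L_69 = MM_69 := by decide +kernel
end CfsgLib.TCFi24
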