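import Cfsg.Agent.EqBase
import Cfsg.Agent.LibTCFi24D
set_option autoImplicit false
set_option linter.all false
set_option maxRecDepth 1000000
set_option maxHeartbeats 0
namespace CfsgLib.TCFi24
open CfsgLib.TC Cfsg.Spor CfsgLib.TCG_Fi24
theorem re_3_3 : Tr.all Rf_3 L_3 = true := by decide +kernel
theorem re_3_60 : Tr.all Rf_3 L_60 = true := by decide +kernel
theorem re_1_3 : Tr.all Rf_1 L_3 = true := by decide +kernel
theorem re_4_10 : Tr.all Rf_4 L_10 = true := by decide +kernel
theorem re_4_29 : Tr.all Rf_4 L_29 = true := by decide +kernel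
theorem re_4_48 : Tr.all Rf_4 L_48 = true := by decide +kernel
theorem re_4_67 : Tr.all Rf_4 L_67 = true := by decide +kernel
theorem ce_0_62 : Tr.all CE_0 L_62 = true := by decide +kernel
theorem re_5_52 : Tr.all Rf_5 L_52 = true := by decide +kernel
theorem ce_1_35 : Tr.all CE_1 L_35 = true := by decide +kernel
theorem ce_2_15 : Tr.all CE_2 L_15 = true := by decide +kernel
theorem ce_2_42 : Tr.all CE_2 L_42 = true := by decide +kernel
theorem re_6_9 : Tr.all Rf_6 L_9 = true := by decide +kernel
theorem re_6_51 : Tr.all Rf_6 L_51 = true := by decide +kernel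
theorem tr_63 : Tr.all (transQ mt sd PT DT q0) L_63 = true := by decide +kernel
theorem bs_64 : bst L_64 5500000 (2 * 5500000) = true := by decide +kernel
theorem sz_23 : size L_23 = 4096 := by decide +kernel
theorem pr_52 : prodT L_52 = MM_52 := by decide +kernel
theorem gc_28 : Nat.gcd MM_28 (prodTo 3317) = 1 := by decide +kernel
theorem gc_49 : Nat.gcd MM_49 (prodTo 3317) = 1 := by decide +kernel
theorem gc_70 : Nat.gcd MM_70 (prodTo 3317) = 1 := by decide +kernel
end CfsgLib.TCFi24
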