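import Cfsg.Agent.EqBase
import Cfsg.Agent.LibTCFi24D
set_option autoImplicit false
set_option linter.all false
set_option maxRecDepth 1000000
set_option maxHeartbeats 0
namespace CfsgLib.TCFi24
open CfsgLib.TC Cfsg.Spor CfsgLib.TCG_Fi24
theorem re_3_30 : Tr.all Rf_3 L_30 = true := by decide +kernel
theorem re_0_13 : Tr.all Rf_0 L_13 = true := by decide +kernel
theorem re_0_53 : Tr.all Rf_0 L_53 = true := by decide +kernel
theorem re_4_19 : Tr.all Rf_4 L_19 = true := by decide +kernel
theorem re_4_38 : Tr.all Rf_4 L_38 = true := by decide +kernel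
theorem re_4_57 : Tr.all Rf_4 L_57 = true := by decide +kernel
theorem ce_0_3 : Tr.all CE_0 L_3 = true := by decide +kernel
theorem ce_0_27 : Tr.all CE_0 L_27 = true := by decide +kernel
theorem re_5_10 : Tr.all Rf_5 L_10 = true := by decide +kernel
theorem re_5_67 : Tr.all Rf_5 L_67 = true := by decide +kernel
theorem ce_1_64 : Tr.all CE_1 L_64 = true := by decide +kernel
theorem re_6_24 : Tr.all Rf_6 L_24 = true := by decide +kernel
theorem tr_5 : Tr.all (transQ mt sd PT DT q0) L_5 = true := by decide +kernel
theorem tr_23 : Tr.all (transQ mt sd PT DT q0) L_23 = true := by decide +kernel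
theorem tr_42 : Tr.all (transQ mt sd PT DT q0) L_42 = true := by decide +kernel
theorem bs_43 : bst L_43 5500000 (2 * 5500000) = true := by decide +kernel
theorem sz_12 : size L_12 = 4096 := by decide +kernel
theorem pr_41 : prodT L_41 = MM_41 := by decide +kernel
theorem sz_69 : size L_69 = 4096 := by decide +kernel
end CfsgLib.TCFi24
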