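import Cfsg.Agent.EqBase
import Cfsg.Agent.LibTCFi24D
set_option autoImplicit false
set_option linter.all false
set_option maxRecDepth 1000000
set_option maxHeartbeats 0
namespace CfsgLib.TCFi24
open CfsgLib.TC Cfsg.Spor CfsgLib.TCG_Fi24
theorem re_3_31 : Tr.all Rf_3 L_31 = true := by decide +kernel
theorem re_0_14 : Tr.all Rf_0 L_14 = true := by decide +kernel
theorem re_0_54 : Tr.all Rf_0 L_54 = true := by decide +kernel
theorem re_1_20 : Tr.all Rf_1 L_20 = true := by decide +kernel
theorem re_1_39 : Tr.all Rf_1 L_39 = true := by decide +kernel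
theorem re_1_58 : Tr.all Rf_1 L_58 = true := by decide +kernel
theorem ce_0_4 : Tr.all CE_0 L_4 = true := by decide +kernel
theorem ce_0_28 : Tr.all CE_0 L_28 = true := by decide +kernel
theorem re_5_11 : Tr.all Rf_5 L_11 = true := by decide +kernel
theorem re_5_68 : Tr.all Rf_5 L_68 = true := by decide +kernel
theorem ce_1_65 : Tr.all CE_1 L_65 = true := by decide +kernel
theorem re_6_25 : Tr.all Rf_6 L_25 = true := by decide +kernel
theorem tr_6 : Tr.all (transQ mt sd PT DT q0) L_6 = true := by decide +kernel
theorem tr_24 : Tr.all (transQ mt sd PT DT q0) L_24 = true := by decide +kernel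
theorem tr_43 : Tr.all (transQ mt sd PT DT q0) L_43 = true := by decide +kernel
theorem bs_44 : bst L_44 5500000 (2 * 5500000) = true := by decide +kernel
theorem pr_13 : prodT L_13 = MM_13 := by decide +kernel
theorem sz_41 : size L_41 = 4096 := by decide +kernel
theorem pr_70 : prodT L_70 = MM_70 := by decide +kernel
end CfsgLib.TCFi24
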