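import Cfsg.Agent.EqBase
import Cfsg.Agent.LibTCFi24D
set_option autoImplicit false
set_option linter.all false
set_option maxRecDepth 1000000
set_option maxHeartbeats 0
namespace CfsgLib.TCFi24
open CfsgLib.TC Cfsg.Spor CfsgLib.TCG_Fi24
theorem re_3_32 : Tr.all Rf_3 L_32 = true := by decide +kernel
theorem re_0_15 : Tr.all Rf_0 L_15 = true := by decide +kernel
theorem re_0_55 : Tr.all Rf_0 L_55 = true := by decide +kernel
theorem re_2_20 : Tr.all Rf_2 L_20 = true := by decide +kernel
theorem re_2_39 : Tr.all Rf_2 L_39 = true := by decide +kernel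
theorem re_2_58 : Tr.all Rf_2 L_58 = true := by decide +kernel
theorem ce_0_5 : Tr.all CE_0 L_5 = true := by decide +kernel
theorem ce_0_29 : Tr.all CE_0 L_29 = true := by decide +kernel
theorem re_5_12 : Tr.all Rf_5 L_12 = true := by decide +kernel
theorem re_5_69 : Tr.all Rf_5 L_69 = true := by decide +kernel
theorem ce_1_66 : Tr.all CE_1 L_66 = true := by decide +kernel
theorem re_6_26 : Tr.all Rf_6 L_26 = true := by decide +kernel
theorem tr_7 : Tr.all (transQ mt sd PT DT q0) L_7 = true := by decide +kernel
theorem tr_25 : Tr.all (transQ mt sd PT DT q0) L_25 = true := by decide +kernel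
theorem tr_44 : Tr.all (transQ mt sd PT DT q0) L_44 = true := by decide +kernel
theorem bs_45 : bst L_45 5500000 (2 * 5500000) = true := by decide +kernel
theorem sz_13 : size L_13 = 4096 := by decide +kernel
theorem pr_42 : prodT L_42 = MM_42 := by decide +kernel
theorem sz_70 : size L_70 = 4096 := by decide +kernel
end CfsgLib.TCFi24
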