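import Cfsg.Agent.EqBase
import Cfsg.Agent.LibTCFi24D
set_option autoImplicit false
set_option linter.all false
set_option maxRecDepth 1000000
set_option maxHeartbeats 0
namespace CfsgLib.TCFi24
open CfsgLib.TC Cfsg.Spor CfsgLib.TCG_Fi24
theorem re_3_33 : Tr.all Rf_3 L_33 = true := by decide +kernel
theorem re_0_16 : Tr.all Rf_0 L_16 = true := by decide +kernel
theorem re_0_56 : Tr.all Rf_0 L_56 = true := by decide +kernel
theorem re_4_20 : Tr.all Rf_4 L_20 = true := by decide +kernel
theorem re_4_39 : Tr.all Rf_4 L_39 = true := by decide +kernel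
theorem re_4_58 : Tr.all Rf_4 L_58 = true := by decide +kernel
theorem ce_0_6 : Tr.all CE_0 L_6 = true := by decide +kernel
theorem ce_0_30 : Tr.all CE_0 L_30 = true := by decide +kernel
theorem re_5_13 : Tr.all Rf_5 L_13 = true := by decide +kernel
theorem re_5_70 : Tr.all Rf_5 L_70 = true := by decide +kernel
theorem ce_1_67 : Tr.all CE_1 L_67 = true := by decide +kernel
theorem re_6_27 : Tr.all Rf_6 L_27 = true := by decide +kernel
theorem tr_8 : Tr.all (transQ mt sd PT DT q0) L_8 = true := by decide +kernel
theorem tr_26 : Tr.all (transQ mt sd PT DT q0) L_26 = true := by decide +kernel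
theorem tr_45 : Tr.all (transQ mt sd PT DT q0) L_45 = true := by decide +kernel
theorem bs_46 : bst L_46 5500000 (2 * 5500000) = true := by decide +kernel
theorem pr_14 : prodT L_14 = MM_14 := by decide +kernel
theorem sz_42 : size L_42 = 4096 := by decide +kernel
theorem pr_71 : prodT L_71 = MM_71 := by decide +kernel
end CfsgLib.TCFi24
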