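import Cfsg.Agent.EqBase
import Cfsg.Agent.LibTCFi24D
set_option autoImplicit false
set_option linter.all false
set_option maxRecDepth 1000000
set_option maxHeartbeats 0
namespace CfsgLib.TCFi24
open CfsgLib.TC Cfsg.Spor CfsgLib.TCG_Fi24
theorem re_3_34 : Tr.all Rf_3 L_34 = true := by decide +kernel
theorem re_0_17 : Tr.all Rf_0 L_17 = true := by decide +kernel
theorem re_0_57 : Tr.all Rf_0 L_57 = true := by decide +kernel
theorem re_1_21 : Tr.all Rf_1 L_21 = true := by decide +kernel
theorem re_1_40 : Tr.all Rf_1 L_40 = true := by decide +kernel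
theorem re_1_59 : Tr.all Rf_1 L_59 = true := by decide +kernel
theorem ce_0_7 : Tr.all CE_0 L_7 = true := by decide +kernel
theorem ce_0_31 : Tr.all CE_0 L_31 = true := by decide +kernel
theorem re_5_14 : Tr.all Rf_5 L_14 = true := by decide +kernel
theorem re_5_71 : Tr.all Rf_5 L_71 = true := by decide +kernel
theorem ce_1_68 : Tr.all CE_1 L_68 = true := by decide +kernel
theorem re_6_28 : Tr.all Rf_6 L_28 = true := by decide +kernel
theorem tr_9 : Tr.all (transQ mt sd PT DT q0) L_9 = true := by decide +kernel
theorem tr_27 : Tr.all (transQ mt sd PT DT q0) L_27 = true := by decide +kernel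
theorem tr_46 : Tr.all (transQ mt sd PT DT q0) L_46 = true := by decide +kernel
theorem bs_47 : bst L_47 5500000 (2 * 5500000) = true := by decide +kernel
theorem sz_14 : size L_14 = 4096 := by decide +kernel
theorem pr_43 : prodT L_43 = MM_43 := by decide +kernel
theorem sz_71 : size L_71 = 4096 := by decide +kernel
end CfsgLib.TCFi24
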