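import Cfsg.Agent.EqBase
import Cfsg.Agent.LibTCFi24D
set_option autoImplicit false
set_option linter.all false
set_option maxRecDepth 1000000
set_option maxHeartbeats 0
namespace CfsgLib.TCFi24
open CfsgLib.TC Cfsg.Spor CfsgLib.TCG_Fi24
theorem re_3_35 : Tr.all Rf_3 L_35 = true := by decide +kernel
theorem re_0_18 : Tr.all Rf_0 L_18 = true := by decide +kernel
theorem re_0_58 : Tr.all Rf_0 L_58 = true := by decide +kernel
theorem re_2_21 : Tr.all Rf_2 L_21 = true := by decide +kernel
theorem re_2_40 : Tr.all Rf_2 L_40 = true := by decide +kernel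
theorem re_2_59 : Tr.all Rf_2 L_59 = true := by decide +kernel
theorem ce_0_8 : Tr.all CE_0 L_8 = true := by decide +kernel
theorem ce_0_32 : Tr.all CE_0 L_32 = true := by decide +kernel
theorem re_5_15 : Tr.all Rf_5 L_15 = true := by decide +kernel
theorem re_5_72 : Tr.all Rf_5 L_72 = true := by decide +kernel
theorem ce_1_69 : Tr.all CE_1 L_69 = true := by decide +kernel
theorem re_6_29 : Tr.all Rf_6 L_29 = true := by decide +kernel
theorem tr_10 : Tr.all (transQ mt sd PT DT q0) L_10 = true := by decide +kernel
theorem tr_28 : Tr.all (transQ mt sd PT DT q0) L_28 = true := by decide +kernel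
theorem tr_47 : Tr.all (transQ mt sd PT DT q0) L_47 = true := by decide +kernel
theorem bs_48 : bst L_48 5500000 (2 * 5500000) = true := by decide +kernel
theorem pr_15 : prodT L_15 = MM_15 := by decide +kernel
theorem sz_43 : size L_43 = 4096 := by decide +kernel
theorem pr_72 : prodT L_72 = MM_72 := by decide +kernel
end CfsgLib.TCFi24
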