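import Cfsg.Agent.EqBase
import Cfsg.Agent.LibTCFi24D
set_option autoImplicit false
set_option linter.all false
set_option maxRecDepth 1000000
set_option maxHeartbeats 0
namespace CfsgLib.TCFi24
open CfsgLib.TC Cfsg.Spor CfsgLib.TCG_Fi24
theorem re_3_36 : Tr.all Rf_3 L_36 = true := by decide +kernel
theorem re_0_19 : Tr.all Rf_0 L_19 = true := by decide +kernel
theorem re_0_59 : Tr.all Rf_0 L_59 = true := by decide +kernel
theorem re_4_21 : Tr.all Rf_4 L_21 = true := by decide +kernel
theorem re_4_40 : Tr.all Rf_4 L_40 = true := by decide +kernel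
theorem re_4_59 : Tr.all Rf_4 L_59 = true := by decide +kernel
theorem ce_0_9 : Tr.all CE_0 L_9 = true := by decide +kernel
theorem ce_0_33 : Tr.all CE_0 L_33 = true := by decide +kernel
theorem re_5_16 : Tr.all Rf_5 L_16 = true := by decide +kernel
theorem re_5_73 : Tr.all Rf_5 L_73 = true := by decide +kernel
theorem ce_1_70 : Tr.all CE_1 L_70 = true := by decide +kernel
theorem re_6_30 : Tr.all Rf_6 L_30 = true := by decide +kernel
theorem tr_11 : Tr.all (transQ mt sd PT DT q0) L_11 = true := by decide +kernel
theorem tr_29 : Tr.all (transQ mt sd PT DT q0) L_29 = true := by decide +kernel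
theorem tr_48 : Tr.all (transQ mt sd PT DT q0) L_48 = true := by decide +kernel
theorem bs_49 : bst L_49 5500000 (2 * 5500000) = true := by decide +kernel
theorem sz_15 : size L_15 = 4096 := by decide +kernel
theorem pr_44 : prodT L_44 = MM_44 := by decide +kernel
theorem sz_72 : size L_72 = 4096 := by decide +kernel
end CfsgLib.TCFi24
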