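import Cfsg.Agent.EqBase
import Cfsg.Agent.LibTCFi24D
set_option autoImplicit false
set_option linter.all false
set_option maxRecDepth 1000000
set_option maxHeartbeats 0
namespace CfsgLib.TCFi24
open CfsgLib.TC Cfsg.Spor CfsgLib.TCG_Fi24
theorem re_3_37 : Tr.all Rf_3 L_37 = true := by decide +kernel
theorem re_0_20 : Tr.all Rf_0 L_20 = true := by decide +kernel
theorem re_0_60 : Tr.all Rf_0 L_60 = true := by decide +kernel
theorem re_1_22 : Tr.all Rf_1 L_22 = true := by decide +kernel
theorem re_1_41 : Tr.all Rf_1 L_41 = true := by decide +kernel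
theorem re_1_60 : Tr.all Rf_1 L_60 = true := by decide +kernel
theorem ce_0_10 : Tr.all CE_0 L_10 = true := by decide +kernel
theorem ce_0_34 : Tr.all CE_0 L_34 = true := by decide +kernel
theorem re_5_17 : Tr.all Rf_5 L_17 = true := by decide +kernel
theorem ce_1_0 : Tr.all CE_1 L_0 = true := by decide +kernel
theorem ce_1_47 : Tr.all CE_1 L_47 = true := by decide +kernel
theorem ce_2_59 : Tr.all CE_2 L_59 = true := by decide +kernel
theorem re_6_63 : Tr.all Rf_6 L_63 = true := by decide +kernel
theorem bs_1 : bst L_1 5500000 (2 * 5500000) = true := by decide +kernel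
theorem bs_19 : bst L_19 5500000 (2 * 5500000) = true := by decide +kernel
theorem sz_0 : size L_0 = 4096 := by decide +kernel
theorem pr_29 : prodT L_29 = MM_29 := by decide +kernel
theorem sz_57 : size L_57 = 4096 := by decide +kernel
end CfsgLib.TCFi24
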