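import Cfsg.Agent.EqBase
import Cfsg.Agent.LibTCFi24D
set_option autoImplicit false
set_option linter.all false
set_option maxRecDepth 1000000
set_option maxHeartbeats 0
namespace CfsgLib.TCFi24
open CfsgLib.TC Cfsg.Spor CfsgLib.TCG_Fi24
theorem re_3_38 : Tr.all Rf_3 L_38 = true := by decide +kernel
theorem re_0_21 : Tr.all Rf_0 L_21 = true := by decide +kernel
theorem re_0_61 : Tr.all Rf_0 L_61 = true := by decide +kernel
theorem re_2_22 : Tr.all Rf_2 L_22 = true := by decide +kernel
theorem re_2_41 : Tr.all Rf_2 L_41 = true := by decide +kernel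
theorem re_2_60 : Tr.all Rf_2 L_60 = true := by decide +kernel
theorem ce_0_11 : Tr.all CE_0 L_11 = true := by decide +kernel
theorem ce_0_35 : Tr.all CE_0 L_35 = true := by decide +kernel
theorem re_5_18 : Tr.all Rf_5 L_18 = true := by decide +kernel
theorem ce_1_1 : Tr.all CE_1 L_1 = true := by decide +kernel
theorem ce_1_48 : Tr.all CE_1 L_48 = true := by decide +kernel
theorem ce_2_60 : Tr.all CE_2 L_60 = true := by decide +kernel
theorem re_6_64 : Tr.all Rf_6 L_64 = true := by decide +kernel
theorem bs_2 : bst L_2 5500000 (2 * 5500000) = true := by decide +kernel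
theorem bs_20 : bst L_20 5500000 (2 * 5500000) = true := by decide +kernel
theorem pr_1 : prodT L_1 = MM_1 := by decide +kernel
theorem sz_29 : size L_29 = 4096 := by decide +kernel
theorem pr_58 : prodT L_58 = MM_58 := by decide +kernel
end CfsgLib.TCFi24
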