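import Cfsg.Agent.EqBase
import Cfsg.Agent.LibTCFi24D
set_option autoImplicit false
set_option linter.all false
set_option maxRecDepth 1000000
set_option maxHeartbeats 0
namespace CfsgLib.TCFi24
open CfsgLib.TC Cfsg.Spor CfsgLib.TCG_Fi24
theorem re_3_39 : Tr.all Rf_3 L_39 = true := by decide +kernel
theorem re_0_22 : Tr.all Rf_0 L_22 = true := by decide +kernel
theorem re_0_62 : Tr.all Rf_0 L_62 = true := by decide +kernel
theorem re_4_22 : Tr.all Rf_4 L_22 = true := by decide +kernel
theorem re_4_41 : Tr.all Rf_4 L_41 = true := by decide +kernel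
theorem re_4_60 : Tr.all Rf_4 L_60 = true := by decide +kernel
theorem ce_0_12 : Tr.all CE_0 L_12 = true := by decide +kernel
theorem ce_0_36 : Tr.all CE_0 L_36 = true := by decide +kernel
theorem re_5_19 : Tr.all Rf_5 L_19 = true := by decide +kernel
theorem ce_1_2 : Tr.all CE_1 L_2 = true := by decide +kernel
theorem ce_1_49 : Tr.all CE_1 L_49 = true := by decide +kernel
theorem ce_2_61 : Tr.all CE_2 L_61 = true := by decide +kernel
theorem re_6_65 : Tr.all Rf_6 L_65 = true := by decide +kernel
theorem bs_3 : bst L_3 5500000 (2 * 5500000) = true := by decide +kernel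
theorem bs_21 : bst L_21 5500000 (2 * 5500000) = true := by decide +kernel
theorem sz_1 : size L_1 = 4096 := by decide +kernel
theorem pr_30 : prodT L_30 = MM_30 := by decide +kernel
theorem sz_58 : size L_58 = 4096 := by decide +kernel
end CfsgLib.TCFi24
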