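import Cfsg.Agent.EqBase
import Cfsg.Agent.LibTCFi24D
set_option autoImplicit false
set_option linter.all false
set_option maxRecDepth 1000000
set_option maxHeartbeats 0
namespace CfsgLib.TCFi24
open CfsgLib.TC Cfsg.Spor CfsgLib.TCG_Fi24
theorem re_3_4 : Tr.all Rf_3 L_4 = true := by decide +kernel
theorem re_3_61 : Tr.all Rf_3 L_61 = true := by decide +kernel
theorem re_2_3 : Tr.all Rf_2 L_3 = true := by decide +kernel
theorem re_1_11 : Tr.all Rf_1 L_11 = true := by decide +kernel
theorem re_1_30 : Tr.all Rf_1 L_30 = true := by decide +kernel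
theorem re_1_49 : Tr.all Rf_1 L_49 = true := by decide +kernel
theorem re_1_68 : Tr.all Rf_1 L_68 = true := by decide +kernel
theorem ce_0_63 : Tr.all CE_0 L_63 = true := by decide +kernel
theorem re_5_53 : Tr.all Rf_5 L_53 = true := by decide +kernel
theorem ce_1_36 : Tr.all CE_1 L_36 = true := by decide +kernel
theorem ce_2_16 : Tr.all CE_2 L_16 = true := by decide +kernel
theorem ce_2_43 : Tr.all CE_2 L_43 = true := by decide +kernel
theorem re_6_10 : Tr.all Rf_6 L_10 = true := by decide +kernel
theorem re_6_52 : Tr.all Rf_6 L_52 = true := by decide +kernel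
theorem tr_64 : Tr.all (transQ mt sd PT DT q0) L_64 = true := by decide +kernel
theorem bs_65 : bst L_65 5500000 (2 * 5500000) = true := by decide +kernel
theorem pr_24 : prodT L_24 = MM_24 := by decide +kernel
theorem sz_52 : size L_52 = 4096 := by decide +kernel
theorem gc_29 : Nat.gcd MM_29 (prodTo 3317) = 1 := by decide +kernel
theorem gc_50 : Nat.gcd MM_50 (prodTo 3317) = 1 := by decide +kernel
theorem gc_71 : Nat.gcd MM_71 (prodTo 3317) = 1 := by decide +kernel
end CfsgLib.TCFi24
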