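import Cfsg.Agent.EqBase
import Cfsg.Agent.LibTCFi24D
set_option autoImplicit false
set_option linter.all false
set_option maxRecDepth 1000000
set_option maxHeartbeats 0
namespace CfsgLib.TCFi24
open CfsgLib.TC Cfsg.Spor CfsgLib.TCG_Fi24
theorem re_3_40 : Tr.all Rf_3 L_40 = true := by decide +kernel
theorem re_0_23 : Tr.all Rf_0 L_23 = true := by decide +kernel
theorem re_0_63 : Tr.all Rf_0 L_63 = true := by decide +kernel
theorem re_1_23 : Tr.all Rf_1 L_23 = true := by decide +kernel
theorem re_1_42 : Tr.all Rf_1 L_42 = true := by decide +kernel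
theorem re_1_61 : Tr.all Rf_1 L_61 = true := by decide +kernel
theorem ce_0_13 : Tr.all CE_0 L_13 = true := by decide +kernel
theorem ce_0_37 : Tr.all CE_0 L_37 = true := by decide +kernel
theorem re_5_20 : Tr.all Rf_5 L_20 = true := by decide +kernel
theorem ce_1_3 : Tr.all CE_1 L_3 = true := by decide +kernel
theorem ce_1_50 : Tr.all CE_1 L_50 = true := by decide +kernel
theorem ce_2_62 : Tr.all CE_2 L_62 = true := by decide +kernel
theorem re_6_66 : Tr.all Rf_6 L_66 = true := by decide +kernel
theorem bs_4 : bst L_4 5500000 (2 * 5500000) = true := by decide +kernel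
theorem bs_22 : bst L_22 5500000 (2 * 5500000) = true := by decide +kernel
theorem pr_2 : prodT L_2 = MM_2 := by decide +kernel
theorem sz_30 : size L_30 = 4096 := by decide +kernel
theorem pr_59 : prodT L_59 = MM_59 := by decide +kernel
end CfsgLib.TCFi24
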