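import Cfsg.Agent.EqBase
import Cfsg.Agent.LibTCFi24D
set_option autoImplicit false
set_option linter.all false
set_option maxRecDepth 1000000
set_option maxHeartbeats 0
namespace CfsgLib.TCFi24
open CfsgLib.TC Cfsg.Spor CfsgLib.TCG_Fi24
theorem re_3_41 : Tr.all Rf_3 L_41 = true := by decide +kernel
theorem re_0_24 : Tr.all Rf_0 L_24 = true := by decide +kernel
theorem re_0_64 : Tr.all Rf_0 L_64 = true := by decide +kernel
theorem re_2_23 : Tr.all Rf_2 L_23 = true := by decide +kernel
theorem re_2_42 : Tr.all Rf_2 L_42 = true := by decide +kernel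
theorem re_2_61 : Tr.all Rf_2 L_61 = true := by decide +kernel
theorem ce_0_14 : Tr.all CE_0 L_14 = true := by decide +kernel
theorem ce_0_38 : Tr.all CE_0 L_38 = true := by decide +kernel
theorem re_5_21 : Tr.all Rf_5 L_21 = true := by decide +kernel
theorem ce_1_4 : Tr.all CE_1 L_4 = true := by decide +kernel
theorem ce_1_51 : Tr.all CE_1 L_51 = true := by decide +kernel
theorem ce_2_63 : Tr.all CE_2 L_63 = true := by decide +kernel
theorem re_6_67 : Tr.all Rf_6 L_67 = true := by decide +kernel
theorem bs_5 : bst L_5 5500000 (2 * 5500000) = true := by decide +kernel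
theorem bs_23 : bst L_23 5500000 (2 * 5500000) = true := by decide +kernel
theorem sz_2 : size L_2 = 4096 := by decide +kernel
theorem pr_31 : prodT L_31 = MM_31 := by decide +kernel
theorem sz_59 : size L_59 = 4096 := by decide +kernel
end CfsgLib.TCFi24
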