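import Cfsg.Agent.EqBase
import Cfsg.Agent.LibTCFi24D
set_option autoImplicit false
set_option linter.all false
set_option maxRecDepth 1000000
set_option maxHeartbeats 0
namespace CfsgLib.TCFi24
open CfsgLib.TC Cfsg.Spor CfsgLib.TCG_Fi24
theorem re_3_42 : Tr.all Rf_3 L_42 = true := by decide +kernel
theorem re_0_25 : Tr.all Rf_0 L_25 = true := by decide +kernel
theorem re_0_65 : Tr.all Rf_0 L_65 = true := by decide +kernel
theorem re_4_23 : Tr.all Rf_4 L_23 = true := by decide +kernel
theorem re_4_42 : Tr.all Rf_4 L_42 = true := by decide +kernel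
theorem re_4_61 : Tr.all Rf_4 L_61 = true := by decide +kernel
theorem ce_0_15 : Tr.all CE_0 L_15 = true := by decide +kernel
theorem ce_0_39 : Tr.all CE_0 L_39 = true := by decide +kernel
theorem re_5_22 : Tr.all Rf_5 L_22 = true := by decide +kernel
theorem ce_1_5 : Tr.all CE_1 L_5 = true := by decide +kernel
theorem ce_1_52 : Tr.all CE_1 L_52 = true := by decide +kernel
theorem ce_2_64 : Tr.all CE_2 L_64 = true := by decide +kernel
theorem re_6_68 : Tr.all Rf_6 L_68 = true := by decide +kernel
theorem bs_6 : bst L_6 5500000 (2 * 5500000) = true := by decide +kernel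
theorem bs_24 : bst L_24 5500000 (2 * 5500000) = true := by decide +kernel
theorem pr_3 : prodT L_3 = MM_3 := by decide +kernel
theorem sz_31 : size L_31 = 4096 := by decide +kernel
theorem pr_60 : prodT L_60 = MM_60 := by decide +kernel
end CfsgLib.TCFi24
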