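import Cfsg.Agent.EqBase
import Cfsg.Agent.LibTCFi24D
set_option autoImplicit false
set_option linter.all false
set_option maxRecDepth 1000000
set_option maxHeartbeats 0
namespace CfsgLib.TCFi24
open CfsgLib.TC Cfsg.Spor CfsgLib.TCG_Fi24
theorem re_3_44 : Tr.all Rf_3 L_44 = true := by decide +kernel
theorem re_0_27 : Tr.all Rf_0 L_27 = true := by decide +kernel
theorem re_0_67 : Tr.all Rf_0 L_67 = true := by decide +kernel
theorem re_2_24 : Tr.all Rf_2 L_24 = true := by decide +kernel
theorem re_2_43 : Tr.all Rf_2 L_43 = true := by decide +kernel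
theorem re_2_62 : Tr.all Rf_2 L_62 = true := by decide +kernel
theorem ce_0_17 : Tr.all CE_0 L_17 = true := by decide +kernel
theorem ce_0_41 : Tr.all CE_0 L_41 = true := by decide +kernel
theorem re_5_24 : Tr.all Rf_5 L_24 = true := by decide +kernel
theorem ce_1_7 : Tr.all CE_1 L_7 = true := by decide +kernel
theorem ce_1_54 : Tr.all CE_1 L_54 = true := by decide +kernel
theorem ce_2_66 : Tr.all CE_2 L_66 = true := by decide +kernel
theorem re_6_70 : Tr.all Rf_6 L_70 = true := by decide +kernel
theorem bs_8 : bst L_8 5500000 (2 * 5500000) = true := by decide +kernel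
theorem bs_26 : bst L_26 5500000 (2 * 5500000) = true := by decide +kernel
theorem pr_4 : prodT L_4 = MM_4 := by decide +kernel
theorem sz_32 : size L_32 = 4096 := by decide +kernel
theorem pr_61 : prodT L_61 = MM_61 := by decide +kernel
end CfsgLib.TCFi24
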