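import Cfsg.Agent.EqBase
import Cfsg.Agent.LibTCFi24D
set_option autoImplicit false
set_option linter.all false
set_option maxRecDepth 1000000
set_option maxHeartbeats 0
namespace CfsgLib.TCFi24
open CfsgLib.TC Cfsg.Spor CfsgLib.TCG_Fi24
theorem re_3_45 : Tr.all Rf_3 L_45 = true := by decide +kernel
theorem re_0_28 : Tr.all Rf_0 L_28 = true := by decide +kernel
theorem re_0_68 : Tr.all Rf_0 L_68 = true := by decide +kernel
theorem re_4_24 : Tr.all Rf_4 L_24 = true := by decide +kernel
theorem re_4_43 : Tr.all Rf_4 L_43 = true := by decide +kernel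
theorem re_4_62 : Tr.all Rf_4 L_62 = true := by decide +kernel
theorem ce_0_18 : Tr.all CE_0 L_18 = true := by decide +kernel
theorem ce_0_42 : Tr.all CE_0 L_42 = true := by decide +kernel
theorem re_5_25 : Tr.all Rf_5 L_25 = true := by decide +kernel
theorem ce_1_8 : Tr.all CE_1 L_8 = true := by decide +kernel
theorem ce_1_55 : Tr.all CE_1 L_55 = true := by decide +kernel
theorem ce_2_67 : Tr.all CE_2 L_67 = true := by decide +kernel
theorem re_6_71 : Tr.all Rf_6 L_71 = true := by decide +kernel
theorem bs_9 : bst L_9 5500000 (2 * 5500000) = true := by decide +kernel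
theorem bs_27 : bst L_27 5500000 (2 * 5500000) = true := by decide +kernel
theorem sz_4 : size L_4 = 4096 := by decide +kernel
theorem pr_33 : prodT L_33 = MM_33 := by decide +kernel
theorem sz_61 : size L_61 = 4096 := by decide +kernel
end CfsgLib.TCFi24
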