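import Cfsg.Agent.EqBase
import Cfsg.Agent.LibTCFi24D
set_option autoImplicit false
set_option linter.all false
set_option maxRecDepth 1000000
set_option maxHeartbeats 0
namespace CfsgLib.TCFi24
open CfsgLib.TC Cfsg.Spor CfsgLib.TCG_Fi24
theorem re_3_46 : Tr.all Rf_3 L_46 = true := by decide +kernel
theorem re_0_29 : Tr.all Rf_0 L_29 = true := by decide +kernel
theorem re_0_69 : Tr.all Rf_0 L_69 = true := by decide +kernel
theorem re_1_25 : Tr.all Rf_1 L_25 = true := by decide +kernel
theorem re_1_44 : Tr.all Rf_1 L_44 = true := by decide +kernel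
theorem re_1_63 : Tr.all Rf_1 L_63 = true := by decide +kernel
theorem ce_0_19 : Tr.all CE_0 L_19 = true := by decide +kernel
theorem ce_0_43 : Tr.all CE_0 L_43 = true := by decide +kernel
theorem re_5_26 : Tr.all Rf_5 L_26 = true := by decide +kernel
theorem ce_1_9 : Tr.all CE_1 L_9 = true := by decide +kernel
theorem ce_1_56 : Tr.all CE_1 L_56 = true := by decide +kernel
theorem ce_2_68 : Tr.all CE_2 L_68 = true := by decide +kernel
theorem re_6_72 : Tr.all Rf_6 L_72 = true := by decide +kernel
theorem bs_10 : bst L_10 5500000 (2 * 5500000) = true := by decide +kernel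
theorem bs_28 : bst L_28 5500000 (2 * 5500000) = true := by decide +kernel
theorem pr_5 : prodT L_5 = MM_5 := by decide +kernel
theorem sz_33 : size L_33 = 4096 := by decide +kernel
theorem pr_62 : prodT L_62 = MM_62 := by decide +kernel
end CfsgLib.TCFi24
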