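import Cfsg.Agent.EqBase
import Cfsg.Agent.LibTCFi24D
set_option autoImplicit false
set_option linter.all false
set_option maxRecDepth 1000000
set_option maxHeartbeats 0
namespace CfsgLib.TCFi24
open CfsgLib.TC Cfsg.Spor CfsgLib.TCG_Fi24
theorem re_3_47 : Tr.all Rf_3 L_47 = true := by decide +kernel
theorem re_0_30 : Tr.all Rf_0 L_30 = true := by decide +kernel
theorem re_0_70 : Tr.all Rf_0 L_70 = true := by decide +kernel
theorem re_2_25 : Tr.all Rf_2 L_25 = true := by decide +kernel
theorem re_2_44 : Tr.all Rf_2 L_44 = true := by decide +kernel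
theorem re_2_63 : Tr.all Rf_2 L_63 = true := by decide +kernel
theorem ce_0_20 : Tr.all CE_0 L_20 = true := by decide +kernel
theorem ce_0_44 : Tr.all CE_0 L_44 = true := by decide +kernel
theorem re_5_27 : Tr.all Rf_5 L_27 = true := by decide +kernel
theorem ce_1_10 : Tr.all CE_1 L_10 = true := by decide +kernel
theorem ce_1_57 : Tr.all CE_1 L_57 = true := by decide +kernel
theorem ce_2_69 : Tr.all CE_2 L_69 = true := by decide +kernel
theorem re_6_73 : Tr.all Rf_6 L_73 = true := by decide +kernel
theorem bs_11 : bst L_11 5500000 (2 * 5500000) = true := by decide +kernel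
theorem bs_29 : bst L_29 5500000 (2 * 5500000) = true := by decide +kernel
theorem sz_5 : size L_5 = 4096 := by decide +kernel
theorem pr_34 : prodT L_34 = MM_34 := by decide +kernel
theorem sz_62 : size L_62 = 4096 := by decide +kernel
end CfsgLib.TCFi24
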