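import Cfsg.Agent.EqBase
import Cfsg.Agent.LibTCFi24D
set_option autoImplicit false
set_option linter.all false
set_option maxRecDepth 1000000
set_option maxHeartbeats 0
namespace CfsgLib.TCFi24
open CfsgLib.TC Cfsg.Spor CfsgLib.TCG_Fi24
theorem re_3_48 : Tr.all Rf_3 L_48 = true := by decide +kernel
theorem re_0_31 : Tr.all Rf_0 L_31 = true := by decide +kernel
theorem re_0_71 : Tr.all Rf_0 L_71 = true := by decide +kernel
theorem re_4_25 : Tr.all Rf_4 L_25 = true := by decide +kernel
theorem re_4_44 : Tr.all Rf_4 L_44 = true := by decide +kernel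
theorem re_4_63 : Tr.all Rf_4 L_63 = true := by decide +kernel
theorem ce_0_21 : Tr.all CE_0 L_21 = true := by decide +kernel
theorem ce_0_45 : Tr.all CE_0 L_45 = true := by decide +kernel
theorem re_5_28 : Tr.all Rf_5 L_28 = true := by decide +kernel
theorem ce_1_11 : Tr.all CE_1 L_11 = true := by decide +kernel
theorem ce_1_58 : Tr.all CE_1 L_58 = true := by decide +kernel
theorem ce_2_70 : Tr.all CE_2 L_70 = true := by decide +kernel
theorem ce_2_74 : Tr.all CE_2 L_74 = true := by decide +kernel
theorem bs_0 : bst L_0 5500000 (2 * 5500000) = true := by decide +kernel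
theorem bs_18 : bst L_18 5500000 (2 * 5500000) = true := by decide +kernel
theorem pr_0 : prodT L_0 = MM_0 := by decide +kernel
theorem sz_28 : size L_28 = 4096 := by decide +kernel
theorem pr_57 : prodT L_57 = MM_57 := by decide +kernel
end CfsgLib.TCFi24
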