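import Cfsg.Agent.EqBase
import Cfsg.Agent.LibTCFi24D
set_option autoImplicit false
set_option linter.all false
set_option maxRecDepth 1000000
set_option maxHeartbeats 0
namespace CfsgLib.TCFi24
open CfsgLib.TC Cfsg.Spor CfsgLib.TCG_Fi24
theorem re_3_49 : Tr.all Rf_3 L_49 = true := by decide +kernel
theorem re_0_32 : Tr.all Rf_0 L_32 = true := by decide +kernel
theorem re_0_72 : Tr.all Rf_0 L_72 = true := by decide +kernel
theorem re_1_26 : Tr.all Rf_1 L_26 = true := by decide +kernel
theorem re_1_45 : Tr.all Rf_1 L_45 = true := by decide +kernel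
theorem re_1_64 : Tr.all Rf_1 L_64 = true := by decide +kernel
theorem ce_0_22 : Tr.all CE_0 L_22 = true := by decide +kernel
theorem ce_0_46 : Tr.all CE_0 L_46 = true := by decide +kernel
theorem re_5_29 : Tr.all Rf_5 L_29 = true := by decide +kernel
theorem ce_1_12 : Tr.all CE_1 L_12 = true := by decide +kernel
theorem ce_1_59 : Tr.all CE_1 L_59 = true := by decide +kernel
theorem ce_2_71 : Tr.all CE_2 L_71 = true := by decide +kernel
theorem re_6_74 : Tr.all Rf_6 L_74 = true := by decide +kernel
theorem tr_38 : Tr.all (transQ mt sd PT DT q0) L_38 = true := by decide +kernel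
theorem bs_38 : bst L_38 5500000 (2 * 5500000) = true := by decide +kernel
theorem pr_10 : prodT L_10 = MM_10 := by decide +kernel
theorem sz_38 : size L_38 = 4096 := by decide +kernel
theorem pr_67 : prodT L_67 = MM_67 := by decide +kernel
end CfsgLib.TCFi24
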