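import Cfsg.Agent.EqBase
import Cfsg.Agent.LibTCFi24D
set_option autoImplicit false
set_option linter.all false
set_option maxRecDepth 1000000
set_option maxHeartbeats 0
namespace CfsgLib.TCFi24
open CfsgLib.TC Cfsg.Spor CfsgLib.TCG_Fi24
theorem re_3_5 : Tr.all Rf_3 L_5 = true := by decide +kernel
theorem re_3_62 : Tr.all Rf_3 L_62 = true := by decide +kernel
theorem re_4_3 : Tr.all Rf_4 L_3 = true := by decide +kernel
theorem re_2_11 : Tr.all Rf_2 L_11 = true := by decide +kernel
theorem re_2_30 : Tr.all Rf_2 L_30 = true := by decide +kernel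
theorem re_2_49 : Tr.all Rf_2 L_49 = true := by decide +kernel
theorem re_2_68 : Tr.all Rf_2 L_68 = true := by decide +kernel
theorem ce_0_64 : Tr.all CE_0 L_64 = true := by decide +kernel
theorem re_5_54 : Tr.all Rf_5 L_54 = true := by decide +kernel
theorem ce_1_37 : Tr.all CE_1 L_37 = true := by decide +kernel
theorem ce_2_17 : Tr.all CE_2 L_17 = true := by decide +kernel
theorem ce_2_44 : Tr.all CE_2 L_44 = true := by decide +kernel
theorem re_6_11 : Tr.all Rf_6 L_11 = true := by decide +kernel
theorem re_6_53 : Tr.all Rf_6 L_53 = true := by decide +kernel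
theorem tr_65 : Tr.all (transQ mt sd PT DT q0) L_65 = true := by decide +kernel
theorem bs_66 : bst L_66 5500000 (2 * 5500000) = true := by decide +kernel
theorem sz_24 : size L_24 = 4096 := by decide +kernel
theorem pr_53 : prodT L_53 = MM_53 := by decide +kernel
theorem gc_30 : Nat.gcd MM_30 (prodTo 3317) = 1 := by decide +kernel
theorem gc_51 : Nat.gcd MM_51 (prodTo 3317) = 1 := by decide +kernel
theorem gc_72 : Nat.gcd MM_72 (prodTo 3317) = 1 := by decide +kernel
end CfsgLib.TCFi24
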