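import Cfsg.Agent.EqBase
import Cfsg.Agent.LibTCFi24D
set_option autoImplicit false
set_option linter.all false
set_option maxRecDepth 1000000
set_option maxHeartbeats 0
namespace CfsgLib.TCFi24
open CfsgLib.TC Cfsg.Spor CfsgLib.TCG_Fi24
theorem re_3_50 : Tr.all Rf_3 L_50 = true := by decide +kernel
theorem re_0_33 : Tr.all Rf_0 L_33 = true := by decide +kernel
theorem re_0_73 : Tr.all Rf_0 L_73 = true := by decide +kernel
theorem re_2_26 : Tr.all Rf_2 L_26 = true := by decide +kernel
theorem re_2_45 : Tr.all Rf_2 L_45 = true := by decide +kernel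
theorem re_2_64 : Tr.all Rf_2 L_64 = true := by decide +kernel
theorem ce_0_23 : Tr.all CE_0 L_23 = true := by decide +kernel
theorem ce_0_47 : Tr.all CE_0 L_47 = true := by decide +kernel
theorem re_5_30 : Tr.all Rf_5 L_30 = true := by decide +kernel
theorem ce_1_13 : Tr.all CE_1 L_13 = true := by decide +kernel
theorem ce_1_60 : Tr.all CE_1 L_60 = true := by decide +kernel
theorem ce_2_72 : Tr.all CE_2 L_72 = true := by decide +kernel
theorem tr_0 : Tr.all (transQ mt sd PT DT q0) L_0 = true := by decide +kernel
theorem tr_18 : Tr.all (transQ mt sd PT DT q0) L_18 = true := by decide +kernel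
theorem tr_36 : Tr.all (transQ mt sd PT DT q0) L_36 = true := by decide +kernel
theorem bs_32 : bst L_32 5500000 (2 * 5500000) = true := by decide +kernel
theorem pr_7 : prodT L_7 = MM_7 := by decide +kernel
theorem sz_35 : size L_35 = 4096 := by decide +kernel
theorem pr_64 : prodT L_64 = MM_64 := by decide +kernel
end CfsgLib.TCFi24
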