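import Cfsg.Agent.EqBase
import Cfsg.Agent.LibTCFi24D
set_option autoImplicit false
set_option linter.all false
set_option maxRecDepth 1000000
set_option maxHeartbeats 0
namespace CfsgLib.TCFi24
open CfsgLib.TC Cfsg.Spor CfsgLib.TCG_Fi24
theorem re_3_51 : Tr.all Rf_3 L_51 = true := by decide +kernel
theorem re_0_34 : Tr.all Rf_0 L_34 = true := by decide +kernel
theorem re_1_0 : Tr.all Rf_1 L_0 = true := by decide +kernel
theorem re_4_7 : Tr.all Rf_4 L_7 = true := by decide +kernel
theorem re_4_26 : Tr.all Rf_4 L_26 = true := by decide +kernel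
theorem re_4_45 : Tr.all Rf_4 L_45 = true := by decide +kernel
theorem re_4_64 : Tr.all Rf_4 L_64 = true := by decide +kernel
theorem ce_0_53 : Tr.all CE_0 L_53 = true := by decide +kernel
theorem re_5_36 : Tr.all Rf_5 L_36 = true := by decide +kernel
theorem ce_1_19 : Tr.all CE_1 L_19 = true := by decide +kernel
theorem ce_1_74 : Tr.all CE_1 L_74 = true := by decide +kernel
theorem re_6_32 : Tr.all Rf_6 L_32 = true := by decide +kernel
theorem tr_13 : Tr.all (transQ mt sd PT DT q0) L_13 = true := by decide +kernel
theorem tr_31 : Tr.all (transQ mt sd PT DT q0) L_31 = true := by decide +kernel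
theorem bs_13 : bst L_13 5500000 (2 * 5500000) = true := by decide +kernel
theorem bs_31 : bst L_31 5500000 (2 * 5500000) = true := by decide +kernel
theorem sz_6 : size L_6 = 4096 := by decide +kernel
theorem pr_35 : prodT L_35 = MM_35 := by decide +kernel
theorem sz_63 : size L_63 = 4096 := by decide +kernel
end CfsgLib.TCFi24
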