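import Cfsg.Agent.EqBase
import Cfsg.Agent.LibTCFi24D
set_option autoImplicit false
set_option linter.all false
set_option maxRecDepth 1000000
set_option maxHeartbeats 0
namespace CfsgLib.TCFi24
open CfsgLib.TC Cfsg.Spor CfsgLib.TCG_Fi24
theorem re_3_52 : Tr.all Rf_3 L_52 = true := by decide +kernel
theorem re_0_35 : Tr.all Rf_0 L_35 = true := by decide +kernel
theorem re_2_0 : Tr.all Rf_2 L_0 = true := by decide +kernel
theorem re_1_8 : Tr.all Rf_1 L_8 = true := by decide +kernel
theorem re_1_27 : Tr.all Rf_1 L_27 = true := by decide +kernel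
theorem re_1_46 : Tr.all Rf_1 L_46 = true := by decide +kernel
theorem re_1_65 : Tr.all Rf_1 L_65 = true := by decide +kernel
theorem ce_0_54 : Tr.all CE_0 L_54 = true := by decide +kernel
theorem re_5_37 : Tr.all Rf_5 L_37 = true := by decide +kernel
theorem ce_1_20 : Tr.all CE_1 L_20 = true := by decide +kernel
theorem ce_2_0 : Tr.all CE_2 L_0 = true := by decide +kernel
theorem ce_2_27 : Tr.all CE_2 L_27 = true := by decide +kernel
theorem ce_2_54 : Tr.all CE_2 L_54 = true := by decide +kernel
theorem re_6_43 : Tr.all Rf_6 L_43 = true := by decide +kernel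
theorem tr_55 : Tr.all (transQ mt sd PT DT q0) L_55 = true := by decide +kernel
theorem bs_56 : bst L_56 5500000 (2 * 5500000) = true := by decide +kernel
theorem sz_19 : size L_19 = 4096 := by decide +kernel
theorem pr_48 : prodT L_48 = MM_48 := by decide +kernel
theorem gc_12 : Nat.gcd MM_12 (prodTo 3317) = 1 := by decide +kernel
theorem gc_20 : Nat.gcd MM_20 (prodTo 3317) = 1 := by decide +kernel
theorem gc_41 : Nat.gcd MM_41 (prodTo 3317) = 1 := by decide +kernel
theorem gc_62 : Nat.gcd MM_62 (prodTo 3317) = 1 := by decide +kernel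
end CfsgLib.TCFi24
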