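import Cfsg.Agent.EqBase
import Cfsg.Agent.LibTCFi24D
set_option autoImplicit false
set_option linter.all false
set_option maxRecDepth 1000000
set_option maxHeartbeats 0
namespace CfsgLib.TCFi24
open CfsgLib.TC Cfsg.Spor CfsgLib.TCG_Fi24
theorem re_3_53 : Tr.all Rf_3 L_53 = true := by decide +kernel
theorem re_0_36 : Tr.all Rf_0 L_36 = true := by decide +kernel
theorem re_4_0 : Tr.all Rf_4 L_0 = true := by decide +kernel
theorem re_2_8 : Tr.all Rf_2 L_8 = true := by decide +kernel
theorem re_2_27 : Tr.all Rf_2 L_27 = true := by decide +kernel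
theorem re_2_46 : Tr.all Rf_2 L_46 = true := by decide +kernel
theorem re_2_65 : Tr.all Rf_2 L_65 = true := by decide +kernel
theorem ce_0_55 : Tr.all CE_0 L_55 = true := by decide +kernel
theorem re_5_38 : Tr.all Rf_5 L_38 = true := by decide +kernel
theorem ce_1_21 : Tr.all CE_1 L_21 = true := by decide +kernel
theorem ce_2_1 : Tr.all CE_2 L_1 = true := by decide +kernel
theorem ce_2_28 : Tr.all CE_2 L_28 = true := by decide +kernel
theorem ce_2_55 : Tr.all CE_2 L_55 = true := by decide +kernel
theorem re_6_44 : Tr.all Rf_6 L_44 = true := by decide +kernel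
theorem tr_56 : Tr.all (transQ mt sd PT DT q0) L_56 = true := by decide +kernel
theorem bs_57 : bst L_57 5500000 (2 * 5500000) = true := by decide +kernel
theorem pr_20 : prodT L_20 = MM_20 := by decide +kernel
theorem sz_48 : size L_48 = 4096 := by decide +kernel
theorem gc_13 : Nat.gcd MM_13 (prodTo 3317) = 1 := by decide +kernel
theorem gc_21 : Nat.gcd MM_21 (prodTo 3317) = 1 := by decide +kernel
theorem gc_42 : Nat.gcd MM_42 (prodTo 3317) = 1 := by decide +kernel
theorem gc_63 : Nat.gcd MM_63 (prodTo 3317) = 1 := by decide +kernel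
end CfsgLib.TCFi24
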