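import Cfsg.Agent.EqBase
import Cfsg.Agent.LibTCFi24D
set_option autoImplicit false
set_option linter.all false
set_option maxRecDepth 1000000
set_option maxHeartbeats 0
namespace CfsgLib.TCFi24
open CfsgLib.TC Cfsg.Spor CfsgLib.TCG_Fi24
theorem re_3_54 : Tr.all Rf_3 L_54 = true := by decide +kernel
theorem re_0_37 : Tr.all Rf_0 L_37 = true := by decide +kernel
theorem re_1_1 : Tr.all Rf_1 L_1 = true := by decide +kernel
theorem re_4_8 : Tr.all Rf_4 L_8 = true := by decide +kernel
theorem re_4_27 : Tr.all Rf_4 L_27 = true := by decide +kernel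
theorem re_4_46 : Tr.all Rf_4 L_46 = true := by decide +kernel
theorem re_4_65 : Tr.all Rf_4 L_65 = true := by decide +kernel
theorem ce_0_56 : Tr.all CE_0 L_56 = true := by decide +kernel
theorem re_5_39 : Tr.all Rf_5 L_39 = true := by decide +kernel
theorem ce_1_22 : Tr.all CE_1 L_22 = true := by decide +kernel
theorem ce_2_2 : Tr.all CE_2 L_2 = true := by decide +kernel
theorem ce_2_29 : Tr.all CE_2 L_29 = true := by decide +kernel
theorem ce_2_56 : Tr.all CE_2 L_56 = true := by decide +kernel
theorem re_6_45 : Tr.all Rf_6 L_45 = true := by decide +kernel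
theorem tr_57 : Tr.all (transQ mt sd PT DT q0) L_57 = true := by decide +kernel
theorem bs_58 : bst L_58 5500000 (2 * 5500000) = true := by decide +kernel
theorem sz_20 : size L_20 = 4096 := by decide +kernel
theorem pr_49 : prodT L_49 = MM_49 := by decide +kernel
theorem gc_14 : Nat.gcd MM_14 (prodTo 3317) = 1 := by decide +kernel
theorem gc_22 : Nat.gcd MM_22 (prodTo 3317) = 1 := by decide +kernel
theorem gc_43 : Nat.gcd MM_43 (prodTo 3317) = 1 := by decide +kernel
theorem gc_64 : Nat.gcd MM_64 (prodTo 3317) = 1 := by decide +kernel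
end CfsgLib.TCFi24
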