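import Cfsg.Agent.EqBase
import Cfsg.Agent.LibTCFi24D
set_option autoImplicit false
set_option linter.all false
set_option maxRecDepth 1000000
set_option maxHeartbeats 0
namespace CfsgLib.TCFi24
open CfsgLib.TC Cfsg.Spor CfsgLib.TCG_Fi24
theorem re_3_55 : Tr.all Rf_3 L_55 = true := by decide +kernel
theorem re_0_38 : Tr.all Rf_0 L_38 = true := by decide +kernel
theorem re_2_1 : Tr.all Rf_2 L_1 = true := by decide +kernel
theorem re_1_9 : Tr.all Rf_1 L_9 = true := by decide +kernel
theorem re_1_28 : Tr.all Rf_1 L_28 = true := by decide +kernel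
theorem re_1_47 : Tr.all Rf_1 L_47 = true := by decide +kernel
theorem re_1_66 : Tr.all Rf_1 L_66 = true := by decide +kernel
theorem ce_0_57 : Tr.all CE_0 L_57 = true := by decide +kernel
theorem re_5_40 : Tr.all Rf_5 L_40 = true := by decide +kernel
theorem ce_1_23 : Tr.all CE_1 L_23 = true := by decide +kernel
theorem ce_2_3 : Tr.all CE_2 L_3 = true := by decide +kernel
theorem ce_2_30 : Tr.all CE_2 L_30 = true := by decide +kernel
theorem ce_2_57 : Tr.all CE_2 L_57 = true := by decide +kernel
theorem re_6_46 : Tr.all Rf_6 L_46 = true := by decide +kernel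
theorem tr_58 : Tr.all (transQ mt sd PT DT q0) L_58 = true := by decide +kernel
theorem bs_59 : bst L_59 5500000 (2 * 5500000) = true := by decide +kernel
theorem pr_21 : prodT L_21 = MM_21 := by decide +kernel
theorem sz_49 : size L_49 = 4096 := by decide +kernel
theorem gc_15 : Nat.gcd MM_15 (prodTo 3317) = 1 := by decide +kernel
theorem gc_23 : Nat.gcd MM_23 (prodTo 3317) = 1 := by decide +kernel
theorem gc_44 : Nat.gcd MM_44 (prodTo 3317) = 1 := by decide +kernel
theorem gc_65 : Nat.gcd MM_65 (prodTo 3317) = 1 := by decide +kernel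
end CfsgLib.TCFi24
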