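import Cfsg.Agent.EqBase
import Cfsg.Agent.LibTCFi24D
set_option autoImplicit false
set_option linter.all false
set_option maxRecDepth 1000000
set_option maxHeartbeats 0
namespace CfsgLib.TCFi24
open CfsgLib.TC Cfsg.Spor CfsgLib.TCG_Fi24
theorem re_3_56 : Tr.all Rf_3 L_56 = true := by decide +kernel
theorem re_0_39 : Tr.all Rf_0 L_39 = true := by decide +kernel
theorem re_4_1 : Tr.all Rf_4 L_1 = true := by decide +kernel
theorem re_2_9 : Tr.all Rf_2 L_9 = true := by decide +kernel
theorem re_2_28 : Tr.all Rf_2 L_28 = true := by decide +kernel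
theorem re_2_47 : Tr.all Rf_2 L_47 = true := by decide +kernel
theorem re_2_66 : Tr.all Rf_2 L_66 = true := by decide +kernel
theorem ce_0_58 : Tr.all CE_0 L_58 = true := by decide +kernel
theorem re_5_41 : Tr.all Rf_5 L_41 = true := by decide +kernel
theorem ce_1_24 : Tr.all CE_1 L_24 = true := by decide +kernel
theorem ce_2_4 : Tr.all CE_2 L_4 = true := by decide +kernel
theorem ce_2_31 : Tr.all CE_2 L_31 = true := by decide +kernel
theorem ce_2_58 : Tr.all CE_2 L_58 = true := by decide +kernel
theorem re_6_47 : Tr.all Rf_6 L_47 = true := by decide +kernel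
theorem tr_59 : Tr.all (transQ mt sd PT DT q0) L_59 = true := by decide +kernel
theorem bs_60 : bst L_60 5500000 (2 * 5500000) = true := by decide +kernel
theorem sz_21 : size L_21 = 4096 := by decide +kernel
theorem pr_50 : prodT L_50 = MM_50 := by decide +kernel
theorem gc_16 : Nat.gcd MM_16 (prodTo 3317) = 1 := by decide +kernel
theorem gc_24 : Nat.gcd MM_24 (prodTo 3317) = 1 := by decide +kernel
theorem gc_45 : Nat.gcd MM_45 (prodTo 3317) = 1 := by decide +kernel
theorem gc_66 : Nat.gcd MM_66 (prodTo 3317) = 1 := by decide +kernel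
end CfsgLib.TCFi24
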