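import Cfsg.Agent.EqBase
import Cfsg.Agent.LibTCFi24D
set_option autoImplicit false
set_option linter.all false
set_option maxRecDepth 1000000
set_option maxHeartbeats 0
namespace CfsgLib.TCFi24
open CfsgLib.TC Cfsg.Spor CfsgLib.TCG_Fi24
theorem re_3_6 : Tr.all Rf_3 L_6 = true := by decide +kernel
theorem re_3_63 : Tr.all Rf_3 L_63 = true := by decide +kernel
theorem re_1_4 : Tr.all Rf_1 L_4 = true := by decide +kernel
theorem re_4_11 : Tr.all Rf_4 L_11 = true := by decide +kernel
theorem re_4_30 : Tr.all Rf_4 L_30 = true := by decide +kernel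
theorem re_4_49 : Tr.all Rf_4 L_49 = true := by decide +kernel
theorem re_4_68 : Tr.all Rf_4 L_68 = true := by decide +kernel
theorem ce_0_65 : Tr.all CE_0 L_65 = true := by decide +kernel
theorem re_5_55 : Tr.all Rf_5 L_55 = true := by decide +kernel
theorem ce_1_38 : Tr.all CE_1 L_38 = true := by decide +kernel
theorem ce_2_18 : Tr.all CE_2 L_18 = true := by decide +kernel
theorem ce_2_45 : Tr.all CE_2 L_45 = true := by decide +kernel
theorem re_6_12 : Tr.all Rf_6 L_12 = true := by decide +kernel
theorem re_6_54 : Tr.all Rf_6 L_54 = true := by decide +kernel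
theorem tr_66 : Tr.all (transQ mt sd PT DT q0) L_66 = true := by decide +kernel
theorem bs_67 : bst L_67 5500000 (2 * 5500000) = true := by decide +kernel
theorem pr_25 : prodT L_25 = MM_25 := by decide +kernel
theorem sz_53 : size L_53 = 4096 := by decide +kernel
theorem gc_31 : Nat.gcd MM_31 (prodTo 3317) = 1 := by decide +kernel
theorem gc_52 : Nat.gcd MM_52 (prodTo 3317) = 1 := by decide +kernel
theorem gc_73 : Nat.gcd MM_73 (prodTo 3317) = 1 := by decide +kernel
end CfsgLib.TCFi24
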