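import Cfsg.Agent.EqBase
import Cfsg.Agent.LibTCFi24D
set_option autoImplicit false
set_option linter.all false
set_option maxRecDepth 1000000
set_option maxHeartbeats 0
namespace CfsgLib.TCFi24
open CfsgLib.TC Cfsg.Spor CfsgLib.TCG_Fi24
theorem re_3_7 : Tr.all Rf_3 L_7 = true := by decide +kernel
theorem re_3_64 : Tr.all Rf_3 L_64 = true := by decide +kernel
theorem re_2_4 : Tr.all Rf_2 L_4 = true := by decide +kernel
theorem re_1_12 : Tr.all Rf_1 L_12 = true := by decide +kernel
theorem re_1_31 : Tr.all Rf_1 L_31 = true := by decide +kernel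
theorem re_1_50 : Tr.all Rf_1 L_50 = true := by decide +kernel
theorem re_1_69 : Tr.all Rf_1 L_69 = true := by decide +kernel
theorem ce_0_66 : Tr.all CE_0 L_66 = true := by decide +kernel
theorem re_5_56 : Tr.all Rf_5 L_56 = true := by decide +kernel
theorem ce_1_39 : Tr.all CE_1 L_39 = true := by decide +kernel
theorem ce_2_19 : Tr.all CE_2 L_19 = true := by decide +kernel
theorem ce_2_46 : Tr.all CE_2 L_46 = true := by decide +kernel
theorem re_6_13 : Tr.all Rf_6 L_13 = true := by decide +kernel
theorem re_6_55 : Tr.all Rf_6 L_55 = true := by decide +kernel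
theorem tr_67 : Tr.all (transQ mt sd PT DT q0) L_67 = true := by decide +kernel
theorem bs_68 : bst L_68 5500000 (2 * 5500000) = true := by decide +kernel
theorem sz_25 : size L_25 = 4096 := by decide +kernel
theorem pr_54 : prodT L_54 = MM_54 := by decide +kernel
theorem gc_32 : Nat.gcd MM_32 (prodTo 3317) = 1 := by decide +kernel
theorem gc_53 : Nat.gcd MM_53 (prodTo 3317) = 1 := by decide +kernel
theorem gc_74 : Nat.gcd MM_74 (prodTo 3317) = 1 := by decide +kernel
end CfsgLib.TCFi24
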