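import Cfsg.Agent.EqBase
import Cfsg.Agent.LibTCFi24D
set_option autoImplicit false
set_option linter.all false
set_option maxRecDepth 1000000
set_option maxHeartbeats 0
namespace CfsgLib.TCFi24
open CfsgLib.TC Cfsg.Spor CfsgLib.TCG_Fi24
theorem re_3_8 : Tr.all Rf_3 L_8 = true := by decide +kernel
theorem re_3_65 : Tr.all Rf_3 L_65 = true := by decide +kernel
theorem re_4_4 : Tr.all Rf_4 L_4 = true := by decide +kernel
theorem re_2_12 : Tr.all Rf_2 L_12 = true := by decide +kernel
theorem re_2_31 : Tr.all Rf_2 L_31 = true := by decide +kernel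
theorem re_2_50 : Tr.all Rf_2 L_50 = true := by decide +kernel
theorem re_2_69 : Tr.all Rf_2 L_69 = true := by decide +kernel
theorem ce_0_67 : Tr.all CE_0 L_67 = true := by decide +kernel
theorem re_5_57 : Tr.all Rf_5 L_57 = true := by decide +kernel
theorem ce_1_40 : Tr.all CE_1 L_40 = true := by decide +kernel
theorem ce_2_20 : Tr.all CE_2 L_20 = true := by decide +kernel
theorem ce_2_47 : Tr.all CE_2 L_47 = true := by decide +kernel
theorem re_6_14 : Tr.all Rf_6 L_14 = true := by decide +kernel
theorem re_6_56 : Tr.all Rf_6 L_56 = true := by decide +kernel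
theorem tr_68 : Tr.all (transQ mt sd PT DT q0) L_68 = true := by decide +kernel
theorem bs_69 : bst L_69 5500000 (2 * 5500000) = true := by decide +kernel
theorem pr_26 : prodT L_26 = MM_26 := by decide +kernel
theorem sz_54 : size L_54 = 4096 := by decide +kernel
theorem gc_33 : Nat.gcd MM_33 (prodTo 3317) = 1 := by decide +kernel
theorem gc_54 : Nat.gcd MM_54 (prodTo 3317) = 1 := by decide +kernel
end CfsgLib.TCFi24
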