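import Cfsg.Agent.EqBase
import Cfsg.Agent.LibTCFi24D
set_option autoImplicit false
set_option linter.all false
set_option maxRecDepth 1000000
set_option maxHeartbeats 0
namespace CfsgLib.TCFi24
open CfsgLib.TC Cfsg.Spor CfsgLib.TCG_Fi24
theorem re_3_9 : Tr.all Rf_3 L_9 = true := by decide +kernel
theorem re_3_66 : Tr.all Rf_3 L_66 = true := by decide +kernel
theorem re_1_5 : Tr.all Rf_1 L_5 = true := by decide +kernel
theorem re_4_12 : Tr.all Rf_4 L_12 = true := by decide +kernel
theorem re_4_31 : Tr.all Rf_4 L_31 = true := by decide +kernel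
theorem re_4_50 : Tr.all Rf_4 L_50 = true := by decide +kernel
theorem re_4_69 : Tr.all Rf_4 L_69 = true := by decide +kernel
theorem ce_0_68 : Tr.all CE_0 L_68 = true := by decide +kernel
theorem re_5_58 : Tr.all Rf_5 L_58 = true := by decide +kernel
theorem ce_1_41 : Tr.all CE_1 L_41 = true := by decide +kernel
theorem ce_2_21 : Tr.all CE_2 L_21 = true := by decide +kernel
theorem ce_2_48 : Tr.all CE_2 L_48 = true := by decide +kernel
theorem re_6_15 : Tr.all Rf_6 L_15 = true := by decide +kernel
theorem re_6_57 : Tr.all Rf_6 L_57 = true := by decide +kernel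
theorem tr_69 : Tr.all (transQ mt sd PT DT q0) L_69 = true := by decide +kernel
theorem bs_70 : bst L_70 5500000 (2 * 5500000) = true := by decide +kernel
theorem sz_26 : size L_26 = 4096 := by decide +kernel
theorem pr_55 : prodT L_55 = MM_55 := by decide +kernel
theorem gc_34 : Nat.gcd MM_34 (prodTo 3317) = 1 := by decide +kernel
theorem gc_55 : Nat.gcd MM_55 (prodTo 3317) = 1 := by decide +kernel
end CfsgLib.TCFi24
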