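import Cfsg.Agent.EqBase
import Cfsg.Agent.LibTC5
set_option autoImplicit false
set_option linter.all false

namespace CfsgLib.TC

section
variable {C : Type} {L : Tr ℕ} {stp : C → ℕ → ℕ} {inv : C → C}

/-- `w ^ n` followed by `v` -/
def repw (n : ℕ) (w v : List C) : List C := Nat.rec (motive := fun _ => List C) v (fun _ ih => w ++ ih) n

theorem walk_repw (hc : Closed L stp inv) {w : List C} {W : ℕ → ℕ} (hW : ∀ q ∈ L.toList, walk stp w q = W q) (v : List C) :
    ∀ n q, q ∈ L.toList → walk stp (repw n w v) q = walk stp v (W^[n] q) := by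
  intro n
  induction n with
  | zero => intro q hq; rfl
  | succ n ih =>
    intro q hq
    show walk stp (w ++ repw n w v) q = _
    rw [walk_append, hW q hq, ih _ (by rw [← hW q hq]; exact hc.walk_mem w hq)]
    rfl

end
end CfsgLib.TC
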