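import Cfsg.Agent.EqBase
import Cfsg.Agent.LibTCTab
import Cfsg.Agent.LibTCFi24X0
import Cfsg.Agent.LibTCFi24X1
import Cfsg.Agent.LibTCFi24X2
import Cfsg.Agent.LibTCFi24X3
import Cfsg.Agent.LibTCFi24X4
import Cfsg.Agent.LibTCFi24X5
import Cfsg.Agent.LibTCFi24X6
import Cfsg.Agent.LibTCFi24X7
import Cfsg.Agent.LibTCFi24X8
import Cfsg.Agent.LibTCFi24X9
import Cfsg.Agent.LibTCFi24X10
import Cfsg.Agent.LibTCFi24X11
import Cfsg.Agent.LibTCFi24X12
import Cfsg.Agent.LibTCFi24X13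
import Cfsg.Agent.LibTCFi24X14
import Cfsg.Agent.LibTCFi24X15
import Cfsg.Agent.LibTCFi24X16
import Cfsg.Agent.LibTCFi24X17
import Cfsg.Agent.LibTCFi24X18
import Cfsg.Agent.LibTCFi24X19
import Cfsg.Agent.LibTCFi24X20
import Cfsg.Agent.LibTCFi24X21
import Cfsg.Agent.LibTCFi24X22
import Cfsg.Agent.LibTCFi24X23
import Cfsg.Agent.LibTCFi24X24
import Cfsg.Agent.LibTCFi24X25
import Cfsg.Agent.LibTCFi24X26
import Cfsg.Agent.LibTCFi24X27
import Cfsg.Agent.LibTCFi24X28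
import Cfsg.Agent.LibTCFi24X29
import Cfsg.Agent.LibTCFi24X30
import Cfsg.Agent.LibTCFi24X31
import Cfsg.Agent.LibTCFi24X32
import Cfsg.Agent.LibTCFi24X33
import Cfsg.Agent.LibTCFi24X34
import Cfsg.Agent.LibTCFi24X35
import Cfsg.Agent.LibTCFi24X36
import Cfsg.Agent.LibTCFi24X37
import Cfsg.Agent.LibTCFi24X38
import Cfsg.Agent.LibTCFi24X39
import Cfsg.Agent.LibTCFi24X40
import Cfsg.Agent.LibTCFi24X41
import Cfsg.Agent.LibTCFi24X42
import Cfsg.Agent.LibTCFi24X43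
import Cfsg.Agent.LibTCFi24X44
import Cfsg.Agent.LibTCFi24X45
import Cfsg.Agent.LibTCFi24X46
import Cfsg.Agent.LibTCFi24X47
import Cfsg.Agent.LibTCFi24X48
import Cfsg.Agent.LibTCFi24X49
import Cfsg.Agent.LibTCFi24X50
import Cfsg.Agent.LibTCFi24X51
import Cfsg.Agent.LibTCFi24X52
import Cfsg.Agent.LibTCFi24X53
import Cfsg.Agent.LibTCFi24X54
import Cfsg.Agent.LibTCFi24X55
import Cfsg.Agent.LibTCFi24X56
import Cfsg.Agent.LibTCFi24Ms
set_option autoImplicit false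
set_option linter.all false
set_option maxRecDepth 1000000
set_option maxHeartbeats 0
namespace CfsgLib.TCFi24
open CfsgLib.TC Cfsg.Spor CfsgLib.TCG_Fi24
theorem size_nd {k : ℕ} {l r : Tr ℕ} {a b : ℕ} (hl : size l = a) (hr : size r = b) : size (Tr.nd k l r) = a + b := by rw [← hl, ← hr]; rfl
theorem bst_nd {k lo hi : ℕ} {l r : Tr ℕ} (hl : bst l lo k = true) (hr : bst r k hi = true) : bst (Tr.nd k l r) lo hi = true := by
  have : bst (Tr.nd k l r) lo hi = band (bst l lo k) (bst r k hi) := rfl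
  rw [this, band_iff]; exact ⟨hl, hr⟩
theorem bst_chk : bst L 5500000 (2 * 5500000) = true := by decide +kernel
theorem size_L : size L = 306936 := (size_nd (size_nd (size_nd (size_nd (size_nd (size_nd sz_0 sz_1) (size_nd sz_2 sz_3)) (size_nd (size_nd sz_4 sz_5) (size_nd sz_6 (size_nd sz_7 sz_8)))) (size_nd (size_nd (size_nd sz_9 sz_10) (size_nd sz_11 sz_12)) (size_nd (size_nd sz_13 sz_14) (size_nd sz_15 (size_nd sz_16 sz_17))))) (size_nd (size_nd (size_nd (size_nd sz_18 sz_19) (size_nd sz_20 sz_21)) (size_nd (size_nd sz_22 sz_23) (size_nd sz_24 (size_nd sz_25 sz_26)))) (size_nd (size_nd (size_nd sz_27 sz_28) (size_nd sz_29 (size_nd sz_30 sz_31))) (size_nd (size_nd sz_32 sz_33) (size_nd sz_34 (size_nd sz_35 sz_36)))))) (size_nd (size_nd (size_nd (size_nd (size_nd sz_37 sz_38) (size_nd sz_39 sz_40)) (size_nd (size_nd sz_41 sz_42) (size_nd sz_43 (size_nd sz_44 sz_45)))) (size_nd (size_nd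 (size_nd sz_46 sz_47) (size_nd sz_48 (size_nd sz_49 sz_50))) (size_nd (size_nd sz_51 sz_52) (size_nd sz_53 (size_nd sz_54 sz_55))))) (size_nd (size_nd (size_nd (size_nd sz_56 sz_57) (size_nd sz_58 sz_59)) (size_nd (size_nd sz_60 sz_61) (size_nd sz_62 (size_nd sz_63 sz_64)))) (size_nd (size_nd (size_nd sz_65 sz_66) (size_nd sz_67 (size_nd sz_68 sz_69))) (size_nd (size_nd sz_70 sz_71) (size_nd sz_72 (size_nd sz_73 sz_74)))))))
theorem q0_mem : q0 ∈ L.toList := mem_sound (by decide +kernel)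
theorem ce_0 : Tr.all CE_0 L = true := (Tr.all_nd (Tr.all_nd (Tr.all_nd (Tr.all_nd (Tr.all_nd (Tr.all_nd ce_0_0 ce_0_1) (Tr.all_nd ce_0_2 ce_0_3)) (Tr.all_nd (Tr.all_nd ce_0_4 ce_0_5) (Tr.all_nd ce_0_6 (Tr.all_nd ce_0_7 ce_0_8)))) (Tr.all_nd (Tr.all_nd (Tr.all_nd ce_0_9 ce_0_10) (Tr.all_nd ce_0_11 ce_0_12)) (Tr.all_nd (Tr.all_nd ce_0_13 ce_0_14) (Tr.all_nd ce_0_15 (Tr.all_nd ce_0_16 ce_0_17))))) (Tr.all_nd (Tr.all_nd (Tr.all_nd (Tr.all_nd ce_0_18 ce_0_19) (Tr.all_nd ce_0_20 ce_0_21)) (Tr.all_nd (Tr.all_nd ce_0_22 ce_0_23) (Tr.all_nd ce_0_24 (Tr.all_nd ce_0_25 ce_0_26)))) (Tr.all_nd (Tr.all_nd (Tr.all_nd ce_0_27 ce_0_28) (Tr.all_nd ce_0_29 (Tr.all_nd ce_0_30 ce_0_31))) (Tr.all_nd (Tr.all_nd ce_0_32 ce_0_33) (Tr.all_nd ce_0_34 (Tr.all_nd ce_0_35 ce_0_36)))))) (Tr.all_nd (Tr.all_nd (Tr.all_nd (Tr.all_nd (Tr.all_nd ce_0_37 ce_0_38) (Tr.all_nd ce_0_39 ce_0_40)) (Tr.all_nd (Tr.all_nd ce_0_41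 ce_0_42) (Tr.all_nd ce_0_43 (Tr.all_nd ce_0_44 ce_0_45)))) (Tr.all_nd (Tr.all_nd (Tr.all_nd ce_0_46 ce_0_47) (Tr.all_nd ce_0_48 (Tr.all_nd ce_0_49 ce_0_50))) (Tr.all_nd (Tr.all_nd ce_0_51 ce_0_52) (Tr.all_nd ce_0_53 (Tr.all_nd ce_0_54 ce_0_55))))) (Tr.all_nd (Tr.all_nd (Tr.all_nd (Tr.all_nd ce_0_56 ce_0_57) (Tr.all_nd ce_0_58 ce_0_59)) (Tr.all_nd (Tr.all_nd ce_0_60 ce_0_61) (Tr.all_nd ce_0_62 (Tr.all_nd ce_0_63 ce_0_64)))) (Tr.all_nd (Tr.all_nd (Tr.all_nd ce_0_65 ce_0_66) (Tr.all_nd ce_0_67 (Tr.all_nd ce_0_68 ce_0_69))) (Tr.all_nd (Tr.all_nd ce_0_70 ce_0_71) (Tr.all_nd ce_0_72 (Tr.all_nd ce_0_73 ce_0_74)))))))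
theorem ce_1 : Tr.all CE_1 L = true := (Tr.all_nd (Tr.all_nd (Tr.all_nd (Tr.all_nd (Tr.all_nd (Tr.all_nd ce_1_0 ce_1_1) (Tr.all_nd ce_1_2 ce_1_3)) (Tr.all_nd (Tr.all_nd ce_1_4 ce_1_5) (Tr.all_nd ce_1_6 (Tr.all_nd ce_1_7 ce_1_8)))) (Tr.all_nd (Tr.all_nd (Tr.all_nd ce_1_9 ce_1_10) (Tr.all_nd ce_1_11 ce_1_12)) (Tr.all_nd (Tr.all_nd ce_1_13 ce_1_14) (Tr.all_nd ce_1_15 (Tr.all_nd ce_1_16 ce_1_17))))) (Tr.all_nd (Tr.all_nd (Tr.all_nd (Tr.all_nd ce_1_18 ce_1_19) (Tr.all_nd ce_1_20 ce_1_21)) (Tr.all_nd (Tr.all_nd ce_1_22 ce_1_23) (Tr.all_nd ce_1_24 (Tr.all_nd ce_1_25 ce_1_26)))) (Tr.all_nd (Tr.all_nd (Tr.all_nd ce_1_27 ce_1_28) (Tr.all_nd ce_1_29 (Tr.all_nd ce_1_30 ce_1_31))) (Tr.all_nd (Tr.all_nd ce_1_32 ce_1_33) (Tr.all_nd ce_1_34 (Tr.all_nd ce_1_35 ce_1_36)))))) (Tr.all_nd (Tr.all_nd (Tr.all_nd (Tr.all_nd (Tr.all_nd ce_1_37 ce_1_38) (Tr.all_nd ce_1_39 ce_1_40)) (Tr.all_nd (Tr.all_nd ce_1_41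 ce_1_42) (Tr.all_nd ce_1_43 (Tr.all_nd ce_1_44 ce_1_45)))) (Tr.all_nd (Tr.all_nd (Tr.all_nd ce_1_46 ce_1_47) (Tr.all_nd ce_1_48 (Tr.all_nd ce_1_49 ce_1_50))) (Tr.all_nd (Tr.all_nd ce_1_51 ce_1_52) (Tr.all_nd ce_1_53 (Tr.all_nd ce_1_54 ce_1_55))))) (Tr.all_nd (Tr.all_nd (Tr.all_nd (Tr.all_nd ce_1_56 ce_1_57) (Tr.all_nd ce_1_58 ce_1_59)) (Tr.all_nd (Tr.all_nd ce_1_60 ce_1_61) (Tr.all_nd ce_1_62 (Tr.all_nd ce_1_63 ce_1_64)))) (Tr.all_nd (Tr.all_nd (Tr.all_nd ce_1_65 ce_1_66) (Tr.all_nd ce_1_67 (Tr.all_nd ce_1_68 ce_1_69))) (Tr.all_nd (Tr.all_nd ce_1_70 ce_1_71) (Tr.all_nd ce_1_72 (Tr.all_nd ce_1_73 ce_1_74)))))))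
theorem ce_2 : Tr.all CE_2 L = true := (Tr.all_nd (Tr.all_nd (Tr.all_nd (Tr.all_nd (Tr.all_nd (Tr.all_nd ce_2_0 ce_2_1) (Tr.all_nd ce_2_2 ce_2_3)) (Tr.all_nd (Tr.all_nd ce_2_4 ce_2_5) (Tr.all_nd ce_2_6 (Tr.all_nd ce_2_7 ce_2_8)))) (Tr.all_nd (Tr.all_nd (Tr.all_nd ce_2_9 ce_2_10) (Tr.all_nd ce_2_11 ce_2_12)) (Tr.all_nd (Tr.all_nd ce_2_13 ce_2_14) (Tr.all_nd ce_2_15 (Tr.all_nd ce_2_16 ce_2_17))))) (Tr.all_nd (Tr.all_nd (Tr.all_nd (Tr.all_nd ce_2_18 ce_2_19) (Tr.all_nd ce_2_20 ce_2_21)) (Tr.all_nd (Tr.all_nd ce_2_22 ce_2_23) (Tr.all_nd ce_2_24 (Tr.all_nd ce_2_25 ce_2_26)))) (Tr.all_nd (Tr.all_nd (Tr.all_nd ce_2_27 ce_2_28) (Tr.all_nd ce_2_29 (Tr.all_nd ce_2_30 ce_2_31))) (Tr.all_nd (Tr.all_nd ce_2_32 ce_2_33) (Tr.all_nd ce_2_34 (Tr.all_nd ce_2_35 ce_2_36)))))) (Tr.all_nd (Tr.all_nd (Tr.all_nd (Tr.all_nd (Tr.all_nd ce_2_37 ce_2_38) (Tr.all_nd ce_2_39 ce_2_40)) (Tr.all_nd (Tr.all_nd ce_2_41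 ce_2_42) (Tr.all_nd ce_2_43 (Tr.all_nd ce_2_44 ce_2_45)))) (Tr.all_nd (Tr.all_nd (Tr.all_nd ce_2_46 ce_2_47) (Tr.all_nd ce_2_48 (Tr.all_nd ce_2_49 ce_2_50))) (Tr.all_nd (Tr.all_nd ce_2_51 ce_2_52) (Tr.all_nd ce_2_53 (Tr.all_nd ce_2_54 ce_2_55))))) (Tr.all_nd (Tr.all_nd (Tr.all_nd (Tr.all_nd ce_2_56 ce_2_57) (Tr.all_nd ce_2_58 ce_2_59)) (Tr.all_nd (Tr.all_nd ce_2_60 ce_2_61) (Tr.all_nd ce_2_62 (Tr.all_nd ce_2_63 ce_2_64)))) (Tr.all_nd (Tr.all_nd (Tr.all_nd ce_2_65 ce_2_66) (Tr.all_nd ce_2_67 (Tr.all_nd ce_2_68 ce_2_69))) (Tr.all_nd (Tr.all_nd ce_2_70 ce_2_71) (Tr.all_nd ce_2_72 (Tr.all_nd ce_2_73 ce_2_74)))))))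
theorem tr : Tr.all (transQ mt sd PT DT q0) L = true := (Tr.all_nd (Tr.all_nd (Tr.all_nd (Tr.all_nd (Tr.all_nd (Tr.all_nd tr_0 tr_1) (Tr.all_nd tr_2 tr_3)) (Tr.all_nd (Tr.all_nd tr_4 tr_5) (Tr.all_nd tr_6 (Tr.all_nd tr_7 tr_8)))) (Tr.all_nd (Tr.all_nd (Tr.all_nd tr_9 tr_10) (Tr.all_nd tr_11 tr_12)) (Tr.all_nd (Tr.all_nd tr_13 tr_14) (Tr.all_nd tr_15 (Tr.all_nd tr_16 tr_17))))) (Tr.all_nd (Tr.all_nd (Tr.all_nd (Tr.all_nd tr_18 tr_19) (Tr.all_nd tr_20 tr_21)) (Tr.all_nd (Tr.all_nd tr_22 tr_23) (Tr.all_nd tr_24 (Tr.all_nd tr_25 tr_26)))) (Tr.all_nd (Tr.all_nd (Tr.all_nd tr_27 tr_28) (Tr.all_nd tr_29 (Tr.all_nd tr_30 tr_31))) (Tr.all_nd (Tr.all_nd tr_32 tr_33) (Tr.all_nd tr_34 (Tr.all_nd tr_35 tr_36)))))) (Tr.all_nd (Tr.all_nd (Tr.all_nd (Tr.all_nd (Tr.all_nd tr_37 tr_38) (Tr.all_nd tr_39 tr_40)) (Tr.all_nd (Tr.all_nd tr_41 tr_42) (Tr.all_nd tr_43 (Tr.all_nd tr_44 tr_45)))) (Tr.all_nd (Tr.all_nd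 (Tr.all_nd tr_46 tr_47) (Tr.all_nd tr_48 (Tr.all_nd tr_49 tr_50))) (Tr.all_nd (Tr.all_nd tr_51 tr_52) (Tr.all_nd tr_53 (Tr.all_nd tr_54 tr_55))))) (Tr.all_nd (Tr.all_nd (Tr.all_nd (Tr.all_nd tr_56 tr_57) (Tr.all_nd tr_58 tr_59)) (Tr.all_nd (Tr.all_nd tr_60 tr_61) (Tr.all_nd tr_62 (Tr.all_nd tr_63 tr_64)))) (Tr.all_nd (Tr.all_nd (Tr.all_nd tr_65 tr_66) (Tr.all_nd tr_67 (Tr.all_nd tr_68 tr_69))) (Tr.all_nd (Tr.all_nd tr_70 tr_71) (Tr.all_nd tr_72 (Tr.all_nd tr_73 tr_74)))))))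
theorem re_0 : Tr.all Rf_0 L = true := (Tr.all_nd (Tr.all_nd (Tr.all_nd (Tr.all_nd (Tr.all_nd (Tr.all_nd re_0_0 re_0_1) (Tr.all_nd re_0_2 re_0_3)) (Tr.all_nd (Tr.all_nd re_0_4 re_0_5) (Tr.all_nd re_0_6 (Tr.all_nd re_0_7 re_0_8)))) (Tr.all_nd (Tr.all_nd (Tr.all_nd re_0_9 re_0_10) (Tr.all_nd re_0_11 re_0_12)) (Tr.all_nd (Tr.all_nd re_0_13 re_0_14) (Tr.all_nd re_0_15 (Tr.all_nd re_0_16 re_0_17))))) (Tr.all_nd (Tr.all_nd (Tr.all_nd (Tr.all_nd re_0_18 re_0_19) (Tr.all_nd re_0_20 re_0_21)) (Tr.all_nd (Tr.all_nd re_0_22 re_0_23) (Tr.all_nd re_0_24 (Tr.all_nd re_0_25 re_0_26)))) (Tr.all_nd (Tr.all_nd (Tr.all_nd re_0_27 re_0_28) (Tr.all_nd re_0_29 (Tr.all_nd re_0_30 re_0_31))) (Tr.all_nd (Tr.all_nd re_0_32 re_0_33) (Tr.all_nd re_0_34 (Tr.all_nd re_0_35 re_0_36)))))) (Tr.all_nd (Tr.all_nd (Tr.all_nd (Tr.all_nd (Tr.all_nd re_0_37 re_0_38) (Tr.all_nd re_0_39 re_0_40)) (Tr.all_nd (Tr.all_nd re_0_41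 re_0_42) (Tr.all_nd re_0_43 (Tr.all_nd re_0_44 re_0_45)))) (Tr.all_nd (Tr.all_nd (Tr.all_nd re_0_46 re_0_47) (Tr.all_nd re_0_48 (Tr.all_nd re_0_49 re_0_50))) (Tr.all_nd (Tr.all_nd re_0_51 re_0_52) (Tr.all_nd re_0_53 (Tr.all_nd re_0_54 re_0_55))))) (Tr.all_nd (Tr.all_nd (Tr.all_nd (Tr.all_nd re_0_56 re_0_57) (Tr.all_nd re_0_58 re_0_59)) (Tr.all_nd (Tr.all_nd re_0_60 re_0_61) (Tr.all_nd re_0_62 (Tr.all_nd re_0_63 re_0_64)))) (Tr.all_nd (Tr.all_nd (Tr.all_nd re_0_65 re_0_66) (Tr.all_nd re_0_67 (Tr.all_nd re_0_68 re_0_69))) (Tr.all_nd (Tr.all_nd re_0_70 re_0_71) (Tr.all_nd re_0_72 (Tr.all_nd re_0_73 re_0_74)))))))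
theorem re_1 : Tr.all Rf_1 L = true := (Tr.all_nd (Tr.all_nd (Tr.all_nd (Tr.all_nd (Tr.all_nd (Tr.all_nd re_1_0 re_1_1) (Tr.all_nd re_1_2 re_1_3)) (Tr.all_nd (Tr.all_nd re_1_4 re_1_5) (Tr.all_nd re_1_6 (Tr.all_nd re_1_7 re_1_8)))) (Tr.all_nd (Tr.all_nd (Tr.all_nd re_1_9 re_1_10) (Tr.all_nd re_1_11 re_1_12)) (Tr.all_nd (Tr.all_nd re_1_13 re_1_14) (Tr.all_nd re_1_15 (Tr.all_nd re_1_16 re_1_17))))) (Tr.all_nd (Tr.all_nd (Tr.all_nd (Tr.all_nd re_1_18 re_1_19) (Tr.all_nd re_1_20 re_1_21)) (Tr.all_nd (Tr.all_nd re_1_22 re_1_23) (Tr.all_nd re_1_24 (Tr.all_nd re_1_25 re_1_26)))) (Tr.all_nd (Tr.all_nd (Tr.all_nd re_1_27 re_1_28) (Tr.all_nd re_1_29 (Tr.all_nd re_1_30 re_1_31))) (Tr.all_nd (Tr.all_nd re_1_32 re_1_33) (Tr.all_nd re_1_34 (Tr.all_nd re_1_35 re_1_36)))))) (Tr.all_nd (Tr.all_nd (Tr.all_nd (Tr.all_nd (Tr.all_nd re_1_37 re_1_38) (Tr.all_nd re_1_39 re_1_40)) (Tr.all_nd (Tr.all_nd re_1_41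 re_1_42) (Tr.all_nd re_1_43 (Tr.all_nd re_1_44 re_1_45)))) (Tr.all_nd (Tr.all_nd (Tr.all_nd re_1_46 re_1_47) (Tr.all_nd re_1_48 (Tr.all_nd re_1_49 re_1_50))) (Tr.all_nd (Tr.all_nd re_1_51 re_1_52) (Tr.all_nd re_1_53 (Tr.all_nd re_1_54 re_1_55))))) (Tr.all_nd (Tr.all_nd (Tr.all_nd (Tr.all_nd re_1_56 re_1_57) (Tr.all_nd re_1_58 re_1_59)) (Tr.all_nd (Tr.all_nd re_1_60 re_1_61) (Tr.all_nd re_1_62 (Tr.all_nd re_1_63 re_1_64)))) (Tr.all_nd (Tr.all_nd (Tr.all_nd re_1_65 re_1_66) (Tr.all_nd re_1_67 (Tr.all_nd re_1_68 re_1_69))) (Tr.all_nd (Tr.all_nd re_1_70 re_1_71) (Tr.all_nd re_1_72 (Tr.all_nd re_1_73 re_1_74)))))))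
theorem re_2 : Tr.all Rf_2 L = true := (Tr.all_nd (Tr.all_nd (Tr.all_nd (Tr.all_nd (Tr.all_nd (Tr.all_nd re_2_0 re_2_1) (Tr.all_nd re_2_2 re_2_3)) (Tr.all_nd (Tr.all_nd re_2_4 re_2_5) (Tr.all_nd re_2_6 (Tr.all_nd re_2_7 re_2_8)))) (Tr.all_nd (Tr.all_nd (Tr.all_nd re_2_9 re_2_10) (Tr.all_nd re_2_11 re_2_12)) (Tr.all_nd (Tr.all_nd re_2_13 re_2_14) (Tr.all_nd re_2_15 (Tr.all_nd re_2_16 re_2_17))))) (Tr.all_nd (Tr.all_nd (Tr.all_nd (Tr.all_nd re_2_18 re_2_19) (Tr.all_nd re_2_20 re_2_21)) (Tr.all_nd (Tr.all_nd re_2_22 re_2_23) (Tr.all_nd re_2_24 (Tr.all_nd re_2_25 re_2_26)))) (Tr.all_nd (Tr.all_nd (Tr.all_nd re_2_27 re_2_28) (Tr.all_nd re_2_29 (Tr.all_nd re_2_30 re_2_31))) (Tr.all_nd (Tr.all_nd re_2_32 re_2_33) (Tr.all_nd re_2_34 (Tr.all_nd re_2_35 re_2_36)))))) (Tr.all_nd (Tr.all_nd (Tr.all_nd (Tr.all_nd (Tr.all_nd re_2_37 re_2_38) (Tr.all_nd re_2_39 re_2_40)) (Tr.all_nd (Tr.all_nd re_2_41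 re_2_42) (Tr.all_nd re_2_43 (Tr.all_nd re_2_44 re_2_45)))) (Tr.all_nd (Tr.all_nd (Tr.all_nd re_2_46 re_2_47) (Tr.all_nd re_2_48 (Tr.all_nd re_2_49 re_2_50))) (Tr.all_nd (Tr.all_nd re_2_51 re_2_52) (Tr.all_nd re_2_53 (Tr.all_nd re_2_54 re_2_55))))) (Tr.all_nd (Tr.all_nd (Tr.all_nd (Tr.all_nd re_2_56 re_2_57) (Tr.all_nd re_2_58 re_2_59)) (Tr.all_nd (Tr.all_nd re_2_60 re_2_61) (Tr.all_nd re_2_62 (Tr.all_nd re_2_63 re_2_64)))) (Tr.all_nd (Tr.all_nd (Tr.all_nd re_2_65 re_2_66) (Tr.all_nd re_2_67 (Tr.all_nd re_2_68 re_2_69))) (Tr.all_nd (Tr.all_nd re_2_70 re_2_71) (Tr.all_nd re_2_72 (Tr.all_nd re_2_73 re_2_74)))))))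
theorem re_3 : Tr.all Rf_3 L = true := (Tr.all_nd (Tr.all_nd (Tr.all_nd (Tr.all_nd (Tr.all_nd (Tr.all_nd re_3_0 re_3_1) (Tr.all_nd re_3_2 re_3_3)) (Tr.all_nd (Tr.all_nd re_3_4 re_3_5) (Tr.all_nd re_3_6 (Tr.all_nd re_3_7 re_3_8)))) (Tr.all_nd (Tr.all_nd (Tr.all_nd re_3_9 re_3_10) (Tr.all_nd re_3_11 re_3_12)) (Tr.all_nd (Tr.all_nd re_3_13 re_3_14) (Tr.all_nd re_3_15 (Tr.all_nd re_3_16 re_3_17))))) (Tr.all_nd (Tr.all_nd (Tr.all_nd (Tr.all_nd re_3_18 re_3_19) (Tr.all_nd re_3_20 re_3_21)) (Tr.all_nd (Tr.all_nd re_3_22 re_3_23) (Tr.all_nd re_3_24 (Tr.all_nd re_3_25 re_3_26)))) (Tr.all_nd (Tr.all_nd (Tr.all_nd re_3_27 re_3_28) (Tr.all_nd re_3_29 (Tr.all_nd re_3_30 re_3_31))) (Tr.all_nd (Tr.all_nd re_3_32 re_3_33) (Tr.all_nd re_3_34 (Tr.all_nd re_3_35 re_3_36)))))) (Tr.all_nd (Tr.all_nd (Tr.all_nd (Tr.all_nd (Tr.all_nd re_3_37 re_3_38) (Tr.all_nd re_3_39 re_3_40)) (Tr.all_nd (Tr.all_nd re_3_41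 re_3_42) (Tr.all_nd re_3_43 (Tr.all_nd re_3_44 re_3_45)))) (Tr.all_nd (Tr.all_nd (Tr.all_nd re_3_46 re_3_47) (Tr.all_nd re_3_48 (Tr.all_nd re_3_49 re_3_50))) (Tr.all_nd (Tr.all_nd re_3_51 re_3_52) (Tr.all_nd re_3_53 (Tr.all_nd re_3_54 re_3_55))))) (Tr.all_nd (Tr.all_nd (Tr.all_nd (Tr.all_nd re_3_56 re_3_57) (Tr.all_nd re_3_58 re_3_59)) (Tr.all_nd (Tr.all_nd re_3_60 re_3_61) (Tr.all_nd re_3_62 (Tr.all_nd re_3_63 re_3_64)))) (Tr.all_nd (Tr.all_nd (Tr.all_nd re_3_65 re_3_66) (Tr.all_nd re_3_67 (Tr.all_nd re_3_68 re_3_69))) (Tr.all_nd (Tr.all_nd re_3_70 re_3_71) (Tr.all_nd re_3_72 (Tr.all_nd re_3_73 re_3_74)))))))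
theorem re_4 : Tr.all Rf_4 L = true := (Tr.all_nd (Tr.all_nd (Tr.all_nd (Tr.all_nd (Tr.all_nd (Tr.all_nd re_4_0 re_4_1) (Tr.all_nd re_4_2 re_4_3)) (Tr.all_nd (Tr.all_nd re_4_4 re_4_5) (Tr.all_nd re_4_6 (Tr.all_nd re_4_7 re_4_8)))) (Tr.all_nd (Tr.all_nd (Tr.all_nd re_4_9 re_4_10) (Tr.all_nd re_4_11 re_4_12)) (Tr.all_nd (Tr.all_nd re_4_13 re_4_14) (Tr.all_nd re_4_15 (Tr.all_nd re_4_16 re_4_17))))) (Tr.all_nd (Tr.all_nd (Tr.all_nd (Tr.all_nd re_4_18 re_4_19) (Tr.all_nd re_4_20 re_4_21)) (Tr.all_nd (Tr.all_nd re_4_22 re_4_23) (Tr.all_nd re_4_24 (Tr.all_nd re_4_25 re_4_26)))) (Tr.all_nd (Tr.all_nd (Tr.all_nd re_4_27 re_4_28) (Tr.all_nd re_4_29 (Tr.all_nd re_4_30 re_4_31))) (Tr.all_nd (Tr.all_nd re_4_32 re_4_33) (Tr.all_nd re_4_34 (Tr.all_nd re_4_35 re_4_36)))))) (Tr.all_nd (Tr.all_nd (Tr.all_nd (Tr.all_nd (Tr.all_nd re_4_37 re_4_38) (Tr.all_nd re_4_39 re_4_40)) (Tr.all_nd (Tr.all_nd re_4_41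 re_4_42) (Tr.all_nd re_4_43 (Tr.all_nd re_4_44 re_4_45)))) (Tr.all_nd (Tr.all_nd (Tr.all_nd re_4_46 re_4_47) (Tr.all_nd re_4_48 (Tr.all_nd re_4_49 re_4_50))) (Tr.all_nd (Tr.all_nd re_4_51 re_4_52) (Tr.all_nd re_4_53 (Tr.all_nd re_4_54 re_4_55))))) (Tr.all_nd (Tr.all_nd (Tr.all_nd (Tr.all_nd re_4_56 re_4_57) (Tr.all_nd re_4_58 re_4_59)) (Tr.all_nd (Tr.all_nd re_4_60 re_4_61) (Tr.all_nd re_4_62 (Tr.all_nd re_4_63 re_4_64)))) (Tr.all_nd (Tr.all_nd (Tr.all_nd re_4_65 re_4_66) (Tr.all_nd re_4_67 (Tr.all_nd re_4_68 re_4_69))) (Tr.all_nd (Tr.all_nd re_4_70 re_4_71) (Tr.all_nd re_4_72 (Tr.all_nd re_4_73 re_4_74)))))))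
theorem re_5 : Tr.all Rf_5 L = true := (Tr.all_nd (Tr.all_nd (Tr.all_nd (Tr.all_nd (Tr.all_nd (Tr.all_nd re_5_0 re_5_1) (Tr.all_nd re_5_2 re_5_3)) (Tr.all_nd (Tr.all_nd re_5_4 re_5_5) (Tr.all_nd re_5_6 (Tr.all_nd re_5_7 re_5_8)))) (Tr.all_nd (Tr.all_nd (Tr.all_nd re_5_9 re_5_10) (Tr.all_nd re_5_11 re_5_12)) (Tr.all_nd (Tr.all_nd re_5_13 re_5_14) (Tr.all_nd re_5_15 (Tr.all_nd re_5_16 re_5_17))))) (Tr.all_nd (Tr.all_nd (Tr.all_nd (Tr.all_nd re_5_18 re_5_19) (Tr.all_nd re_5_20 re_5_21)) (Tr.all_nd (Tr.all_nd re_5_22 re_5_23) (Tr.all_nd re_5_24 (Tr.all_nd re_5_25 re_5_26)))) (Tr.all_nd (Tr.all_nd (Tr.all_nd re_5_27 re_5_28) (Tr.all_nd re_5_29 (Tr.all_nd re_5_30 re_5_31))) (Tr.all_nd (Tr.all_nd re_5_32 re_5_33) (Tr.all_nd re_5_34 (Tr.all_nd re_5_35 re_5_36)))))) (Tr.all_nd (Tr.all_nd (Tr.all_nd (Tr.all_nd (Tr.all_nd re_5_37 re_5_38) (Tr.all_nd re_5_39 re_5_40)) (Tr.all_nd (Tr.all_nd re_5_41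 re_5_42) (Tr.all_nd re_5_43 (Tr.all_nd re_5_44 re_5_45)))) (Tr.all_nd (Tr.all_nd (Tr.all_nd re_5_46 re_5_47) (Tr.all_nd re_5_48 (Tr.all_nd re_5_49 re_5_50))) (Tr.all_nd (Tr.all_nd re_5_51 re_5_52) (Tr.all_nd re_5_53 (Tr.all_nd re_5_54 re_5_55))))) (Tr.all_nd (Tr.all_nd (Tr.all_nd (Tr.all_nd re_5_56 re_5_57) (Tr.all_nd re_5_58 re_5_59)) (Tr.all_nd (Tr.all_nd re_5_60 re_5_61) (Tr.all_nd re_5_62 (Tr.all_nd re_5_63 re_5_64)))) (Tr.all_nd (Tr.all_nd (Tr.all_nd re_5_65 re_5_66) (Tr.all_nd re_5_67 (Tr.all_nd re_5_68 re_5_69))) (Tr.all_nd (Tr.all_nd re_5_70 re_5_71) (Tr.all_nd re_5_72 (Tr.all_nd re_5_73 re_5_74)))))))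
theorem re_6 : Tr.all Rf_6 L = true := (Tr.all_nd (Tr.all_nd (Tr.all_nd (Tr.all_nd (Tr.all_nd (Tr.all_nd re_6_0 re_6_1) (Tr.all_nd re_6_2 re_6_3)) (Tr.all_nd (Tr.all_nd re_6_4 re_6_5) (Tr.all_nd re_6_6 (Tr.all_nd re_6_7 re_6_8)))) (Tr.all_nd (Tr.all_nd (Tr.all_nd re_6_9 re_6_10) (Tr.all_nd re_6_11 re_6_12)) (Tr.all_nd (Tr.all_nd re_6_13 re_6_14) (Tr.all_nd re_6_15 (Tr.all_nd re_6_16 re_6_17))))) (Tr.all_nd (Tr.all_nd (Tr.all_nd (Tr.all_nd re_6_18 re_6_19) (Tr.all_nd re_6_20 re_6_21)) (Tr.all_nd (Tr.all_nd re_6_22 re_6_23) (Tr.all_nd re_6_24 (Tr.all_nd re_6_25 re_6_26)))) (Tr.all_nd (Tr.all_nd (Tr.all_nd re_6_27 re_6_28) (Tr.all_nd re_6_29 (Tr.all_nd re_6_30 re_6_31))) (Tr.all_nd (Tr.all_nd re_6_32 re_6_33) (Tr.all_nd re_6_34 (Tr.all_nd re_6_35 re_6_36)))))) (Tr.all_nd (Tr.all_nd (Tr.all_nd (Tr.all_nd (Tr.all_nd re_6_37 re_6_38) (Tr.all_nd re_6_39 re_6_40)) (Tr.all_nd (Tr.all_nd re_6_41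 re_6_42) (Tr.all_nd re_6_43 (Tr.all_nd re_6_44 re_6_45)))) (Tr.all_nd (Tr.all_nd (Tr.all_nd re_6_46 re_6_47) (Tr.all_nd re_6_48 (Tr.all_nd re_6_49 re_6_50))) (Tr.all_nd (Tr.all_nd re_6_51 re_6_52) (Tr.all_nd re_6_53 (Tr.all_nd re_6_54 re_6_55))))) (Tr.all_nd (Tr.all_nd (Tr.all_nd (Tr.all_nd re_6_56 re_6_57) (Tr.all_nd re_6_58 re_6_59)) (Tr.all_nd (Tr.all_nd re_6_60 re_6_61) (Tr.all_nd re_6_62 (Tr.all_nd re_6_63 re_6_64)))) (Tr.all_nd (Tr.all_nd (Tr.all_nd re_6_65 re_6_66) (Tr.all_nd re_6_67 (Tr.all_nd re_6_68 re_6_69))) (Tr.all_nd (Tr.all_nd re_6_70 re_6_71) (Tr.all_nd re_6_72 (Tr.all_nd re_6_73 re_6_74)))))))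
theorem pl_0 : ∀ q ∈ L_0.toList, q.Prime := prime_labels bs_0 pr_0 gc_0 (by norm_num) (by norm_num)
theorem pl_1 : ∀ q ∈ L_1.toList, q.Prime := prime_labels bs_1 pr_1 gc_1 (by norm_num) (by norm_num)
theorem pl_2 : ∀ q ∈ L_2.toList, q.Prime := prime_labels bs_2 pr_2 gc_2 (by norm_num) (by norm_num)
theorem pl_3 : ∀ q ∈ L_3.toList, q.Prime := prime_labels bs_3 pr_3 gc_3 (by norm_num) (by norm_num)
theorem pl_4 : ∀ q ∈ L_4.toList, q.Prime := prime_labels bs_4 pr_4 gc_4 (by norm_num) (by norm_num)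
theorem pl_5 : ∀ q ∈ L_5.toList, q.Prime := prime_labels bs_5 pr_5 gc_5 (by norm_num) (by norm_num)
theorem pl_6 : ∀ q ∈ L_6.toList, q.Prime := prime_labels bs_6 pr_6 gc_6 (by norm_num) (by norm_num)
theorem pl_7 : ∀ q ∈ L_7.toList, q.Prime := prime_labels bs_7 pr_7 gc_7 (by norm_num) (by norm_num)
theorem pl_8 : ∀ q ∈ L_8.toList, q.Prime := prime_labels bs_8 pr_8 gc_8 (by norm_num) (by norm_num)
theorem pl_9 : ∀ q ∈ L_9.toList, q.Prime := prime_labels bs_9 pr_9 gc_9 (by norm_num) (by norm_num)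
theorem pl_10 : ∀ q ∈ L_10.toList, q.Prime := prime_labels bs_10 pr_10 gc_10 (by norm_num) (by norm_num)
theorem pl_11 : ∀ q ∈ L_11.toList, q.Prime := prime_labels bs_11 pr_11 gc_11 (by norm_num) (by norm_num)
theorem pl_12 : ∀ q ∈ L_12.toList, q.Prime := prime_labels bs_12 pr_12 gc_12 (by norm_num) (by norm_num)
theorem pl_13 : ∀ q ∈ L_13.toList, q.Prime := prime_labels bs_13 pr_13 gc_13 (by norm_num) (by norm_num)
theorem pl_14 : ∀ q ∈ L_14.toList, q.Prime := prime_labels bs_14 pr_14 gc_14 (by norm_num) (by norm_num)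
theorem pl_15 : ∀ q ∈ L_15.toList, q.Prime := prime_labels bs_15 pr_15 gc_15 (by norm_num) (by norm_num)
theorem pl_16 : ∀ q ∈ L_16.toList, q.Prime := prime_labels bs_16 pr_16 gc_16 (by norm_num) (by norm_num)
theorem pl_17 : ∀ q ∈ L_17.toList, q.Prime := prime_labels bs_17 pr_17 gc_17 (by norm_num) (by norm_num)
theorem pl_18 : ∀ q ∈ L_18.toList, q.Prime := prime_labels bs_18 pr_18 gc_18 (by norm_num) (by norm_num)
theorem pl_19 : ∀ q ∈ L_19.toList, q.Prime := prime_labels bs_19 pr_19 gc_19 (by norm_num) (by norm_num)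
theorem pl_20 : ∀ q ∈ L_20.toList, q.Prime := prime_labels bs_20 pr_20 gc_20 (by norm_num) (by norm_num)
theorem pl_21 : ∀ q ∈ L_21.toList, q.Prime := prime_labels bs_21 pr_21 gc_21 (by norm_num) (by norm_num)
theorem pl_22 : ∀ q ∈ L_22.toList, q.Prime := prime_labels bs_22 pr_22 gc_22 (by norm_num) (by norm_num)
theorem pl_23 : ∀ q ∈ L_23.toList, q.Prime := prime_labels bs_23 pr_23 gc_23 (by norm_num) (by norm_num)
theorem pl_24 : ∀ q ∈ L_24.toList, q.Prime := prime_labels bs_24 pr_24 gc_24 (by norm_num) (by norm_num)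
theorem pl_25 : ∀ q ∈ L_25.toList, q.Prime := prime_labels bs_25 pr_25 gc_25 (by norm_num) (by norm_num)
theorem pl_26 : ∀ q ∈ L_26.toList, q.Prime := prime_labels bs_26 pr_26 gc_26 (by norm_num) (by norm_num)
theorem pl_27 : ∀ q ∈ L_27.toList, q.Prime := prime_labels bs_27 pr_27 gc_27 (by norm_num) (by norm_num)
theorem pl_28 : ∀ q ∈ L_28.toList, q.Prime := prime_labels bs_28 pr_28 gc_28 (by norm_num) (by norm_num)
theorem pl_29 : ∀ q ∈ L_29.toList, q.Prime := prime_labels bs_29 pr_29 gc_29 (by norm_num) (by norm_num)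
theorem pl_30 : ∀ q ∈ L_30.toList, q.Prime := prime_labels bs_30 pr_30 gc_30 (by norm_num) (by norm_num)
theorem pl_31 : ∀ q ∈ L_31.toList, q.Prime := prime_labels bs_31 pr_31 gc_31 (by norm_num) (by norm_num)
theorem pl_32 : ∀ q ∈ L_32.toList, q.Prime := prime_labels bs_32 pr_32 gc_32 (by norm_num) (by norm_num)
theorem pl_33 : ∀ q ∈ L_33.toList, q.Prime := prime_labels bs_33 pr_33 gc_33 (by norm_num) (by norm_num)
theorem pl_34 : ∀ q ∈ L_34.toList, q.Prime := prime_labels bs_34 pr_34 gc_34 (by norm_num) (by norm_num)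
theorem pl_35 : ∀ q ∈ L_35.toList, q.Prime := prime_labels bs_35 pr_35 gc_35 (by norm_num) (by norm_num)
theorem pl_36 : ∀ q ∈ L_36.toList, q.Prime := prime_labels bs_36 pr_36 gc_36 (by norm_num) (by norm_num)
theorem pl_37 : ∀ q ∈ L_37.toList, q.Prime := prime_labels bs_37 pr_37 gc_37 (by norm_num) (by norm_num)
theorem pl_38 : ∀ q ∈ L_38.toList, q.Prime := prime_labels bs_38 pr_38 gc_38 (by norm_num) (by norm_num)
theorem pl_39 : ∀ q ∈ L_39.toList, q.Prime := prime_labels bs_39 pr_39 gc_39 (by norm_num) (by norm_num)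
theorem pl_40 : ∀ q ∈ L_40.toList, q.Prime := prime_labels bs_40 pr_40 gc_40 (by norm_num) (by norm_num)
theorem pl_41 : ∀ q ∈ L_41.toList, q.Prime := prime_labels bs_41 pr_41 gc_41 (by norm_num) (by norm_num)
theorem pl_42 : ∀ q ∈ L_42.toList, q.Prime := prime_labels bs_42 pr_42 gc_42 (by norm_num) (by norm_num)
theorem pl_43 : ∀ q ∈ L_43.toList, q.Prime := prime_labels bs_43 pr_43 gc_43 (by norm_num) (by norm_num)
theorem pl_44 : ∀ q ∈ L_44.toList, q.Prime := prime_labels bs_44 pr_44 gc_44 (by norm_num) (by norm_num)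
theorem pl_45 : ∀ q ∈ L_45.toList, q.Prime := prime_labels bs_45 pr_45 gc_45 (by norm_num) (by norm_num)
theorem pl_46 : ∀ q ∈ L_46.toList, q.Prime := prime_labels bs_46 pr_46 gc_46 (by norm_num) (by norm_num)
theorem pl_47 : ∀ q ∈ L_47.toList, q.Prime := prime_labels bs_47 pr_47 gc_47 (by norm_num) (by norm_num)
theorem pl_48 : ∀ q ∈ L_48.toList, q.Prime := prime_labels bs_48 pr_48 gc_48 (by norm_num) (by norm_num)
theorem pl_49 : ∀ q ∈ L_49.toList, q.Prime := prime_labels bs_49 pr_49 gc_49 (by norm_num) (by norm_num)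
theorem pl_50 : ∀ q ∈ L_50.toList, q.Prime := prime_labels bs_50 pr_50 gc_50 (by norm_num) (by norm_num)
theorem pl_51 : ∀ q ∈ L_51.toList, q.Prime := prime_labels bs_51 pr_51 gc_51 (by norm_num) (by norm_num)
theorem pl_52 : ∀ q ∈ L_52.toList, q.Prime := prime_labels bs_52 pr_52 gc_52 (by norm_num) (by norm_num)
theorem pl_53 : ∀ q ∈ L_53.toList, q.Prime := prime_labels bs_53 pr_53 gc_53 (by norm_num) (by norm_num)
theorem pl_54 : ∀ q ∈ L_54.toList, q.Prime := prime_labels bs_54 pr_54 gc_54 (by norm_num) (by norm_num)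
theorem pl_55 : ∀ q ∈ L_55.toList, q.Prime := prime_labels bs_55 pr_55 gc_55 (by norm_num) (by norm_num)
theorem pl_56 : ∀ q ∈ L_56.toList, q.Prime := prime_labels bs_56 pr_56 gc_56 (by norm_num) (by norm_num)
theorem pl_57 : ∀ q ∈ L_57.toList, q.Prime := prime_labels bs_57 pr_57 gc_57 (by norm_num) (by norm_num)
theorem pl_58 : ∀ q ∈ L_58.toList, q.Prime := prime_labels bs_58 pr_58 gc_58 (by norm_num) (by norm_num)
theorem pl_59 : ∀ q ∈ L_59.toList, q.Prime := prime_labels bs_59 pr_59 gc_59 (by norm_num) (by norm_num)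
theorem pl_60 : ∀ q ∈ L_60.toList, q.Prime := prime_labels bs_60 pr_60 gc_60 (by norm_num) (by norm_num)
theorem pl_61 : ∀ q ∈ L_61.toList, q.Prime := prime_labels bs_61 pr_61 gc_61 (by norm_num) (by norm_num)
theorem pl_62 : ∀ q ∈ L_62.toList, q.Prime := prime_labels bs_62 pr_62 gc_62 (by norm_num) (by norm_num)
theorem pl_63 : ∀ q ∈ L_63.toList, q.Prime := prime_labels bs_63 pr_63 gc_63 (by norm_num) (by norm_num)
theorem pl_64 : ∀ q ∈ L_64.toList, q.Prime := prime_labels bs_64 pr_64 gc_64 (by norm_num) (by norm_num)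
theorem pl_65 : ∀ q ∈ L_65.toList, q.Prime := prime_labels bs_65 pr_65 gc_65 (by norm_num) (by norm_num)
theorem pl_66 : ∀ q ∈ L_66.toList, q.Prime := prime_labels bs_66 pr_66 gc_66 (by norm_num) (by norm_num)
theorem pl_67 : ∀ q ∈ L_67.toList, q.Prime := prime_labels bs_67 pr_67 gc_67 (by norm_num) (by norm_num)
theorem pl_68 : ∀ q ∈ L_68.toList, q.Prime := prime_labels bs_68 pr_68 gc_68 (by norm_num) (by norm_num)
theorem pl_69 : ∀ q ∈ L_69.toList, q.Prime := prime_labels bs_69 pr_69 gc_69 (by norm_num) (by norm_num)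
theorem pl_70 : ∀ q ∈ L_70.toList, q.Prime := prime_labels bs_70 pr_70 gc_70 (by norm_num) (by norm_num)
theorem pl_71 : ∀ q ∈ L_71.toList, q.Prime := prime_labels bs_71 pr_71 gc_71 (by norm_num) (by norm_num)
theorem pl_72 : ∀ q ∈ L_72.toList, q.Prime := prime_labels bs_72 pr_72 gc_72 (by norm_num) (by norm_num)
theorem pl_73 : ∀ q ∈ L_73.toList, q.Prime := prime_labels bs_73 pr_73 gc_73 (by norm_num) (by norm_num)
theorem pl_74 : ∀ q ∈ L_74.toList, q.Prime := prime_labels bs_74 pr_74 gc_74 (by norm_num) (by norm_num)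
theorem brecP {α : Type} {P : α → Prop} {x y : α} {b : Bool} (hx : P x) (hy : P y) : P (Bool.rec (motive := fun _ => α) x y b) := by
  cases b
  · exact hx
  · exact hy
theorem memM (x : ℕ) (h1 : 5500000 ≤ x) (h2 : x < 2 * 5500000) (h3 : MB x % x = 0) : x ∈ L.toList :=
  ((brecP (P := fun M => M % x = 0 → x ∈ L.toList) (brecP (P := fun M => M % x = 0 → x ∈ L.toList) (brecP (P := fun M => M % x = 0 → x ∈ L.toList) (brecP (P := fun M => M % x = 0 → x ∈ L.toList) (brecP (P := fun M => M % x = 0 → x ∈ L.toList) (brecP (P := fun M => M % x = 0 → x ∈ L.toList) (fun h => (mem_nd_l (mem_nd_l (mem_nd_l (mem_nd_l (mem_nd_l (mem_nd_l (mem_of_mod bs_0 pr_0 pl_0 h1 h2 (by norm_num) h)))))))) (fun h => (mem_nd_l (mem_nd_l (mem_nd_l (mem_nd_l (mem_nd_l (mem_nd_r (mem_of_mod bs_1 pr_1 pl_1 h1 h2 (by norm_num) h))))))))) (brecP (P := fun M => M % x = 0 → x ∈ L.toList) (fun h => (mem_nd_l (mem_nd_l (mem_nd_l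 (mem_nd_l (mem_nd_r (mem_nd_l (mem_of_mod bs_2 pr_2 pl_2 h1 h2 (by norm_num) h)))))))) (fun h => (mem_nd_l (mem_nd_l (mem_nd_l (mem_nd_l (mem_nd_r (mem_nd_r (mem_of_mod bs_3 pr_3 pl_3 h1 h2 (by norm_num) h)))))))))) (brecP (P := fun M => M % x = 0 → x ∈ L.toList) (brecP (P := fun M => M % x = 0 → x ∈ L.toList) (fun h => (mem_nd_l (mem_nd_l (mem_nd_l (mem_nd_r (mem_nd_l (mem_nd_l (mem_of_mod bs_4 pr_4 pl_4 h1 h2 (by norm_num) h)))))))) (fun h => (mem_nd_l (mem_nd_l (mem_nd_l (mem_nd_r (mem_nd_l (mem_nd_r (mem_of_mod bs_5 pr_5 pl_5 h1 h2 (by norm_num) h))))))))) (brecP (P := fun M => M % x = 0 → x ∈ L.toList) (fun h => (mem_nd_l (mem_nd_l (mem_nd_l (mem_nd_r (mem_nd_r (mem_nd_l (mem_of_mod bs_6 pr_6 pl_6 h1 h2 (by norm_num) h)))))))) (brecP (P := fun M => M % x = 0 → x ∈ L.toList) (fun h => (mem_nd_l (mem_nd_l (mem_nd_l (mem_nd_r (mem_nd_r (mem_nd_r (mem_nd_l (mem_of_mod bs_7 pr_7 pl_7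 h1 h2 (by norm_num) h))))))))) (fun h => (mem_nd_l (mem_nd_l (mem_nd_l (mem_nd_r (mem_nd_r (mem_nd_r (mem_nd_r (mem_of_mod bs_8 pr_8 pl_8 h1 h2 (by norm_num) h))))))))))))) (brecP (P := fun M => M % x = 0 → x ∈ L.toList) (brecP (P := fun M => M % x = 0 → x ∈ L.toList) (brecP (P := fun M => M % x = 0 → x ∈ L.toList) (fun h => (mem_nd_l (mem_nd_l (mem_nd_r (mem_nd_l (mem_nd_l (mem_nd_l (mem_of_mod bs_9 pr_9 pl_9 h1 h2 (by norm_num) h)))))))) (fun h => (mem_nd_l (mem_nd_l (mem_nd_r (mem_nd_l (mem_nd_l (mem_nd_r (mem_of_mod bs_10 pr_10 pl_10 h1 h2 (by norm_num) h))))))))) (brecP (P := fun M => M % x = 0 → x ∈ L.toList) (fun h => (mem_nd_l (mem_nd_l (mem_nd_r (mem_nd_l (mem_nd_r (mem_nd_l (mem_of_mod bs_11 pr_11 pl_11 h1 h2 (by norm_num) h)))))))) (fun h => (mem_nd_l (mem_nd_l (mem_nd_r (mem_nd_l (mem_nd_r (mem_nd_r (mem_of_mod bs_12 pr_12 pl_12 h1 h2 (by norm_num) h)))))))))) (brecP (P :=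 fun M => M % x = 0 → x ∈ L.toList) (brecP (P := fun M => M % x = 0 → x ∈ L.toList) (fun h => (mem_nd_l (mem_nd_l (mem_nd_r (mem_nd_r (mem_nd_l (mem_nd_l (mem_of_mod bs_13 pr_13 pl_13 h1 h2 (by norm_num) h)))))))) (fun h => (mem_nd_l (mem_nd_l (mem_nd_r (mem_nd_r (mem_nd_l (mem_nd_r (mem_of_mod bs_14 pr_14 pl_14 h1 h2 (by norm_num) h))))))))) (brecP (P := fun M => M % x = 0 → x ∈ L.toList) (fun h => (mem_nd_l (mem_nd_l (mem_nd_r (mem_nd_r (mem_nd_r (mem_nd_l (mem_of_mod bs_15 pr_15 pl_15 h1 h2 (by norm_num) h)))))))) (brecP (P := fun M => M % x = 0 → x ∈ L.toList) (fun h => (mem_nd_l (mem_nd_l (mem_nd_r (mem_nd_r (mem_nd_r (mem_nd_r (mem_nd_l (mem_of_mod bs_16 pr_16 pl_16 h1 h2 (by norm_num) h))))))))) (fun h => (mem_nd_l (mem_nd_l (mem_nd_r (mem_nd_r (mem_nd_r (mem_nd_r (mem_nd_r (mem_of_mod bs_17 pr_17 pl_17 h1 h2 (by norm_num) h)))))))))))))) (brecP (P := fun M => M % x = 0 → x ∈ L.toList)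 (brecP (P := fun M => M % x = 0 → x ∈ L.toList) (brecP (P := fun M => M % x = 0 → x ∈ L.toList) (brecP (P := fun M => M % x = 0 → x ∈ L.toList) (fun h => (mem_nd_l (mem_nd_r (mem_nd_l (mem_nd_l (mem_nd_l (mem_nd_l (mem_of_mod bs_18 pr_18 pl_18 h1 h2 (by norm_num) h)))))))) (fun h => (mem_nd_l (mem_nd_r (mem_nd_l (mem_nd_l (mem_nd_l (mem_nd_r (mem_of_mod bs_19 pr_19 pl_19 h1 h2 (by norm_num) h))))))))) (brecP (P := fun M => M % x = 0 → x ∈ L.toList) (fun h => (mem_nd_l (mem_nd_r (mem_nd_l (mem_nd_l (mem_nd_r (mem_nd_l (mem_of_mod bs_20 pr_20 pl_20 h1 h2 (by norm_num) h)))))))) (fun h => (mem_nd_l (mem_nd_r (mem_nd_l (mem_nd_l (mem_nd_r (mem_nd_r (mem_of_mod bs_21 pr_21 pl_21 h1 h2 (by norm_num) h)))))))))) (brecP (P := fun M => M % x = 0 → x ∈ L.toList) (brecP (P := fun M => M % x = 0 → x ∈ L.toList) (fun h => (mem_nd_l (mem_nd_r (mem_nd_l (mem_nd_r (mem_nd_l (mem_nd_l (mem_of_mod bs_22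 pr_22 pl_22 h1 h2 (by norm_num) h)))))))) (fun h => (mem_nd_l (mem_nd_r (mem_nd_l (mem_nd_r (mem_nd_l (mem_nd_r (mem_of_mod bs_23 pr_23 pl_23 h1 h2 (by norm_num) h))))))))) (brecP (P := fun M => M % x = 0 → x ∈ L.toList) (fun h => (mem_nd_l (mem_nd_r (mem_nd_l (mem_nd_r (mem_nd_r (mem_nd_l (mem_of_mod bs_24 pr_24 pl_24 h1 h2 (by norm_num) h)))))))) (brecP (P := fun M => M % x = 0 → x ∈ L.toList) (fun h => (mem_nd_l (mem_nd_r (mem_nd_l (mem_nd_r (mem_nd_r (mem_nd_r (mem_nd_l (mem_of_mod bs_25 pr_25 pl_25 h1 h2 (by norm_num) h))))))))) (fun h => (mem_nd_l (mem_nd_r (mem_nd_l (mem_nd_r (mem_nd_r (mem_nd_r (mem_nd_r (mem_of_mod bs_26 pr_26 pl_26 h1 h2 (by norm_num) h))))))))))))) (brecP (P := fun M => M % x = 0 → x ∈ L.toList) (brecP (P := fun M => M % x = 0 → x ∈ L.toList) (brecP (P := fun M => M % x = 0 → x ∈ L.toList) (fun h => (mem_nd_l (mem_nd_r (mem_nd_r (mem_nd_l (mem_nd_l (mem_nd_l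 (mem_of_mod bs_27 pr_27 pl_27 h1 h2 (by norm_num) h)))))))) (fun h => (mem_nd_l (mem_nd_r (mem_nd_r (mem_nd_l (mem_nd_l (mem_nd_r (mem_of_mod bs_28 pr_28 pl_28 h1 h2 (by norm_num) h))))))))) (brecP (P := fun M => M % x = 0 → x ∈ L.toList) (fun h => (mem_nd_l (mem_nd_r (mem_nd_r (mem_nd_l (mem_nd_r (mem_nd_l (mem_of_mod bs_29 pr_29 pl_29 h1 h2 (by norm_num) h)))))))) (brecP (P := fun M => M % x = 0 → x ∈ L.toList) (fun h => (mem_nd_l (mem_nd_r (mem_nd_r (mem_nd_l (mem_nd_r (mem_nd_r (mem_nd_l (mem_of_mod bs_30 pr_30 pl_30 h1 h2 (by norm_num) h))))))))) (fun h => (mem_nd_l (mem_nd_r (mem_nd_r (mem_nd_l (mem_nd_r (mem_nd_r (mem_nd_r (mem_of_mod bs_31 pr_31 pl_31 h1 h2 (by norm_num) h)))))))))))) (brecP (P := fun M => M % x = 0 → x ∈ L.toList) (brecP (P := fun M => M % x = 0 → x ∈ L.toList) (fun h => (mem_nd_l (mem_nd_r (mem_nd_r (mem_nd_r (mem_nd_l (mem_nd_l (mem_of_mod bs_32 pr_32 pl_32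 h1 h2 (by norm_num) h)))))))) (fun h => (mem_nd_l (mem_nd_r (mem_nd_r (mem_nd_r (mem_nd_l (mem_nd_r (mem_of_mod bs_33 pr_33 pl_33 h1 h2 (by norm_num) h))))))))) (brecP (P := fun M => M % x = 0 → x ∈ L.toList) (fun h => (mem_nd_l (mem_nd_r (mem_nd_r (mem_nd_r (mem_nd_r (mem_nd_l (mem_of_mod bs_34 pr_34 pl_34 h1 h2 (by norm_num) h)))))))) (brecP (P := fun M => M % x = 0 → x ∈ L.toList) (fun h => (mem_nd_l (mem_nd_r (mem_nd_r (mem_nd_r (mem_nd_r (mem_nd_r (mem_nd_l (mem_of_mod bs_35 pr_35 pl_35 h1 h2 (by norm_num) h))))))))) (fun h => (mem_nd_l (mem_nd_r (mem_nd_r (mem_nd_r (mem_nd_r (mem_nd_r (mem_nd_r (mem_of_mod bs_36 pr_36 pl_36 h1 h2 (by norm_num) h))))))))))))))) (brecP (P := fun M => M % x = 0 → x ∈ L.toList) (brecP (P := fun M => M % x = 0 → x ∈ L.toList) (brecP (P := fun M => M % x = 0 → x ∈ L.toList) (brecP (P := fun M => M % x = 0 → x ∈ L.toList) (brecP (P := fun M => M % x =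 0 → x ∈ L.toList) (fun h => (mem_nd_r (mem_nd_l (mem_nd_l (mem_nd_l (mem_nd_l (mem_nd_l (mem_of_mod bs_37 pr_37 pl_37 h1 h2 (by norm_num) h)))))))) (fun h => (mem_nd_r (mem_nd_l (mem_nd_l (mem_nd_l (mem_nd_l (mem_nd_r (mem_of_mod bs_38 pr_38 pl_38 h1 h2 (by norm_num) h))))))))) (brecP (P := fun M => M % x = 0 → x ∈ L.toList) (fun h => (mem_nd_r (mem_nd_l (mem_nd_l (mem_nd_l (mem_nd_r (mem_nd_l (mem_of_mod bs_39 pr_39 pl_39 h1 h2 (by norm_num) h)))))))) (fun h => (mem_nd_r (mem_nd_l (mem_nd_l (mem_nd_l (mem_nd_r (mem_nd_r (mem_of_mod bs_40 pr_40 pl_40 h1 h2 (by norm_num) h)))))))))) (brecP (P := fun M => M % x = 0 → x ∈ L.toList) (brecP (P := fun M => M % x = 0 → x ∈ L.toList) (fun h => (mem_nd_r (mem_nd_l (mem_nd_l (mem_nd_r (mem_nd_l (mem_nd_l (mem_of_mod bs_41 pr_41 pl_41 h1 h2 (by norm_num) h)))))))) (fun h => (mem_nd_r (mem_nd_l (mem_nd_l (mem_nd_r (mem_nd_l (mem_nd_r (mem_of_mod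 bs_42 pr_42 pl_42 h1 h2 (by norm_num) h))))))))) (brecP (P := fun M => M % x = 0 → x ∈ L.toList) (fun h => (mem_nd_r (mem_nd_l (mem_nd_l (mem_nd_r (mem_nd_r (mem_nd_l (mem_of_mod bs_43 pr_43 pl_43 h1 h2 (by norm_num) h)))))))) (brecP (P := fun M => M % x = 0 → x ∈ L.toList) (fun h => (mem_nd_r (mem_nd_l (mem_nd_l (mem_nd_r (mem_nd_r (mem_nd_r (mem_nd_l (mem_of_mod bs_44 pr_44 pl_44 h1 h2 (by norm_num) h))))))))) (fun h => (mem_nd_r (mem_nd_l (mem_nd_l (mem_nd_r (mem_nd_r (mem_nd_r (mem_nd_r (mem_of_mod bs_45 pr_45 pl_45 h1 h2 (by norm_num) h))))))))))))) (brecP (P := fun M => M % x = 0 → x ∈ L.toList) (brecP (P := fun M => M % x = 0 → x ∈ L.toList) (brecP (P := fun M => M % x = 0 → x ∈ L.toList) (fun h => (mem_nd_r (mem_nd_l (mem_nd_r (mem_nd_l (mem_nd_l (mem_nd_l (mem_of_mod bs_46 pr_46 pl_46 h1 h2 (by norm_num) h)))))))) (fun h => (mem_nd_r (mem_nd_l (mem_nd_r (mem_nd_l (mem_nd_l (mem_nd_r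 (mem_of_mod bs_47 pr_47 pl_47 h1 h2 (by norm_num) h))))))))) (brecP (P := fun M => M % x = 0 → x ∈ L.toList) (fun h => (mem_nd_r (mem_nd_l (mem_nd_r (mem_nd_l (mem_nd_r (mem_nd_l (mem_of_mod bs_48 pr_48 pl_48 h1 h2 (by norm_num) h)))))))) (brecP (P := fun M => M % x = 0 → x ∈ L.toList) (fun h => (mem_nd_r (mem_nd_l (mem_nd_r (mem_nd_l (mem_nd_r (mem_nd_r (mem_nd_l (mem_of_mod bs_49 pr_49 pl_49 h1 h2 (by norm_num) h))))))))) (fun h => (mem_nd_r (mem_nd_l (mem_nd_r (mem_nd_l (mem_nd_r (mem_nd_r (mem_nd_r (mem_of_mod bs_50 pr_50 pl_50 h1 h2 (by norm_num) h)))))))))))) (brecP (P := fun M => M % x = 0 → x ∈ L.toList) (brecP (P := fun M => M % x = 0 → x ∈ L.toList) (fun h => (mem_nd_r (mem_nd_l (mem_nd_r (mem_nd_r (mem_nd_l (mem_nd_l (mem_of_mod bs_51 pr_51 pl_51 h1 h2 (by norm_num) h)))))))) (fun h => (mem_nd_r (mem_nd_l (mem_nd_r (mem_nd_r (mem_nd_l (mem_nd_r (mem_of_mod bs_52 pr_52 pl_52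 h1 h2 (by norm_num) h))))))))) (brecP (P := fun M => M % x = 0 → x ∈ L.toList) (fun h => (mem_nd_r (mem_nd_l (mem_nd_r (mem_nd_r (mem_nd_r (mem_nd_l (mem_of_mod bs_53 pr_53 pl_53 h1 h2 (by norm_num) h)))))))) (brecP (P := fun M => M % x = 0 → x ∈ L.toList) (fun h => (mem_nd_r (mem_nd_l (mem_nd_r (mem_nd_r (mem_nd_r (mem_nd_r (mem_nd_l (mem_of_mod bs_54 pr_54 pl_54 h1 h2 (by norm_num) h))))))))) (fun h => (mem_nd_r (mem_nd_l (mem_nd_r (mem_nd_r (mem_nd_r (mem_nd_r (mem_nd_r (mem_of_mod bs_55 pr_55 pl_55 h1 h2 (by norm_num) h)))))))))))))) (brecP (P := fun M => M % x = 0 → x ∈ L.toList) (brecP (P := fun M => M % x = 0 → x ∈ L.toList) (brecP (P := fun M => M % x = 0 → x ∈ L.toList) (brecP (P := fun M => M % x = 0 → x ∈ L.toList) (fun h => (mem_nd_r (mem_nd_r (mem_nd_l (mem_nd_l (mem_nd_l (mem_nd_l (mem_of_mod bs_56 pr_56 pl_56 h1 h2 (by norm_num) h)))))))) (fun h => (mem_nd_r (mem_nd_r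 (mem_nd_l (mem_nd_l (mem_nd_l (mem_nd_r (mem_of_mod bs_57 pr_57 pl_57 h1 h2 (by norm_num) h))))))))) (brecP (P := fun M => M % x = 0 → x ∈ L.toList) (fun h => (mem_nd_r (mem_nd_r (mem_nd_l (mem_nd_l (mem_nd_r (mem_nd_l (mem_of_mod bs_58 pr_58 pl_58 h1 h2 (by norm_num) h)))))))) (fun h => (mem_nd_r (mem_nd_r (mem_nd_l (mem_nd_l (mem_nd_r (mem_nd_r (mem_of_mod bs_59 pr_59 pl_59 h1 h2 (by norm_num) h)))))))))) (brecP (P := fun M => M % x = 0 → x ∈ L.toList) (brecP (P := fun M => M % x = 0 → x ∈ L.toList) (fun h => (mem_nd_r (mem_nd_r (mem_nd_l (mem_nd_r (mem_nd_l (mem_nd_l (mem_of_mod bs_60 pr_60 pl_60 h1 h2 (by norm_num) h)))))))) (fun h => (mem_nd_r (mem_nd_r (mem_nd_l (mem_nd_r (mem_nd_l (mem_nd_r (mem_of_mod bs_61 pr_61 pl_61 h1 h2 (by norm_num) h))))))))) (brecP (P := fun M => M % x = 0 → x ∈ L.toList) (fun h => (mem_nd_r (mem_nd_r (mem_nd_l (mem_nd_r (mem_nd_r (mem_nd_l (mem_of_mod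 bs_62 pr_62 pl_62 h1 h2 (by norm_num) h)))))))) (brecP (P := fun M => M % x = 0 → x ∈ L.toList) (fun h => (mem_nd_r (mem_nd_r (mem_nd_l (mem_nd_r (mem_nd_r (mem_nd_r (mem_nd_l (mem_of_mod bs_63 pr_63 pl_63 h1 h2 (by norm_num) h))))))))) (fun h => (mem_nd_r (mem_nd_r (mem_nd_l (mem_nd_r (mem_nd_r (mem_nd_r (mem_nd_r (mem_of_mod bs_64 pr_64 pl_64 h1 h2 (by norm_num) h))))))))))))) (brecP (P := fun M => M % x = 0 → x ∈ L.toList) (brecP (P := fun M => M % x = 0 → x ∈ L.toList) (brecP (P := fun M => M % x = 0 → x ∈ L.toList) (fun h => (mem_nd_r (mem_nd_r (mem_nd_r (mem_nd_l (mem_nd_l (mem_nd_l (mem_of_mod bs_65 pr_65 pl_65 h1 h2 (by norm_num) h)))))))) (fun h => (mem_nd_r (mem_nd_r (mem_nd_r (mem_nd_l (mem_nd_l (mem_nd_r (mem_of_mod bs_66 pr_66 pl_66 h1 h2 (by norm_num) h))))))))) (brecP (P := fun M => M % x = 0 → x ∈ L.toList) (fun h => (mem_nd_r (mem_nd_r (mem_nd_r (mem_nd_l (mem_nd_r (mem_nd_l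 (mem_of_mod bs_67 pr_67 pl_67 h1 h2 (by norm_num) h)))))))) (brecP (P := fun M => M % x = 0 → x ∈ L.toList) (fun h => (mem_nd_r (mem_nd_r (mem_nd_r (mem_nd_l (mem_nd_r (mem_nd_r (mem_nd_l (mem_of_mod bs_68 pr_68 pl_68 h1 h2 (by norm_num) h))))))))) (fun h => (mem_nd_r (mem_nd_r (mem_nd_r (mem_nd_l (mem_nd_r (mem_nd_r (mem_nd_r (mem_of_mod bs_69 pr_69 pl_69 h1 h2 (by norm_num) h)))))))))))) (brecP (P := fun M => M % x = 0 → x ∈ L.toList) (brecP (P := fun M => M % x = 0 → x ∈ L.toList) (fun h => (mem_nd_r (mem_nd_r (mem_nd_r (mem_nd_r (mem_nd_l (mem_nd_l (mem_of_mod bs_70 pr_70 pl_70 h1 h2 (by norm_num) h)))))))) (fun h => (mem_nd_r (mem_nd_r (mem_nd_r (mem_nd_r (mem_nd_l (mem_nd_r (mem_of_mod bs_71 pr_71 pl_71 h1 h2 (by norm_num) h))))))))) (brecP (P := fun M => M % x = 0 → x ∈ L.toList) (fun h => (mem_nd_r (mem_nd_r (mem_nd_r (mem_nd_r (mem_nd_r (mem_nd_l (mem_of_mod bs_72 pr_72 pl_72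 h1 h2 (by norm_num) h)))))))) (brecP (P := fun M => M % x = 0 → x ∈ L.toList) (fun h => (mem_nd_r (mem_nd_r (mem_nd_r (mem_nd_r (mem_nd_r (mem_nd_r (mem_nd_l (mem_of_mod bs_73 pr_73 pl_73 h1 h2 (by norm_num) h))))))))) (fun h => (mem_nd_r (mem_nd_r (mem_nd_r (mem_nd_r (mem_nd_r (mem_nd_r (mem_nd_r (mem_of_mod bs_74 pr_74 pl_74 h1 h2 (by norm_num) h)))))))))))))))) : (fun M => M % x = 0 → x ∈ L.toList) (MB x)) h3
theorem mt_sound : ∀ x, mt x = true → x ∈ L.toList := fun x h => memt_sound (K := 5500000) memM (x := x) h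
theorem pos : ∀ q ∈ L.toList, q ≠ 0 := fun q hq h => by
  have := ((bst_sound L _ _ bst_chk).1 q hq).1
  omega
theorem cu_0 (q : ℕ) : CE_0 q = true ↔ CD_l q = true ∧ CD_k q = true ∧ CD_a q = true ∧ CD_b q = true ∧ CD_c q = true := by
  unfold CE_0
  simp only [bfalse_iff, and_true]
theorem cd_l : ∀ q ∈ L.toList, clQ mt F_l F_l q = true ∧ D_l q = true := fun q hq => (band_iff _ _).1 ((cu_0 q).1 ((Tr.all_iff _ _).1 ce_0 q hq)).1
theorem cd_k : ∀ q ∈ L.toList, clQ mt F_k F_k q = true ∧ D_k q = true := fun q hq => (band_iff _ _).1 ((cu_0 q).1 ((Tr.all_iff _ _).1 ce_0 q hq)).2.1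
theorem cd_a : ∀ q ∈ L.toList, clQ mt F_a F_a q = true ∧ D_a q = true := fun q hq => (band_iff _ _).1 ((cu_0 q).1 ((Tr.all_iff _ _).1 ce_0 q hq)).2.2.1
theorem cd_b : ∀ q ∈ L.toList, clQ mt F_b F_b q = true ∧ D_b q = true := fun q hq => (band_iff _ _).1 ((cu_0 q).1 ((Tr.all_iff _ _).1 ce_0 q hq)).2.2.2.1
theorem cd_c : ∀ q ∈ L.toList, clQ mt F_c F_c q = true ∧ D_c q = true := fun q hq => (band_iff _ _).1 ((cu_0 q).1 ((Tr.all_iff _ _).1 ce_0 q hq)).2.2.2.2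
theorem cu_1 (q : ℕ) : CE_1 q = true ↔ CD_d q = true ∧ CD_e q = true ∧ CD_f q = true ∧ CD_g q = true ∧ CD_j q = true := by
  unfold CE_1
  simp only [bfalse_iff, and_true]
theorem cd_d : ∀ q ∈ L.toList, clQ mt F_d F_d q = true ∧ D_d q = true := fun q hq => (band_iff _ _).1 ((cu_1 q).1 ((Tr.all_iff _ _).1 ce_1 q hq)).1
theorem cd_e : ∀ q ∈ L.toList, clQ mt F_e F_e q = true ∧ D_e q = true := fun q hq => (band_iff _ _).1 ((cu_1 q).1 ((Tr.all_iff _ _).1 ce_1 q hq)).2.1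
theorem cd_f : ∀ q ∈ L.toList, clQ mt F_f F_f q = true ∧ D_f q = true := fun q hq => (band_iff _ _).1 ((cu_1 q).1 ((Tr.all_iff _ _).1 ce_1 q hq)).2.2.1
theorem cd_g : ∀ q ∈ L.toList, clQ mt F_g F_g q = true ∧ D_g q = true := fun q hq => (band_iff _ _).1 ((cu_1 q).1 ((Tr.all_iff _ _).1 ce_1 q hq)).2.2.2.1
theorem cd_j : ∀ q ∈ L.toList, clQ mt F_j F_j q = true ∧ D_j q = true := fun q hq => (band_iff _ _).1 ((cu_1 q).1 ((Tr.all_iff _ _).1 ce_1 q hq)).2.2.2.2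
theorem cu_2 (q : ℕ) : CE_2 q = true ↔ CD_h q = true ∧ CD_i q = true := by
  unfold CE_2
  simp only [bfalse_iff, and_true]
theorem cd_h : ∀ q ∈ L.toList, clQ mt F_h F_h q = true ∧ D_h q = true := fun q hq => (band_iff _ _).1 ((cu_2 q).1 ((Tr.all_iff _ _).1 ce_2 q hq)).1
theorem cd_i : ∀ q ∈ L.toList, clQ mt F_i F_i q = true ∧ D_i q = true := fun q hq => (band_iff _ _).1 ((cu_2 q).1 ((Tr.all_iff _ _).1 ce_2 q hq)).2
theorem closed : Closed L stp inv := by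
  refine ⟨?_, ?_, inv_inv⟩
  · intro q hq c
    cases c
    · exact mt_sound _ ((band_iff _ _).1 (cd_l q hq).1).1
    · exact mt_sound _ ((band_iff _ _).1 (cd_k q hq).1).1
    · exact mt_sound _ ((band_iff _ _).1 (cd_a q hq).1).1
    · exact mt_sound _ ((band_iff _ _).1 (cd_b q hq).1).1
    · exact mt_sound _ ((band_iff _ _).1 (cd_c q hq).1).1
    · exact mt_sound _ ((band_iff _ _).1 (cd_d q hq).1).1
    · exact mt_sound _ ((band_iff _ _).1 (cd_e q hq).1).1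
    · exact mt_sound _ ((band_iff _ _).1 (cd_f q hq).1).1
    · exact mt_sound _ ((band_iff _ _).1 (cd_g q hq).1).1
    · exact mt_sound _ ((band_iff _ _).1 (cd_j q hq).1).1
    · exact mt_sound _ ((band_iff _ _).1 (cd_h q hq).1).1
    · exact mt_sound _ ((band_iff _ _).1 (cd_i q hq).1).1
  · intro q hq c
    cases c
    · exact Nat.eq_of_beq_eq_true ((band_iff _ _).1 (cd_l q hq).1).2
    · exact Nat.eq_of_beq_eq_true ((band_iff _ _).1 (cd_k q hq).1).2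
    · exact Nat.eq_of_beq_eq_true ((band_iff _ _).1 (cd_a q hq).1).2
    · exact Nat.eq_of_beq_eq_true ((band_iff _ _).1 (cd_b q hq).1).2
    · exact Nat.eq_of_beq_eq_true ((band_iff _ _).1 (cd_c q hq).1).2
    · exact Nat.eq_of_beq_eq_true ((band_iff _ _).1 (cd_d q hq).1).2
    · exact Nat.eq_of_beq_eq_true ((band_iff _ _).1 (cd_e q hq).1).2
    · exact Nat.eq_of_beq_eq_true ((band_iff _ _).1 (cd_f q hq).1).2
    · exact Nat.eq_of_beq_eq_true ((band_iff _ _).1 (cd_g q hq).1).2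
    · exact Nat.eq_of_beq_eq_true ((band_iff _ _).1 (cd_j q hq).1).2
    · exact Nat.eq_of_beq_eq_true ((band_iff _ _).1 (cd_h q hq).1).2
    · exact Nat.eq_of_beq_eq_true ((band_iff _ _).1 (cd_i q hq).1).2
theorem nodup : L.toList.Nodup := ((bst_sound L _ _ bst_chk).2.imp (fun h => Nat.ne_of_lt h))
theorem card_L : Nat.card (Om L) = 306936 := by rw [card_Om L nodup, ← size_eq, size_L]
theorem hsd (d x : ℕ) : ∃ c, sd d x = stp c x := (brecP (P := fun y => ∃ c : Col, y = stp c x) (brecP (P := fun y => ∃ c : Col, y = stp c x) (brecP (P := fun y => ∃ c : Col, y = stp c x) ⟨.l, rfl⟩ (brecP (P := fun y => ∃ c : Col, y = stp c x) ⟨.k, rfl⟩ ⟨.a, rfl⟩)) (brecP (P := fun y => ∃ c : Col, y = stp c x) ⟨.b, rfl⟩ (brecP (P := fun y => ∃ c : Col, y = stp c x) ⟨.c, rfl⟩ ⟨.d, rfl⟩))) (brecP (P := fun y => ∃ c : Col, y = stp c x) (brecP (P := fun y => ∃ c : Col, y = stp c x) ⟨.e, rfl⟩ (brecP (P := fun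 y => ∃ c : Col, y = stp c x) ⟨.f, rfl⟩ ⟨.g, rfl⟩)) (brecP (P := fun y => ∃ c : Col, y = stp c x) ⟨.j, rfl⟩ (brecP (P := fun y => ∃ c : Col, y = stp c x) ⟨.h, rfl⟩ ⟨.i, rfl⟩))))
theorem trans : ∀ q ∈ L.toList, ∃ w : List Col, walk stp w q0 = q := transQ_sound mt_sound hsd tr
theorem tau_lt (c : Col) {q : ℕ} (hq : 0 < q) : tau c q < q := by cases c <;> exact Nat.mod_lt _ hq
theorem tau_z : lall (fun c => Nat.ble 11000000 (tau c 0)) cols = true := by decide +kernel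
theorem hz : ∀ q ∈ L.toList, ∀ c c', tau c q ≤ tau c' 0 := by
  intro q hq c c'
  have h1 := (bst_sound L _ _ bst_chk).1 q hq
  have h2 := tau_lt c (q := q) (by omega)
  have h3 := Nat.le_of_ble_eq_true ((lall_iff _ _).1 tau_z c' (hcols c'))
  omega
theorem ac_0 : agChk idx inv RW SW2 a_0 = true := by decide +kernel
theorem ac_1 : agChk idx inv RW SW2 a_1 = true := by decide +kernel
theorem ac_2 : agChk idx inv RW SW2 a_2 = true := by decide +kernel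
theorem ac_3 : agChk idx inv RW SW2 a_3 = true := by decide +kernel
theorem ac_4 : agChk idx inv RW SW2 a_4 = true := by decide +kernel
theorem ac_5 : agChk idx inv RW SW2 a_5 = true := by decide +kernel
theorem ac_6 : agChk idx inv RW SW2 a_6 = true := by decide +kernel
theorem ac_7 : agChk idx inv RW SW2 a_7 = true := by decide +kernel
theorem ac_8 : agChk idx inv RW SW2 a_8 = true := by decide +kernel
theorem ac_9 : agChk idx inv RW SW2 a_9 = true := by decide +kernel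
theorem ac_10 : agChk idx inv RW SW2 a_10 = true := by decide +kernel
theorem ac_11 : agChk idx inv RW SW2 a_11 = true := by decide +kernel
theorem ac_12 : agChk idx inv RW SW2 a_12 = true := by decide +kernel
theorem ac_13 : agChk idx inv RW SW2 a_13 = true := by decide +kernel
theorem ac_14 : agChk idx inv RW SW2 a_14 = true := by decide +kernel
theorem ac_15 : agChk idx inv RW SW2 a_15 = true := by decide +kernel
theorem ac_16 : agChk idx inv RW SW2 a_16 = true := by decide +kernel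
theorem ac_17 : agChk idx inv RW SW2 a_17 = true := by decide +kernel
theorem ac_18 : agChk idx inv RW SW2 a_18 = true := by decide +kernel
theorem ac_19 : agChk idx inv RW SW2 a_19 = true := by decide +kernel
theorem ac_20 : agChk idx inv RW SW2 a_20 = true := by decide +kernel
theorem ac_21 : agChk idx inv RW SW2 a_21 = true := by decide +kernel
theorem ac_22 : agChk idx inv RW SW2 a_22 = true := by decide +kernel
theorem ac_23 : agChk idx inv RW SW2 a_23 = true := by decide +kernel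
theorem ac_24 : agChk idx inv RW SW2 a_24 = true := by decide +kernel
theorem ac_25 : agChk idx inv RW SW2 a_25 = true := by decide +kernel
theorem ac_26 : agChk idx inv RW SW2 a_26 = true := by decide +kernel
theorem ac_27 : agChk idx inv RW SW2 a_27 = true := by decide +kernel
theorem ac_28 : agChk idx inv RW SW2 a_28 = true := by decide +kernel
theorem ac_29 : agChk idx inv RW SW2 a_29 = true := by decide +kernel
theorem ac_30 : agChk idx inv RW SW2 a_30 = true := by decide +kernel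
theorem ac_31 : agChk idx inv RW SW2 a_31 = true := by decide +kernel
theorem ac_32 : agChk idx inv RW SW2 a_32 = true := by decide +kernel
theorem ac_33 : agChk idx inv RW SW2 a_33 = true := by decide +kernel
theorem ac_34 : agChk idx inv RW SW2 a_34 = true := by decide +kernel
theorem ac_35 : agChk idx inv RW SW2 a_35 = true := by decide +kernel
theorem ac_36 : agChk idx inv RW SW2 a_36 = true := by decide +kernel
theorem ac_37 : agChk idx inv RW SW2 a_37 = true := by decide +kernel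
theorem ac_38 : agChk idx inv RW SW2 a_38 = true := by decide +kernel
theorem ac_39 : agChk idx inv RW SW2 a_39 = true := by decide +kernel
theorem ac_40 : agChk idx inv RW SW2 a_40 = true := by decide +kernel
theorem ac_41 : agChk idx inv RW SW2 a_41 = true := by decide +kernel
theorem ac_42 : agChk idx inv RW SW2 a_42 = true := by decide +kernel
theorem ac_43 : agChk idx inv RW SW2 a_43 = true := by decide +kernel
theorem ac_44 : agChk idx inv RW SW2 a_44 = true := by decide +kernel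
theorem ac_45 : agChk idx inv RW SW2 a_45 = true := by decide +kernel
theorem ac_46 : agChk idx inv RW SW2 a_46 = true := by decide +kernel
theorem ac_47 : agChk idx inv RW SW2 a_47 = true := by decide +kernel
theorem ac_48 : agChk idx inv RW SW2 a_48 = true := by decide +kernel
theorem ac_49 : agChk idx inv RW SW2 a_49 = true := by decide +kernel
theorem ac_50 : agChk idx inv RW SW2 a_50 = true := by decide +kernel
theorem ac_51 : agChk idx inv RW SW2 a_51 = true := by decide +kernel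
theorem ac_52 : agChk idx inv RW SW2 a_52 = true := by decide +kernel
theorem ac_53 : agChk idx inv RW SW2 a_53 = true := by decide +kernel
theorem ac_54 : agChk idx inv RW SW2 a_54 = true := by decide +kernel
theorem ac_55 : agChk idx inv RW SW2 a_55 = true := by decide +kernel
theorem ac_56 : agChk idx inv RW SW2 a_56 = true := by decide +kernel
theorem ac_57 : agChk idx inv RW SW2 a_57 = true := by decide +kernel
theorem ac_58 : agChk idx inv RW SW2 a_58 = true := by decide +kernel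
theorem ac_59 : agChk idx inv RW SW2 a_59 = true := by decide +kernel
theorem ac_60 : agChk idx inv RW SW2 a_60 = true := by decide +kernel
theorem ac_61 : agChk idx inv RW SW2 a_61 = true := by decide +kernel
theorem ac_62 : agChk idx inv RW SW2 a_62 = true := by decide +kernel
theorem ac_63 : agChk idx inv RW SW2 a_63 = true := by decide +kernel
theorem ac_64 : agChk idx inv RW SW2 a_64 = true := by decide +kernel
theorem ac_65 : agChk idx inv RW SW2 a_65 = true := by decide +kernel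
theorem ac_66 : agChk idx inv RW SW2 a_66 = true := by decide +kernel
theorem ac_67 : agChk idx inv RW SW2 a_67 = true := by decide +kernel
theorem ac_68 : agChk idx inv RW SW2 a_68 = true := by decide +kernel
theorem ac_69 : agChk idx inv RW SW2 a_69 = true := by decide +kernel
theorem ac_70 : agChk idx inv RW SW2 a_70 = true := by decide +kernel
theorem ac_71 : agChk idx inv RW SW2 a_71 = true := by decide +kernel
theorem ac_72 : agChk idx inv RW SW2 a_72 = true := by decide +kernel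
theorem ac_73 : agChk idx inv RW SW2 a_73 = true := by decide +kernel
theorem ac_74 : agChk idx inv RW SW2 a_74 = true := by decide +kernel
theorem ac_75 : agChk idx inv RW SW2 a_75 = true := by decide +kernel
theorem ac_76 : agChk idx inv RW SW2 a_76 = true := by decide +kernel
theorem ac_77 : agChk idx inv RW SW2 a_77 = true := by decide +kernel
theorem ac_78 : agChk idx inv RW SW2 a_78 = true := by decide +kernel
theorem ac_79 : agChk idx inv RW SW2 a_79 = true := by decide +kernel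
theorem ac_80 : agChk idx inv RW SW2 a_80 = true := by decide +kernel
theorem ac_81 : agChk idx inv RW SW2 a_81 = true := by decide +kernel
theorem ac_82 : agChk idx inv RW SW2 a_82 = true := by decide +kernel
theorem ac_83 : agChk idx inv RW SW2 a_83 = true := by decide +kernel
theorem ac_84 : agChk idx inv RW SW2 a_84 = true := by decide +kernel
theorem ac_85 : agChk idx inv RW SW2 a_85 = true := by decide +kernel
theorem ac_86 : agChk idx inv RW SW2 a_86 = true := by decide +kernel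
theorem ac_87 : agChk idx inv RW SW2 a_87 = true := by decide +kernel
theorem ac_88 : agChk idx inv RW SW2 a_88 = true := by decide +kernel
theorem ac_89 : agChk idx inv RW SW2 a_89 = true := by decide +kernel
theorem ac_90 : agChk idx inv RW SW2 a_90 = true := by decide +kernel
theorem ac_91 : agChk idx inv RW SW2 a_91 = true := by decide +kernel
theorem ac_92 : agChk idx inv RW SW2 a_92 = true := by decide +kernel
theorem ac_93 : agChk idx inv RW SW2 a_93 = true := by decide +kernel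
theorem ac_94 : agChk idx inv RW SW2 a_94 = true := by decide +kernel
theorem ac_95 : agChk idx inv RW SW2 a_95 = true := by decide +kernel
theorem ac_96 : agChk idx inv RW SW2 a_96 = true := by decide +kernel
theorem ac_97 : agChk idx inv RW SW2 a_97 = true := by decide +kernel
theorem ac_98 : agChk idx inv RW SW2 a_98 = true := by decide +kernel
theorem ac_99 : agChk idx inv RW SW2 a_99 = true := by decide +kernel
theorem ac_100 : agChk idx inv RW SW2 a_100 = true := by decide +kernel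
theorem ac_101 : agChk idx inv RW SW2 a_101 = true := by decide +kernel
theorem ac_102 : agChk idx inv RW SW2 a_102 = true := by decide +kernel
theorem ac_103 : agChk idx inv RW SW2 a_103 = true := by decide +kernel
theorem ac_104 : agChk idx inv RW SW2 a_104 = true := by decide +kernel
theorem ac_105 : agChk idx inv RW SW2 a_105 = true := by decide +kernel
theorem ac_106 : agChk idx inv RW SW2 a_106 = true := by decide +kernel
theorem ac_107 : agChk idx inv RW SW2 a_107 = true := by decide +kernel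
theorem ac_108 : agChk idx inv RW SW2 a_108 = true := by decide +kernel
theorem ac_109 : agChk idx inv RW SW2 a_109 = true := by decide +kernel
theorem ac_110 : agChk idx inv RW SW2 a_110 = true := by decide +kernel
theorem ac_111 : agChk idx inv RW SW2 a_111 = true := by decide +kernel
theorem ac_112 : agChk idx inv RW SW2 a_112 = true := by decide +kernel
theorem ac_113 : agChk idx inv RW SW2 a_113 = true := by decide +kernel
theorem ac_114 : agChk idx inv RW SW2 a_114 = true := by decide +kernel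
theorem ac_115 : agChk idx inv RW SW2 a_115 = true := by decide +kernel
theorem ac_116 : agChk idx inv RW SW2 a_116 = true := by decide +kernel
theorem ac_117 : agChk idx inv RW SW2 a_117 = true := by decide +kernel
theorem ac_118 : agChk idx inv RW SW2 a_118 = true := by decide +kernel
theorem ac_119 : agChk idx inv RW SW2 a_119 = true := by decide +kernel
theorem ac_120 : agChk idx inv RW SW2 a_120 = true := by decide +kernel
theorem ac_121 : agChk idx inv RW SW2 a_121 = true := by decide +kernel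
theorem ac_122 : agChk idx inv RW SW2 a_122 = true := by decide +kernel
theorem ac_123 : agChk idx inv RW SW2 a_123 = true := by decide +kernel
theorem ac_124 : agChk idx inv RW SW2 a_124 = true := by decide +kernel
theorem ac_125 : agChk idx inv RW SW2 a_125 = true := by decide +kernel
theorem ac_126 : agChk idx inv RW SW2 a_126 = true := by decide +kernel
theorem ac_127 : agChk idx inv RW SW2 a_127 = true := by decide +kernel
theorem ac_128 : agChk idx inv RW SW2 a_128 = true := by decide +kernel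
theorem ac_129 : agChk idx inv RW SW2 a_129 = true := by decide +kernel
theorem ac_130 : agChk idx inv RW SW2 a_130 = true := by decide +kernel
theorem ac_131 : agChk idx inv RW SW2 a_131 = true := by decide +kernel
theorem ac_132 : agChk idx inv RW SW2 a_132 = true := by decide +kernel
theorem ac_133 : agChk idx inv RW SW2 a_133 = true := by decide +kernel
theorem ac_134 : agChk idx inv RW SW2 a_134 = true := by decide +kernel
theorem ac_135 : agChk idx inv RW SW2 a_135 = true := by decide +kernel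
theorem ac_136 : agChk idx inv RW SW2 a_136 = true := by decide +kernel
theorem ac_137 : agChk idx inv RW SW2 a_137 = true := by decide +kernel
theorem ac_138 : agChk idx inv RW SW2 a_138 = true := by decide +kernel
theorem ac_139 : agChk idx inv RW SW2 a_139 = true := by decide +kernel
theorem ac_140 : agChk idx inv RW SW2 a_140 = true := by decide +kernel
theorem ac_141 : agChk idx inv RW SW2 a_141 = true := by decide +kernel
theorem ac_142 : agChk idx inv RW SW2 a_142 = true := by decide +kernel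
theorem ac_143 : agChk idx inv RW SW2 a_143 = true := by decide +kernel
theorem ac_144 : agChk idx inv RW SW2 a_144 = true := by decide +kernel
theorem ac_145 : agChk idx inv RW SW2 a_145 = true := by decide +kernel
theorem ac_146 : agChk idx inv RW SW2 a_146 = true := by decide +kernel
theorem ac_147 : agChk idx inv RW SW2 a_147 = true := by decide +kernel
theorem ac_148 : agChk idx inv RW SW2 a_148 = true := by decide +kernel
theorem ac_149 : agChk idx inv RW SW2 a_149 = true := by decide +kernel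
theorem ac_150 : agChk idx inv RW SW2 a_150 = true := by decide +kernel
theorem ac_151 : agChk idx inv RW SW2 a_151 = true := by decide +kernel
theorem ac_152 : agChk idx inv RW SW2 a_152 = true := by decide +kernel
theorem ac_153 : agChk idx inv RW SW2 a_153 = true := by decide +kernel
theorem ac_154 : agChk idx inv RW SW2 a_154 = true := by decide +kernel
theorem ac_155 : agChk idx inv RW SW2 a_155 = true := by decide +kernel
theorem ac_156 : agChk idx inv RW SW2 a_156 = true := by decide +kernel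
theorem ac_157 : agChk idx inv RW SW2 a_157 = true := by decide +kernel
theorem ac_158 : agChk idx inv RW SW2 a_158 = true := by decide +kernel
theorem ac_159 : agChk idx inv RW SW2 a_159 = true := by decide +kernel
theorem ac_160 : agChk idx inv RW SW2 a_160 = true := by decide +kernel
theorem ac_161 : agChk idx inv RW SW2 a_161 = true := by decide +kernel
theorem ac_162 : agChk idx inv RW SW2 a_162 = true := by decide +kernel
theorem ac_163 : agChk idx inv RW SW2 a_163 = true := by decide +kernel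
theorem ac_164 : agChk idx inv RW SW2 a_164 = true := by decide +kernel
theorem ac_165 : agChk idx inv RW SW2 a_165 = true := by decide +kernel
theorem ac_166 : agChk idx inv RW SW2 a_166 = true := by decide +kernel
theorem ac_167 : agChk idx inv RW SW2 a_167 = true := by decide +kernel
theorem ac_168 : agChk idx inv RW SW2 a_168 = true := by decide +kernel
theorem ac_169 : agChk idx inv RW SW2 a_169 = true := by decide +kernel
theorem ac_170 : agChk idx inv RW SW2 a_170 = true := by decide +kernel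
theorem ac_171 : agChk idx inv RW SW2 a_171 = true := by decide +kernel
theorem ac_172 : agChk idx inv RW SW2 a_172 = true := by decide +kernel
theorem ac_173 : agChk idx inv RW SW2 a_173 = true := by decide +kernel
theorem ac_174 : agChk idx inv RW SW2 a_174 = true := by decide +kernel
theorem j_0 (q : ℕ) (h : E_0 (UU_l q) q = true) : Just stp tau idx inv RW SW2 PT DT q0 .l q := ⟨a_0, ac_0, rfl, h⟩
theorem j_1 (q : ℕ) (h : E_1 (UU_l q) q = true) : Just stp tau idx inv RW SW2 PT DT q0 .l q := ⟨a_1, ac_1, rfl, h⟩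
theorem j_2 (q : ℕ) (h : E_2 (UU_l q) q = true) : Just stp tau idx inv RW SW2 PT DT q0 .l q := ⟨a_2, ac_2, rfl, h⟩
theorem j_3 (q : ℕ) (h : E_3 (UU_l q) q = true) : Just stp tau idx inv RW SW2 PT DT q0 .l q := ⟨a_3, ac_3, rfl, h⟩
theorem j_4 (q : ℕ) (h : E_4 (UU_l q) q = true) : Just stp tau idx inv RW SW2 PT DT q0 .l q := ⟨a_4, ac_4, rfl, h⟩
theorem j_5 (q : ℕ) (h : E_5 (UU_l q) q = true) : Just stp tau idx inv RW SW2 PT DT q0 .l q := ⟨a_5, ac_5, rfl, h⟩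
theorem j_6 (q : ℕ) (h : E_6 (UU_l q) q = true) : Just stp tau idx inv RW SW2 PT DT q0 .l q := ⟨a_6, ac_6, rfl, h⟩
theorem j_7 (q : ℕ) (h : E_7 (UU_l q) q = true) : Just stp tau idx inv RW SW2 PT DT q0 .l q := ⟨a_7, ac_7, rfl, h⟩
theorem j_8 (q : ℕ) (h : E_8 (UU_l q) q = true) : Just stp tau idx inv RW SW2 PT DT q0 .l q := ⟨a_8, ac_8, rfl, h⟩
theorem j_9 (q : ℕ) (h : E_9 (UU_l q) q = true) : Just stp tau idx inv RW SW2 PT DT q0 .l q := ⟨a_9, ac_9, rfl, h⟩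
theorem j_10 (q : ℕ) (h : E_10 (UU_l q) q = true) : Just stp tau idx inv RW SW2 PT DT q0 .l q := ⟨a_10, ac_10, rfl, h⟩
theorem j_11 (q : ℕ) (h : E_11 (UU_l q) q = true) : Just stp tau idx inv RW SW2 PT DT q0 .l q := ⟨a_11, ac_11, rfl, h⟩
theorem j_12 (q : ℕ) (h : E_12 (UU_l q) q = true) : Just stp tau idx inv RW SW2 PT DT q0 .l q := ⟨a_12, ac_12, rfl, h⟩
theorem j_13 (q : ℕ) (h : E_13 (UU_l q) q = true) : Just stp tau idx inv RW SW2 PT DT q0 .l q := ⟨a_13, ac_13, rfl, h⟩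
theorem j_14 (q : ℕ) (h : E_14 (UU_k q) q = true) : Just stp tau idx inv RW SW2 PT DT q0 .k q := ⟨a_14, ac_14, rfl, h⟩
theorem j_15 (q : ℕ) (h : E_15 (UU_k q) q = true) : Just stp tau idx inv RW SW2 PT DT q0 .k q := ⟨a_15, ac_15, rfl, h⟩
theorem j_16 (q : ℕ) (h : E_16 (UU_k q) q = true) : Just stp tau idx inv RW SW2 PT DT q0 .k q := ⟨a_16, ac_16, rfl, h⟩
theorem j_17 (q : ℕ) (h : E_17 (UU_k q) q = true) : Just stp tau idx inv RW SW2 PT DT q0 .k q := ⟨a_17, ac_17, rfl, h⟩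
theorem j_18 (q : ℕ) (h : E_18 (UU_k q) q = true) : Just stp tau idx inv RW SW2 PT DT q0 .k q := ⟨a_18, ac_18, rfl, h⟩
theorem j_19 (q : ℕ) (h : E_19 (UU_k q) q = true) : Just stp tau idx inv RW SW2 PT DT q0 .k q := ⟨a_19, ac_19, rfl, h⟩
theorem j_20 (q : ℕ) (h : E_20 (UU_k q) q = true) : Just stp tau idx inv RW SW2 PT DT q0 .k q := ⟨a_20, ac_20, rfl, h⟩
theorem j_21 (q : ℕ) (h : E_21 (UU_k q) q = true) : Just stp tau idx inv RW SW2 PT DT q0 .k q := ⟨a_21, ac_21, rfl, h⟩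
theorem j_22 (q : ℕ) (h : E_22 (UU_k q) q = true) : Just stp tau idx inv RW SW2 PT DT q0 .k q := ⟨a_22, ac_22, rfl, h⟩
theorem j_23 (q : ℕ) (h : E_23 (UU_k q) q = true) : Just stp tau idx inv RW SW2 PT DT q0 .k q := ⟨a_23, ac_23, rfl, h⟩
theorem j_24 (q : ℕ) (h : E_24 (UU_k q) q = true) : Just stp tau idx inv RW SW2 PT DT q0 .k q := ⟨a_24, ac_24, rfl, h⟩
theorem j_25 (q : ℕ) (h : E_25 (UU_k q) q = true) : Just stp tau idx inv RW SW2 PT DT q0 .k q := ⟨a_25, ac_25, rfl, h⟩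
theorem j_26 (q : ℕ) (h : E_26 (UU_k q) q = true) : Just stp tau idx inv RW SW2 PT DT q0 .k q := ⟨a_26, ac_26, rfl, h⟩
theorem j_27 (q : ℕ) (h : E_27 (UU_a q) q = true) : Just stp tau idx inv RW SW2 PT DT q0 .a q := ⟨a_27, ac_27, rfl, h⟩
theorem j_28 (q : ℕ) (h : E_28 (UU_a q) q = true) : Just stp tau idx inv RW SW2 PT DT q0 .a q := ⟨a_28, ac_28, rfl, h⟩
theorem j_29 (q : ℕ) (h : E_29 (UU_a q) q = true) : Just stp tau idx inv RW SW2 PT DT q0 .a q := ⟨a_29, ac_29, rfl, h⟩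
theorem j_30 (q : ℕ) (h : E_30 (UU_a q) q = true) : Just stp tau idx inv RW SW2 PT DT q0 .a q := ⟨a_30, ac_30, rfl, h⟩
theorem j_31 (q : ℕ) (h : E_31 (UU_a q) q = true) : Just stp tau idx inv RW SW2 PT DT q0 .a q := ⟨a_31, ac_31, rfl, h⟩
theorem j_32 (q : ℕ) (h : E_32 (UU_a q) q = true) : Just stp tau idx inv RW SW2 PT DT q0 .a q := ⟨a_32, ac_32, rfl, h⟩
theorem j_33 (q : ℕ) (h : E_33 (UU_a q) q = true) : Just stp tau idx inv RW SW2 PT DT q0 .a q := ⟨a_33, ac_33, rfl, h⟩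
theorem j_34 (q : ℕ) (h : E_34 (UU_a q) q = true) : Just stp tau idx inv RW SW2 PT DT q0 .a q := ⟨a_34, ac_34, rfl, h⟩
theorem j_35 (q : ℕ) (h : E_35 (UU_a q) q = true) : Just stp tau idx inv RW SW2 PT DT q0 .a q := ⟨a_35, ac_35, rfl, h⟩
theorem j_36 (q : ℕ) (h : E_36 (UU_a q) q = true) : Just stp tau idx inv RW SW2 PT DT q0 .a q := ⟨a_36, ac_36, rfl, h⟩
theorem j_37 (q : ℕ) (h : E_37 (UU_a q) q = true) : Just stp tau idx inv RW SW2 PT DT q0 .a q := ⟨a_37, ac_37, rfl, h⟩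
theorem j_38 (q : ℕ) (h : E_38 (UU_a q) q = true) : Just stp tau idx inv RW SW2 PT DT q0 .a q := ⟨a_38, ac_38, rfl, h⟩
theorem j_39 (q : ℕ) (h : E_39 (UU_a q) q = true) : Just stp tau idx inv RW SW2 PT DT q0 .a q := ⟨a_39, ac_39, rfl, h⟩
theorem j_40 (q : ℕ) (h : E_40 (UU_a q) q = true) : Just stp tau idx inv RW SW2 PT DT q0 .a q := ⟨a_40, ac_40, rfl, h⟩
theorem j_41 (q : ℕ) (h : E_41 (UU_b q) q = true) : Just stp tau idx inv RW SW2 PT DT q0 .b q := ⟨a_41, ac_41, rfl, h⟩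
theorem j_42 (q : ℕ) (h : E_42 (UU_b q) q = true) : Just stp tau idx inv RW SW2 PT DT q0 .b q := ⟨a_42, ac_42, rfl, h⟩
theorem j_43 (q : ℕ) (h : E_43 (UU_b q) q = true) : Just stp tau idx inv RW SW2 PT DT q0 .b q := ⟨a_43, ac_43, rfl, h⟩
theorem j_44 (q : ℕ) (h : E_44 (UU_b q) q = true) : Just stp tau idx inv RW SW2 PT DT q0 .b q := ⟨a_44, ac_44, rfl, h⟩
theorem j_45 (q : ℕ) (h : E_45 (UU_b q) q = true) : Just stp tau idx inv RW SW2 PT DT q0 .b q := ⟨a_45, ac_45, rfl, h⟩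
theorem j_46 (q : ℕ) (h : E_46 (UU_b q) q = true) : Just stp tau idx inv RW SW2 PT DT q0 .b q := ⟨a_46, ac_46, rfl, h⟩
theorem j_47 (q : ℕ) (h : E_47 (UU_b q) q = true) : Just stp tau idx inv RW SW2 PT DT q0 .b q := ⟨a_47, ac_47, rfl, h⟩
theorem j_48 (q : ℕ) (h : E_48 (UU_b q) q = true) : Just stp tau idx inv RW SW2 PT DT q0 .b q := ⟨a_48, ac_48, rfl, h⟩
theorem j_49 (q : ℕ) (h : E_49 (UU_b q) q = true) : Just stp tau idx inv RW SW2 PT DT q0 .b q := ⟨a_49, ac_49, rfl, h⟩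
theorem j_50 (q : ℕ) (h : E_50 (UU_b q) q = true) : Just stp tau idx inv RW SW2 PT DT q0 .b q := ⟨a_50, ac_50, rfl, h⟩
theorem j_51 (q : ℕ) (h : E_51 (UU_b q) q = true) : Just stp tau idx inv RW SW2 PT DT q0 .b q := ⟨a_51, ac_51, rfl, h⟩
theorem j_52 (q : ℕ) (h : E_52 (UU_b q) q = true) : Just stp tau idx inv RW SW2 PT DT q0 .b q := ⟨a_52, ac_52, rfl, h⟩
theorem j_53 (q : ℕ) (h : E_53 (UU_b q) q = true) : Just stp tau idx inv RW SW2 PT DT q0 .b q := ⟨a_53, ac_53, rfl, h⟩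
theorem j_54 (q : ℕ) (h : E_54 (UU_b q) q = true) : Just stp tau idx inv RW SW2 PT DT q0 .b q := ⟨a_54, ac_54, rfl, h⟩
theorem j_55 (q : ℕ) (h : E_55 (UU_b q) q = true) : Just stp tau idx inv RW SW2 PT DT q0 .b q := ⟨a_55, ac_55, rfl, h⟩
theorem j_56 (q : ℕ) (h : E_56 (UU_c q) q = true) : Just stp tau idx inv RW SW2 PT DT q0 .c q := ⟨a_56, ac_56, rfl, h⟩
theorem j_57 (q : ℕ) (h : E_57 (UU_c q) q = true) : Just stp tau idx inv RW SW2 PT DT q0 .c q := ⟨a_57, ac_57, rfl, h⟩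
theorem j_58 (q : ℕ) (h : E_58 (UU_c q) q = true) : Just stp tau idx inv RW SW2 PT DT q0 .c q := ⟨a_58, ac_58, rfl, h⟩
theorem j_59 (q : ℕ) (h : E_59 (UU_c q) q = true) : Just stp tau idx inv RW SW2 PT DT q0 .c q := ⟨a_59, ac_59, rfl, h⟩
theorem j_60 (q : ℕ) (h : E_60 (UU_c q) q = true) : Just stp tau idx inv RW SW2 PT DT q0 .c q := ⟨a_60, ac_60, rfl, h⟩
theorem j_61 (q : ℕ) (h : E_61 (UU_c q) q = true) : Just stp tau idx inv RW SW2 PT DT q0 .c q := ⟨a_61, ac_61, rfl, h⟩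
theorem j_62 (q : ℕ) (h : E_62 (UU_c q) q = true) : Just stp tau idx inv RW SW2 PT DT q0 .c q := ⟨a_62, ac_62, rfl, h⟩
theorem j_63 (q : ℕ) (h : E_63 (UU_c q) q = true) : Just stp tau idx inv RW SW2 PT DT q0 .c q := ⟨a_63, ac_63, rfl, h⟩
theorem j_64 (q : ℕ) (h : E_64 (UU_c q) q = true) : Just stp tau idx inv RW SW2 PT DT q0 .c q := ⟨a_64, ac_64, rfl, h⟩
theorem j_65 (q : ℕ) (h : E_65 (UU_c q) q = true) : Just stp tau idx inv RW SW2 PT DT q0 .c q := ⟨a_65, ac_65, rfl, h⟩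
theorem j_66 (q : ℕ) (h : E_66 (UU_c q) q = true) : Just stp tau idx inv RW SW2 PT DT q0 .c q := ⟨a_66, ac_66, rfl, h⟩
theorem j_67 (q : ℕ) (h : E_67 (UU_c q) q = true) : Just stp tau idx inv RW SW2 PT DT q0 .c q := ⟨a_67, ac_67, rfl, h⟩
theorem j_68 (q : ℕ) (h : E_68 (UU_c q) q = true) : Just stp tau idx inv RW SW2 PT DT q0 .c q := ⟨a_68, ac_68, rfl, h⟩
theorem j_69 (q : ℕ) (h : E_69 (UU_c q) q = true) : Just stp tau idx inv RW SW2 PT DT q0 .c q := ⟨a_69, ac_69, rfl, h⟩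
theorem j_70 (q : ℕ) (h : E_70 (UU_c q) q = true) : Just stp tau idx inv RW SW2 PT DT q0 .c q := ⟨a_70, ac_70, rfl, h⟩
theorem j_71 (q : ℕ) (h : E_71 (UU_c q) q = true) : Just stp tau idx inv RW SW2 PT DT q0 .c q := ⟨a_71, ac_71, rfl, h⟩
theorem j_72 (q : ℕ) (h : E_72 (UU_c q) q = true) : Just stp tau idx inv RW SW2 PT DT q0 .c q := ⟨a_72, ac_72, rfl, h⟩
theorem j_73 (q : ℕ) (h : E_73 (UU_c q) q = true) : Just stp tau idx inv RW SW2 PT DT q0 .c q := ⟨a_73, ac_73, rfl, h⟩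
theorem j_74 (q : ℕ) (h : E_74 (UU_d q) q = true) : Just stp tau idx inv RW SW2 PT DT q0 .d q := ⟨a_74, ac_74, rfl, h⟩
theorem j_75 (q : ℕ) (h : E_75 (UU_d q) q = true) : Just stp tau idx inv RW SW2 PT DT q0 .d q := ⟨a_75, ac_75, rfl, h⟩
theorem j_76 (q : ℕ) (h : E_76 (UU_d q) q = true) : Just stp tau idx inv RW SW2 PT DT q0 .d q := ⟨a_76, ac_76, rfl, h⟩
theorem j_77 (q : ℕ) (h : E_77 (UU_d q) q = true) : Just stp tau idx inv RW SW2 PT DT q0 .d q := ⟨a_77, ac_77, rfl, h⟩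
theorem j_78 (q : ℕ) (h : E_78 (UU_d q) q = true) : Just stp tau idx inv RW SW2 PT DT q0 .d q := ⟨a_78, ac_78, rfl, h⟩
theorem j_79 (q : ℕ) (h : E_79 (UU_d q) q = true) : Just stp tau idx inv RW SW2 PT DT q0 .d q := ⟨a_79, ac_79, rfl, h⟩
theorem j_80 (q : ℕ) (h : E_80 (UU_d q) q = true) : Just stp tau idx inv RW SW2 PT DT q0 .d q := ⟨a_80, ac_80, rfl, h⟩
theorem j_81 (q : ℕ) (h : E_81 (UU_d q) q = true) : Just stp tau idx inv RW SW2 PT DT q0 .d q := ⟨a_81, ac_81, rfl, h⟩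
theorem j_82 (q : ℕ) (h : E_82 (UU_d q) q = true) : Just stp tau idx inv RW SW2 PT DT q0 .d q := ⟨a_82, ac_82, rfl, h⟩
theorem j_83 (q : ℕ) (h : E_83 (UU_d q) q = true) : Just stp tau idx inv RW SW2 PT DT q0 .d q := ⟨a_83, ac_83, rfl, h⟩
theorem j_84 (q : ℕ) (h : E_84 (UU_d q) q = true) : Just stp tau idx inv RW SW2 PT DT q0 .d q := ⟨a_84, ac_84, rfl, h⟩
theorem j_85 (q : ℕ) (h : E_85 (UU_d q) q = true) : Just stp tau idx inv RW SW2 PT DT q0 .d q := ⟨a_85, ac_85, rfl, h⟩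
theorem j_86 (q : ℕ) (h : E_86 (UU_d q) q = true) : Just stp tau idx inv RW SW2 PT DT q0 .d q := ⟨a_86, ac_86, rfl, h⟩
theorem j_87 (q : ℕ) (h : E_87 (UU_d q) q = true) : Just stp tau idx inv RW SW2 PT DT q0 .d q := ⟨a_87, ac_87, rfl, h⟩
theorem j_88 (q : ℕ) (h : E_88 (UU_e q) q = true) : Just stp tau idx inv RW SW2 PT DT q0 .e q := ⟨a_88, ac_88, rfl, h⟩
theorem j_89 (q : ℕ) (h : E_89 (UU_e q) q = true) : Just stp tau idx inv RW SW2 PT DT q0 .e q := ⟨a_89, ac_89, rfl, h⟩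
theorem j_90 (q : ℕ) (h : E_90 (UU_e q) q = true) : Just stp tau idx inv RW SW2 PT DT q0 .e q := ⟨a_90, ac_90, rfl, h⟩
theorem j_91 (q : ℕ) (h : E_91 (UU_e q) q = true) : Just stp tau idx inv RW SW2 PT DT q0 .e q := ⟨a_91, ac_91, rfl, h⟩
theorem j_92 (q : ℕ) (h : E_92 (UU_e q) q = true) : Just stp tau idx inv RW SW2 PT DT q0 .e q := ⟨a_92, ac_92, rfl, h⟩
theorem j_93 (q : ℕ) (h : E_93 (UU_e q) q = true) : Just stp tau idx inv RW SW2 PT DT q0 .e q := ⟨a_93, ac_93, rfl, h⟩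
theorem j_94 (q : ℕ) (h : E_94 (UU_e q) q = true) : Just stp tau idx inv RW SW2 PT DT q0 .e q := ⟨a_94, ac_94, rfl, h⟩
theorem j_95 (q : ℕ) (h : E_95 (UU_e q) q = true) : Just stp tau idx inv RW SW2 PT DT q0 .e q := ⟨a_95, ac_95, rfl, h⟩
theorem j_96 (q : ℕ) (h : E_96 (UU_e q) q = true) : Just stp tau idx inv RW SW2 PT DT q0 .e q := ⟨a_96, ac_96, rfl, h⟩
theorem j_97 (q : ℕ) (h : E_97 (UU_e q) q = true) : Just stp tau idx inv RW SW2 PT DT q0 .e q := ⟨a_97, ac_97, rfl, h⟩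
theorem j_98 (q : ℕ) (h : E_98 (UU_e q) q = true) : Just stp tau idx inv RW SW2 PT DT q0 .e q := ⟨a_98, ac_98, rfl, h⟩
theorem j_99 (q : ℕ) (h : E_99 (UU_e q) q = true) : Just stp tau idx inv RW SW2 PT DT q0 .e q := ⟨a_99, ac_99, rfl, h⟩
theorem j_100 (q : ℕ) (h : E_100 (UU_e q) q = true) : Just stp tau idx inv RW SW2 PT DT q0 .e q := ⟨a_100, ac_100, rfl, h⟩
theorem j_101 (q : ℕ) (h : E_101 (UU_e q) q = true) : Just stp tau idx inv RW SW2 PT DT q0 .e q := ⟨a_101, ac_101, rfl, h⟩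
theorem j_102 (q : ℕ) (h : E_102 (UU_e q) q = true) : Just stp tau idx inv RW SW2 PT DT q0 .e q := ⟨a_102, ac_102, rfl, h⟩
theorem j_103 (q : ℕ) (h : E_103 (UU_e q) q = true) : Just stp tau idx inv RW SW2 PT DT q0 .e q := ⟨a_103, ac_103, rfl, h⟩
theorem j_104 (q : ℕ) (h : E_104 (UU_f q) q = true) : Just stp tau idx inv RW SW2 PT DT q0 .f q := ⟨a_104, ac_104, rfl, h⟩
theorem j_105 (q : ℕ) (h : E_105 (UU_f q) q = true) : Just stp tau idx inv RW SW2 PT DT q0 .f q := ⟨a_105, ac_105, rfl, h⟩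
theorem j_106 (q : ℕ) (h : E_106 (UU_f q) q = true) : Just stp tau idx inv RW SW2 PT DT q0 .f q := ⟨a_106, ac_106, rfl, h⟩
theorem j_107 (q : ℕ) (h : E_107 (UU_f q) q = true) : Just stp tau idx inv RW SW2 PT DT q0 .f q := ⟨a_107, ac_107, rfl, h⟩
theorem j_108 (q : ℕ) (h : E_108 (UU_f q) q = true) : Just stp tau idx inv RW SW2 PT DT q0 .f q := ⟨a_108, ac_108, rfl, h⟩
theorem j_109 (q : ℕ) (h : E_109 (UU_f q) q = true) : Just stp tau idx inv RW SW2 PT DT q0 .f q := ⟨a_109, ac_109, rfl, h⟩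
theorem j_110 (q : ℕ) (h : E_110 (UU_f q) q = true) : Just stp tau idx inv RW SW2 PT DT q0 .f q := ⟨a_110, ac_110, rfl, h⟩
theorem j_111 (q : ℕ) (h : E_111 (UU_f q) q = true) : Just stp tau idx inv RW SW2 PT DT q0 .f q := ⟨a_111, ac_111, rfl, h⟩
theorem j_112 (q : ℕ) (h : E_112 (UU_f q) q = true) : Just stp tau idx inv RW SW2 PT DT q0 .f q := ⟨a_112, ac_112, rfl, h⟩
theorem j_113 (q : ℕ) (h : E_113 (UU_f q) q = true) : Just stp tau idx inv RW SW2 PT DT q0 .f q := ⟨a_113, ac_113, rfl, h⟩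
theorem j_114 (q : ℕ) (h : E_114 (UU_f q) q = true) : Just stp tau idx inv RW SW2 PT DT q0 .f q := ⟨a_114, ac_114, rfl, h⟩
theorem j_115 (q : ℕ) (h : E_115 (UU_f q) q = true) : Just stp tau idx inv RW SW2 PT DT q0 .f q := ⟨a_115, ac_115, rfl, h⟩
theorem j_116 (q : ℕ) (h : E_116 (UU_f q) q = true) : Just stp tau idx inv RW SW2 PT DT q0 .f q := ⟨a_116, ac_116, rfl, h⟩
theorem j_117 (q : ℕ) (h : E_117 (UU_f q) q = true) : Just stp tau idx inv RW SW2 PT DT q0 .f q := ⟨a_117, ac_117, rfl, h⟩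
theorem j_118 (q : ℕ) (h : E_118 (UU_g q) q = true) : Just stp tau idx inv RW SW2 PT DT q0 .g q := ⟨a_118, ac_118, rfl, h⟩
theorem j_119 (q : ℕ) (h : E_119 (UU_g q) q = true) : Just stp tau idx inv RW SW2 PT DT q0 .g q := ⟨a_119, ac_119, rfl, h⟩
theorem j_120 (q : ℕ) (h : E_120 (UU_g q) q = true) : Just stp tau idx inv RW SW2 PT DT q0 .g q := ⟨a_120, ac_120, rfl, h⟩
theorem j_121 (q : ℕ) (h : E_121 (UU_g q) q = true) : Just stp tau idx inv RW SW2 PT DT q0 .g q := ⟨a_121, ac_121, rfl, h⟩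
theorem j_122 (q : ℕ) (h : E_122 (UU_g q) q = true) : Just stp tau idx inv RW SW2 PT DT q0 .g q := ⟨a_122, ac_122, rfl, h⟩
theorem j_123 (q : ℕ) (h : E_123 (UU_g q) q = true) : Just stp tau idx inv RW SW2 PT DT q0 .g q := ⟨a_123, ac_123, rfl, h⟩
theorem j_124 (q : ℕ) (h : E_124 (UU_g q) q = true) : Just stp tau idx inv RW SW2 PT DT q0 .g q := ⟨a_124, ac_124, rfl, h⟩
theorem j_125 (q : ℕ) (h : E_125 (UU_g q) q = true) : Just stp tau idx inv RW SW2 PT DT q0 .g q := ⟨a_125, ac_125, rfl, h⟩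
theorem j_126 (q : ℕ) (h : E_126 (UU_g q) q = true) : Just stp tau idx inv RW SW2 PT DT q0 .g q := ⟨a_126, ac_126, rfl, h⟩
theorem j_127 (q : ℕ) (h : E_127 (UU_g q) q = true) : Just stp tau idx inv RW SW2 PT DT q0 .g q := ⟨a_127, ac_127, rfl, h⟩
theorem j_128 (q : ℕ) (h : E_128 (UU_g q) q = true) : Just stp tau idx inv RW SW2 PT DT q0 .g q := ⟨a_128, ac_128, rfl, h⟩
theorem j_129 (q : ℕ) (h : E_129 (UU_g q) q = true) : Just stp tau idx inv RW SW2 PT DT q0 .g q := ⟨a_129, ac_129, rfl, h⟩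
theorem j_130 (q : ℕ) (h : E_130 (UU_g q) q = true) : Just stp tau idx inv RW SW2 PT DT q0 .g q := ⟨a_130, ac_130, rfl, h⟩
theorem j_131 (q : ℕ) (h : E_131 (UU_g q) q = true) : Just stp tau idx inv RW SW2 PT DT q0 .g q := ⟨a_131, ac_131, rfl, h⟩
theorem j_132 (q : ℕ) (h : E_132 (UU_j q) q = true) : Just stp tau idx inv RW SW2 PT DT q0 .j q := ⟨a_132, ac_132, rfl, h⟩
theorem j_133 (q : ℕ) (h : E_133 (UU_j q) q = true) : Just stp tau idx inv RW SW2 PT DT q0 .j q := ⟨a_133, ac_133, rfl, h⟩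
theorem j_134 (q : ℕ) (h : E_134 (UU_j q) q = true) : Just stp tau idx inv RW SW2 PT DT q0 .j q := ⟨a_134, ac_134, rfl, h⟩
theorem j_135 (q : ℕ) (h : E_135 (UU_j q) q = true) : Just stp tau idx inv RW SW2 PT DT q0 .j q := ⟨a_135, ac_135, rfl, h⟩
theorem j_136 (q : ℕ) (h : E_136 (UU_j q) q = true) : Just stp tau idx inv RW SW2 PT DT q0 .j q := ⟨a_136, ac_136, rfl, h⟩
theorem j_137 (q : ℕ) (h : E_137 (UU_j q) q = true) : Just stp tau idx inv RW SW2 PT DT q0 .j q := ⟨a_137, ac_137, rfl, h⟩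
theorem j_138 (q : ℕ) (h : E_138 (UU_j q) q = true) : Just stp tau idx inv RW SW2 PT DT q0 .j q := ⟨a_138, ac_138, rfl, h⟩
theorem j_139 (q : ℕ) (h : E_139 (UU_j q) q = true) : Just stp tau idx inv RW SW2 PT DT q0 .j q := ⟨a_139, ac_139, rfl, h⟩
theorem j_140 (q : ℕ) (h : E_140 (UU_j q) q = true) : Just stp tau idx inv RW SW2 PT DT q0 .j q := ⟨a_140, ac_140, rfl, h⟩
theorem j_141 (q : ℕ) (h : E_141 (UU_j q) q = true) : Just stp tau idx inv RW SW2 PT DT q0 .j q := ⟨a_141, ac_141, rfl, h⟩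
theorem j_142 (q : ℕ) (h : E_142 (UU_j q) q = true) : Just stp tau idx inv RW SW2 PT DT q0 .j q := ⟨a_142, ac_142, rfl, h⟩
theorem j_143 (q : ℕ) (h : E_143 (UU_j q) q = true) : Just stp tau idx inv RW SW2 PT DT q0 .j q := ⟨a_143, ac_143, rfl, h⟩
theorem j_144 (q : ℕ) (h : E_144 (UU_j q) q = true) : Just stp tau idx inv RW SW2 PT DT q0 .j q := ⟨a_144, ac_144, rfl, h⟩
theorem j_145 (q : ℕ) (h : E_145 (UU_j q) q = true) : Just stp tau idx inv RW SW2 PT DT q0 .j q := ⟨a_145, ac_145, rfl, h⟩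
theorem j_146 (q : ℕ) (h : E_146 (UU_h q) q = true) : Just stp tau idx inv RW SW2 PT DT q0 .h q := ⟨a_146, ac_146, rfl, h⟩
theorem j_147 (q : ℕ) (h : E_147 (UU_h q) q = true) : Just stp tau idx inv RW SW2 PT DT q0 .h q := ⟨a_147, ac_147, rfl, h⟩
theorem j_148 (q : ℕ) (h : E_148 (UU_h q) q = true) : Just stp tau idx inv RW SW2 PT DT q0 .h q := ⟨a_148, ac_148, rfl, h⟩
theorem j_149 (q : ℕ) (h : E_149 (UU_h q) q = true) : Just stp tau idx inv RW SW2 PT DT q0 .h q := ⟨a_149, ac_149, rfl, h⟩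
theorem j_150 (q : ℕ) (h : E_150 (UU_h q) q = true) : Just stp tau idx inv RW SW2 PT DT q0 .h q := ⟨a_150, ac_150, rfl, h⟩
theorem j_151 (q : ℕ) (h : E_151 (UU_h q) q = true) : Just stp tau idx inv RW SW2 PT DT q0 .h q := ⟨a_151, ac_151, rfl, h⟩
theorem j_152 (q : ℕ) (h : E_152 (UU_h q) q = true) : Just stp tau idx inv RW SW2 PT DT q0 .h q := ⟨a_152, ac_152, rfl, h⟩
theorem j_153 (q : ℕ) (h : E_153 (UU_h q) q = true) : Just stp tau idx inv RW SW2 PT DT q0 .h q := ⟨a_153, ac_153, rfl, h⟩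
theorem j_154 (q : ℕ) (h : E_154 (UU_h q) q = true) : Just stp tau idx inv RW SW2 PT DT q0 .h q := ⟨a_154, ac_154, rfl, h⟩
theorem j_155 (q : ℕ) (h : E_155 (UU_h q) q = true) : Just stp tau idx inv RW SW2 PT DT q0 .h q := ⟨a_155, ac_155, rfl, h⟩
theorem j_156 (q : ℕ) (h : E_156 (UU_h q) q = true) : Just stp tau idx inv RW SW2 PT DT q0 .h q := ⟨a_156, ac_156, rfl, h⟩
theorem j_157 (q : ℕ) (h : E_157 (UU_h q) q = true) : Just stp tau idx inv RW SW2 PT DT q0 .h q := ⟨a_157, ac_157, rfl, h⟩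
theorem j_158 (q : ℕ) (h : E_158 (UU_h q) q = true) : Just stp tau idx inv RW SW2 PT DT q0 .h q := ⟨a_158, ac_158, rfl, h⟩
theorem j_159 (q : ℕ) (h : E_159 (UU_h q) q = true) : Just stp tau idx inv RW SW2 PT DT q0 .h q := ⟨a_159, ac_159, rfl, h⟩
theorem j_160 (q : ℕ) (h : E_160 (UU_i q) q = true) : Just stp tau idx inv RW SW2 PT DT q0 .i q := ⟨a_160, ac_160, rfl, h⟩
theorem j_161 (q : ℕ) (h : E_161 (UU_i q) q = true) : Just stp tau idx inv RW SW2 PT DT q0 .i q := ⟨a_161, ac_161, rfl, h⟩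
theorem j_162 (q : ℕ) (h : E_162 (UU_i q) q = true) : Just stp tau idx inv RW SW2 PT DT q0 .i q := ⟨a_162, ac_162, rfl, h⟩
theorem j_163 (q : ℕ) (h : E_163 (UU_i q) q = true) : Just stp tau idx inv RW SW2 PT DT q0 .i q := ⟨a_163, ac_163, rfl, h⟩
theorem j_164 (q : ℕ) (h : E_164 (UU_i q) q = true) : Just stp tau idx inv RW SW2 PT DT q0 .i q := ⟨a_164, ac_164, rfl, h⟩
theorem j_165 (q : ℕ) (h : E_165 (UU_i q) q = true) : Just stp tau idx inv RW SW2 PT DT q0 .i q := ⟨a_165, ac_165, rfl, h⟩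
theorem j_166 (q : ℕ) (h : E_166 (UU_i q) q = true) : Just stp tau idx inv RW SW2 PT DT q0 .i q := ⟨a_166, ac_166, rfl, h⟩
theorem j_167 (q : ℕ) (h : E_167 (UU_i q) q = true) : Just stp tau idx inv RW SW2 PT DT q0 .i q := ⟨a_167, ac_167, rfl, h⟩
theorem j_168 (q : ℕ) (h : E_168 (UU_i q) q = true) : Just stp tau idx inv RW SW2 PT DT q0 .i q := ⟨a_168, ac_168, rfl, h⟩
theorem j_169 (q : ℕ) (h : E_169 (UU_i q) q = true) : Just stp tau idx inv RW SW2 PT DT q0 .i q := ⟨a_169, ac_169, rfl, h⟩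
theorem j_170 (q : ℕ) (h : E_170 (UU_i q) q = true) : Just stp tau idx inv RW SW2 PT DT q0 .i q := ⟨a_170, ac_170, rfl, h⟩
theorem j_171 (q : ℕ) (h : E_171 (UU_i q) q = true) : Just stp tau idx inv RW SW2 PT DT q0 .i q := ⟨a_171, ac_171, rfl, h⟩
theorem j_172 (q : ℕ) (h : E_172 (UU_i q) q = true) : Just stp tau idx inv RW SW2 PT DT q0 .i q := ⟨a_172, ac_172, rfl, h⟩
theorem j_173 (q : ℕ) (h : E_173 (UU_i q) q = true) : Just stp tau idx inv RW SW2 PT DT q0 .i q := ⟨a_173, ac_173, rfl, h⟩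
theorem j_174 (q : ℕ) (h : E_174 (UU_i q) q = true) : Just stp tau idx inv RW SW2 PT DT q0 .i q := ⟨a_174, ac_174, rfl, h⟩
theorem jc_l (q : ℕ) (h : D_l q = true) : Just stp tau idx inv RW SW2 PT DT q0 .l q := (brec (brec (j_0 q) (j_1 q)) (brec (brec (brec (j_2 q) (brec (j_3 q) (j_4 q))) (brec (j_5 q) (brec (j_6 q) (j_7 q)))) (brec (brec (j_8 q) (brec (j_9 q) (j_10 q))) (brec (j_11 q) (brec (j_12 q) (j_13 q)))))) h
theorem jc_k (q : ℕ) (h : D_k q = true) : Just stp tau idx inv RW SW2 PT DT q0 .k q := (brec (brec (j_14 q) (j_15 q)) (brec (brec (brec (j_16 q) (j_17 q)) (brec (j_18 q) (brec (j_19 q) (j_20 q)))) (brec (brec (j_21 q) (brec (j_22 q) (j_23 q))) (brec (j_24 q) (brec (j_25 q) (j_26 q)))))) h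
theorem jc_a (q : ℕ) (h : D_a q = true) : Just stp tau idx inv RW SW2 PT DT q0 .a q := (brec (brec (j_27 q) (j_28 q)) (brec (brec (brec (j_29 q) (brec (j_30 q) (j_31 q))) (brec (j_32 q) (brec (j_33 q) (j_34 q)))) (brec (brec (j_35 q) (brec (j_36 q) (j_37 q))) (brec (j_38 q) (brec (j_39 q) (j_40 q)))))) h
theorem jc_b (q : ℕ) (h : D_b q = true) : Just stp tau idx inv RW SW2 PT DT q0 .b q := (brec (brec (j_41 q) (j_42 q)) (brec (brec (brec (j_43 q) (brec (j_44 q) (j_45 q))) (brec (j_46 q) (brec (j_47 q) (j_48 q)))) (brec (brec (j_49 q) (brec (j_50 q) (j_51 q))) (brec (brec (j_52 q) (j_53 q)) (brec (j_54 q) (j_55 q)))))) h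
theorem jc_c (q : ℕ) (h : D_c q = true) : Just stp tau idx inv RW SW2 PT DT q0 .c q := (brec (brec (j_56 q) (j_57 q)) (brec (brec (brec (brec (j_58 q) (j_59 q)) (brec (j_60 q) (j_61 q))) (brec (brec (j_62 q) (j_63 q)) (brec (j_64 q) (j_65 q)))) (brec (brec (brec (j_66 q) (j_67 q)) (brec (j_68 q) (j_69 q))) (brec (brec (j_70 q) (j_71 q)) (brec (j_72 q) (j_73 q)))))) h
theorem jc_d (q : ℕ) (h : D_d q = true) : Just stp tau idx inv RW SW2 PT DT q0 .d q := (brec (brec (j_74 q) (j_75 q)) (brec (brec (brec (j_76 q) (brec (j_77 q) (j_78 q))) (brec (j_79 q) (brec (j_80 q) (j_81 q)))) (brec (brec (j_82 q) (brec (j_83 q) (j_84 q))) (brec (j_85 q) (brec (j_86 q) (j_87 q)))))) h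
theorem jc_e (q : ℕ) (h : D_e q = true) : Just stp tau idx inv RW SW2 PT DT q0 .e q := (brec (brec (j_88 q) (j_89 q)) (brec (brec (brec (j_90 q) (brec (j_91 q) (j_92 q))) (brec (brec (j_93 q) (j_94 q)) (brec (j_95 q) (j_96 q)))) (brec (brec (j_97 q) (brec (j_98 q) (j_99 q))) (brec (brec (j_100 q) (j_101 q)) (brec (j_102 q) (j_103 q)))))) h
theorem jc_f (q : ℕ) (h : D_f q = true) : Just stp tau idx inv RW SW2 PT DT q0 .f q := (brec (brec (j_104 q) (j_105 q)) (brec (brec (brec (j_106 q) (brec (j_107 q) (j_108 q))) (brec (j_109 q) (brec (j_110 q) (j_111 q)))) (brec (brec (j_112 q) (brec (j_113 q) (j_114 q))) (brec (j_115 q) (brec (j_116 q) (j_117 q)))))) h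
theorem jc_g (q : ℕ) (h : D_g q = true) : Just stp tau idx inv RW SW2 PT DT q0 .g q := (brec (brec (j_118 q) (j_119 q)) (brec (brec (brec (j_120 q) (brec (j_121 q) (j_122 q))) (brec (j_123 q) (brec (j_124 q) (j_125 q)))) (brec (brec (j_126 q) (brec (j_127 q) (j_128 q))) (brec (j_129 q) (brec (j_130 q) (j_131 q)))))) h
theorem jc_j (q : ℕ) (h : D_j q = true) : Just stp tau idx inv RW SW2 PT DT q0 .j q := (brec (brec (j_132 q) (j_133 q)) (brec (brec (brec (j_134 q) (brec (j_135 q) (j_136 q))) (brec (j_137 q) (brec (j_138 q) (j_139 q)))) (brec (brec (j_140 q) (brec (j_141 q) (j_142 q))) (brec (j_143 q) (brec (j_144 q) (j_145 q)))))) h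
theorem jc_h (q : ℕ) (h : D_h q = true) : Just stp tau idx inv RW SW2 PT DT q0 .h q := (brec (brec (j_146 q) (j_147 q)) (brec (brec (brec (j_148 q) (brec (j_149 q) (j_150 q))) (brec (j_151 q) (brec (j_152 q) (j_153 q)))) (brec (brec (j_154 q) (brec (j_155 q) (j_156 q))) (brec (j_157 q) (brec (j_158 q) (j_159 q)))))) h
theorem jc_i (q : ℕ) (h : D_i q = true) : Just stp tau idx inv RW SW2 PT DT q0 .i q := (brec (brec (j_160 q) (j_161 q)) (brec (brec (brec (j_162 q) (brec (j_163 q) (j_164 q))) (brec (j_165 q) (brec (j_166 q) (j_167 q)))) (brec (brec (j_168 q) (brec (j_169 q) (j_170 q))) (brec (brec (j_171 q) (j_172 q)) (brec (j_173 q) (j_174 q)))))) h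
theorem hE : ∀ q ∈ L.toList, ∀ c, Just stp tau idx inv RW SW2 PT DT q0 c q := by
  intro q hq c
  cases c
  · exact jc_l q (cd_l q hq).2
  · exact jc_k q (cd_k q hq).2
  · exact jc_a q (cd_a q hq).2
  · exact jc_b q (cd_b q hq).2
  · exact jc_c q (cd_c q hq).2
  · exact jc_d q (cd_d q hq).2
  · exact jc_e q (cd_e q hq).2
  · exact jc_f q (cd_f q hq).2
  · exact jc_g q (cd_g q hq).2
  · exact jc_j q (cd_j q hq).2
  · exact jc_h q (cd_h q hq).2
  · exact jc_i q (cd_i q hq).2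
theorem stp_l (q : ℕ) : stp Col.l q = F_l q := rfl
theorem stp_k (q : ℕ) : stp Col.k q = F_k q := rfl
theorem stp_a (q : ℕ) : stp Col.a q = F_a q := rfl
theorem stp_b (q : ℕ) : stp Col.b q = F_b q := rfl
theorem stp_c (q : ℕ) : stp Col.c q = F_c q := rfl
theorem stp_d (q : ℕ) : stp Col.d q = F_d q := rfl
theorem stp_e (q : ℕ) : stp Col.e q = F_e q := rfl
theorem stp_f (q : ℕ) : stp Col.f q = F_f q := rfl
theorem stp_g (q : ℕ) : stp Col.g q = F_g q := rfl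
theorem stp_j (q : ℕ) : stp Col.j q = F_j q := rfl
theorem stp_h (q : ℕ) : stp Col.h q = F_h q := rfl
theorem stp_i (q : ℕ) : stp Col.i q = F_i q := rfl
theorem ru_0 (q : ℕ) : Rf_0 q = true ↔ Nat.beq (F_h (F_f (F_e (F_d (F_c (F_b (F_a q))))))) (WF_0 q) = true ∧ Nat.beq (F_d (F_c (F_b (F_a (F_k (F_l (F_d (F_e (F_f (F_g (F_j (F_d (F_h (F_i q)))))))))))))) (WF_1 q) = true ∧ Nat.beq (F_l (F_l q)) q = true ∧ Nat.beq (F_l (F_k (F_l (F_k (F_l (F_k q)))))) q = true ∧ Nat.beq (F_l (F_a (F_l (F_a q)))) q = true ∧ Nat.beq (F_l (F_b (F_l (F_b q)))) q = true ∧ Nat.beq (F_l (F_c (F_l (F_c q)))) q = true ∧ Nat.beq (F_l (F_d (F_l (F_d q)))) q = true ∧ Nat.beq (F_l (F_e (F_l (F_e q)))) q = true ∧ Nat.beq (F_l (F_f (F_l (F_f q)))) q = true ∧ Nat.beq (F_l (F_g (F_l (F_g q)))) q = true := by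
  unfold Rf_0
  simp only [bfalse_iff, and_true]
theorem tw_0 : ∀ q ∈ L.toList, walk stp w_WF0 q = WF_0 q := by
  intro q hq
  have h := ((ru_0 q).1 ((Tr.all_iff _ _).1 re_0 q hq)).1
  simp only [w_WF0, walk_cons, walk_nil, stp_l, stp_k, stp_a, stp_b, stp_c, stp_d, stp_e, stp_f, stp_g, stp_j, stp_h, stp_i]
  exact Nat.eq_of_beq_eq_true h
theorem tw_1 : ∀ q ∈ L.toList, walk stp w_WF1 q = WF_1 q := by
  intro q hq
  have h := ((ru_0 q).1 ((Tr.all_iff _ _).1 re_0 q hq)).2.1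
  simp only [w_WF1, walk_cons, walk_nil, stp_l, stp_k, stp_a, stp_b, stp_c, stp_d, stp_e, stp_f, stp_g, stp_j, stp_h, stp_i]
  exact Nat.eq_of_beq_eq_true h
theorem rel_0 : relChk L stp [Col.l, Col.l] = true := by
  rw [relChk, Tr.all_iff]
  intro q hq
  have h := ((ru_0 q).1 ((Tr.all_iff _ _).1 re_0 q hq)).2.2.1
  simp only [walk_cons, walk_nil, stp_l, stp_k, stp_a, stp_b, stp_c, stp_d, stp_e, stp_f, stp_g, stp_j, stp_h, stp_i]
  exact h
theorem rel_1 : relChk L stp [Col.k, Col.l, Col.k, Col.l, Col.k, Col.l] = true := by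
  rw [relChk, Tr.all_iff]
  intro q hq
  have h := ((ru_0 q).1 ((Tr.all_iff _ _).1 re_0 q hq)).2.2.2.1
  simp only [walk_cons, walk_nil, stp_l, stp_k, stp_a, stp_b, stp_c, stp_d, stp_e, stp_f, stp_g, stp_j, stp_h, stp_i]
  exact h
theorem rel_2 : relChk L stp [Col.a, Col.l, Col.a, Col.l] = true := by
  rw [relChk, Tr.all_iff]
  intro q hq
  have h := ((ru_0 q).1 ((Tr.all_iff _ _).1 re_0 q hq)).2.2.2.2.1
  simp only [walk_cons, walk_nil, stp_l, stp_k, stp_a, stp_b, stp_c, stp_d, stp_e, stp_f, stp_g, stp_j, stp_h, stp_i]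
  exact h
theorem rel_3 : relChk L stp [Col.b, Col.l, Col.b, Col.l] = true := by
  rw [relChk, Tr.all_iff]
  intro q hq
  have h := ((ru_0 q).1 ((Tr.all_iff _ _).1 re_0 q hq)).2.2.2.2.2.1
  simp only [walk_cons, walk_nil, stp_l, stp_k, stp_a, stp_b, stp_c, stp_d, stp_e, stp_f, stp_g, stp_j, stp_h, stp_i]
  exact h
theorem rel_4 : relChk L stp [Col.c, Col.l, Col.c, Col.l] = true := by
  rw [relChk, Tr.all_iff]
  intro q hq
  have h := ((ru_0 q).1 ((Tr.all_iff _ _).1 re_0 q hq)).2.2.2.2.2.2.1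
  simp only [walk_cons, walk_nil, stp_l, stp_k, stp_a, stp_b, stp_c, stp_d, stp_e, stp_f, stp_g, stp_j, stp_h, stp_i]
  exact h
theorem rel_5 : relChk L stp [Col.d, Col.l, Col.d, Col.l] = true := by
  rw [relChk, Tr.all_iff]
  intro q hq
  have h := ((ru_0 q).1 ((Tr.all_iff _ _).1 re_0 q hq)).2.2.2.2.2.2.2.1
  simp only [walk_cons, walk_nil, stp_l, stp_k, stp_a, stp_b, stp_c, stp_d, stp_e, stp_f, stp_g, stp_j, stp_h, stp_i]
  exact h
theorem rel_6 : relChk L stp [Col.e, Col.l, Col.e, Col.l] = true := by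
  rw [relChk, Tr.all_iff]
  intro q hq
  have h := ((ru_0 q).1 ((Tr.all_iff _ _).1 re_0 q hq)).2.2.2.2.2.2.2.2.1
  simp only [walk_cons, walk_nil, stp_l, stp_k, stp_a, stp_b, stp_c, stp_d, stp_e, stp_f, stp_g, stp_j, stp_h, stp_i]
  exact h
theorem rel_7 : relChk L stp [Col.f, Col.l, Col.f, Col.l] = true := by
  rw [relChk, Tr.all_iff]
  intro q hq
  have h := ((ru_0 q).1 ((Tr.all_iff _ _).1 re_0 q hq)).2.2.2.2.2.2.2.2.2.1
  simp only [walk_cons, walk_nil, stp_l, stp_k, stp_a, stp_b, stp_c, stp_d, stp_e, stp_f, stp_g, stp_j, stp_h, stp_i]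
  exact h
theorem rel_8 : relChk L stp [Col.g, Col.l, Col.g, Col.l] = true := by
  rw [relChk, Tr.all_iff]
  intro q hq
  have h := ((ru_0 q).1 ((Tr.all_iff _ _).1 re_0 q hq)).2.2.2.2.2.2.2.2.2.2
  simp only [walk_cons, walk_nil, stp_l, stp_k, stp_a, stp_b, stp_c, stp_d, stp_e, stp_f, stp_g, stp_j, stp_h, stp_i]
  exact h
theorem ru_1 (q : ℕ) : Rf_1 q = true ↔ Nat.beq (F_l (F_j (F_l (F_j q)))) q = true ∧ Nat.beq (F_l (F_h (F_l (F_h q)))) q = true ∧ Nat.beq (F_l (F_i (F_l (F_i q)))) q = true ∧ Nat.beq (F_k (F_k q)) q = true ∧ Nat.beq (F_k (F_a (F_k (F_a (F_k (F_a q)))))) q = true ∧ Nat.beq (F_k (F_b (F_k (F_b q)))) q = true ∧ Nat.beq (F_k (F_c (F_k (F_c q)))) q = true ∧ Nat.beq (F_k (F_d (F_k (F_d q)))) q = true ∧ Nat.beq (F_k (F_e (F_k (F_e q)))) q = true ∧ Nat.beq (F_k (F_f (F_k (F_f q)))) q = true ∧ Nat.beq (F_k (F_g (F_k (F_g q)))) q = true ∧ Nat.beq (F_k (F_j (F_k (F_j q)))) q =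 true ∧ Nat.beq (F_k (F_h (F_k (F_h q)))) q = true ∧ Nat.beq (F_k (F_i (F_k (F_i q)))) q = true ∧ Nat.beq (F_a (F_a q)) q = true := by
  unfold Rf_1
  simp only [bfalse_iff, and_true]
theorem rel_9 : relChk L stp [Col.j, Col.l, Col.j, Col.l] = true := by
  rw [relChk, Tr.all_iff]
  intro q hq
  have h := ((ru_1 q).1 ((Tr.all_iff _ _).1 re_1 q hq)).1
  simp only [walk_cons, walk_nil, stp_l, stp_k, stp_a, stp_b, stp_c, stp_d, stp_e, stp_f, stp_g, stp_j, stp_h, stp_i]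
  exact h
theorem rel_10 : relChk L stp [Col.h, Col.l, Col.h, Col.l] = true := by
  rw [relChk, Tr.all_iff]
  intro q hq
  have h := ((ru_1 q).1 ((Tr.all_iff _ _).1 re_1 q hq)).2.1
  simp only [walk_cons, walk_nil, stp_l, stp_k, stp_a, stp_b, stp_c, stp_d, stp_e, stp_f, stp_g, stp_j, stp_h, stp_i]
  exact h
theorem rel_11 : relChk L stp [Col.i, Col.l, Col.i, Col.l] = true := by
  rw [relChk, Tr.all_iff]
  intro q hq
  have h := ((ru_1 q).1 ((Tr.all_iff _ _).1 re_1 q hq)).2.2.1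
  simp only [walk_cons, walk_nil, stp_l, stp_k, stp_a, stp_b, stp_c, stp_d, stp_e, stp_f, stp_g, stp_j, stp_h, stp_i]
  exact h
theorem rel_12 : relChk L stp [Col.k, Col.k] = true := by
  rw [relChk, Tr.all_iff]
  intro q hq
  have h := ((ru_1 q).1 ((Tr.all_iff _ _).1 re_1 q hq)).2.2.2.1
  simp only [walk_cons, walk_nil, stp_l, stp_k, stp_a, stp_b, stp_c, stp_d, stp_e, stp_f, stp_g, stp_j, stp_h, stp_i]
  exact h
theorem rel_13 : relChk L stp [Col.a, Col.k, Col.a, Col.k, Col.a, Col.k] = true := by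
  rw [relChk, Tr.all_iff]
  intro q hq
  have h := ((ru_1 q).1 ((Tr.all_iff _ _).1 re_1 q hq)).2.2.2.2.1
  simp only [walk_cons, walk_nil, stp_l, stp_k, stp_a, stp_b, stp_c, stp_d, stp_e, stp_f, stp_g, stp_j, stp_h, stp_i]
  exact h
theorem rel_14 : relChk L stp [Col.b, Col.k, Col.b, Col.k] = true := by
  rw [relChk, Tr.all_iff]
  intro q hq
  have h := ((ru_1 q).1 ((Tr.all_iff _ _).1 re_1 q hq)).2.2.2.2.2.1
  simp only [walk_cons, walk_nil, stp_l, stp_k, stp_a, stp_b, stp_c, stp_d, stp_e, stp_f, stp_g, stp_j, stp_h, stp_i]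
  exact h
theorem rel_15 : relChk L stp [Col.c, Col.k, Col.c, Col.k] = true := by
  rw [relChk, Tr.all_iff]
  intro q hq
  have h := ((ru_1 q).1 ((Tr.all_iff _ _).1 re_1 q hq)).2.2.2.2.2.2.1
  simp only [walk_cons, walk_nil, stp_l, stp_k, stp_a, stp_b, stp_c, stp_d, stp_e, stp_f, stp_g, stp_j, stp_h, stp_i]
  exact h
theorem rel_16 : relChk L stp [Col.d, Col.k, Col.d, Col.k] = true := by
  rw [relChk, Tr.all_iff]
  intro q hq
  have h := ((ru_1 q).1 ((Tr.all_iff _ _).1 re_1 q hq)).2.2.2.2.2.2.2.1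
  simp only [walk_cons, walk_nil, stp_l, stp_k, stp_a, stp_b, stp_c, stp_d, stp_e, stp_f, stp_g, stp_j, stp_h, stp_i]
  exact h
theorem rel_17 : relChk L stp [Col.e, Col.k, Col.e, Col.k] = true := by
  rw [relChk, Tr.all_iff]
  intro q hq
  have h := ((ru_1 q).1 ((Tr.all_iff _ _).1 re_1 q hq)).2.2.2.2.2.2.2.2.1
  simp only [walk_cons, walk_nil, stp_l, stp_k, stp_a, stp_b, stp_c, stp_d, stp_e, stp_f, stp_g, stp_j, stp_h, stp_i]
  exact h
theorem rel_18 : relChk L stp [Col.f, Col.k, Col.f, Col.k] = true := by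
  rw [relChk, Tr.all_iff]
  intro q hq
  have h := ((ru_1 q).1 ((Tr.all_iff _ _).1 re_1 q hq)).2.2.2.2.2.2.2.2.2.1
  simp only [walk_cons, walk_nil, stp_l, stp_k, stp_a, stp_b, stp_c, stp_d, stp_e, stp_f, stp_g, stp_j, stp_h, stp_i]
  exact h
theorem rel_19 : relChk L stp [Col.g, Col.k, Col.g, Col.k] = true := by
  rw [relChk, Tr.all_iff]
  intro q hq
  have h := ((ru_1 q).1 ((Tr.all_iff _ _).1 re_1 q hq)).2.2.2.2.2.2.2.2.2.2.1
  simp only [walk_cons, walk_nil, stp_l, stp_k, stp_a, stp_b, stp_c, stp_d, stp_e, stp_f, stp_g, stp_j, stp_h, stp_i]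
  exact h
theorem rel_20 : relChk L stp [Col.j, Col.k, Col.j, Col.k] = true := by
  rw [relChk, Tr.all_iff]
  intro q hq
  have h := ((ru_1 q).1 ((Tr.all_iff _ _).1 re_1 q hq)).2.2.2.2.2.2.2.2.2.2.2.1
  simp only [walk_cons, walk_nil, stp_l, stp_k, stp_a, stp_b, stp_c, stp_d, stp_e, stp_f, stp_g, stp_j, stp_h, stp_i]
  exact h
theorem rel_21 : relChk L stp [Col.h, Col.k, Col.h, Col.k] = true := by
  rw [relChk, Tr.all_iff]
  intro q hq
  have h := ((ru_1 q).1 ((Tr.all_iff _ _).1 re_1 q hq)).2.2.2.2.2.2.2.2.2.2.2.2.1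
  simp only [walk_cons, walk_nil, stp_l, stp_k, stp_a, stp_b, stp_c, stp_d, stp_e, stp_f, stp_g, stp_j, stp_h, stp_i]
  exact h
theorem rel_22 : relChk L stp [Col.i, Col.k, Col.i, Col.k] = true := by
  rw [relChk, Tr.all_iff]
  intro q hq
  have h := ((ru_1 q).1 ((Tr.all_iff _ _).1 re_1 q hq)).2.2.2.2.2.2.2.2.2.2.2.2.2.1
  simp only [walk_cons, walk_nil, stp_l, stp_k, stp_a, stp_b, stp_c, stp_d, stp_e, stp_f, stp_g, stp_j, stp_h, stp_i]
  exact h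
theorem rel_23 : relChk L stp [Col.a, Col.a] = true := by
  rw [relChk, Tr.all_iff]
  intro q hq
  have h := ((ru_1 q).1 ((Tr.all_iff _ _).1 re_1 q hq)).2.2.2.2.2.2.2.2.2.2.2.2.2.2
  simp only [walk_cons, walk_nil, stp_l, stp_k, stp_a, stp_b, stp_c, stp_d, stp_e, stp_f, stp_g, stp_j, stp_h, stp_i]
  exact h
theorem ru_2 (q : ℕ) : Rf_2 q = true ↔ Nat.beq (F_a (F_b (F_a (F_b (F_a (F_b q)))))) q = true ∧ Nat.beq (F_a (F_c (F_a (F_c q)))) q = true ∧ Nat.beq (F_a (F_d (F_a (F_d q)))) q = true ∧ Nat.beq (F_a (F_e (F_a (F_e q)))) q = true ∧ Nat.beq (F_a (F_f (F_a (F_f q)))) q = true ∧ Nat.beq (F_a (F_g (F_a (F_g q)))) q = true ∧ Nat.beq (F_a (F_j (F_a (F_j q)))) q = true ∧ Nat.beq (F_a (F_h (F_a (F_h q)))) q = true ∧ Nat.beq (F_a (F_i (F_a (F_i q)))) q = true ∧ Nat.beq (F_b (F_b q)) q = true ∧ Nat.beq (F_b (F_c (F_b (F_c (F_b (F_c q)))))) q = true ∧ Nat.beq (F_b (F_d (F_b (F_d q)))) q = true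 ∧ Nat.beq (F_b (F_e (F_b (F_e q)))) q = true ∧ Nat.beq (F_b (F_f (F_b (F_f q)))) q = true := by
  unfold Rf_2
  simp only [bfalse_iff, and_true]
theorem rel_24 : relChk L stp [Col.b, Col.a, Col.b, Col.a, Col.b, Col.a] = true := by
  rw [relChk, Tr.all_iff]
  intro q hq
  have h := ((ru_2 q).1 ((Tr.all_iff _ _).1 re_2 q hq)).1
  simp only [walk_cons, walk_nil, stp_l, stp_k, stp_a, stp_b, stp_c, stp_d, stp_e, stp_f, stp_g, stp_j, stp_h, stp_i]
  exact h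
theorem rel_25 : relChk L stp [Col.c, Col.a, Col.c, Col.a] = true := by
  rw [relChk, Tr.all_iff]
  intro q hq
  have h := ((ru_2 q).1 ((Tr.all_iff _ _).1 re_2 q hq)).2.1
  simp only [walk_cons, walk_nil, stp_l, stp_k, stp_a, stp_b, stp_c, stp_d, stp_e, stp_f, stp_g, stp_j, stp_h, stp_i]
  exact h
theorem rel_26 : relChk L stp [Col.d, Col.a, Col.d, Col.a] = true := by
  rw [relChk, Tr.all_iff]
  intro q hq
  have h := ((ru_2 q).1 ((Tr.all_iff _ _).1 re_2 q hq)).2.2.1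
  simp only [walk_cons, walk_nil, stp_l, stp_k, stp_a, stp_b, stp_c, stp_d, stp_e, stp_f, stp_g, stp_j, stp_h, stp_i]
  exact h
theorem rel_27 : relChk L stp [Col.e, Col.a, Col.e, Col.a] = true := by
  rw [relChk, Tr.all_iff]
  intro q hq
  have h := ((ru_2 q).1 ((Tr.all_iff _ _).1 re_2 q hq)).2.2.2.1
  simp only [walk_cons, walk_nil, stp_l, stp_k, stp_a, stp_b, stp_c, stp_d, stp_e, stp_f, stp_g, stp_j, stp_h, stp_i]
  exact h
theorem rel_28 : relChk L stp [Col.f, Col.a, Col.f, Col.a] = true := by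
  rw [relChk, Tr.all_iff]
  intro q hq
  have h := ((ru_2 q).1 ((Tr.all_iff _ _).1 re_2 q hq)).2.2.2.2.1
  simp only [walk_cons, walk_nil, stp_l, stp_k, stp_a, stp_b, stp_c, stp_d, stp_e, stp_f, stp_g, stp_j, stp_h, stp_i]
  exact h
theorem rel_29 : relChk L stp [Col.g, Col.a, Col.g, Col.a] = true := by
  rw [relChk, Tr.all_iff]
  intro q hq
  have h := ((ru_2 q).1 ((Tr.all_iff _ _).1 re_2 q hq)).2.2.2.2.2.1
  simp only [walk_cons, walk_nil, stp_l, stp_k, stp_a, stp_b, stp_c, stp_d, stp_e, stp_f, stp_g, stp_j, stp_h, stp_i]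
  exact h
theorem rel_30 : relChk L stp [Col.j, Col.a, Col.j, Col.a] = true := by
  rw [relChk, Tr.all_iff]
  intro q hq
  have h := ((ru_2 q).1 ((Tr.all_iff _ _).1 re_2 q hq)).2.2.2.2.2.2.1
  simp only [walk_cons, walk_nil, stp_l, stp_k, stp_a, stp_b, stp_c, stp_d, stp_e, stp_f, stp_g, stp_j, stp_h, stp_i]
  exact h
theorem rel_31 : relChk L stp [Col.h, Col.a, Col.h, Col.a] = true := by
  rw [relChk, Tr.all_iff]
  intro q hq
  have h := ((ru_2 q).1 ((Tr.all_iff _ _).1 re_2 q hq)).2.2.2.2.2.2.2.1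
  simp only [walk_cons, walk_nil, stp_l, stp_k, stp_a, stp_b, stp_c, stp_d, stp_e, stp_f, stp_g, stp_j, stp_h, stp_i]
  exact h
theorem rel_32 : relChk L stp [Col.i, Col.a, Col.i, Col.a] = true := by
  rw [relChk, Tr.all_iff]
  intro q hq
  have h := ((ru_2 q).1 ((Tr.all_iff _ _).1 re_2 q hq)).2.2.2.2.2.2.2.2.1
  simp only [walk_cons, walk_nil, stp_l, stp_k, stp_a, stp_b, stp_c, stp_d, stp_e, stp_f, stp_g, stp_j, stp_h, stp_i]
  exact h
theorem rel_33 : relChk L stp [Col.b, Col.b] = true := by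
  rw [relChk, Tr.all_iff]
  intro q hq
  have h := ((ru_2 q).1 ((Tr.all_iff _ _).1 re_2 q hq)).2.2.2.2.2.2.2.2.2.1
  simp only [walk_cons, walk_nil, stp_l, stp_k, stp_a, stp_b, stp_c, stp_d, stp_e, stp_f, stp_g, stp_j, stp_h, stp_i]
  exact h
theorem rel_34 : relChk L stp [Col.c, Col.b, Col.c, Col.b, Col.c, Col.b] = true := by
  rw [relChk, Tr.all_iff]
  intro q hq
  have h := ((ru_2 q).1 ((Tr.all_iff _ _).1 re_2 q hq)).2.2.2.2.2.2.2.2.2.2.1
  simp only [walk_cons, walk_nil, stp_l, stp_k, stp_a, stp_b, stp_c, stp_d, stp_e, stp_f, stp_g, stp_j, stp_h, stp_i]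
  exact h
theorem rel_35 : relChk L stp [Col.d, Col.b, Col.d, Col.b] = true := by
  rw [relChk, Tr.all_iff]
  intro q hq
  have h := ((ru_2 q).1 ((Tr.all_iff _ _).1 re_2 q hq)).2.2.2.2.2.2.2.2.2.2.2.1
  simp only [walk_cons, walk_nil, stp_l, stp_k, stp_a, stp_b, stp_c, stp_d, stp_e, stp_f, stp_g, stp_j, stp_h, stp_i]
  exact h
theorem rel_36 : relChk L stp [Col.e, Col.b, Col.e, Col.b] = true := by
  rw [relChk, Tr.all_iff]
  intro q hq
  have h := ((ru_2 q).1 ((Tr.all_iff _ _).1 re_2 q hq)).2.2.2.2.2.2.2.2.2.2.2.2.1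
  simp only [walk_cons, walk_nil, stp_l, stp_k, stp_a, stp_b, stp_c, stp_d, stp_e, stp_f, stp_g, stp_j, stp_h, stp_i]
  exact h
theorem rel_37 : relChk L stp [Col.f, Col.b, Col.f, Col.b] = true := by
  rw [relChk, Tr.all_iff]
  intro q hq
  have h := ((ru_2 q).1 ((Tr.all_iff _ _).1 re_2 q hq)).2.2.2.2.2.2.2.2.2.2.2.2.2
  simp only [walk_cons, walk_nil, stp_l, stp_k, stp_a, stp_b, stp_c, stp_d, stp_e, stp_f, stp_g, stp_j, stp_h, stp_i]
  exact h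
theorem ru_3 (q : ℕ) : Rf_3 q = true ↔ Nat.beq (F_b (F_g (F_b (F_g q)))) q = true ∧ Nat.beq (F_b (F_j (F_b (F_j q)))) q = true ∧ Nat.beq (F_b (F_h (F_b (F_h q)))) q = true ∧ Nat.beq (F_b (F_i (F_b (F_i q)))) q = true ∧ Nat.beq (F_c (F_c q)) q = true ∧ Nat.beq (F_c (F_d (F_c (F_d (F_c (F_d q)))))) q = true ∧ Nat.beq (F_c (F_e (F_c (F_e q)))) q = true ∧ Nat.beq (F_c (F_f (F_c (F_f q)))) q = true ∧ Nat.beq (F_c (F_g (F_c (F_g q)))) q = true ∧ Nat.beq (F_c (F_j (F_c (F_j q)))) q = true ∧ Nat.beq (F_c (F_h (F_c (F_h q)))) q = true ∧ Nat.beq (F_c (F_i (F_c (F_i q)))) q = true ∧ Nat.beq (F_d (F_d q)) q = true ∧ Nat.beq (F_d (F_e (F_d (F_e (F_d (F_e q)))))) q = true ∧ Nat.beq (F_d (F_f (F_d (F_f q)))) q = true := by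
  unfold Rf_3
  simp only [bfalse_iff, and_true]
theorem rel_38 : relChk L stp [Col.g, Col.b, Col.g, Col.b] = true := by
  rw [relChk, Tr.all_iff]
  intro q hq
  have h := ((ru_3 q).1 ((Tr.all_iff _ _).1 re_3 q hq)).1
  simp only [walk_cons, walk_nil, stp_l, stp_k, stp_a, stp_b, stp_c, stp_d, stp_e, stp_f, stp_g, stp_j, stp_h, stp_i]
  exact h
theorem rel_39 : relChk L stp [Col.j, Col.b, Col.j, Col.b] = true := by
  rw [relChk, Tr.all_iff]
  intro q hq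
  have h := ((ru_3 q).1 ((Tr.all_iff _ _).1 re_3 q hq)).2.1
  simp only [walk_cons, walk_nil, stp_l, stp_k, stp_a, stp_b, stp_c, stp_d, stp_e, stp_f, stp_g, stp_j, stp_h, stp_i]
  exact h
theorem rel_40 : relChk L stp [Col.h, Col.b, Col.h, Col.b] = true := by
  rw [relChk, Tr.all_iff]
  intro q hq
  have h := ((ru_3 q).1 ((Tr.all_iff _ _).1 re_3 q hq)).2.2.1
  simp only [walk_cons, walk_nil, stp_l, stp_k, stp_a, stp_b, stp_c, stp_d, stp_e, stp_f, stp_g, stp_j, stp_h, stp_i]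
  exact h
theorem rel_41 : relChk L stp [Col.i, Col.b, Col.i, Col.b] = true := by
  rw [relChk, Tr.all_iff]
  intro q hq
  have h := ((ru_3 q).1 ((Tr.all_iff _ _).1 re_3 q hq)).2.2.2.1
  simp only [walk_cons, walk_nil, stp_l, stp_k, stp_a, stp_b, stp_c, stp_d, stp_e, stp_f, stp_g, stp_j, stp_h, stp_i]
  exact h
theorem rel_42 : relChk L stp [Col.c, Col.c] = true := by
  rw [relChk, Tr.all_iff]
  intro q hq
  have h := ((ru_3 q).1 ((Tr.all_iff _ _).1 re_3 q hq)).2.2.2.2.1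
  simp only [walk_cons, walk_nil, stp_l, stp_k, stp_a, stp_b, stp_c, stp_d, stp_e, stp_f, stp_g, stp_j, stp_h, stp_i]
  exact h
theorem rel_43 : relChk L stp [Col.d, Col.c, Col.d, Col.c, Col.d, Col.c] = true := by
  rw [relChk, Tr.all_iff]
  intro q hq
  have h := ((ru_3 q).1 ((Tr.all_iff _ _).1 re_3 q hq)).2.2.2.2.2.1
  simp only [walk_cons, walk_nil, stp_l, stp_k, stp_a, stp_b, stp_c, stp_d, stp_e, stp_f, stp_g, stp_j, stp_h, stp_i]
  exact h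
theorem rel_44 : relChk L stp [Col.e, Col.c, Col.e, Col.c] = true := by
  rw [relChk, Tr.all_iff]
  intro q hq
  have h := ((ru_3 q).1 ((Tr.all_iff _ _).1 re_3 q hq)).2.2.2.2.2.2.1
  simp only [walk_cons, walk_nil, stp_l, stp_k, stp_a, stp_b, stp_c, stp_d, stp_e, stp_f, stp_g, stp_j, stp_h, stp_i]
  exact h
theorem rel_45 : relChk L stp [Col.f, Col.c, Col.f, Col.c] = true := by
  rw [relChk, Tr.all_iff]
  intro q hq
  have h := ((ru_3 q).1 ((Tr.all_iff _ _).1 re_3 q hq)).2.2.2.2.2.2.2.1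
  simp only [walk_cons, walk_nil, stp_l, stp_k, stp_a, stp_b, stp_c, stp_d, stp_e, stp_f, stp_g, stp_j, stp_h, stp_i]
  exact h
theorem rel_46 : relChk L stp [Col.g, Col.c, Col.g, Col.c] = true := by
  rw [relChk, Tr.all_iff]
  intro q hq
  have h := ((ru_3 q).1 ((Tr.all_iff _ _).1 re_3 q hq)).2.2.2.2.2.2.2.2.1
  simp only [walk_cons, walk_nil, stp_l, stp_k, stp_a, stp_b, stp_c, stp_d, stp_e, stp_f, stp_g, stp_j, stp_h, stp_i]
  exact h
theorem rel_47 : relChk L stp [Col.j, Col.c, Col.j, Col.c] = true := by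
  rw [relChk, Tr.all_iff]
  intro q hq
  have h := ((ru_3 q).1 ((Tr.all_iff _ _).1 re_3 q hq)).2.2.2.2.2.2.2.2.2.1
  simp only [walk_cons, walk_nil, stp_l, stp_k, stp_a, stp_b, stp_c, stp_d, stp_e, stp_f, stp_g, stp_j, stp_h, stp_i]
  exact h
theorem rel_48 : relChk L stp [Col.h, Col.c, Col.h, Col.c] = true := by
  rw [relChk, Tr.all_iff]
  intro q hq
  have h := ((ru_3 q).1 ((Tr.all_iff _ _).1 re_3 q hq)).2.2.2.2.2.2.2.2.2.2.1
  simp only [walk_cons, walk_nil, stp_l, stp_k, stp_a, stp_b, stp_c, stp_d, stp_e, stp_f, stp_g, stp_j, stp_h, stp_i]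
  exact h
theorem rel_49 : relChk L stp [Col.i, Col.c, Col.i, Col.c] = true := by
  rw [relChk, Tr.all_iff]
  intro q hq
  have h := ((ru_3 q).1 ((Tr.all_iff _ _).1 re_3 q hq)).2.2.2.2.2.2.2.2.2.2.2.1
  simp only [walk_cons, walk_nil, stp_l, stp_k, stp_a, stp_b, stp_c, stp_d, stp_e, stp_f, stp_g, stp_j, stp_h, stp_i]
  exact h
theorem rel_50 : relChk L stp [Col.d, Col.d] = true := by
  rw [relChk, Tr.all_iff]
  intro q hq
  have h := ((ru_3 q).1 ((Tr.all_iff _ _).1 re_3 q hq)).2.2.2.2.2.2.2.2.2.2.2.2.1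
  simp only [walk_cons, walk_nil, stp_l, stp_k, stp_a, stp_b, stp_c, stp_d, stp_e, stp_f, stp_g, stp_j, stp_h, stp_i]
  exact h
theorem rel_51 : relChk L stp [Col.e, Col.d, Col.e, Col.d, Col.e, Col.d] = true := by
  rw [relChk, Tr.all_iff]
  intro q hq
  have h := ((ru_3 q).1 ((Tr.all_iff _ _).1 re_3 q hq)).2.2.2.2.2.2.2.2.2.2.2.2.2.1
  simp only [walk_cons, walk_nil, stp_l, stp_k, stp_a, stp_b, stp_c, stp_d, stp_e, stp_f, stp_g, stp_j, stp_h, stp_i]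
  exact h
theorem rel_52 : relChk L stp [Col.f, Col.d, Col.f, Col.d] = true := by
  rw [relChk, Tr.all_iff]
  intro q hq
  have h := ((ru_3 q).1 ((Tr.all_iff _ _).1 re_3 q hq)).2.2.2.2.2.2.2.2.2.2.2.2.2.2
  simp only [walk_cons, walk_nil, stp_l, stp_k, stp_a, stp_b, stp_c, stp_d, stp_e, stp_f, stp_g, stp_j, stp_h, stp_i]
  exact h
theorem ru_4 (q : ℕ) : Rf_4 q = true ↔ Nat.beq (F_d (F_g (F_d (F_g q)))) q = true ∧ Nat.beq (F_d (F_j (F_d (F_j q)))) q = true ∧ Nat.beq (F_d (F_h (F_d (F_h (F_d (F_h q)))))) q = true ∧ Nat.beq (F_d (F_i (F_d (F_i q)))) q = true ∧ Nat.beq (F_e (F_e q)) q = true ∧ Nat.beq (F_e (F_f (F_e (F_f (F_e (F_f q)))))) q = true ∧ Nat.beq (F_e (F_g (F_e (F_g q)))) q = true ∧ Nat.beq (F_e (F_j (F_e (F_j q)))) q = true ∧ Nat.beq (F_e (F_h (F_e (F_h q)))) q = true ∧ Nat.beq (F_e (F_i (F_e (F_i q)))) q = true ∧ Nat.beq (F_f (F_f q)) q = true ∧ Nat.beq (F_f (F_g (F_f (F_g (F_f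 (F_g q)))))) q = true ∧ Nat.beq (F_f (F_j (F_f (F_j q)))) q = true ∧ Nat.beq (F_f (F_h (F_f (F_h q)))) q = true := by
  unfold Rf_4
  simp only [bfalse_iff, and_true]
theorem rel_53 : relChk L stp [Col.g, Col.d, Col.g, Col.d] = true := by
  rw [relChk, Tr.all_iff]
  intro q hq
  have h := ((ru_4 q).1 ((Tr.all_iff _ _).1 re_4 q hq)).1
  simp only [walk_cons, walk_nil, stp_l, stp_k, stp_a, stp_b, stp_c, stp_d, stp_e, stp_f, stp_g, stp_j, stp_h, stp_i]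
  exact h
theorem rel_54 : relChk L stp [Col.j, Col.d, Col.j, Col.d] = true := by
  rw [relChk, Tr.all_iff]
  intro q hq
  have h := ((ru_4 q).1 ((Tr.all_iff _ _).1 re_4 q hq)).2.1
  simp only [walk_cons, walk_nil, stp_l, stp_k, stp_a, stp_b, stp_c, stp_d, stp_e, stp_f, stp_g, stp_j, stp_h, stp_i]
  exact h
theorem rel_55 : relChk L stp [Col.h, Col.d, Col.h, Col.d, Col.h, Col.d] = true := by
  rw [relChk, Tr.all_iff]
  intro q hq
  have h := ((ru_4 q).1 ((Tr.all_iff _ _).1 re_4 q hq)).2.2.1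
  simp only [walk_cons, walk_nil, stp_l, stp_k, stp_a, stp_b, stp_c, stp_d, stp_e, stp_f, stp_g, stp_j, stp_h, stp_i]
  exact h
theorem rel_56 : relChk L stp [Col.i, Col.d, Col.i, Col.d] = true := by
  rw [relChk, Tr.all_iff]
  intro q hq
  have h := ((ru_4 q).1 ((Tr.all_iff _ _).1 re_4 q hq)).2.2.2.1
  simp only [walk_cons, walk_nil, stp_l, stp_k, stp_a, stp_b, stp_c, stp_d, stp_e, stp_f, stp_g, stp_j, stp_h, stp_i]
  exact h
theorem rel_57 : relChk L stp [Col.e, Col.e] = true := by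
  rw [relChk, Tr.all_iff]
  intro q hq
  have h := ((ru_4 q).1 ((Tr.all_iff _ _).1 re_4 q hq)).2.2.2.2.1
  simp only [walk_cons, walk_nil, stp_l, stp_k, stp_a, stp_b, stp_c, stp_d, stp_e, stp_f, stp_g, stp_j, stp_h, stp_i]
  exact h
theorem rel_58 : relChk L stp [Col.f, Col.e, Col.f, Col.e, Col.f, Col.e] = true := by
  rw [relChk, Tr.all_iff]
  intro q hq
  have h := ((ru_4 q).1 ((Tr.all_iff _ _).1 re_4 q hq)).2.2.2.2.2.1
  simp only [walk_cons, walk_nil, stp_l, stp_k, stp_a, stp_b, stp_c, stp_d, stp_e, stp_f, stp_g, stp_j, stp_h, stp_i]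
  exact h
theorem rel_59 : relChk L stp [Col.g, Col.e, Col.g, Col.e] = true := by
  rw [relChk, Tr.all_iff]
  intro q hq
  have h := ((ru_4 q).1 ((Tr.all_iff _ _).1 re_4 q hq)).2.2.2.2.2.2.1
  simp only [walk_cons, walk_nil, stp_l, stp_k, stp_a, stp_b, stp_c, stp_d, stp_e, stp_f, stp_g, stp_j, stp_h, stp_i]
  exact h
theorem rel_60 : relChk L stp [Col.j, Col.e, Col.j, Col.e] = true := by
  rw [relChk, Tr.all_iff]
  intro q hq
  have h := ((ru_4 q).1 ((Tr.all_iff _ _).1 re_4 q hq)).2.2.2.2.2.2.2.1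
  simp only [walk_cons, walk_nil, stp_l, stp_k, stp_a, stp_b, stp_c, stp_d, stp_e, stp_f, stp_g, stp_j, stp_h, stp_i]
  exact h
theorem rel_61 : relChk L stp [Col.h, Col.e, Col.h, Col.e] = true := by
  rw [relChk, Tr.all_iff]
  intro q hq
  have h := ((ru_4 q).1 ((Tr.all_iff _ _).1 re_4 q hq)).2.2.2.2.2.2.2.2.1
  simp only [walk_cons, walk_nil, stp_l, stp_k, stp_a, stp_b, stp_c, stp_d, stp_e, stp_f, stp_g, stp_j, stp_h, stp_i]
  exact h
theorem rel_62 : relChk L stp [Col.i, Col.e, Col.i, Col.e] = true := by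
  rw [relChk, Tr.all_iff]
  intro q hq
  have h := ((ru_4 q).1 ((Tr.all_iff _ _).1 re_4 q hq)).2.2.2.2.2.2.2.2.2.1
  simp only [walk_cons, walk_nil, stp_l, stp_k, stp_a, stp_b, stp_c, stp_d, stp_e, stp_f, stp_g, stp_j, stp_h, stp_i]
  exact h
theorem rel_63 : relChk L stp [Col.f, Col.f] = true := by
  rw [relChk, Tr.all_iff]
  intro q hq
  have h := ((ru_4 q).1 ((Tr.all_iff _ _).1 re_4 q hq)).2.2.2.2.2.2.2.2.2.2.1
  simp only [walk_cons, walk_nil, stp_l, stp_k, stp_a, stp_b, stp_c, stp_d, stp_e, stp_f, stp_g, stp_j, stp_h, stp_i]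
  exact h
theorem rel_64 : relChk L stp [Col.g, Col.f, Col.g, Col.f, Col.g, Col.f] = true := by
  rw [relChk, Tr.all_iff]
  intro q hq
  have h := ((ru_4 q).1 ((Tr.all_iff _ _).1 re_4 q hq)).2.2.2.2.2.2.2.2.2.2.2.1
  simp only [walk_cons, walk_nil, stp_l, stp_k, stp_a, stp_b, stp_c, stp_d, stp_e, stp_f, stp_g, stp_j, stp_h, stp_i]
  exact h
theorem rel_65 : relChk L stp [Col.j, Col.f, Col.j, Col.f] = true := by
  rw [relChk, Tr.all_iff]
  intro q hq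
  have h := ((ru_4 q).1 ((Tr.all_iff _ _).1 re_4 q hq)).2.2.2.2.2.2.2.2.2.2.2.2.1
  simp only [walk_cons, walk_nil, stp_l, stp_k, stp_a, stp_b, stp_c, stp_d, stp_e, stp_f, stp_g, stp_j, stp_h, stp_i]
  exact h
theorem rel_66 : relChk L stp [Col.h, Col.f, Col.h, Col.f] = true := by
  rw [relChk, Tr.all_iff]
  intro q hq
  have h := ((ru_4 q).1 ((Tr.all_iff _ _).1 re_4 q hq)).2.2.2.2.2.2.2.2.2.2.2.2.2
  simp only [walk_cons, walk_nil, stp_l, stp_k, stp_a, stp_b, stp_c, stp_d, stp_e, stp_f, stp_g, stp_j, stp_h, stp_i]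
  exact h
theorem ru_5 (q : ℕ) : Rf_5 q = true ↔ Nat.beq (F_f (F_i (F_f (F_i q)))) q = true ∧ Nat.beq (F_g (F_g q)) q = true ∧ Nat.beq (F_g (F_j (F_g (F_j (F_g (F_j q)))))) q = true ∧ Nat.beq (F_g (F_h (F_g (F_h q)))) q = true ∧ Nat.beq (F_g (F_i (F_g (F_i q)))) q = true ∧ Nat.beq (F_j (F_j q)) q = true ∧ Nat.beq (F_j (F_h (F_j (F_h q)))) q = true ∧ Nat.beq (F_j (F_i (F_j (F_i q)))) q = true ∧ Nat.beq (F_h (F_h q)) q = true ∧ Nat.beq (F_h (F_i (F_h (F_i (F_h (F_i q)))))) q = true ∧ Nat.beq (F_i (F_i q)) q = true ∧ Nat.beq (F_l (WF_0 (WF_0 (WF_0 (WF_0 (WF_0 (WF_0 (WF_0 (WF_0 (WF_0 q)))))))))) q = true := by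
  unfold Rf_5
  simp only [bfalse_iff, and_true]
theorem rel_67 : relChk L stp [Col.i, Col.f, Col.i, Col.f] = true := by
  rw [relChk, Tr.all_iff]
  intro q hq
  have h := ((ru_5 q).1 ((Tr.all_iff _ _).1 re_5 q hq)).1
  simp only [walk_cons, walk_nil, stp_l, stp_k, stp_a, stp_b, stp_c, stp_d, stp_e, stp_f, stp_g, stp_j, stp_h, stp_i]
  exact h
theorem rel_68 : relChk L stp [Col.g, Col.g] = true := by
  rw [relChk, Tr.all_iff]
  intro q hq
  have h := ((ru_5 q).1 ((Tr.all_iff _ _).1 re_5 q hq)).2.1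
  simp only [walk_cons, walk_nil, stp_l, stp_k, stp_a, stp_b, stp_c, stp_d, stp_e, stp_f, stp_g, stp_j, stp_h, stp_i]
  exact h
theorem rel_69 : relChk L stp [Col.j, Col.g, Col.j, Col.g, Col.j, Col.g] = true := by
  rw [relChk, Tr.all_iff]
  intro q hq
  have h := ((ru_5 q).1 ((Tr.all_iff _ _).1 re_5 q hq)).2.2.1
  simp only [walk_cons, walk_nil, stp_l, stp_k, stp_a, stp_b, stp_c, stp_d, stp_e, stp_f, stp_g, stp_j, stp_h, stp_i]
  exact h
theorem rel_70 : relChk L stp [Col.h, Col.g, Col.h, Col.g] = true := by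
  rw [relChk, Tr.all_iff]
  intro q hq
  have h := ((ru_5 q).1 ((Tr.all_iff _ _).1 re_5 q hq)).2.2.2.1
  simp only [walk_cons, walk_nil, stp_l, stp_k, stp_a, stp_b, stp_c, stp_d, stp_e, stp_f, stp_g, stp_j, stp_h, stp_i]
  exact h
theorem rel_71 : relChk L stp [Col.i, Col.g, Col.i, Col.g] = true := by
  rw [relChk, Tr.all_iff]
  intro q hq
  have h := ((ru_5 q).1 ((Tr.all_iff _ _).1 re_5 q hq)).2.2.2.2.1
  simp only [walk_cons, walk_nil, stp_l, stp_k, stp_a, stp_b, stp_c, stp_d, stp_e, stp_f, stp_g, stp_j, stp_h, stp_i]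
  exact h
theorem rel_72 : relChk L stp [Col.j, Col.j] = true := by
  rw [relChk, Tr.all_iff]
  intro q hq
  have h := ((ru_5 q).1 ((Tr.all_iff _ _).1 re_5 q hq)).2.2.2.2.2.1
  simp only [walk_cons, walk_nil, stp_l, stp_k, stp_a, stp_b, stp_c, stp_d, stp_e, stp_f, stp_g, stp_j, stp_h, stp_i]
  exact h
theorem rel_73 : relChk L stp [Col.h, Col.j, Col.h, Col.j] = true := by
  rw [relChk, Tr.all_iff]
  intro q hq
  have h := ((ru_5 q).1 ((Tr.all_iff _ _).1 re_5 q hq)).2.2.2.2.2.2.1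
  simp only [walk_cons, walk_nil, stp_l, stp_k, stp_a, stp_b, stp_c, stp_d, stp_e, stp_f, stp_g, stp_j, stp_h, stp_i]
  exact h
theorem rel_74 : relChk L stp [Col.i, Col.j, Col.i, Col.j] = true := by
  rw [relChk, Tr.all_iff]
  intro q hq
  have h := ((ru_5 q).1 ((Tr.all_iff _ _).1 re_5 q hq)).2.2.2.2.2.2.2.1
  simp only [walk_cons, walk_nil, stp_l, stp_k, stp_a, stp_b, stp_c, stp_d, stp_e, stp_f, stp_g, stp_j, stp_h, stp_i]
  exact h
theorem rel_75 : relChk L stp [Col.h, Col.h] = true := by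
  rw [relChk, Tr.all_iff]
  intro q hq
  have h := ((ru_5 q).1 ((Tr.all_iff _ _).1 re_5 q hq)).2.2.2.2.2.2.2.2.1
  simp only [walk_cons, walk_nil, stp_l, stp_k, stp_a, stp_b, stp_c, stp_d, stp_e, stp_f, stp_g, stp_j, stp_h, stp_i]
  exact h
theorem rel_76 : relChk L stp [Col.i, Col.h, Col.i, Col.h, Col.i, Col.h] = true := by
  rw [relChk, Tr.all_iff]
  intro q hq
  have h := ((ru_5 q).1 ((Tr.all_iff _ _).1 re_5 q hq)).2.2.2.2.2.2.2.2.2.1
  simp only [walk_cons, walk_nil, stp_l, stp_k, stp_a, stp_b, stp_c, stp_d, stp_e, stp_f, stp_g, stp_j, stp_h, stp_i]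
  exact h
theorem rel_77 : relChk L stp [Col.i, Col.i] = true := by
  rw [relChk, Tr.all_iff]
  intro q hq
  have h := ((ru_5 q).1 ((Tr.all_iff _ _).1 re_5 q hq)).2.2.2.2.2.2.2.2.2.2.1
  simp only [walk_cons, walk_nil, stp_l, stp_k, stp_a, stp_b, stp_c, stp_d, stp_e, stp_f, stp_g, stp_j, stp_h, stp_i]
  exact h
theorem ru_6 (q : ℕ) : Rf_6 q = true ↔ Nat.beq (WF_1 (WF_1 (WF_1 (WF_1 (WF_1 (WF_1 (WF_1 (WF_1 (WF_1 (WF_1 (WF_1 (WF_1 (WF_1 (WF_1 (WF_1 (WF_1 (WF_1 q))))))))))))))))) q = true := by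
  unfold Rf_6
  simp only [bfalse_iff, and_true]
theorem rel_78 : relChk L stp [Col.a, Col.b, Col.c, Col.d, Col.e, Col.f, Col.h, Col.a, Col.b, Col.c, Col.d, Col.e, Col.f, Col.h, Col.a, Col.b, Col.c, Col.d, Col.e, Col.f, Col.h, Col.a, Col.b, Col.c, Col.d, Col.e, Col.f, Col.h, Col.a, Col.b, Col.c, Col.d, Col.e, Col.f, Col.h, Col.a, Col.b, Col.c, Col.d, Col.e, Col.f, Col.h, Col.a, Col.b, Col.c, Col.d, Col.e, Col.f, Col.h, Col.a, Col.b, Col.c, Col.d, Col.e, Col.f, Col.h, Col.a, Col.b, Col.c, Col.d, Col.e, Col.f, Col.h, Col.l] = true := by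
  rw [relChk, Tr.all_iff]
  intro q hq
  have h := ((ru_5 q).1 ((Tr.all_iff _ _).1 re_5 q hq)).2.2.2.2.2.2.2.2.2.2.2
  have e : [Col.a, Col.b, Col.c, Col.d, Col.e, Col.f, Col.h, Col.a, Col.b, Col.c, Col.d, Col.e, Col.f, Col.h, Col.a, Col.b, Col.c, Col.d, Col.e, Col.f, Col.h, Col.a, Col.b, Col.c, Col.d, Col.e, Col.f, Col.h, Col.a, Col.b, Col.c, Col.d, Col.e, Col.f, Col.h, Col.a, Col.b, Col.c, Col.d, Col.e, Col.f, Col.h, Col.a, Col.b, Col.c, Col.d, Col.e, Col.f, Col.h, Col.a, Col.b, Col.c, Col.d, Col.e, Col.f, Col.h, Col.a, Col.b, Col.c, Col.d, Col.e, Col.f, Col.h, Col.l] = repw 9 w_WF0 [Col.l] := rfl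
  rw [e, walk_repw closed tw_0 [Col.l] 9 q hq]
  simp only [walk_cons, walk_nil, stp_l, stp_k, stp_a, stp_b, stp_c, stp_d, stp_e, stp_f, stp_g, stp_j, stp_h, stp_i]
  exact h
theorem rel_79 : relChk L stp [Col.i, Col.h, Col.d, Col.j, Col.g, Col.f, Col.e, Col.d, Col.l, Col.k, Col.a, Col.b, Col.c, Col.d, Col.i, Col.h, Col.d, Col.j, Col.g, Col.f, Col.e, Col.d, Col.l, Col.k, Col.a, Col.b, Col.c, Col.d, Col.i, Col.h, Col.d, Col.j, Col.g, Col.f, Col.e, Col.d, Col.l, Col.k, Col.a, Col.b, Col.c, Col.d, Col.i, Col.h, Col.d, Col.j, Col.g, Col.f, Col.e, Col.d, Col.l, Col.k, Col.a, Col.b, Col.c, Col.d, Col.i, Col.h, Col.d, Col.j, Col.g, Col.f, Col.e, Col.d, Col.l, Col.k, Col.a, Col.b, Col.c, Col.d, Col.i, Col.h, Col.d, Col.j, Col.g, Col.f, Col.e, Col.d, Col.l, Col.k, Col.a, Col.b, Col.c, Col.d, Col.i, Col.h, Col.d, Col.j, Col.g, Col.f, Col.e, Col.d, Col.l, Col.k, Col.a, Col.b, Col.c, Col.d, Col.i,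 Col.h, Col.d, Col.j, Col.g, Col.f, Col.e, Col.d, Col.l, Col.k, Col.a, Col.b, Col.c, Col.d, Col.i, Col.h, Col.d, Col.j, Col.g, Col.f, Col.e, Col.d, Col.l, Col.k, Col.a, Col.b, Col.c, Col.d, Col.i, Col.h, Col.d, Col.j, Col.g, Col.f, Col.e, Col.d, Col.l, Col.k, Col.a, Col.b, Col.c, Col.d, Col.i, Col.h, Col.d, Col.j, Col.g, Col.f, Col.e, Col.d, Col.l, Col.k, Col.a, Col.b, Col.c, Col.d, Col.i, Col.h, Col.d, Col.j, Col.g, Col.f, Col.e, Col.d, Col.l, Col.k, Col.a, Col.b, Col.c, Col.d, Col.i, Col.h, Col.d, Col.j, Col.g, Col.f, Col.e, Col.d, Col.l, Col.k, Col.a, Col.b, Col.c, Col.d, Col.i, Col.h, Col.d, Col.j, Col.g, Col.f, Col.e, Col.d, Col.l, Col.k, Col.a, Col.b, Col.c, Col.d, Col.i, Col.h, Col.d, Col.j, Col.g, Col.f, Col.e, Col.d, Col.l, Col.k, Col.a, Col.b, Col.c, Col.d, Col.i, Col.h, Col.d, Col.j, Col.g, Col.f, Col.e, Col.d, Col.l, Col.k, Col.a, Col.b, Col.c, Col.d, Col.i, Col.h, Col.d,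 Col.j, Col.g, Col.f, Col.e, Col.d, Col.l, Col.k, Col.a, Col.b, Col.c, Col.d] = true := by
  rw [relChk, Tr.all_iff]
  intro q hq
  have h := ((ru_6 q).1 ((Tr.all_iff _ _).1 re_6 q hq))
  have e : [Col.i, Col.h, Col.d, Col.j, Col.g, Col.f, Col.e, Col.d, Col.l, Col.k, Col.a, Col.b, Col.c, Col.d, Col.i, Col.h, Col.d, Col.j, Col.g, Col.f, Col.e, Col.d, Col.l, Col.k, Col.a, Col.b, Col.c, Col.d, Col.i, Col.h, Col.d, Col.j, Col.g, Col.f, Col.e, Col.d, Col.l, Col.k, Col.a, Col.b, Col.c, Col.d, Col.i, Col.h, Col.d, Col.j, Col.g, Col.f, Col.e, Col.d, Col.l, Col.k, Col.a, Col.b, Col.c, Col.d, Col.i, Col.h, Col.d, Col.j, Col.g, Col.f, Col.e, Col.d, Col.l, Col.k, Col.a, Col.b, Col.c, Col.d, Col.i, Col.h, Col.d, Col.j, Col.g, Col.f, Col.e, Col.d, Col.l, Col.k, Col.a, Col.b, Col.c, Col.d, Col.i, Col.h, Col.d, Col.j, Col.g, Col.f, Col.e, Col.d, Col.l, Col.k, Col.a, Col.b, Col.c, Col.d, Col.i, Col.h,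 Col.d, Col.j, Col.g, Col.f, Col.e, Col.d, Col.l, Col.k, Col.a, Col.b, Col.c, Col.d, Col.i, Col.h, Col.d, Col.j, Col.g, Col.f, Col.e, Col.d, Col.l, Col.k, Col.a, Col.b, Col.c, Col.d, Col.i, Col.h, Col.d, Col.j, Col.g, Col.f, Col.e, Col.d, Col.l, Col.k, Col.a, Col.b, Col.c, Col.d, Col.i, Col.h, Col.d, Col.j, Col.g, Col.f, Col.e, Col.d, Col.l, Col.k, Col.a, Col.b, Col.c, Col.d, Col.i, Col.h, Col.d, Col.j, Col.g, Col.f, Col.e, Col.d, Col.l, Col.k, Col.a, Col.b, Col.c, Col.d, Col.i, Col.h, Col.d, Col.j, Col.g, Col.f, Col.e, Col.d, Col.l, Col.k, Col.a, Col.b, Col.c, Col.d, Col.i, Col.h, Col.d, Col.j, Col.g, Col.f, Col.e, Col.d, Col.l, Col.k, Col.a, Col.b, Col.c, Col.d, Col.i, Col.h, Col.d, Col.j, Col.g, Col.f, Col.e, Col.d, Col.l, Col.k, Col.a, Col.b, Col.c, Col.d, Col.i, Col.h, Col.d, Col.j, Col.g, Col.f, Col.e, Col.d, Col.l, Col.k, Col.a, Col.b, Col.c, Col.d, Col.i, Col.h, Col.d, Col.j,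 Col.g, Col.f, Col.e, Col.d, Col.l, Col.k, Col.a, Col.b, Col.c, Col.d] = repw 17 w_WF1 [] := rfl
  rw [e, walk_repw closed tw_1 [] 17 q hq]
  simp only [walk_cons, walk_nil, stp_l, stp_k, stp_a, stp_b, stp_c, stp_d, stp_e, stp_f, stp_g, stp_j, stp_h, stp_i]
  exact h
attribute [local irreducible] L stp tau PT DT
theorem closure_thm {G X : Type*} [Group G] [MulAction G X] (g : Col → G) (x0 : X) (hinv : ∀ c, g (inv c) = (g c)⁻¹)
    (hRW : ∀ w ∈ RW, gw g w = 1) (hSW : ∀ w ∈ SW0, gw g w • x0 = x0) :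
    ∃ f : ℕ → X, f q0 = x0 ∧ ∀ q ∈ L.toList, ∀ c, g c • f q = f (stp c q) := by
  have hSW1 : ∀ w ∈ SW1, gw g w • x0 = x0 := by
    have h := mini0_fix g x0 hinv hRW hSW
    intro w hw; unfold SW1 at hw; rw [List.mem_append, List.mem_singleton] at hw
    rcases hw with hw | rfl
    · exact hSW w hw
    · exact h
  have hSW2 : ∀ w ∈ SW2, gw g w • x0 = x0 := by
    have h := mini1_fix g x0 hinv hRW hSW1
    intro w hw; unfold SW2 at hw; rw [List.mem_append, List.mem_singleton] at hw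
    rcases hw with hw | rfl
    · exact hSW1 w hw
    · exact h
  exact closure_sound2 g x0 dec hdec hinv hRW hSW2 closed.mem pos q0_mem hz hE
theorem perm_RW : ∀ w ∈ RW, gw closed.perm w = 1 := by
  intro w hw
  simp only [RW, List.mem_cons, List.not_mem_nil, or_false] at hw
  rcases hw with rfl | rfl | rfl | rfl | rfl | rfl | rfl | rfl | rfl | rfl | rfl | rfl | rfl | rfl | rfl | rfl | rfl | rfl | rfl | rfl | rfl | rfl | rfl | rfl | rfl | rfl | rfl | rfl | rfl | rfl | rfl | rfl | rfl | rfl | rfl | rfl | rfl | rfl | rfl | rfl | rfl | rfl | rfl | rfl | rfl | rfl | rfl | rfl | rfl | rfl | rfl | rfl | rfl | rfl | rfl | rfl | rfl | rfl | rfl | rfl | rfl | rfl | rfl | rfl | rfl | rfl | rfl | rfl | rfl | rfl | rfl | rfl | rfl | rfl | rfl | rfl | rfl | rfl | rfl | rfl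
  · exact closed.gw_eq_one rel_0
  · exact closed.gw_eq_one rel_1
  · exact closed.gw_eq_one rel_2
  · exact closed.gw_eq_one rel_3
  · exact closed.gw_eq_one rel_4
  · exact closed.gw_eq_one rel_5
  · exact closed.gw_eq_one rel_6
  · exact closed.gw_eq_one rel_7
  · exact closed.gw_eq_one rel_8
  · exact closed.gw_eq_one rel_9
  · exact closed.gw_eq_one rel_10
  · exact closed.gw_eq_one rel_11
  · exact closed.gw_eq_one rel_12
  · exact closed.gw_eq_one rel_13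
  · exact closed.gw_eq_one rel_14
  · exact closed.gw_eq_one rel_15
  · exact closed.gw_eq_one rel_16
  · exact closed.gw_eq_one rel_17
  · exact closed.gw_eq_one rel_18
  · exact closed.gw_eq_one rel_19
  · exact closed.gw_eq_one rel_20
  · exact closed.gw_eq_one rel_21
  · exact closed.gw_eq_one rel_22
  · exact closed.gw_eq_one rel_23
  · exact closed.gw_eq_one rel_24
  · exact closed.gw_eq_one rel_25
  · exact closed.gw_eq_one rel_26
  · exact closed.gw_eq_one rel_27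
  · exact closed.gw_eq_one rel_28
  · exact closed.gw_eq_one rel_29
  · exact closed.gw_eq_one rel_30
  · exact closed.gw_eq_one rel_31
  · exact closed.gw_eq_one rel_32
  · exact closed.gw_eq_one rel_33
  · exact closed.gw_eq_one rel_34
  · exact closed.gw_eq_one rel_35
  · exact closed.gw_eq_one rel_36
  · exact closed.gw_eq_one rel_37
  · exact closed.gw_eq_one rel_38
  · exact closed.gw_eq_one rel_39
  · exact closed.gw_eq_one rel_40
  · exact closed.gw_eq_one rel_41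
  · exact closed.gw_eq_one rel_42
  · exact closed.gw_eq_one rel_43
  · exact closed.gw_eq_one rel_44
  · exact closed.gw_eq_one rel_45
  · exact closed.gw_eq_one rel_46
  · exact closed.gw_eq_one rel_47
  · exact closed.gw_eq_one rel_48
  · exact closed.gw_eq_one rel_49
  · exact closed.gw_eq_one rel_50
  · exact closed.gw_eq_one rel_51
  · exact closed.gw_eq_one rel_52
  · exact closed.gw_eq_one rel_53
  · exact closed.gw_eq_one rel_54
  · exact closed.gw_eq_one rel_55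
  · exact closed.gw_eq_one rel_56
  · exact closed.gw_eq_one rel_57
  · exact closed.gw_eq_one rel_58
  · exact closed.gw_eq_one rel_59
  · exact closed.gw_eq_one rel_60
  · exact closed.gw_eq_one rel_61
  · exact closed.gw_eq_one rel_62
  · exact closed.gw_eq_one rel_63
  · exact closed.gw_eq_one rel_64
  · exact closed.gw_eq_one rel_65
  · exact closed.gw_eq_one rel_66
  · exact closed.gw_eq_one rel_67
  · exact closed.gw_eq_one rel_68
  · exact closed.gw_eq_one rel_69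
  · exact closed.gw_eq_one rel_70
  · exact closed.gw_eq_one rel_71
  · exact closed.gw_eq_one rel_72
  · exact closed.gw_eq_one rel_73
  · exact closed.gw_eq_one rel_74
  · exact closed.gw_eq_one rel_75
  · exact closed.gw_eq_one rel_76
  · exact closed.gw_eq_one rel_77
  · exact closed.gw_eq_one rel_78
  · exact closed.gw_eq_one rel_79
universe u
/-- upper bound for a relative index -/
theorem rel_upper {G : Type u} [Group G] (g : Col → G) (hinv : ∀ c, g (inv c) = (g c)⁻¹)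
    (hRW : ∀ w ∈ RW, gw g w = 1) (H : Subgroup G) (hSW : ∀ w ∈ SW0, gw g w ∈ H) :
    H.relIndex (genBy g) ≠ 0 ∧ H.relIndex (genBy g) ≤ 306936 := by
  rw [← size_L]
  exact relIndex_of_closure closed.mem q0_mem g hinv hRW H hSW (fun X _ x0 h1 h2 h3 => closure_thm (liftGen g) x0 h1 h2 h3)
/-- the permutation representation -/
noncomputable def φ : Fi24 →* Equiv.Perm (Om L) :=
  homOf (sat_of_rwx (col := col) (inv := inv) h2 h3 closed.perm closed.perm_inv TV (by rw [rw_eq]; exact perm_RW))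
theorem φ_P : ∀ c, φ (P c) = closed.perm c := by
  have h : ∀ x : Fi24.Gen, φ (PresentedGroup.of x) = closed.perm (col x) := fun x => homOf_of _ x
  intro c
  cases c
  · exact h .l
  · exact h .k
  · exact h .a
  · exact h .b
  · exact h .c
  · exact h .d
  · exact h .e
  · exact h .f
  · exact h .g
  · exact h .j
  · exact h .h
  · exact h .i
/-- the subgroup -/
abbrev H : Subgroup Fi24 := presSub Fi24.edges Fi24.extra HX
theorem H_eq : H = Subgroup.closure {x | ∃ w ∈ SW0, gw P w = x} := presSub_eq HX P P_inv P_col sw_eq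
theorem H_SW : ∀ w ∈ SW0, gw P w ∈ H := fun w hw => by rw [H_eq]; exact Subgroup.subset_closure ⟨w, hw, rfl⟩
theorem main : H.index = 306936 ∧ (∀ x, φ x ⟨q0, q0_mem⟩ = ⟨q0, q0_mem⟩ ↔ x ∈ H) ∧ (∀ q : Om L, ∃ x, φ x ⟨q0, q0_mem⟩ = q) := by
  rw [← size_L]
  exact index_main closed nodup q0_mem trans P P_top φ φ_P H (le_of_eq H_eq) H_SW
    (fun w hw => Nat.eq_of_beq_eq_true ((lall_iff (fun w => Nat.beq (walk stp w q0) q0) SW0).1 (by decide +kernel) w hw))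
    (fun h => closure_thm P _ P_inv P_RW h)
end CfsgLib.TCFi24
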