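import Cfsg.Agent.EqBase
import Cfsg.Agent.LibTCQ
import Cfsg.Prelude.Def_Spor_Fi24
set_option autoImplicit false
set_option linter.all false
set_option maxRecDepth 1000000

/-! The presentation of Fi24 in column form (generated). -/
namespace CfsgLib.TCG_Fi24
open CfsgLib.TC Cfsg.Spor
inductive Col where
  | l
  | k
  | a
  | b
  | c
  | d
  | e
  | f
  | g
  | j
  | h
  | i
noncomputable def idx : Col → ℕ := fun c => Col.rec (motive := fun _ => ℕ) 0 1 2 3 4 5 6 7 8 9 10 11 c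
noncomputable def inv : Col → Col := fun c => Col.rec (motive := fun _ => Col) .l .k .a .b .c .d .e .f .g .j .h .i c
def dec : ℕ → Col := fun n => if n = 0 then .l else if n = 1 then .k else if n = 2 then .a else if n = 3 then .b else if n = 4 then .c else if n = 5 then .d else if n = 6 then .e else if n = 7 then .f else if n = 8 then .g else if n = 9 then .j else if n = 10 then .h else .i
theorem hdec : ∀ c, dec (idx c) = c := by intro c; cases c <;> rfl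
theorem inv_inv : ∀ c, inv (inv c) = c := by intro c; cases c <;> rfl
def cols : List Col := [.l, .k, .a, .b, .c, .d, .e, .f, .g, .j, .h, .i]
theorem hcols : ∀ c, c ∈ cols := by intro c; cases c <;> simp [cols]
def col : Fi24.Gen → Col
  | .l => .l
  | .k => .k
  | .a => .a
  | .b => .b
  | .c => .c
  | .d => .d
  | .e => .e
  | .f => .f
  | .g => .g
  | .j => .j
  | .h => .h
  | .i => .i
def CL : List (Fi24.Gen × Fi24.Gen × ℕ) := [(.l, .l, 1), (.l, .k, 3), (.l, .a, 2), (.l, .b, 2), (.l, .c, 2), (.l, .d, 2), (.l, .e, 2), (.l, .f, 2), (.l, .g, 2), (.l, .j, 2), (.l, .h, 2), (.l, .i, 2), (.k, .k, 1), (.k, .a, 3), (.k, .b, 2), (.k, .c, 2), (.k, .d, 2), (.k, .e, 2), (.k, .f, 2), (.k, .g, 2), (.k, .j, 2), (.k, .h, 2), (.k, .i, 2), (.a, .a, 1), (.a, .b, 3), (.a, .c, 2), (.a, .d, 2), (.a, .e, 2), (.a, .f, 2), (.a, .g, 2), (.a, .j, 2), (.a, .h, 2), (.a, .i, 2), (.b, .b, 1), (.b, .c,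 3), (.b, .d, 2), (.b, .e, 2), (.b, .f, 2), (.b, .g, 2), (.b, .j, 2), (.b, .h, 2), (.b, .i, 2), (.c, .c, 1), (.c, .d, 3), (.c, .e, 2), (.c, .f, 2), (.c, .g, 2), (.c, .j, 2), (.c, .h, 2), (.c, .i, 2), (.d, .d, 1), (.d, .e, 3), (.d, .f, 2), (.d, .g, 2), (.d, .j, 2), (.d, .h, 3), (.d, .i, 2), (.e, .e, 1), (.e, .f, 3), (.e, .g, 2), (.e, .j, 2), (.e, .h, 2), (.e, .i, 2), (.f, .f, 1), (.f, .g, 3), (.f, .j, 2), (.f, .h, 2), (.f, .i, 2), (.g, .g, 1), (.g, .j, 3), (.g, .h, 2), (.g, .i, 2), (.j, .j, 1), (.j, .h, 2), (.j, .i, 2), (.h, .h, 1), (.h, .i, 3), (.i, .i, 1)]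
def XL : List (Ex Fi24.Gen) := [(.m (.v .l) (.i (.p (.m (.m (.m (.m (.m (.m (.v .a) (.v .b)) (.v .c)) (.v .d)) (.v .e)) (.v .f)) (.v .h)) 9))),
  (.p (.m (.m (.m (.m (.m (.m (.m (.m (.m (.m (.m (.m (.m (.v .d) (.v .c)) (.v .b)) (.v .a)) (.v .k)) (.v .l)) (.v .d)) (.v .e)) (.v .f)) (.v .g)) (.v .j)) (.v .d)) (.v .h)) (.v .i)) 17)]
def TV : List Col := []
/-- relators as path words (first letter acts first) -/
def RW : List (List Col) := [[.l, .l],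
  [.k, .l, .k, .l, .k, .l],
  [.a, .l, .a, .l],
  [.b, .l, .b, .l],
  [.c, .l, .c, .l],
  [.d, .l, .d, .l],
  [.e, .l, .e, .l],
  [.f, .l, .f, .l],
  [.g, .l, .g, .l],
  [.j, .l, .j, .l],
  [.h, .l, .h, .l],
  [.i, .l, .i, .l],
  [.k, .k],
  [.a, .k, .a, .k, .a, .k],
  [.b, .k, .b, .k],
  [.c, .k, .c, .k],
  [.d, .k, .d, .k],
  [.e, .k, .e, .k],
  [.f, .k, .f, .k],
  [.g, .k, .g, .k],
  [.j, .k, .j, .k],
  [.h, .k, .h, .k],
  [.i, .k, .i, .k],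
  [.a, .a],
  [.b, .a, .b, .a, .b, .a],
  [.c, .a, .c, .a],
  [.d, .a, .d, .a],
  [.e, .a, .e, .a],
  [.f, .a, .f, .a],
  [.g, .a, .g, .a],
  [.j, .a, .j, .a],
  [.h, .a, .h, .a],
  [.i, .a, .i, .a],
  [.b, .b],
  [.c, .b, .c, .b, .c, .b],
  [.d, .b, .d, .b],
  [.e, .b, .e, .b],
  [.f, .b, .f, .b],
  [.g, .b, .g, .b],
  [.j, .b, .j, .b],
  [.h, .b, .h, .b],
  [.i, .b, .i, .b],
  [.c, .c],
  [.d, .c, .d, .c, .d, .c],
  [.e, .c, .e, .c],
  [.f, .c, .f, .c],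
  [.g, .c, .g, .c],
  [.j, .c, .j, .c],
  [.h, .c, .h, .c],
  [.i, .c, .i, .c],
  [.d, .d],
  [.e, .d, .e, .d, .e, .d],
  [.f, .d, .f, .d],
  [.g, .d, .g, .d],
  [.j, .d, .j, .d],
  [.h, .d, .h, .d, .h, .d],
  [.i, .d, .i, .d],
  [.e, .e],
  [.f, .e, .f, .e, .f, .e],
  [.g, .e, .g, .e],
  [.j, .e, .j, .e],
  [.h, .e, .h, .e],
  [.i, .e, .i, .e],
  [.f, .f],
  [.g, .f, .g, .f, .g, .f],
  [.j, .f, .j, .f],
  [.h, .f, .h, .f],
  [.i, .f, .i, .f],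
  [.g, .g],
  [.j, .g, .j, .g, .j, .g],
  [.h, .g, .h, .g],
  [.i, .g, .i, .g],
  [.j, .j],
  [.h, .j, .h, .j],
  [.i, .j, .i, .j],
  [.h, .h],
  [.i, .h, .i, .h, .i, .h],
  [.i, .i],
  [.a, .b, .c, .d, .e, .f, .h, .a, .b, .c, .d, .e, .f, .h, .a, .b, .c, .d, .e, .f, .h, .a, .b, .c, .d, .e, .f, .h, .a, .b, .c, .d, .e, .f, .h, .a, .b, .c, .d, .e, .f, .h, .a, .b, .c, .d, .e, .f, .h, .a, .b, .c, .d, .e, .f, .h, .a, .b, .c, .d, .e, .f, .h, .l],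
  [.i, .h, .d, .j, .g, .f, .e, .d, .l, .k, .a, .b, .c, .d, .i, .h, .d, .j, .g, .f, .e, .d, .l, .k, .a, .b, .c, .d, .i, .h, .d, .j, .g, .f, .e, .d, .l, .k, .a, .b, .c, .d, .i, .h, .d, .j, .g, .f, .e, .d, .l, .k, .a, .b, .c, .d, .i, .h, .d, .j, .g, .f, .e, .d, .l, .k, .a, .b, .c, .d, .i, .h, .d, .j, .g, .f, .e, .d, .l, .k, .a, .b, .c, .d, .i, .h, .d, .j, .g, .f, .e, .d, .l, .k, .a, .b, .c, .d, .i, .h, .d, .j, .g, .f, .e, .d, .l, .k, .a, .b, .c, .d, .i, .h, .d, .j, .g, .f, .e, .d, .l, .k, .a, .b, .c, .d, .i, .h, .d, .j, .g, .f, .e, .d, .l, .k, .a, .b, .c, .d, .i, .h, .d, .j, .g, .f, .e, .d, .l, .k, .a, .b, .c, .d, .i, .h, .d, .j, .g, .f, .e, .d, .l, .k, .a, .b, .c, .d, .i, .h, .d, .j, .g, .f, .e, .d, .l, .k, .a, .b, .c, .d, .i, .h, .d, .j, .g, .f, .e, .d, .l, .k, .a, .b, .c, .d, .i, .h, .d, .j, .g, .f, .e, .d, .l, .k, .a, .b, .c, .d, .i, .h, .d, .j, .g, .f, .e, .d, .l, .k, .a,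 .b, .c, .d, .i, .h, .d, .j, .g, .f, .e, .d, .l, .k, .a, .b, .c, .d]]
theorem h1 : ∀ t ∈ CL, t.1 ∈ coxNodes Fi24.edges ∧ t.2.1 ∈ coxNodes Fi24.edges ∧ coxLabel Fi24.edges t.1 t.2.1 = t.2.2 := by decide +kernel
theorem h2 : ∀ x ∈ coxNodes Fi24.edges, ∀ y ∈ coxNodes Fi24.edges, (x, y, coxLabel Fi24.edges x y) ∈ CL ∨ (y, x, coxLabel Fi24.edges x y) ∈ CL := by decide +kernel
theorem h3 : XL.map Ex.toFree = Fi24.extra := rfl
theorem rw_eq : RWx col inv CL XL TV = RW := lleq_sound dec hdec _ _ (by decide +kernel)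
def Pc {G : Type*} [Group G] (f : Fi24.Gen → G) : Col → G
  | .l => f .l
  | .k => f .k
  | .a => f .a
  | .b => f .b
  | .c => f .c
  | .d => f .d
  | .e => f .e
  | .f => f .f
  | .g => f .g
  | .j => f .j
  | .h => f .h
  | .i => f .i
theorem Pc_col {G : Type*} [Group G] (f : Fi24.Gen → G) (x : Fi24.Gen) : Pc f (col x) = f x := by cases x <;> rfl
theorem f_inv {G : Type*} [Group G] {f : Fi24.Gen → G} (hs : Sat Fi24.edges Fi24.extra f) (x : Fi24.Gen) (hx : (x, x, 1) ∈ CL) : (f x)⁻¹ = f x := by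
  have := sat_spx h1 h3 hs (Ex.p (Ex.m (Ex.v x) (Ex.v x)) 1)
    (List.mem_append_left _ (List.mem_map_of_mem (f := fun t : Fi24.Gen × Fi24.Gen × ℕ => Ex.p (Ex.m (Ex.v t.1) (Ex.v t.2.1)) t.2.2) hx))
  have h4 : f x * f x = 1 := by simpa [Ex.toFree] using this
  exact inv_eq_of_mul_eq_one_left h4
theorem Pc_inv {G : Type*} [Group G] {f : Fi24.Gen → G} (hs : Sat Fi24.edges Fi24.extra f) : ∀ c, Pc f (inv c) = (Pc f c)⁻¹ := by
  intro c; cases c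
  · exact (f_inv hs .l (by decide +kernel)).symm
  · exact (f_inv hs .k (by decide +kernel)).symm
  · exact (f_inv hs .a (by decide +kernel)).symm
  · exact (f_inv hs .b (by decide +kernel)).symm
  · exact (f_inv hs .c (by decide +kernel)).symm
  · exact (f_inv hs .d (by decide +kernel)).symm
  · exact (f_inv hs .e (by decide +kernel)).symm
  · exact (f_inv hs .f (by decide +kernel)).symm
  · exact (f_inv hs .g (by decide +kernel)).symm
  · exact (f_inv hs .j (by decide +kernel)).symm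
  · exact (f_inv hs .h (by decide +kernel)).symm
  · exact (f_inv hs .i (by decide +kernel)).symm
theorem Pc_RW {G : Type*} [Group G] {f : Fi24.Gen → G} (hs : Sat Fi24.edges Fi24.extra f) : ∀ w ∈ RW, gw (Pc f) w = 1 := by
  rw [← rw_eq]; exact rwx_of_sat h1 h3 hs (Pc f) (Pc_inv hs) (Pc_col f) TV
/-- the canonical family -/
abbrev P : Col → Fi24 := Pc PresentedGroup.of
theorem hsat : Sat Fi24.edges Fi24.extra (PresentedGroup.of (rels := coxRelators Fi24.edges ∪ {r | r ∈ Fi24.extra})) := sat_of _ _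
theorem P_inv : ∀ c, P (inv c) = (P c)⁻¹ := Pc_inv hsat
theorem P_RW : ∀ w ∈ RW, gw P w = 1 := Pc_RW hsat
theorem P_col : ∀ x, P (col x) = PresentedGroup.of x := Pc_col _
theorem P_top : Subgroup.closure (Set.range P) = ⊤ := closure_of_eq_top col P P_col
end CfsgLib.TCG_Fi24
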