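import Cfsg.Agent.EqBase
import Cfsg.Agent.LibTCT
import Cfsg.Agent.LibTCGFi24
set_option autoImplicit false
set_option linter.all false
set_option maxRecDepth 1000000

/-! The derived subgroup of the presented Fi₂₄ has index 2. -/

namespace CfsgLib.TCFi24
open CfsgLib.TC Cfsg.Spor CfsgLib

theorem gw_neg (w : List TCG_Fi24.Col) : gw (fun _ => (-1 : ℤˣ)) w = (-1) ^ w.length := by
  induction w with
  | nil => rfl
  | cons c w ih => rw [gw_cons, ih, List.length_cons, pow_succ]

theorem even_RW : ∀ w ∈ TCG_Fi24.RW, w.length % 2 = 0 := by decide +kernel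

theorem sgn_sat : Sat Fi24.edges Fi24.extra (fun _ : Fi24.Gen => (-1 : ℤˣ)) := by
  refine sat_of_rwx TCG_Fi24.h2 TCG_Fi24.h3 (col := TCG_Fi24.col) (inv := TCG_Fi24.inv) (fun _ => (-1 : ℤˣ)) (fun _ => by simp) TCG_Fi24.TV ?_
  rw [TCG_Fi24.rw_eq]
  intro w hw
  rw [gw_neg, ← Nat.div_add_mod w.length 2, even_RW w hw, add_zero, pow_mul]
  simp

/-- the sign homomorphism -/
noncomputable def sgn : Fi24 →* ℤˣ := homOf sgn_sat

theorem sgn_of (x : Fi24.Gen) : sgn (PresentedGroup.of x) = -1 := homOf_of sgn_sat x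

section rels
variable {G : Type*} [Group G] {f : Fi24.Gen → G} (hs : Sat Fi24.edges Fi24.extra f)
include hs
theorem sqx (x : Fi24.Gen) : f x * f x = 1 := by
  have := cox_rel TCG_Fi24.h1 TCG_Fi24.h3 hs x x 1 (by cases x <;> decide)
  rwa [pow_one] at this
end rels

theorem all_eq {A : Type*} [CommGroup A] {f : Fi24.Gen → A} (hs : Sat Fi24.edges Fi24.extra f) (x : Fi24.Gen) : f x = f .d := by
  have e : ∀ x y : Fi24.Gen, (x, y, 3) ∈ TCG_Fi24.CL → f x = f y := fun x y h =>
    odd_eq (sqx hs x) (sqx hs y) (cox_rel TCG_Fi24.h1 TCG_Fi24.h3 hs _ _ _ h) rfl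
  have h1 := e .l .k (by decide)
  have h2 := e .k .a (by decide)
  have h3 := e .a .b (by decide)
  have h4 := e .b .c (by decide)
  have h5 := e .c .d (by decide)
  have h6 := e .d .e (by decide)
  have h7 := e .e .f (by decide)
  have h8 := e .f .g (by decide)
  have h9 := e .g .j (by decide)
  have h10 := e .d .h (by decide)
  have h11 := e .h .i (by decide)
  cases x
  · rw [h1, h2, h3, h4, h5]
  · rw [h2, h3, h4, h5]
  · rw [h3, h4, h5]
  · rw [h4, h5]
  · rw [h5]
  · rfl
  · rw [h6]
  · rw [h6, h7]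
  · rw [h6, h7, h8]
  · rw [h6, h7, h8, h9]
  · rw [h10]
  · rw [h10, h11]

theorem comm_index : (commutator Fi24).index = 2 := by
  let f : Fi24.Gen → Abelianization Fi24 := fun x => Abelianization.of (PresentedGroup.of x)
  have hs : Sat Fi24.edges Fi24.extra f := Sat.comp (sat_of Fi24.edges Fi24.extra) Abelianization.of
  have hall := all_eq hs
  have htop : Subgroup.zpowers (f .d) = ⊤ := by
    rw [eq_top_iff]
    intro y _
    obtain ⟨g, rfl⟩ := QuotientGroup.mk_surjective y
    have h1 : (⊤ : Subgroup Fi24) ≤ (Subgroup.zpowers (f .d)).comap Abelianization.of := by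
      rw [← PresentedGroup.closure_range_of, Subgroup.closure_le]
      rintro _ ⟨x, rfl⟩
      show f x ∈ Subgroup.zpowers (f .d)
      rw [hall x]
      exact Subgroup.mem_zpowers _
    exact h1 (Subgroup.mem_top g)
  have h2 : orderOf (f .d) = 2 := by
    apply orderOf_eq_prime
    · rw [pow_two]; exact sqx hs .d
    · intro h
      have h3 : Abelianization.lift sgn (f .d) = 1 := by rw [h, map_one]
      have h4 : Abelianization.lift sgn (f .d) = -1 := by
        show Abelianization.lift sgn (Abelianization.of (PresentedGroup.of .d)) = -1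
        rw [Abelianization.lift_apply_of, sgn_of]
      rw [h4] at h3
      exact absurd h3 (by decide)
  have h5 : Nat.card (Abelianization Fi24) = 2 := by
    rw [← h2, ← Nat.card_zpowers, htop, Subgroup.card_top]
  exact h5

end CfsgLib.TCFi24
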