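import Cfsg.Agent.EqBase
import Cfsg.Agent.LibTCFi24OD
set_option autoImplicit false
set_option linter.all false
set_option maxRecDepth 1000000
set_option maxHeartbeats 0
namespace CfsgLib.TCFi24
open CfsgLib.TC Cfsg.Spor CfsgLib.TCG_Fi24
theorem iv_0 : Tr.all IV L_0 = true := by decide +kernel
theorem iv_7 : Tr.all IV L_7 = true := by decide +kernel
theorem iv_14 : Tr.all IV L_14 = true := by decide +kernel
theorem iv_21 : Tr.all IV L_21 = true := by decide +kernel
theorem iv_28 : Tr.all IV L_28 = true := by decide +kernel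
theorem iv_35 : Tr.all IV L_35 = true := by decide +kernel
theorem iv_42 : Tr.all IV L_42 = true := by decide +kernel
theorem iv_49 : Tr.all IV L_49 = true := by decide +kernel
theorem iv_56 : Tr.all IV L_56 = true := by decide +kernel
theorem iv_63 : Tr.all IV L_63 = true := by decide +kernel
theorem iv_70 : Tr.all IV L_70 = true := by decide +kernel
theorem ht_9 : Tr.all (treeQ mt (fun q => Nat.beq (RP (OB q)) q) wsH HP HR HW) L_9 = true := by decide +kernel
theorem ht_16 : Tr.all (treeQ mt (fun q => Nat.beq (RP (OB q)) q) wsH HP HR HW) L_16 = true := by decide +kernel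
theorem ht_23 : Tr.all (treeQ mt (fun q => Nat.beq (RP (OB q)) q) wsH HP HR HW) L_23 = true := by decide +kernel
theorem ht_30 : Tr.all (treeQ mt (fun q => Nat.beq (RP (OB q)) q) wsH HP HR HW) L_30 = true := by decide +kernel
theorem ht_37 : Tr.all (treeQ mt (fun q => Nat.beq (RP (OB q)) q) wsH HP HR HW) L_37 = true := by decide +kernel
theorem ht_44 : Tr.all (treeQ mt (fun q => Nat.beq (RP (OB q)) q) wsH HP HR HW) L_44 = true := by decide +kernel
theorem ht_51 : Tr.all (treeQ mt (fun q => Nat.beq (RP (OB q)) q) wsH HP HR HW) L_51 = true := by decide +kernel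
theorem ht_58 : Tr.all (treeQ mt (fun q => Nat.beq (RP (OB q)) q) wsH HP HR HW) L_58 = true := by decide +kernel
theorem ht_65 : Tr.all (treeQ mt (fun q => Nat.beq (RP (OB q)) q) wsH HP HR HW) L_65 = true := by decide +kernel
theorem ht_72 : Tr.all (treeQ mt (fun q => Nat.beq (RP (OB q)) q) wsH HP HR HW) L_72 = true := by decide +kernel
theorem cn_1_3 : cnt OB 1 L_3 = 761 := by decide +kernel
theorem cn_2_6 : cnt OB 2 L_6 = 3924 := by decide +kernel
theorem cn_1_10 : cnt OB 1 L_10 = 214 := by decide +kernel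
theorem cn_2_13 : cnt OB 2 L_13 = 4033 := by decide +kernel
theorem cn_1_17 : cnt OB 1 L_17 = 1251 := by decide +kernel
theorem cn_2_20 : cnt OB 2 L_20 = 4096 := by decide +kernel
theorem cn_1_24 : cnt OB 1 L_24 = 0 := by decide +kernel
theorem cn_2_27 : cnt OB 2 L_27 = 4096 := by decide +kernel
theorem cn_1_31 : cnt OB 1 L_31 = 1235 := by decide +kernel
theorem cn_2_34 : cnt OB 2 L_34 = 4096 := by decide +kernel
theorem cn_1_38 : cnt OB 1 L_38 = 231 := by decide +kernel
theorem cn_2_41 : cnt OB 2 L_41 = 3063 := by decide +kernel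
theorem cn_1_45 : cnt OB 1 L_45 = 0 := by decide +kernel
theorem cn_2_48 : cnt OB 2 L_48 = 4096 := by decide +kernel
theorem cn_1_52 : cnt OB 1 L_52 = 0 := by decide +kernel
theorem cn_2_55 : cnt OB 2 L_55 = 4096 := by decide +kernel
theorem cn_1_59 : cnt OB 1 L_59 = 137 := by decide +kernel
theorem cn_2_62 : cnt OB 2 L_62 = 3893 := by decide +kernel
theorem cn_1_66 : cnt OB 1 L_66 = 0 := by decide +kernel
theorem cn_2_69 : cnt OB 2 L_69 = 3177 := by decide +kernel
theorem cn_1_73 : cnt OB 1 L_73 = 659 := by decide +kernel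
end CfsgLib.TCFi24
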