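import Cfsg.Agent.EqBase
import Cfsg.Agent.LibTCFi24OD
set_option autoImplicit false
set_option linter.all false
set_option maxRecDepth 1000000
set_option maxHeartbeats 0
namespace CfsgLib.TCFi24
open CfsgLib.TC Cfsg.Spor CfsgLib.TCG_Fi24
theorem iv_1 : Tr.all IV L_1 = true := by decide +kernel
theorem iv_8 : Tr.all IV L_8 = true := by decide +kernel
theorem iv_15 : Tr.all IV L_15 = true := by decide +kernel
theorem iv_22 : Tr.all IV L_22 = true := by decide +kernel
theorem iv_29 : Tr.all IV L_29 = true := by decide +kernel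
theorem iv_36 : Tr.all IV L_36 = true := by decide +kernel
theorem iv_43 : Tr.all IV L_43 = true := by decide +kernel
theorem iv_50 : Tr.all IV L_50 = true := by decide +kernel
theorem iv_57 : Tr.all IV L_57 = true := by decide +kernel
theorem iv_64 : Tr.all IV L_64 = true := by decide +kernel
theorem iv_71 : Tr.all IV L_71 = true := by decide +kernel
theorem ht_10 : Tr.all (treeQ mt (fun q => Nat.beq (RP (OB q)) q) wsH HP HR HW) L_10 = true := by decide +kernel
theorem ht_17 : Tr.all (treeQ mt (fun q => Nat.beq (RP (OB q)) q) wsH HP HR HW) L_17 = true := by decide +kernel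
theorem ht_24 : Tr.all (treeQ mt (fun q => Nat.beq (RP (OB q)) q) wsH HP HR HW) L_24 = true := by decide +kernel
theorem ht_31 : Tr.all (treeQ mt (fun q => Nat.beq (RP (OB q)) q) wsH HP HR HW) L_31 = true := by decide +kernel
theorem ht_38 : Tr.all (treeQ mt (fun q => Nat.beq (RP (OB q)) q) wsH HP HR HW) L_38 = true := by decide +kernel
theorem ht_45 : Tr.all (treeQ mt (fun q => Nat.beq (RP (OB q)) q) wsH HP HR HW) L_45 = true := by decide +kernel
theorem ht_52 : Tr.all (treeQ mt (fun q => Nat.beq (RP (OB q)) q) wsH HP HR HW) L_52 = true := by decide +kernel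
theorem ht_59 : Tr.all (treeQ mt (fun q => Nat.beq (RP (OB q)) q) wsH HP HR HW) L_59 = true := by decide +kernel
theorem ht_66 : Tr.all (treeQ mt (fun q => Nat.beq (RP (OB q)) q) wsH HP HR HW) L_66 = true := by decide +kernel
theorem ht_73 : Tr.all (treeQ mt (fun q => Nat.beq (RP (OB q)) q) wsH HP HR HW) L_73 = true := by decide +kernel
theorem cn_2_3 : cnt OB 2 L_3 = 3335 := by decide +kernel
theorem cn_1_7 : cnt OB 1 L_7 = 1160 := by decide +kernel
theorem cn_2_10 : cnt OB 2 L_10 = 3882 := by decide +kernel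
theorem cn_1_14 : cnt OB 1 L_14 = 1482 := by decide +kernel
theorem cn_2_17 : cnt OB 2 L_17 = 2845 := by decide +kernel
theorem cn_1_21 : cnt OB 1 L_21 = 1366 := by decide +kernel
theorem cn_2_24 : cnt OB 2 L_24 = 4096 := by decide +kernel
theorem cn_1_28 : cnt OB 1 L_28 = 310 := by decide +kernel
theorem cn_2_31 : cnt OB 2 L_31 = 2861 := by decide +kernel
theorem cn_1_35 : cnt OB 1 L_35 = 0 := by decide +kernel
theorem cn_2_38 : cnt OB 2 L_38 = 3865 := by decide +kernel
theorem cn_1_42 : cnt OB 1 L_42 = 181 := by decide +kernel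
theorem cn_2_45 : cnt OB 2 L_45 = 4096 := by decide +kernel
theorem cn_1_49 : cnt OB 1 L_49 = 0 := by decide +kernel
theorem cn_2_52 : cnt OB 2 L_52 = 4096 := by decide +kernel
theorem cn_1_56 : cnt OB 1 L_56 = 190 := by decide +kernel
theorem cn_2_59 : cnt OB 2 L_59 = 3959 := by decide +kernel
theorem cn_1_63 : cnt OB 1 L_63 = 0 := by decide +kernel
theorem cn_2_66 : cnt OB 2 L_66 = 4096 := by decide +kernel
theorem cn_1_70 : cnt OB 1 L_70 = 0 := by decide +kernel
theorem cn_2_73 : cnt OB 2 L_73 = 3437 := by decide +kernel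
end CfsgLib.TCFi24
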