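import Cfsg.Agent.EqBase
import Cfsg.Agent.LibTCFi24OD
set_option autoImplicit false
set_option linter.all false
set_option maxRecDepth 1000000
set_option maxHeartbeats 0
namespace CfsgLib.TCFi24
open CfsgLib.TC Cfsg.Spor CfsgLib.TCG_Fi24
theorem iv_2 : Tr.all IV L_2 = true := by decide +kernel
theorem iv_9 : Tr.all IV L_9 = true := by decide +kernel
theorem iv_16 : Tr.all IV L_16 = true := by decide +kernel
theorem iv_23 : Tr.all IV L_23 = true := by decide +kernel
theorem iv_30 : Tr.all IV L_30 = true := by decide +kernel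
theorem iv_37 : Tr.all IV L_37 = true := by decide +kernel
theorem iv_44 : Tr.all IV L_44 = true := by decide +kernel
theorem iv_51 : Tr.all IV L_51 = true := by decide +kernel
theorem iv_58 : Tr.all IV L_58 = true := by decide +kernel
theorem iv_65 : Tr.all IV L_65 = true := by decide +kernel
theorem iv_72 : Tr.all IV L_72 = true := by decide +kernel
theorem ht_11 : Tr.all (treeQ mt (fun q => Nat.beq (RP (OB q)) q) wsH HP HR HW) L_11 = true := by decide +kernel
theorem ht_18 : Tr.all (treeQ mt (fun q => Nat.beq (RP (OB q)) q) wsH HP HR HW) L_18 = true := by decide +kernel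
theorem ht_25 : Tr.all (treeQ mt (fun q => Nat.beq (RP (OB q)) q) wsH HP HR HW) L_25 = true := by decide +kernel
theorem ht_32 : Tr.all (treeQ mt (fun q => Nat.beq (RP (OB q)) q) wsH HP HR HW) L_32 = true := by decide +kernel
theorem ht_39 : Tr.all (treeQ mt (fun q => Nat.beq (RP (OB q)) q) wsH HP HR HW) L_39 = true := by decide +kernel
theorem ht_46 : Tr.all (treeQ mt (fun q => Nat.beq (RP (OB q)) q) wsH HP HR HW) L_46 = true := by decide +kernel
theorem ht_53 : Tr.all (treeQ mt (fun q => Nat.beq (RP (OB q)) q) wsH HP HR HW) L_53 = true := by decide +kernel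
theorem ht_60 : Tr.all (treeQ mt (fun q => Nat.beq (RP (OB q)) q) wsH HP HR HW) L_60 = true := by decide +kernel
theorem ht_67 : Tr.all (treeQ mt (fun q => Nat.beq (RP (OB q)) q) wsH HP HR HW) L_67 = true := by decide +kernel
theorem ht_74 : Tr.all (treeQ mt (fun q => Nat.beq (RP (OB q)) q) wsH HP HR HW) L_74 = true := by decide +kernel
theorem cn_2_2 : cnt OB 2 L_2 = 3099 := by decide +kernel
theorem cn_1_6 : cnt OB 1 L_6 = 172 := by decide +kernel
theorem cn_2_9 : cnt OB 2 L_9 = 3002 := by decide +kernel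
theorem cn_1_13 : cnt OB 1 L_13 = 63 := by decide +kernel
theorem cn_2_16 : cnt OB 2 L_16 = 4096 := by decide +kernel
theorem cn_1_20 : cnt OB 1 L_20 = 0 := by decide +kernel
theorem cn_2_23 : cnt OB 2 L_23 = 3753 := by decide +kernel
theorem cn_1_27 : cnt OB 1 L_27 = 0 := by decide +kernel
theorem cn_2_30 : cnt OB 2 L_30 = 3817 := by decide +kernel
theorem cn_1_34 : cnt OB 1 L_34 = 0 := by decide +kernel
theorem cn_2_37 : cnt OB 2 L_37 = 4096 := by decide +kernel
theorem cn_1_41 : cnt OB 1 L_41 = 1033 := by decide +kernel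
theorem cn_2_44 : cnt OB 2 L_44 = 3900 := by decide +kernel
theorem cn_1_48 : cnt OB 1 L_48 = 0 := by decide +kernel
theorem cn_2_51 : cnt OB 2 L_51 = 4096 := by decide +kernel
theorem cn_1_55 : cnt OB 1 L_55 = 0 := by decide +kernel
theorem cn_2_58 : cnt OB 2 L_58 = 4096 := by decide +kernel
theorem cn_1_62 : cnt OB 1 L_62 = 203 := by decide +kernel
theorem cn_2_65 : cnt OB 2 L_65 = 3101 := by decide +kernel
theorem cn_1_69 : cnt OB 1 L_69 = 919 := by decide +kernel
theorem cn_2_72 : cnt OB 2 L_72 = 3348 := by decide +kernel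
end CfsgLib.TCFi24
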