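import Cfsg.Agent.EqBase
import Cfsg.Agent.LibTCFi24OD
set_option autoImplicit false
set_option linter.all false
set_option maxRecDepth 1000000
set_option maxHeartbeats 0
namespace CfsgLib.TCFi24
open CfsgLib.TC Cfsg.Spor CfsgLib.TCG_Fi24
theorem iv_3 : Tr.all IV L_3 = true := by decide +kernel
theorem iv_10 : Tr.all IV L_10 = true := by decide +kernel
theorem iv_17 : Tr.all IV L_17 = true := by decide +kernel
theorem iv_24 : Tr.all IV L_24 = true := by decide +kernel
theorem iv_31 : Tr.all IV L_31 = true := by decide +kernel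
theorem iv_38 : Tr.all IV L_38 = true := by decide +kernel
theorem iv_45 : Tr.all IV L_45 = true := by decide +kernel
theorem iv_52 : Tr.all IV L_52 = true := by decide +kernel
theorem iv_59 : Tr.all IV L_59 = true := by decide +kernel
theorem iv_66 : Tr.all IV L_66 = true := by decide +kernel
theorem iv_73 : Tr.all IV L_73 = true := by decide +kernel
theorem ht_12 : Tr.all (treeQ mt (fun q => Nat.beq (RP (OB q)) q) wsH HP HR HW) L_12 = true := by decide +kernel
theorem ht_19 : Tr.all (treeQ mt (fun q => Nat.beq (RP (OB q)) q) wsH HP HR HW) L_19 = true := by decide +kernel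
theorem ht_26 : Tr.all (treeQ mt (fun q => Nat.beq (RP (OB q)) q) wsH HP HR HW) L_26 = true := by decide +kernel
theorem ht_33 : Tr.all (treeQ mt (fun q => Nat.beq (RP (OB q)) q) wsH HP HR HW) L_33 = true := by decide +kernel
theorem ht_40 : Tr.all (treeQ mt (fun q => Nat.beq (RP (OB q)) q) wsH HP HR HW) L_40 = true := by decide +kernel
theorem ht_47 : Tr.all (treeQ mt (fun q => Nat.beq (RP (OB q)) q) wsH HP HR HW) L_47 = true := by decide +kernel
theorem ht_54 : Tr.all (treeQ mt (fun q => Nat.beq (RP (OB q)) q) wsH HP HR HW) L_54 = true := by decide +kernel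
theorem ht_61 : Tr.all (treeQ mt (fun q => Nat.beq (RP (OB q)) q) wsH HP HR HW) L_61 = true := by decide +kernel
theorem ht_68 : Tr.all (treeQ mt (fun q => Nat.beq (RP (OB q)) q) wsH HP HR HW) L_68 = true := by decide +kernel
theorem cn_1_0 : cnt OB 1 L_0 = 1340 := by decide +kernel
theorem cn_2_0 : cnt OB 2 L_0 = 2755 := by decide +kernel
theorem cn_1_4 : cnt OB 1 L_4 = 885 := by decide +kernel
theorem cn_2_7 : cnt OB 2 L_7 = 2936 := by decide +kernel
theorem cn_1_11 : cnt OB 1 L_11 = 1386 := by decide +kernel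
theorem cn_2_14 : cnt OB 2 L_14 = 2614 := by decide +kernel
theorem cn_1_18 : cnt OB 1 L_18 = 426 := by decide +kernel
theorem cn_2_21 : cnt OB 2 L_21 = 2730 := by decide +kernel
theorem cn_1_25 : cnt OB 1 L_25 = 15 := by decide +kernel
theorem cn_2_28 : cnt OB 2 L_28 = 3786 := by decide +kernel
theorem cn_1_32 : cnt OB 1 L_32 = 0 := by decide +kernel
theorem cn_2_35 : cnt OB 2 L_35 = 4096 := by decide +kernel
theorem cn_1_39 : cnt OB 1 L_39 = 0 := by decide +kernel
theorem cn_2_42 : cnt OB 2 L_42 = 3915 := by decide +kernel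
theorem cn_1_46 : cnt OB 1 L_46 = 0 := by decide +kernel
theorem cn_2_49 : cnt OB 2 L_49 = 4096 := by decide +kernel
theorem cn_1_53 : cnt OB 1 L_53 = 574 := by decide +kernel
theorem cn_2_56 : cnt OB 2 L_56 = 3906 := by decide +kernel
theorem cn_1_60 : cnt OB 1 L_60 = 847 := by decide +kernel
theorem cn_2_63 : cnt OB 2 L_63 = 4096 := by decide +kernel
theorem cn_1_67 : cnt OB 1 L_67 = 190 := by decide +kernel
theorem cn_2_70 : cnt OB 2 L_70 = 4096 := by decide +kernel
theorem cn_1_74 : cnt OB 1 L_74 = 1162 := by decide +kernel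
end CfsgLib.TCFi24
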