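import Cfsg.Agent.EqBase
import Cfsg.Agent.LibTCFi24OD
set_option autoImplicit false
set_option linter.all false
set_option maxRecDepth 1000000
set_option maxHeartbeats 0
namespace CfsgLib.TCFi24
open CfsgLib.TC Cfsg.Spor CfsgLib.TCG_Fi24
theorem iv_4 : Tr.all IV L_4 = true := by decide +kernel
theorem iv_11 : Tr.all IV L_11 = true := by decide +kernel
theorem iv_18 : Tr.all IV L_18 = true := by decide +kernel
theorem iv_25 : Tr.all IV L_25 = true := by decide +kernel
theorem iv_32 : Tr.all IV L_32 = true := by decide +kernel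
theorem iv_39 : Tr.all IV L_39 = true := by decide +kernel
theorem iv_46 : Tr.all IV L_46 = true := by decide +kernel
theorem iv_53 : Tr.all IV L_53 = true := by decide +kernel
theorem iv_60 : Tr.all IV L_60 = true := by decide +kernel
theorem iv_67 : Tr.all IV L_67 = true := by decide +kernel
theorem iv_74 : Tr.all IV L_74 = true := by decide +kernel
theorem ht_6 : Tr.all (treeQ mt (fun q => Nat.beq (RP (OB q)) q) wsH HP HR HW) L_6 = true := by decide +kernel
theorem ht_13 : Tr.all (treeQ mt (fun q => Nat.beq (RP (OB q)) q) wsH HP HR HW) L_13 = true := by decide +kernel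
theorem ht_20 : Tr.all (treeQ mt (fun q => Nat.beq (RP (OB q)) q) wsH HP HR HW) L_20 = true := by decide +kernel
theorem ht_27 : Tr.all (treeQ mt (fun q => Nat.beq (RP (OB q)) q) wsH HP HR HW) L_27 = true := by decide +kernel
theorem ht_34 : Tr.all (treeQ mt (fun q => Nat.beq (RP (OB q)) q) wsH HP HR HW) L_34 = true := by decide +kernel
theorem ht_41 : Tr.all (treeQ mt (fun q => Nat.beq (RP (OB q)) q) wsH HP HR HW) L_41 = true := by decide +kernel
theorem ht_48 : Tr.all (treeQ mt (fun q => Nat.beq (RP (OB q)) q) wsH HP HR HW) L_48 = true := by decide +kernel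
theorem ht_55 : Tr.all (treeQ mt (fun q => Nat.beq (RP (OB q)) q) wsH HP HR HW) L_55 = true := by decide +kernel
theorem ht_62 : Tr.all (treeQ mt (fun q => Nat.beq (RP (OB q)) q) wsH HP HR HW) L_62 = true := by decide +kernel
theorem ht_69 : Tr.all (treeQ mt (fun q => Nat.beq (RP (OB q)) q) wsH HP HR HW) L_69 = true := by decide +kernel
theorem cn_1_1 : cnt OB 1 L_1 = 1094 := by decide +kernel
theorem cn_2_4 : cnt OB 2 L_4 = 3211 := by decide +kernel
theorem cn_1_8 : cnt OB 1 L_8 = 145 := by decide +kernel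
theorem cn_2_11 : cnt OB 2 L_11 = 2710 := by decide +kernel
theorem cn_1_15 : cnt OB 1 L_15 = 339 := by decide +kernel
theorem cn_2_18 : cnt OB 2 L_18 = 3670 := by decide +kernel
theorem cn_1_22 : cnt OB 1 L_22 = 383 := by decide +kernel
theorem cn_2_25 : cnt OB 2 L_25 = 4081 := by decide +kernel
theorem cn_1_29 : cnt OB 1 L_29 = 0 := by decide +kernel
theorem cn_2_32 : cnt OB 2 L_32 = 4096 := by decide +kernel
theorem cn_1_36 : cnt OB 1 L_36 = 1357 := by decide +kernel
theorem cn_2_39 : cnt OB 2 L_39 = 4096 := by decide +kernel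
theorem cn_1_43 : cnt OB 1 L_43 = 0 := by decide +kernel
theorem cn_2_46 : cnt OB 2 L_46 = 4096 := by decide +kernel
theorem cn_1_50 : cnt OB 1 L_50 = 185 := by decide +kernel
theorem cn_2_53 : cnt OB 2 L_53 = 3522 := by decide +kernel
theorem cn_1_57 : cnt OB 1 L_57 = 0 := by decide +kernel
theorem cn_2_60 : cnt OB 2 L_60 = 3249 := by decide +kernel
theorem cn_1_64 : cnt OB 1 L_64 = 0 := by decide +kernel
theorem cn_2_67 : cnt OB 2 L_67 = 3906 := by decide +kernel
theorem cn_1_71 : cnt OB 1 L_71 = 155 := by decide +kernel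
theorem cn_2_74 : cnt OB 2 L_74 = 2670 := by decide +kernel
end CfsgLib.TCFi24
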