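import Cfsg.Agent.EqBase
import Cfsg.Agent.LibTCFi24
import Cfsg.Agent.LibTCFi24OX0
import Cfsg.Agent.LibTCFi24OX1
import Cfsg.Agent.LibTCFi24OX2
import Cfsg.Agent.LibTCFi24OX3
import Cfsg.Agent.LibTCFi24OX4
import Cfsg.Agent.LibTCFi24OX5
import Cfsg.Agent.LibTCFi24OX6
set_option autoImplicit false
set_option linter.all false
set_option maxRecDepth 1000000
set_option maxHeartbeats 0
namespace CfsgLib.TCFi24
open CfsgLib.TC Cfsg.Spor CfsgLib.TCG_Fi24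
theorem ht : Tr.all (treeQ mt (fun q => Nat.beq (RP (OB q)) q) wsH HP HR HW) L = true := (Tr.all_nd (Tr.all_nd (Tr.all_nd (Tr.all_nd (Tr.all_nd (Tr.all_nd ht_0 ht_1) (Tr.all_nd ht_2 ht_3)) (Tr.all_nd (Tr.all_nd ht_4 ht_5) (Tr.all_nd ht_6 (Tr.all_nd ht_7 ht_8)))) (Tr.all_nd (Tr.all_nd (Tr.all_nd ht_9 ht_10) (Tr.all_nd ht_11 ht_12)) (Tr.all_nd (Tr.all_nd ht_13 ht_14) (Tr.all_nd ht_15 (Tr.all_nd ht_16 ht_17))))) (Tr.all_nd (Tr.all_nd (Tr.all_nd (Tr.all_nd ht_18 ht_19) (Tr.all_nd ht_20 ht_21)) (Tr.all_nd (Tr.all_nd ht_22 ht_23) (Tr.all_nd ht_24 (Tr.all_nd ht_25 ht_26)))) (Tr.all_nd (Tr.all_nd (Tr.all_nd ht_27 ht_28) (Tr.all_nd ht_29 (Tr.all_nd ht_30 ht_31))) (Tr.all_nd (Tr.all_nd ht_32 ht_33) (Tr.all_nd ht_34 (Tr.all_nd ht_35 ht_36)))))) (Tr.all_nd (Tr.all_nd (Tr.all_nd (Tr.all_nd (Tr.all_nd ht_37 ht_38) (Tr.all_nd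 ht_39 ht_40)) (Tr.all_nd (Tr.all_nd ht_41 ht_42) (Tr.all_nd ht_43 (Tr.all_nd ht_44 ht_45)))) (Tr.all_nd (Tr.all_nd (Tr.all_nd ht_46 ht_47) (Tr.all_nd ht_48 (Tr.all_nd ht_49 ht_50))) (Tr.all_nd (Tr.all_nd ht_51 ht_52) (Tr.all_nd ht_53 (Tr.all_nd ht_54 ht_55))))) (Tr.all_nd (Tr.all_nd (Tr.all_nd (Tr.all_nd ht_56 ht_57) (Tr.all_nd ht_58 ht_59)) (Tr.all_nd (Tr.all_nd ht_60 ht_61) (Tr.all_nd ht_62 (Tr.all_nd ht_63 ht_64)))) (Tr.all_nd (Tr.all_nd (Tr.all_nd ht_65 ht_66) (Tr.all_nd ht_67 (Tr.all_nd ht_68 ht_69))) (Tr.all_nd (Tr.all_nd ht_70 ht_71) (Tr.all_nd ht_72 (Tr.all_nd ht_73 ht_74)))))))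
theorem iv : Tr.all IV L = true := (Tr.all_nd (Tr.all_nd (Tr.all_nd (Tr.all_nd (Tr.all_nd (Tr.all_nd iv_0 iv_1) (Tr.all_nd iv_2 iv_3)) (Tr.all_nd (Tr.all_nd iv_4 iv_5) (Tr.all_nd iv_6 (Tr.all_nd iv_7 iv_8)))) (Tr.all_nd (Tr.all_nd (Tr.all_nd iv_9 iv_10) (Tr.all_nd iv_11 iv_12)) (Tr.all_nd (Tr.all_nd iv_13 iv_14) (Tr.all_nd iv_15 (Tr.all_nd iv_16 iv_17))))) (Tr.all_nd (Tr.all_nd (Tr.all_nd (Tr.all_nd iv_18 iv_19) (Tr.all_nd iv_20 iv_21)) (Tr.all_nd (Tr.all_nd iv_22 iv_23) (Tr.all_nd iv_24 (Tr.all_nd iv_25 iv_26)))) (Tr.all_nd (Tr.all_nd (Tr.all_nd iv_27 iv_28) (Tr.all_nd iv_29 (Tr.all_nd iv_30 iv_31))) (Tr.all_nd (Tr.all_nd iv_32 iv_33) (Tr.all_nd iv_34 (Tr.all_nd iv_35 iv_36)))))) (Tr.all_nd (Tr.all_nd (Tr.all_nd (Tr.all_nd (Tr.all_nd iv_37 iv_38) (Tr.all_nd iv_39 iv_40)) (Tr.all_nd (Tr.all_nd iv_41 iv_42) (Tr.all_nd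 iv_43 (Tr.all_nd iv_44 iv_45)))) (Tr.all_nd (Tr.all_nd (Tr.all_nd iv_46 iv_47) (Tr.all_nd iv_48 (Tr.all_nd iv_49 iv_50))) (Tr.all_nd (Tr.all_nd iv_51 iv_52) (Tr.all_nd iv_53 (Tr.all_nd iv_54 iv_55))))) (Tr.all_nd (Tr.all_nd (Tr.all_nd (Tr.all_nd iv_56 iv_57) (Tr.all_nd iv_58 iv_59)) (Tr.all_nd (Tr.all_nd iv_60 iv_61) (Tr.all_nd iv_62 (Tr.all_nd iv_63 iv_64)))) (Tr.all_nd (Tr.all_nd (Tr.all_nd iv_65 iv_66) (Tr.all_nd iv_67 (Tr.all_nd iv_68 iv_69))) (Tr.all_nd (Tr.all_nd iv_70 iv_71) (Tr.all_nd iv_72 (Tr.all_nd iv_73 iv_74)))))))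
theorem cnt_nd {OB : ℕ → ℕ} {i k : ℕ} {l r : Tr ℕ} {a b : ℕ} (hl : cnt OB i l = a) (hr : cnt OB i r = b) : cnt OB i (Tr.nd k l r) = a + b := by rw [← hl, ← hr]; rfl
theorem cnt_1 : cnt OB 1 L = 31671 := (cnt_nd (cnt_nd (cnt_nd (cnt_nd (cnt_nd (cnt_nd cn_1_0 cn_1_1) (cnt_nd cn_1_2 cn_1_3)) (cnt_nd (cnt_nd cn_1_4 cn_1_5) (cnt_nd cn_1_6 (cnt_nd cn_1_7 cn_1_8)))) (cnt_nd (cnt_nd (cnt_nd cn_1_9 cn_1_10) (cnt_nd cn_1_11 cn_1_12)) (cnt_nd (cnt_nd cn_1_13 cn_1_14) (cnt_nd cn_1_15 (cnt_nd cn_1_16 cn_1_17))))) (cnt_nd (cnt_nd (cnt_nd (cnt_nd cn_1_18 cn_1_19) (cnt_nd cn_1_20 cn_1_21)) (cnt_nd (cnt_nd cn_1_22 cn_1_23) (cnt_nd cn_1_24 (cnt_nd cn_1_25 cn_1_26)))) (cnt_nd (cnt_nd (cnt_nd cn_1_27 cn_1_28) (cnt_nd cn_1_29 (cnt_nd cn_1_30 cn_1_31))) (cnt_nd (cnt_nd cn_1_32 cn_1_33) (cnt_nd cn_1_34 (cnt_nd cn_1_35 cn_1_36)))))) (cnt_nd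 (cnt_nd (cnt_nd (cnt_nd (cnt_nd cn_1_37 cn_1_38) (cnt_nd cn_1_39 cn_1_40)) (cnt_nd (cnt_nd cn_1_41 cn_1_42) (cnt_nd cn_1_43 (cnt_nd cn_1_44 cn_1_45)))) (cnt_nd (cnt_nd (cnt_nd cn_1_46 cn_1_47) (cnt_nd cn_1_48 (cnt_nd cn_1_49 cn_1_50))) (cnt_nd (cnt_nd cn_1_51 cn_1_52) (cnt_nd cn_1_53 (cnt_nd cn_1_54 cn_1_55))))) (cnt_nd (cnt_nd (cnt_nd (cnt_nd cn_1_56 cn_1_57) (cnt_nd cn_1_58 cn_1_59)) (cnt_nd (cnt_nd cn_1_60 cn_1_61) (cnt_nd cn_1_62 (cnt_nd cn_1_63 cn_1_64)))) (cnt_nd (cnt_nd (cnt_nd cn_1_65 cn_1_66) (cnt_nd cn_1_67 (cnt_nd cn_1_68 cn_1_69))) (cnt_nd (cnt_nd cn_1_70 cn_1_71) (cnt_nd cn_1_72 (cnt_nd cn_1_73 cn_1_74)))))))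
theorem cnt_2 : cnt OB 2 L = 275264 := (cnt_nd (cnt_nd (cnt_nd (cnt_nd (cnt_nd (cnt_nd cn_2_0 cn_2_1) (cnt_nd cn_2_2 cn_2_3)) (cnt_nd (cnt_nd cn_2_4 cn_2_5) (cnt_nd cn_2_6 (cnt_nd cn_2_7 cn_2_8)))) (cnt_nd (cnt_nd (cnt_nd cn_2_9 cn_2_10) (cnt_nd cn_2_11 cn_2_12)) (cnt_nd (cnt_nd cn_2_13 cn_2_14) (cnt_nd cn_2_15 (cnt_nd cn_2_16 cn_2_17))))) (cnt_nd (cnt_nd (cnt_nd (cnt_nd cn_2_18 cn_2_19) (cnt_nd cn_2_20 cn_2_21)) (cnt_nd (cnt_nd cn_2_22 cn_2_23) (cnt_nd cn_2_24 (cnt_nd cn_2_25 cn_2_26)))) (cnt_nd (cnt_nd (cnt_nd cn_2_27 cn_2_28) (cnt_nd cn_2_29 (cnt_nd cn_2_30 cn_2_31))) (cnt_nd (cnt_nd cn_2_32 cn_2_33) (cnt_nd cn_2_34 (cnt_nd cn_2_35 cn_2_36)))))) (cnt_nd (cnt_nd (cnt_nd (cnt_nd (cnt_nd cn_2_37 cn_2_38) (cnt_nd cn_2_39 cn_2_40)) (cnt_nd (cnt_nd cn_2_41 cn_2_42) (cnt_nd cn_2_43 (cnt_nd cn_2_44 cn_2_45)))) (cnt_nd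 (cnt_nd (cnt_nd cn_2_46 cn_2_47) (cnt_nd cn_2_48 (cnt_nd cn_2_49 cn_2_50))) (cnt_nd (cnt_nd cn_2_51 cn_2_52) (cnt_nd cn_2_53 (cnt_nd cn_2_54 cn_2_55))))) (cnt_nd (cnt_nd (cnt_nd (cnt_nd cn_2_56 cn_2_57) (cnt_nd cn_2_58 cn_2_59)) (cnt_nd (cnt_nd cn_2_60 cn_2_61) (cnt_nd cn_2_62 (cnt_nd cn_2_63 cn_2_64)))) (cnt_nd (cnt_nd (cnt_nd cn_2_65 cn_2_66) (cnt_nd cn_2_67 (cnt_nd cn_2_68 cn_2_69))) (cnt_nd (cnt_nd cn_2_70 cn_2_71) (cnt_nd cn_2_72 (cnt_nd cn_2_73 cn_2_74)))))))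
theorem hwsH (j x : ℕ) : ∃ w ∈ SW0, wsH j x = walk stp w x := (brecP (P := fun y => ∃ w ∈ SW0, y = walk stp w x) (brecP (P := fun y => ∃ w ∈ SW0, y = walk stp w x) (brecP (P := fun y => ∃ w ∈ SW0, y = walk stp w x) ⟨[Col.a], List.mem_cons_self, rfl⟩ ⟨[Col.b], (List.mem_cons_of_mem _ List.mem_cons_self), rfl⟩) (brecP (P := fun y => ∃ w ∈ SW0, y = walk stp w x) ⟨[Col.c], (List.mem_cons_of_mem _ (List.mem_cons_of_mem _ List.mem_cons_self)), rfl⟩ (brecP (P := fun y => ∃ w ∈ SW0, y = walk stp w x) ⟨[Col.d], (List.mem_cons_of_mem _ (List.mem_cons_of_mem _ (List.mem_cons_of_mem _ List.mem_cons_self))), rfl⟩ ⟨[Col.e], (List.mem_cons_of_mem _ (List.mem_cons_of_mem _ (List.mem_cons_of_mem _ (List.mem_cons_of_mem _ List.mem_cons_self)))), rfl⟩))) (brecP (P := fun y => ∃ w ∈ SW0, y = walk stp w x) (brecP (P := fun y => ∃ w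 ∈ SW0, y = walk stp w x) ⟨[Col.f], (List.mem_cons_of_mem _ (List.mem_cons_of_mem _ (List.mem_cons_of_mem _ (List.mem_cons_of_mem _ (List.mem_cons_of_mem _ List.mem_cons_self))))), rfl⟩ (brecP (P := fun y => ∃ w ∈ SW0, y = walk stp w x) ⟨[Col.g], (List.mem_cons_of_mem _ (List.mem_cons_of_mem _ (List.mem_cons_of_mem _ (List.mem_cons_of_mem _ (List.mem_cons_of_mem _ (List.mem_cons_of_mem _ List.mem_cons_self)))))), rfl⟩ ⟨[Col.h], (List.mem_cons_of_mem _ (List.mem_cons_of_mem _ (List.mem_cons_of_mem _ (List.mem_cons_of_mem _ (List.mem_cons_of_mem _ (List.mem_cons_of_mem _ (List.mem_cons_of_mem _ List.mem_cons_self))))))), rfl⟩)) (brecP (P := fun y => ∃ w ∈ SW0, y = walk stp w x) ⟨[Col.i], (List.mem_cons_of_mem _ (List.mem_cons_of_mem _ (List.mem_cons_of_mem _ (List.mem_cons_of_mem _ (List.mem_cons_of_mem _ (List.mem_cons_of_mem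 _ (List.mem_cons_of_mem _ (List.mem_cons_of_mem _ List.mem_cons_self)))))))), rfl⟩ (brecP (P := fun y => ∃ w ∈ SW0, y = walk stp w x) ⟨[Col.j], (List.mem_cons_of_mem _ (List.mem_cons_of_mem _ (List.mem_cons_of_mem _ (List.mem_cons_of_mem _ (List.mem_cons_of_mem _ (List.mem_cons_of_mem _ (List.mem_cons_of_mem _ (List.mem_cons_of_mem _ (List.mem_cons_of_mem _ List.mem_cons_self))))))))), rfl⟩ ⟨[Col.l], (List.mem_cons_of_mem _ (List.mem_cons_of_mem _ (List.mem_cons_of_mem _ (List.mem_cons_of_mem _ (List.mem_cons_of_mem _ (List.mem_cons_of_mem _ (List.mem_cons_of_mem _ (List.mem_cons_of_mem _ (List.mem_cons_of_mem _ (List.mem_cons_of_mem _ List.mem_cons_self)))))))))), rfl⟩))))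
theorem iu (q : ℕ) : IV q = true ↔ Nat.ble (OB q) 2 = true ∧ Nat.beq (OB (F_a q)) (OB q) = true ∧ Nat.beq (OB (F_b q)) (OB q) = true ∧ Nat.beq (OB (F_c q)) (OB q) = true ∧ Nat.beq (OB (F_d q)) (OB q) = true ∧ Nat.beq (OB (F_e q)) (OB q) = true ∧ Nat.beq (OB (F_f q)) (OB q) = true ∧ Nat.beq (OB (F_g q)) (OB q) = true ∧ Nat.beq (OB (F_h q)) (OB q) = true ∧ Nat.beq (OB (F_i q)) (OB q) = true ∧ Nat.beq (OB (F_j q)) (OB q) = true ∧ Nat.beq (OB (F_l q)) (OB q) = true := by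
  unfold IV
  simp only [bfalse_iff, and_true]
theorem hinvw : ∀ w ∈ SW0, ∀ q ∈ L.toList, OB (walk stp w q) = OB q := by
  intro w hw q hq
  have h := ((iu q).1 ((Tr.all_iff _ _).1 iv q hq)).2
  simp only [SW0, List.mem_cons, List.not_mem_nil, or_false] at hw
  rcases hw with rfl | rfl | rfl | rfl | rfl | rfl | rfl | rfl | rfl | rfl | rfl
  · simp only [walk_cons, walk_nil, stp_l, stp_k, stp_a, stp_b, stp_c, stp_d, stp_e, stp_f, stp_g, stp_j, stp_h, stp_i]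
    exact Nat.eq_of_beq_eq_true (h.1)
  · simp only [walk_cons, walk_nil, stp_l, stp_k, stp_a, stp_b, stp_c, stp_d, stp_e, stp_f, stp_g, stp_j, stp_h, stp_i]
    exact Nat.eq_of_beq_eq_true (h.2.1)
  · simp only [walk_cons, walk_nil, stp_l, stp_k, stp_a, stp_b, stp_c, stp_d, stp_e, stp_f, stp_g, stp_j, stp_h, stp_i]
    exact Nat.eq_of_beq_eq_true (h.2.2.1)
  · simp only [walk_cons, walk_nil, stp_l, stp_k, stp_a, stp_b, stp_c, stp_d, stp_e, stp_f, stp_g, stp_j, stp_h, stp_i]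
    exact Nat.eq_of_beq_eq_true (h.2.2.2.1)
  · simp only [walk_cons, walk_nil, stp_l, stp_k, stp_a, stp_b, stp_c, stp_d, stp_e, stp_f, stp_g, stp_j, stp_h, stp_i]
    exact Nat.eq_of_beq_eq_true (h.2.2.2.2.1)
  · simp only [walk_cons, walk_nil, stp_l, stp_k, stp_a, stp_b, stp_c, stp_d, stp_e, stp_f, stp_g, stp_j, stp_h, stp_i]
    exact Nat.eq_of_beq_eq_true (h.2.2.2.2.2.1)
  · simp only [walk_cons, walk_nil, stp_l, stp_k, stp_a, stp_b, stp_c, stp_d, stp_e, stp_f, stp_g, stp_j, stp_h, stp_i]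
    exact Nat.eq_of_beq_eq_true (h.2.2.2.2.2.2.1)
  · simp only [walk_cons, walk_nil, stp_l, stp_k, stp_a, stp_b, stp_c, stp_d, stp_e, stp_f, stp_g, stp_j, stp_h, stp_i]
    exact Nat.eq_of_beq_eq_true (h.2.2.2.2.2.2.2.1)
  · simp only [walk_cons, walk_nil, stp_l, stp_k, stp_a, stp_b, stp_c, stp_d, stp_e, stp_f, stp_g, stp_j, stp_h, stp_i]
    exact Nat.eq_of_beq_eq_true (h.2.2.2.2.2.2.2.2.1)
  · simp only [walk_cons, walk_nil, stp_l, stp_k, stp_a, stp_b, stp_c, stp_d, stp_e, stp_f, stp_g, stp_j, stp_h, stp_i]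
    exact Nat.eq_of_beq_eq_true (h.2.2.2.2.2.2.2.2.2.1)
  · simp only [walk_cons, walk_nil, stp_l, stp_k, stp_a, stp_b, stp_c, stp_d, stp_e, stp_f, stp_g, stp_j, stp_h, stp_i]
    exact Nat.eq_of_beq_eq_true (h.2.2.2.2.2.2.2.2.2.2)
theorem hlt : Tr.all (fun q => Nat.ble (OB q) ([31671, 275264] : List ℕ).length) L = true := by
  rw [Tr.all_iff]
  intro q hq
  exact ((iu q).1 ((Tr.all_iff _ _).1 iv q hq)).1
theorem sub : Sub closed φ H OB ⟨q0, q0_mem⟩ := by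
  refine ⟨main.2.1, main.2.2, orbit_labels2 φ (RP := RP) H (fun q => ?_)
    (invQ_sound closed φ P φ_P (SW := SW0) H (le_of_eq H_eq) hinvw)⟩
  obtain ⟨r, _, h2, h, hh, hhr⟩ := treeQ_sound closed φ P φ_P (LB := L) (SW := SW0) (fun q h => h) mt_sound hwsH H H_SW ht q q.2
  exact ⟨r, Nat.eq_of_beq_eq_true h2, h, hh, hhr⟩
theorem ob_r1 : OB 5500141 = 1 := by decide +kernel
theorem orb_1 : ∃ x : Fi24, (φ x ⟨q0, q0_mem⟩).1 = 5500141 ∧ (MulAction.orbit H ((x : Fi24) : Fi24 ⧸ H)).ncard = 31671 :=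
  sub.size_orb nodup (mt_sound _ (by decide +kernel)) (by rw [ob_r1]; exact cnt_1)
theorem ob_r2 : OB 5500009 = 2 := by decide +kernel
theorem orb_2 : ∃ x : Fi24, (φ x ⟨q0, q0_mem⟩).1 = 5500009 ∧ (MulAction.orbit H ((x : Fi24) : Fi24 ⧸ H)).ncard = 275264 :=
  sub.size_orb nodup (mt_sound _ (by decide +kernel)) (by rw [ob_r2]; exact cnt_2)
theorem ob_q0 : OB q0 = 0 := by decide +kernel
theorem cnt_all : ∀ j (hj : j < ([31671, 275264] : List ℕ).length), cnt OB (j+1) L = ([31671, 275264] : List ℕ)[j] := by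
  intro j hj
  match j, hj with
  | 0, _ => exact cnt_1
  | 1, _ => exact cnt_2
  | (j+2), hj => exact absurd hj (by simp)
theorem maximal : ∀ K : Subgroup Fi24, H ≤ K → K = H ∨ K = ⊤ :=
  sub.maximal nodup P φ_P (s := [31671, 275264]) ob_q0 hlt cnt_all size_L [] (by simp) (by decide +kernel)
end CfsgLib.TCFi24
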