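import Cfsg.Agent.EqBase
import Cfsg.Agent.LibTCFi24YCD
set_option autoImplicit false
set_option linter.all false
set_option maxRecDepth 1000000
set_option maxHeartbeats 0
namespace CfsgLib.TCFi24Y.Chain
open CfsgLib.TC Cfsg.Spor CfsgLib.TCG_Fi24Y CfsgLib.TCFi24Y
theorem tree0_0 : Tr.all (treeR mt wl0 HP0 HR0 HW0 (nat_lit 16411)) L = true := by decide +kernel
theorem tree1_0 : Tr.all (treeR mt wl1 HP1 HR1 HW1 (nat_lit 16417)) L = true := by decide +kernel
theorem tree2_0 : Tr.all (treeR mt wl2 HP2 HR2 HW2 (nat_lit 16427)) L = true := by decide +kernel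
theorem tree3_0 : Tr.all (treeR mt wl3 HP3 HR3 HW3 (nat_lit 17029)) L = true := by decide +kernel
theorem tree4_0 : Tr.all (treeR mt wl4 HP4 HR4 HW4 (nat_lit 17579)) L = true := by decide +kernel
theorem tree5_0 : Tr.all (treeR mt wl5 HP5 HR5 HW5 (nat_lit 16447)) L = true := by decide +kernel
theorem tree6_0 : Tr.all (treeR mt wl6 HP6 HR6 HW6 (nat_lit 16477)) L = true := by decide +kernel
theorem z0_0 : cnt HR0 0 L = 0 := by decide +kernel
theorem z1_0 : cnt HR1 0 L = 352 := by decide +kernel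
theorem z2_0 : cnt HR2 0 L = 837 := by decide +kernel
theorem z3_0 : cnt HR3 0 L = 990 := by decide +kernel
theorem z4_0 : cnt HR4 0 L = 1048 := by decide +kernel
theorem z5_0 : cnt HR5 0 L = 1071 := by decide +kernel
theorem z6_0 : cnt HR6 0 L = 1078 := by decide +kernel
end CfsgLib.TCFi24Y.Chain
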