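import Cfsg.Agent.EqBase
import Cfsg.Agent.LibTCFi24Y
import Cfsg.Agent.LibTCFi24YCX0
set_option autoImplicit false
set_option linter.all false
set_option maxRecDepth 1000000
set_option maxHeartbeats 0
namespace CfsgLib.TCFi24Y.Chain
open CfsgLib.TC Cfsg.Spor CfsgLib.TCG_Fi24Y CfsgLib.TCFi24Y
theorem cnt_nd' {OB : ℕ → ℕ} {i k : ℕ} {l r : Tr ℕ} {a b : ℕ} (hl : cnt OB i l = a) (hr : cnt OB i r = b) : cnt OB i (Tr.nd k l r) = a + b := by rw [← hl, ← hr]; rfl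
theorem tree0 : Tr.all (treeR mt wl0 HP0 HR0 HW0 (nat_lit 16411)) L = true := tree0_0
theorem z0 : cnt HR0 0 L = 0 := z0_0
theorem hwl0 (j x : ℕ) : ∃ w ∈ WL0, wl0 j x = walk stp w x := (brecP (P := fun y => ∃ w ∈ WL0, y = walk stp w x) (brecP (P := fun y => ∃ w ∈ WL0, y = walk stp w x) (brecP (P := fun y => ∃ w ∈ WL0, y = walk stp w x) ⟨[TCG_Fi24Y.Col.l], List.mem_cons_self, rfl⟩ ⟨[TCG_Fi24Y.Col.k], (List.mem_cons_of_mem _ List.mem_cons_self), rfl⟩) (brecP (P := fun y => ∃ w ∈ WL0, y = walk stp w x) ⟨[TCG_Fi24Y.Col.a], (List.mem_cons_of_mem _ (List.mem_cons_of_mem _ List.mem_cons_self)), rfl⟩ (brecP (P := fun y => ∃ w ∈ WL0, y = walk stp w x) ⟨[TCG_Fi24Y.Col.b], (List.mem_cons_of_mem _ (List.mem_cons_of_mem _ (List.mem_cons_of_mem _ List.mem_cons_self))), rfl⟩ ⟨[TCG_Fi24Y.Col.c], (List.mem_cons_of_mem _ (List.mem_cons_of_mem _ (List.mem_cons_of_mem _ (List.mem_cons_of_mem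 _ List.mem_cons_self)))), rfl⟩))) (brecP (P := fun y => ∃ w ∈ WL0, y = walk stp w x) (brecP (P := fun y => ∃ w ∈ WL0, y = walk stp w x) ⟨[TCG_Fi24Y.Col.d], (List.mem_cons_of_mem _ (List.mem_cons_of_mem _ (List.mem_cons_of_mem _ (List.mem_cons_of_mem _ (List.mem_cons_of_mem _ List.mem_cons_self))))), rfl⟩ ⟨[TCG_Fi24Y.Col.e], (List.mem_cons_of_mem _ (List.mem_cons_of_mem _ (List.mem_cons_of_mem _ (List.mem_cons_of_mem _ (List.mem_cons_of_mem _ (List.mem_cons_of_mem _ List.mem_cons_self)))))), rfl⟩) (brecP (P := fun y => ∃ w ∈ WL0, y = walk stp w x) ⟨[TCG_Fi24Y.Col.f], (List.mem_cons_of_mem _ (List.mem_cons_of_mem _ (List.mem_cons_of_mem _ (List.mem_cons_of_mem _ (List.mem_cons_of_mem _ (List.mem_cons_of_mem _ (List.mem_cons_of_mem _ List.mem_cons_self))))))), rfl⟩ (brecP (P := fun y => ∃ w ∈ WL0, y = walk stp w x) ⟨[TCG_Fi24Y.Col.h], (List.mem_cons_of_mem _ (List.mem_cons_of_mem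 _ (List.mem_cons_of_mem _ (List.mem_cons_of_mem _ (List.mem_cons_of_mem _ (List.mem_cons_of_mem _ (List.mem_cons_of_mem _ (List.mem_cons_of_mem _ List.mem_cons_self)))))))), rfl⟩ ⟨[TCG_Fi24Y.Col.i], (List.mem_cons_of_mem _ (List.mem_cons_of_mem _ (List.mem_cons_of_mem _ (List.mem_cons_of_mem _ (List.mem_cons_of_mem _ (List.mem_cons_of_mem _ (List.mem_cons_of_mem _ (List.mem_cons_of_mem _ (List.mem_cons_of_mem _ List.mem_cons_self))))))))), rfl⟩))))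
theorem tree1 : Tr.all (treeR mt wl1 HP1 HR1 HW1 (nat_lit 16417)) L = true := tree1_0
theorem z1 : cnt HR1 0 L = 352 := z1_0
theorem hwl1 (j x : ℕ) : ∃ w ∈ WL1, wl1 j x = walk stp w x := (brecP (P := fun y => ∃ w ∈ WL1, y = walk stp w x) (brecP (P := fun y => ∃ w ∈ WL1, y = walk stp w x) (brecP (P := fun y => ∃ w ∈ WL1, y = walk stp w x) ⟨[TCG_Fi24Y.Col.a], List.mem_cons_self, rfl⟩ ⟨[TCG_Fi24Y.Col.b], (List.mem_cons_of_mem _ List.mem_cons_self), rfl⟩) (brecP (P := fun y => ∃ w ∈ WL1, y = walk stp w x) ⟨[TCG_Fi24Y.Col.c], (List.mem_cons_of_mem _ (List.mem_cons_of_mem _ List.mem_cons_self)), rfl⟩ ⟨[TCG_Fi24Y.Col.d], (List.mem_cons_of_mem _ (List.mem_cons_of_mem _ (List.mem_cons_of_mem _ List.mem_cons_self))), rfl⟩)) (brecP (P := fun y => ∃ w ∈ WL1, y = walk stp w x) (brecP (P := fun y => ∃ w ∈ WL1, y = walk stp w x) ⟨[TCG_Fi24Y.Col.e], (List.mem_cons_of_mem _ (List.mem_cons_of_mem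 _ (List.mem_cons_of_mem _ (List.mem_cons_of_mem _ List.mem_cons_self)))), rfl⟩ ⟨[TCG_Fi24Y.Col.f], (List.mem_cons_of_mem _ (List.mem_cons_of_mem _ (List.mem_cons_of_mem _ (List.mem_cons_of_mem _ (List.mem_cons_of_mem _ List.mem_cons_self))))), rfl⟩) (brecP (P := fun y => ∃ w ∈ WL1, y = walk stp w x) ⟨[TCG_Fi24Y.Col.h], (List.mem_cons_of_mem _ (List.mem_cons_of_mem _ (List.mem_cons_of_mem _ (List.mem_cons_of_mem _ (List.mem_cons_of_mem _ (List.mem_cons_of_mem _ List.mem_cons_self)))))), rfl⟩ ⟨[TCG_Fi24Y.Col.i], (List.mem_cons_of_mem _ (List.mem_cons_of_mem _ (List.mem_cons_of_mem _ (List.mem_cons_of_mem _ (List.mem_cons_of_mem _ (List.mem_cons_of_mem _ (List.mem_cons_of_mem _ List.mem_cons_self))))))), rfl⟩)))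
theorem tree2 : Tr.all (treeR mt wl2 HP2 HR2 HW2 (nat_lit 16427)) L = true := tree2_0
theorem z2 : cnt HR2 0 L = 837 := z2_0
theorem hwl2 (j x : ℕ) : ∃ w ∈ WL2, wl2 j x = walk stp w x := (brecP (P := fun y => ∃ w ∈ WL2, y = walk stp w x) (brecP (P := fun y => ∃ w ∈ WL2, y = walk stp w x) ⟨[TCG_Fi24Y.Col.b], List.mem_cons_self, rfl⟩ (brecP (P := fun y => ∃ w ∈ WL2, y = walk stp w x) ⟨[TCG_Fi24Y.Col.c], (List.mem_cons_of_mem _ List.mem_cons_self), rfl⟩ ⟨[TCG_Fi24Y.Col.d], (List.mem_cons_of_mem _ (List.mem_cons_of_mem _ List.mem_cons_self)), rfl⟩)) (brecP (P := fun y => ∃ w ∈ WL2, y = walk stp w x) (brecP (P := fun y => ∃ w ∈ WL2, y = walk stp w x) ⟨[TCG_Fi24Y.Col.e], (List.mem_cons_of_mem _ (List.mem_cons_of_mem _ (List.mem_cons_of_mem _ List.mem_cons_self))), rfl⟩ ⟨[TCG_Fi24Y.Col.f], (List.mem_cons_of_mem _ (List.mem_cons_of_mem _ (List.mem_cons_of_mem _ (List.mem_cons_of_mem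 _ List.mem_cons_self)))), rfl⟩) (brecP (P := fun y => ∃ w ∈ WL2, y = walk stp w x) ⟨[TCG_Fi24Y.Col.h], (List.mem_cons_of_mem _ (List.mem_cons_of_mem _ (List.mem_cons_of_mem _ (List.mem_cons_of_mem _ (List.mem_cons_of_mem _ List.mem_cons_self))))), rfl⟩ ⟨[TCG_Fi24Y.Col.i], (List.mem_cons_of_mem _ (List.mem_cons_of_mem _ (List.mem_cons_of_mem _ (List.mem_cons_of_mem _ (List.mem_cons_of_mem _ (List.mem_cons_of_mem _ List.mem_cons_self)))))), rfl⟩)))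
theorem tree3 : Tr.all (treeR mt wl3 HP3 HR3 HW3 (nat_lit 17029)) L = true := tree3_0
theorem z3 : cnt HR3 0 L = 990 := z3_0
theorem hwl3 (j x : ℕ) : ∃ w ∈ WL3, wl3 j x = walk stp w x := (brecP (P := fun y => ∃ w ∈ WL3, y = walk stp w x) (brecP (P := fun y => ∃ w ∈ WL3, y = walk stp w x) ⟨[TCG_Fi24Y.Col.f], List.mem_cons_self, rfl⟩ ⟨[TCG_Fi24Y.Col.i], (List.mem_cons_of_mem _ List.mem_cons_self), rfl⟩) (brecP (P := fun y => ∃ w ∈ WL3, y = walk stp w x) ⟨[TCG_Fi24Y.Col.c, TCG_Fi24Y.Col.e], (List.mem_cons_of_mem _ (List.mem_cons_of_mem _ List.mem_cons_self)), rfl⟩ (brecP (P := fun y => ∃ w ∈ WL3, y = walk stp w x) ⟨[TCG_Fi24Y.Col.c, TCG_Fi24Y.Col.h], (List.mem_cons_of_mem _ (List.mem_cons_of_mem _ (List.mem_cons_of_mem _ List.mem_cons_self))), rfl⟩ ⟨[TCG_Fi24Y.Col.d, TCG_Fi24Y.Col.c], (List.mem_cons_of_mem _ (List.mem_cons_of_mem _ (List.mem_cons_of_mem _ (List.mem_cons_of_mem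 _ List.mem_cons_self)))), rfl⟩)))
theorem tree4 : Tr.all (treeR mt wl4 HP4 HR4 HW4 (nat_lit 17579)) L = true := tree4_0
theorem z4 : cnt HR4 0 L = 1048 := z4_0
theorem hwl4 (j x : ℕ) : ∃ w ∈ WL4, wl4 j x = walk stp w x := (brecP (P := fun y => ∃ w ∈ WL4, y = walk stp w x) ⟨[TCG_Fi24Y.Col.e], List.mem_cons_self, rfl⟩ (brecP (P := fun y => ∃ w ∈ WL4, y = walk stp w x) ⟨[TCG_Fi24Y.Col.h], (List.mem_cons_of_mem _ List.mem_cons_self), rfl⟩ ⟨[TCG_Fi24Y.Col.c, TCG_Fi24Y.Col.d], (List.mem_cons_of_mem _ (List.mem_cons_of_mem _ List.mem_cons_self)), rfl⟩))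
theorem tree5 : Tr.all (treeR mt wl5 HP5 HR5 HW5 (nat_lit 16447)) L = true := tree5_0
theorem z5 : cnt HR5 0 L = 1071 := z5_0
theorem hwl5 (j x : ℕ) : ∃ w ∈ WL5, wl5 j x = walk stp w x := (brecP (P := fun y => ∃ w ∈ WL5, y = walk stp w x) ⟨[TCG_Fi24Y.Col.d], List.mem_cons_self, rfl⟩ ⟨[TCG_Fi24Y.Col.e, TCG_Fi24Y.Col.h, TCG_Fi24Y.Col.c, TCG_Fi24Y.Col.d, TCG_Fi24Y.Col.h, TCG_Fi24Y.Col.i, TCG_Fi24Y.Col.c, TCG_Fi24Y.Col.h, TCG_Fi24Y.Col.d, TCG_Fi24Y.Col.e, TCG_Fi24Y.Col.f, TCG_Fi24Y.Col.l, TCG_Fi24Y.Col.c, TCG_Fi24Y.Col.e, TCG_Fi24Y.Col.h, TCG_Fi24Y.Col.d, TCG_Fi24Y.Col.e, TCG_Fi24Y.Col.i, TCG_Fi24Y.Col.h, TCG_Fi24Y.Col.l, TCG_Fi24Y.Col.c, TCG_Fi24Y.Col.d, TCG_Fi24Y.Col.c, TCG_Fi24Y.Col.d, TCG_Fi24Y.Col.i, TCG_Fi24Y.Col.h, TCG_Fi24Y.Col.d, TCG_Fi24Y.Col.e, TCG_Fi24Y.Col.c, TCG_Fi24Y.Col.i, TCG_Fi24Y.Col.f, TCG_Fi24Y.Col.h, TCG_Fi24Y.Col.e], (List.mem_cons_of_mem _ List.mem_cons_self),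 rfl⟩)
theorem tree6 : Tr.all (treeR mt wl6 HP6 HR6 HW6 (nat_lit 16477)) L = true := tree6_0
theorem z6 : cnt HR6 0 L = 1078 := z6_0
theorem hwl6 (j x : ℕ) : ∃ w ∈ WL6, wl6 j x = walk stp w x := ⟨[TCG_Fi24Y.Col.d], List.mem_cons_self, rfl⟩
section
variable {Γ : Type} [Group Γ] [Finite Γ] (ψ : Γ →* Equiv.Perm (Om L)) (g : Col → Γ) (hψ : ∀ c, ψ (g c) = closed.perm c)
include hψ
omit hψ in
theorem lev7 : 1 ≤ Nat.card (stabN ψ [16477, 16447, 17579, 17029, 16427, 16417, 16411]) := lev_zero _ _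
theorem lev6 : 2 ≤ Nat.card (stabN ψ [16447, 17579, 17029, 16427, 16417, 16411]) :=
  lev_step3 (n := 2) closed nodup ψ g hψ [16447, 17579, 17029, 16427, 16417, 16411] 16477 size_L (mt_sound _ (by decide +kernel)) mt_sound hwl6 (by decide +kernel) tree6 z6 (lev7 ψ) (by norm_num) (by norm_num)
theorem lev5 : 18 ≤ Nat.card (stabN ψ [17579, 17029, 16427, 16417, 16411]) :=
  lev_step3 (n := 9) closed nodup ψ g hψ [17579, 17029, 16427, 16417, 16411] 16447 size_L (mt_sound _ (by decide +kernel)) mt_sound hwl5 (by decide +kernel) tree5 z5 (lev6 ψ g hψ) (by norm_num) (by norm_num)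
theorem lev4 : 576 ≤ Nat.card (stabN ψ [17029, 16427, 16417, 16411]) :=
  lev_step3 (n := 32) closed nodup ψ g hψ [17029, 16427, 16417, 16411] 17579 size_L (mt_sound _ (by decide +kernel)) mt_sound hwl4 (by decide +kernel) tree4 z4 (lev5 ψ g hψ) (by norm_num) (by norm_num)
theorem lev3 : 51840 ≤ Nat.card (stabN ψ [16427, 16417, 16411]) :=
  lev_step3 (n := 90) closed nodup ψ g hψ [16427, 16417, 16411] 17029 size_L (mt_sound _ (by decide +kernel)) mt_sound hwl3 (by decide +kernel) tree3 z3 (lev4 ψ g hψ) (by norm_num) (by norm_num)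
theorem lev2 : 12597120 ≤ Nat.card (stabN ψ [16417, 16411]) :=
  lev_step3 (n := 243) closed nodup ψ g hψ [16417, 16411] 16427 size_L (mt_sound _ (by decide +kernel)) mt_sound hwl2 (by decide +kernel) tree2 z2 (lev3 ψ g hψ) (by norm_num) (by norm_num)
theorem lev1 : 9170703360 ≤ Nat.card (stabN ψ [16411]) :=
  lev_step3 (n := 728) closed nodup ψ g hψ [16411] 16417 size_L (mt_sound _ (by decide +kernel)) mt_sound hwl1 (by decide +kernel) tree1 z1 (lev2 ψ g hψ) (by norm_num) (by norm_num)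
theorem lev0 : 9904359628800 ≤ Nat.card (stabN ψ []) :=
  lev_step3 (n := 1080) closed nodup ψ g hψ [] 16411 size_L (mt_sound _ (by decide +kernel)) mt_sound hwl0 (by decide +kernel) tree0 z0 (lev1 ψ g hψ) (by norm_num) (by norm_num)
end
end CfsgLib.TCFi24Y.Chain
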