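import Cfsg.Agent.EqBase
import Cfsg.Agent.LibTCFi24YbD
set_option autoImplicit false
set_option linter.all false
set_option maxRecDepth 1000000
set_option maxHeartbeats 0
namespace CfsgLib.TCFi24Yb
open CfsgLib.TC Cfsg.Spor CfsgLib.TCG_Fi24Y
theorem ce_0_1 : Tr.all CE_0 L_1 = true := by decide +kernel
theorem ce_0_3 : Tr.all CE_0 L_3 = true := by decide +kernel
theorem ce_0_5 : Tr.all CE_0 L_5 = true := by decide +kernel
theorem ce_1_0 : Tr.all CE_1 L_0 = true := by decide +kernel
theorem ce_1_1 : Tr.all CE_1 L_1 = true := by decide +kernel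
theorem ce_1_3 : Tr.all CE_1 L_3 = true := by decide +kernel
theorem ce_1_5 : Tr.all CE_1 L_5 = true := by decide +kernel
theorem bs_1 : bst L_1 524288 (2 * 524288) = true := by decide +kernel
theorem bs_3 : bst L_3 524288 (2 * 524288) = true := by decide +kernel
theorem bs_5 : bst L_5 524288 (2 * 524288) = true := by decide +kernel
theorem pr_0 : prodT L_0 = MM_0 := by decide +kernel
theorem pr_1 : prodT L_1 = MM_1 := by decide +kernel
theorem pr_2 : prodT L_2 = MM_2 := by decide +kernel
theorem pr_3 : prodT L_3 = MM_3 := by decide +kernel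
theorem pr_4 : prodT L_4 = MM_4 := by decide +kernel
theorem pr_5 : prodT L_5 = MM_5 := by decide +kernel
theorem pr_6 : prodT L_6 = MM_6 := by decide +kernel
theorem gc_0 : Nat.gcd MM_0 (prodTo 1025) = 1 := by decide +kernel
theorem gc_1 : Nat.gcd MM_1 (prodTo 1025) = 1 := by decide +kernel
theorem gc_2 : Nat.gcd MM_2 (prodTo 1025) = 1 := by decide +kernel
theorem gc_3 : Nat.gcd MM_3 (prodTo 1025) = 1 := by decide +kernel
theorem gc_4 : Nat.gcd MM_4 (prodTo 1025) = 1 := by decide +kernel
theorem gc_5 : Nat.gcd MM_5 (prodTo 1025) = 1 := by decide +kernel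
theorem gc_6 : Nat.gcd MM_6 (prodTo 1025) = 1 := by decide +kernel
end CfsgLib.TCFi24Yb
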