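import Cfsg.Agent.EqBase
import Cfsg.Agent.LibTCFi24YbX0
import Cfsg.Agent.LibTCFi24YbX1
import Cfsg.Agent.LibTCFi24YbMs
set_option autoImplicit false
set_option linter.all false
set_option maxRecDepth 1000000
set_option maxHeartbeats 0
namespace CfsgLib.TCFi24Yb
open CfsgLib.TC Cfsg.Spor CfsgLib.TCG_Fi24Y
theorem size_nd {k : ℕ} {l r : Tr ℕ} {a b : ℕ} (hl : size l = a) (hr : size r = b) : size (Tr.nd k l r) = a + b := by rw [← hl, ← hr]; rfl
theorem bst_nd {k lo hi : ℕ} {l r : Tr ℕ} (hl : bst l lo k = true) (hr : bst r k hi = true) : bst (Tr.nd k l r) lo hi = true := by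
  have : bst (Tr.nd k l r) lo hi = band (bst l lo k) (bst r k hi) := rfl
  rw [this, band_iff]; exact ⟨hl, hr⟩
theorem bst_chk : bst L 524288 (2 * 524288) = true := by decide +kernel
theorem size_L : size L = 28431 := (size_nd (size_nd sz_0 (size_nd sz_1 sz_2)) (size_nd (size_nd sz_3 sz_4) (size_nd sz_5 sz_6)))
theorem q0_mem : q0 ∈ L.toList := mem_sound (by decide +kernel)
theorem ce_0 : Tr.all CE_0 L = true := (Tr.all_nd (Tr.all_nd ce_0_0 (Tr.all_nd ce_0_1 ce_0_2)) (Tr.all_nd (Tr.all_nd ce_0_3 ce_0_4) (Tr.all_nd ce_0_5 ce_0_6)))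
theorem ce_1 : Tr.all CE_1 L = true := (Tr.all_nd (Tr.all_nd ce_1_0 (Tr.all_nd ce_1_1 ce_1_2)) (Tr.all_nd (Tr.all_nd ce_1_3 ce_1_4) (Tr.all_nd ce_1_5 ce_1_6)))
theorem pl_0 : ∀ q ∈ L_0.toList, q.Prime := prime_labels bs_0 pr_0 gc_0 (by norm_num) (by norm_num)
theorem pl_1 : ∀ q ∈ L_1.toList, q.Prime := prime_labels bs_1 pr_1 gc_1 (by norm_num) (by norm_num)
theorem pl_2 : ∀ q ∈ L_2.toList, q.Prime := prime_labels bs_2 pr_2 gc_2 (by norm_num) (by norm_num)
theorem pl_3 : ∀ q ∈ L_3.toList, q.Prime := prime_labels bs_3 pr_3 gc_3 (by norm_num) (by norm_num)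
theorem pl_4 : ∀ q ∈ L_4.toList, q.Prime := prime_labels bs_4 pr_4 gc_4 (by norm_num) (by norm_num)
theorem pl_5 : ∀ q ∈ L_5.toList, q.Prime := prime_labels bs_5 pr_5 gc_5 (by norm_num) (by norm_num)
theorem pl_6 : ∀ q ∈ L_6.toList, q.Prime := prime_labels bs_6 pr_6 gc_6 (by norm_num) (by norm_num)
theorem brecP {α : Type} {P : α → Prop} {x y : α} {b : Bool} (hx : P x) (hy : P y) : P (Bool.rec (motive := fun _ => α) x y b) := by
  cases b
  · exact hx
  · exact hy
theorem memM (x : ℕ) (h1 : 524288 ≤ x) (h2 : x < 2 * 524288) (h3 : MB x % x = 0) : x ∈ L.toList :=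
  ((brecP (P := fun M => M % x = 0 → x ∈ L.toList) (brecP (P := fun M => M % x = 0 → x ∈ L.toList) (fun h => (mem_nd_l (mem_nd_l (mem_of_mod bs_0 pr_0 pl_0 h1 h2 (by norm_num) h)))) (brecP (P := fun M => M % x = 0 → x ∈ L.toList) (fun h => (mem_nd_l (mem_nd_r (mem_nd_l (mem_of_mod bs_1 pr_1 pl_1 h1 h2 (by norm_num) h))))) (fun h => (mem_nd_l (mem_nd_r (mem_nd_r (mem_of_mod bs_2 pr_2 pl_2 h1 h2 (by norm_num) h))))))) (brecP (P := fun M => M % x = 0 → x ∈ L.toList) (brecP (P := fun M => M % x = 0 → x ∈ L.toList) (fun h => (mem_nd_r (mem_nd_l (mem_nd_l (mem_of_mod bs_3 pr_3 pl_3 h1 h2 (by norm_num) h))))) (fun h => (mem_nd_r (mem_nd_l (mem_nd_r (mem_of_mod bs_4 pr_4 pl_4 h1 h2 (by norm_num) h)))))) (brecP (P := fun M => M % x = 0 → x ∈ L.toList) (fun h => (mem_nd_r (mem_nd_r (mem_nd_l (mem_of_mod bs_5 pr_5 pl_5 h1 h2 (by norm_num) h))))) (fun h => (mem_nd_r (mem_nd_r (mem_nd_r (mem_of_mod bs_6 pr_6 pl_6 h1 h2 (by norm_num) h))))))))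 : (fun M => M % x = 0 → x ∈ L.toList) (MB x)) h3
theorem mt_sound : ∀ x, mt x = true → x ∈ L.toList := fun x h => memt_sound (K := 524288) memM (x := x) h
theorem pos : ∀ q ∈ L.toList, q ≠ 0 := fun q hq h => by
  have := ((bst_sound L _ _ bst_chk).1 q hq).1
  omega
theorem cu_0 (q : ℕ) : CE_0 q = true ↔ CD_l q = true ∧ CD_k q = true ∧ CD_a q = true ∧ CD_b q = true ∧ CD_c q = true := by
  unfold CE_0
  simp only [bfalse_iff, and_true]
theorem cd_l : ∀ q ∈ L.toList, clQ mt F_l F_l q = true ∧ D_l q = true := fun q hq => (band_iff _ _).1 ((cu_0 q).1 ((Tr.all_iff _ _).1 ce_0 q hq)).1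
theorem cd_k : ∀ q ∈ L.toList, clQ mt F_k F_k q = true ∧ D_k q = true := fun q hq => (band_iff _ _).1 ((cu_0 q).1 ((Tr.all_iff _ _).1 ce_0 q hq)).2.1
theorem cd_a : ∀ q ∈ L.toList, clQ mt F_a F_a q = true ∧ D_a q = true := fun q hq => (band_iff _ _).1 ((cu_0 q).1 ((Tr.all_iff _ _).1 ce_0 q hq)).2.2.1
theorem cd_b : ∀ q ∈ L.toList, clQ mt F_b F_b q = true ∧ D_b q = true := fun q hq => (band_iff _ _).1 ((cu_0 q).1 ((Tr.all_iff _ _).1 ce_0 q hq)).2.2.2.1
theorem cd_c : ∀ q ∈ L.toList, clQ mt F_c F_c q = true ∧ D_c q = true := fun q hq => (band_iff _ _).1 ((cu_0 q).1 ((Tr.all_iff _ _).1 ce_0 q hq)).2.2.2.2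
theorem cu_1 (q : ℕ) : CE_1 q = true ↔ CD_d q = true ∧ CD_e q = true ∧ CD_f q = true ∧ CD_h q = true ∧ CD_i q = true := by
  unfold CE_1
  simp only [bfalse_iff, and_true]
theorem cd_d : ∀ q ∈ L.toList, clQ mt F_d F_d q = true ∧ D_d q = true := fun q hq => (band_iff _ _).1 ((cu_1 q).1 ((Tr.all_iff _ _).1 ce_1 q hq)).1
theorem cd_e : ∀ q ∈ L.toList, clQ mt F_e F_e q = true ∧ D_e q = true := fun q hq => (band_iff _ _).1 ((cu_1 q).1 ((Tr.all_iff _ _).1 ce_1 q hq)).2.1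
theorem cd_f : ∀ q ∈ L.toList, clQ mt F_f F_f q = true ∧ D_f q = true := fun q hq => (band_iff _ _).1 ((cu_1 q).1 ((Tr.all_iff _ _).1 ce_1 q hq)).2.2.1
theorem cd_h : ∀ q ∈ L.toList, clQ mt F_h F_h q = true ∧ D_h q = true := fun q hq => (band_iff _ _).1 ((cu_1 q).1 ((Tr.all_iff _ _).1 ce_1 q hq)).2.2.2.1
theorem cd_i : ∀ q ∈ L.toList, clQ mt F_i F_i q = true ∧ D_i q = true := fun q hq => (band_iff _ _).1 ((cu_1 q).1 ((Tr.all_iff _ _).1 ce_1 q hq)).2.2.2.2
theorem closed : Closed L stp inv := by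
  refine ⟨?_, ?_, inv_inv⟩
  · intro q hq c
    cases c
    · exact mt_sound _ ((band_iff _ _).1 (cd_l q hq).1).1
    · exact mt_sound _ ((band_iff _ _).1 (cd_k q hq).1).1
    · exact mt_sound _ ((band_iff _ _).1 (cd_a q hq).1).1
    · exact mt_sound _ ((band_iff _ _).1 (cd_b q hq).1).1
    · exact mt_sound _ ((band_iff _ _).1 (cd_c q hq).1).1
    · exact mt_sound _ ((band_iff _ _).1 (cd_d q hq).1).1
    · exact mt_sound _ ((band_iff _ _).1 (cd_e q hq).1).1
    · exact mt_sound _ ((band_iff _ _).1 (cd_f q hq).1).1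
    · exact mt_sound _ ((band_iff _ _).1 (cd_h q hq).1).1
    · exact mt_sound _ ((band_iff _ _).1 (cd_i q hq).1).1
  · intro q hq c
    cases c
    · exact Nat.eq_of_beq_eq_true ((band_iff _ _).1 (cd_l q hq).1).2
    · exact Nat.eq_of_beq_eq_true ((band_iff _ _).1 (cd_k q hq).1).2
    · exact Nat.eq_of_beq_eq_true ((band_iff _ _).1 (cd_a q hq).1).2
    · exact Nat.eq_of_beq_eq_true ((band_iff _ _).1 (cd_b q hq).1).2
    · exact Nat.eq_of_beq_eq_true ((band_iff _ _).1 (cd_c q hq).1).2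
    · exact Nat.eq_of_beq_eq_true ((band_iff _ _).1 (cd_d q hq).1).2
    · exact Nat.eq_of_beq_eq_true ((band_iff _ _).1 (cd_e q hq).1).2
    · exact Nat.eq_of_beq_eq_true ((band_iff _ _).1 (cd_f q hq).1).2
    · exact Nat.eq_of_beq_eq_true ((band_iff _ _).1 (cd_h q hq).1).2
    · exact Nat.eq_of_beq_eq_true ((band_iff _ _).1 (cd_i q hq).1).2
theorem nodup : L.toList.Nodup := ((bst_sound L _ _ bst_chk).2.imp (fun h => Nat.ne_of_lt h))
theorem card_L : Nat.card (Om L) = 28431 := by rw [card_Om L nodup, ← size_eq, size_L]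
theorem tau_lt (c : Col) {q : ℕ} (hq : 0 < q) : tau c q < q := by cases c <;> exact Nat.mod_lt _ hq
theorem tau_z : lall (fun c => Nat.ble 1048576 (tau c 0)) cols = true := by decide +kernel
theorem hz : ∀ q ∈ L.toList, ∀ c c', tau c q ≤ tau c' 0 := by
  intro q hq c c'
  have h1 := (bst_sound L _ _ bst_chk).1 q hq
  have h2 := tau_lt c (q := q) (by omega)
  have h3 := Nat.le_of_ble_eq_true ((lall_iff _ _).1 tau_z c' (hcols c'))
  omega
theorem ac_0 : agChk idx inv RW SW2 a_0 = true := by decide +kernel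
theorem ac_1 : agChk idx inv RW SW2 a_1 = true := by decide +kernel
theorem ac_2 : agChk idx inv RW SW2 a_2 = true := by decide +kernel
theorem ac_3 : agChk idx inv RW SW2 a_3 = true := by decide +kernel
theorem ac_4 : agChk idx inv RW SW2 a_4 = true := by decide +kernel
theorem ac_5 : agChk idx inv RW SW2 a_5 = true := by decide +kernel
theorem ac_6 : agChk idx inv RW SW2 a_6 = true := by decide +kernel
theorem ac_7 : agChk idx inv RW SW2 a_7 = true := by decide +kernel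
theorem ac_8 : agChk idx inv RW SW2 a_8 = true := by decide +kernel
theorem ac_9 : agChk idx inv RW SW2 a_9 = true := by decide +kernel
theorem ac_10 : agChk idx inv RW SW2 a_10 = true := by decide +kernel
theorem ac_11 : agChk idx inv RW SW2 a_11 = true := by decide +kernel
theorem ac_12 : agChk idx inv RW SW2 a_12 = true := by decide +kernel
theorem ac_13 : agChk idx inv RW SW2 a_13 = true := by decide +kernel
theorem ac_14 : agChk idx inv RW SW2 a_14 = true := by decide +kernel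
theorem ac_15 : agChk idx inv RW SW2 a_15 = true := by decide +kernel
theorem ac_16 : agChk idx inv RW SW2 a_16 = true := by decide +kernel
theorem ac_17 : agChk idx inv RW SW2 a_17 = true := by decide +kernel
theorem ac_18 : agChk idx inv RW SW2 a_18 = true := by decide +kernel
theorem ac_19 : agChk idx inv RW SW2 a_19 = true := by decide +kernel
theorem ac_20 : agChk idx inv RW SW2 a_20 = true := by decide +kernel
theorem ac_21 : agChk idx inv RW SW2 a_21 = true := by decide +kernel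
theorem ac_22 : agChk idx inv RW SW2 a_22 = true := by decide +kernel
theorem ac_23 : agChk idx inv RW SW2 a_23 = true := by decide +kernel
theorem ac_24 : agChk idx inv RW SW2 a_24 = true := by decide +kernel
theorem ac_25 : agChk idx inv RW SW2 a_25 = true := by decide +kernel
theorem ac_26 : agChk idx inv RW SW2 a_26 = true := by decide +kernel
theorem ac_27 : agChk idx inv RW SW2 a_27 = true := by decide +kernel
theorem ac_28 : agChk idx inv RW SW2 a_28 = true := by decide +kernel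
theorem ac_29 : agChk idx inv RW SW2 a_29 = true := by decide +kernel
theorem ac_30 : agChk idx inv RW SW2 a_30 = true := by decide +kernel
theorem ac_31 : agChk idx inv RW SW2 a_31 = true := by decide +kernel
theorem ac_32 : agChk idx inv RW SW2 a_32 = true := by decide +kernel
theorem ac_33 : agChk idx inv RW SW2 a_33 = true := by decide +kernel
theorem ac_34 : agChk idx inv RW SW2 a_34 = true := by decide +kernel
theorem ac_35 : agChk idx inv RW SW2 a_35 = true := by decide +kernel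
theorem ac_36 : agChk idx inv RW SW2 a_36 = true := by decide +kernel
theorem ac_37 : agChk idx inv RW SW2 a_37 = true := by decide +kernel
theorem ac_38 : agChk idx inv RW SW2 a_38 = true := by decide +kernel
theorem ac_39 : agChk idx inv RW SW2 a_39 = true := by decide +kernel
theorem ac_40 : agChk idx inv RW SW2 a_40 = true := by decide +kernel
theorem ac_41 : agChk idx inv RW SW2 a_41 = true := by decide +kernel
theorem ac_42 : agChk idx inv RW SW2 a_42 = true := by decide +kernel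
theorem ac_43 : agChk idx inv RW SW2 a_43 = true := by decide +kernel
theorem ac_44 : agChk idx inv RW SW2 a_44 = true := by decide +kernel
theorem ac_45 : agChk idx inv RW SW2 a_45 = true := by decide +kernel
theorem ac_46 : agChk idx inv RW SW2 a_46 = true := by decide +kernel
theorem ac_47 : agChk idx inv RW SW2 a_47 = true := by decide +kernel
theorem ac_48 : agChk idx inv RW SW2 a_48 = true := by decide +kernel
theorem ac_49 : agChk idx inv RW SW2 a_49 = true := by decide +kernel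
theorem ac_50 : agChk idx inv RW SW2 a_50 = true := by decide +kernel
theorem ac_51 : agChk idx inv RW SW2 a_51 = true := by decide +kernel
theorem ac_52 : agChk idx inv RW SW2 a_52 = true := by decide +kernel
theorem ac_53 : agChk idx inv RW SW2 a_53 = true := by decide +kernel
theorem ac_54 : agChk idx inv RW SW2 a_54 = true := by decide +kernel
theorem ac_55 : agChk idx inv RW SW2 a_55 = true := by decide +kernel
theorem ac_56 : agChk idx inv RW SW2 a_56 = true := by decide +kernel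
theorem ac_57 : agChk idx inv RW SW2 a_57 = true := by decide +kernel
theorem ac_58 : agChk idx inv RW SW2 a_58 = true := by decide +kernel
theorem ac_59 : agChk idx inv RW SW2 a_59 = true := by decide +kernel
theorem ac_60 : agChk idx inv RW SW2 a_60 = true := by decide +kernel
theorem ac_61 : agChk idx inv RW SW2 a_61 = true := by decide +kernel
theorem ac_62 : agChk idx inv RW SW2 a_62 = true := by decide +kernel
theorem ac_63 : agChk idx inv RW SW2 a_63 = true := by decide +kernel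
theorem ac_64 : agChk idx inv RW SW2 a_64 = true := by decide +kernel
theorem ac_65 : agChk idx inv RW SW2 a_65 = true := by decide +kernel
theorem ac_66 : agChk idx inv RW SW2 a_66 = true := by decide +kernel
theorem ac_67 : agChk idx inv RW SW2 a_67 = true := by decide +kernel
theorem ac_68 : agChk idx inv RW SW2 a_68 = true := by decide +kernel
theorem ac_69 : agChk idx inv RW SW2 a_69 = true := by decide +kernel
theorem ac_70 : agChk idx inv RW SW2 a_70 = true := by decide +kernel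
theorem ac_71 : agChk idx inv RW SW2 a_71 = true := by decide +kernel
theorem ac_72 : agChk idx inv RW SW2 a_72 = true := by decide +kernel
theorem ac_73 : agChk idx inv RW SW2 a_73 = true := by decide +kernel
theorem ac_74 : agChk idx inv RW SW2 a_74 = true := by decide +kernel
theorem ac_75 : agChk idx inv RW SW2 a_75 = true := by decide +kernel
theorem ac_76 : agChk idx inv RW SW2 a_76 = true := by decide +kernel
theorem ac_77 : agChk idx inv RW SW2 a_77 = true := by decide +kernel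
theorem ac_78 : agChk idx inv RW SW2 a_78 = true := by decide +kernel
theorem ac_79 : agChk idx inv RW SW2 a_79 = true := by decide +kernel
theorem ac_80 : agChk idx inv RW SW2 a_80 = true := by decide +kernel
theorem ac_81 : agChk idx inv RW SW2 a_81 = true := by decide +kernel
theorem ac_82 : agChk idx inv RW SW2 a_82 = true := by decide +kernel
theorem ac_83 : agChk idx inv RW SW2 a_83 = true := by decide +kernel
theorem ac_84 : agChk idx inv RW SW2 a_84 = true := by decide +kernel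
theorem ac_85 : agChk idx inv RW SW2 a_85 = true := by decide +kernel
theorem ac_86 : agChk idx inv RW SW2 a_86 = true := by decide +kernel
theorem ac_87 : agChk idx inv RW SW2 a_87 = true := by decide +kernel
theorem ac_88 : agChk idx inv RW SW2 a_88 = true := by decide +kernel
theorem ac_89 : agChk idx inv RW SW2 a_89 = true := by decide +kernel
theorem ac_90 : agChk idx inv RW SW2 a_90 = true := by decide +kernel
theorem ac_91 : agChk idx inv RW SW2 a_91 = true := by decide +kernel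
theorem ac_92 : agChk idx inv RW SW2 a_92 = true := by decide +kernel
theorem ac_93 : agChk idx inv RW SW2 a_93 = true := by decide +kernel
theorem ac_94 : agChk idx inv RW SW2 a_94 = true := by decide +kernel
theorem ac_95 : agChk idx inv RW SW2 a_95 = true := by decide +kernel
theorem ac_96 : agChk idx inv RW SW2 a_96 = true := by decide +kernel
theorem ac_97 : agChk idx inv RW SW2 a_97 = true := by decide +kernel
theorem ac_98 : agChk idx inv RW SW2 a_98 = true := by decide +kernel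
theorem ac_99 : agChk idx inv RW SW2 a_99 = true := by decide +kernel
theorem ac_100 : agChk idx inv RW SW2 a_100 = true := by decide +kernel
theorem ac_101 : agChk idx inv RW SW2 a_101 = true := by decide +kernel
theorem ac_102 : agChk idx inv RW SW2 a_102 = true := by decide +kernel
theorem ac_103 : agChk idx inv RW SW2 a_103 = true := by decide +kernel
theorem ac_104 : agChk idx inv RW SW2 a_104 = true := by decide +kernel
theorem ac_105 : agChk idx inv RW SW2 a_105 = true := by decide +kernel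
theorem ac_106 : agChk idx inv RW SW2 a_106 = true := by decide +kernel
theorem ac_107 : agChk idx inv RW SW2 a_107 = true := by decide +kernel
theorem ac_108 : agChk idx inv RW SW2 a_108 = true := by decide +kernel
theorem ac_109 : agChk idx inv RW SW2 a_109 = true := by decide +kernel
theorem ac_110 : agChk idx inv RW SW2 a_110 = true := by decide +kernel
theorem ac_111 : agChk idx inv RW SW2 a_111 = true := by decide +kernel
theorem ac_112 : agChk idx inv RW SW2 a_112 = true := by decide +kernel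
theorem ac_113 : agChk idx inv RW SW2 a_113 = true := by decide +kernel
theorem ac_114 : agChk idx inv RW SW2 a_114 = true := by decide +kernel
theorem ac_115 : agChk idx inv RW SW2 a_115 = true := by decide +kernel
theorem ac_116 : agChk idx inv RW SW2 a_116 = true := by decide +kernel
theorem ac_117 : agChk idx inv RW SW2 a_117 = true := by decide +kernel
theorem ac_118 : agChk idx inv RW SW2 a_118 = true := by decide +kernel
theorem ac_119 : agChk idx inv RW SW2 a_119 = true := by decide +kernel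
theorem ac_120 : agChk idx inv RW SW2 a_120 = true := by decide +kernel
theorem ac_121 : agChk idx inv RW SW2 a_121 = true := by decide +kernel
theorem ac_122 : agChk idx inv RW SW2 a_122 = true := by decide +kernel
theorem ac_123 : agChk idx inv RW SW2 a_123 = true := by decide +kernel
theorem j_0 (q : ℕ) (h : E_0 (UU_l q) q = true) : Just stp tau idx inv RW SW2 PT DT q0 .l q := ⟨a_0, ac_0, rfl, h⟩
theorem j_1 (q : ℕ) (h : E_1 (UU_l q) q = true) : Just stp tau idx inv RW SW2 PT DT q0 .l q := ⟨a_1, ac_1, rfl, h⟩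
theorem j_2 (q : ℕ) (h : E_2 (UU_l q) q = true) : Just stp tau idx inv RW SW2 PT DT q0 .l q := ⟨a_2, ac_2, rfl, h⟩
theorem j_3 (q : ℕ) (h : E_3 (UU_l q) q = true) : Just stp tau idx inv RW SW2 PT DT q0 .l q := ⟨a_3, ac_3, rfl, h⟩
theorem j_4 (q : ℕ) (h : E_4 (UU_l q) q = true) : Just stp tau idx inv RW SW2 PT DT q0 .l q := ⟨a_4, ac_4, rfl, h⟩
theorem j_5 (q : ℕ) (h : E_5 (UU_l q) q = true) : Just stp tau idx inv RW SW2 PT DT q0 .l q := ⟨a_5, ac_5, rfl, h⟩
theorem j_6 (q : ℕ) (h : E_6 (UU_l q) q = true) : Just stp tau idx inv RW SW2 PT DT q0 .l q := ⟨a_6, ac_6, rfl, h⟩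
theorem j_7 (q : ℕ) (h : E_7 (UU_l q) q = true) : Just stp tau idx inv RW SW2 PT DT q0 .l q := ⟨a_7, ac_7, rfl, h⟩
theorem j_8 (q : ℕ) (h : E_8 (UU_l q) q = true) : Just stp tau idx inv RW SW2 PT DT q0 .l q := ⟨a_8, ac_8, rfl, h⟩
theorem j_9 (q : ℕ) (h : E_9 (UU_l q) q = true) : Just stp tau idx inv RW SW2 PT DT q0 .l q := ⟨a_9, ac_9, rfl, h⟩
theorem j_10 (q : ℕ) (h : E_10 (UU_l q) q = true) : Just stp tau idx inv RW SW2 PT DT q0 .l q := ⟨a_10, ac_10, rfl, h⟩
theorem j_11 (q : ℕ) (h : E_11 (UU_l q) q = true) : Just stp tau idx inv RW SW2 PT DT q0 .l q := ⟨a_11, ac_11, rfl, h⟩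
theorem j_12 (q : ℕ) (h : E_12 (UU_k q) q = true) : Just stp tau idx inv RW SW2 PT DT q0 .k q := ⟨a_12, ac_12, rfl, h⟩
theorem j_13 (q : ℕ) (h : E_13 (UU_k q) q = true) : Just stp tau idx inv RW SW2 PT DT q0 .k q := ⟨a_13, ac_13, rfl, h⟩
theorem j_14 (q : ℕ) (h : E_14 (UU_k q) q = true) : Just stp tau idx inv RW SW2 PT DT q0 .k q := ⟨a_14, ac_14, rfl, h⟩
theorem j_15 (q : ℕ) (h : E_15 (UU_k q) q = true) : Just stp tau idx inv RW SW2 PT DT q0 .k q := ⟨a_15, ac_15, rfl, h⟩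
theorem j_16 (q : ℕ) (h : E_16 (UU_k q) q = true) : Just stp tau idx inv RW SW2 PT DT q0 .k q := ⟨a_16, ac_16, rfl, h⟩
theorem j_17 (q : ℕ) (h : E_17 (UU_k q) q = true) : Just stp tau idx inv RW SW2 PT DT q0 .k q := ⟨a_17, ac_17, rfl, h⟩
theorem j_18 (q : ℕ) (h : E_18 (UU_k q) q = true) : Just stp tau idx inv RW SW2 PT DT q0 .k q := ⟨a_18, ac_18, rfl, h⟩
theorem j_19 (q : ℕ) (h : E_19 (UU_k q) q = true) : Just stp tau idx inv RW SW2 PT DT q0 .k q := ⟨a_19, ac_19, rfl, h⟩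
theorem j_20 (q : ℕ) (h : E_20 (UU_k q) q = true) : Just stp tau idx inv RW SW2 PT DT q0 .k q := ⟨a_20, ac_20, rfl, h⟩
theorem j_21 (q : ℕ) (h : E_21 (UU_k q) q = true) : Just stp tau idx inv RW SW2 PT DT q0 .k q := ⟨a_21, ac_21, rfl, h⟩
theorem j_22 (q : ℕ) (h : E_22 (UU_k q) q = true) : Just stp tau idx inv RW SW2 PT DT q0 .k q := ⟨a_22, ac_22, rfl, h⟩
theorem j_23 (q : ℕ) (h : E_23 (UU_k q) q = true) : Just stp tau idx inv RW SW2 PT DT q0 .k q := ⟨a_23, ac_23, rfl, h⟩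
theorem j_24 (q : ℕ) (h : E_24 (UU_a q) q = true) : Just stp tau idx inv RW SW2 PT DT q0 .a q := ⟨a_24, ac_24, rfl, h⟩
theorem j_25 (q : ℕ) (h : E_25 (UU_a q) q = true) : Just stp tau idx inv RW SW2 PT DT q0 .a q := ⟨a_25, ac_25, rfl, h⟩
theorem j_26 (q : ℕ) (h : E_26 (UU_a q) q = true) : Just stp tau idx inv RW SW2 PT DT q0 .a q := ⟨a_26, ac_26, rfl, h⟩
theorem j_27 (q : ℕ) (h : E_27 (UU_a q) q = true) : Just stp tau idx inv RW SW2 PT DT q0 .a q := ⟨a_27, ac_27, rfl, h⟩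
theorem j_28 (q : ℕ) (h : E_28 (UU_a q) q = true) : Just stp tau idx inv RW SW2 PT DT q0 .a q := ⟨a_28, ac_28, rfl, h⟩
theorem j_29 (q : ℕ) (h : E_29 (UU_a q) q = true) : Just stp tau idx inv RW SW2 PT DT q0 .a q := ⟨a_29, ac_29, rfl, h⟩
theorem j_30 (q : ℕ) (h : E_30 (UU_a q) q = true) : Just stp tau idx inv RW SW2 PT DT q0 .a q := ⟨a_30, ac_30, rfl, h⟩
theorem j_31 (q : ℕ) (h : E_31 (UU_a q) q = true) : Just stp tau idx inv RW SW2 PT DT q0 .a q := ⟨a_31, ac_31, rfl, h⟩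
theorem j_32 (q : ℕ) (h : E_32 (UU_a q) q = true) : Just stp tau idx inv RW SW2 PT DT q0 .a q := ⟨a_32, ac_32, rfl, h⟩
theorem j_33 (q : ℕ) (h : E_33 (UU_a q) q = true) : Just stp tau idx inv RW SW2 PT DT q0 .a q := ⟨a_33, ac_33, rfl, h⟩
theorem j_34 (q : ℕ) (h : E_34 (UU_a q) q = true) : Just stp tau idx inv RW SW2 PT DT q0 .a q := ⟨a_34, ac_34, rfl, h⟩
theorem j_35 (q : ℕ) (h : E_35 (UU_a q) q = true) : Just stp tau idx inv RW SW2 PT DT q0 .a q := ⟨a_35, ac_35, rfl, h⟩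
theorem j_36 (q : ℕ) (h : E_36 (UU_b q) q = true) : Just stp tau idx inv RW SW2 PT DT q0 .b q := ⟨a_36, ac_36, rfl, h⟩
theorem j_37 (q : ℕ) (h : E_37 (UU_b q) q = true) : Just stp tau idx inv RW SW2 PT DT q0 .b q := ⟨a_37, ac_37, rfl, h⟩
theorem j_38 (q : ℕ) (h : E_38 (UU_b q) q = true) : Just stp tau idx inv RW SW2 PT DT q0 .b q := ⟨a_38, ac_38, rfl, h⟩
theorem j_39 (q : ℕ) (h : E_39 (UU_b q) q = true) : Just stp tau idx inv RW SW2 PT DT q0 .b q := ⟨a_39, ac_39, rfl, h⟩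
theorem j_40 (q : ℕ) (h : E_40 (UU_b q) q = true) : Just stp tau idx inv RW SW2 PT DT q0 .b q := ⟨a_40, ac_40, rfl, h⟩
theorem j_41 (q : ℕ) (h : E_41 (UU_b q) q = true) : Just stp tau idx inv RW SW2 PT DT q0 .b q := ⟨a_41, ac_41, rfl, h⟩
theorem j_42 (q : ℕ) (h : E_42 (UU_b q) q = true) : Just stp tau idx inv RW SW2 PT DT q0 .b q := ⟨a_42, ac_42, rfl, h⟩
theorem j_43 (q : ℕ) (h : E_43 (UU_b q) q = true) : Just stp tau idx inv RW SW2 PT DT q0 .b q := ⟨a_43, ac_43, rfl, h⟩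
theorem j_44 (q : ℕ) (h : E_44 (UU_b q) q = true) : Just stp tau idx inv RW SW2 PT DT q0 .b q := ⟨a_44, ac_44, rfl, h⟩
theorem j_45 (q : ℕ) (h : E_45 (UU_b q) q = true) : Just stp tau idx inv RW SW2 PT DT q0 .b q := ⟨a_45, ac_45, rfl, h⟩
theorem j_46 (q : ℕ) (h : E_46 (UU_b q) q = true) : Just stp tau idx inv RW SW2 PT DT q0 .b q := ⟨a_46, ac_46, rfl, h⟩
theorem j_47 (q : ℕ) (h : E_47 (UU_b q) q = true) : Just stp tau idx inv RW SW2 PT DT q0 .b q := ⟨a_47, ac_47, rfl, h⟩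
theorem j_48 (q : ℕ) (h : E_48 (UU_b q) q = true) : Just stp tau idx inv RW SW2 PT DT q0 .b q := ⟨a_48, ac_48, rfl, h⟩
theorem j_49 (q : ℕ) (h : E_49 (UU_c q) q = true) : Just stp tau idx inv RW SW2 PT DT q0 .c q := ⟨a_49, ac_49, rfl, h⟩
theorem j_50 (q : ℕ) (h : E_50 (UU_c q) q = true) : Just stp tau idx inv RW SW2 PT DT q0 .c q := ⟨a_50, ac_50, rfl, h⟩
theorem j_51 (q : ℕ) (h : E_51 (UU_c q) q = true) : Just stp tau idx inv RW SW2 PT DT q0 .c q := ⟨a_51, ac_51, rfl, h⟩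
theorem j_52 (q : ℕ) (h : E_52 (UU_c q) q = true) : Just stp tau idx inv RW SW2 PT DT q0 .c q := ⟨a_52, ac_52, rfl, h⟩
theorem j_53 (q : ℕ) (h : E_53 (UU_c q) q = true) : Just stp tau idx inv RW SW2 PT DT q0 .c q := ⟨a_53, ac_53, rfl, h⟩
theorem j_54 (q : ℕ) (h : E_54 (UU_c q) q = true) : Just stp tau idx inv RW SW2 PT DT q0 .c q := ⟨a_54, ac_54, rfl, h⟩
theorem j_55 (q : ℕ) (h : E_55 (UU_c q) q = true) : Just stp tau idx inv RW SW2 PT DT q0 .c q := ⟨a_55, ac_55, rfl, h⟩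
theorem j_56 (q : ℕ) (h : E_56 (UU_c q) q = true) : Just stp tau idx inv RW SW2 PT DT q0 .c q := ⟨a_56, ac_56, rfl, h⟩
theorem j_57 (q : ℕ) (h : E_57 (UU_c q) q = true) : Just stp tau idx inv RW SW2 PT DT q0 .c q := ⟨a_57, ac_57, rfl, h⟩
theorem j_58 (q : ℕ) (h : E_58 (UU_c q) q = true) : Just stp tau idx inv RW SW2 PT DT q0 .c q := ⟨a_58, ac_58, rfl, h⟩
theorem j_59 (q : ℕ) (h : E_59 (UU_c q) q = true) : Just stp tau idx inv RW SW2 PT DT q0 .c q := ⟨a_59, ac_59, rfl, h⟩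
theorem j_60 (q : ℕ) (h : E_60 (UU_c q) q = true) : Just stp tau idx inv RW SW2 PT DT q0 .c q := ⟨a_60, ac_60, rfl, h⟩
theorem j_61 (q : ℕ) (h : E_61 (UU_c q) q = true) : Just stp tau idx inv RW SW2 PT DT q0 .c q := ⟨a_61, ac_61, rfl, h⟩
theorem j_62 (q : ℕ) (h : E_62 (UU_c q) q = true) : Just stp tau idx inv RW SW2 PT DT q0 .c q := ⟨a_62, ac_62, rfl, h⟩
theorem j_63 (q : ℕ) (h : E_63 (UU_c q) q = true) : Just stp tau idx inv RW SW2 PT DT q0 .c q := ⟨a_63, ac_63, rfl, h⟩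
theorem j_64 (q : ℕ) (h : E_64 (UU_d q) q = true) : Just stp tau idx inv RW SW2 PT DT q0 .d q := ⟨a_64, ac_64, rfl, h⟩
theorem j_65 (q : ℕ) (h : E_65 (UU_d q) q = true) : Just stp tau idx inv RW SW2 PT DT q0 .d q := ⟨a_65, ac_65, rfl, h⟩
theorem j_66 (q : ℕ) (h : E_66 (UU_d q) q = true) : Just stp tau idx inv RW SW2 PT DT q0 .d q := ⟨a_66, ac_66, rfl, h⟩
theorem j_67 (q : ℕ) (h : E_67 (UU_d q) q = true) : Just stp tau idx inv RW SW2 PT DT q0 .d q := ⟨a_67, ac_67, rfl, h⟩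
theorem j_68 (q : ℕ) (h : E_68 (UU_d q) q = true) : Just stp tau idx inv RW SW2 PT DT q0 .d q := ⟨a_68, ac_68, rfl, h⟩
theorem j_69 (q : ℕ) (h : E_69 (UU_d q) q = true) : Just stp tau idx inv RW SW2 PT DT q0 .d q := ⟨a_69, ac_69, rfl, h⟩
theorem j_70 (q : ℕ) (h : E_70 (UU_d q) q = true) : Just stp tau idx inv RW SW2 PT DT q0 .d q := ⟨a_70, ac_70, rfl, h⟩
theorem j_71 (q : ℕ) (h : E_71 (UU_d q) q = true) : Just stp tau idx inv RW SW2 PT DT q0 .d q := ⟨a_71, ac_71, rfl, h⟩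
theorem j_72 (q : ℕ) (h : E_72 (UU_d q) q = true) : Just stp tau idx inv RW SW2 PT DT q0 .d q := ⟨a_72, ac_72, rfl, h⟩
theorem j_73 (q : ℕ) (h : E_73 (UU_d q) q = true) : Just stp tau idx inv RW SW2 PT DT q0 .d q := ⟨a_73, ac_73, rfl, h⟩
theorem j_74 (q : ℕ) (h : E_74 (UU_d q) q = true) : Just stp tau idx inv RW SW2 PT DT q0 .d q := ⟨a_74, ac_74, rfl, h⟩
theorem j_75 (q : ℕ) (h : E_75 (UU_d q) q = true) : Just stp tau idx inv RW SW2 PT DT q0 .d q := ⟨a_75, ac_75, rfl, h⟩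
theorem j_76 (q : ℕ) (h : E_76 (UU_d q) q = true) : Just stp tau idx inv RW SW2 PT DT q0 .d q := ⟨a_76, ac_76, rfl, h⟩
theorem j_77 (q : ℕ) (h : E_77 (UU_e q) q = true) : Just stp tau idx inv RW SW2 PT DT q0 .e q := ⟨a_77, ac_77, rfl, h⟩
theorem j_78 (q : ℕ) (h : E_78 (UU_e q) q = true) : Just stp tau idx inv RW SW2 PT DT q0 .e q := ⟨a_78, ac_78, rfl, h⟩
theorem j_79 (q : ℕ) (h : E_79 (UU_e q) q = true) : Just stp tau idx inv RW SW2 PT DT q0 .e q := ⟨a_79, ac_79, rfl, h⟩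
theorem j_80 (q : ℕ) (h : E_80 (UU_e q) q = true) : Just stp tau idx inv RW SW2 PT DT q0 .e q := ⟨a_80, ac_80, rfl, h⟩
theorem j_81 (q : ℕ) (h : E_81 (UU_e q) q = true) : Just stp tau idx inv RW SW2 PT DT q0 .e q := ⟨a_81, ac_81, rfl, h⟩
theorem j_82 (q : ℕ) (h : E_82 (UU_e q) q = true) : Just stp tau idx inv RW SW2 PT DT q0 .e q := ⟨a_82, ac_82, rfl, h⟩
theorem j_83 (q : ℕ) (h : E_83 (UU_e q) q = true) : Just stp tau idx inv RW SW2 PT DT q0 .e q := ⟨a_83, ac_83, rfl, h⟩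
theorem j_84 (q : ℕ) (h : E_84 (UU_e q) q = true) : Just stp tau idx inv RW SW2 PT DT q0 .e q := ⟨a_84, ac_84, rfl, h⟩
theorem j_85 (q : ℕ) (h : E_85 (UU_e q) q = true) : Just stp tau idx inv RW SW2 PT DT q0 .e q := ⟨a_85, ac_85, rfl, h⟩
theorem j_86 (q : ℕ) (h : E_86 (UU_e q) q = true) : Just stp tau idx inv RW SW2 PT DT q0 .e q := ⟨a_86, ac_86, rfl, h⟩
theorem j_87 (q : ℕ) (h : E_87 (UU_e q) q = true) : Just stp tau idx inv RW SW2 PT DT q0 .e q := ⟨a_87, ac_87, rfl, h⟩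
theorem j_88 (q : ℕ) (h : E_88 (UU_e q) q = true) : Just stp tau idx inv RW SW2 PT DT q0 .e q := ⟨a_88, ac_88, rfl, h⟩
theorem j_89 (q : ℕ) (h : E_89 (UU_f q) q = true) : Just stp tau idx inv RW SW2 PT DT q0 .f q := ⟨a_89, ac_89, rfl, h⟩
theorem j_90 (q : ℕ) (h : E_90 (UU_f q) q = true) : Just stp tau idx inv RW SW2 PT DT q0 .f q := ⟨a_90, ac_90, rfl, h⟩
theorem j_91 (q : ℕ) (h : E_91 (UU_f q) q = true) : Just stp tau idx inv RW SW2 PT DT q0 .f q := ⟨a_91, ac_91, rfl, h⟩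
theorem j_92 (q : ℕ) (h : E_92 (UU_f q) q = true) : Just stp tau idx inv RW SW2 PT DT q0 .f q := ⟨a_92, ac_92, rfl, h⟩
theorem j_93 (q : ℕ) (h : E_93 (UU_f q) q = true) : Just stp tau idx inv RW SW2 PT DT q0 .f q := ⟨a_93, ac_93, rfl, h⟩
theorem j_94 (q : ℕ) (h : E_94 (UU_f q) q = true) : Just stp tau idx inv RW SW2 PT DT q0 .f q := ⟨a_94, ac_94, rfl, h⟩
theorem j_95 (q : ℕ) (h : E_95 (UU_f q) q = true) : Just stp tau idx inv RW SW2 PT DT q0 .f q := ⟨a_95, ac_95, rfl, h⟩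
theorem j_96 (q : ℕ) (h : E_96 (UU_f q) q = true) : Just stp tau idx inv RW SW2 PT DT q0 .f q := ⟨a_96, ac_96, rfl, h⟩
theorem j_97 (q : ℕ) (h : E_97 (UU_f q) q = true) : Just stp tau idx inv RW SW2 PT DT q0 .f q := ⟨a_97, ac_97, rfl, h⟩
theorem j_98 (q : ℕ) (h : E_98 (UU_f q) q = true) : Just stp tau idx inv RW SW2 PT DT q0 .f q := ⟨a_98, ac_98, rfl, h⟩
theorem j_99 (q : ℕ) (h : E_99 (UU_f q) q = true) : Just stp tau idx inv RW SW2 PT DT q0 .f q := ⟨a_99, ac_99, rfl, h⟩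
theorem j_100 (q : ℕ) (h : E_100 (UU_f q) q = true) : Just stp tau idx inv RW SW2 PT DT q0 .f q := ⟨a_100, ac_100, rfl, h⟩
theorem j_101 (q : ℕ) (h : E_101 (UU_h q) q = true) : Just stp tau idx inv RW SW2 PT DT q0 .h q := ⟨a_101, ac_101, rfl, h⟩
theorem j_102 (q : ℕ) (h : E_102 (UU_h q) q = true) : Just stp tau idx inv RW SW2 PT DT q0 .h q := ⟨a_102, ac_102, rfl, h⟩
theorem j_103 (q : ℕ) (h : E_103 (UU_h q) q = true) : Just stp tau idx inv RW SW2 PT DT q0 .h q := ⟨a_103, ac_103, rfl, h⟩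
theorem j_104 (q : ℕ) (h : E_104 (UU_h q) q = true) : Just stp tau idx inv RW SW2 PT DT q0 .h q := ⟨a_104, ac_104, rfl, h⟩
theorem j_105 (q : ℕ) (h : E_105 (UU_h q) q = true) : Just stp tau idx inv RW SW2 PT DT q0 .h q := ⟨a_105, ac_105, rfl, h⟩
theorem j_106 (q : ℕ) (h : E_106 (UU_h q) q = true) : Just stp tau idx inv RW SW2 PT DT q0 .h q := ⟨a_106, ac_106, rfl, h⟩
theorem j_107 (q : ℕ) (h : E_107 (UU_h q) q = true) : Just stp tau idx inv RW SW2 PT DT q0 .h q := ⟨a_107, ac_107, rfl, h⟩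
theorem j_108 (q : ℕ) (h : E_108 (UU_h q) q = true) : Just stp tau idx inv RW SW2 PT DT q0 .h q := ⟨a_108, ac_108, rfl, h⟩
theorem j_109 (q : ℕ) (h : E_109 (UU_h q) q = true) : Just stp tau idx inv RW SW2 PT DT q0 .h q := ⟨a_109, ac_109, rfl, h⟩
theorem j_110 (q : ℕ) (h : E_110 (UU_h q) q = true) : Just stp tau idx inv RW SW2 PT DT q0 .h q := ⟨a_110, ac_110, rfl, h⟩
theorem j_111 (q : ℕ) (h : E_111 (UU_h q) q = true) : Just stp tau idx inv RW SW2 PT DT q0 .h q := ⟨a_111, ac_111, rfl, h⟩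
theorem j_112 (q : ℕ) (h : E_112 (UU_h q) q = true) : Just stp tau idx inv RW SW2 PT DT q0 .h q := ⟨a_112, ac_112, rfl, h⟩
theorem j_113 (q : ℕ) (h : E_113 (UU_i q) q = true) : Just stp tau idx inv RW SW2 PT DT q0 .i q := ⟨a_113, ac_113, rfl, h⟩
theorem j_114 (q : ℕ) (h : E_114 (UU_i q) q = true) : Just stp tau idx inv RW SW2 PT DT q0 .i q := ⟨a_114, ac_114, rfl, h⟩
theorem j_115 (q : ℕ) (h : E_115 (UU_i q) q = true) : Just stp tau idx inv RW SW2 PT DT q0 .i q := ⟨a_115, ac_115, rfl, h⟩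
theorem j_116 (q : ℕ) (h : E_116 (UU_i q) q = true) : Just stp tau idx inv RW SW2 PT DT q0 .i q := ⟨a_116, ac_116, rfl, h⟩
theorem j_117 (q : ℕ) (h : E_117 (UU_i q) q = true) : Just stp tau idx inv RW SW2 PT DT q0 .i q := ⟨a_117, ac_117, rfl, h⟩
theorem j_118 (q : ℕ) (h : E_118 (UU_i q) q = true) : Just stp tau idx inv RW SW2 PT DT q0 .i q := ⟨a_118, ac_118, rfl, h⟩
theorem j_119 (q : ℕ) (h : E_119 (UU_i q) q = true) : Just stp tau idx inv RW SW2 PT DT q0 .i q := ⟨a_119, ac_119, rfl, h⟩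
theorem j_120 (q : ℕ) (h : E_120 (UU_i q) q = true) : Just stp tau idx inv RW SW2 PT DT q0 .i q := ⟨a_120, ac_120, rfl, h⟩
theorem j_121 (q : ℕ) (h : E_121 (UU_i q) q = true) : Just stp tau idx inv RW SW2 PT DT q0 .i q := ⟨a_121, ac_121, rfl, h⟩
theorem j_122 (q : ℕ) (h : E_122 (UU_i q) q = true) : Just stp tau idx inv RW SW2 PT DT q0 .i q := ⟨a_122, ac_122, rfl, h⟩
theorem j_123 (q : ℕ) (h : E_123 (UU_i q) q = true) : Just stp tau idx inv RW SW2 PT DT q0 .i q := ⟨a_123, ac_123, rfl, h⟩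
theorem jc_l (q : ℕ) (h : D_l q = true) : Just stp tau idx inv RW SW2 PT DT q0 .l q := (brec (brec (j_0 q) (j_1 q)) (brec (brec (brec (j_2 q) (j_3 q)) (brec (j_4 q) (brec (j_5 q) (j_6 q)))) (brec (brec (j_7 q) (j_8 q)) (brec (j_9 q) (brec (j_10 q) (j_11 q)))))) h
theorem jc_k (q : ℕ) (h : D_k q = true) : Just stp tau idx inv RW SW2 PT DT q0 .k q := (brec (brec (j_12 q) (j_13 q)) (brec (brec (brec (j_14 q) (j_15 q)) (brec (j_16 q) (brec (j_17 q) (j_18 q)))) (brec (brec (j_19 q) (j_20 q)) (brec (j_21 q) (brec (j_22 q) (j_23 q)))))) h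
theorem jc_a (q : ℕ) (h : D_a q = true) : Just stp tau idx inv RW SW2 PT DT q0 .a q := (brec (brec (j_24 q) (j_25 q)) (brec (brec (brec (j_26 q) (j_27 q)) (brec (j_28 q) (brec (j_29 q) (j_30 q)))) (brec (brec (j_31 q) (j_32 q)) (brec (j_33 q) (brec (j_34 q) (j_35 q)))))) h
theorem jc_b (q : ℕ) (h : D_b q = true) : Just stp tau idx inv RW SW2 PT DT q0 .b q := (brec (brec (j_36 q) (j_37 q)) (brec (brec (brec (j_38 q) (j_39 q)) (brec (j_40 q) (brec (j_41 q) (j_42 q)))) (brec (brec (j_43 q) (brec (j_44 q) (j_45 q))) (brec (j_46 q) (brec (j_47 q) (j_48 q)))))) h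
theorem jc_c (q : ℕ) (h : D_c q = true) : Just stp tau idx inv RW SW2 PT DT q0 .c q := (brec (brec (j_49 q) (j_50 q)) (brec (brec (brec (j_51 q) (brec (j_52 q) (j_53 q))) (brec (j_54 q) (brec (j_55 q) (j_56 q)))) (brec (brec (j_57 q) (brec (j_58 q) (j_59 q))) (brec (brec (j_60 q) (j_61 q)) (brec (j_62 q) (j_63 q)))))) h
theorem jc_d (q : ℕ) (h : D_d q = true) : Just stp tau idx inv RW SW2 PT DT q0 .d q := (brec (brec (j_64 q) (j_65 q)) (brec (brec (brec (j_66 q) (j_67 q)) (brec (j_68 q) (brec (j_69 q) (j_70 q)))) (brec (brec (j_71 q) (brec (j_72 q) (j_73 q))) (brec (j_74 q) (brec (j_75 q) (j_76 q)))))) h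
theorem jc_e (q : ℕ) (h : D_e q = true) : Just stp tau idx inv RW SW2 PT DT q0 .e q := (brec (brec (j_77 q) (j_78 q)) (brec (brec (brec (j_79 q) (j_80 q)) (brec (j_81 q) (brec (j_82 q) (j_83 q)))) (brec (brec (j_84 q) (j_85 q)) (brec (j_86 q) (brec (j_87 q) (j_88 q)))))) h
theorem jc_f (q : ℕ) (h : D_f q = true) : Just stp tau idx inv RW SW2 PT DT q0 .f q := (brec (brec (j_89 q) (j_90 q)) (brec (brec (brec (j_91 q) (j_92 q)) (brec (j_93 q) (brec (j_94 q) (j_95 q)))) (brec (brec (j_96 q) (j_97 q)) (brec (j_98 q) (brec (j_99 q) (j_100 q)))))) h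
theorem jc_h (q : ℕ) (h : D_h q = true) : Just stp tau idx inv RW SW2 PT DT q0 .h q := (brec (brec (j_101 q) (j_102 q)) (brec (brec (brec (j_103 q) (j_104 q)) (brec (j_105 q) (brec (j_106 q) (j_107 q)))) (brec (brec (j_108 q) (j_109 q)) (brec (j_110 q) (brec (j_111 q) (j_112 q)))))) h
theorem jc_i (q : ℕ) (h : D_i q = true) : Just stp tau idx inv RW SW2 PT DT q0 .i q := (brec (brec (j_113 q) (j_114 q)) (brec (brec (brec (j_115 q) (j_116 q)) (brec (j_117 q) (j_118 q))) (brec (brec (j_119 q) (j_120 q)) (brec (j_121 q) (brec (j_122 q) (j_123 q)))))) h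
theorem hE : ∀ q ∈ L.toList, ∀ c, Just stp tau idx inv RW SW2 PT DT q0 c q := by
  intro q hq c
  cases c
  · exact jc_l q (cd_l q hq).2
  · exact jc_k q (cd_k q hq).2
  · exact jc_a q (cd_a q hq).2
  · exact jc_b q (cd_b q hq).2
  · exact jc_c q (cd_c q hq).2
  · exact jc_d q (cd_d q hq).2
  · exact jc_e q (cd_e q hq).2
  · exact jc_f q (cd_f q hq).2
  · exact jc_h q (cd_h q hq).2
  · exact jc_i q (cd_i q hq).2
attribute [local irreducible] L stp tau PT DT
theorem closure_thm {G X : Type*} [Group G] [MulAction G X] (g : Col → G) (x0 : X) (hinv : ∀ c, g (inv c) = (g c)⁻¹)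
    (hRW : ∀ w ∈ RW, gw g w = 1) (hSW : ∀ w ∈ SW0, gw g w • x0 = x0) :
    ∃ f : ℕ → X, f q0 = x0 ∧ ∀ q ∈ L.toList, ∀ c, g c • f q = f (stp c q) := by
  have hSW1 : ∀ w ∈ SW1, gw g w • x0 = x0 := by
    have h := mini0_fix g x0 hinv hRW hSW
    intro w hw; unfold SW1 at hw; rw [List.mem_append, List.mem_singleton] at hw
    rcases hw with hw | rfl
    · exact hSW w hw
    · exact h
  have hSW2 : ∀ w ∈ SW2, gw g w • x0 = x0 := by
    have h := mini1_fix g x0 hinv hRW hSW1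
    intro w hw; unfold SW2 at hw; rw [List.mem_append, List.mem_singleton] at hw
    rcases hw with hw | rfl
    · exact hSW1 w hw
    · exact h
  exact closure_sound2 g x0 dec hdec hinv hRW hSW2 closed.mem pos q0_mem hz hE
universe u
/-- upper bound for a relative index -/
theorem rel_upper {G : Type u} [Group G] (g : Col → G) (hinv : ∀ c, g (inv c) = (g c)⁻¹)
    (hRW : ∀ w ∈ RW, gw g w = 1) (H : Subgroup G) (hSW : ∀ w ∈ SW0, gw g w ∈ H) :
    H.relIndex (genBy g) ≠ 0 ∧ H.relIndex (genBy g) ≤ 28431 := by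
  rw [← size_L]
  exact relIndex_of_closure closed.mem q0_mem g hinv hRW H hSW (fun X _ x0 h1 h2 h3 => closure_thm (liftGen g) x0 h1 h2 h3)
end CfsgLib.TCFi24Yb
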