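import Cfsg.Agent.EqBase
import Cfsg.Agent.LibTCFi24YdD
set_option autoImplicit false
set_option linter.all false
set_option maxRecDepth 1000000
set_option maxHeartbeats 0
namespace CfsgLib.TCFi24Yd
open CfsgLib.TC Cfsg.Spor
theorem ce_0_0 : Tr.all CE_0 L = true := by decide +kernel
theorem bs_0 : bst L 1024 (2 * 1024) = true := by decide +kernel
theorem pr_0 : prodT L = MM := by decide +kernel
theorem sz_0 : size L = 56 := by decide +kernel
theorem gc_0 : Nat.gcd MM (prodTo 46) = 1 := by decide +kernel
end CfsgLib.TCFi24Yd
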