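import Cfsg.Agent.EqBase
import Cfsg.Agent.LibTCFi24YdX0
set_option autoImplicit false
set_option linter.all false
set_option maxRecDepth 1000000
set_option maxHeartbeats 0
namespace CfsgLib.TCFi24Yd
open CfsgLib.TC Cfsg.Spor
theorem size_nd {k : ℕ} {l r : Tr ℕ} {a b : ℕ} (hl : size l = a) (hr : size r = b) : size (Tr.nd k l r) = a + b := by rw [← hl, ← hr]; rfl
theorem bst_nd {k lo hi : ℕ} {l r : Tr ℕ} (hl : bst l lo k = true) (hr : bst r k hi = true) : bst (Tr.nd k l r) lo hi = true := by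
  have : bst (Tr.nd k l r) lo hi = band (bst l lo k) (bst r k hi) := rfl
  rw [this, band_iff]; exact ⟨hl, hr⟩
theorem bst_chk : bst L 1024 (2 * 1024) = true := bs_0
theorem size_L : size L = 56 := sz_0
theorem q0_mem : q0 ∈ L.toList := mem_sound (by decide +kernel)
theorem ce_0 : Tr.all CE_0 L = true := ce_0_0
theorem pl_0 : ∀ q ∈ L.toList, q.Prime := prime_labels bs_0 pr_0 gc_0 (by norm_num) (by norm_num)
theorem brecP {α : Type} {P : α → Prop} {x y : α} {b : Bool} (hx : P x) (hy : P y) : P (Bool.rec (motive := fun _ => α) x y b) := by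
  cases b
  · exact hx
  · exact hy
theorem memM (x : ℕ) (h1 : 1024 ≤ x) (h2 : x < 2 * 1024) (h3 : MB x % x = 0) : x ∈ L.toList :=
  ((fun h => (mem_of_mod bs_0 pr_0 pl_0 h1 h2 (by norm_num) h)) : (fun M => M % x = 0 → x ∈ L.toList) (MB x)) h3
theorem mt_sound : ∀ x, mt x = true → x ∈ L.toList := fun x h => memt_sound (K := 1024) memM (x := x) h
theorem pos : ∀ q ∈ L.toList, q ≠ 0 := fun q hq h => by
  have := ((bst_sound L _ _ bst_chk).1 q hq).1
  omega
theorem cu_0 (q : ℕ) : CE_0 q = true ↔ CD_a q = true ∧ CD_b q = true ∧ CD_c q = true ∧ CD_d q = true ∧ CD_e q = true ∧ CD_f q = true ∧ CD_h q = true := by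
  unfold CE_0
  simp only [bfalse_iff, and_true]
theorem cd_a : ∀ q ∈ L.toList, clQ mt F_a F_a q = true ∧ D_a q = true := fun q hq => (band_iff _ _).1 ((cu_0 q).1 ((Tr.all_iff _ _).1 ce_0 q hq)).1
theorem cd_b : ∀ q ∈ L.toList, clQ mt F_b F_b q = true ∧ D_b q = true := fun q hq => (band_iff _ _).1 ((cu_0 q).1 ((Tr.all_iff _ _).1 ce_0 q hq)).2.1
theorem cd_c : ∀ q ∈ L.toList, clQ mt F_c F_c q = true ∧ D_c q = true := fun q hq => (band_iff _ _).1 ((cu_0 q).1 ((Tr.all_iff _ _).1 ce_0 q hq)).2.2.1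
theorem cd_d : ∀ q ∈ L.toList, clQ mt F_d F_d q = true ∧ D_d q = true := fun q hq => (band_iff _ _).1 ((cu_0 q).1 ((Tr.all_iff _ _).1 ce_0 q hq)).2.2.2.1
theorem cd_e : ∀ q ∈ L.toList, clQ mt F_e F_e q = true ∧ D_e q = true := fun q hq => (band_iff _ _).1 ((cu_0 q).1 ((Tr.all_iff _ _).1 ce_0 q hq)).2.2.2.2.1
theorem cd_f : ∀ q ∈ L.toList, clQ mt F_f F_f q = true ∧ D_f q = true := fun q hq => (band_iff _ _).1 ((cu_0 q).1 ((Tr.all_iff _ _).1 ce_0 q hq)).2.2.2.2.2.1
theorem cd_h : ∀ q ∈ L.toList, clQ mt F_h F_h q = true ∧ D_h q = true := fun q hq => (band_iff _ _).1 ((cu_0 q).1 ((Tr.all_iff _ _).1 ce_0 q hq)).2.2.2.2.2.2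
theorem closed : Closed L stp inv := by
  refine ⟨?_, ?_, inv_inv⟩
  · intro q hq c
    cases c
    · exact mt_sound _ ((band_iff _ _).1 (cd_a q hq).1).1
    · exact mt_sound _ ((band_iff _ _).1 (cd_b q hq).1).1
    · exact mt_sound _ ((band_iff _ _).1 (cd_c q hq).1).1
    · exact mt_sound _ ((band_iff _ _).1 (cd_d q hq).1).1
    · exact mt_sound _ ((band_iff _ _).1 (cd_e q hq).1).1
    · exact mt_sound _ ((band_iff _ _).1 (cd_f q hq).1).1
    · exact mt_sound _ ((band_iff _ _).1 (cd_h q hq).1).1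
  · intro q hq c
    cases c
    · exact Nat.eq_of_beq_eq_true ((band_iff _ _).1 (cd_a q hq).1).2
    · exact Nat.eq_of_beq_eq_true ((band_iff _ _).1 (cd_b q hq).1).2
    · exact Nat.eq_of_beq_eq_true ((band_iff _ _).1 (cd_c q hq).1).2
    · exact Nat.eq_of_beq_eq_true ((band_iff _ _).1 (cd_d q hq).1).2
    · exact Nat.eq_of_beq_eq_true ((band_iff _ _).1 (cd_e q hq).1).2
    · exact Nat.eq_of_beq_eq_true ((band_iff _ _).1 (cd_f q hq).1).2
    · exact Nat.eq_of_beq_eq_true ((band_iff _ _).1 (cd_h q hq).1).2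
theorem nodup : L.toList.Nodup := ((bst_sound L _ _ bst_chk).2.imp (fun h => Nat.ne_of_lt h))
theorem card_L : Nat.card (Om L) = 56 := by rw [card_Om L nodup, ← size_eq, size_L]
theorem tau_lt (c : Col) {q : ℕ} (hq : 0 < q) : tau c q < q := by cases c <;> exact Nat.mod_lt _ hq
theorem tau_z : lall (fun c => Nat.ble 2048 (tau c 0)) cols = true := by decide +kernel
theorem hz : ∀ q ∈ L.toList, ∀ c c', tau c q ≤ tau c' 0 := by
  intro q hq c c'
  have h1 := (bst_sound L _ _ bst_chk).1 q hq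
  have h2 := tau_lt c (q := q) (by omega)
  have h3 := Nat.le_of_ble_eq_true ((lall_iff _ _).1 tau_z c' (hcols c'))
  omega
theorem ac_0 : agChk idx inv RW SW0 a_0 = true := by decide +kernel
theorem ac_1 : agChk idx inv RW SW0 a_1 = true := by decide +kernel
theorem ac_2 : agChk idx inv RW SW0 a_2 = true := by decide +kernel
theorem ac_3 : agChk idx inv RW SW0 a_3 = true := by decide +kernel
theorem ac_4 : agChk idx inv RW SW0 a_4 = true := by decide +kernel
theorem ac_5 : agChk idx inv RW SW0 a_5 = true := by decide +kernel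
theorem ac_6 : agChk idx inv RW SW0 a_6 = true := by decide +kernel
theorem ac_7 : agChk idx inv RW SW0 a_7 = true := by decide +kernel
theorem ac_8 : agChk idx inv RW SW0 a_8 = true := by decide +kernel
theorem ac_9 : agChk idx inv RW SW0 a_9 = true := by decide +kernel
theorem ac_10 : agChk idx inv RW SW0 a_10 = true := by decide +kernel
theorem ac_11 : agChk idx inv RW SW0 a_11 = true := by decide +kernel
theorem ac_12 : agChk idx inv RW SW0 a_12 = true := by decide +kernel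
theorem ac_13 : agChk idx inv RW SW0 a_13 = true := by decide +kernel
theorem ac_14 : agChk idx inv RW SW0 a_14 = true := by decide +kernel
theorem ac_15 : agChk idx inv RW SW0 a_15 = true := by decide +kernel
theorem ac_16 : agChk idx inv RW SW0 a_16 = true := by decide +kernel
theorem ac_17 : agChk idx inv RW SW0 a_17 = true := by decide +kernel
theorem ac_18 : agChk idx inv RW SW0 a_18 = true := by decide +kernel
theorem ac_19 : agChk idx inv RW SW0 a_19 = true := by decide +kernel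
theorem ac_20 : agChk idx inv RW SW0 a_20 = true := by decide +kernel
theorem ac_21 : agChk idx inv RW SW0 a_21 = true := by decide +kernel
theorem ac_22 : agChk idx inv RW SW0 a_22 = true := by decide +kernel
theorem ac_23 : agChk idx inv RW SW0 a_23 = true := by decide +kernel
theorem ac_24 : agChk idx inv RW SW0 a_24 = true := by decide +kernel
theorem ac_25 : agChk idx inv RW SW0 a_25 = true := by decide +kernel
theorem ac_26 : agChk idx inv RW SW0 a_26 = true := by decide +kernel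
theorem ac_27 : agChk idx inv RW SW0 a_27 = true := by decide +kernel
theorem ac_28 : agChk idx inv RW SW0 a_28 = true := by decide +kernel
theorem ac_29 : agChk idx inv RW SW0 a_29 = true := by decide +kernel
theorem ac_30 : agChk idx inv RW SW0 a_30 = true := by decide +kernel
theorem ac_31 : agChk idx inv RW SW0 a_31 = true := by decide +kernel
theorem ac_32 : agChk idx inv RW SW0 a_32 = true := by decide +kernel
theorem ac_33 : agChk idx inv RW SW0 a_33 = true := by decide +kernel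
theorem ac_34 : agChk idx inv RW SW0 a_34 = true := by decide +kernel
theorem ac_35 : agChk idx inv RW SW0 a_35 = true := by decide +kernel
theorem ac_36 : agChk idx inv RW SW0 a_36 = true := by decide +kernel
theorem ac_37 : agChk idx inv RW SW0 a_37 = true := by decide +kernel
theorem ac_38 : agChk idx inv RW SW0 a_38 = true := by decide +kernel
theorem ac_39 : agChk idx inv RW SW0 a_39 = true := by decide +kernel
theorem ac_40 : agChk idx inv RW SW0 a_40 = true := by decide +kernel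
theorem ac_41 : agChk idx inv RW SW0 a_41 = true := by decide +kernel
theorem ac_42 : agChk idx inv RW SW0 a_42 = true := by decide +kernel
theorem ac_43 : agChk idx inv RW SW0 a_43 = true := by decide +kernel
theorem ac_44 : agChk idx inv RW SW0 a_44 = true := by decide +kernel
theorem ac_45 : agChk idx inv RW SW0 a_45 = true := by decide +kernel
theorem ac_46 : agChk idx inv RW SW0 a_46 = true := by decide +kernel
theorem ac_47 : agChk idx inv RW SW0 a_47 = true := by decide +kernel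
theorem ac_48 : agChk idx inv RW SW0 a_48 = true := by decide +kernel
theorem ac_49 : agChk idx inv RW SW0 a_49 = true := by decide +kernel
theorem ac_50 : agChk idx inv RW SW0 a_50 = true := by decide +kernel
theorem ac_51 : agChk idx inv RW SW0 a_51 = true := by decide +kernel
theorem ac_52 : agChk idx inv RW SW0 a_52 = true := by decide +kernel
theorem ac_53 : agChk idx inv RW SW0 a_53 = true := by decide +kernel
theorem ac_54 : agChk idx inv RW SW0 a_54 = true := by decide +kernel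
theorem ac_55 : agChk idx inv RW SW0 a_55 = true := by decide +kernel
theorem ac_56 : agChk idx inv RW SW0 a_56 = true := by decide +kernel
theorem ac_57 : agChk idx inv RW SW0 a_57 = true := by decide +kernel
theorem ac_58 : agChk idx inv RW SW0 a_58 = true := by decide +kernel
theorem ac_59 : agChk idx inv RW SW0 a_59 = true := by decide +kernel
theorem ac_60 : agChk idx inv RW SW0 a_60 = true := by decide +kernel
theorem ac_61 : agChk idx inv RW SW0 a_61 = true := by decide +kernel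
theorem j_0 (q : ℕ) (h : E_0 (UU_a q) q = true) : Just stp tau idx inv RW SW0 PT DT q0 .a q := ⟨a_0, ac_0, rfl, h⟩
theorem j_1 (q : ℕ) (h : E_1 (UU_a q) q = true) : Just stp tau idx inv RW SW0 PT DT q0 .a q := ⟨a_1, ac_1, rfl, h⟩
theorem j_2 (q : ℕ) (h : E_2 (UU_a q) q = true) : Just stp tau idx inv RW SW0 PT DT q0 .a q := ⟨a_2, ac_2, rfl, h⟩
theorem j_3 (q : ℕ) (h : E_3 (UU_a q) q = true) : Just stp tau idx inv RW SW0 PT DT q0 .a q := ⟨a_3, ac_3, rfl, h⟩
theorem j_4 (q : ℕ) (h : E_4 (UU_a q) q = true) : Just stp tau idx inv RW SW0 PT DT q0 .a q := ⟨a_4, ac_4, rfl, h⟩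
theorem j_5 (q : ℕ) (h : E_5 (UU_a q) q = true) : Just stp tau idx inv RW SW0 PT DT q0 .a q := ⟨a_5, ac_5, rfl, h⟩
theorem j_6 (q : ℕ) (h : E_6 (UU_a q) q = true) : Just stp tau idx inv RW SW0 PT DT q0 .a q := ⟨a_6, ac_6, rfl, h⟩
theorem j_7 (q : ℕ) (h : E_7 (UU_a q) q = true) : Just stp tau idx inv RW SW0 PT DT q0 .a q := ⟨a_7, ac_7, rfl, h⟩
theorem j_8 (q : ℕ) (h : E_8 (UU_b q) q = true) : Just stp tau idx inv RW SW0 PT DT q0 .b q := ⟨a_8, ac_8, rfl, h⟩
theorem j_9 (q : ℕ) (h : E_9 (UU_b q) q = true) : Just stp tau idx inv RW SW0 PT DT q0 .b q := ⟨a_9, ac_9, rfl, h⟩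
theorem j_10 (q : ℕ) (h : E_10 (UU_b q) q = true) : Just stp tau idx inv RW SW0 PT DT q0 .b q := ⟨a_10, ac_10, rfl, h⟩
theorem j_11 (q : ℕ) (h : E_11 (UU_b q) q = true) : Just stp tau idx inv RW SW0 PT DT q0 .b q := ⟨a_11, ac_11, rfl, h⟩
theorem j_12 (q : ℕ) (h : E_12 (UU_b q) q = true) : Just stp tau idx inv RW SW0 PT DT q0 .b q := ⟨a_12, ac_12, rfl, h⟩
theorem j_13 (q : ℕ) (h : E_13 (UU_b q) q = true) : Just stp tau idx inv RW SW0 PT DT q0 .b q := ⟨a_13, ac_13, rfl, h⟩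
theorem j_14 (q : ℕ) (h : E_14 (UU_b q) q = true) : Just stp tau idx inv RW SW0 PT DT q0 .b q := ⟨a_14, ac_14, rfl, h⟩
theorem j_15 (q : ℕ) (h : E_15 (UU_b q) q = true) : Just stp tau idx inv RW SW0 PT DT q0 .b q := ⟨a_15, ac_15, rfl, h⟩
theorem j_16 (q : ℕ) (h : E_16 (UU_b q) q = true) : Just stp tau idx inv RW SW0 PT DT q0 .b q := ⟨a_16, ac_16, rfl, h⟩
theorem j_17 (q : ℕ) (h : E_17 (UU_c q) q = true) : Just stp tau idx inv RW SW0 PT DT q0 .c q := ⟨a_17, ac_17, rfl, h⟩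
theorem j_18 (q : ℕ) (h : E_18 (UU_c q) q = true) : Just stp tau idx inv RW SW0 PT DT q0 .c q := ⟨a_18, ac_18, rfl, h⟩
theorem j_19 (q : ℕ) (h : E_19 (UU_c q) q = true) : Just stp tau idx inv RW SW0 PT DT q0 .c q := ⟨a_19, ac_19, rfl, h⟩
theorem j_20 (q : ℕ) (h : E_20 (UU_c q) q = true) : Just stp tau idx inv RW SW0 PT DT q0 .c q := ⟨a_20, ac_20, rfl, h⟩
theorem j_21 (q : ℕ) (h : E_21 (UU_c q) q = true) : Just stp tau idx inv RW SW0 PT DT q0 .c q := ⟨a_21, ac_21, rfl, h⟩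
theorem j_22 (q : ℕ) (h : E_22 (UU_c q) q = true) : Just stp tau idx inv RW SW0 PT DT q0 .c q := ⟨a_22, ac_22, rfl, h⟩
theorem j_23 (q : ℕ) (h : E_23 (UU_c q) q = true) : Just stp tau idx inv RW SW0 PT DT q0 .c q := ⟨a_23, ac_23, rfl, h⟩
theorem j_24 (q : ℕ) (h : E_24 (UU_c q) q = true) : Just stp tau idx inv RW SW0 PT DT q0 .c q := ⟨a_24, ac_24, rfl, h⟩
theorem j_25 (q : ℕ) (h : E_25 (UU_c q) q = true) : Just stp tau idx inv RW SW0 PT DT q0 .c q := ⟨a_25, ac_25, rfl, h⟩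
theorem j_26 (q : ℕ) (h : E_26 (UU_d q) q = true) : Just stp tau idx inv RW SW0 PT DT q0 .d q := ⟨a_26, ac_26, rfl, h⟩
theorem j_27 (q : ℕ) (h : E_27 (UU_d q) q = true) : Just stp tau idx inv RW SW0 PT DT q0 .d q := ⟨a_27, ac_27, rfl, h⟩
theorem j_28 (q : ℕ) (h : E_28 (UU_d q) q = true) : Just stp tau idx inv RW SW0 PT DT q0 .d q := ⟨a_28, ac_28, rfl, h⟩
theorem j_29 (q : ℕ) (h : E_29 (UU_d q) q = true) : Just stp tau idx inv RW SW0 PT DT q0 .d q := ⟨a_29, ac_29, rfl, h⟩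
theorem j_30 (q : ℕ) (h : E_30 (UU_d q) q = true) : Just stp tau idx inv RW SW0 PT DT q0 .d q := ⟨a_30, ac_30, rfl, h⟩
theorem j_31 (q : ℕ) (h : E_31 (UU_d q) q = true) : Just stp tau idx inv RW SW0 PT DT q0 .d q := ⟨a_31, ac_31, rfl, h⟩
theorem j_32 (q : ℕ) (h : E_32 (UU_d q) q = true) : Just stp tau idx inv RW SW0 PT DT q0 .d q := ⟨a_32, ac_32, rfl, h⟩
theorem j_33 (q : ℕ) (h : E_33 (UU_d q) q = true) : Just stp tau idx inv RW SW0 PT DT q0 .d q := ⟨a_33, ac_33, rfl, h⟩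
theorem j_34 (q : ℕ) (h : E_34 (UU_d q) q = true) : Just stp tau idx inv RW SW0 PT DT q0 .d q := ⟨a_34, ac_34, rfl, h⟩
theorem j_35 (q : ℕ) (h : E_35 (UU_e q) q = true) : Just stp tau idx inv RW SW0 PT DT q0 .e q := ⟨a_35, ac_35, rfl, h⟩
theorem j_36 (q : ℕ) (h : E_36 (UU_e q) q = true) : Just stp tau idx inv RW SW0 PT DT q0 .e q := ⟨a_36, ac_36, rfl, h⟩
theorem j_37 (q : ℕ) (h : E_37 (UU_e q) q = true) : Just stp tau idx inv RW SW0 PT DT q0 .e q := ⟨a_37, ac_37, rfl, h⟩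
theorem j_38 (q : ℕ) (h : E_38 (UU_e q) q = true) : Just stp tau idx inv RW SW0 PT DT q0 .e q := ⟨a_38, ac_38, rfl, h⟩
theorem j_39 (q : ℕ) (h : E_39 (UU_e q) q = true) : Just stp tau idx inv RW SW0 PT DT q0 .e q := ⟨a_39, ac_39, rfl, h⟩
theorem j_40 (q : ℕ) (h : E_40 (UU_e q) q = true) : Just stp tau idx inv RW SW0 PT DT q0 .e q := ⟨a_40, ac_40, rfl, h⟩
theorem j_41 (q : ℕ) (h : E_41 (UU_e q) q = true) : Just stp tau idx inv RW SW0 PT DT q0 .e q := ⟨a_41, ac_41, rfl, h⟩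
theorem j_42 (q : ℕ) (h : E_42 (UU_e q) q = true) : Just stp tau idx inv RW SW0 PT DT q0 .e q := ⟨a_42, ac_42, rfl, h⟩
theorem j_43 (q : ℕ) (h : E_43 (UU_e q) q = true) : Just stp tau idx inv RW SW0 PT DT q0 .e q := ⟨a_43, ac_43, rfl, h⟩
theorem j_44 (q : ℕ) (h : E_44 (UU_f q) q = true) : Just stp tau idx inv RW SW0 PT DT q0 .f q := ⟨a_44, ac_44, rfl, h⟩
theorem j_45 (q : ℕ) (h : E_45 (UU_f q) q = true) : Just stp tau idx inv RW SW0 PT DT q0 .f q := ⟨a_45, ac_45, rfl, h⟩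
theorem j_46 (q : ℕ) (h : E_46 (UU_f q) q = true) : Just stp tau idx inv RW SW0 PT DT q0 .f q := ⟨a_46, ac_46, rfl, h⟩
theorem j_47 (q : ℕ) (h : E_47 (UU_f q) q = true) : Just stp tau idx inv RW SW0 PT DT q0 .f q := ⟨a_47, ac_47, rfl, h⟩
theorem j_48 (q : ℕ) (h : E_48 (UU_f q) q = true) : Just stp tau idx inv RW SW0 PT DT q0 .f q := ⟨a_48, ac_48, rfl, h⟩
theorem j_49 (q : ℕ) (h : E_49 (UU_f q) q = true) : Just stp tau idx inv RW SW0 PT DT q0 .f q := ⟨a_49, ac_49, rfl, h⟩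
theorem j_50 (q : ℕ) (h : E_50 (UU_f q) q = true) : Just stp tau idx inv RW SW0 PT DT q0 .f q := ⟨a_50, ac_50, rfl, h⟩
theorem j_51 (q : ℕ) (h : E_51 (UU_f q) q = true) : Just stp tau idx inv RW SW0 PT DT q0 .f q := ⟨a_51, ac_51, rfl, h⟩
theorem j_52 (q : ℕ) (h : E_52 (UU_f q) q = true) : Just stp tau idx inv RW SW0 PT DT q0 .f q := ⟨a_52, ac_52, rfl, h⟩
theorem j_53 (q : ℕ) (h : E_53 (UU_h q) q = true) : Just stp tau idx inv RW SW0 PT DT q0 .h q := ⟨a_53, ac_53, rfl, h⟩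
theorem j_54 (q : ℕ) (h : E_54 (UU_h q) q = true) : Just stp tau idx inv RW SW0 PT DT q0 .h q := ⟨a_54, ac_54, rfl, h⟩
theorem j_55 (q : ℕ) (h : E_55 (UU_h q) q = true) : Just stp tau idx inv RW SW0 PT DT q0 .h q := ⟨a_55, ac_55, rfl, h⟩
theorem j_56 (q : ℕ) (h : E_56 (UU_h q) q = true) : Just stp tau idx inv RW SW0 PT DT q0 .h q := ⟨a_56, ac_56, rfl, h⟩
theorem j_57 (q : ℕ) (h : E_57 (UU_h q) q = true) : Just stp tau idx inv RW SW0 PT DT q0 .h q := ⟨a_57, ac_57, rfl, h⟩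
theorem j_58 (q : ℕ) (h : E_58 (UU_h q) q = true) : Just stp tau idx inv RW SW0 PT DT q0 .h q := ⟨a_58, ac_58, rfl, h⟩
theorem j_59 (q : ℕ) (h : E_59 (UU_h q) q = true) : Just stp tau idx inv RW SW0 PT DT q0 .h q := ⟨a_59, ac_59, rfl, h⟩
theorem j_60 (q : ℕ) (h : E_60 (UU_h q) q = true) : Just stp tau idx inv RW SW0 PT DT q0 .h q := ⟨a_60, ac_60, rfl, h⟩
theorem j_61 (q : ℕ) (h : E_61 (UU_h q) q = true) : Just stp tau idx inv RW SW0 PT DT q0 .h q := ⟨a_61, ac_61, rfl, h⟩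
theorem jc_a (q : ℕ) (h : D_a q = true) : Just stp tau idx inv RW SW0 PT DT q0 .a q := (brec (brec (j_0 q) (j_1 q)) (brec (brec (j_2 q) (brec (j_3 q) (j_4 q))) (brec (j_5 q) (brec (j_6 q) (j_7 q))))) h
theorem jc_b (q : ℕ) (h : D_b q = true) : Just stp tau idx inv RW SW0 PT DT q0 .b q := (brec (brec (j_8 q) (j_9 q)) (brec (brec (j_10 q) (brec (j_11 q) (j_12 q))) (brec (brec (j_13 q) (j_14 q)) (brec (j_15 q) (j_16 q))))) h
theorem jc_c (q : ℕ) (h : D_c q = true) : Just stp tau idx inv RW SW0 PT DT q0 .c q := (brec (brec (j_17 q) (j_18 q)) (brec (brec (j_19 q) (brec (j_20 q) (j_21 q))) (brec (brec (j_22 q) (j_23 q)) (brec (j_24 q) (j_25 q))))) h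
theorem jc_d (q : ℕ) (h : D_d q = true) : Just stp tau idx inv RW SW0 PT DT q0 .d q := (brec (brec (j_26 q) (j_27 q)) (brec (brec (j_28 q) (brec (j_29 q) (j_30 q))) (brec (brec (j_31 q) (j_32 q)) (brec (j_33 q) (j_34 q))))) h
theorem jc_e (q : ℕ) (h : D_e q = true) : Just stp tau idx inv RW SW0 PT DT q0 .e q := (brec (brec (j_35 q) (j_36 q)) (brec (brec (j_37 q) (brec (j_38 q) (j_39 q))) (brec (brec (j_40 q) (j_41 q)) (brec (j_42 q) (j_43 q))))) h
theorem jc_f (q : ℕ) (h : D_f q = true) : Just stp tau idx inv RW SW0 PT DT q0 .f q := (brec (brec (j_44 q) (j_45 q)) (brec (brec (j_46 q) (brec (j_47 q) (j_48 q))) (brec (brec (j_49 q) (j_50 q)) (brec (j_51 q) (j_52 q))))) h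
theorem jc_h (q : ℕ) (h : D_h q = true) : Just stp tau idx inv RW SW0 PT DT q0 .h q := (brec (brec (j_53 q) (j_54 q)) (brec (brec (j_55 q) (brec (j_56 q) (j_57 q))) (brec (brec (j_58 q) (j_59 q)) (brec (j_60 q) (j_61 q))))) h
theorem hE : ∀ q ∈ L.toList, ∀ c, Just stp tau idx inv RW SW0 PT DT q0 c q := by
  intro q hq c
  cases c
  · exact jc_a q (cd_a q hq).2
  · exact jc_b q (cd_b q hq).2
  · exact jc_c q (cd_c q hq).2
  · exact jc_d q (cd_d q hq).2
  · exact jc_e q (cd_e q hq).2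
  · exact jc_f q (cd_f q hq).2
  · exact jc_h q (cd_h q hq).2
attribute [local irreducible] L stp tau PT DT
theorem closure_thm {G X : Type*} [Group G] [MulAction G X] (g : Col → G) (x0 : X) (hinv : ∀ c, g (inv c) = (g c)⁻¹)
    (hRW : ∀ w ∈ RW, gw g w = 1) (hSW : ∀ w ∈ SW0, gw g w • x0 = x0) :
    ∃ f : ℕ → X, f q0 = x0 ∧ ∀ q ∈ L.toList, ∀ c, g c • f q = f (stp c q) := by
  exact closure_sound2 g x0 dec hdec hinv hRW hSW closed.mem pos q0_mem hz hE
universe u
/-- upper bound for a relative index -/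
theorem rel_upper {G : Type u} [Group G] (g : Col → G) (hinv : ∀ c, g (inv c) = (g c)⁻¹)
    (hRW : ∀ w ∈ RW, gw g w = 1) (H : Subgroup G) (hSW : ∀ w ∈ SW0, gw g w ∈ H) :
    H.relIndex (genBy g) ≠ 0 ∧ H.relIndex (genBy g) ≤ 56 := by
  rw [← size_L]
  exact relIndex_of_closure closed.mem q0_mem g hinv hRW H hSW (fun X _ x0 h1 h2 h3 => closure_thm (liftGen g) x0 h1 h2 h3)
end CfsgLib.TCFi24Yd
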