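import Cfsg.Agent.EqBase
import Cfsg.Agent.LibTCFi24YC
import Cfsg.Agent.LibTCFi24Yb
import Cfsg.Agent.LibTCFi24Yc
import Cfsg.Agent.LibTCFi24Yd
import Cfsg.Agent.LibTCFi23e
import Cfsg.Agent.LibTCFi23f
import Cfsg.Agent.LibTCV
set_option autoImplicit false
set_option linter.all false
set_option maxRecDepth 1000000

namespace CfsgLib.TCFi24Y
open CfsgLib.TC Cfsg.Spor CfsgLib

noncomputable instance decColN : DecidableEq TCG_Fi24Y.Col := fun x y =>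
  decidable_of_iff (TCG_Fi24Y.idx x = TCG_Fi24Y.idx y) ⟨fun h => by rw [← TCG_Fi24Y.hdec x, ← TCG_Fi24Y.hdec y, h], fun h => by rw [h]⟩

def em0 (c : TCG_Fi24Y.Col) : TCG_Fi24Y.Col := c
noncomputable abbrev PX0 : TCG_Fi24Y.Col → Fi24Y := fun c => TCG_Fi24Y.P (em0 c)
theorem PX_inv0 : ∀ c, PX0 (TCG_Fi24Y.inv c) = (PX0 c)⁻¹ := TCG_Fi24Y.P_inv
theorem PX_RW0 : ∀ w ∈ TCG_Fi24Y.RW, gw PX0 w = 1 := TCG_Fi24Y.P_RW
def em1 : TCFi24Yc.Col → TCG_Fi24Y.Col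
  | .l => .l
  | .k => .k
  | .a => .a
  | .b => .b
  | .c => .c
  | .d => .d
  | .e => .e
  | .f => .f
  | .h => .h
noncomputable abbrev PX1 : TCFi24Yc.Col → Fi24Y := fun c => TCG_Fi24Y.P (em1 c)
theorem em_RW1 : ∀ w ∈ TCFi24Yc.RW, w.map em1 ∈ TCG_Fi24Y.RW := by decide +kernel
theorem PX_inv1 : ∀ c, PX1 (TCFi24Yc.inv c) = (PX1 c)⁻¹ := by
  intro c
  have h : em1 (TCFi24Yc.inv c) = TCG_Fi24Y.inv (em1 c) := by cases c <;> rfl
  rw [PX1, h]; exact TCG_Fi24Y.P_inv _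
theorem PX_RW1 : ∀ w ∈ TCFi24Yc.RW, gw PX1 w = 1 := by
  intro w hw
  have h := TCG_Fi24Y.P_RW _ (em_RW1 w hw)
  rwa [gw_map] at h
def em2 : TCFi24Yd.Col → TCG_Fi24Y.Col
  | .a => .a
  | .b => .b
  | .c => .c
  | .d => .d
  | .e => .e
  | .f => .f
  | .h => .h
noncomputable abbrev PX2 : TCFi24Yd.Col → Fi24Y := fun c => TCG_Fi24Y.P (em2 c)
theorem em_RW2 : ∀ w ∈ TCFi24Yd.RW, w.map em2 ∈ TCG_Fi24Y.RW := by decide +kernel
theorem PX_inv2 : ∀ c, PX2 (TCFi24Yd.inv c) = (PX2 c)⁻¹ := by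
  intro c
  have h : em2 (TCFi24Yd.inv c) = TCG_Fi24Y.inv (em2 c) := by cases c <;> rfl
  rw [PX2, h]; exact TCG_Fi24Y.P_inv _
theorem PX_RW2 : ∀ w ∈ TCFi24Yd.RW, gw PX2 w = 1 := by
  intro w hw
  have h := TCG_Fi24Y.P_RW _ (em_RW2 w hw)
  rwa [gw_map] at h
def em3 : TCFi23e.Col → TCG_Fi24Y.Col
  | .b => .b
  | .c => .c
  | .d => .d
  | .e => .e
  | .f => .f
  | .h => .h
noncomputable abbrev PX3 : TCFi23e.Col → Fi24Y := fun c => TCG_Fi24Y.P (em3 c)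
theorem em_RW3 : ∀ w ∈ TCFi23e.RW, w.map em3 ∈ TCG_Fi24Y.RW := by decide +kernel
theorem PX_inv3 : ∀ c, PX3 (TCFi23e.inv c) = (PX3 c)⁻¹ := by
  intro c
  have h : em3 (TCFi23e.inv c) = TCG_Fi24Y.inv (em3 c) := by cases c <;> rfl
  rw [PX3, h]; exact TCG_Fi24Y.P_inv _
theorem PX_RW3 : ∀ w ∈ TCFi23e.RW, gw PX3 w = 1 := by
  intro w hw
  have h := TCG_Fi24Y.P_RW _ (em_RW3 w hw)
  rwa [gw_map] at h
def em4 : TCFi23f.Col → TCG_Fi24Y.Col
  | .b => .b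
  | .c => .c
  | .d => .d
  | .e => .e
  | .f => .f
noncomputable abbrev PX4 : TCFi23f.Col → Fi24Y := fun c => TCG_Fi24Y.P (em4 c)
theorem em_RW4 : ∀ w ∈ TCFi23f.RW, w.map em4 ∈ TCG_Fi24Y.RW := by decide +kernel
theorem PX_inv4 : ∀ c, PX4 (TCFi23f.inv c) = (PX4 c)⁻¹ := by
  intro c
  have h : em4 (TCFi23f.inv c) = TCG_Fi24Y.inv (em4 c) := by cases c <;> rfl
  rw [PX4, h]; exact TCG_Fi24Y.P_inv _
theorem PX_RW4 : ∀ w ∈ TCFi23f.RW, gw PX4 w = 1 := by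
  intro w hw
  have h := TCG_Fi24Y.P_RW _ (em_RW4 w hw)
  rwa [gw_map] at h
/-- nine times the Coxeter word -/
def w63 : List TCFi24Yd.Col := [.a, .b, .c, .d, .e, .f, .h, .a, .b, .c, .d, .e, .f, .h, .a, .b, .c, .d, .e, .f, .h, .a, .b, .c, .d, .e, .f, .h, .a, .b, .c, .d, .e, .f, .h, .a, .b, .c, .d, .e, .f, .h, .a, .b, .c, .d, .e, .f, .h, .a, .b, .c, .d, .e, .f, .h, .a, .b, .c, .d, .e, .f, .h]
theorem l_mem : PX1 .l ∈ genBy PX2 := by
  have h := TCG_Fi24Y.P_RW (w63.map em2 ++ [.l]) (by decide +kernel)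
  rw [gw_append, gw_cons, gw_nil, one_mul, gw_map] at h
  have h2 : PX1 .l = (gw PX2 w63)⁻¹ := eq_inv_of_mul_eq_one_left h
  rw [h2]
  exact Subgroup.inv_mem _ (gw_mem_of PX2 (genBy PX2) w63 (fun x _ => Subgroup.subset_closure ⟨x, rfl⟩))

theorem leX3 : genBy PX4 ≤ genBy PX3 := by
  rw [Subgroup.closure_le]
  rintro _ ⟨c, rfl⟩
  cases c
  · exact Subgroup.subset_closure ⟨.b, rfl⟩
  · exact Subgroup.subset_closure ⟨.c, rfl⟩
  · exact Subgroup.subset_closure ⟨.d, rfl⟩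
  · exact Subgroup.subset_closure ⟨.e, rfl⟩
  · exact Subgroup.subset_closure ⟨.f, rfl⟩
theorem leX2 : genBy PX3 ≤ genBy PX2 := by
  rw [Subgroup.closure_le]
  rintro _ ⟨c, rfl⟩
  cases c
  · exact Subgroup.subset_closure ⟨.b, rfl⟩
  · exact Subgroup.subset_closure ⟨.c, rfl⟩
  · exact Subgroup.subset_closure ⟨.d, rfl⟩
  · exact Subgroup.subset_closure ⟨.e, rfl⟩
  · exact Subgroup.subset_closure ⟨.f, rfl⟩
  · exact Subgroup.subset_closure ⟨.h, rfl⟩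
theorem leX1 : genBy PX2 ≤ genBy PX1 := by
  rw [Subgroup.closure_le]
  rintro _ ⟨c, rfl⟩
  cases c
  · exact Subgroup.subset_closure ⟨.a, rfl⟩
  · exact Subgroup.subset_closure ⟨.b, rfl⟩
  · exact Subgroup.subset_closure ⟨.c, rfl⟩
  · exact Subgroup.subset_closure ⟨.d, rfl⟩
  · exact Subgroup.subset_closure ⟨.e, rfl⟩
  · exact Subgroup.subset_closure ⟨.f, rfl⟩
  · exact Subgroup.subset_closure ⟨.h, rfl⟩
theorem leX0 : genBy PX1 ≤ genBy PX0 := by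
  rw [Subgroup.closure_le]
  rintro _ ⟨c, rfl⟩
  cases c
  · exact Subgroup.subset_closure ⟨.l, rfl⟩
  · exact Subgroup.subset_closure ⟨.k, rfl⟩
  · exact Subgroup.subset_closure ⟨.a, rfl⟩
  · exact Subgroup.subset_closure ⟨.b, rfl⟩
  · exact Subgroup.subset_closure ⟨.c, rfl⟩
  · exact Subgroup.subset_closure ⟨.d, rfl⟩
  · exact Subgroup.subset_closure ⟨.e, rfl⟩
  · exact Subgroup.subset_closure ⟨.f, rfl⟩
  · exact Subgroup.subset_closure ⟨.h, rfl⟩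
theorem cardX4 : Nat.card (genBy PX4) ≠ 0 ∧ Nat.card (genBy PX4) ≤ 720 :=
  card_of_bot (TCFi23f.rel_upper PX4 PX_inv4 PX_RW4 ⊥
    (fun w hw => absurd hw (by simp [TCFi23f.SW0])))
theorem memX3 : ∀ w ∈ TCFi23e.SW0, gw PX3 w ∈ genBy PX4 := by
  intro w hw
  simp only [TCFi23e.SW0, List.mem_cons, List.not_mem_nil, or_false] at hw
  rcases hw with rfl | rfl | rfl | rfl | rfl <;> rw [gw_cons, gw_nil, one_mul]
  · exact Subgroup.subset_closure ⟨.b, rfl⟩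
  · exact Subgroup.subset_closure ⟨.c, rfl⟩
  · exact Subgroup.subset_closure ⟨.d, rfl⟩
  · exact Subgroup.subset_closure ⟨.e, rfl⟩
  · exact Subgroup.subset_closure ⟨.f, rfl⟩
theorem cardX3 : Nat.card (genBy PX3) ≠ 0 ∧ Nat.card (genBy PX3) ≤ 51840 :=
  card_chain leX3 (TCFi23e.rel_upper PX3 PX_inv3 PX_RW3 (genBy PX4) memX3) cardX4 (by norm_num)
theorem memX2 : ∀ w ∈ TCFi24Yd.SW0, gw PX2 w ∈ genBy PX3 := by
  intro w hw
  simp only [TCFi24Yd.SW0, List.mem_cons, List.not_mem_nil, or_false] at hw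
  rcases hw with rfl | rfl | rfl | rfl | rfl | rfl <;> rw [gw_cons, gw_nil, one_mul]
  · exact Subgroup.subset_closure ⟨.b, rfl⟩
  · exact Subgroup.subset_closure ⟨.c, rfl⟩
  · exact Subgroup.subset_closure ⟨.d, rfl⟩
  · exact Subgroup.subset_closure ⟨.e, rfl⟩
  · exact Subgroup.subset_closure ⟨.f, rfl⟩
  · exact Subgroup.subset_closure ⟨.h, rfl⟩
theorem cardX2 : Nat.card (genBy PX2) ≠ 0 ∧ Nat.card (genBy PX2) ≤ 2903040 :=
  card_chain leX2 (TCFi24Yd.rel_upper PX2 PX_inv2 PX_RW2 (genBy PX3) memX2) cardX3 (by norm_num)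
theorem memX1 : ∀ w ∈ TCFi24Yc.SW0, gw PX1 w ∈ genBy PX2 := by
  intro w hw
  simp only [TCFi24Yc.SW0, List.mem_cons, List.not_mem_nil, or_false] at hw
  rcases hw with rfl | rfl | rfl | rfl | rfl | rfl | rfl | rfl <;> rw [gw_cons, gw_nil, one_mul]
  · exact l_mem
  · exact Subgroup.subset_closure ⟨.a, rfl⟩
  · exact Subgroup.subset_closure ⟨.b, rfl⟩
  · exact Subgroup.subset_closure ⟨.c, rfl⟩
  · exact Subgroup.subset_closure ⟨.d, rfl⟩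
  · exact Subgroup.subset_closure ⟨.e, rfl⟩
  · exact Subgroup.subset_closure ⟨.f, rfl⟩
  · exact Subgroup.subset_closure ⟨.h, rfl⟩
theorem cardX1 : Nat.card (genBy PX1) ≠ 0 ∧ Nat.card (genBy PX1) ≤ 348364800 :=
  card_chain leX1 (TCFi24Yc.rel_upper PX1 PX_inv1 PX_RW1 (genBy PX2) memX1) cardX2 (by norm_num)
theorem memX0 : ∀ w ∈ TCFi24Yb.SW0, gw PX0 w ∈ genBy PX1 := by
  intro w hw
  simp only [TCFi24Yb.SW0, List.mem_cons, List.not_mem_nil, or_false] at hw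
  rcases hw with rfl | rfl | rfl | rfl | rfl | rfl | rfl | rfl | rfl <;> rw [gw_cons, gw_nil, one_mul]
  · exact Subgroup.subset_closure ⟨.l, rfl⟩
  · exact Subgroup.subset_closure ⟨.k, rfl⟩
  · exact Subgroup.subset_closure ⟨.a, rfl⟩
  · exact Subgroup.subset_closure ⟨.b, rfl⟩
  · exact Subgroup.subset_closure ⟨.c, rfl⟩
  · exact Subgroup.subset_closure ⟨.d, rfl⟩
  · exact Subgroup.subset_closure ⟨.e, rfl⟩
  · exact Subgroup.subset_closure ⟨.f, rfl⟩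
  · exact Subgroup.subset_closure ⟨.h, rfl⟩
theorem cardX0 : Nat.card (genBy PX0) ≠ 0 ∧ Nat.card (genBy PX0) ≤ 9904359628800 :=
  card_chain leX0 (TCFi24Yb.rel_upper PX0 PX_inv0 PX_RW0 (genBy PX1) memX0) cardX1 (by norm_num)
theorem topX : genBy PX0 = ⊤ := by
  rw [eq_top_iff, ← TCG_Fi24Y.P_top, Subgroup.closure_le]
  rintro _ ⟨c, rfl⟩
  cases c
  · exact Subgroup.subset_closure ⟨.l, rfl⟩
  · exact Subgroup.subset_closure ⟨.k, rfl⟩
  · exact Subgroup.subset_closure ⟨.a, rfl⟩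
  · exact Subgroup.subset_closure ⟨.b, rfl⟩
  · exact Subgroup.subset_closure ⟨.c, rfl⟩
  · exact Subgroup.subset_closure ⟨.d, rfl⟩
  · exact Subgroup.subset_closure ⟨.e, rfl⟩
  · exact Subgroup.subset_closure ⟨.f, rfl⟩
  · exact Subgroup.subset_closure ⟨.h, rfl⟩
  · exact Subgroup.subset_closure ⟨.i, rfl⟩
theorem card_top : Nat.card Fi24Y ≠ 0 ∧ Nat.card Fi24Y ≤ 9904359628800 := by
  have h := cardX0
  rw [topX, Subgroup.card_top] at h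
  exact h
instance finite_Fi24Y : Finite Fi24Y := Nat.finite_of_card_ne_zero card_top.1

theorem order_main : Nat.card Fi24Y = 9904359628800 ∧ Function.Injective TCFi24Y.φ :=
  order_faithful TCFi24Y.φ card_top.2 (TCFi24Y.Chain.lev0 TCFi24Y.φ.range.subtype (rangeGen TCFi24Y.φ TCG_Fi24Y.P) TCFi24Y.φ_P)

/-- the spider relation -/
def spider : List TCG_Fi24Y.Col := [.i, .h, .d, .f, .e, .d, .b, .c, .d, .i, .h, .d, .f, .e, .d, .b, .c, .d, .i, .h, .d, .f, .e, .d, .b, .c, .d, .i, .h, .d, .f, .e, .d, .b, .c, .d, .i, .h, .d, .f, .e, .d, .b, .c, .d, .i, .h, .d, .f, .e, .d, .b, .c, .d, .i, .h, .d, .f, .e, .d, .b, .c, .d, .i, .h, .d, .f, .e, .d, .b, .c, .d, .i, .h, .d, .f, .e, .d, .b, .c, .d, .i, .h, .d, .f, .e, .d, .b, .c, .d]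
theorem spider_rel : gw TCG_Fi24Y.P spider = 1 :=
  rel_of_faithful TCFi24Y.closed TCFi24Y.φ TCG_Fi24Y.P TCFi24Y.φ_P order_main.2 (by decide +kernel)

end CfsgLib.TCFi24Y
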