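import Cfsg.Agent.EqBase
import Cfsg.Agent.LibTC9
import Cfsg.Agent.LibTCFi24A
import Cfsg.Agent.LibTCFi24
import Cfsg.Agent.LibTCFi24O
import Cfsg.Agent.LibTCFi24YF
import Cfsg.Agent.LibTCFi23S
set_option autoImplicit false
set_option linter.all false
set_option maxRecDepth 1000000

/-! Order and simplicity of Fi₂₄'. -/

namespace CfsgLib.TCFi24
open CfsgLib.TC Cfsg.Spor CfsgLib.TCG_Fi24

noncomputable instance decC : DecidableEq TCG_Fi24.Col := fun x y =>
  decidable_of_iff (TCG_Fi24.idx x = TCG_Fi24.idx y) ⟨fun h => by rw [← TCG_Fi24.hdec x, ← TCG_Fi24.hdec y, h], fun h => by rw [h]⟩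

def emY : TCG_Fi24Y.Col → TCG_Fi24.Col
  | .l => .l
  | .k => .k
  | .a => .a
  | .b => .b
  | .c => .c
  | .d => .d
  | .e => .e
  | .f => .f
  | .h => .h
  | .i => .i
def em : TCG_Fi23.Col → TCG_Fi24.Col
  | .a => .a
  | .b => .b
  | .c => .c
  | .d => .d
  | .e => .e
  | .f => .f
  | .g => .g
  | .j => .j
  | .h => .h
  | .i => .i

theorem emY_RW : ∀ w ∈ TCG_Fi24Y.RW, w.map emY ∈ TCG_Fi24.RW := by decide +kernel

theorem PY_inv : ∀ c, TCG_Fi24.P (emY (TCG_Fi24Y.inv c)) = (TCG_Fi24.P (emY c))⁻¹ := by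
  intro c
  have h : emY (TCG_Fi24Y.inv c) = TCG_Fi24.inv (emY c) := by cases c <;> rfl
  rw [h]; exact TCG_Fi24.P_inv _

theorem Y_sat : Sat Fi24Y.edges Fi24Y.extra (fun x => TCG_Fi24.P (emY (TCG_Fi24Y.col x))) :=
  sat_of_rwx TCG_Fi24Y.h2 TCG_Fi24Y.h3 (fun c => TCG_Fi24.P (emY c)) PY_inv TCG_Fi24Y.TV (by
    rw [TCG_Fi24Y.rw_eq]
    intro w hw
    have h := TCG_Fi24.P_RW _ (emY_RW w hw)
    rwa [gw_map] at h)

noncomputable def Θ : Fi24Y →* Fi24 := homOf Y_sat

theorem Θ_P (c : TCG_Fi24Y.Col) : Θ (TCG_Fi24Y.P c) = TCG_Fi24.P (emY c) := by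
  cases c
  · exact homOf_of Y_sat .l
  · exact homOf_of Y_sat .k
  · exact homOf_of Y_sat .a
  · exact homOf_of Y_sat .b
  · exact homOf_of Y_sat .c
  · exact homOf_of Y_sat .d
  · exact homOf_of Y_sat .e
  · exact homOf_of Y_sat .f
  · exact homOf_of Y_sat .h
  · exact homOf_of Y_sat .i

theorem spider_P : gw TCG_Fi24.P (TCFi24Y.spider.map emY) = 1 := by
  have h := congrArg Θ TCFi24Y.spider_rel
  rw [map_gw, map_one] at h
  have e : (fun c => Θ (TCG_Fi24Y.P c)) = fun c => TCG_Fi24.P (emY c) := funext Θ_P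
  rw [e] at h
  rwa [gw_map]

/-! ### the subgroup `H = 2 × Fi₂₃` -/

theorem memH (x : TCG_Fi24.Col) (h : [x] ∈ SW0) : TCG_Fi24.P x ∈ H := by
  have := H_SW [x] h
  rwa [gw_cons, gw_nil, one_mul] at this

theorem comm_of_sq {G : Type*} [Group G] {a b : G} (ha : a * a = 1) (hb : b * b = 1) (h : (a * b) ^ 2 = 1) : b * a = a * b := by
  have h1 : a * b * (a * b) = 1 := by rwa [pow_two] at h
  have hi : (a * b)⁻¹ = a * b := inv_eq_of_mul_eq_one_left h1
  rwa [mul_inv_rev, inv_eq_of_mul_eq_one_left ha, inv_eq_of_mul_eq_one_left hb] at hi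

theorem l_comm (x : Fi24.Gen) (hx : x ≠ .k) :
    (PresentedGroup.of x : Fi24) * PresentedGroup.of .l = PresentedGroup.of .l * PresentedGroup.of x := by
  have key : ∀ y : Fi24.Gen, (.l, y, 2) ∈ TCG_Fi24.CL → (PresentedGroup.of y : Fi24) * PresentedGroup.of .l = PresentedGroup.of .l * PresentedGroup.of y :=
    fun y hy => comm_of_sq (sqx TCG_Fi24.hsat .l) (sqx TCG_Fi24.hsat y) (cox_rel TCG_Fi24.h1 TCG_Fi24.h3 TCG_Fi24.hsat _ _ _ hy)
  cases x
  · rfl
  · exact absurd rfl hx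
  · exact key _ (by decide)
  · exact key _ (by decide)
  · exact key _ (by decide)
  · exact key _ (by decide)
  · exact key _ (by decide)
  · exact key _ (by decide)
  · exact key _ (by decide)
  · exact key _ (by decide)
  · exact key _ (by decide)
  · exact key _ (by decide)

theorem H_cent : ∀ h ∈ H, h * TCG_Fi24.P .l = TCG_Fi24.P .l * h := by
  have h1 : H ≤ Subgroup.centralizer {TCG_Fi24.P .l} := by
    rw [H_eq, Subgroup.closure_le]
    rintro _ ⟨w, hw, rfl⟩
    simp only [SW0, List.mem_cons, List.not_mem_nil, or_false] at hw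
    rcases hw with rfl | rfl | rfl | rfl | rfl | rfl | rfl | rfl | rfl | rfl | rfl <;> rw [gw_cons, gw_nil, one_mul, SetLike.mem_coe, Subgroup.mem_centralizer_singleton_iff]
    · exact l_comm .a (by decide)
    · exact l_comm .b (by decide)
    · exact l_comm .c (by decide)
    · exact l_comm .d (by decide)
    · exact l_comm .e (by decide)
    · exact l_comm .f (by decide)
    · exact l_comm .g (by decide)
    · exact l_comm .h (by decide)
    · exact l_comm .i (by decide)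
    · exact l_comm .j (by decide)
  intro h hh
  exact Subgroup.mem_centralizer_singleton_iff.1 (h1 hh)

noncomputable def lH : H := ⟨TCG_Fi24.P .l, memH .l (by simp [SW0])⟩

theorem lH_cent (h : H) : h * lH = lH * h := Subtype.ext (H_cent h.1 h.2)

theorem lH_sq : lH * lH = 1 := Subtype.ext (sqx TCG_Fi24.hsat .l)

instance normN : (Subgroup.zpowers lH).Normal := by
  refine ⟨fun n hn g => ?_⟩
  obtain ⟨k, rfl⟩ := hn
  have h : Commute g (lH ^ k) := (show Commute g lH from lH_cent g).zpow_right k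
  have h2 : g * lH ^ k * g⁻¹ = lH ^ k := by rw [h.eq, mul_inv_cancel_right]
  show g * lH ^ k * g⁻¹ ∈ _
  rw [h2]
  exact ⟨k, rfl⟩

noncomputable def hP : TCG_Fi23.Col → H
  | .a => ⟨TCG_Fi24.P .a, memH .a (by simp [SW0])⟩
  | .b => ⟨TCG_Fi24.P .b, memH .b (by simp [SW0])⟩
  | .c => ⟨TCG_Fi24.P .c, memH .c (by simp [SW0])⟩
  | .d => ⟨TCG_Fi24.P .d, memH .d (by simp [SW0])⟩
  | .e => ⟨TCG_Fi24.P .e, memH .e (by simp [SW0])⟩
  | .f => ⟨TCG_Fi24.P .f, memH .f (by simp [SW0])⟩
  | .g => ⟨TCG_Fi24.P .g, memH .g (by simp [SW0])⟩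
  | .j => ⟨TCG_Fi24.P .j, memH .j (by simp [SW0])⟩
  | .h => ⟨TCG_Fi24.P .h, memH .h (by simp [SW0])⟩
  | .i => ⟨TCG_Fi24.P .i, memH .i (by simp [SW0])⟩

theorem hP_val (c : TCG_Fi23.Col) : (hP c).1 = TCG_Fi24.P (em c) := by cases c <;> rfl

noncomputable def gq (c : TCG_Fi23.Col) : H ⧸ Subgroup.zpowers lH := QuotientGroup.mk' (Subgroup.zpowers lH) (hP c)

theorem hP_inv (c : TCG_Fi23.Col) : hP (TCG_Fi23.inv c) = (hP c)⁻¹ := by
  apply Subtype.ext
  rw [Subgroup.coe_inv, hP_val, hP_val]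
  have h : em (TCG_Fi23.inv c) = TCG_Fi24.inv (em c) := by cases c <;> rfl
  rw [h]; exact TCG_Fi24.P_inv _

theorem gq_inv (c : TCG_Fi23.Col) : gq (TCG_Fi23.inv c) = (gq c)⁻¹ := by
  unfold gq
  rw [hP_inv, map_inv]

theorem rel_cases : ∀ w ∈ TCG_Fi23.RW, w.map em ∈ TCG_Fi24.RW ∨ w.map em = TCFi24Y.spider.map emY ∨ (w.map em).reverse ++ [.l] ∈ TCG_Fi24.RW := by
  decide +kernel

theorem gw_rev (w : List TCG_Fi24.Col) : gw TCG_Fi24.P w.reverse = (gw TCG_Fi24.P w)⁻¹ := by
  induction w with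
  | nil => rw [List.reverse_nil, gw_nil, inv_one]
  | cons c w ih =>
    have h : TCG_Fi24.inv c = c := by cases c <;> rfl
    have h1 : (TCG_Fi24.P c)⁻¹ = TCG_Fi24.P c := by rw [← TCG_Fi24.P_inv, h]
    rw [List.reverse_cons, gw_append, gw_cons, gw_nil, one_mul, gw_cons, ih, mul_inv_rev, h1]

theorem hP_gw (w : List TCG_Fi23.Col) : (gw hP w).1 = gw TCG_Fi24.P (w.map em) := by
  have h : (gw hP w).1 = gw (fun c => (hP c).1) w := map_gw H.subtype hP w
  rw [h, gw_map]
  congr 1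
  exact funext hP_val

theorem gq_RW : ∀ w ∈ TCG_Fi23.RW, gw gq w = 1 := by
  intro w hw
  have h : gw gq w = QuotientGroup.mk' (Subgroup.zpowers lH) (gw hP w) := (map_gw (QuotientGroup.mk' (Subgroup.zpowers lH)) hP w).symm
  rw [h]
  refine (QuotientGroup.eq_one_iff _).2 ?_
  rcases rel_cases w hw with h1 | h1 | h1
  · have h2 : gw hP w = 1 := Subtype.ext (by rw [hP_gw]; exact TCG_Fi24.P_RW _ h1)
    rw [h2]; exact Subgroup.one_mem _
  · have h2 : gw hP w = 1 := Subtype.ext (by rw [hP_gw, h1]; exact spider_P)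
    rw [h2]; exact Subgroup.one_mem _
  · have h2 := TCG_Fi24.P_RW _ h1
    rw [gw_append, gw_cons, gw_nil, one_mul, gw_rev] at h2
    have h3 : gw hP w = lH := Subtype.ext (by
      rw [hP_gw]
      exact (mul_inv_eq_one.1 h2).symm)
    rw [h3]; exact Subgroup.mem_zpowers _

theorem θ_sat : Sat Fi23.edges Fi23.extra (fun x => gq (TCG_Fi23.col x)) :=
  sat_of_rwx TCG_Fi23.h2 TCG_Fi23.h3 gq gq_inv TCG_Fi23.TV (by rw [TCG_Fi23.rw_eq]; exact gq_RW)

noncomputable def θ : Fi23 →* H ⧸ Subgroup.zpowers lH := homOf θ_sat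

theorem θ_of (x : Fi23.Gen) : θ (PresentedGroup.of x) = gq (TCG_Fi23.col x) := homOf_of θ_sat x

theorem θ_surj : Function.Surjective θ := by
  have key : ∀ x ∈ Subgroup.closure {x | ∃ w ∈ SW0, gw TCG_Fi24.P w = x}, ∀ hx : x ∈ H,
      QuotientGroup.mk' (Subgroup.zpowers lH) ⟨x, hx⟩ ∈ θ.range := by
    intro x hx
    induction hx using Subgroup.closure_induction with
    | mem x hx =>
      obtain ⟨w, hw, rfl⟩ := hx
      intro hx
      have e : ∀ (c : TCG_Fi24.Col) (h : gw TCG_Fi24.P [c] ∈ H) (h' : TCG_Fi24.P c ∈ H), (⟨gw TCG_Fi24.P [c], h⟩ : H) = ⟨TCG_Fi24.P c, h'⟩ := by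
        intro c h h'
        apply Subtype.ext
        show gw TCG_Fi24.P [c] = _
        rw [gw_cons, gw_nil, one_mul]
      have k : ∀ c : TCG_Fi23.Col, ∀ y : Fi23.Gen, TCG_Fi23.col y = c → QuotientGroup.mk' (Subgroup.zpowers lH) (hP c) ∈ θ.range := by
        intro c y hy
        exact ⟨PresentedGroup.of y, by rw [θ_of, hy]; rfl⟩
      simp only [SW0, List.mem_cons, List.not_mem_nil, or_false] at hw
      rcases hw with rfl | rfl | rfl | rfl | rfl | rfl | rfl | rfl | rfl | rfl | rfl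
      · rw [e _ hx (memH .a (by simp [SW0]))]; exact k .a .a rfl
      · rw [e _ hx (memH .b (by simp [SW0]))]; exact k .b .b rfl
      · rw [e _ hx (memH .c (by simp [SW0]))]; exact k .c .c rfl
      · rw [e _ hx (memH .d (by simp [SW0]))]; exact k .d .d rfl
      · rw [e _ hx (memH .e (by simp [SW0]))]; exact k .e .e rfl
      · rw [e _ hx (memH .f (by simp [SW0]))]; exact k .f .f rfl
      · rw [e _ hx (memH .g (by simp [SW0]))]; exact k .g .g rfl
      · rw [e _ hx (memH .h (by simp [SW0]))]; exact k .h .h rfl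
      · rw [e _ hx (memH .i (by simp [SW0]))]; exact k .i .i rfl
      · rw [e _ hx (memH .j (by simp [SW0]))]; exact k .j .j rfl
      · rw [e _ hx (memH .l (by simp [SW0]))]
        have h1 : QuotientGroup.mk' (Subgroup.zpowers lH) (⟨TCG_Fi24.P .l, memH .l (by simp [SW0])⟩ : H) = 1 :=
          (QuotientGroup.eq_one_iff _).2 (Subgroup.mem_zpowers lH)
        rw [h1]; exact Subgroup.one_mem _
    | one =>
      intro hx
      have : (⟨1, hx⟩ : H) = 1 := rfl
      rw [this, map_one]; exact Subgroup.one_mem _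
    | mul x y hx' hy' hx hy =>
      intro hxy
      have h1 : x ∈ H := by rw [H_eq]; exact hx'
      have h2 : y ∈ H := by rw [H_eq]; exact hy'
      have : (⟨x * y, hxy⟩ : H) = ⟨x, h1⟩ * ⟨y, h2⟩ := rfl
      rw [this, map_mul]; exact Subgroup.mul_mem _ (hx h1) (hy h2)
    | inv x hx' hx =>
      intro hxi
      have h1 : x ∈ H := by rw [H_eq]; exact hx'
      have : (⟨x⁻¹, hxi⟩ : H) = (⟨x, h1⟩ : H)⁻¹ := rfl
      rw [this, map_inv]; exact Subgroup.inv_mem _ (hx h1)
  intro q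
  obtain ⟨h, rfl⟩ := QuotientGroup.mk'_surjective _ q
  exact key h.1 (by rw [← H_eq]; exact h.2) h.2

/-! ### inequalities seen on the points -/

theorem P_ne {x y : TCG_Fi24.Col} {q : ℕ} (hq : q ∈ L.toList) (h : stp x q ≠ stp y q) : φ (TCG_Fi24.P x) ≠ φ (TCG_Fi24.P y) := by
  intro h1
  rw [φ_P, φ_P] at h1
  exact h (congrArg (fun s : Equiv.Perm (Om L) => (s ⟨q, hq⟩).1) h1)

theorem P_ne_one {x : TCG_Fi24.Col} {q : ℕ} (hq : q ∈ L.toList) (h : stp x q ≠ q) : φ (TCG_Fi24.P x) ≠ 1 := by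
  intro h1
  rw [φ_P] at h1
  exact h (congrArg (fun s : Equiv.Perm (Om L) => (s ⟨q, hq⟩).1) h1)

theorem ineq1 : Nat.beq (F_l 5500009) 5500009 = false := by decide +kernel
theorem ineq2 : Nat.beq (F_a 5500009) 5500009 = false := by decide +kernel
theorem ineq3 : Nat.beq (F_a 5500009) (F_l 5500009) = false := by decide +kernel
theorem mem1 : 5500009 ∈ L.toList := mt_sound _ (by decide +kernel)
theorem mem2 : 5500009 ∈ L.toList := mt_sound _ (by decide +kernel)
theorem mem3 : 5500009 ∈ L.toList := mt_sound _ (by decide +kernel)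

theorem l_ne : φ (TCG_Fi24.P .l) ≠ 1 := P_ne_one mem1 (fun h => by
  have h2 := ineq1
  have h3 : F_l 5500009 = 5500009 := h
  rw [h3, Nat.beq_refl] at h2
  exact Bool.noConfusion h2)
theorem a_ne : φ (TCG_Fi24.P .a) ≠ 1 := P_ne_one mem2 (fun h => by
  have h2 := ineq2
  have h3 : F_a 5500009 = 5500009 := h
  rw [h3, Nat.beq_refl] at h2
  exact Bool.noConfusion h2)
theorem al_ne : φ (TCG_Fi24.P .a) ≠ φ (TCG_Fi24.P .l) := P_ne mem3 (fun h => by
  have h2 := ineq3
  have h3 : F_a 5500009 = F_l 5500009 := h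
  rw [h3, Nat.beq_refl] at h2
  exact Bool.noConfusion h2)

theorem zp_cases {A : Type*} [Group A] {l x : A} (hl : l * l = 1) (hx : x ∈ Subgroup.zpowers l) : x = 1 ∨ x = l := by
  obtain ⟨k, rfl⟩ := hx
  have h2 : l ^ (2:ℤ) = 1 := by rw [zpow_two]; exact hl
  rcases Int.even_or_odd' k with ⟨m, rfl | rfl⟩
  · left; show l ^ (2 * m) = 1; rw [zpow_mul, h2, one_zpow]
  · right; show l ^ (2 * m + 1) = l; rw [zpow_add, zpow_mul, h2, one_zpow, one_mul, zpow_one]

theorem lH_ne : lH ≠ 1 := by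
  intro h
  apply l_ne
  have : TCG_Fi24.P .l = 1 := congrArg Subtype.val h
  rw [this, map_one]

theorem θ_ne : ∃ x, θ x ≠ 1 := by
  refine ⟨PresentedGroup.of .a, ?_⟩
  rw [θ_of]
  intro h
  have h1 : hP .a ∈ Subgroup.zpowers lH := (QuotientGroup.eq_one_iff _).1 h
  rcases zp_cases lH_sq h1 with h2 | h2
  · apply a_ne
    have : TCG_Fi24.P .a = 1 := congrArg Subtype.val h2
    rw [this, map_one]
  · apply al_ne
    have : TCG_Fi24.P .a = TCG_Fi24.P .l := congrArg Subtype.val h2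
    rw [this]

theorem card_H_both : Nat.card H = 2 * Nat.card Fi23 ∧ Function.Bijective θ :=
  card_central TCFi23.simple lH lH_sq lH_ne θ θ_surj θ_ne

theorem card_H : Nat.card H = 8178940946586009600 := by
  rw [card_H_both.1, TCFi23.order_main.1]

theorem card_Fi24 : Nat.card Fi24 = 2510411418381323442585600 := by
  have h := Subgroup.card_mul_index H
  rw [card_H, main.1] at h
  rw [← h]

instance finite_Fi24 : Finite Fi24 := Nat.finite_of_card_ne_zero (by rw [card_Fi24]; norm_num)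

theorem core_ker (c : Fi24) (hc : c ∈ H.normalCore) : φ c = 1 := by
  apply Equiv.ext
  intro q
  obtain ⟨g, rfl⟩ := main.2.2 q
  have h1 : g⁻¹ * c * g⁻¹⁻¹ ∈ H.normalCore := (Subgroup.normalCore_normal H).conj_mem c hc g⁻¹
  rw [_root_.inv_inv] at h1
  have h2 := (main.2.1 _).2 (Subgroup.normalCore_le H h1)
  rw [map_mul, map_mul, map_inv] at h2
  have h3 : φ g ((φ g)⁻¹ (φ c (φ g ⟨q0, q0_mem⟩))) = φ g ⟨q0, q0_mem⟩ := congrArg (φ g) h2
  have h4 : (φ g) ((φ g)⁻¹ (φ c (φ g ⟨q0, q0_mem⟩))) = φ c (φ g ⟨q0, q0_mem⟩) := by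
    rw [← Equiv.Perm.mul_apply, mul_inv_cancel, Equiv.Perm.one_apply]
  rw [h4] at h3
  exact h3

theorem core_bot : H.normalCore = ⊥ := by
  have hn : (H.normalCore.subgroupOf H).Normal := inferInstance
  have hC := normal_central TCFi23.simple lH θ card_H_both.2 (H.normalCore.subgroupOf H)
  rcases hC with h | h
  · rw [eq_bot_iff]
    intro c hc
    have hcH : c ∈ H := Subgroup.normalCore_le H hc
    have h1 : (⟨c, hcH⟩ : H) ∈ Subgroup.zpowers lH := h (show (⟨c, hcH⟩ : H) ∈ H.normalCore.subgroupOf H from hc)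
    rcases zp_cases lH_sq h1 with h2 | h2
    · exact congrArg Subtype.val h2
    · exfalso
      apply l_ne
      have : c = TCG_Fi24.P .l := congrArg Subtype.val h2
      rw [← this]
      exact core_ker c hc
  · exfalso
    obtain ⟨c, hc, z, hz, h1⟩ := h (hP .a)
    have h2 : TCG_Fi24.P .a = c.1 * z.1 := congrArg Subtype.val h1
    have h3 : φ (TCG_Fi24.P .a) = φ z.1 := by
      rw [h2, map_mul, core_ker c.1 hc, one_mul]
    rcases zp_cases lH_sq hz with h4 | h4
    · apply a_ne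
      rw [h3, h4]
      exact map_one φ
    · apply al_ne
      rw [h3, h4]
      rfl

theorem gen_top : Subgroup.normalClosure {TCG_Fi24.P .l} = ⊤ := by
  apply normal_eq_top
  intro f hf hs
  have hl : f .l = 1 := by
    rw [hf]
    exact (QuotientGroup.eq_one_iff _).2 (Subgroup.subset_normalClosure (Set.mem_singleton _))
  have e : ∀ x y : Fi24.Gen, (x, y, 3) ∈ TCG_Fi24.CL → f x = 1 → f y = 1 := fun x y h hx =>
    odd_one hx (sqx hs y) (cox_rel TCG_Fi24.h1 TCG_Fi24.h3 hs _ _ _ h) rfl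
  have hk := e .l .k (by decide) hl
  have ha := e .k .a (by decide) hk
  have hb := e .a .b (by decide) ha
  have hc := e .b .c (by decide) hb
  have hd := e .c .d (by decide) hc
  have he := e .d .e (by decide) hd
  have hf' := e .e .f (by decide) he
  have hg := e .f .g (by decide) hf'
  have hj := e .g .j (by decide) hg
  have hh := e .d .h (by decide) hd
  have hi := e .h .i (by decide) hh
  intro x
  cases x <;> assumption

theorem l_not_comm : TCG_Fi24.P .l ∉ commutator Fi24 := by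
  intro h
  have h1 := Abelianization.commutator_subset_ker sgn h
  rw [MonoidHom.mem_ker] at h1
  have h2 : sgn (TCG_Fi24.P .l) = -1 := sgn_of .l
  rw [h2] at h1
  exact absurd h1 (by decide)

theorem card_comm : Nat.card (commutator Fi24) = 1255205709190661721292800 := by
  have h := Subgroup.card_mul_index (commutator Fi24)
  rw [comm_index, card_Fi24] at h
  omega

theorem not_sq (n : ℕ) : n * n ≠ Nat.card (commutator Fi24) := by
  rw [card_comm]
  intro h
  rcases Nat.lt_or_ge n 1120359633864 with h1 | h1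
  · have h2 : n ≤ 1120359633863 := by omega
    have h3 := Nat.mul_le_mul h2 h2
    rw [h] at h3
    exact absurd h3 (by norm_num)
  · have h3 := Nat.mul_le_mul h1 h1
    rw [h] at h3
    exact absurd h3 (by norm_num)

theorem simple : IsSimpleGroup (commutator Fi24) := by
  have hnt : Nontrivial (commutator Fi24) := by
    rw [← Finite.one_lt_card_iff_nontrivial, card_comm]
    norm_num
  exact simple_comm maximal core_bot H_cent (sqx TCG_Fi24.hsat .l) gen_top comm_index l_not_comm hnt not_sq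

end CfsgLib.TCFi24
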