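import Cfsg.Agent.EqBase
import Cfsg.Agent.LibTC3
import Cfsg.Agent.LibTCGFi24
set_option autoImplicit false
set_option linter.all false
set_option maxRecDepth 1000000
set_option maxHeartbeats 0
namespace CfsgLib.TCFi24
open CfsgLib.TC Cfsg.Spor
open CfsgLib.TCG_Fi24
noncomputable def SW0 : List (List Col) := [[Col.a], [Col.b], [Col.c], [Col.d], [Col.e], [Col.f], [Col.g], [Col.h], [Col.i], [Col.j], [Col.l]]
def HX : List (Ex Fi24.Gen) := [(.v .a), (.v .b), (.v .c), (.v .d), (.v .e), (.v .f), (.v .g), (.v .h), (.v .i), (.v .j), (.v .l)]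
theorem sw_eq : HX.map (fun e => e.word col inv) = SW0 := lleq_sound dec hdec _ _ (by decide +kernel)
noncomputable def SW1 : List (List Col) := SW0 ++ [[Col.k, Col.a, Col.b, Col.c, Col.d, Col.e, Col.h, Col.d, Col.c, Col.b, Col.a, Col.i, Col.h, Col.d, Col.c, Col.e, Col.d, Col.h, Col.i, Col.b, Col.c, Col.d, Col.h, Col.e, Col.d, Col.c, Col.b, Col.a, Col.l, Col.k]]
noncomputable def SW2 : List (List Col) := SW1 ++ [[Col.k, Col.l, Col.a, Col.k, Col.b, Col.a, Col.c, Col.d, Col.e, Col.f, Col.g, Col.h, Col.d, Col.c, Col.e, Col.d, Col.f, Col.e, Col.h, Col.d, Col.c, Col.b, Col.i, Col.h, Col.d, Col.e, Col.c, Col.d, Col.h, Col.i, Col.f, Col.e, Col.d, Col.h, Col.g, Col.f, Col.e, Col.d, Col.b, Col.c, Col.a, Col.b, Col.k, Col.a, Col.l, Col.k]]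
end CfsgLib.TCFi24
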