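import Cfsg.Agent.EqBase
import Cfsg.Agent.LibTCFi24D
set_option autoImplicit false
set_option linter.all false
set_option maxRecDepth 1000000
set_option maxHeartbeats 0
namespace CfsgLib.TCFi24
open CfsgLib.TC Cfsg.Spor CfsgLib.TCG_Fi24
theorem re_3_13 : Tr.all Rf_3 L_13 = true := by decide +kernel
theorem re_3_70 : Tr.all Rf_3 L_70 = true := by decide +kernel
theorem re_2_6 : Tr.all Rf_2 L_6 = true := by decide +kernel
theorem re_1_14 : Tr.all Rf_1 L_14 = true := by decide +kernel
theorem re_1_33 : Tr.all Rf_1 L_33 = true := by decide +kernel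
theorem re_1_52 : Tr.all Rf_1 L_52 = true := by decide +kernel
theorem re_1_71 : Tr.all Rf_1 L_71 = true := by decide +kernel
theorem ce_0_72 : Tr.all CE_0 L_72 = true := by decide +kernel
theorem re_5_62 : Tr.all Rf_5 L_62 = true := by decide +kernel
theorem ce_1_45 : Tr.all CE_1 L_45 = true := by decide +kernel
theorem ce_2_25 : Tr.all CE_2 L_25 = true := by decide +kernel
theorem ce_2_52 : Tr.all CE_2 L_52 = true := by decide +kernel
theorem re_6_19 : Tr.all Rf_6 L_19 = true := by decide +kernel
theorem re_6_61 : Tr.all Rf_6 L_61 = true := by decide +kernel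
theorem tr_73 : Tr.all (transQ mt sd PT DT q0) L_73 = true := by decide +kernel
theorem bs_74 : bst L_74 5500000 (2 * 5500000) = true := by decide +kernel
theorem pr_16 : prodT L_16 = MM_16 := by decide +kernel
theorem sz_44 : size L_44 = 4096 := by decide +kernel
theorem pr_73 : prodT L_73 = MM_73 := by decide +kernel
end CfsgLib.TCFi24
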