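import Cfsg.Agent.EqBase
import Cfsg.Agent.LibTCFi24D
set_option autoImplicit false
set_option linter.all false
set_option maxRecDepth 1000000
set_option maxHeartbeats 0
namespace CfsgLib.TCFi24
open CfsgLib.TC Cfsg.Spor CfsgLib.TCG_Fi24
theorem re_3_28 : Tr.all Rf_3 L_28 = true := by decide +kernel
theorem re_0_11 : Tr.all Rf_0 L_11 = true := by decide +kernel
theorem re_0_51 : Tr.all Rf_0 L_51 = true := by decide +kernel
theorem re_1_19 : Tr.all Rf_1 L_19 = true := by decide +kernel
theorem re_1_38 : Tr.all Rf_1 L_38 = true := by decide +kernel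
theorem re_1_57 : Tr.all Rf_1 L_57 = true := by decide +kernel
theorem ce_0_1 : Tr.all CE_0 L_1 = true := by decide +kernel
theorem ce_0_25 : Tr.all CE_0 L_25 = true := by decide +kernel
theorem re_5_8 : Tr.all Rf_5 L_8 = true := by decide +kernel
theorem re_5_65 : Tr.all Rf_5 L_65 = true := by decide +kernel
theorem ce_1_62 : Tr.all CE_1 L_62 = true := by decide +kernel
theorem re_6_22 : Tr.all Rf_6 L_22 = true := by decide +kernel
theorem tr_3 : Tr.all (transQ mt sd PT DT q0) L_3 = true := by decide +kernel
theorem tr_21 : Tr.all (transQ mt sd PT DT q0) L_21 = true := by decide +kernel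
theorem tr_40 : Tr.all (transQ mt sd PT DT q0) L_40 = true := by decide +kernel
theorem bs_41 : bst L_41 5500000 (2 * 5500000) = true := by decide +kernel
theorem sz_11 : size L_11 = 4096 := by decide +kernel
theorem pr_40 : prodT L_40 = MM_40 := by decide +kernel
theorem sz_68 : size L_68 = 4096 := by decide +kernel
end CfsgLib.TCFi24
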