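import Cfsg.Agent.EqBase
import Cfsg.Agent.LibTCFi24D
set_option autoImplicit false
set_option linter.all false
set_option maxRecDepth 1000000
set_option maxHeartbeats 0
namespace CfsgLib.TCFi24
open CfsgLib.TC Cfsg.Spor CfsgLib.TCG_Fi24
theorem re_3_43 : Tr.all Rf_3 L_43 = true := by decide +kernel
theorem re_0_26 : Tr.all Rf_0 L_26 = true := by decide +kernel
theorem re_0_66 : Tr.all Rf_0 L_66 = true := by decide +kernel
theorem re_1_24 : Tr.all Rf_1 L_24 = true := by decide +kernel
theorem re_1_43 : Tr.all Rf_1 L_43 = true := by decide +kernel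
theorem re_1_62 : Tr.all Rf_1 L_62 = true := by decide +kernel
theorem ce_0_16 : Tr.all CE_0 L_16 = true := by decide +kernel
theorem ce_0_40 : Tr.all CE_0 L_40 = true := by decide +kernel
theorem re_5_23 : Tr.all Rf_5 L_23 = true := by decide +kernel
theorem ce_1_6 : Tr.all CE_1 L_6 = true := by decide +kernel
theorem ce_1_53 : Tr.all CE_1 L_53 = true := by decide +kernel
theorem ce_2_65 : Tr.all CE_2 L_65 = true := by decide +kernel
theorem re_6_69 : Tr.all Rf_6 L_69 = true := by decide +kernel
theorem bs_7 : bst L_7 5500000 (2 * 5500000) = true := by decide +kernel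
theorem bs_25 : bst L_25 5500000 (2 * 5500000) = true := by decide +kernel
theorem sz_3 : size L_3 = 4096 := by decide +kernel
theorem pr_32 : prodT L_32 = MM_32 := by decide +kernel
theorem sz_60 : size L_60 = 4096 := by decide +kernel
end CfsgLib.TCFi24
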