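import Cfsg.Agent.EqBase
import Cfsg.Agent.LibTC3
import Cfsg.Agent.LibTCGFi24Y
set_option autoImplicit false
set_option linter.all false
set_option maxRecDepth 1000000
set_option maxHeartbeats 0
namespace CfsgLib.TCFi24Yc
open CfsgLib.TC Cfsg.Spor
inductive Col where
  | l
  | k
  | a
  | b
  | c
  | d
  | e
  | f
  | h
noncomputable def idx : Col → ℕ := fun c => Col.rec (motive := fun _ => ℕ) 0 1 2 3 4 5 6 7 8 c
noncomputable def inv : Col → Col := fun c => Col.rec (motive := fun _ => Col) .l .k .a .b .c .d .e .f .h c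
def dec : ℕ → Col := fun n => if n = 0 then .l else if n = 1 then .k else if n = 2 then .a else if n = 3 then .b else if n = 4 then .c else if n = 5 then .d else if n = 6 then .e else if n = 7 then .f else .h
theorem hdec : ∀ c, dec (idx c) = c := by intro c; cases c <;> rfl
theorem inv_inv : ∀ c, inv (inv c) = c := by intro c; cases c <;> rfl
def cols : List Col := [Col.l, Col.k, Col.a, Col.b, Col.c, Col.d, Col.e, Col.f, Col.h]
theorem hcols : ∀ c, c ∈ cols := by intro c; cases c <;> simp [cols]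
/-- relators as path words (first letter acts first) -/
noncomputable def RWb : List (List Col) := [[Col.l, Col.l],
  [Col.k, Col.l, Col.k, Col.l, Col.k, Col.l],
  [Col.a, Col.l, Col.a, Col.l],
  [Col.b, Col.l, Col.b, Col.l],
  [Col.c, Col.l, Col.c, Col.l],
  [Col.d, Col.l, Col.d, Col.l],
  [Col.e, Col.l, Col.e, Col.l],
  [Col.f, Col.l, Col.f, Col.l],
  [Col.h, Col.l, Col.h, Col.l],
  [Col.k, Col.k],
  [Col.a, Col.k, Col.a, Col.k, Col.a, Col.k],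
  [Col.b, Col.k, Col.b, Col.k],
  [Col.c, Col.k, Col.c, Col.k],
  [Col.d, Col.k, Col.d, Col.k],
  [Col.e, Col.k, Col.e, Col.k],
  [Col.f, Col.k, Col.f, Col.k],
  [Col.h, Col.k, Col.h, Col.k],
  [Col.a, Col.a],
  [Col.b, Col.a, Col.b, Col.a, Col.b, Col.a],
  [Col.c, Col.a, Col.c, Col.a],
  [Col.d, Col.a, Col.d, Col.a],
  [Col.e, Col.a, Col.e, Col.a],
  [Col.f, Col.a, Col.f, Col.a],
  [Col.h, Col.a, Col.h, Col.a],
  [Col.b, Col.b],
  [Col.c, Col.b, Col.c, Col.b, Col.c, Col.b],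
  [Col.d, Col.b, Col.d, Col.b],
  [Col.e, Col.b, Col.e, Col.b],
  [Col.f, Col.b, Col.f, Col.b],
  [Col.h, Col.b, Col.h, Col.b],
  [Col.c, Col.c],
  [Col.d, Col.c, Col.d, Col.c, Col.d, Col.c],
  [Col.e, Col.c, Col.e, Col.c],
  [Col.f, Col.c, Col.f, Col.c],
  [Col.h, Col.c, Col.h, Col.c],
  [Col.d, Col.d],
  [Col.e, Col.d, Col.e, Col.d, Col.e, Col.d],
  [Col.f, Col.d, Col.f, Col.d],
  [Col.h, Col.d, Col.h, Col.d, Col.h, Col.d],
  [Col.e, Col.e],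
  [Col.f, Col.e, Col.f, Col.e, Col.f, Col.e],
  [Col.h, Col.e, Col.h, Col.e],
  [Col.f, Col.f],
  [Col.h, Col.f, Col.h, Col.f],
  [Col.h, Col.h],
  [Col.a, Col.b, Col.c, Col.d, Col.e, Col.f, Col.h, Col.a, Col.b, Col.c, Col.d, Col.e, Col.f, Col.h, Col.a, Col.b, Col.c, Col.d, Col.e, Col.f, Col.h, Col.a, Col.b, Col.c, Col.d, Col.e, Col.f, Col.h, Col.a, Col.b, Col.c, Col.d, Col.e, Col.f, Col.h, Col.a, Col.b, Col.c, Col.d, Col.e, Col.f, Col.h, Col.a, Col.b, Col.c, Col.d, Col.e, Col.f, Col.h, Col.a, Col.b, Col.c, Col.d, Col.e, Col.f, Col.h, Col.a, Col.b, Col.c, Col.d, Col.e, Col.f, Col.h, Col.l]]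
noncomputable def RWe : List (List Col) := []
noncomputable def RW : List (List Col) := [[Col.l, Col.l],
  [Col.k, Col.l, Col.k, Col.l, Col.k, Col.l],
  [Col.a, Col.l, Col.a, Col.l],
  [Col.b, Col.l, Col.b, Col.l],
  [Col.c, Col.l, Col.c, Col.l],
  [Col.d, Col.l, Col.d, Col.l],
  [Col.e, Col.l, Col.e, Col.l],
  [Col.f, Col.l, Col.f, Col.l],
  [Col.h, Col.l, Col.h, Col.l],
  [Col.k, Col.k],
  [Col.a, Col.k, Col.a, Col.k, Col.a, Col.k],
  [Col.b, Col.k, Col.b, Col.k],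
  [Col.c, Col.k, Col.c, Col.k],
  [Col.d, Col.k, Col.d, Col.k],
  [Col.e, Col.k, Col.e, Col.k],
  [Col.f, Col.k, Col.f, Col.k],
  [Col.h, Col.k, Col.h, Col.k],
  [Col.a, Col.a],
  [Col.b, Col.a, Col.b, Col.a, Col.b, Col.a],
  [Col.c, Col.a, Col.c, Col.a],
  [Col.d, Col.a, Col.d, Col.a],
  [Col.e, Col.a, Col.e, Col.a],
  [Col.f, Col.a, Col.f, Col.a],
  [Col.h, Col.a, Col.h, Col.a],
  [Col.b, Col.b],
  [Col.c, Col.b, Col.c, Col.b, Col.c, Col.b],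
  [Col.d, Col.b, Col.d, Col.b],
  [Col.e, Col.b, Col.e, Col.b],
  [Col.f, Col.b, Col.f, Col.b],
  [Col.h, Col.b, Col.h, Col.b],
  [Col.c, Col.c],
  [Col.d, Col.c, Col.d, Col.c, Col.d, Col.c],
  [Col.e, Col.c, Col.e, Col.c],
  [Col.f, Col.c, Col.f, Col.c],
  [Col.h, Col.c, Col.h, Col.c],
  [Col.d, Col.d],
  [Col.e, Col.d, Col.e, Col.d, Col.e, Col.d],
  [Col.f, Col.d, Col.f, Col.d],
  [Col.h, Col.d, Col.h, Col.d, Col.h, Col.d],
  [Col.e, Col.e],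
  [Col.f, Col.e, Col.f, Col.e, Col.f, Col.e],
  [Col.h, Col.e, Col.h, Col.e],
  [Col.f, Col.f],
  [Col.h, Col.f, Col.h, Col.f],
  [Col.h, Col.h],
  [Col.a, Col.b, Col.c, Col.d, Col.e, Col.f, Col.h, Col.a, Col.b, Col.c, Col.d, Col.e, Col.f, Col.h, Col.a, Col.b, Col.c, Col.d, Col.e, Col.f, Col.h, Col.a, Col.b, Col.c, Col.d, Col.e, Col.f, Col.h, Col.a, Col.b, Col.c, Col.d, Col.e, Col.f, Col.h, Col.a, Col.b, Col.c, Col.d, Col.e, Col.f, Col.h, Col.a, Col.b, Col.c, Col.d, Col.e, Col.f, Col.h, Col.a, Col.b, Col.c, Col.d, Col.e, Col.f, Col.h, Col.a, Col.b, Col.c, Col.d, Col.e, Col.f, Col.h, Col.l]]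
theorem rw_mem : ∀ w ∈ RW, w ∈ RWb ∨ w ∈ RWe := fun w hw => Or.inl hw
def emb : Col → TCG_Fi24Y.Col
  | .l => .l
  | .k => .k
  | .a => .a
  | .b => .b
  | .c => .c
  | .d => .d
  | .e => .e
  | .f => .f
  | .h => .h
theorem emb_inv : ∀ c, emb (inv c) = TCG_Fi24Y.inv (emb c) := by intro c; cases c <;> rfl
def RI : List ℕ := [0, 1, 2, 3, 4, 5, 6, 7, 8, 10, 11, 12, 13, 14, 15, 16, 17, 19, 20, 21, 22, 23, 24, 25, 27, 28, 29, 30, 31, 32, 34, 35, 36, 37, 38, 40, 41, 42, 43, 45, 46, 47, 49, 50, 52, 55]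
theorem ri_chk : lleq TCG_Fi24Y.idx (mapR (nthR TCG_Fi24Y.RW) RI) (mapR (mapR emb) RWb) = true := by decide +kernel
/-- the family of generators -/
def Pc {G : Type*} [Group G] (f : Fi24Y.Gen → G) (c : Col) : G := TCG_Fi24Y.Pc f (emb c)
theorem Pc_inv {G : Type*} [Group G] {f : Fi24Y.Gen → G} (hs : Sat Fi24Y.edges Fi24Y.extra f) (c : Col) : Pc f (inv c) = (Pc f c)⁻¹ := by
  rw [Pc, emb_inv]; exact TCG_Fi24Y.Pc_inv hs _
theorem Pc_RW {G : Type*} [Group G] {f : Fi24Y.Gen → G} (hs : Sat Fi24Y.edges Fi24Y.extra f) : ∀ w ∈ RWb, gw (Pc f) w = 1 :=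
  rw_sub TCG_Fi24Y.dec TCG_Fi24Y.hdec emb RI ri_chk (TCG_Fi24Y.Pc f) (TCG_Fi24Y.Pc_RW hs)
theorem Pc_RW' {G : Type*} [Group G] {f : Fi24Y.Gen → G} (hs : Sat Fi24Y.edges Fi24Y.extra f) (he : ∀ w ∈ RWe, gw (Pc f) w = 1) : ∀ w ∈ RW, gw (Pc f) w = 1 :=
  fun w hw => (rw_mem w hw).elim (Pc_RW hs w) (he w)
noncomputable def SW0 : List (List Col) := [[Col.l], [Col.a], [Col.b], [Col.c], [Col.d], [Col.e], [Col.f], [Col.h]]
end CfsgLib.TCFi24Yc
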