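import Cfsg.Agent.EqBase
import Cfsg.Agent.LibTCHeU
set_option autoImplicit false
set_option linter.all false
set_option maxRecDepth 1000000

/-! The subgroup `S₄(4):2` of the Held group: the isomorphism. -/

namespace CfsgLib.TCHeU
open CfsgLib.TC CfsgLib.MC Cfsg.Spor CfsgLib.TCG_He CfsgLib.TCHe CfsgLib.F4c Cfsg Cfsg.Agent.H22 Matrix

abbrev SP := Matrix.symplecticGroup (Fin 2) F4
abbrev Mx := Matrix (Fin 2 ⊕ Fin 2) (Fin 2 ⊕ Fin 2) F4
noncomputable abbrev vv (q : ℕ) : Fin 2 ⊕ Fin 2 → F4 := sv (VT q)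

theorem ob_inv (h : H) (q : Om L) : OB (φ h.1 q).1 = OB q.1 :=
  inv_sound closed φ P φ_P H (le_of_eq H_eq) sub_inv h.1 h.2 q

def compat (h : H) (s : SP) : Prop := ∀ q : Om L, OB q.1 = 3 → ∃ l : F4, l ≠ 0 ∧ (s : Mx) *ᵥ vv q.1 = l • vv (φ h.1 q).1

theorem compat_gen (c : C5) : compat (hg c) (spT (sv (un c)) 1) := by
  intro q hq
  have h1 := (Tr.all_iff _ _).1 eq_chk q.1 q.2
  unfold EQ at h1
  rw [hq] at h1
  have h2 := (lall_iff _ _).1 h1 c (hcs5 c)
  obtain ⟨l, hl, h3⟩ := prS h2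
  refine ⟨l, hl, ?_⟩
  rw [coe_spT, ← sv_trS, h3]
  congr 2
  have h4 : (φ (gw P (wd c)) q).1 = walk stp (wd c) q.1 := phi_gw closed φ P φ_P (wd c) q
  show VT _ = VT _
  rw [← h4]
  rfl

theorem compat_one : compat 1 1 := by
  intro q hq
  refine ⟨1, one_ne_zero, ?_⟩
  show (1 : Mx) *ᵥ vv q.1 = (1 : F4) • vv (φ 1 q).1
  rw [Matrix.one_mulVec, one_smul, map_one, Equiv.Perm.one_apply]

theorem compat_mul {x y : H} {s t : SP} (hx : compat x s) (hy : compat y t) : compat (x * y) (s * t) := by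
  intro q hq
  obtain ⟨l, hl, h1⟩ := hy q hq
  obtain ⟨l', hl', h2⟩ := hx (φ y.1 q) (by rw [ob_inv]; exact hq)
  refine ⟨l * l', mul_ne_zero hl hl', ?_⟩
  show ((s : Mx) * (t : Mx)) *ᵥ vv q.1 = (l * l') • vv (φ (x.1 * y.1) q).1
  rw [← Matrix.mulVec_mulVec, h1, Matrix.mulVec_smul, h2, smul_smul, map_mul, Equiv.Perm.mul_apply]

theorem coe_inv_mul (s : SP) : ((s⁻¹ : SP) : Mx) * (s : Mx) = 1 := congrArg Subtype.val (inv_mul_cancel s)

theorem compat_inv {x : H} {s : SP} (hx : compat x s) : compat x⁻¹ s⁻¹ := by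
  intro q hq
  have e : φ x.1 (φ x.1⁻¹ q) = q := by
    rw [← Equiv.Perm.mul_apply, ← map_mul, mul_inv_cancel, map_one, Equiv.Perm.one_apply]
  obtain ⟨l, hl, h1⟩ := hx (φ x.1⁻¹ q) (by
    have := ob_inv x⁻¹ q
    rw [← hq]; exact this)
  rw [e] at h1
  refine ⟨l⁻¹, inv_ne_zero hl, ?_⟩
  show ((s⁻¹ : SP) : Mx) *ᵥ vv q.1 = l⁻¹ • vv (φ x.1⁻¹ q).1
  have h2 : ((s⁻¹ : SP) : Mx) *ᵥ ((s : Mx) *ᵥ vv (φ x.1⁻¹ q).1) = vv (φ x.1⁻¹ q).1 := by
    rw [Matrix.mulVec_mulVec, coe_inv_mul, Matrix.one_mulVec]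
  rw [h1, Matrix.mulVec_smul] at h2
  rw [← h2, smul_smul, inv_mul_cancel₀ hl, one_smul]

/-- every nonzero vector is proportional to a table vector -/
theorem cover (v : Fin 2 ⊕ Fin 2 → F4) (hv0 : v ≠ 0) :
    ∃ q : Om L, OB q.1 = 3 ∧ ∃ l : F4, l ≠ 0 ∧ v = l • vv q.1 := by
  obtain ⟨a, ha, rfl⟩ := exists_sv v
  have h3 := allR_sound IS 8 0 is_chk a (Nat.zero_le _) (by simpa using ha)
  unfold IS at h3
  cases h4 : Nat.beq a 0
  · rw [h4] at h3
    have h5 : band (Nat.beq (OB (W a)) 3) (band (mem L (W a)) (prC 4 a (VT (W a)))) = true := h3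
    rw [band_iff, band_iff] at h5
    exact ⟨⟨W a, mem_sound h5.2.1⟩, Nat.eq_of_beq_eq_true h5.1, prS h5.2.2⟩
  · exfalso
    apply hv0
    rw [Nat.eq_of_beq_eq_true h4]
    decide

theorem sq1 : ∀ x : F4, x ^ 2 = 1 → x = 1 := by decide

theorem scalar_one (s : SP) (h : ∀ v : Fin 2 ⊕ Fin 2 → F4, v ≠ 0 → ∃ l : F4, (s : Mx) *ᵥ v = l • v) : s = 1 := by
  obtain ⟨a, ha⟩ := (spToLin s : (Fin 2 ⊕ Fin 2 → F4) →ₗ[F4] (Fin 2 ⊕ Fin 2 → F4)).exists_eq_smul_id_of_forall_notLinearIndependent (fun v => by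
    by_cases hv : v = 0
    · subst hv
      intro h
      exact (h.ne_zero 0) rfl
    · rw [LinearIndependent.pair_iff' hv]
      push Not
      obtain ⟨l, hl⟩ := h v hv
      exact ⟨l, hl.symm⟩)
  have h1 : (s : Mx) = a • 1 := by
    apply mat_ext_mulVec
    intro v
    have := LinearMap.congr_fun ha v
    rw [Matrix.smul_mulVec, Matrix.one_mulVec]
    exact this
  have h2 : a ^ 2 = 1 := by
    rw [← smul_one_mem_sp_iff (m := 2) (by norm_num), ← h1]
    exact s.2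
  apply Subtype.ext
  rw [h1, sq1 a h2, one_smul]
  rfl

theorem compat_uniq {x : H} {s t : SP} (hs : compat x s) (ht : compat x t) : s = t := by
  have h1 : compat (x⁻¹ * x) (s⁻¹ * t) := compat_mul (compat_inv hs) ht
  rw [inv_mul_cancel] at h1
  have h2 : s⁻¹ * t = 1 := by
    apply scalar_one
    intro v hv
    obtain ⟨q, hq, l, hl, rfl⟩ := cover v hv
    obtain ⟨l', _, h3⟩ := h1 q hq
    have h4 : φ ((1 : H) : He) q = q := by
      show φ (1 : He) q = q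
      rw [map_one, Equiv.Perm.one_apply]
    rw [h4] at h3
    refine ⟨l', ?_⟩
    rw [Matrix.mulVec_smul, h3, smul_comm]
  rw [← mul_one s, ← h2, mul_inv_cancel_left]

/-- the linear part -/
def N : Subgroup H where
  carrier := {h | ∃ s, compat h s}
  one_mem' := ⟨1, compat_one⟩
  mul_mem' := by
    rintro x y ⟨s, hs⟩ ⟨t, ht⟩
    exact ⟨s * t, compat_mul hs ht⟩
  inv_mem' := by
    rintro x ⟨s, hs⟩
    exact ⟨s⁻¹, compat_inv hs⟩

noncomputable def f : N →* SP where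
  toFun x := Classical.choose x.2
  map_one' := compat_uniq (Classical.choose_spec (1 : N).2) compat_one
  map_mul' x y := compat_uniq (Classical.choose_spec (x * y).2) (compat_mul (Classical.choose_spec x.2) (Classical.choose_spec y.2))
theorem f_spec (x : N) : compat x.1 (f x) := Classical.choose_spec x.2
theorem f_eq {x : N} {s : SP} (h : compat x.1 s) : f x = s := compat_uniq (f_spec x) h

theorem gen_mem (c : C5) : spT (sv (un c)) 1 ∈ f.range := ⟨⟨hg c, _, compat_gen c⟩, f_eq (x := ⟨hg c, _, compat_gen c⟩) (compat_gen c)⟩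

/-! ### surjectivity -/

theorem S_step (c : C5) (a : ℕ) (h : spT (sv a) (1 : F4) ∈ f.range) : spT (sv (trS (un c) a)) (1 : F4) ∈ f.range := by
  have h1 := f.range.mul_mem (f.range.mul_mem (gen_mem c) h) (f.range.inv_mem (gen_mem c))
  rw [spT_conj, coe_spT, ← sv_trS] at h1
  exact h1

theorem S_run (w : ℕ) : ∀ m, spT (sv (run w m)) (1 : F4) ∈ f.range := by
  intro m
  induction m with
  | zero => exact gen_mem .x0
  | succ k ih =>
    show spT (sv (stepN (Nat.mod (Nat.div w (Nat.pow 8 k)) 8) (run w k))) (1 : F4) ∈ f.range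
    rcases stepN_or (Nat.mod (Nat.div w (Nat.pow 8 k)) 8) (run w k) with h | ⟨c, h⟩
    · rw [h]; exact ih
    · rw [h]; exact S_step c _ ih

theorem S_all (v : Fin 2 ⊕ Fin 2 → F4) (hv0 : v ≠ 0) : spT v (1 : F4) ∈ f.range := by
  obtain ⟨a, ha, rfl⟩ := exists_sv v
  have h3 := allR_sound RU 8 0 ru_chk a (Nat.zero_le _) (by simpa using ha)
  unfold RU at h3
  cases h4 : Nat.beq a 0
  · rw [h4] at h3
    have h5 := Nat.eq_of_beq_eq_true h3
    rw [← h5]
    exact S_run _ _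
  · exfalso
    apply hv0
    rw [Nat.eq_of_beq_eq_true h4]
    decide

theorem sqrt4 : ∀ c : F4, c ≠ 0 → c ^ 2 ≠ 0 ∧ (1 : F4) * (c ^ 2) ^ 2 = c := by decide

theorem f_surj : Function.Surjective f := by
  rw [← MonoidHom.range_eq_top, eq_top_iff, ← spTransGrp_eq_top (m := 2) (F := F4)]
  unfold spTransGrp
  rw [Subgroup.closure_le]
  rintro A ⟨v, c, hA⟩
  have hA' : A = spT v c := Subtype.ext hA
  subst hA'
  by_cases hv0 : v = 0
  · have : spT v c = 1 := by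
      apply sp_ext'
      intro x
      rw [coe_spT, sympTransvection_mulVec, hv0, smul_zero, add_zero]
      show x = (1 : Mx) *ᵥ x
      rw [Matrix.one_mulVec]
    rw [this]; exact f.range.one_mem
  by_cases hc0 : c = 0
  · rw [hc0, spT_zero]; exact f.range.one_mem
  have h1 : spT v c = spT (c ^ 2 • v) 1 := by
    apply Subtype.ext
    rw [coe_spT, coe_spT, sympTransvection_smul, (sqrt4 c hc0).2]
  rw [h1]
  exact S_all _ (smul_ne_zero (sqrt4 c hc0).1 hv0)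

/-! ### the semilinear letter -/

theorem hp_not : hp ∉ N := by
  rintro ⟨s, hs⟩
  have key : ∀ p : ℕ, mem L p = true → OB p = 3 → ∃ l : F4, l ≠ 0 ∧ (s : Mx) *ᵥ sv (VT p) = l • sv (VT (walk stp wp p)) := by
    intro p h1 h2
    obtain ⟨l, hl, h3⟩ := hs ⟨p, mem_sound h1⟩ h2
    refine ⟨l, hl, ?_⟩
    have h4 : (φ (gw P wp) ⟨p, mem_sound h1⟩).1 = walk stp wp p := phi_gw closed φ P φ_P wp ⟨p, mem_sound h1⟩
    rw [← h4]
    exact h3
  obtain ⟨m1, m2, m3, m4⟩ := pt_mem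
  obtain ⟨o1, o2, o3, o4⟩ := pt_ob
  obtain ⟨v1, v2, v3, v4⟩ := pt_vt
  obtain ⟨i1, i2, i3, i4⟩ := pt_im
  obtain ⟨l1, hl1, e1⟩ := key _ m1 o1
  obtain ⟨l2, hl2, e2⟩ := key _ m2 o2
  obtain ⟨l3, hl3, e3⟩ := key _ m3 o3
  obtain ⟨l4, hl4, e4⟩ := key _ m4 o4
  rw [v1, i1] at e1
  rw [v2, i2] at e2
  rw [v3, i3] at e3
  nth_rewrite 1 [e_sum] at e3
  rw [Matrix.mulVec_add, e1, e2] at e3
  rw [v4, i4] at e4
  nth_rewrite 1 [e_sum2] at e4
  rw [Matrix.mulVec_add, Matrix.mulVec_smul, e1, e2, smul_smul] at e4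
  exact semi l1 l2 l3 l4 hl1 hl2 hl3 hl4 e3.symm e4.symm

theorem card_SP : Nat.card SP = 979200 := by
  rw [card_sp, F4.card]
  decide

theorem card_H : Nat.card H = 1958400 := by
  have h := Subgroup.card_mul_index H
  rw [main.1, order_main.1] at h
  omega

theorem fin : N.index = 2 ∧ Function.Injective f := by
  have h1 := Subgroup.card_mul_index N
  have h2 := Subgroup.card_mul_index f.ker
  have h3 : f.ker.index = 979200 := by
    rw [← card_SP]
    exact Nat.card_congr (QuotientGroup.quotientKerEquivOfSurjective f f_surj).toEquiv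
  rw [h3] at h2
  rw [card_H] at h1
  have h4 : N.index ≠ 1 := by
    intro h
    apply hp_not
    rw [Subgroup.index_eq_one.1 h]; trivial
  rw [← h2] at h1
  have h5 : Nat.card f.ker * N.index = 2 := by
    have : (Nat.card f.ker * N.index) * 979200 = 2 * 979200 := by rw [show (2 * 979200 : ℕ) = 1958400 from rfl, ← h1]; ring
    exact Nat.eq_of_mul_eq_mul_right (by norm_num) this
  have h6 : Nat.card f.ker ∣ 2 := ⟨_, h5.symm⟩
  rcases (Nat.dvd_prime Nat.prime_two).1 h6 with h | h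
  · rw [h, one_mul] at h5
    refine ⟨h5, ?_⟩
    rw [← MonoidHom.ker_eq_bot_iff]
    exact Subgroup.card_eq_one.1 h
  · exfalso
    rw [h] at h5
    omega

theorem result_main : ∃ (N : Subgroup H) (K : Type) (_ : Field K) (_ : Fintype K), N.Normal ∧ N.index = 2 ∧ Fintype.card K = 4 ∧ Nonempty (N ≃* Matrix.symplecticGroup (Fin 2) K) :=
  ⟨N, F4, inferInstance, inferInstance, Subgroup.normal_of_index_eq_two fin.1, fin.1, F4.card, ⟨MulEquiv.ofBijective f ⟨fin.2, f_surj⟩⟩⟩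

end CfsgLib.TCHeU
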