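import Cfsg.Agent.EqBase
import Cfsg.Agent.LibTCSuzG4
import Cfsg.Agent.LibChevCard2
import Cfsg.Agent.LibChevPoinT
import Cfsg.Agent.LibChevSmith
set_option autoImplicit false
set_option linter.all false
set_option maxRecDepth 1000000

/-! The subgroup `G₂(4)` of the Suzuki group: the isomorphism. -/

namespace CfsgLib.TCSuzG4
open CfsgLib.TC CfsgLib.MC Cfsg.Spor CfsgLib.TCG_Suz CfsgLib.TCSuz CfsgLib.F4c Cfsg Cfsg.Lie Matrix
open CfsgLib.Chev (good3_G2 ocnn_G2 poin_G2 smith_G2 tG2 x_eq Good3)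

abbrev GG : Subgroup (GL chevG2.Idx F4) := chevG2.group F4

theorem card_GG : Nat.card GG = 251596800 := by
  have h := good3_G2.card_formula (F := F4) ocnn_G2 poin_G2 smith_G2 rfl
  have h2 : tG2.n / 2 = 6 := rfl
  rw [h2] at h
  have n2 : Int.natAbs 2 = 2 := rfl
  have n3 : Int.natAbs 3 = 3 := rfl
  simp only [List.map_cons, List.map_nil, List.prod_cons, List.prod_nil, mul_one, Int.natAbs_neg, Int.natAbs_one,
    Nat.gcd_one_left, one_mul, n2, n3, F4.card] at h
  rw [show 251596800 = 4 ^ 6 * ((4 ^ 2 - 1) * (4 ^ 6 - 1)) from by norm_num]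
  exact h

/-! ### root elements -/

/-- reindexed matrix -/
noncomputable def co : GL chevG2.Idx F4 →* Matrix (Fin 14) (Fin 14) F4 where
  toFun g := (g : Matrix chevG2.Idx chevG2.Idx F4).submatrix ofF ofF
  map_one' := by
    rw [Units.val_one]
    exact Matrix.submatrix_one_equiv eI.symm
  map_mul' g h := by
    rw [Units.val_mul]
    exact (Matrix.submatrix_mul_equiv (g : Matrix chevG2.Idx chevG2.Idx F4) (h : Matrix chevG2.Idx chevG2.Idx F4) ofF eI.symm ofF).symm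

noncomputable def gX (c : Fin 48) : GL chevG2.Idx F4 := good3_G2.X (c.1 / 4) (ι4 (c.1 % 4))

theorem gX_mem (c : Fin 48) : gX c ∈ GG := by
  apply Subgroup.subset_closure
  have h : c.1 / 4 < 12 := by have := c.2; omega
  refine ⟨⟨c.1 / 4, h⟩, ι4 (c.1 % 4), ?_⟩
  unfold gX
  rw [Good3.X_val, x_eq (show c.1 / 4 < chevG2.nroots from h)]

theorem co_gX (c : Fin 48) : co (gX c) = toM 4 ι4 14 (mX c) := by
  have h : c.1 / 4 < 12 := by have := c.2; omega
  have h4 : c.1 % 4 < 4 := Nat.mod_lt _ (by norm_num)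
  funext i j
  have h1 := xm_chk ⟨c.1 / 4, h⟩ ⟨c.1 % 4, h4⟩ i j
  have h2 : Nat.add (Nat.mul 4 (c.1 / 4)) (c.1 % 4) = c.1 := Nat.div_add_mod c.1 4
  rw [h2] at h1
  show (gX c : Matrix chevG2.Idx chevG2.Idx F4) (ofF i) (ofF j) = _
  unfold gX
  rw [Good3.X_val, x_eq (show c.1 / 4 < chevG2.nroots from h)]
  exact h1

noncomputable def gM (c : C6) : GG := ⟨gw gX (wl c), by
  generalize wl c = w
  induction w with
  | nil => exact GG.one_mem
  | cons x w ih => rw [gw_cons]; exact GG.mul_mem ih (gX_mem x)⟩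

theorem co_gM (c : C6) : co (gM c).1 = toM 4 ι4 14 (mc c) := by
  show co (gw gX (wl c)) = _
  rw [gwC_spec cod4 co gX mX co_gX (wl c)]
  have h := (lall_iff _ _).1 mc_chk c (hcs6 c)
  rw [Nat.eq_of_beq_eq_true h]

/-! ### vectors -/

theorem dig_xor (a b t : ℕ) : dig 4 (Nat.xor a b) t = Nat.xor (dig 4 a t) (dig 4 b t) := by
  show (a ^^^ b) / 4 ^ t % 4 = (a / 4 ^ t % 4) ^^^ (b / 4 ^ t % 4)
  have e : (4 : ℕ) ^ t = 2 ^ (2 * t) := by rw [pow_mul]; norm_num
  rw [e, ← Nat.shiftRight_eq_div_pow, ← Nat.shiftRight_eq_div_pow, ← Nat.shiftRight_eq_div_pow, Nat.shiftRight_xor_distrib]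
  exact Nat.xor_mod_two_pow (n := 2)

theorem allN_iff (n : ℕ) (f : ℕ → Bool) : allN n f = true ↔ ∀ k < n, f k = true := by
  induction n with
  | zero => exact ⟨fun _ k hk => absurd hk (Nat.not_lt_zero _), fun _ => rfl⟩
  | succ n ih =>
    have h : allN (n+1) f = band (f n) (allN n f) := rfl
    rw [h, band_iff, ih]
    constructor
    · rintro ⟨h1, h2⟩ k hk
      rcases Nat.lt_succ_iff_lt_or_eq.1 hk with h3 | h3
      · exact h2 k h3
      · rw [h3]; exact h1
    · intro h1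
      exact ⟨h1 n (Nat.lt_succ_self n), fun k hk => h1 k (Nat.lt_succ_of_lt hk)⟩

theorem mvX_aux (tab m : ℕ) (h : colChk tab m = true) (a i : ℕ) (hi : i < 14) : ∀ n ≤ 14,
    ι4 (dig 4 (Nat.rec (motive := fun _ => ℕ) 0 (fun k ih => Nat.xor ih (ent tab k (dig 4 a k))) n) i) =
      ∑ k ∈ Finset.range n, ι4 (dig 4 m (14 * i + k)) * ι4 (dig 4 a k) := by
  intro n
  induction n with
  | zero =>
    intro _
    rw [Finset.sum_range_zero]
    show ι4 (0 / _ % 4) = 0
    rw [Nat.zero_div]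
    rfl
  | succ n ih =>
    intro hn
    rw [Finset.sum_range_succ, ← ih (by omega)]
    have h1 := (allN_iff _ _).1 ((allN_iff _ _).1 ((allN_iff _ _).1 h n (by omega)) (dig 4 a n) (dig4_lt' _ _)) i hi
    have h2 := Nat.eq_of_beq_eq_true h1
    have h3 := cod4.hmul (dig 4 m (14 * i + n)) (dig 4 a n) (dig4_lt' _ _) (dig4_lt' _ _)
    have h4 : dig 4 (ent tab n (dig 4 a n)) i = mul4 (dig 4 m (14 * i + n)) (dig 4 a n) := h2
    rw [← h3.2, ← h4]
    have h5 := cod4.hadd (dig 4 (Nat.rec (motive := fun _ => ℕ) 0 (fun k ih => Nat.xor ih (ent tab k (dig 4 a k))) n) i)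
      (dig 4 (ent tab n (dig 4 a n)) i) (dig4_lt' _ _) (dig4_lt' _ _)
    rw [← h5.2]
    show ι4 (dig 4 (Nat.xor _ _) i) = ι4 (Nat.xor _ _)
    rw [dig_xor]
where dig4_lt' (a t : ℕ) : dig 4 a t < 4 := Nat.mod_lt _ (by norm_num)

theorem dig4_lt' (a t : ℕ) : dig 4 a t < 4 := Nat.mod_lt _ (by norm_num)

/-- vector with a given code -/
noncomputable def sv (a : ℕ) : chevG2.Idx → F4 := fun i => ι4 (dig 4 a (toF i).1)

theorem mulVec_sv (M : Matrix chevG2.Idx chevG2.Idx F4) (m tab a : ℕ) (hM : M.submatrix ofF ofF = toM 4 ι4 14 m)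
    (h : colChk tab m = true) : M *ᵥ sv a = sv (mvX tab a) := by
  funext i
  have h1 := mvX_aux tab m h a (toF i).1 (toF i).2 14 le_rfl
  show _ = ι4 (dig 4 (mvX tab a) (toF i).1)
  rw [show ι4 (dig 4 (mvX tab a) (toF i).1) = _ from h1, Finset.sum_range]
  show ∑ j, M i j * sv a j = _
  rw [← Equiv.sum_comp eI.symm]
  refine Finset.sum_congr rfl fun k _ => ?_
  have h2 := congrFun (congrFun hM (toF i)) k
  have h3 : M (ofF (toF i)) (ofF k) = ι4 (dig 4 m (14 * (toF i).1 + k.1)) := h2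
  rw [ofF_toF] at h3
  show M i (ofF k) * ι4 (dig 4 a (toF (ofF k)).1) = _
  rw [h3, toF_ofF]

theorem omega_sv (a : ℕ) : sv (mvX tw a) = F4.w • sv a := by
  rw [← mulVec_sv (F4.w • (1 : Matrix chevG2.Idx chevG2.Idx F4)) (scC 4 14 2) tw a ?_ colw_chk, Matrix.smul_mulVec, Matrix.one_mulVec]
  rw [toM_sc cod4 (by norm_num)]
  rw [← Matrix.submatrix_one_equiv eI.symm]
  rfl

theorem sv_xor (a b : ℕ) : sv (Nat.xor a b) = sv a + sv b := by
  funext i
  show ι4 (dig 4 (Nat.xor a b) _) = ι4 _ + ι4 _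
  rw [dig_xor, ← (cod4.hadd _ _ (dig4_lt' _ _) (dig4_lt' _ _)).2]
  rfl

theorem prQ_sound {x a : ℕ} (h : prQ x a = true) : ∃ l : F4, l ≠ 0 ∧ sv x = l • sv a := by
  unfold prQ at h
  cases h1 : Nat.beq x a
  · rw [h1] at h
    cases h2 : Nat.beq x (mvX tw a)
    · rw [h2] at h
      have h3 : x = Nat.xor a (mvX tw a) := Nat.eq_of_beq_eq_true h
      refine ⟨F4.v, by decide, ?_⟩
      rw [h3, sv_xor, omega_sv]
      funext i
      show sv a i + F4.w * sv a i = F4.v * sv a i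
      generalize sv a i = y
      revert y
      decide
    · exact ⟨F4.w, by decide, by rw [Nat.eq_of_beq_eq_true h2, omega_sv]⟩
  · exact ⟨1, one_ne_zero, by rw [Nat.eq_of_beq_eq_true h1, one_smul]⟩

noncomputable abbrev vv (q : ℕ) : chevG2.Idx → F4 := sv (VT q)

theorem ι4_inj : ∀ a b : ℕ, a < 4 → b < 4 → ι4 a = ι4 b → a = b := by
  intro a b ha hb
  interval_cases a <;> interval_cases b <;> decide

theorem dif_sound {l a b : ℕ} (hl : l < 4) (h : dif l a b = true) : sv a ≠ ι4 l • sv b := by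
  intro he
  have key : ∀ n ≤ 14, Nat.rec (motive := fun _ => Bool) false (fun k ih => Bool.rec (motive := fun _ => Bool) true ih (Nat.beq (dig 4 a k) (mul4 l (dig 4 b k)))) n = false := by
    intro n
    induction n with
    | zero => intro _; rfl
    | succ n ih =>
      intro hn
      have h1 := congrFun he (ofF ⟨n, by omega⟩)
      have h2 : ι4 (dig 4 a n) = ι4 l * ι4 (dig 4 b n) := by
        have : sv a (ofF ⟨n, by omega⟩) = ι4 l * sv b (ofF ⟨n, by omega⟩) := h1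
        unfold sv at this
        rwa [toF_ofF] at this
      have h3 := cod4.hmul l (dig 4 b n) hl (dig4_lt' _ _)
      rw [← h3.2] at h2
      have h4 := ι4_inj _ _ (dig4_lt' _ _) h3.1 h2
      have h5 : Nat.beq (dig 4 a n) (mul4 l (dig 4 b n)) = true := by rw [h4]; exact Nat.beq_refl _
      show Bool.rec (motive := fun _ => Bool) true _ (Nat.beq (dig 4 a n) (mul4 l (dig 4 b n))) = false
      rw [h5]
      exact ih (by omega)
  have := key 14 le_rfl
  unfold dif at h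
  rw [this] at h
  exact absurd h (by simp)

theorem uq_sound (b : ℕ) (h : Tr.all (UQ b) L = true) (q : Om L) (hq : OB q.1 = 2) (l : F4) (hl : l ≠ 0)
    (he : vv b = l • vv q.1) : q.1 = b := by
  have h1 := (Tr.all_iff _ _).1 h q.1 q.2
  unfold UQ at h1
  rw [hq] at h1
  have h2 : Bool.rec (motive := fun _ => Bool) (band (dif 1 (VT b) (VT q.1)) (band (dif 2 (VT b) (VT q.1)) (dif 3 (VT b) (VT q.1)))) true (Nat.beq q.1 b) = true := h1
  cases h3 : Nat.beq q.1 b
  · rw [h3] at h2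
    have h4 : band (dif 1 (VT b) (VT q.1)) (band (dif 2 (VT b) (VT q.1)) (dif 3 (VT b) (VT q.1))) = true := h2
    rw [band_iff, band_iff] at h4
    exfalso
    match l, hl, he with
    | .z, hl, _ => exact hl rfl
    | .o, _, he => exact dif_sound (l := 1) (by norm_num) h4.1 he
    | .w, _, he => exact dif_sound (l := 2) (by norm_num) h4.2.1 he
    | .v, _, he => exact dif_sound (l := 3) (by norm_num) h4.2.2 he
  · exact Nat.eq_of_beq_eq_true h3

/-! ### the correspondence -/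

theorem wd_mem (c : C6) : wd c ∈ SW0 := by
  cases c <;> simp [wd, SW0]
noncomputable def hg (c : C6) : H := ⟨gw P (wd c), H_SW _ (wd_mem c)⟩

def Γ : Subgroup (H × GG) := Subgroup.closure (Set.range fun c => (hg c, gM c))

theorem ob_inv (h : H) (q : Om L) : OB (φ h.1 q).1 = OB q.1 :=
  inv_sound closed φ P φ_P H (le_of_eq H_eq) sub_inv h.1 h.2 q

abbrev mt (s : GG) : Matrix chevG2.Idx chevG2.Idx F4 := (s.1 : Matrix chevG2.Idx chevG2.Idx F4)
theorem mt_one : mt 1 = 1 := rfl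
theorem mt_mul (s t : GG) : mt (s * t) = mt s * mt t := rfl
theorem mt_inv (s : GG) : mt s⁻¹ * mt s = 1 := by rw [← mt_mul, inv_mul_cancel, mt_one]

def compat (x : H × GG) : Prop := ∀ q : Om L, OB q.1 = 2 → ∃ l : F4, l ≠ 0 ∧ mt x.2 *ᵥ vv q.1 = l • vv (φ x.1.1 q).1

theorem compat_of_mem : ∀ x ∈ Γ, compat x := by
  intro x hx
  unfold Γ at hx
  induction hx using Subgroup.closure_induction with
  | mem x hx =>
    obtain ⟨c, rfl⟩ := hx
    intro q hq
    have h1 := (Tr.all_iff _ _).1 eq_chk q.1 q.2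
    unfold EQ at h1
    rw [hq] at h1
    have h2 := (lall_iff _ _).1 h1 c (hcs6 c)
    obtain ⟨l, hl, h3⟩ := prQ_sound h2
    refine ⟨l, hl, ?_⟩
    rw [mulVec_sv (mt (gM c)) (mc c) (tb c) (VT q.1) (co_gM c) ((lall_iff _ _).1 col_chk c (hcs6 c)), h3]
    congr 2
    have h4 : (φ (gw P (wd c)) q).1 = walk stp (wd c) q.1 := phi_gw closed φ P φ_P (wd c) q
    show VT _ = VT _
    rw [← h4]
    rfl
  | one =>
    intro q hq
    refine ⟨1, one_ne_zero, ?_⟩
    show mt 1 *ᵥ vv q.1 = (1 : F4) • vv (φ 1 q).1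
    rw [mt_one, Matrix.one_mulVec, one_smul, map_one, Equiv.Perm.one_apply]
  | mul x y _ _ hx hy =>
    intro q hq
    obtain ⟨l, hl, h1⟩ := hy q hq
    obtain ⟨l', hl', h2⟩ := hx (φ y.1.1 q) (by rw [ob_inv]; exact hq)
    refine ⟨l * l', mul_ne_zero hl hl', ?_⟩
    show mt (x.2 * y.2) *ᵥ vv q.1 = (l * l') • vv (φ (x.1.1 * y.1.1) q).1
    rw [mt_mul, ← Matrix.mulVec_mulVec, h1, Matrix.mulVec_smul, h2, smul_smul, map_mul, Equiv.Perm.mul_apply]
  | inv x _ hx =>
    intro q hq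
    have e : φ x.1.1 (φ x.1.1⁻¹ q) = q := by
      rw [← Equiv.Perm.mul_apply, ← map_mul, mul_inv_cancel, map_one, Equiv.Perm.one_apply]
    obtain ⟨l, hl, h1⟩ := hx (φ x.1.1⁻¹ q) (by
      have := ob_inv x.1⁻¹ q
      rw [← hq]; exact this)
    rw [e] at h1
    refine ⟨l⁻¹, inv_ne_zero hl, ?_⟩
    show mt x.2⁻¹ *ᵥ vv q.1 = l⁻¹ • vv (φ x.1.1⁻¹ q).1
    have h2 : mt x.2⁻¹ *ᵥ (mt x.2 *ᵥ vv (φ x.1.1⁻¹ q).1) = vv (φ x.1.1⁻¹ q).1 := by
      rw [Matrix.mulVec_mulVec, mt_inv, Matrix.one_mulVec]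
    rw [h1, Matrix.mulVec_smul] at h2
    rw [← h2, smul_smul, inv_mul_cancel₀ hl, one_smul]

theorem exists_snd (h : H) : ∃ s : GG, (h, s) ∈ Γ := by
  have key : ∀ x ∈ Subgroup.closure {x | ∃ w ∈ SW0, gw P w = x}, ∀ hx : x ∈ H, ∃ s : GG, ((⟨x, hx⟩ : H), s) ∈ Γ := by
    intro x hx
    induction hx using Subgroup.closure_induction with
    | mem x hx =>
      obtain ⟨w, hw, rfl⟩ := hx
      intro hx
      have hc : ∃ c : C6, wd c = w := by
        simp only [SW0, List.mem_cons, List.not_mem_nil, or_false] at hw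
        rcases hw with rfl | rfl | rfl | rfl | rfl | rfl
        exacts [⟨.a, rfl⟩, ⟨.b, rfl⟩, ⟨.c, rfl⟩, ⟨.d, rfl⟩, ⟨.e, rfl⟩, ⟨.f, rfl⟩]
      obtain ⟨c, rfl⟩ := hc
      exact ⟨gM c, Subgroup.subset_closure ⟨c, rfl⟩⟩
    | one => intro hx; exact ⟨1, Subgroup.one_mem _⟩
    | mul x y hx' hy' hx hy =>
      intro hxy
      have h1 : x ∈ H := by rw [H_eq]; exact hx'
      have h2 : y ∈ H := by rw [H_eq]; exact hy'
      obtain ⟨s, hs⟩ := hx h1
      obtain ⟨t, ht⟩ := hy h2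
      exact ⟨s * t, Subgroup.mul_mem _ hs ht⟩
    | inv x hx' hx =>
      intro hxi
      have h1 : x ∈ H := by rw [H_eq]; exact hx'
      obtain ⟨s, hs⟩ := hx h1
      exact ⟨s⁻¹, Subgroup.inv_mem _ hs⟩
  exact key h.1 (by rw [← H_eq]; exact h.2) h.2

theorem stab_bot (x : Suz) (hx : x ∈ stabN φ [34367, 32783, 32779, 32771]) : x = 1 := by
  by_contra hne
  have h4 : 2 ≤ Nat.card (stabN φ [34367, 32783, 32779, 32771]) := by
    have : Nontrivial (stabN φ [34367, 32783, 32779, 32771]) := ⟨⟨x, hx⟩, 1, fun h => hne (congrArg Subtype.val h)⟩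
    exact Finite.one_lt_card
  have h3 : 360 ≤ Nat.card (stabN φ [32783, 32779, 32771]) :=
    lev_step closed φ P φ_P [32783, 32779, 32771] 34367 Chain.bst3 Chain.sub3 (by decide +kernel) (by decide +kernel) Chain.tree3 h4 Chain.size3 (by norm_num)
  have h2 : 368640 ≤ Nat.card (stabN φ [32779, 32771]) :=
    lev_step closed φ P φ_P [32779, 32771] 32783 Chain.bst2 Chain.sub2 (by decide +kernel) (by decide +kernel) Chain.tree2 h3 Chain.size2 (by norm_num)
  have h1 : 503193600 ≤ Nat.card (stabN φ [32771]) :=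
    lev_step closed φ P φ_P [32771] 32779 Chain.bst1 Chain.sub1 (by decide +kernel) (by decide +kernel) Chain.tree1 h2 Chain.size1 (by norm_num)
  have h0 : 896690995200 ≤ Nat.card (stabN φ []) :=
    lev_step closed φ P φ_P [] 32771 bst_chk Chain.sub0 (by decide +kernel) (by decide +kernel) Chain.tree0 h1 size_L (by norm_num)
  have h5 : Nat.card (stabN φ []) ≤ Nat.card Suz := Subgroup.card_le_card_group _
  rw [order_main.1] at h5
  omega

theorem fst_one (h : H) (hx : (h, (1 : GG)) ∈ Γ) : h = 1 := by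
  apply Subtype.ext
  apply stab_bot
  intro b hb hbL
  have key : ∀ b : ℕ, Tr.all (UQ b) L = true → OB b = 2 → ∀ hbL : b ∈ L.toList, φ h.1 ⟨b, hbL⟩ = ⟨b, hbL⟩ := by
    intro b h1 h2 hbL
    obtain ⟨l, hl, h3⟩ := compat_of_mem _ hx ⟨b, hbL⟩ h2
    have h4 : vv b = l • vv (φ h.1 ⟨b, hbL⟩).1 := by
      have h5 : mt 1 *ᵥ vv b = l • vv (φ h.1 ⟨b, hbL⟩).1 := h3
      rwa [mt_one, Matrix.one_mulVec] at h5
    exact Subtype.ext (uq_sound b h1 _ (by rw [ob_inv]; exact h2) l hl h4)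
  obtain ⟨u1, u2, u3⟩ := uq_chk
  obtain ⟨o1, o2, o3⟩ := bp_ob
  simp only [List.mem_cons, List.not_mem_nil, or_false] at hb
  rcases hb with rfl | rfl | rfl | rfl
  · exact key _ u3 o3 hbL
  · exact key _ u2 o2 hbL
  · exact key _ u1 o1 hbL
  · exact (main.2.1 h.1).2 h.2

theorem card_H : Nat.card H = 251596800 := by
  have h := Subgroup.card_mul_index H
  rw [main.1, order_main.1] at h
  omega

noncomputable def π : Γ →* H := (MonoidHom.fst H GG).comp Γ.subtype
noncomputable def ρ : Γ →* GG := (MonoidHom.snd H GG).comp Γ.subtype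
theorem π_surj : Function.Surjective π := fun h => by
  obtain ⟨s, hs⟩ := exists_snd h
  exact ⟨⟨(h, s), hs⟩, rfl⟩
theorem ρ_inj : Function.Injective ρ := by
  rw [injective_iff_map_eq_one]
  rintro ⟨⟨h, s⟩, hx⟩ hs
  have hs' : s = 1 := hs
  subst hs'
  have := fst_one h hx
  subst this
  rfl

theorem iso_main : Nonempty (H ≃* GG) := by
  have fH : Finite H := Nat.finite_of_card_ne_zero (by rw [card_H]; norm_num)
  have fG : Finite GG := Nat.finite_of_card_ne_zero (by rw [card_GG]; norm_num)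
  have fΓ : Finite Γ := Finite.of_injective ρ ρ_inj
  have h1 : Nat.card H ≤ Nat.card Γ := Nat.card_le_card_of_surjective π π_surj
  have h2 : Nat.card Γ ≤ Nat.card GG := Nat.card_le_card_of_injective ρ ρ_inj
  rw [card_H] at h1
  rw [card_GG] at h2
  have h3 : Nat.card Γ = 251596800 := le_antisymm h2 h1
  have b1 : Function.Bijective π := (Nat.bijective_iff_surjective_and_card π).2 ⟨π_surj, by rw [h3, card_H]⟩
  have b2 : Function.Bijective ρ := (Nat.bijective_iff_injective_and_card ρ).2 ⟨ρ_inj, by rw [h3, card_GG]⟩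
  exact ⟨(MulEquiv.ofBijective π b1).symm.trans (MulEquiv.ofBijective ρ b2)⟩

theorem result_main : ∃ (K : Type) (_ : Field K) (_ : Fintype K), Fintype.card K = 4 ∧ Nonempty (H ≃* chevG2.group K) :=
  ⟨F4, inferInstance, inferInstance, F4.card, iso_main⟩

end CfsgLib.TCSuzG4
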