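import Cfsg.Agent.LibSolvCrit
import Cfsg.Agent.LibBenderMax
import Cfsg.Agent.LibCores

set_option autoImplicit false

/-! Abelian TI 2-subgroups in groups of characteristic 2 (helper8). -/

open Cfsg Subgroup
open scoped commutatorElement

namespace CfsgLib.TI8

variable {X : Type*} [Group X]

/-- `phi a d = d⁻¹ d^a`. -/
def phi (a d : X) : X := d⁻¹ * (a * d * a⁻¹)

theorem conj_eq (a d : X) : a * d * a⁻¹ = d * phi a d := by unfold phi; group

theorem phi_eq_one {a d : X} : phi a d = 1 ↔ a * d = d * a := by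
  unfold phi
  rw [inv_mul_eq_one]
  constructor
  · intro h
    conv_rhs => rw [h]
    group
  · intro h
    rw [h]; group

/-- Iterates of `phi` die in a `p`-group. -/
theorem phi_engel [Finite X] {p : ℕ} [Fact p.Prime] {P : Subgroup X} (hP : IsPGroup p P) {a d : X} (ha : a ∈ P)
    (hd : d ∈ P) : ∃ n, (phi a)^[n] d = 1 := by
  have hnil : Group.IsNilpotent P := hP.isNilpotent
  obtain ⟨n, hn⟩ := (Subgroup.isNilpotent_iff_lowerCentralSeries P).1 hnil
  have key : ∀ n, (phi a)^[n] d ∈ P.lowerCentralSeries n := by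
    intro n
    induction n with
    | zero => exact hd
    | succ n ih =>
      rw [Function.iterate_succ_apply']
      have h : phi a ((phi a)^[n] d) = ⁅((phi a)^[n] d)⁻¹, a⁆ := by
        simp only [commutatorElement_def, phi]
        group
      rw [h]
      exact commutator_mem_commutator (inv_mem ih) ha
  have h := key n
  rw [hn, mem_bot] at h
  exact ⟨n, h⟩

section TI

variable {A : Subgroup X}
  (hti : ∀ h : X, A.map (MulAut.conj h).toMonoidHom = A ∨ A.map (MulAut.conj h).toMonoidHom ⊓ A = ⊥)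
include hti

/-- An element commuting with a nontrivial element of `A` normalizes `A`. -/
theorem norm_of_comm {g y : X} (hy : y ∈ A) (hy1 : y ≠ 1) (h : g * y = y * g) :
    A.map (MulAut.conj g).toMonoidHom = A := by
  rcases hti g with h1 | h1
  · exact h1
  · exfalso
    apply hy1
    have : y ∈ A.map (MulAut.conj g).toMonoidHom ⊓ A := by
      refine ⟨⟨y, hy, ?_⟩, hy⟩
      show g * y * g⁻¹ = y
      rw [h]; group
    rwa [h1, mem_bot] at this

theorem conj_mem_of_comm {g y a : X} (hy : y ∈ A) (hy1 : y ≠ 1) (h : g * y = y * g) (ha : a ∈ A) :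
    g * a * g⁻¹ ∈ A := by
  have h1 := norm_of_comm hti hy hy1 h
  have : g * a * g⁻¹ ∈ A.map (MulAut.conj g).toMonoidHom := ⟨a, ha, rfl⟩
  rwa [h1] at this

theorem phi_mem_of_comm {g y a : X} (hy : y ∈ A) (hy1 : y ≠ 1) (h : g * y = y * g) (ha : a ∈ A) :
    phi a g ∈ A := by
  have h0 : g⁻¹ * y = y * g⁻¹ := by
    rw [inv_mul_eq_iff_eq_mul, ← mul_assoc, h]; group
  have h1 := conj_mem_of_comm hti hy hy1 h0 ha
  have h2 := A.mul_mem h1 (A.inv_mem ha)
  have h3 : phi a g = g⁻¹ * a * g⁻¹⁻¹ * a⁻¹ := by unfold phi; group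
  rwa [h3]

variable [Finite X] (hA2 : IsPGroup 2 A) (hAc : ∀ a ∈ A, ∀ b ∈ A, a * b = b * a)
  {Z : Subgroup X} (hZn : Z.Normal) (hZ2 : IsPGroup 2 Z) (hZc : ∀ a ∈ Z, ∀ b ∈ Z, a * b = b * a)
include hA2 hAc hZn hZ2 hZc

omit hti hAc hZc in
theorem engel {a d : X} (ha : a ∈ A) (hd : d ∈ Z) : ∃ n, (phi a)^[n] d = 1 := by
  haveI : Fact (Nat.Prime 2) := ⟨Nat.prime_two⟩
  have h : IsPGroup 2 (Z ⊔ A : Subgroup X) := hZ2.to_sup_of_normal_left hA2
  exact phi_engel h (le_sup_right (a := Z) ha) (le_sup_left (b := A) hd)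

omit hti hA2 hAc hZ2 hZc [Finite X] in
theorem phi_mem_Z {a d : X} (hd : d ∈ Z) : phi a d ∈ Z :=
  Z.mul_mem (Z.inv_mem hd) (hZn.conj_mem d hd a)

/-- If `A ∩ Z = 1` and some `a² ≠ 1`, then `a` centralizes `Z`. -/
theorem comm_Z (hAZ : ∀ x ∈ A, x ∈ Z → x = 1) {a : X} (ha : a ∈ A) (ha2 : a * a ≠ 1) :
    ∀ z ∈ Z, ∀ b ∈ A, b * z = z * b := by
  -- commuting with `a²` suffices
  have S0 : ∀ z ∈ Z, z * (a * a) = (a * a) * z → ∀ b ∈ A, phi b z = 1 := by
    intro z hz hc b hb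
    exact hAZ _ (phi_mem_of_comm hti (A.mul_mem ha ha) ha2 hc hb) (phi_mem_Z hZn hz)
  -- involutions
  have F : ∀ z ∈ Z, phi a z * phi a z = 1 → phi a (phi a z) = 1 → phi a z = 1 := by
    intro z hz h1 h2
    apply S0 z hz ?_ a ha
    have e1 := conj_eq a z
    have e2 := conj_eq a (phi a z)
    rw [h2, mul_one] at e2
    have e3 : (a * a) * z * (a * a)⁻¹ = z := by
      calc (a * a) * z * (a * a)⁻¹ = a * (a * z * a⁻¹) * a⁻¹ := by group
        _ = a * (z * phi a z) * a⁻¹ := by rw [e1]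
        _ = (a * z * a⁻¹) * (a * phi a z * a⁻¹) := by group
        _ = z * (phi a z * phi a z) := by rw [e1, e2, mul_assoc]
        _ = z := by rw [h1, mul_one]
    rw [mul_inv_eq_iff_eq_mul] at e3
    exact e3.symm
  have sqphi : ∀ z ∈ Z, phi a (z * z) = phi a z * phi a z := by
    intro z hz
    have hw := phi_mem_Z hZn (a := a) hz
    have e1 := conj_eq a z
    have : a * (z * z) * a⁻¹ = z * z * (phi a z * phi a z) := by
      calc a * (z * z) * a⁻¹ = (a * z * a⁻¹) * (a * z * a⁻¹) := by group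
        _ = z * (phi a z * z) * phi a z := by rw [e1]; group
        _ = z * z * (phi a z * phi a z) := by rw [hZc _ hw _ hz]; group
    rw [conj_eq] at this
    exact mul_left_cancel this
  have phi1 : phi a 1 = 1 := by unfold phi; group
  have sqit : ∀ n, ∀ z ∈ Z, z * z = 1 → (phi a)^[n] z * (phi a)^[n] z = 1 ∧ (phi a)^[n] z ∈ Z := by
    intro n
    induction n with
    | zero => intro z hz h; exact ⟨h, hz⟩
    | succ n ih =>
      intro z hz h
      rw [Function.iterate_succ_apply']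
      obtain ⟨h1, h2⟩ := ih z hz h
      refine ⟨?_, phi_mem_Z hZn h2⟩
      rw [← sqphi _ h2, h1, phi1]
  have desc : ∀ n, ∀ z ∈ Z, z * z = 1 → (phi a)^[n] z = 1 → phi a z = 1 := by
    intro n
    induction n with
    | zero => intro z hz h h1; have h1' : z = 1 := h1; rw [h1', phi1]
    | succ n ih =>
      intro z hz h h1
      rcases Nat.eq_zero_or_pos n with rfl | hn
      · exact h1
      · obtain ⟨m, rfl⟩ : ∃ m, n = m + 1 := ⟨n - 1, by omega⟩
        apply ih z hz h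
        obtain ⟨h2, h3⟩ := sqit m z hz h
        rw [Function.iterate_succ_apply', Function.iterate_succ_apply'] at h1
        rw [Function.iterate_succ_apply']
        apply F _ h3
        · rw [← sqphi _ h3, h2, phi1]
        · exact h1
  have inv : ∀ z ∈ Z, z * z = 1 → phi a z = 1 := by
    intro z hz h
    obtain ⟨n, hn⟩ := engel hA2 hZn hZ2 ha hz
    exact desc n z hz h hn
  have all : ∀ k, ∀ z ∈ Z, z ^ 2 ^ k = 1 → phi a z = 1 := by
    intro k
    induction k with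
    | zero => intro z hz h; rw [pow_zero, pow_one] at h; rw [h, phi1]
    | succ k ih =>
      intro z hz h
      have h1 : phi a (z * z) = 1 := by
        apply ih _ (Z.mul_mem hz hz)
        rw [← pow_two, ← pow_mul, ← pow_succ']; exact h
      rw [sqphi z hz] at h1
      have h2 := inv _ (phi_mem_Z hZn (a := a) hz) h1
      exact F z hz h1 h2
  intro z hz b hb
  obtain ⟨k, hk⟩ := hZ2 ⟨z, hz⟩
  have hk' : z ^ 2 ^ k = 1 := by simpa [Subtype.ext_iff] using hk
  have h1 := phi_eq_one.1 (all k z hz hk')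
  rw [← phi_eq_one]
  apply S0 z hz _ b hb
  calc z * (a * a) = (z * a) * a := by group
    _ = (a * z) * a := by rw [h1]
    _ = a * (z * a) := by group
    _ = a * (a * z) := by rw [h1]
    _ = (a * a) * z := by group

end TI

section Odd

theorem pow_conj {x d u : X} (h : x * d * x⁻¹ = d * u) (hu : x * u = u * x) (n : ℕ) :
    x ^ n * d * (x ^ n)⁻¹ = d * u ^ n := by
  induction n with
  | zero => simp
  | succ n ih =>
    have hu2 : x * u ^ n = u ^ n * x := (show Commute x u from hu).pow_right n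
    calc x ^ (n + 1) * d * (x ^ (n + 1))⁻¹ = x * (x ^ n * d * (x ^ n)⁻¹) * x⁻¹ := by rw [pow_succ']; group
      _ = x * (d * u ^ n) * x⁻¹ := by rw [ih]
      _ = (x * d * x⁻¹) * (x * u ^ n) * x⁻¹ := by group
      _ = (d * u) * (u ^ n * x) * x⁻¹ := by rw [h, hu2]
      _ = d * u ^ (n + 1) := by rw [pow_succ']; group

theorem odd_lemma {x d u : X} (hx : Odd (orderOf x)) (h : x * d * x⁻¹ = d * u) (hu : x * u = u * x) {k : ℕ}
    (hk : u ^ 2 ^ k = 1) : u = 1 := by
  have h1 := pow_conj h hu (orderOf x)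
  rw [pow_orderOf_eq_one, one_mul, inv_one, mul_one] at h1
  have h2 : u ^ orderOf x = 1 := by
    have : d * u ^ orderOf x = d * 1 := by rw [mul_one]; exact h1.symm
    exact mul_left_cancel this
  have h3 : orderOf u ∣ orderOf x := orderOf_dvd_of_pow_eq_one h2
  have h4 : orderOf u ∣ 2 ^ k := orderOf_dvd_of_pow_eq_one hk
  have h5 : Nat.Coprime (orderOf x) (2 ^ k) := (Nat.Coprime.pow_right k (Nat.coprime_two_right.2 hx))
  have h6 := Nat.eq_one_of_dvd_coprimes h5 h3 h4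
  exact orderOf_eq_one_iff.1 h6

end Odd

section Main

variable {A : Subgroup X}
  (hti : ∀ h : X, A.map (MulAut.conj h).toMonoidHom = A ∨ A.map (MulAut.conj h).toMonoidHom ⊓ A = ⊥)
  {D Z : Subgroup X} (hsq : ∀ d ∈ D, d * d ∈ Z) (hZcent : ∀ z ∈ Z, ∀ d ∈ D, d * z = z * d) (hDn : D.Normal)
include hDn hsq hZcent

omit hsq hZcent in
theorem phi_mem_D {a d : X} (hd : d ∈ D) : phi a d ∈ D := phi_mem_Z hDn hd

omit hZcent hDn in
theorem E {a : X} (haZ : ∀ z ∈ Z, a * z = z * a) {d : X} (hd : d ∈ D) : phi a d * d * phi a d = d := by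
  have e1 := conj_eq a d
  have h1 : d * (phi a d * d * phi a d) = d * d := by
    calc d * (phi a d * d * phi a d) = (d * phi a d) * (d * phi a d) := by group
      _ = (a * d * a⁻¹) * (a * d * a⁻¹) := by rw [e1]
      _ = a * (d * d) * a⁻¹ := by group
      _ = d * d := by rw [haZ _ (hsq d hd)]; group
  exact mul_left_cancel h1

omit hDn in
theorem four {s d : X} (hs : s ∈ D) (hd : d ∈ D) (h : s * d * s = d) : (s * s) * (s * s) = 1 := by
  have h1 : (s * s) * (s * s) * d = 1 * d := by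
    calc (s * s) * (s * s) * d = (s * s) * ((s * s) * d) := by group
      _ = (s * s) * (d * (s * s)) := by rw [hZcent _ (hsq s hs) d hd]
      _ = s * (s * d * s) * s := by group
      _ = s * d * s := by rw [h, h]
      _ = 1 * d := by rw [h, one_mul]
  exact mul_right_cancel h1

include hti

/-- The key computation. -/
theorem fact (hAc : ∀ a ∈ A, ∀ b ∈ A, a * b = b * a) (hAZ : ∀ x ∈ A, x ∈ Z → x = 1)
    (hAcZ : ∀ z ∈ Z, ∀ b ∈ A, b * z = z * b) {a : X} (ha : a ∈ A) (ha2 : a * a ≠ 1) {d : X} (hd : d ∈ D)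
    (hs : a * phi a (phi a d) = phi a (phi a d) * a) : phi a (phi a d) = 1 := by
  have haZ : ∀ z ∈ Z, a * z = z * a := fun z hz => hAcZ z hz a ha
  obtain ⟨w, hw⟩ : ∃ w, w = phi a d := ⟨_, rfl⟩
  have e1 := conj_eq a d
  have E1 := E hsq haZ hd
  have hwD : phi a d ∈ D := phi_mem_D hDn hd
  rw [← hw] at e1 E1 hwD hs ⊢
  obtain ⟨s, hs0⟩ : ∃ s, s = phi a w := ⟨_, rfl⟩
  have e2 := conj_eq a w
  have E2 := E hsq haZ hwD
  have hsD : phi a w ∈ D := phi_mem_D hDn hwD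
  rw [← hs0] at e2 E2 hsD hs ⊢
  have e3 : a * s * a⁻¹ = s := by rw [hs]; group
  have h1 : (w * s) * (d * w) * (w * s) = d * w := by
    calc (w * s) * (d * w) * (w * s) = (a * w * a⁻¹) * (a * d * a⁻¹) * (a * w * a⁻¹) := by rw [e1, e2]
      _ = a * (w * d * w) * a⁻¹ := by group
      _ = a * d * a⁻¹ := by rw [E1]
      _ = d * w := e1
  have hwwZ := hsq w hwD
  have hssZ := hsq s hsD
  have hc : s * (w * w) = (w * w) * s := hZcent _ hwwZ s hsD
  have h3 : w * (s * d * s) * w * w = d * w := by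
    calc w * (s * d * s) * w * w = w * s * d * (s * (w * w)) := by group
      _ = w * s * d * ((w * w) * s) := by rw [hc]
      _ = (w * s) * (d * w) * (w * s) := by group
      _ = d * w := h1
  have h4 : w * (s * d * s) * w = d := mul_right_cancel h3
  have E3 : s * d * s = d := by
    have h5 : w * (s * d * s) * w = w * d * w := by rw [h4, E1]
    exact mul_left_cancel (mul_right_cancel h5)
  have s4 := four hsq hZcent hsD hd E3
  have w4 := four hsq hZcent hwD hd E1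
  have b1 : (a * a) * w * (a * a)⁻¹ = w * (s * s) := by
    calc (a * a) * w * (a * a)⁻¹ = a * (a * w * a⁻¹) * a⁻¹ := by group
      _ = a * (w * s) * a⁻¹ := by rw [e2]
      _ = (a * w * a⁻¹) * (a * s * a⁻¹) := by group
      _ = w * (s * s) := by rw [e2, e3, mul_assoc]
  have b2 : (a * a) * s * (a * a)⁻¹ = s := by
    calc (a * a) * s * (a * a)⁻¹ = a * (a * s * a⁻¹) * a⁻¹ := by group
      _ = s := by rw [e3, e3]
  have b3 : (a * a) * d * (a * a)⁻¹ = d * (w * w) * s := by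
    calc (a * a) * d * (a * a)⁻¹ = a * (a * d * a⁻¹) * a⁻¹ := by group
      _ = a * (d * w) * a⁻¹ := by rw [e1]
      _ = (a * d * a⁻¹) * (a * w * a⁻¹) := by group
      _ = d * (w * w) * s := by rw [e1, e2]; group
  have b5 : (a * a) * (w * w) * (a * a)⁻¹ = w * w := by
    have : (a * a) * (w * w) = (w * w) * (a * a) := hAcZ _ hwwZ _ (A.mul_mem ha ha)
    rw [this]; group
  have b4 : ((a * a) * (a * a)) * d * ((a * a) * (a * a))⁻¹ = d * (s * s) := by
    calc ((a * a) * (a * a)) * d * ((a * a) * (a * a))⁻¹ = (a * a) * ((a * a) * d * (a * a)⁻¹) * (a * a)⁻¹ := by group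
      _ = (a * a) * (d * (w * w) * s) * (a * a)⁻¹ := by rw [b3]
      _ = ((a * a) * d * (a * a)⁻¹) * ((a * a) * (w * w) * (a * a)⁻¹) * ((a * a) * s * (a * a)⁻¹) := by group
      _ = d * (w * w) * (s * (w * w)) * s := by rw [b3, b5, b2]; group
      _ = d * ((w * w) * (w * w)) * (s * s) := by rw [hc]; group
      _ = d * (s * s) := by rw [w4, mul_one]
  have hsA : s ∈ A := by
    by_cases h : (a * a) * (a * a) = 1
    · have h6 : s * s = 1 := by
        rw [h] at b4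
        have : d * (s * s) = d * 1 := by rw [← b4]; group
        exact mul_left_cancel this
      rw [h6, mul_one, mul_inv_eq_iff_eq_mul] at b1
      rw [hs0]
      exact phi_mem_of_comm hti (A.mul_mem ha ha) ha2 b1.symm ha
    · have b6 : ((a * a) * (a * a)) * w * ((a * a) * (a * a))⁻¹ = w := by
        calc ((a * a) * (a * a)) * w * ((a * a) * (a * a))⁻¹ = (a * a) * ((a * a) * w * (a * a)⁻¹) * (a * a)⁻¹ := by group
          _ = (a * a) * (w * (s * s)) * (a * a)⁻¹ := by rw [b1]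
          _ = ((a * a) * w * (a * a)⁻¹) * ((a * a) * s * (a * a)⁻¹) * ((a * a) * s * (a * a)⁻¹) := by group
          _ = w * ((s * s) * (s * s)) := by rw [b1, b2]; group
          _ = w := by rw [s4, mul_one]
      rw [mul_inv_eq_iff_eq_mul] at b6
      rw [hs0]
      exact phi_mem_of_comm hti (A.mul_mem (A.mul_mem ha ha) (A.mul_mem ha ha)) h b6.symm ha
  have hss : s * s = 1 := hAZ _ (A.mul_mem hsA hsA) hssZ
  have hsd : d * s = s * d := by
    calc d * s = (s * d * s) * s := by rw [E3]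
      _ = s * d * (s * s) := by group
      _ = s * d := by rw [hss, mul_one]
  by_contra hs1
  have hwA : phi a d ∈ A := phi_mem_of_comm hti hsA hs1 hsd ha
  rw [← hw] at hwA
  apply hs1
  rw [hs0, phi_eq_one]
  exact hAc _ ha _ hwA

/-- In the case `A ∩ Z = 1`, `[D, a, a] = 1`. -/
theorem quad [Finite X] (hA2 : IsPGroup 2 A) (hD2 : IsPGroup 2 D) (hAc : ∀ a ∈ A, ∀ b ∈ A, a * b = b * a)
    (hAZ : ∀ x ∈ A, x ∈ Z → x = 1)
    (hAcZ : ∀ z ∈ Z, ∀ b ∈ A, b * z = z * b) {a : X} (ha : a ∈ A) (ha2 : a * a ≠ 1) {d : X} (hd : d ∈ D) :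
    phi a (phi a d) = 1 := by
  have mem : ∀ n, (phi a)^[n] d ∈ D := by
    intro n
    induction n with
    | zero => exact hd
    | succ n ih => rw [Function.iterate_succ_apply']; exact phi_mem_D hDn ih
  have desc : ∀ n, (phi a)^[n + 2] d = 1 → phi a (phi a d) = 1 := by
    intro n
    induction n with
    | zero => exact fun h => h
    | succ n ih =>
      intro h
      apply ih
      have h1 : phi a (phi a (phi a ((phi a)^[n] d))) = 1 := by
        rw [← Function.iterate_succ_apply' (phi a), ← Function.iterate_succ_apply' (phi a),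
          ← Function.iterate_succ_apply' (phi a)]
        exact h
      have h2 := fact hti hsq hZcent hDn hAc hAZ hAcZ ha ha2 (mem n) (phi_eq_one.1 h1)
      rw [Function.iterate_succ_apply', Function.iterate_succ_apply']
      exact h2
  obtain ⟨n, hn⟩ := engel hA2 hDn hD2 ha hd
  apply desc n
  rw [Function.iterate_succ_apply', Function.iterate_succ_apply', hn]
  simp [phi]

end Main

theorem phi_sq {a d : X} (h : a * phi a d = phi a d * a) : phi (a * a) d = phi a d * phi a d := by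
  have e1 := conj_eq a d
  have h1 : (a * a) * d * (a * a)⁻¹ = d * (phi a d * phi a d) := by
    calc (a * a) * d * (a * a)⁻¹ = a * (a * d * a⁻¹) * a⁻¹ := by group
      _ = a * (d * phi a d) * a⁻¹ := by rw [e1]
      _ = (a * d * a⁻¹) * (a * phi a d) * a⁻¹ := by group
      _ = (a * d * a⁻¹) * (phi a d * a) * a⁻¹ := by rw [h]
      _ = d * (phi a d * phi a d) := by rw [e1]; group
  rw [conj_eq] at h1
  exact mul_left_cancel h1

section Core

variable {Q D Z : Subgroup X} (hQn : Q.Normal) (hQ2 : IsPGroup 2 Q) (hDQ : D ≤ Q)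
  (hCQ : ∀ x : X, (∀ q ∈ Q, x * q = q * x) → x ∈ Q) (hCD : ∀ q ∈ Q, (∀ d ∈ D, q * d = d * q) → q ∈ D)
  (hDn : D.Normal) (hZn : Z.Normal) (hZD : Z ≤ D) (hZcent : ∀ z ∈ Z, ∀ d ∈ D, d * z = z * d)
include hQn hQ2 hDQ hCQ hCD hDn hZn hZD hZcent

theorem odd_triv {x : X} (hx : Odd (orderOf x)) (hinv : ∀ z ∈ Z, z * z = 1 → x * z = z * x)
    (hphi : ∀ d ∈ D, phi x d ∈ Z) : x = 1 := by
  have pw : ∀ q ∈ Q, ∃ k, q ^ 2 ^ k = 1 := by
    intro q hq
    obtain ⟨k, hk⟩ := hQ2 ⟨q, hq⟩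
    exact ⟨k, by simpa [Subtype.ext_iff] using hk⟩
  have s1 : ∀ k, ∀ z ∈ Z, z ^ 2 ^ k = 1 → x * z = z * x := by
    intro k
    induction k with
    | zero => intro z hz h; rw [pow_zero, pow_one] at h; rw [h]; simp
    | succ k ih =>
      intro z hz h
      have h1 : x * (z * z) = (z * z) * x := by
        apply ih _ (Z.mul_mem hz hz)
        rw [← pow_two, ← pow_mul, ← pow_succ']; exact h
      have hw := phi_mem_Z hZn (a := x) hz
      have e1 := conj_eq x z
      have h2 : (z * z) * (phi x z * phi x z) = (z * z) * 1 := by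
        calc (z * z) * (phi x z * phi x z) = z * (z * phi x z) * phi x z := by group
          _ = z * (phi x z * z) * phi x z := by rw [hZcent _ hw z (hZD hz)]
          _ = (z * phi x z) * (z * phi x z) := by group
          _ = (x * z * x⁻¹) * (x * z * x⁻¹) := by rw [e1]
          _ = x * (z * z) * x⁻¹ := by group
          _ = (z * z) * 1 := by rw [h1]; group
      have h3 : phi x z * phi x z = 1 := mul_left_cancel h2
      have h4 := hinv _ hw h3
      exact phi_eq_one.1 (odd_lemma hx e1 h4 (k := 1) (by rw [pow_one, pow_two]; exact h3))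
  have s1' : ∀ z ∈ Z, x * z = z * x := by
    intro z hz
    obtain ⟨k, hk⟩ := pw z (hDQ (hZD hz))
    exact s1 k z hz hk
  have s2 : ∀ d ∈ D, x * d = d * x := by
    intro d hd
    have hw := hphi d hd
    obtain ⟨k, hk⟩ := pw _ (hDQ (hZD hw))
    exact phi_eq_one.1 (odd_lemma hx (conj_eq x d) (s1' _ hw) hk)
  have s3 : ∀ q ∈ Q, x * q = q * x := by
    intro q hq
    have hu : phi x q ∈ Q := phi_mem_Z hQn hq
    have e1 := conj_eq x q
    have huD : phi x q ∈ D := by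
      apply hCD _ hu
      intro d hd
      have h1 : q * d * q⁻¹ ∈ D := hDn.conj_mem d hd q
      have h2 := s2 _ h1
      have h3 := s2 d hd
      have h4 : q * d * q⁻¹ = q * (phi x q * d * (phi x q)⁻¹) * q⁻¹ := by
        calc q * d * q⁻¹ = x * (q * d * q⁻¹) * x⁻¹ := by rw [h2]; group
          _ = (x * q * x⁻¹) * ((x * d) * x⁻¹) * (x * q * x⁻¹)⁻¹ := by group
          _ = (q * phi x q) * (d * x * x⁻¹) * (q * phi x q)⁻¹ := by rw [e1, h3]
          _ = q * (phi x q * d * (phi x q)⁻¹) * q⁻¹ := by group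
      have h5 : d = phi x q * d * (phi x q)⁻¹ := mul_left_cancel (mul_right_cancel h4)
      rw [eq_mul_inv_iff_mul_eq] at h5
      exact h5.symm
    obtain ⟨k, hk⟩ := pw _ hu
    exact phi_eq_one.1 (odd_lemma hx e1 (s2 _ huD) hk)
  have hxQ := hCQ x s3
  obtain ⟨k, hk⟩ := pw x hxQ
  have h4 : orderOf x ∣ 2 ^ k := orderOf_dvd_of_pow_eq_one hk
  have h5 : Nat.Coprime (orderOf x) (2 ^ k) := (Nat.Coprime.pow_right k (Nat.coprime_two_right.2 hx))
  exact orderOf_eq_one_iff.1 (Nat.eq_one_of_dvd_coprimes h5 dvd_rfl h4)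

theorem mem_core [Finite X] {x : X} (hinv : ∀ z ∈ Z, z * z = 1 → x * z = z * x)
    (hphi : ∀ d ∈ D, phi x d ∈ Z) : x ∈ pCore 2 X := by
  let K : Subgroup X :=
    { carrier := {x | (∀ z ∈ Z, z * z = 1 → x * z = z * x) ∧ ∀ d ∈ D, phi x d ∈ Z}
      one_mem' := ⟨fun z _ _ => by simp, fun d hd => by
        have : phi 1 d = 1 := by unfold phi; group
        rw [this]; exact Z.one_mem⟩
      mul_mem' := by
        rintro a b ⟨ha1, ha2⟩ ⟨hb1, hb2⟩
        refine ⟨fun z hz h => ?_, fun d hd => ?_⟩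
        · rw [mul_assoc, hb1 z hz h, ← mul_assoc, ha1 z hz h, mul_assoc]
        · have : phi (a * b) d = phi a d * (a * phi b d * a⁻¹) := by unfold phi; group
          rw [this]
          exact Z.mul_mem (ha2 d hd) (hZn.conj_mem _ (hb2 d hd) a)
      inv_mem' := by
        rintro a ⟨ha1, ha2⟩
        refine ⟨fun z hz h => ?_, fun d hd => ?_⟩
        · rw [inv_mul_eq_iff_eq_mul, ← mul_assoc, ha1 z hz h]; group
        · have : phi a⁻¹ d = a⁻¹ * (phi a d)⁻¹ * a⁻¹⁻¹ := by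
            have e : phi a⁻¹ d = (a⁻¹ * (phi a d)⁻¹ * a) := by unfold phi; group
            rw [e, inv_inv]
          rw [this]
          exact hZn.conj_mem _ (Z.inv_mem (ha2 d hd)) a⁻¹ }
  have hKn : K.Normal := by
    refine ⟨fun x hx g => ?_⟩
    obtain ⟨h1, h2⟩ := hx
    refine ⟨fun z hz h => ?_, fun d hd => ?_⟩
    · have hz' : g⁻¹ * z * g⁻¹⁻¹ ∈ Z := hZn.conj_mem z hz g⁻¹
      rw [inv_inv] at hz'
      have h3 := h1 _ hz' (by
        calc (g⁻¹ * z * g) * (g⁻¹ * z * g) = g⁻¹ * (z * z) * g := by group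
          _ = 1 := by rw [h]; group)
      calc g * x * g⁻¹ * z = g * (x * (g⁻¹ * z * g)) * g⁻¹ := by group
        _ = g * ((g⁻¹ * z * g) * x) * g⁻¹ := by rw [h3]
        _ = z * (g * x * g⁻¹) := by group
    · have hd' : g⁻¹ * d * g⁻¹⁻¹ ∈ D := hDn.conj_mem d hd g⁻¹
      rw [inv_inv] at hd'
      have h3 := hZn.conj_mem _ (h2 _ hd') g
      have : phi (g * x * g⁻¹) d = g * phi x (g⁻¹ * d * g) * g⁻¹ := by unfold phi; group
      rw [this]; exact h3
  have hK2 : IsPGroup 2 K := by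
    rintro ⟨y, hy⟩
    have hne : orderOf y ≠ 0 := (orderOf_pos y).ne'
    obtain ⟨k, m, hm, hkm⟩ := Nat.exists_eq_two_pow_mul_odd hne
    refine ⟨k, ?_⟩
    apply Subtype.ext
    show y ^ 2 ^ k = 1
    have hy' : y ^ 2 ^ k ∈ K := K.pow_mem hy _
    apply odd_triv hQn hQ2 hDQ hCQ hCD hDn hZn hZD hZcent _ hy'.1 hy'.2
    rw [orderOf_pow_of_dvd (by positivity) (by rw [hkm]; exact dvd_mul_right _ _), hkm,
      Nat.mul_div_cancel_left _ (by positivity)]
    exact hm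
  exact CfsgLib.Cores.le_pCore hKn hK2 (show x ∈ K from ⟨hinv, hphi⟩)

end Core

section Final

variable [Finite X] {A : Subgroup X}
  (hti : ∀ h : X, A.map (MulAut.conj h).toMonoidHom = A ∨ A.map (MulAut.conj h).toMonoidHom ⊓ A = ⊥)
  (hA2 : IsPGroup 2 A) (hAc : ∀ a ∈ A, ∀ b ∈ A, a * b = b * a)
  {Q D Z : Subgroup X} (hQn : Q.Normal) (hQ2 : IsPGroup 2 Q) (hDQ : D ≤ Q)
  (hCQ : ∀ x : X, (∀ q ∈ Q, x * q = q * x) → x ∈ Q) (hCD : ∀ q ∈ Q, (∀ d ∈ D, q * d = d * q) → q ∈ D)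
  (hDn : D.Normal) (hZn : Z.Normal) (hZD : Z ≤ D) (hZcent : ∀ z ∈ Z, ∀ d ∈ D, d * z = z * d)
  (hsq : ∀ d ∈ D, d * d ∈ Z)
include hti hAc hZn hZD hZcent hsq hDn

/-- Case 1: `A` meets `Z` nontrivially. -/
theorem case1 {x₀ : X} (hx₀ : x₀ ∈ A) (hx₀Z : x₀ ∈ Z) (hx₁ : x₀ ≠ 1) {a : X} (ha : a ∈ A) :
    (∀ d ∈ D, phi (a * a) d ∈ Z) ∧ (∀ z ∈ Z, z * z = 1 → (a * a) * z = z * (a * a)) := by
  have h1 : ∀ d ∈ D, phi a d ∈ A := fun d hd => phi_mem_of_comm hti hx₀ hx₁ (hZcent _ hx₀Z d hd) ha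
  have h2 : ∀ d ∈ D, phi (a * a) d = phi a d * phi a d := fun d hd => phi_sq (hAc _ ha _ (h1 d hd))
  refine ⟨fun d hd => ?_, fun z hz h => ?_⟩
  · rw [h2 d hd]
    exact hsq _ (phi_mem_Z hDn hd)
  · have hw := phi_mem_Z hZn (a := a) hz
    have e1 := conj_eq a z
    rw [← phi_eq_one, h2 z (hZD hz)]
    have h3 : (z * z) * (phi a z * phi a z) = 1 := by
      calc (z * z) * (phi a z * phi a z) = z * (z * phi a z) * phi a z := by group
        _ = z * (phi a z * z) * phi a z := by rw [hZcent _ hw z (hZD hz)]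
        _ = (z * phi a z) * (z * phi a z) := by group
        _ = (a * z * a⁻¹) * (a * z * a⁻¹) := by rw [e1]
        _ = a * (z * z) * a⁻¹ := by group
        _ = 1 := by rw [h]; group
    rwa [h, one_mul] at h3

include hA2 hQn hQ2 hDQ hCQ hCD

/-- Case 2: `A ∩ Z = 1`. -/
theorem case2 (hAZ : ∀ x ∈ A, x ∈ Z → x = 1) {a : X} (ha : a ∈ A) (ha2 : a * a ≠ 1) :
    (∀ z ∈ Z, ∀ b ∈ A, b * z = z * b) ∧ (∀ d ∈ D, phi (a * a) d ∈ Z) ∧
    (∀ d ∈ D, ((a * a) * (a * a)) * d = d * ((a * a) * (a * a))) := by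
  have hD2 : IsPGroup 2 D := hQ2.to_le hDQ
  have hZ2 : IsPGroup 2 Z := hD2.to_le hZD
  have hAcZ := comm_Z hti hA2 hAc hZn hZ2 (fun x hx y hy => hZcent y hy x (hZD hx)) hAZ ha ha2
  have hq : ∀ d ∈ D, phi a (phi a d) = 1 := fun d hd =>
    quad hti hsq hZcent hDn hA2 hD2 hAc hAZ hAcZ ha ha2 hd
  have h2 : ∀ d ∈ D, phi (a * a) d = phi a d * phi a d := fun d hd => phi_sq (phi_eq_one.1 (hq d hd))
  have h3 : ∀ d ∈ D, phi (a * a) d ∈ Z := by
    intro d hd
    rw [h2 d hd]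
    exact hsq _ (phi_mem_Z hDn hd)
  refine ⟨hAcZ, h3, fun d hd => ?_⟩
  have h4 : (a * a) * phi (a * a) d = phi (a * a) d * (a * a) := hAcZ _ (h3 d hd) _ (A.mul_mem ha ha)
  rw [← phi_eq_one, phi_sq h4, h2 d hd]
  have hw : phi a d ∈ D := phi_mem_Z hDn hd
  exact four hsq hZcent hw hd (E hsq (fun z hz => hAcZ z hz a ha) hd)

/-- The squares of the elements of `A` lie in `O₂(X)`. -/
theorem sq_mem {a : X} (ha : a ∈ A) : a * a ∈ pCore 2 X := by
  by_cases ha2 : a * a = 1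
  · rw [ha2]; exact one_mem _
  by_cases hc : ∃ x ∈ A, x ∈ Z ∧ x ≠ 1
  · obtain ⟨x₀, h1, h2, h3⟩ := hc
    have h4 := case1 hti hAc hDn hZn hZD hZcent hsq h1 h2 h3 ha
    exact mem_core hQn hQ2 hDQ hCQ hCD hDn hZn hZD hZcent h4.2 h4.1
  · push Not at hc
    have h4 := case2 hti hA2 hAc hQn hQ2 hDQ hCQ hCD hDn hZn hZD hZcent hsq hc ha ha2
    exact mem_core hQn hQ2 hDQ hCQ hCD hDn hZn hZD hZcent (fun z hz _ => h4.1 z hz _ (A.mul_mem ha ha)) h4.2.1

/-- If some `a⁴ ≠ 1` then the conjugates of the squares of `A` commute. -/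
theorem comm_sq (hQeq : pCore 2 X ≤ Q) (hZmem : ∀ x ∈ D, (∀ d ∈ D, x * d = d * x) → x ∈ Z) {a₀ : X} (ha₀ : a₀ ∈ A)
    (ha₀4 : (a₀ * a₀) * (a₀ * a₀) ≠ 1) (x : X) {a c : X} (ha : a ∈ A) (hc : c ∈ A) :
    (a * a) * (x * (c * c) * x⁻¹) = (x * (c * c) * x⁻¹) * (a * a) := by
  have ha₀2 : a₀ * a₀ ≠ 1 := fun h => ha₀4 (by rw [h, one_mul])
  have hex : ∃ x ∈ A, x ∈ Z ∧ x ≠ 1 := by
    by_contra hcon
    push Not at hcon
    have h4 := case2 hti hA2 hAc hQn hQ2 hDQ hCQ hCD hDn hZn hZD hZcent hsq hcon ha₀ ha₀2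
    have h5 := sq_mem hti hA2 hAc hQn hQ2 hDQ hCQ hCD hDn hZn hZD hZcent hsq ha₀
    have h6 : (a₀ * a₀) * (a₀ * a₀) ∈ D := hCD _ (hQeq (mul_mem h5 h5)) h4.2.2
    exact ha₀4 (hcon _ (A.mul_mem (A.mul_mem ha₀ ha₀) (A.mul_mem ha₀ ha₀)) (hZmem _ h6 h4.2.2))
  obtain ⟨x₀, h1, h2, h3⟩ := hex
  -- an involution in `A ∩ Z`
  obtain ⟨y, hyA, hyZ, hy1, hy2⟩ : ∃ y ∈ A, y ∈ Z ∧ y ≠ 1 ∧ y * y = 1 := by
    obtain ⟨k, hk⟩ := hA2 ⟨x₀, h1⟩
    have hk' : x₀ ^ 2 ^ k = 1 := by simpa [Subtype.ext_iff] using hk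
    have hex : ∃ k, x₀ ^ 2 ^ k = 1 := ⟨k, hk'⟩
    classical
    obtain ⟨m, hm⟩ : ∃ m, Nat.find hex = m + 1 := by
      rcases Nat.eq_zero_or_pos (Nat.find hex) with h | h
      · exfalso
        have := Nat.find_spec hex
        rw [h, pow_zero, pow_one] at this
        exact h3 this
      · exact ⟨Nat.find hex - 1, by omega⟩
    refine ⟨x₀ ^ 2 ^ m, A.pow_mem h1 _, Z.pow_mem h2 _, Nat.find_min hex (by omega), ?_⟩
    have := Nat.find_spec hex
    rw [hm, pow_succ, pow_mul, pow_two] at this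
    exact this
  have nrm : ∀ (a : X), a ∈ A → ∀ (x : X), ∀ c ∈ A,
      (x⁻¹ * (a * a) * x) * c * (x⁻¹ * (a * a) * x)⁻¹ ∈ A := by
    intro a ha x c hc
    apply conj_mem_of_comm hti hyA hy1 _ hc
    have h4 := (case1 hti hAc hDn hZn hZD hZcent hsq h1 h2 h3 ha).2 (x * y * x⁻¹) (hZn.conj_mem y hyZ x) (by
      calc (x * y * x⁻¹) * (x * y * x⁻¹) = x * (y * y) * x⁻¹ := by group
        _ = 1 := by rw [hy2]; group)
    calc (x⁻¹ * (a * a) * x) * y = x⁻¹ * ((a * a) * (x * y * x⁻¹)) * x := by group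
      _ = x⁻¹ * ((x * y * x⁻¹) * (a * a)) * x := by rw [h4]
      _ = y * (x⁻¹ * (a * a) * x) := by group
  rcases hti x with h | h
  · have : x * (c * c) * x⁻¹ ∈ A.map (MulAut.conj x).toMonoidHom := ⟨c * c, A.mul_mem hc hc, rfl⟩
    rw [h] at this
    exact hAc _ (A.mul_mem ha ha) _ this
  · obtain ⟨b, hb⟩ : ∃ b, b = a * a := ⟨_, rfl⟩
    obtain ⟨b', hb'⟩ : ∃ b', b' = x * (c * c) * x⁻¹ := ⟨_, rfl⟩
    rw [← hb, ← hb']
    have hbA : b ∈ A := hb ▸ A.mul_mem ha ha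
    have hb'A : b' ∈ A.map (MulAut.conj x).toMonoidHom := by
      rw [hb']; exact ⟨c * c, A.mul_mem hc hc, rfl⟩
    have k1 : b * b' * b⁻¹ ∈ A.map (MulAut.conj x).toMonoidHom := by
      refine ⟨(x⁻¹ * (a * a) * x) * (c * c) * (x⁻¹ * (a * a) * x)⁻¹, nrm a ha x _ (A.mul_mem hc hc), ?_⟩
      show x * ((x⁻¹ * (a * a) * x) * (c * c) * (x⁻¹ * (a * a) * x)⁻¹) * x⁻¹ = _
      rw [hb, hb']; group
    have k2 : b' * b⁻¹ * b'⁻¹ ∈ A := by
      have := nrm c hc x⁻¹ b⁻¹ (A.inv_mem hbA)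
      rw [inv_inv] at this
      rw [hb']; exact this
    have k3 : b * b' * b⁻¹ * b'⁻¹ ∈ A.map (MulAut.conj x).toMonoidHom ⊓ A := by
      refine ⟨Subgroup.mul_mem _ k1 (Subgroup.inv_mem _ hb'A), ?_⟩
      have := A.mul_mem hbA k2
      have e : b * b' * b⁻¹ * b'⁻¹ = b * (b' * b⁻¹ * b'⁻¹) := by group
      rw [e]; exact this
    rw [h, mem_bot, mul_inv_eq_one, mul_inv_eq_iff_eq_mul] at k3
    exact k3

end Final

theorem closure_comm {S : Set X} (h : ∀ a ∈ S, ∀ b ∈ S, a * b = b * a) :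
    ∀ a ∈ closure S, ∀ b ∈ closure S, a * b = b * a := by
  have h1 : closure S ≤ centralizer S := by
    rw [closure_le]
    intro a ha
    exact mem_centralizer_iff.2 fun b hb => h b hb a ha
  have h2 : closure S ≤ centralizer (closure S : Set X) := by
    rw [closure_le]
    intro a ha
    refine mem_centralizer_iff.2 fun b hb => ?_
    exact ((mem_centralizer_iff.1 (h1 hb)) a ha).symm
  intro a ha b hb
  exact mem_centralizer_iff.1 (h2 hb) a ha

theorem result1783 [Finite X]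
    (hX : Cfsg.generalizedFittingSubgroup X = Cfsg.pCore 2 X) (A : Subgroup X) (hA2 : IsPGroup 2 ↥A) (hAa : IsMulCommutative ↥A)
    (hti : ∀ h : X, A.map (MulAut.conj h).toMonoidHom = A ∨ A.map (MulAut.conj h).toMonoidHom ⊓ A = ⊥) :
    Subgroup.closure ((fun a : X => a ^ 2) '' (A : Set X)) ≤ Cfsg.pCore 2 X ∧
      (¬ Cfsg.IsElementaryAbelian 2 (Subgroup.closure ((fun a : X => a ^ 2) '' (A : Set X))) →
        IsMulCommutative ↥(Subgroup.normalClosure ((fun a : X => a ^ 2) '' (A : Set X)))) := by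
  have hAc : ∀ a ∈ A, ∀ b ∈ A, a * b = b * a := by
    intro a ha b hb
    have := hAa.is_comm.comm (⟨a, ha⟩ : A) ⟨b, hb⟩
    exact congrArg Subtype.val this
  obtain ⟨Q, hQ⟩ : ∃ Q, Q = pCore 2 X := ⟨_, rfl⟩
  have hQ2 : IsPGroup 2 Q := by rw [hQ]; exact CfsgLib.Cores.pCore_isPGroup 2
  have hQn : Q.Normal := by rw [hQ]; infer_instance
  have hCQ : ∀ x : X, (∀ q ∈ Q, x * q = q * x) → x ∈ Q := by
    intro x hx
    rw [hQ, ← hX]
    have h1 : x ∈ centralizer ((generalizedFittingSubgroup X : Subgroup X) : Set X) := by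
      rw [hX, ← hQ]
      exact mem_centralizer_iff.2 fun q hq => (hx q hq).symm
    exact (le_sup_right : fittingSubgroup X ≤ layer X ⊔ fittingSubgroup X) (CfsgLib.BenderMax.centralizer_gfitting_le_fitting h1)
  obtain ⟨H, hHc, -, -, hHH, hHsq⟩ := CfsgLib.SolvCrit.exists_critical Nat.prime_two hQ2
  obtain ⟨D, hD⟩ : ∃ D, D = H.map Q.subtype := ⟨_, rfl⟩
  have hDQ : D ≤ Q := by rw [hD]; exact map_subtype_le _
  have hDn : D.Normal := by rw [hD]; exact ConjAct.normal_of_characteristic_of_normal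
  have hCD : ∀ q ∈ Q, (∀ d ∈ D, q * d = d * q) → q ∈ D := by
    intro q hq h
    rw [hD]
    refine ⟨⟨q, hq⟩, hHH (mem_centralizer_iff.2 fun d hd => Subtype.ext ?_), rfl⟩
    exact (h d (by rw [hD]; exact ⟨d, hd, rfl⟩)).symm
  obtain ⟨Z, hZ⟩ : ∃ Z, Z = D ⊓ centralizer (D : Set X) := ⟨_, rfl⟩
  have hZn : Z.Normal := by rw [hZ]; infer_instance
  have hZD : Z ≤ D := by rw [hZ]; exact inf_le_left
  have hZcent : ∀ z ∈ Z, ∀ d ∈ D, d * z = z * d := by
    intro z hz d hd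
    rw [hZ] at hz
    exact mem_centralizer_iff.1 hz.2 d hd
  have hZmem : ∀ x ∈ D, (∀ d ∈ D, x * d = d * x) → x ∈ Z := by
    intro x hx h
    rw [hZ]
    exact ⟨hx, mem_centralizer_iff.2 fun d hd => (h d hd).symm⟩
  have hsq : ∀ d ∈ D, d * d ∈ Z := by
    intro d hd
    have hd' := hd
    rw [hD] at hd'
    obtain ⟨y, hy, rfl⟩ := hd'
    obtain ⟨h1, h2⟩ := hHsq y hy
    rw [pow_two] at h1 h2
    apply hZmem _ (D.mul_mem hd hd)
    intro e he
    rw [hD] at he
    obtain ⟨y', hy', rfl⟩ := he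
    have := mem_centralizer_iff.1 h2 y' hy'
    exact (congrArg Subtype.val this).symm
  have hmem : ∀ a ∈ A, a * a ∈ pCore 2 X := fun a ha =>
    sq_mem hti hA2 hAc hQn hQ2 hDQ hCQ hCD hDn hZn hZD hZcent hsq ha
  refine ⟨?_, fun hne => ?_⟩
  · rw [closure_le]
    rintro _ ⟨a, ha, rfl⟩
    show a ^ 2 ∈ pCore 2 X
    rw [pow_two]
    exact hmem a ha
  · -- some `a⁴ ≠ 1`
    have hex : ∃ a ∈ A, (a * a) * (a * a) ≠ 1 := by
      by_contra hcon
      push Not at hcon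
      apply hne
      have hle : closure ((fun a : X => a ^ 2) '' (A : Set X)) ≤ A := by
        rw [closure_le]
        rintro _ ⟨a, ha, rfl⟩
        exact A.pow_mem ha 2
      refine ⟨⟨⟨fun a b => Subtype.ext (hAc _ (hle a.2) _ (hle b.2))⟩⟩, ?_⟩
      intro b hb
      have : b ∈ A ∧ b * b = 1 := by
        refine closure_induction (p := fun b _ => b ∈ A ∧ b * b = 1) ?_ ?_ ?_ ?_ hb
        · rintro _ ⟨a, ha, rfl⟩
          refine ⟨A.pow_mem ha 2, ?_⟩
          show a ^ 2 * a ^ 2 = 1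
          rw [pow_two]; exact hcon a ha
        · exact ⟨A.one_mem, one_mul 1⟩
        · rintro u v _ _ ⟨hu, hu2⟩ ⟨hv, hv2⟩
          refine ⟨A.mul_mem hu hv, ?_⟩
          calc u * v * (u * v) = u * (v * u) * v := by group
            _ = u * (u * v) * v := by rw [hAc v hv u hu]
            _ = (u * u) * (v * v) := by group
            _ = 1 := by rw [hu2, hv2, one_mul]
        · rintro u _ ⟨hu, hu2⟩
          refine ⟨A.inv_mem hu, ?_⟩
          rw [← mul_inv_rev, hu2, inv_one]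
      rw [pow_two]; exact this.2
    obtain ⟨a₀, ha₀, ha₀4⟩ := hex
    have key : ∀ (x : X) (a c : X), a ∈ A → c ∈ A → (a * a) * (x * (c * c) * x⁻¹) = (x * (c * c) * x⁻¹) * (a * a) :=
      fun x a c ha hc => comm_sq hti hA2 hAc hQn hQ2 hDQ hCQ hCD hDn hZn hZD hZcent hsq hQ.ge hZmem ha₀ ha₀4 x ha hc
    have hcomm : ∀ u ∈ Group.conjugatesOfSet ((fun a : X => a ^ 2) '' (A : Set X)),
        ∀ v ∈ Group.conjugatesOfSet ((fun a : X => a ^ 2) '' (A : Set X)), u * v = v * u := by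
      intro u hu v hv
      obtain ⟨_, ⟨a, ha, rfl⟩, hau⟩ := Group.mem_conjugatesOfSet_iff.1 hu
      obtain ⟨_, ⟨c, hc, rfl⟩, hcv⟩ := Group.mem_conjugatesOfSet_iff.1 hv
      obtain ⟨g, hg⟩ := isConj_iff.1 hau
      obtain ⟨g', hg'⟩ := isConj_iff.1 hcv
      have k := key (g⁻¹ * g') a c ha hc
      rw [← hg, ← hg']
      show g * a ^ 2 * g⁻¹ * (g' * c ^ 2 * g'⁻¹) = g' * c ^ 2 * g'⁻¹ * (g * a ^ 2 * g⁻¹)
      rw [pow_two, pow_two]
      calc g * (a * a) * g⁻¹ * (g' * (c * c) * g'⁻¹)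
          = g * ((a * a) * ((g⁻¹ * g') * (c * c) * (g⁻¹ * g')⁻¹)) * g⁻¹ := by group
        _ = g * (((g⁻¹ * g') * (c * c) * (g⁻¹ * g')⁻¹) * (a * a)) * g⁻¹ := by rw [k]
        _ = g' * (c * c) * g'⁻¹ * (g * (a * a) * g⁻¹) := by group
    have h := closure_comm hcomm
    refine ⟨⟨fun a b => Subtype.ext ?_⟩⟩
    exact h _ a.2 _ b.2

end CfsgLib.TI8
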