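import Cfsg.Statements.S1009
import Mathlib
import Cfsg.Agent.LibSmallSyl
-- import your own Cfsg.Agent.* helpers here

set_option autoImplicit false
open Cfsg

namespace Cfsg.Agent.S1009

open MulAction

/-- Brodkey's Theorem: if a finite group has abelian Sylow p-subgroups, then there are two Sylow p-subgroups whose intersection equals the intersection of all Sylow p-subgroups. -/
theorem result {G : Type*} [Group G] [Finite G] (p : ℕ) [Fact p.Prime] (hab : ∀ P : Sylow p G, IsMulCommutative ↥(P : Subgroup G)) : ∃ P Q : Sylow p G, (P : Subgroup G) ⊓ (Q : Subgroup G) = ⨅ R : Sylow p G, (R : Subgroup G) := by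
  classical
  have hp : Fact p.Prime := inferInstance
  have hfin : Finite (Sylow p G × Sylow p G) := inferInstance
  obtain ⟨⟨P, Q⟩, hmin⟩ := Finite.exists_min (fun x : Sylow p G × Sylow p G => Nat.card ((x.1 : Subgroup G) ⊓ (x.2 : Subgroup G) : Subgroup G))
  refine ⟨P, Q, ?_⟩
  set D : Subgroup G := (P : Subgroup G) ⊓ (Q : Subgroup G) with hD
  apply le_antisymm
  swap
  · exact le_inf (iInf_le _ P) (iInf_le _ Q)
  apply le_iInf
  intro S
  set N : Subgroup G := Subgroup.normalizer (D : Set G) with hN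
  have hle : ∀ R : Sylow p G, D ≤ (R : Subgroup G) → (R : Subgroup G) ≤ N := by
    intro R hR x hx
    rw [hN, Subgroup.mem_normalizer_iff]
    intro y
    have hcomm : ∀ z ∈ D, x * z * x⁻¹ = z := by
      intro z hz
      have := (hab R).is_comm.comm ⟨x, hx⟩ ⟨z, hR hz⟩
      have h2 : x * z = z * x := congrArg Subtype.val this
      rw [h2]; group
    constructor
    · intro hy; rw [hcomm y hy]; exact hy
    · intro hy
      have h1 := hcomm _ hy
      have h2 : x * y * x⁻¹ = y := by
        have h3 : x * (x * y * x⁻¹) * x⁻¹ = x * y * x⁻¹ := h1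
        have h4 := congrArg (fun w => x⁻¹ * w * x) h3
        simp only [mul_assoc] at h4
        simpa [mul_assoc] using h4
      rw [h2] at hy; exact hy
  have hPN := hle P inf_le_left
  have hQN := hle Q inf_le_right
  -- the Sylow subgroup of N
  let PN : Sylow p N := P.subtype hPN
  have hSN : IsPGroup p ((S : Subgroup G).subgroupOf N) := by
    apply S.2.comap_of_injective
    exact N.subtype_injective
  obtain ⟨T, hT⟩ := hSN.exists_le_sylow
  obtain ⟨c, hc⟩ := MulAction.exists_smul_eq N PN T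
  have h1 : (S : Subgroup G) ⊓ N ≤ (((c : G) • P : Sylow p G) : Subgroup G) := by
    intro x hx
    have h2 : (⟨x, hx.2⟩ : N) ∈ (T : Subgroup N) := hT (by rw [Subgroup.mem_subgroupOf]; exact hx.1)
    rw [← hc, CfsgLib.SmallSyl.mem_smul_sylow] at h2
    rw [CfsgLib.SmallSyl.mem_smul_sylow]
    exact h2
  have h2 : (S : Subgroup G) ⊓ (((c : G) • Q : Sylow p G) : Subgroup G) ≤ D := by
    intro x hx
    have hcN : ∀ h, h ∈ D ↔ (c : G) * h * (c : G)⁻¹ ∈ D := Subgroup.mem_normalizer_iff.mp c.2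
    have hxQ : (c : G)⁻¹ * x * c ∈ (Q : Subgroup G) := CfsgLib.SmallSyl.mem_smul_sylow.mp hx.2
    have h5 : (c : G) * ((c : G)⁻¹ * x * c) * (c : G)⁻¹ = x := by group
    have hxN : x ∈ N := by
      have h4 : (c : G) * ((c : G)⁻¹ * x * c) * (c : G)⁻¹ ∈ N := mul_mem (mul_mem c.2 (hQN hxQ)) (inv_mem c.2)
      rwa [h5] at h4
    have hxP : (c : G)⁻¹ * x * c ∈ (P : Subgroup G) := CfsgLib.SmallSyl.mem_smul_sylow.mp (h1 ⟨hx.1, hxN⟩)
    have h6 := (hcN _).mp (⟨hxP, hxQ⟩ : (c : G)⁻¹ * x * c ∈ D)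
    rwa [h5] at h6
  have h3 := hmin (S, (c : G) • Q)
  have h4 : (S : Subgroup G) ⊓ (((c : G) • Q : Sylow p G) : Subgroup G) = D := Subgroup.eq_of_le_of_card_ge h2 h3
  rw [← h4]
  exact inf_le_left

end Cfsg.Agent.S1009
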