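import Cfsg.Agent.EqBase
import Cfsg.Agent.LibH7TwA
import Cfsg.Agent.S0215
import Cfsg.Agent.S0219
import Cfsg.Agent.S1009

/-! `n_5 ≠ 21` (helper16): reduction to simple groups (adapted from helper7's LibH7TwA). -/
set_option linter.all false

set_option autoImplicit false

namespace CfsgLib.TS5

open Subgroup MulAction CfsgLib.H7 CfsgLib.H7Hall CfsgLib.H7Act

instance fact5 : Fact (Nat.Prime 5) := ⟨by norm_num⟩

variable {G : Type*} [Group G] [Finite G]

theorem no_split (P : Sylow 5 G) (K : Subgroup G) [hKn : K.Normal] (h1 : (P : Subgroup G) ⊔ K = ⊤)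
    (h2 : (P : Subgroup G) ⊓ K = ⊥) : Nat.card (Sylow 5 G) ≠ 21 := by
  intro h22
  haveI : Fact (Nat.Prime 3) := ⟨Nat.prime_three⟩
  have hK3 : ¬ 5 ∣ Nat.card K := by
    have := (isSyl_inf P K).2.2
    rwa [h2, relIndex_bot_left] at this
  have hPK : (P : Subgroup G) ≤ normalizer (K : Set G) := by
    rw [normalizer_eq_top]; exact le_top
  have hcop : (Nat.card P).Coprime (Nat.card K) := by
    obtain ⟨k, hk⟩ := IsPGroup.iff_card.mp P.isPGroup'
    rw [hk]
    exact Nat.Coprime.pow_left k ((Nat.Prime.coprime_iff_not_dvd (by norm_num)).2 hK3)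
  haveI : Group.IsNilpotent P := P.isPGroup'.isNilpotent
  have hsolv : Group.IsSolvable (P : Subgroup G) := inferInstance
  set N := normalizer ((P : Subgroup G) : Set G) with hN
  have hNK : N ⊔ K = ⊤ := by
    rw [← top_le_iff, ← h1]
    exact sup_le_sup_right le_normalizer _
  have hidx : N.relIndex K = 21 := by
    rw [← relIndex_eq_of_sup_eq hNK, relIndex_top_right, ← h22, P.card_eq_index_normalizer]
    rfl
  set C := N ⊓ K with hC
  have hCK : Nat.card C * 21 = Nat.card K := by
    have := card_mul_relIndex (inf_le_right : N ⊓ K ≤ K)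
    rwa [inf_relIndex_right, hidx] at this
  -- `C` centralizes `P`
  have hCcent : ∀ c ∈ C, ∀ x ∈ (P : Subgroup G), c * x = x * c := by
    intro c hc x hx
    have h3 : c * x * c⁻¹ * x⁻¹ ∈ (P : Subgroup G) ⊓ K := by
      refine ⟨?_, ?_⟩
      · exact Subgroup.mul_mem _ ((mem_normalizer_iff.mp hc.1 x).mp hx) (Subgroup.inv_mem _ hx)
      · have : c * x * c⁻¹ * x⁻¹ = c * (x * c⁻¹ * x⁻¹) := by group
        rw [this]
        exact Subgroup.mul_mem _ hc.2 (hKn.conj_mem _ (Subgroup.inv_mem _ hc.2) x)
    rw [h2, mem_bot] at h3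
    have h4 : c * x * c⁻¹ = x := mul_inv_eq_one.mp h3
    exact mul_inv_eq_iff_eq_mul.mp h4
  obtain ⟨U⟩ := (inferInstance : Nonempty (Sylow 3 C))
  set U' := (U : Subgroup C).map C.subtype with hU'
  have hU'C : U' ≤ C := by
    rintro _ ⟨x, -, rfl⟩
    exact x.2
  have hPU : (P : Subgroup G) ≤ normalizer (U' : Set G) := by
    intro x hx
    rw [mem_normalizer_iff]
    intro u
    constructor
    · intro hu
      have := hCcent u (hU'C hu) x hx
      rw [← this]; simpa using hu
    · intro hu
      have h3 := hCcent _ (hU'C hu) x hx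
      have h4 : x * u * x⁻¹ = u := by
        have h5 : x * u * x⁻¹ * x = x * (x * u * x⁻¹) := h3
        have h6 : x * u = x * (x * u * x⁻¹) := by
          rw [← h5]; group
        exact (mul_left_cancel h6).symm
      rwa [h4] at hu
  obtain ⟨R, hUR, hPR⟩ := CfsgLib.Coprime.exists_invariant_sylow_ge hPK hcop (Or.inl hsolv) 3 U'
    (hU'C.trans inf_le_right) (U.isPGroup'.map _) hPU
  set R' := (R : Subgroup K).map K.subtype with hR'
  have hR'K : R' ≤ K := by
    rintro _ ⟨x, -, rfl⟩
    exact x.2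
  have hcR : Nat.card R' = 3 ^ (Nat.card K).factorization 3 := by
    rw [hR', card_map_of_injective K.subtype_injective]
    exact R.card_eq_multiplicity
  have hcU : Nat.card U' = 3 ^ (Nat.card C).factorization 3 := by
    rw [hU', card_map_of_injective C.subtype_injective]
    exact U.card_eq_multiplicity
  have hfac : (Nat.card K).factorization 3 = (Nat.card C).factorization 3 + 1 := by
    rw [← hCK, Nat.factorization_mul Nat.card_pos.ne' (by norm_num)]
    simp only [Finsupp.add_apply]
    congr 1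
    rw [show (21 : ℕ) = 3 * 7 by norm_num, Nat.factorization_mul (by norm_num) (by norm_num)]
    simp only [Finsupp.add_apply]
    rw [Nat.prime_three.factorization, Nat.factorization_eq_zero_of_not_dvd (by norm_num)]
    simp
  have hRN : Nat.card (N ⊓ R' : Subgroup G) = Nat.card U' := by
    have hle : N ⊓ R' ≤ C := le_inf inf_le_left (inf_le_right.trans hR'K)
    have h2g : IsPGroup 3 (N ⊓ R' : Subgroup G) := (R.isPGroup'.map _).to_le inf_le_right
    apply le_antisymm
    · rw [hcU]
      obtain ⟨k, hk⟩ := IsPGroup.iff_card.mp h2g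
      rw [hk]
      apply Nat.pow_le_pow_right (by norm_num)
      have hd : 3 ^ k ∣ Nat.card C := by rw [← hk]; exact card_dvd_of_le hle
      exact (Nat.prime_three.pow_dvd_iff_le_factorization Nat.card_pos.ne').mp hd
    · exact card_le_of_le (le_inf (hU'C.trans inf_le_left) hUR)
  have hrel : N.relIndex R' = 3 := by
    have h3 := card_mul_relIndex (inf_le_right : N ⊓ R' ≤ R')
    rw [inf_relIndex_right, hRN, hcU, hcR, hfac, pow_succ] at h3
    exact Nat.eq_of_mul_eq_mul_left (pow_pos (by norm_num) _) h3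
  -- the orbit of `P` under `R'`
  have hst : stabilizer R' P = N.subgroupOf R' := by
    ext g
    rw [mem_stabilizer_iff, mem_subgroupOf]
    change (g : G) • P = P ↔ _
    rw [Sylow.smul_eq_iff_mem_normalizer]
    exact Iff.rfl
  have horb : Nat.card (orbit R' P) = 3 := by
    rw [Nat.card_coe_set_eq, ← MulAction.index_stabilizer, hst]
    exact hrel
  have hinv : ∀ g ∈ (P : Subgroup G), ∀ Q ∈ orbit R' P, g • Q ∈ orbit R' P := by
    rintro g hg _ ⟨r, rfl⟩
    have h3 : g * r * g⁻¹ ∈ R' := (mem_normalizer_iff.mp (hPR hg) r).mp r.2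
    refine ⟨⟨_, h3⟩, ?_⟩
    change (g * r * g⁻¹) • P = g • ((r : G) • P)
    have h4 : g⁻¹ • P = P := by
      rw [Sylow.smul_eq_iff_mem_normalizer]; exact le_normalizer (Subgroup.inv_mem _ hg)
    rw [mul_smul, mul_smul, h4]
  have hmod := card_modEq_fixed (p := 5) (P : Subgroup G) P.isPGroup' (orbit R' P) hinv
  have hfix : {Q : Sylow 5 G | Q ∈ orbit R' P ∧ ∀ g ∈ (P : Subgroup G), g • Q = Q} = {P} := by
    ext Q
    rw [Set.mem_singleton_iff]
    constructor
    · rintro ⟨-, hQ⟩
      have := le_of_le_normalizer_sylow P.isPGroup' Q hQ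
      exact Sylow.ext (P.is_maximal' Q.isPGroup' this)
    · rintro rfl
      exact ⟨mem_orbit_self _, fun g hg => by
        rw [Sylow.smul_eq_iff_mem_normalizer]; exact le_normalizer hg⟩
  rw [horb, hfix, Nat.card_unique] at hmod
  revert hmod
  decide

theorem factor_cases {a b c : ℕ} (h : a * b * c = 21) (ha : a % 5 = 1) (hb : b % 5 = 1) (hc : c % 5 = 1)
    (ha' : a ≠ 21) (hb' : b ≠ 21) : a = 1 ∧ b = 1 ∧ c = 21 := by
  have key : ∀ n : ℕ, n ∣ 21 → n % 5 = 1 → n = 1 ∨ n = 21 := by
    intro n hn h3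
    have hle := Nat.le_of_dvd (by norm_num) hn
    interval_cases n <;> simp_all (config := {decide := true})
  have h1 := key a ⟨b * c, by rw [← h, mul_assoc]⟩ ha
  have h2 := key b ⟨a * c, by rw [← h]; ring⟩ hb
  have h1' : a = 1 := by tauto
  have h2' : b = 1 := by tauto
  subst h1'
  subst h2'
  refine ⟨rfl, rfl, by linarith⟩

universe u in
/-- The reduction to simple groups. -/
theorem simple_of_minimal {G : Type u} [Group G] [Finite G]
    (ih : ∀ (H : Type u) [Group H] [Finite H], Nat.card H < Nat.card G → Nat.card (Sylow 5 H) ≠ 21)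
    (h : Nat.card (Sylow 5 G) = 21) : IsSimpleGroup G := by
  haveI : Nontrivial G := by
    rw [← not_subsingleton_iff_nontrivial]
    intro hs
    have : Subsingleton (Sylow 5 G) := ⟨fun P Q => Sylow.ext (Subsingleton.elim _ _)⟩
    have := Finite.card_le_one_iff_subsingleton.mpr this
    omega
  refine { eq_bot_or_eq_top_of_normal := ?_ }
  intro K hK
  by_contra hcon
  push Not at hcon
  obtain ⟨hKb, hKt⟩ := hcon
  haveI := hK
  obtain ⟨P⟩ := (inferInstance : Nonempty (Sylow 5 G))
  have hf := hall_formula K P _ rfl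
  rw [h] at hf
  have hcK : Nat.card K < Nat.card G := by
    have h1 := Subgroup.card_le_card_group K
    have h2 : Nat.card K ≠ Nat.card G := fun h' => hKt (Subgroup.eq_top_of_card_eq K h')
    omega
  have hcQ : Nat.card (G ⧸ K) < Nat.card G := by
    have h1 := Subgroup.card_eq_card_quotient_mul_card_subgroup K
    have h2 : 1 < Nat.card K := by
      by_contra h3
      have : Nat.card K = 1 := by have := Nat.card_pos (α := K); omega
      exact hKb (Subgroup.card_eq_one.mp this)
    have h3 : 0 < Nat.card (G ⧸ K) := Nat.card_pos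
    nlinarith
  have m1 : Nat.card (Sylow 5 (G ⧸ K)) % 5 = 1 := card_sylow_modEq_one 5 (G ⧸ K)
  have m2 : Nat.card (Sylow 5 K) % 5 = 1 := card_sylow_modEq_one 5 K
  set N := ((P : Subgroup G) ⊔ K) ⊓ Subgroup.normalizer (((P : Subgroup G) ⊓ K : Subgroup G) : Set G) with hN
  have m3 : Nat.card (Sylow 5 N) % 5 = 1 := card_sylow_modEq_one 5 N
  obtain ⟨-, -, h22⟩ := factor_cases hf.symm m1 m2 m3 (ih _ hcQ) (ih _ hcK)
  have hNt : N = ⊤ := by
    by_contra hNt
    have hcN : Nat.card N < Nat.card G := by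
      have h1 := Subgroup.card_le_card_group N
      have h2 : Nat.card N ≠ Nat.card G := fun h' => hNt (Subgroup.eq_top_of_card_eq N h')
      omega
    exact ih _ hcN h22
  have hsup : (P : Subgroup G) ⊔ K = ⊤ := by
    rw [← top_le_iff, ← hNt]; exact inf_le_left
  have hnorm : (((P : Subgroup G) ⊓ K : Subgroup G)).Normal := by
    rw [← normalizer_eq_top_iff, ← top_le_iff, ← hNt]; exact inf_le_right
  have hbot : (P : Subgroup G) ⊓ K = ⊥ := by
    by_contra hne
    haveI := hnorm
    have h1 := card_sylow_quotient_pgroup ((P : Subgroup G) ⊓ K) (P.isPGroup'.to_le inf_le_left)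
    rw [h] at h1
    refine ih _ ?_ h1
    have h1 := Subgroup.card_eq_card_quotient_mul_card_subgroup ((P : Subgroup G) ⊓ K)
    have h2 : 1 < Nat.card ((P : Subgroup G) ⊓ K : Subgroup G) := by
      by_contra h3
      have : Nat.card ((P : Subgroup G) ⊓ K : Subgroup G) = 1 := by
        have := Nat.card_pos (α := ((P : Subgroup G) ⊓ K : Subgroup G)); omega
      exact hne (Subgroup.card_eq_one.mp this)
    have h3 : 0 < Nat.card (G ⧸ ((P : Subgroup G) ⊓ K)) := Nat.card_pos
    nlinarith
  exact no_split P K hsup hbot h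

end CfsgLib.TS5
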