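import Cfsg.Agent.EqBase
import Cfsg.Agent.LibTS1
/-!
# `n_5 ≠ 21` (helper16): Sylow 5-subgroups have order five
-/
set_option autoImplicit false
set_option linter.all false

namespace CfsgLib.TS5

open Subgroup MulAction CfsgLib.H7 CfsgLib.H7Hall CfsgLib.H7Act
open scoped Pointwise

universe u
variable {G : Type u} [Group G] [Finite G]

omit [Finite G] in
theorem smul_self_of_mem {P : Sylow 5 G} {g : G} (hg : g ∈ (P : Subgroup G)) : g • P = P := by
  rw [Sylow.smul_eq_iff_mem_normalizer]; exact le_normalizer hg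

theorem fixed_iff (P Q : Sylow 5 G) (h : ∀ g ∈ (P : Subgroup G), g • Q = Q) : Q = P := by
  have := le_of_le_normalizer_sylow P.isPGroup' Q h
  exact Sylow.ext (P.is_maximal' Q.isPGroup' this)

theorem eq_of_le {P Q : Sylow 5 G} (h : (P : Subgroup G) ≤ Q) : Q = P :=
  Sylow.ext (P.is_maximal' Q.isPGroup' h)

theorem exists_ne' (h21 : Nat.card (Sylow 5 G) = 21) (P : Sylow 5 G) : ∃ Q : Sylow 5 G, Q ≠ P := by
  haveI : Nontrivial (Sylow 5 G) := by
    rw [← Finite.one_lt_card_iff_nontrivial, h21]; norm_num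
  exact exists_ne P

theorem not_comm (h21 : Nat.card (Sylow 5 G) = 21) : ¬ ∀ a b : G, a * b = b * a := by
  intro h
  have : Subsingleton (Sylow 5 G) := by
    refine ⟨fun P Q => ?_⟩
    symm
    apply fixed_iff P Q
    intro g _
    rw [Sylow.smul_eq_iff_mem_normalizer]
    apply (mem_normalizer_iff (H := (Q : Subgroup G))).2
    intro x
    rw [h g x, mul_inv_cancel_right]
  have := Finite.card_le_one_iff_subsingleton.mpr this
  omega

theorem faithful [IsSimpleGroup G] (h21 : Nat.card (Sylow 5 G) = 21) {g : G}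
    (hg : ∀ Q : Sylow 5 G, g • Q = Q) : g = 1 := by
  have hn : (MulAction.toPermHom G (Sylow 5 G)).ker.Normal := inferInstance
  have hmem : g ∈ (MulAction.toPermHom G (Sylow 5 G)).ker := by
    rw [MonoidHom.mem_ker]
    ext1 Q
    exact hg Q
  rcases hn.eq_bot_or_eq_top with h | h
  · rw [h, mem_bot] at hmem
    exact hmem
  · exfalso
    have : Subsingleton (Sylow 5 G) := by
      refine ⟨fun P Q => ?_⟩
      obtain ⟨x, hx⟩ := MulAction.exists_smul_eq G P Q
      have h1 : x ∈ (MulAction.toPermHom G (Sylow 5 G)).ker := by rw [h]; trivial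
      rw [MonoidHom.mem_ker] at h1
      have h2 : x • P = P := by
        have := congrArg (fun f => f P) h1
        exact this
      rw [← hx, h2]
    have := Finite.card_le_one_iff_subsingleton.mpr this
    omega

theorem sign_trivial [IsSimpleGroup G] (h21 : Nat.card (Sylow 5 G) = 21) {Ω : Type*} [Fintype Ω]
    [DecidableEq Ω] [MulAction G Ω] (g : G) : Equiv.Perm.sign (MulAction.toPermHom G Ω g) = 1 := by
  let f : G →* ℤˣ := (Equiv.Perm.sign : Equiv.Perm Ω →* ℤˣ).comp (MulAction.toPermHom G Ω)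
  have hn : f.ker.Normal := inferInstance
  rcases hn.eq_bot_or_eq_top with h | h
  · exfalso
    apply not_comm h21
    intro a b
    have hinj : Function.Injective f := (MonoidHom.ker_eq_bot_iff f).mp h
    apply hinj
    rw [map_mul, map_mul, mul_comm]
  · have : g ∈ f.ker := by rw [h]; trivial
    exact this

theorem bot_of_le_all [IsSimpleGroup G] (h21 : Nat.card (Sylow 5 G) = 21) {D : Subgroup G}
    (hD : ∀ Q : Sylow 5 G, D ≤ Q) : D = ⊥ := by
  rw [eq_bot_iff]
  intro d hd
  rw [mem_bot]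
  apply faithful h21
  intro Q
  exact smul_self_of_mem (hD Q hd)

theorem dist_pow (P R : Sylow 5 G) : ∃ k, (R : Subgroup G).relIndex P = 5 ^ k ∧ (k = 0 → R = P) := by
  obtain ⟨k, hk⟩ := P.isPGroup'.index ((R : Subgroup G).subgroupOf P)
  refine ⟨k, hk, ?_⟩
  rintro rfl
  change (R : Subgroup G).relIndex P = 5 ^ 0 at hk
  rw [pow_zero, Subgroup.relIndex_eq_one] at hk
  exact eq_of_le hk

theorem dist_five (h21 : Nat.card (Sylow 5 G) = 21) {P R : Sylow 5 G} (h : R ≠ P) :
    (R : Subgroup G).relIndex P = 5 := by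
  have hle : (R : Subgroup G).relIndex P ≤ 20 := by
    rw [← card_orbit_sylow]
    have hsub : orbit (P : Subgroup G) R ⊆ {P}ᶜ := by
      rintro _ ⟨g, rfl⟩ hQ
      rw [Set.mem_singleton_iff] at hQ
      apply h
      have h1 : (g : G) • R = P := hQ
      have h2 : (g : G)⁻¹ • P = P := smul_self_of_mem (inv_mem g.2)
      have h3 : R = (g : G)⁻¹ • P := by rw [eq_inv_smul_iff]; exact h1
      rw [h3, h2]
    have h1 : Nat.card (orbit (P : Subgroup G) R) ≤ Nat.card ({P}ᶜ : Set (Sylow 5 G)) :=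
      Nat.card_mono (Set.toFinite _) hsub
    have h2 : Nat.card ({P}ᶜ : Set (Sylow 5 G)) = 20 := by
      rw [Nat.card_coe_set_eq, Set.ncard_compl, h21, Set.ncard_singleton]
    omega
  obtain ⟨k, hk, hk0⟩ := dist_pow P R
  rw [hk] at hle ⊢
  have hk3 : k < 2 := by
    by_contra hcon
    have : 5 ^ 2 ≤ 5 ^ k := Nat.pow_le_pow_right (by norm_num) (by omega)
    omega
  interval_cases k
  · exact absurd (hk0 rfl) h
  · norm_num

theorem sylow_comm [IsSimpleGroup G] (h21 : Nat.card (Sylow 5 G) = 21) (P : Sylow 5 G) : ∀ x ∈ (P : Subgroup G), ∀ y ∈ (P : Subgroup G), x * y = y * x := by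
  classical
  intro x hx y hy
  have hPnt : (P : Subgroup G) ≠ ⊥ := by
    intro h
    obtain ⟨Q, hQ⟩ := exists_ne' h21 P
    exact hQ (eq_of_le (by rw [h]; exact bot_le))
  obtain ⟨n, hn⟩ := IsPGroup.iff_card.mp P.isPGroup'
  have hmf : (Nat.card P).minFac = 5 := by
    have hn0 : n ≠ 0 := by
      rintro rfl
      rw [pow_zero] at hn
      exact hPnt (Subgroup.card_eq_one.mp hn)
    rw [hn]
    exact Nat.Prime.pow_minFac (by norm_num) hn0
  have key : ∀ Q : Sylow 5 G, x * y * x⁻¹ * y⁻¹ ∈ (Q : Subgroup G) := by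
    intro Q
    by_cases hQ : Q = P
    · rw [hQ]
      exact mul_mem (mul_mem (mul_mem hx hy) (inv_mem hx)) (inv_mem hy)
    · have h5 : ((Q : Subgroup G).subgroupOf P).index = 5 := dist_five h21 hQ
      haveI hN : ((Q : Subgroup G).subgroupOf P).Normal := Subgroup.normal_of_index_eq_minFac_card (by rw [h5, hmf])
      have hc : Nat.card (P ⧸ (Q : Subgroup G).subgroupOf P) = 5 := h5
      haveI := isCyclic_of_prime_card hc
      have h6 : (QuotientGroup.mk (⟨x, hx⟩ : P) : P ⧸ (Q : Subgroup G).subgroupOf P) * QuotientGroup.mk (⟨y, hy⟩ : P) =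
          QuotientGroup.mk (⟨y, hy⟩ : P) * QuotientGroup.mk (⟨x, hx⟩ : P) := (IsCyclic.commGroup (α := P ⧸ (Q : Subgroup G).subgroupOf P)).mul_comm _ _
      have h7 : (QuotientGroup.mk ((⟨x, hx⟩ : P) * ⟨y, hy⟩ * (⟨x, hx⟩ : P)⁻¹ * (⟨y, hy⟩ : P)⁻¹) : P ⧸ (Q : Subgroup G).subgroupOf P) = 1 := by
        rw [QuotientGroup.mk_mul, QuotientGroup.mk_mul, QuotientGroup.mk_mul, h6, QuotientGroup.mk_inv, QuotientGroup.mk_inv]
        group
      rw [QuotientGroup.eq_one_iff] at h7
      exact h7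
  have h8 : Subgroup.zpowers (x * y * x⁻¹ * y⁻¹) = ⊥ := by
    apply bot_of_le_all h21
    intro Q
    rw [Subgroup.zpowers_le]
    exact key Q
  rw [Subgroup.zpowers_eq_bot] at h8
  calc x * y = (x * y * x⁻¹ * y⁻¹) * (y * x) := by group
    _ = y * x := by rw [h8, one_mul]

theorem card_five [IsSimpleGroup G] (h21 : Nat.card (Sylow 5 G) = 21) (P : Sylow 5 G) : Nat.card P = 5 := by
  obtain ⟨P0, Q0, h0⟩ := Cfsg.Agent.S1009.result (G := G) 5 (fun P => ⟨⟨fun x y => Subtype.ext (sylow_comm h21 P x x.2 y y.2)⟩⟩)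
  have h1 : (⨅ R : Sylow 5 G, (R : Subgroup G)) = ⊥ := bot_of_le_all h21 (fun Q => iInf_le _ Q)
  rw [h1] at h0
  have hne : Q0 ≠ P0 := by
    rintro rfl
    rw [inf_idem] at h0
    obtain ⟨Q, hQ⟩ := exists_ne' h21 Q0
    exact hQ (eq_of_le (by rw [h0]; exact bot_le))
  have h2 := dist_five h21 hne
  have h3 : (Q0 : Subgroup G).relIndex P0 = Nat.card P0 := by
    rw [← Subgroup.inf_relIndex_right, inf_comm, h0, Subgroup.relIndex_bot_left]
  have h4 : Nat.card P = Nat.card P0 := by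
    rw [P.card_eq_multiplicity, P0.card_eq_multiplicity]
  rw [h4, ← h3, h2]

theorem free [IsSimpleGroup G] (h21 : Nat.card (Sylow 5 G) = 21) {P Q : Sylow 5 G} (hne : Q ≠ P) {x : G} (hx : x ∈ (P : Subgroup G)) (hxQ : x • Q = Q) : x = 1 := by
  have h1 : x ∈ (Q : Subgroup G) := by
    have h2 : Subgroup.zpowers x ≤ (Q : Subgroup G) := by
      have h3 : IsPGroup 5 (Subgroup.zpowers x) := P.isPGroup'.to_le (by rw [Subgroup.zpowers_le]; exact hx)
      apply le_of_le_normalizer_sylow h3 Q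
      intro g hg
      have h4 : Subgroup.zpowers x ≤ stabilizer G Q := by
        rw [Subgroup.zpowers_le]; exact hxQ
      exact h4 hg
    exact h2 (Subgroup.mem_zpowers x)
  have h2 := dist_five h21 hne
  have h3 := card_five h21 P
  have h4 : Nat.card ((Q : Subgroup G).subgroupOf P) = 1 := by
    have h5 := ((Q : Subgroup G).subgroupOf P).card_mul_index
    have h6 : ((Q : Subgroup G).subgroupOf P).index = 5 := h2
    have h7 : Nat.card (P : Subgroup G) = 5 := h3
    rw [h6, h7] at h5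
    omega
  have h5 := Subgroup.card_eq_one.mp h4
  have h6 : (⟨x, hx⟩ : (P : Subgroup G)) ∈ (Q : Subgroup G).subgroupOf P := h1
  rw [h5, Subgroup.mem_bot] at h6
  exact congrArg Subtype.val h6

end CfsgLib.TS5
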