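import Cfsg.Agent.EqBase
import Cfsg.Agent.LibTS2
/-!
# `n_5 ≠ 21` (helper16): the blocks of a Sylow 5-subgroup
-/
set_option autoImplicit false
set_option linter.all false

namespace CfsgLib.TS5

open Subgroup MulAction CfsgLib.H7 CfsgLib.H7Hall CfsgLib.H7Act
open scoped Pointwise

universe u
variable {G : Type u} [Group G] [Finite G]

omit [Finite G] in
theorem conj_mem {P : Sylow 5 G} {g : G} (hg : g • P = P) {x : G} (hx : x ∈ (P : Subgroup G)) : g * x * g⁻¹ ∈ (P : Subgroup G) := by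
  rw [Sylow.smul_eq_iff_mem_normalizer] at hg
  exact (mem_normalizer_iff.mp hg x).mp hx

omit [Finite G] in
theorem smul_orbit {P : Sylow 5 G} {g : G} (hg : g • P = P) (Q : Sylow 5 G) : g • orbit (P : Subgroup G) Q = orbit (P : Subgroup G) (g • Q) := by
  ext R
  rw [Set.mem_smul_set_iff_inv_smul_mem]
  constructor
  · rintro ⟨⟨x, hx⟩, hxR⟩
    have hxR' : x • Q = g⁻¹ • R := hxR
    refine ⟨⟨g * x * g⁻¹, conj_mem hg hx⟩, ?_⟩
    show (g * x * g⁻¹) • g • Q = R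
    rw [mul_smul, mul_smul, inv_smul_smul, hxR', smul_inv_smul]
  · rintro ⟨⟨x, hx⟩, hxR⟩
    have hxR' : x • g • Q = R := hxR
    have hg' : g⁻¹ • P = P := by rw [inv_smul_eq_iff, hg]
    refine ⟨⟨g⁻¹ * x * g⁻¹⁻¹, conj_mem hg' hx⟩, ?_⟩
    show (g⁻¹ * x * g⁻¹⁻¹) • Q = g⁻¹ • R
    rw [← hxR', inv_inv, mul_smul, mul_smul]

/-- the orbits of a Sylow 5-subgroup on the remaining ones -/
def Bl (P : Sylow 5 G) : SubMulAction (stabilizer G P) (Set (Sylow 5 G)) where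
  carrier := {s | ∃ Q : Sylow 5 G, Q ≠ P ∧ s = orbit (P : Subgroup G) Q}
  smul_mem' := by
    rintro ⟨g, hg⟩ s ⟨Q, hQ, rfl⟩
    exact ⟨g • Q, fun h => hQ (MulAction.injective g (h.trans (Eq.symm hg))), smul_orbit hg Q⟩

omit [Finite G] in
theorem mem_ne {P : Sylow 5 G} {Q R : Sylow 5 G} (hQ : Q ≠ P) (hR : R ∈ orbit (P : Subgroup G) Q) : R ≠ P := by
  obtain ⟨⟨x, hx⟩, hxR⟩ := hR
  have hxR' : x • Q = R := hxR
  intro h
  apply hQ
  have h1 : x⁻¹ • P = P := smul_self_of_mem (inv_mem hx)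
  rw [← h1, ← h, ← hxR', inv_smul_smul]

theorem card_orb (h21 : Nat.card (Sylow 5 G) = 21) {P Q : Sylow 5 G} (hQ : Q ≠ P) : Nat.card (orbit (P : Subgroup G) Q) = 5 := by
  rw [card_orbit_sylow, dist_five h21 hQ]

theorem card_ne (h21 : Nat.card (Sylow 5 G) = 21) (P : Sylow 5 G) : Nat.card {Q : Sylow 5 G // Q ≠ P} = 20 := by
  classical
  haveI : Fintype (Sylow 5 G) := Fintype.ofFinite _
  rw [Nat.card_eq_fintype_card] at h21 ⊢
  rw [Fintype.card_subtype_compl, Fintype.card_subtype_eq, h21]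

theorem card_fix {P : Sylow 5 G} (t : stabilizer G P) (c : ℕ)
    (hc : ∀ s : Bl P, t • s = s → Nat.card {Q : Sylow 5 G // Q ∈ (s : Set (Sylow 5 G)) ∧ (t : G) • Q = Q} = c) :
    Nat.card {Q : Sylow 5 G // (t : G) • Q = Q} = 1 + Nat.card {s : Bl P // t • s = s} * c := by
  classical
  haveI : Fintype (Sylow 5 G) := Fintype.ofFinite _
  have htP : (t : G) • P = P := t.2
  let π : {Q : Sylow 5 G // Q ≠ P ∧ (t : G) • Q = Q} → {s : Bl P // t • s = s} := fun Q =>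
    ⟨⟨orbit (P : Subgroup G) (Q : Sylow 5 G), Q, Q.2.1, rfl⟩, Subtype.ext (by
      show (t : G) • orbit (P : Subgroup G) (Q : Sylow 5 G) = orbit (P : Subgroup G) (Q : Sylow 5 G)
      rw [smul_orbit htP, Q.2.2])⟩
  haveI : Finite (Bl P) := Finite.of_injective (fun s : Bl P => (s : Set (Sylow 5 G))) Subtype.val_injective
  haveI : Fintype {s : Bl P // t • s = s} := Fintype.ofFinite _
  have h1 : Nat.card {Q : Sylow 5 G // Q ≠ P ∧ (t : G) • Q = Q} = Nat.card {s : Bl P // t • s = s} * c := by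
    rw [Nat.card_congr (Equiv.sigmaFiberEquiv π).symm, Nat.card_sigma]
    have h2 : ∀ s : {s : Bl P // t • s = s}, Nat.card {Q // π Q = s} = c := by
      intro s
      rw [← hc s s.2]
      apply Nat.card_congr
      refine Equiv.ofBijective (fun Q : {Q // π Q = s} => (⟨(Q.1 : Sylow 5 G), ?_, Q.1.2.2⟩ : {Q : Sylow 5 G // Q ∈ ((s : Bl P) : Set (Sylow 5 G)) ∧ (t : G) • Q = Q})) ⟨?_, ?_⟩
      · have h3 : orbit (P : Subgroup G) (Q.1 : Sylow 5 G) = ((s : Bl P) : Set (Sylow 5 G)) := congrArg (fun z : {s : Bl P // t • s = s} => ((z : Bl P) : Set (Sylow 5 G))) Q.2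
        rw [← h3]
        exact mem_orbit_self _
      · intro Q R h
        apply Subtype.ext
        apply Subtype.ext
        exact congrArg (fun z : {Q : Sylow 5 G // Q ∈ ((s : Bl P) : Set (Sylow 5 G)) ∧ (t : G) • Q = Q} => (z : Sylow 5 G)) h
      · rintro ⟨Q, hQs, hQt⟩
        obtain ⟨⟨s, Q0, hQ0, hs⟩, hts⟩ := s
        have hQs' : Q ∈ s := hQs
        rw [hs] at hQs'
        refine ⟨⟨⟨Q, mem_ne hQ0 hQs', hQt⟩, ?_⟩, rfl⟩
        apply Subtype.ext
        apply Subtype.ext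
        show orbit (P : Subgroup G) Q = s
        rw [hs]
        exact orbit_eq_iff.mpr hQs'
    rw [Finset.sum_congr rfl (fun s _ => h2 s), Finset.sum_const, Finset.card_univ, Nat.card_eq_fintype_card, smul_eq_mul]
  rw [← h1]
  have h3 : Nat.card {Q : Sylow 5 G // (t : G) • Q = Q} = Nat.card (Option {Q : Sylow 5 G // Q ≠ P ∧ (t : G) • Q = Q}) := by
    apply Nat.card_congr
    refine Equiv.ofBijective (fun Q : {Q : Sylow 5 G // (t : G) • Q = Q} => if h : (Q : Sylow 5 G) = P then (none : Option {Q : Sylow 5 G // Q ≠ P ∧ (t : G) • Q = Q}) else some ⟨Q, h, Q.2⟩) ⟨?_, ?_⟩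
    · intro Q R h
      by_cases hQ : (Q : Sylow 5 G) = P
      · by_cases hR : (R : Sylow 5 G) = P
        · exact Subtype.ext (hQ.trans hR.symm)
        · simp [hQ, hR] at h
      · by_cases hR : (R : Sylow 5 G) = P
        · simp [hQ, hR] at h
        · simp [hQ, hR] at h
          exact Subtype.ext h
    · rintro (_ | ⟨Q, hQ, hQt⟩)
      · exact ⟨⟨P, htP⟩, by simp⟩
      · exact ⟨⟨Q, hQt⟩, by simp [hQ]⟩
  rw [h3, Finite.card_option, add_comm]

theorem card_Bl (h21 : Nat.card (Sylow 5 G) = 21) (P : Sylow 5 G) : Nat.card (Bl P) = 4 := by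
  classical
  have h1 := card_fix (P := P) 1 5 (by
    rintro ⟨s, Q, hQ, rfl⟩ -
    refine Eq.trans ?_ (card_orb h21 hQ)
    apply Nat.card_congr
    exact Equiv.subtypeEquivRight (fun R => ⟨fun h => h.1, fun h => ⟨h, one_smul _ _⟩⟩))
  have h2 : Nat.card {Q : Sylow 5 G // ((1 : stabilizer G P) : G) • Q = Q} = 21 := by
    rw [← h21]
    apply Nat.card_congr
    exact Equiv.subtypeUnivEquiv (fun Q => one_smul _ _)
  have h3 : Nat.card {s : Bl P // (1 : stabilizer G P) • s = s} = Nat.card (Bl P) := by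
    apply Nat.card_congr
    exact Equiv.subtypeUnivEquiv (fun Q => one_smul _ _)
  rw [h2, h3] at h1
  omega

/-- a 2-element fixing a block fixes a point of it -/
theorem exists_fix (h21 : Nat.card (Sylow 5 G) = 21) {P Q : Sylow 5 G} (hQ : Q ≠ P) {t : G} (h2 : IsPGroup 2 (Subgroup.zpowers t))
    (hs : t • orbit (P : Subgroup G) Q = orbit (P : Subgroup G) Q) : ∃ R ∈ orbit (P : Subgroup G) Q, t • R = R := by
  classical
  haveI := Fact.mk Nat.prime_two
  have h1 := card_modEq_fixed (p := 2) (Subgroup.zpowers t) h2 (orbit (P : Subgroup G) Q) (by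
    intro g hg R hR
    have h3 : Subgroup.zpowers t ≤ stabilizer G (orbit (P : Subgroup G) Q) := by
      rw [Subgroup.zpowers_le]; exact hs
    have h4 : g • orbit (P : Subgroup G) Q = orbit (P : Subgroup G) Q := h3 hg
    rw [← h4]
    exact Set.smul_mem_smul_set hR)
  rw [card_orb h21 hQ] at h1
  have h3 : Nat.card {R : Sylow 5 G | R ∈ orbit (P : Subgroup G) Q ∧ ∀ g ∈ Subgroup.zpowers t, g • R = R} ≠ 0 := by
    intro h4
    rw [h4] at h1
    revert h1
    decide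
  obtain ⟨⟨R, hR, hRt⟩⟩ := (Nat.card_ne_zero.mp h3).1
  exact ⟨R, hR, hRt t (Subgroup.mem_zpowers t)⟩

theorem zp (h5 : ∀ P : Sylow 5 G, Nat.card P = 5) {P : Sylow 5 G} {x y : G} (hx : x ∈ (P : Subgroup G)) (hx1 : x ≠ 1) (hy : y ∈ (P : Subgroup G)) : ∃ n : ℤ, x ^ n = y := by
  have h2 := mem_zpowers_of_prime_card (h5 P) (g := (⟨x, hx⟩ : (P : Subgroup G))) (g' := ⟨y, hy⟩) (fun h3 => hx1 (congrArg Subtype.val h3))
  obtain ⟨n, hn⟩ := h2
  exact ⟨n, congrArg Subtype.val hn⟩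

theorem fix_comm [IsSimpleGroup G] (h21 : Nat.card (Sylow 5 G) = 21) {P Q : Sylow 5 G} (hQ : Q ≠ P) {t : G} (h2 : IsPGroup 2 (Subgroup.zpowers t))
    (hs : t • orbit (P : Subgroup G) Q = orbit (P : Subgroup G) Q) (hc : ∀ x ∈ (P : Subgroup G), t * x = x * t) : ∀ R ∈ orbit (P : Subgroup G) Q, t • R = R := by
  obtain ⟨R0, hR0, ht0⟩ := exists_fix h21 hQ h2 hs
  intro R hR
  rw [← orbit_eq_iff.mpr hR0] at hR
  obtain ⟨⟨x, hx⟩, rfl⟩ := hR
  show t • x • R0 = x • R0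
  rw [← mul_smul, hc x hx, mul_smul, ht0]

theorem fix_unique [IsSimpleGroup G] (h21 : Nat.card (Sylow 5 G) = 21) {P Q : Sylow 5 G} (hQ : Q ≠ P) {t : G} (htP : t • P = P)
    (hc : ¬ ∀ x ∈ (P : Subgroup G), t * x = x * t) : ∀ R ∈ orbit (P : Subgroup G) Q, ∀ R' ∈ orbit (P : Subgroup G) Q, t • R = R → t • R' = R' → R = R' := by
  intro R hR R' hR' htR htR'
  rw [← orbit_eq_iff.mpr hR] at hR'
  obtain ⟨⟨x, hx⟩, rfl⟩ := hR'
  by_contra hne
  have hx1 : x ≠ 1 := by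
    rintro rfl
    exact hne (one_smul _ _).symm
  apply hc
  have htR2 : t • x • R = x • R := htR'
  have h3 : (x⁻¹ * (t * x * t⁻¹)) • R = R := by
    have h4 : t⁻¹ • R = R := by rw [inv_smul_eq_iff, htR]
    rw [mul_smul, mul_smul, mul_smul, h4, htR2, inv_smul_smul]
  have h4 := free h21 (mem_ne hQ hR) (mul_mem (inv_mem hx) (conj_mem htP hx)) h3
  have h5 : t * x * t⁻¹ = x := (inv_mul_eq_one.mp h4).symm
  intro y hy
  obtain ⟨n, rfl⟩ := zp (fun P => card_five h21 P) hx hx1 hy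
  have h6 : Commute t x := by
    show t * x = x * t
    calc t * x = t * x * t⁻¹ * t := by group
      _ = x * t := by rw [h5]
  exact h6.zpow_right n

/-- the number of fixed points of a 2-element -/
theorem card_fix_comm [IsSimpleGroup G] (h21 : Nat.card (Sylow 5 G) = 21) {P : Sylow 5 G} (t : stabilizer G P) (h2 : IsPGroup 2 (Subgroup.zpowers (t : G)))
    (hc : ∀ x ∈ (P : Subgroup G), (t : G) * x = x * t) : Nat.card {Q : Sylow 5 G // (t : G) • Q = Q} = 1 + Nat.card {s : Bl P // t • s = s} * 5 := by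
  apply card_fix
  rintro ⟨s, Q, hQ, rfl⟩ hs
  have hs' : (t : G) • orbit (P : Subgroup G) Q = orbit (P : Subgroup G) Q := congrArg (fun z : Bl P => (z : Set (Sylow 5 G))) hs
  refine Eq.trans ?_ (card_orb h21 hQ)
  apply Nat.card_congr
  exact Equiv.subtypeEquivRight (fun R => ⟨fun h => h.1, fun h => ⟨h, fix_comm h21 hQ h2 hs' hc R h⟩⟩)

theorem card_fix_ncomm [IsSimpleGroup G] (h21 : Nat.card (Sylow 5 G) = 21) {P : Sylow 5 G} (t : stabilizer G P) (h2 : IsPGroup 2 (Subgroup.zpowers (t : G)))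
    (hc : ¬ ∀ x ∈ (P : Subgroup G), (t : G) * x = x * t) : Nat.card {Q : Sylow 5 G // (t : G) • Q = Q} = 1 + Nat.card {s : Bl P // t • s = s} := by
  rw [card_fix t 1, mul_one]
  rintro ⟨s, Q, hQ, rfl⟩ hs
  have hs' : (t : G) • orbit (P : Subgroup G) Q = orbit (P : Subgroup G) Q := congrArg (fun z : Bl P => (z : Set (Sylow 5 G))) hs
  obtain ⟨R, hR, hRt⟩ := exists_fix h21 hQ h2 hs'
  rw [Nat.card_eq_one_iff_unique]
  exact ⟨⟨fun R1 R2 => Subtype.ext (fix_unique h21 hQ t.2 hc _ R1.2.1 _ R2.2.1 R1.2.2 R2.2.2)⟩, ⟨⟨R, hR, hRt⟩⟩⟩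

end CfsgLib.TS5
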