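import Cfsg.Agent.EqBase
import Cfsg.Agent.LibTS3
import Cfsg.Agent.LibH7PG4
/-!
# `n_5 ≠ 21` (helper16): involutions
-/
set_option autoImplicit false
set_option linter.all false

namespace CfsgLib.TS5

open Subgroup MulAction CfsgLib.H7 CfsgLib.H7Hall CfsgLib.H7Act
open scoped Pointwise

universe u
variable {G : Type u} [Group G] [Finite G]

omit [Finite G] in
theorem pow_comm {p : ℕ} [hp : Fact p.Prime] {A : Subgroup G} (hA : Nat.card A = p) {n : G} (hn : n ∈ normalizer (A : Set G)) :
    ∀ y ∈ A, n ^ (p - 1) * y = y * n ^ (p - 1) := by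
  haveI : Finite A := Nat.finite_of_card_ne_zero (by rw [hA]; exact hp.out.ne_zero)
  haveI := isCyclic_of_prime_card hA
  intro y hy
  have h1 : (A.normalizerMonoidHom ⟨n, hn⟩) ^ (p - 1) = 1 := by
    have h2 := IsCyclic.card_mulAut (G := A)
    rw [hA, Nat.totient_prime hp.out] at h2
    rw [← h2]
    exact pow_card_eq_one'
  rw [← map_pow] at h1
  have h3 := congrArg (fun φ : MulAut A => ((φ ⟨y, hy⟩ : A) : G)) h1
  have h4 : n ^ (p - 1) * y * (n ^ (p - 1))⁻¹ = y := h3
  calc n ^ (p - 1) * y = n ^ (p - 1) * y * (n ^ (p - 1))⁻¹ * n ^ (p - 1) := by group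
    _ = y * n ^ (p - 1) := by rw [h4]

omit [Finite G] in
theorem comm_of_coprime {p : ℕ} [hp : Fact p.Prime] {A : Subgroup G} (hA : Nat.card A = p) {n : G} (hn : n ∈ normalizer (A : Set G))
    (hc : (p - 1).Coprime (orderOf n)) : ∀ y ∈ A, n * y = y * n := by
  intro y hy
  obtain ⟨m, hm⟩ := exists_pow_eq_self_of_coprime hc
  have h1 : Commute (n ^ (p - 1)) y := pow_comm hA hn y hy
  have h2 := h1.pow_left m
  rw [hm] at h2
  exact h2

theorem card_stab (h21 : Nat.card (Sylow 5 G) = 21) (P : Sylow 5 G) : Nat.card (stabilizer G P) * 21 = Nat.card G := by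
  have h1 := (stabilizer G P).card_mul_index
  rw [index_stabilizer_of_transitive, h21] at h1
  exact h1

theorem exists_T (h21 : Nat.card (Sylow 5 G) = 21) {P : Sylow 5 G} {u : G} (huP : u • P = P) (hu : IsPGroup 2 (Subgroup.zpowers u)) :
    ∃ T : Sylow 2 G, (T : Subgroup G) ≤ stabilizer G P ∧ u ∈ (T : Subgroup G) := by
  classical
  haveI := Fact.mk Nat.prime_two
  have hle : Subgroup.zpowers u ≤ stabilizer G P := by rw [Subgroup.zpowers_le]; exact huP
  have h1 : IsPGroup 2 ((Subgroup.zpowers u).subgroupOf (stabilizer G P)) := hu.comap_subtype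
  obtain ⟨T0, hT0⟩ := h1.exists_le_sylow
  obtain ⟨T, hT⟩ := (T0.isPGroup'.map (stabilizer G P).subtype).exists_le_sylow
  have h2 : Nat.card ((T0 : Subgroup (stabilizer G P)).map (stabilizer G P).subtype) = Nat.card T := by
    rw [Subgroup.card_map_of_injective (stabilizer G P).subtype_injective]
    show Nat.card T0 = Nat.card T
    rw [T0.card_eq_multiplicity, T.card_eq_multiplicity, ← card_stab h21 P, Nat.factorization_mul Nat.card_pos.ne' (by norm_num), Finsupp.add_apply,
      Nat.factorization_eq_zero_of_not_dvd (n := 21) (p := 2) (by norm_num), add_zero]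
  have h3 : (T0 : Subgroup (stabilizer G P)).map (stabilizer G P).subtype = T := Subgroup.eq_of_le_of_card_ge hT h2.ge
  refine ⟨T, ?_, ?_⟩
  · rw [← h3]
    rintro _ ⟨x, -, rfl⟩
    exact x.2
  · apply hT
    exact ⟨⟨u, huP⟩, hT0 (Subgroup.mem_zpowers u), rfl⟩

theorem card_fix_conj (g t : G) : Nat.card {Q : Sylow 5 G // (g * t * g⁻¹) • Q = Q} = Nat.card {Q : Sylow 5 G // t • Q = Q} := by
  apply Nat.card_congr
  refine ⟨fun Q => ⟨g⁻¹ • (Q : Sylow 5 G), ?_⟩, fun Q => ⟨g • (Q : Sylow 5 G), ?_⟩, fun Q => ?_, fun Q => ?_⟩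
  · have h := Q.2
    rw [mul_smul, mul_smul, ← eq_inv_smul_iff] at h
    exact h
  · rw [mul_smul, mul_smul, inv_smul_smul, Q.2]
  · exact Subtype.ext (smul_inv_smul _ _)
  · exact Subtype.ext (inv_smul_smul _ _)

theorem inverts [IsSimpleGroup G] (h21 : Nat.card (Sylow 5 G) = 21) {P : Sylow 5 G} {t : G} (htP : t • P = P) (htt : t * t = 1)
    (hc : ¬ ∀ x ∈ (P : Subgroup G), t * x = x * t) : ∀ x ∈ (P : Subgroup G), t * x * t⁻¹ = x⁻¹ := by
  intro x hx
  by_contra hne
  have hti : t⁻¹ = t := inv_eq_of_mul_eq_one_left htt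
  have hy : x * (t * x * t⁻¹) ∈ (P : Subgroup G) := mul_mem hx (conj_mem htP hx)
  have hy1 : x * (t * x * t⁻¹) ≠ 1 := fun h => hne (eq_inv_of_mul_eq_one_right h)
  have hcy : Commute t (x * (t * x * t⁻¹)) := by
    show t * (x * (t * x * t⁻¹)) = x * (t * x * t⁻¹) * t
    calc t * (x * (t * x * t⁻¹)) = (t * x * t⁻¹) * ((t * t) * x * (t * t)⁻¹) * t := by group
      _ = (t * x * t⁻¹) * x * t := by rw [htt]; group
      _ = x * (t * x * t⁻¹) * t := by rw [sylow_comm h21 P _ (conj_mem htP hx) x hx]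
  apply hc
  intro z hz
  obtain ⟨n, rfl⟩ := zp (fun P => card_five h21 P) hy hy1 hz
  exact hcy.zpow_right n

theorem zp_two {t : G} (ht : t * t = 1) : IsPGroup 2 (Subgroup.zpowers t) := by
  haveI := Fact.mk Nat.prime_two
  rintro ⟨x, n, rfl⟩
  refine ⟨1, Subtype.ext ?_⟩
  show (t ^ n) ^ 2 ^ 1 = 1
  rw [pow_one, pow_two, ← mul_zpow_self' ht]
where
  mul_zpow_self' {t : G} (ht : t * t = 1) {n : ℤ} : (1 : G) = t ^ n * t ^ n := by
    rw [← zpow_add, ← two_mul, zpow_mul, zpow_two, ht, one_zpow]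

theorem all_fixed {P : Sylow 5 G} {t : stabilizer G P} (h4 : Nat.card (Bl P) = 4) (h : Nat.card {s : Bl P // t • s = s} = 4) : ∀ s : Bl P, t • s = s := by
  haveI : Finite (Bl P) := Finite.of_injective (fun s : Bl P => (s : Set (Sylow 5 G))) Subtype.val_injective
  have h1 : Function.Surjective (Subtype.val : {s : Bl P // t • s = s} → Bl P) :=
    (Function.Injective.bijective_of_nat_card_le Subtype.val_injective (by rw [h, h4])).2
  intro s
  obtain ⟨⟨s', hs'⟩, rfl⟩ := h1 s
  exact hs'

theorem eq_one_of_all [IsSimpleGroup G] (h21 : Nat.card (Sylow 5 G) = 21) {P : Sylow 5 G} (t : stabilizer G P) (h2 : IsPGroup 2 (Subgroup.zpowers (t : G)))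
    (hc : ∀ x ∈ (P : Subgroup G), (t : G) * x = x * t) (hall : ∀ s : Bl P, t • s = s) : (t : G) = 1 := by
  apply faithful h21
  intro Q
  by_cases hQ : Q = P
  · rw [hQ]; exact t.2
  · exact fix_comm h21 hQ h2 (congrArg (fun z : Bl P => (z : Set (Sylow 5 G))) (hall ⟨orbit (P : Subgroup G) Q, Q, hQ, rfl⟩)) hc Q (mem_orbit_self _)

/-- no involution fixes all blocks -/
theorem not_all [IsSimpleGroup G] (h21 : Nat.card (Sylow 5 G) = 21) {P : Sylow 5 G} (u : stabilizer G P) (hu : orderOf (u : G) = 2) :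
    Nat.card {s : Bl P // u • s = s} ≠ 4 := by
  classical
  intro h4
  haveI := Fact.mk Nat.prime_two
  have huu : (u : G) * u = 1 := by rw [← pow_two, ← hu, pow_orderOf_eq_one]
  have hu1 : (u : G) ≠ 1 := by
    intro h
    rw [h, orderOf_one] at hu
    omega
  have hall := all_fixed (card_Bl h21 P) h4
  have hc : ¬ ∀ x ∈ (P : Subgroup G), (u : G) * x = x * u := fun hc => hu1 (eq_one_of_all h21 u (zp_two huu) hc hall)
  have hfu := card_fix_ncomm h21 u (zp_two huu) hc
  rw [h4] at hfu
  obtain ⟨T, hTP, huT⟩ := exists_T h21 (u := (u : G)) (P := P) u.2 (zp_two huu)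
  obtain ⟨N, hN, hNo, hNc⟩ := Cfsg.Agent.S0215.result T (u : G) hu huT (by
    intro g hgT
    have hgT' : g * u * g⁻¹ ∈ (T : Subgroup G) := hgT
    set t : G := g * u * g⁻¹ with ht
    have htt : t * t = 1 := by
      calc t * t = g * ((u : G) * u) * g⁻¹ := by rw [ht]; group
        _ = 1 := by rw [huu]; group
    have htP : t • P = P := hTP hgT'
    have hft : Nat.card {Q : Sylow 5 G // t • Q = Q} = 5 := by
      rw [ht, card_fix_conj, hfu]
    have hct : ¬ ∀ x ∈ (P : Subgroup G), t * x = x * t := by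
      intro hc'
      have h5 := card_fix_comm h21 (⟨t, htP⟩ : stabilizer G P) (zp_two htt) hc'
      rw [hft] at h5
      omega
    have h5 := card_fix_ncomm h21 (⟨t, htP⟩ : stabilizer G P) (zp_two htt) hct
    rw [hft] at h5
    have hallt := all_fixed (t := (⟨t, htP⟩ : stabilizer G P)) (card_Bl h21 P) (by omega)
    have hit := inverts h21 htP htt hct
    have hiu := inverts h21 (t := (u : G)) u.2 huu hc
    have h6 : ((⟨t, htP⟩ * u : stabilizer G P) : G) = 1 := by
      apply eq_one_of_all h21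
      · apply T.isPGroup'.to_le
        rw [Subgroup.zpowers_le]
        exact mul_mem hgT' huT
      · intro x hx
        show t * u * x = x * (t * u)
        have h7 : (t * u) * x * (t * u)⁻¹ = x := by
          calc (t * u) * x * (t * u)⁻¹ = t * ((u : G) * x * (u : G)⁻¹) * t⁻¹ := by group
            _ = t * x⁻¹ * t⁻¹ := by rw [hiu x hx]
            _ = (x⁻¹)⁻¹ := hit _ (inv_mem hx)
            _ = x := inv_inv x
        calc t * u * x = (t * u) * x * (t * u)⁻¹ * (t * u) := by group
          _ = x * (t * u) := by rw [h7]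
      · intro s
        rw [mul_smul, hall, hallt]
    have h7 : t * (u : G) = 1 := h6
    rw [eq_inv_of_mul_eq_one_left h7]
    exact inv_eq_of_mul_eq_one_left huu)
  rcases hN.eq_bot_or_eq_top with h | h
  · have hcen : (u : G) ∈ Subgroup.center G := by
      rw [Subgroup.mem_center_iff]
      intro g
      have h5 := hNc g
      rw [h, Subgroup.mem_bot] at h5
      calc g * u = (u : G) * g * (u : G)⁻¹ * g⁻¹ * (g * u) := by rw [h5, one_mul]
        _ = u * g := by group
    have hcn : (Subgroup.center G).Normal := inferInstance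
    rcases hcn.eq_bot_or_eq_top with h5 | h5
    · rw [h5, Subgroup.mem_bot] at hcen
      exact hu1 hcen
    · apply not_comm h21
      intro a b
      have h6 : b ∈ Subgroup.center G := by rw [h5]; trivial
      exact Subgroup.mem_center_iff.mp h6 a
  · rw [h, Subgroup.card_top] at hNo
    have h5 : 2 ∣ Nat.card G := by rw [← hu]; exact orderOf_dvd_natCard _
    obtain ⟨k, hk⟩ := hNo
    omega

/-- an involution fixes exactly one Sylow subgroup and no block -/
theorem inv_fix [IsSimpleGroup G] (h21 : Nat.card (Sylow 5 G) = 21) {P : Sylow 5 G} (t : stabilizer G P) (ht : orderOf (t : G) = 2) :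
    Nat.card {s : Bl P // t • s = s} = 0 ∧ Nat.card {Q : Sylow 5 G // (t : G) • Q = Q} = 1 := by
  classical
  haveI : Fintype (Sylow 5 G) := Fintype.ofFinite _
  haveI : Finite (Bl P) := Finite.of_injective (fun s : Bl P => (s : Set (Sylow 5 G))) Subtype.val_injective
  have htt : (t : G) * t = 1 := by rw [← pow_two, ← ht, pow_orderOf_eq_one]
  have hj4 := not_all h21 t ht
  have hj : Nat.card {s : Bl P // t • s = s} ≤ 4 := by
    rw [← card_Bl h21 P]
    exact Nat.card_le_card_of_injective Subtype.val Subtype.val_injective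
  have hs := sign_trivial h21 (Ω := Sylow 5 G) (t : G)
  have h2 : (MulAction.toPermHom G (Sylow 5 G) (t : G)) ^ 2 = 1 := by
    rw [← map_pow, pow_two, htt, map_one]
  have h3 := CfsgLib.H7PG.even_invol h2 hs
  have h4 : (MulAction.toPermHom G (Sylow 5 G) (t : G)).support.card + Nat.card {Q : Sylow 5 G // (t : G) • Q = Q} = 21 := by
    have h5 : Nat.card {Q : Sylow 5 G // (t : G) • Q = Q} = (MulAction.toPermHom G (Sylow 5 G) (t : G)).supportᶜ.card := by
      rw [Nat.card_eq_fintype_card, Fintype.card_subtype]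
      congr 1
      ext Q
      rw [Finset.mem_filter, Finset.mem_compl, Equiv.Perm.mem_support, not_not]
      exact ⟨fun h => h.2, fun h => ⟨Finset.mem_univ _, h⟩⟩
    rw [h5, Finset.card_compl, ← Nat.card_eq_fintype_card, h21]
    have h6 := Finset.card_le_univ (MulAction.toPermHom G (Sylow 5 G) (t : G)).support
    rw [← Nat.card_eq_fintype_card, h21] at h6
    omega
  by_cases hc : ∀ x ∈ (P : Subgroup G), (t : G) * x = x * t
  · have h5 := card_fix_comm h21 t (zp_two htt) hc
    have h6 : Nat.card {s : Bl P // t • s = s} = 0 := by omega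
    exact ⟨h6, by rw [h5, h6]⟩
  · have h5 := card_fix_ncomm h21 t (zp_two htt) hc
    have h6 : Nat.card {s : Bl P // t • s = s} = 0 := by omega
    exact ⟨h6, by rw [h5, h6]⟩

end CfsgLib.TS5
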