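import Cfsg.Agent.EqBase
import Cfsg.Agent.LibTS4
import Cfsg.Agent.LibH6Gen
/-!
# `n_5 ≠ 21` (helper16): conclusion
-/
set_option autoImplicit false
set_option linter.all false

namespace CfsgLib.TS5

open Subgroup MulAction CfsgLib.H7 CfsgLib.H7Hall CfsgLib.H7Act
open scoped Pointwise

universe u
variable {G : Type u} [Group G] [Finite G]

/-- non-trivial 2-elements fix exactly one point, and no block -/
theorem two_fix [IsSimpleGroup G] (h21 : Nat.card (Sylow 5 G) = 21) {t : G} (h2 : IsPGroup 2 (Subgroup.zpowers t)) (ht1 : t ≠ 1) :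
    ∃ n : ℕ, orderOf (t ^ n) = 2 := by
  haveI := Fact.mk Nat.prime_two
  obtain ⟨k, hk⟩ := IsPGroup.iff_card.mp h2
  rw [Nat.card_zpowers] at hk
  have hk0 : k ≠ 0 := by
    rintro rfl
    rw [pow_zero, orderOf_eq_one_iff] at hk
    exact ht1 hk
  refine ⟨2 ^ (k - 1), ?_⟩
  have h3 : 2 ^ k = 2 ^ (k - 1) * 2 := by rw [← pow_succ]; congr 1; omega
  rw [orderOf_pow, hk, h3, Nat.gcd_mul_right_left, Nat.mul_div_cancel_left _ (pow_pos (by norm_num) _)]

theorem two_elt_fix [IsSimpleGroup G] (h21 : Nat.card (Sylow 5 G) = 21) {P : Sylow 5 G} (t : stabilizer G P) (h2 : IsPGroup 2 (Subgroup.zpowers (t : G))) (ht1 : (t : G) ≠ 1)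
    (s : Bl P) : t • s ≠ s := by
  intro hs
  obtain ⟨n, hn⟩ := two_fix h21 h2 ht1
  have h3 : t ^ n • s = s := by
    have h4 : Subgroup.zpowers t ≤ stabilizer (stabilizer G P) s := by
      rw [Subgroup.zpowers_le]; exact hs
    exact h4 (Subgroup.npow_mem_zpowers t n)
  have h4 := (inv_fix h21 (t ^ n) hn).1
  haveI : Finite (Bl P) := Finite.of_injective (fun s : Bl P => (s : Set (Sylow 5 G))) Subtype.val_injective
  rw [Finite.card_eq_zero_iff] at h4
  exact h4.false ⟨s, h3⟩

theorem exists_fixed (h21 : Nat.card (Sylow 5 G) = 21) {t : G} (h2 : IsPGroup 2 (Subgroup.zpowers t)) : ∃ P : Sylow 5 G, t • P = P := by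
  haveI := Fact.mk Nat.prime_two
  have h3 := h2.card_modEq_card_fixedPoints (Sylow 5 G)
  rw [h21] at h3
  have h4 : Nat.card (fixedPoints (Subgroup.zpowers t) (Sylow 5 G)) ≠ 0 := by
    intro h4
    rw [h4] at h3
    revert h3
    decide
  obtain ⟨⟨P, hP⟩⟩ := (Nat.card_ne_zero.mp h4).1
  exact ⟨P, hP ⟨t, Subgroup.mem_zpowers t⟩⟩

theorem two_unique [IsSimpleGroup G] (h21 : Nat.card (Sylow 5 G) = 21) {t : G} (h2 : IsPGroup 2 (Subgroup.zpowers t)) (ht1 : t ≠ 1)
    {P Q : Sylow 5 G} (hP : t • P = P) (hQ : t • Q = Q) : Q = P := by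
  obtain ⟨n, hn⟩ := two_fix h21 h2 ht1
  have h3 : ∀ R : Sylow 5 G, t • R = R → t ^ n • R = R := by
    intro R hR
    have h4 : Subgroup.zpowers t ≤ stabilizer G R := by
      rw [Subgroup.zpowers_le]; exact hR
    exact h4 (Subgroup.npow_mem_zpowers t n)
  have h4 := (inv_fix h21 (⟨t ^ n, h3 P hP⟩ : stabilizer G P) hn).2
  rw [Nat.card_eq_one_iff_unique] at h4
  have h5 := h4.1.elim ⟨Q, h3 Q hQ⟩ ⟨P, h3 P hP⟩
  exact congrArg Subtype.val h5

/-- the kernel of the action on the blocks has order five -/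
theorem card_ker [IsSimpleGroup G] (h21 : Nat.card (Sylow 5 G) = 21) (P : Sylow 5 G) : Nat.card (MulAction.toPermHom (stabilizer G P) (Bl P)).ker = 5 := by
  classical
  haveI := Fact.mk Nat.prime_two
  set X := (MulAction.toPermHom (stabilizer G P) (Bl P)).ker with hX
  have hmem : ∀ x ∈ X, ∀ s : Bl P, x • s = s := by
    intro x hx s
    rw [hX, MonoidHom.mem_ker] at hx
    exact congrArg (fun σ : Equiv.Perm (Bl P) => σ s) hx
  have hmem' : ∀ x : stabilizer G P, (∀ s : Bl P, x • s = s) → x ∈ X := by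
    intro x hx
    rw [hX, MonoidHom.mem_ker]
    exact Equiv.ext hx
  have hodd : ¬ 2 ∣ Nat.card X := by
    intro h2
    obtain ⟨x, hx⟩ := exists_prime_orderOf_dvd_card' (G := X) 2 h2
    have hx' : orderOf (((x : X) : stabilizer G P) : G) = 2 := by
      rw [Subgroup.orderOf_coe, Subgroup.orderOf_coe, hx]
    apply not_all h21 (x : stabilizer G P) hx'
    rw [← card_Bl h21 P]
    apply Nat.card_congr
    exact Equiv.subtypeUnivEquiv (fun s => hmem x x.2 s)
  have hcm : ∀ x ∈ X, ∀ y ∈ (P : Subgroup G), (x : G) * y = y * x := by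
    intro x hx
    apply comm_of_coprime (p := 5) (card_five h21 P)
    · exact Sylow.smul_eq_iff_mem_normalizer.mp x.2
    · have h3 : orderOf (x : G) ∣ Nat.card X := by
        rw [Subgroup.orderOf_coe]
        exact Subgroup.orderOf_dvd_natCard X hx
      have h4 : (2 : ℕ).Coprime (orderOf (x : G)) := (Nat.Prime.coprime_iff_not_dvd Nat.prime_two).mpr (fun h5 => hodd (h5.trans h3))
      exact Nat.Coprime.pow_left 2 h4
  have hp5 : ∀ x ∈ X, (x : G) ^ 5 = 1 := by
    intro x hx
    apply faithful h21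
    intro Q
    by_cases hQ : Q = P
    · rw [hQ]
      exact (stabilizer G P).pow_mem x.2 5
    · have h3 : (x : G) • orbit (P : Subgroup G) Q = orbit (P : Subgroup G) Q :=
        congrArg (fun z : Bl P => (z : Set (Sylow 5 G))) (hmem x hx ⟨orbit (P : Subgroup G) Q, Q, hQ, rfl⟩)
      have h4 : (x : G) • Q ∈ orbit (P : Subgroup G) Q := by
        rw [← h3]
        exact Set.smul_mem_smul_set (mem_orbit_self _)
      obtain ⟨⟨y, hy⟩, hyQ⟩ := h4
      have hyQ' : y • Q = (x : G) • Q := hyQ
      have h5 : ∀ k : ℕ, (x : G) ^ k • Q = y ^ k • Q := by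
        intro k
        induction k with
        | zero => rw [pow_zero, pow_zero]
        | succ k ih =>
          have h6 : Commute ((x : G) ^ k) y := Commute.pow_left (hcm x hx y hy) k
          rw [pow_succ, mul_smul, ← hyQ', ← mul_smul, h6.eq, mul_smul, ih, ← mul_smul, ← pow_succ']
      rw [h5 5]
      have h6 : y ^ 5 = 1 := by
        have h7 : orderOf y ∣ 5 := by
          have h8 := Subgroup.orderOf_dvd_natCard (P : Subgroup G) hy
          rwa [show Nat.card (P : Subgroup G) = 5 from card_five h21 P] at h8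
        exact orderOf_dvd_iff_pow_eq_one.mp h7
      rw [h6, one_smul]
  have hX5 : IsPGroup 5 (X.map (stabilizer G P).subtype) := by
    rintro ⟨_, x, hx, rfl⟩
    exact ⟨1, Subtype.ext (by rw [pow_one]; exact hp5 x hx)⟩
  have hPX : (P : Subgroup G) ≤ X.map (stabilizer G P).subtype := by
    intro y hy
    refine ⟨⟨y, smul_self_of_mem hy⟩, ?_, rfl⟩
    apply hmem'
    rintro ⟨s, Q, hQ, rfl⟩
    apply Subtype.ext
    show y • orbit (P : Subgroup G) Q = orbit (P : Subgroup G) Q
    rw [smul_orbit (smul_self_of_mem hy)]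
    apply orbit_eq_iff.mpr
    exact ⟨⟨y, hy⟩, rfl⟩
  have h3 := P.is_maximal' hX5 hPX
  rw [← Subgroup.card_map_of_injective (stabilizer G P).subtype_injective, h3]
  exact card_five h21 P

theorem simple_false [IsSimpleGroup G] (h21 : Nat.card (Sylow 5 G) = 21) : False := by
  classical
  haveI := Fact.mk Nat.prime_two
  haveI : Fact (Nat.Prime 7) := ⟨by norm_num⟩
  obtain ⟨P⟩ := (inferInstance : Nonempty (Sylow 5 G))
  haveI : Finite (Bl P) := Finite.of_injective (fun s : Bl P => (s : Set (Sylow 5 G))) Subtype.val_injective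
  haveI : Fintype (Bl P) := Fintype.ofFinite _
  have hB := card_Bl h21 P
  -- order of the stabilizer
  obtain ⟨m, hm, hm24⟩ : ∃ m, Nat.card (stabilizer G P) = 5 * m ∧ m ∣ 24 := by
    refine ⟨Nat.card (MulAction.toPermHom (stabilizer G P) (Bl P)).range, ?_, ?_⟩
    · have h1 := (MulAction.toPermHom (stabilizer G P) (Bl P)).ker.card_mul_index
      rw [card_ker h21 P, Subgroup.index_ker] at h1
      exact h1.symm
    · have h1 := Subgroup.card_subgroup_dvd_card (MulAction.toPermHom (stabilizer G P) (Bl P)).range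
      rw [Nat.card_eq_fintype_card (α := Equiv.Perm (Bl P)), Fintype.card_perm, ← Nat.card_eq_fintype_card, hB] at h1
      exact h1
  obtain ⟨T⟩ := (inferInstance : Nonempty (Sylow 2 (stabilizer G P)))
  have hT4 : Nat.card T ∣ 4 := by
    rw [← hB]
    apply CfsgLib.H6.card_dvd_of_free
    rintro ⟨t, ht⟩ s hts
    by_contra hne
    have ht1 : (t : G) ≠ 1 := fun h => hne (Subtype.ext (Subtype.ext h))
    refine two_elt_fix h21 t ?_ ht1 s hts
    have h1 : IsPGroup 2 ((T : Subgroup (stabilizer G P)).map (stabilizer G P).subtype) := T.isPGroup'.map _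
    apply h1.to_le
    rw [Subgroup.zpowers_le]
    exact ⟨t, ht, rfl⟩
  have hTc : Nat.card T = 2 ^ (Nat.card (stabilizer G P)).factorization 2 := T.card_eq_multiplicity
  -- the order of G
  have hG := card_stab h21 P
  have hnormal : ∀ N : Subgroup G, N.Normal → N.index ≠ 2 ∧ N.index ≠ 5 := by
    intro N hN
    have h105 : 21 ≤ Nat.card G := by
      rw [← hG]
      have : 0 < Nat.card (stabilizer G P) := Nat.card_pos
      omega
    rcases hN.eq_bot_or_eq_top with h | h
    · rw [h, Subgroup.index_bot]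
      omega
    · rw [h, Subgroup.index_top]
      omega
  have hT4' : Nat.card T = 4 := by
    have h1 : Nat.card T = 1 ∨ Nat.card T = 2 ∨ Nat.card T = 4 := by
      have h2 := Nat.le_of_dvd (by norm_num) hT4
      interval_cases h3 : Nat.card T
      · exact absurd h3 Nat.card_pos.ne'
      · exact Or.inl rfl
      · exact Or.inr (Or.inl rfl)
      · revert hT4; decide
      · exact Or.inr (Or.inr rfl)
    rcases h1 with h1 | h1 | h1
    · -- odd order of the normalizer
      exfalso
      have h2 : ¬ 2 ∣ Nat.card (stabilizer G P) := by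
        intro h3
        have h4 := T.dvd_card_of_dvd_card h3
        rw [show Nat.card (T : Subgroup (stabilizer G P)) = 1 from h1] at h4
        omega
      obtain ⟨N, hN, hNi⟩ := exists_normal_index_of_normalizer_le P (by
        intro n hn
        rw [Subgroup.mem_centralizer_iff]
        intro y hy
        have hnP : n • P = P := Sylow.smul_eq_iff_mem_normalizer.mpr hn
        refine (comm_of_coprime (p := 5) (card_five h21 P) hn ?_ y hy).symm
        have h3 : orderOf n ∣ Nat.card (stabilizer G P) := Subgroup.orderOf_dvd_natCard (stabilizer G P) hnP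
        have h4 : (2 : ℕ).Coprime (orderOf n) := (Nat.Prime.coprime_iff_not_dvd Nat.prime_two).mpr (fun h5 => h2 (h5.trans h3))
        exact Nat.Coprime.pow_left 2 h4)
      rw [show Nat.card P = 5 from card_five h21 P] at hNi
      exact (hnormal N hN).2 hNi
    · exfalso
      obtain ⟨T'⟩ := (inferInstance : Nonempty (Sylow 2 G))
      have h2 : Nat.card T' = 2 := by
        rw [T'.card_eq_multiplicity, ← hG, Nat.factorization_mul Nat.card_pos.ne' (by norm_num), Finsupp.add_apply,
          Nat.factorization_eq_zero_of_not_dvd (n := 21) (p := 2) (by norm_num), add_zero, ← hTc, h1]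
      have h3 : IsCyclic (T' : Subgroup G) := isCyclic_of_prime_card h2
      have h4 : Even (Nat.card G) := by
        rw [even_iff_two_dvd]
        exact (by rw [← h2]; exact Subgroup.card_subgroup_dvd_card (T' : Subgroup G))
      obtain ⟨N, hN⟩ := Cfsg.Agent.S0219.result h4 T' h3
      exact (hnormal N (Subgroup.normal_of_index_eq_two hN)).1 hN
    · exact h1
  have hf2 : (Nat.card (stabilizer G P)).factorization 2 = 2 := by
    rw [hT4'] at hTc
    have : (2 : ℕ) ^ 2 = 2 ^ (Nat.card (stabilizer G P)).factorization 2 := by rw [← hTc]; norm_num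
    exact (Nat.pow_right_injective (le_refl 2) this).symm
  have hm4 : m = 4 ∨ m = 12 := by
    have h1 : 2 ^ 2 ∣ Nat.card (stabilizer G P) := (Nat.prime_two.pow_dvd_iff_le_factorization Nat.card_pos.ne').mpr hf2.ge
    have h2 : ¬ 2 ^ 3 ∣ Nat.card (stabilizer G P) := by
      intro h3
      have h4 := (Nat.prime_two.pow_dvd_iff_le_factorization Nat.card_pos.ne').mp h3
      omega
    rw [hm] at h1 h2
    have h3 := Nat.le_of_dvd (by norm_num) hm24
    interval_cases m <;> first | (exfalso; revert hm24; decide) | (exfalso; revert h1; decide) | (exfalso; revert h2; decide) | omega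
  -- the Sylow 7-subgroups
  obtain ⟨S⟩ := (inferInstance : Nonempty (Sylow 7 G))
  have hst : ∀ Q : Sylow 5 G, ¬ 7 ∣ Nat.card (stabilizer G Q) := by
    intro Q h7
    have h1 : Nat.card (stabilizer G Q) = 5 * m := by
      have h2 := card_stab h21 Q
      rw [← hm]
      exact Nat.eq_of_mul_eq_mul_right (by norm_num : 0 < 21) (h2.trans hG.symm)
    rw [h1] at h7
    rcases hm4 with rfl | rfl <;> revert h7 <;> decide
  have hGc : Nat.card G = 105 * m := by rw [← hG, hm]; ring
  have hS7 : Nat.card S = 7 := by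
    have h7 : 7 ∣ Nat.card S := S.dvd_card_of_dvd_card (by rw [hGc]; exact Dvd.dvd.mul_right (by norm_num) m)
    obtain ⟨k, hk⟩ := IsPGroup.iff_card.mp S.isPGroup'
    have hk1 : k ≠ 0 := by
      rintro rfl
      rw [show Nat.card S = 1 by rw [← pow_zero 7]; exact hk] at h7
      omega
    have hk2 : k < 2 := by
      by_contra hcon
      have h8 : 7 ^ 2 ∣ Nat.card G := by
        refine (pow_dvd_pow 7 (by omega : 2 ≤ k)).trans ?_
        rw [← hk]
        exact Subgroup.card_subgroup_dvd_card (S : Subgroup G)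
      rw [hGc] at h8
      rcases hm4 with rfl | rfl <;> revert h8 <;> decide
    have hk3 : k = 1 := by omega
    rw [hk3, pow_one] at hk
    exact hk
  have hSle : ∀ Q : Sylow 5 G, ¬ (S : Subgroup G) ≤ stabilizer G Q := by
    intro Q h
    apply hst Q
    rw [← hS7]
    exact Subgroup.card_dvd_of_le h
  set NS := normalizer ((S : Subgroup G) : Set G) with hNS
  have h5N : ¬ 5 ∣ Nat.card NS := by
    intro h5
    obtain ⟨⟨x, hx⟩, hxo⟩ := exists_prime_orderOf_dvd_card' (G := NS) 5 h5
    rw [Subgroup.orderOf_mk] at hxo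
    have hc := comm_of_coprime (p := 7) hS7 hx (by rw [hxo]; decide)
    have h1 : IsPGroup 5 (Subgroup.zpowers x) := by
      apply IsPGroup.of_card (n := 1)
      rw [Nat.card_zpowers, hxo, pow_one]
    obtain ⟨Q, hQ⟩ := h1.exists_le_sylow
    have h2 : Subgroup.zpowers x = (Q : Subgroup G) := by
      apply Subgroup.eq_of_le_of_card_ge hQ
      rw [show Nat.card (Q : Subgroup G) = 5 from card_five h21 Q, Nat.card_zpowers, hxo]
    apply hSle Q
    intro s hs
    rw [mem_stabilizer_iff, Sylow.smul_eq_iff_mem_normalizer]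
    apply Subgroup.centralizer_le_normalizer
    rw [Subgroup.mem_centralizer_iff]
    intro y hy
    have hy' : y ∈ Subgroup.zpowers x := by rw [h2]; exact hy
    obtain ⟨n, rfl⟩ := hy'
    have h3 : Commute x s := hc s hs
    exact (h3.zpow_left n).eq
  have h4N : ¬ 4 ∣ Nat.card NS := by
    intro h4
    obtain ⟨U⟩ := (inferInstance : Nonempty (Sylow 2 NS))
    have hU4 : 4 ∣ Nat.card U := by
      have h5 : 2 ^ 2 ∣ Nat.card NS := h4
      rw [U.card_eq_multiplicity]
      exact pow_dvd_pow 2 ((Nat.prime_two.pow_dvd_iff_le_factorization Nat.card_pos.ne').mp h5)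
    haveI := isCyclic_of_prime_card hS7
    let φ : U →* MulAut (S : Subgroup G) := ((S : Subgroup G).normalizerMonoidHom).comp (U : Subgroup NS).subtype
    have hni : ¬ Function.Injective φ := by
      intro hinj
      have h5 := Subgroup.card_dvd_of_injective φ hinj
      rw [IsCyclic.card_mulAut, show Nat.card (S : Subgroup G) = 7 from hS7, Nat.totient_prime (by norm_num)] at h5
      have h6 : 4 ∣ 7 - 1 := hU4.trans h5
      revert h6
      decide
    rw [← MonoidHom.ker_eq_bot_iff] at hni
    obtain ⟨⟨⟨t, htN⟩, htU⟩, htk, ht1⟩ := (Subgroup.bot_or_exists_ne_one φ.ker).resolve_left hni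
    have ht1' : t ≠ 1 := fun h => ht1 (Subtype.ext (Subtype.ext h))
    have hcm : ∀ s ∈ (S : Subgroup G), t * s = s * t := by
      intro s hs
      rw [MonoidHom.mem_ker] at htk
      have h5 : t * s * t⁻¹ = s := congrArg (fun f : MulAut (S : Subgroup G) => ((f ⟨s, hs⟩ : (S : Subgroup G)) : G)) htk
      calc t * s = t * s * t⁻¹ * t := by group
        _ = s * t := by rw [h5]
    have h2 : IsPGroup 2 (Subgroup.zpowers t) := by
      have h1 : IsPGroup 2 ((U : Subgroup NS).map NS.subtype) := U.isPGroup'.map _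
      apply h1.to_le
      rw [Subgroup.zpowers_le]
      exact ⟨⟨t, htN⟩, htU, rfl⟩
    obtain ⟨Q, hQ⟩ := exists_fixed h21 h2
    apply hSle Q
    intro s hs
    rw [mem_stabilizer_iff]
    apply two_unique h21 h2 ht1' hQ
    rw [← mul_smul, hcm s hs, mul_smul, hQ]
  have hn7 := card_sylow_modEq_one 7 G
  have hidx : Nat.card NS * Nat.card (Sylow 7 G) = Nat.card G := by
    rw [S.card_eq_index_normalizer]
    exact NS.card_mul_index
  rw [hGc] at hidx
  have hmod : Nat.card (Sylow 7 G) % 7 = 1 := hn7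
  set n := Nat.card (Sylow 7 G) with hn
  set k := Nat.card NS with hk
  have h5n : 5 ∣ n := by
    have h1 : 5 ∣ k * n := by rw [hidx]; exact Dvd.dvd.mul_right (by norm_num) m
    exact ((by norm_num : Nat.Prime 5).dvd_mul.mp h1).resolve_left h5N
  have h2n : 2 ∣ n := by
    have h1 : 4 ∣ k * n := by
      rw [hidx]
      rcases hm4 with rfl | rfl <;> decide
    by_contra hcon
    have h3 : Nat.Coprime 4 n := by
      have h4 : Nat.Coprime 2 n := (Nat.Prime.coprime_iff_not_dvd Nat.prime_two).mpr hcon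
      exact Nat.Coprime.pow_left 2 h4
    exact h4N (h3.dvd_of_dvd_mul_right h1)
  have hndvd : n ∣ 105 * m := ⟨k, by rw [← hidx, mul_comm]⟩
  rcases hm4 with rfl | rfl
  · have h1 : n ∈ Nat.divisors 420 := Nat.mem_divisors.mpr ⟨hndvd, by norm_num⟩
    have key : ∀ n ∈ Nat.divisors 420, 5 ∣ n → 2 ∣ n → n % 7 ≠ 1 := by decide +kernel
    exact key n h1 h5n h2n hmod
  · have h1 : n ∈ Nat.divisors 1260 := Nat.mem_divisors.mpr ⟨hndvd, by norm_num⟩
    have key : ∀ n ∈ Nat.divisors 1260, 5 ∣ n → 2 ∣ n → n % 7 ≠ 1 := by decide +kernel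
    exact key n h1 h5n h2n hmod

theorem main : ∀ (n : ℕ) (G : Type u) [Group G] [Finite G], Nat.card G = n → Nat.card (Sylow 5 G) ≠ 21 := by
  intro n
  induction n using Nat.strong_induction_on with
  | _ n ih =>
    intro G _ _ hn h21
    haveI := simple_of_minimal (fun H _ _ hH => ih (Nat.card H) (by rw [← hn]; exact hH) H rfl) h21
    exact simple_false h21

end CfsgLib.TS5
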