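import Mathlib
import Cfsg.Agent.EqBase
import Cfsg.Agent.LibTT28

set_option autoImplicit false

/-! The line system of a set of 3-transpositions (helper28). -/

namespace CfsgLib.TTN28

open Cfsg Subgroup CfsgLib.TT28

universe u v

variable {G : Type u} [Group G] {D : Set G}

/-- `p`, `q`, `r` form a line -/
def IsLine (p q r : G) : Prop := ¬ Commute p q ∧ r = q * p * q ∧ p * p = 1 ∧ q * q = 1 ∧ p * q * p = q * p * q

theorem IsLine.s1 {p q r : G} (h : IsLine p q r) : IsLine q p r :=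
  ⟨fun h' => h.1 h'.symm, h.2.1.trans h.2.2.2.2.symm, h.2.2.2.1, h.2.2.1, h.2.2.2.2.symm⟩

theorem IsLine.rot {p q r : G} (h : IsLine p q r) : IsLine q r p := by
  obtain ⟨h1, h2, h3, h4, h5⟩ := h
  have e1 : q * r * q = p := by rw [h2]; calc q * (q * p * q) * q = (q * q) * p * (q * q) := by group
    _ = p := by rw [h4, one_mul, mul_one]
  have e2 : r * r = 1 := by
    rw [h2]; calc q * p * q * (q * p * q) = q * p * (q * q) * p * q := by group
      _ = q * (p * p) * q := by rw [h4]; group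
      _ = 1 := by rw [h3, mul_one, h4]
  have e3 : r * q * r = p := by
    calc r * q * r = (p * q * p) * q * (q * p * q) := by rw [h2, h5]
      _ = p * q * p * (q * q) * p * q := by group
      _ = p * q * (p * p) * q := by rw [h4]; group
      _ = p * (q * q) := by rw [h3]; group
      _ = p := by rw [h4, mul_one]
  refine ⟨fun h => ?_, e3.symm, h4, e2, e1.trans e3.symm⟩
  apply h1
  have h' : q * r = r * q := h
  have e4 : r = p := by rw [← e1, h', mul_assoc, h4, mul_one]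
  rw [e4] at h'
  exact h'.symm

theorem IsLine.third {p q r : G} (h : IsLine p q r) : r = q * p * q⁻¹ := by
  rw [inv_eq_of_mul_eq_one_left h.2.2.2.1]; exact h.2.1

theorem IsLine.uniq {p q r r' : G} (h : IsLine p q r) (h' : IsLine p q r') : r = r' := h.2.1.trans h'.2.1.symm

theorem IsLine.conj {p q r : G} (h : IsLine p q r) (g : G) : IsLine (g * p * g⁻¹) (g * q * g⁻¹) (g * r * g⁻¹) := by
  obtain ⟨h1, h2, h3, h4, h5⟩ := h
  refine ⟨fun h => h1 ((commute_conj g).1 h), ?_, ?_, ?_, ?_⟩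
  · rw [h2]; group
  · calc g * p * g⁻¹ * (g * p * g⁻¹) = g * (p * p) * g⁻¹ := by group
      _ = 1 := by rw [h3]; group
  · calc g * q * g⁻¹ * (g * q * g⁻¹) = g * (q * q) * g⁻¹ := by group
      _ = 1 := by rw [h4]; group
  · calc g * p * g⁻¹ * (g * q * g⁻¹) * (g * p * g⁻¹) = g * (p * q * p) * g⁻¹ := by group
      _ = g * (q * p * q) * g⁻¹ := by rw [h5]
      _ = _ := by group

theorem isLine_of (hS : IsThreeTranspositionSet D) {p q : G} (hp : p ∈ D) (hq : q ∈ D) (h : ¬ Commute p q) :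
    IsLine p q (q * p * q) := ⟨h, rfl, sq hS hp, sq hS hq, braid hS hp hq h⟩

theorem IsLine.ne {p q r : G} (h : IsLine p q r) : p ≠ q := by
  rintro rfl; exact h.1 (Commute.refl _)

theorem IsLine.map {H : Type v} [Group H] (φ : G →* H) (hφ : Function.Injective φ) {p q r : G} (h : IsLine p q r) :
    IsLine (φ p) (φ q) (φ r) := by
  obtain ⟨h1, h2, h3, h4, h5⟩ := h
  refine ⟨fun h => h1 ?_, ?_, ?_, ?_, ?_⟩
  · apply hφ
    rw [map_mul, map_mul]; exact h
  · rw [h2, map_mul, map_mul]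
  · rw [← map_mul, h3, map_one]
  · rw [← map_mul, h4, map_one]
  · rw [← map_mul, ← map_mul, h5, map_mul, map_mul]

/-- the lines -/
theorem mem_lines (hS : IsThreeTranspositionSet D) (hC : CI D) {l : Set D} : l ∈ threeTranspositionLines D ↔
    ∃ x y z : D, IsLine (x : G) y z ∧ l = {w | w = x ∨ w = y ∨ w = z} := by
  constructor
  · rintro ⟨x, y, h, rfl⟩
    have h1 := isLine_of hS x.2 y.2 h
    have e : (y : G) * x * y = y * x * (y : G)⁻¹ := h1.third
    refine ⟨x, y, ⟨y * x * (y : G)⁻¹, hC _ _ x.2⟩, ?_, ?_⟩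
    · show IsLine (x : G) y (y * x * (y : G)⁻¹)
      rw [← e]; exact h1
    · ext w; simp only [Set.mem_setOf_eq, Subtype.ext_iff]
  · rintro ⟨x, y, z, h, rfl⟩
    refine ⟨x, y, h.1, ?_⟩
    ext w; simp only [Set.mem_setOf_eq, Subtype.ext_iff]; rw [h.third]

theorem line_through (hS : IsThreeTranspositionSet D) (hC : CI D) {l : Set D} (hl : l ∈ threeTranspositionLines D)
    {p q : D} (hp : p ∈ l) (hq : q ∈ l) (hpq : p ≠ q) : ∃ r : D, IsLine (p : G) q r ∧ l = {w | w = p ∨ w = q ∨ w = r} := by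
  obtain ⟨x, y, z, h, rfl⟩ := (mem_lines hS hC).1 hl
  rcases hp with rfl | rfl | rfl <;> rcases hq with rfl | rfl | rfl
  · exact absurd rfl hpq
  · exact ⟨z, h, rfl⟩
  · exact ⟨y, h.rot.rot.s1, by ext w; simp only [Set.mem_setOf_eq]; tauto⟩
  · exact ⟨z, h.s1, by ext w; simp only [Set.mem_setOf_eq]; tauto⟩
  · exact absurd rfl hpq
  · exact ⟨x, h.rot, by ext w; simp only [Set.mem_setOf_eq]; tauto⟩
  · exact ⟨y, h.rot.rot, by ext w; simp only [Set.mem_setOf_eq]; tauto⟩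
  · exact ⟨x, h.rot.s1, by ext w; simp only [Set.mem_setOf_eq]; tauto⟩
  · exact absurd rfl hpq

theorem partialLinear (hS : IsThreeTranspositionSet D) (hC : CI D) :
    LineSystem.IsPartialLinear (threeTranspositionLines D) := by
  intro l hl m hm x y hxy hxl hyl hxm hym
  obtain ⟨r, hr, rfl⟩ := line_through hS hC hl hxl hyl hxy
  obtain ⟨s, hs, rfl⟩ := line_through hS hC hm hxm hym hxy
  have : r = s := Subtype.ext (hr.uniq hs)
  rw [this]

theorem ncard_line (hS : IsThreeTranspositionSet D) (hC : CI D) {l : Set D} (hl : l ∈ threeTranspositionLines D) :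
    l.ncard = 3 := by
  obtain ⟨x, y, z, h, rfl⟩ := (mem_lines hS hC).1 hl
  have h1 : x ≠ y := fun e => h.ne (congrArg _ e)
  have h2 : y ≠ z := fun e => h.rot.ne (congrArg _ e)
  have h3 : z ≠ x := fun e => h.rot.rot.ne (congrArg _ e)
  exact Set.ncard_eq_three.2 ⟨x, y, z, h1, h3.symm, h2, by ext w; simp⟩

theorem restrict_iff {X : Type u} (L : Set (Set X)) (S : Set X) (l : Set S) :
    l ∈ LineSystem.restrict L S ↔ Subtype.val '' l ∈ L := by
  constructor
  · rintro ⟨m, hm, hmS, rfl⟩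
    have : Subtype.val '' {x : S | (x : X) ∈ m} = m := by
      ext x
      constructor
      · rintro ⟨y, hy, rfl⟩; exact hy
      · intro hx; exact ⟨⟨x, hmS hx⟩, hx, rfl⟩
    rwa [this]
  · intro h
    refine ⟨_, h, ?_, ?_⟩
    · rintro x ⟨y, -, rfl⟩; exact y.2
    · ext x
      constructor
      · intro hx; exact ⟨x, hx, rfl⟩
      · rintro ⟨y, hy, e⟩
        rwa [← Subtype.ext e]

theorem subspace_third (hS : IsThreeTranspositionSet D) (hC : CI D) {T : Set D}
    (hT : LineSystem.IsSubspace (threeTranspositionLines D) T) {p q r : D} (h : IsLine (p : G) q r) (hp : p ∈ T) (hq : q ∈ T) :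
    r ∈ T := by
  have h1 : {w | w = p ∨ w = q ∨ w = r} ∈ threeTranspositionLines D := (mem_lines hS hC).2 ⟨p, q, r, h, rfl⟩
  exact hT _ h1 p hp q hq (fun e => h.ne (congrArg _ e)) (Or.inl rfl) (Or.inr (Or.inl rfl)) (Or.inr (Or.inr rfl))

/-- recognizing a plane -/
theorem iso_plane (hS : IsThreeTranspositionSet D) (hC : CI D) {Y : Type v} (M : Set (Set Y)) (N : Y → Y → Prop) (t : Y → Y → Y)
    (hM : ∀ m, m ∈ M ↔ ∃ y z, N y z ∧ m = {w | w = y ∨ w = z ∨ w = t y z})
    (φ : Y → D) (hφ : Function.Injective φ) (hN : ∀ y z, N y z → IsLine (φ y : G) (φ z) (φ (t y z)))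
    (hN' : ∀ y z, ¬ N y z → Commute (φ y : G) (φ z)) (S : Set D) (h1 : S ⊆ Set.range φ)
    (h2 : ∀ T, LineSystem.IsSubspace (threeTranspositionLines D) T → S ⊆ T → ∀ y, φ y ∈ T) :
    LineSystem.Isomorphic (LineSystem.restrict (threeTranspositionLines D) (LineSystem.span (threeTranspositionLines D) S)) M := by
  have key : ∀ m : Set Y, m ∈ M ↔ φ '' m ∈ threeTranspositionLines D := by
    intro m
    rw [hM, mem_lines hS hC]
    constructor
    · rintro ⟨y, z, h, rfl⟩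
      refine ⟨φ y, φ z, φ (t y z), hN y z h, ?_⟩
      ext w
      constructor
      · rintro ⟨v, (rfl | rfl | rfl), rfl⟩
        exacts [Or.inl rfl, Or.inr (Or.inl rfl), Or.inr (Or.inr rfl)]
      · rintro (rfl | rfl | rfl)
        exacts [⟨_, Or.inl rfl, rfl⟩, ⟨_, Or.inr (Or.inl rfl), rfl⟩, ⟨_, Or.inr (Or.inr rfl), rfl⟩]
    · rintro ⟨x, y, z, h, e⟩
      have hx : x ∈ φ '' m := by rw [e]; exact Or.inl rfl
      have hy : y ∈ φ '' m := by rw [e]; exact Or.inr (Or.inl rfl)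
      obtain ⟨u, hu, rfl⟩ := hx
      obtain ⟨v, hv, rfl⟩ := hy
      have hNuv : N u v := by
        by_contra hn
        exact h.1 (hN' u v hn)
      have hz : z = φ (t u v) := Subtype.ext (h.uniq (hN u v hNuv))
      refine ⟨u, v, hNuv, Set.image_injective.2 hφ ?_⟩
      rw [e, hz]
      ext w
      constructor
      · rintro (rfl | rfl | rfl)
        exacts [⟨_, Or.inl rfl, rfl⟩, ⟨_, Or.inr (Or.inl rfl), rfl⟩, ⟨_, Or.inr (Or.inr rfl), rfl⟩]
      · rintro ⟨v, (rfl | rfl | rfl), rfl⟩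
        exacts [Or.inl rfl, Or.inr (Or.inl rfl), Or.inr (Or.inr rfl)]
  have hspan : LineSystem.span (threeTranspositionLines D) S = Set.range φ := by
    apply Set.Subset.antisymm
    · intro x hx
      apply hx (Set.range φ)
      refine ⟨h1, ?_⟩
      rintro l hl x ⟨u, rfl⟩ y ⟨v, rfl⟩ hxy hxl hyl
      obtain ⟨r, hr, rfl⟩ := line_through hS hC hl hxl hyl hxy
      have hNuv : N u v := by
        by_contra hn
        exact hr.1 (hN' u v hn)
      have hz : r = φ (t u v) := Subtype.ext (hr.uniq (hN u v hNuv))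
      rintro w (rfl | rfl | rfl)
      exacts [⟨_, rfl⟩, ⟨_, rfl⟩, ⟨_, hz.symm⟩]
    · rintro x ⟨y, rfl⟩ T ⟨hT1, hT2⟩
      exact h2 T hT2 hT1 y
  rw [hspan]
  refine ⟨(Equiv.ofInjective φ hφ).symm, ?_⟩
  intro l
  rw [restrict_iff, key]
  have : φ '' ((Equiv.ofInjective φ hφ).symm '' l) = Subtype.val '' l := by
    rw [← Set.image_comp]
    apply Set.image_congr
    intro x _
    exact Equiv.apply_ofInjective_symm hφ x
  rw [this]

/-! ### the dual affine plane -/

/-- the transposition of a pair -/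
def sw (s : DualAffinePoint) : Equiv.Perm (Fin 4) :=
  if s.1 = {0, 1} then Equiv.swap 0 1 else if s.1 = {0, 2} then Equiv.swap 0 2 else if s.1 = {0, 3} then Equiv.swap 0 3
  else if s.1 = {1, 2} then Equiv.swap 1 2 else if s.1 = {1, 3} then Equiv.swap 1 3 else Equiv.swap 2 3

/-- the third pair -/
def tp (s t : DualAffinePoint) : DualAffinePoint :=
  if h : (symmDiff s.1 t.1).card = 2 then ⟨symmDiff s.1 t.1, h⟩ else s

instance : Fintype DualAffinePoint := inferInstanceAs (Fintype {s : Finset (Fin 4) // s.card = 2})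

theorem dual_lines : ∀ m, m ∈ dualAffinePlaneTwo ↔
    ∃ y z : DualAffinePoint, (y.1 ∩ z.1).card = 1 ∧ m = {w | w = y ∨ w = z ∨ w = tp y z} := by
  have h1 : ∀ i : Fin 4, ∃ y z : DualAffinePoint, (y.1 ∩ z.1).card = 1 ∧ ∀ s : DualAffinePoint, i ∉ s.1 ↔ (s = y ∨ s = z ∨ s = tp y z) := by
    decide +kernel
  have h2 : ∀ y z : DualAffinePoint, (y.1 ∩ z.1).card = 1 → ∃ i : Fin 4, ∀ s : DualAffinePoint, i ∉ s.1 ↔ (s = y ∨ s = z ∨ s = tp y z) := by
    decide +kernel
  intro m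
  constructor
  · rintro ⟨i, rfl⟩
    obtain ⟨y, z, hyz, h⟩ := h1 i
    refine ⟨y, z, hyz, ?_⟩
    ext s; exact h s
  · rintro ⟨y, z, hyz, rfl⟩
    obtain ⟨i, h⟩ := h2 y z hyz
    refine ⟨i, ?_⟩
    ext s; exact (h s).symm

theorem sw_conj : ∀ s : DualAffinePoint, ∃ g : Equiv.Perm (Fin 4), sw s = g * Equiv.swap 0 1 * g⁻¹ := by
  decide +kernel

theorem sw_inj : ∀ s t : DualAffinePoint, sw s = sw t → s = t := by
  decide +kernel

theorem sw_line : ∀ s t : DualAffinePoint, (s.1 ∩ t.1).card = 1 → (¬ (sw s * sw t = sw t * sw s) ∧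
    sw (tp s t) = sw t * sw s * sw t ∧ sw s * sw s = 1 ∧ sw t * sw t = 1 ∧ sw s * sw t * sw s = sw t * sw s * sw t) := by
  decide +kernel

theorem sw_comm : ∀ s t : DualAffinePoint, ¬ (s.1 ∩ t.1).card = 1 → (sw s * sw t = sw t * sw s) := by
  decide +kernel

theorem dual_case (hS : IsThreeTranspositionSet D) (hC : CI D) {a b b' c c' : D} (h1 : IsLine (a : G) b b')
    (h2 : IsLine (a : G) c c') (hbc : Commute (b : G) c) (hne : b ≠ c) (S : Set D) (haS : a ∈ S) (hbS : b ∈ S) (hcS : c ∈ S)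
    (hSs : ∀ w ∈ S, w = a ∨ w = b ∨ w = b' ∨ w = c ∨ w = c') :
    LineSystem.Isomorphic (LineSystem.restrict (threeTranspositionLines D) (LineSystem.span (threeTranspositionLines D) S))
      dualAffinePlaneTwo := by
  obtain ⟨φ, hφ, e1, e2, e3⟩ := exists_s4 hS b.2 a.2 c.2 (fun e => hne (Subtype.ext e)) hbc (fun h => h1.1 h.symm) h2.1
  have hmem : ∀ s, φ (sw s) ∈ D := by
    intro s
    obtain ⟨g, hg⟩ := sw_conj s
    rw [hg, map_mul, map_mul, map_inv, e1]
    exact hC _ _ b.2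
  let ψ : DualAffinePoint → D := fun s => ⟨φ (sw s), hmem s⟩
  have hL : ∀ y z : DualAffinePoint, (y.1 ∩ z.1).card = 1 → IsLine (ψ y : G) (ψ z) (ψ (tp y z)) := by
    intro y z h
    have := sw_line y z h
    exact IsLine.map φ hφ (p := sw y) (q := sw z) (r := sw (tp y z)) this
  have p12 : ψ ⟨{1, 2}, rfl⟩ = a := Subtype.ext e2
  have p01 : ψ ⟨{0, 1}, rfl⟩ = b := Subtype.ext e1
  have p23 : ψ ⟨{2, 3}, rfl⟩ = c := Subtype.ext e3
  have l1 := hL ⟨{1, 2}, rfl⟩ ⟨{0, 1}, rfl⟩ (by decide)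
  have l2 := hL ⟨{1, 2}, rfl⟩ ⟨{2, 3}, rfl⟩ (by decide)
  have l3 := hL ⟨{0, 2}, rfl⟩ ⟨{2, 3}, rfl⟩ (by decide)
  rw [show tp ⟨{1, 2}, rfl⟩ ⟨{0, 1}, rfl⟩ = ⟨{0, 2}, rfl⟩ by decide, p12, p01] at l1
  rw [show tp ⟨{1, 2}, rfl⟩ ⟨{2, 3}, rfl⟩ = ⟨{1, 3}, rfl⟩ by decide, p12, p23] at l2
  rw [show tp ⟨{0, 2}, rfl⟩ ⟨{2, 3}, rfl⟩ = ⟨{0, 3}, rfl⟩ by decide, p23] at l3
  have p02 : ψ ⟨{0, 2}, rfl⟩ = b' := Subtype.ext (l1.uniq h1)
  have p13 : ψ ⟨{1, 3}, rfl⟩ = c' := Subtype.ext (l2.uniq h2)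
  apply iso_plane hS hC dualAffinePlaneTwo (fun y z : DualAffinePoint => (y.1 ∩ z.1).card = 1) tp dual_lines ψ ?_ hL ?_ S ?_ ?_
  · intro s t h
    exact sw_inj s t (hφ (congrArg Subtype.val h))
  · intro y z h
    have := congrArg φ (sw_comm y z h)
    rw [map_mul, map_mul] at this
    exact this
  · intro w hw
    rcases hSs w hw with rfl | rfl | rfl | rfl | rfl
    exacts [⟨_, p12⟩, ⟨_, p01⟩, ⟨_, p02⟩, ⟨_, p23⟩, ⟨_, p13⟩]
  · intro T hT hST
    have m12 : ψ ⟨{1, 2}, rfl⟩ ∈ T := by rw [p12]; exact hST haS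
    have m01 : ψ ⟨{0, 1}, rfl⟩ ∈ T := by rw [p01]; exact hST hbS
    have m23 : ψ ⟨{2, 3}, rfl⟩ ∈ T := by rw [p23]; exact hST hcS
    have m02 : ψ ⟨{0, 2}, rfl⟩ ∈ T := subspace_third hS hC hT (p := a) (q := b) l1 (hST haS) (hST hbS)
    have m13 : ψ ⟨{1, 3}, rfl⟩ ∈ T := subspace_third hS hC hT (p := a) (q := c) l2 (hST haS) (hST hcS)
    have m03 : ψ ⟨{0, 3}, rfl⟩ ∈ T := subspace_third hS hC hT (q := c) l3 m02 (hST hcS)
    intro y
    have hall : ∀ y : DualAffinePoint, y = ⟨{0, 1}, rfl⟩ ∨ y = ⟨{0, 2}, rfl⟩ ∨ y = ⟨{0, 3}, rfl⟩ ∨ y = ⟨{1, 2}, rfl⟩ ∨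
        y = ⟨{1, 3}, rfl⟩ ∨ y = ⟨{2, 3}, rfl⟩ := by decide +kernel
    rcases hall y with rfl | rfl | rfl | rfl | rfl | rfl
    exacts [m01, m02, m03, m12, m13, m23]

/-! ### the affine plane -/

/-- the affine plane table -/
theorem aff_all (P : Fin 3 → Fin 3 → G) (L1 : IsLine (P 0 0) (P 1 0) (P 2 0)) (L2 : IsLine (P 0 1) (P 1 1) (P 2 1)) (L3 : IsLine (P 0 2) (P 1 2) (P 2 2)) (L4 : IsLine (P 0 0) (P 0 1) (P 0 2)) (L5 : IsLine (P 1 0) (P 1 1) (P 1 2)) (L6 : IsLine (P 2 0) (P 2 1) (P 2 2)) (L7 : IsLine (P 0 0) (P 1 1) (P 2 2)) (L8 : IsLine (P 1 0) (P 2 1) (P 0 2)) (L9 : IsLine (P 2 0) (P 0 1) (P 1 2)) (L10 : IsLine (P 0 0) (P 1 2) (P 2 1)) (L11 : IsLine (P 1 0) (P 2 2) (P 0 1)) (L12 : IsLine (P 2 0) (P 0 2) (P 1 1)) :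
    ∀ i j k l : Fin 3, ¬ (i = k ∧ j = l) → IsLine (P i j) (P k l) (P (-i - k) (-j - l)) := by
  intro i j k l h
  fin_cases i <;> fin_cases j <;> fin_cases k <;> fin_cases l
  all_goals first | exact absurd ⟨rfl, rfl⟩ h | exact L1 | exact L1.s1 | exact L1.rot | exact L1.rot.s1 | exact L1.rot.rot | exact L1.rot.rot.s1 | exact L2 | exact L2.s1 | exact L2.rot | exact L2.rot.s1 | exact L2.rot.rot | exact L2.rot.rot.s1 | exact L3 | exact L3.s1 | exact L3.rot | exact L3.rot.s1 | exact L3.rot.rot | exact L3.rot.rot.s1 | exact L4 | exact L4.s1 | exact L4.rot | exact L4.rot.s1 | exact L4.rot.rot | exact L4.rot.rot.s1 | exact L5 | exact L5.s1 | exact L5.rot | exact L5.rot.s1 | exact L5.rot.rot | exact L5.rot.rot.s1 | exact L6 | exact L6.s1 | exact L6.rot | exact L6.rot.s1 | exact L6.rot.rot | exact L6.rot.rot.s1 | exact L7 | exact L7.s1 | exact L7.rot | exact L7.rot.s1 | exact L7.rot.rot | exact L7.rot.rot.s1 | exact L8 | exact L8.s1 | exact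 L8.rot | exact L8.rot.s1 | exact L8.rot.rot | exact L8.rot.rot.s1 | exact L9 | exact L9.s1 | exact L9.rot | exact L9.rot.s1 | exact L9.rot.rot | exact L9.rot.rot.s1 | exact L10 | exact L10.s1 | exact L10.rot | exact L10.rot.s1 | exact L10.rot.rot | exact L10.rot.rot.s1 | exact L11 | exact L11.s1 | exact L11.rot | exact L11.rot.s1 | exact L11.rot.rot | exact L11.rot.rot.s1 | exact L12 | exact L12.s1 | exact L12.rot | exact L12.rot.s1 | exact L12.rot.rot | exact L12.rot.rot.s1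

theorem aff_lines : ∀ m, m ∈ affinePlaneThree ↔
    ∃ y z : Fin 2 → ZMod 3, y ≠ z ∧ m = {w | w = y ∨ w = z ∨ w = -y - z} := by
  have h3 : ∀ c : ZMod 3, c = 0 ∨ c = 1 ∨ c = 2 := by decide
  have h30 : (3 : ZMod 3) = 0 := by decide
  have hline : ∀ y w : Fin 2 → ZMod 3, {x | ∃ c : ZMod 3, x = y + c • w} = {x | x = y ∨ x = y + w ∨ x = - y - (y + w)} := by
    intro y w
    have e0 : y + (0 : ZMod 3) • w = y := by rw [zero_smul, add_zero]
    have e1 : y + (1 : ZMod 3) • w = y + w := by rw [one_smul]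
    have e2 : y + (2 : ZMod 3) • w = - y - (y + w) := by
      ext i
      simp only [Pi.add_apply, Pi.smul_apply, Pi.neg_apply, Pi.sub_apply, smul_eq_mul]
      linear_combination (y i + w i) * h30
    ext x
    constructor
    · rintro ⟨c, rfl⟩
      rcases h3 c with rfl | rfl | rfl
      · exact Or.inl e0
      · exact Or.inr (Or.inl e1)
      · exact Or.inr (Or.inr e2)
    · rintro (rfl | rfl | rfl)
      · exact ⟨0, e0.symm⟩
      · exact ⟨1, e1.symm⟩
      · exact ⟨2, e2.symm⟩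
  intro m
  constructor
  · rintro ⟨v, w, hw, rfl⟩
    refine ⟨v, v + w, fun e => hw ?_, hline v w⟩
    exact (add_eq_left.1 e.symm)
  · rintro ⟨y, z, hyz, rfl⟩
    refine ⟨y, z - y, fun e => hyz ?_, ?_⟩
    · exact (sub_eq_zero.1 e).symm
    · rw [hline, add_sub_cancel]

theorem IsLine.qpq {p q r : G} (h : IsLine p q r) : q * p * q = r := h.2.1.symm
theorem IsLine.pqp {p q r : G} (h : IsLine p q r) : p * q * p = r := h.s1.2.1.symm
theorem IsLine.qrq {p q r : G} (h : IsLine p q r) : q * r * q = p := h.rot.s1.2.1.symm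
theorem IsLine.rqr {p q r : G} (h : IsLine p q r) : r * q * r = p := h.rot.2.1.symm
theorem IsLine.rpr {p q r : G} (h : IsLine p q r) : r * p * r = q := h.rot.rot.s1.2.1.symm
theorem IsLine.prp {p q r : G} (h : IsLine p q r) : p * r * p = q := h.rot.rot.2.1.symm

theorem IsLine.cj {p q r g p' q' : G} (h : IsLine p q r) (hg : g * g = 1) (hp : g * p * g = p') (hq : g * q * g = q') :
    IsLine p' q' (g * r * g) := by
  have := h.conj g
  rw [inv_eq_of_mul_eq_one_left hg, hp, hq] at this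
  exact this

/-- the nine elements of an affine plane -/
def Tb (a b c b' c' d f : G) : Fin 3 → Fin 3 → G := ![![a, c, c'], ![b, a * d * a, a * f * a], ![b', f, d]]

theorem dbl {a x : G} (ha : a * a = 1) : a * (a * x * a) * a = x := by
  calc a * (a * x * a) * a = (a * a) * x * (a * a) := by group
    _ = x := by rw [ha, one_mul, mul_one]

theorem aff_table {a b c b' c' d f : G} (h1 : IsLine a b b') (h2 : IsLine a c c') (h3 : IsLine b c d) (h4 : IsLine b c' f) :
    ∀ i j k l : Fin 3, ¬ (i = k ∧ j = l) → IsLine (Tb a b c b' c' d f i j) (Tb a b c b' c' d f k l)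
      (Tb a b c b' c' d f (-i - k) (-j - l)) := by
  have a2 := h1.2.2.1
  have b2 := h1.2.2.2.1
  have c2 := h2.2.2.2.1
  have b'2 := h1.rot.2.2.2.1
  have c'2 := h2.rot.2.2.2.1
  have d2 := h3.rot.2.2.2.1
  have f2 := h4.rot.2.2.2.1
  -- the basic conjugations
  have L10 : IsLine a f (a * f * a) := by
    have h := h3.s1.cj (g := c') (p' := a) (q' := f) c'2 h2.rqr h4.qpq
    rw [h.pqp]; exact h
  have L7 : IsLine a d (a * d * a) := by
    have h := h4.s1.cj (g := c) (p' := a) (q' := d) c2 h2.qrq h3.qpq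
    rw [h.pqp]; exact h
  have L9 : IsLine b' c (a * f * a) := h4.cj a2 h1.pqp h2.prp
  have L12 : IsLine b' c' (a * d * a) := h3.cj a2 h1.pqp h2.pqp
  -- `d b' d = f`
  have hdb : d * b = b * c := by
    calc d * b = c * b * c * b := by rw [← h3.qpq]
      _ = c * (b * c * b) := by group
      _ = c * (c * b * c) := by rw [h3.pqp, h3.qpq]
      _ = (c * c) * (b * c) := by group
      _ = b * c := by rw [c2, one_mul]
  have hbd : b * d = c * b := by
    calc b * d = b * (c * b * c) := by rw [← h3.qpq]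
      _ = (b * c * b) * c := by group
      _ = (c * b * c) * c := by rw [h3.pqp, h3.qpq]
      _ = c * b * (c * c) := by group
      _ = c * b := by rw [c2, mul_one]
  have hdc : d * c = c * b := by
    calc d * c = (c * b * c) * c := by rw [← h3.qpq]
      _ = c * b * (c * c) := by group
      _ = c * b := by rw [c2, mul_one]
  have hcd : c * d = b * c := by
    calc c * d = c * (c * b * c) := by rw [← h3.qpq]
      _ = (c * c) * (b * c) := by group
      _ = b * c := by rw [c2, one_mul]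
  have e1 : d * b' * d = f := by
    calc d * b' * d = d * (b * a * b) * d := by rw [← h1.qpq]
      _ = (d * b) * a * (b * d) := by group
      _ = b * (c * a * c) * b := by rw [hdb, hbd]; group
      _ = f := by rw [h2.qpq, h4.pqp]
  have e2 : d * c' * d = a * f * a := by
    calc d * c' * d = d * (c * a * c) * d := by rw [← h2.qpq]
      _ = (d * c) * a * (c * d) := by group
      _ = c * (b * a * b) * c := by rw [hdc, hcd]; group
      _ = a * f * a := by rw [h1.qpq, L9.qpq]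
  have e3 : d * a * d = a * d * a := L7.qpq
  have L2 : IsLine c (a * d * a) f := by
    have := h1.s1.cj (g := d) (p' := c) (q' := a * d * a) d2 (by rw [h3.rpr]) e3
    rwa [e1] at this
  have L5 : IsLine b (a * d * a) (a * f * a) := by
    have := h2.s1.cj (g := d) (p' := b) (q' := a * d * a) d2 (by rw [h3.rqr]) e3
    rwa [e2] at this
  have L3 : IsLine c' (a * f * a) d := by
    have := L2.cj (g := a) (p' := c') (q' := d) a2 h2.pqp (dbl a2)
    exact this.rot.rot.s1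
  have L6 : IsLine b' f d := by
    have := L5.cj (g := a) (p' := b') (q' := d) a2 h1.pqp (dbl a2)
    rw [dbl a2] at this
    exact this.rot.rot.s1
  exact aff_all (Tb a b c b' c' d f) h1 L2 L3 h2 L5 L6 L7.rot.rot.s1 h4.rot.rot.s1 L9 L10.rot.rot.s1 h3.rot.rot.s1 L12

theorem aff_case (hS : IsThreeTranspositionSet D) (hC : CI D) {a b b' c c' : D} (h1 : IsLine (a : G) b b')
    (h2 : IsLine (a : G) c c') (hbc : ¬ Commute (b : G) c) (hbc' : ¬ Commute (b : G) c') (S : Set D) (haS : a ∈ S) (hbS : b ∈ S) (hcS : c ∈ S)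
    (hSs : ∀ w ∈ S, w = a ∨ w = b ∨ w = b' ∨ w = c ∨ w = c') :
    LineSystem.Isomorphic (LineSystem.restrict (threeTranspositionLines D) (LineSystem.span (threeTranspositionLines D) S))
      affinePlaneThree := by
  have h3 := isLine_of hS b.2 c.2 hbc
  have h4 := isLine_of hS b.2 c'.2 hbc'
  have hT := aff_table h1 h2 h3 h4
  have inD : ∀ {x y : G}, x ∈ D → y ∈ D → x * y * x ∈ D := by
    intro x y hx hy
    have := hC x y hy
    rwa [inv_eq hS hx] at this
  have hmem : ∀ i j : Fin 3, Tb (a : G) b c b' c' (c * b * c) (c' * b * c') i j ∈ D := by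
    intro i j
    fin_cases i <;> fin_cases j
    exacts [a.2, c.2, c'.2, b.2, inD a.2 (inD c.2 b.2), inD a.2 (inD c'.2 b.2), b'.2, inD c'.2 b.2, inD c.2 b.2]
  let ψ : (Fin 2 → ZMod 3) → D := fun v => ⟨_, hmem (v 0) (v 1)⟩
  have hL : ∀ y z : Fin 2 → ZMod 3, y ≠ z → IsLine (ψ y : G) (ψ z) (ψ (-y - z)) := by
    intro y z h
    refine hT (y 0) (y 1) (z 0) (z 1) (fun h' => h ?_)
    ext i
    fin_cases i
    exacts [h'.1, h'.2]
  have p00 : ψ ![0, 0] = a := Subtype.ext rfl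
  have p10 : ψ ![1, 0] = b := Subtype.ext rfl
  have p01 : ψ ![0, 1] = c := Subtype.ext rfl
  have p20 : ψ ![2, 0] = b' := Subtype.ext rfl
  have p02 : ψ ![0, 2] = c' := Subtype.ext rfl
  apply iso_plane hS hC affinePlaneThree (fun y z => y ≠ z) (fun y z => -y - z) aff_lines ψ ?_ hL ?_ S ?_ ?_
  · intro s t h
    by_contra hne
    exact (hL s t hne).ne (congrArg Subtype.val h)
  · intro y z h
    rw [not_not.1 h]
  · intro w hw
    rcases hSs w hw with rfl | rfl | rfl | rfl | rfl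
    exacts [⟨_, p00⟩, ⟨_, p10⟩, ⟨_, p20⟩, ⟨_, p01⟩, ⟨_, p02⟩]
  · intro T hT' hST
    have third : ∀ y z : Fin 2 → ZMod 3, y ≠ z → ψ y ∈ T → ψ z ∈ T → ψ (-y - z) ∈ T := fun y z h hy hz =>
      subspace_third hS hC hT' (hL y z h) hy hz
    have m00 : ψ ![0, 0] ∈ T := by rw [p00]; exact hST haS
    have m10 : ψ ![1, 0] ∈ T := by rw [p10]; exact hST hbS
    have m01 : ψ ![0, 1] ∈ T := by rw [p01]; exact hST hcS
    have m20 : ψ ![2, 0] ∈ T := third ![0, 0] ![1, 0] (by decide) m00 m10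
    have m02 : ψ ![0, 2] ∈ T := third ![0, 0] ![0, 1] (by decide) m00 m01
    have m22 : ψ ![2, 2] ∈ T := third ![1, 0] ![0, 1] (by decide) m10 m01
    have m21 : ψ ![2, 1] ∈ T := third ![1, 0] ![0, 2] (by decide) m10 m02
    have m11 : ψ ![1, 1] ∈ T := third ![0, 0] ![2, 2] (by decide) m00 m22
    have m12 : ψ ![1, 2] ∈ T := third ![0, 0] ![2, 1] (by decide) m00 m21
    intro y
    have hall : ∀ y : Fin 2 → ZMod 3, y = ![0, 0] ∨ y = ![0, 1] ∨ y = ![0, 2] ∨ y = ![1, 0] ∨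
        y = ![1, 1] ∨ y = ![1, 2] ∨ y = ![2, 0] ∨ y = ![2, 1] ∨ y = ![2, 2] := by decide +kernel
    rcases hall y with rfl | rfl | rfl | rfl | rfl | rfl | rfl | rfl | rfl
    exacts [m00, m01, m02, m10, m11, m12, m20, m21, m22]

theorem isFischerSpace (hS : IsThreeTranspositionSet D) (hC : CI D) : IsFischerSpace (threeTranspositionLines D) := by
  refine ⟨partialLinear hS hC, fun l hl => ncard_line hS hC hl, ?_⟩
  rintro l hl m hm hlm ⟨a, hal, ham⟩
  obtain ⟨b0, hb0, hb0a⟩ : ∃ b ∈ l, b ≠ a := by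
    have := ncard_line hS hC hl
    by_contra hcon
    push Not at hcon
    have h2 : l ⊆ {a} := fun x hx => hcon x hx
    have h3 := Set.ncard_le_ncard h2
    rw [Set.ncard_singleton] at h3
    omega
  obtain ⟨b0', h1, rfl⟩ := line_through hS hC hl hal hb0 hb0a.symm
  obtain ⟨c0, hc0, hc0a⟩ : ∃ b ∈ m, b ≠ a := by
    have := ncard_line hS hC hm
    by_contra hcon
    push Not at hcon
    have h2 : m ⊆ {a} := fun x hx => hcon x hx
    have h3 := Set.ncard_le_ncard h2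
    rw [Set.ncard_singleton] at h3
    omega
  obtain ⟨c0', h2, rfl⟩ := line_through hS hC hm ham hc0 hc0a.symm
  -- general form
  have hgen : ∀ b b' c c' : D, IsLine (a : G) b b' → IsLine (a : G) c c' → b ≠ c →
      (∀ w, (w = a ∨ w = b ∨ w = b' ∨ w = c ∨ w = c') ↔ (w = a ∨ w = b0 ∨ w = b0' ∨ w = c0 ∨ w = c0')) →
      Commute (b : G) c →
      LineSystem.Isomorphic (LineSystem.restrict (threeTranspositionLines D) (LineSystem.span (threeTranspositionLines D)
        ({w | w = a ∨ w = b0 ∨ w = b0'} ∪ {w | w = a ∨ w = c0 ∨ w = c0'}))) dualAffinePlaneTwo := by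
    intro b b' c c' k1 k2 hne hw hcomm
    have hw' : ∀ w, (w = a ∨ w = b ∨ w = b' ∨ w = c ∨ w = c') ↔ w ∈ ({w | w = a ∨ w = b0 ∨ w = b0'} ∪ {w | w = a ∨ w = c0 ∨ w = c0'} : Set D) := by
      intro w
      rw [hw w]
      simp only [Set.mem_union, Set.mem_setOf_eq]
      tauto
    exact dual_case hS hC k1 k2 hcomm hne _ ((hw' a).1 (by tauto)) ((hw' b).1 (by tauto)) ((hw' c).1 (by tauto)) (fun w hw => (hw' w).2 hw)
  have hne1 : b0 ≠ c0 := by
    rintro rfl
    apply hlm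
    have : b0' = c0' := Subtype.ext (h1.uniq h2)
    rw [this]
  have hne2 : b0 ≠ c0' := by
    rintro rfl
    apply hlm
    have : b0' = c0 := Subtype.ext (h1.uniq h2.rot.rot.s1)
    rw [this]
    ext w; simp only [Set.mem_setOf_eq]; tauto
  by_cases k1 : Commute (b0 : G) c0
  · exact Or.inl (hgen b0 b0' c0 c0' h1 h2 hne1 (fun w => Iff.rfl) k1)
  · by_cases k2 : Commute (b0 : G) c0'
    · exact Or.inl (hgen b0 b0' c0' c0 h1 h2.rot.rot.s1 hne2 (fun w => by tauto) k2)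
    · exact Or.inr (aff_case hS hC h1 h2 k1 k2 _ (Or.inl (Or.inl rfl)) (Or.inl (Or.inr (Or.inl rfl))) (Or.inr (Or.inr (Or.inl rfl)))
        (fun w hw => by simp only [Set.mem_union, Set.mem_setOf_eq] at hw; tauto))

end CfsgLib.TTN28
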