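import Mathlib
import Cfsg.Agent.EqBase
import Cfsg.Agent.LibTTN28

set_option autoImplicit false

/-! Fischer spaces and their involutions (helper28). -/

namespace CfsgLib.TTO28

open Cfsg LineSystem CfsgLib.TTN28

universe u v

section basic

variable {X : Type u} {L : Set (Set X)}

/-- `z` is the third point on the line through `x`, `y` -/
def Tri (L : Set (Set X)) (x y z : X) : Prop := z ≠ x ∧ z ≠ y ∧ x ≠ y ∧ ({x, y, z} : Set X) ∈ L

theorem Tri.s1 {x y z : X} (h : Tri L x y z) : Tri L y x z :=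
  ⟨h.2.1, h.1, h.2.2.1.symm, by rw [Set.insert_comm]; exact h.2.2.2⟩

theorem Tri.s2 {x y z : X} (h : Tri L x y z) : Tri L x z y :=
  ⟨h.2.2.1.symm, h.2.1.symm, h.1.symm, by rw [Set.pair_comm z y]; exact h.2.2.2⟩

theorem Tri.uniq (hL : IsPartialLinear L) {x y z z' : X} (h : Tri L x y z) (h' : Tri L x y z') : z = z' := by
  have e := hL _ h.2.2.2 _ h'.2.2.2 x y h.2.2.1 (by simp) (by simp) (by simp) (by simp)
  have hz : z ∈ ({x, y, z'} : Set X) := by rw [← e]; simp
  rcases hz with h1 | h1 | h1
  · exact absurd h1 h.1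
  · exact absurd h1 h.2.1
  · exact h1

theorem lineMap_tri (hL : IsPartialLinear L) {x y z : X} (h : Tri L x y z) : lineMap L x y = z := by
  have hex : ∃ z : X, z ≠ x ∧ z ≠ y ∧ x ≠ y ∧ ({x, y, z} : Set X) ∈ L := ⟨z, h⟩
  unfold lineMap
  rw [dif_pos hex]
  exact Tri.uniq hL hex.choose_spec h

theorem lineMap_not {x y : X} (h : ∀ z, ¬ Tri L x y z) : lineMap L x y = y := by
  unfold lineMap
  rw [dif_neg]
  rintro ⟨z, hz⟩
  exact h z hz

theorem lineMap_self (x : X) : lineMap L x x = x := lineMap_not (fun _ h => h.2.2.1 rfl)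

theorem lineMap_invol (hL : IsPartialLinear L) (x y : X) : lineMap L x (lineMap L x y) = y := by
  by_cases h : ∃ z, Tri L x y z
  · obtain ⟨z, hz⟩ := h
    rw [lineMap_tri hL hz, lineMap_tri hL hz.s2]
  · push Not at h
    rw [lineMap_not h, lineMap_not h]

/-- the involution of a point -/
noncomputable def T (hL : IsPartialLinear L) (x : X) : Equiv.Perm X := Function.Involutive.toPerm (lineMap L x) (lineMap_invol hL x)

theorem T_apply (hL : IsPartialLinear L) (x y : X) : T hL x y = lineMap L x y := rfl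

theorem T_mul (hL : IsPartialLinear L) (x : X) : T hL x * T hL x = 1 := by
  ext y
  exact lineMap_invol hL x y

/-- a line through two points -/
theorem line_tri (hc : ∀ l ∈ L, l.ncard = 3) {l : Set X} (hl : l ∈ L) {x y : X} (hx : x ∈ l) (hy : y ∈ l) (hxy : x ≠ y) :
    ∃ z, Tri L x y z ∧ l = {x, y, z} := by
  obtain ⟨a, b, c, hab, hac, hbc, rfl⟩ := Set.ncard_eq_three.1 (hc l hl)
  have key : ∀ z, z ≠ x → z ≠ y → ({a, b, c} : Set X) = {x, y, z} → ∃ z, Tri L x y z ∧ ({a, b, c} : Set X) = {x, y, z} :=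
    fun z h1 h2 h3 => ⟨z, ⟨h1, h2, hxy, by rw [← h3]; exact hl⟩, h3⟩
  rcases hx with rfl | rfl | hx <;> rcases hy with rfl | rfl | hy
  · exact absurd rfl hxy
  · exact key c hac.symm hbc.symm rfl
  · have hy' : y = c := hy
    subst hy'
    exact key b hab.symm hbc (by rw [Set.pair_comm])
  · exact key c hbc.symm hac.symm (by rw [Set.insert_comm])
  · exact absurd rfl hxy
  · have hy' : y = c := hy
    subst hy'
    exact key a hab hac (by rw [Set.insert_comm, Set.pair_comm a y])
  · have hx' : x = c := hx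
    subst hx'
    exact key b hbc hab.symm (by ext w; simp only [Set.mem_insert_iff, Set.mem_singleton_iff]; tauto)
  · have hx' : x = c := hx
    subst hx'
    exact key a hac hab (by ext w; simp only [Set.mem_insert_iff, Set.mem_singleton_iff]; tauto)
  · have hx' : x = c := hx
    have hy' : y = c := hy
    exact absurd (hx'.trans hy'.symm) hxy

theorem span_isSubspace (S : Set X) : IsSubspace L (span L S) := by
  intro l hl x hx y hy hxy hxl hyl w hw T hT
  exact hT.2 l hl x (hx T hT) y (hy T hT) hxy hxl hyl hw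

theorem subset_span (S : Set X) : S ⊆ span L S := fun _ hx _ hT => hT.1 hx

/-- the involutions of a plane -/
theorem plane_lineMap (hL : IsPartialLinear L) {Y : Type v} {M : Set (Set Y)} (ψ : Y → X) (hψ : Function.Injective ψ)
    (hM : ∀ m : Set Y, m ∈ M ↔ ψ '' m ∈ L) (hsub : IsSubspace L (Set.range ψ)) (hLM : IsPartialLinear M) (u v : Y) :
    lineMap L (ψ u) (ψ v) = ψ (lineMap M u v) := by
  have htri : ∀ w, Tri M u v w ↔ Tri L (ψ u) (ψ v) (ψ w) := by
    intro w
    unfold Tri
    rw [hψ.ne_iff, hψ.ne_iff, hψ.ne_iff, hM, Set.image_insert_eq, Set.image_pair]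
  by_cases h : ∃ w, Tri M u v w
  · obtain ⟨w, hw⟩ := h
    rw [lineMap_tri hLM hw, lineMap_tri hL ((htri w).1 hw)]
  · push Not at h
    rw [lineMap_not h, lineMap_not]
    intro z hz
    have hzr : z ∈ Set.range ψ :=
      hsub _ hz.2.2.2 (ψ u) ⟨u, rfl⟩ (ψ v) ⟨v, rfl⟩ hz.2.2.1 (by simp) (by simp) (by simp)
    obtain ⟨w, rfl⟩ := hzr
    exact h w ((htri w).2 hz)

theorem partialLinear_of {Y : Type v} {M : Set (Set Y)} (ψ : Y → X) (hψ : Function.Injective ψ)
    (hM : ∀ m : Set Y, m ∈ M ↔ ψ '' m ∈ L) (hL : IsPartialLinear L) : IsPartialLinear M := by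
  intro l hl m hm x y hxy h1 h2 h3 h4
  exact Set.image_injective.2 hψ (hL _ ((hM l).1 hl) _ ((hM m).1 hm) (ψ x) (ψ y) (hψ.ne hxy) ⟨x, h1, rfl⟩ ⟨y, h2, rfl⟩
    ⟨x, h3, rfl⟩ ⟨y, h4, rfl⟩)

end basic

/-! ### the two planes -/

theorem aff_auto (hP : IsPartialLinear affinePlaneThree) (u : Fin 2 → ZMod 3) {l : Set (Fin 2 → ZMod 3)} (hl : l ∈ affinePlaneThree) :
    lineMap affinePlaneThree u '' l ∈ affinePlaneThree := by
  have h3 : (3 : ZMod 3) = 0 := by decide
  have hv3 : ∀ x : Fin 2 → ZMod 3, x + x + x = 0 := by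
    intro x; ext i; simp only [Pi.add_apply, Pi.zero_apply]; linear_combination (x i) * h3
  have hmap : ∀ v, lineMap affinePlaneThree u v = - u - v := by
    intro v
    by_cases h : u = v
    · subst h
      rw [lineMap_self]
      have := hv3 u
      linear_combination this
    · apply lineMap_tri hP
      refine ⟨fun e => h ?_, fun e => h ?_, h, ?_⟩
      · have := hv3 u
        linear_combination this + e
      · have := hv3 v
        linear_combination - this - e
      · rw [aff_lines]
        exact ⟨u, v, h, by ext w; simp⟩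
  rw [aff_lines] at hl ⊢
  obtain ⟨y, z, hyz, rfl⟩ := hl
  refine ⟨-u - y, -u - z, fun e => hyz (by linear_combination -e), ?_⟩
  have e : -u - (-y - z) = - (-u - y) - (-u - z) := by
    have := hv3 u
    linear_combination - this
  ext w
  constructor
  · rintro ⟨v, (rfl | rfl | rfl), rfl⟩
    · exact Or.inl (hmap _)
    · exact Or.inr (Or.inl (hmap _))
    · exact Or.inr (Or.inr ((hmap _).trans e))
  · rintro (rfl | rfl | rfl)
    · exact ⟨y, Or.inl rfl, hmap _⟩
    · exact ⟨z, Or.inr (Or.inl rfl), hmap _⟩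
    · exact ⟨-y - z, Or.inr (Or.inr rfl), (hmap _).trans e⟩

theorem dual_auto (hP : IsPartialLinear dualAffinePlaneTwo) (s : DualAffinePoint) {l : Set DualAffinePoint}
    (hl : l ∈ dualAffinePlaneTwo) : lineMap dualAffinePlaneTwo s '' l ∈ dualAffinePlaneTwo := by
  have h1 : ∀ s t : DualAffinePoint, (s.1 ∩ t.1).card = 1 → tp s t ≠ s ∧ tp s t ≠ t ∧ s ≠ t := by decide +kernel
  have h2 : ∀ i : Fin 4, ∀ s t : DualAffinePoint, i ∉ s.1 → i ∉ t.1 → s ≠ t → (s.1 ∩ t.1).card = 1 := by decide +kernel
  have hmap : ∀ t, lineMap dualAffinePlaneTwo s t = if (s.1 ∩ t.1).card = 1 then tp s t else t := by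
    intro t
    split_ifs with h
    · apply lineMap_tri hP
      refine ⟨(h1 s t h).1, (h1 s t h).2.1, (h1 s t h).2.2, ?_⟩
      rw [dual_lines]
      exact ⟨s, t, h, by ext w; simp⟩
    · apply lineMap_not
      rintro w ⟨-, -, hne, i, hi⟩
      apply h
      apply h2 i s t _ _ hne
      · have : s ∈ ({s, t, w} : Set DualAffinePoint) := by simp
        rw [hi] at this; exact this
      · have : t ∈ ({s, t, w} : Set DualAffinePoint) := by simp
        rw [hi] at this; exact this
  have h3 : ∀ i : Fin 4, ∀ s : DualAffinePoint, ∃ j : Fin 4, ∀ r : DualAffinePoint,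
      (j ∉ r.1 ↔ i ∉ (if (s.1 ∩ r.1).card = 1 then tp s r else r).1) := by decide +kernel
  obtain ⟨i, rfl⟩ := hl
  obtain ⟨j, hj⟩ := h3 i s
  refine ⟨j, ?_⟩
  ext r
  constructor
  · rintro ⟨t, ht, rfl⟩
    have := (hj (lineMap dualAffinePlaneTwo s t))
    rw [← hmap, lineMap_invol hP] at this
    exact this.2 ht
  · intro hr
    refine ⟨lineMap dualAffinePlaneTwo s r, ?_, lineMap_invol hP s r⟩
    have := (hj r).1 hr
    rw [← hmap] at this
    exact this

/-! ### Fischer spaces -/

section fischer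

variable {X : Type u} {L : Set (Set X)} (hF : IsFischerSpace L)

include hF

theorem image_line (x : X) {l : Set X} (hl : l ∈ L) : lineMap L x '' l ∈ L := by
  obtain ⟨hP, hc, hpl⟩ := hF
  by_cases hx : x ∈ l
  · -- x on l
    obtain ⟨y, hy, hyx⟩ : ∃ y ∈ l, y ≠ x := by
      by_contra hcon
      push Not at hcon
      have h2 : l ⊆ {x} := fun x hx => hcon x hx
      have h3 := Set.ncard_le_ncard h2
      rw [Set.ncard_singleton, hc l hl] at h3
      omega
    obtain ⟨z, hz, rfl⟩ := line_tri hc hl hx hy hyx.symm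
    have e1 : lineMap L x x = x := lineMap_self x
    have e2 : lineMap L x y = z := lineMap_tri hP hz
    have e3 : lineMap L x z = y := lineMap_tri hP hz.s2
    rw [Set.image_insert_eq, Set.image_pair, e1, e2, e3, Set.pair_comm]
    exact hl
  · by_cases hcol : ∃ p ∈ l, ∃ z, Tri L x p z
    · obtain ⟨p, hp, z, hz⟩ := hcol
      have hm := hz.2.2.2
      set m : Set X := {x, p, z} with hmdef
      have hxm : x ∈ m := by simp [hmdef]
      have hpm : p ∈ m := by simp [hmdef]
      have hlm : l ≠ m := by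
        rintro rfl; exact hx hxm
      have hxS : x ∈ span L (l ∪ m) := subset_span _ (Or.inr hxm)
      have hlS : l ⊆ span L (l ∪ m) := fun y hy => subset_span _ (Or.inl hy)
      have hsubS : IsSubspace L (span L (l ∪ m)) := span_isSubspace _
      -- the general argument
      have gen : ∀ {Y : Type} {M : Set (Set Y)} (e : ↥(span L (l ∪ m)) ≃ Y), IsIso (restrict L (span L (l ∪ m))) M e →
          (IsPartialLinear M → ∀ u, ∀ k ∈ M, lineMap M u '' k ∈ M) → lineMap L x '' l ∈ L := by
        intro Y M e he hauto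
        let ψ : Y → X := fun y => (e.symm y : X)
        have hψ : Function.Injective ψ := fun a b h => e.symm.injective (Subtype.ext h)
        have hM : ∀ k : Set Y, k ∈ M ↔ ψ '' k ∈ L := by
          intro k
          have h1 := he (e.symm '' k)
          rw [restrict_iff, ← Set.image_comp, ← Set.image_comp] at h1
          have e1 : (⇑e ∘ ⇑e.symm) = id := by ext y; simp
          rw [e1, Set.image_id] at h1
          exact h1.symm
        have hr : Set.range ψ = span L (l ∪ m) := by
          ext y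
          constructor
          · rintro ⟨w, rfl⟩; exact (e.symm w).2
          · intro hy; exact ⟨e ⟨y, hy⟩, by show (e.symm (e ⟨y, hy⟩) : X) = y; rw [Equiv.symm_apply_apply]⟩
        have hPM := partialLinear_of ψ hψ hM hP
        have hmap := plane_lineMap hP ψ hψ hM (by rw [hr]; exact hsubS) hPM
        rw [← hr] at hxS hlS
        obtain ⟨u, hu⟩ := hxS
        obtain ⟨k, hk⟩ := Set.subset_range_iff_exists_image_eq.1 hlS
        have e2 : lineMap L (ψ u) '' (ψ '' k) = ψ '' (lineMap M u '' k) := by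
          rw [← Set.image_comp, ← Set.image_comp]
          apply Set.image_congr
          intro y _
          exact hmap u y
        rw [← hu, ← hk, e2, ← hM]
        exact hauto hPM u k ((hM k).2 (by rw [hk]; exact hl))
      rcases hpl l hl m hm hlm ⟨p, hp, hpm⟩ with ⟨e, he⟩ | ⟨e, he⟩
      · exact gen e he (fun h u k hk => dual_auto h u hk)
      · exact gen e he (fun h u k hk => aff_auto h u hk)
    · push Not at hcol
      have : lineMap L x '' l = l := by
        have : Set.EqOn (lineMap L x) id l := fun y hy => lineMap_not (hcol y hy)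
        rw [this.image_eq, Set.image_id]
      rwa [this]

theorem T_isIso (x : X) : IsIso L L (T hF.1 x) := by
  intro l
  have hinv : (T hF.1 x) '' ((T hF.1 x) '' l) = l := by
    rw [← Set.image_comp]
    have : (⇑(T hF.1 x) ∘ ⇑(T hF.1 x)) = id := by
      ext y; exact lineMap_invol hF.1 x y
    rw [this, Set.image_id]
  constructor
  · intro hl; exact image_line hF x hl
  · intro hl
    have := image_line hF x hl
    have h2 : lineMap L x '' ((T hF.1 x) '' l) = l := hinv
    rwa [h2] at this

theorem T_conj (x y : X) : T hF.1 x * T hF.1 y * T hF.1 x = T hF.1 (T hF.1 x y) := by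
  have hiso := T_isIso hF x
  have htri : ∀ u v w, Tri L u v w → Tri L (T hF.1 x u) (T hF.1 x v) (T hF.1 x w) := by
    intro u v w h
    refine ⟨(Equiv.injective _).ne h.1, (Equiv.injective _).ne h.2.1, (Equiv.injective _).ne h.2.2.1, ?_⟩
    have := (hiso _).1 h.2.2.2
    rwa [Set.image_insert_eq, Set.image_pair] at this
  have key : ∀ u v, T hF.1 x (lineMap L u v) = lineMap L (T hF.1 x u) (T hF.1 x v) := by
    intro u v
    by_cases h : ∃ w, Tri L u v w
    · obtain ⟨w, hw⟩ := h
      rw [lineMap_tri hF.1 hw, lineMap_tri hF.1 (htri _ _ _ hw)]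
    · push Not at h
      rw [lineMap_not h, lineMap_not]
      intro z hz
      apply h (T hF.1 x z)
      have := htri _ _ _ hz
      rw [show T hF.1 x (T hF.1 x u) = u from lineMap_invol hF.1 x u,
        show T hF.1 x (T hF.1 x v) = v from lineMap_invol hF.1 x v] at this
      exact this
  ext v
  show T hF.1 x (lineMap L y (T hF.1 x v)) = lineMap L (T hF.1 x y) v
  rw [key, show T hF.1 x (T hF.1 x v) = v from lineMap_invol hF.1 x v]

theorem T_three (x y : X) : (T hF.1 x * T hF.1 y) ^ 2 = 1 ∨ (T hF.1 x * T hF.1 y) ^ 3 = 1 := by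
  by_cases h : ∃ z, Tri L x y z
  · right
    obtain ⟨z, hz⟩ := h
    have e1 : T hF.1 x * T hF.1 y * T hF.1 x = T hF.1 z := by
      rw [T_conj hF, show T hF.1 x y = z from lineMap_tri hF.1 hz]
    have e2 : T hF.1 y * T hF.1 x * T hF.1 y = T hF.1 z := by
      rw [T_conj hF, show T hF.1 y x = z from lineMap_tri hF.1 hz.s1]
    calc (T hF.1 x * T hF.1 y) ^ 3 = (T hF.1 x * T hF.1 y * T hF.1 x) * (T hF.1 y * T hF.1 x * T hF.1 y) := by
          rw [pow_succ, pow_two]; group
      _ = 1 := by rw [e1, e2, T_mul]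
  · left
    push Not at h
    have e1 : T hF.1 x * T hF.1 y * T hF.1 x = T hF.1 y := by
      rw [T_conj hF, show T hF.1 x y = y from lineMap_not h]
    calc (T hF.1 x * T hF.1 y) ^ 2 = (T hF.1 x * T hF.1 y * T hF.1 x) * T hF.1 y := by rw [pow_two]; group
      _ = 1 := by rw [e1, T_mul]

theorem result_all (hnd : IsNondegenerate L) : (∀ x : X, ∃ σ : Equiv.Perm X, ⇑σ = lineMap L x ∧ orderOf σ = 2 ∧ IsIso L L σ) ∧
    IsThreeTranspositionSet {σ : Equiv.Perm X | ∃ x : X, ⇑σ = lineMap L x} := by
  have hord : ∀ x, orderOf (T hF.1 x) = 2 := by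
    intro x
    apply orderOf_eq_prime
    · rw [pow_two]; exact T_mul hF.1 x
    · intro h1
      obtain ⟨l, hl, hx⟩ := hnd x
      obtain ⟨y, hy, hyx⟩ : ∃ y ∈ l, y ≠ x := by
        by_contra hcon
        push Not at hcon
        have h2 : l ⊆ {x} := fun x hx => hcon x hx
        have h3 := Set.ncard_le_ncard h2
        rw [Set.ncard_singleton, hF.2.1 l hl] at h3
        omega
      obtain ⟨z, hz, -⟩ := line_tri hF.2.1 hl hx hy hyx.symm
      have h2 : T hF.1 x y = y := by rw [h1]; rfl
      have h3 : T hF.1 x y = z := lineMap_tri hF.1 hz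
      exact hz.2.1 (h3.symm.trans h2)
  refine ⟨fun x => ⟨T hF.1 x, rfl, hord x, T_isIso hF x⟩, ?_, ?_⟩
  · rintro σ ⟨x, hx⟩
    have : σ = T hF.1 x := DFunLike.coe_injective hx
    rw [this]; exact hord x
  · rintro σ ⟨x, hx⟩ τ ⟨y, hy⟩
    have h1 : σ = T hF.1 x := DFunLike.coe_injective hx
    have h2 : τ = T hF.1 y := DFunLike.coe_injective hy
    rw [h1, h2]
    exact T_three hF x y

end fischer

end CfsgLib.TTO28
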