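import Cfsg.Agent.LibH22Class

set_option autoImplicit false

/-! Reflections of one norm over the field of three elements: vectors (helper28). -/

namespace CfsgLib.TTR28

open Cfsg.Agent.H22 Module

section gen

variable {F V : Type*} [Field F] [AddCommGroup V] [Module F V] {Q : QuadraticForm F V}

/-- orthogonal complement of a vector -/
def perp1 (Q : QuadraticForm F V) (u : V) : Submodule F V := LinearMap.ker (QuadraticMap.polarBilin Q u)

theorem mem_perp1 {u x : V} : x ∈ perp1 Q u ↔ QuadraticMap.polar Q u x = 0 := Iff.rfl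

theorem perp1_proj {u : V} (h2 : (2 : F) ≠ 0) (hu : Q u ≠ 0) (y : V) :
    y - (QuadraticMap.polar Q u y / (2 * Q u)) • u ∈ perp1 Q u := by
  rw [mem_perp1, QuadraticMap.polar_sub_right, QuadraticMap.polar_smul_right, pself, smul_eq_mul,
    div_mul_cancel₀ _ (mul_ne_zero h2 hu), sub_self]

theorem perp1_nondeg {u : V} (h2 : (2 : F) ≠ 0) (hQ : (QuadraticMap.polarBilin Q).Nondegenerate) (hu : Q u ≠ 0) :
    (QuadraticMap.polarBilin (qres Q (perp1 Q u))).Nondegenerate := by
  have key : ∀ x : perp1 Q u, (∀ y : perp1 Q u, QuadraticMap.polar Q (x : V) (y : V) = 0) → x = 0 := by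
    intro x hx
    apply Subtype.ext
    apply hQ.1 (x : V)
    intro y
    show QuadraticMap.polar Q (x : V) y = 0
    have h1 : y = (QuadraticMap.polar Q u y / (2 * Q u)) • u + (y - (QuadraticMap.polar Q u y / (2 * Q u)) • u) := by abel
    rw [h1, QuadraticMap.polar_add_right, QuadraticMap.polar_smul_right, QuadraticMap.polar_comm Q (x : V) u, mem_perp1.1 x.2,
      smul_zero, zero_add]
    exact hx ⟨_, perp1_proj h2 hu y⟩
  refine ⟨fun x hx => key x hx, fun x hx => key x (fun y => ?_)⟩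
  rw [QuadraticMap.polar_comm]; exact hx y

variable [FiniteDimensional F V]

theorem finrank_perp1_ge (u : V) : finrank F V ≤ finrank F (perp1 Q u) + 1 := by
  have h1 := LinearMap.finrank_range_add_finrank_ker (QuadraticMap.polarBilin Q u)
  have h3 : finrank F (LinearMap.range (QuadraticMap.polarBilin Q u)) ≤ 1 := by
    have := Submodule.finrank_le (LinearMap.range (QuadraticMap.polarBilin Q u))
    rw [finrank_self] at this
    exact this
  change _ + finrank F (perp1 Q u) = _ at h1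
  omega

/-- a vector of given norm orthogonal to two orthogonal nonsingular vectors -/
theorem exists_orth2 [Fintype F] (h2 : (2 : F) ≠ 0) (hQ : (QuadraticMap.polarBilin Q).Nondegenerate) {u v : V} (hu : Q u ≠ 0)
    (hv : Q v ≠ 0) (huv : QuadraticMap.polar Q u v = 0) (hn : 4 ≤ finrank F V) (d : F) :
    ∃ p, QuadraticMap.polar Q u p = 0 ∧ QuadraticMap.polar Q v p = 0 ∧ Q p = d := by
  have n1 := perp1_nondeg h2 hQ hu
  have f1 := finrank_perp1_ge (Q := Q) u
  have hv' : qres Q (perp1 Q u) ⟨v, huv⟩ ≠ 0 := hv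
  have n2 := perp1_nondeg h2 n1 hv'
  have f2 := finrank_perp1_ge (Q := qres Q (perp1 Q u)) ⟨v, huv⟩
  obtain ⟨p, hp⟩ := exists_norm_odd h2 n2 (by omega) d
  exact ⟨p.1.1, p.1.2, p.2, hp⟩

/-- a singular vector orthogonal to two orthogonal nonsingular vectors -/
theorem exists_sing2 [Fintype F] (h2 : (2 : F) ≠ 0) (hQ : (QuadraticMap.polarBilin Q).Nondegenerate) {u v : V} (hu : Q u ≠ 0)
    (hv : Q v ≠ 0) (huv : QuadraticMap.polar Q u v = 0) (hn : 5 ≤ finrank F V) :
    ∃ p, QuadraticMap.polar Q u p = 0 ∧ QuadraticMap.polar Q v p = 0 ∧ Q p = 0 ∧ p ≠ 0 := by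
  have n1 := perp1_nondeg h2 hQ hu
  have f1 := finrank_perp1_ge (Q := Q) u
  have hv' : qres Q (perp1 Q u) ⟨v, huv⟩ ≠ 0 := hv
  have n2 := perp1_nondeg h2 n1 hv'
  have f2 := finrank_perp1_ge (Q := qres Q (perp1 Q u)) ⟨v, huv⟩
  obtain ⟨p, hp0, hp⟩ := exists_singular n2 (by omega)
  exact ⟨p.1.1, p.1.2, p.2, hp, fun h => hp0 (Subtype.ext (Subtype.ext h))⟩

theorem not_mem_span {u s : V} (hu : Q u ≠ 0) (hs : Q s = 0) (hs0 : s ≠ 0) : s ∉ Submodule.span F {u} := by
  intro hmem
  obtain ⟨k, hk⟩ := Submodule.mem_span_singleton.1 hmem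
  rw [← hk, qsmul] at hs
  have hk0 : k = 0 := by
    rcases mul_eq_zero.1 hs with h5 | h5
    · exact mul_self_eq_zero.1 h5
    · exact absurd h5 hu
  rw [hk0, zero_smul] at hk
  exact hs0 hk.symm

/-- a hyperbolic partner orthogonal to a nonsingular vector -/
theorem exists_partner1 (hQ : (QuadraticMap.polarBilin Q).Nondegenerate) {u s : V} (hu : Q u ≠ 0) (hs : Q s = 0) (hs0 : s ≠ 0)
    (hus : QuadraticMap.polar Q u s = 0) : ∃ s', QuadraticMap.polar Q u s' = 0 ∧ HP Q s s' := by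
  obtain ⟨s', hs1, hs2, hs3⟩ := exists_partner hQ (Submodule.span F {u}) s (not_mem_span hu hs hs0) (by
      intro z hz
      obtain ⟨k, rfl⟩ := Submodule.mem_span_singleton.1 hz
      rw [QuadraticMap.polar_smul_left, hus, smul_zero]) hs
  exact ⟨s', hs1 u (Submodule.mem_span_singleton_self u), hs, hs3, hs2⟩

/-- a vector of given norm orthogonal to a nonsingular vector, not orthogonal to a singular one -/
theorem exists_sep (hQ : (QuadraticMap.polarBilin Q).Nondegenerate) {u s : V} (hu : Q u ≠ 0) (hs : Q s = 0) (hs0 : s ≠ 0)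
    (hus : QuadraticMap.polar Q u s = 0) (d : F) :
    ∃ z, QuadraticMap.polar Q u z = 0 ∧ QuadraticMap.polar Q s z = 1 ∧ Q z = d := by
  obtain ⟨s', h1, h2⟩ := exists_partner1 hQ hu hs hs0 hus
  refine ⟨d • s + s', ?_, ?_, ?_⟩
  · rw [QuadraticMap.polar_add_right, QuadraticMap.polar_smul_right, hus, h1, smul_zero, add_zero]
  · rw [QuadraticMap.polar_add_right, QuadraticMap.polar_smul_right, h2.ee, h2.2.2, smul_zero, zero_add]
  · have := h2.q d 1
    rw [one_smul, mul_one] at this; exact this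

/-- a vector of given norm orthogonal to a nonsingular vector and an orthogonal singular one -/
theorem exists_conn5 [Fintype F] (h2 : (2 : F) ≠ 0) (hQ : (QuadraticMap.polarBilin Q).Nondegenerate) {u s : V} (hu : Q u ≠ 0)
    (hs : Q s = 0) (hs0 : s ≠ 0) (hus : QuadraticMap.polar Q u s = 0) (hn : 5 ≤ finrank F V) (d : F) :
    ∃ z, QuadraticMap.polar Q u z = 0 ∧ QuadraticMap.polar Q s z = 0 ∧ Q z = d := by
  obtain ⟨s', h1, hp⟩ := exists_partner1 hQ hu hs hs0 hus
  have hnd := hp.nondeg hQ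
  have hr := hp.finrank_eq
  have hum : u ∈ perp2 Q s s' := ⟨by rw [QuadraticMap.polar_comm]; exact hus, by rw [QuadraticMap.polar_comm]; exact h1⟩
  have hu' : qres Q (perp2 Q s s') ⟨u, hum⟩ ≠ 0 := hu
  have n2 := perp1_nondeg h2 hnd hu'
  have f2 := finrank_perp1_ge (Q := qres Q (perp2 Q s s')) ⟨u, hum⟩
  obtain ⟨p, hp⟩ := exists_norm_odd h2 n2 (by omega) d
  exact ⟨p.1.1, p.2, p.1.2.1, hp⟩

end gen

end CfsgLib.TTR28
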