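import Mathlib
import Cfsg.Agent.EqBase
import Cfsg.Agent.LibTTR28
import Cfsg.Agent.LibTTG28
import Cfsg.Agent.LibH22OMat

set_option autoImplicit false

/-! Reflections of one norm over the field of three elements: 3-transpositions (helper28). -/

namespace CfsgLib.TTS28

open Cfsg Cfsg.Agent.H22 Module Subgroup CfsgLib.TTR28 CfsgLib.TT28 CfsgLib.TTB28

section F3

variable {V : Type*} [AddCommGroup V] [Module (ZMod 3) V] {Q : QuadraticForm (ZMod 3) V}

theorem h23 : (2 : ZMod 3) ≠ 0 := by decide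

theorem z3 : ∀ k : ZMod 3, k = 0 ∨ k = 1 ∨ k = -1 := by decide

theorem two3 : (2 : ZMod 3) = -1 := by decide

theorem refl_self {u : V} (hu : Q u ≠ 0) : (oRefl Q u hu).1 u = -u := by
  rw [oRefl_apply, pself, show (Q u)⁻¹ * (2 * Q u) = 2 by field_simp, two3, neg_smul, one_smul]
  have h3 : u + u + u = 0 := by
    have : (3 : ZMod 3) • u = 0 := by rw [show (3 : ZMod 3) = 0 by decide, zero_smul]
    rw [← this]
    rw [show (3 : ZMod 3) = 1 + 1 + 1 by decide, add_smul, add_smul, one_smul]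
  rw [sub_neg_eq_add]
  exact eq_neg_of_add_eq_zero_left h3

theorem refl_neg {u w : V} (hu : Q u ≠ 0) (hw : Q w ≠ 0) (h : w = u ∨ w = -u) : oRefl Q w hw = oRefl Q u hu := by
  rcases h with h | h
  · subst h; rfl
  · obtain rfl : w = (-1 : ZMod 3) • u := by rw [neg_smul, one_smul]; exact h
    apply og_ext
    intro x
    rw [oRefl_apply, oRefl_apply, qsmul, QuadraticMap.polar_smul_left, smul_smul, smul_eq_mul]
    congr 2
    field_simp

theorem of_smul {u v : V} {k : ZMod 3} (hv : v ≠ 0) (h : -v = k • u) : v = u ∨ v = -u := by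
  rcases z3 k with rfl | rfl | rfl
  · rw [zero_smul, neg_eq_zero] at h; exact absurd h hv
  · rw [one_smul] at h; right; rw [← h, neg_neg]
  · rw [neg_smul, one_smul, neg_inj] at h; exact Or.inl h

theorem refl_eq_iff {u v : V} (hu : Q u ≠ 0) (hv : Q v ≠ 0) : oRefl Q u hu = oRefl Q v hv ↔ v = u ∨ v = -u := by
  constructor
  · intro h
    have h1 := refl_self (Q := Q) hv
    rw [← h, oRefl_apply] at h1
    have hv0 : v ≠ 0 := by
      rintro rfl; exact hv (QuadraticMap.map_zero Q)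
    -- v - k u = -v
    have h3 : (3 : ZMod 3) • v = 0 := by rw [show (3 : ZMod 3) = 0 by decide, zero_smul]
    have h3' : v + v + v = 0 := by
      rw [← h3, show (3 : ZMod 3) = 1 + 1 + 1 by decide, add_smul, add_smul, one_smul]
    apply of_smul (k := (Q u)⁻¹ * QuadraticMap.polar Q u v) hv0
    have h4 : ((Q u)⁻¹ * QuadraticMap.polar Q u v) • u = v + v := by
      rw [sub_eq_iff_eq_add] at h1
      rw [eq_comm, ← sub_eq_iff_eq_add'.2 h1]
      abel
    rw [h4]
    exact (eq_neg_of_add_eq_zero_left h3').symm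
  · intro h
    exact (refl_neg hu hv h).symm

theorem conj_refl {u v : V} (hu : Q u ≠ 0) (hv : Q v ≠ 0) :
    ∃ h : Q (v - ((Q u)⁻¹ * QuadraticMap.polar Q u v) • u) ≠ 0,
    oRefl Q u hu * oRefl Q v hv * (oRefl Q u hu)⁻¹ = oRefl Q (v - ((Q u)⁻¹ * QuadraticMap.polar Q u v) • u) h := by
  have e : (oRefl Q u hu).1 v = v - ((Q u)⁻¹ * QuadraticMap.polar Q u v) • u := oRefl_apply u hu v
  have h : Q (v - ((Q u)⁻¹ * QuadraticMap.polar Q u v) • u) ≠ 0 := by rw [← e, og_Q]; exact hv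
  exact ⟨h, conj_oRefl _ v _ hv h e⟩

theorem refl_comm_iff {u v : V} (hu : Q u ≠ 0) (hv : Q v ≠ 0) : Commute (oRefl Q u hu) (oRefl Q v hv) ↔
    (v = u ∨ v = -u) ∨ QuadraticMap.polar Q u v = 0 := by
  obtain ⟨h, hc⟩ := conj_refl hu hv
  have hv0 : v ≠ 0 := by
    rintro rfl; exact hv (QuadraticMap.map_zero Q)
  have hu0 : u ≠ 0 := by
    rintro rfl; exact hu (QuadraticMap.map_zero Q)
  constructor
  · intro hcomm
    have e1 : oRefl Q u hu * oRefl Q v hv * (oRefl Q u hu)⁻¹ = oRefl Q v hv := by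
      rw [show oRefl Q u hu * oRefl Q v hv = oRefl Q v hv * oRefl Q u hu from hcomm, mul_inv_cancel_right]
    rw [e1] at hc
    rcases (refl_eq_iff hv h).1 hc with h1 | h1
    · right
      rw [sub_eq_self, smul_eq_zero] at h1
      rcases h1 with h1 | h1
      · rcases mul_eq_zero.1 h1 with h2 | h2
        · exact absurd h2 (inv_ne_zero hu)
        · exact h2
      · exact absurd h1 hu0
    · left
      have h3 : (3 : ZMod 3) • v = 0 := by rw [show (3 : ZMod 3) = 0 by decide, zero_smul]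
      have h3' : v + v + v = 0 := by
        rw [← h3, show (3 : ZMod 3) = 1 + 1 + 1 by decide, add_smul, add_smul, one_smul]
      apply of_smul (k := (Q u)⁻¹ * QuadraticMap.polar Q u v) hv0
      have h4 : ((Q u)⁻¹ * QuadraticMap.polar Q u v) • u = v + v := by
        rw [sub_eq_iff_eq_add] at h1
        rw [eq_comm, ← sub_eq_iff_eq_add'.2 h1]
        abel
      rw [h4]
      exact (eq_neg_of_add_eq_zero_left h3').symm
  · rintro (h1 | h1)
    · rw [← (refl_eq_iff hu hv).2 h1]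
    · have e1 : oRefl Q (v - ((Q u)⁻¹ * QuadraticMap.polar Q u v) • u) h = oRefl Q v hv := by
        apply refl_neg
        left; rw [h1, mul_zero, zero_smul, sub_zero]
      rw [e1] at hc
      exact mul_inv_eq_iff_eq_mul.1 hc

theorem refl_braid {u v : V} (hu : Q u ≠ 0) (hv : Q v ≠ 0) (huv : Q u = Q v) (hB : QuadraticMap.polar Q u v ≠ 0) :
    oRefl Q u hu * oRefl Q v hv * oRefl Q u hu = oRefl Q v hv * oRefl Q u hu * oRefl Q v hv := by
  obtain ⟨h, hc⟩ := conj_refl hu hv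
  obtain ⟨h', hc'⟩ := conj_refl hv hu
  rw [oRefl_inv] at hc hc'
  rw [hc, hc']
  have hk0 : (Q u)⁻¹ * QuadraticMap.polar Q u v ≠ 0 := mul_ne_zero (inv_ne_zero hu) hB
  have e : (Q v)⁻¹ * QuadraticMap.polar Q v u = (Q u)⁻¹ * QuadraticMap.polar Q u v := by
    rw [huv, QuadraticMap.polar_comm Q v u]
  apply refl_neg
  rw [e]
  rcases z3 ((Q u)⁻¹ * QuadraticMap.polar Q u v) with h1 | h1 | h1
  · exact absurd h1 hk0
  · right
    rw [h1, one_smul, one_smul]; abel
  · left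
    rw [h1, neg_smul, neg_smul, one_smul, one_smul]; abel

theorem refl_pair {u v : V} (hu : Q u ≠ 0) (hv : Q v ≠ 0) (huv : Q u = Q v) :
    (oRefl Q u hu * oRefl Q v hv) ^ 2 = 1 ∨ (oRefl Q u hu * oRefl Q v hv) ^ 3 = 1 := by
  by_cases hB : QuadraticMap.polar Q u v = 0
  · left
    have hc := (refl_comm_iff hu hv).2 (Or.inr hB)
    have hc' : oRefl Q u hu * oRefl Q v hv = oRefl Q v hv * oRefl Q u hu := hc
    calc (oRefl Q u hu * oRefl Q v hv) ^ 2 = oRefl Q u hu * (oRefl Q v hv * oRefl Q u hu) * oRefl Q v hv := by rw [pow_two]; group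
      _ = (oRefl Q u hu * oRefl Q u hu) * (oRefl Q v hv * oRefl Q v hv) := by rw [← hc']; group
      _ = 1 := by rw [oRefl_mul_self, oRefl_mul_self, one_mul]
  · right
    have hb := refl_braid hu hv huv hB
    calc (oRefl Q u hu * oRefl Q v hv) ^ 3 = (oRefl Q u hu * oRefl Q v hv * oRefl Q u hu) * (oRefl Q v hv * oRefl Q u hu * oRefl Q v hv) := by
          rw [pow_succ, pow_two]; group
      _ = (oRefl Q v hv * oRefl Q u hu) * (oRefl Q v hv * oRefl Q v hv) * (oRefl Q u hu * oRefl Q v hv) := by rw [hb]; group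
      _ = oRefl Q v hv * (oRefl Q u hu * oRefl Q u hu) * oRefl Q v hv := by rw [oRefl_mul_self]; group
      _ = 1 := by rw [oRefl_mul_self, mul_one, oRefl_mul_self]

/-- the reflections of norm `c` -/
def NS (Q : QuadraticForm (ZMod 3) V) (c : ZMod 3) : Set (OGrp Q) := {g | ∃ v, ∃ hv : Q v ≠ 0, Q v = c ∧ g = oRefl Q v hv}

variable {c : ZMod 3}

theorem NS_order {s : OGrp Q} (hs : s ∈ NS Q c) : orderOf s = 2 := by
  obtain ⟨v, hv, -, rfl⟩ := hs
  apply orderOf_eq_prime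
  · rw [pow_two]; exact oRefl_mul_self v hv
  · intro h
    have h1 := refl_self (Q := Q) hv
    rw [h] at h1
    have h2 : v = -v := h1
    have h3 : (2 : ZMod 3) • v = 0 := by
      rw [show (2 : ZMod 3) = 1 + 1 by decide, add_smul, one_smul]
      nth_rw 1 [h2]; exact neg_add_cancel v
    rcases smul_eq_zero.1 h3 with h4 | h4
    · exact h23 h4
    · apply hv
      rw [h4]; exact QuadraticMap.map_zero Q

theorem NS_pair {s t : OGrp Q} (hs : s ∈ NS Q c) (ht : t ∈ NS Q c) : (s * t) ^ 2 = 1 ∨ (s * t) ^ 3 = 1 := by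
  obtain ⟨v, hv, h1, rfl⟩ := hs
  obtain ⟨w, hw, h2, rfl⟩ := ht
  exact refl_pair hv hw (h1.trans h2.symm)

theorem NS_conj (g : OGrp Q) {s : OGrp Q} (hs : s ∈ NS Q c) : g * s * g⁻¹ ∈ NS Q c := by
  obtain ⟨v, hv, h1, rfl⟩ := hs
  have h2 : Q (g.1 v) ≠ 0 := by rw [og_Q]; exact hv
  exact ⟨g.1 v, h2, by rw [og_Q]; exact h1, conj_oRefl g v _ hv h2 rfl⟩

variable [FiniteDimensional (ZMod 3) V]

theorem NS_trans (hQ : (QuadraticMap.polarBilin Q).Nondegenerate) (hn : 4 ≤ finrank (ZMod 3) V) {s t : OGrp Q}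
    (hs : s ∈ NS Q c) (ht : t ∈ NS Q c) : ∃ g ∈ closure (NS Q c), g * s * g⁻¹ = t := by
  -- noncommuting case
  have key : ∀ {u v : V} (hu : Q u ≠ 0) (hv : Q v ≠ 0), Q u = c → Q v = c → QuadraticMap.polar Q u v ≠ 0 →
      ∃ g ∈ closure (NS Q c), g * oRefl Q u hu * g⁻¹ = oRefl Q v hv := by
    intro u v hu hv hu1 hv1 hB
    have hb := refl_braid hu hv (hu1.trans hv1.symm) hB
    refine ⟨oRefl Q u hu * oRefl Q v hv, mul_mem (subset_closure ⟨u, hu, hu1, rfl⟩) (subset_closure ⟨v, hv, hv1, rfl⟩), ?_⟩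
    calc oRefl Q u hu * oRefl Q v hv * oRefl Q u hu * (oRefl Q u hu * oRefl Q v hv)⁻¹
        = (oRefl Q v hv * oRefl Q u hu * oRefl Q v hv) * ((oRefl Q v hv)⁻¹ * (oRefl Q u hu)⁻¹) := by rw [hb, mul_inv_rev]
      _ = oRefl Q v hv := by group
  obtain ⟨u, hu, hu1, rfl⟩ := hs
  obtain ⟨v, hv, hv1, rfl⟩ := ht
  by_cases hB : QuadraticMap.polar Q u v = 0
  · obtain ⟨p, hp1, hp2, hp⟩ := exists_orth2 h23 hQ hu hv hB hn (-c)
    have hc : c ≠ 0 := by rw [← hu1]; exact hu
    have hw : Q (u + v + p) = c := by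
      rw [qadd, qadd, QuadraticMap.polar_add_left, hp1, hp2, hB, hu1, hv1, hp]; ring
    have hw0 : Q (u + v + p) ≠ 0 := by rw [hw]; exact hc
    have hB1 : QuadraticMap.polar Q u (u + v + p) ≠ 0 := by
      rw [QuadraticMap.polar_add_right, QuadraticMap.polar_add_right, hp1, hB, pself, hu1, add_zero, add_zero]
      exact mul_ne_zero h23 hc
    have hB2 : QuadraticMap.polar Q (u + v + p) v ≠ 0 := by
      rw [QuadraticMap.polar_comm, QuadraticMap.polar_add_right, QuadraticMap.polar_add_right, hp2, QuadraticMap.polar_comm Q v u, hB, pself, hv1, add_zero, zero_add]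
      exact mul_ne_zero h23 hc
    obtain ⟨g, hg, e1⟩ := key hu hw0 hu1 hw hB1
    obtain ⟨k, hk, e2⟩ := key hw0 hv hw hv1 hB2
    refine ⟨k * g, mul_mem hk hg, ?_⟩
    rw [← e2, ← e1]; group
  · exact key hu hv hu1 hv1 hB

end F3

/-! ### transport -/

section transport

variable {R B : Type*} [Group R] [Group B] (θ : R →* B) (hθ : Function.Injective θ) {D : Set R} {N : Set B}
  (hD : ∀ r, r ∈ D ↔ θ r ∈ N) (hN : ∀ n ∈ N, ∃ r, θ r = n) (hgen : closure D = ⊤)

include hθ hD hN hgen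

theorem class_of (h1 : ∀ s ∈ N, orderOf s = 2) (h2 : ∀ s ∈ N, ∀ t ∈ N, (s * t) ^ 2 = 1 ∨ (s * t) ^ 3 = 1)
    (h3 : ∀ g : B, ∀ s ∈ N, g * s * g⁻¹ ∈ N) (h4 : ∀ s ∈ N, ∀ t ∈ N, ∃ g ∈ closure N, g * s * g⁻¹ = t) (hne : N.Nonempty) :
    IsThreeTranspositionClass D := by
  refine ⟨⟨?_, ?_⟩, ?_, hgen⟩
  · intro d hd
    rw [← orderOf_injective θ hθ d]
    exact h1 _ ((hD d).1 hd)
  · intro d hd e he
    rcases h2 _ ((hD d).1 hd) _ ((hD e).1 he) with h | h
    · left; apply hθ; rw [map_pow, map_mul, h, map_one]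
    · right; apply hθ; rw [map_pow, map_mul, h, map_one]
  · obtain ⟨n, hn⟩ := hne
    obtain ⟨d, rfl⟩ := hN n hn
    refine ⟨d, (hD d).2 hn, ?_⟩
    ext x
    constructor
    · intro hx
      obtain ⟨g, hg, e⟩ := h4 _ hn _ ((hD x).1 hx)
      have hgr : g ∈ θ.range := by
        have : closure N ≤ θ.range := by
          rw [closure_le]
          intro y hy
          exact hN y hy
        exact this hg
      obtain ⟨r, rfl⟩ := hgr
      show IsConj d x
      rw [isConj_iff]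
      refine ⟨r, ?_⟩
      apply hθ
      rw [map_mul, map_mul, map_inv]; exact e
    · intro hx
      have hx' : IsConj d x := hx
      rw [isConj_iff] at hx'
      replace hx := hx'
      obtain ⟨r, rfl⟩ := hx
      rw [hD, map_mul, map_mul, map_inv]
      exact h3 _ _ hn

end transport

/-! ### the matrix groups -/

section mat

variable {n : ℕ} (Q : QuadraticForm (ZMod 3) (Fin n → ZMod 3)) {c : ZMod 3}

/-- the embedding -/
noncomputable def emb (c : ZMod 3) : ↥(reflectionSubgroup (⇑Q) c) →* OGrp Q :=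
  (oIso Q : _ →* OGrp Q).comp (reflectionSubgroup (⇑Q) c).subtype

theorem emb_inj : Function.Injective (emb Q c) := (oIso Q).injective.comp (reflectionSubgroup (⇑Q) c).subtype_injective

/-- the reflections -/
abbrev DD (c : ZMod 3) : Set ↥(reflectionSubgroup (⇑Q) c) :=
  {g | (g : ↥(isometryGroup (ZMod 3) (⇑Q))) ∈ reflectionsOfNorm (⇑Q) c}

theorem mem_iff (hc : c ≠ 0) (g : ↥(isometryGroup (ZMod 3) (⇑Q))) :
    g ∈ reflectionsOfNorm (⇑Q) c ↔ oIso Q g ∈ NS Q c := by
  constructor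
  · rintro ⟨v, hv, h⟩
    have hv0 : Q v ≠ 0 := by rw [hv]; exact hc
    refine ⟨v, hv0, hv, ?_⟩
    exact Subtype.ext ((oIso_refl_iff Q g v hv0).2 h)
  · rintro ⟨v, hv0, hv, h⟩
    exact ⟨v, hv, (oIso_refl_iff Q g v hv0).1 (congrArg Subtype.val h)⟩

theorem emb_mem (hc : c ≠ 0) (r : ↥(reflectionSubgroup (⇑Q) c)) : r ∈ DD Q c ↔ emb Q c r ∈ NS Q c := mem_iff Q hc _

theorem emb_surj (hc : c ≠ 0) (s : OGrp Q) (hs : s ∈ NS Q c) : ∃ r : ↥(reflectionSubgroup (⇑Q) c), emb Q c r = s := by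
  have h1 : (oIso Q).symm s ∈ reflectionsOfNorm (⇑Q) c := by
    rw [mem_iff Q hc, MulEquiv.apply_symm_apply]; exact hs
  exact ⟨⟨(oIso Q).symm s, subset_closure h1⟩, (oIso Q).apply_symm_apply s⟩

theorem DD_gen : Subgroup.closure (DD Q c) = ⊤ := by
  have := Subgroup.closure_closure_coe_preimage (k := (reflectionsOfNorm (⇑Q) c))
  exact this

theorem DD_class (hn : 4 ≤ n) (hQ : (QuadraticMap.polarBilin Q).Nondegenerate) (hc : c ≠ 0) : IsThreeTranspositionClass (DD Q c) := by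
  have hf : finrank (ZMod 3) (Fin n → ZMod 3) = n := by simp
  apply class_of (emb Q c) (emb_inj Q) (emb_mem Q hc) (emb_surj Q hc) (DD_gen Q)
  · exact fun s hs => NS_order hs
  · exact fun s hs t ht => NS_pair hs ht
  · exact fun g s hs => NS_conj g hs
  · exact fun s hs t ht => NS_trans hQ (by rw [hf]; exact hn) hs ht
  · obtain ⟨v, hv⟩ := exists_norm_odd h23 hQ (by omega) c
    have hv0 : Q v ≠ 0 := by rw [hv]; exact hc
    exact ⟨_, v, hv0, hv, rfl⟩

theorem emb_comm (a b : ↥(reflectionSubgroup (⇑Q) c)) : Commute a b ↔ Commute (emb Q c a) (emb Q c b) := by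
  constructor
  · intro h
    have := congrArg (emb Q c) h
    rwa [map_mul, map_mul] at this
  · intro h
    apply emb_inj Q
    rw [map_mul, map_mul]; exact h

end mat

end CfsgLib.TTS28
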