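import Mathlib
import Cfsg.Agent.EqBase
import Cfsg.Agent.LibTTS28
import Cfsg.Agent.LibTTF28
import Cfsg.Agent.S5352
import Cfsg.Agent.S5353

set_option autoImplicit false

/-! Reflections of one norm over the field of three elements: structure and index (helper28). -/

namespace CfsgLib.TTT28

open Cfsg Cfsg.Agent.H22 Module Subgroup CfsgLib.TTR28 CfsgLib.TT28 CfsgLib.TTB28 CfsgLib.TTS28 CfsgLib.TTF28

section vec

variable {V : Type*} [AddCommGroup V] [Module (ZMod 3) V] {Q : QuadraticForm (ZMod 3) V} [FiniteDimensional (ZMod 3) V]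
  {c : ZMod 3}

theorem shift3 {u v : V} (hu : Q u = c) (hv : Q v = c) (hc : c ≠ 0) (hB : QuadraticMap.polar Q u v ≠ 0)
    (hne : v ≠ u ∧ v ≠ -u) :
    ∃ v' s, (v' = v ∨ v' = -v) ∧ v' = u + s ∧ Q s = 0 ∧ s ≠ 0 ∧ QuadraticMap.polar Q u s = 0 := by
  have hcase : ∀ c k : ZMod 3, c ≠ 0 → k ≠ 0 → k = 2 * c ∨ k = -(2 * c) := by decide
  rcases hcase c (QuadraticMap.polar Q u v) hc hB with h | h
  · refine ⟨v, v - u, Or.inl rfl, by abel, ?_, sub_ne_zero.2 hne.1, ?_⟩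
    · rw [qsub, QuadraticMap.polar_comm, h, hu, hv]; ring
    · rw [QuadraticMap.polar_sub_right, pself, h, hu, sub_self]
  · refine ⟨-v, -v - u, Or.inr rfl, by abel, ?_, ?_, ?_⟩
    · rw [qsub, QuadraticMap.polar_comm, QuadraticMap.polar_neg_right, h, hu, QuadraticMap.map_neg, hv]; ring
    · rw [sub_ne_zero]
      intro h'
      exact hne.2 (neg_eq_iff_eq_neg.1 h')
    · rw [QuadraticMap.polar_sub_right, QuadraticMap.polar_neg_right, pself, h, hu, neg_neg, sub_self]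

/-- a member commuting with two given ones -/
theorem common (hQ : (QuadraticMap.polarBilin Q).Nondegenerate) (hn : 5 ≤ finrank (ZMod 3) V) {s t : OGrp Q}
    (hs : s ∈ NS Q c) (ht : t ∈ NS Q c) (hst : ¬ Commute s t) : ∃ r ∈ NS Q c, Commute s r ∧ Commute t r := by
  obtain ⟨u, hu, hu1, rfl⟩ := hs
  obtain ⟨v, hv, hv1, rfl⟩ := ht
  have hc : c ≠ 0 := by rw [← hu1]; exact hu
  rw [refl_comm_iff] at hst
  push Not at hst
  obtain ⟨v', s, h1, h2, h3, h4, h5⟩ := shift3 hu1 hv1 hc hst.2 hst.1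
  obtain ⟨z, hz1, hz2, hz3⟩ := exists_conn5 h23 hQ hu h3 h4 h5 hn c
  have hz0 : Q z ≠ 0 := by rw [hz3]; exact hc
  refine ⟨_, ⟨z, hz0, hz3, rfl⟩, (refl_comm_iff hu hz0).2 (Or.inr hz1), (refl_comm_iff hv hz0).2 (Or.inr ?_)⟩
  have h6 : QuadraticMap.polar Q v' z = 0 := by rw [h2, QuadraticMap.polar_add_left, hz1, hz2, add_zero]
  rcases h1 with h1 | h1
  · rw [← h1]; exact h6
  · rw [h1, QuadraticMap.polar_neg_left, neg_eq_zero] at h6; exact h6

/-- separating two commuting members -/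
theorem sepV (hQ : (QuadraticMap.polarBilin Q).Nondegenerate) (hn : 5 ≤ finrank (ZMod 3) V) {s t : OGrp Q}
    (hs : s ∈ NS Q c) (ht : t ∈ NS Q c) (hst : Commute s t) (hne : s ≠ t) : ∃ r ∈ NS Q c, Commute s r ∧ ¬ Commute t r := by
  obtain ⟨u, hu, hu1, rfl⟩ := hs
  obtain ⟨v, hv, hv1, rfl⟩ := ht
  have hc : c ≠ 0 := by rw [← hu1]; exact hu
  have hB : QuadraticMap.polar Q u v = 0 := by
    rcases (refl_comm_iff hu hv).1 hst with h | h
    · exact absurd ((refl_eq_iff hu hv).2 h) hne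
    · exact h
  obtain ⟨p, hp1, hp2, hp3, hp4⟩ := exists_sing2 h23 hQ hu hv hB hn
  have hw : Q (v + p) = c := by rw [qadd, hp2, hp3, hv1]; ring
  have hw0 : Q (v + p) ≠ 0 := by rw [hw]; exact hc
  refine ⟨_, ⟨v + p, hw0, hw, rfl⟩, (refl_comm_iff hu hw0).2 (Or.inr ?_), ?_⟩
  · rw [QuadraticMap.polar_add_right, hB, hp1, add_zero]
  · rw [refl_comm_iff]
    rintro ((h | h) | h)
    · exact hp4 (add_eq_left.1 h)
    · -- p = -2v = v
      have h6 : QuadraticMap.polar Q v (v + p) = QuadraticMap.polar Q v (-v) := by rw [h]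
      rw [QuadraticMap.polar_add_right, QuadraticMap.polar_neg_right, hp2, pself, hv1, add_zero] at h6
      have : ∀ c : ZMod 3, c ≠ 0 → 2 * c ≠ -(2 * c) := by decide
      exact this c hc h6
    · rw [QuadraticMap.polar_add_right, hp2, pself, hv1, add_zero] at h
      exact mul_ne_zero h23 hc h

/-- separating two noncommuting members -/
theorem sepW (hQ : (QuadraticMap.polarBilin Q).Nondegenerate) {s t : OGrp Q}
    (hs : s ∈ NS Q c) (ht : t ∈ NS Q c) (hst : ¬ Commute s t) : ∃ r ∈ NS Q c, Commute s r ∧ s ≠ r ∧ ¬ Commute t r := by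
  obtain ⟨u, hu, hu1, rfl⟩ := hs
  obtain ⟨v, hv, hv1, rfl⟩ := ht
  have hc : c ≠ 0 := by rw [← hu1]; exact hu
  rw [refl_comm_iff] at hst
  push Not at hst
  obtain ⟨v', s, h1, h2, h3, h4, h5⟩ := shift3 hu1 hv1 hc hst.2 hst.1
  obtain ⟨z, hz1, hz2, hz3⟩ := exists_sep hQ hu h3 h4 h5 c
  have hz0 : Q z ≠ 0 := by rw [hz3]; exact hc
  have h6 : QuadraticMap.polar Q v' z = 1 := by rw [h2, QuadraticMap.polar_add_left, hz1, hz2, zero_add]
  have h7 : QuadraticMap.polar Q v z ≠ 0 := by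
    rcases h1 with h1 | h1
    · rw [← h1, h6]; decide
    · rw [h1, QuadraticMap.polar_neg_left] at h6
      intro h
      rw [h, neg_zero] at h6
      exact absurd h6 (by decide)
  refine ⟨_, ⟨z, hz0, hz3, rfl⟩, (refl_comm_iff hu hz0).2 (Or.inr hz1), ?_, ?_⟩
  · rw [Ne, refl_eq_iff]
    rintro (h | h)
    · rw [h, pself, hu1] at hz1
      exact mul_ne_zero h23 hc hz1
    · rw [h, QuadraticMap.polar_neg_right, pself, hu1, neg_eq_zero] at hz1
      exact mul_ne_zero h23 hc hz1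
  · rw [refl_comm_iff]
    rintro ((h | h) | h)
    · have h8 : QuadraticMap.polar Q u z = 0 := hz1
      rw [h] at h8
      exact hst.2 h8
    · have h8 : QuadraticMap.polar Q u z = 0 := hz1
      rw [h, QuadraticMap.polar_neg_right, neg_eq_zero] at h8
      exact hst.2 h8
    · exact h7 h

end vec

section mat

variable {n : ℕ} (Q : QuadraticForm (ZMod 3) (Fin n → ZMod 3)) {c : ZMod 3}

theorem structure_all (hn : 5 ≤ n) (hQ : (QuadraticMap.polarBilin Q).Nondegenerate) (hc : c ≠ 0) :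
    IsQuasisimple (commutator ↥(reflectionSubgroup (⇑Q) c)) ∧ (commutator ↥(reflectionSubgroup (⇑Q) c)).index ≤ 2 ∧
    generalizedFittingSubgroup ↥(reflectionSubgroup (⇑Q) c) =
      Subgroup.center ↥(reflectionSubgroup (⇑Q) c) ⊔ commutator ↥(reflectionSubgroup (⇑Q) c) ∧
    IsPrimitiveUnderConj (DD Q c) := by
  have hf : finrank (ZMod 3) (Fin n → ZMod 3) = n := by simp
  have hn' : 5 ≤ finrank (ZMod 3) (Fin n → ZMod 3) := by rw [hf]; exact hn
  have hD := DD_class Q (by omega) hQ hc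
  have hmem := emb_mem Q hc
  -- common partner
  have hcommon : ∀ a ∈ DD Q c, ∀ b ∈ DD Q c, ¬ Commute a b → ∃ r ∈ DD Q c, Commute a r ∧ Commute b r := by
    intro a ha b hb hab
    rw [emb_comm] at hab
    obtain ⟨r, hr, h1, h2⟩ := common hQ hn' ((hmem a).1 ha) ((hmem b).1 hb) hab
    obtain ⟨x, rfl⟩ := emb_surj Q hc r hr
    exact ⟨x, (hmem x).2 hr, (emb_comm Q a x).2 h1, (emb_comm Q b x).2 h2⟩
  have hsepV : ∀ a ∈ DD Q c, ∀ b ∈ DD Q c, Commute a b → a ≠ b → ∃ r ∈ DD Q c, Commute a r ∧ ¬ Commute b r := by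
    intro a ha b hb hab hne
    rw [emb_comm] at hab
    obtain ⟨r, hr, h1, h2⟩ := sepV hQ hn' ((hmem a).1 ha) ((hmem b).1 hb) hab (fun h => hne (emb_inj Q h))
    obtain ⟨x, rfl⟩ := emb_surj Q hc r hr
    exact ⟨x, (hmem x).2 hr, (emb_comm Q a x).2 h1, fun h => h2 ((emb_comm Q b x).1 h)⟩
  have hsepW : ∀ a ∈ DD Q c, ∀ b ∈ DD Q c, ¬ Commute a b → ∃ r ∈ DD Q c, Commute a r ∧ a ≠ r ∧ ¬ Commute b r := by
    intro a ha b hb hab
    rw [emb_comm] at hab
    obtain ⟨r, hr, h1, h2, h3⟩ := sepW hQ ((hmem a).1 ha) ((hmem b).1 hb) hab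
    obtain ⟨x, rfl⟩ := emb_surj Q hc r hr
    exact ⟨x, (hmem x).2 hr, (emb_comm Q a x).2 h1, fun h => h2 (congrArg _ h), fun h => h3 ((emb_comm Q b x).1 h)⟩
  -- two members
  obtain ⟨d0, hd0, -⟩ := hD.2.1
  have h2mem : ∃ a ∈ DD Q c, ∃ b ∈ DD Q c, a ≠ b := by
    obtain ⟨v, hv0, hv, hvd⟩ := (hmem d0).1 hd0
    obtain ⟨w, hw⟩ := exists_norm_odd h23 (perp1_nondeg h23 hQ hv0)
      (by have := finrank_perp1_ge (Q := Q) v; omega) c
    have hw' : Q (w : Fin n → ZMod 3) = c := hw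
    have hw0 : Q (w : Fin n → ZMod 3) ≠ 0 := by rw [hw']; exact hc
    obtain ⟨x, hx⟩ := emb_surj Q hc (oRefl Q w hw0) ⟨w, hw0, hw', rfl⟩
    refine ⟨d0, hd0, x, (hmem x).2 (by rw [hx]; exact ⟨w, hw0, hw', rfl⟩), ?_⟩
    rintro rfl
    rw [hvd] at hx
    have h1 : QuadraticMap.polar Q v w = 0 := w.2
    rcases (refl_eq_iff hv0 hw0).1 hx with h | h
    · rw [h, pself, hv] at h1
      exact mul_ne_zero h23 hc h1
    · rw [h, QuadraticMap.polar_neg_right, pself, hv, neg_eq_zero] at h1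
      exact mul_ne_zero h23 hc h1
  -- the cores
  have h2 : pCore 2 ↥(reflectionSubgroup (⇑Q) c) ≤ Subgroup.center _ := by
    by_contra hcon
    obtain ⟨v, hv, hne⟩ := V_of_noncentral hD h2mem hcon d0 hd0
    have hcomm : Commute d0 v := (hv.2 v hv.1).1 (Commute.refl v)
    obtain ⟨r, hr, h1, h3⟩ := hsepV d0 hd0 v hv.1 hcomm (fun h => hne h.symm)
    exact h3 ((hv.2 r hr).2 h1)
  have h3 : pCore 3 ↥(reflectionSubgroup (⇑Q) c) ≤ Subgroup.center _ := by
    by_contra hcon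
    obtain ⟨v, hv, hne⟩ := W_of_noncentral hD hcon d0 hd0
    have hncomm : ¬ Commute d0 v := by
      intro hcomm
      have : v ∈ {y | y ∈ DD Q c ∧ y ≠ d0 ∧ Commute d0 y} := ⟨hv.1, hne, hcomm⟩
      rw [hv.2] at this
      exact this.2.1 rfl
    obtain ⟨r, hr, h1, h1', h4⟩ := hsepW d0 hd0 v hv.1 hncomm
    have : r ∈ {y | y ∈ DD Q c ∧ y ≠ d0 ∧ Commute d0 y} := ⟨hr, h1'.symm, h1⟩
    rw [hv.2] at this
    exact h4 this.2.2
  -- connected
  have hconn : (commutingGraph (DD Q c)).Connected := by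
    haveI : Nonempty ↥(DD Q c) := ⟨⟨d0, hd0⟩⟩
    refine ⟨?_⟩
    have hadj : ∀ a b : ↥(DD Q c), Commute (a : ↥(reflectionSubgroup (⇑Q) c)) b → (commutingGraph (DD Q c)).Reachable a b := by
      intro a b hab
      by_cases h : a = b
      · rw [h]
      · apply SimpleGraph.Adj.reachable
        rw [commutingGraph, SimpleGraph.fromRel_adj]
        exact ⟨h, Or.inl hab⟩
    intro a b
    by_cases hab : Commute (a : ↥(reflectionSubgroup (⇑Q) c)) b
    · exact hadj a b hab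
    · obtain ⟨r, hr, h1, h2⟩ := hcommon a a.2 b b.2 hab
      exact (hadj a ⟨r, hr⟩ h1).trans (hadj ⟨r, hr⟩ b h2.symm)
  obtain ⟨L, hLn, hLq, hF, -⟩ := Cfsg.Agent.S5352.result hD h2mem h2 h3
  obtain ⟨hprim, hidx⟩ := Cfsg.Agent.S5353.result hD h2mem h2 h3 L hLq hF
  have hi := hidx hconn
  have hLp : ⁅L, L⁆ = L := by
    have := CfsgLib.Comp.quasisimple_commutator hLq
    exact this
  have hcomm : commutator ↥(reflectionSubgroup (⇑Q) c) = L := by
    apply le_antisymm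
    · have h0 : L.index ≠ 0 := Subgroup.index_ne_zero_of_finite
      rcases (by omega : L.index = 1 ∨ L.index = 2) with h | h
      · rw [Subgroup.index_eq_one] at h
        rw [h]; exact le_top
      · exact Cfsg.Agent.H22.commutator_le_of_index_two L h
    · rw [← hLp, _root_.commutator_def]
      exact commutator_mono le_top le_top
  rw [hcomm]
  exact ⟨hLq, hi, by rw [hF, sup_comm], hprim hi⟩

end mat

end CfsgLib.TTT28
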