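import Cfsg.Agent.LibTTS28

set_option autoImplicit false

/-! Reflections of one norm over the field of three elements: the index (helper28). -/

namespace CfsgLib.TTU28

open Cfsg Cfsg.Agent.H22 Module Subgroup CfsgLib.TTR28 CfsgLib.TT28 CfsgLib.TTS28

section vec

variable {V : Type*} [AddCommGroup V] [Module (ZMod 3) V] {Q : QuadraticForm (ZMod 3) V} [FiniteDimensional (ZMod 3) V]
  {c : ZMod 3}

theorem NS_eq_SC (hc : c ≠ 0) : NS Q c = SC Q c := by
  have h1 : ∀ c t : ZMod 3, c * t ^ 2 ≠ 0 → c * t ^ 2 = c := by decide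
  ext g
  constructor
  · rintro ⟨v, hv, h, rfl⟩
    exact ⟨v, hv, 1, by rw [h]; ring, rfl⟩
  · rintro ⟨v, hv, t, h, rfl⟩
    refine ⟨v, hv, ?_, rfl⟩
    rw [h]
    rw [h] at hv
    exact h1 c t hv

theorem pair_mem3 (hQ : (QuadraticMap.polarBilin Q).Nondegenerate) (hn : 5 ≤ finrank (ZMod 3) V) (hc : c ≠ 0) {u v : V}
    (hu : Q u ≠ 0) (hv : Q v ≠ 0) (huv : Q u = Q v) :
    oRefl Q u hu * oRefl Q v hv ∈ Subgroup.closure (SC Q c) := by
  -- the orthogonal case
  have orth : ∀ {u v : V} (hu : Q u ≠ 0) (hv : Q v ≠ 0), Q u = Q v → QuadraticMap.polar Q u v = 0 →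
      oRefl Q u hu * oRefl Q v hv ∈ Subgroup.closure (SC Q c) := by
    intro u v hu hv huv hB
    refine pair_mem h23 hc u v (Q v) hv huv rfl ?_ hu hv
    rw [hB]
    have : ∀ d : ZMod 3, d ≠ 0 → 4 * d ^ 2 ≠ 0 ^ 2 := by decide
    exact this _ hv
  by_cases hB : QuadraticMap.polar Q u v = 0
  · exact orth hu hv huv hB
  by_cases hne : v = u ∨ v = -u
  · rw [refl_neg hu hv hne, oRefl_mul_self]; exact one_mem _
  push Not at hne
  obtain ⟨v', s, h1, h2, h3, h4, h5⟩ : ∃ v' s, (v' = v ∨ v' = -v) ∧ v' = u + s ∧ Q s = 0 ∧ s ≠ 0 ∧ QuadraticMap.polar Q u s = 0 := by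
    have hcase : ∀ c k : ZMod 3, c ≠ 0 → k ≠ 0 → k = 2 * c ∨ k = -(2 * c) := by decide
    rcases hcase (Q u) (QuadraticMap.polar Q u v) hu hB with h | h
    · refine ⟨v, v - u, Or.inl rfl, by abel, ?_, sub_ne_zero.2 hne.1, ?_⟩
      · rw [qsub, QuadraticMap.polar_comm, h, ← huv]; ring
      · rw [QuadraticMap.polar_sub_right, pself, h, sub_self]
    · refine ⟨-v, -v - u, Or.inr rfl, by abel, ?_, ?_, ?_⟩
      · rw [qsub, QuadraticMap.polar_comm, QuadraticMap.polar_neg_right, h, QuadraticMap.map_neg, ← huv]; ring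
      · rw [sub_ne_zero]
        intro h'
        exact hne.2 (neg_eq_iff_eq_neg.1 h')
      · rw [QuadraticMap.polar_sub_right, QuadraticMap.polar_neg_right, pself, h, neg_neg, sub_self]
  obtain ⟨z, hz1, hz2, hz3⟩ := exists_conn5 h23 hQ hu h3 h4 h5 hn (Q u)
  have hz0 : Q z ≠ 0 := by rw [hz3]; exact hu
  have h6 : QuadraticMap.polar Q z v = 0 := by
    have h6 : QuadraticMap.polar Q v' z = 0 := by rw [h2, QuadraticMap.polar_add_left, hz1, hz2, add_zero]
    rw [QuadraticMap.polar_comm]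
    rcases h1 with h1 | h1
    · rw [← h1]; exact h6
    · rw [h1, QuadraticMap.polar_neg_left, neg_eq_zero] at h6; exact h6
  have e1 := orth hu hz0 hz3.symm hz1
  have e2 := orth hz0 hv (hz3.trans huv) h6
  have e3 : oRefl Q u hu * oRefl Q v hv = (oRefl Q u hu * oRefl Q z hz0) * (oRefl Q z hz0 * oRefl Q v hv) := by
    rw [mul_assoc, ← mul_assoc (oRefl Q z hz0), oRefl_mul_self, one_mul]
  rw [e3]
  exact mul_mem e1 e2

theorem index_two (hQ : (QuadraticMap.polarBilin Q).Nondegenerate) (hn : 5 ≤ finrank (ZMod 3) V) (hc : c ≠ 0) :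
    (Subgroup.closure (SC Q c)).index = 2 := by
  classical
  have hF := exists_ne_one_of_odd h23
  have hn2 : 2 ≤ finrank (ZMod 3) V := by omega
  obtain ⟨v0, hv0⟩ := exists_norm_odd h23 hQ hn2 c
  obtain ⟨w0, hw0⟩ := exists_norm_odd h23 hQ hn2 (-c)
  have hv0' : Q v0 ≠ 0 := by rw [hv0]; exact hc
  have hw0' : Q w0 ≠ 0 := by rw [hw0]; exact neg_ne_zero.2 hc
  have hsq3 : ∀ k : ZMod 3, ∀ t : ZMod 3, k ≠ 0 → ¬ (-k = k * (t * t)) := by decide
  have hsqc : ∀ k t : ZMod 3, k ≠ 0 → k * t ^ 2 ≠ 0 → k = k * t ^ 2 := by decide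
  have hwv : ¬ IsSquare (Q w0 / Q v0) := by
    rw [hw0, hv0]
    rintro ⟨t, ht⟩
    rw [div_eq_iff hc] at ht
    exact hsq3 c t hc (by rw [ht]; ring)
  -- the character
  obtain ⟨χ, hχc, hχw⟩ : ∃ χ : OGrp Q →* ℤˣ, (∀ s ∈ SC Q c, χ s = 1) ∧ χ (oRefl Q w0 hw0') = -1 := by
    have hs := sgn_two_refl h23 hQ hn2
    have hcl : ∀ (v : V) (hv : Q v ≠ 0) (t : ZMod 3), Q v = c * t ^ 2 → sgnC Q 1 (oRefl Q v hv) = sgnC Q 1 (oRefl Q v0 hv0') := by
      intro v hv t ht
      have h1 := (hs v v0 hv hv0').1 ⟨t, by rw [ht, hv0, mul_comm c, mul_div_assoc, div_self hc]; ring⟩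
      have h3 := Int.units_mul_self (sgnC Q 1 (oRefl Q v0 hv0'))
      exact mul_right_cancel (h1.trans h3.symm)
    have hw := (hs w0 v0 hw0' hv0').2 hwv
    rcases Int.units_eq_one_or (sgnC Q 1 (oRefl Q v0 hv0')) with h1 | h1
    · refine ⟨sgnC Q 1, ?_, ?_⟩
      · rintro _ ⟨v, hv, t, ht, rfl⟩
        rw [hcl v hv t ht, h1]
      · rw [h1, mul_one] at hw; exact hw
    · refine ⟨sgnC Q 1 * par hQ (Or.inl hF), ?_, ?_⟩
      · rintro _ ⟨v, hv, t, ht, rfl⟩
        rw [MonoidHom.mul_apply, hcl v hv t ht, h1, par_refl]; rfl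
      · rw [h1] at hw
        have h3 : sgnC Q 1 (oRefl Q w0 hw0') = 1 := by
          rw [mul_neg, mul_one] at hw
          exact neg_injective hw
        rw [MonoidHom.mul_apply, h3, par_refl]; rfl
  have hle : Subgroup.closure (SC Q c) ≤ χ.ker := by
    rw [Subgroup.closure_le]
    exact fun s hs => hχc s hs
  have hN := HC_normal (Q := Q) (c := c)
  have hdec : ∀ g : OGrp Q, g ∈ Subgroup.closure (SC Q c) ∨ g * oRefl Q w0 hw0' ∈ Subgroup.closure (SC Q c) := by
    intro g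
    have hg : g ∈ Subgroup.closure {g : OGrp Q | ∃ v, ∃ hv : Q v ≠ 0, g = oRefl Q v hv} := by
      rw [closure_oRefl hQ (Or.inl hF)]; trivial
    have hstep : ∀ (v : V) (hv : Q v ≠ 0) (y : OGrp Q), (y ∈ Subgroup.closure (SC Q c) ∨ y * oRefl Q w0 hw0' ∈ Subgroup.closure (SC Q c)) →
        (oRefl Q v hv * y ∈ Subgroup.closure (SC Q c) ∨ oRefl Q v hv * y * oRefl Q w0 hw0' ∈ Subgroup.closure (SC Q c)) := by
      intro v hv y hy
      have hcase : ∀ c k : ZMod 3, c ≠ 0 → k ≠ 0 → k = c ∨ k = -c := by decide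
      rcases hcase c (Q v) hc hv with hq | hq
      · have hm : oRefl Q v hv ∈ Subgroup.closure (SC Q c) := Subgroup.subset_closure ⟨v, hv, 1, by rw [hq]; ring, rfl⟩
        rcases hy with hy | hy
        · exact Or.inl (Subgroup.mul_mem _ hm hy)
        · right
          rw [mul_assoc]
          exact Subgroup.mul_mem _ hm hy
      · have hp := pair_mem3 (c := c) hQ hn hc hw0' hv (by rw [hw0, hq])
        have e1 : oRefl Q v hv = (oRefl Q w0 hw0' * oRefl Q v hv)⁻¹ * oRefl Q w0 hw0' := by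
          rw [mul_inv_rev, oRefl_inv, oRefl_inv, mul_assoc, oRefl_mul_self, mul_one]
        rcases hy with hy | hy
        · right
          have e2 : oRefl Q v hv * y * oRefl Q w0 hw0' = (oRefl Q w0 hw0' * oRefl Q v hv)⁻¹ * (oRefl Q w0 hw0' * y * (oRefl Q w0 hw0')⁻¹) := by
            rw [mul_inv_rev, oRefl_inv v hv]
            have e3 : oRefl Q v hv * (oRefl Q w0 hw0')⁻¹ * (oRefl Q w0 hw0' * y * (oRefl Q w0 hw0')⁻¹) = oRefl Q v hv * y * (oRefl Q w0 hw0')⁻¹ := by group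
            rw [e3, oRefl_inv]
          rw [e2]
          exact Subgroup.mul_mem _ (Subgroup.inv_mem _ hp) (hN.conj_mem _ hy _)
        · left
          have e2 : oRefl Q v hv * y = (oRefl Q w0 hw0' * oRefl Q v hv)⁻¹ * (oRefl Q w0 hw0' * (y * oRefl Q w0 hw0') * (oRefl Q w0 hw0')⁻¹) := by
            nth_rw 1 [e1]
            group
          rw [e2]
          exact Subgroup.mul_mem _ (Subgroup.inv_mem _ hp) (hN.conj_mem _ hy _)
    induction hg using Subgroup.closure_induction_left with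
    | one => left; exact Subgroup.one_mem _
    | mul_left x hx y hy hih =>
      obtain ⟨v, hv, rfl⟩ := hx
      exact hstep v hv y hih
    | inv_mul_cancel x hx y hy hih =>
      obtain ⟨v, hv, rfl⟩ := hx
      rw [oRefl_inv]
      exact hstep v hv y hih
  have heq : Subgroup.closure (SC Q c) = χ.ker := by
    apply le_antisymm hle
    intro g hg
    rcases hdec g with h1 | h1
    · exact h1
    · exfalso
      have h3 := hle h1
      rw [MonoidHom.mem_ker] at h3 hg
      rw [map_mul, hg, one_mul, hχw] at h3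
      exact absurd h3 (by decide)
  rw [heq]
  exact hom_index_two χ _ hχw

end vec

theorem mat_index {n : ℕ} (hn : 5 ≤ n) (Q : QuadraticForm (ZMod 3) (Fin n → ZMod 3)) (hQ : (QuadraticMap.polarBilin Q).Nondegenerate)
    {c : ZMod 3} (hc : c ≠ 0) : (reflectionSubgroup (⇑Q) c).index = 2 := by
  have hf : finrank (ZMod 3) (Fin n → ZMod 3) = n := by simp
  have h1 := index_two (Q := Q) (c := c) hQ (by rw [hf]; exact hn) hc
  have h2 : (reflectionSubgroup (⇑Q) c).map (oIso Q : _ →* OGrp Q) = Subgroup.closure (SC Q c) := by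
    rw [← NS_eq_SC hc, reflectionSubgroup, MonoidHom.map_closure]
    congr 1
    ext s
    constructor
    · rintro ⟨g, hg, rfl⟩
      exact (mem_iff Q hc g).1 hg
    · intro hs
      refine ⟨(oIso Q).symm s, ?_, (oIso Q).apply_symm_apply s⟩
      rw [mem_iff Q hc, MulEquiv.apply_symm_apply]; exact hs
  rw [← h2] at h1
  rw [← h1]
  exact (Subgroup.index_map_equiv _ (oIso Q)).symm

end CfsgLib.TTU28
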