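import Mathlib
import Cfsg.Agent.LibTTF28

set_option autoImplicit false

/-! 3-transposition groups with `O₂(G)` elementary abelian self-centralising: the module calculus (helper1). -/

namespace CfsgLib.TU1

open Cfsg Subgroup CfsgLib.TT28 CfsgLib.TTB28 CfsgLib.TTC28 CfsgLib.Cores

universe u v

/-- `O₂(G)` written additively as a module. -/
structure Mo (G : Type u) [Group G] (M : Type v) [AddCommGroup M] where
  io : M → G
  ac : G → M →+ M
  io_add : ∀ a b, io (a + b) = io a * io b
  inj : Function.Injective io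
  spec : ∀ x a, x * io a = io (ac x a) * x
  two : ∀ a : M, a + a = 0
  mem : ∀ a, io a ∈ pCore 2 G
  surj : ∀ g ∈ pCore 2 G, ∃ a, io a = g

namespace Mo

variable {G : Type u} [Group G] {M : Type v} [AddCommGroup M] (T : Mo G M)

theorem io_zero : T.io 0 = 1 := by
  have h := T.io_add 0 0
  rw [add_zero] at h
  exact left_eq_mul.1 h

theorem ac_mul (x y : G) (a : M) : T.ac (x * y) a = T.ac x (T.ac y a) := by
  apply T.inj
  have h1 : x * y * T.io a = T.io (T.ac x (T.ac y a)) * (x * y) := by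
    rw [mul_assoc, T.spec y a, ← mul_assoc, T.spec x, mul_assoc]
  rw [T.spec (x * y) a] at h1
  exact mul_right_cancel h1

theorem ac_one (a : M) : T.ac 1 a = a := by
  apply T.inj
  have h := T.spec 1 a
  rw [one_mul, mul_one] at h
  exact h.symm

theorem io_comm (a b : M) : T.io a * T.io b = T.io b * T.io a := by
  rw [← T.io_add, ← T.io_add, add_comm]

theorem ac_io (a b : M) : T.ac (T.io b) a = a := by
  apply T.inj
  have h := T.spec (T.io b) a
  rw [T.io_comm] at h
  exact (mul_right_cancel h).symm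

theorem ac_V {g : G} (hg : g ∈ pCore 2 G) (a : M) : T.ac g a = a := by
  obtain ⟨b, rfl⟩ := T.surj g hg
  exact T.ac_io a b

theorem ac_fix {x : G} {a : M} : T.ac x a = a ↔ Commute x (T.io a) := by
  constructor
  · intro h
    show x * T.io a = T.io a * x
    rw [T.spec, h]
  · intro h
    apply T.inj
    have h1 : x * T.io a = T.io a * x := h
    rw [T.spec] at h1
    exact mul_right_cancel h1

include T in
theorem neg (a : M) : -a = a := neg_eq_of_add_eq_zero_left (T.two a)

include T in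
theorem eq_of_add {a b : M} (h : a + b = 0) : a = b := by
  rw [eq_neg_of_add_eq_zero_left h, T.neg]

include T in
theorem add_eq {a b : M} (h : a = b) : a + b = 0 := by rw [h, T.two]

include T in
theorem shift {a b c : M} (h : a + b = c) : a = c + b := by
  rw [← h, add_assoc, T.two, add_zero]

include T in
theorem cancel (a b : M) : a + (a + b) = b := by
  rw [← add_assoc, T.two, zero_add]

theorem ac_inv {x : G} {a b : M} (h : T.ac x a = b) : T.ac x⁻¹ b = a := by
  rw [← h, ← T.ac_mul, inv_mul_cancel, T.ac_one]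

theorem io_inv (a : M) : (T.io a)⁻¹ = T.io a := by
  rw [inv_eq_iff_mul_eq_one, ← T.io_add, T.two, T.io_zero]

theorem io_sq (a : M) : T.io a * T.io a = 1 := by
  rw [← T.io_add, T.two, T.io_zero]

theorem conj_io (x : G) (a : M) : x * T.io a * x⁻¹ = T.io (T.ac x a) := by
  rw [T.spec]; group

/-- the commutator space `[M, x]` -/
def K (x : G) (a : M) : Prop := ∃ m, a = m + T.ac x m

variable {T}

theorem K_add {x : G} {a b : M} (ha : T.K x a) (hb : T.K x b) : T.K x (a + b) := by
  obtain ⟨m, rfl⟩ := ha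
  obtain ⟨n, rfl⟩ := hb
  exact ⟨m + n, by rw [map_add]; abel⟩

theorem K_mk (x : G) (a : M) : T.K x (a + T.ac x a) := ⟨a, rfl⟩

theorem K_fix {x : G} (hx : x * x = 1) {a : M} (ha : T.K x a) : T.ac x a = a := by
  obtain ⟨m, rfl⟩ := ha
  rw [map_add, ← T.ac_mul, hx, T.ac_one, add_comm]

theorem K_conj (g : G) {x : G} {a : M} (ha : T.K x a) : T.K (g * x * g⁻¹) (T.ac g a) := by
  obtain ⟨m, rfl⟩ := ha
  refine ⟨T.ac g m, ?_⟩
  rw [map_add, ← T.ac_mul, ← T.ac_mul, show g * x * g⁻¹ * g = g * x by group]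

theorem K_congr {x y : G} (h : ∀ m, T.ac x m = T.ac y m) {a : M} (ha : T.K x a) : T.K y a := by
  obtain ⟨m, rfl⟩ := ha
  exact ⟨m, by rw [h]⟩

theorem K_io {x : G} (c : M) {a : M} : T.K (T.io c * x) a ↔ T.K x a := by
  constructor
  · exact K_congr (fun m => by rw [T.ac_mul, T.ac_io])
  · exact K_congr (fun m => by rw [T.ac_mul, T.ac_io])

variable {D : Set G}

theorem io_conj_mem {x m : G} (hm : m * m = 1) (hC : CI D) (hx : x ∈ D) : m * x * m ∈ D := by
  have := hC m x hx
  rwa [show m⁻¹ = m from inv_eq_of_mul_eq_one_left hm] at this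

/-- L1 -/
theorem K_mem (hC : CI D) {x : G} {a : M} (hx : x ∈ D) (ha : T.K x a) : T.io a * x ∈ D := by
  obtain ⟨m, rfl⟩ := ha
  have h := hC (T.io m) x hx
  rwa [T.io_inv, mul_assoc, T.spec, ← mul_assoc, ← T.io_add] at h

theorem Vs_of_io (hS : IsThreeTranspositionSet D) [Finite G] {x : G} {a : M} (hx : x ∈ D) (h : T.io a * x ∈ D) :
    T.io a * x ∈ Vs D x := by
  refine mem_Vs_of_two hS (pCore_isPGroup 2) hx h ?_
  rw [← mul_assoc, T.spec, mul_assoc, sq hS hx, mul_one]
  exact T.mem _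

theorem Vs_of_mem (hS : IsThreeTranspositionSet D) [Finite G] {x y : G} (hx : x ∈ D) (hy : y ∈ D)
    (h : x * y ∈ pCore 2 G) : y ∈ Vs D x :=
  mem_Vs_of_two hS (pCore_isPGroup 2) hx hy h

/-- L2 -/
theorem fix_of_comm (hS : IsThreeTranspositionSet D) (hC : CI D) [Finite G] {x y : G} {a : M} (hx : x ∈ D) (hy : y ∈ D)
    (hxy : Commute x y) (ha : T.K x a) : T.ac y a = a := by
  have h1 := Vs_of_io (T := T) hS hx (K_mem hC hx ha)
  have h2 : Commute (T.io a * x) y := (h1.2 y hy).2 hxy
  rw [T.ac_fix]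
  have h3 : T.io a = (T.io a * x) * x := by rw [mul_assoc, sq hS hx, mul_one]
  rw [h3]
  exact (h2.mul_left hxy).symm

/-- L3, general form -/
theorem braid_io (hS : IsThreeTranspositionSet D) [Finite G] {x y : G} {a : M} (hx : x ∈ D) (hy : y ∈ D)
    (hxy : ¬ Commute x y) (ha : T.io a * x ∈ D) : T.ac x (T.ac y a) = a + T.ac y a := by
  have h1 := Vs_of_io (T := T) hS hx ha
  have h2 : ¬ Commute (T.io a * x) y := fun h => hxy ((h1.2 y hy).1 h)
  have h3 := braid hS ha hy h2
  have h4 := braid hS hx hy hxy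
  have e1 : T.io a * x * y * (T.io a * x) = T.io (a + T.ac x (T.ac y a)) * (x * y * x) := by
    rw [T.io_add, mul_assoc (T.io a * x), ← mul_assoc y, T.spec y a, mul_assoc (T.io a) x,
      show x * (T.io (T.ac y a) * y * x) = (x * T.io (T.ac y a)) * (y * x) by group, T.spec x]
    group
  have e2 : y * (T.io a * x) * y = T.io (T.ac y a) * (y * x * y) := by
    rw [← mul_assoc, T.spec y a]; group
  rw [e1, e2, h4] at h3
  have h5 := T.inj (mul_right_cancel h3)
  linear_combination (norm := abel) h5 - T.two a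

/-- L3 -/
theorem braid_K (hS : IsThreeTranspositionSet D) (hC : CI D) [Finite G] {x y : G} {a : M} (hx : x ∈ D) (hy : y ∈ D)
    (hxy : ¬ Commute x y) (ha : T.K x a) : T.ac x (T.ac y a) = a + T.ac y a :=
  braid_io hS hx hy hxy (K_mem hC hx ha)

/-- L4 -/
theorem eq_zero_of_fix (hS : IsThreeTranspositionSet D) (hC : CI D) [Finite G] {x y : G} {a : M} (hx : x ∈ D) (hy : y ∈ D)
    (hxy : ¬ Commute x y) (ha : T.K x a) (hf : T.ac y a = a) : a = 0 := by
  have h := braid_K hS hC hx hy hxy ha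
  rw [hf, T.two, K_fix (sq hS hx) ha] at h
  exact h

/-- L5 -/
theorem L5 (hS : IsThreeTranspositionSet D) (hC : CI D) [Finite G] {x y : G} {a : M} (hx : x ∈ D) (hy : y ∈ D)
    (hxy : ¬ Commute x y) (ha : T.K x a) : (a + T.ac y a) + T.ac x (a + T.ac y a) = a := by
  rw [map_add, braid_K hS hC hx hy hxy ha, K_fix (sq hS hx) ha]
  linear_combination (norm := abel) T.two a + T.two (T.ac y a)

/-- L8 -/
theorem K_of_io (hS : IsThreeTranspositionSet D) [Finite G] {x y : G} {a : M} (hx : x ∈ D) (hy : y ∈ D)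
    (hxy : ¬ Commute x y) (ha : T.io a * x ∈ D) : T.K x a := by
  refine ⟨T.ac y a, ?_⟩
  rw [braid_io hS hx hy hxy ha]
  linear_combination (norm := abel) - T.two (T.ac y a)

end Mo

end CfsgLib.TU1
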