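import Mathlib
import Cfsg.Agent.LibTU1

set_option autoImplicit false

/-! 3-transposition groups with `O₂(G)` elementary abelian: separation lemmas (helper1). -/

namespace CfsgLib.TU1

open Cfsg Subgroup CfsgLib.TT28 CfsgLib.TTB28 CfsgLib.TTC28 CfsgLib.Cores

universe u v

namespace Mo

variable {G : Type u} [Group G] {M : Type v} [AddCommGroup M] {T : Mo G M} {D : Set G}

/-- L6 -/
theorem L6 (hS : IsThreeTranspositionSet D) (hC : CI D) [Finite G] {x y z : G} {α β : M} (hx : x ∈ D) (hy : y ∈ D)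
    (hz : z ∈ D) (hxy : ¬ Commute x y) (hzx : ¬ Commute z x) (hzy : ¬ Commute z y)
    (hzt : ¬ Commute z (x * y * x)) (hα : T.K x α) (hβ : T.K y β) (hp : T.K z (α + β)) : α + β = 0 := by
  have hxx := sq hS hx
  have hyy := sq hS hy
  have hzz := sq hS hz
  have ht : x * y * x ∈ D := io_conj_mem hxx hC hy
  have hbr := braid hS hx hy hxy
  have fx : T.ac x α = α := K_fix hxx hα
  have fy : T.ac y β = β := K_fix hyy hβ
  have fz : T.ac z (α + β) = α + β := K_fix hzz hp
  -- the action of the third involution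
  have t1 : T.ac (x * y * x) α = α + T.ac y α := by
    rw [T.ac_mul, T.ac_mul, fx]; exact braid_K hS hC hx hy hxy hα
  have t2 : T.ac (x * y * x) β = β + T.ac x β := by
    rw [hbr, T.ac_mul, T.ac_mul, fy]; exact braid_K hS hC hy hx (fun h => hxy h.symm) hβ
  have a1 := L5 (T := T) hS hC hz hx hzx hp
  have a2 := L5 (T := T) hS hC hz hy hzy hp
  have a3 := L5 (T := T) hS hC hz ht hzt hp
  have e1 : α + β + T.ac x (α + β) = β + T.ac x β := by
    rw [map_add, fx]; linear_combination (norm := abel) T.two α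
  have e2 : α + β + T.ac y (α + β) = α + T.ac y α := by
    rw [map_add, fy]; linear_combination (norm := abel) T.two β
  have e3 : α + β + T.ac (x * y * x) (α + β) = (α + β) + ((α + T.ac y α) + (β + T.ac x β)) := by
    rw [map_add, t1, t2]
  rw [e1] at a1
  rw [e2] at a2
  rw [e3, map_add, fz] at a3
  rw [map_add] at a3
  have h := T.two (α + β)
  linear_combination (norm := abel) a3 - a1 - a2 - T.two (α + β)

theorem L6a (hS : IsThreeTranspositionSet D) (hC : CI D) [Finite G] {x y z : G} {α β : M} (hx : x ∈ D) (hy : y ∈ D)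
    (hz : z ∈ D) (hxy : ¬ Commute x y) (hzx : ¬ Commute z x) (hzy : ¬ Commute z y)
    (hzt : ¬ Commute z (x * y * x)) (hα : T.K x α) (hβ : T.K y β) (hp : T.K z (α + β)) : α = 0 := by
  have h := L6 hS hC hx hy hz hxy hzx hzy hzt hα hβ hp
  have h1 := T.eq_of_add h
  apply eq_zero_of_fix hS hC hx hy hxy hα
  rw [h1]
  exact K_fix (sq hS hy) hβ

/-- L7 -/
theorem Vs_of_K (hS : IsThreeTranspositionSet D) (hC : CI D) [Finite G] {x y : G} {a : M} (hx : x ∈ D) (hy : y ∈ D)
    (ha : T.K x a) (hb : T.K y a) (h0 : a ≠ 0) : y ∈ Vs D x := by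
  refine ⟨hy, fun e he => ⟨fun h => ?_, fun h => ?_⟩⟩
  · by_contra hc
    exact h0 (eq_zero_of_fix hS hC hx he hc ha (fix_of_comm hS hC hy he h hb))
  · by_contra hc
    exact h0 (eq_zero_of_fix hS hC hy he hc hb (fix_of_comm hS hC hx he h ha))

theorem V_of_K (hS : IsThreeTranspositionSet D) (hC : CI D) [Finite G] {x y : G} {a : M} (hx : x ∈ D) (hy : y ∈ D)
    (ha : T.K x a) (hb : T.K y a) (h0 : a ≠ 0) : x * y ∈ pCore 2 G :=
  V_mem_pCore hS hC hx (Vs_of_K hS hC hx hy ha hb h0)

/-- L8 -/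
theorem K_of_io' (hS : IsThreeTranspositionSet D) [Finite G] {x y : G} {a : M} (hx : x ∈ D) (hy : y ∈ D)
    (hxy : ¬ Commute x y) (ha : T.io a * x ∈ D) : T.K x a := K_of_io hS hx hy hxy ha

/-- two elements agreeing modulo `O₂` act in the same way -/
theorem ac_congr {x y : G} (h : x * y⁻¹ ∈ pCore 2 G) (a : M) : T.ac x a = T.ac y a := by
  have e : x = (x * y⁻¹) * y := by group
  rw [e, T.ac_mul, T.ac_V h]

/-- the kernel of the norm of `x y` is `K x + K y` -/
theorem ker_norm (hS : IsThreeTranspositionSet D) {x y : G} {v : M} (hx : x ∈ D) (hy : y ∈ D) (hxy : ¬ Commute x y)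
    (h : v + T.ac (x * y) v + T.ac (y * x) v = 0) : ∃ α β, T.K x α ∧ T.K y β ∧ v = α + β := by
  have hyy := sq hS hy
  have hbr := braid hS hx hy hxy
  set q := T.ac (x * y) v with hq
  refine ⟨T.ac y q + T.ac x (T.ac y q), q + T.ac y q, K_mk _ _, K_mk _ _, ?_⟩
  have e1 : T.ac x (T.ac y q) = T.ac (y * x) v := by
    have e2 : x * y * (x * y) = y * x := by
      calc x * y * (x * y) = (x * y * x) * y := by group
        _ = y * x * (y * y) := by rw [hbr]; group
        _ = y * x := by rw [hyy, mul_one]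
    rw [hq, ← T.ac_mul, ← T.ac_mul, e2]
  rw [e1]
  linear_combination (norm := abel) h - T.two q - T.two (T.ac y q) - T.two (T.ac (y * x) v)

/-- the bundled hypotheses on a generating class of 3-transpositions -/
structure Cl (T : Mo G M) (D : Set G) : Prop where
  S : IsThreeTranspositionSet D
  C : CI D
  gen : closure D = ⊤
  nV : ∀ d ∈ D, d ∉ pCore 2 G
  par : ∀ d ∈ D, ∃ e ∈ D, ¬ Commute d e
  ne : D.Nonempty
  K : ∀ d ∈ D, ∃ a, a ≠ 0 ∧ T.K d a

variable {E : Set G} [Finite G]

theorem conj_eq {e : G} (he : e * e = 1) (x : G) : e * x * e⁻¹ = e * x * e := by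
  rw [show e⁻¹ = e from inv_eq_of_mul_eq_one_left he]

/-- Step A -/
theorem stepA (hD : Cl T D) (hE : Cl T E) {d e : G} (hd : d ∈ D) (he : e ∈ E) (hc : Commute d (e * d * e)) :
    d * (e * d * e) ∈ pCore 2 G := by
  by_contra hV
  have hdd := sq hD.S hd
  have hee := sq hE.S he
  have hc1 : d * (e * d * e) = e * d * e * d := hc
  have hd' : e * d * e ∈ D := io_conj_mem hee hD.C hd
  have he' : d * e * d ∈ E := io_conj_mem hdd hE.C he
  have hc2 : Commute (d * e * d) e := by
    show d * e * d * e = e * (d * e * d)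
    calc d * e * d * e = d * (e * d * e) := by group
      _ = e * d * e * d := hc1
      _ = e * (d * e * d) := by group
  have h1 : ∀ a, T.K e a → T.ac d a = a := by
    intro a ha
    by_contra hne
    have hb0 : a + T.ac d a ≠ 0 := fun h => hne (T.eq_of_add h).symm
    have hb : T.K d (a + T.ac d a) := K_mk _ _
    have hf1 : T.ac e a = a := K_fix hee ha
    have hK : T.K (d * e * d) (T.ac d a) := by
      have := K_conj d ha
      rwa [conj_eq hdd] at this
    have hf2 : T.ac e (T.ac d a) = T.ac d a := fix_of_comm hE.S hE.C he' he hc2 hK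
    have hb' : T.K (e * d * e) (a + T.ac d a) := by
      have := K_conj e hb
      rwa [conj_eq hee, map_add, hf1, hf2] at this
    exact hV (V_of_K hD.S hD.C hd hd' hb hb' hb0)
  obtain ⟨a, ha0, ha⟩ := hE.K e he
  have hK : T.K (d * e * d) a := by
    have := K_conj d ha
    rwa [conj_eq hdd, h1 a ha] at this
  have h2 := V_of_K hE.S hE.C he he' ha hK ha0
  apply hV
  rw [hc1]
  rwa [show e * d * e * d = e * (d * e * d) by group]

end Mo

end CfsgLib.TU1
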