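import Mathlib
import Cfsg.Agent.LibTU2

set_option autoImplicit false

/-! 3-transposition groups with `O₂(G)` elementary abelian: two classes (helper1). -/

namespace CfsgLib.TU1

open Cfsg Subgroup CfsgLib.TT28 CfsgLib.TTB28 CfsgLib.TTC28 CfsgLib.Cores

universe u v

namespace Mo

variable {G : Type u} [Group G] [Finite G] {M : Type v} [AddCommGroup M] {T : Mo G M} {D E : Set G}

omit [Finite G] in
theorem mem_of_closure {D : Set G} (gen : closure D = ⊤) {N : Subgroup G} [hN : N.Normal] {c : G}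
    (h : ∀ d ∈ D, d * c * d⁻¹ * c⁻¹ ∈ N) (g : G) : g * c * g⁻¹ * c⁻¹ ∈ N := by
  have h1 : ∀ g : G, g * c * g⁻¹ * c⁻¹ ∈ N ↔ Commute (QuotientGroup.mk g : G ⧸ N) (QuotientGroup.mk c) := by
    intro g
    rw [← QuotientGroup.eq_one_iff]
    simp only [QuotientGroup.mk_mul, QuotientGroup.mk_inv]
    rw [mul_inv_eq_one, mul_inv_eq_iff_eq_mul]
    exact Iff.rfl
  rw [h1]
  have h2 : ∀ x ∈ closure D, Commute (QuotientGroup.mk x : G ⧸ N) (QuotientGroup.mk c) := by
    intro x hx
    induction hx using closure_induction with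
    | mem s hs => exact (h1 s).1 (h s hs)
    | one => rw [QuotientGroup.mk_one]; exact Commute.one_left _
    | mul a b _ _ iha ihb => rw [QuotientGroup.mk_mul]; exact iha.mul_left ihb
    | inv a _ ih => rw [QuotientGroup.mk_inv]; exact ih.inv_left
  exact h2 g (by rw [gen]; exact mem_top g)

/-- an involution central modulo `O₂(G)` lies in `O₂(G)` -/
theorem mem_pCore_of_central {D : Set G} (gen : closure D = ⊤) {c : G} (hcc : c * c = 1)
    (h : ∀ d ∈ D, d * c * d⁻¹ * c⁻¹ ∈ pCore 2 G) : c ∈ pCore 2 G := by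
  have h1 := mem_of_closure gen h
  have h2 : ∀ q : G ⧸ pCore 2 G, q * QuotientGroup.mk c * q⁻¹ = QuotientGroup.mk c := by
    intro q
    obtain ⟨g, rfl⟩ := QuotientGroup.mk_surjective q
    have h3 := h1 g
    rw [← QuotientGroup.eq_one_iff] at h3
    simp only [QuotientGroup.mk_mul, QuotientGroup.mk_inv] at h3
    exact mul_inv_eq_one.1 h3
  have h4 : zpowers (QuotientGroup.mk c : G ⧸ pCore 2 G) ≤ pCore 2 (G ⧸ pCore 2 G) := by
    have hn : (zpowers (QuotientGroup.mk c : G ⧸ pCore 2 G)).Normal := by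
      refine ⟨fun x hx g => ?_⟩
      obtain ⟨k, rfl⟩ := mem_zpowers_iff.1 hx
      rw [← conj_zpow, h2]
      exact hx
    apply le_pCore hn
    rw [IsPGroup.iff_card]
    rw [Nat.card_zpowers]
    have h5 : orderOf (QuotientGroup.mk c : G ⧸ pCore 2 G) ∣ 2 := by
      rw [orderOf_dvd_iff_pow_eq_one, pow_two, ← QuotientGroup.mk_mul, hcc, QuotientGroup.mk_one]
    rcases (Nat.dvd_prime Nat.prime_two).1 h5 with h6 | h6
    · exact ⟨0, by rw [h6]; rfl⟩
    · exact ⟨1, by rw [h6]; rfl⟩
  rw [pCore_quotient_pCore] at h4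
  have h5 := h4 (mem_zpowers _)
  rw [mem_bot, QuotientGroup.eq_one_iff] at h5
  exact h5

theorem exists_pair (hD : Cl T D) (hE : Cl T E) : ∃ d ∈ D, ∃ e ∈ E, ¬ Commute d (e * d * e) := by
  by_contra hcon
  push Not at hcon
  obtain ⟨e, he⟩ := hE.ne
  apply hE.nV e he
  apply mem_pCore_of_central hD.gen (sq hE.S he)
  intro d hd
  have h := stepA hD hE hd he (hcon d hd e he)
  rw [inv_eq hD.S hd, inv_eq hE.S he]
  rwa [show d * e * d * e = d * (e * d * e) by group]

/-- (1) -/
theorem B4 (hD : Cl T D) (hE : Cl T E) {z z' e : G} {b : M} (hz : z ∈ D) (hz' : z' ∈ D) (he : e ∈ E) (hb0 : b ≠ 0)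
    (hz1 : T.K z b) (he1 : T.K e b) (hc : Commute z z') : (e * z') * (e * z') ∈ pCore 2 G := by
  have hf := fix_of_comm hD.S hD.C hz hz' hc hz1
  have h1 := K_conj z' he1
  rw [hf, conj_eq (sq hD.S hz')] at h1
  have := V_of_K hE.S hE.C he (io_conj_mem (sq hD.S hz') hE.C he) he1 h1 hb0
  rwa [show e * z' * (e * z') = e * (z' * e * z') by group]

/-- the triangle attached to a pair `(d, e)` -/
structure Pr (T : Mo G M) (D E : Set G) (d e g f : G) : Prop where
  hD : Cl T D
  hE : Cl T E
  hd : d ∈ D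
  he : e ∈ E
  nc : ¬ Commute d g
  hg : g = e * d * e
  hf : f = d * g * d

variable {d e g f : G}

namespace Pr

theorem dd (P : Pr T D E d e g f) : d * d = 1 := sq P.hD.S P.hd
theorem ee (P : Pr T D E d e g f) : e * e = 1 := sq P.hE.S P.he

theorem gD (P : Pr T D E d e g f) : g ∈ D := by
  rw [P.hg]; exact io_conj_mem P.ee P.hD.C P.hd

theorem gg (P : Pr T D E d e g f) : g * g = 1 := sq P.hD.S P.gD

theorem fD (P : Pr T D E d e g f) : f ∈ D := by
  rw [P.hf]; exact io_conj_mem P.dd P.hD.C P.gD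

theorem ff (P : Pr T D E d e g f) : f * f = 1 := sq P.hD.S P.fD

theorem hf' (P : Pr T D E d e g f) : f = g * d * g := by
  rw [P.hf]; exact braid P.hD.S P.hd P.gD P.nc

theorem ede (P : Pr T D E d e g f) : e * d * e = g := P.hg.symm

theorem ege (P : Pr T D E d e g f) : e * g * e = d := by
  rw [P.hg]
  calc e * (e * d * e) * e = (e * e) * d * (e * e) := by group
    _ = d := by rw [P.ee]; group

theorem efe (P : Pr T D E d e g f) : e * f * e = f := by
  calc e * f * e = e * (d * g * d) * e := by rw [P.hf]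
    _ = (e * d) * (e * e) * g * (e * e) * (d * e) := by rw [P.ee]; group
    _ = (e * d * e) * (e * g * e) * (e * d * e) := by group
    _ = g * d * g := by rw [P.ede, P.ege]
    _ = f := P.hf'.symm

theorem fdf (P : Pr T D E d e g f) : f * d * f = g := by
  calc f * d * f = (d * g * d) * d * (d * g * d) := by rw [P.hf]
    _ = d * g * (d * d) * d * g * d := by group
    _ = d * (g * d * g) * d := by rw [P.dd]; group
    _ = d * (d * g * d) * d := by rw [← P.hf', P.hf]
    _ = (d * d) * g * (d * d) := by group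
    _ = g := by rw [P.dd]; group

theorem fgf (P : Pr T D E d e g f) : f * g * f = d := by
  rw [← P.fdf]
  calc f * (f * d * f) * f = (f * f) * d * (f * f) := by group
    _ = d := by rw [P.ff]; group

theorem dfd (P : Pr T D E d e g f) : d * f * d = g := by
  rw [P.hf]
  calc d * (d * g * d) * d = (d * d) * g * (d * d) := by group
    _ = g := by rw [P.dd]; group

theorem gfg (P : Pr T D E d e g f) : g * f * g = d := by
  rw [P.hf']
  calc g * (g * d * g) * g = (g * g) * d * (g * g) := by group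
    _ = d := by rw [P.gg]; group

theorem ef (P : Pr T D E d e g f) : e * f = f * e := by
  calc e * f = (e * f * e) * e := by rw [mul_assoc _ e e, P.ee, mul_one]
    _ = f * e := by rw [P.efe]

theorem cd (P : Pr T D E d e g f) : Commute (e * f) d := by
  show e * f * d = d * (e * f)
  calc e * f * d = e * (f * d * f) * f := by
        calc e * f * d = e * f * d * 1 := by rw [mul_one]
          _ = e * f * d * (f * f) := by rw [P.ff]
          _ = e * (f * d * f) * f := by group
    _ = e * g * f := by rw [P.fdf]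
    _ = (e * g * e) * e * f := by
        calc e * g * f = e * g * 1 * f := by rw [mul_one]
          _ = e * g * (e * e) * f := by rw [P.ee]
          _ = (e * g * e) * e * f := by group
    _ = d * (e * f) := by rw [P.ege]; group

theorem cg (P : Pr T D E d e g f) : Commute (e * f) g := by
  show e * f * g = g * (e * f)
  calc e * f * g = e * (f * g * f) * f := by
        calc e * f * g = e * f * g * 1 := by rw [mul_one]
          _ = e * f * g * (f * f) := by rw [P.ff]
          _ = e * (f * g * f) * f := by group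
    _ = e * d * f := by rw [P.fgf]
    _ = (e * d * e) * e * f := by
        calc e * d * f = e * d * 1 * f := by rw [mul_one]
          _ = e * d * (e * e) * f := by rw [P.ee]
          _ = (e * d * e) * e * f := by group
    _ = g * (e * f) := by rw [P.ede]; group

theorem cf (P : Pr T D E d e g f) : Commute (e * f) f := by
  show e * f * f = f * (e * f)
  rw [← mul_assoc f, P.ef]

theorem cc (P : Pr T D E d e g f) : (e * f) * (e * f) = 1 := by
  calc (e * f) * (e * f) = (e * f * e) * f := by group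
    _ = 1 := by rw [P.efe, P.ff]

theorem ncdf (P : Pr T D E d e g f) : ¬ Commute d f := by
  intro h
  apply P.nc
  have h1 : d * f * d = f := by
    have h2 : d * f = f * d := h
    rw [h2, mul_assoc, P.dd, mul_one]
  rw [P.dfd] at h1
  rw [h1]; exact h

theorem ncgf (P : Pr T D E d e g f) : ¬ Commute g f := by
  intro h
  apply P.nc
  have h1 : g * f * g = f := by
    have h2 : g * f = f * g := h
    rw [h2, mul_assoc, P.gg, mul_one]
  rw [P.gfg] at h1
  rw [h1]; exact h.symm

/-- a common vector -/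
theorem vec (P : Pr T D E d e g f) : ∃ a, a ≠ 0 ∧ T.K f a ∧ T.K e a := by
  obtain ⟨a0, h0, h1⟩ := P.hD.K f P.fD
  have h2 : ∃ a, a ≠ 0 ∧ T.K f a ∧ T.ac (e * f) a = a := by
    by_cases h : T.ac (e * f) a0 = a0
    · exact ⟨a0, h0, h1, h⟩
    · refine ⟨a0 + T.ac (e * f) a0, fun h' => h (T.eq_of_add h').symm, K_add h1 ?_, ?_⟩
      · have h3 := K_conj (e * f) h1
        have h4 : e * f * f * (e * f)⁻¹ = f := by
          rw [mul_inv_eq_iff_eq_mul]; exact P.cf
        rwa [h4] at h3
      · rw [map_add, ← T.ac_mul, P.cc, T.ac_one, add_comm]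
  obtain ⟨a, ha0, ha, hca⟩ := h2
  refine ⟨a, ha0, ha, a + T.ac d a, ?_⟩
  have h5 := L5 (T := T) P.hD.S P.hD.C P.fD P.hd (fun h => P.ncdf h.symm) ha
  have h6 : T.ac (e * f) (a + T.ac d a) = a + T.ac d a := by
    rw [map_add, hca, ← T.ac_mul, show e * f * d = d * (e * f) from P.cd, T.ac_mul, hca]
  have h7 : T.ac e (a + T.ac d a) = T.ac f (a + T.ac d a) := by
    have h8 : e = f * (e * f) := by
      calc e = e * (f * f) := by rw [P.ff, mul_one]
        _ = (e * f) * f := by group
        _ = f * (e * f) := P.cf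
    have h9 : T.ac e (a + T.ac d a) = T.ac (f * (e * f)) (a + T.ac d a) := by rw [← h8]
    rw [h9, T.ac_mul, h6]
  rw [h7, h5]

theorem dg_de (P : Pr T D E d e g f) : d * g = (d * e) * (d * e) := by
  rw [P.hg]; group

theorem gd_de (P : Pr T D E d e g f) : g * d = (e * d) * (e * d) := by
  rw [P.hg]; group

theorem gdV (P : Pr T D E d e g f) : g * d ∉ pCore 2 G := by
  intro h
  have h1 := Vs_of_mem P.hD.S P.gD P.hd h
  exact P.nc ((h1.2 d P.hd).1 (Commute.refl d)).symm

theorem dgV (P : Pr T D E d e g f) : d * g ∉ pCore 2 G := by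
  intro h
  have h1 := Vs_of_mem P.hD.S P.hd P.gD h
  exact P.nc ((h1.2 g P.gD).1 (Commute.refl g))

/-- `K e ≤ K d + K g` -/
theorem K_sub (P : Pr T D E d e g f) {b : M} (hb : T.K e b) : ∃ α β, T.K d α ∧ T.K g β ∧ b = α + β := by
  have he' : d * e * d ∈ E := io_conj_mem P.dd P.hE.C P.he
  have e1 : d * g = (d * e * d) * e := by rw [P.dg_de]; group
  have e2 : g * d = e * (d * e * d) := by rw [P.gd_de]; group
  have hnc : ¬ Commute e (d * e * d) := by
    intro h
    apply P.nc
    show d * g = g * d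
    rw [e1, e2]; exact h.symm
  have h1 := braid_K P.hE.S P.hE.C P.he he' hnc hb
  have h2 : T.ac e b = b := K_fix P.ee hb
  apply ker_norm P.hD.S P.hd P.gD P.nc
  rw [e1, e2, T.ac_mul (d * e * d) e, h2, T.ac_mul e (d * e * d), h1]
  linear_combination (norm := abel) T.two b + T.two (T.ac (d * e * d) b)

/-- (2) -/
theorem B5 (P : Pr T D E d e g f) {z : G} (hz : z ∈ D) (hnc : ¬ Commute z f) : (e * z) * (e * z) ∉ pCore 2 G := by
  intro h
  obtain ⟨a, ha0, haf, hae⟩ := P.vec
  have hzz := sq P.hD.S hz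
  have hb0 : a + T.ac z a ≠ 0 := by
    intro h'
    exact ha0 (eq_zero_of_fix P.hD.S P.hD.C P.fD hz (fun h => hnc h.symm) haf (T.eq_of_add h').symm)
  have hbz : T.K z (a + T.ac z a) := K_mk _ _
  have h1 : T.K (z * e * z) (T.ac z a) := by
    have := K_conj z hae
    rwa [conj_eq hzz] at this
  have h2 : T.K e (T.ac z a) := by
    refine K_congr (fun m => ?_) h1
    apply ac_congr
    rw [inv_eq P.hE.S P.he]
    have h3 := (pCore 2 G).inv_mem h
    rwa [mul_inv_rev, mul_inv_rev, inv_eq P.hE.S P.he, inv_eq P.hD.S hz, ← mul_assoc] at h3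
  have hbe : T.K e (a + T.ac z a) := K_add hae h2
  have n1 : ¬ Commute z d := by
    intro hc
    apply P.gdV
    rw [P.gd_de]
    exact B4 P.hD P.hE hz P.hd P.he hb0 hbz hbe hc
  have n2 : ¬ Commute z g := by
    intro hc
    have h3 := B4 P.hD P.hE hz P.gD P.he hb0 hbz hbe hc
    apply P.dgV
    have e1 : (e * g) * (e * g) = d * g := by
      calc (e * g) * (e * g) = (e * g * e) * g := by group
        _ = d * g := by rw [P.ege]
    rwa [e1] at h3
  obtain ⟨α, β, hα, hβ, e1⟩ := P.K_sub hbe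
  apply hb0
  rw [e1]
  rw [e1] at hbz
  refine L6 P.hD.S P.hD.C P.hd P.gD hz P.nc n1 n2 ?_ hα hβ hbz
  rw [← P.hf]; exact hnc

theorem B6 (P : Pr T D E d e g f) {z : G} (hz : z ∈ D) (hc : Commute z f) : (e * z) * (e * z) ∈ pCore 2 G := by
  obtain ⟨a, ha0, haf, hae⟩ := P.vec
  exact B4 P.hD P.hE P.fD hz P.he ha0 haf hae hc.symm

theorem B7 (P : Pr T D E d e g f) {z : G} (hz : z ∈ D) (h : (e * z) * (e * z) ∉ pCore 2 G) :
    Pr T D E z e (e * z * e) (z * (e * z * e) * z) := by
  refine ⟨P.hD, P.hE, hz, P.he, fun hc => h ?_, rfl, rfl⟩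
  have h1 := stepA P.hD P.hE hz P.he hc
  have h2 := (pCore 2 G).inv_mem h1
  rw [mul_inv_rev, mul_inv_rev, mul_inv_rev, inv_eq P.hE.S P.he, inv_eq P.hD.S hz] at h2
  rwa [show e * z * (e * z) = e * (z * e) * z by group]

theorem B8 (P : Pr T D E d e g f) {z : G} (hz : z ∈ D) (h : (e * z) * (e * z) ∉ pCore 2 G) :
    f * (z * (e * z * e) * z) ∈ pCore 2 G := by
  have Q := P.B7 hz h
  apply V_mem_pCore P.hD.S P.hD.C P.fD
  refine ⟨Q.fD, fun y hy => ⟨fun hc => ?_, fun hc => ?_⟩⟩
  · by_contra hn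
    exact P.B5 hy (fun h' => hn h'.symm) (Q.B6 hy hc.symm)
  · by_contra hn
    exact Q.B5 hy (fun h' => hn h'.symm) (P.B6 hy hc.symm)

theorem cV (P : Pr T D E d e g f) : e * f ∈ pCore 2 G := by
  apply mem_pCore_of_central P.hD.gen P.cc
  intro z hz
  have hzz := sq P.hD.S hz
  have hzi := inv_eq P.hD.S hz
  by_cases h : (e * z) * (e * z) ∈ pCore 2 G
  · have hc : Commute z f := by
      by_contra hn
      exact P.B5 hz hn h
    have e1 : z * (e * f) * z⁻¹ * (e * f)⁻¹ = z * e * z * e := by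
      have h1 : (e * f)⁻¹ = f * e := by
        rw [mul_inv_rev, inv_eq P.hE.S P.he, inv_eq P.hD.S P.fD]
      have h2 : f * z = z * f := hc.symm
      rw [h1, hzi]
      calc z * (e * f) * z * (f * e) = z * e * (f * z) * f * e := by group
        _ = z * e * z * (f * f) * e := by rw [h2]; group
        _ = z * e * z * e := by rw [P.ff, mul_one]
    rw [e1]
    have h3 := (pCore 2 G).inv_mem h
    rw [mul_inv_rev, mul_inv_rev, inv_eq P.hE.S P.he, hzi] at h3
    rwa [show z * e * z * e = z * e * (z * e) by group]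
  · have Q := P.B7 hz h
    have h8 := P.B8 hz h
    set f' := z * (e * z * e) * z with hf'
    -- `c = c' (f' f)`
    have h9 : f' * f ∈ pCore 2 G := by
      have := (pCore 2 G).inv_mem h8
      rwa [mul_inv_rev, inv_eq P.hD.S P.fD, inv_eq P.hD.S Q.fD] at this
    have e1 : e * f = (e * f') * (f' * f) := by
      calc e * f = e * 1 * f := by rw [mul_one]
        _ = e * (f' * f') * f := by rw [Q.ff]
        _ = (e * f') * (f' * f) := by group
    have e2 : z * (e * f') = (e * f') * z := Q.cd.symm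
    have e3 : z * (e * f) * z⁻¹ * (e * f)⁻¹ = (e * f') * ((z * (f' * f) * z⁻¹) * (f' * f)⁻¹) * (e * f')⁻¹ := by
      rw [e1]
      calc z * (e * f' * (f' * f)) * z⁻¹ * (e * f' * (f' * f))⁻¹
          = (z * (e * f')) * (f' * f) * z⁻¹ * (f' * f)⁻¹ * (e * f')⁻¹ := by group
        _ = (e * f') * ((z * (f' * f) * z⁻¹) * (f' * f)⁻¹) * (e * f')⁻¹ := by rw [e2]; group
    rw [e3]
    have hN : (pCore 2 G).Normal := inferInstance
    exact hN.conj_mem _ ((pCore 2 G).mul_mem (hN.conj_mem _ h9 _) ((pCore 2 G).inv_mem h9)) _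

end Pr

end Mo

end CfsgLib.TU1
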