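import Mathlib
import Cfsg.Agent.LibTU3

set_option autoImplicit false

/-! 3-transposition groups with `O₂(G)` elementary abelian: conclusion (helper1). -/

namespace CfsgLib.TU1

open Cfsg Subgroup CfsgLib.TT28 CfsgLib.TTB28 CfsgLib.TTC28 CfsgLib.Cores

universe u v

namespace Mo

variable {G : Type u} [Group G] [Finite G] {M : Type v} [AddCommGroup M] {T : Mo G M} {D E : Set G}

/-- case 1 -/
theorem C1 (hD : Cl T D) (hE : Cl T E) {x z : G} {u : M} (hx : x ∈ D) (hux : T.io u * x ∈ E) (hfx : T.ac x u = u)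
    (hz : z ∈ D) (hc : Commute z x) : T.ac z u = u := by
  by_contra hne
  have ha0 : u + T.ac z u ≠ 0 := fun h => hne (T.eq_of_add h).symm
  have hzz := sq hD.S hz
  have hc' : z * x = x * z := hc
  have h1 : T.io (u + T.ac z u) * (T.io u * x) ∈ E := by
    have h2 := io_conj_mem hzz hE.C hux
    have e1 : z * (T.io u * x) * z = T.io (u + T.ac z u) * (T.io u * x) := by
      calc z * (T.io u * x) * z = (z * T.io u) * x * z := by group
        _ = T.io (T.ac z u) * (z * x) * z := by rw [T.spec]; group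
        _ = T.io (T.ac z u) * x * (z * z) := by rw [hc']; group
        _ = T.io (T.ac z u) * x := by rw [hzz, mul_one]
        _ = T.io (u + T.ac z u + u) * x := by
            congr 2; linear_combination (norm := abel) - T.two u
        _ = T.io (u + T.ac z u) * (T.io u * x) := by rw [T.io_add]; group
    rwa [e1] at h2
  obtain ⟨y, hy, hnc⟩ := hE.par _ hux
  have h3 := K_of_io hE.S hux hy hnc h1
  rw [K_io] at h3
  have h4 := V_of_K hD.S hD.C hz hx (K_mk z u) h3 ha0
  apply hne
  have h5 : T.ac z u = T.ac x u := by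
    apply ac_congr
    rwa [inv_eq hD.S hx]
  rw [h5, hfx]

/-- case 2, first half -/
theorem C2a (hD : Cl T D) (hE : Cl T E) {x z : G} {u v : M} (hx : x ∈ D) (hux : T.io u * x ∈ E) (hfx : T.ac x u = u)
    (hz : z ∈ D) (hnc : ¬ Commute x z) (hv : T.io v * z ∈ E) : ∃ α, T.K x α ∧ T.io (u + α) * z ∈ E := by
  have hxx := sq hD.S hx
  have hzz := sq hD.S hz
  have hbr := braid hD.S hx hz hnc
  have e0 : (T.io u * x) * (T.io v * z) = T.io (u + T.ac x v) * (x * z) := by
    calc (T.io u * x) * (T.io v * z) = T.io u * (x * T.io v) * z := by group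
      _ = T.io u * T.io (T.ac x v) * (x * z) := by rw [T.spec]; group
      _ = _ := by rw [T.io_add]
  set m := u + T.ac x v with hm
  have hw : x * z * (x * z) = z * x := by
    calc x * z * (x * z) = (x * z * x) * z := by group
      _ = z * x * (z * z) := by rw [hbr]; group
      _ = z * x := by rw [hzz, mul_one]
  have e2 : T.io m * (x * z) * (T.io m * (x * z)) = T.io (m + T.ac (x * z) m) * (z * x) := by
    calc T.io m * (x * z) * (T.io m * (x * z)) = T.io m * ((x * z) * T.io m) * (x * z) := by group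
      _ = T.io m * T.io (T.ac (x * z) m) * (x * z * (x * z)) := by rw [T.spec]; group
      _ = _ := by rw [hw, ← T.io_add]
  have hnc' : ¬ Commute (T.io u * x) (T.io v * z) := by
    intro hc
    have h1 := sq_of_comm hE.S hux hv hc
    rw [e0, e2] at h1
    have h2 : z * x = T.io (m + T.ac (x * z) m) := by
      rw [← T.io_inv]; exact eq_inv_of_mul_eq_one_right h1
    have h3 : z * x ∈ pCore 2 G := by rw [h2]; exact T.mem _
    have h4 := Vs_of_mem hD.S hz hx h3
    exact hnc ((h4.2 z hz).2 (Commute.refl z))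
  have h1 := cube hE.S hux hv hnc'
  rw [e0, pow_succ, pow_two, e2] at h1
  have e3 : T.io (m + T.ac (x * z) m) * (z * x) * (T.io m * (x * z)) = T.io (m + T.ac (x * z) m + T.ac (z * x) m) := by
    calc T.io (m + T.ac (x * z) m) * (z * x) * (T.io m * (x * z))
        = T.io (m + T.ac (x * z) m) * ((z * x) * T.io m) * (x * z) := by group
      _ = T.io (m + T.ac (x * z) m) * T.io (T.ac (z * x) m) * (z * (x * x) * z) := by rw [T.spec]; group
      _ = _ := by rw [hxx, mul_one, hzz, mul_one, ← T.io_add]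
  rw [e3, ← T.io_zero] at h1
  have h2 := T.inj h1
  -- `m = x (u + v)`
  have hm' : m = T.ac x (u + v) := by rw [map_add, hfx]
  have h3 : (u + v) + T.ac (x * z) (u + v) + T.ac (z * x) (u + v) = 0 := by
    have h4 := congrArg (T.ac x) h2
    rw [map_zero, map_add, map_add, hm', ← T.ac_mul, ← T.ac_mul, ← T.ac_mul, ← T.ac_mul, ← T.ac_mul] at h4
    have a1 : x * x = 1 := hxx
    have a2 : x * (x * z) * x = z * x := by
      calc x * (x * z) * x = (x * x) * z * x := by group
        _ = z * x := by rw [hxx, one_mul]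
    have a3 : x * (z * x) * x = x * z := by
      calc x * (z * x) * x = x * z * (x * x) := by group
        _ = x * z := by rw [hxx, mul_one]
    rw [a1, T.ac_one, a2, a3] at h4
    rw [← h4]; abel
  obtain ⟨α, β, hα, hβ, h4⟩ := ker_norm hD.S hx hz hnc h3
  refine ⟨α, hα, ?_⟩
  have h5 : T.K (T.io v * z) β := K_io v |>.2 hβ
  have h6 := K_mem hE.C hv h5
  rw [← mul_assoc, ← T.io_add] at h6
  have h7 : β + v = u + α := by linear_combination (norm := abel) h4 - T.two u + T.two β
  rwa [h7] at h6

variable {d e g f : G}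

namespace Pr

theorem final (P : Pr T D E d e g f) (hcl : ∃ d ∈ D, D = conjugatesOf d) {z : G} (hz : z ∈ D) :
    Commute z (e * f) := by
  obtain ⟨u, hu⟩ := T.surj _ P.cV
  have uf : T.ac f u = u := by rw [T.ac_fix, hu]; exact P.cf.symm
  have ud : T.ac d u = u := by rw [T.ac_fix, hu]; exact P.cd.symm
  have ug : T.ac g u = u := by rw [T.ac_fix, hu]; exact P.cg.symm
  have ef' : T.io u * f = e := by rw [hu, mul_assoc, P.ff, mul_one]
  have fE : T.io u * f ∈ E := by rw [ef']; exact P.he
  have gE : T.io u * g ∈ E := by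
    have h1 := io_conj_mem P.dd P.hE.C fE
    have h2 : d * (T.io u * f) * d = T.io u * g := by
      calc d * (T.io u * f) * d = (d * T.io u) * f * d := by group
        _ = T.io u * (d * f * d) := by rw [T.spec, ud]; group
        _ = T.io u * g := by rw [P.dfd]
    rwa [h2] at h1
  have dE : T.io u * d ∈ E := by
    have h1 := io_conj_mem P.gg P.hE.C fE
    have h2 : g * (T.io u * f) * g = T.io u * d := by
      calc g * (T.io u * f) * g = (g * T.io u) * f * g := by group
        _ = T.io u * (g * f * g) := by rw [T.spec, ug]; group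
        _ = T.io u * d := by rw [P.gfg]
    rwa [h2] at h1
  rw [← hu, ← T.ac_fix]
  by_cases h1 : Commute z f
  · exact C1 P.hD P.hE P.fD fE uf hz h1
  by_cases h2 : Commute z d
  · exact C1 P.hD P.hE P.hd dE ud hz h2
  by_cases h3 : Commute z g
  · exact C1 P.hD P.hE P.gD gE ug hz h3
  -- a conjugate of `e` over `z`
  obtain ⟨v, hv⟩ : ∃ v, T.io v * z ∈ E := by
    obtain ⟨h, rfl⟩ := CfsgLib.TTF28.class_conj hcl P.fD hz
    refine ⟨T.ac h u, ?_⟩
    have h4 := P.hE.C h _ fE
    have e1 : h * (T.io u * f) * h⁻¹ = T.io (T.ac h u) * (h * f * h⁻¹) := by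
      calc h * (T.io u * f) * h⁻¹ = (h * T.io u) * f * h⁻¹ := by group
        _ = _ := by rw [T.spec]; group
    rwa [e1] at h4
  obtain ⟨α, hα, hα'⟩ := C2a P.hD P.hE P.fD fE uf hz (fun h => h1 h.symm) hv
  obtain ⟨δ, hδ, hδ'⟩ := C2a P.hD P.hE P.hd dE ud hz (fun h => h2 h.symm) hv
  obtain ⟨y, hy, hnc⟩ := P.hE.par _ hα'
  have h4 : T.K (T.io (u + α) * z) (α + δ) := by
    apply K_of_io P.hE.S hα' hy hnc
    rw [← mul_assoc, ← T.io_add]
    have e1 : α + δ + (u + α) = u + δ := by linear_combination (norm := abel) T.two α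
    rw [e1]; exact hδ'
  rw [K_io] at h4
  have h5 : α = 0 := by
    refine L6a P.hD.S P.hD.C P.fD P.hd hz (fun h => P.ncdf h.symm) h1 h2 ?_ hα hδ h4
    rw [P.fdf]; exact h3
  rw [h5, add_zero] at hα'
  have h6 := sq P.hE.S hα'
  have hzz := sq P.hD.S hz
  have e1 : T.io u * z * (T.io u * z) = T.io (u + T.ac z u) := by
    calc T.io u * z * (T.io u * z) = T.io u * (z * T.io u) * z := by group
      _ = T.io u * T.io (T.ac z u) * (z * z) := by rw [T.spec]; group
      _ = _ := by rw [hzz, mul_one, T.io_add]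
  rw [e1, ← T.io_zero] at h6
  exact (T.eq_of_add (T.inj h6)).symm

end Pr

theorem unique_class (hD : Cl T D) (hE : Cl T E) (hcl : ∃ d ∈ D, D = conjugatesOf d)
    (hcl' : ∃ d ∈ E, E = conjugatesOf d) (hZ : center G = ⊥) : E = D := by
  obtain ⟨d, hd, e, he, hnc⟩ := exists_pair hD hE
  have P : Pr T D E d e (e * d * e) (d * (e * d * e) * d) := ⟨hD, hE, hd, he, hnc, rfl, rfl⟩
  have h1 : e * (d * (e * d * e) * d) ∈ center G := mem_center_of hD.gen (fun z hz => P.final hcl hz)
  rw [hZ, mem_bot] at h1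
  have h2 : e ∈ D := by
    have h3 : e = d * (e * d * e) * d := by
      have := eq_inv_of_mul_eq_one_left h1
      rwa [inv_eq hD.S P.fD] at this
    rw [h3]; exact P.fD
  ext x
  constructor
  · intro hx
    obtain ⟨h, rfl⟩ := CfsgLib.TTF28.class_conj hcl' he hx
    exact hD.C h e h2
  · intro hx
    obtain ⟨h, rfl⟩ := CfsgLib.TTF28.class_conj hcl h2 hx
    exact hE.C h e he

end Mo

end CfsgLib.TU1
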