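import Mathlib
import Cfsg.Agent.EqBase
import Cfsg.Agent.LibUniqAll
import Cfsg.Prelude.Def_SporadicCombinatorics

set_option autoImplicit false

/-! The ternary code of length 12 (helper28). -/

namespace CfsgLib.Tern28

open Cfsg CfsgLib.Golay CfsgLib.Uniq

/-- the index of a point -/
def ix (p : ArrayPt) : ℕ := 3 * p.1.val + p.2.val

theorem ix_lt (p : ArrayPt) : ix p < 12 := by revert p; decide

/-- the points numbered -/
def e12 : Fin 12 ≃ ArrayPt where
  toFun q := (⟨q.val / 3, by omega⟩, ((q.val % 3 : ℕ) : ZMod 3))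
  invFun p := ⟨ix p, ix_lt p⟩
  left_inv := by decide
  right_inv := by decide

theorem ix_e12 (q : Fin 12) : ix (e12 q) = q.val := by revert q; decide

theorem e12_ix (p : ArrayPt) : e12 ⟨ix p, ix_lt p⟩ = p := e12.right_inv p

/-- the rows of the generator matrix -/
def rows : List ℕ := [9765889, 9077764, 5784592, 1673280, 9586944, 11096064]

/-- generator matrix entry -/
def Gm (j q : ℕ) : ℕ := Nat.land (Nat.shiftRight (rows.getD j 0) (Nat.mul 2 q)) 3

/-- generator words -/
def gw (j : Fin 6) : ArrayPt → ZMod 3 := fun p => (Gm j.val (ix p) : ZMod 3)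

/-- encoding -/
def enc (a : Fin 6 → ZMod 3) : ArrayPt → ZMod 3 := fun p => ∑ j, a j * gw j p

/-- information positions -/
def pI : Fin 6 → ArrayPt := ![(0, 0), (0, 1), (0, 2), (1, 0), (1, 1), (2, 0)]

theorem gw_pI : ∀ i j : Fin 6, gw j (pI i) = if i = j then 1 else 0 := by decide +kernel

theorem enc_pI (a : Fin 6 → ZMod 3) (i : Fin 6) : enc a (pI i) = a i := by
  rw [enc]
  simp only [gw_pI]
  rw [Finset.sum_eq_single i]
  · rw [if_pos rfl, mul_one]
  · intro j _ hj
    rw [if_neg (Ne.symm hj), mul_zero]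
  · intro h; exact absurd (Finset.mem_univ i) h

theorem mem_tet {t : Fin 4 → ZMod 3} : t ∈ tetracode ↔ ∃ a b : ZMod 3, a • (![0, 1, 1, 1] : Fin 4 → ZMod 3) + b • ![1, 0, 1, 2] = t :=
  Submodule.mem_span_pair

theorem gw_mem (j : Fin 6) : gw j ∈ ternaryGolayCode := by
  have key : ∀ j : Fin 6, (∀ i : Fin 4, ∑ r : ZMod 3, gw j (i, r) = -(-(∑ r : ZMod 3, gw j (0, r)))) ∧ ∀ a b : ZMod 3,
      ∑ i : Fin 4, gw j (i, ((a • (![0, 1, 1, 1] : Fin 4 → ZMod 3) + b • (![1, 0, 1, 2] : Fin 4 → ZMod 3) : Fin 4 → ZMod 3) i)) = -(∑ r : ZMod 3, gw j (0, r)) := by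
    decide +kernel
  refine ⟨-(∑ r : ZMod 3, gw j (0, r)), (key j).1, ?_⟩
  intro t ht
  obtain ⟨a, b, rfl⟩ := mem_tet.1 ht
  exact (key j).2 a b

theorem enc_mem (a : Fin 6 → ZMod 3) : enc a ∈ ternaryGolayCode := by
  have : enc a = ∑ j, a j • gw j := by
    funext p
    rw [enc, Finset.sum_apply]
    rfl
  rw [this]
  exact Submodule.sum_mem _ fun j _ => Submodule.smul_mem _ _ (gw_mem j)

theorem sum3 (f : ZMod 3 → ZMod 3) : ∑ r : ZMod 3, f r = f 0 + f 1 + f 2 := Fin.sum_univ_three f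

theorem zero_of {x : ArrayPt → ZMod 3} (hx : x ∈ ternaryGolayCode) (h : ∀ i, x (pI i) = 0) : x = 0 := by
  obtain ⟨s, hs, ht⟩ := hx
  have h3 : (3 : ZMod 3) = 0 := by decide
  have a0 : x (0, 0) = 0 := h 0
  have a1 : x (0, 1) = 0 := h 1
  have a2 : x (0, 2) = 0 := h 2
  have a3 : x (1, 0) = 0 := h 3
  have a4 : x (1, 1) = 0 := h 4
  have a6 : x (2, 0) = 0 := h 5
  have c0 := hs 0
  have c1 := hs 1
  have c2 := hs 2
  have c3 := hs 3
  rw [sum3] at c0 c1 c2 c3
  have key : ∀ a b : ZMod 3, ∑ i : Fin 4, x (i, ((a • (![0, 1, 1, 1] : Fin 4 → ZMod 3) + b • (![1, 0, 1, 2] : Fin 4 → ZMod 3) : Fin 4 → ZMod 3) i)) = s :=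
    fun a b => ht _ (mem_tet.2 ⟨a, b, rfl⟩)
  have t0 : x (0, 0) + x (1, 0) + x (2, 0) + x (3, 0) = s := by
    have := key 0 0; rw [Fin.sum_univ_four] at this; exact this
  have t1 : x (0, 0) + x (1, 1) + x (2, 1) + x (3, 1) = s := by
    have := key 1 0; rw [Fin.sum_univ_four] at this; exact this
  have t2 : x (0, 0) + x (1, 2) + x (2, 2) + x (3, 2) = s := by
    have := key 2 0; rw [Fin.sum_univ_four] at this; exact this
  have t3 : x (0, 1) + x (1, 0) + x (2, 1) + x (3, 2) = s := by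
    have := key 0 1; rw [Fin.sum_univ_four] at this; exact this
  have hs0 : s = 0 := by linear_combination c0 - a0 - a1 - a2
  subst hs0
  have a5 : x (1, 2) = 0 := by linear_combination c1 - a3 - a4
  have a9 : x (3, 0) = 0 := by linear_combination t0 - a0 - a3 - a6
  -- x8 = -x7, x10 = -x7, x11 = x7, 2 x7 = 0
  have e8 : x (2, 2) = - x (2, 1) := by linear_combination c2 - a6
  have e10 : x (3, 1) = - x (2, 1) := by linear_combination t1 - a0 - a4
  have e11 : x (3, 2) = x (2, 1) := by linear_combination t2 - a0 - a5 - e8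
  have a7 : x (2, 1) = 0 := by linear_combination -t3 + a1 + a3 + e11 + x (2, 1) * h3
  have a8 : x (2, 2) = 0 := by rw [e8, a7, neg_zero]
  have a10 : x (3, 1) = 0 := by rw [e10, a7, neg_zero]
  have a11 : x (3, 2) = 0 := by rw [e11, a7]
  have hall : ∀ p : ArrayPt, p = (0, 0) ∨ p = (0, 1) ∨ p = (0, 2) ∨ p = (1, 0) ∨ p = (1, 1) ∨ p = (1, 2) ∨ p = (2, 0) ∨
      p = (2, 1) ∨ p = (2, 2) ∨ p = (3, 0) ∨ p = (3, 1) ∨ p = (3, 2) := by decide
  funext p
  rw [Pi.zero_apply]
  rcases hall p with rfl | rfl | rfl | rfl | rfl | rfl | rfl | rfl | rfl | rfl | rfl | rfl <;> assumption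

theorem eq_enc {x : ArrayPt → ZMod 3} (hx : x ∈ ternaryGolayCode) : x = enc (fun j => x (pI j)) := by
  rw [← sub_eq_zero]
  apply zero_of (Submodule.sub_mem _ hx (enc_mem _))
  intro i
  rw [Pi.sub_apply, enc_pI, sub_self]

/-! ### the numbered words -/

/-- digits in base three -/
def dg (k j : ℕ) : ℕ := k / 3 ^ j % 3

/-- word number `k` -/
def word (k : ℕ) : ArrayPt → ZMod 3 := enc fun j => (dg k j.val : ZMod 3)

/-- the coordinates as numbers -/
def tv (k q : ℕ) : ℕ := (dg k 0 * Gm 0 q + dg k 1 * Gm 1 q + dg k 2 * Gm 2 q + dg k 3 * Gm 3 q + dg k 4 * Gm 4 q +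
  dg k 5 * Gm 5 q) % 3

theorem word_apply (k : ℕ) (p : ArrayPt) : word k p = (tv k (ix p) : ZMod 3) := by
  rw [word, enc, tv, ZMod.natCast_mod, Fin.sum_univ_six]
  simp only [gw]
  push_cast
  rfl

theorem word_mem (k : ℕ) : word k ∈ ternaryGolayCode := enc_mem _

theorem digits {a b c d e f : ℕ} (ha : a < 3) (hb : b < 3) (hc : c < 3) (hd : d < 3) (he : e < 3) (hf : f < 3) :
    ∃ k < 729, dg k 0 = a ∧ dg k 1 = b ∧ dg k 2 = c ∧ dg k 3 = d ∧ dg k 4 = e ∧ dg k 5 = f := by
  refine ⟨a + 3 * b + 9 * c + 27 * d + 81 * e + 243 * f, by omega, ?_⟩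
  simp only [dg]
  norm_num
  omega

theorem mem_code {x : ArrayPt → ZMod 3} : x ∈ ternaryGolayCode ↔ ∃ k < 729, x = word k := by
  constructor
  · intro hx
    have hd : ∀ a : ZMod 3, a.val < 3 := fun a => ZMod.val_lt a
    obtain ⟨k, hk, h0, h1, h2, h3, h4, h5⟩ := digits (hd (x (pI 0))) (hd (x (pI 1))) (hd (x (pI 2))) (hd (x (pI 3)))
      (hd (x (pI 4))) (hd (x (pI 5)))
    refine ⟨k, hk, ?_⟩
    rw [eq_enc hx, word]
    congr 1
    funext j
    fin_cases j
    · show x (pI 0) = ((dg k 0 : ℕ) : ZMod 3)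
      rw [h0]; exact (ZMod.natCast_zmod_val _).symm
    · show x (pI 1) = ((dg k 1 : ℕ) : ZMod 3)
      rw [h1]; exact (ZMod.natCast_zmod_val _).symm
    · show x (pI 2) = ((dg k 2 : ℕ) : ZMod 3)
      rw [h2]; exact (ZMod.natCast_zmod_val _).symm
    · show x (pI 3) = ((dg k 3 : ℕ) : ZMod 3)
      rw [h3]; exact (ZMod.natCast_zmod_val _).symm
    · show x (pI 4) = ((dg k 4 : ℕ) : ZMod 3)
      rw [h4]; exact (ZMod.natCast_zmod_val _).symm
    · show x (pI 5) = ((dg k 5 : ℕ) : ZMod 3)
      rw [h5]; exact (ZMod.natCast_zmod_val _).symm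
  · rintro ⟨k, _, rfl⟩; exact word_mem k

theorem word_injOn {k l : ℕ} (hk : k < 729) (hl : l < 729) (h : word k = word l) : k = l := by
  have key : ∀ j : Fin 6, dg k j.val = dg l j.val := by
    intro j
    have h1 := congrFun h (pI j)
    rw [word, word, enc_pI, enc_pI] at h1
    have h2 : dg k j.val < 3 := Nat.mod_lt _ (by norm_num)
    have h3 : dg l j.val < 3 := Nat.mod_lt _ (by norm_num)
    have h4 := congrArg ZMod.val h1
    rwa [ZMod.val_natCast, ZMod.val_natCast, Nat.mod_eq_of_lt h2, Nat.mod_eq_of_lt h3] at h4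
  have h0 := key 0; have h1 := key 1; have h2 := key 2; have h3 := key 3; have h4 := key 4; have h5 := key 5
  simp only [dg] at h0 h1 h2 h3 h4 h5
  norm_num at h0 h1 h2 h3 h4 h5
  omega

theorem tv_lt (k q : ℕ) : tv k q < 3 := Nat.mod_lt _ (by norm_num)

theorem word_ne {k : ℕ} {p : ArrayPt} : word k p ≠ 0 ↔ tv k (ix p) ≠ 0 := by
  rw [word_apply, Ne, ZMod.natCast_eq_zero_iff]
  have := tv_lt k (ix p)
  omega

/-- assembling bits -/
def bs (f : ℕ → Bool) : ℕ → ℕ
  | 0 => 0
  | n + 1 => Nat.add (cond (f n) (Nat.pow 2 n) 0) (bs f n)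

theorem bs_lt (f : ℕ → Bool) (n : ℕ) : bs f n < 2 ^ n := by
  induction n with
  | zero => exact Nat.one_pos
  | succ n ih =>
    show (cond (f n) (2 ^ n) 0) + bs f n < 2 ^ (n + 1)
    rw [pow_succ]
    cases f n <;> simp only [cond_true, cond_false] <;> omega

theorem testBit_bs (f : ℕ → Bool) (n : ℕ) : ∀ i < n, (bs f n).testBit i = f i := by
  induction n with
  | zero => intro i hi; omega
  | succ n ih =>
    intro i hi
    show ((cond (f n) (2 ^ n) 0) + bs f n).testBit i = f i
    rcases Nat.lt_succ_iff_lt_or_eq.1 hi with h | h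
    · rw [← ih i h]
      cases f n
      · simp
      · simp only [cond_true]; exact Nat.testBit_two_pow_add_gt h _
    · subst h
      cases hf : f i
      · simp only [cond_false, Nat.zero_add]
        exact Nat.testBit_lt_two_pow (bs_lt f i)
      · simp only [cond_true]
        rw [Nat.testBit_two_pow_add_eq, Nat.testBit_lt_two_pow (bs_lt f i)]; rfl

/-- the support as a mask -/
def sm (k : ℕ) : ℕ := bs (fun q => not (Nat.beq (tv k q) 0)) 12

theorem sm_lt (k : ℕ) : sm k < 2 ^ 12 := bs_lt _ _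

theorem support_word (k : ℕ) : ternarySupport (word k) = im e12 (sm k) := by
  ext p
  rw [← e12_ix p, mem_im, e12_ix]
  have h1 : p ∈ ternarySupport (word k) ↔ word k p ≠ 0 := by simp [ternarySupport]
  rw [h1, word_ne, sm, testBit_bs _ _ _ (ix_lt p)]
  show _ ↔ (!(Nat.beq (tv k (ix p)) 0)) = true
  rw [Bool.not_eq_true', ← Bool.not_eq_true, beq_iff]

theorem card_support (k : ℕ) : (ternarySupport (word k)).card = pop (sm k) := by
  rw [support_word, card_im, bc_eq_pop (by norm_num) (sm_lt k)]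

theorem word_zero : word 0 = 0 := by
  funext p
  rw [word_apply]
  have : tv 0 (ix p) = 0 := by revert p; decide +kernel
  rw [this]; rfl

theorem word_ne_zero {k : ℕ} (hk : k < 729) (h : k ≠ 0) : word k ≠ 0 := by
  intro h'
  rw [← word_zero] at h'
  exact h (word_injOn hk (by norm_num) h')

theorem weights : ∀ k ∈ List.range 729, k ≠ 0 → pop (sm k) = 6 ∨ pop (sm k) = 9 ∨ pop (sm k) = 12 := by
  have h : ((List.range 729).all fun k => or (Nat.beq k 0) (or (Nat.beq (pop (sm k)) 6) (or (Nat.beq (pop (sm k)) 9)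
    (Nat.beq (pop (sm k)) 12)))) = true := by decide +kernel
  intro k hk h0
  have := List.all_eq_true.1 h k hk
  simp only [Bool.or_eq_true, beq_iff] at this
  exact this.resolve_left h0

theorem code_set (P : (ArrayPt → ZMod 3) → Prop) : {x : ArrayPt → ZMod 3 | x ∈ ternaryGolayCode ∧ P x} =
    word '' {k | k < 729 ∧ P (word k)} := by
  ext x
  constructor
  · rintro ⟨h1, h2⟩
    obtain ⟨k, hk, rfl⟩ := mem_code.1 h1
    exact ⟨k, ⟨hk, h2⟩, rfl⟩
  · rintro ⟨k, ⟨hk, h2⟩, rfl⟩
    exact ⟨word_mem k, h2⟩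

theorem ncard_code (P : (ArrayPt → ZMod 3) → Prop) (f : ℕ → Bool) (hf : ∀ k < 729, P (word k) ↔ f k = true) :
    {x : ArrayPt → ZMod 3 | x ∈ ternaryGolayCode ∧ P x}.ncard = ((List.range 729).filter f).length := by
  rw [code_set, Set.ncard_image_of_injOn]
  · have : {k | k < 729 ∧ P (word k)} = (((List.range 729).filter f).toFinset : Set ℕ) := by
      ext k
      simp only [Set.mem_setOf_eq, List.coe_toFinset, List.mem_filter, List.mem_range]
      constructor
      · rintro ⟨h1, h2⟩; exact ⟨h1, (hf k h1).1 h2⟩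
      · rintro ⟨h1, h2⟩; exact ⟨h1, (hf k h1).2 h2⟩
    rw [this, Set.ncard_coe_finset, List.toFinset_card_of_nodup (List.nodup_range.filter _)]
  · intro k hk l hl h
    exact word_injOn hk.1 hl.1 h

theorem card_code : Nat.card ↥ternaryGolayCode = 729 := by
  have h := ncard_code (fun _ => True) (fun _ => true) (fun k _ => by simp)
  have h2 : {x : ArrayPt → ZMod 3 | x ∈ ternaryGolayCode ∧ True} = (ternaryGolayCode : Set (ArrayPt → ZMod 3)) := by
    ext x; simp
  rw [h2] at h
  have h3 : Nat.card ↥ternaryGolayCode = (ternaryGolayCode : Set (ArrayPt → ZMod 3)).ncard := rfl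
  rw [h3, h]
  simp

theorem count_wt (n : ℕ) : {x : ArrayPt → ZMod 3 | x ∈ ternaryGolayCode ∧ (ternarySupport x).card = n}.ncard =
    ((List.range 729).filter fun k => Nat.beq (pop (sm k)) n).length :=
  ncard_code _ _ (fun k _ => by rw [card_support, beq_iff])

theorem min_wt {x : ArrayPt → ZMod 3} (hx : x ∈ ternaryGolayCode) (h0 : x ≠ 0) : 6 ≤ (ternarySupport x).card := by
  obtain ⟨k, hk, rfl⟩ := mem_code.1 hx
  have hk0 : k ≠ 0 := by
    rintro rfl; exact h0 word_zero
  rw [card_support]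
  have := weights k (List.mem_range.2 hk) hk0
  omega

/-! ### self-orthogonality -/

theorem gw_dot : ∀ i j : Fin 6, ∑ p, gw i p * gw j p = 0 := by decide +kernel

theorem dot_zero {x y : ArrayPt → ZMod 3} (hx : x ∈ ternaryGolayCode) (hy : y ∈ ternaryGolayCode) : ∑ p, x p * y p = 0 := by
  rw [eq_enc hx, eq_enc hy]
  simp only [enc]
  have h1 : ∀ p, (∑ j, x (pI j) * gw j p) * (∑ j, y (pI j) * gw j p) =
      ∑ i, ∑ j, x (pI i) * y (pI j) * (gw i p * gw j p) := by
    intro p
    rw [Finset.sum_mul]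
    apply Finset.sum_congr rfl
    intro i _
    rw [Finset.mul_sum]
    apply Finset.sum_congr rfl
    intro j _
    ring
  simp only [h1]
  rw [Finset.sum_comm]
  apply Finset.sum_eq_zero
  intro i _
  rw [Finset.sum_comm]
  apply Finset.sum_eq_zero
  intro j _
  rw [← Finset.mul_sum, gw_dot, mul_zero]

/-! ### the Steiner system -/

/-- the blocks -/
def BB : Set (Finset ArrayPt) := {h : Finset ArrayPt | ∃ x ∈ ternaryGolayCode, ternarySupport x = h ∧ h.card = 6}

/-- words of weight six up to sign -/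
def KL : List ℕ := [1, 3, 4, 5, 9, 10, 11, 12, 13, 14, 15, 17, 27, 28, 29, 30, 32, 33, 34, 35, 36, 37, 38, 39, 43, 45, 47, 48, 49, 51, 81, 82, 83, 84, 85, 86, 87, 89, 90, 91, 95, 96, 97, 99, 100, 101, 102, 105, 108, 109, 110, 112, 114, 117, 120, 126, 134, 135, 137, 138, 141, 142, 144, 146, 154, 156, 243, 244, 245, 246, 247, 248, 249, 250, 252, 254, 255, 258, 259, 261, 262, 263, 264, 269, 270, 271, 272, 273, 276, 279, 284, 289, 294, 297, 299, 301, 303, 305, 306, 307, 315, 318, 324, 325, 327, 330, 332, 333, 335, 342, 346, 353, 354, 369, 378, 379, 393, 405, 406, 407, 410, 411, 415, 417, 423, 429, 432, 439, 441, 459, 462, 479]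

/-- the masks of the blocks -/
def HL : List ℕ := KL.map sm

theorem KL_ok : (KL.all fun k => and (Nat.blt k 729) (Nat.beq (pop (sm k)) 6)) = true := by decide +kernel

theorem HL_all : ((List.range 729).all fun k => or (not (Nat.beq (pop (sm k)) 6)) (HL.contains (sm k))) = true := by
  decide +kernel

theorem HL_inter : (HL.all fun a => HL.all fun b => or (Nat.beq a b) (Nat.blt (pop (Nat.land a b)) 5)) = true := by
  decide +kernel

theorem HL_nodup : HL.Nodup := nodupB_spec (by decide +kernel)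

theorem HL_length : HL.length = 132 := by decide +kernel

theorem HL_lt {m : ℕ} (hm : m ∈ HL) : m < 2 ^ 12 := by
  rw [HL, List.mem_map] at hm
  obtain ⟨k, _, rfl⟩ := hm
  exact sm_lt k

theorem BB_eq : BB = im e12 '' {m | m ∈ HL} := by
  ext h
  constructor
  · rintro ⟨x, hx, rfl, h6⟩
    obtain ⟨k, hk, rfl⟩ := mem_code.1 hx
    rw [card_support] at h6
    have := List.all_eq_true.1 HL_all k (List.mem_range.2 hk)
    rw [h6] at this
    simp only [Bool.or_eq_true, Bool.not_eq_true', ← Bool.not_eq_true, beq_iff, List.contains_iff_mem] at this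
    refine ⟨sm k, ?_, (support_word k).symm⟩
    rcases this with h | h
    · exact absurd trivial h
    · exact h
  · rintro ⟨m, hm, rfl⟩
    have hm' : m ∈ HL := hm
    rw [HL, List.mem_map] at hm'
    obtain ⟨k, hk, rfl⟩ := hm'
    have := List.all_eq_true.1 KL_ok k hk
    rw [Bool.and_eq_true, beq_iff] at this
    exact ⟨word k, word_mem k, support_word k, by rw [← support_word, card_support]; exact this.2⟩

theorem BB_ncard : BB.ncard = 132 := by
  rw [BB_eq, Set.ncard_image_of_injOn]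
  · have : {m | m ∈ HL} = (HL.toFinset : Set ℕ) := by ext m; simp
    rw [this, Set.ncard_coe_finset, List.toFinset_card_of_nodup HL_nodup, HL_length]
  · intro a ha b hb h
    exact im_injective e12 (HL_lt ha) (HL_lt hb) h

theorem BB_steiner : IsSteinerSystem 5 6 BB := by
  apply CfsgLib.Steiner.steiner_of_count
  · rintro b ⟨x, _, _, h⟩; exact h
  · intro b hb c hc h5
    rw [BB_eq] at hb hc
    obtain ⟨m, hm, rfl⟩ := hb
    obtain ⟨m', hm', rfl⟩ := hc
    have := List.all_eq_true.1 (List.all_eq_true.1 HL_inter m hm) m' hm'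
    rw [Bool.or_eq_true, beq_iff] at this
    rcases this with h | h
    · rw [h]
    · exfalso
      rw [← im_and, card_im, bc_eq_pop (by norm_num) (lt_of_le_of_lt Nat.and_le_left (HL_lt hm))] at h5
      have h' : pop (Nat.land m m') < 5 := by
        have := Nat.blt_eq (x := pop (Nat.land m m')) (y := 5)
        exact this.mp h
      have h'' : Nat.land m m' = m &&& m' := rfl
      rw [h''] at h'
      omega
  · rw [BB_ncard]; decide

/-! ### diagonal automorphisms -/

theorem pair_chk : ((List.range 12).all fun p => (List.range 12).all fun q => KL.any fun k =>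
    and (not (Nat.beq (tv k p) 0)) (not (Nat.beq (tv k q) 0))) = true := by decide +kernel

theorem exists_pair (p q : ArrayPt) : ∃ k, word k p ≠ 0 ∧ word k q ≠ 0 ∧ (ternarySupport (word k)).card = 6 := by
  have := List.all_eq_true.1 (List.all_eq_true.1 pair_chk (ix p) (List.mem_range.2 (ix_lt p))) (ix q) (List.mem_range.2 (ix_lt q))
  rw [List.any_eq_true] at this
  obtain ⟨k, hk, h⟩ := this
  rw [Bool.and_eq_true, Bool.not_eq_true', Bool.not_eq_true', ← Bool.not_eq_true, ← Bool.not_eq_true, beq_iff, beq_iff] at h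
  have h6 := List.all_eq_true.1 KL_ok k hk
  rw [Bool.and_eq_true, beq_iff] at h6
  exact ⟨k, word_ne.2 h.1, word_ne.2 h.2, by rw [card_support]; exact h6.2⟩

theorem diag_const {c : ArrayPt → (ZMod 3)ˣ} (h : ∀ x ∈ ternaryGolayCode, monomialMap 1 c x ∈ ternaryGolayCode) (p q : ArrayPt) :
    c p = c q := by
  obtain ⟨k, hp, hq, h6⟩ := exists_pair p q
  have h1 := h _ (word_mem k)
  have h2 : monomialMap 1 c (word k) - (c p : ZMod 3) • word k ∈ ternaryGolayCode :=
    Submodule.sub_mem _ h1 (Submodule.smul_mem _ _ (word_mem k))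
  have hval : ∀ r, (monomialMap 1 c (word k) - (c p : ZMod 3) • word k) r = ((c r : ZMod 3) - c p) * word k r := by
    intro r
    rw [Pi.sub_apply, Pi.smul_apply, smul_eq_mul]
    show (c r : ZMod 3) * word k r - c p * word k r = _
    ring
  have h3 : monomialMap 1 c (word k) - (c p : ZMod 3) • word k = 0 := by
    by_contra hne
    have h4 := min_wt h2 hne
    have h5 : ternarySupport (monomialMap 1 c (word k) - (c p : ZMod 3) • word k) ⊆ (ternarySupport (word k)).erase p := by
      intro r hr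
      rw [ternarySupport, Finset.mem_filter] at hr
      rw [Finset.mem_erase, ternarySupport, Finset.mem_filter]
      rw [hval] at hr
      refine ⟨?_, Finset.mem_univ _, right_ne_zero_of_mul hr.2⟩
      rintro rfl
      exact hr.2 (by rw [sub_self, zero_mul])
    have h7 := Finset.card_le_card h5
    have hpm : p ∈ ternarySupport (word k) := by simp [ternarySupport, hp]
    rw [Finset.card_erase_of_mem hpm, h6] at h7
    omega
  have h8 := congrFun h3 q
  rw [hval, Pi.zero_apply] at h8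
  rcases mul_eq_zero.1 h8 with h9 | h9
  · exact Units.ext (sub_eq_zero.1 h9).symm
  · exact absurd h9 hq

end CfsgLib.Tern28
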