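import Mathlib
import Cfsg.Agent.EqBase
import Cfsg.Agent.LibTern28
import Cfsg.Agent.S0425

set_option autoImplicit false

/-! The monomial group of the ternary code of length 12 (helper28). -/

namespace CfsgLib.TernB28

open Cfsg CfsgLib.Golay CfsgLib.Uniq CfsgLib.Tern28
open scoped Pointwise

/-- the monomial map preserves the code -/
def Pres (σ : Equiv.Perm ArrayPt) (c : ArrayPt → (ZMod 3)ˣ) : Prop :=
  ∀ x ∈ ternaryGolayCode, monomialMap σ c x ∈ ternaryGolayCode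

theorem mono_apply (σ : Equiv.Perm ArrayPt) (c : ArrayPt → (ZMod 3)ˣ) (x : ArrayPt → ZMod 3) (p : ArrayPt) :
    monomialMap σ c x (σ p) = (c (σ p) : ZMod 3) * x p := by
  show (c (σ p) : ZMod 3) * x (σ.symm (σ p)) = _
  rw [Equiv.symm_apply_apply]

theorem mono_inj (σ : Equiv.Perm ArrayPt) (c : ArrayPt → (ZMod 3)ˣ) : Function.Injective (monomialMap σ c : (ArrayPt → ZMod 3) → _) := by
  intro x y h
  funext p
  have := congrFun h (σ p)
  rw [mono_apply, mono_apply] at this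
  exact (Units.mul_right_inj (c (σ p))).1 this

theorem pres_surj {σ : Equiv.Perm ArrayPt} {c : ArrayPt → (ZMod 3)ˣ} (h : Pres σ c) {y : ArrayPt → ZMod 3}
    (hy : y ∈ ternaryGolayCode) : ∃ x ∈ ternaryGolayCode, monomialMap σ c x = y := by
  haveI : Finite ↥ternaryGolayCode := inferInstance
  have h1 : Function.Injective (fun x : ↥ternaryGolayCode => (⟨monomialMap σ c x, h x x.2⟩ : ↥ternaryGolayCode)) := by
    intro a b hab
    exact Subtype.ext (mono_inj σ c (congrArg Subtype.val hab))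
  obtain ⟨x, hx⟩ := (Finite.injective_iff_surjective.1 h1) ⟨y, hy⟩
  exact ⟨x, x.2, congrArg Subtype.val hx⟩

theorem pres_mul {σ τ : Equiv.Perm ArrayPt} {c d : ArrayPt → (ZMod 3)ˣ} (h : Pres σ c) (h' : Pres τ d) :
    Pres (σ * τ) (fun p => c p * d (σ.symm p)) := by
  intro x hx
  have := h _ (h' x hx)
  have e : monomialMap (σ * τ) (fun p => c p * d (σ.symm p)) x = monomialMap σ c (monomialMap τ d x) := by
    funext p
    show ((c p * d (σ.symm p) : (ZMod 3)ˣ) : ZMod 3) * x ((σ * τ).symm p) = (c p : ZMod 3) * ((d (σ.symm p) : ZMod 3) * x (τ.symm (σ.symm p)))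
    rw [Units.val_mul, mul_assoc]; rfl
  rw [e]; exact this

/-- the signs of the other lift -/
theorem pres_unique {σ : Equiv.Perm ArrayPt} {c d : ArrayPt → (ZMod 3)ˣ} (h : Pres σ c) (h' : Pres σ d) :
    d = c ∨ d = -c := by
  have h1 : ∀ x ∈ ternaryGolayCode, monomialMap 1 (fun p => d p / c p) x ∈ ternaryGolayCode := by
    intro y hy
    obtain ⟨x, hx, rfl⟩ := pres_surj h hy
    have e : monomialMap 1 (fun p => d p / c p) (monomialMap σ c x) = monomialMap σ d x := by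
      funext p
      show ((d p / c p : (ZMod 3)ˣ) : ZMod 3) * ((c p : ZMod 3) * x (σ.symm p)) = (d p : ZMod 3) * x (σ.symm p)
      rw [← mul_assoc, ← Units.val_mul, div_mul_cancel]
    rw [e]; exact h' x hx
  have hc := fun p => diag_const h1 p (0, 0)
  have h2 : ∀ u : (ZMod 3)ˣ, u = 1 ∨ u = -1 := by decide
  rcases h2 (d (0, 0) / c (0, 0)) with h3 | h3
  · left; funext p
    have := (hc p).trans h3
    exact div_eq_one.1 this
  · right; funext p
    have := (hc p).trans h3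
    rw [div_eq_iff_eq_mul, neg_one_mul] at this
    exact this

/-! ### explicit elements -/

/-- the permutation given by a list -/
def fn (P : List ℕ) (p : ArrayPt) : ArrayPt := e12 ⟨P.getD (ix p) 0 % 12, Nat.mod_lt _ (by norm_num)⟩

/-- is the list a permutation? -/
def validP (P : List ℕ) : Bool := (List.range 12).all fun q => and (Nat.blt (P.getD q 0) 12)
  ((List.range 12).all fun r => or (Nat.beq q r) (not (Nat.beq (P.getD q 0) (P.getD r 0))))

theorem fn_ix {P : List ℕ} (h : validP P = true) (p : ArrayPt) : ix (fn P p) = P.getD (ix p) 0 := by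
  rw [fn, ix_e12]
  have := List.all_eq_true.1 h (ix p) (List.mem_range.2 (ix_lt p))
  rw [Bool.and_eq_true] at this
  have h2 : P.getD (ix p) 0 < 12 := by
    have := Nat.blt_eq (x := P.getD (ix p) 0) (y := 12)
    exact this.mp ‹_ ∧ _›.1
  exact Nat.mod_eq_of_lt h2

theorem ix_inj {p q : ArrayPt} (h : ix p = ix q) : p = q := by
  rw [← e12_ix p, ← e12_ix q]
  congr 1
  exact Fin.ext h

theorem fn_inj {P : List ℕ} (h : validP P = true) : Function.Injective (fn P) := by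
  intro p q hpq
  have h1 := congrArg ix hpq
  rw [fn_ix h, fn_ix h] at h1
  have := List.all_eq_true.1 h (ix p) (List.mem_range.2 (ix_lt p))
  rw [Bool.and_eq_true] at this
  have h2 := List.all_eq_true.1 this.2 (ix q) (List.mem_range.2 (ix_lt q))
  rw [Bool.or_eq_true, beq_iff, Bool.not_eq_true', ← Bool.not_eq_true, beq_iff] at h2
  rcases h2 with h2 | h2
  · exact ix_inj h2
  · exact absurd h1 h2

/-- the permutation -/
noncomputable def mkP (P : List ℕ) (h : validP P = true) : Equiv.Perm ArrayPt :=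
  Equiv.ofBijective (fn P) (Finite.injective_iff_bijective.1 (fn_inj h))

theorem mkP_apply (P : List ℕ) (h : validP P = true) (p : ArrayPt) : mkP P h p = fn P p := rfl

/-- the signs -/
def sg (S : ℕ) (p : ArrayPt) : (ZMod 3)ˣ := if S.testBit (ix p) then -1 else 1

/-- does it preserve the code? -/
def okP (P : List ℕ) (S : ℕ) (ks : List ℕ) : Bool := (List.range 6).all fun j => (List.range 12).all fun q =>
  Nat.beq (tv (ks.getD j 0) (P.getD q 0)) (Nat.mod (Nat.mul (cond (S.testBit (P.getD q 0)) 2 1) (Gm j q)) 3)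

theorem pres_of_ok {P : List ℕ} (h : validP P = true) {S : ℕ} {ks : List ℕ} (hk : okP P S ks = true) :
    Pres (mkP P h) (sg S) := by
  have key : ∀ j : Fin 6, monomialMap (mkP P h) (sg S) (gw j) = CfsgLib.Tern28.word (ks.getD j.val 0) := by
    intro j
    funext p
    obtain ⟨q, rfl⟩ := (mkP P h).surjective p
    rw [mono_apply, CfsgLib.Tern28.word_apply, mkP_apply, fn_ix h]
    have h1 := List.all_eq_true.1 (List.all_eq_true.1 hk j.val (List.mem_range.2 j.2)) (ix q) (List.mem_range.2 (ix_lt q))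
    rw [beq_iff] at h1
    rw [h1]
    change _ = (((cond (S.testBit (P.getD (ix q) 0)) 2 1 * Gm j.val (ix q)) % 3 : ℕ) : ZMod 3)
    rw [ZMod.natCast_mod, Nat.cast_mul, sg, fn_ix h, gw]
    cases S.testBit (P.getD (ix q) 0)
    · simp
    · simp only [if_true, cond_true]
      congr 1
  intro x hx
  rw [eq_enc hx]
  have e : monomialMap (mkP P h) (sg S) (enc fun j => x (pI j)) = ∑ j, x (pI j) • monomialMap (mkP P h) (sg S) (gw j) := by
    funext p
    rw [Finset.sum_apply]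
    show (sg S p : ZMod 3) * (∑ j, x (pI j) * gw j ((mkP P h).symm p)) = ∑ j, (x (pI j) • monomialMap (mkP P h) (sg S) (gw j)) p
    rw [Finset.mul_sum]
    apply Finset.sum_congr rfl
    intro j _
    show _ = x (pI j) * ((sg S p : ZMod 3) * gw j ((mkP P h).symm p))
    ring
  rw [e]
  refine Submodule.sum_mem _ fun j _ => Submodule.smul_mem _ _ ?_
  rw [key]; exact CfsgLib.Tern28.word_mem _

/-- the table of elements: level, target, permutation, signs, images of the generators -/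
def tab : List (ℕ × ℕ × List ℕ × ℕ × List ℕ) := [(0, 0, [0, 1, 2, 3, 4, 5, 6, 7, 8, 9, 10, 11], 0, [1, 3, 9, 27, 81, 243]),
  (0, 1, [1, 0, 2, 3, 4, 5, 11, 9, 10, 7, 8, 6], 0, [489, 487, 252, 27, 567, 486]),
  (0, 2, [2, 0, 1, 3, 4, 5, 8, 6, 7, 10, 11, 9], 0, [9, 487, 246, 513, 324, 243]),
  (0, 3, [3, 0, 1, 2, 4, 5, 10, 7, 6, 8, 9, 11], 2764, [540, 244, 3, 504, 324, 486]),
  (0, 4, [4, 0, 1, 2, 3, 5, 6, 9, 10, 11, 7, 8], 1940, [162, 1, 3, 18, 27, 243]),
  (0, 5, [5, 0, 1, 2, 3, 4, 9, 6, 8, 7, 11, 10], 3428, [81, 325, 570, 423, 675, 486]),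
  (0, 6, [6, 0, 1, 2, 3, 9, 5, 4, 7, 10, 8, 11], 2514, [486, 82, 168, 90, 189, 162]),
  (0, 7, [7, 0, 1, 2, 3, 11, 10, 8, 9, 4, 5, 6], 3102, [648, 568, 330, 99, 540, 567]),
  (0, 8, [8, 0, 1, 2, 3, 10, 7, 11, 4, 6, 9, 5], 1224, [567, 406, 246, 333, 216, 324]),
  (0, 9, [9, 0, 1, 2, 3, 6, 4, 5, 11, 8, 10, 7], 3746, [243, 244, 249, 495, 513, 81]),
  (0, 10, [10, 0, 1, 2, 3, 8, 11, 7, 5, 9, 6, 4], 2824, [405, 163, 327, 252, 459, 648]),
  (0, 11, [11, 0, 1, 2, 3, 7, 8, 10, 6, 5, 4, 9], 430, [324, 487, 87, 342, 621, 405]),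
  (1, 1, [0, 1, 2, 3, 4, 5, 6, 7, 8, 9, 10, 11], 0, [1, 3, 9, 27, 81, 243]),
  (1, 2, [0, 2, 1, 3, 4, 5, 9, 10, 11, 6, 7, 8], 0, [244, 495, 489, 513, 81, 486]),
  (1, 3, [0, 3, 1, 2, 4, 5, 11, 8, 9, 7, 6, 10], 2764, [487, 54, 489, 504, 567, 243]),
  (1, 4, [0, 4, 1, 2, 3, 5, 8, 11, 7, 9, 10, 6], 1940, [487, 648, 246, 18, 513, 486]),
  (1, 5, [0, 5, 1, 2, 3, 4, 10, 7, 11, 6, 8, 9], 3428, [568, 324, 327, 423, 189, 243]),
  (1, 6, [0, 6, 1, 2, 3, 9, 11, 10, 8, 4, 7, 5], 2514, [163, 567, 87, 90, 27, 81]),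
  (1, 7, [0, 7, 1, 2, 3, 11, 6, 4, 5, 8, 9, 10], 3102, [1, 81, 168, 99, 216, 405]),
  (1, 8, [0, 8, 1, 2, 3, 10, 5, 6, 9, 11, 4, 7], 1224, [82, 243, 570, 333, 621, 648]),
  (1, 9, [0, 9, 1, 2, 3, 6, 7, 8, 10, 5, 11, 4], 3746, [406, 405, 330, 495, 675, 162]),
  (1, 10, [0, 10, 1, 2, 3, 8, 4, 9, 6, 7, 5, 11], 2824, [244, 486, 3, 252, 540, 324]),
  (1, 11, [0, 11, 1, 2, 3, 7, 9, 5, 4, 10, 6, 8], 430, [325, 162, 249, 342, 459, 567]),
  (2, 2, [0, 1, 2, 3, 4, 5, 6, 7, 8, 9, 10, 11], 0, [1, 3, 9, 27, 81, 243]),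
  (2, 3, [0, 1, 3, 2, 4, 5, 7, 6, 10, 11, 8, 9], 2764, [1, 246, 540, 261, 567, 486]),
  (2, 4, [0, 1, 4, 2, 3, 5, 9, 10, 6, 8, 11, 7], 1940, [244, 489, 162, 261, 513, 243]),
  (2, 5, [0, 1, 5, 2, 3, 4, 6, 8, 9, 10, 7, 11], 3428, [82, 84, 81, 180, 189, 486]),
  (2, 6, [0, 1, 6, 2, 3, 9, 4, 7, 5, 11, 10, 8], 2514, [1, 6, 486, 9, 27, 162]),
  (2, 7, [0, 1, 7, 2, 3, 11, 8, 9, 10, 6, 4, 5], 3102, [406, 492, 648, 666, 216, 567]),
  (2, 8, [0, 1, 8, 2, 3, 10, 11, 4, 7, 5, 6, 9], 1224, [487, 165, 567, 657, 621, 324]),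
  (2, 9, [0, 1, 9, 2, 3, 6, 5, 11, 4, 7, 8, 10], 3746, [325, 411, 243, 576, 675, 81]),
  (2, 10, [0, 1, 10, 2, 3, 8, 7, 5, 11, 4, 9, 6], 2824, [568, 651, 405, 171, 540, 648]),
  (2, 11, [0, 1, 11, 2, 3, 7, 10, 6, 8, 9, 5, 4], 430, [163, 654, 324, 504, 459, 405]),
  (3, 3, [0, 1, 2, 3, 4, 5, 6, 7, 8, 9, 10, 11], 0, [1, 3, 9, 27, 81, 243]),
  (3, 4, [0, 1, 2, 4, 3, 5, 10, 9, 11, 7, 6, 8], 0, [244, 3, 252, 324, 270, 486]),
  (3, 5, [0, 1, 2, 5, 3, 4, 8, 6, 7, 11, 9, 10], 0, [82, 570, 333, 648, 432, 243]),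
  (3, 6, [0, 1, 2, 6, 3, 9, 7, 4, 10, 8, 5, 11], 6, [1, 168, 99, 405, 108, 81]),
  (3, 7, [0, 1, 2, 7, 3, 11, 9, 8, 4, 5, 10, 6], 4090, [406, 330, 495, 162, 378, 405]),
  (3, 8, [0, 1, 2, 8, 3, 10, 4, 11, 6, 9, 7, 5], 4092, [487, 246, 18, 486, 297, 648]),
  (3, 9, [0, 1, 2, 9, 3, 6, 11, 5, 8, 10, 4, 7], 6, [325, 249, 342, 567, 594, 162]),
  (3, 10, [0, 1, 2, 10, 3, 8, 5, 7, 9, 6, 11, 4], 4092, [568, 327, 423, 243, 135, 324]),
  (3, 11, [0, 1, 2, 11, 3, 7, 6, 10, 5, 4, 8, 9], 4090, [163, 87, 90, 81, 54, 567]),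
  (4, 4, [0, 1, 2, 3, 4, 5, 6, 7, 8, 9, 10, 11], 0, [1, 3, 9, 27, 81, 243]),
  (4, 5, [0, 1, 2, 3, 5, 4, 9, 11, 10, 6, 8, 7], 0, [325, 570, 576, 675, 162, 486]),
  (4, 6, [0, 1, 2, 3, 6, 9, 5, 8, 11, 4, 7, 10], 6, [82, 168, 180, 189, 243, 162]),
  (4, 7, [0, 1, 2, 3, 7, 11, 10, 5, 6, 8, 9, 4], 4090, [568, 330, 171, 540, 324, 567]),
  (4, 8, [0, 1, 2, 3, 8, 10, 7, 9, 5, 11, 4, 6], 4092, [406, 246, 666, 216, 405, 324]),
  (4, 9, [0, 1, 2, 3, 9, 6, 4, 10, 7, 5, 11, 8], 6, [244, 249, 261, 513, 486, 81]),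
  (4, 10, [0, 1, 2, 3, 10, 8, 11, 6, 4, 7, 5, 9], 4092, [163, 327, 504, 459, 567, 648]),
  (4, 11, [0, 1, 2, 3, 11, 7, 8, 4, 9, 10, 6, 5], 4090, [487, 87, 657, 621, 648, 405])]

theorem tab_ok : (tab.all fun t => and (validP t.2.2.1) (okP t.2.2.1 t.2.2.2.1 t.2.2.2.2)) = true := by decide +kernel

/-- every target is reached -/
theorem tab_all : ((List.range 5).all fun i => (List.range 12).all fun p => or (Nat.blt p i) (tab.any fun t =>
    and (Nat.beq t.1 i) (and (Nat.beq (t.2.2.1.getD i 0) p) ((List.range i).all fun j => Nat.beq (t.2.2.1.getD j 0) j)))) = true := by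
  decide +kernel

/-- the base points -/
def bp (i : ℕ) (h : i < 12) : ArrayPt := e12 ⟨i, h⟩

theorem step {i : ℕ} (hi : i < 5) {p : ArrayPt} (hp : i ≤ ix p) :
    ∃ (g : Equiv.Perm ArrayPt) (c : ArrayPt → (ZMod 3)ˣ), Pres g c ∧ g (bp i (by omega)) = p ∧
      ∀ j (hj : j < i), g (bp j (by omega)) = bp j (by omega) := by
  have h1 := List.all_eq_true.1 (List.all_eq_true.1 tab_all i (List.mem_range.2 hi)) (ix p) (List.mem_range.2 (ix_lt p))
  rw [Bool.or_eq_true] at h1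
  rcases h1 with h1 | h1
  · have := (Nat.blt_eq (x := ix p) (y := i)).mp h1
    omega
  rw [List.any_eq_true] at h1
  obtain ⟨t, ht, h2⟩ := h1
  simp only [Bool.and_eq_true, beq_iff] at h2
  have h3 := List.all_eq_true.1 tab_ok t ht
  rw [Bool.and_eq_true] at h3
  refine ⟨mkP t.2.2.1 h3.1, sg t.2.2.2.1, pres_of_ok h3.1 h3.2, ?_, ?_⟩
  · apply ix_inj
    rw [mkP_apply, fn_ix h3.1, bp, ix_e12]
    exact h2.2.1
  · intro j hj
    apply ix_inj
    rw [mkP_apply, fn_ix h3.1, bp, ix_e12]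
    exact beq_iff.1 (List.all_eq_true.1 h2.2.2 j (List.mem_range.2 hj))

/-! ### the permutation parts -/

/-- the permutation parts -/
def PS : Set (Equiv.Perm ArrayPt) := {σ | ∃ c, Pres σ c}

theorem support_mono (σ : Equiv.Perm ArrayPt) (c : ArrayPt → (ZMod 3)ˣ) (x : ArrayPt → ZMod 3) :
    ternarySupport (monomialMap σ c x) = σ • ternarySupport x := by
  ext p
  rw [← Finset.inv_smul_mem_iff]
  simp only [ternarySupport, Finset.mem_filter, Finset.mem_univ, true_and]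
  show (c p : ZMod 3) * x (σ.symm p) ≠ 0 ↔ x (σ.symm p) ≠ 0
  rw [Ne, Units.mul_right_eq_zero]

theorem PS_le {σ : Equiv.Perm ArrayPt} (h : σ ∈ PS) : σ ∈ setSystemAut BB := by
  obtain ⟨c, hc⟩ := h
  have hsub : σ • BB ⊆ BB := by
    rintro _ ⟨b, ⟨x, hx, rfl, h6⟩, rfl⟩
    refine ⟨monomialMap σ c x, hc x hx, support_mono σ c x, ?_⟩
    show (σ • ternarySupport x).card = 6
    rw [Finset.card_smul_finset]; exact h6
  rw [MulAction.mem_stabilizer_iff]
  apply Set.eq_of_subset_of_ncard_le hsub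
  rw [Set.ncard_smul_set]

theorem PS_ge {σ : Equiv.Perm ArrayPt} (h : σ ∈ setSystemAut BB) : σ ∈ PS := by
  have hmul : ∀ {a b : Equiv.Perm ArrayPt}, a ∈ PS → b ∈ PS → a * b ∈ PS := by
    rintro a b ⟨c, hc⟩ ⟨d, hd⟩
    exact ⟨_, pres_mul hc hd⟩
  have hst : ∀ x : Fin 5 ↪ ArrayPt, MulAction.stabilizer (setSystemAut BB) x = ⊥ :=
    (Cfsg.Agent.S0425.result (α := ArrayPt) (by decide) BB_steiner).2.2
  -- descending induction
  have key : ∀ n, n ≤ 5 → ∀ τ ∈ setSystemAut BB, (∀ j (hj : j < 5 - n), τ (bp j (by omega)) = bp j (by omega)) → τ ∈ PS := by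
    intro n
    induction n with
    | zero =>
      intro _ τ hτ hfix
      have hinj : Function.Injective (fun i : Fin 5 => bp i.val (by omega)) := by
        intro a b hab
        have := congrArg ix hab
        simp only [bp, ix_e12] at this
        exact Fin.ext this
      have h1 : (⟨τ, hτ⟩ : setSystemAut BB) ∈ MulAction.stabilizer (setSystemAut BB) (⟨_, hinj⟩ : Fin 5 ↪ ArrayPt) := by
        rw [MulAction.mem_stabilizer_iff]
        ext i : 1
        exact hfix i.val (by omega)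
      rw [hst, Subgroup.mem_bot] at h1
      have h2 : τ = 1 := congrArg Subtype.val h1
      rw [h2]
      refine ⟨fun _ => 1, fun x hx => ?_⟩
      have : monomialMap (1 : Equiv.Perm ArrayPt) (fun _ => (1 : (ZMod 3)ˣ)) x = x := by
        funext p
        show ((1 : (ZMod 3)ˣ) : ZMod 3) * x p = x p
        rw [Units.val_one, one_mul]
      rw [this]; exact hx
    | succ n ih =>
      intro hn τ hτ hfix
      obtain ⟨i, hi⟩ : ∃ i, i = 5 - (n + 1) := ⟨_, rfl⟩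
      have hp : i ≤ ix (τ (bp i (by omega))) := by
        by_contra hlt
        push Not at hlt
        have h1 := hfix (ix (τ (bp i (by omega)))) (by omega)
        have h2 : bp (ix (τ (bp i (by omega)))) (by omega) = τ (bp i (by omega)) := e12_ix _
        rw [h2] at h1
        have h3 := τ.injective h1
        have h4 := congrArg ix h3
        have h5 : ix (bp i (by omega : i < 12)) = i := by rw [bp, ix_e12]
        rw [h5] at h4
        omega
      obtain ⟨g, c, hg, h1, h2⟩ := step (i := i) (by omega) hp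
      have hgS : g ∈ setSystemAut BB := PS_le ⟨c, hg⟩
      have h3 : g⁻¹ * τ ∈ PS := by
        apply ih (by omega) _ (mul_mem (inv_mem hgS) hτ)
        intro j hj
        rw [Equiv.Perm.mul_apply, Equiv.Perm.inv_eq_iff_eq]
        rcases Nat.lt_or_ge j i with h | h
        · rw [hfix j (by omega), h2 j h]
        · have : j = i := by omega
          subst this
          exact h1.symm
      have := hmul ⟨c, hg⟩ h3
      rwa [mul_inv_cancel_left] at this
  exact key 5 le_rfl σ h (fun j hj => by omega)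

theorem PS_eq : PS = (setSystemAut BB : Set (Equiv.Perm ArrayPt)) :=
  Set.Subset.antisymm (fun _ h => PS_le h) (fun _ h => PS_ge h)

theorem card_mono (h : Nat.card (setSystemAut BB) = 95040) :
    Nat.card {f : Equiv.Perm ArrayPt × (ArrayPt → (ZMod 3)ˣ) // Pres f.1 f.2} = 190080 := by
  classical
  have hch : ∀ σ : PS, ∃ c, Pres (σ : Equiv.Perm ArrayPt) c := fun σ => σ.2
  choose c0 hc0 using hch
  let F : PS × Bool → {f : Equiv.Perm ArrayPt × (ArrayPt → (ZMod 3)ˣ) // Pres f.1 f.2} := fun t =>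
    ⟨(t.1, cond t.2 (c0 t.1) (-(c0 t.1))), by
      cases t.2
      · intro x hx
        have h1 := hc0 t.1 x hx
        have h2 : monomialMap (t.1 : Equiv.Perm ArrayPt) (-(c0 t.1)) x = - monomialMap (t.1 : Equiv.Perm ArrayPt) (c0 t.1) x := by
          funext p
          show ((-(c0 t.1 p) : (ZMod 3)ˣ) : ZMod 3) * x _ = -((c0 t.1 p : ZMod 3) * x _)
          rw [Units.val_neg, neg_mul]
        show monomialMap (t.1 : Equiv.Perm ArrayPt) (-(c0 t.1)) x ∈ _
        rw [h2]; exact Submodule.neg_mem _ h1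
      · exact hc0 t.1⟩
  have hne : ∀ c : ArrayPt → (ZMod 3)ˣ, c ≠ -c := by
    intro c hc
    have h1 := congrFun hc (0, 0)
    have : ∀ u : (ZMod 3)ˣ, u ≠ -u := by decide
    exact this _ h1
  have hF : Function.Bijective F := by
    constructor
    · rintro ⟨σ, a⟩ ⟨τ, b⟩ hab
      have h1 : (σ : Equiv.Perm ArrayPt) = τ := congrArg (fun t => t.1.1) hab
      have h1' : σ = τ := Subtype.ext h1
      subst h1'
      have h2 : cond a (c0 σ) (-(c0 σ)) = cond b (c0 σ) (-(c0 σ)) := congrArg (fun t => t.1.2) hab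
      cases a <;> cases b
      · rfl
      · exact absurd h2.symm (hne _)
      · exact absurd h2 (hne _)
      · rfl
    · rintro ⟨⟨σ, c⟩, hc⟩
      rcases pres_unique (hc0 ⟨σ, ⟨c, hc⟩⟩) hc with h | h
      · exact ⟨(⟨σ, ⟨c, hc⟩⟩, true), Subtype.ext (Prod.ext rfl h.symm)⟩
      · exact ⟨(⟨σ, ⟨c, hc⟩⟩, false), Subtype.ext (Prod.ext rfl h.symm)⟩
  rw [← Nat.card_eq_of_bijective F hF, Nat.card_prod, Nat.card_eq_fintype_card (α := Bool), Fintype.card_bool]
  have h2 : Nat.card PS = 95040 := by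
    rw [PS_eq]; exact h
  rw [h2]

end CfsgLib.TernB28
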