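import Mathlib

set_option autoImplicit false

/-! Quadratic forms in triangular coordinates and Gaussian sums (helper28). -/

namespace CfsgLib.Th28

open Complex

/-- a form `a (x₀ + l·x')² + Q'(x')` -/
inductive TF : ℕ → Type
  | nil : TF 0
  | cons {n : ℕ} (a : ℝ) (l : Fin n → ℝ) (q : TF n) : TF (n + 1)

noncomputable def TF.Q : {n : ℕ} → TF n → (Fin n → ℝ) → ℝ
  | _, .nil, _ => 0
  | _, .cons a l q, x => a * (x 0 + ∑ j, l j * x j.succ) ^ 2 + q.Q (fun j => x j.succ)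

/-- the dual form -/
noncomputable def TF.D : {n : ℕ} → TF n → (Fin n → ℝ) → ℝ
  | _, .nil, _ => 0
  | _, .cons a l q, k => (k 0) ^ 2 / a + q.D (fun j => k j.succ - k 0 * l j)

def TF.Pos : {n : ℕ} → TF n → Prop
  | _, .nil => True
  | _, .cons a _ q => 0 < a ∧ q.Pos

/-- square root of the determinant -/
noncomputable def TF.c : {n : ℕ} → TF n → ℝ
  | _, .nil => 1
  | _, .cons a _ q => Real.exp (Real.log a / 2) * q.c

theorem TF.c_pos {n : ℕ} (q : TF n) : 0 < q.c := by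
  induction q with
  | nil => exact one_pos
  | cons a l q ih => exact mul_pos (Real.exp_pos _) ih

theorem cs_bound {n : ℕ} (l x : Fin n → ℝ) : (∑ j, l j * x j) ^ 2 ≤ (∑ j, l j ^ 2) * ∑ j, x j ^ 2 :=
  Finset.sum_mul_sq_le_sq_mul_sq _ _ _

theorem TF.Q_lower {n : ℕ} (q : TF n) (hq : q.Pos) : ∃ κ : ℝ, 0 < κ ∧ ∀ x, κ * ∑ j, x j ^ 2 ≤ q.Q x := by
  induction q with
  | nil => exact ⟨1, one_pos, fun x => by simp [TF.Q]⟩
  | @cons n a l q ih =>
    obtain ⟨ha, hq'⟩ := hq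
    obtain ⟨κ, hκ, hb⟩ := ih hq'
    set K := ∑ j, l j ^ 2 with hK
    have hK0 : 0 ≤ K := Finset.sum_nonneg fun _ _ => sq_nonneg _
    -- |x|² ≤ 2 (x₀+s)² + (2K+1)|x'|²
    refine ⟨min (a / 2) (κ / (2 * K + 1)), lt_min (by positivity) (by positivity), fun x => ?_⟩
    rw [Fin.sum_univ_succ]
    set s := ∑ j, l j * x j.succ with hs
    set X := ∑ j : Fin n, x j.succ ^ 2 with hX
    have hX0 : 0 ≤ X := Finset.sum_nonneg fun _ _ => sq_nonneg _
    have h1 : s ^ 2 ≤ K * X := cs_bound l (fun j => x j.succ)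
    have h2 : κ * X ≤ q.Q (fun j => x j.succ) := hb _
    have h3 : x 0 ^ 2 + X ≤ 2 * (x 0 + s) ^ 2 + (2 * K + 1) * X := by
      nlinarith [sq_nonneg (x 0 + 2 * s)]
    have hm0 : 0 ≤ min (a / 2) (κ / (2 * K + 1)) := le_min (by positivity) (by positivity)
    have e1 : min (a / 2) (κ / (2 * K + 1)) * (2 * (x 0 + s) ^ 2) ≤ a * (x 0 + s) ^ 2 := by
      have : min (a / 2) (κ / (2 * K + 1)) * (2 * (x 0 + s) ^ 2) ≤ (a / 2) * (2 * (x 0 + s) ^ 2) :=
        mul_le_mul_of_nonneg_right (min_le_left _ _) (by positivity)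
      linarith
    have e2 : min (a / 2) (κ / (2 * K + 1)) * ((2 * K + 1) * X) ≤ κ * X := by
      have : min (a / 2) (κ / (2 * K + 1)) * ((2 * K + 1) * X) ≤ (κ / (2 * K + 1)) * ((2 * K + 1) * X) :=
        mul_le_mul_of_nonneg_right (min_le_right _ _) (by positivity)
      have e : (κ / (2 * K + 1)) * ((2 * K + 1) * X) = κ * X := by field_simp
      linarith
    show min (a / 2) (κ / (2 * K + 1)) * (x 0 ^ 2 + X) ≤ a * (x 0 + s) ^ 2 + q.Q (fun j => x j.succ)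
    calc min (a / 2) (κ / (2 * K + 1)) * (x 0 ^ 2 + X) ≤
        min (a / 2) (κ / (2 * K + 1)) * (2 * (x 0 + s) ^ 2 + (2 * K + 1) * X) := mul_le_mul_of_nonneg_left h3 hm0
      _ = min (a / 2) (κ / (2 * K + 1)) * (2 * (x 0 + s) ^ 2) + min (a / 2) (κ / (2 * K + 1)) * ((2 * K + 1) * X) := by ring
      _ ≤ _ := by linarith

theorem TF.D_lower {n : ℕ} (q : TF n) (hq : q.Pos) : ∃ κ : ℝ, 0 < κ ∧ ∀ x, κ * ∑ j, x j ^ 2 ≤ q.D x := by
  induction q with
  | nil => exact ⟨1, one_pos, fun x => by simp [TF.D]⟩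
  | @cons n a l q ih =>
    obtain ⟨ha, hq'⟩ := hq
    obtain ⟨κ, hκ, hb⟩ := ih hq'
    set K := ∑ j, l j ^ 2 with hK
    have hK0 : 0 ≤ K := Finset.sum_nonneg fun _ _ => sq_nonneg _
    refine ⟨min (1 / (a * (2 * K + 1))) (κ / 2), lt_min (by positivity) (by positivity), fun x => ?_⟩
    rw [Fin.sum_univ_succ]
    set X := ∑ j : Fin n, x j.succ ^ 2 with hX
    set Y := ∑ j : Fin n, (x j.succ - x 0 * l j) ^ 2 with hY
    have hY0 : 0 ≤ Y := Finset.sum_nonneg fun _ _ => sq_nonneg _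
    have h1 : X ≤ 2 * Y + 2 * x 0 ^ 2 * K := by
      rw [hX, hY, hK, Finset.mul_sum, Finset.mul_sum, ← Finset.sum_add_distrib]
      refine Finset.sum_le_sum fun j _ => ?_
      nlinarith [sq_nonneg (x j.succ - 2 * (x 0 * l j))]
    have h2 : κ * Y ≤ q.D (fun j => x j.succ - x 0 * l j) := hb _
    have hm0 : 0 ≤ min (1 / (a * (2 * K + 1))) (κ / 2) := le_min (by positivity) (by positivity)
    have e1 : min (1 / (a * (2 * K + 1))) (κ / 2) * ((2 * K + 1) * x 0 ^ 2) ≤ x 0 ^ 2 / a := by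
      have : min (1 / (a * (2 * K + 1))) (κ / 2) * ((2 * K + 1) * x 0 ^ 2) ≤ (1 / (a * (2 * K + 1))) * ((2 * K + 1) * x 0 ^ 2) :=
        mul_le_mul_of_nonneg_right (min_le_left _ _) (by positivity)
      have e : (1 / (a * (2 * K + 1))) * ((2 * K + 1) * x 0 ^ 2) = x 0 ^ 2 / a := by field_simp
      linarith
    have e2 : min (1 / (a * (2 * K + 1))) (κ / 2) * (2 * Y) ≤ κ * Y := by
      have : min (1 / (a * (2 * K + 1))) (κ / 2) * (2 * Y) ≤ (κ / 2) * (2 * Y) :=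
        mul_le_mul_of_nonneg_right (min_le_right _ _) (by positivity)
      linarith
    show min (1 / (a * (2 * K + 1))) (κ / 2) * (x 0 ^ 2 + X) ≤ x 0 ^ 2 / a + q.D (fun j => x j.succ - x 0 * l j)
    calc min (1 / (a * (2 * K + 1))) (κ / 2) * (x 0 ^ 2 + X) ≤
        min (1 / (a * (2 * K + 1))) (κ / 2) * ((2 * K + 1) * x 0 ^ 2 + 2 * Y) :=
          mul_le_mul_of_nonneg_left (by linarith) hm0
      _ = min (1 / (a * (2 * K + 1))) (κ / 2) * ((2 * K + 1) * x 0 ^ 2) + min (1 / (a * (2 * K + 1))) (κ / 2) * (2 * Y) := by ring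
      _ ≤ _ := by linarith

/-- one-dimensional Gaussian sums converge -/
theorem gauss1 {t : ℝ} (ht : 0 < t) (v : ℝ) : Summable fun k : ℤ => Real.exp (-t * ((k : ℝ) - v) ^ 2) := by
  have h : 0 < ((t / Real.pi : ℝ) * I : ℂ).im := by
    simp only [mul_im, ofReal_re, I_im, mul_one, ofReal_im, I_re, mul_zero, add_zero]
    positivity
  have h1 := ((summable_jacobiTheta₂_term_iff (((-(t * v) / Real.pi : ℝ) : ℂ) * I) (((t / Real.pi : ℝ) : ℂ) * I)).mpr h).norm
  have h2 := h1.mul_right (Real.exp (-t * v ^ 2))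
  refine h2.congr fun k => ?_
  rw [norm_jacobiTheta₂_term, ← Real.exp_add]
  congr 1
  simp only [mul_im, ofReal_re, I_im, mul_one, ofReal_im, I_re, mul_zero, add_zero]
  field_simp
  ring

theorem gaussN {n : ℕ} {t : ℝ} (ht : 0 < t) (v : Fin n → ℝ) :
    Summable fun k : Fin n → ℤ => Real.exp (-t * ∑ j, ((k j : ℝ) - v j) ^ 2) := by
  induction n with
  | zero => exact Summable.of_finite
  | succ n ih =>
    have h1 := gauss1 ht (v 0)
    have h2 := ih (fun j => v j.succ)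
    have h3 := Summable.mul_of_nonneg h1 h2 (fun _ => (Real.exp_pos _).le) (fun _ => (Real.exp_pos _).le)
    rw [← (Fin.consEquiv (fun _ : Fin (n+1) => ℤ)).summable_iff]
    refine h3.congr fun p => ?_
    rw [← Real.exp_add]
    congr 1
    simp only [Function.comp_apply, Fin.consEquiv_apply, Fin.sum_univ_succ, Fin.cons_zero, Fin.cons_succ]
    ring

theorem sumQ {n : ℕ} (q : TF n) (hq : q.Pos) {t : ℝ} (ht : 0 < t) (v : Fin n → ℝ) :
    Summable fun k : Fin n → ℤ => Real.exp (-t * q.Q (fun j => (k j : ℝ) - v j)) := by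
  obtain ⟨κ, hκ, hb⟩ := q.Q_lower hq
  refine Summable.of_nonneg_of_le (fun _ => (Real.exp_pos _).le) (fun k => ?_) (gaussN (mul_pos ht hκ) v)
  apply Real.exp_le_exp.mpr
  have := mul_le_mul_of_nonneg_left (hb (fun j => (k j : ℝ) - v j)) ht.le
  linarith

theorem sumD {n : ℕ} (q : TF n) (hq : q.Pos) {t : ℝ} (ht : 0 < t) (v : Fin n → ℝ) :
    Summable fun k : Fin n → ℤ => Real.exp (-t * q.D (fun j => (k j : ℝ) - v j)) := by
  obtain ⟨κ, hκ, hb⟩ := q.D_lower hq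
  refine Summable.of_nonneg_of_le (fun _ => (Real.exp_pos _).le) (fun k => ?_) (gaussN (mul_pos ht hκ) v)
  apply Real.exp_le_exp.mpr
  have := mul_le_mul_of_nonneg_left (hb (fun j => (k j : ℝ) - v j)) ht.le
  linarith

end CfsgLib.Th28
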