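import Mathlib
import Cfsg.Agent.LibTh28A

set_option autoImplicit false

/-! Functional equation of multi-dimensional theta series (helper28). -/

namespace CfsgLib.Th28

open Complex

/-- `exp (π i z)` -/
noncomputable def E (z : ℂ) : ℂ := cexp (Real.pi * I * z)

theorem E_add (z w : ℂ) : E (z + w) = E z * E w := by
  unfold E; rw [← Complex.exp_add]; congr 1; ring

theorem norm_E (z : ℂ) : ‖E z‖ = Real.exp (-Real.pi * z.im) := by
  unfold E
  rw [Complex.norm_exp]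
  congr 1
  simp [Complex.mul_re, Complex.mul_im]

theorem half_mul {a : ℝ} (ha : 0 < a) {z : ℂ} (hz : z ≠ 0) :
    ((a : ℂ) * z) ^ (1 / 2 : ℂ) = (Real.exp (Real.log a / 2) : ℂ) * z ^ (1 / 2 : ℂ) := by
  have ha' : (a : ℂ) ≠ 0 := by exact_mod_cast ha.ne'
  rw [Complex.cpow_def_of_ne_zero (mul_ne_zero ha' hz), Complex.cpow_def_of_ne_zero hz,
    Complex.log_ofReal_mul ha hz, Complex.ofReal_exp, ← Complex.exp_add]
  congr 1
  push_cast
  ring

/-- one-dimensional functional equation -/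
theorem func1 {τ : ℂ} (hτ : 0 < τ.im) {a : ℝ} (ha : 0 < a) (s w : ℝ) :
    ∑' x : ℤ, E (τ * (a * (x + s) ^ 2) + 2 * (w * x)) =
      ((Real.exp (Real.log a / 2) : ℂ) * (-I * τ) ^ (1 / 2 : ℂ))⁻¹ *
        ∑' k : ℤ, E (-((k - w) ^ 2 / a) / τ + 2 * (s * (k - w))) := by
  have hτ0 : τ ≠ 0 := by rintro rfl; simp at hτ
  have ha' : (a : ℂ) ≠ 0 := by exact_mod_cast ha.ne'
  have h := jacobiTheta₂_functional_equation ((a : ℂ) * τ * s + w) ((a : ℂ) * τ)
  have e0 : (-I * ((a : ℂ) * τ)) ^ (1 / 2 : ℂ) = (Real.exp (Real.log a / 2) : ℂ) * (-I * τ) ^ (1 / 2 : ℂ) := by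
    have : -I * ((a : ℂ) * τ) = (a : ℂ) * (-I * τ) := by ring
    rw [this, half_mul ha (mul_ne_zero (neg_ne_zero.mpr I_ne_zero) hτ0)]
  rw [e0] at h
  have e1 : ∑' x : ℤ, E (τ * (a * (x + s) ^ 2) + 2 * (w * x)) = E (τ * a * s ^ 2) *
      jacobiTheta₂ ((a : ℂ) * τ * s + w) ((a : ℂ) * τ) := by
    unfold jacobiTheta₂
    rw [← tsum_mul_left]
    refine tsum_congr fun x => ?_
    unfold jacobiTheta₂_term E
    rw [← Complex.exp_add]
    congr 1
    ring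
  rw [e1, h]
  unfold jacobiTheta₂
  rw [one_div]
  rw [← tsum_mul_left, ← tsum_mul_left, ← tsum_mul_left]
  refine tsum_congr fun k => ?_
  unfold jacobiTheta₂_term E
  have : cexp (Real.pi * I * (τ * a * s ^ 2)) * (((Real.exp (Real.log a / 2) : ℂ) * (-I * τ) ^ (1 / 2 : ℂ))⁻¹ *
      cexp (-Real.pi * I * ((a : ℂ) * τ * s + w) ^ 2 / (a * τ)) *
        cexp (2 * Real.pi * I * k * (((a : ℂ) * τ * s + w) / (a * τ)) + Real.pi * I * k ^ 2 * (-1 / (a * τ)))) =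
      ((Real.exp (Real.log a / 2) : ℂ) * (-I * τ) ^ (1 / 2 : ℂ))⁻¹ * (cexp (Real.pi * I * (τ * a * s ^ 2)) *
      cexp (-Real.pi * I * ((a : ℂ) * τ * s + w) ^ 2 / (a * τ)) *
        cexp (2 * Real.pi * I * k * (((a : ℂ) * τ * s + w) / (a * τ)) + Real.pi * I * k ^ 2 * (-1 / (a * τ)))) := by
    ring
  rw [this, ← Complex.exp_add, ← Complex.exp_add]
  congr 2
  field_simp
  ring

theorem im_inv {τ : ℂ} (hτ : 0 < τ.im) (r : ℝ) : ((-(r : ℂ)) / τ).im = r * (τ.im / normSq τ) := by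
  rw [Complex.div_im]
  simp
  ring

theorem norm_E_inv {τ : ℂ} (hτ : 0 < τ.im) (r : ℝ) : ‖E (-(r : ℂ) / τ)‖ = Real.exp (-(Real.pi * (τ.im / normSq τ)) * r) := by
  rw [norm_E, im_inv hτ]
  congr 1; ring

theorem summable_lhs {n : ℕ} (q : TF n) (hq : q.Pos) {τ : ℂ} (hτ : 0 < τ.im) (w : Fin n → ℝ) :
    Summable fun x : Fin n → ℤ => E (τ * (q.Q (fun j => (x j : ℝ)) : ℝ) + 2 * ((∑ j, w j * x j : ℝ) : ℂ)) := by
  apply Summable.of_norm
  have h := sumQ q hq (t := Real.pi * τ.im) (mul_pos Real.pi_pos hτ) (fun _ => 0)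
  refine h.congr fun x => ?_
  rw [norm_E]
  congr 1
  simp [Complex.add_im, Complex.mul_im]
  ring

theorem summable_rhs {n : ℕ} (q : TF n) (hq : q.Pos) {τ : ℂ} (hτ : 0 < τ.im) (w : Fin n → ℝ) :
    Summable fun k : Fin n → ℤ => E (-((q.D (fun j => (k j : ℝ) - w j) : ℝ) : ℂ) / τ) := by
  have hτ0 : τ ≠ 0 := by rintro rfl; simp at hτ
  have hn : 0 < normSq τ := normSq_pos.mpr hτ0
  apply Summable.of_norm
  have h := sumD q hq (t := Real.pi * (τ.im / normSq τ)) (by positivity) w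
  refine h.congr fun x => ?_
  rw [norm_E_inv hτ]

/-- the n-dimensional functional equation -/
theorem funcN {n : ℕ} (q : TF n) (hq : q.Pos) {τ : ℂ} (hτ : 0 < τ.im) (w : Fin n → ℝ) :
    ∑' x : Fin n → ℤ, E (τ * (q.Q (fun j => (x j : ℝ)) : ℝ) + 2 * ((∑ j, w j * x j : ℝ) : ℂ)) =
      ((q.c : ℂ) * ((-I * τ) ^ (1 / 2 : ℂ)) ^ n)⁻¹ *
        ∑' k : Fin n → ℤ, E (-((q.D (fun j => (k j : ℝ) - w j) : ℝ) : ℂ) / τ) := by
  have hτ0 : τ ≠ 0 := by rintro rfl; simp at hτ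
  have hn : 0 < normSq τ := normSq_pos.mpr hτ0
  induction q with
  | nil => 
    simp [TF.Q, TF.D, TF.c]
  | @cons n a l q ih =>
    have hq0 := hq
    obtain ⟨ha, hq'⟩ := hq
    have ha' : (a : ℂ) ≠ 0 := by exact_mod_cast ha.ne'
    set r : ℂ := (-I * τ) ^ (1 / 2 : ℂ) with hr
    set e₁ : (Fin n → ℤ) × ℤ ≃ (Fin (n + 1) → ℤ) :=
      (Equiv.prodComm (Fin n → ℤ) ℤ).trans (Fin.consEquiv (fun _ => ℤ)) with he₁
    set A : (Fin n → ℤ) → ℂ := fun x => E (τ * (q.Q (fun j => (x j : ℝ)) : ℝ) + 2 * ((∑ j, w j.succ * x j : ℝ) : ℂ)) with hA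
    set s : (Fin n → ℤ) → ℝ := fun x => ∑ j, l j * x j with hs
    -- step 1
    have s1 : ∑' x : Fin (n+1) → ℤ, E (τ * ((TF.cons a l q).Q (fun j => (x j : ℝ)) : ℝ) + 2 * ((∑ j, w j * x j : ℝ) : ℂ)) =
        ∑' (x : Fin n → ℤ), ∑' (y : ℤ), A x * E (τ * (a * (y + s x) ^ 2) + 2 * (w 0 * y)) := by
      rw [← e₁.tsum_eq]
      have hsum : Summable fun p : (Fin n → ℤ) × ℤ =>
          E (τ * ((TF.cons a l q).Q (fun j => ((e₁ p) j : ℝ)) : ℝ) + 2 * ((∑ j, w j * (e₁ p) j : ℝ) : ℂ)) :=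
        (e₁.summable_iff (f := fun x : Fin (n+1) → ℤ => E (τ * ((TF.cons a l q).Q (fun j => (x j : ℝ)) : ℝ) + 2 * ((∑ j, w j * x j : ℝ) : ℂ)))).mpr
          (summable_lhs _ hq0 hτ w)
      rw [hsum.tsum_prod]
      refine tsum_congr fun x => tsum_congr fun y => ?_
      rw [hA]
      simp only
      rw [← E_add]
      congr 1
      simp only [he₁, Equiv.trans_apply, Equiv.prodComm_apply, Prod.swap, Fin.consEquiv_apply, TF.Q, Fin.sum_univ_succ,
        Fin.cons_zero, Fin.cons_succ, hs]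
      push_cast
      ring
    have s2 : ∀ x : Fin n → ℤ, ∑' (y : ℤ), A x * E (τ * (a * (y + s x) ^ 2) + 2 * (w 0 * y)) =
        ((Real.exp (Real.log a / 2) : ℂ) * r)⁻¹ * ∑' k : ℤ, A x * E (-((k - w 0) ^ 2 / a) / τ + 2 * (s x * (k - w 0))) := by
      intro x
      rw [tsum_mul_left, func1 hτ ha, tsum_mul_left]
      ring
    have s3 : ∑' (x : Fin n → ℤ), ∑' k : ℤ, A x * E (-((k - w 0) ^ 2 / a) / τ + 2 * (s x * (k - w 0))) =
        ∑' k : ℤ, ∑' (x : Fin n → ℤ), A x * E (-((k - w 0) ^ 2 / a) / τ + 2 * (s x * (k - w 0))) := by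
      apply Summable.tsum_comm
      apply Summable.of_norm
      have h1 := (summable_lhs q hq' hτ (fun j => w j.succ)).norm
      have h2 := gauss1 (t := Real.pi * (τ.im / normSq τ) / a) (by positivity) (w 0)
      have h3 := Summable.mul_of_nonneg h2 h1 (fun _ => (Real.exp_pos _).le) (fun _ => norm_nonneg _)
      refine h3.congr fun p => ?_
      simp only [Function.uncurry, norm_mul, hA]
      rw [mul_comm]
      congr 1
      rw [norm_E, Complex.add_im]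
      have e1 : ((-((((p.1 : ℤ) : ℂ) - (w 0 : ℂ)) ^ 2 / (a : ℂ)) / τ)).im = (((p.1 : ℝ) - w 0) ^ 2 / a) * (τ.im / normSq τ) := by
        rw [← im_inv hτ]; push_cast; rfl
      have e2 : (2 * (((s p.2 : ℝ) : ℂ) * (((p.1 : ℤ) : ℂ) - (w 0 : ℂ)))).im = 0 := by
        have : (2 * (((s p.2 : ℝ) : ℂ) * (((p.1 : ℤ) : ℂ) - (w 0 : ℂ)))) = ((2 * (s p.2 * ((p.1 : ℝ) - w 0)) : ℝ) : ℂ) := by
          push_cast; rfl
        rw [this, ofReal_im]
      rw [e1, e2, add_zero]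
      congr 1
      ring
    have s4 : ∀ k : ℤ, ∑' (x : Fin n → ℤ), A x * E (-((k - w 0) ^ 2 / a) / τ + 2 * (s x * (k - w 0))) =
        ((q.c : ℂ) * r ^ n)⁻¹ * ∑' k' : Fin n → ℤ,
          E (-((((k : ℝ) - w 0) ^ 2 / a + q.D (fun j => ((k' j : ℝ) - w j.succ) - ((k : ℝ) - w 0) * l j) : ℝ) : ℂ) / τ) := by
      intro k
      have ih' := ih hq' (fun j => w j.succ + ((k : ℝ) - w 0) * l j)
      have e1 : ∑' (x : Fin n → ℤ), A x * E (-((k - w 0) ^ 2 / a) / τ + 2 * (s x * (k - w 0))) =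
          E (-((k - w 0) ^ 2 / a) / τ) * ∑' x : Fin n → ℤ, E (τ * (q.Q (fun j => (x j : ℝ)) : ℝ) +
            2 * ((∑ j, (w j.succ + ((k : ℝ) - w 0) * l j) * x j : ℝ) : ℂ)) := by
        rw [← tsum_mul_left]
        refine tsum_congr fun x => ?_
        rw [hA]
        simp only
        rw [← E_add, ← E_add]
        congr 1
        have e3 : (∑ j, (w j.succ + ((k : ℝ) - w 0) * l j) * x j : ℝ) = (∑ j, w j.succ * x j : ℝ) + ((k : ℝ) - w 0) * s x := by
          rw [hs]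
          simp only
          rw [Finset.mul_sum, ← Finset.sum_add_distrib]
          refine Finset.sum_congr rfl fun j _ => ?_
          ring
        rw [e3]
        push_cast
        ring
      rw [e1, ih', mul_left_comm, ← tsum_mul_left]
      congr 1
      refine tsum_congr fun k' => ?_
      rw [← E_add]
      congr 1
      have e4 : (fun j => (k' j : ℝ) - (w j.succ + ((k : ℝ) - w 0) * l j)) =
          (fun j => ((k' j : ℝ) - w j.succ) - ((k : ℝ) - w 0) * l j) := by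
        funext j; ring
      rw [e4]
      push_cast
      ring
    have s5 : ∑' k : Fin (n+1) → ℤ, E (-(((TF.cons a l q).D (fun j => (k j : ℝ) - w j) : ℝ) : ℂ) / τ) =
        ∑' k : ℤ, ∑' k' : Fin n → ℤ,
          E (-((((k : ℝ) - w 0) ^ 2 / a + q.D (fun j => ((k' j : ℝ) - w j.succ) - ((k : ℝ) - w 0) * l j) : ℝ) : ℂ) / τ) := by
      rw [← (Fin.consEquiv (fun _ : Fin (n+1) => ℤ)).tsum_eq]
      have hsum : Summable fun p : ℤ × (Fin n → ℤ) =>
          E (-(((TF.cons a l q).D (fun j => (((Fin.consEquiv (fun _ : Fin (n+1) => ℤ)) p) j : ℝ) - w j) : ℝ) : ℂ) / τ) :=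
        ((Fin.consEquiv (fun _ : Fin (n+1) => ℤ)).summable_iff (f := fun k : Fin (n+1) → ℤ => E (-(((TF.cons a l q).D (fun j => (k j : ℝ) - w j) : ℝ) : ℂ) / τ))).mpr
          (summable_rhs _ hq0 hτ w)
      rw [hsum.tsum_prod]
      rfl
    rw [s1, tsum_congr s2, tsum_mul_left, s3, tsum_congr s4, tsum_mul_left, s5, TF.c]
    rw [← mul_assoc, pow_succ]
    congr 1
    rw [← mul_inv]
    congr 1
    push_cast
    ring

end CfsgLib.Th28
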