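import Mathlib
import Cfsg.Agent.LibTh28B

set_option autoImplicit false

/-! Theta functions of unimodular lattices (helper28). -/

namespace CfsgLib.Th28

open Complex Matrix

theorem link (n : ℕ) : ∀ (B : Matrix (Fin n) (Fin n) ℚ), (∀ i j, B i j = B j i) →
    (∀ x : Fin n → ℚ, x ≠ 0 → 0 < x ⬝ᵥ (B *ᵥ x)) →
    ∃ q : TF n, q.Pos ∧ ∀ x : Fin n → ℚ, q.Q (fun j => (x j : ℝ)) = ((x ⬝ᵥ (B *ᵥ x) : ℚ) : ℝ) ∧
      q.D (fun j => ((B *ᵥ x) j : ℝ)) = q.Q (fun j => (x j : ℝ)) := by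
  induction n with
  | zero =>
    intro B _ _
    exact ⟨.nil, trivial, fun x => ⟨by simp [TF.Q], by simp [TF.Q, TF.D]⟩⟩
  | succ n ih =>
    intro B hs hp
    set a := B 0 0 with ha_def
    set l : Fin n → ℚ := fun j => B 0 j.succ / a with hl
    set B' : Matrix (Fin n) (Fin n) ℚ := fun i j => B i.succ j.succ - a * l i * l j with hB'
    have ha : 0 < a := by
      have h := hp (Fin.cons 1 (fun _ => 0)) (by
        intro h
        have := congrFun h 0
        simp at this)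
      simpa [dotProduct, mulVec, Fin.sum_univ_succ] using h
    have hl' : ∀ j, B 0 j.succ = a * l j := fun j => by simp only [hl]; field_simp
    have hl'' : ∀ j, B j.succ 0 = a * l j := fun j => by rw [hs, hl']
    have hBB : ∀ i j, B i.succ j.succ = B' i j + a * l i * l j := fun i j => by simp only [hB']; ring
    have m0 : ∀ x : Fin (n+1) → ℚ, (B *ᵥ x) 0 = a * (x 0 + ∑ j, l j * x j.succ) := by
      intro x
      simp only [mulVec, dotProduct, Fin.sum_univ_succ, hl']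
      rw [mul_add, Finset.mul_sum]
      congr 1
      exact Finset.sum_congr rfl fun j _ => by ring
    have mj : ∀ (x : Fin (n+1) → ℚ) (i : Fin n), (B *ᵥ x) i.succ = a * l i * (x 0 + ∑ j, l j * x j.succ) +
        (B' *ᵥ (fun j => x j.succ)) i := by
      intro x i
      simp only [mulVec, dotProduct, Fin.sum_univ_succ, hl'', hBB]
      rw [mul_add, Finset.mul_sum, add_assoc, ← Finset.sum_add_distrib]
      congr 1
      exact Finset.sum_congr rfl fun j _ => by ring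
    have hQ : ∀ x : Fin (n+1) → ℚ, x ⬝ᵥ (B *ᵥ x) = a * (x 0 + ∑ j, l j * x j.succ) ^ 2 +
        (fun j => x j.succ) ⬝ᵥ (B' *ᵥ (fun j => x j.succ)) := by
      intro x
      rw [dotProduct, Fin.sum_univ_succ, m0]
      simp only [mj]
      have e1 : ∑ i : Fin n, x i.succ * (a * l i * (x 0 + ∑ j, l j * x j.succ) + (B' *ᵥ (fun j => x j.succ)) i) =
          a * (x 0 + ∑ j, l j * x j.succ) * (∑ j, l j * x j.succ) +
            (fun j => x j.succ) ⬝ᵥ (B' *ᵥ (fun j => x j.succ)) := by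
        rw [dotProduct, Finset.mul_sum, ← Finset.sum_add_distrib]
        exact Finset.sum_congr rfl fun j _ => by ring
      rw [e1]
      ring
    have hs' : ∀ i j, B' i j = B' j i := by
      intro i j
      simp only [hB']
      rw [hs i.succ j.succ]; ring
    have hp' : ∀ x : Fin n → ℚ, x ≠ 0 → 0 < x ⬝ᵥ (B' *ᵥ x) := by
      intro x hx
      have h := hp (Fin.cons (-(∑ j, l j * x j)) x) (by
        intro h
        apply hx
        funext j
        have := congrFun h j.succ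
        simpa using this)
      rw [hQ] at h
      simpa using h
    obtain ⟨q, hq, hqx⟩ := ih B' hs' hp'
    refine ⟨.cons (a : ℝ) (fun j => (l j : ℝ)) q, ⟨by exact_mod_cast ha, hq⟩, fun x => ?_⟩
    have hx := hqx (fun j => x j.succ)
    have e1 : (TF.cons (a : ℝ) (fun j => (l j : ℝ)) q).Q (fun j => (x j : ℝ)) = ((x ⬝ᵥ (B *ᵥ x) : ℚ) : ℝ) := by
      rw [TF.Q, hx.1, hQ]
      push_cast
      rfl
    refine ⟨e1, ?_⟩
    rw [TF.D, TF.Q]
    have e2 : (fun j : Fin n => (((B *ᵥ x) j.succ : ℚ) : ℝ) - (((B *ᵥ x) 0 : ℚ) : ℝ) * (l j : ℝ)) =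
        fun j => (((B' *ᵥ (fun j => x j.succ)) j : ℚ) : ℝ) := by
      funext j
      rw [mj, m0]
      push_cast
      ring
    rw [e2, hx.2, m0]
    have ha' : ((a : ℚ) : ℝ) ≠ 0 := by exact_mod_cast ha.ne'
    push_cast
    field_simp

section
variable (B : Matrix (Fin 24) (Fin 24) ℤ) (hsymm : B.IsSymm)
  (hpos : ∀ x : Fin 24 → ℤ, x ≠ 0 → 0 < x ⬝ᵥ (B *ᵥ x)) (hdet : B.det = 1)

/-- the theta series -/
noncomputable def theta (τ : ℂ) : ℂ := ∑' x : Fin 24 → ℤ, E (τ * ((x ⬝ᵥ (B *ᵥ x) : ℤ) : ℂ))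

include hsymm hpos in
theorem exists_form : ∃ q : TF 24, q.Pos ∧ ∀ x : Fin 24 → ℤ,
    q.Q (fun j => (x j : ℝ)) = ((x ⬝ᵥ (B *ᵥ x) : ℤ) : ℝ) ∧
      q.D (fun j => ((B *ᵥ x) j : ℝ)) = q.Q (fun j => (x j : ℝ)) := by
  obtain ⟨q, hq, hx⟩ := link 24 (B.map (fun z : ℤ => (z : ℚ))) (fun i j => by
    simp only [Matrix.map_apply]
    rw [hsymm.apply]) (fun x hx0 => by
      -- clear denominators
      obtain ⟨N, hN⟩ : ∃ N : ℤ, 0 < N ∧ ∀ j, ∃ z : ℤ, (N : ℚ) * x j = z := by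
        refine ⟨∏ j, ((x j).den : ℤ), Finset.prod_pos (fun j _ => by exact_mod_cast (x j).den_pos), fun j => ?_⟩
        refine ⟨(∏ i ∈ Finset.univ.erase j, ((x i).den : ℤ)) * (x j).num, ?_⟩
        rw [← Finset.mul_prod_erase Finset.univ (fun j => ((x j).den : ℤ)) (Finset.mem_univ j)]
        push_cast
        have := Rat.den_mul_eq_num (x j)
        calc ((x j).den : ℚ) * (∏ i ∈ Finset.univ.erase j, ((x i).den : ℚ)) * x j =
            (∏ i ∈ Finset.univ.erase j, ((x i).den : ℚ)) * ((x j).den * x j) := by ring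
          _ = _ := by rw [this]
      obtain ⟨hN0, hN1⟩ := hN
      choose z hz using hN1
      have hz0 : z ≠ 0 := by
        intro h
        apply hx0
        funext j
        have h1 := hz j
        rw [h] at h1
        have h2 : (N : ℚ) ≠ 0 := by exact_mod_cast hN0.ne'
        simpa [h2] using h1
      have h1 := hpos z hz0
      have h2 : ((z ⬝ᵥ (B *ᵥ z) : ℤ) : ℚ) = (N : ℚ) ^ 2 * (x ⬝ᵥ ((B.map (fun z : ℤ => (z : ℚ))) *ᵥ x)) := by
        simp only [dotProduct, mulVec, Matrix.map_apply]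
        push_cast
        rw [Finset.mul_sum]
        refine Finset.sum_congr rfl fun i _ => ?_
        rw [← hz i, Finset.mul_sum, Finset.mul_sum, Finset.mul_sum]
        refine Finset.sum_congr rfl fun j _ => ?_
        rw [← hz j]; ring
      have h3 : (0 : ℚ) < ((z ⬝ᵥ (B *ᵥ z) : ℤ) : ℚ) := by exact_mod_cast h1
      rw [h2] at h3
      have h4 : (0 : ℚ) < (N : ℚ) ^ 2 := by positivity
      exact (mul_pos_iff_of_pos_left h4).mp h3)
  refine ⟨q, hq, fun x => ?_⟩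
  obtain ⟨h1, h2⟩ := hx (fun j => (x j : ℚ))
  have e1 : (B.map (fun z : ℤ => (z : ℚ))) *ᵥ (fun j => (x j : ℚ)) = fun j => (((B *ᵥ x) j : ℤ) : ℚ) := by
    funext i
    simp only [dotProduct, mulVec, Matrix.map_apply]
    push_cast
    rfl
  rw [e1] at h1 h2
  have e2 : ((fun j => (x j : ℚ)) ⬝ᵥ (fun j => (((B *ᵥ x) j : ℤ) : ℚ))) = ((x ⬝ᵥ (B *ᵥ x) : ℤ) : ℚ) := by
    simp only [dotProduct]
    push_cast
    rfl
  rw [e2] at h1
  simp only [Rat.cast_intCast] at h1 h2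
  exact ⟨h1, h2⟩

include hsymm hpos in
theorem theta_summable {τ : ℂ} (hτ : 0 < τ.im) : Summable fun x : Fin 24 → ℤ => E (τ * ((x ⬝ᵥ (B *ᵥ x) : ℤ) : ℂ)) := by
  obtain ⟨q, hq, hx⟩ := exists_form B hsymm hpos
  refine (summable_lhs q hq hτ (fun _ => 0)).congr fun x => ?_
  congr 1
  rw [(hx x).1]
  simp

include hdet in
theorem bij : Function.Bijective (fun x : Fin 24 → ℤ => B *ᵥ x) := by
  have hu : IsUnit B.det := by rw [hdet]; exact isUnit_one
  constructor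
  · intro x y h
    have h1 := congrArg (fun v => B⁻¹ *ᵥ v) h
    simp only [Matrix.mulVec_mulVec, Matrix.nonsing_inv_mul _ hu, Matrix.one_mulVec] at h1
    exact h1
  · intro y
    refine ⟨B⁻¹ *ᵥ y, ?_⟩
    simp only [Matrix.mulVec_mulVec, Matrix.mul_nonsing_inv _ hu, Matrix.one_mulVec]

include hsymm hpos hdet in
theorem theta_S0 : ∃ c : ℝ, 0 < c ∧ ∀ τ : ℂ, 0 < τ.im → theta B (-1 / τ) = c * τ ^ 12 * theta B τ := by
  obtain ⟨q, hq, hx⟩ := exists_form B hsymm hpos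
  refine ⟨q.c, q.c_pos, fun τ hτ => ?_⟩
  have hτ0 : τ ≠ 0 := by rintro rfl; simp at hτ
  have h := funcN q hq hτ (fun _ => 0)
  have e1 : ∑' x : Fin 24 → ℤ, E (τ * (q.Q (fun j => (x j : ℝ)) : ℝ) + 2 * ((∑ j, (0 : ℝ) * x j : ℝ) : ℂ)) = theta B τ := by
    unfold theta
    refine tsum_congr fun x => ?_
    congr 1
    rw [(hx x).1]
    simp
  have e2 : ∑' k : Fin 24 → ℤ, E (-((q.D (fun j => (k j : ℝ) - (0 : ℝ)) : ℝ) : ℂ) / τ) = theta B (-1 / τ) := by
    unfold theta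
    rw [← (Equiv.ofBijective _ (bij B hdet)).tsum_eq]
    refine tsum_congr fun x => ?_
    congr 1
    simp only [Equiv.ofBijective_apply, sub_zero]
    rw [(hx x).2, (hx x).1]
    push_cast
    ring
  rw [e1, e2] at h
  have e3 : ((-I * τ) ^ (1 / 2 : ℂ)) ^ 24 = τ ^ 12 := by
    have h2 : ((-I * τ) ^ (1 / 2 : ℂ)) ^ 2 = -I * τ := by
      rw [← Complex.cpow_nat_mul]
      norm_num
    have : ((-I * τ) ^ (1 / 2 : ℂ)) ^ 24 = (((-I * τ) ^ (1 / 2 : ℂ)) ^ 2) ^ 12 := by ring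
    rw [this, h2, mul_pow]
    have : (-I) ^ 12 = (1 : ℂ) := by
      have : (-I) ^ 12 = (I ^ 2) ^ 6 := by ring
      rw [this, I_sq]; norm_num
    rw [this, one_mul]
  rw [e3] at h
  have hc : (q.c : ℂ) ≠ 0 := by exact_mod_cast q.c_pos.ne'
  rw [h]
  field_simp

include hsymm hpos hdet in
theorem theta_S {τ : ℂ} (hτ : 0 < τ.im) : theta B (-1 / τ) = τ ^ 12 * theta B τ := by
  obtain ⟨c, hc, h⟩ := theta_S0 B hsymm hpos hdet
  have h1 := h I (by simp)
  have e1 : (-1 : ℂ) / I = I := by field_simp; simp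
  have e2 : (I : ℂ) ^ 12 = 1 := by
    have : (I : ℂ) ^ 12 = (I ^ 2) ^ 6 := by ring
    rw [this, I_sq]; norm_num
  rw [e1, e2, mul_one] at h1
  have h2 : theta B I ≠ 0 := by
    have e3 : theta B I = ((∑' x : Fin 24 → ℤ, Real.exp (-Real.pi * (x ⬝ᵥ (B *ᵥ x) : ℤ)) : ℝ) : ℂ) := by
      unfold theta
      rw [Complex.ofReal_tsum]
      refine tsum_congr fun x => ?_
      unfold E
      rw [Complex.ofReal_exp]
      congr 1
      push_cast
      have : (Real.pi : ℂ) * I * (I * ((x ⬝ᵥ (B *ᵥ x) : ℤ) : ℂ)) = (Real.pi : ℂ) * I ^ 2 * ((x ⬝ᵥ (B *ᵥ x) : ℤ) : ℂ) := by ring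
      rw [this, I_sq]; ring
    rw [e3]
    have hs := (theta_summable B hsymm hpos (τ := I) (by simp)).norm
    have hs' : Summable fun x : Fin 24 → ℤ => Real.exp (-Real.pi * (x ⬝ᵥ (B *ᵥ x) : ℤ)) := by
      refine hs.congr fun x => ?_
      rw [norm_E]
      congr 1
      simp
    have : 0 < ∑' x : Fin 24 → ℤ, Real.exp (-Real.pi * (x ⬝ᵥ (B *ᵥ x) : ℤ)) :=
      hs'.tsum_pos (fun _ => (Real.exp_pos _).le) 0 (Real.exp_pos _)
    exact_mod_cast this.ne'
  have h3 : (c : ℂ) = 1 := by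
    have h4 : (1 : ℂ) * theta B I = c * theta B I := by rw [one_mul]; exact h1
    exact (mul_right_cancel₀ h2 h4).symm
  rw [h τ hτ, h3, one_mul]

end

end CfsgLib.Th28
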