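import Mathlib
import Cfsg.Agent.LibTh28C

set_option autoImplicit false

/-! The theta series as a modular form (helper28). -/

namespace CfsgLib.Th28

open Matrix UpperHalfPlane ModularForm SlashInvariantForm MatrixGroups

open scoped Topology

section
variable (B : Matrix (Fin 24) (Fin 24) ℤ) (hsymm : B.IsSymm)
  (hpos : ∀ x : Fin 24 → ℤ, x ≠ 0 → 0 < x ⬝ᵥ (B *ᵥ x)) (hdet : B.det = 1)
  (heven : ∀ x : Fin 24 → ℤ, (2 : ℤ) ∣ x ⬝ᵥ (B *ᵥ x))

/-- half the norm -/
noncomputable def hn (x : Fin 24 → ℤ) : ℕ := (x ⬝ᵥ (B *ᵥ x) / 2).toNat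

include hpos heven in
theorem hn_eq (x : Fin 24 → ℤ) : x ⬝ᵥ (B *ᵥ x) = 2 * (hn B x : ℤ) := by
  have h1 : 0 ≤ x ⬝ᵥ (B *ᵥ x) := by
    by_cases h : x = 0
    · rw [h]; simp
    · exact (hpos x h).le
  obtain ⟨k, hk⟩ := heven x
  unfold hn
  rw [hk]
  have h2 : 0 ≤ k := by omega
  rw [Int.mul_ediv_cancel_left _ (by norm_num), Int.toNat_of_nonneg h2]

/-- the representation numbers -/
noncomputable def rep (n : ℕ) : ℕ := Nat.card ((hn B) ⁻¹' {n})

include hpos heven in
theorem E_term (x : Fin 24 → ℤ) (τ : ℂ) : E (τ * ((x ⬝ᵥ (B *ᵥ x) : ℤ) : ℂ)) = (Function.Periodic.qParam 1 τ) ^ (hn B x) := by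
  unfold E Function.Periodic.qParam
  rw [hn_eq B hpos heven, ← Complex.exp_nat_mul]
  congr 1
  push_cast
  ring

include hsymm hpos heven in
theorem theta_hasSum (τ : ℍ) : HasSum (fun n : ℕ => (rep B n : ℂ) • (Function.Periodic.qParam 1 (τ : ℂ)) ^ n) (theta B τ) := by
  have h1 := (theta_summable B hsymm hpos (τ := (τ : ℂ)) τ.im_pos).hasSum
  have h2 := h1.tsum_fiberwise (hn B)
  have h3 : (fun n : ℕ => (rep B n : ℂ) • (Function.Periodic.qParam 1 (τ : ℂ)) ^ n) =
      fun n => ∑' b : (hn B) ⁻¹' {n}, E ((τ : ℂ) * (((b : Fin 24 → ℤ) ⬝ᵥ (B *ᵥ (b : Fin 24 → ℤ)) : ℤ) : ℂ)) := by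
    funext n
    have h4 : ∀ b : (hn B) ⁻¹' {n}, E ((τ : ℂ) * (((b : Fin 24 → ℤ) ⬝ᵥ (B *ᵥ (b : Fin 24 → ℤ)) : ℤ) : ℂ)) =
        (Function.Periodic.qParam 1 (τ : ℂ)) ^ n := by
      intro b
      have hb : hn B b = n := b.2
      rw [E_term B hpos heven, hb]
    rw [tsum_congr h4, tsum_const, rep, nsmul_eq_mul, smul_eq_mul]
  rw [h3]
  exact h2

include hsymm hpos in
theorem theta_diff : DifferentiableOn ℂ (theta B) {z : ℂ | 0 < z.im} := by
  intro z hz
  apply DifferentiableAt.differentiableWithinAt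
  have hz' : (0 : ℝ) < z.im := hz
  obtain ⟨q, hq, hx⟩ := exists_form B hsymm hpos
  set U : Set ℂ := {w : ℂ | z.im / 2 < w.im} with hU
  have hUo : IsOpen U := isOpen_lt continuous_const Complex.continuous_im
  have hu := sumQ q hq (t := Real.pi * (z.im / 2)) (by positivity) (fun _ => 0)
  have h := Complex.differentiableOn_tsum_of_summable_norm (F := fun (x : Fin 24 → ℤ) (w : ℂ) =>
    E (w * ((x ⬝ᵥ (B *ᵥ x) : ℤ) : ℂ))) hu (fun x => by
      unfold E
      fun_prop) hUo (fun x w hw => by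
      rw [norm_E]
      apply Real.exp_le_exp.mpr
      simp only [sub_zero]
      rw [(hx x).1]
      have h1 : (w * ((x ⬝ᵥ (B *ᵥ x) : ℤ) : ℂ)).im = w.im * ((x ⬝ᵥ (B *ᵥ x) : ℤ) : ℝ) := by
        simp [Complex.mul_im]
      rw [h1]
      have h2 : (0 : ℝ) ≤ ((x ⬝ᵥ (B *ᵥ x) : ℤ) : ℝ) := by
        by_cases h0 : x = 0
        · rw [h0]; simp
        · exact_mod_cast (hpos x h0).le
      have h3 : z.im / 2 ≤ w.im := le_of_lt hw
      have h4 := mul_le_mul_of_nonneg_right h3 h2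
      nlinarith [Real.pi_pos])
  exact (h.differentiableAt (hUo.mem_nhds (by show z.im / 2 < z.im; linarith)))

include hpos heven in
theorem theta_T (τ : ℂ) : theta B (τ + 1) = theta B τ := by
  unfold theta
  refine tsum_congr fun x => ?_
  rw [hn_eq B hpos heven]
  unfold E
  have : (Real.pi : ℂ) * Complex.I * ((τ + 1) * ((2 * (hn B x : ℤ) : ℤ) : ℂ)) =
      (Real.pi : ℂ) * Complex.I * (τ * ((2 * (hn B x : ℤ) : ℤ) : ℂ)) + (hn B x : ℤ) * (2 * Real.pi * Complex.I) := by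
    push_cast; ring
  rw [this, Complex.exp_add, Complex.exp_int_mul_two_pi_mul_I, mul_one]

noncomputable def thf (τ : ℍ) : ℂ := theta B τ

set_option backward.isDefEq.respectTransparency.types false in
include hpos heven in
theorem thf_T : (thf B ∣[(12 : ℤ)] ModularGroup.T) = thf B := by
  ext z
  rw [SL_slash_apply, denom, modular_T_smul, ModularGroup.T]
  unfold thf
  have h := theta_T B hpos heven (z : ℂ)
  simp
  rw [add_comm, h]

set_option backward.isDefEq.respectTransparency.types false in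
include hsymm hpos hdet in
theorem thf_S : (thf B ∣[(12 : ℤ)] ModularGroup.S) = thf B := by
  ext z
  have h := theta_S B hsymm hpos hdet (τ := (z : ℂ)) z.im_pos
  suffices theta B (-(↑z)⁻¹) * ((z : ℂ) ^ 12)⁻¹ = theta B z by
    rw [SL_slash_apply, UpperHalfPlane.modular_S_smul]
    simpa [denom, ModularGroup.S, thf]
  have e : (-(z : ℂ)⁻¹) = -1 / z := by rw [neg_div, one_div]
  rw [e, h]
  have hz : (z : ℂ) ≠ 0 := z.ne_zero
  field_simp

noncomputable def thetaForm : ModularForm 𝒮ℒ 12 where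
  toFun := thf B
  slash_action_eq' A hA := by
    obtain ⟨A, rfl⟩ := hA
    exact slash_action_generators_SL2Z (thf_S B hsymm hpos hdet) (thf_T B hpos heven) A
  holo' := by
    rw [UpperHalfPlane.mdifferentiable_iff]
    refine .congr (theta_diff B hsymm hpos) fun z hz ↦ ?_
    simp [thf, ofComplex_apply_of_im_pos hz]
  bdd_at_cusps' hc := by
    rw [Subgroup.IsArithmetic.isCusp_iff_isCusp_SL2Z] at hc
    rw [OnePoint.isBoundedAt_iff_forall_SL2Z hc]
    intro γ _
    rw [slash_action_generators_SL2Z (thf_S B hsymm hpos hdet) (thf_T B hpos heven)]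
    exact isBoundedAtImInfty_of_hasSum_qExpansion one_pos (theta_hasSum B hsymm hpos heven)

theorem thetaForm_coeff (m : ℕ) : (qExpansion 1 (thetaForm B hsymm hpos hdet heven)).coeff m = (rep B m : ℂ) :=
  by
  have h : ∀ τ : ℍ, HasSum (fun m : ℕ => (rep B m : ℂ) • (Function.Periodic.qParam 1 (τ : ℂ)) ^ m)
      ((thetaForm B hsymm hpos hdet heven) τ) := fun τ => theta_hasSum B hsymm hpos heven τ
  exact (ModularFormClass.qExpansion_coeff_unique one_pos one_mem_strictPeriods_SL h m).symm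

end

end CfsgLib.Th28
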