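import Mathlib
import Cfsg.Agent.LibTh28D

set_option autoImplicit false

/-! Comparison with Eisenstein series (helper28). -/

namespace CfsgLib.Th28

open Matrix UpperHalfPlane ModularForm SlashInvariantForm MatrixGroups EisensteinSeries

open scoped Topology

theorem sig3 : ArithmeticFunction.sigma 3 1 = 1 ∧ ArithmeticFunction.sigma 3 2 = 9 ∧
    ArithmeticFunction.sigma 3 3 = 28 ∧ ArithmeticFunction.sigma 3 4 = 73 := by
  refine ⟨?_, ?_, ?_, ?_⟩ <;> decide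

theorem sig5 : ArithmeticFunction.sigma 5 1 = 1 ∧ ArithmeticFunction.sigma 5 2 = 33 ∧
    ArithmeticFunction.sigma 5 3 = 244 ∧ ArithmeticFunction.sigma 5 4 = 1057 := by
  refine ⟨?_, ?_, ?_, ?_⟩ <;> decide

theorem c4 (m : ℕ) (hm : m ≠ 0) : (qExpansion 1 E₄).coeff m = 240 * (ArithmeticFunction.sigma 3 m : ℂ) := by
  rw [E_qExpansion_coeff _ ⟨2, rfl⟩, if_neg hm]
  norm_num [show bernoulli 4 = -1 / 30 by decide +kernel]

theorem c6 (m : ℕ) (hm : m ≠ 0) : (qExpansion 1 E₆).coeff m = -504 * (ArithmeticFunction.sigma 5 m : ℂ) := by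
  rw [E_qExpansion_coeff _ ⟨3, rfl⟩, if_neg hm]
  norm_num [show bernoulli 6 = 1 / 42 by decide +kernel]

theorem f4 : (qExpansion 1 E₄).coeff 0 = 1 ∧ (qExpansion 1 E₄).coeff 1 = 240 ∧ (qExpansion 1 E₄).coeff 2 = 2160 ∧
    (qExpansion 1 E₄).coeff 3 = 6720 ∧ (qExpansion 1 E₄).coeff 4 = 17520 := by
  obtain ⟨s1, s2, s3, s4⟩ := sig3
  refine ⟨E_qExpansion_coeff_zero _ ⟨2, rfl⟩, ?_, ?_, ?_, ?_⟩
  · rw [c4 1 (by norm_num), s1]; norm_num
  · rw [c4 2 (by norm_num), s2]; norm_num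
  · rw [c4 3 (by norm_num), s3]; norm_num
  · rw [c4 4 (by norm_num), s4]; norm_num

theorem f6 : (qExpansion 1 E₆).coeff 0 = 1 ∧ (qExpansion 1 E₆).coeff 1 = -504 ∧ (qExpansion 1 E₆).coeff 2 = -16632 ∧
    (qExpansion 1 E₆).coeff 3 = -122976 ∧ (qExpansion 1 E₆).coeff 4 = -532728 := by
  obtain ⟨s1, s2, s3, s4⟩ := sig5
  refine ⟨E_qExpansion_coeff_zero _ ⟨3, rfl⟩, ?_, ?_, ?_, ?_⟩
  · rw [c6 1 (by norm_num), s1]; norm_num
  · rw [c6 2 (by norm_num), s2]; norm_num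
  · rw [c6 3 (by norm_num), s3]; norm_num
  · rw [c6 4 (by norm_num), s4]; norm_num

noncomputable def A4 : ModularForm 𝒮ℒ 12 := ModularForm.mcast (by decide) (E₄.pow 3)
noncomputable def A6 : ModularForm 𝒮ℒ 12 := ModularForm.mcast (by decide) (E₆.pow 2)

theorem A4_q : qExpansion 1 A4 = qExpansion 1 E₄ * qExpansion 1 E₄ * qExpansion 1 E₄ := by
  simp only [A4, coe_mcast, ModularForm.qExpansion_pow one_pos one_mem_strictPeriods_SL]
  ring

theorem A6_q : qExpansion 1 A6 = qExpansion 1 E₆ * qExpansion 1 E₆ := by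
  simp only [A6, coe_mcast, ModularForm.qExpansion_pow one_pos one_mem_strictPeriods_SL]
  ring

/-- the combination of weight twelve -/
noncomputable def gForm : ModularForm 𝒮ℒ 12 := (7/12 : ℂ) • A4 + (5/12 : ℂ) • A6

theorem gForm_q : qExpansion 1 gForm = (7/12 : ℂ) • (qExpansion 1 E₄ * qExpansion 1 E₄ * qExpansion 1 E₄) +
    (5/12 : ℂ) • (qExpansion 1 E₆ * qExpansion 1 E₆) := by
  have e1 : qExpansion 1 gForm = qExpansion 1 ((7/12 : ℂ) • A4) + qExpansion 1 ((5/12 : ℂ) • A6) :=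
    ModularForm.qExpansion_add one_pos one_mem_strictPeriods_SL ((7/12 : ℂ) • A4) ((5/12 : ℂ) • A6)
  have e2 : qExpansion 1 ((7/12 : ℂ) • A4) = (7/12 : ℂ) • qExpansion 1 A4 :=
    ModularForm.qExpansion_smul one_pos one_mem_strictPeriods_SL (7/12 : ℂ) A4
  have e3 : qExpansion 1 ((5/12 : ℂ) • A6) = (5/12 : ℂ) • qExpansion 1 A6 :=
    ModularForm.qExpansion_smul one_pos one_mem_strictPeriods_SL (5/12 : ℂ) A6
  rw [e1, e2, e3, A4_q, A6_q]

end CfsgLib.Th28
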