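import Mathlib
import Cfsg.Agent.LibTh28E

set_option autoImplicit false

/-! The counts (helper28). -/

namespace CfsgLib.Th28

open Matrix UpperHalfPlane ModularForm SlashInvariantForm MatrixGroups EisensteinSeries

open scoped Topology

theorem g_coeffs : (qExpansion 1 gForm).coeff 0 = 1 ∧ (qExpansion 1 gForm).coeff 1 = 0 ∧
    (qExpansion 1 gForm).coeff 2 = 196560 ∧ (qExpansion 1 gForm).coeff 3 = 16773120 ∧
    (qExpansion 1 gForm).coeff 4 = 398034000 := by
  obtain ⟨a0, a1, a2, a3, a4⟩ := f4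
  obtain ⟨b0, b1, b2, b3, b4⟩ := f6
  rw [gForm_q]
  generalize qExpansion 1 E₄ = F at *
  generalize qExpansion 1 E₆ = H at *
  have h2 : (F * F).coeff 0 = 1 ∧ (F * F).coeff 1 = 480 ∧ (F * F).coeff 2 = 61920 ∧ (F * F).coeff 3 = 1050240 ∧
      (F * F).coeff 4 = 7926240 := by
    refine ⟨?_, ?_, ?_, ?_, ?_⟩ <;>
      rw [PowerSeries.coeff_mul] <;>
      simp only [Finset.Nat.antidiagonal_succ, Finset.Nat.antidiagonal_zero, Finset.sum_cons, Finset.sum_map,
        Finset.sum_singleton, Function.Embedding.coeFn_mk, Function.Embedding.prodMap, Prod.map,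
        Function.Embedding.refl_apply, Finset.map_cons, Finset.map_singleton] <;>
      norm_num [a0, a1, a2, a3, a4]
  obtain ⟨c0, c1, c2, c3, c4⟩ := h2
  have h3 : (F * F * F).coeff 0 = 1 ∧ (F * F * F).coeff 1 = 720 ∧ (F * F * F).coeff 2 = 179280 ∧
      (F * F * F).coeff 3 = 16954560 ∧ (F * F * F).coeff 4 = 396974160 := by
    refine ⟨?_, ?_, ?_, ?_, ?_⟩ <;>
      rw [PowerSeries.coeff_mul] <;>
      simp only [Finset.Nat.antidiagonal_succ, Finset.Nat.antidiagonal_zero, Finset.sum_cons, Finset.sum_map,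
        Finset.sum_singleton, Function.Embedding.coeFn_mk, Function.Embedding.prodMap, Prod.map,
        Function.Embedding.refl_apply, Finset.map_cons, Finset.map_singleton] <;>
      norm_num [a0, a1, a2, a3, a4, c0, c1, c2, c3, c4]
  have h6 : (H * H).coeff 0 = 1 ∧ (H * H).coeff 1 = -1008 ∧ (H * H).coeff 2 = 220752 ∧ (H * H).coeff 3 = 16519104 ∧
      (H * H).coeff 4 = 399517776 := by
    refine ⟨?_, ?_, ?_, ?_, ?_⟩ <;>
      rw [PowerSeries.coeff_mul] <;>
      simp only [Finset.Nat.antidiagonal_succ, Finset.Nat.antidiagonal_zero, Finset.sum_cons, Finset.sum_map,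
        Finset.sum_singleton, Function.Embedding.coeFn_mk, Function.Embedding.prodMap, Prod.map,
        Function.Embedding.refl_apply, Finset.map_cons, Finset.map_singleton] <;>
      norm_num [b0, b1, b2, b3, b4]
  obtain ⟨d0, d1, d2, d3, d4⟩ := h3
  obtain ⟨e0, e1, e2, e3, e4⟩ := h6
  have key : ∀ n, ((7/12 : ℂ) • (F * F * F) + (5/12 : ℂ) • (H * H)).coeff n =
      (7/12 : ℂ) * (F * F * F).coeff n + (5/12 : ℂ) * (H * H).coeff n := by
    intro n
    rw [map_add, PowerSeries.coeff_smul, PowerSeries.coeff_smul, smul_eq_mul, smul_eq_mul]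
  refine ⟨?_, ?_, ?_, ?_, ?_⟩
  · rw [key, d0, e0]; norm_num
  · rw [key, d1, e1]; norm_num
  · rw [key, d2, e2]; norm_num
  · rw [key, d3, e3]; norm_num
  · rw [key, d4, e4]; norm_num

section
variable (B : Matrix (Fin 24) (Fin 24) ℤ) (hsymm : B.IsSymm)
  (hpos : ∀ x : Fin 24 → ℤ, x ≠ 0 → 0 < x ⬝ᵥ (B *ᵥ x)) (hdet : B.det = 1)
  (heven : ∀ x : Fin 24 → ℤ, (2 : ℤ) ∣ x ⬝ᵥ (B *ᵥ x)) (h2 : ∀ x : Fin 24 → ℤ, x ⬝ᵥ (B *ᵥ x) ≠ 2)

include hpos heven in
theorem rep_eq (n : ℕ) : rep B n = {x : Fin 24 → ℤ | x ⬝ᵥ (B *ᵥ x) = 2 * (n : ℤ)}.ncard := by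
  unfold rep
  rw [Nat.card_coe_set_eq]
  congr 1
  ext x
  simp only [Set.mem_preimage, Set.mem_singleton_iff, Set.mem_setOf_eq]
  rw [hn_eq B hpos heven]
  constructor
  · intro h; rw [h]
  · intro h; exact_mod_cast (by linarith : (hn B x : ℤ) = n)

include hpos heven in
theorem rep_zero : rep B 0 = 1 := by
  rw [rep_eq B hpos heven]
  have : {x : Fin 24 → ℤ | x ⬝ᵥ (B *ᵥ x) = 2 * ((0 : ℕ) : ℤ)} = {0} := by
    ext x
    simp only [Set.mem_setOf_eq, Set.mem_singleton_iff]
    constructor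
    · intro h
      by_contra hx
      have := hpos x hx
      rw [h] at this
      norm_num at this
    · rintro rfl; simp
  rw [this, Set.ncard_singleton]

include hpos heven h2 in
theorem rep_one : rep B 1 = 0 := by
  rw [rep_eq B hpos heven]
  have : {x : Fin 24 → ℤ | x ⬝ᵥ (B *ᵥ x) = 2 * ((1 : ℕ) : ℤ)} = ∅ := by
    ext x
    simp only [Set.mem_setOf_eq, Set.mem_empty_iff_false, iff_false]
    intro h
    exact h2 x (by rw [h]; norm_num)
  rw [this, Set.ncard_empty]

include h2 in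
theorem main : qExpansion 1 (thetaForm B hsymm hpos hdet heven) = qExpansion 1 gForm := by
  obtain ⟨g0, g1, -⟩ := g_coeffs
  have hq : qExpansion 1 (thetaForm B hsymm hpos hdet heven - gForm) =
      qExpansion 1 (thetaForm B hsymm hpos hdet heven) - qExpansion 1 gForm :=
    ModularForm.qExpansion_sub one_pos one_mem_strictPeriods_SL (thetaForm B hsymm hpos hdet heven) gForm
  have hq' : (qExpansion 1 ((thetaForm B hsymm hpos hdet heven - gForm : ModularForm 𝒮ℒ 12))) =
      qExpansion 1 (thetaForm B hsymm hpos hdet heven) - qExpansion 1 gForm := hq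
  have hz : (thetaForm B hsymm hpos hdet heven - gForm : ModularForm 𝒮ℒ 12) = 0 := by
    apply sturm_bound_levelOne
    have h1 : ((2 : ℕ) : ℕ∞) ≤ (qExpansion 1 ((thetaForm B hsymm hpos hdet heven - gForm : ModularForm 𝒮ℒ 12))).order := by
      apply PowerSeries.nat_le_order
      intro i hi
      rw [hq', map_sub, thetaForm_coeff]
      interval_cases i
      · rw [rep_zero B hpos heven, g0]; norm_num
      · rw [rep_one B hpos heven h2, g1]; norm_num
    refine lt_of_lt_of_le ?_ h1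
    norm_num
    decide
  rw [hz] at hq'
  have h0 : qExpansion 1 ((0 : ModularForm 𝒮ℒ 12)) = 0 := by
    rw [ModularForm.qExpansion_eq_zero_iff one_pos one_mem_strictPeriods_SL]
  rw [h0] at hq'
  exact (sub_eq_zero.mp hq'.symm)

include hsymm hpos hdet heven h2 in
theorem counts : {x : Fin 24 → ℤ | x ⬝ᵥ (B *ᵥ x) = 4}.ncard = 196560 ∧
    {x : Fin 24 → ℤ | x ⬝ᵥ (B *ᵥ x) = 6}.ncard = 16773120 ∧
    {x : Fin 24 → ℤ | x ⬝ᵥ (B *ᵥ x) = 8}.ncard = 398034000 := by
  obtain ⟨-, -, g2, g3, g4⟩ := g_coeffs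
  have hm := main B hsymm hpos hdet heven h2
  have key : ∀ n : ℕ, (rep B n : ℂ) = (qExpansion 1 gForm).coeff n := by
    intro n
    rw [← hm, thetaForm_coeff]
  have k2 := key 2
  have k3 := key 3
  have k4 := key 4
  rw [g2] at k2
  rw [g3] at k3
  rw [g4] at k4
  have r2 : rep B 2 = 196560 := by exact_mod_cast k2
  have r3 : rep B 3 = 16773120 := by exact_mod_cast k3
  have r4 : rep B 4 = 398034000 := by exact_mod_cast k4
  rw [rep_eq B hpos heven] at r2 r3 r4
  norm_num at r2 r3 r4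
  exact ⟨r2, r3, r4⟩

end

end CfsgLib.Th28
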