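import Cfsg.Agent.LibDec29e
import Cfsg.Agent.LibInvo29g

/-! Eigenspaces of Kronecker products (seat helper29). -/

namespace CfsgLib.Tn29

open Module Cfsg CfsgLib.Semi29 CfsgLib.Dec29 CfsgLib.Sp29
open scoped Kronecker

variable {F : Type*} [Field F]

/-- eigenspace -/
def Eg {V : Type*} [AddCommGroup V] [Module F V] (L : V →ₗ[F] V) (z : F) : Submodule F V := LinearMap.ker (L - z • (LinearMap.id : V →ₗ[F] V))

lemma mem_Eg {V : Type*} [AddCommGroup V] [Module F V] {L : V →ₗ[F] V} {z : F} {u : V} : u ∈ Eg L z ↔ L u = z • u := by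
  show (L - z • (LinearMap.id : V →ₗ[F] V)) u = 0 ↔ _
  rw [LinearMap.sub_apply, LinearMap.smul_apply, LinearMap.id_apply, sub_eq_zero]

lemma Eg_one {V : Type*} [AddCommGroup V] [Module F V] (L : V →ₗ[F] V) : Eg L 1 = Fx L := by
  ext u
  rw [mem_Eg, mem_Fx, one_smul]

lemma Eg_conj {V W : Type*} [AddCommGroup V] [Module F V] [AddCommGroup W] [Module F W] (E : W ≃ₗ[F] V) (L : V →ₗ[F] V) (M : W →ₗ[F] W)
    (h : ∀ w, L (E w) = E (M w)) (z : F) : finrank F (Eg L z) = finrank F (Eg M z) := by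
  have h1 : (Eg M z).map E.toLinearMap = Eg L z := by
    ext v
    constructor
    · rintro ⟨w, hw, rfl⟩
      rw [mem_Eg]
      show L (E w) = z • E w
      rw [h, mem_Eg.1 hw, map_smul]
    · intro hv
      refine ⟨E.symm v, ?_, ?_⟩
      · refine mem_Eg.2 ?_
        apply E.injective
        rw [← h, E.apply_symm_apply, mem_Eg.1 hv, map_smul, E.apply_symm_apply]
      · exact E.apply_symm_apply v
  rw [← h1]
  exact (Submodule.equivMapOfInjective E.toLinearMap E.injective _).finrank_eq.symm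

variable {a b : ℕ}

/-- pure tensors -/
def ts (u : Fin a → F) (v : Fin b → F) : Fin a × Fin b → F := fun p => u p.1 * v p.2

lemma kron_ts (A : Matrix (Fin a) (Fin a) F) (B : Matrix (Fin b) (Fin b) F) (u : Fin a → F) (v : Fin b → F) :
    (A ⊗ₖ B).mulVec (ts u v) = ts (A.mulVec u) (B.mulVec v) := by
  funext p
  show ∑ q : Fin a × Fin b, (A ⊗ₖ B) p q * ts u v q = (∑ i, A p.1 i * u i) * (∑ j, B p.2 j * v j)
  rw [Fintype.sum_prod_type, Finset.sum_mul_sum]
  refine Finset.sum_congr rfl fun i _ => Finset.sum_congr rfl fun j _ => ?_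
  show A p.1 i * B p.2 j * (u i * v j) = _
  ring

/-- tensoring with a fixed vector -/
def tl (u : Fin a → F) : (Fin b → F) →ₗ[F] (Fin a × Fin b → F) where
  toFun v := ts u v
  map_add' x y := by funext p; simp [ts, mul_add]
  map_smul' c x := by funext p; simp only [ts, Pi.smul_apply, smul_eq_mul, RingHom.id_apply]; ring

lemma tl_inj {u : Fin a → F} (hu : u ≠ 0) : Function.Injective (tl u : (Fin b → F) →ₗ[F] _) := by
  obtain ⟨i, hi⟩ := Function.ne_iff.1 hu
  intro x y hxy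
  funext j
  have h1 : u i * x j = u i * y j := congrFun hxy (i, j)
  exact mul_left_cancel₀ hi h1

theorem scalar_left (A : GL (Fin a) F) (B : GL (Fin b) F) (z : F)
    (h : a * b < finrank F (Eg (Matrix.toLin' ((A : Matrix (Fin a) (Fin a) F) ⊗ₖ (B : Matrix (Fin b) (Fin b) F))) z) + b) :
    ∃ c : F, (A : Matrix (Fin a) (Fin a) F) = c • (1 : Matrix (Fin a) (Fin a) F) := by
  have key : ∀ u ∈ (⊤ : Submodule F (Fin a → F)), Matrix.toLin' (A : Matrix (Fin a) (Fin a) F) u ∈ Submodule.span F {u} := by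
    intro u _
    by_cases hu : u = 0
    · rw [hu, map_zero]; exact Submodule.zero_mem _
    have hr : finrank F (LinearMap.range (tl u : (Fin b → F) →ₗ[F] (Fin a × Fin b → F))) = b := by
      rw [LinearMap.finrank_range_of_inj (tl_inj hu), Module.finrank_fin_fun]
    have h1 := Submodule.finrank_sup_add_finrank_inf_eq (LinearMap.range (tl u : (Fin b → F) →ₗ[F] (Fin a × Fin b → F)))
      (Eg (Matrix.toLin' ((A : Matrix (Fin a) (Fin a) F) ⊗ₖ (B : Matrix (Fin b) (Fin b) F))) z)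
    have h2 := Submodule.finrank_le ((LinearMap.range (tl u : (Fin b → F) →ₗ[F] (Fin a × Fin b → F))) ⊔
      (Eg (Matrix.toLin' ((A : Matrix (Fin a) (Fin a) F) ⊗ₖ (B : Matrix (Fin b) (Fin b) F))) z))
    rw [Module.finrank_fintype_fun_eq_card, Fintype.card_prod, Fintype.card_fin, Fintype.card_fin] at h2
    rw [hr] at h1
    have h3 : (LinearMap.range (tl u : (Fin b → F) →ₗ[F] (Fin a × Fin b → F))) ⊓
      (Eg (Matrix.toLin' ((A : Matrix (Fin a) (Fin a) F) ⊗ₖ (B : Matrix (Fin b) (Fin b) F))) z) ≠ ⊥ := by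
      intro h4
      rw [h4, finrank_bot] at h1
      omega
    obtain ⟨_, ⟨⟨v, rfl⟩, hv⟩, hv0⟩ := (Submodule.ne_bot_iff _).1 h3
    have h4 : (Matrix.toLin' ((A : Matrix (Fin a) (Fin a) F) ⊗ₖ (B : Matrix (Fin b) (Fin b) F))) (ts u v) = z • ts u v := mem_Eg.1 hv
    rw [Matrix.toLin'_apply, kron_ts] at h4
    have hvne : v ≠ 0 := by
      rintro rfl
      exact hv0 (map_zero _)
    have hBv : (B : Matrix (Fin b) (Fin b) F).mulVec v ≠ 0 := by
      intro h5
      apply hvne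
      have h6 := congrArg (fun w => ((B⁻¹ : GL (Fin b) F) : Matrix (Fin b) (Fin b) F).mulVec w) h5
      simp only [Matrix.mulVec_mulVec, Matrix.mulVec_zero] at h6
      rwa [Units.inv_mul, Matrix.one_mulVec] at h6
    obtain ⟨j, hj⟩ := Function.ne_iff.1 hBv
    have hj : (B : Matrix (Fin b) (Fin b) F).mulVec v j ≠ 0 := hj
    rw [Submodule.mem_span_singleton]
    refine ⟨z * v j / (B : Matrix (Fin b) (Fin b) F).mulVec v j, ?_⟩
    funext i
    have h5 : (A : Matrix (Fin a) (Fin a) F).mulVec u i * (B : Matrix (Fin b) (Fin b) F).mulVec v j = z * (u i * v j) := congrFun h4 (i, j)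
    rw [Matrix.toLin'_apply, Pi.smul_apply, smul_eq_mul, div_mul_eq_mul_div, div_eq_iff hj, h5]
    ring
  obtain ⟨c, hc⟩ := CfsgLib.Invo29.scalar_on _ _ key
  refine ⟨c, ?_⟩
  apply Matrix.toLin'.injective
  apply LinearMap.ext
  intro u
  rw [hc u trivial, Matrix.toLin'_apply, Matrix.smul_mulVec, Matrix.one_mulVec]

/-- eigenspaces of `1 ⊗ B` -/
theorem Eg_right (c : F) (B : Matrix (Fin b) (Fin b) F) (z : F) :
    finrank F (Eg (Matrix.toLin' ((c • (1 : Matrix (Fin a) (Fin a) F)) ⊗ₖ B)) z) = a * finrank F (Eg (Matrix.toLin' (c • B)) z) := by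
  have hrow : ∀ (w : Fin a × Fin b → F) (i : Fin a) (j : Fin b), ((c • (1 : Matrix (Fin a) (Fin a) F)) ⊗ₖ B).mulVec w (i, j) = (c • B).mulVec (fun j => w (i, j)) j := by
    intro w i j
    show ∑ q : Fin a × Fin b, ((c • (1 : Matrix (Fin a) (Fin a) F)) ⊗ₖ B) (i, j) q * w q = ∑ j', (c • B) j j' * w (i, j')
    rw [Fintype.sum_prod_type, Finset.sum_eq_single i]
    · refine Finset.sum_congr rfl fun j' _ => ?_
      show (c • (1 : Matrix (Fin a) (Fin a) F)) i i * B j j' * w (i, j') = _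
      simp
    · intro i' _ hi'
      refine Finset.sum_eq_zero fun j' _ => ?_
      show (c • (1 : Matrix (Fin a) (Fin a) F)) i i' * B j j' * w (i', j') = _
      rw [Matrix.smul_apply, Matrix.one_apply_ne hi'.symm, smul_zero, zero_mul, zero_mul]
    · intro h; exact absurd (Finset.mem_univ _) h
  have hmem : ∀ w : Fin a × Fin b → F, w ∈ Eg (Matrix.toLin' ((c • (1 : Matrix (Fin a) (Fin a) F)) ⊗ₖ B)) z ↔ ∀ i, (fun j => w (i, j)) ∈ Eg (Matrix.toLin' (c • B)) z := by
    intro w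
    constructor
    · intro h i
      rw [mem_Eg, Matrix.toLin'_apply]
      funext j
      rw [← hrow]
      have h1 := mem_Eg.1 h
      rw [Matrix.toLin'_apply] at h1
      rw [h1]; rfl
    · intro h
      rw [mem_Eg, Matrix.toLin'_apply]
      funext p
      obtain ⟨i, j⟩ := p
      rw [hrow]
      have h1 := mem_Eg.1 (h i)
      rw [Matrix.toLin'_apply] at h1
      rw [h1]; rfl
  let E : Eg (Matrix.toLin' ((c • (1 : Matrix (Fin a) (Fin a) F)) ⊗ₖ B)) z ≃ₗ[F] (Fin a → Eg (Matrix.toLin' (c • B)) z) :=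
    { toFun := fun w i => ⟨fun j => (w : Fin a × Fin b → F) (i, j), (hmem _).1 w.2 i⟩
      map_add' := fun x y => rfl
      map_smul' := fun r x => rfl
      invFun := fun g => ⟨fun p => (g p.1 : Fin b → F) p.2, (hmem _).2 fun i => (g i).2⟩
      left_inv := fun w => rfl
      right_inv := fun g => rfl }
  rw [E.finrank_eq, Module.finrank_pi_fintype]
  simp

/-- coordinates for elements of the tensor product subgroup -/
theorem coords {n : ℕ} {e : Fin n ≃ Fin a × Fin b} {P x g : GL (Fin n) F} (h : g⁻¹ * x * g ∈ Geo.tensorProductSubgroup a b e P) :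
    ∃ (A : GL (Fin a) F) (B : GL (Fin b) F) (E : (Fin a × Fin b → F) ≃ₗ[F] (Fin n → F)),
      ∀ w, Matrix.toLin' (x : Matrix (Fin n) (Fin n) F) (E w) = E (Matrix.toLin' ((A : Matrix (Fin a) (Fin a) F) ⊗ₖ (B : Matrix (Fin b) (Fin b) F)) w) := by
  obtain ⟨_, ⟨k, ⟨A, B, hk⟩, rfl⟩, h1⟩ := h
  have h2 : P * (Geo.glReindex e.symm k) * P⁻¹ = g⁻¹ * x * g := h1
  have h3 : x * (g * P) = (g * P) * Geo.glReindex e.symm k := by
    have : Geo.glReindex e.symm k = P⁻¹ * (g⁻¹ * x * g) * P := by rw [← h2]; group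
    rw [this]; group
  let E1 : (Fin n → F) ≃ₗ[F] (Fin n → F) := LinearEquiv.ofInjectiveEndo (Matrix.toLin' ((g * P : GL (Fin n) F) : Matrix (Fin n) (Fin n) F)) (by
    refine Function.LeftInverse.injective (g := Matrix.toLin' (((g * P)⁻¹ : GL (Fin n) F) : Matrix (Fin n) (Fin n) F)) ?_
    intro v
    rw [← Matrix.toLin'_mul_apply, Units.inv_mul, Matrix.toLin'_one]; rfl)
  let E2 : (Fin a × Fin b → F) ≃ₗ[F] (Fin n → F) := LinearEquiv.funCongrLeft F F e
  refine ⟨A, B, E2.trans E1, ?_⟩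
  intro w
  have hE1 : ∀ v, E1 v = Matrix.toLin' ((g * P : GL (Fin n) F) : Matrix (Fin n) (Fin n) F) v := fun v => rfl
  have hE2 : ∀ v, E2 v = v ∘ e := fun v => rfl
  rw [LinearEquiv.trans_apply, LinearEquiv.trans_apply, hE1, hE1, ← Matrix.toLin'_mul_apply, ← Units.val_mul, h3, Units.val_mul, Matrix.toLin'_mul_apply]
  congr 1
  rw [hE2, hE2, Matrix.toLin'_apply, Matrix.toLin'_apply, ← hk]
  show (Matrix.reindex e.symm e.symm (k : Matrix (Fin a × Fin b) (Fin a × Fin b) F)).mulVec (w ∘ e) = _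
  rw [Matrix.reindex_apply, Matrix.submatrix_mulVec_equiv]
  congr 1
  congr 1
  funext p
  simp

end CfsgLib.Tn29
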