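import Cfsg.Agent.LibTn29a
import Cfsg.Agent.LibQ29c

/-! Derangements for tensor product subgroups (seat helper29). -/

namespace CfsgLib.Tn29

open Module Cfsg CfsgLib.Semi29 CfsgLib.Dec29 CfsgLib.Sp29
open scoped Kronecker

variable {F : Type*} [Field F] {n a b : ℕ}

/-- fixed point property -/
def FP (T : Subgroup (GL (Fin n) F)) (r : ℕ) : Prop :=
  ∀ x ∈ Geo.specialLinear (Fin n) F, (∃ z : F, ((x ^ r : GL (Fin n) F) : Matrix (Fin n) (Fin n) F) = z • (1 : Matrix (Fin n) (Fin n) F)) →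
      (∀ z : F, (x : Matrix (Fin n) (Fin n) F) ≠ z • (1 : Matrix (Fin n) (Fin n) F)) →
      ∃ g ∈ Geo.specialLinear (Fin n) F, g⁻¹ * x * g ∈ T

theorem div_of (hab : n = a * b) {e : Fin n ≃ Fin a × Fin b} {P x g : GL (Fin n) F} (h : g⁻¹ * x * g ∈ Geo.tensorProductSubgroup a b e P)
    (z1 : F) (h1 : n < finrank F (Eg (Matrix.toLin' (x : Matrix (Fin n) (Fin n) F)) z1) + b) (z : F) :
    a ∣ finrank F (Eg (Matrix.toLin' (x : Matrix (Fin n) (Fin n) F)) z) := by
  obtain ⟨A, B, E, hE⟩ := coords h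
  rw [Eg_conj E _ _ hE] at h1 ⊢
  obtain ⟨c, hc⟩ := scalar_left A B z1 (by rw [← hab]; exact h1)
  rw [hc, Eg_right]
  exact dvd_mul_right _ _

/-- nonscalar from an eigenspace -/
lemma ns_of {x : GL (Fin n) F} (z1 : F) (h0 : finrank F (Eg (Matrix.toLin' (x : Matrix (Fin n) (Fin n) F)) z1) ≠ 0)
    (hn : finrank F (Eg (Matrix.toLin' (x : Matrix (Fin n) (Fin n) F)) z1) ≠ n) : ∀ z : F, (x : Matrix (Fin n) (Fin n) F) ≠ z • (1 : Matrix (Fin n) (Fin n) F) := by
  intro z hz
  have h1 : ∀ u, Matrix.toLin' (x : Matrix (Fin n) (Fin n) F) u = z • u := by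
    intro u
    rw [hz, Matrix.toLin'_apply, Matrix.smul_mulVec, Matrix.one_mulVec]
  have h2 : Eg (Matrix.toLin' (x : Matrix (Fin n) (Fin n) F)) z1 ≠ ⊥ := by
    intro h3
    rw [h3, finrank_bot] at h0
    exact h0 rfl
  obtain ⟨u, hu, hu0⟩ := (Submodule.ne_bot_iff _).1 h2
  have h3 := mem_Eg.1 hu
  rw [h1] at h3
  have h4 : z = z1 := by
    have h5 : (z - z1) • u = 0 := by rw [sub_smul, h3, sub_self]
    exact sub_eq_zero.1 ((smul_eq_zero.1 h5).resolve_right hu0)
  have h5 : Eg (Matrix.toLin' (x : Matrix (Fin n) (Fin n) F)) z1 = ⊤ := by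
    rw [eq_top_iff]
    intro w _
    rw [mem_Eg, h1, h4]
  apply hn
  rw [h5, finrank_top, Module.finrank_fin_fun]

theorem case_p {p : ℕ} [Fact p.Prime] [CharP F p] (hab : n = a * b) (ha : 2 ≤ a) (hb : 3 ≤ b) {e : Fin n ≃ Fin a × Fin b} {P : GL (Fin n) F} :
    ¬ FP (Geo.tensorProductSubgroup a b e P) p := by
  classical
  intro H
  have hn : 6 ≤ n := by rw [hab]; nlinarith
  obtain ⟨i0, hi0⟩ : ∃ i : Fin n, i = ⟨0, by omega⟩ := ⟨_, rfl⟩
  obtain ⟨i1, hi1⟩ : ∃ i : Fin n, i = ⟨1, by omega⟩ := ⟨_, rfl⟩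
  have h01 : i0 ≠ i1 := by
    rw [hi0, hi1]; intro h
    have h2 := congrArg Fin.val h
    exact absurd h2 (by norm_num)
  have hdet : ∀ c : F, (Matrix.transvection i0 i1 c).det = 1 := fun c => Matrix.det_transvection_of_ne i0 i1 h01 c
  let x : GL (Fin n) F := Matrix.GeneralLinearGroup.mkOfDetNeZero (Matrix.transvection i0 i1 1) (by rw [hdet]; exact one_ne_zero)
  have hx : (x : Matrix (Fin n) (Fin n) F) = Matrix.transvection i0 i1 1 := rfl
  have hpow : ∀ k : ℕ, (Matrix.transvection i0 i1 (1 : F)) ^ k = Matrix.transvection i0 i1 (k : F) := by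
    intro k
    induction k with
    | zero => rw [pow_zero, Nat.cast_zero, Matrix.transvection_zero]
    | succ k ih => rw [pow_succ, ih, Matrix.transvection_mul_transvection_same _ _ h01]; congr 1; push_cast; ring
  have hker : Eg (Matrix.toLin' (x : Matrix (Fin n) (Fin n) F)) 1 = LinearMap.ker (LinearMap.proj i1 : (Fin n → F) →ₗ[F] F) := by
    ext u
    rw [mem_Eg, one_smul, Matrix.toLin'_apply, hx, Matrix.transvection, Matrix.add_mulVec, Matrix.one_mulVec, LinearMap.mem_ker, LinearMap.proj_apply]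
    have h1 : (Matrix.single i0 i1 (1 : F)).mulVec u = Pi.single i0 (u i1) := by
      funext k
      rw [Matrix.mulVec, dotProduct, Finset.sum_eq_single i1]
      · by_cases hk : k = i0
        · subst hk; simp
        · rw [Matrix.single_apply_of_row_ne (Ne.symm hk), zero_mul, Pi.single_eq_of_ne hk]
      · intro j _ hj
        rw [Matrix.single_apply_of_col_ne _ _ (Ne.symm hj), zero_mul]
      · intro h; exact absurd (Finset.mem_univ _) h
    rw [h1]
    constructor
    · intro h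
      have h2 := congrFun h i0
      simpa using h2
    · intro h
      rw [h, Pi.single_zero, add_zero]
  have hdim : finrank F (Eg (Matrix.toLin' (x : Matrix (Fin n) (Fin n) F)) 1) + 1 = n := by
    rw [hker]
    have h1 := LinearMap.finrank_range_add_finrank_ker (LinearMap.proj i1 : (Fin n → F) →ₗ[F] F)
    rw [LinearMap.range_eq_top.2 (LinearMap.proj_surjective i1), finrank_top, Module.finrank_self, Module.finrank_fin_fun] at h1
    omega
  obtain ⟨g, -, hg⟩ := H x (by rw [CfsgLib.Q29.mem_SL, hx, hdet]) ⟨1, by rw [Units.val_pow_eq_pow_val, hx, hpow, CharP.cast_eq_zero, Matrix.transvection_zero, one_smul]⟩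
    (ns_of 1 (by omega) (by omega))
  have h1 := div_of hab hg 1 (by omega) 1
  have h2 : a ∣ n := ⟨b, hab⟩
  rw [← hdim] at h2
  have h3 := Nat.le_of_dvd one_pos ((Nat.dvd_add_right h1).1 h2)
  omega

lemma diag_dim (d : Fin n → F) (x : GL (Fin n) F) (hx : (x : Matrix (Fin n) (Fin n) F) = Matrix.diagonal d) (ν : F) (S : Finset (Fin n)) (hS : ∀ i, i ∈ S ↔ d i ≠ ν) :
    finrank F (Eg (Matrix.toLin' (x : Matrix (Fin n) (Fin n) F)) ν) + S.card = n := by
  classical
  obtain ⟨W, hW, hWc⟩ := diag_eig d ν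
  have h1 : Eg (Matrix.toLin' (x : Matrix (Fin n) (Fin n) F)) ν = W := by
    ext u
    rw [mem_Eg, hW, hx]
  rw [h1]
  have h2 : Fintype.card {i : Fin n // d i - ν ≠ 0} = S.card := by
    rw [Fintype.card_subtype]
    congr 1
    ext i
    rw [Finset.mem_filter, hS, sub_ne_zero]
    simp
  omega

theorem case_lin [Fintype F] {r : ℕ} [hr : Fact r.Prime] (hab : n = a * b) (ha : 2 ≤ a) (hb : 3 ≤ b) {e : Fin n ≃ Fin a × Fin b} {P : GL (Fin n) F}
    (hd : r ∣ Fintype.card F - 1) (hcase : r ≠ 2 ∨ 3 ≤ a) : ¬ FP (Geo.tensorProductSubgroup a b e P) r := by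
  classical
  intro H
  have hn : 6 ≤ n := by rw [hab]; nlinarith
  obtain ⟨ω, hω0, hωr, hωk⟩ := exists_prim (F := F) hr.out hd
  obtain ⟨i0, hi0⟩ : ∃ i : Fin n, i = ⟨0, by omega⟩ := ⟨_, rfl⟩
  obtain ⟨i1, hi1⟩ : ∃ i : Fin n, i = ⟨1, by omega⟩ := ⟨_, rfl⟩
  have h01 : i0 ≠ i1 := by
    rw [hi0, hi1]; intro h
    have h2 := congrArg Fin.val h
    exact absurd h2 (by norm_num)
  obtain ⟨d, hdd⟩ : ∃ d : Fin n → F, d = fun i => if i = i0 then ω else if i = i1 then ω⁻¹ else 1 := ⟨_, rfl⟩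
  have hd0 : d i0 = ω := by rw [hdd]; simp
  have hd1 : d i1 = ω⁻¹ := by rw [hdd]; simp [h01.symm]
  have hd2 : ∀ i, i ≠ i0 → i ≠ i1 → d i = 1 := fun i h0 h1 => by rw [hdd]; simp [h0, h1]
  have hω1 : ω ≠ 1 := by
    intro h1
    have h6 := Nat.le_of_dvd (by norm_num) (hωk 1 (by rw [pow_one, h1]))
    have h7 := hr.out.two_le
    omega
  have hdr : ∀ i, d i ^ r = 1 := by
    intro i
    by_cases h0 : i = i0
    · rw [h0, hd0, hωr]
    by_cases h1 : i = i1
    · rw [h1, hd1, inv_pow, hωr, inv_one]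
    rw [hd2 i h0 h1, one_pow]
  have hprod : ∏ i, d i = 1 := by
    rw [Finset.prod_eq_mul i0 i1 h01 (fun c _ hc => hd2 c hc.1 hc.2) (fun h => absurd (Finset.mem_univ _) h) (fun h => absurd (Finset.mem_univ _) h), hd0, hd1, mul_inv_cancel₀ hω0]
  let x : GL (Fin n) F := Matrix.GeneralLinearGroup.mkOfDetNeZero (Matrix.diagonal d) (by rw [Matrix.det_diagonal, hprod]; exact one_ne_zero)
  have hx : (x : Matrix (Fin n) (Fin n) F) = Matrix.diagonal d := rfl
  have hdim1 := diag_dim d x hx 1 {i0, i1} (by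
    intro i
    rw [Finset.mem_insert, Finset.mem_singleton]
    constructor
    · rintro (rfl | rfl)
      · rw [hd0]; exact hω1
      · rw [hd1]; exact fun h => hω1 (inv_eq_one.1 h)
    · intro h
      by_contra hcon
      push Not at hcon
      exact h (hd2 i hcon.1 hcon.2))
  rw [Finset.card_pair h01] at hdim1
  obtain ⟨g, -, hg⟩ := H x (by rw [CfsgLib.Q29.mem_SL, hx, Matrix.det_diagonal, hprod]) ⟨1, by rw [Units.val_pow_eq_pow_val, hx, diag_pow d 1 hdr]⟩
    (ns_of 1 (by omega) (by omega))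
  rcases hcase with hr2 | ha3
  · have hdim2 := diag_dim d x hx ω {i0}ᶜ (by
      intro i
      rw [Finset.mem_compl, Finset.mem_singleton]
      constructor
      · intro h0 h4
        by_cases h1 : i = i1
        · rw [h1, hd1] at h4
          have h5 : ω ^ 2 = 1 := by
            rw [pow_two]
            nth_rewrite 1 [← h4]
            rw [inv_mul_cancel₀ hω0]
          have h6 := Nat.le_of_dvd (by norm_num) (hωk 2 h5)
          have h7 := hr.out.two_le
          omega
        · rw [hd2 i h0 h1] at h4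
          exact hω1 h4.symm
      · rintro h rfl
        exact h hd0)
    rw [Finset.card_compl, Finset.card_singleton, Fintype.card_fin] at hdim2
    have h1 := div_of hab hg 1 (by omega) ω
    have h2 : finrank F (Eg (Matrix.toLin' (x : Matrix (Fin n) (Fin n) F)) ω) = 1 := by omega
    rw [h2] at h1
    have h3 := Nat.le_of_dvd one_pos h1
    omega
  · have h1 := div_of hab hg 1 (by omega) 1
    have h2 : a ∣ n := ⟨b, hab⟩
    rw [← hdim1] at h2
    have h3 := Nat.le_of_dvd two_pos ((Nat.dvd_add_right h1).1 h2)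
    omega

theorem case_two [Fintype F] {p : ℕ} [Fact p.Prime] [CharP F p] (hab : n = a * b) (ha : a = 2) (hb : 3 ≤ b) {e : Fin n ≃ Fin a × Fin b} {P : GL (Fin n) F}
    (h2 : (2 : F) ≠ 0) (hv : ¬ padicValNat 2 (Fintype.card F - 1) ≤ padicValNat 2 n) : ¬ FP (Geo.tensorProductSubgroup a b e P) 2 := by
  classical
  intro H
  haveI : Fact (Nat.Prime 2) := ⟨Nat.prime_two⟩
  have hn : 6 ≤ n := by rw [hab, ha]; omega
  obtain ⟨Q, hQd⟩ : ∃ Q, Q = Fintype.card F - 1 := ⟨_, rfl⟩
  rw [← hQd] at hv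
  have hQ0 : 0 < Q := by
    have h1 := Fintype.one_lt_card (α := F)
    omega
  obtain ⟨g, hg⟩ := IsCyclic.exists_generator (α := Fˣ)
  have hog : orderOf g = Q := by
    rw [orderOf_eq_card_of_forall_mem_zpowers hg, Nat.card_eq_fintype_card, Fintype.card_units, hQd]
  obtain ⟨k, hk⟩ : ∃ k, k = padicValNat 2 n := ⟨_, rfl⟩
  rw [← hk] at hv
  have hd : 2 ^ (k + 1) ∣ Q := (padicValNat_dvd_iff_le (by omega)).2 (by omega)
  obtain ⟨s, hs⟩ := hd
  obtain ⟨n', hn'⟩ : 2 ^ k ∣ n := by rw [hk]; exact pow_padicValNat_dvd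
  have hn'o : Odd n' := by
    rw [← Nat.not_even_iff_odd]
    intro he
    obtain ⟨t, ht⟩ := he.two_dvd
    have h3 : 2 ^ (k + 1) ∣ n := ⟨t, by rw [hn', ht, pow_succ]; ring⟩
    have h4 := (padicValNat_dvd_iff_le (p := 2) (by omega : n ≠ 0)).1 h3
    omega
  have hs0 : 0 < s := by
    rcases Nat.eq_zero_or_pos s with h3 | h3
    · rw [h3] at hs; omega
    · exact h3
  obtain ⟨w, hw⟩ : ∃ w : Fˣ, w = g ^ s := ⟨_, rfl⟩
  have hw1 : w ^ (2 ^ k) ≠ 1 := by
    intro h3
    rw [hw, ← pow_mul] at h3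
    have h4 := Nat.le_of_dvd (by positivity) (orderOf_dvd_of_pow_eq_one h3)
    rw [hog, hs] at h4
    have h5 : 2 ^ (k + 1) * s = s * 2 ^ k + s * 2 ^ k := by rw [pow_succ]; ring
    rw [h5] at h4
    have h6 : 0 < s * 2 ^ k := by positivity
    omega
  have hw2 : (w ^ (2 ^ k)) ^ 2 = 1 := by
    rw [← pow_mul, ← pow_succ, hw, ← pow_mul]
    have : s * 2 ^ (k + 1) = orderOf g := by rw [hog, hs]; ring
    rw [this, pow_orderOf_eq_one]
  have hw3 : ((w : F) ^ (2 ^ k)) = -1 := by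
    have h3 : ((w : F) ^ (2 ^ k)) ^ 2 = 1 := by
      have := congrArg (Units.val) hw2
      simpa using this
    rcases mul_self_eq_one_iff.1 ((pow_two _).symm.trans h3) with h4 | h4
    · exact absurd (Units.ext (by simpa using h4)) hw1
    · exact h4
  have hwn : (w : F) ^ n = -1 := by
    conv_lhs => rw [hn']
    rw [pow_mul, hw3, hn'o.neg_one_pow]
  obtain ⟨i0, hi0⟩ : ∃ i : Fin n, i = ⟨0, by omega⟩ := ⟨_, rfl⟩
  obtain ⟨d, hdd⟩ : ∃ d : Fin n → F, d = Function.update (fun _ => (w : F)) i0 (-(w : F)) := ⟨_, rfl⟩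
  have hd0 : d i0 = -(w : F) := by rw [hdd, Function.update_self]
  have hd2 : ∀ i, i ≠ i0 → d i = w := fun i h0 => by rw [hdd, Function.update_of_ne h0]
  have hprod : ∏ i, d i = 1 := by
    rw [hdd, Finset.prod_update_of_mem (Finset.mem_univ _), Finset.prod_const, Finset.card_sdiff_of_subset (Finset.subset_univ _), Finset.card_singleton, Finset.card_univ, Fintype.card_fin]
    have h3 : (w : F) * (w : F) ^ (n - 1) = (w : F) ^ n := by rw [← pow_succ']; congr 1; omega
    rw [neg_mul, h3, hwn, neg_neg]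
  have hdr : ∀ i, d i ^ 2 = (w : F) ^ 2 := by
    intro i
    by_cases h0 : i = i0
    · rw [h0, hd0, neg_sq]
    · rw [hd2 i h0]
  have hne : -(w : F) ≠ w := by
    intro h3
    have h4 : (2 : F) * w = 0 := by linear_combination -h3
    exact w.ne_zero ((mul_eq_zero.1 h4).resolve_left h2)
  let x : GL (Fin n) F := Matrix.GeneralLinearGroup.mkOfDetNeZero (Matrix.diagonal d) (by rw [Matrix.det_diagonal, hprod]; exact one_ne_zero)
  have hx : (x : Matrix (Fin n) (Fin n) F) = Matrix.diagonal d := rfl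
  have hdim1 := diag_dim d x hx (w : F) {i0} (by
    intro i
    rw [Finset.mem_singleton]
    constructor
    · rintro rfl
      rw [hd0]; exact hne
    · intro h
      by_contra hcon
      exact h (hd2 i hcon))
  rw [Finset.card_singleton] at hdim1
  obtain ⟨g', -, hg'⟩ := H x (by rw [CfsgLib.Q29.mem_SL, hx, Matrix.det_diagonal, hprod]) ⟨(w : F) ^ 2, by rw [Units.val_pow_eq_pow_val, hx, diag_pow d _ hdr]⟩
    (ns_of (w : F) (by omega) (by omega))
  have h1 := div_of hab hg' (w : F) (by omega) (w : F)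
  have h3 : a ∣ n := ⟨b, hab⟩
  rw [← hdim1] at h3
  have h4 := Nat.le_of_dvd one_pos ((Nat.dvd_add_right h1).1 h3)
  omega

lemma dims' [Fintype F] {p r i k : ℕ} [Fact p.Prime] [CharP F p] [hr : Fact r.Prime] (hrp : r ≠ p)
    (hi : orderOf ((Fintype.card F : ℕ) : ZMod r) = i) (Y : (Fin k → F) →ₗ[F] (Fin k → F)) (hY : Y ^ r = 1) : ∃ t, k = finrank F (Fx Y) + t * i := by
  obtain ⟨t, ht⟩ := dims (semi_of_pow hr.out hrp one_ne_zero Y (by rw [hY, one_smul])) (dim_of_pow hrp Y hY) ⊤ (inv_top Y)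
  rw [top_inf_eq, finrank_top, hi, Module.finrank_fin_fun] at ht
  exact ⟨t, ht⟩

theorem case_block [Fintype F] {p r i : ℕ} [Fact p.Prime] [CharP F p] [hr : Fact r.Prime] (hrp : r ≠ p)
    (hi : orderOf ((Fintype.card F : ℕ) : ZMod r) = i) (hi2 : 2 ≤ i) (hin : i ≤ n) (hab : n = a * b) (ha : 2 ≤ a) (hlt : a < b) {e : Fin n ≃ Fin a × Fin b} {P : GL (Fin n) F} :
    ¬ FP (Geo.tensorProductSubgroup a b e P) r := by
  classical
  intro H
  have hb : 3 ≤ b := by omega
  have hnd : ¬ r ∣ Fintype.card F - 1 := by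
    intro h
    have h3 : r ∣ Fintype.card F ^ 1 - 1 := by rwa [pow_one]
    rw [dvd_of_order hr.out Fintype.card_pos, hi] at h3
    have := Nat.le_of_dvd one_pos h3
    omega
  obtain ⟨x0, hx0r, hx0d⟩ := exists_one_block (F := F) hrp hi hi2 hin
  obtain ⟨x, hxd⟩ : ∃ x : GL (Fin n) F, x = Matrix.SpecialLinearGroup.toGL x0 := ⟨_, rfl⟩
  have hx : (x : Matrix (Fin n) (Fin n) F) = (x0 : Matrix (Fin n) (Fin n) F) := by rw [hxd]; rfl
  have hxr : x ^ r = 1 := by rw [hxd, ← map_pow, hx0r, map_one]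
  rw [← hx, ← Eg_one] at hx0d
  have hns : ∀ z : F, (x : Matrix (Fin n) (Fin n) F) ≠ z • (1 : Matrix (Fin n) (Fin n) F) := by
    intro z hz
    have h1 : x.val.det = 1 := by rw [hx]; exact x0.2
    have h2 : z ^ r = 1 := by
      have h3 := congrArg (fun y : GL (Fin n) F => (y : Matrix (Fin n) (Fin n) F)) hxr
      simp only [Units.val_pow_eq_pow_val, hz, Units.val_one] at h3
      rw [smul_pow, one_pow] at h3
      have h4 := congrFun (congrFun h3 ⟨0, by omega⟩) ⟨0, by omega⟩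
      simpa using h4
    have h3 : z = 1 := pow_one_of hr.out hnd h2
    rw [h3, one_smul] at hz
    have h4 : Eg (Matrix.toLin' (x : Matrix (Fin n) (Fin n) F)) 1 = ⊤ := by
      rw [eq_top_iff]
      intro w _
      rw [mem_Eg, hz, Matrix.toLin'_one, one_smul]; rfl
    rw [h4, finrank_top, Module.finrank_fin_fun] at hx0d
    omega
  obtain ⟨g, -, hg⟩ := H x (by rw [CfsgLib.Q29.mem_SL, hx]; exact x0.2) ⟨1, by rw [hxr, Units.val_one, one_smul]⟩ hns
  obtain ⟨A, B, E, hE⟩ := coords hg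
  obtain ⟨K, hK⟩ : ∃ K, K = (A : Matrix (Fin a) (Fin a) F) ⊗ₖ (B : Matrix (Fin b) (Fin b) F) := ⟨_, rfl⟩
  have hKr : K ^ r = 1 := by
    have h1 : ∀ k w, ((Matrix.toLin' (x : Matrix (Fin n) (Fin n) F)) ^ k) (E w) = E (((Matrix.toLin' K) ^ k) w) := by
      intro k
      induction k with
      | zero => intro w; simp
      | succ k ih =>
        intro w
        rw [pow_succ', Module.End.mul_apply, ih, hE, pow_succ', Module.End.mul_apply, hK]
    apply Matrix.toLin'.injective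
    rw [Matrix.toLin'_pow, Matrix.toLin'_one]
    apply LinearMap.ext
    intro w
    apply E.injective
    rw [← h1, ← Matrix.toLin'_pow, ← Units.val_pow_eq_pow_val, hxr, Units.val_one, Matrix.toLin'_one]; rfl
  have hKp : ((A ^ r : GL (Fin a) F) : Matrix (Fin a) (Fin a) F) ⊗ₖ ((B ^ r : GL (Fin b) F) : Matrix (Fin b) (Fin b) F) = 1 := by
    rw [← hKr, hK]
    have : ∀ k, ((A ^ k : GL (Fin a) F) : Matrix (Fin a) (Fin a) F) ⊗ₖ ((B ^ k : GL (Fin b) F) : Matrix (Fin b) (Fin b) F) =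
        ((A : Matrix (Fin a) (Fin a) F) ⊗ₖ (B : Matrix (Fin b) (Fin b) F)) ^ k := by
      intro k
      induction k with
      | zero => simp
      | succ k ih => rw [pow_succ, pow_succ, Units.val_mul, Units.val_mul, Matrix.mul_kronecker_mul, ih, pow_succ]
    exact this r
  have hE1 : finrank F (Eg (Matrix.toLin' (x : Matrix (Fin n) (Fin n) F)) 1) = finrank F (Eg (Matrix.toLin' ((A : Matrix (Fin a) (Fin a) F) ⊗ₖ (B : Matrix (Fin b) (Fin b) F))) 1) := Eg_conj E _ _ hE 1
  have hAs : ∃ c : F, (A : Matrix (Fin a) (Fin a) F) = c • (1 : Matrix (Fin a) (Fin a) F) := by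
    by_cases hib : i < b
    · refine scalar_left A B 1 ?_
      rw [← hE1, ← hab]; omega
    · obtain ⟨α, hα⟩ := scalar_left (A ^ r) (B ^ r) 1 (by
        rw [hKp]
        have h4 : Eg (Matrix.toLin' (1 : Matrix (Fin a × Fin b) (Fin a × Fin b) F)) 1 = ⊤ := by
          rw [eq_top_iff]
          intro w _
          rw [mem_Eg, Matrix.toLin'_one, one_smul]; rfl
        rw [h4, finrank_top, Module.finrank_fintype_fun_eq_card, Fintype.card_prod, Fintype.card_fin, Fintype.card_fin]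
        omega)
      have hα0 : α ≠ 0 := by
        rintro rfl
        rw [zero_smul] at hα
        have h5 := congrArg Matrix.det hα
        haveI : Nonempty (Fin a) := ⟨⟨0, by omega⟩⟩
        rw [Matrix.det_zero] at h5
        exact ((Matrix.isUnit_iff_isUnit_det _).1 (A ^ r).isUnit).ne_zero h5
      obtain ⟨β, hβ⟩ : ∃ β : Fˣ, (β : F) ^ r = α := by
        have hco : (Nat.card Fˣ).Coprime r := by
          rw [Nat.card_eq_fintype_card, Fintype.card_units, Nat.coprime_comm, Nat.Prime.coprime_iff_not_dvd hr.out]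
          exact hnd
        refine ⟨(powCoprime hco).symm (Units.mk0 α hα0), ?_⟩
        have h5 := (powCoprime hco).apply_symm_apply (Units.mk0 α hα0)
        rw [powCoprime_apply] at h5
        have h6 := congrArg Units.val h5
        rw [Units.val_pow_eq_pow_val, Units.val_mk0] at h6
        exact h6
      have hA' : (((β : F)⁻¹) • (A : Matrix (Fin a) (Fin a) F)) ^ r = 1 := by
        rw [smul_pow, ← Units.val_pow_eq_pow_val, hα, smul_smul, ← hβ, inv_pow, inv_mul_cancel₀ (pow_ne_zero _ β.ne_zero), one_smul]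
      obtain ⟨t, ht⟩ := dims' hrp hi (Matrix.toLin' (((β : F)⁻¹) • (A : Matrix (Fin a) (Fin a) F))) (by
        rw [← Matrix.toLin'_pow, hA', Matrix.toLin'_one]; rfl)
      have ht0 : t = 0 := by
        rcases Nat.eq_zero_or_pos t with h5 | h5
        · exact h5
        · have : i ≤ t * i := Nat.le_mul_of_pos_left i h5
          omega
      rw [ht0, zero_mul, add_zero] at ht
      have h6 : Fx (Matrix.toLin' (((β : F)⁻¹) • (A : Matrix (Fin a) (Fin a) F))) = ⊤ := Submodule.eq_top_of_finrank_eq (by rw [← ht, Module.finrank_fin_fun])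
      have h7 : ((β : F)⁻¹) • (A : Matrix (Fin a) (Fin a) F) = 1 := by
        apply Matrix.toLin'.injective
        apply LinearMap.ext
        intro w
        have h8 : w ∈ Fx (Matrix.toLin' (((β : F)⁻¹) • (A : Matrix (Fin a) (Fin a) F))) := by rw [h6]; trivial
        rw [mem_Fx.1 h8, Matrix.toLin'_one]; rfl
      refine ⟨(β : F), ?_⟩
      rw [← h7, smul_smul, mul_inv_cancel₀ β.ne_zero, one_smul]
  obtain ⟨c, hc⟩ := hAs
  rw [hc, Eg_right] at hE1
  have hBr : (c • (B : Matrix (Fin b) (Fin b) F)) ^ r = 1 := by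
    have h1 : ((A ^ r : GL (Fin a) F) : Matrix (Fin a) (Fin a) F) = c ^ r • (1 : Matrix (Fin a) (Fin a) F) := by
      rw [Units.val_pow_eq_pow_val, hc, smul_pow, one_pow]
    rw [h1] at hKp
    have h2 := Eg_right (a := a) (c ^ r) ((B ^ r : GL (Fin b) F) : Matrix (Fin b) (Fin b) F) 1
    rw [hKp] at h2
    have h4 : Eg (Matrix.toLin' (1 : Matrix (Fin a × Fin b) (Fin a × Fin b) F)) 1 = ⊤ := by
      rw [eq_top_iff]
      intro w _
      rw [mem_Eg, Matrix.toLin'_one, one_smul]; rfl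
    rw [h4, finrank_top, Module.finrank_fintype_fun_eq_card, Fintype.card_prod, Fintype.card_fin, Fintype.card_fin] at h2
    have h5 := Nat.eq_of_mul_eq_mul_left (by omega) h2
    have h6 : Eg (Matrix.toLin' (c ^ r • ((B ^ r : GL (Fin b) F) : Matrix (Fin b) (Fin b) F))) 1 = ⊤ := Submodule.eq_top_of_finrank_eq (by rw [← h5, Module.finrank_fin_fun])
    rw [smul_pow, ← Units.val_pow_eq_pow_val]
    apply Matrix.toLin'.injective
    apply LinearMap.ext
    intro w
    have h8 : w ∈ Eg (Matrix.toLin' (c ^ r • ((B ^ r : GL (Fin b) F) : Matrix (Fin b) (Fin b) F))) 1 := by rw [h6]; trivial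
    rw [mem_Eg.1 h8, Matrix.toLin'_one, one_smul]; rfl
  obtain ⟨t, ht⟩ := dims' hrp hi (Matrix.toLin' (c • (B : Matrix (Fin b) (Fin b) F))) (by
    rw [← Matrix.toLin'_pow, hBr, Matrix.toLin'_one]; rfl)
  rw [Eg_one] at hE1
  rw [Eg_one] at hE1
  rw [Eg_one] at hx0d
  obtain ⟨f, hf⟩ : ∃ f, f = finrank F (Fx (Matrix.toLin' (c • (B : Matrix (Fin b) (Fin b) F)))) := ⟨_, rfl⟩
  rw [← hf] at ht hE1
  have h9 : a * f + i = a * f + a * (t * i) := by
    have e1 : a * b = a * f + a * (t * i) := by rw [← mul_add, ← ht]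
    rw [hE1] at hx0d
    linarith
  have h10 : i = a * (t * i) := by omega
  rcases Nat.eq_zero_or_pos t with h5 | h5
  · rw [h5, zero_mul, mul_zero] at h10; omega
  · have h11 : i ≤ t * i := Nat.le_mul_of_pos_left i h5
    have h12 : 2 * (t * i) ≤ a * (t * i) := Nat.mul_le_mul_right _ ha
    omega

end CfsgLib.Tn29
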