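import Cfsg.Agent.LibTn29b

/-! Involutions in tensor product subgroups (seat helper29). -/

namespace CfsgLib.Tn29

open Module Cfsg CfsgLib.Semi29 CfsgLib.Dec29 CfsgLib.Sp29
open scoped Kronecker

variable {F : Type*} [Field F] {n a b : ℕ}

lemma mem_T {e : Fin n ≃ Fin a × Fin b} {P x Q : GL (Fin n) F} {k : GL (Fin a × Fin b) F} (hk : k ∈ Geo.kroneckerSubgroup a b F)
    (h : x * Q = Q * Geo.glReindex e.symm k) : (Q * P⁻¹)⁻¹ * x * (Q * P⁻¹) ∈ Geo.tensorProductSubgroup a b e P := by
  refine ⟨Geo.glReindex e.symm k, ⟨k, hk, rfl⟩, ?_⟩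
  show P * Geo.glReindex e.symm k * P⁻¹ = _
  have : Geo.glReindex e.symm k = Q⁻¹ * (x * Q) := by rw [h]; group
  rw [this]; group

theorem of_basis (e : Fin n ≃ Fin a × Fin b) (P x : GL (Fin n) F) (A : GL (Fin a) F) (B : GL (Fin b) F) (bas : Basis (Fin a × Fin b) F (Fin n → F))
    (h : ∀ i j, Matrix.toLin' (x : Matrix (Fin n) (Fin n) F) (bas (i, j)) =
      bas.equivFun.symm (ts ((A : Matrix (Fin a) (Fin a) F).mulVec (Pi.single i 1)) ((B : Matrix (Fin b) (Fin b) F).mulVec (Pi.single j 1)))) :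
    ∃ P0 : GL (Fin n) F, P0⁻¹ * x * P0 ∈ Geo.tensorProductSubgroup a b e P := by
  classical
  have hKu : IsUnit ((A : Matrix (Fin a) (Fin a) F) ⊗ₖ (B : Matrix (Fin b) (Fin b) F)) := by
    rw [Matrix.isUnit_iff_isUnit_det, Matrix.det_kronecker]
    exact ((((Matrix.isUnit_iff_isUnit_det _).1 A.isUnit).pow _).mul (((Matrix.isUnit_iff_isUnit_det _).1 B.isUnit).pow _))
  obtain ⟨k, hk⟩ := hKu
  have hkm : k ∈ Geo.kroneckerSubgroup a b F := ⟨A, B, hk⟩
  obtain ⟨E, hEd⟩ : ∃ E : (Fin a × Fin b → F) ≃ₗ[F] (Fin n → F), E = bas.equivFun.symm := ⟨_, rfl⟩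
  rw [← hEd] at h
  have hEb : ∀ p, E (Pi.single p 1) = bas p := by
    intro p
    rw [hEd, LinearEquiv.symm_apply_eq]
    funext q
    rw [Basis.equivFun_self, Pi.single_apply]
    by_cases hq : p = q
    · subst hq; simp
    · rw [if_neg (fun h => hq h.symm), if_neg hq]
  have hts : ∀ (i : Fin a) (j : Fin b), (ts (Pi.single i 1) (Pi.single j 1) : Fin a × Fin b → F) = Pi.single (i, j) 1 := by
    intro i j
    funext p
    obtain ⟨i', j'⟩ := p
    show (Pi.single i 1 : Fin a → F) i' * (Pi.single j 1 : Fin b → F) j' = _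
    rw [Pi.single_apply, Pi.single_apply, Pi.single_apply]
    by_cases h1 : i' = i
    · by_cases h2 : j' = j
      · rw [if_pos h1, if_pos h2, if_pos (by rw [h1, h2]), one_mul]
      · rw [if_neg h2, if_neg (fun h => h2 (congrArg Prod.snd h)), mul_zero]
    · rw [if_neg h1, if_neg (fun h => h1 (congrArg Prod.fst h)), zero_mul]
  have hE : ∀ w, Matrix.toLin' (x : Matrix (Fin n) (Fin n) F) (E w) = E (Matrix.toLin' (k : Matrix (Fin a × Fin b) (Fin a × Fin b) F) w) := by
    have h1 : (Matrix.toLin' (x : Matrix (Fin n) (Fin n) F)) ∘ₗ E.toLinearMap = E.toLinearMap ∘ₗ (Matrix.toLin' (k : Matrix (Fin a × Fin b) (Fin a × Fin b) F)) := by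
      refine (Pi.basisFun F (Fin a × Fin b)).ext ?_
      rintro ⟨i, j⟩
      rw [Pi.basisFun_apply]
      show Matrix.toLin' (x : Matrix (Fin n) (Fin n) F) (E (Pi.single (i, j) 1)) = E (Matrix.toLin' (k : Matrix (Fin a × Fin b) (Fin a × Fin b) F) (Pi.single (i, j) 1))
      rw [hEb, h, Matrix.toLin'_apply, hk, ← hts, kron_ts]
    exact fun w => LinearMap.congr_fun h1 w
  let L : (Fin n → F) ≃ₗ[F] (Fin n → F) := (LinearEquiv.funCongrLeft F F e.symm).trans E
  have hL : ∀ w, L w = E (w ∘ e.symm) := fun w => rfl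
  let Q : GL (Fin n) F := ⟨LinearMap.toMatrix' L.toLinearMap, LinearMap.toMatrix' L.symm.toLinearMap, by
      rw [← LinearMap.toMatrix'_comp]
      have : L.toLinearMap ∘ₗ L.symm.toLinearMap = LinearMap.id := by ext; simp
      rw [this, LinearMap.toMatrix'_id], by
      rw [← LinearMap.toMatrix'_comp]
      have : L.symm.toLinearMap ∘ₗ L.toLinearMap = LinearMap.id := by ext; simp
      rw [this, LinearMap.toMatrix'_id]⟩
  have hQ : Matrix.toLin' (Q : Matrix (Fin n) (Fin n) F) = L.toLinearMap := by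
    show Matrix.toLin' (LinearMap.toMatrix' L.toLinearMap) = _
    rw [Matrix.toLin'_toMatrix']
  refine ⟨Q * P⁻¹, mem_T hkm ?_⟩
  apply Units.ext
  apply Matrix.toLin'.injective
  rw [Units.val_mul, Units.val_mul, Matrix.toLin'_mul, Matrix.toLin'_mul, hQ]
  apply LinearMap.ext
  intro w
  show Matrix.toLin' (x : Matrix (Fin n) (Fin n) F) (L w) = L (Matrix.toLin' (Geo.glReindex e.symm k : Matrix (Fin n) (Fin n) F) w)
  rw [hL, hL, hE]
  congr 1
  rw [Matrix.toLin'_apply, Matrix.toLin'_apply]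
  show _ = (Matrix.reindex e.symm e.symm (k : Matrix (Fin a × Fin b) (Fin a × Fin b) F)).mulVec w ∘ e.symm
  rw [Matrix.reindex_apply, Matrix.submatrix_mulVec_equiv]
  funext p
  simp

/-- pairing up the eigenvectors -/
lemma exists_pairing (S : Finset (Fin n)) (hS : Even S.card) (hn : n = 2 * b) :
    ∃ κ : Fin 2 × Fin b ≃ Fin n, ∀ j, (κ (0, j) ∈ S ↔ κ (1, j) ∈ S) := by
  classical
  have hcard : Fintype.card {i // i ∈ S} + Fintype.card {i // ¬ i ∈ S} = n := by
    rw [Fintype.card_subtype_compl, Fintype.card_fin, Fintype.card_coe]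
    have : S.card ≤ n := by simpa using Finset.card_le_univ S
    omega
  rw [Fintype.card_coe] at hcard
  obtain ⟨k, hk⟩ := hS
  have h1 : Fintype.card {i // i ∈ S} = Fintype.card (Fin k × Fin 2) := by
    rw [Fintype.card_coe, Fintype.card_prod, Fintype.card_fin, Fintype.card_fin]; omega
  have h2 : Fintype.card {i // ¬ i ∈ S} = Fintype.card (Fin (b - k) × Fin 2) := by
    rw [Fintype.card_prod, Fintype.card_fin, Fintype.card_fin]; omega
  let e1 := Fintype.equivOfCardEq h1
  let e2 := Fintype.equivOfCardEq h2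
  let κ0 : (Fin k ⊕ Fin (b - k)) × Fin 2 ≃ Fin n := ((Equiv.sumProdDistrib _ _ _).trans (Equiv.sumCongr e1.symm e2.symm)).trans (Equiv.sumCompl (fun i => i ∈ S))
  have h0 : ∀ j, (κ0 (j, 0) ∈ S ↔ κ0 (j, 1) ∈ S) := by
    rintro (j | j)
    · constructor
      · intro _; exact (e1.symm (j, 1)).2
      · intro _; exact (e1.symm (j, 0)).2
    · constructor
      · intro h; exact absurd h (e2.symm (j, 0)).2
      · intro h; exact absurd h (e2.symm (j, 1)).2
  let ε : Fin k ⊕ Fin (b - k) ≃ Fin b := finSumFinEquiv.trans (finCongr (by omega))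
  refine ⟨(Equiv.prodComm _ _).trans ((Equiv.prodCongr ε.symm (Equiv.refl _)).trans κ0), ?_⟩
  intro j
  exact h0 (ε.symm j)

theorem back [Fintype F] {p : ℕ} [Fact p.Prime] [CharP F p] (hn2 : n = 2 * b) (hb : 1 ≤ b) (e : Fin n ≃ Fin 2 × Fin b) (P : GL (Fin n) F)
    (hp2 : p ≠ 2) (hv : padicValNat 2 (Fintype.card F - 1) ≤ padicValNat 2 n) : FP (Geo.tensorProductSubgroup 2 b e P) 2 := by
  classical
  haveI : Fact (Nat.Prime 2) := ⟨Nat.prime_two⟩
  intro x hx hz hns
  obtain ⟨z, hz⟩ := hz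
  have h2 : (2 : F) ≠ 0 := by
    intro h0
    have h3 : ((2 : ℕ) : F) = 0 := by exact_mod_cast h0
    rw [CharP.cast_eq_zero_iff F p] at h3
    exact hp2 ((Nat.prime_dvd_prime_iff_eq Fact.out Nat.prime_two).1 h3)
  have hdet : (x : Matrix (Fin n) (Fin n) F).det = 1 := (CfsgLib.Q29.mem_SL x).1 hx
  have hxx : (x : Matrix (Fin n) (Fin n) F) * x = z • 1 := by rw [← hz, pow_two, Units.val_mul]
  have hz0 : z ≠ 0 := by
    rintro rfl
    rw [zero_smul] at hxx
    have h1 := congrArg Matrix.det hxx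
    haveI : Nonempty (Fin n) := ⟨⟨0, by omega⟩⟩
    rw [Matrix.det_mul, hdet, Matrix.det_zero, mul_one] at h1
    exact one_ne_zero h1
  suffices hs : ∃ P0 : GL (Fin n) F, P0⁻¹ * x * P0 ∈ Geo.tensorProductSubgroup 2 b e P by
    obtain ⟨P0, hP0⟩ := hs
    let x0 : Matrix.SpecialLinearGroup (Fin n) F := ⟨(x : Matrix (Fin n) (Fin n) F), hdet⟩
    have hx0 : Matrix.SpecialLinearGroup.toGL x0 = x := Units.ext rfl
    obtain ⟨R, hR⟩ := CfsgLib.Invo29.adjust_conj x0 z (by rw [Matrix.SpecialLinearGroup.coe_pow]; exact (pow_two _).trans hxx) hns (by omega) P0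
    refine ⟨Matrix.SpecialLinearGroup.toGL R, ?_, ?_⟩
    · rw [CfsgLib.Q29.mem_SL]; exact R.2
    · rw [hx0, map_mul, map_mul, map_inv, hx0] at hR
      rw [hR]; exact hP0
  obtain ⟨X, hX⟩ : ∃ X, X = Matrix.toLin' (x : Matrix (Fin n) (Fin n) F) := ⟨_, rfl⟩
  have hX2 : X ^ 2 = z • 1 := by
    rw [hX, ← Matrix.toLin'_pow, pow_two, hxx, map_smul, Matrix.toLin'_one]; rfl
  by_cases hsq : IsSquare z
  · obtain ⟨w, hw⟩ := hsq
    have hw0 : w ≠ 0 := by
      rintro rfl
      rw [mul_zero] at hw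
      exact hz0 hw
    obtain ⟨Y, hY⟩ : ∃ Y : Matrix (Fin n) (Fin n) F, Y = w⁻¹ • (x : Matrix (Fin n) (Fin n) F) := ⟨_, rfl⟩
    have hY2 : Y ^ 2 = 1 := by
      rw [pow_two, hY, Matrix.smul_mul, Matrix.mul_smul, hxx, smul_smul, smul_smul, hw]
      have : w⁻¹ * w⁻¹ * (w * w) = 1 := by field_simp
      rw [this, one_smul]
    obtain ⟨v, hvli, d, hd, hdv⟩ := CfsgLib.Q29.diag_of_sq h2 Y hY2
    have hxv : ∀ i, (x : Matrix (Fin n) (Fin n) F).mulVec (v i) = (w * d i) • v i := by
      intro i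
      have h1 : (x : Matrix (Fin n) (Fin n) F) = w • Y := by rw [hY, smul_smul, mul_inv_cancel₀ hw0, one_smul]
      rw [h1, Matrix.smul_mulVec, hdv, smul_smul]
    obtain ⟨Q, hQ, -⟩ := CfsgLib.Q29.diag_of_li (x : Matrix (Fin n) (Fin n) F) v hvli (fun i => w * d i) hxv
    have hprod1 : ∏ i, (w * d i) = 1 := by
      have h1 := congrArg Matrix.det hQ
      rw [Matrix.det_mul, Matrix.det_mul, hdet, Matrix.det_diagonal, one_mul] at h1
      have h4 : (Q : Matrix (Fin n) (Fin n) F).det ≠ 0 := (Matrix.isUnit_iff_isUnit_det _).1 Q.isUnit |>.ne_zero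
      exact (mul_right_eq_self₀.1 h1.symm).resolve_right h4
    obtain ⟨S, hSd⟩ : ∃ S : Finset (Fin n), S = Finset.univ.filter (fun i => d i = -1) := ⟨_, rfl⟩
    have hmS : ∀ i, i ∈ S ↔ d i = -1 := fun i => by rw [hSd]; simp
    have hprod : ∏ i, (w * d i) = w ^ n * (-1) ^ S.card := by
      have h1 : ∀ i ∈ (Finset.univ : Finset (Fin n)), w * d i = w * (if i ∈ S then -1 else 1) := by
        intro i _
        by_cases hi : i ∈ S
        · rw [if_pos hi, (hmS i).1 hi]
        · rw [if_neg hi]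
          rcases hd i with h1 | h1
          · rw [h1]
          · exact absurd ((hmS i).2 h1) hi
      rw [Finset.prod_congr rfl h1, Finset.prod_mul_distrib, Finset.prod_const, Finset.card_univ, Fintype.card_fin, Finset.prod_ite_mem, Finset.univ_inter, Finset.prod_const]
    obtain ⟨Qc, hQd⟩ : ∃ Q, Q = Fintype.card F - 1 := ⟨_, rfl⟩
    have hQ0 : Qc ≠ 0 := by
      have h1 := Fintype.one_lt_card (α := F)
      omega
    rw [← hQd] at hv
    have hSe : Even S.card := by
      rw [← Nat.not_odd_iff_even]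
      intro ho
      rw [hprod, ho.neg_one_pow] at hprod1
      have hwn : w ^ n = -1 := by linear_combination -hprod1
      have hwq : w ^ Qc = 1 := by rw [hQd]; exact FiniteField.pow_card_sub_one_eq_one w hw0
      obtain ⟨s', hs'⟩ : 2 ^ (padicValNat 2 Qc) ∣ Qc := pow_padicValNat_dvd
      have hs'o : Odd s' := by
        rw [← Nat.not_even_iff_odd]
        intro he'
        obtain ⟨k, hk⟩ := he'.two_dvd
        have h3 : 2 ^ (padicValNat 2 Qc + 1) ∣ Qc := ⟨k, by
          conv_lhs => rw [hs']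
          rw [hk, pow_succ]; ring⟩
        have h4 := (padicValNat_dvd_iff_le (p := 2) hQ0).1 h3
        omega
      obtain ⟨n', hn'⟩ : 2 ^ (padicValNat 2 n) ∣ n := pow_padicValNat_dvd
      have h5 : (w ^ n) ^ s' = 1 := by
        have h6 : n * s' = Qc * (2 ^ (padicValNat 2 n - padicValNat 2 Qc) * n') := by
          have h7 : 2 ^ (padicValNat 2 n) = 2 ^ (padicValNat 2 Qc) * 2 ^ (padicValNat 2 n - padicValNat 2 Qc) := by
            rw [← pow_add]; congr 1; omega
          calc n * s' = (2 ^ (padicValNat 2 n) * n') * s' := by rw [← hn']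
            _ = (2 ^ (padicValNat 2 Qc) * s') * (2 ^ (padicValNat 2 n - padicValNat 2 Qc) * n') := by rw [h7]; ring
            _ = _ := by rw [← hs']
        rw [← pow_mul, h6, pow_mul, hwq, one_pow]
      rw [hwn, hs'o.neg_one_pow] at h5
      apply h2
      linear_combination -h5
    obtain ⟨κ, hκ⟩ := exists_pairing S hSe hn2
    haveI : Nonempty (Fin n) := ⟨⟨0, by omega⟩⟩
    let bas0 : Basis (Fin n) F (Fin n → F) := basisOfLinearIndependentOfCardEqFinrank hvli (by rw [Fintype.card_fin, Module.finrank_fin_fun])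
    have hb0 : ∀ i, bas0 i = v i := fun i => by rw [coe_basisOfLinearIndependentOfCardEqFinrank]
    let bas : Basis (Fin 2 × Fin b) F (Fin n → F) := bas0.reindex κ.symm
    have hb1 : ∀ p, bas p = v (κ p) := fun p => by
      show (bas0.reindex κ.symm) p = _
      rw [Basis.reindex_apply, Equiv.symm_symm, hb0]
    have hdne : ∀ i, w * d i ≠ 0 := by
      intro i
      rcases hd i with h1 | h1
      · rw [h1, mul_one]; exact hw0
      · rw [h1]; exact mul_ne_zero hw0 (neg_ne_zero.2 one_ne_zero)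
    let B : GL (Fin b) F := Matrix.GeneralLinearGroup.mkOfDetNeZero (Matrix.diagonal (fun j => w * d (κ (0, j)))) (by
      rw [Matrix.det_diagonal]
      exact Finset.prod_ne_zero_iff.2 fun j _ => hdne _)
    have hκd : ∀ i j, d (κ (i, j)) = d (κ (0, j)) := by
      intro i j
      have hi : i = 0 ∨ i = 1 := by fin_cases i <;> simp
      rcases hi with rfl | rfl
      · rfl
      · by_cases hj : κ (0, j) ∈ S
        · rw [(hmS _).1 hj, (hmS _).1 ((hκ j).1 hj)]
        · have hj' : κ (1, j) ∉ S := fun h => hj ((hκ j).2 h)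
          rcases hd (κ (0, j)) with h1 | h1
          · rcases hd (κ (1, j)) with h3 | h3
            · rw [h1, h3]
            · exact absurd ((hmS _).2 h3) hj'
          · exact absurd ((hmS _).2 h1) hj
    refine of_basis e P x 1 B bas ?_
    intro i j
    rw [Units.val_one, Matrix.one_mulVec]
    have h3 : (B : Matrix (Fin b) (Fin b) F).mulVec (Pi.single j 1) = (w * d (κ (0, j))) • (Pi.single j 1 : Fin b → F) := by
      show (Matrix.diagonal (fun j => w * d (κ (0, j)))).mulVec (Pi.single j 1) = _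
      rw [Matrix.diagonal_mulVec_single, mul_one, ← Pi.single_smul, smul_eq_mul, mul_one]
    have h4 : ts (Pi.single i 1 : Fin 2 → F) ((w * d (κ (0, j))) • (Pi.single j 1 : Fin b → F)) = (w * d (κ (0, j))) • (Pi.single (i, j) 1 : Fin 2 × Fin b → F) := by
      funext p
      obtain ⟨i', j'⟩ := p
      show (Pi.single i 1 : Fin 2 → F) i' * ((w * d (κ (0, j))) * (Pi.single j 1 : Fin b → F) j') = (w * d (κ (0, j))) * (Pi.single (i, j) 1 : Fin 2 × Fin b → F) (i', j')
      rw [Pi.single_apply, Pi.single_apply, Pi.single_apply]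
      by_cases h1 : i' = i
      · by_cases h2 : j' = j
        · rw [if_pos h1, if_pos h2, if_pos (by rw [h1, h2]), one_mul]
        · rw [if_neg h2, if_neg (fun h => h2 (congrArg Prod.snd h)), mul_zero, mul_zero]
      · rw [if_neg h1, if_neg (fun h => h1 (congrArg Prod.fst h)), zero_mul, mul_zero]
    have h5 : bas.equivFun.symm (Pi.single (i, j) 1) = bas (i, j) := by
      rw [LinearEquiv.symm_apply_eq]
      funext q
      rw [Basis.equivFun_self, Pi.single_apply]
      by_cases hq : (i, j) = q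
      · subst hq; simp
      · rw [if_neg (fun h => hq h.symm), if_neg hq]
    rw [h3, h4, map_smul, h5, hb1, Matrix.toLin'_apply, hxv, hκd]
  · -- non-square
    have hmin : ∀ R : Submodule F (Fin n → F), IsMinInv X R → finrank F R = 2 := by
      intro R hR
      obtain ⟨v, hv, hv0⟩ := (Submodule.ne_bot_iff R).1 hR.1
      have h1 := span_inv two_pos hX2 v
      have h3 := span_le_of (r := 2) hR.2.1 hv
      have h4 : v ∈ Submodule.span F (Set.range (fun j : Fin 2 => (X ^ (j : ℕ)) v)) := Submodule.subset_span ⟨0, by simp⟩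
      have h5 : Submodule.span F (Set.range (fun j : Fin 2 => (X ^ (j : ℕ)) v)) = R := by
        rcases hR.2.2 _ h3 h1 with h6 | h6
        · exfalso
          rw [h6] at h4
          exact hv0 ((Submodule.mem_bot F).1 h4)
        · exact h6
      have hli : LinearIndependent F (fun j : Fin 2 => (X ^ (j : ℕ)) v) := by
        have h6 : (fun j : Fin 2 => (X ^ (j : ℕ)) v) = ![v, X v] := by
          funext j
          fin_cases j
          · simp
          · simp
        rw [h6, LinearIndependent.pair_iff' hv0]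
        intro c hc
        apply hsq
        have h7 : z • v = (c * c) • v := by
          have h8 : (X ^ 2) v = (c * c) • v := by
            rw [pow_two, Module.End.mul_apply, ← hc, map_smul, ← hc, smul_smul]
          rw [← h8, hX2]; rfl
        have h8 : (z - c * c) • v = 0 := by rw [sub_smul, h7, sub_self]
        exact ⟨c, sub_eq_zero.1 ((smul_eq_zero.1 h8).resolve_right hv0)⟩
      rw [← h5, finrank_span_eq_card hli, Fintype.card_fin]
    have hss : Semi X := semi_of_pow Nat.prime_two (Ne.symm hp2) hz0 X hX2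
    obtain ⟨ι, _, v, hc, hli, hsp⟩ := cyc_of_irred hss two_pos hX2 hmin b ⊤ (inv_top X) (by rw [finrank_top, Module.finrank_fin_fun]; omega)
    let bas0 : Basis (ι × Fin 2) F (Fin n → F) := Basis.mk hli hsp.ge
    let ε : ι ≃ Fin b := Fintype.equivFinOfCardEq hc
    let bas : Basis (Fin 2 × Fin b) F (Fin n → F) := bas0.reindex ((Equiv.prodComm _ _).trans (Equiv.prodCongr (Equiv.refl _) ε))
    have hb1 : ∀ i j, bas (i, j) = (X ^ (i : ℕ)) (v (ε.symm j)) := by
      intro i j
      show (bas0.reindex _) (i, j) = _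
      rw [Basis.reindex_apply]
      show bas0 (ε.symm j, i) = _
      rw [Basis.mk_apply]
    let A : GL (Fin 2) F := Matrix.GeneralLinearGroup.mkOfDetNeZero !![0, z; 1, 0] (by
      rw [Matrix.det_fin_two_of]
      simpa using hz0)
    have h5 : ∀ p, bas.equivFun.symm (Pi.single p 1) = bas p := by
      intro p
      rw [LinearEquiv.symm_apply_eq]
      funext q
      rw [Basis.equivFun_self, Pi.single_apply]
      by_cases hq : p = q
      · subst hq; simp
      · rw [if_neg (fun h => hq h.symm), if_neg hq]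
    refine of_basis e P x A 1 bas ?_
    intro i j
    rw [Units.val_one, Matrix.one_mulVec, ← hX]
    have hi : i = 0 ∨ i = 1 := by fin_cases i <;> simp
    rcases hi with rfl | rfl
    · have h3 : ts ((A : Matrix (Fin 2) (Fin 2) F).mulVec (Pi.single 0 1)) (Pi.single j 1 : Fin b → F) = (Pi.single (1, j) 1 : Fin 2 × Fin b → F) := by
        funext p
        obtain ⟨i', j'⟩ := p
        show ((!![0, z; 1, 0] : Matrix (Fin 2) (Fin 2) F).mulVec (Pi.single 0 1)) i' * (Pi.single j 1 : Fin b → F) j' = _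
        rw [Pi.single_apply, Pi.single_apply]
        fin_cases i'
        · simp
        · simp
      rw [h3, h5, hb1, hb1]
      simp
    · have h3 : ts ((A : Matrix (Fin 2) (Fin 2) F).mulVec (Pi.single 1 1)) (Pi.single j 1 : Fin b → F) = z • (Pi.single (0, j) 1 : Fin 2 × Fin b → F) := by
        funext p
        obtain ⟨i', j'⟩ := p
        show ((!![0, z; 1, 0] : Matrix (Fin 2) (Fin 2) F).mulVec (Pi.single 1 1)) i' * (Pi.single j 1 : Fin b → F) j' = z * (Pi.single (0, j) 1 : Fin 2 × Fin b → F) (i', j')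
        rw [Pi.single_apply, Pi.single_apply]
        fin_cases i'
        · simp
        · simp
      rw [h3, map_smul, h5, hb1, hb1]
      have h6 : X ((X ^ ((1 : Fin 2) : ℕ)) (v (ε.symm j))) = (X ^ 2) (v (ε.symm j)) := by
        rw [pow_two]; simp
      rw [h6, hX2]
      simp

end CfsgLib.Tn29
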