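import Mathlib
import Cfsg.Agent.LibOI5
import Cfsg.Agent.LibOI9

set_option autoImplicit false
set_option linter.all false

/-! maximal tori via Sylow subgroups, 1 (seat helper23) -/

namespace CfsgLib.MT

open Cfsg.Lie Matrix CfsgLib.Chev CfsgLib.Chev.Good3 CfsgLib.OI

/-- extension of degree n with Frobenius -/
theorem ext_data (F : Type*) [Field F] [Fintype F] (n : ℕ) (hn : n ≠ 0) : ∃ (L : Type) (_ : Field L) (_ : Fintype L) (f : F →+* L) (σ : L →+* L),
    Fintype.card L = Fintype.card F ^ n ∧ (∀ x, σ x = x ^ Fintype.card F) ∧ (∀ s, σ (f s) = f s) ∧ (∀ t, σ t = t → ∃ s, f s = t) := by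
  obtain ⟨p, hp⟩ := CharP.exists F
  haveI : Fact p.Prime := ⟨(CharP.char_is_prime_or_zero F p).resolve_right (CharP.char_ne_zero_of_finite F p)⟩
  haveI : NeZero n := ⟨hn⟩
  let L := FiniteField.Extension F p n
  haveI : Fintype L := Fintype.ofFinite L
  refine ⟨L, inferInstance, inferInstance, algebraMap F L, (FiniteField.Extension.frob F p n : L →+* L), ?_, ?_, ?_, ?_⟩
  · rw [← Nat.card_eq_fintype_card, ← Nat.card_eq_fintype_card]
    exact FiniteField.natCard_extension F p n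
  · intro x
    rw [← Nat.card_eq_fintype_card]
    exact FiniteField.Extension.frob_apply F p n
  · intro s
    exact (FiniteField.Extension.frob F p n).commutes s
  · intro t ht
    have h1 : ∀ g : Gal(L/F), g t = t := by
      intro g
      obtain ⟨i, _, rfl⟩ := FiniteField.Extension.exists_frob_pow_eq F p n g
      have ht' : (FiniteField.Extension.frob F p n) t = t := ht
      clear * - ht'
      induction i with
      | zero => simp
      | succ i ih =>
        rw [pow_succ, AlgEquiv.mul_apply, ht']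
        exact ih
    exact (IsGalois.mem_range_algebraMap_iff_fixed t).2 h1

/-- elements of prime order are conjugate into subgroups of coprime index -/
theorem conj_into {G : Type*} [Group G] [Finite G] {H : Subgroup G} {r : ℕ} [hr : Fact r.Prime] (hi : ¬ r ∣ H.index) {x : G}
    (hx : orderOf x = r) : ∃ y, y⁻¹ * x * y ∈ H := by
  have hP : IsPGroup r (Subgroup.zpowers x) := by
    apply IsPGroup.of_card (n := 1)
    rw [Nat.card_zpowers, hx, pow_one]
  have hi' : ¬ r ∣ Nat.card (G ⧸ H) := hi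
  obtain ⟨a, ha⟩ := hP.nonempty_fixed_point_of_prime_not_dvd_card (G ⧸ H) hi'
  obtain ⟨y, rfl⟩ := QuotientGroup.mk_surjective a
  refine ⟨y, ?_⟩
  have h1 := ha ⟨x, Subgroup.mem_zpowers x⟩
  have h2 : ((x * y : G) : G ⧸ H) = (y : G ⧸ H) := h1
  rw [QuotientGroup.eq] at h2
  have h3 := Subgroup.inv_mem _ h2
  have e : ((x * y)⁻¹ * y)⁻¹ = y⁻¹ * x * y := by group
  rwa [e] at h3

section
variable {D : ChevalleyDatum} {T : Tb} (g : Good3 D T) {F : Type*} [Field F]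
include g

/-- characters of H -/
noncomputable def chr (γ : ℕ) (hγ : γ < T.n) : ↥(D.diagonalSubgroup F) →* Fˣ where
  toFun t := (g.H_X t.2).choose γ
  map_one' := by
    have h := (g.H_X (1 : ↥(D.diagonalSubgroup F)).2).choose_spec.2.2 γ hγ 1
    apply Units.ext
    have h2 : g.X γ 1 = g.X γ (((g.H_X (1 : ↥(D.diagonalSubgroup F)).2).choose γ : F) * 1) := by
      rw [← h]
      show _ = (1 : GL D.Idx F) * g.X γ 1 * (1 : GL D.Idx F)⁻¹
      group
    have := g.X_inj hγ h2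
    rw [mul_one] at this
    exact this.symm
  map_mul' := by
    intro s t
    have h1 := (g.H_X s.2).choose_spec.2.2 γ hγ
    have h2 := (g.H_X t.2).choose_spec.2.2 γ hγ
    have h3 := (g.H_X (s * t).2).choose_spec.2.2 γ hγ 1
    apply Units.ext
    have e : ((s * t : ↥(D.diagonalSubgroup F)) : GL D.Idx F) * g.X γ 1 * ((s * t : ↥(D.diagonalSubgroup F)) : GL D.Idx F)⁻¹ =
      (s : GL D.Idx F) * ((t : GL D.Idx F) * g.X γ 1 * (t : GL D.Idx F)⁻¹) * (s : GL D.Idx F)⁻¹ := by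
      show ((s : GL D.Idx F) * (t : GL D.Idx F)) * g.X γ 1 * ((s : GL D.Idx F) * (t : GL D.Idx F))⁻¹ = _
      group
    rw [e, h2, h1] at h3
    have := g.X_inj hγ h3
    rw [mul_one, mul_one] at this
    rw [Units.val_mul]
    exact this.symm

open Classical in
/-- total version -/
noncomputable def ch (γ : ℕ) : ↥(D.diagonalSubgroup F) →* Fˣ := if h : γ < T.n then chr g γ h else 1

theorem ch_spec {γ : ℕ} (hγ : γ < T.n) (t : ↥(D.diagonalSubgroup F)) (u : F) :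
    (t : GL D.Idx F) * g.X γ u * (t : GL D.Idx F)⁻¹ = g.X γ ((ch g γ t : F) * u) := by
  unfold ch
  rw [dif_pos hγ]
  exact (g.H_X t.2).choose_spec.2.2 γ hγ u

theorem ch_unique {γ : ℕ} (hγ : γ < T.n) {t : ↥(D.diagonalSubgroup F)} {c : Fˣ}
    (h : (t : GL D.Idx F) * g.X γ 1 * (t : GL D.Idx F)⁻¹ = g.X γ (c : F)) : ch g γ t = c := by
  rw [ch_spec g hγ] at h
  have := g.X_inj hγ h
  rw [mul_one] at this
  exact Units.ext this

/-- linearity of characters -/
theorem ch_lin {γ : ℕ} (hγ : γ < T.n) (t : ↥(D.diagonalSubgroup F)) :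
    ch g γ t = ∏ j ∈ Finset.range T.l, ch g (T.sim j) t ^ T.v γ j := by
  obtain ⟨a, ha⟩ := g.mem_H.1 t.2
  rw [g.hel_eq_tor] at ha
  have key : ∀ γ, γ < T.n → ch g γ t = chi T (fun j => hchi T a (T.sim j)) γ := by
    intro γ hγ
    apply ch_unique g hγ
    rw [ha, g.tor_X _ hγ, mul_one, mul_inv_cancel_right]
  rw [key γ hγ]
  unfold chi
  apply Finset.prod_congr rfl
  intro j hj
  rw [key _ (g.sim_lt (Finset.mem_range.1 hj)), g.chi_sim _ (Finset.mem_range.1 hj)]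

theorem H_ext {s t : ↥(D.diagonalSubgroup F)} (h : ∀ j < T.l, ch g (T.sim j) s = ch g (T.sim j) t) : s = t := by
  have h1 : ∀ γ, γ < T.n → ch g γ (s * t⁻¹) = 1 := by
    intro γ hγ
    rw [map_mul, map_inv, ch_lin g hγ, ch_lin g hγ t, ← Finset.prod_inv_distrib, ← Finset.prod_mul_distrib]
    apply Finset.prod_eq_one
    intro j hj
    rw [h j (Finset.mem_range.1 hj), mul_inv_cancel]
  have h2 : ((s * t⁻¹ : ↥(D.diagonalSubgroup F)) : GL D.Idx F) = 1 := by
    apply H_one g (s * t⁻¹).2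
    intro r hr
    rw [ch_spec g hr, h1 r hr]
    simp
  have h3 : s * t⁻¹ = 1 := Subtype.ext h2
  exact mul_inv_eq_one.1 h3

/-- conjugation by monomial elements -/
theorem ch_conj {w : List ℕ} (hw : VW T w) {k : GL D.Idx F} (hk : k ∈ D.diagonalSubgroup F) {γ : ℕ} (hγ : γ < T.n)
    (t s : ↥(D.diagonalSubgroup F)) (h : (g.nw w * k) * (t : GL D.Idx F) * (g.nw w * k)⁻¹ = (s : GL D.Idx F)) :
    ch g (wact T w γ) s = ch g γ t := by
  obtain ⟨c, hc0, hc⟩ := g.conj_X hw hk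
  have e1 : (g.nw w * k) * ((t : GL D.Idx F) * g.X γ 1 * (t : GL D.Idx F)⁻¹) * (g.nw w * k)⁻¹ =
      (s : GL D.Idx F) * ((g.nw w * k) * g.X γ 1 * (g.nw w * k)⁻¹) * (s : GL D.Idx F)⁻¹ := by
    rw [← h]; group
  rw [ch_spec g hγ, hc γ hγ, hc γ hγ, ch_spec g (g.wact_lt hw hγ)] at e1
  have e2 := g.X_inj (g.wact_lt hw hγ) e1
  rw [mul_one, mul_one, mul_comm] at e2
  exact Units.ext (mul_right_cancel₀ (hc0 γ) e2).symm

/-- centralizer of a regular element -/
theorem cent_reg [Fintype F] {h : ↥(D.diagonalSubgroup F)} (h1 : ∀ γ < T.n, ch g γ h ≠ 1)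
    (h2 : ∀ w, VW T w → (∀ γ < T.n, ch g (wact T w γ) h = ch g γ h) → ∀ γ < T.n, wact T w γ = γ)
    {x : GL D.Idx F} (hx : x ∈ D.group F) (hc : (h : GL D.Idx F) * x * (h : GL D.Idx F)⁻¹ = x) : x ∈ D.diagonalSubgroup F := by
  classical
  have hev := g.even
  have hX : ∀ r < T.n, ∀ t, (h : GL D.Idx F) * g.X r t * (h : GL D.Idx F)⁻¹ = g.X r ((ch g r h : F) * t) := fun r hr t => ch_spec g hr h t
  obtain ⟨w, hw, u, hu, k, hk, c, hcm, rfl⟩ := CfsgLib.ChevFix.nf_exists g hx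
  have hU : Nat.card {x : GL D.Idx F // x ∈ D.posUnipotent F ∧ (h : GL D.Idx F) * x * (h : GL D.Idx F)⁻¹ = x} = 1 := by
    rw [card_cent_U g hX]
    have : (((Finset.range T.n).filter fun r => T.n / 2 ≤ r).filter fun r => (ch g r h : F) = 1) = ∅ := by
      rw [Finset.filter_eq_empty_iff]
      intro r hr he
      rw [Finset.mem_filter, Finset.mem_range] at hr
      exact h1 r hr.1 (Units.ext he)
    rw [this, Finset.card_empty, pow_zero]
  have hU1 : ∀ v ∈ D.posUnipotent F, (h : GL D.Idx F) * v * (h : GL D.Idx F)⁻¹ = v → v = 1 := by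
    intro v hv he
    haveI := (Nat.card_eq_one_iff_unique.1 hU).1
    have := Subsingleton.elim (⟨v, hv, he⟩ : {x : GL D.Idx F // x ∈ D.posUnipotent F ∧ (h : GL D.Idx F) * x * (h : GL D.Idx F)⁻¹ = x})
      ⟨1, Subgroup.one_mem _, by group⟩
    exact congrArg Subtype.val this
  have hz := h.2
  set z : GL D.Idx F := (h : GL D.Idx F) with hzd
  have hkk : (g.nw w)⁻¹ * z * ((g.nw w)⁻¹)⁻¹ * k * z⁻¹ ∈ D.diagonalSubgroup F :=
    Subgroup.mul_mem _ (Subgroup.mul_mem _ (g.N_H (Subgroup.inv_mem _ (g.nw_mem_N hw)) hz) hk) (Subgroup.inv_mem _ hz)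
  have e1 : z * (u * g.nw w * k * c) * z⁻¹ =
      (z * u * z⁻¹) * g.nw w * ((g.nw w)⁻¹ * z * ((g.nw w)⁻¹)⁻¹ * k * z⁻¹) * (z * c * z⁻¹) := by group
  rw [e1] at hc
  obtain ⟨b1, b2, b3⟩ := CfsgLib.ChevFix.nf_unique g hw (g.H_norm_U hz hu) hu hkk hk (g.Um_H hz hcm) hcm hc
  have hu1 := hU1 u hu b1
  have hc1 := hU1 c (g.Um_le_U _ hcm) b3
  have hcomm : z * g.nw w = g.nw w * z := by
    have a1 : (g.nw w)⁻¹ * z * ((g.nw w)⁻¹)⁻¹ * (z⁻¹ * k) = k := by
      rw [H_cm g (Subgroup.inv_mem _ hz) hk, ← mul_assoc]; exact b2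
    have a2 : (g.nw w)⁻¹ * z * ((g.nw w)⁻¹)⁻¹ * z⁻¹ = 1 := by
      have : (g.nw w)⁻¹ * z * ((g.nw w)⁻¹)⁻¹ * z⁻¹ = ((g.nw w)⁻¹ * z * ((g.nw w)⁻¹)⁻¹ * (z⁻¹ * k)) * k⁻¹ := by group
      rw [this, a1]; group
    have a3 : z = g.nw w * ((g.nw w)⁻¹ * z * ((g.nw w)⁻¹)⁻¹ * z⁻¹) * z * (g.nw w)⁻¹ := by group
    rw [a2] at a3
    calc z * g.nw w = (g.nw w * 1 * z * (g.nw w)⁻¹) * g.nw w := by rw [← a3]
      _ = _ := by group
  have h3 := h2 w hw (by
    intro γ hγ
    apply ch_conj g hw (Subgroup.one_mem _) hγ h h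
    rw [mul_one]
    show g.nw w * z * (g.nw w)⁻¹ = z
    rw [← hcomm]; group)
  have h4 : g.nw (F := F) w ∈ D.diagonalSubgroup F := by
    apply g.mem_H_of_pos hw
    intro i hi
    rw [h3 _ (g.sim_lt hi)]
    exact g.sim_pos hi
  rw [hu1, hc1, one_mul, mul_one]
  exact Subgroup.mul_mem _ h4 hk

end

end CfsgLib.MT
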