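import Mathlib
import Cfsg.Agent.LibTor6

set_option autoImplicit false
set_option linter.all false
set_option maxRecDepth 100000

/-! maximal tori via Sylow subgroups, 7: the Weyl group of type F₄ (seat helper23) -/

namespace CfsgLib.MT

open Cfsg.Lie Matrix CfsgLib.Chev CfsgLib.Chev.Good3 CfsgLib.OI CfsgLib.ChevFix

theorem simF : ∀ j < 4, tF4.sim j ∈ simL := by decide +kernel
theorem simF' : ∀ s ∈ simL, ∃ j < 4, tF4.sim j = s := by decide +kernel
theorem simlt : ∀ s ∈ simL, s < 48 := by decide +kernel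

/-- words with the same code act equally -/
theorem cde_eq {w w' : List ℕ} (hw : VW tF4 w) (hw' : VW tF4 w') (h : cde w = cde w') : ∀ r < tF4.n, wact tF4 w r = wact tF4 w' r := by
  have hlt : ∀ {w : List ℕ}, VW tF4 w → ∀ s < 48, wact tF4 w s < 48 := fun hw s hs => good3_F4.wact_lt hw hs
  have a0 := hlt hw 33 (by norm_num)
  have a1 := hlt hw 27 (by norm_num)
  have a2 := hlt hw 25 (by norm_num)
  have a3 := hlt hw 24 (by norm_num)
  have b0 := hlt hw' 33 (by norm_num)
  have b1 := hlt hw' 27 (by norm_num)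
  have b2 := hlt hw' 25 (by norm_num)
  have b3 := hlt hw' 24 (by norm_num)
  unfold cde at h
  have h0 : wact tF4 w 33 = wact tF4 w' 33 := by omega
  have h1 : wact tF4 w 27 = wact tF4 w' 27 := by omega
  have h2 : wact tF4 w 25 = wact tF4 w' 25 := by omega
  have h3 : wact tF4 w 24 = wact tF4 w' 24 := by omega
  have hs : ∀ i < tF4.l, wact tF4 w (tF4.sim i) = wact tF4 w' (tF4.sim i) := by
    intro i hi
    have := simF i hi
    simp only [simL, List.mem_cons, List.not_mem_nil, or_false] at this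
    rcases this with h | h | h | h <;> rw [h] <;> assumption
  intro r hr
  apply good3_F4.idx_ext (good3_F4.wact_lt hw hr) (good3_F4.wact_lt hw' hr)
  intro j hj
  rw [good3_F4.v_wact hw hr hj, good3_F4.v_wact hw' hr hj]
  apply Finset.sum_congr rfl
  intro i hi
  rw [hs i (Finset.mem_range.1 hi)]

/-- every word acts as a word of the tree -/
theorem in_tree : ∀ w, VW tF4 w → ∃ wd o u st, wt.Has (cde w) wd o u st
  | [], _ => WT.find_sound wt wt_nil
  | i :: w, hw => by
    have hw' : VW tF4 w := fun k hk => hw k (List.mem_cons_of_mem _ hk)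
    obtain ⟨wd, o, u, st, h⟩ := in_tree w hw'
    have h1 := WT.all_sound wt wt_chk h
    unfold fchk at h1
    rw [Bool.and_eq_true, Bool.and_eq_true, Bool.and_eq_true, Bool.and_eq_true] at h1
    obtain ⟨⟨h2, h3⟩, h4, _⟩ := h1
    have hV : VW tF4 (dw 30 wd) := by
      intro k hk
      have := (List.all_eq_true.1 h2) k hk
      rw [Nat.blt_eq] at this
      exact this
    have h5 := Nat.eq_of_beq_eq_true h3
    have h6 := cde_eq hw' hV h5
    have hi : i < 4 := hw i List.mem_cons_self
    have h7 := (List.all_eq_true.1 h4) i (List.mem_range.2 hi)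
    have h8 : cde (i :: w) = cde (i :: dw 30 wd) := by
      unfold cde
      rw [wact_cons, wact_cons, wact_cons, wact_cons, wact_cons, wact_cons, wact_cons, wact_cons,
        h6 33 (by decide +kernel), h6 27 (by decide +kernel), h6 25 (by decide +kernel), h6 24 (by decide +kernel)]
    rw [h8]
    exact WT.find_sound wt h7

/-- all the information on an element of the Weyl group of type F₄ -/
theorem F4_info {w : List ℕ} (hw : VW tF4 w) : ∃ W, VW tF4 W ∧ (∀ r < tF4.n, wact tF4 w r = wact tF4 W r) ∧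
    ((∃ o, 12 % o = 0 ∧ o ≠ 0 ∧ ∀ s ∈ simL, itn (wact tF4 W) o s = s) ∨ (∃ U, VW tF4 U ∧ cde (U ++ W ++ U.reverse) = cde w0)) ∧
    ((∃ γ < 48, ∃ β < 48, ∃ k : ℕ, (k = 1 ∨ k = 2) ∧ ∀ j < 4, tF4.v (wact tF4 W γ) j - tF4.v γ j = (k : ℤ) * tF4.v β j) ∨
      (∀ s ∈ simL, wact tF4 W s = s) ∨
      (∀ s ∈ simL, ∀ j < 4, tF4.v s j + tF4.v (wact tF4 W s) j + tF4.v (wact tF4 W (wact tF4 W s)) j = 0)) := by
  obtain ⟨wd, o, u, st, h⟩ := in_tree w hw
  have h1 := WT.all_sound wt wt_chk h
  unfold fchk at h1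
  rw [Bool.and_eq_true, Bool.and_eq_true, Bool.and_eq_true, Bool.and_eq_true] at h1
  obtain ⟨⟨h2, h3⟩, _, h4, h5⟩ := h1
  have hV : VW tF4 (dw 30 wd) := by
    intro k hk
    have := (List.all_eq_true.1 h2) k hk
    rw [Nat.blt_eq] at this
    exact this
  refine ⟨dw 30 wd, hV, cde_eq hw hV (Nat.eq_of_beq_eq_true h3), ?_, ?_⟩
  · cases ho : Nat.beq o 0 with
    | true =>
      rw [ho, cond_true] at h4
      right
      unfold chkU at h4
      rw [Bool.and_eq_true] at h4
      refine ⟨dw 30 u, ?_, Nat.eq_of_beq_eq_true h4.2⟩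
      intro k hk
      have := (List.all_eq_true.1 h4.1) k hk
      rw [Nat.blt_eq] at this
      exact this
    | false =>
      rw [ho, cond_false] at h4
      left
      unfold chkO at h4
      rw [Bool.and_eq_true, List.all_eq_true] at h4
      refine ⟨o, Nat.eq_of_beq_eq_true h4.1, ?_, fun s hs => Nat.eq_of_beq_eq_true (h4.2 s hs)⟩
      rintro rfl
      exact absurd ho (by decide)
  · unfold chkS at h5
    simp only [Bool.or_eq_true, Bool.and_eq_true, List.all_eq_true, decide_eq_true_eq, List.mem_range, Nat.blt_eq] at h5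
    rcases h5 with h6 | h6 | h6
    · left
      refine ⟨st % 64, h6.1.2.1, st / 64 % 64, h6.1.2.2, st / 4096, ?_, h6.2⟩
      rcases h6.1.1 with h | h
      · exact Or.inl (Nat.eq_of_beq_eq_true h)
      · exact Or.inr (Nat.eq_of_beq_eq_true h)
    · right; left
      intro s hs
      exact Nat.eq_of_beq_eq_true (h6 s hs)
    · right; right; exact h6

end CfsgLib.MT
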