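import Mathlib
import Cfsg.Agent.LibTor7

set_option autoImplicit false
set_option linter.all false
set_option maxRecDepth 100000

/-! maximal tori via Sylow subgroups, 8: F₄ (seat helper23) -/

namespace CfsgLib.MT

open Cfsg.Lie Matrix CfsgLib.Chev CfsgLib.Chev.Good3 CfsgLib.OI CfsgLib.ChevFix

section
variable {D : ChevalleyDatum} {T : Tb} (g : Good3 D T)
include g

/-- parity of the length -/
theorem ninv_par {w : List ℕ} (hw : VW T w) : ninv T w % 2 = w.length % 2 := by
  have hev := g.even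
  induction w using List.reverseRecOn with
  | nil =>
    have : ninv T [] = 0 := by
      unfold ninv
      rw [Finset.card_eq_zero, Finset.filter_eq_empty_iff]
      rintro r hr ⟨h1, h2⟩
      rw [wact_nil] at h2
      omega
    rw [this]; rfl
  | append_singleton w i ih =>
    have hw' : VW T w := fun k hk => hw k (List.mem_append_left _ hk)
    have hi : i < T.l := hw i (by simp)
    have ih' := ih hw'
    rw [List.length_append, List.length_singleton]
    have hs := g.sim_lt hi
    by_cases h : T.n / 2 ≤ wact T w (T.sim i)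
    · rw [g.ninv_append hw' hi h]; omega
    · have h2 := g.ninv_append hw hi (by
        rw [wact_append, wact_cons, wact_nil, g.w_sim hi, g.wact_neg hw' hs]
        have := g.wact_lt hw' hs
        omega)
      have h3 : ninv T (w ++ [i] ++ [i]) = ninv T w := by
        apply ninv_congr g
        intro r hr
        rw [wact_append, wact_append, wact_cons, wact_nil, wact_cons, wact_nil, g.w_w hi hr]
      omega

theorem rev_act {w : List ℕ} (hw : VW T w) {r : ℕ} (hr : r < T.n) : wact T w (wact T w.reverse r) = r ∧ wact T w.reverse (wact T w r) = r := by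
  have hV := VW_reverse hw
  have h1 : g.pw (w ++ w.reverse) = g.pw [] := by rw [g.pw_append, g.pw_reverse hw, mul_inv_cancel, g.pw_nil]
  have h2 : g.pw (w.reverse ++ w) = g.pw [] := by rw [g.pw_append, g.pw_reverse hw, inv_mul_cancel, g.pw_nil]
  constructor
  · have := (g.pw_eq_iff (g.VW_append hw hV) (by intro k hk; simp at hk)).1 h1 r hr
    rwa [wact_append, wact_nil] at this
  · have := (g.pw_eq_iff (g.VW_append hV hw) (by intro k hk; simp at hk)).1 h2 r hr
    rwa [wact_append, wact_nil] at this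

theorem root_word : ∀ β < T.n, ∃ u, VW T u ∧ ∃ i < T.l, wact T u (T.sim i) = β := by
  apply g.root_ind
  · intro i hi
    exact ⟨[], by intro k hk; simp at hk, i, hi, rfl⟩
  · intro i hi r hr h
    obtain ⟨u, hu, j, hj, hje⟩ := h
    refine ⟨i :: u, ?_, j, hj, ?_⟩
    · exact g.VW_append (v := [i]) (g.VW_single hi) hu
    · rw [wact_cons, hje, g.w_w hi hr]

variable {F : Type*} [Field F]

/-- a reflection fixing h -/
theorem refl_fix {h : ↥(D.diagonalSubgroup F)} {β : ℕ} (hβ : β < T.n) (h1 : ch g β h = 1) :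
    ∃ u, VW T u ∧ ∃ i < T.l, ∀ γ < T.n, ch g (wact T (u ++ [i] ++ u.reverse) γ) h = ch g γ h := by
  obtain ⟨u, hu, i, hi, rfl⟩ := root_word g β hβ
  refine ⟨u, hu, i, hi, ?_⟩
  intro γ hγ
  have hh' : (g.nw (F := F) u)⁻¹ * (h : GL D.Idx F) * ((g.nw (F := F) u)⁻¹)⁻¹ ∈ D.diagonalSubgroup F := g.N_H (Subgroup.inv_mem _ (g.nw_mem_N (F := F) hu)) h.2
  set h' : ↥(D.diagonalSubgroup F) := ⟨_, hh'⟩ with hd
  have key : ∀ δ < T.n, ch g (wact T u δ) h = ch g δ h' := by
    intro δ hδ
    apply ch_conj g hu (Subgroup.one_mem _) hδ h' h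
    show (g.nw (F := F) u * 1) * ((g.nw (F := F) u)⁻¹ * (h : GL D.Idx F) * ((g.nw (F := F) u)⁻¹)⁻¹) * (g.nw (F := F) u * 1)⁻¹ = h
    group
  have hr := g.wact_lt (VW_reverse hu) hγ
  rw [wact_append, wact_append, wact_cons, wact_nil, key _ (g.w_lt hi hr)]
  have h2 : ch g (T.sim i) h' = 1 := by rw [← key _ (g.sim_lt hi)]; exact h1
  have h3 := ch_rel g (γ := T.w i (wact T u.reverse γ)) (β := wact T u.reverse γ) (δ := T.sim i) (g.w_lt hi hr) hr (g.sim_lt hi)
    (a := 1) (m := 1) (k := -T.A i (wact T u.reverse γ)) (by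
      intro j hj
      rw [g.v_w hi hr hj, g.v_sim hi hj]
      by_cases hji : j = i
      · subst hji; simp; ring
      · rw [if_neg hji, if_neg (Ne.symm hji)]; ring) h'
  rw [_root_.zpow_one, _root_.zpow_one, h2, _root_.one_zpow, mul_one] at h3
  rw [h3, ← key _ hr, (rev_act g hu hγ).1]

end

section
variable {L : Type*} [Field L] [Fintype L] {q r : ℕ}

theorem reg_F4 [hr : Fact r.Prime] (hr2 : r ≠ 2) (hr3 : r ≠ 3) (hd : r ∣ q ^ 4 + 1)
    {h : ↥(chevF4.diagonalSubgroup L)} (ho : orderOf h = r) {w : List ℕ} (hw : VW tF4 w)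
    (hch : ∀ γ < tF4.n, ch good3_F4 (wact tF4 w γ) h ^ q = ch good3_F4 γ h) :
    (∃ U, VW tF4 U ∧ ∀ r < tF4.n, wact tF4 (U ++ w ++ U.reverse) r = wact tF4 w0 r) ∧ (∀ γ < tF4.n, ch good3_F4 γ h ≠ 1) ∧
    (∀ w, VW tF4 w → (∀ γ < tF4.n, ch good3_F4 (wact tF4 w γ) h = ch good3_F4 γ h) → ∀ γ < tF4.n, wact tF4 w γ = γ) := by
  have g := good3_F4
  have hn : tF4.n = 48 := rfl
  have hl : tF4.l = 4 := rfl
  have hpr : ∀ γ, ch good3_F4 γ h ^ r = 1 := by
    intro γ
    rw [← map_pow, ← ho, pow_orderOf_eq_one, map_one]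
  have hne : ¬ ∀ s ∈ simL, ch good3_F4 s h = 1 := by
    intro h1
    have : h = 1 := by
      apply H_ext good3_F4
      intro j hj
      rw [map_one]
      exact h1 _ (simF j hj)
    rw [this, orderOf_one] at ho
    exact hr.out.one_lt.ne ho
  have hw0V : VW tF4 w0 := by intro k hk; simp [w0] at hk; rw [hl]; omega
  have cp : ∀ m : ℕ, m < 4 → 0 < m → Nat.Coprime m r := by
    intro m hm hm0
    rw [Nat.coprime_comm, hr.out.coprime_iff_not_dvd]
    intro h7
    have h8 := Nat.le_of_dvd hm0 h7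
    have h9 := hr.out.two_le
    omega
  -- part 1
  have part1 : ∀ w, VW tF4 w → (∀ γ < tF4.n, ch good3_F4 (wact tF4 w γ) h ^ q = ch good3_F4 γ h) →
      ∃ U, VW tF4 U ∧ ∀ r < tF4.n, wact tF4 (U ++ w ++ U.reverse) r = wact tF4 w0 r := by
    intro w hw hch
    obtain ⟨W, hW, hwW, hA, _⟩ := F4_info hw
    rcases hA with ⟨o, ho1, ho2, ho3⟩ | ⟨U, hU, hU2⟩
    · exfalso
      apply hne
      intro s hs
      have hs48 := simlt s hs
      have hit : ∀ k, itn (wact tF4 W) k s < 48 ∧ ch good3_F4 s h = ch good3_F4 (itn (wact tF4 W) k s) h ^ (q ^ k) := by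
        intro k
        induction k with
        | zero => exact ⟨hs48, by simp [itn]⟩
        | succ k ih =>
          refine ⟨g.wact_lt hW ih.1, ?_⟩
          rw [ih.2]
          have := hch _ ih.1
          rw [hwW _ ih.1] at this
          show _ = ch good3_F4 (wact tF4 W (itn (wact tF4 W) k s)) h ^ (q ^ (k + 1))
          rw [pow_succ' q k, pow_mul, this]
      have h1 := (hit o).2
      rw [ho3 s hs] at h1
      have hq0 : 0 < q := by
        rcases Nat.eq_zero_or_pos q with h0 | h0
        · rw [h0] at hd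
          have : r ∣ 1 := by simpa using hd
          exact absurd (Nat.dvd_one.1 this) hr.out.ne_one
        · exact h0
      have hq1 : 1 ≤ q ^ o := Nat.one_le_pow _ _ hq0
      have e4 : ch good3_F4 s h ^ (q ^ o - 1) = 1 := by
        have : ch good3_F4 s h ^ (q ^ o) = ch good3_F4 s h ^ (q ^ o - 1) * ch good3_F4 s h := by
          rw [← pow_succ, Nat.sub_add_cancel hq1]
        rw [this] at h1
        exact (mul_eq_right.1 h1.symm)
      refine cop_one ?_ e4 (hpr s)
      rw [Nat.coprime_comm, hr.out.coprime_iff_not_dvd]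
      intro h5
      obtain ⟨m, hm⟩ : o ∣ 12 := Nat.dvd_of_mod_eq_zero ho1
      have h6 : q ^ o - 1 ∣ q ^ 12 - 1 := by
        rw [hm, pow_mul]
        exact Nat.sub_one_dvd_pow_sub_one _ _
      have h7 : r ∣ q ^ 12 - 1 := h5.trans h6
      have h8 : r ∣ q ^ 12 + 1 := by
        have : q ^ 4 + 1 ∣ (q ^ 4) ^ 3 + 1 ^ 3 := Odd.nat_add_dvd_pow_add_pow _ _ (by decide)
        rw [← pow_mul, one_pow] at this
        exact hd.trans this
      have hq12 : 1 ≤ q ^ 12 := Nat.one_le_pow _ _ hq0
      have h9 : r ∣ 2 := by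
        have := Nat.dvd_sub h8 h7
        have e : q ^ 12 + 1 - (q ^ 12 - 1) = 2 := by omega
        rwa [e] at this
      exact hr2 ((Nat.prime_dvd_prime_iff_eq hr.out Nat.prime_two).1 h9)
    · refine ⟨U, hU, ?_⟩
      have hV1 := g.VW_append (g.VW_append hU hW) (VW_reverse hU)
      have h1 := cde_eq hV1 hw0V hU2
      intro r hr
      rw [← h1 r hr, wact_append, wact_append, wact_append, wact_append, hwW _ (g.wact_lt (VW_reverse hU) hr)]
  have par : ∀ w, VW tF4 w → (∀ γ < tF4.n, ch good3_F4 (wact tF4 w γ) h ^ q = ch good3_F4 γ h) → w.length % 2 = 0 := by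
    intro w hw hch
    obtain ⟨U, hU, h1⟩ := part1 w hw hch
    have h2 := ninv_congr g h1
    have h3 := ninv_par g (g.VW_append (g.VW_append hU hw) (VW_reverse hU))
    have h4 := ninv_par g hw0V
    rw [h2, h4] at h3
    rw [List.length_append, List.length_append, List.length_reverse] at h3
    have : w0.length = 6 := rfl
    omega
  have part2 : ∀ γ < tF4.n, ch good3_F4 γ h ≠ 1 := by
    intro β hβ h1
    obtain ⟨u, hu, i, hi, h2⟩ := refl_fix g hβ h1
    have hVs : VW tF4 (u ++ [i] ++ u.reverse) := g.VW_append (g.VW_append hu (g.VW_single hi)) (VW_reverse hu)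
    have h3 := par _ hw hch
    have h4 := par (u ++ [i] ++ u.reverse ++ w) (g.VW_append hVs hw) (by
      intro γ hγ
      rw [wact_append, h2 _ (g.wact_lt hw hγ)]
      exact hch γ hγ)
    simp only [List.length_append, List.length_reverse, List.length_singleton] at h4
    omega
  refine ⟨part1 w hw hch, part2, ?_⟩
  intro w' hw' h1 γ hγ
  obtain ⟨W, hW, hwW, _, hS⟩ := F4_info hw'
  rcases hS with ⟨a, ha, b, hb, k, hk, h2⟩ | h2 | h2
  · exfalso
    have h5 := ch_rel good3_F4 (γ := wact tF4 W a) (β := a) (δ := b) (g.wact_lt hW ha) ha hb (a := 1) (m := 1) (k := (k : ℤ))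
      (by intro j hj; have := h2 j hj; linear_combination this) h
    rw [_root_.zpow_one, _root_.zpow_one, ← hwW a ha, h1 a ha, zpow_natCast] at h5
    have h6 : ch good3_F4 b h ^ k = 1 := mul_eq_left.1 h5.symm
    apply part2 b hb
    rcases hk with rfl | rfl
    · rwa [pow_one] at h6
    · exact cop_one (cp 2 (by norm_num) (by norm_num)) h6 (hpr b)
  · have h3 : cde W = cde [] := by
      unfold cde
      rw [h2 33 (by decide), h2 27 (by decide), h2 25 (by decide), h2 24 (by decide)]
      rfl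
    rw [hwW γ hγ, cde_eq hW (by intro k hk; simp at hk) h3 γ hγ, wact_nil]
  · exfalso
    apply hne
    intro s hs
    have hs48 := simlt s hs
    have hWs := g.wact_lt hW hs48
    have h5 := ch_rel good3_F4 (γ := wact tF4 W (wact tF4 W s)) (β := s) (δ := wact tF4 W s) (g.wact_lt hW hWs) hs48 hWs
      (a := 1) (m := -1) (k := -1) (by intro j hj; have := h2 s hs j hj; linear_combination this) h
    have e1 : ch good3_F4 (wact tF4 W s) h = ch good3_F4 s h := by rw [← hwW s hs48]; exact h1 s hs48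
    have e2 : ch good3_F4 (wact tF4 W (wact tF4 W s)) h = ch good3_F4 s h := by
      rw [← hwW _ hWs, h1 _ hWs, e1]
    rw [e1, e2, _root_.zpow_one, _root_.zpow_neg, _root_.zpow_one] at h5
    refine cop_one (cp 3 (by norm_num) (by norm_num)) ?_ (hpr s)
    rw [pow_succ, pow_two]
    nth_rewrite 3 [h5]
    group

end

end CfsgLib.MT
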