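import Mathlib
import Cfsg.Agent.LibTor8

set_option autoImplicit false
set_option linter.all false
set_option maxRecDepth 100000

/-! maximal tori via Sylow subgroups, 9: F₄ (seat helper23) -/

namespace CfsgLib.MT

open Cfsg.Lie Matrix CfsgLib.Chev CfsgLib.Chev.Good3 CfsgLib.OI CfsgLib.ChevFix

theorem card_F4_nat (F : Type*) [Field F] [Fintype F] : Nat.card (chevF4.group F) =
    Fintype.card F ^ 24 * ((Fintype.card F ^ 2 - 1) * (Fintype.card F ^ 6 - 1) * (Fintype.card F ^ 8 - 1) * (Fintype.card F ^ 12 - 1)) := by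
  have h := good3_F4.card_formula (F := F) ocnn_F4 poin_F4 smith_F4 rfl
  have e : (([-1, -1, -1, -1] : List ℤ).map fun z => Nat.gcd z.natAbs (Fintype.card F - 1)).prod = 1 := by simp
  rw [e, one_mul] at h
  rw [h]
  have hn : tF4.n / 2 = 24 := rfl
  rw [hn]
  simp [mul_assoc]

theorem index_F4 {L : Type*} [Field L] [Fintype L] {r : ℕ} [hr : Fact r.Prime] (hr2 : r ≠ 2) (hr3 : r ≠ 3) (hd : r ∣ Fintype.card L - 1) :
    ¬ r ∣ ((chevF4.diagonalSubgroup L).subgroupOf (chevF4.group L)).index := by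
  intro hdiv
  have h1 := Subgroup.card_mul_index ((chevF4.diagonalSubgroup L).subgroupOf (chevF4.group L))
  rw [card_F4_nat, Nat.card_congr (Subgroup.subgroupOfEquivOfLe good3_F4.H_le_G).toEquiv] at h1
  have h2 : (Nat.card (chevF4.diagonalSubgroup L) : ℤ) = ((Fintype.card L : ℤ) - 1) ^ 4 :=
    card_H_one good3_F4 smith_F4 rfl (by decide +kernel)
  set Q := Fintype.card L with hQ
  have hQ2 : 2 ≤ Q := Fintype.one_lt_card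
  have hq : 1 ≤ Q := by omega
  have h3 := congrArg (Nat.cast : ℕ → ℤ) h1
  push_cast [Nat.cast_sub (Nat.one_le_pow _ _ hq)] at h3
  rw [h2] at h3
  have hne : ((Q : ℤ) - 1) ^ 4 ≠ 0 := pow_ne_zero _ (by omega)
  have h4 : (((chevF4.diagonalSubgroup L).subgroupOf (chevF4.group L)).index : ℤ) = (Q : ℤ) ^ 24 * (((Q : ℤ) + 1) *
      (1 + Q + (Q : ℤ) ^ 2 + (Q : ℤ) ^ 3 + (Q : ℤ) ^ 4 + (Q : ℤ) ^ 5) *
      (1 + Q + (Q : ℤ) ^ 2 + (Q : ℤ) ^ 3 + (Q : ℤ) ^ 4 + (Q : ℤ) ^ 5 + (Q : ℤ) ^ 6 + (Q : ℤ) ^ 7) *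
      (1 + Q + (Q : ℤ) ^ 2 + (Q : ℤ) ^ 3 + (Q : ℤ) ^ 4 + (Q : ℤ) ^ 5 + (Q : ℤ) ^ 6 + (Q : ℤ) ^ 7 + (Q : ℤ) ^ 8 + (Q : ℤ) ^ 9 + (Q : ℤ) ^ 10 + (Q : ℤ) ^ 11)) := by
    apply mul_left_cancel₀ hne
    rw [h3]; ring
  have h5 : (r : ℤ) ∣ (Q : ℤ) - 1 := by
    have := Int.natCast_dvd_natCast.2 hd
    rwa [Nat.cast_sub hq, Nat.cast_one] at this
  have h6 : (r : ℤ) ∣ (((chevF4.diagonalSubgroup L).subgroupOf (chevF4.group L)).index : ℤ) := Int.natCast_dvd_natCast.2 hdiv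
  rw [h4] at h6
  have h7 : (Q : ℤ) ≡ 1 [ZMOD r] := (Int.modEq_iff_dvd.2 (by
    have : (1 : ℤ) - Q = -((Q : ℤ) - 1) := by ring
    rw [this]; exact (dvd_neg.2 h5)))
  have h8 : (Q : ℤ) ^ 24 * (((Q : ℤ) + 1) *
      (1 + Q + (Q : ℤ) ^ 2 + (Q : ℤ) ^ 3 + (Q : ℤ) ^ 4 + (Q : ℤ) ^ 5) *
      (1 + Q + (Q : ℤ) ^ 2 + (Q : ℤ) ^ 3 + (Q : ℤ) ^ 4 + (Q : ℤ) ^ 5 + (Q : ℤ) ^ 6 + (Q : ℤ) ^ 7) *
      (1 + Q + (Q : ℤ) ^ 2 + (Q : ℤ) ^ 3 + (Q : ℤ) ^ 4 + (Q : ℤ) ^ 5 + (Q : ℤ) ^ 6 + (Q : ℤ) ^ 7 + (Q : ℤ) ^ 8 + (Q : ℤ) ^ 9 + (Q : ℤ) ^ 10 + (Q : ℤ) ^ 11)) ≡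
      1 ^ 24 * ((1 + 1) * (1 + 1 + 1 ^ 2 + 1 ^ 3 + 1 ^ 4 + 1 ^ 5) * (1 + 1 + 1 ^ 2 + 1 ^ 3 + 1 ^ 4 + 1 ^ 5 + 1 ^ 6 + 1 ^ 7) *
        (1 + 1 + 1 ^ 2 + 1 ^ 3 + 1 ^ 4 + 1 ^ 5 + 1 ^ 6 + 1 ^ 7 + 1 ^ 8 + 1 ^ 9 + 1 ^ 10 + 1 ^ 11)) [ZMOD r] := by
    have a6 := ((((h7.add_left 1).add (h7.pow 2)).add (h7.pow 3)).add (h7.pow 4)).add (h7.pow 5)
    have a8 := (a6.add (h7.pow 6)).add (h7.pow 7)
    have a12 := (((a8.add (h7.pow 8)).add (h7.pow 9)).add (h7.pow 10)).add (h7.pow 11)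
    exact (h7.pow 24).mul ((((h7.add_right 1).mul a6).mul a8).mul a12)
  have h10 : (r : ℤ) ∣ 1152 := by
    have := Int.emod_eq_zero_of_dvd h6
    have h11 := h8
    unfold Int.ModEq at h11
    rw [this] at h11
    norm_num at h11
    exact Int.dvd_of_emod_eq_zero h11.symm
  have h12 : r ∣ 1152 := by exact_mod_cast h10
  have h13 : r ∣ 2 ^ 7 * 3 ^ 2 := by norm_num; exact h12
  rcases (hr.out.dvd_mul).1 h13 with h | h
  · exact hr2 ((Nat.prime_dvd_prime_iff_eq hr.out Nat.prime_two).1 (hr.out.dvd_of_dvd_pow h))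
  · exact hr3 ((Nat.prime_dvd_prime_iff_eq hr.out Nat.prime_three).1 (hr.out.dvd_of_dvd_pow h))

theorem exists_r4 {q : ℕ} (hq : 2 ≤ q) : ∃ r, r.Prime ∧ r ≠ 2 ∧ r ≠ 3 ∧ r ∣ q ^ 4 + 1 := by
  by_contra hcon
  push Not at hcon
  have h1 : ∀ {d : ℕ}, d.Prime → d ∣ q ^ 4 + 1 → d = 2 := by
    intro d hd hdv
    by_contra h3
    have h2 : d = 3 := by
      by_contra h2
      exact hcon d hd h3 h2 hdv
    subst h2
    have h6 : ((q ^ 4 + 1 : ℕ) : ZMod 3) = 0 := (ZMod.natCast_eq_zero_iff _ _).2 hdv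
    push_cast at h6
    have h7 : ∀ x : ZMod 3, x ^ 4 + 1 ≠ 0 := by decide
    exact h7 _ h6
  have h2 := Nat.eq_prime_pow_of_unique_prime_dvd (by positivity) h1
  set m := (q ^ 4 + 1).primeFactorsList.length
  have h3 : 17 ≤ q ^ 4 + 1 := by
    have := Nat.pow_le_pow_left hq 4
    omega
  have h4 : 2 ≤ m := by
    by_contra h5
    have : m = 0 ∨ m = 1 := by omega
    rcases this with h | h <;> rw [h] at h2 <;> omega
  have h5 : 4 ∣ q ^ 4 + 1 := by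
    rw [h2]
    have : (4 : ℕ) = 2 ^ 2 := by norm_num
    rw [this]
    exact pow_dvd_pow 2 h4
  have h6 : ((q ^ 4 + 1 : ℕ) : ZMod 4) = 0 := (ZMod.natCast_eq_zero_iff _ _).2 h5
  push_cast at h6
  have h7 : ∀ x : ZMod 4, x ^ 4 + 1 ≠ 0 := by decide
  exact h7 _ h6

/-- arbitrary character values (powers of b) -/
theorem exists_b {L : Type*} [Field L] (b : Lˣ) (n : ℕ → ℤ) : ∃ t : ↥(chevF4.diagonalSubgroup L), ∀ γ < 48,
    ch good3_F4 γ t = b ^ (n 0 * tF4.A 0 γ + n 1 * tF4.A 1 γ + n 2 * tF4.A 2 γ + n 3 * tF4.A 3 γ) := by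
  refine ⟨⟨hel chevF4 tF4 (fun i => b ^ n i), good3_F4.hel_mem _⟩, ?_⟩
  intro γ hγ
  apply ch_unique good3_F4 hγ
  show hel chevF4 tF4 _ * good3_F4.X γ 1 * (hel chevF4 tF4 _)⁻¹ = _
  rw [good3_F4.hel_X _ hγ, mul_one]
  congr 1
  unfold hchi
  rw [show tF4.l = 4 from rfl, Finset.prod_range_succ, Finset.prod_range_succ, Finset.prod_range_succ, Finset.prod_range_succ,
    Finset.prod_range_zero, one_mul]
  congr 1
  simp only [← _root_.zpow_mul, ← _root_.zpow_add]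

def repF : List (ℤ × ℤ × ℤ × ℤ) := [(-1, -2, -1, 0), (-1, -1, -1, 1), (-2, -1, 0, 1), (-1, -1, 0, 1), (0, -1, 0, 1), (-1, -1, 1, 1), (-1, 0, 1, 2), (-1, -1, -1, 0), (0, -1, -1, 0), (-1, -1, 0, 0), (-1, 0, 0, 1), (0, -1, 0, 0), (0, 0, 0, 1), (-1, 0, 1, 1), (0, 0, 1, 1), (0, -1, -2, -1), (-1, -1, -1, -1), (-1, 0, -1, 0), (0, -1, -1, -1), (0, 0, -1, 0), (-1, 0, 0, 0), (1, -1, -1, -1), (1, 0, -1, 0), (0, -1, 0, -1), (0, 1, 0, 1), (-1, 0, 1, 0), (-1, 1, 1, 1), (1, 0, 0, 0), (0, 0, 1, 0), (0, 1, 1, 1), (1, 0, 1, 0), (1, 1, 1, 1), (0, 1, 2, 1), (0, 0, -1, -1), (1, 0, -1, -1), (0, 0, 0, -1), (0, 1, 0, 0), (1, 0, 0, -1), (1, 1, 0, 0), (0, 1, 1, 0), (1, 1, 1, 0), (1, 0, -1, -2), (1, 1, -1, -1), (0, 1, 0, -1), (1, 1, 0, -1), (2, 1, 0, -1), (1, 1, 1, -1), (1, 2, 1, 0)]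

theorem repF_chk : ∀ γ < 48, ∀ j < 4,
    tF4.v γ j = (repF.getD γ 0).1 * tF4.v 27 j + (repF.getD γ 0).2.1 * tF4.v 36 j + (repF.getD γ 0).2.2.1 * tF4.v 28 j + (repF.getD γ 0).2.2.2 * tF4.v 12 j ∧
    tF4.v (wact tF4 w0 γ) j = -(repF.getD γ 0).2.2.2 * tF4.v 27 j + (repF.getD γ 0).1 * tF4.v 36 j + (repF.getD γ 0).2.1 * tF4.v 28 j + (repF.getD γ 0).2.2.1 * tF4.v 12 j := by
  decide +kernel

theorem w0_val : wact tF4 w0 27 = 36 ∧ wact tF4 w0 36 = 28 ∧ wact tF4 w0 28 = 12 ∧ wact tF4 w0 12 = 47 - 27 := by decide +kernel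

section
variable {D : ChevalleyDatum} {T : Tb} (g : Good3 D T) {F : Type*} [Field F]
include g

theorem ch_rel4 {γ a b c d : ℕ} (hγ : γ < T.n) (ha : a < T.n) (hb : b < T.n) (hc : c < T.n) (hd' : d < T.n) {m0 m1 m2 m3 : ℤ}
    (h : ∀ j < T.l, T.v γ j = m0 * T.v a j + m1 * T.v b j + m2 * T.v c j + m3 * T.v d j) (t : ↥(D.diagonalSubgroup F)) :
    ch g γ t = ch g a t ^ m0 * ch g b t ^ m1 * ch g c t ^ m2 * ch g d t ^ m3 := by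
  rw [ch_lin g hγ, ch_lin g ha, ch_lin g hb, ch_lin g hc, ch_lin g hd', ← Finset.prod_zpow, ← Finset.prod_zpow, ← Finset.prod_zpow,
    ← Finset.prod_zpow, ← Finset.prod_mul_distrib, ← Finset.prod_mul_distrib, ← Finset.prod_mul_distrib]
  apply Finset.prod_congr rfl
  intro j hj
  rw [← _root_.zpow_mul, ← _root_.zpow_mul, ← _root_.zpow_mul, ← _root_.zpow_mul, ← _root_.zpow_add, ← _root_.zpow_add, ← _root_.zpow_add,
    h j (Finset.mem_range.1 hj), mul_comm m0, mul_comm m1, mul_comm m2, mul_comm m3]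

variable {L : Type*} [Field L]

/-- replacing (y, h, w) by a conjugate -/
theorem conj_data {w U v : List ℕ} (hw : VW T w) (hU : VW T U) (hv : VW T v) (hUv : ∀ r < T.n, wact T (U ++ w ++ U.reverse) r = wact T v r)
    {k : GL D.Idx L} (hk : k ∈ D.diagonalSubgroup L) : ∃ k' ∈ D.diagonalSubgroup L,
      (g.nw (F := L) U) * (g.nw w * k) * (g.nw (F := L) U)⁻¹ = g.nw v * k' := by
  have hR := VW_reverse hU
  have hV := g.VW_append (g.VW_append hU hw) hR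
  obtain ⟨x, hx, h1⟩ := g.nw_of_pw (F := L) hV hv ((g.pw_eq_iff hV hv).2 hUv)
  obtain ⟨x', hx', h2⟩ := g.nw_of_pw (F := L) (v := U ++ U.reverse) (w := []) (g.VW_append hU hR) (by intro k hk; simp at hk)
    (by rw [g.pw_append, g.pw_reverse hU, mul_inv_cancel, g.pw_nil])
  rw [g.nw_append, g.nw_nil, one_mul] at h2
  rw [g.nw_append, g.nw_append] at h1
  have h3 : (g.nw (F := L) U)⁻¹ = g.nw U.reverse * x'⁻¹ := by
    rw [← h2]; group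
  have h4 : (g.nw (F := L) U.reverse)⁻¹ * k * ((g.nw (F := L) U.reverse)⁻¹)⁻¹ ∈ D.diagonalSubgroup L :=
    g.N_H (Subgroup.inv_mem _ (g.nw_mem_N (F := L) hR)) hk
  refine ⟨x * ((g.nw (F := L) U.reverse)⁻¹ * k * ((g.nw (F := L) U.reverse)⁻¹)⁻¹) * x'⁻¹, Subgroup.mul_mem _ (Subgroup.mul_mem _ hx h4) (Subgroup.inv_mem _ hx'), ?_⟩
  have h5 : g.nw (F := L) v * (x * ((g.nw (F := L) U.reverse)⁻¹ * k * ((g.nw (F := L) U.reverse)⁻¹)⁻¹) * x'⁻¹) =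
      (g.nw (F := L) v * x) * ((g.nw (F := L) U.reverse)⁻¹ * k * ((g.nw (F := L) U.reverse)⁻¹)⁻¹) * x'⁻¹ := by
    simp only [mul_assoc]
  rw [h5, ← h1, h3]
  group

end

end CfsgLib.MT
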