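import Mathlib
import Cfsg.Agent.LibTor9

set_option autoImplicit false
set_option linter.all false
set_option maxRecDepth 100000

/-! maximal tori via Sylow subgroups, 10: F₄ (seat helper23) -/

namespace CfsgLib.MT

open Cfsg.Lie Matrix CfsgLib.Chev CfsgLib.Chev.Good3 CfsgLib.OI CfsgLib.ChevFix

theorem main_F4 {F : Type*} [Field F] [Fintype F] :
    ∃ H : Subgroup ↥(chevF4.group F), IsCyclic ↥H ∧ Nat.card ↥H = Fintype.card F ^ 4 + 1 ∧
      Subgroup.centralizer (H : Set ↥(chevF4.group F)) = H := by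
  have g := good3_F4
  have hq : 2 ≤ Fintype.card F := Fintype.one_lt_card
  set q := Fintype.card F with hqd
  obtain ⟨r, hrp, hr2, hr3, hdd⟩ := exists_r4 hq
  haveI hr : Fact r.Prime := ⟨hrp⟩
  have hq0 : 0 < q := by omega
  have hN : (q ^ 4 + 1) * (q ^ 4 - 1) = q ^ 8 - 1 := by
    obtain ⟨m, hm⟩ : ∃ m, q ^ 4 = m + 1 := ⟨q ^ 4 - 1, by have := Nat.one_le_pow 4 q hq0; omega⟩
    have e8 : q ^ 8 = (q ^ 4) ^ 2 := by rw [← pow_mul]
    rw [e8, hm]
    have : (m + 1) ^ 2 = ((m + 1) + 1) * m + 1 := by ring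
    rw [this]; simp
  obtain ⟨L, iL, iL', f, σ, hL, hσ, hf, hf'⟩ := ext_data F 8 (by norm_num)
  rw [← hqd] at hL
  haveI : Finite (GL chevF4.Idx F) := inferInstance
  have hd8 : r ∣ q ^ 8 - 1 := by rw [← hN]; exact Dvd.dvd.mul_right hdd _
  -- an element of order r
  have hdv : r ∣ Nat.card ↥(chevF4.group F) := by
    rw [card_F4_nat, ← hqd]
    apply Dvd.dvd.mul_left
    apply Dvd.dvd.mul_right
    apply Dvd.dvd.mul_left
    exact hd8
  obtain ⟨x, hx⟩ := exists_prime_orderOf_dvd_card' r hdv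
  have hdL : r ∣ Fintype.card L - 1 := by rw [hL]; exact hd8
  obtain ⟨y0, hy0, h0, e0, ho0, w, hw, k0, hk0, hn0⟩ := M1 g f σ hx (index_F4 hr2 hr3 hdL) hσ hf
  have hch0 : ∀ γ < tF4.n, ch g (wact tF4 w γ) h0 ^ q = ch g γ h0 := by
    intro γ hγ
    have := ch_conj g hw hk0 hγ h0 (h0 ^ q) hn0
    rw [map_pow] at this
    exact this
  obtain ⟨⟨U, hU, hUw⟩, _, _⟩ := reg_F4 hr2 hr3 hdd ho0 hw hch0
  have hw0V : VW tF4 w0 := by intro k hk; simp [w0] at hk; show k < 4; omega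
  obtain ⟨k, hk, hkk⟩ := conj_data g hw hU hw0V hUw hk0
  have hh' : g.nw (F := L) U * (h0 : GL chevF4.Idx L) * (g.nw (F := L) U)⁻¹ ∈ chevF4.diagonalSubgroup L := g.N_H (g.nw_mem_N (F := L) hU) h0.2
  obtain ⟨h, hh⟩ : ∃ h : ↥(chevF4.diagonalSubgroup L), (h : GL chevF4.Idx L) = g.nw (F := L) U * (h0 : GL chevF4.Idx L) * (g.nw (F := L) U)⁻¹ := ⟨⟨_, hh'⟩, rfl⟩
  have ho : orderOf h = r := by
    rw [← Subgroup.orderOf_coe, hh, ← ho0, ← Subgroup.orderOf_coe (a := h0)]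
    exact orderOf_injective (MulAut.conj (g.nw (F := L) U)).toMonoidHom (MulAut.conj (g.nw (F := L) U)).injective _
  obtain ⟨y, hyd⟩ : ∃ y : GL chevF4.Idx L, y = y0 * (g.nw (F := L) U)⁻¹ := ⟨_, rfl⟩
  have hy : y ∈ chevF4.group L := by
    rw [hyd]; exact Subgroup.mul_mem _ hy0 (Subgroup.inv_mem _ (g.nw_mem_G U))
  have e : gm chevF4 f (x : GL chevF4.Idx F) = y * (h : GL chevF4.Idx L) * y⁻¹ := by
    rw [e0, hyd, hh]; group
  have hn : (g.nw w0 * k) * (h : GL chevF4.Idx L) * (g.nw w0 * k)⁻¹ = (h : GL chevF4.Idx L) ^ q := by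
    rw [← hkk, hh, conj_pow, ← hn0]; group
  have hch : ∀ γ < tF4.n, ch g (wact tF4 w0 γ) h ^ q = ch g γ h := by
    intro γ hγ
    have := ch_conj g hw0V hk hγ h (h ^ q) hn
    rw [map_pow] at this
    exact this
  obtain ⟨_, hreg, hst⟩ := reg_F4 hr2 hr3 hdd ho hw0V hch
  obtain ⟨τ, hτ, hτ2⟩ := M2 g f σ (ker_trivial smith_F4 (by decide +kernel)) hσ hf hf' hy e hw0V hk hn hreg hst
  obtain ⟨a1, a2, a3, a4⟩ := w0_val
  have l27 : (27 : ℕ) < tF4.n := by decide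
  have l36 : (36 : ℕ) < tF4.n := by decide
  have l28 : (28 : ℕ) < tF4.n := by decide
  have l12 : (12 : ℕ) < tF4.n := by decide
  -- coordinates
  have hrep : ∀ γ < 48, ∃ m0 m1 m2 m3 : ℤ, (∀ t : ↥(chevF4.diagonalSubgroup L), ch g γ t = ch g 27 t ^ m0 * ch g 36 t ^ m1 * ch g 28 t ^ m2 * ch g 12 t ^ m3) ∧
      (∀ t : ↥(chevF4.diagonalSubgroup L), ch g (wact tF4 w0 γ) t = ch g 27 t ^ (-m3) * ch g 36 t ^ m0 * ch g 28 t ^ m1 * ch g 12 t ^ m2) := by
    intro γ hγ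
    refine ⟨(repF.getD γ 0).1, (repF.getD γ 0).2.1, (repF.getD γ 0).2.2.1, (repF.getD γ 0).2.2.2, fun t => ?_, fun t => ?_⟩
    · exact ch_rel4 g hγ l27 l36 l28 l12 (fun j hj => (repF_chk γ hγ j hj).1) t
    · exact ch_rel4 g (g.wact_lt hw0V hγ) l27 l36 l28 l12 (fun j hj => (repF_chk γ hγ j hj).2) t
  have hneg : ∀ t : ↥(chevF4.diagonalSubgroup L), ch g (47 - 27) t = (ch g 27 t)⁻¹ := fun t => ch_neg g l27 t
  have hNz : ((q ^ 4 + 1 : ℕ) : ℤ) = (q : ℤ) ^ 4 + 1 := by push_cast; ring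
  -- the image
  have hmemN : ∀ t : ↥(chevF4.diagonalSubgroup L), (∀ γ < 48, ch g (wact tF4 w0 γ) t ^ q = ch g γ t) →
      (ch g 36 t = (ch g 27 t) ^ (-(q : ℤ) ^ 3) ∧ ch g 28 t = (ch g 27 t) ^ (-(q : ℤ) ^ 2) ∧ ch g 12 t = (ch g 27 t) ^ (-(q : ℤ))) ∧
      ch g 27 t ^ (q ^ 4 + 1) = 1 := by
    intro t ht
    have e1 := ht 27 l27
    have e2 := ht 36 l36
    have e3 := ht 28 l28
    have e4 := ht 12 l12
    rw [a1] at e1
    rw [a2] at e2
    rw [a3] at e3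
    rw [a4, hneg] at e4
    set b := ch g 27 t
    have f3 : ch g 12 t = b ^ (-(q : ℤ)) := by
      rw [← e4, inv_pow, _root_.zpow_neg, zpow_natCast]
    have f2 : ch g 28 t = b ^ (-(q : ℤ) ^ 2) := by
      rw [← e3, f3, ← zpow_natCast, ← _root_.zpow_mul]; congr 1; ring
    have f1 : ch g 36 t = b ^ (-(q : ℤ) ^ 3) := by
      rw [← e2, f2, ← zpow_natCast, ← _root_.zpow_mul]; congr 1; ring
    refine ⟨⟨f1, f2, f3⟩, ?_⟩
    have f0 : b ^ (-(q : ℤ) ^ 4) = b := by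
      conv_rhs => rw [← e1, f1, ← zpow_natCast, ← _root_.zpow_mul]
      congr 1; ring
    rw [← zpow_natCast, hNz]
    have : (q : ℤ) ^ 4 + 1 = 1 - (-(q : ℤ) ^ 4) := by ring
    rw [this, _root_.zpow_sub, f0, _root_.zpow_one, mul_inv_cancel]
  have him : ∀ a, ∀ γ < 48, ch g (wact tF4 w0 γ) (τ a) ^ q = ch g γ (τ a) := fun a => (hτ2 (τ a)).1 ⟨a, rfl⟩
  have hinj : ∀ t : ↥(chevF4.diagonalSubgroup L), (∀ γ < 48, ch g (wact tF4 w0 γ) t ^ q = ch g γ t) → ch g 27 t = 1 → t = 1 := by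
    intro t ht h1
    obtain ⟨⟨h2, h3, h4⟩, _⟩ := hmemN t ht
    rw [h1, _root_.one_zpow] at h2 h3 h4
    apply H_ext g
    intro j hj
    rw [map_one]
    obtain ⟨m0, m1, m2, m3, h5, _⟩ := hrep _ (g.sim_lt hj)
    rw [h5, h1, h2, h3, h4, _root_.one_zpow, _root_.one_zpow, _root_.one_zpow, _root_.one_zpow, one_mul, one_mul, one_mul]
  -- the homomorphism into the multiplicative group
  let ρ : ↥(Subgroup.centralizer ({x} : Set ↥(chevF4.group F))) →* Lˣ := (ch g 27).comp τ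
  have hρ : Function.Injective ρ := by
    rw [injective_iff_map_eq_one]
    intro a ha
    apply hτ
    rw [map_one]
    exact hinj _ (him a) ha
  have hcomm : ∀ a b : ↥(Subgroup.centralizer ({x} : Set ↥(chevF4.group F))), a * b = b * a := by
    intro a b
    apply hρ
    rw [map_mul, map_mul, mul_comm]
  refine ⟨Subgroup.centralizer ({x} : Set ↥(chevF4.group F)), ?_, ?_, ?_⟩
  · exact isCyclic_of_injective_ringHom ((Units.coeHom L).comp ρ) (fun a b hab => hρ (Units.ext hab))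
  · rw [← card_roots (L := L) (N := q ^ 4 + 1) (M := q ^ 4 - 1) (by positivity) (by rw [hN, hL])]
    refine Nat.card_eq_of_bijective (fun a => (⟨ρ a, (hmemN _ (him a)).2⟩ : {b : Lˣ // b ^ (q ^ 4 + 1) = 1})) ⟨?_, ?_⟩
    · intro a b hab
      exact hρ (congrArg Subtype.val hab)
    · rintro ⟨b, hb⟩
      have hbz : b ^ ((q : ℤ) ^ 4 + 1) = 1 := by rw [← hNz, zpow_natCast]; exact hb
      obtain ⟨t, ht0⟩ := exists_b b (fun i => if i = 0 then 1 + (q : ℤ) - (q : ℤ) ^ 3 else if i = 1 then 2 + (q : ℤ) - (q : ℤ) ^ 2 - 2 * (q : ℤ) ^ 3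
        else if i = 2 then 2 + (q : ℤ) - 2 * (q : ℤ) ^ 2 - 3 * (q : ℤ) ^ 3 else 1 - (q : ℤ) ^ 2 - 2 * (q : ℤ) ^ 3)
      have t0 : ch g 27 t = b := by
        rw [ht0 27 l27, show tF4.A 0 27 = -1 by decide +kernel, show tF4.A 1 27 = 2 by decide +kernel,
          show tF4.A 2 27 = -1 by decide +kernel, show tF4.A 3 27 = 0 by decide +kernel]
        nth_rewrite 2 [← _root_.zpow_one b]
        congr 1
        norm_num
        ring
      have t1 : ch g 36 t = b ^ (-(q : ℤ) ^ 3) := by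
        rw [ht0 36 l36, show tF4.A 0 36 = 1 by decide +kernel, show tF4.A 1 36 = -1 by decide +kernel,
          show tF4.A 2 36 = 0 by decide +kernel, show tF4.A 3 36 = 1 by decide +kernel]
        congr 1
        norm_num
        ring
      have t2 : ch g 28 t = b ^ (-(q : ℤ) ^ 2) := by
        rw [ht0 28 l28, show tF4.A 0 28 = -1 by decide +kernel, show tF4.A 1 28 = 0 by decide +kernel,
          show tF4.A 2 28 = 1 by decide +kernel, show tF4.A 3 28 = -1 by decide +kernel]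
        congr 1
        norm_num
        ring
      have t3 : ch g 12 t = b ^ (-(q : ℤ)) := by
        rw [ht0 12 l12, show tF4.A 0 12 = -1 by decide +kernel, show tF4.A 1 12 = 1 by decide +kernel,
          show tF4.A 2 12 = -1 by decide +kernel, show tF4.A 3 12 = 1 by decide +kernel]
        congr 1
        norm_num
        ring
      have ht : ∀ γ < 48, ch g (wact tF4 w0 γ) t ^ q = ch g γ t := by
        intro γ hγ
        obtain ⟨m0, m1, m2, m3, h3, h4⟩ := hrep γ hγ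
        rw [h3, h4, t0, t1, t2, t3]
        simp only [← _root_.zpow_mul, ← _root_.zpow_add, ← zpow_natCast]
        have e9 : (-m3 + -(q : ℤ) ^ 3 * m0 + -(q : ℤ) ^ 2 * m1 + -(q : ℤ) * m2) * (q : ℤ) =
            (m0 + -(q : ℤ) ^ 3 * m1 + -(q : ℤ) ^ 2 * m2 + -(q : ℤ) * m3) + ((q : ℤ) ^ 4 + 1) * (-m0) := by ring
        rw [e9, _root_.zpow_add b (m0 + -(q : ℤ) ^ 3 * m1 + -(q : ℤ) ^ 2 * m2 + -(q : ℤ) * m3), _root_.zpow_mul b ((q : ℤ) ^ 4 + 1), hbz, _root_.one_zpow, mul_one]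
      obtain ⟨a, ha⟩ := (hτ2 t).2 ht
      refine ⟨a, Subtype.ext ?_⟩
      show ch g 27 (τ a) = b
      rw [ha]; exact t0
  · apply le_antisymm
    · apply Subgroup.centralizer_le
      rw [Set.singleton_subset_iff, SetLike.mem_coe, Subgroup.mem_centralizer_iff]
      intro v hv
      rw [Set.mem_singleton_iff] at hv
      rw [hv]
    · intro a ha
      rw [Subgroup.mem_centralizer_iff]
      intro b hb
      exact congrArg Subtype.val (hcomm ⟨b, hb⟩ ⟨a, ha⟩)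

end CfsgLib.MT
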