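import Mathlib
import Cfsg.Agent.LibTor1
import Cfsg.Agent.LibChevS

set_option autoImplicit false
set_option linter.all false

/-! maximal tori via Sylow subgroups, 2 (seat helper23) -/

namespace CfsgLib.MT

open Cfsg.Lie Matrix CfsgLib.Chev CfsgLib.Chev.Good3 CfsgLib.OI CfsgLib.ChevFix

section
variable {D : ChevalleyDatum} {T : Tb} (g : Good3 D T) {F L : Type*} [Field F] [Fintype F] [Field L] [Fintype L] (f : F →+* L) (σ : L →+* L)
  (hσ : ∀ x, σ x = x ^ Fintype.card F) (hf : ∀ s, σ (f s) = f s) (hf' : ∀ t, σ t = t → ∃ s, f s = t)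
include g

include hσ in
theorem gm_pow {h : GL D.Idx L} (hh : h ∈ D.diagonalSubgroup L) : gm D σ h = h ^ Fintype.card F := by
  obtain ⟨a, rfl⟩ := g.mem_H.1 hh
  rw [gm_hel]
  have : ∀ m : ℕ, hel D T a ^ m = hel D T (fun i => a i ^ m) := by
    intro m
    induction m with
    | zero => simp only [pow_zero]; exact (hel_one (D := D) (T := T) (F := L)).symm
    | succ m ih =>
      rw [_root_.pow_succ, ih, hel_mul]
      congr 1
      funext i
      rw [_root_.pow_succ]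
  rw [this]
  congr 1
  funext i
  apply Units.ext
  show σ (a i) = _
  rw [hσ, Units.val_pow_eq_pow_val]

/-- M1 -/
theorem M1 {x : ↥(D.group F)} {r : ℕ} [hr : Fact r.Prime] (hx : orderOf x = r)
    (hi : ¬ r ∣ ((D.diagonalSubgroup L).subgroupOf (D.group L)).index)
    (hσ : ∀ x, σ x = x ^ Fintype.card F) (hf : ∀ s, σ (f s) = f s) :
    ∃ y ∈ D.group L, ∃ h : ↥(D.diagonalSubgroup L), gm D f (x : GL D.Idx F) = y * (h : GL D.Idx L) * y⁻¹ ∧ orderOf h = r ∧
      ∃ w, VW T w ∧ ∃ k ∈ D.diagonalSubgroup L, (g.nw w * k) * (h : GL D.Idx L) * (g.nw w * k)⁻¹ = (h : GL D.Idx L) ^ Fintype.card F := by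
  haveI : Finite (GL D.Idx L) := inferInstance
  have hX : gm D f (x : GL D.Idx F) ∈ D.group L := gm_group g f x.2
  set X : ↥(D.group L) := ⟨gm D f (x : GL D.Idx F), hX⟩ with hXd
  have hoX : orderOf X = r := by
    rw [← Subgroup.orderOf_coe]
    show orderOf (gm D f (x : GL D.Idx F)) = r
    rw [orderOf_injective (gm D f) (gm_inj D f), Subgroup.orderOf_coe, hx]
  obtain ⟨y, hy⟩ := conj_into hi hoX
  rw [Subgroup.mem_subgroupOf] at hy
  have hy' : (y : GL D.Idx L)⁻¹ * gm D f (x : GL D.Idx F) * y ∈ D.diagonalSubgroup L := hy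
  set h : ↥(D.diagonalSubgroup L) := ⟨_, hy'⟩ with hh
  have e1 : gm D f (x : GL D.Idx F) = (y : GL D.Idx L) * (h : GL D.Idx L) * (y : GL D.Idx L)⁻¹ := by
    show _ = (y : GL D.Idx L) * ((y : GL D.Idx L)⁻¹ * gm D f (x : GL D.Idx F) * y) * (y : GL D.Idx L)⁻¹
    group
  have hfix : gm D σ (gm D f (x : GL D.Idx F)) = gm D f (x : GL D.Idx F) := by
    have hcf : σ.comp f = f := RingHom.ext hf
    rw [gm_comp, hcf]
  have e2 : (h : GL D.Idx L) ^ Fintype.card F = (gm D σ (y : GL D.Idx L))⁻¹ * (y : GL D.Idx L) * h * ((gm D σ (y : GL D.Idx L))⁻¹ * (y : GL D.Idx L))⁻¹ := by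
    rw [← gm_pow g σ hσ h.2]
    have h3 := hfix
    rw [e1, map_mul, map_mul, map_inv] at h3
    have : gm D σ (h : GL D.Idx L) = (gm D σ (y : GL D.Idx L))⁻¹ * (gm D σ (y : GL D.Idx L) * gm D σ (h : GL D.Idx L) * (gm D σ (y : GL D.Idx L))⁻¹) * gm D σ (y : GL D.Idx L) := by group
    rw [this, h3]; group
  have hz : (gm D σ (y : GL D.Idx L))⁻¹ * (y : GL D.Idx L) ∈ D.group L := Subgroup.mul_mem _ (Subgroup.inv_mem _ (gm_group g σ y.2)) y.2
  obtain ⟨n, hn, hnh⟩ := g.H_conj h.2 (Subgroup.pow_mem _ h.2 _) hz e2.symm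
  obtain ⟨w, hw, k, hk, rfl⟩ := g.mem_N.1 hn
  refine ⟨y, y.2, h, e1, ?_, w, hw, k, hk, hnh⟩
  rw [← Subgroup.orderOf_coe]
  have : (h : GL D.Idx L) = MulAut.conj (y : GL D.Idx L)⁻¹ (gm D f (x : GL D.Idx F)) := by
    rw [MulAut.conj_apply, inv_inv]
  rw [this]
  rw [show orderOf (MulAut.conj (y : GL D.Idx L)⁻¹ (gm D f (x : GL D.Idx F))) = orderOf (gm D f (x : GL D.Idx F)) from
    orderOf_injective (MulAut.conj (y : GL D.Idx L)⁻¹).toMonoidHom (MulAut.conj (y : GL D.Idx L)⁻¹).injective _]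
  rw [orderOf_injective (gm D f) (gm_inj D f), Subgroup.orderOf_coe, hx]

/-- M2: the centralizer of a regular element -/
theorem M2 (hker : ∀ a : Fin T.l → Lˣ, CfsgLib.Tor.nu T.CM a = 1 → a = 1)
    (hσ : ∀ x, σ x = x ^ Fintype.card F) (hf : ∀ s, σ (f s) = f s) (hf' : ∀ t, σ t = t → ∃ s, f s = t)
    {x : ↥(D.group F)} {y : GL D.Idx L} (hy : y ∈ D.group L) {h : ↥(D.diagonalSubgroup L)}
    (e : gm D f (x : GL D.Idx F) = y * (h : GL D.Idx L) * y⁻¹) {w : List ℕ} (hw : VW T w) {k : GL D.Idx L} (hk : k ∈ D.diagonalSubgroup L)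
    (hn : (g.nw w * k) * (h : GL D.Idx L) * (g.nw w * k)⁻¹ = (h : GL D.Idx L) ^ Fintype.card F)
    (h1 : ∀ γ < T.n, ch g γ h ≠ 1)
    (h2 : ∀ w, VW T w → (∀ γ < T.n, ch g (wact T w γ) h = ch g γ h) → ∀ γ < T.n, wact T w γ = γ) :
    ∃ τ : ↥(Subgroup.centralizer ({x} : Set ↥(D.group F))) →* ↥(D.diagonalSubgroup L), Function.Injective τ ∧
      ∀ t : ↥(D.diagonalSubgroup L), (∃ a, τ a = t) ↔ ∀ γ < T.n, ch g (wact T w γ) t ^ Fintype.card F = ch g γ t := by
  have hcent : ∀ z ∈ D.group L, (h : GL D.Idx L) * z * (h : GL D.Idx L)⁻¹ = z → z ∈ D.diagonalSubgroup L :=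
    fun z hz hc => cent_reg g h1 h2 hz hc
  set n : GL D.Idx L := g.nw w * k with hnd
  have hnG : n ∈ D.group L := Subgroup.mul_mem _ (g.nw_mem_G w) (g.H_le_G hk)
  have hnN : n ∈ D.monomialSubgroup L := Subgroup.mul_mem _ (g.nw_mem_N hw) (H_le_N hk)
  have hfix : ∀ b : GL D.Idx F, gm D σ (gm D f b) = gm D f b := by
    intro b
    have hcf : σ.comp f = f := RingHom.ext hf
    rw [gm_comp, hcf]
  -- z n lies in H
  set z : GL D.Idx L := y⁻¹ * gm D σ y with hzd
  have hzG : z ∈ D.group L := Subgroup.mul_mem _ (Subgroup.inv_mem _ hy) (gm_group g σ hy)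
  have hz1 : z * (h : GL D.Idx L) ^ Fintype.card F * z⁻¹ = h := by
    have h3 := hfix (x : GL D.Idx F)
    rw [e, map_mul, map_mul, map_inv, gm_pow g σ hσ h.2] at h3
    have : z * (h : GL D.Idx L) ^ Fintype.card F * z⁻¹ = y⁻¹ * (gm D σ y * (h : GL D.Idx L) ^ Fintype.card F * (gm D σ y)⁻¹) * y := by
      rw [hzd]; group
    rw [this, h3]; group
  have hzn : z * n ∈ D.diagonalSubgroup L := by
    apply hcent _ (Subgroup.mul_mem _ hzG hnG)
    have e3 : (z * n) * (h : GL D.Idx L) * (z * n)⁻¹ = h := by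
      have : (z * n) * (h : GL D.Idx L) * (z * n)⁻¹ = z * (n * (h : GL D.Idx L) * n⁻¹) * z⁻¹ := by group
      rw [this, hn, hz1]
    have e4 : (z * n) * (h : GL D.Idx L) = (h : GL D.Idx L) * (z * n) := by
      rw [mul_inv_eq_iff_eq_mul] at e3; exact e3
    rw [← e4]; group
  -- action on H
  have key : ∀ t : ↥(D.diagonalSubgroup L), (n * (t : GL D.Idx L) * n⁻¹ = (t : GL D.Idx L) ^ Fintype.card F) ↔
      ∀ γ < T.n, ch g (wact T w γ) t ^ Fintype.card F = ch g γ t := by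
    intro t
    constructor
    · intro h5 γ hγ
      have := ch_conj g hw hk hγ t (t ^ Fintype.card F) h5
      rw [map_pow] at this
      exact this
    · intro h5
      have hs : n * (t : GL D.Idx L) * n⁻¹ ∈ D.diagonalSubgroup L := g.N_H hnN t.2
      have h6 : (⟨_, hs⟩ : ↥(D.diagonalSubgroup L)) = t ^ Fintype.card F := by
        apply H_ext g
        intro j hj
        have hsj := g.sim_lt hj
        have hV := VW_reverse hw
        have hγ := g.wact_lt hV hsj
        have h8 : g.pw (w ++ w.reverse) = g.pw [] := by rw [g.pw_append, g.pw_reverse hw, mul_inv_cancel, g.pw_nil]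
        have h9 := (g.pw_eq_iff (g.VW_append hw hV) (by intro k hk; simp at hk)).1 h8 _ hsj
        rw [wact_append, wact_nil] at h9
        have h7 := ch_conj g hw hk hγ t ⟨_, hs⟩ rfl
        have h10 := h5 _ hγ
        rw [h9] at h7 h10
        rw [h7, map_pow, h10]
      exact congrArg Subtype.val h6
  -- conj condition
  have cond : ∀ t : ↥(D.diagonalSubgroup L), gm D σ (y * (t : GL D.Idx L) * y⁻¹) = y * (t : GL D.Idx L) * y⁻¹ ↔
      n * (t : GL D.Idx L) * n⁻¹ = (t : GL D.Idx L) ^ Fintype.card F := by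
    intro t
    rw [map_mul, map_mul, map_inv, gm_pow g σ hσ t.2]
    have hzt : (z * n) * (t : GL D.Idx L) = (t : GL D.Idx L) * (z * n) := H_cm g hzn t.2
    have ht' : (z * n)⁻¹ * (t : GL D.Idx L) * (z * n) = t := by
      rw [mul_assoc, ← hzt]; group
    have hy2 : gm D σ y = y * z := by rw [hzd]; group
    rw [hy2]
    constructor
    · intro h5
      have h6 : z * (t : GL D.Idx L) ^ Fintype.card F * z⁻¹ = t := by
        have : z * (t : GL D.Idx L) ^ Fintype.card F * z⁻¹ = y⁻¹ * (y * z * (t : GL D.Idx L) ^ Fintype.card F * (y * z)⁻¹) * y := by group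
        rw [this, h5]; group
      have : (t : GL D.Idx L) ^ Fintype.card F = z⁻¹ * (z * (t : GL D.Idx L) ^ Fintype.card F * z⁻¹) * z := by group
      rw [this, h6]
      have e5 : n * (t : GL D.Idx L) * n⁻¹ = z⁻¹ * ((z * n) * (t : GL D.Idx L)) * n⁻¹ := by group
      rw [e5, hzt]; group
    · intro h5
      rw [← h5]
      have e5 : y * z * (n * (t : GL D.Idx L) * n⁻¹) * (y * z)⁻¹ = y * ((z * n) * (t : GL D.Idx L)) * (z * n)⁻¹ * y⁻¹ := by group
      rw [e5, hzt]; group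
  have hmem : ∀ a : ↥(Subgroup.centralizer ({x} : Set ↥(D.group F))), y⁻¹ * gm D f ((a : ↥(D.group F)) : GL D.Idx F) * y ∈ D.diagonalSubgroup L := by
    intro a
    apply hcent
    · exact Subgroup.mul_mem _ (Subgroup.mul_mem _ (Subgroup.inv_mem _ hy) (gm_group g f a.1.2)) hy
    · have h5 := Subgroup.mem_centralizer_iff.1 a.2 x rfl
      have h6 : gm D f (x : GL D.Idx F) * gm D f ((a : ↥(D.group F)) : GL D.Idx F) = gm D f ((a : ↥(D.group F)) : GL D.Idx F) * gm D f (x : GL D.Idx F) := by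
        rw [← map_mul, ← map_mul]
        exact congrArg (gm D f) (congrArg Subtype.val h5)
      rw [e] at h6
      have h7 : (h : GL D.Idx L) = y⁻¹ * (y * (h : GL D.Idx L) * y⁻¹) * y := by group
      rw [h7]
      have h8 : y⁻¹ * (y * (h : GL D.Idx L) * y⁻¹) * y * (y⁻¹ * gm D f ((a : ↥(D.group F)) : GL D.Idx F) * y) * (y⁻¹ * (y * (h : GL D.Idx L) * y⁻¹) * y)⁻¹ =
        y⁻¹ * ((y * (h : GL D.Idx L) * y⁻¹) * gm D f ((a : ↥(D.group F)) : GL D.Idx F)) * (y * (h : GL D.Idx L) * y⁻¹)⁻¹ * y := by group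
      rw [h8, h6]; group
  refine ⟨{ toFun := fun a => ⟨_, hmem a⟩, map_one' := ?_, map_mul' := ?_ }, ?_, ?_⟩
  · apply Subtype.ext
    show y⁻¹ * gm D f (1 : GL D.Idx F) * y = 1
    rw [map_one]; group
  · intro a b
    apply Subtype.ext
    show y⁻¹ * gm D f (((a : ↥(D.group F)) : GL D.Idx F) * ((b : ↥(D.group F)) : GL D.Idx F)) * y = (y⁻¹ * gm D f ((a : ↥(D.group F)) : GL D.Idx F) * y) * (y⁻¹ * gm D f ((b : ↥(D.group F)) : GL D.Idx F) * y)
    rw [map_mul]; group
  · intro a b hab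
    have h5 : y⁻¹ * gm D f ((a : ↥(D.group F)) : GL D.Idx F) * y = y⁻¹ * gm D f ((b : ↥(D.group F)) : GL D.Idx F) * y := congrArg Subtype.val hab
    have h6 := mul_left_cancel (mul_right_cancel h5)
    exact Subtype.ext (Subtype.ext (gm_inj D f h6))
  · intro t
    rw [← key t, ← cond t]
    constructor
    · rintro ⟨a, ha⟩
      have h5 : y⁻¹ * gm D f ((a : ↥(D.group F)) : GL D.Idx F) * y = t := congrArg Subtype.val ha
      have h6 : y * (t : GL D.Idx L) * y⁻¹ = gm D f ((a : ↥(D.group F)) : GL D.Idx F) := by rw [← h5]; group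
      rw [h6, hfix]
    · intro h5
      obtain ⟨b, hb, hb'⟩ := fixed_all g σ f hf' hker
        (Subgroup.mul_mem _ (Subgroup.mul_mem _ hy (g.H_le_G t.2)) (Subgroup.inv_mem _ hy)) h5
      refine ⟨⟨⟨b, hb⟩, ?_⟩, ?_⟩
      · rw [Subgroup.mem_centralizer_iff]
        intro v hv
        rw [Set.mem_singleton_iff] at hv
        rw [hv]
        apply Subtype.ext
        apply gm_inj D f
        show gm D f ((x : GL D.Idx F) * b) = gm D f (b * (x : GL D.Idx F))
        rw [map_mul, map_mul, hb', e]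
        have h8 := H_cm g h.2 t.2
        calc y * (h : GL D.Idx L) * y⁻¹ * (y * (t : GL D.Idx L) * y⁻¹) = y * ((h : GL D.Idx L) * t) * y⁻¹ := by group
          _ = y * ((t : GL D.Idx L) * h) * y⁻¹ := by rw [h8]
          _ = _ := by group
      · apply Subtype.ext
        show y⁻¹ * gm D f b * y = t
        rw [hb']; group

end

end CfsgLib.MT
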