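import Mathlib
import Cfsg.Agent.LibTor2

set_option autoImplicit false
set_option linter.all false
set_option maxRecDepth 100000

/-! maximal tori via Sylow subgroups, 3: G₂ (seat helper23) -/

namespace CfsgLib.MT

open Cfsg.Lie Matrix CfsgLib.Chev CfsgLib.Chev.Good3 CfsgLib.OI CfsgLib.ChevFix

section
variable {D : ChevalleyDatum} {T : Tb} (g : Good3 D T) {F : Type*} [Field F]
include g

theorem ch_rel {γ β δ : ℕ} (hγ : γ < T.n) (hβ : β < T.n) (hδ : δ < T.n) {a m k : ℤ}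
    (h : ∀ j < T.l, a * T.v γ j = m * T.v β j + k * T.v δ j) (t : ↥(D.diagonalSubgroup F)) :
    ch g γ t ^ a = ch g β t ^ m * ch g δ t ^ k := by
  rw [ch_lin g hγ, ch_lin g hβ, ch_lin g hδ, ← Finset.prod_zpow, ← Finset.prod_zpow, ← Finset.prod_zpow, ← Finset.prod_mul_distrib]
  apply Finset.prod_congr rfl
  intro j hj
  rw [← _root_.zpow_mul, ← _root_.zpow_mul, ← _root_.zpow_mul, ← _root_.zpow_add, mul_comm (T.v γ j), mul_comm (T.v β j), mul_comm (T.v δ j),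
    h j (Finset.mem_range.1 hj)]

theorem ch_neg {γ : ℕ} (hγ : γ < T.n) (t : ↥(D.diagonalSubgroup F)) : ch g (T.n - 1 - γ) t = (ch g γ t)⁻¹ := by
  rw [ch_lin g (by omega), ch_lin g hγ, ← Finset.prod_inv_distrib]
  apply Finset.prod_congr rfl
  intro j hj
  rw [g.v_neg hγ (Finset.mem_range.1 hj), _root_.zpow_neg]

end

theorem cop_one {G : Type*} [Group G] {b : G} {m r : ℕ} (h : Nat.Coprime m r) (h1 : b ^ m = 1) (h2 : b ^ r = 1) : b = 1 := by
  rw [← orderOf_eq_one_iff]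
  have := Nat.dvd_gcd (orderOf_dvd_of_pow_eq_one h1) (orderOf_dvd_of_pow_eq_one h2)
  rw [h] at this
  exact Nat.dvd_one.1 this

def fn (p : List ℕ) (r : ℕ) : ℕ := p.getD r 0

def PW : List (List ℕ) := [[0, 1, 2, 3, 4, 5, 6, 7, 8, 9, 10, 11], [0, 5, 3, 2, 7, 1, 10, 4, 9, 8, 6, 11], [1, 0, 2, 4, 3, 6, 5, 8, 7, 9, 11, 10], [1, 6, 4, 2, 8, 0, 11, 3, 9, 7, 5, 10], [5, 0, 3, 7, 2, 10, 1, 9, 4, 8, 11, 6], [5, 10, 7, 3, 9, 0, 11, 2, 8, 4, 1, 6], [6, 1, 4, 8, 2, 11, 0, 9, 3, 7, 10, 5], [6, 11, 8, 4, 9, 1, 10, 2, 7, 3, 0, 5], [10, 5, 7, 9, 3, 11, 0, 8, 2, 4, 6, 1], [10, 11, 9, 7, 8, 5, 6, 3, 4, 2, 0, 1], [11, 6, 8, 9, 4, 10, 1, 7, 2, 3, 5, 0], [11, 10, 9, 8, 7, 6, 5, 4, 3, 2, 1, 0]]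

def W12 (w : List ℕ) : List ℕ := (List.range 12).map (wact tG2 w)

theorem PW_cl : ∀ p ∈ PW, ∀ i < 2, p.map (tG2.w i) ∈ PW := by decide +kernel

theorem W12_mem {w : List ℕ} (hw : VW tG2 w) : W12 w ∈ PW := by
  induction w with
  | nil =>
    have : W12 [] = [0, 1, 2, 3, 4, 5, 6, 7, 8, 9, 10, 11] := rfl
    rw [this]; exact List.mem_cons_self
  | cons i w ih =>
    have e : W12 (i :: w) = (W12 w).map (tG2.w i) := by
      unfold W12
      rw [List.map_map]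
      rfl
    rw [e]
    exact PW_cl _ (ih fun k hk => hw k (List.mem_cons_of_mem _ hk)) i (hw i List.mem_cons_self)

theorem fn_W12 (w : List ℕ) {r : ℕ} (hr : r < 12) : fn (W12 w) r = wact tG2 w r := by
  unfold fn W12
  rw [List.getD_eq_getElem _ _ (by simpa using hr)]
  simp

def ZL : List ℤ := [-4, -3, -2, -1, 0, 1, 2, 3, 4]
def ZL' : List ℤ := [-7, -6, -5, -4, -3, -2, -1, 0, 1, 2, 3, 4, 5, 6, 7]

def chkG (p : List ℕ) : Prop :=
  (∀ r < 12, ∃ m ∈ ZL, ∃ k ∈ ZL, ∀ j < 2, tG2.v r j = m * tG2.v 7 j + k * tG2.v (fn p 7) j ∧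
    tG2.v (fn p r) j = -k * tG2.v 7 j + (m - k) * tG2.v (fn p 7) j) ∧
  (∀ b < 12, ∀ r < 12, ∃ m ∈ ZL', ∃ k ∈ ZL', ∀ j < 2, 3 * tG2.v r j = m * tG2.v b j + k * tG2.v (fn p b) j)

instance (p : List ℕ) : Decidable (chkG p) := by unfold chkG; infer_instance

theorem PW_A : ∀ p ∈ PW, (∀ r < 12, fn p (fn p r) = r) ∨ (∀ r < 12, fn p (fn p (fn p r)) = 11 - r) ∨ chkG p := by decide +kernel

theorem PW_S : ∀ p ∈ PW, p = List.range 12 ∨ ∃ r < 12, ∃ b < 12, ∃ k ∈ ([1, 2, 3] : List ℤ), ∀ j < 2, tG2.v (fn p r) j = tG2.v r j + k * tG2.v b j := by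
  decide +kernel

section
variable {L : Type*} [Field L] [Fintype L] {q r : ℕ} (hQ : Fintype.card L = q ^ 3) (hq : 0 < q)

include hQ hq

theorem pow_q3 (b : Lˣ) : b ^ (q ^ 3) = b := by
  have h1 : (b : L) ^ (q ^ 3) = b := by rw [← hQ]; exact FiniteField.pow_card _
  apply Units.ext
  rw [Units.val_pow_eq_pow_val]; exact h1

theorem q_one {b : Lˣ} (h : b ^ q = 1) : b = 1 := by
  rw [← pow_q3 hQ hq b, show q ^ 3 = q * q ^ 2 by ring, pow_mul, h, one_pow]

theorem reg_G2 [hr : Fact r.Prime] (hr2 : r ≠ 2) (hr3 : r ≠ 3) (hd : r ∣ q ^ 2 + q + 1)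
    {h : ↥(chevG2.diagonalSubgroup L)} (ho : orderOf h = r) {w : List ℕ} (hw : VW tG2 w)
    (hch : ∀ γ < tG2.n, ch good3_G2 (wact tG2 w γ) h ^ q = ch good3_G2 γ h) :
    chkG (W12 w) ∧ (∀ γ < tG2.n, ch good3_G2 γ h ≠ 1) ∧
    (∀ w, VW tG2 w → (∀ γ < tG2.n, ch good3_G2 (wact tG2 w γ) h = ch good3_G2 γ h) → ∀ γ < tG2.n, wact tG2 w γ = γ) := by
  have hn : tG2.n = 12 := rfl
  have hl : tG2.l = 2 := rfl
  have hpr : ∀ γ, ch good3_G2 γ h ^ r = 1 := by
    intro γ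
    rw [← map_pow, ← ho, pow_orderOf_eq_one, map_one]
  have hne : ¬ ∀ γ < 12, ch good3_G2 γ h = 1 := by
    intro h1
    have : h = 1 := by
      apply H_ext good3_G2
      intro j hj
      rw [map_one]
      exact h1 _ (good3_G2.sim_lt hj)
    rw [this, orderOf_one] at ho
    exact hr.out.one_lt.ne ho
  have hlt : ∀ γ < 12, wact tG2 w γ < 12 := fun γ hγ => good3_G2.wact_lt hw hγ
  have hG : chkG (W12 w) := by
    rcases PW_A _ (W12_mem hw) with h1 | h1 | h1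
    · exfalso
      apply hne
      intro γ hγ
      have e1 := h1 γ hγ
      rw [fn_W12 w hγ, fn_W12 w (hlt γ hγ)] at e1
      have e2 := hch γ hγ
      have e3 := hch _ (hlt γ hγ)
      rw [e1] at e3
      rw [← e3, ← pow_mul, ← pow_two] at e2
      have hq1 : 1 ≤ q ^ 2 := Nat.one_le_pow _ _ hq
      have e4 : ch good3_G2 γ h ^ (q ^ 2 - 1) = 1 := by
        have : ch good3_G2 γ h ^ (q ^ 2) = ch good3_G2 γ h ^ (q ^ 2 - 1) * ch good3_G2 γ h := by
          rw [← pow_succ, Nat.sub_add_cancel hq1]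
        rw [this] at e2
        exact mul_eq_right.1 e2
      refine cop_one ?_ e4 (hpr γ)
      rw [Nat.coprime_comm, hr.out.coprime_iff_not_dvd]
      intro h5
      have h6 : (r : ℤ) ∣ (q : ℤ) ^ 2 - 1 := by
        have := Int.natCast_dvd_natCast.2 h5
        rwa [Nat.cast_sub hq1, Nat.cast_pow, Nat.cast_one] at this
      have h7 : (r : ℤ) ∣ (q : ℤ) ^ 2 + q + 1 := by exact_mod_cast Int.natCast_dvd_natCast.2 hd
      have h8 : (r : ℤ) ∣ 3 := by
        have a1 := dvd_sub h7 h6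
        have a2 := Dvd.dvd.mul_right a1 ((q : ℤ) - 1)
        have a3 := dvd_sub h7 a2
        have : (q : ℤ) ^ 2 + q + 1 - ((q : ℤ) ^ 2 + q + 1 - ((q : ℤ) ^ 2 - 1)) * ((q : ℤ) - 1) = 3 := by ring
        rwa [this] at a3
      have h9 : r ∣ 3 := by exact_mod_cast h8
      exact hr3 ((Nat.prime_dvd_prime_iff_eq hr.out Nat.prime_three).1 h9)
    · exfalso
      apply hne
      intro γ hγ
      have e1 := h1 γ hγ
      rw [fn_W12 w hγ, fn_W12 w (hlt γ hγ), fn_W12 w (hlt _ (hlt γ hγ))] at e1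
      have e2 := hch γ hγ
      have e3 := hch _ (hlt γ hγ)
      have e4 := hch _ (hlt _ (hlt γ hγ))
      have hneg := ch_neg good3_G2 (γ := γ) hγ h
      rw [hn] at hneg
      rw [e1, show 11 - γ = 12 - 1 - γ by omega, hneg] at e4
      rw [← e3, ← e4, ← pow_mul, ← pow_mul, show q * (q * q) = q ^ 3 by ring, pow_q3 hQ hq] at e2
      refine cop_one (m := 2) ?_ ?_ (hpr γ)
      · rw [Nat.coprime_comm, hr.out.coprime_iff_not_dvd]
        intro h5
        exact hr2 ((Nat.prime_dvd_prime_iff_eq hr.out Nat.prime_two).1 h5)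
      · rw [pow_two]
        nth_rewrite 1 [← e2]
        rw [inv_mul_cancel]
    · exact h1
  have hreg : ∀ γ < tG2.n, ch good3_G2 γ h ≠ 1 := by
    intro β hβ h1
    have h2 := hch β hβ
    rw [h1] at h2
    have h3 := q_one hQ hq h2
    apply hne
    intro γ hγ
    obtain ⟨m, _, k, _, h4⟩ := hG.2 β hβ γ hγ
    rw [fn_W12 w hβ] at h4
    have h5 := ch_rel good3_G2 (γ := γ) (β := β) (δ := wact tG2 w β) hγ hβ (hlt β hβ) (a := 3) (m := m) (k := k) h4 h
    rw [h1, h3, _root_.one_zpow, _root_.one_zpow, one_mul] at h5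
    refine cop_one (m := 3) ?_ (by exact_mod_cast h5) (hpr γ)
    rw [Nat.coprime_comm, hr.out.coprime_iff_not_dvd]
    intro h5
    exact hr3 ((Nat.prime_dvd_prime_iff_eq hr.out Nat.prime_three).1 h5)
  refine ⟨hG, hreg, ?_⟩
  intro w' hw' h1 γ hγ
  rcases PW_S _ (W12_mem hw') with h2 | ⟨a, ha, b, hb, k, hk, h2⟩
  · have := fn_W12 w' (r := γ) hγ
    rw [← this, h2]
    unfold fn
    rw [List.getD_eq_getElem _ _ (by rw [List.length_range]; exact hγ)]
    simp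
  · exfalso
    rw [fn_W12 w' ha] at h2
    have h5 := ch_rel good3_G2 (γ := wact tG2 w' a) (β := a) (δ := b) (good3_G2.wact_lt hw' ha) ha hb (a := 1) (m := 1) (k := k)
      (by intro j hj; rw [one_mul, one_mul]; exact h2 j hj) h
    rw [_root_.zpow_one, _root_.zpow_one, h1 a ha] at h5
    have h6 : ch good3_G2 b h ^ k = 1 := mul_eq_left.1 h5.symm
    apply hreg b hb
    simp only [List.mem_cons, List.not_mem_nil, or_false] at hk
    have cp : ∀ m : ℕ, m < 4 → 0 < m → Nat.Coprime m r := by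
      intro m hm hm0
      rw [Nat.coprime_comm, hr.out.coprime_iff_not_dvd]
      intro h7
      have h8 := Nat.le_of_dvd hm0 h7
      have h9 := hr.out.two_le
      omega
    rcases hk with rfl | rfl | rfl
    · rwa [_root_.zpow_one] at h6
    · exact cop_one (cp 2 (by norm_num) (by norm_num)) (by exact_mod_cast h6) (hpr b)
    · exact cop_one (cp 3 (by norm_num) (by norm_num)) (by exact_mod_cast h6) (hpr b)

end

end CfsgLib.MT
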