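import Mathlib
import Cfsg.Agent.LibTor3

set_option autoImplicit false
set_option linter.all false
set_option maxRecDepth 100000

/-! maximal tori via Sylow subgroups, 4: G₂ (seat helper23) -/

namespace CfsgLib.MT

open Cfsg.Lie Matrix CfsgLib.Chev CfsgLib.Chev.Good3 CfsgLib.OI CfsgLib.ChevFix

theorem card_G2_nat (F : Type*) [Field F] [Fintype F] : Nat.card (chevG2.group F) =
    Fintype.card F ^ 6 * ((Fintype.card F ^ 2 - 1) * (Fintype.card F ^ 6 - 1)) := by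
  have h := good3_G2.card_formula (F := F) ocnn_G2 poin_G2 smith_G2 rfl
  have e : (([-1, 1] : List ℤ).map fun z => Nat.gcd z.natAbs (Fintype.card F - 1)).prod = 1 := by simp
  rw [e, one_mul] at h
  rw [h]
  have hn : tG2.n / 2 = 6 := rfl
  rw [hn]
  simp

theorem index_G2 {L : Type*} [Field L] [Fintype L] {r : ℕ} [hr : Fact r.Prime] (hr2 : r ≠ 2) (hr3 : r ≠ 3) (hd : r ∣ Fintype.card L - 1) :
    ¬ r ∣ ((chevG2.diagonalSubgroup L).subgroupOf (chevG2.group L)).index := by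
  intro hdiv
  have h1 := Subgroup.card_mul_index ((chevG2.diagonalSubgroup L).subgroupOf (chevG2.group L))
  rw [card_G2_nat, Nat.card_congr (Subgroup.subgroupOfEquivOfLe good3_G2.H_le_G).toEquiv] at h1
  have h2 : (Nat.card (chevG2.diagonalSubgroup L) : ℤ) = ((Fintype.card L : ℤ) - 1) ^ 2 :=
    card_H_one good3_G2 smith_G2 rfl (by decide +kernel)
  set Q := Fintype.card L with hQ
  have hQ2 : 2 ≤ Q := Fintype.one_lt_card
  have hq : 1 ≤ Q := by omega
  have h3 := congrArg (Nat.cast : ℕ → ℤ) h1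
  push_cast [Nat.cast_sub (Nat.one_le_pow _ _ hq)] at h3
  rw [h2] at h3
  have hne : ((Q : ℤ) - 1) ^ 2 ≠ 0 := pow_ne_zero _ (by omega)
  have h4 : (((chevG2.diagonalSubgroup L).subgroupOf (chevG2.group L)).index : ℤ) = (Q : ℤ) ^ 6 * (((Q : ℤ) + 1) * (1 + Q + (Q : ℤ) ^ 2 + (Q : ℤ) ^ 3 + (Q : ℤ) ^ 4 + (Q : ℤ) ^ 5)) := by
    apply mul_left_cancel₀ hne
    rw [h3]; ring
  have h5 : (r : ℤ) ∣ (Q : ℤ) - 1 := by
    have := Int.natCast_dvd_natCast.2 hd
    rwa [Nat.cast_sub hq, Nat.cast_one] at this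
  have h6 : (r : ℤ) ∣ (((chevG2.diagonalSubgroup L).subgroupOf (chevG2.group L)).index : ℤ) := Int.natCast_dvd_natCast.2 hdiv
  rw [h4] at h6
  have h7 : (Q : ℤ) ≡ 1 [ZMOD r] := (Int.modEq_iff_dvd.2 (by
    have : (1 : ℤ) - Q = -((Q : ℤ) - 1) := by ring
    rw [this]; exact (dvd_neg.2 h5)))
  have h8 : (Q : ℤ) ^ 6 * (((Q : ℤ) + 1) * (1 + Q + (Q : ℤ) ^ 2 + (Q : ℤ) ^ 3 + (Q : ℤ) ^ 4 + (Q : ℤ) ^ 5)) ≡
      1 ^ 6 * ((1 + 1) * (1 + 1 + 1 ^ 2 + 1 ^ 3 + 1 ^ 4 + 1 ^ 5)) [ZMOD r] := by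
    apply Int.ModEq.mul (h7.pow 6)
    apply Int.ModEq.mul (h7.add_right 1)
    exact ((((h7.add_left 1).add (h7.pow 2)).add (h7.pow 3)).add (h7.pow 4)).add (h7.pow 5)
  have h10 : (r : ℤ) ∣ 12 := by
    have := Int.emod_eq_zero_of_dvd h6
    have h11 := h8
    unfold Int.ModEq at h11
    rw [this] at h11
    norm_num at h11
    exact Int.dvd_of_emod_eq_zero h11.symm
  have h12 : r ∣ 12 := by exact_mod_cast h10
  have h13 : r ∣ 2 * 2 * 3 := h12
  rcases (hr.out.dvd_mul).1 h13 with h | h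
  · rcases (hr.out.dvd_mul).1 h with h | h <;> exact hr2 ((Nat.prime_dvd_prime_iff_eq hr.out Nat.prime_two).1 h)
  · exact hr3 ((Nat.prime_dvd_prime_iff_eq hr.out Nat.prime_three).1 h)

/-- arbitrary character values -/
theorem exists_H {L : Type*} [Field L] (c0 c1 : Lˣ) : ∃ t : ↥(chevG2.diagonalSubgroup L), ch good3_G2 7 t = c0 ∧ ch good3_G2 6 t = c1 := by
  set a : ℕ → Lˣ := fun i => if i = 0 then c0 ^ 2 * c1 else c0 ^ 3 * c1 ^ 2 with ha
  refine ⟨⟨hel chevG2 tG2 a, good3_G2.hel_mem a⟩, ?_, ?_⟩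
  · apply ch_unique good3_G2 (by decide +kernel)
    show hel chevG2 tG2 a * good3_G2.X 7 1 * (hel chevG2 tG2 a)⁻¹ = _
    rw [good3_G2.hel_X a (by decide +kernel), mul_one]
    congr 1
    unfold hchi
    rw [show tG2.l = 2 from rfl, Finset.prod_range_succ, Finset.prod_range_succ, Finset.prod_range_zero, one_mul,
      show tG2.A 0 7 = 2 by decide +kernel, show tG2.A 1 7 = -1 by decide +kernel]
    simp only [ha, if_true, if_neg one_ne_zero]
    congr 1
    rw [_root_.zpow_neg, _root_.zpow_one, mul_inv_eq_iff_eq_mul]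
    have : ((2 : ℤ)) = ((2 : ℕ) : ℤ) := rfl
    rw [this, zpow_natCast, mul_pow, ← pow_mul, ← mul_assoc, ← pow_succ']
  · apply ch_unique good3_G2 (by decide +kernel)
    show hel chevG2 tG2 a * good3_G2.X 6 1 * (hel chevG2 tG2 a)⁻¹ = _
    rw [good3_G2.hel_X a (by decide +kernel), mul_one]
    congr 1
    unfold hchi
    rw [show tG2.l = 2 from rfl, Finset.prod_range_succ, Finset.prod_range_succ, Finset.prod_range_zero, one_mul,
      show tG2.A 0 6 = -3 by decide +kernel, show tG2.A 1 6 = 2 by decide +kernel]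
    simp only [ha, if_true, if_neg one_ne_zero]
    congr 1
    rw [_root_.zpow_neg, inv_mul_eq_iff_eq_mul]
    have h3 : ((3 : ℤ)) = ((3 : ℕ) : ℤ) := rfl
    have h2 : ((2 : ℤ)) = ((2 : ℕ) : ℤ) := rfl
    rw [h3, h2, zpow_natCast, zpow_natCast, mul_pow, mul_pow, ← pow_mul, ← pow_mul, ← pow_mul, mul_assoc, ← pow_succ]

/-- the number of solutions of b^N = 1 -/
theorem card_roots {L : Type*} [Field L] [Fintype L] {N M : ℕ} (hN : 0 < N) (hM : N * M = Fintype.card L - 1) :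
    Nat.card {b : Lˣ // b ^ N = 1} = N := by
  obtain ⟨ζ, hζ⟩ := IsCyclic.exists_generator (α := Lˣ)
  have h1 : orderOf ζ = N * M := by
    rw [orderOf_eq_card_of_forall_mem_zpowers hζ, Nat.card_units, Nat.card_eq_fintype_card, hM]
  have hM0 : M ≠ 0 := by
    rintro rfl
    have : 2 ≤ Fintype.card L := Fintype.one_lt_card
    omega
  have h2 : IsPrimitiveRoot (ζ ^ M) N := by
    have h3 := IsPrimitiveRoot.orderOf ζ
    rw [h1] at h3
    exact h3.pow (Nat.mul_pos hN (Nat.pos_of_ne_zero hM0)) (mul_comm _ _)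
  have h4 : IsPrimitiveRoot ((ζ ^ M : Lˣ) : L) N := IsPrimitiveRoot.coe_units_iff.2 h2
  haveI : NeZero N := ⟨hN.ne'⟩
  have h5 := h4.card_rootsOfUnity
  have h6 : Nat.card {b : Lˣ // b ^ N = 1} = Nat.card (rootsOfUnity N L) :=
    Nat.card_congr (Equiv.subtypeEquivRight (fun b => (mem_rootsOfUnity N b).symm))
  rw [h6, h5]

end CfsgLib.MT
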