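import Mathlib
import Cfsg.Agent.LibTor4

set_option autoImplicit false
set_option linter.all false
set_option maxRecDepth 100000

/-! maximal tori via Sylow subgroups, 5: G₂ (seat helper23) -/

namespace CfsgLib.MT

open Cfsg.Lie Matrix CfsgLib.Chev CfsgLib.Chev.Good3 CfsgLib.OI CfsgLib.ChevFix

theorem exists_r {q : ℕ} (hq : 3 ≤ q) : ∃ r, r.Prime ∧ r ≠ 2 ∧ r ≠ 3 ∧ r ∣ q ^ 2 + q + 1 := by
  by_contra hcon
  push Not at hcon
  have h1 : ∀ {d : ℕ}, d.Prime → d ∣ q ^ 2 + q + 1 → d = 3 := by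
    intro d hd hdv
    by_contra h3
    have h2 : d = 2 := by
      by_contra h2
      exact hcon d hd h2 h3 hdv
    subst h2
    have : Even (q ^ 2 + q) := by
      have := Nat.even_mul_succ_self q
      have e : q * (q + 1) = q ^ 2 + q := by ring
      rwa [e] at this
    rw [Nat.dvd_iff_mod_eq_zero] at hdv
    have := Nat.even_iff.1 this
    omega
  have h2 := Nat.eq_prime_pow_of_unique_prime_dvd (by positivity) h1
  set m := (q ^ 2 + q + 1).primeFactorsList.length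
  have h3 : 13 ≤ q ^ 2 + q + 1 := by nlinarith
  have h4 : 2 ≤ m := by
    by_contra h5
    have : m = 0 ∨ m = 1 := by omega
    rcases this with h | h <;> rw [h] at h2 <;> omega
  have h5 : 9 ∣ q ^ 2 + q + 1 := by
    rw [h2]
    have : (9 : ℕ) = 3 ^ 2 := by norm_num
    rw [this]
    exact pow_dvd_pow 3 h4
  have h6 : ((q ^ 2 + q + 1 : ℕ) : ZMod 9) = 0 := (ZMod.natCast_eq_zero_iff _ _).2 h5
  push_cast at h6
  have h7 : ∀ x : ZMod 9, x ^ 2 + x + 1 ≠ 0 := by decide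
  exact h7 _ h6

theorem PW_B : ∀ p ∈ PW, chkG p → (∀ j < 2, tG2.v (fn p (fn p 7)) j = -1 * tG2.v 7 j + -1 * tG2.v (fn p 7) j) ∧
    ∃ c0 ∈ ZL, ∃ c1 ∈ ([1, -1] : List ℤ), ∀ j < 2, tG2.v (fn p 7) j = c0 * tG2.v 7 j + c1 * tG2.v 6 j := by decide +kernel

theorem main_G2 {F : Type*} [Field F] [Fintype F] (hq : 3 ≤ Fintype.card F) :
    ∃ H : Subgroup ↥(chevG2.group F), IsCyclic ↥H ∧ Nat.card ↥H = Fintype.card F ^ 2 + Fintype.card F + 1 ∧
      Subgroup.centralizer (H : Set ↥(chevG2.group F)) = H := by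
  have g := good3_G2
  set q := Fintype.card F with hqd
  obtain ⟨r, hrp, hr2, hr3, hd⟩ := exists_r hq
  haveI hr : Fact r.Prime := ⟨hrp⟩
  have hq0 : 0 < q := by omega
  have hq3 : 1 ≤ q ^ 3 := Nat.one_le_pow _ _ hq0
  have hN : (q ^ 2 + q + 1) * (q - 1) = q ^ 3 - 1 := by
    obtain ⟨m, hm⟩ : ∃ m, q = m + 1 := ⟨q - 1, by omega⟩
    rw [hm]
    have : (m + 1) ^ 3 = ((m + 1) ^ 2 + (m + 1) + 1) * m + 1 := by ring
    rw [this]; simp
  obtain ⟨L, iL, iL', f, σ, hL, hσ, hf, hf'⟩ := ext_data F 3 (by norm_num)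
  rw [← hqd] at hL
  haveI : Finite (GL chevG2.Idx F) := inferInstance
  -- an element of order r
  have hdv : r ∣ Nat.card ↥(chevG2.group F) := by
    rw [card_G2_nat, ← hqd]
    apply Dvd.dvd.mul_left
    apply Dvd.dvd.mul_left
    have h1 : r ∣ q ^ 3 - 1 := by rw [← hN]; exact Dvd.dvd.mul_right hd _
    have h2 : q ^ 3 - 1 ∣ q ^ 6 - 1 := by
      have := Nat.sub_one_dvd_pow_sub_one (q ^ 3) 2
      rwa [← pow_mul] at this
    exact h1.trans h2
  obtain ⟨x, hx⟩ := exists_prime_orderOf_dvd_card' r hdv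
  have hdL : r ∣ Fintype.card L - 1 := by
    rw [hL, ← hN]; exact Dvd.dvd.mul_right hd _
  obtain ⟨y, hy, h, e, ho, w, hw, k, hk, hn⟩ := M1 g f σ hx (index_G2 hr2 hr3 hdL) hσ hf
  have hch : ∀ γ < tG2.n, ch g (wact tG2 w γ) h ^ q = ch g γ h := by
    intro γ hγ
    have := ch_conj g hw hk hγ h (h ^ q) hn
    rw [map_pow] at this
    exact this
  obtain ⟨hG, hreg, hst⟩ := reg_G2 hL hq0 hr2 hr3 hd ho hw hch
  obtain ⟨τ, hτ, hτ2⟩ := M2 g f σ (ker_trivial smith_G2 (by decide +kernel)) hσ hf hf' hy e hw hk hn hreg hst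
  have h7 : (7 : ℕ) < 12 := by norm_num
  have hW7 : wact tG2 w 7 < 12 := g.wact_lt hw h7
  -- coordinates
  have hrep : ∀ γ < 12, ∃ m k : ℤ, (∀ t : ↥(chevG2.diagonalSubgroup L), ch g γ t = ch g 7 t ^ m * ch g (wact tG2 w 7) t ^ k) ∧
      (∀ t : ↥(chevG2.diagonalSubgroup L), ch g (wact tG2 w γ) t = ch g 7 t ^ (-k) * ch g (wact tG2 w 7) t ^ (m - k)) := by
    intro γ hγ
    obtain ⟨m, _, k, _, h4⟩ := hG.1 γ hγ
    rw [fn_W12 w h7, fn_W12 w hγ] at h4
    refine ⟨m, k, fun t => ?_, fun t => ?_⟩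
    · have := ch_rel g (γ := γ) (β := 7) (δ := wact tG2 w 7) hγ h7 hW7 (a := 1) (m := m) (k := k)
        (by intro j hj; rw [one_mul]; exact (h4 j hj).1) t
      rw [_root_.zpow_one] at this
      exact this
    · have := ch_rel g (γ := wact tG2 w γ) (β := 7) (δ := wact tG2 w 7) (g.wact_lt hw hγ) h7 hW7 (a := 1) (m := -k) (k := m - k)
        (by intro j hj; rw [one_mul]; exact (h4 j hj).2) t
      rw [_root_.zpow_one] at this
      exact this
  obtain ⟨hB1, c0, _, c1, hc1, hB2⟩ := PW_B _ (W12_mem hw) hG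
  rw [fn_W12 w h7, fn_W12 w hW7] at hB1
  rw [fn_W12 w h7] at hB2
  have hW77 : ∀ t : ↥(chevG2.diagonalSubgroup L), ch g (wact tG2 w (wact tG2 w 7)) t = (ch g 7 t)⁻¹ * (ch g (wact tG2 w 7) t)⁻¹ := by
    intro t
    have := ch_rel g (γ := wact tG2 w (wact tG2 w 7)) (β := 7) (δ := wact tG2 w 7) (g.wact_lt hw hW7) h7 hW7 (a := 1) (m := -1) (k := -1)
      (by intro j hj; rw [one_mul]; exact hB1 j hj) t
    rw [_root_.zpow_one, _root_.zpow_neg, _root_.zpow_neg, _root_.zpow_one, _root_.zpow_one] at this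
    exact this
  have h6 : ∀ t : ↥(chevG2.diagonalSubgroup L), ch g (wact tG2 w 7) t = ch g 7 t ^ c0 * ch g 6 t ^ c1 := by
    intro t
    have := ch_rel g (γ := wact tG2 w 7) (β := 7) (δ := 6) hW7 h7 (by show 6 < 12; norm_num) (a := 1) (m := c0) (k := c1)
      (by intro j hj; rw [one_mul]; exact hB2 j hj) t
    rw [_root_.zpow_one] at this
    exact this
  have hNz : ((q ^ 2 + q + 1 : ℕ) : ℤ) = (q : ℤ) ^ 2 + q + 1 := by push_cast; ring
  -- the image
  have hmemN : ∀ t : ↥(chevG2.diagonalSubgroup L), (∀ γ < 12, ch g (wact tG2 w γ) t ^ q = ch g γ t) →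
      ch g (wact tG2 w 7) t = (ch g 7 t) ^ (-(q + 1 : ℤ)) ∧ ch g 7 t ^ (q ^ 2 + q + 1) = 1 := by
    intro t ht
    have e1 := ht 7 h7
    have e2 := ht _ hW7
    rw [hW77] at e2
    set b := ch g 7 t
    set u := ch g (wact tG2 w 7) t
    have e3 : u = b ^ (-(q + 1 : ℤ)) := by
      rw [← e2, mul_pow, inv_pow, inv_pow, e1, _root_.zpow_neg, _root_.zpow_add, _root_.zpow_one, zpow_natCast, mul_inv]
    refine ⟨e3, ?_⟩
    rw [e3] at e1
    have e4 : b ^ ((-(q + 1 : ℤ)) * q) = b := by rw [_root_.zpow_mul, zpow_natCast]; exact e1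
    have e5 : b ^ ((q : ℤ) ^ 2 + q + 1) = 1 := by
      have : (q : ℤ) ^ 2 + q + 1 = 1 - (-(q + 1 : ℤ)) * q := by ring
      rw [this, _root_.zpow_sub, e4, _root_.zpow_one, mul_inv_cancel]
    rw [← zpow_natCast, hNz]; exact e5
  have him : ∀ a, ∀ γ < 12, ch g (wact tG2 w γ) (τ a) ^ q = ch g γ (τ a) := fun a => (hτ2 (τ a)).1 ⟨a, rfl⟩
  have hinj : ∀ t : ↥(chevG2.diagonalSubgroup L), (∀ γ < 12, ch g (wact tG2 w γ) t ^ q = ch g γ t) → ch g 7 t = 1 → t = 1 := by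
    intro t ht h1
    have h2 := (hmemN t ht).1
    rw [h1, _root_.one_zpow] at h2
    apply H_ext g
    intro j hj
    rw [map_one]
    obtain ⟨m, k, h3, _⟩ := hrep _ (g.sim_lt hj)
    rw [h3, h1, h2, _root_.one_zpow, _root_.one_zpow, one_mul]
  -- the homomorphism into the multiplicative group
  let ρ : ↥(Subgroup.centralizer ({x} : Set ↥(chevG2.group F))) →* Lˣ := (ch g 7).comp τ
  have hρ : Function.Injective ρ := by
    rw [injective_iff_map_eq_one]
    intro a ha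
    apply hτ
    rw [map_one]
    exact hinj _ (him a) ha
  have hcomm : ∀ a b : ↥(Subgroup.centralizer ({x} : Set ↥(chevG2.group F))), a * b = b * a := by
    intro a b
    apply hρ
    rw [map_mul, map_mul, mul_comm]
  refine ⟨Subgroup.centralizer ({x} : Set ↥(chevG2.group F)), ?_, ?_, ?_⟩
  · exact isCyclic_of_injective_ringHom ((Units.coeHom L).comp ρ) (fun a b hab => hρ (Units.ext hab))
  · rw [← card_roots (L := L) (N := q ^ 2 + q + 1) (M := q - 1) (by positivity) (by rw [hN, hL])]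
    refine Nat.card_eq_of_bijective (fun a => (⟨ρ a, (hmemN _ (him a)).2⟩ : {b : Lˣ // b ^ (q ^ 2 + q + 1) = 1})) ⟨?_, ?_⟩
    · intro a b hab
      exact hρ (congrArg Subtype.val hab)
    · rintro ⟨b, hb⟩
      have hbz : b ^ ((q : ℤ) ^ 2 + q + 1) = 1 := by rw [← hNz, zpow_natCast]; exact hb
      obtain ⟨t, ht1, ht2⟩ := exists_H b ((b ^ ((q : ℤ) ^ 2 - c0)) ^ c1)
      have hu : ch g (wact tG2 w 7) t = b ^ ((q : ℤ) ^ 2) := by
        rw [h6, ht1, ht2, ← _root_.zpow_mul, ← _root_.zpow_mul, ← _root_.zpow_add]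
        congr 1
        simp only [List.mem_cons, List.not_mem_nil, or_false] at hc1
        rcases hc1 with rfl | rfl <;> ring
      have ht : ∀ γ < 12, ch g (wact tG2 w γ) t ^ q = ch g γ t := by
        intro γ hγ
        obtain ⟨m, k, h3, h4⟩ := hrep γ hγ
        rw [h3, h4, ht1, hu, ← _root_.zpow_mul, ← _root_.zpow_mul, ← _root_.zpow_add, ← _root_.zpow_add, ← zpow_natCast, ← _root_.zpow_mul]
        have e9 : (-k + (q : ℤ) ^ 2 * (m - k)) * (q : ℤ) = (m + (q : ℤ) ^ 2 * k) + ((q : ℤ) ^ 2 + q + 1) * (((q : ℤ) - 1) * (m - k) - k) := by ring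
        rw [e9, _root_.zpow_add b (m + (q : ℤ) ^ 2 * k), _root_.zpow_mul b ((q : ℤ) ^ 2 + q + 1), hbz, _root_.one_zpow, mul_one]
      obtain ⟨a, ha⟩ := (hτ2 t).2 ht
      refine ⟨a, Subtype.ext ?_⟩
      show ch g 7 (τ a) = b
      rw [ha]; exact ht1
  · apply le_antisymm
    · apply Subgroup.centralizer_le
      rw [Set.singleton_subset_iff, SetLike.mem_coe, Subgroup.mem_centralizer_iff]
      intro v hv
      rw [Set.mem_singleton_iff] at hv
      rw [hv]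
    · intro a ha
      rw [Subgroup.mem_centralizer_iff]
      intro b hb
      exact congrArg Subtype.val (hcomm ⟨b, hb⟩ ⟨a, ha⟩)

end CfsgLib.MT
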