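import Cfsg.Agent.EqBase
import Cfsg.Prelude.Def_Transfer
import Cfsg.Agent.LibPPChar

set_option autoImplicit false

/-! Transfer with controlled fusion of powers (seat helper8). -/

namespace CfsgLib.TrCtl

open Subgroup MonoidHom
open scoped commutatorElement

universe u
variable {G : Type u} [Group G] [Finite G]

theorem transfer_eq_pow_of {A : Type*} [CommGroup A] {H : Subgroup G} (ϕ : H →* A) {g : G}
    (hg : g ∈ H) (key : ∀ (k : ℕ) (a : G) (h : a⁻¹ * g ^ k * a ∈ H),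
      ϕ ⟨a⁻¹ * g ^ k * a, h⟩ = ϕ ⟨g, hg⟩ ^ k) :
    transfer ϕ g = ϕ ⟨g, hg⟩ ^ H.index := by
  classical
  letI := H.fintypeQuotientOfFiniteIndex
  letI : Fintype (Quotient (MulAction.orbitRel (zpowers g) (G ⧸ H))) := Fintype.ofFinite _
  rw [transfer_eq_prod_quotient_orbitRel_zpowers_quot]
  have h1 : H.index = ∑ q : Quotient (MulAction.orbitRel (zpowers g) (G ⧸ H)),
      Function.minimalPeriod (g • ·) q.out := index_eq_sum_minimalPeriod H g
  rw [h1, ← Finset.prod_pow_eq_pow_sum]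
  exact Finset.prod_congr rfl (fun q _ => key _ _ _)

theorem mem_ker_of_transfer {p : ℕ} [Fact p.Prime] {A : Type*} [CommGroup A] {H : Subgroup G}
    (ϕ : H →* A) {g : G} (hg : g ∈ H) (hidx : Nat.Coprime p H.index)
    (hgp : ∃ k : ℕ, orderOf g = p ^ k) (key : ∀ (k : ℕ) (a : G) (h : a⁻¹ * g ^ k * a ∈ H),
      ϕ ⟨a⁻¹ * g ^ k * a, h⟩ = ϕ ⟨g, hg⟩ ^ k) (h1 : transfer ϕ g = 1) : ϕ ⟨g, hg⟩ = 1 := by
  rw [transfer_eq_pow_of ϕ hg key] at h1
  have h2 := orderOf_dvd_of_pow_eq_one h1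
  obtain ⟨k, hk⟩ := hgp
  have h3 : orderOf (ϕ ⟨g, hg⟩) ∣ p ^ k := by
    have := orderOf_map_dvd ϕ (⟨g, hg⟩ : H)
    rwa [orderOf_mk, hk] at this
  have h4 := Nat.dvd_gcd h3 h2
  rw [(Nat.Coprime.pow_left k hidx).gcd_eq_one] at h4
  rw [← orderOf_eq_one_iff]
  exact Nat.dvd_one.1 h4

/-- **S1241** -/
theorem not_mem_commutator {p : ℕ} [Fact p.Prime] (H K : Subgroup G) (hHK : K ≤ H)
    (hKn : (K.subgroupOf H).Normal) (hab : ∀ x ∈ H, ∀ y ∈ H, x * y * x⁻¹ * y⁻¹ ∈ K)
    (hidx : Nat.Coprime p H.index) (g : G) (hgH : g ∈ H) (hgK : g ∉ K)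
    (hgp : ∃ k : ℕ, orderOf g = p ^ k)
    (hctrl : ∀ (m : ℤ) (a : G), a * g ^ m * a⁻¹ ∈ H → (a * g ^ m * a⁻¹) * (g ^ m)⁻¹ ∈ K) :
    g ∉ commutator G := by
  intro hgc
  haveI := hKn
  letI : CommGroup (H ⧸ K.subgroupOf H) :=
    { (inferInstance : Group (H ⧸ K.subgroupOf H)) with
      mul_comm := by
        rintro ⟨a⟩ ⟨b⟩
        change (QuotientGroup.mk (a * b) : H ⧸ K.subgroupOf H) = QuotientGroup.mk (b * a)
        rw [QuotientGroup.eq]
        have h1 := hab _ (inv_mem b.2) _ (inv_mem a.2)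
        rw [mem_subgroupOf]
        have e : (((a * b)⁻¹ * (b * a) : H) : G) = (b : G)⁻¹ * (a : G)⁻¹ * ((b : G)⁻¹)⁻¹ * ((a : G)⁻¹)⁻¹ := by
          push_cast; group
        rwa [e] }
  obtain ⟨ϕ, hϕ⟩ : ∃ ϕ : H →* (H ⧸ K.subgroupOf H), ∀ x, ϕ x = QuotientGroup.mk x :=
    ⟨QuotientGroup.mk' _, fun _ => rfl⟩
  have hone : ∀ x : H, ϕ x = 1 ↔ (x : G) ∈ K := by
    intro x
    rw [hϕ]
    exact QuotientGroup.eq_one_iff x
  apply hgK
  have h1 : ϕ ⟨g, hgH⟩ = 1 := by
    apply mem_ker_of_transfer ϕ hgH hidx hgp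
    · intro k a h
      have h2 := hctrl k a⁻¹ (by rwa [zpow_natCast, inv_inv])
      rw [zpow_natCast, inv_inv] at h2
      rw [← map_pow, ← mul_inv_eq_one, ← map_inv, ← map_mul, hone]
      exact h2
    · have h3 : commutator G ≤ (transfer ϕ).ker := by
        rw [_root_.commutator_def, commutator_le]
        intro a _ b _
        rw [MonoidHom.mem_ker, map_commutatorElement, commutatorElement_eq_one_iff_mul_comm]
        exact mul_comm _ _
      exact h3 hgc
  exact (hone _).1 h1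

/-- **S1242** -/
theorem residual_inf {p : ℕ} [hp : Fact p.Prime] (H : Subgroup G) (hidx : Nat.Coprime p H.index)
    (hfus : ∀ g ∈ H, (∃ k : ℕ, orderOf g = p ^ k) → ∀ a : G, a * g * a⁻¹ ∈ H →
      ∃ h ∈ H, h * g * h⁻¹ = a * g * a⁻¹) :
    (Cfsg.pResidual p G ⊔ commutator G) ⊓ H =
      (Cfsg.pResidual p ↥H ⊔ commutator ↥H).map H.subtype := by
  obtain ⟨K, hK⟩ : ∃ K : Subgroup H, K = Cfsg.pResidual p ↥H ⊔ commutator ↥H := ⟨_, rfl⟩
  haveI hKn : K.Normal := by
    rw [hK]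
    exact Subgroup.Normal.of_commutator_le _ le_sup_right
  apply le_antisymm
  · rw [← hK]
    letI : CommGroup (H ⧸ K) :=
      { (inferInstance : Group (H ⧸ K)) with
        mul_comm := by
          rintro ⟨a⟩ ⟨b⟩
          change (QuotientGroup.mk (a * b) : H ⧸ K) = QuotientGroup.mk (b * a)
          rw [QuotientGroup.eq]
          have h1 : commutator H ≤ K := by rw [hK]; exact le_sup_right
          apply h1
          have e : (a * b)⁻¹ * (b * a) = b⁻¹ * a⁻¹ * (b⁻¹)⁻¹ * (a⁻¹)⁻¹ := by group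
          rw [e, _root_.commutator_def, ← commutatorElement_def]
          exact commutator_mem_commutator (mem_top _) (mem_top _) }
    obtain ⟨ϕ, hϕ⟩ : ∃ ϕ : H →* (H ⧸ K), ∀ x, ϕ x = QuotientGroup.mk x :=
      ⟨QuotientGroup.mk' _, fun _ => rfl⟩
    have hsur : Function.Surjective ϕ := by
      intro y
      obtain ⟨x, rfl⟩ := QuotientGroup.mk_surjective y
      exact ⟨x, hϕ x⟩
    have hone : ∀ x : H, ϕ x = 1 ↔ x ∈ K := by
      intro x
      rw [hϕ]
      exact QuotientGroup.eq_one_iff x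
    have hres : ∀ x : H, Nat.Coprime (orderOf x) p → x ∈ K := by
      intro x hx
      rw [hK]
      exact mem_sup_left (Subgroup.subset_closure hx)
    obtain ⟨e, e', he, he', hee⟩ := CfsgLib.PPChar.exists_exp (G := G) p hp.out
    have hcop' : ∀ g : G, Nat.Coprime (orderOf (g ^ e')) p := fun g =>
      ((Nat.Prime.coprime_iff_not_dvd hp.out).2 (he'.ppart g)).symm
    -- every element of the quotient is a `p`-element
    have hA : ∀ y : H ⧸ K, ∃ k : ℕ, orderOf y ∣ p ^ k := by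
      intro y
      obtain ⟨x, rfl⟩ := hsur y
      obtain ⟨k, hk⟩ := he.ppart (x : G)
      refine ⟨k, ?_⟩
      have h1 : ϕ x = ϕ (x ^ e) := by
        have h2 : x = x ^ e * x ^ e' := Subtype.ext (hee x).symm
        have h3 : ϕ (x ^ e') = 1 := by
          rw [hone]
          apply hres
          rw [← orderOf_coe]
          exact hcop' (x : G)
        conv_lhs => rw [h2]
        rw [map_mul, h3, mul_one]
      rw [h1, ← hk]
      have h4 := orderOf_map_dvd ϕ (x ^ e)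
      rwa [← orderOf_coe] at h4
    have hker : Cfsg.pResidual p G ⊔ commutator G ≤ (transfer ϕ).ker := by
      apply sup_le
      · rw [Cfsg.pResidual, closure_le]
        intro x hx
        have hx' : Nat.Coprime (orderOf x) p := hx
        change transfer ϕ x = 1
        obtain ⟨k, hk⟩ := hA (transfer ϕ x)
        have h1 := Nat.dvd_gcd (orderOf_map_dvd (transfer ϕ) x) hk
        rw [(Nat.Coprime.pow_right k hx').gcd_eq_one] at h1
        rw [← orderOf_eq_one_iff]
        exact Nat.dvd_one.1 h1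
      · rw [_root_.commutator_def, commutator_le]
        intro a _ b _
        rw [MonoidHom.mem_ker, map_commutatorElement, commutatorElement_eq_one_iff_mul_comm]
        exact mul_comm _ _
    rintro g ⟨hg1, hgH⟩
    have hgeH : g ^ e ∈ H := pow_mem hgH e
    have hge'H : g ^ e' ∈ H := pow_mem hgH e'
    have h1 : transfer ϕ (g ^ e) = 1 := by
      have h2 : transfer ϕ g = 1 := hker hg1
      rw [map_pow, h2, one_pow]
    have h2 := mem_ker_of_transfer ϕ hgeH hidx (he.ppart g) (by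
      intro k a h
      have h3 : ∃ j : ℕ, orderOf ((g ^ e) ^ k) = p ^ j := by
        obtain ⟨j, hj⟩ := he.ppart g
        obtain ⟨i, -, hi⟩ := (Nat.dvd_prime_pow hp.out).1 (hj ▸ orderOf_pow_dvd (x := g ^ e) k)
        exact ⟨i, hi⟩
      obtain ⟨b, hb, hba⟩ := hfus _ (pow_mem hgeH k) h3 a⁻¹ (by rwa [inv_inv])
      rw [inv_inv] at hba
      have h4 : (⟨a⁻¹ * (g ^ e) ^ k * a, h⟩ : H) = ⟨b, hb⟩ * ⟨g ^ e, hgeH⟩ ^ k * ⟨b, hb⟩⁻¹ :=
        Subtype.ext hba.symm
      rw [h4, map_mul, map_mul, map_inv, map_pow, mul_comm (ϕ ⟨b, hb⟩), mul_inv_cancel_right]) h1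
    rw [hone] at h2
    refine ⟨⟨g ^ e, hgeH⟩ * ⟨g ^ e', hge'H⟩, mul_mem h2 (hres _ ?_), hee g⟩
    rw [orderOf_mk]
    exact hcop' g
  · rw [← hK, hK]
    apply le_inf _ (map_subtype_le _)
    rw [Subgroup.map_sup]
    apply sup_le_sup
    · rw [Subgroup.map_le_iff_le_comap, Cfsg.pResidual, closure_le]
      intro x hx
      apply Subgroup.subset_closure
      have h3 : Nat.Coprime (orderOf x) p := hx
      change Nat.Coprime (orderOf (x : G)) p
      rwa [orderOf_coe]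
    · rw [_root_.commutator_def, _root_.commutator_def, Subgroup.map_commutator]
      exact commutator_mono le_top le_top

end CfsgLib.TrCtl
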