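import Cfsg.Agent.LibCharBasic3
import Cfsg.Agent.LibCharInt

set_option autoImplicit false
set_option linter.all false
set_option maxHeartbeats 1000000

/-! # Traces of endomorphisms commuting with a representation (helper20) -/

namespace CfsgLib.TrDec20

open Cfsg CfsgLib.CharBasic
open scoped ComplexConjugate

universe u v

variable {G : Type u} [Group G] {V : Type v} [AddCommGroup V] [Module ℂ V] [FiniteDimensional ℂ V]

/-- the generalized eigenspace as a subrepresentation -/
def gsub (ρ : Representation ℂ G V) (A : Module.End ℂ V) (hA : ∀ g, Commute A (ρ g)) (μ : ℂ) : Subrepresentation ρ where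
  toSubmodule := A.maxGenEigenspace μ
  apply_mem_toSubmodule g _ hv := Module.End.mapsTo_maxGenEigenspace_of_comm (hA g) μ hv

theorem trace_dec (ρ : Representation ℂ G V) (A : Module.End ℂ V) (hA : ∀ g, Commute A (ρ g)) :
    ∃ (s : Finset ℂ) (φ : ℂ → G → ℂ), (∀ μ ∈ s, A.HasEigenvalue μ) ∧ (∀ μ, IsCharacter G (φ μ)) ∧
      (∀ g, LinearMap.trace ℂ V (ρ g ∘ₗ A) = ∑ μ ∈ s, μ * φ μ g) ∧ (∀ g, LinearMap.trace ℂ V (ρ g) = ∑ μ ∈ s, φ μ g) := by
  classical
  have hds := DirectSum.isInternal_submodule_of_iSupIndep_of_iSup_eq_top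
    A.independent_maxGenEigenspace (Module.End.iSup_maxGenEigenspace_eq_top A)
  have h_fin : {μ | A.maxGenEigenspace μ ≠ ⊥}.Finite :=
    WellFoundedGT.finite_ne_bot_of_iSupIndep A.independent_maxGenEigenspace
  refine ⟨h_fin.toFinset, fun μ => ((gsub ρ A hA μ).toRepresentation).character, ?_, fun μ => isCharacter_character _, ?_, ?_⟩
  · intro μ hμ
    rw [Set.Finite.mem_toFinset] at hμ
    exact Module.End.HasUnifEigenvalue.lt (k := ⊤) (by norm_num) hμ
  · intro g
    have hfg : ∀ μ, Set.MapsTo (ρ g ∘ₗ A) ↑(A.maxGenEigenspace μ) ↑(A.maxGenEigenspace μ) :=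
      fun μ => (Module.End.mapsTo_maxGenEigenspace_of_comm (hA g) μ).comp
        (Module.End.mapsTo_maxGenEigenspace_of_comm rfl μ)
    rw [LinearMap.trace_eq_sum_trace_restrict' hds h_fin hfg]
    apply Finset.sum_congr rfl
    intro μ _
    have hf' := Module.End.mapsTo_maxGenEigenspace_of_comm (f := A) (Commute.refl _) μ
    have hg' := Module.End.mapsTo_maxGenEigenspace_of_comm (hA g) μ
    have h_comm : Commute ((ρ g).restrict hg') (LinearMap.restrict A hf') :=
      LinearMap.restrict_commute (hA g).symm _ _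
    have h2 := Module.End.isNilpotent_restrict_maxGenEigenspace_sub_algebraMap A μ
    have h3 := LinearMap.restrict_comp hf' hg'
    rw [h3, LinearMap.trace_comp_eq_mul_of_commute_of_isNilpotent μ h_comm h2]
    rfl
  · intro g
    have hfg : ∀ μ, Set.MapsTo (ρ g) ↑(A.maxGenEigenspace μ) ↑(A.maxGenEigenspace μ) :=
      fun μ => (Module.End.mapsTo_maxGenEigenspace_of_comm (hA g) μ)
    rw [LinearMap.trace_eq_sum_trace_restrict' hds h_fin hfg]
    rfl

end CfsgLib.TrDec20
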