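import Mathlib
import Cfsg.Agent.EqBase
import Cfsg.Agent.LibTri28

set_option autoImplicit false

/-! The structure of the trio stabiliser (helper28). -/

namespace CfsgLib.Blk28

open Cfsg CfsgLib.Golay CfsgLib.M24 CfsgLib.Restr28 CfsgLib.Syn28 CfsgLib.Six28 CfsgLib.OrbG28 CfsgLib.Qrt28 CfsgLib.Trio28 MulAction
open scoped Pointwise

/-- splitting off a centraliser -/
theorem split_quot {Q P : Type*} [Group Q] [Group P] (r : Q →* P)
    (hs : ∀ p : P, ∃ c ∈ Subgroup.centralizer (r.ker : Set Q), r c = p)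
    (hc : r.ker ⊓ Subgroup.centralizer (r.ker : Set Q) = ⊥) : Nonempty (Q ≃* ↥r.ker × P) := by
  let C := Subgroup.centralizer (r.ker : Set Q)
  let rC : ↥C →* P := r.comp C.subtype
  have h1 : Function.Bijective rC := by
    constructor
    · rw [← MonoidHom.ker_eq_bot_iff, eq_bot_iff]
      intro x hx
      have h2 : (x : Q) ∈ r.ker ⊓ C := ⟨hx, x.2⟩
      rw [hc, Subgroup.mem_bot] at h2
      exact Subtype.ext h2
    · intro p
      obtain ⟨c, hcC, h⟩ := hs p
      exact ⟨⟨c, hcC⟩, h⟩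
  have hcomm : ∀ (m : ↥r.ker) (n : ↥C), Commute (r.ker.subtype m) (C.subtype n) := by
    intro m n
    exact Subgroup.mem_centralizer_iff.1 n.2 m m.2
  have h2 : Function.Bijective (MonoidHom.noncommCoprod r.ker.subtype C.subtype hcomm) := by
    constructor
    · rw [MonoidHom.noncommCoprod_injective]
      refine ⟨r.ker.subtype_injective, C.subtype_injective, ?_⟩
      rw [Subgroup.range_subtype, Subgroup.range_subtype, disjoint_iff]
      exact hc
    · intro q
      obtain ⟨c, hcC, h⟩ := hs (r q)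
      have h3 : q * c⁻¹ ∈ r.ker := by
        rw [MonoidHom.mem_ker, map_mul, map_inv, h, mul_inv_cancel]
      refine ⟨(⟨q * c⁻¹, h3⟩, ⟨c, hcC⟩), ?_⟩
      show q * c⁻¹ * c = q
      group
  exact ⟨(MulEquiv.ofBijective _ h2).symm.trans (MulEquiv.prodCongr (MulEquiv.refl _) (MulEquiv.ofBijective rC h1))⟩

theorem card_GL32 : Nat.card (GL (Fin 3) (ZMod 2)) = 168 := by
  have : Fact (Nat.Prime 2) := ⟨Nat.prime_two⟩
  have := Matrix.card_GL_field (𝔽 := ZMod 2) 3
  rw [this, ZMod.card, Fin.prod_univ_three]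
  norm_num

theorem center_GL32 (g : GL (Fin 3) (ZMod 2)) (hg : ∀ h, g * h = h * g) : g = 1 := by
  have h1 : g ∈ Subgroup.center (GL (Fin 3) (ZMod 2)) := Subgroup.mem_center_iff.2 (fun h => (hg h).symm)
  rw [Matrix.GeneralLinearGroup.mem_center_iff_val_mem_range_scalar] at h1
  obtain ⟨c, hc⟩ := h1
  have hc2 : ∀ c : ZMod 2, c = 0 ∨ c = 1 := by decide
  apply Units.ext
  rcases hc2 c with rfl | rfl
  · exfalso
    have h2 : (g : Matrix (Fin 3) (Fin 3) (ZMod 2)) = 0 := by rw [← hc, map_zero]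
    have h3 := g.mul_inv
    rw [h2, zero_mul] at h3
    exact absurd h3 (by decide)
  · rw [← hc, map_one]; rfl

section
variable {T : Finset (Finset GolayPt)} (hT : T ∈ trios) {a b : Finset GolayPt} (ha : a ∈ T) (hb : b ∈ T) (hab : a ≠ b)

/-- the core of the trio group -/
abbrev NN (T : Finset (Finset GolayPt)) (a b : Finset GolayPt) : Subgroup ↥M24 := EE T a ⊔ EE T b

theorem NN_le : NN T a b ≤ kr T := sup_le (EE_le _ _) (EE_le _ _)

include hT ha hb hab in
theorem NN_card : Nat.card ↥(NN T a b) = 64 := by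
  rw [card_sup_of_comm (tr_comm hT ha hb hab) (tr_inf hT ha hb hab), tr_EE_card hT ha, tr_EE_card hT hb]

include hT ha hb hab in
theorem NN_sq : ∀ x ∈ NN T a b, x * x = 1 :=
  sq_sup_of_comm (tr_comm hT ha hb hab) (EE_sq (hT.2.1 a ha)) (EE_sq (hT.2.1 b hb))

include hT ha hb hab in
theorem NN_conj {g : ↥M24} (hg : g • T = T) : ∀ x ∈ NN T a b, g * x * g⁻¹ ∈ NN T a b := by
  intro x hx
  obtain ⟨e, he, f, hf, rfl⟩ := mem_sup_of_comm (tr_comm hT ha hb hab) hx
  have h1 : g • a ∈ T := (smul_mem_iff' hg a).2 ha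
  have h2 : g • b ∈ T := (smul_mem_iff' hg b).2 hb
  have h3 : g * (e * f) * g⁻¹ = (g * e * g⁻¹) * (g * f * g⁻¹) := by group
  rw [h3]
  exact mul_mem (tr_le hT ha hb hab h1 (EE_conj hg he)) (tr_le hT ha hb hab h2 (EE_conj hg hf))

include hT ha hb hab in
/-- the core centralises all the groups -/
theorem NN_cent {o : Finset GolayPt} (ho : o ∈ T) : ∀ x ∈ NN T a b, ∀ h ∈ EE T o, x * h = h * x := by
  have key : ∀ v ∈ T, ∀ x ∈ EE T v, ∀ h ∈ EE T o, x * h = h * x := by
    intro v hv x hx h hh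
    by_cases hvo : v = o
    · subst hvo
      exact fx_comm (hT.2.1 v hv) (Subgroup.mem_inf.1 hx).1 (Subgroup.mem_inf.1 hh).1
    · exact tr_comm hT hv ho hvo x hx h hh
  intro x hx h hh
  obtain ⟨e, he, f, hf, rfl⟩ := mem_sup_of_comm (tr_comm hT ha hb hab) hx
  rw [mul_assoc, key b hb f hf h hh, ← mul_assoc, key a ha e he h hh, mul_assoc]

include hT ha hb hab in
theorem mem_NN_of_cent {o : Finset GolayPt} (ho : o ∈ T) {g : ↥M24} (hg : g ∈ kr T) (hc : ∀ h ∈ EE T o, g * h = h * g) :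
    g ∈ NN T a b := by
  obtain ⟨o', ho', hne⟩ := trio_two hT ho
  have h1 := tr_cent hT ho ho' hne hg hc
  exact (sup_le (tr_le hT ha hb hab ho) (tr_le hT ha hb hab ho')) h1

/-- the group as a normal subgroup of the kernel -/
abbrev VV (T : Finset (Finset GolayPt)) (o : Finset GolayPt) : Subgroup ↥(kr T) := (EE T o).subgroupOf (kr T)

theorem VV_normal {o : Finset GolayPt} (ho : o ∈ T) : (VV T o).Normal :=
  ⟨fun x hx k => Subgroup.mem_subgroupOf.2 (tr_nrm ho k k.2 x (Subgroup.mem_subgroupOf.1 hx))⟩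

include hT ha hb hab in
/-- the action on one of the groups is the full `GL(3,2)` -/
theorem GL_main {o : Finset GolayPt} (ho : o ∈ T) [hn : (VV T o).Normal] :
    (∃ ψ : ↥(kr T) →* GL (Fin 3) (ZMod 2), Function.Surjective ψ ∧ ψ.ker = (NN T a b).subgroupOf (kr T)) ∧
      Function.Surjective (MulAut.conjNormal (H := VV T o) : ↥(kr T) →* MulAut ↥(VV T o)) := by
  haveI : Fact (Nat.Prime 2) := ⟨Nat.prime_two⟩
  have hcomm : ∀ x y : ↥(VV T o), x * y = y * x := by
    intro x y
    apply Subtype.ext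
    apply Subtype.ext
    exact fx_comm (hT.2.1 o ho) (Subgroup.mem_inf.1 (Subgroup.mem_subgroupOf.1 x.2)).1 (Subgroup.mem_inf.1 (Subgroup.mem_subgroupOf.1 y.2)).1
  letI : CommGroup ↥(VV T o) := { (inferInstance : Group ↥(VV T o)) with mul_comm := hcomm }
  obtain ⟨φ, hφ⟩ := CfsgLib.Agl28.exists_GL_hom (A := ↥(VV T o)) 2 3 (fun x => by
    rw [pow_two]
    apply Subtype.ext
    apply Subtype.ext
    exact EE_sq (hT.2.1 o ho) _ (Subgroup.mem_subgroupOf.1 x.2)) (by
    rw [Nat.card_congr (Subgroup.subgroupOfEquivOfLe (EE_le T o)).toEquiv, tr_EE_card hT ho]; norm_num)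
  have hker : (MulAut.conjNormal (H := VV T o) : ↥(kr T) →* MulAut ↥(VV T o)).ker = (NN T a b).subgroupOf (kr T) := by
    ext g
    rw [MonoidHom.mem_ker, Subgroup.mem_subgroupOf]
    constructor
    · intro h
      apply mem_NN_of_cent hT ha hb hab ho g.2
      intro x hx
      have h1 : x ∈ kr T := EE_le T o hx
      have h2 := congrArg (fun e : MulAut ↥(VV T o) => (((e ⟨⟨x, h1⟩, Subgroup.mem_subgroupOf.2 hx⟩ : ↥(VV T o)) : ↥(kr T)) : ↥M24)) h
      have h3 : (g : ↥M24) * x * (g : ↥M24)⁻¹ = x := h2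
      exact mul_inv_eq_iff_eq_mul.1 h3
    · intro h
      apply MulEquiv.ext
      intro x
      apply Subtype.ext
      apply Subtype.ext
      have h1 := NN_cent hT ha hb hab ho _ h _ (Subgroup.mem_subgroupOf.1 x.2)
      show (g : ↥M24) * ((x : ↥(kr T)) : ↥M24) * (g : ↥M24)⁻¹ = ((x : ↥(kr T)) : ↥M24)
      exact mul_inv_eq_iff_eq_mul.2 h1
  have hrange : Nat.card ↥(MulAut.conjNormal (H := VV T o) : ↥(kr T) →* MulAut ↥(VV T o)).range = 168 := by
    have h1 := Subgroup.index_ker (MulAut.conjNormal (H := VV T o) : ↥(kr T) →* MulAut ↥(VV T o))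
    have h2 := Subgroup.card_mul_index ((NN T a b).subgroupOf (kr T))
    rw [hker] at h1
    rw [Nat.card_congr (Subgroup.subgroupOfEquivOfLe NN_le).toEquiv, NN_card hT ha hb hab, card_kr_tr hT, h1] at h2
    omega
  have hφc : Nat.card (MulAut ↥(VV T o)) ≤ 168 := by
    rw [← card_GL32]
    exact Nat.card_le_card_of_injective φ hφ
  have htop : (MulAut.conjNormal (H := VV T o) : ↥(kr T) →* MulAut ↥(VV T o)).range = ⊤ := by
    apply Subgroup.eq_top_of_card_eq
    apply le_antisymm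
    · exact Subgroup.card_le_card_group _
    · rw [hrange]; exact hφc
  have hsurj := MonoidHom.range_eq_top.1 htop
  have hc : Nat.card (MulAut ↥(VV T o)) = 168 := by
    rw [← hrange, htop, Subgroup.card_top]
  have hφs : Function.Surjective φ := by
    haveI : Finite (MulAut ↥(VV T o)) := Nat.finite_of_card_ne_zero (by rw [hc]; norm_num)
    exact ((Nat.bijective_iff_injective_and_card φ).2 ⟨hφ, by rw [hc, card_GL32]⟩).2
  refine ⟨⟨φ.comp (MulAut.conjNormal (H := VV T o)), hφs.comp hsurj, ?_⟩, hsurj⟩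
  rw [← hker]
  ext g
  rw [MonoidHom.mem_ker, MonoidHom.mem_ker, MonoidHom.comp_apply]
  constructor
  · intro h
    exact hφ (by rw [h, map_one])
  · intro h
    rw [h, map_one]

end

end CfsgLib.Blk28
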