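import Mathlib
import Cfsg.Agent.EqBase
import Cfsg.Agent.LibTriB28

set_option autoImplicit false

/-! The quotient of the trio stabiliser (helper28). -/

namespace CfsgLib.Blk28

open Cfsg CfsgLib.Golay CfsgLib.M24 CfsgLib.Restr28 CfsgLib.Syn28 CfsgLib.Six28 CfsgLib.OrbG28 CfsgLib.Qrt28 CfsgLib.Trio28 MulAction
open scoped Pointwise

/-- abstract form of the quotient computation -/
theorem quot_struct {X P R : Type*} [Group X] [Group P] [Group R] (K N : Subgroup X) [N.Normal] (hNK : N ≤ K)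
    (r : X →* P) (hr : Function.Surjective r) (hrK : r.ker = K) (ψ : ↥K →* R) (hψ : Function.Surjective ψ)
    (hψK : ψ.ker = N.subgroupOf K) (hR : ∀ g : R, (∀ h, g * h = h * g) → g = 1)
    (hc : ∀ p : P, ∃ c : X, r c = p ∧ ∀ k ∈ K, c * k * c⁻¹ * k⁻¹ ∈ N) : Nonempty (X ⧸ N ≃* R × P) := by
  let rb : X ⧸ N →* P := QuotientGroup.lift N r (fun x hx => by
    have : x ∈ r.ker := by rw [hrK]; exact hNK hx
    exact this)
  have hrb : ∀ x : X, rb (x : X ⧸ N) = r x := fun x => rfl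
  let G1 : ↥K →* X ⧸ N := (QuotientGroup.mk' N).comp K.subtype
  have hG1 : G1.range = rb.ker := by
    ext q
    obtain ⟨x, rfl⟩ := QuotientGroup.mk_surjective q
    rw [MonoidHom.mem_ker, hrb]
    constructor
    · rintro ⟨k, hk⟩
      have h1 : ((k : X) : X ⧸ N) = (x : X ⧸ N) := hk
      rw [← hrb, ← h1, hrb]
      have : (k : X) ∈ r.ker := by rw [hrK]; exact k.2
      exact this
    · intro hx
      have : x ∈ r.ker := hx
      rw [hrK] at this
      exact ⟨⟨x, this⟩, rfl⟩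
  have hG1k : G1.ker = ψ.ker := by
    rw [hψK]
    ext k
    rw [MonoidHom.mem_ker, Subgroup.mem_subgroupOf]
    exact QuotientGroup.eq_one_iff (k : X)
  have e1 : ↥rb.ker ≃* R :=
    ((MulEquiv.subgroupCongr hG1.symm).trans (QuotientGroup.quotientKerEquivRange G1).symm).trans
      ((QuotientGroup.quotientMulEquivOfEq hG1k).trans (QuotientGroup.quotientKerEquivOfSurjective ψ hψ))
  obtain ⟨e2⟩ := split_quot rb (by
    intro p
    obtain ⟨c, hc1, hc2⟩ := hc p
    refine ⟨(c : X ⧸ N), ?_, hc1⟩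
    rw [Subgroup.mem_centralizer_iff]
    intro q hq
    have hq' : q ∈ rb.ker := hq
    rw [← hG1] at hq'
    obtain ⟨k, rfl⟩ := hq'
    show ((k : X) : X ⧸ N) * (c : X ⧸ N) = (c : X ⧸ N) * ((k : X) : X ⧸ N)
    have h1 : ((c * (k : X) * c⁻¹ * (k : X)⁻¹ : X) : X ⧸ N) = 1 := (QuotientGroup.eq_one_iff _).2 (hc2 k k.2)
    rw [QuotientGroup.mk_mul, QuotientGroup.mk_mul, QuotientGroup.mk_mul, QuotientGroup.mk_inv, QuotientGroup.mk_inv] at h1
    have h2 : (c : X ⧸ N) * ((k : X) : X ⧸ N) = ((c : X ⧸ N) * ((k : X) : X ⧸ N) * (c : X ⧸ N)⁻¹ * ((k : X) : X ⧸ N)⁻¹) * (((k : X) : X ⧸ N) * (c : X ⧸ N)) := by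
      group
    rw [h2, h1, one_mul]) (by
    rw [eq_bot_iff]
    intro q hq
    obtain ⟨h1, h2⟩ := Subgroup.mem_inf.1 hq
    rw [← hG1] at h1
    obtain ⟨k, rfl⟩ := h1
    rw [Subgroup.mem_centralizer_iff] at h2
    have h3 : ψ k = 1 := by
      apply hR
      intro s
      obtain ⟨k', rfl⟩ := hψ s
      have h4 : G1 k' ∈ rb.ker := by rw [← hG1]; exact ⟨k', rfl⟩
      have h5 := h2 _ h4
      have h6 : k' * k * k'⁻¹ * k⁻¹ ∈ G1.ker := by
        rw [MonoidHom.mem_ker, map_mul, map_mul, map_mul, map_inv, map_inv, h5]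
        group
      rw [hG1k, MonoidHom.mem_ker, map_mul, map_mul, map_mul, map_inv, map_inv] at h6
      have h7 : ψ k' * ψ k = (ψ k' * ψ k * (ψ k')⁻¹ * (ψ k)⁻¹) * (ψ k * ψ k') := by group
      rw [h7, h6, one_mul]
    have h4 : k ∈ G1.ker := by rw [hG1k]; exact h3
    exact h4)
  exact ⟨e2.trans (MulEquiv.prodCongr e1 (MulEquiv.refl P))⟩

theorem tr_main {T : Finset (Finset GolayPt)} (hT : T ∈ trios) :
    ∃ (N : Subgroup ↥(stabilizer ↥M24 T)) (_ : N.Normal), Nat.card N = 64 ∧ (∀ x ∈ N, x * x = 1) ∧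
      Nonempty (↥(stabilizer ↥M24 T) ⧸ N ≃* GL (Fin 3) (ZMod 2) × Equiv.Perm (Fin 3)) := by
  classical
  obtain ⟨a, ha⟩ := trio_nonempty hT
  obtain ⟨b, hb, hab⟩ := trio_two hT ha
  haveI hn : ((NN T a b).subgroupOf (stabilizer ↥M24 T)).Normal :=
    ⟨fun x hx g => Subgroup.mem_subgroupOf.2 (NN_conj hT ha hb hab g.2 x (Subgroup.mem_subgroupOf.1 hx))⟩
  have hNX : NN T a b ≤ stabilizer ↥M24 T := NN_le.trans (kr_le T)
  refine ⟨(NN T a b).subgroupOf (stabilizer ↥M24 T), hn, ?_, ?_, ?_⟩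
  · rw [Nat.card_congr (Subgroup.subgroupOfEquivOfLe hNX).toEquiv, NN_card hT ha hb hab]
  · intro x hx
    exact Subtype.ext (NN_sq hT ha hb hab _ (Subgroup.mem_subgroupOf.1 hx))
  haveI hva := VV_normal (T := T) ha
  obtain ⟨⟨ψ, hψ1, hψ2⟩, -⟩ := GL_main hT ha hb hab ha
  let K' : Subgroup ↥(stabilizer ↥M24 T) := (kr T).subgroupOf (stabilizer ↥M24 T)
  let eK : ↥K' ≃* ↥(kr T) := Subgroup.subgroupOfEquivOfLe (kr_le T)
  have heK : ∀ k : ↥K', ((eK k : ↥(kr T)) : ↥M24) = ((k : ↥(stabilizer ↥M24 T)) : ↥M24) := fun k => rfl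
  have hP : Fintype.card ↥T = 3 := by rw [Fintype.card_coe]; exact hT.1
  obtain ⟨e⟩ := quot_struct (R := GL (Fin 3) (ZMod 2)) K' ((NN T a b).subgroupOf (stabilizer ↥M24 T))
    (fun x hx => Subgroup.mem_subgroupOf.2 (NN_le (Subgroup.mem_subgroupOf.1 hx))) (rhoF T) (tr_surj hT) (ker_rhoF T)
    (ψ.comp eK.toMonoidHom) (hψ1.comp eK.surjective) (by
      ext k
      rw [MonoidHom.mem_ker, Subgroup.mem_subgroupOf, Subgroup.mem_subgroupOf]
      have h1 : eK k ∈ ψ.ker ↔ ((eK k : ↥(kr T)) : ↥M24) ∈ NN T a b := by rw [hψ2, Subgroup.mem_subgroupOf]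
      rw [MonoidHom.mem_ker] at h1
      exact h1) center_GL32 (by
    intro p
    -- the set of images of elements centralising modulo the core is a subgroup containing the swaps
    let A : Subgroup (Equiv.Perm ↥T) :=
      { carrier := {p | ∃ c : ↥(stabilizer ↥M24 T), rhoF T c = p ∧ ∀ k ∈ K', c * k * c⁻¹ * k⁻¹ ∈ (NN T a b).subgroupOf (stabilizer ↥M24 T)}
        one_mem' := ⟨1, map_one _, fun k _ => by
          have : (1 : ↥(stabilizer ↥M24 T)) * k * 1⁻¹ * k⁻¹ = 1 := by group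
          rw [this]; exact one_mem _⟩
        mul_mem' := by
          rintro _ _ ⟨c, rfl, hc⟩ ⟨d, rfl, hd⟩
          refine ⟨c * d, map_mul _ _ _, fun k hk => ?_⟩
          have h1 : d * k * d⁻¹ ∈ K' := Subgroup.mem_subgroupOf.2 (kr_norm d.2 (Subgroup.mem_subgroupOf.1 hk))
          have h2 : c * d * k * (c * d)⁻¹ * k⁻¹ = (c * (d * k * d⁻¹) * c⁻¹ * (d * k * d⁻¹)⁻¹) * (d * k * d⁻¹ * k⁻¹) := by group
          rw [h2]
          exact mul_mem (hc _ h1) (hd k hk)
        inv_mem' := by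
          rintro _ ⟨c, rfl, hc⟩
          refine ⟨c⁻¹, map_inv _ _, fun k hk => ?_⟩
          have h1 : c⁻¹ * k * c ∈ K' := by
            have := kr_norm (c⁻¹).2 (Subgroup.mem_subgroupOf.1 hk)
            have h3 : ((c⁻¹ : ↥(stabilizer ↥M24 T)) : ↥M24) * (k : ↥M24) * ((c⁻¹ : ↥(stabilizer ↥M24 T)) : ↥M24)⁻¹ =
              ((c⁻¹ * k * c : ↥(stabilizer ↥M24 T)) : ↥M24) := by
              rw [Subgroup.coe_mul, Subgroup.coe_mul, Subgroup.coe_inv, inv_inv]
            rw [h3] at this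
            exact Subgroup.mem_subgroupOf.2 this
          have h2 := inv_mem (hc _ h1)
          have h3 : c⁻¹ * k * c⁻¹⁻¹ * k⁻¹ = (c * (c⁻¹ * k * c) * c⁻¹ * (c⁻¹ * k * c)⁻¹)⁻¹ := by group
          rw [h3]; exact h2 }
    have hA : A = ⊤ := by
      rw [eq_top_iff, ← Equiv.Perm.closure_isSwap, Subgroup.closure_le]
      rintro σ ⟨t, u, htu, rfl⟩
      have htu' : (t : Finset GolayPt) ≠ u := fun h => htu (Subtype.ext h)
      obtain ⟨g, h1, h2, h3, h4⟩ := tr_swap hT t.2 u.2 htu'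
      -- the third octad
      obtain ⟨v, hv, hvt, hvu⟩ : ∃ v ∈ T, v ≠ (t : Finset GolayPt) ∧ v ≠ u := by
        by_contra hcon
        push Not at hcon
        have h5 : T ⊆ {(t : Finset GolayPt), (u : Finset GolayPt)} := by
          intro w hw
          rw [Finset.mem_insert, Finset.mem_singleton]
          by_cases hwt : w = t
          · exact Or.inl hwt
          · exact Or.inr (hcon w hw hwt)
        have h6 := Finset.card_le_card h5
        have h7 := Finset.card_le_two (a := (t : Finset GolayPt)) (b := u)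
        rw [hT.1] at h6
        omega
      have hgv := h4 v hv hvt hvu
      haveI hvn := VV_normal (T := T) hv
      obtain ⟨-, hs⟩ := GL_main hT ha hb hab hv
      -- conjugation by `g` on the group of `v`
      have hgc : ∀ x ∈ EE T v, g * x * g⁻¹ ∈ EE T v := fun x hx => by
        have := EE_conj h1 hx
        rwa [hgv] at this
      have hg1 : g⁻¹ • T = T := inv_smul_eq_iff.2 h1.symm
      have hgc' : ∀ x ∈ EE T v, g⁻¹ * x * g ∈ EE T v := fun x hx => by
        have := EE_conj hg1 hx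
        rwa [inv_smul_eq_iff.2 hgv.symm, inv_inv] at this
      let α : MulAut ↥(VV T v) :=
        { toFun := fun x => ⟨⟨g * ((x : ↥(kr T)) : ↥M24) * g⁻¹, EE_le T v (hgc _ (Subgroup.mem_subgroupOf.1 x.2))⟩,
            Subgroup.mem_subgroupOf.2 (hgc _ (Subgroup.mem_subgroupOf.1 x.2))⟩
          invFun := fun x => ⟨⟨g⁻¹ * ((x : ↥(kr T)) : ↥M24) * g, EE_le T v (hgc' _ (Subgroup.mem_subgroupOf.1 x.2))⟩,
            Subgroup.mem_subgroupOf.2 (hgc' _ (Subgroup.mem_subgroupOf.1 x.2))⟩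
          left_inv := fun x => by
            apply Subtype.ext; apply Subtype.ext
            show g⁻¹ * (g * ((x : ↥(kr T)) : ↥M24) * g⁻¹) * g = _
            group
          right_inv := fun x => by
            apply Subtype.ext; apply Subtype.ext
            show g * (g⁻¹ * ((x : ↥(kr T)) : ↥M24) * g) * g⁻¹ = _
            group
          map_mul' := fun x y => by
            apply Subtype.ext; apply Subtype.ext
            show g * (((x : ↥(kr T)) : ↥M24) * ((y : ↥(kr T)) : ↥M24)) * g⁻¹ =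
              (g * ((x : ↥(kr T)) : ↥M24) * g⁻¹) * (g * ((y : ↥(kr T)) : ↥M24) * g⁻¹)
            group }
      obtain ⟨k, hk⟩ := hs α
      have hka : ∀ x ∈ EE T v, (k : ↥M24) * x * (k : ↥M24)⁻¹ = g * x * g⁻¹ := by
        intro x hx
        have h5 := congrArg (fun e : MulAut ↥(VV T v) => (((e ⟨⟨x, EE_le T v hx⟩, Subgroup.mem_subgroupOf.2 hx⟩ : ↥(VV T v)) : ↥(kr T)) : ↥M24)) hk
        exact h5
      let c : ↥(stabilizer ↥M24 T) := ⟨(k : ↥M24)⁻¹ * g, mul_mem (inv_mem (kr_le T k.2)) h1⟩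
      have hcc : ∀ x ∈ EE T v, ((k : ↥M24)⁻¹ * g) * x = x * ((k : ↥M24)⁻¹ * g) := by
        intro x hx
        have h5 := hka x hx
        calc ((k : ↥M24)⁻¹ * g) * x = (k : ↥M24)⁻¹ * (g * x * g⁻¹) * g := by group
          _ = (k : ↥M24)⁻¹ * ((k : ↥M24) * x * (k : ↥M24)⁻¹) * g := by rw [h5]
          _ = x * ((k : ↥M24)⁻¹ * g) := by group
      refine ⟨c, ?_, ?_⟩
      · apply Equiv.ext
        intro w
        apply Subtype.ext
        rw [rhoF_apply]
        have hkw : ∀ z ∈ T, (k : ↥M24)⁻¹ • z = z := fun z hz => inv_smul_eq_iff.2 (k.2 z hz).symm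
        have hcw : ((c : ↥(stabilizer ↥M24 T)) : ↥M24) • (w : Finset GolayPt) = g • (w : Finset GolayPt) := by
          show ((k : ↥M24)⁻¹ * g) • (w : Finset GolayPt) = _
          rw [mul_smul]
          exact hkw _ ((smul_mem_iff' h1 _).2 w.2)
        rw [hcw]
        by_cases hwt : w = t
        · rw [hwt, Equiv.swap_apply_left]; exact h2
        · by_cases hwu : w = u
          · rw [hwu, Equiv.swap_apply_right]; exact h3
          · rw [Equiv.swap_apply_of_ne_of_ne hwt hwu]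
            exact h4 w w.2 (fun h => hwt (Subtype.ext h)) (fun h => hwu (Subtype.ext h))
      · intro k' hk'
        rw [Subgroup.mem_subgroupOf]
        have hk'' := Subgroup.mem_subgroupOf.1 hk'
        apply mem_NN_of_cent hT ha hb hab hv
        · exact (kr T).mul_mem (kr_norm c.2 hk'') ((kr T).inv_mem hk'')
        · intro x hx
          have hc1 : ∀ x ∈ EE T v, ((c : ↥(stabilizer ↥M24 T)) : ↥M24) * x = x * ((c : ↥(stabilizer ↥M24 T)) : ↥M24) := hcc
          have hc2 : ∀ x ∈ EE T v, ((c : ↥(stabilizer ↥M24 T)) : ↥M24)⁻¹ * x = x * ((c : ↥(stabilizer ↥M24 T)) : ↥M24)⁻¹ := by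
            intro x hx
            rw [inv_mul_eq_iff_eq_mul, ← mul_assoc, hc1 x hx, mul_inv_cancel_right]
          have n1 : (k' : ↥M24)⁻¹ * x * (k' : ↥M24) ∈ EE T v := by
            have := tr_nrm hv _ ((kr T).inv_mem hk'') x hx
            rwa [inv_inv] at this
          show ((c : ↥(stabilizer ↥M24 T)) : ↥M24) * (k' : ↥M24) * ((c : ↥(stabilizer ↥M24 T)) : ↥M24)⁻¹ * (k' : ↥M24)⁻¹ * x =
            x * (((c : ↥(stabilizer ↥M24 T)) : ↥M24) * (k' : ↥M24) * ((c : ↥(stabilizer ↥M24 T)) : ↥M24)⁻¹ * (k' : ↥M24)⁻¹)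
          have hx' := hx
          generalize ((c : ↥(stabilizer ↥M24 T)) : ↥M24) = C at *
          generalize (k' : ↥M24) = D at *
          calc C * D * C⁻¹ * D⁻¹ * x = C * D * C⁻¹ * (D⁻¹ * x * D) * D⁻¹ := by group
            _ = C * D * (C⁻¹ * (D⁻¹ * x * D)) * D⁻¹ := by group
            _ = C * D * ((D⁻¹ * x * D) * C⁻¹) * D⁻¹ := by rw [hc2 _ n1]
            _ = (C * x) * D * C⁻¹ * D⁻¹ := by group
            _ = (x * C) * D * C⁻¹ * D⁻¹ := by rw [hc1 x hx]
            _ = x * (C * D * C⁻¹ * D⁻¹) := by group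
    have : p ∈ A := by rw [hA]; trivial
    exact this)
  exact ⟨e.trans (MulEquiv.prodCongr (MulEquiv.refl _) (Equiv.permCongrHom (Fintype.equivFinOfCardEq hP)))⟩

end CfsgLib.Blk28
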