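import Mathlib
import Cfsg.Agent.EqBase
import Cfsg.Agent.LibSixB28
import Cfsg.Agent.LibOrbG28
import Cfsg.Agent.LibOrbOut28

set_option autoImplicit false

/-! Duads and triads (helper28). -/

namespace CfsgLib.Triad28

open Cfsg CfsgLib.Golay CfsgLib.M24 CfsgLib.Syn28 CfsgLib.OrbAbs28 CfsgLib.OrbM28 CfsgLib.OrbG28
  CfsgLib.Restr28 CfsgLib.Hexad28 CfsgLib.Six28 CfsgLib.SixB28 MulAction
open scoped Pointwise

theorem dec_of_class {G α β : Type*} [Group G] [Finite G] [MulAction G α] [MulAction G β] {a : α} {B : Set β}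
    {ι γ : Type*} {X : ι → β} {n : ι → ℕ} (c : β → γ) (v : ι → γ) (hcls : ∀ b ∈ B, ∃ i, c b = v i)
    (hX : ∀ i, X i ∈ B ∧ c (X i) = v i)
    (htrans : ∀ b ∈ B, ∀ b' ∈ B, c b = c b' → ∃ g ∈ stabilizer G a, g • b = b')
    (hinv : ∀ g ∈ stabilizer G a, ∀ b ∈ B, c (g • b) = c b) (hBinv : ∀ g : G, ∀ b ∈ B, g • b ∈ B)
    (hcount : ∀ i, {b | b ∈ B ∧ c b = v i}.ncard = n i) : Dec G a B X n where
  mem i := (hX i).1
  card i := by
    rw [← hcount i]
    congr 1
    ext b
    constructor
    · rintro ⟨g, rfl⟩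
      exact ⟨hBinv _ _ (hX i).1, (hinv g g.2 _ (hX i).1).trans (hX i).2⟩
    · rintro ⟨hb, hcb⟩
      obtain ⟨g, hg, hgb⟩ := htrans _ (hX i).1 b hb ((hX i).2.trans hcb.symm)
      exact ⟨⟨g, hg⟩, hgb⟩
  cover b hb := by
    obtain ⟨i, hi⟩ := hcls b hb
    obtain ⟨g, hg, hgb⟩ := htrans _ (hX i).1 b hb ((hX i).2.trans hi.symm)
    exact ⟨i, ⟨⟨g, hg⟩, hgb⟩⟩

/-- number of `k`-sets with `j` points in `S` -/
theorem count_inter (S : Finset GolayPt) (k j : ℕ) (hj : j ≤ k) :
    {U : Finset GolayPt | U.card = k ∧ (S ∩ U).card = j}.ncard =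
      Nat.choose S.card j * Nat.choose (24 - S.card) (k - j) := by
  classical
  have h1 : {U : Finset GolayPt | U.card = k ∧ (S ∩ U).card = j} =
      (((Finset.powersetCard j S ×ˢ Finset.powersetCard (k - j) Sᶜ).image fun x => x.1 ∪ x.2 :
        Finset (Finset GolayPt)) : Set (Finset GolayPt)) := by
    ext U
    rw [Finset.mem_coe, Finset.mem_image]
    constructor
    · rintro ⟨h1, h2⟩
      refine ⟨(S ∩ U, U \ S), ?_, ?_⟩
      · rw [Finset.mem_product, Finset.mem_powersetCard, Finset.mem_powersetCard]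
        refine ⟨⟨Finset.inter_subset_left, h2⟩, ?_, ?_⟩
        · intro x hx
          rw [Finset.mem_compl]; exact (Finset.mem_sdiff.1 hx).2
        · have := Finset.card_sdiff_add_card_inter U S
          rw [Finset.inter_comm U S] at this
          show (U \ S).card = k - j
          omega
      · ext x
        simp only [Finset.mem_union, Finset.mem_inter, Finset.mem_sdiff]
        tauto
    · rintro ⟨⟨A, C⟩, hAC, rfl⟩
      rw [Finset.mem_product, Finset.mem_powersetCard, Finset.mem_powersetCard] at hAC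
      obtain ⟨⟨h1, h2⟩, h3, h4⟩ := hAC
      have hd : Disjoint A C := by
        rw [Finset.disjoint_left]
        intro x hx hx'
        exact (Finset.mem_compl.1 (h3 hx')) (h1 hx)
      have e1 : S ∩ (A ∪ C) = A := by
        ext x
        rw [Finset.mem_inter, Finset.mem_union]
        constructor
        · rintro ⟨h5, h6 | h6⟩
          · exact h6
          · exact absurd h5 (Finset.mem_compl.1 (h3 h6))
        · intro h5; exact ⟨h1 h5, Or.inl h5⟩
      refine ⟨?_, ?_⟩
      · show (A ∪ C).card = k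
        rw [Finset.card_union_of_disjoint hd]
        simp only at h2 h4
        omega
      · show (S ∩ (A ∪ C)).card = j
        rw [e1]; exact h2
  rw [h1, Set.ncard_coe_finset, Finset.card_image_of_injOn, Finset.card_product, Finset.card_powersetCard,
    Finset.card_powersetCard, Finset.card_compl, card_pt]
  rintro ⟨A, C⟩ h ⟨A', C'⟩ h' heq
  rw [Finset.mem_coe, Finset.mem_product, Finset.mem_powersetCard, Finset.mem_powersetCard] at h h'
  have heq' : A ∪ C = A' ∪ C' := heq
  have key : ∀ A C : Finset GolayPt, A ⊆ S → C ⊆ Sᶜ → S ∩ (A ∪ C) = A ∧ (A ∪ C) \ S = C := by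
    intro A C hA hC
    constructor
    · ext x
      rw [Finset.mem_inter, Finset.mem_union]
      constructor
      · rintro ⟨h5, h6 | h6⟩
        · exact h6
        · exact absurd h5 (Finset.mem_compl.1 (hC h6))
      · intro h5; exact ⟨hA h5, Or.inl h5⟩
    · ext x
      rw [Finset.mem_sdiff, Finset.mem_union]
      constructor
      · rintro ⟨h5 | h5, h6⟩
        · exact absurd (hA h5) h6
        · exact h5
      · intro h5; exact ⟨Or.inr h5, Finset.mem_compl.1 (hC h5)⟩
  have k1 := key A C h.1.1 h.2.1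
  have k2 := key A' C' h'.1.1 h'.2.1
  rw [heq'] at k1
  rw [← k1.1, ← k1.2, k2.1, k2.2]

theorem card_sets_inv {k : ℕ} (g : ↥M24) (s : Finset GolayPt) (hs : s ∈ {s : Finset GolayPt | s.card = k}) :
    g • s ∈ {s : Finset GolayPt | s.card = k} := by
  show (g • s).card = k
  rw [Finset.card_smul_finset]; exact hs

theorem ncard_sets (k : ℕ) : {s : Finset GolayPt | s.card = k}.ncard = Nat.choose 24 k := by
  classical
  have : {s : Finset GolayPt | s.card = k} = ((Finset.powersetCard k Finset.univ : Finset (Finset GolayPt)) :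
      Set (Finset GolayPt)) := by
    ext s
    rw [Finset.mem_coe, Finset.mem_powersetCard]
    exact ⟨fun h => ⟨Finset.subset_univ _, h⟩, fun h => h.2⟩
  rw [this, Set.ncard_coe_finset, Finset.card_powersetCard, card_univ_pt]

theorem sets_eq_orbit {k : ℕ} (hk : k ≤ 5) {s : Finset GolayPt} (hs : s.card = k) :
    {s : Finset GolayPt | s.card = k} = orbit ↥M24 s := by
  ext t
  constructor
  · intro ht
    obtain ⟨g, hg, h⟩ := CfsgLib.OrbG28.finset_trans (s := s) (t := t) (hs.trans (Eq.symm ht)) (by omega)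
    exact ⟨⟨g, hg⟩, h⟩
  · rintro ⟨g, rfl⟩
    exact card_sets_inv g s hs

theorem pair5 {S U S' U' : Finset GolayPt} (hS : S.card = S'.card) (hU : U.card = U'.card)
    (hSU : (S ∩ U).card = (S' ∩ U').card) (h5 : (S ∪ U).card ≤ 5) : ∃ g : ↥M24, g • S = S' ∧ g • U = U' := by
  obtain ⟨g, hg, h⟩ := pair_trans5 hS hU hSU h5
  exact ⟨⟨g, hg⟩, h⟩

theorem pair6 {S U S' U' : Finset GolayPt} (hS : S.card = S'.card) (hU : U.card = U'.card)
    (hSU : (S ∩ U).card = (S' ∩ U').card) (h6 : (S ∪ U).card = 6) (hsp : Special (S ∪ U) ↔ Special (S' ∪ U')) :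
    ∃ g : ↥M24, g • S = S' ∧ g • U = U' := by
  obtain ⟨g, hg, h⟩ := pair_trans6 hS hU hSU h6 hsp
  exact ⟨⟨g, hg⟩, h⟩

theorem exists_of_ncard_pos {β : Type*} {S : Set β} (h : 0 < S.ncard) : ∃ x, x ∈ S := by
  by_contra hcon
  push Not at hcon
  have : S = ∅ := by
    ext x
    exact ⟨fun h => absurd h (hcon x), fun h => absurd h (Set.notMem_empty x)⟩
  rw [this, Set.ncard_empty] at h
  exact lt_irrefl _ h

/-- the orbits of the stabiliser of a duad on duads -/
theorem dec_duad {s : Finset GolayPt} (hs : s.card = 2) :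
    ∃ X : Fin 3 → Finset GolayPt, X 0 = s ∧ Dec ↥M24 s {s : Finset GolayPt | s.card = 2} X ![1, 44, 231] := by
  have hc : ∀ i : Fin 3, {b | b ∈ {s : Finset GolayPt | s.card = 2} ∧ (s ∩ b).card = ![2, 1, 0] i}.ncard = ![1, 44, 231] i := by
    intro i
    fin_cases i
    · have := count_inter s 2 2 le_rfl
      rw [hs] at this
      exact this
    · have := count_inter s 2 1 (by norm_num)
      rw [hs] at this
      exact this
    · have := count_inter s 2 0 (by norm_num)
      rw [hs] at this
      exact this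
  have hex : ∀ i : Fin 3, ∃ b, b ∈ {s : Finset GolayPt | s.card = 2} ∧ (s ∩ b).card = ![2, 1, 0] i := by
    intro i
    have := exists_of_ncard_pos (S := {b | b ∈ {s : Finset GolayPt | s.card = 2} ∧ (s ∩ b).card = ![2, 1, 0] i})
      (by rw [hc i]; revert i; decide)
    exact this
  choose X hX using hex
  have h0 : (s ∩ s).card = 2 := by rw [Finset.inter_self, hs]
  refine ⟨fun i => if i = 0 then s else X i, by simp, ?_⟩
  refine dec_of_class (fun b => (s ∩ b).card) (![2, 1, 0]) ?_ ?_ ?_ ?_ card_sets_inv hc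
  · intro b hb
    have h1 : (s ∩ b).card ≤ s.card := Finset.card_le_card Finset.inter_subset_left
    have h2 : (s ∩ b).card = 2 ∨ (s ∩ b).card = 1 ∨ (s ∩ b).card = 0 := by omega
    rcases h2 with h2 | h2 | h2
    · exact ⟨0, h2⟩
    · exact ⟨1, h2⟩
    · exact ⟨2, h2⟩
  · intro i
    by_cases hi : i = 0
    · subst hi; exact ⟨by simpa using hs, by simpa using h0⟩
    · simp only [if_neg hi]; exact hX i
  · intro b hb b' hb' hbb
    obtain ⟨g, h1, h2⟩ := pair5 (S := s) (U := b) (S' := s) (U' := b') rfl (Eq.trans hb (Eq.symm hb')) hbb (by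
      have := Finset.card_union_le s b
      have hb2 : b.card = 2 := hb
      omega)
    exact ⟨g, h1, h2⟩
  · intro g hg b _
    exact card_inter_smul hg b

/-- number of octads through three points -/
theorem lam_three {T : Finset GolayPt} (hT : T.card = 3) : CfsgLib.Steiner.lam octads T = 21 := by
  have h1 := CfsgLib.Steiner.lam_mul octads_steiner T (by omega)
  rw [hT, card_pt] at h1
  have e1 : Nat.choose (8 - 3) (5 - 3) = 10 := by decide
  have e2 : Nat.choose (24 - 3) (5 - 3) = 210 := by decide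
  rw [e1, e2] at h1
  omega

theorem count_special {T : Finset GolayPt} (hT : T.card = 3) :
    {U : Finset GolayPt | U.card = 3 ∧ Disjoint T U ∧ Special (T ∪ U)}.ncard = 210 := by
  classical
  let Oc := (CfsgLib.Steiner.blocks octads).filter fun b => T ⊆ b
  have hOc : Oc.card = 21 := lam_three hT
  have hmem : ∀ o, o ∈ Oc ↔ o ∈ octads ∧ T ⊆ o := by
    intro o
    rw [Finset.mem_filter, CfsgLib.Steiner.mem_blocks]
  have h1 : {U : Finset GolayPt | U.card = 3 ∧ Disjoint T U ∧ Special (T ∪ U)} =
      ((Oc.biUnion fun o => Finset.powersetCard 3 (o \ T) : Finset (Finset GolayPt)) : Set (Finset GolayPt)) := by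
    ext U
    rw [Finset.mem_coe, Finset.mem_biUnion]
    constructor
    · rintro ⟨h1, h2, o, ho, h3⟩
      refine ⟨o, (hmem o).2 ⟨ho, Finset.subset_union_left.trans h3⟩, ?_⟩
      rw [Finset.mem_powersetCard]
      refine ⟨?_, h1⟩
      intro x hx
      rw [Finset.mem_sdiff]
      exact ⟨h3 (Finset.mem_union_right _ hx), fun h => Finset.disjoint_left.1 h2 h hx⟩
    · rintro ⟨o, ho, hU⟩
      rw [hmem] at ho
      rw [Finset.mem_powersetCard] at hU
      refine ⟨hU.2, ?_, o, ho.1, ?_⟩
      · rw [Finset.disjoint_left]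
        intro x hx hx'
        exact (Finset.mem_sdiff.1 (hU.1 hx')).2 hx
      · exact Finset.union_subset ho.2 (hU.1.trans Finset.sdiff_subset)
  rw [h1, Set.ncard_coe_finset, Finset.card_biUnion]
  · rw [Finset.sum_congr rfl (fun o ho => by
      rw [Finset.card_powersetCard, Finset.card_sdiff_of_subset ((hmem o).1 ho).2,
        show o.card = 8 from ((hmem o).1 ho).1.2, hT]), Finset.sum_const, hOc]
    rfl
  · intro o ho o' ho' hne
    rw [Function.onFun, Finset.disjoint_left]
    intro U hU hU'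
    rw [Finset.mem_powersetCard] at hU hU'
    apply hne
    have ho1 := (hmem o).1 ho
    have ho2 := (hmem o').1 ho'
    apply octad_eq ho1.1 ho2.1
    have h3 : T ∪ U ⊆ o ∩ o' := by
      apply Finset.subset_inter
      · exact Finset.union_subset ho1.2 (hU.1.trans Finset.sdiff_subset)
      · exact Finset.union_subset ho2.2 (hU'.1.trans Finset.sdiff_subset)
    have h4 := Finset.card_le_card h3
    have h5 : Disjoint T U := by
      rw [Finset.disjoint_left]
      intro x hx hx'
      exact (Finset.mem_sdiff.1 (hU.1 hx')).2 hx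
    rw [Finset.card_union_of_disjoint h5, hT, hU.2] at h4
    omega

theorem count_umbral {T : Finset GolayPt} (hT : T.card = 3) :
    {U : Finset GolayPt | U.card = 3 ∧ Disjoint T U ∧ ¬ Special (T ∪ U)}.ncard = 1120 := by
  have h1 := count_inter T 3 0 (by norm_num)
  rw [hT] at h1
  have h2 : Nat.choose 3 0 * Nat.choose (24 - 3) (3 - 0) = 1330 := by decide
  rw [h2] at h1
  have h3 : {U : Finset GolayPt | U.card = 3 ∧ (T ∩ U).card = 0} =
      {U : Finset GolayPt | U.card = 3 ∧ Disjoint T U ∧ Special (T ∪ U)} ∪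
      {U : Finset GolayPt | U.card = 3 ∧ Disjoint T U ∧ ¬ Special (T ∪ U)} := by
    ext U
    simp only [Set.mem_ofPred_eq, Set.mem_union]
    rw [Finset.card_eq_zero, ← Finset.disjoint_iff_inter_eq_empty]
    tauto
  rw [h3, Set.ncard_union_eq, count_special hT] at h1
  · omega
  · rw [Set.disjoint_left]
    rintro U ⟨_, _, h⟩ ⟨_, _, h'⟩
    exact h' h

theorem special_of_le {F : Finset GolayPt} (h : F.card ≤ 5) : Special F := by
  obtain ⟨F', hF', _, hc⟩ := Finset.exists_subsuperset_card_eq (Finset.subset_univ F) h (by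
    rw [card_univ_pt]; norm_num)
  obtain ⟨o, ho, h⟩ := exists_octad hc
  exact ⟨o, ho, hF'.trans h⟩

theorem triad_conj {T U U' : Finset GolayPt} (hT : T.card = 3) (hU : U.card = 3) (hU' : U'.card = 3)
    (h : (T ∩ U).card = (T ∩ U').card) (hs : Special (T ∪ U) ↔ Special (T ∪ U')) :
    ∃ g : ↥M24, g • T = T ∧ g • U = U' := by
  have h1 := Finset.card_union_add_card_inter T U
  by_cases h0 : (T ∩ U).card = 0
  · exact pair6 rfl (hU.trans hU'.symm) h (by omega) hs
  · exact pair5 rfl (hU.trans hU'.symm) h (by omega)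

/-- class values for triads -/
def tv (i : Fin 5) : ℕ × Prop := ![(3, True), (2, True), (1, True), (0, True), (0, False)] i

/-- the orbits of the stabiliser of a triad on triads -/
theorem dec_triad {T : Finset GolayPt} (hT : T.card = 3) :
    ∃ X : Fin 5 → Finset GolayPt, X 0 = T ∧
      Dec ↥M24 T {s : Finset GolayPt | s.card = 3} X ![1, 63, 630, 210, 1120] := by
  have hun : ∀ U : Finset GolayPt, (T ∪ U).card + (T ∩ U).card = T.card + U.card :=
    fun U => Finset.card_union_add_card_inter T U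
  have hcl : ∀ (U : Finset GolayPt) (j : ℕ) (P : Prop), U.card = 3 → ((T ∩ U).card = j) → (Special (T ∪ U) ↔ P) →
      ((T ∩ U).card, Special (T ∪ U)) = (j, P) := by
    intro U j P _ h1 h2
    rw [h1, propext h2]
  have hc : ∀ i : Fin 5, {b | b ∈ {s : Finset GolayPt | s.card = 3} ∧ ((T ∩ b).card, Special (T ∪ b)) = tv i}.ncard =
      ![1, 63, 630, 210, 1120] i := by
    intro i
    have hgen : ∀ j, 0 < j → j ≤ 3 → {b | b ∈ {s : Finset GolayPt | s.card = 3} ∧
        ((T ∩ b).card, Special (T ∪ b)) = (j, True)}.ncard = Nat.choose 3 j * Nat.choose 21 (3 - j) := by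
      intro j hj hj3
      have := count_inter T 3 j hj3
      rw [hT] at this
      rw [← this]
      congr 1
      ext U
      constructor
      · rintro ⟨h1, h2⟩
        exact ⟨h1, (Prod.mk.inj h2).1⟩
      · rintro ⟨h1, h2⟩
        refine ⟨h1, hcl U j True h1 h2 (iff_true_intro (special_of_le ?_))⟩
        have := hun U
        omega
    fin_cases i
    · exact hgen 3 (by norm_num) (by norm_num)
    · exact hgen 2 (by norm_num) (by norm_num)
    · exact hgen 1 (by norm_num) (by norm_num)
    · rw [show (![1, 63, 630, 210, 1120] : Fin 5 → ℕ) ⟨3, by norm_num⟩ = 210 from rfl, ← count_special hT]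
      congr 1
      ext U
      constructor
      · rintro ⟨h1, h2⟩
        have h3 : ((T ∩ U).card, Special (T ∪ U)) = (0, True) := h2
        have h4 := Prod.mk.inj h3
        exact ⟨h1, Finset.disjoint_iff_inter_eq_empty.2 (Finset.card_eq_zero.1 h4.1), of_eq_true h4.2⟩
      · rintro ⟨h1, h2, h3⟩
        exact ⟨h1, hcl U 0 True h1 (Finset.card_eq_zero.2 (Finset.disjoint_iff_inter_eq_empty.1 h2))
          (iff_true_intro h3)⟩
    · rw [show (![1, 63, 630, 210, 1120] : Fin 5 → ℕ) ⟨4, by norm_num⟩ = 1120 from rfl, ← count_umbral hT]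
      congr 1
      ext U
      constructor
      · rintro ⟨h1, h2⟩
        have h3 : ((T ∩ U).card, Special (T ∪ U)) = (0, False) := h2
        have h4 := Prod.mk.inj h3
        exact ⟨h1, Finset.disjoint_iff_inter_eq_empty.2 (Finset.card_eq_zero.1 h4.1), of_eq_false h4.2⟩
      · rintro ⟨h1, h2, h3⟩
        exact ⟨h1, hcl U 0 False h1 (Finset.card_eq_zero.2 (Finset.disjoint_iff_inter_eq_empty.1 h2))
          (iff_false_intro h3)⟩
  have hex : ∀ i : Fin 5, ∃ b, b ∈ {s : Finset GolayPt | s.card = 3} ∧ ((T ∩ b).card, Special (T ∪ b)) = tv i := by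
    intro i
    have := exists_of_ncard_pos (S := {b | b ∈ {s : Finset GolayPt | s.card = 3} ∧
      ((T ∩ b).card, Special (T ∪ b)) = tv i}) (by rw [hc i]; revert i; decide)
    exact this
  choose X hX using hex
  have h0 : ((T ∩ T).card, Special (T ∪ T)) = tv 0 := by
    apply hcl T 3 True hT
    · rw [Finset.inter_self, hT]
    · rw [Finset.union_self]; exact iff_true_intro (special_of_le (by omega))
  refine ⟨fun i => if i = 0 then T else X i, by simp, ?_⟩
  refine dec_of_class (fun b => ((T ∩ b).card, Special (T ∪ b))) tv ?_ ?_ ?_ ?_ card_sets_inv hc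
  · intro b hb
    have hb3 : b.card = 3 := hb
    have h1 : (T ∩ b).card ≤ T.card := Finset.card_le_card Finset.inter_subset_left
    have h1' := hun b
    have h2 : (T ∩ b).card = 3 ∨ (T ∩ b).card = 2 ∨ (T ∩ b).card = 1 ∨ (T ∩ b).card = 0 := by omega
    rcases h2 with h2 | h2 | h2 | h2
    · exact ⟨0, hcl b 3 True hb h2 (iff_true_intro (special_of_le (by omega)))⟩
    · exact ⟨1, hcl b 2 True hb h2 (iff_true_intro (special_of_le (by omega)))⟩
    · exact ⟨2, hcl b 1 True hb h2 (iff_true_intro (special_of_le (by omega)))⟩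
    · by_cases hs : Special (T ∪ b)
      · exact ⟨3, hcl b 0 True hb h2 (iff_true_intro hs)⟩
      · exact ⟨4, hcl b 0 False hb h2 (iff_false_intro hs)⟩
  · intro i
    by_cases hi : i = 0
    · subst hi; exact ⟨by simpa using hT, by simpa using h0⟩
    · simp only [if_neg hi]; exact hX i
  · intro b hb b' hb' hbb
    have h1 := Prod.mk.inj hbb
    obtain ⟨g, h2, h3⟩ := triad_conj hT hb hb' h1.1 (iff_of_eq h1.2)
    exact ⟨g, h2, h3⟩
  · intro g hg b _
    have h1 : g • T = T := hg
    show ((T ∩ g • b).card, Special (T ∪ g • b)) = ((T ∩ b).card, Special (T ∪ b))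
    rw [card_inter_smul hg b]
    congr 1
    apply propext
    have h2 : T ∪ g • b = g • (T ∪ b) := by rw [Finset.smul_finset_union, h1]
    rw [h2]
    exact special_smul_iff g.2

end CfsgLib.Triad28
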