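import Mathlib
import Cfsg.Agent.EqBase
import Cfsg.Agent.LibOrbF28

set_option autoImplicit false

/-! Trios containing an octad (helper28). -/

namespace CfsgLib.TrioTwo28

open Cfsg CfsgLib.Golay CfsgLib.M24 CfsgLib.Syn28 CfsgLib.OrbAbs28 CfsgLib.OrbM28 CfsgLib.OrbG28
  CfsgLib.OrbD28 CfsgLib.Trio28 CfsgLib.TrioKey28 CfsgLib.OrbF28 MulAction
open scoped Pointwise

/-- check that two trios are disjoint -/
def trioDisj (a b c d : ℕ) : Bool :=
  [a, b, Nat.xor 16777215 (Nat.lor a b)].all fun x => [c, d, Nat.xor 16777215 (Nat.lor c d)].all fun y =>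
    and (not (Nat.beq x y)) (and (Nat.blt x (2 ^ 24)) (Nat.blt y (2 ^ 24)))

theorem trioDisj_spec {a b c d : ℕ} (h : trioDisj a b c d = true) :
    trioOf (fset a) (fset b) ∩ trioOf (fset c) (fset d) = ∅ := by
  rw [trioDisj, List.all_eq_true] at h
  have h' : ∀ x ∈ [a, b, Nat.xor 16777215 (Nat.lor a b)], ∀ y ∈ [c, d, Nat.xor 16777215 (Nat.lor c d)],
      fset x ≠ fset y := by
    intro x hx y hy hxy
    have h1 := h x hx
    rw [List.all_eq_true] at h1
    have h2 := h1 y hy
    rw [Bool.and_eq_true, Bool.and_eq_true, Nat.blt_eq, Nat.blt_eq] at h2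
    have h3 := fset_injective h2.2.1 h2.2.2 hxy
    rw [h3, Nat.beq_refl] at h2
    exact absurd h2.1 (by decide)
  ext q
  rw [Finset.mem_inter, mem_trioOf, mem_trioOf, fset_compl_or, fset_compl_or]
  constructor
  · rintro ⟨h1, h2⟩
    exfalso
    have e1 : ∃ x ∈ [a, b, Nat.xor 16777215 (Nat.lor a b)], q = fset x := by
      rcases h1 with h1 | h1 | h1
      · exact ⟨a, by simp, h1⟩
      · exact ⟨b, by simp, h1⟩
      · exact ⟨_, by simp, h1⟩
    have e2 : ∃ x ∈ [c, d, Nat.xor 16777215 (Nat.lor c d)], q = fset x := by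
      rcases h2 with h1 | h1 | h1
      · exact ⟨c, by simp, h1⟩
      · exact ⟨d, by simp, h1⟩
      · exact ⟨_, by simp, h1⟩
    obtain ⟨x, hx, hqx⟩ := e1
    obtain ⟨y, hy, hqy⟩ := e2
    exact h' x hx y hy (hqx.symm.trans hqy)
  · intro h; simp at h

theorem card_inter_smul' {k : ↥M24} {A B : Finset (Finset GolayPt)} (hk : k • A = A) :
    (A ∩ k • B).card = (A ∩ B).card := by
  conv_lhs => rw [← hk]
  rw [← Finset.smul_finset_inter, Finset.card_smul_finset]

theorem setA (o a b c : Finset GolayPt) : (o ∪ (a ∪ b))ᶜ ∩ (o ∪ (a ∪ c))ᶜ = (o ∪ a ∪ b ∪ c)ᶜ := by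
  ext p
  simp only [Finset.mem_inter, Finset.mem_compl, Finset.mem_union]
  tauto

theorem setB {o a b c : Finset GolayPt} (ad : Disjoint o a) (bd : Disjoint o b) (cd : Disjoint o c)
    (dab : Disjoint a b) (dac : Disjoint a c) (dbc : Disjoint b c) :
    a ∪ (o ∪ a ∪ b ∪ c)ᶜ = symmDiff (symmDiff Finset.univ o) (symmDiff b c) := by
  ext p
  have i1 := fun h : p ∈ o => Finset.disjoint_left.1 ad h
  have i2 := fun h : p ∈ o => Finset.disjoint_left.1 bd h
  have i3 := fun h : p ∈ o => Finset.disjoint_left.1 cd h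
  have i4 := fun h : p ∈ a => Finset.disjoint_left.1 dab h
  have i5 := fun h : p ∈ a => Finset.disjoint_left.1 dac h
  have i6 := fun h : p ∈ b => Finset.disjoint_left.1 dbc h
  clear ad bd cd dab dac dbc
  simp only [Finset.mem_union, Finset.mem_compl, Finset.mem_symmDiff, Finset.mem_univ]
  by_cases h1 : p ∈ o <;> by_cases h2 : p ∈ a <;> by_cases h3 : p ∈ b <;> by_cases h4 : p ∈ c <;>
    simp_all

/-- the trio stabiliser is transitive on the trios sharing exactly one octad -/
theorem trio_conj_one {T T' T'' : Finset (Finset GolayPt)} (hT : T ∈ trios) (hT' : T' ∈ trios) (hT'' : T'' ∈ trios)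
    (h' : (T ∩ T').card = 1) (h'' : (T ∩ T'').card = 1) : ∃ g : ↥M24, g • T = T ∧ g • T' = T'' := by
  rw [trios_eq_orbit T0_mem] at hT
  obtain ⟨g, rfl⟩ := hT
  have hd := dec_tt.smul trios_inv g
  have hne : ∀ i : Fin 5, i = 1 ∨ (T0 ∩ tobj (gt 24 16777215 E_tt (S_tt i))).card ≠ 1 := by
    intro i
    fin_cases i
    · right
      intro h
      have e0 : tobj (gt 24 16777215 E_tt (S_tt 0)) = T0 := by
        have e1 : tobj 10252323 ∈ trios := (tgood_spec (k := 10252323) (by decide +kernel)).2.2.2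
        show tobj 10252323 = trioOf (fset 2702848) (fset 5538256)
        symm
        apply eq_trioOf T0_mem
        · exact inTrio_spec (a := 2702848) (b := 5538256) (by decide +kernel)
        · exact inTrio_spec (a := 2702848) (b := 5538256) (by decide +kernel)
        · intro h
          have := cw_inj (by decide) (by decide) h
          revert this; decide
      have h2 : (T0 ∩ tobj (gt 24 16777215 E_tt (S_tt 0))).card = 3 := by
        rw [e0, Finset.inter_self]; exact T0_mem.1
      have h3 : (T0 ∩ tobj (gt 24 16777215 E_tt (S_tt 0))).card = 1 := h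
      omega
    · left; rfl
    · right
      have e0 : T0 ∩ tobj (gt 24 16777215 E_tt (S_tt 2)) = ∅ :=
        trioDisj_spec (a := 2702848) (b := 5538256) (c := cw (Nat.mod 9028169 4096)) (d := cw (Nat.div 9028169 4096))
          (by decide +kernel)
      intro h
      have h3 : (T0 ∩ tobj (gt 24 16777215 E_tt (S_tt 2))).card = 1 := h
      rw [e0] at h3
      simp at h3
    · right
      have e0 : T0 ∩ tobj (gt 24 16777215 E_tt (S_tt 3)) = ∅ :=
        trioDisj_spec (a := 2702848) (b := 5538256) (c := cw (Nat.mod 8491142 4096)) (d := cw (Nat.div 8491142 4096))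
          (by decide +kernel)
      intro h
      have h3 : (T0 ∩ tobj (gt 24 16777215 E_tt (S_tt 3))).card = 1 := h
      rw [e0] at h3
      simp at h3
    · right
      have e0 : T0 ∩ tobj (gt 24 16777215 E_tt (S_tt 4)) = ∅ :=
        trioDisj_spec (a := 2702848) (b := 5538256) (c := cw (Nat.mod 8491084 4096)) (d := cw (Nat.div 8491084 4096))
          (by decide +kernel)
      intro h
      have h3 : (T0 ∩ tobj (gt 24 16777215 E_tt (S_tt 4))).card = 1 := h
      rw [e0] at h3
      simp at h3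
  have key : ∀ U ∈ trios, (g • T0 ∩ U).card = 1 →
      U ∈ orbit ↥(stabilizer ↥M24 (g • T0)) (g • tobj (gt 24 16777215 E_tt (S_tt 1))) := by
    intro U hU hc
    obtain ⟨i, hi⟩ := hd.cover U hU
    obtain ⟨k, hk⟩ := hi
    have hk' : (k : ↥M24) • g • tobj (gt 24 16777215 E_tt (S_tt i)) = U := hk
    have hks : (k : ↥M24) • g • T0 = g • T0 := k.2
    have e1 : (g • T0 ∩ U).card = (T0 ∩ tobj (gt 24 16777215 E_tt (S_tt i))).card := by
      rw [← hk', card_inter_smul' hks, ← Finset.smul_finset_inter, Finset.card_smul_finset]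
    rcases hne i with rfl | h
    · exact ⟨k, hk⟩
    · exact absurd (e1 ▸ hc) h
  obtain ⟨k, hk⟩ := key T' hT' h'
  obtain ⟨l, hl⟩ := key T'' hT'' h''
  have hk' : (k : ↥M24) • g • tobj (gt 24 16777215 E_tt (S_tt 1)) = T' := hk
  have hl' : (l : ↥M24) • g • tobj (gt 24 16777215 E_tt (S_tt 1)) = T'' := hl
  refine ⟨(l : ↥M24) * (k : ↥M24)⁻¹, ?_, ?_⟩
  · exact mul_mem l.2 (inv_mem k.2)
  · rw [mul_smul, ← hk', inv_smul_smul, hl']

theorem trio_inter_one {T T' : Finset (Finset GolayPt)} (hT : T ∈ trios) (hT' : T' ∈ trios) {o : Finset GolayPt}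
    (ho : o ∈ T) (ho' : o ∈ T') (hne : T ≠ T') : T ∩ T' = {o} := by
  ext q
  rw [Finset.mem_inter, Finset.mem_singleton]
  constructor
  · rintro ⟨h1, h2⟩
    by_contra hq
    apply hne
    rw [eq_trioOf hT ho h1 (Ne.symm hq), eq_trioOf hT' ho' h2 (Ne.symm hq)]
  · rintro rfl
    exact ⟨ho, ho'⟩

/-- 2-transitivity on the trios through an octad -/
theorem trios_two_trans {o : Finset GolayPt} (ho : o ∈ octads) {T₁ T₂ T₁' T₂' : Finset (Finset GolayPt)}
    (h1 : T₁ ∈ trios) (h2 : T₂ ∈ trios) (h1' : T₁' ∈ trios) (h2' : T₂' ∈ trios) (o1 : o ∈ T₁) (o2 : o ∈ T₂)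
    (o1' : o ∈ T₁') (o2' : o ∈ T₂') (hne : T₁ ≠ T₂) (hne' : T₁' ≠ T₂') :
    ∃ g : ↥M24, g • o = o ∧ g • T₁ = T₁' ∧ g • T₂ = T₂' := by
  obtain ⟨a, ha, hao⟩ := trio_two h1 o1
  obtain ⟨b, hb, hbo⟩ := trio_two h1' o1'
  obtain ⟨g, hg, hga⟩ := disjoint_pair_trans ho (h1.2.1 a ha) (h1.2.2 o o1 a ha hao) ho (h1'.2.1 b hb)
    (h1'.2.2 o o1' b hb hbo)
  have hgT : g • T₁ = T₁' := by
    rw [eq_trioOf h1 o1 ha hao, smul_trioOf, hg, hga, ← eq_trioOf h1' o1' hb hbo]
  have e1 : o ∈ g • T₂ := by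
    rw [Finset.mem_smul_finset]
    exact ⟨o, o2, hg⟩
  have e2 : T₁' ≠ g • T₂ := by
    rw [← hgT]
    intro h
    exact hne (MulAction.injective g h)
  have e3 := trio_inter_one h1' (trios_inv g _ h2) o1' e1 e2
  have e4 := trio_inter_one h1' h2' o1' o2' hne'
  obtain ⟨k, hk, hk'⟩ := trio_conj_one h1' (trios_inv g _ h2) h2' (by rw [e3]; rfl) (by rw [e4]; rfl)
  have e5 : k • o = o := by
    have : k • ({o} : Finset (Finset GolayPt)) = {o} := by
      conv_lhs => rw [← e3]
      rw [Finset.smul_finset_inter, hk, hk', e4]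
    rw [Finset.smul_finset_singleton] at this
    exact Finset.singleton_injective this
  exact ⟨k * g, by rw [mul_smul, hg, e5], by rw [mul_smul, hgT, hk], by rw [mul_smul, hk']⟩

/-! ### the pointwise stabiliser of an octad and the trios -/

theorem pt_mem_o0 : ∀ i ∈ [23, 0, 1, 2, 3, 5], pt i ∈ fset 8536111 := by decide +kernel

theorem trans6_trio : treeAll (fun m => or (not (and (Nat.beq (pop m) 8) (Nat.beq (Nat.land m 8536111) 0)))
    ((trans.getD 6 []).all fun P => or (Nat.beq (pmask P m) m)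
      (Nat.beq (pmask P m) (Nat.xor 16777215 (Nat.lor 8536111 m))))) basis 0 = true := by decide +kernel

theorem ptw_base {g : Equiv.Perm GolayPt} (hg : g ∈ M24) (h : ∀ p ∈ fset 8536111, g p = p) {a : Finset GolayPt}
    (ha : a ∈ octads) (hd : Disjoint (fset 8536111) a) : g • a = a ∨ g • a = (fset 8536111 ∪ a)ᶜ := by
  have hg6 : g ∈ fixL [23, 0, 1, 2, 3, 5] := ⟨hg, fun i hi => h _ (pt_mem_o0 i hi)⟩
  obtain ⟨P, hP, rfl⟩ := fixL6_eq hg6
  obtain ⟨k, hk, rfl, hk8⟩ := mem_octads.1 ha
  have h1 := forall_cw _ trans6_trio k hk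
  rw [Bool.or_eq_true] at h1
  have h2 : Nat.land (cw k) 8536111 = 0 := by
    have h3 : fset (cw k &&& 8536111) = fset 0 := by
      rw [fset_and, Finset.inter_comm, Finset.disjoint_iff_inter_eq_empty.1 hd]
      ext p; simp
    exact fset_injective (lt_of_le_of_lt Nat.and_le_left (cw_lt k)) (by norm_num) h3
  rcases h1 with h1 | h1
  · rw [hk8, h2] at h1
    exact absurd h1 (by decide)
  · rw [List.all_eq_true] at h1
    have h3 := h1 P hP
    rw [Bool.or_eq_true, beq_iff, beq_iff] at h3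
    rw [smul_fset (valid_of_isM24 (isM24_of_mem_trans6 P hP).1)]
    rcases h3 with h3 | h3
    · left; rw [h3]
    · right; rw [h3, fset_compl_or]; rfl

theorem ptw_oct {g : ↥M24} {o : Finset GolayPt} (ho : o ∈ octads) (h : ∀ p ∈ o, (g : Equiv.Perm GolayPt) p = p)
    {a : Finset GolayPt} (ha : a ∈ octads) (hd : Disjoint o a) : g • a = a ∨ g • a = (o ∪ a)ᶜ := by
  rw [octads_eq_orbit o0_mem] at ho
  obtain ⟨k, rfl⟩ := ho
  have hb := ptw_base (g := ((k⁻¹ * g * k : ↥M24) : Equiv.Perm GolayPt)) (k⁻¹ * g * k : ↥M24).2 (fun p hp => by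
      have h1 := h ((k : Equiv.Perm GolayPt) p) (by
        show (k : Equiv.Perm GolayPt) • p ∈ k • fset 8536111
        exact Finset.smul_mem_smul_finset hp)
      show ((k : Equiv.Perm GolayPt)⁻¹ * (g : Equiv.Perm GolayPt) * (k : Equiv.Perm GolayPt)) p = p
      rw [Equiv.Perm.mul_apply, Equiv.Perm.mul_apply, h1]
      simp) (a := k⁻¹ • a) (octads_inv k⁻¹ a ha) (by
      rw [Finset.disjoint_iff_inter_eq_empty] at hd ⊢
      have : k⁻¹ • (k • fset 8536111 ∩ a) = k⁻¹ • (∅ : Finset GolayPt) := by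
        show k⁻¹ • ((fun m : ↥M24 => m • fset 8536111) k ∩ a) = _
        rw [hd]
      rw [Finset.smul_finset_inter, inv_smul_smul, Finset.smul_finset_empty] at this
      exact this)
  have e1 : ((k⁻¹ * g * k : ↥M24) : Equiv.Perm GolayPt) • (k⁻¹ • a) = k⁻¹ • g • a := by
    show (k⁻¹ * g * k : ↥M24) • (k⁻¹ • a) = _
    rw [mul_smul, smul_inv_smul, mul_smul]
  rw [e1] at hb
  rcases hb with hb | hb
  · left
    exact MulAction.injective k⁻¹ hb
  · right
    apply MulAction.injective k⁻¹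
    show k⁻¹ • (g • a) = k⁻¹ • ((fun m : ↥M24 => m • fset 8536111) k ∪ a)ᶜ
    rw [hb, smul_compl', Finset.smul_finset_union]
    show _ = (k⁻¹ • k • fset 8536111 ∪ k⁻¹ • a)ᶜ
    rw [inv_smul_smul]

theorem ptw_trio {g : ↥M24} {o : Finset GolayPt} (ho : o ∈ octads) (h : ∀ p ∈ o, (g : Equiv.Perm GolayPt) p = p)
    {T : Finset (Finset GolayPt)} (hT : T ∈ trios) (hoT : o ∈ T) : g • T = T := by
  obtain ⟨a, ha, hao⟩ := trio_two hT hoT
  have hd := hT.2.2 o hoT a ha hao
  have hgo : g • o = o := by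
    ext p
    rw [Finset.mem_smul_finset]
    constructor
    · rintro ⟨q, hq, rfl⟩
      show (g : Equiv.Perm GolayPt) q ∈ o
      rw [h q hq]; exact hq
    · intro hp
      exact ⟨p, hp, h p hp⟩
  rw [eq_trioOf hT hoT ha hao, smul_trioOf, hgo]
  rcases ptw_oct ho h (hT.2.1 a ha) hd with h1 | h1
  · rw [h1]
  · rw [h1]
    symm
    apply eq_trioOf (trioOf_mem ho (hT.2.1 a ha) hd)
    · exact Finset.mem_insert_self _ _
    · rw [mem_trioOf]; exact Or.inr (Or.inr rfl)
    · exact ne_of_disjoint ho (disj_third).1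

/-- if all the trios through `o` are fixed then so are the sextets refining `o` -/
theorem four_of_trios {g : ↥M24} {o : Finset GolayPt} (ho : o ∈ octads) (hgo : g • o = o)
    (h : ∀ T ∈ trios, o ∈ T → g • T = T) {t : Finset GolayPt} (ht : t ⊆ o) (h4 : t.card = 4) :
    g • t = t ∨ g • t = o \ t := by
  classical
  have h8 : o.card = 8 := ho.2
  have hu4 : (o \ t).card = 4 := by rw [Finset.card_sdiff_of_subset ht, h8, h4]
  have hsy : sy (o \ t) = sy t := by
    refine (sy_of_union h4 hu4 ?_).1.symm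
    rw [Finset.union_sdiff_of_subset ht]; exact ho
  have hS := sextetOf_mem h4
  have htS : t ∈ sextetOf (sy t) := mem_sextetOf.2 ⟨h4, rfl⟩
  have huS : o \ t ∈ sextetOf (sy t) := mem_sextetOf.2 ⟨hu4, hsy⟩
  -- the other four tetrads
  have htu : t ≠ o \ t := by
    intro h5
    have h6 : t ⊆ o \ t := h5.le
    obtain ⟨p, hp⟩ : t.Nonempty := by rw [← Finset.card_pos, h4]; norm_num
    exact (Finset.mem_sdiff.1 (h6 hp)).2 hp
  have hrest : (((sextetOf (sy t)).erase t).erase (o \ t)).card = 4 := by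
    rw [Finset.card_erase_of_mem, Finset.card_erase_of_mem htS, hS.1]
    rw [Finset.mem_erase]; exact ⟨htu.symm, huS⟩
  obtain ⟨a, ha⟩ : (((sextetOf (sy t)).erase t).erase (o \ t)).Nonempty := by
    rw [← Finset.card_pos, hrest]; norm_num
  obtain ⟨b, hb, hba⟩ := Finset.exists_mem_ne (by rw [hrest]; norm_num :
    1 < (((sextetOf (sy t)).erase t).erase (o \ t)).card) a
  have hcc : 2 < (((sextetOf (sy t)).erase t).erase (o \ t)).card := by rw [hrest]; norm_num
  obtain ⟨c, hc⟩ : ((((sextetOf (sy t)).erase t).erase (o \ t)) \ {a, b}).Nonempty := by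
    rw [← Finset.card_pos]
    have := Finset.le_card_sdiff {a, b} (((sextetOf (sy t)).erase t).erase (o \ t))
    have h5 : ({a, b} : Finset (Finset GolayPt)).card ≤ 2 := Finset.card_le_two
    omega
  have mem : ∀ x, x ∈ (((sextetOf (sy t)).erase t).erase (o \ t)) → x.card = 4 ∧ sy x = sy t ∧ Disjoint o x := by
    intro x hx
    rw [Finset.mem_erase, Finset.mem_erase] at hx
    have h5 := mem_sextetOf.1 hx.2.2
    refine ⟨h5.1, h5.2, ?_⟩
    have d1 := (union_octad h4 h5.1 (Ne.symm hx.2.1) h5.2.symm).2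
    have d2 := (union_octad hu4 h5.1 (Ne.symm hx.1) (hsy.trans h5.2.symm)).2
    rw [← Finset.union_sdiff_of_subset ht]
    exact Finset.disjoint_union_left.2 ⟨d1, d2⟩
  rw [Finset.mem_sdiff, Finset.mem_insert, Finset.mem_singleton, not_or] at hc
  obtain ⟨a4, asy, ad⟩ := mem a ha
  obtain ⟨b4, bsy, bd⟩ := mem b hb
  obtain ⟨c4, csy, cd⟩ := mem c hc.1
  have oab := (union_octad a4 b4 hba.symm (asy.trans bsy.symm)).1
  have oac := (union_octad a4 c4 (Ne.symm hc.2.1) (asy.trans csy.symm)).1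
  have dab := (union_octad a4 b4 hba.symm (asy.trans bsy.symm)).2
  have dac := (union_octad a4 c4 (Ne.symm hc.2.1) (asy.trans csy.symm)).2
  have dbc := (union_octad b4 c4 (Ne.symm hc.2.2) (bsy.trans csy.symm)).2
  have hdab : Disjoint o (a ∪ b) := Finset.disjoint_union_right.2 ⟨ad, bd⟩
  have hdac : Disjoint o (a ∪ c) := Finset.disjoint_union_right.2 ⟨ad, cd⟩
  have img : ∀ x, x ∈ octads → Disjoint o x → g • x = x ∨ g • x = (o ∪ x)ᶜ := by
    intro x hx hdx
    have h5 := h _ (trioOf_mem ho hx hdx) (Finset.mem_insert_self _ _)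
    have h6 : g • x ∈ trioOf o x := by
      rw [← h5]
      exact Finset.smul_mem_smul_finset (Finset.mem_insert_of_mem (Finset.mem_insert_self _ _))
    rw [mem_trioOf] at h6
    rcases h6 with h6 | h6 | h6
    · exfalso
      have : g • x = g • o := by rw [h6, hgo]
      exact ne_of_disjoint ho hdx (MulAction.injective g this).symm
    · exact Or.inl h6
    · exact Or.inr h6
  have h1 := img _ oab hdab
  have h2 := img _ oac hdac
  have haeq : a = (a ∪ b) ∩ (a ∪ c) := by
    rw [← Finset.union_inter_distrib_left, Finset.disjoint_iff_inter_eq_empty.1 dbc, Finset.union_empty]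
  -- `g • a` is again a tetrad of the sextet
  have hga : g • a ∈ sextetOf (sy t) := by
    have e1 : g • a = g • (a ∪ b) ∩ g • (a ∪ c) := by
      conv_lhs => rw [haeq]
      rw [Finset.smul_finset_inter]
    have hd4 : ∀ x y : Finset GolayPt, x.card = 4 → y.card = 4 → sy x = sy t → sy y = sy t → x ≠ y →
        x ∩ y = ∅ := by
      intro x y hx hy hxs hys hxy
      exact Finset.disjoint_iff_inter_eq_empty.1 (union_octad hx hy hxy (hxs.trans hys.symm)).2
    -- the complement of `o ∪ a ∪ b ∪ c` is the last tetrad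
    have hlast : ((o ∪ a ∪ b ∪ c)ᶜ).card = 4 := by
      rw [Finset.card_compl, card_pt, Finset.card_union_of_disjoint, Finset.card_union_of_disjoint,
        Finset.card_union_of_disjoint ad, h8, a4, b4, c4]
      · exact Finset.disjoint_union_left.2 ⟨bd, dab⟩
      · exact Finset.disjoint_union_left.2 ⟨Finset.disjoint_union_left.2 ⟨cd, dac⟩, dbc⟩
    rcases h1 with h1 | h1 <;> rcases h2 with h2 | h2
    · rw [e1, h1, h2, ← haeq]
      exact mem_sextetOf.2 ⟨a4, asy⟩
    · have : g • a = b := by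
        rw [e1, h1, h2]
        apply Finset.eq_of_subset_of_card_le
        · intro p hp
          rw [Finset.mem_inter, Finset.mem_union, Finset.mem_compl, Finset.mem_union, Finset.mem_union] at hp
          rcases hp.1 with h5 | h5
          · exact absurd (Or.inr (Or.inl h5)) hp.2
          · exact h5
        · rw [← h1, ← h2, ← e1, Finset.card_smul_finset, a4, b4]
      rw [this]; exact mem_sextetOf.2 ⟨b4, bsy⟩
    · have : g • a = c := by
        rw [e1, h1, h2]
        apply Finset.eq_of_subset_of_card_le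
        · intro p hp
          rw [Finset.mem_inter, Finset.mem_compl, Finset.mem_union, Finset.mem_union, Finset.mem_union] at hp
          rcases hp.2 with h5 | h5
          · exact absurd (Or.inr (Or.inl h5)) hp.1
          · exact h5
        · rw [← h1, ← h2, ← e1, Finset.card_smul_finset, a4, c4]
      rw [this]; exact mem_sextetOf.2 ⟨c4, csy⟩
    · have e2 : g • a = (o ∪ a ∪ b ∪ c)ᶜ := by
        rw [e1, h1, h2, setA]
      have e3 := setB ad bd cd dab dac dbc
      have e4 : a ∪ (o ∪ a ∪ b ∪ c)ᶜ ∈ octads := by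
        refine ⟨?_, ?_⟩
        · rw [e3]
          apply symmDiff_mem_supports (symmDiff_mem_supports univ_mem_supports ho.1)
          rw [dbc.symmDiff_eq_sup]
          exact (union_octad b4 c4 (Ne.symm hc.2.2) (bsy.trans csy.symm)).1.1
        · rw [Finset.card_union_of_disjoint, a4, hlast]
          rw [Finset.disjoint_left]
          intro p hp hq
          rw [Finset.mem_compl, Finset.mem_union, Finset.mem_union, Finset.mem_union] at hq
          exact hq (Or.inl (Or.inl (Or.inr hp)))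
      rw [e2, mem_sextetOf]
      exact ⟨hlast, (sy_of_union a4 hlast e4).1.symm.trans asy⟩
  -- so the sextet is fixed
  have hgS : g • sextetOf (sy t) = sextetOf (sy t) := by
    have e1 := smul_sextetOf g.2 (t := a)
    have e2 : (g : Equiv.Perm GolayPt) • a = g • a := rfl
    rw [asy] at e1
    rw [e2] at e1
    have e3 : sy (g • a) = sy t := (mem_sextetOf.1 hga).2
    rw [e3] at e1
    exact e1
  have hgt : g • t ∈ sextetOf (sy t) := by
    rw [← hgS]; exact Finset.smul_mem_smul_finset htS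
  have hgto : g • t ⊆ o := by
    rw [← hgo]; exact Finset.smul_finset_subset_smul_finset ht
  obtain ⟨p, hp⟩ : (g • t).Nonempty := by
    rw [← Finset.card_pos, Finset.card_smul_finset, h4]; norm_num
  by_cases hpt : p ∈ t
  · left; exact sextetOf_unique hgt htS hp hpt
  · right; exact sextetOf_unique hgt huS hp (Finset.mem_sdiff.2 ⟨hgto hp, hpt⟩)

theorem fix_of_trios {g : ↥M24} {o : Finset GolayPt} (ho : o ∈ octads) (hgo : g • o = o)
    (h : ∀ T ∈ trios, o ∈ T → g • T = T) : ∀ p ∈ o, (g : Equiv.Perm GolayPt) p = p := by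
  classical
  intro p hp
  by_contra hne
  have h8 : o.card = 8 := ho.2
  have hgm : ∀ x ∈ o, (g : Equiv.Perm GolayPt) x ∈ o := by
    intro x hx
    have : (g : Equiv.Perm GolayPt) • x ∈ g • o := Finset.smul_mem_smul_finset hx
    rw [hgo] at this
    exact this
  obtain ⟨a, ha⟩ : (o \ {p, (g : Equiv.Perm GolayPt) p}).Nonempty := by
    rw [← Finset.card_pos]
    have := Finset.le_card_sdiff {p, (g : Equiv.Perm GolayPt) p} o
    have h5 : ({p, (g : Equiv.Perm GolayPt) p} : Finset GolayPt).card ≤ 2 := Finset.card_le_two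
    omega
  rw [Finset.mem_sdiff, Finset.mem_insert, Finset.mem_singleton, not_or] at ha
  have hsub : ({p, a, (g : Equiv.Perm GolayPt) a} : Finset GolayPt) ⊆ o.erase ((g : Equiv.Perm GolayPt) p) := by
    intro x hx
    rw [Finset.mem_insert, Finset.mem_insert, Finset.mem_singleton] at hx
    rw [Finset.mem_erase]
    rcases hx with rfl | rfl | rfl
    · exact ⟨Ne.symm hne, hp⟩
    · exact ⟨ha.2.2, ha.1⟩
    · exact ⟨fun h5 => ha.2.1 ((g : Equiv.Perm GolayPt).injective h5), hgm a ha.1⟩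
  obtain ⟨t, ht1, ht2, ht3⟩ := Finset.exists_subsuperset_card_eq hsub (n := 4) (by
      exact le_trans Finset.card_le_three (by norm_num)) (by
      rw [Finset.card_erase_of_mem (hgm p hp), h8]; norm_num)
  have hto : t ⊆ o := ht2.trans (Finset.erase_subset _ _)
  have hpt : p ∈ t := ht1 (by simp)
  have hat : a ∈ t := ht1 (by simp)
  have hgat : (g : Equiv.Perm GolayPt) a ∈ t := ht1 (by simp)
  have hgpt : (g : Equiv.Perm GolayPt) p ∉ t := fun h5 => (Finset.mem_erase.1 (ht2 h5)).1 rfl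
  have m1 : (g : Equiv.Perm GolayPt) p ∈ g • t := by
    have : (g : Equiv.Perm GolayPt) • p ∈ g • t := Finset.smul_mem_smul_finset hpt
    exact this
  have m2 : (g : Equiv.Perm GolayPt) a ∈ g • t := by
    have : (g : Equiv.Perm GolayPt) • a ∈ g • t := Finset.smul_mem_smul_finset hat
    exact this
  rcases four_of_trios ho hgo h hto ht3 with h5 | h5
  · rw [h5] at m1; exact hgpt m1
  · rw [h5, Finset.mem_sdiff] at m2; exact m2.2 hgat

end CfsgLib.TrioTwo28
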