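import Cfsg.Agent.LibTwF4

set_option autoImplicit false
set_option linter.unusedSectionVars false
set_option linter.unusedVariables false

/-! The twisted groups of type 2F4: unipotent elements and the torus -/

namespace CfsgLib.Chev.TwF4

open Cfsg.Lie Matrix CfsgLib.Chev

variable {K : Type*} [Field K] [Fintype K] [CharP K 2]

theorem um_chk : allB 48 (fun r => !Nat.ble 24 r || (Nat.ble 24 (wact tF4 (orb 1) r) || decide (r ∈ [27, 25, 28, 30]))) = true := by decide +kernel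

theorem um_chk2 : [27, 25, 28, 30].all (fun r => Nat.ble 24 r && (Nat.ble (r + 1) 48 && Nat.ble (wact tF4 (orb 1) r + 1) 24)) = true := by decide +kernel

theorem X_Um {r : ℕ} (hr : r ∈ [27, 25, 28, 30]) (t : K) : X r t ∈ good3_F4.Um (orb 1) := by
  have h := um_chk2
  rw [List.all_eq_true] at h
  have h1 := h r hr
  simp only [Bool.and_eq_true, Nat.ble_eq] at h1
  refine Subgroup.subset_closure ⟨r, t, h1.1, ?_, ?_, rfl⟩
  · show r < 48
    omega
  · show _ < 24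
    omega

theorem Wp_Um (a b c d : K) : Wp a b c d ∈ good3_F4.Um (orb 1) := by
  unfold Wp B2R.W
  exact Subgroup.mul_mem _ (Subgroup.mul_mem _ (X_Um (by decide) _) (X_Um (by decide) _)) (Subgroup.mul_mem _ (X_Um (by decide) _) (X_Um (by decide) _))

theorem mem_Um1 {x : GL chevF4.Idx K} (hx : x ∈ good3_F4.Um (orb 1)) : ∃ a b c d, x = Wp a b c d := by
  let M : Subgroup (GL chevF4.Idx K) :=
    { carrier := {x | ∃ a b c d, x = Wp a b c d}
      mul_mem' := by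
        rintro _ _ ⟨a, b, c, d, rfl⟩ ⟨a', b', c', d', rfl⟩
        exact ⟨_, _, _, _, posB.W_mul hp2' a b c d a' b' c' d'⟩
      one_mem' := ⟨0, 0, 0, 0, posB.W_one.symm⟩
      inv_mem' := by
        rintro _ ⟨a, b, c, d, rfl⟩
        refine ⟨a, b, c + b * a, d + b * a ^ 2, ?_⟩
        rw [inv_eq_iff_mul_eq_one]
        show Wp a b c d * Wp a b (c + b * a) (d + b * a ^ 2) = 1
        unfold Wp
        rw [posB.W_mul hp2', ← posB.W_one]
        congr 1
        · exact add_self a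
        · exact add_self b
        · have h1 := add_self c
          have h2 := add_self (b * a)
          linear_combination h1 + h2
        · have h1 := add_self d
          have h2 := add_self (b * a ^ 2)
          linear_combination h1 + h2 }
  have : good3_F4.Um (orb 1) ≤ M := by
    conv_lhs => unfold Good3.Um
    rw [Subgroup.closure_le]
    rintro x ⟨r, t, h1, h2, h3, rfl⟩
    have h := (allB_iff _ _).1 um_chk r h2
    have h1' : 24 ≤ r := h1
    have h3' : wact tF4 (orb 1) r < 24 := h3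
    simp only [Bool.or_eq_true, Bool.not_eq_true', Nat.ble_eq, decide_eq_true_eq, List.mem_cons, List.not_mem_nil, or_false] at h
    rcases h with h | h | h
    · rw [Bool.eq_false_iff, Ne, Nat.ble_eq] at h; omega
    · omega
    · have hz : ∀ {r : ℕ}, good3_F4.X r (0 : K) = 1 := fun {r} => good3_F4.X_zero r
      rcases h with rfl | rfl | rfl | rfl
      · exact ⟨t, 0, 0, 0, by unfold Wp B2R.W X; simp [hz]⟩
      · exact ⟨0, t, 0, 0, by unfold Wp B2R.W X; simp [hz]⟩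
      · exact ⟨0, 0, t, 0, by unfold Wp B2R.W X; simp [hz]⟩
      · exact ⟨0, 0, 0, t, by unfold Wp B2R.W X; simp [hz]⟩
  exact this hx

theorem X_Up {i r : ℕ} (h1 : 24 ≤ r) (h2 : r < 48) (h3 : r ≠ tF4.sim i) (t : K) : X r t ∈ good3_F4.Up i := good3_F4.X_mem_Up h1 h2 h3 t

theorem crd1 (a b c d : K) : ∃ y ∈ good3_F4.Up 1, Wp a b c d = y * good3_F4.X (tF4.sim 1) a := by
  refine ⟨X 27 a * (X 25 b * (X 28 c * X 30 d)) * (X 27 a)⁻¹, ?_, ?_⟩
  · apply good3_F4.Up_norm (by decide) (Or.inl sim1.symm)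
    exact Subgroup.mul_mem _ (X_Up (by decide) (by decide) (by decide) _) (Subgroup.mul_mem _ (X_Up (by decide) (by decide) (by decide) _)
      (X_Up (by decide) (by decide) (by decide) _))
  · rw [sim1]; unfold Wp B2R.W X; group

theorem crd2 (a b c d : K) : ∃ y ∈ good3_F4.Up 2, Wp a b c d = y * good3_F4.X (tF4.sim 2) b := by
  refine ⟨X 27 a * (X 25 b * (X 28 c * X 30 d) * (X 25 b)⁻¹), ?_, ?_⟩
  · exact Subgroup.mul_mem _ (X_Up (by decide) (by decide) (by decide) _)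
      (good3_F4.Up_norm (by decide) (Or.inl sim2.symm) _ (Subgroup.mul_mem _ (X_Up (by decide) (by decide) (by decide) _)
      (X_Up (by decide) (by decide) (by decide) _)))
  · rw [sim2]; unfold Wp B2R.W X; group

theorem Wp_inj {a b c d a' b' c' d' : K} (h : Wp a b c d = Wp a' b' c' d') : a = a' ∧ b = b' ∧ c = c' ∧ d = d' := by
  obtain ⟨y1, hy1, e1⟩ := crd1 a b c d
  obtain ⟨y2, hy2, e2⟩ := crd1 a' b' c' d'
  obtain ⟨z1, hz1, f1⟩ := crd2 a b c d
  obtain ⟨z2, hz2, f2⟩ := crd2 a' b' c' d'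
  have h1 := good3_F4.crd_uniq (i := 1) (by decide) hy1 hy2 (e1.symm.trans (h.trans e2))
  have h2 := good3_F4.crd_uniq (i := 2) (by decide) hz1 hz2 (f1.symm.trans (h.trans f2))
  subst h1; subst h2
  unfold Wp B2R.W at h
  have h3 := mul_left_cancel h
  have m30 : ∀ d : K, X 30 d ∈ good3_F4.Uge (F := K) (28 + 1) := fun d => good3_F4.X_mem_Uge (by decide) (by decide) _
  obtain ⟨e1, h4⟩ := good3_F4.Uge_unique (k := 28) (by decide) (by decide) (m30 _) (m30 _) h3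
  have h' : X 30 d * 1 = X 30 d' * 1 := by rw [mul_one, mul_one]; exact h4
  obtain ⟨e4, _⟩ := good3_F4.Uge_unique (k := 30) (by decide) (by decide) (Subgroup.one_mem _) (Subgroup.one_mem _) h'
  exact ⟨rfl, rfl, e1, e4⟩

section
variable {m : ℕ} {f : K ≃+* K} (hf : ∀ t, f t = t ^ (2 ^ m)) (hK : Fintype.card K = 2 ^ (2 * m + 1))

include hf hK in
theorem Um_Fx {x : GL chevF4.Idx K} (hx : x ∈ good3_F4.Um (orb 1) ⊓ (S f).Fx) : ∃ t u, x = uW f t u := by
  obtain ⟨a, b, c, d, rfl⟩ := mem_Um1 hx.1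
  have h := hx.2.2
  rw [s_Wp] at h
  obtain ⟨h1, h2, h3, h4⟩ := Wp_inj h
  refine ⟨b, f d, ?_⟩
  unfold uW
  rw [ff2 hf hK, h1]
  congr 1
  rw [← h3, ← h1, ff2 hf hK]
  ring

theorem uW_inj {t u t' u' : K} (h : uW f t u = uW f t' u') : t = t' ∧ u = u' := by
  obtain ⟨_, h1, h2, _⟩ := Wp_inj h
  subst h1
  exact ⟨rfl, add_left_cancel h2⟩

include hf hK in
theorem card_Um : Nat.card ↥(good3_F4.Um (orb 1) ⊓ (S f).Fx) = Fintype.card K ^ 2 := by
  rw [← Nat.card_eq_fintype_card]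
  have e : Nat.card (K × K) = Nat.card K ^ 2 := by
    rw [Nat.card_prod]; ring
  rw [← e]
  symm
  refine Nat.card_eq_of_bijective (fun p => (⟨uW f p.1 p.2, Wp_Um _ _ _ _, uW_Fx hf hK _ _⟩ : ↥(good3_F4.Um (orb 1) ⊓ (S f).Fx))) ⟨?_, ?_⟩
  · rintro ⟨t, u⟩ ⟨t', u'⟩ h
    obtain ⟨h1, h2⟩ := uW_inj (congrArg Subtype.val h)
    subst h1; subst h2; rfl
  · rintro ⟨x, hx⟩
    obtain ⟨t, u, rfl⟩ := Um_Fx hf hK hx
    exact ⟨(t, u), rfl⟩

/-! the monomial element -/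

theorem n_chk : chkWordsP 2 tF4.acc [(20, [((1, 0, 0) : Mon)]), (22, [(1, 0, 0)]), (19, [(1, 0, 0)]), (28, [(1,0,0)]), (30, [(1,0,0)])] 
   [(27, [((1, 0, 0) : Mon)]), (20, [(-1, 0, 0)]), (27, [(1, 0, 0)]), (25, [((1, 0, 0) : Mon)]), (22, [(-1, 0, 0)]), (25, [(1, 0, 0)]),
   (27, [((1, 0, 0) : Mon)]), (20, [(-1, 0, 0)]), (27, [(1, 0, 0)]), (25, [((1, 0, 0) : Mon)]), (22, [(-1, 0, 0)]), (25, [(1, 0, 0)]),
    (20, [((1, 0, 0) : Mon)]), (22, [(1, 0, 0)]), (19, [(1, 0, 0)])] = true := by decide +kernel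

theorem vW1 : vW f (1 : K) 0 = X 20 1 * X 22 1 * X 19 1 := by
  unfold vW Wn B2R.W
  rw [map_one, map_zero]
  have hz : ∀ {r : ℕ}, good3_F4.X r (0 : K) = 1 := fun {r} => good3_F4.X_zero r
  simp [hz]

theorem uW1 : uW f (0 : K) 1 = X 28 1 * X 30 1 := by
  unfold uW Wp B2R.W
  rw [map_one, map_zero]
  have hz : ∀ {r : ℕ}, good3_F4.X r (0 : K) = 1 := fun {r} => good3_F4.X_zero r
  simp [hz]

theorem nw_orb : good3_F4.nw (F := K) (orb 1) = vW f 1 0 * uW f 0 1 * (vW f 1 0)⁻¹ := by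
  have h := good3_F4.wd_eq_of_chk2 (hp2 (K := K)) 1 1 n_chk
  have e1 : good3_F4.nw (F := K) (orb 1) = good3_F4.nn 1 * good3_F4.nn 2 * good3_F4.nn 1 * good3_F4.nn 2 := by
    show good3_F4.nw (F := K) [1, 2, 1, 2] = _
    simp [Good3.nw, mul_assoc]
  rw [eq_mul_inv_iff_mul_eq, e1, vW1, uW1]
  simp only [Good3.nn, Good3.Ng, sim1, sim2, hn]
  simp [Good3.wd, pev, mev] at h
  simp only [inv_one, mul_assoc]
  exact h.symm

include hf in
theorem nw_mem : good3_F4.nw (F := K) (orb 1) ∈ twistedF4 K (2 ^ m) := by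
  rw [nw_orb (f := f)]
  exact Subgroup.mul_mem _ (Subgroup.mul_mem _ (vW_mem hf _ _) (uW_mem hf _ _)) (Subgroup.inv_mem _ (vW_mem hf _ _))

/-! the torus -/

/-- the field automorphism on units -/
noncomputable def fu (f : K ≃+* K) : Kˣ →* Kˣ := Units.map (f : K →* K)

theorem fu_val (c : Kˣ) : (fu f c : K) = f (c : K) := rfl

include hf hK in
theorem fu2 (v : Kˣ) : fu f (fu f v) ^ 2 = v := by
  apply Units.ext
  rw [Units.val_pow_eq_pow_val, fu_val, fu_val, ff2 hf hK]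

/-- elements of the torus of the class -/
noncomputable def hT (f : K ≃+* K) (w : Kˣ) : GL chevF4.Idx K := hd chevF4 tF4 27 (fu f w) * hd chevF4 tF4 25 w

theorem hT_mul (v w : Kˣ) : hT f (v * w) = hT f v * hT f w := by
  unfold hT
  rw [map_mul, Good3.hd_mul, Good3.hd_mul]
  have := (hd_commute (D := chevF4) (T := tF4) 25 27 v (fu f w)).eq
  calc _ = hd chevF4 tF4 27 (fu f v) * (hd chevF4 tF4 27 (fu f w) * hd chevF4 tF4 25 v) * hd chevF4 tF4 25 w := by group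
    _ = _ := by rw [← this]; group

theorem hT_X (w : Kˣ) {s : ℕ} (hs : s < 48) (t : K) : hT f w * X s t * (hT f w)⁻¹ =
    X s (((fu f w ^ tF4.pair 27 s * w ^ tF4.pair 25 s : Kˣ) : K) * t) := by
  unfold hT
  have h1 := good3_F4.hd_X 25 (s := s) hs w t
  have h2 := good3_F4.hd_X 27 (s := s) hs (fu f w) (((w ^ tF4.pair 25 s : Kˣ) : K) * t)
  rw [← h1] at h2
  unfold X
  rw [Units.val_mul, mul_assoc ((fu f w ^ tF4.pair 27 s : Kˣ) : K), ← h2]
  group

theorem pair_vals : tF4.pair 27 28 = 0 ∧ tF4.pair 25 28 = 1 ∧ tF4.pair 27 30 = 2 ∧ tF4.pair 25 30 = 0 ∧ tF4.pair 27 20 = -2 ∧ tF4.pair 25 20 = 1 ∧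
    tF4.pair 27 22 = 2 ∧ tF4.pair 25 22 = -2 ∧ tF4.pair 27 19 = 0 ∧ tF4.pair 25 19 = -1 := by decide +kernel

theorem hT_conj_u (w : Kˣ) : hT f w * uW f 0 1 * (hT f w)⁻¹ = uW f 0 (w : K) := by
  obtain ⟨p1, p2, p3, p4, _⟩ := pair_vals
  have e : hT f w * uW f 0 1 * (hT f w)⁻¹ = (hT f w * X 28 1 * (hT f w)⁻¹) * (hT f w * X 30 1 * (hT f w)⁻¹) := by
    rw [uW1]; group
  rw [e, hT_X w (by decide), hT_X w (by decide), p1, p2, p3, p4]
  have hz : ∀ {r : ℕ}, good3_F4.X r (0 : K) = 1 := fun {r} => good3_F4.X_zero r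
  unfold uW Wp B2R.W
  rw [map_zero]
  simp only [hz, zpow_zero, zpow_one, one_mul, mul_one, zero_mul, zero_add]
  congr 1

include hf hK in
theorem hT_conj_v (w : Kˣ) : hT f w * vW f 1 0 * (hT f w)⁻¹ = vW f ((fu f w ^ 2 * (w ^ 2)⁻¹ : Kˣ) : K) 0 := by
  obtain ⟨_, _, _, _, p1, p2, p3, p4, p5, p6⟩ := pair_vals
  have e : hT f w * vW f 1 0 * (hT f w)⁻¹ = (hT f w * X 20 1 * (hT f w)⁻¹) * (hT f w * X 22 1 * (hT f w)⁻¹) * (hT f w * X 19 1 * (hT f w)⁻¹) := by
    rw [vW1]; group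
  rw [e, hT_X w (by decide), hT_X w (by decide), hT_X w (by decide), p1, p2, p3, p4, p5, p6]
  have hz : ∀ {r : ℕ}, good3_F4.X r (0 : K) = 1 := fun {r} => good3_F4.X_zero r
  have h0 : f ((fu f w ^ 2 * (w ^ 2)⁻¹ : Kˣ) : K) = ((fu f w ^ (-2 : ℤ) * w ^ (1 : ℤ) : Kˣ) : K) := by
    rw [← fu_val]
    congr 1
    rw [map_mul, map_pow, map_inv, map_pow, fu2 hf hK, zpow_one, _root_.zpow_neg, mul_comm]
    rfl
  have h1 : ((fu f w ^ 2 * (w ^ 2)⁻¹ : Kˣ) : K) = ((fu f w ^ (2 : ℤ) * w ^ (-2 : ℤ) : Kˣ) : K) := by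
    congr 1
  have h2 : ((fu f w ^ 2 * (w ^ 2)⁻¹ : Kˣ) : K) * f ((fu f w ^ 2 * (w ^ 2)⁻¹ : Kˣ) : K) = ((fu f w ^ (0 : ℤ) * w ^ (-1 : ℤ) : Kˣ) : K) := by
    rw [h0, ← Units.val_mul]
    congr 1
    have e1 : fu f w ^ (-2 : ℤ) = (fu f w ^ 2)⁻¹ := by rw [_root_.zpow_neg]; rfl
    rw [e1, _root_.zpow_neg, zpow_zero, zpow_one, one_mul, mul_mul_mul_comm, mul_inv_cancel, one_mul, pow_two, mul_inv, mul_assoc,
      inv_mul_cancel, mul_one]
  unfold vW Wn B2R.W
  rw [map_zero, h2, h0, h1]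
  simp only [hz, mul_one, add_zero, zero_pow two_ne_zero]

include hf hK in
theorem hT_sq_mem (w : Kˣ) : hT f (w ^ 2) ∈ twistedF4 K (2 ^ m) := by
  have hn' : good3_F4.nw (F := K) (orb 1) = good3_F4.nn 1 * good3_F4.nn 2 * good3_F4.nn 1 * good3_F4.nn 2 := by
    show good3_F4.nw (F := K) [1, 2, 1, 2] = _
    simp [Good3.nw, mul_assoc]
  have hw : ∀ r ∈ [27, 25], tF4.w 1 (tF4.w 2 (tF4.w 1 (tF4.w 2 r))) = 48 - 1 - r ∧ tF4.w 2 r < 48 ∧ tF4.w 1 (tF4.w 2 r) < 48 ∧ tF4.w 2 (tF4.w 1 (tF4.w 2 r)) < 48 := by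
    decide +kernel
  have hc : ∀ r ∈ [27, 25], ∀ c : Kˣ, good3_F4.nw (F := K) (orb 1) * hd chevF4 tF4 r c * (good3_F4.nw (orb 1))⁻¹ = (hd chevF4 tF4 r c)⁻¹ := by
    intro r hr c
    obtain ⟨h1, h2, h3, h4⟩ := hw r hr
    have hr' : r < 48 := by
      simp only [List.mem_cons, List.not_mem_nil, or_false] at hr
      omega
    have a2 := good3_F4.nn_hd (i := 2) (by decide) (r := r) hr' c
    have a1 := good3_F4.nn_hd (i := 1) (by decide) (r := tF4.w 2 r) h2 c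
    have b2 := good3_F4.nn_hd (i := 2) (by decide) (r := tF4.w 1 (tF4.w 2 r)) h3 c
    have b1 := good3_F4.nn_hd (i := 1) (by decide) (r := tF4.w 2 (tF4.w 1 (tF4.w 2 r))) h4 c
    have e := good3_F4.hd_neg (F := K) (r := r) hr' c
    rw [h1] at b1
    have e' : hd chevF4 tF4 (48 - 1 - r) c = (hd chevF4 tF4 r c)⁻¹ := e
    rw [← e', ← b1, ← b2, ← a1, ← a2, hn']
    group
  have h1 : good3_F4.nw (F := K) (orb 1) * hT f w * (good3_F4.nw (orb 1))⁻¹ = (hT f w)⁻¹ := by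
    have e1 := hc 27 (by decide) (fu f w)
    have e2 := hc 25 (by decide) w
    have e3 : good3_F4.nw (F := K) (orb 1) * hT f w * (good3_F4.nw (orb 1))⁻¹ =
        (good3_F4.nw (F := K) (orb 1) * hd chevF4 tF4 27 (fu f w) * (good3_F4.nw (orb 1))⁻¹) * (good3_F4.nw (F := K) (orb 1) * hd chevF4 tF4 25 w * (good3_F4.nw (orb 1))⁻¹) := by
      unfold hT; group
    rw [e3, e1, e2]
    unfold hT
    rw [_root_.mul_inv_rev]
    exact ((hd_commute (D := chevF4) (T := tF4) 27 25 (fu f w) w).inv_inv).eq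
  have h2 : hT f (w ^ 2) = (hT f w * good3_F4.nw (F := K) (orb 1) * (hT f w)⁻¹) * (good3_F4.nw (orb 1))⁻¹ := by
    rw [pow_two, hT_mul]
    have h3 : good3_F4.nw (F := K) (orb 1) * (hT f w)⁻¹ * (good3_F4.nw (orb 1))⁻¹ = hT f w := by
      have := congrArg (·⁻¹) h1
      simp only [inv_inv] at this
      calc good3_F4.nw (F := K) (orb 1) * (hT f w)⁻¹ * (good3_F4.nw (orb 1))⁻¹ = (good3_F4.nw (F := K) (orb 1) * hT f w * (good3_F4.nw (orb 1))⁻¹)⁻¹ := by group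
        _ = hT f w := this
    calc hT f w * hT f w = hT f w * (good3_F4.nw (F := K) (orb 1) * (hT f w)⁻¹ * (good3_F4.nw (orb 1))⁻¹) := by rw [h3]
      _ = _ := by group
  have h4 : hT f w * good3_F4.nw (F := K) (orb 1) * (hT f w)⁻¹ ∈ twistedF4 K (2 ^ m) := by
    rw [nw_orb (f := f)]
    have e : hT f w * (vW f 1 0 * uW f 0 1 * (vW f 1 0)⁻¹) * (hT f w)⁻¹ = (hT f w * vW f 1 0 * (hT f w)⁻¹) * (hT f w * uW f 0 1 * (hT f w)⁻¹) *
        (hT f w * vW f 1 0 * (hT f w)⁻¹)⁻¹ := by group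
    rw [e, hT_conj_u, hT_conj_v hf hK]
    exact Subgroup.mul_mem _ (Subgroup.mul_mem _ (vW_mem hf _ _) (uW_mem hf _ _)) (Subgroup.inv_mem _ (vW_mem hf _ _))
  rw [h2]
  exact Subgroup.mul_mem _ h4 (Subgroup.inv_mem _ (nw_mem hf))

include hK in
theorem unit_sq (w : Kˣ) : (w ^ (2 ^ (2 * m))) ^ 2 = w := by
  rw [← pow_mul, ← pow_succ, ← hK]
  apply Units.ext
  rw [Units.val_pow_eq_pow_val, FiniteField.pow_card]

include hf hK in
theorem hT_mem (w : Kˣ) : hT f w ∈ twistedF4 K (2 ^ m) := by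
  rw [← unit_sq hK w]
  exact hT_sq_mem hf hK _

def NF4 : List (List ℤ) := [[2, 3, 4, 2], [3, 6, 8, 4], [2, 4, 6, 3], [1, 2, 3, 2]]

theorem hN : ∀ i j : Fin tF4.l, ∑ k, tF4.CM i k * mOf NF4 k j = if i = j then ((1 : ℕ) : ℤ) else 0 := by
  show ∀ i j : Fin 4, ∑ k : Fin 4, tF4.CM i k * mOf NF4 k j = if i = j then ((1 : ℕ) : ℤ) else 0
  decide +kernel

theorem hri : RI (S f).rs (fun i => trsF4.getD i 0) tF4.l := by
  refine ⟨?_, ?_, ?_⟩
  · show ∀ i < 4, trsF4.getD i 0 < 4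
    decide
  · show ∀ i < 4, trsF4.getD (trsF4.getD i 0) 0 = i
    decide
  · show ∀ i < 4, trsF4.getD (trsF4.getD i 0) 0 = i
    decide

theorem lift : (S f).Lift (fun i => trsF4.getD i 0) := by
  apply (S f).lift1 hri
  intro a ha i hi
  have := good3_F4.ker_exp hN ha i hi
  rwa [pow_one] at this

theorem ph_vals (c : Kˣ) : (S f).ph 33 c = fu f c ^ 2 ∧ (S f).ph 27 c = fu f c ^ 2 ∧ (S f).ph 25 c = fu f c ∧ (S f).ph 24 c = fu f c := by
  obtain ⟨l27, l25, _, _, _, _, _, _, l33, l24⟩ := lam_vals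
  have g33 : (S f).G.lam 33 = 2 := l33
  have g27 : (S f).G.lam 27 = 2 := l27
  have g25 : (S f).G.lam 25 = 1 := l25
  have g24 : (S f).G.lam 24 = 1 := l24
  unfold Tw.ph
  rw [g33, g27, g25, g24, pow_one]
  exact ⟨rfl, rfl, rfl, rfl⟩

include hf hK in
theorem CpU_iff (a : ℕ → Kˣ) : (S f).CpU a ↔ a 0 = fu f (a 3) ∧ a 1 = fu f (a 2) := by
  unfold Tw.CpU
  constructor
  · intro h
    have h1 := h 3 (by decide)
    have h2 := h 2 (by decide)
    rw [sim3, (ph_vals _).2.2.2] at h1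
    rw [sim2, (ph_vals _).2.2.1] at h2
    exact ⟨h1, h2⟩
  · rintro ⟨h0, h1⟩ i hi
    have hi' : i < 4 := hi
    interval_cases i
    · show a 3 = (S f).ph 33 (a 0)
      rw [(ph_vals _).1, h0, fu2 hf hK]
    · show a 2 = (S f).ph 27 (a 1)
      rw [(ph_vals _).2.1, h1, fu2 hf hK]
    · show a 1 = (S f).ph 25 (a 2)
      rw [(ph_vals _).2.2.1, h1]
    · show a 0 = (S f).ph 24 (a 3)
      rw [(ph_vals _).2.2.2, h0]

theorem flat : ([[0, 3], [1, 2]] : List (List ℕ)).flatten.Perm (List.range tF4.l) := by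
  show ([[0, 3], [1, 2]] : List (List ℕ)).flatten.Perm (List.range 4)
  decide

include hf hK in
theorem hH : chevF4.diagonalSubgroup K ⊓ (S f).Fx ≤ twistedF4 K (2 ^ m) := by
  apply (S f).hH_of hri lift flat
  intro J hJ a ha
  simp only [List.mem_cons, List.not_mem_nil, or_false] at hJ
  rcases hJ with rfl | rfl
  · exact (S f).orth_hd (O0 f) (p0 hf hK) (m0 hf hK) ((S f).CpU_Cp ha (O0 f).lt)
  · have h := (CpU_iff hf hK a).1 ha
    have e : ([1, 2].map fun i => hd chevF4 tF4 (tF4.sim i) (a i)).prod = hT f (a 2) := by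
      unfold hT
      rw [← h.2]
      simp [sim1, sim2]
    rw [e]
    exact hT_mem hf hK _

theorem cases2 {P : ℕ → Prop} (h0 : P 0) (h1 : P 1) : ∀ k < 2, P k := by
  intro k hk
  interval_cases k <;> assumption

include hf hK in
theorem R : TwR2 (S f) 2 orb (twistedF4 K (2 ^ m)) (Fintype.card K) 2 where
  O := OO f
  hE := hE hf hK
  hn := by
    apply cases2
    · exact ⟨1, Subgroup.one_mem _, by rw [mul_one]; exact (S f).orth_nw (O0 f) (p0 hf hK) (m0 hf hK)⟩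
    · exact ⟨1, Subgroup.one_mem _, by rw [mul_one]; exact nw_mem hf⟩
  hX := by
    apply cases2
    · exact (S f).orth_X (O0 f) (p0 hf hK)
    · intro x hx
      obtain ⟨t, u, rfl⟩ := Um_Fx hf hK hx
      exact uW_mem hf t u
  hH := hH hf hK
  hc := by
    apply cases2
    · refine ⟨1, rfl, ?_⟩
      rw [orb0, (S f).card_orth (O0 f) (C := K) (fun c k => if k = 0 then f c else c), Nat.card_eq_fintype_card, pow_one]
      · intro c
        rw [Cp0 hf hK]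
        rfl
      · intro c c' hc
        have := hc 3 (by decide)
        rwa [if_neg (by decide), if_neg (by decide)] at this
      · intro t ht
        rw [Cp0 hf hK] at ht
        refine ⟨t 3, ?_⟩
        intro k hk
        simp only [List.mem_cons, List.not_mem_nil, or_false] at hk
        rcases hk with rfl | rfl
        · rw [if_pos rfl, ht]
        · rw [if_neg (by decide)]
    · exact ⟨2, rfl, card_Um hf hK⟩
  hδ := two_pos
  hx := by
    apply cases2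
    · exact fun i hi => (S f).orth_hx (O0 f) hi
    · intro i hi
      have hi' : i ∈ [1, 2, 1, 2] := hi
      simp only [List.mem_cons, List.not_mem_nil, or_false] at hi'
      refine ⟨uW f 1 0, ⟨Wp_Um _ _ _ _, uW_Fx hf hK _ _⟩, 1, one_ne_zero, ?_⟩
      have h0 := crd1 (f 1) 1 (1 * f 1 + 0) (f 0 ^ 2)
      have h1 := crd2 (f 1) 1 (1 * f 1 + 0) (f 0 ^ 2)
      rcases hi' with rfl | rfl | rfl | rfl
      · obtain ⟨y, hy, e⟩ := h0
        exact ⟨y, hy, by unfold uW; rw [e, map_one]⟩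
      · obtain ⟨y, hy, e⟩ := h1
        exact ⟨y, hy, by unfold uW; rw [e]⟩
      · obtain ⟨y, hy, e⟩ := h0
        exact ⟨y, hy, by unfold uW; rw [e, map_one]⟩
      · obtain ⟨y, hy, e⟩ := h1
        exact ⟨y, hy, by unfold uW; rw [e]⟩

end
end CfsgLib.Chev.TwF4
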