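import Cfsg.Agent.LibTwF4b
import Cfsg.Agent.LibTwN

set_option autoImplicit false
set_option linter.unusedSectionVars false
set_option linter.unusedVariables false

/-! The twisted groups of type 2F4: orders and the Weyl group -/

namespace CfsgLib.Dih

/-- homomorphisms from a dihedral group -/
theorem exists_hom {G : Type*} [Group G] {a b : G} (ha : a * a = 1) (hb : b * b = 1) {n : ℕ} (hn : (a * b) ^ n = 1) :
    ∃ ψ : DihedralGroup n →* G, (∀ k : ℤ, ψ (DihedralGroup.r (k : ZMod n)) = (a * b) ^ k) ∧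
      ∀ k : ℤ, ψ (DihedralGroup.sr (k : ZMod n)) = a * (a * b) ^ k := by
  let P : ZMod n →+ Additive G := ZMod.lift n ⟨(zmultiplesHom (Additive G)) (Additive.ofMul (a * b)), by
    rw [zmultiplesHom_apply]
    show (a * b) ^ (n : ℤ) = 1
    rw [zpow_natCast, hn]⟩
  have hP : ∀ k : ℤ, (P (k : ZMod n)).toMul = (a * b) ^ k := by
    intro k
    have e : P (k : ZMod n) = (zmultiplesHom (Additive G)) (Additive.ofMul (a * b)) k := ZMod.lift_coe _ _ _
    rw [e]
    rfl
  have hadd : ∀ i j, (P (i + j)).toMul = (P i).toMul * (P j).toMul := fun i j => by rw [map_add]; rfl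
  have hneg : ∀ i, (P (-i)).toMul = ((P i).toMul)⁻¹ := fun i => by rw [map_neg]; rfl
  have ha' : a⁻¹ = a := inv_eq_of_mul_eq_one_right ha
  have hb' : b⁻¹ = b := inv_eq_of_mul_eq_one_right hb
  have hc : ∀ i, a * (P i).toMul = ((P i).toMul)⁻¹ * a := by
    intro i
    obtain ⟨k, rfl⟩ := ZMod.intCast_surjective i
    rw [hP]
    have h1 : a * (a * b) * a⁻¹ = (a * b)⁻¹ := by
      rw [mul_inv_rev, ha', hb', ← mul_assoc, ha, one_mul]
    have h2 : a * (a * b) ^ k * a⁻¹ = ((a * b) ^ k)⁻¹ := by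
      rw [← conj_zpow, h1, inv_zpow]
    rw [← h2]; group
  refine ⟨MonoidHom.mk' (fun x => match x with
    | DihedralGroup.r i => (P i).toMul
    | DihedralGroup.sr i => a * (P i).toMul) ?_, fun k => hP k, fun k => ?_⟩
  · rintro (i | i) (j | j)
    · rw [DihedralGroup.r_mul_r]; exact hadd i j
    · rw [DihedralGroup.r_mul_sr]
      show a * (P (j - i)).toMul = (P i).toMul * (a * (P j).toMul)
      have h := hc (-i)
      rw [hneg, inv_inv] at h
      rw [sub_eq_neg_add, hadd, ← mul_assoc, ← mul_assoc, ← h, hneg]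
    · rw [DihedralGroup.sr_mul_r]
      show a * (P (i + j)).toMul = a * (P i).toMul * (P j).toMul
      rw [hadd, mul_assoc]
    · rw [DihedralGroup.sr_mul_sr]
      show (P (j - i)).toMul = a * (P i).toMul * (a * (P j).toMul)
      rw [hc i, sub_eq_neg_add, hadd, hneg]
      calc ((P i).toMul)⁻¹ * (P j).toMul = ((P i).toMul)⁻¹ * (a * a) * (P j).toMul := by rw [ha, mul_one]
        _ = _ := by group
  · show a * (P (k : ZMod n)).toMul = _
    rw [hP]

theorem hom_injective {G : Type*} [Group G] {a b : G} (ha : a * a = 1) (hb : b * b = 1) {n : ℕ} (h2 : 2 < n) (hn : orderOf (a * b) = n)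
    {ψ : DihedralGroup n →* G} (h3 : ∀ k : ℤ, ψ (DihedralGroup.r (k : ZMod n)) = (a * b) ^ k)
    (h4 : ∀ k : ℤ, ψ (DihedralGroup.sr (k : ZMod n)) = a * (a * b) ^ k) : Function.Injective ψ := by
  rw [injective_iff_map_eq_one]
  have ha' : a⁻¹ = a := inv_eq_of_mul_eq_one_right ha
  have hb' : b⁻¹ = b := inv_eq_of_mul_eq_one_right hb
  rintro (i | i) h
  · obtain ⟨k, rfl⟩ := ZMod.intCast_surjective i
    rw [h3, ← orderOf_dvd_iff_zpow_eq_one, hn] at h
    rw [(ZMod.intCast_zmod_eq_zero_iff_dvd k n).2 h]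
    rfl
  · exfalso
    obtain ⟨k, rfl⟩ := ZMod.intCast_surjective i
    rw [h4] at h
    have h5 : a = ((a * b) ^ k)⁻¹ := eq_inv_of_mul_eq_one_left h
    have h6 : Commute a (a * b) := by
      rw [h5]
      conv_rhs => rw [← h5]
      exact ((Commute.refl (a * b)).zpow_left k).inv_left
    have h7 : (a * b) ^ 2 = 1 := by
      have h8 : a * (a * b) = (a * b) * a := h6
      rw [← mul_assoc, ha, one_mul] at h8
      rw [pow_two, ← mul_assoc, ← h8, hb]
    have h9 := orderOf_dvd_of_pow_eq_one h7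
    rw [hn] at h9
    exact absurd (Nat.le_of_dvd (by norm_num) h9) (by omega)

end CfsgLib.Dih

namespace CfsgLib.Chev.TwF4

open Cfsg.Lie Matrix CfsgLib.Chev

variable {K : Type*} [Field K] [Fintype K] [CharP K 2]

section
variable {m : ℕ} {f : K ≃+* K} (hf : ∀ t, f t = t ^ (2 ^ m)) (hK : Fintype.card K = 2 ^ (2 * m + 1))

/-- the torus as a homomorphism -/
noncomputable def hF (f : K ≃+* K) (p : Kˣ × Kˣ) : GL chevF4.Idx K :=
  hel chevF4 tF4 (fun i => if i = 0 then fu f p.1 else if i = 1 then fu f p.2 else if i = 2 then p.2 else p.1)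

include hf hK in
theorem H_iff {x : GL chevF4.Idx K} : x ∈ chevF4.diagonalSubgroup K ⊓ (S f).Fx ↔ ∃ p : Kˣ × Kˣ, x = hF f p := by
  rw [(S f).H_Fx hri lift]
  constructor
  · rintro ⟨a, ha, rfl⟩
    rw [CpU_iff hf hK] at ha
    refine ⟨(a 3, a 2), hel_congr ?_⟩
    intro i hi
    have hi' : i < 4 := hi
    interval_cases i
    · exact ha.1
    · exact ha.2
    · rfl
    · rfl
  · rintro ⟨p, rfl⟩
    exact ⟨_, (CpU_iff hf hK _).2 ⟨rfl, rfl⟩, rfl⟩

theorem hF_inj {p p' : Kˣ × Kˣ} (h : hF f p = hF f p') : p = p' := by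
  unfold hF at h
  have h1 := hel_div_one.2 h
  have h2 := good3_F4.ker_exp hN h1 3 (by decide)
  have h3 := good3_F4.ker_exp hN h1 2 (by decide)
  rw [pow_one] at h2 h3
  have e1 := div_eq_one.1 h2
  have e2 := div_eq_one.1 h3
  exact Prod.ext e1 e2

include hf hK in
theorem card_H : Nat.card ↥(chevF4.diagonalSubgroup K ⊓ twistedF4 K (2 ^ m)) = (2 ^ (2 * m + 1) - 1) ^ 2 := by
  have hE' : chevF4.diagonalSubgroup K ⊓ twistedF4 K (2 ^ m) = chevF4.diagonalSubgroup K ⊓ (S f).Fx := by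
    rw [(R hf hK).toTwR.E_eq]
  rw [hE']
  have e : Nat.card (Kˣ × Kˣ) = (2 ^ (2 * m + 1) - 1) ^ 2 := by
    rw [Nat.card_prod, Nat.card_units, Nat.card_eq_fintype_card, hK, pow_two]
  rw [← e]
  symm
  refine Nat.card_eq_of_bijective (fun p => (⟨hF f p, (H_iff hf hK).2 ⟨p, rfl⟩⟩ : ↥(chevF4.diagonalSubgroup K ⊓ (S f).Fx))) ⟨?_, ?_⟩
  · intro p p' h
    exact hF_inj (congrArg Subtype.val h)
  · rintro ⟨x, hx⟩
    obtain ⟨p, rfl⟩ := (H_iff hf hK).1 hx
    exact ⟨p, rfl⟩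

include hf hK in
theorem card_U : Nat.card ↥(chevF4.posUnipotent K ⊓ twistedF4 K (2 ^ m)) = (2 ^ (2 * m + 1)) ^ 12 := by
  obtain ⟨d, hd, hU⟩ := (R hf hK).card_UE
  have hd' : d = 12 := by
    have : tF4.n / 2 = 24 := rfl
    omega
  rw [hU, hd', hK]

include hf hK in
theorem card_G : Nat.card ↥(twistedF4 K (2 ^ m)) =
      (2 ^ (2 * m + 1)) ^ 12 * (2 ^ (2 * m + 1) - 1) * ((2 ^ (2 * m + 1)) ^ 3 + 1) * ((2 ^ (2 * m + 1)) ^ 4 - 1) * ((2 ^ (2 * m + 1)) ^ 6 + 1) := by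
  have RR := R hf hK
  have hU := card_U hf hK
  have h1 := RR.toTwR.card_E
  have h2 := (S f).WqT_formula RR.O ocnn_F4 two_pos tchk_F4 tpol_F4 ((Fintype.card K : ℕ) : ℤ)
  have h3 := card_H hf hK
  simp only [List.map_cons, List.map_nil, List.prod_cons, List.prod_nil, lpev_M, lpev_P, mul_one, pow_one] at h2
  rw [hK] at h1 h2
  set q : ℕ := 2 ^ (2 * m + 1) with hqd
  have hq1 : 1 < q := by rw [hqd]; exact Nat.one_lt_pow (by omega) (by norm_num)
  have c1 : ((q - 1 : ℕ) : ℤ) = (q : ℤ) - 1 := by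
    push_cast [Nat.cast_sub hq1.le]; ring
  have c4 : ((q ^ 4 - 1 : ℕ) : ℤ) = (q : ℤ) ^ 4 - 1 := by
    rw [Nat.cast_sub (Nat.one_le_pow _ _ (by omega))]; push_cast; ring
  apply Nat.cast_injective (R := ℤ)
  push_cast
  rw [h1, hU, h3, c1, c4]
  push_cast
  rw [c1]
  linear_combination ((q : ℤ) ^ 12) * h2

theorem ord8 : chkOrd tF4 (orb 0 ++ orb 1) 8 = true := by decide +kernel

include hf hK in
theorem NH : ∃ φ : ↥(chevF4.monomialSubgroup K ⊓ twistedF4 K (2 ^ m)) →* DihedralGroup 8, Function.Surjective φ ∧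
      φ.ker = (chevF4.diagonalSubgroup K ⊓ twistedF4 K (2 ^ m)).subgroupOf (chevF4.monomialSubgroup K ⊓ twistedF4 K (2 ^ m)) := by
  have RR := R hf hK
  obtain ⟨θ, h1, h2, h3⟩ := RR.exists_thE
  have ha : good3_F4.pw (orb 0) * good3_F4.pw (orb 0) = 1 := (S f).orb_sq (OO f) (by decide)
  have hb : good3_F4.pw (orb 1) * good3_F4.pw (orb 1) = 1 := (S f).orb_sq (OO f) (by decide)
  have hab : orderOf (good3_F4.pw (orb 0) * good3_F4.pw (orb 1)) = 8 := by
    rw [← Good3.pw_append]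
    exact good3_F4.orderOf_pw ord8
  have hab8 : (good3_F4.pw (orb 0) * good3_F4.pw (orb 1)) ^ 8 = 1 := by
    rw [← hab]; exact pow_orderOf_eq_one _
  obtain ⟨ψ, hψ1, hψ2⟩ := CfsgLib.Dih.exists_hom ha hb hab8
  have hinj := CfsgLib.Dih.hom_injective ha hb (by norm_num) hab hψ1 hψ2
  have ma : good3_F4.pw (orb 0) ∈ ψ.range := ⟨DihedralGroup.sr ((0 : ℤ) : ZMod 8), by rw [hψ2, zpow_zero, mul_one]⟩
  have mb : good3_F4.pw (orb 1) ∈ ψ.range := ⟨DihedralGroup.sr ((1 : ℤ) : ZMod 8), by rw [hψ2, zpow_one, ← mul_assoc, ha, one_mul]⟩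
  have na : good3_F4.pw (orb 0) ∈ (S f).Wt 2 orb Set.univ := by
    rw [(S f).Wt_iff RR.O]
    exact ⟨orb 0, (S f).IW_orb (OO f) (by decide), rfl⟩
  have nb : good3_F4.pw (orb 1) ∈ (S f).Wt 2 orb Set.univ := by
    rw [(S f).Wt_iff RR.O]
    exact ⟨orb 1, (S f).IW_orb (OO f) (by decide), rfl⟩
  have hr : ψ.range = (S f).Wt 2 orb Set.univ := by
    apply le_antisymm
    · rintro x ⟨i | i, rfl⟩
      · obtain ⟨k, rfl⟩ := ZMod.intCast_surjective i
        rw [hψ1]
        exact Subgroup.zpow_mem _ (Subgroup.mul_mem _ na nb) _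
      · obtain ⟨k, rfl⟩ := ZMod.intCast_surjective i
        rw [hψ2]
        exact Subgroup.mul_mem _ na (Subgroup.zpow_mem _ (Subgroup.mul_mem _ na nb) _)
    · intro τ hτ
      rw [(S f).mem_Wt RR.O] at hτ
      obtain ⟨ks, hks, rfl⟩ := hτ
      induction ks with
      | nil => exact ⟨1, by rw [map_one]; rfl⟩
      | cons k ks ih =>
        have h4 := ih (fun k hk => hks k (List.mem_cons_of_mem _ hk))
        have h5 := (hks k List.mem_cons_self).2
        have h6 : good3_F4.pw (orb k) ∈ ψ.range := by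
          interval_cases k
          · exact ma
          · exact mb
        rw [Tw.fl_cons, Good3.pw_append]
        exact Subgroup.mul_mem _ h6 h4
  have hmem : ∀ x, θ x ∈ ψ.range := by
    intro x
    rw [hr, ← h3]
    exact ⟨x, rfl⟩
  let e := MonoidHom.ofInjective hinj
  let φ : ↥(chevF4.monomialSubgroup K ⊓ twistedF4 K (2 ^ m)) →* DihedralGroup 8 := e.symm.toMonoidHom.comp (θ.codRestrict ψ.range hmem)
  have hφ : ∀ x, ψ (φ x) = θ x := by
    intro x
    show ((e (e.symm (θ.codRestrict ψ.range hmem x)) : ψ.range) : Equiv.Perm (Fin tF4.n)) = θ x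
    rw [e.apply_symm_apply]
    rfl
  refine ⟨φ, ?_, ?_⟩
  · intro c
    have : ψ c ∈ θ.range := by rw [h3, ← hr]; exact ⟨c, rfl⟩
    obtain ⟨x, hx⟩ := this
    exact ⟨x, hinj (by rw [hφ, hx])⟩
  · rw [← h2]
    ext x
    rw [MonoidHom.mem_ker, MonoidHom.mem_ker, ← hφ]
    constructor
    · intro h; rw [h, map_one]
    · intro h; exact hinj (by rw [h, map_one])

end
end CfsgLib.Chev.TwF4
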