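import Cfsg.Agent.LibTwP2
import Cfsg.Agent.LibTwF4c

set_option autoImplicit false
set_option linter.unusedSectionVars false
set_option linter.unusedVariables false

/-! Perfectness and simplicity of the groups 2F4 -/

namespace CfsgLib.Chev.TwF4

open Cfsg.Lie Matrix CfsgLib.Chev
open scoped commutatorElement

variable {K : Type*} [Field K] [Fintype K] [CharP K 2]

theorem pr0 : PrOK tF4 [0, 3] := by
  unfold PrOK
  decide +kernel

theorem um_vals2 : ∀ p ∈ [(0, 33), (0, 24), (1, 27), (1, 25), (1, 28), (1, 30)], 24 ≤ p.2 ∧ p.2 < 48 ∧ wact tF4 (orb p.1) p.2 < 24 := by decide +kernel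
theorem vm_vals2 : ∀ p ∈ [(0, 14), (0, 23), (1, 20), (1, 22), (1, 19), (1, 17)], p.2 < 24 ∧ 24 ≤ wact tF4 (orb p.1) p.2 := by decide +kernel

theorem X_um {k r : ℕ} (h : (k, r) ∈ [(0, 33), (0, 24), (1, 27), (1, 25), (1, 28), (1, 30)]) (t : K) : X r t ∈ good3_F4.Um (orb k) := by
  obtain ⟨h1, h2, h3⟩ := um_vals2 (k, r) h
  exact good3_F4.X_mem_Um h1 h2 h3 t

theorem X_vm {k r : ℕ} (h : (k, r) ∈ [(0, 14), (0, 23), (1, 20), (1, 22), (1, 19), (1, 17)]) (t : K) : X r t ∈ good3_F4.Vm (orb k) := by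
  obtain ⟨h1, h2⟩ := vm_vals2 (k, r) h
  exact good3_F4.X_mem_Vm h1 h2 t

section
variable {m : ℕ} {f : K ≃+* K} (hf : ∀ t, f t = t ^ (2 ^ m)) (hK : Fintype.card K = 2 ^ (2 * m + 1))

theorem uW_mul (t u t' u' : K) : uW f t u * uW f t' u' = Wp (f (t + t')) (t + t') ((t + t') * f (t + t') + (u + u' + f t * t')) (f u ^ 2 + f u' ^ 2 + t * f t' ^ 2) := by
  unfold uW Wp
  rw [posB.W_mul hp2']
  congr 1
  · rw [map_add]
  · rw [map_add]
    have h1 := add_self (f t * t')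
    linear_combination (-1 : K) * h1

theorem pair_vals2 : tF4.pair 27 27 = 2 ∧ tF4.pair 25 27 = -1 ∧ tF4.pair 27 25 = -2 ∧ tF4.pair 25 25 = 2 := by decide +kernel

/-- the coordinates of a product -/
theorem Wp_tcoord {a b c d a' b' c' d' a'' b'' c'' d'' : K} (h : Wp a b c d * Wp a' b' c' d' = Wp a'' b'' c'' d'') : b'' = b + b' := by
  unfold Wp at h
  rw [posB.W_mul hp2'] at h
  exact (Wp_inj h).2.1.symm

include hf hK in
theorem hT_Fx (w : Kˣ) : hT f w ∈ twistedF4 K (2 ^ m) := hT_mem hf hK w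

include hf hK in
theorem z_mem (hm : 1 ≤ m) (u : K) : uW f 0 u ∈ ⁅twistedF4 K (2 ^ m), twistedF4 K (2 ^ m)⁆ := by
  obtain ⟨p1, p2, p3, p4, _⟩ := pair_vals
  obtain ⟨w, hw⟩ := exists_pow_ne_one K (n := 1) one_pos (by
    rw [hK]
    have : 2 ^ 3 ≤ 2 ^ (2 * m + 1) := Nat.pow_le_pow_right (by norm_num) (by omega)
    omega)
  rw [pow_one] at hw
  have hne : (w : K) + 1 ≠ 0 := by
    intro h
    apply hw
    apply Units.ext
    have := eq_neg_of_add_eq_zero_left h
    rw [this, neg_self]; rfl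
  have hz : ∀ {r : ℕ}, good3_F4.X r (0 : K) = 1 := fun {r} => good3_F4.X_zero r
  have hu : ∀ u : K, uW f 0 u = X 28 u * X 30 (f u ^ 2) := by
    intro u
    unfold uW Wp B2R.W
    rw [map_zero]
    simp [hz]
  have hc : ∀ u : K, hT f w * uW f 0 u * (hT f w)⁻¹ = uW f 0 ((w : K) * u) := by
    intro u
    rw [hu, hu]
    have e : hT f w * (X 28 u * X 30 (f u ^ 2)) * (hT f w)⁻¹ = (hT f w * X 28 u * (hT f w)⁻¹) * (hT f w * X 30 (f u ^ 2) * (hT f w)⁻¹) := by group
    rw [e, hT_X w (by decide), hT_X w (by decide), p1, p2, p3, p4]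
    simp only [zpow_zero, zpow_one, one_mul, mul_one]
    congr 1
    congr 1
    rw [map_mul, mul_pow]
    rfl
  have hinv : ∀ u : K, (uW f 0 u)⁻¹ = uW f 0 u := by
    intro u
    rw [inv_eq_iff_mul_eq_one, hu, posB.CD_mul, add_self, add_self]
    unfold X
    rw [hz, hz, one_mul]
  have hmul : ∀ u u' : K, uW f 0 u * uW f 0 u' = uW f 0 (u + u') := by
    intro u u'
    rw [hu, hu, hu, posB.CD_mul]
    congr 2
    rw [map_add]
    exact (add_pow_char _ _ 2).symm
  have e : uW f 0 u = ⁅hT f w, uW f 0 (u / ((w : K) + 1))⁆ := by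
    rw [commutatorElement_def, hc, hinv, hmul]
    congr 1
    field_simp
  rw [e]
  exact Subgroup.commutator_mem_commutator (hT_mem hf hK w) (uW_mem hf _ _)

include hf hK in
theorem uW_DG (hm : 1 ≤ m) (t u : K) : uW f t u ∈ ⁅twistedF4 K (2 ^ m), twistedF4 K (2 ^ m)⁆ := by
  obtain ⟨p1, p2, p3, p4⟩ := pair_vals2
  obtain ⟨w, hw⟩ := exists_pow_ne_one K (n := 1) one_pos (by
    rw [hK]
    have : 2 ^ 3 ≤ 2 ^ (2 * m + 1) := Nat.pow_le_pow_right (by norm_num) (by omega)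
    omega)
  rw [pow_one] at hw
  set χ : Kˣ := fu f w ^ (-2 : ℤ) * w ^ (2 : ℤ) with hχ
  have hχ1 : χ ≠ 1 := by
    intro h
    have h1 : w ^ 2 = fu f w ^ 2 := by
      rw [hχ, _root_.zpow_neg, inv_mul_eq_one] at h
      exact h.symm
    have h2 : w = fu f w := by
      apply Units.ext
      have h3 := congrArg Units.val h1
      rw [Units.val_pow_eq_pow_val, Units.val_pow_eq_pow_val] at h3
      have h4 : ((w : K) + (fu f w : K)) ^ 2 = 0 := by
        have : ((w : K) + (fu f w : K)) ^ 2 = (w : K) ^ 2 + (fu f w : K) ^ 2 := add_pow_char _ _ 2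
        rw [this, h3, add_self]
      have h5 := eq_zero_of_pow_eq_zero h4
      have := eq_neg_of_add_eq_zero_left h5
      rw [this, neg_self]
    have h3 := fu2 hf hK w
    rw [← h2, ← h2] at h3
    apply hw
    rw [pow_two] at h3
    exact mul_eq_left.1 h3
  have hne : (χ : K) + 1 ≠ 0 := by
    intro h
    apply hχ1
    apply Units.ext
    have := eq_neg_of_add_eq_zero_left h
    rw [this, neg_self]; rfl
  -- the commutator
  set t0 := t / ((χ : K) + 1) with ht0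
  have hmem : ⁅hT f w, uW f t0 0⁆ ∈ ⁅twistedF4 K (2 ^ m), twistedF4 K (2 ^ m)⁆ :=
    Subgroup.commutator_mem_commutator (hT_mem hf hK w) (uW_mem hf _ _)
  have hc : hT f w * uW f t0 0 * (hT f w)⁻¹ ∈ good3_F4.Um (orb 1) ⊓ (S f).Fx := by
    have h1 := good3_F4.hd_mem (F := K) (r := 27) (by decide) (fu f w)
    have h2 := good3_F4.hd_mem (F := K) (r := 25) (by decide) w
    exact ⟨good3_F4.Um_H (Subgroup.mul_mem _ h1 h2) (Wp_Um _ _ _ _),
      Subgroup.mul_mem _ (Subgroup.mul_mem _ (hE hf hK (hT_mem hf hK w)) (uW_Fx hf hK _ _)) (Subgroup.inv_mem _ (hE hf hK (hT_mem hf hK w)))⟩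
  obtain ⟨t1, u1, e1⟩ := Um_Fx hf hK hc
  have hc2 : ⁅hT f w, uW f t0 0⁆ ∈ good3_F4.Um (orb 1) ⊓ (S f).Fx := by
    rw [commutatorElement_def]
    exact Subgroup.mul_mem _ hc (Subgroup.inv_mem _ ⟨Wp_Um _ _ _ _, uW_Fx hf hK _ _⟩)
  obtain ⟨t2, u2, e2⟩ := Um_Fx hf hK hc2
  -- the first coordinate
  have h1 : t1 = (χ : K) * t0 := by
    have h := e1
    unfold uW Wp B2R.W at h
    have e : hT f w * (X 27 (f t0) * X 25 t0 * (X 28 (t0 * f t0 + 0) * X 30 (f 0 ^ 2))) * (hT f w)⁻¹ =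
      (hT f w * X 27 (f t0) * (hT f w)⁻¹) * (hT f w * X 25 t0 * (hT f w)⁻¹) * ((hT f w * X 28 (t0 * f t0 + 0) * (hT f w)⁻¹) * (hT f w * X 30 (f 0 ^ 2) * (hT f w)⁻¹)) := by group
    rw [e, hT_X w (by decide), hT_X w (by decide), hT_X w (by decide), hT_X w (by decide), p3, p4] at h
    have h' := (Wp_inj h).2.1
    rw [← h']
  have h2 : t2 = t := by
    have h3 : uW f t2 u2 * uW f t0 0 = uW f t1 u1 := by
      rw [← e2, ← e1, commutatorElement_def]; group
    have h4 := Wp_tcoord h3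
    rw [h1] at h4
    -- χ t0 = t2 + t0
    have h5 : t2 = (χ : K) * t0 + t0 := by
      rw [h4, add_assoc, add_self, add_zero]
    rw [h5, ht0]
    field_simp
  subst h2
  rw [e2] at hmem
  have h6 : uW f t2 u = uW f t2 u2 * uW f 0 (u + u2) := by
    unfold uW Wp
    rw [posB.W_mul hp2', map_zero, add_zero, add_zero]
    congr 1
    · have := add_self u2
      linear_combination (-1 : K) * this
    · rw [map_add]
      have h7 : (f u + f u2) ^ 2 = f u ^ 2 + f u2 ^ 2 := add_pow_char _ _ 2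
      rw [h7]
      have := add_self (f u2 ^ 2)
      linear_combination (-1 : K) * this
  rw [h6]
  exact Subgroup.mul_mem _ hmem (z_mem hf hK hm _)

include hf hK in
theorem hpos (hm : 1 ≤ m) : ∀ k < 2, good3_F4.Um (orb k) ⊓ (S f).Fx ≤ ⁅twistedF4 K (2 ^ m), twistedF4 K (2 ^ m)⁆ := by
  obtain ⟨c, hc⟩ := exists_pow_ne_one K (n := 2) two_pos (by
    rw [hK]
    have : 2 ^ 3 ≤ 2 ^ (2 * m + 1) := Nat.pow_le_pow_right (by norm_num) (by omega)
    omega)
  have hcv : (c : K) ^ 2 ≠ 1 := by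
    intro h; apply hc; apply Units.ext; rw [Units.val_pow_eq_pow_val, h]; rfl
  have hfc : (f (c : K)) ^ 2 ≠ 1 := by
    rw [← map_pow]
    intro h
    apply hcv
    apply f.injective
    rw [h, map_one]
  apply cases2
  · rw [orb0]
    refine (S f).orth_perf (O0 f) (p0 hf hK) (m0 hf hK) pr0 (c := fun i => if i = 0 then fu f c else c) ?_ ?_
    · exact (Cp0 hf hK).2 rfl
    · intro i hi
      simp only [List.mem_cons, List.not_mem_nil, or_false] at hi
      rcases hi with rfl | rfl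
      · exact hfc
      · exact hcv
  · intro x hx
    obtain ⟨t, u, rfl⟩ := Um_Fx hf hK hx
    exact uW_DG hf hK hm t u

include hf hK in
theorem perf (hm : 1 ≤ m) : commutator ↥(twistedF4 K (2 ^ m)) = ⊤ := by
  refine (R hf hK).toTwR.perf_gen (hpos hf hK hm) rfl ?_
  rintro w (⟨t, rfl | rfl⟩ | ⟨t, u, rfl | rfl⟩)
  · refine ⟨0, by decide, Or.inl ?_⟩
    have : good3_F4.wd (f4PairWord (2 ^ m) f4p1 f4p4 t) = X 33 (f t) * X 24 t := by simp [Good3.wd, f4PairWord, f4p1, f4p4, hf]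
    rw [this]
    exact Subgroup.mul_mem _ (X_um (by decide) _) (X_um (by decide) _)
  · refine ⟨0, by decide, Or.inr ?_⟩
    have : good3_F4.wd (f4PairWord (2 ^ m) f4m1 f4m4 t) = X 14 (f t) * X 23 t := by simp [Good3.wd, f4PairWord, f4m1, f4m4, hf]
    rw [this]
    exact Subgroup.mul_mem _ (X_vm (by decide) _) (X_vm (by decide) _)
  · refine ⟨1, by decide, Or.inl ?_⟩
    rw [← uW_eq hf]
    exact Wp_Um _ _ _ _
  · refine ⟨1, by decide, Or.inr ?_⟩
    rw [← vW_eq hf]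
    exact Subgroup.mul_mem _ (Subgroup.mul_mem _ (X_vm (by decide) _) (X_vm (by decide) _)) (Subgroup.mul_mem _ (X_vm (by decide) _) (X_vm (by decide) _))

theorem nc : ∃ r : Fin 48, wact tF4 (orb 0 ++ orb 1) r ≠ wact tF4 (orb 1 ++ orb 0) r := by decide +kernel

include hf hK in
theorem simple (hm : 1 ≤ m) : IsSimpleGroup ↥(twistedF4 K (2 ^ m)) ∧ ¬ IsMulCommutative ↥(twistedF4 K (2 ^ m)) := by
  have RR := R hf hK
  refine RR.simple_of_perf (perf hf hK hm) (by decide) ?_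
  intro k hk h
  have hk0 : k = 0 := by omega
  subst hk0
  obtain ⟨r, hr⟩ := nc
  have h1 := (S f).VW_orb RR.O (show 0 < 2 by omega)
  have h2 := (S f).VW_orb RR.O (show 1 < 2 by omega)
  rw [← Good3.pw_append, ← Good3.pw_append] at h
  apply hr
  have := congrArg (fun τ : Equiv.Perm (Fin tF4.n) => ((τ r : Fin tF4.n) : ℕ)) h
  have e1 := good3_F4.pw_val (good3_F4.VW_append h1 h2) r
  have e2 := good3_F4.pw_val (good3_F4.VW_append h2 h1) r
  exact e1.symm.trans (this.trans e2)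

end
end CfsgLib.Chev.TwF4
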