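import Mathlib
import Cfsg.Agent.LibBGCop
import Cfsg.Agent.LibAxB9
import Cfsg.Agent.LibFus21Sat

/-! A `p`-group generated by each of two sets `C`, `D` of elements, acting on a `p'`-group
such that `⟨c^x, d⟩` is always a `p`-group: the action is trivial (`p` odd). -/

set_option autoImplicit false
open Subgroup
open scoped commutatorElement

namespace Cfsg.Agent.LibTwoGen

section core
universe u
variable {V : Type u} [Group V]

/-- fixed points of an automorphism -/
def fx (a : MulAut V) : Subgroup V where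
  carrier := {v | a v = v}
  mul_mem' := by
    intro x y hx hy
    simp only [Set.mem_setOf_eq] at *
    rw [map_mul, hx, hy]
  one_mem' := map_one a
  inv_mem' := by
    intro x hx
    simp only [Set.mem_setOf_eq] at *
    rw [map_inv, hx]

theorem mem_fx {a : MulAut V} {v : V} : v ∈ fx a ↔ a v = v := Iff.rfl

theorem fx_fpf {Q : Subgroup (MulAut V)}
    (hirr : ∀ W : Subgroup V, (∀ q ∈ Q, ∀ v ∈ W, q v ∈ W) → W = ⊥ ∨ W = ⊤)
    {z : MulAut V} (hz : ∀ q ∈ Q, q * z = z * q) (h1 : z ≠ 1) : fx z = ⊥ := by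
  rcases hirr (fx z) (by
    intro q hq v hv
    rw [mem_fx] at hv ⊢
    have := hz q hq
    rw [← MulAut.mul_apply, ← this, MulAut.mul_apply, hv]) with h | h
  · exact h
  · exfalso
    apply h1
    ext v
    have : v ∈ fx z := by rw [h]; exact mem_top v
    exact this

theorem fx_small [Finite V] [Nontrivial V] (hcomm : ∀ a b : V, a * b = b * a) {e c z : MulAut V}
    (hec : e * c = z * c * e) (hzc : z * c = c * z) (hze : z * e = e * z)
    (h1 : fx z = ⊥) (h2 : fx (z * z) = ⊥) :
    Nat.card (fx c) * Nat.card (fx c) < Nat.card V := by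
  have hfz : ∀ v, z v = v → v = 1 := fun v hv => by
    have : v ∈ fx z := hv
    rwa [h1, mem_bot] at this
  have hfzz : ∀ v, z (z v) = v → v = 1 := fun v hv => by
    have : v ∈ fx (z * z) := hv
    rwa [h2, mem_bot] at this
  -- the map
  let f : fx c × fx c → V := fun x => x.1 * e x.2
  have he1 : ∀ v ∈ fx c, z (c (e v)) = e v := by
    intro v hv
    have := congrArg (fun t : MulAut V => t v) hec
    simp only [MulAut.mul_apply] at this
    rw [mem_fx.1 hv] at this
    exact this.symm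
  have hzfix : ∀ v ∈ fx c, z v ∈ fx c := by
    intro v hv
    rw [mem_fx] at hv ⊢
    rw [← MulAut.mul_apply, ← hzc, MulAut.mul_apply, hv]
  have hci : ∀ v ∈ fx c, c (e v) = z⁻¹ (e v) := by
    intro v hv
    apply z.injective
    rw [he1 v hv, MulAut.apply_inv_self]
  have hze' : ∀ v, z (e v) = e (z v) := fun v => by
    rw [← MulAut.mul_apply, hze, MulAut.mul_apply]
  have hzi : ∀ v, z⁻¹ (e v) = e (z⁻¹ v) := fun v => by
    apply z.injective
    rw [hze']
    simp
  have hzcf : ∀ v, z (c v) = c (z v) := fun v => by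
    rw [← MulAut.mul_apply, hzc, MulAut.mul_apply]
  have hinj : Function.Injective f := by
    have key : ∀ v ∈ fx c, e v ∈ fx c → v = 1 := by
      intro v hv hev
      have h3 := he1 v hv
      rw [mem_fx.1 hev] at h3
      have := hfz _ h3
      exact (map_eq_one_iff e e.injective).1 this
    rintro ⟨a, b⟩ ⟨a', b'⟩ hab
    simp only [f] at hab
    have h3 : ((a' : V)⁻¹ * a : V) = e (b' * (b : V)⁻¹) := by
      rw [map_mul, map_inv, inv_mul_eq_iff_eq_mul, ← mul_assoc, ← hab, mul_inv_cancel_right]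
    have h4 := key (b' * (b : V)⁻¹) (mul_mem b'.2 (inv_mem b.2)) (by
      rw [← h3]; exact mul_mem (inv_mem a'.2) a.2)
    rw [h4, map_one] at h3
    have h5 : (b' : V) = b := by rwa [mul_inv_eq_one] at h4
    have h6 : (a' : V) = a := by rwa [inv_mul_eq_one] at h3
    exact Prod.ext (Subtype.ext h6.symm) (Subtype.ext h5.symm)
  have hle : Nat.card (fx c) * Nat.card (fx c) ≤ Nat.card V := by
    rw [← Nat.card_prod]
    exact Nat.card_le_card_of_injective f hinj
  refine lt_of_le_of_ne hle fun heq => ?_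
  have hbij : Function.Bijective f := (Nat.bijective_iff_injective_and_card f).2
    ⟨hinj, by rw [Nat.card_prod]; exact heq⟩
  -- `fx c` is trivial
  have htriv : fx c = ⊥ := by
    rw [eq_bot_iff]
    intro v hv
    rw [mem_bot]
    -- w = e (e v)
    obtain ⟨⟨a, b⟩, hab⟩ := hbij.2 (e (e v))
    simp only [f] at hab
    -- apply c
    have h3 : z (z (c (e (e v)))) = e (e v) := by
      have h4 : c (e (e v)) = z⁻¹ (e (c (e v))) := by
        have := congrArg (fun t : MulAut V => t (e v)) hec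
        simp only [MulAut.mul_apply] at this
        rw [this]
        simp
      rw [h4, hci v hv, MulAut.apply_inv_self, hze', MulAut.apply_inv_self]
    rw [← hab] at h3
    rw [map_mul, mem_fx.1 a.2, hci b b.2, map_mul, map_mul, MulAut.apply_inv_self] at h3
    -- z z a * z (e b) = a * e b
    rw [hze'] at h3
    have h5 : f (⟨z (z a), hzfix _ (hzfix _ a.2)⟩, ⟨z b, hzfix _ b.2⟩) = f (a, b) := h3
    have h6 := hinj h5
    have h7 : z (z a) = a := congrArg (fun t : fx c × fx c => (t.1 : V)) h6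
    have h8 : z b = b := congrArg (fun t : fx c × fx c => (t.2 : V)) h6
    have h9 := hfzz _ h7
    have h10 := hfz _ h8
    rw [h9, h10, map_one, one_mul] at hab
    have h11 := (map_eq_one_iff e e.injective).1 hab.symm
    exact (map_eq_one_iff e e.injective).1 h11
  rw [htriv] at heq
  have : 1 < Nat.card V := Finite.one_lt_card
  simp at heq
  omega

theorem exists_second {p : ℕ} [Fact p.Prime] {Q : Type*} [Group Q] [Finite Q] (hQ : IsPGroup p Q)
    (hnc : ¬ ∀ a b : Q, a * b = b * a) :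
    ∃ e : Q, e ∉ center Q ∧ ∀ q : Q, ⁅e, q⁆ ∈ center Q := by
  have hne : center Q ≠ ⊤ := by
    intro h
    apply hnc
    intro a b
    have : a ∈ center Q := by rw [h]; exact mem_top a
    exact (mem_center_iff.1 this b).symm
  haveI : Nontrivial (Q ⧸ center Q) := by
    by_contra hn
    rw [not_nontrivial_iff_subsingleton] at hn
    exact hne (QuotientGroup.subsingleton_iff.1 hn)
  haveI := (hQ.to_quotient (center Q)).center_nontrivial
  obtain ⟨⟨x, hx⟩, hx1⟩ := exists_ne (1 : center (Q ⧸ center Q))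
  obtain ⟨e, rfl⟩ := QuotientGroup.mk_surjective x
  refine ⟨e, fun he => hx1 ?_, fun q => ?_⟩
  · apply Subtype.ext
    exact (QuotientGroup.eq_one_iff e).2 he
  · rw [← QuotientGroup.eq_one_iff]
    have := mem_center_iff.1 hx (q : Q ⧸ center Q)
    rw [commutatorElement_def]
    have h2 : ((e * q * e⁻¹ * q⁻¹ : Q) : Q ⧸ center Q) =
      (e : Q ⧸ center Q) * (q : Q ⧸ center Q) * (e : Q ⧸ center Q)⁻¹ * (q : Q ⧸ center Q)⁻¹ := rfl
    rw [h2, ← this]
    group

theorem core {p : ℕ} [hp : Fact p.Prime] (hp3 : 3 ≤ p) [Finite V] (hcomm : ∀ a b : V, a * b = b * a)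
    (Q : Subgroup (MulAut V)) (hQ : IsPGroup p Q) (C D : Set (MulAut V))
    (hC : closure C = Q) (hD : closure D = Q)
    (hirr : ∀ W : Subgroup V, (∀ q ∈ Q, ∀ v ∈ W, q v ∈ W) → W = ⊥ ∨ W = ⊤)
    (hF : ∀ v : V, ∀ c ∈ C, ∀ d ∈ D, ∃ y n : V, v = y * n ∧ d y = y ∧ c n = n) : Q = ⊥ := by
  by_contra hne
  haveI : Nontrivial V := by
    by_contra hn
    rw [not_nontrivial_iff_subsingleton] at hn
    apply hne
    rw [eq_bot_iff]
    intro q _
    rw [mem_bot]
    ext v
    exact Subsingleton.elim _ _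
  have hgen : ∀ (E : Set (MulAut V)), closure E = Q → ∀ e ∈ Q, (∃ q ∈ Q, q * e ≠ e * q) →
      ∃ c ∈ E, c * e ≠ e * c := by
    intro E hE e he ⟨q, hq, hqe⟩
    by_contra hcon
    push Not at hcon
    apply hqe
    clear hqe
    rw [← hE] at hq
    change Commute q e
    induction hq using closure_induction with
    | mem x hx => exact hcon x hx
    | one => exact Commute.one_left e
    | mul x y _ _ hx hy => exact Commute.mul_left hx hy
    | inv x _ hx => exact Commute.inv_left hx
  by_cases hab : ∀ a b : Q, a * b = b * a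
  · have hne1 : ∀ (E : Set (MulAut V)), closure E = Q → ∃ c ∈ E, c ≠ 1 := by
      intro E hE
      by_contra hcon
      push Not at hcon
      apply hne
      rw [← hE, closure_eq_bot_iff]
      intro c hc
      exact hcon c hc
    obtain ⟨c, hc, hc1⟩ := hne1 C hC
    obtain ⟨d, hd, hd1⟩ := hne1 D hD
    have hcQ : c ∈ Q := hC ▸ subset_closure hc
    have hdQ : d ∈ Q := hD ▸ subset_closure hd
    have hfc : fx c = ⊥ := fx_fpf hirr (fun q hq => congrArg Subtype.val (hab ⟨q, hq⟩ ⟨c, hcQ⟩)) hc1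
    have hfd : fx d = ⊥ := fx_fpf hirr (fun q hq => congrArg Subtype.val (hab ⟨q, hq⟩ ⟨d, hdQ⟩)) hd1
    obtain ⟨v, hv⟩ := exists_ne (1 : V)
    obtain ⟨y, n, rfl, hy, hn⟩ := hF v c hc d hd
    have h1 : y ∈ fx d := hy
    have h2 : n ∈ fx c := hn
    rw [hfd, mem_bot] at h1
    rw [hfc, mem_bot] at h2
    apply hv
    rw [h1, h2, one_mul]
  · obtain ⟨e, he, hez⟩ := exists_second hQ hab
    have hqe : ∃ q ∈ Q, q * (e : MulAut V) ≠ e * q := by
      by_contra hcon
      push Not at hcon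
      apply he
      rw [mem_center_iff]
      intro q
      exact Subtype.ext (hcon q q.2)
    have hsmall : ∀ (E : Set (MulAut V)), closure E = Q →
        ∃ c ∈ E, Nat.card (fx c) * Nat.card (fx c) < Nat.card V := by
      intro E hE
      obtain ⟨c, hc, hce⟩ := hgen E hE e e.2 hqe
      have hcQ : c ∈ Q := hE ▸ subset_closure hc
      set z : MulAut V := ((⁅e, ⟨c, hcQ⟩⁆ : Q) : MulAut V) with hz
      have hzQ : z ∈ Q := (⁅e, ⟨c, hcQ⟩⁆ : Q).2
      have hzc : ∀ q ∈ Q, q * z = z * q := fun q hq =>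
        congrArg Subtype.val (mem_center_iff.1 (hez ⟨c, hcQ⟩) ⟨q, hq⟩)
      have hzdef : z = e * c * (e : MulAut V)⁻¹ * c⁻¹ := rfl
      have hz1 : z ≠ 1 := by
        intro h
        apply hce
        rw [hzdef, mul_inv_eq_one, mul_inv_eq_iff_eq_mul] at h
        exact h.symm
      have hz2 : z * z ≠ 1 := by
        intro h
        apply hz1
        obtain ⟨k, hk⟩ := IsPGroup.iff_orderOf.1 hQ ⟨z, hzQ⟩
        rw [orderOf_mk] at hk
        have h3 : orderOf z ∣ 2 := orderOf_dvd_of_pow_eq_one (by rw [pow_two]; exact h)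
        rw [hk] at h3
        have h4 : k = 0 := by
          by_contra hk0
          have h5 : p ∣ 2 := (dvd_pow_self p hk0).trans h3
          have := Nat.le_of_dvd (by norm_num) h5
          omega
        rw [h4, pow_zero] at hk
        exact orderOf_eq_one_iff.1 hk
      refine ⟨c, hc, fx_small hcomm (e := e) (z := z) ?_ (hzc c hcQ).symm (hzc e e.2).symm
        (fx_fpf hirr hzc hz1) (fx_fpf hirr (fun q hq => ?_) hz2)⟩
      · rw [hzdef]; group
      · rw [← mul_assoc, hzc q hq, mul_assoc, hzc q hq, mul_assoc]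
    obtain ⟨c, hc, hc'⟩ := hsmall C hC
    obtain ⟨d, hd, hd'⟩ := hsmall D hD
    have hsurj : Nat.card V ≤ Nat.card (fx d) * Nat.card (fx c) := by
      rw [← Nat.card_prod]
      refine Nat.card_le_card_of_surjective (fun x : fx d × fx c => (x.1 : V) * x.2) ?_
      intro v
      obtain ⟨y, n, hv, hy, hn⟩ := hF v c hc d hd
      exact ⟨(⟨y, hy⟩, ⟨n, hn⟩), hv.symm⟩
    have h1 : Nat.card V * Nat.card V ≤
        (Nat.card (fx d) * Nat.card (fx d)) * (Nat.card (fx c) * Nat.card (fx c)) := by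
      calc _ ≤ (Nat.card (fx d) * Nat.card (fx c)) * (Nat.card (fx d) * Nat.card (fx c)) :=
            Nat.mul_le_mul hsurj hsurj
        _ = _ := by ring
    have h2 : (Nat.card (fx d) * Nat.card (fx d)) * (Nat.card (fx c) * Nat.card (fx c)) <
        Nat.card V * Nat.card V := Nat.mul_lt_mul'' hd' hc'
    exact absurd (lt_of_le_of_lt h1 h2) (lt_irrefl _)

end core

section red
open Cfsg CfsgLib.BGPi
open scoped CfsgLib.BGPi
universe u
variable {G : Type u} [Group G]

def actR {P R : Subgroup G} (h : P ≤ 𝓝(R)) : P →* MulAut R where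
  toFun g :=
    { toFun := fun x => ⟨g * x * (g : G)⁻¹, le_nz.1 h g g.2 x x.2⟩
      invFun := fun x => ⟨(g : G)⁻¹ * x * g, by
        simpa using le_nz.1 h (g : G)⁻¹ (inv_mem g.2) x x.2⟩
      left_inv := fun x => Subtype.ext (by simp [mul_assoc])
      right_inv := fun x => Subtype.ext (by simp [mul_assoc])
      map_mul' := fun x y => Subtype.ext (by simp) }
  map_one' := by ext x; simp
  map_mul' := by intro a b; ext x; simp [mul_assoc]

theorem actR_apply {P R : Subgroup G} (h : P ≤ 𝓝(R)) (g : P) (x : R) :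
    ((actR h g x : R) : G) = g * x * (g : G)⁻¹ := rfl

theorem actR_map {P R K : Subgroup G} (h : P ≤ 𝓝(R)) (hK : P ≤ 𝓝(K)) (g : P) :
    (K.subgroupOf R).map ((actR h g : R ≃* R) : R →* R) = K.subgroupOf R := by
  ext x
  constructor
  · rintro ⟨y, hy, rfl⟩
    rw [mem_subgroupOf]
    exact le_nz.1 hK g g.2 y (mem_subgroupOf.1 hy)
  · intro hx
    refine ⟨(actR h g).symm x, ?_, (actR h g).apply_symm_apply x⟩
    rw [SetLike.mem_coe, mem_subgroupOf]
    have : (((actR h g).symm x : R) : G) = (g : G)⁻¹ * x * g := rfl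
    rw [this]
    simpa using le_nz.1 hK (g : G)⁻¹ (inv_mem g.2) x (mem_subgroupOf.1 hx)

noncomputable def actV {P R K : Subgroup G} (h : P ≤ 𝓝(R)) (hK : P ≤ 𝓝(K)) [(K.subgroupOf R).Normal] :
    P →* MulAut (R ⧸ K.subgroupOf R) where
  toFun g := QuotientGroup.congr _ _ (actR h g) (actR_map h hK g)
  map_one' := by
    ext x
    obtain ⟨x, rfl⟩ := QuotientGroup.mk_surjective x
    change QuotientGroup.mk (actR h 1 x) = QuotientGroup.mk x
    rw [map_one]
    rfl
  map_mul' := by
    intro a b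
    ext x
    obtain ⟨x, rfl⟩ := QuotientGroup.mk_surjective x
    change QuotientGroup.mk (actR h (a * b) x) = QuotientGroup.mk (actR h a (actR h b x))
    rw [map_mul]
    rfl

theorem actV_mk {P R K : Subgroup G} (h : P ≤ 𝓝(R)) (hK : P ≤ 𝓝(K)) [(K.subgroupOf R).Normal]
    (g : P) (x : R) : actV h hK g (QuotientGroup.mk x) = QuotientGroup.mk (actR h g x) := rfl

theorem closure_pre {P : Subgroup G} {E : Set G} (h : closure E = P) :
    closure ((↑) ⁻¹' E : Set P) = ⊤ := by
  subst h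
  exact closure_closure_coe_preimage

variable [Finite G] {p : ℕ} [hp : Fact p.Prime]

theorem cop_of {P R : Subgroup G} (hP : IsPGroup p P) (hcop : (Nat.card R).Coprime p) :
    (Nat.card P).Coprime (Nat.card R) := by
  obtain ⟨k, hk⟩ := IsPGroup.iff_card.1 hP
  rw [hk]
  exact Nat.Coprime.pow_left k hcop.symm

theorem fac {P R : Subgroup G} (hP : IsPGroup p P) (hPR : P ≤ 𝓝(R))
    (hcop : (Nat.card R).Coprime p) {x c d : G} (hx : x ∈ R) (hc : c ∈ P) (hd : d ∈ P)
    (h : IsPGroup p ↥(closure ({x * c * x⁻¹, d} : Set G))) :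
    ∃ y ∈ R, ∃ n ∈ R, x = y * n ∧ d * y = y * d ∧ c * n = n * c := by
  have hc' := cop_of hP hcop
  have hinf : P ⊓ R = ⊥ := cop_inf hc'
  have hcard : Nat.card ↥(P ⊔ R) = Nat.card P * Nat.card R := card_sup_of_disjoint hPR hinf
  have hidx : ¬ p ∣ P.relIndex (P ⊔ R) := by
    have h1 := card_mul_relIndex (H := P) (K := P ⊔ R) le_sup_left
    rw [hcard] at h1
    have h2 : P.relIndex (P ⊔ R) = Nat.card R := Nat.eq_of_mul_eq_mul_left Nat.card_pos h1
    rw [h2]
    intro h3
    exact hp.out.one_lt.ne' (Nat.Coprime.eq_one_of_dvd hcop.symm h3)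
  have hT : closure ({x * c * x⁻¹, d} : Set G) ≤ P ⊔ R := by
    rw [closure_le]
    rintro t (rfl | rfl)
    · exact mul_mem (mul_mem (mem_sup_right hx) (mem_sup_left hc)) (inv_mem (mem_sup_right hx))
    · exact mem_sup_left hd
  obtain ⟨g, hg, hgT⟩ := CfsgLib.Fus21.exists_conj_le hP hidx hT h
  obtain ⟨a, ha, b, hb, rfl⟩ := (mem_sup_of_nz hPR).1 hg
  have key : ∀ t ∈ closure ({x * c * x⁻¹, d} : Set G), b * t * b⁻¹ ∈ P := by
    intro t ht
    have h1 : (a * b) * t * (a * b)⁻¹ ∈ P := hgT ⟨t, ht, rfl⟩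
    have h2 := mul_mem (mul_mem (inv_mem ha) h1) ha
    convert h2 using 1; group
  have k1 := key _ (subset_closure (Or.inl rfl))
  have k2 := key _ (subset_closure (Or.inr rfl))
  have h3 : ∀ m ∈ R, ∀ q ∈ P, m * q * m⁻¹ ∈ P → q * m = m * q := by
    intro m hm q hq hmq
    have h5 : m * q * m⁻¹ * q⁻¹ ∈ R := by
      have h6 := mul_mem hm (le_nz.1 hPR q hq m⁻¹ (inv_mem hm))
      convert h6 using 1; group
    have h7 : m * q * m⁻¹ * q⁻¹ ∈ P := mul_mem hmq (inv_mem hq)
    have h4 : m * q * m⁻¹ * q⁻¹ ∈ P ⊓ R := mem_inf.2 ⟨h7, h5⟩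
    rw [hinf, mem_bot] at h4
    rw [mul_inv_eq_one, mul_inv_eq_iff_eq_mul] at h4
    exact h4.symm
  refine ⟨b⁻¹, inv_mem hb, b * x, mul_mem hb hx, by group, ?_, ?_⟩
  · have : Commute d b := h3 b hb d hd k2
    exact this.inv_right
  · exact h3 (b * x) (mul_mem hb hx) c hc (by convert k1 using 1; group)

theorem sect (hp3 : 3 ≤ p) {P R K : Subgroup G} (hP : IsPGroup p P) (hPR : P ≤ 𝓝(R)) (hKR : K ≤ R)
    (hPK : P ≤ 𝓝(K)) (hRK : R ≤ 𝓝(K)) (hab : ⁅R, R⁆ ≤ K)
    (hmax : ∀ W, K ≤ W → W ≤ R → P ≤ 𝓝(W) → W = K ∨ W = R)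
    {C D : Set G} (hC : closure C = P) (hD : closure D = P)
    (hF : ∀ x ∈ R, ∀ c ∈ C, ∀ d ∈ D,
      ∃ y ∈ R, ∃ n ∈ R, x = y * n ∧ d * y = y * d ∧ c * n = n * c) : ⁅R, P⁆ ≤ K := by
  haveI hn : (K.subgroupOf R).Normal := (normal_subgroupOf_iff_le_normalizer hKR).2 hRK
  have hact : ∀ (c : P) (n : R), (c : G) * n = n * c → actR hPR c n = n := by
    intro c n h
    apply Subtype.ext
    rw [actR_apply, h, mul_inv_cancel_right]
  have hr : (actV hPR hPK).range = ⊥ := by
    refine core hp3 ?_ _ ?_ (actV hPR hPK '' ((↑) ⁻¹' C)) (actV hPR hPK '' ((↑) ⁻¹' D)) ?_ ?_ ?_ ?_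
    · intro a b
      obtain ⟨a, rfl⟩ := QuotientGroup.mk_surjective a
      obtain ⟨b, rfl⟩ := QuotientGroup.mk_surjective b
      rw [← QuotientGroup.mk_mul, ← QuotientGroup.mk_mul, QuotientGroup.eq, mem_subgroupOf]
      apply hab
      have := commutator_mem_commutator (inv_mem b.2) (inv_mem a.2)
      convert this using 1
      rw [commutatorElement_def]
      push_cast
      group
    · rw [MonoidHom.range_eq_map]
      exact IsPGroup.map (hP.of_equiv topEquiv.symm) _
    · rw [← MonoidHom.map_closure, closure_pre hC, MonoidHom.range_eq_map]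
    · rw [← MonoidHom.map_closure, closure_pre hD, MonoidHom.range_eq_map]
    · intro W hW
      have e1 : K ≤ (W.comap (QuotientGroup.mk' (K.subgroupOf R))).map R.subtype := by
        intro k hk
        refine ⟨⟨k, hKR hk⟩, ?_, rfl⟩
        rw [SetLike.mem_coe, mem_comap]
        have : QuotientGroup.mk' (K.subgroupOf R) ⟨k, hKR hk⟩ = 1 :=
          (QuotientGroup.eq_one_iff _).2 (mem_subgroupOf.2 hk)
        rw [this]
        exact one_mem _
      have e2 : P ≤ 𝓝((W.comap (QuotientGroup.mk' (K.subgroupOf R))).map R.subtype) := by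
        rw [le_nz]
        rintro g hg _ ⟨x, hx, rfl⟩
        refine ⟨actR hPR ⟨g, hg⟩ x, ?_, rfl⟩
        exact hW _ ⟨⟨g, hg⟩, rfl⟩ _ hx
      rcases hmax _ e1 (map_subtype_le _) e2 with h | h
      · left
        rw [eq_bot_iff]
        intro v hv
        obtain ⟨v, rfl⟩ := QuotientGroup.mk_surjective v
        rw [mem_bot, QuotientGroup.eq_one_iff, mem_subgroupOf, ← h]
        exact ⟨v, hv, rfl⟩
      · right
        rw [eq_top_iff]
        intro v _
        obtain ⟨v, rfl⟩ := QuotientGroup.mk_surjective v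
        have h1 : (v : G) ∈ (W.comap (QuotientGroup.mk' (K.subgroupOf R))).map R.subtype := by
          rw [h]; exact v.2
        obtain ⟨w, hw, hwv⟩ := h1
        have : w = v := Subtype.ext hwv
        rw [← this]
        exact hw
    · rintro v _ ⟨c, hc, rfl⟩ _ ⟨d, hd, rfl⟩
      obtain ⟨v, rfl⟩ := QuotientGroup.mk_surjective v
      obtain ⟨y, hy, n, hn', hv, h1, h2⟩ := hF v v.2 c hc d hd
      refine ⟨QuotientGroup.mk ⟨y, hy⟩, QuotientGroup.mk ⟨n, hn'⟩, ?_, ?_, ?_⟩
      · rw [← QuotientGroup.mk_mul]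
        congr 1
        exact Subtype.ext hv
      · rw [actV_mk, hact _ _ h1]
      · rw [actV_mk, hact _ _ h2]
  rw [commutator_le]
  intro x hx g hg
  have h1 : actV hPR hPK ⟨g, hg⟩ = 1 := by
    have : actV hPR hPK ⟨g, hg⟩ ∈ (actV hPR hPK).range := ⟨_, rfl⟩
    rwa [hr, mem_bot] at this
  have h2 : actV hPR hPK ⟨g, hg⟩ (QuotientGroup.mk ⟨x⁻¹, inv_mem hx⟩) =
      QuotientGroup.mk ⟨x⁻¹, inv_mem hx⟩ := by rw [h1]; rfl
  rw [actV_mk] at h2
  have h3 := QuotientGroup.eq.1 h2.symm
  rw [mem_subgroupOf] at h3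
  convert h3 using 1
  rw [commutatorElement_def]
  push_cast
  rw [actR_apply]
  group

theorem main_solv (hp3 : 3 ≤ p) {P : Subgroup G} (hP : IsPGroup p P)
    {C D : Set G} (hC : closure C = P) (hD : closure D = P) :
    ∀ (n : ℕ) (R : Subgroup G), Nat.card R ≤ n → P ≤ 𝓝(R) → (Nat.card R).Coprime p →
      Group.IsSolvable R →
      (∀ x ∈ R, ∀ c ∈ C, ∀ d ∈ D, IsPGroup p ↥(closure ({x * c * x⁻¹, d} : Set G))) →
      ⁅R, P⁆ = ⊥ := by
  intro n
  induction n with
  | zero =>
    intro R h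
    have : 0 < Nat.card R := Nat.card_pos
    omega
  | succ n ih =>
    intro R hn hPR hcop hsolv H
    by_cases hR : R = ⊥
    · rw [hR, commutator_bot_left]
    obtain ⟨K, ⟨hKR, hKne, hPK, hRK⟩, hmax⟩ := Set.Finite.exists_maximal
      (Set.toFinite {K : Subgroup G | K ≤ R ∧ K ≠ R ∧ P ≤ 𝓝(K) ∧ R ≤ 𝓝(K)})
      ⟨⊥, bot_le, Ne.symm hR, by rw [le_nz]; rintro k _ h (rfl : h = 1); simp,
        by rw [le_nz]; rintro k _ h (rfl : h = 1); simp⟩
    have hlt : Nat.card K < Nat.card R := by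
      refine lt_of_le_of_ne (card_le_of_le hKR) fun h => hKne ?_
      exact eq_of_card_le hKR h.ge
    have hsK : Group.IsSolvable K := CfsgLib.Coprime.isSolvable_of_le hKR hsolv
    have hK0 : ⁅K, P⁆ = ⊥ := ih K (by omega) hPK
      (Nat.Coprime.coprime_dvd_left (card_dvd_of_le hKR) hcop) hsK
      (fun x hx => H x (hKR hx))
    have hab : ⁅R, R⁆ ≤ K := by
      have hmem : K ⊔ ⁅R, R⁆ ≤ R := sup_le hKR (comm_le_left le_normalizer)
      by_cases heq : K ⊔ ⁅R, R⁆ = R
      · exfalso
        haveI hnn : (K.subgroupOf R).Normal := (normal_subgroupOf_iff_le_normalizer hKR).2 hRK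
        haveI : Nontrivial (R ⧸ K.subgroupOf R) := by
          by_contra hcon
          rw [not_nontrivial_iff_subsingleton, QuotientGroup.subsingleton_iff] at hcon
          rw [subgroupOf_eq_top] at hcon
          exact hKne (le_antisymm hKR hcon)
        haveI := hsolv
        have h1 := Group.IsSolvable.commutator_lt_top_of_nontrivial (R ⧸ K.subgroupOf R)
        apply h1.ne
        rw [eq_top_iff]
        intro v _
        obtain ⟨v, rfl⟩ := QuotientGroup.mk_surjective v
        have h2 : (v : G) ∈ K ⊔ ⁅R, R⁆ := by rw [heq]; exact v.2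
        obtain ⟨k, hk, w, hw, hv⟩ := (mem_sup_of_nz' (hRK.trans' (comm_le_left le_normalizer))).1 h2
        have hwR : w ∈ R := comm_le_left le_normalizer hw
        have h3 : v = ⟨k, hKR hk⟩ * ⟨w, hwR⟩ := Subtype.ext hv.symm
        rw [h3, QuotientGroup.mk_mul]
        have h4 : (QuotientGroup.mk (⟨k, hKR hk⟩ : R) : R ⧸ K.subgroupOf R) = 1 :=
          (QuotientGroup.eq_one_iff _).2 (mem_subgroupOf.2 hk)
        rw [h4, one_mul]
        have h5 : (⟨w, hwR⟩ : R) ∈ commutator R := by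
          have h6 : (commutator R).map R.subtype = ⁅R, R⁆ := by
            rw [_root_.commutator_def, map_commutator, ← MonoidHom.range_eq_map, range_subtype]
          rw [← h6] at hw
          obtain ⟨w', hw', hww⟩ := hw
          have : w' = ⟨w, hwR⟩ := Subtype.ext hww
          rwa [← this]
        have h7 : (commutator R).map (QuotientGroup.mk' (K.subgroupOf R)) ≤
            commutator (R ⧸ K.subgroupOf R) := by
          rw [_root_.commutator_def, map_commutator]
          exact commutator_mono le_top le_top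
        exact h7 ⟨_, h5, rfl⟩
      · have := hmax ⟨hmem, heq, le_nz_sup hPK (le_nz_comm hPR hPR),
          le_nz_sup hRK (le_nz_comm le_normalizer le_normalizer)⟩ le_sup_left
        exact le_sup_right.trans this
    have h1 : ⁅R, P⁆ ≤ K := by
      refine sect hp3 hP hPR hKR hPK hRK hab ?_ hC hD ?_
      · intro W hKW hWR hPW
        by_cases hW : W = R
        · exact Or.inr hW
        · left
          refine le_antisymm (hmax ⟨hWR, hW, hPW, ?_⟩ hKW) hKW
          apply le_nz_of_comm_le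
          rw [commutator_comm]
          exact (commutator_mono le_rfl hWR).trans (hab.trans hKW)
      · intro x hx c hc d hd
        exact fac hP hPR hcop hx (hC ▸ subset_closure hc) (hD ▸ subset_closure hd) (H x hx c hc d hd)
    rw [← cop_comm_comm hPR (cop_of hP hcop) hsolv, eq_bot_iff, ← hK0]
    exact commutator_mono h1 le_rfl

theorem main (hp3 : 3 ≤ p) {P N : Subgroup G} (hP : IsPGroup p P)
    {C D : Set G} (hC : closure C = P) (hD : closure D = P) (hPN : P ≤ 𝓝(N))
    (hcop : (Nat.card N).Coprime p)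
    (H : ∀ x ∈ N, ∀ c ∈ C, ∀ d ∈ D, IsPGroup p ↥(closure ({x * c * x⁻¹, d} : Set G))) :
    ⁅P, N⁆ = ⊥ := by
  have hc' := cop_of hP hcop
  have hPs : Group.IsSolvable P := solvable_of_isPGroup hp.out hP
  have hdvd : Nat.card N ∣ Nat.card ↥(N ⊓ 𝓒(P)) := by
    rw [Nat.dvd_iff_prime_pow_dvd_dvd]
    intro r k hr hk
    haveI : Fact r.Prime := ⟨hr⟩
    obtain ⟨S, hS⟩ := CfsgLib.Coprime.exists_invariant_sylow hPN hc' (Or.inl hPs) r
    have hSN : (S : Subgroup N).map N.subtype ≤ N := map_subtype_le _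
    have hSr : IsPGroup r ↥((S : Subgroup N).map N.subtype) := S.isPGroup'.map _
    have h1 := main_solv hp3 hP hC hD _ _ le_rfl hS
      (Nat.Coprime.coprime_dvd_left (card_dvd_of_le hSN) hcop) (solvable_of_isPGroup hr hSr)
      (fun x hx => H x (hSN hx))
    have h2 : (S : Subgroup N).map N.subtype ≤ N ⊓ 𝓒(P) := le_inf hSN (comm_eq_bot_iff.1 h1)
    refine dvd_trans ?_ (card_dvd_of_le h2)
    rw [card_map_of_injective N.subtype_injective, S.card_eq_multiplicity]
    exact pow_dvd_pow _ ((hr.pow_dvd_iff_le_factorization Nat.card_pos.ne').1 hk)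
  have h3 : N ⊓ 𝓒(P) = N := eq_of_card_le inf_le_left (Nat.le_of_dvd Nat.card_pos hdvd)
  rw [commutator_comm, comm_eq_bot_iff]
  exact inf_eq_left.1 h3

end red

end Cfsg.Agent.LibTwoGen
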