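import Mathlib
import Cfsg.Agent.LibSLn6

/-! Explicit generators of `SL_{n+1}` (seat helper13). -/

namespace CfsgLib.TwoGen

open Matrix Cfsg.Agent.H22 CfsgLib.SLn

variable {n : ℕ} {K : Type*} [Field K]

theorem succ_ne (hn : 1 ≤ n) (i : Fin (n + 1)) : i ≠ i + 1 := by
  obtain ⟨m, rfl⟩ : ∃ m, n = m + 1 := ⟨n - 1, by omega⟩
  intro h
  have h1 : (1 : Fin (m + 1 + 1)) = 0 := by
    have := congrArg (fun x => x - i) h
    simpa using this.symm
  exact one_ne_zero h1

/-- the sign -/
def sg (K : Type*) [Field K] (n : ℕ) (i : Fin (n + 1)) : K := if i.val = n then (-1) ^ n else 1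

theorem sg_sq (i : Fin (n + 1)) : sg K n i * sg K n i = 1 := by
  unfold sg
  split_ifs
  · rw [← mul_pow]; simp
  · rw [one_mul]

theorem w_eq (hn : 1 ≤ n) : (Matrix.of (fun i j : Fin (n + 1) => if j.val = i.val + 1 then (1 : K) else if i.val = n ∧ j.val = 0 then (-1) ^ n else 0)) =
    Matrix.of (fun i j => if j = i + 1 then sg K n i else 0) := by
  ext i j
  simp only [Matrix.of_apply, sg]
  have hi := i.2
  have hj := j.2
  by_cases h : i.val = n
  · have h1 : i + 1 = 0 := by
      have : i = Fin.last n := Fin.ext h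
      rw [this]; exact Fin.last_add_one n
    rw [h1, if_neg (by omega), if_pos h]
    by_cases h2 : j.val = 0
    · rw [if_pos ⟨h, h2⟩, if_pos (Fin.ext h2)]
    · rw [if_neg (fun hh => h2 hh.2), if_neg (fun hh => h2 (by rw [hh]; rfl))]
  · have h1 : (i + 1).val = i.val + 1 := Fin.val_add_one_of_lt (Fin.lt_last_iff_ne_last.2 (fun hh => h (by rw [hh]; rfl)))
    rw [if_neg h]
    by_cases h2 : j.val = i.val + 1
    · rw [if_pos h2, if_pos (Fin.ext (h2.trans h1.symm))]
    · rw [if_neg h2, if_neg (fun hh => h hh.1), if_neg (fun hh => h2 (by rw [hh, h1]))]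

theorem w_conj {w : SpecialLinearGroup (Fin (n + 1)) K} (hw : (w : Matrix (Fin (n + 1)) (Fin (n + 1)) K) = Matrix.of (fun i j => if j = i + 1 then sg K n i else 0))
    {i j : Fin (n + 1)} (h : i + 1 ≠ j + 1) (h' : i ≠ j) (a : K) :
    w * TT h a = TT h' (sg K n i * sg K n j * a) * w := by
  apply Subtype.ext
  have e1 : (w * TT h a).1 = w.1 * (TT h a).1 := rfl
  have e2 : (TT h' (sg K n i * sg K n j * a) * w).1 = (TT h' (sg K n i * sg K n j * a)).1 * w.1 := rfl
  rw [e1, e2, TT_coe, TT_coe, transvection, transvection, mul_add, add_mul, mul_one, one_mul]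
  congr 1
  change (w : Matrix (Fin (n + 1)) (Fin (n + 1)) K) * _ = _ * (w : Matrix (Fin (n + 1)) (Fin (n + 1)) K)
  rw [hw]
  ext r c
  by_cases hr : r = i
  · subst hr
    by_cases hc : c = j + 1
    · subst hc
      rw [Matrix.mul_single_apply_same, Matrix.single_mul_apply_same]
      simp only [Matrix.of_apply, if_true]
      have := sg_sq (K := K) j
      linear_combination (-(sg K n r) * a) * this
    · rw [Matrix.mul_single_apply_of_ne (hbj := hc), Matrix.single_mul_apply_same]
      simp only [Matrix.of_apply, if_neg hc, mul_zero]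
  · rw [Matrix.single_mul_apply_of_ne (h := hr)]
    by_cases hc : c = j + 1
    · subst hc
      rw [Matrix.mul_single_apply_same]
      simp only [Matrix.of_apply]
      rw [if_neg (fun hh => hr (add_right_cancel hh).symm), zero_mul]
    · rw [Matrix.mul_single_apply_of_ne (hbj := hc)]

/-- the generation lemma -/
theorem gen (hn : 1 ≤ n) {H : Subgroup (SpecialLinearGroup (Fin (n + 1)) K)} {w : SpecialLinearGroup (Fin (n + 1)) K}
    (hw : (w : Matrix (Fin (n + 1)) (Fin (n + 1)) K) = Matrix.of (fun i j => if j = i + 1 then sg K n i else 0)) (hwH : w ∈ H)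
    (h01 : ∀ a, TT (succ_ne hn 0) a ∈ H) : H = ⊤ := by
  classical
  have hval : ∀ x : Fin (n + 1), x + 1 ≠ 0 → (x + 1).val = x.val + 1 := by
    intro x hx
    apply Fin.val_add_one_of_lt
    rw [Fin.lt_last_iff_ne_last]
    rintro rfl
    exact hx (Fin.last_add_one n)
  have hadj : ∀ k : ℕ, ∀ i : Fin (n + 1), i.val = k → ∀ a, TT (succ_ne hn i) a ∈ H := by
    intro k
    induction k with
    | zero =>
      intro i hi a
      have hi0 : i = 0 := Fin.ext hi
      subst hi0
      exact h01 a
    | succ k ih =>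
      intro i hi a
      obtain ⟨x, rfl⟩ : ∃ x, i = x + 1 := ⟨i - 1, by abel⟩
      have hx0 : x + 1 ≠ 0 := fun hh => by rw [hh] at hi; simp at hi
      have hxk : x.val = k := by have := hval x hx0; omega
      have h1 : x + 1 ≠ (x + 1) + 1 := succ_ne hn _
      have h2 := w_conj hw h1 (succ_ne hn x) a
      have h3 : TT h1 a = w⁻¹ * (TT (succ_ne hn x) (sg K n x * sg K n (x + 1) * a)) * w := by
        rw [mul_assoc, ← h2, inv_mul_cancel_left]
      have h4 : TT h1 a ∈ H := by
        rw [h3]
        exact H.mul_mem (H.mul_mem (H.inv_mem hwH) (ih x hxk _)) hwH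
      exact h4
  have hall : ∀ k : ℕ, ∀ i j : Fin (n + 1), (j - i).val = k + 1 → ∀ (h : i ≠ j), ∀ a, TT h a ∈ H := by
    intro k
    induction k with
    | zero =>
      intro i j hij h a
      have hji : j - i = 1 := by
        apply Fin.ext
        rw [hij]
        obtain ⟨m, rfl⟩ : ∃ m, n = m + 1 := ⟨n - 1, by omega⟩
        rfl
      have hj : j = i + 1 := by rw [← hji]; abel
      subst hj
      exact hadj _ i rfl a
    | succ k ih =>
      intro i j hij h a
      obtain ⟨y, rfl⟩ : ∃ y, j = y + 1 := ⟨j - 1, by abel⟩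
      have e1 : y + 1 - i = (y - i) + 1 := by abel
      rw [e1] at hij
      have hne0 : (y - i) + 1 ≠ 0 := fun hh => by rw [hh] at hij; simp at hij
      have hy : (y - i).val = k + 1 := by have := hval _ hne0; omega
      have h1 : i ≠ y := by
        rintro rfl
        rw [sub_self] at hy
        simp at hy
      have h2 := ih i y hy h1 a
      have h3 := hadj _ y rfl 1
      have h4 := transvection_commutator h1 (succ_ne hn y) h a 1
      rw [mul_one, commutatorElement_def] at h4
      change SpecialLinearGroup.transvection h a ∈ H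
      rw [← h4]
      exact H.mul_mem (H.mul_mem (H.mul_mem h2 h3) (H.inv_mem h2)) (H.inv_mem h3)
  rw [eq_top_iff, ← TT_gen (n := n + 1) (K := K) (by omega), Subgroup.closure_le]
  rintro _ ⟨i, j, h, a, rfl⟩
  have hne : j - i ≠ 0 := fun hh => h (sub_eq_zero.1 hh).symm
  have hv : (j - i).val ≠ 0 := fun hh => hne (Fin.ext hh)
  exact hall ((j - i).val - 1) i j (by omega) h a

end CfsgLib.TwoGen
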