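import Cfsg.Agent.EqBase
import Cfsg.Agent.LibF4c
import Cfsg.Agent.LibH22Un4
set_option autoImplicit false
set_option linter.all false
set_option maxRecDepth 100000

/-! Coded vectors over the field with four elements and unitary transvections. -/

namespace CfsgLib.F4c
open CfsgLib.TC CfsgLib.MC Cfsg Cfsg.Agent.H22 CfsgLib.Un29 Matrix

section
variable (n : ℕ)
/-- the vector with a given code -/
def vec (a : ℕ) : Fin n → F4 := fun i => ι4 (Nat.mod (Nat.div a (Nat.pow 4 i.1)) 4)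

theorem vec_eq (a : ℕ) (i : Fin n) : vec n a i = ι4 (dig 4 a i.1) := rfl

/-- hermitian form on codes -/
noncomputable def hC (m a b : ℕ) : ℕ :=
  Nat.rec (motive := fun _ => ℕ) 0 (fun k ih => add4 ih (mul4 (dig 4 a k) (mul4 (dig 4 b k) (dig 4 b k)))) m

theorem dig4_lt (a t : ℕ) : dig 4 a t < 4 := Nat.mod_lt _ (by norm_num)

theorem hC_spec (m a b : ℕ) : hC m a b < 4 ∧ ι4 (hC m a b) = ∑ k ∈ Finset.range m, ι4 (dig 4 a k) * ι4 (dig 4 b k) ^ 2 := by
  induction m with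
  | zero => exact ⟨by show 0 < 4; norm_num, by rw [Finset.sum_range_zero]; rfl⟩
  | succ m ih =>
    have h1 := cod4.hmul (dig 4 b m) (dig 4 b m) (dig4_lt _ _) (dig4_lt _ _)
    have h2 := cod4.hmul (dig 4 a m) _ (dig4_lt _ _) h1.1
    have h3 := cod4.hadd _ _ ih.1 h2.1
    refine ⟨h3.1, ?_⟩
    rw [Finset.sum_range_succ, ← ih.2]
    have h4 := h3.2
    rw [h2.2, h1.2] at h4
    rw [pow_two]
    exact h4

theorem herm_vec (a b : ℕ) : hermForm n F4 2 (vec n a) (vec n b) = ι4 (hC n a b) := by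
  rw [(hC_spec n a b).2, Finset.sum_range]
  rfl

/-- unitary transvection on codes -/
noncomputable def trC (u a : ℕ) : ℕ := enc 4 (fun k => add4 (dig 4 a k) (mul4 (hC n a u) (dig 4 u k))) n
/-- scaling on codes -/
noncomputable def smC (s a : ℕ) : ℕ := enc 4 (fun k => mul4 s (dig 4 a k)) n

theorem vec_enc {f : ℕ → ℕ} (hf : ∀ t < n, f t < 4) : vec n (enc 4 f n) = fun i => ι4 (f i.1) := by
  funext i
  show ι4 (dig 4 (enc 4 f n) i.1) = _
  rw [dig_enc hf i.2]

theorem vec_trC (u a : ℕ) : vec n (trC n u a) = unitaryTransvection n 2 (vec n u) 1 *ᵥ vec n a := by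
  rw [uTrans_mulVec, herm_vec, one_mul]
  have h1 : ∀ t, mul4 (hC n a u) (dig 4 u t) < 4 ∧ ι4 (mul4 (hC n a u) (dig 4 u t)) = ι4 (hC n a u) * ι4 (dig 4 u t) :=
    fun t => cod4.hmul _ _ (hC_spec n a u).1 (dig4_lt _ _)
  have h2 : ∀ t, add4 (dig 4 a t) (mul4 (hC n a u) (dig 4 u t)) < 4 ∧
      ι4 (add4 (dig 4 a t) (mul4 (hC n a u) (dig 4 u t))) = ι4 (dig 4 a t) + ι4 (mul4 (hC n a u) (dig 4 u t)) :=
    fun t => cod4.hadd _ _ (dig4_lt _ _) (h1 t).1
  unfold trC
  rw [vec_enc n (fun t _ => (h2 t).1)]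
  funext i
  rw [(h2 i.1).2, (h1 i.1).2]
  rfl

theorem vec_smC {s : ℕ} (hs : s < 4) (a : ℕ) : vec n (smC n s a) = ι4 s • vec n a := by
  have h1 : ∀ t, mul4 s (dig 4 a t) < 4 ∧ ι4 (mul4 s (dig 4 a t)) = ι4 s * ι4 (dig 4 a t) :=
    fun t => cod4.hmul _ _ hs (dig4_lt _ _)
  unfold smC
  rw [vec_enc n (fun t _ => (h1 t).1)]
  funext i
  rw [(h1 i.1).2]
  rfl

/-- proportional codes -/
noncomputable def prC (a b : ℕ) : Bool :=
  Bool.rec (motive := fun _ => Bool) (Bool.rec (motive := fun _ => Bool) (Nat.beq a (smC n 3 b)) true (Nat.beq a (smC n 2 b))) true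
    (Nat.beq a (smC n 1 b))

theorem prC_sound {a b : ℕ} (h : prC n a b = true) : ∃ l : F4, l ≠ 0 ∧ vec n a = l • vec n b := by
  have key : ∀ s : ℕ, s < 4 → ι4 s ≠ 0 → Nat.beq a (smC n s b) = true → ∃ l : F4, l ≠ 0 ∧ vec n a = l • vec n b := by
    intro s hs h0 h
    have h1 := Nat.eq_of_beq_eq_true h
    exact ⟨ι4 s, h0, by rw [h1]; exact vec_smC n hs b⟩
  unfold prC at h
  cases h1 : Nat.beq a (smC n 1 b)
  · rw [h1] at h
    cases h2 : Nat.beq a (smC n 2 b)
    · rw [h2] at h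
      exact key 3 (by norm_num) (by decide) h
    · exact key 2 (by norm_num) (by decide) h2
  · exact key 1 (by norm_num) (by decide) h1

/-- every vector has a code -/
noncomputable def cod (x : F4) : ℕ := match x with | .z => 0 | .o => 1 | .w => 2 | .v => 3
theorem cod_lt (x : F4) : cod x < 4 := by cases x <;> decide
theorem ι4_cod (x : F4) : ι4 (cod x) = x := by cases x <;> rfl

theorem exists_code (x : Fin n → F4) : ∃ a < 4 ^ n, vec n a = x := by
  let f : ℕ → ℕ := fun t => if h : t < n then cod (x ⟨t, h⟩) else 0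
  have hf : ∀ t < n, f t < 4 := by
    intro t ht
    show (if h : t < n then cod (x ⟨t, h⟩) else 0) < 4
    rw [dif_pos ht]; exact cod_lt _
  refine ⟨enc 4 f n, enc_lt hf, ?_⟩
  rw [vec_enc n hf]
  funext i
  show ι4 (if h : i.1 < n then cod (x ⟨i.1, h⟩) else 0) = _
  rw [dif_pos i.2]
  exact ι4_cod _

end

/-- transvections as elements of the unitary group -/
theorem exists_tr (n : ℕ) (u : Fin n → F4) (hu : hermForm n F4 2 u u = 0) :
    ∃ A : Cfsg.SU n F4 2, suM A = unitaryTransvection n 2 u 1 := by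
  obtain ⟨σ, hσ, hf⟩ := hermForm_unitary (F := F4) (q := 2) n (by rw [F4.card]; norm_num)
  exact exists_su_ut hf hu (by rw [map_one]; decide)

end CfsgLib.F4c
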