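import Cfsg.Agent.LibSL2Pres
import Cfsg.Agent.LibBrP4

set_option autoImplicit false
set_option linter.unusedSectionVars false

/-! Groups with a split pair and rank one subgroups have at most one block of defect zero in their own
characteristic (seat helper15). -/

namespace CfsgLib.UDZ

open CfsgLib.BrP CfsgLib.SL2P

section SL2
variable {F : Type*} [Field F]

/-- diagonal elements -/
def dd (c : Fˣ) : Matrix.SpecialLinearGroup (Fin 2) F := ⟨!![(c : F), 0; 0, ((c⁻¹ : Fˣ) : F)], by simp [Matrix.det_fin_two]⟩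

theorem d00 (c : Fˣ) : (dd c) 0 0 = (c : F) := rfl
theorem d01 (c : Fˣ) : (dd c) 0 1 = (0 : F) := rfl
theorem d10 (c : Fˣ) : (dd c) 1 0 = (0 : F) := rfl
theorem d11 (c : Fˣ) : (dd c) 1 1 = ((c⁻¹ : Fˣ) : F) := rfl

theorem xx_add (s t : F) : xx (s + t) = xx s * xx t := by
  apply ext2 <;> simp [m00, m01, m10, m11, x00, x01, x10, x11, add_comm]

theorem yy_add (s t : F) : yy (s + t) = yy s * yy t := by
  apply ext2 <;> simp [m00, m01, m10, m11, y00, y01, y10, y11]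

theorem xx_zero : xx (0 : F) = 1 := by
  have := xx_add (0 : F) 0
  rw [add_zero] at this
  exact left_eq_mul.1 this

theorem yy_zero : yy (0 : F) = 1 := by
  have := yy_add (0 : F) 0
  rw [add_zero] at this
  exact left_eq_mul.1 this

theorem dd_mul (c d : Fˣ) : dd (c * d) = dd c * dd d := by
  apply ext2 <;> simp [m00, m01, m10, m11, d00, d01, d10, d11, mul_comm]

theorem dd_one : dd (1 : Fˣ) = 1 := by
  have := dd_mul (1 : Fˣ) 1
  rw [mul_one] at this
  exact left_eq_mul.1 this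

theorem xw (t : F) : xx t * ww = ww * yy (-t) := by
  apply ext2 <;> simp [m00, m01, m10, m11, x00, x01, x10, x11, y00, y01, y10, y11, w00, w01, w10, w11]

theorem wwd : (ww : Matrix.SpecialLinearGroup (Fin 2) F) * ww = dd (-1) := by
  apply ext2 <;> simp [m00, m01, m10, m11, d00, d01, d10, d11, w00, w01, w10, w11]

theorem dw (c : Fˣ) : dd c * ww = ww * dd c⁻¹ := by
  apply ext2 <;> simp [m00, m01, m10, m11, d00, d01, d10, d11, w00, w01, w10, w11]

theorem wxw (c : Fˣ) : ww * xx (c : F) * ww = xx (-((c⁻¹ : Fˣ) : F)) * dd (-c⁻¹) * ww * xx (-((c⁻¹ : Fˣ) : F)) := by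
  apply ext2 <;> simp [m00, m01, m10, m11, d00, d01, d10, d11, w00, w01, w10, w11, x00, x01, x10, x11]

theorem xwb (c : Fˣ) : xx (c : F) * ww = yy ((c⁻¹ : Fˣ) : F) * dd (-c) * xx (-((c⁻¹ : Fˣ) : F)) := by
  apply ext2 <;> simp [m00, m01, m10, m11, d00, d01, d10, d11, w00, w01, w10, w11, x00, x01, x10, x11, y00, y01, y10, y11]

theorem wyb (c : Fˣ) : ww * yy (c : F) = yy (-((c⁻¹ : Fˣ) : F)) * dd c * xx ((c⁻¹ : Fˣ) : F) := by
  apply ext2 <;> simp [m00, m01, m10, m11, d00, d01, d10, d11, w00, w01, w10, w11, x00, x01, x10, x11, y00, y01, y10, y11]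

end SL2

/-- a split pair with rank one subgroups -/
structure Sys (F : Type*) [Field F] (Γ : Type*) [Group Γ] (ι : Type*) where
  U : Subgroup Γ
  V : Subgroup Γ
  H : Subgroup Γ
  U' : ι → Subgroup Γ
  V' : ι → Subgroup Γ
  φ : ι → (Matrix.SpecialLinearGroup (Fin 2) F →* Γ)
  xU : ∀ j t, φ j (xx t) ∈ U
  yV : ∀ j t, φ j (yy t) ∈ V
  yinj : ∀ j, Function.Injective (fun t => φ j (yy t))
  dH : ∀ j c, φ j (dd c) ∈ H
  HU : ∀ b ∈ H, ∀ u ∈ U, b⁻¹ * u * b ∈ U
  HV : ∀ b ∈ H, ∀ u ∈ V, b⁻¹ * u * b ∈ V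
  UU : ∀ j, U' j ≤ U
  VV : ∀ j, V' j ≤ V
  Un : ∀ j s, ∀ u ∈ U' j, (φ j s)⁻¹ * u * φ j s ∈ U' j
  Vn : ∀ j s, ∀ u ∈ V' j, φ j s * u * (φ j s)⁻¹ ∈ V' j
  Ud : ∀ j, ∀ u ∈ U, ∃ τ, ∃ u' ∈ U' j, u = φ j (xx τ) * u'
  Vd : ∀ j, ∀ u ∈ V, ∃ τ, ∃ u' ∈ V' j, u = u' * φ j (yy τ)
  cell : ∀ x, (∃ v ∈ V, ∃ b ∈ H, ∃ u ∈ U, x = v * b * u) ∨
    ∃ v ∈ V, ∃ m, ∃ u ∈ U, ∃ j, x = v * m * u ∧ ∀ t, m * φ j (xx t) * m⁻¹ ∈ V
  gen : ∀ W : Subgroup Γ, V ≤ W → (∀ j, φ j ww ∈ W) → ∀ x, x ∈ W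
  Hgen : ∀ W : Subgroup Γ, (∀ j c, φ j (dd c) ∈ W) → H ≤ W

section Alg
variable {k : Type*} [Field k] {Γ : Type*} [Group Γ] [Fintype Γ] {p : ℕ} [hp : Fact p.Prime] [CharP k p]

variable (k) in
/-- group elements in the group algebra -/
noncomputable abbrev sg (g : Γ) : MonoidAlgebra k Γ := MonoidAlgebra.single g (1 : k)

theorem sg_mul (g h : Γ) : sg k (g * h) = sg k g * sg k h := (single_mul_single g h).symm

theorem sg_one : sg k (1 : Γ) = 1 := rfl

theorem sg_inv_mul (g : Γ) (w : MonoidAlgebra k Γ) : sg k g⁻¹ * (sg k g * w) = w := by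
  rw [← mul_assoc, ← sg_mul, inv_mul_cancel, sg_one, one_mul]

theorem eq_sum (a : MonoidAlgebra k Γ) : a = ∑ g : Γ, a.coeff g • sg k g := by
  classical
  apply ext'
  intro h
  rw [sum_coeff, Finset.sum_eq_single h]
  · rw [smul_coeff, MonoidAlgebra.coeff_single, Finsupp.single_eq_same, mul_one]
  · intro b _ hb
    rw [smul_coeff, MonoidAlgebra.coeff_single, Finsupp.single_eq_of_ne hb.symm, mul_zero]
  · intro h; exact absurd (Finset.mem_univ _) h

/-- left invariant subspaces -/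
def Inv (S : Submodule k (MonoidAlgebra k Γ)) : Prop := ∀ g : Γ, ∀ w ∈ S, sg k g * w ∈ S

theorem Inv.mul {S : Submodule k (MonoidAlgebra k Γ)} (hS : Inv S) (a : MonoidAlgebra k Γ) {w : MonoidAlgebra k Γ} (hw : w ∈ S) :
    a * w ∈ S := by
  rw [eq_sum a, Finset.sum_mul]
  apply Submodule.sum_mem
  intro g _
  rw [smul_mul_assoc]
  exact S.smul_mem _ (hS g w hw)

/-- a minimal left ideal on which the central idempotent `e` is the identity -/
structure Simp (e : MonoidAlgebra k Γ) (S : Submodule k (MonoidAlgebra k Γ)) : Prop where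
  inv : Inv S
  ne : S ≠ ⊥
  id : ∀ w ∈ S, e * w = w
  min : ∀ S' ≤ S, Inv S' → S' ≠ ⊥ → S' = S

theorem exists_simp {e : MonoidAlgebra k Γ} (he : e * e = e) (h0 : e ≠ 0) (hc : ∀ a, a * e = e * a) : ∃ S, Simp e S := by
  classical
  let P : Set (Submodule k (MonoidAlgebra k Γ)) := {S | Inv S ∧ S ≠ ⊥ ∧ ∀ w ∈ S, e * w = w}
  have hP : P.Nonempty := by
    refine ⟨LinearMap.range (LinearMap.mulLeft k e), ?_, ?_, ?_⟩
    · rintro g _ ⟨w, rfl⟩
      refine ⟨sg k g * w, ?_⟩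
      show e * (sg k g * w) = sg k g * (e * w)
      rw [← mul_assoc, ← mul_assoc, hc]
    · intro h
      apply h0
      have : e ∈ LinearMap.range (LinearMap.mulLeft k e) := ⟨1, by simp⟩
      rw [h, Submodule.mem_bot] at this
      exact this
    · rintro _ ⟨w, rfl⟩
      show e * (e * w) = e * w
      rw [← mul_assoc, he]
  obtain ⟨S, hS, hmin⟩ := WellFounded.has_min (wellFounded_lt (α := Submodule k (MonoidAlgebra k Γ))) P hP
  refine ⟨S, hS.1, hS.2.1, hS.2.2, ?_⟩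
  intro S' hle hinv hne
  by_contra hcon
  exact hmin S' ⟨hinv, hne, fun w hw => hS.2.2 w (hle hw)⟩ (lt_of_le_of_ne hle hcon)

theorem Inv.fixed {P : Subgroup Γ} (hP : IsPGroup p P) {S : Submodule k (MonoidAlgebra k Γ)} (hS : Inv S) (h0 : S ≠ ⊥) :
    ∃ v ∈ S, v ≠ 0 ∧ ∀ u ∈ P, sg k u * v = v := by
  obtain ⟨t, ht, ht0⟩ := Submodule.exists_mem_ne_zero_of_ne_bot h0
  obtain ⟨v, hv0, hv, hfix⟩ := exists_fixed_vector hP ht0 (fun w => w ∈ S) (fun u _ => hS u t ht) S.zero_mem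
    (fun a b ha hb => S.add_mem ha hb) (fun a ha => S.neg_mem ha)
  exact ⟨v, hv, hv0, hfix⟩

open scoped Classical in
variable (k) in
/-- sum of a subgroup -/
noncomputable def sig (P : Subgroup Γ) : MonoidAlgebra k Γ := ∑ u : P, sg k (u : Γ)

theorem sig_mul_sg (P : Subgroup Γ) {u : Γ} (hu : u ∈ P) : sig k P * sg k u = sig k P := by
  classical
  unfold sig
  rw [Finset.sum_mul]
  refine Fintype.sum_equiv (Equiv.mulRight ⟨u, hu⟩) _ _ ?_
  intro x
  rw [← sg_mul]; rfl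

theorem sg_mul_sig (P : Subgroup Γ) {u : Γ} (hu : u ∈ P) : sg k u * sig k P = sig k P := by
  classical
  unfold sig
  rw [Finset.mul_sum]
  refine Fintype.sum_equiv (Equiv.mulLeft ⟨u, hu⟩) _ _ ?_
  intro x
  rw [← sg_mul]; rfl

theorem sig_norm (P : Subgroup Γ) {b : Γ} (hb : ∀ u ∈ P, b⁻¹ * u * b ∈ P) : sig k P * sg k b = sg k b * sig k P := by
  classical
  unfold sig
  rw [Finset.sum_mul, Finset.mul_sum]
  have hinj : Function.Injective (fun u : P => (⟨b⁻¹ * u * b, hb u u.2⟩ : P)) := by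
    intro u v h
    have h1 : b⁻¹ * (u : Γ) * b = b⁻¹ * (v : Γ) * b := congrArg Subtype.val h
    exact Subtype.ext (mul_left_cancel (mul_right_cancel h1))
  refine Fintype.sum_equiv (Equiv.ofBijective _ (Finite.injective_iff_bijective.1 hinj)) _ _ ?_
  intro u
  rw [← sg_mul, ← sg_mul]
  congr 1
  show (u : Γ) * b = b * (b⁻¹ * u * b)
  group

theorem coset_bij {Γ : Type*} [Group Γ] (P : Subgroup Γ) :
    Function.Bijective (fun z : (Γ ⧸ P) × P => (Quotient.out z.1 : Γ) * (z.2 : Γ)) := by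
  constructor
  · rintro ⟨q, u⟩ ⟨q', u'⟩ h
    have h' : (Quotient.out q : Γ) * (u : Γ) = (Quotient.out q' : Γ) * (u' : Γ) := h
    have hq : q = q' := by
      have h1 : ((Quotient.out q * (u : Γ) : Γ) : Γ ⧸ P) = ((Quotient.out q' * (u' : Γ) : Γ) : Γ ⧸ P) := by rw [h']
      rw [QuotientGroup.mk_mul_of_mem _ u.2, QuotientGroup.mk_mul_of_mem _ u'.2] at h1
      have e1 : ((Quotient.out q : Γ) : Γ ⧸ P) = q := Quotient.out_eq' q
      have e2 : ((Quotient.out q' : Γ) : Γ ⧸ P) = q' := Quotient.out_eq' q'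
      rw [e1, e2] at h1
      exact h1
    subst hq
    have : (u : Γ) = u' := mul_left_cancel h'
    rw [Subtype.ext this]
  · intro x
    have h1 : (Quotient.out (x : Γ ⧸ P) : Γ)⁻¹ * x ∈ P := by
      rw [← QuotientGroup.eq]
      exact Quotient.out_eq' _
    exact ⟨((x : Γ ⧸ P), ⟨_, h1⟩), by simp⟩

/-- coset decomposition of the sum of a group -/
theorem sig_coset {X P : Subgroup Γ} (h : X ≤ P) : ∃ a : MonoidAlgebra k Γ, sig k P = a * sig k X := by
  classical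
  let X1 : Subgroup P := X.subgroupOf P
  refine ⟨∑ q : P ⧸ X1, sg k ((Quotient.out q : P) : Γ), ?_⟩
  have e1 : sig k X = ∑ x : X1, sg k ((x : P) : Γ) := by
    unfold sig
    refine Fintype.sum_equiv (Subgroup.subgroupOfEquivOfLe h).symm.toEquiv _ _ ?_
    intro x; rfl
  have e2 : sig k P = ∑ z : (P ⧸ X1) × X1, sg k ((Quotient.out z.1 : P) : Γ) * sg k ((z.2 : P) : Γ) := by
    unfold sig
    rw [← Equiv.sum_comp (Equiv.ofBijective _ (coset_bij X1))]
    apply Finset.sum_congr rfl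
    rintro ⟨q, x⟩ _
    rw [← sg_mul]
    rfl
  rw [e2, e1, Fintype.sum_prod_type, Finset.sum_mul]
  apply Finset.sum_congr rfl
  intro q _
  rw [Finset.mul_sum]

theorem sig_zero_of_sub {X P : Subgroup Γ} (h : X ≤ P) {w : MonoidAlgebra k Γ} (hw : sig k X * w = 0) : sig k P * w = 0 := by
  obtain ⟨a, ha⟩ := sig_coset (k := k) h
  rw [ha, mul_assoc, hw, mul_zero]

theorem sig_fixed {X : Subgroup Γ} {w : MonoidAlgebra k Γ} (hw : ∀ u ∈ X, sg k u * w = w) (hd : p ∣ Nat.card X) : sig k X * w = 0 := by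
  classical
  unfold sig
  rw [Finset.sum_mul, Finset.sum_congr rfl (fun (u : X) _ => hw u u.2), Finset.sum_const, Finset.card_univ, ← Nat.card_eq_fintype_card,
    ← Nat.cast_smul_eq_nsmul k, (CharP.cast_eq_zero_iff k p _).2 hd, zero_smul]

/-- an element fixing `w` -/
theorem sig_fixed_one {P : Subgroup Γ} (hP : IsPGroup p P) {z : Γ} (hz : z ∈ P) (h1 : z ≠ 1) {w : MonoidAlgebra k Γ}
    (hw : sg k z * w = w) : sig k P * w = 0 := by
  apply sig_zero_of_sub (X := Subgroup.zpowers z) (by rwa [Subgroup.zpowers_le])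
  apply sig_fixed (p := p)
  · have h2 : ∀ n : ℕ, sg k (z ^ n) * w = w := by
      intro n
      induction n with
      | zero => rw [pow_zero, sg_one, one_mul]
      | succ n ih => rw [pow_succ, sg_mul, mul_assoc, hw, ih]
    intro u hu
    have hu' := (mem_powers_iff_mem_zpowers (x := z)).2 hu
    obtain ⟨n, rfl⟩ := hu'
    exact h2 n
  · rw [Nat.card_zpowers]
    obtain ⟨n, hn⟩ := IsPGroup.iff_orderOf.1 hP ⟨z, hz⟩
    have hn' : orderOf z = p ^ n := by
      rw [← hn]; exact orderOf_injective P.subtype P.subtype_injective ⟨z, hz⟩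
    rw [hn']
    rcases Nat.eq_zero_or_pos n with h0 | h0
    · exfalso; apply h1
      rw [h0, pow_zero, orderOf_eq_one_iff] at hn'
      exact hn'
    · exact dvd_pow_self p h0.ne'

/-- traces -/
theorem trace_sig {e a : MonoidAlgebra k Γ} (he : e = ∑ x : Γ, sg k x * a * sg k x⁻¹) {S : Submodule k (MonoidAlgebra k Γ)}
    (hS : Simp e S) (P : Subgroup Γ) {v : MonoidAlgebra k Γ} (hv : v ∈ S) (hfix : ∀ u ∈ P, sg k u * v = v) :
    ∃ w ∈ S, v = sig k P * w := by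
  classical
  let f : Γ → MonoidAlgebra k Γ := fun x => sg k x * a * sg k x⁻¹ * v
  have hf : ∀ u ∈ P, ∀ x, f (u * x) = sg k u * f x := by
    intro u hu x
    show sg k (u * x) * a * sg k (u * x)⁻¹ * v = sg k u * (sg k x * a * sg k x⁻¹ * v)
    have h1 : sg k (u * x)⁻¹ * v = sg k x⁻¹ * v := by
      rw [mul_inv_rev, sg_mul, mul_assoc, hfix u⁻¹ (P.inv_mem hu)]
    rw [mul_assoc (sg k (u * x) * a), h1, sg_mul]
    simp only [mul_assoc]
  have h1 : v = ∑ x : Γ, f x := by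
    conv_lhs => rw [← hS.id v hv, he, Finset.sum_mul]
  refine ⟨∑ q : Γ ⧸ P, f (Quotient.out q : Γ)⁻¹, ?_, ?_⟩
  · apply Submodule.sum_mem
    intro q _
    show _ * v ∈ S
    exact hS.inv.mul _ hv
  · rw [h1, ← Equiv.sum_comp (Equiv.inv Γ), ← Equiv.sum_comp (Equiv.ofBijective _ (coset_bij P)), Fintype.sum_prod_type, Finset.mul_sum]
    apply Finset.sum_congr rfl
    intro q _
    unfold sig
    rw [Finset.sum_mul, ← Equiv.sum_comp (Equiv.inv P)]
    apply Finset.sum_congr rfl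
    intro u _
    rw [← hf _ u.2]
    show f ((Quotient.out q : Γ) * ((u⁻¹ : P) : Γ))⁻¹ = f ((u : Γ) * (Quotient.out q : Γ)⁻¹)
    congr 1
    rw [Subgroup.coe_inv]; group

end Alg

end CfsgLib.UDZ
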