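import Cfsg.Agent.LibUDZ15

set_option autoImplicit false
set_option linter.unusedSectionVars false

/-! Uniqueness of the block of defect zero, II (seat helper15). -/

namespace CfsgLib.UDZ

open CfsgLib.BrP CfsgLib.SL2P

section Alg
variable {k : Type*} [Field k] {Γ : Type*} [Group Γ] [Fintype Γ] {p : ℕ} [hp : Fact p.Prime] [CharP k p]
variable {F : Type*} [Field F] [Fintype F] [CharP F p] {ι : Type*} (B : Sys F Γ ι)

theorem sum_units {M : Type*} [AddCommMonoid M] [Fintype Fˣ] (f : F → M) : ∑ t : F, f t = f 0 + ∑ c : Fˣ, f (c : F) := by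
  classical
  rw [← Finset.add_sum_erase Finset.univ f (Finset.mem_univ 0)]
  congr 1
  symm
  refine Finset.sum_bij (fun c _ => (c : F)) ?_ ?_ ?_ ?_
  · intro c _; simp
  · intro a _ b _ h; exact Units.ext h
  · intro b hb
    exact ⟨Units.mk0 b (Finset.ne_of_mem_erase hb), Finset.mem_univ _, rfl⟩
  · intro c _; rfl

/-- fixed by `U` -/
def FixU (v : MonoidAlgebra k Γ) : Prop := ∀ u ∈ B.U, sg k u * v = v

variable (k) in
/-- the operator `T_j` -/
noncomputable def T (j : ι) : MonoidAlgebra k Γ := ∑ t : F, sg k (B.φ j (xx t * ww))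

open scoped Classical in
variable (k) in
/-- the operator `θ_j` -/
noncomputable def th (j : ι) : MonoidAlgebra k Γ := ∑ c : Fˣ, sg k (B.φ j (dd c))

variable {B}

theorem FixU.H {v : MonoidAlgebra k Γ} (hv : FixU B v) {b : Γ} (hb : b ∈ B.H) : FixU B (sg k b * v) := by
  intro u hu
  have e : u * b = b * (b⁻¹ * u * b) := by group
  rw [← mul_assoc, ← sg_mul, e, sg_mul, mul_assoc, hv _ (B.HU b hb u hu)]

theorem FixU.T {v : MonoidAlgebra k Γ} (hv : FixU B v) (j : ι) : FixU B (T k B j * v) := by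
  classical
  intro u hu
  obtain ⟨τ, u', hu', rfl⟩ := B.Ud j u hu
  unfold UDZ.T
  rw [Finset.sum_mul, Finset.mul_sum]
  refine Fintype.sum_equiv (Equiv.addLeft τ) _ _ ?_
  intro t
  have e : B.φ j (xx τ) * u' * B.φ j (xx t * ww) = B.φ j (xx (τ + t) * ww) * ((B.φ j (xx t * ww))⁻¹ * u' * B.φ j (xx t * ww)) := by
    rw [xx_add, mul_assoc (xx τ), map_mul (B.φ j) (xx τ)]; group
  rw [← mul_assoc, ← sg_mul, e, sg_mul, mul_assoc, hv _ (B.UU j (B.Un j _ u' hu'))]
  rfl

theorem FixU.th {v : MonoidAlgebra k Γ} (hv : FixU B v) (j : ι) : FixU B (th k B j * v) := by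
  classical
  intro u hu
  unfold UDZ.th
  rw [Finset.sum_mul, Finset.mul_sum]
  exact Finset.sum_congr rfl (fun c _ => hv.H (B.dH j c) u hu)

theorem FixU.sub {v w : MonoidAlgebra k Γ} (hv : FixU B v) (hw : FixU B w) : FixU B (v - w) := by
  intro u hu
  rw [mul_sub, hv u hu, hw u hu]

theorem FixU.add {v w : MonoidAlgebra k Γ} (hv : FixU B v) (hw : FixU B w) : FixU B (v + w) := by
  intro u hu
  rw [mul_add, hv u hu, hw u hu]

theorem card_zero (p : ℕ) [Fact p.Prime] [CharP F p] (k : Type*) [Field k] [CharP k p] : ((Fintype.card F : ℕ) : k) = 0 := by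
  rw [CharP.cast_eq_zero_iff k p]
  have h := FiniteField.cast_card_eq_zero F
  exact (CharP.cast_eq_zero_iff F p _).1 h

/-- the quadratic relation on vectors fixed by `U` -/
theorem T_sq (p : ℕ) [Fact p.Prime] [CharP F p] [CharP k p] {v : MonoidAlgebra k Γ} (hv : FixU B v) (j : ι) :
    T k B j * (T k B j * v) = T k B j * (th k B j * v) := by
  classical
  have e0 : T k B j * (T k B j * v) = ∑ t : F, ∑ s : F, sg k (B.φ j (xx s * ww * (xx t * ww))) * v := by
    unfold T
    rw [Finset.sum_mul, Finset.sum_comm]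
    apply Finset.sum_congr rfl
    intro s _
    rw [Finset.sum_mul, Finset.mul_sum]
    apply Finset.sum_congr rfl
    intro t _
    rw [map_mul (B.φ j) (xx s * ww), sg_mul, mul_assoc]
  rw [e0, sum_units]
  have e1 : ∑ s : F, sg k (B.φ j (xx s * ww * (xx 0 * ww))) * v = 0 := by
    have h1 : ∀ s : F, sg k (B.φ j (xx s * ww * (xx 0 * ww))) * v = sg k (B.φ j (dd (-1))) * v := by
      intro s
      have e : xx s * ww * (xx 0 * ww) = xx s * (dd (-1) : Matrix.SpecialLinearGroup (Fin 2) F) := by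
        rw [xx_zero, one_mul, mul_assoc, wwd]
      rw [e, map_mul, sg_mul, mul_assoc, hv.H (B.dH j (-1)) _ (B.xU j s)]
    rw [Finset.sum_congr rfl (fun s _ => h1 s), Finset.sum_const, Finset.card_univ, ← Nat.cast_smul_eq_nsmul k,
      card_zero (F := F) p k, zero_smul]
  rw [e1, zero_add]
  unfold T th
  rw [Finset.sum_mul Finset.univ _ v, Finset.mul_sum]
  refine Fintype.sum_equiv (Equiv.neg Fˣ) _ _ ?_
  intro c
  rw [Finset.sum_mul]
  refine Fintype.sum_equiv (Equiv.addRight (-((c⁻¹ : Fˣ) : F))) _ _ ?_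
  intro s
  have e : xx s * ww * (xx (c : F) * ww) = xx (s + -((c⁻¹ : Fˣ) : F)) * ww * dd (-c) * xx (-((c⁻¹ : Fˣ) : F)) := by
    have h1 : xx s * ww * (xx (c : F) * ww) = xx s * (ww * xx (c : F) * ww) := by group
    rw [h1, wxw, xx_add]
    have h2 : (dd (-c⁻¹) : Matrix.SpecialLinearGroup (Fin 2) F) * ww = ww * dd (-c) := by
      rw [dw]
      simp
    have h3 : xx s * (xx (-((c⁻¹ : Fˣ) : F)) * dd (-c⁻¹) * ww * xx (-((c⁻¹ : Fˣ) : F))) =
      xx s * xx (-((c⁻¹ : Fˣ) : F)) * (dd (-c⁻¹) * ww) * xx (-((c⁻¹ : Fˣ) : F)) := by group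
    rw [h3, h2]; group
  rw [e, map_mul, sg_mul, mul_assoc, hv _ (B.xU j _), map_mul, sg_mul, mul_assoc]
  rfl

variable (hV : IsPGroup p B.V)
include hV

/-- `σ_V` does not vanish on vectors fixed by `U` in a simple module with trace -/
theorem sig_ne {e a : MonoidAlgebra k Γ} (he : e = ∑ x : Γ, sg k x * a * sg k x⁻¹) {S : Submodule k (MonoidAlgebra k Γ)}
    (hS : Simp e S) {v : MonoidAlgebra k Γ} (hv : v ∈ S) (h0 : v ≠ 0) (hfix : FixU B v) : sig k B.V * v ≠ 0 := by
  classical
  intro hz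
  obtain ⟨v1, hv1, hv10, hfix1⟩ := hS.inv.fixed hV hS.ne
  obtain ⟨w, hw, e1⟩ := trace_sig he hS B.V hv1 hfix1
  have hall : ∀ x : Γ, sig k B.V * (sg k x * v) = 0 := by
    intro x
    rcases B.cell x with ⟨y, hy, b, hb, u, hu, rfl⟩ | ⟨y, hy, m, u, hu, j, rfl, hm⟩
    · rw [sg_mul, sg_mul, mul_assoc, hfix u hu, mul_assoc, ← mul_assoc (sig k B.V), sig_mul_sg _ hy, ← mul_assoc,
        sig_norm _ (fun u hu => B.HV b hb u hu), mul_assoc, hz, mul_zero]
    · rw [sg_mul, sg_mul, mul_assoc, hfix u hu, mul_assoc, ← mul_assoc (sig k B.V), sig_mul_sg _ hy]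
      apply sig_fixed_one hV (hm 1)
      · intro h1
        have h2 : B.φ j (xx 1) = 1 := by
          have : B.φ j (xx 1) = m⁻¹ * (m * B.φ j (xx 1) * m⁻¹) * m := by group
          rw [this, h1]; group
        have h3 : B.φ j (yy (-1)) = B.φ j (yy 0) := by
          have h4 : yy (-1) = (ww : Matrix.SpecialLinearGroup (Fin 2) F)⁻¹ * (xx 1 * ww) := by rw [xw]; group
          rw [h4, map_mul, map_mul, h2, one_mul, map_inv, inv_mul_cancel, yy_zero, map_one]
        have h5 := B.yinj j h3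
        exact one_ne_zero (neg_eq_zero.1 h5)
      · rw [← mul_assoc, ← sg_mul]
        have e2 : m * B.φ j (xx 1) * m⁻¹ * m = m * B.φ j (xx 1) := by group
        rw [e2, sg_mul, mul_assoc, hfix _ (B.xU j 1)]
  have hS' : LinearMap.range (LinearMap.mulRight k v) = S := by
    apply hS.min
    · rintro _ ⟨c, rfl⟩
      exact hS.inv.mul c hv
    · rintro x _ ⟨c, rfl⟩
      exact ⟨sg k x * c, by simp [mul_assoc]⟩
    · intro h
      apply h0
      have : v ∈ LinearMap.range (LinearMap.mulRight k v) := ⟨1, by simp⟩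
      rwa [h, Submodule.mem_bot] at this
  rw [← hS'] at hw
  obtain ⟨c, rfl⟩ := hw
  apply hv10
  rw [e1]
  show sig k B.V * (c * v) = 0
  rw [eq_sum c, Finset.sum_mul, Finset.mul_sum]
  apply Finset.sum_eq_zero
  intro x _
  rw [smul_mul_assoc, mul_smul_comm, hall x, smul_zero]

theorem T_ne {e a : MonoidAlgebra k Γ} (he : e = ∑ x : Γ, sg k x * a * sg k x⁻¹) {S : Submodule k (MonoidAlgebra k Γ)}
    (hS : Simp e S) {v : MonoidAlgebra k Γ} (hv : v ∈ S) (h0 : v ≠ 0) (hfix : FixU B v) (j : ι) : T k B j * v ≠ 0 := by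
  classical
  intro hz
  apply sig_ne hV he hS hv h0 hfix
  let ψ : Multiplicative F →* Γ :=
    { toFun := fun t => B.φ j (yy (Multiplicative.toAdd t))
      map_one' := by show B.φ j (yy 0) = 1; rw [yy_zero, map_one]
      map_mul' := fun s t => by
        show B.φ j (yy (Multiplicative.toAdd s + Multiplicative.toAdd t)) = _
        rw [yy_add, map_mul] }
  apply sig_zero_of_sub (X := ψ.range)
  · rintro _ ⟨t, rfl⟩
    exact B.yV j _
  · have hinj : Function.Injective ψ := fun s t h => B.yinj j h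
    have e1 : sig k ψ.range = ∑ t : F, sg k (B.φ j (yy t)) := by
      unfold sig
      symm
      have hbij : Function.Bijective (fun t : F => (⟨ψ (Multiplicative.ofAdd t), ⟨_, rfl⟩⟩ : ψ.range)) := by
        constructor
        · intro s t h
          exact hinj (congrArg Subtype.val h)
        · rintro ⟨_, t, rfl⟩
          exact ⟨Multiplicative.toAdd t, rfl⟩
      convert Fintype.sum_equiv (Equiv.ofBijective _ hbij) (fun t : F => sg k (B.φ j (yy t))) (fun x : ψ.range => sg k (x : Γ)) (fun t => rfl)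
    have e2 : T k B j = sg k (B.φ j ww) * ∑ t : F, sg k (B.φ j (yy t)) := by
      unfold T
      rw [Finset.mul_sum]
      refine Fintype.sum_equiv (Equiv.neg F) _ _ ?_
      intro t
      rw [xw, map_mul, sg_mul]
      rfl
    rw [e2] at hz
    rw [e1]
    have := congrArg (fun w : MonoidAlgebra k Γ => sg k (B.φ j ww)⁻¹ * w) hz
    simp only [mul_zero] at this
    rw [mul_assoc, sg_inv_mul] at this
    exact this

/-- `T_j = -1` and `H` acts trivially on the vectors fixed by `U` -/
theorem T_eq {e a : MonoidAlgebra k Γ} (he : e = ∑ x : Γ, sg k x * a * sg k x⁻¹) {S : Submodule k (MonoidAlgebra k Γ)}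
    (hS : Simp e S) {v : MonoidAlgebra k Γ} (hv : v ∈ S) (hfix : FixU B v) (j : ι) :
    T k B j * v = -v ∧ ∀ c : Fˣ, sg k (B.φ j (dd c)) * v = v := by
  classical
  have hT : ∀ w ∈ S, FixU B w → T k B j * w = th k B j * w := by
    intro w hw hfw
    by_contra hcon
    have h1 : T k B j * w - th k B j * w ≠ 0 := sub_ne_zero.2 hcon
    apply T_ne hV he hS (S.sub_mem (hS.inv.mul _ hw) (hS.inv.mul _ hw)) h1 ((hfw.T j).sub (hfw.th j)) j
    rw [mul_sub, T_sq p hfw, sub_self]
  have hth : ∀ w : MonoidAlgebra k Γ, th k B j * (th k B j * w) = -(th k B j * w) := by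
    intro w
    have h1 : ∀ c : Fˣ, sg k (B.φ j (dd c)) * th k B j = th k B j := by
      intro c
      unfold th
      rw [Finset.mul_sum]
      refine Fintype.sum_equiv (Equiv.mulLeft c) _ _ ?_
      intro d
      rw [← sg_mul, ← map_mul, ← dd_mul]; rfl
    have h2 : th k B j * th k B j = -th k B j := by
      conv_lhs => enter [1]; unfold th
      rw [Finset.sum_mul, Finset.sum_congr rfl (fun c _ => h1 c), Finset.sum_const, Finset.card_univ, ← Nat.cast_smul_eq_nsmul k]
      have h3 : ((Fintype.card Fˣ : ℕ) : k) = -1 := by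
        rw [Fintype.card_units, Nat.cast_sub Fintype.card_pos, card_zero (F := F) p k]
        simp
      rw [h3, neg_smul, one_smul]
    rw [← mul_assoc, h2, neg_mul]
  have hmain : th k B j * v = -v := by
    by_contra hcon
    have h1 : th k B j * v + v ≠ 0 := fun h => hcon (eq_neg_of_add_eq_zero_left h)
    have h2 : th k B j * v + v ∈ S := S.add_mem (hS.inv.mul _ hv) hv
    have h3 : FixU B (th k B j * v + v) := (hfix.th j).add hfix
    apply T_ne hV he hS h2 h1 h3 j
    rw [hT _ h2 h3, mul_add, hth, neg_add_cancel]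
  refine ⟨by rw [hT v hv hfix, hmain], ?_⟩
  intro c
  have h1 : sg k (B.φ j (dd c)) * th k B j = th k B j := by
    unfold th
    rw [Finset.mul_sum]
    refine Fintype.sum_equiv (Equiv.mulLeft c) _ _ ?_
    intro d
    rw [← sg_mul, ← map_mul, ← dd_mul]; rfl
  have h2 : sg k (B.φ j (dd c)) * (th k B j * v) = th k B j * v := by rw [← mul_assoc, h1]
  rw [hmain, mul_neg, neg_inj] at h2
  exact h2

theorem H_fix {e a : MonoidAlgebra k Γ} (he : e = ∑ x : Γ, sg k x * a * sg k x⁻¹) {S : Submodule k (MonoidAlgebra k Γ)}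
    (hS : Simp e S) {v : MonoidAlgebra k Γ} (hv : v ∈ S) (hfix : FixU B v) {b : Γ} (hb : b ∈ B.H) : sg k b * v = v := by
  let W : Subgroup Γ :=
    { carrier := {x | sg k x * v = v}
      one_mem' := by show sg k 1 * v = v; rw [sg_one, one_mul]
      mul_mem' := by
        intro x y hx hy
        show sg k (x * y) * v = v
        rw [sg_mul, mul_assoc, hy, hx]
      inv_mem' := by
        intro x hx
        show sg k x⁻¹ * v = v
        have hx' : sg k x * v = v := hx
        conv_lhs => rw [← hx']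
        exact sg_inv_mul x v }
  have h1 := B.Hgen W (fun j c => (T_eq hV he hS hv hfix j).2 c)
  exact h1 hb

end Alg

end CfsgLib.UDZ
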