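import Cfsg.Agent.LibUDZ15b

set_option autoImplicit false
set_option linter.unusedSectionVars false

/-! Uniqueness of the block of defect zero, III (seat helper15). -/

namespace CfsgLib.UDZ

open CfsgLib.BrP CfsgLib.SL2P

section Alg
variable {k : Type*} [Field k] {Γ : Type*} [Group Γ] [Fintype Γ] {p : ℕ} [hp : Fact p.Prime] [CharP k p]
variable {F : Type*} [Field F] [Fintype F] [CharP F p] {ι : Type*} (B : Sys F Γ ι)

/-- the span of the `V`-orbit of a vector fixed by `U`, `H` with `T_j = -1` is invariant -/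
theorem span_inv {z : MonoidAlgebra k Γ} (hU : FixU B z) (hH : ∀ b ∈ B.H, sg k b * z = z) (hT : ∀ j, T k B j * z = -z) :
    Inv (Submodule.span k (Set.range (fun v : B.V => sg k (v : Γ) * z))) := by
  classical
  set W := Submodule.span k (Set.range (fun v : B.V => sg k (v : Γ) * z)) with hW
  have hmem : ∀ v ∈ B.V, sg k v * z ∈ W := fun v hv => Submodule.subset_span ⟨⟨v, hv⟩, rfl⟩
  have key : ∀ x : Γ, (∀ v ∈ B.V, sg k x * (sg k v * z) ∈ W) → ∀ w ∈ W, sg k x * w ∈ W := by
    intro x hx w hw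
    induction hw using Submodule.span_induction with
    | mem y hy =>
      obtain ⟨v, rfl⟩ := hy
      exact hx v v.2
    | zero => rw [mul_zero]; exact W.zero_mem
    | add a b _ _ ha hb => rw [mul_add]; exact W.add_mem ha hb
    | smul c a _ ha => rw [mul_smul_comm]; exact W.smul_mem c ha
  have hVW : ∀ x ∈ B.V, ∀ w ∈ W, sg k x * w ∈ W := by
    intro x hx
    apply key
    intro v hv
    rw [← mul_assoc, ← sg_mul]
    exact hmem _ (B.V.mul_mem hx hv)
  have hn0 : ∀ j, sg k (B.φ j ww) * z ∈ W := by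
    intro j
    have h1 := hT j
    unfold T at h1
    rw [sum_units, xx_zero, one_mul, add_mul, Finset.sum_mul] at h1
    have h2 : sg k (B.φ j ww) * z = -z - ∑ c : Fˣ, sg k (B.φ j (xx (c : F) * ww)) * z := by
      rw [← h1]; abel
    rw [h2]
    apply W.sub_mem
    · apply W.neg_mem
      have := hmem 1 B.V.one_mem
      rwa [sg_one, one_mul] at this
    · apply W.sum_mem
      intro c _
      rw [xwb, map_mul, sg_mul, mul_assoc, hU _ (B.xU j _), map_mul, sg_mul, mul_assoc, hH _ (B.dH j _)]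
      exact hmem _ (B.yV j _)
  have hn : ∀ j, ∀ w ∈ W, sg k (B.φ j ww) * w ∈ W := by
    intro j
    apply key
    intro v hv
    obtain ⟨τ, u', hu', rfl⟩ := B.Vd j v hv
    have h1 : sg k (B.φ j ww) * (sg k (u' * B.φ j (yy τ)) * z) =
        sg k (B.φ j ww * u' * (B.φ j ww)⁻¹) * (sg k (B.φ j (ww * yy τ)) * z) := by
      have h0 : B.φ j ww * (u' * B.φ j (yy τ)) = B.φ j ww * u' * (B.φ j ww)⁻¹ * B.φ j (ww * yy τ) := by
        rw [map_mul]; group
      rw [← mul_assoc (sg k _), ← sg_mul, h0, sg_mul, mul_assoc]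
    rw [h1]
    apply hVW _ (B.VV j (B.Vn j _ u' hu'))
    by_cases hτ : τ = 0
    · subst hτ
      rw [yy_zero, mul_one]
      exact hn0 j
    · have h2 := wyb (Units.mk0 τ hτ)
      rw [Units.val_mk0] at h2
      rw [h2, map_mul, sg_mul, mul_assoc, hU _ (B.xU j _), map_mul, sg_mul, mul_assoc, hH _ (B.dH j _)]
      exact hmem _ (B.yV j _)
  let K : Subgroup Γ :=
    { carrier := {x | ∀ w ∈ W, sg k x * w ∈ W}
      one_mem' := by intro w hw; rwa [sg_one, one_mul]
      mul_mem' := by
        intro x y hx hy w hw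
        rw [sg_mul, mul_assoc]
        exact hx _ (hy _ hw)
      inv_mem' := by
        intro x hx w hw
        have h3 : ∀ n : ℕ, sg k (x ^ n) * w ∈ W := by
          intro n
          induction n with
          | zero => rwa [pow_zero, sg_one, one_mul]
          | succ n ih => rw [pow_succ', sg_mul, mul_assoc]; exact hx _ ih
        have h4 : x⁻¹ = x ^ (orderOf x - 1) := by
          rw [inv_eq_iff_mul_eq_one, ← pow_succ', Nat.sub_add_cancel (orderOf_pos x), pow_orderOf_eq_one]
        rw [h4]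
        exact h3 _ }
  intro x
  exact B.gen K hVW hn x

/-- at most one block of defect zero -/
theorem main (hV : IsPGroup p B.V) (hUp : IsPGroup p B.U) {e a e' a' : MonoidAlgebra k Γ} (he : e * e = e) (he' : e' * e' = e')
    (hc : ∀ b, b * e = e * b) (hc' : ∀ b, b * e' = e' * b) (hee : e * e' = 0) (h0 : e ≠ 0) (h0' : e' ≠ 0)
    (ht : e = ∑ x : Γ, sg k x * a * sg k x⁻¹) (ht' : e' = ∑ x : Γ, sg k x * a' * sg k x⁻¹) : False := by
  classical
  obtain ⟨S, hS⟩ := exists_simp he h0 hc
  obtain ⟨S', hS'⟩ := exists_simp he' h0' hc'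
  obtain ⟨v, hv, hv0, hfv⟩ := hS.inv.fixed hUp hS.ne
  obtain ⟨v', hv', hv0', hfv'⟩ := hS'.inv.fixed hUp hS'.ne
  have hz : Inv (Submodule.span k (Set.range (fun x : B.V => sg k (x : Γ) * (v + v')))) := by
    apply span_inv B
    · exact FixU.add hfv hfv'
    · intro b hb
      rw [mul_add, H_fix hV ht hS hv hfv hb, H_fix hV ht' hS' hv' hfv' hb]
    · intro j
      rw [mul_add, (T_eq hV ht hS hv hfv j).1, (T_eq hV ht' hS' hv' hfv' j).1]; abel
  have hzm : v + v' ∈ Submodule.span k (Set.range (fun x : B.V => sg k (x : Γ) * (v + v'))) :=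
    Submodule.subset_span ⟨1, by
      show sg k ((1 : B.V) : Γ) * (v + v') = v + v'
      rw [Subgroup.coe_one, sg_one, one_mul]⟩
  have hev : e * (v + v') = v := by
    rw [mul_add, hS.id v hv, ← hS'.id v' hv', ← mul_assoc, hee, zero_mul, add_zero]
  have hvm := hz.mul e hzm
  rw [hev] at hvm
  have hspan : ∀ w ∈ Submodule.span k (Set.range (fun x : B.V => sg k (x : Γ) * (v + v'))), ∃ c : k,
      sig k B.V * w = c • (sig k B.V * (v + v')) := by
    intro w hw
    induction hw using Submodule.span_induction with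
    | mem y hy =>
      obtain ⟨x, rfl⟩ := hy
      exact ⟨1, by rw [one_smul]; show sig k B.V * (sg k (x : Γ) * (v + v')) = _; rw [← mul_assoc, sig_mul_sg _ x.2]⟩
    | zero => exact ⟨0, by rw [mul_zero, zero_smul]⟩
    | add a b _ _ ha hb =>
      obtain ⟨c, hc⟩ := ha
      obtain ⟨d, hd⟩ := hb
      exact ⟨c + d, by rw [mul_add, hc, hd, add_smul]⟩
    | smul c a _ ha =>
      obtain ⟨d, hd⟩ := ha
      exact ⟨c * d, by rw [mul_smul_comm, hd, mul_smul]⟩
  obtain ⟨c, hcc⟩ := hspan v hvm
  have hs := sig_ne hV ht hS hv hv0 hfv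
  have hs' := sig_ne hV ht' hS' hv' hv0' hfv'
  -- multiply by e'
  have he'v : e' * v = 0 := by
    rw [← hS.id v hv, ← mul_assoc, ← hc' e, hee, zero_mul]
  have h1 : e' * (sig k B.V * v) = 0 := by rw [← mul_assoc, ← hc', mul_assoc, he'v, mul_zero]
  have h2 : e' * (sig k B.V * (v + v')) = sig k B.V * v' := by
    rw [← mul_assoc, ← hc', mul_assoc, mul_add, he'v, zero_add, hS'.id v' hv']
  have h3 := congrArg (fun w : MonoidAlgebra k Γ => e' * w) hcc
  simp only [mul_smul_comm, h1, h2] at h3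
  have h4 : c = 0 := by
    rcases smul_eq_zero.1 h3.symm with h | h
    · exact h
    · exact absurd h hs'
  rw [h4, zero_smul] at hcc
  exact hs hcc

end Alg

end CfsgLib.UDZ
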