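import Cfsg.Agent.LibUDZ15c
import Cfsg.Agent.LibBrP10
import Cfsg.Agent.LibBlockReg
import Cfsg.Agent.LibDZ19

set_option autoImplicit false
set_option linter.unusedSectionVars false

/-! Block idempotents of defect zero are traces (seat helper15). -/

namespace CfsgLib.UDZ

open CfsgLib.BrP CfsgLib.SL2P

section Tr
variable {k : Type*} [Field k] {Γ : Type*} [Group Γ] [Fintype Γ] {p : ℕ} [hp : Fact p.Prime] [CharP k p]

theorem mul_sg_coeff (u : Γ) (a : MonoidAlgebra k Γ) (g : Γ) : (a * sg k u).coeff g = a.coeff (g * u⁻¹) := by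
  classical
  rw [mul_coeff', Finset.sum_eq_single u]
  · rw [MonoidAlgebra.coeff_single, Finsupp.single_eq_same, mul_one]
  · intro b _ hb
    rw [MonoidAlgebra.coeff_single, Finsupp.single_eq_of_ne hb, mul_zero]
  · intro h; exact absurd (Finset.mem_univ _) h

theorem conj_coeff (x : Γ) (a : MonoidAlgebra k Γ) (g : Γ) : (sg k x * a * sg k x⁻¹).coeff g = a.coeff (x⁻¹ * g * x) := by
  rw [mul_sg_coeff, inv_inv, single_mul_coeff, mul_assoc]

theorem central_of_class {e : MonoidAlgebra k Γ} (h : ∀ x g, e.coeff (x * g * x⁻¹) = e.coeff g) (b : MonoidAlgebra k Γ) :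
    b * e = e * b := by
  classical
  have key : ∀ x : Γ, sg k x * e = e * sg k x := by
    intro x
    apply ext'
    intro g
    rw [mul_sg_coeff, single_mul_coeff]
    have := h x⁻¹ (g * x⁻¹)
    rw [← this]
    congr 1; group
  rw [eq_sum b, Finset.sum_mul, Finset.mul_sum]
  apply Finset.sum_congr rfl
  intro x _
  rw [smul_mul_assoc, mul_smul_comm, key]

/-- a class function supported on classes of defect zero is a trace -/
theorem exists_trace {e : MonoidAlgebra k Γ} (h : ∀ x g, e.coeff (x * g * x⁻¹) = e.coeff g)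
    (h0 : ∀ g : Γ, p ∣ Nat.card (Subgroup.centralizer ({g} : Set Γ)) → e.coeff g = 0) :
    ∃ a, e = ∑ x : Γ, sg k x * a * sg k x⁻¹ := by
  classical
  refine ⟨mk (fun g => if Quotient.out (ConjClasses.mk g) = g then
    e.coeff g * ((Nat.card (Subgroup.centralizer ({g} : Set Γ)) : ℕ) : k)⁻¹ else 0), ?_⟩
  apply ext'
  intro g
  rw [sum_coeff]
  simp only [conj_coeff]
  set r : Γ := Quotient.out (ConjClasses.mk g) with hr
  have hmk : ConjClasses.mk r = ConjClasses.mk g := Quotient.out_eq _
  have hconj : IsConj r g := ConjClasses.mk_eq_mk_iff_isConj.1 hmk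
  obtain ⟨y, hy⟩ := isConj_iff.1 hconj
  have hcl : ∀ x : Γ, ConjClasses.mk (x⁻¹ * g * x) = ConjClasses.mk g := by
    intro x
    apply ConjClasses.mk_eq_mk_iff_isConj.2
    exact isConj_iff.2 ⟨x, by group⟩
  have hval : ∀ x : Γ, (mk (fun g => if Quotient.out (ConjClasses.mk g) = g then
      e.coeff g * ((Nat.card (Subgroup.centralizer ({g} : Set Γ)) : ℕ) : k)⁻¹ else 0)).coeff (x⁻¹ * g * x) =
      if x⁻¹ * g * x = r then e.coeff r * ((Nat.card (Subgroup.centralizer ({r} : Set Γ)) : ℕ) : k)⁻¹ else 0 := by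
    intro x
    show (if Quotient.out (ConjClasses.mk (x⁻¹ * g * x)) = x⁻¹ * g * x then _ else _) = _
    rw [hcl]
    by_cases hx : x⁻¹ * g * x = r
    · rw [if_pos hx, if_pos (by rw [hx]), hx]
    · rw [if_neg hx, if_neg (fun h => hx h.symm)]
  rw [Finset.sum_congr rfl (fun x _ => hval x), ← Finset.sum_filter, Finset.sum_const]
  have hcard : (Finset.univ.filter (fun x : Γ => x⁻¹ * g * x = r)).card = Nat.card (Subgroup.centralizer ({r} : Set Γ)) := by
    rw [← Fintype.card_subtype, ← Nat.card_eq_fintype_card]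
    apply Nat.card_congr
    refine
      { toFun := fun x => ⟨y⁻¹ * x.1, ?_⟩
        invFun := fun c => ⟨y * c.1, ?_⟩
        left_inv := ?_
        right_inv := ?_ }
    · have h1 := x.2
      rw [Subgroup.mem_centralizer_singleton_iff]
      have key : ∀ z : Γ, z⁻¹ * g * z = r → y⁻¹ * z * r = r * (y⁻¹ * z) := by
        intro z hz
        have h2 : z * r = g * z := by rw [← hz]; group
        rw [mul_assoc, h2, ← hy]; group
      exact key _ h1
    · have h1 := c.2
      rw [Subgroup.mem_centralizer_singleton_iff] at h1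
      have h2 : (y * c.1)⁻¹ * g * (y * c.1) = c.1⁻¹ * r * c.1 := by rw [← hy]; group
      rw [h2, mul_assoc, ← h1]; group
    · intro x; apply Subtype.ext; simp
    · intro c; apply Subtype.ext; simp
  rw [hcard]
  have he : e.coeff g = e.coeff r := by rw [← hy]; exact h y r
  rw [he, ← Nat.cast_smul_eq_nsmul k, smul_eq_mul]
  by_cases hd : p ∣ Nat.card (Subgroup.centralizer ({r} : Set Γ))
  · rw [h0 r hd]; simp
  · have h1 : ((Nat.card (Subgroup.centralizer ({r} : Set Γ)) : ℕ) : k) ≠ 0 := by
      rw [Ne, CharP.cast_eq_zero_iff k p]; exact hd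
    field_simp

end Tr

section Ch

open Cfsg CfsgLib.LocR CfsgLib.BlockCore CfsgLib.BlockIdem CfsgLib.BlockR CfsgLib.CharBasic CfsgLib.BlockDefect
open scoped ComplexConjugate

variable {G : Type*} [Group G] [Fintype G] {p : ℕ} [hp : Fact p.Prime] {M : Ideal AlgInt} [hP : M.IsPrime]

theorem dz_coeff (hM : IsPModular p M) {χ : IrrCharacter G}
    (h : (charDegree (χ : G → ℂ)).factorization p = (Nat.card G).factorization p) (g : G)
    (hg : p ∣ Nat.card (Subgroup.centralizer ({g} : Set G))) : (JB M ({χ} : Set (IrrCharacter G))).coeff g = 0 := by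
  classical
  have hG : (Nat.card G : ℂ) ≠ 0 := by exact_mod_cast Nat.card_pos.ne'
  rw [show (JB M ({χ} : Set (IrrCharacter G))).coeff g = rd M (blockCoeff ({χ} : Set (IrrCharacter G)) g) from
    bk_coeff id_inj ({χ} : Set (IrrCharacter G)) g]
  have hcc : Nat.card (Subgroup.centralizer ({g⁻¹} : Set G)) = Nat.card (Subgroup.centralizer ({g} : Set G)) := by
    congr 2
    ext x
    rw [Subgroup.mem_centralizer_singleton_iff, Subgroup.mem_centralizer_singleton_iff]
    constructor
    · intro h1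
      have : x * g = g * (x * g⁻¹)⁻¹⁻¹ * g := by rw [inv_inv, h1]; group
      have h2 : g * x = x * g := by
        calc g * x = g * (x * g⁻¹) * g := by group
          _ = g * (g⁻¹ * x) * g := by rw [h1]
          _ = x * g := by group
      exact h2.symm
    · intro h1
      calc x * g⁻¹ = g⁻¹ * (g * x) * g⁻¹ := by group
        _ = g⁻¹ * (x * g) * g⁻¹ := by rw [h1]
        _ = g⁻¹ * x := by group
  have key : blockCoeff ({χ} : Set (IrrCharacter G)) g =
      ((charDegree (χ : G → ℂ) : ℂ) / (Nat.card G : ℂ)) * (((charDegree (χ : G → ℂ) : ℂ) / (Nat.card G : ℂ)) *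
      ((Nat.card (Subgroup.centralizer ({g} : Set G)) : ℂ) * centralChar (χ : G → ℂ) g⁻¹)) := by
    unfold blockCoeff
    rw [finsum_mem_singleton, ← char_inv_eq_conj (irr_isCharacter χ.2)]
    unfold centralChar
    have h1 := (Subgroup.centralizer ({g⁻¹} : Set G)).card_mul_index
    rw [hcc] at h1
    have h2 : (Nat.card (Subgroup.centralizer ({g} : Set G)) : ℂ) * ((Subgroup.centralizer ({g⁻¹} : Set G)).index : ℂ) = Nat.card G := by
      exact_mod_cast h1
    have h3 := irr_one_ne_zero χ.2
    rw [← CfsgLib.CharInt.irr_one_eq_charDegree χ.2]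
    have h4 : (Nat.card (Subgroup.centralizer ({g} : Set G)) : ℂ) *
      (((Subgroup.centralizer ({g⁻¹} : Set G)).index : ℂ) * (χ : G → ℂ) g⁻¹ / (χ : G → ℂ) 1) =
      (Nat.card G : ℂ) * (χ : G → ℂ) g⁻¹ / (χ : G → ℂ) 1 := by
      rw [← h2]; ring
    rw [h4]
    field_simp
  have h1 : MemLocalRing M ((charDegree (χ : G → ℂ) : ℂ) / (Nat.card G : ℂ)) := ring_div_nat hM Nat.card_pos.ne' h.ge
  have h2 : MemLocalIdeal M (blockCoeff ({χ} : Set (IrrCharacter G)) g) := by
    rw [key]
    apply memI_mul_left h1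
    apply memI_mul_left h1
    apply memI_mul_right _ (centralChar_ring hP χ _)
    exact (memI_natCast_iff hM _).2 hg
  exact (rd_eq_zero (memR_of_memI h2)).2 h2

/-- two characters of defect zero of a group with a split pair coincide -/
theorem unique {F : Type*} [Field F] [Fintype F] [CharP F p] {ι : Type*} (B : Sys F G ι) (hV : IsPGroup p B.V) (hU : IsPGroup p B.U)
    {χ ψ : IrrCharacter G}
    (h : (charDegree (χ : G → ℂ)).factorization p = (Nat.card G).factorization p)
    (h' : (charDegree (ψ : G → ℂ)).factorization p = (Nat.card G).factorization p) : χ = ψ := by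
  classical
  obtain ⟨M, hM⟩ := CfsgLib.DZ19.exists_modular p
  haveI hP : M.IsPrime := hM.2.1.isPrime
  haveI := charP_kM hM
  by_contra hne
  have hb : IsPBlock M ({χ} : Set (IrrCharacter G)) := ⟨χ, (CfsgLib.BlockReg.defect_zero_block hM h).symm⟩
  have hb' : IsPBlock M ({ψ} : Set (IrrCharacter G)) := ⟨ψ, (CfsgLib.BlockReg.defect_zero_block hM h').symm⟩
  have h1 := g_blk hb
  have h2 := g_blk hb'
  have hcl : ∀ {e : MonoidAlgebra (kM M) G}, IsBlk ⊤ e → ∀ x g, e.coeff (x * g * x⁻¹) = e.coeff g :=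
    fun he x g => he.zh.2 x (Subgroup.mem_top x) g
  have hJ : JB M ({χ} : Set (IrrCharacter G)) ≠ JB M ({ψ} : Set (IrrCharacter G)) := by
    intro h3
    have h4 := g_blk_inj hb hb' h3
    exact hne (Set.singleton_injective h4)
  have horth : JB M ({χ} : Set (IrrCharacter G)) * JB M ({ψ} : Set (IrrCharacter G)) = 0 := by
    by_contra h5
    exact hJ (h1.eq_of_mul_ne h2 h5)
  obtain ⟨a, ha⟩ := exists_trace (p := p) (hcl h1) (dz_coeff hM h)
  obtain ⟨a', ha'⟩ := exists_trace (p := p) (hcl h2) (dz_coeff hM h')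
  exact main (p := p) B hV hU h1.idem h2.idem (central_of_class (hcl h1)) (central_of_class (hcl h2)) horth h1.ne h2.ne ha ha'

end Ch

end CfsgLib.UDZ
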