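import Cfsg.Agent.LibUDZ15d
import Cfsg.Agent.LibDC15c
import Cfsg.Agent.LibChevSL2c
import Cfsg.Agent.LibStIrr15b

set_option autoImplicit false
set_option linter.unusedSectionVars false

/-! Chevalley groups have a unique character of defect zero (seat helper15). -/

namespace CfsgLib.Chev

open Cfsg.Lie Matrix CfsgLib.SL2P CfsgLib.UDZ

theorem mem_norm_of {G : Type*} [Group G] {K : Subgroup G} {x : G} (h1 : ∀ y ∈ K, x * y * x⁻¹ ∈ K) (h2 : ∀ y ∈ K, x⁻¹ * y * x ∈ K) :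
    x ∈ Subgroup.normalizer (K : Set G) := by
  rw [Subgroup.mem_normalizer_iff]
  intro y
  refine ⟨h1 y, fun h => ?_⟩
  have := h2 _ h
  have e : x⁻¹ * (x * y * x⁻¹) * x = y := by group
  rwa [e] at this

theorem mem_comap_conj {G : Type*} [Group G] {K : Subgroup G} {x y : G} : y ∈ K.comap (MulAut.conj x).toMonoidHom ↔ x * y * x⁻¹ ∈ K := Iff.rfl

theorem dd_eq {F : Type*} [Field F] (c : Fˣ) : (UDZ.dd c : Matrix.SpecialLinearGroup (Fin 2) F) =
    xx (c : F) * yy (-((c⁻¹ : Fˣ) : F)) * xx (c : F) * (xx (-1) * yy 1 * xx (-1)) := by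
  apply ext2 <;> simp [m00, m01, m10, m11, d00, d01, d10, d11, x00, x01, x10, x11, y00, y01, y10, y11]

namespace Good3

variable {D : ChevalleyDatum} {T : Tb} (g : Good3 D T)
include g

section Mat
variable {F : Type*} [Field F]

theorem conj_UV {w : List ℕ} (hw : VW T w) (h : ∀ r, T.n / 2 ≤ r → r < T.n → wact T w r < T.n / 2) {u : GL D.Idx F}
    (hu : u ∈ D.posUnipotent F) : g.nw w * u * (g.nw w)⁻¹ ∈ D.negUnipotent F := by
  have : D.posUnipotent F ≤ (D.negUnipotent F).comap (MulAut.conj (g.nw w)).toMonoidHom := by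
    rw [g.U_eq]
    unfold Uge
    rw [Subgroup.closure_le]
    rintro z ⟨s, u, h1, h2, rfl⟩
    show g.nw w * g.X s u * (g.nw w)⁻¹ ∈ D.negUnipotent F
    rw [g.nw_X hw h2]
    exact g.X_mem_V (h s h1 h2) _
  exact this hu

theorem conj_VU {w : List ℕ} (hw : VW T w) (h : ∀ r, T.n / 2 ≤ r → r < T.n → wact T w r < T.n / 2) {u : GL D.Idx F}
    (hu : u ∈ D.negUnipotent F) : g.nw w * u * (g.nw w)⁻¹ ∈ D.posUnipotent F := by
  have hev := g.even
  have : D.negUnipotent F ≤ (D.posUnipotent F).comap (MulAut.conj (g.nw w)).toMonoidHom := by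
    conv_lhs => unfold ChevalleyDatum.negUnipotent
    rw [Subgroup.closure_le]
    rintro z ⟨s, u, hs, hz⟩
    rw [g.isNeg_iff] at hs
    rw [g.X_iff] at hz
    subst hz
    show g.nw w * g.X s u * (g.nw w)⁻¹ ∈ D.posUnipotent F
    rw [g.nw_X hw (by omega)]
    have h1 := h (T.n - 1 - s) (by omega) (by omega)
    rw [g.wact_neg hw (by omega)] at h1
    have h2 := g.wact_lt hw (s := s) (by omega)
    exact g.X_mem_U (by omega) h2 _
  exact this hu

theorem V_pgroup {p : ℕ} [Fact p.Prime] [CharP F p] : IsPGroup p (D.negUnipotent F) := by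
  obtain ⟨w, hw, h⟩ := g.exists_longest
  have hU : IsPGroup p (D.posUnipotent F) := g.U_pgroup
  rintro ⟨x, hx⟩
  obtain ⟨k, hk⟩ := hU ⟨_, g.conj_VU hw h hx⟩
  refine ⟨k, Subtype.ext ?_⟩
  have h1 : (g.nw w * x * (g.nw w)⁻¹) ^ (p ^ k) = 1 := congrArg Subtype.val hk
  rw [conj_pow] at h1
  show x ^ (p ^ k) = 1
  have h2 : x ^ (p ^ k) = (g.nw w)⁻¹ * (g.nw w * x ^ (p ^ k) * (g.nw w)⁻¹) * g.nw w := by group
  rw [h2, h1]; group

theorem Up_norm_mem {i r : ℕ} (hi : i < T.l) (hr : r = T.sim i ∨ r = T.n - 1 - T.sim i) (t : F) :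
    g.X r t ∈ Subgroup.normalizer (g.Up (F := F) i : Set (GL D.Idx F)) := by
  apply mem_norm_of
  · intro y hy
    exact g.Up_norm hi hr t hy
  · intro y hy
    have h := g.Up_norm hi hr (-t) hy
    rw [g.X_neg, inv_inv] at h
    exact h

set_option maxHeartbeats 1600000 in
theorem exists_sys : ∃ B : UDZ.Sys F ↥(D.group F) (Fin T.l), B.U = (D.posUnipotent F).subgroupOf (D.group F) ∧
    B.V = (D.negUnipotent F).subgroupOf (D.group F) := by
  classical
  have hev := g.even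
  -- the rank one homomorphisms
  have hφ0 : ∀ j : Fin T.l, ∃ φ : Matrix.SpecialLinearGroup (Fin 2) F →* GL D.Idx F,
      (∀ t, φ (xx t) = g.X (T.sim j) t) ∧ (∀ t, φ (yy t) = g.X (T.n - 1 - T.sim j) t) ∧ φ ww = g.Ng (T.sim j) 1 :=
    fun j => g.exists_sl2_15 (g.sim_lt j.2)
  choose ψ hψx hψy hψw using hφ0
  have hle : ∀ (j : Fin T.l) (K : Subgroup (GL D.Idx F)), (∀ t, g.X (T.sim j) t ∈ K) → (∀ t, g.X (T.n - 1 - T.sim j) t ∈ K) →
      ∀ s, ψ j s ∈ K := by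
    intro j K h1 h2 s
    have : s ∈ K.comap (ψ j) := by
      apply mem_of_gens
      · intro t
        show ψ j (xx t) ∈ K
        rw [hψx]; exact h1 t
      · show ψ j ww ∈ K
        rw [hψw]
        unfold Ng
        exact K.mul_mem (K.mul_mem (h1 _) (h2 _)) (h1 _)
    exact this
  have hψG : ∀ j s, ψ j s ∈ D.group F := by
    intro j
    apply hle
    · intro t; exact g.U_le_G (g.X_mem_U (g.sim_pos j.2) (g.sim_lt j.2) t)
    · intro t
      have h1 := g.sim_pos j.2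
      have h2 := g.sim_lt j.2
      exact g.V_le_G (g.X_mem_V (by omega) t)
  let φ : Fin T.l → (Matrix.SpecialLinearGroup (Fin 2) F →* ↥(D.group F)) := fun j => (ψ j).codRestrict (D.group F) (hψG j)
  -- the longest element
  obtain ⟨w0, hw0, h0⟩ := g.exists_longest
  have h0' : ∀ i < T.l, i ∈ (Set.univ : Set ℕ) → wact T w0 (T.sim i) < T.n / 2 := fun i hi _ => h0 _ (g.sim_pos hi) (g.sim_lt hi)
  have hJ0 : JW (Set.univ : Set ℕ) w0 := fun i _ => Set.mem_univ _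
  have hw0r := VW_reverse hw0
  have h0r : ∀ r, T.n / 2 ≤ r → r < T.n → wact T w0.reverse r < T.n / 2 :=
    g.all_neg hw0r (fun i hi => g.neg_rev hw0 hJ0 h0' i hi (Set.mem_univ _))
  have hst0 : ∀ j : Fin T.l, ∃ i' : Fin T.l, wact T w0 (T.sim j) = T.n - 1 - T.sim i' := by
    intro j
    obtain ⟨i', hi', _, e⟩ := g.neg_sim hw0 hJ0 h0' j.2 (Set.mem_univ _)
    exact ⟨⟨i', hi'⟩, e⟩
  choose st hst using hst0
  obtain ⟨y0, hy0, e0⟩ := g.nw_inv15 (F := F) hw0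
  have hinvUV : ∀ u ∈ D.posUnipotent F, (g.nw w0)⁻¹ * u * g.nw w0 ∈ D.negUnipotent F := by
    intro u hu
    have h1 := g.conj_UV hw0r h0r (g.H_norm_U hy0 hu)
    have e1 : (g.nw w0)⁻¹ * u * g.nw w0 = g.nw w0.reverse * (y0 * u * y0⁻¹) * (g.nw w0.reverse)⁻¹ := by
      have e2 : g.nw (F := F) w0 = ((g.nw w0)⁻¹)⁻¹ := by rw [inv_inv]
      conv_lhs => rw [e2, e0]
      group
    rw [e1]; exact h1
  have hXw : ∀ (j : Fin T.l) (t : F), ∃ t', g.nw w0 * g.X (T.sim j) t * (g.nw w0)⁻¹ = g.X (T.n - 1 - T.sim (st j)) t' := by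
    intro j t
    rw [g.nw_X hw0 (g.sim_lt j.2), hst]
    exact ⟨_, rfl⟩
  have hYw : ∀ (j : Fin T.l) (t : F), g.nw w0 * g.X (T.n - 1 - T.sim j) t * (g.nw w0)⁻¹ =
      g.X (T.sim (st j)) (((sgn T w0 (T.n - 1 - T.sim j) : ℤ) : F) * t) := by
    intro j t
    have h1 := g.sim_lt j.2
    have h2 := g.sim_lt (st j).2
    rw [g.nw_X hw0 (by omega), g.wact_neg hw0 h1, hst]
    congr 1
    omega
  have hnorm : ∀ (j : Fin T.l) s, ψ j s ∈ Subgroup.normalizer (g.Up (F := F) j : Set (GL D.Idx F)) := by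
    intro j
    apply hle
    · intro t; exact g.Up_norm_mem j.2 (Or.inl rfl) t
    · intro t; exact g.Up_norm_mem j.2 (Or.inr rfl) t
  have hnorm' : ∀ (j : Fin T.l) s, g.nw w0 * ψ j s * (g.nw w0)⁻¹ ∈ Subgroup.normalizer (g.Up (F := F) (st j) : Set (GL D.Idx F)) := by
    intro j s
    rw [← mem_comap_conj]
    refine hle j _ (fun t => ?_) (fun t => ?_) s
    · rw [mem_comap_conj]
      obtain ⟨t', e⟩ := hXw j t
      rw [e]
      exact g.Up_norm_mem (st j).2 (Or.inr rfl) t'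
    · rw [mem_comap_conj, hYw]
      exact g.Up_norm_mem (st j).2 (Or.inl rfl) _
  have hdd : ∀ (j : Fin T.l) (c : Fˣ), ψ j (UDZ.dd c) = hd D T (T.sim j) c := by
    intro j c
    rw [dd_eq, map_mul, map_mul, map_mul, map_mul, map_mul, hψx, hψy, hψx, hψy, ← g.Hg_eq (g.sim_lt j.2)]
    unfold Hg Ng
    have e1 : (-(-1 : F)⁻¹) = 1 := by rw [inv_neg, inv_one, neg_neg]
    have e2 : -((c⁻¹ : Fˣ) : F) = -((c : F))⁻¹ := by rw [Units.val_inv_eq_inv_val]
    rw [e1, e2]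
  refine ⟨
    { U := (D.posUnipotent F).subgroupOf (D.group F)
      V := (D.negUnipotent F).subgroupOf (D.group F)
      H := (D.diagonalSubgroup F).subgroupOf (D.group F)
      U' := fun j => (g.Up (F := F) j).subgroupOf (D.group F)
      V' := fun j => ((g.Up (F := F) (st j)).comap (MulAut.conj (g.nw w0)).toMonoidHom).subgroupOf (D.group F)
      φ := φ
      xU := ?_, yV := ?_, yinj := ?_, dH := ?_, HU := ?_, HV := ?_, UU := ?_, VV := ?_, Un := ?_, Vn := ?_, Ud := ?_, Vd := ?_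
      cell := ?_, gen := ?_, Hgen := ?_ }, rfl, rfl⟩
  · intro j t
    show ψ j (xx t) ∈ D.posUnipotent F
    rw [hψx]; exact g.X_mem_U (g.sim_pos j.2) (g.sim_lt j.2) t
  · intro j t
    show ψ j (yy t) ∈ D.negUnipotent F
    rw [hψy]
    have h1 := g.sim_pos j.2
    have h2 := g.sim_lt j.2
    exact g.X_mem_V (by omega) t
  · intro j s t h
    have h1 : ψ j (yy s) = ψ j (yy t) := congrArg Subtype.val h
    rw [hψy, hψy] at h1
    have h2 := g.sim_lt j.2
    exact g.X_inj (by omega) h1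
  · intro j c
    show ψ j (UDZ.dd c) ∈ D.diagonalSubgroup F
    rw [hdd]
    exact g.hd_mem (g.sim_lt j.2) c
  · intro b hb u hu
    have := g.H_norm_U (Subgroup.inv_mem _ (show (b : GL D.Idx F) ∈ D.diagonalSubgroup F from hb)) (show (u : GL D.Idx F) ∈ D.posUnipotent F from hu)
    rw [inv_inv] at this
    exact this
  · intro b hb u hu
    have := g.H_norm_V (Subgroup.inv_mem _ (show (b : GL D.Idx F) ∈ D.diagonalSubgroup F from hb)) (show (u : GL D.Idx F) ∈ D.negUnipotent F from hu)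
    rw [inv_inv] at this
    exact this
  · intro j u hu
    exact g.Up_le_U j hu
  · intro j u hu
    have h1 : g.nw w0 * (u : GL D.Idx F) * (g.nw w0)⁻¹ ∈ g.Up (F := F) (st j) := hu
    have h2 := hinvUV _ (g.Up_le_U _ h1)
    show (u : GL D.Idx F) ∈ D.negUnipotent F
    have e : (g.nw w0)⁻¹ * (g.nw w0 * (u : GL D.Idx F) * (g.nw w0)⁻¹) * g.nw w0 = (u : GL D.Idx F) := by group
    rwa [e] at h2
  · intro j s u hu
    have h1 := (Subgroup.mem_normalizer_iff.1 (Subgroup.inv_mem _ (hnorm j s)) (u : GL D.Idx F)).1 hu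
    rw [inv_inv] at h1
    exact h1
  · intro j s u hu
    have h1 := (Subgroup.mem_normalizer_iff.1 (hnorm' j s) (g.nw w0 * (u : GL D.Idx F) * (g.nw w0)⁻¹)).1 hu
    show g.nw w0 * (ψ j s * (u : GL D.Idx F) * (ψ j s)⁻¹) * (g.nw w0)⁻¹ ∈ g.Up (F := F) (st j)
    have e : g.nw w0 * (ψ j s * (u : GL D.Idx F) * (ψ j s)⁻¹) * (g.nw w0)⁻¹ =
      g.nw w0 * ψ j s * (g.nw w0)⁻¹ * (g.nw w0 * (u : GL D.Idx F) * (g.nw w0)⁻¹) * (g.nw w0 * ψ j s * (g.nw w0)⁻¹)⁻¹ := by group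
    rw [e]; exact h1
  · intro j u hu
    obtain ⟨y, hy, t, e⟩ := (g.U_decomp j.2).1 (Subgroup.inv_mem _ (show (u : GL D.Idx F) ∈ D.posUnipotent F from hu))
    have hyG : y ∈ D.group F := g.U_le_G (g.Up_le_U j hy)
    refine ⟨-t, ⟨y⁻¹, Subgroup.inv_mem _ hyG⟩, (g.Up (F := F) (j : ℕ)).inv_mem hy, Subtype.ext ?_⟩
    show (u : GL D.Idx F) = ψ j (xx (-t)) * y⁻¹
    rw [hψx, g.X_neg, ← _root_.mul_inv_rev, ← e, inv_inv]
  · intro j u hu
    obtain ⟨y, hy, t, e⟩ := (g.U_decomp (st j).2).1 (g.conj_VU hw0 h0 (show (u : GL D.Idx F) ∈ D.negUnipotent F from hu))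
    -- u = n0⁻¹ y n0 * n0⁻¹ X t n0
    have hyG : (g.nw w0)⁻¹ * y * g.nw w0 ∈ D.group F :=
      Subgroup.mul_mem _ (Subgroup.mul_mem _ (Subgroup.inv_mem _ (g.nw_mem_G (F := F) w0)) (g.U_le_G (g.Up_le_U _ hy))) (g.nw_mem_G (F := F) w0)
    have hs : ((sgn T w0 (T.n - 1 - T.sim j) : ℤ) : F) * (((sgn T w0 (T.n - 1 - T.sim j) : ℤ) : F) * t) = t := by
      rcases sgn_cases (T := T) w0 (T.n - 1 - T.sim j) with h | h <;> rw [h] <;> simp
    refine ⟨((sgn T w0 (T.n - 1 - T.sim j) : ℤ) : F) * t, ⟨(g.nw w0)⁻¹ * y * g.nw w0, hyG⟩, ?_, Subtype.ext ?_⟩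
    · show g.nw w0 * ((g.nw w0)⁻¹ * y * g.nw w0) * (g.nw w0)⁻¹ ∈ g.Up (F := F) (st j)
      have e2 : g.nw w0 * ((g.nw w0)⁻¹ * y * g.nw w0) * (g.nw w0)⁻¹ = y := by group
      rw [e2]; exact hy
    · show (u : GL D.Idx F) = (g.nw w0)⁻¹ * y * g.nw w0 * ψ j (yy _)
      rw [hψy]
      have h3 := hYw j (((sgn T w0 (T.n - 1 - T.sim j) : ℤ) : F) * t)
      rw [hs] at h3
      have h4 : (u : GL D.Idx F) = (g.nw w0)⁻¹ * (g.nw w0 * (u : GL D.Idx F) * (g.nw w0)⁻¹) * g.nw w0 := by group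
      rw [h4, e, ← h3]; group
  · intro x
    obtain ⟨b, hb, w, hw, b', hb', e⟩ := g.bruhat_nw (Subgroup.mul_mem _ (g.nw_mem_G (F := F) w0) x.2)
    obtain ⟨u, hu, h, hh, rfl⟩ := g.mem_B.1 hb
    obtain ⟨u2, hu2, h2, hh2, rfl⟩ := g.mem_B.1 hb'
    -- b' = u2 h2 = h2 (h2⁻¹ u2 h2)
    have hu2' : h2⁻¹ * u2 * h2 ∈ D.posUnipotent F := by
      have := g.H_norm_U (Subgroup.inv_mem _ hh2) hu2
      rwa [inv_inv] at this
    have hv := hinvUV u hu
    set m : GL D.Idx F := (g.nw w0)⁻¹ * h * g.nw w * h2 with hm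
    have hx : (x : GL D.Idx F) = ((g.nw w0)⁻¹ * u * g.nw w0) * m * (h2⁻¹ * u2 * h2) := by
      have h3 : (x : GL D.Idx F) = (g.nw w0)⁻¹ * (g.nw w0 * (x : GL D.Idx F)) := by group
      rw [h3, e, hm]; group
    have hmG : m ∈ D.group F := Subgroup.mul_mem _ (Subgroup.mul_mem _ (Subgroup.mul_mem _ (Subgroup.inv_mem _ (g.nw_mem_G (F := F) w0))
      (g.B_le_G (H_le_B hh))) (g.nw_mem_G (F := F) w)) (g.B_le_G (H_le_B hh2))
    obtain ⟨χ, -, -, hχ⟩ := g.H_X hh2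
    obtain ⟨χ1, -, -, hχ1⟩ := g.H_X (Subgroup.mul_mem _ hy0 hh)
    have hmX : ∀ r < T.n, ∀ t : F, ∃ t', m * g.X r t * m⁻¹ = g.X (wact T (w0.reverse ++ w) r) t' := by
      intro r hr t
      have hwr := g.wact_lt hw hr
      have e2 : m * g.X r t * m⁻¹ = g.nw w0.reverse * ((y0 * h) * (g.nw w * (h2 * g.X r t * h2⁻¹) * (g.nw w)⁻¹) * (y0 * h)⁻¹) * (g.nw w0.reverse)⁻¹ := by
        rw [hm, e0]; group
      rw [e2, hχ r hr, g.nw_X hw hr, hχ1 _ hwr, g.nw_X hw0r hwr, wact_append]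
      exact ⟨_, rfl⟩
    have hvw := g.VW_append hw0r hw
    by_cases hall : ∀ i < T.l, T.n / 2 ≤ wact T (w0.reverse ++ w) (T.sim i)
    · left
      have htriv := g.act_of_J_pos (J := Set.univ) hvw (fun i _ => Set.mem_univ _) (fun i hi _ => hall i hi)
      have hnH : g.nw (F := F) (w0.reverse ++ w) ∈ D.diagonalSubgroup F := g.nw_mem_H hvw htriv
      have hmH : m ∈ D.diagonalSubgroup F := by
        have hw' := g.N_H (Subgroup.inv_mem _ (g.nw_mem_N (F := F) hw)) (Subgroup.mul_mem _ hy0 hh)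
        have e3 : m = g.nw (w0.reverse ++ w) * ((g.nw w)⁻¹ * (y0 * h) * ((g.nw w)⁻¹)⁻¹) * h2 := by
          rw [hm, e0, g.nw_append]; group
        rw [e3]
        exact Subgroup.mul_mem _ (Subgroup.mul_mem _ hnH hw') hh2
      exact ⟨⟨_, g.V_le_G hv⟩, hv, ⟨m, hmG⟩, hmH, ⟨_, g.U_le_G hu2'⟩, hu2', Subtype.ext hx⟩
    · right
      push Not at hall
      obtain ⟨j, hj, hneg⟩ := hall
      refine ⟨⟨_, g.V_le_G hv⟩, hv, ⟨m, hmG⟩, ⟨_, g.U_le_G hu2'⟩, hu2', ⟨j, hj⟩, Subtype.ext hx, ?_⟩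
      intro t
      show m * ψ ⟨j, hj⟩ (xx t) * m⁻¹ ∈ D.negUnipotent F
      rw [hψx]
      obtain ⟨t', e4⟩ := hmX (T.sim j) (g.sim_lt hj) t
      rw [e4]
      exact g.X_mem_V hneg t'
  · intro W hW hn x
    have h1 : D.group F ≤ W.map (D.group F).subtype := by
      apply g.G_le
      · intro i hi t
        have hs := g.sim_lt hi
        have hp := g.sim_pos hi
        have h2 : (φ ⟨i, hi⟩ ww) * (φ ⟨i, hi⟩ (yy (-t))) * (φ ⟨i, hi⟩ ww)⁻¹ ∈ W := by
          apply W.mul_mem (W.mul_mem (hn _) (hW _)) (W.inv_mem (hn _))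
          show ψ ⟨i, hi⟩ (yy (-t)) ∈ D.negUnipotent F
          rw [hψy]
          exact g.X_mem_V (by
            show T.n - 1 - T.sim i < T.n / 2
            omega) _
        refine ⟨_, h2, ?_⟩
        have e5 : (ww : Matrix.SpecialLinearGroup (Fin 2) F) * yy (-t) * ww⁻¹ = xx t := by
          rw [mul_inv_eq_iff_eq_mul]
          exact (xw t).symm
        rw [← map_mul, ← map_inv, ← map_mul, e5]
        show ψ ⟨i, hi⟩ (xx t) = _
        rw [hψx]
      · intro i hi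
        refine ⟨_, hn ⟨i, hi⟩, ?_⟩
        show ψ ⟨i, hi⟩ ww = _
        rw [hψw]
        rfl
    obtain ⟨y, hy, e⟩ := h1 x.2
    have : y = x := Subtype.ext e
    rwa [← this]
  · intro W hW x hx
    obtain ⟨a, ha⟩ := g.mem_H.1 (show (x : GL D.Idx F) ∈ D.diagonalSubgroup F from hx)
    rw [← g.hel_range] at ha
    have h1 : ((List.range T.l).map fun i => hd D T (T.sim i) (a i)).prod ∈ W.map (D.group F).subtype := by
      apply Subgroup.list_prod_mem
      intro z hz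
      rw [List.mem_map] at hz
      obtain ⟨i, hi, rfl⟩ := hz
      rw [List.mem_range] at hi
      refine ⟨_, hW ⟨i, hi⟩ (a i), ?_⟩
      show ψ ⟨i, hi⟩ (UDZ.dd (a i)) = _
      rw [hdd]
    rw [← ha] at h1
    obtain ⟨y, hy, e⟩ := h1
    have : y = x := Subtype.ext e
    rwa [← this]

/-- a character of defect zero of a Chevalley group in its characteristic is the Steinberg character -/
theorem dz_unique [Fintype F] {p : ℕ} [Fact p.Prime] [CharP F p] {χ : ↥(D.group F) → ℂ} (hχ : Cfsg.IsIrrCharacter ↥(D.group F) χ)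
    (hdeg : ∃ d : ℕ, χ 1 = (d : ℂ) ∧ p ^ (Nat.card ↥(D.group F)).factorization p ∣ d) : χ = D.steinbergCharacter F := by
  have hp : p.Prime := Fact.out
  have : Fintype ↥(D.group F) := Fintype.ofFinite _
  obtain ⟨B, hU, hV⟩ := g.exists_sys (F := F)
  obtain ⟨d, hd, hdvd⟩ := hdeg
  have h1 : (Cfsg.charDegree χ).factorization p = (Nat.card ↥(D.group F)).factorization p := by
    have e : Cfsg.charDegree χ = d := by unfold Cfsg.charDegree; rw [hd]; simp
    have hd0 : d ≠ 0 := by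
      rintro rfl
      exact CfsgLib.CharBasic.irr_one_ne_zero hχ (by rw [hd]; simp)
    apply le_antisymm
    · exact (Nat.factorization_le_iff_dvd (by rw [e]; exact hd0) Nat.card_pos.ne').2 (CfsgLib.CharInt2.charDegree_dvd_card hχ) p
    · rw [e]
      exact (hp.pow_dvd_iff_le_factorization hd0).1 hdvd
  have hUp : IsPGroup p B.U := by
    rw [hU]
    exact (g.U_pgroup (F := F) (p := p)).of_equiv (Subgroup.subgroupOfEquivOfLe g.U_le_G).symm
  have hVp : IsPGroup p B.V := by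
    rw [hV]
    exact (g.V_pgroup (F := F) (p := p)).of_equiv (Subgroup.subgroupOfEquivOfLe g.V_le_G).symm
  have h2 := UDZ.unique (p := p) B hVp hUp (χ := ⟨χ, hχ⟩) (ψ := ⟨D.steinbergCharacter F, g.stein_irr⟩) h1 g.stein_deg
  exact congrArg Subtype.val h2

end Mat

end Good3

end CfsgLib.Chev
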