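import Cfsg.Agent.LibUDZ15d

set_option autoImplicit false
set_option linter.unusedSectionVars false

/-! Blocks of positive defect of groups of parabolic type (seat helper15). -/

namespace CfsgLib.UDZ

open CfsgLib.BrP

section Alg
variable {k : Type*} [Field k] {Γ : Type*} [Group Γ] [Fintype Γ] {p : ℕ} [hp : Fact p.Prime] [CharP k p]

theorem sig_coeff (P : Subgroup Γ) (g : Γ) [Decidable (g ∈ P)] : (sig k P).coeff g = if g ∈ P then 1 else 0 := by
  classical
  unfold sig
  rw [sum_coeff]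
  by_cases hg : g ∈ P
  · rw [if_pos hg, Finset.sum_eq_single (⟨g, hg⟩ : P)]
    · rw [MonoidAlgebra.coeff_single, Finsupp.single_eq_same]
    · intro b _ hb
      rw [MonoidAlgebra.coeff_single, Finsupp.single_eq_of_ne]
      intro h
      exact hb (Subtype.ext h.symm)
    · intro h; exact absurd (Finset.mem_univ _) h
  · rw [if_neg hg]
    apply Finset.sum_eq_zero
    intro b _
    rw [MonoidAlgebra.coeff_single, Finsupp.single_eq_of_ne]
    rintro rfl
    exact hg b.2

/-- a nonzero idempotent supported on a `p`-group is killed from no side by the group sum -/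
theorem sig_mul_idem {Q : Subgroup Γ} (hQ : IsPGroup p Q) {t : MonoidAlgebra k Γ} (hs : Supp Q t) (ht : t * t = t) (h0 : t ≠ 0) :
    sig k Q * t = sig k Q := by
  classical
  obtain ⟨v, hv0, ⟨hvt, hvs⟩, hfix⟩ := exists_fixed_vector hQ h0 (fun w => w * t = w ∧ Supp Q w)
    (fun u hu => ⟨by rw [mul_assoc, ht], supp_mul (supp_single hu) hs⟩) ⟨by rw [zero_mul], supp_zero⟩
    (fun a b ha hb => ⟨by rw [add_mul, ha.1, hb.1], supp_add ha.2 hb.2⟩)
    (fun a ha => ⟨by rw [neg_mul, ha.1], fun g hg => by rw [neg_coeff, ha.2 g hg, neg_zero]⟩)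
  have hv : v = v.coeff 1 • sig k Q := by
    apply ext'
    intro g
    rw [smul_coeff, sig_coeff]
    by_cases hg : g ∈ Q
    · rw [if_pos hg, mul_one]
      have h1 := hfix g hg
      conv_lhs => rw [← h1]
      rw [single_mul_coeff, inv_mul_cancel]
    · rw [if_neg hg, mul_zero]
      exact hvs g hg
  have hc : v.coeff 1 ≠ 0 := by
    intro h
    rw [h, zero_smul] at hv
    exact hv0 hv
  rw [hv, smul_mul_assoc] at hvt
  exact smul_right_injective _ hc hvt

theorem idem_one {Q : Subgroup Γ} (hQ : IsPGroup p Q) {t : MonoidAlgebra k Γ} (hs : Supp Q t) (ht : t * t = t) (h0 : t ≠ 0) :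
    t = 1 := by
  classical
  by_contra hne
  have h1 := sig_mul_idem hQ hs ht h0
  have h2 := sig_mul_idem hQ (t := 1 - t) (supp_sub supp_one hs) (by
    rw [sub_mul, one_mul, mul_sub, mul_one, ht, sub_self, sub_zero]) (sub_ne_zero.2 (Ne.symm hne))
  rw [mul_sub, mul_one, h1, sub_self] at h2
  have h3 : (0 : MonoidAlgebra k Γ).coeff 1 = (sig k Q).coeff 1 := by rw [← h2]
  rw [sig_coeff, if_pos Q.one_mem, zero_coeff] at h3
  exact one_ne_zero h3.symm

/-- Borel-Tits hypothesis: every nontrivial `p`-subgroup lies in a self centralizing one with larger normalizer -/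
def BT (p : ℕ) (Γ : Type*) [Group Γ] : Prop := ∀ R : Subgroup Γ, IsPGroup p R → R ≠ ⊥ → ∃ Q : Subgroup Γ, IsPGroup p Q ∧ R ≤ Q ∧
  Subgroup.normalizer (R : Set Γ) ≤ Subgroup.normalizer (Q : Set Γ) ∧ Subgroup.centralizer (Q : Set Γ) ≤ Q

theorem br_sylow (hBT : BT p Γ) {e : MonoidAlgebra k Γ} (he : IsBlk ⊤ e) {P : Subgroup Γ} (hP : IsPGroup p P) (hP1 : P ≠ ⊥)
    (hPe : Br P e ≠ 0) : ∃ S : Sylow p Γ, Br (S : Subgroup Γ) e = 1 := by
  classical
  obtain ⟨D, hD⟩ := exists_isDef (p := p) he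
  have hD1 : D ≠ ⊥ := by
    rintro rfl
    obtain ⟨x, _, hx⟩ := hD.ge le_top hP hPe
    apply hP1
    rw [eq_bot_iff]
    intro y hy
    have h1 := hx hy
    rw [mem_cS, Subgroup.mem_bot] at h1
    rw [Subgroup.mem_bot]
    have h2 : y = x * (x⁻¹ * y * x) * x⁻¹ := by group
    rw [h2, h1]; group
  obtain ⟨Q, hQ, hDQ, hN, hC⟩ := hBT D hD.pg hD1
  set t := Br D e with ht
  have hfx : Fx ⊤ e := he.zh.2
  have htt : t * t = t := by rw [ht, ← br_mul hD.pg (fx_mono le_top hfx) (fx_mono le_top hfx), he.idem]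
  have hfxN : Fx (Subgroup.normalizer (D : Set Γ)) t := fx_br le_rfl (fx_mono le_top hfx)
  have hzN : ZH (Subgroup.normalizer (D : Set Γ)) t := ⟨supp_mono (centralizer_le_normalizer D) (supp_br_self D e), hfxN⟩
  -- D₁
  set D1 : Subgroup Γ := Q ⊓ Subgroup.normalizer (D : Set Γ) with hD1d
  have hDD1 : D ≤ D1 := le_inf hDQ Subgroup.le_normalizer
  have hD1p : IsPGroup p D1 := hQ.to_le inf_le_left
  have hNN : Subgroup.normalizer (D : Set Γ) ≤ Subgroup.normalizer (D1 : Set Γ) := by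
    intro n hn
    rw [Subgroup.mem_normalizer_iff]
    intro y
    have h1 := Subgroup.mem_normalizer_iff.1 (hN hn) y
    constructor
    · rintro ⟨hy1, hy2⟩
      exact ⟨h1.1 hy1, Subgroup.mul_mem _ (Subgroup.mul_mem _ hn hy2) (Subgroup.inv_mem _ hn)⟩
    · rintro ⟨hy1, hy2⟩
      refine ⟨h1.2 hy1, ?_⟩
      have h3 := Subgroup.mul_mem _ (Subgroup.mul_mem _ (Subgroup.inv_mem _ hn) hy2) hn
      have e3 : n⁻¹ * (n * y * n⁻¹) * n = y := by group
      rw [e3] at h3
      exact h3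
  have hbr1 : Br D1 e ≠ 0 := by
    intro h
    have h1 : Br D1 t = 0 := by rw [ht, br_br hDD1, h]
    exact hD.br (idem_eq_zero_of_br inf_le_right hD1p hNN hzN htt h1)
  have hcard : Nat.card D1 ≤ Nat.card D := by
    obtain ⟨x, _, hx⟩ := hD.ge le_top hD1p hbr1
    rw [← card_cS x D]
    exact Nat.card_le_card_of_injective _ (Subgroup.inclusion_injective hx)
  have hD1D : D1 = D := (Subgroup.eq_of_le_of_card_ge hDD1 hcard).symm
  have hDQ' : D = Q := by
    by_contra hne
    have hlt : D < Q := lt_of_le_of_ne hDQ hne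
    have hnil : Group.IsNilpotent Q := hQ.isNilpotent
    have h1 : D.subgroupOf Q < ⊤ := by
      rw [lt_top_iff_ne_top]
      intro h
      rw [Subgroup.subgroupOf_eq_top] at h
      exact hne (le_antisymm hDQ h)
    have h2 := (Group.normalizerCondition_of_isNilpotent (G := Q)) _ h1
    obtain ⟨y, hy1, hy2⟩ := SetLike.exists_of_lt h2
    apply hy2
    rw [Subgroup.mem_subgroupOf, ← hD1D]
    refine ⟨y.2, ?_⟩
    show (y : Γ) ∈ Subgroup.normalizer (D : Set Γ)
    rw [Subgroup.mem_normalizer_iff] at hy1 ⊢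
    intro z
    constructor
    · intro hz
      exact (hy1 ⟨z, hDQ hz⟩).1 hz
    · intro hz
      have hz' : z ∈ Q := by
        have h3 := Q.mul_mem (Q.mul_mem (Q.inv_mem y.2) (hDQ hz)) y.2
        have e3 : (y : Γ)⁻¹ * ((y : Γ) * z * (y : Γ)⁻¹) * (y : Γ) = z := by group
        rw [e3] at h3
        exact h3
      exact (hy1 ⟨z, hz'⟩).2 hz
  have hsupp : Supp D t := by
    apply supp_mono _ (supp_br_self D e)
    rw [hDQ']; exact hC
  have ht1 : t = 1 := idem_one hD.pg hsupp htt hD.br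
  obtain ⟨S, hS⟩ := hD.pg.exists_le_sylow
  exact ⟨S, by rw [← br_br hS e, ← ht, ht1, br_one]⟩

/-- at most one block of positive defect -/
theorem pos_unique (hBT : BT p Γ) {e e' : MonoidAlgebra k Γ} (he : IsBlk ⊤ e) (he' : IsBlk ⊤ e') {P P' : Subgroup Γ}
    (hP : IsPGroup p P) (hP1 : P ≠ ⊥) (hPe : Br P e ≠ 0) (hP' : IsPGroup p P') (hP1' : P' ≠ ⊥) (hPe' : Br P' e' ≠ 0) : e = e' := by
  classical
  obtain ⟨S, hS⟩ := br_sylow hBT he hP hP1 hPe
  obtain ⟨S', hS'⟩ := br_sylow hBT he' hP' hP1' hPe'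
  by_contra hne
  have horth : e * e' = 0 := by
    by_contra h
    exact hne (he.eq_of_mul_ne he' h)
  obtain ⟨x, hx⟩ := MulAction.exists_smul_eq Γ S' S
  have h1 : Br (S : Subgroup Γ) e' = 1 := by
    have h2 : (S : Subgroup Γ) = cS x (S' : Subgroup Γ) := by
      rw [← hx]
      rfl
    have h3 : cj x e' = e' := fx_iff.1 he'.zh.2 x (Subgroup.mem_top x)
    have h4 : Br (cS x (S' : Subgroup Γ)) (cj x e') = cj x (Br (S' : Subgroup Γ) e') := (cj_br _ _ _).symm
    rw [h2, ← h3, h4, hS', cj_one]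
  have h5 := br_mul S.2 (fx_mono le_top he.zh.2) (fx_mono le_top he'.zh.2) (k := k) (G := Γ) (P := (S : Subgroup Γ))
  rw [horth, br_zero, hS, h1, one_mul] at h5
  exact zero_ne_one h5

end Alg

section Ch

open Cfsg CfsgLib.LocR CfsgLib.BlockCore CfsgLib.BlockIdem CfsgLib.BlockR CfsgLib.CharBasic
open scoped ComplexConjugate

variable {G : Type*} [Group G] [Fintype G] {p : ℕ} [hp : Fact p.Prime] {M : Ideal AlgInt}

theorem coeff_zero_of_br {k : Type*} [Field k] [CharP k p] {e : MonoidAlgebra k G} (h : ∀ P : Subgroup G, IsPGroup p P → P ≠ ⊥ → Br P e = 0)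
    (g : G) (hg : p ∣ Nat.card (Subgroup.centralizer ({g} : Set G))) : e.coeff g = 0 := by
  classical
  obtain ⟨z, hz⟩ := exists_prime_orderOf_dvd_card' p hg
  have hz0 : orderOf (z : G) = p := by rw [Subgroup.orderOf_coe]; exact hz
  have h1 := h (Subgroup.zpowers (z : G)) (IsPGroup.of_card (n := 1) (by rw [Nat.card_zpowers, hz0, pow_one])) (by
    intro hb
    rw [Subgroup.zpowers_eq_bot] at hb
    rw [hb, orderOf_one] at hz0
    exact hp.out.one_lt.ne hz0)
  have h2 : g ∈ Subgroup.centralizer (Subgroup.zpowers (z : G) : Set G) := by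
    rw [Subgroup.mem_centralizer_iff]
    rintro _ ⟨n, rfl⟩
    have h3 := z.2
    rw [Subgroup.mem_centralizer_singleton_iff] at h3
    have h4 : Commute (z : G) g := h3
    exact (h4.zpow_left n)
  rw [← br_coeff_of e h2, h1, zero_coeff]

/-- exactly two blocks -/
theorem two_blocks {F : Type*} [Field F] [Fintype F] [CharP F p] {ι : Type*} (B : Sys F G ι) (hV : IsPGroup p B.V) (hU : IsPGroup p B.U)
    (hBT : BT p G) (hM : IsPModular p M) {St : IrrCharacter G} (hSt : (charDegree (St : G → ℂ)).factorization p = (Nat.card G).factorization p)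
    (hS1 : (St : G → ℂ) 1 ≠ 1) : Nat.card {b : Set (IrrCharacter G) // IsPBlock M b} = 2 := by
  classical
  have hP : M.IsPrime := hM.2.1.isPrime
  have hchar := charP_kM hM
  have hbS : IsPBlock M ({St} : Set (IrrCharacter G)) := ⟨St, (CfsgLib.BlockReg.defect_zero_block hM hSt).symm⟩
  let one : IrrCharacter G := ⟨fun _ => 1, isIrrCharacter_one⟩
  have hb1 : IsPBlock M (blockOf M (one : G → ℂ)) := ⟨one, rfl⟩
  have h1mem : one ∈ blockOf M (one : G → ℂ) := mem_blockOf_self hP _
  have hne : blockOf M (one : G → ℂ) ≠ {St} := by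
    intro h
    rw [h] at h1mem
    have h2 : one = St := h1mem
    apply hS1
    rw [← h2]
  have hcl : ∀ {e : MonoidAlgebra (kM M) G}, IsBlk ⊤ e → ∀ x g, e.coeff (x * g * x⁻¹) = e.coeff g :=
    fun he x g => he.zh.2 x (Subgroup.mem_top x) g
  have hS := g_blk hbS
  obtain ⟨a0, ha0⟩ := exists_trace (p := p) (hcl hS) (dz_coeff hM hSt)
  have hzero : ∀ b, IsPBlock M b → (∀ P : Subgroup G, IsPGroup p P → P ≠ ⊥ → Br P (JB M b) = 0) → b = {St} := by
    intro b hb h
    have hbb := g_blk hb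
    obtain ⟨a, ha⟩ := exists_trace (p := p) (hcl hbb) (coeff_zero_of_br h)
    apply g_blk_inj hb hbS
    by_contra hcon
    have horth : JB M b * JB M ({St} : Set (IrrCharacter G)) = 0 := by
      by_contra h5
      exact hcon (hbb.eq_of_mul_ne hS h5)
    exact main (p := p) B hV hU hbb.idem hS.idem (central_of_class (hcl hbb)) (central_of_class (hcl hS)) horth hbb.ne hS.ne ha ha0
  have hpos : ∀ b, IsPBlock M b → b ≠ {St} → ∃ P : Subgroup G, IsPGroup p P ∧ P ≠ ⊥ ∧ Br P (JB M b) ≠ 0 := by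
    intro b hb hbne
    by_contra hcon
    push Not at hcon
    exact hbne (hzero b hb hcon)
  have hall : ∀ b, IsPBlock M b → b = {St} ∨ b = blockOf M (one : G → ℂ) := by
    intro b hb
    by_cases h : b = {St}
    · exact Or.inl h
    · right
      obtain ⟨P, h1, h2, h3⟩ := hpos b hb h
      obtain ⟨P', h1', h2', h3'⟩ := hpos _ hb1 hne
      exact g_blk_inj hb hb1 (pos_unique hBT (g_blk hb) (g_blk hb1) h1 h2 h3 h1' h2' h3')
  have e1 : {b : Set (IrrCharacter G) // IsPBlock M b} ≃ ({{St}, blockOf M (one : G → ℂ)} : Set (Set (IrrCharacter G))) :=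
    Equiv.subtypeEquivRight (fun b => ⟨fun hb => by
      rcases hall b hb with h | h
      · exact Or.inl h
      · exact Or.inr h, fun hb => by
      rcases hb with h | h
      · rw [h]; exact hbS
      · rw [h]; exact hb1⟩)
  rw [Nat.card_congr e1, Nat.card_coe_set_eq, Set.ncard_pair hne.symm]

end Ch

end CfsgLib.UDZ
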