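import Cfsg.Agent.LibUDZ15e
import Cfsg.Agent.LibUDZ15f
import Cfsg.Agent.LibCentUJ15b

set_option autoImplicit false
set_option linter.unusedSectionVars false

/-! Chevalley groups without centre have exactly two blocks (seat helper15). -/

namespace CfsgLib.Chev

open Cfsg.Lie Matrix CfsgLib.UDZ

namespace Good3

variable {D : ChevalleyDatum} {T : Tb} (g : Good3 D T)
include g

section Mat
variable {F : Type*} [Field F]

theorem bt_sys [Fintype F] {p : ℕ} [Fact p.Prime] [CharP F p] (hA : Adj T) (hl : 0 < T.l) : BT p ↥(D.group F) := by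
  intro R hR hR1
  have hRG : R.map (D.group F).subtype ≤ D.group F := by
    rintro _ ⟨q, _, rfl⟩
    exact q.2
  obtain ⟨x, hxG, J, hJ, h2, h3⟩ := g.borel_tits (p := p) hl (R.map (D.group F).subtype) hRG (hR.map _) (by
    intro h
    apply hR1
    rw [Subgroup.map_eq_bot_iff_of_injective _ (Subgroup.subtype_injective _)] at h
    exact h)
  have hmem : ∀ y : GL D.Idx F, y ∈ (D.unipotentRadical F J).map (MulAut.conj x).toMonoidHom ↔ x⁻¹ * y * x ∈ D.unipotentRadical F J := by
    intro y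
    constructor
    · rintro ⟨z, hz, rfl⟩
      have e : x⁻¹ * (MulAut.conj x).toMonoidHom z * x = z := by
        show x⁻¹ * (x * z * x⁻¹) * x = z
        group
      rw [e]; exact hz
    · intro h
      refine ⟨_, h, ?_⟩
      show x * (x⁻¹ * y * x) * x⁻¹ = y
      group
  refine ⟨((D.unipotentRadical F J).map (MulAut.conj x).toMonoidHom).subgroupOf (D.group F), ?_, ?_, ?_, ?_⟩
  · have h4 : IsPGroup p ↥(D.posUnipotent F) := g.U_pgroup
    have h5 : IsPGroup p ↥(D.unipotentRadical F J) := h4.to_le (g.UJ_le_U _)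
    have h6 : IsPGroup p ↥((D.unipotentRadical F J).map (MulAut.conj x).toMonoidHom) := h5.map _
    exact h6.comap_of_injective _ (Subgroup.subtype_injective _)
  · intro y hy
    exact h3 ⟨y, hy, rfl⟩
  · intro n hn
    have hn' : (n : GL D.Idx F) ∈ Subgroup.normalizer ((R.map (D.group F).subtype : Subgroup (GL D.Idx F)) : Set (GL D.Idx F)) ⊓ D.group F := by
      refine ⟨?_, n.2⟩
      show (n : GL D.Idx F) ∈ Subgroup.normalizer ((R.map (D.group F).subtype : Subgroup (GL D.Idx F)) : Set (GL D.Idx F))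
      rw [Subgroup.mem_normalizer_iff] at hn ⊢
      intro z
      constructor
      · rintro ⟨z, hz, rfl⟩
        exact ⟨_, (hn z).1 hz, rfl⟩
      · rintro ⟨z', hz', e⟩
        have e1 : (z' : GL D.Idx F) = (n : GL D.Idx F) * z * (n : GL D.Idx F)⁻¹ := e
        have hzG : z ∈ D.group F := by
          have : z = (n : GL D.Idx F)⁻¹ * (z' : GL D.Idx F) * (n : GL D.Idx F) := by rw [e1]; group
          rw [this]
          exact Subgroup.mul_mem _ (Subgroup.mul_mem _ (Subgroup.inv_mem _ n.2) z'.2) n.2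
        refine ⟨⟨z, hzG⟩, (hn ⟨z, hzG⟩).2 ?_, rfl⟩
        have e2 : n * ⟨z, hzG⟩ * n⁻¹ = z' := Subtype.ext e1.symm
        rw [e2]; exact hz'
    obtain ⟨y, hy, e⟩ := h2 hn'
    have e' : (n : GL D.Idx F) = x * y * x⁻¹ := e.symm
    apply mem_norm_of
    · intro u hu
      have h5 : (u : GL D.Idx F) ∈ (D.unipotentRadical F J).map (MulAut.conj x).toMonoidHom := hu
      rw [hmem] at h5
      show (n : GL D.Idx F) * u * (n : GL D.Idx F)⁻¹ ∈ (D.unipotentRadical F J).map (MulAut.conj x).toMonoidHom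
      rw [hmem]
      have e3 : x⁻¹ * ((n : GL D.Idx F) * u * (n : GL D.Idx F)⁻¹) * x = y * (x⁻¹ * u * x) * y⁻¹ := by rw [e']; group
      rw [e3]
      exact g.conj_UJ hy h5
    · intro u hu
      have h5 : (u : GL D.Idx F) ∈ (D.unipotentRadical F J).map (MulAut.conj x).toMonoidHom := hu
      rw [hmem] at h5
      show (n : GL D.Idx F)⁻¹ * u * (n : GL D.Idx F) ∈ (D.unipotentRadical F J).map (MulAut.conj x).toMonoidHom
      rw [hmem]
      have e3 : x⁻¹ * ((n : GL D.Idx F)⁻¹ * u * (n : GL D.Idx F)) * x = y⁻¹ * (x⁻¹ * u * x) * y := by rw [e']; group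
      rw [e3]
      exact g.conj_UJ' hy h5
  · intro c hc
    rw [Subgroup.mem_centralizer_iff] at hc
    show (c : GL D.Idx F) ∈ (D.unipotentRadical F J).map (MulAut.conj x).toMonoidHom
    rw [hmem]
    apply g.cent_UJ hA hJ (Subgroup.mul_mem _ (Subgroup.mul_mem _ (Subgroup.inv_mem _ hxG) c.2) hxG)
    intro u hu
    have huG : x * u * x⁻¹ ∈ D.group F := Subgroup.mul_mem _ (Subgroup.mul_mem _ hxG (g.U_le_G (g.UJ_le_U J hu))) (Subgroup.inv_mem _ hxG)
    have h5 := hc ⟨x * u * x⁻¹, huG⟩ (by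
      show x * u * x⁻¹ ∈ (D.unipotentRadical F J).map (MulAut.conj x).toMonoidHom
      rw [hmem]
      have e3 : x⁻¹ * (x * u * x⁻¹) * x = u := by group
      rw [e3]; exact hu)
    have h6 : x * u * x⁻¹ * (c : GL D.Idx F) = (c : GL D.Idx F) * (x * u * x⁻¹) := congrArg Subtype.val h5
    calc x⁻¹ * (c : GL D.Idx F) * x * u = x⁻¹ * ((c : GL D.Idx F) * (x * u * x⁻¹)) * x := by group
      _ = x⁻¹ * (x * u * x⁻¹ * (c : GL D.Idx F)) * x := by rw [h6]
      _ = u * (x⁻¹ * (c : GL D.Idx F) * x) := by group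

theorem two_blocks [Fintype F] {p : ℕ} [Fact p.Prime] [CharP F p] (hA : Adj T) (hl : 0 < T.l) {M : Ideal Cfsg.AlgInt}
    (hM : Cfsg.IsPModular p M) : Nat.card {b : Set (Cfsg.IrrCharacter ↥(D.group F)) // Cfsg.IsPBlock M b} = 2 := by
  have : Fintype ↥(D.group F) := Fintype.ofFinite _
  obtain ⟨B, hU, hV⟩ := g.exists_sys (F := F)
  have hUp : IsPGroup p B.U := by
    rw [hU]
    exact (g.U_pgroup (F := F) (p := p)).of_equiv (Subgroup.subgroupOfEquivOfLe g.U_le_G).symm
  have hVp : IsPGroup p B.V := by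
    rw [hV]
    exact (g.V_pgroup (F := F) (p := p)).of_equiv (Subgroup.subgroupOfEquivOfLe g.V_le_G).symm
  apply UDZ.two_blocks (p := p) B hVp hUp (g.bt_sys hA hl) hM (St := ⟨D.steinbergCharacter F, g.stein_irr⟩) g.stein_deg
  show D.steinbergCharacter F 1 ≠ 1
  rw [g.stein_one]
  intro h
  have h1 : Nat.card ↥(D.posUnipotent F) = 1 := by exact_mod_cast h
  rw [Subgroup.card_eq_one] at h1
  have h2 := g.X_mem_U (F := F) (g.sim_pos hl) (g.sim_lt hl) 1
  rw [h1, Subgroup.mem_bot, g.X_eq_one (g.sim_lt hl)] at h2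
  exact one_ne_zero h2

end Mat

end Good3

end CfsgLib.Chev
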