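import Cfsg.Agent.LibUDZ15f

set_option autoImplicit false
set_option linter.unusedSectionVars false

/-! Blocks of positive defect of groups of parabolic type with centre (seat helper15). -/

namespace CfsgLib.UDZ

open CfsgLib.BrP

section Alg
variable {k : Type*} [Field k] {Γ : Type*} [Group Γ] [Fintype Γ] {p : ℕ} [hp : Fact p.Prime] [CharP k p]

/-- a central idempotent supported on `Z` affording the linear character `c` of `Z` -/
structure IsZI (Z : Subgroup Γ) (c : Γ → k) (f : MonoidAlgebra k Γ) : Prop where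
  supp : Supp Z f
  idem : f * f = f
  ne : f ≠ 0
  eig : ∀ z ∈ Z, MonoidAlgebra.single z (1 : k) * f = c z • f

theorem IsZI.coeff {Z : Subgroup Γ} {c : Γ → k} {f : MonoidAlgebra k Γ} (h : IsZI Z c f) {z : Γ} (hz : z ∈ Z) :
    f.coeff z = c z⁻¹ * f.coeff 1 := by
  have h1 := h.eig z⁻¹ (Z.inv_mem hz)
  have h2 : (MonoidAlgebra.single z⁻¹ (1 : k) * f).coeff 1 = (c z⁻¹ • f).coeff 1 := by rw [h1]
  rw [single_mul_coeff, inv_inv, mul_one, smul_coeff] at h2
  exact h2

theorem IsZI.coeff_one_ne {Z : Subgroup Γ} {c : Γ → k} {f : MonoidAlgebra k Γ} (h : IsZI Z c f) : f.coeff 1 ≠ 0 := by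
  intro h1
  apply h.ne
  apply ext'
  intro g
  rw [zero_coeff]
  by_cases hg : g ∈ Z
  · rw [h.coeff hg, h1, mul_zero]
  · exact h.supp g hg

theorem central_comm {Z : Subgroup Γ} (hZ : Z ≤ Subgroup.center Γ) {f : MonoidAlgebra k Γ} (hf : Supp Z f) (a : MonoidAlgebra k Γ) :
    a * f = f * a := by
  apply comm_of_fx_supp (H := Z) _ hf
  intro x hx g
  have h1 := Subgroup.mem_center_iff.1 (hZ hx) g
  rw [← h1]
  congr 1; group

theorem sig_mul_idem' {Q Z : Subgroup Γ} (hQ : IsPGroup p Q) (hZ : Z ≤ Subgroup.center Γ) (hQZ : ∀ x, x ∈ Q → x ∈ Z → x = 1)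
    {c : Γ → k} {f t : MonoidAlgebra k Γ} (hf : IsZI Z c f)
    (hs : ∀ g, (∀ q ∈ Q, ∀ z ∈ Z, g ≠ q * z) → t.coeff g = 0) (ht : t * t = t) (htf : t * f = t) (h0 : t ≠ 0) :
    sig k Q * t = sig k Q * f := by
  classical
  obtain ⟨v, hv0, ⟨hvt, hvs⟩, hfix⟩ := exists_fixed_vector hQ h0
    (fun w => w * t = w ∧ (∀ g, (∀ q ∈ Q, ∀ z ∈ Z, g ≠ q * z) → w.coeff g = 0))
    (fun u hu => ⟨by rw [mul_assoc, ht], fun g hg => by
      rw [single_mul_coeff]
      apply hs
      intro q hq z hz e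
      exact hg (u * q) (Q.mul_mem hu hq) z hz (by rw [mul_assoc, ← e]; group)⟩) ⟨by rw [zero_mul], fun g _ => zero_coeff g⟩
    (fun a b ha hb => ⟨by rw [add_mul, ha.1, hb.1], fun g hg => by rw [add_coeff, ha.2 g hg, hb.2 g hg, add_zero]⟩)
    (fun a ha => ⟨by rw [neg_mul, ha.1], fun g hg => by rw [neg_coeff, ha.2 g hg, neg_zero]⟩)
  have hvf : v * f = v := by rw [← hvt, mul_assoc, htf]
  have hveig : ∀ z ∈ Z, ∀ g, v.coeff (z⁻¹ * g) = c z * v.coeff g := by
    intro z hz g
    have h1 : MonoidAlgebra.single z (1 : k) * v = c z • v := by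
      have h2 : MonoidAlgebra.single z (1 : k) * v = v * MonoidAlgebra.single z (1 : k) :=
        (central_comm hZ (supp_single hz) v).symm
      rw [h2]
      conv_lhs => rw [← hvf]
      rw [mul_assoc, central_comm hZ (supp_single hz) f |>.symm.symm, hf.eig z hz, mul_smul_comm, hvf]
    have h2 : (MonoidAlgebra.single z (1 : k) * v).coeff g = (c z • v).coeff g := by rw [h1]
    rw [single_mul_coeff, smul_coeff] at h2
    exact h2
  have hv : v = (v.coeff 1 * (f.coeff 1)⁻¹) • (sig k Q * f) := by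
    apply ext'
    intro g
    rw [smul_coeff]
    by_cases hg : ∃ q ∈ Q, ∃ z ∈ Z, g = q * z
    · obtain ⟨q, hq, z, hz, rfl⟩ := hg
      have h1 : v.coeff (q * z) = v.coeff z := by
        have h2 := hfix q hq
        conv_lhs => rw [← h2]
        rw [single_mul_coeff]
        congr 1; group
      have h3 : v.coeff z = c z⁻¹ * v.coeff 1 := by
        have := hveig z⁻¹ (Z.inv_mem hz) 1
        rw [inv_inv, mul_one] at this
        exact this
      have h4 : (sig k Q * f).coeff (q * z) = f.coeff z := by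
        rw [mul_coeff, Finset.sum_eq_single q]
        · rw [sig_coeff, if_pos hq, one_mul]
          congr 1; group
        · intro x _ hx
          rw [sig_coeff]
          by_cases hxQ : x ∈ Q
          · rw [if_pos hxQ, one_mul]
            apply hf.supp
            intro h5
            apply hx
            have h6 : x⁻¹ * q = 1 := by
              apply hQZ _ (Q.mul_mem (Q.inv_mem hxQ) hq)
              have h7 := Z.mul_mem h5 (Z.inv_mem hz)
              have h8 : x⁻¹ * (q * z) * z⁻¹ = x⁻¹ * q := by group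
              rwa [h8] at h7
            exact (inv_mul_eq_one.1 h6)
          · rw [if_neg hxQ, zero_mul]
        · intro h; exact absurd (Finset.mem_univ _) h
      rw [h1, h3, h4, hf.coeff hz]
      have := hf.coeff_one_ne
      field_simp
    · push Not at hg
      rw [hvs g (fun q hq z hz e => hg q hq z hz e), mul_coeff, Finset.sum_eq_zero, mul_zero]
      intro x _
      rw [sig_coeff]
      by_cases hxQ : x ∈ Q
      · rw [if_pos hxQ, one_mul]
        apply hf.supp
        intro h5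
        exact hg x hxQ _ h5 (by group)
      · rw [if_neg hxQ, zero_mul]
  have hc : v.coeff 1 * (f.coeff 1)⁻¹ ≠ 0 := by
    intro h
    rw [h, zero_smul] at hv
    exact hv0 hv
  rw [hv, smul_mul_assoc] at hvt
  have h9 := smul_right_injective _ hc hvt
  have h10 : sig k Q * f * t = sig k Q * t := by
    rw [mul_assoc, ← central_comm hZ hf.supp t, htf]
  rw [← h10]
  exact h9

theorem idem_f {Q Z : Subgroup Γ} (hQ : IsPGroup p Q) (hZ : Z ≤ Subgroup.center Γ) (hQZ : ∀ x, x ∈ Q → x ∈ Z → x = 1)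
    {c : Γ → k} {f t : MonoidAlgebra k Γ} (hf : IsZI Z c f)
    (hs : ∀ g, (∀ q ∈ Q, ∀ z ∈ Z, g ≠ q * z) → t.coeff g = 0) (ht : t * t = t) (htf : t * f = t) (h0 : t ≠ 0) : t = f := by
  classical
  by_contra hne
  have hft : f * t = t := by rw [← central_comm hZ hf.supp t, htf]
  have h1 := sig_mul_idem' hQ hZ hQZ hf hs ht htf h0
  have h2 := sig_mul_idem' hQ hZ hQZ hf (t := f - t) (fun g hg => by
    rw [sub_coeff, hs g hg, hf.supp g, sub_zero]
    intro hgZ
    exact hg 1 Q.one_mem g hgZ (one_mul g).symm) (by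
    rw [sub_mul, mul_sub, mul_sub, hf.idem, ht, hft, htf, sub_self, sub_zero]) (by rw [sub_mul, hf.idem, htf]) (sub_ne_zero.2 (Ne.symm hne))
  rw [mul_sub, h1, sub_self] at h2
  have h3 : (0 : MonoidAlgebra k Γ).coeff 1 = (sig k Q * f).coeff 1 := by rw [← h2]
  have h4 : (sig k Q * f).coeff 1 = f.coeff 1 := by
    rw [mul_coeff, Finset.sum_eq_single 1]
    · rw [sig_coeff, if_pos Q.one_mem, one_mul]
      congr 1; group
    · intro x _ hx
      rw [sig_coeff]
      by_cases hxQ : x ∈ Q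
      · rw [if_pos hxQ, one_mul]
        apply hf.supp
        intro h5
        rw [mul_one] at h5
        exact hx (inv_eq_one.1 (hQZ _ (Q.inv_mem hxQ) h5))
      · rw [if_neg hxQ, zero_mul]
    · intro h; exact absurd (Finset.mem_univ _) h
  rw [h4, zero_coeff] at h3
  exact hf.coeff_one_ne h3.symm

/-- Borel-Tits hypothesis relative to a central subgroup -/
def BTZ (p : ℕ) (Γ : Type*) [Group Γ] (Z : Subgroup Γ) : Prop := ∀ R : Subgroup Γ, IsPGroup p R → R ≠ ⊥ → ∃ Q : Subgroup Γ, IsPGroup p Q ∧ R ≤ Q ∧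
  Subgroup.normalizer (R : Set Γ) ≤ Subgroup.normalizer (Q : Set Γ) ∧
  ∀ c ∈ Subgroup.centralizer (Q : Set Γ), ∃ q ∈ Q, ∃ z ∈ Z, c = q * z

theorem supp_cent {Z P : Subgroup Γ} (hZ : Z ≤ Subgroup.center Γ) {f : MonoidAlgebra k Γ} (hf : Supp Z f) :
    Supp (Subgroup.centralizer (P : Set Γ)) f :=
  supp_mono (fun z hz => by
    rw [Subgroup.mem_centralizer_iff]
    intro h _
    exact Subgroup.mem_center_iff.1 (hZ hz) h) hf

theorem br_sylow' {Z : Subgroup Γ} (hZ : Z ≤ Subgroup.center Γ) (hZp : ∀ x ∈ Z, ∀ n : ℕ, x ^ p ^ n = 1 → x = 1) (hBT : BTZ p Γ Z)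
    {e f : MonoidAlgebra k Γ} {c : Γ → k} (he : IsBlk ⊤ e) (hf : IsZI Z c f) (hef : e * f = e) {P : Subgroup Γ} (hP : IsPGroup p P) (hP1 : P ≠ ⊥)
    (hPe : Br P e ≠ 0) : ∃ S : Sylow p Γ, Br (S : Subgroup Γ) e = f := by
  classical
  obtain ⟨D, hD⟩ := exists_isDef (p := p) he
  have hD1 : D ≠ ⊥ := by
    rintro rfl
    obtain ⟨x, _, hx⟩ := hD.ge le_top hP hPe
    apply hP1
    rw [eq_bot_iff]
    intro y hy
    have h1 := hx hy
    rw [mem_cS, Subgroup.mem_bot] at h1
    rw [Subgroup.mem_bot]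
    have h2 : y = x * (x⁻¹ * y * x) * x⁻¹ := by group
    rw [h2, h1]; group
  obtain ⟨Q, hQ, hDQ, hN, hC⟩ := hBT D hD.pg hD1
  set t := Br D e with ht
  have hfx : Fx ⊤ e := he.zh.2
  have htt : t * t = t := by rw [ht, ← br_mul hD.pg (fx_mono le_top hfx) (fx_mono le_top hfx), he.idem]
  have hfxN : Fx (Subgroup.normalizer (D : Set Γ)) t := fx_br le_rfl (fx_mono le_top hfx)
  have hzN : ZH (Subgroup.normalizer (D : Set Γ)) t := ⟨supp_mono (centralizer_le_normalizer D) (supp_br_self D e), hfxN⟩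
  -- D₁
  set D1 : Subgroup Γ := Q ⊓ Subgroup.normalizer (D : Set Γ) with hD1d
  have hDD1 : D ≤ D1 := le_inf hDQ Subgroup.le_normalizer
  have hD1p : IsPGroup p D1 := hQ.to_le inf_le_left
  have hNN : Subgroup.normalizer (D : Set Γ) ≤ Subgroup.normalizer (D1 : Set Γ) := by
    intro n hn
    rw [Subgroup.mem_normalizer_iff]
    intro y
    have h1 := Subgroup.mem_normalizer_iff.1 (hN hn) y
    constructor
    · rintro ⟨hy1, hy2⟩
      exact ⟨h1.1 hy1, Subgroup.mul_mem _ (Subgroup.mul_mem _ hn hy2) (Subgroup.inv_mem _ hn)⟩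
    · rintro ⟨hy1, hy2⟩
      refine ⟨h1.2 hy1, ?_⟩
      have h3 := Subgroup.mul_mem _ (Subgroup.mul_mem _ (Subgroup.inv_mem _ hn) hy2) hn
      have e3 : n⁻¹ * (n * y * n⁻¹) * n = y := by group
      rw [e3] at h3
      exact h3
  have hbr1 : Br D1 e ≠ 0 := by
    intro h
    have h1 : Br D1 t = 0 := by rw [ht, br_br hDD1, h]
    exact hD.br (idem_eq_zero_of_br inf_le_right hD1p hNN hzN htt h1)
  have hcard : Nat.card D1 ≤ Nat.card D := by
    obtain ⟨x, _, hx⟩ := hD.ge le_top hD1p hbr1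
    rw [← card_cS x D]
    exact Nat.card_le_card_of_injective _ (Subgroup.inclusion_injective hx)
  have hD1D : D1 = D := (Subgroup.eq_of_le_of_card_ge hDD1 hcard).symm
  have hDQ' : D = Q := by
    by_contra hne
    have hlt : D < Q := lt_of_le_of_ne hDQ hne
    have hnil : Group.IsNilpotent Q := hQ.isNilpotent
    have h1 : D.subgroupOf Q < ⊤ := by
      rw [lt_top_iff_ne_top]
      intro h
      rw [Subgroup.subgroupOf_eq_top] at h
      exact hne (le_antisymm hDQ h)
    have h2 := (Group.normalizerCondition_of_isNilpotent (G := Q)) _ h1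
    obtain ⟨y, hy1, hy2⟩ := SetLike.exists_of_lt h2
    apply hy2
    rw [Subgroup.mem_subgroupOf, ← hD1D]
    refine ⟨y.2, ?_⟩
    show (y : Γ) ∈ Subgroup.normalizer (D : Set Γ)
    rw [Subgroup.mem_normalizer_iff] at hy1 ⊢
    intro z
    constructor
    · intro hz
      exact (hy1 ⟨z, hDQ hz⟩).1 hz
    · intro hz
      have hz' : z ∈ Q := by
        have h3 := Q.mul_mem (Q.mul_mem (Q.inv_mem y.2) (hDQ hz)) y.2
        have e3 : (y : Γ)⁻¹ * ((y : Γ) * z * (y : Γ)⁻¹) * (y : Γ) = z := by group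
        rw [e3] at h3
        exact h3
      exact (hy1 ⟨z, hz'⟩).2 hz
  have hsupp : ∀ g, (∀ q ∈ D, ∀ z ∈ Z, g ≠ q * z) → t.coeff g = 0 := by
    intro g hg
    apply supp_br_self D e
    intro hgC
    rw [hDQ'] at hgC
    obtain ⟨q, hq, z, hz, e1⟩ := hC g hgC
    rw [← hDQ'] at hq
    exact hg q hq z hz e1
  have hfxf : Fx ⊤ f := by
    rw [fx_iff]
    intro x _
    apply ext'
    intro g
    rw [cj_coeff]
    by_cases hg : g ∈ Z
    · have h1 := Subgroup.mem_center_iff.1 (hZ hg) x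
      rw [mul_assoc, ← h1]
      congr 1; group
    · rw [hf.supp g hg]
      apply hf.supp
      intro h1
      apply hg
      have h2 := Subgroup.mem_center_iff.1 (hZ h1) x
      have h3 : g = x * (x⁻¹ * g * x) * x⁻¹ := by group
      rw [h3, h2]
      have h4 : x⁻¹ * g * x * x * x⁻¹ = x⁻¹ * g * x := by group
      rw [h4]; exact h1
  have hbf : ∀ P : Subgroup Γ, Br P f = f := fun P => br_eq_self (supp_cent hZ hf.supp)
  have htf : t * f = t := by
    conv_lhs => rw [ht, ← hbf D]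
    rw [← br_mul hD.pg (fx_mono le_top hfx) (fx_mono le_top hfxf), hef]
  have hDZ : ∀ x, x ∈ D → x ∈ Z → x = 1 := by
    intro x hx hxZ
    obtain ⟨n, hn⟩ := hD.pg ⟨x, hx⟩
    exact hZp x hxZ n (congrArg Subtype.val hn)
  have ht1 : t = f := idem_f hD.pg hZ hDZ hf hsupp htt htf hD.br
  obtain ⟨S, hS⟩ := hD.pg.exists_le_sylow
  exact ⟨S, by rw [← br_br hS e, ← ht, ht1, hbf]⟩

/-- at most one block of positive defect over each character of the centre -/
theorem pos_unique' {Z : Subgroup Γ} (hZ : Z ≤ Subgroup.center Γ) (hZp : ∀ x ∈ Z, ∀ n : ℕ, x ^ p ^ n = 1 → x = 1) (hBT : BTZ p Γ Z)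
    {e e' f : MonoidAlgebra k Γ} {c : Γ → k} (he : IsBlk ⊤ e) (he' : IsBlk ⊤ e') (hf : IsZI Z c f) (hef : e * f = e) (hef' : e' * f = e')
    {P P' : Subgroup Γ}
    (hP : IsPGroup p P) (hP1 : P ≠ ⊥) (hPe : Br P e ≠ 0) (hP' : IsPGroup p P') (hP1' : P' ≠ ⊥) (hPe' : Br P' e' ≠ 0) : e = e' := by
  classical
  obtain ⟨S, hS⟩ := br_sylow' hZ hZp hBT he hf hef hP hP1 hPe
  obtain ⟨S', hS'⟩ := br_sylow' hZ hZp hBT he' hf hef' hP' hP1' hPe'
  by_contra hne
  have horth : e * e' = 0 := by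
    by_contra h
    exact hne (he.eq_of_mul_ne he' h)
  obtain ⟨x, hx⟩ := MulAction.exists_smul_eq Γ S' S
  have hcf : cj x f = f := by
    apply ext'
    intro g
    rw [cj_coeff]
    by_cases hg : g ∈ Z
    · have h1 := Subgroup.mem_center_iff.1 (hZ hg) x
      rw [mul_assoc, ← h1]
      congr 1; group
    · rw [hf.supp g hg]
      apply hf.supp
      intro h1
      apply hg
      have h2 := Subgroup.mem_center_iff.1 (hZ h1) x
      have h3 : g = x * (x⁻¹ * g * x) * x⁻¹ := by group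
      rw [h3, h2]
      have h4 : x⁻¹ * g * x * x * x⁻¹ = x⁻¹ * g * x := by group
      rw [h4]; exact h1
  have h1 : Br (S : Subgroup Γ) e' = f := by
    have h2 : (S : Subgroup Γ) = cS x (S' : Subgroup Γ) := by
      rw [← hx]
      rfl
    have h3 : cj x e' = e' := fx_iff.1 he'.zh.2 x (Subgroup.mem_top x)
    have h4 : Br (cS x (S' : Subgroup Γ)) (cj x e') = cj x (Br (S' : Subgroup Γ) e') := (cj_br _ _ _).symm
    rw [h2, ← h3, h4, hS', hcf]
  have h5 := br_mul S.2 (fx_mono le_top he.zh.2) (fx_mono le_top he'.zh.2) (k := k) (G := Γ) (P := (S : Subgroup Γ))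
  rw [horth, br_zero, hS, h1, hf.idem] at h5
  exact hf.ne h5.symm

/-- there is a block of positive defect over each character of the centre -/
theorem pos_exists {Z : Subgroup Γ} (hZ : Z ≤ Subgroup.center Γ)
    {f : MonoidAlgebra k Γ} {c : Γ → k} (hf : IsZI Z c f) (P : Subgroup Γ) :
    ∃ e, IsBlk ⊤ e ∧ e * f = e ∧ Br P e ≠ 0 := by
  classical
  obtain ⟨s, hs, hsum⟩ := exists_blocks (k := k) (⊤ : Subgroup Γ)
  by_contra hcon
  push Not at hcon
  apply hf.ne
  have hfxf : Fx ⊤ f := by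
    rw [fx_iff]
    intro x _
    apply ext'
    intro g
    rw [cj_coeff]
    by_cases hg : g ∈ Z
    · have h1 := Subgroup.mem_center_iff.1 (hZ hg) x
      rw [mul_assoc, ← h1]
      congr 1; group
    · rw [hf.supp g hg]
      apply hf.supp
      intro h1
      apply hg
      have h2 := Subgroup.mem_center_iff.1 (hZ h1) x
      have h3 : g = x * (x⁻¹ * g * x) * x⁻¹ := by group
      rw [h3, h2]
      have h4 : x⁻¹ * g * x * x * x⁻¹ = x⁻¹ * g * x := by group
      rw [h4]; exact h1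
  have hzf : ZH ⊤ f := ⟨supp_top f, hfxf⟩
  calc f = Br P f := (br_eq_self (supp_cent hZ hf.supp)).symm
    _ = Br P (∑ e ∈ s, f * e) := by rw [← Finset.mul_sum, hsum, mul_one]
    _ = ∑ e ∈ s, Br P (f * e) := br_sum P s _
    _ = 0 := Finset.sum_eq_zero (fun e he => by
      rcases (hs e he).prim f hzf hf.idem with h | h
      · rw [h]
        exact hcon e (hs e he) (by rw [central_comm hZ hf.supp e, h])
      · rw [h, br_zero])

end Alg

end CfsgLib.UDZ
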