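import Cfsg.Agent.LibUDZ15h

set_option autoImplicit false
set_option linter.unusedSectionVars false

/-! Counting the blocks of groups of parabolic type with centre (seat helper15). -/

namespace CfsgLib.UDZ

open CfsgLib.BrP
open Cfsg CfsgLib.LocR CfsgLib.BlockCore CfsgLib.BlockIdem CfsgLib.BlockR CfsgLib.CharBasic
open scoped ComplexConjugate

section Fam
variable {k : Type*} [Field k] {Γ : Type*} [Group Γ] [Fintype Γ]

/-- a full family of central idempotents of a central subgroup -/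
structure ZFam (k : Type*) [Field k] {Γ : Type*} [Group Γ] [Fintype Γ] (Z : Subgroup Γ) (S : Type*) [Fintype S] where
  c : S → Γ → k
  f : S → MonoidAlgebra k Γ
  isZI : ∀ s, IsZI Z (c s) (f s)
  orth : ∀ s s', s ≠ s' → f s * f s' = 0
  sum : ∑ s, f s = 1

variable {S : Type*} [Fintype S] {Z : Subgroup Γ}

theorem ZFam.zh (𝓕 : ZFam k Z S) (hZ : Z ≤ Subgroup.center Γ) (s : S) : ZH ⊤ (𝓕.f s) := by
  refine ⟨supp_top _, ?_⟩
  intro x _ g
  by_cases hg : g ∈ Z
  · have h1 := Subgroup.mem_center_iff.1 (hZ hg) x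
    rw [h1]
    congr 1; group
  · rw [(𝓕.isZI s).supp g hg]
    apply (𝓕.isZI s).supp
    intro h1
    apply hg
    have h2 := Subgroup.mem_center_iff.1 (hZ h1) x⁻¹
    have h3 : g = x⁻¹ * (x * g * x⁻¹) * x := by group
    rw [h3, h2]
    have h4 : x * g * x⁻¹ * x⁻¹ * x = x * g * x⁻¹ := by group
    rw [h4]; exact h1

theorem ZFam.exists_s (𝓕 : ZFam k Z S) (hZ : Z ≤ Subgroup.center Γ) {e : MonoidAlgebra k Γ} (he : IsBlk ⊤ e) : ∃ s, e * 𝓕.f s = e := by
  classical
  by_contra hcon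
  push Not at hcon
  apply he.ne
  calc e = e * ∑ s, 𝓕.f s := by rw [𝓕.sum, mul_one]
    _ = ∑ s, e * 𝓕.f s := Finset.mul_sum _ _ _
    _ = 0 := Finset.sum_eq_zero (fun s _ => by
      rcases he.prim _ (𝓕.zh hZ s) (𝓕.isZI s).idem with h | h
      · exact absurd (by rw [central_comm hZ (𝓕.isZI s).supp e, h]) (hcon s)
      · rw [central_comm hZ (𝓕.isZI s).supp e, h])

theorem ZFam.s_inj (𝓕 : ZFam k Z S) {e : MonoidAlgebra k Γ} (he : e ≠ 0) {s s' : S} (h : e * 𝓕.f s = e) (h' : e * 𝓕.f s' = e) :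
    s = s' := by
  by_contra hne
  apply he
  rw [← h', ← h, mul_assoc, 𝓕.orth s s' hne, mul_zero]

end Fam

section Ch
variable {G : Type*} [Group G] [Fintype G] {p : ℕ} [hp : Fact p.Prime] {M : Ideal AlgInt} [hMP : M.IsPrime]

theorem br_dz (hM : IsPModular p M) {St : IrrCharacter G} (hSt : (charDegree (St : G → ℂ)).factorization p = (Nat.card G).factorization p)
    {P : Subgroup G} (hP : IsPGroup p P) (hP1 : P ≠ ⊥) : Br P (JB M ({St} : Set (IrrCharacter G))) = 0 := by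
  classical
  apply ext'
  intro g
  rw [zero_coeff]
  by_cases hg : g ∈ Subgroup.centralizer (P : Set G)
  · rw [br_coeff_of _ hg]
    apply dz_coeff hM hSt
    -- `P` centralizes `g`
    have hle : P ≤ Subgroup.centralizer ({g} : Set G) := by
      intro x hx
      rw [Subgroup.mem_centralizer_singleton_iff]
      exact (Subgroup.mem_centralizer_iff.1 hg x hx)
    have h1 : Nat.card P ∣ Nat.card (Subgroup.centralizer ({g} : Set G)) := Subgroup.card_dvd_of_le hle
    have h2 : p ∣ Nat.card P := by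
      obtain ⟨n, hn⟩ := IsPGroup.iff_card.1 hP
      rw [hn]
      rcases Nat.eq_zero_or_pos n with h0 | h0
      · exfalso
        rw [h0, pow_zero] at hn
        exact hP1 (Subgroup.card_eq_one.1 hn)
      · exact dvd_pow_self _ (by omega)
    exact dvd_trans h2 h1
  · rw [br_coeff_not _ hg]

theorem pos_of_ne {F : Type*} [Field F] [Fintype F] [CharP F p] {ι : Type*} (B : Sys F G ι) (hV : IsPGroup p B.V) (hU : IsPGroup p B.U)
    (hM : IsPModular p M) {St : IrrCharacter G} (hSt : (charDegree (St : G → ℂ)).factorization p = (Nat.card G).factorization p)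
    {b : Set (IrrCharacter G)} (hb : IsPBlock M b) (hbne : b ≠ {St}) :
    ∃ P : Subgroup G, IsPGroup p P ∧ P ≠ ⊥ ∧ Br P (JB M b) ≠ 0 := by
  classical
  have hchar := charP_kM hM
  have hbS : IsPBlock M ({St} : Set (IrrCharacter G)) := ⟨St, (CfsgLib.BlockReg.defect_zero_block hM hSt).symm⟩
  have hcl : ∀ {e : MonoidAlgebra (kM M) G}, IsBlk ⊤ e → ∀ x g, e.coeff (x * g * x⁻¹) = e.coeff g :=
    fun he x g => he.zh.2 x (Subgroup.mem_top x) g
  have hS := g_blk hbS
  obtain ⟨a0, ha0⟩ := exists_trace (p := p) (hcl hS) (dz_coeff hM hSt)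
  by_contra hcon
  push Not at hcon
  apply hbne
  have hbb := g_blk hb
  obtain ⟨a, ha⟩ := exists_trace (p := p) (hcl hbb) (coeff_zero_of_br hcon)
  apply g_blk_inj hb hbS
  by_contra hcon'
  have horth : JB M b * JB M ({St} : Set (IrrCharacter G)) = 0 := by
    by_contra h5
    exact hcon' (hbb.eq_of_mul_ne hS h5)
  exact main (p := p) B hV hU hbb.idem hS.idem (central_of_class (hcl hbb)) (central_of_class (hcl hS)) horth hbb.ne hS.ne ha ha0

/-- the number of blocks -/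
theorem blocks_card {F : Type*} [Field F] [Fintype F] [CharP F p] {ι : Type*} (B : Sys F G ι) (hV : IsPGroup p B.V) (hU : IsPGroup p B.U)
    (hM : IsPModular p M) {St : IrrCharacter G} (hSt : (charDegree (St : G → ℂ)).factorization p = (Nat.card G).factorization p)
    {Z : Subgroup G} (hZ : Z ≤ Subgroup.center G) (hZp : ∀ x ∈ Z, ∀ n : ℕ, x ^ p ^ n = 1 → x = 1) (hBT : BTZ p G Z)
    (hp1 : ∃ P : Subgroup G, IsPGroup p P ∧ P ≠ ⊥) {S : Type*} [Fintype S] (𝓕 : ZFam (kM M) Z S) :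
    Nat.card {b : Set (IrrCharacter G) // IsPBlock M b} = Nat.card S + 1 := by
  classical
  have hchar := charP_kM hM
  have hbS : IsPBlock M ({St} : Set (IrrCharacter G)) := ⟨St, (CfsgLib.BlockReg.defect_zero_block hM hSt).symm⟩
  obtain ⟨P0, hP0, hP01⟩ := hp1
  have hex : ∀ s, ∃ b : Set (IrrCharacter G), IsPBlock M b ∧ JB M b * 𝓕.f s = JB M b ∧ Br P0 (JB M b) ≠ 0 := by
    intro s
    obtain ⟨e, h1, h2, h3⟩ := pos_exists hZ (𝓕.isZI s) P0
    obtain ⟨b, hb, hbe⟩ := g_blk_surj h1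
    exact ⟨b, hb, by rw [hbe]; exact h2, by rw [hbe]; exact h3⟩
  choose b hb1 hb2 hb3 using hex
  have hbne : ∀ s, b s ≠ {St} := by
    intro s h
    apply hb3 s
    rw [h]
    exact br_dz hM hSt hP0 hP01
  let φ : Option S → {b : Set (IrrCharacter G) // IsPBlock M b} := fun o => o.elim ⟨{St}, hbS⟩ (fun s => ⟨b s, hb1 s⟩)
  have hφ : Function.Bijective φ := by
    constructor
    · intro o o' h
      have h' : (φ o).1 = (φ o').1 := congrArg Subtype.val h
      rcases o with _ | s <;> rcases o' with _ | s'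
      · rfl
      · exact absurd h'.symm (hbne s')
      · exact absurd h' (hbne s)
      · have h2 : b s = b s' := h'
        congr 1
        exact 𝓕.s_inj (g_blk (hb1 s)).ne (hb2 s) (by rw [h2]; exact hb2 s')
    · rintro ⟨b', hb'⟩
      by_cases h : b' = {St}
      · subst h; exact ⟨none, rfl⟩
      · obtain ⟨s, hs⟩ := 𝓕.exists_s hZ (g_blk hb')
        refine ⟨some s, Subtype.ext ?_⟩
        show b s = b'
        obtain ⟨P, h1, h2, h3⟩ := pos_of_ne B hV hU hM hSt hb' h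
        exact g_blk_inj (hb1 s) hb' (pos_unique' hZ hZp hBT (g_blk (hb1 s)) (g_blk hb') (𝓕.isZI s) (hb2 s) hs hP0 hP01 (hb3 s) h1 h2 h3)
  rw [← Nat.card_eq_of_bijective φ hφ, Nat.card_eq_fintype_card, Fintype.card_option, Nat.card_eq_fintype_card]

end Ch

section Roots
variable {k : Type*} [Field k] {Γ : Type*} [Group Γ] [Fintype Γ]

/-- idempotents of a linear character -/
noncomputable def fI (Z : Subgroup Γ) (φ : Z →* kˣ) : MonoidAlgebra k Γ :=
  mk (fun g => by classical exact if h : g ∈ Z then ((Nat.card Z : ℕ) : k)⁻¹ * ((φ ⟨g, h⟩)⁻¹ : kˣ) else 0)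

theorem fI_coeff (Z : Subgroup Γ) (φ : Z →* kˣ) {g : Γ} (h : g ∈ Z) : (fI Z φ).coeff g = ((Nat.card Z : ℕ) : k)⁻¹ * ((φ ⟨g, h⟩)⁻¹ : kˣ) := by
  classical
  show (if h : g ∈ Z then ((Nat.card Z : ℕ) : k)⁻¹ * ((φ ⟨g, h⟩)⁻¹ : kˣ) else 0) = _
  rw [dif_pos h]

theorem fI_coeff' (Z : Subgroup Γ) (φ : Z →* kˣ) {g : Γ} (h : g ∉ Z) : (fI Z φ).coeff g = 0 := by
  classical
  show (if h : g ∈ Z then ((Nat.card Z : ℕ) : k)⁻¹ * ((φ ⟨g, h⟩)⁻¹ : kˣ) else 0) = _
  rw [dif_neg h]

open Classical in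
/-- the character as a function -/
noncomputable def cI (Z : Subgroup Γ) (φ : Z →* kˣ) : Γ → k := fun g => if h : g ∈ Z then (φ ⟨g, h⟩ : kˣ) else 0

theorem fI_eig (Z : Subgroup Γ) (φ : Z →* kˣ) {z : Γ} (hz : z ∈ Z) : MonoidAlgebra.single z (1 : k) * fI Z φ = cI Z φ z • fI Z φ := by
  classical
  apply ext'
  intro g
  rw [single_mul_coeff, smul_coeff]
  unfold cI
  rw [dif_pos hz]
  by_cases hg : g ∈ Z
  · have h1 : z⁻¹ * g ∈ Z := Z.mul_mem (Z.inv_mem hz) hg
    rw [fI_coeff Z φ h1, fI_coeff Z φ hg]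
    have h2 : (⟨z⁻¹ * g, h1⟩ : Z) = (⟨z, hz⟩ : Z)⁻¹ * ⟨g, hg⟩ := rfl
    rw [h2, map_mul, map_inv, _root_.mul_inv_rev, inv_inv, Units.val_mul]
    ring
  · have h1 : z⁻¹ * g ∉ Z := by
      intro h
      apply hg
      have := Z.mul_mem hz h
      rwa [mul_inv_cancel_left] at this
    rw [fI_coeff' Z φ h1, fI_coeff' Z φ hg, mul_zero]

theorem fI_mul (Z : Subgroup Γ) [Fintype Z] (φ : Z →* kˣ) (a : MonoidAlgebra k Γ) (ha : Supp Z a) :
    a * fI Z φ = (∑ z : Z, a.coeff (z : Γ) * (φ z : kˣ)) • fI Z φ := by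
  classical
  have h1 : a = ∑ z : Z, a.coeff (z : Γ) • MonoidAlgebra.single (z : Γ) (1 : k) := by
    apply ext'
    intro g
    rw [sum_coeff]
    by_cases hg : g ∈ Z
    · rw [Finset.sum_eq_single (⟨g, hg⟩ : Z)]
      · rw [smul_coeff, MonoidAlgebra.coeff_single, Finsupp.single_eq_same, mul_one]
      · intro b _ hb
        rw [smul_coeff, MonoidAlgebra.coeff_single, Finsupp.single_eq_of_ne, mul_zero]
        intro h
        exact hb (Subtype.ext h.symm)
      · intro h; exact absurd (Finset.mem_univ _) h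
    · rw [ha g hg]
      symm
      apply Finset.sum_eq_zero
      intro b _
      rw [smul_coeff, MonoidAlgebra.coeff_single, Finsupp.single_eq_of_ne, mul_zero]
      rintro rfl
      exact hg b.2
  conv_lhs => rw [h1]
  rw [Finset.sum_mul, Finset.sum_smul]
  apply Finset.sum_congr rfl
  intro z _
  rw [smul_mul_assoc, fI_eig Z φ z.2, smul_smul]
  unfold cI
  rw [dif_pos z.2]

theorem fI_isZI (Z : Subgroup Γ) (h0 : ((Nat.card Z : ℕ) : k) ≠ 0) (φ : Z →* kˣ) : IsZI Z (cI Z φ) (fI Z φ) := by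
  classical
  haveI : Fintype Z := Fintype.ofFinite _
  refine ⟨fun g hg => fI_coeff' Z φ hg, ?_, ?_, fun z hz => fI_eig Z φ hz⟩
  · rw [fI_mul Z φ _ (fun g hg => fI_coeff' Z φ hg)]
    have h1 : ∑ z : Z, (fI Z φ).coeff (z : Γ) * (φ z : kˣ) = 1 := by
      have : ∀ z : Z, (fI Z φ).coeff (z : Γ) * (φ z : kˣ) = ((Nat.card Z : ℕ) : k)⁻¹ := by
        intro z
        rw [fI_coeff Z φ z.2, mul_assoc]
        have : (((φ ⟨(z : Γ), z.2⟩)⁻¹ : kˣ) : k) * (φ z : kˣ) = 1 := by
          rw [← Units.val_mul, inv_mul_cancel, Units.val_one]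
        rw [this, mul_one]
      rw [Finset.sum_congr rfl (fun z _ => this z), Finset.sum_const, Finset.card_univ, nsmul_eq_mul, ← Nat.card_eq_fintype_card, mul_inv_cancel₀ h0]
    rw [h1, one_smul]
  · intro h
    have h1 : (fI Z φ).coeff 1 = 0 := by rw [h, zero_coeff]
    rw [fI_coeff Z φ Z.one_mem] at h1
    rcases mul_eq_zero.1 h1 with h2 | h2
    · exact h0 (inv_eq_zero.1 h2)
    · exact Units.ne_zero _ h2

/-- the family attached to a central subgroup whose characters are all realized over `k` -/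
noncomputable def zfam (Z : Subgroup Γ) (h0 : ((Nat.card Z : ℕ) : k) ≠ 0) [Fintype (Z →* kˣ)]
    (hcard : Fintype.card (Z →* kˣ) = Nat.card Z) (hsep : ∀ z : Z, z ≠ 1 → ∃ φ : Z →* kˣ, φ z ≠ 1) : ZFam k Z (Z →* kˣ) where
  c := cI Z
  f := fI Z
  isZI := fI_isZI Z h0
  orth := by
    classical
    haveI : Fintype Z := Fintype.ofFinite _
    intro φ ψ hne
    rw [fI_mul Z ψ _ (fun g hg => fI_coeff' Z φ hg)]
    have h1 : ∑ z : Z, (fI Z φ).coeff (z : Γ) * (ψ z : kˣ) = 0 := by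
      obtain ⟨z0, hz0⟩ : ∃ z0, φ z0 ≠ ψ z0 := by
        by_contra h
        push Not at h
        exact hne (MonoidHom.ext h)
      have h2 : ∀ z : Z, (fI Z φ).coeff (z : Γ) * (ψ z : kˣ) = ((Nat.card Z : ℕ) : k)⁻¹ * (((φ z)⁻¹ * ψ z : kˣ) : k) := by
        intro z
        rw [fI_coeff Z φ z.2, mul_assoc, ← Units.val_mul]
      rw [Finset.sum_congr rfl (fun z _ => h2 z), ← Finset.mul_sum]
      set SS := ∑ z : Z, (((φ z)⁻¹ * ψ z : kˣ) : k) with hS
      have h3 : (((φ z0)⁻¹ * ψ z0 : kˣ) : k) * SS = SS := by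
        rw [hS, Finset.mul_sum, ← Equiv.sum_comp (Equiv.mulLeft z0) (fun z : Z => (((φ z)⁻¹ * ψ z : kˣ) : k))]
        apply Finset.sum_congr rfl
        intro z _
        rw [← Units.val_mul, Equiv.coe_mulLeft, map_mul, map_mul]
        congr 1
        rw [_root_.mul_inv_rev]
        rw [mul_mul_mul_comm]
        rw [mul_comm (φ z0)⁻¹ (φ z)⁻¹]
      have h4 : ((((φ z0)⁻¹ * ψ z0 : kˣ) : k) - 1) * SS = 0 := by rw [sub_mul, h3, one_mul, sub_self]
      rcases mul_eq_zero.1 h4 with h5 | h5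
      · exfalso
        apply hz0
        have h6 : ((φ z0)⁻¹ * ψ z0 : kˣ) = 1 := Units.ext (by rw [Units.val_one]; exact sub_eq_zero.1 h5)
        exact (inv_mul_eq_one.1 h6)
      · rw [h5, mul_zero]
    rw [h1, zero_smul]
  sum := by
    classical
    apply ext'
    intro g
    rw [sum_coeff, one_coeff]
    by_cases hg : g ∈ Z
    · have h2 : ∀ φ : Z →* kˣ, (fI Z φ).coeff g = ((Nat.card Z : ℕ) : k)⁻¹ * (((φ ⟨g, hg⟩)⁻¹ : kˣ) : k) := fun φ => fI_coeff Z φ hg
      rw [Finset.sum_congr rfl (fun φ _ => h2 φ), ← Finset.mul_sum]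
      split_ifs with h1
      · subst h1
        have : ∀ φ : Z →* kˣ, (((φ ⟨1, hg⟩)⁻¹ : kˣ) : k) = 1 := by
          intro φ
          have : φ ⟨1, hg⟩ = 1 := map_one φ
          rw [this, inv_one, Units.val_one]
        rw [Finset.sum_congr rfl (fun φ _ => this φ), Finset.sum_const, Finset.card_univ, nsmul_eq_mul, mul_one, hcard, inv_mul_cancel₀ h0]
      · obtain ⟨ψ, hψ⟩ := hsep ⟨g, hg⟩ (fun e => h1 (congrArg Subtype.val e))
        set SS := ∑ φ : Z →* kˣ, (((φ ⟨g, hg⟩)⁻¹ : kˣ) : k) with hS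
        have h3 : (((ψ ⟨g, hg⟩)⁻¹ : kˣ) : k) * SS = SS := by
          rw [hS, Finset.mul_sum, ← Equiv.sum_comp (Equiv.mulLeft ψ) (fun φ : Z →* kˣ => (((φ ⟨g, hg⟩)⁻¹ : kˣ) : k))]
          apply Finset.sum_congr rfl
          intro φ _
          rw [← Units.val_mul, Equiv.coe_mulLeft, MonoidHom.mul_apply]
          congr 1
          rw [_root_.mul_inv_rev, mul_comm]
        have h4 : ((((ψ ⟨g, hg⟩)⁻¹ : kˣ) : k) - 1) * SS = 0 := by rw [sub_mul, h3, one_mul, sub_self]
        rcases mul_eq_zero.1 h4 with h5 | h5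
        · exfalso
          apply hψ
          have h6 : ((ψ ⟨g, hg⟩)⁻¹ : kˣ) = 1 := Units.ext (by rw [Units.val_one]; exact sub_eq_zero.1 h5)
          exact inv_eq_one.1 h6
        · rw [h5, mul_zero]
    · rw [if_neg (fun e => hg (by rw [e]; exact Z.one_mem))]
      exact Finset.sum_eq_zero (fun φ _ => fI_coeff' Z φ hg)

end Roots

end CfsgLib.UDZ
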