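import Cfsg.Agent.LibUDZ15i

set_option autoImplicit false
set_option linter.unusedSectionVars false

namespace CfsgLib.UDZ

open CfsgLib.BrP

variable {k : Type*} [Field k] {Γ : Type*} [Group Γ] [Fintype Γ]

theorem card_hom (Z : Subgroup Γ) (hcomm : ∀ a b : Z, a * b = b * a) (hroots : HasEnoughRootsOfUnity k (Monoid.exponent Z)) :
    Nat.card (Z →* kˣ) = Nat.card Z := by
  letI : CommGroup Z := { (inferInstance : Group Z) with mul_comm := hcomm }
  exact CommGroup.card_monoidHom_of_hasEnoughRootsOfUnity Z k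

theorem hom_sep (Z : Subgroup Γ) (hcomm : ∀ a b : Z, a * b = b * a) (hroots : HasEnoughRootsOfUnity k (Monoid.exponent Z)) (z : Z) (hz : z ≠ 1) :
    ∃ φ : Z →* kˣ, φ z ≠ 1 := by
  letI : CommGroup Z := { (inferInstance : Group Z) with mul_comm := hcomm }
  exact CommGroup.exists_apply_ne_one_of_hasEnoughRootsOfUnity Z k hz

theorem finite_hom (Z : Subgroup Γ) (hcomm : ∀ a b : Z, a * b = b * a) (hroots : HasEnoughRootsOfUnity k (Monoid.exponent Z)) :
    Finite (Z →* kˣ) :=
  Nat.finite_of_card_ne_zero (by rw [card_hom Z hcomm hroots]; exact Nat.card_pos.ne')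

theorem roots_of_dvd {p : ℕ} [hp : Fact p.Prime] [CharP k p] {m : ℕ} (hm : m ∣ p - 1) : HasEnoughRootsOfUnity k m := by
  have hp1 : 0 < p - 1 := by have := hp.out.two_le; omega
  haveI : NeZero (p - 1) := ⟨hp1.ne'⟩
  have hz : HasEnoughRootsOfUnity k (p - 1) := by
    apply HasEnoughRootsOfUnity.of_card_le
    letI : Algebra (ZMod p) k := ZMod.algebra k p
    let f : (ZMod p)ˣ → rootsOfUnity (p - 1) k := fun u => ⟨Units.map (algebraMap (ZMod p) k).toMonoidHom u, by
      rw [mem_rootsOfUnity, ← map_pow, ZMod.units_pow_card_sub_one_eq_one, map_one]⟩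
    have hf : Function.Injective f := by
      intro a b hab
      have h5 : Units.map (algebraMap (ZMod p) k).toMonoidHom a = Units.map (algebraMap (ZMod p) k).toMonoidHom b := congrArg Subtype.val hab
      apply Units.ext
      apply (algebraMap (ZMod p) k).injective
      exact congrArg Units.val h5
    have h6 : Nat.card (ZMod p)ˣ = p - 1 := by
      rw [Nat.card_eq_fintype_card, ZMod.card_units]
    calc p - 1 = Nat.card (ZMod p)ˣ := h6.symm
      _ ≤ Nat.card (rootsOfUnity (p - 1) k) := Nat.card_le_card_of_injective f hf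
  exact HasEnoughRootsOfUnity.of_dvd k hm

end CfsgLib.UDZ
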