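import Cfsg.Agent.EqBase
import Cfsg.Agent.LibGS8
import Cfsg.Agent.LibMB5
import Cfsg.Agent.LibH22HermS

/-! The Sylow `2`-subgroup of `PSU(3,4)` (helper8). -/

set_option autoImplicit false

namespace CfsgLib.UF8

open Subgroup Cfsg
open scoped commutatorElement

variable {F : Type*} [Field F] [Fintype F]

theorem two_zero (hF : Fintype.card F = 16) : (2 : F) = 0 := by
  have h1 : ((16 : ℕ) : F) = 0 := by rw [← hF]; exact Nat.cast_card_eq_zero F
  have h2 : (2 : F) ^ 4 = 0 := by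
    have : ((16 : ℕ) : F) = (2 : F) ^ 4 := by norm_num
    rw [← this, h1]
  exact pow_eq_zero_iff (by norm_num) |>.1 h2

theorem pow16 (hF : Fintype.card F = 16) (x : F) : x ^ 16 = x := by
  rw [← hF]; exact FiniteField.pow_card x

theorem add4 (hF : Fintype.card F = 16) (x y : F) : (x + y) ^ 4 = x ^ 4 + y ^ 4 := by
  have h2 := two_zero hF
  linear_combination (2 * x ^ 3 * y + 3 * x ^ 2 * y ^ 2 + 2 * x * y ^ 3) * h2

/-- pairs `(a,t)` with `t + t^4 = a^5` -/
@[ext] structure UU (F : Type*) [Field F] [Fintype F] (hF : Fintype.card F = 16) where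
  a : F
  t : F
  h : t + t ^ 4 = a ^ 5

variable {hF : Fintype.card F = 16}

instance : Mul (UU F hF) := ⟨fun p q => ⟨p.a + q.a, p.t + q.t + p.a ^ 4 * q.a, by
  have h16 := pow16 hF p.a
  have h2 := two_zero hF
  have e1 : (p.t + q.t + p.a ^ 4 * q.a) ^ 4 = p.t ^ 4 + q.t ^ 4 + p.a * q.a ^ 4 := by
    rw [add4 hF, add4 hF, mul_pow, ← pow_mul, h16]
  have e2 : (p.a + q.a) ^ 5 = (p.a ^ 4 + q.a ^ 4) * (p.a + q.a) := by
    rw [← add4 hF, ← pow_succ]
  rw [e1, e2]
  linear_combination p.h + q.h⟩⟩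

instance : One (UU F hF) := ⟨⟨0, 0, by norm_num⟩⟩

instance : Inv (UU F hF) := ⟨fun p => ⟨p.a, p.t + p.a ^ 5, by
  have h16 := pow16 hF p.a
  have h2 := two_zero hF
  have e1 : (p.t + p.a ^ 5) ^ 4 = p.t ^ 4 + p.a ^ 5 := by
    rw [add4 hF]
    have : (p.a ^ 5) ^ 4 = p.a ^ 16 * p.a ^ 4 := by ring
    rw [this, h16]; ring
  rw [e1]
  linear_combination p.h + p.a ^ 5 * h2⟩⟩

theorem mul_a (p q : UU F hF) : (p * q).a = p.a + q.a := rfl
theorem mul_t (p q : UU F hF) : (p * q).t = p.t + q.t + p.a ^ 4 * q.a := rfl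
theorem one_a : (1 : UU F hF).a = 0 := rfl
theorem one_t : (1 : UU F hF).t = 0 := rfl
theorem inv_a (p : UU F hF) : (p⁻¹).a = p.a := rfl
theorem inv_t (p : UU F hF) : (p⁻¹).t = p.t + p.a ^ 5 := rfl

instance : Group (UU F hF) := Group.ofLeftAxioms
  (by
    intro p q r
    ext
    · simp only [mul_a]; ring
    · simp only [mul_a, mul_t, add4 hF]; ring)
  (by
    intro p
    ext
    · simp only [mul_a, one_a]; ring
    · simp only [mul_t, one_a, one_t]; ring)
  (by
    intro p
    ext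
    · simp only [mul_a, one_a, inv_a]; linear_combination p.a * two_zero hF
    · simp only [mul_t, one_t, inv_a, inv_t]; linear_combination (p.t + p.a ^ 5) * two_zero hF)

/-! ### the trace map -/

/-- `t ↦ t + t^4` -/
def tr (hF : Fintype.card F = 16) : F →+ F where
  toFun t := t + t ^ 4
  map_zero' := by norm_num
  map_add' := fun x y => by rw [add4 hF]; ring

theorem card_fix_le : Nat.card {b : F // b ^ 4 = b} ≤ 4 := by
  classical
  have hne : (Polynomial.X ^ 4 - Polynomial.X : Polynomial F) ≠ 0 :=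
    FiniteField.X_pow_card_sub_X_ne_zero F (by norm_num)
  have hdeg : (Polynomial.X ^ 4 - Polynomial.X : Polynomial F).natDegree = 4 :=
    FiniteField.X_pow_card_sub_X_natDegree_eq F (by norm_num)
  have h1 : Nat.card {b : F // b ^ 4 = b} ≤ (Polynomial.X ^ 4 - Polynomial.X : Polynomial F).roots.toFinset.card := by
    rw [Nat.card_eq_fintype_card, Fintype.card_subtype]
    apply Finset.card_le_card
    intro b hb
    rw [Finset.mem_filter] at hb
    rw [Multiset.mem_toFinset, Polynomial.mem_roots hne, Polynomial.IsRoot, Polynomial.eval_sub, Polynomial.eval_pow, Polynomial.eval_X, hb.2, sub_self]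
  refine h1.trans ((Multiset.toFinset_card_le _).trans ?_)
  exact (Polynomial.card_roots' (Polynomial.X ^ 4 - Polynomial.X : Polynomial F)).trans hdeg.le

theorem tr_mem (hF : Fintype.card F = 16) (t : F) : (tr hF t) ^ 4 = tr hF t := by
  show (t + t ^ 4) ^ 4 = t + t ^ 4
  rw [add4 hF, ← pow_mul, pow16 hF]; ring

theorem ker_iff (hF : Fintype.card F = 16) (t : F) : t ∈ (tr hF).ker ↔ t ^ 4 = t := by
  rw [AddMonoidHom.mem_ker]
  show t + t ^ 4 = 0 ↔ _
  have h2 := two_zero hF
  constructor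
  · intro h; linear_combination h - t * h2
  · intro h; linear_combination h + t * h2

theorem card_facts (hF : Fintype.card F = 16) : Nat.card (tr hF).ker = 4 ∧ ∀ b : F, b ^ 4 = b → ∃ t, t + t ^ 4 = b := by
  have h1 : Nat.card (tr hF).ker ≤ 4 := by
    refine le_trans (le_of_eq ?_) (card_fix_le (F := F))
    exact Nat.card_congr (Equiv.subtypeEquivRight (ker_iff hF))
  have h3 : Set.range (tr hF) ⊆ {b : F | b ^ 4 = b} := by
    rintro _ ⟨t, rfl⟩; exact tr_mem hF t
  have h4 : Nat.card (tr hF).range ≤ Nat.card {b : F // b ^ 4 = b} :=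
    Nat.card_le_card_of_injective (fun x : (tr hF).range => (⟨x.1, h3 x.2⟩ : {b : F // b ^ 4 = b}))
      (fun x y h => Subtype.ext (congrArg (fun z : {b : F // b ^ 4 = b} => (z : F)) h))
  have h5 := (tr hF).ker.card_mul_index
  rw [AddSubgroup.index_ker, Nat.card_eq_fintype_card (α := F), hF] at h5
  have h6 := card_fix_le (F := F)
  have h7 : Nat.card (tr hF).ker = 4 ∧ Nat.card (tr hF).range = 4 := by
    have h8 : Nat.card (tr hF).range ≤ 4 := h4.trans h6
    constructor
    · by_contra hne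
      have : Nat.card (tr hF).ker ≤ 3 := by omega
      nlinarith
    · by_contra hne
      have : Nat.card (tr hF).range ≤ 3 := by omega
      nlinarith
  refine ⟨h7.1, ?_⟩
  have h8 : Set.range (tr hF) = {b : F | b ^ 4 = b} := by
    apply Set.eq_of_subset_of_ncard_le h3
    have e1 : (Set.range (tr hF)).ncard = 4 := h7.2
    have e2 : {b : F | b ^ 4 = b}.ncard ≤ 4 := h6
    omega
  intro b hb
  have : b ∈ Set.range (tr hF) := by rw [h8]; exact hb
  exact this

/-! ### the group -/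

instance : Finite (UU F hF) := Finite.of_injective (fun p => (p.a, p.t)) (fun p q h => UU.ext (congrArg Prod.fst h) (congrArg Prod.snd h))

/-- first coordinate -/
def pr : UU F hF →* Multiplicative F where
  toFun p := Multiplicative.ofAdd p.a
  map_one' := rfl
  map_mul' := fun _ _ => rfl

theorem a5 (hF : Fintype.card F = 16) (a : F) : (a ^ 5) ^ 4 = a ^ 5 := by
  have : (a ^ 5) ^ 4 = a ^ 16 * a ^ 4 := by ring
  rw [this, pow16 hF]; ring

theorem pr_surj : Function.Surjective (pr : UU F hF →* _) := by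
  intro a
  obtain ⟨t, ht⟩ := (card_facts hF).2 _ (a5 hF (Multiplicative.toAdd a))
  exact ⟨⟨Multiplicative.toAdd a, t, ht⟩, rfl⟩

theorem mem_kerpr (p : UU F hF) : p ∈ (pr : UU F hF →* _).ker ↔ p.a = 0 := by
  rw [MonoidHom.mem_ker]; exact Iff.rfl

theorem card_kerpr : Nat.card (pr : UU F hF →* _).ker = 4 := by
  rw [← (card_facts hF).1]
  apply Nat.card_congr
  refine ⟨fun p => ⟨p.1.t, ?_⟩, fun t => ⟨⟨0, t.1, ?_⟩, ?_⟩, ?_, ?_⟩
  · have h1 := p.1.h
    have h2 := (mem_kerpr _).1 p.2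
    rw [h2] at h1
    show p.1.t + p.1.t ^ 4 = 0
    rw [h1]; norm_num
  · have := t.2
    have h1 : (t : F) + (t : F) ^ 4 = 0 := this
    rw [h1]; norm_num
  · rw [mem_kerpr]
  · intro p
    apply Subtype.ext
    apply UU.ext
    · exact ((mem_kerpr _).1 p.2).symm
    · rfl
  · intro t; rfl

theorem card_UU : Nat.card (UU F hF) = 64 := by
  have h1 := (pr : UU F hF →* _).ker.card_mul_index
  rw [Subgroup.index_ker, card_kerpr, MonoidHom.range_eq_top.2 pr_surj, Subgroup.card_top] at h1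
  have h2 : Nat.card (Multiplicative F) = 16 := by
    rw [← hF, ← Nat.card_eq_fintype_card]; rfl
  rw [h2] at h1
  omega

theorem exists_nonfix (hF : Fintype.card F = 16) : ∃ x : F, x ^ 4 ≠ x := by
  by_contra hcon
  push Not at hcon
  have h1 := card_fix_le (F := F)
  have h2 : Nat.card {b : F // b ^ 4 = b} = 16 := by
    rw [← hF, ← Nat.card_eq_fintype_card]
    exact Nat.card_congr (Equiv.subtypeUnivEquiv hcon)
  omega

theorem center_eq : center (UU F hF) = (pr : UU F hF →* _).ker := by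
  ext p
  rw [mem_center_iff, mem_kerpr]
  constructor
  · intro h
    by_contra ha
    obtain ⟨x, hx⟩ := exists_nonfix hF
    obtain ⟨s, hs⟩ := (card_facts hF).2 _ (a5 hF (p.a * x))
    have h1 := congrArg UU.t (h ⟨p.a * x, s, hs⟩)
    simp only [mul_t] at h1
    apply hx
    have h2 : p.a ^ 5 * (x ^ 4 - x) = 0 := by linear_combination h1
    rcases mul_eq_zero.1 h2 with h3 | h3
    · exact absurd (pow_eq_zero_iff (by norm_num) |>.1 h3) ha
    · exact sub_eq_zero.1 h3
  · intro h q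
    ext
    · simp only [mul_a]; ring
    · simp only [mul_t, h]; ring

theorem sq_mem (p : UU F hF) : p * p ∈ center (UU F hF) := by
  rw [center_eq, mem_kerpr, mul_a]
  linear_combination p.a * two_zero hF

theorem sq_one_iff (p : UU F hF) : p * p = 1 ↔ p.a = 0 := by
  constructor
  · intro h
    have h1 := congrArg UU.t h
    simp only [mul_t, one_t] at h1
    have h2 : p.a ^ 5 = 0 := by linear_combination h1 - p.t * two_zero hF
    exact pow_eq_zero_iff (by norm_num) |>.1 h2
  · intro h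
    ext
    · simp only [mul_a, one_a, h]; ring
    · simp only [mul_t, one_t, h]; linear_combination p.t * two_zero hF

theorem klein : IsKleinFour (center (UU F hF)) := by
  have h4 : Nat.card (center (UU F hF)) = 4 := by rw [center_eq]; exact card_kerpr
  have hsq : ∀ x : center (UU F hF), x * x = 1 := by
    intro x
    apply Subtype.ext
    show (x : UU F hF) * x = 1
    rw [sq_one_iff]
    exact (mem_kerpr _).1 (center_eq.le x.2)
  refine ⟨h4, ?_⟩
  haveI : Nontrivial (center (UU F hF)) := by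
    rw [← Finite.one_lt_card_iff_nontrivial, h4]; norm_num
  have h1 : Monoid.exponent (center (UU F hF)) ∣ 2 := Monoid.exponent_dvd_of_forall_pow_eq_one (fun x => by rw [pow_two]; exact hsq x)
  rcases (Nat.dvd_prime Nat.prime_two).1 h1 with h2 | h2
  · rw [Monoid.exp_eq_one_iff] at h2
    exact absurd h2 (not_subsingleton _)
  · exact h2

theorem closure_eq : center (UU F hF) = closure {x : UU F hF | orderOf x = 2} := by
  apply le_antisymm
  · intro p hp
    by_cases h1 : p = 1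
    · rw [h1]; exact one_mem _
    · apply Subgroup.subset_closure
      rw [center_eq, mem_kerpr] at hp
      exact orderOf_eq_prime_iff.2 ⟨(pow_two p).trans ((sq_one_iff p).2 hp), h1⟩
  · rw [closure_le]
    intro p hp
    have h1 := (orderOf_eq_prime_iff.1 hp).1
    rw [SetLike.mem_coe, center_eq, mem_kerpr, ← sq_one_iff, ← pow_two]
    exact h1

theorem commutator_eq : center (UU F hF) = commutator (UU F hF) := by
  apply le_antisymm
  · intro p hp
    rw [center_eq, mem_kerpr] at hp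
    have h1 : p.t ^ 4 = p.t := by
      have := p.h
      rw [hp] at this
      linear_combination this - p.t * two_zero hF
    obtain ⟨c, hc⟩ := (card_facts hF).2 _ h1
    obtain ⟨s, hs⟩ := (card_facts hF).2 _ (a5 hF c)
    obtain ⟨t, ht⟩ := (card_facts hF).2 _ (a5 hF (1 : F))
    have e : p = ⁅(⟨1, t, ht⟩ : UU F hF), (⟨c, s, hs⟩ : UU F hF)⁆ := by
      rw [commutatorElement_def, eq_mul_inv_iff_mul_eq, eq_mul_inv_iff_mul_eq]
      ext
      · simp only [mul_a, hp]; ring
      · simp only [mul_a, mul_t, hp]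
        rw [← hc]
        linear_combination (c ^ 4) * two_zero hF
    rw [e]
    exact commutator_mem_commutator (mem_top _) (mem_top _)
  · rw [_root_.commutator_def, commutator_le]
    intro p _ q _
    rw [center_eq, MonoidHom.mem_ker, map_commutatorElement, commutatorElement_eq_one_iff_mul_comm, mul_comm]

theorem card_quot : Nat.card (UU F hF ⧸ center (UU F hF)) = 16 := by
  have h1 := Subgroup.card_eq_card_quotient_mul_card_subgroup (center (UU F hF))
  have h2 : Nat.card (center (UU F hF)) = 4 := by rw [center_eq]; exact card_kerpr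
  rw [card_UU, h2] at h1
  omega

theorem quot_sq (x : UU F hF ⧸ center (UU F hF)) : x ^ 2 = 1 := by
  obtain ⟨p, rfl⟩ := QuotientGroup.mk_surjective x
  rw [← QuotientGroup.mk_pow, QuotientGroup.eq_one_iff, pow_two]
  exact sq_mem p

/-- the property -/
def PP (S : Type*) [Group S] : Prop := Nat.card S = 64 ∧ IsKleinFour (center S) ∧ center S = closure {x : S | orderOf x = 2} ∧
  center S = commutator S ∧ Nat.card (S ⧸ center S) = 16 ∧ ∀ x : S ⧸ center S, x ^ 2 = 1

theorem PP_UU : PP (UU F hF) := ⟨card_UU, klein, closure_eq, commutator_eq, card_quot, quot_sq⟩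

theorem PP_equiv {S T : Type*} [Group S] [Group T] (e : S ≃* T) (h : PP S) : PP T := by
  obtain ⟨h1, h2, h3, h4, h5, h6⟩ := h
  have hc : (center S).map e.toMonoidHom = center T := CfsgLib.Comp.map_center_equiv e
  have ec : center S ≃* center T := (e.subgroupMap (center S)).trans (MulEquiv.subgroupCongr hc)
  have eq : S ⧸ center S ≃* T ⧸ center T := QuotientGroup.congr _ _ e hc
  refine ⟨?_, ?_, ?_, ?_, ?_, ?_⟩
  · rw [← h1]; exact (Nat.card_congr e.toEquiv).symm
  · refine ⟨?_, ?_⟩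
    · rw [← h2.card_four]; exact (Nat.card_congr ec.toEquiv).symm
    · rw [← h2.exponent_two]; exact (Monoid.exponent_eq_of_mulEquiv ec).symm
  · rw [← hc, h3, MonoidHom.map_closure]
    congr 1
    ext x
    constructor
    · rintro ⟨y, hy, rfl⟩
      show orderOf (e y) = 2
      rw [MulEquiv.orderOf_eq]; exact hy
    · intro hx
      refine ⟨e.symm x, ?_, e.apply_symm_apply x⟩
      show orderOf (e.symm x) = 2
      rw [MulEquiv.orderOf_eq]; exact hx
  · rw [← hc, h4, _root_.commutator_def, _root_.commutator_def, map_commutator]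
    have : (⊤ : Subgroup S).map e.toMonoidHom = ⊤ := map_top_of_surjective _ e.surjective
    rw [this]
  · rw [← h5]; exact (Nat.card_congr eq.toEquiv).symm
  · intro x
    obtain ⟨y, rfl⟩ := eq.surjective x
    rw [← map_pow, h6, map_one]

/-! ### the embedding into `SU(3,4)` -/

/-- the matrix -/
def Mt (p : UU F hF) : Matrix (Fin 3) (Fin 3) F :=
  !![1 + p.t, p.t, p.a ^ 4; p.t, 1 + p.t, p.a ^ 4; p.a, p.a, 1]

theorem Mt_mul (p q : UU F hF) : Mt (p * q) = Mt p * Mt q := by
  have h2 := two_zero hF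
  unfold Mt
  rw [Matrix.mul_fin_three]
  simp only [mul_a, mul_t, add4 hF]
  congr 1
  ext i j
  fin_cases i <;> fin_cases j
  · show 1 + (p.t + q.t + p.a ^ 4 * q.a) = (1 + p.t) * (1 + q.t) + p.t * q.t + p.a ^ 4 * q.a
    linear_combination -(p.t * q.t) * h2
  · show (p.t + q.t + p.a ^ 4 * q.a) = (1 + p.t) * q.t + p.t * (1 + q.t) + p.a ^ 4 * q.a
    linear_combination -(p.t * q.t) * h2
  · show p.a ^ 4 + q.a ^ 4 = (1 + p.t) * q.a ^ 4 + p.t * q.a ^ 4 + p.a ^ 4 * 1
    linear_combination -(p.t * q.a ^ 4) * h2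
  · show (p.t + q.t + p.a ^ 4 * q.a) = p.t * (1 + q.t) + (1 + p.t) * q.t + p.a ^ 4 * q.a
    linear_combination -(p.t * q.t) * h2
  · show 1 + (p.t + q.t + p.a ^ 4 * q.a) = p.t * q.t + (1 + p.t) * (1 + q.t) + p.a ^ 4 * q.a
    linear_combination -(p.t * q.t) * h2
  · show p.a ^ 4 + q.a ^ 4 = p.t * q.a ^ 4 + (1 + p.t) * q.a ^ 4 + p.a ^ 4 * 1
    linear_combination -(p.t * q.a ^ 4) * h2
  · show p.a + q.a = p.a * (1 + q.t) + p.a * q.t + 1 * q.a
    linear_combination -(p.a * q.t) * h2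
  · show p.a + q.a = p.a * q.t + p.a * (1 + q.t) + 1 * q.a
    linear_combination -(p.a * q.t) * h2
  · show (1 : F) = p.a * q.a ^ 4 + p.a * q.a ^ 4 + 1 * 1
    linear_combination -(p.a * q.a ^ 4) * h2

theorem Mt_det (p : UU F hF) : (Mt p).det = 1 := by
  have h2 := two_zero hF
  unfold Mt
  rw [Matrix.det_fin_three]
  show (1 + p.t) * (1 + p.t) * 1 - (1 + p.t) * p.a ^ 4 * p.a - p.t * p.t * 1 + p.t * p.a ^ 4 * p.a + p.a ^ 4 * p.t * p.a - p.a ^ 4 * (1 + p.t) * p.a = 1
  linear_combination (p.t - p.a ^ 5) * h2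

theorem Mt_one : Mt (1 : UU F hF) = 1 := by
  unfold Mt
  rw [Matrix.one_fin_three]
  simp only [one_a, one_t]
  norm_num

theorem Mt_su (p : UU F hF) (u v : Fin 3 → F) :
    hermForm 3 F 4 (Matrix.mulVec (Mt p) u) (Matrix.mulVec (Mt p) v) = hermForm 3 F 4 u v := by
  have h2 := two_zero hF
  have h16 := pow16 hF p.a
  unfold hermForm
  have e0 : ∀ w : Fin 3 → F, Matrix.mulVec (Mt p) w 0 = w 0 + p.t * (w 0 + w 1) + p.a ^ 4 * w 2 := by
    intro w
    unfold Mt Matrix.mulVec dotProduct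
    rw [Fin.sum_univ_three]
    show (1 + p.t) * w 0 + p.t * w 1 + p.a ^ 4 * w 2 = _
    ring
  have e1 : ∀ w : Fin 3 → F, Matrix.mulVec (Mt p) w 1 = w 1 + p.t * (w 0 + w 1) + p.a ^ 4 * w 2 := by
    intro w
    unfold Mt Matrix.mulVec dotProduct
    rw [Fin.sum_univ_three]
    show p.t * w 0 + (1 + p.t) * w 1 + p.a ^ 4 * w 2 = _
    ring
  have e2 : ∀ w : Fin 3 → F, Matrix.mulVec (Mt p) w 2 = w 2 + p.a * (w 0 + w 1) := by
    intro w
    unfold Mt Matrix.mulVec dotProduct
    rw [Fin.sum_univ_three]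
    show p.a * w 0 + p.a * w 1 + 1 * w 2 = _
    ring
  rw [Fin.sum_univ_three, Fin.sum_univ_three, e0, e0, e1, e1, e2, e2]
  have f0 : ∀ x y z : F, (x + p.t * y + p.a ^ 4 * z) ^ 4 = x ^ 4 + p.t ^ 4 * y ^ 4 + p.a * z ^ 4 := by
    intro x y z
    rw [add4 hF, add4 hF, mul_pow, mul_pow, ← pow_mul, h16]
  have f2 : ∀ x y : F, (x + p.a * y) ^ 4 = x ^ 4 + p.a ^ 4 * y ^ 4 := by
    intro x y
    rw [add4 hF, mul_pow]
  rw [f0, f0, f2, add4 hF]
  obtain ⟨T, hT⟩ : ∃ T, T = p.t ^ 4 := ⟨_, rfl⟩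
  obtain ⟨A, hA⟩ : ∃ A, A = p.a ^ 4 := ⟨_, rfl⟩
  have hh : p.t + T = A * p.a := by rw [hT, hA, p.h]; ring
  rw [← hT, ← hA]
  linear_combination ((u 0 + u 1) * (v 0 ^ 4 + v 1 ^ 4)) * hh +
    (A * p.a * (u 0 + u 1) * (v 0 ^ 4 + v 1 ^ 4) + A * u 2 * (v 0 ^ 4 + v 1 ^ 4) + p.a * (v 2) ^ 4 * (u 0 + u 1) +
      (p.t * (u 0 + u 1) + A * u 2) * (T * (v 0 ^ 4 + v 1 ^ 4) + p.a * (v 2) ^ 4)) * h2

/-- the embedding -/
def T34 : UU F hF →* Cfsg.SU 3 F 4 where
  toFun p := ⟨⟨Mt p, Mt_det p⟩, fun u v => Mt_su p u v⟩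
  map_one' := Subtype.ext (Subtype.ext Mt_one)
  map_mul' := fun p q => Subtype.ext (Subtype.ext (Mt_mul p q))

theorem T34_inj : Function.Injective (T34 : UU F hF →* _) := by
  intro p q h
  have h1 : Mt p = Mt q := congrArg (fun g : Cfsg.SU 3 F 4 => ((g : Matrix.SpecialLinearGroup (Fin 3) F) : Matrix (Fin 3) (Fin 3) F)) h
  have h2 : Mt p 2 0 = Mt q 2 0 := by rw [h1]
  have h3 : Mt p 0 1 = Mt q 0 1 := by rw [h1]
  exact UU.ext h2 h3

theorem center_bot (hF : Fintype.card F = 16) : center (Cfsg.SU 3 F 4) = ⊥ := by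
  have hF' : Fintype.card F = 4 ^ 2 := by rw [hF]; norm_num
  rw [eq_bot_iff]
  intro Z hZ
  obtain ⟨c, hc, hc3, -⟩ := CfsgLib.ModB.center_cube hF' hZ
  have h1 := Z.2 (Pi.single 0 1) (Pi.single 0 1)
  have h2 : Matrix.mulVec ((Z : Matrix.SpecialLinearGroup (Fin 3) F) : Matrix (Fin 3) (Fin 3) F) (Pi.single 0 1) = Pi.single 0 c := by
    have : ((Z : Matrix.SpecialLinearGroup (Fin 3) F) : Matrix (Fin 3) (Fin 3) F) = c • 1 := hc
    rw [this, Matrix.smul_mulVec, Matrix.one_mulVec, ← Pi.single_smul, smul_eq_mul, mul_one]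
  have h3 : hermForm 3 F 4 (Pi.single 0 c) (Pi.single 0 c) = hermForm 3 F 4 (Pi.single 0 1) (Pi.single 0 1) := by
    rw [← h2]; exact h1
  unfold hermForm at h3
  rw [Fin.sum_univ_three, Fin.sum_univ_three] at h3
  simp at h3
  have h4 : c ^ 5 = 1 := by linear_combination h3
  have h5 : c = 1 := by
    calc c = (c ^ 3) ^ 2 * ((c ^ 5) ^ 1) * (c ^ 10)⁻¹ := by
          have hc0 : c ≠ 0 := by rintro rfl; norm_num at hc3
          field_simp
      _ = 1 := by
          have : c ^ 10 = 1 := by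
            calc c ^ 10 = (c ^ 5) ^ 2 := by ring
              _ = 1 := by rw [h4]; ring
          rw [hc3, h4, this]; norm_num
  rw [mem_bot]
  apply Subtype.ext
  apply Subtype.ext
  have : ((Z : Matrix.SpecialLinearGroup (Fin 3) F) : Matrix (Fin 3) (Fin 3) F) = c • 1 := hc
  rw [h5, one_smul] at this
  exact this

theorem card_su34 (hF : Fintype.card F = 16) : Nat.card (Cfsg.SU 3 F 4) = 2 ^ 6 * 975 := by
  have hF' : Fintype.card F = 4 ^ 2 := by rw [hF]; norm_num
  have h1 := Cfsg.Agent.H22.card_SU (n := 3) hF' (by norm_num)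
  rw [Finset.prod_range_succ, Finset.prod_range_succ, Finset.prod_range_one] at h1
  norm_num at h1
  omega

theorem main (hF : Fintype.card F = 16) (S : Sylow 2 (Cfsg.PSU 3 F 4)) : PP (S : Subgroup (Cfsg.PSU 3 F 4)) := by
  haveI : Fact (Nat.Prime 2) := ⟨Nat.prime_two⟩
  let e : Cfsg.SU 3 F 4 →* Cfsg.PSU 3 F 4 := QuotientGroup.mk' _
  have he : Function.Injective e := by
    rw [← MonoidHom.ker_eq_bot_iff, QuotientGroup.ker_mk', center_bot hF]
  let j : UU F hF →* Cfsg.PSU 3 F 4 := e.comp T34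
  have hj : Function.Injective j := he.comp T34_inj
  have hc : Nat.card j.range = 2 ^ 6 := by
    rw [Nat.card_congr (MonoidHom.ofInjective hj).toEquiv.symm, card_UU]; norm_num
  have hG : Nat.card (Cfsg.PSU 3 F 4) = 2 ^ 6 * 975 := by
    rw [← card_su34 hF]
    exact (Nat.card_congr (Equiv.ofBijective e ⟨he, QuotientGroup.mk'_surjective _⟩)).symm
  obtain ⟨f⟩ := CfsgLib.GS8.sylow_equiv_of_card S hc hG (by decide)
  exact PP_equiv ((MonoidHom.ofInjective hj).trans f) PP_UU

end CfsgLib.UF8
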