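import Cfsg.Agent.LibUn29e
import Cfsg.Agent.LibSympTv29

set_option autoImplicit false

/-! Stabilizers of subspaces in the special unitary group. -/

namespace CfsgLib.Un29

open scoped MatrixGroups Matrix
open Cfsg CfsgLib.MaxTv29

variable {ι : Type} [Fintype ι] [DecidableEq ι] {F : Type*} [Field F] {σ : F ≃+* F}
variable {f : (ι → F) → (ι → F) → F}

/-- all transvections with the isotropic centre `v` belong to `M` -/
def UFull (hf : Geo.IsUnitaryForm σ f) (M : Subgroup (GL ι F)) (v : ι → F) : Prop := f v v = 0 ∧ ∀ c : F, σ c = -c → ut hf v c ∈ M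

theorem UFull.smul {hf : Geo.IsUnitaryForm σ f} {M : Subgroup (GL ι F)} {v : ι → F} (h : UFull hf M v) (k : F) : UFull hf M (k • v) := by
  refine ⟨by rw [hf.smul_left, smul_right hf, h.1, mul_zero, mul_zero], fun c hc => ?_⟩
  rw [ut_smul hf h.1]
  apply h.2
  rw [map_mul, map_mul, hf.involutive, hc]; ring

theorem UFull.conj {hf : Geo.IsUnitaryForm σ f} {M : Subgroup (GL ι F)} {v : ι → F} (h : UFull hf M v) {g : GL ι F} (hg : g ∈ M) (hgi : g ∈ iso f) :
    UFull hf M ((g : Matrix ι ι F) *ᵥ v) := by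
  refine ⟨by rw [(mem_iso g).mp hgi]; exact h.1, fun c hc => ?_⟩
  rw [← ut_conj hf hgi h.1]
  exact M.mul_mem (M.mul_mem hg (h.2 c hc)) (M.inv_mem hg)

theorem UFull.of_smul {hf : Geo.IsUnitaryForm σ f} {M : Subgroup (GL ι F)} {v : ι → F} {k : F} (hk : k ≠ 0) (h : UFull hf M (k • v)) : UFull hf M v := by
  have := h.smul k⁻¹
  rwa [smul_smul, inv_mul_cancel₀ hk, one_smul] at this

/-- Eichler transformations -/
noncomputable def eich (hf : Geo.IsUnitaryForm σ f) (a b : ι → F) (μ : F) (haa : f a a = 0) (hab : f a b = 0) : GL ι F :=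
  tv a (μ • fd hf a - fd hf b) (by rw [LinearMap.sub_apply, LinearMap.smul_apply, fd_apply, fd_apply, haa, hab]; simp) *
    tv b (fd hf a) (show (fd hf a) b = 0 by rw [fd_apply]; exact swap_eq hf hab)

theorem eich_mulVec (hf : Geo.IsUnitaryForm σ f) (a b : ι → F) (μ : F) (haa : f a a = 0) (hab : f a b = 0) (y : ι → F) :
    ((eich hf a b μ haa hab : GL ι F) : Matrix ι ι F) *ᵥ y = y + f y a • b + ((μ - f b b) * f y a - f y b) • a := by
  unfold eich
  rw [Units.val_mul, ← Matrix.mulVec_mulVec, tv_mulVec, tv_mulVec]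
  simp only [LinearMap.sub_apply, LinearMap.smul_apply, fd_apply, smul_eq_mul, hf.add_left, hf.smul_left, swap_eq hf hab]
  module

theorem eich_special (hf : Geo.IsUnitaryForm σ f) (a b : ι → F) (μ : F) (haa : f a a = 0) (hab : f a b = 0) :
    eich hf a b μ haa hab ∈ Geo.specialLinear ι F := (Geo.specialLinear ι F).mul_mem (tv_mem_special _ _ _) (tv_mem_special _ _ _)

theorem eich_iso (hf : Geo.IsUnitaryForm σ f) (a b : ι → F) (μ : F) (haa : f a a = 0) (hab : f a b = 0) (hμ : μ + σ μ = f b b) :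
    eich hf a b μ haa hab ∈ iso f := by
  rw [mem_iso]
  intro x y
  have hba := swap_eq hf hab
  simp only [eich_mulVec, hf.add_left, add_right hf, hf.smul_left, smul_right hf, haa, hab, hba, map_mul, map_sub, norm_real hf b]
  rw [← hf.herm a y, ← hf.herm b y]
  have e1 : σ μ = f b b - μ := by linear_combination hμ
  rw [e1]
  ring

/-- **Stabilizers of totally isotropic subspaces** -/
theorem singular_maximal [Finite F] (hf : Geo.IsUnitaryForm σ f) (hn : 4 ≤ Fintype.card ι) (W : Submodule F (ι → F)) (hW0 : W ≠ ⊥) (hW : Geo.IsTotallySingularFor f W) :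
    Geo.IsMaximalIn (iso f ⊓ Geo.specialLinear ι F) (Geo.subspaceStabilizer W ⊓ (iso f ⊓ Geo.specialLinear ι F)) := by
  obtain ⟨δ, hδ0, hδ⟩ := exists_skew hf
  have hTG : TG hf ⊤ ≤ iso f ⊓ Geo.specialLinear ι F := le_inf (TG_le_iso hf ⊤) (TG_le_special hf ⊤)
  obtain ⟨w0, hw0, hw0'⟩ := Submodule.exists_mem_ne_zero_of_ne_bot hW0
  -- adjusting a vector to an isotropic one
  have adj : ∀ u y : ι → F, f u u = 0 → f u y ≠ 0 → ∃ k : F, f (y + k • u) (y + k • u) = 0 ∧ f u (y + k • u) = f u y := by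
    intro u y hu huy
    obtain ⟨τ, hτ⟩ := exists_trace hf (-(f y y)) (by rw [map_neg, norm_real hf])
    refine ⟨τ / f u y, ?_, ?_⟩
    · rw [hf.add_left, add_right hf, add_right hf, hf.smul_left, hf.smul_left, smul_right hf, smul_right hf, hu, map_div₀, ← hf.herm]
      have hye := swap_ne hf huy
      field_simp
      linear_combination (f y u * f u y) * hτ
    · rw [add_right hf, smul_right hf, hu, mul_zero, add_zero]
  refine ⟨lt_of_le_of_ne inf_le_right ?_, fun M hHM hMS => ?_⟩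
  · intro heq
    obtain ⟨⟨_, _⟩, ⟨y0, hy0⟩⟩ := hf.nondegenerate w0 hw0'
    obtain ⟨k, hk1, hk2⟩ := adj w0 y0 (hW w0 hw0 w0 hw0) hy0
    set v := y0 + k • w0 with hv
    have h1 : ut hf v δ ∈ Geo.subspaceStabilizer W ⊓ (iso f ⊓ Geo.specialLinear ι F) := by
      rw [heq]; exact hTG (ut_mem_TG hf Submodule.mem_top hk1 hδ)
    have h2 := (mem_stab _ _).mp h1.1 w0 hw0
    rw [ut_mulVec hf hk1] at h2
    have h3 : (δ * f w0 v) • v ∈ W := by
      have := W.sub_mem h2 hw0
      rwa [add_sub_cancel_left] at this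
    have h4 : v ∈ W := by
      have h5 : δ * f w0 v ≠ 0 := mul_ne_zero hδ0 (by rw [hk2]; exact hy0)
      have := W.smul_mem (δ * f w0 v)⁻¹ h3
      rwa [smul_smul, inv_mul_cancel₀ h5, one_smul] at this
    exact hy0 (by rw [← hk2]; exact hW w0 hw0 v h4)
  by_cases hMH : M = Geo.subspaceStabilizer W ⊓ (iso f ⊓ Geo.specialLinear ι F)
  · exact Or.inl hMH
  right
  apply le_antisymm hMS
  obtain ⟨g, hgM, hg⟩ : ∃ g ∈ M, g ∉ Geo.subspaceStabilizer W := by
    by_contra hcon
    push Not at hcon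
    exact hMH (le_antisymm (le_inf hcon hMS) hHM)
  have hgi : g ∈ iso f := (hMS hgM).1
  have hperp : ∀ v, f v v = 0 → (∀ w ∈ W, f w v = 0) → UFull hf M v := by
    intro v hvv hv
    refine ⟨hvv, fun c hc => hHM ⟨(mem_stab _ _).mpr fun w hw => ?_, hTG (ut_mem_TG hf Submodule.mem_top hvv hc)⟩⟩
    rw [ut_mulVec hf hvv, hv w hw, mul_zero, zero_smul, add_zero]; exact hw
  obtain ⟨v, hvF, w1, hw1, hw1v⟩ : ∃ v, UFull hf M v ∧ ∃ w ∈ W, f w v ≠ 0 := by
    rw [mem_stab] at hg
    push Not at hg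
    obtain ⟨w, hw, hgw⟩ := hg
    set u := (g : Matrix ι ι F) *ᵥ w with hu
    have huu : f u u = 0 := by rw [hu, (mem_iso g).mp hgi]; exact hW w hw w hw
    obtain ⟨z, hzz, hzW, huz⟩ : ∃ z, f z z = 0 ∧ (∀ w ∈ W, f w z = 0) ∧ f u z ≠ 0 := by
      by_cases h : ∃ w' ∈ W, f u w' ≠ 0
      · obtain ⟨w', hw', h'⟩ := h
        exact ⟨w', hW w' hw' w' hw', fun w hw => hW w hw w' hw', h'⟩
      · push Not at h
        obtain ⟨y, hy, huy⟩ : ∃ y ∈ perp hf W, f u y ≠ 0 := by
          by_contra hcon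
          push Not at hcon
          exact hgw (le_of_perp_perp hf W u hcon)
        obtain ⟨k, hk1, hk2⟩ := adj u y huu huy
        refine ⟨y + k • u, hk1, fun w' hw' => ?_, by rw [hk2]; exact huy⟩
        rw [add_right hf, smul_right hf, hy w' hw', swap_eq hf (h w' hw'), mul_zero, add_zero]
    refine ⟨((g⁻¹ : GL ι F) : Matrix ι ι F) *ᵥ z, (hperp z hzz hzW).conj (M.inv_mem hgM) ((iso f).inv_mem hgi), w, hw, ?_⟩
    have h1 := (mem_iso g).mp hgi w (((g⁻¹ : GL ι F) : Matrix ι ι F) *ᵥ z)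
    rw [mulVec_inv_mulVec] at h1
    rw [← h1]; exact huz
  refine (su_le_TG4 hf hn).trans ((TG_le_iff hf ⊤ M).mpr fun x _ hxx => ?_)
  suffices h : UFull hf M x from h.2
  by_cases hx : ∀ w ∈ W, f w x = 0
  · exact hperp x hxx hx
  push Not at hx
  obtain ⟨a, haW, ha1, ha2⟩ := CfsgLib.SympTv29.exists_avoid W (fd hf v) (fd hf x) ⟨w1, hw1, hw1v⟩ hx
  rw [fd_apply] at ha1 ha2
  have haa := hW a haW a haW
  have ha1' := swap_ne hf ha1
  have ha2' := swap_ne hf ha2
  set k := f x a * (f v a)⁻¹ with hk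
  set v' := k • v with hv'
  have hv'a : f v' a = f x a := by
    rw [hv', hf.smul_left, hk, inv_mul_cancel_right₀ ha1']
  have hv'F : UFull hf M v' := hvF.smul k
  set b := (f x a)⁻¹ • (x - v') with hb
  have hba : f b a = 0 := by rw [hb, hf.smul_left, sub_left hf, hv'a, sub_self, mul_zero]
  have hab : f a b = 0 := swap_eq hf hba
  obtain ⟨μ, hμ⟩ := exists_trace hf (f b b) (norm_real hf b)
  have hE : eich hf a b μ haa hab ∈ M := by
    refine hHM ⟨(mem_stab _ _).mpr fun w hw => ?_, eich_iso hf a b μ haa hab hμ, eich_special hf a b μ haa hab⟩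
    rw [eich_mulVec, hW w hw a haW, zero_smul, add_zero]
    exact W.add_mem hw (W.smul_mem _ haW)
  have h1 := hv'F.conj hE (eich_iso hf a b μ haa hab hμ)
  rw [eich_mulVec, hv'a] at h1
  have e1 : v' + f x a • b = x := by
    rw [hb, smul_smul, mul_inv_cancel₀ ha2', one_smul, add_sub_cancel]
  rw [e1] at h1
  set d := (μ - f b b) * f x a - f v' b with hd
  -- `x + d a` is full
  have h2 := h1.1
  have h3 : σ d * f x a + d * f a x = 0 := by
    rw [hf.add_left, add_right hf, add_right hf, hf.smul_left, hf.smul_left, smul_right hf, smul_right hf, haa, hxx] at h2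
    linear_combination h2
  have hax : f a x = σ (f x a) := hf.herm a x
  have hax0 : σ (f x a) ≠ 0 := fun h => ha2' ((map_eq_zero σ).mp h)
  have hc : σ (-d / f x a) = -(-d / f x a) := by
    rw [map_div₀, map_neg]
    rw [hax] at h3
    field_simp
    linear_combination -h3
  have h4 := h1.conj ((hperp a haa (fun w hw => hW w hw a haW)).2 _ hc) (ut_mem_iso hf haa hc)
  rw [ut_mulVec hf haa, hf.add_left, hf.smul_left, haa, mul_zero, add_zero, div_mul_cancel₀ _ ha2'] at h4
  have h5 : x + d • a + -d • a = x := by module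
  rw [h5] at h4
  exact h4

end CfsgLib.Un29
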