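import Cfsg.Agent.LibUn29f

set_option autoImplicit false

/-! Stabilizers of non-degenerate subspaces in the special unitary group. -/

namespace CfsgLib.Un29

open scoped MatrixGroups Matrix
open Cfsg CfsgLib.MaxTv29

variable {ι : Type} [Fintype ι] [DecidableEq ι] {F : Type*} [Field F] {σ : F ≃+* F}
variable {f : (ι → F) → (ι → F) → F}

theorem mem_special (g : GL ι F) : g ∈ Geo.specialLinear ι F ↔ (g : Matrix ι ι F).det = 1 := by
  constructor
  · intro h
    have := congrArg Units.val (MonoidHom.mem_ker.mp h)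
    simpa using this
  · intro h
    exact MonoidHom.mem_ker.mpr (Units.ext (by simpa using h))

theorem ut_mem_stab (hf : Geo.IsUnitaryForm σ f) {v : ι → F} (hv : f v v = 0) (c : F) {W : Submodule F (ι → F)} (h : v ∈ W) : ut hf v c ∈ Geo.subspaceStabilizer W := by
  rw [mem_stab]
  intro w hw
  rw [ut_mulVec hf hv]
  exact W.add_mem hw (W.smul_mem _ h)

theorem ut_mem_stab' (hf : Geo.IsUnitaryForm σ f) {v : ι → F} (hv : f v v = 0) (c : F) {W : Submodule F (ι → F)} (h : ∀ w ∈ W, f w v = 0) : ut hf v c ∈ Geo.subspaceStabilizer W := by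
  rw [mem_stab]
  intro w hw
  rw [ut_mulVec hf hv, h w hw, mul_zero, zero_smul, add_zero]; exact hw

theorem GG_le_stab (hf : Geo.IsUnitaryForm σ f) (U : Submodule F (ι → F)) : GG hf U ≤ Geo.subspaceStabilizer U := by
  rw [GG, Subgroup.closure_le]
  rintro g (⟨v, c, hvU, hv, _, rfl⟩ | ⟨v, w, hvU, hv, hw, rfl⟩)
  · exact ut_mem_stab hf hv c hvU
  · refine (mem_stab _ _).mpr fun x hx => ?_
    rw [qr_mulVec hf hv (left_ne_zero_of_mul_eq_one hw)]
    exact U.add_mem hx (U.smul_mem _ hvU)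

theorem GG_det (hf : Geo.IsUnitaryForm σ f) (U : Submodule F (ι → F)) {t : GL ι F} (ht : t ∈ GG hf U) : (t : Matrix ι ι F).det * σ (t : Matrix ι ι F).det = 1 := by
  rw [GG] at ht
  induction ht using Subgroup.closure_induction with
  | mem x hx =>
    rcases hx with ⟨v, c, _, hv, _, rfl⟩ | ⟨v, w, _, hv, hw, rfl⟩
    · have h1 : ((ut hf v c : GL ι F) : Matrix ι ι F).det = 1 := by
        have := ut_mem_special hf v c
        exact (mem_special _).mp this
      rw [h1, map_one, mul_one]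
    · rw [qr_det hf hv (left_ne_zero_of_mul_eq_one hw), hw]
  | one => rw [Units.val_one, Matrix.det_one, map_one, mul_one]
  | mul a b _ _ ha hb =>
    rw [Units.val_mul, Matrix.det_mul, map_mul]
    linear_combination (b : Matrix ι ι F).det * σ (b : Matrix ι ι F).det * ha + hb
  | inv a _ ha =>
    have h1 : ((a⁻¹ : GL ι F) : Matrix ι ι F).det * (a : Matrix ι ι F).det = 1 := by
      rw [← Matrix.det_mul, ← Units.val_mul, inv_mul_cancel, Units.val_one, Matrix.det_one]
    have h2 : σ ((a⁻¹ : GL ι F) : Matrix ι ι F).det * σ (a : Matrix ι ι F).det = 1 := by rw [← map_mul, h1, map_one]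
    calc ((a⁻¹ : GL ι F) : Matrix ι ι F).det * σ ((a⁻¹ : GL ι F) : Matrix ι ι F).det
        = ((a⁻¹ : GL ι F) : Matrix ι ι F).det * σ ((a⁻¹ : GL ι F) : Matrix ι ι F).det * ((a : Matrix ι ι F).det * σ (a : Matrix ι ι F).det) := by rw [ha, mul_one]
      _ = (((a⁻¹ : GL ι F) : Matrix ι ι F).det * (a : Matrix ι ι F).det) * (σ ((a⁻¹ : GL ι F) : Matrix ι ι F).det * σ (a : Matrix ι ι F).det) := by ring
      _ = 1 := by rw [h1, h2, mul_one]

theorem adjust (hf : Geo.IsUnitaryForm σ f) (u y : ι → F) (c : F) (hc : σ c = c) (hu : f u u = 0) (huy : f u y ≠ 0) :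
    ∃ k : F, f (y + k • u) (y + k • u) = c ∧ f u (y + k • u) = f u y := by
  obtain ⟨τ, hτ⟩ := exists_trace hf (c - f y y) (by rw [map_sub, norm_real hf, hc])
  refine ⟨τ / f u y, ?_, ?_⟩
  · rw [hf.add_left, add_right hf, add_right hf, hf.smul_left, hf.smul_left, smul_right hf, smul_right hf, hu, map_div₀, ← hf.herm]
    have hye := swap_ne hf huy
    field_simp
    linear_combination (f y u * f u y) * hτ
  · rw [add_right hf, smul_right hf, hu, mul_zero, add_zero]

/-- vectors of prescribed norm and product with an isotropic vector -/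
theorem exists_norm_prod [Finite F] (hf : Geo.IsUnitaryForm σ f) {U : Submodule F (ι → F)} (hU : Geo.IsNondegenerateOn f U) (h3 : 3 ≤ Module.finrank F U) {d : ι → F} (hd : d ∈ U)
    (hd0 : d ≠ 0) (hdd : f d d = 0) (ρ ν : F) (hν : σ ν = ν) : ∃ b ∈ U, f d b = ρ ∧ f b b = ν := by
  by_cases hρ : ρ = 0
  · obtain ⟨u, huU, hu, huu⟩ := exists_nonisotropic_perp hf hU (Submodule.span F {d}) (by
      rw [finrank_span_singleton hd0]; omega)
    obtain ⟨k, hk⟩ := exists_norm hf (ν / f u u) (by rw [map_div₀, hν, norm_real hf])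
    refine ⟨k • u, U.smul_mem _ huU, ?_, ?_⟩
    · rw [smul_right hf, hu d (Submodule.mem_span_singleton_self d), mul_zero, hρ]
    · rw [hf.smul_left, smul_right hf, ← mul_assoc, hk, div_mul_cancel₀ _ huu]
  · obtain ⟨_, ⟨y, hyU, hy⟩⟩ := hU d hd hd0
    have h1 : f d (σ (ρ / f d y) • y) = ρ := by
      rw [smul_right hf, hf.involutive, div_mul_cancel₀ _ hy]
    obtain ⟨k, hk1, hk2⟩ := adjust hf d (σ (ρ / f d y) • y) ν hν hdd (by rw [h1]; exact hρ)
    exact ⟨_, U.add_mem (U.smul_mem _ hyU) (U.smul_mem _ hd), by rw [hk2, h1], hk1⟩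

/-- a non-isotropic vector not orthogonal to a given one -/
theorem exists_nonisotropic_not_perp (hf : Geo.IsUnitaryForm σ f) {U : Submodule F (ι → F)} (hU : Geo.IsNondegenerateOn f U) {c : ι → F} (hc : c ∈ U) (hc0 : c ≠ 0) (hcc : f c c = 0) :
    ∃ a ∈ U, f a a ≠ 0 ∧ f c a ≠ 0 := by
  obtain ⟨_, ⟨y, hyU, hy⟩⟩ := hU c hc hc0
  obtain ⟨k, hk1, hk2⟩ := adjust hf c y 1 (map_one σ) hcc hy
  exact ⟨_, U.add_mem hyU (U.smul_mem _ hc), by rw [hk1]; exact one_ne_zero, by rw [hk2]; exact hy⟩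

section pairs
variable [Finite F] (hf : Geo.IsUnitaryForm σ f) {W : Submodule F (ι → F)} (hW : Geo.IsNondegenerateOn f W) (h7 : 7 ≤ Module.finrank F (perp hf W))
variable {M : Subgroup (GL ι F)} (hHM : Geo.subspaceStabilizer W ⊓ (iso f ⊓ Geo.specialLinear ι F) ≤ M)
include hW h7 hHM

theorem pair_move {a b c d : ι → F} (ha : a ∈ W) (hb : b ∈ perp hf W) (hc : c ∈ W) (hd : d ∈ perp hf W) (hac : f a a = f c c) (haa : f a a ≠ 0)
    (hbd : f b b = f d d) (hbb : f b b ≠ 0) : ∃ h ∈ M, h ∈ iso f ∧ (h : Matrix ι ι F) *ᵥ (a + b) = c + d := by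
  have hW' := perp_nondeg hf W hW
  obtain ⟨s1, hs1, e1⟩ := gmove hf ha hc hac haa
  obtain ⟨s2, hs2, e2⟩ := gmove hf hb hd hbd hbb
  have hd0 : d ≠ 0 := by rintro rfl; exact hbb (hbd.trans (zero_left hf 0))
  obtain ⟨u, huU, hu, huu⟩ := exists_nonisotropic_perp hf hW' (Submodule.span F {d}) (by rw [finrank_span_singleton hd0]; omega)
  have hdu : f d u = 0 := hu d (Submodule.mem_span_singleton_self d)
  set w := ((s2 : Matrix ι ι F).det * (s1 : Matrix ι ι F).det)⁻¹ with hw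
  have h1 := GG_det hf W hs1
  have h2 := GG_det hf _ hs2
  have hw1 : w * σ w = 1 := by
    rw [hw, map_inv₀, map_mul, ← mul_inv, inv_eq_one]
    linear_combination h1 * ((s2 : Matrix ι ι F).det * σ (s2 : Matrix ι ι F).det) + h2
  have hw0 : w ≠ 0 := left_ne_zero_of_mul_eq_one hw1
  have hq : qr hf u w ∈ GG hf (perp hf W) := Subgroup.subset_closure (Or.inr ⟨_, _, huU, huu, hw1, rfl⟩)
  have hfixW : ∀ t ∈ GG hf (perp hf W), ∀ x ∈ W, (t : Matrix ι ι F) *ᵥ x = x := fun t ht x hx =>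
    GG_fix hf _ ht (fun y hy => swap_eq hf (hy x hx))
  have hfixW' : ∀ t ∈ GG hf W, ∀ x ∈ perp hf W, (t : Matrix ι ι F) *ᵥ x = x := fun t ht x hx =>
    GG_fix hf _ ht (fun y hy => hx y hy)
  refine ⟨qr hf u w * s2 * s1, hHM ⟨?_, ?_, ?_⟩, ?_, ?_⟩
  · refine (mem_stab _ _).mpr fun x hx => ?_
    rw [Units.val_mul, Units.val_mul, ← Matrix.mulVec_mulVec, ← Matrix.mulVec_mulVec]
    have h3 := (mem_stab _ _).mp (GG_le_stab hf W hs1) x hx
    rw [hfixW s2 hs2 _ h3, hfixW _ hq _ h3]; exact h3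
  · exact (iso f).mul_mem ((iso f).mul_mem (GG_le_iso hf _ hq) (GG_le_iso hf _ hs2)) (GG_le_iso hf _ hs1)
  · refine (mem_special _).mpr ?_
    rw [Units.val_mul, Units.val_mul, Matrix.det_mul, Matrix.det_mul, qr_det hf huu hw0, hw, mul_assoc]
    apply inv_mul_cancel₀
    intro h
    rw [hw, h, inv_zero] at hw0
    exact hw0 rfl
  · exact (iso f).mul_mem ((iso f).mul_mem (GG_le_iso hf _ hq) (GG_le_iso hf _ hs2)) (GG_le_iso hf _ hs1)
  · rw [Units.val_mul, Units.val_mul, ← Matrix.mulVec_mulVec, ← Matrix.mulVec_mulVec, Matrix.mulVec_add, e1, hfixW' s1 hs1 b hb, Matrix.mulVec_add, hfixW s2 hs2 c hc, e2,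
      qr_mulVec hf huu hw0, hf.add_left, hdu, huU c hc]
    simp

/-- one full vector of non-isotropic type gives all of them -/
theorem full_type {a b : ι → F} (ha : a ∈ W) (hb : b ∈ perp hf W) (haa : f a a ≠ 0) (ht : UFull hf M (a + b)) {c d : ι → F} (hc : c ∈ W) (hd : d ∈ perp hf W)
    (hcc : f c c ≠ 0) (hx : f (c + d) (c + d) = 0) : UFull hf M (c + d) := by
  have hab : f a b = 0 := hb a ha
  have hba := swap_eq hf hab
  have hcd : f c d = 0 := hd c hc
  have hdc := swap_eq hf hcd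
  have hbb : f b b = -f a a := by
    have := ht.1
    rw [hf.add_left, add_right hf, add_right hf, hab, hba] at this
    linear_combination this
  have hdd : f d d = -f c c := by
    rw [hf.add_left, add_right hf, add_right hf, hcd, hdc] at hx
    linear_combination hx
  obtain ⟨k, hk⟩ := exists_norm hf (f c c / f a a) (by rw [map_div₀, norm_real hf, norm_real hf])
  have e1 : f (k • a) (k • a) = f c c := by rw [hf.smul_left, smul_right hf, ← mul_assoc, hk, div_mul_cancel₀ _ haa]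
  have e2 : f (k • b) (k • b) = f d d := by rw [hf.smul_left, smul_right hf, ← mul_assoc, hk, hbb, hdd, mul_neg, div_mul_cancel₀ _ haa]
  obtain ⟨h, hM, hi, he⟩ := pair_move hf hW h7 hHM (W.smul_mem k ha) ((perp hf W).smul_mem k hb) hc hd e1 (by rw [e1]; exact hcc) e2 (by rw [e2, hdd]; exact neg_ne_zero.mpr hcc)
  have h1 := (ht.smul k).conj hM hi
  rw [smul_add, he] at h1
  exact h1

/-- the isotropic type follows from the non-isotropic type -/
theorem full_zero {a b : ι → F} (ha : a ∈ W) (hb : b ∈ perp hf W) (haa : f a a ≠ 0) (ht : UFull hf M (a + b)) {c d : ι → F} (hc : c ∈ W) (hd : d ∈ perp hf W)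
    (hc0 : c ≠ 0) (hd0 : d ≠ 0) (hcc : f c c = 0) (hdd : f d d = 0) : UFull hf M (c + d) := by
  obtain ⟨δ, hδ0, hδ⟩ := exists_skew hf
  have hW' := perp_nondeg hf W hW
  obtain ⟨a', ha', haa', hca'⟩ := exists_nonisotropic_not_perp hf hW hc hc0 hcc
  set m := f c a' with hm
  set l := f a' a' with hl
  have hlr : σ l = l := norm_real hf a'
  obtain ⟨b', hb', hdb', hbb'⟩ := exists_norm_prod hf hW' (by omega) hd hd0 hdd (-m / l / δ - m) (-l) (by rw [map_neg, hlr])
  have hs0 : f (a' + b') (a' + b') = 0 := by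
    rw [hf.add_left, add_right hf, add_right hf, hb' a' ha', swap_eq hf (hb' a' ha'), hbb', ← hl]; ring
  have hs := full_type hf hW h7 hHM ha hb haa ht ha' hb' haa' hs0
  have hxs : f (c + d) (a' + b') = -m / l / δ := by
    rw [hf.add_left, add_right hf, add_right hf, hb' c hc, swap_eq hf (hd a' ha'), hdb', ← hm]; ring
  have hx0 : f (c + d) (c + d) = 0 := by
    rw [hf.add_left, add_right hf, add_right hf, hcc, hdd, hd c hc, swap_eq hf (hd c hc)]; ring
  have himg : ((ut hf (a' + b') δ : GL ι F) : Matrix ι ι F) *ᵥ (c + d) = (c + (-m / l) • a') + (d + (-m / l) • b') := by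
    rw [ut_mulVec hf hs0, hxs]
    have : δ * (-m / l / δ) = -m / l := by field_simp
    rw [this]; module
  have hca : f a' c = σ m := hf.herm a' c
  have hσl : σ l ≠ 0 := by rw [hlr]; exact haa'
  have hm0 : σ m ≠ 0 := fun h => hca' ((map_eq_zero σ).mp h)
  have hnorm : f (c + (-m / l) • a') (c + (-m / l) • a') ≠ 0 := by
    rw [hf.add_left, add_right hf, add_right hf, hf.smul_left, hf.smul_left, smul_right hf, smul_right hf, hcc, ← hm, ← hl, hca, map_div₀, map_neg, hlr]
    have : 0 + -σ m / l * m + (-m / l * σ m + -m / l * (-σ m / l * l)) = -(m * σ m) / l := by field_simp; ring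
    rw [this]
    exact div_ne_zero (neg_ne_zero.mpr (mul_ne_zero hca' hm0)) haa'
  have hU := hs.2 δ hδ
  have hUi : ut hf (a' + b') δ ∈ iso f := ut_mem_iso hf hs0 hδ
  have hy : UFull hf M ((c + (-m / l) • a') + (d + (-m / l) • b')) := by
    refine full_type hf hW h7 hHM ha hb haa ht (W.add_mem hc (W.smul_mem _ ha')) ((perp hf W).add_mem hd ((perp hf W).smul_mem _ hb')) hnorm ?_
    rw [← himg, (mem_iso _).mp hUi]; exact hx0
  rw [← himg] at hy
  have h1 := hy.conj (M.inv_mem hU) ((iso f).inv_mem hUi)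
  rwa [inv_mulVec_mulVec] at h1

/-- a full vector of isotropic type gives one of non-isotropic type -/
theorem full_of_zero {a b : ι → F} (ha : a ∈ W) (hb : b ∈ perp hf W) (ha0 : a ≠ 0) (hb0 : b ≠ 0) (haa : f a a = 0) (hbb : f b b = 0) (ht : UFull hf M (a + b)) :
    ∃ a' ∈ W, ∃ b' ∈ perp hf W, f a' a' ≠ 0 ∧ UFull hf M (a' + b') := by
  obtain ⟨δ, hδ0, hδ⟩ := exists_skew hf
  have hW' := perp_nondeg hf W hW
  obtain ⟨_, ⟨y, hyW, hay⟩⟩ := hW a ha ha0
  obtain ⟨k1, hk1, hk1'⟩ := adjust hf a y 0 (map_zero σ) haa hay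
  set y1 := y + k1 • a with hy1
  have hy1W : y1 ∈ W := W.add_mem hyW (W.smul_mem _ ha)
  have hay1 : f a y1 ≠ 0 := by rw [hk1']; exact hay
  have hut1 : ut hf y1 δ ∈ M := hHM ⟨ut_mem_stab hf hk1 δ hy1W, ut_mem_iso hf hk1 hδ, ut_mem_special hf _ _⟩
  have hTG' : TG hf (perp hf W) ≤ M := (TG_le_iff hf _ M).mpr fun v hv hvv c hc =>
    hHM ⟨ut_mem_stab' hf hvv c hv, ut_mem_iso hf hvv hc, ut_mem_special hf _ _⟩
  obtain ⟨_, ⟨z, hzW, hbz⟩⟩ := hW' b hb hb0
  obtain ⟨k2, hk2, hk2'⟩ := adjust hf b z 0 (map_zero σ) hbb hbz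
  set z1 := z + k2 • b with hz1
  have hz1W : z1 ∈ perp hf W := (perp hf W).add_mem hzW ((perp hf W).smul_mem _ hb)
  have hbz1 : f b z1 ≠ 0 := by rw [hk2']; exact hbz
  have hzb1 := swap_ne hf hbz1
  -- the vector `a'`
  set a' := a + (δ * f a y1) • y1 with ha'
  have ha'W : a' ∈ W := W.add_mem ha (W.smul_mem _ hy1W)
  have hea : ((ut hf y1 δ : GL ι F) : Matrix ι ι F) *ᵥ a = a' := ut_mulVec hf hk1 δ a
  set m := f a' a with hm
  have hm1 : m = δ * (f a y1 * σ (f a y1)) := by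
    rw [hm, ha', hf.add_left, hf.smul_left, haa, hf.herm y1 a]; ring
  have hσay : σ (f a y1) ≠ 0 := fun h => hay1 ((map_eq_zero σ).mp h)
  have hm0 : m ≠ 0 := by rw [hm1]; exact mul_ne_zero hδ0 (mul_ne_zero hay1 hσay)
  have hσm0 : σ m ≠ 0 := fun h => hm0 ((map_eq_zero σ).mp h)
  obtain ⟨ω, hω⟩ := exists_moved hf
  have hω0 : ω ≠ 0 := by rintro rfl; exact hω (map_zero σ)
  set κ := ω / (f z1 b * σ m) with hκ
  have hκ0 : κ ≠ 0 := div_ne_zero hω0 (mul_ne_zero hzb1 hσm0)
  have hz10 : z1 ≠ 0 := by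
    intro h; rw [h, zero_right hf] at hbz1; exact hbz1 rfl
  obtain ⟨t2, ht2, he2⟩ := move5 hf hW' (by omega) hb ((perp hf W).smul_mem κ hz1W) hb0
    (by rw [hf.smul_left, smul_right hf, hk2, hbb]; ring) (smul_ne_zero hκ0 hz10)
  -- conjugating
  have hb1 : ((ut hf y1 δ : GL ι F) : Matrix ι ι F) *ᵥ b = b := ut_fix hf hk1 δ (swap_eq hf (hb y1 hy1W))
  have ha1 : (t2 : Matrix ι ι F) *ᵥ a' = a' := TG_fix hf _ ht2 (fun u hu => swap_eq hf (hu a' ha'W))
  have ht' := (ht.conj hut1 (ut_mem_iso hf hk1 hδ)).conj (hTG' ht2) (TG_le_iso hf _ ht2)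
  rw [Matrix.mulVec_add, hea, hb1, Matrix.mulVec_add, ha1, he2] at ht'
  have ht'' := ht'.conj (ht.2 δ hδ) (ut_mem_iso hf ht.1 hδ)
  rw [ut_mulVec hf ht.1] at ht''
  set K := δ * f (a' + κ • z1) (a + b) with hK
  have hKe : K = δ * (m + κ * f z1 b) := by
    rw [hK, hf.add_left, add_right hf, add_right hf, hf.smul_left, hf.smul_left, hb a' ha'W, swap_eq hf (hz1W a ha), ← hm]; ring
  have e3 : a' + κ • z1 + K • (a + b) = (a' + K • a) + (κ • z1 + K • b) := by module
  rw [e3] at ht''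
  refine ⟨_, W.add_mem ha'W (W.smul_mem _ ha), _, (perp hf W).add_mem ((perp hf W).smul_mem _ hz1W) ((perp hf W).smul_mem _ hb), ?_, ht''⟩
  have ha'a' : f a' a' = 0 := by
    rw [← hea, (mem_iso _).mp (ut_mem_iso hf hk1 hδ)]; exact haa
  have e4 : κ * f z1 b * σ m = ω := by rw [hκ]; field_simp
  clear_value a' K
  have e5 : f (a' + K • a) (a' + K • a) = δ * (ω - σ ω) := by
    rw [hf.add_left, add_right hf, add_right hf, hf.smul_left, hf.smul_left, smul_right hf, smul_right hf, ha'a', haa, ← hm, hf.herm a a', ← hm, hKe, map_mul, map_add, hδ]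
    have e6 : σ (κ * f z1 b) * m = σ ω := by rw [← e4, map_mul σ (κ * f z1 b), hf.involutive]
    linear_combination δ * e4 - δ * e6
  rw [e5]
  exact mul_ne_zero hδ0 (sub_ne_zero.mpr (Ne.symm hω))

end pairs

/-- **Stabilizers of non-degenerate subspaces** -/
theorem nondegenerate_maximal [Finite F] (hf : Geo.IsUnitaryForm σ f) (hn : 13 ≤ Fintype.card ι) (W : Submodule F (ι → F)) (hW0 : W ≠ ⊥) (hW : Geo.IsNondegenerateOn f W)
    (hdim : 2 * Module.finrank F W < Fintype.card ι) :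
    Geo.IsMaximalIn (iso f ⊓ Geo.specialLinear ι F) (Geo.subspaceStabilizer W ⊓ (iso f ⊓ Geo.specialLinear ι F)) := by
  obtain ⟨δ, hδ0, hδ⟩ := exists_skew hf
  have hTG : TG hf ⊤ ≤ iso f ⊓ Geo.specialLinear ι F := le_inf (TG_le_iso hf ⊤) (TG_le_special hf ⊤)
  obtain ⟨w0, hw0, hw0'⟩ := Submodule.exists_mem_ne_zero_of_ne_bot hW0
  set W' := perp hf W with hW'
  have hW'n : Geo.IsNondegenerateOn f W' := perp_nondeg hf W hW
  have hdims := finrank_perp hf W
  rw [Module.finrank_fintype_fun_eq_card, ← hW'] at hdims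
  have h7 : 7 ≤ Module.finrank F W' := by omega
  have hdisj : ∀ x, x ∈ W → x ∈ W' → x = 0 := by
    intro x h1 h2
    have : x ∈ W ⊓ W' := ⟨h1, h2⟩
    rw [inf_perp hf W hW] at this
    exact this
  refine ⟨lt_of_le_of_ne inf_le_right ?_, fun M hHM hMS => ?_⟩
  · intro heq
    obtain ⟨⟨x0, hx0W, hx0⟩, _⟩ := hW w0 hw0 hw0'
    obtain ⟨a, haW, haa⟩ := exists_nonisotropic hf W hx0W hw0 hx0
    obtain ⟨u, huU, _, huu⟩ := exists_nonisotropic_perp hf hW'n ⊥ (by rw [finrank_bot]; omega)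
    obtain ⟨k, hk⟩ := exists_norm hf (-f a a / f u u) (by rw [map_div₀, map_neg, norm_real hf, norm_real hf])
    have hb : k • u ∈ W' := W'.smul_mem _ huU
    have hbb : f (k • u) (k • u) = -f a a := by rw [hf.smul_left, smul_right hf, ← mul_assoc, hk, div_mul_cancel₀ _ huu]
    have hk0 : k • u ≠ 0 := by
      intro h
      rw [h, zero_left hf] at hbb
      exact haa (neg_eq_zero.mp hbb.symm)
    set b := k • u with hb'
    have hab : f a b = 0 := hb a haW
    have hv : f (a + b) (a + b) = 0 := by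
      rw [hf.add_left, add_right hf, add_right hf, hab, swap_eq hf hab, hbb]; ring
    have h1 : ut hf (a + b) δ ∈ Geo.subspaceStabilizer W ⊓ (iso f ⊓ Geo.specialLinear ι F) := by
      rw [heq]; exact hTG (ut_mem_TG hf Submodule.mem_top hv hδ)
    have h2 := (mem_stab _ _).mp h1.1 a haW
    rw [ut_mulVec hf hv, add_right hf, hab, add_zero] at h2
    have h3 : (δ * f a a) • (a + b) ∈ W := by
      have := W.sub_mem h2 haW
      rwa [add_sub_cancel_left] at this
    have h4 : a + b ∈ W := by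
      have h5 : δ * f a a ≠ 0 := mul_ne_zero hδ0 haa
      have := W.smul_mem (δ * f a a)⁻¹ h3
      rwa [smul_smul, inv_mul_cancel₀ h5, one_smul] at this
    exact hk0 (hdisj b ((W.add_mem_iff_right haW).mp h4) hb)
  by_cases hMH : M = Geo.subspaceStabilizer W ⊓ (iso f ⊓ Geo.specialLinear ι F)
  · exact Or.inl hMH
  right
  apply le_antisymm hMS
  obtain ⟨g, hgM, hg⟩ : ∃ g ∈ M, g ∉ Geo.subspaceStabilizer W := by
    by_contra hcon
    push Not at hcon
    exact hMH (le_antisymm (le_inf hcon hMS) hHM)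
  have hgi : g ∈ iso f := (hMS hgM).1
  have hTW : ∀ v ∈ W, f v v = 0 → UFull hf M v := fun v hv hvv =>
    ⟨hvv, fun c hc => hHM ⟨ut_mem_stab hf hvv c hv, ut_mem_iso hf hvv hc, ut_mem_special hf _ _⟩⟩
  have hTW' : ∀ v ∈ W', f v v = 0 → UFull hf M v := fun v hv hvv =>
    ⟨hvv, fun c hc => hHM ⟨ut_mem_stab' hf hvv c hv, ut_mem_iso hf hvv hc, ut_mem_special hf _ _⟩⟩
  -- a full vector outside `W ∪ W'`
  obtain ⟨t, htF, htW, htW'⟩ : ∃ t, UFull hf M t ∧ t ∉ W ∧ t ∉ W' := by
    by_contra hcon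
    push Not at hcon
    have hall : ∀ y ∈ W', f y y = 0 → (g : Matrix ι ι F) *ᵥ y ∈ W ∨ (g : Matrix ι ι F) *ᵥ y ∈ W' := by
      intro y hy hyy
      by_cases h : (g : Matrix ι ι F) *ᵥ y ∈ W
      · exact Or.inl h
      · exact Or.inr (hcon _ ((hTW' y hy hyy).conj hgM hgi) h)
    have hg0 : ∀ y, (g : Matrix ι ι F) *ᵥ y = 0 → y = 0 := by
      intro y hy
      have := congrArg (fun z => ((g⁻¹ : GL ι F) : Matrix ι ι F) *ᵥ z) hy
      simpa [inv_mulVec_mulVec] using this
    have clA : ∀ y1 ∈ W', ∀ y2 ∈ W', f y1 y1 = 0 → f y2 y2 = 0 → y1 ≠ 0 → y2 ≠ 0 → f y1 y2 = 0 →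
        (g : Matrix ι ι F) *ᵥ y1 ∈ W → (g : Matrix ι ι F) *ᵥ y2 ∈ W' → False := by
      intro y1 h1 y2 h2 h11 h22 h10 h20 h12 hg1 hg2
      have h3 := hall (y1 + y2) (W'.add_mem h1 h2) (by rw [hf.add_left, add_right hf, add_right hf, h11, h22, h12, swap_eq hf h12]; ring)
      rw [Matrix.mulVec_add] at h3
      rcases h3 with h3 | h3
      · exact h20 (hg0 _ (hdisj _ ((W.add_mem_iff_right hg1).mp h3) hg2))
      · exact h10 (hg0 _ (hdisj _ hg1 ((W'.add_mem_iff_left hg2).mp h3)))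
    have clB : ∀ y1 ∈ W', ∀ y2 ∈ W', f y1 y1 = 0 → f y2 y2 = 0 → y1 ≠ 0 → y2 ≠ 0 →
        (g : Matrix ι ι F) *ᵥ y1 ∈ W → (g : Matrix ι ι F) *ᵥ y2 ∈ W' → False := by
      intro y1 h1 y2 h2 h11 h22 h10 h20 hg1 hg2
      have hfr : Module.finrank F W' ≤ Module.finrank F ((W' ⊓ perp hf (Submodule.span F {y1, y2}) : Submodule F (ι → F))) + 2 := by
        have e1 := finrank_inf_perp hf (U := W') (Submodule.span F {y1, y2})
        have e2 := finrank_pair_le (F := F) y1 y2
        omega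
      have hR := rich_large hf hW'n (Y := W' ⊓ perp hf (Submodule.span F {y1, y2})) inf_le_left (by omega)
      obtain ⟨z, ⟨hzW, hzp⟩, hzz, hz0⟩ := hR ⊥ (by
        intro h
        have := Submodule.finrank_mono h
        rw [finrank_bot] at this
        omega)
      have hz0' : z ≠ 0 := fun h => hz0 (by rw [h]; exact Submodule.zero_mem _)
      have hz1 : f y1 z = 0 := hzp y1 (Submodule.subset_span (by simp))
      have hz2 : f y2 z = 0 := hzp y2 (Submodule.subset_span (by simp))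
      rcases hall z hzW hzz with h3 | h3
      · exact clA z hzW y2 h2 hzz h22 hz0' h20 (swap_eq hf hz2) h3 hg2
      · exact clA y1 h1 z hzW h11 hzz h10 hz0' hz1 hg1 h3
    have hRW : Rich f W' := rich_large hf hW'n le_rfl (by omega)
    have hfr : Module.finrank F (W'.map (le g).toLinearMap) = Module.finrank F W' := LinearEquiv.finrank_map_eq (le g) W'
    have hmapc : ∀ A : Submodule F (ι → F), (∀ e ∈ W', f e e = 0 → (g : Matrix ι ι F) *ᵥ e ∈ A) → W'.map (le g).toLinearMap ≤ A := by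
      intro A hA
      rw [Submodule.map_le_iff_le_comap]
      by_contra hcon2
      obtain ⟨e, heW, hee, heA⟩ := hRW _ hcon2
      exact heA (hA e heW hee)
    by_cases hc : ∀ e ∈ W', f e e = 0 → (g : Matrix ι ι F) *ᵥ e ∈ W
    · have h1 := Submodule.finrank_mono (hmapc W hc)
      rw [hfr] at h1
      omega
    · push Not at hc
      obtain ⟨e0, he0, he00, he0W⟩ := hc
      have he0' : e0 ≠ 0 := by
        rintro rfl
        apply he0W
        rw [Matrix.mulVec_zero]; exact W.zero_mem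
      have he0W' : (g : Matrix ι ι F) *ᵥ e0 ∈ W' := (hall e0 he0 he00).resolve_left he0W
      have h1 := hmapc W' (by
        intro e he hee
        by_cases h0 : e = 0
        · rw [h0, Matrix.mulVec_zero]; exact W'.zero_mem
        · rcases hall e he hee with h | h
          · exact absurd (clB e he e0 he0 hee he00 h0 he0' h he0W') (fun h => h)
          · exact h)
      have h2 : W'.map (le g).toLinearMap = W' := Submodule.eq_of_le_of_finrank_eq h1 hfr
      apply hg
      rw [mem_stab]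
      intro w hw
      apply le_of_perp_perp hf W
      intro y hy
      have hy2 : y ∈ W'.map (le g).toLinearMap := by rw [h2]; exact hy
      obtain ⟨z, hz, rfl⟩ := hy2
      have := (mem_iso g).mp hgi w z
      rw [hz w hw] at this
      exact this
  -- a full vector of non-isotropic type
  obtain ⟨a, ha, b, hb, haa, htF⟩ : ∃ a ∈ W, ∃ b ∈ W', f a a ≠ 0 ∧ UFull hf M (a + b) := by
    obtain ⟨a, ha, b, hb, rfl⟩ := exists_decomp hf W hW t
    have ha0 : a ≠ 0 := by
      rintro rfl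
      rw [zero_add] at htW'
      exact htW' hb
    have hb0 : b ≠ 0 := by
      rintro rfl
      rw [add_zero] at htW
      exact htW ha
    by_cases haa : f a a = 0
    · have hbb : f b b = 0 := by
        have := htF.1
        rw [hf.add_left, add_right hf, add_right hf, haa, hb a ha, swap_eq hf (hb a ha)] at this
        simpa using this
      exact full_of_zero hf hW h7 hHM ha hb ha0 hb0 haa hbb htF
    · exact ⟨a, ha, b, hb, haa, htF⟩
  refine (su_le_TG4 hf (by omega)).trans ((TG_le_iff hf ⊤ M).mpr fun x _ hxx => ?_)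
  suffices h : UFull hf M x from h.2
  obtain ⟨c, hc, d, hd, rfl⟩ := exists_decomp hf W hW x
  by_cases hcc : f c c = 0
  · have hdd : f d d = 0 := by
      rw [hf.add_left, add_right hf, add_right hf, hcc, hd c hc, swap_eq hf (hd c hc)] at hxx
      simpa using hxx
    by_cases hc0 : c = 0
    · subst hc0; rw [zero_add]; exact hTW' d hd hdd
    by_cases hd0 : d = 0
    · subst hd0; rw [add_zero]; exact hTW c hc hcc
    exact full_zero hf hW h7 hHM ha hb haa htF hc hd hc0 hd0 hcc hdd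
  · exact full_type hf hW h7 hHM ha hb haa htF hc hd hcc hxx

end CfsgLib.Un29
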