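import Cfsg.Agent.LibUnSub29

/-! Overgroups of SU(F₀) in SU(F), odd degree: rational root elements. -/

namespace CfsgLib.UnF29

open scoped MatrixGroups Matrix
open Cfsg CfsgLib.MaxTv29 CfsgLib.Subfield29 CfsgLib.Un29

section general
variable {ι : Type} [Fintype ι] [DecidableEq ι] {F : Type*} [Field F] {σ : F ≃+* F}
variable {f : (ι → F) → (ι → F) → F}

/-- decomposition of `ut (u+v) c` -/
theorem ut_sum (hf : Geo.IsUnitaryForm σ f) {u v : ι → F} (hu : f u u = 0) (hv : f v v = 0) (huv : f u v = 0) {c : F} (hc : σ c = -c)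
    {g : GL ι F} (hg : ∀ x, (g : Matrix ι ι F) *ᵥ x = x + f x u • (c • v) - f x (c • v) • u) :
    ut hf (u + v) c = g * ut hf u c * ut hf v c := by
  have hvu := swap_eq hf huv
  have huv' : f (u + v) (u + v) = 0 := by rw [hf.add_left, add_right hf, add_right hf, hu, hv, huv, hvu]; ring
  apply gl_ext
  intro x
  rw [Units.val_mul, Units.val_mul, ← Matrix.mulVec_mulVec, ← Matrix.mulVec_mulVec, hg, ut_mulVec hf hv, ut_mulVec hf hu, ut_mulVec hf huv']
  simp only [hf.add_left, add_right hf, hf.smul_left, smul_right hf, hu, hv, huv, hvu, hc]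
  module

theorem ut_sum_mem (hf : Geo.IsUnitaryForm σ f) {M : Subgroup (GL ι F)} {u v : ι → F} (hu : f u u = 0) (hv : f v v = 0) (huv : f u v = 0) {c : F} (hc : σ c = -c)
    (hs : SR f M u (c • v)) (h1 : ut hf u c ∈ M) (h2 : ut hf v c ∈ M) : ut hf (u + v) c ∈ M := by
  obtain ⟨g, hg, hgx⟩ := hs
  rw [ut_sum hf hu hv huv hc hgx]
  exact M.mul_mem (M.mul_mem hg h1) h2

theorem ut_right_mem (hf : Geo.IsUnitaryForm σ f) {M : Subgroup (GL ι F)} {u v : ι → F} (hu : f u u = 0) (hv : f v v = 0) (huv : f u v = 0) {c : F} (hc : σ c = -c)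
    (hs : SR f M u (c • v)) (h1 : ut hf u c ∈ M) (h2 : ut hf (u + v) c ∈ M) : ut hf v c ∈ M := by
  obtain ⟨g, hg, hgx⟩ := hs
  rw [ut_sum hf hu hv huv hc hgx] at h2
  have := M.mul_mem (M.inv_mem (M.mul_mem hg h1)) h2
  rwa [inv_mul_cancel_left] at this

end general

variable {ι : Type} [Fintype ι] [DecidableEq ι] {F : Type*} [Field F] {σ : F ≃+* F}
variable {f : (ι → F) → (ι → F) → F} (F₀ : Subfield F) {σ₀ : F₀ ≃+* F₀} {f₀ : (ι → F₀) → (ι → F₀) → F₀}

/-- rational short root elements in `M` -/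
def R (f : (ι → F) → (ι → F) → F) (M : Subgroup (GL ι F)) (a b : ι → F₀) (c : F) : Prop :=
  SR f M (emb F₀ a) (c • emb F₀ b)

section rs
variable (hf : Geo.IsUnitaryForm σ f) (hf₀ : Geo.IsUnitaryForm σ₀ f₀) (hc : ∀ x y, f (emb F₀ x) (emb F₀ y) = (f₀ x y : F)) (hσ : ∀ l : F₀, σ l = (σ₀ l : F))
  {M : Subgroup (GL ι F)} (hM : ∀ (a : ι → F₀) (l : F₀), f₀ a a = 0 → σ₀ l = -l → ut hf (emb F₀ a) (l : F) ∈ M)

include hc in
omit [DecidableEq ι] [Fintype ι] in
theorem comp0 {x y : ι → F₀} (h : f₀ x y = 0) : f (emb F₀ x) (emb F₀ y) = 0 := by rw [hc, h]; rfl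

include hc in
omit [DecidableEq ι] [Fintype ι] in
theorem comp1 {x y : ι → F₀} (h : f₀ x y = 1) : f (emb F₀ x) (emb F₀ y) = 1 := by rw [hc, h]; rfl

include hf hf₀ hc hσ hM in
theorem R.of_rat {a b : ι → F₀} (ha : f₀ a a = 0) (hb : f₀ b b = 0) (h0 : f₀ a b = 0) (l : F₀) : R F₀ f M a b (l : F) := by
  obtain ⟨δ, hδ0, hδ⟩ := exists_skew hf₀
  have hbb : f₀ ((δ⁻¹ * l) • b) ((δ⁻¹ * l) • b) = 0 := by rw [hf₀.smul_left, smul_right hf₀, hb]; ring
  have hab : f₀ a ((δ⁻¹ * l) • b) = 0 := by rw [smul_right hf₀, h0, mul_zero]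
  have h1 := hM (a + (δ⁻¹ * l) • b) δ (by rw [hf₀.add_left, add_right hf₀, add_right hf₀, ha, hbb, hab, swap_eq hf₀ hab]; ring) hδ
  have h2 := hM a δ ha hδ
  have h3 := hM ((δ⁻¹ * l) • b) δ hbb hδ
  rw [emb_add] at h1
  have hδ' : σ (δ : F) = -(δ : F) := by rw [hσ, hδ]; push_cast; rfl
  have h4 := SR.of_ut hf (comp0 F₀ hc ha) (comp0 F₀ hc hbb) (comp0 F₀ hc hab) hδ' h1 h2 h3
  refine h4.congr rfl ?_
  rw [emb_smul, smul_smul]
  congr 1
  have : (δ : F) ≠ 0 := fun h => hδ0 (Subtype.ext h)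
  push_cast
  field_simp

include hf hf₀ hc in
theorem R.comm {a b : ι → F₀} (ha : f₀ a a = 0) (hb : f₀ b b = 0) (h0 : f₀ a b = 0) {c : F} (h : R F₀ f M a b c) : R F₀ f M b a (σ c) := by
  have e0 := comp0 F₀ hc h0
  have ea := comp0 F₀ hc ha
  have eb := comp0 F₀ hc hb
  exact (SR.symm hf h ea (by rw [hf.smul_left, smul_right hf, eb]; ring) (by rw [smul_right hf, e0, mul_zero])).smul_swap hf

include hf hf₀ hc hσ hM in
theorem R.step [Finite F] (hn : 7 ≤ Fintype.card ι) {a b e : ι → F₀} (ha : f₀ a a = 0) (hbb : f₀ b b = 0) (he : f₀ e e = 0) (h0 : f₀ a b = 0) {c : F} (h : R F₀ f M a b c)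
    (hae : f₀ a e = 0) (hbe : f₀ b e = 0) (hb : b ∉ Submodule.span F₀ {a, e}) : R F₀ f M a e c := by
  have hr : Rich f₀ (perp hf₀ (Submodule.span F₀ {a, e})) := rich_perp hf₀ _ (by have := CfsgLib.Un29.finrank_pair_le (F := F₀) a e; omega)
  obtain ⟨d0, hdP, hd, hdw⟩ := hr (perp hf₀ (Submodule.span F₀ {b})) (perp_not_le hf₀ _ hb)
  have hbd0 := notMem_perp_singleton hf₀ hdw
  have hs0 : σ₀ (f₀ b d0) ≠ 0 := fun h => hbd0 ((map_eq_zero σ₀).mp h)
  set d := (σ₀ (f₀ b d0))⁻¹ • d0 with hdd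
  have hdd0 : f₀ d d = 0 := by rw [hdd, hf₀.smul_left, smul_right hf₀, hd]; ring
  have hda : f₀ a d = 0 := by rw [hdd, smul_right hf₀, hdP a (Submodule.subset_span (by simp)), mul_zero]
  have hde : f₀ e d = 0 := by rw [hdd, smul_right hf₀, hdP e (Submodule.subset_span (by simp)), mul_zero]
  have hbd : f₀ b d = 1 := by rw [hdd, smul_right hf₀, map_inv₀, hf₀.involutive, inv_mul_cancel₀ hbd0]
  obtain ⟨g, hg, hgx⟩ := R.of_rat F₀ hf hf₀ hc hσ hM hdd0 he (swap_eq hf₀ hde) 1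
  rw [OneMemClass.coe_one, one_smul] at hgx
  have hgi : g ∈ iso f := sr_mem_iso hf (comp0 F₀ hc hdd0) (comp0 F₀ hc he) (comp0 F₀ hc (swap_eq hf₀ hde)) hgx
  have h1 := SR.conj hf h hg hgi
  rw [Matrix.mulVec_smul, hgx, hgx, comp0 F₀ hc hda, comp0 F₀ hc hae, comp1 F₀ hc hbd, comp0 F₀ hc hbe] at h1
  simp only [one_smul, zero_smul, add_zero, sub_zero, smul_add] at h1
  exact SR.sub hf h1 h (comp0 F₀ hc ha) (by rw [hf.smul_left, smul_right hf, comp0 F₀ hc hbb]; ring)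
    (by rw [smul_right hf, comp0 F₀ hc h0, mul_zero]) (by rw [smul_right hf, comp0 F₀ hc hae, mul_zero])
    (by rw [hf.smul_left, smul_right hf, comp0 F₀ hc hbe]; ring)

omit [DecidableEq ι] in
theorem quad_span_le [DecidableEq ι] (a b c d : ι → F₀) : Module.finrank F₀ (Submodule.span F₀ {a, b, c, d}) ≤ 4 := by
  classical
  have h1 := finrank_span_finset_le_card (R := F₀) ({a, b, c, d} : Finset (ι → F₀))
  have h2 : ((({a, b, c, d} : Finset (ι → F₀)) : Set (ι → F₀))) = {a, b, c, d} := by simp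
  rw [h2] at h1
  exact h1.trans Finset.card_le_four

include hf hf₀ hc hσ hM in
theorem R.all [Finite F] (hn : 11 ≤ Fintype.card ι) {a b : ι → F₀} (haa : f₀ a a = 0) (hbb : f₀ b b = 0) (h0 : f₀ a b = 0) {c : F} (h : R F₀ f M a b c)
    (hab : b ∉ Submodule.span F₀ {a}) (ha : a ≠ 0) {a' b' : ι → F₀} (haa' : f₀ a' a' = 0) (hbb' : f₀ b' b' = 0) (h0' : f₀ a' b' = 0) : R F₀ f M a' b' c := by
  obtain ⟨e, he, hee, he1, he2⟩ := Rich.avoid hf₀ (rich_perp hf₀ (Submodule.span F₀ {a, b, a', b'}) (by have := quad_span_le F₀ a b a' b'; omega))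
    (A := Submodule.span F₀ {a, b}) (B := Submodule.span F₀ {a', b'})
    (perp_not_le_of_finrank hf₀ _ _ (by have := quad_span_le F₀ a b a' b'; have := CfsgLib.Un29.finrank_pair_le (F := F₀) a b; omega))
    (perp_not_le_of_finrank hf₀ _ _ (by have := quad_span_le F₀ a b a' b'; have := CfsgLib.Un29.finrank_pair_le (F := F₀) a' b'; omega))
  obtain ⟨e', he', hee', he1', he2'⟩ := Rich.avoid hf₀ (rich_perp hf₀ (Submodule.span F₀ {a, a', b', e}) (by have := quad_span_le F₀ a a' b' e; omega))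
    (A := Submodule.span F₀ {e, a}) (B := Submodule.span F₀ {e, a'})
    (perp_not_le_of_finrank hf₀ _ _ (by have := quad_span_le F₀ a a' b' e; have := CfsgLib.Un29.finrank_pair_le (F := F₀) e a; omega))
    (perp_not_le_of_finrank hf₀ _ _ (by have := quad_span_le F₀ a a' b' e; have := CfsgLib.Un29.finrank_pair_le (F := F₀) e a'; omega))
  have e1 : f₀ a e = 0 := he a (Submodule.subset_span (by simp))
  have e2 : f₀ b e = 0 := he b (Submodule.subset_span (by simp))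
  have e3 : f₀ a' e = 0 := he a' (Submodule.subset_span (by simp))
  have e4 : f₀ b' e = 0 := he b' (Submodule.subset_span (by simp))
  have e5 : f₀ a e' = 0 := he' a (Submodule.subset_span (by simp))
  have e6 : f₀ a' e' = 0 := he' a' (Submodule.subset_span (by simp))
  have e8 : f₀ e e' = 0 := he' e (Submodule.subset_span (by simp))
  have hn7 : 7 ≤ Fintype.card ι := by omega
  have s1 : R F₀ f M a e c := R.step F₀ hf hf₀ hc hσ hM hn7 haa hbb hee h0 h e1 e2 (CfsgLib.SpSub29.notMem_pair hab he1)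
  have s2 : R F₀ f M e a (σ c) := R.comm F₀ hf hf₀ hc haa hee e1 s1
  have s3 : R F₀ f M e e' (σ c) := by
    refine R.step F₀ hf hf₀ hc hσ hM hn7 hee haa hee' (swap_eq hf₀ e1) s2 e8 e5 (CfsgLib.SpSub29.notMem_pair ?_ he1')
    intro hcon
    obtain ⟨k, hk⟩ := Submodule.mem_span_singleton.mp hcon
    have hk0 : k ≠ 0 := by rintro rfl; rw [zero_smul] at hk; exact ha hk.symm
    apply he1
    rw [Submodule.mem_span_pair]
    exact ⟨k⁻¹, 0, by rw [← hk, smul_smul, inv_mul_cancel₀ hk0]; simp⟩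
  have s4 : R F₀ f M e a' (σ c) :=
    R.step F₀ hf hf₀ hc hσ hM hn7 hee hee' haa' e8 s3 (swap_eq hf₀ e3) (swap_eq hf₀ e6) he2'
  have s5 : R F₀ f M a' e c := by
    have := R.comm F₀ hf hf₀ hc hee haa' (swap_eq hf₀ e3) s4
    rwa [hf.involutive] at this
  exact R.step F₀ hf hf₀ hc hσ hM hn7 haa' hee hbb' e3 s5 h0' (swap_eq hf₀ e4) he2

include hf hf₀ hc in
theorem R.add {a b : ι → F₀} (haa : f₀ a a = 0) (hbb : f₀ b b = 0) (h0 : f₀ a b = 0) {c d : F} (h : R F₀ f M a b c) (h' : R F₀ f M a b d) : R F₀ f M a b (c + d) := by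
  have e0 := comp0 F₀ hc h0
  have h1 := SR.add hf h h' (comp0 F₀ hc haa) (by rw [smul_right hf, e0, mul_zero]) (by rw [smul_right hf, e0, mul_zero])
    (by rw [hf.smul_left, smul_right hf, comp0 F₀ hc hbb]; ring)
  exact h1.congr rfl (add_smul _ _ _).symm

include hf hf₀ hc in
theorem R.mul {a b a' b' : ι → F₀} (haa : f₀ a a = 0) (hbb : f₀ b b = 0) (haa' : f₀ a' a' = 0) (hbb' : f₀ b' b' = 0) (h0 : f₀ a b = 0) (h0' : f₀ a' b' = 0)
    (h1 : f₀ b a' = 1) (h2 : f₀ a a' = 0) (h3 : f₀ a b' = 0) (h4 : f₀ b b' = 0) {c d : F} (h : R F₀ f M a b c) (h' : R F₀ f M a' b' d) : R F₀ f M a b' (c * d) := by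
  obtain ⟨g, hg, hgx⟩ := h'
  have hgi : g ∈ iso f := sr_mem_iso hf (comp0 F₀ hc haa') (by rw [hf.smul_left, smul_right hf, comp0 F₀ hc hbb']; ring)
    (by rw [smul_right hf, comp0 F₀ hc h0', mul_zero]) hgx
  have h5 := SR.conj hf h hg hgi
  rw [Matrix.mulVec_smul, hgx, hgx, smul_right hf, smul_right hf, comp0 F₀ hc h2, comp0 F₀ hc h3, comp0 F₀ hc h4, comp1 F₀ hc h1] at h5
  simp only [mul_zero, zero_smul, add_zero, sub_zero, one_smul, smul_add] at h5
  have h6 := SR.sub hf h5 h (comp0 F₀ hc haa) (by rw [hf.smul_left, smul_right hf, comp0 F₀ hc hbb]; ring)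
    (by rw [smul_right hf, comp0 F₀ hc h0, mul_zero]) (by rw [smul_right hf, smul_right hf, comp0 F₀ hc h3]; ring)
    (by rw [hf.smul_left, smul_right hf, smul_right hf, comp0 F₀ hc h4]; ring)
  exact h6.congr rfl (smul_smul _ _ _)

include hf₀ in
/-- rational isotropic vectors -/
theorem exists_rat_iso [Finite F] (L : List (ι → F₀)) (A : Submodule F₀ (ι → F₀)) (hA : Module.finrank F₀ A ≤ 3) (hL : 2 * L.length + 3 < Fintype.card ι) :
    ∃ e, f₀ e e = 0 ∧ (∀ l ∈ L, f₀ l e = 0) ∧ e ∉ A := by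
  have h1 : Module.finrank F₀ (Submodule.span F₀ {x | x ∈ L}) ≤ L.length := CfsgLib.SympTv29.finrank_span_list_le L
  obtain ⟨e, he, hee, heA⟩ := rich_perp hf₀ (Submodule.span F₀ {x | x ∈ L}) (by omega) A (perp_not_le_of_finrank hf₀ _ _ (by omega))
  exact ⟨e, hee, fun l hl => he l (Submodule.subset_span hl), heA⟩

include hf₀ in
/-- rational isotropic dual vectors -/
theorem exists_rat_dual [Finite F] (L : List (ι → F₀)) (b : ι → F₀) (hb : b ∉ Submodule.span F₀ {x | x ∈ L}) (hL : 2 * L.length + 2 < Fintype.card ι) :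
    ∃ e, f₀ e e = 0 ∧ (∀ l ∈ L, f₀ l e = 0) ∧ f₀ b e = 1 := by
  have h1 : Module.finrank F₀ (Submodule.span F₀ {x | x ∈ L}) ≤ L.length := CfsgLib.SympTv29.finrank_span_list_le L
  obtain ⟨d0, hdP, hd, hdw⟩ := rich_perp hf₀ (Submodule.span F₀ {x | x ∈ L}) (by omega) (perp hf₀ (Submodule.span F₀ {b})) (perp_not_le hf₀ _ hb)
  have hbd0 := notMem_perp_singleton hf₀ hdw
  refine ⟨(σ₀ (f₀ b d0))⁻¹ • d0, ?_, fun l hl => ?_, ?_⟩
  · rw [hf₀.smul_left, smul_right hf₀, hd]; ring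
  · rw [smul_right hf₀, hdP l (Submodule.subset_span hl), mul_zero]
  · rw [smul_right hf₀, map_inv₀, hf₀.involutive, inv_mul_cancel₀ hbd0]

end rs

/-- coefficient algebra for short root elements -/
def coefU [Finite F] (hf : Geo.IsUnitaryForm σ f) (hf₀ : Geo.IsUnitaryForm σ₀ f₀) (hc : ∀ x y, f (emb F₀ x) (emb F₀ y) = (f₀ x y : F))
    (hσ : ∀ l : F₀, σ l = (σ₀ l : F)) (M : Subgroup (GL ι F)) (hM : ∀ (a : ι → F₀) (l : F₀), f₀ a a = 0 → σ₀ l = -l → ut hf (emb F₀ a) (l : F) ∈ M)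
    (hn : 11 ≤ Fintype.card ι) : Subalgebra F₀ F where
  carrier := {c | ∀ a b, f₀ a a = 0 → f₀ b b = 0 → f₀ a b = 0 → R F₀ f M a b c}
  mul_mem' := by
    intro c d hcm hdm
    obtain ⟨a, haa, _, ha⟩ := exists_rat_iso F₀ hf₀ [] ⊥ (by simp) (by simp; omega)
    have ha0 : a ≠ 0 := fun h => ha (by rw [h]; exact Submodule.zero_mem _)
    obtain ⟨b, hbb, hb, hb1⟩ := exists_rat_iso F₀ hf₀ [a] (Submodule.span F₀ {a}) ((finrank_span_singleton ha0).le.trans (by omega)) (by simp; omega)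
    obtain ⟨b', hbb', hb', hb1'⟩ := exists_rat_iso F₀ hf₀ [a, b] (Submodule.span F₀ {a, b}) ((CfsgLib.Un29.finrank_pair_le _ _).trans (by omega)) (by simp; omega)
    obtain ⟨a', haa', ha1', ha2'⟩ := exists_rat_dual F₀ hf₀ [a, b'] b (by
      rw [CfsgLib.SpSub29.span_list_pair]; exact CfsgLib.SpSub29.notMem_pair hb1 hb1') (by simp; omega)
    have e1 := hb a (by simp)
    have e2 := hb' a (by simp)
    have e3 := hb' b (by simp)
    have e4 := ha1' a (by simp)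
    have e5 := ha1' b' (by simp)
    have h1 := R.mul F₀ hf hf₀ hc haa hbb haa' hbb' e1 (swap_eq hf₀ e5) ha2' e4 e2 e3 (hcm a b haa hbb e1) (hdm a' b' haa' hbb' (swap_eq hf₀ e5))
    intro x y hxx hyy hxy
    exact R.all F₀ hf hf₀ hc hσ hM hn haa hbb' e2 h1 (by
      intro hcon
      apply hb1'
      obtain ⟨k, hk⟩ := Submodule.mem_span_singleton.mp hcon
      exact Submodule.mem_span_pair.mpr ⟨k, 0, by rw [zero_smul, add_zero]; exact hk⟩) ha0 hxx hyy hxy
  add_mem' := by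
    intro c d hcm hdm a b haa hbb h
    exact R.add F₀ hf hf₀ hc haa hbb h (hcm a b haa hbb h) (hdm a b haa hbb h)
  algebraMap_mem' := by
    intro k a b haa hbb h
    exact R.of_rat F₀ hf hf₀ hc hσ hM haa hbb h k

end CfsgLib.UnF29
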