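import Cfsg.Agent.LibUnF29
import Cfsg.Agent.LibOS29d
import Cfsg.Agent.LibUn29f

/-! Overgroups of SU(F₀) in SU(F), odd degree: consequences of the coefficient algebra. -/

namespace CfsgLib.UnF29

open scoped MatrixGroups Matrix
open Cfsg CfsgLib.MaxTv29 CfsgLib.Subfield29 CfsgLib.Un29

section general
variable {ι : Type} [Fintype ι] [DecidableEq ι] {F : Type*} [Field F] {σ : F ≃+* F}
variable {f : (ι → F) → (ι → F) → F}

/-- Eichler transformations in `M` -/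
def EI (f : (ι → F) → (ι → F) → F) (M : Subgroup (GL ι F)) (a w : ι → F) (μ : F) : Prop :=
  ∃ g ∈ M, ∀ x, (g : Matrix ι ι F) *ᵥ x = x + f x a • w - f x w • a - (μ * f x a) • a

theorem EI.congr {M : Subgroup (GL ι F)} {a w a' w' : ι → F} {μ μ' : F} (h : EI f M a w μ) (ha : a = a') (hw : w = w') (hμ : μ = μ') : EI f M a' w' μ' := ha ▸ hw ▸ hμ ▸ h

theorem EI.of_SR {M : Subgroup (GL ι F)} {a w : ι → F} (h : SR f M a w) : EI f M a w 0 := by
  obtain ⟨g, hg, hgx⟩ := h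
  exact ⟨g, hg, fun x => by rw [hgx]; simp⟩

theorem EI.to_SR {M : Subgroup (GL ι F)} {a w : ι → F} (h : EI f M a w 0) : SR f M a w := by
  obtain ⟨g, hg, hgx⟩ := h
  exact ⟨g, hg, fun x => by rw [hgx]; simp⟩

theorem EI.add (hf : Geo.IsUnitaryForm σ f) {M : Subgroup (GL ι F)} {a v w : ι → F} {μ ν : F} (h : EI f M a v μ) (h' : EI f M a w ν) (ha : f a a = 0)
    (hav : f a v = 0) (haw : f a w = 0) : EI f M a (v + w) (μ + ν + f w v) := by
  obtain ⟨g, hg, hgx⟩ := h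
  obtain ⟨g', hg', hgx'⟩ := h'
  refine ⟨g * g', M.mul_mem hg hg', fun x => ?_⟩
  rw [Units.val_mul, ← Matrix.mulVec_mulVec, hgx, hgx']
  simp only [hf.add_left, add_right hf, sub_left hf, hf.smul_left, ha, hav, swap_eq hf haw]
  module

theorem EI.neg (hf : Geo.IsUnitaryForm σ f) {M : Subgroup (GL ι F)} {a v : ι → F} {μ : F} (h : EI f M a v μ) (ha : f a a = 0)
    (hav : f a v = 0) : EI f M a (-v) (f v v - μ) := by
  obtain ⟨g, hg, hgx⟩ := h
  refine ⟨g⁻¹, M.inv_mem hg, fun x => ?_⟩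
  apply mulVec_injective g
  simp only
  rw [mulVec_inv_mulVec, hgx]
  simp only [hf.add_left, sub_left hf, hf.smul_left, neg_left hf, neg_right hf, ha, hav, swap_eq hf hav]
  module

theorem EI.sub (hf : Geo.IsUnitaryForm σ f) {M : Subgroup (GL ι F)} {a v w : ι → F} {μ ν : F} (h : EI f M a (v + w) μ) (h' : EI f M a v ν) (ha : f a a = 0)
    (hav : f a v = 0) (haw : f a w = 0) : EI f M a w (μ - ν - f w v) := by
  have h1 := EI.add hf (h'.neg hf ha hav) h ha (by rw [neg_right hf, hav, neg_zero]) (by rw [add_right hf, hav, haw, add_zero])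
  refine h1.congr rfl (by abel) ?_
  rw [neg_right hf, hf.add_left]; ring

theorem EI.conj (hf : Geo.IsUnitaryForm σ f) {M : Subgroup (GL ι F)} {a v : ι → F} {μ : F} (h : EI f M a v μ) {k : GL ι F} (hk : k ∈ M) (hki : k ∈ iso f) :
    EI f M ((k : Matrix ι ι F) *ᵥ a) ((k : Matrix ι ι F) *ᵥ v) μ := by
  obtain ⟨g, hg, hgx⟩ := h
  refine ⟨k * g * k⁻¹, M.mul_mem (M.mul_mem hk hg) (M.inv_mem hk), fun x => ?_⟩
  have e1 : ∀ y, f (((k⁻¹ : GL ι F) : Matrix ι ι F) *ᵥ x) y = f x ((k : Matrix ι ι F) *ᵥ y) := by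
    intro y
    rw [← (mem_iso k).mp hki, mulVec_inv_mulVec]
  rw [Units.val_mul, Units.val_mul, ← Matrix.mulVec_mulVec, ← Matrix.mulVec_mulVec, hgx, Matrix.mulVec_sub, Matrix.mulVec_sub, Matrix.mulVec_add, Matrix.mulVec_smul,
    Matrix.mulVec_smul, Matrix.mulVec_smul, mulVec_inv_mulVec, e1, e1]

theorem exists_iso_in [Finite F] (hf : Geo.IsUnitaryForm σ f) (X : Submodule F (ι → F)) (hX : 2 ≤ Module.finrank F X) : ∃ x ∈ X, x ≠ 0 ∧ f x x = 0 := by
  obtain ⟨w, hwX, hw0⟩ : ∃ w ∈ X, w ≠ 0 := by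
    apply Submodule.exists_mem_ne_zero_of_ne_bot
    rintro rfl
    rw [finrank_bot] at hX; omega
  by_cases hw : f w w = 0
  · exact ⟨w, hwX, hw0, hw⟩
  obtain ⟨z, hzX, hz⟩ : ∃ z ∈ X, z ∉ Submodule.span F {w} := by
    by_contra hcon
    push Not at hcon
    have := Submodule.finrank_mono (show X ≤ Submodule.span F {w} from hcon)
    rw [finrank_span_singleton hw0] at this
    omega
  obtain ⟨μ, hμ⟩ := exists_norm_on_line hf z w hw 0 (map_zero σ)
  refine ⟨z + μ • w, X.add_mem hzX (X.smul_mem _ hwX), ?_, hμ⟩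
  intro h
  apply hz
  rw [Submodule.mem_span_singleton]
  exact ⟨-μ, by rw [neg_smul]; exact (eq_neg_of_add_eq_zero_left h).symm⟩

end general

variable {ι : Type} [Fintype ι] [DecidableEq ι] {F : Type*} [Field F] {σ : F ≃+* F}
variable {f : (ι → F) → (ι → F) → F} {F₀ : Subfield F} {σ₀ : F₀ ≃+* F₀} {f₀ : (ι → F₀) → (ι → F₀) → F₀}

/-- rational structure and overgroup -/
structure Ud (hf : Geo.IsUnitaryForm σ f) (hf₀ : Geo.IsUnitaryForm σ₀ f₀) (M : Subgroup (GL ι F)) : Prop where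
  hc : ∀ x y, f (emb F₀ x) (emb F₀ y) = (f₀ x y : F)
  hσ : ∀ l : F₀, σ l = (σ₀ l : F)
  hM : ∀ (a : ι → F₀) (l : F₀), f₀ a a = 0 → σ₀ l = -l → ut hf (emb F₀ a) (l : F) ∈ M
  hMi : M ≤ iso f
  h13 : 13 ≤ Fintype.card ι

namespace Ud

variable {hf : Geo.IsUnitaryForm σ f} {hf₀ : Geo.IsUnitaryForm σ₀ f₀} {M : Subgroup (GL ι F)} (D : Ud hf hf₀ M)
include D

theorem c0 {x y : ι → F₀} (h : f₀ x y = 0) : f (emb F₀ x) (emb F₀ y) = 0 := comp0 F₀ D.hc h

theorem c0' {x y : ι → F₀} (h : f₀ x y = 0) : f (emb F₀ y) (emb F₀ x) = 0 := swap_eq hf (D.c0 h)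

theorem c1 {x y : ι → F₀} (h : f₀ x y = 1) : f (emb F₀ x) (emb F₀ y) = 1 := comp1 F₀ D.hc h

theorem c1' {x y : ι → F₀} (h : f₀ x y = 1) : f (emb F₀ y) (emb F₀ x) = 1 := by rw [hf.herm, D.c1 h, map_one]

theorem n11 : 11 ≤ Fintype.card ι := by have := D.h13; omega

theorem rat_sr {a b : ι → F₀} (ha : f₀ a a = 0) (hb : f₀ b b = 0) (h0 : f₀ a b = 0) : SR f M (emb F₀ a) (emb F₀ b) :=
  (R.of_rat F₀ hf hf₀ D.hc D.hσ D.hM ha hb h0 1).congr rfl (by push_cast; rw [one_smul])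

/-- moving with a rational short root element -/
theorem rat_move {a b : ι → F₀} (ha : f₀ a a = 0) (hb : f₀ b b = 0) (h0 : f₀ a b = 0) :
    ∃ g ∈ M, g ∈ iso f ∧ ∀ x, (g : Matrix ι ι F) *ᵥ x = x + f x (emb F₀ a) • emb F₀ b - f x (emb F₀ b) • emb F₀ a := by
  obtain ⟨g, hg, hgx⟩ := D.rat_sr ha hb h0
  exact ⟨g, hg, D.hMi hg, hgx⟩

theorem zero_of_rat {v : ι → F} (h : ∀ x : ι → F₀, f (emb F₀ x) v = 0) : v = 0 := by
  by_contra hv
  obtain ⟨⟨y, hy⟩, _⟩ := hf.nondegenerate v hv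
  apply hy
  have h1 : fd hf v y = 0 := by
    rw [CfsgLib.OS29.rational_span (F₀ := F₀) y, map_sum]
    apply Finset.sum_eq_zero
    intro i _
    rw [map_smul, fd_apply, h, smul_zero]
  exact h1

theorem exists_one {b : ι → F₀} (hb : b ≠ 0) : ∃ e, f₀ e b = 1 := by
  obtain ⟨⟨y, hy⟩, _⟩ := hf₀.nondegenerate b hb
  exact ⟨(f₀ y b)⁻¹ • y, by rw [hf₀.smul_left, inv_mul_cancel₀ hy]⟩

theorem prop_of_perp {b : ι → F₀} (hb : b ≠ 0) {z : ι → F} (h : ∀ c : ι → F₀, f₀ c b = 0 → f (emb F₀ c) z = 0) : ∃ k : F, z = k • emb F₀ b := by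
  obtain ⟨e, he⟩ := D.exists_one hb
  refine ⟨σ (f (emb F₀ e) z), ?_⟩
  rw [← sub_eq_zero]
  apply D.zero_of_rat
  intro x
  have h1 := h (x - f₀ x b • e) (by rw [sub_left hf₀, hf₀.smul_left, he, mul_one, sub_self])
  have h2 : emb F₀ (x - f₀ x b • e) = emb F₀ x - (f₀ x b : F) • emb F₀ e := rfl
  rw [h2, sub_left hf, hf.smul_left] at h1
  rw [sub_right hf, smul_right hf, D.hc, hf.involutive]
  linear_combination h1

theorem span_perp (a : ι → F₀) (A : Submodule F (ι → F)) (hA : ∀ y, f₀ y a = 0 → emb F₀ y ∈ A) {x : ι → F} (hx : f x (emb F₀ a) = 0) : x ∈ A := by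
  by_cases ha : a = 0
  · rw [CfsgLib.OS29.rational_span (F₀ := F₀) x]
    exact A.sum_mem fun i _ => A.smul_mem _ (hA _ (by rw [ha, zero_right hf₀]))
  obtain ⟨z, hz⟩ := D.exists_one ha
  have h1 : ∑ i, x i * (f₀ (Pi.single i 1) a : F) = 0 := by
    rw [← hx]
    conv_rhs => rw [CfsgLib.OS29.rational_span (F₀ := F₀) x]
    rw [← fd_apply hf, map_sum]
    refine Finset.sum_congr rfl fun i _ => ?_
    rw [map_smul, fd_apply, D.hc, smul_eq_mul]
  have h2 : x = ∑ i, x i • emb F₀ (Pi.single i 1 - f₀ (Pi.single i 1) a • z) := by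
    have h3 : ∀ i, x i • emb F₀ (Pi.single i 1 - f₀ (Pi.single i 1) a • z) = x i • emb F₀ (Pi.single i 1) - (x i * (f₀ (Pi.single i 1) a : F)) • emb F₀ z := by
      intro i
      have h2 : emb F₀ (Pi.single i 1 - f₀ (Pi.single i 1) a • z) = emb F₀ (Pi.single i 1) - (f₀ (Pi.single i 1) a : F) • emb F₀ z := rfl
      rw [h2, smul_sub, smul_smul]
    simp only [h3]
    rw [Finset.sum_sub_distrib, ← Finset.sum_smul, h1, zero_smul, sub_zero]
    exact CfsgLib.OS29.rational_span x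
  rw [h2]
  exact A.sum_mem fun i _ => A.smul_mem _ (hA _ (by
    rw [sub_left hf₀, hf₀.smul_left, hz, mul_one, sub_self]))

/-- spanning by isotropic vectors -/
theorem rich1 [Finite F] (a : ι → F₀) (A : Submodule F₀ (ι → F₀)) (hA : ∀ x, f₀ a x = 0 → f₀ x x = 0 → x ∈ A) : ∀ x, f₀ a x = 0 → x ∈ A := by
  have h13 := D.h13
  have h1 : Module.finrank F₀ (Submodule.span F₀ ({a} : Set (ι → F₀))) ≤ 1 := by
    by_cases ha : a = 0
    · rw [ha, Submodule.span_zero_singleton, finrank_bot]; omega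
    · rw [finrank_span_singleton ha]
  have hr := rich_perp hf₀ (Submodule.span F₀ {a}) (by omega)
  by_contra hcon
  push Not at hcon
  obtain ⟨x, hx, hxA⟩ := hcon
  have hmem : ∀ y, y ∈ perp hf₀ (Submodule.span F₀ {a}) ↔ f₀ a y = 0 := by
    intro y
    rw [mem_perp_span]
    simp
  obtain ⟨e, he, hee, heA⟩ := hr A (fun h => hxA (h ((hmem x).mpr hx)))
  exact heA (hA e ((hmem e).mp he) hee)

theorem rich0 [Finite F] (A : Submodule F₀ (ι → F₀)) (hA : ∀ x, f₀ x x = 0 → x ∈ A) (x : ι → F₀) : x ∈ A :=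
  D.rich1 0 A (fun x _ hx => hA x hx) x (zero_left hf₀ x)

end Ud

/-- the case of rational coefficients -/
structure Ug (hf : Geo.IsUnitaryForm σ f) (hf₀ : Geo.IsUnitaryForm σ₀ f₀) (M : Subgroup (GL ι F)) : Prop extends Ud hf hf₀ M where
  hC : ∀ c, (∀ a b, f₀ a a = 0 → f₀ b b = 0 → f₀ a b = 0 → R F₀ f M a b c) → c ∈ F₀

namespace Ug

variable {hf : Geo.IsUnitaryForm σ f} {hf₀ : Geo.IsUnitaryForm σ₀ f₀} {M : Subgroup (GL ι F)} (D : Ug hf hf₀ M)
include D

theorem mem_of_R [Finite F] {a b : ι → F₀} (ha : f₀ a a = 0) (hb : f₀ b b = 0) (h0 : f₀ a b = 0) (ha0 : a ≠ 0) (hab : b ∉ Submodule.span F₀ {a}) {c : F} (h : R F₀ f M a b c) :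
    c ∈ F₀ := D.hC c fun _ _ ha' hb' h' => R.all F₀ hf hf₀ D.hc D.hσ D.hM D.n11 ha hb h0 h hab ha0 ha' hb' h'

theorem P1 [Finite F] {b : ι → F₀} (hb : f₀ b b = 0) (hb0 : b ≠ 0) {w : ι → F} (hbw : f (emb F₀ b) w = 0) {μ : F} (h : EI f M (emb F₀ b) w μ) {c : ι → F₀} (hbc : f₀ b c = 0) :
    f w (emb F₀ c) ∈ F₀ := by
  have h13 := D.h13
  let A₀ : Submodule F₀ (ι → F₀) :=
    { carrier := {y | f w (emb F₀ y) ∈ F₀}
      add_mem' := fun {x y} hx hy => by
        change f w (emb F₀ (x + y)) ∈ F₀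
        rw [emb_add, add_right hf]; exact F₀.add_mem hx hy
      zero_mem' := by
        change f w (emb F₀ 0) ∈ F₀
        rw [emb_zero, zero_right hf]; exact F₀.zero_mem
      smul_mem' := fun k x hx => by
        change f w (emb F₀ (k • x)) ∈ F₀
        rw [emb_smul, smul_right hf, D.hσ]; exact F₀.mul_mem (σ₀ k).2 hx }
  have : c ∈ A₀ := by
    refine D.rich1 b A₀ ?_ c hbc
    clear hbc c
    intro c hbc hc
    change f w (emb F₀ c) ∈ F₀
    by_cases hcb : c ∈ Submodule.span F₀ {b}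
    · obtain ⟨k, rfl⟩ := Submodule.mem_span_singleton.mp hcb
      rw [emb_smul, smul_right hf, swap_eq hf hbw, mul_zero]; exact F₀.zero_mem
    obtain ⟨b', hb', hcb', hbb'⟩ := exists_rat_dual F₀ hf₀ [c] b (by rw [CfsgLib.OS29.span_list_single]; exact notMem_span_symm hb0 hcb) (by simp; omega)
    have hcb' := hcb' c (by simp)
    obtain ⟨x, hx, hxp, hxN⟩ := exists_rat_iso F₀ hf₀ [b, c, b'] (Submodule.span F₀ {y | y ∈ [b, c]})
      ((CfsgLib.SympTv29.finrank_span_list_le [b, c]).trans (by simp)) (by simp; omega)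
    have hbx := hxp b (by simp)
    have hcx := hxp c (by simp)
    have hb'x := hxp b' (by simp)
    obtain ⟨x₂, hx₂, hx₂p, hx₂N⟩ := exists_rat_iso F₀ hf₀ [b, c, x] (Submodule.span F₀ {y | y ∈ [x, b, c]})
      ((CfsgLib.SympTv29.finrank_span_list_le [x, b, c]).trans (by simp)) (by simp; omega)
    have hbx₂ := hx₂p b (by simp)
    have hcx₂ := hx₂p c (by simp)
    have hxx₂ := hx₂p x (by simp)
    have hx₂N2 : x ∉ Submodule.span F₀ {y | y ∈ [x₂, b, c]} := by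
      intro h
      have e1 : ({y | y ∈ [x₂, b, c]} : Set (ι → F₀)) = insert x₂ {y | y ∈ [b, c]} := by ext z; simp
      have e2 : ({y | y ∈ [x, b, c]} : Set (ι → F₀)) = insert x {y | y ∈ [b, c]} := by ext z; simp
      rw [e1] at h
      rw [e2] at hx₂N
      exact hx₂N (mem_span_insert_exchange h hxN)
    obtain ⟨d, hd, hdp, hxd⟩ := exists_rat_dual F₀ hf₀ [x₂, b, c] x hx₂N2 (by simp; omega)
    have hx₂d := hdp x₂ (by simp)
    have hbd := hdp b (by simp)
    have hcd := hdp c (by simp)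
    set κ := f w (emb F₀ c) with hκ
    set β := f w (emb F₀ b') with hβ
    set ξ := f w (emb F₀ x) with hξ
    have hwb := swap_eq hf hbw
    -- first conjugation
    obtain ⟨g, hg, hgi, hgx⟩ := D.rat_move hb' hc (swap_eq hf₀ hcb')
    have h1 := h.conj hf hg hgi
    rw [hgx, hgx, D.c1 hbb', D.c0 hbc, ← hκ, ← hβ] at h1
    simp only [one_smul, zero_smul, sub_zero] at h1
    have q1 : f (emb F₀ b + emb F₀ c) (emb F₀ b + emb F₀ c) = 0 := by
      simp only [hf.add_left, add_right hf, D.c0 hb, D.c0 hc, D.c0 hbc, D.c0' hbc]; ring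
    have p1 : f (emb F₀ b + emb F₀ c) (w + β • emb F₀ c - κ • emb F₀ b') = 0 := by
      simp only [hf.add_left, add_right hf, sub_right hf, smul_right hf, hbw, D.c0 hbc, D.c1 hbb', D.c0 hc, D.c0 hcb']
      rw [hf.herm (emb F₀ c) w, ← hκ]
      ring
    -- second conjugation
    obtain ⟨g2, hg2, hgi2, hgx2⟩ := D.rat_move hx hb (swap_eq hf₀ hbx)
    have h2 := h1.conj hf hg2 hgi2
    have m1 : (g2 : Matrix ι ι F) *ᵥ (emb F₀ b + emb F₀ c) = emb F₀ b + emb F₀ c := by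
      rw [hgx2]
      simp only [hf.add_left, D.c0 hbx, D.c0 hcx, D.c0 hb, D.c0' hbc]
      simp
    have m2 : (g2 : Matrix ι ι F) *ᵥ (w + β • emb F₀ c - κ • emb F₀ b') =
        (w + β • emb F₀ c - κ • emb F₀ b') + (ξ • emb F₀ b + κ • emb F₀ x) := by
      rw [hgx2]
      simp only [hf.add_left, sub_left hf, hf.smul_left, ← hξ, hwb, D.c0 hcx, D.c0 hb'x, D.c0' hbc, D.c1' hbb']
      module
    rw [m1, m2] at h2
    have p2 : f (emb F₀ b + emb F₀ c) (ξ • emb F₀ b + κ • emb F₀ x) = 0 := by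
      simp only [hf.add_left, add_right hf, smul_right hf, D.c0 hb, D.c0' hbc, D.c0 hbx, D.c0 hcx]
      ring
    have h3 := EI.sub hf h2 h1 q1 p1 p2
    -- third conjugation
    obtain ⟨g3, hg3, hgi3, hgx3⟩ := D.rat_move hd hx₂ (swap_eq hf₀ hx₂d)
    have h4 := h3.conj hf hg3 hgi3
    have m3 : (g3 : Matrix ι ι F) *ᵥ (emb F₀ b + emb F₀ c) = emb F₀ b + emb F₀ c := by
      rw [hgx3]
      simp only [hf.add_left, D.c0 hbd, D.c0 hcd, D.c0 hbx₂, D.c0 hcx₂]
      simp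
    have m4 : (g3 : Matrix ι ι F) *ᵥ (ξ • emb F₀ b + κ • emb F₀ x) = (ξ • emb F₀ b + κ • emb F₀ x) + κ • emb F₀ x₂ := by
      rw [hgx3]
      simp only [hf.add_left, hf.smul_left, D.c0 hbd, D.c1 hxd, D.c0 hbx₂, D.c0 hxx₂]
      module
    rw [m3, m4] at h4
    have p3 : f (emb F₀ b + emb F₀ c) (κ • emb F₀ x₂) = 0 := by
      simp only [hf.add_left, smul_right hf, D.c0 hbx₂, D.c0 hcx₂]
      ring
    have h5 := EI.sub hf h4 h3 q1 p2 p3
    have h6 : R F₀ f M (b + c) x₂ κ := by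
      refine (EI.to_SR (h5.congr rfl rfl ?_)).congr (emb_add F₀ b c).symm rfl
      simp only [hf.smul_left, add_right hf, smul_right hf, D.c0' hbx₂, D.c0' hxx₂]
      ring
    refine D.mem_of_R (a := b + c) (b := x₂) (by simp only [hf₀.add_left, add_right hf₀, hb, hc, hbc, swap_eq hf₀ hbc]; ring) hx₂
      (by rw [hf₀.add_left, hbx₂, hcx₂, add_zero]) ?_ ?_ h6
    · intro h0
      apply hcb
      rw [Submodule.mem_span_singleton]
      exact ⟨-1, by rw [neg_smul, one_smul]; exact (eq_neg_of_add_eq_zero_right h0).symm⟩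
    · intro h0
      apply hx₂N
      obtain ⟨k, hk⟩ := Submodule.mem_span_singleton.mp h0
      rw [← hk, smul_add]
      exact Submodule.add_mem _ (Submodule.smul_mem _ _ (Submodule.subset_span (by simp))) (Submodule.smul_mem _ _ (Submodule.subset_span (by simp)))
  exact this

theorem P0 [Finite F] {u : ι → F} (hu : f u u = 0) {c : F} (h : ut hf u c ∈ M) {b : ι → F₀} (hb : f₀ b b = 0) (hb0 : b ≠ 0)
    (hub : f (emb F₀ b) u = 0) {x y : ι → F₀} (hx : f₀ b x = 0) (hy : f₀ b y = 0) : c * f (emb F₀ x) u * f u (emb F₀ y) ∈ F₀ := by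
  let A₀ : Submodule F₀ (ι → F₀) :=
    { carrier := {x | c * f (emb F₀ x) u * f u (emb F₀ y) ∈ F₀}
      add_mem' := fun {x x'} hx hx' => by
        change c * f (emb F₀ (x + x')) u * f u (emb F₀ y) ∈ F₀
        rw [emb_add, hf.add_left, mul_add, add_mul]; exact F₀.add_mem hx hx'
      zero_mem' := by
        change c * f (emb F₀ 0) u * f u (emb F₀ y) ∈ F₀
        rw [emb_zero, zero_left hf, mul_zero, zero_mul]; exact F₀.zero_mem
      smul_mem' := fun k x hx => by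
        change c * f (emb F₀ (k • x)) u * f u (emb F₀ y) ∈ F₀
        rw [emb_smul, hf.smul_left]
        have : c * ((k : F) * f (emb F₀ x) u) * f u (emb F₀ y) = (k : F) * (c * f (emb F₀ x) u * f u (emb F₀ y)) := by ring
        rw [this]; exact F₀.mul_mem k.2 hx }
  have : x ∈ A₀ := by
    refine D.rich1 b A₀ ?_ x hx
    clear hx x
    intro x hx hxx
    have hui := D.hMi h
    have h1 := (EI.of_SR (D.rat_sr hb hxx hx)).conj hf h hui
    rw [ut_fix hf hu c hub, ut_mulVec hf hu] at h1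
    have h2 := EI.sub hf h1 (EI.of_SR (D.rat_sr hb hxx hx)) (D.c0 hb) (D.c0 hx) (by rw [smul_right hf, hub, mul_zero])
    have h3 := D.P1 hb hb0 (by rw [smul_right hf, hub, mul_zero]) h2 hy
    rw [hf.smul_left] at h3
    exact h3
  exact this

/-- a non-rational centre is not perpendicular to any rational isotropic vector -/
theorem lemP [Finite F] {u : ι → F} (huN : NR F₀ u) (hu : f u u = 0) {c : F} (hc0 : c ≠ 0) (h : ut hf u c ∈ M) {b : ι → F₀} (hb : f₀ b b = 0) (hb0 : b ≠ 0) :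
    f (emb F₀ b) u ≠ 0 := by
  intro hub
  have h13 := D.h13
  obtain ⟨x₀, hx0, hκ⟩ : ∃ x₀, f₀ x₀ b = 0 ∧ f (emb F₀ x₀) u ≠ 0 := by
    by_contra hcon
    push Not at hcon
    obtain ⟨k, hk⟩ := D.prop_of_perp hb0 hcon
    have hk0 : k ≠ 0 := by
      rintro rfl
      exact huN.ne_zero F₀ (by rw [hk, zero_smul])
    exact huN k⁻¹ (inv_ne_zero hk0) b (by rw [hk, smul_smul, inv_mul_cancel₀ hk0, one_smul])
  have hx0' := swap_eq hf₀ hx0
  set κ := c * f (emb F₀ x₀) u with hκd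
  have hκ0 : κ ≠ 0 := mul_ne_zero hc0 hκ
  have hk1 : ∀ y, f₀ b y = 0 → κ * f u (emb F₀ y) ∈ F₀ := fun y hy => D.P0 hu h hb hb0 hub hx0' hy
  have hk2 : ∀ z, κ * f u (emb F₀ z) ∈ F₀ := by
    intro z
    set S := perp hf₀ (Submodule.span F₀ {y | y ∈ [b, x₀, z]}) with hS
    have hSr : 10 ≤ Module.finrank F₀ S := by
      have h1 := finrank_perp_ge hf₀ (Submodule.span F₀ {y | y ∈ [b, x₀, z]})
      have h2 : Module.finrank F₀ (Submodule.span F₀ {y | y ∈ [b, x₀, z]}) ≤ 3 := CfsgLib.SympTv29.finrank_span_list_le [b, x₀, z]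
      rw [Module.finrank_fintype_fun_eq_card, ← hS] at h1
      omega
    have hSm : ∀ y ∈ S, f₀ b y = 0 ∧ f₀ x₀ y = 0 ∧ f₀ z y = 0 := fun y hy =>
      ⟨hy b (Submodule.subset_span (by simp)), hy x₀ (Submodule.subset_span (by simp)), hy z (Submodule.subset_span (by simp))⟩
    -- the conjugate functional is linear
    have hk1' : ∀ y, f₀ b y = 0 → σ κ * f (emb F₀ y) u ∈ F₀ := by
      intro y hy
      have h1 := hk1 y hy
      have h2 : σ (κ * f u (emb F₀ y)) = (σ₀ ⟨_, h1⟩ : F) := D.hσ ⟨_, h1⟩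
      rw [map_mul, ← hf.herm] at h2
      rw [h2]; exact (σ₀ _).2
    let L : S →ₗ[F₀] F₀ :=
      { toFun := fun y => ⟨σ κ * f (emb F₀ (y : ι → F₀)) u, hk1' y (hSm y y.2).1⟩
        map_add' := fun x y => by
          apply Subtype.ext
          change σ κ * f (emb F₀ (x : ι → F₀) + emb F₀ (y : ι → F₀)) u = σ κ * f (emb F₀ (x : ι → F₀)) u + σ κ * f (emb F₀ (y : ι → F₀)) u
          rw [hf.add_left]; ring
        map_smul' := fun k x => by
          apply Subtype.ext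
          change σ κ * f ((k : F) • emb F₀ (x : ι → F₀)) u = (k : F) * (σ κ * f (emb F₀ (x : ι → F₀)) u)
          rw [hf.smul_left]; ring }
    have hker : 2 ≤ Module.finrank F₀ ((LinearMap.ker L).map S.subtype) := by
      have h1 := LinearMap.finrank_range_add_finrank_ker L
      have h2 := Submodule.finrank_le (LinearMap.range L)
      rw [Module.finrank_self] at h2
      have h3 := LinearEquiv.finrank_eq (Submodule.equivMapOfInjective S.subtype S.injective_subtype (LinearMap.ker L))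
      omega
    obtain ⟨b', hb'm, hb'0, hb'⟩ := exists_iso_in hf₀ _ hker
    obtain ⟨⟨b'', hb''S⟩, hb''L, hb''e⟩ := hb'm
    have hb''e' : b'' = b' := hb''e
    subst hb''e'
    have h1 : σ κ * f (emb F₀ b'') u = 0 := congrArg Subtype.val (show L ⟨b'', hb''S⟩ = 0 from hb''L)
    have h2 : f (emb F₀ b'') u = 0 := (mul_eq_zero.mp h1).resolve_left (fun h0 => hκ0 ((map_eq_zero σ).mp h0))
    obtain ⟨_, h3, h4⟩ := hSm b'' hb''S
    exact D.P0 hu h hb' hb'0 h2 (swap_eq hf₀ h3) (swap_eq hf₀ h4)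
  -- κ • u is rational
  let θ : Module.Dual F₀ (ι → F₀) :=
    { toFun := fun x => σ₀ ⟨κ * f u (emb F₀ x), hk2 x⟩
      map_add' := fun x y => by
        rw [← map_add]
        congr 1
        apply Subtype.ext
        change κ * f u (emb F₀ x + emb F₀ y) = κ * f u (emb F₀ x) + κ * f u (emb F₀ y)
        rw [add_right hf]; ring
      map_smul' := fun k x => by
        have : (⟨κ * f u (emb F₀ (k • x)), hk2 (k • x)⟩ : F₀) = σ₀ k * ⟨κ * f u (emb F₀ x), hk2 x⟩ := by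
          apply Subtype.ext
          change κ * f u (emb F₀ (k • x)) = (σ₀ k : F) * (κ * f u (emb F₀ x))
          rw [emb_smul, smul_right hf, D.hσ]; ring
        rw [this, map_mul, hf₀.involutive]; rfl }
  obtain ⟨z, hz⟩ := riesz hf₀ θ
  apply huN κ hκ0 z
  rw [← sub_eq_zero]
  apply D.zero_of_rat
  intro x
  have h1 : (σ₀ ⟨κ * f u (emb F₀ x), hk2 x⟩ : F) = (f₀ x z : F) := congrArg Subtype.val (hz x)
  rw [← D.hσ] at h1
  change σ (κ * f u (emb F₀ x)) = _ at h1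
  rw [map_mul, ← hf.herm] at h1
  rw [sub_right hf, smul_right hf, D.hc, h1, sub_self]

end Ug

end CfsgLib.UnF29
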