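import Cfsg.Agent.LibUnF29b

/-! Overgroups of SU(F₀) in SU(F), odd degree: rational elements and the generic case. -/

namespace CfsgLib.UnF29

open scoped MatrixGroups Matrix
open Cfsg CfsgLib.MaxTv29 CfsgLib.Subfield29 CfsgLib.Un29

variable {ι : Type} [Fintype ι] [DecidableEq ι] {F : Type*} [Field F] {σ : F ≃+* F}
variable {f : (ι → F) → (ι → F) → F} {F₀ : Subfield F} {σ₀ : F₀ ≃+* F₀} {f₀ : (ι → F₀) → (ι → F₀) → F₀}

theorem disp_fix (hf : Geo.IsUnitaryForm σ f) {T : Submodule F (ι → F)} (hT : ∀ s ∈ T, ∀ t ∈ T, f s t = 0) {k : GL ι F} (hk : k ∈ iso f)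
    (hkT : ∀ x, (k : Matrix ι ι F) *ᵥ x - x ∈ T) {y : ι → F} (hy : ∀ t ∈ T, f t y = 0) : (k : Matrix ι ι F) *ᵥ y = y := by
  by_contra hne
  have hne' : (k : Matrix ι ι F) *ᵥ y - y ≠ 0 := sub_ne_zero.mpr hne
  obtain ⟨⟨x, hx⟩, _⟩ := hf.nondegenerate _ hne'
  apply hx
  have h1 := (mem_iso k).mp hk x y
  have h2 : (k : Matrix ι ι F) *ᵥ x = x + ((k : Matrix ι ι F) *ᵥ x - x) := by abel
  have h3 : (k : Matrix ι ι F) *ᵥ y = y + ((k : Matrix ι ι F) *ᵥ y - y) := by abel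
  rw [h2, h3, hf.add_left, add_right hf, add_right hf, hy _ (hkT x), hT _ (hkT x) _ (hkT y)] at h1
  linear_combination h1

namespace Ud

variable {hf : Geo.IsUnitaryForm σ f} {hf₀ : Geo.IsUnitaryForm σ₀ f₀} {M : Subgroup (GL ι F)} (D : Ud hf hf₀ M)

/-- image of a rational vector is rational up to a scalar -/
def SRt (F₀ : Subfield F) (k : GL ι F) (a : ι → F₀) : Prop := ∃ (c : F) (y : ι → F₀), (k : Matrix ι ι F) *ᵥ emb F₀ a = c • emb F₀ y

include D in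
omit D in
theorem SRt_of_not_NR {k : GL ι F} {a : ι → F₀} (h : ¬ NR F₀ ((k : Matrix ι ι F) *ᵥ emb F₀ a)) : SRt F₀ k a := by
  unfold NR at h
  push Not at h
  obtain ⟨c, hc0, y, hy⟩ := h
  exact ⟨c⁻¹, y, by rw [← hy, smul_smul, inv_mul_cancel₀ hc0, one_smul]⟩

theorem Rat_base {k : GL ι F} {a₀ a : ι → F₀} (ha₀ : f₀ a₀ a₀ = 0) (ha₀0 : a₀ ≠ 0) (ha : f₀ a a = 0) (h0 : f₀ a₀ a = 0) (hN : a ∉ Submodule.span F₀ {a₀})
    (hf₀ : Geo.IsUnitaryForm σ₀ f₀) (hS : ∀ a, f₀ a a = 0 → SRt F₀ k a) {l : F} (hl : l ≠ 0) {y₀ : ι → F₀} (h : (k : Matrix ι ι F) *ᵥ emb F₀ a₀ = l • emb F₀ y₀) :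
    ∃ y, l⁻¹ • ((k : Matrix ι ι F) *ᵥ emb F₀ a) = emb F₀ y := by
  obtain ⟨c, y, hy⟩ := hS a ha
  obtain ⟨d, z, hz⟩ := hS (a₀ + a) (by rw [hf₀.add_left, add_right hf₀, add_right hf₀, ha₀, ha, h0, swap_eq hf₀ h0]; ring)
  rw [emb_add, Matrix.mulVec_add, h, hy] at hz
  have hay : emb F₀ y ∉ Submodule.span F {emb F₀ y₀} := by
    intro h1
    obtain ⟨t, ht⟩ := Submodule.mem_span_singleton.mp h1
    apply CfsgLib.OS29.Sd.emb_notMem_span hN ha₀0
    rw [Submodule.mem_span_singleton]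
    refine ⟨c * t * l⁻¹, ?_⟩
    apply mulVec_injective k
    simp only
    rw [Matrix.mulVec_smul, h, hy, ← ht, smul_smul, smul_smul]
    congr 1
    field_simp
  have hd : d ≠ 0 := by
    rintro rfl
    rw [zero_smul] at hz
    apply ha₀0
    have h1 : (k : Matrix ι ι F) *ᵥ emb F₀ (a₀ + a) = 0 := by rw [emb_add, Matrix.mulVec_add, h, hy, hz]
    have h2 : emb F₀ (a₀ + a) = 0 := mulVec_injective k (h1.trans (Matrix.mulVec_zero _).symm)
    exfalso
    have h3 : a₀ + a = 0 := emb_injective F₀ (h2.trans (emb_zero F₀).symm)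
    apply hN
    rw [Submodule.mem_span_singleton]
    exact ⟨-1, by rw [neg_smul, one_smul]; exact (eq_neg_of_add_eq_zero_right h3).symm⟩
  have h1 : (d⁻¹ * c) • emb F₀ y + (d⁻¹ * l) • emb F₀ y₀ = emb F₀ z := by
    have : d⁻¹ • (l • emb F₀ y₀ + c • emb F₀ y) = emb F₀ z := by rw [hz, smul_smul, inv_mul_cancel₀ hd, one_smul]
    rw [← this]; module
  have m1 := rat_coeff F₀ hay h1
  have hcy : c ≠ 0 := by
    rintro rfl
    rw [zero_smul] at hy
    apply hN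
    have h2 : emb F₀ a = 0 := mulVec_injective k (hy.trans (Matrix.mulVec_zero _).symm)
    have h3 : a = 0 := emb_injective F₀ (h2.trans (emb_zero F₀).symm)
    rw [h3]; exact Submodule.zero_mem _
  have hay' : emb F₀ y₀ ∉ Submodule.span F {emb F₀ y} := by
    apply notMem_span_symm _ hay
    intro h4
    rw [h4, smul_zero] at h
    exact emb_ne_zero F₀ ha₀0 (mulVec_injective k (h.trans (Matrix.mulVec_zero _).symm))
  have m2 := rat_coeff F₀ hay' (by rw [add_comm]; exact h1)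
  have m3 : l⁻¹ * c ∈ F₀ := by
    have : l⁻¹ * c = (d⁻¹ * c) / (d⁻¹ * l) := by field_simp
    rw [this]; exact F₀.div_mem m1 m2
  refine ⟨(⟨l⁻¹ * c, m3⟩ : F₀) • y, ?_⟩
  rw [hy, smul_smul, emb_smul]

include D in
/-- an element mapping isotropic rational points to rational points is rational -/
theorem Rat_of_sing [Finite F] {k : GL ι F} (hS : ∀ a, f₀ a a = 0 → SRt F₀ k a) : Rat F₀ k := by
  have h13 := D.h13
  obtain ⟨a₀, ha₀, _, haN⟩ := exists_rat_iso F₀ hf₀ [] ⊥ (by simp) (by simp; omega)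
  have ha₀0 : a₀ ≠ 0 := fun h => haN (by rw [h]; exact Submodule.zero_mem _)
  obtain ⟨l, y₀, hy₀⟩ := hS a₀ ha₀
  have hl : l ≠ 0 := by
    rintro rfl
    rw [zero_smul] at hy₀
    exact emb_ne_zero F₀ ha₀0 (mulVec_injective k (hy₀.trans (Matrix.mulVec_zero _).symm))
  refine ⟨l⁻¹, inv_ne_zero hl, ?_⟩
  let A₀ : Submodule F₀ (ι → F₀) :=
    { carrier := {x | ∃ y, l⁻¹ • ((k : Matrix ι ι F) *ᵥ emb F₀ x) = emb F₀ y}
      add_mem' := fun {x y} hx hy => by
        obtain ⟨x', hx'⟩ := hx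
        obtain ⟨y', hy'⟩ := hy
        exact ⟨x' + y', by rw [emb_add, Matrix.mulVec_add, smul_add, hx', hy']; rfl⟩
      zero_mem' := ⟨0, by rw [emb_zero, Matrix.mulVec_zero, smul_zero]⟩
      smul_mem' := fun c x hx => by
        obtain ⟨x', hx'⟩ := hx
        exact ⟨c • x', by rw [emb_smul, Matrix.mulVec_smul, smul_comm, hx', emb_smul]⟩ }
  intro x
  have : x ∈ A₀ := by
    refine D.rich0 A₀ ?_ x
    intro a ha
    obtain ⟨a', ha', ha'p, ha'N⟩ := exists_rat_iso F₀ hf₀ [a₀, a] (Submodule.span F₀ {a₀, a}) ((CfsgLib.Un29.finrank_pair_le _ _).trans (by omega)) (by simp; omega)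
    have e1 := ha'p a₀ (by simp)
    have e2 := ha'p a (by simp)
    have n1 : a' ∉ Submodule.span F₀ {a₀} := fun h => ha'N (Submodule.span_mono (by simp) h)
    have n2 : a' ∉ Submodule.span F₀ {a} := fun h => ha'N (Submodule.span_mono (by simp) h)
    have ha'0 : a' ≠ 0 := by rintro rfl; exact n1 (Submodule.zero_mem _)
    obtain ⟨y', hy'⟩ := Rat_base ha₀ ha₀0 ha' e1 n1 hf₀ hS hl hy₀
    have hy'' : (k : Matrix ι ι F) *ᵥ emb F₀ a' = l • emb F₀ y' := by rw [← hy', smul_smul, mul_inv_cancel₀ hl, one_smul]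
    by_cases ha0 : a = 0
    · rw [ha0]; exact A₀.zero_mem
    exact Rat_base ha' ha'0 ha (swap_eq hf₀ e2) (notMem_span_symm ha0 n2) hf₀ hS hl hy''
  exact this

end Ud

namespace Ug

open Ud

variable {hf : Geo.IsUnitaryForm σ f} {hf₀ : Geo.IsUnitaryForm σ₀ f₀} {M : Subgroup (GL ι F)} (D : Ug hf hf₀ M)
include D

/-- image of rational isotropic vectors perpendicular to a rational isotropic vector -/
theorem SRt_of [Finite F] {k : GL ι F} (hk : k ∈ M) {a : ι → F₀} (ha : f₀ a a = 0) {b : ι → F₀} (hb : f₀ b b = 0) (hb0 : b ≠ 0)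
    (h : f (emb F₀ b) ((k : Matrix ι ι F) *ᵥ emb F₀ a) = 0) : SRt F₀ k a := by
  apply SRt_of_not_NR
  intro hN
  obtain ⟨δ, hδ0, hδ⟩ := exists_skew hf₀
  have hδF : (δ : F) ≠ 0 := fun h => hδ0 (Subtype.ext h)
  have hki := D.hMi hk
  exact D.lemP hN (by rw [(mem_iso k).mp hki]; exact D.c0 ha) hδF (ut_mem_conj hf hk hki (D.c0 ha) (D.hM a δ ha hδ)) hb hb0 h

theorem RP_of [Finite F] {k : GL ι F} (hk : k ∈ M) {b b' : ι → F₀} (hb : f₀ b b = 0) (hb0 : b ≠ 0) {c : F} (h : (k : Matrix ι ι F) *ᵥ emb F₀ b = c • emb F₀ b') :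
    Rat F₀ k := by
  have h13 := D.h13
  have hki := D.hMi hk
  have key : ∀ {b b' : ι → F₀} {c : F}, f₀ b b = 0 → b ≠ 0 → (k : Matrix ι ι F) *ᵥ emb F₀ b = c • emb F₀ b' → ∀ a, f₀ a a = 0 → f₀ b a = 0 → SRt F₀ k a := by
    intro b b' c hb hb0 h a ha hba
    have hgb : (k : Matrix ι ι F) *ᵥ emb F₀ b ≠ 0 := fun h0 => emb_ne_zero F₀ hb0 (mulVec_injective k (h0.trans (Matrix.mulVec_zero _).symm))
    have hc0 : c ≠ 0 := by rintro rfl; exact hgb (by rw [h, zero_smul])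
    have hb'0 : b' ≠ 0 := by rintro rfl; exact hgb (by rw [h, emb_zero, smul_zero])
    have hb' : f₀ b' b' = 0 := by
      have h1 := (mem_iso k).mp hki (emb F₀ b) (emb F₀ b)
      rw [h, hf.smul_left, smul_right hf, D.c0 hb, D.hc] at h1
      have h2 := (mul_eq_zero.mp h1).resolve_left hc0
      exact Subtype.ext ((mul_eq_zero.mp h2).resolve_left (fun h0 => hc0 ((map_eq_zero σ).mp h0)))
    refine D.SRt_of hk ha hb' hb'0 ?_
    have h1 := (mem_iso k).mp hki (emb F₀ b) (emb F₀ a)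
    rw [h, hf.smul_left, D.c0 hba] at h1
    exact (mul_eq_zero.mp h1).resolve_left hc0
  apply D.Rat_of_sing
  intro a ha
  obtain ⟨a₂, ha₂, ha₂p, ha₂N⟩ := exists_rat_iso F₀ hf₀ [a, b] ⊥ (by simp) (by simp; omega)
  have ha₂0 : a₂ ≠ 0 := fun h => ha₂N (by rw [h]; exact Submodule.zero_mem _)
  obtain ⟨c₂, y₂, hy₂⟩ := key hb hb0 h a₂ ha₂ (ha₂p b (by simp))
  exact key ha₂ ha₂0 hy₂ a ha (swap_eq hf₀ (ha₂p a (by simp)))

theorem all_rat_u [Finite F] (hr : (Module.finrank F₀ F).Prime) {g : GL ι F} (hg : g ∈ M) : Rat F₀ g := by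
  classical
  by_contra hcon
  have h13 := D.h13
  obtain ⟨δ, hδ0, hδ⟩ := exists_skew hf₀
  have hδF : (δ : F) ≠ 0 := fun h => hδ0 (Subtype.ext h)
  obtain ⟨a, ha, hNR⟩ : ∃ a : ι → F₀, f₀ a a = 0 ∧ NR F₀ ((g : Matrix ι ι F) *ᵥ emb F₀ a) := by
    by_contra h
    push Not at h
    exact hcon (D.Rat_of_sing fun a ha => SRt_of_not_NR (h a ha))
  have hgi := D.hMi hg
  set u := (g : Matrix ι ι F) *ᵥ emb F₀ a with hu
  have huu : f u u = 0 := by rw [hu, (mem_iso g).mp hgi]; exact D.c0 ha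
  have huM : ut hf u (δ : F) ∈ M := ut_mem_conj hf hg hgi (D.c0 ha) (D.hM a δ ha hδ)
  have hgen : ∀ b : ι → F₀, f₀ b b = 0 → b ≠ 0 → f (emb F₀ b) u ≠ 0 := fun b hb hb0 => D.lemP hNR huu hδF huM hb hb0
  have hdim : Fintype.card ι ≤ Module.finrank F₀ F + 1 := by
    haveI : Module.Finite F₀ F := inferInstance
    let L : (ι → F₀) →ₗ[F₀] F :=
      { toFun := fun x => f (emb F₀ x) u
        map_add' := fun x y => by rw [emb_add, hf.add_left]
        map_smul' := fun k x => by rw [emb_smul, hf.smul_left]; rfl }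
    by_contra hlt
    have h1 := LinearMap.finrank_range_add_finrank_ker L
    have h2 := Submodule.finrank_le (LinearMap.range L)
    rw [Module.finrank_fintype_fun_eq_card] at h1
    obtain ⟨x, hx, hx0, hxx⟩ := exists_iso_in hf₀ (LinearMap.ker L) (by omega)
    exact hgen x hxx hx0 hx
  obtain ⟨b, hb, _, hbN⟩ := exists_rat_iso F₀ hf₀ [] ⊥ (by simp) (by simp; omega)
  have hb0 : b ≠ 0 := fun h => hbN (by rw [h]; exact Submodule.zero_mem _)
  obtain ⟨b', hb', hbb', hb'N⟩ := exists_rat_iso F₀ hf₀ [b] (Submodule.span F₀ {b}) ((finrank_span_singleton hb0).le.trans (by omega)) (by simp; omega)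
  have hbb := hbb' b (by simp)
  have hb'0 : b' ≠ 0 := fun h => hb'N (by rw [h]; exact Submodule.zero_mem _)
  have hperp3 : ∀ y : ι → F₀, ∃ d : ι → F₀, d ≠ 0 ∧ f₀ d d = 0 ∧ f₀ b d = 0 ∧ f₀ b' d = 0 ∧ f₀ y d = 0 := by
    intro y
    obtain ⟨d, hdd, hd, hd1⟩ := exists_rat_iso F₀ hf₀ [b, b', y] ⊥ (by simp) (by simp; omega)
    exact ⟨d, fun h => hd1 (by rw [h]; exact Submodule.zero_mem _), hdd, hd b (by simp), hd b' (by simp), hd y (by simp)⟩
  set T : Submodule F (ι → F) := Submodule.span F {emb F₀ b, emb F₀ b'} with hTd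
  have hbT : emb F₀ b ∈ T := Submodule.subset_span (by simp)
  have hb'T : emb F₀ b' ∈ T := Submodule.subset_span (by simp)
  have hTperp : ∀ t ∈ T, ∀ d : ι → F₀, f₀ b d = 0 → f₀ b' d = 0 → f t (emb F₀ d) = 0 := by
    intro t ht d h1 h2
    obtain ⟨α, β, rfl⟩ := Submodule.mem_span_pair.mp ht
    rw [hf.add_left, hf.smul_left, hf.smul_left, D.c0 h1, D.c0 h2]; ring
  have hTT : ∀ s ∈ T, ∀ t ∈ T, f s t = 0 := by
    intro s hs t ht
    obtain ⟨α, β, rfl⟩ := Submodule.mem_span_pair.mp ht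
    rw [add_right hf, smul_right hf, smul_right hf, hTperp s hs b hb (swap_eq hf₀ hbb), hTperp s hs b' hbb hb']; ring
  have huT : u ∉ T := by
    intro h
    obtain ⟨d, hd0, hdd, hd1, hd2, _⟩ := hperp3 b
    exact hgen d hdd hd0 (swap_eq hf (hTperp u h d hd1 hd2))
  set W : Submodule F (ι → F) := Submodule.span F {emb F₀ b, emb F₀ b', u} with hWd
  have hTW : T ≤ W := Submodule.span_mono (by intro x hx; simp at hx ⊢; tauto)
  have huW : u ∈ W := Submodule.subset_span (by simp)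
  have hWmem : ∀ w ∈ W, ∃ t ∈ T, ∃ γ : F, w = t + γ • u := by
    intro w hw
    obtain ⟨α, β, γ, rfl⟩ := Submodule.mem_span_triple.mp hw
    exact ⟨α • emb F₀ b + β • emb F₀ b', Submodule.mem_span_pair.mpr ⟨α, β, rfl⟩, γ, rfl⟩
  have hWr : Module.finrank F W < 4 := by
    have h1 := CfsgLib.SympTv29.finrank_span_list_le [emb F₀ b, emb F₀ b', u]
    have h2 : Submodule.span F {x | x ∈ [emb F₀ b, emb F₀ b', u]} = W := by
      rw [hWd]; congr 1; ext x; simp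
    rw [h2] at h1
    simp at h1; omega
  have hWrat : ∀ y : ι → F₀, emb F₀ y ∈ W → emb F₀ y ∈ T := by
    intro y hy
    obtain ⟨t, ht, γ, he⟩ := hWmem _ hy
    by_cases hγ : γ = 0
    · rw [he, hγ, zero_smul, add_zero]; exact ht
    · exfalso
      obtain ⟨d, hd0, hdd, hd1, hd2, hd3⟩ := hperp3 y
      have h1 : f (emb F₀ y) (emb F₀ d) = 0 := D.c0 hd3
      rw [he, hf.add_left, hTperp t ht d hd1 hd2, hf.smul_left, zero_add] at h1
      exact hgen d hdd hd0 (swap_eq hf ((mul_eq_zero.mp h1).resolve_left hγ))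
  haveI : Finite (Matrix ι ι F) := inferInstanceAs (Finite (ι → ι → F))
  haveI : Finite (GL ι F) := inferInstance
  set K := dispGroup M W with hK
  haveI : Finite K := inferInstance
  -- rational elements
  have hstab1 : ∀ k ∈ K, Rat F₀ k →
      (∀ x : ι → F₀, ∃ y : ι → F₀, (k : Matrix ι ι F) *ᵥ emb F₀ x - emb F₀ x = emb F₀ y) ∧ ∀ x, (k : Matrix ι ι F) *ᵥ x - x ∈ T := by
    rintro k ⟨hkM, hkd⟩ ⟨ν, hν0, hν⟩
    have e : Fin 4 ↪ ι := (Function.Embedding.nonempty_of_card_le (by rw [Fintype.card_fin]; omega)).some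
    have hνF : ν ∈ F₀ := CfsgLib.SpSub29.nu_mem F₀ hr hkd hWr e (by omega) hν
    have hrat : ∀ x : ι → F₀, ∃ y : ι → F₀, (k : Matrix ι ι F) *ᵥ emb F₀ x - emb F₀ x = emb F₀ y := by
      intro x
      obtain ⟨y, hy⟩ := hν x
      refine ⟨(⟨ν, hνF⟩ : F₀)⁻¹ • y - x, ?_⟩
      have h1 : (k : Matrix ι ι F) *ᵥ emb F₀ x = ν⁻¹ • emb F₀ y := by rw [← hy, smul_smul, inv_mul_cancel₀ hν0, one_smul]
      have h2 : emb F₀ ((⟨ν, hνF⟩ : F₀)⁻¹ • y - x) = emb F₀ ((⟨ν, hνF⟩ : F₀)⁻¹ • y) - emb F₀ x := rfl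
      rw [h1, h2, emb_smul]
      rfl
    refine ⟨hrat, fun x => ?_⟩
    have h3 : (k : Matrix ι ι F) *ᵥ x - x = ∑ i, x i • ((k : Matrix ι ι F) *ᵥ emb F₀ (Pi.single i 1) - emb F₀ (Pi.single i 1)) := by
      conv_lhs => rw [CfsgLib.OS29.rational_span (F₀ := F₀) x]
      rw [Matrix.mulVec_sum, ← Finset.sum_sub_distrib]
      exact Finset.sum_congr rfl fun i _ => by rw [Matrix.mulVec_smul, smul_sub]
    rw [h3]
    apply T.sum_mem
    intro i _
    apply T.smul_mem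
    obtain ⟨y, hy⟩ := hrat (Pi.single i 1)
    rw [hy]
    apply hWrat
    rw [← hy]
    exact hkd _
  let U : Subgroup K := (dispGroup M T).subgroupOf K
  have hUmem : ∀ k : K, k ∈ U ↔ ∀ x, ((k : GL ι F) : Matrix ι ι F) *ᵥ x - x ∈ T := by
    intro k
    constructor
    · intro h; exact (Subgroup.mem_subgroupOf.mp h).2
    · intro h; exact Subgroup.mem_subgroupOf.mpr ⟨k.2.1, h⟩
  have hUfix : ∀ k ∈ U, ∀ t ∈ T, ((k : GL ι F) : Matrix ι ι F) *ᵥ t = t := by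
    intro k hk t ht
    exact disp_fix hf hTT (D.hMi k.2.1) ((hUmem k).mp hk) (fun s hs => hTT s hs t ht)
  have hUrat : ∀ k ∈ U, ∀ x : ι → F₀, ∃ y : ι → F₀, ((k : GL ι F) : Matrix ι ι F) *ᵥ emb F₀ x - emb F₀ x = emb F₀ y := by
    intro k hk
    have h1 : Rat F₀ (k : GL ι F) := D.RP_of k.2.1 hb hb0 (c := 1) (b' := b) (by rw [hUfix k hk _ hbT, one_smul])
    exact (hstab1 k k.2 h1).1
  have hst1 : ∀ (c : ι → F₀), f₀ c c = 0 → emb F₀ c ∈ T → ∀ x, ((ut hf (emb F₀ c) (δ : F) : GL ι F) : Matrix ι ι F) *ᵥ x - x ∈ T := by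
    intro c hc hcT x
    rw [ut_mulVec hf (D.c0 hc), add_sub_cancel_left]
    exact T.smul_mem _ hcT
  let s1 : K := ⟨ut hf (emb F₀ b) (δ : F), D.hM b δ hb hδ, fun x => hTW (hst1 b hb hbT x)⟩
  let s2 : K := ⟨ut hf (emb F₀ b') (δ : F), D.hM b' δ hb' hδ, fun x => hTW (hst1 b' hb' hb'T x)⟩
  have hs1U : s1 ∈ U := (hUmem _).mpr (hst1 b hb hbT)
  have hs2U : s2 ∈ U := (hUmem _).mpr (hst1 b' hb' hb'T)
  -- dual vectors
  obtain ⟨d1, _, _, hbd1⟩ := exists_rat_dual F₀ hf₀ [] b (by simpa using hb0) (by simp; omega)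
  obtain ⟨d2, _, hbd2, hb'd2⟩ := exists_rat_dual F₀ hf₀ [b] b' (by rw [CfsgLib.OS29.span_list_single]; exact hb'N) (by simp; omega)
  have hbd2 := hbd2 b (by simp)
  have hs1ne : s1 ≠ 1 := by
    intro h
    have h1 := congrArg (fun t : K => ((t : GL ι F) : Matrix ι ι F) *ᵥ emb F₀ d1) h
    change ((ut hf (emb F₀ b) (δ : F) : GL ι F) : Matrix ι ι F) *ᵥ emb F₀ d1 = ((1 : GL ι F) : Matrix ι ι F) *ᵥ emb F₀ d1 at h1
    rw [ut_mulVec hf (D.c0 hb), D.c1' hbd1, mul_one, Units.val_one, Matrix.one_mulVec, add_eq_left] at h1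
    exact (smul_eq_zero.mp h1).elim hδF (emb_ne_zero F₀ hb0)
  obtain ⟨p, hp⟩ := CharP.exists F
  haveI hpp : Fact p.Prime := by
    haveI := hp
    exact ⟨CharP.char_is_prime F p⟩
  have hpow : ∀ k ∈ U, ∀ (n : ℕ) (x : ι → F), ((k ^ n : K) : GL ι F).1 *ᵥ x = x + (n : F) • (((k : GL ι F) : Matrix ι ι F) *ᵥ x - x) := by
    intro k hk n x
    induction n with
    | zero => simp
    | succ n ih =>
      rw [pow_succ', Subgroup.coe_mul, Units.val_mul, ← Matrix.mulVec_mulVec]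
      change ((k : GL ι F) : Matrix ι ι F) *ᵥ (((k ^ n : K) : GL ι F).1 *ᵥ x) = _
      rw [ih, Matrix.mulVec_add, Matrix.mulVec_smul, hUfix k hk _ ((hUmem k).mp hk x)]
      push_cast
      module
  have hUpow : ∀ k ∈ U, k ^ p = 1 := by
    intro k hk
    apply Subtype.ext
    apply gl_ext
    intro x
    have := hpow k hk p x
    rw [CharP.cast_eq_zero, zero_smul, add_zero] at this
    change ((k ^ p : K) : GL ι F).1 *ᵥ x = _
    rw [this]; simp
  have hUp : IsPGroup p U := by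
    rintro ⟨k, hk⟩
    refine ⟨1, ?_⟩
    rw [pow_one]
    exact Subtype.ext (hUpow k hk)
  have hUcomm : ∀ k ∈ U, ∀ l ∈ U, k * l = l * k := by
    intro k hk l hl
    apply Subtype.ext
    apply gl_ext
    intro x
    have e1 : ((k : GL ι F) : Matrix ι ι F) *ᵥ x = x + (((k : GL ι F) : Matrix ι ι F) *ᵥ x - x) := by abel
    have e2 : ((l : GL ι F) : Matrix ι ι F) *ᵥ x = x + (((l : GL ι F) : Matrix ι ι F) *ᵥ x - x) := by abel
    rw [Subgroup.coe_mul, Subgroup.coe_mul, Units.val_mul, Units.val_mul, ← Matrix.mulVec_mulVec, ← Matrix.mulVec_mulVec]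
    conv_lhs => rw [e2, Matrix.mulVec_add, hUfix k hk _ ((hUmem l).mp hl x)]
    conv_rhs => rw [e1, Matrix.mulVec_add, hUfix l hl _ ((hUmem k).mp hk x)]
    abel
  have hcyc : ¬ IsCyclic U := by
    intro hc
    haveI : Fintype U := Fintype.ofFinite U
    have h1 : Fintype.card U ≤ p := by
      have h2 := IsCyclic.card_pow_eq_one_le (α := U) (n := p) hpp.out.pos
      have h3 : (Finset.univ.filter fun a : U => a ^ p = 1) = Finset.univ := by
        rw [Finset.filter_true_of_mem]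
        intro a _
        exact Subtype.ext (hUpow a a.2)
      rw [h3, Finset.card_univ] at h2
      exact h2
    have h2 : orderOf (⟨s1, hs1U⟩ : U) = p := orderOf_eq_prime (Subtype.ext (hUpow s1 hs1U)) (fun h => hs1ne (congrArg Subtype.val h))
    have h3 : (⟨s2, hs2U⟩ : U) ∈ Subgroup.zpowers (⟨s1, hs1U⟩ : U) := by
      have h4 : Subgroup.zpowers (⟨s1, hs1U⟩ : U) = ⊤ := by
        apply Subgroup.eq_top_of_le_card
        rw [Nat.card_zpowers, h2, Nat.card_eq_fintype_card]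
        exact h1
      rw [h4]; exact Subgroup.mem_top _
    let S : Subgroup U :=
      { carrier := {k | ((((k : U) : K) : GL ι F) : Matrix ι ι F) *ᵥ emb F₀ d2 = emb F₀ d2}
        mul_mem' := by
          intro a b ha hb
          change ((((a : K) : GL ι F) * ((b : K) : GL ι F) : GL ι F) : Matrix ι ι F) *ᵥ emb F₀ d2 = emb F₀ d2
          rw [Units.val_mul, ← Matrix.mulVec_mulVec, hb, ha]
        one_mem' := by
          change ((1 : GL ι F) : Matrix ι ι F) *ᵥ emb F₀ d2 = emb F₀ d2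
          rw [Units.val_one, Matrix.one_mulVec]
        inv_mem' := by
          intro a ha
          change ((((a : K) : GL ι F)⁻¹ : GL ι F) : Matrix ι ι F) *ᵥ emb F₀ d2 = emb F₀ d2
          have ha' : (((a : K) : GL ι F) : Matrix ι ι F) *ᵥ emb F₀ d2 = emb F₀ d2 := ha
          conv_lhs => rw [← ha']
          rw [inv_mulVec_mulVec] }
    have h5 : Subgroup.zpowers (⟨s1, hs1U⟩ : U) ≤ S := by
      rw [Subgroup.zpowers_le]
      change ((ut hf (emb F₀ b) (δ : F) : GL ι F) : Matrix ι ι F) *ᵥ emb F₀ d2 = emb F₀ d2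
      exact ut_fix hf (D.c0 hb) _ (D.c0' hbd2)
    have h6 : ((ut hf (emb F₀ b') (δ : F) : GL ι F) : Matrix ι ι F) *ᵥ emb F₀ d2 = emb F₀ d2 := h5 h3
    rw [ut_mulVec hf (D.c0 hb'), D.c1' hb'd2, mul_one, add_eq_left] at h6
    exact (smul_eq_zero.mp h6).elim hδF (emb_ne_zero F₀ hb'0)
  have hfus : ∀ s ∈ U, s ≠ 1 → ∀ k : K, k * s * k⁻¹ ∈ U → k ∈ U := by
    intro s hs hs1 k hk
    obtain ⟨i, hi⟩ : ∃ i : ι, ((s : GL ι F) : Matrix ι ι F) *ᵥ emb F₀ (Pi.single i 1) ≠ emb F₀ (Pi.single i 1) := by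
      by_contra hall
      push Not at hall
      apply hs1
      apply Subtype.ext
      apply gl_ext
      intro x
      have h3 : ((s : GL ι F) : Matrix ι ι F) *ᵥ x = x := by
        conv_lhs => rw [CfsgLib.OS29.rational_span (F₀ := F₀) x]
        conv_rhs => rw [CfsgLib.OS29.rational_span (F₀ := F₀) x]
        rw [Matrix.mulVec_sum]
        exact Finset.sum_congr rfl fun i _ => by rw [Matrix.mulVec_smul, hall]
      rw [h3]; simp
    obtain ⟨t₀, ht₀⟩ := hUrat s hs (Pi.single i 1)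
    have ht0 : t₀ ≠ 0 := by
      rintro rfl
      apply hi
      rw [emb_zero] at ht₀
      exact sub_eq_zero.mp ht₀
    have ht₀T : emb F₀ t₀ ∈ T := by rw [← ht₀]; exact (hUmem s).mp hs _
    have ht₀i : f₀ t₀ t₀ = 0 := by
      have := hTT _ ht₀T _ ht₀T
      rw [D.hc] at this
      exact Subtype.ext this
    have h1 : ((k : GL ι F) : Matrix ι ι F) *ᵥ emb F₀ t₀ ∈ T := by
      rw [← ht₀, Matrix.mulVec_sub]
      have h2 := (hUmem _).mp hk (((k : GL ι F) : Matrix ι ι F) *ᵥ emb F₀ (Pi.single i 1))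
      rw [Subgroup.coe_mul, Subgroup.coe_mul, Subgroup.coe_inv, Units.val_mul, Units.val_mul, ← Matrix.mulVec_mulVec, ← Matrix.mulVec_mulVec,
        inv_mulVec_mulVec] at h2
      exact h2
    obtain ⟨d, hd0, hdd, hd1, hd2, _⟩ := hperp3 b
    obtain ⟨c, y, hy⟩ := D.SRt_of k.2.1 ht₀i hdd hd0 (swap_eq hf (hTperp _ h1 d hd1 hd2))
    exact (hUmem k).mpr (hstab1 k k.2 (D.RP_of k.2.1 ht₀i ht0 hy)).2
  have hall := CfsgLib.OS29.strongly_embedded_abelian U hUp hcyc hUcomm hfus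
  have htK : ut hf u (δ : F) ∈ K := by
    refine ⟨huM, fun x => ?_⟩
    rw [ut_mulVec hf huu, add_sub_cancel_left]
    exact W.smul_mem _ huW
  have h1 := (hUmem _).mp (hall ⟨_, htK⟩) (emb F₀ b)
  change ((ut hf u (δ : F) : GL ι F) : Matrix ι ι F) *ᵥ emb F₀ b - emb F₀ b ∈ T at h1
  rw [ut_mulVec hf huu, add_sub_cancel_left] at h1
  exact huT ((T.smul_mem_iff (mul_ne_zero hδF (hgen b hb hb0))).mp h1)

end Ug

end CfsgLib.UnF29
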