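import Cfsg.Agent.LibUnF29c

/-! Subfield groups of odd prime degree are maximal in SU. -/

namespace CfsgLib.UnF29

open scoped MatrixGroups Matrix
open Cfsg CfsgLib.MaxTv29 CfsgLib.Subfield29 CfsgLib.Un29

variable {ι : Type} [Fintype ι] [DecidableEq ι] {F : Type*} [Field F] {σ : F ≃+* F}
variable {f : (ι → F) → (ι → F) → F} {F₀ : Subfield F} {σ₀ : F₀ ≃+* F₀} {f₀ : (ι → F₀) → (ι → F₀) → F₀}

namespace Ud

variable {hf : Geo.IsUnitaryForm σ f} {hf₀ : Geo.IsUnitaryForm σ₀ f₀} {M : Subgroup (GL ι F)} (D : Ud hf hf₀ M)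
include D

theorem full_rat [Finite F] (hall : ∀ (c : F) (a b : ι → F₀), f₀ a a = 0 → f₀ b b = 0 → f₀ a b = 0 → R F₀ f M a b c) {b : ι → F₀} (hb : f₀ b b = 0) : UFull hf M (emb F₀ b) := by
  have h13 := D.h13
  refine ⟨D.c0 hb, fun c' hc' => ?_⟩
  by_cases hb0 : b = 0
  · have : ut hf (emb F₀ b) c' = 1 := by
      apply gl_ext
      intro x
      rw [ut_mulVec hf (D.c0 hb), hb0, emb_zero, smul_zero, add_zero, Units.val_one, Matrix.one_mulVec]
    rw [this]; exact M.one_mem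
  obtain ⟨δ, hδ0, hδ⟩ := exists_skew hf₀
  have hδF : (δ : F) ≠ 0 := fun h => hδ0 (Subtype.ext h)
  have hδ' : σ (δ : F) = -(δ : F) := by rw [D.hσ, hδ]; rfl
  obtain ⟨c, hc⟩ := exists_norm hf (c' / δ) (by rw [map_div₀, hc', hδ', neg_div_neg_eq])
  obtain ⟨d, hd, hdp, hdN⟩ := exists_rat_iso F₀ hf₀ [b] (Submodule.span F₀ {b}) ((finrank_span_singleton hb0).le.trans (by omega)) (by simp; omega)
  have hbd := hdp b (by simp)
  have hdb := swap_eq hf₀ hbd
  obtain ⟨a, ha, hap, hda⟩ := exists_rat_dual F₀ hf₀ [b] d (by rw [CfsgLib.OS29.span_list_single]; exact hdN) (by simp; omega)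
  have hba := hap b (by simp)
  obtain ⟨g, hg, hgx⟩ := hall c a b ha hb (swap_eq hf₀ hba)
  have hgi := D.hMi hg
  have h1 := ut_mem_conj hf hg hgi (D.c0 hd) (D.hM d δ hd hδ)
  rw [hgx, D.c1 hda, smul_right hf, D.c0 hdb, mul_zero, zero_smul, sub_zero, one_smul] at h1
  have h2 : SR f M (emb F₀ d) ((δ : F) • (c • emb F₀ b)) := (hall ((δ : F) * c) d b hd hb hdb).congr rfl (smul_smul _ _ _).symm
  have h3 := ut_right_mem hf (D.c0 hd) (by rw [hf.smul_left, smul_right hf, D.c0 hb]; ring) (by rw [smul_right hf, D.c0 hdb, mul_zero]) hδ' h2 (D.hM d δ hd hδ) h1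
  rw [ut_smul hf (D.c0 hb), hc, div_mul_cancel₀ _ hδF] at h3
  exact h3

theorem eich_rat [Finite F] (hall : ∀ (c : F) (a b : ι → F₀), f₀ a a = 0 → f₀ b b = 0 → f₀ a b = 0 → R F₀ f M a b c) {a : ι → F₀} (ha : f₀ a a = 0) {w : ι → F}
    (hw : f (emb F₀ a) w = 0) : ∃ μ, EI f M (emb F₀ a) w μ := by
  let A : Submodule F (ι → F) :=
    { carrier := {w | f (emb F₀ a) w = 0 ∧ ∀ c : F, ∃ μ, EI f M (emb F₀ a) (c • w) μ}
      add_mem' := by
        rintro w w' ⟨h1, h2⟩ ⟨h3, h4⟩
        refine ⟨by rw [add_right hf, h1, h3, add_zero], fun c => ?_⟩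
        obtain ⟨μ, hμ⟩ := h2 c
        obtain ⟨ν, hν⟩ := h4 c
        exact ⟨_, (EI.add hf hμ hν (D.c0 ha) (by rw [smul_right hf, h1, mul_zero]) (by rw [smul_right hf, h3, mul_zero])).congr rfl (smul_add _ _ _).symm rfl⟩
      zero_mem' := ⟨zero_right hf _, fun c => ⟨0, 1, M.one_mem, fun x => by
        rw [smul_zero, zero_right hf, Units.val_one, Matrix.one_mulVec]; simp⟩⟩
      smul_mem' := by
        rintro k w ⟨h1, h2⟩
        exact ⟨by rw [smul_right hf, h1, mul_zero], fun c => by rw [smul_smul]; exact h2 _⟩ }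
  have hA : ∀ y, f₀ y a = 0 → emb F₀ y ∈ A := by
    let A₀ : Submodule F₀ (ι → F₀) :=
      { carrier := {y | emb F₀ y ∈ A}
        add_mem' := fun {x y} hx hy => by
          change emb F₀ (x + y) ∈ A
          rw [emb_add]; exact A.add_mem hx hy
        zero_mem' := by
          change emb F₀ 0 ∈ A
          rw [emb_zero]; exact A.zero_mem
        smul_mem' := fun k x hx => by
          change emb F₀ (k • x) ∈ A
          rw [emb_smul]; exact A.smul_mem _ hx }
    intro y hy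
    have : y ∈ A₀ := by
      refine D.rich1 a A₀ ?_ y (swap_eq hf₀ hy)
      intro x hx hxx
      exact ⟨D.c0 hx, fun c => ⟨0, EI.of_SR (hall c a x ha hxx hx)⟩⟩
    exact this
  have h1 : w ∈ A := D.span_perp a A hA (swap_eq hf hw)
  obtain ⟨μ, hμ⟩ := h1.2 1
  exact ⟨μ, hμ.congr rfl (one_smul _ _) rfl⟩

theorem top_of_all [Finite F] (hall : ∀ (c : F) (a b : ι → F₀), f₀ a a = 0 → f₀ b b = 0 → f₀ a b = 0 → R F₀ f M a b c) : iso f ⊓ Geo.specialLinear ι F ≤ M := by
  have h13 := D.h13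
  refine (su_le_TG4 hf (by omega)).trans ((TG_le_iff hf ⊤ M).mpr fun x _ hxx => ?_)
  suffices h : UFull hf M x from h.2
  by_cases hx : ∃ a, f₀ a a = 0 ∧ f x (emb F₀ a) ≠ 0
  · obtain ⟨a, ha, hxa⟩ := hx
    have ha0 : a ≠ 0 := by rintro rfl; rw [emb_zero, zero_right hf] at hxa; exact hxa rfl
    have haa := D.c0 ha
    obtain ⟨a', ha', _, haa'⟩ := exists_rat_dual F₀ hf₀ [] a (by simpa using ha0) (by simp; omega)
    set k := f x (emb F₀ a) with hk
    set v' := k • emb F₀ a' with hv'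
    have hv'a : f v' (emb F₀ a) = k := by rw [hv', hf.smul_left, D.c1' haa', mul_one]
    have hv'F : UFull hf M v' := (D.full_rat hall ha').smul k
    set b := k⁻¹ • (x - v') with hb
    have hba : f b (emb F₀ a) = 0 := by rw [hb, hf.smul_left, sub_left hf, hv'a, ← hk, sub_self, mul_zero]
    have hab : f (emb F₀ a) b = 0 := swap_eq hf hba
    obtain ⟨μ, g, hg, hgx⟩ := D.eich_rat hall ha hab
    have h1 := hv'F.conj hg (D.hMi hg)
    rw [hgx, hv'a] at h1
    have e1 : v' + k • b = x := by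
      rw [hb, smul_smul, mul_inv_cancel₀ hxa, one_smul, add_sub_cancel]
    rw [e1] at h1
    set d := -(f v' b + μ * k) with hd
    have e2 : x - f v' b • emb F₀ a - (μ * k) • emb F₀ a = x + d • emb F₀ a := by rw [hd]; module
    rw [e2] at h1
    have h2 := h1.1
    have h3 : σ d * f x (emb F₀ a) + d * f (emb F₀ a) x = 0 := by
      rw [hf.add_left, add_right hf, add_right hf, hf.smul_left, hf.smul_left, smul_right hf, smul_right hf, haa, hxx] at h2
      linear_combination h2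
    have hax : f (emb F₀ a) x = σ k := hf.herm _ _
    have hax0 : σ k ≠ 0 := fun h => hxa ((map_eq_zero σ).mp h)
    have hc : σ (-d / k) = -(-d / k) := by
      rw [map_div₀, map_neg]
      rw [hax, ← hk] at h3
      field_simp
      linear_combination -h3
    have h4 := h1.conj ((D.full_rat hall ha).2 _ hc) (ut_mem_iso hf haa hc)
    rw [ut_mulVec hf haa, hf.add_left, hf.smul_left, haa, mul_zero, add_zero, ← hk, div_mul_cancel₀ _ hxa] at h4
    have h5 : x + d • emb F₀ a + -d • emb F₀ a = x := by module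
    rw [h5] at h4
    exact h4
  · push Not at hx
    have : x = 0 := by
      apply D.zero_of_rat
      intro y
      let A₀ : Submodule F₀ (ι → F₀) :=
        { carrier := {y | f (emb F₀ y) x = 0}
          add_mem' := fun {u v} hu hv => by
            change f (emb F₀ (u + v)) x = 0
            rw [emb_add, hf.add_left, hu, hv, add_zero]
          zero_mem' := by
            change f (emb F₀ 0) x = 0
            rw [emb_zero, zero_left hf]
          smul_mem' := fun k u hu => by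
            change f (emb F₀ (k • u)) x = 0
            rw [emb_smul, hf.smul_left, hu, mul_zero] }
      have : y ∈ A₀ := D.rich0 A₀ (fun y hy => swap_eq hf (hx y hy)) y
      exact this
    rw [this, ← emb_zero F₀]
    exact D.full_rat hall (zero_left hf₀ _)

end Ud

theorem unF_maximal0 [Finite F] (hf : Geo.IsUnitaryForm σ f) (hf₀ : Geo.IsUnitaryForm σ₀ f₀) (hc : ∀ x y, f (emb F₀ x) (emb F₀ y) = (f₀ x y : F))
    (hσ : ∀ l : F₀, σ l = (σ₀ l : F)) (h13 : 13 ≤ Fintype.card ι) (hr : (Module.finrank F₀ F).Prime) :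
    Geo.IsMaximalIn (iso f ⊓ Geo.specialLinear ι F) (((Matrix.GeneralLinearGroup.map (n := ι) (F₀.subtype : F₀ →+* F)).range ⊔ Geo.scalars ι F) ⊓ (iso f ⊓ Geo.specialLinear ι F)) := by
  have hrt : ∀ (a : ι → F₀) (l : F₀), f₀ a a = 0 → σ₀ l = -l →
      ut hf (emb F₀ a) (l : F) ∈ ((Matrix.GeneralLinearGroup.map (n := ι) (F₀.subtype : F₀ →+* F)).range ⊔ Geo.scalars ι F) ⊓ (iso f ⊓ Geo.specialLinear ι F) := by
    intro a l ha hl
    have haa := comp0 F₀ hc ha
    refine ⟨(mem_rational_iff F₀ _).mpr ⟨1, one_ne_zero, fun x => ⟨x + (l * f₀ x a) • a, ?_⟩⟩, ut_mem_iso hf haa (by rw [hσ, hl]; rfl), ut_mem_special hf _ _⟩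
    rw [one_smul, ut_mulVec hf haa, hc]
    rfl
  refine ⟨⟨inf_le_right, fun hle => ?_⟩, fun M hHM hMK => ?_⟩
  · obtain ⟨c, hcF⟩ : ∃ c : F, c ∉ F₀ := by
      by_contra hcon
      push Not at hcon
      have h2 : Module.finrank F₀ F ≤ 1 := by
        apply finrank_le_one (1 : F)
        intro w
        exact ⟨⟨w, hcon w⟩, by rw [Subfield.smul_def]; simp⟩
      have := hr.two_le
      omega
    obtain ⟨a, ha, _, haN⟩ := exists_rat_iso F₀ hf₀ [] ⊥ (by simp) (by simp; omega)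
    have ha0 : a ≠ 0 := fun h => haN (by rw [h]; exact Submodule.zero_mem _)
    obtain ⟨b, hb, hbp, hbN⟩ := exists_rat_iso F₀ hf₀ [a] (Submodule.span F₀ {a}) ((finrank_span_singleton ha0).le.trans (by omega)) (by simp; omega)
    have hab := hbp a (by simp)
    have hb0 : b ≠ 0 := fun h => hbN (by rw [h]; exact Submodule.zero_mem _)
    obtain ⟨z, hz, hzp, haz⟩ := exists_rat_dual F₀ hf₀ [b] a (by rw [CfsgLib.OS29.span_list_single]; exact notMem_span_symm ha0 hbN) (by simp; omega)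
    have hbz := hzp b (by simp)
    have haa := comp0 F₀ hc ha
    have hbb := comp0 F₀ hc hb
    have hab' := comp0 F₀ hc hab
    obtain ⟨g, hg, hgx⟩ := exists_sr hf (Submodule.mem_top (x := emb F₀ a)) (Submodule.mem_top (x := emb F₀ b)) haa hbb hab' c
    have hgK : g ∈ iso f ⊓ Geo.specialLinear ι F := ⟨TG_le_iso hf ⊤ hg, TG_le_special hf ⊤ hg⟩
    have h1 := hle hgK
    obtain ⟨d, hd0, hd⟩ := (mem_rational_iff F₀ _).mp h1.1
    obtain ⟨y1, hy1⟩ := hd a
    obtain ⟨y2, hy2⟩ := hd z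
    have hza : f (emb F₀ z) (emb F₀ a) = 1 := by rw [hf.herm, comp1 F₀ hc haz, map_one]
    have hzb : f (emb F₀ z) (emb F₀ b) = 0 := swap_eq hf (comp0 F₀ hc hbz)
    rw [hgx, haa, hab', mul_zero, mul_zero, zero_smul, zero_smul, add_zero, sub_zero] at hy1
    rw [hgx, hza, hzb, mul_zero, zero_smul, sub_zero, mul_one] at hy2
    obtain ⟨i, hi⟩ := Function.ne_iff.mp ha0
    obtain ⟨j, hj⟩ := Function.ne_iff.mp hb0
    have hi' : (a i : F) ≠ 0 := fun h => hi (Subtype.ext h)
    have hj' : (b j : F) ≠ 0 := fun h => hj (Subtype.ext h)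
    have e1 : d * (a i : F) = (y1 i : F) := congrFun hy1 i
    have e2 : d * ((z j : F) + c * (b j : F)) = (y2 j : F) := congrFun hy2 j
    have e3 : d = (y1 i : F) / (a i : F) := by rw [← e1]; field_simp
    have hdF : d ∈ F₀ := by rw [e3]; exact F₀.div_mem (y1 i).2 (a i).2
    apply hcF
    have e4 : c = ((y2 j : F) / d - (z j : F)) / (b j : F) := by
      rw [← e2]; field_simp; ring
    rw [e4]
    exact F₀.div_mem (F₀.sub_mem (F₀.div_mem (y2 j).2 hdF) (z j).2) (b j).2
  · haveI := Subalgebra.isSimpleOrder_of_finrank_prime F₀ F hr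
    have D : Ud hf hf₀ M := ⟨hc, hσ, fun a l ha hl => hHM (hrt a l ha hl), hMK.trans inf_le_left, h13⟩
    rcases eq_bot_or_eq_top (coefU F₀ hf hf₀ hc hσ M D.hM D.n11) with h | h
    · left
      have D' : Ug hf hf₀ M := ⟨D, fun c hc' => by
        have h1 : c ∈ coefU F₀ hf hf₀ hc hσ M D.hM D.n11 := hc'
        rw [h, Algebra.mem_bot] at h1
        obtain ⟨x, hx⟩ := h1
        rw [← hx]; exact x.2⟩
      refine le_antisymm (fun g hg => ⟨?_, hMK hg⟩) hHM
      exact (mem_rational_iff F₀ g).mpr (D'.all_rat_u hr hg)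
    · right
      refine le_antisymm hMK (D.top_of_all ?_)
      intro c a b ha hb hab
      have : c ∈ coefU F₀ hf hf₀ hc hσ M D.hM D.n11 := by rw [h]; exact Algebra.mem_top
      exact this a b ha hb hab

theorem unF_maximal [Finite F] (hf : Geo.IsUnitaryForm σ f) (hσF : ∀ l ∈ F₀, σ l ∈ F₀) (hne : ∃ l ∈ F₀, σ l ≠ l) (h13 : 13 ≤ Fintype.card ι) (hr : (Module.finrank F₀ F).Prime)
    (P : GL ι F) (hP : Geo.IsFormRationalStructure f F₀ 1 P) :
    Geo.IsMaximalIn (iso f ⊓ Geo.specialLinear ι F) (Geo.subfieldSubgroup F₀ P ⊓ (iso f ⊓ Geo.specialLinear ι F)) := by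
  apply maximal_pull
  have hf' := pull_unitary hf P
  let σ₀ : F₀ ≃+* F₀ :=
    { toFun := fun l => ⟨σ l, hσF l l.2⟩
      invFun := fun l => ⟨σ l, hσF l l.2⟩
      left_inv := fun l => Subtype.ext (hf.involutive l)
      right_inv := fun l => Subtype.ext (hf.involutive l)
      map_mul' := fun a b => Subtype.ext (map_mul σ (a : F) b)
      map_add' := fun a b => Subtype.ext (map_add σ (a : F) b) }
  let f₀ : (ι → F₀) → (ι → F₀) → F₀ := fun x y => ⟨f ((P : Matrix ι ι F) *ᵥ emb F₀ x) ((P : Matrix ι ι F) *ᵥ emb F₀ y), by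
    have := hP _ _ (fun i => (x i).2) (fun i => (y i).2)
    rw [one_mul] at this
    exact this⟩
  have hc : ∀ x y, (fun x y => f ((P : Matrix ι ι F) *ᵥ x) ((P : Matrix ι ι F) *ᵥ y)) (emb F₀ x) (emb F₀ y) = (f₀ x y : F) := fun _ _ => rfl
  have hherm : ∀ v w, f₀ v w = σ₀ (f₀ w v) := fun v w => Subtype.ext (hf'.herm _ _)
  have hnd : ∀ v : ι → F₀, v ≠ 0 → ∃ x, f₀ x v ≠ 0 := by
    intro v hv
    by_contra hcon
    push Not at hcon
    obtain ⟨⟨y, hy⟩, _⟩ := hf'.nondegenerate _ (emb_ne_zero F₀ hv)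
    apply hy
    have h1 : fd hf' (emb F₀ v) y = 0 := by
      rw [CfsgLib.OS29.rational_span (F₀ := F₀) y, map_sum]
      apply Finset.sum_eq_zero
      intro i _
      rw [map_smul, fd_apply]
      have h0 : f ((P : Matrix ι ι F) *ᵥ emb F₀ (Pi.single i 1)) ((P : Matrix ι ι F) *ᵥ emb F₀ v) = 0 := congrArg Subtype.val (hcon (Pi.single i 1))
      rw [h0, smul_zero]
    exact h1
  have hf₀ : Geo.IsUnitaryForm σ₀ f₀ := by
    refine ⟨?_, fun a => Subtype.ext (hf.involutive a), ?_, ?_, hherm, ?_⟩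
    · intro h
      obtain ⟨l, hl, hne'⟩ := hne
      apply hne'
      have h1 : σ₀ ⟨l, hl⟩ = ⟨l, hl⟩ := by rw [h]; rfl
      exact congrArg Subtype.val h1
    · intro x y v; exact Subtype.ext (hf'.add_left _ _ _)
    · intro c x v; exact Subtype.ext (hf'.smul_left _ _ _)
    · intro v hv
      obtain ⟨x, hx⟩ := hnd v hv
      refine ⟨⟨x, hx⟩, ⟨x, ?_⟩⟩
      intro h
      apply hx
      rw [hherm, h, map_zero]
  exact unF_maximal0 hf' hf₀ hc (fun l => rfl) h13 hr

/-- the subfield of odd degree is not fixed by the involution -/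
theorem exists_not_fixed {F : Type*} [Field F] [Fintype F] {q : ℕ} (hF : Fintype.card F = q ^ 2) (F₀ : Subfield F) {r : ℕ} (hro : Odd r)
    (hcard : Fintype.card F = Nat.card F₀ ^ r) : ∃ l ∈ F₀, l ^ q ≠ l := by
  by_contra hcon
  push Not at hcon
  haveI : Fintype F₀ := Fintype.ofFinite F₀
  obtain ⟨s, hs⟩ := hro
  set Q0 := Nat.card F₀ with hQ0
  have hQ2 : 2 ≤ Q0 := by rw [hQ0, Nat.card_eq_fintype_card]; exact Fintype.one_lt_card
  have e1 : q ^ 2 = Q0 ^ (2 * s + 1) := by rw [← hF, hcard, hs]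
  have h1 : (Q0 ^ s) ^ 2 ∣ q ^ 2 := by rw [e1, ← pow_mul, mul_comm s 2]; exact pow_dvd_pow _ (by omega)
  obtain ⟨t, ht⟩ := (Nat.pow_dvd_pow_iff two_ne_zero).mp h1
  have h2 : t ^ 2 = Q0 := by
    have h3 : (Q0 ^ s) ^ 2 * t ^ 2 = (Q0 ^ s) ^ 2 * Q0 := by rw [← mul_pow, ← ht, e1, pow_succ, ← pow_mul, mul_comm s 2]
    exact Nat.eq_of_mul_eq_mul_left (pow_pos (pow_pos (by omega) _) _) h3
  have ht2 : 2 ≤ t := by
    by_contra h
    have : t ^ 2 ≤ 1 := by
      have : t ≤ 1 := by omega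
      exact (Nat.pow_le_pow_left this 2).trans (by norm_num)
    omega
  -- on F₀ the q-power map is the t-power map
  have hpow : ∀ (l : F₀) (j : ℕ), l ^ (Q0 ^ j) = l := by
    intro l j
    induction j with
    | zero => simp
    | succ j ih =>
      rw [pow_succ, pow_mul, ih]
      have := FiniteField.pow_card l
      rwa [← Nat.card_eq_fintype_card] at this
  have h4 : ∀ l : F₀, l ^ t = l := by
    intro l
    have h5 := hcon l l.2
    have h6 : l ^ q = l := Subtype.ext h5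
    rw [ht, pow_mul, hpow] at h6
    exact h6
  have h5 : Fintype.card F₀ ≤ t := by
    classical
    have hne : (Polynomial.X ^ t - Polynomial.X : Polynomial F₀) ≠ 0 := FiniteField.X_pow_card_sub_X_ne_zero F₀ ht2
    have h3 : (Finset.univ : Finset F₀) ⊆ (Polynomial.X ^ t - Polynomial.X : Polynomial F₀).roots.toFinset := by
      intro x _
      rw [Multiset.mem_toFinset, Polynomial.mem_roots hne, Polynomial.IsRoot.def]
      simp [h4 x]
    have h4 := Finset.card_le_card h3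
    have h5 := (Multiset.toFinset_card_le _).trans (Polynomial.card_roots' (Polynomial.X ^ t - Polynomial.X : Polynomial F₀))
    rw [FiniteField.X_pow_card_sub_X_natDegree_eq F₀ ht2] at h5
    exact h4.trans h5
  rw [← Nat.card_eq_fintype_card, ← hQ0, ← h2] at h5
  nlinarith

end CfsgLib.UnF29
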