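import Cfsg.Agent.LibUnSub29

/-! Overgroups of Sp_n(q) in SU_n(q). -/

namespace CfsgLib.UnSp29

open scoped MatrixGroups Matrix
open Cfsg CfsgLib.MaxTv29 CfsgLib.Subfield29 CfsgLib.Un29

variable {ι : Type} [Fintype ι] [DecidableEq ι] {F : Type*} [Field F] {σ : F ≃+* F}
variable {f : (ι → F) → (ι → F) → F} (F₀ : Subfield F) {f₀ : (ι → F₀) → (ι → F₀) → F₀}

/-- rational short root elements in `M` -/
def R (f : (ι → F) → (ι → F) → F) (M : Subgroup (GL ι F)) (ζ : F) (a b : ι → F₀) (c : F) : Prop :=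
  SR f M (emb F₀ a) ((ζ * c) • emb F₀ b)

section rs
variable (hf : Geo.IsUnitaryForm σ f) (hf₀ : Geo.IsSymplecticForm f₀) {ζ : F} (hζ0 : ζ ≠ 0) (hζ : σ ζ = -ζ)
  (hc : ∀ x y, ζ * f (emb F₀ x) (emb F₀ y) = (f₀ x y : F)) {M : Subgroup (GL ι F)}

include hζ0 hc in
omit [DecidableEq ι] [Fintype ι] in
theorem comp0 {x y : ι → F₀} (h : f₀ x y = 0) : f (emb F₀ x) (emb F₀ y) = 0 := by
  have h1 := hc x y
  rw [h] at h1
  exact (mul_eq_zero.mp h1).resolve_left hζ0

include hζ0 hc hf₀ in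
omit [DecidableEq ι] in
theorem rat_iso [DecidableEq ι] (x : ι → F₀) : f (emb F₀ x) (emb F₀ x) = 0 := comp0 F₀ hζ0 hc (hf₀.alternating x)

variable (hfix : ∀ l : F₀, σ l = l) (hM : ∀ (a : ι → F₀) (l : F₀), ut hf (emb F₀ a) (ζ * l) ∈ M)

include hf hf₀ hζ0 hζ hc hM in
theorem R.of_rat {a b : ι → F₀} (h0 : f₀ a b = 0) (l : F₀) : R F₀ f M ζ a b (l : F) := by
  have h1 := hM (a + l • b) 1
  have h2 := hM a 1
  have h3 := hM (l • b) 1
  rw [emb_add, OneMemClass.coe_one, mul_one] at h1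
  rw [OneMemClass.coe_one, mul_one] at h2 h3
  have h4 := SR.of_ut hf (rat_iso F₀ hf₀ hζ0 hc a) (rat_iso F₀ hf₀ hζ0 hc (l • b))
    (comp0 F₀ hζ0 hc (by rw [hf₀.bilinear.smul_right, h0, mul_zero])) hζ h1 h2 h3
  exact h4.congr rfl (by rw [emb_smul, smul_smul])

include hf hf₀ hζ0 hζ hc in
theorem R.comm {a b : ι → F₀} (h0 : f₀ a b = 0) {c : F} (h : R F₀ f M ζ a b c) : R F₀ f M ζ b a (σ c) := by
  have e0 := comp0 F₀ hζ0 hc h0
  have ea := rat_iso F₀ hf₀ hζ0 hc a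
  have eb := rat_iso F₀ hf₀ hζ0 hc b
  have h1 := (SR.symm hf h ea (by rw [hf.smul_left, smul_right hf, eb]; ring) (by rw [smul_right hf, e0, mul_zero])).smul_swap hf
  have h2 := h1.neg hf eb (by rw [hf.smul_left, smul_right hf, ea]; ring) (by rw [smul_right hf, swap_eq hf e0, mul_zero])
  exact h2.congr rfl (by rw [map_mul, hζ]; module)

include hf hf₀ hζ0 hζ hc hM in
theorem R.step {a b e : ι → F₀} (h0 : f₀ a b = 0) {c : F} (h : R F₀ f M ζ a b c) (hae : f₀ a e = 0) (hbe : f₀ b e = 0)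
    (hb : b ∉ Submodule.span F₀ {a, e}) : R F₀ f M ζ a e c := by
  obtain ⟨d, hd1, hd2⟩ := CfsgLib.SpSub29.exists_dualv hf₀ [a, e] b (by rw [CfsgLib.SpSub29.span_list_pair]; exact hb)
  have hda := hd2 a (by simp)
  have hde := hd2 e (by simp)
  obtain ⟨g, hg, hgx⟩ := R.of_rat F₀ hf hf₀ hζ0 hζ hc hM (CfsgLib.SympTv29.swap_eq hf₀ hde) 1
  have ed := comp0 F₀ hζ0 hc (CfsgLib.SympTv29.swap_eq hf₀ hde)
  have hgi : g ∈ iso f := sr_mem_iso hf (rat_iso F₀ hf₀ hζ0 hc d) (by rw [hf.smul_left, smul_right hf, rat_iso F₀ hf₀ hζ0 hc e]; ring)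
    (by rw [smul_right hf, ed, mul_zero]) hgx
  have h1 := SR.conj hf h hg hgi
  have hx : ∀ x : ι → F₀, (g : Matrix ι ι F) *ᵥ emb F₀ x = emb F₀ x + (f₀ x d : F) • emb F₀ e + (f₀ x e : F) • emb F₀ d := by
    intro x
    rw [hgx, smul_right hf, OneMemClass.coe_one, mul_one, hζ, ← hc, ← hc]
    module
  rw [Matrix.mulVec_smul, hx a, hx b, hda, hae, hd1, hbe] at h1
  simp only [OneMemClass.coe_one, ZeroMemClass.coe_zero, one_smul, zero_smul, add_zero, smul_add] at h1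
  exact SR.sub hf h1 h (rat_iso F₀ hf₀ hζ0 hc a) (by rw [hf.smul_left, smul_right hf, rat_iso F₀ hf₀ hζ0 hc b]; ring)
    (by rw [smul_right hf, comp0 F₀ hζ0 hc h0, mul_zero]) (by rw [smul_right hf, comp0 F₀ hζ0 hc hae, mul_zero])
    (by rw [hf.smul_left, smul_right hf, comp0 F₀ hζ0 hc hbe]; ring)

include hf hf₀ hζ0 hζ hc hM in
theorem R.all (hn : 7 ≤ Fintype.card ι) {a b : ι → F₀} (h0 : f₀ a b = 0) {c : F} (h : R F₀ f M ζ a b c) (hab : b ∉ Submodule.span F₀ {a}) (ha : a ≠ 0)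
    {a' b' : ι → F₀} (h0' : f₀ a' b' = 0) : R F₀ f M ζ a' b' c := by
  obtain ⟨e, he, he1, he2⟩ := CfsgLib.SpSub29.exists_perp_avoid hf₀ [a, b, a', b'] (Submodule.span F₀ {a, b}) (Submodule.span F₀ {a', b'})
    (CfsgLib.SpSub29.finrank_pair_le _ _) (CfsgLib.SpSub29.finrank_pair_le _ _) (by simp; omega)
  obtain ⟨e', he', he1', he2'⟩ := CfsgLib.SpSub29.exists_perp_avoid hf₀ [a, a', b', e] (Submodule.span F₀ {e, a}) (Submodule.span F₀ {e, a'})
    (CfsgLib.SpSub29.finrank_pair_le _ _) (CfsgLib.SpSub29.finrank_pair_le _ _) (by simp; omega)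
  have e1 := he a (by simp)
  have e2 := he b (by simp)
  have e3 := he a' (by simp)
  have e4 := he b' (by simp)
  have e5 := he' a (by simp)
  have e6 := he' a' (by simp)
  have e8 := he' e (by simp)
  have he0 : e ≠ 0 := by rintro rfl; exact he1 (Submodule.zero_mem _)
  have s1 : R F₀ f M ζ a e c := R.step F₀ hf hf₀ hζ0 hζ hc hM h0 h e1 e2 (CfsgLib.SpSub29.notMem_pair hab he1)
  have s2 : R F₀ f M ζ e a (σ c) := R.comm F₀ hf hf₀ hζ0 hζ hc e1 s1
  have s3 : R F₀ f M ζ e e' (σ c) := by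
    refine R.step F₀ hf hf₀ hζ0 hζ hc hM (CfsgLib.SympTv29.swap_eq hf₀ e1) s2 e8 e5 (CfsgLib.SpSub29.notMem_pair ?_ he1')
    intro hcon
    obtain ⟨k, hk⟩ := Submodule.mem_span_singleton.mp hcon
    have hk0 : k ≠ 0 := by rintro rfl; rw [zero_smul] at hk; exact ha hk.symm
    apply he1
    rw [Submodule.mem_span_pair]
    exact ⟨k⁻¹, 0, by rw [← hk, smul_smul, inv_mul_cancel₀ hk0]; simp⟩
  have s4 : R F₀ f M ζ e a' (σ c) :=
    R.step F₀ hf hf₀ hζ0 hζ hc hM e8 s3 (CfsgLib.SympTv29.swap_eq hf₀ e3) (CfsgLib.SympTv29.swap_eq hf₀ e6) he2'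
  have s5 : R F₀ f M ζ a' e c := by
    have := R.comm F₀ hf hf₀ hζ0 hζ hc (CfsgLib.SympTv29.swap_eq hf₀ e3) s4
    rwa [hf.involutive] at this
  exact R.step F₀ hf hf₀ hζ0 hζ hc hM e3 s5 h0' (CfsgLib.SympTv29.swap_eq hf₀ e4) he2

variable (hfin : Module.finrank F₀ F = 2)

include hfin in
theorem exists_coords {w : F} (hw : w ∉ F₀) (c : F) : ∃ l m : F₀, c = (l : F) + m * w := by
  haveI : Module.Finite F₀ F := Module.finite_of_finrank_pos (by omega)
  have hli : LinearIndependent F₀ ![(1 : F), w] := by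
    rw [LinearIndependent.pair_iff]
    intro s t hst
    have h1 : (s : F) + t * w = 0 := by
      have : (s : F) * 1 + (t : F) * w = 0 := hst
      rwa [mul_one] at this
    by_cases ht : t = 0
    · subst ht
      simp at h1
      exact ⟨h1, rfl⟩
    · exfalso
      apply hw
      have ht' : (t : F) ≠ 0 := fun h => ht (Subtype.ext h)
      have : w = -(s : F) / t := by field_simp; linear_combination h1
      rw [this]
      exact F₀.div_mem (F₀.neg_mem s.2) t.2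
  have hspan : Submodule.span F₀ (Set.range ![(1 : F), w]) = ⊤ :=
    hli.span_eq_top_of_card_eq_finrank (by rw [hfin]; simp)
  have h1 : c ∈ Submodule.span F₀ (Set.range ![(1 : F), w]) := by rw [hspan]; exact Submodule.mem_top
  rw [Matrix.range_cons, Matrix.range_cons, Matrix.range_empty, Set.union_empty] at h1
  have h2 : c ∈ Submodule.span F₀ {(1 : F), w} := by
    have : ({(1 : F)} ∪ {w} : Set F) = {1, w} := by ext x; simp [or_comm]
    rwa [this] at h1
  obtain ⟨l, m, h3⟩ := Submodule.mem_span_pair.mp h2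
  refine ⟨l, m, ?_⟩
  rw [← h3, Subfield.smul_def, Subfield.smul_def, smul_eq_mul, smul_eq_mul, mul_one]

include hfin in
theorem exists_vec_coords {w : F} (hw : w ∉ F₀) (v : ι → F) : ∃ x y : ι → F₀, v = emb F₀ x + w • emb F₀ y := by
  choose x y h using fun i => exists_coords F₀ hfin hw (v i)
  refine ⟨x, y, ?_⟩
  funext i
  rw [h i]
  change _ = (x i : F) + w * (y i : F)
  ring

include hf hf₀ hζ0 hζ hc hM hfin in
theorem R.everything (hn : 7 ≤ Fintype.card ι) {a b : ι → F₀} (h0 : f₀ a b = 0) {w : F} (hw : w ∉ F₀) (h : R F₀ f M ζ a b w)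
    (hab : b ∉ Submodule.span F₀ {a}) (ha : a ≠ 0) {a' b' : ι → F₀} (h0' : f₀ a' b' = 0) (c : F) : R F₀ f M ζ a' b' c := by
  obtain ⟨l, m, rfl⟩ := exists_coords F₀ hfin hw c
  have h1 := R.of_rat F₀ hf hf₀ hζ0 hζ hc hM h0' l
  have h2 := R.all F₀ hf hf₀ hζ0 hζ hc hM hn h0 h hab ha (a' := a') (b' := m • b') (by rw [hf₀.bilinear.smul_right, h0', mul_zero])
  have e0 := comp0 F₀ hζ0 hc h0'
  have eb := rat_iso F₀ hf₀ hζ0 hc b'
  have h3 := SR.add hf h1 h2 (rat_iso F₀ hf₀ hζ0 hc a') (by rw [smul_right hf, e0, mul_zero])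
    (by rw [emb_smul, smul_right hf, smul_right hf, e0]; ring) (by rw [emb_smul, hf.smul_left, smul_right hf, smul_right hf, eb]; ring)
  exact h3.congr rfl (by rw [emb_smul]; module)

include hf hf₀ hζ0 hζ hc hfix in
theorem orth_of_iso {w : F} (hw : σ w ≠ w) {x y : ι → F₀} (h : f (emb F₀ x + w • emb F₀ y) (emb F₀ x + w • emb F₀ y) = 0) : f₀ x y = 0 := by
  rw [hf.add_left, add_right hf, add_right hf, hf.smul_left, hf.smul_left, smul_right hf, smul_right hf, rat_iso F₀ hf₀ hζ0 hc, rat_iso F₀ hf₀ hζ0 hc] at h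
  have h1 := hc x y
  have h2 := hc y x
  rw [hf₀.skew y x] at h2
  push_cast at h2
  have h3 : (σ w - w) * (f₀ x y : F) = 0 := by
    linear_combination ζ * h - σ w * h1 - w * h2
  have h4 := (mul_eq_zero.mp h3).resolve_left (sub_ne_zero.mpr hw)
  exact Subtype.ext h4

include hf hf₀ hζ0 hζ hc hM hfin hfix in
theorem TG_le_of (hn : 7 ≤ Fintype.card ι) (hfix' : ∀ c : F, σ c = c → c ∈ F₀) {a b : ι → F₀} (h0 : f₀ a b = 0) {w : F} (hw : w ∉ F₀) (h : R F₀ f M ζ a b w)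
    (hab : b ∉ Submodule.span F₀ {a}) (ha : a ≠ 0) : TG hf ⊤ ≤ M := by
  rw [TG_le_iff]
  intro v _ hv c hcs
  have hσw : σ w ≠ w := fun h => hw (hfix' w h)
  -- scalar multiples of rational vectors
  have hrat : ∀ (x : ι → F₀) (κ c : F), σ c = -c → ut hf (κ • emb F₀ x) c ∈ M := by
    intro x κ c hcs
    rw [ut_smul hf (rat_iso F₀ hf₀ hζ0 hc x)]
    have h1 : (κ * σ κ * c) / ζ ∈ F₀ := by
      apply hfix'
      rw [map_div₀, map_mul, map_mul, hf.involutive, hcs, hζ]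
      field_simp
    have h2 := hM x ⟨_, h1⟩
    have h3 : ζ * ((⟨κ * σ κ * c / ζ, h1⟩ : F₀) : F) = κ * σ κ * c := by
      change ζ * (κ * σ κ * c / ζ) = _
      field_simp
    rwa [h3] at h2
  obtain ⟨x, y, rfl⟩ := exists_vec_coords F₀ hfin hw v
  have hxy := orth_of_iso F₀ hf hf₀ hζ0 hζ hc hfix hσw hv
  by_cases hxs : x ∈ Submodule.span F₀ {y}
  · obtain ⟨k, rfl⟩ := Submodule.mem_span_singleton.mp hxs
    have : emb F₀ (k • y) + w • emb F₀ y = ((k : F) + w) • emb F₀ y := by rw [emb_smul]; module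
    rw [this]
    exact hrat y _ c hcs
  · obtain ⟨z, hz1, hz2⟩ := CfsgLib.SpSub29.exists_dualv hf₀ [y] x (by
      have : Submodule.span F₀ {x | x ∈ [y]} = Submodule.span F₀ {y} := by congr 1; ext x; simp
      rw [this]; exact hxs)
    have hyz := hz2 y (by simp)
    obtain ⟨g, hg, hgx⟩ := R.everything F₀ hf hf₀ hζ0 hζ hc hM hfin hn h0 hw h hab ha (CfsgLib.SympTv29.swap_eq hf₀ hyz) w
    have hgi : g ∈ iso f := sr_mem_iso hf (rat_iso F₀ hf₀ hζ0 hc z) (by rw [hf.smul_left, smul_right hf, rat_iso F₀ hf₀ hζ0 hc y]; ring)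
      (by rw [smul_right hf, comp0 F₀ hζ0 hc (CfsgLib.SympTv29.swap_eq hf₀ hyz), mul_zero]) hgx
    have h1 := ut_mem_conj hf hg hgi (v := emb F₀ x) (rat_iso F₀ hf₀ hζ0 hc x) (c := c) (by
      have := hrat x 1 c hcs
      rwa [one_smul] at this)
    rw [hgx, smul_right hf, comp0 F₀ hζ0 hc hxy, mul_zero, zero_smul, sub_zero, smul_smul] at h1
    have e : f (emb F₀ x) (emb F₀ z) * (ζ * w) = w := by
      have := hc x z
      rw [hz1, OneMemClass.coe_one] at this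
      linear_combination w * this
    rwa [e] at h1

end rs

/-- maximality of the symplectic subfield subgroup in the special unitary group -/
theorem unsp_maximal [Finite F] (hf : Geo.IsUnitaryForm σ f) (hf₀ : Geo.IsSymplecticForm f₀) {ζ : F} (hζ0 : ζ ≠ 0) (hζ : σ ζ = -ζ)
    (hc : ∀ x y, ζ * f (emb F₀ x) (emb F₀ y) = (f₀ x y : F)) (hfix : ∀ l : F₀, σ l = l) (hfix' : ∀ c : F, σ c = c → c ∈ F₀)
    (hfin : Module.finrank F₀ F = 2) (hn : 7 ≤ Fintype.card ι) :
    Geo.IsMaximalIn (iso f ⊓ Geo.specialLinear ι F)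
      (((Matrix.GeneralLinearGroup.map (n := ι) (F₀.subtype : F₀ →+* F)).range ⊔ Geo.scalars ι F) ⊓ (iso f ⊓ Geo.specialLinear ι F)) := by
  have hri := rat_iso F₀ hf₀ hζ0 hc
  obtain ⟨w, hσw⟩ := exists_moved hf
  have hw : w ∉ F₀ := fun h => hσw (hfix ⟨w, h⟩)
  have hrt : ∀ (a : ι → F₀) (l : F₀), ut hf (emb F₀ a) (ζ * l) ∈
      ((Matrix.GeneralLinearGroup.map (n := ι) (F₀.subtype : F₀ →+* F)).range ⊔ Geo.scalars ι F) ⊓ (iso f ⊓ Geo.specialLinear ι F) := by
    intro a l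
    refine ⟨(mem_rational_iff F₀ _).mpr ⟨1, one_ne_zero, fun x => ⟨x + (l * f₀ x a) • a, ?_⟩⟩, ut_mem_iso hf (hri a) ?_, ut_mem_special hf _ _⟩
    · rw [one_smul, ut_mulVec hf (hri a)]
      have : ζ * (l : F) * f (emb F₀ x) (emb F₀ a) = ((l * f₀ x a : F₀) : F) := by
        push_cast
        rw [← hc]; ring
      rw [this]; rfl
    · rw [map_mul, hζ, hfix]; ring
  refine ⟨⟨inf_le_right, fun hle => ?_⟩, fun M hHM hMK => ?_⟩
  · -- a non-rational element
    obtain ⟨y, _, hy, _⟩ := CfsgLib.SpSub29.exists_perp_avoid hf₀ [] ⊥ ⊥ (by simp) (by simp) (by simp; omega)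
    have hy0 : y ≠ 0 := fun h => hy (by rw [h]; exact Submodule.zero_mem _)
    obtain ⟨z, hz, hz1, _⟩ := CfsgLib.SpSub29.exists_perp_avoid hf₀ [y] (Submodule.span F₀ {y, y}) ⊥ (CfsgLib.SpSub29.finrank_pair_le _ _) (by simp) (by simp; omega)
    have hyz := hz y (by simp)
    rw [Set.pair_eq_singleton] at hz1
    obtain ⟨x, hx1, hx2⟩ := CfsgLib.SpSub29.exists_dualv hf₀ [y] z (by
      have : Submodule.span F₀ {x | x ∈ [y]} = Submodule.span F₀ {y} := by congr 1; ext x; simp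
      rw [this]; exact hz1)
    have hyx := hx2 y (by simp)
    have hzy := CfsgLib.SympTv29.swap_eq hf₀ hyz
    have e1 := comp0 F₀ hζ0 hc hzy
    obtain ⟨g, hg, hgx⟩ := SR.of_TG hf (U := ⊤) (a := emb F₀ z) (b := (ζ * w) • emb F₀ y) Submodule.mem_top Submodule.mem_top (hri z)
      (by rw [hf.smul_left, smul_right hf, hri]; ring) (by rw [smul_right hf, e1, mul_zero])
    have h1 := hle ⟨TG_le_iso hf ⊤ hg, TG_le_special hf ⊤ hg⟩
    obtain ⟨d, hd0, hd⟩ := (mem_rational_iff F₀ _).mp h1.1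
    obtain ⟨y1, hy1⟩ := hd y
    obtain ⟨x1, hx1'⟩ := hd x
    rw [hgx, smul_right hf, hri, comp0 F₀ hζ0 hc hyz, mul_zero, zero_smul, zero_smul, add_zero, sub_zero] at hy1
    rw [hgx, smul_right hf, comp0 F₀ hζ0 hc (CfsgLib.SympTv29.swap_eq hf₀ hyx), mul_zero, zero_smul, sub_zero, smul_smul] at hx1'
    have e2 : f (emb F₀ x) (emb F₀ z) * (ζ * w) = - w := by
      have := hc x z
      rw [hf₀.skew, hx1] at this
      push_cast at this
      linear_combination w * this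
    rw [e2] at hx1'
    obtain ⟨i, hi⟩ := Function.ne_iff.mp hy0
    have hi' : (y i : F) ≠ 0 := fun h => hi (Subtype.ext h)
    have c1 : d * (y i : F) = (y1 i : F) := congrFun hy1 i
    have c2 : d * ((x i : F) + (-w) * (y i : F)) = (x1 i : F) := congrFun hx1' i
    have hdF : d ∈ F₀ := by
      have : d = (y1 i : F) / (y i : F) := by rw [← c1]; field_simp
      rw [this]; exact F₀.div_mem (y1 i).2 (y i).2
    apply hw
    have : w = ((x i : F) - (x1 i : F) / d) / (y i : F) := by rw [← c2]; field_simp; ring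
    rw [this]
    exact F₀.div_mem (F₀.sub_mem (x i).2 (F₀.div_mem (x1 i).2 hdF)) (y i).2
  · have hM : ∀ (a : ι → F₀) (l : F₀), ut hf (emb F₀ a) (ζ * l) ∈ M := fun a l => hHM (hrt a l)
    by_cases hall : ∀ g ∈ M, Rat F₀ g
    · left
      exact le_antisymm (fun g hg => ⟨(mem_rational_iff F₀ g).mpr (hall g hg), hMK hg⟩) hHM
    right
    push Not at hall
    obtain ⟨g, hg, hgr⟩ := hall
    have hgi := (hMK hg).1
    obtain ⟨a, ha0, hNR⟩ : ∃ a : ι → F₀, a ≠ 0 ∧ NR F₀ ((g : Matrix ι ι F) *ᵥ emb F₀ a) := by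
      by_contra h
      push Not at h
      exact hgr (lemR F₀ g h)
    obtain ⟨x, y, hxy⟩ := exists_vec_coords F₀ hfin hw ((g : Matrix ι ι F) *ᵥ emb F₀ a)
    have h1 : ut hf ((g : Matrix ι ι F) *ᵥ emb F₀ a) ζ ∈ M := ut_mem_conj hf hg hgi (hri a) (by
      have := hM a 1
      rwa [OneMemClass.coe_one, mul_one] at this)
    have h0 : f ((g : Matrix ι ι F) *ᵥ emb F₀ a) ((g : Matrix ι ι F) *ᵥ emb F₀ a) = 0 := by rw [(mem_iso g).mp hgi]; exact hri a
    rw [hxy] at h1 h0 hNR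
    have hort := orth_of_iso F₀ hf hf₀ hζ0 hζ hc hfix hσw h0
    have eo := comp0 F₀ hζ0 hc hort
    have hys : y ∉ Submodule.span F₀ {x} := by
      intro h
      obtain ⟨k, rfl⟩ := Submodule.mem_span_singleton.mp h
      have e : emb F₀ x + w • emb F₀ (k • x) = (1 + w * k) • emb F₀ x := by rw [emb_smul]; module
      rw [e] at hNR
      have hne : (1 + w * (k : F)) ≠ 0 := by
        intro h0'
        apply hNR.ne_zero
        rw [h0', zero_smul]
      exact hNR _ (inv_ne_zero hne) x (by rw [smul_smul, inv_mul_cancel₀ hne, one_smul])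
    have hx0 : x ≠ 0 := by
      rintro rfl
      have hw0 : w ≠ 0 := by rintro rfl; exact hw F₀.zero_mem
      rw [emb_zero, zero_add] at hNR
      exact hNR w⁻¹ (inv_ne_zero hw0) y (by rw [smul_smul, inv_mul_cancel₀ hw0, one_smul])
    have h2 : ut hf (emb F₀ x) ζ ∈ M := by
      have := hM x 1
      rwa [OneMemClass.coe_one, mul_one] at this
    have h3 : ut hf (w • emb F₀ y) ζ ∈ M := by
      rw [ut_smul hf (hri y)]
      have hN : w * σ w ∈ F₀ := hfix' _ (by rw [map_mul, hf.involutive, mul_comm])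
      have := hM y ⟨_, hN⟩
      rwa [mul_comm ζ] at this
    have h4 := SR.of_ut hf (hri x) (v := w • emb F₀ y) (by rw [hf.smul_left, smul_right hf, hri]; ring) (by rw [smul_right hf, eo, mul_zero]) hζ h1 h2 h3
    have h5 : R F₀ f M ζ x y w := h4.congr rfl (by rw [smul_smul])
    have h6 := TG_le_of F₀ hf hf₀ hζ0 hζ hc hfix hM hfin hn hfix' hort hw h5 hys hx0
    exact le_antisymm hMK ((su_le_TG4 hf (by omega)).trans h6)

/-- the subfield of order `q` is the fixed field -/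
theorem fixed_field {F : Type*} [Field F] [Fintype F] {q : ℕ} (hF : Fintype.card F = q ^ 2) (F₀ : Subfield F) (hcard : Fintype.card F = Nat.card F₀ ^ 2) :
    (∀ l : F₀, (l : F) ^ q = l) ∧ ∀ c : F, c ^ q = c → c ∈ F₀ := by
  classical
  haveI : Fintype F₀ := Fintype.ofFinite F₀
  have hq : Nat.card F₀ = q := by
    have : Nat.card F₀ ^ 2 = q ^ 2 := by rw [← hcard, hF]
    exact Nat.pow_left_injective two_ne_zero this
  rw [Nat.card_eq_fintype_card] at hq
  have h1 : ∀ l : F₀, (l : F) ^ q = l := by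
    intro l
    have := FiniteField.pow_card l
    rw [hq] at this
    exact congrArg Subtype.val this
  refine ⟨h1, fun c hc => ?_⟩
  by_contra hcF
  have hq2 : 1 < q := by rw [← hq]; exact Fintype.one_lt_card
  have hne : (Polynomial.X ^ q - Polynomial.X : Polynomial F) ≠ 0 := FiniteField.X_pow_card_sub_X_ne_zero F hq2
  have h3 : insert c (Finset.univ.image (fun l : F₀ => (l : F))) ⊆ (Polynomial.X ^ q - Polynomial.X : Polynomial F).roots.toFinset := by
    intro x hx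
    rw [Multiset.mem_toFinset, Polynomial.mem_roots hne, Polynomial.IsRoot.def]
    rcases Finset.mem_insert.mp hx with rfl | hx
    · simp [hc]
    · obtain ⟨l, _, rfl⟩ := Finset.mem_image.mp hx
      simp [h1 l]
  have h4 := Finset.card_le_card h3
  rw [Finset.card_insert_of_notMem (by
    intro h
    obtain ⟨l, _, hl⟩ := Finset.mem_image.mp h
    exact hcF (hl ▸ l.2)), Finset.card_image_of_injective _ Subtype.val_injective, Finset.card_univ, hq] at h4
  have h5 := (Multiset.toFinset_card_le _).trans (Polynomial.card_roots' (Polynomial.X ^ q - Polynomial.X : Polynomial F))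
  rw [FiniteField.X_pow_card_sub_X_natDegree_eq F hq2] at h5
  omega

theorem unsp_maximal' [Finite F] (hf : Geo.IsUnitaryForm σ f) {ζ : F} (hζ0 : ζ ≠ 0) (hζ : σ ζ = -ζ) (hfix : ∀ l : F₀, σ l = l) (hfix' : ∀ c : F, σ c = c → c ∈ F₀)
    (hfin : Module.finrank F₀ F = 2) (hn : 7 ≤ Fintype.card ι) (hrat : ∀ x y : ι → F₀, ζ * f (emb F₀ x) (emb F₀ y) ∈ F₀)
    (halt : ∀ x : ι → F₀, f (emb F₀ x) (emb F₀ x) = 0) :
    Geo.IsMaximalIn (iso f ⊓ Geo.specialLinear ι F)
      (((Matrix.GeneralLinearGroup.map (n := ι) (F₀.subtype : F₀ →+* F)).range ⊔ Geo.scalars ι F) ⊓ (iso f ⊓ Geo.specialLinear ι F)) := by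
  let f₀ : (ι → F₀) → (ι → F₀) → F₀ := fun x y => ⟨ζ * f (emb F₀ x) (emb F₀ y), hrat x y⟩
  have hc : ∀ x y, ζ * f (emb F₀ x) (emb F₀ y) = (f₀ x y : F) := fun _ _ => rfl
  have hsk : ∀ v w, f₀ v w = - f₀ w v := by
    intro v w
    apply Subtype.ext
    push_cast
    rw [← hc, ← hc]
    have h1 : σ (ζ * f (emb F₀ v) (emb F₀ w)) = ζ * f (emb F₀ v) (emb F₀ w) := hfix ⟨_, hrat v w⟩
    rw [map_mul, hζ, ← hf.herm] at h1
    linear_combination -h1
  have hnd : ∀ v : ι → F₀, v ≠ 0 → ∃ x, f₀ x v ≠ 0 := by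
    intro v hv
    by_contra hcon
    push Not at hcon
    have h1 : ∀ x : ι → F, f x (emb F₀ v) = 0 := by
      intro x
      have h2 : (CfsgLib.Un29.fd hf (emb F₀ v)) x = 0 := by
        rw [CfsgLib.SpSub29.rational_span F₀ x, map_sum]
        apply Finset.sum_eq_zero
        intro i _
        have h3 : ζ * f (emb F₀ (Pi.single i 1)) (emb F₀ v) = 0 := congrArg Subtype.val (hcon (Pi.single i 1))
        rw [map_smul, CfsgLib.Un29.fd_apply, (mul_eq_zero.mp h3).resolve_left hζ0, smul_zero]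
      exact h2
    obtain ⟨⟨x, hx⟩, _⟩ := hf.nondegenerate _ (emb_ne_zero F₀ hv)
    exact hx (h1 x)
  have hf₀ : Geo.IsSymplecticForm f₀ := by
    refine ⟨⟨?_, ?_, ?_, ?_⟩, hsk, ?_, ?_⟩
    · intro x y v
      apply Subtype.ext
      change ζ * f (emb F₀ x + emb F₀ y) (emb F₀ v) = ζ * f (emb F₀ x) (emb F₀ v) + ζ * f (emb F₀ y) (emb F₀ v)
      rw [hf.add_left]; ring
    · intro c x v
      apply Subtype.ext
      change ζ * f ((c : F) • emb F₀ x) (emb F₀ v) = (c : F) * (ζ * f (emb F₀ x) (emb F₀ v))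
      rw [hf.smul_left]; ring
    · intro v x y
      apply Subtype.ext
      change ζ * f (emb F₀ v) (emb F₀ x + emb F₀ y) = ζ * f (emb F₀ v) (emb F₀ x) + ζ * f (emb F₀ v) (emb F₀ y)
      rw [add_right hf]; ring
    · intro c v x
      apply Subtype.ext
      change ζ * f (emb F₀ v) ((c : F) • emb F₀ x) = (c : F) * (ζ * f (emb F₀ v) (emb F₀ x))
      rw [smul_right hf, hfix]; ring
    · intro v
      apply Subtype.ext
      change ζ * f (emb F₀ v) (emb F₀ v) = 0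
      rw [halt, mul_zero]
    · intro v hv
      obtain ⟨x, hx⟩ := hnd v hv
      exact ⟨⟨x, hx⟩, ⟨x, by rw [hsk]; exact neg_ne_zero.mpr hx⟩⟩
  exact unsp_maximal F₀ hf hf₀ hζ0 hζ hc hfix hfix' hfin hn

end CfsgLib.UnSp29
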