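import Cfsg.Agent.LibUnF29d
import Cfsg.Agent.LibUnSp29

/-! Overgroups of Ω_n(q) in SU_n(q). -/

namespace CfsgLib.UnO29

open scoped MatrixGroups Matrix
open Cfsg CfsgLib.MaxTv29 CfsgLib.Subfield29 CfsgLib.Un29 CfsgLib.UnF29 Cfsg.Agent.H22 Module

variable {ι : Type} [Fintype ι] [DecidableEq ι] {F : Type*} [Field F] {σ : F ≃+* F}
variable {f : (ι → F) → (ι → F) → F} {F₀ : Subfield F} {Q₀ : QuadraticForm F₀ (ι → F₀)}

local notation "B₀" => QuadraticMap.polar Q₀

/-- rational orthogonal structure and overgroup -/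
structure Od (hf : Geo.IsUnitaryForm σ f) (Q₀ : QuadraticForm F₀ (ι → F₀)) (M : Subgroup (GL ι F)) : Prop where
  hc : ∀ x y, f (emb F₀ x) (emb F₀ y) = ((QuadraticMap.polar Q₀ x y : F₀) : F)
  hQ₀ : (QuadraticMap.polarBilin Q₀).Nondegenerate
  hσ : ∀ l : F₀, σ l = l
  hfix : ∀ c : F, σ c = c → c ∈ F₀
  h2 : (2 : F) ≠ 0
  hfin : Module.finrank F₀ F = 2
  hM : ∀ a b, Q₀ a = 0 → Q₀ b = 0 → QuadraticMap.polar Q₀ a b = 0 → SR f M (emb F₀ a) (emb F₀ b)
  hMi : M ≤ iso f
  h13 : 13 ≤ Fintype.card ι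

namespace Od

variable {hf : Geo.IsUnitaryForm σ f} {M : Subgroup (GL ι F)} (D : Od hf Q₀ M)
include D

theorem c0 {x y : ι → F₀} (h : B₀ x y = 0) : f (emb F₀ x) (emb F₀ y) = 0 := by rw [D.hc, h]; rfl

theorem c0' {x y : ι → F₀} (h : B₀ x y = 0) : f (emb F₀ y) (emb F₀ x) = 0 := swap_eq hf (D.c0 h)

theorem c1 {x y : ι → F₀} (h : B₀ x y = 1) : f (emb F₀ x) (emb F₀ y) = 1 := by rw [D.hc, h]; rfl

theorem c1' {x y : ι → F₀} (h : B₀ x y = 1) : f (emb F₀ y) (emb F₀ x) = 1 := by rw [hf.herm, D.c1 h, map_one]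

theorem cq {x : ι → F₀} (h : Q₀ x = 0) : f (emb F₀ x) (emb F₀ x) = 0 := D.c0 (by rw [pself, h, mul_zero])

theorem qc {x : ι → F₀} (h : f (emb F₀ x) (emb F₀ x) = 0) : Q₀ x = 0 := by
  rw [D.hc, pself] at h
  push_cast at h
  exact Subtype.ext ((mul_eq_zero.mp h).resolve_left D.h2)

theorem rat_move {a b : ι → F₀} (ha : Q₀ a = 0) (hb : Q₀ b = 0) (h0 : B₀ a b = 0) :
    ∃ g ∈ M, g ∈ iso f ∧ ∀ x, (g : Matrix ι ι F) *ᵥ x = x + f x (emb F₀ a) • emb F₀ b - f x (emb F₀ b) • emb F₀ a := by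
  obtain ⟨g, hg, hgx⟩ := D.hM a b ha hb h0
  exact ⟨g, hg, D.hMi hg, hgx⟩

theorem of_rat {a b : ι → F₀} (ha : Q₀ a = 0) (hb : Q₀ b = 0) (h0 : B₀ a b = 0) (l : F₀) : R F₀ f M a b (l : F) :=
  D.hM a (l • b) ha (by rw [qsmul, hb, mul_zero]) (by rw [QuadraticMap.polar_smul_right, h0, smul_zero])

theorem comm {a b : ι → F₀} (ha : Q₀ a = 0) (hb : Q₀ b = 0) (h0 : B₀ a b = 0) {c : F} (h : R F₀ f M a b c) : R F₀ f M b a (σ c) := by
  have e0 := D.c0 h0
  have ea := D.cq ha
  have eb := D.cq hb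
  exact (SR.symm hf h ea (by rw [hf.smul_left, smul_right hf, eb]; ring) (by rw [smul_right hf, e0, mul_zero])).smul_swap hf

theorem step {a b e : ι → F₀} (ha : Q₀ a = 0) (hb : Q₀ b = 0) (h0 : B₀ a b = 0) {c : F} (h : R F₀ f M a b c) (he : Q₀ e = 0) (hae : B₀ a e = 0) (hbe : B₀ b e = 0)
    (hb' : b ∉ Submodule.span F₀ {a, e}) : R F₀ f M a e c := by
  obtain ⟨d, hd0, hd1, hd2⟩ := CfsgLib.OS29.partner D.hQ₀ [a, e] b (by rw [CfsgLib.SpSub29.span_list_pair]; exact hb') (by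
    intro v hv
    simp only [List.mem_cons, List.not_mem_nil, or_false] at hv
    rcases hv with rfl | rfl
    · exact h0
    · rw [QuadraticMap.polar_comm]; exact hbe) hb
  have hda := hd2 a (by simp)
  have hde := hd2 e (by simp)
  obtain ⟨g, hg, hgi, hgx⟩ := D.rat_move hd0 he (by rw [QuadraticMap.polar_comm]; exact hde)
  have h1 := SR.conj hf h hg hgi
  rw [Matrix.mulVec_smul, hgx, hgx, D.c0 hda, D.c0 hae, D.c1 hd1, D.c0 hbe] at h1
  simp only [one_smul, zero_smul, add_zero, sub_zero, smul_add] at h1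
  exact SR.sub hf h1 h (D.cq ha) (by rw [hf.smul_left, smul_right hf, D.cq hb]; ring)
    (by rw [smul_right hf, D.c0 h0, mul_zero]) (by rw [smul_right hf, D.c0 hae, mul_zero])
    (by rw [hf.smul_left, smul_right hf, D.c0 hbe]; ring)

theorem all [Finite F] {a b : ι → F₀} (ha : Q₀ a = 0) (hb : Q₀ b = 0) (h0 : B₀ a b = 0) {c : F} (h : R F₀ f M a b c) (hab : b ∉ Submodule.span F₀ {a}) (ha0 : a ≠ 0)
    {a' b' : ι → F₀} (ha' : Q₀ a' = 0) (hb' : Q₀ b' = 0) (h0' : B₀ a' b' = 0) : R F₀ f M a' b' c := by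
  have h13 := D.h13
  obtain ⟨e, hee, he, heN⟩ := CfsgLib.OS29.pick D.hQ₀ [a, b, a', b'] [a, b, a', b'] (by simp; omega)
  obtain ⟨e', hee', he', heN'⟩ := CfsgLib.OS29.pick D.hQ₀ [a, a', b', e] [a, a', e] (by simp; omega)
  have hN1 : e ∉ Submodule.span F₀ {a, b} := fun h => heN (Submodule.span_mono (by intro x hx; simp at hx ⊢; tauto) h)
  have hN2 : e ∉ Submodule.span F₀ {a', b'} := fun h => heN (Submodule.span_mono (by intro x hx; simp at hx ⊢; tauto) h)
  have hN3 : e' ∉ Submodule.span F₀ {e, a} := fun h => heN' (Submodule.span_mono (by intro x hx; simp at hx ⊢; tauto) h)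
  have hN4 : e' ∉ Submodule.span F₀ {e, a'} := fun h => heN' (Submodule.span_mono (by intro x hx; simp at hx ⊢; tauto) h)
  have e1 := he a (by simp)
  have e2 := he b (by simp)
  have e3 := he a' (by simp)
  have e4 := he b' (by simp)
  have e5 := he' a (by simp)
  have e6 := he' a' (by simp)
  have e8 := he' e (by simp)
  have e9 : B₀ e a = 0 := by rw [QuadraticMap.polar_comm]; exact e1
  have e10 : B₀ e a' = 0 := by rw [QuadraticMap.polar_comm]; exact e3
  have he0 : e ≠ 0 := by rintro rfl; exact heN (Submodule.zero_mem _)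
  have s1 : R F₀ f M a e c := D.step ha hb h0 h hee e1 e2 (CfsgLib.SpSub29.notMem_pair hab hN1)
  have s2 : R F₀ f M e a (σ c) := D.comm ha hee e1 s1
  have s3 : R F₀ f M e e' (σ c) := by
    refine D.step hee ha e9 s2 hee' e8 e5 (CfsgLib.SpSub29.notMem_pair ?_ hN3)
    intro hcon
    obtain ⟨k, hk⟩ := Submodule.mem_span_singleton.mp hcon
    have hk0 : k ≠ 0 := by rintro rfl; rw [zero_smul] at hk; exact ha0 hk.symm
    apply hN1
    rw [Submodule.mem_span_pair]
    exact ⟨k⁻¹, 0, by rw [← hk, smul_smul, inv_mul_cancel₀ hk0]; simp⟩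
  have s4 : R F₀ f M e a' (σ c) := D.step hee hee' e8 s3 ha' e10 (by rw [QuadraticMap.polar_comm]; exact e6) hN4
  have s5 : R F₀ f M a' e c := by
    have := D.comm hee ha' e10 s4
    rwa [hf.involutive] at this
  exact D.step ha' hee e3 s5 hb' h0' (by rw [QuadraticMap.polar_comm]; exact e4) hN2

theorem everything [Finite F] {a b : ι → F₀} (ha : Q₀ a = 0) (hb : Q₀ b = 0) (h0 : B₀ a b = 0) {w : F} (hw : w ∉ F₀) (h : R F₀ f M a b w) (hab : b ∉ Submodule.span F₀ {a}) (ha0 : a ≠ 0)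
    (c : F) (a' b' : ι → F₀) (ha' : Q₀ a' = 0) (hb' : Q₀ b' = 0) (h0' : B₀ a' b' = 0) : R F₀ f M a' b' c := by
  obtain ⟨l, m, rfl⟩ := CfsgLib.UnSp29.exists_coords F₀ D.hfin hw c
  have h1 := D.of_rat ha' hb' h0' l
  have h2 := D.all ha hb h0 h hab ha0 (a' := a') (b' := m • b') ha' (by rw [qsmul, hb', mul_zero]) (by rw [QuadraticMap.polar_smul_right, h0', smul_zero])
  have e0 := D.c0 h0'
  have eb := D.cq hb'
  have h3 := SR.add hf h1 h2 (D.cq ha') (by rw [smul_right hf, e0, mul_zero])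
    (by rw [emb_smul, smul_right hf, smul_right hf, e0]; ring) (by rw [emb_smul, hf.smul_left, smul_right hf, smul_right hf, eb]; ring)
  exact h3.congr rfl (by rw [emb_smul]; module)

theorem zero_of_rat {v : ι → F} (h : ∀ x : ι → F₀, f (emb F₀ x) v = 0) : v = 0 := by
  by_contra hv
  obtain ⟨⟨y, hy⟩, _⟩ := hf.nondegenerate v hv
  apply hy
  have h1 : fd hf v y = 0 := by
    rw [CfsgLib.OS29.rational_span (F₀ := F₀) y, map_sum]
    apply Finset.sum_eq_zero
    intro i _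
    rw [map_smul, fd_apply, h, smul_zero]
  exact h1

theorem exists_one {b : ι → F₀} (hb : b ≠ 0) : ∃ e, B₀ e b = 1 := by
  by_contra hcon
  push Not at hcon
  apply hb
  apply D.hQ₀.2 b
  intro y
  by_contra hy
  have hy' : B₀ y b ≠ 0 := hy
  apply hcon ((B₀ y b)⁻¹ • y)
  rw [QuadraticMap.polar_smul_left, smul_eq_mul, inv_mul_cancel₀ hy']

theorem span_perp (a : ι → F₀) (A : Submodule F (ι → F)) (hA : ∀ y, B₀ y a = 0 → emb F₀ y ∈ A) {x : ι → F} (hx : f x (emb F₀ a) = 0) : x ∈ A := by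
  by_cases ha : a = 0
  · rw [CfsgLib.OS29.rational_span (F₀ := F₀) x]
    exact A.sum_mem fun i _ => A.smul_mem _ (hA _ (by rw [ha, QuadraticMap.polar_zero_right]))
  obtain ⟨z, hz⟩ := D.exists_one ha
  have h1 : ∑ i, x i * ((B₀ (Pi.single i 1) a : F₀) : F) = 0 := by
    rw [← hx]
    conv_rhs => rw [CfsgLib.OS29.rational_span (F₀ := F₀) x]
    rw [← fd_apply hf, map_sum]
    refine Finset.sum_congr rfl fun i _ => ?_
    rw [map_smul, fd_apply, D.hc, smul_eq_mul]
  have h2 : x = ∑ i, x i • emb F₀ (Pi.single i 1 - B₀ (Pi.single i 1) a • z) := by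
    have h3 : ∀ i, x i • emb F₀ (Pi.single i 1 - B₀ (Pi.single i 1) a • z) = x i • emb F₀ (Pi.single i 1) - (x i * ((B₀ (Pi.single i 1) a : F₀) : F)) • emb F₀ z := by
      intro i
      have h2 : emb F₀ (Pi.single i 1 - B₀ (Pi.single i 1) a • z) = emb F₀ (Pi.single i 1) - ((B₀ (Pi.single i 1) a : F₀) : F) • emb F₀ z := rfl
      rw [h2, smul_sub, smul_smul]
    simp only [h3]
    rw [Finset.sum_sub_distrib, ← Finset.sum_smul, h1, zero_smul, sub_zero]
    exact CfsgLib.OS29.rational_span x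
  rw [h2]
  exact A.sum_mem fun i _ => A.smul_mem _ (hA _ (by
    rw [QuadraticMap.polar_sub_left, QuadraticMap.polar_smul_left, hz, smul_eq_mul, mul_one, sub_self]))

theorem h7 : 7 ≤ finrank F₀ (ι → F₀) := by
  have := D.h13
  rw [Module.finrank_fintype_fun_eq_card]; omega

theorem eich_rat [Finite F] (hall : ∀ (c : F) (a b : ι → F₀), Q₀ a = 0 → Q₀ b = 0 → B₀ a b = 0 → R F₀ f M a b c) {a : ι → F₀} (ha : Q₀ a = 0) {w : ι → F}
    (hw : f (emb F₀ a) w = 0) : ∃ μ, EI f M (emb F₀ a) w μ := by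
  let A : Submodule F (ι → F) :=
    { carrier := {w | f (emb F₀ a) w = 0 ∧ ∀ c : F, ∃ μ, EI f M (emb F₀ a) (c • w) μ}
      add_mem' := by
        rintro w w' ⟨h1, h2⟩ ⟨h3, h4⟩
        refine ⟨by rw [add_right hf, h1, h3, add_zero], fun c => ?_⟩
        obtain ⟨μ, hμ⟩ := h2 c
        obtain ⟨ν, hν⟩ := h4 c
        exact ⟨_, (EI.add hf hμ hν (D.cq ha) (by rw [smul_right hf, h1, mul_zero]) (by rw [smul_right hf, h3, mul_zero])).congr rfl (smul_add _ _ _).symm rfl⟩
      zero_mem' := ⟨zero_right hf _, fun c => ⟨0, 1, M.one_mem, fun x => by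
        rw [smul_zero, zero_right hf, Units.val_one, Matrix.one_mulVec]; simp⟩⟩
      smul_mem' := by
        rintro k w ⟨h1, h2⟩
        exact ⟨by rw [smul_right hf, h1, mul_zero], fun c => by rw [smul_smul]; exact h2 _⟩ }
  have hA : ∀ y, B₀ y a = 0 → emb F₀ y ∈ A := by
    let A₀ : Submodule F₀ (ι → F₀) :=
      { carrier := {y | emb F₀ y ∈ A}
        add_mem' := fun {x y} hx hy => by
          change emb F₀ (x + y) ∈ A
          rw [emb_add]; exact A.add_mem hx hy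
        zero_mem' := by
          change emb F₀ 0 ∈ A
          rw [emb_zero]; exact A.zero_mem
        smul_mem' := fun k x hx => by
          change emb F₀ (k • x) ∈ A
          rw [emb_smul]; exact A.smul_mem _ hx }
    intro y hy
    have : y ∈ A₀ := by
      refine CfsgLib.OM29.rich_vec D.hQ₀ D.h7 a A₀ ?_ y (by rw [QuadraticMap.polar_comm]; exact hy)
      intro x hx hxx
      exact ⟨D.c0 hx, fun c => ⟨0, EI.of_SR (hall c a x ha hxx hx)⟩⟩
    exact this
  have h1 : w ∈ A := D.span_perp a A hA (swap_eq hf hw)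
  obtain ⟨μ, hμ⟩ := h1.2 1
  exact ⟨μ, hμ.congr rfl (one_smul _ _) rfl⟩

theorem full_rat [Finite F] (hall : ∀ (c : F) (a b : ι → F₀), Q₀ a = 0 → Q₀ b = 0 → B₀ a b = 0 → R F₀ f M a b c) {a : ι → F₀} (ha : Q₀ a = 0) : UFull hf M (emb F₀ a) := by
  have h13 := D.h13
  refine ⟨D.cq ha, fun c hc => ?_⟩
  obtain ⟨b, hb, hbp, hbN⟩ := CfsgLib.OS29.pick D.hQ₀ [a] [a] (by simp; omega)
  have hab := hbp a (by simp)
  obtain ⟨b', hb', hbb', hap⟩ := CfsgLib.OS29.partner D.hQ₀ [a] b hbN (by simpa using hab) hb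
  have hab' := hap a (by simp)
  set s := -(c / 2) with hs
  have h1 := EI.of_SR (hall s a b ha hb hab)
  have h2 := EI.of_SR (D.hM a b' ha hb' hab')
  have p1 : f (emb F₀ a) (s • emb F₀ b) = 0 := by rw [smul_right hf, D.c0 hab, mul_zero]
  have p2 := D.c0 hab'
  have h3 := EI.add hf h1 h2 (D.cq ha) p1 p2
  have h4 := (EI.add hf h2 h1 (D.cq ha) p2 p1).congr rfl (add_comm _ _) rfl
  have p3 : f (emb F₀ a) (s • emb F₀ b + emb F₀ b') = 0 := by rw [add_right hf, p1, p2, add_zero]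
  have h5 := EI.sub hf (w := 0) (h4.congr rfl (add_zero _).symm rfl) h3 (D.cq ha) p3 (zero_right hf _)
  obtain ⟨g, hg, hgx⟩ := h5
  have hge : g = ut hf (emb F₀ a) c := by
    apply gl_ext
    intro x
    rw [hgx, ut_mulVec hf (D.cq ha), zero_right hf, smul_zero, zero_smul, zero_left hf, hf.smul_left, smul_right hf, D.c1 hbb', D.c1' hbb', hs]
    have h2 := D.h2
    have e1 : σ 2 = 2 := map_ofNat σ 2
    rw [map_neg, map_div₀, hc, e1]
    have : 0 + 0 + -(c / 2) * 1 - (0 + 0 + -(-c / 2) * 1) - 0 = -c := by field_simp; ring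
    rw [this]
    module
  rw [← hge]; exact hg

theorem top_of_all [Finite F] (hall : ∀ (c : F) (a b : ι → F₀), Q₀ a = 0 → Q₀ b = 0 → B₀ a b = 0 → R F₀ f M a b c) : iso f ⊓ Geo.specialLinear ι F ≤ M := by
  have h13 := D.h13
  refine (su_le_TG4 hf (by omega)).trans ((TG_le_iff hf ⊤ M).mpr fun x _ hxx => ?_)
  suffices h : UFull hf M x from h.2
  by_cases hx : ∃ a, Q₀ a = 0 ∧ f x (emb F₀ a) ≠ 0
  · obtain ⟨a, ha, hxa⟩ := hx
    have ha0 : a ≠ 0 := by rintro rfl; rw [emb_zero, zero_right hf] at hxa; exact hxa rfl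
    have haa := D.cq ha
    obtain ⟨a', ha', haa', _⟩ := CfsgLib.OS29.partner D.hQ₀ [] a (by simpa using ha0) (by simp) ha
    set k := f x (emb F₀ a) with hk
    set v' := k • emb F₀ a' with hv'
    have hv'a : f v' (emb F₀ a) = k := by rw [hv', hf.smul_left, D.c1' haa', mul_one]
    have hv'F : UFull hf M v' := (D.full_rat hall ha').smul k
    set b := k⁻¹ • (x - v') with hb
    have hba : f b (emb F₀ a) = 0 := by rw [hb, hf.smul_left, sub_left hf, hv'a, ← hk, sub_self, mul_zero]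
    have hab : f (emb F₀ a) b = 0 := swap_eq hf hba
    obtain ⟨μ, g, hg, hgx⟩ := D.eich_rat hall ha hab
    have h1 := hv'F.conj hg (D.hMi hg)
    rw [hgx, hv'a] at h1
    have e1 : v' + k • b = x := by
      rw [hb, smul_smul, mul_inv_cancel₀ hxa, one_smul, add_sub_cancel]
    rw [e1] at h1
    set d := -(f v' b + μ * k) with hd
    have e2 : x - f v' b • emb F₀ a - (μ * k) • emb F₀ a = x + d • emb F₀ a := by rw [hd]; module
    rw [e2] at h1
    have h2 := h1.1
    have h3 : σ d * f x (emb F₀ a) + d * f (emb F₀ a) x = 0 := by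
      rw [hf.add_left, add_right hf, add_right hf, hf.smul_left, hf.smul_left, smul_right hf, smul_right hf, haa, hxx] at h2
      linear_combination h2
    have hax : f (emb F₀ a) x = σ k := hf.herm _ _
    have hax0 : σ k ≠ 0 := fun h => hxa ((map_eq_zero σ).mp h)
    have hc : σ (-d / k) = -(-d / k) := by
      rw [map_div₀, map_neg]
      rw [hax, ← hk] at h3
      field_simp
      linear_combination -h3
    have h4 := h1.conj ((D.full_rat hall ha).2 _ hc) (ut_mem_iso hf haa hc)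
    rw [ut_mulVec hf haa, hf.add_left, hf.smul_left, haa, mul_zero, add_zero, ← hk, div_mul_cancel₀ _ hxa] at h4
    have h5 : x + d • emb F₀ a + -d • emb F₀ a = x := by module
    rw [h5] at h4
    exact h4
  · push Not at hx
    have : x = 0 := by
      apply D.zero_of_rat
      intro y
      let A₀ : Submodule F₀ (ι → F₀) :=
        { carrier := {y | f (emb F₀ y) x = 0}
          add_mem' := fun {u v} hu hv => by
            change f (emb F₀ (u + v)) x = 0
            rw [emb_add, hf.add_left, hu, hv, add_zero]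
          zero_mem' := by
            change f (emb F₀ 0) x = 0
            rw [emb_zero, zero_left hf]
          smul_mem' := fun k u hu => by
            change f (emb F₀ (k • u)) x = 0
            rw [emb_smul, hf.smul_left, hu, mul_zero] }
      have : y ∈ A₀ := CfsgLib.OM29.rich_all D.hQ₀ D.h7 A₀ (fun y hy => swap_eq hf (hx y hy)) y
      exact this
    rw [this, ← emb_zero F₀]
    exact D.full_rat hall (QuadraticMap.map_zero Q₀)

end Od

end CfsgLib.UnO29
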