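import Cfsg.Agent.LibUnO29

/-! Ω_n(q) in SU_n(q): maximality. -/

namespace CfsgLib.UnO29

open scoped MatrixGroups Matrix
open Cfsg CfsgLib.MaxTv29 CfsgLib.Subfield29 CfsgLib.Un29 CfsgLib.UnF29 Cfsg.Agent.H22 Module

variable {ι : Type} [Fintype ι] [DecidableEq ι] {F : Type*} [Field F] {σ : F ≃+* F}
variable {f : (ι → F) → (ι → F) → F} {F₀ : Subfield F} {Q₀ : QuadraticForm F₀ (ι → F₀)}

local notation "B₀" => QuadraticMap.polar Q₀

/-- coordinatewise conjugation -/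
def tau (σ : F ≃+* F) (x : ι → F) : ι → F := fun i => σ (x i)

omit [Fintype ι] [DecidableEq ι] in
theorem tau_add (x y : ι → F) : tau σ (x + y) = tau σ x + tau σ y := by funext i; simp [tau]

omit [Fintype ι] [DecidableEq ι] in
theorem tau_sub (x y : ι → F) : tau σ (x - y) = tau σ x - tau σ y := by funext i; simp [tau]

omit [Fintype ι] [DecidableEq ι] in
theorem tau_smul (c : F) (x : ι → F) : tau σ (c • x) = σ c • tau σ x := by funext i; simp [tau]

namespace Od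

variable {hf : Geo.IsUnitaryForm σ f} {M : Subgroup (GL ι F)} (D : Od hf Q₀ M)
include D

theorem tau_emb (x : ι → F₀) : tau σ (emb F₀ x) = emb F₀ x := by funext i; exact D.hσ (x i)

theorem rat_of_tau {x : ι → F} (h : tau σ x = x) : ∃ y : ι → F₀, x = emb F₀ y :=
  ⟨fun i => ⟨x i, D.hfix _ (congrFun h i)⟩, rfl⟩

theorem tau_tau (x : ι → F) : tau σ (tau σ x) = x := by funext i; exact hf.involutive (x i)

theorem rat_of_tau_smul {u : ι → F} {α : F} (h : tau σ u = α • u) : ∃ (c : F) (y : ι → F₀), u = c • emb F₀ y := by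
  by_cases hα : 1 + α = 0
  · obtain ⟨w, hw0, hw⟩ := exists_skew hf
    obtain ⟨y, hy⟩ := D.rat_of_tau (x := w • u) (by
      rw [tau_smul, h, hw, smul_smul]
      congr 1
      linear_combination (-w) * hα)
    exact ⟨w⁻¹, y, by rw [← hy, smul_smul, inv_mul_cancel₀ hw0, one_smul]⟩
  · obtain ⟨y, hy⟩ := D.rat_of_tau (x := (1 + α) • u) (by
      have e1 : (1 + α) • u = u + tau σ u := by rw [h]; module
      rw [e1, tau_add, D.tau_tau, add_comm])
    exact ⟨(1 + α)⁻¹, y, by rw [← hy, smul_smul, inv_mul_cancel₀ hα, one_smul]⟩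

theorem rat_of_func {z : ι → F} (h : ∀ y : ι → F₀, f z (emb F₀ y) ∈ F₀) : ∃ z₀ : ι → F₀, z = emb F₀ z₀ := by
  let θ : Module.Dual F₀ (ι → F₀) :=
    { toFun := fun x => ⟨f z (emb F₀ x), h x⟩
      map_add' := fun x y => by
        apply Subtype.ext
        change f z (emb F₀ x + emb F₀ y) = f z (emb F₀ x) + f z (emb F₀ y)
        rw [add_right hf]
      map_smul' := fun k x => by
        apply Subtype.ext
        change f z ((k : F) • emb F₀ x) = (k : F) * f z (emb F₀ x)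
        rw [smul_right hf, D.hσ] }
  let z₀ := (LinearMap.BilinForm.toDual (QuadraticMap.polarBilin Q₀) D.hQ₀).symm θ
  have hz : ∀ y, B₀ z₀ y = θ y := fun y => LinearMap.BilinForm.apply_toDual_symm_apply (hB := D.hQ₀) θ y
  refine ⟨z₀, ?_⟩
  rw [← sub_eq_zero]
  apply D.zero_of_rat
  intro x
  have h1 : f (emb F₀ z₀) (emb F₀ x) = f z (emb F₀ x) := by rw [D.hc, hz]; rfl
  have h2 : f (z - emb F₀ z₀) (emb F₀ x) = 0 := by rw [sub_left hf, h1, sub_self]
  exact swap_eq hf h2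

theorem tau_mem {u v : ι → F} (hu : u ≠ 0) (hind : v ∉ Submodule.span F {u})
    (h : ∀ c : ι → F₀, ∃ p : ι → F₀, f (emb F₀ c) u • v - f (emb F₀ c) v • u = emb F₀ p) : tau σ u ∈ Submodule.span F {u, v} := by
  obtain ⟨c, d, hne⟩ : ∃ c d : ι → F₀, f (emb F₀ c) u * f (emb F₀ d) v - f (emb F₀ c) v * f (emb F₀ d) u ≠ 0 := by
    by_contra hcon
    push Not at hcon
    obtain ⟨c, hc⟩ : ∃ c : ι → F₀, f (emb F₀ c) u ≠ 0 := by
      by_contra h2
      push Not at h2
      exact hu (D.zero_of_rat h2)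
    apply hind
    rw [Submodule.mem_span_singleton]
    refine ⟨σ (f (emb F₀ c) v / f (emb F₀ c) u), ?_⟩
    symm
    rw [← sub_eq_zero]
    apply D.zero_of_rat
    intro d
    rw [sub_right hf, smul_right hf, hf.involutive]
    have h1 := hcon c d
    field_simp
    linear_combination h1
  obtain ⟨p, hp⟩ := h c
  obtain ⟨q, hq⟩ := h d
  have hp' : emb F₀ p ∈ Submodule.span F {u, v} := by
    rw [← hp]
    exact Submodule.sub_mem _ (Submodule.smul_mem _ _ (CfsgLib.OM29.mem_pair_right u v)) (Submodule.smul_mem _ _ (CfsgLib.OM29.mem_pair_left u v))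
  have hq' : emb F₀ q ∈ Submodule.span F {u, v} := by
    rw [← hq]
    exact Submodule.sub_mem _ (Submodule.smul_mem _ _ (CfsgLib.OM29.mem_pair_right u v)) (Submodule.smul_mem _ _ (CfsgLib.OM29.mem_pair_left u v))
  have e1 : σ (f (emb F₀ c) u) • tau σ v - σ (f (emb F₀ c) v) • tau σ u = emb F₀ p := by
    rw [← tau_smul, ← tau_smul, ← tau_sub, hp, D.tau_emb]
  have e2 : σ (f (emb F₀ d) u) • tau σ v - σ (f (emb F₀ d) v) • tau σ u = emb F₀ q := by
    rw [← tau_smul, ← tau_smul, ← tau_sub, hq, D.tau_emb]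
  have e3 : σ (f (emb F₀ c) u * f (emb F₀ d) v - f (emb F₀ c) v * f (emb F₀ d) u) • tau σ u = σ (f (emb F₀ d) u) • emb F₀ p - σ (f (emb F₀ c) u) • emb F₀ q := by
    rw [← e1, ← e2, map_sub, map_mul, map_mul]
    module
  have hne' : σ (f (emb F₀ c) u * f (emb F₀ d) v - f (emb F₀ c) v * f (emb F₀ d) u) ≠ 0 := fun h0 => hne ((map_eq_zero σ).mp h0)
  have h4 := Submodule.sub_mem _ (Submodule.smul_mem _ (σ (f (emb F₀ d) u)) hp') (Submodule.smul_mem _ (σ (f (emb F₀ c) u)) hq')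
  rw [← e3] at h4
  exact (Submodule.smul_mem_iff _ hne').mp h4

theorem Rat_base {k : GL ι F} {a₀ a : ι → F₀} (ha₀ : Q₀ a₀ = 0) (ha₀0 : a₀ ≠ 0) (ha : Q₀ a = 0) (h0 : B₀ a₀ a = 0) (hN : a ∉ Submodule.span F₀ {a₀})
    (hS : ∀ a, Q₀ a = 0 → Ud.SRt F₀ k a) {l : F} (hl : l ≠ 0) {y₀ : ι → F₀} (h : (k : Matrix ι ι F) *ᵥ emb F₀ a₀ = l • emb F₀ y₀) :
    ∃ y, l⁻¹ • ((k : Matrix ι ι F) *ᵥ emb F₀ a) = emb F₀ y := by
  obtain ⟨c, y, hy⟩ := hS a ha
  obtain ⟨d, z, hz⟩ := hS (a₀ + a) (by rw [qadd, ha₀, ha, h0]; ring)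
  rw [emb_add, Matrix.mulVec_add, h, hy] at hz
  have hay : emb F₀ y ∉ Submodule.span F {emb F₀ y₀} := by
    intro h1
    obtain ⟨t, ht⟩ := Submodule.mem_span_singleton.mp h1
    apply CfsgLib.OS29.Sd.emb_notMem_span hN ha₀0
    rw [Submodule.mem_span_singleton]
    refine ⟨c * t * l⁻¹, ?_⟩
    apply mulVec_injective k
    simp only
    rw [Matrix.mulVec_smul, h, hy, ← ht, smul_smul, smul_smul]
    congr 1
    field_simp
  have hd : d ≠ 0 := by
    rintro rfl
    rw [zero_smul] at hz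
    apply ha₀0
    have h1 : (k : Matrix ι ι F) *ᵥ emb F₀ (a₀ + a) = 0 := by rw [emb_add, Matrix.mulVec_add, h, hy, hz]
    have h2 : emb F₀ (a₀ + a) = 0 := mulVec_injective k (h1.trans (Matrix.mulVec_zero _).symm)
    exfalso
    have h3 : a₀ + a = 0 := emb_injective F₀ (h2.trans (emb_zero F₀).symm)
    apply hN
    rw [Submodule.mem_span_singleton]
    exact ⟨-1, by rw [neg_smul, one_smul]; exact (eq_neg_of_add_eq_zero_right h3).symm⟩
  have h1 : (d⁻¹ * c) • emb F₀ y + (d⁻¹ * l) • emb F₀ y₀ = emb F₀ z := by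
    have : d⁻¹ • (l • emb F₀ y₀ + c • emb F₀ y) = emb F₀ z := by rw [hz, smul_smul, inv_mul_cancel₀ hd, one_smul]
    rw [← this]; module
  have m1 := rat_coeff F₀ hay h1
  have hcy : c ≠ 0 := by
    rintro rfl
    rw [zero_smul] at hy
    apply hN
    have h2 : emb F₀ a = 0 := mulVec_injective k (hy.trans (Matrix.mulVec_zero _).symm)
    have h3 : a = 0 := emb_injective F₀ (h2.trans (emb_zero F₀).symm)
    rw [h3]; exact Submodule.zero_mem _
  have hay' : emb F₀ y₀ ∉ Submodule.span F {emb F₀ y} := by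
    apply notMem_span_symm _ hay
    intro h4
    rw [h4, smul_zero] at h
    exact emb_ne_zero F₀ ha₀0 (mulVec_injective k (h.trans (Matrix.mulVec_zero _).symm))
  have m2 := rat_coeff F₀ hay' (by rw [add_comm]; exact h1)
  have m3 : l⁻¹ * c ∈ F₀ := by
    have : l⁻¹ * c = (d⁻¹ * c) / (d⁻¹ * l) := by field_simp
    rw [this]; exact F₀.div_mem m1 m2
  refine ⟨(⟨l⁻¹ * c, m3⟩ : F₀) • y, ?_⟩
  rw [hy, smul_smul, emb_smul]

theorem Rat_of_sing [Finite F] {k : GL ι F} (hS : ∀ a, Q₀ a = 0 → Ud.SRt F₀ k a) : Rat F₀ k := by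
  have h13 := D.h13
  obtain ⟨a₀, ha₀, _, haN⟩ := CfsgLib.OS29.pick D.hQ₀ [] [] (by simp; omega)
  have ha₀0 : a₀ ≠ 0 := fun h => haN (by rw [h]; exact Submodule.zero_mem _)
  obtain ⟨l, y₀, hy₀⟩ := hS a₀ ha₀
  have hl : l ≠ 0 := by
    rintro rfl
    rw [zero_smul] at hy₀
    exact emb_ne_zero F₀ ha₀0 (mulVec_injective k (hy₀.trans (Matrix.mulVec_zero _).symm))
  refine ⟨l⁻¹, inv_ne_zero hl, ?_⟩
  let A₀ : Submodule F₀ (ι → F₀) :=
    { carrier := {x | ∃ y, l⁻¹ • ((k : Matrix ι ι F) *ᵥ emb F₀ x) = emb F₀ y}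
      add_mem' := fun {x y} hx hy => by
        obtain ⟨x', hx'⟩ := hx
        obtain ⟨y', hy'⟩ := hy
        exact ⟨x' + y', by rw [emb_add, Matrix.mulVec_add, smul_add, hx', hy']; rfl⟩
      zero_mem' := ⟨0, by rw [emb_zero, Matrix.mulVec_zero, smul_zero]⟩
      smul_mem' := fun c x hx => by
        obtain ⟨x', hx'⟩ := hx
        exact ⟨c • x', by rw [emb_smul, Matrix.mulVec_smul, smul_comm, hx', emb_smul]⟩ }
  intro x
  have : x ∈ A₀ := by
    refine CfsgLib.OM29.rich_all D.hQ₀ D.h7 A₀ ?_ x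
    intro a ha
    obtain ⟨a', ha', ha'p, ha'N⟩ := CfsgLib.OS29.pick D.hQ₀ [a₀, a] [a₀, a] (by simp; omega)
    have e1 := ha'p a₀ (by simp)
    have e2 := ha'p a (by simp)
    rw [CfsgLib.SpSub29.span_list_pair] at ha'N
    have n1 : a' ∉ Submodule.span F₀ {a₀} := CfsgLib.OM29.notmem_span_left ha'N
    have n2 : a' ∉ Submodule.span F₀ {a} := CfsgLib.OM29.notmem_span_right ha'N
    have ha'0 : a' ≠ 0 := CfsgLib.OM29.ne_zero_of_notmem n1
    obtain ⟨y', hy'⟩ := D.Rat_base ha₀ ha₀0 ha' e1 n1 hS hl hy₀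
    have hy'' : (k : Matrix ι ι F) *ᵥ emb F₀ a' = l • emb F₀ y' := by rw [← hy', smul_smul, mul_inv_cancel₀ hl, one_smul]
    by_cases ha0 : a = 0
    · rw [ha0]; exact A₀.zero_mem
    exact D.Rat_base ha' ha'0 ha (by rw [QuadraticMap.polar_comm]; exact e2) (CfsgLib.OM29.notmem_span_swap ha0 n2) hS hl hy''
  exact this

end Od

/-- only rational coefficients -/
structure Og (hf : Geo.IsUnitaryForm σ f) (Q₀ : QuadraticForm F₀ (ι → F₀)) (M : Subgroup (GL ι F)) : Prop extends Od hf Q₀ M where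
  hC : ∀ a b, Q₀ a = 0 → Q₀ b = 0 → QuadraticMap.polar Q₀ a b = 0 → a ≠ 0 → b ∉ Submodule.span F₀ {a} → ∀ c, R F₀ f M a b c → c ∈ F₀

namespace Og

variable {hf : Geo.IsUnitaryForm σ f} {M : Subgroup (GL ι F)} (D : Og hf Q₀ M)
include D

theorem P1 [Finite F] {b : ι → F₀} (hb : Q₀ b = 0) (hb0 : b ≠ 0) {w : ι → F} (hbw : f (emb F₀ b) w = 0) {μ : F} (h : EI f M (emb F₀ b) w μ) {c : ι → F₀} (hbc : B₀ b c = 0) :
    f w (emb F₀ c) ∈ F₀ := by
  have h13 := D.h13
  let A₀ : Submodule F₀ (ι → F₀) :=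
    { carrier := {y | f w (emb F₀ y) ∈ F₀}
      add_mem' := fun {x y} hx hy => by
        change f w (emb F₀ (x + y)) ∈ F₀
        rw [emb_add, add_right hf]; exact F₀.add_mem hx hy
      zero_mem' := by
        change f w (emb F₀ 0) ∈ F₀
        rw [emb_zero, zero_right hf]; exact F₀.zero_mem
      smul_mem' := fun k x hx => by
        change f w (emb F₀ (k • x)) ∈ F₀
        rw [emb_smul, smul_right hf, D.hσ]; exact F₀.mul_mem k.2 hx }
  have : c ∈ A₀ := by
    refine CfsgLib.OM29.rich_vec D.hQ₀ D.h7 b A₀ ?_ c hbc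
    clear hbc c
    intro c hbc hc
    change f w (emb F₀ c) ∈ F₀
    by_cases hcb : c ∈ Submodule.span F₀ {b}
    · obtain ⟨k, rfl⟩ := Submodule.mem_span_singleton.mp hcb
      rw [emb_smul, smul_right hf, swap_eq hf hbw, mul_zero]; exact F₀.zero_mem
    obtain ⟨b', hb', hbb', hcb'⟩ := CfsgLib.OS29.partner D.hQ₀ [c] b (by rw [CfsgLib.OS29.span_list_single]; exact notMem_span_symm hb0 hcb) (by
      intro v hv
      rw [List.mem_singleton.mp hv, QuadraticMap.polar_comm]; exact hbc) hb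
    have hcb' := hcb' c (by simp)
    obtain ⟨x, hx, hxp, hxN⟩ := CfsgLib.OS29.pick D.hQ₀ [b, c, b'] [b, c] (by simp; omega)
    have hbx := hxp b (by simp)
    have hcx := hxp c (by simp)
    have hb'x := hxp b' (by simp)
    obtain ⟨x₂, hx₂, hx₂p, hx₂N⟩ := CfsgLib.OS29.pick D.hQ₀ [b, c, x] [x, b, c] (by simp; omega)
    have hbx₂ := hx₂p b (by simp)
    have hcx₂ := hx₂p c (by simp)
    have hxx₂ := hx₂p x (by simp)
    have hx₂N2 : x ∉ Submodule.span F₀ {y | y ∈ [x₂, b, c]} := by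
      intro h
      have e1 : ({y | y ∈ [x₂, b, c]} : Set (ι → F₀)) = insert x₂ {y | y ∈ [b, c]} := by ext z; simp
      have e2 : ({y | y ∈ [x, b, c]} : Set (ι → F₀)) = insert x {y | y ∈ [b, c]} := by ext z; simp
      rw [e1] at h
      rw [e2] at hx₂N
      exact hx₂N (mem_span_insert_exchange h hxN)
    obtain ⟨d, hd, hxd, hdp⟩ := CfsgLib.OS29.partner D.hQ₀ [x₂, b, c] x hx₂N2 (by
      intro v hv
      simp only [List.mem_cons, List.not_mem_nil, or_false] at hv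
      rcases hv with rfl | rfl | rfl
      · rw [QuadraticMap.polar_comm]; exact hxx₂
      · exact hbx
      · exact hcx) hx
    have hx₂d := hdp x₂ (by simp)
    have hbd := hdp b (by simp)
    have hcd := hdp c (by simp)
    set κ := f w (emb F₀ c) with hκ
    set β := f w (emb F₀ b') with hβ
    set ξ := f w (emb F₀ x) with hξ
    have hwb := swap_eq hf hbw
    have hbb0 := D.cq hb
    have hcc0 := D.cq hc
    -- first conjugation
    obtain ⟨g, hg, hgi, hgx⟩ := D.rat_move hb' hc (by rw [QuadraticMap.polar_comm]; exact hcb')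
    have h1 := h.conj hf hg hgi
    rw [hgx, hgx, D.c1 hbb', D.c0 hbc, ← hκ, ← hβ] at h1
    simp only [one_smul, zero_smul, sub_zero] at h1
    have q1 : f (emb F₀ b + emb F₀ c) (emb F₀ b + emb F₀ c) = 0 := by
      simp only [hf.add_left, add_right hf, hbb0, hcc0, D.c0 hbc, D.c0' hbc]; ring
    have p1 : f (emb F₀ b + emb F₀ c) (w + β • emb F₀ c - κ • emb F₀ b') = 0 := by
      simp only [hf.add_left, add_right hf, sub_right hf, smul_right hf, hbw, D.c0 hbc, D.c1 hbb', hcc0, D.c0 hcb']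
      rw [hf.herm (emb F₀ c) w, ← hκ]
      ring
    -- second conjugation
    obtain ⟨g2, hg2, hgi2, hgx2⟩ := D.rat_move hx hb (by rw [QuadraticMap.polar_comm]; exact hbx)
    have h2 := h1.conj hf hg2 hgi2
    have m1 : (g2 : Matrix ι ι F) *ᵥ (emb F₀ b + emb F₀ c) = emb F₀ b + emb F₀ c := by
      rw [hgx2]
      simp only [hf.add_left, D.c0 hbx, D.c0 hcx, hbb0, D.c0' hbc]
      simp
    have m2 : (g2 : Matrix ι ι F) *ᵥ (w + β • emb F₀ c - κ • emb F₀ b') =
        (w + β • emb F₀ c - κ • emb F₀ b') + (ξ • emb F₀ b + κ • emb F₀ x) := by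
      rw [hgx2]
      simp only [hf.add_left, sub_left hf, hf.smul_left, ← hξ, hwb, D.c0 hcx, D.c0 hb'x, D.c0' hbc, D.c1' hbb']
      module
    rw [m1, m2] at h2
    have p2 : f (emb F₀ b + emb F₀ c) (ξ • emb F₀ b + κ • emb F₀ x) = 0 := by
      simp only [hf.add_left, add_right hf, smul_right hf, hbb0, D.c0' hbc, D.c0 hbx, D.c0 hcx]
      ring
    have h3 := EI.sub hf h2 h1 q1 p1 p2
    -- third conjugation
    obtain ⟨g3, hg3, hgi3, hgx3⟩ := D.rat_move hd hx₂ (by rw [QuadraticMap.polar_comm]; exact hx₂d)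
    have h4 := h3.conj hf hg3 hgi3
    have m3 : (g3 : Matrix ι ι F) *ᵥ (emb F₀ b + emb F₀ c) = emb F₀ b + emb F₀ c := by
      rw [hgx3]
      simp only [hf.add_left, D.c0 hbd, D.c0 hcd, D.c0 hbx₂, D.c0 hcx₂]
      simp
    have m4 : (g3 : Matrix ι ι F) *ᵥ (ξ • emb F₀ b + κ • emb F₀ x) = (ξ • emb F₀ b + κ • emb F₀ x) + κ • emb F₀ x₂ := by
      rw [hgx3]
      simp only [hf.add_left, hf.smul_left, D.c0 hbd, D.c1 hxd, D.c0 hbx₂, D.c0 hxx₂]
      module
    rw [m3, m4] at h4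
    have p3 : f (emb F₀ b + emb F₀ c) (κ • emb F₀ x₂) = 0 := by
      simp only [hf.add_left, smul_right hf, D.c0 hbx₂, D.c0 hcx₂]
      ring
    have h5 := EI.sub hf h4 h3 q1 p2 p3
    have h6 : R F₀ f M (b + c) x₂ κ := by
      refine (EI.to_SR (h5.congr rfl rfl ?_)).congr (emb_add F₀ b c).symm rfl
      simp only [hf.smul_left, add_right hf, smul_right hf, D.c0' hbx₂, D.c0' hxx₂]
      ring
    refine D.hC (b + c) x₂ (by rw [qadd, hb, hc, hbc]; ring) hx₂ (by rw [QuadraticMap.polar_add_left, hbx₂, hcx₂, add_zero]) ?_ ?_ κ h6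
    · intro h0
      apply hcb
      rw [Submodule.mem_span_singleton]
      exact ⟨-1, by rw [neg_smul, one_smul]; exact (eq_neg_of_add_eq_zero_right h0).symm⟩
    · intro h0
      apply hx₂N
      obtain ⟨k, hk⟩ := Submodule.mem_span_singleton.mp h0
      rw [← hk, smul_add]
      exact Submodule.add_mem _ (Submodule.smul_mem _ _ (Submodule.subset_span (by simp))) (Submodule.smul_mem _ _ (Submodule.subset_span (by simp)))
  exact this

/-- short root elements of `M` are rational -/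
theorem P [Finite F] {u v : ι → F} (hu : f u u = 0) (hv : f v v = 0) (huv : f u v = 0) (h : SR f M u v) (c : ι → F₀) :
    ∃ p : ι → F₀, f (emb F₀ c) u • v - f (emb F₀ c) v • u = emb F₀ p := by
  have h13 := D.h13
  apply D.rat_of_func
  intro c'
  obtain ⟨g, hg, hgx⟩ := h
  have hgi := D.hMi hg
  -- a rational singular vector perpendicular to everything
  haveI : Module.Finite F₀ F := Module.finite_of_finrank_pos (by rw [D.hfin]; omega)
  set S := orth Q₀ (Submodule.span F₀ {z | z ∈ [c, c']}) with hS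
  have hSr : 11 ≤ finrank F₀ S := by
    have := CfsgLib.OS29.orth_list_ge D.hQ₀ [c, c']
    rw [← hS] at this
    simp at this
    omega
  let L : S →ₗ[F₀] (F × F) :=
    { toFun := fun z => (f (emb F₀ (z : ι → F₀)) u, f (emb F₀ (z : ι → F₀)) v)
      map_add' := fun x y => by
        refine Prod.ext ?_ ?_
        · change f (emb F₀ (x : ι → F₀) + emb F₀ (y : ι → F₀)) u = f (emb F₀ (x : ι → F₀)) u + f (emb F₀ (y : ι → F₀)) u
          rw [hf.add_left]
        · change f (emb F₀ (x : ι → F₀) + emb F₀ (y : ι → F₀)) v = f (emb F₀ (x : ι → F₀)) v + f (emb F₀ (y : ι → F₀)) v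
          rw [hf.add_left]
      map_smul' := fun k x => by
        refine Prod.ext ?_ ?_
        · change f ((k : F) • emb F₀ (x : ι → F₀)) u = (k : F) * f (emb F₀ (x : ι → F₀)) u
          rw [hf.smul_left]
        · change f ((k : F) • emb F₀ (x : ι → F₀)) v = (k : F) * f (emb F₀ (x : ι → F₀)) v
          rw [hf.smul_left] }
  obtain ⟨⟨b, hbS⟩, hLb, hb0', hb'⟩ := CfsgLib.OS29.exists_sing_ker Q₀ L (by rw [Module.finrank_prod, D.hfin]; omega)
  have hb : Q₀ b = 0 := hb'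
  have hb0 : b ≠ 0 := hb0'
  have hbu : f (emb F₀ b) u = 0 := congrArg Prod.fst hLb
  have hbv : f (emb F₀ b) v = 0 := congrArg Prod.snd hLb
  have hbS' := CfsgLib.OS29.mem_orth_list.mp hbS
  have hcb : B₀ b c = 0 := by rw [QuadraticMap.polar_comm]; exact hbS' c (by simp)
  have hc'b : B₀ b c' = 0 := by rw [QuadraticMap.polar_comm]; exact hbS' c' (by simp)
  let A₀ : Submodule F₀ (ι → F₀) :=
    { carrier := {x | f (f (emb F₀ x) u • v - f (emb F₀ x) v • u) (emb F₀ c') ∈ F₀}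
      add_mem' := fun {x y} hx hy => by
        change f (f (emb F₀ (x + y)) u • v - f (emb F₀ (x + y)) v • u) (emb F₀ c') ∈ F₀
        have : f (emb F₀ (x + y)) u • v - f (emb F₀ (x + y)) v • u = (f (emb F₀ x) u • v - f (emb F₀ x) v • u) + (f (emb F₀ y) u • v - f (emb F₀ y) v • u) := by
          rw [emb_add, hf.add_left, hf.add_left]; module
        rw [this, hf.add_left]
        exact F₀.add_mem hx hy
      zero_mem' := by
        change f (f (emb F₀ 0) u • v - f (emb F₀ 0) v • u) (emb F₀ c') ∈ F₀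
        rw [emb_zero, zero_left hf, zero_left hf, zero_smul, zero_smul, sub_zero, zero_left hf]; exact F₀.zero_mem
      smul_mem' := fun k x hx => by
        change f (f (emb F₀ (k • x)) u • v - f (emb F₀ (k • x)) v • u) (emb F₀ c') ∈ F₀
        have : f (emb F₀ (k • x)) u • v - f (emb F₀ (k • x)) v • u = (k : F) • (f (emb F₀ x) u • v - f (emb F₀ x) v • u) := by
          rw [emb_smul, hf.smul_left, hf.smul_left]; module
        rw [this, hf.smul_left]
        exact F₀.mul_mem k.2 hx }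
  have : c ∈ A₀ := by
    refine CfsgLib.OM29.rich_vec D.hQ₀ D.h7 b A₀ ?_ c hcb
    intro x hbx hx
    have h1 := (EI.of_SR (D.hM b x hb hx hbx)).conj hf hg hgi
    rw [hgx, hgx, hbu, hbv, zero_smul, zero_smul, add_zero, sub_zero, add_sub_assoc] at h1
    have p1 : f (emb F₀ b) (f (emb F₀ x) u • v - f (emb F₀ x) v • u) = 0 := by
      rw [sub_right hf, smul_right hf, smul_right hf, hbu, hbv]; ring
    have h2 := EI.sub hf h1 (EI.of_SR (D.hM b x hb hx hbx)) (D.cq hb) (D.c0 hbx) p1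
    exact D.P1 hb hb0 p1 h2 hc'b
  exact this

theorem SRt_of [Finite F] {k : GL ι F} (hk : k ∈ M) {a : ι → F₀} (ha : Q₀ a = 0) : Ud.SRt F₀ k a := by
  have h13 := D.h13
  by_cases ha0 : a = 0
  · exact ⟨0, 0, by rw [ha0, emb_zero, Matrix.mulVec_zero, zero_smul]⟩
  have hki := D.hMi hk
  obtain ⟨a₁, ha₁, hp1, hN1⟩ := CfsgLib.OS29.pick D.hQ₀ [a] [a] (by simp; omega)
  obtain ⟨a₂, ha₂, hp2, hN2⟩ := CfsgLib.OS29.pick D.hQ₀ [a] [a, a₁] (by simp; omega)
  rw [CfsgLib.OS29.span_list_single] at hN1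
  rw [CfsgLib.SpSub29.span_list_pair] at hN2
  have hN2' : a₂ ∉ Submodule.span F₀ {a} := fun h => hN2 (Submodule.span_mono (by simp) h)
  have e1 := hp1 a (by simp)
  have e2 := hp2 a (by simp)
  have key : ∀ a₁ : ι → F₀, Q₀ a₁ = 0 → B₀ a a₁ = 0 → a₁ ∉ Submodule.span F₀ {a} →
      tau σ ((k : Matrix ι ι F) *ᵥ emb F₀ a) ∈ Submodule.span F {(k : Matrix ι ι F) *ᵥ emb F₀ a, (k : Matrix ι ι F) *ᵥ emb F₀ a₁} := by
    intro a₁ ha₁ h01 hN
    apply D.tau_mem
    · intro h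
      exact emb_ne_zero F₀ ha0 (mulVec_injective k (h.trans (Matrix.mulVec_zero _).symm))
    · intro h
      obtain ⟨t, ht⟩ := Submodule.mem_span_singleton.mp h
      apply CfsgLib.OS29.Sd.emb_notMem_span hN ha0
      rw [Submodule.mem_span_singleton]
      refine ⟨t, ?_⟩
      apply mulVec_injective k
      simp only
      rw [Matrix.mulVec_smul]; exact ht
    · exact D.P (by rw [(mem_iso k).mp hki]; exact D.cq ha) (by rw [(mem_iso k).mp hki]; exact D.cq ha₁) (by rw [(mem_iso k).mp hki]; exact D.c0 h01)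
        (SR.conj hf (D.hM a a₁ ha ha₁ h01) hk hki)
  have k1 := key a₁ ha₁ e1 hN1
  have k2 := key a₂ ha₂ e2 hN2'
  obtain ⟨α, β, h1⟩ := Submodule.mem_span_pair.mp k1
  obtain ⟨γ, δ, h2⟩ := Submodule.mem_span_pair.mp k2
  have hδ : δ = 0 := by
    by_contra hδ
    have h3 : emb F₀ a₂ = (δ⁻¹ * (α - γ)) • emb F₀ a + (δ⁻¹ * β) • emb F₀ a₁ := by
      apply mulVec_injective k
      simp only
      rw [Matrix.mulVec_add, Matrix.mulVec_smul, Matrix.mulVec_smul]
      have h4 : δ • ((k : Matrix ι ι F) *ᵥ emb F₀ a₂) = (α - γ) • ((k : Matrix ι ι F) *ᵥ emb F₀ a) + β • ((k : Matrix ι ι F) *ᵥ emb F₀ a₁) := by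
        have : α • ((k : Matrix ι ι F) *ᵥ emb F₀ a) + β • ((k : Matrix ι ι F) *ᵥ emb F₀ a₁) = γ • ((k : Matrix ι ι F) *ᵥ emb F₀ a) + δ • ((k : Matrix ι ι F) *ᵥ emb F₀ a₂) := by
          rw [h1, h2]
        rw [sub_smul, eq_comm, sub_add_eq_add_sub, this, add_sub_cancel_left]
      rw [← smul_smul, ← smul_smul, ← smul_add, ← h4, smul_smul, inv_mul_cancel₀ hδ, one_smul]
    have n1 := CfsgLib.OS29.Sd.emb_notMem_span hN1 ha0
    have m1 := rat_coeff F₀ n1 (by rw [add_comm]; exact h3.symm)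
    have m2 := rat_coeff F₀ (notMem_span_symm (emb_ne_zero F₀ ha0) n1) h3.symm
    apply hN2
    rw [Submodule.mem_span_pair]
    refine ⟨⟨_, m2⟩, ⟨_, m1⟩, ?_⟩
    apply emb_injective F₀
    rw [emb_add, emb_smul, emb_smul]
    exact h3.symm
  rw [hδ, zero_smul, add_zero] at h2
  exact D.rat_of_tau_smul h2.symm

end Og

theorem uno_maximal0 [Finite F] (hf : Geo.IsUnitaryForm σ f) (hQ₀ : (QuadraticMap.polarBilin Q₀).Nondegenerate) (hc : ∀ x y, f (emb F₀ x) (emb F₀ y) = ((B₀ x y : F₀) : F))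
    (hσ : ∀ l : F₀, σ l = l) (hfix : ∀ c : F, σ c = c → c ∈ F₀) (h2 : (2 : F) ≠ 0) (hfin : Module.finrank F₀ F = 2) (h13 : 13 ≤ Fintype.card ι) :
    Geo.IsMaximalIn (iso f ⊓ Geo.specialLinear ι F) (((Matrix.GeneralLinearGroup.map (n := ι) (F₀.subtype : F₀ →+* F)).range ⊔ Geo.scalars ι F) ⊓ (iso f ⊓ Geo.specialLinear ι F)) := by
  have c0 : ∀ {x y : ι → F₀}, B₀ x y = 0 → f (emb F₀ x) (emb F₀ y) = 0 := fun {x y} h => by rw [hc, h]; rfl
  have hTG : TG hf ⊤ ≤ iso f ⊓ Geo.specialLinear ι F := le_inf (TG_le_iso hf ⊤) (TG_le_special hf ⊤)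
  have hrt : ∀ (a b : ι → F₀), Q₀ a = 0 → Q₀ b = 0 → B₀ a b = 0 →
      SR f (((Matrix.GeneralLinearGroup.map (n := ι) (F₀.subtype : F₀ →+* F)).range ⊔ Geo.scalars ι F) ⊓ (iso f ⊓ Geo.specialLinear ι F)) (emb F₀ a) (emb F₀ b) := by
    intro a b ha hb hab
    obtain ⟨g, hg, hgx⟩ := SR.of_TG hf (U := ⊤) (a := emb F₀ a) (b := emb F₀ b) Submodule.mem_top Submodule.mem_top (c0 (by rw [pself, ha, mul_zero]))
      (c0 (by rw [pself, hb, mul_zero])) (c0 hab)
    refine ⟨g, ⟨(mem_rational_iff F₀ _).mpr ⟨1, one_ne_zero, fun x => ⟨x + B₀ x a • b - B₀ x b • a, ?_⟩⟩, hTG hg⟩, hgx⟩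
    rw [one_smul, hgx, hc, hc]
    rfl
  refine ⟨⟨inf_le_right, fun hle => ?_⟩, fun M hHM hMK => ?_⟩
  · obtain ⟨c, hcm⟩ := exists_moved hf
    have hcF : c ∉ F₀ := fun h => hcm (hσ ⟨c, h⟩)
    obtain ⟨a, ha, _, haN⟩ := CfsgLib.OS29.pick hQ₀ [] [] (by simp; omega)
    obtain ⟨b, hb, hb1, hbN⟩ := CfsgLib.OS29.pick hQ₀ [a] [a] (by simp; omega)
    have hab := hb1 a (by simp)
    rw [CfsgLib.OS29.span_list_single] at hbN
    have ha0 : a ≠ 0 := fun h => haN (by rw [h]; exact Submodule.zero_mem _)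
    have hb0 : b ≠ 0 := fun h => hbN (by rw [h]; exact Submodule.zero_mem _)
    obtain ⟨z, hz, haz, hzb⟩ := CfsgLib.OS29.partner hQ₀ [b] a (by rw [CfsgLib.OS29.span_list_single]; exact notMem_span_symm ha0 hbN) (by
      intro v hv
      rw [List.mem_singleton.mp hv, QuadraticMap.polar_comm]; exact hab) ha
    have hbz := hzb b (by simp)
    have haa : f (emb F₀ a) (emb F₀ a) = 0 := c0 (by rw [pself, ha, mul_zero])
    have hbb : f (emb F₀ b) (emb F₀ b) = 0 := c0 (by rw [pself, hb, mul_zero])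
    have hab' := c0 hab
    obtain ⟨g, hg, hgx⟩ := exists_sr hf (Submodule.mem_top (x := emb F₀ a)) (Submodule.mem_top (x := emb F₀ b)) haa hbb hab' c
    have h1 := hle (hTG hg)
    obtain ⟨d, hd0, hd⟩ := (mem_rational_iff F₀ _).mp h1.1
    obtain ⟨y1, hy1⟩ := hd a
    obtain ⟨y2, hy2⟩ := hd z
    have hza : f (emb F₀ z) (emb F₀ a) = 1 := by rw [hc, QuadraticMap.polar_comm, haz]; rfl
    have hzb' : f (emb F₀ z) (emb F₀ b) = 0 := swap_eq hf (c0 hbz)
    rw [hgx, haa, hab', mul_zero, mul_zero, zero_smul, zero_smul, add_zero, sub_zero] at hy1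
    rw [hgx, hza, hzb', mul_zero, zero_smul, sub_zero, mul_one] at hy2
    obtain ⟨i, hi⟩ := Function.ne_iff.mp ha0
    obtain ⟨j, hj⟩ := Function.ne_iff.mp hb0
    have hi' : (a i : F) ≠ 0 := fun h => hi (Subtype.ext h)
    have hj' : (b j : F) ≠ 0 := fun h => hj (Subtype.ext h)
    have e1 : d * (a i : F) = (y1 i : F) := congrFun hy1 i
    have e2 : d * ((z j : F) + c * (b j : F)) = (y2 j : F) := congrFun hy2 j
    have e3 : d = (y1 i : F) / (a i : F) := by rw [← e1]; field_simp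
    have hdF : d ∈ F₀ := by rw [e3]; exact F₀.div_mem (y1 i).2 (a i).2
    apply hcF
    have e4 : c = ((y2 j : F) / d - (z j : F)) / (b j : F) := by
      rw [← e2]; field_simp; ring
    rw [e4]
    exact F₀.div_mem (F₀.sub_mem (F₀.div_mem (y2 j).2 hdF) (z j).2) (b j).2
  · have D : Od hf Q₀ M := ⟨hc, hQ₀, hσ, hfix, h2, hfin, fun a b ha hb hab => (hrt a b ha hb hab).mono hHM, hMK.trans inf_le_left, h13⟩
    by_cases hex : ∃ a b, Q₀ a = 0 ∧ Q₀ b = 0 ∧ B₀ a b = 0 ∧ a ≠ 0 ∧ b ∉ Submodule.span F₀ {a} ∧ ∃ c, R F₀ f M a b c ∧ c ∉ F₀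
    · obtain ⟨a, b, ha, hb, hab, ha0, hN, c, hR, hcF⟩ := hex
      right
      exact le_antisymm hMK (D.top_of_all (D.everything ha hb hab hcF hR hN ha0))
    · left
      push Not at hex
      have D' : Og hf Q₀ M := ⟨D, fun a b ha hb hab ha0 hN c h => hex a b ha hb hab ha0 hN c h⟩
      refine le_antisymm (fun g hg => ⟨?_, hMK hg⟩) hHM
      exact (mem_rational_iff F₀ g).mpr (D.Rat_of_sing fun a ha => D'.SRt_of hg ha)

theorem uno_maximal [Finite F] (hf : Geo.IsUnitaryForm σ f) (hσ : ∀ l : F₀, σ l = l) (hfix : ∀ c : F, σ c = c → c ∈ F₀) (h2 : (2 : F) ≠ 0)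
    (hfin : Module.finrank F₀ F = 2) (h13 : 13 ≤ Fintype.card ι) (P : GL ι F) (hP : Geo.IsFormRationalStructure f F₀ 1 P) :
    Geo.IsMaximalIn (iso f ⊓ Geo.specialLinear ι F) (Geo.subfieldSubgroup F₀ P ⊓ (iso f ⊓ Geo.specialLinear ι F)) := by
  apply maximal_pull
  have hf' := pull_unitary hf P
  set f' : (ι → F) → (ι → F) → F := fun x y => f ((P : Matrix ι ι F) *ᵥ x) ((P : Matrix ι ι F) *ᵥ y) with hf'd
  have hrat : ∀ x y : ι → F₀, f' (emb F₀ x) (emb F₀ y) ∈ F₀ := by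
    intro x y
    have := hP _ _ (fun i => (x i).2) (fun i => (y i).2)
    rw [one_mul] at this
    exact this
  have hsymm : ∀ x y : ι → F₀, f' (emb F₀ x) (emb F₀ y) = f' (emb F₀ y) (emb F₀ x) := by
    intro x y
    rw [hf'.herm]
    exact hσ ⟨_, hrat y x⟩
  have h20 : (2 : F₀) ≠ 0 := by
    intro h
    apply h2
    have h3 : F₀.subtype (2 : F₀) = 2 := map_ofNat F₀.subtype 2
    rw [← h3, h, map_zero]
  let Q₀ : QuadraticForm F₀ (ι → F₀) :=
    { toFun := fun x => ⟨f' (emb F₀ x) (emb F₀ x), hrat x x⟩ * 2⁻¹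
      toFun_smul := fun a x => by
        have : (⟨f' (emb F₀ (a • x)) (emb F₀ (a • x)), hrat _ _⟩ : F₀) = (a * a) * ⟨f' (emb F₀ x) (emb F₀ x), hrat x x⟩ := by
          apply Subtype.ext
          change f' (emb F₀ (a • x)) (emb F₀ (a • x)) = ((a : F) * a) * f' (emb F₀ x) (emb F₀ x)
          rw [emb_smul, hf'.smul_left, smul_right hf', hσ]; ring
        rw [this, smul_eq_mul]; ring
      exists_companion' := ⟨LinearMap.mk₂ F₀ (fun x y => ⟨f' (emb F₀ x) (emb F₀ y), hrat x y⟩)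
        (fun x x' y => Subtype.ext (by
          change f' (emb F₀ (x + x')) (emb F₀ y) = _
          rw [emb_add, hf'.add_left]; rfl))
        (fun c x y => Subtype.ext (by
          change f' (emb F₀ (c • x)) (emb F₀ y) = _
          rw [emb_smul, hf'.smul_left]; rfl))
        (fun x y y' => Subtype.ext (by
          change f' (emb F₀ x) (emb F₀ (y + y')) = _
          rw [emb_add, add_right hf']; rfl))
        (fun c x y => Subtype.ext (by
          change f' (emb F₀ x) (emb F₀ (c • y)) = _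
          rw [emb_smul, smul_right hf', hσ]; rfl)), fun x y => by
        rw [LinearMap.mk₂_apply]
        apply mul_right_cancel₀ h20
        rw [add_mul, add_mul, inv_mul_cancel_right₀ h20, inv_mul_cancel_right₀ h20, inv_mul_cancel_right₀ h20]
        apply Subtype.ext
        change f' (emb F₀ (x + y)) (emb F₀ (x + y)) = f' (emb F₀ x) (emb F₀ x) + f' (emb F₀ y) (emb F₀ y) + f' (emb F₀ x) (emb F₀ y) * 2
        rw [emb_add, hf'.add_left, add_right hf', add_right hf', hsymm y x]; ring⟩ }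
  have hc : ∀ x y, f' (emb F₀ x) (emb F₀ y) = ((QuadraticMap.polar Q₀ x y : F₀) : F) := by
    intro x y
    have h3 : QuadraticMap.polar Q₀ x y * 2 = ⟨f' (emb F₀ x) (emb F₀ y), hrat x y⟩ * 2 := by
      unfold QuadraticMap.polar
      change ((⟨f' (emb F₀ (x + y)) (emb F₀ (x + y)), hrat _ _⟩ : F₀) * 2⁻¹ - ⟨f' (emb F₀ x) (emb F₀ x), hrat _ _⟩ * 2⁻¹ - ⟨f' (emb F₀ y) (emb F₀ y), hrat _ _⟩ * 2⁻¹) * 2 = _
      rw [sub_mul, sub_mul, inv_mul_cancel_right₀ h20, inv_mul_cancel_right₀ h20, inv_mul_cancel_right₀ h20]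
      apply Subtype.ext
      change f' (emb F₀ (x + y)) (emb F₀ (x + y)) - f' (emb F₀ x) (emb F₀ x) - f' (emb F₀ y) (emb F₀ y) = f' (emb F₀ x) (emb F₀ y) * 2
      rw [emb_add, hf'.add_left, add_right hf', add_right hf', hsymm y x]; ring
    rw [mul_right_cancel₀ h20 h3]
  have hQ₀ : (QuadraticMap.polarBilin Q₀).Nondegenerate := by
    apply nondeg_of_left
    intro x hx
    by_contra hx0
    obtain ⟨⟨y, hy⟩, _⟩ := hf'.nondegenerate _ (emb_ne_zero F₀ hx0)
    apply hy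
    have h1 : fd hf' (emb F₀ x) y = 0 := by
      rw [CfsgLib.OS29.rational_span (F₀ := F₀) y, map_sum]
      apply Finset.sum_eq_zero
      intro i _
      rw [map_smul, fd_apply, hsymm, hc, hx]; simp
    exact h1
  exact uno_maximal0 hf' hQ₀ hc hσ hfix h2 hfin h13

end CfsgLib.UnO29
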