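import Cfsg.Agent.LibUn29e
import Cfsg.Agent.LibSpSub29c

/-! Short root elements of unitary groups lying in a subgroup; pull-back of unitary forms. -/

namespace CfsgLib.Un29

open scoped MatrixGroups Matrix
open Cfsg CfsgLib.MaxTv29 CfsgLib.Subfield29

variable {ι : Type} [Fintype ι] [DecidableEq ι] {F : Type*} [Field F] {σ : F ≃+* F}
variable {f : (ι → F) → (ι → F) → F}

/-- the element `x ↦ x + f(x,a) v - f(x,v) a` lies in `M` -/
def SR (f : (ι → F) → (ι → F) → F) (M : Subgroup (GL ι F)) (a v : ι → F) : Prop :=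
  ∃ g ∈ M, ∀ x, (g : Matrix ι ι F) *ᵥ x = x + f x a • v - f x v • a

theorem SR.congr {M : Subgroup (GL ι F)} {a v a' v' : ι → F} (h : SR f M a v) (ha : a = a') (hv : v = v') : SR f M a' v' := ha ▸ hv ▸ h

theorem SR.symm (hf : Geo.IsUnitaryForm σ f) {M : Subgroup (GL ι F)} {a v : ι → F} (h : SR f M a v) (ha : f a a = 0) (hv : f v v = 0) (hav : f a v = 0) :
    SR f M v a := by
  obtain ⟨g, hg, hgx⟩ := h
  refine ⟨g⁻¹, M.inv_mem hg, fun x => ?_⟩
  apply mulVec_injective g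
  simp only
  rw [mulVec_inv_mulVec, hgx]
  simp only [hf.add_left, sub_left hf, hf.smul_left, ha, hv, hav, swap_eq hf hav]
  module

theorem SR.neg (hf : Geo.IsUnitaryForm σ f) {M : Subgroup (GL ι F)} {a v : ι → F} (h : SR f M a v) (ha : f a a = 0) (hv : f v v = 0) (hav : f a v = 0) :
    SR f M a (-v) := by
  obtain ⟨g, hg, hgx⟩ := SR.symm hf h ha hv hav
  refine ⟨g, hg, fun x => ?_⟩
  rw [hgx, neg_right hf]
  module

theorem SR.smul_swap (hf : Geo.IsUnitaryForm σ f) {M : Subgroup (GL ι F)} {a v : ι → F} {κ : F} (h : SR f M (κ • a) v) : SR f M a (σ κ • v) := by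
  obtain ⟨g, hg, hgx⟩ := h
  refine ⟨g, hg, fun x => ?_⟩
  rw [hgx, smul_right hf, smul_right hf, hf.involutive]
  module

theorem SR.add (hf : Geo.IsUnitaryForm σ f) {M : Subgroup (GL ι F)} {a v w : ι → F} (h : SR f M a v) (h' : SR f M a w) (ha : f a a = 0)
    (hav : f a v = 0) (haw : f a w = 0) (hvw : f v w = 0) : SR f M a (v + w) := by
  obtain ⟨g, hg, hgx⟩ := h
  obtain ⟨g', hg', hgx'⟩ := h'
  refine ⟨g * g', M.mul_mem hg hg', fun x => ?_⟩
  rw [Units.val_mul, ← Matrix.mulVec_mulVec, hgx, hgx']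
  simp only [hf.add_left, add_right hf, sub_left hf, hf.smul_left, ha, hav, swap_eq hf haw, swap_eq hf hvw]
  module

theorem SR.sub (hf : Geo.IsUnitaryForm σ f) {M : Subgroup (GL ι F)} {a v w : ι → F} (h : SR f M a (v + w)) (h' : SR f M a v) (ha : f a a = 0)
    (hv : f v v = 0) (hav : f a v = 0) (haw : f a w = 0) (hvw : f v w = 0) : SR f M a w := by
  have h1 := SR.add hf h (h'.neg hf ha hv hav) ha (by rw [add_right hf, hav, haw, add_zero]) (by rw [neg_right hf, hav, neg_zero])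
    (by rw [neg_right hf, hf.add_left, hv, swap_eq hf hvw, add_zero, neg_zero])
  exact h1.congr rfl (by abel)

theorem SR.conj (hf : Geo.IsUnitaryForm σ f) {M : Subgroup (GL ι F)} {a v : ι → F} (h : SR f M a v) {k : GL ι F} (hk : k ∈ M) (hki : k ∈ iso f) :
    SR f M ((k : Matrix ι ι F) *ᵥ a) ((k : Matrix ι ι F) *ᵥ v) := by
  obtain ⟨g, hg, hgx⟩ := h
  refine ⟨k * g * k⁻¹, M.mul_mem (M.mul_mem hk hg) (M.inv_mem hk), fun x => ?_⟩
  have e1 : ∀ y, f (((k⁻¹ : GL ι F) : Matrix ι ι F) *ᵥ x) y = f x ((k : Matrix ι ι F) *ᵥ y) := by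
    intro y
    rw [← (mem_iso k).mp hki, mulVec_inv_mulVec]
  rw [Units.val_mul, Units.val_mul, ← Matrix.mulVec_mulVec, ← Matrix.mulVec_mulVec, hgx, Matrix.mulVec_sub, Matrix.mulVec_add, Matrix.mulVec_smul,
    Matrix.mulVec_smul, mulVec_inv_mulVec, e1, e1]

/-- isometries of this shape -/
theorem sr_mem_iso (hf : Geo.IsUnitaryForm σ f) {a v : ι → F} (ha : f a a = 0) (hv : f v v = 0) (hav : f a v = 0) {g : GL ι F}
    (hg : ∀ x, (g : Matrix ι ι F) *ᵥ x = x + f x a • v - f x v • a) : g ∈ iso f := by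
  rw [mem_iso]
  intro x y
  rw [hg, hg]
  simp only [hf.add_left, add_right hf, sub_left hf, sub_right hf, hf.smul_left, smul_right hf, ha, hv, hav, swap_eq hf hav, ← hf.herm]
  ring

theorem SR.of_TG (hf : Geo.IsUnitaryForm σ f) {U : Submodule F (ι → F)} {a b : ι → F} (haU : a ∈ U) (hbU : b ∈ U) (ha : f a a = 0) (hb : f b b = 0)
    (hab : f a b = 0) : SR f (TG hf U) a b := by
  obtain ⟨g, hg, hgx⟩ := exists_sr hf haU hbU ha hb hab 1
  exact ⟨g, hg, fun x => by rw [hgx, map_one, one_mul, one_mul]⟩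

theorem SR.mono {M M' : Subgroup (GL ι F)} (h : M ≤ M') {a v : ι → F} (hs : SR f M a v) : SR f M' a v := by
  obtain ⟨g, hg, hgx⟩ := hs
  exact ⟨g, h hg, hgx⟩

/-- `ut (u+v) c` in terms of `ut u c`, `ut v c` and a short root element -/
theorem SR.of_ut (hf : Geo.IsUnitaryForm σ f) {M : Subgroup (GL ι F)} {u v : ι → F} (hu : f u u = 0) (hv : f v v = 0) (huv : f u v = 0) {c : F} (hc : σ c = -c)
    (h1 : ut hf (u + v) c ∈ M) (h2 : ut hf u c ∈ M) (h3 : ut hf v c ∈ M) : SR f M u (c • v) := by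
  have hvu := swap_eq hf huv
  have huv' : f (u + v) (u + v) = 0 := by rw [hf.add_left, add_right hf, add_right hf, hu, hv, huv, hvu]; ring
  refine ⟨ut hf (u + v) c * (ut hf u c)⁻¹ * (ut hf v c)⁻¹, M.mul_mem (M.mul_mem h1 (M.inv_mem h2)) (M.inv_mem h3), fun x => ?_⟩
  rw [ut_inv hf hu, ut_inv hf hv, Units.val_mul, Units.val_mul, ← Matrix.mulVec_mulVec, ← Matrix.mulVec_mulVec, ut_mulVec hf hv, ut_mulVec hf hu,
    ut_mulVec hf huv']
  simp only [hf.add_left, add_right hf, hf.smul_left, smul_right hf, hu, hv, huv, hvu, hc]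
  module

/-- a transvection of `M` conjugated -/
theorem ut_mem_conj (hf : Geo.IsUnitaryForm σ f) {M : Subgroup (GL ι F)} {g : GL ι F} (hgM : g ∈ M) (hg : g ∈ iso f) {v : ι → F} (hv : f v v = 0) {c : F}
    (h : ut hf v c ∈ M) : ut hf ((g : Matrix ι ι F) *ᵥ v) c ∈ M := by
  rw [← ut_conj hf hg hv]
  exact M.mul_mem (M.mul_mem hgM h) (M.inv_mem hgM)

/-! ### Pull-back -/

theorem pull_unitary (hf : Geo.IsUnitaryForm σ f) (P : GL ι F) :
    Geo.IsUnitaryForm σ (fun x y => f ((P : Matrix ι ι F) *ᵥ x) ((P : Matrix ι ι F) *ᵥ y)) := by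
  refine ⟨hf.ne_refl, hf.involutive, ?_, ?_, ?_, ?_⟩
  · intro x y v
    simp only [Matrix.mulVec_add, hf.add_left]
  · intro c x v
    simp only [Matrix.mulVec_smul, hf.smul_left]
  · intro v w
    exact hf.herm _ _
  · intro v hv
    have hPv : (P : Matrix ι ι F) *ᵥ v ≠ 0 := fun h => hv (mulVec_injective P (h.trans (Matrix.mulVec_zero _).symm))
    obtain ⟨⟨x, hx⟩, ⟨y, hy⟩⟩ := hf.nondegenerate _ hPv
    refine ⟨⟨((P⁻¹ : GL ι F) : Matrix ι ι F) *ᵥ x, ?_⟩, ⟨((P⁻¹ : GL ι F) : Matrix ι ι F) *ᵥ y, ?_⟩⟩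
    · simp only [mulVec_inv_mulVec]; exact hx
    · simp only [mulVec_inv_mulVec]; exact hy

theorem iso_pull1 (f : (ι → F) → (ι → F) → F) (P : GL ι F) :
    (iso (fun x y => f ((P : Matrix ι ι F) *ᵥ x) ((P : Matrix ι ι F) *ᵥ y))).map (MulAut.conj P).toMonoidHom = iso f := by
  ext g
  rw [Subgroup.mem_map]
  constructor
  · rintro ⟨k, hk, rfl⟩
    rw [mem_iso] at hk ⊢
    intro u v
    have h1 := hk (((P⁻¹ : GL ι F) : Matrix ι ι F) *ᵥ u) (((P⁻¹ : GL ι F) : Matrix ι ι F) *ᵥ v)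
    simp only [mulVec_inv_mulVec] at h1
    change f (((P * k * P⁻¹ : GL ι F) : Matrix ι ι F) *ᵥ u) (((P * k * P⁻¹ : GL ι F) : Matrix ι ι F) *ᵥ v) = f u v
    rw [Units.val_mul, Units.val_mul, ← Matrix.mulVec_mulVec, ← Matrix.mulVec_mulVec, ← Matrix.mulVec_mulVec, ← Matrix.mulVec_mulVec]
    exact h1
  · intro hg
    refine ⟨P⁻¹ * g * P, ?_, by simp [mul_assoc]⟩
    rw [mem_iso] at hg
    apply (mem_iso _).mpr
    intro u v
    simp only [Units.val_mul, ← Matrix.mulVec_mulVec, mulVec_inv_mulVec]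
    rw [hg]

theorem special_map (P : GL ι F) : (Geo.specialLinear ι F).map (MulAut.conj P).toMonoidHom = Geo.specialLinear ι F := by
  haveI : (Geo.specialLinear ι F).Normal := by unfold Geo.specialLinear; infer_instance
  ext x
  rw [Subgroup.mem_map]
  constructor
  · rintro ⟨y, hy, rfl⟩
    exact (inferInstance : (Geo.specialLinear ι F).Normal).conj_mem y hy P
  · intro hx
    refine ⟨P⁻¹ * x * P, ?_, ?_⟩
    · have := (inferInstance : (Geo.specialLinear ι F).Normal).conj_mem x hx P⁻¹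
      rwa [inv_inv] at this
    · simp [mul_assoc]

/-- transport of maximality of a subfield subgroup in the special unitary group -/
theorem maximal_pull (F₀ : Subfield F) (f : (ι → F) → (ι → F) → F) (P : GL ι F)
    (h : Geo.IsMaximalIn (iso (fun x y => f ((P : Matrix ι ι F) *ᵥ x) ((P : Matrix ι ι F) *ᵥ y)) ⊓ Geo.specialLinear ι F)
      (((Matrix.GeneralLinearGroup.map (n := ι) (F₀.subtype : F₀ →+* F)).range ⊔ Geo.scalars ι F) ⊓
        (iso (fun x y => f ((P : Matrix ι ι F) *ᵥ x) ((P : Matrix ι ι F) *ᵥ y)) ⊓ Geo.specialLinear ι F))) :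
    Geo.IsMaximalIn (iso f ⊓ Geo.specialLinear ι F) (Geo.subfieldSubgroup F₀ P ⊓ (iso f ⊓ Geo.specialLinear ι F)) := by
  have h1 := isMaximalIn_map (MulAut.conj P) h
  have e : (iso (fun x y => f ((P : Matrix ι ι F) *ᵥ x) ((P : Matrix ι ι F) *ᵥ y)) ⊓ Geo.specialLinear ι F).map (MulAut.conj P).toMonoidHom
      = iso f ⊓ Geo.specialLinear ι F := by
    rw [Subgroup.map_inf _ _ _ (MulAut.conj P).injective, iso_pull1 f P, special_map]
  rw [e] at h1
  rw [Subgroup.map_inf ((Matrix.GeneralLinearGroup.map (n := ι) (F₀.subtype : F₀ →+* F)).range ⊔ Geo.scalars ι F) _ _ (MulAut.conj P).injective, e] at h1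
  exact h1

end CfsgLib.Un29
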