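import Cfsg.Agent.LibFus21PSL3

set_option autoImplicit false

/-! Unitary and symplectic groups in defining characteristic: triangular matrices (helper1) -/

namespace CfsgLib.Unc

open Cfsg Matrix CfsgLib.Fus21

variable {K : Type*} [Field K] {ι : Type*} [Fintype ι] [DecidableEq ι]

/-- strictly block upper triangular -/
def Nil (b : ι → ℕ) (N : Matrix ι ι K) : Prop := ∀ i j, ¬ b i < b j → N i j = 0

/-- block upper triangular -/
def Alg (b : ι → ℕ) (N : Matrix ι ι K) : Prop := ∀ i j, ¬ b i ≤ b j → N i j = 0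

theorem Nil.add {b : ι → ℕ} {N M : Matrix ι ι K} (hN : Nil b N) (hM : Nil b M) : Nil b (N + M) :=
  fun i j h => by rw [Matrix.add_apply, hN i j h, hM i j h, add_zero]

theorem Nil.mul_alg {b : ι → ℕ} {N M : Matrix ι ι K} (hN : Nil b N) (hM : Alg b M) : Nil b (N * M) := by
  intro i j h
  rw [Matrix.mul_apply]
  refine Finset.sum_eq_zero fun k _ => ?_
  by_cases h1 : b i < b k
  · rw [hM k j (by omega), mul_zero]
  · rw [hN i k h1, zero_mul]

theorem Nil.alg_mul {b : ι → ℕ} {N M : Matrix ι ι K} (hN : Alg b N) (hM : Nil b M) : Nil b (N * M) := by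
  intro i j h
  rw [Matrix.mul_apply]
  refine Finset.sum_eq_zero fun k _ => ?_
  by_cases h1 : b i ≤ b k
  · rw [hM k j (by omega), mul_zero]
  · rw [hN i k h1, zero_mul]

theorem Alg.mul {b : ι → ℕ} {N M : Matrix ι ι K} (hN : Alg b N) (hM : Alg b M) : Alg b (N * M) := by
  intro i j h
  rw [Matrix.mul_apply]
  refine Finset.sum_eq_zero fun k _ => ?_
  by_cases h1 : b i ≤ b k
  · rw [hM k j (by omega), mul_zero]
  · rw [hN i k h1, zero_mul]

theorem Nil.alg {b : ι → ℕ} {N : Matrix ι ι K} (hN : Nil b N) : Alg b N :=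
  fun i j h => hN i j (by omega)

theorem alg_one (b : ι → ℕ) : Alg b (1 : Matrix ι ι K) := by
  intro i j h
  rw [Matrix.one_apply_ne]
  rintro rfl
  exact h le_rfl

theorem Alg.add {b : ι → ℕ} {N M : Matrix ι ι K} (hN : Alg b N) (hM : Alg b M) : Alg b (N + M) :=
  fun i j h => by rw [Matrix.add_apply, hN i j h, hM i j h, add_zero]

theorem nil_one_sub_mul {b : ι → ℕ} {g h : Matrix ι ι K} (hg : Nil b (g - 1)) (hh : Nil b (h - 1)) :
    Nil b (g * h - 1) := by
  have : g * h - 1 = (g - 1) * (h - 1) + ((g - 1) + (h - 1)) := by noncomm_ring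
  rw [this]
  exact (hg.mul_alg hh.alg).add (hg.add hh)

theorem Nil.pow_apply {b : ι → ℕ} {N : Matrix ι ι K} (hN : Nil b N) (m : ℕ) :
    ∀ i j, b j < b i + m → (N ^ m) i j = 0 := by
  induction m with
  | zero =>
    intro i j h
    rw [pow_zero, Matrix.one_apply_ne]
    rintro rfl
    omega
  | succ m ih =>
    intro i j h
    rw [pow_succ, Matrix.mul_apply]
    refine Finset.sum_eq_zero fun k _ => ?_
    by_cases h1 : b k < b i + m
    · rw [ih i k h1, zero_mul]
    · rw [hN k j (by omega), mul_zero]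

theorem Nil.pow_eq_zero {b : ι → ℕ} {N : Matrix ι ι K} (hN : Nil b N) {m : ℕ}
    (hm : Finset.univ.sup b < m) : N ^ m = 0 := by
  ext i j
  rw [hN.pow_apply m i j, Matrix.zero_apply]
  have : b j ≤ Finset.univ.sup b := Finset.le_sup (Finset.mem_univ j)
  omega

section grp

variable {G : Type*} [Group G] [Finite G] (φ : G →* Matrix ι ι K)

theorem phi_inv (g : G) : φ g⁻¹ * φ g = 1 := by rw [← map_mul, inv_mul_cancel, map_one]

theorem phi_inv' (g : G) : φ g * φ g⁻¹ = 1 := by rw [← map_mul, mul_inv_cancel, map_one]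

/-- the unipotent radical attached to `b` -/
def Rb (b : ι → ℕ) : Subgroup G where
  carrier := {g | Nil b (φ g - 1)}
  one_mem' := by
    intro i j h
    rw [map_one, sub_self]; rfl
  mul_mem' := by
    intro g h hg hh
    show Nil b (φ (g * h) - 1)
    rw [map_mul]
    exact nil_one_sub_mul hg hh
  inv_mem' := by
    intro g hg
    have h1 : ∀ m : ℕ, Nil b (φ (g ^ m) - 1) := by
      intro m
      induction m with
      | zero => intro i j h; rw [pow_zero, map_one, sub_self]; rfl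
      | succ m ih =>
        rw [pow_succ, map_mul]
        exact nil_one_sub_mul ih hg
    have h2 : g⁻¹ = g ^ (orderOf g - 1) := by
      rw [inv_eq_iff_mul_eq_one, ← pow_succ']
      rw [Nat.sub_add_cancel (orderOf_pos g)]
      exact pow_orderOf_eq_one g
    show Nil b (φ g⁻¹ - 1)
    rw [h2]; exact h1 _

variable {φ}

theorem mem_Rb {b : ι → ℕ} {g : G} : g ∈ Rb φ b ↔ Nil b (φ g - 1) := Iff.rfl

theorem mem_Rb' {b : ι → ℕ} {g : G} : g ∈ Rb φ b ↔ ∀ i j, ¬ b i < b j → φ g i j = (1 : Matrix ι ι K) i j := by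
  rw [mem_Rb]
  exact forall_congr' fun i => forall_congr' fun j => forall_congr' fun h => by
    rw [Matrix.sub_apply, sub_eq_zero]

theorem alg_pow' {b : ι → ℕ} {g : G} (hg : Alg b (φ g)) (m : ℕ) : Alg b (φ (g ^ m)) := by
  induction m with
  | zero => rw [pow_zero, map_one]; exact alg_one _
  | succ m ih => rw [pow_succ, map_mul]; exact ih.mul hg

theorem alg_inv {b : ι → ℕ} {g : G} (hg : Alg b (φ g)) : Alg b (φ g⁻¹) := by
  have h2 : g⁻¹ = g ^ (orderOf g - 1) := by
    rw [inv_eq_iff_mul_eq_one, ← pow_succ']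
    rw [Nat.sub_add_cancel (orderOf_pos g)]
    exact pow_orderOf_eq_one g
  rw [h2]; exact alg_pow' hg _

theorem Rb_conj {b : ι → ℕ} {g : G} (h1 : Alg b (φ g)) : ∀ x ∈ Rb φ b, g * x * g⁻¹ ∈ Rb φ b := by
  intro x hx
  rw [mem_Rb] at hx ⊢
  have h3 : φ (g * x * g⁻¹) - 1 = φ g * (φ x - 1) * φ g⁻¹ := by
    rw [map_mul, map_mul, mul_sub, mul_one, sub_mul, phi_inv']
  rw [h3]
  exact (Nil.alg_mul h1 hx).mul_alg (alg_inv h1)

theorem Rb_norm {b : ι → ℕ} {g : G} (h1 : Alg b (φ g)) : g ∈ Subgroup.normalizer ((Rb φ b : Subgroup G) : Set G) :=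
  Subgroup.mem_normalizer_fintype (Rb_conj h1)

theorem Rb_alg {b c : ι → ℕ} (h : ∀ i j, b i < b j → c i ≤ c j) {g : G} (hg : g ∈ Rb φ b) : Alg c (φ g) := by
  intro i j hij
  rw [mem_Rb'.1 hg i j (fun h' => hij (h i j h')), Matrix.one_apply_ne]
  rintro rfl
  exact hij le_rfl

theorem Rb_isPGroup {p : ℕ} [Fact p.Prime] [CharP K p] (hφ : Function.Injective φ) (b : ι → ℕ) : IsPGroup p (Rb φ b) := by
  rintro ⟨g, hg⟩
  rcases isEmpty_or_nonempty ι with hι | hι
  · refine ⟨0, Subtype.ext (hφ ?_)⟩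
    ext i; exact (hι.false i).elim
  have h1 := (mem_Rb.1 hg).pow_eq_zero (Nat.lt_succ_self _)
  set m := (Finset.univ.sup b).succ
  refine ⟨m, Subtype.ext (hφ ?_)⟩
  show φ (g ^ p ^ m) = φ 1
  have h2 : φ (g ^ p ^ m) = ((φ g - 1) + 1) ^ p ^ m := by
    rw [sub_add_cancel, map_pow]
  haveI : CharP (Matrix ι ι K) p := inferInstance
  rw [h2, add_pow_char_pow_of_commute _ _ (Commute.one_right _), one_pow]
  have h3 : m ≤ p ^ m := (Nat.lt_pow_self (Fact.out : p.Prime).one_lt).le
  have h4 : (φ g - 1) ^ p ^ m = 0 := by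
    rw [← Nat.sub_add_cancel h3, pow_add, h1, mul_zero]
  rw [h4, zero_add, map_one]

omit [Finite G] in
theorem alg_diag_mul {b : ι → ℕ} (hb : Function.Injective b) {g h : Matrix ι ι K} (hg : Alg b g) (hh : Alg b h) (i : ι) :
    (g * h) i i = g i i * h i i := by
  rw [Matrix.mul_apply, Finset.sum_eq_single i]
  · intro j _ hj
    have hj' : b j ≠ b i := fun h => hj (hb h)
    rcases lt_or_gt_of_ne hj' with h1 | h1
    · rw [hg i j (by omega), zero_mul]
    · rw [hh j i (by omega), mul_zero]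
  · intro h; exact absurd (Finset.mem_univ i) h

theorem alg_pow_diag {b : ι → ℕ} (hb : Function.Injective b) {g : G} (hg : Alg b (φ g)) (m : ℕ) (i : ι) :
    φ (g ^ m) i i = (φ g i i) ^ m := by
  induction m with
  | zero => rw [pow_zero, map_one, pow_zero, Matrix.one_apply_eq]
  | succ m ih => rw [pow_succ, map_mul, alg_diag_mul hb (alg_pow' hg m) hg, ih, pow_succ]

theorem alg_ne_zero {b : ι → ℕ} (hb : Function.Injective b) {g : G} (hg : Alg b (φ g)) (i : ι) : φ g i i ≠ 0 := by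
  intro h
  have h1 := congrFun (congrFun (phi_inv' φ g) i) i
  rw [alg_diag_mul hb hg (alg_inv hg), h, zero_mul, Matrix.one_apply_eq] at h1
  exact zero_ne_one h1

theorem upper_pow_mem [Fintype K] {b : ι → ℕ} (hb : Function.Injective b) {g : G} (hg : Alg b (φ g)) :
    g ^ (Fintype.card K - 1) ∈ Rb φ b := by
  rw [mem_Rb']
  intro i j hij
  rcases eq_or_ne i j with rfl | hne
  · rw [alg_pow_diag hb hg, Matrix.one_apply_eq]
    exact FiniteField.pow_card_sub_one_eq_one _ (alg_ne_zero hb hg i)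
  · have hne' : b i ≠ b j := fun h => hne (hb h)
    rw [alg_pow' hg _ i j (by omega), Matrix.one_apply_ne hne]

/-- the standard flag -/
def Wk (K : Type*) [Field K] (b : ι → ℕ) (k : ℕ) : Set (ι → K) := {v | ∀ j : ι, k ≤ b j → v j = 0}

theorem mulVec_Wk {b : ι → ℕ} {k : ℕ} {N : Matrix ι ι K} (hN : Nil b N) {v : ι → K} (hv : v ∈ Wk K b (k + 1)) :
    N *ᵥ v ∈ Wk K b k := by
  intro i hi
  rw [Matrix.mulVec, dotProduct]
  refine Finset.sum_eq_zero fun j _ => ?_
  by_cases h1 : b i < b j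
  · rw [hv j (by omega), mul_zero]
  · rw [hN i j h1, zero_mul]

/-- the normalizer preserves the flag -/
theorem normalizer_upper {b : ι → ℕ}
    (hC : ∀ j : ι, b j ≠ 0 → ∃ i : ι, b i + 1 = b j ∧ ∃ u ∈ Rb φ b, ∃ c : K, c ≠ 0 ∧ ∀ v : ι → K, (∀ l, b j < b l → v l = 0) → ((φ u - 1) *ᵥ v) i = c * v j)
    {g : G} (hg : g ∈ Subgroup.normalizer ((Rb φ b : Subgroup G) : Set G)) : Alg b (φ g) := by
  have hW : ∀ k : ℕ, ∀ v : ι → K, (∀ u ∈ Rb φ b, (φ u - 1) *ᵥ v ∈ Wk K b k) → v ∈ Wk K b (k + 1) := by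
    intro k v hv
    -- downward induction on `b j`
    have key : ∀ m : ℕ, ∀ j : ι, k + 1 ≤ b j → (Finset.univ.sup b) - b j ≤ m → v j = 0 := by
      intro m
      induction m with
      | zero =>
        intro j hj hm
        obtain ⟨i, hi, u, hu, c, hc, h1⟩ := hC j (by omega)
        have h2 := h1 v (fun l hl => by
          have : b l ≤ Finset.univ.sup b := Finset.le_sup (Finset.mem_univ l)
          omega)
        rw [hv u hu i (by omega)] at h2
        exact (mul_eq_zero.1 h2.symm).resolve_left hc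
      | succ m ih =>
        intro j hj hm
        obtain ⟨i, hi, u, hu, c, hc, h1⟩ := hC j (by omega)
        have h2 := h1 v (fun l hl => ih l (by omega) (by omega))
        rw [hv u hu i (by omega)] at h2
        exact (mul_eq_zero.1 h2.symm).resolve_left hc
    intro j hj
    exact key _ j hj le_rfl
  have key : ∀ k : ℕ, ∀ v ∈ Wk K b k, (φ g) *ᵥ v ∈ Wk K b k := by
    intro k
    induction k with
    | zero =>
      intro v hv
      have : v = 0 := funext fun j => hv j (Nat.zero_le _)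
      rw [this, Matrix.mulVec_zero]
      intro j _; rfl
    | succ k ih =>
      intro v hv
      apply hW
      intro u hu
      have h1 : g⁻¹ * u * g ∈ Rb φ b := by
        have := (Subgroup.mem_normalizer_iff.1 (Subgroup.inv_mem _ hg) u).1 hu
        rwa [inv_inv] at this
      have h2 := ih _ (mulVec_Wk (mem_Rb.1 h1) hv)
      have h3 : (φ u - 1) *ᵥ (φ g) *ᵥ v = (φ g) *ᵥ ((φ (g⁻¹ * u * g) - 1) *ᵥ v) := by
        rw [Matrix.mulVec_mulVec, Matrix.mulVec_mulVec]
        congr 1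
        rw [map_mul, map_mul, mul_sub, mul_one, sub_mul, one_mul, ← mul_assoc, ← mul_assoc, phi_inv', one_mul]
      rw [h3]; exact h2
  intro i j hij
  have h1 := key (b j + 1) (Pi.single j 1) (by
    intro l hl
    rw [Pi.single_apply, if_neg]
    rintro rfl; omega) i (by omega)
  rw [Matrix.mulVec_single_one] at h1
  exact h1

end grp

end CfsgLib.Unc
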