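import Cfsg.Agent.LibUnc9

set_option autoImplicit false

/-! Special isometry groups: generation of the torus (helper1) -/

namespace CfsgLib.Unc

open Cfsg Matrix CfsgLib.Fus21

variable {K : Type*} [Field K] {ι : Type*} [Fintype ι] [DecidableEq ι]
variable {G : Type*} [Group G] {σ : K →+* K} {rev : ι → ι} {s : ι → K} {b : ι → ℕ} {φ : G →* Matrix ι ι K}

local notation "⟪" x ", " y "⟫" => fm σ rev s x y

namespace Dat

variable (D : Dat σ rev s b φ)
include D

theorem ex_rk {P : Subgroup G} {j : ι} (hj : rev j ≠ j) {x : ι → K} (hx1 : x j = 0) (hx2 : x (rev j) = 0)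
    (h1 : ∀ (c d : K), d - σ d = ⟪c • x, c • x⟫ → ∃ g ∈ P, φ g = El σ rev s (Pi.single j 1) (c • x) d)
    (h2 : ∀ (c d : K), d - σ d = ⟪c • x, c • x⟫ → ∃ g ∈ P, φ g = El σ rev s (Pi.single (rev j) 1) (c • x) d) {β : K} (hβ0 : β ≠ 0)
    (hβ : β - σ β = ⟪x, x⟫) :
    ∃ g ∈ P, (∀ a, φ g *ᵥ (Pi.single j a) = Pi.single j (β * a)) ∧
      (∀ a, φ g *ᵥ (Pi.single (rev j) a) = Pi.single (rev j) ((σ β)⁻¹ * a)) ∧
      (∀ y : ι → K, y j = 0 → y (rev j) = 0 → ⟪y, x⟫ = 0 → φ g *ᵥ y = y) ∧ φ g *ᵥ x = (σ β / β) • x := by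
  have hσβ : σ β ≠ 0 := (map_ne_zero σ).2 hβ0
  have hs := D.s0 j
  have hσs : σ (s j) ≠ 0 := (map_ne_zero σ).2 hs
  have hsr : s (rev j) = - σ (s j) := by rw [D.ss, neg_neg]
  obtain ⟨X, hX, x1, x2, x3, x4⟩ := D.ex_rn hj hx1 hx2 h1 h2 hβ0 hβ
  obtain ⟨Y, hY, y1, y2, y3, y4⟩ := D.ex_rn (P := P) (β := -1) hj (x := 0) rfl rfl (by
    intro c d hd
    obtain ⟨g, hg, hg'⟩ := h1 0 d (by rw [zero_smul]; rwa [smul_zero] at hd)
    exact ⟨g, hg, by rw [hg', zero_smul, smul_zero]⟩) (by
    intro c d hd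
    obtain ⟨g, hg, hg'⟩ := h2 0 d (by rw [zero_smul]; rwa [smul_zero] at hd)
    exact ⟨g, hg, by rw [hg', zero_smul, smul_zero]⟩) (neg_ne_zero.2 one_ne_zero) (by rw [map_neg, map_one, fm_zero_right]; ring)
  refine ⟨X * Y, P.mul_mem hX hY, fun a => ?_, fun a => ?_, fun y hy1 hy2 hy3 => ?_, ?_⟩
  · rw [map_mul, ← mulVec_mulVec, y1, x2]
    congr 1
    rw [hsr, map_neg, map_one]; field_simp
  · rw [map_mul, ← mulVec_mulVec, y2, x1]
    congr 1
    rw [hsr]; field_simp
  · rw [map_mul, ← mulVec_mulVec, y3 y hy1 hy2 (fm_zero_right _), x3 y hy1 hy2 hy3]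
  · rw [map_mul, ← mulVec_mulVec, y3 x hx1 hx2 (fm_zero_right _), x4]

theorem ex_rkd {P : Subgroup G} {j : ι} (hj : rev j ≠ j)
    (h1 : ∀ (z : ι → K) (d : K), (∀ l, rev l ≠ l → z l = 0) → d - σ d = ⟪z, z⟫ → ∃ g ∈ P, φ g = El σ rev s (Pi.single j 1) z d)
    (h2 : ∀ (z : ι → K) (d : K), (∀ l, rev l ≠ l → z l = 0) → d - σ d = ⟪z, z⟫ → ∃ g ∈ P, φ g = El σ rev s (Pi.single (rev j) 1) z d)
    {β : K} (hβ0 : β ≠ 0) (hβ : σ β = β ∨ ∃ m v, rev m = m ∧ v ≠ 0 ∧ β - σ β = v * (s m * σ v)) :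
    ∃ g ∈ P, φ g = diagonal (rkv σ rev j β) := by
  have hj' : rev (rev j) ≠ rev j := by rw [D.rr]; exact hj.symm
  rcases hβ with hβ | ⟨m, v, hm, hv, hβ⟩
  · obtain ⟨g, hg, g1, g2, g3, g4⟩ := D.ex_rk (P := P) hj (x := 0) rfl rfl (fun c d hd => h1 _ d (fun l _ => by rw [smul_zero]; rfl) hd)
      (fun c d hd => h2 _ d (fun l _ => by rw [smul_zero]; rfl) hd) hβ0 (by rw [hβ, sub_self, fm_zero_right])
    refine ⟨g, hg, colext fun l => ?_⟩
    rw [diag_mulVec_single, rkv]
    by_cases l1 : l = j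
    · subst l1; rw [g1, if_pos rfl]
    by_cases l2 : l = rev j
    · subst l2; rw [g2, if_neg l1, if_pos rfl]
    rw [g3 _ (Pi.single_eq_of_ne (Ne.symm l1) _) (Pi.single_eq_of_ne (Ne.symm l2) _) (fm_zero_right _), if_neg l1, if_neg l2, hβ, div_self hβ0]
    split_ifs <;> rw [mul_one]
  · have hmj : m ≠ j := by rintro rfl; exact hj hm
    have hmj' : m ≠ rev j := by rintro rfl; exact hj' hm
    have hz : ∀ (c : K) l, rev l ≠ l → (c • Pi.single m v : ι → K) l = 0 := by
      intro c l hl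
      rw [Pi.smul_apply, Pi.single_eq_of_ne, smul_zero]
      rintro rfl; exact hl hm
    obtain ⟨g, hg, g1, g2, g3, g4⟩ := D.ex_rk (P := P) hj (x := Pi.single m v) (Pi.single_eq_of_ne hmj.symm _) (Pi.single_eq_of_ne hmj'.symm _)
      (fun c d hd => h1 _ d (hz c) hd)
      (fun c d hd => h2 _ d (hz c) hd) hβ0 (by rw [hβ, fm_single_left, hm, Pi.single_eq_same])
    refine ⟨g, hg, colext fun l => ?_⟩
    rw [diag_mulVec_single, rkv]
    by_cases l1 : l = j
    · subst l1; rw [g1, if_pos rfl]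
    by_cases l2 : l = rev j
    · subst l2; rw [g2, if_neg l1, if_pos rfl]
    rw [if_neg l1, if_neg l2]
    by_cases l3 : rev l = l
    · have hlm : l = m := by
        have e1 := D.brev l
        have e2 := D.brev m
        rw [l3] at e1
        rw [hm] at e2
        exact D.binj (by omega)
      subst hlm
      rw [if_pos l3]
      have g5 := congrArg (fun w : ι → K => v⁻¹ • w) g4
      simp only [← mulVec_smul] at g5
      have g6 : v⁻¹ • (Pi.single l v : ι → K) = Pi.single l 1 := by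
        rw [← Pi.single_smul, smul_eq_mul, inv_mul_cancel₀ hv]
      rw [g6] at g5
      rw [g5, smul_comm, g6, mul_one, ← Pi.single_smul, smul_eq_mul, mul_one]
    · rw [if_neg l3, mul_one]
      refine g3 _ (Pi.single_eq_of_ne (Ne.symm l1) _) (Pi.single_eq_of_ne (Ne.symm l2) _) (D.ss_ne fun h => ?_)
      apply l3
      rw [h, ← D.rr l, h, hm]

theorem diag_rev {d : G} {δ : ι → K} (hd : φ d = diagonal δ) (l : ι) : δ l * σ (δ (rev l)) = 1 := by
  have h1 := D.iso d (Pi.single l 1) (Pi.single (rev l) 1)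
  rw [hd, diag_mulVec_single, diag_mulVec_single, D.ss_eq, D.ss_eq, mul_one, mul_one, map_one, mul_one, one_mul] at h1
  have h2 := D.s0 l
  have h3 : s l * (δ l * σ (δ (rev l)) - 1) = 0 := by linear_combination h1
  exact sub_eq_zero.1 ((mul_eq_zero.1 h3).resolve_left h2)

theorem diag_inv {d : G} {δ : ι → K} (hd : φ d = diagonal δ) : φ d⁻¹ = diagonal fun l => (δ l)⁻¹ := by
  have h1 : φ d⁻¹ * diagonal δ = 1 := by rw [← hd, ← map_mul, inv_mul_cancel, map_one]
  have h2 : diagonal δ * (diagonal fun l => (δ l)⁻¹) = 1 := by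
    rw [diagonal_mul_diagonal, ← diagonal_one]
    congr 1
    ext l
    have h3 := D.diag_rev hd l
    exact mul_inv_cancel₀ (left_ne_zero_of_mul_eq_one h3)
  calc φ d⁻¹ = φ d⁻¹ * (diagonal δ * (diagonal fun l => (δ l)⁻¹)) := by rw [h2, mul_one]
    _ = _ := by rw [← mul_assoc, h1, one_mul]

theorem torus_aux {H : Subgroup G} (hH1 : ∀ i j, b i + 1 = b j → b j < b (rev j) → ∀ c : K, c ≠ 0 → ∃ g ∈ H, φ g = diagonal (hdv σ rev i j c)) :
    ∀ t k0 : ℕ, k0 + t = Fintype.card ι → ∀ (d : G) (δ : ι → K), φ d = diagonal δ → (∀ l, b l < k0 → b l < b (rev l) → δ l = 1) →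
      ∏ l ∈ Finset.univ.filter (fun l => b l < b (rev l)), δ l = 1 → (∀ m, rev m = m → δ m = 1) → d ∈ H := by
  intro t
  induction t with
  | zero =>
    intro k0 hk0 d δ hd h1 h2 h3
    have : d = 1 := by
      apply D.inj
      rw [hd, map_one, ← diagonal_one]
      congr 1
      ext l
      have hbl := D.brev l
      rcases lt_trichotomy (b l) (b (rev l)) with h | h | h
      · exact h1 l (by omega) h
      · exact h3 l (D.binj h.symm)
      · have h5 := D.diag_rev hd l
        rw [h1 (rev l) (by omega) (by rw [D.rr]; exact h), map_one, mul_one] at h5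
        exact h5
    rw [this]; exact H.one_mem
  | succ t ih =>
    intro k0 hk0 d δ hd h1 h2 h3
    obtain ⟨k, hk⟩ := D.bsurj (k := k0) (by omega)
    have hbk := D.brev k
    by_cases hl : b k < b (rev k)
    · obtain ⟨j, hj⟩ := D.bsurj (k := k0 + 1) (by omega)
      have hbj := D.brev j
      have hkj : k ≠ j := by rintro rfl; omega
      by_cases hlj : b j < b (rev j)
      · have hδk : δ k ≠ 0 := left_ne_zero_of_mul_eq_one (D.diag_rev hd k)
        obtain ⟨g, hg, hg'⟩ := hH1 k j (by omega) hlj (δ k) hδk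
        have hd' : φ (d * g⁻¹) = diagonal fun l => δ l * (hdv σ rev k j (δ k) l)⁻¹ := by
          rw [map_mul, hd, D.diag_inv hg', diagonal_mul_diagonal]
        have hone : ∀ l, l ≠ k → l ≠ j → l ≠ rev k → l ≠ rev j → hdv σ rev k j (δ k) l = 1 := by
          intro l a1 a2 a3 a4
          rw [hdv, if_neg a1, if_neg a2, if_neg a3, if_neg a4]
        have h5 := ih (k0 + 1) (by omega) (d * g⁻¹) _ hd' (by
          intro l hl1 hl2
          rcases eq_or_ne l k with rfl | hne
          · rw [hdv, if_pos rfl, mul_inv_cancel₀ hδk]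
          · have hne' : b l ≠ b k := fun h => hne (D.binj h)
            rw [h1 l (by omega) hl2, hone l hne (by rintro rfl; omega) (by rintro rfl; rw [D.rr] at hl2; omega)
              (by rintro rfl; rw [D.rr] at hl2; omega), inv_one, mul_one]) (by
          rw [Finset.prod_mul_distrib, h2, one_mul, Finset.prod_inv_distrib, inv_eq_one]
          rw [Finset.prod_eq_mul k j hkj]
          · rw [hdv, hdv, if_pos rfl, if_neg hkj.symm, if_pos rfl, mul_inv_cancel₀ hδk]
          · intro l hl1 hl2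
            have hl3 := (Finset.mem_filter.1 hl1).2
            exact hone l hl2.1 hl2.2 (by rintro rfl; rw [D.rr] at hl3; omega) (by rintro rfl; rw [D.rr] at hl3; omega)
          · intro h; exact (h (Finset.mem_filter.2 ⟨Finset.mem_univ k, hl⟩)).elim
          · intro h; exact (h (Finset.mem_filter.2 ⟨Finset.mem_univ j, hlj⟩)).elim) (by
          intro m hm
          rw [h3 m hm, hone m (by rintro rfl; rw [hm] at hl; omega) (by rintro rfl; rw [hm] at hlj; omega)
            (by rintro rfl; rw [D.rr] at hm; rw [← hm] at hl; omega) (by rintro rfl; rw [D.rr] at hm; rw [← hm] at hlj; omega), inv_one, mul_one])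
        have h6 : d = d * g⁻¹ * g := by group
        rw [h6]; exact H.mul_mem h5 hg
      · refine ih (k0 + 1) (by omega) d δ hd (fun l hl1 hl2 => ?_) h2 h3
        rcases eq_or_ne l k with rfl | hne
        · rw [Finset.prod_eq_single l] at h2
          · exact h2
          · intro m hm hne
            have hl3 := (Finset.mem_filter.1 hm).2
            have hbm := D.brev m
            have hne' : b m ≠ b l := fun h => hne (D.binj h)
            exact h1 m (by omega) hl3
          · intro h; exact (h (Finset.mem_filter.2 ⟨Finset.mem_univ l, hl⟩)).elim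
        · have hne' : b l ≠ b k := fun h => hne (D.binj h)
          exact h1 l (by omega) hl2
    · refine ih (k0 + 1) (by omega) d δ hd (fun l hl1 hl2 => ?_) h2 h3
      rcases eq_or_ne l k with rfl | hne
      · exact absurd hl2 hl
      · have hne' : b l ≠ b k := fun h => hne (D.binj h)
        exact h1 l (by omega) hl2

end Dat

end CfsgLib.Unc
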