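import Cfsg.Agent.LibUnc10

set_option autoImplicit false

/-! Special isometry groups: the simplicity data (helper1) -/

namespace CfsgLib.Unc

open Cfsg Matrix CfsgLib.Fus21

variable {K : Type*} [Field K] {ι : Type*} [Fintype ι] [DecidableEq ι]
variable {G : Type*} [Group G] {σ : K →+* K} {rev : ι → ι} {s : ι → K} {b : ι → ℕ} {φ : G →* Matrix ι ι K}

local notation "⟪" x ", " y "⟫" => fm σ rev s x y

theorem El_alg {c : ι → ℕ} {u v : ι → K} {β : K} (h : ∀ k l, ¬ c k ≤ c l → v k * σ (u (rev l)) = 0 ∧ u k * σ (v (rev l)) = 0 ∧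
    β * (u k * σ (u (rev l))) = 0) : Alg c (El σ rev s u v β) := by
  intro k l hkl
  obtain ⟨h1, h2, h3⟩ := h k l hkl
  rw [El_apply, Matrix.one_apply_ne (by rintro rfl; exact hkl le_rfl)]
  linear_combination s l * h1 + s l * h2 + s l * h3

theorem diag_alg (c : ι → ℕ) (d : ι → K) : Alg c (diagonal d) := by
  intro k l hkl
  rw [diagonal_apply_ne]
  rintro rfl; exact hkl le_rfl

namespace Dat

variable (D : Dat σ rev s b φ)
include D

theorem torus_gen {H : Subgroup G} (hH1 : ∀ i j, b i + 1 = b j → b j < b (rev j) → ∀ c : K, c ≠ 0 → ∃ g ∈ H, φ g = diagonal (hdv σ rev i j c))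
    {i1 : ι} (hi1 : b i1 < b (rev i1)) (hH2 : ∀ β : K, β ≠ 0 → (σ β = β ∨ ∃ m, rev m = m) → ∃ g ∈ H, φ g = diagonal (rkv σ rev i1 β))
    {d : G} {δ : ι → K} (hd : φ d = diagonal δ) : d ∈ H := by
  have hδ : ∀ l, δ l ≠ 0 := fun l => left_ne_zero_of_mul_eq_one (D.diag_rev hd l)
  set c : K := ∏ l ∈ Finset.univ.filter (fun l => b l < b (rev l)), δ l with hc
  have hc0 : c ≠ 0 := Finset.prod_ne_zero_iff.2 fun l _ => hδ l
  have hc' : c = ∏ l, if b l < b (rev l) then δ l else 1 := by rw [hc, Finset.prod_filter]
  set μ : K := ∏ l, if rev l = l then δ l else 1 with hμ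
  have hdet : ∏ l, δ l = 1 := by rw [← det_diagonal, ← hd, D.det]
  have hR : (∏ l, if b (rev l) < b l then δ l else 1) = (σ c)⁻¹ := by
    rw [hc', map_prod, ← Finset.prod_inv_distrib]
    refine Finset.prod_bij' (fun i _ => rev i) (fun i _ => rev i) (fun i _ => Finset.mem_univ _) (fun i _ => Finset.mem_univ _)
      (fun i _ => D.rr i) (fun i _ => D.rr i) ?_
    intro l _
    rw [D.rr]
    split_ifs with h
    · exact eq_inv_of_mul_eq_one_left (D.diag_rev hd l)
    · rw [map_one, inv_one]
  have hall : c * (σ c)⁻¹ * μ = 1 := by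
    rw [← hdet, ← hR, hc', hμ, ← Finset.prod_mul_distrib, ← Finset.prod_mul_distrib]
    refine Finset.prod_congr rfl fun l _ => ?_
    have e : rev l = l ↔ b (rev l) = b l := ⟨fun h => by rw [h], fun h => D.binj h⟩
    rcases lt_trichotomy (b l) (b (rev l)) with h | h | h
    · rw [if_pos h, if_neg (by omega), if_neg (fun h' => by have := e.1 h'; omega)]; ring
    · rw [if_neg (by omega), if_neg (by omega), if_pos (e.2 h.symm)]; ring
    · rw [if_neg (by omega), if_pos h, if_neg (fun h' => by have := e.1 h'; omega)]; ring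
  have hσc : σ c ≠ 0 := (map_ne_zero σ).2 hc0
  have hmid : ∀ m, rev m = m → δ m = σ c / c := by
    intro m hm
    have hμm : μ = δ m := by
      rw [hμ, Finset.prod_eq_single m]
      · rw [if_pos hm]
      · intro l _ hl
        rw [if_neg]
        intro hl'
        have e1 := D.brev l
        have e2 := D.brev m
        rw [hl'] at e1
        rw [hm] at e2
        exact hl (D.binj (by omega))
      · intro h; exact (h (Finset.mem_univ m)).elim
    rw [hμm] at hall
    field_simp at hall ⊢
    linear_combination hall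
  have halt : σ c = c ∨ ∃ m, rev m = m := by
    by_cases h : ∃ m, rev m = m
    · exact Or.inr h
    · left
      have hμm : μ = 1 := by
        rw [hμ]
        refine Finset.prod_eq_one fun l _ => ?_
        rw [if_neg fun hl => h ⟨l, hl⟩]
      rw [hμm] at hall
      field_simp at hall
      exact hall.symm
  obtain ⟨r, hr, hr'⟩ := hH2 c hc0 halt
  have hn1 : rev i1 ≠ i1 := by intro h; rw [h] at hi1; omega
  have hd' : φ (d * r⁻¹) = diagonal fun l => δ l * (rkv σ rev i1 c l)⁻¹ := by
    rw [map_mul, hd, D.diag_inv hr', diagonal_mul_diagonal]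
  have h5 := D.torus_aux hH1 (Fintype.card ι) 0 (by omega) (d * r⁻¹) _ hd' (fun l hl => absurd hl (by omega)) (by
    rw [Finset.prod_mul_distrib, ← hc, Finset.prod_inv_distrib, Finset.prod_eq_single i1]
    · rw [rkv, if_pos rfl, mul_inv_cancel₀ hc0]
    · intro l hl hne
      have hl3 := (Finset.mem_filter.1 hl).2
      rw [rkv, if_neg hne, if_neg (by rintro rfl; rw [D.rr] at hl3; omega), if_neg (by intro h; rw [h] at hl3; omega)]
    · intro h; exact (h (Finset.mem_filter.2 ⟨Finset.mem_univ i1, hi1⟩)).elim) (by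
    intro m hm
    rw [rkv, if_neg (by rintro rfl; exact hn1 hm), if_neg (by rintro rfl; rw [D.rr] at hm; exact hn1 hm.symm), if_pos hm, hmid m hm,
      mul_inv_cancel₀ (div_ne_zero hσc hc0)])
  have h6 : d = d * r⁻¹ * r := by group
  rw [h6]; exact H.mul_mem h5 hr

/-- the diagonal part of a triangular element -/
theorem ex_diag [Finite G] {g : G} (hg : Alg b (φ g)) : ∃ d : G, φ d = diagonal fun l => φ g l l := by
  have h0 := alg_ne_zero D.binj hg
  refine D.sur _ ?_ ?_
  · -- isometry
    have h1 : ∀ l, φ g l l * σ (φ g (rev l) (rev l)) = 1 := by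
      intro l
      have h2 := D.iso g (Pi.single l 1) (Pi.single (rev l) 1)
      rw [D.ss_eq, map_one, mul_one, one_mul, fm, Finset.sum_eq_single l] at h2
      · rw [D.col_eq, D.col_eq] at h2
        have h3 := D.s0 l
        have h4 : s l * (φ g l l * σ (φ g (rev l) (rev l)) - 1) = 0 := by linear_combination h2
        exact sub_eq_zero.1 ((mul_eq_zero.1 h4).resolve_left h3)
      · intro i _ hi
        rw [D.col_eq, D.col_eq]
        have e1 := D.brev i
        have e2 := D.brev l
        have e3 : b i ≠ b l := fun h => hi (D.binj h)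
        rcases lt_or_ge (b i) (b l) with h | h
        · rw [hg (rev i) (rev l) (by omega), map_zero, mul_zero, mul_zero]
        · rw [hg i l (by omega), zero_mul]
      · intro h; exact (h (Finset.mem_univ l)).elim
    intro x y
    rw [fm, fm]
    refine Finset.sum_congr rfl fun i _ => ?_
    rw [mulVec_diagonal, mulVec_diagonal, map_mul]
    linear_combination (x i * s i * σ (y (rev i))) * h1 i
  · -- determinant
    rw [det_diagonal]
    have h1 : ∀ i, b i < Fintype.card ι := fun i => by have := D.brev i; omega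
    let f : ι → Fin (Fintype.card ι) := fun i => ⟨b i, h1 i⟩
    have hf : Function.Injective f := fun i j h => D.binj (congrArg Fin.val h)
    have hf2 : Function.Bijective f := (Fintype.bijective_iff_injective_and_card f).2 ⟨hf, by rw [Fintype.card_fin]⟩
    let e : ι ≃ Fin (Fintype.card ι) := Equiv.ofBijective f hf2
    have he : ∀ i, (e i).val = b i := fun i => rfl
    have h2 : ((φ g).submatrix e.symm e.symm).det = 1 := by rw [det_submatrix_equiv_self, D.det]
    have h3 : ((φ g).submatrix e.symm e.symm).BlockTriangular id := by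
      intro i j hij
      rw [submatrix_apply]
      apply hg
      rw [← he, ← he, e.apply_symm_apply, e.apply_symm_apply]
      simpa using hij
    rw [det_of_upperTriangular h3] at h2
    rw [← h2]
    simp only [submatrix_apply]
    exact (Equiv.prod_comp e.symm (fun l => φ g l l)).symm

end Dat

end CfsgLib.Unc
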