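import Cfsg.Agent.LibUnc11

set_option autoImplicit false

/-! Special isometry groups: the simplicity data (helper1) -/

namespace CfsgLib.Unc

open Cfsg Matrix CfsgLib.Fus21

variable {K : Type*} [Field K] {ι : Type*} [Fintype ι] [DecidableEq ι]
variable {G : Type*} [Group G] {σ : K →+* K} {rev : ι → ι} {s : ι → K} {b : ι → ℕ} {φ : G →* Matrix ι ι K}

local notation "⟪" x ", " y "⟫" => fm σ rev s x y

namespace Dat

variable (D : Dat σ rev s b φ)
include D

theorem tv_pGen [Finite G] [Nonempty ι] {p : ℕ} [Fact p.Prime] [CharP K p] {i j : ι} (hi : b i < b (rev i)) (hj : b j < b (rev j)) (hij : i ≠ j)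
    (c : K) : ∃ g ∈ pGen p (Rb φ (b1 rev b)), φ g = tvM σ rev s i j c := by
  have ni : rev i ≠ i := by intro h; rw [h] at hi; omega
  have nj : rev j ≠ j := by intro h; rw [h] at hj; omega
  obtain ⟨g, hg⟩ := D.ex_tv ni nj hij c
  obtain ⟨c1, c2, c3⟩ := D.tv_cond ni nj hij c
  refine ⟨g, Subgroup.subset_closure ⟨Rb_norm ?_, D.pOrder hg c1 c2⟩, hg⟩
  rw [hg, tvM]
  refine El_alg fun k l hkl => ?_
  have hu : ∀ m, (Pi.single i 1 : ι → K) m ≠ 0 → m = i := fun m hm => by by_contra h; exact hm (Pi.single_eq_of_ne h _)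
  have hv : ∀ m, (Pi.single (rev j) (-(σ c) / s (rev j)) : ι → K) m ≠ 0 → m = rev j := fun m hm => by
    by_contra h; exact hm (Pi.single_eq_of_ne h _)
  refine ⟨?_, ?_, zero_mul _⟩
  · by_contra h
    have h1 := hv k (left_ne_zero_of_mul h)
    have h2 := hu (rev l) ((map_ne_zero σ).1 (right_ne_zero_of_mul h))
    have h3 : l = rev i := by rw [← h2, D.rr]
    apply hkl
    rw [h1, h3]
    unfold b1
    rw [D.rr, D.rr, if_neg (by omega), if_neg (by omega), if_neg (by omega), if_neg (by omega)]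
  · by_contra h
    have h1 := hu k (left_ne_zero_of_mul h)
    apply hkl
    rw [h1]
    unfold b1
    rw [if_pos hi]; exact Nat.zero_le _

theorem El_pGen [Finite G] [Nonempty ι] {p : ℕ} [Fact p.Prime] [CharP K p] {i0 j : ι} (h0 : j ≠ i0) (h0' : j ≠ rev i0) (nj : rev j ≠ j)
    {z : ι → K} (hz0 : z i0 = 0) (hz0' : z (rev i0) = 0) (hzj : z (rev j) = 0) {d : K} (hd : d - σ d = ⟪z, z⟫) :
    ∃ g ∈ pGen p (Rb φ (b2 rev i0)), φ g = El σ rev s (Pi.single j 1) z d := by
  have c2 : ⟪Pi.single j 1, z⟫ = 0 := by rw [fm_single_left, hzj]; simp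
  obtain ⟨g, hg⟩ := D.ex_El (D.ss_ne nj) c2 hd
  refine ⟨g, Subgroup.subset_closure ⟨Rb_norm ?_, D.pOrder hg (D.ss_ne nj) c2⟩, hg⟩
  rw [hg]
  refine El_alg fun k l hkl => ?_
  have hu : ∀ m, (Pi.single j 1 : ι → K) m ≠ 0 → b2 rev i0 m = 1 := fun m hm => by
    have : m = j := by by_contra h; exact hm (Pi.single_eq_of_ne h _)
    rw [this]; unfold b2; rw [if_neg h0, if_neg h0']
  have hu' : ∀ m, (Pi.single j 1 : ι → K) (rev m) ≠ 0 → b2 rev i0 m = 1 := fun m hm => by
    have : rev m = j := by by_contra h; exact hm (Pi.single_eq_of_ne h _)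
    have h2 : m = rev j := by rw [← this, D.rr]
    rw [h2]; unfold b2; rw [if_neg (by rintro rfl; rw [D.rr] at h0'; exact h0' rfl), if_neg (fun h => h0 (D.rev_inj h))]
  have hv : ∀ m, z m ≠ 0 → b2 rev i0 m = 1 := fun m hm => by
    unfold b2; rw [if_neg (by rintro rfl; exact hm hz0), if_neg (by rintro rfl; exact hm hz0')]
  have hv' : ∀ m, z (rev m) ≠ 0 → b2 rev i0 m = 1 := fun m hm => by
    unfold b2; rw [if_neg (by rintro rfl; exact hm hz0'), if_neg (by rintro rfl; rw [D.rr] at hm; exact hm hz0)]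
  refine ⟨?_, ?_, ?_⟩
  · by_contra h
    exact hkl (by rw [hv k (left_ne_zero_of_mul h), hu' l ((map_ne_zero σ).1 (right_ne_zero_of_mul h))])
  · by_contra h
    exact hkl (by rw [hu k (left_ne_zero_of_mul h), hv' l ((map_ne_zero σ).1 (right_ne_zero_of_mul h))])
  · by_contra h
    have h' := right_ne_zero_of_mul h
    exact hkl (by rw [hu k (left_ne_zero_of_mul h'), hu' l ((map_ne_zero σ).1 (right_ne_zero_of_mul h'))])

theorem simpleData [Finite G] [Fintype K] (p : ℕ) [hp : Fact p.Prime] [CharP K p] (h4 : 4 ≤ Fintype.card ι)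
    (hN : ∀ β, σ β = β → ∃ c d, β = c * σ c + d * σ d)
    (hmid : ∀ l, rev l = l → ∃ β, β - σ β = s l)
    (hmid2 : ∀ m, rev m = m → ∀ β, ∃ v, β - σ β = v * (s m * σ v))
    (hex : (∀ a, σ a = a) → 6 ≤ Fintype.card ι ∨ ∃ l : K, l ≠ 0 ∧ l ≠ 1) : SimpleData p (Rb φ b) := by
  obtain ⟨i0, h0⟩ := D.bsurj (k := 0) (by omega)
  obtain ⟨i1, h1⟩ := D.bsurj (k := 1) (by omega)
  haveI : Nonempty ι := ⟨i0⟩
  have hr0 := D.brev i0
  have hr1 := D.brev i1
  have n0 : rev i0 ≠ i0 := by intro h; rw [h] at hr0; omega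
  have n1 : rev i1 ≠ i1 := by intro h; rw [h] at hr1; omega
  have n01 : i0 ≠ i1 := by rintro rfl; omega
  have n01' : rev i0 ≠ i1 := by intro h; rw [h] at hr0; omega
  have n10' : rev i1 ≠ i0 := by intro h; rw [h] at hr1; omega
  have nr01 : rev i0 ≠ rev i1 := fun h => n01 (D.rev_inj h)
  have hl0 : b i0 < b (rev i0) := by omega
  have hl1 : b i1 < b (rev i1) := by omega
  have hUp := Rb_isPGroup (p := p) D.inj b
  set U := Rb φ b with hU
  refine ⟨hUp, ?_, ?_, fun T hT1 hT2 hT3 => D.scl (p := p) h4 hN hmid hex hT1 hT2 hT3, ?_⟩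
  · intro h
    obtain ⟨g, hg⟩ := D.ex_lr n0 (map_one σ)
    have hgU : g ∈ U := mem_Rb'.2 fun i j hij => by
      rw [hg]; exact D.inU_El (v := 0) (fun l hl => absurd rfl hl) hl0 1 i j hij
    rw [h, Subgroup.mem_bot] at hgU
    rw [hgU, map_one] at hg
    have h2 := congrFun (congrArg (fun M : Matrix ι ι K => M *ᵥ Pi.single (rev i0) 1) hg) i0
    simp only [one_mulVec, D.lr_mulVec, Pi.add_apply, Pi.single_eq_same, Pi.single_eq_of_ne n0.symm, one_mul, zero_add] at h2
    exact D.s0 _ h2.symm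
  · intro g hg
    refine ⟨Fintype.card K - 1, ?_, upper_pow_mem D.binj (D.nU hmid hg)⟩
    obtain ⟨k, -, hk⟩ := FiniteField.card K p
    rw [hk]
    intro hdvd
    have h1 : p ∣ p ^ (k : ℕ) := dvd_pow_self p k.ne_zero
    have h2 : 1 ≤ p ^ (k : ℕ) := Nat.one_le_pow _ _ hp.out.pos
    have h3 : p ∣ 1 := by
      have := Nat.dvd_sub h1 hdvd
      rwa [Nat.sub_sub_self h2] at this
    exact hp.out.one_lt.ne' (Nat.dvd_one.1 h3)
  · intro g hg
    have hA := D.nU hmid hg
    set C := Subgroup.closure {g : G | g ∈ Subgroup.normalizer (U : Set G) ∧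
      ((∀ x ∈ U, g * x = x * g) ∨ ∃ R ≤ U, U ≤ Subgroup.normalizer (R : Set G) ∧
      (∀ x ∈ U, (∀ y ∈ R, x * y = y * x) → x ∈ R) ∧ g ∈ pGen p R)} with hC
    have hUC : U ≤ C := by
      intro u hu
      refine Subgroup.subset_closure ⟨Subgroup.le_normalizer hu, Or.inr ⟨U, le_rfl, Subgroup.le_normalizer,
        fun x hx _ => hx, Subgroup.subset_closure ⟨Subgroup.le_normalizer hu, ?_⟩⟩⟩
      obtain ⟨k, hk⟩ := hUp ⟨u, hu⟩
      obtain ⟨j, -, hj⟩ := (Nat.dvd_prime_pow hp.out).1 (orderOf_dvd_of_pow_eq_one (congrArg Subtype.val hk : u ^ p ^ k = 1))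
      exact ⟨j, hj⟩
    have hH1 : ∀ i j, b i + 1 = b j → b j < b (rev j) → ∀ c : K, c ≠ 0 → ∃ g ∈ C, φ g = diagonal (hdv σ rev i j c) := by
      intro i j hij hj c hc
      have hbi := D.brev i
      have hbj := D.brev j
      have hi : b i < b (rev i) := by omega
      have ni : rev i ≠ i := by intro h; rw [h] at hi; omega
      have nj : rev j ≠ j := by intro h; rw [h] at hj; omega
      have nij : i ≠ j := by rintro rfl; omega
      have nij' : rev i ≠ j := by rintro rfl; omega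
      obtain ⟨g, hg, hg'⟩ := D.ex_hd (P := pGen p (Rb φ (b1 rev b))) ni nj nij nij' (D.tv_pGen hi hj nij) (D.tv_pGen hj hi nij.symm) hc
      refine ⟨g, Subgroup.subset_closure ⟨Rb_norm (by rw [hg']; exact diag_alg _ _), Or.inr ⟨Rb φ (b1 rev b), D.R1_le, D.R1_norm,
        fun x hx hc => D.R1_centric hx hc, hg⟩⟩, hg'⟩
    have hH2 : ∀ β : K, β ≠ 0 → (σ β = β ∨ ∃ m, rev m = m) → ∃ g ∈ C, φ g = diagonal (rkv σ rev i1 β) := by
      intro β hβ0 hβ
      obtain ⟨g, hg, hg'⟩ := D.ex_rkd (P := pGen p (Rb φ (b2 rev i0))) n1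
        (fun z d hz hd => D.El_pGen n01.symm n01'.symm n1 (hz i0 n0) (hz (rev i0) (by rw [D.rr]; exact n0.symm))
          (hz _ (by rw [D.rr]; exact n1.symm)) hd)
        (fun z d hz hd => D.El_pGen n10' nr01.symm (by rw [D.rr]; exact n1.symm) (hz i0 n0) (hz (rev i0) (by rw [D.rr]; exact n0.symm))
          (hz _ (by rw [D.rr, D.rr]; exact n1)) hd) hβ0 (by
          by_cases hβ' : σ β = β
          · exact Or.inl hβ'
          · rcases hβ with h | ⟨m, hm⟩
            · exact Or.inl h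
            · obtain ⟨v, hv⟩ := hmid2 m hm β
              refine Or.inr ⟨m, v, hm, ?_, hv⟩
              rintro rfl
              apply hβ'
              rw [zero_mul, sub_eq_zero] at hv
              exact hv.symm)
      refine ⟨g, Subgroup.subset_closure ⟨Rb_norm (by rw [hg']; exact diag_alg _ _), Or.inr ⟨Rb φ (b2 rev i0), D.R2_le h0 h4, D.R2_norm h0 h4,
        fun x hx hc => D.R2_centric hmid h0 h4 hx hc, hg⟩⟩, hg'⟩
    obtain ⟨d, hd⟩ := D.ex_diag hA
    have hdC : d ∈ C := D.torus_gen hH1 hl1 hH2 hd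
    have hgd : g * d⁻¹ ∈ U := by
      rw [hU, mem_Rb']
      intro i j hij
      rw [map_mul, D.diag_inv hd, mul_diagonal]
      rcases eq_or_ne i j with rfl | hne
      · rw [Matrix.one_apply_eq]; exact mul_inv_cancel₀ (alg_ne_zero D.binj hA i)
      · have hne' : b i ≠ b j := fun h => hne (D.binj h)
        rw [hA i j (by omega), zero_mul, Matrix.one_apply_ne hne]
    have : g = (g * d⁻¹) * d := by group
    rw [this]
    exact C.mul_mem (hUC hgd) hdC

end Dat

end CfsgLib.Unc
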