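import Cfsg.Agent.LibUnc12
import Cfsg.Prelude.Def_Classical

set_option autoImplicit false

/-! Defining characteristic fusion systems: central quotients (helper1) -/

namespace CfsgLib.Unc

open Cfsg Matrix CfsgLib.Fus21

theorem pCentral_trivial {G : Type*} [Group G] {p : ℕ} [hp : Fact p.Prime] {U : Subgroup G} (h : SimpleData p U)
    (hnc : ∃ u ∈ U, ∃ g : G, g * u ≠ u * g) {z : G} (hz : ∀ g, z * g = g * z) {k : ℕ} (hk : z ^ p ^ k = 1) : z = 1 := by
  by_contra hz1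
  have hzN : z ∈ Subgroup.normalizer (U : Set G) := by
    rw [Subgroup.mem_normalizer_iff]
    intro x
    rw [hz x, mul_inv_cancel_right]
  obtain ⟨m, hm, hzm⟩ := h.nrm z hzN
  have hcop : Nat.Coprime m (p ^ k) := ((Nat.Prime.coprime_iff_not_dvd hp.out).2 hm).symm.pow_right k
  have hzU : z ∈ U := by
    have h4 : Nat.Coprime m (orderOf z) := Nat.Coprime.coprime_dvd_right (orderOf_dvd_of_pow_eq_one hk) hcop
    obtain ⟨r, hr⟩ := exists_pow_eq_self_of_coprime h4
    rw [← hr]; exact U.pow_mem hzm r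
  have h2 := h.scl (Subgroup.zpowers z) (Subgroup.zpowers_le.2 hzU) (by
    intro h0
    exact hz1 (Subgroup.zpowers_eq_bot.1 h0)) (by
    rintro g _ ⟨n, rfl⟩ _
    have : Commute g (z ^ n) := (Commute.zpow_left (hz g : Commute z g) n).symm
    show g * z ^ n * g⁻¹ ∈ Subgroup.zpowers z
    rw [this.eq, mul_inv_cancel_right]
    exact ⟨n, rfl⟩)
  obtain ⟨u, hu, g, hg⟩ := hnc
  obtain ⟨n, rfl⟩ := h2 hu
  exact hg (Commute.zpow_left (hz g : Commute z g) n).symm

/-- passing to the quotient by the center -/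
theorem simple_of_center {G : Type*} [Group G] [Finite G] {p : ℕ} [hp : Fact p.Prime] {U : Subgroup G} (h : SimpleData p U)
    (hnc : ∃ u ∈ U, ∃ g : G, g * u ≠ u * g) (S : Sylow p (G ⧸ Subgroup.center G)) :
    (groupFusionSystem (S : Subgroup (G ⧸ Subgroup.center G))).IsSimple p := by
  refine (h.of_cover (QuotientGroup.mk' (Subgroup.center G)) (QuotientGroup.mk'_surjective _) fun z hz => ?_).simple S
  have h1 : z ∈ Subgroup.center G := (QuotientGroup.eq_one_iff z).1 hz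
  have h2 : ∀ g, z * g = g * z := fun g => (Subgroup.mem_center_iff.1 h1 g).symm
  exact ⟨h2, fun k hk => pCentral_trivial h hnc h2 hk⟩

variable {K : Type*} [Field K] {ι : Type*} [Fintype ι] [DecidableEq ι]
variable {G : Type*} [Group G] {σ : K →+* K} {rev : ι → ι} {s : ι → K} {b : ι → ℕ} {φ : G →* Matrix ι ι K}

theorem Dat.noncentral [Finite G] (D : Dat σ rev s b φ) (h4 : 4 ≤ Fintype.card ι) : ∃ u ∈ Rb φ b, ∃ g : G, g * u ≠ u * g := by
  obtain ⟨i0, h0⟩ := D.bsurj (k := 0) (by omega)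
  obtain ⟨i1, h1⟩ := D.bsurj (k := 1) (by omega)
  have hr0 := D.brev i0
  have hr1 := D.brev i1
  have n0 : rev i0 ≠ i0 := by intro h; rw [h] at hr0; omega
  have n1 : rev i1 ≠ i1 := by intro h; rw [h] at hr1; omega
  have n01 : i0 ≠ i1 := by rintro rfl; omega
  have n01' : rev i0 ≠ i1 := by intro h; rw [h] at hr0; omega
  have hl0 : b i0 < b (rev i0) := by omega
  obtain ⟨u, hu⟩ := D.ex_lr n0 (map_one σ)
  have hU : u ∈ Rb φ b := mem_Rb'.2 fun i j hij => by
    rw [hu]; exact D.inU_El (v := 0) (fun l hl => absurd rfl hl) hl0 1 i j hij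
  obtain ⟨g, hg, -⟩ := D.orb_move n0 n1 n01 n01' 1 (v := 0) rfl rfl rfl rfl
  refine ⟨u, hU, g, fun hc => ?_⟩
  have h2 := D.comm_El hu hc
  rw [hg, mulVec_zero] at h2
  have h3 := congrFun (congrArg (fun M : Matrix ι ι K => M *ᵥ Pi.single (rev i0) 1) h2) i0
  simp only [D.lr_mulVec, Pi.add_apply, Pi.single_eq_same, Pi.single_eq_of_ne n0.symm, one_mul, Pi.single_eq_of_ne n01,
    zero_add, add_zero] at h3
  exact D.s0 _ h3.symm

theorem Dat.simple [Finite G] [Fintype K] (D : Dat σ rev s b φ) (p : ℕ) [hp : Fact p.Prime] [CharP K p] (h4 : 4 ≤ Fintype.card ι)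
    (hN : ∀ β, σ β = β → ∃ c d, β = c * σ c + d * σ d)
    (hmid : ∀ l, rev l = l → ∃ β, β - σ β = s l)
    (hmid2 : ∀ m, rev m = m → ∀ β, ∃ v, β - σ β = v * (s m * σ v))
    (hex : (∀ a, σ a = a) → 6 ≤ Fintype.card ι ∨ ∃ l : K, l ≠ 0 ∧ l ≠ 1) (S : Sylow p (G ⧸ Subgroup.center G)) :
    (groupFusionSystem (S : Subgroup (G ⧸ Subgroup.center G))).IsSimple p :=
  simple_of_center (D.simpleData p h4 hN hmid hmid2 hex) (D.noncentral h4) S

end CfsgLib.Unc
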