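import Cfsg.Agent.LibUnc13
import Cfsg.Agent.LibWrx5

set_option autoImplicit false

/-! The symplectic groups as special isometry groups (helper1) -/

namespace CfsgLib.Unc

open Cfsg Matrix CfsgLib.Fus21

variable {K : Type*} [Field K] {m : ℕ}

/-- heights for the symplectic group -/
def bsp (m : ℕ) : Fin m ⊕ Fin m → ℕ := Sum.elim (fun i => i.val) (fun i => 2 * m - 1 - i.val)

/-- signs for the symplectic group -/
def ssp (K : Type*) [Field K] (m : ℕ) : Fin m ⊕ Fin m → K := Sum.elim (fun _ => -1) (fun _ => 1)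

/-- the matrices -/
def phsp (K : Type*) [Field K] (m : ℕ) : Matrix.symplecticGroup (Fin m) K →* Matrix (Fin m ⊕ Fin m) (Fin m ⊕ Fin m) K :=
  (Matrix.symplecticGroup (Fin m) K).subtype

theorem fm_sp (x y : Fin m ⊕ Fin m → K) : fm (RingHom.id K) Sum.swap (ssp K m) x y = x ⬝ᵥ (Matrix.J (Fin m) K *ᵥ y) := by
  rw [fm, dotProduct]
  refine Finset.sum_congr rfl fun i _ => ?_
  congr 1
  rw [mulVec, dotProduct, Fintype.sum_sum_type]
  rcases i with i | i
  · simp [Matrix.J, ssp, Matrix.one_apply]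
  · simp [Matrix.J, ssp, Matrix.one_apply]

theorem dat_sp (m : ℕ) : Dat (RingHom.id K) Sum.swap (ssp K m) (bsp m) (phsp K m) where
  sig _ := rfl
  rr i := Sum.swap_swap i
  s0 i := by rcases i with i | i <;> simp [ssp]
  ss i := by rcases i with i | i <;> simp [ssp]
  binj := by
    intro i j h
    rcases i with i | i <;> rcases j with j | j <;> simp only [bsp, Sum.elim_inl, Sum.elim_inr] at h <;>
      have h1 := i.2 <;> have h2 := j.2
    · rw [Fin.ext h]
    · omega
    · omega
    · rw [Fin.ext (by omega : i.val = j.val)]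
  brev i := by
    rcases i with i | i <;> simp only [bsp, Sum.elim_inl, Sum.elim_inr, Sum.swap_inl, Sum.swap_inr, Fintype.card_sum, Fintype.card_fin] <;>
      have h1 := i.2 <;> omega
  inj := Subtype.val_injective
  iso g x y := by
    have h1 := SymplecticGroup.mem_iff'.1 g.2
    rw [fm_sp, fm_sp]
    show ((g : Matrix _ _ K) *ᵥ x) ⬝ᵥ (Matrix.J (Fin m) K *ᵥ ((g : Matrix _ _ K) *ᵥ y)) = _
    rw [← Matrix.vecMul_transpose, ← Matrix.dotProduct_mulVec, mulVec_mulVec, mulVec_mulVec, h1]
  det g := SymplecticGroup.det_eq_one g.2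
  sur M hM _ := by
    refine ⟨⟨M, SymplecticGroup.mem_iff'.2 ?_⟩, rfl⟩
    ext i j
    have h1 := hM (Pi.single i 1) (Pi.single j 1)
    rw [fm_sp, fm_sp, ← Matrix.vecMul_transpose, ← Matrix.dotProduct_mulVec, mulVec_mulVec, mulVec_mulVec,
      single_one_dotProduct, single_one_dotProduct, mulVec_single_one, mulVec_single_one] at h1
    exact h1

theorem sumsq_all [Fintype K] (β : K) : ∃ c d, β = c * (RingHom.id K) c + d * (RingHom.id K) d := by
  by_cases h2 : Fintype.card K % 2 = 1
  · obtain ⟨u, v, h⟩ := CfsgLib.Wrx.sumsq h2 β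
    exact ⟨u, v, h.symm⟩
  · have hc : ringChar K = 2 := by
      by_contra h
      exact h2 (FiniteField.odd_card_of_char_ne_two h)
    obtain ⟨c, hc⟩ := FiniteField.isSquare_of_char_two hc β
    exact ⟨c, 0, by rw [hc]; simp⟩

end CfsgLib.Unc
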