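import Cfsg.Agent.LibUnc13
import Cfsg.Agent.LibHerm27
import Cfsg.Agent.LibH22HermO

set_option autoImplicit false

/-! The special unitary groups as special isometry groups (helper1) -/

namespace CfsgLib.Unc

open Cfsg Matrix CfsgLib.Fus21

variable {K : Type*} [Field K] {n : ℕ}

/-- the vector of the new basis with index `j` -/
def wv (a a' c : K) (j : Fin n) : Fin n → K :=
  if j.val < (Fin.rev j).val then Pi.single j 1 + Pi.single (Fin.rev j) a
  else if j.val = (Fin.rev j).val then Pi.single j 1
  else Pi.single (Fin.rev j) c + Pi.single j (c * a')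

/-- the Hermitian form -/
def hb (σ : K →+* K) (x y : Fin n → K) : K := ∑ i, x i * σ (y i)

theorem hb_add_left (σ : K →+* K) (x y z : Fin n → K) : hb σ (x + y) z = hb σ x z + hb σ y z := by
  simp only [hb, Pi.add_apply, add_mul, Finset.sum_add_distrib]

theorem hb_add_right (σ : K →+* K) (x y z : Fin n → K) : hb σ x (y + z) = hb σ x y + hb σ x z := by
  simp only [hb, Pi.add_apply, map_add, mul_add, Finset.sum_add_distrib]

theorem hb_single_single (σ : K →+* K) (i j : Fin n) (a c : K) :
    hb σ (Pi.single i a) (Pi.single j c) = if i = j then a * σ c else 0 := by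
  rw [hb, Finset.sum_eq_single i]
  · rw [Pi.single_eq_same]
    split_ifs with h
    · rw [h, Pi.single_eq_same]
    · rw [Pi.single_eq_of_ne h, map_zero, mul_zero]
  · intro k _ hk
    rw [Pi.single_eq_of_ne hk, zero_mul]
  · intro h; exact (h (Finset.mem_univ i)).elim

theorem rev_val (j : Fin n) : (Fin.rev j).val = n - (j.val + 1) := Fin.val_rev j

/-- Gram matrix -/
theorem hb_wv {σ : K →+* K} {a a' c : K} (h1 : a * σ a = -1) (h2 : a' * σ a' = -1) (h3 : (1 + a * σ a') * σ c = 1)
    (h4 : c * (1 + a' * σ a) = 1) (i j : Fin n) :
    hb σ (wv a a' c i) (wv a a' c j) = if Fin.rev i = j then 1 else 0 := by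
  have hi := i.2
  have hj := j.2
  have ri := rev_val i
  have rj := rev_val j
  have e1 : ∀ k l : Fin n, k = l ↔ k.val = l.val := fun k l => Fin.ext_iff
  unfold wv
  by_cases i1 : i.val < (Fin.rev i).val
  · rw [if_pos i1]
    by_cases j1 : j.val < (Fin.rev j).val
    · rw [if_pos j1]
      simp only [hb_add_left, hb_add_right, hb_single_single]
      by_cases hij : i = j
      · subst hij
        rw [if_pos rfl, if_neg, if_neg, if_pos rfl, if_neg, map_one]
        · linear_combination h1
        all_goals (rw [e1]; omega)
      · rw [if_neg hij, if_neg, if_neg, if_neg, if_neg]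
        · ring
        all_goals (rw [e1]; rw [e1] at hij; omega)
    rw [if_neg j1]
    by_cases j2 : j.val = (Fin.rev j).val
    · rw [if_pos j2]
      simp only [hb_add_left, hb_single_single]
      rw [if_neg, if_neg, if_neg]
      · ring
      all_goals (rw [e1]; omega)
    rw [if_neg j2]
    simp only [hb_add_left, hb_add_right, hb_single_single]
    by_cases hij : Fin.rev i = j
    · subst hij
      rw [Fin.rev_rev, if_pos rfl, if_neg, if_neg, if_pos rfl, if_pos rfl, map_mul]
      · linear_combination h3
      all_goals (rw [e1]; omega)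
    · rw [if_neg, if_neg, if_neg, if_neg, if_neg hij]
      · ring
      all_goals (rw [e1]; rw [e1] at hij; omega)
  rw [if_neg i1]
  by_cases i2 : i.val = (Fin.rev i).val
  · rw [if_pos i2]
    by_cases j1 : j.val < (Fin.rev j).val
    · rw [if_pos j1]
      simp only [hb_add_right, hb_single_single]
      rw [if_neg, if_neg, if_neg]
      · ring
      all_goals (rw [e1]; omega)
    rw [if_neg j1]
    by_cases j2 : j.val = (Fin.rev j).val
    · rw [if_pos j2, hb_single_single, if_pos, if_pos, map_one, mul_one]
      all_goals (rw [e1]; omega)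
    rw [if_neg j2]
    simp only [hb_add_right, hb_single_single]
    rw [if_neg, if_neg, if_neg]
    · ring
    all_goals (rw [e1]; omega)
  rw [if_neg i2]
  by_cases j1 : j.val < (Fin.rev j).val
  · rw [if_pos j1]
    simp only [hb_add_left, hb_add_right, hb_single_single]
    by_cases hij : Fin.rev i = j
    · subst hij
      rw [Fin.rev_rev, if_pos rfl, if_neg, if_neg, if_pos rfl, if_pos rfl, map_one]
      · linear_combination h4
      all_goals (rw [e1]; omega)
    · rw [if_neg, if_neg, if_neg, if_neg, if_neg hij]
      · ring
      all_goals (rw [e1]; rw [e1] at hij; omega)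
  rw [if_neg j1]
  by_cases j2 : j.val = (Fin.rev j).val
  · rw [if_pos j2]
    simp only [hb_add_left, hb_single_single]
    rw [if_neg, if_neg, if_neg]
    · ring
    all_goals (rw [e1]; omega)
  rw [if_neg j2]
  simp only [hb_add_left, hb_add_right, hb_single_single]
  by_cases hij : i = j
  · subst hij
    rw [if_pos rfl, if_neg, if_neg, if_pos rfl, if_neg, map_mul]
    · linear_combination (c * σ c) * h2
    all_goals (rw [e1]; omega)
  · rw [if_neg, if_neg, if_neg, if_neg, if_neg]
    · ring
    all_goals (rw [e1]; rw [e1] at hij; omega)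

end CfsgLib.Unc
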