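import Cfsg.Agent.LibUnc15

set_option autoImplicit false

/-! The special unitary groups as special isometry groups, part 2 (helper1) -/

namespace CfsgLib.Unc

open Cfsg Matrix CfsgLib.Fus21

variable {K : Type*} [Field K] {n : ℕ}

theorem hb_eq (σ : K →+* K) (x y : Fin n → K) : hb σ x y = x ⬝ᵥ (fun i => σ (y i)) := rfl

theorem map_mulVec' (σ : K →+* K) (P : Matrix (Fin n) (Fin n) K) (y : Fin n → K) :
    (fun i => σ ((P *ᵥ y) i)) = P.map σ *ᵥ fun i => σ (y i) := by
  ext i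
  rw [mulVec, mulVec, dotProduct, dotProduct, map_sum]
  exact Finset.sum_congr rfl fun j _ => by rw [map_mul, map_apply]

/-- a hyperbolic basis -/
theorem exists_basis {σ : K →+* K} {a a' c : K} (h1 : a * σ a = -1) (h2 : a' * σ a' = -1) (h3 : (1 + a * σ a') * σ c = 1)
    (h4 : c * (1 + a' * σ a) = 1) : ∃ P Q : Matrix (Fin n) (Fin n) K, P * Q = 1 ∧ Q * P = 1 ∧
      ∀ x y, hb σ (P *ᵥ x) (P *ᵥ y) = ∑ i, x i * σ (y (Fin.rev i)) := by
  set P : Matrix (Fin n) (Fin n) K := Matrix.of fun i j => wv a a' c j i with hP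
  have hG : Pᵀ * P.map σ = Matrix.of fun i j => if Fin.rev i = j then 1 else 0 := by
    ext i j
    rw [mul_apply]
    exact hb_wv h1 h2 h3 h4 i j
  set R : Matrix (Fin n) (Fin n) K := Matrix.of fun i j => if Fin.rev i = j then 1 else 0 with hR
  have hRv : ∀ z : Fin n → K, R *ᵥ z = fun i => z (Fin.rev i) := by
    intro z
    ext i
    rw [mulVec, dotProduct, Finset.sum_eq_single (Fin.rev i)]
    · simp [hR]
    · intro j _ hj
      rw [hR, of_apply, if_neg hj.symm, zero_mul]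
    · intro h; exact (h (Finset.mem_univ _)).elim
  have hRR : R * R = 1 := by
    apply mext
    intro x
    rw [← mulVec_mulVec, hRv, hRv, one_mulVec]
    ext i
    show x (Fin.rev (Fin.rev i)) = x i
    rw [Fin.rev_rev]
  have h5 : Pᵀ * (P.map σ * R) = 1 := by rw [← mul_assoc, hG, hRR]
  have h6 : P * (P.map σ * R)ᵀ = 1 := by
    have := mul_eq_one_comm.1 h5
    have h7 := congrArg Matrix.transpose this
    rwa [transpose_mul, transpose_transpose, transpose_one] at h7
  refine ⟨P, (P.map σ * R)ᵀ, h6, mul_eq_one_comm.1 h6, fun x y => ?_⟩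
  rw [hb_eq, map_mulVec', ← vecMul_transpose, ← dotProduct_mulVec, mulVec_mulVec, hG, hRv]
  rfl

theorem exists_aac [Finite K] {σ : K →+* K} (hσ : σ ≠ RingHom.id K) (hσ2 : ∀ x, σ (σ x) = x) :
    ∃ a a' c j : K, a * σ a = -1 ∧ a' * σ a' = -1 ∧ (1 + a * σ a') * σ c = 1 ∧ c * (1 + a' * σ a) = 1 ∧ j ≠ 0 ∧ σ j = -j := by
  obtain ⟨a, ha⟩ := Herm27.exists_norm_eq σ hσ hσ2 (-1) (neg_ne_zero.2 one_ne_zero) (by rw [map_neg, map_one])
  obtain ⟨t, ht⟩ : ∃ t, σ t ≠ t := by
    by_contra hcon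
    push Not at hcon
    exact hσ (RingHom.ext hcon)
  have ht0 : t ≠ 0 := by rintro rfl; rw [map_zero] at ht; exact ht rfl
  have hσt : σ t ≠ 0 := (map_ne_zero σ).2 ht0
  have h1 : 1 - t / σ t ≠ 0 := by
    intro h
    apply ht
    field_simp at h
    linear_combination h
  have h2 : 1 - σ t / t ≠ 0 := by
    intro h
    apply ht
    field_simp at h
    linear_combination -h
  refine ⟨a, a * (t / σ t), (1 - t / σ t)⁻¹, t - σ t, ha, ?_, ?_, ?_, sub_ne_zero.2 ht.symm, by rw [map_sub, hσ2]; ring⟩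
  · rw [map_mul, map_div₀, hσ2]
    field_simp
    linear_combination ha
  · rw [map_mul, map_div₀, hσ2, map_inv₀, map_sub, map_one, map_div₀, hσ2]
    have : 1 + a * (σ a * (σ t / t)) = 1 - σ t / t := by linear_combination (σ t / t) * ha
    rw [this, mul_inv_cancel₀ h2]
  · have : 1 + a * (t / σ t) * σ a = 1 - t / σ t := by linear_combination (t / σ t) * ha
    rw [this, inv_mul_cancel₀ h1]

theorem mem_SU' {q : ℕ} {σ : K →+* K} (hσ : ∀ x, σ x = x ^ q) {A : SpecialLinearGroup (Fin n) K} :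
    A ∈ Cfsg.SU n K q ↔ ∀ x y, hb σ ((A : Matrix (Fin n) (Fin n) K) *ᵥ x) ((A : Matrix (Fin n) (Fin n) K) *ᵥ y) = hb σ x y := by
  have h1 : ∀ x y : Fin n → K, hermForm n K q x y = hb σ x y := by
    intro x y
    rw [hermForm, hb]
    exact Finset.sum_congr rfl fun i _ => by rw [hσ]
  constructor
  · intro h x y
    have := h x y
    rw [h1, h1] at this
    exact this
  · intro h x y
    rw [h1, h1]
    exact h x y

theorem exists_dat_su {q : ℕ} [Finite K] {σ : K →+* K} (hσq : ∀ x, σ x = x ^ q) (hσ : σ ≠ RingHom.id K) (hσ2 : ∀ x, σ (σ x) = x) :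
    ∃ (j : K) (φ : Cfsg.SU n K q →* Matrix (Fin n) (Fin n) K), j ≠ 0 ∧ σ j = -j ∧ Dat σ Fin.rev (fun _ => j) Fin.val φ := by
  obtain ⟨a, a', c, j, h1, h2, h3, h4, hj0, hj⟩ := exists_aac hσ hσ2
  obtain ⟨P, Q, hPQ, hQP, hP⟩ := exists_basis (n := n) h1 h2 h3 h4
  let φ : Cfsg.SU n K q →* Matrix (Fin n) (Fin n) K :=
    { toFun := fun g => Q * ((g : SpecialLinearGroup (Fin n) K) : Matrix (Fin n) (Fin n) K) * P
      map_one' := by
        show Q * (1 : Matrix (Fin n) (Fin n) K) * P = 1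
        rw [mul_one, hQP]
      map_mul' := fun g h => by
        show Q * (((g : SpecialLinearGroup (Fin n) K) : Matrix (Fin n) (Fin n) K) * ((h : SpecialLinearGroup (Fin n) K) : Matrix (Fin n) (Fin n) K)) * P = _
        calc Q * (((g : SpecialLinearGroup (Fin n) K) : Matrix (Fin n) (Fin n) K) * ((h : SpecialLinearGroup (Fin n) K) : Matrix (Fin n) (Fin n) K)) * P
            = Q * ((g : SpecialLinearGroup (Fin n) K) : Matrix (Fin n) (Fin n) K) * 1 * ((h : SpecialLinearGroup (Fin n) K) : Matrix (Fin n) (Fin n) K) * P := by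
              simp only [mul_one, mul_assoc]
          _ = _ := by rw [← hPQ]; simp only [mul_assoc] }
  have hφ : ∀ g : Cfsg.SU n K q, φ g = Q * ((g : SpecialLinearGroup (Fin n) K) : Matrix (Fin n) (Fin n) K) * P := fun g => rfl
  have hfm : ∀ x y, fm σ Fin.rev (fun _ => j) x y = j * hb σ (P *ᵥ x) (P *ᵥ y) := by
    intro x y
    rw [hP, fm, Finset.mul_sum]
    exact Finset.sum_congr rfl fun i _ => by ring
  refine ⟨j, φ, hj0, hj, { sig := hσ2, rr := Fin.rev_rev, s0 := fun _ => hj0, ss := fun _ => hj, binj := Fin.val_injective, brev := ?_, inj := ?_, iso := ?_, det := ?_, sur := ?_ }⟩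
  · intro i
    rw [Fin.val_rev, Fintype.card_fin]
    have := i.2
    omega
  · intro g h hgh
    rw [hφ, hφ] at hgh
    apply Subtype.ext
    apply Subtype.ext
    have e1 : ∀ M : Matrix (Fin n) (Fin n) K, P * (Q * M * P) * Q = M := by
      intro M
      calc P * (Q * M * P) * Q = (P * Q) * M * (P * Q) := by simp only [mul_assoc]
        _ = M := by rw [hPQ, one_mul, mul_one]
    have e2 := congrArg (fun M => P * M * Q) hgh
    simp only [e1] at e2
    exact e2
  · intro g x y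
    have hg := (mem_SU' hσq).1 g.2
    have e1 : ∀ z, P *ᵥ (φ g *ᵥ z) = ((g : SpecialLinearGroup (Fin n) K) : Matrix (Fin n) (Fin n) K) *ᵥ (P *ᵥ z) := by
      intro z
      rw [hφ, mulVec_mulVec, mulVec_mulVec, ← mul_assoc, ← mul_assoc, hPQ, one_mul]
    rw [hfm, hfm, e1, e1, hg]
  · intro g
    rw [hφ, det_mul, det_mul]
    have e1 : ((g : SpecialLinearGroup (Fin n) K) : Matrix (Fin n) (Fin n) K).det = 1 := g.1.2
    rw [e1, mul_one, ← det_mul, hQP, det_one]
  · intro M hM hdet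
    have e0 : ∀ z, Q *ᵥ (P *ᵥ z) = z := fun z => by rw [mulVec_mulVec, hQP, one_mulVec]
    have e0' : ∀ z, P *ᵥ (Q *ᵥ z) = z := fun z => by rw [mulVec_mulVec, hPQ, one_mulVec]
    have e1 : (P * M * Q).det = 1 := by
      rw [det_mul, det_mul, hdet, mul_one, ← det_mul, hPQ, det_one]
    have e2 : (⟨P * M * Q, e1⟩ : SpecialLinearGroup (Fin n) K) ∈ Cfsg.SU n K q := by
      refine (mem_SU' hσq).2 fun x y => ?_
      show hb σ ((P * M * Q) *ᵥ x) ((P * M * Q) *ᵥ y) = hb σ x y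
      have e3 := hM (Q *ᵥ x) (Q *ᵥ y)
      rw [hfm, hfm, e0', e0'] at e3
      have e4 := mul_left_cancel₀ hj0 e3
      rw [← mulVec_mulVec, ← mulVec_mulVec, ← mulVec_mulVec, ← mulVec_mulVec]
      exact e4
    refine ⟨⟨_, e2⟩, ?_⟩
    rw [hφ]
    show Q * (P * M * Q) * P = M
    calc Q * (P * M * Q) * P = (Q * P) * M * (Q * P) := by simp only [mul_assoc]
      _ = M := by rw [hQP, one_mul, mul_one]

end CfsgLib.Unc
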