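import Cfsg.Agent.LibUnc1

set_option autoImplicit false

/-! Skew-Hermitian forms with a monomial Gram matrix and Siegel transformations (helper1) -/

namespace CfsgLib.Unc

open Cfsg Matrix CfsgLib.Fus21

variable {K : Type*} [Field K] {ι : Type*} [Fintype ι] [DecidableEq ι]

/-- the form -/
def fm (σ : K →+* K) (rev : ι → ι) (s : ι → K) (x y : ι → K) : K := ∑ i, x i * (s i * σ (y (rev i)))

/-- hypotheses on the form -/
structure Frm (σ : K →+* K) (rev : ι → ι) (s : ι → K) : Prop where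
  sig : ∀ x, σ (σ x) = x
  rr : ∀ i, rev (rev i) = i
  s0 : ∀ i, s i ≠ 0
  ss : ∀ i, σ (s i) = - s (rev i)

section form

variable {σ : K →+* K} {rev : ι → ι} {s : ι → K}

local notation "⟪" x ", " y "⟫" => fm σ rev s x y

omit [DecidableEq ι] in
@[simp] theorem fm_add_left (x y z : ι → K) : ⟪x + y, z⟫ = ⟪x, z⟫ + ⟪y, z⟫ := by
  simp only [fm, Pi.add_apply, add_mul, Finset.sum_add_distrib]

omit [DecidableEq ι] in
@[simp] theorem fm_add_right (x y z : ι → K) : ⟪x, y + z⟫ = ⟪x, y⟫ + ⟪x, z⟫ := by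
  simp only [fm, Pi.add_apply, map_add, mul_add, Finset.sum_add_distrib]

omit [DecidableEq ι] in
@[simp] theorem fm_smul_left (c : K) (x y : ι → K) : ⟪c • x, y⟫ = c * ⟪x, y⟫ := by
  simp only [fm, Pi.smul_apply, smul_eq_mul, Finset.mul_sum]
  exact Finset.sum_congr rfl fun i _ => by ring

omit [DecidableEq ι] in
@[simp] theorem fm_smul_right (c : K) (x y : ι → K) : ⟪x, c • y⟫ = σ c * ⟪x, y⟫ := by
  simp only [fm, Pi.smul_apply, smul_eq_mul, Finset.mul_sum, map_mul]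
  exact Finset.sum_congr rfl fun i _ => by ring

omit [DecidableEq ι] in
@[simp] theorem fm_neg_left (x y : ι → K) : ⟪-x, y⟫ = -⟪x, y⟫ := by
  simp only [fm, Pi.neg_apply, neg_mul, Finset.sum_neg_distrib]

omit [DecidableEq ι] in
@[simp] theorem fm_neg_right (x y : ι → K) : ⟪x, -y⟫ = -⟪x, y⟫ := by
  simp only [fm, Pi.neg_apply, map_neg, mul_neg, Finset.sum_neg_distrib]

omit [DecidableEq ι] in
@[simp] theorem fm_sub_left (x y z : ι → K) : ⟪x - y, z⟫ = ⟪x, z⟫ - ⟪y, z⟫ := by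
  rw [sub_eq_add_neg, fm_add_left, fm_neg_left, sub_eq_add_neg]

omit [DecidableEq ι] in
@[simp] theorem fm_sub_right (x y z : ι → K) : ⟪x, y - z⟫ = ⟪x, y⟫ - ⟪x, z⟫ := by
  rw [sub_eq_add_neg, fm_add_right, fm_neg_right, sub_eq_add_neg]

omit [DecidableEq ι] in
@[simp] theorem fm_zero_left (x : ι → K) : ⟪0, x⟫ = 0 := by
  simp [fm]

omit [DecidableEq ι] in
@[simp] theorem fm_zero_right (x : ι → K) : ⟪x, 0⟫ = 0 := by
  simp [fm]

theorem fm_single_left (i : ι) (a : K) (y : ι → K) : ⟪Pi.single i a, y⟫ = a * (s i * σ (y (rev i))) := by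
  rw [fm, Finset.sum_eq_single i, Pi.single_eq_same]
  · intro j _ hj
    rw [Pi.single_eq_of_ne hj, zero_mul]
  · intro h; exact absurd (Finset.mem_univ i) h

omit [DecidableEq ι] in
theorem fm_symm (h : Frm σ rev s) (x y : ι → K) : ⟪y, x⟫ = - σ ⟪x, y⟫ := by
  rw [fm, fm, map_sum, ← Finset.sum_neg_distrib]
  refine Finset.sum_bij' (fun i _ => rev i) (fun i _ => rev i) (fun i _ => Finset.mem_univ _) (fun i _ => Finset.mem_univ _)
    (fun i _ => h.rr i) (fun i _ => h.rr i) ?_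
  intro i _
  rw [map_mul, map_mul, h.sig, h.ss, h.rr]
  ring

omit [DecidableEq ι] in
theorem fm_symm_zero (h : Frm σ rev s) {x y : ι → K} (hxy : ⟪x, y⟫ = 0) : ⟪y, x⟫ = 0 := by
  rw [fm_symm h, hxy, map_zero, neg_zero]

theorem fm_single_right (h : Frm σ rev s) (j : ι) (a : K) (x : ι → K) : ⟪x, Pi.single j a⟫ = x (rev j) * (s (rev j) * σ a) := by
  rw [fm_symm h, fm_single_left, map_mul, map_mul, h.ss, h.sig]; ring

/-- the row vector of `⟪·, u⟫` -/
def fr (σ : K →+* K) (rev : ι → ι) (s : ι → K) (u : ι → K) : ι → K := fun i => s i * σ (u (rev i))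

omit [DecidableEq ι] in
theorem fr_dot (x u : ι → K) : fr σ rev s u ⬝ᵥ x = ⟪x, u⟫ := by
  rw [dotProduct, fm]
  exact Finset.sum_congr rfl fun i _ => by rw [fr]; ring

/-- Siegel transformations -/
def El (σ : K →+* K) (rev : ι → ι) (s : ι → K) (u v : ι → K) (β : K) : Matrix ι ι K :=
  1 + vecMulVec v (fr σ rev s u) + vecMulVec u (fr σ rev s v + β • fr σ rev s u)

theorem El_mulVec (u v : ι → K) (β : K) (x : ι → K) :
    El σ rev s u v β *ᵥ x = x + ⟪x, u⟫ • v + (⟪x, v⟫ + β * ⟪x, u⟫) • u := by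
  rw [El, add_mulVec, add_mulVec, one_mulVec, vecMulVec_mulVec, vecMulVec_mulVec, fr_dot, add_dotProduct, smul_dotProduct,
    fr_dot, fr_dot]
  rw [op_smul_eq_smul, op_smul_eq_smul, smul_eq_mul]

theorem El_apply (u v : ι → K) (β : K) (i j : ι) : El σ rev s u v β i j = (1 : Matrix ι ι K) i j + v i * (s j * σ (u (rev j))) +
    u i * (s j * σ (v (rev j)) + β * (s j * σ (u (rev j)))) := by
  rw [El, Matrix.add_apply, Matrix.add_apply, vecMulVec_apply, vecMulVec_apply]; rfl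

theorem mext {M N : Matrix ι ι K} (h : ∀ x, M *ᵥ x = N *ᵥ x) : M = N :=
  Matrix.toLin'.injective (LinearMap.ext fun x => by rw [Matrix.toLin'_apply, Matrix.toLin'_apply, h])

theorem El_mul {u v w : ι → K} (β γ : K) (h1 : ⟪u, u⟫ = 0) (h2 : ⟪u, v⟫ = 0) (h3 : ⟪w, u⟫ = 0) :
    El σ rev s u v β * El σ rev s u w γ = El σ rev s u (v + w) (β + γ + ⟪w, v⟫) := by
  apply mext
  intro x
  rw [← mulVec_mulVec, El_mulVec, El_mulVec, El_mulVec]
  simp only [fm_add_left, fm_add_right, fm_smul_left, h1, h2, h3, mul_zero, add_zero]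
  ext i
  simp only [Pi.add_apply, Pi.smul_apply, smul_eq_mul]
  ring

theorem El_zero (u : ι → K) : El σ rev s u 0 0 = 1 := by
  apply mext
  intro x
  rw [El_mulVec, one_mulVec]
  simp

theorem El_conj {g : Matrix ι ι K} (hg : ∀ x y, ⟪g *ᵥ x, g *ᵥ y⟫ = ⟪x, y⟫) (u v : ι → K) (β : K) :
    g * El σ rev s u v β = El σ rev s (g *ᵥ u) (g *ᵥ v) β * g := by
  apply mext
  intro x
  rw [← mulVec_mulVec, ← mulVec_mulVec, El_mulVec, El_mulVec, hg, hg, mulVec_add, mulVec_add, mulVec_smul, mulVec_smul]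

theorem El_iso (h : Frm σ rev s) {u v : ι → K} {β : K} (h1 : ⟪u, u⟫ = 0) (h2 : ⟪u, v⟫ = 0) (h3 : β - σ β = ⟪v, v⟫) (x y : ι → K) :
    ⟪El σ rev s u v β *ᵥ x, El σ rev s u v β *ᵥ y⟫ = ⟪x, y⟫ := by
  have h4 := fm_symm_zero h h2
  have h5 : ⟪y, u⟫ = - σ ⟪u, y⟫ := fm_symm h u y
  have h6 : ⟪y, v⟫ = - σ ⟪v, y⟫ := fm_symm h v y
  rw [El_mulVec, El_mulVec]
  simp only [fm_add_left, fm_add_right, fm_smul_left, fm_smul_right, h1, h2, h4, mul_zero, add_zero, h5, h6, map_neg, map_add, map_mul, h.sig, ← h3]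
  ring

theorem det_one_add_vecMulVec' (a b : ι → K) (h : b ⬝ᵥ a = 0) : (1 + vecMulVec a b).det = 1 := by
  have h1 : vecMulVec a b = replicateCol Unit a * replicateRow Unit b := by
    ext i j
    simp [vecMulVec_apply, Matrix.mul_apply]
  rw [h1, Matrix.det_one_add_replicateCol_mul_replicateRow, h, add_zero]

theorem El_det (h : Frm σ rev s) {u v : ι → K} {β : K} (h1 : ⟪u, u⟫ = 0) (h2 : ⟪u, v⟫ = 0) : (El σ rev s u v β).det = 1 := by
  have h4 := fm_symm_zero h h2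
  have h3 : El σ rev s u v β = (1 + vecMulVec v (fr σ rev s u)) * (1 + vecMulVec u (fr σ rev s v + β • fr σ rev s u)) := by
    rw [El, add_mul, one_mul, mul_add, mul_one, vecMulVec_mul_vecMulVec, fr_dot, h1, zero_smul, vecMulVec_zero]
    abel
  rw [h3, det_mul, det_one_add_vecMulVec' _ _ (by rw [fr_dot, h4]), det_one_add_vecMulVec' _ _ (by
    rw [add_dotProduct, smul_dotProduct, fr_dot, fr_dot, h1, h2]; simp), one_mul]

theorem El_swap (u v : ι → K) : El σ rev s u v 0 = El σ rev s v u 0 := by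
  apply mext
  intro x
  rw [El_mulVec, El_mulVec]
  ext i
  simp only [Pi.add_apply, Pi.smul_apply, smul_eq_mul]
  ring

theorem El_smul (h : Frm σ rev s) (c : K) (u v : ι → K) (β : K) : El σ rev s (c • u) v β = El σ rev s u (σ c • v) (β * (c * σ c)) := by
  apply mext
  intro x
  rw [El_mulVec, El_mulVec]
  simp only [fm_smul_right, h.sig]
  ext i
  simp only [Pi.add_apply, Pi.smul_apply, smul_eq_mul]
  ring

/-- polarization -/
theorem El_polar {u v : ι → K} (h1 : ⟪u, u⟫ = 0) (h2 : ⟪v, v⟫ = 0) (h3 : ⟪u, v⟫ = 0) (h4 : ⟪v, u⟫ = 0) :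
    El σ rev s (u + v) 0 1 = El σ rev s u 0 1 * El σ rev s v 0 1 * El σ rev s u v 0 := by
  apply mext
  intro x
  rw [← mulVec_mulVec, ← mulVec_mulVec, El_mulVec, El_mulVec, El_mulVec, El_mulVec]
  simp only [fm_add_left, fm_add_right, fm_smul_left, fm_zero_right, fm_zero_left, h1, h2, h3, h4, mul_zero, add_zero]
  ext i
  simp only [Pi.add_apply, Pi.smul_apply, smul_eq_mul, Pi.zero_apply]
  ring

end form

end CfsgLib.Unc
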