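import Cfsg.Agent.LibUnc2

set_option autoImplicit false

/-! Special isometry groups: Siegel transformations in the group (helper1) -/

namespace CfsgLib.Unc

open Cfsg Matrix CfsgLib.Fus21

variable {K : Type*} [Field K] {ι : Type*} [Fintype ι] [DecidableEq ι]

/-- a group of matrices which is the full special isometry group of the form -/
structure Dat {G : Type*} [Group G] (σ : K →+* K) (rev : ι → ι) (s : ι → K) (b : ι → ℕ) (φ : G →* Matrix ι ι K) : Prop
    extends Frm σ rev s where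
  binj : Function.Injective b
  brev : ∀ i, b i + b (rev i) + 1 = Fintype.card ι
  inj : Function.Injective φ
  iso : ∀ g x y, fm σ rev s (φ g *ᵥ x) (φ g *ᵥ y) = fm σ rev s x y
  det : ∀ g, (φ g).det = 1
  sur : ∀ M : Matrix ι ι K, (∀ x y, fm σ rev s (M *ᵥ x) (M *ᵥ y) = fm σ rev s x y) → M.det = 1 → ∃ g, φ g = M

variable {G : Type*} [Group G] {σ : K →+* K} {rev : ι → ι} {s : ι → K} {b : ι → ℕ} {φ : G →* Matrix ι ι K}

local notation "⟪" x ", " y "⟫" => fm σ rev s x y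

namespace Dat

variable (D : Dat σ rev s b φ)
include D

theorem frm : Frm σ rev s := D.toFrm

theorem bsurj {k : ℕ} (hk : k < Fintype.card ι) : ∃ i, b i = k := by
  have h1 : ∀ i, b i < Fintype.card ι := fun i => by have := D.brev i; omega
  let f : ι → Fin (Fintype.card ι) := fun i => ⟨b i, h1 i⟩
  have hf : Function.Injective f := fun i j h => D.binj (congrArg Fin.val h)
  have hf2 : Function.Bijective f := (Fintype.bijective_iff_injective_and_card f).2 ⟨hf, by rw [Fintype.card_fin]⟩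
  obtain ⟨i, hi⟩ := hf2.2 ⟨k, hk⟩
  exact ⟨i, congrArg Fin.val hi⟩

theorem rev_inj {i j : ι} (h : rev i = rev j) : i = j := by
  rw [← D.rr i, h, D.rr]

theorem ex_El {u v : ι → K} {β : K} (h1 : ⟪u, u⟫ = 0) (h2 : ⟪u, v⟫ = 0) (h3 : β - σ β = ⟪v, v⟫) :
    ∃ g, φ g = El σ rev s u v β :=
  D.sur _ (El_iso D.frm h1 h2 h3) (El_det D.frm h1 h2)

theorem ss_eq {i : ι} {a c : K} : ⟪Pi.single i a, Pi.single (rev i) c⟫ = a * (s i * σ c) := by
  rw [fm_single_left, Pi.single_eq_same]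

theorem ss_eq' {i : ι} {a c : K} : ⟪Pi.single (rev i) a, Pi.single i c⟫ = a * (s (rev i) * σ c) := by
  rw [fm_single_left, D.rr, Pi.single_eq_same]

theorem ss_ne {i j : ι} (h : rev i ≠ j) {a c : K} : ⟪Pi.single i a, Pi.single j c⟫ = 0 := by
  rw [fm_single_left, Pi.single_eq_of_ne h, map_zero, mul_zero, mul_zero]

/-- matrices of `U` -/
theorem inU_El {k : ι} {v : ι → K} (hv : ∀ l, v l ≠ 0 → b k < b l ∧ b l < b (rev k)) (hk : b k < b (rev k)) (β : K) (i j : ι)
    (hij : ¬ b i < b j) : El σ rev s (Pi.single k 1) v β i j = (1 : Matrix ι ι K) i j := by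
  have h1 := D.brev i
  have h2 := D.brev j
  have h3 := D.brev k
  rw [El_apply]
  have e1 : v i * (s j * σ ((Pi.single k 1 : ι → K) (rev j))) = 0 := by
    rcases eq_or_ne (rev j) k with h | h
    · rcases eq_or_ne (v i) 0 with h' | h'
      · rw [h', zero_mul]
      · exfalso
        have h4 := hv i h'
        have h5 := D.brev k
        rw [← h, D.rr] at h4
        omega
    · rw [Pi.single_eq_of_ne h, map_zero, mul_zero, mul_zero]
  have e2 : (Pi.single k 1 : ι → K) i * (s j * σ (v (rev j)) + β * (s j * σ ((Pi.single k 1 : ι → K) (rev j)))) = 0 := by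
    rcases eq_or_ne i k with h | h
    · subst h
      have h6 : v (rev j) = 0 := by
        by_contra h'
        have h4 := hv _ h'
        omega
      have h7 : rev j ≠ i := by
        rintro rfl
        rw [D.rr] at h1 hk h3
        omega
      rw [h6, map_zero, mul_zero, zero_add, Pi.single_eq_of_ne h7, map_zero, mul_zero, mul_zero, mul_zero]
    · rw [Pi.single_eq_of_ne h, zero_mul]
  rw [e1, e2, add_zero, add_zero]

theorem inU_El' {u : ι → K} (hu : ∀ l, u l ≠ 0 → b l < b (rev l)) (β : K) (i j : ι)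
    (hij : ¬ b i < b j) : El σ rev s u 0 β i j = (1 : Matrix ι ι K) i j := by
  rw [El_apply]
  rcases eq_or_ne (u i) 0 with h | h
  · rw [h]; simp
  rcases eq_or_ne (u (rev j)) 0 with h' | h'
  · rw [h']; simp
  exfalso
  have h1 := D.brev i
  have h2 := D.brev j
  have h3 := hu _ h
  have h4 := hu _ h'
  rw [D.rr] at h4
  omega

/-- the matrix of a transvection of the Levi subgroup -/
theorem tv_cond {i j : ι} (hi : rev i ≠ i) (hj : rev j ≠ j) (hij : i ≠ j) (c : K) :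
    ⟪Pi.single i 1, Pi.single i 1⟫ = 0 ∧ ⟪Pi.single i 1, Pi.single (rev j) (-(σ c) / s (rev j))⟫ = 0 ∧
      (0 : K) - σ 0 = ⟪Pi.single (rev j) (-(σ c) / s (rev j)), Pi.single (rev j) (-(σ c) / s (rev j))⟫ := by
  refine ⟨D.ss_ne hi, D.ss_ne fun h => hij (D.rev_inj h), ?_⟩
  rw [D.ss_ne (by rw [D.rr]; exact hj.symm), map_zero, sub_zero]

end Dat

/-- the matrix of a transvection of the Levi subgroup -/
def tvM (σ : K →+* K) (rev : ι → ι) (s : ι → K) (i j : ι) (c : K) : Matrix ι ι K :=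
  El σ rev s (Pi.single i 1) (Pi.single (rev j) (-(σ c) / s (rev j))) 0

namespace Dat

variable (D : Dat σ rev s b φ)
include D

theorem ex_tv {i j : ι} (hi : rev i ≠ i) (hj : rev j ≠ j) (hij : i ≠ j) (c : K) : ∃ g, φ g = tvM σ rev s i j c :=
  D.ex_El (D.tv_cond hi hj hij c).1 (D.tv_cond hi hj hij c).2.1 (D.tv_cond hi hj hij c).2.2

theorem tv_mulVec (i j : ι) (c : K) (v : ι → K) : tvM σ rev s i j c *ᵥ v = v +
    Pi.single i (c * v j) + Pi.single (rev j) (-(σ c) * (s (rev i) / s (rev j)) * v (rev i)) := by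
  rw [tvM, El_mulVec, fm_single_right D.frm, fm_single_right D.frm, D.rr, map_one, map_div₀, map_neg, D.sig, D.ss, D.rr]
  have h1 := D.s0 j
  have h2 := D.s0 (rev j)
  ext l
  simp only [Pi.add_apply, Pi.smul_apply, smul_eq_mul, Pi.single_apply]
  split_ifs <;> field_simp <;> ring

theorem tv_fix {i j : ι} (c : K) {v : ι → K} (h1 : v j = 0) (h2 : v (rev i) = 0) : tvM σ rev s i j c *ᵥ v = v := by
  rw [D.tv_mulVec, h1, h2, mul_zero, mul_zero, Pi.single_zero, Pi.single_zero, add_zero, add_zero]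

theorem tv_act {i j : ι} (hi : rev i ≠ j) (c a : K) : tvM σ rev s i j c *ᵥ (Pi.single j a) = Pi.single j a + Pi.single i (c * a) := by
  rw [D.tv_mulVec, Pi.single_eq_same, Pi.single_eq_of_ne hi, mul_zero, Pi.single_zero, add_zero]

/-- long root elements -/
theorem ex_lr {i : ι} (hi : rev i ≠ i) {c : K} (hc : σ c = c) : ∃ g, φ g = El σ rev s (Pi.single i 1) 0 c :=
  D.ex_El (D.ss_ne hi) (fm_zero_right _) (by rw [hc, sub_self, fm_zero_right])

theorem lr_mulVec (i : ι) (c : K) (v : ι → K) : El σ rev s (Pi.single i 1) 0 c *ᵥ v = v + Pi.single i (c * (v (rev i) * s (rev i))) := by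
  rw [El_mulVec, fm_zero_right, fm_single_right D.frm, smul_zero, add_zero, zero_add, map_one, mul_one]
  congr 1
  ext l
  simp only [Pi.smul_apply, smul_eq_mul, Pi.single_apply]
  split_ifs <;> simp

/-- orbits of pairs -/
def _root_.CfsgLib.Unc.Orb (φ : G →* Matrix ι ι K) (u v u' v' : ι → K) : Prop := ∃ g : G, φ g *ᵥ u = u' ∧ φ g *ᵥ v = v'

omit D in
theorem _root_.CfsgLib.Unc.Orb.trans {u v u' v' u'' v'' : ι → K} (h1 : Orb φ u v u' v') (h2 : Orb φ u' v' u'' v'') : Orb φ u v u'' v'' := by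
  obtain ⟨g, hg, hg'⟩ := h1
  obtain ⟨h, hh, hh'⟩ := h2
  exact ⟨h * g, by rw [map_mul, ← mulVec_mulVec, hg, hh], by rw [map_mul, ← mulVec_mulVec, hg', hh']⟩

/-- `e_i → e_k` -/
theorem orb_move {i k : ι} (hi : rev i ≠ i) (hk : rev k ≠ k) (hik : i ≠ k) (hik' : rev i ≠ k) (a : K) {v : ι → K} (h1 : v i = 0) (h2 : v k = 0)
    (h3 : v (rev i) = 0) (h4 : v (rev k) = 0) : Orb φ (Pi.single i a) v (Pi.single k a) v := by
  obtain ⟨g, hg⟩ := D.ex_tv hk hi hik.symm 1
  obtain ⟨h, hh⟩ := D.ex_tv hi hk hik (-1)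
  have h5 : rev k ≠ i := fun h => hik' (by rw [← h, D.rr])
  refine Orb.trans (u' := Pi.single i a + Pi.single k a) (v' := v) ⟨g, ?_, ?_⟩ ⟨h, ?_, ?_⟩
  · rw [hg, D.tv_act h5, one_mul]
  · rw [hg, D.tv_fix _ h1 h4]
  · rw [hh, mulVec_add, D.tv_act hik', D.tv_fix _ (Pi.single_eq_of_ne hik.symm _) (Pi.single_eq_of_ne hi _), ← add_assoc, add_right_comm, ← Pi.single_add]
    have : a + -1 * a = 0 := by ring
    rw [this, Pi.single_zero, zero_add]
  · rw [hh, D.tv_fix _ h2 h3]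

/-- the same with the second vector -/
theorem orb_symm {u v u' v' : ι → K} (h : Orb φ u v u' v') : Orb φ v u v' u' := by
  obtain ⟨g, h1, h2⟩ := h
  exact ⟨g, h2, h1⟩

/-- `e_i → λ e_i` -/
theorem orb_scale {i k : ι} (hi : rev i ≠ i) (hk : rev k ≠ k) (hik : i ≠ k) (hik' : rev i ≠ k) {l : K} (hl : l ≠ 0) :
    Orb φ (Pi.single i 1) 0 (Pi.single i l) 0 := by
  have h5 : rev k ≠ i := fun h => hik' (by rw [← h, D.rr])
  obtain ⟨g1, hg1⟩ := D.ex_tv hk hi hik.symm 1
  obtain ⟨g2, hg2⟩ := D.ex_tv hi hk hik (l - 1)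
  obtain ⟨g3, hg3⟩ := D.ex_tv hk hi hik.symm (-l⁻¹)
  refine Orb.trans (u' := Pi.single i 1 + Pi.single k 1) (v' := 0) ⟨g1, ?_, ?_⟩
    (Orb.trans (u' := Pi.single i l + Pi.single k 1) (v' := 0) ⟨g2, ?_, ?_⟩ ⟨g3, ?_, ?_⟩)
  · rw [hg1, D.tv_act h5, one_mul]
  · rw [mulVec_zero]
  · rw [hg2, mulVec_add, D.tv_act hik', D.tv_fix _ (Pi.single_eq_of_ne hik.symm _) (Pi.single_eq_of_ne hi _), ← add_assoc, add_right_comm, ← Pi.single_add]
    have : 1 + (l - 1) * 1 = l := by ring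
    rw [this]
  · rw [mulVec_zero]
  · rw [hg3, mulVec_add, D.tv_act h5, D.tv_fix _ (Pi.single_eq_of_ne hik _) (Pi.single_eq_of_ne hk _), add_assoc, ← Pi.single_add]
    have : -l⁻¹ * l + 1 = 0 := by field_simp; ring
    rw [this, Pi.single_zero, add_zero]
  · rw [mulVec_zero]

/-- `e_i → e_{rev i}` -/
theorem orb_w {i : ι} (hi : rev i ≠ i) {γ : K} (hγ : σ γ = γ) (hγ0 : γ ≠ 0) (a : K) {v : ι → K} (h1 : v i = 0) (h3 : v (rev i) = 0) :
    Orb φ v (Pi.single i a) v (Pi.single (rev i) (γ * (a * s i))) := by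
  have hi' : rev (rev i) ≠ rev i := by rw [D.rr]; exact hi.symm
  obtain ⟨g1, hg1⟩ := D.ex_lr hi' hγ
  have h4 : σ (γ * (s i * σ (s i)))⁻¹ = (γ * (s i * σ (s i)))⁻¹ := by
    rw [map_inv₀, map_mul, map_mul, D.sig, hγ, mul_comm (σ (s i))]
  obtain ⟨g2, hg2⟩ := D.ex_lr hi h4
  refine Orb.trans (u' := v) (v' := Pi.single i a + Pi.single (rev i) (γ * (a * s i))) ⟨g1, ?_, ?_⟩ ⟨g2, ?_, ?_⟩
  · rw [hg1, D.lr_mulVec, D.rr, h1, zero_mul, mul_zero, Pi.single_zero, add_zero]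
  · rw [hg1, D.lr_mulVec, D.rr, Pi.single_eq_same]
  · rw [hg2, D.lr_mulVec, h3, zero_mul, mul_zero, Pi.single_zero, add_zero]
  · rw [hg2, mulVec_add, D.lr_mulVec, D.lr_mulVec, Pi.single_eq_same, Pi.single_eq_of_ne hi, zero_mul, mul_zero, Pi.single_zero, add_zero,
      ← add_assoc, add_right_comm, ← Pi.single_add]
    have h5 := D.s0 i
    have h6 := D.s0 (rev i)
    have h7 : a + (γ * (s i * σ (s i)))⁻¹ * (γ * (a * s i) * s (rev i)) = 0 := by
      rw [D.ss]; field_simp; ring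
    rw [h7, Pi.single_zero, zero_add]

end Dat

end CfsgLib.Unc
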