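import Cfsg.Agent.LibUnc3

set_option autoImplicit false

/-! Special isometry groups: generation of the unipotent radical (helper1) -/

namespace CfsgLib.Unc

open Cfsg Matrix CfsgLib.Fus21

variable {K : Type*} [Field K] {ι : Type*} [Fintype ι] [DecidableEq ι]
variable {G : Type*} [Group G] {σ : K →+* K} {rev : ι → ι} {s : ι → K} {b : ι → ℕ} {φ : G →* Matrix ι ι K}

local notation "⟪" x ", " y "⟫" => fm σ rev s x y

namespace Dat

variable (D : Dat σ rev s b φ)
include D

theorem coef (x : ι → K) (j : ι) : ⟪x, Pi.single (rev j) 1⟫ = x j * s j := by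
  rw [fm_single_right D.frm, D.rr, map_one, mul_one]

theorem coef_zero {x : ι → K} {j : ι} (h : ⟪x, Pi.single (rev j) 1⟫ = 0) : x j = 0 := by
  rw [D.coef] at h
  exact (mul_eq_zero.1 h).resolve_right (D.s0 j)

theorem col_eq (u : G) (i j : ι) : (φ u *ᵥ Pi.single j 1) i = φ u i j := by
  rw [mulVec_single_one]; rfl

theorem phi_inv_mulVec {g : G} {x y : ι → K} (h : φ g *ᵥ x = y) : φ g⁻¹ *ᵥ y = x := by
  rw [← h, mulVec_mulVec, ← map_mul, inv_mul_cancel, map_one, one_mulVec]

theorem eq_one_of {g : G} (h : ∀ i, φ g *ᵥ Pi.single i 1 = Pi.single i 1) : g = 1 := by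
  apply D.inj
  rw [map_one]
  ext i j
  rw [← D.col_eq, h, Matrix.one_apply, Pi.single_apply]

theorem unip_gen [Finite G] (H : Subgroup G) (hH : ∀ k, b k < b (rev k) → ∀ v : ι → K, (∀ l, v l ≠ 0 → b k < b l ∧ b l < b (rev k)) →
    ∀ β, β - σ β = ⟪v, v⟫ → ∀ g, φ g = El σ rev s (Pi.single k 1) v β → g ∈ H) : Rb φ b ≤ H := by
  have key : ∀ t k0 : ℕ, k0 + t = Fintype.card ι → ∀ u ∈ Rb φ b, (∀ i, b i < k0 → b i < b (rev i) →
      φ u *ᵥ Pi.single i 1 = Pi.single i 1 ∧ φ u *ᵥ Pi.single (rev i) 1 = Pi.single (rev i) 1) → u ∈ H := by
    intro t
    induction t with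
    | zero =>
      intro k0 hk0 u hu hfix
      have hU := mem_Rb'.1 hu
      have h1 : ∀ i, rev i ≠ i → φ u *ᵥ Pi.single i 1 = Pi.single i 1 := by
        intro i hi
        have hb := D.brev i
        rcases lt_or_ge (b i) (b (rev i)) with h | h
        · exact (hfix i (by omega) h).1
        · have h' : b i ≠ b (rev i) := fun h' => hi (D.binj h'.symm)
          have := (hfix (rev i) (by omega) (by rw [D.rr]; omega)).2
          rwa [D.rr] at this
      have : u = 1 := by
        refine D.eq_one_of fun i => ?_
        by_cases hi : rev i = i
        · ext j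
          rcases eq_or_ne j i with rfl | hj
          · rw [D.col_eq, hU j j (lt_irrefl _), Matrix.one_apply_eq, Pi.single_eq_same]
          · rw [Pi.single_eq_of_ne hj]
            apply D.coef_zero
            have h2 : rev (rev j) ≠ rev j := by
              rw [D.rr]
              intro h
              have h3 := D.brev j
              have h4 := D.brev i
              rw [hi] at h4
              rw [← h] at h3
              exact hj (D.binj (by omega))
            rw [← h1 _ h2, D.iso, D.ss_ne]
            rw [hi]
            intro h
            exact hj (by rw [← D.rr j, ← h, hi])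
        · exact h1 i hi
      rw [this]; exact H.one_mem
    | succ t ih =>
      intro k0 hk0 u hu hfix
      have hU := mem_Rb'.1 hu
      obtain ⟨k, hk⟩ := D.bsurj (k := k0) (by omega)
      have hbk := D.brev k
      by_cases hl : b k < b (rev k)
      · have h1 : φ u *ᵥ Pi.single k 1 = Pi.single k 1 := by
          ext j
          rcases lt_trichotomy (b j) (b k) with h | h | h
          · rw [Pi.single_eq_of_ne (by rintro rfl; exact lt_irrefl _ h)]
            apply D.coef_zero
            have hbj := D.brev j
            rw [← (hfix j (by omega) (by omega)).2, D.iso, D.ss_ne]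
            intro h'
            exact lt_irrefl _ ((D.rev_inj h') ▸ h)
          · rw [D.binj h, D.col_eq, hU k k (lt_irrefl _), Matrix.one_apply_eq, Pi.single_eq_same]
          · rw [D.col_eq, hU j k (by omega), Matrix.one_apply, Pi.single_apply]
        set y := φ u *ᵥ Pi.single (rev k) 1 with hy
        have hy1 : y (rev k) = 1 := by rw [hy, D.col_eq, hU _ _ (lt_irrefl _), Matrix.one_apply_eq]
        have hy2 : ∀ j, b (rev k) < b j → y j = 0 := by
          intro j hj
          rw [hy, D.col_eq, hU _ _ (by omega), Matrix.one_apply_ne]
          rintro rfl; exact lt_irrefl _ hj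
        have hy3 : ∀ j, b j < b k → y j = 0 := by
          intro j hj
          apply D.coef_zero
          have hbj := D.brev j
          rw [← (hfix j (by omega) (by omega)).2, hy, D.iso, D.ss_ne]
          rw [D.rr]
          rintro rfl
          omega
        set c := s (rev k) with hc
        have hc0 : c ≠ 0 := D.s0 _
        set v : ι → K := fun l => if b k < b l ∧ b l < b (rev k) then c⁻¹ * y l else 0 with hv
        set β : K := c⁻¹ * y k with hβ
        have hvs : ∀ l, v l ≠ 0 → b k < b l ∧ b l < b (rev k) := by
          intro l hl
          by_contra h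
          exact hl (by rw [hv]; exact if_neg h)
        have hvk : v k = 0 := by by_contra h; exact lt_irrefl _ (hvs k h).1
        have hvk' : v (rev k) = 0 := by by_contra h; exact lt_irrefl _ (hvs _ h).2
        have hkk : rev k ≠ k := by rintro h; rw [h] at hl; exact lt_irrefl _ hl
        have hye : y = Pi.single (rev k) 1 + c • v + Pi.single k (c * β) := by
          ext l
          rw [Pi.add_apply, Pi.add_apply, Pi.smul_apply, smul_eq_mul]
          have hcv : b k < b l ∧ b l < b (rev k) → c * v l = y l := by
            intro h
            rw [hv]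
            simp only [if_pos h]
            rw [← mul_assoc, mul_inv_cancel₀ hc0, one_mul]
          rcases eq_or_ne l k with rfl | hlk
          · rw [Pi.single_eq_of_ne hkk.symm, hvk, Pi.single_eq_same, hβ, ← mul_assoc, mul_inv_cancel₀ hc0]; ring
          · rcases eq_or_ne l (rev k) with rfl | hlk'
            · rw [Pi.single_eq_same, hvk', Pi.single_eq_of_ne hkk, hy1]; ring
            · rw [Pi.single_eq_of_ne hlk, Pi.single_eq_of_ne hlk', zero_add, add_zero]
              by_cases h : b k < b l ∧ b l < b (rev k)
              · exact (hcv h).symm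
              · have h5 : v l = 0 := by by_contra h'; exact h (hvs l h')
                have h6 : b l ≠ b k := fun h => hlk (D.binj h)
                have h7 : b l ≠ b (rev k) := fun h => hlk' (D.binj h)
                rw [h5, mul_zero]
                rcases lt_or_ge (b l) (b k) with h8 | h8
                · exact hy3 l h8
                · exact hy2 l (by omega)
        have hev : ⟪Pi.single (rev k) 1, v⟫ = 0 := by
          rw [fm_single_left, D.rr, hvk, map_zero, mul_zero, mul_zero]
        have hvk2 : ⟪Pi.single k 1, v⟫ = 0 := by
          rw [fm_single_left, hvk', map_zero, mul_zero, mul_zero]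
        have hkv2 : ⟪v, Pi.single k 1⟫ = 0 := fm_symm_zero D.frm hvk2
        have hsk : s k = - σ c := by rw [hc, D.ss, D.rr, neg_neg]
        have hcond : β - σ β = ⟪v, v⟫ := by
          have h2 : ⟪y, y⟫ = 0 := by
            rw [hy, D.iso, D.ss_ne]
            rw [D.rr]; exact hkk.symm
          have h3 : (Pi.single k (c * β) : ι → K) = (c * β) • Pi.single k 1 := by
            ext l
            simp only [Pi.smul_apply, smul_eq_mul, Pi.single_apply]
            split_ifs <;> simp
          rw [hye, h3] at h2
          have h4 : ⟪Pi.single (rev k) 1, Pi.single (rev k) 1⟫ = 0 := by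
            rw [D.ss_ne]
            rw [D.rr]; exact hkk.symm
          have h5 : ⟪Pi.single k 1, Pi.single k 1⟫ = 0 := D.ss_ne hkk
          have h6 : ⟪Pi.single k 1, Pi.single (rev k) 1⟫ = s k := by rw [D.ss_eq]; simp
          have h7 : ⟪Pi.single (rev k) 1, Pi.single k 1⟫ = c := by rw [D.ss_eq']; simp [hc]
          have h8 := fm_symm_zero D.frm hev
          simp only [fm_add_left, fm_add_right, fm_smul_left, fm_smul_right, h4, h5, h6, h7, hev, h8, hvk2, hkv2, mul_zero, add_zero,
            zero_add, map_mul] at h2
          rw [hsk] at h2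
          have h9 : c * σ c * (σ β + ⟪v, v⟫ - β) = 0 := by linear_combination h2
          have h10 : σ c ≠ 0 := (map_ne_zero σ).2 hc0
          have h11 := (mul_eq_zero.1 h9).resolve_left (mul_ne_zero hc0 h10)
          linear_combination -h11
        obtain ⟨g, hg⟩ := D.ex_El (D.ss_ne hkk) hvk2 hcond
        have hgH := hH k hl v hvs β hcond g hg
        have hgU : g ∈ Rb φ b := mem_Rb'.2 fun i j hij => by rw [hg]; exact D.inU_El hvs hl β i j hij
        have hfix2 : ∀ l, (b l < b k ∨ b (rev k) < b l) → φ g *ᵥ Pi.single l 1 = Pi.single l 1 := by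
          intro l hl'
          have hbl := D.brev l
          have h2 : v (rev l) = 0 := by by_contra h; have := hvs _ h; omega
          have h3 : rev l ≠ k := by rintro rfl; rw [D.rr] at hl'; omega
          rw [hg, El_mulVec, D.ss_ne h3, fm_single_left, h2]
          simp
        have hgk : φ g *ᵥ Pi.single k 1 = Pi.single k 1 := by
          rw [hg, El_mulVec, D.ss_ne hkk, hvk2]
          simp
        have hgk' : φ g *ᵥ Pi.single (rev k) 1 = y := by
          have h7 : ⟪Pi.single (rev k) 1, Pi.single k 1⟫ = c := by rw [D.ss_eq']; simp [hc]
          rw [hg, El_mulVec, h7, hev, hye]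
          congr 1
          ext l
          simp only [Pi.smul_apply, smul_eq_mul, Pi.single_apply]
          split_ifs
          · ring
          · ring
        have h20 := ih (k0 + 1) (by omega) (g⁻¹ * u) (Subgroup.mul_mem _ (Subgroup.inv_mem _ hgU) hu) (by
          intro i hi hli
          rcases eq_or_ne i k with rfl | hne
          · constructor
            · rw [map_mul, ← mulVec_mulVec, h1, D.phi_inv_mulVec hgk]
            · rw [map_mul, ← mulVec_mulVec, ← hy, D.phi_inv_mulVec hgk']
          · have hne' : b i ≠ b k := fun h => hne (D.binj h)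
            have hbi := D.brev i
            have h21 := hfix i (by omega) hli
            constructor
            · rw [map_mul, ← mulVec_mulVec, h21.1, D.phi_inv_mulVec (hfix2 i (by omega))]
            · rw [map_mul, ← mulVec_mulVec, h21.2, D.phi_inv_mulVec (hfix2 (rev i) (by omega))])
        have h22 : u = g * (g⁻¹ * u) := by group
        rw [h22]; exact H.mul_mem hgH h20
      · refine ih (k0 + 1) (by omega) u hu fun i hi hli => ?_
        refine hfix i ?_ hli
        by_contra h
        have : b i = b k := by omega
        exact hl ((D.binj this) ▸ hli)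
  intro u hu
  exact key (Fintype.card ι) 0 (by omega) u hu fun i hi => absurd hi (by omega)

end Dat

end CfsgLib.Unc
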