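import Cfsg.Agent.LibUnc4

set_option autoImplicit false

/-! Special isometry groups: the center of the unipotent radical (helper1) -/

namespace CfsgLib.Unc

open Cfsg Matrix CfsgLib.Fus21

variable {K : Type*} [Field K] {ι : Type*} [Fintype ι] [DecidableEq ι]
variable {G : Type*} [Group G] {σ : K →+* K} {rev : ι → ι} {s : ι → K} {b : ι → ℕ} {φ : G →* Matrix ι ι K}

local notation "⟪" x ", " y "⟫" => fm σ rev s x y

theorem colext {M N : Matrix ι ι K} (h : ∀ l, M *ᵥ Pi.single l 1 = N *ᵥ Pi.single l 1) : M = N := by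
  ext i j
  have := congrFun (h j) i
  rwa [mulVec_single_one, mulVec_single_one] at this

namespace Dat

variable (D : Dat σ rev s b φ)
include D

theorem comm_El {x y : G} {u v : ι → K} {β : K} (hy : φ y = El σ rev s u v β) (h : x * y = y * x) :
    El σ rev s (φ x *ᵥ u) (φ x *ᵥ v) β = El σ rev s u v β := by
  have h1 := El_conj (D.iso x) u v β
  rw [← hy, ← map_mul, h, map_mul] at h1
  have h3 : φ x * φ x⁻¹ = 1 := by rw [← map_mul, mul_inv_cancel, map_one]
  have h2 := congrArg (· * φ x⁻¹) h1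
  simp only [mul_assoc, h3, mul_one] at h2
  rw [← hy]; exact h2.symm

variable [Finite G]

theorem fix_left {x g : G} (hx : x ∈ Rb φ b) {k : ι} {c : K} (hc : c ≠ 0)
    (hg : φ g = El σ rev s (Pi.single k 1) 0 c) (h : x * g = g * x) : φ x *ᵥ Pi.single k 1 = Pi.single k 1 := by
  have h1 := D.comm_El hg h
  have h2 := congrArg (fun M : Matrix ι ι K => M *ᵥ Pi.single (rev k) 1) h1
  simp only [mulVec_zero] at h2
  have h3 : ⟪Pi.single (rev k) 1, φ x *ᵥ Pi.single k 1⟫ = s (rev k) := by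
    rw [fm_single_left, D.rr, D.col_eq, mem_Rb'.1 hx k k (lt_irrefl _), Matrix.one_apply_eq, map_one, mul_one, one_mul]
  have h4 : ⟪Pi.single (rev k) 1, Pi.single k 1⟫ = s (rev k) := by
    rw [D.ss_eq', map_one, mul_one, one_mul]
  rw [El_mulVec, El_mulVec, h3, h4, fm_zero_right, smul_zero, add_zero, zero_add, add_right_inj] at h2
  exact smul_right_injective (ι → K) (mul_ne_zero hc (D.s0 (rev k))) h2

theorem fix_mod {x g : G} {k l : ι} {β : K} (hxk : φ x *ᵥ Pi.single k 1 = Pi.single k 1)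
    (hg : φ g = El σ rev s (Pi.single k 1) (Pi.single l 1) β) (h : x * g = g * x) {i : ι} (hi : i ≠ k) :
    φ x i l = (1 : Matrix ι ι K) i l := by
  have h1 := D.comm_El hg h
  rw [hxk] at h1
  have h2 := congrFun (congrArg (fun M : Matrix ι ι K => M *ᵥ Pi.single (rev k) 1) h1) i
  have h4 : ⟪Pi.single (rev k) 1, Pi.single k 1⟫ = s (rev k) := by
    rw [D.ss_eq', map_one, mul_one, one_mul]
  simp only [El_mulVec, h4, Pi.add_apply, Pi.smul_apply, smul_eq_mul, Pi.single_eq_of_ne hi, mul_zero, add_zero, D.col_eq] at h2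
  rw [add_right_inj] at h2
  have h5 := mul_left_cancel₀ (D.s0 (rev k)) h2
  rw [h5, Matrix.one_apply, Pi.single_apply]

theorem central_form (h4 : 4 ≤ Fintype.card ι) (hmid : ∀ l, rev l = l → ∃ β, β - σ β = s l) {x : G} (hx : x ∈ Rb φ b)
    (hc : ∀ u ∈ Rb φ b, u * x = x * u) {i0 i1 : ι} (h0 : b i0 = 0) (h1 : b i1 = 1) :
    ∃ c a : K, σ a = a ∧ φ x = El σ rev s (Pi.single i0 1) (Pi.single i1 c) a := by
  have hr0 := D.brev i0
  have hr1 := D.brev i1
  have n0 : rev i0 ≠ i0 := by intro h; rw [h] at hr0; omega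
  have n1 : rev i1 ≠ i1 := by intro h; rw [h] at hr1; omega
  have n01 : i0 ≠ i1 := by rintro rfl; omega
  have n01' : rev i0 ≠ i1 := by intro h; rw [h] at hr0; omega
  have n10' : rev i1 ≠ i0 := by intro h; rw [h] at hr1; omega
  have nr01 : rev i0 ≠ rev i1 := fun h => n01 (D.rev_inj h)
  -- left vectors are fixed
  have hL : ∀ k, b k < b (rev k) → φ x *ᵥ Pi.single k 1 = Pi.single k 1 := by
    intro k hk
    have hk' : rev k ≠ k := by intro h; rw [h] at hk; exact lt_irrefl _ hk
    obtain ⟨g, hg⟩ := D.ex_lr hk' (map_one σ)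
    have hgU : g ∈ Rb φ b := mem_Rb'.2 fun i j hij => by
      rw [hg]; exact D.inU_El (v := 0) (fun l hl => absurd rfl hl) hk 1 i j hij
    exact D.fix_left hx one_ne_zero hg (hc g hgU).symm
  -- entries
  have hM : ∀ k l, b k < b l → b l < b (rev k) → ∀ i, i ≠ k → φ x i l = (1 : Matrix ι ι K) i l := by
    intro k l hkl hlk i hi
    have hk : b k < b (rev k) := hkl.trans hlk
    have hk' : rev k ≠ k := by intro h; rw [h] at hk; exact lt_irrefl _ hk
    have hkl' : rev k ≠ l := by intro h; rw [h] at hlk; exact lt_irrefl _ hlk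
    have hcond : ∃ β, β - σ β = ⟪Pi.single l 1, Pi.single l 1⟫ := by
      by_cases hl : rev l = l
      · obtain ⟨β, hβ⟩ := hmid l hl
        refine ⟨β, ?_⟩
        rw [hβ, fm_single_left, hl, Pi.single_eq_same, map_one, mul_one, one_mul]
      · exact ⟨0, by rw [D.ss_ne hl, map_zero, sub_zero]⟩
    obtain ⟨β, hβ⟩ := hcond
    obtain ⟨g, hg⟩ := D.ex_El (D.ss_ne hk') (D.ss_ne hkl') hβ
    have hgU : g ∈ Rb φ b := mem_Rb'.2 fun i j hij => by
      rw [hg]; exact D.inU_El (fun m hm => by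
        have : m = l := by by_contra h; exact hm (Pi.single_eq_of_ne h _)
        rw [this]; exact ⟨hkl, hlk⟩) hk β i j hij
    exact D.fix_mod (hL k hk) hg (hc g hgU).symm hi
  have hF : ∀ l, l ≠ rev i0 → l ≠ rev i1 → φ x *ᵥ Pi.single l 1 = Pi.single l 1 := by
    intro l hl0 hl1
    by_cases hl : b l < b (rev l)
    · exact hL l hl
    have hbl := D.brev l
    have e0 : b l ≠ b (rev i0) := fun h => hl0 (D.binj h)
    have e1 : b l ≠ b (rev i1) := fun h => hl1 (D.binj h)
    ext i
    rw [D.col_eq]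
    have : φ x i l = (1 : Matrix ι ι K) i l := by
      rcases eq_or_ne i i0 with rfl | hi
      · exact hM i1 l (by omega) (by omega) i n01
      · exact hM i0 l (by omega) (by omega) i hi
    rw [this, Matrix.one_apply, Pi.single_apply]
  set y := φ x *ᵥ Pi.single (rev i0) 1 with hy
  set z := φ x *ᵥ Pi.single (rev i1) 1 with hz
  have hz' : ∀ i, i ≠ i0 → z i = (Pi.single (rev i1) 1 : ι → K) i := by
    intro i hi
    rw [hz, D.col_eq, hM i0 (rev i1) (by omega) (by omega) i hi, Matrix.one_apply, Pi.single_apply]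
  have hy' : ∀ i, i ≠ i0 → i ≠ i1 → y i = (Pi.single (rev i0) 1 : ι → K) i := by
    intro i hi hi'
    have : (y - (Pi.single (rev i0) 1 : ι → K)) i = 0 := by
      apply D.coef_zero
      rw [fm_sub_left]
      nth_rewrite 1 [← hF (rev i) (fun h => hi (D.rev_inj h)) (fun h => hi' (D.rev_inj h))]
      rw [hy, D.iso, sub_self]
    rwa [Pi.sub_apply, sub_eq_zero] at this
  set t := s (rev i0) with ht
  have ht0 : t ≠ 0 := D.s0 _
  have hs0 : s i0 = - σ t := by rw [ht, D.ss, D.rr, neg_neg]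
  have hye : y = Pi.single (rev i0) 1 + Pi.single i1 (y i1) + Pi.single i0 (y i0) := by
    ext i
    simp only [Pi.add_apply]
    rcases eq_or_ne i i0 with rfl | hi
    · rw [Pi.single_eq_of_ne n0.symm, Pi.single_eq_of_ne n01, Pi.single_eq_same, zero_add, zero_add]
    · rcases eq_or_ne i i1 with rfl | hi'
      · rw [Pi.single_eq_of_ne n01'.symm, Pi.single_eq_of_ne hi, Pi.single_eq_same, zero_add, add_zero]
      · rw [Pi.single_eq_of_ne hi, Pi.single_eq_of_ne hi', add_zero, add_zero, hy' i hi hi']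
  have hze : z = Pi.single (rev i1) 1 + Pi.single i0 (z i0) := by
    ext i
    simp only [Pi.add_apply]
    rcases eq_or_ne i i0 with rfl | hi
    · rw [Pi.single_eq_of_ne n10'.symm, Pi.single_eq_same, zero_add]
    · rw [Pi.single_eq_of_ne hi, add_zero, hz' i hi]
  have r1 : ⟪z, y⟫ = 0 := by
    rw [hz, hy, D.iso, D.ss_ne]
    rw [D.rr]; exact n01'.symm
  rw [hye, hze] at r1
  simp only [fm_add_left, fm_add_right] at r1
  rw [D.ss_ne (i := rev i1) (j := rev i0) (by rw [D.rr]; exact n01'.symm), D.ss_ne (i := i0) (j := i1) n01', D.ss_ne (i := i0) (j := i0) n0,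
    D.ss_ne (i := rev i1) (j := i0) (by rw [D.rr]; exact n01.symm), D.ss_eq, D.ss_eq', map_one] at r1
  have r2 : ⟪y, y⟫ = 0 := by
    rw [hy, D.iso, D.ss_ne]
    rw [D.rr]; exact n0.symm
  rw [hye] at r2
  simp only [fm_add_left, fm_add_right] at r2
  rw [D.ss_ne (i := rev i0) (j := rev i0) (by rw [D.rr]; exact n0.symm), D.ss_ne (i := rev i0) (j := i1) (by rw [D.rr]; exact n01),
    D.ss_ne (i := i1) (j := rev i0) nr01.symm, D.ss_ne (i := i1) (j := i1) n1, D.ss_ne (i := i1) (j := i0) n10', D.ss_ne (i := i0) (j := i1) n01',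
    D.ss_ne (i := i0) (j := i0) n0, D.ss_eq, D.ss_eq', map_one, hs0, ← ht] at r2
  rw [hs0] at r1
  have hσt : σ t ≠ 0 := (map_ne_zero σ).2 ht0
  refine ⟨t⁻¹ * y i1, t⁻¹ * y i0, ?_, colext fun l => ?_⟩
  · rw [map_mul, map_inv₀]
    field_simp
    linear_combination r2
  · rw [El_mulVec]
    rcases eq_or_ne l (rev i0) with rfl | hl0
    · rw [← hy]
      have e1 : ⟪Pi.single (rev i0) 1, Pi.single i0 1⟫ = t := by rw [D.ss_eq', map_one, mul_one, one_mul]
      have e2 : ⟪Pi.single (rev i0) 1, Pi.single i1 (t⁻¹ * y i1)⟫ = 0 := D.ss_ne (by rw [D.rr]; exact n01)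
      rw [e1, e2, zero_add]
      conv_lhs => rw [hye]
      ext i
      simp only [Pi.add_apply, Pi.smul_apply, smul_eq_mul, Pi.single_apply]
      split_ifs <;> field_simp <;> ring
    · rcases eq_or_ne l (rev i1) with rfl | hl1
      · rw [← hz]
        have e1 : ⟪Pi.single (rev i1) 1, Pi.single i0 1⟫ = 0 := D.ss_ne (by rw [D.rr]; exact n01.symm)
        have e2 : ⟪Pi.single (rev i1) 1, Pi.single i1 (t⁻¹ * y i1)⟫ = z i0 := by
          rw [D.ss_eq', map_mul, map_inv₀]
          field_simp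
          linear_combination r1
        rw [e1, e2, zero_smul, add_zero, mul_zero, add_zero]
        conv_lhs => rw [hze]
        congr 1
        ext i
        simp only [Pi.smul_apply, smul_eq_mul, Pi.single_apply]
        split_ifs <;> ring
      · rw [hF l hl0 hl1, D.ss_ne (fun h => hl0 (by rw [← h, D.rr])), D.ss_ne (fun h => hl1 (by rw [← h, D.rr]))]
        simp

end Dat

end CfsgLib.Unc
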