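import Cfsg.Agent.LibUnc5

set_option autoImplicit false

/-! Special isometry groups: strongly closed subgroups of the unipotent radical (helper1) -/

namespace CfsgLib.Unc

open Cfsg Matrix CfsgLib.Fus21

variable {K : Type*} [Field K] {ι : Type*} [Fintype ι] [DecidableEq ι]
variable {G : Type*} [Group G] {σ : K →+* K} {rev : ι → ι} {s : ι → K} {b : ι → ℕ} {φ : G →* Matrix ι ι K}

local notation "⟪" x ", " y "⟫" => fm σ rev s x y

/-- membership of Siegel transformations -/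
def GT (σ : K →+* K) (rev : ι → ι) (s : ι → K) (φ : G →* Matrix ι ι K) (T : Subgroup G) (u v : ι → K) (β : K) : Prop :=
  ∃ y ∈ T, φ y = El σ rev s u v β

theorem single_smul (i : ι) (c : K) : (Pi.single i c : ι → K) = c • Pi.single i 1 := by
  ext l
  simp only [Pi.smul_apply, smul_eq_mul, Pi.single_apply]
  split_ifs <;> simp

theorem GT_one {T : Subgroup G} (u : ι → K) : GT σ rev s φ T u 0 0 := ⟨1, T.one_mem, by rw [map_one, El_zero]⟩

theorem GT_mul {T : Subgroup G} {u v w : ι → K} {β γ : K} (h1 : ⟪u, u⟫ = 0) (h2 : ⟪u, v⟫ = 0) (h3 : ⟪w, u⟫ = 0)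
    (a : GT σ rev s φ T u v β) (c : GT σ rev s φ T u w γ) : GT σ rev s φ T u (v + w) (β + γ + ⟪w, v⟫) := by
  obtain ⟨y, hy, hy'⟩ := a
  obtain ⟨z, hz, hz'⟩ := c
  exact ⟨y * z, T.mul_mem hy hz, by rw [map_mul, hy', hz', El_mul _ _ h1 h2 h3]⟩

theorem GT_div {T : Subgroup G} {u v w : ι → K} {β γ : K} (h1 : ⟪u, u⟫ = 0) (h2 : ⟪u, v⟫ = 0) (h3 : ⟪w, u⟫ = 0)
    (a : GT σ rev s φ T u (v + w) (β + γ + ⟪w, v⟫)) (c : GT σ rev s φ T u w γ) : GT σ rev s φ T u v β := by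
  obtain ⟨y, hy, hy'⟩ := a
  obtain ⟨z, hz, hz'⟩ := c
  refine ⟨y * z⁻¹, T.mul_mem hy (T.inv_mem hz), ?_⟩
  rw [map_mul, hy', ← El_mul _ _ h1 h2 h3, ← hz', mul_assoc, ← map_mul, mul_inv_cancel, map_one, mul_one]

theorem GT_div' {T : Subgroup G} {u v w : ι → K} {β γ : K} (h1 : ⟪u, u⟫ = 0) (h2 : ⟪u, v⟫ = 0) (h3 : ⟪w, u⟫ = 0)
    (a : GT σ rev s φ T u (v + w) (β + γ + ⟪w, v⟫)) (c : GT σ rev s φ T u v β) : GT σ rev s φ T u w γ := by
  obtain ⟨y, hy, hy'⟩ := a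
  obtain ⟨z, hz, hz'⟩ := c
  refine ⟨z⁻¹ * y, T.mul_mem (T.inv_mem hz) hy, ?_⟩
  rw [map_mul, hy', ← El_mul _ _ h1 h2 h3, ← hz', ← mul_assoc, ← map_mul, inv_mul_cancel, map_one, one_mul]

namespace Dat

variable (D : Dat σ rev s b φ)
include D

theorem GT_mem {T : Subgroup G} {u v : ι → K} {β : K} (h : GT σ rev s φ T u v β) {g : G} (hg : φ g = El σ rev s u v β) : g ∈ T := by
  obtain ⟨y, hy, hy'⟩ := h
  rw [D.inj (hg.trans hy'.symm)]; exact hy

theorem GT_orb [Finite G] {T : Subgroup G} (hT : ∀ g : G, ∀ x ∈ T, g * x * g⁻¹ ∈ Rb φ b → g * x * g⁻¹ ∈ T) {u v u' v' : ι → K} {β : K}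
    (h : GT σ rev s φ T u v β) (ho : Orb φ u v u' v') (hU : ∀ i j, ¬ b i < b j → El σ rev s u' v' β i j = (1 : Matrix ι ι K) i j) :
    GT σ rev s φ T u' v' β := by
  obtain ⟨y, hy, hy'⟩ := h
  obtain ⟨g, hg, hg'⟩ := ho
  have h1 : φ (g * y * g⁻¹) = El σ rev s u' v' β := by
    have h3 : φ g * φ g⁻¹ = 1 := by rw [← map_mul, mul_inv_cancel, map_one]
    rw [map_mul, map_mul, hy', El_conj (D.iso g), hg, hg', mul_assoc, h3, mul_one]
  exact ⟨_, hT g y hy (mem_Rb'.2 fun i j hij => by rw [h1, hU i j hij]), h1⟩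

/-- short root elements -/
theorem scl_of_short [Finite G] (h4 : 4 ≤ Fintype.card ι) {T : Subgroup G} (hT : ∀ g : G, ∀ x ∈ T, g * x * g⁻¹ ∈ Rb φ b → g * x * g⁻¹ ∈ T)
    {i0 i1 : ι} (h0 : b i0 = 0) (h1 : b i1 = 1) (hS : ∀ c, GT σ rev s φ T (Pi.single i0 1) (Pi.single i1 c) 0) : Rb φ b ≤ T := by
  have hr0 := D.brev i0
  have hr1 := D.brev i1
  have n0 : rev i0 ≠ i0 := by intro h; rw [h] at hr0; omega
  have n1 : rev i1 ≠ i1 := by intro h; rw [h] at hr1; omega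
  have n01 : i0 ≠ i1 := by rintro rfl; omega
  have n01' : rev i0 ≠ i1 := by intro h; rw [h] at hr0; omega
  have n10' : rev i1 ≠ i0 := by intro h; rw [h] at hr1; omega
  have nr01 : rev i0 ≠ rev i1 := fun h => n01 (D.rev_inj h)
  have hl0 : b i0 < b (rev i0) := by omega
  -- second kind
  have hS' : ∀ c, GT σ rev s φ T (Pi.single i0 1) (Pi.single (rev i1) c) 0 := by
    intro c
    have h2 := D.orb_w n1 (γ := 1) (map_one σ) one_ne_zero (c / s i1) (v := Pi.single i0 1) (Pi.single_eq_of_ne n01.symm _)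
      (Pi.single_eq_of_ne n10' _)
    rw [div_mul_cancel₀ _ (D.s0 i1), one_mul] at h2
    refine D.GT_orb hT (hS _) h2 (D.inU_El (fun l hl => ?_) hl0 0)
    have : l = rev i1 := by by_contra h; exact hl (Pi.single_eq_of_ne h _)
    rw [this]; omega
  -- third kind
  have hS3 : ∀ v : ι → K, v i0 = 0 → v (rev i0) = 0 → v i1 = 0 → v (rev i1) = 0 → ∀ β, β - σ β = ⟪v, v⟫ →
      GT σ rev s φ T (Pi.single i0 1) v β := by
    intro v hv0 hv0' hv1 hv1' β hβ
    have nr1 : rev (rev i1) ≠ rev i1 := by rw [D.rr]; exact n1.symm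
    have e1 : ⟪Pi.single (rev i1) 1, v⟫ = 0 := by rw [fm_single_left, D.rr, hv1]; simp
    have e1' : ⟪v, Pi.single (rev i1) 1⟫ = 0 := fm_symm_zero D.frm e1
    have e2 : ⟪Pi.single i1 1, v⟫ = 0 := by rw [fm_single_left, hv1']; simp
    have e2' : ⟪v, Pi.single i1 1⟫ = 0 := fm_symm_zero D.frm e2
    have e3 : ⟪Pi.single i0 1, v⟫ = 0 := by rw [fm_single_left, hv0']; simp
    have e3' : ⟪v, Pi.single i0 1⟫ = 0 := fm_symm_zero D.frm e3
    obtain ⟨g, hg⟩ := D.ex_El (D.ss_ne nr1) e1 hβ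
    have h2 : Orb φ (Pi.single i0 1) (Pi.single i1 (s i1)⁻¹) (Pi.single i0 1) (Pi.single i1 (s i1)⁻¹ + Pi.single (rev i1) β + v) := by
      refine ⟨g, ?_, ?_⟩
      · rw [hg, El_mulVec, D.ss_ne nr01, e3]; simp
      · have e4 : ⟪Pi.single i1 (s i1)⁻¹, v⟫ = 0 := by rw [fm_single_left, hv1']; simp
        rw [hg, El_mulVec, e4, D.ss_eq, map_one, mul_one, inv_mul_cancel₀ (D.s0 i1), zero_add, mul_one, one_smul, add_right_comm]
        rw [single_smul (rev i1) β]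
    have h3 := D.GT_orb hT (hS (s i1)⁻¹) h2 (D.inU_El (fun l hl => by
      have k0 : l ≠ i0 := by
        rintro rfl
        apply hl
        rw [Pi.add_apply, Pi.add_apply, Pi.single_eq_of_ne n01, Pi.single_eq_of_ne n10'.symm, hv0]; simp
      have k1 : l ≠ rev i0 := by
        rintro rfl
        apply hl
        rw [Pi.add_apply, Pi.add_apply, Pi.single_eq_of_ne n01', Pi.single_eq_of_ne nr01, hv0']; simp
      have k2 : b l ≠ b i0 := fun h => k0 (D.binj h)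
      have k3 : b l ≠ b (rev i0) := fun h => k1 (D.binj h)
      have := D.brev l
      omega) hl0 0)
    have h5 := GT_mul (D.ss_ne n0) (D.ss_ne n01') (D.ss_ne (by rw [D.rr]; exact n01.symm)) (hS (s i1)⁻¹) (hS' β)
    rw [D.ss_eq', map_inv₀, D.ss, inv_neg] at h5
    have h6 : (0 : K) + 0 + β * (s (rev i1) * -(s (rev i1))⁻¹) = -β := by
      have := D.s0 (rev i1)
      field_simp
      ring
    rw [h6] at h5
    refine GT_div' (D.ss_ne n0) ?_ e3' ?_ h5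
    · rw [fm_add_right, D.ss_ne n01', D.ss_ne nr01, add_zero]
    · have h7 : -β + β + ⟪v, Pi.single i1 (s i1)⁻¹ + Pi.single (rev i1) β⟫ = 0 := by
        rw [fm_add_right, single_smul i1, single_smul (rev i1), fm_smul_right, fm_smul_right, e1', e2']; ring
      rw [h7]; exact h3
  -- fourth kind
  have hS4 : ∀ v : ι → K, v i0 = 0 → v (rev i0) = 0 → ∀ β, β - σ β = ⟪v, v⟫ →
      GT σ rev s φ T (Pi.single i0 1) v β := by
    intro v hv0 hv0' β hβ
    set p : ι → K := Pi.single i1 (v i1) with hp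
    set q : ι → K := Pi.single (rev i1) (v (rev i1)) with hq
    set v1 : ι → K := v - p - q with hv1
    have a1 : v1 i1 = 0 := by
      rw [hv1, Pi.sub_apply, Pi.sub_apply, hp, hq, Pi.single_eq_same, Pi.single_eq_of_ne n1.symm]; ring
    have a2 : v1 (rev i1) = 0 := by
      rw [hv1, Pi.sub_apply, Pi.sub_apply, hp, hq, Pi.single_eq_same, Pi.single_eq_of_ne n1]; ring
    have a3 : v1 i0 = 0 := by
      rw [hv1, Pi.sub_apply, Pi.sub_apply, hp, hq, hv0, Pi.single_eq_of_ne n01, Pi.single_eq_of_ne n10'.symm]; ring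
    have a4 : v1 (rev i0) = 0 := by
      rw [hv1, Pi.sub_apply, Pi.sub_apply, hp, hq, hv0', Pi.single_eq_of_ne n01', Pi.single_eq_of_ne nr01]; ring
    have e1 : ⟪p, v1⟫ = 0 := by rw [hp, fm_single_left, a2]; simp
    have e2 : ⟪q, v1⟫ = 0 := by rw [hq, fm_single_left, D.rr, a1]; simp
    have e1' : ⟪v1, p⟫ = 0 := fm_symm_zero D.frm e1
    have e2' : ⟪v1, q⟫ = 0 := fm_symm_zero D.frm e2
    have e3 : ⟪p, p⟫ = 0 := D.ss_ne n1
    have e4 : ⟪q, q⟫ = 0 := D.ss_ne (by rw [D.rr]; exact n1.symm)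
    have e5 : ⟪p, q⟫ = - σ ⟪q, p⟫ := fm_symm D.frm q p
    have hve : v = v1 + p + q := by rw [hv1]; abel
    have h3 : (β - ⟪q, p⟫) - σ (β - ⟪q, p⟫) = ⟪v1, v1⟫ := by
      have h5 : ⟪v, v⟫ = ⟪v1, v1⟫ + ⟪p, q⟫ + ⟪q, p⟫ := by
        conv_lhs => rw [hve]
        simp only [fm_add_left, fm_add_right, e1, e2, e1', e2', e3, e4]
        ring
      rw [map_sub]
      linear_combination hβ + h5 + e5
    have h6 := hS3 v1 a3 a4 a1 a2 _ h3
    have f0 : ⟪Pi.single i0 1, v1⟫ = 0 := by rw [fm_single_left, a4]; simp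
    have f1 : ⟪Pi.single i0 1, p⟫ = 0 := D.ss_ne n01'
    have f2 : ⟪Pi.single i0 1, q⟫ = 0 := D.ss_ne nr01
    have h7 := GT_mul (D.ss_ne n0) f0 (fm_symm_zero D.frm f1) h6 (hS (v i1))
    have h8 := GT_mul (D.ss_ne n0) (by rw [fm_add_right, f0, f1, add_zero]) (fm_symm_zero D.frm f2) h7 (hS' (v (rev i1)))
    rw [← hve, fm_add_right, e1, e2] at h8
    have h9 : β - ⟪q, p⟫ + 0 + 0 + 0 + (0 + ⟪q, p⟫) = β := by ring
    rwa [h9] at h8
  refine D.unip_gen T fun k hk v hv β hβ g hg => ?_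
  have hvk : v k = 0 := by by_contra h; exact lt_irrefl _ (hv k h).1
  have hvk' : v (rev k) = 0 := by by_contra h; exact lt_irrefl _ (hv _ h).2
  have hbk := D.brev k
  have hv0 : v i0 = 0 := by by_contra h; have := (hv _ h).1; omega
  have hv0' : v (rev i0) = 0 := by by_contra h; have := (hv _ h).2; omega
  have h5 := hS4 v hv0 hv0' β hβ
  refine D.GT_mem ?_ hg
  rcases eq_or_ne k i0 with rfl | hne
  · exact h5
  have hkk : rev k ≠ k := by rintro h; rw [h] at hk; exact lt_irrefl _ hk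
  exact D.GT_orb hT h5 (D.orb_move n0 hkk hne.symm (by rintro rfl; rw [D.rr] at hk; omega) 1 hv0 hvk hv0' hvk') (D.inU_El hv hk β)

end Dat

end CfsgLib.Unc
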