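import Cfsg.Agent.LibUnc6

set_option autoImplicit false

/-! Special isometry groups: strongly closed subgroups of the unipotent radical, part 2 (helper1) -/

namespace CfsgLib.Unc

open Cfsg Matrix CfsgLib.Fus21

variable {K : Type*} [Field K] {ι : Type*} [Fintype ι] [DecidableEq ι]
variable {G : Type*} [Group G] {σ : K →+* K} {rev : ι → ι} {s : ι → K} {b : ι → ℕ} {φ : G →* Matrix ι ι K}

local notation "⟪" x ", " y "⟫" => fm σ rev s x y

namespace Dat

variable (D : Dat σ rev s b φ)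
include D

/-- long root elements -/
theorem scl_of_long [Finite G] (h4 : 4 ≤ Fintype.card ι) (hN : ∀ β, σ β = β → ∃ c d, β = c * σ c + d * σ d)
    {T : Subgroup G} (hT : ∀ g : G, ∀ x ∈ T, g * x * g⁻¹ ∈ Rb φ b → g * x * g⁻¹ ∈ T)
    {i0 i1 : ι} (h0 : b i0 = 0) (h1 : b i1 = 1) {a : K} (ha0 : a ≠ 0) (haσ : σ a = a)
    (hS : GT σ rev s φ T (Pi.single i0 1) 0 a) : Rb φ b ≤ T := by
  have hr0 := D.brev i0
  have hr1 := D.brev i1
  have n0 : rev i0 ≠ i0 := by intro h; rw [h] at hr0; omega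
  have n1 : rev i1 ≠ i1 := by intro h; rw [h] at hr1; omega
  have n01 : i0 ≠ i1 := by rintro rfl; omega
  have n01' : rev i0 ≠ i1 := by intro h; rw [h] at hr0; omega
  have n10' : rev i1 ≠ i0 := by intro h; rw [h] at hr1; omega
  have hl0 : b i0 < b (rev i0) := by omega
  have hl1 : b i1 < b (rev i1) := by omega
  have hA : ∀ c, GT σ rev s φ T (Pi.single i0 1) 0 (a * (c * σ c)) := by
    intro c
    rcases eq_or_ne c 0 with rfl | hc
    · rw [zero_mul, mul_zero]; exact GT_one _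
    · have h2 := D.GT_orb hT hS (D.orb_scale n0 n1 n01 n01' hc) (D.inU_El' (fun l hl => by
        have : l = i0 := by by_contra h; exact hl (Pi.single_eq_of_ne h _)
        rw [this]; exact hl0) a)
      obtain ⟨y, hy, hy'⟩ := h2
      exact ⟨y, hy, by rw [hy', single_smul i0 c, El_smul D.frm, smul_zero]⟩
  have hB : ∀ β, σ β = β → GT σ rev s φ T (Pi.single i0 1) 0 β := by
    intro β hβ
    obtain ⟨c, d, hcd⟩ := hN (a⁻¹ * β) (by rw [map_mul, map_inv₀, haσ, hβ])
    have h2 := GT_mul (D.ss_ne n0) (fm_zero_right _) (fm_zero_left _) (hA c) (hA d)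
    rw [add_zero, fm_zero_left, add_zero, ← mul_add, ← hcd, mul_inv_cancel_left₀ ha0] at h2
    exact h2
  refine D.scl_of_short h4 hT h0 h1 fun c => ?_
  rcases eq_or_ne c 0 with rfl | hc
  · rw [Pi.single_zero]; exact GT_one _
  -- `c e_1`
  have h2 : GT σ rev s φ T (Pi.single i1 c) 0 1 := by
    have h3 := D.orb_scale n0 n1 n01 n01' hc
    have h4 := D.orb_move n0 n1 n01 n01' c (v := 0) rfl rfl rfl rfl
    exact D.GT_orb hT (hB 1 (map_one σ)) (h3.trans h4) (D.inU_El' (fun l hl => by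
        have : l = i1 := by by_contra h; exact hl (Pi.single_eq_of_ne h _)
        rw [this]; exact hl1) 1)
  have h3 : GT σ rev s φ T (Pi.single i0 1 + Pi.single i1 c) 0 1 := by
    obtain ⟨g, hg⟩ := D.ex_tv n1 n0 n01.symm c
    have ho : Orb φ (Pi.single i0 1) 0 (Pi.single i0 1 + Pi.single i1 c) 0 := by
      refine ⟨g, ?_, ?_⟩
      · rw [hg, D.tv_act n10', mul_one]
      · rw [mulVec_zero]
    have hu : ∀ l, (Pi.single i0 1 + Pi.single i1 c : ι → K) l ≠ 0 → b l < b (rev l) := by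
      intro l hl
      rcases eq_or_ne l i0 with h | h
      · rw [h]; exact hl0
      · have : l = i1 := by
          by_contra h'; apply hl; rw [Pi.add_apply, Pi.single_eq_of_ne h, Pi.single_eq_of_ne h', add_zero]
        rw [this]; exact hl1
    exact D.GT_orb hT (hB 1 (map_one σ)) ho (D.inU_El' hu 1)
  obtain ⟨y1, hy1, hy1'⟩ := hB 1 (map_one σ)
  obtain ⟨y2, hy2, hy2'⟩ := h2
  obtain ⟨y3, hy3, hy3'⟩ := h3
  refine ⟨(y1 * y2)⁻¹ * y3, T.mul_mem (T.inv_mem (T.mul_mem hy1 hy2)) hy3, ?_⟩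
  rw [map_mul, hy3', El_polar (D.ss_ne n0) (D.ss_ne n1) (D.ss_ne n01') (D.ss_ne n10'), ← hy1', ← hy2', ← map_mul, ← mul_assoc, ← map_mul,
    inv_mul_cancel, map_one, one_mul]

/-- the exceptional case of characteristic two -/
theorem scl_exc [Finite G] (h4 : 4 ≤ Fintype.card ι) (hN : ∀ β, σ β = β → ∃ c d, β = c * σ c + d * σ d) (hσ : ∀ a, σ a = a)
    (hex : 6 ≤ Fintype.card ι ∨ ∃ l : K, l ≠ 0 ∧ l ≠ 1) {T : Subgroup G} (hT : ∀ g : G, ∀ x ∈ T, g * x * g⁻¹ ∈ Rb φ b → g * x * g⁻¹ ∈ T)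
    {i0 i1 : ι} (h0 : b i0 = 0) (h1 : b i1 = 1) {a c : K} (hc0 : c ≠ 0)
    (hS : GT σ rev s φ T (Pi.single i0 1) (Pi.single i1 c) a) : Rb φ b ≤ T := by
  have hr0 := D.brev i0
  have hr1 := D.brev i1
  have n0 : rev i0 ≠ i0 := by intro h; rw [h] at hr0; omega
  have n1 : rev i1 ≠ i1 := by intro h; rw [h] at hr1; omega
  have n01 : i0 ≠ i1 := by rintro rfl; omega
  have n01' : rev i0 ≠ i1 := by intro h; rw [h] at hr0; omega
  have n10' : rev i1 ≠ i0 := by intro h; rw [h] at hr1; omega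
  have nr01 : rev i0 ≠ rev i1 := fun h => n01 (D.rev_inj h)
  have hl0 : b i0 < b (rev i0) := by omega
  have hl1 : b i1 < b (rev i1) := by omega
  -- a pure short element
  have hP : ∃ c', c' ≠ 0 ∧ GT σ rev s φ T (Pi.single i0 1) (Pi.single i1 c') 0 := by
    rcases hex with h6 | ⟨l, hl0', hl1'⟩
    · obtain ⟨i2, h2⟩ := D.bsurj (k := 2) (by omega)
      have hr2 := D.brev i2
      have m2 : rev i2 ≠ i2 := by intro h; rw [h] at hr2; omega
      have m02 : i0 ≠ i2 := by rintro rfl; omega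
      have m12 : i1 ≠ i2 := by rintro rfl; omega
      have m20' : rev i2 ≠ i0 := by intro h; rw [h] at hr2; omega
      have m21' : rev i2 ≠ i1 := by intro h; rw [h] at hr2; omega
      have m02' : rev i0 ≠ i2 := by intro h; rw [h] at hr0; omega
      have m12' : rev i1 ≠ i2 := by intro h; rw [h] at hr1; omega
      obtain ⟨g, hg⟩ := D.ex_tv m2 n1 m12.symm 1
      have h3 : GT σ rev s φ T (Pi.single i0 1) (Pi.single i1 c + Pi.single i2 c) a := by
        have ho : Orb φ (Pi.single i0 1) (Pi.single i1 c) (Pi.single i0 1) (Pi.single i1 c + Pi.single i2 c) := by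
          refine ⟨g, ?_, ?_⟩
          · rw [hg, D.tv_fix _ (Pi.single_eq_of_ne n01.symm _) (Pi.single_eq_of_ne m20' _)]
          · rw [hg, D.tv_act m21', one_mul]
        have hu : ∀ l, (Pi.single i1 c + Pi.single i2 c : ι → K) l ≠ 0 → b i0 < b l ∧ b l < b (rev i0) := by
          intro l hl
          rcases eq_or_ne l i1 with h | h
          · rw [h]; omega
          · have : l = i2 := by
              by_contra h'; apply hl; rw [Pi.add_apply, Pi.single_eq_of_ne h, Pi.single_eq_of_ne h', add_zero]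
            rw [this]; omega
        exact D.GT_orb hT hS ho (D.inU_El hu hl0 a)
      have h5 : GT σ rev s φ T (Pi.single i0 1) (Pi.single i2 c) 0 := by
        refine GT_div (D.ss_ne n0) (D.ss_ne m02') (D.ss_ne n10') ?_ hS
        rw [add_comm (Pi.single i2 c : ι → K), zero_add, D.ss_ne m12', add_zero]
        exact h3
      refine ⟨c, hc0, D.GT_orb hT h5 (D.orb_symm (D.orb_move m2 n1 m12.symm m21' c (v := Pi.single i0 1) (Pi.single_eq_of_ne m02.symm _)
        (Pi.single_eq_of_ne n01.symm _) (Pi.single_eq_of_ne m20' _) (Pi.single_eq_of_ne n10' _))) (D.inU_El (fun l hl => ?_) hl0 0)⟩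
      have : l = i1 := by by_contra h; exact hl (Pi.single_eq_of_ne h _)
      rw [this]; omega
    · have e0 : (Pi.single i0 1 : ι → K) i1 = 0 := Pi.single_eq_of_ne n01.symm _
      have e0' : (Pi.single i0 1 : ι → K) (rev i1) = 0 := Pi.single_eq_of_ne n10' _
      have h2 := D.orb_w n1 (γ := 1) (map_one σ) one_ne_zero c e0 e0'
      have h3 := D.orb_w (i := rev i1) (γ := l / (s i1 * s (rev i1))) (by rw [D.rr]; exact n1.symm) (hσ _)
        (div_ne_zero hl0' (mul_ne_zero (D.s0 _) (D.s0 _))) (1 * (c * s i1)) e0' (by rw [D.rr]; exact e0)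
      rw [D.rr] at h3
      have h5 := h2.trans h3
      have h6 : l / (s i1 * s (rev i1)) * (1 * (c * s i1) * s (rev i1)) = l * c := by
        have := D.s0 i1
        have := D.s0 (rev i1)
        field_simp
      rw [h6] at h5
      have h7 := D.GT_orb hT hS h5 (D.inU_El (fun m hm => by
        have : m = i1 := by by_contra h; exact hm (Pi.single_eq_of_ne h _)
        rw [this]; omega) hl0 a)
      refine ⟨l * c - c, ?_, GT_div (D.ss_ne n0) (D.ss_ne n01') (D.ss_ne n10') ?_ hS⟩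
      · intro h
        have : (l - 1) * c = 0 := by rw [← h]; ring
        rcases mul_eq_zero.1 this with h' | h'
        · exact hl1' (sub_eq_zero.1 h')
        · exact hc0 h'
      · rw [← Pi.single_add, sub_add_cancel, zero_add, D.ss_ne n1, add_zero]
        exact h7
  obtain ⟨c', hc', h5⟩ := hP
  have e0 : (Pi.single i0 1 : ι → K) i1 = 0 := Pi.single_eq_of_ne n01.symm _
  have e0' : (Pi.single i0 1 : ι → K) (rev i1) = 0 := Pi.single_eq_of_ne n10' _
  have h6 := D.GT_orb hT h5 (D.orb_w n1 (γ := 1) (map_one σ) one_ne_zero c' e0 e0') (D.inU_El (fun m hm => by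
        have : m = rev i1 := by by_contra h; exact hm (Pi.single_eq_of_ne h _)
        rw [this]; omega) hl0 0)
  rw [one_mul] at h6
  have h7 : GT σ rev s φ T (Pi.single i0 1) (Pi.single i1 c' + Pi.single (rev i1) (c' * s i1)) 0 := by
    obtain ⟨g, hg⟩ := D.ex_lr (i := rev i1) (by rw [D.rr]; exact n1.symm) (map_one σ)
    have ho : Orb φ (Pi.single i0 1) (Pi.single i1 c') (Pi.single i0 1) (Pi.single i1 c' + Pi.single (rev i1) (c' * s i1)) := by
      refine ⟨g, ?_, ?_⟩
      · rw [hg, D.lr_mulVec, D.rr, e0]; simp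
      · rw [hg, D.lr_mulVec, D.rr, Pi.single_eq_same, one_mul]
    have hu : ∀ l, (Pi.single i1 c' + Pi.single (rev i1) (c' * s i1) : ι → K) l ≠ 0 → b i0 < b l ∧ b l < b (rev i0) := by
      intro l hl
      rcases eq_or_ne l i1 with h | h
      · rw [h]; omega
      · have : l = rev i1 := by
          by_contra h'; apply hl; rw [Pi.add_apply, Pi.single_eq_of_ne h, Pi.single_eq_of_ne h', add_zero]
        rw [this]; omega
    exact D.GT_orb hT h5 ho (D.inU_El hu hl0 0)
  have h8 := GT_mul (D.ss_ne n0) (D.ss_ne n01') (D.ss_ne (by rw [D.rr]; exact n01.symm)) h5 h6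
  rw [D.ss_eq', add_zero, zero_add] at h8
  refine D.scl_of_long h4 hN hT h0 h1 (a := c' * s i1 * (s (rev i1) * σ c')) ?_ (hσ _) ?_
  · exact mul_ne_zero (mul_ne_zero hc' (D.s0 _)) (mul_ne_zero (D.s0 _) (by rw [hσ]; exact hc'))
  · refine GT_div (D.ss_ne n0) (fm_zero_right _) ?_ ?_ h7
    · rw [fm_add_left, D.ss_ne n10', D.ss_ne (by rw [D.rr]; exact n01.symm), add_zero]
    · rw [zero_add, fm_zero_right, add_zero, add_zero]
      exact h8

/-- strongly closed subgroups -/
theorem scl [Finite G] {p : ℕ} [Fact p.Prime] [CharP K p] (h4 : 4 ≤ Fintype.card ι) (hN : ∀ β, σ β = β → ∃ c d, β = c * σ c + d * σ d)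
    (hmid : ∀ l, rev l = l → ∃ β, β - σ β = s l)
    (hex : (∀ a, σ a = a) → 6 ≤ Fintype.card ι ∨ ∃ l : K, l ≠ 0 ∧ l ≠ 1) {T : Subgroup G} (hTU : T ≤ Rb φ b) (hT1 : T ≠ ⊥)
    (hT : ∀ g : G, ∀ x ∈ T, g * x * g⁻¹ ∈ Rb φ b → g * x * g⁻¹ ∈ T) : Rb φ b ≤ T := by
  have hU : IsPGroup p (Rb φ b) := Rb_isPGroup D.inj b
  obtain ⟨x, hx, hx1, hxc⟩ := exists_central_mem hU hTU (fun u hu t ht => hT u t ht
    (Subgroup.mul_mem _ (Subgroup.mul_mem _ hu (hTU ht)) (Subgroup.inv_mem _ hu))) hT1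
  obtain ⟨i0, h0⟩ := D.bsurj (k := 0) (by omega)
  obtain ⟨i1, h1⟩ := D.bsurj (k := 1) (by omega)
  obtain ⟨c, a, haσ, hxe⟩ := D.central_form h4 hmid (hTU hx) hxc h0 h1
  have hr0 := D.brev i0
  have hr1 := D.brev i1
  have n0 : rev i0 ≠ i0 := by intro h; rw [h] at hr0; omega
  have n1 : rev i1 ≠ i1 := by intro h; rw [h] at hr1; omega
  have n01 : i0 ≠ i1 := by rintro rfl; omega
  have n01' : rev i0 ≠ i1 := by intro h; rw [h] at hr0; omega
  have n10' : rev i1 ≠ i0 := by intro h; rw [h] at hr1; omega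
  have nr01 : rev i0 ≠ rev i1 := fun h => n01 (D.rev_inj h)
  have hl0 : b i0 < b (rev i0) := by omega
  rcases eq_or_ne c 0 with rfl | hc
  · rw [Pi.single_zero] at hxe
    refine D.scl_of_long h4 hN hT h0 h1 (a := a) ?_ haσ ⟨x, hx, hxe⟩
    rintro rfl
    apply hx1
    apply D.inj
    rw [hxe, map_one, El_zero]
  · -- commute with the other short root elements
    have hcomm : ∀ d, c * (s i1 * σ d) = d * (s (rev i1) * σ c) := by
      intro d
      obtain ⟨y, hy⟩ := D.ex_El (u := Pi.single i0 1) (v := Pi.single (rev i1) d) (β := 0) (D.ss_ne n0) (D.ss_ne nr01) (by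
        rw [D.ss_ne (by rw [D.rr]; exact n1.symm), map_zero, sub_zero])
      have hyU : y ∈ Rb φ b := mem_Rb'.2 fun i j hij => by
        rw [hy]; exact D.inU_El (fun l hl => by
          have : l = rev i1 := by by_contra h; exact hl (Pi.single_eq_of_ne h _)
          rw [this]; omega) hl0 0 i j hij
      have h2 := congrArg φ (hxc y hyU)
      rw [map_mul, map_mul, hxe, hy, El_mul _ _ (D.ss_ne n0) (D.ss_ne nr01) (D.ss_ne n10'),
        El_mul _ _ (D.ss_ne n0) (D.ss_ne n01') (D.ss_ne (by rw [D.rr]; exact n01.symm)), D.ss_eq, D.ss_eq'] at h2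
      have h3 := congrFun (congrArg (fun M : Matrix ι ι K => M *ᵥ Pi.single (rev i0) 1) h2) i0
      rw [El_mulVec, El_mulVec, D.ss_eq', add_comm (Pi.single (rev i1) d : ι → K)] at h3
      simp only [Pi.add_apply, Pi.smul_apply, smul_eq_mul, Pi.single_eq_same, map_one, mul_one, one_mul, add_right_inj, zero_add, add_zero] at h3
      have h6 := mul_right_cancel₀ (D.s0 (rev i0)) h3
      linear_combination h6
    have h2 := hcomm 1
    rw [map_one, mul_one, one_mul] at h2
    have hσ : ∀ d, σ d = d := by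
      intro d
      have h3 := hcomm d
      rw [← h2] at h3
      have h6 : c * s i1 * σ d = c * s i1 * d := by linear_combination h3
      exact mul_left_cancel₀ (mul_ne_zero hc (D.s0 i1)) h6
    exact D.scl_exc h4 hN hσ (hex hσ) hT h0 h1 hc ⟨x, hx, hxe⟩

end Dat

end CfsgLib.Unc
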