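import Cfsg.Agent.LibUnc7

set_option autoImplicit false

/-! Special isometry groups: the normalizer of the unipotent radical; two centric subgroups (helper1) -/

namespace CfsgLib.Unc

open Cfsg Matrix CfsgLib.Fus21

variable {K : Type*} [Field K] {ι : Type*} [Fintype ι] [DecidableEq ι]
variable {G : Type*} [Group G] {σ : K →+* K} {rev : ι → ι} {s : ι → K} {b : ι → ℕ} {φ : G →* Matrix ι ι K}

local notation "⟪" x ", " y "⟫" => fm σ rev s x y

namespace Dat

variable (D : Dat σ rev s b φ)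
include D

theorem inU_tv {i j : ι} (hij : b i < b j) (hj : b j < b (rev j)) (c : K) (k l : ι) (hkl : ¬ b k < b l) :
    tvM σ rev s i j c k l = (1 : Matrix ι ι K) k l := by
  have h1 := D.brev i
  have h2 := D.brev j
  refine D.inU_El (fun m hm => ?_) (by omega) 0 k l hkl
  have : m = rev j := by by_contra h; exact hm (Pi.single_eq_of_ne h _)
  rw [this]; omega

theorem hC [Finite G] (hmid : ∀ l, rev l = l → ∃ β, β - σ β = s l) : ∀ j : ι, b j ≠ 0 → ∃ i : ι, b i + 1 = b j ∧ ∃ u ∈ Rb φ b, ∃ c : K, c ≠ 0 ∧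
    ∀ v : ι → K, (∀ l, b j < b l → v l = 0) → ((φ u - 1) *ᵥ v) i = c * v j := by
  intro j hj
  have hbj := D.brev j
  obtain ⟨i, hi⟩ := D.bsurj (k := b j - 1) (by omega)
  have hbi := D.brev i
  refine ⟨i, by omega, ?_⟩
  have hmulv : ∀ (u : G) (v : ι → K), ((φ u - 1) *ᵥ v) i = (φ u *ᵥ v) i - v i := by
    intro u v
    rw [sub_mulVec, one_mulVec]; rfl
  rcases lt_trichotomy (b j) (b (rev j)) with h | h | h
  · -- left
    have n1 : rev i ≠ i := by intro h; rw [h] at hbi; omega
    have n2 : rev j ≠ j := by intro h'; rw [h'] at h; omega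
    have n3 : i ≠ j := by rintro rfl; omega
    have n4 : i ≠ rev j := by rintro rfl; omega
    obtain ⟨g, hg⟩ := D.ex_tv n1 n2 n3 1
    refine ⟨g, mem_Rb'.2 fun k l hkl => by rw [hg]; exact D.inU_tv (by omega) h 1 k l hkl, 1, one_ne_zero, fun v hv => ?_⟩
    rw [hmulv, hg, D.tv_mulVec, Pi.add_apply, Pi.add_apply, Pi.single_eq_same, Pi.single_eq_of_ne n4]
    ring
  · -- middle
    have hrj : rev j = j := D.binj h.symm
    have n1 : rev i ≠ i := by intro h; rw [h] at hbi; omega
    have n2 : rev i ≠ j := by rintro rfl; omega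
    obtain ⟨β, hβ⟩ := hmid j hrj
    have hjj : ⟪Pi.single j 1, Pi.single j 1⟫ = s j := by
      rw [fm_single_left, hrj, Pi.single_eq_same, map_one, mul_one, one_mul]
    obtain ⟨g, hg⟩ := D.ex_El (D.ss_ne n1) (D.ss_ne n2) (hβ.trans hjj.symm)
    refine ⟨g, mem_Rb'.2 fun k l hkl => ?_, s j, D.s0 j, fun v hv => ?_⟩
    · rw [hg]
      refine D.inU_El (fun m hm => ?_) (by omega) β k l hkl
      have : m = j := by by_contra h; exact hm (Pi.single_eq_of_ne h _)
      rw [this]; omega
    · have n3 : i ≠ j := by rintro rfl; omega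
      rw [hmulv, hg, El_mulVec, fm_single_right D.frm, fm_single_right D.frm, hrj, hv (rev i) (by omega)]
      simp only [Pi.add_apply, Pi.smul_apply, smul_eq_mul, Pi.single_eq_same, Pi.single_eq_of_ne n3, map_one]
      ring
  · rcases lt_trichotomy (b i) (b (rev i)) with h' | h' | h'
    · -- `i` left, `j` right
      have hij : rev i = j := D.binj (by omega)
      have n1 : rev i ≠ i := by intro h; rw [h] at h'; exact lt_irrefl _ h'
      obtain ⟨g, hg⟩ := D.ex_lr n1 (map_one σ)
      refine ⟨g, mem_Rb'.2 fun k l hkl => ?_, s j, D.s0 j, fun v hv => ?_⟩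
      · rw [hg]
        exact D.inU_El (v := 0) (fun m hm => absurd rfl hm) h' 1 k l hkl
      · rw [hmulv, hg, D.lr_mulVec, Pi.add_apply, Pi.single_eq_same, hij]
        ring
    · have hri : rev i = i := D.binj h'.symm
      have hjr : rev (rev j) ≠ rev j := by rw [D.rr]; intro h''; rw [← h''] at h; exact lt_irrefl _ h
      have n2 : rev (rev j) ≠ i := by rw [D.rr]; rintro rfl; omega
      have n3 : i ≠ rev j := by rintro rfl; omega
      obtain ⟨β, hβ⟩ := hmid i hri
      have hii : ⟪Pi.single i 1, Pi.single i 1⟫ = s i := by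
        rw [fm_single_left, hri, Pi.single_eq_same, map_one, mul_one, one_mul]
      obtain ⟨g, hg⟩ := D.ex_El (D.ss_ne hjr) (D.ss_ne n2) (hβ.trans hii.symm)
      refine ⟨g, mem_Rb'.2 fun k l hkl => ?_, s j, D.s0 j, fun v hv => ?_⟩
      · rw [hg]
        refine D.inU_El (fun m hm => ?_) (by rw [D.rr]; exact h) β k l hkl
        have : m = i := by by_contra h; exact hm (Pi.single_eq_of_ne h _)
        rw [this, D.rr]; omega
      · rw [hmulv, hg, El_mulVec, fm_single_right D.frm, fm_single_right D.frm, D.rr]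
        simp only [Pi.add_apply, Pi.smul_apply, smul_eq_mul, Pi.single_eq_same, Pi.single_eq_of_ne n3, map_one]
        ring
    · -- both right
      have n1 : rev (rev j) ≠ rev j := by rw [D.rr]; intro h''; rw [← h''] at h; exact lt_irrefl _ h
      have n2 : rev (rev i) ≠ rev i := by rw [D.rr]; intro h''; rw [← h''] at h'; exact lt_irrefl _ h'
      have n3 : rev j ≠ rev i := by intro h; have := D.rev_inj h; subst this; omega
      have n4 : i ≠ rev j := by rintro rfl; rw [D.rr] at h'; omega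
      obtain ⟨g, hg⟩ := D.ex_tv n1 n2 n3 1
      refine ⟨g, mem_Rb'.2 fun k l hkl => by rw [hg]; exact D.inU_tv (by omega) (by rw [D.rr]; exact h') 1 k l hkl,
        -(s j / s i), neg_ne_zero.2 (div_ne_zero (D.s0 j) (D.s0 i)), fun v hv => ?_⟩
      rw [hmulv, hg, D.tv_mulVec, Pi.add_apply, Pi.add_apply, Pi.single_eq_of_ne n4, D.rr, D.rr, Pi.single_eq_same, map_one]
      ring

theorem nU [Finite G] (hmid : ∀ l, rev l = l → ∃ β, β - σ β = s l) {g : G}
    (hg : g ∈ Subgroup.normalizer ((Rb φ b : Subgroup G) : Set G)) : Alg b (φ g) := normalizer_upper (D.hC hmid) hg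

omit D in
theorem _root_.CfsgLib.Unc.El_pow {u v : ι → K} {β : K} (h1 : ⟪u, u⟫ = 0) (h2 : ⟪u, v⟫ = 0) (h3 : ⟪v, u⟫ = 0) :
    (El σ rev s u v β - 1) ^ 3 = 0 := by
  apply mext
  intro x
  have h4 : ∀ y, (El σ rev s u v β - 1) *ᵥ y = ⟪y, u⟫ • v + (⟪y, v⟫ + β * ⟪y, u⟫) • u := by
    intro y
    rw [sub_mulVec, El_mulVec, one_mulVec]; abel
  rw [pow_succ, pow_two, ← mulVec_mulVec, ← mulVec_mulVec, h4, h4, h4, zero_mulVec]
  simp only [fm_add_left, fm_smul_left, h1, h2, h3, mul_zero, add_zero, zero_smul, zero_add]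

theorem pOrder {p : ℕ} [hp : Fact p.Prime] [CharP K p] [Nonempty ι] {g : G} {u v : ι → K} {β : K} (hg : φ g = El σ rev s u v β) (h1 : ⟪u, u⟫ = 0) (h2 : ⟪u, v⟫ = 0) :
    ∃ k : ℕ, orderOf g = p ^ k := by
  haveI : CharP (Matrix ι ι K) p := inferInstance
  have h8 : g ^ p ^ 2 = 1 := by
    apply D.inj
    have h5 : φ (g ^ p ^ 2) = ((φ g - 1) + 1) ^ p ^ 2 := by
      rw [sub_add_cancel, map_pow]
    have h6 : 3 ≤ p ^ 2 := by have := hp.out.two_le; nlinarith
    have h7 : (φ g - 1) ^ p ^ 2 = 0 := by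
      rw [← Nat.sub_add_cancel h6, pow_add, hg, El_pow h1 h2 (fm_symm_zero D.frm h2), mul_zero]
    rw [h5, add_pow_char_pow_of_commute _ _ (Commute.one_right _), one_pow, h7, zero_add, map_one]
  obtain ⟨k, -, hk⟩ := (Nat.dvd_prime_pow hp.out).1 (orderOf_dvd_of_pow_eq_one h8)
  exact ⟨k, hk⟩

end Dat

/-- the two coarser height functions -/
def b1 (rev : ι → ι) (b : ι → ℕ) (l : ι) : ℕ := if b l < b (rev l) then 0 else if b l = b (rev l) then 1 else 2

/-- the two coarser height functions -/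
def b2 (rev : ι → ι) (i0 : ι) (l : ι) : ℕ := if l = i0 then 0 else if l = rev i0 then 2 else 1

namespace Dat

variable (D : Dat σ rev s b φ)
include D

theorem b1_mono {i j : ι} (h : b i ≤ b j) : b1 rev b i ≤ b1 rev b j := by
  have h1 := D.brev i
  have h2 := D.brev j
  unfold b1
  split_ifs <;> omega

theorem b2_mono {i0 : ι} (h0 : b i0 = 0) (h4 : 4 ≤ Fintype.card ι) {i j : ι} (h : b i ≤ b j) : b2 rev i0 i ≤ b2 rev i0 j := by
  have h1 := D.brev i
  have h2 := D.brev j
  have h3 := D.brev i0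
  have n0 : rev i0 ≠ i0 := by intro h; rw [h] at h3; omega
  by_cases c1 : i = i0
  · unfold b2; rw [if_pos c1]; exact Nat.zero_le _
  · have c2 : j ≠ i0 := by rintro rfl; exact c1 (D.binj (by omega))
    unfold b2
    rw [if_neg c1, if_neg c2]
    by_cases c3 : i = rev i0
    · have c4 : j = rev i0 := by rw [c3] at h; exact D.binj (by omega)
      rw [if_pos c3, if_pos c4]
    · rw [if_neg c3]
      split_ifs <;> omega

theorem R1_le [Finite G] : Rb φ (b1 rev b) ≤ Rb φ b := by
  intro x hx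
  rw [mem_Rb']
  intro i j hij
  exact mem_Rb'.1 hx i j fun h => by
    have := D.b1_mono (Nat.le_of_not_lt hij)
    omega

theorem R2_le [Finite G] {i0 : ι} (h0 : b i0 = 0) (h4 : 4 ≤ Fintype.card ι) : Rb φ (b2 rev i0) ≤ Rb φ b := by
  intro x hx
  rw [mem_Rb']
  intro i j hij
  exact mem_Rb'.1 hx i j fun h => by
    have := D.b2_mono h0 h4 (Nat.le_of_not_lt hij)
    omega

theorem R1_norm [Finite G] : Rb φ b ≤ Subgroup.normalizer ((Rb φ (b1 rev b) : Subgroup G) : Set G) := fun _ hx =>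
  Rb_norm (Rb_alg (fun _ _ h => D.b1_mono h.le) hx)

theorem R2_norm [Finite G] {i0 : ι} (h0 : b i0 = 0) (h4 : 4 ≤ Fintype.card ι) :
    Rb φ b ≤ Subgroup.normalizer ((Rb φ (b2 rev i0) : Subgroup G) : Set G) := fun _ hx =>
  Rb_norm (Rb_alg (fun _ _ h => D.b2_mono h0 h4 h.le) hx)

theorem R1_centric [Finite G] {x : G} (hx : x ∈ Rb φ b) (hc : ∀ y ∈ Rb φ (b1 rev b), x * y = y * x) : x ∈ Rb φ (b1 rev b) := by
  have hL : ∀ k, b k < b (rev k) → φ x *ᵥ Pi.single k 1 = Pi.single k 1 := by
    intro k hk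
    have hk' : rev k ≠ k := by intro h; rw [h] at hk; exact lt_irrefl _ hk
    obtain ⟨g, hg⟩ := D.ex_lr hk' (map_one σ)
    have hgU : g ∈ Rb φ (b1 rev b) := mem_Rb'.2 fun i j hij => by
      rw [hg, El_apply]
      rcases eq_or_ne i k with rfl | hi
      · have hj : rev j ≠ i := by
          rintro rfl
          apply hij
          rw [D.rr] at hk
          unfold b1
          rw [D.rr, if_pos hk, if_neg (by omega)]
          split_ifs <;> omega
        rw [Pi.single_eq_of_ne hj]; simp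
      · rw [Pi.single_eq_of_ne hi]; simp
    exact D.fix_left hx one_ne_zero hg (hc g hgU)
  rw [mem_Rb']
  intro i j hij
  by_cases h : b i < b j
  · have hi := D.brev i
    have hj := D.brev j
    have h1 := D.b1_mono h.le
    have hne : i ≠ j := by rintro rfl; omega
    by_cases hjl : b j < b (rev j)
    · rw [← D.col_eq, hL j hjl, Matrix.one_apply, Pi.single_apply]
    · have hir : b (rev i) < b i := by
        unfold b1 at h1 hij
        rw [if_neg hjl] at h1 hij
        split_ifs at h1 hij <;> omega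
      rw [Matrix.one_apply_ne hne, ← D.col_eq]
      apply D.coef_zero
      rw [← hL (rev i) (by rw [D.rr]; exact hir), D.iso, D.ss_ne]
      intro h'; exact hne (D.rev_inj h').symm
  · exact mem_Rb'.1 hx i j h

theorem R2_centric [Finite G] (hmid : ∀ l, rev l = l → ∃ β, β - σ β = s l) {i0 : ι} (h0 : b i0 = 0) (h4 : 4 ≤ Fintype.card ι) {x : G} (hx : x ∈ Rb φ b)
    (hc : ∀ y ∈ Rb φ (b2 rev i0), x * y = y * x) : x ∈ Rb φ (b2 rev i0) := by
  have hr0 := D.brev i0
  have n0 : rev i0 ≠ i0 := by intro h; rw [h] at hr0; omega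
  have hin : ∀ (v : ι → K) (β : K), v i0 = 0 → v (rev i0) = 0 → ∀ g, φ g = El σ rev s (Pi.single i0 1) v β → g ∈ Rb φ (b2 rev i0) := by
    intro v β hv0 hv0' g hg
    refine mem_Rb'.2 fun i j hij => ?_
    rw [hg, El_apply]
    rcases eq_or_ne (rev j) i0 with hj | hj
    · have hj' : j = rev i0 := by rw [← hj, D.rr]
      have h5 : i = rev i0 := by
        by_contra h
        apply hij
        unfold b2
        rw [if_neg (show ¬ j = i0 by rw [hj']; exact n0), if_pos hj', if_neg h]
        split_ifs <;> omega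
      rw [hj', h5, hv0', Pi.single_eq_of_ne n0]
      simp
    · rw [Pi.single_eq_of_ne hj]
      rcases eq_or_ne i i0 with hi | hi
      · have h5 : j = i0 := by
          by_contra h
          apply hij
          unfold b2
          rw [if_pos hi, if_neg h]
          split_ifs <;> omega
        rw [hi, h5, hv0']
        simp
      · rw [Pi.single_eq_of_ne hi]; simp
  have hfix : φ x *ᵥ Pi.single i0 1 = Pi.single i0 1 := by
    obtain ⟨g, hg⟩ := D.ex_lr n0 (map_one σ)
    exact D.fix_left hx one_ne_zero hg (hc g (hin 0 1 rfl rfl g hg))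
  rw [mem_Rb']
  intro i j hij
  by_cases h : b i < b j
  · have h1 := D.b2_mono h0 h4 h.le
    have hi0 : i ≠ i0 := by
      rintro rfl
      apply hij
      unfold b2
      rw [if_pos rfl, if_neg (by rintro rfl; exact lt_irrefl _ h)]
      split_ifs <;> omega
    have hj0 : j ≠ i0 := by rintro rfl; omega
    have hj0' : j ≠ rev i0 := by
      rintro rfl
      apply hij
      unfold b2
      rw [if_neg hi0, if_neg (fun h' => by rw [h'] at h; omega), if_neg n0, if_pos rfl]
      omega
    have hcond : ∃ β, β - σ β = ⟪Pi.single j 1, Pi.single j 1⟫ := by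
      by_cases hl : rev j = j
      · obtain ⟨β, hβ⟩ := hmid j hl
        refine ⟨β, ?_⟩
        rw [hβ, fm_single_left, hl, Pi.single_eq_same, map_one, mul_one, one_mul]
      · exact ⟨0, by rw [D.ss_ne hl, map_zero, sub_zero]⟩
    obtain ⟨β, hβ⟩ := hcond
    obtain ⟨g, hg⟩ := D.ex_El (D.ss_ne n0) (D.ss_ne hj0'.symm) hβ
    exact D.fix_mod hfix hg (hc g (hin _ β (Pi.single_eq_of_ne hj0.symm _) (Pi.single_eq_of_ne hj0'.symm _) g hg)) hi0
  · exact mem_Rb'.1 hx i j h

end Dat

end CfsgLib.Unc
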