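import Cfsg.Agent.LibUnc8

set_option autoImplicit false

/-! Special isometry groups: torus elements (helper1) -/

namespace CfsgLib.Unc

open Cfsg Matrix CfsgLib.Fus21

variable {K : Type*} [Field K] {ι : Type*} [Fintype ι] [DecidableEq ι]
variable {G : Type*} [Group G] {σ : K →+* K} {rev : ι → ι} {s : ι → K} {b : ι → ℕ} {φ : G →* Matrix ι ι K}

local notation "⟪" x ", " y "⟫" => fm σ rev s x y

/-- diagonal entries of a torus element -/
def hdv (σ : K →+* K) (rev : ι → ι) (i j : ι) (c : K) (l : ι) : K :=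
  if l = i then c else if l = j then c⁻¹ else if l = rev i then (σ c)⁻¹ else if l = rev j then σ c else 1

/-- diagonal entries of a torus element -/
def rkv (σ : K →+* K) (rev : ι → ι) (j : ι) (c : K) (l : ι) : K :=
  if l = j then c else if l = rev j then (σ c)⁻¹ else if rev l = l then σ c / c else 1

theorem diag_mulVec_single (d : ι → K) (l : ι) (a : K) : diagonal d *ᵥ (Pi.single l a) = Pi.single l (d l * a) := by
  ext i
  rw [mulVec_diagonal, Pi.single_apply, Pi.single_apply]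
  split_ifs with h
  · rw [h]
  · rw [mul_zero]

namespace Dat

variable (D : Dat σ rev s b φ)
include D

theorem tv_act' {i j : ι} (hi : rev i ≠ j) (c a : K) : tvM σ rev s i j c *ᵥ (Pi.single (rev i) a) =
    Pi.single (rev i) a + Pi.single (rev j) (-(σ c) * (s (rev i) / s (rev j)) * a) := by
  rw [D.tv_mulVec, Pi.single_eq_same, Pi.single_eq_of_ne hi.symm, mul_zero, Pi.single_zero, add_zero]

theorem ex_n {P : Subgroup G} {i j : ι} (hi : rev i ≠ i) (hj : rev j ≠ j) (hij : i ≠ j) (hij' : rev i ≠ j)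
    (h1 : ∀ c, ∃ g ∈ P, φ g = tvM σ rev s i j c) (h2 : ∀ c, ∃ g ∈ P, φ g = tvM σ rev s j i c) {c : K} (hc : c ≠ 0) :
    ∃ g ∈ P, (∀ a, φ g *ᵥ (Pi.single i a) = Pi.single j (-(c⁻¹ * a))) ∧ (∀ a, φ g *ᵥ (Pi.single j a) = Pi.single i (c * a)) ∧
      (∀ a, φ g *ᵥ (Pi.single (rev i) a) = Pi.single (rev j) (-(σ c) * (s (rev i) / s (rev j)) * a)) ∧
      (∀ a, φ g *ᵥ (Pi.single (rev j) a) = Pi.single (rev i) ((σ c)⁻¹ * (s (rev j) / s (rev i)) * a)) ∧
      ∀ l, l ≠ i → l ≠ j → l ≠ rev i → l ≠ rev j → ∀ a, φ g *ᵥ (Pi.single l a) = Pi.single l a := by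
  obtain ⟨x, hx, hx'⟩ := h1 c
  obtain ⟨y, hy, hy'⟩ := h2 (-c⁻¹)
  have hji' : rev j ≠ i := fun h => hij' (by rw [← h, D.rr])
  have hr : rev i ≠ rev j := fun h => hij (D.rev_inj h)
  have hσc : σ c ≠ 0 := (map_ne_zero σ).2 hc
  have hsi := D.s0 (rev i)
  have hsj := D.s0 (rev j)
  refine ⟨x * (y * x), P.mul_mem hx (P.mul_mem hy hx), ?_, ?_, ?_, ?_, ?_⟩
  · intro a
    rw [map_mul, map_mul, ← mulVec_mulVec, ← mulVec_mulVec, hx', hy', D.tv_fix _ (Pi.single_eq_of_ne hij.symm _) (Pi.single_eq_of_ne hi _),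
      D.tv_act hji', mulVec_add, D.tv_act hij', D.tv_fix _ (Pi.single_eq_of_ne hij.symm _) (Pi.single_eq_of_ne hi _),
      add_comm (Pi.single j _ : ι → K), ← add_assoc, ← Pi.single_add]
    have : a + c * (-c⁻¹ * a) = 0 := by field_simp; ring
    rw [this, Pi.single_zero, zero_add, neg_mul]
  · intro a
    rw [map_mul, map_mul, ← mulVec_mulVec, ← mulVec_mulVec, hx', hy', D.tv_act hij', mulVec_add, D.tv_act hji',
      D.tv_fix (i := j) (j := i) _ (Pi.single_eq_of_ne hij _) (Pi.single_eq_of_ne hj _), ← add_assoc, add_right_comm, ← Pi.single_add]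
    have : a + -c⁻¹ * (c * a) = 0 := by field_simp; ring
    rw [this, Pi.single_zero, zero_add, D.tv_fix _ (Pi.single_eq_of_ne hij.symm _) (Pi.single_eq_of_ne hi _)]
  · intro a
    rw [map_mul, map_mul, ← mulVec_mulVec, ← mulVec_mulVec, hx', hy', D.tv_act' hij', mulVec_add, D.tv_act' hji',
      D.tv_fix (i := j) (j := i) _ (Pi.single_eq_of_ne hi.symm _) (Pi.single_eq_of_ne hr.symm _), add_comm (Pi.single (rev j) _ : ι → K), ← add_assoc,
      ← Pi.single_add]
    have : a + -σ (-c⁻¹) * (s (rev j) / s (rev i)) * (-σ c * (s (rev i) / s (rev j)) * a) = 0 := by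
      rw [map_neg, map_inv₀]; field_simp; ring
    rw [this, Pi.single_zero, zero_add, D.tv_fix _ (Pi.single_eq_of_ne hj.symm _) (Pi.single_eq_of_ne hr _)]
  · intro a
    rw [map_mul, map_mul, ← mulVec_mulVec, ← mulVec_mulVec, hx', hy', D.tv_fix _ (Pi.single_eq_of_ne hj.symm _) (Pi.single_eq_of_ne hr _),
      D.tv_act' hji', mulVec_add, D.tv_act' hij', D.tv_fix _ (Pi.single_eq_of_ne hj.symm _) (Pi.single_eq_of_ne hr _),
      add_comm (Pi.single (rev i) _ : ι → K), ← add_assoc, ← Pi.single_add]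
    have : a + -σ c * (s (rev i) / s (rev j)) * (-σ (-c⁻¹) * (s (rev j) / s (rev i)) * a) = 0 := by
      rw [map_neg, map_inv₀]; field_simp; ring
    rw [this, Pi.single_zero, zero_add]
    congr 1
    rw [map_neg, map_inv₀]; ring
  · intro l l1 l2 l3 l4 a
    rw [map_mul, map_mul, ← mulVec_mulVec, ← mulVec_mulVec, hx', hy', D.tv_fix _ (Pi.single_eq_of_ne l2.symm _) (Pi.single_eq_of_ne l3.symm _),
      D.tv_fix _ (Pi.single_eq_of_ne l1.symm _) (Pi.single_eq_of_ne l4.symm _), D.tv_fix _ (Pi.single_eq_of_ne l2.symm _) (Pi.single_eq_of_ne l3.symm _)]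

theorem ex_hd {P : Subgroup G} {i j : ι} (hi : rev i ≠ i) (hj : rev j ≠ j) (hij : i ≠ j) (hij' : rev i ≠ j)
    (h1 : ∀ c, ∃ g ∈ P, φ g = tvM σ rev s i j c) (h2 : ∀ c, ∃ g ∈ P, φ g = tvM σ rev s j i c) {c : K} (hc : c ≠ 0) :
    ∃ g ∈ P, φ g = diagonal (hdv σ rev i j c) := by
  obtain ⟨x, hx, x1, x2, x3, x4, x5⟩ := D.ex_n hi hj hij hij' h1 h2 hc
  obtain ⟨y, hy, y1, y2, y3, y4, y5⟩ := D.ex_n hi hj hij hij' h1 h2 (c := -1) (neg_ne_zero.2 one_ne_zero)
  have hji' : rev j ≠ i := fun h => hij' (by rw [← h, D.rr])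
  have hr : rev i ≠ rev j := fun h => hij (D.rev_inj h)
  have hσc : σ c ≠ 0 := (map_ne_zero σ).2 hc
  have hsi := D.s0 (rev i)
  have hsj := D.s0 (rev j)
  refine ⟨x * y, P.mul_mem hx hy, colext fun l => ?_⟩
  rw [map_mul, ← mulVec_mulVec, diag_mulVec_single]
  by_cases l1 : l = i
  · subst l1
    rw [y1, x2, hdv, if_pos rfl]
    congr 1; norm_num
  by_cases l2 : l = j
  · subst l2
    rw [y2, x1, hdv, if_neg l1, if_pos rfl]
    congr 1; norm_num
  by_cases l3 : l = rev i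
  · subst l3
    rw [y3, x4, hdv, if_neg l1, if_neg l2, if_pos rfl]
    congr 1
    rw [map_neg, map_one]; field_simp
  by_cases l4 : l = rev j
  · subst l4
    rw [y4, x3, hdv, if_neg l1, if_neg l2, if_neg l3, if_pos rfl]
    congr 1
    rw [map_neg, map_one]; field_simp
  rw [y5 l l1 l2 l3 l4, x5 l l1 l2 l3 l4, hdv, if_neg l1, if_neg l2, if_neg l3, if_neg l4, mul_one]

/-- rank one elements -/
theorem ex_rn {P : Subgroup G} {j : ι} (hj : rev j ≠ j) {x : ι → K} (hx1 : x j = 0) (hx2 : x (rev j) = 0)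
    (h1 : ∀ (c d : K), d - σ d = ⟪c • x, c • x⟫ → ∃ g ∈ P, φ g = El σ rev s (Pi.single j 1) (c • x) d)
    (h2 : ∀ (c d : K), d - σ d = ⟪c • x, c • x⟫ → ∃ g ∈ P, φ g = El σ rev s (Pi.single (rev j) 1) (c • x) d) {β : K} (hβ0 : β ≠ 0)
    (hβ : β - σ β = ⟪x, x⟫) :
    ∃ g ∈ P, (∀ a, φ g *ᵥ (Pi.single j a) = Pi.single (rev j) ((s j * σ (s j) * σ β)⁻¹ * s j * a)) ∧
      (∀ a, φ g *ᵥ (Pi.single (rev j) a) = Pi.single j (β * s (rev j) * a)) ∧
      (∀ y : ι → K, y j = 0 → y (rev j) = 0 → ⟪y, x⟫ = 0 → φ g *ᵥ y = y) ∧ φ g *ᵥ x = (σ β / β) • x := by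
  have hσβ : σ β ≠ 0 := (map_ne_zero σ).2 hβ0
  have hs := D.s0 j
  have hσs : σ (s j) ≠ 0 := (map_ne_zero σ).2 hs
  have hsr : s (rev j) = - σ (s j) := by rw [D.ss, neg_neg]
  set γ : K := (s j * σ (s j) * σ β)⁻¹ with hγ
  have hσγ : σ γ = (s j * σ (s j) * β)⁻¹ := by
    rw [hγ, map_inv₀, map_mul, map_mul, D.sig, D.sig, mul_comm (σ (s j))]
  have hskew : σ ⟪x, x⟫ = - ⟪x, x⟫ := by rw [← hβ, map_sub, D.sig]; ring
  obtain ⟨X, hX, hX'⟩ := h1 1 β (by rw [one_smul]; exact hβ)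
  obtain ⟨Y, hY, hY'⟩ := h2 (-(γ * s (rev j))) γ (by
    rw [fm_smul_left, fm_smul_right, ← hβ, map_neg, map_mul, hσγ, hsr, map_neg, D.sig, hγ]
    field_simp)
  obtain ⟨Z, hZ, hZ'⟩ := h1 (-(β / σ β)) β (by
    rw [fm_smul_left, fm_smul_right, ← hβ, map_neg, map_div₀, D.sig]
    field_simp)
  have f1 : ∀ y : ι → K, ⟪y, Pi.single j 1⟫ = y (rev j) * s (rev j) := fun y => by rw [fm_single_right D.frm, map_one, mul_one]
  have f2 : ∀ y : ι → K, ⟪y, Pi.single (rev j) 1⟫ = y j * s j := fun y => by rw [fm_single_right D.frm, map_one, mul_one, D.rr]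
  have f3 : ∀ a, ⟪Pi.single j a, x⟫ = 0 := fun a => by rw [fm_single_left, hx2]; simp
  have f4 : ∀ a, ⟪Pi.single (rev j) a, x⟫ = 0 := fun a => by rw [fm_single_left, D.rr, hx1]; simp
  have act : ∀ (t : K) (a c e : K), El σ rev s (Pi.single j 1) (t • x) β *ᵥ (Pi.single j a + Pi.single (rev j) c + e • x) =
      Pi.single j (a + σ t * e * ⟪x, x⟫ + β * (c * s (rev j))) + Pi.single (rev j) c + (e + c * s (rev j) * t) • x := by
    intro t a c e
    rw [El_mulVec, f1]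
    simp only [fm_add_left, fm_smul_left, fm_smul_right, f3, f4]
    ext l
    simp only [Pi.add_apply, Pi.smul_apply, smul_eq_mul, Pi.single_eq_same, Pi.single_eq_of_ne hj, hx2, Pi.single_apply]
    split_ifs <;> ring
  have act' : ∀ (t : K) (a c e : K), El σ rev s (Pi.single (rev j) 1) (t • x) γ *ᵥ (Pi.single j a + Pi.single (rev j) c + e • x) =
      Pi.single j a + Pi.single (rev j) (c + σ t * e * ⟪x, x⟫ + γ * (a * s j)) + (e + a * s j * t) • x := by
    intro t a c e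
    rw [El_mulVec, f2]
    simp only [fm_add_left, fm_smul_left, fm_smul_right, f3, f4]
    ext l
    simp only [Pi.add_apply, Pi.smul_apply, smul_eq_mul, Pi.single_eq_same, Pi.single_eq_of_ne hj.symm, hx1, Pi.single_apply]
    split_ifs <;> ring
  have key : ∀ a c e : K, φ (X * (Y * Z)) *ᵥ (Pi.single j a + Pi.single (rev j) c + e • x) =
      Pi.single j (β * s (rev j) * c) + Pi.single (rev j) (γ * s j * a) + (σ β / β * e) • x := by
    intro a c e
    rw [map_mul, map_mul, ← mulVec_mulVec, ← mulVec_mulVec, hX', hY', hZ', act, act', act, hsr, ← hβ]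
    simp only [map_neg, map_mul, map_div₀, D.sig, map_one, hσγ]
    rw [hγ]
    congr 2
    · congr 1
      congr 1
      field_simp
      ring
    · congr 1
      field_simp
      ring
    · field_simp
      ring
  refine ⟨X * (Y * Z), P.mul_mem hX (P.mul_mem hY hZ), fun a => ?_, fun a => ?_, fun y hy1 hy2 hy3 => ?_, ?_⟩
  · have := key a 0 0
    simpa using this
  · have := key 0 a 0
    simpa using this
  · have e1 : ∀ (t : K) (r : K), El σ rev s (Pi.single j 1) (t • x) r *ᵥ y = y := by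
      intro t r
      rw [El_mulVec, f1, fm_smul_right, hy2, hy3]; simp
    have e2 : ∀ (t : K) (r : K), El σ rev s (Pi.single (rev j) 1) (t • x) r *ᵥ y = y := by
      intro t r
      rw [El_mulVec, f2, fm_smul_right, hy1, hy3]; simp
    rw [map_mul, map_mul, ← mulVec_mulVec, ← mulVec_mulVec, hX', hY', hZ', e1, e2, e1]
  · have := key 0 0 1
    simpa using this

end Dat

end CfsgLib.Unc
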