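import Mathlib
import Cfsg.Agent.LibJor3H13

/-! Elements of p-power order and unipotent operators (seat helper13). -/

namespace CfsgLib.Uni

open Module Polynomial CfsgLib.Jor CfsgLib.Typ

variable {F : Type*} [Field F] {n : ℕ}

theorem sub_pow_pk {V : Type*} [AddCommGroup V] [Module F V] {p : ℕ} [Fact p.Prime] [CharP F p] (T : End F V) (k : ℕ) : (T - 1) ^ (p ^ k) = T ^ (p ^ k) - 1 := by
  have h : ((X - C 1 : F[X]) ^ (p ^ k)) = X ^ (p ^ k) - 1 := by
    rw [sub_pow_char_pow, map_one, one_pow]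
  rw [← aeval_X_sub, h, map_sub, map_pow, aeval_X, map_one]

/-- elements of p-power order are the unipotent ones -/
theorem ppow_iff {p : ℕ} [Fact p.Prime] [CharP F p] (g : GL (Fin n) F) : (∃ k : ℕ, orderOf g = p ^ k) ↔ ∃ M, (Matrix.toLin' (g : Matrix (Fin n) (Fin n) F) - 1) ^ M = 0 := by
  constructor
  · rintro ⟨k, hk⟩
    refine ⟨p ^ k, ?_⟩
    rw [sub_pow_pk, lin_pow, ← hk, pow_orderOf_eq_one, (lin_eq_one 1).2 rfl, sub_self]
  · rintro ⟨M, hM⟩
    have h1 : (Matrix.toLin' (g : Matrix (Fin n) (Fin n) F) - 1) ^ (p ^ M) = 0 :=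
      pow_eq_zero_of_le (Nat.lt_pow_self (Fact.out : p.Prime).one_lt).le hM
    rw [sub_pow_pk, lin_pow, sub_eq_zero, lin_eq_one] at h1
    obtain ⟨k, -, hk⟩ := (Nat.dvd_prime_pow (Fact.out : p.Prime)).1 (orderOf_dvd_of_pow_eq_one h1)
    exact ⟨k, hk⟩

end CfsgLib.Uni
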