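import Cfsg.Agent.LibUnipC

set_option autoImplicit false

/-! degree formula -/

namespace CfsgLib.Unip

open Finset Cfsg Matrix Polynomial

open scoped MatrixGroups

theorem fpc_one {G : Type*} [Group G] (P : Subgroup G) : fixedPointCharacter P 1 = (Nat.card (G ⧸ P) : ℂ) := by
  unfold fixedPointCharacter
  congr 1
  apply Nat.card_congr
  refine ⟨fun z => z.1, fun z => ⟨z, one_smul _ _⟩, fun z => rfl, fun z => rfl⟩

theorem sum_perm {n : ℕ} (κ : Equiv.Perm (Fin n)) : ∑ i, (κ i).val = ∑ i : Fin n, i.val :=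
  Equiv.sum_comp κ (fun i => i.val)

theorem sum_sub {n : ℕ} (ν : Fin n → ℕ) (h : ∑ i, ν i = n) (κ : Equiv.Perm (Fin n))
    (hκ : ∀ i : Fin n, (κ i).val ≤ ν i + i.val) : ∑ i, (ν i + i.val - (κ i).val) = n := by
  have h1 : ∑ i, (ν i + i.val - (κ i).val) + ∑ i, (κ i).val = ∑ i, (ν i + i.val) := by
    rw [← Finset.sum_add_distrib]
    exact Finset.sum_congr rfl fun i _ => Nat.sub_add_cancel (hκ i)
  rw [sum_perm, Finset.sum_add_distrib, h] at h1
  omega

theorem qi_add (q a b : ℕ) : qi q (a + b) = qi q a + q ^ a * qi q b := by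
  unfold qi
  rw [Finset.sum_range_add, Finset.mul_sum]
  congr 1
  exact Finset.sum_congr rfl fun l _ => pow_add _ _ _

/-- falling factorial -/
noncomputable def ff (q l j : ℕ) : ℂ := ∏ k ∈ Finset.range j, (if k < l then (qi q (l - k) : ℂ) else 0)

theorem ff_of_le (q l j : ℕ) (h : j ≤ l) : (qf q l : ℂ) = ff q l j * qf q (l - j) := by
  induction j with
  | zero => simp [ff]
  | succ j ih =>
    rw [ih (by omega)]
    unfold ff
    rw [Finset.prod_range_succ, if_pos (by omega)]
    have : qf q (l - j) = qi q (l - j) * qf q (l - (j + 1)) := by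
      obtain ⟨t, ht⟩ : ∃ t, l - j = t + 1 := ⟨l - j - 1, by omega⟩
      have ht' : l - (j + 1) = t := by omega
      rw [ht, ht']
      unfold qf
      rw [Finset.prod_range_succ, mul_comm]
    rw [this]
    push_cast
    ring

theorem ff_of_lt (q l j : ℕ) (h : l < j) : ff q l j = 0 := by
  unfold ff
  apply Finset.prod_eq_zero (Finset.mem_range.mpr h)
  simp

theorem qf_ne_zero (q m : ℕ) (hq : 1 ≤ q) : (qf q m : ℂ) ≠ 0 := by
  unfold qf
  rw [Nat.cast_prod, Finset.prod_ne_zero_iff]
  intro j _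
  have : 0 < qi q (j + 1) := by
    unfold qi
    apply Finset.sum_pos
    · intro l _; exact Nat.pow_pos hq
    · simp
  exact_mod_cast this.ne'

/-- the monic polynomials -/
noncomputable def pp (q j : ℕ) : ℂ[X] := ∏ k ∈ Finset.range j, (X - C (qi q k : ℂ))

theorem pp_monic (q j : ℕ) : (pp q j).Monic := monic_prod_of_monic _ _ fun k _ => monic_X_sub_C _

theorem pp_deg (q j : ℕ) : (pp q j).natDegree = j := by
  unfold pp
  rw [natDegree_prod_of_monic _ _ fun k _ => monic_X_sub_C _, Finset.sum_congr rfl (fun k _ => natDegree_X_sub_C _),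
    Finset.sum_const, Finset.card_range, smul_eq_mul, mul_one]

theorem pp_eval (q l j : ℕ) : (pp q j).eval (qi q l : ℂ) = (q : ℂ) ^ (∑ k ∈ Finset.range j, k) * ff q l j := by
  unfold pp ff
  rw [eval_prod, ← Finset.prod_pow_eq_pow_sum]
  by_cases h : j ≤ l
  · rw [← Finset.prod_mul_distrib]
    apply Finset.prod_congr rfl
    intro k hk
    rw [Finset.mem_range] at hk
    rw [if_pos (by omega), eval_sub, eval_X, eval_C]
    have := qi_add q k (l - k)
    rw [Nat.add_sub_cancel' (by omega)] at this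
    rw [this]
    push_cast
    ring
  · have h' : l < j := by omega
    rw [Finset.prod_eq_zero (Finset.mem_range.mpr h') (by simp), Finset.prod_eq_zero (s := Finset.range j)
      (f := fun k => if k < l then (qi q (l - k) : ℂ) else 0) (Finset.mem_range.mpr h') (by simp), mul_zero]

theorem choose_sum (n : ℕ) : ∑ j : Fin n, ∑ k ∈ Finset.range j.val, k = n * (n - 1) * (n - 2) / 6 := by
  rw [Fin.sum_univ_eq_sum_range (fun j => ∑ k ∈ Finset.range j, k) n]
  have h6 : 6 * (∑ j ∈ Finset.range n, ∑ k ∈ Finset.range j, k) = n * (n - 1) * (n - 2) := by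
    induction n with
    | zero => simp
    | succ n ih =>
      rw [Finset.sum_range_succ, mul_add, ih]
      have h3 : 2 * (∑ k ∈ Finset.range n, k) = n * (n - 1) := by
        rw [mul_comm]; exact Finset.sum_range_id_mul_two n
      have : 6 * (∑ k ∈ Finset.range n, k) = 3 * (n * (n - 1)) := by rw [← h3]; ring
      rw [this]
      rcases n with _ | _ | n
      · simp
      · simp
      · simp only [Nat.add_sub_cancel, show n + 1 + 1 - 2 = n by omega, show n + 1 + 1 + 1 - 1 = n + 2 by omega,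
          show n + 1 + 1 + 1 - 2 = n + 1 by omega, show n + 1 + 1 - 1 = n + 1 by omega]
        ring
  omega

section

variable {F : Type*} [Field F] [Fintype F]

theorem degree {n : ℕ} (ν : Fin n → ℕ) (hsum : ∑ i, ν i = n) :
    unipotentCharacterGL n F ν 1 * (Fintype.card F : ℂ) ^ (n * (n - 1) * (n - 2) / 6) *
        ∏ i : Fin n, (qf (Fintype.card F) (ν i + i.val) : ℂ) =
      (qf (Fintype.card F) n : ℂ) * ∏ i : Fin n, ∏ j ∈ Finset.Ioi i,
          ((qi (Fintype.card F) (ν j + j.val) : ℂ) - (qi (Fintype.card F) (ν i + i.val) : ℂ)) := by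
  set q := Fintype.card F with hq
  have hq1 : 1 ≤ q := Fintype.card_pos
  have h1 : unipotentCharacterGL n F ν 1 * ∏ i : Fin n, (qf q (ν i + i.val) : ℂ) =
      (qf q n : ℂ) * (Matrix.of fun i j : Fin n => ff q (ν i + i.val) j.val).det := by
    unfold unipotentCharacterGL
    rw [Finset.sum_mul, ← Matrix.det_transpose, Matrix.det_apply', Finset.mul_sum]
    apply Finset.sum_congr rfl
    intro κ _
    simp only [Matrix.transpose_apply, Matrix.of_apply]
    by_cases hκ : ∀ i : Fin n, (κ i).val ≤ ν i + i.val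
    · rw [if_pos hκ, fpc_one]
      have h2 := index_parabolic (F := F) (fun i => ν i + i.val - (κ i).val) (sum_sub ν hsum κ hκ)
      have h3 : ∏ i : Fin n, (qf q (ν i + i.val) : ℂ) =
          (∏ i : Fin n, ff q (ν i + i.val) (κ i).val) * ∏ i : Fin n, (qf q (ν i + i.val - (κ i).val) : ℂ) := by
        rw [← Finset.prod_mul_distrib]
        exact Finset.prod_congr rfl fun i _ => ff_of_le q _ _ (hκ i)
      rw [h3, ← hq] at *
      have h4 : (Nat.card (GL (Fin n) F ⧸ parabolicGL n F fun i => ν i + i.val - (κ i).val) : ℂ) *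
          ∏ i : Fin n, (qf q (ν i + i.val - (κ i).val) : ℂ) = (qf q n : ℂ) := by
        exact_mod_cast h2
      rw [← h4]
      ring
    · rw [if_neg hκ, zero_mul]
      push Not at hκ
      obtain ⟨i, hi⟩ := hκ
      rw [Finset.prod_eq_zero (mem_univ i) (ff_of_lt q _ _ hi)]
      simp
  have h2 : (q : ℂ) ^ (n * (n - 1) * (n - 2) / 6) * (Matrix.of fun i j : Fin n => ff q (ν i + i.val) j.val).det =
      ∏ i : Fin n, ∏ j ∈ Finset.Ioi i, ((qi q (ν j + j.val) : ℂ) - (qi q (ν i + i.val) : ℂ)) := by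
    rw [← Matrix.det_vandermonde, Matrix.det_eval_matrixOfPolynomials_eq_det_vandermonde _ (fun j : Fin n => pp q j.val)
      (fun j => pp_deg q j.val) (fun j => pp_monic q j.val), ← choose_sum, ← Finset.prod_pow_eq_pow_sum,
      ← Matrix.det_mul_row]
    congr 1
    ext i j
    simp only [Matrix.of_apply]
    rw [pp_eval]
  calc _ = (unipotentCharacterGL n F ν 1 * ∏ i : Fin n, (qf q (ν i + i.val) : ℂ)) * (q : ℂ) ^ (n * (n - 1) * (n - 2) / 6) := by ring
    _ = (qf q n : ℂ) * ((q : ℂ) ^ (n * (n - 1) * (n - 2) / 6) * (Matrix.of fun i j : Fin n => ff q (ν i + i.val) j.val).det) := by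
        rw [h1]; ring
    _ = _ := by rw [h2]

theorem qi_strictMono {q : ℕ} (hq : 1 ≤ q) : StrictMono (qi q) := by
  apply strictMono_nat_of_lt_succ
  intro r
  unfold qi
  rw [Finset.sum_range_succ]
  have : 0 < q ^ r := Nat.pow_pos hq
  omega

/-- positivity of the degree -/
theorem degree_pos {n : ℕ} (ν : Fin n → ℕ) (hmono : Monotone ν) (hsum : ∑ i, ν i = n) :
    ∃ r : ℝ, 0 < r ∧ unipotentCharacterGL n F ν 1 = (r : ℂ) := by
  have h := degree (F := F) ν hsum
  set q := Fintype.card F with hq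
  have hq1 : 1 ≤ q := Fintype.card_pos
  have hA : (∏ i : Fin n, (qf q (ν i + i.val) : ℝ)) > 0 := by
    apply Finset.prod_pos
    intro i _
    have : qf q (ν i + i.val) ≠ 0 := by
      have := qf_ne_zero q (ν i + i.val) hq1
      exact_mod_cast this
    exact_mod_cast Nat.pos_of_ne_zero this
  have hB : (q : ℝ) ^ (n * (n - 1) * (n - 2) / 6) > 0 := by
    have : (0 : ℝ) < q := by exact_mod_cast hq1
    positivity
  have hC : (qf q n : ℝ) > 0 := by
    have : qf q n ≠ 0 := by
      have := qf_ne_zero q n hq1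
      exact_mod_cast this
    exact_mod_cast Nat.pos_of_ne_zero this
  have hD : ∏ i : Fin n, ∏ j ∈ Finset.Ioi i, ((qi q (ν j + j.val) : ℝ) - (qi q (ν i + i.val) : ℝ)) > 0 := by
    apply Finset.prod_pos
    intro i _
    apply Finset.prod_pos
    intro j hj
    rw [Finset.mem_Ioi] at hj
    have h1 : ν i + i.val < ν j + j.val := by
      have := hmono hj.le
      have h2 : i.val < j.val := hj
      omega
    have := qi_strictMono hq1 h1
    have h3 : (qi q (ν i + i.val) : ℝ) < (qi q (ν j + j.val) : ℝ) := by exact_mod_cast this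
    linarith
  refine ⟨(qf q n : ℝ) * (∏ i : Fin n, ∏ j ∈ Finset.Ioi i, ((qi q (ν j + j.val) : ℝ) - (qi q (ν i + i.val) : ℝ))) /
    ((q : ℝ) ^ (n * (n - 1) * (n - 2) / 6) * ∏ i : Fin n, (qf q (ν i + i.val) : ℝ)), by positivity, ?_⟩
  push_cast
  rw [← h]
  have hA' : (∏ i : Fin n, (qf q (ν i + i.val) : ℂ)) ≠ 0 := by
    rw [Finset.prod_ne_zero_iff]
    exact fun i _ => qf_ne_zero q _ hq1
  have hB' : (q : ℂ) ^ (n * (n - 1) * (n - 2) / 6) ≠ 0 := by
    apply pow_ne_zero
    exact_mod_cast (by omega : q ≠ 0)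
  field_simp

end

end CfsgLib.Unip
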