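import Cfsg.Agent.LibUnipD

set_option autoImplicit false

/-! the Cauchy determinant and the orthogonality identity -/

namespace CfsgLib.Unip

open Finset Matrix Polynomial

theorem cauchy_field {K : Type*} [Field K] {n : ℕ} (x y : Fin n → K) (hy : Function.Injective y) (hy0 : ∀ i, y i ≠ 0) :
    (Matrix.of fun i j : Fin n => ∏ k ∈ ({j}ᶜ : Finset (Fin n)), (1 - x i * y k)).det =
      (vandermonde x).det * (vandermonde y).det := by
  let p : Fin n → K[X] := fun j => ∏ k ∈ ({j}ᶜ : Finset (Fin n)), (1 - C (y k) * X)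
  have hp : ∀ j, (p j).natDegree ≤ n - 1 := by
    intro j
    refine (natDegree_prod_le _ _).trans ?_
    have h1 : ∀ k ∈ ({j}ᶜ : Finset (Fin n)), (1 - C (y k) * X : K[X]).natDegree ≤ 1 := by
      intro k _
      compute_degree
    refine (Finset.sum_le_sum h1).trans ?_
    rw [Finset.sum_const, smul_eq_mul, mul_one, Finset.card_compl, Finset.card_singleton, Fintype.card_fin]
  let E : Matrix (Fin n) (Fin n) K := Matrix.of fun i j : Fin n => (p j).coeff i.val
  have hfac : ∀ z : Fin n → K, (Matrix.of fun i j : Fin n => ∏ k ∈ ({j}ᶜ : Finset (Fin n)), (1 - z i * y k)) =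
      vandermonde z * E := by
    intro z
    ext i j
    rw [Matrix.mul_apply, Matrix.of_apply]
    have h1 : (p j).eval (z i) = ∏ k ∈ ({j}ᶜ : Finset (Fin n)), (1 - z i * y k) := by
      simp only [p]
      rw [eval_prod]
      apply Finset.prod_congr rfl
      intro k _
      rw [eval_sub, eval_one, eval_mul, eval_C, eval_X, mul_comm]
    rw [← h1, eval_eq_sum_range' (n := n)]
    · rw [← Fin.sum_univ_eq_sum_range (fun m => (p j).coeff m * z i ^ m) n]
      apply Finset.sum_congr rfl
      intro m _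
      rw [Matrix.vandermonde_apply]
      show _ = z i ^ m.val * (p j).coeff m.val
      ring
    · have := hp j
      have := j.2
      omega
  have hE : E.det = (vandermonde y).det := by
    have h1 := congrArg Matrix.det (hfac fun i => (y i)⁻¹)
    rw [Matrix.det_mul] at h1
    have h2 : (Matrix.of fun i j : Fin n => ∏ k ∈ ({j}ᶜ : Finset (Fin n)), (1 - (y i)⁻¹ * y k)) =
        Matrix.diagonal fun i => ∏ k ∈ ({i}ᶜ : Finset (Fin n)), (1 - (y i)⁻¹ * y k) := by
      ext i j
      rw [Matrix.of_apply]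
      by_cases hij : i = j
      · subst hij
        rw [Matrix.diagonal_apply_eq]
      · rw [Matrix.diagonal_apply_ne _ hij]
        apply Finset.prod_eq_zero (i := i)
        · simpa using hij
        · rw [inv_mul_cancel₀ (hy0 i), sub_self]
    rw [h2, Matrix.det_diagonal] at h1
    have h3 := Finset.prod_prod_Ioi_mul_eq_prod_prod_off_diag (fun k i : Fin n => (1 - (y i)⁻¹ * y k))
    rw [← h3, Matrix.det_vandermonde] at h1
    rw [Matrix.det_vandermonde]
    have h4 : ∀ i : Fin n, ∀ j ∈ Finset.Ioi i, (1 - (y i)⁻¹ * y j) * (1 - (y j)⁻¹ * y i) =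
        ((y j)⁻¹ - (y i)⁻¹) * (y j - y i) := by
      intro i j _
      have hi := hy0 i
      have hj := hy0 j
      field_simp
    have h5 : ∏ i : Fin n, ∏ j ∈ Finset.Ioi i, (1 - (y i)⁻¹ * y j) * (1 - (y j)⁻¹ * y i) =
        (∏ i : Fin n, ∏ j ∈ Finset.Ioi i, ((y j)⁻¹ - (y i)⁻¹)) * ∏ i : Fin n, ∏ j ∈ Finset.Ioi i, (y j - y i) := by
      rw [← Finset.prod_mul_distrib]
      apply Finset.prod_congr rfl
      intro i _
      rw [← Finset.prod_mul_distrib]
      exact Finset.prod_congr rfl (h4 i)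
    have h6 : (∏ i : Fin n, ∏ j ∈ Finset.Ioi i, ((y j)⁻¹ - (y i)⁻¹)) ≠ 0 := by
      rw [Finset.prod_ne_zero_iff]
      intro i _
      rw [Finset.prod_ne_zero_iff]
      intro j hj
      rw [Finset.mem_Ioi] at hj
      intro e
      exact hj.ne' (hy (inv_injective (sub_eq_zero.mp e)))
    rw [h5] at h1
    exact (mul_left_cancel₀ h6 h1).symm
  rw [hfac, Matrix.det_mul, hE]

/-! ### power series -/

abbrev PS (n : ℕ) := MvPowerSeries (Fin n ⊕ Fin n) ℤ

/-- the exponent -/
noncomputable def xm {n : ℕ} (l l' : Fin n → ℕ) : (Fin n ⊕ Fin n) →₀ ℕ := Finsupp.equivFunOnFinite.symm (Sum.elim l l')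

theorem xm_inl {n : ℕ} (l l' : Fin n → ℕ) (i : Fin n) : xm l l' (Sum.inl i) = l i := rfl
theorem xm_inr {n : ℕ} (l l' : Fin n → ℕ) (i : Fin n) : xm l l' (Sum.inr i) = l' i := rfl

theorem xm_le {n : ℕ} (l l' k k' : Fin n → ℕ) : xm k k' ≤ xm l l' ↔ (∀ i, k i ≤ l i) ∧ ∀ i, k' i ≤ l' i := by
  constructor
  · intro h
    exact ⟨fun i => h (Sum.inl i), fun i => h (Sum.inr i)⟩
  · rintro ⟨h1, h2⟩ (i | i)
    · exact h1 i
    · exact h2 i

theorem xm_sub {n : ℕ} (l l' k k' : Fin n → ℕ) : xm l l' - xm k k' = xm (fun i => l i - k i) (fun i => l' i - k' i) := by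
  ext (i | i) <;> rfl

theorem xm_inj {n : ℕ} {l l' k k' : Fin n → ℕ} : xm l l' = xm k k' ↔ l = k ∧ l' = k' := by
  constructor
  · intro h
    exact ⟨funext fun i => DFunLike.congr_fun h (Sum.inl i), funext fun i => DFunLike.congr_fun h (Sum.inr i)⟩
  · rintro ⟨rfl, rfl⟩; rfl

open Classical in
/-- geometric series of a monomial -/
noncomputable def geo {n : ℕ} (m : (Fin n ⊕ Fin n) →₀ ℕ) : PS n := fun d => if ∃ k : ℕ, d = k • m then 1 else 0

open Classical in
theorem coeff_geo {n : ℕ} (m d : (Fin n ⊕ Fin n) →₀ ℕ) :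
    MvPowerSeries.coeff d (geo m) = if ∃ k : ℕ, d = k • m then 1 else 0 := rfl

theorem geo_mul {n : ℕ} {m : (Fin n ⊕ Fin n) →₀ ℕ} (hm : m ≠ 0) :
    (1 - MvPowerSeries.monomial m (1 : ℤ)) * geo m = 1 := by
  classical
  ext d
  rw [sub_mul, one_mul, map_sub, MvPowerSeries.coeff_monomial_mul, coeff_geo, coeff_geo, MvPowerSeries.coeff_one, one_mul]
  by_cases hd : d = 0
  · subst hd
    have h1 : ¬ m ≤ 0 := fun h => hm (le_antisymm h zero_le)
    rw [if_pos ⟨0, by simp⟩, if_neg h1, if_pos rfl, sub_zero]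
  · rw [if_neg hd]
    by_cases h : ∃ k : ℕ, d = k • m
    · obtain ⟨k, rfl⟩ := h
      have hk : k ≠ 0 := by rintro rfl; simp at hd
      obtain ⟨t, rfl⟩ := Nat.exists_eq_succ_of_ne_zero hk
      have e : (t.succ • m) = t • m + m := succ_nsmul m t
      have hle : m ≤ t.succ • m := by rw [e]; exact le_add_self
      have hsub : t.succ • m - m = t • m := by rw [e, add_tsub_cancel_right]
      rw [if_pos ⟨_, rfl⟩, if_pos hle, hsub, if_pos ⟨_, rfl⟩, sub_self]
    · rw [if_neg h]
      by_cases hle : m ≤ d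
      · rw [if_pos hle, if_neg, sub_zero]
        rintro ⟨k, hk⟩
        apply h
        refine ⟨k + 1, ?_⟩
        rw [succ_nsmul, ← hk, tsub_add_cancel_of_le hle]
      · rw [if_neg hle, sub_zero]

theorem coeff_prod_geo {n : ℕ} {ι : Type*} [Fintype ι] (m : ι → (Fin n ⊕ Fin n) →₀ ℕ) (hm : ∀ s, m s ≠ 0)
    (d : (Fin n ⊕ Fin n) →₀ ℕ) :
    MvPowerSeries.coeff d (∏ s, geo (m s)) = (Nat.card {k : ι → ℕ // ∑ s, k s • m s = d} : ℤ) := by
  classical
  rw [MvPowerSeries.coeff_prod]
  have hnsmul : ∀ s, Function.Injective (fun k : ℕ => k • m s) := by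
    intro s k k' h
    obtain ⟨t, ht⟩ : ∃ t, m s t ≠ 0 := by
      by_contra hc
      push Not at hc
      exact hm s (Finsupp.ext hc)
    have := DFunLike.congr_fun h t
    simp only [Finsupp.smul_apply, smul_eq_mul] at this
    exact Nat.eq_of_mul_eq_mul_right (Nat.pos_of_ne_zero ht) this
  have h1 : ∀ l ∈ finsuppAntidiag (univ : Finset ι) d, ∏ i, MvPowerSeries.coeff (l i) (geo (m i)) =
      if (∀ i, ∃ k : ℕ, l i = k • m i) then (1 : ℤ) else 0 := by
    intro l _
    by_cases h : ∀ i, ∃ k : ℕ, l i = k • m i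
    · rw [if_pos h]
      apply Finset.prod_eq_one
      intro i _
      rw [coeff_geo, if_pos (h i)]
    · rw [if_neg h]
      push Not at h
      obtain ⟨i, hi⟩ := h
      apply Finset.prod_eq_zero (mem_univ i)
      rw [coeff_geo, if_neg]
      push Not
      exact hi
  rw [Finset.sum_congr rfl h1, Finset.sum_boole]
  congr 1
  have e : {k : ι → ℕ // ∑ s, k s • m s = d} ≃
      {l // l ∈ (finsuppAntidiag (univ : Finset ι) d).filter fun l => ∀ i, ∃ k : ℕ, l i = k • m i} := by
    refine Equiv.ofBijective (fun k => ⟨Finsupp.equivFunOnFinite.symm (fun s => k.1 s • m s), ?_⟩) ⟨?_, ?_⟩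
    · rw [Finset.mem_filter, Finset.mem_finsuppAntidiag]
      refine ⟨⟨?_, fun _ _ => mem_univ _⟩, fun i => ⟨k.1 i, rfl⟩⟩
      exact k.2
    · intro k k' h
      apply Subtype.ext
      funext s
      apply hnsmul s
      exact DFunLike.congr_fun (congrArg Subtype.val h) s
    · rintro ⟨l, hl⟩
      rw [Finset.mem_filter, Finset.mem_finsuppAntidiag] at hl
      choose k hk using hl.2
      refine ⟨⟨k, ?_⟩, ?_⟩
      · rw [← hl.1.1]
        exact Finset.sum_congr rfl fun s _ => (hk s).symm
      · apply Subtype.ext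
        ext s : 1
        exact (hk s).symm
  rw [Nat.card_congr e, Nat.card_eq_fintype_card, Fintype.card_coe]

/-- the exponent of `x_i y_j` -/
noncomputable def em {n : ℕ} (i j : Fin n) : (Fin n ⊕ Fin n) →₀ ℕ := Finsupp.single (Sum.inl i) 1 + Finsupp.single (Sum.inr j) 1

theorem em_inl {n : ℕ} (i j a : Fin n) : em i j (Sum.inl a) = if i = a then 1 else 0 := by
  classical
  simp [em, Finsupp.single_apply]

theorem em_inr {n : ℕ} (i j a : Fin n) : em i j (Sum.inr a) = if j = a then 1 else 0 := by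
  classical
  simp [em, Finsupp.single_apply]

theorem em_ne {n : ℕ} (i j : Fin n) : em i j ≠ 0 := by
  intro h
  have := DFunLike.congr_fun h (Sum.inl i)
  rw [em_inl, if_pos rfl] at this
  exact one_ne_zero this

theorem coeff_kernel {n : ℕ} (μ ν : Fin n → ℕ) :
    MvPowerSeries.coeff (xm μ ν) (∏ s : Fin n × Fin n, geo (em s.1 s.2)) = (Nat.card (NM μ ν) : ℤ) := by
  classical
  rw [coeff_prod_geo _ (fun s => em_ne _ _)]
  congr 1
  apply Nat.card_congr
  refine (Equiv.curry (Fin n) (Fin n) ℕ).subtypeEquiv ?_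
  intro k
  have h1 : ∀ a, (∑ s : Fin n × Fin n, k s • em s.1 s.2) (Sum.inl a) = ∑ b, k (a, b) := by
    intro a
    rw [Finsupp.finsetSum_apply, Fintype.sum_prod_type]
    rw [Finset.sum_eq_single a]
    · apply Finset.sum_congr rfl
      intro b _
      simp [em_inl]
    · intro i _ hi
      apply Finset.sum_eq_zero
      intro b _
      simp [em_inl, hi]
    · simp
  have h2 : ∀ b, (∑ s : Fin n × Fin n, k s • em s.1 s.2) (Sum.inr b) = ∑ a, k (a, b) := by
    intro b
    rw [Finsupp.finsetSum_apply, Fintype.sum_prod_type]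
    apply Finset.sum_congr rfl
    intro a _
    rw [Finset.sum_eq_single b]
    · simp [em_inr]
    · intro i _ hi
      simp [em_inr, hi]
    · simp
  constructor
  · intro h
    refine ⟨fun a => ?_, fun b => ?_⟩
    · rw [← xm_inl μ ν a, ← h, h1]; rfl
    · rw [← xm_inr μ ν b, ← h, h2]; rfl
  · rintro ⟨ha, hb⟩
    ext (a | b)
    · rw [h1]; exact ha a
    · rw [h2]; exact hb b

theorem coeff_perm {n : ℕ} (l l' : Fin n → ℕ) (σ : Equiv.Perm (Fin n)) :
    MvPowerSeries.coeff (xm l l') (∏ i : Fin n, geo (em (σ i) i)) = if (∀ i, l (σ i) = l' i) then (1 : ℤ) else 0 := by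
  classical
  rw [coeff_prod_geo _ (fun s => em_ne _ _)]
  have h1 : ∀ (k : Fin n → ℕ) (a : Fin n), (∑ s : Fin n, k s • em (σ s) s) (Sum.inl (σ a)) = k a := by
    intro k a
    rw [Finsupp.finsetSum_apply, Finset.sum_eq_single a]
    · simp [em_inl]
    · intro i _ hi
      simp [em_inl, hi]
    · simp
  have h2 : ∀ (k : Fin n → ℕ) (a : Fin n), (∑ s : Fin n, k s • em (σ s) s) (Sum.inr a) = k a := by
    intro k a
    rw [Finsupp.finsetSum_apply, Finset.sum_eq_single a]
    · simp [em_inr]
    · intro i _ hi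
      simp [em_inr, hi]
    · simp
  by_cases h : ∀ i, l (σ i) = l' i
  · rw [if_pos h]
    have : Nat.card {k : Fin n → ℕ // ∑ s, k s • em (σ s) s = xm l l'} = 1 := by
      rw [Nat.card_eq_one_iff_unique]
      refine ⟨⟨fun k k' => ?_⟩, ⟨⟨l', ?_⟩⟩⟩
      · apply Subtype.ext
        funext a
        rw [← h2 k.1 a, ← h2 k'.1 a, k.2, k'.2]
      · ext (b | b)
        · obtain ⟨a, rfl⟩ := σ.surjective b
          rw [h1, xm_inl, h]
        · rw [h2, xm_inr]
    rw [this]; rfl
  · rw [if_neg h]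
    have : IsEmpty {k : Fin n → ℕ // ∑ s, k s • em (σ s) s = xm l l'} := by
      refine ⟨fun k => h fun i => ?_⟩
      rw [← xm_inl l l' (σ i), ← xm_inr l l' i, ← k.2, h1, h2]
    rw [Nat.card_of_isEmpty]; rfl

theorem cauchy_ps (n : ℕ) :
    (vandermonde fun i : Fin n => (MvPowerSeries.X (Sum.inl i) : PS n)).det *
      (vandermonde fun i : Fin n => (MvPowerSeries.X (Sum.inr i) : PS n)).det * ∏ s : Fin n × Fin n, geo (em s.1 s.2) =
    (Matrix.of fun i j : Fin n => geo (em i j)).det := by
  classical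
  set x : Fin n → PS n := fun i => MvPowerSeries.X (Sum.inl i) with hx
  set y : Fin n → PS n := fun i => MvPowerSeries.X (Sum.inr i) with hy
  have hxy : ∀ i j, x i * y j = MvPowerSeries.monomial (em i j) (1 : ℤ) := by
    intro i j
    rw [hx, hy]
    simp only [MvPowerSeries.X]
    rw [MvPowerSeries.monomial_mul_monomial, mul_one]
    rfl
  have hgeo : ∀ i j, (1 - x i * y j) * geo (em i j) = 1 := by
    intro i j
    rw [hxy]
    exact geo_mul (em_ne i j)
  -- polynomial identity
  have key : (Matrix.of fun i j : Fin n => ∏ k ∈ ({j}ᶜ : Finset (Fin n)), (1 - x i * y k)).det =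
      (vandermonde x).det * (vandermonde y).det := by
    have hinj : Function.Injective (algebraMap (PS n) (FractionRing (PS n))) := IsFractionRing.injective _ _
    apply hinj
    have := cauchy_field (fun i => algebraMap (PS n) (FractionRing (PS n)) (x i)) (fun i => algebraMap (PS n) (FractionRing (PS n)) (y i))
      (by
        intro i j h
        have := hinj h
        simp only [hy] at this
        have h2 := congrArg (MvPowerSeries.coeff (Finsupp.single (Sum.inr i) 1)) this
        rw [MvPowerSeries.coeff_X, MvPowerSeries.coeff_X, if_pos rfl] at h2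
        by_contra hne
        rw [if_neg] at h2
        · exact one_ne_zero h2
        · intro e
          have := Finsupp.single_left_injective one_ne_zero e
          exact hne (Sum.inr_injective this))
      (by
        intro i h
        rw [map_eq_zero_iff _ hinj] at h
        have h2 := congrArg (MvPowerSeries.coeff (Finsupp.single (Sum.inr i) 1)) h
        simp only [hy] at h2
        rw [MvPowerSeries.coeff_X, if_pos rfl, map_zero] at h2
        exact one_ne_zero h2)
    rw [map_mul, RingHom.map_det, RingHom.map_det, RingHom.map_det]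
    have e1 : (algebraMap (PS n) (FractionRing (PS n))).mapMatrix
        (Matrix.of fun i j : Fin n => ∏ k ∈ ({j}ᶜ : Finset (Fin n)), (1 - x i * y k)) =
        (Matrix.of fun i j : Fin n => ∏ k ∈ ({j}ᶜ : Finset (Fin n)),
          (1 - algebraMap (PS n) (FractionRing (PS n)) (x i) * algebraMap (PS n) (FractionRing (PS n)) (y k))) := by
      ext i j
      rw [RingHom.mapMatrix_apply, Matrix.map_apply, Matrix.of_apply, Matrix.of_apply, map_prod]
      exact Finset.prod_congr rfl fun k _ => by rw [map_sub, map_one, map_mul]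
    have e2 : ∀ z : Fin n → PS n, (algebraMap (PS n) (FractionRing (PS n))).mapMatrix (vandermonde z) =
        vandermonde fun i => algebraMap (PS n) (FractionRing (PS n)) (z i) := by
      intro z
      ext i j
      rw [RingHom.mapMatrix_apply, Matrix.map_apply, Matrix.vandermonde_apply, Matrix.vandermonde_apply, map_pow]
    rw [e1, e2, e2]
    exact this
  have h1 : (∏ i : Fin n, ∏ j : Fin n, (1 - x i * y j)) * (Matrix.of fun i j : Fin n => geo (em i j)).det =
      (Matrix.of fun i j : Fin n => ∏ k ∈ ({j}ᶜ : Finset (Fin n)), (1 - x i * y k)).det := by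
    rw [← Matrix.det_mul_column]
    congr 1
    ext i j : 2
    simp only [Matrix.of_apply]
    rw [← Finset.prod_compl_mul_prod ({j} : Finset (Fin n)), Finset.prod_singleton, mul_assoc, hgeo, mul_one]
  have h2 : (∏ i : Fin n, ∏ j : Fin n, (1 - x i * y j)) * ∏ s : Fin n × Fin n, geo (em s.1 s.2) = 1 := by
    rw [Fintype.prod_prod_type, ← Finset.prod_mul_distrib]
    apply Finset.prod_eq_one
    intro i _
    rw [← Finset.prod_mul_distrib]
    apply Finset.prod_eq_one
    intro j _
    exact hgeo i j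
  rw [← key, ← h1]
  calc _ = ((∏ i : Fin n, ∏ j : Fin n, (1 - x i * y j)) * ∏ s : Fin n × Fin n, geo (em s.1 s.2)) *
        (Matrix.of fun i j : Fin n => geo (em i j)).det := by ring
    _ = _ := by rw [h2, one_mul]

theorem vander_expand (n : ℕ) (f : Fin n → (Fin n ⊕ Fin n)) :
    (vandermonde fun i : Fin n => (MvPowerSeries.X (f i) : PS n)).det =
      ∑ κ : Equiv.Perm (Fin n), ((Equiv.Perm.sign κ : ℤ) : PS n) * ∏ i, (MvPowerSeries.X (f i) : PS n) ^ (κ i).val := by
  rw [← Matrix.det_transpose, Matrix.det_apply']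
  apply Finset.sum_congr rfl
  intro κ _
  congr 1

theorem mono_prod {n : ℕ} (k k' : Fin n → ℕ) :
    (∏ i, (MvPowerSeries.X (Sum.inl i) : PS n) ^ k i) * (∏ i, (MvPowerSeries.X (Sum.inr i) : PS n) ^ k' i) =
      MvPowerSeries.monomial (xm k k') 1 := by
  classical
  have h := MvPowerSeries.monomial_one_eq (R := ℤ) (xm k k')
  rw [h, Finsupp.prod_fintype _ _ (by simp), Fintype.prod_sum_type]
  rfl

theorem main_identity {n : ℕ} (l l' : Fin n → ℕ) :
    ∑ κ : Equiv.Perm (Fin n), ∑ κ' : Equiv.Perm (Fin n), (Equiv.Perm.sign κ : ℤ) * (Equiv.Perm.sign κ' : ℤ) *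
      (if (∀ i, (κ i).val ≤ l i) ∧ (∀ i, (κ' i).val ≤ l' i) then
        (Nat.card (NM (fun i => l i - (κ i).val) (fun i => l' i - (κ' i).val)) : ℤ) else 0) =
    ∑ σ : Equiv.Perm (Fin n), (Equiv.Perm.sign σ : ℤ) * (if (∀ i, l (σ i) = l' i) then (1 : ℤ) else 0) := by
  classical
  have h := congrArg (MvPowerSeries.coeff (xm l l')) (cauchy_ps n)
  rw [vander_expand n Sum.inl, vander_expand n Sum.inr, Matrix.det_apply', map_sum] at h
  have hint : ∀ (z : ℤ) (φ : PS n), MvPowerSeries.coeff (xm l l') ((z : PS n) * φ) = z * MvPowerSeries.coeff (xm l l') φ := by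
    intro z φ
    have : (z : PS n) * φ = z • φ := by rw [zsmul_eq_mul]
    rw [this, map_zsmul, smul_eq_mul]
  rw [Finset.sum_mul_sum, Finset.sum_mul, map_sum] at h
  calc _ = _ := ?_
    _ = _ := h
    _ = _ := ?_
  · apply Finset.sum_congr rfl
    intro κ _
    rw [Finset.sum_mul, map_sum]
    apply Finset.sum_congr rfl
    intro κ' _
    have e : ((Equiv.Perm.sign κ : ℤ) : PS n) * (∏ i, (MvPowerSeries.X (Sum.inl i) : PS n) ^ (κ i).val) *
        (((Equiv.Perm.sign κ' : ℤ) : PS n) * ∏ i, (MvPowerSeries.X (Sum.inr i) : PS n) ^ (κ' i).val) *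
        ∏ s : Fin n × Fin n, geo (em s.1 s.2) =
        (((Equiv.Perm.sign κ : ℤ) * (Equiv.Perm.sign κ' : ℤ) : ℤ) : PS n) *
          (MvPowerSeries.monomial (xm (fun i => (κ i).val) (fun i => (κ' i).val)) 1 * ∏ s : Fin n × Fin n, geo (em s.1 s.2)) := by
      rw [← mono_prod]
      push_cast
      ring
    rw [e, hint, MvPowerSeries.coeff_monomial_mul]
    congr 1
    by_cases hc : (∀ i, (κ i).val ≤ l i) ∧ (∀ i, (κ' i).val ≤ l' i)
    · rw [if_pos hc, if_pos ((xm_le _ _ _ _).mpr hc), xm_sub, coeff_kernel, one_mul]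
    · rw [if_neg hc, if_neg (fun hh => hc ((xm_le _ _ _ _).mp hh))]
  · apply Finset.sum_congr rfl
    intro σ _
    rw [hint]
    congr 1
    exact coeff_perm l l' σ

theorem main_identity' {n : ℕ} (l l' : Fin n → ℕ) (hl : StrictMono l) (hl' : StrictMono l') :
    ∑ κ : Equiv.Perm (Fin n), ∑ κ' : Equiv.Perm (Fin n), (Equiv.Perm.sign κ : ℤ) * (Equiv.Perm.sign κ' : ℤ) *
      (if (∀ i, (κ i).val ≤ l i) ∧ (∀ i, (κ' i).val ≤ l' i) then
        (Nat.card (NM (fun i => l i - (κ i).val) (fun i => l' i - (κ' i).val)) : ℤ) else 0) =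
    if l = l' then 1 else 0 := by
  classical
  rw [main_identity]
  have hσ : ∀ σ : Equiv.Perm (Fin n), (∀ i, l (σ i) = l' i) → σ = 1 := by
    intro σ h
    have h1 : StrictMono σ := by
      intro i j hij
      have := hl' hij
      rw [← h, ← h] at this
      exact hl.lt_iff_lt.mp this
    have h2 : ∀ i, i ≤ σ i := fun i => h1.id_le i
    ext i
    have h3 : ∀ i, σ i ≤ i := by
      have h4 : StrictMono σ.symm := by
        intro i j hij
        have := h1.lt_iff_lt (a := σ.symm i) (b := σ.symm j)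
        rw [Equiv.apply_symm_apply, Equiv.apply_symm_apply] at this
        exact this.mp hij
      intro i
      have := h4.id_le (σ i)
      rw [Equiv.symm_apply_apply] at this
      exact this
    rw [le_antisymm (h3 i) (h2 i)]
    rfl
  by_cases h : l = l'
  · subst h
    rw [if_pos rfl, Finset.sum_eq_single 1]
    · simp
    · intro σ _ hne
      rw [if_neg (fun hh => hne (hσ σ hh)), mul_zero]
    · simp
  · rw [if_neg h]
    apply Finset.sum_eq_zero
    intro σ _
    rw [if_neg, mul_zero]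
    intro hh
    have := hσ σ hh
    subst this
    exact h (funext hh)

end CfsgLib.Unip
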