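import Cfsg.Agent.LibUnipE
import Cfsg.Agent.LibCharBasic3

set_option autoImplicit false

/-! irreducibility and distinctness -/

namespace CfsgLib.Unip

open Finset Cfsg Matrix

open scoped MatrixGroups ComplexConjugate

section

variable {F : Type*} [Field F] [Fintype F] [DecidableEq F] {n : ℕ}

/-- the terms -/
noncomputable def term (F : Type*) [Field F] {n : ℕ} (ν : Fin n → ℕ) (κ : Equiv.Perm (Fin n)) : GL (Fin n) F → ℂ :=
  if ∀ i : Fin n, (κ i).val ≤ ν i + i.val then fixedPointCharacter (parabolicGL n F fun i => ν i + i.val - (κ i).val) else 0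

theorem unip_eq (ν : Fin n → ℕ) :
    unipotentCharacterGL n F ν = ∑ κ : Equiv.Perm (Fin n), ((Equiv.Perm.sign κ : ℤ) : ℂ) • term F ν κ := by
  funext g
  unfold unipotentCharacterGL term
  rw [Finset.sum_apply]
  apply Finset.sum_congr rfl
  intro κ _
  rw [Pi.smul_apply, smul_eq_mul]
  split_ifs with h
  · rfl
  · simp

theorem term_isChar (ν : Fin n → ℕ) (κ : Equiv.Perm (Fin n)) : IsCharacter (GL (Fin n) F) (term F ν κ) := by
  unfold term
  split_ifs with h
  · exact CfsgLib.CharBasic.isCharacter_perm (G := GL (Fin n) F) (X := GL (Fin n) F ⧸ (parabolicGL n F fun i => ν i + i.val - (κ i).val))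
  · exact CfsgLib.CharBasic.isCharacter_zero

theorem inner_term {ν ν' : Fin n → ℕ} (hs : ∑ i, ν i = n) (hs' : ∑ i, ν' i = n) (κ κ' : Equiv.Perm (Fin n)) :
    classInner (term F ν κ) (term F ν' κ') =
      ((if (∀ i, (κ i).val ≤ ν i + i.val) ∧ (∀ i, (κ' i).val ≤ ν' i + i.val) then
        (Nat.card (NM (fun i => ν i + i.val - (κ i).val) (fun i => ν' i + i.val - (κ' i).val)) : ℤ) else 0 : ℤ) : ℂ) := by
  unfold term
  by_cases h : ∀ i, (κ i).val ≤ ν i + i.val
  · by_cases h' : ∀ i, (κ' i).val ≤ ν' i + i.val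
    · rw [if_pos h, if_pos h', if_pos ⟨h, h'⟩]
      have := inner_par (F := F) (sum_sub ν hs κ h) (sum_sub ν' hs' κ' h')
      push_cast
      rw [← this]
      unfold classInner
      congr 1
      apply Finset.sum_congr rfl
      intro g _
      congr 1
      unfold fixedPointCharacter
      exact Complex.conj_natCast _
    · have hn : ¬ ((∀ i : Fin n, (κ i).val ≤ ν i + i.val) ∧ (∀ i : Fin n, (κ' i).val ≤ ν' i + i.val)) := fun hh => h' hh.2
      rw [if_neg h', if_neg hn, CfsgLib.CharBasic.inner_zero_right, Int.cast_zero]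
  · have hn : ¬ ((∀ i : Fin n, (κ i).val ≤ ν i + i.val) ∧ (∀ i : Fin n, (κ' i).val ≤ ν' i + i.val)) := fun hh => h hh.1
    rw [if_neg h, if_neg hn, CfsgLib.CharBasic.inner_zero_left, Int.cast_zero]

theorem inner_unip {ν ν' : Fin n → ℕ} (hm : Monotone ν) (hm' : Monotone ν') (hs : ∑ i, ν i = n) (hs' : ∑ i, ν' i = n) :
    classInner (unipotentCharacterGL n F ν) (unipotentCharacterGL n F ν') = if ν = ν' then 1 else 0 := by
  have hst : ∀ ν : Fin n → ℕ, Monotone ν → StrictMono fun i : Fin n => ν i + i.val := by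
    intro ν h i j hij
    have h1 := h hij.le
    have h2 : i.val < j.val := hij
    show ν i + i.val < ν j + j.val
    omega
  have h := main_identity' (fun i : Fin n => ν i + i.val) (fun i : Fin n => ν' i + i.val) (hst ν hm) (hst ν' hm')
  have hiff : ((fun i : Fin n => ν i + i.val) = fun i : Fin n => ν' i + i.val) ↔ ν = ν' := by
    constructor
    · intro e
      funext i
      exact Nat.add_right_cancel (congrFun e i)
    · rintro rfl; rfl
  rw [unip_eq, unip_eq, CfsgLib.CharBasic.inner_sum_left]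
  have h2 : ((∑ κ : Equiv.Perm (Fin n), ∑ κ' : Equiv.Perm (Fin n), (Equiv.Perm.sign κ : ℤ) * (Equiv.Perm.sign κ' : ℤ) *
      (if (∀ i : Fin n, (κ i).val ≤ ν i + i.val) ∧ (∀ i : Fin n, (κ' i).val ≤ ν' i + i.val) then
        (Nat.card (NM (fun i => ν i + i.val - (κ i).val) (fun i => ν' i + i.val - (κ' i).val)) : ℤ) else 0) : ℤ) : ℂ) =
      if ν = ν' then 1 else 0 := by
    rw [h]
    simp only [hiff]
    split_ifs <;> simp
  rw [← h2, Int.cast_sum]
  apply Finset.sum_congr rfl
  intro κ _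
  rw [Int.cast_sum, CfsgLib.CharBasic.inner_smul_left, CfsgLib.CharBasic.inner_sum_right, Finset.mul_sum]
  apply Finset.sum_congr rfl
  intro κ' _
  rw [CfsgLib.CharBasic.inner_smul_right, inner_term hs hs']
  rw [Int.cast_mul, Int.cast_mul]
  have : conj (((Equiv.Perm.sign κ' : ℤ) : ℂ)) = ((Equiv.Perm.sign κ' : ℤ) : ℂ) := map_intCast (starRingEnd ℂ) _
  rw [this]
  ring

theorem unip_irr (ν : Fin n → ℕ) (hmono : Monotone ν) (hsum : ∑ i, ν i = n) :
    IsIrrCharacter (GL (Fin n) F) (unipotentCharacterGL n F ν) := by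
  have hgen : IsGeneralizedCharacter (GL (Fin n) F) (unipotentCharacterGL n F ν) := by
    rw [unip_eq]
    apply CfsgLib.CharBasic.gen_sum
    intro κ _
    exact CfsgLib.CharBasic.gen_intsmul (CfsgLib.CharBasic.gen_of_char (term_isChar ν κ)) _
  have h1 := inner_unip (F := F) hmono hmono hsum hsum
  rw [if_pos rfl] at h1
  rcases CfsgLib.CharBasic.gen_norm_one hgen h1 with h | h
  · exact h
  · exfalso
    obtain ⟨r, hr, hr'⟩ := degree_pos (F := F) ν hmono hsum
    obtain ⟨m, hm⟩ := CfsgLib.CharBasic.char_one_nat (CfsgLib.CharBasic.irr_isCharacter h)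
    rw [Pi.neg_apply, hr'] at hm
    have : -r = m := by exact_mod_cast hm
    have hm0 : (0 : ℝ) ≤ m := Nat.cast_nonneg _
    linarith

theorem unip_distinct (ν ν' : Fin n → ℕ) (hmono : Monotone ν) (hsum : ∑ i, ν i = n)
    (hmono' : Monotone ν') (hsum' : ∑ i, ν' i = n) (h : unipotentCharacterGL n F ν = unipotentCharacterGL n F ν') : ν = ν' := by
  by_contra hne
  have h1 := inner_unip (F := F) hmono hmono' hsum hsum'
  rw [if_neg hne, ← h, inner_unip hmono hmono hsum hsum, if_pos rfl] at h1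
  exact one_ne_zero h1

end

end CfsgLib.Unip
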