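import Mathlib
import Cfsg.Agent.EqBase
import Cfsg.Prelude.Def_Blocks
import Cfsg.Agent.LibBrb19
import Cfsg.Agent.LibInfl19
import Cfsg.Agent.LibPBker19
import Cfsg.Agent.LibPSolv19

/-!
# Blocks and normal `p`-subgroups (helper19)

* `blockCoeff_off_centralizer`: block idempotents are supported, mod `M`, on `C_G(Q)`, `Q` a normal `p`-subgroup
* `unique_block`: if `C_G(Q)` is a `p`-group then `G` has only one `p`-block
* `psolv_unique`: `p`-solvable with `O_{p'}(G) = 1` has only one block
-/

set_option autoImplicit false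
set_option linter.unusedSectionVars false
set_option linter.style.haveILetI false
set_option linter.unusedSimpArgs false

namespace CfsgLib.Uniq19

open CfsgLib.CharInt hiding irr_isCharacter irr_classFun irr_one_ne_zero schur_scalar
open Cfsg CfsgLib.CharInt2 CfsgLib.CharBasic CfsgLib.BlockR CfsgLib.BlockCore
  CfsgLib.BlockIdem CfsgLib.BlockIdeal CfsgLib.BlockConj CfsgLib.BlockBrauer
open scoped ComplexConjugate Pointwise

universe u

variable {G : Type u} [Group G] [Finite G] {M : Ideal AlgInt} {p : ℕ} [Fact p.Prime]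

/-- the ring of local-integral central elements -/
noncomputable def arRing (hp : M.IsPrime) (G : Type u) [Group G] [Finite G] : Subring (IrrCharacter G → ℂ) where
  carrier := {v | AR M v}
  one_mem' := AR_one hp
  zero_mem' := AR_zero hp
  add_mem' := fun h1 h2 => AR_add hp h1 h2
  mul_mem' := fun h1 h2 => AR_mul hp h1 h2
  neg_mem' := fun h => AR_neg h

theorem pow_congr (hM : IsPModular p M) {x y : IrrCharacter G → ℂ} (hx : AR M x) (hy : AR M y) (n : ℕ) :
    AM M ((x + y) ^ p ^ n - x ^ p ^ n - y ^ p ^ n) := by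
  have hp := isPrime_of_modular hM
  obtain ⟨r, hr⟩ := exists_add_pow_prime_pow_eq (R := arRing hp G) (Fact.out : p.Prime) ⟨x, hx⟩ ⟨y, hy⟩ n
  have h1 : (x + y) ^ p ^ n = x ^ p ^ n + y ^ p ^ n + (p : IrrCharacter G → ℂ) * x * y * (r : IrrCharacter G → ℂ) := by
    have := congrArg (Subtype.val) hr
    simpa using this
  rw [h1]
  have h2 : x ^ p ^ n + y ^ p ^ n + (p : IrrCharacter G → ℂ) * x * y * (r : IrrCharacter G → ℂ) - x ^ p ^ n - y ^ p ^ n =
      (p : ℂ) • (x * y * (r : IrrCharacter G → ℂ)) := by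
    funext χ
    simp only [Pi.sub_apply, Pi.add_apply, Pi.mul_apply, Pi.pow_apply, Pi.smul_apply, smul_eq_mul, Pi.natCast_apply]
    ring
  rw [h2]
  exact AM_smul hp (ideal_p hM) (AR_mul hp (AR_mul hp hx hy) r.2)

theorem fou_pow_supp [Fintype G] (C : Subgroup G) {v : IrrCharacter G → ℂ} (hv : ∀ x, x ∉ C → fou v x = 0) (n : ℕ) :
    ∀ x, x ∉ C → fou (v ^ (n + 1)) x = 0 := by
  induction n with
  | zero => simpa using hv
  | succ n ih =>
    intro x hx
    rw [pow_succ, fou_mul]
    unfold conv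
    apply Finset.sum_eq_zero
    intro y _
    by_cases hy : y ∈ C
    · have : y⁻¹ * x ∉ C := by
        intro h
        apply hx
        have := C.mul_mem hy h
        rwa [mul_inv_cancel_left] at this
      rw [hv _ this, mul_zero]
    · rw [ih y hy, zero_mul]

theorem blockCoeff_off_centralizer (hM : IsPModular p M) {Q : Subgroup G} [Q.Normal] (hQ : IsPGroup p Q)
    {B : Set (IrrCharacter G)} (hB : IsPBlock M B) {x : G} (hx : x ∉ Subgroup.centralizer (Q : Set G)) :
    MemLocalIdeal M (blockCoeff B x) := by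
  classical
  letI := Fintype.ofFinite G
  have hp := isPrime_of_modular hM
  haveI : (Subgroup.centralizer (Q : Set G)).Normal := inferInstance
  set C := Subgroup.centralizer (Q : Set G) with hC
  set a : G → ℂ := fou (ind B) with ha
  have haR : ∀ x, MemLocalRing M (a x) := AR_ind_block hp hB
  have hacf : IsClassFunction G a := fou_classFun _
  set a1 : G → ℂ := fun x => if x ∈ C then a x else 0 with ha1
  set a2 : G → ℂ := fun x => if x ∈ C then 0 else a x with ha2
  have hconj : ∀ x g : G, g * x * g⁻¹ ∈ C ↔ x ∈ C := by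
    intro x g
    constructor
    · intro h
      have := (inferInstance : C.Normal).conj_mem _ h g⁻¹
      simpa [mul_assoc] using this
    · intro h
      exact (inferInstance : C.Normal).conj_mem _ h g
  have ha1cf : IsClassFunction G a1 := by
    intro x g
    simp only [ha1, hconj]
    rw [hacf x g]
  have ha2cf : IsClassFunction G a2 := by
    intro x g
    simp only [ha2, hconj]
    rw [hacf x g]
  have ha1R : ∀ x, MemLocalRing M (a1 x) := by
    intro x
    simp only [ha1]
    split_ifs
    · exact haR x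
    · exact ring_zero hp
  have ha2R : ∀ x, MemLocalRing M (a2 x) := by
    intro x
    simp only [ha2]
    split_ifs
    · exact ring_zero hp
    · exact haR x
  set v1 : IrrCharacter G → ℂ := fun χ => omg (χ : G → ℂ) a1 with hv1
  set v2 : IrrCharacter G → ℂ := fun χ => omg (χ : G → ℂ) a2 with hv2
  have hf1 : fou v1 = a1 := fou_omg ha1cf
  have hf2 : fou v2 = a2 := fou_omg ha2cf
  have hAR1 : AR M v1 := by intro x; rw [hf1]; exact ha1R x
  have hAR2 : AR M v2 := by intro x; rw [hf2]; exact ha2R x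
  have hsum : v1 + v2 = ind B := by
    funext χ
    have h1 : omg (χ : G → ℂ) (a1 + a2) = omg (χ : G → ℂ) a1 + omg (χ : G → ℂ) a2 := omg_add _ _ _
    have h2 : a1 + a2 = a := by
      funext x
      simp only [Pi.add_apply, ha1, ha2]
      split_ifs <;> simp
    rw [h2, ha, omg_fou] at h1
    exact h1.symm
  have hval : ∀ χ, MemLocalIdeal M (v2 χ) := by
    intro χ
    exact omg_off_centralizer hM Q hQ χ ha2cf ha2R (fun x hx => if_pos hx)
  obtain ⟨n, hn, hpow⟩ := exists_pow_AM hp hAR2 hval
  -- choose k with n ≤ p^k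
  obtain ⟨k, hk⟩ : ∃ k : ℕ, n ≤ p ^ k := ⟨n, (Nat.lt_pow_self (Fact.out : p.Prime).one_lt).le⟩
  have h3 : AM M (v2 ^ p ^ k) := by
    obtain ⟨m, hm⟩ := Nat.exists_eq_add_of_le hk
    rw [hm, pow_add]
    exact AM_mul hp hpow (AR_pow hp hAR2 m)
  have h4 := pow_congr hM hAR1 hAR2 k
  have h5 : (v1 + v2) ^ p ^ k = ind B := by
    rw [hsum]
    have h6 : ∀ m : ℕ, (ind B : IrrCharacter G → ℂ) ^ (m + 1) = ind B := by
      intro m
      induction m with
      | zero => simp
      | succ m ih => rw [pow_succ, ih, ind_mul_self]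
    obtain ⟨m, hm⟩ := Nat.exists_eq_succ_of_ne_zero (pow_ne_zero k (Fact.out : p.Prime).ne_zero)
    rw [hm]; exact h6 m
  rw [h5] at h4
  have h7 := AM_add hp h4 h3
  have h8 : (ind B : IrrCharacter G → ℂ) - v1 ^ p ^ k - v2 ^ p ^ k + v2 ^ p ^ k = ind B - v1 ^ p ^ k := by ring
  rw [h8] at h7
  have h9 := h7 x
  rw [fou_sub] at h9
  have h10 : fou (v1 ^ p ^ k) x = 0 := by
    obtain ⟨m, hm⟩ := Nat.exists_eq_succ_of_ne_zero (pow_ne_zero k (Fact.out : p.Prime).ne_zero)
    rw [hm]
    apply fou_pow_supp C _ m x hx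
    intro y hy
    rw [hf1]
    exact if_neg hy
  rw [h10, sub_zero] at h9
  rw [blockCoeff_eq_fou]
  exact h9

theorem unique_block (hM : IsPModular p M) {Q : Subgroup G} [Q.Normal] (hQ : IsPGroup p Q)
    (hC : IsPGroup p (Subgroup.centralizer (Q : Set G))) (χ ψ : IrrCharacter G) :
    SameBlock M (χ : G → ℂ) (ψ : G → ℂ) := by
  classical
  letI := Fintype.ofFinite G
  have hp := isPrime_of_modular hM
  have key : ∀ B : Set (IrrCharacter G), IsPBlock M B → AM M (ind B - (blockCoeff B 1) • (1 : IrrCharacter G → ℂ)) := by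
    intro B hB x
    rw [fou_sub, fou_smul, fou_one, cInd_one_apply, ← blockCoeff_eq_fou]
    by_cases hx1 : x = 1
    · subst hx1
      rw [if_pos rfl, mul_one, sub_self]
      exact ideal_zero hp
    · rw [if_neg hx1, mul_zero, sub_zero]
      by_cases hxC : x ∈ Subgroup.centralizer (Q : Set G)
      · have h1 : p ∣ orderOf x := by
          obtain ⟨k, hk⟩ := IsPGroup.iff_orderOf.1 hC ⟨x, hxC⟩
          rw [Subgroup.orderOf_mk] at hk
          rw [hk]
          apply dvd_pow_self p
          rintro rfl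
          rw [pow_zero, orderOf_eq_one_iff] at hk
          exact hx1 hk
        rw [CfsgLib.BlockOrth.blockCoeff_eq_zero hM hB h1]
        exact ideal_zero hp
      · exact blockCoeff_off_centralizer hM hQ hB hxC
  by_contra hcon
  set B := blockOf M (χ : G → ℂ) with hBdef
  set B' := blockOf M (ψ : G → ℂ) with hB'def
  have hB : IsPBlock M B := ⟨χ, rfl⟩
  have hB' : IsPBlock M B' := ⟨ψ, rfl⟩
  have hχB : χ ∈ B := mem_blockOf_self hp χ
  have hψB : ψ ∈ B' := mem_blockOf_self hp ψ
  have hψnB : ψ ∉ B := hcon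
  have h1 := AM_val hp (key B hB) χ
  have h2 := AM_val hp (key B hB) ψ
  simp only [Pi.sub_apply, Pi.smul_apply, Pi.one_apply, smul_eq_mul, mul_one] at h1 h2
  rw [ind_of hχB] at h1
  rw [ind_not hψnB, zero_sub] at h2
  have h3 := ideal_sub hp h1 h2
  have h4 : (1 : ℂ) - blockCoeff B 1 - -blockCoeff B 1 = 1 := by ring
  rw [h4] at h3
  have h5 : MemLocalIdeal M ((1 : ℕ) : ℂ) := by simpa using h3
  rw [ideal_nat_iff hM] at h5
  exact (Fact.out : p.Prime).ne_one (Nat.dvd_one.1 h5)

theorem psolv_unique (hM : IsPModular p M) (hs : IsPSolvable p G) (hcore : pPrimeCore p G = ⊥) (χ ψ : IrrCharacter G) :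
    SameBlock M (χ : G → ℂ) (ψ : G → ℂ) := by
  haveI : (pCore p G).Normal := inferInstance
  have h1 := CfsgLib.PSolv19.hall_higman hs hcore
  exact unique_block hM (CfsgLib.Cores.pCore_isPGroup p) ((CfsgLib.Cores.pCore_isPGroup p).to_le h1) χ ψ

end CfsgLib.Uniq19
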