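import Cfsg.Agent.LibOS29e

set_option autoImplicit false

/-! Unitary groups over the quadratic extension inside orthogonal groups. -/

namespace CfsgLib.Uo29

open scoped MatrixGroups Matrix
open Cfsg CfsgLib.MaxTv29 CfsgLib.OM29 Cfsg.Agent.H22 Module CfsgLib.OS29

variable {ι : Type} [Fintype ι] [DecidableEq ι] {F : Type*} [Field F] {Q : QuadraticForm F (ι → F)}

local notation "B" => QuadraticMap.polar Q

theorem rich_list [Finite F] (hQ : (QuadraticMap.polarBilin Q).Nondegenerate) (L : List (ι → F)) (h : 2 * L.length + 3 ≤ Fintype.card ι) (C : Submodule F (ι → F))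
    (hC : ∀ x, Q x = 0 → (∀ v ∈ L, B v x = 0) → x ∈ C) : ∀ x, (∀ v ∈ L, B v x = 0) → x ∈ C := by
  obtain ⟨e, hQe, he, heL⟩ := pick hQ L L (by omega)
  obtain ⟨z, hz, hez⟩ := orth_func hQ _ e heL
  intro x hx
  exact rich_of (Y := orth Q (Submodule.span F {x | x ∈ L})) (mem_orth_list.mpr he) hQe hz hez C (fun y hy hQy => hC y hQy (mem_orth_list.mp hy)) (mem_orth_list.mpr hx)

theorem rich_avoid [Finite F] (hQ : (QuadraticMap.polarBilin Q).Nondegenerate) (L : List (ι → F)) (A : Submodule F (ι → F)) {a : ℕ} (hA : finrank F A ≤ a)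
    (h : 2 * L.length + 3 ≤ Fintype.card ι) (h' : L.length + a + 4 ≤ Fintype.card ι) (C : Submodule F (ι → F))
    (hC : ∀ x, Q x = 0 → (∀ v ∈ L, B v x = 0) → x ∉ A → x ∈ C) : ∀ x, (∀ v ∈ L, B v x = 0) → x ∈ C := by
  apply rich_list hQ L h
  intro x hQx hx
  by_cases hxA : x ∈ A
  · obtain ⟨y, hQy, hy, hyA⟩ := pickA hQ (x :: L) A hA (by simp only [List.length_cons]; omega)
    have hyL : ∀ v ∈ L, B v y = 0 := fun v hv => hy v (List.mem_cons_of_mem _ hv)
    have hxy : B x y = 0 := hy x (List.mem_cons_self)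
    have h1 := hC y hQy hyL hyA
    have h2 := hC (x + y) (by rw [qadd, hQx, hQy, hxy]; ring) (fun v hv => by rw [QuadraticMap.polar_add_right, hx v hv, hyL v hv, add_zero])
      (fun h => hyA ((A.add_mem_iff_right hxA).mp h))
    exact (C.add_mem_iff_left h1).mp h2
  · exact hC x hQx hx hxA

theorem sing_ne_list [Finite F] (hQ : (QuadraticMap.polarBilin Q).Nondegenerate) (L : List (ι → F)) (h : 2 * L.length + 3 ≤ Fintype.card ι) {p : ι → F}
    (hp : p ∉ Submodule.span F {x | x ∈ L}) : ∃ z, Q z = 0 ∧ (∀ v ∈ L, B v z = 0) ∧ B p z ≠ 0 := by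
  by_contra hcon
  push Not at hcon
  obtain ⟨s, hs, hps⟩ := orth_func hQ _ p hp
  apply hps
  exact mem_orth_span.mp (rich_list hQ L h (orth Q (Submodule.span F {p})) (fun x hQx hx => mem_orth_span.mpr (hcon x hQx hx)) s (mem_orth_list.mp hs))

theorem sing_ne_avoid [Finite F] (hQ : (QuadraticMap.polarBilin Q).Nondegenerate) (L : List (ι → F)) (A : Submodule F (ι → F)) {a : ℕ} (hA : finrank F A ≤ a)
    (h : 2 * L.length + 3 ≤ Fintype.card ι) (h' : L.length + a + 4 ≤ Fintype.card ι) {p : ι → F}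
    (hp : p ∉ Submodule.span F {x | x ∈ L}) : ∃ z, Q z = 0 ∧ (∀ v ∈ L, B v z = 0) ∧ B p z ≠ 0 ∧ z ∉ A := by
  by_contra hcon
  push Not at hcon
  obtain ⟨s, hs, hps⟩ := orth_func hQ _ p hp
  apply hps
  refine mem_orth_span.mp (rich_avoid hQ L A hA h h' (orth Q (Submodule.span F {p})) (fun x hQx hx hxA => mem_orth_span.mpr ?_) s (mem_orth_list.mp hs))
  by_contra hpx
  exact hxA (hcon x hQx hx hpx)

theorem pick2 [Finite F] (hQ : (QuadraticMap.polarBilin Q).Nondegenerate) (L : List (ι → F)) (h : 2 * L.length + 5 ≤ Fintype.card ι) {p q : ι → F}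
    (hp : p ∉ Submodule.span F {x | x ∈ L}) (hq : q ∉ Submodule.span F {x | x ∈ L}) : ∃ z, Q z = 0 ∧ (∀ v ∈ L, B v z = 0) ∧ B p z ≠ 0 ∧ B q z ≠ 0 := by
  obtain ⟨y, hQy, hy, hqy, hyA⟩ := sing_ne_avoid hQ L (Submodule.span F {x | x ∈ p :: L}) (CfsgLib.SympTv29.finrank_span_list_le (p :: L)) (by omega)
    (by simp only [List.length_cons]; omega) hq
  by_cases hpy : B p y = 0
  · have hp' : p ∉ Submodule.span F {x | x ∈ y :: L} := by
      intro hmem
      have e1 : {x | x ∈ y :: L} = insert y {x | x ∈ L} := by ext x; simp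
      rw [e1, Submodule.mem_span_insert] at hmem
      obtain ⟨c, z, hz, hcz⟩ := hmem
      by_cases hc : c = 0
      · rw [hc, zero_smul, zero_add] at hcz
        exact hp (hcz ▸ hz)
      · apply hyA
        have e2 : {x | x ∈ p :: L} = insert p {x | x ∈ L} := by ext x; simp
        rw [e2, Submodule.mem_span_insert]
        refine ⟨c⁻¹, (-c⁻¹) • z, Submodule.smul_mem _ _ hz, ?_⟩
        rw [hcz, smul_add, smul_smul, inv_mul_cancel₀ hc]; module
    obtain ⟨z, hQz, hz, hpz⟩ := sing_ne_list hQ (y :: L) (by simp only [List.length_cons]; omega) hp'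
    have hyz : B y z = 0 := hz y List.mem_cons_self
    have hzL : ∀ v ∈ L, B v z = 0 := fun v hv => hz v (List.mem_cons_of_mem _ hv)
    by_cases hqz : B q z = 0
    · refine ⟨z + y, by rw [qadd, hQz, hQy, bsymm z y, hyz]; ring, fun v hv => by rw [QuadraticMap.polar_add_right, hzL v hv, hy v hv, add_zero], ?_, ?_⟩
      · rw [QuadraticMap.polar_add_right, hpy, add_zero]; exact hpz
      · rw [QuadraticMap.polar_add_right, hqz, zero_add]; exact hqy
    · exact ⟨z, hQz, hzL, hpz, hqz⟩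
  · exact ⟨y, hQy, hy, hpy, hqy⟩

/-- the K-line of a vector -/
def Kl (W : Matrix ι ι F) (x : ι → F) : Submodule F (ι → F) := Submodule.span F {x, W *ᵥ x}

/-- the quadratic extension and an overgroup of the unitary transvections -/
structure Uo (Q : QuadraticForm F (ι → F)) (W : Matrix ι ι F) (τ ν : F) (M : Subgroup (GL ι F)) : Prop where
  hQ : (QuadraticMap.polarBilin Q).Nondegenerate
  h13 : 13 ≤ Fintype.card ι
  hsq : ∀ x, W *ᵥ (W *ᵥ x) = τ • (W *ᵥ x) - ν • x
  hQW : ∀ x, Q (W *ᵥ x) = ν * Q x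
  hadj : ∀ x y, QuadraticMap.polar Q (W *ᵥ x) y = QuadraticMap.polar Q x (τ • y - W *ᵥ y)
  hself : ∀ x, Q x = 0 → QuadraticMap.polar Q x (W *ᵥ x) = 0
  heig : ∀ x, x ≠ 0 → W *ᵥ x ∉ Submodule.span F {x}
  hMi : M ≤ Cfsg.isometryGroup F ⇑Q
  hM : ∀ x, Q x = 0 → ∀ c : F, EM Q x (c • (W *ᵥ x)) ∈ M

theorem mem_Kl {W : Matrix ι ι F} {x y : ι → F} : y ∈ Kl W x ↔ ∃ a b : F, a • x + b • (W *ᵥ x) = y := Submodule.mem_span_pair

theorem self_mem_Kl (W : Matrix ι ι F) (x : ι → F) : x ∈ Kl W x := mem_pair_left _ _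

theorem W_mem_Kl (W : Matrix ι ι F) (x : ι → F) : W *ᵥ x ∈ Kl W x := mem_pair_right _ _

/-- the good vectors for the root element -/
def AA (Q : QuadraticForm F (ι → F)) (M : Subgroup (GL ι F)) (a : ι → F) (ha : Q a = 0) : Submodule F (ι → F) where
  carrier := {w | QuadraticMap.polar Q a w = 0 ∧ ∀ c : F, EM Q a (c • w) ∈ M}
  add_mem' := by
    rintro w w' ⟨h1, h2⟩ ⟨h3, h4⟩
    refine ⟨by rw [QuadraticMap.polar_add_right, h1, h3, add_zero], fun c => ?_⟩
    rw [smul_add, EM_add ha (by rw [QuadraticMap.polar_smul_right, h1, smul_zero]) (by rw [QuadraticMap.polar_smul_right, h3, smul_zero])]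
    exact M.mul_mem (h2 c) (h4 c)
  zero_mem' := ⟨QuadraticMap.polar_zero_right Q _, fun c => by rw [smul_zero, EM_zero ha]; exact M.one_mem⟩
  smul_mem' := by
    rintro k w ⟨h1, h2⟩
    exact ⟨by rw [QuadraticMap.polar_smul_right, h1, smul_zero], fun c => by rw [smul_smul]; exact h2 _⟩

theorem mem_AA {M : Subgroup (GL ι F)} {a : ι → F} {ha : Q a = 0} {w : ι → F} : w ∈ AA Q M a ha ↔ B a w = 0 ∧ ∀ c : F, EM Q a (c • w) ∈ M := Iff.rfl

/-- moving inside `AA` -/
theorem AA_move {M : Subgroup (GL ι F)} {a : ι → F} (ha : Q a = 0) {g : GL ι F} (hg : g ∈ M) (hgi : g ∈ Cfsg.isometryGroup F ⇑Q) (hga : (g : Matrix ι ι F) *ᵥ a = a)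
    {w : ι → F} (hw : w ∈ AA Q M a ha) : (g : Matrix ι ι F) *ᵥ w ∈ AA Q M a ha := by
  refine ⟨by rw [← hw.1, ← isoQ_polar hgi a w, hga], fun c => ?_⟩
  have h1 : B a (c • w) = 0 := by rw [QuadraticMap.polar_smul_right, hw.1, smul_zero]
  have h2 := EM_conj hgi ha h1
  rw [hga, Matrix.mulVec_smul] at h2
  rw [← h2]
  exact M.mul_mem (M.mul_mem hg (hw.2 c)) (M.inv_mem hg)

namespace Uo

variable {W : Matrix ι ι F} {τ ν : F} {M : Subgroup (GL ι F)} (D : Uo Q W τ ν M)

include D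

theorem W_stab {x y : ι → F} (h : y ∈ Kl W x) : W *ᵥ y ∈ Kl W x := by
  obtain ⟨a, b, rfl⟩ := mem_Kl.mp h
  rw [Matrix.mulVec_add, Matrix.mulVec_smul, Matrix.mulVec_smul, D.hsq]
  exact mem_Kl.mpr ⟨-(b * ν), a + b * τ, by module⟩

theorem Kl_symm {x y : ι → F} (h : y ∈ Kl W x) (hy : y ≠ 0) : x ∈ Kl W y := by
  obtain ⟨a, b, hab⟩ := mem_Kl.mp h
  have h1 : (a + b * τ) • y - b • (W *ᵥ y) = (a * a + a * b * τ + b * b * ν) • x := by
    rw [← hab, Matrix.mulVec_add, Matrix.mulVec_smul, Matrix.mulVec_smul, D.hsq]; module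
  by_cases hN : a * a + a * b * τ + b * b * ν = 0
  · exfalso
    rw [hN, zero_smul, sub_eq_zero] at h1
    by_cases hb : b = 0
    · rw [hb, zero_smul, zero_mul, add_zero] at h1
      rcases smul_eq_zero.mp h1 with h2 | h2
      · rw [h2, hb, zero_smul, zero_smul, add_zero] at hab
        exact hy hab.symm
      · exact hy h2
    · apply D.heig y hy
      rw [Submodule.mem_span_singleton]
      refine ⟨b⁻¹ * (a + b * τ), ?_⟩
      rw [← smul_smul, h1, smul_smul, inv_mul_cancel₀ hb, one_smul]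
  · have h2 : x = (a * a + a * b * τ + b * b * ν)⁻¹ • ((a + b * τ) • y - b • (W *ᵥ y)) := by
      rw [h1, smul_smul, inv_mul_cancel₀ hN, one_smul]
    have hmem : (a * a + a * b * τ + b * b * ν)⁻¹ • ((a + b * τ) • y - b • (W *ᵥ y)) ∈ Kl W y :=
      Submodule.smul_mem _ _ (Submodule.sub_mem _ (Submodule.smul_mem _ _ (self_mem_Kl W y)) (Submodule.smul_mem _ _ (W_mem_Kl W y)))
    rw [← h2] at hmem
    exact hmem

/-- adjoints of orthogonal vectors -/
theorem adj {x y : ι → F} (h : B x y = 0) : B (W *ᵥ x) y = - B x (W *ᵥ y) := by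
  rw [D.hadj, QuadraticMap.polar_sub_right, QuadraticMap.polar_smul_right, h, smul_zero, zero_sub]

theorem qW {x : ι → F} (h : Q x = 0) : Q (W *ᵥ x) = 0 := by rw [D.hQW, h, mul_zero]

theorem stable_mem {Z : Submodule F (ι → F)} (hZ : ∀ z ∈ Z, W *ᵥ z ∈ Z) {x : ι → F} (hx : x ≠ 0) {c : F} (h : W *ᵥ x - c • x ∈ Z) : x ∈ Z := by
  have h1 : W *ᵥ x - c • x ∈ Kl W x := Submodule.sub_mem _ (W_mem_Kl W x) (Submodule.smul_mem _ _ (self_mem_Kl W x))
  have h2 : W *ᵥ x - c • x ≠ 0 := by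
    intro h0
    apply D.heig x hx
    rw [sub_eq_zero.mp h0]
    exact Submodule.smul_mem _ _ (Submodule.mem_span_singleton_self x)
  have h3 := D.Kl_symm h1 h2
  have h4 : Kl W (W *ᵥ x - c • x) ≤ Z := by
    unfold Kl
    rw [Submodule.span_le]
    rintro z (rfl | rfl)
    · exact h
    · exact hZ _ h
  exact h4 h3

theorem list4_stable (a b : ι → F) : ∀ z ∈ Submodule.span F {y | y ∈ [a, W *ᵥ a, b, W *ᵥ b]}, W *ᵥ z ∈ Submodule.span F {y | y ∈ [a, W *ᵥ a, b, W *ᵥ b]} := by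
  intro z hz
  induction hz using Submodule.span_induction with
  | mem d hd =>
    have hd' : d ∈ [a, W *ᵥ a, b, W *ᵥ b] := hd
    simp only [List.mem_cons, List.not_mem_nil, or_false] at hd'
    have m : ∀ y ∈ [a, W *ᵥ a, b, W *ᵥ b], y ∈ Submodule.span F {y | y ∈ [a, W *ᵥ a, b, W *ᵥ b]} := fun y hy => Submodule.subset_span hy
    rcases hd' with rfl | rfl | rfl | rfl
    · exact m _ (by simp)
    · rw [D.hsq]; exact Submodule.sub_mem _ (Submodule.smul_mem _ _ (m _ (by simp))) (Submodule.smul_mem _ _ (m _ (by simp)))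
    · exact m _ (by simp)
    · rw [D.hsq]; exact Submodule.sub_mem _ (Submodule.smul_mem _ _ (m _ (by simp))) (Submodule.smul_mem _ _ (m _ (by simp)))
  | zero => rw [Matrix.mulVec_zero]; exact zero_mem _
  | add x y _ _ hx hy => rw [Matrix.mulVec_add]; exact Submodule.add_mem _ hx hy
  | smul c x _ hx => rw [Matrix.mulVec_smul]; exact Submodule.smul_mem _ _ hx

/-- step A1 -/
theorem a1 {a : ι → F} (ha : Q a = 0) {b x : ι → F} (hb : b ∈ AA Q M a ha) (hQx : Q x = 0) (hax : B a x = 0) (hWa : B (W *ᵥ a) x = 0) (hxb : B x b = 0) (hWx : B (W *ᵥ x) b ≠ 0) :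
    x ∈ AA Q M a ha := by
  have hxa : B x a = 0 := by rw [bsymm]; exact hax
  have hWxa : B (W *ᵥ x) a = 0 := by rw [D.adj hxa, bsymm x, hWa, neg_zero]
  have hxWx := D.hself x hQx
  have hg := D.hM x hQx 1
  rw [one_smul] at hg
  have hga : ((EM Q x (W *ᵥ x) : GL ι F) : Matrix ι ι F) *ᵥ a = a := by
    rw [EM_mulVec hQx hxWx, hxa, hWxa]; simp
  have h1 := AA_move ha hg (EM_iso _ _) hga hb
  have h2 : ((EM Q x (W *ᵥ x) : GL ι F) : Matrix ι ι F) *ᵥ b = b + (-B (W *ᵥ x) b) • x := by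
    rw [EM_mulVec hQx hxWx, hxb]; module
  rw [h2] at h1
  exact ((AA Q M a ha).smul_mem_iff (neg_ne_zero.mpr hWx)).mp (((AA Q M a ha).add_mem_iff_right hb).mp h1)

/-- the hermitian complement -/
def Good (_ : Uo Q W τ ν M) (a : ι → F) : Prop := ∃ ha : Q a = 0, ∀ x, B a x = 0 → B (W *ᵥ a) x = 0 → x ∈ AA Q M a ha

theorem a3 [Finite F] {a b : ι → F} (ha : Q a = 0) (hQb : Q b = 0) (ha0 : a ≠ 0) (hb : b ∈ AA Q M a ha) (hbK : b ∉ Kl W a) : D.Good a := by
  refine ⟨ha, ?_⟩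
  have hb0 : b ≠ 0 := by rintro rfl; exact hbK (Submodule.zero_mem _)
  have key := rich_avoid D.hQ [a, W *ᵥ a] (Submodule.span F {x | x ∈ [a, W *ᵥ a, b, W *ᵥ b]}) (CfsgLib.SympTv29.finrank_span_list_le [a, W *ᵥ a, b, W *ᵥ b])
    (by have := D.h13; simp only [List.length_cons, List.length_nil]; omega) (by have := D.h13; simp only [List.length_cons, List.length_nil]; omega) (AA Q M a ha) ?_
  · intro x hax hWax
    apply key
    intro v hv
    simp only [List.mem_cons, List.not_mem_nil, or_false] at hv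
    rcases hv with rfl | rfl
    · exact hax
    · exact hWax
  · intro x hQx hxL hxA
    have hax : B a x = 0 := hxL a (by simp)
    have hWax : B (W *ᵥ a) x = 0 := hxL _ (by simp)
    -- independence
    have i1 : W *ᵥ b ∉ Submodule.span F {y | y ∈ [a, W *ᵥ a, b, x]} := by
      intro h
      have e1 : {y | y ∈ [a, W *ᵥ a, b, x]} = {a, W *ᵥ a, b, x} := by ext y; simp
      rw [e1] at h
      simp only [Submodule.mem_span_insert, Submodule.mem_span_singleton] at h
      obtain ⟨α, _, ⟨β, _, ⟨γ, _, ⟨δ, rfl⟩, rfl⟩, rfl⟩, h⟩ := h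
      by_cases hδ : δ = 0
      · apply hbK
        apply D.stable_mem (Z := Kl W a) (fun z hz => D.W_stab hz) hb0 (c := γ)
        rw [h, hδ]
        exact mem_Kl.mpr ⟨α, β, by module⟩
      · apply hxA
        have h2 : x = δ⁻¹ • (W *ᵥ b - α • a - β • (W *ᵥ a) - γ • b) := by
          have : W *ᵥ b - α • a - β • (W *ᵥ a) - γ • b = δ • x := by rw [h]; module
          rw [this, smul_smul, inv_mul_cancel₀ hδ, one_smul]
        rw [h2]
        have m : ∀ y ∈ [a, W *ᵥ a, b, W *ᵥ b], y ∈ Submodule.span F {y | y ∈ [a, W *ᵥ a, b, W *ᵥ b]} := fun y hy => Submodule.subset_span hy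
        exact Submodule.smul_mem _ _ (Submodule.sub_mem _ (Submodule.sub_mem _ (Submodule.sub_mem _ (m _ (by simp)) (Submodule.smul_mem _ _ (m _ (by simp))))
          (Submodule.smul_mem _ _ (m _ (by simp)))) (Submodule.smul_mem _ _ (m _ (by simp))))
    have i2 : W *ᵥ x ∉ Submodule.span F {y | y ∈ [a, W *ᵥ a, b, x]} := by
      intro h
      have e1 : {y | y ∈ [a, W *ᵥ a, b, x]} = {a, W *ᵥ a, b, x} := by ext y; simp
      rw [e1] at h
      simp only [Submodule.mem_span_insert, Submodule.mem_span_singleton] at h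
      obtain ⟨α, _, ⟨β, _, ⟨γ, _, ⟨δ, rfl⟩, rfl⟩, rfl⟩, h⟩ := h
      apply hxA
      have hx0 : x ≠ 0 := by rintro rfl; exact hxA (Submodule.zero_mem _)
      have m : ∀ y ∈ [a, W *ᵥ a, b, W *ᵥ b], y ∈ Submodule.span F {y | y ∈ [a, W *ᵥ a, b, W *ᵥ b]} := fun y hy => Submodule.subset_span hy
      apply D.stable_mem (D.list4_stable a b) hx0 (c := δ)
      have : W *ᵥ x - δ • x = α • a + β • (W *ᵥ a) + γ • b := by
        rw [sub_eq_iff_eq_add]
        exact h.trans (by module)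
      rw [this]
      exact Submodule.add_mem _ (Submodule.add_mem _ (Submodule.smul_mem _ _ (m _ (by simp))) (Submodule.smul_mem _ _ (m _ (by simp)))) (Submodule.smul_mem _ _ (m _ (by simp)))
    obtain ⟨z, hQz, hz, hbz, hxz⟩ := pick2 D.hQ [a, W *ᵥ a, b, x] (by have := D.h13; simp only [List.length_cons, List.length_nil]; omega) i1 i2
    have haz : B a z = 0 := hz a (by simp)
    have hWaz : B (W *ᵥ a) z = 0 := hz _ (by simp)
    have hbz0 : B b z = 0 := hz b (by simp)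
    have hxz0 : B x z = 0 := hz x (by simp)
    have hzA := D.a1 ha hb hQz haz hWaz (by rw [bsymm]; exact hbz0) (by
      rw [D.adj (by rw [bsymm]; exact hbz0), bsymm z]; exact neg_ne_zero.mpr hbz)
    exact D.a1 ha hzA hQx hax hWax hxz0 hxz

theorem a4 [Finite F] {a w : ι → F} (hG : D.Good a) (hw : Q w = 0) (ha0 : a ≠ 0) (haw : B a w = 0) (hWaw : B (W *ᵥ a) w = 0) (hwK : w ∉ Kl W a) : D.Good w := by
  obtain ⟨ha, hG⟩ := hG
  have hw0 : w ≠ 0 := by rintro rfl; exact hwK (Submodule.zero_mem _)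
  have hwa : B w a = 0 := by rw [bsymm]; exact haw
  have h1 : a ∈ AA Q M w hw := by
    refine ⟨hwa, fun c => ?_⟩
    have hQca : Q (c • a) = 0 := by rw [qsmul, ha, mul_zero]
    have h2 : B w (c • a) = 0 := by rw [QuadraticMap.polar_smul_right, hwa, smul_zero]
    rw [EM_swap hw hQca h2, EM_smul_left ha haw]
    exact M.inv_mem ((hG w haw hWaw).2 c)
  exact D.a3 hw ha hw0 h1 (fun h => hwK (D.Kl_symm h ha0))

theorem a5 [Finite F] {a : ι → F} (ha0 : a ≠ 0) (hG : D.Good a) {w : ι → F} (hw : Q w = 0) (hw0 : w ≠ 0) : D.Good w := by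
  obtain ⟨z, hQz, hz, hzA⟩ := pick D.hQ [a, W *ᵥ a, w, W *ᵥ w] [a, W *ᵥ a, w, W *ᵥ w] (by have := D.h13; simp only [List.length_cons, List.length_nil]; omega)
  have hz0 : z ≠ 0 := by rintro rfl; exact hzA (Submodule.zero_mem _)
  have haz : B a z = 0 := hz a (by simp)
  have hWaz : B (W *ᵥ a) z = 0 := hz _ (by simp)
  have hwz : B w z = 0 := hz w (by simp)
  have hWwz : B (W *ᵥ w) z = 0 := hz _ (by simp)
  have hle : ∀ u ∈ [a, w], Kl W u ≤ Submodule.span F {y | y ∈ [a, W *ᵥ a, w, W *ᵥ w]} := by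
    intro u hu
    have m : ∀ y ∈ [a, W *ᵥ a, w, W *ᵥ w], y ∈ Submodule.span F {y | y ∈ [a, W *ᵥ a, w, W *ᵥ w]} := fun y hy => Submodule.subset_span hy
    unfold Kl
    rw [Submodule.span_le]
    simp only [List.mem_cons, List.not_mem_nil, or_false] at hu
    rcases hu with rfl | rfl
    · rintro y (rfl | rfl)
      · exact m _ (by simp)
      · exact m _ (by simp)
    · rintro y (rfl | rfl)
      · exact m _ (by simp)
      · exact m _ (by simp)
  have h1 := D.a4 hG hQz ha0 haz hWaz (fun h => hzA (hle a (by simp) h))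
  have hzw : B z w = 0 := by rw [bsymm]; exact hwz
  refine D.a4 h1 hw hz0 hzw ?_ (fun h => hzA (hle w (by simp) (D.Kl_symm h hw0)))
  rw [D.adj hzw, bsymm z, hWwz, neg_zero]

/-- every singular vector is full -/
theorem full [Finite F] (hall : ∀ w : ι → F, Q w = 0 → w ≠ 0 → D.Good w) {a : ι → F} (ha : Q a = 0) (ha0 : a ≠ 0) : Full Q M a := by
  refine ⟨ha, ?_⟩
  have h13 := D.h13
  obtain ⟨ha', hGa⟩ := hall a ha ha0
  obtain ⟨b, hQb, hb, hWab⟩ := sing_ne_list D.hQ [a] (p := W *ᵥ a) (by simp only [List.length_cons, List.length_nil]; omega) (by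
    rw [span_list_single]; exact D.heig a ha0)
  have hab : B a b = 0 := hb a (by simp)
  have hb0 : b ≠ 0 := by rintro rfl; rw [QuadraticMap.polar_zero_right] at hWab; exact hWab rfl
  obtain ⟨c, hQc, hc, hcA⟩ := pick D.hQ [b, W *ᵥ b, a] [a, W *ᵥ a, b] (by simp only [List.length_cons, List.length_nil]; omega)
  have hbc : B b c = 0 := hc b (by simp)
  have hWbc : B (W *ᵥ b) c = 0 := hc _ (by simp)
  have hac : B a c = 0 := hc a (by simp)
  obtain ⟨hb', hGb⟩ := hall b hQb hb0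
  have hEM := (hGb c hbc hWbc).2 1
  rw [one_smul] at hEM
  have hga : ((EM Q b c : GL ι F) : Matrix ι ι F) *ᵥ a = a := by
    rw [EM_mulVec hQb hbc, bsymm b a, hab, bsymm c a, hac]; simp
  obtain ⟨w, hw, hcw⟩ := orth_func D.hQ _ c hcA
  have hwL := mem_orth_list.mp hw
  have haw : B a w = 0 := hwL a (by simp)
  have hWaw : B (W *ᵥ a) w = 0 := hwL _ (by simp)
  have hbw : B b w = 0 := hwL b (by simp)
  have h1 := AA_move ha hEM (EM_iso _ _) hga (hGa w haw hWaw)
  have h2 : ((EM Q b c : GL ι F) : Matrix ι ι F) *ᵥ w = w + (-B c w) • b := by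
    rw [EM_mulVec hQb hbc, hbw]; module
  rw [h2] at h1
  have hbA : b ∈ AA Q M a ha := ((AA Q M a ha).smul_mem_iff (neg_ne_zero.mpr hcw)).mp (((AA Q M a ha).add_mem_iff_right (hGa w haw hWaw)).mp h1)
  intro x hax
  have h3 : x + (-(B (W *ᵥ a) x / B (W *ᵥ a) b)) • b ∈ AA Q M a ha := by
    apply hGa
    · rw [QuadraticMap.polar_add_right, QuadraticMap.polar_smul_right, hax, hab]; simp
    · rw [QuadraticMap.polar_add_right, QuadraticMap.polar_smul_right, smul_eq_mul]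
      have := div_mul_cancel₀ (B (W *ᵥ a) x) hWab
      linear_combination -this
  have h4 := (((AA Q M a ha).add_mem_iff_left ((AA Q M a ha).smul_mem _ hbA)).mp h3).2 1
  rwa [one_smul] at h4

theorem top [Finite F] {a b : ι → F} (ha : Q a = 0) (hQb : Q b = 0) (ha0 : a ≠ 0) (hb : b ∈ AA Q M a ha) (hbK : b ∉ Kl W a) : Geo.omegaGL ⇑Q ≤ M := by
  haveI : Fintype F := Fintype.ofFinite F
  have h5 : 5 ≤ finrank F (ι → F) := by have := D.h13; rw [Module.finrank_fintype_fun_eq_card]; omega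
  obtain ⟨e, f, e', f', u', hs⟩ := exists_HS D.hQ h5
  apply full_top D.hQ hs h5
  intro v hv
  by_cases hv0 : v = 0
  · rw [hv0]
    refine ⟨QuadraticMap.map_zero Q, fun w _ => ?_⟩
    have : EM Q 0 w = 1 := by
      apply gl_ext
      intro x
      rw [EM_mulVec (QuadraticMap.map_zero Q) (QuadraticMap.polar_zero_left Q w)]
      simp
    rw [this]; exact M.one_mem
  · exact D.full (fun w hw hw0 => D.a5 ha0 (D.a3 ha hQb ha0 hb hbK) hw hw0) hv hv0

/-- elements mapping singular K-lines to K-lines are semilinear -/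
theorem scalar [Finite F] (φ : Matrix ι ι F) (h : ∀ y, Q y = 0 → φ *ᵥ y ∈ Kl W y) : ∃ α β : F, ∀ x, φ *ᵥ x = α • x + β • (W *ᵥ x) := by
  have h13 := D.h13
  choose! α β hab using fun (y : ι → F) (hy : Q y = 0) => mem_Kl.mp (h y hy)
  have key : ∀ y z, Q y = 0 → Q z = 0 → y ≠ 0 → z ≠ 0 → B y z = 0 → z ∉ Kl W y → α y = α z ∧ β y = β z := by
    intro y z hy hz hy0 hz0 hyz hzK
    have hs : Q (y + z) = 0 := by rw [qadd, hy, hz, hyz]; ring
    have h1 := hab (y + z) hs
    rw [Matrix.mulVec_add φ, ← hab y hy, ← hab z hz, Matrix.mulVec_add] at h1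
    obtain ⟨a, ha⟩ : ∃ a, a = α (y + z) := ⟨_, rfl⟩
    obtain ⟨b, hb⟩ : ∃ b, b = β (y + z) := ⟨_, rfl⟩
    rw [← ha, ← hb] at h1
    have h2 : (α y - a) • y + (β y - b) • (W *ᵥ y) = (a - α z) • z + (b - β z) • (W *ᵥ z) := by
      have h3 : (a • (y + z) + b • (W *ᵥ y + W *ᵥ z)) - (α y • y + β y • (W *ᵥ y) + (α z • z + β z • (W *ᵥ z))) = 0 := sub_eq_zero.mpr h1
      rw [← sub_eq_zero]
      have h4 : (α y - a) • y + (β y - b) • (W *ᵥ y) - ((a - α z) • z + (b - β z) • (W *ᵥ z)) = -((a • (y + z) + b • (W *ᵥ y + W *ᵥ z)) - (α y • y + β y • (W *ᵥ y) + (α z • z + β z • (W *ᵥ z)))) := by module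
      rw [h4, h3, neg_zero]
    have hz2 : (a - α z) • z + (b - β z) • (W *ᵥ z) ∈ Kl W z := mem_Kl.mpr ⟨_, _, rfl⟩
    have hy2 : (a - α z) • z + (b - β z) • (W *ᵥ z) ∈ Kl W y := by rw [← h2]; exact mem_Kl.mpr ⟨_, _, rfl⟩
    have h0 : (a - α z) • z + (b - β z) • (W *ᵥ z) = 0 := by
      by_contra hne
      have h5 := D.Kl_symm hz2 hne
      obtain ⟨c, d, hcd⟩ := mem_Kl.mp h5
      apply hzK
      rw [← hcd]
      exact Submodule.add_mem _ (Submodule.smul_mem _ _ hy2) (Submodule.smul_mem _ _ (D.W_stab hy2))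
    have h0' : (α y - a) • y + (β y - b) • (W *ᵥ y) = 0 := by rw [h2, h0]
    have sep : ∀ (u : ι → F) (c d : F), u ≠ 0 → c • u + d • (W *ᵥ u) = 0 → c = 0 ∧ d = 0 := by
      intro u c d hu hcd
      have hd : d = 0 := by
        by_contra hd
        apply D.heig u hu
        rw [Submodule.mem_span_singleton]
        refine ⟨-(d⁻¹ * c), ?_⟩
        have : d • (W *ᵥ u) = -(c • u) := eq_neg_of_add_eq_zero_right hcd
        have h6 : W *ᵥ u = d⁻¹ • (-(c • u)) := by rw [← this, smul_smul, inv_mul_cancel₀ hd, one_smul]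
        rw [h6]; module
      rw [hd, zero_smul, add_zero] at hcd
      exact ⟨(smul_eq_zero.mp hcd).resolve_right hu, hd⟩
    obtain ⟨s1, s2⟩ := sep z _ _ hz0 h0
    obtain ⟨s3, s4⟩ := sep y _ _ hy0 h0'
    exact ⟨by linear_combination s3 + s1, by linear_combination s4 + s2⟩
  have key2 : ∀ y z, Q y = 0 → Q z = 0 → y ≠ 0 → z ≠ 0 → α y = α z ∧ β y = β z := by
    intro y z hy hz hy0 hz0
    obtain ⟨u, hQu, hu, huA⟩ := pick D.hQ [y, z] [y, W *ᵥ y, z, W *ᵥ z] (by simp only [List.length_cons, List.length_nil]; omega)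
    have hu0 : u ≠ 0 := by rintro rfl; exact huA (Submodule.zero_mem _)
    have m : ∀ x ∈ [y, W *ᵥ y, z, W *ᵥ z], x ∈ Submodule.span F {x | x ∈ [y, W *ᵥ y, z, W *ᵥ z]} := fun x hx => Submodule.subset_span hx
    have k1 := key y u hy hQu hy0 hu0 (hu y (by simp)) (fun h => huA (by
      obtain ⟨c, d, hcd⟩ := mem_Kl.mp h
      rw [← hcd]
      exact Submodule.add_mem _ (Submodule.smul_mem _ _ (m _ (by simp))) (Submodule.smul_mem _ _ (m _ (by simp)))))
    have k2 := key z u hz hQu hz0 hu0 (hu z (by simp)) (fun h => huA (by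
      obtain ⟨c, d, hcd⟩ := mem_Kl.mp h
      rw [← hcd]
      exact Submodule.add_mem _ (Submodule.smul_mem _ _ (m _ (by simp))) (Submodule.smul_mem _ _ (m _ (by simp)))))
    exact ⟨k1.1.trans k2.1.symm, k1.2.trans k2.2.symm⟩
  obtain ⟨y, hQy, _, hy0'⟩ := pick D.hQ [] [] (by simp only [List.length_nil]; omega)
  have hy0 : y ≠ 0 := by rintro rfl; exact hy0' (Submodule.zero_mem _)
  refine ⟨α y, β y, ?_⟩
  let C : Submodule F (ι → F) :=
    { carrier := {x | φ *ᵥ x = α y • x + β y • (W *ᵥ x)}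
      add_mem' := by
        intro x x' hx hx'
        change φ *ᵥ (x + x') = _
        rw [Matrix.mulVec_add, hx, hx', Matrix.mulVec_add]; module
      zero_mem' := by
        change φ *ᵥ (0 : ι → F) = _
        simp
      smul_mem' := by
        intro c x hx
        change φ *ᵥ (c • x) = _
        rw [Matrix.mulVec_smul, hx, Matrix.mulVec_smul]; module }
  have hC := rich_list D.hQ [] (by simp only [List.length_nil]; omega) C (fun x hQx _ => by
    by_cases hx0 : x = 0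
    · rw [hx0]; exact C.zero_mem
    · obtain ⟨k1, k2⟩ := key2 y x hQy hQx hy0 hx0
      change φ *ᵥ x = _
      rw [← hab x hQx, k1, k2])
  exact fun x => hC x (by simp)

end Uo

end CfsgLib.Uo29
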