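import Cfsg.Agent.LibUo29

set_option autoImplicit false

/-! Unitary groups over the quadratic extension inside orthogonal groups: maximality. -/

namespace CfsgLib.Uo29

open scoped MatrixGroups Matrix
open Cfsg CfsgLib.MaxTv29 CfsgLib.OM29 Cfsg.Agent.H22 Module CfsgLib.OS29

variable {ι : Type} [Fintype ι] [DecidableEq ι] {F : Type*} [Field F] {Q : QuadraticForm F (ι → F)}

local notation "B" => QuadraticMap.polar Q

theorem mat_ext {A A' : Matrix ι ι F} (h : ∀ x, A *ᵥ x = A' *ᵥ x) : A = A' := Matrix.mulVec_injective (funext h)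

/-- a generator of a quadratic field subalgebra -/
theorem exists_gen {K : Subalgebra F (Matrix ι ι F)} (hK : Geo.IsFieldSubalgebra 2 K) [Nonempty ι] : ∃ W ∈ K, (∀ k ∈ K, ∃ α β : F, k = α • (1 : Matrix ι ι F) + β • W) ∧
    (∀ α : F, W ≠ α • (1 : Matrix ι ι F)) := by
  have h1 : (1 : K) ≠ 0 := by
    intro h
    have h2 : (1 : Matrix ι ι F) = 0 := congrArg Subtype.val h
    exact one_ne_zero h2
  haveI : FiniteDimensional F K := Module.finite_of_finrank_pos (by rw [hK.finrank_eq]; norm_num)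
  obtain ⟨w, hw⟩ : ∃ w : K, w ∉ Submodule.span F {(1 : K)} := by
    by_contra hcon
    push Not at hcon
    have h3 : Submodule.span F {(1 : K)} = ⊤ := by rw [eq_top_iff]; exact fun x _ => hcon x
    have h4 := finrank_span_singleton (K := F) h1
    rw [h3, finrank_top, hK.finrank_eq] at h4
    norm_num at h4
  have h2 : Submodule.span F {(1 : K), w} = ⊤ := by
    apply Submodule.eq_top_of_finrank_eq
    have h3 : Submodule.span F {(1 : K)} < Submodule.span F {(1 : K), w} := by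
      refine lt_of_le_of_ne (Submodule.span_mono (by simp)) ?_
      intro h
      apply hw
      rw [h]
      exact Submodule.subset_span (by simp)
    have h4 := Submodule.finrank_lt_finrank_of_lt h3
    rw [finrank_span_singleton h1] at h4
    have h5 := Submodule.finrank_le (Submodule.span F {(1 : K), w})
    rw [hK.finrank_eq] at h5 ⊢
    omega
  refine ⟨w, w.2, fun k hk => ?_, fun α h => ?_⟩
  · have h3 : (⟨k, hk⟩ : K) ∈ Submodule.span F {(1 : K), w} := by rw [h2]; exact Submodule.mem_top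
    obtain ⟨α, β, hab⟩ := Submodule.mem_span_pair.mp h3
    exact ⟨α, β, (congrArg Subtype.val hab).symm⟩
  · apply hw
    rw [Submodule.mem_span_singleton]
    exact ⟨α, Subtype.ext h.symm⟩

theorem eig_free {K : Subalgebra F (Matrix ι ι F)} {r : ℕ} (hK : Geo.IsFieldSubalgebra r K) {k : Matrix ι ι F} (hk : k ∈ K) {x : ι → F} (hx : x ≠ 0) (h : k *ᵥ x = 0) : k = 0 := by
  by_contra hne
  obtain ⟨y, hy, hxy⟩ := hK.inv k hk hne
  rw [hK.comm k hk y hy] at hxy
  apply hx
  have : (y * k) *ᵥ x = x := by rw [hxy, Matrix.one_mulVec]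
  rw [← this, ← Matrix.mulVec_mulVec, h, Matrix.mulVec_zero]

theorem uo_maximal [Finite F] (hQ : (QuadraticMap.polarBilin Q).Nondegenerate) (h13 : 13 ≤ Fintype.card ι) (K : Subalgebra F (Matrix ι ι F)) (hK : Geo.IsFieldSubalgebra 2 K)
    (hac : Geo.IsAdjointClosedFor (QuadraticMap.polar ⇑Q) K) (hnsa : ¬ Geo.IsSelfAdjointFor (QuadraticMap.polar ⇑Q) K)
    (hsc : ∀ k ∈ K, ∃ c : F, ∀ v : ι → F, Q (k *ᵥ v) = c * Q v) :
    Geo.IsMaximalIn (Geo.omegaGL ⇑Q) (Geo.subalgebraNormalizer K ⊓ Geo.omegaGL ⇑Q) := by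
  haveI : Fintype F := Fintype.ofFinite F
  haveI : Nonempty ι := Fintype.card_pos_iff.mp (by omega)
  obtain ⟨W, hW, hgen, hns⟩ := exists_gen hK
  -- the quadratic relation
  obtain ⟨ν', τ, hsq'⟩ := hgen _ (K.mul_mem hW hW)
  obtain ⟨ν, hν⟩ : ∃ ν, ν = -ν' := ⟨_, rfl⟩
  have hsq : ∀ x, W *ᵥ (W *ᵥ x) = τ • (W *ᵥ x) - ν • x := by
    intro x
    rw [Matrix.mulVec_mulVec, hsq', Matrix.add_mulVec, Matrix.smul_mulVec, Matrix.smul_mulVec, Matrix.one_mulVec, hν]; module
  have heig : ∀ x, x ≠ 0 → W *ᵥ x ∉ Submodule.span F {x} := by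
    intro x hx h
    obtain ⟨c, hc⟩ := Submodule.mem_span_singleton.mp h
    have h1 : (W - c • (1 : Matrix ι ι F)) *ᵥ x = 0 := by
      rw [Matrix.sub_mulVec, Matrix.smul_mulVec, Matrix.one_mulVec, hc, sub_self]
    have h2 := eig_free hK (K.sub_mem hW (K.smul_mem (K.one_mem) c)) hx h1
    exact hns c (sub_eq_zero.mp h2)
  -- adjoint
  obtain ⟨W', hW', hadj'⟩ := hac W hW
  obtain ⟨c, hc⟩ := hsc W hW
  have hndg : ∀ x : ι → F, (∀ y, B y x = 0) → x = 0 := by
    intro x h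
    apply hQ.1 x
    intro y
    change B x y = 0
    rw [bsymm]; exact h y
  have hW'ne : W' ≠ W := by
    intro h
    apply hnsa
    intro k hk u v
    obtain ⟨α, β, rfl⟩ := hgen k hk
    simp only [Matrix.add_mulVec, Matrix.smul_mulVec, Matrix.one_mulVec, QuadraticMap.polar_add_left, QuadraticMap.polar_add_right, QuadraticMap.polar_smul_left, QuadraticMap.polar_smul_right]
    rw [hadj', h]
  have hsqW' : ∀ x, W' *ᵥ (W' *ᵥ x) = τ • (W' *ᵥ x) - ν • x := by
    intro x
    rw [← sub_eq_zero]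
    apply hndg
    intro y
    rw [QuadraticMap.polar_sub_right, ← hadj', ← hadj', hsq, QuadraticMap.polar_sub_right, QuadraticMap.polar_sub_left, QuadraticMap.polar_smul_left, QuadraticMap.polar_smul_left,
      QuadraticMap.polar_smul_right, QuadraticMap.polar_smul_right, hadj', sub_self]
  have hW'eq : W' = τ • (1 : Matrix ι ι F) - W := by
    by_contra hne
    have h1 : W' - W ∈ K := K.sub_mem hW' hW
    have h2 : W' - (τ • (1 : Matrix ι ι F) - W) ∈ K := K.sub_mem hW' (K.sub_mem (K.smul_mem K.one_mem τ) hW)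
    obtain ⟨y, hy, hxy⟩ := hK.inv _ h1 (sub_ne_zero.mpr hW'ne)
    have h3 : (W' - W) * (W' - (τ • (1 : Matrix ι ι F) - W)) = 0 := by
      have e1 : W' * W' = τ • W' - ν • (1 : Matrix ι ι F) := mat_ext fun x => by
        rw [← Matrix.mulVec_mulVec, hsqW', Matrix.sub_mulVec, Matrix.smul_mulVec, Matrix.smul_mulVec, Matrix.one_mulVec]
      have e2 : W * W = τ • W - ν • (1 : Matrix ι ι F) := mat_ext fun x => by
        rw [← Matrix.mulVec_mulVec, hsq, Matrix.sub_mulVec, Matrix.smul_mulVec, Matrix.smul_mulVec, Matrix.one_mulVec]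
      have e3 := hK.comm W' hW' W hW
      have e4 : (W' - W) * (W' - (τ • (1 : Matrix ι ι F) - W)) = W' * W' - τ • W' + W' * W - W * W' + τ • W - W * W := by
        simp only [sub_mul, mul_sub, Matrix.mul_smul, mul_one]; abel
      rw [e4, e1, e2, e3]; abel
    have h4 := hK.comm _ h1 y hy
    have h5 : W' - (τ • (1 : Matrix ι ι F) - W) = 0 := by
      calc W' - (τ • (1 : Matrix ι ι F) - W) = (y * (W' - W)) * (W' - (τ • (1 : Matrix ι ι F) - W)) := by rw [← h4, hxy, one_mul]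
        _ = 0 := by rw [mul_assoc, h3, mul_zero]
    exact hne (sub_eq_zero.mp h5)
  have hadj : ∀ x y, B (W *ᵥ x) y = B x (τ • y - W *ᵥ y) := by
    intro x y
    rw [hadj', hW'eq, Matrix.sub_mulVec, Matrix.smul_mulVec, Matrix.one_mulVec]
  have hcν : c = ν := by
    have h1 : ∀ x y, B (W *ᵥ x) (W *ᵥ y) = c * B x y := by
      intro x y
      unfold QuadraticMap.polar
      rw [← Matrix.mulVec_add, hc, hc, hc]; ring
    obtain ⟨x, hx⟩ : ∃ x : ι → F, x ≠ 0 := exists_ne 0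
    obtain ⟨y, hxy⟩ : ∃ y, B x y ≠ 0 := by
      by_contra hcon
      push Not at hcon
      exact hx (hndg x fun y => by rw [bsymm]; exact hcon y)
    have h2 := h1 x y
    rw [hadj, hsq] at h2
    have e1 : τ • W *ᵥ y - (τ • W *ᵥ y - ν • y) = ν • y := by abel
    rw [e1, QuadraticMap.polar_smul_right, smul_eq_mul] at h2
    exact (mul_right_cancel₀ hxy h2).symm
  have hQW : ∀ x, Q (W *ᵥ x) = ν * Q x := by
    intro x; rw [hc, hcν]
  have hself : ∀ x, Q x = 0 → B x (W *ᵥ x) = 0 := by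
    intro x hx
    obtain ⟨d, hd⟩ := hsc _ (K.add_mem K.one_mem hW)
    have h1 := hd x
    rw [Matrix.add_mulVec, Matrix.one_mulVec, qadd, hx, hQW, hx] at h1
    linear_combination h1
  -- membership in the normaliser
  have hcomm_norm : ∀ g : GL ι F, (∀ x, (g : Matrix ι ι F) *ᵥ (W *ᵥ x) = W *ᵥ ((g : Matrix ι ι F) *ᵥ x)) → g ∈ Geo.subalgebraNormalizer K := by
    intro g hg k
    have h1 : (g : Matrix ι ι F) * W = W * (g : Matrix ι ι F) := mat_ext fun x => by
      rw [← Matrix.mulVec_mulVec, ← Matrix.mulVec_mulVec, hg]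
    have hgg : (g : Matrix ι ι F) * ((g⁻¹ : GL ι F) : Matrix ι ι F) = 1 := by rw [← Units.val_mul, mul_inv_cancel, Units.val_one]
    have hgg' : ((g⁻¹ : GL ι F) : Matrix ι ι F) * (g : Matrix ι ι F) = 1 := by rw [← Units.val_mul, inv_mul_cancel, Units.val_one]
    have h2 : ∀ k ∈ K, (g : Matrix ι ι F) * k * ((g⁻¹ : GL ι F) : Matrix ι ι F) = k := by
      intro k hk
      obtain ⟨α, β, rfl⟩ := hgen k hk
      rw [mul_add, Matrix.mul_smul, Matrix.mul_smul, mul_one, h1, add_mul, Matrix.smul_mul, Matrix.smul_mul, mul_assoc, hgg, mul_one]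
    constructor
    · intro hk; rw [h2 k hk]; exact hk
    · intro hk
      have h3 := h2 _ hk
      have h4 : k = (g : Matrix ι ι F) * k * ((g⁻¹ : GL ι F) : Matrix ι ι F) := by
        have h5 : ((g⁻¹ : GL ι F) : Matrix ι ι F) * ((g : Matrix ι ι F) * ((g : Matrix ι ι F) * k * ((g⁻¹ : GL ι F) : Matrix ι ι F)) * ((g⁻¹ : GL ι F) : Matrix ι ι F)) * (g : Matrix ι ι F) =
          ((g⁻¹ : GL ι F) : Matrix ι ι F) * ((g : Matrix ι ι F) * k * ((g⁻¹ : GL ι F) : Matrix ι ι F)) * (g : Matrix ι ι F) := by rw [h3]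
        have h6 : ((g⁻¹ : GL ι F) : Matrix ι ι F) * ((g : Matrix ι ι F) * ((g : Matrix ι ι F) * k * ((g⁻¹ : GL ι F) : Matrix ι ι F)) * ((g⁻¹ : GL ι F) : Matrix ι ι F)) * (g : Matrix ι ι F) =
          (g : Matrix ι ι F) * k * ((g⁻¹ : GL ι F) : Matrix ι ι F) := by
          calc _ = (((g⁻¹ : GL ι F) : Matrix ι ι F) * (g : Matrix ι ι F)) * ((g : Matrix ι ι F) * k * ((g⁻¹ : GL ι F) : Matrix ι ι F)) * (((g⁻¹ : GL ι F) : Matrix ι ι F) * (g : Matrix ι ι F)) := by
                simp only [mul_assoc]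
            _ = _ := by rw [hgg', one_mul, mul_one]
        have h7 : ((g⁻¹ : GL ι F) : Matrix ι ι F) * ((g : Matrix ι ι F) * k * ((g⁻¹ : GL ι F) : Matrix ι ι F)) * (g : Matrix ι ι F) = k := by
          calc _ = (((g⁻¹ : GL ι F) : Matrix ι ι F) * (g : Matrix ι ι F)) * k * (((g⁻¹ : GL ι F) : Matrix ι ι F) * (g : Matrix ι ι F)) := by
                simp only [mul_assoc]
            _ = _ := by rw [hgg', one_mul, mul_one]
        rw [h6, h7] at h5
        exact h5.symm
      rw [h4]; exact hk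
  have h5 : 5 ≤ finrank F (ι → F) := by rw [Module.finrank_fintype_fun_eq_card]; omega
  obtain ⟨e, f, e', f', u', hs⟩ := exists_HS hQ h5
  have hEMΩ : ∀ v w, Q v = 0 → B v w = 0 → EM Q v w ∈ Geo.omegaGL ⇑Q := fun v w hv hw => EM_omega hQ hs h5 hv hw
  have hHM : ∀ x, Q x = 0 → ∀ c : F, EM Q x (c • (W *ᵥ x)) ∈ Geo.subalgebraNormalizer K ⊓ Geo.omegaGL ⇑Q := by
    intro x hx c
    have h1 : B x (c • (W *ᵥ x)) = 0 := by rw [QuadraticMap.polar_smul_right, hself x hx, smul_zero]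
    refine ⟨hcomm_norm _ fun y => ?_, hEMΩ _ _ hx h1⟩
    have hQc : Q (c • (W *ᵥ x)) = 0 := by rw [qsmul, hQW, hx]; ring
    have e1 : B (W *ᵥ x) (W *ᵥ y) = ν * B x y := by
      rw [hadj, hsq, show τ • W *ᵥ y - (τ • W *ᵥ y - ν • y) = ν • y by abel, QuadraticMap.polar_smul_right, smul_eq_mul]
    have e2 : B x (W *ᵥ y) = τ * B x y - B (W *ᵥ x) y := by
      rw [hadj, QuadraticMap.polar_sub_right, QuadraticMap.polar_smul_right, smul_eq_mul]; ring
    rw [EM_mulVec hx h1, EM_mulVec hx h1, hQc]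
    simp only [QuadraticMap.polar_smul_left, smul_eq_mul, e1, e2, Matrix.mulVec_add, Matrix.mulVec_sub, Matrix.mulVec_smul, hsq]
    module
  have mkD : ∀ M : Subgroup (GL ι F), Geo.subalgebraNormalizer K ⊓ Geo.omegaGL ⇑Q ≤ M → M ≤ Geo.omegaGL ⇑Q → Uo Q W τ ν M := fun M hHM' hMS =>
    ⟨hQ, h13, hsq, hQW, hadj, hself, heig, hMS.trans omegaGL_le_iso, fun x hx c => hHM' (hHM x hx c)⟩
  refine ⟨lt_of_le_of_ne inf_le_right ?_, fun M hHM' hMS => ?_⟩
  · intro heq
    have D := mkD (Geo.omegaGL ⇑Q) inf_le_right le_rfl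
    obtain ⟨a, hQa, _, ha0'⟩ := pick hQ [] [] (by simp only [List.length_nil]; omega)
    have ha0 : a ≠ 0 := by rintro rfl; exact ha0' (Submodule.zero_mem _)
    obtain ⟨b, hQb, hb, hbA⟩ := pick hQ [a] [a, W *ᵥ a] (by simp only [List.length_cons, List.length_nil]; omega)
    have hab : B a b = 0 := hb a (by simp)
    have hbK : b ∉ Kl W a := by
      intro h
      apply hbA
      have e1 : {x | x ∈ [a, W *ᵥ a]} = {a, W *ᵥ a} := by ext x; simp
      rw [e1]; exact h
    have hb0 : b ≠ 0 := by rintro rfl; exact hbK (Submodule.zero_mem _)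
    have hg := hEMΩ a b hQa hab
    rw [← heq] at hg
    have h1 := (hg.1 W).mp hW
    obtain ⟨α, β, hαβ⟩ := hgen _ h1
    have h2 : ∀ x, ((EM Q a b : GL ι F) : Matrix ι ι F) *ᵥ (W *ᵥ x) = α • (((EM Q a b : GL ι F) : Matrix ι ι F) *ᵥ x) + β • (W *ᵥ (((EM Q a b : GL ι F) : Matrix ι ι F) *ᵥ x)) := by
      intro x
      have h3 : ((EM Q a b : GL ι F) : Matrix ι ι F) * W = (α • (1 : Matrix ι ι F) + β • W) * ((EM Q a b : GL ι F) : Matrix ι ι F) := by
        rw [← hαβ, mul_assoc, ← Units.val_mul, inv_mul_cancel, Units.val_one, mul_one]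
      rw [Matrix.mulVec_mulVec, h3, ← Matrix.mulVec_mulVec, Matrix.add_mulVec, Matrix.smul_mulVec, Matrix.smul_mulVec, Matrix.one_mulVec]
    have hE : ∀ x, ((EM Q a b : GL ι F) : Matrix ι ι F) *ᵥ x = x + B a x • b - B b x • a := by
      intro x
      rw [EM_mulVec hQa hab, hQb]; simp
    -- a vector orthogonal to everything
    obtain ⟨x, hQx, hx, hx0'⟩ := pick hQ [a, b, W *ᵥ a, W *ᵥ b] [] (by simp only [List.length_cons, List.length_nil]; omega)
    have hx0 : x ≠ 0 := by rintro rfl; exact hx0' (Submodule.zero_mem _)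
    have x1 : B a x = 0 := hx a (by simp)
    have x2 : B b x = 0 := hx b (by simp)
    have x3 : B a (W *ᵥ x) = 0 := by
      have := D.adj x1
      rw [hx (W *ᵥ a) (by simp)] at this
      linear_combination this
    have x4 : B b (W *ᵥ x) = 0 := by
      have := D.adj x2
      rw [hx (W *ᵥ b) (by simp)] at this
      linear_combination this
    have h3 := h2 x
    rw [hE, hE, x1, x2, x3, x4] at h3
    simp only [zero_smul, add_zero, sub_zero] at h3
    -- `W x = α x + β W x`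
    have h4 : (1 - β) • (W *ᵥ x) = α • x := by
      have : (1 - β) • (W *ᵥ x) = W *ᵥ x - β • (W *ᵥ x) := by module
      rw [this, sub_eq_iff_eq_add]; exact h3
    have hβ : β = 1 := by
      by_contra hne
      apply heig x hx0
      rw [Submodule.mem_span_singleton]
      refine ⟨(1 - β)⁻¹ * α, ?_⟩
      rw [← smul_smul, ← h4, smul_smul, inv_mul_cancel₀ (sub_ne_zero.mpr (Ne.symm hne)), one_smul]
    have hα : α = 0 := by
      rw [hβ, sub_self, zero_smul] at h4
      exact (smul_eq_zero.mp h4.symm).resolve_right hx0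
    -- a partner of `a`
    obtain ⟨y, hy, hay⟩ := orth_func hQ (Submodule.span F {b}) a (fun h => hbK (by
      obtain ⟨c, hc⟩ := Submodule.mem_span_singleton.mp h
      have hc0 : c ≠ 0 := by rintro rfl; rw [zero_smul] at hc; exact ha0 hc.symm
      have : b = c⁻¹ • a := by rw [← hc, smul_smul, inv_mul_cancel₀ hc0, one_smul]
      rw [this]; exact Submodule.smul_mem _ _ (self_mem_Kl W a)))
    have hby : B b y = 0 := mem_orth_span.mp hy
    have h6 := h2 y
    rw [hα, hβ, zero_smul, zero_add, one_smul, hE, hE, hby, zero_smul, sub_zero, Matrix.mulVec_add, Matrix.mulVec_smul] at h6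
    apply hbK
    have h7 : B a y • (W *ᵥ b) = B a (W *ᵥ y) • b - B b (W *ᵥ y) • a := by
      have h8 : W *ᵥ y + B a (W *ᵥ y) • b - B b (W *ᵥ y) • a - W *ᵥ y = W *ᵥ y + B a y • (W *ᵥ b) - W *ᵥ y := by rw [h6]
      have h9 : W *ᵥ y + B a y • (W *ᵥ b) - W *ᵥ y = B a y • (W *ᵥ b) := by abel
      rw [← h9, ← h8]; abel
    apply D.stable_mem (Z := Kl W a) (fun z hz => D.W_stab hz) hb0 (c := (B a y)⁻¹ * B a (W *ᵥ y))
    have h10 : W *ᵥ b - ((B a y)⁻¹ * B a (W *ᵥ y)) • b = (-((B a y)⁻¹ * B b (W *ᵥ y))) • a := by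
      have h11 : W *ᵥ b = (B a y)⁻¹ • (B a (W *ᵥ y) • b - B b (W *ᵥ y) • a) := by
        rw [← h7, smul_smul, inv_mul_cancel₀ hay, one_smul]
      rw [h11, smul_sub, smul_smul, smul_smul]; module
    rw [h10]
    exact Submodule.smul_mem _ _ (self_mem_Kl W a)
  · by_cases hbad : Geo.omegaGL ⇑Q ≤ M
    · exact Or.inr (le_antisymm hMS hbad)
    left
    refine le_antisymm (le_inf ?_ hMS) hHM'
    have D := mkD M hHM' hMS
    intro g hg
    have hgi : g ∈ Cfsg.isometryGroup F ⇑Q := omegaGL_le_iso (hMS hg)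
    -- every element maps singular lines to singular lines
    have hline : ∀ g ∈ M, ∀ x, Q x = 0 → (g : Matrix ι ι F) *ᵥ (W *ᵥ x) ∈ Kl W ((g : Matrix ι ι F) *ᵥ x) := by
      intro g hg x hx
      have hgi : g ∈ Cfsg.isometryGroup F ⇑Q := omegaGL_le_iso (hMS hg)
      by_contra hne
      apply hbad
      have hx0 : x ≠ 0 := by rintro rfl; simp at hne
      have hgx : Q ((g : Matrix ι ι F) *ᵥ x) = 0 := by rw [(mem_isoQ g).mp hgi]; exact hx
      refine D.top hgx (b := (g : Matrix ι ι F) *ᵥ (W *ᵥ x)) (by rw [(mem_isoQ g).mp hgi, hQW, hx, mul_zero]) ?_ ?_ hne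
      · intro h
        exact hx0 (mulVec_injective g (by simp only [h, Matrix.mulVec_zero]))
      · refine ⟨by rw [isoQ_polar hgi]; exact hself x hx, fun c => ?_⟩
        have h1 : B x (c • (W *ᵥ x)) = 0 := by rw [QuadraticMap.polar_smul_right, hself x hx, smul_zero]
        have h2 := EM_conj hgi hx h1
        rw [Matrix.mulVec_smul] at h2
        rw [← h2]
        exact M.mul_mem (M.mul_mem hg (D.hM x hx c)) (M.inv_mem hg)
    have hconj : ∀ g ∈ M, ∀ k ∈ K, (g : Matrix ι ι F) * k * ((g⁻¹ : GL ι F) : Matrix ι ι F) ∈ K := by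
      intro g hg k hk
      have hgi : g ∈ Cfsg.isometryGroup F ⇑Q := omegaGL_le_iso (hMS hg)
      have hgii := (Cfsg.isometryGroup F ⇑Q).inv_mem hgi
      obtain ⟨α, β, hφ⟩ := D.scalar ((g : Matrix ι ι F) * W * ((g⁻¹ : GL ι F) : Matrix ι ι F)) (by
        intro y hy
        have h1 := hline g hg (((g⁻¹ : GL ι F) : Matrix ι ι F) *ᵥ y) (by rw [(mem_isoQ _).mp hgii]; exact hy)
        rw [mulVec_inv_mulVec] at h1
        rw [← Matrix.mulVec_mulVec, ← Matrix.mulVec_mulVec]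
        exact h1)
      have h2 : (g : Matrix ι ι F) * W * ((g⁻¹ : GL ι F) : Matrix ι ι F) = α • (1 : Matrix ι ι F) + β • W := mat_ext fun x => by
        rw [hφ, Matrix.add_mulVec, Matrix.smul_mulVec, Matrix.smul_mulVec, Matrix.one_mulVec]
      obtain ⟨γ, δ, rfl⟩ := hgen k hk
      have h3 : (g : Matrix ι ι F) * (γ • (1 : Matrix ι ι F) + δ • W) * ((g⁻¹ : GL ι F) : Matrix ι ι F) = γ • (1 : Matrix ι ι F) + δ • (α • (1 : Matrix ι ι F) + β • W) := by
        rw [mul_add, Matrix.mul_smul, Matrix.mul_smul, mul_one, add_mul, Matrix.smul_mul, Matrix.smul_mul, ← Units.val_mul, mul_inv_cancel, Units.val_one, h2]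
      rw [h3]
      exact K.add_mem (K.smul_mem K.one_mem _) (K.smul_mem (K.add_mem (K.smul_mem K.one_mem _) (K.smul_mem hW _)) _)
    intro k
    refine ⟨hconj g hg k, fun h => ?_⟩
    have h1 := hconj g⁻¹ (M.inv_mem hg) _ h
    rw [inv_inv] at h1
    have h2 : ((g⁻¹ : GL ι F) : Matrix ι ι F) * ((g : Matrix ι ι F) * k * ((g⁻¹ : GL ι F) : Matrix ι ι F)) * (g : Matrix ι ι F) = k := by
      calc _ = (((g⁻¹ : GL ι F) : Matrix ι ι F) * (g : Matrix ι ι F)) * k * (((g⁻¹ : GL ι F) : Matrix ι ι F) * (g : Matrix ι ι F)) := by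
            simp only [mul_assoc]
        _ = k := by rw [← Units.val_mul, inv_mul_cancel, Units.val_one, one_mul, mul_one]
    rw [h2] at h1
    exact h1

end CfsgLib.Uo29
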