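import Cfsg.Agent.LibLECG
import Cfsg.Agent.LibLE11
import Cfsg.Prelude.Def_LocalStructure

set_option autoImplicit false

/-! Iterated closures `V_δ^{(n)}` on the coset graph (helper8). -/

open Cfsg Subgroup CfsgLib.LE CfsgLib.LECG

namespace CfsgLib.VI8

variable {X : Type*} [Group X] {M₁ M₂ : Subgroup X} {p : ℕ}

theorem dist_smul (hcon : (cosetGraph M₁ M₂).Connected) (g : X) (a b : CosetVertex M₁ M₂) :
    (cosetGraph M₁ M₂).dist (g • a) (g • b) = (cosetGraph M₁ M₂).dist a b := by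
  have key : ∀ (g : X) (a b : CosetVertex M₁ M₂),
      (cosetGraph M₁ M₂).dist (g • a) (g • b) ≤ (cosetGraph M₁ M₂).dist a b := by
    intro g a b
    obtain ⟨w, hw⟩ := hcon.exists_walk_length_eq_dist a b
    let f : (cosetGraph M₁ M₂) →g (cosetGraph M₁ M₂) := ⟨fun a => g • a, fun h => smul_adj g h⟩
    have h1 := SimpleGraph.dist_le (w.map f)
    rw [SimpleGraph.Walk.length_map, hw] at h1
    exact h1
  apply le_antisymm (key g a b)
  have := key g⁻¹ (g • a) (g • b)
  rwa [inv_smul_smul, inv_smul_smul] at this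

theorem le_VIter {n : ℕ} {δ μ : CosetVertex M₁ M₂} (h : (cosetGraph M₁ M₂).dist δ μ ≤ n) :
    vertexZ p μ ≤ vertexVIter p M₁ M₂ n δ := by
  unfold vertexVIter
  exact le_iSup (fun μ : {μ : CosetVertex M₁ M₂ // (cosetGraph M₁ M₂).dist δ μ ≤ n} =>
    vertexZ p (μ : CosetVertex M₁ M₂)) ⟨μ, h⟩

theorem VIter_le {n : ℕ} {δ : CosetVertex M₁ M₂} {K : Subgroup X}
    (h : ∀ μ, (cosetGraph M₁ M₂).dist δ μ ≤ n → vertexZ p μ ≤ K) : vertexVIter p M₁ M₂ n δ ≤ K := by
  unfold vertexVIter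
  exact iSup_le fun μ => h μ.1 μ.2

theorem VIter_smul (hcon : (cosetGraph M₁ M₂).Connected) (g : X) (n : ℕ) (δ : CosetVertex M₁ M₂) :
    (vertexVIter p M₁ M₂ n δ).map (MulAut.conj g).toMonoidHom = vertexVIter p M₁ M₂ n (g • δ) := by
  have key : ∀ (g : X) (δ : CosetVertex M₁ M₂), vertexVIter p M₁ M₂ n (g • δ) ≤
      (vertexVIter p M₁ M₂ n δ).map (MulAut.conj g).toMonoidHom := by
    intro g δ
    apply VIter_le
    intro μ hμ
    have h1 : (cosetGraph M₁ M₂).dist δ (g⁻¹ • μ) ≤ n := by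
      rw [← dist_smul hcon g, smul_inv_smul]; exact hμ
    have h2 := Subgroup.map_mono (f := (MulAut.conj g).toMonoidHom) (le_VIter (p := p) h1)
    rw [← vertexZ_smul, smul_inv_smul] at h2
    exact h2
  apply le_antisymm _ (key g δ)
  have h1 := key g⁻¹ (g • δ)
  rw [inv_smul_smul] at h1
  have h3 := Subgroup.map_mono (f := (MulAut.conj g).toMonoidHom) h1
  rwa [map_conj_mul, mul_inv_cancel, map_conj_one] at h3

theorem stabilizer_le_normalizer_VIter (hcon : (cosetGraph M₁ M₂).Connected) (n : ℕ)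
    (δ : CosetVertex M₁ M₂) :
    MulAction.stabilizer X δ ≤ normalizer (vertexVIter p M₁ M₂ n δ : Set X) := by
  intro g hg
  rw [mem_normalizer_iff_map_conj, VIter_smul hcon, MulAction.mem_stabilizer_iff.1 hg]

theorem VIter_le_of_adj (hcon : (cosetGraph M₁ M₂).Connected) {n : ℕ} {δ μ : CosetVertex M₁ M₂}
    (h : (cosetGraph M₁ M₂).Adj δ μ) : vertexVIter p M₁ M₂ n μ ≤ vertexVIter p M₁ M₂ (n + 1) δ := by
  apply VIter_le
  intro ν hν
  apply le_VIter
  have h2 := hcon.dist_triangle (u := δ) (v := μ) (w := ν)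
  have h3 : (cosetGraph M₁ M₂).dist δ μ = 1 := SimpleGraph.dist_eq_one_iff_adj.2 h
  omega

/-- each Sylow subgroup of a vertex stabilizer fixes a neighbour -/
theorem exists_nbr_of_isSyl [Fact p.Prime] (h : IsCharPAmalgamPair p M₁ M₂) {δ : CosetVertex M₁ M₂}
    {S : Subgroup X} (hS : IsSyl p S (MulAction.stabilizer X δ)) :
    ∃ μ, (cosetGraph M₁ M₂).Adj δ μ ∧ IsSyl p S (edgeStabilizer δ μ) := by
  obtain ⟨μ, hμ⟩ := exists_adj δ
  obtain ⟨T, hT⟩ := exists_isSyl p (edgeStabilizer δ μ)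
  have hT1 := (isSyl_of_edge h hμ hT).1
  have f1 := finite_of_charP h δ
  obtain ⟨g, hg, h2⟩ := hT1.conj_of_isSyl' hS
  have hgδ : g • δ = δ := hg
  refine ⟨g • μ, ?_, ?_⟩
  · have := smul_adj g hμ
    rwa [hgδ] at this
  · have h3 := hT.map_conj' g
    rw [h2] at h3
    have h4 : (edgeStabilizer δ μ).map (MulAut.conj g).toMonoidHom = edgeStabilizer δ (g • μ) := by
      unfold edgeStabilizer
      rw [Subgroup.map_inf_eq _ _ _ (MulAut.conj g).injective, ← stabilizer_smul, ← stabilizer_smul, hgδ]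
    rwa [h4] at h3

/-- `V_δ^{(n+1)}` is generated by the `V_μ^{(n)}` over the neighbours. -/
theorem VIter_succ_le [Fact p.Prime] (h : IsCharPAmalgamPair p M₁ M₂) {n : ℕ} {δ : CosetVertex M₁ M₂}
    {K : Subgroup X} (hK : ∀ μ, (cosetGraph M₁ M₂).Adj δ μ → vertexVIter p M₁ M₂ n μ ≤ K) :
    vertexVIter p M₁ M₂ (n + 1) δ ≤ K := by
  have hcon := cosetGraph_connected h.1.1
  apply VIter_le
  intro ν hν
  rcases Nat.eq_zero_or_pos ((cosetGraph M₁ M₂).dist δ ν) with h0 | hpos
  · have h1 := (hcon.preconnected δ ν).dist_eq_zero_iff.1 h0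
    subst h1
    apply scc_le
    intro T hT
    obtain ⟨μ, hμ, hT2⟩ := exists_nbr_of_isSyl h hT
    have h3 := (isSyl_of_edge h hμ hT2).2
    refine (omega_le_scc h3).trans (le_trans ?_ (hK μ hμ))
    exact le_VIter (by rw [(hcon.preconnected μ μ).dist_eq_zero_iff.2 rfl]; omega)
  · obtain ⟨β, hβ, h2⟩ := exists_adj_dist hcon hpos
    exact (le_VIter (by omega)).trans (hK β hβ)

theorem vertexZ_ne_bot [Fact p.Prime] (h : IsCharPAmalgamPair p M₁ M₂) (δ : CosetVertex M₁ M₂) :
    vertexZ p δ ≠ ⊥ := by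
  intro h0
  have f1 := finite_of_charP h δ
  obtain ⟨T, hT⟩ := exists_isSyl p (MulAction.stabilizer X δ)
  have h1 := omega_le_scc hT
  have hTf : Finite ↥T := Finite.of_injective _ (Subgroup.inclusion_injective hT.le)
  have hTne : T ≠ ⊥ := by
    rintro rfl
    have h2 := hT.card_eq
    rw [Subgroup.card_bot] at h2
    have h3 : (Nat.card ↥(MulAction.stabilizer X δ)).factorization p ≠ 0 := by
      have hd : p ∣ Nat.card ↥(MulAction.stabilizer X δ) := by
        rcases δ with a | a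
        · obtain ⟨x, rfl⟩ := QuotientGroup.mk_surjective a
          rw [stabilizer_inl, card_map_conj]; exact h.2.2.2.1
        · obtain ⟨x, rfl⟩ := QuotientGroup.mk_surjective a
          rw [stabilizer_inr, card_map_conj]; exact h.2.2.2.2.1
      have := (Fact.out : p.Prime).factorization_pos_of_dvd Nat.card_pos.ne' hd
      omega
    have h4 : 1 < p ^ (Nat.card ↥(MulAction.stabilizer X δ)).factorization p :=
      Nat.one_lt_pow h3 (Fact.out : p.Prime).one_lt
    omega
  have h5 := inf_centralizer_ne_bot hT.isPGroup hTne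
  have h6 : IsPGroup p ↥(T ⊓ centralizer (T : Set X)) := hT.isPGroup.to_le inf_le_left
  have : Finite ↥(T ⊓ centralizer (T : Set X)) := Finite.of_injective _ (Subgroup.inclusion_injective inf_le_left)
  have h7 := omegaOne_ne_bot_of_isPGroup h6 h5
  have h1' : omegaOne p (T ⊓ centralizer (T : Set X)) ≤ vertexZ p δ := h1
  rw [h0, le_bot_iff] at h1'
  exact h7 h1'

/-- The normalizer condition at every edge. -/
theorem normalizer_le_edge [Fact p.Prime] (h : IsSpeAmalgamPair p M₁ M₂) {δ μ : CosetVertex M₁ M₂}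
    (hμ : (cosetGraph M₁ M₂).Adj δ μ) {T : Subgroup X} (hT : IsSyl p T (edgeStabilizer δ μ)) :
    MulAction.stabilizer X δ ⊓ normalizer (T : Set X) ≤ edgeStabilizer δ μ := by
  obtain ⟨-, h2, -⟩ := h
  have key : ∀ x : X, ∀ T : Subgroup X, IsSyl p T ((M₁ ⊓ M₂).map (MulAut.conj x).toMonoidHom) →
      (M₁.map (MulAut.conj x).toMonoidHom ⊓ normalizer (T : Set X) ≤ (M₁ ⊓ M₂).map (MulAut.conj x).toMonoidHom) ∧
      (M₂.map (MulAut.conj x).toMonoidHom ⊓ normalizer (T : Set X) ≤ (M₁ ⊓ M₂).map (MulAut.conj x).toMonoidHom) := by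
    intro x T hT
    have hT' : IsSyl p (T.map (MulAut.conj x⁻¹).toMonoidHom) (M₁ ⊓ M₂) := by
      have := hT.map_conj' x⁻¹
      rwa [map_conj_mul, inv_mul_cancel, map_conj_one] at this
    obtain ⟨S, hS⟩ := hT'
    obtain ⟨h3, h4⟩ := h2 S
    rw [hS] at h3 h4
    have h5 : ∀ g : X, g ∈ normalizer (T : Set X) → x⁻¹ * g * x ∈ normalizer (T.map (MulAut.conj x⁻¹).toMonoidHom : Set X) := by
      intro g hg
      rw [mem_normalizer_iff_map_conj] at hg
      have h7 : (T.map (MulAut.conj x⁻¹).toMonoidHom).map (MulAut.conj (x⁻¹ * g * x)).toMonoidHom =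
          T.map (MulAut.conj x⁻¹).toMonoidHom := by
        rw [map_conj_mul]
        have : x⁻¹ * g * x * x⁻¹ = x⁻¹ * g := by group
        rw [this, ← map_conj_mul, hg]
      exact mem_normalizer_iff_map_conj.2 h7
    constructor
    · rintro g ⟨hg1, hg2⟩
      obtain ⟨m, hm, rfl⟩ := hg1
      refine ⟨m, h4 ⟨hm, ?_⟩, rfl⟩
      have := h5 _ hg2
      simpa [mul_assoc] using this
    · rintro g ⟨hg1, hg2⟩
      obtain ⟨m, hm, rfl⟩ := hg1
      refine ⟨m, h4 ?_, rfl⟩
      rw [h3]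
      refine ⟨hm, ?_⟩
      have := h5 _ hg2
      simpa [mul_assoc] using this
  unfold edgeStabilizer at hT ⊢
  rw [adj_iff] at hμ
  rcases hμ with ⟨x, rfl, rfl⟩ | ⟨x, rfl, rfl⟩
  · rw [stabilizer_inl, stabilizer_inr, ← Subgroup.map_inf_eq _ _ _ (MulAut.conj x).injective] at hT ⊢
    exact (key x T hT).1
  · rw [stabilizer_inl, stabilizer_inr, ← Subgroup.map_inf_eq _ _ _ (MulAut.conj x).injective, inf_comm M₂ M₁] at hT ⊢
    exact (key x T hT).2

/-- The main step: if `O^p(O^{p'}(G_λ))` and `G_{λδ}` normalize `W` then `G_λ` does. -/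
theorem stabilizer_le_normalizer [Fact p.Prime] (h : IsSpeAmalgamPair p M₁ M₂) {δ μ : CosetVertex M₁ M₂}
    (hμ : (cosetGraph M₁ M₂).Adj δ μ) (W : Subgroup X)
    (h1 : edgeStabilizer δ μ ≤ normalizer (W : Set X))
    (h2 : (pResidual p ↥(pElementClosure p (MulAction.stabilizer X δ))).map
      (pElementClosure p (MulAction.stabilizer X δ)).subtype ≤ normalizer (W : Set X)) :
    MulAction.stabilizer X δ ≤ normalizer (W : Set X) := by
  obtain ⟨T, hT⟩ := exists_isSyl p (edgeStabilizer δ μ)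
  have hT1 := (isSyl_of_edge h.1 hμ hT).1
  have f1 := finite_of_charP h.1 δ
  have hle : pElementClosure p (MulAction.stabilizer X δ) ≤ MulAction.stabilizer X δ := pElementClosure_le _
  have f2 : Finite ↥(pElementClosure p (MulAction.stabilizer X δ)) :=
    Finite.of_injective _ (Subgroup.inclusion_injective hle)
  have hTL : T ≤ pElementClosure p (MulAction.stabilizer X δ) := hT1.le_pElementClosure
  have hT3 : IsSyl p T (pElementClosure p (MulAction.stabilizer X δ)) := by
    apply isSyl_of_max hTL hT1.isPGroup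
    intro Q hQ hQp hTQ
    exact hT1.eq_of_le' (hQ.trans hle) hQp hTQ
  have h3 : pElementClosure p (MulAction.stabilizer X δ) ≤ normalizer (W : Set X) := by
    obtain ⟨P, hP⟩ := hT3
    have h4 : (pResidual p ↥(pElementClosure p (MulAction.stabilizer X δ))).map
        (pElementClosure p (MulAction.stabilizer X δ)).subtype ⊔ T =
        pElementClosure p (MulAction.stabilizer X δ) := by
      rw [← hP, ← Subgroup.map_sup, pResidual_sup_sylow, ← MonoidHom.range_eq_map, Subgroup.range_subtype]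
    rw [← h4]
    exact sup_le h2 (hT.le.trans h1)
  intro g hg
  obtain ⟨m, hm, y, hy, rfl⟩ := frattini_pElementClosure hT1 hg
  exact Subgroup.mul_mem _ (h3 hm) (h1 (normalizer_le_edge h hμ hT hy))

/-- A nontrivial subgroup of an edge stabilizer is not normalized by both vertex stabilizers. -/
theorem not_both (h : IsAmalgamPair M₁ M₂) {δ μ : CosetVertex M₁ M₂}
    (hμ : (cosetGraph M₁ M₂).Adj δ μ) (W : Subgroup X) (hW : W ≤ edgeStabilizer δ μ)
    (h1 : MulAction.stabilizer X δ ≤ normalizer (W : Set X))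
    (h2 : MulAction.stabilizer X μ ≤ normalizer (W : Set X)) : W = ⊥ := by
  have h3 := isAmalgamPair_stabilizer h hμ
  refine h3.2.2.2 W hW ?_
  rw [← Subgroup.normalizer_eq_top_iff, eq_top_iff, ← h3.1]
  exact sup_le h1 h2

theorem main1 [Fact p.Prime] (h : IsSpeAmalgamPair p M₁ M₂) (lam : CosetVertex M₁ M₂) (n : ℕ)
    (hVQ : vertexVIter p M₁ M₂ (n + 1) lam ≤ vertexQ p lam) {δ : CosetVertex M₁ M₂}
    (hδ : (cosetGraph M₁ M₂).Adj lam δ)
    (hn : MulAction.stabilizer X lam ≤ normalizer (vertexVIter p M₁ M₂ n δ : Set X)) : False := by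
  have hcon := cosetGraph_connected h.1.1.1
  have h1 : vertexVIter p M₁ M₂ n δ = ⊥ := by
    apply not_both h.1.1 hδ _ _ hn (stabilizer_le_normalizer_VIter hcon n δ)
    exact ((VIter_le_of_adj hcon hδ).trans hVQ).trans (vertexQ_le_edge h.1 hδ)
  have h2 : vertexZ p δ ≤ vertexVIter p M₁ M₂ n δ :=
    le_VIter (by rw [(hcon.preconnected δ δ).dist_eq_zero_iff.2 rfl]; omega)
  rw [h1, le_bot_iff] at h2
  exact vertexZ_ne_bot h.1 δ h2

theorem result2857 [Fact p.Prime] (h : IsSpeAmalgamPair p M₁ M₂) (lam : CosetVertex M₁ M₂) (n : ℕ) (hn : 2 ≤ n)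
    (hVQ : vertexVIter p M₁ M₂ n lam ≤ vertexQ p lam) :
    ¬ ⁅vertexVIter p M₁ M₂ n lam, ((pResidual p ↥(pElementClosure p (MulAction.stabilizer X lam))).map
      (pElementClosure p (MulAction.stabilizer X lam)).subtype)⁆ ≤ vertexVIter p M₁ M₂ (n - 2) lam := by
  intro hc
  obtain ⟨m, rfl⟩ : ∃ m, n = m + 2 := ⟨n - 2, by omega⟩
  obtain ⟨δ, hδ⟩ := exists_adj lam
  have hcon := cosetGraph_connected h.1.1.1
  rw [show m + 2 - 2 = m by omega] at hc
  apply main1 h lam (m + 1) hVQ hδ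
  apply stabilizer_le_normalizer h hδ
  · exact inf_le_right.trans (stabilizer_le_normalizer_VIter hcon _ δ)
  · rw [le_normalizer_iff_commutator_le_left]
    refine (Subgroup.commutator_mono (VIter_le_of_adj hcon hδ) le_rfl).trans (hc.trans ?_)
    exact VIter_le_of_adj hcon hδ.symm

/-- nilpotent action -/
theorem le_of_le_sup_commutator {V W Q : Subgroup X} (hQ : Group.IsNilpotent ↥Q)
    (hVQ : V ≤ Q) (hWQ : W ≤ Q) (hn : Q ≤ normalizer (W : Set X)) (h : V ≤ W ⊔ ⁅V, Q⁆) : V ≤ W := by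
  have key : ∀ k, V ≤ W ⊔ Subgroup.lowerCentralSeries Q k := by
    intro k
    induction k with
    | zero =>
      rw [Subgroup.lowerCentralSeries_zero]
      exact hVQ.trans le_sup_right
    | succ k ih =>
      refine h.trans (sup_le le_sup_left ?_)
      refine (Subgroup.commutator_mono ih le_rfl).trans ?_
      have h2 : ⁅W, Q⁆ ≤ W := le_normalizer_iff_commutator_le_left.1 hn
      have h3 : Q ≤ normalizer ((W ⊔ Subgroup.lowerCentralSeries Q (k + 1) : Subgroup X) : Set X) :=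
        le_normalizer_sup hn (Subgroup.self_le_normalizer_lowerCentralSeries Q (k + 1))
      have h4 : Subgroup.lowerCentralSeries Q k ≤ Q :=
        Subgroup.lowerCentralSeries_antitone Q (Nat.zero_le k)
      rw [Subgroup.commutator_comm]
      refine commutator_sup_le ?_ ?_ (hWQ.trans h3) (h4.trans h3)
      · rw [Subgroup.commutator_comm]
        exact h2.trans le_sup_left
      · rw [Subgroup.commutator_comm, ← Subgroup.lowerCentralSeries_succ]
        exact le_sup_right
  obtain ⟨n, hn⟩ := (Subgroup.isNilpotent_iff_lowerCentralSeries Q).1 hQ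
  have := key n
  rwa [hn, sup_bot_eq] at this

theorem result2856 [Fact p.Prime] (h : IsSpeAmalgamPair p M₁ M₂) (lam : CosetVertex M₁ M₂) (n : ℕ) (hn : 1 ≤ n)
    (hVQ : vertexVIter p M₁ M₂ n lam ≤ vertexQ p lam) :
    ¬ ⁅vertexVIter p M₁ M₂ n lam, ((pResidual p ↥(pElementClosure p (MulAction.stabilizer X lam))).map
      (pElementClosure p (MulAction.stabilizer X lam)).subtype)⁆ ≤ ⁅vertexVIter p M₁ M₂ n lam, vertexQ p lam⁆ := by
  intro hc
  obtain ⟨m, rfl⟩ : ∃ m, n = m + 1 := ⟨n - 1, by omega⟩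
  obtain ⟨δ, hδ⟩ := exists_adj lam
  have hcon := cosetGraph_connected h.1.1.1
  have f1 := finite_of_charP h.1 lam
  set V := vertexVIter p M₁ M₂ (m + 1) lam with hVdef
  set W := vertexVIter p M₁ M₂ m δ with hWdef
  set Q := vertexQ p lam with hQdef
  have hWV : W ≤ V := VIter_le_of_adj hcon hδ
  have hGV : MulAction.stabilizer X lam ≤ normalizer (V : Set X) := stabilizer_le_normalizer_VIter hcon _ _
  have hGQ : MulAction.stabilizer X lam ≤ normalizer (Q : Set X) := le_normalizer_pCoreOf p _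
  have hGW : MulAction.stabilizer X δ ≤ normalizer (W : Set X) := stabilizer_le_normalizer_VIter hcon _ _
  have hQe : Q ≤ edgeStabilizer lam δ := vertexQ_le_edge h.1 hδ
  have hQG : Q ≤ MulAction.stabilizer X lam := hQe.trans inf_le_left
  have hVQ' : ⁅V, Q⁆ ≤ V := le_normalizer_iff_commutator_le_left.1 (hQG.trans hGV)
  have hDV : W ⊔ ⁅V, Q⁆ ≤ V := sup_le hWV hVQ'
  have hG : MulAction.stabilizer X lam ≤ normalizer ((W ⊔ ⁅V, Q⁆ : Subgroup X) : Set X) := by
    apply stabilizer_le_normalizer h hδ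
    · exact le_normalizer_sup (inf_le_right.trans hGW)
        (inf_le_left.trans (le_normalizer_commutator hGV hGQ))
    · rw [le_normalizer_iff_commutator_le_left]
      exact (Subgroup.commutator_mono hDV le_rfl).trans (hc.trans le_sup_right)
  have hV1 : V ≤ W ⊔ ⁅V, Q⁆ := by
    apply VIter_succ_le h.1
    intro μ hμ
    obtain ⟨g, hg, rfl⟩ := neighbours_transitive hδ hμ
    rw [← VIter_smul hcon]
    have h1 := mem_normalizer_iff_map_conj.1 (hG hg)
    rw [← h1]
    exact Subgroup.map_mono le_sup_left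
  have hQp : IsPGroup p ↥Q := pCoreOf_isPGroup p _
  have hQf : Finite ↥Q := Finite.of_injective _ (Subgroup.inclusion_injective hQG)
  have hV2 : V ≤ W := le_of_le_sup_commutator hQp.isNilpotent hVQ (hWV.trans hVQ)
    (hQe.trans (inf_le_right.trans hGW)) hV1
  have hVW : W = V := le_antisymm hWV hV2
  apply main1 h lam m hVQ hδ
  rw [← hWdef, hVW]
  exact hGV

end CfsgLib.VI8
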