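import Mathlib
import Cfsg.Agent.LibWY4
import Cfsg.Agent.LibFT26
import Cfsg.Agent.LibFT27
import Cfsg.Agent.LibFus21Emb3

/-! Yoshida's wreath product theorem for groups -/

set_option autoImplicit false
set_option linter.all false

open scoped commutatorElement
open Pointwise

namespace CfsgLib.WY

open CfsgLib.SolvBasic CfsgLib.Tate CfsgLib.SolvCoprime CfsgLib.TransPC CfsgLib.TransFus

universe u v w

variable {G : Type u} [Group G]

theorem cc_eq {N : Subgroup G} {C : Type v} [CommGroup C] (lam : N →* C) (g : G) (x : G ⧸ N) :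
    cc N lam g x = lam ⟨_, cc_mem N g x⟩ := Lam_mem lam (cc_mem N g x)

/-- Yoshida's theorem for groups -/
theorem yoshida_group [Finite G] {p : ℕ} [hp : Fact p.Prime] (S : Sylow p G)
    (h : (S : Subgroup G) ⊓ commutator G ≠ (S : Subgroup G) ⊓
      ⁅Subgroup.normalizer ((S : Subgroup G) : Set G), Subgroup.normalizer ((S : Subgroup G) : Set G)⁆) :
    ∃ (P : Sylow p (Equiv.Perm (Fin (p ^ 2))))
      (f : (S : Subgroup G) →* (P : Subgroup (Equiv.Perm (Fin (p ^ 2))))), Function.Surjective f := by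
  classical
  obtain ⟨N, hN⟩ : ∃ N : Subgroup G, N = Subgroup.normalizer ((S : Subgroup G) : Set G) := ⟨_, rfl⟩
  rw [← hN] at h
  have hSN : (S : Subgroup G) ≤ N := by rw [hN]; exact Subgroup.le_normalizer
  have hy : ∃ y ∈ (S : Subgroup G), y ∈ commutator G ∧ y ∉ ⁅N, N⁆ := by
    by_contra hcon
    push Not at hcon
    apply h
    apply le_antisymm
    · intro y hy
      exact ⟨hy.1, hcon y hy.1 hy.2⟩
    · refine inf_le_inf_left _ ?_
      rw [commutator_def]
      exact Subgroup.commutator_mono le_top le_top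
  obtain ⟨lam0, u, hu1, hu2, hu3⟩ := exists_lam S N hSN hy
  let _ : Fintype (G ⧸ N) := Fintype.ofFinite _
  obtain ⟨m, hm⟩ : ∃ m, m = Fintype.card (G ⧸ N) := ⟨_, rfl⟩
  let T0 : G →* Multiplicative (ZMod p) := MonoidHom.mk' (fun y => ∏ x : G ⧸ N, cc N lam0 y x)
    (fun a b => T_mul (cc N lam0) (cc_mul N lam0) Finset.univ a b (fun x => by simp))
  have hT0 : ∀ y, T0 y = ∏ x : G ⧸ N, cc N lam0 y x := fun _ => rfl
  have hT0u : T0 u = 1 := by
    have h1 : commutator G ≤ T0.ker := by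
      rw [commutator_def, Subgroup.commutator_le]
      intro a _ b _
      rw [MonoidHom.mem_ker, map_commutatorElement, commutatorElement_eq_one_iff_mul_comm, mul_comm]
    exact MonoidHom.mem_ker.mp (h1 hu2)
  let lam1 : N →* Multiplicative (ZMod p) := lam0 ^ m * (T0.comp N.subtype)⁻¹
  have hlam1 : ∀ y : N, lam1 y = lam0 y ^ m * (T0 y)⁻¹ := fun _ => rfl
  have hpN : ¬ p ∣ N.index := by
    intro h1
    exact S.not_dvd_index (h1.trans (Subgroup.index_dvd_of_le hSN))
  have hmN : m = N.index := by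
    rw [hm, ← Nat.card_eq_fintype_card, Subgroup.index_eq_card]
  have hpow : ∀ a : Multiplicative (ZMod p), a ^ p = 1 := by
    intro a
    apply Multiplicative.toAdd.injective
    change p • Multiplicative.toAdd a = 0
    rw [nsmul_eq_mul, CharP.cast_eq_zero, zero_mul]
  have hlam1u : lam1 u ≠ 1 := by
    rw [hlam1, hT0u, inv_one, mul_one]
    intro h1
    apply hu3
    have h2 : orderOf (lam0 u) ∣ Nat.gcd m p :=
      Nat.dvd_gcd (orderOf_dvd_of_pow_eq_one h1) (orderOf_dvd_of_pow_eq_one (hpow _))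
    have h3 : Nat.gcd m p = 1 := by
      rw [Nat.gcd_comm]
      exact (Nat.Prime.coprime_iff_not_dvd hp.out).mpr (by rw [hmN]; exact hpN)
    rw [h3, Nat.dvd_one, orderOf_eq_one_iff] at h2
    exact h2
  -- the transfer of lam1 vanishes
  have hT1 : ∀ y : G, ∏ x : G ⧸ N, cc N lam1 y x = 1 := by
    intro y
    have h1 : ∀ x : G ⧸ N, cc N lam1 y x =
        (cc N lam0 y x) ^ m * ((T0 y)⁻¹ * (T0 (y • x).out * (T0 x.out)⁻¹)) := by
      intro x
      rw [cc_eq, cc_eq, hlam1]
      congr 1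
      change (T0 ((y • x).out⁻¹ * y * x.out))⁻¹ = _
      rw [map_mul, map_mul, map_inv, mul_inv, mul_inv, inv_inv]
      rw [mul_comm (T0 (y • x).out) (T0 y)⁻¹, mul_assoc]
    have h2 : ∏ x : G ⧸ N, T0 (y • x).out = ∏ x : G ⧸ N, T0 x.out :=
      Finset.prod_equiv (MulAction.toPerm y) (fun x => by simp) (fun x _ => rfl)
    rw [Finset.prod_congr rfl (fun x _ => h1 x), Finset.prod_mul_distrib, Finset.prod_pow, ← hT0,
      Finset.prod_mul_distrib, Finset.prod_mul_distrib, h2, ← Finset.prod_mul_distrib,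
      Finset.prod_const, Finset.card_univ, ← hm]
    simp only [mul_inv_cancel, Finset.prod_const_one, mul_one]
    rw [inv_pow, mul_inv_cancel]
  -- the local values
  have hval : ∀ (q : G ⧸ N) (g : (S : Subgroup G)), g • q = q → ∃ y : (S : Subgroup G),
      orderOf y ∣ orderOf g ∧ cc N lam1 (g : G) q = lam1 ⟨y, hSN y.2⟩ := by
    intro q g hgq
    have hgq' : (g : G) • q = q := hgq
    obtain ⟨v, hv⟩ : ∃ v : N, v = ⟨_, cc_mem N (g : G) q⟩ := ⟨_, rfl⟩
    have hv' : (v : G) = q.out⁻¹ * (g : G) * q.out := by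
      rw [hv]
      change ((g : G) • q).out⁻¹ * (g : G) * q.out = _
      rw [hgq']
    have hov : orderOf v = orderOf g := by
      rw [← Subgroup.orderOf_coe, hv', ← Subgroup.orderOf_coe]
      have h1 := orderOf_injective (MulAut.conj q.out⁻¹).toMonoidHom (MulAut.conj q.out⁻¹).injective (g : G)
      rw [← h1]
      change _ = orderOf (q.out⁻¹ * (g : G) * q.out⁻¹⁻¹)
      rw [inv_inv]
    have hvp : IsPGroup p (Subgroup.zpowers v) := by
      rw [IsPGroup.iff_card, Nat.card_zpowers, hov]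
      exact IsPGroup.iff_orderOf.mp S.isPGroup' g
    obtain ⟨Q, hQ⟩ := hvp.exists_le_sylow
    obtain ⟨n, hn⟩ := MulAction.exists_smul_eq N Q (S.subtype hSN)
    have hw : n * v * n⁻¹ ∈ (S.subtype hSN : Subgroup N) := by
      rw [← hn]
      exact ⟨v, hQ (Subgroup.mem_zpowers v), rfl⟩
    have hw' : ((n * v * n⁻¹ : N) : G) ∈ (S : Subgroup G) := hw
    refine ⟨⟨_, hw'⟩, ?_, ?_⟩
    · rw [← Subgroup.orderOf_coe]
      change orderOf ((n * v * n⁻¹ : N) : G) ∣ _
      rw [Subgroup.orderOf_coe, ← hov]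
      rw [show orderOf (n * v * n⁻¹) = orderOf v from
        orderOf_injective (MulAut.conj n).toMonoidHom (MulAut.conj n).injective v]
    · rw [cc_eq, ← hv]
      change lam1 v = lam1 (n * v * n⁻¹)
      rw [map_mul, map_mul, map_inv, mul_right_comm, mul_inv_cancel, one_mul]
  -- fixed points
  have hfixpt : ∀ (q : G ⧸ N), (∀ g : (S : Subgroup G), g • q = q) → q = ((1 : G) : G ⧸ N) := by
    intro q hq
    obtain ⟨g, rfl⟩ := QuotientGroup.mk_surjective q
    have h1 : ∀ w ∈ (S : Subgroup G), g⁻¹ * w * g ∈ N := by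
      intro w hw
      have h2 : ((w * g : G) : G ⧸ N) = ((g : G) : G ⧸ N) := hq ⟨w, hw⟩
      have h5 := N.inv_mem (QuotientGroup.eq.mp h2)
      have h6 : ((w * g)⁻¹ * g)⁻¹ = g⁻¹ * w * g := by group
      rwa [h6] at h5
    -- S is normal in N, thus the unique Sylow
    have hSn : ((S.subtype hSN : Sylow p N) : Subgroup N).Normal := by
      constructor
      intro x hx n
      have h2 : (n : G) ∈ Subgroup.normalizer ((S : Subgroup G) : Set G) := hN.le n.2
      exact (Subgroup.mem_normalizer_iff.mp h2 (x : G)).mp hx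
    have h3 : ∀ w ∈ (S : Subgroup G), g⁻¹ * w * g ∈ (S : Subgroup G) := by
      intro w hw
      have hvp : IsPGroup p (Subgroup.zpowers (⟨g⁻¹ * w * g, h1 w hw⟩ : N)) := by
        rw [IsPGroup.iff_card, Nat.card_zpowers, ← Subgroup.orderOf_coe]
        change ∃ n, orderOf (g⁻¹ * w * g) = p ^ n
        have h4 := orderOf_injective (MulAut.conj g⁻¹).toMonoidHom (MulAut.conj g⁻¹).injective w
        have h5 : orderOf (g⁻¹ * w * g) = orderOf w := by
          rw [← h4]
          change _ = orderOf (g⁻¹ * w * g⁻¹⁻¹)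
          rw [inv_inv]
        rw [h5]
        obtain ⟨a, ha⟩ := IsPGroup.iff_orderOf.mp S.isPGroup' ⟨w, hw⟩
        rw [← Subgroup.orderOf_coe] at ha
        exact ⟨a, ha⟩
      obtain ⟨Q, hQ⟩ := hvp.exists_le_sylow
      obtain ⟨n, hn⟩ := MulAction.exists_smul_eq N (S.subtype hSN) Q
      have h7 : (⟨g⁻¹ * w * g, h1 w hw⟩ : N) ∈ (Q : Subgroup N) := hQ (Subgroup.mem_zpowers _)
      rw [← hn] at h7
      obtain ⟨s, hs, h8⟩ := h7
      have h9 : n * s * n⁻¹ = (⟨g⁻¹ * w * g, h1 w hw⟩ : N) := h8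
      have h10 := hSn.conj_mem s hs n
      rw [h9] at h10
      exact h10
    rw [QuotientGroup.eq, mul_one]
    rw [hN]
    have h4 : g⁻¹ ∈ Subgroup.normalizer ((S : Subgroup G) : Set G) := by
      apply CfsgLib.Fus21.mem_normalizer_of_maps
      intro w hw
      rw [inv_inv]
      exact h3 w hw
    exact h4
  let lamS : (S : Subgroup G) →* Multiplicative (ZMod p) := (lam1.comp (Subgroup.inclusion hSN))⁻¹
  have hlamS : ∀ y : (S : Subgroup G), (lamS y)⁻¹ = lam1 ⟨y, hSN y.2⟩ := fun y => inv_inv _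
  have hlamSu : lamS ⟨(u : G), hu1⟩ ≠ 1 := by
    intro h1
    apply hlam1u
    have h2 := hlamS ⟨(u : G), hu1⟩
    rw [h1, inv_one] at h2
    exact h2.symm
  obtain ⟨M, hM, ν, x, hi, hx⟩ := CfsgLib.FT.yoshida_core (p := p) (G := (S : Subgroup G)) (Y := G ⧸ N)
    S.isPGroup' hpow (c := fun g q => cc N lam1 (g : G) q)
    (fun g h q => cc_mul N lam1 (g : G) (h : G) q) lamS
    ⟨⟨(u : G), hu1⟩, fun h1 => hlamSu h1⟩
    (by
      intro q hq g
      change cc N lam1 (g : G) q = (lamS g)⁻¹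
      rw [hlamS]
      have hq1 := hfixpt q hq
      have hqf : (g : G) • q = q := hq g
      have hout : q.out ∈ N := by
        have h1 : ((q.out : G) : G ⧸ N) = ((1 : G) : G ⧸ N) := by rw [QuotientGroup.out_eq', hq1]
        rw [QuotientGroup.eq, mul_one] at h1
        exact (N.inv_mem_iff).mp h1
      rw [cc_eq]
      have h1 : (⟨((g : G) • q).out⁻¹ * (g : G) * q.out, cc_mem N (g : G) q⟩ : N) =
          (⟨q.out, hout⟩ : N)⁻¹ * ⟨g, hSN g.2⟩ * ⟨q.out, hout⟩ := by
        apply Subtype.ext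
        change ((g : G) • q).out⁻¹ * (g : G) * q.out = q.out⁻¹ * g * q.out
        rw [hqf]
      rw [h1, map_mul, map_mul, map_inv, mul_right_comm, inv_mul_cancel, one_mul])
    (by
      intro q g hg
      obtain ⟨y, hy1, hy2⟩ := hval q g hg
      exact ⟨y, hy1, by rw [hlamS]; exact hy2⟩)
    (fun g => hT1 g)
    (by
      rw [← Subgroup.index_eq_card]
      exact hpN)
  exact CfsgLib.FT.wreath_quot S.isPGroup' hM hi ν x hx

end CfsgLib.WY
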