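import Mathlib

set_option autoImplicit false

/-! Weights of an elementary abelian group in a matrix algebra of coprime characteristic. -/

namespace CfsgLib.Wt15

open Matrix

section Sum

variable {F : Type*} [Field F] [Fintype F] {ι : Type*} [Fintype ι] [DecidableEq ι]
variable {L : Type*} [Field L]

noncomputable def dotChar (ψ : AddChar F L) (w : ι → F) : AddChar (ι → F) L where
  toFun v := ψ (w ⬝ᵥ v)
  map_zero_eq_one' := by simp
  map_add_eq_mul' a b := by rw [dotProduct_add, AddChar.map_add_eq_mul]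

theorem sum_dot [DecidableEq (ι → F)] (ψ : AddChar F L) (hψ : ψ ≠ 1) (w : ι → F) :
    ∑ v : ι → F, ψ (w ⬝ᵥ v) = if w = 0 then (Fintype.card (ι → F) : L) else 0 := by
  split_ifs with h
  · subst h
    simp
  · have h1 : dotChar ψ w ≠ 1 := by
      obtain ⟨a, ha⟩ := AddChar.ne_one_iff.1 hψ
      obtain ⟨i, hi⟩ := Function.ne_iff.1 h
      rw [AddChar.ne_one_iff]
      refine ⟨Pi.single i (a / w i), ?_⟩
      change ψ (w ⬝ᵥ Pi.single i (a / w i)) ≠ 1
      rw [dotProduct_single, mul_div_cancel₀ _ hi]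
      exact ha
    exact AddChar.sum_eq_zero_of_ne_one h1

end Sum

section Idem

variable {F : Type*} [Field F] [Fintype F] {ι : Type*} [Fintype ι] [DecidableEq ι]
variable {L : Type*} [Field L] {A : Type*} [Ring A] [Algebra L A]

noncomputable def e (ψ : AddChar F L) (R : (ι → F) → A) (w : ι → F) : A :=
  ((Fintype.card (ι → F) : L))⁻¹ • ∑ v : ι → F, ψ (-(w ⬝ᵥ v)) • R v

variable {ψ : AddChar F L} {R : (ι → F) → A} (hψ : ψ ≠ 1) (hc : (Fintype.card (ι → F) : L) ≠ 0)
  (R0 : R 0 = 1) (Ra : ∀ u v, R (u + v) = R u * R v)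

include Ra in
theorem e_mul_R (w u : ι → F) : e ψ R w * R u = ψ (w ⬝ᵥ u) • e ψ R w := by
  unfold e
  rw [smul_mul_assoc, smul_comm]
  congr 1
  rw [Finset.sum_mul, Finset.smul_sum]
  refine Fintype.sum_equiv (Equiv.addRight u) _ _ fun v => ?_
  rw [smul_mul_assoc, ← Ra, Equiv.coe_addRight, smul_smul]
  congr 1
  rw [dotProduct_add, ← AddChar.map_add_eq_mul]
  congr 1
  ring

include Ra in
theorem R_mul_e (w u : ι → F) : R u * e ψ R w = ψ (w ⬝ᵥ u) • e ψ R w := by
  rw [← e_mul_R Ra]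
  unfold e
  rw [smul_mul_assoc, mul_smul_comm, Finset.sum_mul, Finset.mul_sum]
  congr 1
  refine Finset.sum_congr rfl fun v _ => ?_
  rw [smul_mul_assoc, mul_smul_comm, ← Ra, ← Ra, add_comm]

include hψ hc Ra in
theorem e_mul_e [DecidableEq (ι → F)] (w w' : ι → F) : e ψ R w * e ψ R w' = if w = w' then e ψ R w else 0 := by
  have h1 : e ψ R w * e ψ R w' = ((Fintype.card (ι → F) : L))⁻¹ • ∑ v : ι → F, (ψ ((w - w') ⬝ᵥ v)) • e ψ R w := by
    conv_lhs => rw [show e ψ R w' = ((Fintype.card (ι → F) : L))⁻¹ • ∑ v : ι → F, ψ (-(w' ⬝ᵥ v)) • R v from rfl]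
    rw [mul_smul_comm, Finset.mul_sum]
    congr 1
    refine Finset.sum_congr rfl fun v _ => ?_
    rw [mul_smul_comm, e_mul_R Ra, smul_smul, ← AddChar.map_add_eq_mul]
    congr 2
    rw [sub_dotProduct]
    ring
  rw [h1, ← Finset.sum_smul, sum_dot ψ hψ]
  by_cases h : w = w'
  · rw [if_pos (by rw [h, sub_self]), if_pos h, smul_smul, inv_mul_cancel₀ hc, one_smul]
  · rw [if_neg (by rwa [sub_eq_zero]), if_neg h, zero_smul, smul_zero]

include hψ hc R0 in
theorem sum_e : ∑ w : ι → F, e ψ R w = 1 := by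
  classical
  unfold e
  rw [← Finset.smul_sum, Finset.sum_comm]
  have h1 : ∀ v : ι → F, ∑ w : ι → F, ψ (-(w ⬝ᵥ v)) • R v = (if v = 0 then (Fintype.card (ι → F) : L) else 0) • R v := by
    intro v
    rw [← Finset.sum_smul]
    congr 1
    have h2 := sum_dot ψ hψ (-v)
    simp only [neg_eq_zero] at h2
    rw [← h2]
    refine Finset.sum_congr rfl fun w _ => ?_
    rw [neg_dotProduct, dotProduct_comm v w]
  rw [Finset.sum_congr rfl fun v _ => h1 v, Finset.sum_eq_single (0 : ι → F)]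
  · rw [if_pos rfl, R0, smul_smul, inv_mul_cancel₀ hc, one_smul]
  · intro v _ hv
    rw [if_neg hv, zero_smul]
  · intro h
    exact absurd (Finset.mem_univ _) h

include hψ hc R0 Ra in
theorem R_eq (u : ι → F) : R u = ∑ w : ι → F, ψ (w ⬝ᵥ u) • e ψ R w := by
  rw [← mul_one (R u), ← sum_e hψ hc R0, Finset.mul_sum]
  exact Finset.sum_congr rfl fun w _ => R_mul_e Ra w u

include hψ hc R0 Ra in
theorem R_eq_one {u : ι → F} (h : ∀ w : ι → F, e ψ R w ≠ 0 → w ⬝ᵥ u = 0) : R u = 1 := by
  rw [R_eq hψ hc R0 Ra u, ← sum_e hψ hc R0]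
  refine Finset.sum_congr rfl fun w _ => ?_
  by_cases hw : e ψ R w = 0
  · rw [hw, smul_zero]
  · rw [h w hw, AddChar.map_zero_eq_one, one_smul]

theorem conj_e (g : A) (T : (ι → F) ≃ (ι → F)) (hg : ∀ v, g * R v = R (T v) * g) {w w' : ι → F}
    (hw : ∀ v, w' ⬝ᵥ (T v) = w ⬝ᵥ v) : g * e ψ R w = e ψ R w' * g := by
  unfold e
  rw [smul_mul_assoc, mul_smul_comm, Finset.sum_mul, Finset.mul_sum]
  congr 1
  refine Fintype.sum_equiv T _ _ fun v => ?_
  rw [mul_smul_comm, hg, hw, smul_mul_assoc]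

theorem conj_ne (g : Aˣ) (T : (ι → F) ≃ (ι → F)) (hg : ∀ v, (g : A) * R v = R (T v) * (g : A)) {w w' : ι → F}
    (hw : ∀ v, w' ⬝ᵥ (T v) = w ⬝ᵥ v) (hne : e ψ R w ≠ 0) : e ψ R w' ≠ 0 := by
  intro h
  apply hne
  have h1 := conj_e (ψ := ψ) (g : A) T hg hw
  rw [h, zero_mul] at h1
  exact (Units.mul_right_eq_zero g).1 h1

end Idem

section Card

variable {F : Type*} [Field F] [Fintype F] {ι : Type*} [Fintype ι] [DecidableEq ι]
variable {L : Type*} [Field L] {d : ℕ}

theorem card_le {ψ : AddChar F L} {R : (ι → F) → Matrix (Fin d) (Fin d) L} (hψ : ψ ≠ 1)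
    (hc : (Fintype.card (ι → F) : L) ≠ 0) (Ra : ∀ u v, R (u + v) = R u * R v)
    (S : Finset (ι → F)) (hS : ∀ w ∈ S, e ψ R w ≠ 0) : S.card ≤ d := by
  classical
  have h1 : ∀ w : S, ∃ x : Fin d → L, (e ψ R w.1) *ᵥ x ≠ 0 := by
    intro w
    by_contra hcon
    push Not at hcon
    apply hS w.1 w.2
    ext i j
    have := congrFun (hcon (Pi.single j 1)) i
    rw [mulVec_single_one] at this
    exact this
  choose x hx using h1
  have hli : LinearIndependent L (fun w : S => (e ψ R w.1) *ᵥ x w) := by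
    rw [Fintype.linearIndependent_iff]
    intro c hcs w
    have h2 := congrArg (fun y => (e ψ R w.1) *ᵥ y) hcs
    simp only [mulVec_zero] at h2
    rw [mulVec_sum, Finset.sum_eq_single w] at h2
    · rw [mulVec_smul, mulVec_mulVec, e_mul_e hψ hc Ra, if_pos rfl] at h2
      exact (smul_eq_zero.1 h2).resolve_right (hx w)
    · intro w' _ hw'
      rw [mulVec_smul, mulVec_mulVec, e_mul_e hψ hc Ra, if_neg (fun h => hw' (Subtype.ext h.symm)), zero_mulVec,
        smul_zero]
    · intro h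
      exact absurd (Finset.mem_univ _) h
  have h3 := hli.fintype_card_le_finrank
  rwa [Fintype.card_coe, Module.finrank_fin_fun] at h3

end Card

section Trans

set_option linter.unusedSectionVars false

variable {F : Type*} [Field F] {ι : Type*} [Fintype ι] [DecidableEq ι] [Nontrivial ι]

theorem trans_step0 {S : Set (ι → F)} {i : ι}
    (hS : ∀ w ∈ S, ∀ j, j ≠ i → ∀ c : F, Function.update w j (w j + c * w i) ∈ S)
    {w : ι → F} (hw : w ∈ S) (hi : w i ≠ 0) {w' : ι → F} (h' : w' i = w i) : w' ∈ S := by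
  have h1 : ∀ T : Finset ι, i ∉ T → (fun j => if j ∈ T then w' j else w j) ∈ S := by
    intro T
    induction T using Finset.induction_on with
    | empty => intro _; simpa using hw
    | insert a T ha ih =>
      intro hiT
      have hia : i ≠ a := fun h => hiT (by rw [h]; exact Finset.mem_insert_self _ _)
      have hiT' : i ∉ T := fun h => hiT (Finset.mem_insert_of_mem h)
      have h2 := hS _ (ih hiT') a hia.symm ((w' a - w a) / w i)
      convert h2 using 1
      ext j
      by_cases hj : j = a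
      · subst hj
        simp [ha, hiT', hi]
      · simp [hj]
  have h2 := h1 (Finset.univ.erase i) (Finset.notMem_erase _ _)
  convert h2 using 1
  ext j
  by_cases hj : j = i
  · subst hj; simp [h']
  · simp [hj]

theorem trans_step {S : Set (ι → F)} (hS : ∀ w ∈ S, ∀ i j, i ≠ j → ∀ c : F, Function.update w j (w j + c * w i) ∈ S)
    {w : ι → F} (hw : w ∈ S) {i : ι} (hi : w i ≠ 0) {w' : ι → F} (h' : w' i = w i) : w' ∈ S :=
  trans_step0 (fun w hw j hj c => hS w hw i j hj.symm c) hw hi h'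

theorem trans_all {S : Set (ι → F)} (hS : ∀ w ∈ S, ∀ i j, i ≠ j → ∀ c : F, Function.update w j (w j + c * w i) ∈ S)
    {w : ι → F} (hw : w ∈ S) (h0 : w ≠ 0) {w' : ι → F} (h' : w' ≠ 0) : w' ∈ S := by
  obtain ⟨i, hi⟩ := Function.ne_iff.1 h0
  obtain ⟨k, hk⟩ := Function.ne_iff.1 h'
  by_cases hki : k = i
  · subst hki
    obtain ⟨j, hj⟩ := exists_ne k
    have h1 : Function.update w j 1 ∈ S := trans_step hS hw hi (by rw [Function.update_of_ne hj.symm])
    have h2 : Function.update w' j 1 ∈ S := trans_step hS h1 (i := j) (by simp) (by simp)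
    exact trans_step hS h2 (i := k) (by rw [Function.update_of_ne hj.symm]; exact hk)
      (by rw [Function.update_of_ne hj.symm])
  · have h1 : Function.update w' i (w i) ∈ S := trans_step hS hw hi (by simp)
    exact trans_step hS h1 (i := k) (by rw [Function.update_of_ne hki]; exact hk)
      (by rw [Function.update_of_ne hki])

end Trans

theorem card_ne_zero {F : Type*} [Field F] [Fintype F] {K : Type*} [Field K] (hK : ringChar K ≠ ringChar F) :
    (Fintype.card F : K) ≠ 0 := by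
  obtain ⟨n, hp, hc⟩ := FiniteField.card F (ringChar F)
  rw [hc, Nat.cast_pow]
  apply pow_ne_zero
  intro h
  have h1 := (ringChar.spec K (ringChar F)).1 h
  rcases (Nat.dvd_prime hp).1 h1 with h2 | h2
  · exact absurd h2 (CharP.ringChar_ne_one)
  · exact hK h2

end CfsgLib.Wt15
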