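import Cfsg.Statements.S0005
import Cfsg.Agent.LibSolvHall

set_option autoImplicit false
open Cfsg

namespace Cfsg.Agent.S0005

open Pointwise in
/-- Hall's Theorem, containment: in a finite solvable group of order m * n with m and n coprime, every subgroup of order coprime to n is contained in a subgroup of order m. -/
theorem result {G : Type*} [Group G] [Finite G] [Group.IsSolvable G] (m n : ℕ)
    (hG : Nat.card G = m * n) (hmn : m.Coprime n) (K : Subgroup G) (hK : (Nat.card K).Coprime n) :
    ∃ H : Subgroup G, Nat.card H = m ∧ K ≤ H := by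
  obtain ⟨H, hH⟩ := CfsgLib.SolvHall.hall_exists _ G rfl m n hG hmn
  have hKm : Nat.card K ∣ m := CfsgLib.SolvHall.dvd_left_of_coprime
    (hG ▸ Subgroup.card_subgroup_dvd_card K) hK
  obtain ⟨g, hg⟩ := CfsgLib.SolvHall.hall_dominance _ G rfl m n hG hmn K H hKm hH
  refine ⟨MulAut.conj g⁻¹ • H, by rw [CfsgLib.SolvBasic.card_conj_smul, hH], ?_⟩
  rwa [Subgroup.subset_pointwise_smul_iff, map_inv, inv_inv]

end Cfsg.Agent.S0005
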