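import Cfsg.Statements.S0007
import Mathlib

set_option autoImplicit false
open Cfsg

namespace Cfsg.Agent.S0007

/-- Subgroups of coprime index: the intersection has index equal to the product of the indices, and every element is a product of an element of the first subgroup and an element of the second. -/
theorem result {G : Type*} [Group G] [Finite G] (H K : Subgroup G)
    (h : H.index.Coprime K.index) :
    (H ⊓ K).index = H.index * K.index ∧ ∀ g : G, ∃ x ∈ H, ∃ y ∈ K, g = x * y := by
  have hidx : (H ⊓ K).index = H.index * K.index := by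
    apply le_antisymm Subgroup.index_inf_le
    apply Nat.le_of_dvd
    · exact Nat.pos_of_ne_zero Subgroup.index_ne_zero_of_finite
    · exact h.mul_dvd_of_dvd_of_dvd (Subgroup.index_dvd_of_le inf_le_left)
        (Subgroup.index_dvd_of_le inf_le_right)
  refine ⟨hidx, ?_⟩
  -- H acts on G ⧸ K ; the orbit of 1 has size H.relIndex (H ⊓ K)
  have hrel : (H ⊓ K).relIndex H = K.index := by
    have h1 := Subgroup.relIndex_mul_index (inf_le_left : H ⊓ K ≤ H)
    rw [hidx, mul_comm] at h1
    exact Nat.eq_of_mul_eq_mul_left (Nat.pos_of_ne_zero Subgroup.index_ne_zero_of_finite) h1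
  -- map H ⧸ (K.subgroupOf H) → G ⧸ K injective between same cardinality
  let f : H ⧸ (K.subgroupOf H) → G ⧸ K := Quotient.map' (fun x : H => (x : G)) (by
    intro a b hab
    rw [QuotientGroup.leftRel_apply] at hab ⊢
    exact hab)
  have hf : Function.Injective f := by
    intro a b
    induction a using QuotientGroup.induction_on with | H a => ?_
    induction b using QuotientGroup.induction_on with | H b => ?_
    intro hab
    have : ((a : G) : G ⧸ K) = ((b : G) : G ⧸ K) := hab
    rw [QuotientGroup.eq] at this
    rw [QuotientGroup.eq]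
    exact this
  have hcard : Nat.card (H ⧸ (K.subgroupOf H)) = Nat.card (G ⧸ K) := by
    rw [← Subgroup.index_eq_card, ← Subgroup.index_eq_card]
    rw [Subgroup.inf_relIndex_left] at hrel
    exact hrel
  have hsurj : Function.Surjective f := (Nat.bijective_iff_injective_and_card f |>.mpr ⟨hf, hcard⟩).2
  intro g
  obtain ⟨q, hq⟩ := hsurj (g : G ⧸ K)
  induction q using QuotientGroup.induction_on with | H x => ?_
  have : ((x : G) : G ⧸ K) = (g : G ⧸ K) := hq
  rw [QuotientGroup.eq] at this
  exact ⟨x, x.2, (x : G)⁻¹ * g, this, by group⟩

end Cfsg.Agent.S0007
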