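import Cfsg.Statements.S0011
import Cfsg.Agent.LibTransNil

set_option autoImplicit false
open Cfsg

namespace Cfsg.Agent.S0011

/-- If the Frattini quotient of a finite group is nilpotent then the group is nilpotent. -/
theorem result {G : Type*} [Group G] [Finite G]
    (h : Group.IsNilpotent (G ⧸ frattini G)) : Group.IsNilpotent G := by
  have key : ∀ (p : ℕ) (hp : Fact p.Prime) (P : Sylow p G), (P : Subgroup G).Normal := by
    intro p hp P
    have h1 : ((P : Subgroup G).map (QuotientGroup.mk' (frattini G))).Normal := by
      have h2 := (Group.isNilpotent_of_finite_tfae (G := G ⧸ frattini G)).out 0 3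
      have h3 := h2.mp h p hp (P.mapSurjective (QuotientGroup.mk'_surjective (frattini G)))
      exact h3
    obtain ⟨N, hN⟩ : ∃ N, N = (P : Subgroup G) ⊔ frattini G := ⟨_, rfl⟩
    have hNn : N.Normal := by
      have : N = ((P : Subgroup G).map (QuotientGroup.mk' (frattini G))).comap (QuotientGroup.mk' (frattini G)) := by
        rw [Subgroup.comap_map_eq, QuotientGroup.ker_mk', hN]
      rw [this]; infer_instance
    have hPN : (P : Subgroup G) ≤ N := hN ▸ le_sup_left
    have h4 := Sylow.normalizer_sup_eq_top' (p := p) P hPN
    have h5 : Subgroup.normalizer ((P : Subgroup G) : Set G) ⊔ frattini G = ⊤ := by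
      rw [← h4, hN, ← sup_assoc]
      congr 1
      exact (sup_eq_left.mpr Subgroup.le_normalizer).symm
    have h6 : Subgroup.normalizer ((P : Subgroup G) : Set G) = ⊤ := frattini_nongenerating h5
    rwa [Subgroup.normalizer_eq_top_iff] at h6
  exact ((Group.isNilpotent_of_finite_tfae (G := G)).out 0 3).mpr key

end Cfsg.Agent.S0011
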