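import Cfsg.Statements.S0017
import Cfsg.Agent.LibSolvFitting

set_option autoImplicit false
open Cfsg

namespace Cfsg.Agent.S0017

/-- In a finite solvable group whose largest normal subgroup of order prime to p is trivial, the centralizer of the p-core is contained in the p-core. -/
theorem result {G : Type*} [Group G] [Finite G] [Group.IsSolvable G] (p : ℕ) [Fact p.Prime]
    (h : Cfsg.pPrimeCore p G = ⊥) :
    Subgroup.centralizer (Cfsg.pCore p G : Set G) ≤ Cfsg.pCore p G := by
  rw [← CfsgLib.SolvFitting.fitting_eq_pCore p h]
  exact CfsgLib.SolvFitting.centralizer_fitting_le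

end Cfsg.Agent.S0017
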