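import Cfsg.Statements.S0018
import Cfsg.Agent.LibSolvMisc
import Cfsg.Agent.S0017
import Cfsg.Agent.LibCores

set_option autoImplicit false
open Cfsg

namespace Cfsg.Agent.S0018

/-- A finite solvable group whose Sylow p-subgroups are abelian has p-length one: a Sylow p-subgroup together with the largest normal subgroup of order prime to p generates a normal subgroup. -/
theorem result {G : Type*} [Group G] [Finite G] [Group.IsSolvable G]
    (p : ℕ) [Fact p.Prime] (P : Sylow p G) (hP : IsMulCommutative P) :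
    ((P : Subgroup G) ⊔ Cfsg.pPrimeCore p G).Normal := by
  obtain ⟨C, hC⟩ : ∃ C, C = Cfsg.pPrimeCore p G := ⟨_, rfl⟩
  have hCn : C.Normal := by rw [hC]; infer_instance
  have h1 : Cfsg.pPrimeCore p (G ⧸ C) = ⊥ := by
    subst hC
    exact CfsgLib.Cores.pPrimeCore_quotient_pPrimeCore p
  have h2 := Cfsg.Agent.S0017.result p h1
  let P' : Sylow p (G ⧸ C) := P.mapSurjective (QuotientGroup.mk'_surjective C)
  have hP' : (P' : Subgroup (G ⧸ C)) = (P : Subgroup G).map (QuotientGroup.mk' C) := rfl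
  have hle : Cfsg.pCore p (G ⧸ C) ≤ (P' : Subgroup (G ⧸ C)) := CfsgLib.Cores.pCore_le_sylow P'
  have hge : (P' : Subgroup (G ⧸ C)) ≤ Cfsg.pCore p (G ⧸ C) := by
    refine le_trans ?_ h2
    intro x hx
    rw [Subgroup.mem_centralizer_iff]
    intro y hy
    have hy' := hle hy
    rw [hP'] at hx hy'
    obtain ⟨a, ha, rfl⟩ := hx
    obtain ⟨b, hb, rfl⟩ := hy'
    have h3 : b * a = a * b := congrArg Subtype.val
      (hP.is_comm.comm (⟨b, hb⟩ : (P : Subgroup G)) ⟨a, ha⟩)
    rw [← map_mul, ← map_mul, h3]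
  have heq : (P' : Subgroup (G ⧸ C)) = Cfsg.pCore p (G ⧸ C) := le_antisymm hge hle
  have hn : ((P' : Subgroup (G ⧸ C))).Normal := by rw [heq]; infer_instance
  have h4 : (P : Subgroup G) ⊔ C = ((P' : Subgroup (G ⧸ C))).comap (QuotientGroup.mk' C) := by
    rw [hP', Subgroup.comap_map_eq, QuotientGroup.ker_mk']
  rw [← hC, h4]
  infer_instance

end Cfsg.Agent.S0018
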