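import Cfsg.Statements.S0030
import Cfsg.Agent.LibSolvCoprime2

set_option autoImplicit false
open Cfsg

namespace Cfsg.Agent.S0030

/-- Under coprime action fixed points of a product of two invariant subgroups factor: if K = X Y with X and Y normalised by A then every A-fixed element of K is a product of an A-fixed element of X and an A-fixed element of Y. -/
theorem result {G : Type*} [Group G] [Finite G] (A K : Subgroup G) (hAK : A ≤ Subgroup.normalizer (K : Set G))
    (hcop : (Nat.card A).Coprime (Nat.card K)) (hsolv : Group.IsSolvable A ∨ Group.IsSolvable K)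
    (X Y : Subgroup G) (hX : X ≤ K) (hY : Y ≤ K) (hXA : A ≤ Subgroup.normalizer (X : Set G)) (hYA : A ≤ Subgroup.normalizer (Y : Set G))
    (hXY : ∀ k ∈ K, ∃ x ∈ X, ∃ y ∈ Y, k = x * y) (k : G) (hk : k ∈ K ⊓ Subgroup.centralizer (A : Set G)) :
    ∃ x ∈ X ⊓ Subgroup.centralizer (A : Set G), ∃ y ∈ Y ⊓ Subgroup.centralizer (A : Set G), k = x * y := by
  obtain ⟨x, hx, y, hy, rfl⟩ := hXY k hk.1
  have hkA := Subgroup.mem_centralizer_iff.mp hk.2
  have hD : A ≤ Subgroup.normalizer ((X ⊓ Y : Subgroup G) : Set G) :=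
    (le_inf hXA hYA).trans (Subgroup.inf_normalizer_le_normalizer_inf (H := X) (K := Y))
  have hDK : X ⊓ Y ≤ K := inf_le_left.trans hX
  obtain ⟨d, hd, hc⟩ := CfsgLib.SolvCoprime.exists_mul_mem_centralizer A (X ⊓ Y) hD
    (Nat.Coprime.coprime_dvd_right (Subgroup.card_dvd_of_le hDK) hcop) (by
      rcases hsolv with h | h
      · exact Or.inl h
      · exact Or.inr (CfsgLib.SolvBasic.isSolvable_of_le hDK)) x (by
      intro a ha
      refine Subgroup.mem_inf.mpr ⟨?_, ?_⟩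
      · have h1 : a * x * a⁻¹ ∈ X := (Subgroup.mem_normalizer_iff.mp (hXA ha) x).mp hx
        have h2 := X.mul_mem (X.inv_mem hx) h1
        have h3 : x⁻¹ * (a * x * a⁻¹) = x⁻¹ * a * x * a⁻¹ := by group
        rwa [h3] at h2
      · have h1 : a * y * a⁻¹ ∈ Y := (Subgroup.mem_normalizer_iff.mp (hYA ha) y).mp hy
        have h2 := Y.mul_mem hy (Y.inv_mem h1)
        have h4 := hkA a ha
        have h3 : y * (a * y * a⁻¹)⁻¹ = x⁻¹ * a * x * a⁻¹ := by
          have h5 : a * x * y * a⁻¹ = x * y := by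
            rw [mul_inv_eq_iff_eq_mul, mul_assoc a x y]; exact h4
          calc y * (a * y * a⁻¹)⁻¹ = x⁻¹ * (x * y) * (a * y * a⁻¹)⁻¹ := by group
            _ = x⁻¹ * (a * x * y * a⁻¹) * (a * y * a⁻¹)⁻¹ := by rw [h5]
            _ = x⁻¹ * a * x * a⁻¹ := by group
        rwa [h3] at h2)
  have hdX := (Subgroup.mem_inf.mp hd).1
  have hdY := (Subgroup.mem_inf.mp hd).2
  refine ⟨x * d, Subgroup.mem_inf.mpr ⟨X.mul_mem hx hdX, hc⟩, d⁻¹ * y,
    Subgroup.mem_inf.mpr ⟨Y.mul_mem (Y.inv_mem hdY) hy, ?_⟩, by group⟩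
  have h1 : d⁻¹ * y = (x * d)⁻¹ * (x * y) := by group
  rw [h1]
  exact Subgroup.mul_mem _ (Subgroup.inv_mem _ hc) hk.2

end Cfsg.Agent.S0030
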