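import Cfsg.Statements.S0034
import Mathlib
import Cfsg.Agent.LibFrob6b

set_option autoImplicit false
open Cfsg

namespace Cfsg.Agent.S0034

/-- For a Frobenius complement H, the set of elements lying in no conjugate of H, together with 1, has exactly as many elements as the index of H, and that index is congruent to 1 modulo the order of H. -/
theorem result {G : Type*} [Group G] [Finite G] (H : Subgroup G) (hH : Cfsg.IsFrobeniusComplement H) :
    Nat.card (Cfsg.frobeniusKernel H) = H.index ∧ H.index % Nat.card H = 1 % Nat.card H := by
  have hH' : CfsgLib.Frob6.Mal H := CfsgLib.Frob6.mal_iff.mpr hH.2.2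
  refine ⟨CfsgLib.Frob6.card_kernel H hH.2.2, ?_⟩
  exact CfsgLib.Frob6.index_mod H hH.2.2

end Cfsg.Agent.S0034
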