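import Cfsg.Statements.S0037
import Mathlib
import Cfsg.Agent.LibFrob6b

set_option autoImplicit false
open Pointwise
open Cfsg

namespace Cfsg.Agent.S0037

/-- Of two Frobenius complements in one finite group, the one of smaller (or equal) order is conjugate to a subgroup of the other. -/
theorem result {G : Type*} [Group G] [Finite G] (H H₀ : Subgroup G)
    (hH : Cfsg.IsFrobeniusComplement H) (hH₀ : Cfsg.IsFrobeniusComplement H₀) (hle : Nat.card H₀ ≤ Nat.card H) :
    ∃ g : G, MulAut.conj g • H₀ ≤ H := by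
  exact CfsgLib.Frob6.conj_le_of_card_le (CfsgLib.Frob6.mal_iff.mpr hH.2.2) (CfsgLib.Frob6.mal_iff.mpr hH₀.2.2)
    hH.1 hH₀.1 hle

end Cfsg.Agent.S0037
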