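import Cfsg.Statements.S0038
import Mathlib
import Cfsg.Agent.LibFrob6c

set_option autoImplicit false
open Pointwise
open Cfsg

namespace Cfsg.Agent.S0038

/-- All Frobenius complements of a finite group are conjugate to one another. -/
theorem result {G : Type*} [Group G] [Finite G] (H H₀ : Subgroup G)
    (hH : Cfsg.IsFrobeniusComplement H) (hH₀ : Cfsg.IsFrobeniusComplement H₀) :
    ∃ g : G, MulAut.conj g • H₀ = H := by
  have h1 := CfsgLib.Frob6.mal_iff.mpr hH.2.2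
  have h2 := CfsgLib.Frob6.mal_iff.mpr hH₀.2.2
  have hnt : ∀ (X : Subgroup G) (g : G), X ≠ ⊥ → MulAut.conj g • X ≠ ⊥ := by
    intro X g hX h
    apply hX
    rw [← Subgroup.card_eq_one] at h ⊢
    rwa [Nat.card_congr (Subgroup.equivSMul (MulAut.conj g) X).toEquiv]
  rcases le_total (Nat.card H₀) (Nat.card H) with hle | hle
  · obtain ⟨g, hg⟩ := CfsgLib.Frob6.conj_le_of_card_le h1 h2 hH.1 hH₀.1 hle
    exact ⟨g, CfsgLib.Frob6.eq_of_le h1 (h2.conj g) hH.2.1 (hnt _ g hH₀.1) hg⟩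
  · obtain ⟨g, hg⟩ := CfsgLib.Frob6.conj_le_of_card_le h2 h1 hH₀.1 hH.1 hle
    have := CfsgLib.Frob6.eq_of_le h2 (h1.conj g) hH₀.2.1 (hnt _ g hH.1) hg
    refine ⟨g⁻¹, ?_⟩
    rw [← this, map_inv, inv_smul_smul]

end Cfsg.Agent.S0038
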