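import Cfsg.Statements.S0040
import Cfsg.Agent.LibFPF2

set_option autoImplicit false
open Cfsg

namespace Cfsg.Agent.S0040

/-- Sylow subgroups of Frobenius complements: if H complements a nontrivial normal subgroup K and every nonidentity element of H has trivial centraliser in K, then each Sylow subgroup of H is cyclic or isomorphic to a generalized quaternion group. -/
theorem result {G : Type*} [Group G] [Finite G] (K H : Subgroup G) [K.Normal]
    (hc : Subgroup.IsComplement' K H) (hK : K ≠ ⊥) (hfpf : ∀ h ∈ H, h ≠ 1 → K ⊓ Subgroup.centralizer {h} = ⊥)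
    (p : ℕ) [Fact p.Prime] (P : Sylow p H) :
    IsCyclic P ∨ ∃ n : ℕ, Nonempty (P ≃* QuaternionGroup (2 ^ n)) := by
  have hHK : H ≤ Subgroup.normalizer (K : Set G) := by rw [Subgroup.normalizer_eq_top]; exact le_top
  obtain ⟨P', hP'⟩ : ∃ P', P' = (P : Subgroup H).map H.subtype := ⟨_, rfl⟩
  have hP'H : P' ≤ H := hP' ▸ Subgroup.map_subtype_le _
  have hP'p : IsPGroup p P' := hP' ▸ P.isPGroup'.map _
  have e : (P : Subgroup H) ≃* P' := by
    rw [hP']
    exact (P : Subgroup H).equivMapOfInjective H.subtype H.subtype_injective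
  have hf : CfsgLib.FPF1.FPF H K := hfpf
  by_cases hp2 : p = 2
  · subst hp2
    rcases (hf.mono hP'H).two_group (hP'H.trans hHK) hK hP'p with h | ⟨n, ⟨f⟩⟩
    · exact Or.inl ((MulEquiv.isCyclic e).mpr h)
    · exact Or.inr ⟨n, ⟨e.trans f⟩⟩
  · exact Or.inl ((MulEquiv.isCyclic e).mpr
      ((hf.mono hP'H).pgroup_cyclic (hP'H.trans hHK) hK Fact.out hp2 hP'p))

end Cfsg.Agent.S0040
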