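import Cfsg.Statements.S0046
import Cfsg.Agent.LibSolvMisc

set_option autoImplicit false
open Cfsg

namespace Cfsg.Agent.S0046

/-- Schmidt's Theorem on minimal non-nilpotent groups: a finite group in which every maximal subgroup is nilpotent is solvable. -/
theorem result {G : Type*} [Group G] [Finite G]
    (h : ∀ M : Subgroup G, IsCoatom M → Group.IsNilpotent M) : Group.IsSolvable G := by
  have hprop : ∀ H : Subgroup G, H ≠ ⊤ → Group.IsNilpotent H := by
    intro H hH
    obtain ⟨M, hM, hHM⟩ := (eq_top_or_exists_le_coatom H).resolve_left hH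
    have := h M hM
    exact Group.nilpotent_of_mulEquiv (Subgroup.subgroupOfEquivOfLe hHM)
  rcases subsingleton_or_nontrivial G with hs | hnt
  · let _ : CommGroup G := { (inferInstance : Group G) with mul_comm := fun a b => Subsingleton.elim _ _ }
    infer_instance
  obtain ⟨q, hq, hqd, hN⟩ := CfsgLib.TransNil.schmidt_npc hnt hprop
  have : Fact q.Prime := ⟨hq⟩
  rw [CfsgLib.TransPC.hasNPC_iff] at hN
  obtain ⟨N, hN⟩ := hN
  have hNn := hN.1
  have hNtop : N ≠ ⊤ := by
    rintro rfl
    apply hN.2.1
    rwa [Subgroup.card_top]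
  have h1 : Group.IsNilpotent N := hprop N hNtop
  have h2 : Group.IsSolvable (G ⧸ N) := by
    obtain ⟨k, hk⟩ := hN.2.2
    have : IsPGroup q (G ⧸ N) := IsPGroup.of_card (n := k) (by rw [← hk, Subgroup.index_eq_card])
    have := this.isNilpotent
    infer_instance
  exact Group.isSolvable_of_ker_le_range N.subtype (QuotientGroup.mk' N)
    (by rw [QuotientGroup.ker_mk', Subgroup.range_subtype])

end Cfsg.Agent.S0046
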