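import Cfsg.Statements.S0047
import Cfsg.Agent.LibSolvMisc

set_option autoImplicit false
open Cfsg

namespace Cfsg.Agent.S0047

/-- A finite group which is the product AB of two abelian subgroups A and B is solvable. -/
theorem result {G : Type*} [Group G] [Finite G] (A B : Subgroup G)
    [IsMulCommutative A] [IsMulCommutative B] (hAB : ∀ g : G, ∃ a ∈ A, ∃ b ∈ B, g = a * b) :
    Group.IsSolvable G := by
  obtain ⟨N, hN, hNc, h⟩ := CfsgLib.SolvMisc.ito A B inferInstance inferInstance hAB
  have h1 : Group.IsSolvable N := by
    let _ : CommGroup N := { (inferInstance : Group N) with mul_comm := hNc.is_comm.comm }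
    infer_instance
  have h2 : Group.IsSolvable (G ⧸ N) := by
    let _ : CommGroup (G ⧸ N) := { (inferInstance : Group (G ⧸ N)) with
      mul_comm := by
        intro a b
        obtain ⟨x, rfl⟩ := QuotientGroup.mk'_surjective N a
        obtain ⟨y, rfl⟩ := QuotientGroup.mk'_surjective N b
        have h3 : QuotientGroup.mk' N (x * y * x⁻¹ * y⁻¹) = 1 := (QuotientGroup.eq_one_iff _).mpr (h x y)
        rwa [map_mul, map_mul, map_mul, map_inv, map_inv, mul_inv_eq_one, mul_inv_eq_iff_eq_mul] at h3 }
    infer_instance
  exact Group.isSolvable_of_ker_le_range N.subtype (QuotientGroup.mk' N)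
    (by rw [QuotientGroup.ker_mk', Subgroup.range_subtype])

end Cfsg.Agent.S0047
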