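import Cfsg.Statements.S0048
import Cfsg.Agent.LibTransNil

set_option autoImplicit false
open Cfsg

namespace Cfsg.Agent.S0048

/-- In a finite solvable group every maximal subgroup has index a prime power. -/
theorem result {G : Type*} [Group G] [Finite G] [Group.IsSolvable G]
    (M : Subgroup G) (hM : IsCoatom M) : IsPrimePow M.index := by
  -- pass to the quotient by the core
  obtain ⟨C, hC⟩ : ∃ C, C = M.normalCore := ⟨_, rfl⟩
  have hCn : C.Normal := hC ▸ inferInstance
  have hCM : C ≤ M := hC ▸ Subgroup.normalCore_le M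
  have hCtop : C ≠ ⊤ := fun h => hM.1 (top_le_iff.mp (h ▸ hCM))
  have hnt : Nontrivial (G ⧸ C) := by
    rw [QuotientGroup.nontrivial_iff]; exact hCtop
  obtain ⟨N, p, hp, hNmin, -, -, -, hNp⟩ :=
    CfsgLib.SolvMin.exists_minNormal_pgroup_of_solvable (G := G ⧸ C) ⊤ top_ne_bot
  have hNn := hNmin.1
  have hpf : Fact p.Prime := ⟨hp⟩
  obtain ⟨L, hL⟩ : ∃ L, L = M.map (QuotientGroup.mk' C) := ⟨_, rfl⟩
  have hLM : L.comap (QuotientGroup.mk' C) = M := by
    rw [hL, Subgroup.comap_map_eq, QuotientGroup.ker_mk']; exact sup_eq_left.mpr hCM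
  have hLi : L.index = M.index := by
    rw [← hLM, Subgroup.index_comap_of_surjective _ (QuotientGroup.mk'_surjective C)]
  have hNL : ¬ N ≤ L := by
    intro h
    have h1 : N.comap (QuotientGroup.mk' C) ≤ M := by
      rw [← hLM]; exact Subgroup.comap_mono h
    have h2 : N.comap (QuotientGroup.mk' C) ≤ C :=
      le_trans ((Subgroup.normal_le_normalCore (H := M)
        (N := N.comap (QuotientGroup.mk' C))).mpr h1) hC.ge
    have h3 := Subgroup.map_mono (f := QuotientGroup.mk' C) h2
    rw [Subgroup.map_comap_eq_self_of_surjective (QuotientGroup.mk'_surjective C),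
      QuotientGroup.map_mk'_self, le_bot_iff] at h3
    exact hNmin.2.1 h3
  have hsup : L ⊔ N = ⊤ := by
    have h1 : M < (L ⊔ N).comap (QuotientGroup.mk' C) := by
      rw [lt_iff_le_and_ne]
      refine ⟨by rw [← hLM]; exact Subgroup.comap_mono le_sup_left, fun h => hNL ?_⟩
      have h2 := congrArg (Subgroup.map (QuotientGroup.mk' C)) h
      rw [Subgroup.map_comap_eq_self_of_surjective (QuotientGroup.mk'_surjective C), ← hL] at h2
      rw [h2]; exact le_sup_right
    have h2 := hM.2 _ h1
    have h3 := congrArg (Subgroup.map (QuotientGroup.mk' C)) h2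
    rwa [Subgroup.map_comap_eq_self_of_surjective (QuotientGroup.mk'_surjective C),
      ← MonoidHom.range_eq_map, MonoidHom.range_eq_top.mpr (QuotientGroup.mk'_surjective C)] at h3
  have hidx : L.index ∣ Nat.card N := by
    have h1 := CfsgLib.SolvBasic.card_sup_of_normal N L
    rw [sup_comm, hsup, Subgroup.card_top, ← L.index_mul_card] at h1
    refine Dvd.intro (Nat.card (N ⊓ L : Subgroup (G ⧸ C))) ?_
    apply Nat.eq_of_mul_eq_mul_right (Nat.card_pos (α := L))
    rw [← h1]; ring
  obtain ⟨k, hk⟩ := IsPGroup.iff_card.mp hNp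
  rw [hk, hLi] at hidx
  obtain ⟨j, _, hj⟩ := (Nat.dvd_prime_pow hp).mp hidx
  rw [hj]
  have hj0 : j ≠ 0 := by
    rintro rfl
    rw [pow_zero, Subgroup.index_eq_one] at hj
    exact hM.1 hj
  exact hp.isPrimePow.pow hj0

end Cfsg.Agent.S0048
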