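import Cfsg.Statements.S0049
import Cfsg.Agent.LibTransNil

set_option autoImplicit false
open Cfsg

namespace Cfsg.Agent.S0049

/-- A prime divisor of the order of a finite group also divides the index of the Frattini subgroup. -/
theorem result {G : Type*} [Group G] [Finite G] (p : ℕ) (hp : p.Prime) (hdvd : p ∣ Nat.card G) :
    p ∣ (frattini G).index := by
  have hpf : Fact p.Prime := ⟨hp⟩
  by_contra hnd
  -- a Sylow p-subgroup of the Frattini subgroup is Sylow in G
  obtain ⟨Q, hQ⟩ := CfsgLib.SolvCoprime.IsSylowIn.exists_isSylowIn (p := p) (frattini G)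
  have hQi : ¬ p ∣ Q.index := by
    rw [← Subgroup.relIndex_mul_index hQ.le]
    intro hd
    rcases (Nat.Prime.dvd_mul hp).mp hd with h1 | h1
    · exact hQ.not_dvd h1
    · exact hnd h1
  let P : Sylow p G := hQ.isPGroup.toSylow hQi
  have h4 := Sylow.normalizer_sup_eq_top' (p := p) P hQ.le
  have h6 : Subgroup.normalizer (Q : Set G) = ⊤ := frattini_nongenerating h4
  have hQn : Q.Normal := by rwa [Subgroup.normalizer_eq_top_iff] at h6
  have hco : Nat.Coprime (Nat.card Q) Q.index := P.card_coprime_index
  obtain ⟨K, hK⟩ := Subgroup.exists_right_complement'_of_coprime hco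
  have h7 : K ⊔ frattini G = ⊤ := by
    rw [eq_top_iff, ← hK.sup_eq_top]
    exact sup_le (hQ.le.trans le_sup_right) le_sup_left
  have h8 : K = ⊤ := frattini_nongenerating h7
  have h9 := hK.disjoint.eq_bot
  rw [h8, inf_top_eq] at h9
  have h10 : p ∣ Nat.card Q := P.dvd_card_of_dvd_card hdvd
  rw [h9, Subgroup.card_bot] at h10
  exact hp.not_dvd_one h10

end Cfsg.Agent.S0049
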