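import Cfsg.Statements.S0050
import Cfsg.Agent.LibSolvHall

set_option autoImplicit false
open Cfsg

namespace Cfsg.Agent.S0050

open Pointwise CfsgLib.SolvBasic CfsgLib.SolvHall in
/-- Frattini argument for Hall subgroups: if L is a solvable normal subgroup and H a subgroup of L of order coprime to its index in L, then L together with the normaliser of H generates the whole group. -/
theorem result {G : Type*} [Group G] [Finite G] (L : Subgroup G) [L.Normal] (hL : Group.IsSolvable L)
    (H : Subgroup G) (hHL : H ≤ L) (hHall : (Nat.card H).Coprime (H.relIndex L)) :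
    L ⊔ Subgroup.normalizer (H : Set G) = ⊤ := by
  rw [eq_top_iff]
  intro g _
  have h1 : MulAut.conj g • H ≤ L := by
    have : MulAut.conj g • L = L := Subgroup.Normal.conj_smul_eq_self g L
    rw [← this]
    exact Subgroup.pointwise_smul_le_pointwise_smul_iff.mpr hHL
  obtain ⟨l, hl, hc⟩ := hall_conj_in_subgroup L hL H (MulAut.conj g • H) hHL h1 hHall
    (card_conj_smul g H).symm
  have h2 : l⁻¹ * g ∈ Subgroup.normalizer (H : Set G) := by
    rw [mem_normalizer_iff_conj_smul, conj_smul_mul, ← hc, ← conj_smul_mul, inv_mul_cancel,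
      conj_smul_one]
  have h3 : g = l * (l⁻¹ * g) := by group
  rw [h3]
  exact Subgroup.mul_mem_sup hl h2

end Cfsg.Agent.S0050
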