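import Cfsg.Statements.S0053
import Cfsg.Agent.LibTransNil

set_option autoImplicit false
open Cfsg

namespace Cfsg.Agent.S0053

/-- An abelian minimal normal subgroup N of a finite group is complemented exactly when N is not inside the Frattini subgroup. -/
theorem result {G : Type*} [Group G] [Finite G]
    (N : Subgroup G) [N.Normal] [IsMulCommutative N] (hN : N ≠ ⊥)
    (hmin : ∀ M : Subgroup G, M.Normal → M ≤ N → M = ⊥ ∨ M = N) :
    (∃ H : Subgroup G, Subgroup.IsComplement' N H) ↔ ¬ N ≤ frattini G := by
  constructor
  · rintro ⟨H, hH⟩ hle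
    have h1 : H ⊔ frattini G = ⊤ := by
      rw [eq_top_iff, ← hH.sup_eq_top]
      exact sup_le (hle.trans le_sup_right) le_sup_left
    have h2 : H = ⊤ := frattini_nongenerating h1
    have h3 := hH.disjoint.eq_bot
    rw [h2, inf_top_eq] at h3
    exact hN h3
  · intro h
    obtain ⟨M, hM, hNM⟩ : ∃ M : Subgroup G, IsCoatom M ∧ ¬ N ≤ M := by
      by_contra hno
      push Not at hno
      apply h
      rw [frattini, Order.radical]
      exact le_iInf₂ (fun M hM => hno M hM)
    have hsup : N ⊔ M = ⊤ := by
      apply hM.2
      rw [lt_iff_le_and_ne]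
      exact ⟨le_sup_right, fun h => hNM (h ▸ le_sup_left)⟩
    refine ⟨M, ?_⟩
    have hinf : N ⊓ M = ⊥ := by
      have hn : (N ⊓ M).Normal := by
        rw [← Subgroup.normalizer_eq_top_iff, eq_top_iff, ← hsup]
        apply sup_le
        · intro x hx
          have hc : x ∈ Subgroup.centralizer ((N ⊓ M : Subgroup G) : Set G) := by
            rw [Subgroup.mem_centralizer_iff]
            intro y hy
            exact congrArg Subtype.val ((inferInstance : IsMulCommutative N).is_comm.comm
              (⟨y, (Subgroup.mem_inf.mp hy).1⟩ : N) ⟨x, hx⟩)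
          exact Subgroup.centralizer_le_normalizer _ hc
        · refine le_trans ?_ Subgroup.inf_normalizer_le_normalizer_inf
          rw [Subgroup.normalizer_eq_top (H := N), top_inf_eq]
          exact Subgroup.le_normalizer
      rcases hmin _ hn inf_le_left with h1 | h1
      · exact h1
      · exact absurd (inf_eq_left.mp h1) hNM
    apply Subgroup.isComplement'_of_disjoint_and_mul_eq_univ
    · rw [disjoint_iff]; exact hinf
    · rw [← Subgroup.normal_mul, hsup, Subgroup.coe_top]

end Cfsg.Agent.S0053
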