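import Cfsg.Statements.S0054
import Cfsg.Agent.LibSolvMisc

set_option autoImplicit false
open Cfsg

namespace Cfsg.Agent.S0054

/-- A regular normal subgroup of a finite 2-transitive group is elementary abelian: it is commutative and all its elements have order dividing one prime. -/
theorem result {G : Type*} [Group G] [Finite G]
    {X : Type*} [Nonempty X] [MulAction G X] (h2 : MulAction.IsMultiplyPretransitive G X 2)
    (N : Subgroup G) [N.Normal] (htrans : MulAction.IsPretransitive N X) (hreg : ∀ x : X, MulAction.stabilizer N x = ⊥) :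
    IsMulCommutative N ∧ ∃ p : ℕ, p.Prime ∧ ∀ n ∈ N, n ^ p = 1 := by
  rcases subsingleton_or_nontrivial N with hs | hnt
  · refine ⟨⟨⟨fun a b => Subsingleton.elim _ _⟩⟩, 2, Nat.prime_two, fun n hn => ?_⟩
    have : (⟨n, hn⟩ : N) = 1 := Subsingleton.elim _ _
    have : n = 1 := congrArg Subtype.val this
    rw [this, one_pow]
  obtain ⟨x⟩ := (inferInstance : Nonempty X)
  have hfree : ∀ n m : G, n ∈ N → m ∈ N → n • x = m • x → n = m := by
    intro n m hn hm hnm
    have h1 : (⟨m⁻¹ * n, mul_mem (inv_mem hm) hn⟩ : N) ∈ MulAction.stabilizer N x := by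
      rw [MulAction.mem_stabilizer_iff]
      change (m⁻¹ * n) • x = x
      rw [mul_smul, hnm, inv_smul_smul]
    rw [hreg x, Subgroup.mem_bot] at h1
    have h2 : m⁻¹ * n = 1 := congrArg Subtype.val h1
    exact (inv_mul_eq_one.mp h2).symm
  have hconj : ∀ n m : G, n ∈ N → m ∈ N → n ≠ 1 → m ≠ 1 → ∃ g : G, g * n * g⁻¹ = m := by
    intro n m hn hm hn1 hm1
    have h1 : x ≠ n • x := fun h => hn1 (hfree n 1 hn (one_mem _) (by rw [one_smul]; exact h.symm))
    have h3 : x ≠ m • x := fun h => hm1 (hfree m 1 hm (one_mem _) (by rw [one_smul]; exact h.symm))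
    obtain ⟨g, hg1, hg2⟩ := (MulAction.is_two_pretransitive_iff.mp h2) h1 h3
    refine ⟨g, hfree _ _ ((inferInstance : N.Normal).conj_mem n hn g) hm ?_⟩
    rw [mul_smul, mul_smul]
    have h4 : g⁻¹ • x = x := by rw [inv_smul_eq_iff, hg1]
    rw [h4, hg2]
  obtain ⟨p, hp, hpd⟩ := Nat.exists_prime_and_dvd (n := Nat.card N) (by
    have := Finite.one_lt_card_iff_nontrivial.mpr hnt
    omega)
  have hpf : Fact p.Prime := ⟨hp⟩
  obtain ⟨z, hz⟩ := exists_prime_orderOf_dvd_card' p hpd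
  have hz' : orderOf (z : G) = p := by rw [Subgroup.orderOf_coe, hz]
  have hz1 : (z : G) ≠ 1 := by
    intro h
    rw [h, orderOf_one] at hz'
    exact hp.one_lt.ne hz'
  have hexp : ∀ n ∈ N, n ^ p = 1 := by
    intro n hn
    by_cases hn1 : n = 1
    · rw [hn1, one_pow]
    · obtain ⟨g, rfl⟩ := hconj z n z.2 hn hz1 hn1
      have h5 : (z : G) ^ p = 1 := by rw [← hz']; exact pow_orderOf_eq_one _
      rw [conj_pow, h5]; group
  refine ⟨?_, p, hp, hexp⟩
  have hNp : IsPGroup p N := CfsgLib.SolvMin.isPGroup_of_forall_pow_eq_one hexp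
  have hZ : Nontrivial (Subgroup.center N) := hNp.center_nontrivial
  obtain ⟨c, hc⟩ := exists_ne (1 : Subgroup.center N)
  have hcN : (c : N) ≠ 1 := fun h => hc (Subtype.ext h)
  have hcG : ((c : N) : G) ≠ 1 := fun h => hcN (Subtype.ext h)
  refine ⟨⟨fun a b => ?_⟩⟩
  by_cases ha : a = 1
  · rw [ha, one_mul, mul_one]
  · obtain ⟨g, hg⟩ := hconj (c : N) a (c : N).2 a.2 hcG (fun h => ha (Subtype.ext h))
    have h6 : (⟨g⁻¹ * b * g, by
        have := (inferInstance : N.Normal).conj_mem b b.2 g⁻¹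
        rwa [inv_inv] at this⟩ : N) * (c : N) = (c : N) * ⟨g⁻¹ * b * g, _⟩ :=
      Subgroup.mem_center_iff.mp c.2 _
    have h7 : (g⁻¹ * b * g) * ((c : N) : G) = ((c : N) : G) * (g⁻¹ * b * g) := congrArg Subtype.val h6
    apply Subtype.ext
    change (a : G) * b = b * a
    rw [← hg]
    calc g * ((c : N) : G) * g⁻¹ * b = g * (((c : N) : G) * (g⁻¹ * b * g)) * g⁻¹ := by group
      _ = g * ((g⁻¹ * b * g) * ((c : N) : G)) * g⁻¹ := by rw [h7]
      _ = _ := by group

end Cfsg.Agent.S0054
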