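import Cfsg.Statements.S0057
import Cfsg.Agent.LibSolvProd

set_option autoImplicit false
open Cfsg

namespace Cfsg.Agent.S0057

open scoped commutatorElement
open CfsgLib.SolvBasic CfsgLib.SolvMin CfsgLib.SolvHall CfsgLib.SolvCoprime CfsgLib.SolvProd

/-- Under coprime action, if the centraliser of A in K has prime index p in K then the commutator subgroup [K, A] has order exactly p. -/
theorem result {G : Type*} [Group G] [Finite G] (A K : Subgroup G) (hAK : A ≤ Subgroup.normalizer (K : Set G))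
    (hcop : (Nat.card A).Coprime (Nat.card K)) (hsolv : Group.IsSolvable A ∨ Group.IsSolvable K)
    (p : ℕ) (hp : p.Prime) (hidx : (K ⊓ Subgroup.centralizer (A : Set G)).relIndex K = p) :
    Nat.card (⁅K, A⁆ : Subgroup G) = p := by
  have : Fact p.Prime := ⟨hp⟩
  obtain ⟨C, hC⟩ : ∃ C, C = K ⊓ Subgroup.centralizer (A : Set G) := ⟨_, rfl⟩
  obtain ⟨K₁, hK₁⟩ : ∃ K₁, K₁ = ⁅K, A⁆ := ⟨_, rfl⟩
  obtain ⟨C₁, hC₁⟩ : ∃ C₁, C₁ = K₁ ⊓ Subgroup.centralizer (A : Set G) := ⟨_, rfl⟩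
  rw [← hC] at hidx
  have hK₁K : K₁ ≤ K := by rw [hK₁]; exact commutator_le_of_le_normalizer hAK
  have hC₁K₁ : C₁ ≤ K₁ := hC₁ ▸ inf_le_left
  have hCA : C ≤ Subgroup.centralizer (A : Set G) := hC ▸ inf_le_right
  have hC₁A : C₁ ≤ Subgroup.centralizer (A : Set G) := hC₁ ▸ inf_le_right
  have hKn : K ≤ Subgroup.normalizer (K₁ : Set G) := by
    rw [hK₁]; exact Subgroup.normalizer_commutator_ge_left K A
  have hAn : A ≤ Subgroup.normalizer (K₁ : Set G) := by
    rw [hK₁]; exact Subgroup.normalizer_commutator_ge_right K A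
  have hCK : C ≤ K := hC ▸ inf_le_left
  have hinf : K₁ ⊓ C = C₁ := by
    rw [hC, hC₁, ← inf_assoc, inf_eq_left.mpr hK₁K]
  have hcard := card_sup_of_le_normalizer (N := K₁) (H := C) (hCK.trans hKn)
  have hsup : K₁ ⊔ C = K := by rw [hK₁, hC]; exact commutator_sup_centralizer A K hAK hcop hsolv
  rw [hsup, hinf, ← card_eq_card_mul_relIndex hCK, hidx] at hcard
  have hcK₁ : Nat.card K₁ = Nat.card C₁ * p := by
    apply Nat.eq_of_mul_eq_mul_right (Nat.card_pos (α := C))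
    rw [← hcard]; ring
  have hrel : C₁.relIndex K₁ = p := relIndex_eq_of_card_mul hC₁K₁ hcK₁
  have hco₁ : (Nat.card A).Coprime (Nat.card K₁) :=
    Nat.Coprime.coprime_dvd_right (Subgroup.card_dvd_of_le hK₁K) hcop
  have hs₁ : Group.IsSolvable A ∨ Group.IsSolvable K₁ := by
    rcases hsolv with h | h
    · exact Or.inl h
    · exact Or.inr (isSolvable_of_le hK₁K)
  have hKKA : ⁅K₁, A⁆ = K₁ := by
    rw [hK₁]; exact commutator_commutator_eq A K hAK hcop hsolv
  obtain ⟨P, hP, hPA⟩ := exists_invariant_sylow A K₁ hAn hco₁ hs₁ p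
  -- `K₁ = P C₁`
  have hprod : ∀ g ∈ K₁, ∃ x ∈ P, ∃ y ∈ C₁, g = x * y := by
    apply exists_eq_mul_of_relIndex_le hP.le
    rw [hrel]
    have hd : C₁.relIndex P ∣ Nat.card P := Subgroup.relIndex_dvd_card C₁ P
    obtain ⟨k, hk⟩ := IsPGroup.iff_card.mp hP.isPGroup
    rw [hk, Nat.dvd_prime_pow hp] at hd
    obtain ⟨j, -, hj⟩ := hd
    rw [hj]
    have hj0 : j ≠ 0 := by
      rintro rfl
      rw [pow_zero, Subgroup.relIndex_eq_one] at hj
      apply hP.not_dvd
      rw [← Subgroup.relIndex_mul_relIndex P C₁ K₁ hj hC₁K₁, hrel]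
      exact Dvd.intro_left _ rfl
    exact Nat.le_of_dvd (pow_pos hp.pos j) (dvd_pow_self p hj0)
  have hKP : K₁ ≤ P := by
    conv_lhs => rw [← hKKA]
    rw [Subgroup.commutator_le]
    intro g hg a ha
    obtain ⟨x, hx, c, hc, rfl⟩ := hprod g hg
    have hca : c * a = a * c := (Subgroup.mem_centralizer_iff.mp (hC₁A hc) a ha).symm
    have h1 : ⁅x * c, a⁆ = ⁅x, a⁆ := by
      rw [commutatorElement_def, commutatorElement_def]
      calc x * c * a * (x * c)⁻¹ * a⁻¹ = x * (c * a) * c⁻¹ * x⁻¹ * a⁻¹ := by group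
        _ = x * a * x⁻¹ * a⁻¹ := by rw [hca]; group
    rw [h1]
    exact commutator_le_of_le_normalizer hPA (Subgroup.commutator_mem_commutator hx ha)
  have hKp : IsPGroup p K₁ := hP.isPGroup.to_le hKP
  have hKC₁ := le_normalizer_of_relIndex_eq hp hKp hC₁K₁ hrel
  -- three subgroups
  have h1 : ⁅⁅C₁, A⁆, K₁⁆ = ⊥ := by
    rw [Subgroup.commutator_eq_bot_iff_le_centralizer.mpr hC₁A, Subgroup.commutator_bot_left]
  have h2 : ⁅⁅K₁, C₁⁆, A⁆ = ⊥ := by
    rw [eq_bot_iff, ← Subgroup.commutator_eq_bot_iff_le_centralizer.mpr hC₁A]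
    apply Subgroup.commutator_mono _ le_rfl
    rw [Subgroup.commutator_comm]
    exact commutator_le_of_le_normalizer hKC₁
  have h3 : ⁅⁅A, K₁⁆, C₁⁆ = ⊥ := by
    apply Subgroup.commutator_commutator_eq_bot_of_rotate
    · rw [Subgroup.commutator_comm K₁ C₁] at h2; rw [Subgroup.commutator_comm K₁ C₁]; exact h2
    · exact h1
  rw [Subgroup.commutator_comm A K₁, hKKA] at h3
  -- K₁ abelian
  have hab : IsMulCommutative K₁ := by
    have hn : (C₁.subgroupOf K₁).Normal :=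
      (Subgroup.normal_subgroupOf_iff_le_normalizer hC₁K₁).mpr hKC₁
    have hcyc : IsCyclic (K₁ ⧸ C₁.subgroupOf K₁) := by
      apply isCyclic_of_prime_card (p := p)
      rw [← Subgroup.index_eq_card]; exact hrel
    refine MonoidHom.isMulCommutative_of_isCyclic_of_ker_le_center
      (QuotientGroup.mk' (C₁.subgroupOf K₁)) ?_
    rw [QuotientGroup.ker_mk']
    intro x hx
    rw [Subgroup.mem_center_iff]
    intro y
    have h4 := Subgroup.commutator_eq_bot_iff_le_centralizer.mp h3 y.2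
    exact Subtype.ext ((Subgroup.mem_centralizer_iff.mp h4 x hx).symm)
  have h4 := centralizer_inf_commutator A K₁ hAn hco₁
  rw [← hC₁, hKKA, inf_eq_left.mpr hC₁K₁] at h4
  rw [← hK₁, hcK₁, h4, Subgroup.card_bot, one_mul]

end Cfsg.Agent.S0057
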