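import Cfsg.Statements.S0059
import Cfsg.Agent.LibSolvProd

set_option autoImplicit false
open Cfsg

namespace Cfsg.Agent.S0059

open CfsgLib.SolvBasic CfsgLib.SolvMin CfsgLib.SolvHall CfsgLib.SolvCoprime CfsgLib.SolvProd

/-- Let a finite group act on a set on which a normal subgroup K of coprime order and index is transitive, with K or the quotient solvable. Then any complement H of K has a fixed point, and any two H-fixed points are interchanged by an element of K centralising H. -/
theorem result {G : Type*} [Group G] [Finite G] {X : Type*} [Nonempty X] [MulAction G X]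
    (K H : Subgroup G) [K.Normal] (hc : Subgroup.IsComplement' K H) (hcop : (Nat.card K).Coprime K.index)
    (hsolv : Group.IsSolvable K ∨ Group.IsSolvable (G ⧸ K)) (htrans : MulAction.IsPretransitive K X) :
    (∃ x : X, ∀ h ∈ H, h • x = x) ∧
    ∀ x y : X, (∀ h ∈ H, h • x = x) → (∀ h ∈ H, h • y = y) → ∃ k ∈ K ⊓ Subgroup.centralizer (H : Set G), k • x = y := by
  classical
  have hHc : Nat.card H = K.index := hc.symm.index_eq_card.symm
  have hcoHK : (Nat.card H).Coprime (Nat.card K) := by rw [hHc]; exact hcop.symm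
  have hsol : Group.IsSolvable H ∨ Group.IsSolvable K := by
    rcases hsolv with h | h
    · exact Or.inr h
    · left
      have hf : Function.Injective ((QuotientGroup.mk' K).comp H.subtype) := by
        rw [injective_iff_map_eq_one]
        rintro ⟨x, hx⟩ hx1
        have hxN : x ∈ K := (QuotientGroup.eq_one_iff x).mp hx1
        have : x ∈ K ⊓ H := ⟨hxN, hx⟩
        rw [hc.disjoint.eq_bot, Subgroup.mem_bot] at this
        exact Subtype.ext this
      exact Group.isSolvable_of_isSolvable_injective hf
  constructor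
  · obtain ⟨x₀⟩ := (inferInstance : Nonempty X)
    obtain ⟨S, hS⟩ : ∃ S, S = MulAction.stabilizer G x₀ := ⟨_, rfl⟩
    have hsup : K ⊔ S = ⊤ := by
      rw [eq_top_iff]
      intro g _
      obtain ⟨k, hk⟩ := htrans.exists_smul_eq x₀ (g • x₀)
      have h1 : (k : G)⁻¹ * g ∈ S := by
        rw [hS, MulAction.mem_stabilizer_iff, mul_smul, ← hk]
        change (k : G)⁻¹ • (k : G) • x₀ = x₀
        rw [inv_smul_smul]
      have h2 : g = k * ((k : G)⁻¹ * g) := by group
      rw [h2]
      exact Subgroup.mul_mem_sup k.2 h1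
    have hcS : Nat.card S = Nat.card (K ⊓ S : Subgroup G) * Nat.card H := by
      have h1 := card_sup_of_normal K S
      rw [hsup, Subgroup.card_top, ← K.card_mul_index, ← hHc] at h1
      have h2 : Nat.card K * (Nat.card H * Nat.card (K ⊓ S : Subgroup G))
          = Nat.card K * Nat.card S := by rw [← h1]; ring
      rw [← Nat.eq_of_mul_eq_mul_left Nat.card_pos h2, mul_comm]
    obtain ⟨D, hD⟩ : ∃ D, D = K ⊓ S := ⟨_, rfl⟩
    rw [← hD] at hcS
    have hDS : D ≤ S := hD ▸ inf_le_right
    have hDK : D ≤ K := hD ▸ inf_le_left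
    have hrelD : D.relIndex S = Nat.card H := relIndex_eq_of_card_mul hDS hcS
    have hDn : (D.subgroupOf S).Normal := by
      rw [hD, Subgroup.inf_subgroupOf_right]; infer_instance
    obtain ⟨B', hB'⟩ := Subgroup.exists_right_complement'_of_coprime (N := D.subgroupOf S)
      (by rw [card_subgroupOf hDS]; change (Nat.card D).Coprime (D.relIndex S)
          rw [hrelD]
          exact Nat.Coprime.coprime_dvd_left (Subgroup.card_dvd_of_le hDK) hcoHK.symm)
    have hBc : Nat.card (B'.map S.subtype) = Nat.card H := by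
      rw [Subgroup.card_map_of_injective S.subtype_injective, ← hB'.symm.index_eq_card]
      exact hrelD
    obtain ⟨g, hg⟩ := CfsgLib.SolvSZ.sz_conj K hcop hsolv H (B'.map S.subtype) hHc (hBc.trans hHc)
    refine ⟨g⁻¹ • x₀, fun h hh => ?_⟩
    have h1 : g * h * g⁻¹ ∈ B'.map S.subtype := by
      rw [← hg, mem_conj_smul]
      have : g⁻¹ * (g * h * g⁻¹) * g = h := by group
      rwa [this]
    have h2 : g * h * g⁻¹ ∈ S := Subgroup.map_subtype_le B' h1
    rw [hS, MulAction.mem_stabilizer_iff] at h2
    calc h • g⁻¹ • x₀ = g⁻¹ • ((g * h * g⁻¹) • x₀) := by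
          rw [← mul_smul, ← mul_smul]; congr 1; group
      _ = g⁻¹ • x₀ := by rw [h2]
  · intro x y hx hy
    obtain ⟨k, hk⟩ := htrans.exists_smul_eq x y
    obtain ⟨D, hD⟩ : ∃ D, D = K ⊓ MulAction.stabilizer G x := ⟨_, rfl⟩
    have hDK : D ≤ K := hD ▸ inf_le_left
    have hHx : H ≤ MulAction.stabilizer G x := fun h hh => hx h hh
    have hHD : H ≤ Subgroup.normalizer (D : Set G) := by
      rw [hD]
      refine (le_inf ?_ ?_).trans (Subgroup.inf_normalizer_le_normalizer_inf (H := K)
        (K := MulAction.stabilizer G x))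
      · rw [Subgroup.normalizer_eq_top]; exact le_top
      · exact hHx.trans Subgroup.le_normalizer
    obtain ⟨d, hd, hdc⟩ := exists_mul_mem_centralizer H D hHD
      (Nat.Coprime.coprime_dvd_right (Subgroup.card_dvd_of_le hDK) hcoHK) (by
        rcases hsol with h | h
        · exact Or.inl h
        · exact Or.inr (isSolvable_of_le hDK)) (k : G) (by
        intro h hh
        rw [hD]
        refine Subgroup.mem_inf.mpr ⟨?_, ?_⟩
        · have h1 : h * k * h⁻¹ ∈ K := ‹K.Normal›.conj_mem k k.2 h
          have h2 := K.mul_mem (K.inv_mem k.2) h1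
          have h3 : (k : G)⁻¹ * (h * k * h⁻¹) = (k : G)⁻¹ * h * k * h⁻¹ := by group
          rwa [h3] at h2
        · rw [MulAction.mem_stabilizer_iff, mul_smul, hx _ (H.inv_mem hh), mul_smul, mul_smul]
          have hk' : (k : G) • x = y := hk
          rw [hk', hy h hh, ← hk', inv_smul_smul])
    refine ⟨k * d, Subgroup.mem_inf.mpr ⟨K.mul_mem k.2 (hDK hd), hdc⟩, ?_⟩
    rw [hD] at hd
    rw [mul_smul, MulAction.mem_stabilizer_iff.mp (Subgroup.mem_inf.mp hd).2]
    exact hk

end Cfsg.Agent.S0059
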