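import Cfsg.Statements.S0064
import Cfsg.Agent.LibSolvMisc

set_option autoImplicit false
open Cfsg

namespace Cfsg.Agent.S0064

/-- A finite group is nilpotent exactly when each of its subgroups is subnormal. -/
theorem result {G : Type*} [Group G] [Finite G] :
    Group.IsNilpotent G ↔ ∀ H : Subgroup G, H.IsSubnormal := by
  have e : Group.IsNilpotent G ↔ NormalizerCondition G := (Group.isNilpotent_of_finite_tfae (G := G)).out 0 1
  rw [e]
  constructor
  · intro h H
    -- induction on the index
    obtain ⟨n, hn⟩ : ∃ n, n = H.index := ⟨_, rfl⟩
    induction n using Nat.strong_induction_on generalizing H with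
    | _ n ih =>
    by_cases hH : H = ⊤
    · rw [hH]; exact Subgroup.IsSubnormal.top
    · have h1 := h H (lt_top_iff_ne_top.mpr hH)
      refine Subgroup.IsSubnormal.step H (Subgroup.normalizer (H : Set G)) h1.le ?_ ?_
      · apply ih _ _ _ rfl
        rw [hn]
        exact Subgroup.index_strictAnti h1
      · exact Subgroup.normal_in_normalizer
  · intro h H hH
    have key : ∀ H : Subgroup G, H.IsSubnormal → H ≠ ⊤ → H < Subgroup.normalizer (H : Set G) := by
      intro H hs
      induction hs with
      | top => intro h; exact absurd rfl h
      | step H K h_le hSubn hN ih =>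
        intro _
        rcases eq_or_lt_of_le h_le with heq | hlt
        · rw [heq]
          apply ih
          rwa [← heq]
        · exact lt_of_lt_of_le hlt ((Subgroup.normal_subgroupOf_iff_le_normalizer h_le).mp hN)
    exact key H (h H) hH.ne

end Cfsg.Agent.S0064
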