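import Cfsg.Statements.S0069
import Cfsg.Agent.LibFPF2

set_option autoImplicit false
open Cfsg

namespace Cfsg.Agent.S0069

/-- A Frobenius complement has nontrivial centre: if H ≠ 1 complements a nontrivial normal subgroup K and every nonidentity element of H has trivial centraliser in K, then the centre of H is nontrivial. -/
theorem result {G : Type*} [Group G] [Finite G] (K H : Subgroup G) [K.Normal]
    (hc : Subgroup.IsComplement' K H) (hK : K ≠ ⊥) (hH : H ≠ ⊥) (hfpf : ∀ h ∈ H, h ≠ 1 → K ⊓ Subgroup.centralizer {h} = ⊥) :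
    Subgroup.center H ≠ ⊥ := by
  have hHK : H ≤ Subgroup.normalizer (K : Set G) := by rw [Subgroup.normalizer_eq_top]; exact le_top
  obtain ⟨t, htH, ht1, htc⟩ : ∃ t ∈ H, t ≠ 1 ∧ ∀ y ∈ H, y * t = t * y := by
    by_cases h2 : 2 ∣ Nat.card H
    · obtain ⟨⟨s, hs, hso, huniq, -⟩, -⟩ := CfsgLib.FPF1.FPF.even hfpf hHK hK h2
      refine ⟨s, hs, ?_, ?_⟩
      · rintro rfl
        rw [orderOf_one] at hso
        omega
      · intro y hy
        have h1 := huniq (y * s * y⁻¹) (mul_mem (mul_mem hy hs) (inv_mem hy))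
          (by rw [CfsgLib.TransFus.orderOf_conj, hso])
        exact mul_inv_eq_iff_eq_mul.mp h1
    · exact CfsgLib.FPF1.FPF.exists_central_odd hfpf hHK hK hH h2
  intro hb
  have h1 : (⟨t, htH⟩ : H) ∈ Subgroup.center H := by
    rw [Subgroup.mem_center_iff]
    intro y
    exact Subtype.ext (htc y y.2)
  rw [hb, Subgroup.mem_bot] at h1
  exact ht1 (congrArg Subtype.val h1)

end Cfsg.Agent.S0069
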