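import Cfsg.Statements.S0070
import Cfsg.Agent.LibSolvFitting
import Cfsg.Agent.LibSolvCoprime

set_option autoImplicit false
open Cfsg

namespace Cfsg.Agent.S0070

open Pointwise CfsgLib.SolvFitting CfsgLib.SolvBasic CfsgLib.SolvCoprime

/-- The Fitting subgroup commutes with passing to the Frattini quotient: the Fitting subgroup of G modulo its Frattini subgroup is the image of the Fitting subgroup of G. -/
theorem result {G : Type*} [Group G] [Finite G] :
    Cfsg.fittingSubgroup (G ⧸ frattini G) = (Cfsg.fittingSubgroup G).map (QuotientGroup.mk' (frattini G)) := by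
  suffices H : ∀ (Φ : Subgroup G) [Φ.Normal], frattini G = Φ → Cfsg.fittingSubgroup (G ⧸ Φ) =
    (Cfsg.fittingSubgroup G).map (QuotientGroup.mk' Φ) from H _ rfl
  intro Φ hΦn hΦ
  have hFn : (Cfsg.fittingSubgroup (G ⧸ Φ)).Normal := fitting_normal
  have hFnil : Group.IsNilpotent (Cfsg.fittingSubgroup (G ⧸ Φ)) := fitting_isNilpotent
  apply le_antisymm
  · -- preimage is nilpotent
    obtain ⟨F, hF⟩ : ∃ F, F = Cfsg.fittingSubgroup (G ⧸ Φ) := ⟨_, rfl⟩
    rw [← hF] at hFn hFnil ⊢
    obtain ⟨N, hN⟩ : ∃ N, N = F.comap (QuotientGroup.mk' Φ) := ⟨_, rfl⟩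
    have hNn : N.Normal := by rw [hN]; infer_instance
    have hNF : N.map (QuotientGroup.mk' Φ) = F := by
      rw [hN]; exact Subgroup.map_comap_eq_self_of_surjective (QuotientGroup.mk'_surjective Φ) F
    have hΦN : Φ ≤ N := by
      rw [hN]; intro x hx
      have : QuotientGroup.mk' Φ x = 1 := (QuotientGroup.eq_one_iff x).mpr hx
      rw [Subgroup.mem_comap, this]
      exact F.one_mem
    have hnil : Group.IsNilpotent N := by
      rw [isNilpotent_of_sylow_normal]
      intro p hp P
      have hP0 := IsSylowIn.ofSylow P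
      obtain ⟨P₀, hP₀⟩ : ∃ P₀, P₀ = (P : Subgroup N).map N.subtype := ⟨_, rfl⟩
      rw [← hP₀] at hP0
      have hPbar : IsSylowIn p (P₀.map (QuotientGroup.mk' Φ)) F := by
        refine ⟨?_, hP0.isPGroup.map _, ?_⟩
        · rw [← hNF]; exact Subgroup.map_mono hP0.le
        · rw [← hNF, Subgroup.relIndex_map_map, QuotientGroup.ker_mk', sup_eq_left.mpr hΦN]
          intro hd
          exact hP0.not_dvd (hd.trans (Subgroup.relIndex_dvd_of_le_left _ le_sup_left))
      have hPbn : ∀ k ∈ F, MulAut.conj k • P₀.map (QuotientGroup.mk' Φ) = P₀.map (QuotientGroup.mk' Φ) := by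
        intro k hk
        obtain ⟨Q, hQ⟩ := hPbar.exists_sylow
        have hQn := (isNilpotent_of_sylow_normal F).mp hFnil p hp Q
        have h1 : MulAut.conj (⟨k, hk⟩ : F) • (Q : Subgroup F) = (Q : Subgroup F) := by
          rw [← mem_normalizer_iff_conj_smul, Subgroup.normalizer_eq_top]; trivial
        have h2 := congrArg (Subgroup.map F.subtype) h1
        rw [conj_smul_eq_map, Subgroup.map_map] at h2
        rw [conj_smul_eq_map, ← hQ, Subgroup.map_map]
        exact h2
      have hPbN : (P₀.map (QuotientGroup.mk' Φ)).Normal := by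
        rw [← Subgroup.normalizer_eq_top_iff, eq_top_iff]
        intro g _
        rw [mem_normalizer_iff_conj_smul]
        have h3 := hPbar.conj_of_normalizes (g := g) (by
          rw [Subgroup.normalizer_eq_top]; trivial)
        obtain ⟨k, hk, hkk⟩ := hPbar.exists_conj h3
        rw [← hkk]; exact hPbn k hk
      obtain ⟨S, hS⟩ : ∃ S, S = (P₀.map (QuotientGroup.mk' Φ)).comap (QuotientGroup.mk' Φ) := ⟨_, rfl⟩
      have hSn : S.Normal := by rw [hS]; infer_instance
      have hS2 : S = P₀ ⊔ Φ := by rw [hS, Subgroup.comap_map_eq, QuotientGroup.ker_mk']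
      have hPS : IsSylowIn p P₀ S := hP0.mono (by rw [hS2]; exact le_sup_left)
        (by rw [hS2]; exact sup_le hP0.le hΦN)
      have htop : Subgroup.normalizer (P₀ : Set G) = ⊤ := by
        apply frattini_nongenerating
        rw [eq_top_iff, hΦ]
        intro g _
        have h3 := hPS.conj_of_normalizes (g := g) (by
          rw [Subgroup.normalizer_eq_top]; trivial)
        obtain ⟨s, hs, hss⟩ := hPS.exists_conj h3
        have h4 : s⁻¹ * g ∈ Subgroup.normalizer (P₀ : Set G) := by
          rw [mem_normalizer_iff_conj_smul, conj_smul_mul, ← hss, ← conj_smul_mul, inv_mul_cancel,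
            conj_smul_one]
        have h5 : s ∈ Subgroup.normalizer (P₀ : Set G) ⊔ Φ := by
          rw [hS2] at hs
          exact (sup_le_sup_right Subgroup.le_normalizer Φ) hs
        have h6 := mul_mem h5 ((le_sup_left : _ ≤ Subgroup.normalizer (P₀ : Set G) ⊔ Φ) h4)
        rwa [mul_inv_cancel_left] at h6
      have h7 : P₀.Normal := Subgroup.normalizer_eq_top_iff.mp htop
      have h8 : (P : Subgroup N) = P₀.subgroupOf N := by
        rw [hP₀, Subgroup.subgroupOf, Subgroup.comap_map_eq_self_of_injective N.subtype_injective]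
      rw [h8]; infer_instance
    rw [← hNF]
    exact Subgroup.map_mono (le_fitting hNn hnil)
  · have h1 : (Cfsg.fittingSubgroup G).Normal := fitting_normal
    have h2 : Group.IsNilpotent (Cfsg.fittingSubgroup G) := fitting_isNilpotent
    refine le_fitting (h1.map _ (QuotientGroup.mk'_surjective Φ)) ?_
    exact Group.nilpotent_of_surjective ((QuotientGroup.mk' Φ).subgroupMap (Cfsg.fittingSubgroup G))
      (MonoidHom.subgroupMap_surjective _ _)

end Cfsg.Agent.S0070
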