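import Cfsg.Statements.S0073
import Cfsg.Agent.LibTransAb

set_option autoImplicit false
open Cfsg

namespace Cfsg.Agent.S0073

/-- For a finite non-abelian simple group, either the cube of the least prime divisor of the order divides the order, or 12 does. -/
theorem result {G : Type*} [Group G] [Finite G] [IsSimpleGroup G] (hG : ∃ x y : G, x * y ≠ y * x) : (Nat.card G).minFac ^ 3 ∣ Nat.card G ∨ 12 ∣ Nat.card G := by
  obtain ⟨p, hpdef⟩ : ∃ p, p = (Nat.card G).minFac := ⟨_, rfl⟩
  rw [← hpdef]
  have hG1 : Nat.card G ≠ 1 := by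
    intro h1
    obtain ⟨x, y, hxy⟩ := hG
    have := (Nat.card_eq_one_iff_unique.mp h1).1
    exact hxy (Subsingleton.elim _ _)
  have hp : p.Prime := hpdef ▸ Nat.minFac_prime hG1
  have hpG : p ∣ Nat.card G := hpdef ▸ Nat.minFac_dvd _
  have : Fact p.Prime := ⟨hp⟩
  by_cases h3 : p ^ 3 ∣ Nat.card G
  · exact Or.inl h3
  right
  obtain ⟨P⟩ := (inferInstance : Nonempty (Sylow p G))
  obtain ⟨n, hn⟩ := IsPGroup.iff_card.mp P.isPGroup'
  have hn2 : n ≤ 2 := by
    by_contra hlt
    apply h3
    have h1 : p ^ n ∣ Nat.card G := hn ▸ Subgroup.card_subgroup_dvd_card (P : Subgroup G)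
    exact (pow_dvd_pow p (by omega)).trans h1
  have hPc : IsMulCommutative P := by
    have : n = 0 ∨ n = 1 ∨ n = 2 := by omega
    rcases this with rfl | rfl | rfl
    · have h1 : Subsingleton P := (Nat.card_eq_one_iff_unique.mp (by rw [pow_zero] at hn; exact hn)).1
      exact ⟨⟨fun a b => Subsingleton.elim _ _⟩⟩
    · have h1 : IsCyclic P := isCyclic_of_prime_card (p := p) (by rw [pow_one] at hn; exact hn)
      exact ⟨⟨fun a b => (IsCyclic.commGroup (α := P)).mul_comm a b⟩⟩
    · exact ⟨⟨fun a b => (IsPGroup.commGroupOfCardEqPrimeSq (G := P) hn).mul_comm a b⟩⟩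
  rcases CfsgLib.TransAb.abelian_sylow_npc_or P hPc n hn with h | ⟨q, hq, hqp, hqG, j, hj1, hj2, hqj⟩
  · exfalso
    obtain ⟨P', N, hN, hc⟩ := h
    rcases hN.eq_bot_or_eq_top with hb | ht
    · -- G = P' is a p-group
      have hPt : (P' : Subgroup G) = ⊤ := by
        have := hc.sup_eq_top
        rwa [hb, bot_sup_eq] at this
      have hGp : IsPGroup p G := by
        have h1 := P'.isPGroup'
        rw [hPt] at h1
        exact h1.of_equiv Subgroup.topEquiv
      have hnt : Nontrivial G := by
        rw [← Finite.one_lt_card_iff_nontrivial]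
        have := Nat.card_pos (α := G)
        omega
      have hZ : Nontrivial (Subgroup.center G) := hGp.center_nontrivial
      rcases (inferInstance : (Subgroup.center G).Normal).eq_bot_or_eq_top with hz | hz
      · rw [hz] at hZ
        exact not_nontrivial _ hZ
      · obtain ⟨x, y, hxy⟩ := hG
        have hx : x ∈ Subgroup.center G := by rw [hz]; trivial
        exact hxy (Subgroup.mem_center_iff.mp hx y).symm
    · have hPb : (P' : Subgroup G) = ⊥ := by
        have := hc.disjoint.eq_bot
        rwa [ht, top_inf_eq] at this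
      have h1 := P'.dvd_card_of_dvd_card hpG
      have h2 : Nat.card P' = 1 := by
        change Nat.card (P' : Subgroup G) = 1
        rw [hPb, Subgroup.card_bot]
      rw [h2] at h1
      exact hp.not_dvd_one h1
  · have hpq : p < q := by
      have : p ≤ q := hpdef ▸ Nat.minFac_le_of_dvd hq.two_le hqG
      omega
    have hj : j = 1 ∨ j = 2 := by omega
    have hp2 := hp.two_le
    have hj' : j = 2 := by
      rcases hj with rfl | rfl
      · exfalso
        rw [pow_one] at hqj
        have := Nat.le_of_dvd (by omega) hqj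
        omega
      · rfl
    subst hj'
    have hn' : n = 2 := by omega
    subst hn'
    have e : p ^ 2 - 1 = (p + 1) * (p - 1) := by
      have := Nat.sq_sub_sq p 1
      simpa using this
    rw [e] at hqj
    have hq1 : q ∣ p + 1 := by
      rcases (Nat.Prime.dvd_mul hq).mp hqj with h | h
      · exact h
      · exfalso
        have := Nat.le_of_dvd (by omega) h
        omega
    have hqe : q = p + 1 := by
      have := Nat.le_of_dvd (by omega) hq1
      omega
    have hp2' : p = 2 := by
      rcases hp.eq_two_or_odd' with h | h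
      · exact h
      · exfalso
        have h2 : Even q := by rw [hqe]; exact h.add_one
        have := (Nat.Prime.even_iff hq).mp h2
        omega
    have hq3 : q = 3 := by omega
    have h4 : 4 ∣ Nat.card G := by
      have : p ^ 2 ∣ Nat.card G := hn ▸ Subgroup.card_subgroup_dvd_card (P : Subgroup G)
      rw [hp2'] at this
      simpa using this
    rw [hq3] at hqG
    exact (Nat.Coprime.mul_dvd_of_dvd_of_dvd (by norm_num : Nat.Coprime 4 3) h4 hqG)

end Cfsg.Agent.S0073
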