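import Cfsg.Statements.S0075
import Cfsg.Agent.LibTransFus

set_option autoImplicit false
open Cfsg

namespace Cfsg.Agent.S0075

open scoped commutatorElement

/-- For an abelian Sylow p-subgroup T, its intersection with the subgroup generated by the elements of order prime to p is the commutator of T with its normalizer. -/
theorem result {G : Type*} [Group G] [Finite G] {p : ℕ} [Fact p.Prime] (T : Sylow p G) (hT : IsMulCommutative T) : (T : Subgroup G) ⊓ Cfsg.pResidual p G = ⁅(T : Subgroup G), Subgroup.normalizer (T : Set G)⁆ := by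
  have hRn : (Cfsg.pResidual p G).Normal := CfsgLib.TransFus.pResidual_normal p
  have hfl : (T : Subgroup G).focalSubgroup ≤ ⁅(T : Subgroup G), Subgroup.normalizer (T : Set G)⁆ :=
    CfsgLib.TransFus.focal_le_of_controls
      (fun x g hx hgx => CfsgLib.TransFus.abelian_controls T hT x g hx hgx)
  apply le_antisymm
  · have h1 : Cfsg.pResidual p G ≤ (T : Subgroup G).transferFocal.ker := by
      apply CfsgLib.TransFus.pResidual_le_of_isPGroup
      have h2 : IsPGroup p (T : Subgroup G).transferFocal.range := by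
        have h2 : IsPGroup p ((T : Subgroup G) ⧸ ((T : Subgroup G).focalSubgroupOf)) :=
          T.isPGroup'.to_quotient _
        exact h2.to_subgroup _
      exact h2.of_equiv (QuotientGroup.quotientKerEquivRange _).symm
    have h3 := Subgroup.ker_transferFocal_inf_eq_focalSubgroup T
    intro x hx
    obtain ⟨hxT, hxR⟩ := Subgroup.mem_inf.mp hx
    apply hfl
    rw [← h3]
    exact Subgroup.mem_inf.mpr ⟨h1 hxR, hxT⟩
  · rw [Subgroup.commutator_le]
    intro t ht n hn
    refine Subgroup.mem_inf.mpr ⟨?_, ?_⟩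
    · rw [commutatorElement_def, mul_assoc, mul_assoc]
      refine (T : Subgroup G).mul_mem ht ?_
      rw [← mul_assoc]
      exact (Subgroup.mem_normalizer_iff.mp hn _).mp ((T : Subgroup G).inv_mem ht)
    · obtain ⟨a, ha, b, hb, hab, hao, hbo⟩ := CfsgLib.TransFus.exists_p_p'_decomp p n
      have haN : a ∈ Subgroup.normalizer (T : Set G) :=
        (Subgroup.zpowers_le.mpr hn) ha
      have haT : a ∈ (T : Subgroup G) := CfsgLib.TransFus.mem_sylow_of_mem_normalizer T haN hao
      have hbR : b ∈ Cfsg.pResidual p G := CfsgLib.TransFus.mem_pResidual hbo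
      have hcomm : t * a = a * t := by
        have := hT.is_comm.comm (⟨t, ht⟩ : (T : Subgroup G)) ⟨a, haT⟩
        exact congrArg Subtype.val this
      rw [hab, commutatorElement_def]
      have e : t * (a * b) * t⁻¹ * (a * b)⁻¹ = (t * a) * (b * (t⁻¹ * b⁻¹ * t)) * (t * a)⁻¹ := by
        rw [mul_inv_rev t a]
        have e1 : t⁻¹ * (a * b)⁻¹ = t⁻¹ * b⁻¹ * a⁻¹ := by group
        rw [mul_assoc _ t⁻¹, e1]
        have e2 : a⁻¹ = t * (a⁻¹ * t⁻¹) := by
          rw [← mul_inv_rev, hcomm]; group
        calc t * (a * b) * (t⁻¹ * b⁻¹ * a⁻¹) = t * (a * b) * (t⁻¹ * b⁻¹) * a⁻¹ := by group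
          _ = t * (a * b) * (t⁻¹ * b⁻¹) * (t * (a⁻¹ * t⁻¹)) := by rw [← e2]
          _ = _ := by group
      rw [e]
      apply hRn.conj_mem
      apply mul_mem hbR
      have h4 := hRn.conj_mem _ (inv_mem hbR) t⁻¹
      simpa using h4

end Cfsg.Agent.S0075
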