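import Cfsg.Statements.S0076
import Cfsg.Agent.LibTransFus

set_option autoImplicit false
open Cfsg

namespace Cfsg.Agent.S0076

/-- Two P-invariant subsets of a Sylow p-subgroup P that are conjugate in G are conjugate under the normalizer of P. -/
theorem result {G : Type*} [Group G] [Finite G] {p : ℕ} [Fact p.Prime] (P : Sylow p G) (X Y : Set G) (hXP : X ⊆ P) (hYP : Y ⊆ P) (hX : ∀ x ∈ P, (fun y => x * y * x⁻¹) '' X = X) (hY : ∀ x ∈ P, (fun y => x * y * x⁻¹) '' Y = Y) (g : G) (hg : (fun y => g * y * g⁻¹) '' X = Y) : ∃ n ∈ Subgroup.normalizer (P : Set G), (fun y => n * y * n⁻¹) '' X = Y := by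
  have aux : ∀ Z : Set G, (∀ x ∈ P, (fun y => x * y * x⁻¹) '' Z = Z) →
      (P : Subgroup G) ≤ Subgroup.normalizer Z := by
    intro Z hZ x hx
    rw [Subgroup.mem_set_normalizer_iff]
    intro z
    constructor
    · intro hz
      rw [← hZ x hx]; exact ⟨z, hz, rfl⟩
    · intro hz
      rw [← hZ x⁻¹ (inv_mem hx)]
      exact ⟨_, hz, by group⟩
  obtain ⟨n, hn, h, hh, e⟩ := CfsgLib.TransFus.burnside_normal_subsets P X Y (aux X hX) (aux Y hY) g (by
    intro x
    constructor
    · intro hx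
      rw [← hg]; exact ⟨x, hx, rfl⟩
    · intro hx
      rw [← hg] at hx
      obtain ⟨y, hy, hy'⟩ := hx
      have : y = x := by
        have := congrArg (fun z => g⁻¹ * z * g) hy'
        simpa [mul_assoc] using this
      rwa [← this])
  refine ⟨n, hn, ?_⟩
  ext y
  constructor
  · rintro ⟨x, hx, rfl⟩
    have h1 : g * x * g⁻¹ ∈ Y := by rw [← hg]; exact ⟨x, hx, rfl⟩
    have h2 := (Subgroup.mem_set_normalizer_iff.mp hh _).mp h1
    have e2 : h * (g * x * g⁻¹) * h⁻¹ = n * x * n⁻¹ := by rw [e]; group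
    rw [e2] at h2
    exact h2
  · intro hy
    have h2 : h⁻¹ * y * h ∈ Y := by
      have := (Subgroup.mem_set_normalizer_iff.mp (inv_mem hh) _).mp hy
      simpa using this
    rw [← hg] at h2
    obtain ⟨x, hx, hx'⟩ := h2
    refine ⟨x, hx, ?_⟩
    have h3 : g * x * g⁻¹ = h⁻¹ * y * h := hx'
    change n * x * n⁻¹ = y
    rw [e]
    calc h * g * x * (h * g)⁻¹ = h * (g * x * g⁻¹) * h⁻¹ := by group
      _ = h * (h⁻¹ * y * h) * h⁻¹ := by rw [h3]
      _ = y := by group

end Cfsg.Agent.S0076
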