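import Cfsg.Statements.S0077
import Cfsg.Agent.LibTransFus

set_option autoImplicit false
open Cfsg

namespace Cfsg.Agent.S0077

/-- If a subgroup Z of the centre of a Sylow p-subgroup P is weakly closed in P, then P meets the derived subgroup of G exactly where it meets the derived subgroup of the normalizer of Z. -/
theorem result {G : Type*} [Group G] [Finite G] {p : ℕ} [Fact p.Prime] (P : Sylow p G) (Z : Subgroup G) (hZ : Z ≤ Subgroup.centralizer (P : Set G)) (hW : Cfsg.IsWeaklyClosed Z P) : commutator G ⊓ (P : Subgroup G) = ⁅Subgroup.normalizer (Z : Set G), Subgroup.normalizer (Z : Set G)⁆ ⊓ (P : Subgroup G) := by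
  have hPN : (P : Subgroup G) ≤ Subgroup.normalizer (Z : Set G) := by
    intro x hx
    have hc : x ∈ Subgroup.centralizer (Z : Set G) := by
      rw [Subgroup.mem_centralizer_iff]
      intro z hz
      exact (Subgroup.mem_centralizer_iff.mp (hZ hz) x hx).symm
    exact Subgroup.centralizer_le_normalizer _ hc
  refine CfsgLib.TransFus.commutator_inf_eq_of_controls P _ hPN ?_
  intro x g hx hgx
  obtain ⟨c, hc, hcg⟩ := CfsgLib.TransFus.gruen_controls P Z hZ hW {x}
    (by rintro _ rfl; exact hx) g (by rintro _ rfl; exact hgx)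
  refine ⟨c * g, hcg, ?_⟩
  have h1 := Subgroup.mem_centralizer_iff.mp hc (g * x * g⁻¹) ⟨x, rfl, rfl⟩
  calc c * g * x * (c * g)⁻¹ = c * (g * x * g⁻¹) * c⁻¹ := by group
    _ = (g * x * g⁻¹) * c * c⁻¹ := by rw [h1]
    _ = _ := by group

end Cfsg.Agent.S0077
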