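import Cfsg.Statements.S0078
import Cfsg.Agent.LibTate

set_option autoImplicit false
open Cfsg

namespace Cfsg.Agent.S0078

/-- In a p-normal group, a Sylow p-subgroup P meets O^p(G) exactly where it meets O^p(V), for any subgroup V containing the normalizer of the centre of P. -/
theorem result {G : Type*} [Group G] [Finite G] {p : ℕ} [Fact p.Prime] (P : Sylow p G) (hn : ∀ Q : Sylow p G, (P : Subgroup G) ⊓ Subgroup.centralizer (P : Set G) ≤ (Q : Subgroup G) → (Q : Subgroup G) ⊓ Subgroup.centralizer (Q : Set G) = (P : Subgroup G) ⊓ Subgroup.centralizer (P : Set G)) (V : Subgroup G) (hV : Subgroup.normalizer (((P : Subgroup G) ⊓ Subgroup.centralizer (P : Set G) : Subgroup G) : Set G) ≤ V) : (P : Subgroup G) ⊓ Cfsg.pResidual p G = (P : Subgroup G) ⊓ (Cfsg.pResidual p V).map V.subtype := by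
  obtain ⟨Z, hZ⟩ : ∃ Z, Z = (P : Subgroup G) ⊓ Subgroup.centralizer (P : Set G) := ⟨_, rfl⟩
  have hZP : Z ≤ (P : Subgroup G) := by rw [hZ]; exact inf_le_left
  have hZc : Z ≤ Subgroup.centralizer (P : Set G) := by rw [hZ]; exact inf_le_right
  have hconj : ∀ g : G, Z.map (MulAut.conj g).toMonoidHom =
      ((g • P : Sylow p G) : Subgroup G) ⊓ Subgroup.centralizer ((g • P : Sylow p G) : Set G) := by
    intro g
    have e1 : ((g • P : Sylow p G) : Subgroup G) = (P : Subgroup G).map (MulAut.conj g).toMonoidHom := rfl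
    have e2 : ((g • P : Sylow p G) : Set G) = (((P : Subgroup G).map (MulAut.conj g).toMonoidHom : Subgroup G) : Set G) := rfl
    rw [e1, e2, hZ]
    ext y
    constructor
    · rintro ⟨x, hx, rfl⟩
      obtain ⟨h1, h2⟩ := Subgroup.mem_inf.mp hx
      refine Subgroup.mem_inf.mpr ⟨⟨x, h1, rfl⟩, ?_⟩
      rw [Subgroup.mem_centralizer_iff]
      rintro _ ⟨z, hz, rfl⟩
      rw [← map_mul, ← map_mul, Subgroup.mem_centralizer_iff.mp h2 z hz]
    · intro hy
      obtain ⟨⟨x, h1, rfl⟩, h2⟩ := Subgroup.mem_inf.mp hy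
      refine ⟨x, Subgroup.mem_inf.mpr ⟨h1, ?_⟩, rfl⟩
      rw [Subgroup.mem_centralizer_iff]
      intro z hz
      have h3 := Subgroup.mem_centralizer_iff.mp h2 _ ⟨z, hz, rfl⟩
      rw [← map_mul, ← map_mul] at h3
      exact (MulAut.conj g).injective h3
  have hW : Cfsg.IsWeaklyClosed Z P := by
    refine ⟨hZP, fun g hg => ?_⟩
    have h1 := hn (g⁻¹ • P) (by
      rw [← hZ]
      intro z hz
      have h2 : MulAut.conj g z ∈ (P : Subgroup G) := hg ⟨z, hz, rfl⟩
      change z ∈ (P : Subgroup G).map (MulAut.conj g⁻¹).toMonoidHom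
      refine ⟨_, h2, ?_⟩
      change MulAut.conj g⁻¹ (MulAut.conj g z) = z
      rw [← MulAut.mul_apply, ← map_mul, inv_mul_cancel, map_one, MulAut.one_apply])
    rw [← hZ, ← hconj] at h1
    conv_lhs => rw [← h1]
    rw [Subgroup.map_map]
    have e : ((MulAut.conj g).toMonoidHom.comp (MulAut.conj g⁻¹).toMonoidHom) = MonoidHom.id G := by
      ext x
      change MulAut.conj g (MulAut.conj g⁻¹ x) = x
      rw [← MulAut.mul_apply, ← map_mul, mul_inv_cancel, map_one, MulAut.one_apply]
    rw [e, Subgroup.map_id]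
  rw [← hZ] at hV
  have hPN : (P : Subgroup G) ≤ Subgroup.normalizer (Z : Set G) := by
    intro x hx
    have hc : x ∈ Subgroup.centralizer (Z : Set G) := by
      rw [Subgroup.mem_centralizer_iff]
      intro z hz
      exact (Subgroup.mem_centralizer_iff.mp (hZc hz) x hx).symm
    exact Subgroup.centralizer_le_normalizer _ hc
  refine CfsgLib.Tate.inf_pResidual_eq P V (hPN.trans hV) ?_
  have h2 := CfsgLib.TransFus.commutator_inf_eq_of_controls P _ hPN (by
    intro x g hx hgx
    obtain ⟨c, hc, hcg⟩ := CfsgLib.TransFus.gruen_controls P Z hZc hW {x}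
      (by rintro _ rfl; exact hx) g (by rintro _ rfl; exact hgx)
    refine ⟨c * g, hcg, ?_⟩
    have h1 := Subgroup.mem_centralizer_iff.mp hc (g * x * g⁻¹) ⟨x, rfl, rfl⟩
    calc c * g * x * (c * g)⁻¹ = c * (g * x * g⁻¹) * c⁻¹ := by group
      _ = (g * x * g⁻¹) * c * c⁻¹ := by rw [h1]
      _ = _ := by group)
  rw [h2]
  exact inf_le_left.trans (Subgroup.commutator_mono hV hV)

end Cfsg.Agent.S0078
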