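import Cfsg.Statements.S0079
import Cfsg.Agent.LibTransNil

set_option autoImplicit false
open Cfsg

namespace Cfsg.Agent.S0079

/-- A nilpotent Hall subgroup has a normal complement exactly when elements of it that are conjugate in the whole group are already conjugate inside it. -/
theorem result {G : Type*} [Group G] [Finite G] (H : Subgroup G) (hH : Group.IsNilpotent H) (hHall : Nat.Coprime (Nat.card H) H.index) : (∃ N : Subgroup G, N.Normal ∧ N.IsComplement' H) ↔ ∀ x ∈ H, ∀ y ∈ H, (∃ g : G, g * x * g⁻¹ = y) → ∃ h ∈ H, h * x * h⁻¹ = y := by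
  constructor
  · rintro ⟨N, hN, hc⟩ x hx y hy ⟨g, rfl⟩
    have hg : g ∈ N ⊔ H := by rw [hc.sup_eq_top]; trivial
    rw [Subgroup.mem_sup_of_normal_left] at hg
    obtain ⟨n, hn, h, hh, rfl⟩ := hg
    refine ⟨h, hh, ?_⟩
    have h1 : n * (h * x * h⁻¹) * n⁻¹ * (h * x * h⁻¹)⁻¹ ∈ N := by
      have e : n * (h * x * h⁻¹) * n⁻¹ * (h * x * h⁻¹)⁻¹ =
        n * ((h * x * h⁻¹) * n⁻¹ * (h * x * h⁻¹)⁻¹) := by group
      rw [e]
      exact mul_mem hn (hN.conj_mem _ (inv_mem hn) _)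
    have h2 : h * x * h⁻¹ ∈ H := mul_mem (mul_mem hh hx) (inv_mem hh)
    have h3 : n * h * x * (n * h)⁻¹ = n * (h * x * h⁻¹) * n⁻¹ := by group
    rw [h3] at hy ⊢
    have h4 : n * (h * x * h⁻¹) * n⁻¹ * (h * x * h⁻¹)⁻¹ ∈ N ⊓ H :=
      Subgroup.mem_inf.mpr ⟨h1, mul_mem hy (inv_mem h2)⟩
    rw [hc.disjoint.eq_bot, Subgroup.mem_bot, mul_inv_eq_one] at h4
    exact h4.symm
  · intro h
    exact CfsgLib.TransNil.nilpotent_hall_complement H hH hHall h

end Cfsg.Agent.S0079
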