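import Cfsg.Statements.S0080
import Cfsg.Agent.LibTransAb

set_option autoImplicit false
open Cfsg

namespace Cfsg.Agent.S0080

open scoped commutatorElement

/-- When the index of H is prime to the order of H/H', the focal subgroup of H is G' ∩ H, and H/(G' ∩ H) has a normal complement. -/
theorem result {G : Type*} [Group G] [Finite G] (H : Subgroup G) (h : Nat.Coprime H.index (⁅H, H⁆.relIndex H)) : Subgroup.focalSubgroup H = commutator G ⊓ H ∧ ∃ N : Subgroup G, N.Normal ∧ N ⊓ H = commutator G ⊓ H ∧ N ⊔ H = ⊤ := by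
  obtain ⟨V, hV⟩ : ∃ V : G →* H ⧸ H.focalSubgroupOf, ∀ x : H, V x = (x : H ⧸ H.focalSubgroupOf) ^ H.index :=
    ⟨H.transferFocal, H.transferFocal_eq_pow⟩
  have hVc : commutator G ≤ V.ker := by
    rw [commutator_def, Subgroup.commutator_le]
    intro a _ b _
    have hcc : IsMulCommutative (H ⧸ H.focalSubgroupOf) := inferInstance
    rw [MonoidHom.mem_ker, map_commutatorElement, commutatorElement_eq_one_iff_mul_comm]
    exact hcc.is_comm.comm _ _
  have hco : Nat.Coprime (Nat.card (H ⧸ H.focalSubgroupOf)) H.index := by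
    have h1 : Nat.card (H ⧸ H.focalSubgroupOf) ∣ ⁅H, H⁆.relIndex H := by
      change (H.focalSubgroupOf).index ∣ (⁅H, H⁆.subgroupOf H).index
      apply Subgroup.index_dvd_of_le
      exact Subgroup.comap_mono H.commutator_le_focalSubgroup
    exact (h.coprime_dvd_right h1).symm
  have hker : ∀ x : H, V x = 1 ↔ (x : G) ∈ H.focalSubgroup := by
    intro x
    rw [hV]
    have e : (x : H ⧸ H.focalSubgroupOf) = 1 ↔ (x : G) ∈ H.focalSubgroup := by
      rw [QuotientGroup.eq_one_iff, Subgroup.focalSubgroupOf_def, Subgroup.mem_subgroupOf]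
    rw [← e]
    constructor
    · intro h1
      have h2 := (powCoprime hco).injective (a₁ := (x : H ⧸ H.focalSubgroupOf)) (a₂ := 1)
      exact h2 (by simpa using h1)
    · intro h1
      rw [h1, one_pow]
  have hfoc : H.focalSubgroup = commutator G ⊓ H := by
    apply le_antisymm
    · exact le_inf H.focalSubgroup_le_commutator H.focalSubgroup_le
    · intro x hx
      obtain ⟨hx1, hx2⟩ := Subgroup.mem_inf.mp hx
      exact (hker ⟨x, hx2⟩).mp (MonoidHom.mem_ker.mp (hVc hx1))
  refine ⟨hfoc, V.ker, inferInstance, ?_, ?_⟩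
  · rw [← hfoc]
    ext x
    rw [Subgroup.mem_inf]
    constructor
    · rintro ⟨h1, h2⟩
      exact (hker ⟨x, h2⟩).mp (MonoidHom.mem_ker.mp h1)
    · intro h1
      have h2 : x ∈ H := H.focalSubgroup_le h1
      exact ⟨MonoidHom.mem_ker.mpr ((hker ⟨x, h2⟩).mpr h1), h2⟩
  · rw [eq_top_iff]
    intro g _
    obtain ⟨y, hy⟩ := (powCoprime hco).surjective (V g)
    obtain ⟨x, rfl⟩ := QuotientGroup.mk_surjective y
    have h1 : V g = V x := by rw [hV]; exact hy.symm
    have h2 : g * (x : G)⁻¹ ∈ V.ker := by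
      rw [MonoidHom.mem_ker, map_mul, map_inv, h1, mul_inv_cancel]
    have h3 := Subgroup.mul_mem_sup h2 x.2
    rwa [inv_mul_cancel_right] at h3

end Cfsg.Agent.S0080
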