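import Cfsg.Statements.S0082
import Cfsg.Agent.LibTransAb
import Cfsg.Agent.S0075

set_option autoImplicit false
open Cfsg

namespace Cfsg.Agent.S0082

/-- With a cyclic Sylow p-subgroup, either there is a normal p-complement or the elements of order prime to p generate the whole group. -/
theorem result {G : Type*} [Group G] [Finite G] {p : ℕ} [Fact p.Prime] (P : Sylow p G) (hP : IsCyclic P) : Cfsg.HasNormalPComplement p G ∨ Cfsg.pResidual p G = ⊤ := by
  obtain ⟨N, hN⟩ : ∃ N, N = Subgroup.normalizer ((P : Subgroup G) : Set G) := ⟨_, rfl⟩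
  have hPN : (P : Subgroup G) ≤ N := hN ▸ Subgroup.le_normalizer
  have hPc : IsMulCommutative (P : Subgroup G) := ⟨⟨fun a b => (IsCyclic.commGroup (α := P)).mul_comm a b⟩⟩
  have hco : Nat.Coprime (Nat.card (P : Subgroup G)) ((P : Subgroup G).relIndex N) :=
    P.card_coprime_index.coprime_dvd_right (Subgroup.relIndex_dvd_index_of_le hPN)
  obtain ⟨h1, h2⟩ := CfsgLib.TransAb.rel_normal_hall_all (P : Subgroup G) N hPN hN.le hPc hco
  obtain ⟨U, hU⟩ : ∃ U, U = ⁅(P : Subgroup G), N⁆ := ⟨_, rfl⟩
  obtain ⟨W, hW⟩ : ∃ W, W = (P : Subgroup G) ⊓ Subgroup.centralizer (N : Set G) := ⟨_, rfl⟩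
  rw [← hU, ← hW] at h2
  have hUP : U ≤ (P : Subgroup G) := h2 ▸ le_sup_left
  have hWP : W ≤ (P : Subgroup G) := h2 ▸ le_sup_right
  have hUW : U ⊓ W = ⊥ := by
    rw [eq_bot_iff, ← h1, hU, hW]
    exact inf_le_inf_left _ inf_le_right
  have key : U = ⊥ ∨ W = ⊥ := by
    by_contra hno
    push Not at hno
    obtain ⟨hU1, hW1⟩ := hno
    have hex : ∀ K : Subgroup G, K ≤ (P : Subgroup G) → K ≠ ⊥ → ∃ x ∈ K, orderOf x = p := by
      intro K hK hK1
      have hKp := P.isPGroup'.to_le hK
      have : Nontrivial K := (Subgroup.nontrivial_iff_ne_bot K).mpr hK1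
      have hd : p ∣ Nat.card K := by
        obtain ⟨k, hk⟩ := IsPGroup.iff_card.mp hKp
        have hk0 : k ≠ 0 := by
          rintro rfl
          rw [pow_zero] at hk
          exact hK1 (Subgroup.card_eq_one.mp hk)
        rw [hk]; exact dvd_pow_self p hk0
      obtain ⟨x, hx⟩ := exists_prime_orderOf_dvd_card' p hd
      exact ⟨x, x.2, by rw [← hx, Subgroup.orderOf_coe]⟩
    obtain ⟨u, huU, huo⟩ := hex U hUP hU1
    obtain ⟨w, hwW, hwo⟩ := hex W hWP hW1
    have hne : u ≠ 1 := by
      rintro rfl
      rw [orderOf_one] at huo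
      exact (Fact.out : p.Prime).one_lt.ne huo
    apply hne
    have hz : Subgroup.zpowers (⟨u, hUP huU⟩ : (P : Subgroup G)) = Subgroup.zpowers ⟨w, hWP hwW⟩ := by
      have hset : ∀ x : (P : Subgroup G), orderOf x = p →
          ((Subgroup.zpowers x : Subgroup (P : Subgroup G)) : Set (P : Subgroup G)) =
            {a | a ^ p = 1} := by
        classical
        have := Fintype.ofFinite (P : Subgroup G)
        intro x hx
        apply Set.eq_of_subset_of_ncard_le _ _ (Set.toFinite _)
        · rintro _ ⟨k, rfl⟩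
          change (x ^ k) ^ p = 1
          have hxp : x ^ p = 1 := by
            have := pow_orderOf_eq_one x
            rwa [hx] at this
          rw [← zpow_natCast, ← zpow_mul, mul_comm, zpow_mul, zpow_natCast, hxp, one_zpow]
        · have h1 : ({a : (P : Subgroup G) | a ^ p = 1} : Set _).ncard ≤ p := by
            have := IsCyclic.card_pow_eq_one_le (α := (P : Subgroup G)) (Fact.out : p.Prime).pos
            rw [Set.ncard_eq_toFinset_card']
            convert this using 2
            ext; simp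
          have h2 : ((Subgroup.zpowers x : Subgroup (P : Subgroup G)) : Set (P : Subgroup G)).ncard = p := by
            rw [← Nat.card_coe_set_eq]
            change Nat.card (Subgroup.zpowers x) = p
            rw [Nat.card_zpowers, hx]
          rw [h2]; exact h1
      apply SetLike.coe_injective
      rw [hset _ (by rw [Subgroup.orderOf_mk]; exact huo),
        hset _ (by rw [Subgroup.orderOf_mk]; exact hwo)]
    have h3 : (⟨u, hUP huU⟩ : (P : Subgroup G)) ∈ Subgroup.zpowers (⟨w, hWP hwW⟩ : (P : Subgroup G)) := by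
      rw [← hz]; exact Subgroup.mem_zpowers _
    obtain ⟨k, hk⟩ := h3
    have h4 : w ^ k = u := congrArg Subtype.val hk
    have h5 : u ∈ U ⊓ W := Subgroup.mem_inf.mpr ⟨huU, h4 ▸ W.zpow_mem hwW k⟩
    rwa [hUW, Subgroup.mem_bot] at h5
  rcases key with hU0 | hW0
  · left
    refine ⟨P, _, inferInstance, MonoidHom.ker_transferSylow_isComplement' P ?_⟩
    change Subgroup.normalizer ((P : Subgroup G) : Set G) ≤ _
    rw [← hN]
    have h3 : W = (P : Subgroup G) := by rw [← h2, hU0, bot_sup_eq]
    have h4 : (P : Subgroup G) ≤ Subgroup.centralizer (N : Set G) := by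
      rw [← h3, hW]; exact inf_le_right
    exact Subgroup.le_centralizer_iff.mp h4
  · right
    have h3 : U = (P : Subgroup G) := by rw [← h2, hW0, sup_bot_eq]
    have h4 := Cfsg.Agent.S0075.result P hPc
    have h4' : (P : Subgroup G) ⊓ Cfsg.pResidual p G = ⁅(P : Subgroup G), N⁆ := by
      rw [hN]; exact h4
    rw [← hU, h3] at h4'
    have h5 : (P : Subgroup G) ≤ Cfsg.pResidual p G := by rw [← h4']; exact inf_le_right
    have hn : (Cfsg.pResidual p G).Normal := CfsgLib.TransFus.pResidual_normal p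
    have hq : IsPGroup p (G ⧸ Cfsg.pResidual p G) :=
      CfsgLib.TransFus.isPGroup_quotient_pResidual _ le_rfl
    obtain ⟨k, hk⟩ := IsPGroup.iff_card.mp hq
    rw [← Subgroup.index_eq_one, Subgroup.index_eq_card, hk]
    by_contra hk1
    have hk0 : k ≠ 0 := by rintro rfl; exact hk1 (pow_zero p)
    apply P.not_dvd_index
    refine (dvd_pow_self p hk0).trans ?_
    rw [← hk, ← Subgroup.index_eq_card]
    exact Subgroup.index_dvd_of_le h5

end Cfsg.Agent.S0082
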