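import Cfsg.Statements.S0083
import Cfsg.Agent.LibTransAb

set_option autoImplicit false
open Cfsg

namespace Cfsg.Agent.S0083

/-- For an abelian Sylow p-subgroup P, a normal p-complement exists exactly when the normalizer of P is an internal direct product of P with some subgroup. -/
theorem result {G : Type*} [Group G] [Finite G] {p : ℕ} [Fact p.Prime] (P : Sylow p G) (hP : IsMulCommutative P) : Cfsg.HasNormalPComplement p G ↔ ∃ Q : Subgroup G, Q ≤ Subgroup.centralizer (P : Set G) ∧ Q ⊓ (P : Subgroup G) = ⊥ ∧ Q ⊔ (P : Subgroup G) = Subgroup.normalizer (P : Set G) := by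
  constructor
  · intro h
    rw [CfsgLib.TransPC.hasNPC_iff] at h
    obtain ⟨K, hK⟩ := h
    have hKn := hK.1
    have hc := hK.isComplement' P
    have hKP : K ⊓ (P : Subgroup G) = ⊥ := hc.disjoint.eq_bot
    refine ⟨K ⊓ Subgroup.normalizer (P : Set G), ?_, ?_, ?_⟩
    · intro k hk
      obtain ⟨hkK, hkN⟩ := Subgroup.mem_inf.mp hk
      rw [Subgroup.mem_centralizer_iff]
      intro x hx
      have hx' : x ∈ (P : Subgroup G) := hx
      have h1 : x * k * x⁻¹ * k⁻¹ ∈ K ⊓ (P : Subgroup G) := by
        refine Subgroup.mem_inf.mpr ⟨mul_mem (hKn.conj_mem k hkK x) (inv_mem hkK), ?_⟩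
        have h2 := (Subgroup.mem_normalizer_iff.mp hkN x⁻¹).mp (inv_mem hx')
        have h3 := mul_mem hx' h2
        have e : x * (k * x⁻¹ * k⁻¹) = x * k * x⁻¹ * k⁻¹ := by group
        rwa [e] at h3
      rw [hKP, Subgroup.mem_bot, mul_inv_eq_one, mul_inv_eq_iff_eq_mul] at h1
      exact h1
    · rw [eq_bot_iff, ← hKP]
      exact inf_le_inf_right _ inf_le_left
    · apply le_antisymm
      · exact sup_le inf_le_right Subgroup.le_normalizer
      · intro x hx
        have h1 : x ∈ K ⊔ (P : Subgroup G) := by rw [hc.sup_eq_top]; trivial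
        rw [Subgroup.mem_sup_of_normal_left] at h1
        obtain ⟨k, hk, y, hy, rfl⟩ := h1
        have hyN : y ∈ Subgroup.normalizer (P : Set G) := Subgroup.le_normalizer hy
        have hkN : k ∈ Subgroup.normalizer (P : Set G) := by
          have := mul_mem hx (inv_mem hyN)
          rwa [mul_inv_cancel_right] at this
        exact Subgroup.mul_mem_sup (Subgroup.mem_inf.mpr ⟨hk, hkN⟩) hy
  · rintro ⟨Q, hQ, -, hQP⟩
    refine ⟨P, _, inferInstance, MonoidHom.ker_transferSylow_isComplement' P ?_⟩
    change Subgroup.normalizer (P : Set G) ≤ _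
    rw [← hQP]
    refine sup_le hQ ?_
    intro x hx
    rw [Subgroup.mem_centralizer_iff]
    intro y hy
    exact congrArg Subtype.val (hP.is_comm.comm (⟨y, hy⟩ : (P : Subgroup G)) ⟨x, hx⟩)

end Cfsg.Agent.S0083
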