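import Cfsg.Statements.S0084
import Cfsg.Agent.LibTransAb

set_option autoImplicit false
open Cfsg

namespace Cfsg.Agent.S0084

/-- A group whose Sylow 2-subgroups are Klein four-groups and whose order is prime to 3 has a normal 2-complement. -/
theorem result {G : Type*} [Group G] [Finite G] (T : Sylow 2 G) (hT : IsKleinFour T) (h3 : ¬ 3 ∣ Nat.card G) : Cfsg.HasNormalPComplement 2 G := by
  have hc : IsMulCommutative T := hT.isMulCommutative
  have hcard : Nat.card T = 2 ^ 2 := by rw [hT.card_four]; norm_num
  rcases CfsgLib.TransAb.abelian_sylow_npc_or T hc 2 hcard with h | ⟨q, hq, hq2, hqG, j, hj1, hj2, hqj⟩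
  · exact h
  · exfalso
    apply h3
    have : j = 1 ∨ j = 2 := by omega
    rcases this with rfl | rfl
    · norm_num at hqj
      exact absurd hqj hq.one_lt.ne'
    · have : q ∣ 3 := by simpa using hqj
      rwa [(Nat.prime_dvd_prime_iff_eq hq Nat.prime_three).mp this] at hqG

end Cfsg.Agent.S0084
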