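import Cfsg.Statements.S0085
import Cfsg.Agent.LibTransAb

set_option autoImplicit false
open Cfsg

namespace Cfsg.Agent.S0085

/-- A group whose Sylow 2-subgroups are elementary abelian of order 8 and whose order is prime to 3 and to 7 has a normal 2-complement. -/
theorem result {G : Type*} [Group G] [Finite G] (T : Sylow 2 G) (h8 : Nat.card T = 8) (he : ∀ x : T, x * x = 1) (h3 : ¬ 3 ∣ Nat.card G) (h7 : ¬ 7 ∣ Nat.card G) : Cfsg.HasNormalPComplement 2 G := by
  have hc : IsMulCommutative T := by
    refine ⟨⟨fun a b => ?_⟩⟩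
    have h1 := he (a * b)
    have h2 : a * b = (a * b)⁻¹ := eq_inv_of_mul_eq_one_left h1
    rw [h2, mul_inv_rev, ← eq_inv_of_mul_eq_one_left (he a), ← eq_inv_of_mul_eq_one_left (he b)]
  have hcard : Nat.card T = 2 ^ 3 := by rw [h8]; norm_num
  rcases CfsgLib.TransAb.abelian_sylow_npc_or T hc 3 hcard with h | ⟨q, hq, hq2, hqG, j, hj1, hj2, hqj⟩
  · exact h
  · exfalso
    have : j = 1 ∨ j = 2 ∨ j = 3 := by omega
    rcases this with rfl | rfl | rfl
    · norm_num at hqj
      exact absurd hqj hq.one_lt.ne'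
    · have : q ∣ 3 := by simpa using hqj
      rw [(Nat.prime_dvd_prime_iff_eq hq Nat.prime_three).mp this] at hqG
      exact h3 hqG
    · have : q ∣ 7 := by simpa using hqj
      rw [(Nat.prime_dvd_prime_iff_eq hq (by norm_num)).mp this] at hqG
      exact h7 hqG

end Cfsg.Agent.S0085
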