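import Cfsg.Statements.S0087
import Cfsg.Agent.LibTransNil

set_option autoImplicit false
open Cfsg

namespace Cfsg.Agent.S0087

open Pointwise

/-- A Hall subgroup that is central in its normalizer has a normal complement. -/
theorem result {G : Type*} [Group G] [Finite G] (H : Subgroup G) (hHall : Nat.Coprime (Nat.card H) H.index) (h : Subgroup.normalizer (H : Set G) ≤ Subgroup.centralizer (H : Set G)) : ∃ N : Subgroup G, N.Normal ∧ N.IsComplement' H := by
  have hHc : H ≤ Subgroup.centralizer (H : Set G) := Subgroup.le_normalizer.trans h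
  have hnil : Group.IsNilpotent H := by
    let _ : CommGroup H := { (inferInstance : Group H) with
      mul_comm := fun a b => Subtype.ext ((Subgroup.mem_centralizer_iff.mp (hHc b.2)) a a.2) }
    infer_instance
  apply CfsgLib.TransNil.hall_complement_of_npc H hHall
  intro p hp hpd
  have : Fact p.Prime := ⟨hp⟩
  obtain ⟨Q, hQ⟩ := CfsgLib.SolvCoprime.IsSylowIn.exists_isSylowIn (p := p) H
  have hQi : ¬ p ∣ Q.index := by
    rw [← Subgroup.relIndex_mul_index hQ.le]
    intro hd
    rcases (Nat.Prime.dvd_mul hp).mp hd with h1 | h1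
    · exact hQ.not_dvd h1
    · have := Nat.dvd_gcd hpd h1
      rw [hHall] at this
      exact hp.not_dvd_one this
  let P : Sylow p G := hQ.isPGroup.toSylow hQi
  rw [← CfsgLib.TransPC.hasNPC_iff]
  refine ⟨P, _, inferInstance, MonoidHom.ker_transferSylow_isComplement' P ?_⟩
  intro g hg
  have hg' : MulAut.conj g • Q = Q :=
    CfsgLib.SolvBasic.mem_normalizer_iff_conj_smul.mp hg
  have hHQ : H ≤ Subgroup.centralizer (Q : Set G) :=
    hHc.trans (Subgroup.centralizer_le hQ.le)
  have hHQ' : MulAut.conj g • H ≤ Subgroup.centralizer (Q : Set G) := by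
    intro y hy
    rw [CfsgLib.SolvBasic.mem_conj_smul] at hy
    rw [Subgroup.mem_centralizer_iff]
    intro q hq
    have hq' : q ∈ MulAut.conj g • Q := by rw [hg']; exact hq
    rw [CfsgLib.SolvBasic.mem_conj_smul] at hq'
    have h1 := Subgroup.mem_centralizer_iff.mp (hHQ hy) _ hq'
    calc q * y = g * ((g⁻¹ * q * g) * (g⁻¹ * y * g)) * g⁻¹ := by group
      _ = g * ((g⁻¹ * y * g) * (g⁻¹ * q * g)) * g⁻¹ := by rw [h1]
      _ = y * q := by group
  obtain ⟨C, hC⟩ : ∃ C, C = Subgroup.centralizer (Q : Set G) := ⟨_, rfl⟩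
  rw [← hC] at hHQ hHQ'
  -- Wielandt in C
  have hnil' : Group.IsNilpotent (H.subgroupOf C) :=
    Group.nilpotent_of_mulEquiv (Subgroup.subgroupOfEquivOfLe hHQ).symm
  have hcard : Nat.card (H.subgroupOf C) = Nat.card H :=
    Nat.card_congr (Subgroup.subgroupOfEquivOfLe hHQ).toEquiv
  have hcard' : Nat.card ((MulAut.conj g • H : Subgroup G).subgroupOf C) = Nat.card H := by
    rw [Nat.card_congr (Subgroup.subgroupOfEquivOfLe hHQ').toEquiv]
    exact CfsgLib.SolvBasic.card_conj_smul g H
  obtain ⟨c, hc⟩ := CfsgLib.TransNil.wielandt (H.subgroupOf C) hnil' (by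
    rw [hcard]
    exact hHall.coprime_dvd_right (Subgroup.relIndex_dvd_index_of_le hHQ)) _
    ((MulAut.conj g • H : Subgroup G).subgroupOf C) rfl (by
      intro q _ hq
      rwa [hcard, ← hcard'])
  have h1 : MulAut.conj g • H = MulAut.conj (c : G) • H := by
    apply Subgroup.eq_of_le_of_card_ge
    · intro y hy
      have h2 : (⟨y, hHQ' hy⟩ : C) ∈ MulAut.conj c • H.subgroupOf C := hc (Subgroup.mem_subgroupOf.mpr hy)
      rw [CfsgLib.SolvBasic.mem_conj_smul, Subgroup.mem_subgroupOf] at h2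
      rw [CfsgLib.SolvBasic.mem_conj_smul]
      exact h2
    · rw [CfsgLib.SolvBasic.card_conj_smul, CfsgLib.SolvBasic.card_conj_smul]
  have h2 : (c : G)⁻¹ * g ∈ Subgroup.normalizer (H : Set G) := by
    rw [CfsgLib.SolvBasic.mem_normalizer_iff_conj_smul, CfsgLib.SolvBasic.conj_smul_mul, h1,
      ← CfsgLib.SolvBasic.conj_smul_mul, inv_mul_cancel]
    simp
  have h3 : (c : G)⁻¹ * g ∈ C := hC.ge (Subgroup.centralizer_le hQ.le (h h2))
  have h4 : g ∈ C := by
    have := mul_mem c.2 h3
    rwa [mul_inv_cancel_left] at this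
  rw [hC] at h4
  exact h4

end Cfsg.Agent.S0087
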