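import Cfsg.Statements.S0091
import Cfsg.Agent.LibTransAb

set_option autoImplicit false
open Cfsg

namespace Cfsg.Agent.S0091

open scoped commutatorElement

/-- If a nontrivial Sylow p-subgroup controls its own fusion then it is not contained in the derived subgroup. -/
theorem result {G : Type*} [Group G] [Finite G] {p : ℕ} [Fact p.Prime] (P : Sylow p G) (hp : p ∣ Nat.card G) (h : ∀ x ∈ P, ∀ y ∈ P, (∃ g : G, g * x * g⁻¹ = y) → ∃ z ∈ P, z * x * z⁻¹ = y) : ¬ (P : Subgroup G) ≤ commutator G := by
  intro hle
  have hf : (P : Subgroup G).focalSubgroup = ⁅(P : Subgroup G), (P : Subgroup G)⁆ := by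
    apply le_antisymm
    · apply CfsgLib.TransFus.focal_le_of_controls
      intro x g hx hgx
      exact h x hx _ hgx ⟨g, rfl⟩
    · rw [Subgroup.commutator_le]
      intro a ha b hb
      rw [Subgroup.focalSubgroup_def]
      apply Subgroup.subset_closure
      refine ⟨?_, a, ha, b, rfl⟩
      exact (Subgroup.commutator_le_self (H := (P : Subgroup G))) (Subgroup.commutator_mem_commutator ha hb)
  have h1 : (P : Subgroup G) ≤ ⁅(P : Subgroup G), (P : Subgroup G)⁆ := by
    rw [← hf, ← Subgroup.commutator_inf_eq_focalSubgroup]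
    exact le_inf hle le_rfl
  have hne : (P : Subgroup G) ≠ ⊥ := by
    intro hb
    have := P.dvd_card_of_dvd_card hp
    have hc : Nat.card P = 1 := by
      change Nat.card (P : Subgroup G) = 1
      rw [hb, Subgroup.card_bot]
    rw [hc] at this
    exact (Fact.out : p.Prime).not_dvd_one this
  exact absurd h1 (CfsgLib.SolvCoprime.commutator_lt_of_pgroup P.isPGroup' P.isPGroup'
    Subgroup.le_normalizer hne).not_ge

end Cfsg.Agent.S0091
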