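import Cfsg.Statements.S0094
import Cfsg.Agent.LibSolvMisc

set_option autoImplicit false
open Cfsg

namespace Cfsg.Agent.S0094

open scoped commutatorElement

/-- In a special p-group every central element has order dividing p. -/
theorem result {P : Type*} [Group P] [Finite P] {p : ℕ} [Fact p.Prime] (h : Cfsg.IsSpecial p P) (z : P) (hz : z ∈ Subgroup.center P) : z ^ p = 1 := by
  have hcomm : commutator P = Subgroup.center P := h.2.2
  have hpow : ∀ x : P, x ^ p ∈ Subgroup.center P := by
    intro x
    rw [← h.2.1]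
    exact CfsgLib.SolvFrat.pow_mem_frattini (Fact.out) h.1 x
  have hc : IsMulCommutative (Subgroup.center P) := inferInstance
  rw [← hcomm, commutator_def] at hz
  have hle : ⁅(⊤ : Subgroup P), (⊤ : Subgroup P)⁆ ≤ CfsgLib.SolvMin.powTorsion (Subgroup.center P) p := by
    rw [Subgroup.commutator_le]
    intro x _ y _
    have h1 : ⁅x, y⁆ ∈ Subgroup.center P := by
      rw [← hcomm, commutator_def]
      exact Subgroup.commutator_mem_commutator (Subgroup.mem_top _) (Subgroup.mem_top _)
    rw [CfsgLib.SolvMin.mem_powTorsion]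
    refine ⟨h1, ?_⟩
    obtain ⟨c, hcd⟩ : ∃ c, c = ⁅x, y⁆ := ⟨_, rfl⟩
    rw [← hcd] at h1 ⊢
    have h2 : x * y * x⁻¹ = c * y := by rw [hcd, commutatorElement_def]; group
    have h3 : (x * y * x⁻¹) ^ p = y ^ p := by
      rw [conj_pow]
      have := Subgroup.mem_center_iff.mp (hpow y) x
      rw [this]; group
    have h4 : Commute c y := (Subgroup.mem_center_iff.mp h1 y).symm
    rw [h2, h4.mul_pow] at h3
    exact mul_eq_right.mp h3
  exact (hle hz).2

end Cfsg.Agent.S0094
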