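import Cfsg.Statements.S0096
import Cfsg.Agent.LibSolvMisc

set_option autoImplicit false
open Cfsg

namespace Cfsg.Agent.S0096

open scoped commutatorElement

/-- For odd p, in a p-group of class at most two the elements of order dividing p generate a subgroup of exponent dividing p. -/
theorem result {P : Type*} [Group P] [Finite P] {p : ℕ} [Fact p.Prime] (hp : p ≠ 2) (hP : IsPGroup p P) (h2 : ⁅commutator P, (⊤ : Subgroup P)⁆ = ⊥) (g : P) (hg : g ∈ Subgroup.closure {x : P | x ^ p = 1}) : g ^ p = 1 := by
  have hc : ∀ x y : P, x ^ p = 1 → y ^ p = 1 → (x * y) ^ p = 1 := by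
    intro x y hx hy
    obtain ⟨c, hcdef⟩ : ∃ c, c = ⁅y⁻¹, x⁻¹⁆ := ⟨_, rfl⟩
    have hcZ : ∀ g : P, c * g = g * c := by
      intro g
      have h1 : c ∈ commutator P := by
        rw [hcdef, commutator_def]
        exact Subgroup.commutator_mem_commutator (Subgroup.mem_top _) (Subgroup.mem_top _)
      have h3 := Subgroup.commutator_mem_commutator h1 (Subgroup.mem_top g)
      rw [h2, Subgroup.mem_bot, commutatorElement_eq_one_iff_mul_comm] at h3
      exact h3
    have hyx : y * x = x * y * c := by
      rw [hcdef, commutatorElement_def]; group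
    have hcp : c ^ p = 1 := by
      have h1 : x⁻¹ * y * x = y * c := by
        rw [mul_assoc, hyx]; group
      have h3 : (x⁻¹ * y * x) ^ p = 1 := by
        have := conj_pow (i := p) (a := x⁻¹) (b := y)
        rw [inv_inv] at this
        rw [this, hy]; group
      rw [h1, (show Commute y c from (hcZ y).symm).mul_pow, hy, one_mul] at h3
      exact h3
    rw [CfsgLib.SolvCrit.mul_pow_prime (Fact.out) hp x y c hyx (hcZ x) (hcZ y) hcp, hx, hy, one_mul]
  refine Subgroup.closure_induction (p := fun g _ => g ^ p = 1) (fun x hx => hx) (one_pow p)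
    (fun x y _ _ hx hy => hc x y hx hy) (fun x _ hx => by rw [inv_pow, hx, inv_one]) hg

end Cfsg.Agent.S0096
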