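import Cfsg.Statements.S0097
import Cfsg.Agent.LibExForm2
import Cfsg.Agent.LibPCyc

set_option autoImplicit false
open Cfsg

namespace Cfsg.Agent.S0097

/-- For odd p and E extraspecial, the subgroup generated by the elements of order dividing p has exponent dividing p and index at most p. -/
theorem result {E : Type*} [Group E] [Finite E] {p : ℕ} [Fact p.Prime] (hp : p ≠ 2) (h : Cfsg.IsExtraspecial p E) : (Subgroup.closure {x : E | x ^ p = 1}).index ≤ p ∧ ∀ g ∈ Subgroup.closure {x : E | x ^ p = 1}, g ^ p = 1 := by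
  have hp' : p.Prime := Fact.out
  have hZ : ∀ x y : E, x * y * x⁻¹ * y⁻¹ ∈ Subgroup.center E := CfsgLib.ExtraH28.comm_mem_center h
  have hexp : ∀ x y : E, (x * y * x⁻¹ * y⁻¹) ^ p = 1 := by
    intro x y
    have h1 : orderOf (⟨_, hZ x y⟩ : Subgroup.center E) ∣ p := by
      have h2 := orderOf_dvd_natCard (⟨_, hZ x y⟩ : Subgroup.center E)
      rwa [h.2] at h2
    rw [Subgroup.orderOf_mk] at h1
    exact orderOf_dvd_iff_pow_eq_one.mp h1
  have hmul := CfsgLib.PCyc.mul_pow_of_central hp' hp hZ hexp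
  let f : E →* Subgroup.center E := MonoidHom.mk' (fun x => ⟨x ^ p, CfsgLib.ExtraH28.pow_mem_center h x⟩)
    (fun x y => Subtype.ext (hmul x y))
  have hf : ∀ x, x ∈ f.ker ↔ x ^ p = 1 := by
    intro x
    rw [MonoidHom.mem_ker]
    exact ⟨fun h => congrArg Subtype.val h, fun h => Subtype.ext h⟩
  have hcl : Subgroup.closure {x : E | x ^ p = 1} = f.ker := by
    apply le_antisymm
    · rw [Subgroup.closure_le]
      intro x hx
      exact (hf x).mpr hx
    · intro x hx
      exact Subgroup.subset_closure ((hf x).mp hx)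
  rw [hcl]
  refine ⟨?_, fun g hg => (hf g).mp hg⟩
  rw [Subgroup.index_ker, ← h.2]
  exact Nat.le_of_dvd Nat.card_pos (Subgroup.card_subgroup_dvd_card _)

end Cfsg.Agent.S0097
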