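import Cfsg.Statements.S0100
import Cfsg.Agent.LibAlperinA

set_option autoImplicit false
open Cfsg

namespace Cfsg.Agent.S0100

/-- For odd p, a p-group without normal elementary abelian subgroups of order p^3 has p-rank at most 2. -/
theorem result {P : Type*} [Group P] [Finite P] {p : ℕ} [Fact p.Prime] (hp : p ≠ 2) (hP : IsPGroup p P) (h : ∀ A : Subgroup P, A.Normal → IsMulCommutative A → (∀ a ∈ A, a ^ p = 1) → Nat.card A ≠ p ^ 3) (E : Subgroup P) (hE : IsMulCommutative E) (hEe : ∀ e ∈ E, e ^ p = 1) : Nat.card E ≤ p ^ 2 := by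
  have hp' : p.Prime := Fact.out
  by_cases hcyc : IsCyclic P
  · have h1 : IsCyclic E := inferInstance
    obtain ⟨g, hg⟩ := h1.exists_generator
    have h2 : Nat.card E = orderOf g := (orderOf_eq_card_of_forall_mem_zpowers hg).symm
    have h3 : orderOf g ∣ p := by
      apply orderOf_dvd_of_pow_eq_one
      exact Subtype.ext (hEe g g.2)
    rw [h2]
    refine (Nat.le_of_dvd hp'.pos h3).trans ?_
    exact Nat.le_self_pow (by norm_num) p
  · obtain ⟨B, hBn, hBc, hBe, hBcard⟩ := CfsgLib.PCyc.exists_normal_elem hp' hp hP hcyc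
    -- maximal normal elementary abelian containing B
    have hfin : ({A : Subgroup P | A.Normal ∧ IsMulCommutative A ∧ (∀ a ∈ A, a ^ p ^ 1 = 1) ∧ B ≤ A}).Finite :=
      Set.toFinite _
    obtain ⟨A, hA⟩ := hfin.exists_maximal ⟨B, hBn, hBc, by rw [pow_one]; exact hBe, le_rfl⟩
    obtain ⟨hAn, hAc, hAe, hBA⟩ := hA.1
    have hAmax : ∀ C : Subgroup P, C.Normal → IsMulCommutative C → (∀ b ∈ C, b ^ p ^ 1 = 1) →
        A ≤ C → C = A := fun C hCn hCc hCe hAC =>
      le_antisymm (hA.2 ⟨hCn, hCc, hCe, hBA.trans hAC⟩ hAC) hAC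
    have hAcard : Nat.card A = p ^ 2 := by
      obtain ⟨k, hk⟩ := IsPGroup.iff_card.mp (hP.to_subgroup A)
      have h1 : p ^ 2 ∣ p ^ k := by rw [← hk, ← hBcard]; exact Subgroup.card_dvd_of_le hBA
      have h2 : 2 ≤ k := (Nat.pow_dvd_pow_iff_le_right hp'.one_lt).mp h1
      rcases Nat.lt_or_ge k 3 with h3 | h3
      · have : k = 2 := by omega
        rw [hk, this]
      · exfalso
        obtain ⟨M, hM, hMA, hMc⟩ := CfsgLib.SolvNilp.exists_normal_card_eq hp' _ P rfl hP A 3
          (by rw [hk]; exact Nat.pow_dvd_pow _ h3)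
        refine h M hM ?_ ?_ hMc
        · refine ⟨⟨fun a b => Subtype.ext ?_⟩⟩
          have h9 := hAc.is_comm.comm (⟨a, hMA a.2⟩ : A) ⟨b, hMA b.2⟩
          exact congrArg (fun z : A => (z : P)) h9
        · intro a ha
          have := hAe a (hMA ha)
          rwa [pow_one] at this
    have hfix := CfsgLib.AlperinA.alperin hP 1 (by rw [pow_one]; exact hp) A hAc hAe hAmax
    have hidx := CfsgLib.SolvMisc.index_centralizer_normal_le hp' hP 2 A hAn hAcard
    norm_num at hidx
    by_cases hEC : E ≤ Subgroup.centralizer (A : Set P)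
    · have h1 : E ≤ A := fun e he => hfix e (hEC he) (by rw [pow_one]; exact hEe e he)
      rw [← hAcard]
      exact Nat.le_of_dvd Nat.card_pos (Subgroup.card_dvd_of_le h1)
    · -- E₀ = E ⊓ C(A) < A
      have h1 : E ⊓ Subgroup.centralizer (A : Set P) ≤ A := fun e he =>
        hfix e (Subgroup.mem_inf.mp he).2 (by rw [pow_one]; exact hEe e (Subgroup.mem_inf.mp he).1)
      have h2 : E ⊓ Subgroup.centralizer (A : Set P) < A := by
        refine lt_of_le_of_ne h1 (fun h3 => hEC ?_)
        intro e he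
        rw [Subgroup.mem_centralizer_iff]
        intro a ha
        have haE : a ∈ E := by
          have : a ∈ E ⊓ Subgroup.centralizer (A : Set P) := by rw [h3]; exact ha
          exact (Subgroup.mem_inf.mp this).1
        exact congrArg Subtype.val (hE.is_comm.comm (⟨a, haE⟩ : E) ⟨e, he⟩)
      obtain ⟨j, hj⟩ := IsPGroup.iff_card.mp (hP.to_subgroup (E ⊓ Subgroup.centralizer (A : Set P)))
      have h3 : Nat.card (E ⊓ Subgroup.centralizer (A : Set P) : Subgroup P) ≤ p := by
        have h4 : p ^ j < p ^ 2 := by rw [← hj, ← hAcard]; exact CfsgLib.SolvBasic.card_lt_of_lt h2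
        have h5 : j < 2 := (Nat.pow_lt_pow_iff_right hp'.one_lt).mp h4
        rw [hj]
        calc p ^ j ≤ p ^ 1 := Nat.pow_le_pow_right hp'.pos (by omega)
          _ = p := pow_one p
      have h4 : (Subgroup.centralizer (A : Set P)).relIndex E ≤ p := by
        refine le_trans ?_ hidx
        apply Nat.le_of_dvd
        · exact Nat.pos_of_ne_zero Subgroup.index_ne_zero_of_finite
        · exact Subgroup.relIndex_dvd_index_of_normal _ _
      have h5 : Nat.card (E ⊓ Subgroup.centralizer (A : Set P) : Subgroup P) *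
          (Subgroup.centralizer (A : Set P)).relIndex E = Nat.card E := by
        rw [inf_comm, ← Subgroup.inf_relIndex_right]
        have h6 := ((Subgroup.centralizer (A : Set P) ⊓ E).subgroupOf E).card_mul_index
        rwa [CfsgLib.SolvBasic.card_subgroupOf inf_le_right] at h6
      rw [← h5, sq]
      exact Nat.mul_le_mul h3 h4

end Cfsg.Agent.S0100
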