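import Cfsg.Statements.S0102
import Cfsg.Agent.LibSolvMisc

set_option autoImplicit false
open Cfsg

namespace Cfsg.Agent.S0102

open Pointwise

/-- A finite perfect group with cyclic Sylow p-subgroups has no perfect central extension whose kernel has order divisible by p. -/
theorem result {G : Type*} {H : Type*} [Group G] [Group H] [Finite G] [Finite H] (hG : commutator G = ⊤) {p : ℕ} [Fact p.Prime] (hcyc : ∀ P : Sylow p G, IsCyclic P) (σ : H →* G) (hσ : Function.Surjective σ) (hz : σ.ker ≤ Subgroup.center H) (hH : commutator H = ⊤) : ¬ p ∣ Nat.card σ.ker := by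
  intro hd
  obtain ⟨P⟩ := (inferInstance : Nonempty (Sylow p H))
  have hcyc' : IsCyclic (P.mapSurjective hσ : Subgroup G) := hcyc _
  -- P is abelian
  have hPc : IsMulCommutative (P : Subgroup H) := by
    let f : (P : Subgroup H) →* (P.mapSurjective hσ : Subgroup G) :=
      (σ.comp (P : Subgroup H).subtype).codRestrict _ (fun x => ⟨x, x.2, rfl⟩)
    apply MonoidHom.isMulCommutative_of_isCyclic_of_ker_le_center f
    intro x hx
    rw [MonoidHom.mem_ker] at hx
    have h1 : σ x = 1 := congrArg Subtype.val hx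
    have h2 : (x : H) ∈ Subgroup.center H := hz (MonoidHom.mem_ker.mpr h1)
    rw [Subgroup.mem_center_iff]
    intro y
    exact Subtype.ext (Subgroup.mem_center_iff.mp h2 y)
  have h1 := CfsgLib.TransAb.hall_inf_commutator_inf_center (P : Subgroup H) hPc P.card_coprime_index
  obtain ⟨z, hzo⟩ := exists_prime_orderOf_dvd_card' p hd
  have hzo' : orderOf (z : H) = p := by rw [Subgroup.orderOf_coe, hzo]
  have hzp : IsPGroup p (Subgroup.zpowers (z : H)) := IsPGroup.of_card (n := 1) (by
    rw [Nat.card_zpowers, hzo', pow_one])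
  obtain ⟨Q, hQ⟩ := hzp.exists_le_sylow
  obtain ⟨g, hg⟩ := MulAction.exists_smul_eq H Q P
  have hzP : (z : H) ∈ (P : Subgroup H) := by
    rw [← hg]
    change (z : H) ∈ MulAut.conj g • (Q : Subgroup H)
    rw [CfsgLib.SolvBasic.mem_conj_smul]
    have h2 := Subgroup.mem_center_iff.mp (hz z.2) g⁻¹
    rw [h2, inv_mul_cancel_right]
    exact hQ (Subgroup.mem_zpowers _)
  have h2 : (z : H) ∈ (P : Subgroup H) ⊓ commutator H ⊓ Subgroup.center H :=
    Subgroup.mem_inf.mpr ⟨Subgroup.mem_inf.mpr ⟨hzP, by rw [hH]; trivial⟩, hz z.2⟩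
  rw [h1, Subgroup.mem_bot] at h2
  rw [h2, orderOf_one] at hzo'
  exact (Fact.out : p.Prime).one_lt.ne hzo'

end Cfsg.Agent.S0102
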