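import Cfsg.Statements.S0104
import Cfsg.Agent.LibTransAb

set_option autoImplicit false
open Cfsg

namespace Cfsg.Agent.S0104

open Pointwise

/-- A subgroup Z of a Sylow p-subgroup P that is normalized by N_G(P) is weakly closed in P exactly when it is normal in every Sylow p-subgroup containing it. -/
theorem result {G : Type*} [Group G] [Finite G] {p : ℕ} [Fact p.Prime] (P : Sylow p G) (Z : Subgroup G) (hZP : Z ≤ (P : Subgroup G)) (hZN : Subgroup.normalizer (P : Set G) ≤ Subgroup.normalizer (Z : Set G)) : Cfsg.IsWeaklyClosed Z P ↔ ∀ R : Sylow p G, Z ≤ (R : Subgroup G) → (R : Subgroup G) ≤ Subgroup.normalizer (Z : Set G) := by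
  constructor
  · rintro ⟨-, hw⟩ R hR
    obtain ⟨g, hg⟩ := MulAction.exists_smul_eq G R P
    have hgR : MulAut.conj g • (R : Subgroup G) = P := by
      rw [← hg]; rfl
    have h1 : Z.map (MulAut.conj g).toMonoidHom ≤ (P : Subgroup G) := by
      rw [← hgR]
      exact Subgroup.map_mono hR
    have h2 := hw g h1
    have hgN : g ∈ Subgroup.normalizer (Z : Set G) :=
      Subgroup.mem_normalizer_iff_map_conj_eq.mpr h2
    have hPN : (P : Subgroup G) ≤ Subgroup.normalizer (Z : Set G) := Subgroup.le_normalizer.trans hZN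
    intro r hr
    have h3 : g * r * g⁻¹ ∈ (P : Subgroup G) := by
      rw [← hgR, CfsgLib.SolvBasic.mem_conj_smul]
      have e : g⁻¹ * (g * r * g⁻¹) * g = r := by group
      rw [e]; exact hr
    have h4 := mul_mem (mul_mem (inv_mem hgN) (hPN h3)) hgN
    have e : g⁻¹ * (g * r * g⁻¹) * g = r := by group
    rwa [e] at h4
  · intro h
    refine ⟨hZP, ?_⟩
    intro g hg
    have hR : Z ≤ ((g⁻¹ • P : Sylow p G) : Subgroup G) := by
      change Z ≤ MulAut.conj g⁻¹ • (P : Subgroup G)
      intro z hz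
      rw [CfsgLib.SolvBasic.mem_conj_smul, inv_inv]
      exact hg ⟨z, hz, rfl⟩
    have h1 := h _ hR
    have h2 := h P hZP
    have hs1 : CfsgLib.SolvCoprime.IsSylowIn p (P : Subgroup G) (Subgroup.normalizer (Z : Set G)) :=
      CfsgLib.TransFus.isSylowIn_of_sylow P h2
    have hs2 : CfsgLib.SolvCoprime.IsSylowIn p ((g⁻¹ • P : Sylow p G) : Subgroup G)
        (Subgroup.normalizer (Z : Set G)) := CfsgLib.TransFus.isSylowIn_of_sylow _ h1
    obtain ⟨k, hk, hkk⟩ := hs2.exists_conj hs1
    have h3 : k * g⁻¹ ∈ Subgroup.normalizer (P : Set G) := by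
      change k * g⁻¹ ∈ Subgroup.normalizer ((P : Subgroup G) : Set G)
      rw [CfsgLib.SolvBasic.mem_normalizer_iff_conj_smul, CfsgLib.SolvBasic.conj_smul_mul]
      exact hkk
    have h4 := hZN h3
    have h5 : g ∈ Subgroup.normalizer (Z : Set G) := by
      have := mul_mem (inv_mem h4) hk
      have e : (k * g⁻¹)⁻¹ * k = g := by group
      rwa [e] at this
    exact Subgroup.mem_normalizer_iff_map_conj_eq.mp h5

end Cfsg.Agent.S0104
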