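import Cfsg.Statements.S0107
import Cfsg.Agent.LibThompTr

set_option autoImplicit false
open Cfsg

namespace Cfsg.Agent.S0107

/-- A finite group with no nontrivial 2-group quotient and dihedral Sylow 2-subgroups of order at least 8 has a single class of involutions. -/
theorem result {G : Type*} [Group G] [Finite G] (T : Sylow 2 G) (n : ℕ) (hn : 2 ≤ n) (hT : Nonempty ((T : Subgroup G) ≃* DihedralGroup (2 ^ n))) (hO : Cfsg.pResidual 2 G = ⊤) (x y : G) (hx : orderOf x = 2) (hy : orderOf y = 2) : ∃ g : G, g * x * g⁻¹ = y := by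
  have : Fact (Nat.Prime 2) := ⟨Nat.prime_two⟩
  have : NeZero (2 ^ n) := ⟨by positivity⟩
  obtain ⟨e⟩ := hT
  obtain ⟨m, rfl⟩ : ∃ m, n = m + 1 := ⟨n - 1, by omega⟩
  -- the cyclic subgroup
  obtain ⟨c, hcT, hc⟩ : ∃ c : G, c ∈ (T : Subgroup G) ∧ orderOf c = 2 ^ (m + 1) := by
    refine ⟨e.symm (DihedralGroup.r 1), (e.symm (DihedralGroup.r 1)).2, ?_⟩
    have h1 : orderOf (e.symm (DihedralGroup.r 1)) = orderOf (DihedralGroup.r 1 : DihedralGroup (2 ^ (m + 1))) :=
      MulEquiv.orderOf_eq e.symm _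
    rw [DihedralGroup.orderOf_r_one] at h1
    exact (Subgroup.orderOf_coe (e.symm (DihedralGroup.r 1))).trans h1
  have hCT : Subgroup.zpowers c ≤ (T : Subgroup G) := Subgroup.zpowers_le.mpr hcT
  have hCi : (Subgroup.zpowers c).relIndex (T : Subgroup G) = 2 := by
    have h2 := ((Subgroup.zpowers c).subgroupOf (T : Subgroup G)).card_mul_index
    rw [Nat.card_congr (Subgroup.subgroupOfEquivOfLe hCT).toEquiv, Nat.card_zpowers, hc,
      Nat.card_congr e.toEquiv, DihedralGroup.nat_card] at h2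
    have h3 : 0 < 2 ^ (m + 1) := by positivity
    have h4 : 2 ^ (m + 1) * ((Subgroup.zpowers c).subgroupOf (T : Subgroup G)).index = 2 ^ (m + 1) * 2 := by
      rw [h2]; ring
    exact Nat.eq_of_mul_eq_mul_left h3 h4
  have step : ∀ x : G, orderOf x = 2 → ∃ g : G, g * x * g⁻¹ ∈ Subgroup.zpowers c := fun x hx =>
    CfsgLib.ThompTr.thompson_transfer_residual hO T _ hCT hCi x (by rw [← hx]; exact pow_orderOf_eq_one x)
  obtain ⟨g, hg⟩ := step x hx
  obtain ⟨h, hh⟩ := step y hy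
  have h1 := CfsgLib.ThompTr.unique_involution_zpowers c _ _ hg hh
    (by rw [CfsgLib.TransFus.orderOf_conj]; exact hx)
    (by rw [CfsgLib.TransFus.orderOf_conj]; exact hy)
  refine ⟨h⁻¹ * g, ?_⟩
  calc h⁻¹ * g * x * (h⁻¹ * g)⁻¹ = h⁻¹ * (g * x * g⁻¹) * h := by group
    _ = h⁻¹ * (h * y * h⁻¹) * h := by rw [h1]
    _ = y := by group

end Cfsg.Agent.S0107
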