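import Cfsg.Statements.S0110
import Cfsg.Agent.LibExtraH28

set_option autoImplicit false
open Cfsg

namespace Cfsg.Agent.S0110

/-- In a p-group G, an extraspecial subgroup E with [G, E] ≤ Z(E) satisfies G = E C_G(E). -/
theorem result {G : Type*} [Group G] [Finite G] {p : ℕ} [Fact p.Prime] (hG : IsPGroup p G) (E : Subgroup G) (hE : Cfsg.IsExtraspecial p E) (h : ⁅(⊤ : Subgroup G), E⁆ ≤ E ⊓ Subgroup.centralizer (E : Set G)) : E ⊔ Subgroup.centralizer (E : Set G) = ⊤ := by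
  rw [eq_top_iff]
  intro g _
  have hm : ∀ x ∈ E, g * x * g⁻¹ * x⁻¹ ∈ E ⊓ Subgroup.centralizer (E : Set G) := by
    intro x hx
    have := Subgroup.commutator_mem_commutator (Subgroup.mem_top g) hx
    rw [commutatorElement_def] at this
    exact h this
  have hm' : ∀ x ∈ E, g * x * g⁻¹ ∈ E := by
    intro x hx
    have := mul_mem (Subgroup.mem_inf.mp (hm x hx)).1 hx
    rwa [inv_mul_cancel_right] at this
  let φ : E →* E := MonoidHom.mk' (fun x => ⟨g * x * g⁻¹, hm' x x.2⟩) (by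
    intro x y
    apply Subtype.ext
    change g * ((x : G) * y) * g⁻¹ = (g * x * g⁻¹) * (g * y * g⁻¹)
    group)
  obtain ⟨e, he⟩ := CfsgLib.ExtraH28.inner_of_trivial_mod_center hE φ (by
    intro x
    rw [Subgroup.mem_center_iff]
    intro y
    apply Subtype.ext
    change (y : G) * (g * x * g⁻¹ * (x : G)⁻¹) = (g * x * g⁻¹ * (x : G)⁻¹) * y
    exact Subgroup.mem_centralizer_iff.mp (Subgroup.mem_inf.mp (hm x x.2)).2 y y.2)
  have h1 : (e : G)⁻¹ * g ∈ Subgroup.centralizer (E : Set G) := by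
    rw [Subgroup.mem_centralizer_iff]
    intro x hx
    have h2 : g * x * g⁻¹ = e * x * (e : G)⁻¹ := congrArg Subtype.val (he ⟨x, hx⟩)
    calc x * ((e : G)⁻¹ * g) = (e : G)⁻¹ * (e * x * (e : G)⁻¹) * g := by group
      _ = (e : G)⁻¹ * (g * x * g⁻¹) * g := by rw [h2]
      _ = (e : G)⁻¹ * g * x := by group
  have h3 := Subgroup.mul_mem_sup e.2 h1
  rwa [mul_inv_cancel_left] at h3

end Cfsg.Agent.S0110
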