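import Cfsg.Statements.S0116
import Cfsg.Agent.LibAlpTame

set_option autoImplicit false
open Cfsg

namespace Cfsg.Agent.S0116

open CfsgLib.AlpTame CfsgLib.FusionH12

/-- The Alperin fusion Theorem states that conjugation between subsets of a Sylow p-subgroup P factors through normalizers of tame intersections P ∩ Q_i with other Sylow p-subgroups, carrying the subset along step by step. -/
theorem result {G : Type*} [Group G] [Finite G] {p : ℕ} [Fact p.Prime] (P : Sylow p G) (A : Set G) (g : G) (hA : A ⊆ (P : Set G)) (hAg : (fun a => g⁻¹ * a * g) '' A ⊆ (P : Set G)) : ∃ (n : ℕ) (Q : Fin n → Sylow p G) (x : Fin n → G), (List.ofFn x).prod = g ∧ (∀ i : Fin n, x i ∈ Subgroup.normalizer ((((P : Subgroup G) ⊓ (Q i : Subgroup G)) : Subgroup G) : Set G) ∧ ¬ p ∣ ((P : Subgroup G) ⊓ Subgroup.normalizer ((((P : Subgroup G) ⊓ (Q i : Subgroup G)) : Subgroup G) : Set G)).relIndex (Subgroup.normalizer ((((P : Subgroup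 G) ⊓ (Q i : Subgroup G)) : Subgroup G) : Set G)) ∧ ¬ p ∣ ((Q i : Subgroup G) ⊓ Subgroup.normalizer ((((P : Subgroup G) ⊓ (Q i : Subgroup G)) : Subgroup G) : Set G)).relIndex (Subgroup.normalizer ((((P : Subgroup G) ⊓ (Q i : Subgroup G)) : Subgroup G) : Set G))) ∧ (∀ h : 0 < n, A ⊆ (((P : Subgroup G) ⊓ (Q ⟨0, h⟩ : Subgroup G) : Subgroup G) : Set G)) ∧ ∀ i : Fin n, ∀ h : i.val + 1 < n, (fun a => (((List.ofFn x).take (i.val + 1)).prod)⁻¹ * a * ((List.ofFn x).take (i.val + 1)).prod) '' A ⊆ (((P : Subgroup G) ⊓ (Q ⟨i.val + 1, h⟩ : Subgroup G) : Subgroup G) : Set G) := by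
  obtain ⟨S, hS⟩ := sylow_cj P g
  have hAD : ∀ a ∈ A, a ∈ (P : Subgroup G) ⊓ (S : Subgroup G) := by
    intro a ha
    refine Subgroup.mem_inf.mpr ⟨hA ha, ?_⟩
    rw [hS, mem_cj]
    exact hAg ⟨a, ha, rfl⟩
  have hr : Reach (FamStep (Fam P)) ((P : Subgroup G) ⊓ S) g⁻¹ := by
    refine reach P inf_le_left ?_
    rw [cj_le_iff, inv_inv, ← hS]
    exact inf_le_right
  obtain ⟨n, Q, x, h1, h2, h3⟩ := conv P hr
  refine ⟨n, Q, x, by rw [h1, inv_inv], fun i => ⟨(h2 i).2, (h2 i).1.1.idx, (h2 i).1.2.idx⟩, ?_, ?_⟩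
  · intro h a ha
    have h4 := h3 ⟨0, h⟩ a (hAD a ha)
    have h5 : (((List.ofFn x).take (((⟨0, h⟩ : Fin n) : ℕ))).prod) = 1 := by simp
    rw [h5, inv_one, one_mul, mul_one] at h4
    exact h4
  · rintro i h _ ⟨a, ha, rfl⟩
    exact h3 ⟨i.val + 1, h⟩ a (hAD a ha)

end Cfsg.Agent.S0116
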