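import Cfsg.Statements.S0123
import Cfsg.Agent.LibCollect

set_option autoImplicit false
open Cfsg

namespace Cfsg.Agent.S0123

open CfsgLib.Collect
open scoped commutatorElement

/-- For a p-group of small class relative to p (class ≤ 2 with p odd, or class ≤ 3 with p > 3) whose derived subgroup is generated by elements of order dividing p, the p-th power map is multiplicative. -/
theorem result {R : Type*} [Group R] [Finite R] {p : ℕ} [Fact p.Prime] (hR : IsPGroup p R) (hcl : (p ≠ 2 ∧ ⁅commutator R, (⊤ : Subgroup R)⁆ = ⊥) ∨ (3 < p ∧ ⁅⁅commutator R, (⊤ : Subgroup R)⁆, (⊤ : Subgroup R)⁆ = ⊥)) (hder : commutator R ≤ Subgroup.closure {x : R | x ^ p = 1}) (x y : R) : (x * y) ^ p = x ^ p * y ^ p := by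
  have hpp : p.Prime := Fact.out
  have hc : ∀ x y : R, ⁅x, y⁆ ∈ commutator R := fun x y => by
    rw [commutator_def]; exact Subgroup.commutator_mem_commutator (Subgroup.mem_top _) (Subgroup.mem_top _)
  rcases hcl with ⟨hp2, hcl⟩ | ⟨hp3, hcl⟩
  · have hZ : ∀ x y g : R, Commute ⁅y⁻¹, x⁻¹⁆ g := by
      intro x y g
      have h1 : commutator R ≤ Subgroup.center R := by
        rw [← Subgroup.commutator_top_right_eq_bot_iff_le_center]; exact hcl
      exact ((Subgroup.mem_center_iff.mp (h1 (hc _ _))) g).symm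
    exact pow_prime_of_central hpp hp2 (hZ x y) (pow_eq_one_of_class_two hpp hp2 hZ (hder (hc _ _)))
  · have hE : ∀ z ∈ commutator R, z ^ p = 1 := fun z hz => pow_eq_one_of_class_three hpp hp3 hcl (hder hz)
    have hZ : ⁅commutator R, (⊤ : Subgroup R)⁆ ≤ Subgroup.center R := by
      rw [← Subgroup.commutator_top_right_eq_bot_iff_le_center]; exact hcl
    have hZ' : ∀ z ∈ ⁅commutator R, (⊤ : Subgroup R)⁆, ∀ g, Commute z g :=
      fun z hz g => ((Subgroup.mem_center_iff.mp (hZ hz)) g).symm
    exact pow_prime_of_class_three hpp hp3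
      (hZ' _ (Subgroup.commutator_mem_commutator (inv_mem (hc _ _)) (Subgroup.mem_top _)))
      (hZ' _ (Subgroup.commutator_mem_commutator (inv_mem (hc _ _)) (Subgroup.mem_top _)))
      (hE _ (hc _ _)) (hE _ (hc _ _)) (hE _ (hc _ _))

end Cfsg.Agent.S0123
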