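import Cfsg.Statements.S0125
import Cfsg.Agent.LibTransNil

set_option autoImplicit false
open Cfsg

namespace Cfsg.Agent.S0125

open Pointwise

/-- The centralizer of a self-centralizing normal subgroup A of a Sylow p-subgroup is the direct product of A with a normal p'-subgroup. -/
theorem result {G : Type*} [Group G] [Finite G] {p : ℕ} [Fact p.Prime] (R : Sylow p G) (A : Subgroup G) (hAR : A ≤ (R : Subgroup G)) (hAn : (R : Subgroup G) ≤ Subgroup.normalizer (A : Set G)) (hC : (R : Subgroup G) ⊓ Subgroup.centralizer (A : Set G) = A) : ∃ H : Subgroup G, H ≤ Subgroup.centralizer (A : Set G) ∧ Nat.Coprime (Nat.card H) p ∧ Subgroup.centralizer (A : Set G) ≤ Subgroup.normalizer (H : Set G) ∧ H ⊓ A = ⊥ ∧ H ⊔ A = Subgroup.centralizer (A : Set G) := by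
  obtain ⟨C, hCdef⟩ : ∃ C, C = Subgroup.centralizer (A : Set G) := ⟨_, rfl⟩
  rw [← hCdef] at hC ⊢
  have hAC : A ≤ C := by rw [← hC]; exact inf_le_right
  have hAp : IsPGroup p A := R.isPGroup'.to_le hAR
  -- A is a Sylow subgroup of C
  obtain ⟨N, hN⟩ : ∃ N, N = Subgroup.normalizer (A : Set G) := ⟨_, rfl⟩
  have hCN : C ≤ N := by rw [hCdef, hN]; exact Subgroup.centralizer_le_normalizer _
  have hRN : CfsgLib.SolvCoprime.IsSylowIn p (R : Subgroup G) N :=
    CfsgLib.TransFus.isSylowIn_of_sylow R (hN ▸ hAn)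
  have hNC : N ≤ Subgroup.normalizer (C : Set G) := by
    rw [hN, hCdef]
    intro x hx
    rw [Subgroup.mem_normalizer_iff]
    have key : ∀ z ∈ Subgroup.normalizer (A : Set G), ∀ y ∈ Subgroup.centralizer (A : Set G),
        z * y * z⁻¹ ∈ Subgroup.centralizer (A : Set G) := by
      intro z hz y hy
      rw [Subgroup.mem_centralizer_iff]
      intro a ha
      have h1 : z⁻¹ * a * z ∈ A := by
        have := (Subgroup.mem_normalizer_iff.mp (inv_mem hz) a).mp ha
        rwa [inv_inv] at this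
      have h2 := Subgroup.mem_centralizer_iff.mp hy _ h1
      calc a * (z * y * z⁻¹) = z * ((z⁻¹ * a * z) * y) * z⁻¹ := by group
        _ = z * (y * (z⁻¹ * a * z)) * z⁻¹ := by rw [h2]
        _ = _ := by group
    intro y
    constructor
    · exact key x hx y
    · intro hy
      have := key x⁻¹ (inv_mem hx) _ hy
      have e : x⁻¹ * (x * y * x⁻¹) * x⁻¹⁻¹ = y := by group
      rwa [e] at this
  have hAsyl : CfsgLib.SolvCoprime.IsSylowIn p A C := by
    obtain ⟨S, hS⟩ := CfsgLib.SolvCoprime.IsSylowIn.exists_isSylowIn (p := p) C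
    obtain ⟨T, hT, hST⟩ := CfsgLib.SolvCoprime.IsSylowIn.exists_ge hS.isPGroup (hS.le.trans hCN)
    obtain ⟨g, hg, hgg⟩ := hT.exists_conj hRN
    have h1 := hS.conj_of_normalizes (hNC hg)
    have h2 : MulAut.conj g • S ≤ (R : Subgroup G) := by
      rw [← hgg]; exact Subgroup.pointwise_smul_le_pointwise_smul_iff.mpr hST
    have h3 : MulAut.conj g • S = A :=
      h1.eq_of_le hAp hAC (by rw [← hC]; exact le_inf h2 h1.le)
    rwa [h3] at h1
  obtain ⟨S, hS⟩ := hAsyl.exists_sylow
  have hSC : Cfsg.HasNormalPComplement p C := by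
    refine ⟨S, _, inferInstance, MonoidHom.ker_transferSylow_isComplement' S ?_⟩
    intro x _
    rw [Subgroup.mem_centralizer_iff]
    intro y hy
    have hyA : (y : G) ∈ A := by rw [← hS]; exact ⟨y, hy, rfl⟩
    have hx := x.2
    apply Subtype.ext
    have hx' : (x : G) ∈ Subgroup.centralizer (A : Set G) := by rw [← hCdef]; exact hx
    exact Subgroup.mem_centralizer_iff.mp hx' y hyA
  rw [CfsgLib.TransPC.hasNPC_iff] at hSC
  obtain ⟨M, hM⟩ := hSC
  have hMn := hM.1
  have hc := hM.isComplement' S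
  refine ⟨M.map C.subtype, Subgroup.map_subtype_le _, ?_, ?_, ?_, ?_⟩
  · rw [Subgroup.card_map_of_injective C.subtype_injective]
    exact hM.coprime
  · intro x hx
    rw [Subgroup.mem_normalizer_iff]
    intro y
    constructor
    · rintro ⟨w, hw, rfl⟩
      exact ⟨⟨x, hx⟩ * w * ⟨x, hx⟩⁻¹, hMn.conj_mem w hw _, rfl⟩
    · rintro ⟨w, hw, hw'⟩
      refine ⟨⟨x, hx⟩⁻¹ * w * ⟨x, hx⟩, ?_, ?_⟩
      · have := hMn.conj_mem w hw (⟨x, hx⟩ : C)⁻¹
        rwa [inv_inv] at this
      · change x⁻¹ * (w : G) * x = y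
        have : (w : G) = x * y * x⁻¹ := hw'
        rw [this]; group
  · have := hc.disjoint.eq_bot
    have h2 := congrArg (Subgroup.map C.subtype) this
    rwa [Subgroup.map_inf _ _ _ C.subtype_injective, hS, Subgroup.map_bot] at h2
  · have := hc.sup_eq_top
    have h2 := congrArg (Subgroup.map C.subtype) this
    rwa [Subgroup.map_sup, hS, ← MonoidHom.range_eq_map, Subgroup.range_subtype] at h2

end Cfsg.Agent.S0125
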