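import Cfsg.Statements.S0129
import Cfsg.Agent.LibSolvMisc

set_option autoImplicit false
open Cfsg

namespace Cfsg.Agent.S0129

/-- The order of a p-group is bounded by p^(a(a+1)/2) when it has a maximal normal abelian subgroup of order p^a. -/
theorem result {G : Type*} [Group G] [Finite G] {p : ℕ} [Fact p.Prime] (hG : IsPGroup p G) (A : Subgroup G) [A.Normal] (hA : IsMulCommutative A) (hmax : ∀ B : Subgroup G, B.Normal → IsMulCommutative B → A ≤ B → B = A) (a : ℕ) (ha : Nat.card A = p ^ a) : Nat.card G ≤ p ^ (a * (a + 1) / 2) := by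
  have hnil := hG.isNilpotent
  have hC := CfsgLib.SolvNilp.centralizer_eq_of_maximal A hmax
  have h1 := CfsgLib.SolvMisc.index_centralizer_normal_le (Fact.out : p.Prime) hG a A inferInstance ha
  rw [hC] at h1
  rw [← A.card_mul_index, ha]
  calc p ^ a * A.index ≤ p ^ a * p ^ (a * (a - 1) / 2) := Nat.mul_le_mul_left _ h1
    _ = p ^ (a * (a + 1) / 2) := by
      rw [← pow_add]
      congr 1
      rcases Nat.eq_zero_or_pos a with rfl | ha0
      · simp
      · obtain ⟨j, rfl⟩ : ∃ j, a = j + 1 := ⟨a - 1, by omega⟩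
        rw [Nat.add_sub_cancel]
        have : (j + 1) * (j + 1 + 1) = (j + 1) * j + (j + 1) * 2 := by ring
        rw [this, Nat.add_mul_div_right _ _ (by norm_num), add_comm]

end Cfsg.Agent.S0129
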