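import Cfsg.Statements.S0131
import Cfsg.Agent.LibTransAb
import Cfsg.Agent.S0080

set_option autoImplicit false
open Cfsg

namespace Cfsg.Agent.S0131

/-- P/P' has a normal complement in G exactly when the focal subgroup G' ∩ P is as small as possible, namely P'. -/
theorem result {G : Type*} [Group G] [Finite G] {p : ℕ} [Fact p.Prime] (P : Sylow p G) : (∃ N : Subgroup G, N.Normal ∧ N ⊓ (P : Subgroup G) = ⁅(P : Subgroup G), (P : Subgroup G)⁆ ∧ N ⊔ (P : Subgroup G) = ⊤) ↔ commutator G ⊓ (P : Subgroup G) = ⁅(P : Subgroup G), (P : Subgroup G)⁆ := by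
  constructor
  · rintro ⟨N, hN, h1, h2⟩
    apply le_antisymm
    · rw [← h1]
      refine inf_le_inf_right _ ?_
      have hm : (⊤ : Subgroup G).map (QuotientGroup.mk' N) = (P : Subgroup G).map (QuotientGroup.mk' N) := by
        rw [← h2, Subgroup.map_sup, QuotientGroup.map_mk'_self, bot_sup_eq]
      have hb : (commutator G).map (QuotientGroup.mk' N) = ⊥ := by
        rw [commutator_def, Subgroup.map_commutator, hm, ← Subgroup.map_commutator, ← h1,
          eq_bot_iff, ← QuotientGroup.map_mk'_self N]
        exact Subgroup.map_mono inf_le_left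
      rw [Subgroup.map_eq_bot_iff, QuotientGroup.ker_mk'] at hb
      exact hb
    · refine le_inf ?_ (Subgroup.commutator_le_self _)
      rw [commutator_def]
      exact Subgroup.commutator_mono le_top le_top
  · intro h
    have hco : Nat.Coprime (P : Subgroup G).index (⁅(P : Subgroup G), (P : Subgroup G)⁆.relIndex (P : Subgroup G)) := by
      have h1 := (P.card_coprime_index).symm
      refine h1.coprime_dvd_right ?_
      exact Subgroup.relIndex_dvd_card _ _
    obtain ⟨-, N, hN, h1, h2⟩ := Cfsg.Agent.S0080.result (P : Subgroup G) hco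
    exact ⟨N, hN, by rw [h1, h], h2⟩

end Cfsg.Agent.S0131
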