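import Cfsg.Statements.S0132
import Cfsg.Agent.LibTransNil

set_option autoImplicit false
open Cfsg

namespace Cfsg.Agent.S0132

open Pointwise

/-- A minimal non-p-nilpotent finite group is a minimal non-nilpotent group with a normal Sylow p-subgroup. -/
theorem result {G : Type*} [Group G] [Finite G] {p : ℕ} [Fact p.Prime] (h1 : ¬ Cfsg.HasNormalPComplement p G) (h2 : ∀ H : Subgroup G, H ≠ ⊤ → Cfsg.HasNormalPComplement p H) : (∀ H : Subgroup G, H ≠ ⊤ → Group.IsNilpotent H) ∧ ¬ Group.IsNilpotent G ∧ ∀ P : Sylow p G, (P : Subgroup G).Normal := by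
  obtain ⟨Q, g, hQ, hg, ho, hgc⟩ := CfsgLib.TransNil.exists_of_not_hasNPC h1
  have htop : Q ⊔ Subgroup.zpowers g = ⊤ := by
    by_contra hne
    exact CfsgLib.TransNil.not_hasNPC_of hQ hg ho hgc le_sup_left
      ((le_sup_right : Subgroup.zpowers g ≤ Q ⊔ Subgroup.zpowers g) (Subgroup.mem_zpowers g))
      (h2 _ hne)
  obtain ⟨hn, hidx, hcyc⟩ := CfsgLib.TransNil.struct_of_sup hQ hg ho htop
  have hPQ : ∀ P : Sylow p G, (P : Subgroup G) = Q := by
    intro P
    symm
    have hQP : Q ≤ (P : Subgroup G) := by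
      obtain ⟨P', hP'⟩ := hQ.exists_le_sylow
      obtain ⟨x, hx⟩ := MulAction.exists_smul_eq G P' P
      rw [← hx]
      have h3 : MulAut.conj x • Q = Q := by
        rw [← CfsgLib.SolvBasic.mem_normalizer_iff_conj_smul, Subgroup.normalizer_eq_top]; trivial
      calc Q = MulAut.conj x • Q := h3.symm
        _ ≤ MulAut.conj x • (P' : Subgroup G) := Subgroup.pointwise_smul_le_pointwise_smul_iff.mpr hP'
    exact (hQ.toSylow hidx).is_maximal' P.isPGroup' hQP |>.symm
  refine ⟨?_, ?_, fun P => by rw [hPQ P]; exact hn⟩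
  · intro H hH
    obtain ⟨N, hN⟩ := (CfsgLib.TransPC.hasNPC_iff p).mp (h2 H hH)
    have hNn := hN.1
    let f1 : H →* (H ⧸ N) := QuotientGroup.mk' N
    let f2 : H →* (G ⧸ Q) := (QuotientGroup.mk' Q).comp H.subtype
    have hker : (f1.prod f2).ker = ⊥ := by
      rw [eq_bot_iff]
      intro x hx
      rw [MonoidHom.mem_ker] at hx
      have hx1 : x ∈ N := (QuotientGroup.eq_one_iff x).mp (congrArg Prod.fst hx)
      have hx2 : (x : G) ∈ Q := (QuotientGroup.eq_one_iff (x : G)).mp (congrArg Prod.snd hx)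
      have h3 := (hN.mem_iff x).mp hx1
      obtain ⟨k, hk⟩ := IsPGroup.iff_orderOf.mp hQ ⟨x, hx2⟩
      rw [Subgroup.orderOf_mk] at hk
      rw [← Subgroup.orderOf_coe, hk] at h3
      rw [Subgroup.mem_bot]
      rcases Nat.eq_zero_or_pos k with rfl | hk0
      · rw [pow_zero, orderOf_eq_one_iff] at hk
        exact Subtype.ext hk
      · exfalso
        have := (Nat.coprime_pow_left_iff hk0 p p).mp h3
        rw [Nat.coprime_self] at this
        exact (Fact.out : p.Prime).one_lt.ne' this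
    have hnil1 : Group.IsNilpotent (H ⧸ N) := by
      obtain ⟨k, hk⟩ := hN.2.2
      have : IsPGroup p (H ⧸ N) := IsPGroup.of_card (n := k) (by rw [← hk, Subgroup.index_eq_card])
      exact this.isNilpotent
    have hnil2 : Group.IsNilpotent (G ⧸ Q) := by
      let _ : CommGroup (G ⧸ Q) := IsCyclic.commGroup
      infer_instance
    have hnil : Group.IsNilpotent ((H ⧸ N) × (G ⧸ Q)) := inferInstance
    exact Subgroup.isNilpotent_of_ker_le_center (f1.prod f2) (by rw [hker]; exact bot_le)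
  · intro hG
    exact h1 (CfsgLib.TransNil.hasNPC_of_isNilpotent hG p)

end Cfsg.Agent.S0132
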