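import Cfsg.Statements.S0135
import Cfsg.Agent.LibCharNorm

set_option autoImplicit false
set_option linter.all false
open Cfsg

namespace Cfsg.Agent.S0135

/-- The degree of an irreducible complex representation of a finite group divides the group order. -/
theorem result {G : Type*} [Group G] [Finite G] {V : Type*} [AddCommGroup V] [Module ℂ V] [FiniteDimensional ℂ V] (ρ : Representation ℂ G V) [ρ.IsIrreducible] : Module.finrank ℂ V ∣ Nat.card G := by
  have h := CfsgLib.CharBasic.isIrrCharacter_character ρ
  have h1 := CfsgLib.CharInt2.charDegree_dvd_card h
  have h2 := CfsgLib.CharInt.irr_one_eq_charDegree h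
  rw [Representation.char_one] at h2
  have h3 : Module.finrank ℂ V = Cfsg.charDegree ρ.character := by exact_mod_cast h2
  rw [h3]; exact h1

end Cfsg.Agent.S0135
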