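import Cfsg.Statements.S0145
import Cfsg.Agent.LibCharBasic2

set_option autoImplicit false
set_option linter.all false
open scoped ComplexConjugate
open Cfsg

namespace Cfsg.Agent.S0145

/-- Column orthogonality: the sum over the irreducible characters χ of χ g * conj (χ h) is the order of the centralizer of g if g and h are conjugate, and is 0 otherwise. -/
theorem result {G : Type*} [Group G] [Finite G] (g h : G) : (IsConj g h → ∑ᶠ χ : Cfsg.IrrCharacter G, (χ : G → ℂ) g * conj ((χ : G → ℂ) h) = (Nat.card (Subgroup.centralizer ({g} : Set G)) : ℂ)) ∧ (¬ IsConj g h → ∑ᶠ χ : Cfsg.IrrCharacter G, (χ : G → ℂ) g * conj ((χ : G → ℂ) h) = 0) := by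
  classical
  haveI := Fintype.ofFinite G
  constructor
  · intro hc
    rw [finsum_eq_sum_of_fintype, CfsgLib.CharBasic.column_orthogonality, if_pos hc]
  · intro hc
    rw [finsum_eq_sum_of_fintype, CfsgLib.CharBasic.column_orthogonality, if_neg hc]

end Cfsg.Agent.S0145
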