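import Cfsg.Statements.S0146
import Cfsg.Agent.LibCharIndA

set_option autoImplicit false
set_option linter.all false
open Cfsg

namespace Cfsg.Agent.S0146

/-- Frobenius reciprocity for the induction map on functions: pairing the induced function with a class function of the big group equals pairing the original function with the restriction. -/
theorem result {G : Type*} [Group G] [Fintype G] (H : Subgroup G) [Fintype H] (θ : H → ℂ) (χ : G → ℂ) (hχ : Cfsg.IsClassFunction G χ) : Cfsg.classInner (Cfsg.indFun H θ) χ = Cfsg.classInner θ (fun h : H => χ h) := by
  exact CfsgLib.CharIndA.frobenius H θ hχ

end Cfsg.Agent.S0146
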