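import Cfsg.Statements.S0147
import Cfsg.Agent.LibCharIndA

set_option autoImplicit false
set_option linter.all false
open Cfsg

namespace Cfsg.Agent.S0147

/-- Transitivity of induction: inducing from H to K and then from K to G is the same as inducing from H to G. -/
theorem result {G : Type*} [Group G] [Fintype G] (H K : Subgroup G) [Fintype K] (hHK : H ≤ K) (θ : H → ℂ) : Cfsg.indFun K (Cfsg.indFun (H.subgroupOf K) (fun x => θ ⟨(x : K), Subgroup.mem_subgroupOf.mp x.2⟩)) = Cfsg.indFun H θ := by
  exact CfsgLib.CharIndA.ind_trans H K hHK θ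

end Cfsg.Agent.S0147
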