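import Cfsg.Statements.S0149
import Cfsg.Agent.LibCharIndA

set_option autoImplicit false
set_option linter.all false
open Cfsg

namespace Cfsg.Agent.S0149

/-- Let T be a subset of G meeting each of its conjugates by elements outside its normalizer N only in the identity, and let ψ be a class function of N vanishing on N away from T. Then the function induced from ψ agrees with ψ at every non-identity element of T. -/
theorem result {G : Type*} [Group G] [Fintype G] (T : Set G) (hTI : ∀ g : G, g ∉ Subgroup.normalizer T → ∀ t ∈ T, g * t * g⁻¹ ∈ T → t = 1) (hTN : T ⊆ Subgroup.normalizer T) (ψ : Subgroup.normalizer T → ℂ) (hψ : Cfsg.IsClassFunction (Subgroup.normalizer T) ψ) (hψT : ∀ x : Subgroup.normalizer T, (x : G) ∉ T → ψ x = 0) (t : Subgroup.normalizer T) (htT : (t : G) ∈ T) (ht1 : t ≠ 1) : Cfsg.indFun (Subgroup.normalizer T) ψ t = ψ t := by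
  have hN : (Nat.card (Subgroup.normalizer T) : ℂ) ≠ 0 := by exact_mod_cast Nat.card_pos.ne'
  rw [CfsgLib.CharIndA.ind_apply]
  have h1 : ∀ x : G, extendByZero (Subgroup.normalizer T) ψ (x⁻¹ * t * x) =
      extendByZero (Subgroup.normalizer T) (fun _ => ψ t) x * 1 := by
    intro x
    by_cases hx : x ∈ Subgroup.normalizer T
    · rw [CfsgLib.CharIndA.ext_mem _ _ hx, mul_one]
      have hm : x⁻¹ * (t : G) * x ∈ Subgroup.normalizer T :=
        Subgroup.mul_mem _ (Subgroup.mul_mem _ (Subgroup.inv_mem _ hx) t.2) hx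
      rw [CfsgLib.CharIndA.ext_mem _ _ hm]
      have := hψ t ⟨x⁻¹, Subgroup.inv_mem _ hx⟩
      rw [← this]
      congr 1
      ext
      simp
    · rw [CfsgLib.CharIndA.ext_not_mem _ _ hx, zero_mul]
      by_cases hm : x⁻¹ * (t : G) * x ∈ Subgroup.normalizer T
      · rw [CfsgLib.CharIndA.ext_mem _ _ hm]
        apply hψT
        intro hT
        have h2 : (x⁻¹ : G) ∉ Subgroup.normalizer T := fun h => hx (by simpa using Subgroup.inv_mem _ h)
        have h3 := hTI x⁻¹ h2 t htT (by simpa using hT)
        exact ht1 (Subtype.ext h3)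
      · exact CfsgLib.CharIndA.ext_not_mem _ _ hm
  haveI := Fintype.ofFinite (Subgroup.normalizer T)
  rw [Finset.sum_congr rfl fun x _ => h1 x, CfsgLib.CharIndA.sum_ext]
  simp only [mul_one, Finset.sum_const, nsmul_eq_mul, Finset.card_univ, ← Nat.card_eq_fintype_card]
  field_simp

end Cfsg.Agent.S0149
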