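import Cfsg.Statements.S0153
import Cfsg.Agent.LibCharNorm

set_option autoImplicit false
set_option linter.all false
open Cfsg

namespace Cfsg.Agent.S0153

open CfsgLib.CharBasic

theorem exists_irr_sub {G V : Type*} [Group G] [Finite G] [AddCommGroup V] [Module ℂ V] [FiniteDimensional ℂ V]
    [Nontrivial V] (ρ : Representation ℂ G V) : ∃ S : Subrepresentation ρ, S.toRepresentation.IsIrreducible := by
  classical
  have hex : ∃ n : ℕ, ∃ S : Subrepresentation ρ, S.toSubmodule ≠ ⊥ ∧ Module.finrank ℂ S.toSubmodule = n :=
    ⟨_, ⊤, by exact top_ne_bot, rfl⟩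
  obtain ⟨S, hS, hn⟩ := Nat.find_spec hex
  have hmin := @Nat.find_min _ _ hex
  refine ⟨S, ?_⟩
  have hnt : Nontrivial S.toSubmodule := Submodule.nontrivial_iff_ne_bot.mpr hS
  haveI : Nontrivial (Subrepresentation S.toRepresentation) := by
    refine ⟨⊥, ⊤, fun h => ?_⟩
    have := congrArg Subrepresentation.toSubmodule h
    exact bot_ne_top (α := Submodule ℂ S.toSubmodule) this
  refine { eq_bot_or_eq_top := fun T => ?_ }
  by_cases hT : T.toSubmodule = ⊥
  · left; exact Subrepresentation.toSubmodule_injective hT
  · right
    let T' : Subrepresentation ρ := ⟨T.toSubmodule.map S.toSubmodule.subtype, by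
      rintro g _ ⟨v, hv, rfl⟩
      exact ⟨_, T.apply_mem_toSubmodule g hv, rfl⟩⟩
    have hT' : T'.toSubmodule ≠ ⊥ := by
      intro h
      apply hT
      have : T.toSubmodule.map S.toSubmodule.subtype = ⊥ := h
      rw [← Submodule.map_bot S.toSubmodule.subtype] at this
      exact Submodule.map_injective_of_injective S.toSubmodule.injective_subtype this
    have hfr : Module.finrank ℂ T'.toSubmodule = Module.finrank ℂ T.toSubmodule :=
      Submodule.finrank_map_subtype_eq _ _
    apply Subrepresentation.toSubmodule_injective
    change T.toSubmodule = ⊤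
    by_contra hne
    have hlt := Submodule.finrank_lt hne
    rw [hn] at hlt
    exact hmin (hfr ▸ hlt) ⟨T', hT', rfl⟩

theorem main.{u, v, w} {G : Type u} [Group G] [Finite G] (n : ℕ) : ∀ {V : Type v} {W : Type w} [AddCommGroup V] [Module ℂ V] [FiniteDimensional ℂ V]
    [AddCommGroup W] [Module ℂ W] [FiniteDimensional ℂ W] (ρ : Representation ℂ G V) (σ : Representation ℂ G W),
    Module.finrank ℂ V = n → ρ.character = σ.character → Nonempty (ρ.Equiv σ) := by
  classical
  haveI := Fintype.ofFinite G
  induction n using Nat.strong_induction_on with
  | _ n ih =>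
    intro V W _ _ _ _ _ _ ρ σ hn h
    have hdim : Module.finrank ℂ V = Module.finrank ℂ W := by
      have := congrFun h 1
      rw [Representation.char_one, Representation.char_one] at this
      exact_mod_cast this
    rcases Nat.eq_zero_or_pos n with h0 | hpos
    · have hV : Subsingleton V := Module.finrank_zero_iff.mp (hn.trans h0)
      have hW : Subsingleton W := Module.finrank_zero_iff.mp (hdim.symm.trans (hn.trans h0))
      exact ⟨Representation.Equiv.mk (LinearEquiv.ofFinrankEq V W hdim) (fun g => by ext v; exact Subsingleton.elim _ _)⟩
    · haveI hnt : Nontrivial V := Module.finrank_pos_iff.mp (hn ▸ hpos)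
      obtain ⟨S, hS⟩ := exists_irr_sub ρ
      obtain ⟨T, hT⟩ := exists_compl ρ S
      -- nonzero hom S → W
      have h1 : classInner ρ.character S.toRepresentation.character = classInner S.toRepresentation.character S.toRepresentation.character
          + classInner T.toRepresentation.character S.toRepresentation.character := by
        rw [character_of_isCompl ρ S T hT, CfsgLib.CharNorm.ci_add_l]
      have h2 : classInner ρ.character S.toRepresentation.character ≠ 0 := by
        rw [h1, inner_reps T.toRepresentation S.toRepresentation, irr_inner_self (isIrrCharacter_character _)]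
        intro h
        have : (1 + (Module.finrank ℂ (Representation.IntertwiningMap S.toRepresentation T.toRepresentation))) = 0 := by exact_mod_cast h
        omega
      rw [h, inner_reps σ S.toRepresentation] at h2
      have h3 : 0 < Module.finrank ℂ (Representation.IntertwiningMap S.toRepresentation σ) := by
        rcases Nat.eq_zero_or_pos (Module.finrank ℂ (Representation.IntertwiningMap S.toRepresentation σ)) with h | h
        · rw [h] at h2; simp at h2
        · exact h
      haveI := Module.finrank_pos_iff.mp h3
      obtain ⟨f, hf⟩ := exists_ne (0 : Representation.IntertwiningMap S.toRepresentation σ)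
      have hinj : Function.Injective f := (Representation.IsIrreducible.injective_or_eq_zero f).resolve_right hf
      -- image
      let S' : Subrepresentation σ := f.range
      obtain ⟨T', hT'⟩ := exists_compl σ S'
      let e : S.toSubmodule ≃ₗ[ℂ] S'.toSubmodule := LinearEquiv.ofInjective f.toLinearMap hinj
      have he : ∀ g v, e (S.toRepresentation g v) = S'.toRepresentation g (e v) := by
        intro g v
        apply Subtype.ext
        exact f.isIntertwining _ _ g v
      have hSS' : S.toRepresentation.character = S'.toRepresentation.character := 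
        Representation.char_iso (Representation.Equiv.mk e (fun g => by ext1 v; exact he g v))
      have hTT' : T.toRepresentation.character = T'.toRepresentation.character := by
        have h4 := character_of_isCompl ρ S T hT
        have h5 := character_of_isCompl σ S' T' hT'
        rw [h, h5, hSS'] at h4
        exact (add_left_cancel h4).symm
      have hTlt : Module.finrank ℂ T.toSubmodule < n := by
        rw [← hn]
        apply Submodule.finrank_lt
        intro htop
        rw [htop] at hT
        have : S.toSubmodule = ⊥ := by simpa using hT.inf_eq_bot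
        haveI := irr_nontrivial S.toRepresentation
        exact (Submodule.nontrivial_iff_ne_bot.mp this) (by assumption)
      obtain ⟨φ⟩ := ih _ hTlt T.toRepresentation T'.toRepresentation rfl hTT'
      let E : V ≃ₗ[ℂ] W := (Submodule.prodEquivOfIsCompl _ _ hT).symm ≪≫ₗ (e.prodCongr φ.toLinearEquiv) ≪≫ₗ
        (Submodule.prodEquivOfIsCompl _ _ hT')
      have hE : ∀ (x : S.toSubmodule) (y : T.toSubmodule), E (x + y) = e x + φ y := by
        intro x y
        have : (Submodule.prodEquivOfIsCompl _ _ hT).symm ((x : V) + y) = (x, y) := by
          rw [LinearEquiv.symm_apply_eq]; rfl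
        simp only [E, LinearEquiv.trans_apply, this]
        rfl
      refine ⟨Representation.Equiv.mk E fun g => ?_⟩
      ext v
      have hv : v ∈ S.toSubmodule ⊔ T.toSubmodule := by rw [hT.sup_eq_top]; trivial
      obtain ⟨x, hx, y, hy, rfl⟩ := Submodule.mem_sup.mp hv
      have h6 := hE ⟨x, hx⟩ ⟨y, hy⟩
      have h7 := hE (S.toRepresentation g ⟨x, hx⟩) (T.toRepresentation g ⟨y, hy⟩)
      have h8 : (ρ g) (x + y) = (S.toRepresentation g ⟨x, hx⟩ : V) + (T.toRepresentation g ⟨y, hy⟩ : V) := by
        rw [map_add]; rfl
      change E (ρ g (x + y)) = σ g (E (x + y))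
      rw [h8, h7]
      have h9 : E (x + y) = e ⟨x, hx⟩ + φ ⟨y, hy⟩ := h6
      rw [h9, map_add, he]
      congr 1
      have := φ.toIntertwiningMap.isIntertwining _ _ g ⟨y, hy⟩
      exact congrArg Subtype.val this

/-- Complex representations of a finite group with equal characters are equivalent. -/
theorem result {G : Type*} [Group G] [Finite G] {V W : Type*} [AddCommGroup V] [Module ℂ V] [FiniteDimensional ℂ V] [AddCommGroup W] [Module ℂ W] [FiniteDimensional ℂ W] (ρ : Representation ℂ G V) (σ : Representation ℂ G W) (h : ρ.character = σ.character) : Nonempty (ρ.Equiv σ) := by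
  exact main _ ρ σ rfl h

end Cfsg.Agent.S0153
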