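import Cfsg.Statements.S0162
import Cfsg.Agent.LibPermLemma

set_option autoImplicit false
set_option linter.all false
open Cfsg

namespace Cfsg.Agent.S0162

open CfsgLib.CharBasic
theorem sum_pairs {α : Type*} [DecidableEq α] (f : α → ℕ) (inv : α → α) (hinv : ∀ a, inv (inv a) = a) (hf : ∀ a, f (inv a) = f a)
    (k : ℕ) (hk : ∀ a, k ∣ f a) (s : Finset α) (hs : ∀ a ∈ s, inv a ∈ s) (hne : ∀ a ∈ s, inv a ≠ a) :
    2 * k ∣ ∑ a ∈ s, f a := by
  induction h : s.card using Nat.strong_induction_on generalizing s with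
  | _ n ih =>
    rcases s.eq_empty_or_nonempty with he | ⟨g, hg⟩
    · simp [he]
    · have hmem : inv g ∈ s.erase g := Finset.mem_erase.mpr ⟨hne g hg, hs g hg⟩
      let t := (s.erase g).erase (inv g)
      have hcard : t.card < n := by
        have e1 := Finset.card_erase_of_mem hmem
        have e2 := Finset.card_erase_of_mem hg
        have : 0 < s.card := Finset.card_pos.mpr ⟨g, hg⟩
        change ((s.erase g).erase (inv g)).card < n
        omega
      have h1 := ih _ hcard t (by
        intro x hx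
        have hx1 := Finset.ne_of_mem_erase hx
        have hx2 := Finset.ne_of_mem_erase (Finset.mem_of_mem_erase hx)
        have hx3 := Finset.mem_of_mem_erase (Finset.mem_of_mem_erase hx)
        refine Finset.mem_erase.mpr ⟨fun h => hx2 ?_, Finset.mem_erase.mpr ⟨fun h => hx1 ?_, hs x hx3⟩⟩
        · rw [← hinv x, h, hinv]
        · rw [← h, hinv]) (fun a ha => hne a (Finset.mem_of_mem_erase (Finset.mem_of_mem_erase ha))) rfl
      rw [← Finset.add_sum_erase s _ hg, ← Finset.add_sum_erase (s.erase g) _ hmem, hf, ← add_assoc]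
      refine Nat.dvd_add ?_ h1
      rw [← two_mul]
      exact Nat.mul_dvd_mul_left 2 (hk g)

/-- If a finite group has odd order, its order is congruent to its number of conjugacy classes modulo 16. -/
theorem result {G : Type*} [Group G] [Finite G] (hodd : Odd (Nat.card G)) : Nat.card G ≡ Nat.card (ConjClasses G) [MOD 16] := by
  classical
  haveI := Fintype.ofFinite G
  rw [← card_irr]
  choose d hd0 hd using fun χ : IrrCharacter G => irr_one_nat χ.2
  have hsq : ∑ χ : IrrCharacter G, d χ ^ 2 = Nat.card G := by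
    have h1 := sum_sq_degree (G := G)
    simp only [hd] at h1
    exact_mod_cast h1
  have hodd' : ∀ χ, Odd (d χ) := by
    intro χ
    have h6 := CfsgLib.CharInt2.charDegree_dvd_card χ.2
    have h7 := CfsgLib.CharInt.irr_one_eq_charDegree χ.2
    rw [hd] at h7
    have h8 : d χ = charDegree (χ : G → ℂ) := by exact_mod_cast h7
    rw [← h8] at h6
    exact Odd.of_dvd_nat hodd h6
  let one : IrrCharacter G := ⟨_, isIrrCharacter_one⟩
  have hd1 : d one = 1 := by
    have := hd one
    have h2 : (one : G → ℂ) 1 = 1 := rfl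
    rw [h2] at this; exact_mod_cast this.symm
  let inv : IrrCharacter G → IrrCharacter G := fun χ => ⟨_, isIrrCharacter_conj χ.2⟩
  have hinv : ∀ χ, inv (inv χ) = χ := fun χ => Subtype.ext (by ext g; simp [inv])
  have hdinv : ∀ χ, d (inv χ) = d χ := by
    intro χ
    have h1 := hd (inv χ)
    have h2 : (inv χ : G → ℂ) 1 = (starRingEnd ℂ) ((χ : G → ℂ) 1) := rfl
    rw [h2, hd, Complex.conj_natCast] at h1
    exact_mod_cast h1.symm
  have h8 : ∀ χ, 8 ∣ d χ ^ 2 - 1 := by
    intro χ
    exact Nat.eight_dvd_sq_sub_one_of_odd (hodd' χ)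
  have h16 : 2 * 8 ∣ ∑ χ ∈ Finset.univ.erase one, (d χ ^ 2 - 1) := by
    apply sum_pairs (fun χ => d χ ^ 2 - 1) inv hinv (fun χ => by simp only [hdinv]) 8 h8
    · intro χ hχ
      refine Finset.mem_erase.mpr ⟨fun h => Finset.ne_of_mem_erase hχ ?_, Finset.mem_univ _⟩
      rw [← hinv χ, h]
      exact Subtype.ext (by ext g; simp [inv, one])
    · intro χ hχ h
      apply Finset.ne_of_mem_erase hχ
      apply Subtype.ext
      apply CfsgLib.PermLemma.real_irr_odd hodd χ.2
      intro g
      exact congrFun (congrArg Subtype.val h) g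
  have hsum : ∑ χ : IrrCharacter G, (d χ ^ 2 - 1) + Nat.card (IrrCharacter G) = Nat.card G := by
    rw [← hsq, Nat.card_eq_fintype_card, ← Finset.card_univ, Finset.card_eq_sum_ones, ← Finset.sum_add_distrib]
    exact Finset.sum_congr rfl fun χ _ => Nat.sub_add_cancel (Nat.one_le_pow _ _ (hd0 χ))
  rw [← Finset.add_sum_erase _ _ (Finset.mem_univ one), hd1] at hsum
  rw [← hsum]
  have h3 : (1 ^ 2 - 1 + ∑ χ ∈ Finset.univ.erase one, (d χ ^ 2 - 1)) ≡ 0 [MOD 16] := by
    simp only [one_pow, Nat.sub_self, zero_add]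
    exact (Nat.modEq_zero_iff_dvd).mpr h16
  have := h3.add_right (Nat.card (IrrCharacter G))
  simpa using this

end Cfsg.Agent.S0162
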