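import Cfsg.Statements.S0165
import Mathlib
import Cfsg.Agent.LibDZ19
-- import your own Cfsg.Agent.* helpers here

set_option autoImplicit false
open Cfsg

namespace Cfsg.Agent.S0165



/-- If p ^ n is the exact power of the prime p dividing the order of a finite group and p ^ n divides the degree of an irreducible complex representation, then its character vanishes at every element of order divisible by p. -/
theorem result {G : Type*} [Group G] [Finite G] {V : Type*} [AddCommGroup V] [Module ℂ V] [FiniteDimensional ℂ V] (ρ : Representation ℂ G V) [ρ.IsIrreducible] (p n : ℕ) (hp : p.Prime) (hn : p ^ n ∣ Nat.card G) (hn' : ¬ p ^ (n + 1) ∣ Nat.card G) (hdeg : p ^ n ∣ Module.finrank ℂ V) (x : G) (hx : p ∣ orderOf x) : ρ.character x = 0 := by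
    haveI : Fact p.Prime := ⟨hp⟩
    have hχ := CfsgLib.CharBasic.isIrrCharacter_character ρ
    have h1 : (charDegree ρ.character : ℂ) = (Module.finrank ℂ V : ℂ) := by
      rw [← CfsgLib.CharInt.irr_one_eq_charDegree hχ]
      simp
    have h2 : charDegree ρ.character = Module.finrank ℂ V := by exact_mod_cast h1
    have h3 := CfsgLib.CharInt2.charDegree_dvd_card hχ
    have hG0 : Nat.card G ≠ 0 := Nat.card_pos.ne'
    have hc : (Nat.card G).factorization p = n := by
      apply le_antisymm
      · by_contra h
        push Not at h
        exact hn' ((hp.pow_dvd_iff_le_factorization hG0).2 h)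
      · exact (hp.pow_dvd_iff_le_factorization hG0).1 hn
    have hd0 : charDegree ρ.character ≠ 0 := (CfsgLib.CharInt.irr_charDegree_pos hχ).ne'
    refine CfsgLib.DZ19.vanish hχ (le_antisymm ?_ ?_) hx
    · exact (Nat.factorization_le_iff_dvd hd0 hG0).2 h3 p
    · rw [hc, ← hp.pow_dvd_iff_le_factorization hd0, h2]
      exact hdeg

end Cfsg.Agent.S0165
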