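import Cfsg.Statements.S0167
import Cfsg.Agent.LibClassAlg

set_option autoImplicit false
set_option linter.all false
open Cfsg

namespace Cfsg.Agent.S0167

open CfsgLib.CharBasic
open scoped ComplexConjugate

theorem sum_comm_eq {G : Type*} [Group G] [Fintype G] {χ : G → ℂ} (hχ : IsIrrCharacter G χ) :
    ∑ p : G × G, χ (p.1 * p.2 * p.1⁻¹ * p.2⁻¹) = (Nat.card G : ℂ) * ((Nat.card G : ℂ) / χ 1) := by
  rw [Fintype.sum_prod_type, Finset.sum_comm]
  have h1 : ∀ b : G, ∑ a : G, χ (a * b * a⁻¹ * b⁻¹) = (Nat.card G : ℂ) * (χ b * χ b⁻¹ / χ 1) := fun b =>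
    CfsgLib.ClassAlg.sum_conj_mul hχ b b⁻¹
  rw [Finset.sum_congr rfl fun b _ => h1 b, ← Finset.mul_sum]
  congr 1
  rw [← Finset.sum_div]
  congr 1
  have h1 := irr_inner_self hχ
  have hG : (Nat.card G : ℂ) ≠ 0 := by exact_mod_cast Nat.card_pos.ne'
  unfold classInner at h1
  rw [inv_mul_eq_one₀ hG] at h1
  rw [h1]
  exact Finset.sum_congr rfl fun b _ => by rw [char_inv_eq_conj (irr_isCharacter hχ)]

theorem count {G : Type*} [Group G] [Fintype G] (g : G) :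
    (Nat.card {p : G × G // p.1 * p.2 * p.1⁻¹ * p.2⁻¹ = g} : ℂ) =
      (Nat.card G : ℂ) * ∑ χ : IrrCharacter G, (χ : G → ℂ) g / (χ : G → ℂ) 1 := by
  classical
  have hG : (Nat.card G : ℂ) ≠ 0 := by exact_mod_cast Nat.card_pos.ne'
  let θ : G → ℂ := fun g => (Nat.card {p : G × G // p.1 * p.2 * p.1⁻¹ * p.2⁻¹ = g} : ℂ)
  have hcard : ∀ g, θ g = ∑ p : G × G, if p.1 * p.2 * p.1⁻¹ * p.2⁻¹ = g then 1 else 0 := by
    intro g
    simp only [θ]
    rw [Nat.card_eq_fintype_card, Fintype.card_subtype, Finset.sum_boole]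
  have hθ : IsClassFunction G θ := by
    intro g h
    simp only [θ]
    congr 1
    apply Nat.card_congr
    refine ((MulAut.conj h⁻¹).toEquiv.prodCongr (MulAut.conj h⁻¹).toEquiv).subtypeEquiv fun x => ?_
    simp only [MulEquiv.toEquiv_eq_coe, Equiv.prodCongr_apply, EquivLike.coe_coe, Prod.map_fst, Prod.map_snd, MulAut.conj_apply, inv_inv]
    have e : h⁻¹ * x.1 * h * (h⁻¹ * x.2 * h) * (h⁻¹ * x.1 * h)⁻¹ * (h⁻¹ * x.2 * h)⁻¹ =
      h⁻¹ * (x.1 * x.2 * x.1⁻¹ * x.2⁻¹) * h := by group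
    rw [e]
    constructor
    · intro h1
      rw [h1]; group
    · intro h1
      rw [← h1]; group
  have h1 := classFun_expand_apply hθ g
  change θ g = _
  rw [h1, Finset.mul_sum]
  refine Finset.sum_congr rfl fun χ _ => ?_
  have hne : (χ : G → ℂ) 1 ≠ 0 := irr_one_ne_zero χ.2
  have h2 : classInner θ (χ : G → ℂ) = (Nat.card G : ℂ) / (χ : G → ℂ) 1 := by
    rw [classInner]
    have h3 : ∑ g : G, θ g * conj ((χ : G → ℂ) g) = conj (∑ p : G × G, (χ : G → ℂ) (p.1 * p.2 * p.1⁻¹ * p.2⁻¹)) := by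
      rw [map_sum]
      have h4 : ∀ g : G, θ g * conj ((χ : G → ℂ) g) = ∑ p : G × G, if p.1 * p.2 * p.1⁻¹ * p.2⁻¹ = g then conj ((χ : G → ℂ) g) else 0 := by
        intro g
        rw [hcard g, Finset.sum_mul]
        refine Finset.sum_congr rfl fun p _ => ?_
        split_ifs <;> simp
      rw [Finset.sum_congr rfl fun g _ => h4 g, Finset.sum_comm]
      refine Finset.sum_congr rfl fun p _ => ?_
      rw [Finset.sum_ite_eq]
      simp
    rw [h3, sum_comm_eq χ.2]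
    obtain ⟨n, hn⟩ := char_one_nat (irr_isCharacter χ.2)
    rw [hn, map_mul, map_div₀, Complex.conj_natCast, Complex.conj_natCast, inv_mul_cancel_left₀ hG]
  rw [h2]
  ring

/-- An element g of a finite group is a commutator if and only if the sum over the irreducible characters χ of χ g / χ 1 is nonzero. -/
theorem result {G : Type*} [Group G] [Finite G] (g : G) : (∃ a b : G, g = a * b * a⁻¹ * b⁻¹) ↔ ∑ᶠ χ : Cfsg.IrrCharacter G, (χ : G → ℂ) g / (χ : G → ℂ) 1 ≠ 0 := by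
  haveI := Fintype.ofFinite G
  rw [finsum_eq_sum_of_fintype]
  have hG : (Nat.card G : ℂ) ≠ 0 := by exact_mod_cast Nat.card_pos.ne'
  have h := count g
  constructor
  · rintro ⟨a, b, hab⟩ h0
    rw [h0, mul_zero, Nat.cast_eq_zero, Finite.card_eq_zero_iff] at h
    exact h.false ⟨(a, b), hab.symm⟩
  · intro h0
    have h1 : (Nat.card {p : G × G // p.1 * p.2 * p.1⁻¹ * p.2⁻¹ = g} : ℂ) ≠ 0 := by
      rw [h]; exact mul_ne_zero hG h0
    have h2 : Nat.card {p : G × G // p.1 * p.2 * p.1⁻¹ * p.2⁻¹ = g} ≠ 0 := by exact_mod_cast h1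
    obtain ⟨p⟩ := (Finite.card_pos_iff.mp (Nat.pos_of_ne_zero h2))
    exact ⟨p.1.1, p.1.2, p.2.symm⟩

end Cfsg.Agent.S0167
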