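import Cfsg.Statements.S0168
import Cfsg.Agent.LibExc

set_option autoImplicit false
set_option linter.all false
open Cfsg

namespace Cfsg.Agent.S0168

open CfsgLib.CharBasic
open scoped ComplexConjugate

/-- The Burnside–Brauer Theorem. Let χ be the character of a faithful complex representation of a finite group, taking m distinct values. Then every irreducible character has nonzero inner product with χ ^ i for some i < m. -/
theorem result {G : Type*} [Group G] [Fintype G] {V : Type*} [AddCommGroup V] [Module ℂ V] [FiniteDimensional ℂ V] (ρ : Representation ℂ G V) (hfaithful : Function.Injective ρ) (ψ : G → ℂ) (hψ : Cfsg.IsIrrCharacter G ψ) : ∃ i : ℕ, i < Nat.card (Set.range ρ.character) ∧ Cfsg.classInner (fun g => ρ.character g ^ i) ψ ≠ 0 := by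
  classical
  by_contra hcon
  push Not at hcon
  have hG : (Nat.card G : ℂ) ≠ 0 := by exact_mod_cast Nat.card_pos.ne'
  have hfin : (Set.range ρ.character).Finite := Set.finite_range _
  let S : Finset ℂ := hfin.toFinset
  have hS : Nat.card (Set.range ρ.character) = S.card := by
    rw [Nat.card_coe_set_eq, Set.ncard_eq_toFinset_card _ hfin]
  rw [hS] at hcon
  let P : Polynomial ℂ := ∏ a ∈ S.erase (ρ.character 1), (Polynomial.X - Polynomial.C a)
  have h1S : ρ.character 1 ∈ S := hfin.mem_toFinset.mpr ⟨1, rfl⟩
  have hdeg : P.natDegree < S.card := by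
    have : P.natDegree = (S.erase (ρ.character 1)).card := by
      rw [Polynomial.natDegree_prod_of_monic _ _ (fun i _ => Polynomial.monic_X_sub_C i)]
      simp
    rw [this]
    exact Finset.card_erase_lt_of_mem h1S
  have h0 : ∀ i, i < S.card → ∑ g : G, ρ.character g ^ i * conj (ψ g) = 0 := by
    intro i hi
    have := hcon i hi
    rw [classInner] at this
    exact (mul_eq_zero.mp this).resolve_left (inv_ne_zero hG)
  have h1 : ∑ g : G, P.eval (ρ.character g) * conj (ψ g) = 0 := by
    have : ∀ g : G, P.eval (ρ.character g) * conj (ψ g) =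
        ∑ i ∈ Finset.range S.card, P.coeff i * (ρ.character g ^ i * conj (ψ g)) := by
      intro g
      rw [Polynomial.eval_eq_sum_range' hdeg, Finset.sum_mul]
      exact Finset.sum_congr rfl fun i _ => by ring
    rw [Finset.sum_congr rfl fun g _ => this g, Finset.sum_comm]
    apply Finset.sum_eq_zero
    intro i hi
    rw [← Finset.mul_sum, h0 i (Finset.mem_range.mp hi), mul_zero]
  rw [Finset.sum_eq_single 1] at h1
  · rcases mul_eq_zero.mp h1 with h2 | h2
    · rw [Polynomial.eval_prod, Finset.prod_eq_zero_iff] at h2
      obtain ⟨a, ha, h3⟩ := h2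
      rw [Polynomial.eval_sub, Polynomial.eval_X, Polynomial.eval_C, sub_eq_zero] at h3
      exact (Finset.mem_erase.mp ha).1 h3.symm
    · exact irr_one_ne_zero hψ (by simpa using h2)
  · intro g _ hg
    have hne : ρ.character g ≠ ρ.character 1 := by
      intro h
      rw [Representation.char_one, character_eq_finrank_iff] at h
      exact hg (hfaithful (h.trans (map_one ρ).symm))
    have : P.eval (ρ.character g) = 0 := by
      rw [Polynomial.eval_prod, Finset.prod_eq_zero_iff]
      exact ⟨ρ.character g, Finset.mem_erase.mpr ⟨hne, hfin.mem_toFinset.mpr ⟨g, rfl⟩⟩, by simp⟩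
    rw [this, zero_mul]
  · intro h; exact absurd (Finset.mem_univ _) h

end Cfsg.Agent.S0168
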