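import Cfsg.Statements.S0170
import Cfsg.Agent.LibExc
import Cfsg.Agent.S0150

set_option autoImplicit false
set_option linter.all false
open Cfsg

namespace Cfsg.Agent.S0170

open CfsgLib.CharBasic

/-- Exceptional characters. Let S be a subset of a finite group contained in its normalizer N and meeting its conjugates by elements outside N only in the identity. Given n ≥ 2 distinct irreducible characters of N of equal degree that vanish on N away from S, there exist a sign ε and n distinct irreducible characters θ_i of G such that inducing χ_i − χ_j to G gives ε (θ_i − θ_j) for all i, j. -/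
theorem result {G : Type*} [Group G] [Fintype G] (S : Set G) (hSN : S ⊆ Subgroup.normalizer S) (hTI : ∀ g : G, g ∉ Subgroup.normalizer S → ∀ s ∈ S, g * s * g⁻¹ ∈ S → s = 1) (n : ℕ) (hn : 2 ≤ n) (χ : Fin n → (Subgroup.normalizer S → ℂ)) (hirr : ∀ i, Cfsg.IsIrrCharacter (Subgroup.normalizer S) (χ i)) (hinj : Function.Injective χ) (hvan : ∀ i, ∀ x : Subgroup.normalizer S, (x : G) ∉ S → χ i x = 0) (hdeg : ∀ i j, χ i 1 = χ j 1) : ∃ ε : ℂ, (ε = 1 ∨ ε = -1) ∧ ∃ θ : Fin n → (G → ℂ), (∀ i, Cfsg.IsIrrCharacter G (θ i)) ∧ Function.Injective θ ∧ ∀ i j, Cfsg.indFun (Subgroup.normalizer S) (χ i) - Cfsg.indFun (Subgroup.normalizer S) (χ j) = ε • (θ i - θ j) := by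
  haveI := Fintype.ofFinite (Subgroup.normalizer S)
  obtain ⟨ε, hε, μ, h1, h2, h3⟩ := CfsgLib.Exc.exceptional_ind (G := G) (N := Subgroup.normalizer S) (⟨0, by omega⟩ : Fin n) χ hirr hinj hdeg
    (fun i j => by
      apply Cfsg.Agent.S0150.result S hTI hSN
      · exact classFun_sub (irr_classFun (hirr i)) (irr_classFun (hirr _))
      · exact classFun_sub (irr_classFun (hirr j)) (irr_classFun (hirr _))
      · intro x hx; rw [Pi.sub_apply, hvan _ x hx, hvan _ x hx, sub_zero]
      · intro x hx; rw [Pi.sub_apply, hvan _ x hx, hvan _ x hx, sub_zero]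
      · rw [Pi.sub_apply, hdeg i, sub_self])
  exact ⟨ε, hε, μ, h1, h2, h3⟩

end Cfsg.Agent.S0170
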