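import Cfsg.Statements.S0171
import Cfsg.Agent.LibClifford2
import Cfsg.Agent.LibPermLemma

set_option autoImplicit false
set_option linter.all false
open Cfsg

namespace Cfsg.Agent.S0171

open CfsgLib.Clifford CfsgLib.CharBasic CfsgLib.CharNorm

/-- if g ∉ K and the centralizer condition holds then only the trivial class is fixed -/
theorem fixed_trivial {G : Type*} [Group G] [Fintype G] (K : Subgroup G) (hN : K.Normal) [Fintype K] (g : G) (hg : g ∉ K)
    (hfpf : ∀ x : G, x ∉ K → ∀ k ∈ K, x * k = k * x → k = 1) (τ : K → ℂ) (hτ : IsIrrCharacter K τ)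
    (hinv : cj hN g τ = τ) : τ = fun _ => 1 := by
  classical
  let α : K ≃* K := (MulAut.conjNormal g : MulAut K)
  let π : IrrCharacter K → IrrCharacter K := fun χ => ⟨_, isIrrCharacter_comp_equiv χ.2 α⟩
  have h := CfsgLib.PermLemma.brauer_perm (ConjClasses.map α.toMonoidHom) π (by
    intro χ x x' hx
    exact (isClassFunction_iff_mem.mp (irr_classFun χ.2) x' (α x) (ConjClasses.mk_eq_mk_iff_isConj.mp hx)).symm)
  have h1 : Nat.card {C : ConjClasses K // ConjClasses.map α.toMonoidHom C = C} = 1 := by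
    rw [Nat.card_eq_one_iff_exists]
    refine ⟨⟨ConjClasses.mk 1, by
      change ConjClasses.mk (α 1) = _
      rw [map_one]⟩, ?_⟩
    rintro ⟨C, hC⟩
    apply Subtype.ext
    obtain ⟨k, rfl⟩ := ConjClasses.exists_rep C
    change ConjClasses.mk (α k) = ConjClasses.mk k at hC
    rw [ConjClasses.mk_eq_mk_iff_isConj, isConj_iff] at hC
    obtain ⟨c, hc⟩ := hC
    have hc' : (c : G) * (g * k * g⁻¹) * (c : G)⁻¹ = k := congrArg Subtype.val hc
    have h2 : ((c : G) * g) * k = k * ((c : G) * g) := by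
      calc ((c : G) * g) * k = ((c : G) * (g * k * g⁻¹) * (c : G)⁻¹) * (c * g) := by group
        _ = k * ((c : G) * g) := by rw [hc']
    have h3 : (c : G) * g ∉ K := fun h => hg (by
      have := K.mul_mem (K.inv_mem c.2) h
      simpa using this)
    have h4 := hfpf _ h3 k k.2 h2
    have h5 : k = 1 := Subtype.ext h4
    exact congrArg ConjClasses.mk h5
  rw [h1, Nat.card_eq_one_iff_exists] at h
  obtain ⟨χ0, hχ0⟩ := h
  have e1 : (⟨⟨τ, hτ⟩, Subtype.ext (by rw [cj_eq_comp] at hinv; exact hinv)⟩ : {χ : IrrCharacter K // π χ = χ}) = χ0 := hχ0 _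
  have e2 : (⟨⟨_, isIrrCharacter_one⟩, Subtype.ext rfl⟩ : {χ : IrrCharacter K // π χ = χ}) = χ0 := hχ0 _
  exact congrArg (fun x => (x.1 : K → ℂ)) (e1.trans e2.symm)

/-- induced character from Frobenius kernel -/
theorem ind_irr {G : Type*} [Group G] [Fintype G] (K : Subgroup G) (hN : K.Normal)
    (hfpf : ∀ x : G, x ∉ K → ∀ k ∈ K, x * k = k * x → k = 1) (τ : K → ℂ) (hτ : IsIrrCharacter K τ)
    (hτ1 : τ ≠ fun _ => 1) : IsIrrCharacter G (indFun K τ) := by
  haveI := Fintype.ofFinite K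
  have hin : inertia hN τ = K := by
    apply le_antisymm
    · intro g hg
      by_contra hgK
      exact hτ1 (fixed_trivial K hN g hgK hfpf τ hτ hg)
    · exact le_inertia hN (irr_classFun hτ)
  rw [irr_iff_norm_one]
  refine ⟨CfsgLib.CharIndA.isCharacter_ind K (irr_isCharacter hτ), ?_⟩
  rw [ci_ind_self hN hτ, hin]
  have hK : (Nat.card K : ℂ) ≠ 0 := by exact_mod_cast Nat.card_pos.ne'
  exact inv_mul_cancel₀ hK

/-- Let G = K H with K normal, K ⊓ H trivial, and no non-identity element of H commuting with a non-identity element of K (a Frobenius group with kernel K and complement H). Then every non-principal irreducible character of K induces to an irreducible character of G. -/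
theorem result {G : Type*} [Group G] [Fintype G] (K H : Subgroup G) [K.Normal] (hKH : K ⊓ H = ⊥) (hKH' : K ⊔ H = ⊤) (hfpf : ∀ h ∈ H, h ≠ 1 → ∀ k ∈ K, h * k = k * h → k = 1) (τ : K → ℂ) (hτ : Cfsg.IsIrrCharacter K τ) (hτ1 : τ ≠ fun _ => 1) : Cfsg.IsIrrCharacter G (Cfsg.indFun K τ) := by
  apply ind_irr K inferInstance _ τ hτ hτ1
  intro x hx k hk hxk
  -- x = k' h with h ≠ 1; C_K(x) = 1 : conj classes of H cover the outside
  by_contra hk1
  -- map k ↦ k h k⁻¹ h⁻¹ bijective: x is conjugate to element of H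
  have hx' : x ∈ K ⊔ H := by rw [hKH']; trivial
  obtain ⟨a, ha, h, hh, rfl⟩ := (Subgroup.mem_sup_of_normal_left (s := K) (t := H)).mp hx'
  have hh1 : h ≠ 1 := fun h1 => hx (by rw [h1, mul_one]; exact ha)
  let f : K → K := fun y => ⟨(y : G) * (h * (y : G)⁻¹ * h⁻¹), K.mul_mem y.2 (Subgroup.Normal.conj_mem inferInstance _ (K.inv_mem y.2) h)⟩
  have hf : Function.Injective f := by
    intro y z hyz
    have h1 : (y : G) * (h * (y : G)⁻¹ * h⁻¹) = (z : G) * (h * (z : G)⁻¹ * h⁻¹) := congrArg Subtype.val hyz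
    have h2 : h * ((z : G)⁻¹ * y) = ((z : G)⁻¹ * y) * h := by
      have h3 : (z : G)⁻¹ * y * h = h * (z : G)⁻¹ * h⁻¹ * (h * y) := by
        calc (z : G)⁻¹ * y * h = (z : G)⁻¹ * ((y : G) * (h * (y : G)⁻¹ * h⁻¹)) * (h * y) := by group
          _ = (z : G)⁻¹ * ((z : G) * (h * (z : G)⁻¹ * h⁻¹)) * (h * y) := by rw [h1]
          _ = _ := by group
      rw [h3]; group
    have h4 := hfpf h hh hh1 _ (K.mul_mem (K.inv_mem z.2) y.2) h2
    apply Subtype.ext
    calc (y : G) = z * ((z : G)⁻¹ * y) := by group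
      _ = z := by rw [h4, mul_one]
  have hsurj := (Finite.injective_iff_surjective.mp hf)
  obtain ⟨y, hy⟩ := hsurj ⟨a, ha⟩
  have hy' : (y : G) * (h * (y : G)⁻¹ * h⁻¹) = a := congrArg Subtype.val hy
  have hx2 : a * h = y * h * (y : G)⁻¹ := by rw [← hy']; group
  rw [hx2] at hxk
  have h5 : h * ((y : G)⁻¹ * k * y) = ((y : G)⁻¹ * k * y) * h := by
    calc h * ((y : G)⁻¹ * k * y) = (y : G)⁻¹ * (y * h * (y : G)⁻¹ * k) * y := by group
      _ = (y : G)⁻¹ * (k * (y * h * (y : G)⁻¹)) * y := by rw [hxk]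
      _ = _ := by group
  have h6 : (y : G)⁻¹ * k * y ∈ K := K.mul_mem (K.mul_mem (K.inv_mem y.2) hk) y.2
  have h7 := hfpf h hh hh1 _ h6 h5
  apply hk1
  calc k = y * ((y : G)⁻¹ * k * y) * (y : G)⁻¹ := by group
    _ = 1 := by rw [h7]; group

end Cfsg.Agent.S0171
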