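import Cfsg.Statements.S0172
import Mathlib

-- import your own Cfsg.Agent.* helpers here

set_option autoImplicit false
open Cfsg

namespace Cfsg.Agent.S0172

universe u

noncomputable def cc {G : Type u} [Group G] (x : G) : ℕ := Nat.card {y : G // Commute x y}

theorem sum_cc {G : Type u} [Group G] [Fintype G] : ∑ x : G, cc x = Nat.card (ConjClasses G) * Nat.card G := by
  rw [← card_comm_eq_card_conjClasses_mul_card, Nat.card_congr (Equiv.subtypeProdEquivSigmaSubtype (fun x y : G => Commute x y)),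
    Nat.card_sigma]
  rfl

section
variable {G : Type u} [Group G] [Finite G] (K H : Subgroup G) [hK : K.Normal] (hKH : K ⊓ H = ⊥) (hKH' : K ⊔ H = ⊤)
  (hfpf : ∀ h ∈ H, h ≠ 1 → ∀ k ∈ K, h * k = k * h → k = 1)

include hfpf in
theorem conj_coset {h : G} (hh : h ∈ H) (h1 : h ≠ 1) {k : G} (hk : k ∈ K) : ∃ y ∈ K, k * h = y * h * y⁻¹ := by
  let f : K → K := fun y => ⟨y * (h * (y : G)⁻¹ * h⁻¹), K.mul_mem y.2 (hK.conj_mem _ (K.inv_mem y.2) h)⟩
  have hf : Function.Injective f := by
    intro y z hyz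
    have h2 : (y : G) * (h * (y : G)⁻¹ * h⁻¹) = z * (h * (z : G)⁻¹ * h⁻¹) := congrArg Subtype.val hyz
    have h3 : h * ((z : G)⁻¹ * y) = ((z : G)⁻¹ * y) * h := by
      have h4 : (z : G)⁻¹ * ((y : G) * (h * (y : G)⁻¹ * h⁻¹)) * h * y = (z : G)⁻¹ * (z * (h * (z : G)⁻¹ * h⁻¹)) * h * y := by rw [h2]
      have h5 : (z : G)⁻¹ * ((y : G) * (h * (y : G)⁻¹ * h⁻¹)) * h * y = (z : G)⁻¹ * y * h := by group
      have h6 : (z : G)⁻¹ * (z * (h * (z : G)⁻¹ * h⁻¹)) * h * y = h * ((z : G)⁻¹ * y) := by group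
      rw [h5, h6] at h4
      exact h4.symm
    have h7 := hfpf h hh h1 _ (K.mul_mem (K.inv_mem z.2) y.2) h3
    exact Subtype.ext (inv_mul_eq_one.1 h7).symm
  obtain ⟨y, hy⟩ := (Finite.injective_iff_surjective.1 hf) ⟨k, hk⟩
  refine ⟨y, y.2, ?_⟩
  have h2 : (y : G) * (h * (y : G)⁻¹ * h⁻¹) = k := congrArg Subtype.val hy
  rw [← h2]; group

theorem cc_conj {G : Type u} [Group G] (x y : G) : cc (y * x * y⁻¹) = cc x := by
  unfold cc
  refine Nat.card_congr ((MulAut.conj y⁻¹).toEquiv.subtypeEquiv fun z => ?_)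
  simp only [Commute, SemiconjBy, MulEquiv.toEquiv_eq_coe, EquivLike.coe_coe, MulAut.conj_apply, inv_inv]
  constructor
  · intro h
    have : x * (y⁻¹ * z * y) = y⁻¹ * ((y * x * y⁻¹) * z) * y := by group
    rw [this, h]; group
  · intro h
    have : y * x * y⁻¹ * z = y * (x * (y⁻¹ * z * y)) * y⁻¹ := by group
    rw [this, h]; group

include hKH in
theorem uniq {k k' h h' : G} (hk : k ∈ K) (hk' : k' ∈ K) (hh : h ∈ H) (hh' : h' ∈ H) (e : k * h = k' * h') : k = k' ∧ h = h' := by
  have h1 : k'⁻¹ * k = h' * h⁻¹ := by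
    calc k'⁻¹ * k = k'⁻¹ * (k * h) * h⁻¹ := by group
      _ = k'⁻¹ * (k' * h') * h⁻¹ := by rw [e]
      _ = _ := by group
  have h2 : k'⁻¹ * k ∈ K ⊓ H := ⟨K.mul_mem (K.inv_mem hk') hk, h1 ▸ H.mul_mem hh' (H.inv_mem hh)⟩
  rw [hKH, Subgroup.mem_bot] at h2
  have h3 : k = k' := (inv_mul_eq_one.1 h2).symm
  refine ⟨h3, ?_⟩
  rw [h3] at e
  exact mul_left_cancel e

include hKH' in
theorem dec (g : G) : ∃ k ∈ K, ∃ h ∈ H, g = k * h := by
  have h1 : g ∈ K ⊔ H := by rw [hKH']; trivial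
  obtain ⟨k, hk, h, hh, e⟩ := Subgroup.mem_sup_of_normal_left.1 h1
  exact ⟨k, hk, h, hh, e.symm⟩

include hKH hKH' hfpf in
theorem cc_H (h : H) (h1 : h ≠ 1) : cc (h : G) = cc h := by
  unfold cc
  have h1' : (h : G) ≠ 1 := fun e => h1 (Subtype.ext e)
  symm
  refine Nat.card_congr (Equiv.ofBijective (fun y => ⟨(y.1 : G), congrArg Subtype.val y.2⟩) ⟨?_, ?_⟩)
  · intro y z e
    exact Subtype.ext (Subtype.ext (congrArg (fun w => w.1) e))
  · rintro ⟨g, hg⟩
    obtain ⟨k, hk, h', hh', rfl⟩ := dec K H hKH' g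
    have hg' : (h : G) * (k * h') = k * h' * h := hg
    have h3 : ((h : G) * k * (h : G)⁻¹) * ((h : G) * h') = k * (h' * h) := by
      have : ((h : G) * k * (h : G)⁻¹) * ((h : G) * h') = (h : G) * (k * h') := by group
      rw [this, hg', mul_assoc]
    obtain ⟨h4, h5⟩ := uniq K H hKH (hK.conj_mem k hk h) hk (H.mul_mem h.2 hh') (H.mul_mem hh' h.2) h3
    have h6 : (h : G) * k = k * h := by
      rw [mul_inv_eq_iff_eq_mul] at h4; exact h4
    have h7 := hfpf h h.2 h1' k hk h6
    subst h7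
    refine ⟨⟨⟨h', hh'⟩, Subtype.ext h5⟩, ?_⟩
    apply Subtype.ext
    show h' = 1 * h'
    rw [one_mul]

include hKH' hfpf in
theorem cc_K (k : K) (h1 : k ≠ 1) : cc (k : G) = cc k := by
  unfold cc
  have h1' : (k : G) ≠ 1 := fun e => h1 (Subtype.ext e)
  symm
  refine Nat.card_congr (Equiv.ofBijective (fun y => ⟨(y.1 : G), congrArg Subtype.val y.2⟩) ⟨?_, ?_⟩)
  · intro y z e
    exact Subtype.ext (Subtype.ext (congrArg (fun w => w.1) e))
  · rintro ⟨g, hg⟩
    obtain ⟨m, hm, h, hh, e⟩ := dec K H hKH' g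
    by_cases h2 : h = 1
    · subst h2
      rw [mul_one] at e
      subst e
      exact ⟨⟨⟨g, hm⟩, Subtype.ext hg⟩, rfl⟩
    · exfalso
      obtain ⟨y, hy, e2⟩ := conj_coset K H hfpf hh h2 hm
      rw [e2] at e
      have hg' : (k : G) * g = g * k := hg
      have h3 : h * (y⁻¹ * k * y) = (y⁻¹ * k * y) * h := by
        have : h = y⁻¹ * g * y := by rw [e]; group
        rw [this]
        calc y⁻¹ * g * y * (y⁻¹ * k * y) = y⁻¹ * (g * k) * y := by group
          _ = y⁻¹ * (k * g) * y := by rw [hg']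
          _ = _ := by group
      have h4 : y⁻¹ * k * y ∈ K := by
        have := hK.conj_mem k k.2 y⁻¹
        rwa [inv_inv] at this
      have h5 := hfpf h hh h2 _ h4 h3
      apply h1'
      have : (k : G) = y * (y⁻¹ * k * y) * y⁻¹ := by group
      rw [this, h5]; group
end

/-- Class number of a Frobenius group: if G = K H with K normal, K ⊓ H trivial and no non-identity element of H commuting with a non-identity element of K, then |H| * k(G) + 1 = |H| * k(H) + k(K), where k denotes the number of conjugacy classes. -/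
theorem result {G : Type*} [Group G] [Finite G] (K H : Subgroup G) [K.Normal] (hKH : K ⊓ H = ⊥) (hKH' : K ⊔ H = ⊤) (hfpf : ∀ h ∈ H, h ≠ 1 → ∀ k ∈ K, h * k = k * h → k = 1) : Nat.card H * Nat.card (ConjClasses G) + 1 = Nat.card H * Nat.card (ConjClasses H) + Nat.card (ConjClasses K) := by
    classical
    haveI : Fintype G := Fintype.ofFinite G
    haveI : Fintype K := Fintype.ofFinite K
    haveI : Fintype H := Fintype.ofFinite H
    let e : K × H ≃ G := Equiv.ofBijective (fun p => (p.1 : G) * p.2) ⟨by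
        rintro ⟨k, h⟩ ⟨k', h'⟩ e
        obtain ⟨h1, h2⟩ := uniq K H hKH k.2 k'.2 h.2 h'.2 e
        rw [Subtype.ext h1, Subtype.ext h2], by
        intro g
        obtain ⟨k, hk, h, hh, e⟩ := dec K H hKH' g
        exact ⟨(⟨k, hk⟩, ⟨h, hh⟩), e.symm⟩⟩
    have hGc : Nat.card G = Nat.card K * Nat.card H := by
      rw [← Nat.card_congr e, Nat.card_prod]
    have h1 : ∑ x : G, cc x = ∑ h : H, ∑ k : K, cc ((k : G) * h) := by
      rw [← Equiv.sum_comp e, Fintype.sum_prod_type_right]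
      rfl
    have h2 : ∀ h : H, h ≠ 1 → ∑ k : K, cc ((k : G) * h) = Nat.card K * cc h := by
      intro h hh
      have h3 : ∀ k : K, cc ((k : G) * h) = cc h := by
        intro k
        obtain ⟨y, hy, e2⟩ := conj_coset K H hfpf h.2 (fun e => hh (Subtype.ext e)) k.2
        rw [e2, cc_conj, cc_H K H hKH hKH' hfpf h hh]
      rw [Finset.sum_congr rfl fun k _ => h3 k, Finset.sum_const, smul_eq_mul, Finset.card_univ, Nat.card_eq_fintype_card]
    have h3 : ∑ k : K, cc ((k : G) * ((1 : H) : G)) + Nat.card K = Nat.card G + ∑ k : K, cc k := by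
      rw [← Finset.add_sum_erase _ _ (Finset.mem_univ (1 : K)), ← Finset.add_sum_erase (Finset.univ : Finset K) (fun k => cc k) (Finset.mem_univ (1 : K))]
      have h4 : cc (((1 : K) : G) * ((1 : H) : G)) = Nat.card G := by
        unfold cc
        refine Nat.card_congr (Equiv.subtypeUnivEquiv fun y => ?_)
        simp
      have h5 : cc (1 : K) = Nat.card K := by
        unfold cc
        refine Nat.card_congr (Equiv.subtypeUnivEquiv fun y => ?_)
        simp
      have h6 : ∑ k ∈ Finset.univ.erase (1 : K), cc ((k : G) * ((1 : H) : G)) = ∑ k ∈ Finset.univ.erase (1 : K), cc k := by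
        refine Finset.sum_congr rfl fun k hk => ?_
        have h7 : (k : G) * ((1 : H) : G) = k := by simp
        rw [h7]
        exact cc_K K H hKH' hfpf k (Finset.ne_of_mem_erase hk)
      rw [h4, h5, h6]; ring
    have h4 : ∑ h : H, ∑ k : K, cc ((k : G) * h) + Nat.card K * Nat.card H = ∑ k : K, cc ((k : G) * ((1 : H) : G)) + Nat.card K * ∑ h : H, cc h := by
      rw [← Finset.add_sum_erase _ _ (Finset.mem_univ (1 : H)), ← Finset.add_sum_erase (Finset.univ : Finset H) (fun h => cc h) (Finset.mem_univ (1 : H))]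
      have h5 : cc (1 : H) = Nat.card H := by
        unfold cc
        refine Nat.card_congr (Equiv.subtypeUnivEquiv fun y => ?_)
        simp
      rw [Finset.sum_congr rfl fun h hh => h2 h (Finset.ne_of_mem_erase hh), ← Finset.mul_sum, h5]
      ring
    rw [← h1] at h4
    rw [sum_cc, sum_cc] at h4
    rw [sum_cc] at h3
    have hKpos : 0 < Nat.card K := Nat.card_pos
    apply Nat.eq_of_mul_eq_mul_left hKpos
    rw [hGc] at h3 h4
    have h5 : ∑ k : K, cc ((k : G) * ((1 : H) : G)) + Nat.card K = Nat.card K * Nat.card H + Nat.card (ConjClasses K) * Nat.card K := h3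
    nlinarith [h4, h5]

end Cfsg.Agent.S0172
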