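import Cfsg.Statements.S0175
import Cfsg.Agent.LibInd2

set_option autoImplicit false
set_option linter.all false
open Cfsg

namespace Cfsg.Agent.S0175

open CfsgLib.CharBasic CfsgLib.Ind2
open scoped commutatorElement

theorem aux {G : Type*} [Group G] [Fintype G]
    (hM : ∀ χ : G → ℂ, Cfsg.IsIrrCharacter G χ → ∃ (H : Subgroup G) (lam : H →* ℂˣ), χ = Cfsg.indFun H (fun h => (lam h : ℂ)))
    (n : ℕ) : ∀ χ : G → ℂ, IsIrrCharacter G χ → charDegree χ = n → ∀ g ∈ derivedSeries G n, χ g = χ 1 := by
  induction n using Nat.strong_induction_on with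
  | _ n ih =>
    intro χ hχ hd g hg
    have hd1 := CfsgLib.CharInt.irr_one_eq_charDegree hχ
    have hpos := CfsgLib.CharInt.irr_charDegree_pos hχ
    obtain ⟨H, lam, rfl⟩ := hM χ hχ
    haveI := Fintype.ofFinite H
    rw [hd] at hd1 hpos
    have hidx : H.index = n := by
      rw [CfsgLib.CharIndA.ind_one, map_one, Units.val_one, mul_one] at hd1
      exact_mod_cast hd1
    obtain ⟨m, rfl⟩ : ∃ m, n = m + 1 := ⟨n - 1, by omega⟩
    have hle : derivedSeries G m ≤ H := by
      by_cases hm : m = 0
      · subst hm
        have htop : H = ⊤ := Subgroup.index_eq_one.mp (by simpa using hidx)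
        rw [htop]
        exact le_top
      · intro a ha
        have h1char : IsCharacter H (fun _ => 1 : H → ℂ) := isCharacter_one
        have hφ : IsCharacter G (indFun H (fun _ => 1 : H → ℂ)) := CfsgLib.CharIndA.isCharacter_ind H h1char
        have hφ1 : indFun H (fun _ => 1 : H → ℂ) 1 = (m + 1 : ℕ) := by
          rw [CfsgLib.CharIndA.ind_one, mul_one, hidx]
        have hm1 : classInner (indFun H (fun _ => 1 : H → ℂ)) (fun _ => 1 : G → ℂ) ≠ 0 := by
          rw [CfsgLib.CharIndA.frobenius H _ (irr_classFun isIrrCharacter_one)]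
          rw [irr_inner_self (isIrrCharacter_one (G := H))]
          exact one_ne_zero
        obtain ⟨r, hr, hsplit⟩ := CfsgLib.CharMore.split_off hφ isIrrCharacter_one hm1
        have hr1 : r 1 = (m : ℕ) := by
          have := congrFun hsplit 1
          rw [hφ1, Pi.add_apply] at this
          push_cast at this
          linear_combination -this
        have hker : indFun H (fun _ => 1 : H → ℂ) a = indFun H (fun _ => 1 : H → ℂ) 1 := by
          apply ker_of_constituents hφ
          intro ψ hψ hmψ
          have hdle : charDegree ψ ≤ m := by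
            by_cases h1 : ψ = fun _ => 1
            · have h2 := CfsgLib.CharInt.irr_one_eq_charDegree hψ
              rw [h1] at h2
              have h2' : (1 : ℂ) = (charDegree (fun _ => 1 : G → ℂ) : ℂ) := h2
              have h3 : charDegree ψ = 1 := by rw [h1]; exact_mod_cast h2'.symm
              omega
            · rw [hsplit, CfsgLib.CharNorm.ci_add_l, irr_inner_ne isIrrCharacter_one hψ (Ne.symm h1), zero_add] at hmψ
              exact CfsgLib.CharMore.degree_le_of_mult hr hψ hmψ (CfsgLib.CharInt.irr_one_eq_charDegree hψ) hr1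
          exact ih (charDegree ψ) (by omega) ψ hψ rfl a (derivedSeries_antitone G hdle ha)
        obtain ⟨h1, -⟩ := ind_ker h1char one_ne_zero hker 1
        simpa using h1
    have hL : derivedSeries G (m + 1) ≤ (MonoidHom.ker lam).map H.subtype := by
      rw [derivedSeries_succ, Subgroup.commutator_le]
      intro a ha b hb
      refine ⟨⁅(⟨a, hle ha⟩ : H), ⟨b, hle hb⟩⁆, ?_, rfl⟩
      rw [SetLike.mem_coe, MonoidHom.mem_ker, map_commutatorElement, commutatorElement_eq_one_iff_mul_comm, mul_comm]
    have hlamc : IsCharacter H (fun h => (lam h : ℂ)) := isCharacter_hom lam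
    rw [ind_ker_iff hlamc (by simp)]
    intro x
    have h1 : x⁻¹ * g * x ∈ derivedSeries G (m + 1) := by
      have := (derivedSeries_normal G (m + 1)).conj_mem g hg x⁻¹
      simpa using this
    obtain ⟨y, hy, hyx⟩ := hL h1
    rw [SetLike.mem_coe, MonoidHom.mem_ker] at hy
    have h2 : x⁻¹ * g * x ∈ H := by rw [← hyx]; exact y.2
    refine ⟨h2, ?_⟩
    have h3 : (⟨x⁻¹ * g * x, h2⟩ : H) = y := Subtype.ext hyx.symm
    rw [h3, hy, map_one]

/-- Taketa's Theorem on M-groups: if every irreducible complex character of a finite group is induced from a linear character (a homomorphism to ℂˣ) of some subgroup, the group is solvable. -/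
theorem result {G : Type*} [Group G] [Fintype G] (hM : ∀ χ : G → ℂ, Cfsg.IsIrrCharacter G χ → ∃ (H : Subgroup G) (lam : H →* ℂˣ), χ = Cfsg.indFun H (fun h => (lam h : ℂ))) : Group.IsSolvable G := by
  refine ⟨⟨Nat.card G, ?_⟩⟩
  rw [eq_bot_iff]
  intro g hg
  rw [Subgroup.mem_bot]
  have : IsConj g 1 := by
    rw [isConj_iff_irr]
    intro χ
    refine aux hM _ χ χ.2 rfl g (derivedSeries_antitone G ?_ hg)
    exact Nat.le_of_dvd Nat.card_pos (CfsgLib.CharInt2.charDegree_dvd_card χ.2)
  rw [isConj_comm, isConj_one_right] at this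
  exact this

end Cfsg.Agent.S0175
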