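import Cfsg.Statements.S0177
import Cfsg.Agent.LibBrauerInd
import Cfsg.Agent.LibInd2

set_option autoImplicit false
set_option linter.all false
open Cfsg

namespace Cfsg.Agent.S0177

open CfsgLib.CharBasic CfsgLib.CharIndA CfsgLib.BrauerInd

theorem list_of_span {α : Type*} {G : Type*} (F : α → (G → ℂ)) (P : α → Prop) {f : G → ℂ}
    (hf : f ∈ Submodule.span ℤ {g | ∃ a, P a ∧ g = F a}) :
    ∃ l : List (α × ℤ), (∀ t ∈ l, P t.1) ∧ f = (l.map fun t => (t.2 : ℂ) • F t.1).sum := by
  induction hf using Submodule.span_induction with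
  | mem x hx =>
    obtain ⟨a, ha, rfl⟩ := hx
    exact ⟨[(a, 1)], by simpa using ha, by simp⟩
  | zero => exact ⟨[], by simp, by simp⟩
  | add x y _ _ hx hy =>
    obtain ⟨l, hl, rfl⟩ := hx
    obtain ⟨l', hl', rfl⟩ := hy
    refine ⟨l ++ l', ?_, by simp⟩
    intro t ht
    rcases List.mem_append.mp ht with h | h
    · exact hl t h
    · exact hl' t h
  | smul a x _ hx =>
    obtain ⟨l, hl, rfl⟩ := hx
    refine ⟨l.map (fun t => (t.1, a * t.2)), ?_, ?_⟩
    · intro t ht
      obtain ⟨t', ht', rfl⟩ := List.mem_map.mp ht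
      exact hl t' ht'
    · rw [List.map_map, List.smul_sum, List.map_map]
      congr 1
      apply List.map_congr_left
      intro t _
      ext g
      simp [mul_assoc]

open Classical in
/-- number of `x` with `⟨x⁻¹ g x⟩ = B` -/
noncomputable def FB {G : Type*} [Group G] [Fintype G] (B : Subgroup G) : G → ℂ :=
  fun g => ∑ x : G, if Subgroup.zpowers (x⁻¹ * g * x) = B then 1 else 0

theorem sum_FB {G : Type*} [Group G] [Fintype G] [Fintype (Subgroup G)] :
    ∑ B : Subgroup G, FB B = (Nat.card G : ℂ) • (1 : G → ℂ) := by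
  classical
  ext g
  simp only [Finset.sum_apply, FB, Pi.smul_apply, Pi.one_apply, smul_eq_mul, mul_one]
  rw [Finset.sum_comm]
  simp

theorem ind_one_eq {G : Type*} [Group G] [Fintype G] [Fintype (Subgroup G)] (A : Subgroup G) [DecidablePred fun B : Subgroup G => B ≤ A] :
    (Nat.card A : ℂ) • indFun A (fun _ => 1) = ∑ B ∈ Finset.univ.filter (fun B => B ≤ A), FB B := by
  classical
  ext g
  simp only [Finset.sum_apply, FB, Pi.smul_apply, smul_eq_mul]
  have hA : (Nat.card A : ℂ) ≠ 0 := by exact_mod_cast Nat.card_pos.ne'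
  rw [ind_apply, mul_inv_cancel_left₀ hA, Finset.sum_comm]
  refine Finset.sum_congr rfl fun x _ => ?_
  rw [Finset.sum_ite_eq]
  by_cases hx : x⁻¹ * g * x ∈ A
  · rw [ext_mem _ _ hx, if_pos (by simpa using hx)]
  · rw [ext_not_mem _ _ hx, if_neg (by simpa using hx)]

theorem FB_mem {G : Type*} [Group G] [Fintype G] (A : Subgroup G) :
    FB A ∈ Submodule.span ℤ (indSet (G := G) fun H => IsCyclic H) := by
  classical
  haveI := Fintype.ofFinite (Subgroup G)
  induction hn : Nat.card A using Nat.strong_induction_on generalizing A with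
  | _ n ih =>
    by_cases hc : IsCyclic A
    · have h1 := ind_one_eq A
      have h2 : (Finset.univ.filter (fun B : Subgroup G => B ≤ A)) = insert A (Finset.univ.filter (fun B : Subgroup G => B < A)) := by
        ext B; simp only [Finset.mem_filter, Finset.mem_univ, true_and, Finset.mem_insert]
        exact le_iff_eq_or_lt
      rw [h2, Finset.sum_insert (by simp)] at h1
      have h3 : FB A = (Nat.card A : ℂ) • indFun A (fun _ => 1) - ∑ B ∈ Finset.univ.filter (fun B => B < A), FB B := by
        rw [h1]; abel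
      rw [h3]
      apply Submodule.sub_mem
      · have h4 : (Nat.card A : ℂ) • indFun A (fun _ => 1) = (Nat.card A : ℤ) • indFun A (fun _ => 1) := by
          ext g; simp
        rw [h4]
        apply Submodule.smul_mem
        exact Submodule.subset_span ⟨A, _, hc, isCharacter_one, rfl⟩
      · apply Submodule.sum_mem
        intro B hB
        have hBA : B < A := by simpa using hB
        refine ih (Nat.card B) ?_ B rfl
        rw [← hn]
        exact Set.Finite.card_lt_card (Set.toFinite _) hBA
    · have h1 : FB A = 0 := by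
        ext g
        simp only [FB, Pi.zero_apply]
        apply Finset.sum_eq_zero
        intro x _
        rw [if_neg]
        intro h
        apply hc
        rw [← h]
        infer_instance
      rw [h1]
      exact Submodule.zero_mem _

/-- The Artin induction Theorem: for a character χ of a finite group, |G| • χ is a ℤ-linear combination of functions induced from homomorphisms of cyclic subgroups into ℂˣ. -/
theorem result {G : Type*} [Group G] [Fintype G] (χ : G → ℂ) (hχ : Cfsg.IsCharacter G χ) : ∃ l : List ((A : Subgroup G) × ((A →* ℂˣ) × ℤ)), (∀ t ∈ l, IsCyclic t.1) ∧ (Nat.card G : ℂ) • χ = (l.map fun t => (t.2.2 : ℂ) • Cfsg.indFun t.1 (fun a => (t.2.1 a : ℂ))).sum := by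
  classical
  haveI := Fintype.ofFinite (Subgroup G)
  -- |G| • 1 is in the span
  have h1 : (Nat.card G : ℂ) • (1 : G → ℂ) ∈ Submodule.span ℤ (indSet (G := G) fun H => IsCyclic H) := by
    rw [← sum_FB]
    exact Submodule.sum_mem _ fun B _ => FB_mem B
  have h2 : (Nat.card G : ℂ) • χ ∈ Submodule.span ℤ (indSet (G := G) fun H => IsCyclic H) := by
    have := span_mul_char h1 hχ
    rwa [smul_mul_assoc, one_mul] at this
  let α := (A : Subgroup G) × (A →* ℂˣ)
  let F : α → (G → ℂ) := fun t => indFun t.1 (fun a => (t.2 a : ℂ))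
  let P : α → Prop := fun t => IsCyclic t.1
  have h3 : Submodule.span ℤ (indSet (G := G) fun H => IsCyclic H) ≤ Submodule.span ℤ {g | ∃ a, P a ∧ g = F a} := by
    rw [Submodule.span_le]
    rintro _ ⟨A, φ, hA, hφ, rfl⟩
    haveI := Fintype.ofFinite A
    obtain ⟨m, -, hexp, -⟩ := char_expand hφ
    rw [hexp, ind_sum]
    apply Submodule.sum_mem
    intro ψ _
    rw [ind_smul]
    have h4 : (m ψ : ℂ) • indFun A (ψ : A → ℂ) = (m ψ : ℤ) • indFun A (ψ : A → ℂ) := by
      ext g; simp
    rw [h4]
    apply Submodule.smul_mem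
    apply Submodule.subset_span
    haveI := hA
    letI := IsCyclic.commGroup (α := A)
    obtain ⟨f, hf⟩ := irr_hom_of_comm (fun a b : A => mul_comm a b) ψ.2
    refine ⟨⟨A, f⟩, hA, ?_⟩
    simp only [F]
    congr 1
    funext a
    exact hf a
  obtain ⟨l, hl, hl'⟩ := list_of_span F P (h3 h2)
  refine ⟨l.map (fun t => ⟨t.1.1, t.1.2, t.2⟩), ?_, ?_⟩
  · intro t ht
    obtain ⟨t', ht', rfl⟩ := List.mem_map.mp ht
    exact hl t' ht'
  · rw [hl', List.map_map]
    rfl

end Cfsg.Agent.S0177
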