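import Cfsg.Statements.S0178
import Cfsg.Agent.LibCharMore

set_option autoImplicit false
set_option linter.all false
open Cfsg

namespace Cfsg.Agent.S0178

open CfsgLib.CharBasic

/-- The degree of an irreducible complex representation of a finite group is at most the index of any abelian subgroup. -/
theorem result {G : Type*} [Group G] [Finite G] {V : Type*} [AddCommGroup V] [Module ℂ V] [FiniteDimensional ℂ V] (ρ : Representation ℂ G V) [ρ.IsIrreducible] (A : Subgroup G) (hA : ∀ a ∈ A, ∀ b ∈ A, a * b = b * a) : Module.finrank ℂ V ≤ A.index := by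
  haveI := Fintype.ofFinite G
  haveI := Fintype.ofFinite A
  have hχ := isIrrCharacter_character ρ
  obtain ⟨θ, hθ, hm⟩ := CfsgLib.Clifford.exists_below A hχ
  have hθ1 : θ 1 = 1 := irr_degree_one_of_comm (fun a b => Subtype.ext (hA a a.2 b b.2)) hθ
  have h1 : classInner (indFun A θ) ρ.character ≠ 0 := by
    rw [CfsgLib.CharIndA.frobenius A _ (irr_classFun hχ)]
    intro h
    exact hm (CfsgLib.CharNorm.ci_zero_comm h)
  refine CfsgLib.CharMore.degree_le_of_mult (CfsgLib.CharIndA.isCharacter_ind A (irr_isCharacter hθ)) hχ h1 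
    (Representation.char_one ρ) ?_
  rw [CfsgLib.CharIndA.ind_one, hθ1, mul_one]

end Cfsg.Agent.S0178
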