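import Cfsg.Statements.S0179
import Cfsg.Agent.LibCharMore

set_option autoImplicit false
set_option linter.all false
open Cfsg

namespace Cfsg.Agent.S0179

open CfsgLib.CharBasic

/-- The degree of an irreducible complex representation of a finite group divides the index of the centre. -/
theorem result {G : Type*} [Group G] [Finite G] {V : Type*} [AddCommGroup V] [Module ℂ V] [FiniteDimensional ℂ V] (ρ : Representation ℂ G V) [ρ.IsIrreducible] : Module.finrank ℂ V ∣ (Subgroup.center G).index := by
  haveI := Fintype.ofFinite G
  have h := CfsgLib.CharMore.degree_dvd_index_of_scalar (isIrrCharacter_character ρ) (Subgroup.center G)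
    (fun a ha => irr_center (isIrrCharacter_character ρ) ha)
  have h2 := CfsgLib.CharInt.irr_one_eq_charDegree (isIrrCharacter_character ρ)
  rw [Representation.char_one] at h2
  rwa [← (by exact_mod_cast h2 : Module.finrank ℂ V = charDegree ρ.character)] at h

end Cfsg.Agent.S0179
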