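import Cfsg.Statements.S0180
import Cfsg.Agent.LibGalChar

set_option autoImplicit false
set_option linter.all false
open Cfsg

namespace Cfsg.Agent.S0180

open CfsgLib.CharBasic

/-- Every irreducible complex character of a finite group takes only rational values if and only if g is conjugate to g ^ m for every element g and every m coprime to the group order. -/
theorem result {G : Type*} [Group G] [Finite G] : (∀ χ : Cfsg.IrrCharacter G, ∀ g : G, ∃ q : ℚ, (χ : G → ℂ) g = (q : ℂ)) ↔ ∀ m : ℕ, m.Coprime (Nat.card G) → ∀ g : G, IsConj g (g ^ m) := by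
  haveI := Fintype.ofFinite G
  constructor
  · intro h m hm g
    obtain ⟨σ, hσ⟩ := CfsgLib.GalChar.exists_gal_of_coprime (G := G) hm
    rw [isConj_iff_irr]
    intro χ
    rw [hσ χ (irr_isCharacter χ.2) g]
    obtain ⟨q, hq⟩ := h χ g
    rw [hq, map_ratCast]
  · intro h χ g
    have hint : IsAlgebraic ℚ ((χ : G → ℂ) g) := by
      have h1 : IsIntegral ℤ ((χ : G → ℂ) g) := char_isIntegral (irr_isCharacter χ.2) g
      exact h1.tower_top.isAlgebraic
    have := CfsgLib.GalField.exists_rat_of_fixed hint (fun σ => by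
      obtain ⟨k, hk, hk'⟩ := CfsgLib.GalChar.exists_coprime_of_gal G σ
      rw [← hk' χ (irr_isCharacter χ.2) g]
      exact ((isConj_iff_irr g (g ^ k)).mp (h k hk g) χ).symm)
    obtain ⟨q, hq⟩ := this
    exact ⟨q, by simpa using hq⟩

end Cfsg.Agent.S0180
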