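import Cfsg.Statements.S0181
import Cfsg.Agent.LibCharNorm

set_option autoImplicit false
set_option linter.all false
open Cfsg

namespace Cfsg.Agent.S0181

/-- Let H be a normal subgroup of a finite group G and ρ an irreducible complex representation whose kernel does not contain H. If g commutes with no non-identity element of H, then the character of ρ vanishes at g. -/
theorem result {G : Type*} [Group G] [Finite G] {V : Type*} [AddCommGroup V] [Module ℂ V] [FiniteDimensional ℂ V] (ρ : Representation ℂ G V) [ρ.IsIrreducible] (H : Subgroup G) [H.Normal] (hker : ∃ h ∈ H, ρ h ≠ LinearMap.id) (g : G) (hg : ∀ h ∈ H, h * g = g * h → h = 1) : ρ.character g = 0 := by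
  classical
  haveI := Fintype.ofFinite G
  -- the sum over H of ρ h is zero
  have hirr := CfsgLib.CharBasic.isIrrCharacter_character ρ
  haveI := Fintype.ofFinite H
  let T : V →ₗ[ℂ] V := ∑ h : H, ρ (h : G)
  have hT : ∀ x v, T (ρ x v) = ρ x (T v) := by
    intro x v
    simp only [T, LinearMap.sum_apply, map_sum]
    refine Fintype.sum_equiv (MulAut.conjNormal (x⁻¹) : MulAut H).toEquiv _ _ fun h => ?_
    rw [← Module.End.mul_apply, ← Module.End.mul_apply, ← map_mul, ← map_mul]
    congr 2
    simp [MulAut.conjNormal_apply, mul_assoc]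
  obtain ⟨c, hc⟩ := CfsgLib.CharBasic.schur_scalar ρ T hT
  have hc0 : c = 0 := by
    by_contra hne
    obtain ⟨h0, hh0, hρ⟩ := hker
    apply hρ
    have h1 : ρ h0 * T = T := by
      simp only [T, Finset.mul_sum, ← map_mul]
      exact Fintype.sum_equiv (Equiv.mulLeft (⟨h0, hh0⟩ : H)) _ _ fun h => rfl
    rw [hc] at h1
    have h2 : c • ρ h0 = c • (LinearMap.id : V →ₗ[ℂ] V) := by
      rw [mul_smul_comm] at h1
      exact h1
    exact smul_right_injective _ hne h2
  rw [hc0, zero_smul] at hc
  -- map h ↦ h⁻¹ g h g⁻¹ is injective H → H hence bijective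
  let f : H → H := fun h => ⟨(h : G)⁻¹ * (g * h * g⁻¹), H.mul_mem (H.inv_mem h.2) (Subgroup.Normal.conj_mem inferInstance _ h.2 g)⟩
  have hf : Function.Injective f := by
    intro a b hab
    have h1 : (a : G)⁻¹ * (g * a * g⁻¹) = (b : G)⁻¹ * (g * b * g⁻¹) := congrArg Subtype.val hab
    have h2 : ((b : G) * (a : G)⁻¹) * g = g * ((b : G) * (a : G)⁻¹) := by
      have h3 : g * (a : G) * g⁻¹ = (a : G) * ((b : G)⁻¹ * (g * b * g⁻¹)) := by
        rw [← h1]; group
      have h4 : (b : G) * (a : G)⁻¹ * (g * (a : G) * g⁻¹) = g * b * g⁻¹ := by rw [h3]; group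
      calc (b : G) * (a : G)⁻¹ * g = (b : G) * (a : G)⁻¹ * (g * a * g⁻¹) * g * (a : G)⁻¹ := by group
        _ = g * b * g⁻¹ * g * (a : G)⁻¹ := by rw [h4]
        _ = g * ((b : G) * (a : G)⁻¹) := by group
    have h5 := hg _ (H.mul_mem b.2 (H.inv_mem a.2)) h2
    apply Subtype.ext
    have : (b : G) = a := by
      calc (b : G) = (b : G) * (a : G)⁻¹ * a := by group
        _ = a := by rw [h5]; group
    exact this.symm
  have hbij : Function.Bijective f := Finite.injective_iff_bijective.mp hf
  -- average of characters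
  have h1 : ∀ h : H, ρ.character g = ρ.character ((f h : G) * g) := by
    intro h
    have : (f h : G) * g = (h : G)⁻¹ * g * h⁻¹⁻¹ := by
      simp only [f]; group
    rw [this]
    have h2 := Representation.char_conj ρ g ((h : G)⁻¹)
    simp only [inv_inv] at h2 ⊢
    exact h2.symm
  have h2 : (Fintype.card H : ℂ) * ρ.character g = ∑ h : H, ρ.character ((f h : G) * g) := by
    rw [← Finset.sum_congr rfl fun h _ => h1 h, Finset.sum_const, nsmul_eq_mul, Finset.card_univ]
  have h3 : ∑ h : H, ρ.character ((f h : G) * g) = ∑ h : H, ρ.character ((h : G) * g) :=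
    Fintype.sum_bijective f hbij _ _ fun h => rfl
  have h4 : ∑ h : H, ρ.character ((h : G) * g) = LinearMap.trace ℂ V (T * ρ g) := by
    simp only [T, Finset.sum_mul, map_sum, Representation.character, map_mul]
  rw [h3, h4, hc, zero_mul, map_zero] at h2
  have h5 : (Fintype.card H : ℂ) ≠ 0 := by exact_mod_cast Fintype.card_ne_zero
  exact (mul_eq_zero.mp h2).resolve_left h5

end Cfsg.Agent.S0181
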