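import Cfsg.Statements.S0184
import Cfsg.Agent.LibExc
import Cfsg.Agent.LibSolvNilp

set_option autoImplicit false
set_option linter.all false
open Cfsg

namespace Cfsg.Agent.S0184

open CfsgLib.CharBasic

/-- A finite p-group admits a faithful irreducible complex representation if and only if its centre is cyclic. -/
theorem result {G : Type*} [Group G] [Finite G] (p : ℕ) [Fact p.Prime] (hG : IsPGroup p G) : (∃ (n : ℕ) (ρ : Representation ℂ G (Fin n → ℂ)), ρ.IsIrreducible ∧ Function.Injective ρ) ↔ IsCyclic (Subgroup.center G) := by
  classical
  haveI := Fintype.ofFinite G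
  constructor
  · rintro ⟨n, ρ, hρ, hinj⟩
    have hχ := isIrrCharacter_character ρ
    have hs : ∀ z : Subgroup.center G, ∃ ω : ℂ, ρ (z : G) = ω • (LinearMap.id : (Fin n → ℂ) →ₗ[ℂ] (Fin n → ℂ)) := by
      intro z
      have := irr_center hχ z.2
      rw [Representation.char_one, Complex.natCast_re, norm_character_eq_iff] at this
      exact this
    have hnt := irr_nontrivial ρ
    obtain ⟨v, hv⟩ := exists_ne (0 : Fin n → ℂ)
    choose ω hω using hs
    let f : Subgroup.center G →* ℂ :=
      { toFun := ω
        map_one' := by
          have h1 := hω 1
          have h2 := LinearMap.congr_fun h1 v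
          simp only [Subgroup.coe_one, map_one, LinearMap.smul_apply, LinearMap.id_apply, Module.End.one_apply] at h2
          have h3 : (ω 1 - 1) • v = 0 := by rw [sub_smul, ← h2, one_smul, sub_self]
          exact sub_eq_zero.mp ((smul_eq_zero.mp h3).resolve_right hv)
        map_mul' := by
          intro x y
          have h1 := hω (x * y)
          have h2 := LinearMap.congr_fun h1 v
          simp only [Subgroup.coe_mul, map_mul, LinearMap.smul_apply, LinearMap.id_apply, Module.End.mul_apply, hω] at h2
          rw [smul_smul] at h2
          have h3 : (ω (x * y) - ω x * ω y) • v = 0 := by rw [sub_smul, h2, sub_self]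
          exact sub_eq_zero.mp ((smul_eq_zero.mp h3).resolve_right hv) }
    refine isCyclic_of_subgroup_isDomain f ?_
    intro x y hxy
    apply Subtype.ext
    apply hinj
    rw [hω x, hω y]
    have : ω x = ω y := hxy
    rw [this]
  · intro hcyc
    by_cases htriv : Subsingleton G
    · refine ⟨1, 1, ?_, fun a b _ => Subsingleton.elim a b⟩
      have h1 : IsIrrCharacter G (1 : Representation ℂ G (Fin 1 → ℂ)).character := by
        apply irr_of_degree_one (isCharacter_character _)
        rw [Representation.char_one]; simp
      obtain ⟨m, σ, hσ, he⟩ := h1
      have hm : m = 1 := by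
        have := congrFun he 1
        rw [Representation.char_one, Representation.char_one] at this
        simp at this
        exact this
      subst hm
      have : σ = 1 := by
        apply MonoidHom.ext
        intro g
        rw [Subsingleton.elim g 1, map_one]; rfl
      rw [← this]; exact hσ
    · rw [not_subsingleton_iff_nontrivial] at htriv
      haveI := hG.center_nontrivial
      -- a subgroup of order p of the centre
      obtain ⟨c, hc⟩ := IsCyclic.exists_generator (α := Subgroup.center G)
      have hpc : p ∣ Nat.card (Subgroup.center G) := by
        have h1 := (hG.to_subgroup (Subgroup.center G)).exists_card_eq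
        obtain ⟨k, hk⟩ := h1
        rcases k with _ | k
        · exfalso
          rw [pow_zero] at hk
          have := Finite.one_lt_card (α := Subgroup.center G)
          omega
        · rw [hk, pow_succ]; exact Dvd.intro_left _ rfl
      obtain ⟨z, hz⟩ := exists_prime_orderOf_dvd_card' p hpc
      have hz1 : ((z : Subgroup.center G) : G) ≠ 1 := by
        intro h
        have : z = 1 := Subtype.ext h
        rw [this, orderOf_one] at hz
        exact (Fact.out : p.Prime).one_lt.ne hz
      -- an irreducible character not having z in the kernel
      have hex : ∃ χ : IrrCharacter G, (χ : G → ℂ) (z : G) ≠ (χ : G → ℂ) 1 := by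
        by_contra h
        push Not at h
        have := (isConj_iff_irr ((z : G)) 1).mpr (fun χ => h χ)
        rw [isConj_comm, isConj_one_right] at this
        exact hz1 this
      obtain ⟨⟨χ, n, ρ, hρ, rfl⟩, hχ⟩ := hex
      refine ⟨n, ρ, hρ, ?_⟩
      rw [injective_iff_map_eq_one]
      intro a ha
      -- the kernel is a normal subgroup; if nontrivial it meets the centre
      let K : Subgroup G := MonoidHom.ker (show G →* _ from ρ)
      by_contra ha1
      have hKn : Nontrivial K := ⟨⟨a, ha⟩, 1, fun h => ha1 (congrArg Subtype.val h)⟩
      haveI : K.Normal := MonoidHom.normal_ker _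
      haveI : Group.IsNilpotent G := hG.isNilpotent
      have hKb : K ≠ ⊥ := (Subgroup.nontrivial_iff_ne_bot K).mp hKn
      have hKc := CfsgLib.SolvNilp.inf_center_ne_bot K hKb
      -- an element of order p in K ⊓ Z(G)
      let L : Subgroup (Subgroup.center G) := K.subgroupOf (Subgroup.center G)
      have hLnt : L ≠ ⊥ := by
        intro h
        apply hKc
        rw [← Subgroup.subgroupOf_eq_bot.mp h |>.eq_bot]
      have hLp : IsPGroup p L := (hG.to_subgroup (Subgroup.center G)).to_subgroup L
      have hpL : p ∣ Nat.card L := by
        obtain ⟨k, hk⟩ := hLp.exists_card_eq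
        rcases k with _ | k
        · exfalso
          rw [pow_zero] at hk
          exact hLnt (Subgroup.card_eq_one.mp hk)
        · rw [hk, pow_succ]; exact Dvd.intro_left _ rfl
      obtain ⟨w, hw⟩ := exists_prime_orderOf_dvd_card' p hpL
      have hw' : orderOf (w : Subgroup.center G) = p := by rw [Subgroup.orderOf_coe, hw]
      haveI := Fintype.ofFinite (Subgroup.center G)
      have hle := IsCyclic.card_pow_eq_one_le (α := Subgroup.center G) (n := p) (Fact.out : p.Prime).pos
      have hsub : ∀ x : Subgroup.center G, orderOf x = p → 
          (Subgroup.zpowers x : Set (Subgroup.center G)) = {a | a ^ p = 1} := by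
        intro x hx
        apply Set.eq_of_subset_of_ncard_le
        · intro y hy
          obtain ⟨k, rfl⟩ := hy
          simp only [Set.mem_setOf_eq]
          rw [← zpow_natCast, ← zpow_mul, mul_comm, zpow_mul, zpow_natCast, ← hx, pow_orderOf_eq_one, one_zpow]
        · rw [← Set.ncard_coe_finset] at hle
          have e : ((Finset.univ.filter (fun a : Subgroup.center G => a ^ p = 1) : Finset _) : Set (Subgroup.center G)) = {a | a ^ p = 1} := by
            ext a; simp
          rw [e] at hle
          have e2 : (Subgroup.zpowers x : Set (Subgroup.center G)).ncard = p := by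
            rw [← Nat.card_coe_set_eq]
            exact (Nat.card_zpowers x).trans hx
          rw [e2]; exact hle
        · exact Set.toFinite _
      have hzw : z ∈ Subgroup.zpowers (w : Subgroup.center G) := by
        have h1 := hsub z hz
        have h2 := hsub w hw'
        have h3 : z ∈ (Subgroup.zpowers z : Set (Subgroup.center G)) := Subgroup.mem_zpowers z
        rw [h1, ← h2] at h3
        exact h3
      have hzL : z ∈ L := (Subgroup.zpowers_le.mpr w.2) hzw
      have hzK : (z : G) ∈ K := Subgroup.mem_subgroupOf.mp hzL
      apply hχ
      simp only
      rw [Representation.char_one, character_eq_finrank_iff]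
      exact hzK

end Cfsg.Agent.S0184
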