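import Cfsg.Statements.S0185
import Cfsg.Agent.LibExc

set_option autoImplicit false
set_option linter.all false
open Cfsg

namespace Cfsg.Agent.S0185

open CfsgLib.CharBasic

/-- If a finite group has a faithful complex representation of degree less than the smallest prime dividing its order, the group is abelian. -/
theorem result {G : Type*} [Group G] [Finite G] {V : Type*} [AddCommGroup V] [Module ℂ V] [FiniteDimensional ℂ V] (ρ : Representation ℂ G V) (hfaithful : Function.Injective ρ) (hdeg : ∀ p : ℕ, p.Prime → p ∣ Nat.card G → Module.finrank ℂ V < p) (a b : G) : a * b = b * a := by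
  haveI := Fintype.ofFinite G
  have hχ := isCharacter_character ρ
  refine CfsgLib.Exc.comm_of_faithful_linear hχ (fun g hg => ?_) (fun ψ hψ hm => ?_) a b
  · rw [Representation.char_one, character_eq_finrank_iff] at hg
    exact hfaithful (hg.trans (map_one ρ).symm)
  · have h1 := CfsgLib.CharInt.irr_one_eq_charDegree hψ
    have h2 := CfsgLib.CharMore.degree_le_of_mult hχ hψ hm h1 (Representation.char_one ρ)
    have h3 := CfsgLib.CharInt2.charDegree_dvd_card hψ
    by_contra hne
    have h4 : charDegree ψ ≠ 1 := by
      intro h; rw [h] at h1; exact hne (by simpa using h1)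
    obtain ⟨p, hp, hpd⟩ := Nat.exists_prime_and_dvd h4
    have h5 := hdeg p hp (hpd.trans h3)
    have h6 := Nat.le_of_dvd (CfsgLib.CharInt.irr_charDegree_pos hψ) hpd
    omega

end Cfsg.Agent.S0185
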