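import Cfsg.Statements.S0186
import Cfsg.Agent.LibExc

set_option autoImplicit false
set_option linter.all false
open Cfsg

namespace Cfsg.Agent.S0186

open CfsgLib.CharBasic CfsgLib.Exc
open scoped ComplexConjugate

/-- Let G be a finite simple group of order n and p a prime dividing n. If G has more than n / p^2 conjugacy classes, then every Sylow p-subgroup of G is abelian. -/
theorem result {G : Type*} [Group G] [Finite G] [IsSimpleGroup G] (p : ℕ) [Fact p.Prime] (hp : p ∣ Nat.card G) (hmany : Nat.card G < p ^ 2 * Nat.card (ConjClasses G)) (P : Sylow p G) (a b : G) (ha : a ∈ P) (hb : b ∈ P) : a * b = b * a := by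
  classical
  haveI := Fintype.ofFinite G
  haveI : Fintype P := Fintype.ofFinite P
  have hprime : p.Prime := Fact.out
  by_contra hnab
  have hPna : ¬ ∀ x y : P, x * y = y * x := by
    intro h
    exact hnab (congrArg Subtype.val (h ⟨a, ha⟩ ⟨b, hb⟩))
  have hcen : Subgroup.center G ≠ ⊤ := by
    intro h
    have : a ∈ Subgroup.center G := h ▸ Subgroup.mem_top a
    exact hnab ((Subgroup.mem_center_iff.mp this b).symm)
  have hcenbot : Subgroup.center G = ⊥ := (inferInstance : (Subgroup.center G).Normal).eq_bot_or_eq_top.resolve_right hcen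
  -- size of P
  obtain ⟨k, hk⟩ := P.2.exists_card_eq
  have hk3 : 3 ≤ k := by
    by_contra hlt
    apply hPna
    have h2 : k ≤ 2 := by omega
    interval_cases k
    · intro x y
      have : Subsingleton P := (Nat.card_eq_one_iff_unique.mp (by simpa using hk)).1
      exact Subsingleton.elim _ _
    · intro x y
      haveI := isCyclic_of_prime_card (α := P) (p := p) (by simpa using hk)
      letI := IsCyclic.commGroup (α := P)
      exact mul_comm x y
    · exact IsPGroup.commutative_of_card_eq_prime_sq hk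
  have hcard3 : p ^ 3 ≤ Nat.card G := by
    apply Nat.le_of_dvd Nat.card_pos
    have h1 : Nat.card P ∣ Nat.card G := Subgroup.card_subgroup_dvd_card _
    rw [hk] at h1
    exact (pow_dvd_pow p hk3).trans h1
  -- degrees
  have hdeg : ∀ χ : G → ℂ, IsIrrCharacter G χ → χ ≠ (fun _ => 1) → p + 1 ≤ charDegree χ := by
    intro χ hχ hne
    have hd := CfsgLib.CharInt.irr_one_eq_charDegree hχ
    let φ : P → ℂ := fun x => χ x
    have hφ : IsCharacter P φ := isCharacter_restrict (irr_isCharacter hχ) (P : Subgroup G)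
    have hφf : ∀ g, φ g = φ 1 → g = 1 := fun g hg => Subtype.ext (simple_faithful hχ hne hg)
    have hex : ∃ ψ : P → ℂ, IsIrrCharacter P ψ ∧ classInner φ ψ ≠ 0 ∧ ψ 1 ≠ 1 := by
      by_contra hcon
      push Not at hcon
      exact hPna (comm_of_faithful_linear hφ hφf hcon)
    obtain ⟨ψ, hψ, hm, hψ1⟩ := hex
    have hψd := CfsgLib.CharInt.irr_one_eq_charDegree hψ
    have hle := CfsgLib.CharMore.degree_le_of_mult hφ hψ hm hψd hd
    have hdvd := CfsgLib.CharInt2.charDegree_dvd_card hψ
    rw [hk] at hdvd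
    obtain ⟨j, -, hj⟩ := (Nat.dvd_prime_pow hprime).mp hdvd
    have hj0 : j ≠ 0 := by
      rintro rfl
      apply hψ1
      rw [hψd, hj]; simp
    have hpj : p ≤ p ^ j := Nat.le_self_pow hj0 p
    have hple : p ≤ charDegree χ := by omega
    by_contra hlt
    have heq : charDegree χ = p := by omega
    have heq2 : charDegree ψ = charDegree χ := by omega
    obtain ⟨r, hr, hφr⟩ := CfsgLib.CharMore.split_off hφ hψ hm
    have hr0 : r = 0 := by
      apply degree_zero hr
      have := congrFun hφr 1
      simp only [Pi.add_apply] at this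
      have h3 : φ 1 = ψ 1 := by
        change χ 1 = ψ 1
        rw [hd, hψd, heq2]
      rw [h3] at this
      linear_combination -this
    rw [hr0, add_zero] at hφr
    have hntP : Nontrivial P := by
      apply Finite.one_lt_card_iff_nontrivial.mp
      rw [hk]
      exact Nat.one_lt_pow (by omega) hprime.one_lt
    haveI := P.2.center_nontrivial
    obtain ⟨z, hz⟩ := exists_ne (1 : Subgroup.center P)
    have h4 := irr_center hψ z.2
    rw [← hφr] at h4
    have h5 : ((z : P) : G) ∈ Subgroup.center G := 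
      CfsgLib.CharMore.scalar_comm hχ (fun g hg => simple_faithful hχ hne hg) h4
    rw [hcenbot, Subgroup.mem_bot] at h5
    exact hz (Subtype.ext (Subtype.ext h5))
  -- counting
  have hsum : ∑ χ : IrrCharacter G, charDegree (χ : G → ℂ) ^ 2 = Nat.card G := by
    have h1 := sum_sq_degree (G := G)
    have h2 : ((∑ χ : IrrCharacter G, charDegree (χ : G → ℂ) ^ 2 : ℕ) : ℂ) = (Nat.card G : ℂ) := by
      rw [← h1]
      push_cast
      exact Finset.sum_congr rfl fun χ _ => by rw [CfsgLib.CharInt.irr_one_eq_charDegree χ.2]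
    exact_mod_cast h2
  let χ0 : IrrCharacter G := ⟨fun _ => 1, isIrrCharacter_one⟩
  have hd0 : 1 ≤ charDegree (χ0 : G → ℂ) := CfsgLib.CharInt.irr_charDegree_pos χ0.2
  rw [← Finset.add_sum_erase _ _ (Finset.mem_univ χ0)] at hsum
  have h2 : (Finset.univ.erase χ0).card * (p + 1) ^ 2 ≤ ∑ χ ∈ Finset.univ.erase χ0, charDegree (χ : G → ℂ) ^ 2 := by
    rw [← smul_eq_mul]
    apply Finset.card_nsmul_le_sum
    intro χ hχ
    have hne : (χ : G → ℂ) ≠ fun _ => 1 := fun h => (Finset.mem_erase.mp hχ).1 (Subtype.ext h)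
    exact Nat.pow_le_pow_left (hdeg χ χ.2 hne) 2
  have h3 : (Finset.univ.erase χ0).card + 1 = Nat.card (ConjClasses G) := by
    rw [← card_irr, Nat.card_eq_fintype_card, Finset.card_erase_of_mem (Finset.mem_univ _), Finset.card_univ]
    have : 0 < Fintype.card (IrrCharacter G) := Fintype.card_pos_iff.mpr ⟨χ0⟩
    omega
  rw [← h3] at hmany
  set t := (Finset.univ.erase χ0).card
  have h4 : 1 ≤ charDegree (χ0 : G → ℂ) ^ 2 := Nat.one_le_pow _ _ hd0
  have h5 : p < t + 1 := by
    have : p ^ 2 * p < p ^ 2 * (t + 1) := by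
      calc p ^ 2 * p = p ^ 3 := by ring
        _ ≤ Nat.card G := hcard3
        _ < _ := hmany
    exact Nat.lt_of_mul_lt_mul_left this
  have h6 : p ≤ t := by omega
  have h7 : 1 ≤ p := hprime.one_lt.le
  nlinarith [h2, h4, hsum, hmany, h6, Nat.mul_le_mul_right (2 * p + 1) h6]

end Cfsg.Agent.S0186
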