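import Cfsg.Statements.S0187
import Cfsg.Agent.LibCharBasic2

set_option autoImplicit false
set_option linter.all false
open Cfsg

namespace Cfsg.Agent.S0187

/-- A finite group is commutative if and only if every irreducible complex character has degree 1. -/
theorem result {G : Type*} [Group G] [Finite G] : (∀ a b : G, a * b = b * a) ↔ ∀ χ : Cfsg.IrrCharacter G, (χ : G → ℂ) 1 = 1 := by
  classical
  haveI := Fintype.ofFinite G
  have h1 := CfsgLib.CharBasic.sum_sq_degree (G := G)
  have h2 := CfsgLib.CharBasic.card_irr (G := G)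
  choose d hd0 hd using fun χ : Cfsg.IrrCharacter G => CfsgLib.CharBasic.irr_one_nat χ.2
  have h3 : ∑ χ : Cfsg.IrrCharacter G, d χ ^ 2 = Nat.card G := by
    have : ∑ χ : Cfsg.IrrCharacter G, ((d χ : ℂ)) ^ 2 = (Nat.card G : ℂ) := by
      rw [← h1]; exact Finset.sum_congr rfl fun χ _ => by rw [hd]
    exact_mod_cast this
  have h4 : Nat.card (Cfsg.IrrCharacter G) = ∑ χ : Cfsg.IrrCharacter G, 1 := by
    simp [Nat.card_eq_fintype_card]
  constructor
  · intro hab χ
    have hc : Nat.card (ConjClasses G) = Nat.card G := by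
      symm
      apply Nat.card_congr
      refine Equiv.ofBijective ConjClasses.mk ⟨?_, ConjClasses.mk_surjective⟩
      intro a b h
      rw [ConjClasses.mk_eq_mk_iff_isConj, isConj_iff] at h
      obtain ⟨c, hc⟩ := h
      rw [hab c a, mul_assoc, mul_inv_cancel, mul_one] at hc
      exact hc
    rw [h4, hc, ← h3] at h2
    have h5 : ∀ ψ : Cfsg.IrrCharacter G, 1 ≤ d ψ ^ 2 := fun ψ => Nat.one_le_pow _ _ (hd0 ψ)
    have h6 := (Finset.sum_eq_sum_iff_of_le (fun ψ _ => h5 ψ)).mp h2 χ (Finset.mem_univ _)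
    have h7 : d χ = 1 := by
      have : d χ ^ 2 = 1 := h6.symm
      exact pow_eq_one_iff_of_nonneg (Nat.zero_le _) two_ne_zero |>.mp this
    rw [hd, h7]; simp
  · intro hall a b
    have h5 : ∀ ψ : Cfsg.IrrCharacter G, d ψ = 1 := fun ψ => by
      have := hall ψ; rw [hd] at this; exact_mod_cast this
    have h6 : (a * b) * (b * a)⁻¹ = 1 := by
      by_contra hne
      have h7 := CfsgLib.CharBasic.sum_degree_mul _ hne
      have h8 : ∀ χ : Cfsg.IrrCharacter G, (χ : G → ℂ) 1 * (χ : G → ℂ) (a * b * (b * a)⁻¹) = 1 := by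
        intro χ
        have hl := CfsgLib.CharBasic.linear_mul (CfsgLib.CharBasic.irr_isCharacter χ.2) (hall χ)
        rw [hall χ, hl, hl, mul_comm ((χ : G → ℂ) a), ← hl, ← hl, mul_inv_cancel, hall χ, mul_one]
      rw [Finset.sum_congr rfl fun χ _ => h8 χ, Finset.sum_const, nsmul_eq_mul, mul_one] at h7
      have h9 : (Finset.univ : Finset (Cfsg.IrrCharacter G)).card = 0 := by exact_mod_cast h7
      rw [Finset.card_eq_zero] at h9
      have : (⟨_, CfsgLib.CharBasic.isIrrCharacter_one⟩ : Cfsg.IrrCharacter G) ∈ (Finset.univ : Finset (Cfsg.IrrCharacter G)) := Finset.mem_univ _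
      rw [h9] at this
      exact absurd this (Finset.notMem_empty _)
    rw [mul_inv_eq_one] at h6
    exact h6

end Cfsg.Agent.S0187
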