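import Cfsg.Statements.S0189
import Cfsg.Agent.LibCharIndA

set_option autoImplicit false
set_option linter.all false
open Cfsg

namespace Cfsg.Agent.S0189

/-- If a complex character of a finite group vanishes at every non-identity element of a Sylow p-subgroup P, then |P| divides its degree. -/
theorem result {G : Type*} [Group G] [Finite G] (p : ℕ) [Fact p.Prime] (P : Sylow p G) (χ : G → ℂ) (hχ : Cfsg.IsCharacter G χ) (hvan : ∀ g : G, g ∈ P → g ≠ 1 → χ g = 0) : ∃ k : ℕ, χ 1 = (Nat.card P : ℂ) * k := by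
  classical
  haveI := Fintype.ofFinite G
  haveI := Fintype.ofFinite P
  have h1 := CfsgLib.CharBasic.isCharacter_restrict hχ (P : Subgroup G)
  obtain ⟨n, hn⟩ := CfsgLib.CharBasic.char_mult h1 (CfsgLib.CharBasic.isCharacter_one (G := (P : Subgroup G)))
  refine ⟨n, ?_⟩
  rw [CfsgLib.CharBasic.inner_one_right, Finset.sum_eq_single 1] at hn
  · have hP : (Nat.card P : ℂ) ≠ 0 := by exact_mod_cast Nat.card_pos.ne'
    rw [← hn]
    change χ 1 = (Nat.card P : ℂ) * ((Nat.card P : ℂ)⁻¹ * χ 1)
    field_simp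
  · intro b _ hb
    exact hvan b b.2 (fun h => hb (Subtype.ext h))
  · intro h; exact absurd (Finset.mem_univ _) h

end Cfsg.Agent.S0189
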