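import Cfsg.Statements.S0191
import Cfsg.Agent.LibExc
import Cfsg.Agent.LibGalChar

set_option autoImplicit false
set_option linter.all false
open Cfsg

namespace Cfsg.Agent.S0191

open CfsgLib.CharBasic
open scoped ComplexConjugate

/-- An irreducible complex representation of a finite group of degree greater than 1 has a character that vanishes somewhere. -/
theorem result {G : Type*} [Group G] [Finite G] {V : Type*} [AddCommGroup V] [Module ℂ V] [FiniteDimensional ℂ V] (ρ : Representation ℂ G V) [ρ.IsIrreducible] (hdeg : 1 < Module.finrank ℂ V) : ∃ g : G, ρ.character g = 0 := by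
  classical
  haveI := Fintype.ofFinite G
  by_contra hcon
  push Not at hcon
  have hirr := isIrrCharacter_character ρ
  have hG : (Nat.card G : ℂ) ≠ 0 := by exact_mod_cast Nat.card_pos.ne'
  have h1 := irr_inner_self hirr
  rw [inner_self_eq] at h1
  have h1' : (Nat.card G : ℝ)⁻¹ * ∑ g : G, ‖ρ.character g‖ ^ 2 = 1 := by exact_mod_cast h1
  have hG' : (Nat.card G : ℝ) ≠ 0 := by exact_mod_cast Nat.card_pos.ne'
  rw [inv_mul_eq_one₀ hG'] at h1'
  have h2 := CfsgLib.GalChar.char_norm_eq_one (irr_isCharacter hirr) Finset.univ (fun g _ k _ => Finset.mem_univ _)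
    (fun g _ => hcon g) (by rw [← h1', Finset.card_univ, Nat.card_eq_fintype_card]) 1 (Finset.mem_univ _)
  rw [Representation.char_one] at h2
  have h3 : (Module.finrank ℂ V : ℝ) = 1 := by
    rw [Complex.norm_natCast] at h2; exact h2
  have h4 : Module.finrank ℂ V = 1 := by exact_mod_cast h3
  omega

end Cfsg.Agent.S0191
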