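import Cfsg.Statements.S0192
import Cfsg.Agent.LibCharNorm

set_option autoImplicit false
set_option linter.all false
open Cfsg

namespace Cfsg.Agent.S0192

open CfsgLib.CharBasic CfsgLib.CharNorm
theorem inv_fin {G : Type*} [Group G] {n : ℕ} (ρ : Representation ℂ G (Fin n → ℂ)) (H : Subgroup G) [Fintype H] :
    classInner (fun x : H => ρ.character x) (fun _ => 1) =
      (Module.finrank ℂ (Representation.invariants (show Representation ℂ H (Fin n → ℂ) from ρ.comp H.subtype)) : ℂ) := by
  haveI : Invertible (Nat.card H : ℂ) := invertibleOfNonzero (by exact_mod_cast Nat.card_pos.ne')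
  rw [← Representation.card_inv_mul_sum_char_eq_finrank, inner_one_right]
  rfl

/-- Brauer's generation criterion. Let G be a finite simple group, H₁ and H₂ subgroups, and χ a non-principal irreducible character. If the multiplicity of the principal character in χ restricted to H₁ ⊓ H₂ is less than the sum of the corresponding multiplicities for H₁ and H₂, then H₁ and H₂ do not generate G. -/
theorem result {G : Type*} [Group G] [Fintype G] [IsSimpleGroup G] (H₁ H₂ : Subgroup G) [Fintype H₁] [Fintype H₂] [Fintype ↥(H₁ ⊓ H₂)] (χ : G → ℂ) (hχ : Cfsg.IsIrrCharacter G χ) (hχ1 : χ ≠ fun _ => 1) (hlt : (Cfsg.classInner (fun x : ↥(H₁ ⊓ H₂) => χ x) (fun _ => 1)).re < (Cfsg.classInner (fun x : H₁ => χ x) (fun _ => 1)).re + (Cfsg.classInner (fun x : H₂ => χ x) (fun _ => 1)).re) : H₁ ⊔ H₂ ≠ ⊤ := by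
  classical
  intro htop
  obtain ⟨n, ρ, hρ, rfl⟩ := hχ
  rw [inv_fin, inv_fin, inv_fin] at hlt
  simp only [Complex.natCast_re] at hlt
  set V1 := Representation.invariants (show Representation ℂ H₁ (Fin n → ℂ) from ρ.comp H₁.subtype)
  set V2 := Representation.invariants (show Representation ℂ H₂ (Fin n → ℂ) from ρ.comp H₂.subtype)
  set V12 := Representation.invariants (show Representation ℂ ↥(H₁ ⊓ H₂) (Fin n → ℂ) from ρ.comp (H₁ ⊓ H₂).subtype)
  have h1 : V1 ⊔ V2 ≤ V12 := by
    apply sup_le
    · intro v hv x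
      exact hv ⟨x.1, x.2.1⟩
    · intro v hv x
      exact hv ⟨x.1, x.2.2⟩
  have h2 := Submodule.finrank_sup_add_finrank_inf_eq V1 V2
  have h3 := Submodule.finrank_mono h1
  have h4 : 0 < Module.finrank ℂ ↥(V1 ⊓ V2) := by
    have h5 : (Module.finrank ℂ V12 : ℝ) < Module.finrank ℂ V1 + Module.finrank ℂ V2 := hlt
    have h6 : Module.finrank ℂ V12 < Module.finrank ℂ V1 + Module.finrank ℂ V2 := by exact_mod_cast h5
    omega
  haveI := Module.finrank_pos_iff.mp h4
  obtain ⟨v, hv⟩ := exists_ne (0 : ↥(V1 ⊓ V2))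
  -- v is fixed by everything
  let S : Subgroup G :=
    { carrier := {g | ρ g v.1 = v.1}
      mul_mem' := by
        intro a b ha hb
        change ρ (a * b) v.1 = v.1
        rw [map_mul, Module.End.mul_apply, hb, ha]
      one_mem' := by change ρ 1 v.1 = v.1; rw [map_one]; rfl
      inv_mem' := by
        intro a ha
        have ha' : ρ a v.1 = v.1 := ha
        change ρ a⁻¹ v.1 = v.1
        conv_lhs => rw [← ha']
        rw [← Module.End.mul_apply, ← map_mul, inv_mul_cancel, map_one]; rfl }
  have hS : S = ⊤ := by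
    rw [eq_top_iff, ← htop]
    apply sup_le
    · intro x hx; exact v.2.1 ⟨x, hx⟩
    · intro x hx; exact v.2.2 ⟨x, hx⟩
  have hfix : ∀ g, ρ g v.1 = v.1 := fun g => by
    have : g ∈ S := by rw [hS]; trivial
    exact this
  -- then classInner χ 1 ≠ 0
  have h5 : 0 < Module.finrank ℂ (Representation.invariants ρ) := by
    haveI : Nontrivial (Representation.invariants ρ) := ⟨⟨⟨v.1, hfix⟩, 0, fun h => hv (Subtype.ext (show v.1 = 0 from congrArg Subtype.val h))⟩⟩
    exact Module.finrank_pos
  haveI : Invertible (Nat.card G : ℂ) := invertibleOfNonzero (by exact_mod_cast Nat.card_pos.ne')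
  have h6 := Representation.card_inv_mul_sum_char_eq_finrank ρ
  rw [← inner_one_right, irr_inner_ne (isIrrCharacter_character ρ) isIrrCharacter_one hχ1] at h6
  have : Module.finrank ℂ (Representation.invariants ρ) = 0 := by exact_mod_cast h6.symm
  omega

end Cfsg.Agent.S0192
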