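import Cfsg.Statements.S0194
import Cfsg.Agent.LibClifford2
import Cfsg.Agent.LibPermLemma

set_option autoImplicit false
set_option linter.all false
open scoped ComplexConjugate
open Cfsg

namespace Cfsg.Agent.S0194

open CfsgLib.CharBasic CfsgLib.Clifford CfsgLib.CharNorm CfsgLib.CharIndA

/-- Let G have odd order, H be a normal subgroup and θ a non-principal irreducible character of H. Then the function induced from θ is orthogonal to its complex conjugate. -/
theorem result {G : Type*} [Group G] [Fintype G] (hodd : Odd (Nat.card G)) (H : Subgroup G) [H.Normal] (θ : H → ℂ) (hθ : Cfsg.IsIrrCharacter H θ) (hθ1 : θ ≠ fun _ => 1) : Cfsg.classInner (fun g => conj (Cfsg.indFun H θ g)) (Cfsg.indFun H θ) = 0 := by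
  classical
  have hN : H.Normal := inferInstance
  haveI := Fintype.ofFinite H
  have h1 : (fun g => conj (Cfsg.indFun H θ g)) = Cfsg.indFun H (fun h => conj (θ h)) := by
    ext g
    rw [ind_apply, ind_apply, map_mul, map_inv₀, Complex.conj_natCast, map_sum]
    congr 1
    refine Finset.sum_congr rfl fun x _ => ?_
    by_cases hx : x⁻¹ * g * x ∈ H
    · rw [ext_mem H _ hx, ext_mem H _ hx]
    · rw [ext_not_mem H _ hx, ext_not_mem H _ hx, map_zero]
  rw [h1, ci_ind_ind hN (isIrrCharacter_conj hθ) hθ]
  have : IsEmpty {x : G // cj hN x (fun h => conj (θ h)) = θ} := by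
    refine ⟨fun ⟨x, hx⟩ => hθ1 ?_⟩
    -- cj x² θ = θ
    have hc : cj hN x θ = fun h => conj (θ h) := by
      ext h
      have := congrFun hx h
      rw [cj_apply] at this ⊢
      rw [← this, Complex.conj_conj]
    have h2 : cj hN (x * x) θ = θ := by
      rw [← cj_cj, hc, hx]
    have h3 : x * x ∈ inertia hN θ := h2
    have hox : Odd (orderOf x) := Odd.of_dvd_nat hodd (orderOf_dvd_natCard x)
    obtain ⟨k, hk⟩ := hox
    have h4 : x ∈ inertia hN θ := by
      have h5 : x = (x * x) ^ (k + 1) := by
        have : x ^ (2 * k + 1) = 1 := by rw [← hk]; exact pow_orderOf_eq_one x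
        calc x = x ^ (2 * k + 1) * x := by rw [this, one_mul]
          _ = (x * x) ^ (k + 1) := by rw [← pow_two, ← pow_mul, ← pow_succ]; congr 1
      rw [h5]; exact Subgroup.pow_mem _ h3 _
    have h5 : cj hN x θ = θ := h4
    apply CfsgLib.PermLemma.real_irr_odd (Odd.of_dvd_nat hodd (Subgroup.card_subgroup_dvd_card H)) hθ
    intro h
    have := congrFun (hc.symm.trans h5) h
    exact this
  have h0 : Nat.card {x : G // cj hN x (fun h => conj (θ h)) = θ} = 0 := Nat.card_of_isEmpty
  rw [h0]; simp

end Cfsg.Agent.S0194
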