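import Cfsg.Statements.S0196
import Mathlib

set_option autoImplicit false
set_option linter.all false
open Cfsg

namespace Cfsg.Agent.S0196

/-- Let A be a subgroup of a finite group G that equals the centralizer of each of its non-identity elements, and let N be its normalizer. Then the index of A in N divides |A| − 1 (N/A permutes the non-identity elements of A in orbits of full length). -/
theorem result {G : Type*} [Group G] [Finite G] (A : Subgroup G) (hA : ∀ x ∈ A, x ≠ 1 → Subgroup.centralizer ({x} : Set G) = A) : (A.subgroupOf (Subgroup.normalizer (A : Set G))).index ∣ Nat.card A - 1 := by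
  classical
  set N := Subgroup.normalizer (A : Set G) with hN
  have hAN : A ≤ N := Subgroup.le_normalizer
  let X := {a : G // a ∈ A ∧ a ≠ 1}
  letI : MulAction N X :=
    { smul := fun n a => ⟨(n : G) * a.1 * (n : G)⁻¹, ⟨(Subgroup.mem_normalizer_iff.mp n.2 a.1).mp a.2.1, fun h => a.2.2 (by
        have : a.1 = (n : G)⁻¹ * ((n : G) * a.1 * (n : G)⁻¹) * n := by group
        rw [this, h]; group)⟩⟩
      one_smul := fun a => Subtype.ext (by change (1 : G) * a.1 * (1 : G)⁻¹ = a.1; group)
      mul_smul := fun m n a => Subtype.ext (by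
        change ((m : G) * n) * a.1 * ((m : G) * n)⁻¹ = m * (n * a.1 * (n : G)⁻¹) * (m : G)⁻¹
        group) }
  have hstab : ∀ x : X, MulAction.stabilizer N x = A.subgroupOf N := by
    intro x
    ext n
    rw [MulAction.mem_stabilizer_iff, Subgroup.mem_subgroupOf]
    have hc := hA x.1 x.2.1 x.2.2
    have h1 : (n : G) ∈ A ↔ (n : G) * x.1 = x.1 * n := by
      have h0 : (n : G) ∈ Subgroup.centralizer ({x.1} : Set G) ↔ (n : G) ∈ A := by rw [SetLike.ext_iff.mp hc (n : G)]
      rw [← h0, Subgroup.mem_centralizer_singleton_iff]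
    rw [h1]
    constructor
    · intro h
      have h2 : (n : G) * x.1 * (n : G)⁻¹ = x.1 := congrArg Subtype.val h
      calc (n : G) * x.1 = (n : G) * x.1 * (n : G)⁻¹ * n := by group
        _ = x.1 * n := by rw [h2]
    · intro h
      apply Subtype.ext
      change (n : G) * x.1 * (n : G)⁻¹ = x.1
      rw [h]; group
  have hcard : Nat.card X = Nat.card A - 1 := by
    have e : X ≃ {a : A // a ≠ 1} :=
      ⟨fun x => ⟨⟨x.1, x.2.1⟩, fun h => x.2.2 (congrArg Subtype.val h)⟩,
       fun a => ⟨a.1.1, a.1.2, fun h => a.2 (Subtype.ext h)⟩, fun x => rfl, fun a => rfl⟩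
    rw [Nat.card_congr e]
    haveI := Fintype.ofFinite A
    rw [Nat.card_eq_fintype_card, Nat.card_eq_fintype_card, Fintype.card_subtype_compl, Fintype.card_subtype_eq]
  rw [← hcard]
  haveI : Fintype (MulAction.orbitRel.Quotient N X) := Fintype.ofFinite _
  rw [Nat.card_congr (MulAction.selfEquivSigmaOrbits N X), Nat.card_sigma]
  apply Finset.dvd_sum
  intro ω _
  have h1 : Nat.card (MulAction.orbit N ω.out) = (MulAction.orbit N ω.out).ncard := rfl
  rw [h1, ← MulAction.index_stabilizer, hstab]

end Cfsg.Agent.S0196
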