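import Cfsg.Statements.S0207
import Mathlib
import Cfsg.Agent.LibInvol

set_option autoImplicit false
open Cfsg

namespace Cfsg.Agent.S0207


/-- If x, y are distinct involutions, every element of the subgroup they generate that lies outside the cyclic subgroup generated by xy is an involution. -/
theorem result {G : Type*} [Group G] [Finite G] (x y : G) (hx : orderOf x = 2) (hy : orderOf y = 2) (hxy : x ≠ y) (d : G) (hd : d ∈ Subgroup.closure ({x, y} : Set G)) (hd' : d ∉ Subgroup.zpowers (x * y)) : orderOf d = 2 := by
  rcases CfsgLib.Invol.mem_closure_pair hx hy hd with ⟨n, rfl⟩ | ⟨n, rfl⟩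
  · exact absurd (Subgroup.zpow_mem_zpowers _ _) hd'
  · apply CfsgLib.Invol.orderOf_eq_two
    · intro h
      apply hd'
      rw [h]; exact one_mem _
    · have h := CfsgLib.Invol.inverts_zpow (CfsgLib.Invol.left_inverts hx hy) n
      rw [CfsgLib.Invol.inv_eq hx] at h
      have : (x * y) ^ n * x * ((x * y) ^ n * x) = (x * y) ^ n * (x * (x * y) ^ n * x) := by group
      rw [this, h, mul_inv_cancel]
end Cfsg.Agent.S0207
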