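import Cfsg.Statements.S0208
import Mathlib
import Cfsg.Agent.LibInvol

set_option autoImplicit false
open Cfsg

namespace Cfsg.Agent.S0208


/-- If x, y are involutions and xy has odd order, then some element of the subgroup generated by x and y conjugates x to y. -/
theorem result {G : Type*} [Group G] [Finite G] (x y : G) (hx : orderOf x = 2) (hy : orderOf y = 2) (hodd : Odd (orderOf (x * y))) : ∃ d ∈ Subgroup.closure ({x, y} : Set G), d * x * d⁻¹ = y := by
  obtain ⟨d, hd, h⟩ := CfsgLib.Invol.conj_of_odd hx hy hodd
  refine ⟨d, ?_, h⟩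
  have hxy : x * y ∈ Subgroup.closure ({x, y} : Set G) :=
    mul_mem (Subgroup.subset_closure (by simp)) (Subgroup.subset_closure (by simp))
  exact (Subgroup.zpowers_le.2 hxy) hd
end Cfsg.Agent.S0208
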