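import Cfsg.Statements.S0209
import Mathlib
import Cfsg.Agent.LibInvol

set_option autoImplicit false
open Cfsg

namespace Cfsg.Agent.S0209


/-- If x, y are involutions whose product has even order n, the element (xy)^(n/2) is an involution that commutes with x and with y. -/
theorem result {G : Type*} [Group G] [Finite G] (x y : G) (hx : orderOf x = 2) (hy : orderOf y = 2) (heven : Even (orderOf (x * y))) : orderOf ((x * y) ^ (orderOf (x * y) / 2)) = 2 ∧ Commute ((x * y) ^ (orderOf (x * y) / 2)) x ∧ Commute ((x * y) ^ (orderOf (x * y) / 2)) y := by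
  obtain ⟨m, hm⟩ := heven
  have hpos : 0 < orderOf (x * y) := orderOf_pos _
  have hdiv : orderOf (x * y) / 2 = m := by omega
  rw [hdiv]
  have hz2 : (x * y) ^ m * (x * y) ^ m = 1 := by
    rw [← pow_add, ← hm, pow_orderOf_eq_one]
  have hz : orderOf ((x * y) ^ m) = 2 := by
    apply CfsgLib.Invol.orderOf_eq_two _ hz2
    intro h
    have := orderOf_dvd_of_pow_eq_one h
    have := Nat.le_of_dvd (by omega) this
    omega
  have hzi : ((x * y) ^ m)⁻¹ = (x * y) ^ m := CfsgLib.Invol.inv_eq hz
  refine ⟨hz, ?_, ?_⟩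
  · have h := CfsgLib.Invol.inverts_pow (CfsgLib.Invol.left_inverts hx hy) m
    rw [hzi] at h
    exact (mul_inv_eq_iff_eq_mul.1 h).symm
  · have h := CfsgLib.Invol.inverts_pow (CfsgLib.Invol.right_inverts hx hy) m
    rw [hzi] at h
    exact (mul_inv_eq_iff_eq_mul.1 h).symm
end Cfsg.Agent.S0209
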