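import Cfsg.Statements.S0210
import Mathlib
import Cfsg.Agent.LibInvol

set_option autoImplicit false
open Cfsg

namespace Cfsg.Agent.S0210


/-- If x, y are involutions whose product has even order, no element of the subgroup generated by x and y conjugates x to y. -/
theorem result {G : Type*} [Group G] [Finite G] (x y : G) (hx : orderOf x = 2) (hy : orderOf y = 2) (heven : Even (orderOf (x * y))) (d : G) (hd : d ∈ Subgroup.closure ({x, y} : Set G)) : d * x * d⁻¹ ≠ y := by
  obtain ⟨n, hn⟩ := CfsgLib.Invol.conj_mem_closure_pair hx hy hd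
  rw [hn]
  intro h
  have h1 : (x * y) ^ (2 * n + 1) = 1 := by
    have h2 : (x * y) ^ (2 * n) = y * x⁻¹ := eq_mul_inv_of_mul_eq h
    rw [zpow_add, zpow_one, h2]
    simp [mul_assoc, CfsgLib.Invol.mul_self hy]
  rw [← orderOf_dvd_iff_zpow_eq_one] at h1
  have h3 : (2 : ℤ) ∣ 2 * n + 1 := by
    apply dvd_trans _ h1
    exact_mod_cast (even_iff_two_dvd.1 heven)
  omega
end Cfsg.Agent.S0210
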