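import Cfsg.Statements.S0211
import Mathlib
import Cfsg.Agent.LibInvol

set_option autoImplicit false
open Cfsg

namespace Cfsg.Agent.S0211


/-- Let x, y be involutions with xy of even order n and z = (xy)^(n/2). Then xz is conjugate to x by an element of the subgroup generated by x, y if and only if 4 divides n. -/
theorem result {G : Type*} [Group G] [Finite G] (x y : G) (hx : orderOf x = 2) (hy : orderOf y = 2) (heven : Even (orderOf (x * y))) : (∃ d ∈ Subgroup.closure ({x, y} : Set G), d * x * d⁻¹ = x * (x * y) ^ (orderOf (x * y) / 2)) ↔ 4 ∣ orderOf (x * y) := by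
  obtain ⟨m, hm⟩ := heven
  have hpos : 0 < orderOf (x * y) := orderOf_pos _
  have hdiv : orderOf (x * y) / 2 = m := by omega
  rw [hdiv]
  have hz2 : (x * y) ^ m * (x * y) ^ m = 1 := by
    rw [← pow_add, ← hm, pow_orderOf_eq_one]
  have hzi : ((x * y) ^ m)⁻¹ = (x * y) ^ m := inv_eq_of_mul_eq_one_left hz2
  have hcomm : x * (x * y) ^ m = (x * y) ^ m * x := by
    have h := CfsgLib.Invol.inverts_pow (CfsgLib.Invol.left_inverts hx hy) m
    rw [hzi] at h
    exact (mul_inv_eq_iff_eq_mul.1 h)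
  rw [hcomm]
  constructor
  · rintro ⟨d, hd, h⟩
    obtain ⟨n, hn⟩ := CfsgLib.Invol.conj_mem_closure_pair hx hy hd
    rw [hn] at h
    have h1 : (x * y) ^ (2 * n) = (x * y) ^ (m : ℤ) := by
      rw [zpow_natCast]; exact mul_right_cancel h
    have h2 : (x * y) ^ (2 * n - m) = 1 := by
      rw [zpow_sub, h1, mul_inv_cancel]
    rw [← orderOf_dvd_iff_zpow_eq_one, hm] at h2
    obtain ⟨c, hc⟩ := h2
    push_cast at hc
    have h3 : (m : ℤ) = 2 * (n - m * c) := by linarith
    have h4 : (2 : ℤ) ∣ (m : ℤ) := ⟨_, h3⟩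
    have h5 : 2 ∣ m := by exact_mod_cast h4
    omega
  · intro h4
    obtain ⟨n, hn⟩ : ∃ n, m = 2 * n := ⟨m / 2, by omega⟩
    refine ⟨(x * y) ^ (n : ℤ), ?_, ?_⟩
    · exact zpow_mem (mul_mem (Subgroup.subset_closure (by simp)) (Subgroup.subset_closure (by simp))) _
    · rw [CfsgLib.Invol.zpow_conj_left hx hy, hn, ← zpow_natCast]
      push_cast
      rfl
end Cfsg.Agent.S0211
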