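import Cfsg.Statements.S0212
import Mathlib
import Cfsg.Agent.LibBFH12
import Cfsg.Agent.LibBFH12b

set_option autoImplicit false
open Cfsg

namespace Cfsg.Agent.S0212

/-- The Brauer–Fowler bound: if G is a finite simple group and t an involution of G whose centralizer has order n, then |G| ≤ (2n^2)!. -/
theorem result {G : Type*} [Group G] [Finite G] [IsSimpleGroup G] (t : G) (ht : orderOf t = 2) : Nat.card G ≤ Nat.factorial (2 * (Nat.card (Subgroup.centralizer ({t} : Set G))) ^ 2) := by
  have hs : IsSimpleGroup G := inferInstance
  set n := Nat.card (Subgroup.centralizer ({t} : Set G)) with hn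
  have hnpos : 0 < n := Nat.card_pos
  have heven : Even (Nat.card G) := by
    rw [even_iff_two_dvd, ← ht]; exact orderOf_dvd_natCard t
  by_cases hZ : Odd (Nat.card (Subgroup.center G))
  · obtain ⟨H, hH, h⟩ := CfsgLib.BFH12.index_bound heven hZ
    have hidx : H.index ≤ 2 * n ^ 2 := by
      rcases h with h | h
      · rw [h]; nlinarith
      · have h1 := CfsgLib.BFH12.card_class t
        set N := Nat.card {t : G // orderOf t = 2} with hN
        have hNpos : 0 < N := CfsgLib.BFH12.n_pos heven
        have h2 : Nat.card {x : G // IsConj t x} ≤ N := by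
          rw [hN]
          refine Nat.card_le_card_of_injective (fun x : {x : G // IsConj t x} =>
            (⟨x.1, ?_⟩ : {t : G // orderOf t = 2})) ?_
          · obtain ⟨g, hg⟩ := isConj_iff.1 x.2
            rw [← ht, ← hg, CfsgLib.Invol.orderOf_conj]
          · intro x y hxy
            exact Subtype.ext (congrArg (fun z : {t : G // orderOf t = 2} => z.1) hxy)
        have h3 : Nat.card G ≤ N * n := by
          rw [← h1]; exact Nat.mul_le_mul_right _ h2
        have h4 : Nat.card G * (Nat.card G + N) ≤ (N * n) * (N * n + N) :=
          Nat.mul_le_mul h3 (by omega)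
        have h5 : N ^ 2 * (2 * H.index) < N ^ 2 * (n * (n + 1)) := by
          calc N ^ 2 * (2 * H.index) = 2 * H.index * N ^ 2 := by ring
            _ < _ := h
            _ ≤ _ := h4
            _ = _ := by ring
        have h6 := Nat.lt_of_mul_lt_mul_left h5
        nlinarith
    have hfin : Finite (G ⧸ H) := inferInstance
    let f := MulAction.toPermHom G (G ⧸ H)
    have hf : Function.Injective f := by
      rw [← MonoidHom.ker_eq_bot_iff]
      rcases hs.eq_bot_or_eq_top_of_normal f.ker inferInstance with h1 | h1
      · exact h1
      · exfalso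
        apply hH
        rw [eq_top_iff]
        intro g _
        have h2 : g ∈ f.ker := by rw [h1]; trivial
        have h3 := MonoidHom.mem_ker.1 h2
        have h4 : f g (QuotientGroup.mk 1) = QuotientGroup.mk 1 := by rw [h3]; rfl
        have h5 : (QuotientGroup.mk (g * 1) : G ⧸ H) = QuotientGroup.mk 1 := h4
        rw [mul_one] at h5
        have h6 := QuotientGroup.eq.1 h5.symm
        simpa using h6
    have h1 := Nat.card_le_card_of_injective f hf
    rw [Nat.card_perm] at h1
    exact h1.trans (Nat.factorial_le hidx)
  · have h1 : Subgroup.center G = ⊤ := by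
      rcases hs.eq_bot_or_eq_top_of_normal (Subgroup.center G) inferInstance with h1 | h1
      · exfalso
        apply hZ
        rw [h1, Subgroup.card_bot]
        exact odd_one
      · exact h1
    have h2 : Subgroup.centralizer ({t} : Set G) = ⊤ := by
      rw [eq_top_iff, ← h1]
      exact Subgroup.center_le_centralizer _
    have h3 : Nat.card G = n := by
      rw [hn, h2, Subgroup.card_top]
    rw [h3]
    calc n ≤ 2 * n ^ 2 := by nlinarith
      _ ≤ _ := Nat.self_le_factorial _

end Cfsg.Agent.S0212
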