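import Cfsg.Statements.S0213
import Mathlib
import Cfsg.Agent.LibBFH12
import Cfsg.Agent.LibBFH12b

set_option autoImplicit false
open Cfsg

namespace Cfsg.Agent.S0213

/-- Thompson Order Formula, two-class case: if every involution of the finite group G is conjugate to exactly one of the non-conjugate involutions x₁, x₂, and nᵢ is the number of pairs (u, v) with u conjugate to x₁, v conjugate to x₂ and xᵢ in the cyclic group generated by uv, then |G| = |C(x₂)| n₁ + |C(x₁)| n₂. -/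
theorem result {G : Type*} [Group G] [Finite G] (x₁ x₂ : G) (h₁ : orderOf x₁ = 2) (h₂ : orderOf x₂ = 2) (hnc : ¬ IsConj x₁ x₂) (hall : ∀ t : G, orderOf t = 2 → IsConj x₁ t ∨ IsConj x₂ t) : Nat.card G = Nat.card (Subgroup.centralizer ({x₂} : Set G)) * Nat.card {p : G × G // IsConj x₁ p.1 ∧ IsConj x₂ p.2 ∧ x₁ ∈ Subgroup.zpowers (p.1 * p.2)} + Nat.card (Subgroup.centralizer ({x₁} : Set G)) * Nat.card {p : G × G // IsConj x₁ p.1 ∧ IsConj x₂ p.2 ∧ x₂ ∈ Subgroup.zpowers (p.1 * p.2)} := by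
  classical
  let _ := Fintype.ofFinite G
  have hconj2 : ∀ {x y : G}, orderOf x = 2 → IsConj x y → orderOf y = 2 := by
    intro x y hx hxy
    obtain ⟨g, hg⟩ := isConj_iff.1 hxy
    rw [← hx, ← hg, CfsgLib.Invol.orderOf_conj]
  -- the count for each z
  let A : G → Finset (G × G) := fun z => Finset.univ.filter fun p : G × G => IsConj x₁ p.1 ∧ IsConj x₂ p.2 ∧ z ∈ Subgroup.zpowers (p.1 * p.2)
  have hA : ∀ z, (A z).card = Nat.card {p : G × G // IsConj x₁ p.1 ∧ IsConj x₂ p.2 ∧ z ∈ Subgroup.zpowers (p.1 * p.2)} := by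
    intro z
    rw [Nat.card_eq_fintype_card, Fintype.card_subtype]
  have hAconj : ∀ z g : G, (A (g * z * g⁻¹)).card = (A z).card := by
    intro z g
    refine Finset.card_bij' (fun p _ => (g⁻¹ * p.1 * g, g⁻¹ * p.2 * g)) (fun p _ => (g * p.1 * g⁻¹, g * p.2 * g⁻¹)) ?_ ?_ ?_ ?_
    · rintro ⟨u, v⟩ hp
      rw [Finset.mem_filter] at hp ⊢
      obtain ⟨-, h1, h2, h3⟩ := hp
      refine ⟨Finset.mem_univ _, ?_, ?_, ?_⟩
      · refine h1.trans (isConj_iff.2 ⟨g⁻¹, ?_⟩); simp
      · refine h2.trans (isConj_iff.2 ⟨g⁻¹, ?_⟩); simp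
      · obtain ⟨i, hi⟩ := Subgroup.mem_zpowers_iff.1 h3
        refine Subgroup.mem_zpowers_iff.2 ⟨i, ?_⟩
        have h4 : g⁻¹ * u * g * (g⁻¹ * v * g) = g⁻¹ * (u * v) * g⁻¹⁻¹ := by group
        show (g⁻¹ * u * g * (g⁻¹ * v * g)) ^ i = z
        have hi' : (u * v) ^ i = g * z * g⁻¹ := hi
        rw [h4, conj_zpow, hi']; group
    · rintro ⟨u, v⟩ hp
      rw [Finset.mem_filter] at hp ⊢
      obtain ⟨-, h1, h2, h3⟩ := hp
      refine ⟨Finset.mem_univ _, ?_, ?_, ?_⟩
      · refine h1.trans (isConj_iff.2 ⟨g, rfl⟩)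
      · refine h2.trans (isConj_iff.2 ⟨g, rfl⟩)
      · obtain ⟨i, hi⟩ := Subgroup.mem_zpowers_iff.1 h3
        refine Subgroup.mem_zpowers_iff.2 ⟨i, ?_⟩
        have h4 : g * u * g⁻¹ * (g * v * g⁻¹) = g * (u * v) * g⁻¹ := by group
        show (g * u * g⁻¹ * (g * v * g⁻¹)) ^ i = g * z * g⁻¹
        have hi' : (u * v) ^ i = z := hi
        rw [h4, conj_zpow, hi']
    · rintro ⟨u, v⟩ _
      simp only [Prod.mk.injEq]
      constructor <;> group
    · rintro ⟨u, v⟩ _
      simp only [Prod.mk.injEq]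
      constructor <;> group
  -- all pairs
  let B : Finset (G × G) := Finset.univ.filter fun p : G × G => IsConj x₁ p.1 ∧ IsConj x₂ p.2
  have hB : B.card = Nat.card {x : G // IsConj x₁ x} * Nat.card {x : G // IsConj x₂ x} := by
    rw [Nat.card_eq_fintype_card, Nat.card_eq_fintype_card, Fintype.card_subtype, Fintype.card_subtype,
      ← Finset.card_product]
    congr 1
    ext ⟨u, v⟩
    simp [B]
  -- unique involution in zpowers
  have huniq : ∀ p ∈ B, ∃ z : G, orderOf z = 2 ∧ z ∈ Subgroup.zpowers (p.1 * p.2) ∧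
      ∀ z', orderOf z' = 2 → z' ∈ Subgroup.zpowers (p.1 * p.2) → z' = z := by
    rintro ⟨u, v⟩ hp
    rw [Finset.mem_filter] at hp
    obtain ⟨-, h1, h2⟩ := hp
    have hu := hconj2 h₁ h1
    have hv := hconj2 h₂ h2
    obtain ⟨z, hz, hzm, -, -⟩ := CfsgLib.BFH12.exists_common hu hv (fun h => hnc ((h1.trans h).trans h2.symm))
    refine ⟨z, hz, hzm, fun z' hz' hzm' => ?_⟩
    -- cyclic group has a unique involution
    by_contra hne
    have hcyc : IsCyclic (Subgroup.zpowers (u * v)) := inferInstance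
    have hle := IsCyclic.card_pow_eq_one_le (α := Subgroup.zpowers (u * v)) (n := 2) (by norm_num)
    have hsub : ({1, ⟨z, hzm⟩, ⟨z', hzm'⟩} : Finset (Subgroup.zpowers (u * v))) ⊆
        Finset.univ.filter fun a => a ^ 2 = 1 := by
      intro a ha
      rw [Finset.mem_filter]
      refine ⟨Finset.mem_univ _, ?_⟩
      simp only [Finset.mem_insert, Finset.mem_singleton] at ha
      rcases ha with rfl | rfl | rfl
      · exact one_pow 2
      · apply Subtype.ext
        show z ^ 2 = 1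
        rw [pow_two, CfsgLib.Invol.mul_self hz]
      · apply Subtype.ext
        show z' ^ 2 = 1
        rw [pow_two, CfsgLib.Invol.mul_self hz']
    have hc := (Finset.card_le_card hsub).trans hle
    rw [Finset.card_insert_of_notMem, Finset.card_insert_of_notMem, Finset.card_singleton] at hc
    · omega
    · simp only [Finset.mem_singleton, Subtype.mk.injEq]
      exact fun h => hne h.symm
    · simp only [Finset.mem_insert, Finset.mem_singleton]
      push Not
      refine ⟨fun h => CfsgLib.Invol.ne_one hz (congrArg Subtype.val h).symm,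
        fun h => CfsgLib.Invol.ne_one hz' (congrArg Subtype.val h).symm⟩
  -- double counting
  let I : Finset G := Finset.univ.filter fun z => orderOf z = 2
  have hBsum : B.card = ∑ z ∈ I, (A z).card := by
    rw [← Finset.card_sigma]
    choose! f hf using huniq
    refine Finset.card_bij' (fun p _ => (⟨f p, p⟩ : (_ : G) × (G × G))) (fun q _ => q.2) ?_ ?_ ?_ ?_
    · intro p hp
      obtain ⟨h1, h2, h3⟩ := hf p hp
      rw [Finset.mem_sigma]
      have hp' := hp
      rw [Finset.mem_filter] at hp'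
      exact ⟨Finset.mem_filter.2 ⟨Finset.mem_univ _, h1⟩, Finset.mem_filter.2 ⟨Finset.mem_univ _, hp'.2.1, hp'.2.2, h2⟩⟩
    · rintro ⟨z, p⟩ hq
      rw [Finset.mem_sigma] at hq
      have h1 := Finset.mem_filter.1 hq.2
      exact Finset.mem_filter.2 ⟨Finset.mem_univ _, h1.2.1, h1.2.2.1⟩
    · intro p _; rfl
    · rintro ⟨z, p⟩ hq
      rw [Finset.mem_sigma] at hq
      have h1 := Finset.mem_filter.1 hq.2
      have h2 := Finset.mem_filter.1 hq.1
      have hp : p ∈ B := Finset.mem_filter.2 ⟨Finset.mem_univ _, h1.2.1, h1.2.2.1⟩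
      have h3 := (hf p hp).2.2 z h2.2 h1.2.2.2
      show (⟨f p, p⟩ : (_ : G) × (G × G)) = ⟨z, p⟩
      rw [h3]
  have hsplit : ∑ z ∈ I, (A z).card = Nat.card {x : G // IsConj x₁ x} * (A x₁).card +
      Nat.card {x : G // IsConj x₂ x} * (A x₂).card := by
    have hI : I = (Finset.univ.filter fun z => IsConj x₁ z) ∪ (Finset.univ.filter fun z => IsConj x₂ z) := by
      ext z
      simp only [I, Finset.mem_filter, Finset.mem_univ, true_and, Finset.mem_union]
      constructor
      · exact hall z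
      · rintro (h | h)
        · exact hconj2 h₁ h
        · exact hconj2 h₂ h
    have hdisj : Disjoint (Finset.univ.filter fun z => IsConj x₁ z) (Finset.univ.filter fun z => IsConj x₂ z) := by
      rw [Finset.disjoint_left]
      intro z hz1 hz2
      rw [Finset.mem_filter] at hz1 hz2
      exact hnc (hz1.2.trans hz2.2.symm)
    rw [hI, Finset.sum_union hdisj]
    congr 1
    · rw [Nat.card_eq_fintype_card, Fintype.card_subtype, ← smul_eq_mul, ← Finset.sum_const]
      refine Finset.sum_congr rfl fun z hz => ?_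
      obtain ⟨g, hg⟩ := isConj_iff.1 (Finset.mem_filter.1 hz).2
      rw [← hg, hAconj]
    · rw [Nat.card_eq_fintype_card, Fintype.card_subtype, ← smul_eq_mul, ← Finset.sum_const]
      refine Finset.sum_congr rfl fun z hz => ?_
      obtain ⟨g, hg⟩ := isConj_iff.1 (Finset.mem_filter.1 hz).2
      rw [← hg, hAconj]
  rw [hB, hsplit, hA, hA] at hBsum
  have h1 := CfsgLib.BFH12.card_class x₁
  have h2 := CfsgLib.BFH12.card_class x₂
  set n₁ := Nat.card {x : G // IsConj x₁ x}
  set n₂ := Nat.card {x : G // IsConj x₂ x}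
  set c₁ := Nat.card (Subgroup.centralizer ({x₁} : Set G))
  set c₂ := Nat.card (Subgroup.centralizer ({x₂} : Set G))
  set a₁ := Nat.card {p : G × G // IsConj x₁ p.1 ∧ IsConj x₂ p.2 ∧ x₁ ∈ Subgroup.zpowers (p.1 * p.2)}
  set a₂ := Nat.card {p : G × G // IsConj x₁ p.1 ∧ IsConj x₂ p.2 ∧ x₂ ∈ Subgroup.zpowers (p.1 * p.2)}
  have hG : 0 < Nat.card G := Nat.card_pos
  apply Nat.eq_of_mul_eq_mul_left hG
  calc Nat.card G * Nat.card G = (n₁ * c₁) * (n₂ * c₂) := by rw [h1, h2]
    _ = (n₁ * n₂) * c₁ * c₂ := by ring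
    _ = (n₁ * a₁ + n₂ * a₂) * c₁ * c₂ := by rw [hBsum]
    _ = (n₁ * c₁) * (c₂ * a₁) + (n₂ * c₂) * (c₁ * a₂) := by ring
    _ = Nat.card G * (c₂ * a₁ + c₁ * a₂) := by rw [h1, h2]; ring

end Cfsg.Agent.S0213
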