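import Cfsg.Statements.S0220
import Mathlib
import Cfsg.Agent.LibPSub
import Cfsg.Agent.LibInvol
import Cfsg.Agent.S0219

set_option autoImplicit false
open Cfsg

namespace Cfsg.Agent.S0220

open Subgroup in
/-- in a cyclic group two elements of order two coincide -/
theorem eq_of_orderOf_two {G : Type*} [Group G] {S : Subgroup G} [Finite S] (hS : IsCyclic S) {a b : G}
    (ha : a ∈ S) (hb : b ∈ S) (ha2 : orderOf a = 2) (hb2 : orderOf b = 2) : a = b := by
  classical
  haveI := hS
  haveI := Fintype.ofFinite S
  have h1 := IsCyclic.card_pow_eq_one_le (α := S) (n := 2) (by norm_num)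
  by_contra hne
  have h2 : ({1, ⟨a, ha⟩, ⟨b, hb⟩} : Finset S) ⊆ Finset.univ.filter (fun x : S => x ^ 2 = 1) := by
    intro x hx
    simp only [Finset.mem_insert, Finset.mem_singleton] at hx
    simp only [Finset.mem_filter, Finset.mem_univ, true_and]
    rcases hx with rfl | rfl | rfl
    · simp
    · apply Subtype.ext
      simpa [ha2] using pow_orderOf_eq_one a
    · apply Subtype.ext
      simpa [hb2] using pow_orderOf_eq_one b
  have h3 := Finset.card_le_card h2
  have h4 : ({1, ⟨a, ha⟩, ⟨b, hb⟩} : Finset S).card = 3 := by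
    rw [Finset.card_eq_three]
    refine ⟨_, _, _, ?_, ?_, ?_, rfl⟩
    · intro h; exact CfsgLib.Invol.ne_one ha2 (congrArg Subtype.val h).symm
    · intro h; exact CfsgLib.Invol.ne_one hb2 (congrArg Subtype.val h).symm
    · intro h; exact hne (congrArg Subtype.val h)
  omega

theorem aux {G : Type*} [Group G] [Finite G] (x : G) (hx : orderOf x = 2) (C : Subgroup G) (hC : C = Subgroup.centralizer ({x} : Set G)) (S : Sylow 2 C) (hS : IsCyclic (S : Subgroup C)) :
    ∃ H : Subgroup G, H.index = 2 := by
  haveI : Fact (Nat.Prime 2) := ⟨Nat.prime_two⟩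
  have hxC : x ∈ C := by rw [hC, Subgroup.mem_centralizer_singleton_iff]
  obtain ⟨P, hP⟩ : ∃ P, P = (S : Subgroup C).map C.subtype := ⟨_, rfl⟩
  have hPp : IsPGroup 2 P := hP ▸ S.2.map _
  have hPC : P ≤ C := hP ▸ Subgroup.map_subtype_le _
  haveI : IsCyclic S := hS
  have hPcyc : IsCyclic P := by
    rw [hP]
    exact isCyclic_of_surjective ((S : Subgroup C).equivMapOfInjective C.subtype C.subtype_injective)
      (MulEquiv.surjective _)
  -- x ∈ P
  have hxP : x ∈ P := by
    have h1 : IsPGroup 2 ↥(P ⊔ Subgroup.zpowers x) := by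
      apply IsPGroup.to_sup_of_normal_left' hPp
      · exact CfsgLib.PSub.isPGroup_zpowers (k := 1) (by rw [hx]; rfl)
      · rw [Subgroup.zpowers_le, Subgroup.mem_normalizer_iff]
        intro h
        have hcomm : ∀ h ∈ C, x * h * x⁻¹ = h := by
          intro h hh
          rw [hC, Subgroup.mem_centralizer_singleton_iff] at hh
          rw [← hh, mul_inv_cancel_right]
        constructor
        · intro hh; rw [hcomm h (hPC hh)]; exact hh
        · intro hh
          have h2 : h = x * h * x⁻¹ := by
            have h3 := hcomm _ (hPC hh)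
            exact (mul_left_cancel (mul_right_cancel h3)).symm
          rw [h2]; exact hh
    have h2 : P ⊔ Subgroup.zpowers x ≤ C := sup_le hPC (by rw [Subgroup.zpowers_le]; exact hxC)
    have h3 := CfsgLib.PSub.subgroupOf_sylow_eq S h1 h2 (hP ▸ le_sup_left)
    rw [← hP] at h3
    rw [← h3]
    exact (le_sup_right : Subgroup.zpowers x ≤ _) (Subgroup.mem_zpowers x)
  obtain ⟨T, hT⟩ := CfsgLib.PSub.sylow_of_normalizer hPp (by
    intro R hR hPR hRN
    have hRC : R ≤ C := by
      intro g hg
      have h1 : g * x * g⁻¹ ∈ P := (Subgroup.mem_normalizer_iff.1 (hRN hg) x).1 hxP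
      have h2 := eq_of_orderOf_two hPcyc h1 hxP (by rw [CfsgLib.Invol.orderOf_conj, hx]) hx
      rw [hC, Subgroup.mem_centralizer_singleton_iff]
      exact mul_inv_eq_iff_eq_mul.1 h2
    rw [hP]; exact CfsgLib.PSub.subgroupOf_sylow_eq S hR hRC (hP ▸ hPR))
  have heven : Even (Nat.card G) := by
    rw [even_iff_two_dvd, ← hx]; exact orderOf_dvd_natCard x
  apply Cfsg.Agent.S0219.result heven T
  rw [hT]; exact hPcyc


/-- If x is an involution of a finite group G and a Sylow 2-subgroup of the centralizer of x is cyclic, then G has a subgroup of index 2; in particular G is not simple unless it has order 2. -/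
theorem result {G : Type*} [Group G] [Finite G] (x : G) (hx : orderOf x = 2) (S : Sylow 2 ↥(Subgroup.centralizer ({x} : Set G))) (hS : IsCyclic (S : Subgroup ↥(Subgroup.centralizer ({x} : Set G)))) : ∃ H : Subgroup G, H.index = 2 := by
  exact aux x hx _ rfl S hS
end Cfsg.Agent.S0220
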