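import Cfsg.Statements.S0225
import Cfsg.Agent.LibZStar3

set_option autoImplicit false
open Cfsg

namespace Cfsg.Agent.S0225


/-- If a finite group G has even order but contains no Klein four-subgroup (2-rank 1), then some involution z of G is central modulo a normal subgroup of odd order: there is a normal subgroup N of odd order containing every commutator z g z⁻¹ g⁻¹. -/
theorem result {G : Type*} [Group G] [Finite G] (heven : Even (Nat.card G)) (hrank : ∀ E : Subgroup G, ¬ IsKleinFour E) : ∃ z : G, orderOf z = 2 ∧ ∃ N : Subgroup G, N.Normal ∧ Odd (Nat.card N) ∧ ∀ g : G, z * g * z⁻¹ * g⁻¹ ∈ N := by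
  classical
  haveI : Fact (Nat.Prime 2) := ⟨Nat.prime_two⟩
  obtain ⟨x, hx⟩ : ∃ x : G, orderOf x = 2 :=
    exists_prime_orderOf_dvd_card' 2 (even_iff_two_dvd.1 heven)
  obtain ⟨S, hxS⟩ := CfsgLib.ZStar.exists_sylow_mem hx
  haveI : Nontrivial (S : Subgroup G) := ⟨⟨⟨x, hxS⟩, 1, fun he => by
    have h1 : x = 1 := congrArg Subtype.val he
    rw [h1, orderOf_one] at hx
    omega⟩⟩
  have hc := S.isPGroup'.center_nontrivial
  obtain ⟨z, hz⟩ : ∃ z : Subgroup.center (S : Subgroup G), orderOf z = 2 := by
    apply exists_prime_orderOf_dvd_card'
    have hp : IsPGroup 2 (Subgroup.center (S : Subgroup G)) := S.isPGroup'.to_subgroup _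
    obtain ⟨k, hk⟩ := hp.exists_card_eq
    rw [hk]
    apply dvd_pow_self
    rintro rfl
    rw [pow_zero] at hk
    have := Finite.one_lt_card_iff_nontrivial.2 hc
    omega
  obtain ⟨w, hw⟩ : ∃ w : G, w = ((z : (S : Subgroup G)) : G) := ⟨_, rfl⟩
  have hw2 : orderOf w = 2 := by
    rw [hw, Subgroup.orderOf_coe, Subgroup.orderOf_coe, hz]
  have hwS : w ∈ (S : Subgroup G) := hw ▸ (z : (S : Subgroup G)).2
  have hcw : ∀ y ∈ (S : Subgroup G), y * w = w * y := by
    intro y hy
    rw [hw]
    exact congrArg Subtype.val (Subgroup.mem_center_iff.1 z.2 ⟨y, hy⟩)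
  -- uniqueness
  have huniq : ∀ y ∈ (S : Subgroup G), orderOf y = 2 → y = w := by
    intro y hy hy2
    by_contra hne
    have hyw := hcw y hy
    have hww : w * w = 1 := by rw [← pow_two, ← hw2, pow_orderOf_eq_one]
    have hyy : y * y = 1 := by rw [← pow_two, ← hy2, pow_orderOf_eq_one]
    have hw1 : w ≠ 1 := by rintro h; rw [h, orderOf_one] at hw2; omega
    have hy1 : y ≠ 1 := by rintro h; rw [h, orderOf_one] at hy2; omega
    have hyw1 : y * w ≠ 1 := fun h => hne (by
      have := eq_inv_of_mul_eq_one_left h
      rw [this, inv_eq_iff_mul_eq_one]; exact hww)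
    have c1 : y * w * (y * w) = 1 := by
      calc y * w * (y * w) = y * (w * y) * w := by group
        _ = y * (y * w) * w := by rw [hyw]
        _ = (y * y) * (w * w) := by group
        _ = 1 := by rw [hyy, hww, one_mul]
    let E : Subgroup G :=
      { carrier := {1, w, y, y * w}
        mul_mem' := by
          intro a b ha hb
          simp only [Set.mem_insert_iff, Set.mem_singleton_iff] at ha hb ⊢
          rcases ha with rfl | rfl | rfl | rfl <;> rcases hb with rfl | rfl | rfl | rfl
          · left; exact one_mul _
          · right; left; exact one_mul _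
          · right; right; left; exact one_mul _
          · right; right; right; exact one_mul _
          · right; left; exact mul_one _
          · left; exact hww
          · right; right; right; exact hyw.symm
          · right; right; left
            rw [← mul_assoc, ← hyw, mul_assoc, hww, mul_one]
          · right; right; left; exact mul_one _
          · right; right; right; rfl
          · left; exact hyy
          · right; left; rw [← mul_assoc, hyy, one_mul]
          · right; right; right; exact mul_one _
          · right; right; left; rw [mul_assoc, hww, mul_one]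
          · right; left
            rw [mul_assoc, ← hyw, ← mul_assoc, hyy, one_mul]
          · left; exact c1
        one_mem' := by left; rfl
        inv_mem' := by
          intro a ha
          simp only [Set.mem_insert_iff, Set.mem_singleton_iff] at ha ⊢
          rcases ha with rfl | rfl | rfl | rfl
          · left; exact inv_one
          · right; left; rw [inv_eq_iff_mul_eq_one]; exact hww
          · right; right; left; rw [inv_eq_iff_mul_eq_one]; exact hyy
          · right; right; right; rw [inv_eq_iff_mul_eq_one]; exact c1 }
    apply hrank E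
    have hEc : ∀ a : G, a ∈ E ↔ a = 1 ∨ a = w ∨ a = y ∨ a = y * w := by
      intro a
      change a ∈ ({1, w, y, y * w} : Set G) ↔ _
      simp only [Set.mem_insert_iff, Set.mem_singleton_iff]
    have hcard : Nat.card E = 4 := by
      have h1 : ((E : Set G)) = (({1, w, y, y * w} : Finset G) : Set G) := by
        ext a
        simp only [Finset.coe_insert, Finset.coe_singleton, Set.mem_insert_iff,
          Set.mem_singleton_iff]
        exact hEc a
      have h2 : Nat.card E = (E : Set G).ncard := (Nat.card_coe_set_eq _)
      rw [h2, h1, Set.ncard_coe_finset, Finset.card_insert_of_notMem,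
        Finset.card_insert_of_notMem, Finset.card_insert_of_notMem, Finset.card_singleton]
      · rw [Finset.mem_singleton]; intro h; exact hw1 (by simpa using h.symm)
      · simp only [Finset.mem_insert, Finset.mem_singleton, not_or]
        exact ⟨fun h => hne h.symm, fun h => hy1 (by simpa using h.symm)⟩
      · simp only [Finset.mem_insert, Finset.mem_singleton, not_or]
        exact ⟨hw1.symm, hy1.symm, hyw1.symm⟩
    refine ⟨hcard, ?_⟩
    haveI : Nontrivial E := by
      rw [← Finite.one_lt_card_iff_nontrivial, hcard]; norm_num
    apply (Monoid.exponent_eq_prime_iff Nat.prime_two).2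
    intro g hg
    apply orderOf_eq_prime
    · rw [pow_two]
      apply Subtype.ext
      change (g : G) * g = 1
      rcases (hEc g).1 g.2 with h | h | h | h
      · rw [h, one_mul]
      · rw [h]; exact hww
      · rw [h]; exact hyy
      · rw [h]; exact c1
    · exact hg
  have hiso : Cfsg.IsIsolatedInvolution w :=
    (CfsgLib.Isolated.isolated_iff_sylow S hw2 hwS).2 (fun g hg =>
      huniq _ hg (by rw [CfsgLib.Invol.orderOf_conj, hw2]))
  exact ⟨w, hw2, Cfsg.oddCore G, inferInstance, CfsgLib.ZStar.oddCore_odd,
    CfsgLib.ZStar.zstar hiso⟩
end Cfsg.Agent.S0225
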