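import Cfsg.Statements.S0226
import Mathlib
import Cfsg.Agent.LibInvol

set_option autoImplicit false
open Cfsg

namespace Cfsg.Agent.S0226


/-- A finite group of even order has an odd number of involutions. -/
theorem result {G : Type*} [Group G] [Finite G] (heven : Even (Nat.card G)) : Odd (Nat.card {t : G // orderOf t = 2}) := by
  classical
  haveI := Fintype.ofFinite G
  let f : Function.End {g : G // g ≠ 1} := fun g => ⟨g.1⁻¹, by simpa using g.2⟩
  have hf : f ^ 2 ^ 1 = 1 := by
    rw [pow_one, pow_two]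
    funext g
    change f (f g) = g
    simp [f]
  haveI : Fact (Nat.Prime 2) := ⟨Nat.prime_two⟩
  have h2 := Equiv.Perm.card_fixedPoints_modEq (p := 2) (n := 1) hf
  have h3 : Fintype.card {g : G // g ≠ 1} = Fintype.card G - 1 := by
    have := Fintype.card_subtype_compl (fun g : G => g = 1)
    simpa using this
  have h4 : Nat.card {t : G // orderOf t = 2} = Fintype.card (Function.fixedPoints f) := by
    rw [← Nat.card_eq_fintype_card]
    apply Nat.card_congr
    refine ⟨fun t => ⟨⟨t.1, CfsgLib.Invol.ne_one t.2⟩, ?_⟩, fun t => ⟨t.1.1, ?_⟩, ?_, ?_⟩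
    · obtain ⟨t, ht⟩ := t
      simp [Function.mem_fixedPoints, Function.IsFixedPt, f, CfsgLib.Invol.inv_eq ht]
    · obtain ⟨⟨t, ht⟩, hf⟩ := t
      simp only [Function.mem_fixedPoints, Function.IsFixedPt, f, Subtype.mk.injEq] at hf
      apply CfsgLib.Invol.orderOf_eq_two ht
      nth_rw 1 [← hf]
      simp
    · rintro ⟨t, ht⟩; rfl
    · rintro ⟨⟨t, ht⟩, hf⟩; rfl
  rw [h4]
  rw [Nat.card_eq_fintype_card] at heven
  have h5 : 0 < Fintype.card G := Fintype.card_pos
  rw [Nat.odd_iff]
  rw [h3] at h2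
  unfold Nat.ModEq at h2
  rw [Nat.even_iff] at heven
  omega
end Cfsg.Agent.S0226
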