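import Cfsg.Statements.S0228
import Mathlib

set_option autoImplicit false
open Cfsg

namespace Cfsg.Agent.S0228


/-- A group of order 12 in which no involution is central is isomorphic to the alternating group on four letters. -/
theorem result {G : Type*} [Group G] [Finite G] (hG : Nat.card G = 12) (hz : ∀ z : G, orderOf z = 2 → z ∉ Subgroup.center G) : Nonempty (G ≃* alternatingGroup (Fin 4)) := by
  classical
  haveI : Fact (Nat.Prime 3) := ⟨Nat.prime_three⟩
  haveI : Fact (Nat.Prime 2) := ⟨Nat.prime_two⟩
  let P : Sylow 3 G := default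
  have hPc : Nat.card (P : Subgroup G) = 3 := by
    rw [P.card_eq_multiplicity, hG]
    have : (12 : ℕ).factorization 3 = 1 := by
      rw [show (12 : ℕ) = 3 ^ 1 * 4 by norm_num, Nat.factorization_mul (by norm_num) (by norm_num),
        Finsupp.add_apply, Nat.prime_three.factorization_pow, Finsupp.single_eq_same,
        Nat.factorization_eq_zero_of_not_dvd (by norm_num : ¬ 3 ∣ 4)]
    rw [this]; norm_num
  have hidx : (P : Subgroup G).index = 4 := by
    have h1 := (P : Subgroup G).card_mul_index
    rw [hPc, hG] at h1; omega
  -- the kernel of the action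
  have hcore : (P : Subgroup G).normalCore = ⊥ := by
    by_contra hne
    have hle := (P : Subgroup G).normalCore_le
    have hcP : (P : Subgroup G).normalCore = P := by
      apply Subgroup.eq_of_le_of_card_ge hle
      have h1 := Subgroup.card_dvd_of_le hle
      rw [hPc] at h1 ⊢
      rcases (Nat.dvd_prime Nat.prime_three).1 h1 with h | h
      · exact absurd (Subgroup.card_eq_one.1 h) hne
      · exact h.ge
    haveI hPn : (P : Subgroup G).Normal := by rw [← hcP]; infer_instance
    -- centralizer of `P` has even order
    have h2 : 2 ∣ Nat.card (Subgroup.centralizer ((P : Subgroup G) : Set G)) := by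
      have h3 : (Subgroup.centralizer ((P : Subgroup G) : Set G)).index ∣ 2 := by
        haveI : IsCyclic (P : Subgroup G) := isCyclic_of_prime_card hPc
        have h4 : Nat.card (MulAut (P : Subgroup G)) = 2 := by
          rw [IsCyclic.card_mulAut, hPc]; rfl
        have h5 : (MulAut.conjNormal (H := (P : Subgroup G))).ker = Subgroup.centralizer ((P : Subgroup G) : Set G) := by
          ext g
          rw [MonoidHom.mem_ker, Subgroup.mem_centralizer_iff]
          constructor
          · intro h x hx
            have h6 := congrArg (fun φ : MulAut (P : Subgroup G) => ((φ ⟨x, hx⟩ : (P : Subgroup G)) : G)) h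
            simp only [MulAut.conjNormal_apply, MulAut.one_apply] at h6
            rw [mul_inv_eq_iff_eq_mul] at h6
            exact h6.symm
          · intro h
            ext x
            rw [MulAut.conjNormal_apply, MulAut.one_apply, ← h x x.2, mul_inv_cancel_right]
        rw [← h5, Subgroup.index_ker, ← h4]
        exact Subgroup.card_subgroup_dvd_card _
      have h6 := (Subgroup.centralizer ((P : Subgroup G) : Set G)).card_mul_index
      rw [hG] at h6
      rcases (Nat.dvd_prime Nat.prime_two).1 h3 with h | h
      · rw [h] at h6; omega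
      · rw [h] at h6; omega
    obtain ⟨t, ht⟩ := exists_prime_orderOf_dvd_card' 2 h2
    have hto : orderOf (t : G) = 2 := by rw [Subgroup.orderOf_coe]; exact ht
    have h3 : IsPGroup 2 (Subgroup.zpowers (t : G)) :=
      IsPGroup.of_card (n := 1) (by rw [Nat.card_zpowers, hto, pow_one])
    obtain ⟨Q, hQ⟩ := h3.exists_le_sylow
    have hQc : Nat.card (Q : Subgroup G) = 2 ^ 2 := by
      rw [Q.card_eq_multiplicity, hG]
      have : (12 : ℕ).factorization 2 = 2 := by
        rw [show (12 : ℕ) = 2 ^ 2 * 3 by norm_num, Nat.factorization_mul (by norm_num) (by norm_num),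
          Finsupp.add_apply, Nat.prime_two.factorization_pow, Finsupp.single_eq_same,
          Nat.factorization_eq_zero_of_not_dvd (by norm_num : ¬ 2 ∣ 3)]
      rw [this]
    have hQab := IsPGroup.commutative_of_card_eq_prime_sq (p := 2) hQc
    have htQ : (t : G) ∈ (Q : Subgroup G) := hQ (Subgroup.mem_zpowers _)
    have h4 : (Q : Subgroup G) ≤ Subgroup.centralizer {(t : G)} := by
      intro x hx
      rw [Subgroup.mem_centralizer_singleton_iff]
      exact congrArg Subtype.val (hQab ⟨x, hx⟩ ⟨t, htQ⟩)
    have h5 : (P : Subgroup G) ≤ Subgroup.centralizer {(t : G)} := by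
      intro x hx
      rw [Subgroup.mem_centralizer_singleton_iff]
      exact (Subgroup.mem_centralizer_iff.1 t.2 x hx)
    have h6 := Subgroup.card_dvd_of_le h4
    have h7 := Subgroup.card_dvd_of_le h5
    rw [hQc] at h6
    rw [hPc] at h7
    have h8 : 2 ^ 2 * 3 ∣ Nat.card (Subgroup.centralizer {(t : G)}) :=
      Nat.Coprime.mul_dvd_of_dvd_of_dvd (by norm_num) h6 h7
    have h9 : Subgroup.centralizer {(t : G)} = ⊤ := by
      apply Subgroup.eq_top_of_le_card
      rw [hG]
      exact Nat.le_of_dvd Nat.card_pos h8
    apply hz t hto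
    rw [Subgroup.mem_center_iff]
    intro g
    have h10 : g ∈ Subgroup.centralizer {(t : G)} := by rw [h9]; exact Subgroup.mem_top g
    exact Subgroup.mem_centralizer_singleton_iff.1 h10
  -- the embedding
  let α := G ⧸ (P : Subgroup G)
  have hα : Nat.card α = 4 := hidx
  haveI : Fintype α := Fintype.ofFinite α
  obtain ⟨e⟩ : Nonempty (α ≃ Fin 4) := ⟨(Finite.equivFinOfCardEq hα)⟩
  let f : G →* Equiv.Perm α := MulAction.toPermHom G α
  have hf : Function.Injective f := by
    rw [← MonoidHom.ker_eq_bot_iff, ← hcore, Subgroup.normalCore_eq_ker]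
  let φ : G →* Equiv.Perm (Fin 4) := (e.permCongrHom.toMonoidHom).comp f
  have hφ : Function.Injective φ := e.permCongrHom.injective.comp hf
  have hr : φ.range = alternatingGroup (Fin 4) := by
    apply Equiv.Perm.eq_alternatingGroup_of_index_eq_two
    have h1 := φ.range.card_mul_index
    have h2 : Nat.card φ.range = 12 := by
      rw [← hG]
      exact (Nat.card_congr (MonoidHom.ofInjective hφ).toEquiv).symm
    rw [h2, Nat.card_perm, Nat.card_fin] at h1
    have : Nat.factorial 4 = 24 := rfl
    omega
  exact ⟨(MonoidHom.ofInjective hφ).trans (MulEquiv.subgroupCongr hr)⟩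
end Cfsg.Agent.S0228
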