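import Cfsg.Statements.S0229
import Mathlib
import Cfsg.Agent.LibIsolated

set_option autoImplicit false
open Cfsg

namespace Cfsg.Agent.S0229


/-- Let t be an involution of a Sylow 2-subgroup S of a finite group G, conjugate in G to no other element of S, and let s be an involution of G not conjugate to t. Then the order of st is twice an odd number. -/
theorem result {G : Type*} [Group G] [Finite G] (S : Sylow 2 G) (t : G) (ht : orderOf t = 2) (htS : t ∈ S) (hiso : ∀ g : G, g * t * g⁻¹ ∈ S → g * t * g⁻¹ = t) (s : G) (hs : orderOf s = 2) (hns : ¬ IsConj s t) : orderOf (s * t) % 4 = 2 := by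
  have hi : Cfsg.IsIsolatedInvolution t := (CfsgLib.Isolated.isolated_iff_sylow S ht htS).2 hiso
  by_contra hcon
  have hne : ¬ Odd (orderOf (s * t)) := by
    intro ho
    obtain ⟨d, -, hd⟩ := CfsgLib.Invol.conj_of_odd hs ht ho
    exact hns (isConj_iff.2 ⟨d, hd⟩)
  rw [Nat.not_odd_iff_even] at hne
  have h4 : 4 ∣ orderOf (s * t) := by
    rw [Nat.even_iff] at hne
    omega
  obtain ⟨w, -, hw2, hws, hwt, h1, -⟩ := CfsgLib.Isolated.central_invol hs ht hne
  obtain ⟨g, hg⟩ := isConj_iff.1 (h1 h4).2
  have h2 := hi.2 g (by rw [hg]; exact hwt.symm.mul_right (Commute.refl t))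
  rw [hg, mul_eq_right] at h2
  exact CfsgLib.Invol.ne_one hw2 h2
end Cfsg.Agent.S0229
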