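import Cfsg.Statements.S0231
import Mathlib
import Cfsg.Agent.LibBFH12
import Cfsg.Agent.LibBFH12b

set_option autoImplicit false
open scoped Pointwise
open Cfsg

namespace Cfsg.Agent.S0231

/-- Let T be a Sylow 2-subgroup of the finite group G which is not normal and which intersects every other Sylow 2-subgroup trivially. Then G has a single conjugacy class of involutions. -/
theorem result {G : Type*} [Group G] [Finite G] (T : Sylow 2 G) (hnn : ¬ (T : Subgroup G).Normal) (hTI : ∀ g : G, MulAut.conj g • (T : Subgroup G) ≠ T → MulAut.conj g • (T : Subgroup G) ⊓ T = ⊥) (s t : G) (hs : orderOf s = 2) (ht : orderOf t = 2) : IsConj s t := by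
  by_contra hst
  apply hnn
  have hcj : ∀ (g : G) (x : G), x ∈ (MulAut.conj g • (T : Subgroup G) : Subgroup G) ↔ g⁻¹ * x * g ∈ (T : Subgroup G) := by
    intro g x
    rw [Subgroup.mem_pointwise_smul_iff_inv_smul_mem]
    simp [MulAut.smul_def]
  -- involutions of a Sylow
  have hmeet : ∀ (z : G) (a b : G), z ≠ 1 → z ∈ (MulAut.conj a • (T : Subgroup G) : Subgroup G) →
      z ∈ (MulAut.conj b • (T : Subgroup G) : Subgroup G) →
      (MulAut.conj a • (T : Subgroup G) : Subgroup G) = MulAut.conj b • (T : Subgroup G) := by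
    intro z a b hz ha hb
    rw [hcj] at ha hb
    by_contra hne
    have h1 := hTI (b⁻¹ * a) (by
      intro h
      apply hne
      rw [map_mul, mul_smul, map_inv, inv_smul_eq_iff] at h
      exact h)
    have h2 : b⁻¹ * z * b ∈ (MulAut.conj (b⁻¹ * a) • (T : Subgroup G) ⊓ T : Subgroup G) := by
      refine Subgroup.mem_inf.2 ⟨?_, hb⟩
      rw [hcj]
      have : (b⁻¹ * a)⁻¹ * (b⁻¹ * z * b) * (b⁻¹ * a) = a⁻¹ * z * a := by group
      rw [this]; exact ha
    rw [h1, Subgroup.mem_bot] at h2
    apply hz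
    have : z = b * (b⁻¹ * z * b) * b⁻¹ := by group
    rw [this, h2]; group
  -- a 2-subgroup lies in a conjugate of T
  have hsyl : ∀ x y : G, orderOf x = 2 → orderOf y = 2 → Commute x y →
      ∃ a : G, x ∈ (MulAut.conj a • (T : Subgroup G) : Subgroup G) ∧ y ∈ (MulAut.conj a • (T : Subgroup G) : Subgroup G) := by
    intro x y hx hy hxy
    have : Fact (Nat.Prime 2) := ⟨Nat.prime_two⟩
    have hp1 : IsPGroup 2 (Subgroup.zpowers x) := IsPGroup.of_card (n := 1) (by rw [Nat.card_zpowers, hx, pow_one])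
    have hp2 : IsPGroup 2 (Subgroup.zpowers y) := IsPGroup.of_card (n := 1) (by rw [Nat.card_zpowers, hy, pow_one])
    have hp : IsPGroup 2 (Subgroup.zpowers x ⊔ Subgroup.zpowers y : Subgroup G) := by
      apply IsPGroup.to_sup_of_normal_right' hp1 hp2
      rw [Subgroup.zpowers_le, Subgroup.mem_normalizer_iff]
      intro h
      have hk : ∀ h : G, h ∈ Subgroup.zpowers y → x * h * x⁻¹ = h := by
        rintro h ⟨i, rfl⟩
        have := (hxy.zpow_right i).eq
        show x * y ^ i * x⁻¹ = y ^ i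
        rw [this, mul_inv_cancel_right]
      constructor
      · intro hh; rw [hk h hh]; exact hh
      · intro hh
        have h1 := hk _ hh
        have h2 : x * h * x⁻¹ = h := by
          have := mul_left_cancel (mul_right_cancel h1)
          exact this
        rwa [h2] at hh
    obtain ⟨Q, hQ⟩ := hp.exists_le_sylow
    obtain ⟨a, ha⟩ := MulAction.exists_smul_eq G T Q
    have hQ' : (Q : Subgroup G) = MulAut.conj a • (T : Subgroup G) := by rw [← ha]; rfl
    rw [hQ'] at hQ
    exact ⟨a, hQ (le_sup_left (a := Subgroup.zpowers x) (Subgroup.mem_zpowers x)),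
      hQ (le_sup_right (b := Subgroup.zpowers y) (Subgroup.mem_zpowers y))⟩
  -- all conjugates of s are in the Sylow of t
  obtain ⟨a, hta, -⟩ := hsyl t t ht ht (Commute.refl t)
  have hall : ∀ g : G, g * s * g⁻¹ ∈ (MulAut.conj a • (T : Subgroup G) : Subgroup G) := by
    intro g
    have hs' : orderOf (g * s * g⁻¹) = 2 := by rw [CfsgLib.Invol.orderOf_conj, hs]
    obtain ⟨z, hz, -, hz1, hz2⟩ := CfsgLib.BFH12.exists_common hs' ht (fun h => hst (by
      refine IsConj.trans ?_ h
      exact isConj_iff.2 ⟨g, rfl⟩))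
    obtain ⟨b, hb1, hb2⟩ := hsyl _ _ hz hs' hz1
    obtain ⟨c, hc1, hc2⟩ := hsyl _ _ hz ht hz2
    have h1 := hmeet z b c (CfsgLib.Invol.ne_one hz) hb1 hc1
    have h2 := hmeet t c a (CfsgLib.Invol.ne_one ht) hc2 hta
    rw [h1, h2] at hb2
    exact hb2
  have hs0 := hall 1
  rw [one_mul, inv_one, mul_one] at hs0
  have hinv : ∀ g : G, (MulAut.conj (g * a) • (T : Subgroup G) : Subgroup G) = MulAut.conj a • (T : Subgroup G) := by
    intro g
    refine hmeet (g * s * g⁻¹) (g * a) a (CfsgLib.Invol.ne_one (by rw [CfsgLib.Invol.orderOf_conj, hs])) ?_ (hall g)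
    rw [hcj] at hs0 ⊢
    have : (g * a)⁻¹ * (g * s * g⁻¹) * (g * a) = a⁻¹ * s * a := by group
    rw [this]; exact hs0
  have hT : ∀ g : G, (MulAut.conj g • (T : Subgroup G) : Subgroup G) = T := by
    intro g
    have h1 := hinv (g * a⁻¹)
    have h2 := hinv a⁻¹
    rw [inv_mul_cancel_right] at h1
    rw [inv_mul_cancel, map_one, one_smul] at h2
    rw [h1]; exact h2.symm
  refine ⟨fun n hn g => ?_⟩
  have h1 : g * n * g⁻¹ ∈ (MulAut.conj g • (T : Subgroup G) : Subgroup G) := by
    rw [hcj]
    have : g⁻¹ * (g * n * g⁻¹) * g = n := by group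
    rw [this]; exact hn
  rw [hT] at h1
  exact h1

end Cfsg.Agent.S0231
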