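import Cfsg.Statements.S0234
import Mathlib
import Cfsg.Agent.LibBFH12
import Cfsg.Agent.LibBFH12b
import Cfsg.Agent.S0144

set_option autoImplicit false
open Cfsg

namespace Cfsg.Agent.S0234

open scoped commutatorElement

theorem invA5 : (Finset.univ.filter fun t : alternatingGroup (Fin 5) => t ≠ 1 ∧ t * t = 1).card = 15 := by
  decide +kernel



/-- In a finite simple group G of even order greater than 2, the number n of involutions satisfies 3n < |G|. -/
theorem result {G : Type*} [Group G] [Finite G] [IsSimpleGroup G] (heven : Even (Nat.card G)) (hgt : 2 < Nat.card G) : 3 * Nat.card {t : G // orderOf t = 2} < Nat.card G := by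
  classical
  have hs : IsSimpleGroup G := inferInstance
  by_contra hcon
  push Not at hcon
  have hGpos : 0 < Nat.card G := Nat.card_pos
  -- no normal subgroups
  have hnoidx2 : ∀ H : Subgroup G, H.index ≠ 2 := by
    intro H hH
    have hn := Subgroup.normal_of_index_eq_two hH
    rcases hs.eq_bot_or_eq_top_of_normal H hn with h | h
    · rw [h, Subgroup.index_bot] at hH; omega
    · rw [h, Subgroup.index_top] at hH; omega
  have hnotsolv : ¬ Group.IsSolvable G := by
    intro hsolv
    have hc := Group.IsSolvable.commutator_lt_top_of_nontrivial G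
    rcases hs.eq_bot_or_eq_top_of_normal (commutator G) inferInstance with h | h
    · have hcomm : ∀ a b : G, a * b = b * a := by
        intro a b
        have h1 : ⁅a, b⁆ ∈ commutator G := Subgroup.commutator_mem_commutator (Subgroup.mem_top a) (Subgroup.mem_top b)
        rw [h, Subgroup.mem_bot, commutatorElement_eq_one_iff_mul_comm] at h1
        exact h1
      obtain ⟨t, ht⟩ := CfsgLib.Invol.exists_involution (G := G) heven
      have hn : (Subgroup.zpowers t).Normal := by
        refine ⟨fun x hx g => ?_⟩
        rw [hcomm g x, mul_inv_cancel_right]; exact hx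
      rcases hs.eq_bot_or_eq_top_of_normal (Subgroup.zpowers t) hn with h1 | h1
      · have := Nat.card_zpowers t
        rw [h1, Subgroup.card_bot, ht] at this; omega
      · have := Nat.card_zpowers t
        rw [h1, Subgroup.card_top, ht] at this; omega
    · exact hc.ne h
  obtain ⟨H, hH, h⟩ := CfsgLib.BFH12.index_bound heven (by
    rcases hs.eq_bot_or_eq_top_of_normal (Subgroup.center G) inferInstance with h1 | h1
    · rw [h1, Subgroup.card_bot]; exact odd_one
    · exfalso
      apply hnotsolv
      have : IsMulCommutative G := ⟨⟨fun a b => (Subgroup.mem_center_iff.1 (h1 ▸ Subgroup.mem_top b : b ∈ Subgroup.center G)) a⟩⟩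
      exact Group.isSolvable_of_comm (fun a b => (Subgroup.mem_center_iff.1 (h1 ▸ Subgroup.mem_top b : b ∈ Subgroup.center G)) a))
  set N := Nat.card {t : G // orderOf t = 2} with hN
  have hNpos : 0 < N := CfsgLib.BFH12.n_pos heven
  have h := h.resolve_left (hnoidx2 H)
  have hidx6 : H.index < 6 := by
    have h4 : Nat.card G * (Nat.card G + N) ≤ (3 * N) * (3 * N + N) :=
      Nat.mul_le_mul hcon (by omega)
    have h5 : N ^ 2 * (2 * H.index) < N ^ 2 * 12 := by
      calc N ^ 2 * (2 * H.index) = 2 * H.index * N ^ 2 := by ring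
        _ < _ := h
        _ ≤ _ := h4
        _ = _ := by ring
    have h6 := Nat.lt_of_mul_lt_mul_left h5
    omega
  have hfin : Finite (G ⧸ H) := inferInstance
  let f := MulAction.toPermHom G (G ⧸ H)
  have hf : Function.Injective f := by
    rw [← MonoidHom.ker_eq_bot_iff]
    rcases hs.eq_bot_or_eq_top_of_normal f.ker inferInstance with h1 | h1
    · exact h1
    · exfalso
      apply hH
      rw [eq_top_iff]
      intro g _
      have h2 : g ∈ f.ker := by rw [h1]; trivial
      have h3 := MonoidHom.mem_ker.1 h2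
      have h4 : f g (QuotientGroup.mk 1) = QuotientGroup.mk 1 := by rw [h3]; rfl
      have h5 : (QuotientGroup.mk (g * 1) : G ⧸ H) = QuotientGroup.mk 1 := h4
      rw [mul_one] at h5
      have h6 := QuotientGroup.eq.1 h5.symm
      simpa using h6
  have hdvd : Nat.card G ∣ (H.index).factorial := by
    have h1 := Subgroup.card_dvd_of_injective f hf
    rw [Nat.card_perm] at h1
    exact h1
  have hidx0 : 0 < H.index := Nat.pos_of_ne_zero Subgroup.index_ne_zero_of_finite
  have hidx1 : H.index ≠ 1 := fun h1 => hH (Subgroup.index_eq_one.1 h1)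
  have hsolv23 : ∀ a b : ℕ, Nat.card G ≠ 2 ^ a * 3 ^ b := fun a b hab =>
    hnotsolv (Cfsg.Agent.S0144.result 2 3 a b Nat.prime_two Nat.prime_three hab)
  have hsolv25 : ∀ a b : ℕ, Nat.card G ≠ 2 ^ a * 5 ^ b := fun a b hab =>
    hnotsolv (Cfsg.Agent.S0144.result 2 5 a b Nat.prime_two Nat.prime_five hab)
  have h24 : ¬ Nat.card G ∣ 24 := by
    intro h1
    have hle := Nat.le_of_dvd (by norm_num) h1
    have h2 := hsolv23 0 0
    have h3 := hsolv23 0 1
    have h4 := hsolv23 1 0
    have h5 := hsolv23 1 1
    have h6 := hsolv23 2 0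
    have h7 := hsolv23 2 1
    have h8 := hsolv23 3 0
    have h9 := hsolv23 3 1
    norm_num at h2 h3 h4 h5 h6 h7 h8 h9
    interval_cases hcase : Nat.card G <;> omega
  have hidx5 : H.index = 5 := by
    have h1 : H.index = 2 ∨ H.index = 3 ∨ H.index = 4 ∨ H.index = 5 := by omega
    rcases h1 with h1 | h1 | h1 | h1
    · exact absurd h1 (hnoidx2 H)
    · exfalso; apply h24; rw [h1] at hdvd; exact hdvd.trans (by decide)
    · exfalso; apply h24; rw [h1] at hdvd; exact hdvd.trans (by decide)
    · exact h1
  -- an embedding in Perm (Fin 5)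
  have hcard5 : Nat.card (G ⧸ H) = 5 := hidx5
  obtain ⟨e⟩ : Nonempty ((G ⧸ H) ≃ Fin 5) := ⟨Nat.equivFinOfCardPos (by rw [hcard5]; norm_num) |>.trans (finCongr hcard5)⟩
  let F : G →* Equiv.Perm (Fin 5) := (e.permCongrHom.toMonoidHom).comp f
  have hF : Function.Injective F := e.permCongrHom.injective.comp hf
  have hsign : ∀ g : G, F g ∈ alternatingGroup (Fin 5) := by
    intro g
    have hk : (Equiv.Perm.sign.comp F).ker = ⊤ := by
      rcases hs.eq_bot_or_eq_top_of_normal (Equiv.Perm.sign.comp F).ker inferInstance with h1 | h1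
      · exfalso
        have h2 : Function.Injective (Equiv.Perm.sign.comp F) := (MonoidHom.ker_eq_bot_iff _).1 h1
        have h3 := Nat.card_le_card_of_injective _ h2
        rw [Nat.card_eq_fintype_card (α := ℤˣ), Fintype.card_units_int] at h3
        omega
      · exact h1
    have h1 : g ∈ (Equiv.Perm.sign.comp F).ker := by rw [hk]; trivial
    exact Equiv.Perm.mem_alternatingGroup.2 (MonoidHom.mem_ker.1 h1)
  let A : G →* alternatingGroup (Fin 5) := F.codRestrict _ hsign
  have hA : Function.Injective A := by
    intro x y hxy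
    exact hF (congrArg Subtype.val hxy)
  have hcardA : Nat.card (alternatingGroup (Fin 5)) = 60 := by
    rw [nat_card_alternatingGroup]; simp [Nat.factorial]
  have hd60 : Nat.card G ∣ 60 := by
    rw [← hcardA]; exact Subgroup.card_dvd_of_injective A hA
  have hd5 : 5 ∣ Nat.card G := by
    rw [← hidx5]; exact H.index_dvd_card
  have h2d : 2 ∣ Nat.card G := heven.two_dvd
  have hG : Nat.card G = 10 ∨ Nat.card G = 20 ∨ Nat.card G = 30 ∨ Nat.card G = 60 := by
    have hle := Nat.le_of_dvd (by norm_num) hd60
    obtain ⟨c, hc⟩ : 10 ∣ Nat.card G := Nat.Coprime.mul_dvd_of_dvd_of_dvd (by norm_num) h2d hd5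
    rw [hc] at hd60 hle ⊢
    have hc6 : c ∣ 6 := Nat.dvd_of_mul_dvd_mul_left (k := 10) (by norm_num) hd60
    have := Nat.le_of_dvd (by norm_num) hc6
    interval_cases c <;> omega
  have hsimpleA : IsSimpleGroup (alternatingGroup (Fin 5)) := alternatingGroup.isSimpleGroup_five
  rcases hG with hG | hG | hG | hG
  · exact hsolv25 1 1 (by rw [hG]; norm_num)
  · exact hsolv25 2 1 (by rw [hG]; norm_num)
  · -- index 2 in A5
    have h1 : A.range.index = 2 := by
      have h2 := A.range.index_mul_card
      rw [Nat.card_congr (MonoidHom.ofInjective hA).toEquiv.symm, hG, hcardA] at h2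
      omega
    have hn := Subgroup.normal_of_index_eq_two h1
    rcases hsimpleA.eq_bot_or_eq_top_of_normal A.range hn with h2 | h2
    · rw [h2, Subgroup.index_bot, hcardA] at h1; omega
    · rw [h2, Subgroup.index_top] at h1; omega
  · have hbij : Function.Bijective A := by
      have : Finite (alternatingGroup (Fin 5)) := inferInstance
      exact (Nat.bijective_iff_injective_and_card A).2 ⟨hA, by rw [hG, hcardA]⟩
    let eA := MulEquiv.ofBijective A hbij
    have h1 : N = 15 := by
      rw [hN, ← invA5, ← Fintype.card_subtype, ← Nat.card_eq_fintype_card]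
      refine Nat.card_congr (eA.toEquiv.subtypeEquiv fun t => ?_)
      rw [CfsgLib.Invol.orderOf_eq_two_iff]
      show t ≠ 1 ∧ t * t = 1 ↔ eA t ≠ 1 ∧ eA t * eA t = 1
      rw [← map_mul, Ne, Ne, map_eq_one_iff eA eA.injective, map_eq_one_iff eA eA.injective]
    omega

end Cfsg.Agent.S0234
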