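import Cfsg.Statements.S0236
import Mathlib
import Cfsg.Agent.LibInvol

set_option autoImplicit false
open Cfsg

namespace Cfsg.Agent.S0236


/-- If x is an involution, the number of ordered pairs (u, v) of involutions with uv = x, plus one, equals the number of involutions in the centralizer of x. -/
theorem result {G : Type*} [Group G] [Finite G] (x : G) (hx : orderOf x = 2) : Nat.card {p : G × G // orderOf p.1 = 2 ∧ orderOf p.2 = 2 ∧ p.1 * p.2 = x} + 1 = Nat.card {t : G // orderOf t = 2 ∧ Commute t x} := by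
  classical
  have key : {p : G × G // orderOf p.1 = 2 ∧ orderOf p.2 = 2 ∧ p.1 * p.2 = x} ≃
      {t : {t : G // orderOf t = 2 ∧ Commute t x} // t.1 ≠ x} := by
    refine ⟨fun p => ⟨⟨p.1.1, p.2.1, ?_⟩, ?_⟩, fun t => ⟨(t.1.1, t.1.1 * x), t.1.2.1, ?_, ?_⟩, ?_, ?_⟩
    · obtain ⟨⟨u, v⟩, hu, hv, huv⟩ := p
      simp only at hu hv huv ⊢
      have h1 := CfsgLib.Invol.left_inverts hu hv
      rw [huv, CfsgLib.Invol.inv_eq hx] at h1
      exact mul_inv_eq_iff_eq_mul.1 h1
    · obtain ⟨⟨u, v⟩, hu, hv, huv⟩ := p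
      simp only at hu hv huv ⊢
      rintro rfl
      rw [mul_eq_left] at huv
      exact CfsgLib.Invol.ne_one hv huv
    · obtain ⟨⟨t, ht, htx⟩, hne⟩ := t
      simp only at hne ⊢
      apply CfsgLib.Invol.orderOf_eq_two
      · intro h
        apply hne
        have := eq_inv_of_mul_eq_one_left h
        rwa [CfsgLib.Invol.inv_eq hx] at this
      · calc t * x * (t * x) = (t * x) * (x * t) := by rw [htx.eq]
          _ = t * (x * x) * t := by group
          _ = 1 := by rw [CfsgLib.Invol.mul_self hx, mul_one, CfsgLib.Invol.mul_self ht]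
    · obtain ⟨⟨t, ht, htx⟩, hne⟩ := t
      simp only
      rw [← mul_assoc, CfsgLib.Invol.mul_self ht, one_mul]
    · rintro ⟨⟨u, v⟩, hu, hv, huv⟩
      simp only at hu hv huv
      subst huv
      simp only [Subtype.mk.injEq, Prod.mk.injEq, true_and]
      rw [← mul_assoc, CfsgLib.Invol.mul_self hu, one_mul]
    · rintro ⟨⟨t, ht, htx⟩, hne⟩
      rfl
  rw [Nat.card_congr key]
  haveI := Fintype.ofFinite {t : G // orderOf t = 2 ∧ Commute t x}
  haveI := Fintype.ofFinite {t : {t : G // orderOf t = 2 ∧ Commute t x} // t.1 ≠ x}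
  rw [Nat.card_eq_fintype_card, Nat.card_eq_fintype_card]
  have h2 := Fintype.card_subtype_compl (fun t : {t : G // orderOf t = 2 ∧ Commute t x} => t.1 = x)
  have h3 : Fintype.card {t : {t : G // orderOf t = 2 ∧ Commute t x} // t.1 = x} = 1 := by
    rw [Fintype.card_eq_one_iff]
    refine ⟨⟨⟨x, hx, Commute.refl x⟩, rfl⟩, ?_⟩
    rintro ⟨⟨y, hy⟩, hyx⟩
    simp only at hyx
    subst hyx
    rfl
  have h4 : 0 < Fintype.card {t : G // orderOf t = 2 ∧ Commute t x} :=
    Fintype.card_pos_iff.2 ⟨⟨x, hx, Commute.refl x⟩⟩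
  have h5 : Fintype.card {t : {t : G // orderOf t = 2 ∧ Commute t x} // t.1 ≠ x} =
    Fintype.card {t : {t : G // orderOf t = 2 ∧ Commute t x} // ¬ t.1 = x} := by
    apply Fintype.card_congr; rfl
  omega
end Cfsg.Agent.S0236
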