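import Cfsg.Statements.S0237
import Mathlib

set_option autoImplicit false
open Cfsg

namespace Cfsg.Agent.S0237


/-- If x is real (conjugate to x⁻¹) in a finite group G, the number of g with g x g⁻¹ = x⁻¹ equals |C_G(x)|. -/
theorem result {G : Type*} [Group G] [Finite G] (x : G) (hreal : IsConj x x⁻¹) : Nat.card {g : G // g * x * g⁻¹ = x⁻¹} = Nat.card (Subgroup.centralizer ({x} : Set G)) := by
  obtain ⟨c, hc⟩ := isConj_iff.1 hreal
  apply Nat.card_congr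
  refine ⟨fun g => ⟨c⁻¹ * g.1, ?_⟩, fun z => ⟨c * z.1, ?_⟩, ?_, ?_⟩
  · obtain ⟨g, hg⟩ := g
    rw [Subgroup.mem_centralizer_singleton_iff]
    simp only
    have h1 : g * x = x⁻¹ * g := mul_inv_eq_iff_eq_mul.1 hg
    have h2 : c * x = x⁻¹ * c := mul_inv_eq_iff_eq_mul.1 hc
    have h3 : c⁻¹ * x⁻¹ = x * c⁻¹ := by
      rw [eq_mul_inv_iff_mul_eq, mul_assoc, ← h2]; group
    rw [mul_assoc, h1, ← mul_assoc, h3, mul_assoc]
  · obtain ⟨z, hz⟩ := z
    rw [Subgroup.mem_centralizer_singleton_iff] at hz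
    simp only
    rw [mul_inv_rev]
    have : c * z * x * (z⁻¹ * c⁻¹) = c * (z * x * z⁻¹) * c⁻¹ := by group
    rw [this, mul_inv_eq_iff_eq_mul.2 hz, hc]
  · rintro ⟨g, hg⟩; simp
  · rintro ⟨z, hz⟩; simp
end Cfsg.Agent.S0237
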