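import Cfsg.Statements.S0238
import Mathlib
import Cfsg.Agent.S0236
import Cfsg.Agent.S0237

set_option autoImplicit false
open Cfsg

namespace Cfsg.Agent.S0238


/-- For every x in a finite group G, the number c of ordered pairs (u, v) of involutions with uv = x is at most |C_G(x)|; c = 0 when x is not conjugate to x⁻¹; and c + 2 ≤ |C_G(x)| when x is an involution. -/
theorem result {G : Type*} [Group G] [Finite G] (x : G) : Nat.card {p : G × G // orderOf p.1 = 2 ∧ orderOf p.2 = 2 ∧ p.1 * p.2 = x} ≤ Nat.card (Subgroup.centralizer ({x} : Set G)) ∧ (¬ IsConj x x⁻¹ → Nat.card {p : G × G // orderOf p.1 = 2 ∧ orderOf p.2 = 2 ∧ p.1 * p.2 = x} = 0) ∧ (orderOf x = 2 → Nat.card {p : G × G // orderOf p.1 = 2 ∧ orderOf p.2 = 2 ∧ p.1 * p.2 = x} + 2 ≤ Nat.card (Subgroup.centralizer ({x} : Set G))) := by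
  classical
  have hinj : Nat.card {p : G × G // orderOf p.1 = 2 ∧ orderOf p.2 = 2 ∧ p.1 * p.2 = x} ≤
      Nat.card {g : G // g * x * g⁻¹ = x⁻¹} := by
    apply Nat.card_le_card_of_injective (fun p => (⟨p.1.1, ?_⟩ : {g : G // g * x * g⁻¹ = x⁻¹}))
    · rintro ⟨⟨u, v⟩, hu, hv, huv⟩ ⟨⟨u', v'⟩, hu', hv', huv'⟩ h
      simp only [Subtype.mk.injEq] at h hu hv huv hu' hv' huv' ⊢
      subst h
      rw [← huv] at huv'
      rw [mul_left_cancel huv']
    · obtain ⟨⟨u, v⟩, hu, hv, huv⟩ := p
      simp only at hu hv huv ⊢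
      rw [← huv]
      exact CfsgLib.Invol.left_inverts hu hv
  have h0 : ¬ IsConj x x⁻¹ → Nat.card {p : G × G // orderOf p.1 = 2 ∧ orderOf p.2 = 2 ∧ p.1 * p.2 = x} = 0 := by
    intro hn
    have : Nat.card {g : G // g * x * g⁻¹ = x⁻¹} = 0 := by
      rw [Nat.card_eq_zero]
      left
      constructor
      rintro ⟨g, hg⟩
      exact hn (isConj_iff.2 ⟨g, hg⟩)
    omega
  refine ⟨?_, h0, ?_⟩
  · by_cases hr : IsConj x x⁻¹
    · rw [← Cfsg.Agent.S0237.result x hr]; exact hinj
    · rw [h0 hr]; exact Nat.zero_le _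
  · intro hx
    have h1 := Cfsg.Agent.S0236.result x hx
    have h2 : Nat.card {t : G // orderOf t = 2 ∧ Commute t x} + 1 ≤ Nat.card (Subgroup.centralizer ({x} : Set G)) := by
      have h3 : Nat.card (Option {t : G // orderOf t = 2 ∧ Commute t x}) ≤ Nat.card (Subgroup.centralizer ({x} : Set G)) := by
        apply Nat.card_le_card_of_injective (fun o => match o with
          | none => (1 : Subgroup.centralizer ({x} : Set G))
          | some t => ⟨t.1, by rw [Subgroup.mem_centralizer_singleton_iff]; exact t.2.2⟩)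
        rintro (_ | ⟨t, ht, htx⟩) (_ | ⟨s, hs, hsx⟩) h
        · rfl
        · exfalso
          have := congrArg Subtype.val h
          simp only [Subgroup.coe_one] at this
          exact CfsgLib.Invol.ne_one hs this.symm
        · exfalso
          have := congrArg Subtype.val h
          simp only [Subgroup.coe_one] at this
          exact CfsgLib.Invol.ne_one ht this
        · have := congrArg Subtype.val h
          simp only at this
          subst this
          rfl
      rwa [Finite.card_option] at h3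
    omega
end Cfsg.Agent.S0238
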