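import Cfsg.Statements.S0239
import Mathlib

set_option autoImplicit false
open Cfsg

namespace Cfsg.Agent.S0239


/-- If some nontrivial element x of a finite group G is conjugate to x⁻¹, then |G| is even. -/
theorem result {G : Type*} [Group G] [Finite G] (x : G) (hx : x ≠ 1) (hreal : IsConj x x⁻¹) : Even (Nat.card G) := by
  classical
  by_contra hodd
  rw [Nat.not_even_iff_odd] at hodd
  obtain ⟨c, hc⟩ := isConj_iff.1 hreal
  -- c^2 commutes with x, and c has odd order, so c commutes with x
  have ho : Odd (orderOf c) := hodd.of_dvd_nat (orderOf_dvd_natCard c)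
  obtain ⟨k, hk⟩ := ho
  have h2 : c * (c * x * c⁻¹) * c⁻¹ = x := by
    rw [hc, ← inv_inj]
    have h5 : (c * x⁻¹ * c⁻¹)⁻¹ = c * x * c⁻¹ := by group
    rw [h5, hc]
  have hcomm : Commute (c ^ 2) x := by
    have h4 : c ^ 2 * x * (c ^ 2)⁻¹ = x := by
      rw [pow_two]
      calc c * c * x * (c * c)⁻¹ = c * (c * x * c⁻¹) * c⁻¹ := by group
      _ = x := h2
    exact mul_inv_eq_iff_eq_mul.1 h4
  have hcomm2 : Commute c x := by
    have h3 : (c ^ 2) ^ (k + 1) = c := by
      rw [← pow_mul]
      have : 2 * (k + 1) = orderOf c + 1 := by omega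
      rw [this, pow_succ, pow_orderOf_eq_one, one_mul]
    have := hcomm.pow_left (k + 1)
    rwa [h3] at this
  have hxx : x = x⁻¹ := by
    rw [← hc]
    rw [hcomm2.eq, mul_inv_cancel_right]
  have hx2 : orderOf x = 2 := by
    apply orderOf_eq_prime _ hx
    rw [pow_two]
    nth_rw 1 [hxx]
    simp
  have : 2 ∣ Nat.card G := hx2 ▸ orderOf_dvd_natCard x
  rw [← even_iff_two_dvd] at this
  exact (Nat.not_even_iff_odd.2 hodd) this
end Cfsg.Agent.S0239
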