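import Cfsg.Statements.S0240
import Mathlib
import Cfsg.Agent.LibInvol

set_option autoImplicit false
open Cfsg

namespace Cfsg.Agent.S0240


/-- Let G be a finite group with n involutions and H a subgroup with |H|·(n+1) > |G|. Then some nontrivial h ∈ H is strongly real in G: an involution t of G satisfies t h t⁻¹ = h⁻¹. -/
theorem result {G : Type*} [Group G] [Finite G] (H : Subgroup G) (hH : Nat.card G < Nat.card H * (Nat.card {t : G // orderOf t = 2} + 1)) : ∃ h : G, h ∈ H ∧ h ≠ 1 ∧ ∃ t : G, orderOf t = 2 ∧ t * h * t⁻¹ = h⁻¹ := by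
  classical
  -- pigeonhole on cosets
  have h1 : ∃ a b : Option {t : G // orderOf t = 2}, a ≠ b ∧
      (QuotientGroup.mk (a.elim 1 (fun t => t.1)) : G ⧸ H) = QuotientGroup.mk (b.elim 1 (fun t => t.1)) := by
    by_contra hcon
    push_neg at hcon
    have hinj : Function.Injective (fun a : Option {t : G // orderOf t = 2} =>
        (QuotientGroup.mk (a.elim 1 (fun t => t.1)) : G ⧸ H)) := by
      intro a b hab
      by_contra hne
      exact hcon a b hne hab
    have h2 := Nat.card_le_card_of_injective _ hinj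
    rw [Finite.card_option] at h2
    have h3 : Nat.card G = Nat.card (G ⧸ H) * Nat.card H := Subgroup.card_eq_card_quotient_mul_card_subgroup H
    rw [h3, mul_comm] at hH
    have h4 := Nat.mul_le_mul_left (Nat.card H) h2
    omega
  obtain ⟨a, b, hne, hab⟩ := h1
  rw [QuotientGroup.eq] at hab
  refine ⟨_, hab, ?_, ?_⟩
  · intro h
    apply hne
    have h5 := inv_mul_eq_one.1 h
    rcases a with _ | a <;> rcases b with _ | b
    · rfl
    · exfalso; exact CfsgLib.Invol.ne_one b.2 h5.symm
    · exfalso; exact CfsgLib.Invol.ne_one a.2 h5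
    · simp only [Option.elim_some] at h5
      rw [Subtype.ext h5]
  · rcases a with _ | a <;> rcases b with _ | b
    · exact absurd rfl hne
    · refine ⟨b.1, b.2, ?_⟩
      simp [CfsgLib.Invol.inv_eq b.2, CfsgLib.Invol.mul_self b.2]
    · refine ⟨a.1, a.2, ?_⟩
      simp [CfsgLib.Invol.inv_eq a.2, CfsgLib.Invol.mul_self a.2]
    · refine ⟨a.1, a.2, ?_⟩
      simp only [Option.elim_some]
      rw [CfsgLib.Invol.inv_eq a.2]
      have := CfsgLib.Invol.left_inverts a.2 b.2
      rwa [CfsgLib.Invol.inv_eq a.2] at this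
end Cfsg.Agent.S0240
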