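import Cfsg.Statements.S0241
import Mathlib
import Cfsg.Agent.LibInvol

set_option autoImplicit false
open Cfsg

namespace Cfsg.Agent.S0241


/-- If x ≠ 1 is conjugate to x⁻¹ in a finite group G and |C_G(x)| is odd, then some involution t satisfies t x t⁻¹ = x⁻¹. -/
theorem result {G : Type*} [Group G] [Finite G] (x : G) (hx : x ≠ 1) (hreal : IsConj x x⁻¹) (hodd : Odd (Nat.card (Subgroup.centralizer ({x} : Set G)))) : ∃ t : G, orderOf t = 2 ∧ t * x * t⁻¹ = x⁻¹ := by
  obtain ⟨c, hc⟩ := isConj_iff.1 hreal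
  have hxne : x ≠ x⁻¹ := by
    intro h
    have hx2 : orderOf x = 2 := by
      apply CfsgLib.Invol.orderOf_eq_two hx
      nth_rw 1 [h]; simp
    have hmem : x ∈ Subgroup.centralizer ({x} : Set G) := by
      rw [Subgroup.mem_centralizer_singleton_iff]
    have h2 : orderOf (⟨x, hmem⟩ : Subgroup.centralizer ({x} : Set G)) ∣ Nat.card (Subgroup.centralizer ({x} : Set G)) :=
      orderOf_dvd_natCard _
    rw [Subgroup.orderOf_mk, hx2] at h2
    rw [Nat.odd_iff] at hodd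
    omega
  have hc2 : c ^ 2 ∈ Subgroup.centralizer ({x} : Set G) := by
    rw [Subgroup.mem_centralizer_singleton_iff]
    have h4 : c ^ 2 * x * (c ^ 2)⁻¹ = x := by
      rw [pow_two]
      calc c * c * x * (c * c)⁻¹ = c * (c * x * c⁻¹) * c⁻¹ := by group
      _ = c * x⁻¹ * c⁻¹ := by rw [hc]
      _ = (c * x * c⁻¹)⁻¹ := by group
      _ = x := by rw [hc, inv_inv]
    exact mul_inv_eq_iff_eq_mul.1 h4
  have hm : Odd (orderOf (c ^ 2)) := by
    have h2 : orderOf (⟨c ^ 2, hc2⟩ : Subgroup.centralizer ({x} : Set G)) ∣ Nat.card (Subgroup.centralizer ({x} : Set G)) :=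
      orderOf_dvd_natCard _
    rw [Subgroup.orderOf_mk] at h2
    exact hodd.of_dvd_nat h2
  obtain ⟨k, hk⟩ := hm
  have hinv : c ^ (2 * k + 1) * x * (c ^ (2 * k + 1))⁻¹ = x⁻¹ := by
    have h1 : ∀ k : ℕ, c ^ (2 * k) * x * (c ^ (2 * k))⁻¹ = x := by
      intro k
      rw [pow_mul]
      have := (Subgroup.centralizer ({x} : Set G)).pow_mem hc2 k
      rw [Subgroup.mem_centralizer_singleton_iff] at this
      exact mul_inv_eq_iff_eq_mul.2 this
    calc c ^ (2 * k + 1) * x * (c ^ (2 * k + 1))⁻¹ = c * (c ^ (2 * k) * x * (c ^ (2 * k))⁻¹) * c⁻¹ := by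
          rw [pow_succ']; group
    _ = x⁻¹ := by rw [h1, hc]
  refine ⟨c ^ (2 * k + 1), ?_, hinv⟩
  apply CfsgLib.Invol.orderOf_eq_two
  · intro h
    rw [h] at hinv
    apply hxne
    simpa using hinv
  · rw [← hk, ← pow_add, ← two_mul, pow_mul, pow_orderOf_eq_one]
end Cfsg.Agent.S0241
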