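import Cfsg.Statements.S0243
import Cfsg.Agent.LibH22Lin

set_option autoImplicit false
open Cfsg

namespace Cfsg.Agent.S0243

/-- Order of PSL_n(q): gcd(n, q-1) (q-1) |PSL_n(q)| = prod_{i<n} (q^n - q^i). -/
theorem result {F : Type*} [Field F] [Fintype F] {q : ℕ} (hF : Fintype.card F = q) (n : ℕ) (hn : 2 ≤ n) : Nat.gcd n (q - 1) * ((q - 1) * Nat.card (Matrix.ProjectiveSpecialLinearGroup (Fin n) F)) = ∏ i : Fin n, (q ^ n - q ^ (i : ℕ)) := by
  classical
  subst hF
  have h1 : 1 ≤ n := by omega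
  rw [← Cfsg.Agent.H22.card_SL rfl n h1, ← Cfsg.Agent.H22.card_center_SL (F := F) n h1,
    Subgroup.card_eq_card_quotient_mul_card_subgroup (Subgroup.center (Matrix.SpecialLinearGroup (Fin n) F))]
  ring

end Cfsg.Agent.S0243
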