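import Cfsg.Statements.S0244
-- import your own Cfsg.Agent.* helpers here

set_option autoImplicit false
open Cfsg

namespace Cfsg.Agent.S0244
lemma aux {R : Type*} [CommRing R] (B : Matrix (Fin 2) (Fin 2) R) (e : Fin 1 ⊕ Fin 1 ≃ Fin 2)
    (h0 : e (Sum.inl 0) = 0) (h1 : e (Sum.inr 0) = 1) :
    (B.submatrix e e) * Matrix.J (Fin 1) R * (B.submatrix e e).transpose = B.det • Matrix.J (Fin 1) R := by
  rw [Matrix.det_fin_two]
  ext i j
  rcases i with i | i <;> rcases j with j | j <;> fin_cases i <;> fin_cases j <;>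
    simp [Matrix.mul_apply, Matrix.J, Matrix.fromBlocks, h0, h1] <;> ring

/-- Sp_2 = SL_2: a matrix on Fin 1 ⊕ Fin 1 lies in Mathlib's symplectic group iff its determinant is 1. -/
theorem result {R : Type*} [CommRing R] (A : Matrix (Fin 1 ⊕ Fin 1) (Fin 1 ⊕ Fin 1) R) : A ∈ Matrix.symplecticGroup (Fin 1) R ↔ A.det = 1 := by
  rw [SymplecticGroup.mem_iff]
  have key : A * Matrix.J (Fin 1) R * A.transpose = A.det • Matrix.J (Fin 1) R := by
    have e : Fin 1 ⊕ Fin 1 ≃ Fin 2 := finSumFinEquiv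
    have h := aux (A.submatrix (finSumFinEquiv (m := 1) (n := 1)).symm (finSumFinEquiv (m := 1) (n := 1)).symm)
      (finSumFinEquiv (m := 1) (n := 1)) rfl rfl
    have h2 : (A.submatrix (finSumFinEquiv (m := 1) (n := 1)).symm (finSumFinEquiv (m := 1) (n := 1)).symm).submatrix
      (finSumFinEquiv (m := 1) (n := 1)) (finSumFinEquiv (m := 1) (n := 1)) = A := by
      ext i j; simp
    rw [h2, Matrix.det_submatrix_equiv_self] at h
    exact h
  rw [key]
  constructor
  · intro h
    have := congrFun (congrFun h (Sum.inr 0)) (Sum.inl 0)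
    simpa [Matrix.J, Matrix.fromBlocks] using this
  · intro h; rw [h, one_smul]

end Cfsg.Agent.S0244
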