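import Cfsg.Statements.S0254
import Mathlib
import Mathlib
import Cfsg.Agent.LibDkW29

set_option autoImplicit false
open Cfsg

namespace Cfsg.Agent.S0254

open CfsgLib.Dk29 MulAction

/-- PSL_2(9) is isomorphic to A_6. -/
theorem result {F : Type*} [Field F] [Fintype F] (hF : Fintype.card F = 9) : Nonempty (Matrix.ProjectiveSpecialLinearGroup (Fin 2) F ≃* alternatingGroup (Fin 6)) := by
  classical
  have hodd : Odd (Fintype.card F) := by rw [hF]; decide
  haveI := Matrix.ProjectiveSpecialLinearGroup.rank_two_simple (F := F) (by rw [Nat.card_eq_fintype_card, hF]; norm_num)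
  have h1 := card_PSL (F := F)
  have hc : Nat.card (Matrix.ProjectiveSpecialLinearGroup (Fin 2) F) = 360 := by
    generalize Nat.card (Matrix.ProjectiveSpecialLinearGroup (Fin 2) F) = C at h1
    rw [hF] at h1
    norm_num at h1
    omega
  obtain ⟨H, ⟨e⟩⟩ := exists_a5 (F := F) hodd (by rw [hc]; norm_num)
  have hH : H.index = 6 := by
    have h2 := Subgroup.card_mul_index H
    rw [Nat.card_congr e.toEquiv, card_a5, hc] at h2
    omega
  obtain ⟨f, hf⟩ := simple_embed H (by rintro rfl; rw [Subgroup.index_top] at hH; omega) hH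
  exact Cfsg.Agent.H22.iso_alternating (by norm_num) f hf (by rw [hc]; rfl)

end Cfsg.Agent.S0254
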