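import Cfsg.Statements.S0255
import Mathlib
import Cfsg.Agent.LibPL11e
import Cfsg.Agent.LibH22Lin
import Cfsg.Agent.LibH22SL

set_option autoImplicit false
set_option linter.all false
open Cfsg

namespace Cfsg.Agent.S0255

open Subgroup

theorem card_psl3 {K : Type*} [Field K] [Fintype K] (hK : Fintype.card K = 2) :
    Nat.card (Matrix.ProjectiveSpecialLinearGroup (Fin 3) K) = 168 := by
  have h1 := Cfsg.Agent.H22.card_SL (F := K) (q := 2) hK 3 (by norm_num)
  have h2 := Cfsg.Agent.H22.card_center_SL (F := K) 3 (by norm_num)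
  rw [hK] at h2
  have h3 : Nat.card (Matrix.SpecialLinearGroup (Fin 3) K) = 168 := by
    simpa [Fin.prod_univ_succ] using h1
  have h4 := Subgroup.card_eq_card_quotient_mul_card_subgroup (Subgroup.center (Matrix.SpecialLinearGroup (Fin 3) K))
  rw [h2, h3] at h4
  change _ = Nat.card (Matrix.ProjectiveSpecialLinearGroup (Fin 3) K) * _ at h4
  have h5 : Nat.gcd 3 (2 - 1) = 1 := rfl
  rw [h5, mul_one] at h4
  exact h4.symm

/-- PSL_2(7) is isomorphic to PSL_3(2). -/
theorem result {F K : Type*} [Field F] [Fintype F] [Field K] [Fintype K] (hF : Fintype.card F = 7) (hK : Fintype.card K = 2) : Nonempty (Matrix.ProjectiveSpecialLinearGroup (Fin 2) F ≃* Matrix.ProjectiveSpecialLinearGroup (Fin 3) K) := by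
  haveI := CfsgLib.PL11.simple_psl_seven hF
  haveI : IsSimpleGroup (Matrix.ProjectiveSpecialLinearGroup (Fin 3) K) := Cfsg.Agent.H22.PSLn_simple (by simp)
  exact CfsgLib.PL11.unique_168 (CfsgLib.PL11.card_psl_seven hF) (card_psl3 hK)

end Cfsg.Agent.S0255
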