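import Cfsg.Statements.S0257
import Mathlib
import Mathlib
import Cfsg.Agent.LibDkU29

set_option autoImplicit false
open Cfsg

namespace Cfsg.Agent.S0257

open CfsgLib.Dk29

/-- SL_2(3) has a normal subgroup of index 3 isomorphic to the quaternion group of order 8, and its centre has order 2. -/
theorem result {F : Type*} [Field F] [Fintype F] (hF : Fintype.card F = 3) : (∃ Q : Subgroup (Matrix.SpecialLinearGroup (Fin 2) F), Q.Normal ∧ Q.index = 3 ∧ Nonempty (Q ≃* QuaternionGroup 2)) ∧ Nat.card (Subgroup.center (Matrix.SpecialLinearGroup (Fin 2) F)) = 2 := by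
  classical
  have hodd : Odd (Fintype.card F) := by rw [hF]; decide
  haveI : Fact (Nat.Prime 2) := ⟨Nat.prime_two⟩
  have h2 := two_ne_zero_of_odd hodd
  have hcen : Nat.card (Subgroup.center (Matrix.SpecialLinearGroup (Fin 2) F)) = 2 := by
    have h1 : ((Subgroup.center (Matrix.SpecialLinearGroup (Fin 2) F) : Subgroup _) : Set (Matrix.SpecialLinearGroup (Fin 2) F)) = {1, -1} := by
      ext z
      rw [SetLike.mem_coe, CfsgLib.Fus21.PSL2.mem_center, Set.mem_insert_iff, Set.mem_singleton_iff]
      constructor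
      · rintro (h | h)
        · exact Or.inl (Subtype.ext h)
        · exact Or.inr (Subtype.ext (by rw [h]; simp))
      · rintro (rfl | rfl)
        · exact Or.inl rfl
        · right; simp
    have h3 : Nat.card (Subgroup.center (Matrix.SpecialLinearGroup (Fin 2) F)) = ((Subgroup.center (Matrix.SpecialLinearGroup (Fin 2) F) : Subgroup _) : Set (Matrix.SpecialLinearGroup (Fin 2) F)).ncard := rfl
    rw [h3, h1, Set.ncard_pair]
    intro h
    have h4 := congrArg (fun g : Matrix.SpecialLinearGroup (Fin 2) F => (g : Matrix (Fin 2) (Fin 2) F) 0 0) h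
    simp only [Matrix.SpecialLinearGroup.coe_one, Matrix.SpecialLinearGroup.coe_neg, Matrix.one_apply_eq, Matrix.neg_apply] at h4
    apply h2
    linear_combination h4
  refine ⟨?_, hcen⟩
  obtain ⟨V, hV⟩ := exists_klein (F := F) hodd
  have hmod : Fintype.card F % 8 = 3 ∨ Fintype.card F % 8 = 5 := by rw [hF]; left; rfl
  have hN := psl_norm_twelve hmod V hV
  have hcard := card_PSL (F := F)
  have hc12 : Nat.card (Matrix.ProjectiveSpecialLinearGroup (Fin 2) F) = 12 := by
    rw [hF] at hcard
    generalize Nat.card (Matrix.ProjectiveSpecialLinearGroup (Fin 2) F) = C at hcard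
    norm_num at hcard
    omega
  have hNtop : Subgroup.normalizer (V : Set (Matrix.ProjectiveSpecialLinearGroup (Fin 2) F)) = ⊤ := by
    apply Subgroup.eq_top_of_card_eq
    rw [hN, hc12]
  have hVn : V.Normal := Subgroup.normalizer_eq_top_iff.mp hNtop
  have hidxV : V.index = 3 := by
    have h1 := Subgroup.card_mul_index V
    rw [hV.card_four, hc12] at h1
    omega
  let Q := V.comap (CfsgLib.Fus21.PSL2.pr F)
  have hQn : Q.Normal := hVn.comap _
  have hQi : Q.index = 3 := by
    rw [← hidxV]
    exact Subgroup.index_comap_of_surjective _ CfsgLib.Fus21.PSL2.pr_surj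
  have hcSL : Nat.card (Matrix.SpecialLinearGroup (Fin 2) F) = 24 := by
    rw [CfsgLib.Fus21.PSL2.card_sl2, hF]; norm_num
  have hQc : Nat.card Q = 8 := by
    have h1 := Subgroup.card_mul_index Q
    rw [hQi, hcSL] at h1
    omega
  have hQp : IsPGroup 2 Q := IsPGroup.of_card (n := 3) (by rw [hQc]; norm_num)
  let P : Sylow 2 (Matrix.SpecialLinearGroup (Fin 2) F) := hQp.toSylow (by rw [hQi]; norm_num)
  obtain ⟨k, hk, ⟨e⟩⟩ := quat_sylow hodd (MonoidHom.id _) Function.injective_id
    (CfsgLib.Fus21.PSL2.exists_noncomm (Nat.odd_iff.mp hodd) (two_ne_zero_of_odd hodd)) P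
  have hPc : Nat.card (P : Subgroup (Matrix.SpecialLinearGroup (Fin 2) F)) = 8 := hQc
  haveI : NeZero (2 ^ k) := ⟨by positivity⟩
  rw [Nat.card_congr e.toEquiv, Nat.card_eq_fintype_card, QuaternionGroup.card] at hPc
  have hk1 : k = 1 := by
    have h3 : 2 ^ k = 2 ^ 1 := by omega
    exact Nat.pow_right_injective (le_refl 2) h3
  rw [hk1] at e
  exact ⟨Q, hQn, hQi, ⟨e⟩⟩

end Cfsg.Agent.S0257
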