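import Cfsg.Statements.S0263
import Cfsg.Agent.LibH22GL2

set_option autoImplicit false
open Cfsg

namespace Cfsg.Agent.S0263
lemma sylow_card_of_factor {G : Type*} [Group G] [Finite G] {p : ℕ} [hp : Fact p.Prime] (P : Sylow p G)
    {a m : ℕ} (h : Nat.card G = p ^ a * m) (hm : ¬ p ∣ m) : Nat.card P = p ^ a := by
  rw [Sylow.card_eq_multiplicity, h]
  have hm0 : m ≠ 0 := by rintro rfl; exact hm (dvd_zero _)
  rw [Nat.factorization_mul (pow_ne_zero _ hp.out.ne_zero) hm0]
  simp [hp.out.factorization_pow, Nat.factorization_eq_zero_of_not_dvd hm]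

lemma prod_formula (q n : ℕ) (hq : 2 ≤ q) : ∏ i : Fin n, (q ^ n - q ^ (i : ℕ)) =
    q ^ (n * (n - 1) / 2) * ∏ i ∈ Finset.range n, (q ^ (i + 1) - 1) := by
  rw [Finset.prod_range_reflect (fun i => q ^ (i + 1) - 1) n |>.symm, Fin.prod_univ_eq_prod_range (fun i => q ^ n - q ^ i) n,
    ← Finset.sum_range_id, ← Finset.prod_pow_eq_pow_sum, ← Finset.prod_mul_distrib]
  refine Finset.prod_congr rfl fun i hi => ?_
  rw [Finset.mem_range] at hi
  have h1 : n - 1 - i + 1 = n - i := by omega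
  rw [h1, Nat.mul_sub, mul_one, ← pow_add]
  congr 2; omega

/-- A Sylow p-subgroup of GL_n(q), p the characteristic, has order q^(n(n-1)/2). -/
theorem result {F : Type*} [Field F] [Fintype F] {q : ℕ} (hF : Fintype.card F = q) (p : ℕ) [Fact p.Prime] [CharP F p] (n : ℕ) (P : Sylow p (Matrix.GeneralLinearGroup (Fin n) F)) : Nat.card P = q ^ (n * (n - 1) / 2) := by
  classical
  subst hF
  have hq : 2 ≤ Fintype.card F := Fintype.one_lt_card
  obtain ⟨f, hf, hcf⟩ := Cfsg.Agent.H22.card_eq_prime_pow (F := F) p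
  have h1 := Matrix.card_GL_field (𝔽 := F) n
  rw [prod_formula _ _ hq] at h1
  have hp : p.Prime := Fact.out
  have h2 : ¬ p ∣ ∏ i ∈ Finset.range n, (Fintype.card F ^ (i + 1) - 1) := by
    rw [Prime.dvd_finset_prod_iff hp.prime]
    rintro ⟨i, _, hi⟩
    have h3 : p ∣ Fintype.card F ^ (i + 1) := by
      exact dvd_pow (Cfsg.Agent.H22.dvd_card_F p) (by omega)
    have h4 : 1 ≤ Fintype.card F ^ (i + 1) := Nat.one_le_pow _ _ (by omega)
    have h5 := (Nat.dvd_sub h3 hi)
    rw [Nat.sub_sub_self h4] at h5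
    exact hp.one_lt.ne' (Nat.dvd_one.1 h5)
  rw [hcf, ← pow_mul] at h1
  rw [hcf, ← pow_mul]
  exact sylow_card_of_factor P h1 (by rw [← hcf]; exact h2)

end Cfsg.Agent.S0263
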