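import Cfsg.Statements.S0264
import Cfsg.Agent.LibH22SL
import Cfsg.Agent.LibH22GL2

set_option autoImplicit false
open Cfsg

namespace Cfsg.Agent.S0264
open Matrix Cfsg.Agent.H22 in
open scoped commutatorElement in
lemma transvection_mem {F : Type*} [Field F] {n : ℕ} {a : F} (ha0 : a ≠ 0) (ha1 : a ≠ 1) {i j : Fin n} (hij : i ≠ j) (c : F) :
    Matrix.SpecialLinearGroup.toGL (Matrix.SpecialLinearGroup.transvection hij c) ∈ commutator (Matrix.GeneralLinearGroup (Fin n) F) := by
  classical
  let d : Matrix.GeneralLinearGroup (Fin n) F := Matrix.GeneralLinearGroup.mkOfDetNeZero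
    (Matrix.diagonal (fun k => if k = i then a else 1)) (by
      rw [Matrix.det_diagonal, Finset.prod_ite_eq' Finset.univ i]; simpa using ha0)
  have h1 : a - 1 ≠ 0 := sub_ne_zero_of_ne ha1
  have key : d * Matrix.SpecialLinearGroup.toGL (Matrix.SpecialLinearGroup.transvection hij (c / (a - 1))) =
      Matrix.SpecialLinearGroup.toGL (Matrix.SpecialLinearGroup.transvection hij (a * (c / (a - 1)))) * d := by
    apply gl_ext
    show (Matrix.diagonal (fun k => if k = i then a else 1)) * (Matrix.SpecialLinearGroup.transvection hij (c / (a - 1)) : Matrix (Fin n) (Fin n) F) =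
      (Matrix.SpecialLinearGroup.transvection hij (a * (c / (a - 1))) : Matrix (Fin n) (Fin n) F) * Matrix.diagonal (fun k => if k = i then a else 1)
    rw [Matrix.SpecialLinearGroup.transvection_coe, Matrix.SpecialLinearGroup.transvection_coe]
    ext s t
    rw [Matrix.diagonal_mul, Matrix.mul_diagonal]
    simp only [Matrix.add_apply, Matrix.one_apply, Matrix.single_apply]
    split_ifs <;> grind
  have h2 : ⁅d, Matrix.SpecialLinearGroup.toGL (Matrix.SpecialLinearGroup.transvection hij (c / (a - 1)))⁆ =
      Matrix.SpecialLinearGroup.toGL (Matrix.SpecialLinearGroup.transvection hij c) := by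
    rw [commutatorElement_def, key, mul_inv_cancel_right, ← map_inv, Matrix.SpecialLinearGroup.transvection_inv,
      ← map_mul, ← Matrix.SpecialLinearGroup.transvection_add]
    congr 2
    field_simp
    ring
  rw [← h2]
  exact Subgroup.commutator_mem_commutator (Subgroup.mem_top _) (Subgroup.mem_top _)

/-- GL_n(F)' = SL_n(F) (as the kernel of det), for every field F and every n, except n = 2 over the field of two elements. -/
theorem result {F : Type*} [Field F] (n : ℕ) (h : n = 2 → ∃ a : F, a ≠ 0 ∧ a ≠ 1) : commutator (Matrix.GeneralLinearGroup (Fin n) F) = (Matrix.GeneralLinearGroup.det : Matrix.GeneralLinearGroup (Fin n) F →* Fˣ).ker := by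
  classical
  apply le_antisymm
  · exact Abelianization.commutator_subset_ker _
  · rw [Cfsg.Agent.H22.ker_det_eq_range_toGL]
    rintro _ ⟨s, rfl⟩
    have hcases : n = 0 ∨ n = 1 ∨ n = 2 ∨ 3 ≤ n := by omega
    rcases hcases with rfl | rfl | rfl | hn
    · have : s = 1 := by
        apply Subtype.ext
        ext i; exact i.elim0
      rw [this, map_one]; exact one_mem _
    · have : s = 1 := by
        apply Subtype.ext
        have hs := s.2
        rw [Matrix.det_fin_one] at hs
        ext i j
        rw [Subsingleton.elim i 0, Subsingleton.elim j 0]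
        simpa using hs
      rw [this, map_one]; exact one_mem _
    · obtain ⟨a, ha0, ha1⟩ := h rfl
      induction s using Cfsg.Agent.H22.SLn.transvection_induction with
      | htransvec i j hij c => exact transvection_mem ha0 ha1 hij c
      | hmul A B hA hB => rw [map_mul]; exact mul_mem hA hB
    · have h3 := Cfsg.Agent.H22.SLn_perfect (F := F) (ι := Fin n) (by simpa using hn)
      have h4 : s ∈ commutator (Matrix.SpecialLinearGroup (Fin n) F) := by rw [h3]; trivial
      have h5 := Subgroup.mem_map_of_mem Matrix.SpecialLinearGroup.toGL h4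
      rw [commutator_def, Subgroup.map_commutator] at h5
      exact Subgroup.commutator_mono le_top le_top h5

end Cfsg.Agent.S0264
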