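import Cfsg.Statements.S0266
import Cfsg.Agent.LibH22GL2

set_option autoImplicit false
open scoped MatrixGroups
open Cfsg

namespace Cfsg.Agent.S0266
open scoped LinearAlgebra.Projectivization MatrixGroups in
lemma gl_of_basis {F : Type*} [Field F] {a b a' b' : Fin 2 → F} (h : LinearIndependent F ![a, b])
    (h' : LinearIndependent F ![a', b']) : ∃ g : GL (Fin 2) F, g • a = a' ∧ g • b = b' := by
  let B := basisOfLinearIndependentOfCardEqFinrank h (by simp)
  let B' := basisOfLinearIndependentOfCardEqFinrank h' (by simp)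
  let e := B.equiv B' (Equiv.refl _)
  have he : ∀ i, e (B i) = B' i := fun i => by simp [e]
  refine ⟨Matrix.GeneralLinearGroup.toLin.symm (LinearMap.GeneralLinearGroup.ofLinearEquiv e), ?_, ?_⟩
  · have h1 : ∀ v, (Matrix.GeneralLinearGroup.toLin.symm (LinearMap.GeneralLinearGroup.ofLinearEquiv e)) • v = e v := by
      intro v
      show ((Matrix.GeneralLinearGroup.toLin.symm (LinearMap.GeneralLinearGroup.ofLinearEquiv e) : GL (Fin 2) F) : Matrix (Fin 2) (Fin 2) F).mulVec v = e v
      have h2 := Matrix.GeneralLinearGroup.toLin_apply (Matrix.GeneralLinearGroup.toLin.symm (LinearMap.GeneralLinearGroup.ofLinearEquiv e)) v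
      rw [MulEquiv.apply_symm_apply] at h2
      rw [Matrix.mulVecLin_apply] at h2
      exact h2.symm
    rw [h1]
    have := he 0
    simpa [B, B'] using this
  · have h1 : ∀ v, (Matrix.GeneralLinearGroup.toLin.symm (LinearMap.GeneralLinearGroup.ofLinearEquiv e)) • v = e v := by
      intro v
      show ((Matrix.GeneralLinearGroup.toLin.symm (LinearMap.GeneralLinearGroup.ofLinearEquiv e) : GL (Fin 2) F) : Matrix (Fin 2) (Fin 2) F).mulVec v = e v
      have h2 := Matrix.GeneralLinearGroup.toLin_apply (Matrix.GeneralLinearGroup.toLin.symm (LinearMap.GeneralLinearGroup.ofLinearEquiv e)) v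
      rw [MulEquiv.apply_symm_apply] at h2
      rw [Matrix.mulVecLin_apply] at h2
      exact h2.symm
    rw [h1]
    have := he 1
    simpa [B, B'] using this

open scoped LinearAlgebra.Projectivization MatrixGroups in
/-- three distinct points have adapted representatives -/
lemma three_points {F : Type*} [Field F] (p q r : ℙ F (Fin 2 → F)) (hpq : p ≠ q) (hpr : p ≠ r) (hqr : q ≠ r) :
    ∃ (a b : Fin 2 → F) (hab : LinearIndependent F ![a, b]) (ha : a ≠ 0) (hb : b ≠ 0) (hs : a + b ≠ 0),
      p = Projectivization.mk F a ha ∧ q = Projectivization.mk F b hb ∧ r = Projectivization.mk F (a + b) hs := by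
  have h1 : LinearIndependent F ![p.rep, q.rep] := Projectivization.linearIndependent_pair_iff_ne.2 hpq
  let B := basisOfLinearIndependentOfCardEqFinrank h1 (by simp)
  have hB0 : B 0 = p.rep := by simp [B]
  have hB1 : B 1 = q.rep := by simp [B]
  have hr := B.sum_repr r.rep
  rw [Fin.sum_univ_two, hB0, hB1] at hr
  generalize B.repr r.rep 0 = s at hr
  generalize B.repr r.rep 1 = t at hr
  have hs : s ≠ 0 := by
    rintro rfl
    rw [zero_smul, zero_add] at hr
    apply hqr
    rw [← Projectivization.mk_rep q, ← Projectivization.mk_rep r, Eq.comm, Projectivization.mk_eq_mk_iff']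
    exact ⟨t, hr⟩
  have ht : t ≠ 0 := by
    rintro rfl
    rw [zero_smul, add_zero] at hr
    apply hpr
    rw [← Projectivization.mk_rep p, ← Projectivization.mk_rep r, Eq.comm, Projectivization.mk_eq_mk_iff']
    exact ⟨s, hr⟩
  have hsum : s • p.rep + t • q.rep ≠ 0 := by rw [hr]; exact r.rep_nonzero
  refine ⟨s • p.rep, t • q.rep, ?_, smul_ne_zero hs p.rep_nonzero, smul_ne_zero ht q.rep_nonzero, hsum, ?_, ?_, ?_⟩
  · rw [LinearIndependent.pair_iff] at h1 ⊢
    intro x y hxy
    rw [smul_smul, smul_smul] at hxy
    obtain ⟨h2, h3⟩ := h1 _ _ hxy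
    exact ⟨(mul_eq_zero.1 h2).resolve_right hs, (mul_eq_zero.1 h3).resolve_right ht⟩
  · conv_lhs => rw [← Projectivization.mk_rep p]
    rw [Eq.comm, Projectivization.mk_eq_mk_iff']
    exact ⟨s, rfl⟩
  · conv_lhs => rw [← Projectivization.mk_rep q]
    rw [Eq.comm, Projectivization.mk_eq_mk_iff']
    exact ⟨t, rfl⟩
  · conv_lhs => rw [← Projectivization.mk_rep r]
    rw [Eq.comm, Projectivization.mk_eq_mk_iff']
    exact ⟨1, by rw [one_smul, hr]⟩

/-- PGL_2(F) is sharply 3-transitive on the projective line: it is 3-transitive and the stabiliser of three distinct points is trivial. -/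
theorem result {F : Type*} [Field F] : MulAction.IsMultiplyPretransitive (Matrix.ProjGenLinGroup (Fin 2) F) (Projectivization F (Fin 2 → F)) 3 ∧ ∀ (g : Matrix.ProjGenLinGroup (Fin 2) F) (a b c : Projectivization F (Fin 2 → F)), a ≠ b → a ≠ c → b ≠ c → g • a = a → g • b = b → g • c = c → g = 1 := by
  constructor
  · rw [MulAction.isMultiplyPretransitive_iff]
    intro x y
    obtain ⟨a, b, hab, ha, hb, hs, h1, h2, h3⟩ := three_points (x 0) (x 1) (x 2)
      (fun h => by have := x.injective h; simp at this) (fun h => by have := x.injective h; simp at this)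
      (fun h => by have := x.injective h; simp at this)
    obtain ⟨a', b', hab', ha', hb', hs', h1', h2', h3'⟩ := three_points (y 0) (y 1) (y 2)
      (fun h => by have := y.injective h; simp at this) (fun h => by have := y.injective h; simp at this)
      (fun h => by have := y.injective h; simp at this)
    obtain ⟨g, hga, hgb⟩ := gl_of_basis hab hab'
    refine ⟨Matrix.ProjGenLinGroup.mk g, ?_⟩
    apply DFunLike.ext
    intro i
    show Matrix.ProjGenLinGroup.mk g • x i = y i
    fin_cases i
    · show Matrix.ProjGenLinGroup.mk g • x 0 = y 0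
      rw [h1, h1', Projectivization.PGL.mk_smul_mk]
      congr 1
    · show Matrix.ProjGenLinGroup.mk g • x 1 = y 1
      rw [h2, h2', Projectivization.PGL.mk_smul_mk]
      congr 1
    · show Matrix.ProjGenLinGroup.mk g • x 2 = y 2
      rw [h3, h3', Projectivization.PGL.mk_smul_mk]
      congr 1
      rw [smul_add, hga, hgb]
  · intro g p q r hpq hpr hqr hp hq hr
    induction g using Matrix.ProjGenLinGroup.induction_on with
    | mk g =>
      obtain ⟨a, b, hab, ha, hb, hs, rfl, rfl, rfl⟩ := three_points p q r hpq hpr hqr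
      rw [Projectivization.PGL.mk_smul_mk, Projectivization.mk_eq_mk_iff'] at hp hq hr
      obtain ⟨s, hs'⟩ := hp
      obtain ⟨t, ht⟩ := hq
      obtain ⟨u, hu⟩ := hr
      rw [smul_add, smul_add, ← hs', ← ht] at hu
      have h4 : (u - s) • a + (u - t) • b = 0 := by
        rw [sub_smul, sub_smul]
        have : u • a - s • a + (u • b - t • b) = (u • a + u • b) - (s • a + t • b) := by abel
        rw [this, hu, sub_self]
      obtain ⟨h5, h6⟩ := LinearIndependent.pair_iff.1 hab _ _ h4
      have hus : u = s := sub_eq_zero.1 h5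
      have hut : u = t := sub_eq_zero.1 h6
      subst hus
      subst hut
      have hu0 : u ≠ 0 := by
        rintro rfl
        rw [zero_smul] at hs'
        have : g • a ≠ 0 := (smul_ne_zero_iff_ne g).2 ha
        exact this hs'.symm
      rw [Matrix.ProjGenLinGroup.mk_eq_one, Matrix.GeneralLinearGroup.center_eq_range_scalar]
      refine ⟨Units.mk0 u hu0, ?_⟩
      -- g = scalar u
      let B := basisOfLinearIndependentOfCardEqFinrank hab (by simp)
      have hB0 : B 0 = a := by simp [B]
      have hB1 : B 1 = b := by simp [B]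
      apply Cfsg.Agent.H22.gl_ext
      apply Matrix.toLin'.injective
      apply B.ext
      intro i
      have hsc : ∀ v : Fin 2 → F, (Matrix.toLin' ((Matrix.GeneralLinearGroup.scalar (Fin 2) (Units.mk0 u hu0) : Matrix.GeneralLinearGroup (Fin 2) F) : Matrix (Fin 2) (Fin 2) F)) v = u • v := by
        intro v
        rw [Matrix.toLin'_apply, Matrix.GeneralLinearGroup.coe_scalar]
        ext j
        simp [Matrix.scalar_apply, Matrix.mulVec_diagonal]
      rw [hsc]
      fin_cases i
      · show u • B 0 = Matrix.toLin' (g : Matrix (Fin 2) (Fin 2) F) (B 0)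
        rw [hB0]; exact hs'
      · show u • B 1 = Matrix.toLin' (g : Matrix (Fin 2) (Fin 2) F) (B 1)
        rw [hB1]; exact ht

end Cfsg.Agent.S0266
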