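import Cfsg.Statements.S0267
import Cfsg.Agent.S0266
import Cfsg.Agent.LibH22Fin

set_option autoImplicit false
open Cfsg

namespace Cfsg.Agent.S0267

/-- SL_2(q) is 3-transitive on the q+1 points of the projective line if and only if q is even. -/
theorem result {F : Type*} [Field F] [Fintype F] : MulAction.IsMultiplyPretransitive (Matrix.SpecialLinearGroup (Fin 2) F) (Projectivization F (Fin 2 → F)) 3 ↔ ringChar F = 2 := by
  classical
  constructor
  · intro h
    by_contra hchar
    obtain ⟨α, hα⟩ := FiniteField.exists_nonsquare hchar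
    have hα0 : α ≠ 0 := by rintro rfl; exact hα IsSquare.zero
    rw [MulAction.isMultiplyPretransitive_iff] at h
    have he0 : (Pi.single 0 1 : Fin 2 → F) ≠ 0 := Pi.single_ne_zero_iff.2 one_ne_zero
    have he1 : (Pi.single 1 1 : Fin 2 → F) ≠ 0 := Pi.single_ne_zero_iff.2 one_ne_zero
    have hx : ∀ β : F, β ≠ 0 → (![1, β] : Fin 2 → F) ≠ 0 := by
      intro β _ h; have := congrFun h 0; simp at this
    have n1 : ∀ β (hβ : β ≠ 0), Projectivization.mk F _ he0 ≠ Projectivization.mk F _ (hx β hβ) := by
      intro β hβ h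
      rw [Projectivization.mk_eq_mk_iff'] at h
      obtain ⟨a, ha⟩ := h
      have h0 := congrFun ha 0
      have h1 := congrFun ha 1
      simp at h0 h1
      rcases h1 with h1 | h1
      · rw [h1] at h0; exact zero_ne_one h0
      · exact hβ h1
    have n2 : ∀ β (hβ : β ≠ 0), Projectivization.mk F _ he1 ≠ Projectivization.mk F _ (hx β hβ) := by
      intro β hβ h
      rw [Projectivization.mk_eq_mk_iff'] at h
      obtain ⟨a, ha⟩ := h
      have h0 := congrFun ha 0
      have h1 := congrFun ha 1
      simp at h0 h1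
      rw [h0] at h1; simp at h1
    have n3 : Projectivization.mk F _ he0 ≠ Projectivization.mk F _ he1 := by
      intro h
      rw [Projectivization.mk_eq_mk_iff'] at h
      obtain ⟨a, ha⟩ := h
      have h0 := congrFun ha 0
      simp at h0
    let X : ∀ (β : F) (hβ : β ≠ 0), Fin 3 ↪ Projectivization F (Fin 2 → F) := fun β hβ =>
      ⟨![Projectivization.mk F _ he0, Projectivization.mk F _ he1, Projectivization.mk F _ (hx β hβ)], by
        intro i j hij
        fin_cases i <;> fin_cases j <;> simp at hij ⊢
        · exact n3 hij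
        · exact n1 β hβ hij
        · exact n3 hij.symm
        · exact n2 β hβ hij
        · exact n1 β hβ hij.symm
        · exact n2 β hβ hij.symm⟩
    obtain ⟨g, hg⟩ := h (X 1 one_ne_zero) (X α hα0)
    have g0 : g • Projectivization.mk F _ he0 = Projectivization.mk F _ he0 := congrArg (fun z => z 0) hg
    have g1 : g • Projectivization.mk F _ he1 = Projectivization.mk F _ he1 := congrArg (fun z => z 1) hg
    have g2 : g • Projectivization.mk F _ (hx 1 one_ne_zero) = Projectivization.mk F _ (hx α hα0) := congrArg (fun z => z 2) hg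
    rw [Projectivization.smul_mk, Projectivization.mk_eq_mk_iff'] at g0 g1 g2
    obtain ⟨a, ha⟩ := g0
    obtain ⟨b, hb⟩ := g1
    obtain ⟨c, hc⟩ := g2
    have hdet := g.2
    rw [Matrix.det_fin_two] at hdet
    have e0 : ∀ v : Fin 2 → F, (g • v) 0 = (g : Matrix (Fin 2) (Fin 2) F) 0 0 * v 0 + (g : Matrix (Fin 2) (Fin 2) F) 0 1 * v 1 := by
      intro v
      rw [Matrix.SpecialLinearGroup.smul_def]
      simp [Matrix.mulVec, dotProduct, Fin.sum_univ_two]
    have e1 : ∀ v : Fin 2 → F, (g • v) 1 = (g : Matrix (Fin 2) (Fin 2) F) 1 0 * v 0 + (g : Matrix (Fin 2) (Fin 2) F) 1 1 * v 1 := by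
      intro v
      rw [Matrix.SpecialLinearGroup.smul_def]
      simp [Matrix.mulVec, dotProduct, Fin.sum_univ_two]
    have a1 := congrFun ha 1
    have b0 := congrFun hb 0
    have c0 := congrFun hc 0
    have c1 := congrFun hc 1
    rw [e1] at a1 c1
    rw [e0] at b0 c0
    simp at a1 b0 c0 c1
    rw [← a1, ← b0] at hdet
    rw [← b0] at c0
    rw [← a1] at c1
    apply hα
    refine ⟨(g : Matrix (Fin 2) (Fin 2) F) 1 1, ?_⟩
    have hc0 : c = (g : Matrix (Fin 2) (Fin 2) F) 0 0 := by linear_combination c0
    have hc1 : c * α = (g : Matrix (Fin 2) (Fin 2) F) 1 1 := by linear_combination c1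
    rw [← hc1] at hdet ⊢
    rw [← hc0] at hdet
    linear_combination (-α) * hdet
  · intro hchar
    have h3 := (Cfsg.Agent.S0266.result (F := F)).1
    rw [MulAction.isMultiplyPretransitive_iff] at h3 ⊢
    intro x y
    obtain ⟨g, hg⟩ := h3 x y
    induction g using Matrix.ProjGenLinGroup.induction_on with
    | mk g =>
      -- det g is a square
      obtain ⟨t, ht⟩ := FiniteField.isSquare_of_char_two hchar ((g.det : Fˣ) : F)
      have ht0 : t ≠ 0 := by
        rintro rfl
        rw [mul_zero] at ht
        exact g.det.ne_zero ht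
      have hdet1 : ((g * Matrix.GeneralLinearGroup.scalar (Fin 2) (Units.mk0 t ht0)⁻¹)).det = 1 := by
        rw [map_mul, Matrix.GeneralLinearGroup.det_scalar, Fintype.card_fin]
        ext
        simp only [Units.val_mul, ht, Units.val_one, Units.val_pow_eq_pow_val, Units.val_inv_eq_inv_val, Units.val_mk0]
        field_simp
      have hk : (g * Matrix.GeneralLinearGroup.scalar (Fin 2) (Units.mk0 t ht0)⁻¹) ∈ (Matrix.GeneralLinearGroup.det : Matrix.GeneralLinearGroup (Fin 2) F →* Fˣ).ker := hdet1
      rw [Cfsg.Agent.H22.ker_det_eq_range_toGL] at hk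
      obtain ⟨s, hs⟩ := hk
      have hmk : Matrix.ProjGenLinGroup.mk (Matrix.SpecialLinearGroup.toGL s) = Matrix.ProjGenLinGroup.mk g := by
        rw [hs, map_mul, Matrix.ProjGenLinGroup.mk_scalar, mul_one]
      refine ⟨s, ?_⟩
      rw [← hg]
      apply DFunLike.ext
      intro i
      show s • x i = Matrix.ProjGenLinGroup.mk g • x i
      rw [← hmk]
      induction x i using Projectivization.ind with
      | _ v hv =>
        rw [Projectivization.PGL.mk_smul_mk, Projectivization.smul_mk]
        rfl

end Cfsg.Agent.S0267
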