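import Cfsg.Statements.S0268
import Cfsg.Agent.LibH22Fin

set_option autoImplicit false
open Cfsg

namespace Cfsg.Agent.S0268

/-- For q odd, -1 is the unique involution of SL_2(q). -/
theorem result {F : Type*} [Field F] [Fintype F] (hF : Odd (Fintype.card F)) (g : Matrix.SpecialLinearGroup (Fin 2) F) (h1 : g ≠ 1) (h2 : g * g = 1) : (g : Matrix (Fin 2) (Fin 2) F) = -1 := by
  have h2' : (2 : F) ≠ 0 := Cfsg.Agent.H22.two_ne_zero_of_odd hF
  have hm : (g : Matrix (Fin 2) (Fin 2) F) * g = 1 := by
    have := congrArg (Subtype.val) h2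
    simpa using this
  have hd := g.2
  rw [Matrix.det_fin_two] at hd
  have e00 := congrFun (congrFun hm 0) 0
  have e01 := congrFun (congrFun hm 0) 1
  have e10 := congrFun (congrFun hm 1) 0
  have e11 := congrFun (congrFun hm 1) 1
  simp only [Matrix.mul_apply, Fin.sum_univ_two, Matrix.one_apply, Fin.isValue] at e00 e01 e10 e11
  simp at e00 e01 e10 e11
  generalize ha : (g : Matrix (Fin 2) (Fin 2) F) 0 0 = a at *
  generalize hb : (g : Matrix (Fin 2) (Fin 2) F) 0 1 = b at *
  generalize hc : (g : Matrix (Fin 2) (Fin 2) F) 1 0 = c at *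
  generalize hd' : (g : Matrix (Fin 2) (Fin 2) F) 1 1 = d at *
  have hs : a * (a + d) = 2 := by linear_combination e00 + hd
  have hs0 : a + d ≠ 0 := by
    intro h; rw [h, mul_zero] at hs; exact h2' hs.symm
  have hb0 : b = 0 := by
    have : b * (a + d) = 0 := by linear_combination e01
    exact (mul_eq_zero.1 this).resolve_right hs0
  have hc0 : c = 0 := by
    have : c * (a + d) = 0 := by linear_combination e10
    exact (mul_eq_zero.1 this).resolve_right hs0
  subst hb0 hc0
  have ha2 : a * a = 1 := by linear_combination e00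
  have had : a = d := by
    have : a * (a - d) = 0 := by linear_combination e00 - hd
    rcases mul_eq_zero.1 this with h | h
    · rw [h, zero_mul] at ha2; exact absurd ha2 zero_ne_one
    · exact sub_eq_zero.1 h
  have ha1 : a = 1 ∨ a = -1 := by
    rw [← mul_self_eq_one_iff]; exact ha2
  subst had
  rcases ha1 with h | h
  · exfalso
    apply h1
    apply Subtype.ext
    ext i j
    fin_cases i <;> fin_cases j <;> simp [ha, hb, hc, hd', h]
  · ext i j
    fin_cases i <;> fin_cases j <;> simp [ha, hb, hc, hd', h]

end Cfsg.Agent.S0268
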