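import Cfsg.Statements.S0274
import Cfsg.Agent.LibDick9C

set_option autoImplicit false
open Cfsg

namespace Cfsg.Agent.S0274

open CfsgLib.Dick9

/-- Dickson's Theorem for SL_2: if p is odd and H is a subgroup of SL_2(q), q a power of p, with more than one Sylow p-subgroup, then H contains a copy of SL_2(p). -/
theorem result {F : Type*} [Field F] [Fintype F] (p : ℕ) [Fact p.Prime] [CharP F p] (hp : p ≠ 2) (H : Subgroup (Matrix.SpecialLinearGroup (Fin 2) F)) (hH : 1 < Nat.card (Sylow p H)) : ∃ K : Subgroup (Matrix.SpecialLinearGroup (Fin 2) F), K ≤ H ∧ Nonempty (K ≃* Matrix.SpecialLinearGroup (Fin 2) (ZMod p)) := by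
  classical
  have h2 := Finite.one_lt_card_iff_nontrivial.1 hH
  obtain ⟨P, Q, hPQ⟩ := exists_pair_ne (Sylow p H)
  obtain ⟨u, v, φ, h1, h3, h4⟩ := dickson hp H.subtype H.subtype_injective hPQ
  refine ⟨φ.range, ?_, ⟨(MonoidHom.ofInjective h1).symm⟩⟩
  rw [MonoidHom.range_eq_map, ← closure_eq_top, MonoidHom.map_closure, Subgroup.closure_le]
  rintro _ ⟨x, hx, rfl⟩
  rcases hx with rfl | hx
  · rw [h3]; exact u.2
  · rw [Set.mem_singleton_iff] at hx
    rw [hx, h4]; exact v.2

end Cfsg.Agent.S0274
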