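import Cfsg.Statements.S0275
import Mathlib
import Mathlib
import Cfsg.Agent.LibDkU29
import Cfsg.Agent.S0274

set_option autoImplicit false
open Cfsg

namespace Cfsg.Agent.S0275

open CfsgLib.Dk29

/-- If p is odd and H is a subgroup of SL_2(q), q a power of p, with more than one Sylow p-subgroup, then the Sylow 2-subgroups of H are generalised quaternion. -/
theorem result {F : Type*} [Field F] [Fintype F] (p : ℕ) [Fact p.Prime] [CharP F p] (hp : p ≠ 2) (H : Subgroup (Matrix.SpecialLinearGroup (Fin 2) F)) (hH : 1 < Nat.card (Sylow p H)) (S : Sylow 2 H) : ∃ k : ℕ, 1 ≤ k ∧ Nonempty ((S : Subgroup H) ≃* QuaternionGroup (2 ^ k)) := by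
  classical
  obtain ⟨K, hKH, ⟨e⟩⟩ := Cfsg.Agent.S0274.result p hp H hH
  have hodd : Odd (Fintype.card F) := by
    obtain ⟨n, hpp, hn⟩ := FiniteField.card F p
    rw [hn]
    exact (hpp.odd_of_ne_two hp).pow
  have hoddp : Odd (Fintype.card (ZMod p)) := by
    rw [ZMod.card]
    exact (Fact.out (p := p.Prime)).odd_of_ne_two hp
  obtain ⟨W, hW, x, hx, y, hy, hxy⟩ := CfsgLib.Fus21.PSL2.exists_noncomm (F := ZMod p) (Nat.odd_iff.mp hoddp) (two_ne_zero_of_odd hoddp)
  let j : Matrix.SpecialLinearGroup (Fin 2) (ZMod p) →* H := (Subgroup.inclusion hKH).comp e.symm.toMonoidHom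
  have hj : Function.Injective j := (Subgroup.inclusion_injective hKH).comp e.symm.injective
  refine quat_sylow hodd H.subtype H.subtype_injective ⟨W.map j, hW.map j, j x, ⟨x, hx, rfl⟩, j y, ⟨y, hy, rfl⟩, ?_⟩ S
  intro h
  rw [← map_mul, ← map_mul] at h
  exact hxy (hj h)

end Cfsg.Agent.S0275
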