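import Cfsg.Statements.S0276
import Mathlib
import Mathlib
import Cfsg.Agent.LibDkT29

set_option autoImplicit false
open Cfsg

namespace Cfsg.Agent.S0276

open CfsgLib.Dk29

/-- For q = 3 or 5 mod 8 the Sylow 2-subgroups of PSL_2(q) are elementary abelian of order 4. -/
theorem result {F : Type*} [Field F] [Fintype F] {q : ℕ} (hF : Fintype.card F = q) (hq : q % 8 = 3 ∨ q % 8 = 5) (P : Sylow 2 (Matrix.ProjectiveSpecialLinearGroup (Fin 2) F)) : IsKleinFour (P : Subgroup (Matrix.ProjectiveSpecialLinearGroup (Fin 2) F)) := by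
  classical
  subst hF
  have hodd : Odd (Fintype.card F) := by rw [Nat.odd_iff]; omega
  obtain ⟨V, hV⟩ := exists_klein (F := F) hodd
  haveI : Fact (Nat.Prime 2) := ⟨Nat.prime_two⟩
  have hp : IsPGroup 2 V := IsPGroup.of_card (n := 2) (by rw [hV.card_four]; norm_num)
  obtain ⟨Q, hQ⟩ := hp.exists_le_sylow
  have hQV : (Q : Subgroup (Matrix.ProjectiveSpecialLinearGroup (Fin 2) F)) = V := by
    symm
    apply Subgroup.eq_of_le_of_card_ge hQ
    obtain ⟨k, hk⟩ := Q.2.exists_card_eq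
    have hk3 : k < 3 := by
      by_contra hlt
      push Not at hlt
      apply psl_not_eight (F := F) hq
      have h1 : (2 : ℕ) ^ 3 ∣ 2 ^ k := pow_dvd_pow 2 hlt
      have h2 : Nat.card Q ∣ Nat.card (Matrix.ProjectiveSpecialLinearGroup (Fin 2) F) := Subgroup.card_subgroup_dvd_card _
      rw [hk] at h2
      exact (by norm_num : (8 : ℕ) = 2 ^ 3) ▸ h1.trans h2
    have h3 : Nat.card (Q : Subgroup (Matrix.ProjectiveSpecialLinearGroup (Fin 2) F)) = 2 ^ k := hk
    rw [h3, hV.card_four]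
    calc 2 ^ k ≤ 2 ^ 2 := Nat.pow_le_pow_right (by norm_num) (by omega)
      _ = 4 := by norm_num
  obtain ⟨g, hg⟩ := MulAction.exists_smul_eq (Matrix.ProjectiveSpecialLinearGroup (Fin 2) F) Q P
  rw [← hg, Sylow.coe_subgroup_smul, hQV]
  exact klein_conj V hV g

end Cfsg.Agent.S0276
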