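import Cfsg.Statements.S0281
import Cfsg.Agent.LibH22HermS
import Cfsg.Agent.LibH22Fq2b
import Cfsg.Agent.LibH22SL2

set_option autoImplicit false
open Cfsg

namespace Cfsg.Agent.S0281
open Cfsg.Agent.H22

/-- SU_2(q) is isomorphic to SL_2(q). -/
theorem result {F K : Type*} [Field F] [Fintype F] [Field K] [Fintype K] {q : ℕ} (hF : Fintype.card F = q ^ 2) (hK : Fintype.card K = q) : Nonempty (Cfsg.SU 2 F q ≃* Matrix.SpecialLinearGroup (Fin 2) K) := by
  classical
  obtain ⟨σ, hσ, hσ2, hσi⟩ := exists_sigma hF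
  have hq := two_le_of_card_sq hF
  obtain ⟨a, b, hab⟩ := exists_aniso K
  obtain ⟨ι, _, _⟩ := exists_ext (F := K) (K := F) (by rw [hF, hK]) a b hab
  have hισ : ∀ x, σ (ι x) = ι x := by
    intro x
    rw [hσ, ← map_pow, ← hK, FiniteField.pow_card]
  -- elements of norm -1
  have hm1 : ∀ x : F, x ^ (q + 1) = x * σ x := fun x => by rw [hσ, pow_succ']
  have hcm : Nat.card {x : F // x ^ (q + 1) = -1} = q + 1 := card_norm_fiber hF (-1) (neg_ne_zero.2 one_ne_zero) (by rw [← hσ, map_neg, map_one])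
  obtain ⟨ν, hν⟩ : ∃ ν : F, ν ^ (q + 1) = -1 := exists_norm_eq hF (-1) (neg_ne_zero.2 one_ne_zero) (by rw [← hσ, map_neg, map_one])
  obtain ⟨ν', hν', hne⟩ : ∃ ν' : F, ν' ^ (q + 1) = -1 ∧ ν' ≠ ν := by
    by_contra hcon
    push Not at hcon
    have : Nat.card {x : F // x ^ (q + 1) = -1} ≤ 1 := by
      have h1 : Subsingleton {x : F // x ^ (q + 1) = -1} := ⟨fun x y => Subtype.ext (by rw [hcon x.1 x.2, hcon y.1 y.2])⟩
      exact Finite.card_le_one_iff_subsingleton.2 h1
    omega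
  rw [hm1] at hν hν'
  have hν0 : ν ≠ 0 := by rintro rfl; rw [zero_mul] at hν; exact neg_ne_zero.2 one_ne_zero hν.symm
  obtain ⟨ε, hε0, hε⟩ := exists_anti hσ2 hσi
  have hδ : 1 + σ ν * ν' ≠ 0 := by
    intro h
    apply hne
    have h1 : σ ν * ν' = σ ν * ν := by rw [mul_comm (σ ν) ν, hν]; linear_combination h
    exact mul_left_cancel₀ ((map_ne_zero_iff σ σ.injective).2 hν0) h1
  obtain ⟨μ, hμ⟩ : ∃ μ : F, σ μ * (1 + ν * σ ν') = ε := by
    have h2 : 1 + ν * σ ν' ≠ 0 := by
      intro h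
      apply hδ
      have := congrArg σ h
      rw [map_add, map_one, map_mul, hσ2, map_zero] at this
      exact this
    refine ⟨σ (ε / (1 + ν * σ ν')), ?_⟩
    rw [hσ2, div_mul_cancel₀ _ h2]
  have hμ' : μ * (1 + σ ν * ν') = -ε := by
    have := congrArg σ hμ
    rw [map_mul, hσ2, map_add, map_one, map_mul, hσ2] at this
    rw [this]; linear_combination hε
  have hμ0 : μ ≠ 0 := by
    rintro rfl
    rw [zero_mul] at hμ'
    exact hε0 (neg_eq_zero.1 hμ'.symm)
  obtain ⟨C, hC⟩ : ∃ C : Matrix (Fin 2) (Fin 2) F, C = !![1, μ; ν, μ * ν'] := ⟨_, rfl⟩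
  have hCdet : C.det ≠ 0 := by
    rw [hC, Matrix.det_fin_two]
    simp only [Matrix.of_apply, Matrix.cons_val', Matrix.cons_val_zero, Matrix.cons_val_one]
    have : 1 * (μ * ν') - μ * ν = μ * (ν' - ν) := by ring
    rw [this]
    exact mul_ne_zero hμ0 (sub_ne_zero_of_ne hne)
  have hCu : IsUnit C.det := isUnit_iff_ne_zero.2 hCdet
  obtain ⟨E, hE⟩ : ∃ E : Matrix (Fin 2) (Fin 2) F, E = !![0, ε; -ε, 0] := ⟨_, rfl⟩
  have hCE : C.transpose * C.map σ = E := by
    rw [hC, hE]
    ext i j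
    fin_cases i <;> fin_cases j <;> simp [Matrix.mul_apply, Fin.sum_univ_two]
    · linear_combination hν
    · linear_combination hμ
    · linear_combination hμ'
    · linear_combination (μ * σ μ) * hν'
  have hgE : ∀ g : Matrix (Fin 2) (Fin 2) F, g.det = 1 → g.transpose * E * g = E := by
    intro g hg
    rw [Matrix.det_fin_two] at hg
    rw [hE]
    ext i j
    fin_cases i <;> fin_cases j <;> simp [Matrix.mul_apply, Fin.sum_univ_two]
    · ring
    · linear_combination ε * hg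
    · linear_combination (-ε) * hg
    · ring
  have hCm : (C.map σ) * (C⁻¹.map σ) = 1 := by
    rw [← Matrix.map_mul, Matrix.mul_nonsing_inv C hCu, Matrix.map_one σ (map_zero σ) (map_one σ)]
  -- the homomorphism
  obtain ⟨φ, hφ⟩ : ∃ φ : Matrix.SpecialLinearGroup (Fin 2) K →* Cfsg.SU 2 F q, ∀ g,
      (((φ g).1 : Matrix.SpecialLinearGroup (Fin 2) F) : Matrix (Fin 2) (Fin 2) F) = C * (g : Matrix (Fin 2) (Fin 2) K).map ι * C⁻¹ := by
    have hdet : ∀ g : Matrix.SpecialLinearGroup (Fin 2) K, (C * (g : Matrix (Fin 2) (Fin 2) K).map ι * C⁻¹).det = 1 := by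
      intro g
      have h1 : ((g : Matrix (Fin 2) (Fin 2) K).map ι).det = 1 := by
        have h2 := (ι.map_det (g : Matrix (Fin 2) (Fin 2) K)).symm
        rw [Matrix.SpecialLinearGroup.det_coe, map_one] at h2
        exact h2
      rw [Matrix.det_mul, Matrix.det_mul, h1, mul_one, Matrix.det_nonsing_inv, Ring.mul_inverse_cancel _ hCu]
    refine ⟨{ toFun := fun g => ⟨⟨_, hdet g⟩, (mem_SU_iff hσ _).2 ?_⟩, map_one' := ?_, map_mul' := ?_ }, fun g => rfl⟩
    · show (C * (g : Matrix (Fin 2) (Fin 2) K).map ι * C⁻¹).transpose * (C * (g : Matrix (Fin 2) (Fin 2) K).map ι * C⁻¹).map σ = 1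
      have h3 : ((g : Matrix (Fin 2) (Fin 2) K).map ι).map σ = (g : Matrix (Fin 2) (Fin 2) K).map ι := by
        ext i j
        exact hισ _
      have h1 : ((g : Matrix (Fin 2) (Fin 2) K).map ι).det = 1 := by
        have h2 := (ι.map_det (g : Matrix (Fin 2) (Fin 2) K)).symm
        rw [Matrix.SpecialLinearGroup.det_coe, map_one] at h2
        exact h2
      rw [Matrix.transpose_mul, Matrix.transpose_mul, Matrix.map_mul, Matrix.map_mul, h3]
      have e : (C⁻¹).transpose * (((g : Matrix (Fin 2) (Fin 2) K).map ι).transpose * C.transpose) * (C.map σ * (g : Matrix (Fin 2) (Fin 2) K).map ι * C⁻¹.map σ) =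
        (C⁻¹).transpose * (((g : Matrix (Fin 2) (Fin 2) K).map ι).transpose * (C.transpose * C.map σ) * (g : Matrix (Fin 2) (Fin 2) K).map ι) * C⁻¹.map σ := by
        simp only [Matrix.mul_assoc]
      rw [e, hCE, hgE _ h1, ← hCE]
      have e2 : (C⁻¹).transpose * (C.transpose * C.map σ) * C⁻¹.map σ = ((C⁻¹).transpose * C.transpose) * (C.map σ * C⁻¹.map σ) := by
        simp only [Matrix.mul_assoc]
      rw [e2, hCm, Matrix.mul_one, ← Matrix.transpose_mul, Matrix.mul_nonsing_inv C hCu, Matrix.transpose_one]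
    · apply Subtype.ext
      apply sl_ext
      show C * ((1 : Matrix.SpecialLinearGroup (Fin 2) K) : Matrix (Fin 2) (Fin 2) K).map ι * C⁻¹ = 1
      rw [Matrix.SpecialLinearGroup.coe_one, Matrix.map_one ι (map_zero ι) (map_one ι), Matrix.mul_one, Matrix.mul_nonsing_inv C hCu]
    · intro g h
      apply Subtype.ext
      apply sl_ext
      show C * ((g * h : Matrix.SpecialLinearGroup (Fin 2) K) : Matrix (Fin 2) (Fin 2) K).map ι * C⁻¹ = (C * (g : Matrix (Fin 2) (Fin 2) K).map ι * C⁻¹) * (C * (h : Matrix (Fin 2) (Fin 2) K).map ι * C⁻¹)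
      rw [Matrix.SpecialLinearGroup.coe_mul, Matrix.map_mul]
      have e : (C * (g : Matrix (Fin 2) (Fin 2) K).map ι * C⁻¹) * (C * (h : Matrix (Fin 2) (Fin 2) K).map ι * C⁻¹) =
        C * ((g : Matrix (Fin 2) (Fin 2) K).map ι * ((C⁻¹ * C) * (h : Matrix (Fin 2) (Fin 2) K).map ι)) * C⁻¹ := by simp only [Matrix.mul_assoc]
      rw [e, Matrix.nonsing_inv_mul C hCu, Matrix.one_mul]
  have hinj : Function.Injective φ := by
    intro g h hgh
    have h1 := congrArg (fun z : Cfsg.SU 2 F q => ((z.1 : Matrix.SpecialLinearGroup (Fin 2) F) : Matrix (Fin 2) (Fin 2) F)) hgh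
    simp only [hφ] at h1
    have h2 := congrArg (fun M => C⁻¹ * M * C) h1
    simp only [Matrix.mul_assoc, Matrix.nonsing_inv_mul C hCu, Matrix.mul_one] at h2
    simp only [← Matrix.mul_assoc, Matrix.nonsing_inv_mul C hCu, Matrix.one_mul] at h2
    apply sl_ext
    ext i j
    exact ι.injective (congrFun (congrFun h2 i) j)
  have hcard : Nat.card (Matrix.SpecialLinearGroup (Fin 2) K) = Nat.card (Cfsg.SU 2 F q) := by
    have h1 := card_SU (n := 2) hF (by norm_num)
    rw [card_SL2, hK]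
    have hp : 0 < q + 1 := by omega
    apply Nat.eq_of_mul_eq_mul_left hp
    rw [h1]
    simp only [Finset.prod_range_succ, Finset.prod_range_zero]
    have h5 : q ^ 2 - 1 = (q - 1) * (q + 1) := by
      obtain ⟨r, rfl⟩ : ∃ r, q = r + 1 := ⟨q - 1, by omega⟩
      simp only [Nat.add_sub_cancel]
      apply Nat.sub_eq_of_eq_add
      ring
    norm_num
    rw [h5]
    ring
  have hb := (Nat.bijective_iff_injective_and_card φ).2 ⟨hinj, hcard⟩
  exact ⟨(MulEquiv.ofBijective φ hb).symm⟩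

end Cfsg.Agent.S0281
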