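import Cfsg.Statements.S0282
import Cfsg.Agent.LibH22U32

set_option autoImplicit false
open Cfsg

namespace Cfsg.Agent.S0282


/-- PSU_3(2) is a solvable group of order 72. -/
theorem result {F : Type*} [Field F] [Fintype F] (hF : Fintype.card F = 4) : Nat.card (Cfsg.PSU 3 F 2) = 72 ∧ Group.IsSolvable (Cfsg.PSU 3 F 2) := by
  refine ⟨Cfsg.Agent.H22.card_PSU32 hF, ?_⟩
  obtain ⟨N, hN, hcard, _, ⟨e⟩⟩ := Cfsg.Agent.H22.psu32 hF
  haveI : Fact (Nat.Prime 3) := ⟨Nat.prime_three⟩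
  haveI : Fact (Nat.Prime 2) := ⟨Nat.prime_two⟩
  have h1 : Group.IsSolvable N := by
    have hp : IsPGroup 3 N := IsPGroup.of_card (n := 2) (by rw [hcard]; norm_num)
    haveI := hp.isNilpotent
    infer_instance
  have h2 : Group.IsSolvable (Cfsg.PSU 3 F 2 ⧸ N) := by
    have hc : Nat.card (Cfsg.PSU 3 F 2 ⧸ N) = 2 ^ 3 := by
      have := Subgroup.card_eq_card_quotient_mul_card_subgroup N
      rw [hcard, Cfsg.Agent.H22.card_PSU32 hF] at this
      omega
    have hp : IsPGroup 2 (Cfsg.PSU 3 F 2 ⧸ N) := IsPGroup.of_card hc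
    haveI := hp.isNilpotent
    infer_instance
  exact (Group.isSolvable_iff_subgroup_quotient N).2 ⟨h1, h2⟩

end Cfsg.Agent.S0282
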