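import Cfsg.Statements.S0284
import Cfsg.Agent.LibH22HermO

set_option autoImplicit false
open Cfsg

namespace Cfsg.Agent.S0284

/-- The standard Hermitian form on F^n, |F| = q^2, has exactly q^(n-1) (q^n - (-1)^n) vectors of norm 1. -/
theorem result {F : Type*} [Field F] [Fintype F] {q : ℕ} (hF : Fintype.card F = q ^ 2) (n : ℕ) : Nat.card {v : Fin n → F // Cfsg.hermForm n F q v v = 1} = (if Even n then q ^ (n - 1) * (q ^ n - 1) else q ^ (n - 1) * (q ^ n + 1)) := by
  rw [← Cfsg.Agent.H22.cntH_one hF n]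
  unfold Cfsg.Agent.H22.cntH Cfsg.hermForm
  simp only [pow_succ']

end Cfsg.Agent.S0284
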