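import Cfsg.Statements.S0292
import Cfsg.Agent.LibH22POrd

set_option autoImplicit false
open Cfsg

namespace Cfsg.Agent.S0292

/-- 2 |PΩ_{2m+1}(q)| = q^(m^2) prod_{i=1}^{m} (q^(2i) - 1), for q odd and m at least 3 (type B_m). -/
theorem result {F : Type*} [Field F] [Fintype F] {q : ℕ} (hF : Fintype.card F = q) (hodd : Odd q) (m : ℕ) (hm : 3 ≤ m) : 2 * Nat.card (Cfsg.POmega F (Cfsg.quadFormOdd m F)) = q ^ (m ^ 2) * ∏ i ∈ Finset.range m, (q ^ (2 * (i + 1)) - 1) := by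
  subst hF
  have h2 : (2 : F) ≠ 0 := Cfsg.Agent.H22.two_ne_zero_of_odd hodd
  have hQ := Cfsg.Agent.H22.nondeg_qOdd (F := F) m h2
  have hs := Cfsg.Agent.H22.hs_qOdd (F := F) (m := m) (by omega)
  have hF := Cfsg.Agent.H22.exists_ne_one_of_odd h2
  have hfr : Module.finrank F (Unit ⊕ (Fin m ⊕ Fin m) → F) = 2 * m + 1 := by simp; ring
  have h1 := Cfsg.Agent.H22.card_pomega hQ hs (Or.inl hF)
  obtain ⟨_, _, _, _, _, _, _, _, _, h4, _⟩ := Cfsg.Agent.H22.omega_odd h2 hQ (by omega)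
  -- -1 has parity -1
  obtain ⟨g₀, hg₀⟩ : ∃ g₀ : Cfsg.Agent.H22.OGrp (Cfsg.Agent.H22.qOdd m F), ∀ x, g₀.1 x = -x :=
    ⟨⟨LinearEquiv.neg F, fun v => QuadraticMap.map_neg _ v⟩, fun x => rfl⟩
  have hpar : Cfsg.Agent.H22.par hQ (Or.inl hF) g₀ = -1 := by
    show Cfsg.Agent.H22.parFun g₀ = -1
    unfold Cfsg.Agent.H22.parFun
    have hfix : Cfsg.Agent.H22.fixSp g₀ = ⊥ := by
      rw [eq_bot_iff]
      intro x hx
      rw [Submodule.mem_bot]
      have hx' : g₀.1 x = x := hx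
      rw [hg₀] at hx'
      by_contra hx0
      exact Cfsg.Agent.H22.neg_ne_self (F := F) h2 hx0 hx'
    rw [hfix, finrank_bot, zero_add, hfr]
    exact Odd.neg_one_pow ⟨m, rfl⟩
  have hnot : g₀ ∉ Cfsg.Agent.H22.EG (Cfsg.Agent.H22.qOdd m F) := by
    rw [← hs.commutator_eq hQ (Or.inl hF)]
    intro h
    have := Abelianization.commutator_subset_ker (Cfsg.Agent.H22.par hQ (Or.inl hF)) h
    rw [MonoidHom.mem_ker, hpar] at this
    exact absurd this (by decide)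
  rw [(hs.card_center_odd hQ h2 g₀ hg₀).2 hnot, h4, mul_one, Cfsg.Agent.H22.card_O_odd m h2] at h1
  rw [← Cfsg.Agent.H22.coe_qOdd]
  have h5 : 2 * (2 * Nat.card (Cfsg.POmega F ⇑(Cfsg.Agent.H22.qOdd m F))) = 2 * (Fintype.card F ^ (m ^ 2) * ∏ i ∈ Finset.range m, (Fintype.card F ^ (2 * (i + 1)) - 1)) := by
    calc _ = Nat.card (Cfsg.POmega F ⇑(Cfsg.Agent.H22.qOdd m F)) * 4 := by ring
      _ = _ := by rw [h1]; ring
  exact Nat.eq_of_mul_eq_mul_left (by norm_num) h5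

end Cfsg.Agent.S0292
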