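import Cfsg.Statements.S0294
import Cfsg.Agent.LibH22POrd

set_option autoImplicit false
open Cfsg

namespace Cfsg.Agent.S0294

/-- gcd(4, q^m + 1) |PΩ^-_{2m}(q)| = q^(m(m-1)) (q^m + 1) prod_{i=1}^{m-1} (q^(2i) - 1), m at least 4 (type ²D_m). -/
theorem result {F : Type*} [Field F] [Fintype F] {q : ℕ} (hF : Fintype.card F = q) (m : ℕ) (hm : 4 ≤ m) (a b : F) (hab : ∀ z₁ z₂ : F, z₁ ^ 2 + a * z₁ * z₂ + b * z₂ ^ 2 = 0 → z₁ = 0 ∧ z₂ = 0) : Nat.gcd 4 (q ^ m + 1) * Nat.card (Cfsg.POmega F (Cfsg.quadFormMinus (m - 1) F a b)) = q ^ (m * (m - 1)) * (q ^ m + 1) * ∏ i ∈ Finset.range (m - 1), (q ^ (2 * (i + 1)) - 1) := by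
  subst hF
  obtain ⟨k, rfl⟩ : ∃ k, m = k + 1 := ⟨m - 1, by omega⟩
  rw [Nat.add_sub_cancel]
  have hQ := Cfsg.Agent.H22.nondeg_qMinus (F := F) k a b hab
  have hs := Cfsg.Agent.H22.hs_qMinus (F := F) (m := k) (by omega) a b
  have hfr : Module.finrank F ((Fin k ⊕ Fin k) ⊕ Fin 2 → F) = 2 * k + 2 := by simp; ring
  have hF : (∃ a : F, a ≠ 0 ∧ a ≠ 1) ∨ Module.finrank F ((Fin k ⊕ Fin k) ⊕ Fin 2 → F) ≠ 4 := Or.inr (by omega)
  have h1 := Cfsg.Agent.H22.card_pomega hQ hs hF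
  rw [Cfsg.Agent.H22.card_O_minus k a b hab] at h1
  rw [← Cfsg.Agent.H22.coe_qMinus]
  obtain ⟨N, hN⟩ : ∃ N, N = Nat.card (Cfsg.POmega F ⇑(Cfsg.Agent.H22.qMinus k F a b)) := ⟨_, rfl⟩
  rw [← hN] at h1 ⊢
  have hpos : 0 < Fintype.card F ^ (k + 1) := pow_pos Fintype.card_pos _
  by_cases h2 : (2 : F) = 0
  · haveI : CharP F 2 := CharTwo.of_one_ne_zero_of_two_eq_zero one_ne_zero h2
    have h3 := (Cfsg.Agent.H22.omega_even hQ hF ⟨_, hs.h1.ne⟩).1
    rw [hs.card_center_even hQ h2, h3, mul_one] at h1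
    have heven : Even (Fintype.card F) := by
      rw [← Nat.not_odd_iff_even]
      intro h
      exact Cfsg.Agent.H22.two_ne_zero_of_odd h h2
    have hg : Nat.gcd 4 (Fintype.card F ^ (k + 1) + 1) = 1 := by
      have hodd : Odd (Fintype.card F ^ (k + 1) + 1) := (heven.pow_of_ne_zero (by omega)).add_one
      have : Nat.Coprime (2 ^ 2) (Fintype.card F ^ (k + 1) + 1) := Nat.Coprime.pow_left 2 (Nat.coprime_two_left.2 hodd)
      exact this
    rw [hg, one_mul]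
    have h5 : 2 * N = 2 * (Fintype.card F ^ ((k + 1) * k) * (Fintype.card F ^ (k + 1) + 1) * ∏ i ∈ Finset.range k, (Fintype.card F ^ (2 * (i + 1)) - 1)) := by
      calc _ = N * 2 := by ring
        _ = _ := by rw [h1]; ring
    exact Nat.eq_of_mul_eq_mul_left (by norm_num) h5
  · have hodd := Cfsg.Agent.H22.odd_of_two_ne_zero h2
    obtain ⟨_, _, _, _, _, _, _, _, _, h4, _⟩ := Cfsg.Agent.H22.omega_odd h2 hQ (by omega)
    obtain ⟨g₀, hg₀⟩ : ∃ g₀ : Cfsg.Agent.H22.OGrp (Cfsg.Agent.H22.qMinus k F a b), ∀ x, g₀.1 x = -x :=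
      ⟨⟨LinearEquiv.neg F, fun v => QuadraticMap.map_neg _ v⟩, fun x => rfl⟩
    have hiff := Cfsg.Agent.H22.neg_mem_minus hodd k a b hab
    rw [Cfsg.Agent.H22.neg_mem_omega_iff g₀ hg₀, hs.commutator_eq hQ hF] at hiff
    have hpo : Odd (Fintype.card F ^ (k + 1)) := hodd.pow
    by_cases hmem : g₀ ∈ Cfsg.Agent.H22.EG (Cfsg.Agent.H22.qMinus k F a b)
    · have h5 := hiff.1 hmem
      rw [(hs.card_center_odd hQ h2 g₀ hg₀).1 hmem, h4] at h1
      have hg : Nat.gcd 4 (Fintype.card F ^ (k + 1) + 1) = 4 := by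
        apply Nat.gcd_eq_left
        omega
      rw [hg]
      have h6 : 2 * (4 * N) = 2 * (Fintype.card F ^ ((k + 1) * k) * (Fintype.card F ^ (k + 1) + 1) * ∏ i ∈ Finset.range k, (Fintype.card F ^ (2 * (i + 1)) - 1)) := by
        calc _ = N * 2 * 4 := by ring
          _ = _ := by rw [h1]; ring
      exact Nat.eq_of_mul_eq_mul_left (by norm_num) h6
    · have h5 : ¬ (Fintype.card F ^ (k + 1) % 4 = 3) := fun h => hmem (hiff.2 h)
      rw [(hs.card_center_odd hQ h2 g₀ hg₀).2 hmem, h4] at h1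
      have hg : Nat.gcd 4 (Fintype.card F ^ (k + 1) + 1) = 2 := by
        obtain ⟨r, hr⟩ := hpo
        obtain ⟨s, hs'⟩ : ∃ s, Fintype.card F ^ (k + 1) = 4 * s + 1 := ⟨(Fintype.card F ^ (k + 1)) / 4, by omega⟩
        rw [hs', show 4 * s + 1 + 1 = 2 * (2 * s + 1) by omega, show 4 = 2 * 2 from rfl, Nat.gcd_mul_left,
          Nat.coprime_two_left.2 ⟨s, rfl⟩]
      rw [hg]
      have h6 : 2 * (2 * N) = 2 * (Fintype.card F ^ ((k + 1) * k) * (Fintype.card F ^ (k + 1) + 1) * ∏ i ∈ Finset.range k, (Fintype.card F ^ (2 * (i + 1)) - 1)) := by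
        calc _ = N * 1 * 4 := by ring
          _ = _ := by rw [h1]; ring
      exact Nat.eq_of_mul_eq_mul_left (by norm_num) h6

end Cfsg.Agent.S0294
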