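import Cfsg.Statements.S0298
import Cfsg.Agent.LibH22Exc3
import Cfsg.Agent.S0264

set_option autoImplicit false
open Cfsg

namespace Cfsg.Agent.S0298
open Cfsg.Agent.H22

/-- PΩ_3(q) is isomorphic to PSL_2(q) for q odd. -/
theorem result {F : Type*} [Field F] [Fintype F] (hodd : Odd (Fintype.card F)) : Nonempty (Cfsg.POmega F (Cfsg.quadFormOdd 1 F) ≃* Matrix.ProjectiveSpecialLinearGroup (Fin 2) F) := by
  classical
  have h2 : (2 : F) ≠ 0 := two_ne_zero_of_odd hodd
  obtain ⟨ρ, hρ⟩ := exists_rho3 (F := F)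
  obtain ⟨σ, hσ⟩ : ∃ σ : Matrix.SpecialLinearGroup (Fin 2) F →* OGrp (qOdd 1 F), σ = ρ.comp Matrix.SpecialLinearGroup.toGL := ⟨_, rfl⟩
  have hσ1 : ∀ (g : Matrix.SpecialLinearGroup (Fin 2) F) w, t3 ((σ g).1 w) = (g : Matrix (Fin 2) (Fin 2) F) * t3 w * ((g⁻¹ : Matrix.SpecialLinearGroup (Fin 2) F) : Matrix (Fin 2) (Fin 2) F) := by
    intro g w
    rw [hσ, MonoidHom.comp_apply, hρ, ← map_inv]
    rfl
  -- the kernel
  have hker : ∀ g, σ g = 1 → g ∈ Subgroup.center (Matrix.SpecialLinearGroup (Fin 2) F) := by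
    intro g hg
    apply sl_comm_of_transvections
    intro i j hij c
    have h3 : (g : Matrix (Fin 2) (Fin 2) F) * t3 (p3 (Matrix.single i j c)) = t3 (p3 (Matrix.single i j c)) * (g : Matrix (Fin 2) (Fin 2) F) := by
      have h4 := hσ1 g (p3 (Matrix.single i j c))
      rw [hg] at h4
      have h5 : t3 ((1 : OGrp (qOdd 1 F)).1 (p3 (Matrix.single i j c))) = t3 (p3 (Matrix.single i j c)) := rfl
      rw [h5] at h4
      have h7 := congrArg (fun M => M * (g : Matrix (Fin 2) (Fin 2) F)) h4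
      have h8 : ((g⁻¹ : Matrix.SpecialLinearGroup (Fin 2) F) : Matrix (Fin 2) (Fin 2) F) * (g : Matrix (Fin 2) (Fin 2) F) = 1 := by
        rw [← Matrix.SpecialLinearGroup.coe_mul, inv_mul_cancel, Matrix.SpecialLinearGroup.coe_one]
      simp only [Matrix.mul_assoc, h8, Matrix.mul_one] at h7
      exact h7.symm
    rw [t3_p3 (Matrix.trace_single_eq_of_ne _ _ _ hij)] at h3
    apply sl_ext
    rw [Matrix.SpecialLinearGroup.coe_mul, Matrix.SpecialLinearGroup.coe_mul, Matrix.SpecialLinearGroup.transvection_coe]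
    rw [Matrix.mul_add, Matrix.add_mul, h3, mul_one, one_mul]
  have hker' : σ.ker = Subgroup.center (Matrix.SpecialLinearGroup (Fin 2) F) := by
    apply le_antisymm
    · intro g hg; exact hker g hg
    · intro g hg
      rw [MonoidHom.mem_ker]
      apply og_ext
      intro w
      have h7 : t3 ((σ g).1 w) = t3 w := by
        rw [hσ1]
        rw [Matrix.SpecialLinearGroup.mem_center_iff] at hg
        obtain ⟨r, hr, hrz⟩ := hg
        have h8 : (g : Matrix (Fin 2) (Fin 2) F) * t3 w = t3 w * (g : Matrix (Fin 2) (Fin 2) F) := by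
          rw [← hrz]
          exact Matrix.scalar_commute r (fun _ => mul_comm _ _) _
        rw [h8, Matrix.mul_assoc, ← Matrix.SpecialLinearGroup.coe_mul, mul_inv_cancel, Matrix.SpecialLinearGroup.coe_one, Matrix.mul_one]
      have h9 := congrArg p3 h7
      rw [p3_t3, p3_t3] at h9
      exact h9
  have hle : σ.range ≤ commutator (OGrp (qOdd 1 F)) := by
    rintro _ ⟨g, rfl⟩
    rw [hσ, MonoidHom.comp_apply]
    have h3 : Matrix.SpecialLinearGroup.toGL g ∈ commutator (Matrix.GeneralLinearGroup (Fin 2) F) := by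
      rw [Cfsg.Agent.S0264.result 2 (fun _ => exists_ne_one_of_odd h2), Cfsg.Agent.H22.ker_det_eq_range_toGL]
      exact ⟨g, rfl⟩
    have h5 := Subgroup.mem_map_of_mem ρ h3
    rw [commutator_def, Subgroup.map_commutator] at h5
    exact Subgroup.commutator_mono le_top le_top h5
  have hidx : σ.range.index = 4 := by
    have h3 := range_index σ
    rw [hker', card_SL2, card_O_odd 1 h2, card_center_SL 2 (by norm_num)] at h3
    have h4 : Nat.gcd 2 (Fintype.card F - 1) = 2 := by
      apply Nat.gcd_eq_left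
      rcases hodd with ⟨k, hk⟩
      rw [hk]; exact ⟨k, by omega⟩
    rw [h4] at h3
    have hq : 2 ≤ Fintype.card F := Fintype.one_lt_card
    obtain ⟨q, hqe⟩ : ∃ q, q = Fintype.card F := ⟨_, rfl⟩
    rw [← hqe] at h3 hq
    simp only [Finset.prod_range_one, one_pow, pow_one, zero_add, mul_one] at h3
    have h5 : q ^ 2 - 1 = (q - 1) * (q + 1) := by
      obtain ⟨r, rfl⟩ : ∃ r, q = r + 1 := ⟨q - 1, by omega⟩
      simp only [Nat.add_sub_cancel]
      apply Nat.sub_eq_of_eq_add
      ring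
    rw [h5] at h3
    have h6 : 0 < q * ((q - 1) * (q + 1)) := Nat.mul_pos (by omega) (Nat.mul_pos (by omega) (by omega))
    apply Nat.eq_of_mul_eq_mul_left h6
    rw [h3]; ring
  have hr := range_eq_commutator σ hle (Or.inr ⟨hidx, by
    obtain ⟨_, _, _, _, _, _, _, _, _, h, _⟩ := omega_odd h2 (nondeg_qOdd 1 h2) (by simp)
    exact h⟩)
  have hs := pomegaIso (qOdd 1 F)
  rw [coe_qOdd] at hs
  obtain ⟨e⟩ := iso_of_range σ hr (by
    intro g hg
    apply sl2_center_of_mod
    intro x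
    refine ⟨g * x * g⁻¹ * x⁻¹, ?_, by group⟩
    apply hker
    rw [map_mul, map_mul, map_mul, map_inv, map_inv, hg x]
    group)
  exact ⟨hs.trans e⟩

end Cfsg.Agent.S0298
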