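import Cfsg.Statements.S0299
import Cfsg.Agent.LibH22Exc4

set_option autoImplicit false
open Cfsg

namespace Cfsg.Agent.S0299
open Cfsg.Agent.H22

/-- PΩ^+_4(q) is isomorphic to PSL_2(q) x PSL_2(q) for q at least 3. -/
theorem result {F : Type*} [Field F] [Fintype F] (hF : 3 ≤ Fintype.card F) : Nonempty (Cfsg.POmega F (Cfsg.quadFormPlus 2 F) ≃* Matrix.ProjectiveSpecialLinearGroup (Fin 2) F × Matrix.ProjectiveSpecialLinearGroup (Fin 2) F) := by
  classical
  have hF2 : Fintype.card F ≠ 2 := by omega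
  obtain ⟨a, ha0, ha1⟩ := exists_ne_zero_one_of_card hF2
  obtain ⟨ρ, hρ⟩ := exists_rho4 (F := F)
  obtain ⟨σ, hσ⟩ : ∃ σ : Matrix.SpecialLinearGroup (Fin 2) F × Matrix.SpecialLinearGroup (Fin 2) F →* OGrp (qPlus 2 F), σ = ρ.comp inG1 := ⟨_, rfl⟩
  have hσ1 : ∀ (g : Matrix.SpecialLinearGroup (Fin 2) F × Matrix.SpecialLinearGroup (Fin 2) F) w, t4 ((σ g).1 w) = (g.1 : Matrix (Fin 2) (Fin 2) F) * t4 w * ((g.2⁻¹ : Matrix.SpecialLinearGroup (Fin 2) F) : Matrix (Fin 2) (Fin 2) F) := by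
    intro g w
    rw [hσ, MonoidHom.comp_apply, hρ]
    rfl
  -- the kernel
  have hker0 : ∀ g, σ g = 1 → ∀ M : Matrix (Fin 2) (Fin 2) F, (g.1 : Matrix (Fin 2) (Fin 2) F) * M = M * (g.2 : Matrix (Fin 2) (Fin 2) F) := by
    intro g hg M
    have h4 := hσ1 g (p4 M)
    rw [hg] at h4
    have h5 : t4 ((1 : OGrp (qPlus 2 F)).1 (p4 M)) = t4 (p4 M) := rfl
    rw [h5, t4_p4] at h4
    have h7 := congrArg (fun M => M * (g.2 : Matrix (Fin 2) (Fin 2) F)) h4
    have h8 : ((g.2⁻¹ : Matrix.SpecialLinearGroup (Fin 2) F) : Matrix (Fin 2) (Fin 2) F) * (g.2 : Matrix (Fin 2) (Fin 2) F) = 1 := by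
      rw [← Matrix.SpecialLinearGroup.coe_mul, inv_mul_cancel, Matrix.SpecialLinearGroup.coe_one]
    simp only [Matrix.mul_assoc, h8, Matrix.mul_one] at h7
    exact h7.symm
  have hker1 : ∀ g, σ g = 1 → g.1 = g.2 := by
    intro g hg
    apply sl_ext
    have := hker0 g hg 1
    rwa [mul_one, one_mul] at this
  have hker2 : ∀ g, σ g = 1 → g.1 ∈ Subgroup.center (Matrix.SpecialLinearGroup (Fin 2) F) := by
    intro g hg
    rw [Subgroup.mem_center_iff]
    intro x
    apply sl_ext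
    rw [Matrix.SpecialLinearGroup.coe_mul, Matrix.SpecialLinearGroup.coe_mul, hker0 g hg, hker1 g hg]
  have hker3 : ∀ z ∈ Subgroup.center (Matrix.SpecialLinearGroup (Fin 2) F), σ (z, z) = 1 := by
    intro z hz
    apply og_ext
    intro w
    have h7 : t4 ((σ (z, z)).1 w) = t4 w := by
      rw [hσ1]
      rw [Matrix.SpecialLinearGroup.mem_center_iff] at hz
      obtain ⟨r, hr, hrz⟩ := hz
      have h8 : (z : Matrix (Fin 2) (Fin 2) F) * t4 w = t4 w * (z : Matrix (Fin 2) (Fin 2) F) := by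
        rw [← hrz]
        exact Matrix.scalar_commute r (fun _ => mul_comm _ _) _
      simp only []
      rw [h8, Matrix.mul_assoc, ← Matrix.SpecialLinearGroup.coe_mul, mul_inv_cancel, Matrix.SpecialLinearGroup.coe_one, Matrix.mul_one]
    have h9 := congrArg p4 h7
    rw [p4_t4, p4_t4] at h9
    exact h9
  have hkc : Nat.card σ.ker = Nat.gcd 2 (Fintype.card F - 1) := by
    rw [← card_center_SL (F := F) 2 (by norm_num)]
    refine Nat.card_congr ⟨fun g => ⟨g.1.1, hker2 g.1 g.2⟩, fun z => ⟨(z.1, z.1), hker3 z.1 z.2⟩, fun g => ?_, fun z => rfl⟩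
    apply Subtype.ext
    exact Prod.ext rfl (hker1 g.1 g.2)
  have hle : σ.range ≤ commutator (OGrp (qPlus 2 F)) := by
    rintro _ ⟨g, rfl⟩
    rw [hσ, MonoidHom.comp_apply]
    have h5 := Subgroup.mem_map_of_mem ρ (inG1_mem ha0 ha1 g)
    rw [commutator_def, Subgroup.map_commutator] at h5
    exact Subgroup.commutator_mono le_top le_top h5
  have hidx : σ.range.index = 2 * Nat.gcd 2 (Fintype.card F - 1) := by
    have h3 := range_index σ
    rw [hkc, Nat.card_prod, card_SL2, card_O_plus 1] at h3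
    have hq : 2 ≤ Fintype.card F := Fintype.one_lt_card
    obtain ⟨q, hqe⟩ : ∃ q, q = Fintype.card F := ⟨_, rfl⟩
    rw [← hqe] at h3 hq ⊢
    simp only [Finset.prod_range_one, one_pow, pow_one, zero_add, mul_one, Nat.reduceAdd] at h3
    have h5 : q ^ 2 - 1 = (q - 1) * (q + 1) := by
      obtain ⟨r, rfl⟩ : ∃ r, q = r + 1 := ⟨q - 1, by omega⟩
      simp only [Nat.add_sub_cancel]
      apply Nat.sub_eq_of_eq_add
      ring
    rw [h5] at h3
    have h6 : 0 < q * ((q - 1) * (q + 1)) := Nat.mul_pos (by omega) (Nat.mul_pos (by omega) (by omega))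
    apply Nat.eq_of_mul_eq_mul_left h6
    apply Nat.eq_of_mul_eq_mul_left h6
    rw [← mul_assoc, h3]; ring
  have hr : σ.range = commutator (OGrp (qPlus 2 F)) := by
    apply range_eq_commutator σ hle
    by_cases h2 : (2 : F) = 0
    · left
      rw [hidx]
      have hev : ¬ Odd (Fintype.card F) := fun ho => two_ne_zero_of_odd ho h2
      have h7 : Nat.gcd 2 (Fintype.card F - 1) = 1 := by
        have : Odd (Fintype.card F - 1) := by
          rw [Nat.not_odd_iff_even] at hev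
          obtain ⟨k, hk⟩ := hev
          exact ⟨k - 1, by omega⟩
        exact (Nat.coprime_two_left).2 this
      rw [h7]
    · right
      constructor
      · rw [hidx]
        have h7 : Nat.gcd 2 (Fintype.card F - 1) = 2 := by
          apply Nat.gcd_eq_left
          rcases odd_of_two_ne_zero h2 with ⟨k, hk⟩
          rw [hk]; exact ⟨k, by omega⟩
        rw [h7]
      · obtain ⟨_, _, _, _, _, _, _, _, _, h, _⟩ := omega_odd h2 (nondeg_qPlus 2) (by simp)
        exact h
  have hs := pomegaIso (qPlus 2 F)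
  rw [coe_qPlus] at hs
  obtain ⟨e⟩ := iso_of_range σ hr (by
    intro g hg
    rw [center_prod_eq, Subgroup.mem_prod]
    constructor
    · apply sl2_center_of_mod
      intro x
      refine ⟨g.1 * x * g.1⁻¹ * x⁻¹, ?_, by group⟩
      have h7 : σ (g * (x, 1) * g⁻¹ * (x, 1)⁻¹) = 1 := by
        rw [map_mul, map_mul, map_mul, map_inv, map_inv, hg (x, 1)]
        group
      exact hker2 _ h7
    · apply sl2_center_of_mod
      intro x
      refine ⟨g.2 * x * g.2⁻¹ * x⁻¹, ?_, by group⟩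
      have h7 : σ (g * (1, x) * g⁻¹ * (1, x)⁻¹) = 1 := by
        rw [map_mul, map_mul, map_mul, map_inv, map_inv, hg (1, x)]
        group
      have h8 := hker2 _ h7
      rw [hker1 _ h7] at h8
      exact h8)
  obtain ⟨e2⟩ := quot_center_prod (Matrix.SpecialLinearGroup (Fin 2) F) (Matrix.SpecialLinearGroup (Fin 2) F)
  exact ⟨(hs.trans e).trans e2⟩

end Cfsg.Agent.S0299
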