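import Cfsg.Statements.S0301
import Cfsg.Agent.LibH22Exc5
import Cfsg.Agent.LibH22Sp4
import Cfsg.Agent.LibH22Sp5
import Cfsg.Agent.LibH22SpOrder

set_option autoImplicit false
open Cfsg

namespace Cfsg.Agent.S0301
open Cfsg.Agent.H22

lemma mem_b {F : Type*} [Field F] : (Matrix.fromBlocks 1 !![1, 0; 0, 0] 0 1 : Matrix (Fin 2 ⊕ Fin 2) (Fin 2 ⊕ Fin 2) F) ∈ Matrix.symplecticGroup (Fin 2) F := by
  rw [SymplecticGroup.mem_iff, Matrix.J, Matrix.fromBlocks_transpose, Matrix.fromBlocks_multiply, Matrix.fromBlocks_multiply]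
  have : (!![1, 0; 0, 0] : Matrix (Fin 2) (Fin 2) F).transpose = !![1, 0; 0, 0] := by
    ext i j; fin_cases i <;> fin_cases j <;> rfl
  simp [this]
  ext i j; fin_cases i <;> fin_cases j <;> rfl

lemma act_mul {F : Type*} [Field F] {ρ : Matrix.symplecticGroup (Fin 2) F →* OGrp (qOdd 2 F)} (hρ : ∀ A w, i5 ((ρ A).1 w) = act6 (b4 A.1) (i5 w))
    (A B : Matrix.symplecticGroup (Fin 2) F) (w : Unit ⊕ (Fin 2 ⊕ Fin 2) → F) : i5 ((ρ A * ρ B).1 w) = act6 (b4 A.1 * b4 B.1) (i5 w) := by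
  rw [og_mul_apply, hρ, hρ, act6_mul]

/-- PΩ_5(q) is isomorphic to PSp_4(q) for q odd. -/
theorem result {F : Type*} [Field F] [Fintype F] (hodd : Odd (Fintype.card F)) : Nonempty (Cfsg.POmega F (Cfsg.quadFormOdd 2 F) ≃* Cfsg.PSp 2 F) := by
  classical
  obtain ⟨ρ, hρ⟩ := exists_rho5 (F := F)
  have h2 : (2 : F) ≠ 0 := two_ne_zero_of_odd hodd
  have hq3 : 3 ≤ Fintype.card F := by
    have : 2 ≤ Fintype.card F := Fintype.one_lt_card
    rcases hodd with ⟨k, hk⟩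
    omega
  have hnc : ∃ g k : Matrix.symplecticGroup (Fin 2) F, ρ g * ρ k ≠ ρ k * ρ g := by
    refine ⟨⟨Matrix.J (Fin 2) F, SymplecticGroup.J_mem (Fin 2) F⟩, ⟨_, mem_b⟩, ?_⟩
    intro h
    have h3 := congrArg (fun z : OGrp (qOdd 2 F) => i5 (z.1 (Pi.single (.inr (.inl 0)) 1)) (.inl 2)) h
    simp only [act_mul hρ] at h3
    rw [b4_J] at h3
    have e0 : ((finSumFinEquiv (m := 2) (n := 2)).symm 0 : Fin 2 ⊕ Fin 2) = Sum.inl 0 := rfl
    have e1 : ((finSumFinEquiv (m := 2) (n := 2)).symm 1 : Fin 2 ⊕ Fin 2) = Sum.inl 1 := rfl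
    have e2 : ((finSumFinEquiv (m := 2) (n := 2)).symm 2 : Fin 2 ⊕ Fin 2) = Sum.inr 0 := rfl
    have e3 : ((finSumFinEquiv (m := 2) (n := 2)).symm 3 : Fin 2 ⊕ Fin 2) = Sum.inr 1 := rfl
    have hb : b4 (Matrix.fromBlocks 1 !![1, 0; 0, 0] 0 1 : Matrix (Fin 2 ⊕ Fin 2) (Fin 2 ⊕ Fin 2) F) = !![1, 0, 1, 0; 0, 1, 0, 0; 0, 0, 1, 0; 0, 0, 0, 1] := by
      ext i j
      fin_cases i <;> fin_cases j <;> simp [b4, e0, e1, e2, e3]
    rw [hb] at h3
    unfold act6 coM at h3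
    simp only [LinearMap.coe_mk, AddHom.coe_mk, Sum.elim_inl, Matrix.mul_apply, Fin.sum_univ_four, Matrix.transpose_apply] at h3
    simp [altM, i5, jv] at h3
  have hs := pomegaIso (qOdd 2 F)
  rw [coe_qOdd] at hs
  have hcard : Nat.card (commutator (OGrp (qOdd 2 F)) ⧸ Subgroup.center (commutator (OGrp (qOdd 2 F)))) = Nat.card (Matrix.symplecticGroup (Fin 2) F ⧸ Subgroup.center (Matrix.symplecticGroup (Fin 2) F)) := by
    rw [← Nat.card_congr hs.toEquiv]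
    have h1 := card_pomega_odd (F := F) hodd 2 le_rfl
    have h2 := card_sp (F := F) (m := 2)
    have h3 := card_center_sp (F := F) (m := 2) (by norm_num)
    rw [Subgroup.card_eq_card_quotient_mul_card_subgroup (Subgroup.center (Matrix.symplecticGroup (Fin 2) F)), h3] at h2
    have h4 : Nat.gcd 2 (Fintype.card F - 1) = 2 := by
      apply Nat.gcd_eq_left
      rcases hodd with ⟨k, hk⟩
      rw [hk]; exact ⟨k, by omega⟩
    rw [h4] at h2
    rw [← h1] at h2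
    omega
  obtain ⟨e⟩ := iso_of_quasisimple (psp_simple le_rfl (fun _ => hq3)) (sp_perfect (Or.inr (Or.inl ⟨rfl, hq3⟩))) ρ hnc hcard
  exact ⟨hs.trans e⟩

end Cfsg.Agent.S0301
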