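import Cfsg.Statements.S0305
import Cfsg.Agent.LibH22OOrd3
import Cfsg.Agent.LibDihedral

set_option autoImplicit false
open Cfsg

namespace Cfsg.Agent.S0305
open Cfsg.Agent.H22 Module

section
variable {F : Type*} [Field F]

/-- diagonal element -/
def dg (u : Fˣ) : (Fin 1 ⊕ Fin 1 → F) ≃ₗ[F] (Fin 1 ⊕ Fin 1 → F) where
  toFun v := Sum.elim (fun i => u * v (.inl i)) (fun i => (u⁻¹ : Fˣ) * v (.inr i))
  map_add' v w := by
    funext k
    rcases k with k | k
    · show u * (v (.inl k) + w (.inl k)) = u * v (.inl k) + u * w (.inl k)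
      ring
    · show (u⁻¹ : Fˣ) * (v (.inr k) + w (.inr k)) = (u⁻¹ : Fˣ) * v (.inr k) + (u⁻¹ : Fˣ) * w (.inr k)
      ring
  map_smul' c v := by
    funext k
    rcases k with k | k
    · show u * (c * v (.inl k)) = c * (u * v (.inl k))
      ring
    · show (u⁻¹ : Fˣ) * (c * v (.inr k)) = c * ((u⁻¹ : Fˣ) * v (.inr k))
      ring
  invFun v := Sum.elim (fun i => (u⁻¹ : Fˣ) * v (.inl i)) (fun i => u * v (.inr i))
  left_inv v := by
    funext k
    rcases k with k | k
    · show (u⁻¹ : Fˣ) * (u * v (.inl k)) = v (.inl k)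
      rw [← mul_assoc, Units.inv_mul, one_mul]
    · show u * ((u⁻¹ : Fˣ) * v (.inr k)) = v (.inr k)
      rw [← mul_assoc, Units.mul_inv, one_mul]
  right_inv v := by
    funext k
    rcases k with k | k
    · show u * ((u⁻¹ : Fˣ) * v (.inl k)) = v (.inl k)
      rw [← mul_assoc, Units.mul_inv, one_mul]
    · show (u⁻¹ : Fˣ) * (u * v (.inr k)) = v (.inr k)
      rw [← mul_assoc, Units.inv_mul, one_mul]

lemma dg_inl (u : Fˣ) (v : Fin 1 ⊕ Fin 1 → F) (i : Fin 1) : dg u v (.inl i) = u * v (.inl i) := rfl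
lemma dg_inr (u : Fˣ) (v : Fin 1 ⊕ Fin 1 → F) (i : Fin 1) : dg u v (.inr i) = (u⁻¹ : Fˣ) * v (.inr i) := rfl

/-- the swap -/
def sw (F : Type*) [Field F] : (Fin 1 ⊕ Fin 1 → F) ≃ₗ[F] (Fin 1 ⊕ Fin 1 → F) where
  toFun v := fun k => v (Equiv.sumComm _ _ k)
  map_add' _ _ := rfl
  map_smul' _ _ := rfl
  invFun v := fun k => v (Equiv.sumComm _ _ k)
  left_inv v := by
    funext k
    rcases k with k | k <;> rfl
  right_inv v := by
    funext k
    rcases k with k | k <;> rfl

end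

/-- GO^+_2(q) is dihedral of order 2(q-1). -/
theorem result {F : Type*} [Field F] [Fintype F] {q : ℕ} (hF : Fintype.card F = q) : Nonempty (Cfsg.isometryGroup F (Cfsg.quadFormPlus 1 F) ≃* DihedralGroup (q - 1)) := by
  classical
  subst hF
  obtain ⟨Q, hQ⟩ : ∃ Q : QuadraticForm F (Fin 1 ⊕ Fin 1 → F), Q = qPlus 1 F := ⟨_, rfl⟩
  have hQv : ∀ x, Q x = x (.inl 0) * x (.inr 0) := by
    intro x
    rw [hQ, coe_qPlus]
    unfold Cfsg.quadFormPlus
    rw [Fin.sum_univ_one]
  rw [← coe_qPlus, ← hQ]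
  obtain ⟨T, hT, hTi⟩ : ∃ T : Fˣ →* OGrp Q, (∀ u, (T u).1 = dg u) ∧ Function.Injective T := by
    refine ⟨{ toFun := fun u => ⟨dg u, fun x => ?_⟩, map_one' := ?_, map_mul' := ?_ }, fun u => rfl, ?_⟩
    · rw [hQv, hQv, dg_inl, dg_inr]
      have := u.mul_inv
      linear_combination (x (.inl 0) * x (.inr 0)) * this
    · apply Subtype.ext
      apply LinearEquiv.ext
      intro x
      funext k
      rcases k with k | k
      · show ((1 : Fˣ) : F) * x (.inl k) = x (.inl k)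
        rw [Units.val_one, one_mul]
      · show ((1⁻¹ : Fˣ) : F) * x (.inr k) = x (.inr k)
        rw [inv_one, Units.val_one, one_mul]
    · intro u v
      apply Subtype.ext
      apply LinearEquiv.ext
      intro x
      funext k
      rcases k with k | k
      · show ((u * v : Fˣ) : F) * x (.inl k) = u * (v * x (.inl k))
        rw [Units.val_mul]; ring
      · show (((u * v)⁻¹ : Fˣ) : F) * x (.inr k) = (u⁻¹ : Fˣ) * ((v⁻¹ : Fˣ) * x (.inr k))
        rw [mul_inv, Units.val_mul]; ring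
    · intro u v h
      have h1 : dg u = dg v := congrArg Subtype.val h
      have h2 := congrFun (congrArg (fun z : (Fin 1 ⊕ Fin 1 → F) ≃ₗ[F] (Fin 1 ⊕ Fin 1 → F) => z (fun _ => 1)) h1) (.inl 0)
      apply Units.ext
      have h3 : (u : F) * 1 = v * 1 := h2
      rwa [mul_one, mul_one] at h3
  obtain ⟨g, hg⟩ := IsCyclic.exists_generator (α := Fˣ)
  have hog : orderOf g = Fintype.card F - 1 := by
    rw [orderOf_eq_card_of_forall_mem_zpowers hg, Nat.card_eq_fintype_card, Fintype.card_units]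
  obtain ⟨s, hs⟩ : ∃ s : OGrp Q, s.1 = sw F := by
    refine ⟨⟨sw F, fun x => ?_⟩, rfl⟩
    rw [hQv, hQv]
    show x (.inr 0) * x (.inl 0) = _
    ring
  have hss : s * s = 1 := by
    apply Subtype.ext
    show s.1 * s.1 = 1
    rw [hs]
    apply LinearEquiv.ext
    intro x
    funext k
    rcases k with k | k <;> rfl
  have ha : orderOf (T g) = Fintype.card F - 1 := by rw [orderOf_injective T hTi, hog]
  have hconj : ∀ u, s * T u * s⁻¹ = (T u)⁻¹ := by
    intro u
    have h1 : s⁻¹ = s := inv_eq_of_mul_eq_one_left hss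
    rw [h1, ← map_inv]
    apply Subtype.ext
    show s.1 * (T u).1 * s.1 = (T u⁻¹).1
    rw [hs, hT, hT]
    apply LinearEquiv.ext
    intro x
    funext k
    rcases k with k | k
    · rfl
    · show (u : F) * x (.inr k) = ((u⁻¹⁻¹ : Fˣ) : F) * x (.inr k)
      rw [inv_inv]
  have hsn : s ∉ Subgroup.zpowers (T g) := by
    intro h
    obtain ⟨k, hk⟩ := Subgroup.mem_zpowers_iff.1 h
    rw [← map_zpow] at hk
    have h1 := congrArg Subtype.val hk
    rw [hT, hs] at h1
    have h2 := congrFun (congrArg (fun z : (Fin 1 ⊕ Fin 1 → F) ≃ₗ[F] (Fin 1 ⊕ Fin 1 → F) => z (Pi.single (.inl 0) 1)) h1) (.inr 0)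
    have h3 : (((g ^ k)⁻¹ : Fˣ) : F) * (Pi.single (.inl 0) 1 : Fin 1 ⊕ Fin 1 → F) (.inr 0) = (Pi.single (.inl 0) 1 : Fin 1 ⊕ Fin 1 → F) (.inl 0) := h2
    rw [Pi.single_eq_same, Pi.single_eq_of_ne (by simp), mul_zero] at h3
    exact zero_ne_one h3
  have hinj := CfsgLib.Dihedral.dihedralHom_injective (T g) s (by rw [← ha]; exact pow_orderOf_eq_one _) hss (hconj g) ha hsn
  have hq : 2 ≤ Fintype.card F := Fintype.one_lt_card
  have hc : Nat.card (OGrp Q) = 2 * (Fintype.card F - 1) := by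
    rw [hQ, card_O_plus 0]
    simp
  have hc2 : Nat.card (DihedralGroup (Fintype.card F - 1)) = 2 * (Fintype.card F - 1) := DihedralGroup.nat_card
  haveI : Finite (OGrp Q) := Nat.finite_of_card_ne_zero (by rw [hc]; omega)
  have hb := (Nat.bijective_iff_injective_and_card _).2 ⟨hinj, by rw [hc, hc2]⟩
  exact ⟨(oIso Q).trans (MulEquiv.ofBijective _ hb).symm⟩

end Cfsg.Agent.S0305
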