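import Cfsg.Statements.S0306
import Cfsg.Agent.LibH22OOrd3
import Cfsg.Agent.LibH22Fq2
import Cfsg.Agent.LibDihedral

set_option autoImplicit false
open Cfsg

namespace Cfsg.Agent.S0306
open Cfsg.Agent.H22 Module

theorem exists_quad_ext (F : Type*) [Field F] [Fintype F] : ∃ (K : Type) (_ : Field K) (_ : Fintype K), Fintype.card K = Fintype.card F ^ 2 := by
  classical
  obtain ⟨p, hchar, n, hp, hc⟩ := FiniteField.card' F
  haveI : Fact p.Prime := ⟨hp⟩
  letI : Fintype (GaloisField p (2 * n)) := Fintype.ofFinite _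
  refine ⟨GaloisField p (2 * n), inferInstance, inferInstance, ?_⟩
  have h1 := GaloisField.card p (2 * n) (by have := n.pos; omega)
  rw [← Nat.card_eq_fintype_card, h1, hc, mul_comm, pow_mul]

/-- GO^-_2(q) is dihedral of order 2(q+1). -/
theorem result {F : Type*} [Field F] [Fintype F] {q : ℕ} (hF : Fintype.card F = q) (a b : F) (hab : ∀ z₁ z₂ : F, z₁ ^ 2 + a * z₁ * z₂ + b * z₂ ^ 2 = 0 → z₁ = 0 ∧ z₂ = 0) : Nonempty (Cfsg.isometryGroup F (Cfsg.quadFormMinus 0 F a b) ≃* DihedralGroup (q + 1)) := by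
  classical
  subst hF
  obtain ⟨K, _, _, hK⟩ := exists_quad_ext F
  obtain ⟨ι, θ, hθ0⟩ := exists_ext (F := F) (K := K) hK a b hab
  letI : Algebra F K := ι.toAlgebra
  have hθ : θ ^ 2 + algebraMap F K a * θ + algebraMap F K b = 0 := hθ0
  obtain ⟨hθF, hθb, hθn⟩ := theta_bar hab hθ
  obtain ⟨Q, hQ⟩ : ∃ Q : QuadraticForm F ((Fin 0 ⊕ Fin 0) ⊕ Fin 2 → F), Q = qMinus 0 F a b := ⟨_, rfl⟩
  have hQv : ∀ x, Q x = x (.inr 0) ^ 2 + a * x (.inr 0) * x (.inr 1) + b * x (.inr 1) ^ 2 := by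
    intro x
    rw [hQ, coe_qMinus]
    unfold Cfsg.quadFormMinus
    simp
  rw [← coe_qMinus, ← hQ]
  obtain ⟨Θ, hΘ⟩ : ∃ Θ : ((Fin 0 ⊕ Fin 0) ⊕ Fin 2 → F) ≃ₗ[F] K, ∀ x, Θ x = algebraMap F K (x (.inr 0)) - θ * algebraMap F K (x (.inr 1)) := by
    refine ⟨LinearEquiv.ofBijective { toFun := fun x => algebraMap F K (x (.inr 0)) - θ * algebraMap F K (x (.inr 1)), map_add' := ?_, map_smul' := ?_ } ?_, fun x => rfl⟩
    · intro x y
      simp only [Pi.add_apply, map_add]; ring
    · intro c x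
      simp only [Pi.smul_apply, smul_eq_mul, map_mul, RingHom.id_apply, Algebra.smul_def]; ring
    · constructor
      · intro x y h
        have h1 := (theta_basis hK hθF).1 (a₁ := (x (.inr 0), x (.inr 1))) (a₂ := (y (.inr 0), y (.inr 1))) h
        funext k
        rcases k with (k | k) | k
        · exact k.elim0
        · exact k.elim0
        · fin_cases k
          · exact congrArg Prod.fst h1
          · exact congrArg Prod.snd h1
      · intro z
        obtain ⟨⟨x, y⟩, h⟩ := (theta_basis hK hθF).2 z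
        exact ⟨Sum.elim (fun _ => 0) ![x, y], h⟩
  have hN : ∀ x, Θ x * bar F (Θ x) = algebraMap F K (Q x) := by
    intro x
    rw [hΘ, norm_theta hab hθ, hQv]
  obtain ⟨c, hc⟩ : ∃ c : (K ≃ₗ[F] K) →* (((Fin 0 ⊕ Fin 0) ⊕ Fin 2 → F) ≃ₗ[F] ((Fin 0 ⊕ Fin 0) ⊕ Fin 2 → F)), ∀ g x, Θ (c g x) = g (Θ x) := by
    refine ⟨{ toFun := fun g => (Θ.trans g).trans Θ.symm, map_one' := ?_, map_mul' := ?_ }, fun g x => ?_⟩
    · ext1 x
      exact Θ.symm_apply_apply x
    · intro g h
      ext1 x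
      show Θ.symm (g (h (Θ x))) = Θ.symm (g (Θ (Θ.symm (h (Θ x)))))
      rw [LinearEquiv.apply_symm_apply]
    · exact LinearEquiv.apply_symm_apply _ _
  have hcinj : ∀ g h, c g = c h → g = h := by
    intro g h hgh
    apply LinearEquiv.ext
    intro z
    obtain ⟨x, rfl⟩ := Θ.surjective z
    rw [← hc, ← hc, hgh]
  have hmem : ∀ g : K ≃ₗ[F] K, (∀ z, g z * bar F (g z) = z * bar F z) → c g ∈ OGrp Q := by
    intro g hg x
    apply (algebraMap F K).injective
    rw [← hN, ← hN, hc, hg]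
  obtain ⟨g, hg⟩ := IsCyclic.exists_generator (α := Kˣ)
  have hq : 2 ≤ Fintype.card F := Fintype.one_lt_card
  have hog : orderOf g = (Fintype.card F - 1) * (Fintype.card F + 1) := by
    rw [orderOf_eq_card_of_forall_mem_zpowers hg, Nat.card_eq_fintype_card, Fintype.card_units, hK]
    obtain ⟨r, hr⟩ : ∃ r, Fintype.card F = r + 1 := ⟨Fintype.card F - 1, by omega⟩
    rw [hr, Nat.add_sub_cancel]
    apply Nat.sub_eq_of_eq_add
    ring
  obtain ⟨u, hu⟩ : ∃ u : Kˣ, u = g ^ (Fintype.card F - 1) := ⟨_, rfl⟩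
  have hou : orderOf u = Fintype.card F + 1 := by
    rw [hu, orderOf_pow, hog, Nat.gcd_eq_right (Dvd.intro _ rfl), Nat.mul_div_cancel_left _ (by omega)]
  have hubar : (u : K) * bar F (u : K) = 1 := by
    rw [bar_apply, ← pow_succ', ← Units.val_pow_eq_pow_val, ← hou, pow_orderOf_eq_one, Units.val_one]
  have hmul : ∀ (w : Kˣ) (z : K), DistribMulAction.toModuleAut F K w z = w * z := fun w z => rfl
  obtain ⟨A, hA⟩ : ∃ A : OGrp Q, A.1 = c (DistribMulAction.toModuleAut F K u) := by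
    refine ⟨⟨_, hmem _ (fun z => ?_)⟩, rfl⟩
    rw [hmul, map_mul]
    linear_combination (z * bar F z) * hubar
  obtain ⟨β, hβ⟩ : ∃ β : K ≃ₗ[F] K, ∀ z, β z = bar F z :=
    ⟨{ (bar F : K →ₐ[F] K).toLinearMap with invFun := bar F, left_inv := bar_bar hK, right_inv := bar_bar hK }, fun z => rfl⟩
  obtain ⟨S, hS⟩ : ∃ S : OGrp Q, S.1 = c β := by
    refine ⟨⟨_, hmem _ (fun z => ?_)⟩, rfl⟩
    rw [hβ, bar_bar hK]; ring
  have hpow : ∀ k : ℤ, (A ^ k).1 = c (DistribMulAction.toModuleAut F K (u ^ k)) := by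
    intro k
    rw [map_zpow, map_zpow, ← hA]; rfl
  have hoA : orderOf A = Fintype.card F + 1 := by
    rw [← hou]
    apply orderOf_eq_orderOf_iff.2
    intro n
    constructor
    · intro h
      have h1 := congrArg Subtype.val h
      have h2 := hpow n
      rw [zpow_natCast, zpow_natCast] at h2
      rw [h2] at h1
      have h3 := hcinj (DistribMulAction.toModuleAut F K (u ^ n)) 1 (by rw [h1, map_one]; rfl)
      have h4 := congrArg (fun z : K ≃ₗ[F] K => z 1) h3
      apply Units.ext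
      have h5 : ((u ^ n : Kˣ) : K) * 1 = 1 := h4
      rwa [mul_one] at h5
    · intro h
      apply Subtype.ext
      have h2 := hpow n
      rw [zpow_natCast, zpow_natCast, h, map_one, map_one] at h2
      exact h2
  have hSS : S * S = 1 := by
    apply Subtype.ext
    show S.1 * S.1 = 1
    rw [hS, ← map_mul]
    have : β * β = 1 := by
      apply LinearEquiv.ext
      intro z
      show β (β z) = z
      rw [hβ, hβ, bar_bar hK]
    rw [this, map_one]
  have hconj : S * A * S⁻¹ = A⁻¹ := by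
    have h1 : S⁻¹ = S := inv_eq_of_mul_eq_one_left hSS
    rw [h1]
    apply Subtype.ext
    have h3 := hpow (-1)
    rw [zpow_neg_one, zpow_neg_one] at h3
    rw [h3]
    show S.1 * A.1 * S.1 = _
    rw [hS, hA, ← map_mul, ← map_mul]
    congr 1
    apply LinearEquiv.ext
    intro z
    show β (DistribMulAction.toModuleAut F K u (β z)) = DistribMulAction.toModuleAut F K u⁻¹ z
    rw [hmul, hmul, hβ, hβ, map_mul, bar_bar hK]
    congr 1
    exact (Units.inv_eq_of_mul_eq_one_right hubar).symm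
  have hSn : S ∉ Subgroup.zpowers A := by
    intro h
    obtain ⟨k, hk⟩ := Subgroup.mem_zpowers_iff.1 h
    have h1 := congrArg Subtype.val hk
    rw [hpow, hS] at h1
    have h2 := hcinj _ _ h1
    have h3 : ∀ z, ((u ^ k : Kˣ) : K) * z = bar F z := by
      intro z
      rw [← hβ, ← h2]; rfl
    have h4 := h3 1
    rw [mul_one, map_one] at h4
    have h5 := h3 θ
    rw [h4, one_mul] at h5
    obtain ⟨x, hx⟩ := (bar_eq_self_iff θ).1 h5.symm
    exact hθF x hx
  have hinj := CfsgLib.Dihedral.dihedralHom_injective A S (by rw [← hoA]; exact pow_orderOf_eq_one _) hSS hconj hoA hSn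
  have hcO : Nat.card (OGrp Q) = 2 * (Fintype.card F + 1) := by
    rw [hQ, card_O_minus 0 a b hab]
    simp
  have hc2 : Nat.card (DihedralGroup (Fintype.card F + 1)) = 2 * (Fintype.card F + 1) := DihedralGroup.nat_card
  haveI : Finite (OGrp Q) := Nat.finite_of_card_ne_zero (by rw [hcO]; omega)
  have hb := (Nat.bijective_iff_injective_and_card _).2 ⟨hinj, by rw [hcO, hc2]⟩
  exact ⟨(oIso Q).trans (MulEquiv.ofBijective _ hb).symm⟩

end Cfsg.Agent.S0306
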