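import Cfsg.Statements.S0307
import Cfsg.Agent.LibH22Lin

set_option autoImplicit false
open Cfsg

namespace Cfsg.Agent.S0307

/-- PSL_n(q) is normal in PGL_n(q) with cyclic quotient of order gcd(n, q-1): the image of the natural map PSL_n → PGL_n is the kernel of a surjective homomorphism onto the cyclic group of that order. -/
theorem result {F : Type*} [Field F] [Fintype F] {q : ℕ} (hF : Fintype.card F = q) (n : ℕ) (hn : 1 ≤ n) : ∃ g : Matrix.ProjGenLinGroup (Fin n) F →* Multiplicative (ZMod (Nat.gcd n (q - 1))), Function.Surjective g ∧ g.ker = (Matrix.ProjectiveSpecialLinearGroup.toPGL : Matrix.ProjectiveSpecialLinearGroup (Fin n) F →* Matrix.ProjGenLinGroup (Fin n) F).range := by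
  classical
  haveI : NeZero n := ⟨by omega⟩
  haveI : Nonempty (Fin n) := ⟨⟨0, hn⟩⟩
  have hq : 2 ≤ q := by rw [← hF]; exact Fintype.one_lt_card
  have hcyc : IsCyclic (Fˣ ⧸ (powMonoidHom n : Fˣ →* Fˣ).range) :=
    isCyclic_of_surjective (QuotientGroup.mk' _) (QuotientGroup.mk'_surjective _)
  have hcard : Nat.card (Fˣ ⧸ (powMonoidHom n : Fˣ →* Fˣ).range) = Nat.gcd n (q - 1) := by
    rw [← Subgroup.index_eq_card, IsCyclic.index_powMonoidHom_range, Nat.card_eq_fintype_card,
      Fintype.card_units, hF, Nat.gcd_comm]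
  let e : Multiplicative (ZMod (Nat.gcd n (q - 1))) ≃* (Fˣ ⧸ (powMonoidHom n : Fˣ →* Fˣ).range) := by
    rw [← hcard]
    exact zmodCyclicMulEquiv hcyc
  let φ : Matrix.GeneralLinearGroup (Fin n) F →* (Fˣ ⧸ (powMonoidHom n : Fˣ →* Fˣ).range) :=
    (QuotientGroup.mk' _).comp Matrix.GeneralLinearGroup.det
  have hφ : φ.comp (Matrix.GeneralLinearGroup.scalar (Fin n)) = 1 := by
    ext u
    simp only [φ, MonoidHom.comp_apply, MonoidHom.one_apply]
    rw [Matrix.GeneralLinearGroup.det_scalar, QuotientGroup.mk'_apply, QuotientGroup.eq_one_iff]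
    exact ⟨u, by simp⟩
  refine ⟨e.symm.toMonoidHom.comp (Matrix.ProjGenLinGroup.lift φ hφ), ?_, ?_⟩
  · rw [MonoidHom.coe_comp]
    refine e.symm.surjective.comp ?_
    intro y
    obtain ⟨u, rfl⟩ := QuotientGroup.mk'_surjective _ y
    obtain ⟨g, rfl⟩ := Matrix.GeneralLinearGroup.det_surjective (n := Fin n) u
    exact ⟨Matrix.ProjGenLinGroup.mk g, rfl⟩
  · ext x
    rw [MonoidHom.mem_ker, MonoidHom.mem_range]
    simp only [MonoidHom.comp_apply, MulEquiv.toMonoidHom_eq_coe, MonoidHom.coe_coe, map_eq_one_iff _ e.symm.injective]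
    induction x using Matrix.ProjGenLinGroup.induction_on with
    | mk g =>
      rw [Matrix.ProjGenLinGroup.lift_mk]
      simp only [φ, MonoidHom.comp_apply, QuotientGroup.mk'_apply, QuotientGroup.eq_one_iff]
      constructor
      · rintro ⟨u, hu⟩
        simp only [powMonoidHom_apply] at hu
        have hdet : (g * Matrix.GeneralLinearGroup.scalar (Fin n) u⁻¹).det = 1 := by
          rw [map_mul, Matrix.GeneralLinearGroup.det_scalar, Fintype.card_fin, ← hu, inv_pow, mul_inv_cancel]
        have hk : (g * Matrix.GeneralLinearGroup.scalar (Fin n) u⁻¹) ∈ (Matrix.GeneralLinearGroup.det : GL (Fin n) F →* Fˣ).ker := hdet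
        rw [Cfsg.Agent.H22.ker_det_eq_range_toGL] at hk
        obtain ⟨s, hs⟩ := hk
        refine ⟨QuotientGroup.mk s, ?_⟩
        rw [Matrix.ProjectiveSpecialLinearGroup.toPGL_mk, hs, map_mul, Matrix.ProjGenLinGroup.mk_scalar, mul_one]
      · rintro ⟨y, hy⟩
        obtain ⟨s, rfl⟩ := QuotientGroup.mk_surjective y
        rw [Matrix.ProjectiveSpecialLinearGroup.toPGL_mk, Matrix.ProjGenLinGroup.mk_eq_mk_iff] at hy
        obtain ⟨u, hu⟩ := hy
        refine ⟨u, ?_⟩
        rw [← hu, map_mul, Matrix.GeneralLinearGroup.det_scalar, Fintype.card_fin, powMonoidHom_apply]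
        have : (Matrix.SpecialLinearGroup.toGL s).det = 1 := by
          ext; simp
        rw [this, one_mul]

end Cfsg.Agent.S0307
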