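import Cfsg.Statements.S0309
import Cfsg.Agent.LibBN

set_option autoImplicit false
open Cfsg

namespace Cfsg.Agent.S0309

/-- Bruhat decomposition, uniqueness part: for `n, n' ∈ N` the double cosets `B n B` and `B n' B` coincide
exactly when `n` and `n'` have the same image in `W = N / (B ⊓ N)`. -/
theorem result {G : Type*} [Group G] (P : Cfsg.BNPair G) {n n' : G}
    (hn : n ∈ P.N) (hn' : n' ∈ P.N) :
    DoubleCoset.doubleCoset n (P.B : Set G) P.B = DoubleCoset.doubleCoset n' (P.B : Set G) P.B ↔ n⁻¹ * n' ∈ P.B := by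
  rw [CfsgLib.BN.dc_eq, CfsgLib.BN.dc_eq]
  constructor
  · intro h
    apply CfsgLib.BN.uniq P hn hn'
    rw [h]; exact CfsgLib.BN.self_mem_C P n'
  · intro h
    exact CfsgLib.BN.C_eq_of_eqv P h

end Cfsg.Agent.S0309
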