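import Cfsg.Statements.S0316
import Cfsg.Agent.LibBN

set_option autoImplicit false
open Cfsg

namespace Cfsg.Agent.S0316

/-- The map `J ↦ P_J` is a lattice isomorphism from the power set of the set of distinguished generators onto the
subgroups containing `B`. -/
theorem result {G : Type*} [Group G] (P : Cfsg.BNPair G) :
    ∃ e : Set P.S ≃o {M : Subgroup G // P.B ≤ M},
      ∀ J : Set P.S, ((e J : {M : Subgroup G // P.B ≤ M}) : Subgroup G) = P.parabolic (Subtype.val '' J) := by
  have hsub : ∀ J : Set P.S, (Subtype.val '' J : Set G) ⊆ P.S := by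
    rintro J _ ⟨x, _, rfl⟩; exact x.2
  have hmem : ∀ (J : Set P.S) (x : P.S), (x : G) ∈ P.parabolic (Subtype.val '' J) ↔ x ∈ J := by
    intro J x
    constructor
    · intro h
      obtain ⟨y, hy, hyx⟩ := CfsgLib.BN.S_mem_of_parabolic P (hsub J) x.2 h
      rwa [← Subtype.ext hyx]
    · intro h
      exact CfsgLib.BN.J_le_parabolic P ⟨x, h, rfl⟩
  have hmono : ∀ J K : Set P.S, J ⊆ K → P.parabolic (Subtype.val '' J) ≤ P.parabolic (Subtype.val '' K) := by
    intro J K h
    exact sup_le_sup le_rfl (Subgroup.closure_mono (Set.image_mono h))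
  refine ⟨{ toFun := fun J => ⟨P.parabolic (Subtype.val '' J), CfsgLib.BN.B_le_parabolic P _⟩
            invFun := fun M => {x : P.S | (x : G) ∈ M.1}
            left_inv := ?_
            right_inv := ?_
            map_rel_iff' := ?_ }, ?_⟩
  · intro J
    ext x
    exact hmem J x
  · rintro ⟨M, hM⟩
    apply Subtype.ext
    show P.parabolic _ = M
    conv_rhs => rw [CfsgLib.BN.eq_parabolic P M hM]
    congr 1
    ext x
    constructor
    · rintro ⟨y, hy, rfl⟩
      exact ⟨y.2, hy⟩
    · rintro ⟨h1, h2⟩
      exact ⟨⟨x, h1⟩, h2, rfl⟩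
  · intro J K
    constructor
    · intro h x hx
      rw [← hmem K x]
      exact h ((hmem J x).2 hx)
    · intro h
      exact hmono J K h
  · intro J
    rfl

end Cfsg.Agent.S0316
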