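import Cfsg.Statements.S0321
import Cfsg.Agent.LibBN

set_option autoImplicit false
open Cfsg

namespace Cfsg.Agent.S0321

/-- For `n ∈ N` not in `B`, the union `B ∪ B n B` is (the underlying set of) a subgroup exactly when `n` agrees
modulo `B ⊓ N` with one of the distinguished representatives; thus the distinguished involutions are
determined by `B` and `N`. -/
theorem result {G : Type*} [Group G] (P : Cfsg.BNPair G) {n : G}
    (hn : n ∈ P.N) (hnB : n ∉ P.B) :
    (∃ H : Subgroup G, (H : Set G) = (P.B : Set G) ∪ DoubleCoset.doubleCoset n (P.B : Set G) P.B) ↔ ∃ s ∈ P.S, s⁻¹ * n ∈ P.B := by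
  rw [CfsgLib.BN.dc_eq]
  constructor
  · rintro ⟨H, hH⟩
    have hBH : P.B ≤ H := fun x hx => by
      have : x ∈ (H : Set G) := by rw [hH]; left; exact hx
      exact this
    have hnH : n ∈ H := by
      have : n ∈ (H : Set G) := by rw [hH]; right; exact CfsgLib.BN.self_mem_C P n
      exact this
    obtain ⟨l, hl, h1, h2⟩ := CfsgLib.BN.exists_len P hn
    have h3 := CfsgLib.BN.letters_mem_of_mem P hBH hn hnH hl h1 h2
    cases l with
    | nil =>
      exfalso; apply hnB; simpa using h2
    | cons s l =>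
      rw [CfsgLib.BN.IsW_cons] at hl
      have hsH : s ∈ (H : Set G) := h3 s (by simp)
      rw [hH] at hsH
      rcases hsH with hsH | hsH
      · exact absurd hsH (CfsgLib.BN.s_notMem_B P hl.1)
      · exact ⟨s, hl.1, CfsgLib.BN.eqv_symm P (CfsgLib.BN.uniq P hn (P.subset hl.1) hsH)⟩
  · rintro ⟨s, hs, h⟩
    refine ⟨P.parabolic {s}, ?_⟩
    ext x
    rw [← CfsgLib.BN.C_eq_of_eqv P h]
    exact CfsgLib.BN.mem_parabolic_singleton P hs

end Cfsg.Agent.S0321
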