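import Cfsg.Statements.S0322
import Cfsg.Agent.LibBN

set_option autoImplicit false
open Cfsg

namespace Cfsg.Agent.S0322

/-- A group with a (B,N)-pair of rank one acts doubly transitively on the left cosets of `B`. -/
theorem result {G : Type*} [Group G] (P : Cfsg.BNPair G) (h : P.rank = 1) : MulAction.IsMultiplyPretransitive G (G ⧸ P.B) 2 := by
  have hS : ∃ s, P.S = {s} := by
    have h' : Nat.card P.S = 1 := h
    rw [Nat.card_coe_set_eq, Set.ncard_eq_one] at h'
    exact h'
  obtain ⟨s, hS⟩ := hS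
  have hs : s ∈ P.S := by rw [hS]; rfl
  have hall : ∀ g : G, g ∈ P.B ∨ g ∈ CfsgLib.BN.C P s := by
    intro g
    rw [← CfsgLib.BN.mem_parabolic_singleton P hs, ← hS, CfsgLib.BN.parabolic_S]
    trivial
  rw [MulAction.is_two_pretransitive_iff]
  -- it suffices to move (B, sB)
  have key : ∀ a b : G ⧸ P.B, a ≠ b → ∃ g : G, g • (QuotientGroup.mk 1 : G ⧸ P.B) = a ∧
      g • (QuotientGroup.mk s : G ⧸ P.B) = b := by
    intro a b hab
    obtain ⟨x, rfl⟩ := QuotientGroup.mk_surjective a
    obtain ⟨y, rfl⟩ := QuotientGroup.mk_surjective b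
    have h1 : x⁻¹ * y ∉ P.B := by
      intro h2; exact hab (QuotientGroup.eq.2 h2)
    rcases hall (x⁻¹ * y) with h2 | h2
    · exact absurd h2 h1
    · obtain ⟨b1, hb1, b2, hb2, he⟩ := h2
      refine ⟨x * b1, ?_, ?_⟩
      · rw [MulAction.Quotient.smul_mk, QuotientGroup.eq]
        have : (x * b1 * 1)⁻¹ * x = b1⁻¹ := by group
        simpa [this] using P.B.inv_mem hb1
      · rw [MulAction.Quotient.smul_mk, QuotientGroup.eq]
        have : (x * b1 * s)⁻¹ * y = b2 := by
          have : y = x * (b1 * s * b2) := by rw [← he]; group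
          rw [this]; group
        show (x * b1 * s)⁻¹ * y ∈ P.B
        rw [this]; exact hb2
  intro a b c d hab hcd
  obtain ⟨g, hg1, hg2⟩ := key a b hab
  obtain ⟨g', hg1', hg2'⟩ := key c d hcd
  refine ⟨g' * g⁻¹, ?_, ?_⟩
  · rw [← hg1, ← hg1', smul_smul]; simp
  · rw [← hg2, ← hg2', smul_smul]; simp

end Cfsg.Agent.S0322
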