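import Cfsg.Statements.S0323

set_option autoImplicit false
open scoped Pointwise
open Cfsg

namespace Cfsg.Agent.S0323

/-- A doubly transitive action on a set with at least three points yields a (B,N)-pair of rank one:
`B` is the stabiliser of a point `x`, `N` the setwise stabiliser of a pair `{x, y}`. -/
theorem result {G Ω : Type*} [Group G] [MulAction G Ω]
    (h2 : MulAction.IsMultiplyPretransitive G Ω 2) {x y z : Ω} (hxy : x ≠ y) (hyz : y ≠ z) (hxz : x ≠ z) :
    ∃ P : Cfsg.BNPair G, P.B = MulAction.stabilizer G x ∧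
      P.N = MulAction.stabilizer G ({x, y} : Set Ω) ∧ P.rank = 1 := by
  classical
  have h2' : ∀ {a b c d : Ω} (_ : a ≠ b) (_ : c ≠ d), ∃ g : G, g • a = c ∧ g • b = d :=
    (MulAction.is_two_pretransitive_iff (G := G) (α := Ω)).1 h2
  -- s swaps x and y
  obtain ⟨s, hsx, hsy⟩ := h2' hxy hxy.symm
  have memN : ∀ g : G, g ∈ MulAction.stabilizer G ({x, y} : Set Ω) ↔
      (g • x = x ∧ g • y = y) ∨ (g • x = y ∧ g • y = x) := by
    intro g
    rw [MulAction.mem_stabilizer_iff, Set.smul_set_insert, Set.smul_set_singleton]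
    constructor
    · intro h
      have h1 : g • x ∈ ({x, y} : Set Ω) := by rw [← h]; simp
      have h2 : g • y ∈ ({x, y} : Set Ω) := by rw [← h]; simp
      have h3 : g • x ≠ g • y := fun h => hxy (MulAction.injective g h)
      simp only [Set.mem_insert_iff, Set.mem_singleton_iff] at h1 h2
      rcases h1 with h1 | h1 <;> rcases h2 with h2 | h2
      · exact absurd (h1.trans h2.symm) h3
      · exact Or.inl ⟨h1, h2⟩
      · exact Or.inr ⟨h1, h2⟩
      · exact absurd (h1.trans h2.symm) h3
    · rintro (⟨h1, h2⟩ | ⟨h1, h2⟩)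
      · rw [h1, h2]
      · rw [h1, h2]; exact Set.pair_comm y x
  have hsN : s ∈ MulAction.stabilizer G ({x, y} : Set Ω) := (memN s).2 (Or.inr ⟨hsx, hsy⟩)
  have hsinvx : s⁻¹ • x = y := by rw [inv_smul_eq_iff]; exact hsy.symm
  have hsinvy : s⁻¹ • y = x := by rw [inv_smul_eq_iff]; exact hsx.symm
  -- everything is in B ∪ BsB
  have hdouble : ∀ g : G, g • x ≠ x → g ∈ DoubleCoset.doubleCoset s
      (MulAction.stabilizer G x : Set G) (MulAction.stabilizer G x) := by
    intro g hg
    rw [DoubleCoset.mem_doubleCoset]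
    obtain ⟨b, hb1, hb2⟩ := h2' hxy (Ne.symm hg)
    refine ⟨b, hb1, s⁻¹ * b⁻¹ * g, ?_, by group⟩
    show (s⁻¹ * b⁻¹ * g) • x = x
    rw [mul_smul, mul_smul, ← hb2, inv_smul_smul, hsinvy]
  have hsB : s ∉ MulAction.stabilizer G x := by
    rw [MulAction.mem_stabilizer_iff, hsx]; exact hxy.symm
  refine ⟨{ B := MulAction.stabilizer G x
            N := MulAction.stabilizer G ({x, y} : Set Ω)
            S := {s}
            sup_eq_top := ?_
            conj_mem := ?_
            subset := ?_
            sq_mem := ?_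
            inj := ?_
            closure_sup := ?_
            mul_mem_union := ?_
            conj_ne := ?_ }, rfl, rfl, ?_⟩
  · rw [eq_top_iff]
    intro g _
    by_cases hg : g • x = x
    · exact (le_sup_left : MulAction.stabilizer G x ≤ _) hg
    · obtain ⟨b, hb, b', hb', rfl⟩ := DoubleCoset.mem_doubleCoset.1 (hdouble g hg)
      refine Subgroup.mul_mem _ (Subgroup.mul_mem _ ?_ ?_) ?_
      · exact (le_sup_left : MulAction.stabilizer G x ≤ _) hb
      · exact (le_sup_right : MulAction.stabilizer G ({x, y} : Set Ω) ≤ _) hsN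
      · exact (le_sup_left : MulAction.stabilizer G x ≤ _) hb'
  · intro n hn t ht
    have ht1 : t • x = x := ht.1
    have ht2 : t • y = y := by
      rcases (memN t).1 ht.2 with h | h
      · exact h.2
      · exact absurd (ht1.symm.trans h.1) hxy
    show (n * t * n⁻¹) • x = x
    rcases (memN n).1 hn with h | h
    · have : n⁻¹ • x = x := by rw [inv_smul_eq_iff]; exact h.1.symm
      rw [mul_smul, mul_smul, this, ht1, h.1]
    · have : n⁻¹ • x = y := by rw [inv_smul_eq_iff]; exact h.2.symm
      rw [mul_smul, mul_smul, this, ht2, h.2]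
  · intro g hg
    rw [Set.mem_singleton_iff] at hg
    rw [hg]; exact hsN
  · intro g hg
    rw [Set.mem_singleton_iff] at hg
    rw [hg]
    show (s * s) • x = x
    rw [mul_smul, hsx, hsy]
  · intro g hg g' hg' _
    rw [Set.mem_singleton_iff] at hg hg'
    rw [hg, hg']
  · apply le_antisymm
    · apply sup_le
      · rw [Subgroup.closure_le]
        intro g hg
        rw [Set.mem_singleton_iff] at hg
        rw [hg]; exact hsN
      · exact inf_le_right
    · intro g hg
      rcases (memN g).1 hg with h | h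
      · exact (le_sup_right : MulAction.stabilizer G x ⊓ MulAction.stabilizer G ({x, y} : Set Ω) ≤ _) ⟨h.1, hg⟩
      · have h1 : s⁻¹ * g ∈ MulAction.stabilizer G x ⊓ MulAction.stabilizer G ({x, y} : Set Ω) := by
          refine ⟨?_, Subgroup.mul_mem _ (Subgroup.inv_mem _ hsN) hg⟩
          show (s⁻¹ * g) • x = x
          rw [mul_smul, h.1, hsinvy]
        have e : g = s * (s⁻¹ * g) := by group
        rw [e]
        refine Subgroup.mul_mem _ ?_ ?_
        · exact (le_sup_left : Subgroup.closure {s} ≤ _) (Subgroup.subset_closure rfl)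
        · exact (le_sup_right : MulAction.stabilizer G x ⊓ MulAction.stabilizer G ({x, y} : Set Ω) ≤ _) h1
  · intro g hg n hn b hb
    rw [Set.mem_singleton_iff] at hg
    rw [hg]
    have hbx : b • x = x := hb
    -- helper
    have hB1 : ∀ k : G, k • x = x → ∀ g : G, g • x = x → g ∈ DoubleCoset.doubleCoset k
      (MulAction.stabilizer G x : Set G) (MulAction.stabilizer G x) := by
      intro k hk g hg
      rw [DoubleCoset.mem_doubleCoset]
      refine ⟨g * k⁻¹, ?_, 1, Subgroup.one_mem _, by group⟩
      show (g * k⁻¹) • x = x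
      have : k⁻¹ • x = x := by rw [inv_smul_eq_iff]; exact hk.symm
      rw [mul_smul, this, hg]
    have hB2 : ∀ k : G, k • x ≠ x → ∀ g : G, g • x ≠ x → g ∈ DoubleCoset.doubleCoset k
      (MulAction.stabilizer G x : Set G) (MulAction.stabilizer G x) := by
      intro k hk g hg
      have h1 := hdouble g hg
      rw [← DoubleCoset.doubleCoset_eq_of_mem (hdouble k hk)] at h1
      exact h1
    rcases (memN n).1 hn with h | h
    · by_cases hc : (s * b * n) • x = x
      · right; exact hB1 n h.1 _ hc
      · left; apply hB2 _ _ _ hc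
        rw [mul_smul, h.1, hsx]; exact hxy.symm
    · by_cases hc : (s * b * n) • x = x
      · left; apply hB1 _ _ _ hc
        rw [mul_smul, h.1, hsy]
      · right; apply hB2 _ _ _ hc
        rw [h.1]; exact hxy.symm
  · intro g hg hcon
    rw [Set.mem_singleton_iff] at hg
    rw [hg] at hcon
    -- take b with b x = x, b y = z
    obtain ⟨b, hb1, hb2⟩ := h2' hxy hxz
    have h1 : s * b * s ∈ (MulAction.stabilizer G x : Set G) := by
      rw [← hcon]; exact ⟨b, hb1, rfl⟩
    have h3 : (s * b * s) • x = x := h1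
    rw [mul_smul, hsx, mul_smul, hb2] at h3
    have h4 : z = s⁻¹ • x := by rw [← h3, inv_smul_smul]
    rw [hsinvx] at h4
    exact hyz h4.symm
  · show Nat.card ({s} : Set G) = 1
    simp

end Cfsg.Agent.S0323
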