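import Cfsg.Statements.S0326
import Mathlib

-- import your own Cfsg.Agent.* helpers here

set_option autoImplicit false
open Cfsg

namespace Cfsg.Agent.S0326

section
variable {F : Type*} [Field F]
/-- the point with parameters `x, y`. -/
def qt (m : ℕ) (x y : F) : Projectivization F (Fin 4 → F) :=
  Projectivization.mk F ![x * y + x ^ (2 ^ (m + 1) + 2) + y ^ (2 ^ (m + 1)), y, x, 1]
    (fun h => by
      have := congrFun h 3
      simp at this)

theorem qt_inj {m : ℕ} {x y x' y' : F} (h : qt m x y = qt m x' y') : x = x' ∧ y = y' := by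
  rw [qt, qt, Projectivization.mk_eq_mk_iff'] at h
  obtain ⟨c, hc⟩ := h
  have h3 := congrFun hc 3
  have h2 := congrFun hc 2
  have h1 := congrFun hc 1
  simp at h1 h2 h3
  rw [h3, one_mul] at h1 h2
  exact ⟨h2.symm, h1.symm⟩

theorem qt_ne (m : ℕ) (x y : F) : qt m x y ≠ Cfsg.suzukiPointInfinity F := by
  intro h
  rw [qt, Cfsg.suzukiPointInfinity, Projectivization.mk_eq_mk_iff'] at h
  obtain ⟨c, hc⟩ := h
  have := congrFun hc 3
  simp at this

end

/-- The Suzuki–Tits ovoid over a finite field with `q` elements has `q² + 1` points. -/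
theorem result {F : Type*} [Field F] [Fintype F] (m : ℕ) :
    Nat.card (Cfsg.suzukiOvoid F m) = Fintype.card F ^ 2 + 1 := by
  have h1 : Nat.card (Cfsg.suzukiOvoid F m) = Nat.card (Option (F × F)) := by
    symm
    apply Nat.card_congr
    refine Equiv.ofBijective (fun x => match x with
      | none => ⟨Cfsg.suzukiPointInfinity F, ![1, 0, 0, 0], by simp, rfl, Or.inl rfl⟩
      | some x => ⟨qt m x.1 x.2, _, _, rfl, Or.inr ⟨x.1, x.2, rfl⟩⟩) ⟨?_, ?_⟩
    · intro x y h
      rcases x with _ | ⟨a, b⟩ <;> rcases y with _ | ⟨c, d⟩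
      · rfl
      · exact absurd (congrArg Subtype.val h).symm (qt_ne _ _ _)
      · exact absurd (congrArg Subtype.val h) (qt_ne _ _ _)
      · obtain ⟨h1, h2⟩ := qt_inj (congrArg Subtype.val h)
        exact congrArg some (Prod.ext h1 h2)
    · rintro ⟨p, v, hv, rfl, h | ⟨x, y, h⟩⟩
      · refine ⟨none, Subtype.ext ?_⟩
        subst h
        rfl
      · refine ⟨some (x, y), Subtype.ext ?_⟩
        subst h
        rfl
  rw [h1, Finite.card_option, Nat.card_prod, Nat.card_eq_fintype_card, pow_two]

end Cfsg.Agent.S0326
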