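import Cfsg.Statements.S0327
import Mathlib
import Cfsg.Agent.LibSuz5
-- import your own Cfsg.Agent.* helpers here

set_option autoImplicit false
open Cfsg

namespace Cfsg.Agent.S0327

open Cfsg.Agent.Suz

/-- The Suzuki group (`m ≥ 1`) is a Zassenhaus group on the `q² + 1` points of the Suzuki–Tits ovoid. -/
theorem result {F : Type*} [Field F] [Fintype F] {m : ℕ} (hm : 1 ≤ m)
    (hF : Fintype.card F = 2 ^ (2 * m + 1)) :
    Cfsg.IsZassenhausGroup (Cfsg.Sz F m) (Cfsg.suzukiOvoid F m) := by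
  have D := Cfsg.Agent.Suz.data hm hF
  have hcoe : ∀ (g : Cfsg.Sz F m) (x : Cfsg.suzukiOvoid F m),
      ((g • x : Cfsg.suzukiOvoid F m) : Projectivization F (Fin 4 → F)) = g • (x : Projectivization F (Fin 4 → F)) :=
    fun g x => rfl
  refine ⟨?_, ?_, ?_, ?_, ?_⟩
  · constructor
    intro g k h
    have h1 : k⁻¹ * g = 1 := by
      apply D.faithful
      intro p hp
      rw [mul_smul]
      have := congrArg Subtype.val (h ⟨p, hp⟩)
      rw [hcoe, hcoe] at this
      exact inv_smul_eq_iff.mpr this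
    exact (inv_mul_eq_one.mp h1).symm
  · rw [MulAction.is_two_pretransitive_iff]
    intro a b c d hab hcd
    obtain ⟨g, hg1, hg2⟩ := D.gtwo a.2 b.2 (fun h => hab (Subtype.ext h))
    obtain ⟨k, hk1, hk2⟩ := D.gtwo c.2 d.2 (fun h => hcd (Subtype.ext h))
    refine ⟨k⁻¹ * g, Subtype.ext ?_, Subtype.ext ?_⟩
    · rw [hcoe, mul_smul, hg1, inv_smul_eq_iff, hk1]
    · rw [hcoe, mul_smul, hg2, inv_smul_eq_iff, hk2]
  · intro g a b c hab hbc hac ha hb hc
    have ha' := congrArg Subtype.val ha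
    have hb' := congrArg Subtype.val hb
    have hc' := congrArg Subtype.val hc
    rw [hcoe] at ha' hb' hc'
    obtain ⟨k, hk1, hk2⟩ := D.gtwo a.2 b.2 (fun h => hab (Subtype.ext h))
    have hconj : ∀ p : Projectivization F (Fin 4 → F), g • p = p → (k * g * k⁻¹) • (k • p) = k • p := by
      intro p hp
      rw [mul_smul, mul_smul, inv_smul_smul, hp]
    have h1 := hconj _ ha'
    have h2 := hconj _ hb'
    have h3 := hconj _ hc'
    rw [hk1] at h1
    rw [hk2] at h2
    obtain ⟨t, ht⟩ := D.gtorus _ h1 h2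
    have hk3 : k • (c : Projectivization F (Fin 4 → F)) ≠ inf F := by
      rw [← hk1]
      intro h
      exact hac (Subtype.ext (MulAction.injective k h).symm)
    obtain ⟨x, y, hxy⟩ : ∃ x y, k • (c : Projectivization F (Fin 4 → F)) = pt D.S x y := by
      rcases (D.hO _).mp (D.smul_mem k c.2) with h | h
      · exact absurd h hk3
      · exact h
    have hne : ¬ (x = 0 ∧ y = 0) := by
      rintro ⟨rfl, rfl⟩
      rw [← hk2] at hxy
      exact hbc (Subtype.ext (MulAction.injective k hxy).symm)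
    rw [ht, hxy, D.h_pt] at h3
    obtain ⟨e1, e2⟩ := pt_inj h3
    have ht1 : t = 1 := by
      by_contra hne1
      apply hne
      constructor
      · by_contra hx
        exact D.St_ne hne1 (mul_right_cancel₀ hx (e1.trans (one_mul x).symm))
      · by_contra hy
        exact D.tSt_ne hne1 (mul_right_cancel₀ hy (e2.trans (one_mul y).symm))
    rw [ht1, D.h_one] at ht
    have : g = k⁻¹ * (k * g * k⁻¹) * k := by group
    rw [this, ht]
    group
  · obtain ⟨t, ht⟩ := D.exists_unit
    refine ⟨D.h t, fun h => ht (D.h_inj (h.trans D.h_one.symm)), ⟨inf F, D.inf_mem⟩, ⟨pt D.S 0 0, D.pt_mem 0 0⟩,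
      fun h => pt_ne_inf D.S 0 0 (congrArg Subtype.val h).symm, Subtype.ext (D.h_inf t), Subtype.ext (D.h_zero t)⟩
  · intro N hN htr
    have hs := D.simple
    have htop : N = ⊤ := by
      rcases hs.eq_bot_or_eq_top_of_normal N hN with h | h
      · exfalso
        subst h
        obtain ⟨g, hg⟩ := htr.exists_smul_eq (⟨inf F, D.inf_mem⟩ : Cfsg.suzukiOvoid F m) ⟨pt D.S 0 0, D.pt_mem 0 0⟩
        have hg1 : g = 1 := Subsingleton.elim _ _
        rw [hg1, one_smul] at hg
        exact pt_ne_inf D.S 0 0 (congrArg Subtype.val hg).symm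
      · exact h
    obtain ⟨t, ht⟩ := D.exists_unit
    refine ⟨⟨inf F, D.inf_mem⟩, fun hb => ?_⟩
    have hmem : (⟨D.h t, by rw [htop]; exact Subgroup.mem_top _⟩ : N) ∈ MulAction.stabilizer N (⟨inf F, D.inf_mem⟩ : Cfsg.suzukiOvoid F m) :=
      Subtype.ext (D.h_inf t)
    rw [hb, Subgroup.mem_bot] at hmem
    have h1 : D.h t = 1 := congrArg Subtype.val hmem
    exact ht (D.h_inj (h1.trans D.h_one.symm))

end Cfsg.Agent.S0327
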