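import Cfsg.Statements.S0330
import Mathlib
import Cfsg.Agent.LibSuz6
-- import your own Cfsg.Agent.* helpers here

set_option autoImplicit false
open Cfsg

namespace Cfsg.Agent.S0330

open Cfsg.Agent.Suz
open scoped commutatorElement

/-- A Sylow 2-subgroup `P` of the Suzuki group (field with `q = 2^(2m+1)` elements, `m ≥ 1`) has order `q²` and
exponent `4`; its centre coincides with its commutator subgroup and has order `q`. -/
theorem result {F : Type*} [Field F] [Fintype F] {m : ℕ} (hm : 1 ≤ m)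
    (hF : Fintype.card F = 2 ^ (2 * m + 1)) (P : Sylow 2 (Cfsg.Sz F m)) :
    Nat.card P = (2 ^ (2 * m + 1)) ^ 2 ∧ Monoid.exponent P = 4 ∧
      Subgroup.center P = commutator P ∧ Nat.card (Subgroup.center P) = 2 ^ (2 * m + 1) := by
  have D := Cfsg.Agent.Suz.data hm hF
  obtain ⟨k, hk⟩ := D.sylow_conj P
  generalize (P : Subgroup (Cfsg.Sz F m)) = Q at hk ⊢
  have hPm : ∀ x : Cfsg.Sz F m, x ∈ Q ↔ ∃ a b, x = k * D.u a b * k⁻¹ := by
    intro x
    rw [hk]
    exact D.mem_conj_Us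
  have hv : ∀ a b, k * D.u a b * k⁻¹ ∈ Q := fun a b => (hPm _).mpr ⟨a, b, rfl⟩
  have hmul : ∀ a b c d, (⟨_, hv a b⟩ : Q) * ⟨_, hv c d⟩ = ⟨_, hv (a + c) (b + d + D.S a * c)⟩ := by
    intro a b c d
    apply Subtype.ext
    change k * D.u a b * k⁻¹ * (k * D.u c d * k⁻¹) = k * D.u (a + c) (b + d + D.S a * c) * k⁻¹
    rw [← D.u_mul]
    group
  have hinj : ∀ a b c d, (⟨_, hv a b⟩ : Q) = ⟨_, hv c d⟩ → a = c ∧ b = d := by
    intro a b c d h
    have h1 : k * D.u a b * k⁻¹ = k * D.u c d * k⁻¹ := congrArg Subtype.val h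
    exact D.u_inj (mul_left_cancel (mul_right_cancel h1))
  have h1v : (⟨_, hv 0 0⟩ : Q) = 1 := by
    apply Subtype.ext
    change k * D.u 0 0 * k⁻¹ = 1
    rw [D.u_zero]
    group
  have hsurj : ∀ x : Q, ∃ a b, x = ⟨_, hv a b⟩ := by
    rintro ⟨x, hx⟩
    obtain ⟨a, b, rfl⟩ := (hPm x).mp hx
    exact ⟨a, b, rfl⟩
  have hcen : ∀ x : Q, x ∈ Subgroup.center Q ↔ ∃ b, x = ⟨_, hv 0 b⟩ := by
    intro x
    rw [Subgroup.mem_center_iff]
    constructor
    · intro h
      obtain ⟨a, b, rfl⟩ := hsurj x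
      have ha : a = 0 := by
        apply D.center_iff (b := b)
        intro c d
        have h1 := h ⟨_, hv c d⟩
        rw [hmul, hmul] at h1
        obtain ⟨h2, h3⟩ := hinj _ _ _ _ h1
        rw [D.u_mul, D.u_mul, h2, h3]
      subst ha
      exact ⟨b, rfl⟩
    · rintro ⟨b, rfl⟩ g
      obtain ⟨c, d, rfl⟩ := hsurj g
      rw [hmul, hmul]
      have e1 : c + 0 = 0 + c := by ring
      have e2 : d + b + D.S c * 0 = b + d + D.S 0 * c := by rw [map_zero]; ring
      congr 3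
      rw [e1, e2]
  have hcomm : ∀ a c, ⁅(⟨_, hv a 0⟩ : Q), (⟨_, hv c 0⟩ : Q)⁆ = ⟨_, hv 0 (D.S a * c + D.S c * a)⟩ := by
    intro a c
    apply Subtype.ext
    change (k * D.u a 0 * k⁻¹) * (k * D.u c 0 * k⁻¹) * (k * D.u a 0 * k⁻¹)⁻¹ * (k * D.u c 0 * k⁻¹)⁻¹ = _
    change _ = k * D.u 0 (D.S a * c + D.S c * a) * k⁻¹
    rw [← D.u_commutator a 0 c 0]
    group
  have hcard : Nat.card Q = (2 ^ (2 * m + 1)) ^ 2 := by
    rw [hk, ← D.card_Us]
    exact Nat.card_congr (Subgroup.equivMapOfInjective _ _ (MulAut.conj k).injective).toEquiv.symm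
  have hcc : Subgroup.center Q = commutator Q := by
    apply le_antisymm
    · intro x hx
      obtain ⟨b, rfl⟩ := (hcen x).mp hx
      obtain ⟨a, c, hac⟩ := D.exists_comm b
      rw [D.u_commutator] at hac
      rw [← (D.u_inj hac).2, ← hcomm]
      exact Subgroup.commutator_mem_commutator (Subgroup.mem_top _) (Subgroup.mem_top _)
    · rw [commutator_def, Subgroup.commutator_le]
      intro x _ y _
      obtain ⟨a, b, rfl⟩ := hsurj x
      obtain ⟨c, d, rfl⟩ := hsurj y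
      rw [hcen]
      refine ⟨D.S a * c + D.S c * a, ?_⟩
      apply Subtype.ext
      change (k * D.u a b * k⁻¹) * (k * D.u c d * k⁻¹) * (k * D.u a b * k⁻¹)⁻¹ * (k * D.u c d * k⁻¹)⁻¹
        = k * D.u 0 (D.S a * c + D.S c * a) * k⁻¹
      rw [← D.u_commutator a b c d]
      group
  have hzc : Nat.card (Subgroup.center Q) = 2 ^ (2 * m + 1) := by
    have h1 : Nat.card (Subgroup.center Q) = Nat.card F := by
      symm
      apply Nat.card_congr
      refine Equiv.ofBijective (fun b => ⟨⟨_, hv 0 b⟩, (hcen _).mpr ⟨b, rfl⟩⟩) ⟨?_, ?_⟩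
      · intro b d h
        exact (hinj _ _ _ _ (congrArg Subtype.val h)).2
      · rintro ⟨x, hx⟩
        obtain ⟨b, rfl⟩ := (hcen x).mp hx
        exact ⟨b, rfl⟩
    rw [h1, Nat.card_eq_fintype_card, hF]
  have hexp : Monoid.exponent Q = 4 := by
    have hsq : ∀ a b, (⟨_, hv a b⟩ : Q) ^ 2 = ⟨_, hv 0 (D.S a * a)⟩ := by
      intro a b
      rw [pow_two, hmul]
      congr 3
      rw [D.add_self, D.add_self, zero_add]
    have h4 : ∀ x : Q, x ^ 4 = 1 := by
      intro x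
      obtain ⟨a, b, rfl⟩ := hsurj x
      have e : (⟨_, hv a b⟩ : Q) ^ 4 = ((⟨_, hv a b⟩ : Q) ^ 2) ^ 2 := by rw [← pow_mul]
      rw [e, hsq, hsq, ← h1v]
      congr 3
      rw [map_zero, zero_mul]
    apply Nat.dvd_antisymm
    · exact Monoid.exponent_dvd_of_forall_pow_eq_one h4
    · have hord : orderOf (⟨_, hv 1 0⟩ : Q) = 2 ^ (1 + 1) := by
        apply orderOf_eq_prime_pow
        · rw [pow_one, hsq]
          intro h
          have := hinj _ _ _ _ (h.trans h1v.symm)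
          rw [map_one, mul_one] at this
          exact one_ne_zero this.2
        · exact h4 _
      have := Monoid.order_dvd_exponent (⟨_, hv 1 0⟩ : Q)
      rw [hord] at this
      exact this
  exact ⟨hcard, hexp, hcc, hzc⟩

end Cfsg.Agent.S0330
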