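import Cfsg.Statements.S0331
import Mathlib
import Cfsg.Agent.LibSuz8
-- import your own Cfsg.Agent.* helpers here

set_option autoImplicit false
open Cfsg

namespace Cfsg.Agent.S0331

open Cfsg.Agent.Suz

/-- For every odd prime `p` the Sylow `p`-subgroups of the Suzuki group are cyclic. -/
theorem result {F : Type*} [Field F] [Fintype F] {m : ℕ} (hm : 1 ≤ m)
    (hF : Fintype.card F = 2 ^ (2 * m + 1)) {p : ℕ} [Fact p.Prime] (hp : p ≠ 2)
    (P : Sylow p (Cfsg.Sz F m)) : IsCyclic P := by
  have D := Cfsg.Agent.Suz.data hm hF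
  by_cases hne : Nontrivial P
  · have hcn := P.isPGroup'.center_nontrivial
    obtain ⟨z, hz⟩ : ∃ z : Subgroup.center P, orderOf z = p := by
      apply exists_prime_orderOf_dvd_card'
      obtain ⟨n, hn⟩ := (IsPGroup.iff_card (p := p)).mp (P.isPGroup'.to_subgroup (Subgroup.center P))
      rcases n with _ | n
      · rw [pow_zero] at hn
        have := Finite.one_lt_card (α := Subgroup.center P)
        omega
      · rw [hn, pow_succ]
        exact Dvd.intro_left _ rfl
    have hz' : orderOf ((z : P) : Cfsg.Sz F m) = p := by rw [Subgroup.orderOf_coe, Subgroup.orderOf_coe, hz]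
    have hcyc := D.cent_cyclic (Fact.out : p.Prime) hp hz'
    have hle : (P : Subgroup (Cfsg.Sz F m)) ≤ Subgroup.centralizer ({((z : P) : Cfsg.Sz F m)} : Set (Cfsg.Sz F m)) := by
      intro x hx
      rw [Subgroup.mem_centralizer_singleton_iff]
      have := Subgroup.mem_center_iff.mp z.2 ⟨x, hx⟩
      exact congrArg Subtype.val this
    exact Subgroup.isCyclic_of_le hle
  · rw [not_nontrivial_iff_subsingleton] at hne
    exact isCyclic_of_subsingleton

end Cfsg.Agent.S0331
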