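import Cfsg.Statements.S0332
import Mathlib
import Cfsg.Agent.LibSuz8
-- import your own Cfsg.Agent.* helpers here

set_option autoImplicit false
open Cfsg

namespace Cfsg.Agent.S0332

open Cfsg.Agent.Suz

/-- The Suzuki group is a CN-group: every non-identity element has nilpotent centraliser. -/
theorem result {F : Type*} [Field F] [Fintype F] {m : ℕ} (hm : 1 ≤ m)
    (hF : Fintype.card F = 2 ^ (2 * m + 1)) : Cfsg.IsCNGroup (Cfsg.Sz F m) := by
  have D := Cfsg.Agent.Suz.data hm hF
  intro g hg
  have ho : orderOf g ≠ 1 := fun h => hg (orderOf_eq_one_iff.mp h)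
  obtain ⟨p, hp, hpd⟩ := Nat.exists_prime_and_dvd ho
  have hz : orderOf (g ^ (orderOf g / p)) = p :=
    orderOf_pow_orderOf_div (orderOf_pos g).ne' hpd
  have hle : Subgroup.centralizer ({g} : Set (Cfsg.Sz F m)) ≤ Subgroup.centralizer ({g ^ (orderOf g / p)} : Set (Cfsg.Sz F m)) := by
    intro x hx
    rw [Subgroup.mem_centralizer_singleton_iff] at hx ⊢
    exact (Commute.pow_right (show Commute x g from hx) _)
  have hnil : Group.IsNilpotent (Subgroup.centralizer ({g ^ (orderOf g / p)} : Set (Cfsg.Sz F m))) := by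
    rcases D.cent_prime hp hz with ⟨-, h⟩ | ⟨k, t, -, -, -, -, h⟩ | ⟨k, a, b, -, -, h⟩
    · exact (IsCyclic.commGroup).isNilpotent
    · have h1 := D.cyclic_range k⁻¹
      rw [← h] at h1
      exact (IsCyclic.commGroup).isNilpotent
    · have h1 : IsPGroup 2 (D.Us.map (MulAut.conj k⁻¹).toMonoidHom) :=
        D.isPGroup_Us.map _
      exact (h1.to_le h).isNilpotent
  have hinj : Function.Injective (Subgroup.inclusion hle) := Subgroup.inclusion_injective hle
  exact Subgroup.isNilpotent_of_ker_le_center (Subgroup.inclusion hle) (by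
    rw [(MonoidHom.ker_eq_bot_iff _).mpr hinj]
    exact bot_le)

end Cfsg.Agent.S0332
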