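import Cfsg.Statements.S0334
import Mathlib
import Cfsg.Agent.LibSuz4
-- import your own Cfsg.Agent.* helpers here

set_option autoImplicit false
open Cfsg

namespace Cfsg.Agent.S0334

open Cfsg.Agent.Suz

section
variable {F : Type*} [Field F]
/-- preservation of the form. -/
def Pres (g : Matrix.SpecialLinearGroup (Fin 4) F) : Prop :=
  g.1.transpose * Cfsg.suzukiForm F * g.1 = Cfsg.suzukiForm F

theorem Pres.mul {g h : Matrix.SpecialLinearGroup (Fin 4) F} (hg : Pres g) (hh : Pres h) : Pres (g * h) := by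
  unfold Pres at *
  change (g.1 * h.1).transpose * Cfsg.suzukiForm F * (g.1 * h.1) = _
  rw [Matrix.transpose_mul]
  calc h.1.transpose * g.1.transpose * Cfsg.suzukiForm F * (g.1 * h.1)
      = h.1.transpose * (g.1.transpose * Cfsg.suzukiForm F * g.1) * h.1 := by
        simp only [Matrix.mul_assoc]
    _ = _ := by rw [hg, hh]

theorem pres_U (S : F →+* F) (h2 : (2 : F) = 0) (a b : F) : Pres (U S a b) := by
  change (Um S a b).transpose * Cfsg.suzukiForm F * (Um S a b) = _
  ext i j
  fin_cases i <;> fin_cases j <;>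
    simp [Um, Cfsg.suzukiForm, Matrix.mul_apply, Fin.sum_univ_succ, zf]
  all_goals first
    | linear_combination (0 : F) * h2
    | linear_combination (a) * h2
    | linear_combination (S a) * h2
    | linear_combination (b) * h2
    | linear_combination (b + S a * a) * h2
    | linear_combination (S a * a) * h2
    | linear_combination (a * b + S a * a ^ 2 + S b) * h2
    | linear_combination (2 * a * b + S a * a ^ 2 + S b) * h2

theorem pres_H (S : F →+* F) (t : Fˣ) : Pres (H S t) := by
  change (Hm S t).transpose * Cfsg.suzukiForm F * (Hm S t) = _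
  have ht : (t : F) ≠ 0 := t.ne_zero
  have hSt : S (t : F) ≠ 0 := (map_ne_zero S).mpr ht
  ext i j
  fin_cases i <;> fin_cases j <;>
    simp [Hm, Cfsg.suzukiForm, Matrix.mul_apply, Fin.sum_univ_succ] <;> field_simp

theorem pres_W : Pres (W F) := by
  change (Wm F).transpose * Cfsg.suzukiForm F * (Wm F) = _
  ext i j
  fin_cases i <;> fin_cases j <;>
    simp [Wm, Cfsg.suzukiForm, Matrix.mul_apply, Fin.sum_univ_succ]
end

/-- Every element of the Suzuki group preserves the alternating form with antidiagonal matrix: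
`gᵀ J g = J`. Hence the Suzuki group is a subgroup of a 4-dimensional symplectic group. -/
theorem result {F : Type*} [Field F] [Fintype F] {m : ℕ} (hm : 1 ≤ m)
    (hF : Fintype.card F = 2 ^ (2 * m + 1)) {g : Matrix.SpecialLinearGroup (Fin 4) F}
    (hg : g ∈ Cfsg.Sz F m) :
    (g : Matrix (Fin 4) (Fin 4) F).transpose * Cfsg.suzukiForm F * (g : Matrix (Fin 4) (Fin 4) F) =
      Cfsg.suzukiForm F := by
  have D := Cfsg.Agent.Suz.data hm hF
  by_cases hi : g • Cfsg.Agent.Suz.inf F = Cfsg.Agent.Suz.inf F
  · obtain ⟨a, b, t, h⟩ := D.borel hg hi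
    rw [h]
    exact Pres.mul (pres_U _ D.h2 _ _) (pres_H _ _)
  · obtain ⟨a, b, c, d, t, h⟩ := D.bruhat hg hi
    rw [h]
    exact Pres.mul (Pres.mul (pres_U _ D.h2 _ _) pres_W) (Pres.mul (pres_U _ D.h2 _ _) (pres_H _ _))

end Cfsg.Agent.S0334
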