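import Cfsg.Statements.S0335
import Mathlib
import Cfsg.Agent.LibSuz4
-- import your own Cfsg.Agent.* helpers here

set_option autoImplicit false
open Cfsg

namespace Cfsg.Agent.S0335

open Cfsg.Agent.Suz

/-- The Suzuki–Tits point set is an ovoid: any three distinct points of it are projectively independent
(no line of projective 3-space meets it in more than two points). -/
theorem result {F : Type*} [Field F] [Fintype F] {m : ℕ} (hm : 1 ≤ m)
    (hF : Fintype.card F = 2 ^ (2 * m + 1)) (p : Fin 3 ↪ Cfsg.suzukiOvoid F m) :
    Projectivization.Independent (fun i => (p i : Projectivization F (Fin 4 → F))) := by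
  have D := Cfsg.Agent.Suz.data hm hF
  have h01 : (p 0 : Projectivization F (Fin 4 → F)) ≠ p 1 := fun h => by
    have := p.injective (Subtype.ext h)
    simp at this
  have h02 : (p 0 : Projectivization F (Fin 4 → F)) ≠ p 2 := fun h => by
    have := p.injective (Subtype.ext h)
    simp at this
  have h12 : (p 1 : Projectivization F (Fin 4 → F)) ≠ p 2 := fun h => by
    have := p.injective (Subtype.ext h)
    simp at this
  obtain ⟨g, hg0, hg1⟩ := D.gtwo (p 0).2 (p 1).2 h01
  have hinj : Function.Injective (fun x : Projectivization F (Fin 4 → F) => g • x) := MulAction.injective g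
  obtain ⟨x, y, hxy⟩ : ∃ x y, g • (p 2 : Projectivization F (Fin 4 → F)) = pt D.S x y := by
    rcases (D.hO _).mp (D.smul_mem g (p 2).2) with h | h
    · exfalso
      apply h02
      apply hinj
      exact hg0.trans h.symm
    · exact h
  have hne : ¬ (x = 0 ∧ y = 0) := by
    rintro ⟨rfl, rfl⟩
    apply h12
    apply hinj
    exact hg1.trans hxy.symm
  let M : Matrix.SpecialLinearGroup (Fin 4) F := (g⁻¹ : ↥(Gp (Cfsg.suzukiOvoid F m)))
  let v : Fin 3 → (Fin 4 → F) := ![![1, 0, 0, 0], vec D.S 0 0, vec D.S x y]
  have hlin : LinearIndependent F v := by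
    rw [Fintype.linearIndependent_iff]
    intro c hc
    have e0 := congrFun hc 0
    have e1 := congrFun hc 1
    have e2 := congrFun hc 2
    have e3 := congrFun hc 3
    simp [v, Fin.sum_univ_succ, vec, zf] at e0 e1 e2 e3
    have hc2 : c 2 = 0 := by
      rcases e1 with h | h
      · exact h
      · rcases e2 with h' | h'
        · exact h'
        · exact absurd ⟨h', h⟩ hne
    rw [hc2] at e0 e3
    simp at e0 e3
    intro i
    fin_cases i
    · exact e0
    · exact e3
    · exact hc2
  have hlin2 : LinearIndependent F (fun i => M • v i) := by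
    have hM : LinearMap.ker (Matrix.mulVecLin M.1) = ⊥ := by
      rw [LinearMap.ker_eq_bot]
      intro a b hab
      have : M • a = M • b := hab
      exact MulAction.injective M this
    exact hlin.map' (Matrix.mulVecLin M.1) hM
  have hne0 : ∀ i, M • v i ≠ 0 := fun i => hlin2.ne_zero i
  have hfun : (fun i => (p i : Projectivization F (Fin 4 → F))) = fun i => Projectivization.mk F (M • v i) (hne0 i) := by
    funext i
    have hMi : ∀ q : Projectivization F (Fin 4 → F), g • (p i : Projectivization F (Fin 4 → F)) = q →
        (p i : Projectivization F (Fin 4 → F)) = M • q := by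
      intro q hq
      have : (g⁻¹ : ↥(Gp (Cfsg.suzukiOvoid F m))) • q = (p i : Projectivization F (Fin 4 → F)) := by
        rw [← hq, inv_smul_smul]
      exact this.symm
    fin_cases i
    · exact hMi _ hg0
    · exact hMi _ hg1
    · exact hMi _ hxy
  rw [hfun]
  exact Projectivization.Independent.mk _ hne0 hlin2

end Cfsg.Agent.S0335
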