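import Cfsg.Statements.S0339
import Cfsg.Agent.LibZas2

set_option autoImplicit false
set_option linter.all false
open Cfsg

namespace Cfsg.Agent.S0339

/-- A non-trivial normal subgroup of a Zassenhaus group is itself a Zassenhaus group on the same set. -/
theorem result {G Ω : Type*} [Group G] [MulAction G Ω] [Finite Ω]
    (hZ : Cfsg.IsZassenhausGroup G Ω) (N : Subgroup G) [N.Normal] (hN : N ≠ ⊥) :
    Cfsg.IsZassenhausGroup N Ω := by
  classical
  haveI := Fintype.ofFinite Ω
  haveI := hZ.1
  haveI : Finite G := Finite.of_injective (MulAction.toPermHom G Ω) (MulAction.toPerm_injective)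
  obtain ⟨g, -, a, b, hab, -, -⟩ := hZ.2.2.2.1
  obtain ⟨H, h1, h2, h3⟩ := CfsgLib.Zas.exists_H hZ (a := a)
  exact (CfsgLib.Zas.Dat.mk (b := b) hZ hab h1 h2 h3).normal_zassenhaus hN

end Cfsg.Agent.S0339
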