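import Cfsg.Statements.S0354
import Mathlib
import Cfsg.Agent.LibSteiner

set_option autoImplicit false
open Cfsg

namespace Cfsg.Agent.S0354

/-- In an S(5, 8, 24), each block is disjoint from exactly 30 blocks. -/
theorem result {α : Type*} [Fintype α] [DecidableEq α] (hα : Fintype.card α = 24) {B : Set (Finset α)} (hB : Cfsg.IsSteinerSystem 5 8 B) {b : Finset α} (hb : b ∈ B) : {c : Finset α | c ∈ B ∧ Disjoint b c}.ncard = 30 := by
  have h4 := CfsgLib.Steiner.choose_mul_of_steiner hB b hb 4 5 (by norm_num) (by rw [hα]; decide) (by decide)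
  have h3 := CfsgLib.Steiner.choose_mul_of_steiner hB b hb 3 21 (by norm_num) (by rw [hα]; decide) (by decide)
  have h1 := CfsgLib.Steiner.choose_mul_of_steiner hB b hb 1 253 (by norm_num) (by rw [hα]; decide) (by decide)
  have h2 := CfsgLib.Steiner.choose_mul_of_steiner hB b hb 2 77 (by norm_num) (by rw [hα]; decide) (by decide)
  have h0 := CfsgLib.Steiner.choose_mul_of_steiner hB b hb 0 759 (by norm_num) (by rw [hα]; decide) (by decide)
  have e5 := CfsgLib.Steiner.meet_eq_zero_of_le hB hb (i := 5) (by norm_num) (by norm_num)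
  have e6 := CfsgLib.Steiner.meet_eq_zero_of_le hB hb (i := 6) (by norm_num) (by norm_num)
  have e7 := CfsgLib.Steiner.meet_eq_zero_of_le hB hb (i := 7) (by norm_num) (by norm_num)
  have e8 := CfsgLib.Steiner.meet_self hB hb (by norm_num)
  simp only [Finset.sum_range_succ, Finset.sum_range_zero, e5, e6, e7, e8, Nat.choose] at h0 h1 h2 h3 h4
  have h30 : CfsgLib.Steiner.meet B b 0 = 30 := by
    norm_num at h0 h1 h2 h3 h4
    omega
  rw [← h30, CfsgLib.Steiner.meet, ← Set.ncard_coe_finset]
  congr 1
  ext c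
  simp [Finset.disjoint_iff_inter_eq_empty, Finset.card_eq_zero]

end Cfsg.Agent.S0354
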