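import Cfsg.Statements.S0357
import Mathlib
import Cfsg.Agent.LibSteiner

set_option autoImplicit false
open Cfsg

namespace Cfsg.Agent.S0357

/-- In a Steiner system S(5, 6, 12), the complement of every block is again a block. -/
theorem result {α : Type*} [Fintype α] [DecidableEq α] (hα : Fintype.card α = 12) {B : Set (Finset α)} (hB : Cfsg.IsSteinerSystem 5 6 B) {b : Finset α} (hb : b ∈ B) : bᶜ ∈ B := by
  have h4 := CfsgLib.Steiner.choose_mul_of_steiner hB b hb 4 4 (by norm_num) (by rw [hα]; decide) (by decide)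
  have h3 := CfsgLib.Steiner.choose_mul_of_steiner hB b hb 3 12 (by norm_num) (by rw [hα]; decide) (by decide)
  have h1 := CfsgLib.Steiner.choose_mul_of_steiner hB b hb 1 66 (by norm_num) (by rw [hα]; decide) (by decide)
  have h2 := CfsgLib.Steiner.choose_mul_of_steiner hB b hb 2 30 (by norm_num) (by rw [hα]; decide) (by decide)
  have h0 := CfsgLib.Steiner.choose_mul_of_steiner hB b hb 0 132 (by norm_num) (by rw [hα]; decide) (by decide)
  have e5 := CfsgLib.Steiner.meet_eq_zero_of_le hB hb (i := 5) (by norm_num) (by norm_num)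
  have e6 := CfsgLib.Steiner.meet_self hB hb (by norm_num)
  simp only [Finset.sum_range_succ, Finset.sum_range_zero, e5, e6, Nat.choose] at h0 h1 h2 h3 h4
  have h30 : CfsgLib.Steiner.meet B b 0 = 1 := by omega
  have hpos : 0 < CfsgLib.Steiner.meet B b 0 := by omega
  rw [CfsgLib.Steiner.meet, Finset.card_pos] at hpos
  obtain ⟨c, hc⟩ := hpos
  simp only [Finset.mem_filter, CfsgLib.Steiner.mem_blocks, Finset.card_eq_zero] at hc
  have hsub : c ⊆ bᶜ := by
    rw [Finset.subset_compl_iff_disjoint_left, Finset.disjoint_iff_inter_eq_empty]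
    exact hc.2
  have : c = bᶜ := by
    apply Finset.eq_of_subset_of_card_le hsub
    rw [Finset.card_compl, hα, hB.1 b hb, hB.1 c hc.1]
  rw [← this]; exact hc.1

end Cfsg.Agent.S0357
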