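import Cfsg.Statements.S0359
import Mathlib
import Cfsg.Agent.LibGolay

set_option autoImplicit false
open Cfsg

namespace Cfsg.Agent.S0359

/-- The weight of every word of the length-24 code is one of 0, 8, 12, 16, 24. -/
theorem result (w : Cfsg.GolayPt → ZMod 2) (hw : w ∈ Cfsg.golayCode) : hammingNorm w = 0 ∨ hammingNorm w = 8 ∨ hammingNorm w = 12 ∨ hammingNorm w = 16 ∨ hammingNorm w = 24 := by
  obtain ⟨k, hk, rfl⟩ := CfsgLib.Golay.mem_golayCode.1 hw
  have h := CfsgLib.Golay.card_of_mem_supports (CfsgLib.Golay.mem_supports.2 ⟨k, hk, rfl⟩)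
  rw [CfsgLib.Golay.card_fset] at h
  rw [CfsgLib.Golay.hammingNorm_word]
  rcases h with h | h | h | h | h
  · left; rw [← CfsgLib.Golay.card_fset, h]; rfl
  · exact Or.inr (Or.inl h)
  · exact Or.inr (Or.inr (Or.inl h))
  · exact Or.inr (Or.inr (Or.inr (Or.inl h)))
  · exact Or.inr (Or.inr (Or.inr (Or.inr h)))

end Cfsg.Agent.S0359
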