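import Cfsg.Statements.S0363
import Mathlib
import Cfsg.Agent.LibM24

set_option autoImplicit false
open Cfsg

namespace Cfsg.Agent.S0363

/-- The octads of the length-24 code form a Steiner system S(5, 8, 24) on the 24 points. -/
theorem result : Cfsg.IsSteinerSystem 5 8 Cfsg.octads := by
  exact CfsgLib.M24.octads_steiner

end Cfsg.Agent.S0363
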