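import Cfsg.Statements.S0367
import Mathlib
import Cfsg.Agent.LibM24b

set_option autoImplicit false
open scoped Pointwise
open Cfsg

namespace Cfsg.Agent.S0367

/-- The permutation group preserving the length-24 code is transitive on octads. -/
theorem result (o o' : Finset Cfsg.GolayPt) (ho : o ∈ Cfsg.octads) (ho' : o' ∈ Cfsg.octads) : ∃ g : Cfsg.M24, g • o = o' := by
  obtain ⟨x, hx⟩ := CfsgLib.M24.exists_emb (s := o) (n := 5) (by rw [ho.2]; norm_num)
  obtain ⟨y, hy⟩ := CfsgLib.M24.exists_emb (s := o') (n := 5) (by rw [ho'.2]; norm_num)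
  obtain ⟨g, hg, h⟩ := CfsgLib.M24.five_trans x y
  refine ⟨⟨g, hg⟩, ?_⟩
  apply CfsgLib.M24.octad_eq (CfsgLib.M24.smul_mem_octads hg ho) ho'
  have : (Finset.univ.map y).card = 5 := by rw [Finset.card_map, Finset.card_univ, Fintype.card_fin]
  rw [← this]
  apply Finset.card_le_card
  intro p hp
  rw [Finset.mem_map] at hp
  obtain ⟨i, _, rfl⟩ := hp
  rw [Finset.mem_inter]
  refine ⟨?_, hy i⟩
  rw [← h i]
  exact Finset.smul_mem_smul_finset (hx i)

end Cfsg.Agent.S0367
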