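import Cfsg.Statements.S0373
import Mathlib
import Cfsg.Agent.LibM24b

set_option autoImplicit false
open Cfsg

namespace Cfsg.Agent.S0373

/-- The cube-twist permutation (squares t ↦ t^3/9, non-squares t ↦ 9t^3, extra point fixed) lies in the group of the length-24 code. -/
theorem result : Cfsg.cubeTwist ∈ Cfsg.M24 := by
  have h : CfsgLib.M24.isM24 [0, 18, 6, 3, 2, 21, 1, 5, 16, 12, 7, 19, 8, 9, 17, 15, 13, 11, 4, 22, 10, 20, 14, 23] = true := by
    decide +kernel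
  have h2 := h
  rw [CfsgLib.M24.isM24, Bool.and_eq_true] at h2
  have : Cfsg.cubeTwist = CfsgLib.M24.mkPerm [0, 18, 6, 3, 2, 21, 1, 5, 16, 12, 7, 19, 8, 9, 17, 15, 13, 11, 4, 22, 10, 20, 14, 23] := by
    apply Equiv.ext
    intro p
    rw [CfsgLib.M24.mkPerm_apply (CfsgLib.M24.pfun_bijective h2.1)]
    have key : ∀ p : Cfsg.GolayPt, Cfsg.cubeTwistFun p = CfsgLib.M24.pfun [0, 18, 6, 3, 2, 21, 1, 5, 16, 12, 7, 19, 8, 9, 17, 15, 13, 11, 4, 22, 10, 20, 14, 23] p := by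
      decide +kernel
    exact key p
  rw [this]
  exact CfsgLib.M24.isM24_spec h

end Cfsg.Agent.S0373
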