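import Cfsg.Statements.S0374
import Mathlib
import Cfsg.Agent.LibM24Gen

set_option autoImplicit false
open Cfsg

namespace Cfsg.Agent.S0374

open CfsgLib.M24 CfsgLib.M24Gen CfsgLib.Golay

/-- The group of the length-24 code is generated by x ↦ x+1, x ↦ -1/x and the cube-twist permutation. -/
theorem result : Subgroup.closure {Equiv.optionCongr (Equiv.addRight (1 : ZMod 23)), Cfsg.projInv, Cfsg.cubeTwist} = Cfsg.M24 := by
  have hA : Equiv.optionCongr (Equiv.addRight (1 : ZMod 23)) = mkPerm (T.getD 1 []) := by
    apply Equiv.ext
    intro p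
    rw [mkPerm_apply (pfun_bijective (by decide +kernel))]
    revert p
    decide +kernel
  have hB : Cfsg.projInv = mkPerm (T.getD 2 []) := by
    apply Equiv.ext
    intro p
    rw [mkPerm_apply (pfun_bijective (by decide +kernel))]
    revert p
    decide +kernel
  have hC : Cfsg.cubeTwist = mkPerm (T.getD 3 []) := by
    apply Equiv.ext
    intro p
    rw [mkPerm_apply (pfun_bijective (by decide +kernel))]
    have key : ∀ p : Cfsg.GolayPt, Cfsg.cubeTwistFun p = pfun (T.getD 3 []) p := by
      decide +kernel
    exact key p
  have hle : Subgroup.closure {Equiv.optionCongr (Equiv.addRight (1 : ZMod 23)), Cfsg.projInv, Cfsg.cubeTwist} ≤ Cfsg.M24 := by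
    rw [Subgroup.closure_le]
    rintro g (rfl | rfl | rfl)
    · rw [hA]; exact isM24_spec (by decide +kernel)
    · rw [hB]; exact isM24_spec (by decide +kernel)
    · rw [hC]; exact isM24_spec (by decide +kernel)
  refine le_antisymm hle (M24_le hle ?_)
  intro m hm
  have h0 : mkPerm (T.getD 0 []) = 1 := by
    apply Equiv.ext
    intro p
    rw [mkPerm_apply (pfun_bijective (by decide +kernel))]
    revert p
    decide +kernel
  interval_cases m
  · exact ⟨by decide +kernel, by rw [h0]; exact Subgroup.one_mem _⟩
  · exact ⟨by decide +kernel, by rw [← hA]; exact Subgroup.subset_closure (by simp)⟩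
  · exact ⟨by decide +kernel, by rw [← hB]; exact Subgroup.subset_closure (by simp)⟩
  · exact ⟨by decide +kernel, by rw [← hC]; exact Subgroup.subset_closure (by simp)⟩

end Cfsg.Agent.S0374
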