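import Cfsg.Statements.S0384
import Mathlib
import Cfsg.Agent.LibM24c

set_option autoImplicit false
open scoped Pointwise
open Cfsg

namespace Cfsg.Agent.S0384

/-- A dodecad stabiliser is sharply 5-transitive on the dodecad. -/
theorem result (d : Finset Cfsg.GolayPt) (hd : d ∈ Cfsg.dodecads) (x y : Fin 5 ↪ Cfsg.GolayPt) (hx : ∀ i, x i ∈ d) (hy : ∀ i, y i ∈ d) : ∃! g : MulAction.stabilizer Cfsg.M24 d, ∀ i, ((g : Cfsg.M24) : Equiv.Perm Cfsg.GolayPt) (x i) = y i := by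
  obtain ⟨g, hg, h1, h2⟩ := CfsgLib.M24.sharp_five hd x y hx hy
  refine ⟨⟨⟨g, hg⟩, h1⟩, h2, ?_⟩
  rintro ⟨⟨k, hk⟩, h3⟩ h4
  have h5 : g⁻¹ * k = 1 := by
    apply CfsgLib.M24.eq_one_of_dodecad (Subgroup.mul_mem _ (Subgroup.inv_mem _ hg) hk) hd _ x hx
    · intro i
      rw [Equiv.Perm.mul_apply, Equiv.Perm.inv_eq_iff_eq, h2]
      exact h4 i
    · have h6 : k • d = d := h3
      rw [mul_smul, h6, inv_smul_eq_iff, h1]
  rw [inv_mul_eq_one] at h5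
  subst h5
  rfl

end Cfsg.Agent.S0384
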