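import Cfsg.Statements.S0389
import Mathlib
import Cfsg.Agent.LibM24c

set_option autoImplicit false
open scoped Pointwise
open Cfsg

namespace Cfsg.Agent.S0389


open CfsgLib.Golay CfsgLib.M24 in
/-- check of a list of permutations -/
def lvOK (L : List (List ℕ)) (fx : List ℕ) (b T : ℕ) : Bool :=
  and (L.all fun P => and (isM24 P) (and (Nat.beq (pmask P d0) d0) (fx.all fun i => Nat.beq (P.getD i 0) i)))
    ((List.range 24).all fun j => or (not (T.testBit j)) (L.any fun P => Nat.beq (P.getD b 0) j))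

open CfsgLib.Golay CfsgLib.M24 in
open scoped Pointwise in
theorem lvOK_spec {L : List (List ℕ)} {fx : List ℕ} {b T : ℕ} (h : lvOK L fx b T = true) (hfx : ∀ i ∈ fx, i < 24)
    (hb : b < 24) (q : GolayPt) (hq : T.testBit (idx q) = true) :
    ∃ g ∈ M24, g • fset d0 = fset d0 ∧ (∀ i ∈ fx, g (pt i) = pt i) ∧ g (pt b) = q := by
  rw [lvOK, Bool.and_eq_true, List.all_eq_true, List.all_eq_true] at h
  have h1 := h.2 (idx q) (List.mem_range.2 (idx_lt q))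
  rw [hq, Bool.not_true, Bool.false_or, List.any_eq_true] at h1
  obtain ⟨P, hP, hPb⟩ := h1
  have h2 := h.1 P hP
  rw [Bool.and_eq_true, Bool.and_eq_true, beq_iff, List.all_eq_true] at h2
  have hv := valid_of_isM24 h2.1
  refine ⟨mkPerm P, isM24_spec h2.1, ?_, fun i hi => ?_, ?_⟩
  · rw [smul_fset hv, h2.2.1]
  · apply idx_injective
    rw [idx_mkPerm hv, idx_pt i (hfx i hi), beq_iff.1 (h2.2.2 i hi)]
  · apply idx_injective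
    rw [idx_mkPerm hv, idx_pt b hb, beq_iff.1 hPb]

/-- level 0 -/
def L0 : List (List ℕ) := [[0, 1, 2, 3, 4, 5, 6, 7, 8, 9, 10, 11, 12, 13, 14, 15, 16, 17, 18, 19, 20, 21, 22, 23],
  [2, 3, 7, 9, 5, 17, 8, 1, 0, 12, 21, 11, 15, 4, 6, 14, 19, 10, 13, 20, 18, 22, 16, 23],
  [14, 9, 2, 1, 10, 11, 15, 3, 12, 6, 18, 17, 8, 5, 7, 0, 21, 4, 20, 16, 13, 22, 19, 23],
  [1, 7, 8, 15, 11, 5, 14, 6, 3, 9, 10, 20, 2, 19, 0, 12, 13, 4, 22, 18, 21, 17, 16, 23],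
  [8, 7, 15, 1, 13, 5, 6, 3, 14, 2, 18, 11, 12, 17, 0, 9, 20, 4, 22, 16, 19, 21, 10, 23],
  [1, 15, 8, 9, 16, 17, 0, 7, 2, 6, 20, 21, 14, 10, 3, 12, 22, 11, 13, 4, 19, 5, 18, 23],
  [15, 3, 0, 7, 17, 11, 12, 1, 9, 14, 20, 5, 6, 4, 2, 8, 10, 13, 19, 22, 18, 21, 16, 23],
  [12, 14, 8, 6, 18, 5, 7, 15, 9, 3, 16, 20, 2, 19, 0, 1, 13, 21, 17, 11, 4, 22, 10, 23],
  [7, 0, 15, 14, 19, 21, 12, 6, 1, 3, 13, 5, 8, 20, 9, 2, 22, 17, 4, 18, 11, 10, 16, 23],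
  [9, 6, 15, 12, 20, 21, 8, 14, 3, 7, 22, 5, 0, 18, 2, 1, 16, 11, 19, 10, 13, 4, 17, 23],
  [2, 3, 6, 15, 21, 18, 8, 14, 12, 9, 10, 20, 0, 5, 1, 7, 22, 4, 16, 19, 17, 11, 13, 23],
  [2, 0, 3, 14, 22, 5, 6, 12, 9, 15, 13, 21, 8, 18, 1, 7, 19, 17, 4, 20, 11, 16, 10, 23]]

/-- level 1 -/
def L1 : List (List ℕ) := [[0, 1, 2, 3, 4, 5, 6, 7, 8, 9, 10, 11, 12, 13, 14, 15, 16, 17, 18, 19, 20, 21, 22, 23],
  [8, 9, 1, 7, 4, 10, 2, 6, 15, 0, 19, 17, 3, 18, 12, 14, 20, 21, 11, 16, 22, 5, 13, 23],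
  [1, 9, 15, 3, 4, 11, 12, 14, 2, 6, 13, 10, 0, 19, 8, 7, 21, 17, 20, 5, 22, 18, 16, 23],
  [2, 8, 1, 15, 4, 13, 0, 12, 6, 3, 22, 16, 9, 17, 14, 7, 10, 21, 5, 11, 20, 18, 19, 23],
  [8, 3, 7, 15, 4, 16, 9, 14, 1, 0, 17, 22, 2, 11, 6, 12, 18, 21, 20, 13, 19, 5, 10, 23],
  [12, 0, 7, 3, 4, 17, 14, 1, 9, 15, 10, 5, 2, 11, 8, 6, 21, 19, 22, 13, 18, 20, 16, 23],
  [2, 6, 0, 14, 4, 18, 7, 1, 15, 12, 20, 17, 8, 5, 9, 3, 10, 13, 22, 21, 16, 19, 11, 23],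
  [0, 2, 6, 7, 4, 19, 8, 15, 14, 3, 16, 18, 9, 10, 1, 12, 11, 21, 13, 17, 20, 22, 5, 23],
  [3, 12, 0, 6, 4, 20, 1, 15, 7, 14, 11, 19, 8, 5, 2, 9, 13, 16, 17, 21, 10, 22, 18, 23],
  [2, 0, 7, 1, 4, 21, 15, 3, 9, 14, 10, 22, 12, 20, 6, 8, 17, 19, 5, 13, 16, 11, 18, 23],
  [7, 0, 2, 12, 4, 22, 15, 3, 6, 8, 10, 21, 1, 18, 9, 14, 17, 5, 19, 11, 16, 13, 20, 23]]

/-- level 2 -/
def L2 : List (List ℕ) := [[0, 1, 2, 3, 4, 5, 6, 7, 8, 9, 10, 11, 12, 13, 14, 15, 16, 17, 18, 19, 20, 21, 22, 23],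
  [8, 15, 12, 3, 4, 5, 9, 0, 1, 14, 11, 19, 6, 17, 2, 7, 18, 10, 20, 13, 22, 16, 21, 23],
  [15, 0, 9, 3, 4, 5, 2, 1, 7, 12, 13, 17, 14, 11, 6, 8, 22, 19, 21, 10, 16, 20, 18, 23],
  [0, 7, 9, 2, 4, 5, 14, 15, 8, 3, 16, 20, 6, 10, 12, 1, 13, 22, 11, 17, 18, 21, 19, 23],
  [7, 15, 14, 2, 4, 5, 12, 8, 1, 9, 17, 10, 3, 16, 6, 0, 18, 20, 19, 22, 21, 11, 13, 23],
  [0, 8, 12, 14, 4, 5, 3, 7, 15, 2, 18, 13, 9, 20, 6, 1, 10, 21, 16, 17, 11, 19, 22, 23],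
  [8, 1, 9, 6, 4, 5, 12, 7, 15, 14, 19, 11, 3, 20, 2, 0, 18, 16, 17, 21, 22, 10, 13, 23],
  [0, 8, 14, 6, 4, 5, 9, 1, 7, 3, 20, 16, 2, 11, 12, 15, 13, 21, 10, 19, 18, 22, 17, 23],
  [7, 15, 6, 14, 4, 5, 9, 1, 0, 3, 21, 18, 12, 17, 2, 8, 19, 20, 10, 13, 16, 22, 11, 23],
  [15, 8, 12, 2, 4, 5, 6, 1, 0, 14, 22, 16, 9, 17, 3, 7, 21, 10, 13, 20, 11, 19, 18, 23]]

theorem L0_ok : lvOK L0 [23] 4 8334384 = true := by decide +kernel
theorem L1_ok : lvOK L1 [23, 4] 5 8334368 = true := by decide +kernel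
theorem L2_ok : lvOK L2 [23, 4, 5] 10 8334336 = true := by decide +kernel

open CfsgLib.Golay CfsgLib.M24 in
theorem testBit_iff (q : GolayPt) : (8334384 : ℕ).testBit (idx q) = true ↔ q ∉ fset d0 := by
  rw [mem_fset]; revert q; decide

open CfsgLib.Golay CfsgLib.M24 in
theorem testBit_iff1 (q : GolayPt) (h : q ∉ fset d0) (h1 : q ≠ pt 4) : (8334368 : ℕ).testBit (idx q) = true := by
  rw [mem_fset] at h; revert q; decide

open CfsgLib.Golay CfsgLib.M24 in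
theorem testBit_iff2 (q : GolayPt) (h : q ∉ fset d0) (h1 : q ≠ pt 4) (h2 : q ≠ pt 5) :
    (8334336 : ℕ).testBit (idx q) = true := by
  rw [mem_fset] at h; revert q; decide

open CfsgLib.Golay CfsgLib.M24 in
open scoped Pointwise in
theorem not_mem_of {g : Equiv.Perm GolayPt} {d d' : Finset GolayPt} (h : g • d = d') {x : GolayPt} (hx : x ∉ d) :
    g x ∉ d' := by
  rw [← h, Finset.mem_smul_finset]
  rintro ⟨y, hy, hyx⟩
  exact hx (by rw [← g.injective hyx]; exact hy)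

open CfsgLib.Golay CfsgLib.M24 in
open scoped Pointwise in
/-- moving a triple to the base triple -/
theorem toBase (d : Finset GolayPt) (hd : d ∈ dodecads) (p : GolayPt) (hp : p ∈ d) (x : Fin 3 ↪ GolayPt)
    (hx : ∀ i, x i ∉ d) : ∃ g ∈ M24, g • d = fset d0 ∧ g p = pt 23 ∧ g (x 0) = pt 4 ∧ g (x 1) = pt 5 ∧
      g (x 2) = pt 10 := by
  -- first the dodecad and the point
  have h5 : 4 ≤ (d.erase p).card := by rw [Finset.card_erase_of_mem hp, hd.2]; norm_num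
  obtain ⟨z, hz⟩ := exists_emb h5
  have hcons : Function.Injective (Fin.cons p z : Fin 5 → GolayPt) := by
    rw [Fin.cons_injective_iff]
    refine ⟨?_, z.injective⟩
    rintro ⟨i, hi⟩
    exact (Finset.mem_erase.1 (hz i)).1 hi
  obtain ⟨g, hg, hgx, hgd⟩ := move_dodecad hd ⟨_, hcons⟩ (fun i => by
    refine Fin.cases hp (fun j => ?_) i
    exact (Finset.mem_erase.1 (hz j)).2)
  have hgp : g p = pt 23 := hgx 0
  have e0 := not_mem_of hgd (hx 0)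
  have e1 := not_mem_of hgd (hx 1)
  have e2 := not_mem_of hgd (hx 2)
  have n01 : g (x 0) ≠ g (x 1) := fun h => absurd (x.injective (g.injective h)) (by decide)
  have n02 : g (x 0) ≠ g (x 2) := fun h => absurd (x.injective (g.injective h)) (by decide)
  have n12 : g (x 1) ≠ g (x 2) := fun h => absurd (x.injective (g.injective h)) (by decide)
  obtain ⟨a, ha, had, haf, hax⟩ := lvOK_spec L0_ok (by decide) (by norm_num) (g (x 0)) ((testBit_iff _).2 e0)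
  have ha23 := haf 23 (by decide)
  have had' : a⁻¹ • fset d0 = fset d0 := by rw [inv_smul_eq_iff, had]
  have f1 := not_mem_of had' e1
  have f2 := not_mem_of had' e2
  have ha0 : a⁻¹ (g (x 0)) = pt 4 := by rw [Equiv.Perm.inv_eq_iff_eq, hax]
  have m1 : a⁻¹ (g (x 1)) ≠ pt 4 := by
    intro h; rw [← ha0] at h; exact n01 (a⁻¹.injective h).symm
  have m2 : a⁻¹ (g (x 2)) ≠ pt 4 := by
    intro h; rw [← ha0] at h; exact n02 (a⁻¹.injective h).symm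
  obtain ⟨b, hb, hbd, hbf, hbx⟩ := lvOK_spec L1_ok (by decide) (by norm_num) _ (testBit_iff1 _ f1 m1)
  have hb23 := hbf 23 (by decide)
  have hb0 := hbf 4 (by decide)
  have hbd' : b⁻¹ • fset d0 = fset d0 := by rw [inv_smul_eq_iff, hbd]
  have k2 := not_mem_of hbd' f2
  have hb1 : b⁻¹ (a⁻¹ (g (x 1))) = pt 5 := by rw [Equiv.Perm.inv_eq_iff_eq, hbx]
  have hb0' : b⁻¹ (pt 4) = pt 4 := by rw [Equiv.Perm.inv_eq_iff_eq, hb0]
  have q1 : b⁻¹ (a⁻¹ (g (x 2))) ≠ pt 4 := by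
    intro h; rw [← hb0'] at h; exact m2 (b⁻¹.injective h)
  have q2 : b⁻¹ (a⁻¹ (g (x 2))) ≠ pt 5 := by
    intro h; rw [← hb1] at h; exact n12 (a⁻¹.injective (b⁻¹.injective h)).symm
  obtain ⟨c, hc, hcd, hcf, hcx⟩ := lvOK_spec L2_ok (by decide) (by norm_num) _ (testBit_iff2 _ k2 q1 q2)
  have hc23 := hcf 23 (by decide)
  have hc0 := hcf 4 (by decide)
  have hc1 := hcf 5 (by decide)
  refine ⟨c⁻¹ * b⁻¹ * a⁻¹ * g, mul_mem (mul_mem (mul_mem (inv_mem hc) (inv_mem hb)) (inv_mem ha)) hg, ?_, ?_, ?_,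
    ?_, ?_⟩
  · rw [mul_smul, mul_smul, mul_smul, hgd, had', hbd', inv_smul_eq_iff, hcd]
  · simp only [Equiv.Perm.mul_apply]
    rw [hgp, Equiv.Perm.inv_eq_iff_eq, hc23, Equiv.Perm.inv_eq_iff_eq, hb23, Equiv.Perm.inv_eq_iff_eq, ha23]
  · simp only [Equiv.Perm.mul_apply]
    rw [ha0, hb0', Equiv.Perm.inv_eq_iff_eq, hc0]
  · simp only [Equiv.Perm.mul_apply]
    rw [hb1, Equiv.Perm.inv_eq_iff_eq, hc1]
  · simp only [Equiv.Perm.mul_apply]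
    rw [Equiv.Perm.inv_eq_iff_eq, hcx]

/-- The stabiliser of a dodecad and a point on it is 3-transitive on the complementary dodecad. -/
theorem result (d : Finset Cfsg.GolayPt) (hd : d ∈ Cfsg.dodecads) (p : Cfsg.GolayPt) (hp : p ∈ d) (x y : Fin 3 ↪ Cfsg.GolayPt) (hx : ∀ i, x i ∉ d) (hy : ∀ i, y i ∉ d) : ∃ g ∈ MulAction.stabilizer Cfsg.M24 d ⊓ MulAction.stabilizer Cfsg.M24 p, ∀ i, (g : Equiv.Perm Cfsg.GolayPt) (x i) = y i := by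
  obtain ⟨g, hg, g1, g2, g3, g4, g5⟩ := toBase d hd p hp x hx
  obtain ⟨h, hh, h1, h2, h3, h4, h5⟩ := toBase d hd p hp y hy
  refine ⟨⟨h⁻¹ * g, mul_mem (inv_mem hh) hg⟩, Subgroup.mem_inf.2 ⟨?_, ?_⟩, ?_⟩
  · rw [MulAction.mem_stabilizer_iff]
    change (h⁻¹ * g) • d = d
    rw [mul_smul, g1, inv_smul_eq_iff, h1]
  · rw [MulAction.mem_stabilizer_iff]
    change (h⁻¹ * g) p = p
    rw [Equiv.Perm.mul_apply, g2, Equiv.Perm.inv_eq_iff_eq, h2]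
  · intro i
    change (h⁻¹ * g) (x i) = y i
    rw [Equiv.Perm.mul_apply, Equiv.Perm.inv_eq_iff_eq]
    fin_cases i
    · exact g3.trans h3.symm
    · exact g4.trans h4.symm
    · exact g5.trans h5.symm

end Cfsg.Agent.S0389
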