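import Cfsg.Statements.S0406
import Mathlib
import Cfsg.Agent.LibFrameD

set_option autoImplicit false
open Matrix
open Cfsg

namespace Cfsg.Agent.S0406

/-- A rank-24 even lattice with no roots and the stated numbers of vectors of norms 4, 6, 8 is isomorphic to the Leech lattice. -/
theorem result (B : Matrix (Fin 24) (Fin 24) ℤ) (hsymm : B.IsSymm) (hpos : ∀ x : Fin 24 → ℤ, x ≠ 0 → 0 < x ⬝ᵥ (B *ᵥ x)) (heven : ∀ x : Fin 24 → ℤ, (2 : ℤ) ∣ x ⬝ᵥ (B *ᵥ x)) (h2 : ∀ x : Fin 24 → ℤ, x ⬝ᵥ (B *ᵥ x) ≠ 2) (h4 : {x : Fin 24 → ℤ | x ⬝ᵥ (B *ᵥ x) = 4}.ncard = 196560) (h6 : {x : Fin 24 → ℤ | x ⬝ᵥ (B *ᵥ x) = 6}.ncard = 16773120) (h8 : {x : Fin 24 → ℤ | x ⬝ᵥ (B *ᵥ x) = 8}.ncard = 398034000) : ∃ f : (Fin 24 → ℤ) ≃+ Cfsg.leechLattice, ∀ x : Fin 24 → ℤ, Cfsg.sqNorm ((f x : Cfsg.leechLattice) : Cfsg.GolayPt → ℤ) = 8 * (x ⬝ᵥ (B *ᵥ x)) :=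 by
  obtain ⟨x0, hx0⟩ : ∃ x : Fin 24 → ℤ, x ⬝ᵥ (B *ᵥ x) = 8 := by
    by_contra hcon
    have : {x : Fin 24 → ℤ | x ⬝ᵥ (B *ᵥ x) = 8} = ∅ := by
      ext x
      constructor
      · intro h; exact hcon ⟨x, h⟩
      · intro h; exact absurd h (Set.notMem_empty x)
    rw [this, Set.ncard_empty] at h8
    omega
  obtain ⟨f, hf, _⟩ := CfsgLib.Frame.frame_iso
    (CfsgLib.Frame.hyp_BM B hsymm hpos heven h2 h4 h6 h8) (x := x0) hx0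
  rw [CfsgLib.Leech.leechLattice_eq]
  refine ⟨f, fun x => ?_⟩
  have h := hf x x
  rw [CfsgLib.Frame.BM_apply] at h
  rw [← h, sqNorm]
  exact Finset.sum_congr rfl fun i _ => pow_two _

end Cfsg.Agent.S0406
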