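import Cfsg.Statements.S0412
import Mathlib
import Cfsg.Agent.LibAutDesign
import Cfsg.Agent.S0407

set_option autoImplicit false
open Cfsg

namespace Cfsg.Agent.S0412

open CfsgLib.AutD CfsgLib.M24 CfsgLib.Golay in
theorem aux {α : Type*} [Fintype α] [DecidableEq α] (hα : Fintype.card α = 24) {B : Set (Finset α)} (hB : Cfsg.IsSteinerSystem 5 8 B) : Cfsg.IsM24 (Cfsg.setSystemAut B) ∧ MulAction.IsMultiplyPretransitive (Cfsg.setSystemAut B) α 5 := by
  have hiso : SetSystemIso B octads := Cfsg.Agent.S0407.result hα card_pt hB octads_steiner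
  obtain ⟨e⟩ := nonempty_equiv hiso
  have e' : setSystemAut B ≃* M24 := e.trans (MulEquiv.subgroupCongr M24_eq_octads.symm)
  refine ⟨⟨?_, ?_⟩, ?_⟩
  · haveI := simple_M24
    exact e'.isSimpleGroup
  · rw [Nat.card_congr e'.toEquiv, card_M24]
  · rw [← multi_iff]
    apply multi_of_iso hiso
    rw [← M24_eq_octads]
    intro x y
    exact five_trans x y

/-- Aut of an S(5, 8, 24) is simple of order 244823040 and 5-transitive on points. -/
theorem result {α : Type*} [Fintype α] [DecidableEq α] (hα : Fintype.card α = 24) {B : Set (Finset α)} (hB : Cfsg.IsSteinerSystem 5 8 B) : Cfsg.IsM24 (Cfsg.setSystemAut B) ∧ MulAction.IsMultiplyPretransitive (Cfsg.setSystemAut B) α 5 := by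
  exact aux hα hB

end Cfsg.Agent.S0412
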