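import Cfsg.Statements.S0413
import Mathlib
import Cfsg.Agent.LibAutDesign
import Cfsg.Agent.S0409

set_option autoImplicit false
open Cfsg

namespace Cfsg.Agent.S0413

open CfsgLib.AutD CfsgLib.M24 CfsgLib.Golay in
theorem aux {α : Type*} [Fintype α] [DecidableEq α] (hα : Fintype.card α = 23) {B : Set (Finset α)} (hB : Cfsg.IsSteinerSystem 4 7 B) : Cfsg.IsM23 (Cfsg.setSystemAut B) ∧ MulAction.IsMultiplyPretransitive (Cfsg.setSystemAut B) α 4 := by
  have hiso : SetSystemIso B (res octads F1) := Cfsg.Agent.S0409.result hα (card_sub (by decide)) hB steiner23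
  obtain ⟨e⟩ := nonempty_equiv hiso
  have e' : setSystemAut B ≃* ↥(M24 ⊓ St none) :=
    (e.trans ((setSystemAut (res octads F1)).equivMapOfInjective _ Equiv.Perm.ofSubtype_injective)).trans
      (MulEquiv.subgroupCongr map_aut23)
  refine ⟨⟨?_, ?_⟩, ?_⟩
  · haveI := simple_M23 none
    exact e'.isSimpleGroup
  · rw [Nat.card_congr e'.toEquiv, card_M23]
  · rw [← multi_iff]
    exact multi_of_iso hiso multi23

/-- Aut of an S(4, 7, 23) is simple of order 10200960 and 4-transitive. -/
theorem result {α : Type*} [Fintype α] [DecidableEq α] (hα : Fintype.card α = 23) {B : Set (Finset α)} (hB : Cfsg.IsSteinerSystem 4 7 B) : Cfsg.IsM23 (Cfsg.setSystemAut B) ∧ MulAction.IsMultiplyPretransitive (Cfsg.setSystemAut B) α 4 := by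
  exact aux hα hB

end Cfsg.Agent.S0413
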