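import Cfsg.Statements.S0417
import Cfsg.Agent.LibShH14


set_option autoImplicit false
open Cfsg

namespace Cfsg.Agent.S0417

/-- For k ≥ 6, sharply k-transitive groups have degree k, k+1 or k+2. -/
theorem result {α : Type*} [Fintype α] [DecidableEq α] (G : Subgroup (Equiv.Perm α)) (k : ℕ) (hk : 6 ≤ k) (hn : k ≤ Fintype.card α) [MulAction.IsMultiplyPretransitive G α k] (hsharp : ∀ x : Fin k ↪ α, MulAction.stabilizer G x = ⊥) : Fintype.card α = k ∨ Fintype.card α = k + 1 ∨ Fintype.card α = k + 2 := by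
  have h := CfsgLib.ShH14.shL_of G k inferInstance hsharp
  obtain ⟨j, rfl⟩ : ∃ j, k = 6 + j := ⟨k - 6, by omega⟩
  have h' : CfsgLib.ShH14.ShL G α (4 + (j + 2)) := by
    have e : 4 + (j + 2) = 6 + j := by omega
    rw [e]; exact h
  have h2 := CfsgLib.ShH14.ShL.four_add (j + 2) h' (by omega)
  rcases h2 with h2 | h2 | h2 | h2
  · left; omega
  · right; left; omega
  · right; right; omega
  · exact (CfsgLib.ShH14.ShL.six_add j h (by omega)).elim

end Cfsg.Agent.S0417
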