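import Cfsg.Statements.S0430
import Mathlib
import Cfsg.Agent.LibSRG100

set_option autoImplicit false
open Cfsg

namespace Cfsg.Agent.S0430

/-- Uniqueness of the strongly regular graph with parameters (100, 22, 0, 6). -/
theorem result {V W : Type*} [Fintype V] [Fintype W] {G : SimpleGraph V} {H : SimpleGraph W} [DecidableRel G.Adj] [DecidableRel H.Adj] (hG : G.IsSRGWith 100 22 0 6) (hH : H.IsSRGWith 100 22 0 6) : Nonempty (G ≃g H) := by
  classical
  obtain ⟨φ, hφ⟩ := CfsgLib.SRG100.exists_rows hG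
  obtain ⟨ψ, hψ⟩ := CfsgLib.SRG100.exists_rows hH
  refine ⟨⟨φ.trans ψ.symm, fun {a b} => ?_⟩⟩
  rw [hφ, hψ, Equiv.trans_apply, Equiv.trans_apply, Equiv.apply_symm_apply, Equiv.apply_symm_apply]

end Cfsg.Agent.S0430
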