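import Cfsg.Statements.S0431
import Mathlib
import Cfsg.Agent.LibHS

set_option autoImplicit false
open Cfsg

namespace Cfsg.Agent.S0431

/-- Aut of the point-block graph of an S(3, 6, 22) contains a simple subgroup of order 44352000. -/
theorem result {α : Type*} [Fintype α] (hα : Fintype.card α = 22) {B : Set (Finset α)} (hB : Cfsg.IsSteinerSystem 3 6 B) : ∃ H : Subgroup (Cfsg.pointBlockGraph B ≃g Cfsg.pointBlockGraph B), Cfsg.IsHS H := by
  classical
  haveI : Fintype B := Fintype.ofFinite B
  obtain ⟨K, ⟨f⟩⟩ := CfsgLib.HS.exists_lift (G := Cfsg.pointBlockGraph B) (H := CfsgLib.HS.HSg B) inf_le_left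
  have h := CfsgLib.HS.isHS hα hB
  have hs := h.1
  exact ⟨K, f.isSimpleGroup, by rw [Nat.card_congr f.toEquiv]; exact h.2⟩

end Cfsg.Agent.S0431
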