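import Cfsg.Statements.S0439
import Mathlib

set_option autoImplicit false
open Cfsg

namespace Cfsg.Agent.S0439

/-- In the symmetric group of degree n ≥ 2, the set of transpositions is a conjugacy class of 3-transpositions which generates the group. -/
theorem result (n : ℕ) (hn : 2 ≤ n) : Cfsg.IsThreeTranspositionClass {σ : Equiv.Perm (Fin n) | σ.IsSwap} := by
  obtain ⟨m, rfl⟩ : ∃ m, n = m + 2 := ⟨n - 2, by omega⟩
  have key : ∀ d e : Equiv.Perm (Fin (m + 2)), d.IsSwap → e.IsSwap → (d * e) ^ 2 = 1 ∨ (d * e) ^ 3 = 1 := by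
    rintro d e ⟨a, b, hab, rfl⟩ ⟨c, f, hcf, rfl⟩
    have three : ∀ a b c : Fin (m + 2), a ≠ b → a ≠ c → b ≠ c → (Equiv.swap a b * Equiv.swap a c) ^ 3 = 1 := by
      intro a b c h1 h2 h3
      have := (Equiv.Perm.isThreeCycle_swap_mul_swap_same h1 h2 h3).orderOf
      rw [← this]; exact pow_orderOf_eq_one _
    by_cases h1 : a = c
    · subst h1
      by_cases h2 : b = f
      · subst h2; left; rw [Equiv.swap_mul_self, one_pow]
      · right; exact three a b f hab hcf h2
    by_cases h2 : a = f
    · subst h2
      by_cases h3 : b = c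
      · subst h3; left; rw [Equiv.swap_comm b a, Equiv.swap_mul_self, one_pow]
      · right; rw [Equiv.swap_comm c a]; exact three a b c hab h1 h3
    by_cases h3 : b = c
    · subst h3
      right; rw [Equiv.swap_comm a b]; exact three b a f hab.symm hcf h2
    by_cases h4 : b = f
    · subst h4
      right; rw [Equiv.swap_comm a b, Equiv.swap_comm c b]; exact three b a c hab.symm (Ne.symm hcf) h1
    · left
      have hd : Equiv.Perm.Disjoint (Equiv.swap a b) (Equiv.swap c f) := by
        rw [Equiv.Perm.disjoint_iff_disjoint_support, Equiv.Perm.support_swap hab, Equiv.Perm.support_swap hcf]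
        rw [Finset.disjoint_left]
        intro x hx hx'
        simp only [Finset.mem_insert, Finset.mem_singleton] at hx hx'
        rcases hx with rfl | rfl <;> rcases hx' with rfl | rfl <;> simp_all
      rw [hd.commute.mul_pow, pow_two, Equiv.swap_mul_self, pow_two, Equiv.swap_mul_self, one_mul]
  refine ⟨⟨?_, fun d hd e he => key d e hd he⟩, ⟨Equiv.swap 0 1, ⟨0, 1, by simp, rfl⟩, ?_⟩, Equiv.Perm.closure_isSwap⟩
  · intro d hd; exact Equiv.Perm.IsSwap.orderOf hd
  · ext σ
    constructor
    · rintro ⟨a, b, hab, rfl⟩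
      exact Equiv.Perm.isConj_swap (by simp) hab
    · intro hσ
      have : IsConj (Equiv.swap (0 : Fin (m + 2)) 1) σ := hσ
      rw [isConj_iff] at this
      obtain ⟨c, rfl⟩ := this
      refine ⟨c 0, c 1, fun h => ?_, ?_⟩
      · have := c.injective h; simp at this
      · exact (Equiv.swap_apply_apply c 0 1).symm

end Cfsg.Agent.S0439
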