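import Cfsg.Statements.S0440
import Cfsg.Agent.LibH22Sp2


set_option autoImplicit false
open Cfsg

namespace Cfsg.Agent.S0440

open Module Matrix Cfsg Cfsg.Agent.H22

variable {n : ℕ}

theorem exists_trans (A : Matrix.symplecticGroup (Fin n) (ZMod 2))
    (h : ((A : Matrix (Fin n ⊕ Fin n) (Fin n ⊕ Fin n) (ZMod 2)) - 1).rank = 1) :
    ∃ a : Fin n ⊕ Fin n → ZMod 2, a ≠ 0 ∧ A = spT a 1 := by
  rw [Matrix.rank] at h
  obtain ⟨⟨a, ha'⟩, ha0, ha⟩ := finrank_eq_one_iff'.1 h
  have ha0' : a ≠ 0 := fun h0 => ha0 (Subtype.ext h0)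
  have hN : ∀ x : Fin n ⊕ Fin n → ZMod 2, ∃ c : ZMod 2, (A : Matrix (Fin n ⊕ Fin n) (Fin n ⊕ Fin n) (ZMod 2)) *ᵥ x = x + c • a := by
    intro x
    obtain ⟨c, hc⟩ := ha ⟨_, ⟨x, rfl⟩⟩
    refine ⟨c, ?_⟩
    have h1 : c • a = ((A : Matrix (Fin n ⊕ Fin n) (Fin n ⊕ Fin n) (ZMod 2)) - 1) *ᵥ x := congrArg Subtype.val hc
    rw [h1, Matrix.sub_mulVec, Matrix.one_mulVec]; abel
  obtain ⟨y0, hy0⟩ := exists_not_ortho a ha0'
  obtain ⟨c0, hc0⟩ := hN y0
  have hB1 : spB n (ZMod 2) a y0 = 1 := by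
    have : ∀ z : ZMod 2, z ≠ 0 → z = 1 := by decide
    exact this _ hy0
  have hform : ∀ x : Fin n ⊕ Fin n → ZMod 2, (A : Matrix (Fin n ⊕ Fin n) (Fin n ⊕ Fin n) (ZMod 2)) *ᵥ x = x + (c0 * spB n (ZMod 2) x a) • a := by
    intro x
    obtain ⟨c, hc⟩ := hN x
    have h1 := mem_sp_iff.1 A.2 x y0
    rw [← spB_apply, ← spB_apply, hc, hc0, map_add, map_add, map_smul, map_smul, LinearMap.add_apply,
      LinearMap.smul_apply, LinearMap.add_apply, LinearMap.smul_apply, spB_isAlt.self_eq_zero, hB1] at h1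
    simp only [smul_eq_mul, mul_one, mul_zero, add_zero] at h1
    have h2 : c = c0 * spB n (ZMod 2) x a := by
      have h3 : c + c0 * spB n (ZMod 2) x a = 0 := by linear_combination h1
      have : ∀ z w : ZMod 2, z + w = 0 → z = w := by decide
      exact this _ _ h3
    rw [hc, h2]
  have hc0' : c0 ≠ 0 := by
    rintro rfl
    obtain ⟨x, hx⟩ := ha'
    apply ha0'
    rw [← hx, Matrix.mulVecLin_apply, Matrix.sub_mulVec, Matrix.one_mulVec, hform, zero_mul, zero_smul]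
    simp
  have hc1 : c0 = 1 := by
    have : ∀ z : ZMod 2, z ≠ 0 → z = 1 := by decide
    exact this _ hc0'
  refine ⟨a, ha0', ?_⟩
  apply sp_ext'
  intro x
  rw [hform, coe_spT, sympTransvection_mulVec, hc1]

theorem rank_trans {a : Fin n ⊕ Fin n → ZMod 2} (ha : a ≠ 0) :
    (((spT a 1 : Matrix.symplecticGroup (Fin n) (ZMod 2)) : Matrix (Fin n ⊕ Fin n) (Fin n ⊕ Fin n) (ZMod 2)) - 1).rank = 1 := by
  have h1 : LinearMap.range (((spT a 1 : Matrix.symplecticGroup (Fin n) (ZMod 2)) : Matrix (Fin n ⊕ Fin n) (Fin n ⊕ Fin n) (ZMod 2)) - 1).mulVecLin = Submodule.span (ZMod 2) {a} := by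
    apply le_antisymm
    · rintro _ ⟨x, rfl⟩
      rw [Matrix.mulVecLin_apply, Matrix.sub_mulVec, Matrix.one_mulVec, coe_spT, sympTransvection_mulVec, add_sub_cancel_left]
      exact Submodule.smul_mem _ _ (Submodule.mem_span_singleton_self a)
    · rw [Submodule.span_singleton_le_iff_mem]
      obtain ⟨y, hy⟩ := exists_not_ortho a ha
      have hy1 : spB n (ZMod 2) y a = 1 := by
        have : ∀ z : ZMod 2, z ≠ 0 → -z = 1 := by decide
        rw [← spB_isAlt.neg_eq a y]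
        exact this _ hy
      refine ⟨y, ?_⟩
      rw [Matrix.mulVecLin_apply, Matrix.sub_mulVec, Matrix.one_mulVec, coe_spT, sympTransvection_mulVec, add_sub_cancel_left,
        hy1]
      simp
  rw [Matrix.rank, h1, finrank_span_singleton ha]

theorem spT_sq (a : Fin n ⊕ Fin n → ZMod 2) : spT a 1 * spT a 1 = 1 := by
  rw [spT_mul, show (1 : ZMod 2) + 1 = 0 by decide, spT_zero]

theorem mulVec_ne (A : Matrix.symplecticGroup (Fin n) (ZMod 2)) {v : Fin n ⊕ Fin n → ZMod 2} (hv : v ≠ 0) :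
    (A : Matrix (Fin n ⊕ Fin n) (Fin n ⊕ Fin n) (ZMod 2)) *ᵥ v ≠ 0 := by
  intro h
  apply hv
  have h3 : ((A⁻¹ : Matrix.symplecticGroup (Fin n) (ZMod 2)) : Matrix (Fin n ⊕ Fin n) (Fin n ⊕ Fin n) (ZMod 2)) *ᵥ ((A : Matrix (Fin n ⊕ Fin n) (Fin n ⊕ Fin n) (ZMod 2)) *ᵥ v) = v := by
    rw [Matrix.mulVec_mulVec]
    have : ((A⁻¹ : Matrix.symplecticGroup (Fin n) (ZMod 2)) : Matrix (Fin n ⊕ Fin n) (Fin n ⊕ Fin n) (ZMod 2)) * (A : Matrix (Fin n ⊕ Fin n) (Fin n ⊕ Fin n) (ZMod 2)) = 1 := congrArg Subtype.val (inv_mul_cancel A)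
    rw [this, Matrix.one_mulVec]
  rw [← h3, h, Matrix.mulVec_zero]


/-- In the symplectic group in dimension 2n ≥ 2 over the field with two elements, the elements g for which g - 1 has rank one (the symplectic transvections) form a conjugacy class of 3-transpositions generating the group. -/
theorem result (n : ℕ) (hn : 1 ≤ n) : Cfsg.IsThreeTranspositionClass {g : Matrix.symplecticGroup (Fin n) (ZMod 2) | ((g : Matrix (Fin n ⊕ Fin n) (Fin n ⊕ Fin n) (ZMod 2)) - 1).rank = 1} := by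
  have two : ∀ z : ZMod 2, z ≠ 0 → z = 1 := by decide
  refine ⟨⟨?_, ?_⟩, ?_, ?_⟩
  · intro d hd
    obtain ⟨v, hv, rfl⟩ := exists_trans d hd
    apply orderOf_eq_prime
    · rw [sq]; exact spT_sq v
    · intro h
      have hd' : (((spT v 1 : Matrix.symplecticGroup (Fin n) (ZMod 2)) : Matrix (Fin n ⊕ Fin n) (Fin n ⊕ Fin n) (ZMod 2)) - 1).rank = 1 := hd
      rw [h] at hd'
      have h1 : ((1 : Matrix.symplecticGroup (Fin n) (ZMod 2)) : Matrix (Fin n ⊕ Fin n) (Fin n ⊕ Fin n) (ZMod 2)) = 1 := rfl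
      rw [h1, sub_self, Matrix.rank_zero] at hd'
      norm_num at hd'
  · intro d hd e he
    obtain ⟨v, hv, rfl⟩ := exists_trans d hd
    obtain ⟨w, hw, rfl⟩ := exists_trans e he
    have hdd := spT_sq v
    have hee := spT_sq w
    have hdinv : (spT v 1 : Matrix.symplecticGroup (Fin n) (ZMod 2))⁻¹ = spT v 1 := inv_eq_of_mul_eq_one_left hdd
    have heinv : (spT w 1 : Matrix.symplecticGroup (Fin n) (ZMod 2))⁻¹ = spT w 1 := inv_eq_of_mul_eq_one_left hee
    have c1 := spT_conj (spT v 1 : Matrix.symplecticGroup (Fin n) (ZMod 2)) w 1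
    have c2 := spT_conj (spT w 1 : Matrix.symplecticGroup (Fin n) (ZMod 2)) v 1
    rw [coe_spT, sympTransvection_mulVec, hdinv] at c1
    rw [coe_spT, sympTransvection_mulVec, heinv] at c2
    by_cases hvw : spB n (ZMod 2) w v = 0
    · left
      rw [hvw, mul_zero, zero_smul, add_zero] at c1
      calc (spT v 1 * spT w 1 : Matrix.symplecticGroup (Fin n) (ZMod 2)) ^ 2 = (spT v 1 * spT w 1 * spT v 1) * spT w 1 := by rw [sq]; group
        _ = spT w 1 * spT w 1 := by rw [c1]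
        _ = 1 := hee
    · right
      have h1 := two _ hvw
      have h2 : spB n (ZMod 2) v w = 1 := by
        rw [← spB_isAlt.neg_eq w v, h1]; decide
      rw [h1, mul_one, one_smul] at c1
      rw [h2, mul_one, one_smul, add_comm v w, ← c1] at c2
      calc (spT v 1 * spT w 1 : Matrix.symplecticGroup (Fin n) (ZMod 2)) ^ 3 = (spT v 1 * spT w 1 * spT v 1) * (spT w 1 * spT v 1 * spT w 1) := by rw [pow_succ, sq]; group
        _ = (spT v 1 * spT w 1 * spT v 1) * (spT v 1 * spT w 1 * spT v 1) := by rw [c2]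
        _ = spT v 1 * (spT w 1 * (spT v 1 * spT v 1) * spT w 1) * spT v 1 := by group
        _ = 1 := by rw [hdd, mul_one, hee, mul_one, hdd]
  · have hv0 : (Pi.single (Sum.inl ⟨0, hn⟩) 1 : Fin n ⊕ Fin n → ZMod 2) ≠ 0 := by
      intro h
      have := congrFun h (Sum.inl ⟨0, hn⟩)
      rw [Pi.single_eq_same] at this
      exact one_ne_zero this
    refine ⟨spT (Pi.single (Sum.inl ⟨0, hn⟩) 1) 1, rank_trans hv0, ?_⟩
    ext e
    constructor
    · intro he
      obtain ⟨w, hw, rfl⟩ := exists_trans e he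
      obtain ⟨A, hA⟩ := sp_transitive _ w hv0 hw
      refine (isConj_iff.2 ⟨A, ?_⟩ : IsConj _ _)
      rw [spT_conj, hA]
    · intro he
      obtain ⟨A, rfl⟩ := isConj_iff.1 (he : IsConj _ e)
      rw [spT_conj]
      exact rank_trans (mulVec_ne A hv0)
  · rw [eq_top_iff, ← spTransGrp_eq_top (m := n) (F := ZMod 2)]
    unfold spTransGrp
    rw [Subgroup.closure_le]
    rintro A ⟨v, c, hA⟩
    have hA' : A = spT v c := Subtype.ext hA
    by_cases hv : v = 0
    · have : A = 1 := by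
        rw [hA']
        apply sp_ext'
        intro x
        rw [coe_spT, sympTransvection_mulVec, hv, smul_zero, add_zero]
        exact (Matrix.one_mulVec x).symm
      rw [this]; exact Subgroup.one_mem _
    · by_cases hc : c = 0
      · rw [hA', hc, spT_zero]; exact Subgroup.one_mem _
      · apply Subgroup.subset_closure
        rw [two c hc] at hA'
        rw [hA']
        exact rank_trans hv

end Cfsg.Agent.S0440
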