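import Cfsg.Statements.S0442
import Mathlib

set_option autoImplicit false
open Cfsg

namespace Cfsg.Agent.S0442

/-- A standard trick for producing elements of an involution centraliser: for an involution a and an element g, let b be the conjugate g⁻¹ * a * g. If a * b has odd order 2m + 1 then g * (a * b) ^ m commutes with a; if a * b has even order 2m then (a * b) ^ m and (a * (g * a * g⁻¹)) ^ m commute with a. -/
theorem result {G : Type*} [Group G] (a g : G) (ha : orderOf a = 2) : (∀ m : ℕ, orderOf (a * (g⁻¹ * a * g)) = 2 * m + 1 → Commute (g * (a * (g⁻¹ * a * g)) ^ m) a) ∧ (∀ m : ℕ, orderOf (a * (g⁻¹ * a * g)) = 2 * m → Commute ((a * (g⁻¹ * a * g)) ^ m) a ∧ Commute ((a * (g * a * g⁻¹)) ^ m) a) := by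
  have ha2 : a * a = 1 := by
    have := pow_orderOf_eq_one a
    rwa [ha, pow_two] at this
  have hinv : a⁻¹ = a := (eq_inv_of_mul_eq_one_left ha2).symm
  -- inversion
  have hinvx : ∀ y : G, y * y = 1 → a * (a * y) * a⁻¹ = (a * y)⁻¹ := by
    intro y hy
    have hy' : y⁻¹ = y := (eq_inv_of_mul_eq_one_left hy).symm
    rw [mul_inv_rev, hinv, hy', ← mul_assoc, ha2, one_mul]
  have hb2 : (g⁻¹ * a * g) * (g⁻¹ * a * g) = 1 := by
    calc (g⁻¹ * a * g) * (g⁻¹ * a * g) = g⁻¹ * (a * a) * g := by group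
      _ = 1 := by rw [ha2]; group
  have hc2 : (g * a * g⁻¹) * (g * a * g⁻¹) = 1 := by
    calc (g * a * g⁻¹) * (g * a * g⁻¹) = g * (a * a) * g⁻¹ := by group
      _ = 1 := by rw [ha2]; group
  have hpow : ∀ (x : G) (k : ℕ), a * x * a⁻¹ = x⁻¹ → a * x ^ k * a⁻¹ = (x ^ k)⁻¹ := by
    intro x k h
    rw [← conj_pow, h, inv_pow]
  constructor
  · intro m hm
    have h1 := pow_orderOf_eq_one (a * (g⁻¹ * a * g))
    rw [hm] at h1
    obtain ⟨x, hx⟩ : ∃ x, x = a * (g⁻¹ * a * g) := ⟨_, rfl⟩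
    rw [← hx] at h1 ⊢
    have h2 := hpow x m (by rw [hx]; exact hinvx _ hb2)
    -- a g = g b, b = a x
    have h3 : a * g = g * (a * x) := by
      rw [hx, ← mul_assoc a a, ha2, one_mul]; group
    have h4 : a * (g * x ^ m) * a⁻¹ = g * x ^ m := by
      calc a * (g * x ^ m) * a⁻¹ = (a * g) * x ^ m * a⁻¹ := by group
        _ = g * (a * x) * x ^ m * a⁻¹ := by rw [h3]
        _ = g * (a * x ^ (m + 1) * a⁻¹) := by rw [pow_succ']; group
        _ = g * (x ^ (m + 1))⁻¹ := by rw [hpow x (m + 1) (by rw [hx]; exact hinvx _ hb2)]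
        _ = g * x ^ m := by
          congr 1
          rw [inv_eq_iff_mul_eq_one, ← pow_add]
          rw [show m + 1 + m = 2 * m + 1 by ring]; exact h1
    exact (mul_inv_eq_iff_eq_mul.1 h4).symm
  · intro m hm
    have h1 := pow_orderOf_eq_one (a * (g⁻¹ * a * g))
    rw [hm] at h1
    have fin : ∀ x : G, a * x * a⁻¹ = x⁻¹ → x ^ (2 * m) = 1 → Commute (x ^ m) a := by
      intro x hx hx2
      have h2 := hpow x m hx
      have h3 : (x ^ m)⁻¹ = x ^ m := by
        rw [inv_eq_iff_mul_eq_one, ← pow_add, ← two_mul]; exact hx2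
      rw [h3] at h2
      have h4 : a * x ^ m = x ^ m * a := by
        rw [← mul_inv_eq_iff_eq_mul]; exact h2
      exact h4.symm
    refine ⟨fin _ (hinvx _ hb2) h1, fin _ (hinvx _ hc2) ?_⟩
    have h6 : a * (g * a * g⁻¹) = g * (g⁻¹ * a * g * a) * g⁻¹ := by group
    have h7 : g⁻¹ * a * g * a = a⁻¹ * (a * (g⁻¹ * a * g)) * a⁻¹⁻¹ := by group
    rw [h6, conj_pow, h7, conj_pow, h1]
    group

end Cfsg.Agent.S0442
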