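import Cfsg.Statements.S0443
import Mathlib

set_option autoImplicit false
open Cfsg

namespace Cfsg.Agent.S0443

/-- Two definitions of a 2-central involution agree: an element t of order 2 of a finite group lies in the centre of some Sylow 2-subgroup if and only if its centraliser contains some Sylow 2-subgroup. -/
theorem result {G : Type*} [Group G] [Finite G] (t : G) (ht : orderOf t = 2) : Cfsg.IsTwoCentralInvolution t ↔ ∃ P : Sylow 2 G, (P : Subgroup G) ≤ Subgroup.centralizer ({t} : Set G) := by
  constructor
  · rintro ⟨_, P, htP, hP⟩
    refine ⟨P, fun x hx => ?_⟩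
    rw [Subgroup.mem_centralizer_singleton_iff]
    exact hP x hx
  · rintro ⟨P, hP⟩
    refine ⟨ht, P, ?_, fun x hx => ?_⟩
    · have hz : IsPGroup 2 (Subgroup.zpowers t) := by
        rw [IsPGroup.iff_card]; exact ⟨1, by rw [Nat.card_zpowers, ht, pow_one]⟩
      have hn : Subgroup.zpowers t ≤ Subgroup.normalizer ((P : Subgroup G) : Set G) := by
        rw [Subgroup.zpowers_le, Subgroup.mem_normalizer_iff]
        intro h
        have hc : ∀ y ∈ (P : Subgroup G), t * y * t⁻¹ = y := by
          intro y hy
          have := hP hy
          rw [Subgroup.mem_centralizer_singleton_iff] at this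
          rw [← this]; group
        constructor
        · intro hh; rw [hc h hh]; exact hh
        · intro hh
          have h2 := hc _ hh
          have : t * h * t⁻¹ = h := by
            have h3 := congrArg (fun z => t⁻¹ * z * t) h2
            simp only [← mul_assoc, inv_mul_cancel, one_mul] at h3
            have h4 : t * h * t⁻¹ = h := by
              have h5 : t * h * t⁻¹ * t⁻¹ * t = t * h * t⁻¹ := by group
              have h6 : t⁻¹ * t * h * t⁻¹ * t = h := by group
              simpa [mul_assoc] using h3
            exact h4
          rw [this] at hh; exact hh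
      have hsup : IsPGroup 2 ((P : Subgroup G) ⊔ Subgroup.zpowers t : Subgroup G) :=
        IsPGroup.to_sup_of_normal_left' P.isPGroup' hz hn
      have := P.is_maximal' hsup le_sup_left
      have h2 : t ∈ ((P : Subgroup G) ⊔ Subgroup.zpowers t : Subgroup G) :=
        Subgroup.mem_sup_right (Subgroup.mem_zpowers t)
      rw [this] at h2; exact h2
    · have := hP hx
      rw [Subgroup.mem_centralizer_singleton_iff] at this
      exact this

end Cfsg.Agent.S0443
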