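import Cfsg.Statements.S0446
import Mathlib

set_option autoImplicit false
open Cfsg

namespace Cfsg.Agent.S0446

/-- Every finite group of even order contains a 2-central involution, i.e. an element of order 2 in the centre of some Sylow 2-subgroup. -/
theorem result {G : Type*} [Group G] [Finite G] (h : Even (Nat.card G)) : ∃ t : G, Cfsg.IsTwoCentralInvolution t := by
  obtain ⟨P⟩ : Nonempty (Sylow 2 G) := inferInstance
  have h2 : 2 ∣ Nat.card P := by
    exact P.dvd_card_of_dvd_card h.two_dvd
  have hnt : Nontrivial P := by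
    rw [← Finite.one_lt_card_iff_nontrivial]
    exact Nat.lt_of_lt_of_le one_lt_two (Nat.le_of_dvd Nat.card_pos h2)
  have hc := P.isPGroup'.center_nontrivial
  have hcp : IsPGroup 2 (Subgroup.center P) := P.isPGroup'.to_subgroup _
  have h3 : 2 ∣ Nat.card (Subgroup.center P) := by
    obtain ⟨k, hk⟩ := hcp.exists_card_eq
    have : 1 < Nat.card (Subgroup.center P) := Finite.one_lt_card
    rcases Nat.eq_zero_or_pos k with rfl | hk0
    · rw [pow_zero] at hk; omega
    · rw [hk]; exact dvd_pow_self 2 hk0.ne'
  obtain ⟨t, ht⟩ := exists_prime_orderOf_dvd_card' (G := Subgroup.center P) 2 h3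
  refine ⟨((t : P) : G), ?_, P, (t : P).2, fun x hx => ?_⟩
  · rw [Subgroup.orderOf_coe, Subgroup.orderOf_coe]; exact ht
  · have := Subgroup.mem_center_iff.1 t.2 ⟨x, hx⟩
    exact congrArg Subtype.val this

end Cfsg.Agent.S0446
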