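import Cfsg.Statements.S0481
import Mathlib
import Cfsg.Agent.S0443

set_option autoImplicit false
open Cfsg

namespace Cfsg.Agent.S0481

/-- Large extraspecial subgroups: let z be an involution of a finite group G whose centraliser C contains a normal 2-subgroup Q with centre of order 2 and all squares central, such that every element of G centralising Q lies in Q. Then C contains a Sylow 2-subgroup of G, and any involution of G whose centraliser contains a Sylow 2-subgroup of G is conjugate to z. -/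
theorem result {G : Type*} [Group G] [Finite G] (z : G) (hz : orderOf z = 2) (Q : Subgroup G) (hQC : Q ≤ Subgroup.centralizer ({z} : Set G)) (hQn : ∀ g ∈ Subgroup.centralizer ({z} : Set G), ∀ q ∈ Q, g * q * g⁻¹ ∈ Q) (hQ2 : IsPGroup 2 Q) (hZ : Nat.card (Subgroup.center Q) = 2) (hsq : ∀ x : Q, x ^ 2 ∈ Subgroup.center Q) (hlarge : Subgroup.centralizer (Q : Set G) ≤ Q) : (∃ P : Sylow 2 G, (P : Subgroup G) ≤ Subgroup.centralizer ({z} : Set G)) ∧ ∀ u : G, orderOf u = 2 → (∃ P : Sylow 2 G, (P : Subgroup G) ≤ Subgroup.centralizer ({u} : Set G)) → IsConj z u := by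
  have hzc : ∀ x ∈ Q, x * z = z * x := by
    intro x hx
    have := hQC hx
    rwa [Subgroup.mem_centralizer_singleton_iff] at this
  -- `z ∈ Q`
  have hzQ : z ∈ Q := by
    apply hlarge
    rw [Subgroup.mem_centralizer_iff]
    exact hzc
  -- centre of `Q` is `{1, z}`
  have hz1 : z ≠ 1 := by
    rintro rfl
    rw [orderOf_one] at hz; omega
  have hcen : ∀ w : Q, w ∈ Subgroup.center Q → w = 1 ∨ (w : G) = z := by
    intro w hw
    have hz' : (⟨z, hzQ⟩ : Q) ∈ Subgroup.center Q := by
      rw [Subgroup.mem_center_iff]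
      intro g
      exact Subtype.ext (hzc g g.2)
    by_contra hcon
    rw [not_or] at hcon
    have h3 : ({1, ⟨⟨z, hzQ⟩, hz'⟩, ⟨w, hw⟩} : Set (Subgroup.center Q)).ncard = 3 := by
      rw [Set.ncard_eq_three]
      refine ⟨_, _, _, ?_, ?_, ?_, rfl⟩
      · intro h; apply hz1
        exact (congrArg (fun u : Subgroup.center Q => ((u : Q) : G)) h).symm
      · intro h; apply hcon.1
        exact (congrArg (fun u : Subgroup.center Q => (u : Q)) h).symm
      · intro h; apply hcon.2
        exact (congrArg (fun u : Subgroup.center Q => ((u : Q) : G)) h).symm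
    have h4 := Set.ncard_le_ncard (Set.subset_univ ({1, ⟨⟨z, hzQ⟩, hz'⟩, ⟨w, hw⟩} : Set (Subgroup.center Q)))
      (Set.toFinite _)
    rw [h3, Set.ncard_univ, hZ] at h4
    omega
  -- a Sylow 2-subgroup `P` containing `Q`: its centre is generated by z
  have key : ∀ P : Sylow 2 G, Q ≤ P → ∀ w ∈ P, (∀ x ∈ P, x * w = w * x) → w = 1 ∨ w = z := by
    intro P hQP w hw hwc
    have hwQ : w ∈ Q := by
      apply hlarge
      rw [Subgroup.mem_centralizer_iff]
      intro x hx
      exact hwc x (hQP hx)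
    have h1 : (⟨w, hwQ⟩ : Q) ∈ Subgroup.center Q := by
      rw [Subgroup.mem_center_iff]
      intro g
      exact Subtype.ext (hwc g (hQP g.2))
    rcases hcen _ h1 with h | h
    · exact Or.inl (congrArg Subtype.val h)
    · exact Or.inr h
  obtain ⟨P, hQP⟩ := hQ2.exists_le_sylow
  -- a central involution of `P`
  have hP2 : 2 ∣ Nat.card P := by
    have h1 : orderOf (⟨z, hQP hzQ⟩ : P) = 2 := (Subgroup.orderOf_coe (⟨z, hQP hzQ⟩ : P)).symm.trans hz
    exact (dvd_of_eq h1.symm).trans (orderOf_dvd_natCard _)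
  have hnt : Nontrivial P := by
    rw [← Finite.one_lt_card_iff_nontrivial]
    exact Nat.lt_of_lt_of_le one_lt_two (Nat.le_of_dvd Nat.card_pos hP2)
  have hc := P.isPGroup'.center_nontrivial
  obtain ⟨⟨c, hc1⟩, hc2⟩ := exists_ne (1 : Subgroup.center P)
  have hcz : (c : G) = z := by
    rcases key P hQP c c.2 (fun x hx => by
      have := Subgroup.mem_center_iff.1 hc1 ⟨x, hx⟩
      exact congrArg Subtype.val this) with h | h
    · exfalso; apply hc2
      exact Subtype.ext (Subtype.ext h)
    · exact h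
  have hPz : (P : Subgroup G) ≤ Subgroup.centralizer ({z} : Set G) := by
    intro x hx
    rw [Subgroup.mem_centralizer_singleton_iff, ← hcz]
    have := Subgroup.mem_center_iff.1 hc1 ⟨x, hx⟩
    exact congrArg Subtype.val this
  refine ⟨⟨P, hPz⟩, ?_⟩
  rintro u hu hPu
  have h2c := (Cfsg.Agent.S0443.result u hu).2 hPu
  obtain ⟨_, R, huR, hR⟩ := h2c
  obtain ⟨g, hg⟩ := MulAction.exists_smul_eq G R P
  have hmem : ∀ x ∈ R, g * x * g⁻¹ ∈ P := by
    intro x hx
    rw [← hg]
    exact Subgroup.smul_mem_pointwise_smul x (MulAut.conj g) (R : Subgroup G) hx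
  have hmem' : ∀ x ∈ P, g⁻¹ * x * g ∈ R := by
    intro x hx
    have hg' : g⁻¹ • P = R := by rw [← hg, inv_smul_smul]
    have h3 : g⁻¹ * x * g⁻¹⁻¹ ∈ R := by
      rw [← hg']
      exact Subgroup.smul_mem_pointwise_smul x (MulAut.conj g⁻¹) (P : Subgroup G) hx
    rwa [inv_inv] at h3
  rcases key P hQP (g * u * g⁻¹) (hmem u huR) (fun x hx => by
    have := hR _ (hmem' x hx)
    have h3 : g * (g⁻¹ * x * g * u) * g⁻¹ = g * (u * (g⁻¹ * x * g)) * g⁻¹ := by rw [this]
    calc x * (g * u * g⁻¹) = g * (g⁻¹ * x * g * u) * g⁻¹ := by group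
      _ = g * (u * (g⁻¹ * x * g)) * g⁻¹ := h3
      _ = g * u * g⁻¹ * x := by group) with h | h
  · exfalso
    have : u = 1 := by
      have h3 : g * u * g⁻¹ = 1 := h
      rw [mul_inv_eq_one] at h3
      exact mul_eq_left.1 h3
    rw [this, orderOf_one] at hu; omega
  · rw [← h]
    exact (isConj_iff.2 ⟨g, rfl⟩).symm

end Cfsg.Agent.S0481
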