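import Cfsg.Statements.S0493
import Cfsg.Agent.S0144
import Cfsg.Agent.LibSmallSyl
-- import your own Cfsg.Agent.* helpers here

set_option autoImplicit false
open Cfsg

namespace Cfsg.Agent.S0493

theorem table (n : ℕ) (h0 : 1 ≤ n) (h : n ≤ 100) (h60 : n ≠ 60) :
    (∃ p q a b : ℕ, p.Prime ∧ q.Prime ∧ n = p ^ a * q ^ b) ∨ n % 4 = 2 ∨ n = 84 := by
  interval_cases n
  · exact Or.inl ⟨2, 3, 0, 0, by norm_num, by norm_num, by norm_num⟩
  · exact Or.inr (Or.inl rfl)
  · exact Or.inl ⟨3, 2, 1, 0, by norm_num, by norm_num, by norm_num⟩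
  · exact Or.inl ⟨2, 3, 2, 0, by norm_num, by norm_num, by norm_num⟩
  · exact Or.inl ⟨5, 3, 1, 0, by norm_num, by norm_num, by norm_num⟩
  · exact Or.inr (Or.inl rfl)
  · exact Or.inl ⟨7, 3, 1, 0, by norm_num, by norm_num, by norm_num⟩
  · exact Or.inl ⟨2, 3, 3, 0, by norm_num, by norm_num, by norm_num⟩
  · exact Or.inl ⟨3, 2, 2, 0, by norm_num, by norm_num, by norm_num⟩
  · exact Or.inr (Or.inl rfl)
  · exact Or.inl ⟨11, 3, 1, 0, by norm_num, by norm_num, by norm_num⟩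
  · exact Or.inl ⟨2, 3, 2, 1, by norm_num, by norm_num, by norm_num⟩
  · exact Or.inl ⟨13, 3, 1, 0, by norm_num, by norm_num, by norm_num⟩
  · exact Or.inr (Or.inl rfl)
  · exact Or.inl ⟨3, 5, 1, 1, by norm_num, by norm_num, by norm_num⟩
  · exact Or.inl ⟨2, 3, 4, 0, by norm_num, by norm_num, by norm_num⟩
  · exact Or.inl ⟨17, 3, 1, 0, by norm_num, by norm_num, by norm_num⟩
  · exact Or.inr (Or.inl rfl)
  · exact Or.inl ⟨19, 3, 1, 0, by norm_num, by norm_num, by norm_num⟩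
  · exact Or.inl ⟨2, 5, 2, 1, by norm_num, by norm_num, by norm_num⟩
  · exact Or.inl ⟨3, 7, 1, 1, by norm_num, by norm_num, by norm_num⟩
  · exact Or.inr (Or.inl rfl)
  · exact Or.inl ⟨23, 3, 1, 0, by norm_num, by norm_num, by norm_num⟩
  · exact Or.inl ⟨2, 3, 3, 1, by norm_num, by norm_num, by norm_num⟩
  · exact Or.inl ⟨5, 3, 2, 0, by norm_num, by norm_num, by norm_num⟩
  · exact Or.inr (Or.inl rfl)
  · exact Or.inl ⟨3, 2, 3, 0, by norm_num, by norm_num, by norm_num⟩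
  · exact Or.inl ⟨2, 7, 2, 1, by norm_num, by norm_num, by norm_num⟩
  · exact Or.inl ⟨29, 3, 1, 0, by norm_num, by norm_num, by norm_num⟩
  · exact Or.inr (Or.inl rfl)
  · exact Or.inl ⟨31, 3, 1, 0, by norm_num, by norm_num, by norm_num⟩
  · exact Or.inl ⟨2, 3, 5, 0, by norm_num, by norm_num, by norm_num⟩
  · exact Or.inl ⟨3, 11, 1, 1, by norm_num, by norm_num, by norm_num⟩
  · exact Or.inr (Or.inl rfl)
  · exact Or.inl ⟨5, 7, 1, 1, by norm_num, by norm_num, by norm_num⟩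
  · exact Or.inl ⟨2, 3, 2, 2, by norm_num, by norm_num, by norm_num⟩
  · exact Or.inl ⟨37, 3, 1, 0, by norm_num, by norm_num, by norm_num⟩
  · exact Or.inr (Or.inl rfl)
  · exact Or.inl ⟨3, 13, 1, 1, by norm_num, by norm_num, by norm_num⟩
  · exact Or.inl ⟨2, 5, 3, 1, by norm_num, by norm_num, by norm_num⟩
  · exact Or.inl ⟨41, 3, 1, 0, by norm_num, by norm_num, by norm_num⟩
  · exact Or.inr (Or.inl rfl)
  · exact Or.inl ⟨43, 3, 1, 0, by norm_num, by norm_num, by norm_num⟩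
  · exact Or.inl ⟨2, 11, 2, 1, by norm_num, by norm_num, by norm_num⟩
  · exact Or.inl ⟨3, 5, 2, 1, by norm_num, by norm_num, by norm_num⟩
  · exact Or.inr (Or.inl rfl)
  · exact Or.inl ⟨47, 3, 1, 0, by norm_num, by norm_num, by norm_num⟩
  · exact Or.inl ⟨2, 3, 4, 1, by norm_num, by norm_num, by norm_num⟩
  · exact Or.inl ⟨7, 3, 2, 0, by norm_num, by norm_num, by norm_num⟩
  · exact Or.inr (Or.inl rfl)
  · exact Or.inl ⟨3, 17, 1, 1, by norm_num, by norm_num, by norm_num⟩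
  · exact Or.inl ⟨2, 13, 2, 1, by norm_num, by norm_num, by norm_num⟩
  · exact Or.inl ⟨53, 3, 1, 0, by norm_num, by norm_num, by norm_num⟩
  · exact Or.inr (Or.inl rfl)
  · exact Or.inl ⟨5, 11, 1, 1, by norm_num, by norm_num, by norm_num⟩
  · exact Or.inl ⟨2, 7, 3, 1, by norm_num, by norm_num, by norm_num⟩
  · exact Or.inl ⟨3, 19, 1, 1, by norm_num, by norm_num, by norm_num⟩
  · exact Or.inr (Or.inl rfl)
  · exact Or.inl ⟨59, 3, 1, 0, by norm_num, by norm_num, by norm_num⟩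
  · exact absurd rfl h60
  · exact Or.inl ⟨61, 3, 1, 0, by norm_num, by norm_num, by norm_num⟩
  · exact Or.inr (Or.inl rfl)
  · exact Or.inl ⟨3, 7, 2, 1, by norm_num, by norm_num, by norm_num⟩
  · exact Or.inl ⟨2, 3, 6, 0, by norm_num, by norm_num, by norm_num⟩
  · exact Or.inl ⟨5, 13, 1, 1, by norm_num, by norm_num, by norm_num⟩
  · exact Or.inr (Or.inl rfl)
  · exact Or.inl ⟨67, 3, 1, 0, by norm_num, by norm_num, by norm_num⟩
  · exact Or.inl ⟨2, 17, 2, 1, by norm_num, by norm_num, by norm_num⟩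
  · exact Or.inl ⟨3, 23, 1, 1, by norm_num, by norm_num, by norm_num⟩
  · exact Or.inr (Or.inl rfl)
  · exact Or.inl ⟨71, 3, 1, 0, by norm_num, by norm_num, by norm_num⟩
  · exact Or.inl ⟨2, 3, 3, 2, by norm_num, by norm_num, by norm_num⟩
  · exact Or.inl ⟨73, 3, 1, 0, by norm_num, by norm_num, by norm_num⟩
  · exact Or.inr (Or.inl rfl)
  · exact Or.inl ⟨3, 5, 1, 2, by norm_num, by norm_num, by norm_num⟩
  · exact Or.inl ⟨2, 19, 2, 1, by norm_num, by norm_num, by norm_num⟩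
  · exact Or.inl ⟨7, 11, 1, 1, by norm_num, by norm_num, by norm_num⟩
  · exact Or.inr (Or.inl rfl)
  · exact Or.inl ⟨79, 3, 1, 0, by norm_num, by norm_num, by norm_num⟩
  · exact Or.inl ⟨2, 5, 4, 1, by norm_num, by norm_num, by norm_num⟩
  · exact Or.inl ⟨3, 2, 4, 0, by norm_num, by norm_num, by norm_num⟩
  · exact Or.inr (Or.inl rfl)
  · exact Or.inl ⟨83, 3, 1, 0, by norm_num, by norm_num, by norm_num⟩
  · exact Or.inr (Or.inr rfl)
  · exact Or.inl ⟨5, 17, 1, 1, by norm_num, by norm_num, by norm_num⟩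
  · exact Or.inr (Or.inl rfl)
  · exact Or.inl ⟨3, 29, 1, 1, by norm_num, by norm_num, by norm_num⟩
  · exact Or.inl ⟨2, 11, 3, 1, by norm_num, by norm_num, by norm_num⟩
  · exact Or.inl ⟨89, 3, 1, 0, by norm_num, by norm_num, by norm_num⟩
  · exact Or.inr (Or.inl rfl)
  · exact Or.inl ⟨7, 13, 1, 1, by norm_num, by norm_num, by norm_num⟩
  · exact Or.inl ⟨2, 23, 2, 1, by norm_num, by norm_num, by norm_num⟩
  · exact Or.inl ⟨3, 31, 1, 1, by norm_num, by norm_num, by norm_num⟩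
  · exact Or.inr (Or.inl rfl)
  · exact Or.inl ⟨5, 19, 1, 1, by norm_num, by norm_num, by norm_num⟩
  · exact Or.inl ⟨2, 3, 5, 1, by norm_num, by norm_num, by norm_num⟩
  · exact Or.inl ⟨97, 3, 1, 0, by norm_num, by norm_num, by norm_num⟩
  · exact Or.inr (Or.inl rfl)
  · exact Or.inl ⟨3, 11, 2, 1, by norm_num, by norm_num, by norm_num⟩
  · exact Or.inl ⟨2, 5, 2, 2, by norm_num, by norm_num, by norm_num⟩

/-- A finite simple group of order at most 100 that is not cyclic has order 60. -/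
theorem result {G : Type*} [Group G] [Finite G] [IsSimpleGroup G]
    (hG : ¬ IsCyclic G) (h : Nat.card G ≤ 100) : Nat.card G = 60 := by
  classical
  have hcomm : ¬ IsMulCommutative G := by
    intro hc
    letI : CommGroup G := { (inferInstance : Group G) with mul_comm := fun a b => (isMulCommutative_iff.mp hc) a b }
    exact hG (inferInstance : IsCyclic G)
  have hsolv : ¬ Group.IsSolvable G := by
    intro hs
    exact hcomm (isMulCommutative_iff.mpr (IsSimpleGroup.comm_iff_isSolvable.mpr hs))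
  by_contra h60
  rcases table (Nat.card G) Nat.card_pos h h60 with ⟨p, q, a, b, hp, hq, hn⟩ | h2 | h84
  · exact hsolv (Cfsg.Agent.S0144.result p q a b hp hq hn)
  · haveI : Fact (Nat.Prime 2) := ⟨Nat.prime_two⟩
    have hd : 2 ∣ Nat.card G := by omega
    let P : Sylow 2 G := default
    have hP : Nat.card (P : Subgroup G) = 2 := by
      have := CfsgLib.SmallSyl.card_sylow (p := 2) (n := 1) (m := Nat.card G / 2) (G := G) (by omega) (by omega) P
      simpa using this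
    have hcyc : IsCyclic P := isCyclic_of_prime_card (p := 2) hP
    have hmin : (Nat.card G).minFac = 2 := (Nat.minFac_eq_two_iff _).mpr hd
    exact CfsgLib.SmallSyl.burnside hcomm hd P (hcyc.normalizer_le_centralizer hmin)
  · haveI : Fact (Nat.Prime 7) := ⟨by norm_num⟩
    have hd : 7 ∣ Nat.card G := by omega
    have h1 := CfsgLib.SmallSyl.one_lt_card_sylow hcomm hd
    have h2 := CfsgLib.SmallSyl.card_sylow_dvd (p := 7) (n := 1) (m := 12) (G := G) (by omega) (by norm_num)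
    have h3 : Nat.card (Sylow 7 G) ≡ 1 [MOD 7] := card_sylow_modEq_one 7 G
    have h4 : Nat.card (Sylow 7 G) ≤ 12 := Nat.le_of_dvd (by norm_num) h2
    unfold Nat.ModEq at h3
    interval_cases hh : Nat.card (Sylow 7 G) <;> omega


end Cfsg.Agent.S0493
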