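import Cfsg.Statements.S0502
import Mathlib
import Cfsg.Agent.LibElem2
-- import your own Cfsg.Agent.* helpers here

set_option autoImplicit false
open Cfsg

namespace Cfsg.Agent.S0502

open CfsgLib.Elem2

theorem ea_of_klein {P : Type*} [Group P] (U : Subgroup P) (hU : IsKleinFour U) : EA U ∧ Nat.card U = 4 := by
  haveI := hU
  refine ⟨⟨fun a ha b hb => ?_, fun a ha => ?_⟩, IsKleinFour.card_four⟩
  · have hc : (⟨a, ha⟩ : U) * ⟨b, hb⟩ = ⟨b, hb⟩ * ⟨a, ha⟩ := by
      have h1 : ∀ z : U, z⁻¹ = z := fun z => inv_eq_of_mul_eq_one_left (IsKleinFour.mul_self z)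
      rw [← h1 (⟨a, ha⟩ * ⟨b, hb⟩), mul_inv_rev, h1, h1]
    exact congrArg Subtype.val hc
  · exact congrArg Subtype.val (IsKleinFour.mul_self (⟨a, ha⟩ : U))

theorem klein_of_ea {P : Type*} [Group P] (U : Subgroup P) (h : EA U) (h4 : Nat.card U = 4) : IsKleinFour U := by
  refine ⟨h4, ?_⟩
  have h2 : Monoid.exponent U ∣ 2 := Monoid.exponent_dvd_of_forall_pow_eq_one (fun u => by rw [pow_two]; exact Subtype.ext (h.2 u u.2))
  rcases (Nat.dvd_prime Nat.prime_two).mp h2 with h3 | h3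
  · exfalso
    have h5 : Subsingleton U := Monoid.exp_eq_one_iff.mp h3
    have := Nat.card_eq_one_iff_unique.mpr ⟨h5, ⟨1⟩⟩
    omega
  · exact h3

/-- step: every Klein four-group is connected to one inside `E` -/
theorem to_E {P : Type*} [Group P] [Finite P] (hP : IsPGroup 2 P)
    (E : Subgroup P) [E.Normal] (hE : EA E) (hE8 : 8 ≤ Nat.card E) (V : Subgroup P) (hV : IsKleinFour V) :
    ∃ W : Subgroup P, IsKleinFour W ∧ W ≤ E ∧ ∃ V1 : Subgroup P, IsKleinFour V1 ∧ (∀ a ∈ V, ∀ b ∈ V1, a * b = b * a) ∧ (∀ a ∈ V1, ∀ b ∈ W, a * b = b * a) := by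
  classical
  obtain ⟨hVe, hV4⟩ := ea_of_klein V hV
  have hEb : E ≠ ⊥ := by rintro rfl; rw [Subgroup.card_bot] at hE8; omega
  obtain ⟨e, heE, he1, hee, hez⟩ := exists_central hP E hE hEb
  obtain ⟨x, hxV, hxe⟩ : ∃ x ∈ V, x ∉ Subgroup.zpowers e := by
    by_contra hcon
    push Not at hcon
    have h1 := Nat.card_le_card_of_injective _ (Subgroup.inclusion_injective (show V ≤ Subgroup.zpowers e from hcon))
    rw [hV4, Nat.card_zpowers] at h1
    have h2 : orderOf e ≤ 2 := orderOf_le_of_pow_eq_one (by norm_num) (by rw [pow_two, hee])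
    omega
  have hxx := hVe.2 x hxV
  have hcomm : ∀ v ∈ Subgroup.zpowers e, ∀ c ∈ Subgroup.zpowers x, v * c = c * v := by
    rintro v hv c _
    rcases mem_zpowers_of_sq hee hv with rfl | rfl
    · simp
    · exact hez c
  have h4 : 4 ≤ Nat.card (prod (Subgroup.zpowers e) (Subgroup.zpowers x) hcomm) := by
    have h1 := card_double_prod hcomm (Subgroup.mem_zpowers x) hxe
    have h2 : Nat.card (Subgroup.zpowers e) = 2 := by
      rw [Nat.card_zpowers]; exact orderOf_eq_prime (by rw [pow_two, hee]) he1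
    omega
  obtain ⟨V1, hV1, hV14⟩ := exists_le_card hP _ (m := 2) h4
  have hea := (EA.zpowers hee).prod (EA.zpowers hxx) hcomm
  have hmem : ∀ a ∈ V1, a = 1 ∨ a = e ∨ a = x ∨ a = e * x := by
    intro a ha
    obtain ⟨v, hv, c, hc, rfl⟩ := hV1 ha
    rcases mem_zpowers_of_sq hee hv with rfl | rfl <;> rcases mem_zpowers_of_sq hxx hc with rfl | rfl <;> simp
  -- centraliser of x in E
  have hC := card_le_sq E hE x hxx (fun f hf => (inferInstance : E.Normal).conj_mem f hf x)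
  have hC4 : 2 ^ (1 + 1) ≤ Nat.card (E ⊓ Subgroup.centralizer ({x} : Set P) : Subgroup P) := by
    apply card_ge hP
    by_contra hcon
    push Not at hcon
    have : Nat.card (E ⊓ Subgroup.centralizer ({x} : Set P) : Subgroup P) ^ 2 ≤ (2 ^ 1) ^ 2 := Nat.pow_le_pow_left hcon 2
    omega
  obtain ⟨W, hW, hW4⟩ := exists_le_card hP _ hC4
  refine ⟨W, klein_of_ea W (hE.mono (hW.trans inf_le_left)) hW4, hW.trans inf_le_left, V1, klein_of_ea V1 (hea.mono hV1) hV14, ?_, ?_⟩
  · intro a ha b hb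
    rcases hmem b hb with rfl | rfl | rfl | rfl
    · simp
    · exact (hez a).symm
    · exact hVe.1 a ha _ hxV
    · rw [← mul_assoc, ← hez a, mul_assoc, hVe.1 a ha _ hxV, mul_assoc]
  · intro a ha b hb
    have hxb : x * b = b * x := Subgroup.mem_centralizer_iff.mp (Subgroup.mem_inf.mp (hW hb)).2 x rfl
    rcases hmem a ha with rfl | rfl | rfl | rfl
    · simp
    · exact hez b
    · exact hxb
    · rw [mul_assoc, hxb, ← mul_assoc, hez b, mul_assoc]

/-- If a finite 2-group has a normal elementary abelian subgroup of order at least 8, then any two of its Klein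
four-subgroups are joined by a chain of Klein four-subgroups with consecutive members commuting elementwise. -/
theorem result {P : Type*} [Group P] [Finite P] (hP : IsPGroup 2 P)
    (E : Subgroup P) [E.Normal] (hE : IsMulCommutative E) (hE2 : ∀ e ∈ E, e ^ 2 = 1) (hE8 : 8 ≤ Nat.card E) :
    Cfsg.IsFourConnected P := by
  have hEA : EA E := ⟨fun a ha b hb => congrArg Subtype.val (hE.is_comm.comm (⟨a, ha⟩ : E) ⟨b, hb⟩), fun a ha => by rw [← pow_two]; exact hE2 a ha⟩
  intro U V hU hV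
  obtain ⟨W, hW, hWE, V1, hV1, h1, h2⟩ := to_E hP E hEA hE8 U hU
  obtain ⟨W', hW', hWE', V1', hV1', h1', h2'⟩ := to_E hP E hEA hE8 V hV
  have s1 := Relation.ReflTransGen.single (r := fun A B : Subgroup P => IsKleinFour A ∧ IsKleinFour B ∧ ∀ a ∈ A, ∀ b ∈ B, a * b = b * a) ⟨hU, hV1, h1⟩
  refine s1.tail ⟨hV1, hW, h2⟩ |>.tail ⟨hW, hW', fun a ha b hb => hEA.1 a (hWE ha) b (hWE' hb)⟩ |>.tail ⟨hW', hV1', fun a ha b hb => (h2' b hb a ha).symm⟩ |>.tail ⟨hV1', hV, fun a ha b hb => (h1' b hb a ha).symm⟩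

end Cfsg.Agent.S0502
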