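import Cfsg.Statements.S0505
import Mathlib
import Cfsg.Agent.LibAxB9
import Cfsg.Agent.LibComp3
import Cfsg.Agent.LibSolvFitting
import Cfsg.Agent.LibTIConj
-- import your own Cfsg.Agent.* helpers here

set_option autoImplicit false
open Cfsg

namespace Cfsg.Agent.S0505

open CfsgLib.TIConj Cfsg

universe u

theorem exists_central_inv {T : Type*} [Group T] [Finite T] (hT : IsPGroup 2 T) [Nontrivial T] :
    ∃ t : T, orderOf t = 2 ∧ ∀ x : T, x * t = t * x := by
  have : Fact (Nat.Prime 2) := ⟨Nat.prime_two⟩
  have h1 := hT.bot_lt_center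
  have h2 : Nontrivial (Subgroup.center T) := (Subgroup.nontrivial_iff_ne_bot _).mpr h1.ne'
  have h3 : 2 ∣ Nat.card (Subgroup.center T) := by
    obtain ⟨n, hn⟩ := IsPGroup.iff_card.mp (hT.to_subgroup (Subgroup.center T))
    have h4 : 1 < Nat.card (Subgroup.center T) := Finite.one_lt_card
    rw [hn] at h4 ⊢
    exact dvd_pow_self 2 (by rintro rfl; simp at h4)
  obtain ⟨t, ht⟩ := exists_prime_orderOf_dvd_card' 2 h3
  refine ⟨t, by rw [Subgroup.orderOf_coe]; exact ht, fun x => Subgroup.mem_center_iff.mp t.2 x⟩

theorem main {G : Type u} [Group G] [Finite G]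
    (hs : ∀ t : G, orderOf t = 2 → Group.IsSolvable (Subgroup.centralizer ({t} : Set G)))
    (hc : ∀ t : G, orderOf t = 2 → Cfsg.oddCore (Subgroup.centralizer ({t} : Set G)) = ⊥)
    (T : Subgroup G) (hT : IsPGroup 2 T) (hT1 : T ≠ ⊥) : Cfsg.IsOfCharacteristicTwo ↥(Subgroup.normalizer (T : Set G)) := by
  have : Fact (Nat.Prime 2) := ⟨Nat.prime_two⟩
  have hnt : Nontrivial T := (Subgroup.nontrivial_iff_ne_bot _).mpr hT1
  obtain ⟨⟨t, htT⟩, ht2, htc⟩ := exists_central_inv hT
  have ht : orderOf t = 2 := by rw [← ht2, Subgroup.orderOf_mk]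
  have htc' : ∀ x ∈ T, x * t = t * x := fun x hx => congrArg Subtype.val (htc ⟨x, hx⟩)
  have hsol := hs t ht
  have hcore := hc t ht
  set C : Subgroup G := Subgroup.centralizer ({t} : Set G) with hC
  set N : Subgroup G := Subgroup.normalizer (T : Set G) with hN
  have hCmem : ∀ x : G, x ∈ C ↔ x * t = t * x := by
    intro x
    rw [hC, Subgroup.mem_centralizer_iff]
    constructor
    · intro h; exact (h t rfl).symm
    · rintro h y rfl; exact h.symm
  have hTC : T ≤ C := fun x hx => (hCmem x).mpr (htc' x hx)
  -- step 1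
  have hcoreN : pPrimeCore 2 N = ⊥ := by
    set D : Subgroup G := (pPrimeCore 2 N).map N.subtype with hD
    have hDodd : (Nat.card D).Coprime 2 := by
      rw [hD, Nat.card_congr (Subgroup.equivMapOfInjective (pPrimeCore 2 N) _ N.subtype_injective).toEquiv.symm]
      exact CfsgLib.Cores.pPrimeCore_coprime 2
    have hND : N ≤ Subgroup.normalizer (D : Set G) := by
      intro n hn
      rw [← conj_eq_iff]
      ext x
      rw [mem_conj]
      have hnorm : (pPrimeCore 2 N).Normal := inferInstance
      constructor
      · rintro ⟨y, hy, hyx⟩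
        refine ⟨⟨n, hn⟩ * y * ⟨n, hn⟩⁻¹, hnorm.conj_mem y hy _, ?_⟩
        change n * (N.subtype y) * n⁻¹ = x
        rw [hyx]; group
      · rintro ⟨y, hy, rfl⟩
        exact ⟨⟨n, hn⟩⁻¹ * y * ⟨n, hn⟩, by simpa using hnorm.conj_mem y hy ⟨n, hn⟩⁻¹, rfl⟩
    have hDN : D ≤ N := Subgroup.map_subtype_le _
    have hTD : ⁅T, D⁆ = ⊥ := by
      apply comm_of_norm _ (Subgroup.le_normalizer.trans hND) hDN
      have hco : (Nat.card T).Coprime (Nat.card D) := by
        obtain ⟨n, hn⟩ := IsPGroup.iff_card.mp hT
        rw [hn]; exact (Nat.Coprime.pow_right n hDodd).symm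
      exact disjoint_iff.1 (Subgroup.disjoint_of_coprime_natCard hco)
    have hDC : D ≤ C := fun x hx => (hCmem x).mpr (commute_of_comm_bot hTD htT hx).symm
    have h1 : D.subgroupOf C ≤ pPrimeCore 2 C := by
      apply CfsgLib.AxB9.le_pPrimeCore_of_centralizer (P := T.subgroupOf C)
      · exact hT.of_equiv (Subgroup.subgroupOfEquivOfLe hTC).symm
      · rw [Nat.card_congr (Subgroup.subgroupOfEquivOfLe hDC).toEquiv]; exact hDodd
      · rw [comm_bot_iff]
        intro a ha b hb
        rw [Subgroup.mem_subgroupOf] at ha hb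
        exact Subtype.ext (commute_of_comm_bot hTD ha hb)
      · intro x hx
        rw [Subgroup.mem_centralizer_iff] at hx
        have hxN : (x : G) ∈ N := by
          rw [hN, Subgroup.mem_normalizer_iff]
          have hcm : ∀ y ∈ T, y * (x : G) = x * y := fun y hy => congrArg Subtype.val (hx ⟨y, hTC hy⟩ (by rw [SetLike.mem_coe, Subgroup.mem_subgroupOf]; exact hy))
          intro y
          constructor
          · intro hy
            have : (x : G) * y * (x : G)⁻¹ = y := by rw [← hcm y hy]; simp
            rw [this]; exact hy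
          · intro hy
            have h2 := hcm _ hy
            have h3 : (x : G) * y = x * (x * y * (x : G)⁻¹) := by rw [← h2]; simp
            have h4 : y = x * y * (x : G)⁻¹ := mul_left_cancel h3
            rw [h4]; exact hy
        rw [Subgroup.mem_normalizer_iff]
        have h2 := Subgroup.mem_normalizer_iff.mp (hND hxN)
        intro y
        rw [Subgroup.mem_subgroupOf, Subgroup.mem_subgroupOf]
        exact h2 y
    have h2 : D.subgroupOf C = ⊥ := by
      rw [eq_bot_iff]; exact h1.trans hcore.le
    have h3 : D = ⊥ := by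
      rw [eq_bot_iff]
      intro x hx
      have h4 : (⟨x, hDC hx⟩ : C) ∈ D.subgroupOf C := by rw [Subgroup.mem_subgroupOf]; exact hx
      rw [h2, Subgroup.mem_bot] at h4
      exact congrArg Subtype.val h4
    exact (Subgroup.map_eq_bot_iff_of_injective _ N.subtype_injective).mp h3
  -- step 2
  have hTN : T ≤ N := Subgroup.le_normalizer
  have hT' : T.subgroupOf N ≤ fittingSubgroup N := by
    have h1 : (T.subgroupOf N).Normal := Subgroup.normal_in_normalizer
    have h2 : IsPGroup 2 (T.subgroupOf N) := hT.of_equiv (Subgroup.subgroupOfEquivOfLe hTN).symm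
    exact CfsgLib.Cores.le_fittingSubgroup h1 h2.isNilpotent
  have hlay : layer N = ⊥ := by
    by_contra hne
    have h1 := CfsgLib.Comp.layer_commute_fitting (G := N)
    have h2 : (layer N).map N.subtype ≤ C := by
      rintro _ ⟨x, hx, rfl⟩
      rw [hCmem]
      have h3 : (⟨t, hTN htT⟩ : N) ∈ fittingSubgroup N := hT' (by rw [Subgroup.mem_subgroupOf]; exact htT)
      exact congrArg Subtype.val (commute_of_comm_bot h1 hx h3)
    have h4 : Group.IsSolvable (layer N) := by
      have h5 : Group.IsSolvable ((layer N).map N.subtype) := by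
        haveI := hsol
        exact Group.isSolvable_of_isSolvable_injective (f := Subgroup.inclusion h2) (Subgroup.inclusion_injective h2)
      haveI := h5
      exact Group.isSolvable_of_isSolvable_injective (f := ((layer N).equivMapOfInjective _ N.subtype_injective).toMonoidHom) ((layer N).equivMapOfInjective _ N.subtype_injective).injective
    haveI := h4
    haveI : Nontrivial (layer N) := (Subgroup.nontrivial_iff_ne_bot _).mpr hne
    have h6 := Group.IsSolvable.commutator_lt_top_of_nontrivial (layer N)
    have h7 := CfsgLib.Comp.commutator_layer (G := N)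
    apply h6.ne
    have h8 : (commutator (layer N)).map (layer N).subtype = ⁅layer N, layer N⁆ := by
      rw [commutator_def, Subgroup.map_commutator, ← MonoidHom.range_eq_map, Subgroup.range_subtype]
    rw [h7] at h8
    apply Subgroup.map_injective (layer N).subtype_injective
    rw [h8, ← MonoidHom.range_eq_map, Subgroup.range_subtype]
  have h9 := CfsgLib.Comp3.layer_eq_bot_iff.mpr hlay
  rw [CfsgLib.SolvFitting.fitting_eq_pCore 2 hcoreN] at h9
  exact h9

/-- Let G be a finite group of even order in which the centralizer of every involution is solvable and has trivial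
core (no nontrivial normal subgroup of odd order). Then G is of characteristic 2 type. -/
theorem result {G : Type*} [Group G] [Finite G]
    (h2 : Even (Nat.card G))
    (hs : ∀ t : G, orderOf t = 2 → Group.IsSolvable (Subgroup.centralizer ({t} : Set G)))
    (hc : ∀ t : G, orderOf t = 2 → Cfsg.oddCore (Subgroup.centralizer ({t} : Set G)) = ⊥) :
    Cfsg.IsCharacteristicTwoType G := by
  exact ⟨h2, fun T hT hT1 => main hs hc T hT hT1⟩

end Cfsg.Agent.S0505
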