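import Cfsg.Statements.S0519
import Mathlib
import Cfsg.Agent.LibCycNorm
import Cfsg.Agent.LibPCyc
import Cfsg.Agent.LibDihedral
-- import your own Cfsg.Agent.* helpers here

set_option autoImplicit false
open Cfsg

namespace Cfsg.Agent.S0519



/-- Let P be a finite p-group in which every abelian normal subgroup is cyclic, but which has a non-cyclic abelian
subgroup. Then p = 2 and P is generalized quaternion, dihedral of order at least 16, or quasi-dihedral. -/
theorem result {P : Type*} [Group P] [Finite P] (p : ℕ) [Fact p.Prime]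
    (hP : IsPGroup p P) (hn : ∀ A : Subgroup P, A.Normal → IsMulCommutative A → IsCyclic A)
    (hm : ∃ B : Subgroup P, IsMulCommutative B ∧ ¬ IsCyclic B) :
    p = 2 ∧ ((∃ n : ℕ, Nonempty (P ≃* QuaternionGroup n)) ∨ (∃ n : ℕ, 8 ≤ n ∧ Nonempty (P ≃* DihedralGroup n)) ∨
      Cfsg.IsQuasiDihedral P) := by
  have hp : Fact p.Prime := inferInstance
  obtain ⟨B, hBa, hBc⟩ := hm
  have hnc : ¬ IsCyclic P := fun h => hBc inferInstance
  have hp2 : p = 2 := by
    by_contra hp2
    obtain ⟨A, hAn, hAc, hAe, hAcard⟩ := CfsgLib.PCyc.exists_normal_elem hp.out hp2 hP hnc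
    have h1 := hn A hAn hAc
    have h2 : Monoid.exponent A ∣ p := Monoid.exponent_dvd_of_forall_pow_eq_one (fun a => Subtype.ext (hAe a a.2))
    rw [IsCyclic.exponent_eq_card, hAcard] at h2
    have h3 := Nat.le_of_dvd hp.out.pos h2
    have h4 := hp.out.two_le
    nlinarith
  subst hp2
  refine ⟨rfl, ?_⟩
  rcases CfsgLib.CycNorm.structure_thm hP hn with h | ⟨n, a, b, hn2, ha, hb, hidx, h⟩
  · exact absurd h hnc
  have htop : Subgroup.closure ({a, b} : Set P) = ⊤ := by
    rw [eq_top_iff]
    intro g _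
    have haC : a ∈ Subgroup.closure ({a, b} : Set P) := Subgroup.subset_closure (by simp)
    have hbC : b ∈ Subgroup.closure ({a, b} : Set P) := Subgroup.subset_closure (by simp)
    by_cases hg : g ∈ Subgroup.zpowers a
    · exact (Subgroup.zpowers_le.mpr haC) hg
    · have h1 := mul_mem ((Subgroup.zpowers_le.mpr haC) (hidx g hg)) hbC
      rwa [inv_mul_cancel_right] at h1
  have hcard : Nat.card P = 2 ^ (n + 1) := by
    have h1 : (Subgroup.zpowers a).index = 2 := by
      rw [Subgroup.index_eq_two_iff]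
      refine ⟨b⁻¹, fun g => ?_⟩
      by_cases hg : g ∈ Subgroup.zpowers a
      · right
        refine ⟨hg, fun h' => hb ?_⟩
        have h2 := (Subgroup.mul_mem_cancel_left _ hg).mp h'
        rwa [inv_mem_iff] at h2
      · left; exact ⟨hidx g hg, hg⟩
    rw [← Subgroup.card_mul_index (Subgroup.zpowers a), h1, Nat.card_zpowers, ha, pow_succ]
  rcases h with ⟨h1, h2⟩ | ⟨h1, h2, h3⟩ | ⟨h1, h2, h3⟩
  · left
    refine ⟨2 ^ (n - 1), CfsgLib.Dihedral.nonempty_equiv_quaternion_top (a := a) (b := b) ?_ h1 h2 hb htop⟩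
    rw [ha, ← pow_succ']; congr 1; omega
  · right; left
    refine ⟨2 ^ n, ?_, CfsgLib.Dihedral.nonempty_equiv_dihedral_top (a := a) (b := b) ha h2 h3 hb htop⟩
    calc 8 = 2 ^ 3 := by norm_num
      _ ≤ 2 ^ n := Nat.pow_le_pow_right (by norm_num) h1
  · right; right
    refine ⟨n, h1, hcard, a, b, ha, ?_, h3⟩
    exact orderOf_eq_prime (by rw [pow_two, h2]) (by rintro rfl; exact hb (one_mem _))

end Cfsg.Agent.S0519
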