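import Cfsg.Statements.S0986
import Mathlib
import Cfsg.Agent.LibSmallSyl
-- import your own Cfsg.Agent.* helpers here

set_option autoImplicit false
open Cfsg

namespace Cfsg.Agent.S0986

open MulAction

/-- normalizers grow in p-groups -/
theorem exists_gt {G : Type*} [Group G] [Finite G] {p : ℕ} [Fact p.Prime] (P : Subgroup G) (hP : IsPGroup p P) (D : Subgroup G) (hD : D < P) :
    D < P ⊓ Subgroup.normalizer (D : Set G) := by
  have hnil : Group.IsNilpotent P := hP.isNilpotent
  have hnc : NormalizerCondition P := Group.normalizerCondition_of_isNilpotent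
  have h1 : D.subgroupOf P < ⊤ := by
    rw [lt_top_iff_ne_top]
    intro h
    rw [Subgroup.subgroupOf_eq_top] at h
    exact not_le_of_gt hD h
  have h2 := hnc _ h1
  obtain ⟨x, hx, hx'⟩ := SetLike.exists_of_lt h2
  have hle : D ≤ P ⊓ Subgroup.normalizer (D : Set G) := le_inf hD.le Subgroup.le_normalizer
  refine lt_of_le_of_ne hle ?_
  intro heq
  apply hx'
  rw [Subgroup.mem_subgroupOf]
  have h3 : (x : G) ∈ P ⊓ Subgroup.normalizer (D : Set G) := by
    refine ⟨x.2, Subgroup.mem_normalizer_iff.mpr (fun y => ?_)⟩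
    have hx3 := Subgroup.mem_normalizer_iff.mp hx
    constructor
    · intro hy
      have := (hx3 ⟨y, hD.le hy⟩).mp (by rw [Subgroup.mem_subgroupOf]; exact hy)
      rw [Subgroup.mem_subgroupOf] at this
      exact this
    · intro hy
      have hyP : y ∈ P := by
        have h4 : (x : G)⁻¹ * ((x : G) * y * (x : G)⁻¹) * x ∈ P := mul_mem (mul_mem (inv_mem x.2) (hD.le hy)) x.2
        have h5 : (x : G)⁻¹ * ((x : G) * y * (x : G)⁻¹) * x = y := by group
        rwa [h5] at h4
      have := (hx3 ⟨y, hyP⟩).mpr (by rw [Subgroup.mem_subgroupOf]; exact hy)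
      rw [Subgroup.mem_subgroupOf] at this
      exact this
  rw [← heq] at h3
  exact h3

/-- Let P and Q be distinct Sylow p-subgroups of a finite group G chosen so that the order of P ∩ Q is as large as possible among intersections of two distinct Sylow p-subgroups, and let N be the normalizer of P ∩ Q. Then N has more than one Sylow p-subgroup, any two distinct Sylow p-subgroups of N intersect exactly in P ∩ Q, and each Sylow p-subgroup of N lies in exactly one Sylow p-subgroup of G. -/
theorem result {G : Type*} [Group G] [Finite G] (p : ℕ) [Fact p.Prime] (P Q : Sylow p G) (hPQ : P ≠ Q) (hmax : ∀ P' Q' : Sylow p G, P' ≠ Q' → Nat.card ↥((P' : Subgroup G) ⊓ (Q' : Subgroup G)) ≤ Nat.card ↥((P : Subgroup G) ⊓ (Q : Subgroup G))) : 1 < Nat.card (Sylow p ↥(Subgroup.normalizer (((P : Subgroup G) ⊓ (Q : Subgroup G) : Subgroup G) : Set G))) ∧ (∀ S T : Sylow p ↥(Subgroup.normalizer (((P : Subgroup G) ⊓ (Q : Subgroup G) : Subgroup G) : Set G)), S ≠ T → (S : Subgroup _) ⊓ (T : Subgroup _) = ((P : Subgroup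 G) ⊓ (Q : Subgroup G)).subgroupOf (Subgroup.normalizer (((P : Subgroup G) ⊓ (Q : Subgroup G) : Subgroup G) : Set G))) ∧ ∀ S : Sylow p ↥(Subgroup.normalizer (((P : Subgroup G) ⊓ (Q : Subgroup G) : Subgroup G) : Set G)), ∃! T : Sylow p G, (S : Subgroup _).map (Subgroup.normalizer (((P : Subgroup G) ⊓ (Q : Subgroup G) : Subgroup G) : Set G)).subtype ≤ (T : Subgroup G) := by
  classical
  have hp : Fact p.Prime := inferInstance
  set D : Subgroup G := (P : Subgroup G) ⊓ (Q : Subgroup G) with hD
  set N : Subgroup G := Subgroup.normalizer (D : Set G) with hN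
  have hDN : D ≤ N := Subgroup.le_normalizer
  have hDp : IsPGroup p D := P.2.to_le inf_le_left
  have hDPlt : D < P := by
    refine lt_of_le_of_ne inf_le_left ?_
    intro h
    apply hPQ
    apply Sylow.ext
    have h1 : (P : Subgroup G) ≤ Q := by rw [← h]; exact inf_le_right
    exact (P.3 Q.2 h1).symm
  have hDQlt : D < Q := by
    refine lt_of_le_of_ne inf_le_right ?_
    intro h
    apply hPQ
    apply Sylow.ext
    have h1 : (Q : Subgroup G) ≤ P := by rw [← h]; exact inf_le_left
    exact Q.3 P.2 h1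
  have hgP := exists_gt (P : Subgroup G) P.2 D hDPlt
  have hgQ := exists_gt (Q : Subgroup G) Q.2 D hDQlt
  have hlt_card : ∀ A B : Subgroup G, A < B → Nat.card A < Nat.card B := by
    intro A B h
    by_contra hcon
    exact h.ne (Subgroup.eq_of_le_of_card_ge h.le (not_lt.mp hcon))
  -- maximality
  have hmax' : ∀ T T' : Sylow p G, Nat.card D < Nat.card ((T : Subgroup G) ⊓ (T' : Subgroup G) : Subgroup G) → T = T' := by
    intro T T' h
    by_contra hne
    exact absurd (hmax T T' hne) (not_le_of_gt h)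
  -- Sylow subgroups of N
  have hmapP : ∀ S : Sylow p N, IsPGroup p ((S : Subgroup N).map N.subtype) := fun S => S.2.map _
  have hex : ∀ S : Sylow p N, ∃ T : Sylow p G, (S : Subgroup N).map N.subtype ≤ T := fun S => (hmapP S).exists_le_sylow
  have hcardS : ∀ S : Sylow p N, Nat.card D < Nat.card ((S : Subgroup N).map N.subtype) := by
    intro S
    have h1 : IsPGroup p (((P : Subgroup G) ⊓ N).subgroupOf N) := by
      apply (P.2.to_le inf_le_left : IsPGroup p ((P : Subgroup G) ⊓ N : Subgroup G)).comap_of_injective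
      exact N.subtype_injective
    obtain ⟨S', hS'⟩ := h1.exists_le_sylow
    have h2 : Nat.card (S : Subgroup N) = Nat.card (S' : Subgroup N) := Nat.card_congr (Sylow.equiv S S').toEquiv
    have h3 : Nat.card ((S : Subgroup N).map N.subtype) = Nat.card (S : Subgroup N) := Nat.card_congr ((S : Subgroup N).equivMapOfInjective N.subtype N.subtype_injective).toEquiv.symm
    rw [h3, h2]
    have h4 : Nat.card (((P : Subgroup G) ⊓ N).subgroupOf N) = Nat.card ((P : Subgroup G) ⊓ N : Subgroup G) := Nat.card_congr (Subgroup.subgroupOfEquivOfLe inf_le_right).toEquiv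
    calc Nat.card D < Nat.card ((P : Subgroup G) ⊓ N : Subgroup G) := hlt_card _ _ hgP
      _ = Nat.card (((P : Subgroup G) ⊓ N).subgroupOf N) := h4.symm
      _ ≤ Nat.card (S' : Subgroup N) := Subgroup.card_le_of_le hS'
  have huniq : ∀ (S : Sylow p N) (T T' : Sylow p G), (S : Subgroup N).map N.subtype ≤ T → (S : Subgroup N).map N.subtype ≤ T' → T = T' := by
    intro S T T' h h'
    apply hmax'
    exact lt_of_lt_of_le (hcardS S) (Subgroup.card_le_of_le (le_inf h h'))
  have hDS : ∀ S : Sylow p N, D.subgroupOf N ≤ (S : Subgroup N) := by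
    intro S
    have hn : (D.subgroupOf N).Normal := Subgroup.normal_in_normalizer
    have hpg : IsPGroup p (D.subgroupOf N) := hDp.comap_of_injective N.subtype N.subtype_injective
    exact hpg.le_sylow_of_normal S
  refine ⟨?_, ?_, ?_⟩
  · by_contra hcon
    have h1 : Nat.card (Sylow p N) ≤ 1 := not_lt.mp hcon
    have h2 : Subsingleton (Sylow p N) := Finite.card_le_one_iff_subsingleton.mp h1
    have hPN : IsPGroup p (((P : Subgroup G) ⊓ N).subgroupOf N) :=
      (P.2.to_le inf_le_left : IsPGroup p ((P : Subgroup G) ⊓ N : Subgroup G)).comap_of_injective _ N.subtype_injective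
    have hQN : IsPGroup p (((Q : Subgroup G) ⊓ N).subgroupOf N) :=
      (Q.2.to_le inf_le_left : IsPGroup p ((Q : Subgroup G) ⊓ N : Subgroup G)).comap_of_injective _ N.subtype_injective
    obtain ⟨S, hS⟩ := hPN.exists_le_sylow
    obtain ⟨S', hS'⟩ := hQN.exists_le_sylow
    have h3 : S' = S := Subsingleton.elim _ _
    rw [h3] at hS'
    obtain ⟨T, hT⟩ := hex S
    have h4 : (P : Subgroup G) ⊓ N ≤ T := by
      intro x hx
      exact hT ⟨⟨x, hx.2⟩, hS (by rw [Subgroup.mem_subgroupOf]; exact hx), rfl⟩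
    have h5 : (Q : Subgroup G) ⊓ N ≤ T := by
      intro x hx
      exact hT ⟨⟨x, hx.2⟩, hS' (by rw [Subgroup.mem_subgroupOf]; exact hx), rfl⟩
    have h6 : P = T := hmax' P T (lt_of_lt_of_le (hlt_card _ _ hgP) (Subgroup.card_le_of_le (le_inf inf_le_left h4)))
    have h7 : Q = T := hmax' Q T (lt_of_lt_of_le (hlt_card _ _ hgQ) (Subgroup.card_le_of_le (le_inf inf_le_left h5)))
    exact hPQ (h6.trans h7.symm)
  · intro S S' hne
    obtain ⟨T, hT⟩ := hex S
    obtain ⟨T', hT'⟩ := hex S'
    have hTT : T ≠ T' := by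
      rintro rfl
      apply hne
      have h1 : IsPGroup p ((T : Subgroup G).subgroupOf N) := T.2.comap_of_injective N.subtype N.subtype_injective
      have h2 : (S : Subgroup N) ≤ (T : Subgroup G).subgroupOf N := by
        intro x hx
        rw [Subgroup.mem_subgroupOf]
        exact hT ⟨x, hx, rfl⟩
      have h3 : (S' : Subgroup N) ≤ (T : Subgroup G).subgroupOf N := by
        intro x hx
        rw [Subgroup.mem_subgroupOf]
        exact hT' ⟨x, hx, rfl⟩
      apply Sylow.ext
      rw [← S.3 h1 h2, ← S'.3 h1 h3]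
    apply le_antisymm _ (le_inf (hDS S) (hDS S'))
    have h1 : ((S : Subgroup N) ⊓ (S' : Subgroup N)).map N.subtype ≤ (T : Subgroup G) ⊓ T' :=
      le_inf ((Subgroup.map_mono inf_le_left).trans hT) ((Subgroup.map_mono inf_le_right).trans hT')
    have h2 : D ≤ ((S : Subgroup N) ⊓ (S' : Subgroup N)).map N.subtype := by
      intro x hx
      exact ⟨⟨x, hDN hx⟩, ⟨hDS S (by rw [Subgroup.mem_subgroupOf]; exact hx), hDS S' (by rw [Subgroup.mem_subgroupOf]; exact hx)⟩, rfl⟩
    have h3 : D = (T : Subgroup G) ⊓ T' := by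
      apply Subgroup.eq_of_le_of_card_ge (h2.trans h1)
      exact hmax T T' hTT
    intro x hx
    rw [Subgroup.mem_subgroupOf, h3]
    exact h1 ⟨x, hx, rfl⟩
  · intro S
    obtain ⟨T, hT⟩ := hex S
    exact ⟨T, hT, fun T' hT' => huniq S T' T hT' hT⟩

end Cfsg.Agent.S0986
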