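import Cfsg.Statements.S0520
import Mathlib
import Cfsg.Agent.LibElem2
import Cfsg.Agent.S0502
import Cfsg.Agent.S0986
-- import your own Cfsg.Agent.* helpers here

set_option autoImplicit false
open Cfsg

namespace Cfsg.Agent.S0520

open CfsgLib.Elem2 Cfsg.Agent.S0502 MulAut
open scoped Pointwise

universe u

section
variable {G : Type u} [Group G] [Finite G]

/-- contains a Klein four-group -/
def Four (D : Subgroup G) : Prop := ∃ V : Subgroup G, V ≤ D ∧ EA V ∧ Nat.card V = 4

omit [Finite G] in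
theorem Four.mono {D E : Subgroup G} (h : Four D) (hDE : D ≤ E) : Four E := by
  obtain ⟨V, h1, h2⟩ := h
  exact ⟨V, h1.trans hDE, h2⟩

omit [Finite G] in
theorem EA.conj {V : Subgroup G} (h : EA V) (g : G) : EA (MulAut.conj g • V) := by
  constructor
  · rintro _ ⟨a, ha, rfl⟩ _ ⟨b, hb, rfl⟩
    have h1 := h.1 a ha b hb
    change (MulAut.conj g) a * (MulAut.conj g) b = (MulAut.conj g) b * (MulAut.conj g) a
    rw [← map_mul, h1, map_mul]
  · rintro _ ⟨a, ha, rfl⟩
    change (MulAut.conj g) a * (MulAut.conj g) a = 1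
    rw [← map_mul, h.2 a ha, map_one]

omit [Finite G] in
theorem card_conj (V : Subgroup G) (g : G) : Nat.card (MulAut.conj g • V : Subgroup G) = Nat.card V :=
  Nat.card_congr (Subgroup.equivSMul (MulAut.conj g) V).toEquiv.symm

omit [Finite G] in
theorem Four.conj {D : Subgroup G} (h : Four D) (g : G) : Four (MulAut.conj g • D) := by
  obtain ⟨V, h1, h2, h3⟩ := h
  exact ⟨MulAut.conj g • V, Subgroup.pointwise_smul_le_pointwise_smul_iff.mpr h1, EA.conj h2 g, by rw [card_conj, h3]⟩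

omit [Finite G] in
theorem mem_conj_smul {V : Subgroup G} {g x : G} : x ∈ MulAut.conj g • V ↔ g⁻¹ * x * g ∈ V := by
  rw [Subgroup.mem_pointwise_smul_iff_inv_smul_mem, ← map_inv]
  simp [MulAut.smul_def, mul_assoc]

omit [Finite G] in
theorem ea_isPGroup {V : Subgroup G} (h : EA V) : IsPGroup 2 V := by
  intro v
  exact ⟨1, by rw [pow_one, pow_two]; exact Subtype.ext (h.2 v v.2)⟩

theorem rank_iff (D : Subgroup G) : ¬ Cfsg.PRankLE 2 1 D ↔ Four D := by
  have hp : Fact (Nat.Prime 2) := ⟨Nat.prime_two⟩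
  unfold Cfsg.PRankLE
  push Not
  constructor
  · rintro ⟨A, hA1, hA2, hA3⟩
    have hEA : EA A := ⟨fun a ha b hb => congrArg Subtype.val (hA1.is_comm.comm (⟨a, ha⟩ : A) ⟨b, hb⟩), fun a ha => by rw [← pow_two]; exact hA2 a ha⟩
    have hAp := ea_isPGroup hEA
    have h1 : 2 ^ (1 + 1) ≤ Nat.card (⊤ : Subgroup A) := card_ge hAp ⊤ (by rw [Subgroup.card_top]; exact hA3)
    obtain ⟨B, _, hB⟩ := exists_le_card hAp ⊤ h1
    refine ⟨(B.map A.subtype).map D.subtype, Subgroup.map_subtype_le _, ?_, ?_⟩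
    · constructor
      · rintro _ ⟨_, ⟨a, _, rfl⟩, rfl⟩ _ ⟨_, ⟨b, _, rfl⟩, rfl⟩
        exact congrArg Subtype.val (hEA.1 a a.2 b b.2)
      · rintro _ ⟨_, ⟨a, _, rfl⟩, rfl⟩
        exact congrArg Subtype.val (hEA.2 a a.2)
    · rw [Nat.card_congr (Subgroup.equivMapOfInjective _ D.subtype D.subtype_injective).toEquiv.symm,
        Nat.card_congr (Subgroup.equivMapOfInjective B A.subtype A.subtype_injective).toEquiv.symm, hB]
      norm_num
  · rintro ⟨V, hV1, hV2, hV3⟩
    refine ⟨V.subgroupOf D, ⟨⟨fun a b => Subtype.ext (Subtype.ext (hV2.1 _ a.2 _ b.2))⟩⟩, fun a ha => ?_, ?_⟩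
    · rw [pow_two]; exact Subtype.ext (hV2.2 _ ha)
    · rw [Nat.card_congr (Subgroup.subgroupOfEquivOfLe hV1).toEquiv, hV3]; norm_num

variable (S : Sylow 2 G)

/-- the 2-generated core -/
def Gam : Subgroup G := ⨆ Q : {Q : Subgroup G // Q ≤ (S : Subgroup G) ∧ ¬ Cfsg.PRankLE 2 1 Q}, Subgroup.normalizer ((Q : Subgroup G) : Set G)

theorem norm_le {Q : Subgroup G} (hQ : Q ≤ (S : Subgroup G)) (h : Four Q) : Subgroup.normalizer (Q : Set G) ≤ Gam S :=
  le_iSup (fun Q : {Q : Subgroup G // Q ≤ (S : Subgroup G) ∧ ¬ Cfsg.PRankLE 2 1 Q} => Subgroup.normalizer ((Q : Subgroup G) : Set G)) ⟨Q, hQ, (rank_iff Q).mpr h⟩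

theorem norm_le' {a : G} (ha : a ∈ Gam S) {D : Subgroup G} (hD : D ≤ MulAut.conj a • (S : Subgroup G)) (h : Four D) :
    Subgroup.normalizer (D : Set G) ≤ Gam S := by
  intro x hx
  have h1 : MulAut.conj a⁻¹ • D ≤ (S : Subgroup G) := by
    rw [map_inv, Subgroup.pointwise_smul_subset_iff, inv_inv]; exact hD
  have h2 := norm_le S h1 (h.conj a⁻¹)
  have h3 : a⁻¹ * x * a ∈ Subgroup.normalizer ((MulAut.conj a⁻¹ • D : Subgroup G) : Set G) := by
    rw [Subgroup.mem_normalizer_iff] at hx ⊢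
    intro y
    rw [mem_conj_smul, mem_conj_smul, hx]
    simp [mul_assoc]
  have h4 := mul_mem (mul_mem ha (h2 h3)) (inv_mem ha)
  have h5 : a * (a⁻¹ * x * a) * a⁻¹ = x := by group
  rwa [h5] at h4

theorem sylow_conj (n : ℕ) : ∀ S' T : Sylow 2 G, (∃ a ∈ Gam S, S' = a • S) → Nat.card G - Nat.card ((S' : Subgroup G) ⊓ T : Subgroup G) = n →
    Four ((S' : Subgroup G) ⊓ T) → ∃ h ∈ Gam S, T = h • S := by
  haveI : Fact (Nat.Prime 2) := ⟨Nat.prime_two⟩
  induction n using Nat.strong_induction_on with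
  | _ n ih =>
    intro S' T hS' hn hF
    by_cases hST : S' = T
    · rw [← hST]; exact hS'
    obtain ⟨D, hD⟩ : ∃ D, D = (S' : Subgroup G) ⊓ T := ⟨_, rfl⟩
    rw [← hD] at hF hn
    have hDS : D < (S' : Subgroup G) := by
      refine lt_of_le_of_ne (hD ▸ inf_le_left) (fun h => hST ?_)
      have h1 : (S' : Subgroup G) ≤ T := by rw [← h, hD]; exact inf_le_right
      exact Sylow.ext (S'.3 T.isPGroup' h1).symm
    have hDT : D < (T : Subgroup G) := by
      refine lt_of_le_of_ne (hD ▸ inf_le_right) (fun h => hST ?_)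
      have h1 : (T : Subgroup G) ≤ S' := by rw [← h, hD]; exact inf_le_left
      exact Sylow.ext (T.3 S'.isPGroup' h1)
    have hP1 := Cfsg.Agent.S0986.exists_gt (S' : Subgroup G) S'.isPGroup' D hDS
    have hP2 := Cfsg.Agent.S0986.exists_gt (T : Subgroup G) T.isPGroup' D hDT
    obtain ⟨N, hN⟩ : ∃ N, N = Subgroup.normalizer (D : Set G) := ⟨_, rfl⟩
    rw [← hN] at hP1 hP2
    obtain ⟨a, haG, haS⟩ := hS'
    have hNG : N ≤ Gam S := by
      rw [hN]
      apply norm_le' S haG _ hF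
      rw [← Sylow.coe_subgroup_smul, ← haS]; exact hDS.le
    have hq1 : IsPGroup 2 (((S' : Subgroup G) ⊓ N).subgroupOf N) :=
      (S'.isPGroup'.to_le inf_le_left).of_equiv (Subgroup.subgroupOfEquivOfLe inf_le_right).symm
    have hq2 : IsPGroup 2 (((T : Subgroup G) ⊓ N).subgroupOf N) :=
      (T.isPGroup'.to_le inf_le_left).of_equiv (Subgroup.subgroupOfEquivOfLe inf_le_right).symm
    obtain ⟨P, hP⟩ := hq1.exists_le_sylow
    obtain ⟨P', hP'⟩ := hq2.exists_le_sylow
    obtain ⟨k, hk⟩ := MulAction.exists_smul_eq N P P'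
    obtain ⟨R, hR⟩ := (P.isPGroup'.map N.subtype).exists_le_sylow
    have hS1 : (S' : Subgroup G) ⊓ N ≤ (S' : Subgroup G) ⊓ R := by
      refine le_inf inf_le_left ?_
      intro x hx
      apply hR
      exact ⟨⟨x, (Subgroup.mem_inf.mp hx).2⟩, hP (by rw [Subgroup.mem_subgroupOf]; exact hx), rfl⟩
    have hcardlt : ∀ A B : Subgroup G, A < B → Nat.card A < Nat.card B := by
      intro A B hAB
      refine lt_of_le_of_ne (Nat.card_le_card_of_injective _ (Subgroup.inclusion_injective hAB.le)) ?_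
      intro h2
      exact hAB.ne (Subgroup.eq_of_le_of_card_ge hAB.le h2.ge)
    have hcardle : ∀ A : Subgroup G, Nat.card A ≤ Nat.card G := fun A => Subgroup.card_le_card_group A
    obtain ⟨h1, hh1, hR1⟩ := ih _ (by
      have a1 := hcardlt _ _ (hP1.trans_le hS1)
      have a2 := hcardle ((S' : Subgroup G) ⊓ R)
      omega) S' R ⟨a, haG, haS⟩ rfl (hF.mono (hP1.le.trans hS1))
    -- k • R
    have hT1 : (T : Subgroup G) ⊓ N ≤ (((k : G) • R : Sylow 2 G) : Subgroup G) ⊓ T := by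
      refine le_inf ?_ inf_le_left
      intro x hx
      have hx' : (⟨x, (Subgroup.mem_inf.mp hx).2⟩ : N) ∈ P' := hP' (by rw [Subgroup.mem_subgroupOf]; exact hx)
      rw [← hk] at hx'
      have hx'' : (⟨x, (Subgroup.mem_inf.mp hx).2⟩ : N) ∈ (MulAut.conj k • (P : Subgroup N) : Subgroup N) := hx'
      rw [mem_conj_smul] at hx''
      rw [Sylow.coe_subgroup_smul, mem_conj_smul]
      apply hR
      exact ⟨_, hx'', rfl⟩
    have hkG : (k : G) ∈ Gam S := hNG k.2
    refine ih _ ?_ ((k : G) • R) T ⟨k * h1, mul_mem hkG hh1, by rw [hR1, smul_smul]⟩ rfl (hF.mono (hP2.le.trans hT1))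
    have a1 := hcardlt _ _ (hP2.trans_le hT1)
    have a2 := hcardle ((((k : G) • R : Sylow 2 G) : Subgroup G) ⊓ T)
    omega

/-- the relation -/
def r (A B : Subgroup G) : Prop := IsKleinFour A ∧ IsKleinFour B ∧ ∀ a ∈ A, ∀ b ∈ B, a * b = b * a

omit [Finite G] in
theorem klein_conj {A : Subgroup G} (h : IsKleinFour A) (g : G) : IsKleinFour (MulAut.conj g • A : Subgroup G) := by
  obtain ⟨h1, h2⟩ := ea_of_klein A h
  exact klein_of_ea _ (EA.conj h1 g) (by rw [card_conj, h2])

omit [Finite G] in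
theorem r_conj {A B : Subgroup G} (h : r A B) (g : G) : r (MulAut.conj g • A) (MulAut.conj g • B) := by
  obtain ⟨h1, h2, h3⟩ := h
  refine ⟨klein_conj h1 g, klein_conj h2 g, ?_⟩
  rintro _ ⟨a, ha, rfl⟩ _ ⟨b, hb, rfl⟩
  change (MulAut.conj g) a * (MulAut.conj g) b = (MulAut.conj g) b * (MulAut.conj g) a
  rw [← map_mul, h3 a ha b hb, map_mul]

omit [Finite G] in
theorem rt_conj {A B : Subgroup G} (h : Relation.ReflTransGen r A B) (g : G) :
    Relation.ReflTransGen r (MulAut.conj g • A) (MulAut.conj g • B) :=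
  Relation.ReflTransGen.lift (p := r) (fun A : Subgroup G => MulAut.conj g • A) (fun _ _ h => r_conj h g) _ _ h

omit [Finite G] in
theorem rt_symm {A B : Subgroup G} (h : Relation.ReflTransGen r A B) : Relation.ReflTransGen r B A := by
  have hs : Std.Symm (r (G := G)) := ⟨fun _ _ h => ⟨h.2.1, h.1, fun a ha b hb => (h.2.2 b hb a ha).symm⟩⟩
  exact (Relation.ReflTransGen.stdSymm (r := r (G := G))).symm _ _ h

omit [Finite G] in
theorem four_of_klein {A D : Subgroup G} (h : IsKleinFour A) (hA : A ≤ D) : Four D :=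
  ⟨A, hA, (ea_of_klein A h).1, (ea_of_klein A h).2⟩

/-- chains stay in `Γ`-conjugates of `S` -/
theorem chain {V U : Subgroup G} (hV : V ≤ (S : Subgroup G)) (h : Relation.ReflTransGen r V U) :
    ∃ g ∈ Gam S, U ≤ MulAut.conj g • (S : Subgroup G) := by
  haveI : Fact (Nat.Prime 2) := ⟨Nat.prime_two⟩
  induction h with
  | refl => exact ⟨1, one_mem _, by rw [map_one, one_smul]; exact hV⟩
  | @tail U U' _ hr ih =>
    obtain ⟨g, hg, hU⟩ := ih
    obtain ⟨hU1, hU2, hcom⟩ := hr
    obtain ⟨hUe, hU4⟩ := ea_of_klein U hU1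
    obtain ⟨hUe', hU4'⟩ := ea_of_klein U' hU2
    have hW := hUe.prod hUe' hcom
    obtain ⟨T, hT⟩ := (ea_isPGroup hW).exists_le_sylow
    obtain ⟨h, hh, hTh⟩ := sylow_conj S _ (g • S) T ⟨g, hg, rfl⟩ rfl
      ⟨U, le_inf (by rw [Sylow.coe_subgroup_smul]; exact hU) (le_prod_left.trans hT), hUe, hU4⟩
    refine ⟨h, hh, ?_⟩
    rw [← Sylow.coe_subgroup_smul, ← hTh]
    exact le_prod_right.trans hT

/-- chains inside `S` -/
theorem chain_S (hS : Cfsg.IsFourConnected (S : Subgroup G)) {U V : Subgroup G} (hU : IsKleinFour U) (hV : IsKleinFour V)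
    (hUS : U ≤ (S : Subgroup G)) (hVS : V ≤ (S : Subgroup G)) : Relation.ReflTransGen r U V := by
  have key : ∀ W : Subgroup G, IsKleinFour W → W ≤ (S : Subgroup G) → IsKleinFour (W.subgroupOf (S : Subgroup G)) := by
    intro W hW hWS
    obtain ⟨h1, h2⟩ := ea_of_klein W hW
    apply klein_of_ea
    · exact ⟨fun a ha b hb => Subtype.ext (h1.1 _ ha _ hb), fun a ha => Subtype.ext (h1.2 _ ha)⟩
    · rw [Nat.card_congr (Subgroup.subgroupOfEquivOfLe hWS).toEquiv, h2]
  have h1 := hS _ _ (key U hU hUS) (key V hV hVS)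
  have h2 := Relation.ReflTransGen.lift (p := r) (fun A : Subgroup (S : Subgroup G) => A.map (S : Subgroup G).subtype) (by
    rintro A B ⟨hA, hB, hAB⟩
    change r _ _
    obtain ⟨a1, a2⟩ := ea_of_klein A hA
    obtain ⟨b1, b2⟩ := ea_of_klein B hB
    have conv : ∀ A : Subgroup (S : Subgroup G), EA A → Nat.card A = 4 → IsKleinFour (A.map (S : Subgroup G).subtype) := by
      intro A a1 a2
      apply klein_of_ea
      · constructor
        · rintro _ ⟨a, ha, rfl⟩ _ ⟨b, hb, rfl⟩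
          exact congrArg Subtype.val (a1.1 a ha b hb)
        · rintro _ ⟨a, ha, rfl⟩
          exact congrArg Subtype.val (a1.2 a ha)
      · rw [Nat.card_congr (Subgroup.equivMapOfInjective _ (S : Subgroup G).subtype (Subgroup.subtype_injective _)).toEquiv.symm, a2]
    refine ⟨conv A a1 a2, conv B b1 b2, ?_⟩
    rintro _ ⟨a, ha, rfl⟩ _ ⟨b, hb, rfl⟩
    exact congrArg Subtype.val (hAB a ha b hb)) _ _ h1
  have h3 : Relation.ReflTransGen r ((U.subgroupOf (S : Subgroup G)).map (S : Subgroup G).subtype) ((V.subgroupOf (S : Subgroup G)).map (S : Subgroup G).subtype) := h2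
  rw [Subgroup.map_subgroupOf_eq_of_le hUS, Subgroup.map_subgroupOf_eq_of_le hVS] at h3
  exact h3

theorem into_S (U : Subgroup G) (hU : IsPGroup 2 U) : ∃ g : G, MulAut.conj g • U ≤ (S : Subgroup G) := by
  haveI : Fact (Nat.Prime 2) := ⟨Nat.prime_two⟩
  obtain ⟨T, hT⟩ := hU.exists_le_sylow
  obtain ⟨g, hg⟩ := MulAction.exists_smul_eq G T S
  refine ⟨g, ?_⟩
  rw [← hg, Sylow.coe_subgroup_smul]
  exact Subgroup.pointwise_smul_le_pointwise_smul_iff.mpr hT

theorem main (h2 : ¬ Cfsg.PRankLE 2 1 G) (hS : Cfsg.IsFourConnected (S : Subgroup G)) : Cfsg.IsFourConnected G ↔ Gam S = ⊤ := by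
  -- a four-group in S
  obtain ⟨V0, hV0S, hV0⟩ : ∃ V0 : Subgroup G, V0 ≤ (S : Subgroup G) ∧ IsKleinFour V0 := by
    have h3 : Four (⊤ : Subgroup G) := by
      rw [← rank_iff]
      intro h
      apply h2
      intro A hA1 hA2
      have h4 := h (A.comap (⊤ : Subgroup G).subtype) ⟨⟨fun a b => by
          have e : ((a : (⊤ : Subgroup G)) : G) * ((b : (⊤ : Subgroup G)) : G) = ((b : (⊤ : Subgroup G)) : G) * ((a : (⊤ : Subgroup G)) : G) :=
            congrArg Subtype.val (hA1.is_comm.comm (⟨_, a.2⟩ : A) ⟨_, b.2⟩)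
          exact Subtype.ext (Subtype.ext e)⟩⟩
        (fun a ha => Subtype.ext (hA2 _ ha))
      have h5 : Nat.card (A.comap (⊤ : Subgroup G).subtype) = Nat.card A :=
        Nat.card_congr (Subgroup.subgroupOfEquivOfLe (le_top : A ≤ ⊤)).toEquiv
      rwa [h5] at h4
    obtain ⟨V, _, hV1, hV2⟩ := h3
    obtain ⟨g, hg⟩ := into_S S V (ea_isPGroup hV1)
    exact ⟨_, hg, klein_conj (klein_of_ea V hV1 hV2) g⟩
  constructor
  · intro hG
    rw [eq_top_iff]
    intro x _
    have h1 := hG V0 (MulAut.conj x • V0) hV0 (klein_conj hV0 x)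
    obtain ⟨g, hg, hxg⟩ := chain S hV0S h1
    obtain ⟨h, hh, hhx⟩ := sylow_conj S _ (g • S) (x • S) ⟨g, hg, rfl⟩ rfl
      (four_of_klein (klein_conj hV0 x) (le_inf (by rw [Sylow.coe_subgroup_smul]; exact hxg)
        (by rw [Sylow.coe_subgroup_smul]; exact Subgroup.pointwise_smul_le_pointwise_smul_iff.mpr hV0S)))
    have h3 : (h⁻¹ * x) • S = S := by rw [mul_smul, hhx, inv_smul_smul]
    have h4 : h⁻¹ * x ∈ Subgroup.normalizer ((S : Subgroup G) : Set G) := Sylow.smul_eq_iff_mem_normalizer.mp h3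
    have h5 := norm_le S le_rfl (four_of_klein hV0 hV0S) h4
    have h6 := mul_mem hh h5
    rwa [mul_inv_cancel_left] at h6
  · intro hΓ
    have hM : ∀ g : G, Relation.ReflTransGen r V0 (MulAut.conj g • V0) := by
      intro g
      have hg : g ∈ Gam S := by rw [hΓ]; trivial
      unfold Gam at hg
      induction hg using Subgroup.iSup_induction' with
      | h1 => rw [map_one, one_smul]
      | hmul x y _ _ hx hy =>
        rw [map_mul, mul_smul]
        exact hx.trans (rt_conj hy x)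
      | hp Q x hx =>
        obtain ⟨Q, hQS, hQr⟩ := Q
        obtain ⟨V, hVQ, hV1, hV2⟩ := (rank_iff Q).mp hQr
        have hVk := klein_of_ea V hV1 hV2
        have h1 := chain_S S hS hV0 hVk hV0S (hVQ.trans hQS)
        have h2 : MulAut.conj x • V ≤ (S : Subgroup G) := by
          intro y hy
          rw [mem_conj_smul] at hy
          apply hQS
          have h3 := (Subgroup.mem_normalizer_iff.mp hx (x⁻¹ * y * x)).mp (hVQ hy)
          simpa [mul_assoc] using h3
        have h3 := chain_S S hS hV0 (klein_conj hVk x) hV0S h2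
        exact h3.trans (rt_conj (rt_symm h1) x)
    intro U V hU hV
    have hto : ∀ U : Subgroup G, IsKleinFour U → Relation.ReflTransGen r U V0 := by
      intro U hU
      obtain ⟨g, hg⟩ := into_S S U (ea_isPGroup (ea_of_klein U hU).1)
      have h1 := chain_S S hS (klein_conj hU g) hV0 hg hV0S
      have h2 := rt_conj h1 g⁻¹
      rw [smul_smul, ← map_mul, inv_mul_cancel, map_one, one_smul] at h2
      exact h2.trans (rt_symm (hM g⁻¹))
    exact (hto U hU).trans (rt_symm (hto V hV))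
end

/-- Let G be a finite group of 2-rank at least 2 and S a Sylow 2-subgroup whose commuting graph of Klein four-subgroups is
connected. Then the commuting graph of Klein four-subgroups of G is disconnected if and only if the 2-generated core — the
subgroup generated by the normalizers N_G(Q) of the subgroups Q of S that contain a Klein four-group — is a proper
subgroup of G. -/
theorem result {G : Type*} [Group G] [Finite G] (h2 : ¬ Cfsg.PRankLE 2 1 G)
    (S : Sylow 2 G) (hS : Cfsg.IsFourConnected (S : Subgroup G)) :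
    ¬ Cfsg.IsFourConnected G ↔
      (⨆ Q : {Q : Subgroup G // Q ≤ (S : Subgroup G) ∧ ¬ Cfsg.PRankLE 2 1 Q},
          Subgroup.normalizer ((Q : Subgroup G) : Set G)) ≠ ⊤ := by
  rw [not_iff_comm, not_not]
  exact (main S h2 hS).symm

end Cfsg.Agent.S0520
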