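import Cfsg.Statements.S0521
import Mathlib
import Cfsg.Agent.LibBGStab2
import Cfsg.Agent.LibLE10
import Cfsg.Agent.LibPCyc
-- import your own Cfsg.Agent.* helpers here

set_option autoImplicit false
open Cfsg

namespace Cfsg.Agent.S0521

open Cfsg Subgroup CfsgLib.LE
open scoped commutatorElement

universe u

theorem cent_of_frat {G : Type u} [Group G] [Finite G] {p : ℕ} [hp : Fact p.Prime] {P A : Subgroup G} (hP : IsPGroup p P)
    (hA : A ≤ normalizer (P : Set G)) (hcop : (Nat.card A).Coprime p) (h : ⁅P, A⁆ ≤ (frattini ↥P).map P.subtype) :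
    A ≤ centralizer (P : Set G) := by
  have hsol : Group.IsSolvable P := by haveI := hP.isNilpotent; infer_instance
  have hc : (Nat.card A).Coprime (Nat.card P) := by
    obtain ⟨n, hn⟩ := IsPGroup.iff_card.mp hP
    rw [hn]; exact Nat.Coprime.pow_right n hcop
  have h1 := CfsgLib.Coprime.commutator_sup_centralizer hA hc (Or.inr hsol)
  have h2 : ((P ⊓ centralizer (A : Set G)).subgroupOf P) ⊔ frattini ↥P = ⊤ := by
    apply Subgroup.map_injective P.subtype_injective
    rw [Subgroup.map_sup, Subgroup.map_subgroupOf_eq_of_le inf_le_left, ← MonoidHom.range_eq_map, Subgroup.range_subtype]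
    apply le_antisymm
    · exact sup_le inf_le_left (Subgroup.map_subtype_le _)
    · conv_lhs => rw [← h1]
      exact sup_le (h.trans le_sup_right) le_sup_left
  have h3 := frattini_nongenerating h2
  rw [Subgroup.subgroupOf_eq_top] at h3
  have h4 : P ≤ centralizer (A : Set G) := h3.trans inf_le_right
  exact Subgroup.le_centralizer_iff.mp h4

theorem core1 {X : Type u} [Group X] [Finite X] [Group.IsSolvable X]
    (hX : Odd (Nat.card X)) (p : ℕ) [hp : Fact p.Prime] (hp2 : p ≠ 2) (hO : pPrimeCore p X = ⊥) (S : Sylow p X)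
    (hS : IsCyclic ↥⁅(S : Subgroup X), (S : Subgroup X)⁆) : (S : Subgroup X) ≤ pCore p X := by
  obtain ⟨P, hPd⟩ : ∃ P, P = pCore p X := ⟨_, rfl⟩
  have hPn : P.Normal := by rw [hPd]; infer_instance
  have hPp : IsPGroup p P := by rw [hPd]; exact CfsgLib.Cores.pCore_isPGroup p
  have hCP : centralizer (P : Set X) ≤ P := by rw [hPd]; exact CfsgLib.BGPi.pconstrained_core hO
  obtain ⟨F, hFd⟩ : ∃ F, F = (frattini ↥P).map P.subtype := ⟨_, rfl⟩
  have hFn : F.Normal := by rw [hFd]; infer_instance
  have hFP : F ≤ P := by rw [hFd]; exact frat_le P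
  let f := QuotientGroup.mk' F
  have hfs : Function.Surjective f := QuotientGroup.mk'_surjective F
  have hker : ∀ x, f x = 1 ↔ x ∈ F := fun x => QuotientGroup.eq_one_iff x
  have hFp : IsPGroup p F := hPp.to_le hFP
  -- the core of the quotient
  have hcore : pCore p (X ⧸ F) = P.map f := by
    apply le_antisymm
    · have h1 : (pCore p (X ⧸ F)).comap f ≤ P := by
        rw [hPd]
        apply CfsgLib.Cores.le_pCore inferInstance
        exact CfsgLib.Cores.comap_mk_isPGroup F hFp _ (CfsgLib.Cores.pCore_isPGroup p)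
      have h2 := Subgroup.map_mono (f := f) h1
      rwa [Subgroup.map_comap_eq_self_of_surjective hfs] at h2
    · rw [hPd]; exact CfsgLib.Cores.map_pCore_le_of_surjective p f hfs
  have hPb : (P.map f).Normal := Subgroup.Normal.map hPn f hfs
  -- the p'-core of the quotient
  have hO' : pPrimeCore p (X ⧸ F) = ⊥ := by
    obtain ⟨K, hKd⟩ : ∃ K, K = pPrimeCore p (X ⧸ F) := ⟨_, rfl⟩
    have hKn : K.Normal := by rw [hKd]; infer_instance
    have hKc : (Nat.card K).Coprime p := by rw [hKd]; exact CfsgLib.Cores.pPrimeCore_coprime p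
    rw [← hKd]
    have hPbp : IsPGroup p (P.map f) := hPp.map f
    have hdisj : P.map f ⊓ K = ⊥ := by
      have hco : (Nat.card (P.map f)).Coprime (Nat.card K) := by
        obtain ⟨n, hn⟩ := IsPGroup.iff_card.mp hPbp
        rw [hn]; exact (Nat.Coprime.pow_right n hKc).symm
      exact disjoint_iff.1 (Subgroup.disjoint_of_coprime_natCard hco)
    have hcomm : ⁅P.map f, K⁆ = ⊥ := by
      rw [eq_bot_iff, ← hdisj]
      exact Subgroup.commutator_le_inf _ _
    -- elements of the preimage of order prime to p centralise P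
    have hall : ∀ x ∈ K.comap f, (orderOf x).Coprime p → x = 1 := by
      intro x hx ho
      have hA : zpowers x ≤ centralizer (P : Set X) := by
        apply cent_of_frat hPp
        · rw [Subgroup.normalizer_eq_top]; exact le_top
        · rw [Nat.card_zpowers]; exact ho
        · rw [Subgroup.commutator_le]
          intro u hu y hy
          rw [← hFd, ← hker]
          have h1 : ⁅f u, f y⁆ ∈ ⁅P.map f, K⁆ := Subgroup.commutator_mem_commutator ⟨u, hu, rfl⟩ ((Subgroup.zpowers_le.mpr hx) hy)
          rw [hcomm, Subgroup.mem_bot] at h1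
          rw [← h1]; exact map_commutatorElement f u y
      have hxP : x ∈ P := hCP (hA (Subgroup.mem_zpowers x))
      obtain ⟨k, hk⟩ := hPp ⟨x, hxP⟩
      have hk' : x ^ (p ^ k) = 1 := congrArg Subtype.val hk
      have h2 := orderOf_dvd_of_pow_eq_one hk'
      have h3 : orderOf x = 1 := Nat.Coprime.eq_one_of_dvd (Nat.Coprime.pow_right k ho) h2
      exact orderOf_eq_one_iff.mp h3
    -- hence K trivial
    rw [← Subgroup.card_eq_one]
    by_contra hne
    obtain ⟨r, hr, hrd⟩ := Nat.exists_prime_and_dvd hne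
    haveI : Fact r.Prime := ⟨hr⟩
    have hrp : r ≠ p := by
      rintro rfl
      have := Nat.Coprime.eq_one_of_dvd (Nat.Coprime.coprime_dvd_left hrd hKc) (dvd_refl _)
      exact hr.one_lt.ne' this
    have h1 : r ∣ Nat.card (K.comap f) := by
      rw [CfsgLib.Cores.card_comap_mk]; exact dvd_mul_of_dvd_right hrd _
    obtain ⟨x, hx⟩ := exists_prime_orderOf_dvd_card' r h1
    have h2 := hall x x.2 (by rw [Subgroup.orderOf_coe, hx]; exact (Nat.coprime_primes hr hp.out).mpr hrp)
    have h3 : x = 1 := Subtype.ext h2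
    rw [h3, orderOf_one] at hx
    exact hr.one_lt.ne hx
  have hodd' : Odd (Nat.card (X ⧸ F)) := by
    have h1 := Subgroup.card_mul_index F
    rw [← h1] at hX
    exact (Nat.odd_mul.mp hX).2
  -- elements of S
  intro x hx
  have hsol' : Group.IsSolvable (X ⧸ F) := inferInstance
  -- W
  obtain ⟨Sb, hSb⟩ : ∃ Sb, Sb = (S : Subgroup X).map f := ⟨_, rfl⟩
  have hSbp : IsPGroup p Sb := by rw [hSb]; exact S.isPGroup'.map f
  obtain ⟨W, hW⟩ : ∃ W, W = ⁅Sb, Sb⁆ ⊓ P.map f := ⟨_, rfl⟩
  have hPS : P ≤ (S : Subgroup X) := by rw [hPd]; exact CfsgLib.Cores.pCore_le_sylow S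
  have hPbS : P.map f ≤ Sb := by rw [hSb]; exact Subgroup.map_mono hPS
  have hWP : W ≤ P.map f := by rw [hW]; exact inf_le_right
  have hWS : W ≤ Sb := by rw [hW]; exact inf_le_right.trans hPbS
  have hcyc : IsCyclic ↥⁅Sb, Sb⁆ := by
    have h1 : ⁅Sb, Sb⁆ = (⁅(S : Subgroup X), (S : Subgroup X)⁆).map f := by rw [hSb, Subgroup.map_commutator]
    rw [h1]
    exact isCyclic_of_surjective _ (f.subgroupMap_surjective ⁅(S : Subgroup X), (S : Subgroup X)⁆)
  have hWc : IsCyclic W := by
    have h1 : W ≤ ⁅Sb, Sb⁆ := by rw [hW]; exact inf_le_left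
    exact isCyclic_of_injective (Subgroup.inclusion h1) (Subgroup.inclusion_injective h1)
  have hWp : ∀ w : W, w ^ p = 1 := by
    intro w
    have h1 : (w : X ⧸ F) ∈ P.map f := hWP w.2
    obtain ⟨u, hu, huw⟩ := h1
    apply Subtype.ext
    rw [Subgroup.coe_pow, ← huw, ← map_pow, Subgroup.coe_one, hker, hFd]
    exact pow_mem_frat hPp hu
  have hWcard : Nat.card W ∣ p := by
    rw [← IsCyclic.exponent_eq_card]
    exact Monoid.exponent_dvd_of_forall_pow_eq_one hWp
  have hWcen : ∀ w ∈ W, ∀ s ∈ Sb, w * s = s * w := by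
    have hWn : (W.subgroupOf Sb).Normal := by
      constructor
      intro w hw s
      rw [Subgroup.mem_subgroupOf, hW] at hw ⊢
      obtain ⟨hw1, hw2⟩ := Subgroup.mem_inf.mp hw
      refine Subgroup.mem_inf.mpr ⟨?_, hPb.conj_mem _ hw2 _⟩
      have h1 : ((s * w * s⁻¹ : Sb) : X ⧸ F) = ⁅(s : X ⧸ F), (w : X ⧸ F)⁆ * w := by
        rw [commutatorElement_def]; simp
      rw [h1]
      exact mul_mem (Subgroup.commutator_mem_commutator s.2 w.2) hw1
    rcases (Nat.dvd_prime hp.out).mp hWcard with h1 | h1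
    · intro w hw s _
      rw [Subgroup.card_eq_one.mp h1, Subgroup.mem_bot] at hw
      rw [hw]; simp
    · have h2 := CfsgLib.PCyc.le_center_of_card_eq hp.out hSbp (W.subgroupOf Sb) (by
        rw [← h1]; exact Nat.card_congr (Subgroup.subgroupOfEquivOfLe hWS).toEquiv)
      intro w hw s hs
      have h3 := Subgroup.mem_center_iff.mp (h2 (show (⟨w, hWS hw⟩ : Sb) ∈ W.subgroupOf Sb from hw)) ⟨s, hs⟩
      exact (congrArg Subtype.val h3).symm
  have hxq : ∀ u ∈ pCore p (X ⧸ F), ⁅⁅u, f x⁆, f x⁆ = 1 := by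
    intro u hu
    rw [hcore] at hu
    have hfx : f x ∈ Sb := by rw [hSb]; exact ⟨x, hx, rfl⟩
    have h1 : ⁅u, f x⁆ ∈ W := by
      rw [hW]
      refine Subgroup.mem_inf.mpr ⟨Subgroup.commutator_mem_commutator (hPbS hu) hfx, ?_⟩
      have h2 : ⁅u, f x⁆ = u * (f x * u⁻¹ * (f x)⁻¹) := by rw [commutatorElement_def]; group
      rw [h2]
      exact mul_mem hu (hPb.conj_mem _ (inv_mem hu) _)
    exact commutatorElement_eq_one_iff_mul_comm.mpr (hWcen _ h1 _ hfx)
  have hfxp : IsPGroup p (zpowers (f x)) := hSbp.to_le (Subgroup.zpowers_le.mpr (by rw [hSb]; exact ⟨x, hx, rfl⟩))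
  have hfin := CfsgLib.BGPi.stab_core hp2 hodd' hO' hfxp hxq
  rw [hcore] at hfin
  obtain ⟨u, hu, hux⟩ := hfin
  rw [← hPd]
  have h1 : u⁻¹ * x ∈ F := by
    rw [← hker, map_mul, map_inv, hux, inv_mul_cancel]
  have h2 := mul_mem hu (hFP h1)
  rwa [mul_inv_cancel_left] at h2

/-- Let X be a finite solvable group of odd order, p a prime and S a Sylow p-subgroup of X whose commutator subgroup is
cyclic. Then the product of the largest normal subgroup of X of order prime to p with S is a normal subgroup of X. -/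
theorem result {X : Type*} [Group X] [Finite X] [Group.IsSolvable X]
    (hX : Odd (Nat.card X)) (p : ℕ) [Fact p.Prime] (S : Sylow p X) (hS : IsCyclic (commutator (S : Subgroup X))) :
    (Cfsg.pPrimeCore p X ⊔ (S : Subgroup X)).Normal := by
  have hp : Fact p.Prime := inferInstance
  by_cases hp2 : p = 2
  · have h1 : (S : Subgroup X) = ⊥ := by
      rw [← Subgroup.card_eq_one]
      obtain ⟨n, hn⟩ := IsPGroup.iff_card.mp S.isPGroup'
      have h2 : Odd (Nat.card (S : Subgroup X)) := Odd.of_dvd_nat hX (Subgroup.card_subgroup_dvd_card _)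
      rw [hn]
      rcases Nat.eq_zero_or_pos n with h | h
      · rw [h, pow_zero]
      · exfalso
        rw [hn, hp2] at h2
        exact (Nat.not_odd_iff_even.mpr ((even_two).pow_of_ne_zero h.ne')) h2
    rw [h1, sup_bot_eq]; infer_instance
  · have hcyc : IsCyclic ↥⁅(S : Subgroup X), (S : Subgroup X)⁆ := by
      have h1 : ⁅(S : Subgroup X), (S : Subgroup X)⁆ = (commutator (S : Subgroup X)).map (S : Subgroup X).subtype := by
        rw [commutator_def, Subgroup.map_commutator, ← MonoidHom.range_eq_map, Subgroup.range_subtype]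
      rw [h1]
      exact isCyclic_of_surjective _ ((S : Subgroup X).subtype.subgroupMap_surjective (commutator (S : Subgroup X)))
    have hfs : Function.Surjective (QuotientGroup.mk' (pPrimeCore p X)) := QuotientGroup.mk'_surjective _
    have hodd' : Odd (Nat.card (X ⧸ pPrimeCore p X)) := by
      have h1 := Subgroup.card_mul_index (pPrimeCore p X)
      rw [← h1] at hX
      exact (Nat.odd_mul.mp hX).2
    have hsol' : Group.IsSolvable (X ⧸ pPrimeCore p X) := inferInstance
    have h1 := core1 hodd' p hp2 (CfsgLib.Cores.pPrimeCore_quotient_pPrimeCore p) (S.mapSurjective hfs) (by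
      rw [Sylow.coe_mapSurjective, ← Subgroup.map_commutator]
      exact isCyclic_of_surjective _ ((QuotientGroup.mk' (pPrimeCore p X)).subgroupMap_surjective _))
    have h2 : (S : Subgroup X).map (QuotientGroup.mk' (pPrimeCore p X)) = pCore p (X ⧸ pPrimeCore p X) := by
      apply le_antisymm
      · exact h1
      · exact CfsgLib.Cores.pCore_le_sylow (S.mapSurjective hfs)
    have h3 : pPrimeCore p X ⊔ (S : Subgroup X) = (pCore p (X ⧸ pPrimeCore p X)).comap (QuotientGroup.mk' (pPrimeCore p X)) := by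
      rw [← h2, Subgroup.comap_map_eq, QuotientGroup.ker_mk', sup_comm]
    rw [h3]; infer_instance

end Cfsg.Agent.S0521
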