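import Cfsg.Statements.S0526
import Cfsg.Agent.LibSuper

set_option autoImplicit false
open Cfsg

namespace Cfsg.Agent.S0526

open scoped commutatorElement


/-- In a finite supersolvable group the commutator subgroup is nilpotent. -/
theorem result {G : Type*} [Group G] [Finite G] (hG : Cfsg.IsSupersolvable G) : Group.IsNilpotent (commutator G) := by
  rw [CfsgLib.Super.iff_nat] at hG
  obtain ⟨n, H, h0, hn, hN, hs⟩ := hG
  have key : ∀ {Q : Type _} [Group Q] (c : Q), (Subgroup.zpowers c).Normal →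
      commutator Q ≤ Subgroup.centralizer {c} := by
    intro Q _ c hc
    rw [commutator_def, Subgroup.commutator_le]
    have h4 : ∀ x y : Q, (y * x)⁻¹ * (x * y) * c = c * ((y * x)⁻¹ * (x * y)) := by
      intro x y
      obtain ⟨a, ha⟩ := hc.conj_mem c (Subgroup.mem_zpowers c) x
      obtain ⟨b, hb⟩ := hc.conj_mem c (Subgroup.mem_zpowers c) y
      have ha' : x * c * x⁻¹ = c ^ a := ha.symm
      have hb' : y * c * y⁻¹ = c ^ b := hb.symm
      have h1 : (x * y) * c * (x * y)⁻¹ = (y * x) * c * (y * x)⁻¹ := by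
        have e1 : (x * y) * c * (x * y)⁻¹ = x * (y * c * y⁻¹) * x⁻¹ := by group
        have e2 : (y * x) * c * (y * x)⁻¹ = y * (x * c * x⁻¹) * y⁻¹ := by group
        rw [e1, e2, ha', hb', ← conj_zpow, ← conj_zpow, ha', hb', ← zpow_mul, ← zpow_mul, mul_comm]
      have h2 := congrArg (fun z => (y * x)⁻¹ * z * (x * y)) h1
      simpa [mul_assoc] using h2
    rintro x - y -
    have h5 := h4 x⁻¹ y⁻¹
    have e : (y⁻¹ * x⁻¹)⁻¹ * (x⁻¹ * y⁻¹) = ⁅x, y⁆ := by
      rw [commutatorElement_def]; group
    rw [e] at h5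
    rw [Subgroup.mem_centralizer_iff]
    intro z hz
    rw [Set.mem_singleton_iff.mp hz]
    exact h5.symm
  rw [Subgroup.nilpotent_iff_finite_ascending_central_series]
  refine ⟨n, fun i => (H i).subgroupOf (commutator G), ⟨?_, ?_⟩, ?_⟩
  · simp only [h0, Subgroup.bot_subgroupOf]
  · rintro ⟨x, hx⟩ i hxi ⟨g, hg⟩
    rw [Subgroup.mem_subgroupOf] at hxi ⊢
    haveI := hN i
    obtain ⟨g₀, hg₀⟩ := hs i
    let f := QuotientGroup.mk' (H i)
    have hf : Function.Surjective f := QuotientGroup.mk'_surjective _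
    have h1 : (H (i + 1)).map f = Subgroup.zpowers (f g₀) := by
      rw [hg₀, Subgroup.map_sup, QuotientGroup.map_mk'_self, bot_sup_eq, MonoidHom.map_zpowers]
    have h2 : (Subgroup.zpowers (f g₀)).Normal := by
      rw [← h1]; exact (hN (i + 1)).map f hf
    have h3 : f g ∈ commutator (G ⧸ H i) := by
      have := Subgroup.mem_map_of_mem f hg
      rw [map_commutator_eq, MonoidHom.range_eq_top.mpr hf] at this
      exact this
    have h4 := key _ h2 h3
    have h5 : f x ∈ Subgroup.zpowers (f g₀) := by rw [← h1]; exact Subgroup.mem_map_of_mem f hxi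
    obtain ⟨k, hk⟩ := h5
    have hk' : f g₀ ^ k = f x := hk
    have h6 : Commute (f g₀) (f g) := Subgroup.mem_centralizer_iff.mp h4 _ rfl
    have h7 : f ⁅x, g⁆ = 1 := by
      rw [map_commutatorElement, ← hk']
      exact (h6.zpow_left k).commutator_eq
    exact (QuotientGroup.eq_one_iff _).mp h7
  · simp only [hn, Subgroup.top_subgroupOf]

end Cfsg.Agent.S0526
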