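import Cfsg.Statements.S0527
import Cfsg.Agent.LibSuper

set_option autoImplicit false
open Cfsg

namespace Cfsg.Agent.S0527

universe u

theorem aux (n : ℕ) : ∀ (G : Type u) [Group G] [Finite G], Nat.card G ≤ n →
    Cfsg.IsSupersolvable G → ∀ M : Subgroup G, IsCoatom M → M.index.Prime := by
  induction n with
  | zero =>
    intro G _ _ hn
    have : 0 < Nat.card G := Nat.card_pos
    omega
  | succ n ih =>
    intro G _ _ hn hG M hM
    have hne : (⊤ : Subgroup G) ≠ ⊥ := by
      intro h
      apply hM.1
      rw [eq_top_iff, h]; exact bot_le
    obtain ⟨N, hNn, -, hNp⟩ := CfsgLib.Super.exists_prime_normal_le hG ⊤ hne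
    by_cases hNM : N ≤ M
    · have hf : Function.Surjective (QuotientGroup.mk' N) := QuotientGroup.mk'_surjective N
      have h1 : IsCoatom (M.map (QuotientGroup.mk' N)) := by
        constructor
        · intro h
          apply hM.1
          have := congrArg (Subgroup.comap (QuotientGroup.mk' N)) h
          rwa [Subgroup.comap_map_eq, QuotientGroup.ker_mk', Subgroup.comap_top,
            sup_eq_left.mpr hNM] at this
        · intro X hX
          have h2 : M < X.comap (QuotientGroup.mk' N) := by
            rw [← Subgroup.comap_lt_comap_of_surjective hf, Subgroup.comap_map_eq,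
              QuotientGroup.ker_mk', sup_eq_left.mpr hNM] at hX
            exact hX
          have h3 := hM.2 _ h2
          rw [← Subgroup.map_comap_eq_self_of_surjective hf X, h3]
          exact Subgroup.map_top_of_surjective _ hf
      have h2 := ih (G ⧸ N) (by
        have h2 := Subgroup.card_mul_index N
        have h3 : 0 < N.index := Nat.pos_of_ne_zero Subgroup.index_ne_zero_of_finite
        have h4 := hNp.one_lt
        change N.index ≤ n
        nlinarith) (CfsgLib.Super.quotient hG N) _ h1
      rwa [Subgroup.index_map_eq _ hf (by rw [QuotientGroup.ker_mk']; exact hNM)] at h2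
    · have h1 : M ⊔ N = ⊤ := hM.2 _ (lt_of_le_of_ne le_sup_left (fun h => hNM (by rw [h]; exact le_sup_right)))
      have h2 : M.relIndex N = M.index := by
        have h3 := CfsgLib.Coprime.card_sup_mul_card_inf (N := N) (H := M) Subgroup.le_normalizer_of_normal
        rw [h1, Subgroup.card_top] at h3
        have h4 := Subgroup.card_mul_index M
        have h5 := CfsgLib.Coprime.card_mul_relIndex (inf_le_right : M ⊓ N ≤ N)
        rw [Subgroup.inf_relIndex_right] at h5
        rw [← h4, ← h5] at h3
        have h6 : 0 < Nat.card M := Nat.card_pos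
        have h7 : 0 < Nat.card ↥(M ⊓ N) := Nat.card_pos
        have h8 : (Nat.card M * Nat.card ↥(M ⊓ N)) * M.index =
          (Nat.card M * Nat.card ↥(M ⊓ N)) * M.relIndex N := by
          calc _ = Nat.card M * M.index * Nat.card ↥(M ⊓ N) := by ring
            _ = _ := by rw [h3]; ring
        exact (Nat.eq_of_mul_eq_mul_left (Nat.mul_pos h6 h7) h8).symm
      have h3 : M.relIndex N ∣ Nat.card N := Subgroup.relIndex_dvd_card M N
      rcases (Nat.dvd_prime hNp).mp h3 with h4 | h4
      · exact absurd (Subgroup.relIndex_eq_one.mp h4) hNM
      · rw [← h2, h4]; exact hNp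


/-- In a finite supersolvable group the index of any maximal subgroup is a prime number. -/
theorem result {G : Type*} [Group G] [Finite G] (hG : Cfsg.IsSupersolvable G) (M : Subgroup G) (hM : IsCoatom M) : M.index.Prime := by
  exact aux (Nat.card G) G le_rfl hG M hM

end Cfsg.Agent.S0527
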