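import Cfsg.Statements.S0529
import Cfsg.Agent.LibSuper

set_option autoImplicit false
open Cfsg

namespace Cfsg.Agent.S0529

universe u
open Subgroup

/-- A normal subgroup of order `p`, `p` the largest prime divisor. -/
theorem exists_normal_largest (n : ℕ) : ∀ (G : Type u) [Group G] [Finite G], Nat.card G ≤ n →
    Cfsg.IsSupersolvable G → ∀ p : ℕ, p.Prime → p ∣ Nat.card G →
    (∀ q : ℕ, q.Prime → q ∣ Nat.card G → q ≤ p) → ∃ N : Subgroup G, N.Normal ∧ Nat.card N = p := by
  induction n with
  | zero =>
    intro G _ _ hn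
    have : 0 < Nat.card G := Nat.card_pos
    omega
  | succ n ih =>
    intro G _ _ hn hG p hp hpd hmax
    have hne : (⊤ : Subgroup G) ≠ ⊥ := by
      intro h
      have : Nat.card G = 1 := by rw [← card_top, h, card_bot]
      rw [this] at hpd
      exact hp.one_lt.ne' (Nat.dvd_one.mp hpd)
    obtain ⟨N, hNn, -, hNp⟩ := CfsgLib.Super.exists_prime_normal_le hG ⊤ hne
    by_cases hNp' : Nat.card N = p
    · exact ⟨N, hNn, hNp'⟩
    have hqle : Nat.card N < p := lt_of_le_of_ne (hmax _ hNp (card_subgroup_dvd_card N)) hNp'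
    have hcard : Nat.card N * Nat.card (G ⧸ N) = Nat.card G := card_mul_index N
    have hpd' : p ∣ Nat.card (G ⧸ N) := by
      rw [← hcard] at hpd
      rcases (Nat.Prime.dvd_mul hp).mp hpd with h | h
      · exact absurd ((Nat.prime_dvd_prime_iff_eq hp hNp).mp h).symm hNp'
      · exact h
    obtain ⟨Mb, hMbn, hMb⟩ := ih (G ⧸ N) (by
        have h3 : 0 < Nat.card (G ⧸ N) := Nat.card_pos
        have h4 := hNp.one_lt
        nlinarith) (CfsgLib.Super.quotient hG N) p hp hpd' (fun q hq hqd =>
          hmax q hq (hqd.trans (by rw [← hcard]; exact dvd_mul_left _ _)))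
    set M := Mb.comap (QuotientGroup.mk' N) with hM
    haveI : M.Normal := inferInstance
    have hMcard : Nat.card M = Nat.card N * p := by rw [hM, CfsgLib.Cores.card_comap_mk, hMb]
    haveI : Fact p.Prime := ⟨hp⟩
    obtain ⟨P⟩ := (inferInstance : Nonempty (Sylow p M))
    have hPcard : Nat.card P = p := by
      rw [P.card_eq_multiplicity, hMcard, Nat.factorization_mul hNp.ne_zero hp.ne_zero,
        Finsupp.add_apply, hp.factorization_self, Nat.factorization_eq_zero_of_not_dvd]
      · simp
      · intro h
        exact hNp' ((Nat.prime_dvd_prime_iff_eq hp hNp).mp h).symm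
    have hPidx : (P : Subgroup M).index = Nat.card N := by
      have h1 := card_mul_index (P : Subgroup M)
      rw [hPcard, hMcard, mul_comm] at h1
      exact Nat.eq_of_mul_eq_mul_right hp.pos h1
    have h1 : Nat.card (Sylow p M) ∣ Nat.card N := by rw [← hPidx]; exact P.card_dvd_index
    have h2 : Nat.card (Sylow p M) ≡ 1 [MOD p] := card_sylow_modEq_one p M
    have h3 : Nat.card (Sylow p M) = 1 := by
      have h4 : Nat.card (Sylow p M) < p := lt_of_le_of_lt (Nat.le_of_dvd hNp.pos h1) hqle
      rwa [Nat.ModEq, Nat.mod_eq_of_lt h4, Nat.mod_eq_of_lt hp.one_lt] at h2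
    haveI : Subsingleton (Sylow p M) := (Nat.card_eq_one_iff_unique.mp h3).1
    haveI : (P : Subgroup M).Characteristic := P.characteristic_of_subsingleton
    exact ⟨(P : Subgroup M).map M.subtype, inferInstance, by
      rw [card_map_of_injective M.subtype_injective]; exact hPcard⟩

theorem aux (n : ℕ) : ∀ (G : Type u) [Group G] [Finite G], Nat.card G ≤ n →
    Cfsg.IsSupersolvable G → ∃ (n : ℕ) (H : Fin (n + 1) → Subgroup G), H 0 = ⊥ ∧ H (Fin.last n) = ⊤ ∧
      (∀ i, (H i).Normal) ∧
      (∀ i : Fin n, H i.castSucc ≤ H i.succ ∧ ((H i.castSucc).relIndex (H i.succ)).Prime) ∧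
      (∀ i : Fin n, (H i.castSucc).relIndex (H i.succ) ∣ Nat.card G) ∧
      ∀ i j : Fin n, i ≤ j → (H j.castSucc).relIndex (H j.succ) ≤ (H i.castSucc).relIndex (H i.succ) := by
  induction n with
  | zero =>
    intro G _ _ hn
    have : 0 < Nat.card G := Nat.card_pos
    omega
  | succ n ih =>
    intro G _ _ hn hG
    by_cases h1 : Nat.card G = 1
    · refine ⟨0, fun _ => ⊥, rfl, ?_, fun _ => inferInstance, fun i => i.elim0, fun i => i.elim0,
        fun i => i.elim0⟩
      have : (⊤ : Subgroup G) = ⊥ := card_eq_one.mp (by rw [card_top, h1])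
      rw [this]
    -- the largest prime divisor
    have hne : (Nat.card G).primeFactors.Nonempty := Nat.nonempty_primeFactors.mpr (by
      have : 0 < Nat.card G := Nat.card_pos
      omega)
    obtain ⟨p, hpm, hpmax⟩ := Finset.exists_max_image (Nat.card G).primeFactors id hne
    have hp := Nat.prime_of_mem_primeFactors hpm
    have hpd := Nat.dvd_of_mem_primeFactors hpm
    have hmax : ∀ q : ℕ, q.Prime → q ∣ Nat.card G → q ≤ p := fun q hq hqd =>
      hpmax q (Nat.mem_primeFactors.mpr ⟨hq, hqd, Nat.card_pos.ne'⟩)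
    obtain ⟨N, hNn, hNp⟩ := exists_normal_largest (Nat.card G) G le_rfl hG p hp hpd hmax
    have hcard : Nat.card N * Nat.card (G ⧸ N) = Nat.card G := card_mul_index N
    obtain ⟨m, H, h0, hm, hN, hs, hd, hdec⟩ := ih (G ⧸ N) (by
        have h3 : 0 < Nat.card (G ⧸ N) := Nat.card_pos
        have h4 := hp.one_lt
        rw [hNp] at hcard
        nlinarith) (CfsgLib.Super.quotient hG N)
    have hf : Function.Surjective (QuotientGroup.mk' N) := QuotientGroup.mk'_surjective N
    have hcm : ∀ X Y : Subgroup (G ⧸ N), (X.comap (QuotientGroup.mk' N)).relIndex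
        (Y.comap (QuotientGroup.mk' N)) = X.relIndex Y := by
      intro X Y
      rw [relIndex_comap, map_comap_eq_self_of_surjective hf]
    let K : Fin (m + 1 + 1) → Subgroup G := Fin.cons ⊥ (fun i => (H i).comap (QuotientGroup.mk' N))
    have hK0 : K 0 = ⊥ := rfl
    have hKs : ∀ i : Fin (m + 1), K i.succ = (H i).comap (QuotientGroup.mk' N) := fun i => rfl
    have hrel0 : (K (0 : Fin (m + 1)).castSucc).relIndex (K (0 : Fin (m + 1)).succ) = p := by
      rw [hKs, h0, MonoidHom.comap_bot, QuotientGroup.ker_mk']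
      change (⊥ : Subgroup G).relIndex N = p
      rw [relIndex_bot_left, hNp]
    have hrels : ∀ i : Fin m, (K i.succ.castSucc).relIndex (K i.succ.succ) =
        (H i.castSucc).relIndex (H i.succ) := by
      intro i
      rw [hKs, ← Fin.succ_castSucc, hKs, hcm]
    refine ⟨m + 1, K, rfl, ?_, ?_, ?_, ?_, ?_⟩
    · rw [← Fin.succ_last, hKs, hm, comap_top]
    · intro i
      refine Fin.cases ?_ (fun i => ?_) i
      · rw [hK0]; infer_instance
      · rw [hKs]; exact (hN i).comap _
    · intro i
      refine Fin.cases ?_ (fun i => ?_) i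
      · refine ⟨?_, ?_⟩
        · change (⊥ : Subgroup G) ≤ _; exact bot_le
        · rw [hrel0]; exact hp
      · refine ⟨?_, ?_⟩
        · rw [hKs, ← Fin.succ_castSucc, hKs]; exact comap_mono (hs i).1
        · rw [hrels]; exact (hs i).2
    · intro i
      refine Fin.cases ?_ (fun i => ?_) i
      · rw [hrel0]; exact hpd
      · rw [hrels]; exact (hd i).trans (by rw [← hcard]; exact dvd_mul_left _ _)
    · intro i j hij
      induction i using Fin.cases with
      | zero =>
        rw [hrel0]
        induction j using Fin.cases with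
        | zero => rw [hrel0]
        | succ j =>
          rw [hrels]
          exact hmax _ (hs j).2 ((hd j).trans (by rw [← hcard]; exact dvd_mul_left _ _))
      | succ i =>
        induction j using Fin.cases with
        | zero => exact absurd hij (by simp)
        | succ j =>
          rw [hrels, hrels]
          exact hdec i j (Fin.succ_le_succ_iff.mp hij)


/-- A finite supersolvable group has a chain of normal subgroups, from the trivial subgroup to the whole group, in which every step has prime index and the primes occurring are non-increasing as one goes up the chain. -/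
theorem result {G : Type*} [Group G] [Finite G] (hG : Cfsg.IsSupersolvable G) : ∃ (n : ℕ) (H : Fin (n + 1) → Subgroup G), H 0 = ⊥ ∧ H (Fin.last n) = ⊤ ∧ (∀ i, (H i).Normal) ∧ (∀ i : Fin n, H i.castSucc ≤ H i.succ ∧ ((H i.castSucc).relIndex (H i.succ)).Prime) ∧ ∀ i j : Fin n, i ≤ j → (H j.castSucc).relIndex (H j.succ) ≤ (H i.castSucc).relIndex (H i.succ) := by
  obtain ⟨n, H, h0, hn, hN, hs, hp, hd⟩ := aux (Nat.card G) G le_rfl hG
  exact ⟨n, H, h0, hn, hN, hs, hd⟩

end Cfsg.Agent.S0529
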