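import Cfsg.Statements.S0530
import Cfsg.Agent.LibSuper

set_option autoImplicit false
open Cfsg

namespace Cfsg.Agent.S0530

universe u
open Subgroup CfsgLib.Cores

theorem normal_of_conj_zpowers {G : Type u} [Group G] (z : G)
    (h : ∀ g : G, g * z * g⁻¹ ∈ zpowers z) : (zpowers z).Normal := by
  refine ⟨?_⟩
  rintro _ ⟨k, rfl⟩ g
  change g * z ^ k * g⁻¹ ∈ _
  rw [← conj_zpow]
  exact zpow_mem (h g) k

theorem aux {p : ℕ} [hp : Fact p.Prime] (n : ℕ) : ∀ (G : Type u) [Group G] [Finite G],
    Nat.card G = 2 * p ^ n → Cfsg.IsSupersolvable G := by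
  induction n with
  | zero =>
    intro G _ _ hG
    haveI : Fact (Nat.Prime 2) := ⟨Nat.prime_two⟩
    exact CfsgLib.Super.of_isPGroup (p := 2) (Nat.card G) G le_rfl (IsPGroup.of_card (n := 1) (by simpa using hG))
  | succ n ih =>
    intro G _ _ hG
    by_cases hp2 : p = 2
    · subst hp2
      exact CfsgLib.Super.of_isPGroup (p := 2) (Nat.card G) G le_rfl
        (IsPGroup.of_card (n := n + 2) (by rw [hG]; ring))
    have hpodd : ¬ p ∣ 2 := fun h => hp2 ((Nat.prime_dvd_prime_iff_eq hp.out Nat.prime_two).mp h)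
    obtain ⟨P⟩ := (inferInstance : Nonempty (Sylow p G))
    have hPcard : Nat.card P = p ^ (n + 1) := by
      rw [P.card_eq_multiplicity, hG, Nat.factorization_mul (by norm_num) (pow_ne_zero _ hp.out.ne_zero),
        Finsupp.add_apply, Nat.factorization_eq_zero_of_not_dvd hpodd, hp.out.factorization_pow]
      simp
    have hPidx : (P : Subgroup G).index = 2 := by
      have h1 := card_mul_index (P : Subgroup G)
      rw [hPcard, hG, mul_comm] at h1
      exact Nat.eq_of_mul_eq_mul_right (pow_pos hp.out.pos _) h1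
    haveI hPn : (P : Subgroup G).Normal := normal_of_index_eq_two hPidx
    haveI hPnt : Nontrivial P := by
      rw [← Finite.one_lt_card_iff_nontrivial, hPcard]
      exact Nat.one_lt_pow (by omega) hp.out.one_lt
    haveI := P.isPGroup'.center_nontrivial
    have h1 : p ∣ Nat.card (center P) :=
      (P.isPGroup'.to_subgroup (center P)).card_eq_or_dvd.resolve_left Finite.one_lt_card.ne'
    obtain ⟨z, hz⟩ := exists_prime_orderOf_dvd_card' p h1
    obtain ⟨t, ht⟩ : ∃ t : G, t ∉ (P : Subgroup G) := by
      by_contra h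
      push Not at h
      have : (P : Subgroup G) = ⊤ := eq_top_iff.mpr (fun x _ => h x)
      rw [this, index_top] at hPidx
      omega
    have hdec : ∀ g : G, g ∈ (P : Subgroup G) ∨ g * t⁻¹ ∈ (P : Subgroup G) := by
      intro g
      by_cases hg : g ∈ (P : Subgroup G)
      · exact Or.inl hg
      · right
        rw [mul_mem_iff_of_index_two hPidx]
        simp [hg, ht]
    have ht2 : t * t ∈ (P : Subgroup G) := mul_self_mem_of_index_two hPidx t
    -- elements of the centre of P
    have hcen : ∀ x : G, x ∈ (center P).map (P : Subgroup G).subtype → ∀ y ∈ (P : Subgroup G), y * x = x * y := by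
      rintro _ ⟨x, hx, rfl⟩ y hy
      exact congrArg Subtype.val (mem_center_iff.mp hx ⟨y, hy⟩)
    set ζ : G := ((z : P) : G) with hζ
    have hζc : ζ ∈ (center P).map (P : Subgroup G).subtype := ⟨z, z.2, rfl⟩
    have hσc : t * ζ * t⁻¹ ∈ (center P).map (P : Subgroup G).subtype :=
      (inferInstance : ((center P).map (P : Subgroup G).subtype).Normal).conj_mem _ hζc t
    have hζP : ζ ∈ (P : Subgroup G) := (z : P).2
    have hordζ : orderOf ζ = p := by
      rw [← hz, ← Subgroup.orderOf_coe z, ← Subgroup.orderOf_coe (z : P)]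
    have hζp : ζ ^ p = 1 := by rw [← hordζ]; exact pow_orderOf_eq_one ζ
    have hcomm : Commute ζ (t * ζ * t⁻¹) := (hcen _ hσc ζ hζP)
    -- an element of order p generating a normal subgroup
    obtain ⟨w, hw1, hwn⟩ : ∃ w : G, orderOf w = p ∧ (zpowers w).Normal := by
      by_cases hy : ζ * (t * ζ * t⁻¹) = 1
      · refine ⟨ζ, hordζ, normal_of_conj_zpowers ζ ?_⟩
        intro g
        rcases hdec g with hg | hg
        · rw [hcen ζ hζc g hg, mul_inv_cancel_right]
          exact mem_zpowers ζ
        · have h2 : t * ζ * t⁻¹ = ζ⁻¹ := (inv_eq_of_mul_eq_one_right hy).symm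
          have h3 : g * ζ * g⁻¹ = (g * t⁻¹) * (t * ζ * t⁻¹) * (g * t⁻¹)⁻¹ := by group
          rw [h3, hcen _ hσc _ hg, mul_inv_cancel_right, h2]
          exact inv_mem (mem_zpowers ζ)
      · set w := ζ * (t * ζ * t⁻¹) with hw
        have hwc : w ∈ (center P).map (P : Subgroup G).subtype := mul_mem hζc hσc
        have hwp : w ^ p = 1 := by
          rw [hw, hcomm.mul_pow, conj_pow, hζp]; simp
        have htt : t * t * ζ = ζ * (t * t) := hcen ζ hζc _ ht2
        have hwt : t * w * t⁻¹ = w := by
          have h3 : t * w * t⁻¹ = (t * ζ * t⁻¹) * (t * t * ζ * t⁻¹ * t⁻¹) := by rw [hw]; group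
          rw [h3, htt, hw]
          have h4 : ζ * (t * t) * t⁻¹ * t⁻¹ = ζ := by group
          rw [h4]
          exact hcomm.symm
        refine ⟨w, orderOf_eq_prime hwp hy, normal_of_conj_zpowers w ?_⟩
        intro g
        rcases hdec g with hg | hg
        · rw [hcen w hwc g hg, mul_inv_cancel_right]
          exact mem_zpowers w
        · have h3 : g * w * g⁻¹ = (g * t⁻¹) * (t * w * t⁻¹) * (g * t⁻¹)⁻¹ := by group
          rw [h3, hwt, hcen w hwc _ hg, mul_inv_cancel_right]
          exact mem_zpowers w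
    apply CfsgLib.Super.of_cyclic_normal (zpowers w)
    apply ih
    have h2 : Nat.card (zpowers w) * Nat.card (G ⧸ zpowers w) = Nat.card G := card_mul_index _
    rw [Nat.card_zpowers, hw1, hG] at h2
    have h3 : p * Nat.card (G ⧸ zpowers w) = p * (2 * p ^ n) := by rw [h2]; ring
    exact Nat.eq_of_mul_eq_mul_left hp.out.pos h3


/-- A finite group whose order is twice a prime power is supersolvable. -/
theorem result {G : Type*} [Group G] [Finite G] (p n : ℕ) (hp : p.Prime) (hG : Nat.card G = 2 * p ^ n) : Cfsg.IsSupersolvable G := by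
  haveI : Fact p.Prime := ⟨hp⟩
  exact aux n G hG

end Cfsg.Agent.S0530
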