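import Cfsg.Statements.S0531
import Cfsg.Agent.LibSuper

set_option autoImplicit false
open Cfsg

namespace Cfsg.Agent.S0531

universe u
open Subgroup CfsgLib.Cores

theorem aux (n : ℕ) : ∀ (G : Type u) [Group G] [Finite G], Nat.card G ≤ n →
    Cfsg.IsSupersolvable G → ∀ d : ℕ, d ∣ Nat.card G → ∃ H : Subgroup G, Nat.card H = d := by
  induction n with
  | zero =>
    intro G _ _ hn
    have : 0 < Nat.card G := Nat.card_pos
    omega
  | succ n ih =>
    intro G _ _ hn hG d hd
    by_cases h1 : Nat.card G = 1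
    · refine ⟨⊥, ?_⟩
      rw [h1] at hd
      rw [card_bot, Nat.dvd_one.mp hd]
    have hne : (⊤ : Subgroup G) ≠ ⊥ := by
      intro h
      exact h1 (by rw [← card_top, h, card_bot])
    obtain ⟨N, hNn, -, hNp⟩ := CfsgLib.Super.exists_prime_normal_le hG ⊤ hne
    have hcard : Nat.card N * Nat.card (G ⧸ N) = Nat.card G := card_mul_index N
    have hlt : Nat.card (G ⧸ N) ≤ n := by
      have h3 : 0 < Nat.card (G ⧸ N) := Nat.card_pos
      have h4 := hNp.one_lt
      nlinarith
    by_cases hpd : Nat.card N ∣ d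
    · obtain ⟨e, rfl⟩ := hpd
      have he : e ∣ Nat.card (G ⧸ N) := by
        rw [← hcard] at hd
        exact Nat.dvd_of_mul_dvd_mul_left hNp.pos hd
      obtain ⟨H, hH⟩ := ih (G ⧸ N) hlt (CfsgLib.Super.quotient hG N) e he
      exact ⟨H.comap (QuotientGroup.mk' N), by rw [card_comap_mk, hH]⟩
    · have hcop : (Nat.card N).Coprime d := (Nat.Prime.coprime_iff_not_dvd hNp).mpr hpd
      have he : d ∣ Nat.card (G ⧸ N) := by
        rw [← hcard] at hd
        exact hcop.symm.dvd_of_dvd_mul_left hd
      obtain ⟨H, hH⟩ := ih (G ⧸ N) hlt (CfsgLib.Super.quotient hG N) d he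
      have hNle : N ≤ H.comap (QuotientGroup.mk' N) := by
        intro x hx
        rw [mem_comap, QuotientGroup.mk'_apply, (QuotientGroup.eq_one_iff x).mpr hx]
        exact one_mem _
      have hidx : N.relIndex (H.comap (QuotientGroup.mk' N)) = d := by
        have h5 := CfsgLib.Coprime.card_mul_relIndex hNle
        rw [card_comap_mk, hH] at h5
        exact Nat.eq_of_mul_eq_mul_left hNp.pos h5
      obtain ⟨B, -, hB, -, -⟩ := CfsgLib.Coprime.sz_exists hNle le_normalizer_of_normal
        (by rw [hidx]; exact hcop)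
      exact ⟨B, by rw [hB, hidx]⟩


/-- A finite supersolvable group has a subgroup of each order dividing its order. -/
theorem result {G : Type*} [Group G] [Finite G] (hG : Cfsg.IsSupersolvable G) : Cfsg.HasSubgroupOfEveryOrder G := by
  intro d hd
  exact aux (Nat.card G) G le_rfl hG d hd

end Cfsg.Agent.S0531
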