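import Cfsg.Statements.S0532
import Cfsg.Agent.LibSuper

set_option autoImplicit false
open Cfsg

namespace Cfsg.Agent.S0532

universe u
open Subgroup CfsgLib.Cores

theorem clt_of_equiv {A : Type u} {B : Type u} [Group A] [Group B] (e : A ≃* B)
    (h : Cfsg.HasSubgroupOfEveryOrder A) : Cfsg.HasSubgroupOfEveryOrder B := by
  intro d hd
  obtain ⟨H, hH⟩ := h d (by rwa [Nat.card_congr e.toEquiv])
  exact ⟨H.map e.toMonoidHom, by rw [card_map_of_injective e.injective, hH]⟩

theorem clt_subgroup {G : Type u} [Group G] (h : ∀ H : Subgroup G, Cfsg.HasSubgroupOfEveryOrder H)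
    (K : Subgroup G) : ∀ H : Subgroup K, Cfsg.HasSubgroupOfEveryOrder H := by
  intro H
  exact clt_of_equiv (H.equivMapOfInjective K.subtype K.subtype_injective).symm (h _)

theorem aux (n : ℕ) : ∀ (G : Type u) [Group G] [Finite G], Nat.card G ≤ n →
    (∀ H : Subgroup G, Cfsg.HasSubgroupOfEveryOrder H) → ∀ (p : ℕ) [Fact p.Prime],
    p ∣ Nat.card G → (∀ q : ℕ, q.Prime → q ∣ Nat.card G → q ≤ p) →
    ∀ P : Sylow p G, (P : Subgroup G).Normal := by
  induction n with
  | zero =>
    intro G _ _ hn
    have : 0 < Nat.card G := Nat.card_pos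
    omega
  | succ n ih =>
    intro G _ _ hn h p hp hpd hmax P
    have h1 : Nat.card G ≠ 1 := by
      intro h1
      rw [h1] at hpd
      exact hp.out.one_lt.ne' (Nat.dvd_one.mp hpd)
    set q := (Nat.card G).minFac with hq
    have hqp : q.Prime := Nat.minFac_prime h1
    have hqd : q ∣ Nat.card G := Nat.minFac_dvd _
    by_cases hqeq : q = p
    · -- G is a p-group
      have hG : IsPGroup p G := by
        rw [isPGroup_iff_primeFactors_card_subset hp.out.ne_zero]
        intro r hr
        have hr1 := Nat.prime_of_mem_primeFactors hr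
        have hr2 := Nat.dvd_of_mem_primeFactors hr
        have : r = p := le_antisymm (hmax r hr1 hr2) (by rw [← hqeq]; exact Nat.minFac_le_of_dvd hr1.two_le hr2)
        rw [this, hp.out.primeFactors]; simp
      have : (P : Subgroup G) = ⊤ := by
        have h2 := P.not_dvd_index
        obtain ⟨k, hk⟩ := hG.index (P : Subgroup G)
        rw [← index_eq_one, hk]
        rcases Nat.eq_zero_or_pos k with h0 | h0
        · rw [h0, pow_zero]
        · rw [hk] at h2; exact absurd (dvd_pow_self p h0.ne') h2
      rw [this]; infer_instance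
    · obtain ⟨m, hm⟩ := hqd
      obtain ⟨H', hH'⟩ := clt_of_equiv topEquiv (h ⊤) m (by rw [hm]; exact dvd_mul_left _ _)
      have hmpos : 0 < m := Nat.pos_of_ne_zero (by rintro rfl; simp at hm; exact Nat.card_pos.ne' hm)
      have hidx : H'.index = q := by
        have := card_mul_index H'
        rw [hH', hm, mul_comm] at this
        exact Nat.eq_of_mul_eq_mul_right hmpos this
      haveI hHn : H'.Normal := normal_of_index_eq_minFac_card (by rw [hidx])
      have hpH : p ∣ Nat.card H' := by
        rw [hm] at hpd
        rcases (Nat.Prime.dvd_mul hp.out).mp hpd with h2 | h2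
        · exact absurd ((Nat.prime_dvd_prime_iff_eq hp.out hqp).mp h2).symm hqeq
        · rwa [hH']
      have hPH : (P : Subgroup G) ≤ H' := by
        have h2 : H'.relIndex P ∣ Nat.card P := relIndex_dvd_card _ _
        have h3 : H'.relIndex P ∣ q := by rw [← hidx]; exact relIndex_dvd_index_of_normal H' P
        obtain ⟨k, hk⟩ := IsPGroup.iff_card.mp P.isPGroup'
        rcases (Nat.dvd_prime hqp).mp h3 with h4 | h4
        · exact relIndex_eq_one.mp h4
        · rw [h4, hk] at h2
          exact absurd ((Nat.prime_dvd_prime_iff_eq hqp hp.out).mp (hqp.dvd_of_dvd_pow h2)) hqeq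
      have h2 := ih H' (by
        have h3 := hqp.two_le
        rw [hH']
        nlinarith) (clt_subgroup h H') p hpH (fun r hr hrd => hmax r hr (hrd.trans (card_subgroup_dvd_card H')))
        (P.subtype hPH)
      haveI : ((P.subtype hPH : Sylow p H') : Subgroup H').Characteristic :=
        Sylow.characteristic_of_normal _ h2
      have h3 : (((P.subtype hPH : Sylow p H') : Subgroup H').map H'.subtype).Normal := inferInstance
      rw [Sylow.coe_subtype, subgroupOf_map_subtype, inf_of_le_left hPH] at h3
      exact h3


/-- If each subgroup of a finite group satisfies the converse of Lagrange's theorem, then a Sylow subgroup for the largest prime dividing the group order is normal. -/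
theorem result {G : Type*} [Group G] [Finite G] (h : ∀ H : Subgroup G, Cfsg.HasSubgroupOfEveryOrder H) (p : ℕ) [Fact p.Prime] (hdvd : p ∣ Nat.card G) (hmax : ∀ q : ℕ, q.Prime → q ∣ Nat.card G → q ≤ p) (P : Sylow p G) : (P : Subgroup G).Normal := by
  exact aux (Nat.card G) G le_rfl h p hdvd hmax P

end Cfsg.Agent.S0532
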