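import Cfsg.Statements.S0534
import Cfsg.Agent.LibSolvHall
import Cfsg.Agent.LibSolvBasic

set_option autoImplicit false
open Cfsg

namespace Cfsg.Agent.S0534

open Subgroup

theorem abel_clt.{u} (n : ℕ) : ∀ (A : Type u) [CommGroup A] [Finite A], Nat.card A ≤ n → ∀ d : ℕ, d ∣ Nat.card A →
    ∃ H : Subgroup A, Nat.card H = d := by
  induction n with
  | zero =>
    intro A _ _ hn
    have : 0 < Nat.card A := Nat.card_pos
    omega
  | succ n ih =>
    intro A _ _ hn d hd
    by_cases hd1 : d = 1
    · exact ⟨⊥, by rw [card_bot, hd1]⟩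
    · obtain ⟨p, hp, hpd⟩ := Nat.exists_prime_and_dvd hd1
      haveI : Fact p.Prime := ⟨hp⟩
      obtain ⟨x, hx⟩ := exists_prime_orderOf_dvd_card' p (hpd.trans hd)
      have hcard := Subgroup.card_eq_card_quotient_mul_card_subgroup (zpowers x)
      rw [Nat.card_zpowers, hx] at hcard
      obtain ⟨e, rfl⟩ := hpd
      have he : e ∣ Nat.card (A ⧸ zpowers x) := by
        rw [hcard, mul_comm] at hd
        exact Nat.dvd_of_mul_dvd_mul_right hp.pos hd
      obtain ⟨H, hH⟩ := ih (A ⧸ zpowers x) (by
        have h3 : 0 < Nat.card (A ⧸ zpowers x) := Nat.card_pos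
        have := hp.two_le
        nlinarith) e he
      refine ⟨H.comap (QuotientGroup.mk' (zpowers x)), ?_⟩
      rw [CfsgLib.SolvBasic.card_comap_mk', hH, Nat.card_zpowers, hx, mul_comm]


/-- Let G be a finite solvable group and A a finite abelian group such that every prime dividing the order of A divides the order of G and, for each prime p dividing the order of G, the exponent of p in the order of A is one less than its exponent in the order of G. Then G × A has a subgroup of every order dividing its order. -/
theorem result {G A : Type*} [Group G] [CommGroup A] [Finite G] [Finite A] [Group.IsSolvable G] (hA : ∀ p : ℕ, p.Prime → p ∣ Nat.card A → p ∣ Nat.card G) (hexp : ∀ p : ℕ, p.Prime → p ∣ Nat.card G → (Nat.card A).factorization p + 1 = (Nat.card G).factorization p) : Cfsg.HasSubgroupOfEveryOrder (G × A) := by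
  classical
  intro d hd
  rw [Nat.card_prod] at hd
  set g := Nat.card G with hg
  set a := Nat.card A with ha
  have hg0 : g ≠ 0 := Nat.card_pos.ne'
  have ha0 : a ≠ 0 := Nat.card_pos.ne'
  have hd0 : d ≠ 0 := fun h => by
    rw [h, zero_dvd_iff] at hd
    exact (mul_ne_zero hg0 ha0) hd
  -- the Hall part
  set π := g.primeFactors.filter (fun p => g.factorization p ≤ d.factorization p) with hπ
  set m := ∏ p ∈ π, p ^ g.factorization p with hm
  have hπsub : π ⊆ g.primeFactors := Finset.filter_subset _ _
  have hgprod : g = m * ∏ p ∈ g.primeFactors \ π, p ^ g.factorization p := by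
    rw [hm, mul_comm, Finset.prod_sdiff hπsub]
    exact (Nat.prod_factorization_pow_eq_self hg0).symm
  have hcop : m.Coprime (∏ p ∈ g.primeFactors \ π, p ^ g.factorization p) := by
    apply Nat.Coprime.prod_left
    intro p hp
    apply Nat.Coprime.prod_right
    intro q hq
    apply Nat.Coprime.pow
    rw [Finset.mem_sdiff] at hq
    rw [Nat.coprime_primes (Nat.prime_of_mem_primeFactors (hπsub hp)) (Nat.prime_of_mem_primeFactors hq.1)]
    rintro rfl
    exact hq.2 hp
  obtain ⟨H, hH⟩ := CfsgLib.SolvHall.hall_exists _ G rfl m _ hgprod hcop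
  have hm0 : m ≠ 0 := by rw [← hH]; exact Nat.card_pos.ne'
  have hmfac : ∀ p : ℕ, p.Prime → m.factorization p = if p ∈ π then g.factorization p else 0 := by
    intro p hp
    by_cases hpπ : p ∈ π
    · rw [if_pos hpπ]
      have h1 : g.factorization p = m.factorization p + (∏ p ∈ g.primeFactors \ π, p ^ g.factorization p).factorization p := by
        conv_lhs => rw [hgprod]
        rw [Nat.factorization_mul hm0 (by
          intro h
          rw [h, mul_zero] at hgprod
          exact hg0 hgprod)]
        rfl
      have h2 : (∏ p ∈ g.primeFactors \ π, p ^ g.factorization p).factorization p = 0 := by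
        apply Nat.factorization_eq_zero_of_not_dvd
        intro h
        have h3 : p ∣ m := by
          rw [hm]
          refine (dvd_pow_self p ?_).trans (Finset.dvd_prod_of_mem _ hpπ)
          have := hπsub hpπ
          exact (hp.factorization_pos_of_dvd hg0 (Nat.dvd_of_mem_primeFactors this)).ne'
        exact hp.one_lt.ne' (Nat.eq_one_of_dvd_coprimes hcop h3 h)
      omega
    · rw [if_neg hpπ]
      apply Nat.factorization_eq_zero_of_not_dvd
      intro h
      rw [hm, hp.prime.dvd_finset_prod_iff] at h
      obtain ⟨q, hq, hpq⟩ := h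
      have := hp.dvd_of_dvd_pow hpq
      rw [Nat.prime_dvd_prime_iff_eq hp (Nat.prime_of_mem_primeFactors (hπsub hq))] at this
      exact hpπ (this ▸ hq)
  have hmd : m ∣ d := by
    rw [← Nat.factorization_prime_le_iff_dvd hm0 hd0]
    intro p hp
    rw [hmfac p hp]
    split_ifs with h
    · exact (Finset.mem_filter.mp h).2
    · exact Nat.zero_le _
  obtain ⟨e, hde⟩ := hmd
  have he0 : e ≠ 0 := fun h => by rw [h, mul_zero] at hde; exact hd0 hde
  have hea : e ∣ a := by
    rw [← Nat.factorization_prime_le_iff_dvd he0 ha0]
    intro p hp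
    have h1 : d.factorization p ≤ (g * a).factorization p :=
      (Nat.factorization_prime_le_iff_dvd hd0 (mul_ne_zero hg0 ha0)).mpr hd p hp
    have h0 : d.factorization p = m.factorization p + e.factorization p := by
      rw [hde, Nat.factorization_mul hm0 he0, Finsupp.add_apply]
    rw [Nat.factorization_mul hg0 ha0, Finsupp.add_apply] at h1
    by_cases hpg : p ∣ g
    · have h2 := hexp p hp hpg
      have hmf := hmfac p hp
      by_cases hpπ : p ∈ π
      · rw [if_pos hpπ] at hmf
        omega
      · rw [if_neg hpπ] at hmf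
        have h3 : ¬ g.factorization p ≤ d.factorization p := fun h =>
          hpπ (Finset.mem_filter.mpr ⟨Nat.mem_primeFactors.mpr ⟨hp, hpg, hg0⟩, h⟩)
        omega
    · have h2 : a.factorization p = 0 := Nat.factorization_eq_zero_of_not_dvd fun h => hpg (hA p hp h)
      have h3 : g.factorization p = 0 := Nat.factorization_eq_zero_of_not_dvd hpg
      omega
  obtain ⟨B, hB⟩ := abel_clt _ A le_rfl e hea
  refine ⟨H.prod B, ?_⟩
  rw [Nat.card_congr (Subgroup.prodEquiv H B).toEquiv, Nat.card_prod, hH, hB, ← hde]

end Cfsg.Agent.S0534
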