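import Cfsg.Statements.S0535
import Cfsg.Agent.LibSolvSyl2
import Cfsg.Agent.S0144

set_option autoImplicit false
open Cfsg

namespace Cfsg.Agent.S0535

open Subgroup CfsgLib.SolvBasic CfsgLib.SolvMin CfsgLib.SolvCoprime CfsgLib.SolvHall CfsgLib.SolvSyl CfsgLib.SolvProd

def Hyp (G : Type*) [Group G] : Prop := ∀ H : Subgroup G, H ≠ ⊥ → ∀ p : ℕ, p.Prime → p ∣ Nat.card H →
  ∃ K : Subgroup H, K ≠ ⊤ ∧ ∃ k : ℕ, K.index = p ^ k

theorem Hyp.subgroup {G : Type*} [Group G] (h : Hyp G) (L : Subgroup G) : Hyp L := by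
  intro H hH p hp hpd
  have e := H.equivMapOfInjective L.subtype L.subtype_injective
  obtain ⟨K, hK, k, hk⟩ := h (H.map L.subtype) (fun h1 => hH
    ((Subgroup.map_eq_bot_iff_of_injective H L.subtype_injective).mp h1)) p hp (by
    rwa [← Nat.card_congr e.toEquiv])
  refine ⟨K.comap e.toMonoidHom, ?_, k, ?_⟩
  · intro h1
    apply hK
    rw [eq_top_iff]
    intro x _
    obtain ⟨y, rfl⟩ := e.surjective x
    have : y ∈ K.comap e.toMonoidHom := by rw [h1]; exact mem_top _
    exact this
  · rw [Subgroup.index_comap_of_surjective _ e.surjective, hk]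

theorem main.{u} (n : ℕ) : ∀ (G : Type u) [Group G] [Finite G], Nat.card G = n → Hyp G → Group.IsSolvable G := by
  induction n using Nat.strong_induction_on with
  | _ n ih =>
  intro G _ _ hn h
  rcases subsingleton_or_nontrivial G with hG | hG
  · infer_instance
  have hpos : Nat.card G ≠ 0 := Nat.card_pos.ne'
  have hex : ∀ p : ℕ, p.Prime → p ∣ Nat.card G → ∃ H : Subgroup G, Group.IsSolvable H ∧ ∃ k, H.index = p ^ k := by
    intro p hp hpd
    obtain ⟨K, hK, k, hk⟩ := h ⊤ top_ne_bot p hp (by rwa [card_top])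
    refine ⟨K.map (⊤ : Subgroup G).subtype, ?_, k, ?_⟩
    · have h1 : K.map (⊤ : Subgroup G).subtype ≠ ⊤ := by
        intro h2
        apply hK
        rw [eq_top_iff]
        intro x _
        have h3 : (x : G) ∈ K.map (⊤ : Subgroup G).subtype := by rw [h2]; exact mem_top _
        obtain ⟨y, hy, hyx⟩ := h3
        rwa [← Subtype.ext hyx]
      exact ih _ (by rw [← hn]; exact card_lt_of_ne_top h1) _ rfl (h.subgroup _)
    · rw [index_map_subtype, hk, index_top, mul_one]
  by_cases h3 : ∃ p q r : ℕ, p ∈ (Nat.card G).primeFactors ∧ q ∈ (Nat.card G).primeFactors ∧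
      r ∈ (Nat.card G).primeFactors ∧ p ≠ q ∧ p ≠ r ∧ q ≠ r
  · obtain ⟨p, q, r, hp, hq, hr, hpq, hpr, hqr⟩ := h3
    have hp' := Nat.prime_of_mem_primeFactors hp
    have hq' := Nat.prime_of_mem_primeFactors hq
    have hr' := Nat.prime_of_mem_primeFactors hr
    obtain ⟨Hp, sHp, a, hHp⟩ := hex p hp' (Nat.dvd_of_mem_primeFactors hp)
    obtain ⟨Hq, sHq, b, hHq⟩ := hex q hq' (Nat.dvd_of_mem_primeFactors hq)
    obtain ⟨Hr, sHr, c, hHr⟩ := hex r hr' (Nat.dvd_of_mem_primeFactors hr)
    have hcop : ∀ {a b : ℕ} (i j : ℕ), a.Prime → b.Prime → a ≠ b → (a ^ i).Coprime (b ^ j) :=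
      fun i j ha hb hab => Nat.Coprime.pow _ _ ((Nat.coprime_primes ha hb).mpr hab)
    have hprod : ∀ (H K : Subgroup G), H.index.Coprime K.index →
        ∀ g : G, ∃ x ∈ H, ∃ y ∈ K, g = x * y := by
      intro H K hHK g
      have h1 : K.relIndex H = K.index := relIndex_eq_index_of_coprime hHK.symm
      exact exists_eq_mul_of_relIndex_le (L := ⊤) le_top
        (by rw [h1, Subgroup.relIndex_top_right]) g (Subgroup.mem_top g)
    apply three_solvable _ G Hp Hq Hr rfl sHp sHq sHr
    · exact hprod _ _ (by rw [hHp, hHq]; exact hcop _ _ hp' hq' hpq)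
    · exact hprod _ _ (by rw [hHp, hHr]; exact hcop _ _ hp' hr' hpr)
    · rw [hHq, hHr]; exact hcop _ _ hq' hr' hqr
  · have hpq : ∃ p q a b : ℕ, p.Prime ∧ q.Prime ∧ Nat.card G = p ^ a * q ^ b := by
      have hle : (Nat.card G).primeFactors.card ≤ 2 := by
        by_contra hlt
        push Not at hlt
        obtain ⟨p, hp, q, hq, r, hr, hpq, hpr, hqr⟩ := Finset.two_lt_card.mp hlt
        exact h3 ⟨p, q, r, hp, hq, hr, hpq, hpr, hqr⟩
      have hG' : ∏ p ∈ (Nat.card G).primeFactors, p ^ (Nat.card G).factorization p = Nat.card G :=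
        Nat.prod_factorization_pow_eq_self hpos
      have hcases : (Nat.card G).primeFactors.card = 0 ∨ (Nat.card G).primeFactors.card = 1 ∨
        (Nat.card G).primeFactors.card = 2 := by omega
      rcases hcases with h0 | h1 | h2
      · rw [Finset.card_eq_zero] at h0
        rw [h0, Finset.prod_empty] at hG'
        exact ⟨2, 2, 0, 0, Nat.prime_two, Nat.prime_two, by rw [← hG']; simp⟩
      · obtain ⟨p, hp⟩ := Finset.card_eq_one.mp h1
        have hp' : p.Prime := Nat.prime_of_mem_primeFactors (by rw [hp]; exact Finset.mem_singleton_self p)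
        rw [hp, Finset.prod_singleton] at hG'
        exact ⟨p, 2, (Nat.card G).factorization p, 0, hp', Nat.prime_two, by
          rw [pow_zero, mul_one]; exact hG'.symm⟩
      · obtain ⟨p, q, hne, hpq⟩ := Finset.card_eq_two.mp h2
        have hp' : p.Prime := Nat.prime_of_mem_primeFactors (by rw [hpq]; simp)
        have hq' : q.Prime := Nat.prime_of_mem_primeFactors (by rw [hpq]; simp)
        rw [hpq, Finset.prod_pair hne] at hG'
        exact ⟨p, q, _, _, hp', hq', hG'.symm⟩
    obtain ⟨p, q, a, b, hp, hq, hG⟩ := hpq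
    exact Cfsg.Agent.S0144.main p q hp hq _ G a b rfl hG


/-- Suppose that for every nontrivial subgroup H of a finite group and every prime p dividing the order of H there is a proper subgroup of H whose index in H is a power of p. Then the group is solvable. -/
theorem result {G : Type*} [Group G] [Finite G] (h : ∀ H : Subgroup G, H ≠ ⊥ → ∀ p : ℕ, p.Prime → p ∣ Nat.card H → ∃ K : Subgroup H, K ≠ ⊤ ∧ ∃ k : ℕ, K.index = p ^ k) : Group.IsSolvable G := by
  exact main _ G rfl h

end Cfsg.Agent.S0535
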