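import Cfsg.Statements.S0540
import Cfsg.Agent.LibH2Subn
import Cfsg.Agent.LibH2Quad

set_option autoImplicit false
open Pointwise
open Cfsg

namespace Cfsg.Agent.S0540

open Subgroup Cfsg MulAction CfsgLib.Cores CfsgLib.Coprime CfsgLib.H2Misc CfsgLib.H2Solv CfsgLib.H2Subn CfsgLib.H2Quad
open scoped Pointwise commutatorElement



/-- A uniqueness lemma of zipper type. Let A be a subgroup of a finite group G and U a nonempty family of subgroups. For V in U write S(V) for the set of conjugates of A that lie in V and are subnormal in V. Assume: A belongs to S(V) for every V in U; a member of some S(W) that lies in V belongs to S(V); and for all V, W in U the normalizer of the join of S(V) ∩ S(W) lies in some member of U. Then U has a greatest element. -/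
theorem result {G : Type*} [Group G] [Finite G] (A : Subgroup G) (U : Set (Subgroup G)) (hU : U.Nonempty) (S : Subgroup G → Set (Subgroup G)) (hS : ∀ V B : Subgroup G, B ∈ S V ↔ (∃ g : G, B = MulAut.conj g • A) ∧ B ≤ V ∧ (B.subgroupOf V).IsSubnormal) (h1 : ∀ V ∈ U, A ∈ S V) (h2 : ∀ V ∈ U, ∀ W ∈ U, ∀ B ∈ S W, B ≤ V → B ∈ S V) (h3 : ∀ V ∈ U, ∀ W ∈ U, ∃ X ∈ U, Subgroup.normalizer ((sSup (S V ∩ S W) : Subgroup G) : Set G) ≤ X) : ∃ M ∈ U, ∀ V ∈ U, V ≤ M := by
  -- the zipper inside a member
  have zip : ∀ V : Subgroup G, ∀ S₀ : Set (Subgroup G), S₀ ⊂ S V →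
      ∃ X ∈ S V, X ∉ S₀ ∧ X ≤ normalizer ((sSup S₀ : Subgroup G) : Set G) := by
    intro V S₀ hS₀
    have hsub : ∀ B' : Subgroup V, (B'.map V.subtype).subgroupOf V = B' := fun B' =>
      comap_map_eq_self_of_injective V.subtype_injective B'
    obtain ⟨X', hX1, hX2, hX3⟩ := exists_not_mem_normalizes (G := V)
      {B' : Subgroup V | B'.map V.subtype ∈ S V} {B' : Subgroup V | B'.map V.subtype ∈ S₀}
      (by
        intro U hU
        have := ((hS V _).mp hU).2.2
        rwa [hsub] at this)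
      (by
        intro U hU g
        obtain ⟨⟨x, hx⟩, h2, h3⟩ := (hS V _).mp hU
        refine (hS V _).mpr ⟨⟨(g : G) * x, ?_⟩, map_subtype_le _, ?_⟩
        · rw [map_subtype_conj_smul, hx, map_mul, mul_smul]
        · rw [hsub]
          rw [hsub] at h3
          exact h3.smul _)
      (by
        refine ⟨fun U hU => hS₀.1 hU, fun h => hS₀.2 ?_⟩
        intro B hB
        have hBV : B ≤ V := ((hS V B).mp hB).2.1
        have h1 : (B.subgroupOf V) ∈ {B' : Subgroup V | B'.map V.subtype ∈ S V} := by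
          show (B.subgroupOf V).map V.subtype ∈ S V
          rw [map_subgroupOf_eq_of_le hBV]; exact hB
        have h2 : (B.subgroupOf V).map V.subtype ∈ S₀ := h h1
        rwa [map_subgroupOf_eq_of_le hBV] at h2)
    refine ⟨X'.map V.subtype, hX1, hX2, ?_⟩
    have hJ : (sSup {B' : Subgroup V | B'.map V.subtype ∈ S₀}).map V.subtype = sSup S₀ := by
      apply le_antisymm
      · rw [Subgroup.map_le_iff_le_comap]
        apply sSup_le
        intro B' hB'
        rw [← Subgroup.map_le_iff_le_comap]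
        exact le_sSup hB'
      · apply sSup_le
        intro B hB
        have hBV : B ≤ V := ((hS V B).mp (hS₀.1 hB)).2.1
        rw [← map_subgroupOf_eq_of_le hBV]
        apply Subgroup.map_mono
        apply le_sSup
        show (B.subgroupOf V).map V.subtype ∈ S₀
        rw [map_subgroupOf_eq_of_le hBV]; exact hB
    rintro _ ⟨x, hx, rfl⟩
    have h4 := conj_smul_eq_of_mem_normalizer (hX3 hx)
    apply mem_normalizer_of_conj_smul_eq
    rw [← hJ]
    have := map_subtype_conj_smul x (sSup {B' : Subgroup V | B'.map V.subtype ∈ S₀})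
    rw [h4] at this
    exact this.symm
  have hAV : ∀ V ∈ U, A ≤ V := fun V hV => ((hS V A).mp (h1 V hV)).2.1
  -- maximal members are equal
  have huniq : ∀ V W : Subgroup G, Maximal (· ∈ U) V → Maximal (· ∈ U) W → V = W := by
    by_contra hcon
    push Not at hcon
    obtain ⟨V₀, W₀, hV₀, hW₀, hne₀⟩ := hcon
    obtain ⟨⟨V, W⟩, ⟨hV, hW, hne⟩, hmax⟩ := Set.exists_max_image
      {x : Subgroup G × Subgroup G | Maximal (· ∈ U) x.1 ∧ Maximal (· ∈ U) x.2 ∧ x.1 ≠ x.2}
      (fun x => (S x.1 ∩ S x.2).ncard) (Set.toFinite _) ⟨(V₀, W₀), hV₀, hW₀, hne₀⟩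
    simp only at hV hW hne
    -- normalizer of `⟨S V⟩`
    have hnormV : ∀ V : Subgroup G, V ≤ normalizer ((sSup (S V) : Subgroup G) : Set G) := by
      intro V x hx
      have hinv : ∀ y ∈ V, MulAut.conj y • (sSup (S V) : Subgroup G) ≤ sSup (S V) := by
        intro y hy
        rw [pointwise_smul_subset_iff]
        apply sSup_le
        intro B hB
        rw [← pointwise_smul_subset_iff]
        apply le_sSup
        obtain ⟨⟨z, hz⟩, h4, h5⟩ := (hS V B).mp hB
        refine (hS V _).mpr ⟨⟨y * z, by rw [hz, map_mul, mul_smul]⟩, ?_, ?_⟩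
        · rw [← conj_smul_eq_self_of_mem hy]
          exact pointwise_smul_le_pointwise_smul_iff.mpr h4
        · have h6 := h5.smul (MulAut.conj (⟨y, hy⟩ : V))
          have h7 : MulAut.conj (⟨y, hy⟩ : V) • (B.subgroupOf V) = (MulAut.conj y • B).subgroupOf V := by
            apply map_injective V.subtype_injective
            rw [map_subtype_conj_smul, map_subgroupOf_eq_of_le h4, map_subgroupOf_eq_of_le]
            rw [← conj_smul_eq_self_of_mem hy]
            exact pointwise_smul_le_pointwise_smul_iff.mpr h4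
          rwa [h7] at h6
      apply mem_normalizer_of_conj_smul_eq
      apply le_antisymm (hinv x hx)
      have h2 := hinv x⁻¹ (inv_mem hx)
      rw [map_inv, pointwise_smul_subset_iff, inv_inv] at h2
      exact h2
    -- step: `S V ⊄ S W`
    have hstep : ∀ V W : Subgroup G, Maximal (· ∈ U) V → Maximal (· ∈ U) W → V ≠ W → ¬ S V ⊆ S W := by
      intro V W hV hW hne hsub
      have e1 : S V ∩ S W = S V := Set.inter_eq_left.mpr hsub
      obtain ⟨X, hX, hNX⟩ := h3 V hV.prop W hW.prop
      rw [e1] at hNX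
      have hVX : V = X := hV.eq_of_le hX ((hnormV V).trans hNX)
      rw [← hVX] at hNX
      by_cases hSS : S V = S W
      · have h8 : W ≤ V := by
          have := hnormV W
          rw [← hSS] at this
          exact this.trans hNX
        exact hne (hW.eq_of_le hV.prop h8).symm
      · obtain ⟨B, hB1, hB2, hB3⟩ := zip W (S V) ⟨hsub, fun h => hSS (Set.Subset.antisymm hsub h)⟩
        exact hB2 (h2 V hV.prop W hW.prop B hB1 (hB3.trans hNX))
    have hs1 : S V ∩ S W ⊂ S V := ⟨Set.inter_subset_left, fun h => hstep V W hV hW hne (fun B hB => (h hB).2)⟩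
    have hs2 : S V ∩ S W ⊂ S W := ⟨Set.inter_subset_right, fun h => hstep W V hW hV hne.symm (fun B hB => (h hB).1)⟩
    obtain ⟨X₁, hX1, hX1', hX1n⟩ := zip V _ hs1
    obtain ⟨X₂, hX2, hX2', hX2n⟩ := zip W _ hs2
    obtain ⟨Y, hY, hNY⟩ := h3 V hV.prop W hW.prop
    obtain ⟨Z, hYZ, hZ⟩ := (Set.toFinite U).exists_le_maximal hY
    have hle : ∀ B ∈ S V ∩ S W, B ∈ S Z := by
      intro B hB
      apply h2 Z hZ.prop V hV.prop B hB.1
      exact (le_sSup hB).trans (le_normalizer.trans (hNY.trans hYZ))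
    have hX1Z : X₁ ∈ S Z := h2 Z hZ.prop V hV.prop X₁ hX1 (hX1n.trans (hNY.trans hYZ))
    have hX2Z : X₂ ∈ S Z := h2 Z hZ.prop W hW.prop X₂ hX2 (hX2n.trans (hNY.trans hYZ))
    have hVZ : V = Z := by
      by_contra hneq
      have h9 := hmax (V, Z) ⟨hV, hZ, hneq⟩
      simp only at h9
      have h10 : S V ∩ S W ⊂ S V ∩ S Z :=
        ⟨fun B hB => ⟨hB.1, hle B hB⟩, fun h => hX1' (h ⟨hX1, hX1Z⟩)⟩
      exact absurd (Set.ncard_lt_ncard h10 (Set.toFinite _)) (by omega)
    have hWZ : W = Z := by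
      by_contra hneq
      have h9 := hmax (Z, W) ⟨hZ, hW, fun h => hneq h.symm⟩
      simp only at h9
      have h10 : S V ∩ S W ⊂ S Z ∩ S W :=
        ⟨fun B hB => ⟨hle B hB, hB.2⟩, fun h => hX2' (h ⟨hX2Z, hX2⟩)⟩
      exact absurd (Set.ncard_lt_ncard h10 (Set.toFinite _)) (by omega)
    exact hne (hVZ.trans hWZ.symm)
  obtain ⟨V₀, hV₀⟩ := hU
  obtain ⟨M, -, hM⟩ := (Set.toFinite U).exists_le_maximal hV₀
  refine ⟨M, hM.prop, fun V hV => ?_⟩
  obtain ⟨M', hVM', hM'⟩ := (Set.toFinite U).exists_le_maximal hV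
  rw [huniq M M' hM hM']
  exact hVM'

end Cfsg.Agent.S0540
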