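import Cfsg.Statements.S0541
import Cfsg.Agent.LibH2Subn
import Cfsg.Agent.LibH2Quad

set_option autoImplicit false
open Pointwise
open Cfsg

namespace Cfsg.Agent.S0541

open Subgroup Cfsg MulAction CfsgLib.Cores CfsgLib.Coprime CfsgLib.H2Misc CfsgLib.H2Solv CfsgLib.H2Subn CfsgLib.H2Quad
open scoped Pointwise commutatorElement



/-- Let Z and Y be subgroups of a finite group G and p a prime. Suppose that for every g in G the subgroup generated by the conjugates of g Z g⁻¹ under Y is a p-group. Then there is a Sylow p-subgroup P of G such that Y normalizes the subgroup generated by all conjugates of Z contained in P. -/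
theorem result {G : Type*} [Group G] [Finite G] (p : ℕ) [Fact p.Prime] (Z Y : Subgroup G) (h : ∀ g : G, IsPGroup p ↥(⨆ y ∈ Y, MulAut.conj (y * g) • Z)) : ∃ P : Sylow p G, Y ≤ Subgroup.normalizer ((⨆ g ∈ {g : G | MulAut.conj g • Z ≤ (P : Subgroup G)}, MulAut.conj g • Z : Subgroup G) : Set G) := by
  let Sg : Subgroup G → Set (Subgroup G) := fun Q => {B | (∃ g : G, B = MulAut.conj g • Z) ∧ B ≤ Q}
  have hmono : ∀ Q Q' : Subgroup G, Q ≤ Q' → sSup (Sg Q) ≤ sSup (Sg Q') := fun Q Q' hQ =>
    sSup_le_sSup fun B hB => ⟨hB.1, hB.2.trans hQ⟩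
  have hjn : ∀ Q : Subgroup G, sSup (Sg Q) ≤ Q := fun Q => sSup_le fun B hB => hB.2
  obtain ⟨W, -, hW⟩ := (Set.toFinite {W : Subgroup G | IsPGroup p W ∧ Y ≤ normalizer (W : Set G) ∧
    W ≤ sSup (Sg W)}).exists_le_maximal (a := (⊥ : Subgroup G))
    ⟨IsPGroup.of_bot, by rw [normalizer_eq_top]; exact le_top, bot_le⟩
  obtain ⟨hWp, hYW, hWs⟩ := hW.prop
  obtain ⟨P, hWP⟩ := hWp.exists_le_sylow
  have hWeq : W = sSup (Sg W) := le_antisymm hWs (hjn W)
  have key : sSup (Sg (P : Subgroup G)) = W := by
    apply le_antisymm _ (hWs.trans (hmono _ _ hWP))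
    by_contra hcon
    obtain ⟨B, hB, hBW⟩ : ∃ B ∈ Sg (P : Subgroup G), ¬ B ≤ W := by
      by_contra h5
      push Not at h5
      exact hcon (sSup_le h5)
    -- zipper in `P`
    have hsub : ∀ B' : Subgroup P, (B'.map (P : Subgroup G).subtype).subgroupOf (P : Subgroup G) = B' := fun B' =>
      comap_map_eq_self_of_injective (P : Subgroup G).subtype_injective B'
    haveI : Group.IsNilpotent P := P.isPGroup'.isNilpotent
    obtain ⟨X', hX1, hX2, hX3⟩ := exists_not_mem_normalizes (G := P)
      {B' : Subgroup P | B'.map (P : Subgroup G).subtype ∈ Sg (P : Subgroup G)}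
      {B' : Subgroup P | B'.map (P : Subgroup G).subtype ∈ Sg W}
      (fun U _ => isSubnormal_of_isNilpotent U)
      (by
        intro U hU g
        obtain ⟨⟨x, hx⟩, h2⟩ := hU
        refine ⟨⟨(g : G) * x, ?_⟩, map_subtype_le _⟩
        rw [map_subtype_conj_smul, hx, map_mul, mul_smul])
      (by
        refine ⟨fun U hU => ⟨hU.1, hU.2.trans hWP⟩, fun h6 => hBW ?_⟩
        have h1 : (B.subgroupOf (P : Subgroup G)) ∈ {B' : Subgroup P | B'.map (P : Subgroup G).subtype ∈ Sg (P : Subgroup G)} := by
          show (B.subgroupOf (P : Subgroup G)).map (P : Subgroup G).subtype ∈ Sg (P : Subgroup G)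
          rw [map_subgroupOf_eq_of_le hB.2]; exact hB
        have h2 : (B.subgroupOf (P : Subgroup G)).map (P : Subgroup G).subtype ∈ Sg W := h6 h1
        rw [map_subgroupOf_eq_of_le hB.2] at h2
        exact h2.2)
    have hJ : (sSup {B' : Subgroup P | B'.map (P : Subgroup G).subtype ∈ Sg W}).map (P : Subgroup G).subtype = W := by
      apply le_antisymm
      · rw [Subgroup.map_le_iff_le_comap]
        apply sSup_le
        intro B' hB'
        rw [← Subgroup.map_le_iff_le_comap]
        exact hB'.2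
      · nth_rewrite 1 [hWeq]
        apply sSup_le
        intro B hB
        have hBV : B ≤ (P : Subgroup G) := hB.2.trans hWP
        rw [← map_subgroupOf_eq_of_le hBV]
        apply Subgroup.map_mono
        apply le_sSup
        show (B.subgroupOf (P : Subgroup G)).map (P : Subgroup G).subtype ∈ Sg W
        rw [map_subgroupOf_eq_of_le hBV]; exact hB
    have hXN : X'.map (P : Subgroup G).subtype ≤ normalizer (W : Set G) := by
      rintro _ ⟨x, hx, rfl⟩
      have h4 := conj_smul_eq_of_mem_normalizer (hX3 hx)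
      apply mem_normalizer_of_conj_smul_eq
      rw [← hJ]
      have := map_subtype_conj_smul x (sSup {B' : Subgroup P | B'.map (P : Subgroup G).subtype ∈ Sg W})
      rw [h4] at this
      exact this.symm
    obtain ⟨⟨g, hg⟩, hXP⟩ := hX1
    have hXW : ¬ X'.map (P : Subgroup G).subtype ≤ W := fun h7 => hX2 ⟨⟨g, hg⟩, h7⟩
    have hK := h g
    set K := ⨆ y ∈ Y, MulAut.conj (y * g) • Z with hKdef
    have hKW : K ≤ normalizer (W : Set G) := by
      apply iSup₂_le
      intro y hy
      rw [map_mul, mul_smul, ← hg]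
      have h8 : MulAut.conj y • normalizer (W : Set G) = normalizer (W : Set G) :=
        conj_smul_eq_self_of_mem (hYW hy)
      rw [← h8]
      exact pointwise_smul_le_pointwise_smul_iff.mpr hXN
    have hYK : Y ≤ normalizer (K : Set G) := by
      have hinv : ∀ y ∈ Y, MulAut.conj y • K ≤ K := by
        intro y hy
        rw [pointwise_smul_subset_iff]
        apply iSup₂_le
        intro y' hy'
        rw [← pointwise_smul_subset_iff, ← mul_smul, ← map_mul, ← mul_assoc]
        exact le_iSup₂_of_le (y * y') (mul_mem hy hy') le_rfl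
      intro y hy
      apply mem_normalizer_of_conj_smul_eq
      apply le_antisymm (hinv y hy)
      have h2 := hinv y⁻¹ (inv_mem hy)
      rw [map_inv, pointwise_smul_subset_iff, inv_inv] at h2
      exact h2
    have hXK : X'.map (P : Subgroup G).subtype ≤ K := by
      rw [hg]
      have := le_iSup₂_of_le (f := fun (y : G) (_ : y ∈ Y) => MulAut.conj (y * g) • Z) 1 (one_mem Y) le_rfl
      rwa [one_mul] at this
    have hW' : (W ⊔ K) ∈ {W : Subgroup G | IsPGroup p W ∧ Y ≤ normalizer (W : Set G) ∧ W ≤ sSup (Sg W)} := by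
      refine ⟨?_, ?_, ?_⟩
      · rw [sup_comm]
        exact IsPGroup.to_sup_of_normal_right' hK hWp hKW
      · exact (le_inf hYW hYK).trans inf_normalizer_le_normalizer_sup'
      · apply sup_le
        · exact hWs.trans (hmono _ _ le_sup_left)
        · apply iSup₂_le
          intro y hy
          apply le_sSup
          refine ⟨⟨y * g, rfl⟩, ?_⟩
          exact (le_iSup₂_of_le (f := fun (y : G) (_ : y ∈ Y) => MulAut.conj (y * g) • Z) y hy le_rfl).trans le_sup_right
    have h10 : W = W ⊔ K := hW.eq_of_le hW' le_sup_left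
    apply hXW
    rw [h10]
    exact hXK.trans le_sup_right
  refine ⟨P, ?_⟩
  have hfin : (⨆ g ∈ {g : G | MulAut.conj g • Z ≤ (P : Subgroup G)}, MulAut.conj g • Z : Subgroup G) = W := by
    rw [← key]
    apply le_antisymm
    · apply iSup₂_le
      intro g hg
      exact le_sSup ⟨⟨g, rfl⟩, hg⟩
    · apply sSup_le
      rintro B ⟨⟨g, rfl⟩, hB⟩
      exact le_iSup₂_of_le (f := fun (g : G) (_ : g ∈ {g : G | MulAut.conj g • Z ≤ (P : Subgroup G)}) => MulAut.conj g • Z) g hB le_rfl
  rw [hfin]
  exact hYW

end Cfsg.Agent.S0541
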