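import Cfsg.Statements.S0542
import Cfsg.Agent.LibH2Misc

set_option autoImplicit false
open Cfsg

namespace Cfsg.Agent.S0542

open Subgroup Cfsg MulAction CfsgLib.Cores CfsgLib.Coprime CfsgLib.H2Misc
open scoped Pointwise commutatorElement



/-- A Sylow p-subgroup of a finite group meets every subnormal subgroup H in a Sylow p-subgroup of H. -/
theorem result {G : Type*} [Group G] [Finite G] (p : ℕ) [Fact p.Prime] (H : Subgroup G) (hH : H.IsSubnormal) (S : Sylow p G) : ∃ Q : Sylow p H, (Q : Subgroup H) = (S : Subgroup G).subgroupOf H := by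
  have key : ¬ p ∣ (S : Subgroup G).relIndex H := by
    induction hH with
    | top =>
      rw [relIndex_top_right]; exact S.not_dvd_index
    | step H K hle hK hN ih =>
      have h1 : ¬ p ∣ ((S : Subgroup G).subgroupOf K).index := ih
      have h2 := not_dvd_relIndex_sylow_of_normal
        (IsPGroup.toSylow (p := p) (S.isPGroup'.comap_subtype (K := K)) h1) (H.subgroupOf K)
      have h3 : ((S : Subgroup G).subgroupOf K).relIndex (H.subgroupOf K) = (S : Subgroup G).relIndex H :=
        relIndex_subgroupOf hle
      rw [← h3]
      exact h2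
  exact ⟨IsPGroup.toSylow (S.isPGroup'.comap_subtype) key, rfl⟩

end Cfsg.Agent.S0542
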