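import Cfsg.Statements.S0544
import Cfsg.Agent.LibH2Sys

set_option autoImplicit false
open Cfsg

namespace Cfsg.Agent.S0544

open Subgroup CfsgLib.H2Sys CfsgLib.Carter


/-- In a finite solvable group the intersection of the normalizers of the members of a Hall complement system is a nilpotent subgroup. -/
theorem result {G : Type*} [Group G] [Finite G] [Group.IsSolvable G] (K : Nat.Primes → Subgroup G) (hK : Cfsg.IsComplementSystem K) : Group.IsNilpotent (Cfsg.systemNormalizer K) := by
  exact sys_nilpotent (sys_iff.mp hK)

end Cfsg.Agent.S0544
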