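import Cfsg.Statements.S0547
import Cfsg.Agent.LibH2Gen2

set_option autoImplicit false
open Cfsg

namespace Cfsg.Agent.S0547

open Subgroup Cfsg MulAction CfsgLib.Cores CfsgLib.Coprime CfsgLib.H2Misc CfsgLib.H2Solv CfsgLib.H2Subn CfsgLib.H2Quad CfsgLib.H2Gen CfsgLib.H2Gen2
open scoped Pointwise commutatorElement
universe uu



/-- Let a finite solvable group G act faithfully and primitively on a set, and let M be a minimal normal subgroup of G. Then M is transitive with trivial point stabilizers, and the number of points equals the order of M, which is a prime power p ^ d with d ≥ 1. -/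
theorem result {G : Type*} [Group G] [Finite G] [Group.IsSolvable G] {Ω : Type*} [Nonempty Ω] [MulAction G Ω] [FaithfulSMul G Ω] (hprim : MulAction.IsPreprimitive G Ω) (M : Subgroup G) [M.Normal] (hM : M ≠ ⊥) (hmin : ∀ K : Subgroup G, K.Normal → K ≤ M → K = ⊥ ∨ K = M) : MulAction.IsPretransitive M Ω ∧ (∀ ω : Ω, MulAction.stabilizer M ω = ⊥) ∧ ∃ p d : ℕ, p.Prime ∧ 0 < d ∧ Nat.card Ω = p ^ d ∧ Nat.card M = p ^ d := by
  haveI := hprim
  haveI : M.Normal := inferInstance
  obtain ⟨p, hp, hel, hpg⟩ := isMin_elab (M := M) ⟨inferInstance, hM, hmin⟩ inferInstance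
  haveI : Fact p.Prime := ⟨hp⟩
  have hfix : fixedPoints M Ω ≠ Set.univ := by
    intro h
    apply hM
    rw [eq_bot_iff]
    intro m hm
    rw [mem_bot]
    apply FaithfulSMul.eq_of_smul_eq_smul (α := Ω)
    intro ω
    rw [one_smul]
    exact (h.ge (Set.mem_univ ω)) ⟨m, hm⟩
  haveI htr : IsPretransitive M Ω := IsQuasiPreprimitive.isPretransitive_of_normal hfix
  have hst : ∀ ω : Ω, stabilizer M ω = ⊥ := by
    intro ω
    rw [eq_bot_iff]
    intro m hm
    rw [mem_bot]
    apply Subtype.ext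
    apply FaithfulSMul.eq_of_smul_eq_smul (α := Ω)
    intro ω'
    obtain ⟨n, rfl⟩ := exists_smul_eq M ω ω'
    have h1 : (m : G) • n • ω = n • (m : G) • ω := by
      have h2 : (m : G) * (n : G) = n * m := comm_of_elab hel _ m.2 _ n.2
      change (m : G) • (n : G) • ω = (n : G) • (m : G) • ω
      rw [← mul_smul, ← mul_smul, h2]
    rw [h1]
    have h3 : (m : G) • ω = ω := hm
    rw [h3]
    simp
  refine ⟨htr, hst, ?_⟩
  obtain ⟨ω⟩ := ‹Nonempty Ω›
  have hcard : Nat.card Ω = Nat.card M := by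
    have h1 := index_stabilizer_of_transitive M ω
    rw [hst, index_bot] at h1
    exact h1.symm
  obtain ⟨d, hd⟩ := IsPGroup.iff_card.mp hpg
  refine ⟨p, d, hp, ?_, by rw [hcard, hd], hd⟩
  rcases Nat.eq_zero_or_pos d with h0 | h0
  · rw [h0, pow_zero] at hd
    exact absurd (card_eq_one.mp hd) hM
  · exact h0

end Cfsg.Agent.S0547
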