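import Cfsg.Statements.S0548
import Cfsg.Agent.LibH2Gen2
import Cfsg.Agent.S0547

set_option autoImplicit false
open Cfsg

namespace Cfsg.Agent.S0548

open Subgroup Cfsg MulAction CfsgLib.Cores CfsgLib.Coprime CfsgLib.H2Misc CfsgLib.H2Solv CfsgLib.H2Subn CfsgLib.H2Quad CfsgLib.H2Gen CfsgLib.H2Gen2
open scoped Pointwise commutatorElement
universe uu



/-- Let a finite solvable group G act faithfully and primitively on a set, let M be a minimal normal subgroup and H the stabilizer of a point. Then H is a complement to M, no non-identity element of H centralizes M, and the only subgroups of M normalized by H are the trivial subgroup and M. -/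
theorem result {G : Type*} [Group G] [Finite G] [Group.IsSolvable G] {Ω : Type*} [MulAction G Ω] [FaithfulSMul G Ω] (hprim : MulAction.IsPreprimitive G Ω) (M : Subgroup G) [M.Normal] (hM : M ≠ ⊥) (hmin : ∀ K : Subgroup G, K.Normal → K ≤ M → K = ⊥ ∨ K = M) (ω : Ω) : Subgroup.IsComplement' M (MulAction.stabilizer G ω) ∧ MulAction.stabilizer G ω ⊓ Subgroup.centralizer (M : Set G) = ⊥ ∧ ∀ K : Subgroup G, K ≤ M → MulAction.stabilizer G ω ≤ Subgroup.normalizer (K : Set G) → K = ⊥ ∨ K = M := by
  haveI : Nonempty Ω := ⟨ω⟩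
  obtain ⟨htr, hst, -⟩ := Cfsg.Agent.S0547.result hprim M hM hmin
  haveI := htr
  obtain ⟨p, hp, hel, hpg⟩ := isMin_elab (M := M) ⟨inferInstance, hM, hmin⟩ inferInstance
  have hsup : M ⊔ stabilizer G ω = ⊤ := by
    rw [eq_top_iff]
    intro g _
    obtain ⟨m, hm⟩ := exists_smul_eq M ω (g • ω)
    have h1 : (m : G)⁻¹ * g ∈ stabilizer G ω := by
      rw [mem_stabilizer_iff, mul_smul, ← hm]
      change (m : G)⁻¹ • (m : G) • ω = ω
      rw [inv_smul_smul]
    have h2 : g = m * ((m : G)⁻¹ * g) := by group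
    rw [h2]
    exact mul_mem (mem_sup_left m.2) (mem_sup_right h1)
  have hinf : M ⊓ stabilizer G ω = ⊥ := by
    rw [eq_bot_iff]
    rintro m ⟨h1, h2⟩
    have h3 : (⟨m, h1⟩ : M) ∈ stabilizer M ω := h2
    rw [hst, mem_bot] at h3
    exact congrArg Subtype.val h3
  refine ⟨?_, ?_, ?_⟩
  · exact isComplement'_of_disjoint_and_mul_eq_univ (disjoint_iff.mpr hinf) (by
      rw [← Subgroup.normal_mul, hsup]; rfl)
  · rw [eq_bot_iff]
    rintro h ⟨h1, h2⟩
    rw [mem_bot]
    apply FaithfulSMul.eq_of_smul_eq_smul (α := Ω)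
    intro ω'
    obtain ⟨m, rfl⟩ := exists_smul_eq M ω ω'
    have h3 : (m : G) * h = h * m := mem_centralizer_iff.mp h2 _ m.2
    change h • (m : G) • ω = (1 : G) • (m : G) • ω
    rw [← mul_smul, ← h3, mul_smul, mem_stabilizer_iff.mp h1, one_smul]
  · intro K hKM hK
    apply hmin K _ hKM
    apply normal_of_le_normalizer_sup (A := M) (B := stabilizer G ω) _ hK hsup
    refine le_trans ?_ (centralizer_le_normalizer _)
    exact le_centralizer_of_comm fun x hx y hy => comm_of_elab hel x hx y (hKM hy)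

end Cfsg.Agent.S0548
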