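import Cfsg.Statements.S0549
import Cfsg.Agent.LibH2Misc

set_option autoImplicit false
open Cfsg

namespace Cfsg.Agent.S0549

open Subgroup Cfsg MulAction CfsgLib.Cores CfsgLib.Coprime CfsgLib.H2Misc
open scoped Pointwise commutatorElement



/-- Let U be a maximal subgroup of a finite group G whose normal core is trivial, and N a nontrivial normal subgroup with centralizer C. Then C ∩ U = 1, and either C = 1 or C is a minimal normal subgroup of G. -/
theorem result {G : Type*} [Group G] [Finite G] (U : Subgroup G) (hU : IsCoatom U) (hcore : U.normalCore = ⊥) (N : Subgroup G) [N.Normal] (hN : N ≠ ⊥) : Subgroup.centralizer (N : Set G) ⊓ U = ⊥ ∧ (Subgroup.centralizer (N : Set G) = ⊥ ∨ (Subgroup.centralizer (N : Set G) ≠ ⊥ ∧ ∀ K : Subgroup G, K.Normal → K ≤ Subgroup.centralizer (N : Set G) → K = ⊥ ∨ K = Subgroup.centralizer (N : Set G))) := by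
  have hUn : ∀ K : Subgroup G, K.Normal → K ≤ U → K = ⊥ := by
    intro K hK hKU
    have := (normal_le_normalCore (H := U) (N := K)).mpr hKU
    rw [hcore] at this
    exact le_bot_iff.mp this
  have hjoin : ∀ K : Subgroup G, K.Normal → K ≠ ⊥ → U ⊔ K = ⊤ := by
    intro K hK hne
    have h1 : ¬ K ≤ U := fun h => hne (hUn K hK h)
    exact hU.2 _ (lt_of_le_of_ne le_sup_left (fun h => h1 (by rw [h]; exact le_sup_right)))
  haveI hCn : (centralizer (N : Set G)).Normal := inferInstance
  have hCU : centralizer (N : Set G) ⊓ U = ⊥ := by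
    apply hUn _ _ inf_le_right
    have h1 : U ≤ normalizer ((centralizer (N : Set G) ⊓ U : Subgroup G) : Set G) := by
      refine le_trans (le_inf ?_ ?_) inf_normalizer_le_normalizer_inf
      · exact le_normalizer_of_normal
      · exact le_normalizer
    have h2 : N ≤ normalizer ((centralizer (N : Set G) ⊓ U : Subgroup G) : Set G) := by
      refine le_trans ?_ (centralizer_le_normalizer _)
      rw [le_centralizer_iff]
      exact inf_le_left
    rw [← normalizer_eq_top_iff, eq_top_iff, ← hjoin N ‹_› hN]
    exact sup_le h1 h2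
  refine ⟨hCU, ?_⟩
  by_cases hC : centralizer (N : Set G) = ⊥
  · exact Or.inl hC
  refine Or.inr ⟨hC, ?_⟩
  intro K hK hKC
  by_cases hK0 : K = ⊥
  · exact Or.inl hK0
  right
  have h3 := dedekind_top (N := K) (H := U) (M := centralizer (N : Set G)) hKC (by rw [sup_comm]; exact hjoin K hK hK0)
  rw [inf_comm, hCU, sup_bot_eq] at h3
  exact h3.symm

end Cfsg.Agent.S0549
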