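import Cfsg.Statements.S0550
import Cfsg.Agent.LibH2Gen2
import Cfsg.Agent.S0549

set_option autoImplicit false
open Cfsg

namespace Cfsg.Agent.S0550

open Subgroup Cfsg MulAction CfsgLib.Cores CfsgLib.Coprime CfsgLib.H2Misc CfsgLib.H2Solv CfsgLib.H2Subn CfsgLib.H2Quad CfsgLib.H2Gen CfsgLib.H2Gen2
open scoped Pointwise commutatorElement
universe uu



/-- Let U be a maximal subgroup with trivial normal core in a finite group G, and A ≠ B two minimal normal subgroups. Then A is the centralizer of B and B that of A, U complements each of them, A and B are non-abelian, and A, B and (A ⊔ B) ∩ U are pairwise isomorphic. -/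
theorem result {G : Type*} [Group G] [Finite G] (U : Subgroup G) (hU : IsCoatom U) (hcore : U.normalCore = ⊥) (A B : Subgroup G) [A.Normal] [B.Normal] (hA : A ≠ ⊥) (hB : B ≠ ⊥) (hAmin : ∀ K : Subgroup G, K.Normal → K ≤ A → K = ⊥ ∨ K = A) (hBmin : ∀ K : Subgroup G, K.Normal → K ≤ B → K = ⊥ ∨ K = B) (hAB : A ≠ B) : Subgroup.centralizer (B : Set G) = A ∧ Subgroup.centralizer (A : Set G) = B ∧ Subgroup.IsComplement' A U ∧ Subgroup.IsComplement' B U ∧ ¬ IsMulCommutative A ∧ Nonempty (A ≃* B) ∧ Nonempty (A ≃* ↥((A ⊔ B) ⊓ U)) := by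
  have hAB0 : A ⊓ B = ⊥ := by
    rcases hAmin (A ⊓ B) inferInstance inf_le_left with h | h
    · exact h
    · rcases hBmin (A ⊓ B) inferInstance inf_le_right with h' | h'
      · exact h'
      · exact absurd (h.symm.trans h') hAB
  have hcomm : A ≤ centralizer (B : Set G) := by
    rw [← commutator_eq_bot_iff_le_centralizer]
    exact le_bot_iff.mp ((commutator_le_inf A B).trans hAB0.le)
  have hcomm' : B ≤ centralizer (A : Set G) := le_centralizer_iff.mp hcomm
  have main : ∀ (A B : Subgroup G) [A.Normal] [B.Normal], A ≠ ⊥ → B ≠ ⊥ → A ≤ centralizer (B : Set G) →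
      centralizer (B : Set G) = A ∧ A ⊓ U = ⊥ ∧ A ⊔ U = ⊤ := by
    intro A B _ _ hA hB hcomm
    obtain ⟨h1, h2⟩ := Cfsg.Agent.S0549.result U hU hcore B hB
    have h3 : centralizer (B : Set G) = A := by
      rcases h2 with h2 | ⟨-, h2⟩
      · exact absurd (le_bot_iff.mp (hcomm.trans h2.le)) hA
      · rcases h2 A inferInstance hcomm with h | h
        · exact absurd h hA
        · exact h.symm
    refine ⟨h3, ?_, ?_⟩
    · rw [← h3]; exact h1
    · exact sup_eq_top_of_not_le hU (not_le_of_core hcore hA)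
  obtain ⟨h1, h2, h3⟩ := main A B hA hB hcomm
  obtain ⟨h4, h5, h6⟩ := main B A hB hA hcomm'
  have hcompl : ∀ (A : Subgroup G) [A.Normal], A ⊓ U = ⊥ → A ⊔ U = ⊤ → IsComplement' A U := by
    intro A _ ha hb
    exact isComplement'_of_disjoint_and_mul_eq_univ (disjoint_iff.mpr ha) (by
      rw [← Subgroup.normal_mul, hb]; rfl)
  have hD : ∀ (A B : Subgroup G) [A.Normal] [B.Normal], A ⊔ U = ⊤ → (A ⊔ B) = ((A ⊔ B) ⊓ U) ⊔ A := by
    intro A B _ _ h
    have := dedekind_top (N := A) (H := U) (M := A ⊔ B) le_sup_left h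
    rw [inf_comm U, sup_comm A ((A ⊔ B) ⊓ U)] at this
    exact this
  -- `(A ⊔ B) ⊓ U ≃ B` and `≃ A`
  have e1 : Nonempty (B ≃* ↥((A ⊔ B) ⊓ U)) := by
    apply equiv_of_complement (N := A)
    · rw [inf_comm]; exact hAB0
    · rw [inf_assoc, inf_comm U A, h2, inf_bot_eq]
    · rw [sup_comm B A]; exact hD A B h3
  have e2 : Nonempty (A ≃* ↥((A ⊔ B) ⊓ U)) := by
    apply equiv_of_complement (N := B)
    · exact hAB0
    · rw [inf_assoc, inf_comm U B, h5, inf_bot_eq]
    · have := hD B A h6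
      rw [sup_comm B A] at this
      exact this
  obtain ⟨e1⟩ := e1
  obtain ⟨e2⟩ := e2
  refine ⟨h1, h4, hcompl A h2 h3, hcompl B h5 h6, ?_, ⟨e2.trans e1.symm⟩, ⟨e2⟩⟩
  intro hab
  have h7 : A ≤ B := by
    rw [← h4]
    exact isMulCommutative_iff_le_centralizer.mp hab
  apply hA
  rw [← hAB0, inf_eq_left.mpr h7]

end Cfsg.Agent.S0550
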