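import Cfsg.Statements.S0551
import Cfsg.Agent.LibH2Gen2
import Cfsg.Agent.LibSolvBasic

set_option autoImplicit false
open Pointwise
open Cfsg

namespace Cfsg.Agent.S0551

open Subgroup Cfsg MulAction CfsgLib.Cores CfsgLib.Coprime CfsgLib.H2Misc CfsgLib.H2Solv CfsgLib.H2Subn CfsgLib.H2Quad CfsgLib.H2Gen CfsgLib.H2Gen2
open scoped Pointwise commutatorElement
universe uu



/-- In a finite solvable group all core-free maximal subgroups are conjugate. -/
theorem result {G : Type*} [Group G] [Finite G] [Group.IsSolvable G] (U V : Subgroup G) (hU : IsCoatom U) (hV : IsCoatom V) (hUc : U.normalCore = ⊥) (hVc : V.normalCore = ⊥) : ∃ g : G, MulAut.conj g • U = V := by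
  haveI : Nontrivial G := by
    rw [← not_subsingleton_iff_nontrivial]
    intro hs
    exact hU.1 (Subsingleton.elim _ _)
  obtain ⟨M, -, hM⟩ := exists_isMin (⊤ : Subgroup G) top_ne_bot
  haveI := hM.1
  obtain ⟨p, hp, hel, hpg⟩ := isMin_elab hM inferInstance
  haveI : Fact p.Prime := ⟨hp⟩
  -- complements
  have hc : ∀ U : Subgroup G, IsCoatom U → U.normalCore = ⊥ → M ⊔ U = ⊤ ∧ M ⊓ U = ⊥ ∧
      centralizer (M : Set G) = M := by
    intro U hU hUc
    have h1 := sup_eq_top_of_not_le hU (not_le_of_core hUc hM.2.1)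
    have h2 : M ⊓ U = ⊥ := by
      by_contra hne
      haveI := inf_normal_of_comm hel.1 h1
      exact not_le_of_core hUc hne inf_le_right
    refine ⟨h1, h2, ?_⟩
    have hMC : M ≤ centralizer (M : Set G) := isMulCommutative_iff_le_centralizer.mp hel.1
    have h3 := dedekind_top (N := M) (H := U) (M := centralizer (M : Set G)) hMC h1
    have h4 : U ⊓ centralizer (M : Set G) = ⊥ := by
      by_contra hne
      haveI : (U ⊓ centralizer (M : Set G)).Normal := by
        apply normal_of_le_normalizer_sup (A := M) (B := U) _ _ h1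
        · refine le_trans ?_ (centralizer_le_normalizer _)
          rw [le_centralizer_iff]; exact inf_le_right
        · refine le_trans (le_inf ?_ ?_) inf_normalizer_le_normalizer_inf
          · exact le_normalizer
          · exact le_normalizer_of_normal
      exact not_le_of_core hUc hne inf_le_left
    rw [h4, sup_bot_eq] at h3
    exact h3
  obtain ⟨hU1, hU2, hC⟩ := hc U hU hUc
  obtain ⟨hV1, hV2, -⟩ := hc V hV hVc
  by_cases hMt : M = ⊤
  · rw [hMt, top_inf_eq] at hU2 hV2
    exact ⟨1, by rw [hU2, hV2, smul_bot]⟩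
  haveI : Nontrivial (G ⧸ M) := QuotientGroup.nontrivial_iff.mpr hMt
  obtain ⟨N₀, -, hN₀⟩ := exists_isMin (⊤ : Subgroup (G ⧸ M)) top_ne_bot
  haveI := hN₀.1
  obtain ⟨q, hq, hqel, hqg⟩ := isMin_elab hN₀ inferInstance
  haveI : Fact q.Prime := ⟨hq⟩
  set N := N₀.comap (QuotientGroup.mk' M) with hN
  haveI hNn : N.Normal := hN₀.1.comap _
  have hMN : M ≤ N := by
    intro x hx
    rw [hN, mem_comap, QuotientGroup.mk'_apply, (QuotientGroup.eq_one_iff x).mpr hx]
    exact one_mem _
  have hNcard : Nat.card N = Nat.card M * Nat.card N₀ := card_comap_mk M N₀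
  have hqp : q ≠ p := by
    rintro rfl
    have h1 : IsPGroup q N := comap_mk_isPGroup M hpg N₀ hqg
    have h2 : N ≤ M := by
      rw [← hC]
      exact ((le_pCore hNn h1).trans (pCore_le_fittingSubgroup q)).trans (fitting_le_centralizer_of_isMin hM)
    have h3 : Nat.card N = Nat.card M := by rw [le_antisymm h2 hMN]
    rw [h3] at hNcard
    have h4 : Nat.card N₀ = 1 := by
      have : 0 < Nat.card M := Nat.card_pos
      nlinarith
    exact hN₀.2.1 (card_eq_one.mp h4)
  have hd : ∀ U : Subgroup G, M ⊔ U = ⊤ → M ⊓ U = ⊥ → N = M ⊔ (U ⊓ N) ∧ Nat.card ↥(U ⊓ N) = Nat.card N₀ := by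
    intro U h1 h2
    have h3 := dedekind_top (N := M) (H := U) (M := N) hMN h1
    refine ⟨h3, ?_⟩
    have h4 := card_sup_of_normal (U ⊓ N) M
    have h5 : U ⊓ N ⊓ M = ⊥ := by
      rw [eq_bot_iff, ← h2]
      exact le_inf inf_le_right (inf_le_left.trans inf_le_left)
    have h6 := card_sup_mul_card_inf (N := M) (H := U ⊓ N) le_normalizer_of_normal
    rw [h5, card_bot, mul_one, sup_comm, ← h3, hNcard, mul_comm] at h6
    exact (Nat.eq_of_mul_eq_mul_right Nat.card_pos h6).symm
  obtain ⟨hU3, hU4⟩ := hd U hU1 hU2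
  obtain ⟨hV3, hV4⟩ := hd V hV1 hV2
  have hcop : (Nat.card ↥(U ⊓ N)).Coprime (Nat.card M) := by
    rw [hU4]
    obtain ⟨a, ha⟩ := IsPGroup.iff_card.mp hpg
    obtain ⟨b, hb⟩ := IsPGroup.iff_card.mp hqg
    rw [ha, hb]
    exact Nat.Coprime.pow _ _ ((Nat.coprime_primes hq hp).mpr hqp)
  obtain ⟨n, hn, hconj⟩ := sz_conj (N := M) (H := U ⊓ N) (K := V ⊓ N) le_normalizer_of_normal hcop
    (Or.inl inferInstance) (by rw [← hU3]; exact inf_le_right) (by rw [hU4, hV4])
  have hnor : ∀ U : Subgroup G, IsCoatom U → U.normalCore = ⊥ → Nat.card ↥(U ⊓ N) = Nat.card N₀ →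
      normalizer ((U ⊓ N : Subgroup G) : Set G) = U := by
    intro U hU hUc hUN
    have h1 : U ≤ normalizer ((U ⊓ N : Subgroup G) : Set G) := by
      refine le_trans (le_inf ?_ ?_) inf_normalizer_le_normalizer_inf
      · exact le_normalizer
      · exact le_normalizer_of_normal
    by_contra hne
    have h2 := hU.2 _ (lt_of_le_of_ne h1 (fun h => hne h.symm))
    haveI : (U ⊓ N).Normal := normalizer_eq_top_iff.mp h2
    refine not_le_of_core hUc ?_ (inf_le_left : U ⊓ N ≤ U)
    intro h0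
    rw [h0, card_bot] at hUN
    exact hN₀.2.1 (card_eq_one.mp hUN.symm)
  refine ⟨n, ?_⟩
  rw [← hnor U hU hUc hU4, ← hnor V hV hVc hV4, ← CfsgLib.SolvBasic.normalizer_conj_smul, hconj]

end Cfsg.Agent.S0551
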