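import Cfsg.Statements.S0552
import Cfsg.Agent.LibH2Gen

set_option autoImplicit false
open Cfsg

namespace Cfsg.Agent.S0552

open Subgroup Cfsg MulAction CfsgLib.Cores CfsgLib.Coprime CfsgLib.H2Misc CfsgLib.H2Solv CfsgLib.H2Subn CfsgLib.H2Quad CfsgLib.H2Gen
open scoped Pointwise commutatorElement
universe uu



/-- Let σ be an automorphism of a finite solvable group G fixing every element of the Fitting subgroup. If σ is not the identity then the order of σ and the order of G have a common prime factor. -/
theorem result {G : Type*} [Group G] [Finite G] [Group.IsSolvable G] (σ : G ≃* G) (hσ : ∀ x ∈ Cfsg.fittingSubgroup G, σ x = x) (hne : σ ≠ MulEquiv.refl G) : ¬ (orderOf σ).Coprime (Nat.card G) := by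
  intro hcop
  apply hne
  ext g
  have hcent := centralizer_fittingSubgroup_le (G := G)
  haveI : (fittingSubgroup G).Normal := fittingSubgroup_normal
  have hinv : ∀ x ∈ fittingSubgroup G, σ.symm x = x := by
    intro x hx
    rw [MulEquiv.symm_apply_eq, hσ x hx]
  have h1 : ∀ g : G, g⁻¹ * σ g ∈ fittingSubgroup G := by
    intro g
    apply hcent
    rw [mem_centralizer_iff]
    intro x hx
    have h2 : g * x * g⁻¹ ∈ fittingSubgroup G := Normal.conj_mem ‹_› x hx g
    have h3 := hσ _ h2
    rw [map_mul, map_mul, map_inv, hσ x hx] at h3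
    have h4 : σ g * x * (σ g)⁻¹ = g * x * g⁻¹ := h3
    calc x * (g⁻¹ * σ g) = g⁻¹ * (g * x * g⁻¹) * σ g := by group
      _ = g⁻¹ * (σ g * x * (σ g)⁻¹) * σ g := by rw [h4]
      _ = g⁻¹ * σ g * x := by group
  set c := g⁻¹ * σ g with hc
  have hcF : c ∈ fittingSubgroup G := h1 g
  have h5 : ∀ n : ℕ, (σ ^ n) g = g * c ^ n := by
    intro n
    induction n with
    | zero => simp
    | succ n ih =>
      rw [pow_succ', MulAut.mul_apply, ih, map_mul, map_pow, hσ c hcF, pow_succ']
      have : σ g = g * c := by rw [hc]; group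
      rw [this, mul_assoc]
  have h6 := h5 (orderOf σ)
  rw [pow_orderOf_eq_one, MulAut.one_apply] at h6
  have h7 : c ^ orderOf σ = 1 := by
    have := h6
    nth_rewrite 1 [← mul_one g] at this
    exact (mul_left_cancel this).symm
  have h8 : c = 1 := by
    have h9 := orderOf_dvd_of_pow_eq_one h7
    have h10 := Nat.dvd_gcd h9 (orderOf_dvd_natCard c)
    rw [hcop.gcd_eq_one, Nat.dvd_one] at h10
    exact orderOf_eq_one_iff.mp h10
  have : σ g = g * c := by rw [hc]; group
  rw [this, h8, mul_one]
  rfl

end Cfsg.Agent.S0552
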