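import Cfsg.Statements.S0553
import Cfsg.Agent.LibH2Gen2
import Cfsg.Agent.LibSolvBasic

set_option autoImplicit false
open Cfsg

namespace Cfsg.Agent.S0553

open Subgroup Cfsg MulAction CfsgLib.Cores CfsgLib.Coprime CfsgLib.H2Misc CfsgLib.H2Solv CfsgLib.H2Subn CfsgLib.H2Quad CfsgLib.H2Gen CfsgLib.H2Gen2
open scoped Pointwise commutatorElement
universe uu


theorem main : ∀ (n : ℕ) (G : Type uu) [Group G] [Finite G] [Group.IsSolvable G] [Nontrivial G]
    (_ : Nat.card G ≤ n) (_ : ∀ M : Subgroup G, IsCoatom M → (Nat.card M).Coprime M.index),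
    ∃ p : ℕ, p.Prime ∧ p ∣ Nat.card G ∧ ∀ P : Sylow p G, (P : Subgroup G).Normal := by
  intro n
  induction n with
  | zero =>
    intro G _ _ _ _ h
    exact absurd h (by simpa using Nat.card_pos.ne')
  | succ n ih =>
    intro G _ _ _ _ hG h
    obtain ⟨N, -, hN⟩ := exists_isMin (⊤ : Subgroup G) top_ne_bot
    haveI := hN.1
    obtain ⟨p, hp, hel, hpg⟩ := isMin_elab hN inferInstance
    haveI : Fact p.Prime := ⟨hp⟩
    have hpN : p ∣ Nat.card N := by
      obtain ⟨k, hk⟩ := IsPGroup.iff_card.mp hpg
      rcases Nat.eq_zero_or_pos k with h0 | h0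
      · rw [h0, pow_zero] at hk
        exact absurd (card_eq_one.mp hk) hN.2.1
      · rw [hk]; exact dvd_pow_self p h0.ne'
    have hpG : p ∣ Nat.card G := hpN.trans (card_subgroup_dvd_card N)
    by_cases hNt : N = ⊤
    · refine ⟨p, hp, hpG, fun P => ?_⟩
      rw [hNt] at hel
      exact ⟨fun x _ g => by
        have := comm_of_elab hel g (mem_top g) x (mem_top x)
        rw [this, mul_inv_cancel_right]; assumption⟩
    haveI : Nontrivial (G ⧸ N) := QuotientGroup.nontrivial_iff.mpr hNt
    have hsurj := QuotientGroup.mk'_surjective N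
    obtain ⟨q, hq, hqd, hqn⟩ := ih (G ⧸ N) (by have := card_quotient_lt N hN.2.1; omega) (by
      intro M hM
      have h1 := h _ (isCoatom_comap_of_surjective hsurj hM)
      rw [index_comap_of_surjective _ hsurj] at h1
      refine Nat.Coprime.coprime_dvd_left ?_ h1
      rw [card_comap_mk]
      exact dvd_mul_left _ _)
    haveI : Fact q.Prime := ⟨hq⟩
    have hall : ∀ Q : Sylow q G, ((Q : Subgroup G) ⊔ N).Normal := by
      intro Q
      have h1 := hqn (Q.mapSurjective hsurj)
      have h2 : ((Q : Subgroup G).map (QuotientGroup.mk' N)).comap (QuotientGroup.mk' N) = (Q : Subgroup G) ⊔ N := by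
        rw [comap_map_eq, QuotientGroup.ker_mk']
      rw [← h2]
      exact h1.comap _
    by_cases hqp : q = p
    · subst hqp
      refine ⟨q, hq, hpG, fun P => ?_⟩
      have h1 := hall P
      rwa [sup_eq_left.mpr (normal_le_sylow inferInstance hpg P)] at h1
    have hqG : q ∣ Nat.card G := hqd.trans (card_quotient_dvd_card N)
    by_cases hex : ∀ Q : Sylow q G, (Q : Subgroup G).Normal
    · exact ⟨q, hq, hqG, hex⟩
    push Not at hex
    obtain ⟨Q, hQ⟩ := hex
    haveI hQN := hall Q
    have h1 : normalizer ((Q : Subgroup G) : Set G) ⊔ ((Q : Subgroup G) ⊔ N) = ⊤ :=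
      Sylow.normalizer_sup_eq_top' Q le_sup_left
    have h2 : normalizer ((Q : Subgroup G) : Set G) ⊔ N = ⊤ := by
      rw [eq_top_iff, ← h1]
      exact sup_le le_sup_left (sup_le (le_normalizer.trans le_sup_left) le_sup_right)
    have h3 : normalizer ((Q : Subgroup G) : Set G) ≠ ⊤ := fun h => hQ (normalizer_eq_top_iff.mp h)
    obtain ⟨M, hM, hQM⟩ := (eq_top_or_exists_le_coatom (normalizer ((Q : Subgroup G) : Set G))).resolve_left h3
    have h4 : N ⊔ M = ⊤ := by
      rw [eq_top_iff, ← h2]
      exact sup_le (hQM.trans le_sup_right) le_sup_left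
    haveI h5 := inf_normal_of_comm hel.1 h4
    have h6 : N ⊓ M = ⊥ := by
      rcases hN.2.2 _ h5 inf_le_left with h | h
      · exact h
      · exfalso
        have : N ≤ M := by rw [← h]; exact inf_le_right
        rw [sup_eq_right.mpr this] at h4
        exact hM.1 h4
    have hcompl : IsComplement' N M :=
      isComplement'_of_disjoint_and_mul_eq_univ (disjoint_iff.mpr h6) (by
        rw [← Subgroup.normal_mul, h4]; rfl)
    have h7 : M.index = Nat.card N := hcompl.index_eq_card
    have h8 : N.index = Nat.card M := hcompl.symm.index_eq_card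
    have h9 : ¬ p ∣ N.index := by
      rw [h8]
      intro h10
      have h11 := h M hM
      rw [h7] at h11
      have := Nat.dvd_gcd h10 hpN
      rw [h11.gcd_eq_one] at this
      exact hp.one_lt.ne' (Nat.dvd_one.mp this)
    refine ⟨p, hp, hpG, fun P => ?_⟩
    have h12 : N = (P : Subgroup G) := by
      have := (IsPGroup.toSylow hpg h9).is_maximal' P.isPGroup' (normal_le_sylow inferInstance hpg P)
      exact this.symm
    rw [← h12]; infer_instance


/-- Let G be a nontrivial finite solvable group in which every maximal subgroup has order coprime to its index. Then for some prime p dividing the order of G the Sylow p-subgroups of G are normal. -/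
theorem result {G : Type*} [Group G] [Finite G] [Group.IsSolvable G] [Nontrivial G] (h : ∀ M : Subgroup G, IsCoatom M → (Nat.card M).Coprime M.index) : ∃ p : ℕ, p.Prime ∧ p ∣ Nat.card G ∧ ∀ P : Sylow p G, (P : Subgroup G).Normal := by
  exact main _ G le_rfl h

end Cfsg.Agent.S0553
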