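import Cfsg.Statements.S0554
import Cfsg.Agent.LibH2Subn
import Cfsg.Agent.LibH2Quad

set_option autoImplicit false
open Cfsg

namespace Cfsg.Agent.S0554

open Subgroup Cfsg MulAction CfsgLib.Cores CfsgLib.Coprime CfsgLib.H2Misc CfsgLib.H2Solv CfsgLib.H2Subn CfsgLib.H2Quad
open scoped Pointwise commutatorElement

universe uu

/-- moving an element of a normal subgroup to the `j`-th factor -/
theorem move {G : Type*} [Group G] (M : Subgroup G) [M.Normal] : ∀ (t : ℕ) (s : Fin t → G) (j : Fin t) (m : G),
    m ∈ M → ∃ m' ∈ M, (List.ofFn s).prod * m = (List.ofFn (Function.update s j (s j * m'))).prod := by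
  intro t
  induction t with
  | zero => intro s j; exact j.elim0
  | succ t ih =>
    intro s j m hm
    rw [List.ofFn_succ, List.prod_cons]
    refine Fin.cases ?_ (fun k => ?_) j
    · set R := (List.ofFn fun i => s (Fin.succ i)).prod with hR
      refine ⟨R * m * R⁻¹, Normal.conj_mem ‹_› m hm R, ?_⟩
      rw [List.ofFn_succ, List.prod_cons, Function.update_self]
      have : (fun i : Fin t => Function.update s 0 (s 0 * (R * m * R⁻¹)) i.succ) = fun i => s i.succ := by
        funext i
        rw [Function.update_of_ne (Fin.succ_ne_zero i)]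
      rw [this, ← hR]
      group
    · obtain ⟨m', hm', e⟩ := ih (fun i => s i.succ) k m hm
      refine ⟨m', hm', ?_⟩
      rw [List.ofFn_succ, List.prod_cons, Function.update_of_ne (Fin.succ_ne_zero k).symm, mul_assoc, e]
      congr 3
      funext i
      by_cases hik : i = k
      · rw [hik, Function.update_self, Function.update_self]
      · rw [Function.update_of_ne hik, Function.update_of_ne (fun h => hik (Fin.succ_injective _ h))]

theorem main : ∀ (n : ℕ) (G : Type uu) [Group G] [Finite G] [Group.IsSolvable G], Nat.card G ≤ n →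
    ∀ (t : ℕ) (p : Fin t → ℕ) (_ : ∀ i, (p i).Prime) (_ : Function.Injective p)
    (_ : ∀ q : ℕ, q.Prime → q ∣ Nat.card G → ∃ i, p i = q) (S : (i : Fin t) → Sylow (p i) G) (g : G),
    ∃ s : (i : Fin t) → G, (∀ i, s i ∈ (S i : Subgroup G)) ∧ g = (List.ofFn s).prod := by
  intro n
  induction n with
  | zero =>
    intro G _ _ _ h
    exact absurd h (by simpa using Nat.card_pos.ne')
  | succ n ih =>
    intro G _ _ _ hG t p hp hinj hall S g
    haveI hfact : ∀ i, Fact (p i).Prime := fun i => ⟨hp i⟩
    rcases subsingleton_or_nontrivial G with hs | hnt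
    · exact ⟨fun _ => 1, fun i => one_mem _, Subsingleton.elim _ _⟩
    · obtain ⟨M, -, hM⟩ := exists_isMin (⊤ : Subgroup G) top_ne_bot
      haveI := hM.1
      have hcard : Nat.card (G ⧸ M) ≤ n := by
        have h1 := card_eq_card_quotient_mul_card_subgroup M
        have h2 : Nat.card M ≠ 1 := fun h => hM.2.1 (card_eq_one.mp h)
        have h5 : 0 < Nat.card M := Nat.card_pos
        have h6 : 0 < Nat.card (G ⧸ M) := Nat.card_pos
        have : 2 ≤ Nat.card M := by omega
        nlinarith
      obtain ⟨q, hq, hMq⟩ : ∃ q : ℕ, q.Prime ∧ IsPGroup q M := by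
        obtain ⟨q, hq, -, -, h2⟩ := minimal_normal_elementary M hM.2.1 hM.2.2 inferInstance
        exact ⟨q, hq, h2⟩
      haveI : Fact q.Prime := ⟨hq⟩
      obtain ⟨j, hj⟩ : ∃ j, p j = q := by
        apply hall q hq
        have h1 : q ∣ Nat.card M := by
          obtain ⟨k, hk⟩ := IsPGroup.iff_card.mp hMq
          rcases Nat.eq_zero_or_pos k with h0 | h0
          · rw [h0, pow_zero] at hk
            exact absurd (card_eq_one.mp hk) hM.2.1
          · rw [hk]; exact dvd_pow_self q h0.ne'
        exact h1.trans (card_subgroup_dvd_card M)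
      subst hj
      have hMS : M ≤ (S j : Subgroup G) := normal_le_sylow inferInstance hMq (S j)
      obtain ⟨s', hs', e'⟩ := ih (G ⧸ M) hcard t p hp hinj
        (fun q hq hd => hall q hq (hd.trans (card_quotient_dvd_card M)))
        (fun i => (S i).mapSurjective (QuotientGroup.mk'_surjective M)) (QuotientGroup.mk' M g)
      choose s hs e using fun i => hs' i
      have h3 : QuotientGroup.mk' M g = QuotientGroup.mk' M (List.ofFn s).prod := by
        rw [e', map_list_prod, List.map_ofFn]
        congr 2
        funext i
        exact (e i).symm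
      have h4 : (List.ofFn s).prod⁻¹ * g ∈ M := QuotientGroup.eq.mp h3.symm
      obtain ⟨m', hm', e2⟩ := move M t s j _ h4
      refine ⟨Function.update s j (s j * m'), ?_, ?_⟩
      · intro i
        by_cases hij : i = j
        · subst hij
          rw [Function.update_self]
          exact mul_mem (hs i) (hMS hm')
        · rw [Function.update_of_ne hij]
          exact hs i
      · rw [← e2]; group


/-- Let G be a finite solvable group and let S assign to each of t distinct primes, including every prime divisor of the order of G, a Sylow subgroup of G. Then every element of G is a product s_0 s_1 ⋯ s_(t-1) with s_i in S i, the factors taken in the given order. -/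
theorem result {G : Type*} [Group G] [Finite G] [Group.IsSolvable G] (t : ℕ) (p : Fin t → ℕ) (hp : ∀ i, (p i).Prime) (hinj : Function.Injective p) (hall : ∀ q : ℕ, q.Prime → q ∣ Nat.card G → ∃ i, p i = q) (S : (i : Fin t) → Sylow (p i) G) : ∀ g : G, ∃ s : (i : Fin t) → G, (∀ i, s i ∈ (S i : Subgroup G)) ∧ g = (List.ofFn s).prod := by
  have := fun i => (⟨hp i⟩ : Fact (p i).Prime)
  exact main _ G le_rfl t p hp hinj hall S

end Cfsg.Agent.S0554
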