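import Cfsg.Statements.S0555
import Cfsg.Agent.LibH2Solv

set_option autoImplicit false
open Cfsg

namespace Cfsg.Agent.S0555

open Subgroup Cfsg MulAction CfsgLib.Cores CfsgLib.Coprime CfsgLib.H2Misc CfsgLib.H2Solv
open scoped Pointwise commutatorElement



/-- Let i ≥ 1. If in the derived series of a group the quotient of the i-th term by the (i+1)-st and the quotient of the (i+1)-st by the (i+2)-nd are both cyclic, then the (i+1)-st and (i+2)-nd terms coincide. -/
theorem result {G : Type*} [Group G] (i : ℕ) (hi : 1 ≤ i) (h₁ : IsCyclic (↥(derivedSeries G i) ⧸ (derivedSeries G (i + 1)).subgroupOf (derivedSeries G i))) (h₂ : IsCyclic (↥(derivedSeries G (i + 1)) ⧸ (derivedSeries G (i + 2)).subgroupOf (derivedSeries G (i + 1)))) : derivedSeries G (i + 1) = derivedSeries G (i + 2) := by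
  set P := derivedSeries G i with hP
  set Q := derivedSeries G (i+1) with hQ
  set R := derivedSeries G (i+2) with hR
  have eQ : Q = ⁅P, P⁆ := rfl
  have eR : R = ⁅Q, Q⁆ := rfl
  haveI nP : P.Normal := derivedSeries_normal G i
  haveI nQ : Q.Normal := derivedSeries_normal G (i+1)
  haveI nR : R.Normal := derivedSeries_normal G (i+2)
  have hRQ : R ≤ Q := derivedSeries_antitone G (Nat.le_succ _)
  have hQP : Q ≤ P := derivedSeries_antitone G (Nat.le_succ _)
  have hPc : P ≤ commutator G := by
    have := derivedSeries_antitone G hi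
    rwa [derivedSeries_one] at this
  obtain ⟨x, hx, hPx⟩ := exists_gen_of_isCyclic_quotient h₁
  obtain ⟨y, hy, hQy⟩ := exists_gen_of_isCyclic_quotient h₂
  have hf : Function.Surjective (QuotientGroup.mk' R) := QuotientGroup.mk'_surjective _
  have e1 : Q.map (QuotientGroup.mk' R) = zpowers (QuotientGroup.mk' R y) := by
    apply le_antisymm
    · refine (Subgroup.map_mono hQy).trans ?_
      rw [Subgroup.map_sup, QuotientGroup.map_mk'_self, bot_sup_eq, MonoidHom.map_zpowers]
    · rw [zpowers_le]; exact mem_map_of_mem _ hy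
  have e2 : (zpowers (QuotientGroup.mk' R y)).Normal := by
    rw [← e1]; exact nQ.map _ hf
  have e3 := commutator_le_centralizer_zpowers _ e2
  have hcomm : ∀ q ∈ Q, ∀ a ∈ P, Commute (QuotientGroup.mk' R q) (QuotientGroup.mk' R a) := by
    intro q hq a ha
    have h3 : QuotientGroup.mk' R a ∈ commutator (G ⧸ R) := by
      have := mem_map_of_mem (QuotientGroup.mk' R) (hPc ha)
      rw [map_commutator_eq, MonoidHom.range_eq_top.mpr hf] at this
      exact this
    exact mem_centralizer_iff.mp (e3 h3) _ (by rw [← e1]; exact mem_map_of_mem _ hq)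
  apply le_antisymm _ hRQ
  rw [eQ, commutator_le]
  intro a ha b hb
  obtain ⟨q, hq, m, rfl⟩ := exists_mul_of_sup_normal_zpowers (hPx ha)
  obtain ⟨q', hq', n, rfl⟩ := exists_mul_of_sup_normal_zpowers (hPx hb)
  rw [← QuotientGroup.eq_one_iff]
  have h5 : Commute (QuotientGroup.mk' R (q * x ^ m)) (QuotientGroup.mk' R (q' * x ^ n)) := by
    rw [map_mul, map_mul, map_zpow, map_zpow]
    have c1 : Commute (QuotientGroup.mk' R q) (QuotientGroup.mk' R x) := hcomm q hq x hx
    have c2 : Commute (QuotientGroup.mk' R q') (QuotientGroup.mk' R x) := hcomm q' hq' x hx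
    have c3 : Commute (QuotientGroup.mk' R q) (QuotientGroup.mk' R q') := hcomm q hq q' (hQP hq')
    exact Commute.mul_left (c3.mul_right (c1.zpow_right n))
      ((c2.symm.zpow_left m).mul_right ((Commute.refl _).zpow_zpow m n))
  exact (map_commutatorElement (QuotientGroup.mk' R) _ _).trans h5.commutator_eq

end Cfsg.Agent.S0555
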