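import Cfsg.Statements.S0557
import Cfsg.Agent.LibH2Gen2

set_option autoImplicit false
open Cfsg

namespace Cfsg.Agent.S0557

open Subgroup Cfsg MulAction CfsgLib.Cores CfsgLib.Coprime CfsgLib.H2Misc CfsgLib.H2Solv CfsgLib.H2Subn CfsgLib.H2Quad CfsgLib.H2Gen CfsgLib.H2Gen2
open scoped Pointwise commutatorElement
universe uu


theorem focal_mono {G : Type*} [Group G] {H K : Subgroup G} (h : H ≤ K) : H.focalSubgroup ≤ K.focalSubgroup := by
  rw [focalSubgroup_def, focalSubgroup_def]
  apply Subgroup.closure_mono
  rintro g ⟨h1, x, h2, u, rfl⟩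
  exact ⟨h h1, x, h h2, u, rfl⟩

theorem focal_map_le {G : Type*} [Group G] {N : Subgroup G} (K : Subgroup N) :
    (K.focalSubgroup).map N.subtype ≤ (K.map N.subtype).focalSubgroup := by
  rw [focalSubgroup_def, focalSubgroup_def, MonoidHom.map_closure]
  apply Subgroup.closure_mono
  rintro _ ⟨g, ⟨h1, x, h2, u, rfl⟩, rfl⟩
  exact ⟨mem_map_of_mem _ h1, x, mem_map_of_mem _ h2, u, rfl⟩

theorem iter_mono {G : Type*} [Group G] (n : ℕ) {H K : Subgroup G} (h : H ≤ K) :
    (fun K : Subgroup G => K.focalSubgroup)^[n] H ≤ (fun K : Subgroup G => K.focalSubgroup)^[n] K := by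
  induction n generalizing H K with
  | zero => exact h
  | succ n ih =>
    rw [Function.iterate_succ_apply, Function.iterate_succ_apply]
    exact ih (focal_mono h)

theorem iter_map {G : Type*} [Group G] {N : Subgroup G} (n : ℕ) (K : Subgroup N) :
    ((fun K : Subgroup N => K.focalSubgroup)^[n] K).map N.subtype ≤
      (fun K : Subgroup G => K.focalSubgroup)^[n] (K.map N.subtype) := by
  induction n generalizing K with
  | zero => exact le_rfl
  | succ n ih =>
    rw [Function.iterate_succ_apply, Function.iterate_succ_apply]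
    exact (ih _).trans (iter_mono n (focal_map_le K))

theorem main : ∀ (n : ℕ) (G : Type uu) [Group G] [Finite G] (H : Subgroup G)
    (_ : (Nat.card H).Coprime H.index) (_ : (fun K : Subgroup G => K.focalSubgroup)^[n] H = ⊥),
    ∃ N : Subgroup G, N.Normal ∧ IsComplement' N H := by
  intro n
  induction n with
  | zero =>
    intro G _ _ H hH h0
    have h0' : H = ⊥ := h0
    rw [h0']
    exact ⟨⊤, inferInstance, isComplement'_top_bot⟩
  | succ n ih =>
    intro G _ _ H hH h0
    rw [Function.iterate_succ_apply] at h0
    set F := H.focalSubgroup with hF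
    have hFH : F ≤ H := focalSubgroup_le H
    set V := H.transferFocal with hV
    have hfe : Nat.card (H ⧸ H.focalSubgroupOf) ∣ Nat.card H := card_quotient_dvd_card _
    have hVH : ∀ x : H, V x = (x : H ⧸ H.focalSubgroupOf) ^ H.index := fun x => transferFocal_eq_pow H x
    have hcop : (Nat.card (H ⧸ H.focalSubgroupOf)).Coprime H.index := Nat.Coprime.coprime_dvd_left hfe hH
    have hinf : V.ker ⊓ H = F := by
      apply le_antisymm
      · rintro x ⟨hx1, hx2⟩
        have h1 := hVH ⟨x, hx2⟩
        have h2 : V x = 1 := hx1
        have h3 : ((⟨x, hx2⟩ : H) : H ⧸ H.focalSubgroupOf) ^ H.index = 1 := h1.symm.trans h2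
        have h4 := orderOf_dvd_of_pow_eq_one h3
        have h5 := Nat.dvd_gcd (orderOf_dvd_natCard ((⟨x, hx2⟩ : H) : H ⧸ H.focalSubgroupOf)) h4
        rw [hcop.gcd_eq_one, Nat.dvd_one, orderOf_eq_one_iff, QuotientGroup.eq_one_iff] at h5
        exact mem_subgroupOf.mp h5
      · apply le_inf _ hFH
        intro x hx
        have h1 := hVH ⟨x, hFH hx⟩
        have h2 : ((⟨x, hFH hx⟩ : H) : H ⧸ H.focalSubgroupOf) = 1 :=
          (QuotientGroup.eq_one_iff _).mpr (mem_subgroupOf.mpr hx)
        rw [h2, one_pow] at h1
        exact h1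
    have hsup : V.ker ⊔ H = ⊤ := by
      rw [eq_top_iff]
      intro g _
      -- `V` restricted to `H` is surjective
      have hbij : Function.Surjective (fun y : H ⧸ H.focalSubgroupOf => y ^ H.index) := by
        exact (powCoprime hcop).surjective
      obtain ⟨y, hy⟩ := hbij (V g)
      obtain ⟨x, rfl⟩ := QuotientGroup.mk_surjective y
      have h1 : V x = V g := (hVH x).trans hy
      have h2 : g * (x : G)⁻¹ ∈ V.ker := by
        rw [MonoidHom.mem_ker, map_mul, map_inv, h1, mul_inv_cancel]
      have h3 : g = g * (x : G)⁻¹ * x := by group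
      rw [h3]
      exact mul_mem (mem_sup_left h2) (mem_sup_right x.2)
    have hrel : F.relIndex V.ker = H.index := by
      rw [← hinf, inf_relIndex_left, ← relIndex_sup_eq (T := H) (H := V.ker) le_normalizer_of_normal,
        sup_comm, hsup, relIndex_top_right]
    have hFN : F ≤ V.ker := by rw [← hinf]; exact inf_le_left
    have hcF : (Nat.card (F.subgroupOf V.ker)).Coprime (F.subgroupOf V.ker).index := by
      have e1 : Nat.card (F.subgroupOf V.ker) = Nat.card F := Nat.card_congr (subgroupOfEquivOfLe hFN).toEquiv
      have e2 : (F.subgroupOf V.ker).index = H.index := hrel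
      rw [e1, e2]
      exact Nat.Coprime.coprime_dvd_left (card_dvd_of_le hFH) hH
    obtain ⟨M, hM1, hM2⟩ := ih V.ker (F.subgroupOf V.ker) hcF (by
      have h1 := iter_map (N := V.ker) n (F.subgroupOf V.ker)
      rw [map_subgroupOf_eq_of_le hFN, h0, le_bot_iff, map_eq_bot_iff_of_injective _ V.ker.subtype_injective] at h1
      exact h1)
    have hMi : M.index = Nat.card (F.subgroupOf V.ker) := hM2.symm.index_eq_card
    have hMc : Nat.card M = (F.subgroupOf V.ker).index := hM2.index_eq_card.symm
    haveI hMch : M.Characteristic := by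
      apply characteristic_of_coprime
      rw [hMi, hMc]
      exact hcF.symm
    refine ⟨M.map V.ker.subtype, inferInstance, ?_⟩
    apply isComplement'_of_coprime
    · rw [card_map_of_injective V.ker.subtype_injective, hMc]
      have e2 : (F.subgroupOf V.ker).index = H.index := hrel
      rw [e2, mul_comm]
      exact H.card_mul_index
    · rw [card_map_of_injective V.ker.subtype_injective, hMc]
      have e2 : (F.subgroupOf V.ker).index = H.index := hrel
      rw [e2]
      exact hH.symm


/-- Let H be a subgroup of a finite group G with order coprime to its index. If iterating the focal-subgroup construction starting from H reaches the trivial subgroup after finitely many steps, then H has a normal complement in G. -/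
theorem result {G : Type*} [Group G] [Finite G] (H : Subgroup G) (hHall : (Nat.card H).Coprime H.index) (n : ℕ) (hfoc : (fun K : Subgroup G => Subgroup.focalSubgroup K)^[n] H = ⊥) : ∃ N : Subgroup G, N.Normal ∧ Subgroup.IsComplement' N H := by
  exact main n G H hHall hfoc

end Cfsg.Agent.S0557
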