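import Cfsg.Statements.S0558
import Cfsg.Agent.LibTransNil

set_option autoImplicit false
open Cfsg

namespace Cfsg.Agent.S0558

open Subgroup CfsgLib.SolvBasic CfsgLib.SolvCoprime CfsgLib.TransNil CfsgLib.TransPC CfsgLib.TransFus CfsgLib.TransAb
open scoped Pointwise


/-- Let H be a subgroup of a finite group G that is not a Sylow subgroup of G for any prime, and suppose that for every prime p dividing the order of H and every Sylow p-subgroup P of H the normalizer of P in G is exactly H. Then some normal subgroup of G is a complement to H. -/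
theorem result {G : Type*} [Group G] [Finite G] (H : Subgroup G) (hnot : ∀ p : ℕ, p.Prime → ∀ P : Sylow p G, (P : Subgroup G) ≠ H) (hnorm : ∀ p : ℕ, p.Prime → p ∣ Nat.card H → ∀ P : Sylow p H, Subgroup.normalizer (((P : Subgroup H).map H.subtype : Subgroup G) : Set G) = H) : ∃ N : Subgroup G, N.Normal ∧ Subgroup.IsComplement' N H := by
  classical
  have hN : ∀ p : ℕ, p.Prime → p ∣ Nat.card H → ∀ Q : Subgroup G, IsSylowIn p Q H → normalizer (Q : Set G) = H := by
    intro p hp hpd Q hQ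
    haveI : Fact p.Prime := ⟨hp⟩
    obtain ⟨S, hS⟩ := hQ.exists_sylow
    rw [← hS]
    exact hnorm p hp hpd S
  have hTop : ∀ p : ℕ, p.Prime → p ∣ Nat.card H → ∀ Q : Subgroup G, IsSylowIn p Q H → IsSylowIn p Q ⊤ := by
    intro p hp hpd Q hQ
    haveI : Fact p.Prime := ⟨hp⟩
    apply isSylowIn_of_isSylowIn_normalizer
    rw [top_inf_eq, hN p hp hpd Q hQ]
    exact hQ
  have hnil : Group.IsNilpotent H := by
    have h0 := (Group.isNilpotent_of_finite_tfae (G := H)).out 0 3
    rw [h0]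
    intro p hp S
    by_cases hpd : p ∣ Nat.card H
    · have h1 := IsSylowIn.ofSylow S
      have h2 := hN p hp.out hpd _ h1
      have h3 : (((S : Subgroup H).map H.subtype).subgroupOf H).Normal :=
        (normal_subgroupOf_iff_le_normalizer h1.le).mpr h2.ge
      rwa [Subgroup.subgroupOf, Subgroup.comap_map_eq_self_of_injective H.subtype_injective] at h3
    · have h1 : (S : Subgroup H) = ⊥ := by
        rw [← card_eq_one]
        obtain ⟨k, hk⟩ := IsPGroup.iff_card.mp S.isPGroup'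
        rcases Nat.eq_zero_or_pos k with h2 | h2
        · rw [hk, h2, pow_zero]
        · exfalso
          apply hpd
          exact (dvd_pow_self p h2.ne').trans (hk ▸ card_subgroup_dvd_card (S : Subgroup H))
      rw [h1]; infer_instance
  have hHall : (Nat.card H).Coprime H.index := by
    rw [Nat.coprime_iff_gcd_eq_one]
    by_contra hne
    obtain ⟨p, hp, hd⟩ := Nat.exists_prime_and_dvd hne
    haveI : Fact p.Prime := ⟨hp⟩
    have hpd := hd.trans (Nat.gcd_dvd_left _ _)
    obtain ⟨Q, hQ⟩ := IsSylowIn.exists_isSylowIn (p := p) H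
    have h1 := (hTop p hp hpd Q hQ).not_dvd
    apply h1
    rw [relIndex_top_right, ← Subgroup.relIndex_mul_index hQ.le]
    exact (hd.trans (Nat.gcd_dvd_right _ _)).mul_left _
  apply hall_complement_of_npc H hHall
  intro p hp hpd
  haveI : Fact p.Prime := ⟨hp⟩
  obtain ⟨Q, hQ⟩ := IsSylowIn.exists_isSylowIn (p := p) H
  have hQt := hTop p hp hpd Q hQ
  have hQi : ¬ p ∣ Q.index := by
    have := hQt.not_dvd
    rwa [relIndex_top_right] at this
  let P : Sylow p G := hQ.isPGroup.toSylow hQi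
  -- another prime
  obtain ⟨q, hq, hqd, hqp⟩ : ∃ q : ℕ, q.Prime ∧ q ∣ Nat.card H ∧ q ≠ p := by
    by_contra hcon
    push Not at hcon
    have h1 : IsPGroup p H := by
      rw [IsPGroup.iff_card]
      exact ⟨_, Nat.eq_prime_pow_of_unique_prime_dvd Nat.card_pos.ne' (fun {d} hd hdd => hcon d hd hdd)⟩
    have h2 : Q = H := hQ.eq_of_le h1 le_rfl hQ.le
    exact hnot p hp P h2
  haveI : Fact q.Prime := ⟨hq⟩
  obtain ⟨R, hR⟩ := IsSylowIn.exists_isSylowIn (p := q) H
  have hRt := hTop q hq hqd R hR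
  apply exists_isNPC_of_controls_self P
  intro x g hx hgx
  have hxQ : x ∈ Q := hx
  have hgxQ : g * x * g⁻¹ ∈ Q := hgx
  -- `R` centralizes `Q`
  have hcen : ∀ z ∈ Q, ∀ w ∈ R, z * w = w * z := by
    intro z hz w hw
    apply commute_of_coprime_mem hnil (hQ.le hz) (hR.le hw)
    obtain ⟨i, hi⟩ := IsPGroup.iff_orderOf.mp hQ.isPGroup ⟨z, hz⟩
    obtain ⟨j, hj⟩ := IsPGroup.iff_orderOf.mp hR.isPGroup ⟨w, hw⟩
    rw [Subgroup.orderOf_mk] at hi hj
    rw [hi, hj]
    exact Nat.Coprime.pow _ _ ((Nat.coprime_primes hp hq).mpr hqp.symm)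
  set C := centralizer ({g * x * g⁻¹} : Set G) with hC
  have hRC : R ≤ C := by
    intro w hw
    rw [hC, mem_centralizer_singleton_iff]
    exact (hcen _ hgxQ w hw).symm
  have hRC' : MulAut.conj g • R ≤ C := by
    intro w hw
    rw [mem_conj_smul] at hw
    rw [hC, mem_centralizer_singleton_iff]
    have h1 := hcen x hxQ _ hw
    calc w * (g * x * g⁻¹) = g * ((g⁻¹ * w * g) * x) * g⁻¹ := by group
      _ = g * (x * (g⁻¹ * w * g)) * g⁻¹ := by rw [h1]
      _ = g * x * g⁻¹ * w := by group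
  have h1 : IsSylowIn q R C := hRt.mono hRC le_top
  have h2 : IsSylowIn q (MulAut.conj g • R) C := by
    have h3 := hRt.conj g
    have h4 : MulAut.conj g • (⊤ : Subgroup G) = ⊤ := by
      rw [eq_top_iff]
      intro w _
      rw [mem_conj_smul]; exact mem_top _
    rw [h4] at h3
    exact h3.mono hRC' le_top
  obtain ⟨c, hc, hcc⟩ := h2.exists_conj h1
  have hkH : c * g ∈ H := by
    rw [← hN q hq hqd R hR, mem_normalizer_iff_conj_smul, conj_smul_mul]
    exact hcc
  have hkk : (c * g) * x * (c * g)⁻¹ = g * x * g⁻¹ := by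
    rw [hC, mem_centralizer_singleton_iff] at hc
    calc (c * g) * x * (c * g)⁻¹ = c * (g * x * g⁻¹) * c⁻¹ := by group
      _ = (g * x * g⁻¹) * c * c⁻¹ := by rw [hc]
      _ = _ := by group
  generalize c * g = k at hkH hkk
  obtain ⟨a, ha, b, hb, hab, ⟨j, hao⟩, hbo⟩ := exists_p_p'_decomp p k
  have haH : a ∈ H := (Subgroup.zpowers_le.mpr hkH) ha
  have hbH : b ∈ H := (Subgroup.zpowers_le.mpr hkH) hb
  obtain ⟨i, hxo⟩ := IsPGroup.iff_orderOf.mp hQ.isPGroup ⟨x, hxQ⟩
  rw [Subgroup.orderOf_mk] at hxo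
  have hcomm : x * b = b * x := commute_of_coprime_mem hnil (hQ.le hxQ) hbH (by
    rw [hxo]; exact Nat.Coprime.pow_left i hbo.symm)
  refine ⟨a, ?_, ?_⟩
  · apply mem_sylow_of_mem_normalizer P _ ⟨j, hao⟩
    have : normalizer ((P : Subgroup G) : Set G) = H := hN p hp hpd Q hQ
    rw [this]; exact haH
  · rw [← hkk, hab]
    calc a * x * a⁻¹ = a * (x * b * b⁻¹) * a⁻¹ := by group
      _ = a * (b * x * b⁻¹) * a⁻¹ := by rw [hcomm]
      _ = _ := by group

end Cfsg.Agent.S0558
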