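import Cfsg.Statements.S0560
import Cfsg.Agent.LibH2Solv

set_option autoImplicit false
open Pointwise
open Cfsg

namespace Cfsg.Agent.S0560

open Subgroup Cfsg MulAction CfsgLib.Cores CfsgLib.Coprime CfsgLib.H2Misc CfsgLib.H2Solv
open scoped Pointwise commutatorElement



/-- Let the finite group G be the product HK of two subgroups and p a prime. Then there are Sylow p-subgroups P of H and Q of K and a Sylow p-subgroup R of G whose underlying set is the product set of P and Q. -/
theorem result {G : Type*} [Group G] [Finite G] (H K : Subgroup G) (hHK : ∀ g : G, ∃ h ∈ H, ∃ k ∈ K, g = h * k) (p : ℕ) [Fact p.Prime] : ∃ (P : Sylow p H) (Q : Sylow p K) (R : Sylow p G), ((R : Subgroup G) : Set G) = (((P : Subgroup H).map H.subtype : Subgroup G) : Set G) * (((Q : Subgroup K).map K.subtype : Subgroup G) : Set G) := by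
  obtain ⟨P⟩ := (inferInstance : Nonempty (Sylow p H))
  obtain ⟨Q⟩ := (inferInstance : Nonempty (Sylow p K))
  have hP1 : IsPGroup p ((P : Subgroup H).map H.subtype) := P.isPGroup'.map _
  have hQ1 : IsPGroup p ((Q : Subgroup K).map K.subtype) := Q.isPGroup'.map _
  obtain ⟨R₁, hR₁⟩ := hP1.exists_le_sylow
  obtain ⟨R₂, hR₂⟩ := hQ1.exists_le_sylow
  obtain ⟨g, hg⟩ := MulAction.exists_smul_eq G R₁ R₂
  obtain ⟨k, hk, h, hh, e⟩ : ∃ k ∈ K, ∃ h ∈ H, g = k * h := by
    obtain ⟨h, hh, k, hk, e⟩ := hHK g⁻¹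
    exact ⟨k⁻¹, inv_mem hk, h⁻¹, inv_mem hh, by rw [← inv_inv g, e, mul_inv_rev]⟩
  -- `h • R₁ = k⁻¹ • R₂`
  let R := h • R₁
  have hR : R = k⁻¹ • R₂ := by
    rw [← hg, e, mul_smul, inv_smul_smul]
  let P' : Sylow p H := (⟨h, hh⟩ : H) • P
  let Q' : Sylow p K := (⟨k⁻¹, inv_mem hk⟩ : K) • Q
  have hP'R : ((P' : Subgroup H).map H.subtype) ≤ (R : Subgroup G) := by
    have h1 : ((P' : Subgroup H).map H.subtype) = MulAut.conj h • ((P : Subgroup H).map H.subtype) :=
      map_subtype_conj_smul (⟨h, hh⟩ : H) (P : Subgroup H)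
    rw [h1]
    exact pointwise_smul_le_pointwise_smul_iff.mpr hR₁
  have hQ'R : ((Q' : Subgroup K).map K.subtype) ≤ (R : Subgroup G) := by
    have h1 : ((Q' : Subgroup K).map K.subtype) = MulAut.conj k⁻¹ • ((Q : Subgroup K).map K.subtype) :=
      map_subtype_conj_smul (⟨k⁻¹, inv_mem hk⟩ : K) (Q : Subgroup K)
    rw [h1, hR]
    exact pointwise_smul_le_pointwise_smul_iff.mpr hR₂
  refine ⟨P', Q', R, ?_⟩
  have hsub : (((P' : Subgroup H).map H.subtype : Subgroup G) : Set G) *
      (((Q' : Subgroup K).map K.subtype : Subgroup G) : Set G) ⊆ ((R : Subgroup G) : Set G) := by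
    rintro _ ⟨a, ha, b, hb, rfl⟩
    exact mul_mem (hP'R ha) (hQ'R hb)
  symm
  apply Set.eq_of_subset_of_ncard_le hsub
  have h1 := card_mul_set ((P' : Subgroup H).map H.subtype) ((Q' : Subgroup K).map K.subtype)
  have h2 := card_of_factorization hHK
  have cP : Nat.card ↥((P' : Subgroup H).map H.subtype) = p ^ (Nat.card H).factorization p := by
    rw [card_map_of_injective H.subtype_injective]
    exact P'.card_eq_multiplicity
  have cQ : Nat.card ↥((Q' : Subgroup K).map K.subtype) = p ^ (Nat.card K).factorization p := by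
    rw [card_map_of_injective K.subtype_injective]
    exact Q'.card_eq_multiplicity
  have cR : Nat.card (R : Subgroup G) = p ^ (Nat.card G).factorization p := R.card_eq_multiplicity
  have hI : Nat.card ↥((P' : Subgroup H).map H.subtype ⊓ (Q' : Subgroup K).map K.subtype) ≤
      p ^ (Nat.card ↥(H ⊓ K)).factorization p := by
    have h3 : IsPGroup p ↥((P' : Subgroup H).map H.subtype ⊓ (Q' : Subgroup K).map K.subtype) :=
      (P'.isPGroup'.map H.subtype).to_le inf_le_left
    obtain ⟨m, hm⟩ := IsPGroup.iff_card.mp h3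
    rw [hm]
    apply Nat.pow_le_pow_right (Fact.out : p.Prime).pos
    rw [← (Fact.out : p.Prime).pow_dvd_iff_le_factorization Nat.card_pos.ne', ← hm]
    exact card_dvd_of_le (inf_le_inf (map_subtype_le _) (map_subtype_le _))
  have h4 : (Nat.card G).factorization p + (Nat.card ↥(H ⊓ K)).factorization p =
      (Nat.card H).factorization p + (Nat.card K).factorization p := by
    have := congrArg (fun n => n.factorization p) h2
    rwa [Nat.factorization_mul Nat.card_pos.ne' Nat.card_pos.ne',
      Nat.factorization_mul Nat.card_pos.ne' Nat.card_pos.ne'] at this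
  have h5 : p ^ (Nat.card G).factorization p * p ^ (Nat.card ↥(H ⊓ K)).factorization p =
      Nat.card ↥((P' : Subgroup H).map H.subtype) * Nat.card ↥((Q' : Subgroup K).map K.subtype) := by
    rw [cP, cQ, ← pow_add, ← pow_add, h4]
  rw [← h1] at h5
  have h6 : Nat.card ↥(R : Subgroup G) ≤ Nat.card ↥((((P' : Subgroup H).map H.subtype : Subgroup G) : Set G) *
      (((Q' : Subgroup K).map K.subtype : Subgroup G) : Set G)) := by
    rw [cR]
    have h7 := Nat.mul_le_mul_left (Nat.card ↥((((P' : Subgroup H).map H.subtype : Subgroup G) : Set G) *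
      (((Q' : Subgroup K).map K.subtype : Subgroup G) : Set G))) hI
    rw [← h5] at h7
    exact Nat.le_of_mul_le_mul_right h7 (Nat.pow_pos (Fact.out : p.Prime).pos)
  exact h6

end Cfsg.Agent.S0560
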