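import Cfsg.Statements.S0561
import Cfsg.Agent.LibSolvHall
import Cfsg.Agent.LibH2Solv

set_option autoImplicit false
open Pointwise
open Cfsg

namespace Cfsg.Agent.S0561

open Subgroup CfsgLib.SolvBasic CfsgLib.SolvHall
open scoped Pointwise


/-- Let the finite solvable group G be the product HK of subgroups, and let A be normal in H and B normal in K, where A and B are Hall subgroups of G (order coprime to index). Then for all x, y the product set of xAx⁻¹ and yBy⁻¹ is a subgroup of G. -/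
theorem result {G : Type*} [Group G] [Finite G] [Group.IsSolvable G] (H K A B : Subgroup G) (hHK : ∀ g : G, ∃ h ∈ H, ∃ k ∈ K, g = h * k) (hA : A ≤ H) (hAn : (A.subgroupOf H).Normal) (hB : B ≤ K) (hBn : (B.subgroupOf K).Normal) (hAh : (Nat.card A).Coprime A.index) (hBh : (Nat.card B).Coprime B.index) (x y : G) : ∃ S : Subgroup G, (S : Set G) = ((MulAut.conj x • A : Subgroup G) : Set G) * ((MulAut.conj y • B : Subgroup G) : Set G) := by
  classical
  have hAnorm : ∀ h ∈ H, MulAut.conj h • A = A := fun h hh =>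
    mem_normalizer_iff_conj_smul.mp ((normal_subgroupOf_iff_le_normalizer hA).mp hAn hh)
  have hBnorm : ∀ h ∈ K, MulAut.conj h • B = B := fun h hh =>
    mem_normalizer_iff_conj_smul.mp ((normal_subgroupOf_iff_le_normalizer hB).mp hBn hh)
  have key : ∀ x y : G, ∃ g : G, MulAut.conj x • A = MulAut.conj g • A ∧ MulAut.conj y • B = MulAut.conj g • B := by
    intro x y
    obtain ⟨h, hh, k, hk, e⟩ := hHK (x⁻¹ * y)
    refine ⟨x * h, ?_, ?_⟩
    · rw [map_mul, mul_smul, hAnorm h hh]
    · have : x * h = y * k⁻¹ := by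
        have : x * (x⁻¹ * y) = x * (h * k) := by rw [e]
        rw [mul_inv_cancel_left] at this
        rw [this]; group
      rw [this, map_mul, mul_smul, hBnorm _ (inv_mem hk)]
  -- the Hall subgroup for the union
  set m := Nat.lcm (Nat.card A) (Nat.card B) with hm
  have hmG : m ∣ Nat.card G := Nat.lcm_dvd (card_subgroup_dvd_card A) (card_subgroup_dvd_card B)
  obtain ⟨n, hn⟩ := hmG
  have hm0 : 0 < m := Nat.pos_of_ne_zero fun h => by
    rw [h, zero_mul] at hn
    exact Nat.card_pos.ne' hn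
  have hidx : ∀ D : Subgroup G, Nat.card D ∣ m → n ∣ D.index := by
    rintro D ⟨e, he⟩
    have h1 := card_mul_index D
    rw [hn, he, mul_assoc] at h1
    have h2 := Nat.eq_of_mul_eq_mul_left Nat.card_pos h1
    rw [h2]; exact dvd_mul_left _ _
  have hco : m.Coprime n := by
    rw [Nat.coprime_iff_gcd_eq_one]
    by_contra hne
    obtain ⟨p, hp, hd⟩ := Nat.exists_prime_and_dvd hne
    have h1 : p ∣ Nat.card A * Nat.card B := (hd.trans (Nat.gcd_dvd_left _ _)).trans (Nat.lcm_dvd_mul _ _)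
    have h2 : p ∣ n := hd.trans (Nat.gcd_dvd_right _ _)
    rcases hp.dvd_mul.mp h1 with h3 | h3
    · have := Nat.dvd_gcd h3 (h2.trans (hidx A (Nat.dvd_lcm_left _ _)))
      rw [hAh] at this
      exact hp.not_dvd_one this
    · have := Nat.dvd_gcd h3 (h2.trans (hidx B (Nat.dvd_lcm_right _ _)))
      rw [hBh] at this
      exact hp.not_dvd_one this
  obtain ⟨C, hC⟩ := CfsgLib.SolvHall.hall_exists _ G rfl m n hn hco
  obtain ⟨g₁, hg₁⟩ := CfsgLib.SolvHall.hall_dominance _ G rfl m n hn hco A C (Nat.dvd_lcm_left _ _) hC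
  obtain ⟨g₂, hg₂⟩ := CfsgLib.SolvHall.hall_dominance _ G rfl m n hn hco B C (Nat.dvd_lcm_right _ _) hC
  set A' := MulAut.conj g₁ • A with hA'
  set B' := MulAut.conj g₂ • B with hB'
  have hA'c : Nat.card A' = Nat.card A := card_conj_smul _ _
  have hB'c : Nat.card B' = Nat.card B := card_conj_smul _ _
  have hset : ((A' : Set G) * (B' : Set G)) = (C : Set G) := by
    apply Set.eq_of_subset_of_ncard_le
    · rintro _ ⟨a, ha, b, hb, rfl⟩
      exact C.mul_mem (hg₁ ha) (hg₂ hb)
    · have h1 := CfsgLib.H2Misc.card_mul_set A' B'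
      have h2 : Nat.card ↥(A' ⊓ B') ∣ Nat.gcd (Nat.card A) (Nat.card B) := by
        rw [← hA'c, ← hB'c]
        exact Nat.dvd_gcd (card_dvd_of_le inf_le_left) (card_dvd_of_le inf_le_right)
      have h3 : Nat.card ↥(A' ⊓ B') ≤ Nat.gcd (Nat.card A) (Nat.card B) :=
        Nat.le_of_dvd (Nat.gcd_pos_of_pos_left _ Nat.card_pos) h2
      have h4 := Nat.gcd_mul_lcm (Nat.card A) (Nat.card B)
      rw [← hm] at h4
      have h5 : (C : Set G).ncard = m := hC
      rw [h5]
      have h6 : Nat.card ((A' : Set G) * (B' : Set G) : Set G) = ((A' : Set G) * (B' : Set G)).ncard := rfl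
      rw [h6, hA'c, hB'c, ← h4] at h1
      by_contra hlt
      push Not at hlt
      have h7 : 0 < Nat.gcd (Nat.card A) (Nat.card B) := Nat.gcd_pos_of_pos_left _ Nat.card_pos
      have h8 : ((A' : Set G) * (B' : Set G)).ncard * Nat.card ↥(A' ⊓ B') < m * Nat.gcd (Nat.card A) (Nat.card B) := by
        apply Nat.mul_lt_mul_of_lt_of_le hlt h3 h7
      rw [h1, mul_comm] at h8
      exact lt_irrefl _ h8
    · exact Set.toFinite _
  obtain ⟨g, hg1, hg2⟩ := key x y
  obtain ⟨g', hg'1, hg'2⟩ := key g₁ g₂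
  have e1 : MulAut.conj x • A = MulAut.conj (g * g'⁻¹) • A' := by
    rw [hg1, hA', hg'1, ← mul_smul, ← map_mul, inv_mul_cancel_right]
  have e2 : MulAut.conj y • B = MulAut.conj (g * g'⁻¹) • B' := by
    rw [hg2, hB', hg'2, ← mul_smul, ← map_mul, inv_mul_cancel_right]
  refine ⟨MulAut.conj (g * g'⁻¹) • C, ?_⟩
  rw [e1, e2]
  generalize g * g'⁻¹ = u
  ext z
  rw [SetLike.mem_coe, mem_conj_smul, ← SetLike.mem_coe, ← hset]
  constructor
  · rintro ⟨a, ha, b, hb, e⟩
    refine ⟨u * a * u⁻¹, ?_, u * b * u⁻¹, ?_, ?_⟩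
    · rw [SetLike.mem_coe, mem_conj_smul]
      have : u⁻¹ * (u * a * u⁻¹) * u = a := by group
      rw [this]; exact ha
    · rw [SetLike.mem_coe, mem_conj_smul]
      have : u⁻¹ * (u * b * u⁻¹) * u = b := by group
      rw [this]; exact hb
    · have e' : a * b = u⁻¹ * z * u := e
      calc (u * a * u⁻¹) * (u * b * u⁻¹) = u * (a * b) * u⁻¹ := by group
        _ = z := by rw [e']; group
  · rintro ⟨a, ha, b, hb, e⟩
    rw [SetLike.mem_coe, mem_conj_smul] at ha hb
    refine ⟨_, ha, _, hb, ?_⟩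
    have e' : a * b = z := e
    show u⁻¹ * a * u * (u⁻¹ * b * u) = u⁻¹ * z * u
    rw [← e']; group

end Cfsg.Agent.S0561
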