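import Cfsg.Statements.S0562
import Cfsg.Agent.LibH2Solv

set_option autoImplicit false
open Cfsg

namespace Cfsg.Agent.S0562

open Subgroup Cfsg MulAction CfsgLib.Cores CfsgLib.Coprime CfsgLib.H2Misc CfsgLib.H2Solv
open scoped Pointwise commutatorElement



/-- Let the finite group G be the product HK of subgroups, A normal in H, B normal in K, and L the normalizer of the subgroup generated by A and B. Then every element of L is a product of an element of L ∩ H and an element of L ∩ K. -/
theorem result {G : Type*} [Group G] [Finite G] (H K A B : Subgroup G) (hHK : ∀ g : G, ∃ h ∈ H, ∃ k ∈ K, g = h * k) (hA : A ≤ H) (hAn : (A.subgroupOf H).Normal) (hB : B ≤ K) (hBn : (B.subgroupOf K).Normal) : ∀ g ∈ Subgroup.normalizer ((A ⊔ B : Subgroup G) : Set G), ∃ h ∈ Subgroup.normalizer ((A ⊔ B : Subgroup G) : Set G) ⊓ H, ∃ k ∈ Subgroup.normalizer ((A ⊔ B : Subgroup G) : Set G) ⊓ K, g = h * k := by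
  intro g hg
  obtain ⟨h, hh, k, hk, e⟩ := hHK g
  have hg' := conj_smul_eq_of_mem_normalizer hg
  rw [e, map_mul, mul_smul] at hg'
  have h1 : MulAut.conj k • (A ⊔ B) = MulAut.conj h⁻¹ • (A ⊔ B) := by
    rw [map_inv, eq_inv_smul_iff]; exact hg'
  have hAh : MulAut.conj h⁻¹ • A = A := by
    apply conj_smul_eq_of_mem_normalizer
    exact (normal_subgroupOf_iff_le_normalizer hA).mp hAn (inv_mem hh)
  have hBk : MulAut.conj k • B = B := by
    apply conj_smul_eq_of_mem_normalizer
    exact (normal_subgroupOf_iff_le_normalizer hB).mp hBn hk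
  have h2 : A ⊔ B ≤ MulAut.conj k • (A ⊔ B) := by
    apply sup_le
    · rw [h1]
      nth_rewrite 1 [← hAh]
      exact pointwise_smul_le_pointwise_smul_iff.mpr le_sup_left
    · nth_rewrite 1 [← hBk]
      exact pointwise_smul_le_pointwise_smul_iff.mpr le_sup_right
  have h3 : A ⊔ B = MulAut.conj k • (A ⊔ B) :=
    eq_of_le_of_card_ge h2 (by rw [card_conj_smul])
  have hkL : k ∈ normalizer ((A ⊔ B : Subgroup G) : Set G) := mem_normalizer_of_conj_smul_eq h3.symm
  have hhL : h ∈ normalizer ((A ⊔ B : Subgroup G) : Set G) := by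
    have : h = g * k⁻¹ := by rw [e]; group
    rw [this]
    exact mul_mem hg (inv_mem hkL)
  exact ⟨h, mem_inf.mpr ⟨hhL, hh⟩, k, mem_inf.mpr ⟨hkL, hk⟩, e⟩

end Cfsg.Agent.S0562
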