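import Cfsg.Statements.S0566
import Cfsg.Agent.LibH2Keg

set_option autoImplicit false
open Pointwise
open Cfsg

namespace Cfsg.Agent.S0566

open Subgroup Cfsg
open scoped Pointwise


/-- Let A and B be nontrivial subgroups of a finite group G such that for every x the product set of A and xBx⁻¹ is a proper subgroup of G. Then there is a proper normal subgroup of G containing A or containing B. -/
theorem result {G : Type*} [Group G] [Finite G] (A B : Subgroup G) (hA : A ≠ ⊥) (hB : B ≠ ⊥) (h : ∀ x : G, ∃ S : Subgroup G, S ≠ ⊤ ∧ (S : Set G) = (A : Set G) * ((MulAut.conj x • B : Subgroup G) : Set G)) : ∃ N : Subgroup G, N.Normal ∧ N ≠ ⊤ ∧ (A ≤ N ∨ B ≤ N) := by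
  exact CfsgLib.H2Keg.kegel A B h

end Cfsg.Agent.S0566
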