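import Cfsg.Statements.S0567
import Cfsg.Agent.LibH2Solv

set_option autoImplicit false
open Cfsg

namespace Cfsg.Agent.S0567

open Subgroup Cfsg MulAction CfsgLib.Cores CfsgLib.Coprime CfsgLib.H2Misc CfsgLib.H2Solv
open scoped Pointwise commutatorElement



/-- A subgroup H of a group G is subnormal exactly when, for some m, the subgroup obtained from G by taking the commutator with H m times in succession is contained in H. -/
theorem result {G : Type*} [Group G] (H : Subgroup G) : H.IsSubnormal ↔ ∃ m : ℕ, (fun K : Subgroup G => ⁅K, H⁆)^[m] ⊤ ≤ H := by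
  constructor
  · intro h
    induction h with
    | top => exact ⟨0, le_top⟩
    | step H K hle hK hN ih =>
      obtain ⟨m, hm⟩ := ih
      refine ⟨m + 1, ?_⟩
      have hmono : ∀ n : ℕ, (fun L : Subgroup G => ⁅L, H⁆)^[n] ⊤ ≤ (fun L : Subgroup G => ⁅L, K⁆)^[n] ⊤ := by
        intro n
        induction n with
        | zero => exact le_rfl
        | succ n ihn =>
          rw [Function.iterate_succ_apply', Function.iterate_succ_apply']
          exact commutator_mono ihn hle
      rw [Function.iterate_succ_apply']
      have h1 := (hmono m).trans hm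
      refine (commutator_mono h1 le_rfl).trans ?_
      rw [commutator_comm, ← le_normalizer_iff_commutator_le_left]
      exact (normal_subgroupOf_iff_le_normalizer hle).mp hN
  · rintro ⟨m, hm⟩
    have key : ∀ n : ℕ, ∀ L : Subgroup G, H ≤ normalizer (L : Set G) → (L ⊔ H).IsSubnormal →
        (fun K : Subgroup G => ⁅K, H⁆)^[n] L ≤ H → H.IsSubnormal := by
      intro n
      induction n with
      | zero =>
        intro L h1 h2 h3
        have h3' : L ≤ H := h3
        rwa [sup_eq_right.mpr h3'] at h2
      | succ n ih =>
        intro L h1 h2 h3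
        rw [Function.iterate_succ_apply] at h3
        have hLH : ⁅L, H⁆ ≤ L := by
          exact le_normalizer_iff_commutator_le_left.mp h1
        have hN : L ⊔ H ≤ normalizer ((⁅L, H⁆ ⊔ H : Subgroup G) : Set G) := by
          apply sup_le
          · apply le_normalizer_of_conj
            intro a ha x hx
            have hx' := hx
            rw [← SetLike.mem_coe, coe_mul_of_right_le_normalizer_left ⁅L, H⁆ H (normalizer_commutator_ge_right L H)] at hx'
            obtain ⟨c, hc, h, hh, rfl⟩ := hx'
            have e : a * (c * h) * a⁻¹ = (a * c * a⁻¹) * (⁅a, h⁆ * h) := by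
              rw [commutatorElement_def]; group
            show a * (c * h) * a⁻¹ ∈ _
            rw [e]
            refine mul_mem (mem_sup_left ?_) (mul_mem (mem_sup_left (commutator_mem_commutator ha hh)) (mem_sup_right hh))
            exact (mem_normalizer_iff.mp (normalizer_commutator_ge_left L H ha) c).mp hc
          · exact le_trans le_sup_right le_normalizer
        have h4 : ⁅L, H⁆ ⊔ H ≤ L ⊔ H := sup_le_sup_right hLH H
        have h5 : (⁅L, H⁆ ⊔ H).IsSubnormal :=
          IsSubnormal.step _ _ h4 h2 ((normal_subgroupOf_iff_le_normalizer h4).mpr hN)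
        exact ih ⁅L, H⁆ (normalizer_commutator_ge_right L H) h5 h3
    exact key m ⊤ (by rw [normalizer_eq_top]; exact le_top) (by rw [top_sup_eq]; exact IsSubnormal.top) hm

end Cfsg.Agent.S0567
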