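import Cfsg.Statements.S0570
import Cfsg.Agent.LibH2Sys3

set_option autoImplicit false
open Cfsg

namespace Cfsg.Agent.S0570

open Subgroup CfsgLib.H2Sys CfsgLib.H2Sys2 CfsgLib.H2Sys3 CfsgLib.Carter
open scoped Pointwise


/-- Let G be a finite group with a nilpotent normal subgroup F such that G modulo F is nilpotent (nilpotent length at most two). Then a subgroup of G is a Carter subgroup if and only if it is the system normalizer of some Hall complement system. -/
theorem result {G : Type*} [Group G] [Finite G] (F : Subgroup G) [F.Normal] (hF : Group.IsNilpotent F) (hGF : Group.IsNilpotent (G ⧸ F)) (C : Subgroup G) : Cfsg.IsCarterSubgroup C ↔ ∃ K : Nat.Primes → Subgroup G, Cfsg.IsComplementSystem K ∧ C = Cfsg.systemNormalizer K := by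
  have hs : Group.IsSolvable G := by
    haveI := hF
    haveI := hGF
    exact solvable_of_ker_le_range F.subtype (QuotientGroup.mk' F) (by rw [QuotientGroup.ker_mk', range_subtype])
  constructor
  · intro hC
    obtain ⟨K, hK, hKC⟩ := exists_reduce hs hC.1
    exact ⟨K, sys_iff.mpr hK, reduce_eq hs F hF hGF hK hC hKC⟩
  · rintro ⟨K, hK, rfl⟩
    obtain ⟨C, hC⟩ := (main _ G le_rfl).1
    obtain ⟨L, hL, hLC⟩ := exists_reduce hs hC.1
    obtain ⟨g, hg⟩ := sys_conj hs hL (sys_iff.mp hK)
    rw [sys_conj_normalizer hg, ← reduce_eq hs F hF hGF hL hC hLC]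
    exact hC.conj g

end Cfsg.Agent.S0570
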