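import Cfsg.Statements.S0576
import Cfsg.Agent.LibCores

set_option autoImplicit false
open Cfsg

namespace Cfsg.Agent.S0576

open Subgroup Cfsg
open scoped Pointwise


/-- Let H be a normal subgroup of a finite group G with H contained in the Frattini subgroup of G. Then the group of inner automorphisms of H is contained in the Frattini subgroup of the automorphism group of H. -/
theorem result {G : Type*} [Group G] [Finite G] (H : Subgroup G) [H.Normal] (hH : H ≤ frattini G) : (MulAut.conj : ↥H →* MulAut ↥H).range ≤ frattini (MulAut ↥H) := by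
  -- the action
  let ρ : G →* MulAut H := MulAut.conjNormal
  have hρ : ∀ (g : G) (x : H), ((ρ g x : H) : G) = g * x * g⁻¹ := fun g x => rfl
  set Y := ρ.range with hY
  have hInn : (MulAut.conj : ↥H →* MulAut ↥H).range = H.map ρ := by
    ext φ
    constructor
    · rintro ⟨h, rfl⟩
      refine ⟨h, h.2, ?_⟩
      ext x
      rfl
    · rintro ⟨h, hh, rfl⟩
      refine ⟨⟨h, hh⟩, ?_⟩
      ext x
      rfl
  intro φ hφ
  rw [frattini, Order.radical]
  simp only [Subgroup.mem_iInf, Set.mem_setOf_eq]
  intro M hM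
  by_contra hφM
  set I := (MulAut.conj : ↥H →* MulAut ↥H).range with hI
  haveI hIn : I.Normal := by
    constructor
    rintro _ ⟨h, rfl⟩ g
    refine ⟨g h, ?_⟩
    ext x
    simp [MulAut.conj_apply]
  have hIM : ¬ I ≤ M := fun h => hφM (h hφ)
  have hsup : I ⊔ M = ⊤ := by
    rcases hM.le_iff.mp (le_sup_right : M ≤ I ⊔ M) with h | h
    · exact h
    · exact absurd (h ▸ le_sup_left) hIM
  -- pull back to `G`
  have h1 : H ⊔ M.comap ρ = ⊤ := by
    rw [eq_top_iff]
    intro g _
    have h2 : ρ g ∈ I ⊔ M := by rw [hsup]; exact mem_top _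
    rw [Subgroup.mem_sup_of_normal_left] at h2
    obtain ⟨i, hi, m, hm, he⟩ := h2
    rw [hInn] at hi
    obtain ⟨h, hh, rfl⟩ := hi
    have h3 : h⁻¹ * g ∈ M.comap ρ := by
      rw [mem_comap, map_mul, ← he, map_inv, inv_mul_cancel_left]; exact hm
    have := mul_mem (mem_sup_left (T := M.comap ρ) hh) (mem_sup_right (S := H) h3)
    rwa [mul_inv_cancel_left] at this
  have h2 : M.comap ρ ⊔ frattini G = ⊤ := by
    rw [eq_top_iff, ← h1]
    exact sup_le (hH.trans le_sup_right) le_sup_left
  have h3 := frattini_nongenerating h2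
  apply hIM
  rw [hInn, Subgroup.map_le_iff_le_comap, h3]
  exact le_top

end Cfsg.Agent.S0576
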