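import Cfsg.Statements.S0578
import Cfsg.Agent.LibH2Gen2

set_option autoImplicit false
open Cfsg

namespace Cfsg.Agent.S0578

open Subgroup Cfsg MulAction CfsgLib.Cores CfsgLib.Coprime CfsgLib.H2Misc CfsgLib.H2Solv CfsgLib.H2Subn CfsgLib.H2Quad CfsgLib.H2Gen CfsgLib.H2Gen2
open scoped Pointwise commutatorElement
universe uu



/-- If in a finite group the normalizer of each abelian subgroup coincides with its centralizer, then the group is abelian. -/
theorem result {G : Type*} [Group G] [Finite G] (h : ∀ A : Subgroup G, IsMulCommutative A → Subgroup.normalizer (A : Set G) = Subgroup.centralizer (A : Set G)) : IsMulCommutative G := by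
  -- Sylow subgroups are abelian
  have hSyl : ∀ (p : ℕ) [Fact p.Prime] (P : Sylow p G), IsMulCommutative (P : Subgroup G) := by
    intro p _ P
    by_contra hna
    have hna' : ¬ IsMulCommutative P := hna
    obtain ⟨A, hAn, hAc, hA⟩ := exists_noncentral_abelian_normal (G := P) P.isPGroup' hna'
    apply hA
    have h1 := h (A.map (P : Subgroup G).subtype) (by
      apply mulComm_of_comm
      rintro _ ⟨x, hx, rfl⟩ _ ⟨y, hy, rfl⟩
      rw [← map_mul, ← map_mul, comm_of_mulComm hAc x hx y hy])
    intro a ha
    rw [mem_center_iff]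
    intro g
    have h2 : (g : G) ∈ normalizer ((A.map (P : Subgroup G).subtype : Subgroup G) : Set G) := by
      apply mem_normalizer_of_conj_smul_eq
      have := map_subtype_conj_smul g A
      rw [conj_smul_eq_of_mem_normalizer (g := g) (H := A) (by rw [normalizer_eq_top_iff.mpr hAn]; trivial)] at this
      exact this.symm
    rw [h1] at h2
    have h3 := mem_centralizer_iff.mp h2 (a : G) (mem_map_of_mem _ ha)
    exact Subtype.ext h3.symm
  have hcomm : commutator G = ⊥ := by
    by_contra hne
    have h1 : Nat.card (commutator G) ≠ 1 := fun h => hne (card_eq_one.mp h)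
    obtain ⟨p, hp, hd⟩ := Nat.exists_prime_and_dvd h1
    haveI : Fact p.Prime := ⟨hp⟩
    obtain ⟨P⟩ := (inferInstance : Nonempty (Sylow p G))
    have hPc := hSyl p P
    have hN : normalizer ((P : Subgroup G) : Set G) ≤ centralizer ((P : Subgroup G) : Set G) :=
      (h (P : Subgroup G) hPc).le
    have h2 : commutator G ≤ (MonoidHom.transferSylow P hN).ker := by
      rw [commutator_def, commutator_le]
      rintro a - b -
      rw [MonoidHom.mem_ker, map_commutatorElement, commutatorElement_eq_one_iff_mul_comm]
      exact Subtype.ext (comm_of_mulComm hPc _ (MonoidHom.transferSylow P hN a).2 _ (MonoidHom.transferSylow P hN b).2)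
    exact MonoidHom.not_dvd_card_ker_transferSylow P hN (hd.trans (card_dvd_of_le h2))
  refine ⟨⟨fun a b => ?_⟩⟩
  have h1 : ⁅a, b⁆ ∈ commutator G := commutator_mem_commutator (mem_top _) (mem_top _)
  rw [hcomm, mem_bot] at h1
  exact commutatorElement_eq_one_iff_mul_comm.mp h1

end Cfsg.Agent.S0578
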