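import Cfsg.Statements.S0585
import Cfsg.Agent.LibH2Gen

set_option autoImplicit false
open Cfsg

namespace Cfsg.Agent.S0585

open Subgroup Cfsg MulAction CfsgLib.Cores CfsgLib.Coprime CfsgLib.H2Misc CfsgLib.H2Solv CfsgLib.H2Subn CfsgLib.H2Quad CfsgLib.H2Gen
open scoped Pointwise commutatorElement
universe uu



/-- If the Frattini subgroup of a finite group G is trivial, then every abelian normal subgroup of G has a complement in G. -/
theorem result {G : Type*} [Group G] [Finite G] (hΦ : frattini G = ⊥) (A : Subgroup G) [A.Normal] [IsMulCommutative A] : ∃ H : Subgroup G, Subgroup.IsComplement' A H := by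
  -- minimal supplement
  obtain ⟨H, hH, hmin⟩ : ∃ H : Subgroup G, A ⊔ H = ⊤ ∧ ∀ K : Subgroup G, K < H → A ⊔ K ≠ ⊤ := by
    obtain ⟨H, -, hH⟩ := (Set.toFinite {H : Subgroup G | A ⊔ H = ⊤}).exists_le_minimal
      (a := (⊤ : Subgroup G)) (show A ⊔ ⊤ = ⊤ from sup_top_eq A)
    exact ⟨H, hH.prop, fun K hK h => hK.not_ge (hH.le_of_le h hK.le)⟩
  have hN := inf_normal_of_comm (A := A) (H := H) inferInstance hH
  have hI : A ⊓ H = ⊥ := by
    by_contra hne
    have h1 : ¬ A ⊓ H ≤ frattini G := by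
      rw [hΦ, le_bot_iff]; exact hne
    have h2 : ∃ M : Subgroup G, IsCoatom M ∧ ¬ A ⊓ H ≤ M := by
      by_contra hcon
      push Not at hcon
      exact h1 (le_iInf₂ hcon)
    obtain ⟨M, hM, hM'⟩ := h2
    have h3 := sup_eq_top_of_not_le hM hM'
    have h4 := dedekind_top (N := A ⊓ H) (H := M) (M := H) inf_le_right h3
    have h5 : A ⊔ (M ⊓ H) = ⊤ := by
      rw [eq_top_iff, ← hH]
      apply sup_le le_sup_left
      nth_rewrite 1 [h4]
      exact sup_le_sup_right inf_le_left _
    have h6 : M ⊓ H = H := by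
      by_contra hne'
      exact hmin _ (lt_of_le_of_ne inf_le_right hne') h5
    apply hM'
    rw [← h6]
    exact inf_le_right.trans inf_le_left
  refine ⟨H, ?_⟩
  exact isComplement'_of_disjoint_and_mul_eq_univ (disjoint_iff.mpr hI) (by
    rw [← Subgroup.normal_mul, hH]; rfl)

end Cfsg.Agent.S0585
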