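import Cfsg.Statements.S0586
import Cfsg.Agent.LibH2Gen2
import Cfsg.Agent.S0585

set_option autoImplicit false
open Cfsg

namespace Cfsg.Agent.S0586

open Subgroup Cfsg MulAction CfsgLib.Cores CfsgLib.Coprime CfsgLib.H2Misc CfsgLib.H2Solv CfsgLib.H2Subn CfsgLib.H2Quad CfsgLib.H2Gen CfsgLib.H2Gen2
open scoped Pointwise commutatorElement
universe uu



/-- If the Frattini subgroup of a finite group G is trivial, then the Fitting subgroup of G equals the join of all abelian minimal normal subgroups of G. -/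
theorem result {G : Type*} [Group G] [Finite G] (hΦ : frattini G = ⊥) : Cfsg.fittingSubgroup G = sSup {N : Subgroup G | N.Normal ∧ N ≠ ⊥ ∧ IsMulCommutative N ∧ ∀ K : Subgroup G, K.Normal → K ≤ N → K = ⊥ ∨ K = N} := by
  set S := sSup {N : Subgroup G | N.Normal ∧ N ≠ ⊥ ∧ IsMulCommutative N ∧ ∀ K : Subgroup G, K.Normal → K ≤ N → K = ⊥ ∨ K = N} with hS
  haveI hFn : (fittingSubgroup G).Normal := fittingSubgroup_normal
  have hFab : IsMulCommutative (fittingSubgroup G) :=
    comm_of_frattini_eq_bot hΦ _ fittingSubgroup_isNilpotent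
  have hSF : S ≤ fittingSubgroup G := by
    apply sSup_le
    rintro N ⟨h1, h2, h3, h4⟩
    apply le_fittingSubgroup h1
    exact (isNilpotent_iff_lowerCentralSeries N).mpr ⟨1, commutator_eq_bot_iff_le_centralizer.mpr
      (isMulCommutative_iff_le_centralizer.mp h3)⟩
  haveI hSn : S.Normal := by
    rw [hS]
    exact Subgroup.sSup_normal _ (fun N hN => hN.1)
  haveI hSab : IsMulCommutative S := mulComm_mono hFab hSF
  obtain ⟨H, hH⟩ := Cfsg.Agent.S0585.result hΦ S
  have hSH : S ⊔ H = ⊤ := hH.sup_eq_top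
  have hSH' : S ⊓ H = ⊥ := disjoint_iff.mp hH.disjoint
  have h1 := dedekind_top (N := S) (H := H) (M := fittingSubgroup G) hSF hSH
  have hD : (H ⊓ fittingSubgroup G).Normal := by
    apply normal_of_le_normalizer_sup (A := fittingSubgroup G) (B := H)
    · refine le_trans ?_ (centralizer_le_normalizer _)
      exact le_centralizer_of_comm fun x hx y hy => comm_of_mulComm hFab x hx y hy.2
    · refine le_trans (le_inf ?_ ?_) inf_normalizer_le_normalizer_inf
      · exact le_normalizer
      · exact le_normalizer_of_normal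
    · rw [eq_top_iff, ← hSH]
      exact sup_le_sup_right hSF _
  have hD0 : H ⊓ fittingSubgroup G = ⊥ := by
    by_contra hne
    obtain ⟨M, hM1, hM⟩ := exists_isMin (H ⊓ fittingSubgroup G) hne
    have hMS : M ≤ S := by
      apply le_sSup
      exact ⟨hM.1, hM.2.1, mulComm_mono hFab (hM1.trans inf_le_right), hM.2.2⟩
    apply hM.2.1
    rw [eq_bot_iff, ← hSH']
    exact le_inf hMS (hM1.trans inf_le_left)
  rw [hD0, sup_bot_eq] at h1
  exact h1

end Cfsg.Agent.S0586
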