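import Cfsg.Statements.S0587
import Cfsg.Agent.LibH2Gen2
import Cfsg.Agent.LibSolvBasic

set_option autoImplicit false
open Cfsg

namespace Cfsg.Agent.S0587

open Subgroup Cfsg MulAction CfsgLib.Cores CfsgLib.Coprime CfsgLib.H2Misc CfsgLib.H2Solv CfsgLib.H2Subn CfsgLib.H2Quad CfsgLib.H2Gen CfsgLib.H2Gen2
open scoped Pointwise commutatorElement
universe uu


theorem normalizer_le_normalizer_centralizer' {G : Type*} [Group G] (Q : Subgroup G) :
    normalizer (Q : Set G) ≤ normalizer ((centralizer (Q : Set G) : Subgroup G) : Set G) := by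
  apply le_normalizer_of_conj
  intro a ha x hx
  rw [mem_centralizer_iff] at hx ⊢
  intro z hz
  have hz' : a⁻¹ * z * a ∈ Q := by
    have := (mem_normalizer_iff.mp (inv_mem ha) z).mp hz
    rwa [inv_inv] at this
  have h5 := hx _ hz'
  calc z * (a * x * a⁻¹) = a * ((a⁻¹ * z * a) * x) * a⁻¹ := by group
    _ = a * (x * (a⁻¹ * z * a)) * a⁻¹ := by rw [h5]
    _ = a * x * a⁻¹ * z := by group


/-- Let G be a finite group whose largest normal p-subgroup L is nontrivial, and M a maximal subgroup of G with trivial normal core. Then L is elementary abelian, M is a complement to L, L is a minimal normal subgroup of G, the centralizer of L is L, and for every prime q such that the largest normal q-subgroup of M is nontrivial, the order of L is congruent to 1 modulo q and q ≠ p. -/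
theorem result {G : Type*} [Group G] [Finite G] (p : ℕ) [Fact p.Prime] (hL : Cfsg.pCore p G ≠ ⊥) (M : Subgroup G) (hM : IsCoatom M) (hcore : M.normalCore = ⊥) : Cfsg.IsElementaryAbelian p (Cfsg.pCore p G) ∧ Subgroup.IsComplement' (Cfsg.pCore p G) M ∧ (∀ K : Subgroup G, K.Normal → K ≤ Cfsg.pCore p G → K = ⊥ ∨ K = Cfsg.pCore p G) ∧ Subgroup.centralizer ((Cfsg.pCore p G : Subgroup G) : Set G) = Cfsg.pCore p G ∧ ∀ (q : ℕ) [Fact q.Prime], Cfsg.pCore q ↥M ≠ ⊥ → Nat.card (Cfsg.pCore p G) % q = 1 % q ∧ q ≠ p := by
  obtain ⟨N, hNL, hN⟩ := exists_isMin (pCore p G) hL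
  haveI := hN.1
  have hNp : IsPGroup p N := (pCore_isPGroup p).to_le hNL
  haveI : Group.IsSolvable N := by
    haveI := hNp.isNilpotent
    infer_instance
  obtain ⟨q, hq, hel, hqg⟩ := isMin_elab hN inferInstance
  haveI : Fact q.Prime := ⟨hq⟩
  have hcN : Nat.card N ≠ 1 := fun h => hN.2.1 (card_eq_one.mp h)
  have hqp : q = p := by
    obtain ⟨a, ha⟩ := IsPGroup.iff_card.mp hqg
    obtain ⟨b, hb⟩ := IsPGroup.iff_card.mp hNp
    have ha0 : a ≠ 0 := by rintro rfl; exact hcN (by simpa using ha)
    have : q ∣ p ^ b := by rw [← hb, ha]; exact dvd_pow_self q ha0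
    exact (Nat.prime_dvd_prime_iff_eq hq Fact.out).mp (hq.dvd_of_dvd_pow this)
  subst hqp
  have h1 := sup_eq_top_of_not_le hM (not_le_of_core hcore hN.2.1)
  have h2 : N ⊓ M = ⊥ := by
    by_contra hne
    haveI := inf_normal_of_comm hel.1 h1
    exact not_le_of_core hcore hne inf_le_right
  have hNC : N ≤ centralizer (N : Set G) := isMulCommutative_iff_le_centralizer.mp hel.1
  have h3 := dedekind_top (N := N) (H := M) (M := centralizer (N : Set G)) hNC h1
  have h4 : M ⊓ centralizer (N : Set G) = ⊥ := by
    by_contra hne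
    haveI : (M ⊓ centralizer (N : Set G)).Normal := by
      apply normal_of_le_normalizer_sup (A := N) (B := M) _ _ h1
      · refine le_trans ?_ (centralizer_le_normalizer _)
        rw [le_centralizer_iff]; exact inf_le_right
      · refine le_trans (le_inf ?_ ?_) inf_normalizer_le_normalizer_inf
        · exact le_normalizer
        · exact le_normalizer_of_normal
    exact not_le_of_core hcore hne inf_le_left
  rw [h4, sup_bot_eq] at h3
  have hLN : pCore q G = N := by
    apply le_antisymm _ hNL
    rw [← h3]
    exact (pCore_le_fittingSubgroup q).trans (fitting_le_centralizer_of_isMin hN)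
  rw [hLN]
  refine ⟨hel, ?_, hN.2.2, h3, ?_⟩
  · exact isComplement'_of_disjoint_and_mul_eq_univ (disjoint_iff.mpr h2) (by
      rw [← Subgroup.normal_mul, h1]; rfl)
  · intro r _ hr
    set Q := (pCore r M).map M.subtype with hQ
    have hQg : IsPGroup r Q := (pCore_isPGroup r).map _
    have hQM : Q ≤ M := map_subtype_le _
    have hQ0 : Q ≠ ⊥ := by
      rw [hQ]; intro h; exact hr ((map_eq_bot_iff_of_injective _ M.subtype_injective).mp h)
    have hMQ : M ≤ normalizer (Q : Set G) := by
      rw [← normal_subgroupOf_iff_le_normalizer hQM]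
      have : Q.subgroupOf M = pCore r M := comap_map_eq_self_of_injective M.subtype_injective _
      rw [this]
      infer_instance
    have hfixn : (N ⊓ centralizer (Q : Set G)).Normal := by
      apply normal_of_le_normalizer_sup (A := N) (B := M) _ _ h1
      · refine le_trans ?_ (centralizer_le_normalizer _)
        exact hNC.trans (centralizer_le inf_le_left)
      · refine le_trans (le_inf ?_ ?_) inf_normalizer_le_normalizer_inf
        · exact le_normalizer_of_normal
        · exact hMQ.trans (normalizer_le_normalizer_centralizer' _)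
    have hfix : N ⊓ centralizer (Q : Set G) = ⊥ := by
      rcases hN.2.2 _ hfixn inf_le_left with h | h
      · exact h
      · exfalso
        apply hQ0
        have h5 : N ≤ centralizer (Q : Set G) := by rw [← h]; exact inf_le_right
        have h6 : Q ≤ N := by
          rw [← h3]; exact le_centralizer_iff.mp h5
        rw [eq_bot_iff, ← h2]
        exact le_inf h6 hQM
    have h7 := card_modEq_fixed (V := N) (Q := Q) le_normalizer_of_normal hQg
    rw [hfix, card_bot] at h7
    refine ⟨h7, ?_⟩
    rintro rfl
    obtain ⟨b, hb⟩ := IsPGroup.iff_card.mp hNp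
    have hb0 : b ≠ 0 := by rintro rfl; exact hcN (by simpa using hb)
    have h8 : r ∣ Nat.card N := by rw [hb]; exact dvd_pow_self r hb0
    have h9 : r ∣ 1 := (Nat.modEq_zero_iff_dvd).mp (h7.symm.trans ((Nat.modEq_zero_iff_dvd).mpr h8))
    exact (Fact.out : r.Prime).one_lt.ne' (Nat.dvd_one.mp h9)

end Cfsg.Agent.S0587
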