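import Cfsg.Statements.S0588
import Cfsg.Agent.LibH2Gen2

set_option autoImplicit false
open Cfsg

namespace Cfsg.Agent.S0588

open Subgroup Cfsg MulAction CfsgLib.Cores CfsgLib.Coprime CfsgLib.H2Misc CfsgLib.H2Solv CfsgLib.H2Subn CfsgLib.H2Quad CfsgLib.H2Gen CfsgLib.H2Gen2
open scoped Pointwise commutatorElement
universe uu



/-- If a subgroup H of a finite group G contains the centralizer of every non-identity element of H, then the order of H is coprime to its index. -/
theorem result {G : Type*} [Group G] [Finite G] (H : Subgroup G) (h : ∀ x ∈ H, x ≠ 1 → Subgroup.centralizer ({x} : Set G) ≤ H) : (Nat.card H).Coprime H.index := by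
  apply Nat.coprime_of_dvd
  intro p hp h1 h2
  haveI : Fact p.Prime := ⟨hp⟩
  obtain ⟨P⟩ := (inferInstance : Nonempty (Sylow p H))
  have hP1 : (P : Subgroup H) ≠ ⊥ := P.ne_bot_of_dvd_card h1
  obtain ⟨S, hS⟩ := (P.isPGroup'.map H.subtype).exists_le_sylow
  obtain ⟨⟨x, hx⟩, hx1⟩ := (ne_bot_iff_exists_ne_one (H := (P : Subgroup H))).mp hP1
  have hx1' : (x : G) ≠ 1 := fun h => hx1 (Subtype.ext (Subtype.ext h))
  have hxS : (x : G) ∈ (S : Subgroup G) := hS (mem_map_of_mem _ hx)
  haveI : Nontrivial S := ⟨⟨⟨x, hxS⟩, 1, fun h => hx1' (congrArg Subtype.val h)⟩⟩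
  have hc := S.isPGroup'.bot_lt_center
  obtain ⟨z, hz, hz1⟩ := SetLike.exists_of_lt hc
  have hz1' : (z : G) ≠ 1 := fun h => hz1 (mem_bot.mpr (Subtype.ext h))
  have hzH : (z : G) ∈ H := by
    apply h x x.2 hx1'
    rw [mem_centralizer_singleton_iff]
    exact congrArg Subtype.val (mem_center_iff.mp hz ⟨x, hxS⟩).symm
  have hSH : (S : Subgroup G) ≤ H := by
    intro s hs
    apply h z hzH hz1'
    rw [mem_centralizer_singleton_iff]
    exact congrArg Subtype.val (mem_center_iff.mp hz ⟨s, hs⟩)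
  exact S.not_dvd_index (h2.trans (index_dvd_of_le hSH))

end Cfsg.Agent.S0588
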