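import Cfsg.Statements.S0589
import Cfsg.Agent.LibH2Gen2

set_option autoImplicit false
open Pointwise
open Cfsg

namespace Cfsg.Agent.S0589

open Subgroup Cfsg MulAction CfsgLib.Cores CfsgLib.Coprime CfsgLib.H2Misc CfsgLib.H2Solv CfsgLib.H2Subn CfsgLib.H2Quad CfsgLib.H2Gen CfsgLib.H2Gen2
open scoped Pointwise commutatorElement
universe uu


theorem ne_bot_iff_exists_ne_one' {G : Type*} [Group G] (H : Subgroup G) :
    H ≠ ⊥ ↔ ∃ x, x ∈ H ∧ x ≠ 1 := by
  rw [ne_bot_iff_exists_ne_one]
  exact ⟨fun ⟨a, ha⟩ => ⟨a, a.2, fun h => ha (Subtype.ext h)⟩,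
    fun ⟨a, ha, h⟩ => ⟨⟨a, ha⟩, fun h' => h (congrArg Subtype.val h')⟩⟩


/-- Let H be a Frobenius complement in a finite group G and L a subgroup of G whose order divides the order of H. Then L is contained in some conjugate of H. -/
theorem result {G : Type*} [Group G] [Finite G] (H : Subgroup G) (hH : Cfsg.IsFrobeniusComplement H) (L : Subgroup G) (hL : Nat.card L ∣ Nat.card H) : ∃ x : G, L ≤ MulAut.conj x • H := by
  classical
  have hfree : ∀ (L : Subgroup G) (X : Set (G ⧸ H)) (_ : ∀ l : L, ∀ x ∈ X, l • x ∈ X)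
      (_ : ∀ x ∈ X, stabilizer L x = ⊥), Nat.card L ∣ Nat.card X := by
    intro L X hX hst
    letI act : MulAction L X :=
      { smul := fun l x => ⟨l • x.1, hX l x.1 x.2⟩
        one_smul := fun x => Subtype.ext (one_smul L x.1)
        mul_smul := fun a b x => Subtype.ext (mul_smul a b x.1) }
    have hst' : ∀ x : X, stabilizer L x = ⊥ := by
      intro x
      rw [eq_bot_iff]
      intro l hl
      have h1 : l • x.1 = x.1 := congrArg Subtype.val (mem_stabilizer_iff.mp hl)
      have h2 : l ∈ stabilizer L x.1 := h1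
      rwa [hst x.1 x.2] at h2
    have e := selfEquivOrbitsQuotientProd hst'
    rw [Nat.card_congr e, Nat.card_prod]
    exact dvd_mul_left _ _
  -- fixed points of an element
  have hfix : ∀ (g : G) (l : G), l • (g : G ⧸ H) = g ↔ g⁻¹ * l * g ∈ H := by
    intro g l
    have : l • (g : G ⧸ H) = ((l * g : G) : G ⧸ H) := rfl
    rw [this, eq_comm, QuotientGroup.eq, mul_assoc]
  have huniq : ∀ (l : G), l ≠ 1 → ∀ x y : G ⧸ H, l • x = x → l • y = y → x = y := by
    intro l hl x y hx hy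
    obtain ⟨a, rfl⟩ := QuotientGroup.mk_surjective x
    obtain ⟨b, rfl⟩ := QuotientGroup.mk_surjective y
    rw [hfix] at hx hy
    rw [QuotientGroup.eq]
    by_contra hne
    have h1 := hH.2.2 _ hne
    have h2 : a⁻¹ * l * a ∈ H ⊓ MulAut.conj (a⁻¹ * b) • H := by
      refine mem_inf.mpr ⟨hx, ?_⟩
      rw [mem_pointwise_smul_iff_inv_smul_mem]
      have : (MulAut.conj (a⁻¹ * b))⁻¹ • (a⁻¹ * l * a) = b⁻¹ * l * b := by
        rw [← map_inv, MulAut.smul_def, MulAut.conj_apply]; group
      rw [this]; exact hy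
    rw [h1, mem_bot] at h2
    apply hl
    have : l = a * (a⁻¹ * l * a) * a⁻¹ := by group
    rw [this, h2]; group
  -- the number of points
  have key : ∀ L : Subgroup G, Nat.card L ∣ Nat.card ↥({x : G ⧸ H | stabilizer L x = ⊥} : Set (G ⧸ H)) := by
    intro L
    apply hfree L
    · intro l x hx
      simp only [Set.mem_setOf_eq] at hx ⊢
      rw [stabilizer_smul_eq_stabilizer_map_conj, hx, Subgroup.map_bot]
    · intro x hx; exact hx
  have hcount : ∀ L : Subgroup G, Nat.card (G ⧸ H) =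
      Nat.card ↥({x : G ⧸ H | stabilizer L x = ⊥} : Set (G ⧸ H)) +
      Nat.card ↥({x : G ⧸ H | stabilizer L x ≠ ⊥} : Set (G ⧸ H)) := by
    intro L
    rw [Nat.card_coe_set_eq, Nat.card_coe_set_eq, ← Set.ncard_univ, ← Set.ncard_union_eq]
    · congr 1
      ext x
      simp [em]
    · rw [Set.disjoint_left]; intro x hx hx'; exact hx' hx
  -- apply to `H`
  have hH1 : Nat.card ↥({x : G ⧸ H | stabilizer H x ≠ ⊥} : Set (G ⧸ H)) = 1 := by
    rw [Nat.card_coe_set_eq, Set.ncard_eq_one]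
    refine ⟨((1 : G) : G ⧸ H), ?_⟩
    ext x
    simp only [Set.mem_setOf_eq, Set.mem_singleton_iff]
    have hone : ∀ h : H, h • ((1 : G) : G ⧸ H) = ((1 : G) : G ⧸ H) := by
      intro h
      change (h : G) • ((1 : G) : G ⧸ H) = _
      rw [hfix]; simp
    constructor
    · intro hx
      obtain ⟨l, hl, hl1⟩ := (ne_bot_iff_exists_ne_one' _).mp hx
      have hl' : (l : G) ≠ 1 := fun h => hl1 (Subtype.ext h)
      exact huniq (l : G) hl' x _ hl (hone l)
    · rintro rfl h0
      obtain ⟨l, hl, hl1⟩ := (ne_bot_iff_exists_ne_one' _).mp hH.1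
      have : (⟨l, hl⟩ : H) ∈ stabilizer H ((1 : G) : G ⧸ H) := hone _
      rw [h0, mem_bot] at this
      exact hl1 (congrArg Subtype.val this)
  have hmodL : Nat.card (G ⧸ H) ≡ 1 [MOD Nat.card L] := by
    have h1 := hcount H
    rw [hH1] at h1
    rw [h1]
    have h2 := hL.trans (key H)
    exact (Nat.modEq_iff_dvd' (by omega)).mpr (by simpa using h2) |>.symm
  set X := ({x : G ⧸ H | stabilizer L x ≠ ⊥} : Set (G ⧸ H)) with hX
  have hmodX : Nat.card X ≡ 1 [MOD Nat.card L] := by
    have h1 := hcount L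
    have h2 := key L
    have h3 := (Nat.modEq_zero_iff_dvd.mpr h2).add_right (Nat.card X)
    rw [zero_add] at h3
    have h4 : Nat.card (G ⧸ H) = Nat.card ↥({x : G ⧸ H | stabilizer L x = ⊥} : Set (G ⧸ H)) + Nat.card X := h1
    rw [← h4] at h3
    exact h3.symm.trans hmodL
  by_cases hL1 : L = ⊥
  · exact ⟨1, by rw [hL1]; exact bot_le⟩
  have hLc : 2 ≤ Nat.card L := by
    have : Nat.card L ≠ 1 := fun h => hL1 (card_eq_one.mp h)
    have : 0 < Nat.card L := Nat.card_pos
    omega
  -- injection of `X` into the nonidentity elements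
  have hXle : Nat.card X ≤ Nat.card L - 1 := by
    have hch : ∀ x : X, ∃ l : L, l ∈ stabilizer L x.1 ∧ l ≠ 1 := by
      intro x
      obtain ⟨l, hl, hl1⟩ := (ne_bot_iff_exists_ne_one' _).mp x.2
      exact ⟨l, hl, hl1⟩
    choose f hf1 hf2 using hch
    have hinj : Function.Injective (fun x => (⟨f x, hf2 x⟩ : {l : L // l ≠ 1})) := by
      intro x y hxy
      have h1 : f x = f y := congrArg Subtype.val hxy
      apply Subtype.ext
      apply huniq (f x : G) (fun h => hf2 x (Subtype.ext h)) _ _ (hf1 x)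
      rw [h1]; exact hf1 y
    have h2 := Nat.card_le_card_of_injective _ hinj
    have h3 : Nat.card {l : L // l ≠ 1} = Nat.card L - 1 := by
      haveI := Fintype.ofFinite L
      rw [Nat.card_eq_fintype_card, Nat.card_eq_fintype_card, Fintype.card_subtype_compl, Fintype.card_subtype_eq]
    rw [h3] at h2
    exact h2
  have hX1 : Nat.card X = 1 := by
    have h1 : Nat.card X % Nat.card L = 1 % Nat.card L := hmodX
    rw [Nat.mod_eq_of_lt (by omega), Nat.mod_eq_of_lt (by omega)] at h1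
    exact h1
  rw [Nat.card_coe_set_eq, Set.ncard_eq_one] at hX1
  obtain ⟨x₀, hx₀⟩ := hX1
  obtain ⟨g, rfl⟩ := QuotientGroup.mk_surjective x₀
  refine ⟨g, ?_⟩
  intro l hl
  have h1 : (⟨l, hl⟩ : L) • (g : G ⧸ H) ∈ X := by
    have : (g : G ⧸ H) ∈ X := by rw [hx₀]; rfl
    show stabilizer L _ ≠ ⊥
    rw [stabilizer_smul_eq_stabilizer_map_conj]
    intro h0
    exact this ((map_eq_bot_iff_of_injective _ (MulAut.conj (⟨l, hl⟩ : L)).injective).mp h0)
  rw [hx₀, Set.mem_singleton_iff] at h1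
  have h2 : l • (g : G ⧸ H) = g := h1
  rw [hfix] at h2
  rw [mem_pointwise_smul_iff_inv_smul_mem]
  have : (MulAut.conj g)⁻¹ • l = g⁻¹ * l * g := by
    rw [← map_inv, MulAut.smul_def, MulAut.conj_apply]; group
  rw [this]; exact h2

end Cfsg.Agent.S0589
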