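import Cfsg.Statements.S0592
import Cfsg.Agent.LibH2Rep

set_option autoImplicit false
open Cfsg

namespace Cfsg.Agent.S0592

open Subgroup Cfsg CfsgLib.H2Rep
open scoped Pointwise commutatorElement
universe uu



/-- Two quadratically acting generators of a linear group that is not a p-group, with the p'-part of the order of their product dividing q - 1, give a homomorphism onto a subgroup of SL(2, q) that is not a p-group. -/
theorem result {K : Type*} [Field K] [Fintype K] {p : ℕ} [Fact p.Prime] [CharP K p] {W : Type*} [AddCommGroup W] [Module K W] [FiniteDimensional K W] [Finite W] [Nontrivial W] (H : Subgroup (W ≃ₗ[K] W)) (a b : W ≃ₗ[K] W) (hH : H = Subgroup.closure {a, b}) (ha : ∀ w : W, a (a w - w) = a w - w) (hb : ∀ w : W, b (b w - w) = b w - w) (hnp : ¬ IsPGroup p H) (hk : ∃ e k : ℕ, orderOf (a * b) = p ^ e * k ∧ k ∣ Fintype.card K - 1) : ∃ φ : H →* Matrix.SpecialLinearGroup (Fin 2) K, ¬ IsPGroup p φ.range := by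
  haveI : Finite (W ≃ₗ[K] W) := DFunLike.finite _
  obtain ⟨y, hy1, hyp⟩ := exists_pPrime_elt hnp
  obtain ⟨e, k, hek, hk⟩ := hk
  have haH : a ∈ H := by rw [hH]; exact Subgroup.subset_closure (by simp)
  have hbH : b ∈ H := by rw [hH]; exact Subgroup.subset_closure (by simp)
  let ρ : Representation K H W :=
    { toFun := fun h => ((h : W ≃ₗ[K] W) : W →ₗ[K] W)
      map_one' := rfl
      map_mul' := fun _ _ => rfl }
  have hm : ((orderOf y : ℕ) : K) ≠ 0 := by
    rw [Ne, CharP.cast_eq_zero_iff K p]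
    intro h
    have := Nat.dvd_gcd h dvd_rfl
    rw [hyp] at this
    exact (Fact.out : p.Prime).one_lt.ne' (Nat.dvd_one.mp this)
  have hab : Subgroup.closure {(⟨a, haH⟩ : H), ⟨b, hbH⟩} = ⊤ := by
    apply Subgroup.map_injective H.subtype_injective
    rw [MonoidHom.map_closure, ← MonoidHom.range_eq_map, range_subtype, Set.image_pair]
    exact hH.symm
  obtain ⟨φ, hφ⟩ := two_quad (K := K) (p := p) hab hm (pow_orderOf_eq_one y) _ W ρ rfl ha hb ⟨e, k, (by
      have h1 : (a * b) ^ (p ^ e * k) = 1 := by rw [← hek]; exact pow_orderOf_eq_one _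
      have h2 : ((⟨a, haH⟩ : H) * ⟨b, hbH⟩) ^ (p ^ e * k) = 1 := Subtype.ext h1
      rw [← map_pow, h2, map_one]), by rw [Nat.card_eq_fintype_card]; exact hk⟩ (by
      intro h
      apply hy1
      apply Subtype.ext
      ext w
      exact congrArg (fun f : W →ₗ[K] W => f w) h)
  exact ⟨φ, not_isPGroup_of_elt (p := p) ⟨y, rfl⟩ hφ hyp (by rw [← map_pow, pow_orderOf_eq_one, map_one])⟩

end Cfsg.Agent.S0592
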