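import Cfsg.Statements.S0597
import Cfsg.Agent.LibH2Subn
import Cfsg.Agent.LibH2Quad

set_option autoImplicit false
open Cfsg

namespace Cfsg.Agent.S0597

open Subgroup Cfsg MulAction CfsgLib.Cores CfsgLib.Coprime CfsgLib.H2Misc CfsgLib.H2Solv CfsgLib.H2Subn CfsgLib.H2Quad
open scoped Pointwise commutatorElement



/-- If two subnormal subgroups of a faithful group on an elementary abelian p-group satisfy [V, E₁, E₂] = 1, then their commutator lies in the largest normal p-subgroup. -/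
theorem result {G : Type*} [Group G] [Finite G] {p : ℕ} [Fact p.Prime] (V H : Subgroup G) (hV : Cfsg.IsElementaryAbelian p V) (hHV : H ≤ Subgroup.normalizer (V : Set G)) (hf : H ⊓ Subgroup.centralizer (V : Set G) = ⊥) (E₁ E₂ : Subgroup G) (h₁ : E₁ ≤ H) (h₂ : E₂ ≤ H) (hs₁ : (E₁.subgroupOf H).IsSubnormal) (hs₂ : (E₂.subgroupOf H).IsSubnormal) (hc : ⁅⁅V, E₁⁆, E₂⁆ = ⊥) : ⁅E₁, E₂⁆ ≤ (Cfsg.pCore p H).map H.subtype := by
  have hE1V := h₁.trans hHV
  have hE2V := h₂.trans hHV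
  have hW1 : E₁ ≤ normalizer ((⁅V, E₁⁆ : Subgroup G) : Set G) := normalizer_commutator_ge_right V E₁
  have hE2c : E₂ ≤ centralizer ((⁅V, E₁⁆ : Subgroup G) : Set G) := by
    rw [le_centralizer_iff]; exact commutator_eq_bot_iff_le_centralizer.mp hc
  have hW2 : E₂ ≤ normalizer ((⁅V, E₁⁆ : Subgroup G) : Set G) := hE2c.trans (centralizer_le_normalizer _)
  have hDle : ⁅E₁, E₂⁆ ≤ H := (commutator_mono h₁ h₂).trans (commutator_le_self H)
  -- D centralizes [V, E₁]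
  have hDc : ⁅E₁, E₂⁆ ≤ centralizer ((⁅V, E₁⁆ : Subgroup G) : Set G) := by
    rw [commutator_le]
    intro a ha b hb
    rw [commutatorElement_def]
    have hn : ∀ x ∈ normalizer ((⁅V, E₁⁆ : Subgroup G) : Set G), ∀ y ∈ centralizer ((⁅V, E₁⁆ : Subgroup G) : Set G),
        x * y * x⁻¹ ∈ centralizer ((⁅V, E₁⁆ : Subgroup G) : Set G) := by
      intro x hx y hy
      rw [mem_centralizer_iff] at hy ⊢
      intro z hz
      have hz' : x⁻¹ * z * x ∈ ⁅V, E₁⁆ := by
        have := (mem_normalizer_iff.mp (inv_mem hx) z).mp hz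
        rwa [inv_inv] at this
      have h5 := hy _ hz'
      calc z * (x * y * x⁻¹) = x * ((x⁻¹ * z * x) * y) * x⁻¹ := by group
        _ = x * (y * (x⁻¹ * z * x)) * x⁻¹ := by rw [h5]
        _ = x * y * x⁻¹ * z := by group
    exact mul_mem (hn a (hW1 ha) b (hE2c hb)) (inv_mem (hE2c hb))
  have hDs : ⁅E₁, E₂⁆ ≤ stabOn V ⁅V, E₁⁆ := by
    rw [commutator_le]
    intro a ha b hb
    have hE1s : E₁ ≤ stabOn V ⁅V, E₁⁆ := le_stabOn_iff.mpr ⟨hE1V, hW1, le_rfl⟩
    have e : ⁅a, b⁆ = a * (b * a⁻¹ * b⁻¹) := by rw [commutatorElement_def]; group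
    rw [e]
    exact mul_mem (hE1s ha) (stabOn_normalized (hE2V hb) (hW2 hb) (inv_mem (hE1s ha)))
  have hq : ⁅⁅V, ⁅E₁, E₂⁆⁆, ⁅E₁, E₂⁆⁆ = ⊥ := by
    rw [commutator_eq_bot_iff_le_centralizer, le_centralizer_iff]
    exact hDc.trans (centralizer_le (le_stabOn_iff.mp hDs).2.2)
  have hf' : ⁅E₁, E₂⁆ ⊓ centralizer (V : Set G) = ⊥ := by
    rw [eq_bot_iff, ← hf]
    exact inf_le_inf_right _ hDle
  have hp := isPGroup_of_quad hV (hDle.trans hHV) hf' hq
  have hmap : (⁅E₁.subgroupOf H, E₂.subgroupOf H⁆).map H.subtype = ⁅E₁, E₂⁆ := by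
    rw [map_commutator, map_subgroupOf_eq_of_le h₁, map_subgroupOf_eq_of_le h₂]
  rw [← hmap]
  apply Subgroup.map_mono
  have hle : ⁅E₁.subgroupOf H, E₂.subgroupOf H⁆ ≤ E₁.subgroupOf H ⊔ E₂.subgroupOf H :=
    (commutator_mono le_sup_left le_sup_right).trans (commutator_le_self _)
  apply subnormal_isPGroup_le_pCore
  · refine IsSubnormal.step _ _ hle (CfsgLib.H2Subn.sup hs₁ hs₂) ?_
    rw [normal_subgroupOf_iff_le_normalizer hle]
    exact sup_le (normalizer_commutator_ge_left _ _) (normalizer_commutator_ge_right _ _)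
  · rw [← hmap] at hp
    exact hp.of_equiv (equivMapOfInjective _ H.subtype H.subtype_injective).symm

end Cfsg.Agent.S0597
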