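import Cfsg.Statements.S0600
import Cfsg.Agent.LibH2Thomp

set_option autoImplicit false
open Cfsg

namespace Cfsg.Agent.S0600

open Subgroup Cfsg MulAction CfsgLib.Cores CfsgLib.Coprime CfsgLib.H2Misc CfsgLib.H2Solv CfsgLib.H2Subn CfsgLib.H2Quad CfsgLib.H2Gen CfsgLib.H2Gen2 CfsgLib.H2Thomp
open scoped Pointwise commutatorElement
universe uu



/-- A normal elementary abelian p-subgroup generated by the fixed points of the Sylow p-subgroups admits no nontrivial normal p-subgroup of G modulo its centralizer. -/
theorem result {G : Type*} [Group G] [Finite G] {p : ℕ} [Fact p.Prime] (V : Subgroup G) [V.Normal] (hV : Cfsg.IsElementaryAbelian p V) (hgen : V = ⨆ S : Sylow p G, V ⊓ Subgroup.centralizer ((S : Subgroup G) : Set G)) : Cfsg.pCore p (G ⧸ Subgroup.centralizer (V : Set G)) = ⊥ := by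
  set C := centralizer (V : Set G) with hC
  haveI : C.Normal := inferInstance
  set D := (pCore p (G ⧸ C)).comap (QuotientGroup.mk' C) with hD
  haveI : D.Normal := (inferInstance : (pCore p (G ⧸ C)).Normal).comap _
  have hCD : C ≤ D := by
    intro x hx
    rw [hD, mem_comap, QuotientGroup.mk'_apply, (QuotientGroup.eq_one_iff x).mpr hx]
    exact one_mem _
  have hDC : D ≤ C := by
    rw [hC, le_centralizer_iff]
    nth_rewrite 1 [hgen]
    apply iSup_le
    intro S
    rw [← le_centralizer_iff]
    rw [eq_sup_sylow_inf S hCD (relIndex_comap_pCore C)]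
    apply sup_le
    · rw [hC]; exact centralizer_le inf_le_left
    · exact inf_le_left.trans (le_centralizer_iff.mp inf_le_right)
  have h1 : (pCore p (G ⧸ C)) = D.map (QuotientGroup.mk' C) :=
    (map_comap_eq_self_of_surjective (QuotientGroup.mk'_surjective C) _).symm
  rw [h1, le_antisymm hDC hCD, QuotientGroup.map_mk'_self]

end Cfsg.Agent.S0600
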