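import Cfsg.Statements.S0601
import Cfsg.Agent.LibH2Thomp

set_option autoImplicit false
open Cfsg

namespace Cfsg.Agent.S0601

open Subgroup Cfsg MulAction CfsgLib.Cores CfsgLib.Coprime CfsgLib.H2Misc CfsgLib.H2Solv CfsgLib.H2Subn CfsgLib.H2Quad CfsgLib.H2Gen CfsgLib.H2Gen2 CfsgLib.H2Thomp
open scoped Pointwise commutatorElement
universe uu



/-- When O_p(G) contains its centralizer, the normal closure of Ω₁(Z(S)) is elementary abelian and G has no nontrivial normal p-subgroup modulo its centralizer. -/
theorem result {G : Type*} [Group G] [Finite G] {p : ℕ} [Fact p.Prime] (hc : Subgroup.centralizer (Cfsg.pCore p G : Set G) ≤ Cfsg.pCore p G) : (⨆ S : Sylow p G, Cfsg.omegaOne p (((S : Subgroup G)) ⊓ Subgroup.centralizer ((S : Subgroup G) : Set G))).Normal ∧ Cfsg.IsElementaryAbelian p (⨆ S : Sylow p G, Cfsg.omegaOne p (((S : Subgroup G)) ⊓ Subgroup.centralizer ((S : Subgroup G) : Set G))) ∧ ∀ D : Subgroup G, D.Normal → Subgroup.centralizer ((⨆ S : Sylow p G, Cfsg.omegaOne p (((S : Subgroup G)) ⊓ Subgroup.centralizer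 ((S : Subgroup G) : Set G)) : Subgroup G) : Set G) ≤ D → (∃ k : ℕ, (Subgroup.centralizer ((⨆ S : Sylow p G, Cfsg.omegaOne p (((S : Subgroup G)) ⊓ Subgroup.centralizer ((S : Subgroup G) : Set G)) : Subgroup G) : Set G)).relIndex D = p ^ k) → D = Subgroup.centralizer ((⨆ S : Sylow p G, Cfsg.omegaOne p (((S : Subgroup G)) ⊓ Subgroup.centralizer ((S : Subgroup G) : Set G)) : Subgroup G) : Set G) := by
  set W := (⨆ S : Sylow p G, omegaOne p (((S : Subgroup G)) ⊓ centralizer ((S : Subgroup G) : Set G))) with hW
  have hWn : W.Normal := by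
    constructor
    intro x hx g
    have h1 : MulAut.conj g • W ≤ W := by
      rw [pointwise_smul_subset_iff]
      apply iSup_le
      intro S
      rw [← pointwise_smul_subset_iff, ← omegaOne_smul, ← center_smul]
      exact le_iSup (fun S : Sylow p G => omegaOne p (((S : Subgroup G)) ⊓ centralizer ((S : Subgroup G) : Set G))) (g • S)
    exact h1 (smul_mem_pointwise_smul x (MulAut.conj g) W hx)
  have hZ : ∀ S : Sylow p G, (S : Subgroup G) ⊓ centralizer ((S : Subgroup G) : Set G) ≤
      pCore p G ⊓ centralizer (pCore p G : Set G) := by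
    intro S
    have h1 : (S : Subgroup G) ⊓ centralizer ((S : Subgroup G) : Set G) ≤ centralizer (pCore p G : Set G) :=
      inf_le_right.trans (centralizer_le (pCore_le_sylow S))
    exact le_inf (h1.trans hc) h1
  have hWe : IsElementaryAbelian p W := by
    apply elab_mono (omegaOne_elab (p := p) (center_comm (pCore p G)))
    apply iSup_le
    intro S
    exact omegaOne_mono p (hZ S)
  refine ⟨hWn, hWe, ?_⟩
  intro D hDn hCD hDk
  haveI := hDn
  haveI := hWn
  haveI : (centralizer (W : Set G)).Normal := inferInstance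
  apply le_antisymm _ hCD
  rw [le_centralizer_iff]
  nth_rewrite 1 [hW]
  apply iSup_le
  intro S
  rw [← le_centralizer_iff, eq_sup_sylow_inf S hCD hDk]
  apply sup_le
  · apply centralizer_le
    exact le_iSup (fun S : Sylow p G => omegaOne p (((S : Subgroup G)) ⊓ centralizer ((S : Subgroup G) : Set G))) S
  · rw [le_centralizer_iff]
    exact (omegaOne_le p _).trans (inf_le_right.trans (centralizer_le inf_le_left))

end Cfsg.Agent.S0601
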