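import Cfsg.Statements.S0602
import Cfsg.Agent.LibH2Thomp

set_option autoImplicit false
open Cfsg

namespace Cfsg.Agent.S0602

open Subgroup Cfsg MulAction CfsgLib.Cores CfsgLib.Coprime CfsgLib.H2Misc CfsgLib.H2Solv CfsgLib.H2Subn CfsgLib.H2Quad CfsgLib.H2Gen CfsgLib.H2Gen2 CfsgLib.H2Thomp
open scoped Pointwise commutatorElement
universe uu



/-- The Thompson subgroup is characteristic, and nontrivial as soon as p divides the group order. -/
theorem result {G : Type*} [Group G] [Finite G] {p : ℕ} [Fact p.Prime] : (Cfsg.thompsonSubgroup p G).Characteristic ∧ (p ∣ Nat.card G → Cfsg.thompsonSubgroup p G ≠ ⊥) := by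
  constructor
  · rw [characteristic_iff_map_eq]
    intro e
    rw [← Je_top, ← Je_map p e.toMonoidHom e.injective.injOn]
    congr 1
    exact map_top_of_surjective _ e.surjective
  · intro hd h0
    obtain ⟨x, hx⟩ := exists_prime_orderOf_dvd_card' p hd
    obtain ⟨A, hA⟩ := exists_maxIn (Q := IsElementaryAbelian p) (P := (⊤ : Subgroup G)) bot_le (elab_bot p)
    have hA1 : A = ⊥ := by
      rw [eq_bot_iff, ← h0, ← Je_top]
      exact le_sSup hA
    have h1 := hA.2.2 (zpowers x) le_top ⟨inferInstance, ?_⟩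
    · rw [hA1, card_bot, Nat.card_zpowers, hx] at h1
      exact absurd (Fact.out : p.Prime).one_lt (by omega)
    · rintro a ⟨m, rfl⟩
      change (x ^ m) ^ p = 1
      rw [← zpow_natCast, ← zpow_mul, mul_comm, zpow_mul, zpow_natCast, ← hx, pow_orderOf_eq_one, one_zpow]

end Cfsg.Agent.S0602
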