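import Cfsg.Statements.S0603
import Cfsg.Agent.LibH2Thomp

set_option autoImplicit false
open Cfsg

namespace Cfsg.Agent.S0603

open Subgroup Cfsg MulAction CfsgLib.Cores CfsgLib.Coprime CfsgLib.H2Misc CfsgLib.H2Solv CfsgLib.H2Subn CfsgLib.H2Quad CfsgLib.H2Gen CfsgLib.H2Gen2 CfsgLib.H2Thomp
open scoped Pointwise commutatorElement
universe uu



/-- The Thompson subgroup of any subgroup containing J(G) is J(G) itself. -/
theorem result {G : Type*} [Group G] [Finite G] {p : ℕ} [Fact p.Prime] (U : Subgroup G) (hU : Cfsg.thompsonSubgroup p G ≤ U) : Cfsg.thompsonSubgroupOf p U = Cfsg.thompsonSubgroup p G := by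
  rw [thompsonSubgroupOf_eq, ← Je_top]
  rw [← Je_top] at hU
  exact JQ_eq_of_le (elab_bot p) le_top hU

end Cfsg.Agent.S0603
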