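import Cfsg.Statements.S0604
import Cfsg.Agent.LibH2Thomp

set_option autoImplicit false
open Cfsg

namespace Cfsg.Agent.S0604

open Subgroup Cfsg MulAction CfsgLib.Cores CfsgLib.Coprime CfsgLib.H2Misc CfsgLib.H2Solv CfsgLib.H2Subn CfsgLib.H2Quad CfsgLib.H2Gen CfsgLib.H2Gen2 CfsgLib.H2Thomp
open scoped Pointwise commutatorElement
universe uu



/-- The Thompson subgroup of G is the join of the Thompson subgroups of its Sylow p-subgroups. -/
theorem result {G : Type*} [Group G] [Finite G] {p : ℕ} [Fact p.Prime] : Cfsg.thompsonSubgroup p G = ⨆ S : Sylow p G, Cfsg.thompsonSubgroupOf p (S : Subgroup G) := by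
  rw [← Je_top]
  simp only [thompsonSubgroupOf_eq]
  obtain ⟨A₀, hA₀⟩ := exists_maxIn (Q := IsElementaryAbelian p) (P := (⊤ : Subgroup G)) bot_le (elab_bot p)
  apply le_antisymm
  · apply sSup_le
    intro A hA
    obtain ⟨S, hS⟩ := (elab_isPGroup hA.2.1).exists_le_sylow
    refine le_trans (le_sSup ?_) (le_iSup (fun S : Sylow p G => Je p (S : Subgroup G)) S)
    exact ⟨hS, hA.2.1, fun B _ hB => hA.2.2 B le_top hB⟩
  · apply iSup_le
    intro S
    obtain ⟨S₀, hS₀⟩ := (elab_isPGroup hA₀.2.1).exists_le_sylow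
    obtain ⟨g, hg⟩ := MulAction.exists_smul_eq G S₀ S
    -- a member of maximal order inside `S`
    have h1 : MulAut.conj g • A₀ ≤ (S : Subgroup G) := by
      rw [← hg]
      exact pointwise_smul_le_pointwise_smul_iff.mpr hS₀
    have h2 : IsElementaryAbelian p (MulAut.conj g • A₀) := elab_map (MulAut.conj g).toMonoidHom hA₀.2.1
    apply sSup_le
    intro B hB
    apply le_sSup
    refine ⟨le_top, hB.2.1, fun C _ hC => ?_⟩
    have h3 := hB.2.2 _ h1 h2
    rw [card_conj_smul] at h3
    exact (hA₀.2.2 C le_top hC).trans h3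

end Cfsg.Agent.S0604
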