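import Cfsg.Statements.S0605
import Cfsg.Agent.LibH2Thomp

set_option autoImplicit false
open Cfsg

namespace Cfsg.Agent.S0605

open Subgroup Cfsg MulAction CfsgLib.Cores CfsgLib.Coprime CfsgLib.H2Misc CfsgLib.H2Solv CfsgLib.H2Subn CfsgLib.H2Quad CfsgLib.H2Gen CfsgLib.H2Gen2 CfsgLib.H2Thomp
open scoped Pointwise commutatorElement
universe uu



/-- Elements of order p in the centralizer of the Thompson subgroup belong to the Thompson subgroup (so to its centre). -/
theorem result {G : Type*} [Group G] [Finite G] {p : ℕ} [Fact p.Prime] (x : G) (hx : x ∈ Subgroup.centralizer (Cfsg.thompsonSubgroup p G : Set G)) (ho : orderOf x = p) : x ∈ Cfsg.thompsonSubgroup p G := by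
  obtain ⟨A, hA⟩ := exists_maxIn (Q := IsElementaryAbelian p) (P := (⊤ : Subgroup G)) bot_le (elab_bot p)
  have hAJ : A ≤ thompsonSubgroup p G := by rw [← Je_top]; exact le_sSup hA
  have hxA : ∀ a ∈ A, a * x = x * a := fun a ha => mem_centralizer_iff.mp hx a (hAJ ha)
  have hxp : ∀ m : ℤ, (x ^ m) ^ p = 1 := by
    intro m
    rw [← zpow_natCast, ← zpow_mul, mul_comm, zpow_mul, zpow_natCast, ← ho, pow_orderOf_eq_one, one_zpow]
  have hle : A ≤ centralizer ((zpowers x : Subgroup G) : Set G) := by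
    intro a ha
    rw [mem_centralizer_iff]
    rintro _ ⟨m, rfl⟩
    exact ((show Commute a x from hxA a ha).symm.zpow_left m).eq
  have hmem : ∀ y ∈ A ⊔ zpowers x, ∃ a ∈ A, ∃ m : ℤ, y = a * x ^ m := by
    intro y hy
    rw [← SetLike.mem_coe, coe_mul_of_left_le_normalizer_right A (zpowers x) (hle.trans (centralizer_le_normalizer _))] at hy
    obtain ⟨a, ha, z, ⟨m, rfl⟩, rfl⟩ := hy
    exact ⟨a, ha, m, rfl⟩
  have h1 : IsElementaryAbelian p (A ⊔ zpowers x) := by
    refine ⟨mulComm_of_comm ?_, ?_⟩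
    · intro y hy z hz
      obtain ⟨a, ha, m, rfl⟩ := hmem y hy
      obtain ⟨b, hb, n, rfl⟩ := hmem z hz
      have c1 : Commute a x := hxA a ha
      have c2 : Commute b x := hxA b hb
      have c3 : Commute a b := comm_of_elab hA.2.1 a ha b hb
      exact ((c3.mul_right (c1.zpow_right n)).mul_left ((c2.symm.zpow_left m).mul_right ((Commute.refl x).zpow_zpow m n))).eq
    · intro y hy
      obtain ⟨a, ha, m, rfl⟩ := hmem y hy
      have c1 : Commute a (x ^ m) := (show Commute a x from hxA a ha).zpow_right m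
      rw [c1.mul_pow, hA.2.1.2 a ha, hxp, one_mul]
  have h2 : A = A ⊔ zpowers x := eq_of_le_of_card_ge le_sup_left (hA.2.2 _ le_top h1)
  apply hAJ
  rw [h2]
  exact mem_sup_right (mem_zpowers x)

end Cfsg.Agent.S0605
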