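import Cfsg.Statements.S0608
import Cfsg.Agent.LibH2Thomp
import Cfsg.Agent.S0604

set_option autoImplicit false
open Cfsg

namespace Cfsg.Agent.S0608

open Subgroup Cfsg MulAction CfsgLib.Cores CfsgLib.Coprime CfsgLib.H2Misc CfsgLib.H2Solv CfsgLib.H2Subn CfsgLib.H2Quad CfsgLib.H2Gen CfsgLib.H2Gen2 CfsgLib.H2Thomp
open scoped Pointwise commutatorElement
universe uu



/-- With trivial p'-core, Thompson factorizability is equivalent to J(G) centralizing the subgroup generated by all Ω₁(Z(S)), S Sylow. -/
theorem result {G : Type*} [Group G] [Finite G] {p : ℕ} [Fact p.Prime] (hO : Cfsg.pPrimeCore p G = ⊥) : Cfsg.IsThompsonFactorizable p G ↔ Cfsg.thompsonSubgroup p G ≤ Subgroup.centralizer ((⨆ S : Sylow p G, Cfsg.omegaOne p (((S : Subgroup G)) ⊓ Subgroup.centralizer ((S : Subgroup G) : Set G)) : Subgroup G) : Set G) := by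
  set Om : Sylow p G → Subgroup G := fun S => omegaOne p (((S : Subgroup G)) ⊓ centralizer ((S : Subgroup G) : Set G)) with hOm
  have hOmS : ∀ (g : G) (S : Sylow p G), Om (g • S) = MulAut.conj g • Om S := by
    intro g S
    change omegaOne p (((MulAut.conj g • (S : Subgroup G))) ⊓ centralizer ((MulAut.conj g • (S : Subgroup G) : Subgroup G) : Set G)) = _
    rw [center_smul, omegaOne_smul]
  have hJ : thompsonSubgroup p G = ⨆ S : Sylow p G, thompsonSubgroupOf p (S : Subgroup G) :=
    Cfsg.Agent.S0604.result
  constructor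
  · intro h
    rw [hJ]
    apply iSup_le
    intro S
    rw [le_centralizer_iff]
    apply iSup_le
    intro T
    obtain ⟨g, rfl⟩ := MulAction.exists_smul_eq G S T
    change Om (g • S) ≤ _
    rw [hOmS]
    obtain ⟨x, hx, c, hc, n, hn, e⟩ := h S g⁻¹
    rw [hO, mem_bot] at hx
    rw [hx, one_mul] at e
    have e2 : g = n⁻¹ * c⁻¹ := by rw [← inv_inv g, e]; group
    have h1 : MulAut.conj c⁻¹ • Om S = Om S := by
      apply conj_smul_eq_of_mem_normalizer
      exact inv_mem (centralizer_le_normalizer _ hc)
    have h2 : MulAut.conj n⁻¹ • centralizer (thompsonSubgroupOf p (S : Subgroup G) : Set G) =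
        centralizer (thompsonSubgroupOf p (S : Subgroup G) : Set G) := by
      rw [← centralizer_smul, conj_smul_eq_of_mem_normalizer (inv_mem hn)]
    rw [e2, map_mul, mul_smul, h1, ← h2]
    apply pointwise_smul_le_pointwise_smul_iff.mpr
    rw [le_centralizer_iff, thompsonSubgroupOf_eq]
    refine (JQ_le _ _).trans ?_
    rw [le_centralizer_iff]
    exact (omegaOne_le p _).trans inf_le_right
  · intro h S g
    set W := (⨆ S : Sylow p G, Om S) with hW
    haveI hWn : W.Normal := by
      constructor
      intro x hx g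
      have h1 : MulAut.conj g • W ≤ W := by
        rw [pointwise_smul_subset_iff]
        apply iSup_le
        intro S
        rw [← pointwise_smul_subset_iff, ← hOmS]
        exact le_iSup Om (g • S)
      exact h1 (smul_mem_pointwise_smul x (MulAut.conj g) W hx)
    set C := centralizer (W : Set G) with hC
    haveI : C.Normal := inferInstance
    have hJS : thompsonSubgroupOf p (S : Subgroup G) ≤ (S : Subgroup G) ⊓ C := by
      apply le_inf
      · rw [thompsonSubgroupOf_eq]; exact JQ_le _ _
      · refine le_trans ?_ h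
        rw [hJ]
        exact le_iSup (fun S : Sylow p G => thompsonSubgroupOf p (S : Subgroup G)) S
    have hJeq : Je p ((S : Subgroup G) ⊓ C) = Je p (S : Subgroup G) := by
      rw [thompsonSubgroupOf_eq] at hJS
      exact JQ_eq_of_le (elab_bot p) inf_le_left hJS
    obtain ⟨Q, hQ⟩ := exists_sylow_inf_normal S C
    have h1 := Sylow.normalizer_sup_eq_top (N := C) Q
    have h2 : (Q : Subgroup C).map C.subtype = (S : Subgroup G) ⊓ C := by
      rw [hQ, subgroupOf_map_subtype]
    rw [h2] at h1
    have h3 : C ⊔ normalizer (thompsonSubgroupOf p (S : Subgroup G) : Set G) = ⊤ := by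
      rw [eq_top_iff, ← h1, thompsonSubgroupOf_eq, ← hJeq]
      exact sup_le ((normalizer_le_Je p _).trans le_sup_right) le_sup_left
    have h4 : g ∈ C ⊔ normalizer (thompsonSubgroupOf p (S : Subgroup G) : Set G) := by rw [h3]; trivial
    rw [← SetLike.mem_coe, Subgroup.normal_mul] at h4
    obtain ⟨c, hc, n, hn, rfl⟩ := h4
    refine ⟨1, one_mem _, c, ?_, n, hn, by rw [one_mul]⟩
    exact centralizer_le (le_iSup Om S) hc

end Cfsg.Agent.S0608
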