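import Cfsg.Statements.S0609
import Cfsg.Agent.LibH2Lift

set_option autoImplicit false
open Cfsg

namespace Cfsg.Agent.S0609

open Subgroup Cfsg MulAction CfsgLib.Cores CfsgLib.Coprime CfsgLib.H2Misc CfsgLib.H2Solv CfsgLib.H2Subn CfsgLib.H2Quad CfsgLib.H2Gen CfsgLib.H2Gen2 CfsgLib.H2Thomp CfsgLib.H2Lift
open scoped Pointwise commutatorElement
universe uu



/-- Thompson factorizability passes to and from the quotient by the largest normal subgroup of order prime to p. -/
theorem result {G : Type*} [Group G] [Finite G] {p : ℕ} [Fact p.Prime] : Cfsg.IsThompsonFactorizable p G ↔ Cfsg.IsThompsonFactorizable p (G ⧸ Cfsg.pPrimeCore p G) := by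
  set O := pPrimeCore p G with hO
  have hOc : (Nat.card O).Coprime p := pPrimeCore_coprime p
  have hf := QuotientGroup.mk'_surjective O
  have hO' : pPrimeCore p (G ⧸ O) = ⊥ := pPrimeCore_quotient_pPrimeCore p
  have hS : ∀ S : Sylow p G, Set.InjOn (QuotientGroup.mk' O) (S : Subgroup G) := fun S =>
    injOn_of_inf_eq_bot (inf_eq_bot_of_isPGroup S.isPGroup' hOc)
  have hOm : ∀ S : Sylow p G, omegaOne p (((S : Subgroup G).map (QuotientGroup.mk' O)) ⊓
      centralizer (((S : Subgroup G).map (QuotientGroup.mk' O) : Subgroup (G ⧸ O)) : Set (G ⧸ O))) =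
      (omegaOne p ((S : Subgroup G) ⊓ centralizer ((S : Subgroup G) : Set G))).map (QuotientGroup.mk' O) := by
    intro S
    rw [center_map _ (hS S), omegaOne_map p _ ((hS S).mono inf_le_left)]
  have hJ : ∀ S : Sylow p G, thompsonSubgroupOf p ((S : Subgroup G).map (QuotientGroup.mk' O)) =
      (thompsonSubgroupOf p (S : Subgroup G)).map (QuotientGroup.mk' O) := by
    intro S
    rw [thompsonSubgroupOf_eq, thompsonSubgroupOf_eq, Je_map p _ (hS S)]
  have hOmp : ∀ S : Sylow p G, IsPGroup p ↥(omegaOne p ((S : Subgroup G) ⊓ centralizer ((S : Subgroup G) : Set G))) :=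
    fun S => S.isPGroup'.to_le ((omegaOne_le p _).trans inf_le_left)
  have hJp : ∀ S : Sylow p G, IsPGroup p ↥(thompsonSubgroupOf p (S : Subgroup G)) := fun S => by
    rw [thompsonSubgroupOf_eq]; exact S.isPGroup'.to_le (JQ_le _ _)
  constructor
  · intro h S' g'
    obtain ⟨S, rfl⟩ := Sylow.mapSurjective_surjective hf p S'
    obtain ⟨g, rfl⟩ := hf g'
    obtain ⟨x, hx, c, hc, n, hn, rfl⟩ := h S g
    refine ⟨1, one_mem _, QuotientGroup.mk' O c, ?_, QuotientGroup.mk' O n, ?_, ?_⟩
    · rw [Sylow.coe_mapSurjective, hOm, centralizer_map_eq (hOmp S) hOc]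
      exact mem_map_of_mem _ hc
    · rw [Sylow.coe_mapSurjective, hJ]
      exact normalizer_map_le _ _ (mem_map_of_mem _ hn)
    · rw [map_mul, map_mul, show QuotientGroup.mk' O x = 1 from (QuotientGroup.eq_one_iff x).mpr hx]
  · intro h S g
    obtain ⟨x', hx', c', hc', n', hn', e⟩ := h (S.mapSurjective hf) (QuotientGroup.mk' O g)
    rw [Sylow.coe_mapSurjective, hOm, centralizer_map_eq (hOmp S) hOc] at hc'
    rw [Sylow.coe_mapSurjective, hJ, normalizer_map_eq (hJp S) hOc] at hn'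
    obtain ⟨c, hc, rfl⟩ := hc'
    obtain ⟨n, hn, rfl⟩ := hn'
    rw [hO', mem_bot] at hx'
    rw [hx', one_mul, ← map_mul] at e
    have h1 : (c * n)⁻¹ * g ∈ O := QuotientGroup.eq.mp e.symm
    refine ⟨(c * n) * ((c * n)⁻¹ * g) * (c * n)⁻¹, Normal.conj_mem inferInstance _ h1 _, c, hc, n, hn, by group⟩

end Cfsg.Agent.S0609
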