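import Cfsg.Statements.S0633
import Cfsg.Agent.LibHHB

set_option autoImplicit false
open Cfsg

namespace Cfsg.Agent.S0633

/-- Theorem B of Hall and Higman on the minimal polynomial of a p-element of order p^n in a p-solvable linear group on a nonzero vector space in characteristic p with no nontrivial normal p-subgroup: its degree is p^n, except when some p^n₀ - 1 (n₀ ≤ n) is a power of a prime q for which the Sylow q-subgroups are non-abelian, in which case the degree is at least p^(n-n₀)(p^n₀ - 1). -/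
theorem result {F : Type*} [Field F] {p : ℕ} [Fact p.Prime] [CharP F p] {V : Type*} [AddCommGroup V] [Module F V] [FiniteDimensional F V] [Nontrivial V] (H : Subgroup (V ≃ₗ[F] V)) [Finite H] (hsol : Cfsg.IsPSolvable p H) (hOp : Cfsg.pCore p H = ⊥) (x : V ≃ₗ[F] V) (hx : x ∈ H) (n : ℕ) (hn : orderOf x = p ^ n) (r : ℕ) (hr : minpoly F (x : Module.End F V) = (Polynomial.X - 1) ^ r) : r = p ^ n ∨ ∃ n₀ q m : ℕ, 1 ≤ n₀ ∧ n₀ ≤ n ∧ q.Prime ∧ 1 ≤ m ∧ p ^ n₀ - 1 = q ^ m ∧ (∀ Q : Sylow q H, ¬ IsMulCommutative Q) ∧ p ^ (n - n₀) * (p ^ n₀ - 1) ≤ r := by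
  classical
  have hp : p.Prime := Fact.out
  set f : Module.End F V := (x : Module.End F V) with hf
  have hfr : (f - 1) ^ r = 0 := by
    have h1 := minpoly.aeval F f
    rw [hr] at h1
    simpa using h1
  have hfn : (f - 1) ^ p ^ n = 0 := by
    rw [CfsgLib.HHBMain.sub_one_pow_char, sub_eq_zero]
    have h1 : x ^ p ^ n = 1 := by rw [← hn, pow_orderOf_eq_one]
    have h2 : ∀ k : ℕ, f ^ k = ((x ^ k : V ≃ₗ[F] V) : Module.End F V) := by
      intro k
      induction k with
      | zero => rfl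
      | succ k ih => rw [pow_succ, ih, pow_succ]; rfl
    rw [h2, h1]; rfl
  have hrle : r ≤ p ^ n := by
    have h1 : minpoly F f ∣ (Polynomial.X - 1) ^ p ^ n := by
      apply minpoly.dvd
      simpa using hfn
    rw [hr] at h1
    have h3 : (Polynomial.X - 1 : Polynomial F) = Polynomial.X - Polynomial.C 1 := by rw [map_one]
    have h2 : ((Polynomial.X - 1 : Polynomial F) ^ p ^ n) ≠ 0 := by
      rw [h3]
      exact pow_ne_zero _ (Polynomial.X_sub_C_ne_zero 1)
    have h4 := Polynomial.natDegree_le_of_dvd h1 h2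
    rwa [h3, (Polynomial.monic_X_sub_C 1).natDegree_pow, (Polynomial.monic_X_sub_C 1).natDegree_pow,
      Polynomial.natDegree_X_sub_C, mul_one, mul_one] at h4
  rcases Nat.eq_zero_or_pos n with h0 | hn1
  · left
    subst h0
    have : r ≠ 0 := by
      rintro rfl
      rw [pow_zero] at hfr
      exact one_ne_zero hfr
    rw [pow_zero] at hrle ⊢
    omega
  · let ρ : H →* Module.End F V :=
      { toFun := fun y => ((y : V ≃ₗ[F] V) : Module.End F V)
        map_one' := rfl
        map_mul' := fun _ _ => rfl }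
    have hρ : ∀ y : H, ρ y = ((y : V ≃ₗ[F] V) : Module.End F V) := fun y => rfl
    have hρinj : Function.Injective ρ := by
      intro a b hab
      apply Subtype.ext
      exact LinearEquiv.toLinearMap_injective hab
    have hord : orderOf (⟨x, hx⟩ : H) = p ^ n := by rw [Subgroup.orderOf_mk, hn]
    obtain ⟨q, Q, hq, hpq, hQ, _, hxQ, y, hy, hyx⟩ := CfsgLib.HHB.exists_q hsol hOp ⟨x, hx⟩ n hn1 hord
    haveI : Fact q.Prime := ⟨hq⟩
    rcases CfsgLib.HHB.thmB ((Nat.coprime_primes hp hq).2 hpq) ρ Q hQ ⟨x, hx⟩ hxQ n hn1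
      (by rw [← hord, pow_orderOf_eq_one]) ⟨y, hy, fun he => hyx (hρinj he)⟩ r hfr with h1 | ⟨n₀, m, h1, h2, h3, h4, ⟨a, b, hab⟩, h5⟩
    · exact Or.inl (le_antisymm hrle h1)
    · right
      refine ⟨n₀, q, m, h1, h2, hq, h3, h4, ?_, h5⟩
      intro S hS
      obtain ⟨S', hS'⟩ := hQ.exists_le_sylow
      apply hab
      have e := Sylow.equiv S' S
      apply Subtype.ext
      have h6 : (⟨a, hS' a.2⟩ : S') * ⟨b, hS' b.2⟩ = ⟨b, hS' b.2⟩ * ⟨a, hS' a.2⟩ := by
        apply e.injective
        rw [map_mul, map_mul]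
        exact hS.is_comm.comm _ _
      have h7 := congrArg (fun z : S' => ((z : H) : V ≃ₗ[F] V)) h6
      exact Subtype.ext h7

end Cfsg.Agent.S0633
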