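import Cfsg.Statements.S0641
import Cfsg.Agent.LibH2Lift

set_option autoImplicit false
open Cfsg

namespace Cfsg.Agent.S0641

open Subgroup Cfsg MulAction CfsgLib.Cores CfsgLib.Coprime CfsgLib.H2Misc CfsgLib.H2Solv CfsgLib.H2Subn CfsgLib.H2Quad CfsgLib.H2Gen CfsgLib.H2Gen2 CfsgLib.H2Thomp CfsgLib.H2Lift
open scoped Pointwise commutatorElement
universe uu



/-- Regularity of a p-group passes to quotient groups. -/
theorem result {G : Type*} [Group G] {p : ℕ} [Fact p.Prime] (hG : Cfsg.IsRegularPGroup p G) (N : Subgroup G) [N.Normal] : Cfsg.IsRegularPGroup p (G ⧸ N) := by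
  refine ⟨hG.1.to_quotient N, ?_⟩
  intro a' b' n
  obtain ⟨a, rfl⟩ := QuotientGroup.mk'_surjective N a'
  obtain ⟨b, rfl⟩ := QuotientGroup.mk'_surjective N b'
  obtain ⟨c, hc, e⟩ := hG.2 a b n
  refine ⟨QuotientGroup.mk' N c, ?_, ?_⟩
  · have h1 : Subgroup.closure ({QuotientGroup.mk' N a, QuotientGroup.mk' N b} : Set (G ⧸ N)) =
        (Subgroup.closure ({a, b} : Set G)).map (QuotientGroup.mk' N) := by
      rw [MonoidHom.map_closure]
      congr 1
      rw [Set.image_pair]
    rw [h1, ← map_commutator]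
    have h2 := mem_map_of_mem (QuotientGroup.mk' N) hc
    refine SetLike.le_def.mp ?_ h2
    rw [powerClosure, powerClosure, MonoidHom.map_closure]
    apply Subgroup.closure_mono
    rintro _ ⟨y, ⟨x, hx, rfl⟩, rfl⟩
    exact ⟨QuotientGroup.mk' N x, mem_map_of_mem _ hx, map_pow _ _ _⟩
  · rw [← map_mul, ← map_pow, e, map_mul, map_mul, map_pow, map_pow]

end Cfsg.Agent.S0641
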