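import Cfsg.Statements.S0642
import Cfsg.Agent.LibH2PG

set_option autoImplicit false
open Cfsg

namespace Cfsg.Agent.S0642

open Subgroup Cfsg MulAction CfsgLib.Cores CfsgLib.Coprime CfsgLib.H2Misc CfsgLib.H2Solv CfsgLib.H2Subn CfsgLib.H2Quad CfsgLib.H2Gen CfsgLib.H2Gen2 CfsgLib.H2Thomp CfsgLib.H2Lift CfsgLib.H2PG
open scoped Pointwise commutatorElement
universe uu



/-- Among finite 2-groups the regular ones are exactly the abelian ones. -/
theorem result {G : Type*} [Group G] [Finite G] (hG : IsPGroup 2 G) : Cfsg.IsRegularPGroup 2 G ↔ ∀ a b : G, a * b = b * a := by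
  haveI : Fact (Nat.Prime 2) := ⟨Nat.prime_two⟩
  constructor
  · intro h a b
    set H := Subgroup.closure ({a, b} : Set G) with hH
    obtain ⟨c, hc, e⟩ := h.2 a b 1
    have e : (a * b) ^ 2 = a ^ 2 * b ^ 2 * c := e
    set K := powerClosure 2 1 ⁅H, H⁆ with hK
    have hKH : H ≤ normalizer (K : Set G) :=
      (normalizer_commutator_ge_left H H).trans (normalizer_le_powerClosure 2 1 _)
    have haH : a ∈ H := Subgroup.subset_closure (by simp)
    have hbH : b ∈ H := Subgroup.subset_closure (by simp)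
    have e1 : c = b⁻¹ * (b⁻¹ * a⁻¹ * b * a) * b := by
      have h5 : (a * b) * (a * b) = a * a * (b * b) * c := by
        rw [← pow_two, ← pow_two, ← pow_two]; exact e
      calc c = (a * a * (b * b))⁻¹ * (a * a * (b * b) * c) := by group
        _ = (a * a * (b * b))⁻¹ * ((a * b) * (a * b)) := by rw [h5]
        _ = b⁻¹ * (b⁻¹ * a⁻¹ * b * a) * b := by group
    have h6 : b * c * b⁻¹ ∈ K := (mem_normalizer_iff.mp (hKH hbH) c).mp hc
    have h7 : b * c * b⁻¹ = ⁅b⁻¹, a⁻¹⁆ := by rw [e1, commutatorElement_def]; group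
    rw [h7] at h6
    have h8 : (b * a) * (⁅b⁻¹, a⁻¹⁆) * (b * a)⁻¹ ∈ K := (mem_normalizer_iff.mp (hKH (mul_mem hbH haH)) _).mp h6
    have h9 : (b * a) * (⁅b⁻¹, a⁻¹⁆) * (b * a)⁻¹ = ⁅b, a⁆ := by
      simp only [commutatorElement_def]; group
    rw [h9] at h8
    have h10 : ⁅a, b⁆ ∈ K := by rw [← commutatorElement_inv]; exact inv_mem h8
    have h11 : ⁅H, H⁆ ≤ K := commutator_closure_pair_le hKH h10
    have h12 : ⁅H, H⁆ = ⊥ := eq_bot_of_le_powerClosure (p := 2) (hG.to_subgroup _) h11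
    rw [← commutatorElement_eq_one_iff_mul_comm]
    have h13 : ⁅a, b⁆ ∈ ⁅H, H⁆ := commutator_mem_commutator haH hbH
    rwa [h12, mem_bot] at h13
  · intro h
    refine ⟨hG, fun a b n => ⟨1, one_mem _, ?_⟩⟩
    rw [(show Commute a b from h a b).mul_pow, mul_one]

end Cfsg.Agent.S0642
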