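import Cfsg.Statements.S0660
import Cfsg.Agent.LibH2PG

set_option autoImplicit false
open Cfsg

namespace Cfsg.Agent.S0660

open Subgroup Cfsg MulAction CfsgLib.Cores CfsgLib.Coprime CfsgLib.H2Misc CfsgLib.H2Solv CfsgLib.H2Subn CfsgLib.H2Quad CfsgLib.H2Gen CfsgLib.H2Gen2 CfsgLib.H2Thomp CfsgLib.H2Lift CfsgLib.H2PG
open scoped Pointwise commutatorElement
universe uu



/-- Under a coprime action on an abelian group, an invariant subgroup that is complemented admits an invariant complement. -/
theorem result {G : Type*} [Group G] [Finite G] (V A U : Subgroup G) (hVab : IsMulCommutative V) (hAV : A ≤ Subgroup.normalizer (V : Set G)) (hcop : (Nat.card A).Coprime (Nat.card V)) (hUV : U ≤ V) (hAU : A ≤ Subgroup.normalizer (U : Set G)) (W : Subgroup G) (hWV : W ≤ V) (hUW : U ⊓ W = ⊥) (hUWV : U ⊔ W = V) : ∃ W' : Subgroup G, W' ≤ V ∧ A ≤ Subgroup.normalizer (W' : Set G) ∧ U ⊓ W' = ⊥ ∧ U ⊔ W' = V := by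
  classical
  have hV := comm_of_mulComm hVab
  letI : CommGroup V := { (inferInstance : Group V) with mul_comm := fun a b => Subtype.ext (hV a a.2 b b.2) }
  haveI : Fintype A := Fintype.ofFinite A
  -- the projection onto `U` along `W`
  have hdec : ∀ v : V, ∃ u : U, ∃ w : W, (v : G) = u * w := by
    intro v
    have h1 : (v : G) ∈ U ⊔ W := by rw [hUWV]; exact v.2
    have h2 : U ≤ normalizer (W : Set G) := by
      refine le_trans ?_ (centralizer_le_normalizer _)
      exact le_centralizer_of_comm fun x hx y hy => hV x (hUV hx) y (hWV hy)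
    rw [← SetLike.mem_coe, coe_mul_of_left_le_normalizer_right U W h2] at h1
    obtain ⟨u, hu, w, hw, e⟩ := h1
    exact ⟨⟨u, hu⟩, ⟨w, hw⟩, e.symm⟩
  choose f g hfg using hdec
  have huniq : ∀ (u u' : G) (w w' : G), u ∈ U → u' ∈ U → w ∈ W → w' ∈ W → u * w = u' * w' → u = u' := by
    intro u u' w w' hu hu' hw hw' e
    have h1 : u'⁻¹ * u = w' * w⁻¹ := by
      calc u'⁻¹ * u = u'⁻¹ * (u * w) * w⁻¹ := by group
        _ = u'⁻¹ * (u' * w') * w⁻¹ := by rw [e]
        _ = w' * w⁻¹ := by group
    have h2 : u'⁻¹ * u ∈ U ⊓ W := mem_inf.mpr ⟨mul_mem (inv_mem hu') hu, by rw [h1]; exact mul_mem hw' (inv_mem hw)⟩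
    rw [hUW, mem_bot] at h2
    rw [← mul_one u', ← h2, mul_inv_cancel_left]
  let π : V →* V := 
    { toFun := fun v => ⟨f v, hUV (f v).2⟩
      map_one' := by
        apply Subtype.ext
        change ((f 1 : U) : G) = 1
        have := hfg 1
        exact huniq _ _ _ _ (f 1).2 (one_mem U) (g 1).2 (one_mem W) (by rw [← this]; simp)
      map_mul' := by
        intro x y
        apply Subtype.ext
        change ((f (x * y) : U) : G) = (f x : G) * (f y : G)
        apply huniq _ _ _ _ (f (x * y)).2 (mul_mem (f x).2 (f y).2) (g (x * y)).2 (mul_mem (g x).2 (g y).2)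
        rw [← hfg, Subgroup.coe_mul]
        have e : (f y : G) * (g x : G) = (g x : G) * (f y : G) := hV _ (hUV (f y).2) _ (hWV (g x).2)
        calc (x : G) * y = ((f x : G) * (g x : G)) * ((f y : G) * (g y : G)) := by rw [← hfg, ← hfg]
          _ = (f x : G) * ((g x : G) * (f y : G)) * (g y : G) := by group
          _ = (f x : G) * ((f y : G) * (g x : G)) * (g y : G) := by rw [e]
          _ = (f x : G) * (f y : G) * ((g x : G) * (g y : G)) := by group }
  have hπU : ∀ v : V, ((π v : V) : G) ∈ U := fun v => (f v).2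
  have hπid : ∀ v : V, (v : G) ∈ U → π v = v := by
    intro v hv
    apply Subtype.ext
    change ((f v : U) : G) = v
    exact huniq _ _ _ _ (f v).2 hv (g v).2 (one_mem W) (by rw [← hfg, mul_one])
  -- conjugation by elements of `A`
  let c : A → (V ≃* V) := fun a => 
    { toFun := fun v => ⟨(a : G) * v * (a : G)⁻¹, (mem_normalizer_iff.mp (hAV a.2) _).mp v.2⟩
      invFun := fun v => ⟨(a : G)⁻¹ * v * (a : G), by
        have := (mem_normalizer_iff.mp (inv_mem (hAV a.2)) v).mp v.2
        rwa [inv_inv] at this⟩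
      left_inv := fun v => by apply Subtype.ext; simp [mul_assoc]
      right_inv := fun v => by apply Subtype.ext; simp [mul_assoc]
      map_mul' := fun v w => by apply Subtype.ext; simp [mul_assoc] }
  have hc : ∀ a v, ((c a v : V) : G) = (a : G) * v * (a : G)⁻¹ := fun a v => rfl
  have hcs : ∀ a v, (((c a).symm v : V) : G) = (a : G)⁻¹ * v * (a : G) := fun a v => rfl
  let F : V →* V := ∏ a : A, ((c a).toMonoidHom.comp (π.comp (c a).symm.toMonoidHom))
  have hF : ∀ v, F v = ∏ a : A, c a (π ((c a).symm v)) := by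
    intro v
    simp only [F, MonoidHom.finsetProd_apply]
    rfl
  have hFU : ∀ v, ((F v : V) : G) ∈ U := by
    intro v
    have : F v ∈ U.subgroupOf V := by
      rw [hF]
      apply prod_mem
      intro a _
      rw [mem_subgroupOf, hc]
      exact (mem_normalizer_iff.mp (hAU a.2) _).mp (hπU _)
    exact this
  have hFid : ∀ v : V, (v : G) ∈ U → F v = v ^ Nat.card A := by
    intro v hv
    rw [hF]
    have : ∀ a : A, c a (π ((c a).symm v)) = v := by
      intro a
      rw [hπid]
      · exact (c a).apply_symm_apply v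
      · rw [hcs]
        have := (mem_normalizer_iff.mp (inv_mem (hAU a.2)) v).mp hv
        rwa [inv_inv] at this
    simp only [this, Finset.prod_const, Finset.card_univ, Nat.card_eq_fintype_card]
  have hFeq : ∀ (b : A) (v : V), F (c b v) = c b (F v) := by
    intro b v
    rw [hF, hF, map_prod]
    apply Fintype.prod_equiv (Equiv.mulLeft b⁻¹)
    intro a
    have h1 : (c a).symm (c b v) = (c (b⁻¹ * a)).symm v := by
      apply Subtype.ext
      rw [hcs, hcs, hc]
      push_cast
      group
    have h2 : ∀ w, c a w = c b (c (b⁻¹ * a) w) := by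
      intro w
      apply Subtype.ext
      rw [hc, hc, hc]
      push_cast
      group
    rw [h1, h2]
    rfl
  refine ⟨F.ker.map V.subtype, map_subtype_le _, ?_, ?_, ?_⟩
  · apply le_normalizer_of_conj
    rintro a ha _ ⟨v, hv, rfl⟩
    refine ⟨c ⟨a, ha⟩ v, ?_, rfl⟩
    rw [SetLike.mem_coe, MonoidHom.mem_ker, hFeq, MonoidHom.mem_ker.mp hv, map_one]
  · rw [eq_bot_iff]
    intro x hx
    obtain ⟨hx1, ⟨v, hv, rfl⟩⟩ := mem_inf.mp hx
    have h1 := hFid v hx1
    rw [MonoidHom.mem_ker.mp hv] at h1
    have h2 : orderOf v ∣ Nat.card A := orderOf_dvd_of_pow_eq_one h1.symm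
    have h3 := Nat.dvd_gcd h2 (orderOf_dvd_natCard v)
    rw [hcop.gcd_eq_one, Nat.dvd_one, orderOf_eq_one_iff] at h3
    rw [h3]; exact mem_bot.mpr rfl
  · apply le_antisymm (sup_le hUV (map_subtype_le _))
    intro x hx
    have hbij : Function.Surjective (fun y : V => y ^ Nat.card A) := (powCoprime hcop.symm).surjective
    let v : V := ⟨x, hx⟩
    obtain ⟨y, hy⟩ := hbij v
    -- `π y`-like element
    let u : V := F y
    have huU : (u : G) ∈ U := hFU y
    have h1 : F (v * u⁻¹) = 1 := by
      rw [map_mul, map_inv, hFid u huU]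
      have : F v = u ^ Nat.card A := by
        rw [← hy]
        exact map_pow F y _
      rw [this, mul_inv_cancel]
    have h2 : x = (u : G) * ((v * u⁻¹ : V) : G) := by
      have : v = u * (v * u⁻¹) := by
        rw [mul_comm v, mul_inv_cancel_left]
      exact congrArg Subtype.val this
    rw [h2]
    exact mul_mem (mem_sup_left huU) (mem_sup_right ⟨v * u⁻¹, h1, rfl⟩)

end Cfsg.Agent.S0660
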