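import Cfsg.Statements.S0663
import Cfsg.Agent.LibH2Uni

set_option autoImplicit false
open Cfsg

namespace Cfsg.Agent.S0663

open Subgroup Cfsg CfsgLib.H2Uni


/-- A p-group acts uniserially on a p-group N of order p^n exactly when the iterated commutator chain from N has length n; in that case the chain terms are all the invariant subgroups of N and they are normal in N. -/
theorem result {L : Type*} [Group L] [Finite L] {p : ℕ} [Fact p.Prime] (N G : Subgroup L) (hN : IsPGroup p N) (hG : IsPGroup p G) (hGN : G ≤ Subgroup.normalizer (N : Set L)) (n : ℕ) (hn : Nat.card N = p ^ n) : ((∀ H : Subgroup L, H ≤ N → G ≤ Subgroup.normalizer (H : Set L) → H ≠ ⊥ → (⁅H, G⁆).relIndex H = p) ↔ Cfsg.iterCommutator N G (n - 1) ≠ ⊥ ∨ n = 0) ∧ ((∀ H : Subgroup L, H ≤ N → G ≤ Subgroup.normalizer (H : Set L) → H ≠ ⊥ → (⁅H, G⁆).relIndex H = p) → ∀ H : Subgroup L, H ≤ N → G ≤ Subgroup.normalizer (H : Set L) → (∃ i ≤ n, H = Cfsg.iterCommutator N G i) ∧ N ≤ Subgroup.normalizer (H : Set L)) := by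
  refine ⟨⟨?_, ?_⟩, ?_⟩
  · intro hA
    rcases Nat.eq_zero_or_pos n with h0 | h0
    · exact Or.inr h0
    · left
      have h1 := chain_of_uni hN hG hGN hn hA (n - 1) (by omega)
      intro h
      rw [h, card_bot] at h1
      have : 1 < p ^ (n - (n - 1)) := Nat.one_lt_pow (by omega) (Fact.out : p.Prime).one_lt
      omega
  · rintro (h | h0)
    · rcases Nat.eq_zero_or_pos n with h0 | h0
      · intro H hH _ hne
        exfalso
        rw [h0, pow_zero] at hn
        rw [card_eq_one.mp hn, le_bot_iff] at hH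
        exact hne hH
      · exact uni_of_chain hN hG hGN hn (chain_of_ne hN hG hGN hn h h0)
    · intro H hH _ hne
      exfalso
      rw [h0, pow_zero] at hn
      rw [card_eq_one.mp hn, le_bot_iff] at hH
      exact hne hH
  · intro hA H hH hGH
    have hc := chain_of_uni hN hG hGN hn hA
    obtain ⟨i, hi, he, -⟩ := exists_iter hN hG hGN hn hc ⟨hH, hGH⟩
    refine ⟨⟨i, hi, he⟩, ?_⟩
    have h1 := normal_of_chain hN hG hGN hn hc (n - i) (by omega)
    have h2 : n - (n - i) = i := by omega
    rw [h2, ← he] at h1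
    exact h1

end Cfsg.Agent.S0663
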