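import Cfsg.Statements.S0666
import Cfsg.Agent.LibFrob6
import Cfsg.Agent.LibCores

set_option autoImplicit false
open Cfsg

namespace Cfsg.Agent.S0666

open Subgroup Cfsg
open scoped Pointwise

theorem norm_trick {F V : Type*} [Group F] [Finite F] [CommGroup V] (ρ : F →* MulAut V) (N H : Subgroup F)
    [hN : N.Normal] (hH : ∀ g : F, g ∉ H → H ⊓ (MulAut.conj g • H) = ⊥) (hNH : IsComplement' N H)
    (h1 : ∀ v : V, (∀ n ∈ N, ρ n v = v) → v = 1) (h2 : ∀ v : V, (∀ h ∈ H, ρ h v = v) → v = 1) (v : V) :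
    v ^ Nat.card N = 1 := by
  classical
  haveI := Fintype.ofFinite N
  haveI := Fintype.ofFinite H
  have hnorm : ∀ (X : Subgroup F) [Fintype X] (w : V), ∀ x ∈ X, ρ x (∏ z : X, ρ z w) = ∏ z : X, ρ z w := by
    intro X _ w x hx
    rw [map_prod]
    rw [← Equiv.prod_comp (Equiv.mulLeft (⟨x, hx⟩ : X)) (fun z : X => ρ z w)]
    apply Finset.prod_congr rfl
    intro z _
    show ρ x (ρ z w) = ρ ((x : F) * z) w
    rw [map_mul, MulAut.mul_apply]
  have hPN : ∀ w : V, ∏ z : N, ρ z w = 1 := fun w => h1 _ (hnorm N w)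
  have hPH : ∀ w : V, ∏ z : H, ρ z w = 1 := fun w => h2 _ (hnorm H w)
  have hS1 : ∏ y : N, ∏ h : H, ρ ((y : F) * h * (y : F)⁻¹) v = 1 := by
    apply Finset.prod_eq_one
    intro y _
    have e : ∀ h : H, ρ ((y : F) * h * (y : F)⁻¹) v = ρ y (ρ h (ρ (y : F)⁻¹ v)) := by
      intro h
      rw [map_mul, map_mul, MulAut.mul_apply, MulAut.mul_apply]
    rw [Finset.prod_congr rfl (fun h _ => e h), ← map_prod, hPH, map_one]
  have hS2 : ∏ h : H, ∏ y : N, ρ ((y : F) * h * (y : F)⁻¹) v = v ^ Nat.card N := by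
    rw [Finset.prod_eq_single (1 : H)]
    · have e : ∀ y : N, ρ ((y : F) * ((1 : H) : F) * (y : F)⁻¹) v = v := by
        intro y
        rw [coe_one, mul_one, mul_inv_cancel, map_one]; rfl
      rw [Finset.prod_congr rfl (fun y _ => e y), Finset.prod_const, Finset.card_univ, Nat.card_eq_fintype_card]
    · intro h _ hh
      have hmem : ∀ y : N, (y : F) * h * (y : F)⁻¹ * (h : F)⁻¹ ∈ N := by
        intro y
        have := N.mul_mem y.2 (hN.conj_mem _ (N.inv_mem y.2) h)
        simpa [mul_assoc] using this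
      let φ : N → N := fun y => ⟨(y : F) * h * (y : F)⁻¹ * (h : F)⁻¹, hmem y⟩
      have hφ : Function.Injective φ := by
        intro y y' hyy
        have e1 : (y : F) * h * (y : F)⁻¹ * (h : F)⁻¹ = (y' : F) * h * (y' : F)⁻¹ * (h : F)⁻¹ := congrArg Subtype.val hyy
        have e2 : (y : F) * h * (y : F)⁻¹ = (y' : F) * h * (y' : F)⁻¹ := mul_right_cancel e1
        set n : F := (y' : F)⁻¹ * y with hn
        have hnN : n ∈ N := N.mul_mem (N.inv_mem y'.2) y.2
        have e3 : n⁻¹ * (h : F) * n = h := by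
          have : (h : F) = (y' : F)⁻¹ * ((y' : F) * h * (y' : F)⁻¹) * y' := by group
          calc n⁻¹ * (h : F) * n = (y : F)⁻¹ * ((y' : F) * h * (y' : F)⁻¹) * y := by rw [hn]; group
            _ = (y : F)⁻¹ * ((y : F) * h * (y : F)⁻¹) * y := by rw [e2]
            _ = h := by group
        by_contra hne
        have hnH : n ∉ H := by
          intro hnH
          have h3 : n ∈ N ⊓ H := ⟨hnN, hnH⟩
          rw [hNH.isCompl.inf_eq_bot, mem_bot, hn, inv_mul_eq_one] at h3
          exact hne (Subtype.ext h3.symm)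
        have h4 := CfsgLib.Frob6.malnormal hH hnH h.2 (by rw [e3]; exact h.2)
        exact hh (Subtype.ext h4)
      have hφb : Function.Bijective φ := Finite.injective_iff_bijective.mp hφ
      have e : ∀ y : N, ρ ((y : F) * h * (y : F)⁻¹) v = ρ (φ y) (ρ h v) := by
        intro y
        rw [← MulAut.mul_apply, ← map_mul]
        congr 2
        show (y : F) * h * (y : F)⁻¹ = (y : F) * h * (y : F)⁻¹ * (h : F)⁻¹ * h
        group
      rw [Finset.prod_congr rfl (fun y _ => e y), Function.Bijective.prod_comp hφb (fun z : N => ρ z (ρ h v))]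
      exact hPN _
    · intro h
      exact absurd (Finset.mem_univ _) h
  rw [Finset.prod_comm, hS2] at hS1
  exact hS1


/-- A Frobenius group acting on a nontrivial abelian group of order prime to that of its kernel, with the kernel acting without nontrivial fixed points, has a complement with a nontrivial fixed point. -/
theorem result {G : Type*} [Group G] [Finite G] (V F : Subgroup G) (hVab : IsMulCommutative V) (hV1 : V ≠ ⊥) (hFV : F ≤ Subgroup.normalizer (V : Set G)) (H : Subgroup ↥F) (hH : Cfsg.IsFrobeniusComplement H) (hcop : (Nat.card V).Coprime (Nat.card (Cfsg.frobeniusKernel H))) (hCK : V ⊓ Subgroup.centralizer (Subtype.val '' Cfsg.frobeniusKernel H : Set G) = ⊥) : V ⊓ Subgroup.centralizer ((H.map F.subtype : Subgroup G) : Set G) ≠ ⊥ := by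
  intro hC
  obtain ⟨N, hN, hNn, hNH⟩ := CfsgLib.Frob6.frobenius_kernel H hH.2.2
  letI : CommGroup V := { (inferInstance : Group V) with mul_comm := fun a b => hVab.is_comm.comm a b }
  let ρ : F →* MulAut V := (normalizerMonoidHom V).comp (inclusion hFV)
  have hρ : ∀ (f : F) (v : V), ((ρ f v : V) : G) = f * v * (f : G)⁻¹ := fun f v => rfl
  have hfix : ∀ (f : F) (v : V), ρ f v = v → (f : G) * v = v * f := by
    intro f v h
    have h1 := hρ f v
    rw [h] at h1
    rw [eq_mul_inv_iff_mul_eq] at h1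
    exact h1.symm
  have h1 : ∀ v : V, (∀ n ∈ N, ρ n v = v) → v = 1 := by
    intro v hv
    have h2 : (v : G) ∈ V ⊓ centralizer (Subtype.val '' frobeniusKernel H : Set G) := by
      refine ⟨v.2, ?_⟩
      apply mem_centralizer_iff.mpr
      rintro _ ⟨n, hn, rfl⟩
      rw [← hN] at hn
      exact hfix n v (hv n hn)
    rw [hCK, mem_bot] at h2
    exact Subtype.ext h2
  have h2 : ∀ v : V, (∀ h ∈ H, ρ h v = v) → v = 1 := by
    intro v hv
    have h2 : (v : G) ∈ V ⊓ centralizer ((H.map F.subtype : Subgroup G) : Set G) := by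
      refine ⟨v.2, ?_⟩
      apply mem_centralizer_iff.mpr
      rintro _ ⟨h, hh, rfl⟩
      exact hfix h v (hv h hh)
    rw [hC, mem_bot] at h2
    exact Subtype.ext h2
  have key := norm_trick ρ N H (fun g hg => hH.2.2 g hg) hNH h1 h2
  apply hV1
  rw [eq_bot_iff]
  intro v hv
  have h3 := key ⟨v, hv⟩
  have h4 : Nat.card N = Nat.card (frobeniusKernel H) := by rw [← hN]; rfl
  rw [← h4] at hcop
  have h5 : orderOf (⟨v, hv⟩ : V) = 1 := by
    apply Nat.eq_one_of_dvd_coprimes hcop (orderOf_dvd_natCard _) (orderOf_dvd_of_pow_eq_one h3)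
  rw [orderOf_eq_one_iff] at h5
  exact congrArg Subtype.val h5

end Cfsg.Agent.S0666
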