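import Cfsg.Statements.S0668
import Mathlib

-- import your own Cfsg.Agent.* helpers here

set_option autoImplicit false
open Cfsg

namespace Cfsg.Agent.S0668



/-- The equivariant linear maps between the permutation modules of two finite `G`-sets form a space whose dimension is the number of `G`-orbits on the product of the two sets. -/
theorem result {G : Type*} [Group G] {K : Type*} [Field K] {Ω₁ Ω₂ : Type*} [Fintype Ω₁] [Fintype Ω₂] [MulAction G Ω₁] [MulAction G Ω₂] : Module.finrank K ((Cfsg.permRep K G Ω₁).linHom (Cfsg.permRep K G Ω₂)).invariants = Nat.card (MulAction.orbitRel.Quotient G (Ω₁ × Ω₂)) := by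
  classical
  let Q := MulAction.orbitRel.Quotient G (Ω₁ × Ω₂)
  haveI : Fintype Q := Fintype.ofFinite Q
  have hq : ∀ (g : G) (x : Ω₁) (y : Ω₂), (Quotient.mk'' (g • x, g • y) : Q) = Quotient.mk'' (x, y) := by
    intro g x y
    apply Quotient.sound'
    exact ⟨g, rfl⟩
  let L : (Q → K) →ₗ[K] ((Cfsg.permRep K G Ω₁).linHom (Cfsg.permRep K G Ω₂)).invariants :=
    { toFun := fun c => ⟨
        { toFun := fun v y => ∑ x, c (Quotient.mk'' (x, y)) * v x
          map_add' := fun v w => by
            ext y; simp [mul_add, Finset.sum_add_distrib]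
          map_smul' := fun a v => by
            ext y; simp [Finset.mul_sum, mul_left_comm] }, by
        rw [Representation.mem_invariants]
        intro g
        apply LinearMap.ext
        intro v
        ext y
        rw [Representation.linHom_apply]
        show (∑ x, c (Quotient.mk'' (x, g⁻¹ • y)) * v ((g⁻¹)⁻¹ • x)) = ∑ x, c (Quotient.mk'' (x, y)) * v x
        refine Fintype.sum_equiv (MulAction.toPerm g) _ _ (fun x => ?_)
        rw [inv_inv]
        show _ = c (Quotient.mk'' (g • x, y)) * v (g • x)
        rw [← hq g⁻¹ (g • x) y, inv_smul_smul]⟩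
      map_add' := fun c d => by
        apply Subtype.ext
        apply LinearMap.ext
        intro v
        ext y
        simp [add_mul, Finset.sum_add_distrib]
      map_smul' := fun a c => by
        apply Subtype.ext
        apply LinearMap.ext
        intro v
        ext y
        simp [Finset.mul_sum, mul_assoc] }
  have hL : ∀ (c : Q → K) (v : Ω₁ → K) (y : Ω₂), (L c : (Ω₁ → K) →ₗ[K] (Ω₂ → K)) v y = ∑ x, c (Quotient.mk'' (x, y)) * v x := fun _ _ _ => rfl
  have hLs : ∀ (c : Q → K) (x : Ω₁) (y : Ω₂), (L c : (Ω₁ → K) →ₗ[K] (Ω₂ → K)) (Pi.single x 1) y = c (Quotient.mk'' (x, y)) := by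
    intro c x y
    rw [hL, Finset.sum_eq_single x]
    · simp
    · intro z _ hz
      simp [hz]
    · intro h; exact absurd (Finset.mem_univ x) h
  have hinj : Function.Injective L := by
    intro c d h
    ext q
    induction q using Quotient.inductionOn' with | h xy => ?_
    obtain ⟨x, y⟩ := xy
    rw [← hLs c, ← hLs d, h]
  have hsurj : Function.Surjective L := by
    rintro ⟨f, hf⟩
    rw [Representation.mem_invariants] at hf
    have hf' : ∀ (g : G) (v : Ω₁ → K) (y : Ω₂), f (Cfsg.permRep K G Ω₁ g⁻¹ v) (g⁻¹ • y) = f v y := by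
      intro g v y
      have := congrFun (congrArg (fun F : (Ω₁ → K) →ₗ[K] (Ω₂ → K) => F v) (hf g)) y
      rw [Representation.linHom_apply] at this
      exact this
    have hsingle : ∀ (g : G) (x : Ω₁), Cfsg.permRep K G Ω₁ g (Pi.single x 1) = Pi.single (g • x) 1 := by
      intro g x
      ext z
      show (Pi.single x 1 : Ω₁ → K) (g⁻¹ • z) = _
      by_cases h : z = g • x
      · subst h
        rw [inv_smul_smul, Pi.single_eq_same, Pi.single_eq_same]
      · rw [Pi.single_eq_of_ne h, Pi.single_eq_of_ne]
        intro h'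
        exact h (by rw [← h', smul_inv_smul])
    let c : Q → K := fun q => Quotient.liftOn' q (fun xy => f (Pi.single xy.1 1) xy.2) (by
      rintro ⟨x, y⟩ ⟨x', y'⟩ h
      obtain ⟨g, hg⟩ : (x, y) ∈ MulAction.orbit G (x', y') := h
      simp only [Prod.smul_mk, Prod.mk.injEq] at hg
      show f (Pi.single x 1) y = f (Pi.single x' 1) y'
      have h1 := hf' g (Pi.single x 1) y
      rw [hsingle, ← hg.1, ← hg.2, inv_smul_smul, inv_smul_smul] at h1
      rw [← hg.1, ← hg.2]
      exact h1.symm)
    have hc : ∀ x y, c (Quotient.mk'' (x, y)) = f (Pi.single x 1) y := fun _ _ => rfl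
    refine ⟨c, ?_⟩
    apply Subtype.ext
    apply LinearMap.pi_ext'
    intro x
    apply LinearMap.ext_ring
    ext y
    show (L c : (Ω₁ → K) →ₗ[K] (Ω₂ → K)) (Pi.single x 1) y = f (Pi.single x 1) y
    rw [hLs, hc]
  let e := LinearEquiv.ofBijective L ⟨hinj, hsurj⟩
  rw [← e.finrank_eq, Module.finrank_fintype_fun_eq_card, Nat.card_eq_fintype_card]

end Cfsg.Agent.S0668
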