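import Cfsg.Statements.S0669
import Mathlib

-- import your own Cfsg.Agent.* helpers here

set_option autoImplicit false
open Cfsg

namespace Cfsg.Agent.S0669



/-- The rank of a transitive action: orbits on ordered pairs correspond to orbits of a point stabiliser. -/
theorem result {G : Type*} [Group G] {Ω : Type*} [Finite Ω] [MulAction G Ω] [MulAction.IsPretransitive G Ω] (a : Ω) : Nat.card (MulAction.orbitRel.Quotient G (Ω × Ω)) = Nat.card (MulAction.orbitRel.Quotient (MulAction.stabilizer G a) Ω) := by
  classical
  -- map from stabilizer orbits to orbits of pairs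
  let f : MulAction.orbitRel.Quotient (MulAction.stabilizer G a) Ω → MulAction.orbitRel.Quotient G (Ω × Ω) :=
    Quotient.lift (fun b => (Quotient.mk'' (a, b) : MulAction.orbitRel.Quotient G (Ω × Ω))) (by
      rintro b c h
      have h' : b ∈ MulAction.orbit (MulAction.stabilizer G a) c := h
      obtain ⟨g, hg⟩ := h'
      apply Quotient.sound'
      show (a, b) ∈ MulAction.orbit G (a, c)
      refine ⟨(g : G), ?_⟩
      have := g.2
      rw [MulAction.mem_stabilizer_iff] at this
      simp only [Prod.smul_mk, this, Prod.mk.injEq, true_and]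
      exact hg)
  symm
  apply Nat.card_congr
  apply Equiv.ofBijective f
  constructor
  · rintro x y
    induction x using Quotient.inductionOn' with | h b => ?_
    induction y using Quotient.inductionOn' with | h c => ?_
    intro h
    have h' : (Quotient.mk'' (a, b) : MulAction.orbitRel.Quotient G (Ω × Ω)) = Quotient.mk'' (a, c) := h
    have h2 : (a, b) ∈ MulAction.orbit G (a, c) := Quotient.exact' h'
    obtain ⟨g, hg⟩ := h2
    simp only [Prod.smul_mk, Prod.mk.injEq] at hg
    apply Quotient.sound'
    show b ∈ MulAction.orbit (MulAction.stabilizer G a) c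
    exact ⟨⟨g, hg.1⟩, hg.2⟩
  · intro x
    induction x using Quotient.inductionOn' with | h bc => ?_
    obtain ⟨b, c⟩ := bc
    obtain ⟨g, hg⟩ := MulAction.exists_smul_eq G b a
    refine ⟨Quotient.mk'' (g • c), ?_⟩
    apply Quotient.sound'
    show (a, g • c) ∈ MulAction.orbit G (b, c)
    exact ⟨g, by simp [hg]⟩

end Cfsg.Agent.S0669
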