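import Cfsg.Statements.S0677
import Mathlib
import Cfsg.Agent.S0676
import Cfsg.Agent.LibPrimeDegree3
import Cfsg.Agent.LibFisher
import Cfsg.Agent.LibPermBasic2
-- import your own Cfsg.Agent.* helpers here

set_option autoImplicit false
open Cfsg

namespace Cfsg.Agent.S0677

open MulAction
open scoped Pointwise

/-- In a transitive permutation group of prime degree `p` whose Sylow `p`-normaliser has even order, the point stabilisers are the only subgroups of index `p`. -/
theorem result {α : Type*} [Fintype α] [DecidableEq α] {p : ℕ} [Fact p.Prime] (hα : Fintype.card α = p) (G : Subgroup (Equiv.Perm α)) [MulAction.IsPretransitive G α] (P : Sylow p G) (heven : Even (Nat.card (Subgroup.normalizer ((P : Subgroup G) : Set G)))) (H : Subgroup G) (hH : H.index = p) : ∃ a : α, H = MulAction.stabilizer G a := by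
  classical
  have hp : Fact p.Prime := inferInstance
  by_cases hG : Group.IsSolvable G
  · exact CfsgLib.PrimeDegree3.eq_stabilizer_of_index hα G hG H hH
  have h3 := Cfsg.Agent.S0676.result hα G hG P heven
  have hPcard := CfsgLib.PrimeDegree2.card_sylow hα G P
  have hcop : ¬ p ∣ Nat.card H := by
    intro hdvd
    have h1 : Nat.card H * p = Nat.card G := by rw [← hH]; exact Subgroup.card_mul_index H
    obtain ⟨n, hn⟩ := hdvd
    have h2 : p ^ 2 ∣ Nat.card G := ⟨n, by rw [← h1, hn]; ring⟩
    have h3 : p ^ 2 ∣ Nat.card P := P.pow_dvd_card_of_pow_dvd_card h2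
    rw [hPcard] at h3
    have h4 := Nat.le_of_dvd hp.out.pos h3
    have := hp.out.two_le
    nlinarith
  obtain ⟨a⟩ : Nonempty α := Fintype.card_pos_iff.mp (by rw [hα]; exact hp.out.pos)
  -- point stabilisers have index p
  have hst : ∀ b : α, H ≤ stabilizer G b → H = stabilizer G b := by
    intro b hle
    have h1 : (stabilizer G b).index = p := by
      rw [MulAction.index_stabilizer_of_transitive, Nat.card_eq_fintype_card, hα]
    apply Subgroup.eq_of_le_of_card_ge hle
    have h2 := Subgroup.card_mul_index H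
    have h3 := Subgroup.card_mul_index (stabilizer G b)
    rw [hH] at h2
    rw [h1] at h3
    exact (Nat.eq_of_mul_eq_mul_right hp.out.pos (h3.trans h2.symm)).le
  let B : Finset α := (orbit H a).toFinset
  have hBmem : ∀ x, x ∈ B ↔ x ∈ orbit H a := fun x => by simp [B]
  have haB : a ∈ B := by rw [hBmem]; exact mem_orbit_self a
  have hHB : ∀ h ∈ H, ∀ x, h • x ∈ B ↔ x ∈ B := by
    intro h hh x
    rw [hBmem, hBmem]
    constructor
    · rintro ⟨k, hk⟩
      refine ⟨(⟨h, hh⟩ : H)⁻¹ * k, ?_⟩
      show (((⟨h, hh⟩ : H)⁻¹ * k : H) : G) • a = x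
      rw [Subgroup.coe_mul, mul_smul]
      have : (k : G) • a = h • x := hk
      rw [this]
      show h⁻¹ • h • x = x
      rw [inv_smul_smul]
    · rintro ⟨k, hk⟩
      refine ⟨(⟨h, hh⟩ : H) * k, ?_⟩
      show (((⟨h, hh⟩ : H) * k : H) : G) • a = h • x
      rw [Subgroup.coe_mul, mul_smul]
      have : (k : G) • a = x := hk
      rw [this]
  have hBcard : B.card ∣ Nat.card H := by
    have h1 : B.card = Nat.card (orbit H a) := by
      simp [B, Nat.card_eq_fintype_card]
    rw [h1]
    have h2 := MulAction.index_stabilizer H a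
    have h3 : Nat.card (orbit H a) = (stabilizer H a).index := by rw [h2]; rfl
    rw [h3]
    exact Subgroup.index_dvd_card _
  have hBne : B.card ≠ p := by
    intro h
    rw [h] at hBcard
    exact hcop hBcard
  have hBle : B.card ≤ p := by rw [← hα]; exact Finset.card_le_univ B
  have hBpos : 0 < B.card := Finset.card_pos.mpr ⟨a, haB⟩
  by_cases hk1 : B.card = 1
  · refine ⟨a, hst a ?_⟩
    intro h hh
    obtain ⟨b, hb⟩ := Finset.card_eq_one.mp hk1
    rw [hb, Finset.mem_singleton] at haB
    have h1 := (hHB h hh a).mpr (by rw [hb, Finset.mem_singleton]; exact haB)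
    rw [hb, Finset.mem_singleton, ← haB] at h1
    exact h1
  by_cases hk2 : B.card + 1 = p
  · have h1 : Bᶜ.card = 1 := by rw [Finset.card_compl, hα]; omega
    obtain ⟨b, hb⟩ := Finset.card_eq_one.mp h1
    have hbmem : ∀ x, x ∉ B ↔ x = b := by
      intro x
      rw [← Finset.mem_compl, hb, Finset.mem_singleton]
    refine ⟨b, hst b ?_⟩
    intro h hh
    have h2 : b ∉ B := (hbmem b).mpr rfl
    rw [← hHB h hh b, hbmem] at h2
    exact h2
  exfalso
  let F : Finset (Finset α) := (orbit G B).toFinset
  have hFmem : ∀ C, C ∈ F ↔ C ∈ orbit G B := fun C => by simp [F]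
  have hstabB : H ≤ stabilizer G B := by
    intro h hh
    rw [mem_stabilizer_iff]
    ext x
    have h1 := hHB h hh (h⁻¹ • x)
    rw [smul_inv_smul] at h1
    rw [h1, ← Finset.inv_smul_mem_iff]
  have hindex : (stabilizer G B).index = p := by
    have h1 : (stabilizer G B).index ∣ p := by
      rw [← hH]
      exact Subgroup.index_dvd_of_le hstabB
    rcases (Nat.dvd_prime hp.out).mp h1 with h | h
    · exfalso
      rw [Subgroup.index_eq_one] at h
      have h2 : ∀ g : G, g • B = B := by
        intro g
        have : g ∈ stabilizer G B := by rw [h]; trivial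
        exact this
      apply hBne
      rw [← hα, ← Finset.card_univ]
      congr 1
      apply Finset.eq_univ_of_forall
      intro x
      obtain ⟨g, rfl⟩ := MulAction.exists_smul_eq G a x
      rw [← h2 g]
      exact Finset.smul_mem_smul_finset haB
    · exact h
  have h3' : ∀ a b c a' b' c' : α, a ≠ b → a ≠ c → b ≠ c → a' ≠ b' → a' ≠ c' → b' ≠ c' →
        ∃ g : G, g • a = a' ∧ g • b = b' ∧ g • c = c' := CfsgLib.PermBasic2.three_iff.mp h3
  refine CfsgLib.Fisher.no_invariant_family (G := G) h3' F ?_ ?_ (k := B.card) ?_ ?_ ?_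
  · intro g C hC
    rw [hFmem] at hC ⊢
    obtain ⟨k, rfl⟩ := hC
    exact ⟨g * k, mul_smul _ _ _⟩
  · rw [hα, ← hindex, MulAction.index_stabilizer]
    simp [F, Set.ncard_eq_toFinset_card']
  · intro C hC
    rw [hFmem] at hC
    obtain ⟨g, rfl⟩ := hC
    exact Finset.card_smul_finset g B
  · omega
  · rw [hα]
    omega

end Cfsg.Agent.S0677
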