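import Mathlib
-- Template for statement S0678 (row 678; see /opt/grader/pristine/manifest.json for weights).
-- Copy to Cfsg/Agent/S0678.lean and replace the sorry. The statement below is byte-identical to the frozen
-- statement Cfsg.CfsgFrozen.S0678 (Cfsg/Statements/S0678.lean; the theorem Cfsg.insoluble_transitive_degree_seven);
-- the grader kernel-checks Cfsg.Agent.S0678.result against that frozen type. Keep the theorem IN THIS FILE
-- (a `result` declared elsewhere and merely imported here is not credited); helpers may live anywhere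
-- under Cfsg/Agent/.
import Cfsg.Statements.S0678
-- import your own Cfsg.Agent.* helpers here

set_option autoImplicit false
open Cfsg

namespace Cfsg.Agent.S0678

open Equiv Equiv.Perm MulAction

section
variable {X : Type*} [Fintype X] [DecidableEq X]

theorem dvd7 (h7 : Fintype.card X = 7) (K : Subgroup (Perm X)) [IsPretransitive K X] : 7 ∣ Nat.card K := by
  haveI : Nonempty X := Fintype.card_pos_iff.mp (by omega)
  obtain ⟨x⟩ := (inferInstance : Nonempty X)
  have h := index_stabilizer_of_transitive K x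
  rw [Nat.card_eq_fintype_card, h7] at h
  rw [← h]
  exact Subgroup.index_dvd_card _

theorem dvd5040 (h7 : Fintype.card X = 7) (K : Subgroup (Perm X)) : Nat.card K ∣ 5040 := by
  have h := Subgroup.card_subgroup_dvd_card K
  rw [Nat.card_perm, Nat.card_eq_fintype_card (α := X), h7] at h
  exact h

theorem cyc_prime (h7 : Fintype.card X = 7) {g : Perm X} {p : ℕ} (hp : p.Prime) (h2 : 7 < 2 * p) (hg : orderOf g = p) :
    g.cycleType = {p} := by
  obtain ⟨k, hk⟩ := cycleType_prime_order (σ := g) (by rw [hg]; exact hp)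
  rw [hg] at hk
  have h1 := g.sum_cycleType
  rw [hk, Multiset.sum_replicate, smul_eq_mul] at h1
  have h3 := Finset.card_le_univ g.support
  rw [h7] at h3
  have h4 : k = 0 := by
    by_contra h
    have : 2 * p ≤ (k + 1) * p := Nat.mul_le_mul_right _ (by omega)
    omega
  rw [hk, h4]
  rfl

theorem cen7 (h7 : Fintype.card X = 7) {g : Perm X} (hg : orderOf g = 7) : Nat.card (Subgroup.centralizer {g}) = 7 := by
  rw [Equiv.Perm.nat_card_centralizer, cyc_prime h7 (by norm_num) (by norm_num) hg, h7]
  simp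

theorem cen5 (h7 : Fintype.card X = 7) {g : Perm X} (hg : orderOf g = 5) : Nat.card (Subgroup.centralizer {g}) = 10 := by
  rw [Equiv.Perm.nat_card_centralizer, cyc_prime h7 (by norm_num) (by norm_num) hg, h7]
  simp

/-- normal subgroups of order prime to 7 are trivial -/
theorem nbot (h7 : Fintype.card X = 7) (K : Subgroup (Perm X)) [IsPretransitive K X] (M : Subgroup K) [hM : M.Normal]
    (h : ¬ 7 ∣ Nat.card M) : M = ⊥ := by
  haveI : IsPreprimitive K X := IsPreprimitive.of_prime_card (by rw [Nat.card_eq_fintype_card, h7]; norm_num)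
  by_contra hne
  have hf : fixedPoints M X ≠ .univ := by
    intro hf
    apply hne
    rw [eq_bot_iff]
    intro m hm
    rw [Subgroup.mem_bot]
    apply Subtype.ext
    apply Equiv.ext
    intro x
    have : x ∈ fixedPoints M X := by rw [hf]; trivial
    exact this ⟨m, hm⟩
  haveI := IsQuasiPreprimitive.isPretransitive_of_normal (N := M) hf
  apply h
  haveI : Nonempty X := Fintype.card_pos_iff.mp (by omega)
  obtain ⟨x⟩ := (inferInstance : Nonempty X)
  have h := index_stabilizer_of_transitive M x
  rw [Nat.card_eq_fintype_card, h7] at h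
  rw [← h]
  exact Subgroup.index_dvd_card _

instance fact7 : Fact (Nat.Prime 7) := ⟨by norm_num⟩
instance fact5 : Fact (Nat.Prime 5) := ⟨by norm_num⟩

theorem syl_card (h7 : Fintype.card X = 7) (K : Subgroup (Perm X)) [IsPretransitive K X] (P : Sylow 7 K) :
    Nat.card (P : Subgroup K) = 7 := by
  have h1 := dvd7 h7 K
  have h2 := dvd5040 h7 K
  have h3 := P.card_eq_multiplicity
  rw [h3]
  have h4 : (Nat.card K).factorization 7 = 1 := by
    have h5 : ¬ 7 ^ 2 ∣ Nat.card K := fun h => by
      have := h.trans h2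
      norm_num at this
    have hne : Nat.card K ≠ 0 := Nat.card_pos.ne'
    have h6 : 1 ≤ (Nat.card K).factorization 7 :=
      ((by norm_num : Nat.Prime 7).dvd_iff_one_le_factorization hne).mp h1
    have h8 : ¬ 2 ≤ (Nat.card K).factorization 7 := fun h =>
      h5 (((by norm_num : Nat.Prime 7).pow_dvd_iff_le_factorization hne).mpr h)
    omega
  rw [h4, pow_one]

/-- the quotient of the normalizer of a cyclic Sylow by the centralizer -/
theorem norm_dvd {G : Type*} [Group G] [Finite G] (Q : Subgroup G) {p : ℕ} (hp : p.Prime) (hQ : Nat.card Q = p) {c : ℕ}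
    (hc : Nat.card (Subgroup.centralizer (Q : Set G)) ∣ c) :
    Nat.card (Subgroup.normalizer (Q : Set G)) ∣ c * (p - 1) := by
  haveI : Fact p.Prime := ⟨hp⟩
  haveI : IsCyclic Q := isCyclic_of_prime_card hQ
  set f := Q.normalizerMonoidHom with hf
  have h1 : Nat.card f.range ∣ p - 1 := by
    have := Subgroup.card_subgroup_dvd_card f.range
    rwa [IsCyclic.card_mulAut, hQ, Nat.totient_prime hp] at this
  have h2 : Nat.card f.ker ∣ c := by
    refine dvd_trans ?_ hc
    rw [hf, Subgroup.normalizerMonoidHom_ker]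
    exact Subgroup.card_comap_dvd_of_injective _ _ (Subgroup.subtype_injective _)
  have h3 := Subgroup.card_mul_index f.ker
  rw [Subgroup.index_ker] at h3
  rw [← h3]
  exact Nat.mul_dvd_mul h2 h1

theorem struct (h7 : Fintype.card X = 7) (K : Subgroup (Perm X)) [IsPretransitive K X] :
    ∃ c n, Nat.card K = 7 * c * n ∧ c ∣ 6 ∧ n % 7 = 1 ∧ n = Nat.card (Sylow 7 K) ∧ (c = 1 → Nat.card K = 7) := by
  obtain ⟨P⟩ := (inferInstance : Nonempty (Sylow 7 K))
  have hP := syl_card h7 K P
  obtain ⟨g, hg⟩ : ∃ g : ↥(P : Subgroup K), orderOf g = 7 := exists_prime_orderOf_dvd_card' 7 (by rw [hP])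
  have hg' : orderOf ((g : K) : Perm X) = 7 := by
    rw [Subgroup.orderOf_coe, Subgroup.orderOf_coe, hg]
  have hcen : Nat.card (Subgroup.centralizer ((P : Subgroup K) : Set K)) ∣ 7 := by
    have h0 := cen7 h7 hg'
    let f : ↥(Subgroup.centralizer ((P : Subgroup K) : Set K)) →* ↥(Subgroup.centralizer {((g : K) : Perm X)}) :=
      (K.subtype.comp (Subgroup.subtype _)).codRestrict _ (by
        intro z
        rw [Subgroup.mem_centralizer_singleton_iff]
        have hz := (Subgroup.mem_centralizer_iff.mp z.2) (g : K) g.2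
        exact (congrArg Subtype.val hz).symm)
    have h1 := Subgroup.card_dvd_of_injective f (by
      intro a b h
      have h' := congrArg Subtype.val h
      apply Subtype.ext
      apply Subtype.ext
      exact h')
    rw [h0] at h1
    exact h1
  have hN := norm_dvd (P : Subgroup K) (by norm_num : Nat.Prime 7) hP hcen
  have hPN : 7 ∣ Nat.card (Subgroup.normalizer ((P : Subgroup K) : Set K)) := by
    have h1 := Subgroup.card_dvd_of_le (Subgroup.le_normalizer (H := (P : Subgroup K)))
    rw [hP] at h1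
    exact h1
  obtain ⟨c, hc⟩ := hPN
  have hidx := P.card_eq_index_normalizer
  have hmul := Subgroup.card_mul_index (Subgroup.normalizer ((P : Subgroup K) : Set K))
  refine ⟨c, Nat.card (Sylow 7 K), ?_, ?_, card_sylow_modEq_one 7 K, rfl, ?_⟩
  · rw [← hmul, hc, hidx]; rfl
  · rw [hc] at hN
    have : 7 * c ∣ 7 * 6 := hN
    exact Nat.dvd_of_mul_dvd_mul_left (by norm_num) this
  · intro hc1
    rw [hc1] at hc
    have hPe : (P : Subgroup K) = Subgroup.normalizer ((P : Subgroup K) : Set K) :=
      Subgroup.eq_of_le_of_card_ge Subgroup.le_normalizer (by rw [hc, hP])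
    haveI : IsCyclic ↥(P : Subgroup K) := isCyclic_of_prime_card hP
    have hle : Subgroup.normalizer ((P : Subgroup K) : Set K) ≤ Subgroup.centralizer ((P : Subgroup K) : Set K) := by
      rw [← hPe]
      intro a ha
      rw [Subgroup.mem_centralizer_iff]
      intro b hb
      obtain ⟨z, hz⟩ := IsCyclic.exists_generator (α := ↥(P : Subgroup K))
      obtain ⟨i, hi⟩ := hz ⟨a, ha⟩
      obtain ⟨j, hj⟩ := hz ⟨b, hb⟩
      have e : (⟨b, hb⟩ : ↥(P : Subgroup K)) * ⟨a, ha⟩ = ⟨a, ha⟩ * ⟨b, hb⟩ := by
        rw [← hi, ← hj]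
        exact (Commute.zpow_zpow_self z j i).eq
      exact congrArg Subtype.val e
    have hcomp := MonoidHom.ker_transferSylow_isComplement' P hle
    have hk := nbot h7 K (MonoidHom.transferSylow P hle).ker (MonoidHom.not_dvd_card_ker_transferSylow P hle)
    have hcm := hcomp.card_mul
    rw [hk, Subgroup.card_bot, hP, one_mul] at hcm
    exact hcm.symm

/-- a proper subgroup of the alternating group has order at most 360 -/
theorem le360 (h7 : Fintype.card X = 7) (K : Subgroup (Perm X)) (hK : K ≤ alternatingGroup X) (hne : K ≠ alternatingGroup X) :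
    Nat.card K ≤ 360 ∧ Nat.card K ∣ 2520 := by
  haveI : Nontrivial X := Fintype.one_lt_card_iff_nontrivial.mp (by omega)
  have hA : Nat.card (alternatingGroup X) = 2520 := by
    have := two_mul_nat_card_alternatingGroup (α := X)
    rw [Nat.card_perm, Nat.card_eq_fintype_card (α := X), h7] at this
    have h5040 : Nat.factorial 7 = 5040 := rfl
    omega
  haveI : IsSimpleGroup (alternatingGroup X) := alternatingGroup.isSimpleGroup (by rw [Nat.card_eq_fintype_card]; omega)
  set K' : Subgroup (alternatingGroup X) := K.subgroupOf (alternatingGroup X) with hK'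
  have hcard : Nat.card K' = Nat.card K := Nat.card_congr (Subgroup.subgroupOfEquivOfLe hK).toEquiv
  have hne' : K' ≠ ⊤ := by
    intro h
    apply hne
    exact le_antisymm hK (Subgroup.subgroupOf_eq_top.mp h)
  have hcore : K'.normalCore = ⊥ := by
    rcases (inferInstance : K'.normalCore.Normal).eq_bot_or_eq_top with h | h
    · exact h
    · exfalso
      apply hne'
      rw [eq_top_iff, ← h]
      exact Subgroup.normalCore_le K'
  have hinj : Function.Injective (MulAction.toPermHom (alternatingGroup X) (alternatingGroup X ⧸ K')) := by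
    rw [← MonoidHom.ker_eq_bot_iff, ← Subgroup.normalCore_eq_ker, hcore]
  have h1 := Nat.card_le_card_of_injective _ hinj
  rw [hA, Nat.card_perm] at h1
  have h2 := Subgroup.card_mul_index K'
  rw [hA, hcard] at h2
  have h3 : Nat.card (alternatingGroup X ⧸ K') = K'.index := rfl
  rw [h3] at h1
  have h4 : 7 ≤ K'.index := by
    by_contra h
    have : K'.index.factorial ≤ Nat.factorial 6 := Nat.factorial_le (by omega)
    have h6 : Nat.factorial 6 = 720 := rfl
    omega
  constructor
  · nlinarith
  · exact ⟨_, h2.symm⟩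

/-- order 315 is impossible -/
theorem ar1' : ∀ c : Fin 7, ∀ n : Fin 52, (0 < c.val ∧ c.val ∣ 6 ∧ n.val % 7 = 1 ∧ c.val * n.val ∣ 360 ∧ c.val * n.val ≤ 51 ∧
    n.val ≠ 1 ∧ c.val ≠ 1) →
    ((c.val = 3 ∧ n.val = 8) ∨ (c.val = 2 ∧ n.val = 15) ∨ (c.val = 3 ∧ n.val = 15)) := by decide +kernel

theorem ar1 (c : ℕ) (hc : c < 7) (n : ℕ) (hn : n < 52) (h1 : 0 < c) (h2 : c ∣ 6) (h3 : n % 7 = 1) (h4 : c * n ∣ 360)
    (h5 : c * n ≤ 51) (h6 : n ≠ 1) (h7 : c ≠ 1) :
    ((c = 3 ∧ n = 8) ∨ (c = 2 ∧ n = 15) ∨ (c = 3 ∧ n = 15)) :=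
  ar1' ⟨c, hc⟩ ⟨n, hn⟩ ⟨h1, h2, h3, h4, h5, h6, h7⟩

theorem ar2' : ∀ c : Fin 7, ∀ n : Fin 25, (0 < c.val ∧ 0 < n.val ∧ c.val ∣ 6 ∧ n.val % 7 = 1 ∧ c.val * n.val ∣ 24) →
    (n.val = 1 ∨ (c.val = 1 ∧ n.val = 8) ∨ (c.val = 3 ∧ n.val = 8)) := by decide +kernel

theorem ar2 (c : ℕ) (hc : c < 7) (n : ℕ) (hn : n < 25) (h1 : 0 < c) (h1' : 0 < n) (h2 : c ∣ 6) (h3 : n % 7 = 1) (h4 : c * n ∣ 24) :
    (n = 1 ∨ (c = 1 ∧ n = 8) ∨ (c = 3 ∧ n = 8)) :=
  ar2' ⟨c, hc⟩ ⟨n, hn⟩ ⟨h1, h1', h2, h3, h4⟩

theorem ar3 : ∀ n < 64, n % 5 = 1 → n ∣ 63 → (n = 1 ∨ n = 21) := by decide +kernel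

theorem no315 (h7 : Fintype.card X = 7) (K : Subgroup (Perm X)) [IsPretransitive K X] : Nat.card K ≠ 315 := by
  intro hK
  obtain ⟨Q⟩ := (inferInstance : Nonempty (Sylow 5 K))
  have hQ : Nat.card (Q : Subgroup K) = 5 := by
    rw [Q.card_eq_multiplicity, hK]
    have : Nat.factorization 315 5 = 1 := by
      have h6 : 1 ≤ (315 : ℕ).factorization 5 :=
        ((by norm_num : Nat.Prime 5).dvd_iff_one_le_factorization (by norm_num)).mp (by norm_num)
      have h8 : ¬ 2 ≤ (315 : ℕ).factorization 5 := fun h => by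
        have := ((by norm_num : Nat.Prime 5).pow_dvd_iff_le_factorization (n := 315) (by norm_num)).mpr h
        norm_num at this
      omega
    rw [this, pow_one]
  have h1 : Nat.card (Sylow 5 K) % 5 = 1 := card_sylow_modEq_one 5 K
  have h2 := Q.card_eq_index_normalizer
  have h3 := Subgroup.card_mul_index (Subgroup.normalizer ((Q : Subgroup K) : Set K))
  have h4 : Nat.card (Subgroup.normalizer ((Q : Subgroup K) : Set K)) * Nat.card (Sylow 5 K) = 315 := by
    rw [h2, ← hK]; exact h3
  have h5 : 5 ∣ Nat.card (Subgroup.normalizer ((Q : Subgroup K) : Set K)) := by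
    have h1 := Subgroup.card_dvd_of_le (Subgroup.le_normalizer (H := (Q : Subgroup K)))
    rw [hQ] at h1
    exact h1
  obtain ⟨c, hc⟩ := h5
  rw [hc] at h4
  have h6 : c * Nat.card (Sylow 5 K) = 63 := by
    have : 5 * (c * Nat.card (Sylow 5 K)) = 5 * 63 := by rw [← mul_assoc, h4]
    exact Nat.eq_of_mul_eq_mul_left (by norm_num) this
  have h7' : Nat.card (Sylow 5 K) ∣ 63 := ⟨c, by rw [mul_comm, h6]⟩
  have h8 : Nat.card (Sylow 5 K) ≤ 63 := Nat.le_of_dvd (by norm_num) h7'
  have h9 : Nat.card (Sylow 5 K) = 1 ∨ Nat.card (Sylow 5 K) = 21 := ar3 _ (by omega) h1 h7'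
  rcases h9 with h9 | h9
  · -- normal
    haveI : Subsingleton (Sylow 5 K) := (Nat.card_eq_one_iff_unique.mp h9).1
    have hn : (Q : Subgroup K).Normal := Sylow.normal_of_subsingleton Q
    have := nbot h7 K (Q : Subgroup K) (by rw [hQ]; norm_num)
    rw [this, Subgroup.card_bot] at hQ
    norm_num at hQ
  · have hc3 : c = 3 := by rw [h9] at h6; omega
    obtain ⟨x, hx⟩ : ∃ x : ↥(Subgroup.normalizer ((Q : Subgroup K) : Set K)), orderOf x = 3 :=
      haveI : Fact (Nat.Prime 3) := ⟨by norm_num⟩
      exists_prime_orderOf_dvd_card' 3 (by rw [hc, hc3]; norm_num)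
    haveI : IsCyclic ↥(Q : Subgroup K) := isCyclic_of_prime_card hQ
    set f := (Q : Subgroup K).normalizerMonoidHom with hf
    have hfx : f x = 1 := by
      have d1 : orderOf (f x) ∣ 3 := by
        have := orderOf_map_dvd f x
        rwa [hx] at this
      have d2 : orderOf (f x) ∣ 4 := by
        have := orderOf_dvd_natCard (f x)
        rwa [IsCyclic.card_mulAut, hQ, Nat.totient_prime (by norm_num)] at this
      have := Nat.eq_one_of_dvd_coprimes (by norm_num : Nat.Coprime 3 4) d1 d2
      exact orderOf_eq_one_iff.mp this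
    have hxc : (x : K) ∈ Subgroup.centralizer ((Q : Subgroup K) : Set K) := by
      have : x ∈ f.ker := hfx
      rw [hf, Subgroup.normalizerMonoidHom_ker] at this
      exact Subgroup.mem_subgroupOf.mp this
    obtain ⟨g, hg⟩ : ∃ g : ↥(Q : Subgroup K), orderOf g = 5 := exists_prime_orderOf_dvd_card' 5 (by rw [hQ])
    have hg' : orderOf ((g : K) : Perm X) = 5 := by
      rw [Subgroup.orderOf_coe, Subgroup.orderOf_coe, hg]
    have hcc := cen5 h7 hg'
    have hxm : ((x : K) : Perm X) ∈ Subgroup.centralizer {((g : K) : Perm X)} := by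
      rw [Subgroup.mem_centralizer_singleton_iff]
      have hz := (Subgroup.mem_centralizer_iff.mp hxc) (g : K) g.2
      exact (congrArg Subtype.val hz).symm
    have hox : orderOf (⟨_, hxm⟩ : ↥(Subgroup.centralizer {((g : K) : Perm X)})) = 3 := by
      rw [← Subgroup.orderOf_coe]
      show orderOf ((x : K) : Perm X) = 3
      rw [Subgroup.orderOf_coe, Subgroup.orderOf_coe, hx]
    have := orderOf_dvd_natCard (⟨_, hxm⟩ : ↥(Subgroup.centralizer {((g : K) : Perm X)}))
    rw [hox, hcc] at this
    norm_num at this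

theorem solv_sqf {G : Type*} [Group G] [Finite G] (h : Squarefree (Nat.card G)) : Group.IsSolvable G := by
  haveI := IsZGroup.of_squarefree h
  infer_instance

theorem sqf210 : Squarefree 210 := by
  rw [Nat.squarefree_iff_minSqFac]
  decide +kernel

theorem sqf42 : Squarefree (7 * 6) := by
  rw [Nat.squarefree_iff_minSqFac]
  decide +kernel

/-- the main case: subgroups of the alternating group -/
theorem main_even (h7 : Fintype.card X = 7) (K : Subgroup (Perm X)) [IsPretransitive K X]
    (hK : K ≤ alternatingGroup X) (hne : K ≠ alternatingGroup X) (hns : ¬ Group.IsSolvable K) :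
    Nat.card K = 168 ∧ Nat.card (Sylow 7 K) = 8 := by
  obtain ⟨c, n, h1, h2, h3, h4, h5⟩ := struct h7 K
  obtain ⟨h6, h8⟩ := le360 h7 K hK hne
  have h9 : c * n ≤ 51 := by
    rw [h1, mul_assoc] at h6; omega
  have h10 : c * n ∣ 360 := by
    rw [h1, mul_assoc] at h8
    exact Nat.dvd_of_mul_dvd_mul_left (k := 7) (by norm_num) h8
  have hc0 : 0 < c := Nat.pos_of_dvd_of_pos h2 (by norm_num)
  have hc6 : c ≤ 6 := Nat.le_of_dvd (by norm_num) h2
  have hn1 : n ≠ 1 := by
    rintro rfl
    apply hns
    apply solv_sqf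
    rw [h1, mul_one]
    exact Squarefree.squarefree_of_dvd (Nat.mul_dvd_mul_left 7 h2) sqf42
  have hc1 : c ≠ 1 := by
    intro hc
    have h11 := h5 hc
    rw [h1, hc] at h11
    omega
  have hn51 : n ≤ 51 := by nlinarith
  have hcase : (c = 3 ∧ n = 8) ∨ (c = 2 ∧ n = 15) ∨ (c = 3 ∧ n = 15) :=
    ar1 c (by omega) n (by omega) hc0 h2 h3 h10 h9 hn1 hc1
  rcases hcase with ⟨rfl, rfl⟩ | ⟨rfl, rfl⟩ | ⟨rfl, rfl⟩
  · exact ⟨by rw [h1], h4.symm⟩
  · exfalso
    apply hns
    apply solv_sqf
    rw [h1]
    exact sqf210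
  · exact absurd (by rw [h1]) (no315 h7 K)

theorem simple_of (h7 : Fintype.card X = 7) (K : Subgroup (Perm X)) [IsPretransitive K X]
    (h168 : Nat.card K = 168) (h8 : Nat.card (Sylow 7 K) = 8) : IsSimpleGroup K := by
  haveI : Nontrivial K := by
    rw [← Finite.one_lt_card_iff_nontrivial, h168]; norm_num
  haveI : IsPreprimitive K X := IsPreprimitive.of_prime_card (by rw [Nat.card_eq_fintype_card, h7]; norm_num)
  refine ⟨fun M hM => ?_⟩
  by_cases h : 7 ∣ Nat.card M
  · right
    have hne : M ≠ ⊥ := by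
      rintro rfl
      rw [Subgroup.card_bot] at h
      norm_num at h
    have hf : fixedPoints M X ≠ .univ := by
      intro hf
      apply hne
      rw [eq_bot_iff]
      intro m hm
      rw [Subgroup.mem_bot]
      apply Subtype.ext
      apply Equiv.ext
      intro x
      have : x ∈ fixedPoints M X := by rw [hf]; trivial
      exact this ⟨m, hm⟩
    haveI hMt := IsQuasiPreprimitive.isPretransitive_of_normal (N := M) hf
    -- move to a subgroup of Perm X
    set M' : Subgroup (Perm X) := M.map K.subtype with hM'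
    let e : ↥M ≃* ↥M' := M.equivMapOfInjective K.subtype K.subtype_injective
    haveI : IsPretransitive M' X := by
      refine ⟨fun x y => ?_⟩
      obtain ⟨m, hm⟩ := hMt.exists_smul_eq x y
      exact ⟨e m, hm⟩
    obtain ⟨c, n, k1, k2, k3, k4, k5⟩ := struct h7 M'
    have hcM : Nat.card M' = Nat.card M := (Nat.card_congr e.toEquiv).symm
    have hdvd : Nat.card M ∣ 168 := by rw [← h168]; exact Subgroup.card_subgroup_dvd_card M
    rw [hcM] at k1 k5
    have h9 : c * n ∣ 24 := by
      rw [k1, mul_assoc] at hdvd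
      exact Nat.dvd_of_mul_dvd_mul_left (k := 7) (by norm_num) hdvd
    have hc0 : 0 < c := Nat.pos_of_dvd_of_pos k2 (by norm_num)
    have hc6 : c ≤ 6 := Nat.le_of_dvd (by norm_num) k2
    have hcn : c * n ≤ 24 := Nat.le_of_dvd (by norm_num) h9
    have hn24 : n ≤ 24 := by nlinarith
    have hn0 : 0 < n := by rw [k4]; exact Nat.card_pos
    have hcase : n = 1 ∨ (c = 1 ∧ n = 8) ∨ (c = 3 ∧ n = 8) :=
      ar2 c (by omega) n (by omega) hc0 hn0 k2 k3 h9
    rcases hcase with rfl | ⟨rfl, rfl⟩ | ⟨rfl, rfl⟩
    · -- a normal Sylow 7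
      exfalso
      obtain ⟨P⟩ := (inferInstance : Nonempty (Sylow 7 M))
      have hPc : Nat.card (P : Subgroup M) = 7 := by
        rw [P.card_eq_multiplicity]
        have h4 : (Nat.card M).factorization 7 = 1 := by
          have hne' : Nat.card M ≠ 0 := Nat.card_pos.ne'
          have h6 : 1 ≤ (Nat.card M).factorization 7 :=
            ((by norm_num : Nat.Prime 7).dvd_iff_one_le_factorization hne').mp h
          have h8 : ¬ 2 ≤ (Nat.card M).factorization 7 := fun h => by
            have := (((by norm_num : Nat.Prime 7).pow_dvd_iff_le_factorization hne').mpr h).trans hdvd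
            norm_num at this
          omega
        rw [h4, pow_one]
      have hsM : Nat.card (Sylow 7 M) = 1 := by
        have j1 := P.card_dvd_index
        have j2 : Nat.card (Sylow 7 M) % 7 = 1 := card_sylow_modEq_one 7 M
        have j3 := Subgroup.card_mul_index (P : Subgroup M)
        rw [hPc, k1, mul_one] at j3
        have j4 : (P : Subgroup M).index = c := Nat.eq_of_mul_eq_mul_left (by norm_num : 0 < 7) j3
        rw [j4] at j1
        have j5 := Nat.le_of_dvd hc0 j1
        omega
      haveI : Subsingleton (Sylow 7 M) := (Nat.card_eq_one_iff_unique.mp hsM).1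
      have hchar : (P : Subgroup M).Characteristic := Sylow.characteristic_of_subsingleton P
      have hPn : ((P : Subgroup M).map M.subtype).Normal := inferInstance
      have hPc' : Nat.card ((P : Subgroup M).map M.subtype) = 7 := by
        rw [Subgroup.card_map_of_injective M.subtype_injective, hPc]
      have hp7 : IsPGroup 7 ((P : Subgroup M).map M.subtype) := IsPGroup.of_card (n := 1) (by rw [hPc', pow_one])
      have hsub : Subsingleton (Sylow 7 K) := by
        refine ⟨fun A B => ?_⟩
        have hA : ∀ A : Sylow 7 K, (A : Subgroup K) = (P : Subgroup M).map M.subtype := by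
          intro A
          have hA7 := syl_card h7 K A
          have hle : (P : Subgroup M).map M.subtype ≤ (A : Subgroup K) := hp7.le_sylow_of_normal A
          exact (Subgroup.eq_of_le_of_card_ge hle (by rw [hA7, hPc'])).symm
        exact Sylow.ext ((hA A).trans (hA B).symm)
      have : Nat.card (Sylow 7 K) ≤ 1 := Finite.card_le_one_iff_subsingleton.mpr hsub
      omega
    · exfalso
      have := k5 rfl
      rw [k1] at this
      omega
    · apply Subgroup.eq_top_of_card_eq
      rw [k1, h168]
  · left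
    exact nbot h7 K M h

theorem trans_map (h7 : Fintype.card X = 7) (K : Subgroup (Perm X)) [IsPretransitive K X] (M : Subgroup K) [hM : M.Normal]
    (h : 7 ∣ Nat.card M) : IsPretransitive (M.map K.subtype) X := by
  haveI : IsPreprimitive K X := IsPreprimitive.of_prime_card (by rw [Nat.card_eq_fintype_card, h7]; norm_num)
  have hne : M ≠ ⊥ := by
    rintro rfl
    rw [Subgroup.card_bot] at h
    norm_num at h
  have hf : fixedPoints M X ≠ .univ := by
    intro hf
    apply hne
    rw [eq_bot_iff]
    intro m hm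
    rw [Subgroup.mem_bot]
    apply Subtype.ext
    apply Equiv.ext
    intro x
    have : x ∈ fixedPoints M X := by rw [hf]; trivial
    exact this ⟨m, hm⟩
  have hMt := IsQuasiPreprimitive.isPretransitive_of_normal (N := M) hf
  refine ⟨fun x y => ?_⟩
  obtain ⟨m, hm⟩ := hMt.exists_smul_eq x y
  exact ⟨⟨(m : K), ⟨m.1, m.2, rfl⟩⟩, hm⟩

theorem fac16 {n : ℕ} (hn : n ≠ 0) (h1 : 2 ^ 4 ∣ n) (h2 : ¬ 2 ^ 5 ∣ n) : n.factorization 2 = 4 := by
  have h6 := (Nat.prime_two.pow_dvd_iff_le_factorization hn).mp h1
  have h8 : ¬ 5 ≤ n.factorization 2 := fun h => h2 ((Nat.prime_two.pow_dvd_iff_le_factorization hn).mpr h)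
  omega

open scoped Pointwise in
theorem no336 (h7 : Fintype.card X = 7) (G : Subgroup (Perm X)) [IsPretransitive G X] (hc : Nat.card G = 336) : G = ⊤ := by
  haveI : Fact (Nat.Prime 2) := ⟨Nat.prime_two⟩
  haveI hprim : IsPreprimitive G X := IsPreprimitive.of_prime_card (by rw [Nat.card_eq_fintype_card, h7]; norm_num)
  obtain ⟨P⟩ := (inferInstance : Nonempty (Sylow 2 G))
  have hP : Nat.card (P : Subgroup G) = 16 := by
    rw [P.card_eq_multiplicity, hc, fac16 (by norm_num) (by norm_num) (by norm_num)]; norm_num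
  set S : Subgroup (Perm X) := (P : Subgroup G).map G.subtype with hS
  have hScard : Nat.card S = 16 := by rw [hS, Subgroup.card_map_of_injective G.subtype_injective, hP]
  have hS2 : IsPGroup 2 S := IsPGroup.of_card (n := 4) (by rw [hScard]; norm_num)
  obtain ⟨Q, hQ⟩ := hS2.exists_le_sylow
  have hcp : Nat.card (Perm X) = 5040 := by
    rw [Nat.card_perm, Nat.card_eq_fintype_card, h7]; rfl
  have hQc : Nat.card (Q : Subgroup (Perm X)) = 16 := by
    rw [Q.card_eq_multiplicity, hcp, fac16 (by norm_num) (by norm_num) (by norm_num)]; norm_num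
  have hSQ : S = (Q : Subgroup (Perm X)) := Subgroup.eq_of_le_of_card_ge hQ (by rw [hQc, hScard])
  haveI : Nontrivial X := Fintype.one_lt_card_iff_nontrivial.mp (by omega)
  obtain ⟨a, b, hab⟩ := exists_pair_ne X
  have h2 : IsPGroup 2 ↥(Subgroup.zpowers (swap a b)) := by
    apply IsPGroup.of_card (n := 1)
    rw [Nat.card_zpowers, pow_one, (show (swap a b).IsSwap from ⟨a, b, hab, rfl⟩).orderOf]
  obtain ⟨Q', hQ'⟩ := h2.exists_le_sylow
  obtain ⟨g, hg⟩ := MulAction.exists_smul_eq (Perm X) Q Q'
  have hmem : swap a b ∈ (Q' : Subgroup (Perm X)) := hQ' (Subgroup.mem_zpowers _)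
  rw [← hg] at hmem
  have hmem' : swap a b ∈ MulAut.conj g • (Q : Subgroup (Perm X)) := hmem
  rw [Subgroup.mem_pointwise_smul_iff_inv_smul_mem, ← map_inv, MulAut.smul_def, MulAut.conj_apply, ← hSQ] at hmem'
  rw [← swap_apply_apply] at hmem'
  have hG : swap (g⁻¹ a) (g⁻¹ b) ∈ G := by
    obtain ⟨z, hz, hze⟩ := hmem'
    rw [← hze]
    exact z.2
  exact subgroup_eq_top_of_isPreprimitive_of_isSwap_mem hprim _
    ⟨_, _, fun h => hab (g⁻¹.injective h), rfl⟩ hG

end


/-- A non-solvable transitive permutation group on 7 points that does not contain the alternating group is a simple group of order 168. -/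
theorem result {α : Type*} [Fintype α] [DecidableEq α] (hα : Fintype.card α = 7) (G : Subgroup (Equiv.Perm α)) [MulAction.IsPretransitive G α] (hG : ¬ Group.IsSolvable G) (hA : ¬ alternatingGroup α ≤ G) : Nat.card G = 168 ∧ IsSimpleGroup G := by
  by_cases hle : G ≤ alternatingGroup α
  · have hne : G ≠ alternatingGroup α := fun h => hA (le_of_eq h.symm)
    obtain ⟨h1, h2⟩ := main_even hα G hle hne hG
    exact ⟨h1, simple_of hα G h1 h2⟩
  · exfalso
    set f : G →* ℤˣ := Equiv.Perm.sign.comp G.subtype with hf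
    have hcard2 : Nat.card f.ker * Nat.card f.range = Nat.card G := by
      rw [← Subgroup.index_ker]; exact Subgroup.card_mul_index f.ker
    have hr2 : Nat.card f.range ∣ 2 := by
      have := Subgroup.card_subgroup_dvd_card f.range
      rwa [show Nat.card ℤˣ = 2 by rw [Nat.card_eq_fintype_card]; rfl] at this
    have h7G := dvd7 hα G
    have h7k : 7 ∣ Nat.card f.ker := by
      rw [← hcard2] at h7G
      rcases (by norm_num : Nat.Prime 7).dvd_mul.mp h7G with h | h
      · exact h
      · have := h.trans hr2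
        norm_num at this
    haveI hT := trans_map hα G f.ker h7k
    set K : Subgroup (Equiv.Perm α) := f.ker.map G.subtype with hK
    have hKA : K ≤ alternatingGroup α := by
      rintro _ ⟨z, hz, rfl⟩
      exact hz
    have hKG : K ≤ G := by
      rintro _ ⟨z, hz, rfl⟩
      exact z.2
    have hKne : K ≠ alternatingGroup α := fun h => hA (by rw [← h]; exact hKG)
    have hKns : ¬ Group.IsSolvable K := by
      intro hs
      apply hG
      haveI := hs
      haveI : Group.IsSolvable f.ker :=
        Group.isSolvable_of_isSolvable_injective (f := (f.ker.equivMapOfInjective G.subtype G.subtype_injective).toMonoidHom)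
          (f.ker.equivMapOfInjective G.subtype G.subtype_injective).injective
      exact Group.isSolvable_of_ker_le_range f.ker.subtype f (by rw [Subgroup.range_subtype])
    obtain ⟨h1, -⟩ := main_even hα K hKA hKne hKns
    have hkc : Nat.card f.ker = 168 := by
      rw [← h1, hK, Subgroup.card_map_of_injective G.subtype_injective]
    have hr : Nat.card f.range = 2 := by
      rcases (Nat.dvd_prime Nat.prime_two).mp hr2 with h | h
      · exfalso
        apply hle
        intro g hg
        have hb : f.range = ⊥ := Subgroup.eq_bot_of_card_eq _ h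
        have : f ⟨g, hg⟩ ∈ f.range := ⟨_, rfl⟩
        rw [hb, Subgroup.mem_bot] at this
        exact this
      · exact h
    have hG336 : Nat.card G = 336 := by rw [← hcard2, hkc, hr]
    have := no336 hα G hG336
    exact hA (by rw [this]; exact le_top)

end Cfsg.Agent.S0678
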