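import Cfsg.Statements.S0681
import Mathlib

-- import your own Cfsg.Agent.* helpers here

set_option autoImplicit false
open Cfsg

namespace Cfsg.Agent.S0681

open Cfsg

theorem zero_mul' {F : Type*} [Cfsg.NearField F] (a : F) : (0 : F) * a = 0 := by
  have h := Cfsg.NearField.right_distrib (0 : F) 0 a
  rw [add_zero] at h
  have := congrArg (fun x => -((0 : F) * a) + x) h
  simpa using this.symm

theorem neg_mul' {F : Type*} [Cfsg.NearField F] (a b : F) : (-a) * b = -(a * b) := by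
  have h := Cfsg.NearField.right_distrib (-a) a b
  rw [neg_add_cancel, zero_mul'] at h
  exact eq_neg_of_add_eq_zero_left h.symm

theorem sub_mul' {F : Type*} [Cfsg.NearField F] (a b c : F) : (a - b) * c = a * c - b * c := by
  rw [sub_eq_add_neg, Cfsg.NearField.right_distrib, neg_mul', sub_eq_add_neg]

theorem mul_ne_zero' {F : Type*} [Cfsg.NearField F] {a b : F} (ha : a ≠ 0) (hb : b ≠ 0) : a * b ≠ 0 := by
  intro h
  obtain ⟨c, hc, -⟩ := Cfsg.NearField.exists_inv b hb
  have := congrArg (· * c) h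
  simp only [mul_assoc, hc, mul_one, zero_mul'] at this
  exact ha this

/-- affine maps as permutations -/
theorem exists_perm {F : Type*} [Cfsg.NearField F] (a b : F) (ha : a ≠ 0) :
    ∃ σ : Equiv.Perm F, ∀ x, σ x = x * a + b := by
  obtain ⟨c, hc1, hc2⟩ := Cfsg.NearField.exists_inv a ha
  refine ⟨⟨fun x => x * a + b, fun x => (x - b) * c, ?_, ?_⟩, fun x => rfl⟩
  · intro x
    simp [mul_assoc, hc1]
  · intro x
    simp [mul_assoc, hc2]

/-- The affine maps `x ↦ x * a + b`, `a ≠ 0`, of a near-field form a sharply doubly transitive permutation group. -/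
theorem result {F : Type*} [Cfsg.NearField F] : ∃ H : Subgroup (Equiv.Perm F), (∀ σ : Equiv.Perm F, σ ∈ H ↔ ∃ a b : F, a ≠ 0 ∧ ∀ x : F, σ x = x * a + b) ∧ MulAction.IsMultiplyPretransitive H F 2 ∧ ∀ x : Fin 2 ↪ F, MulAction.stabilizer H x = ⊥ := by
  let H : Subgroup (Equiv.Perm F) :=
    { carrier := {σ | ∃ a b : F, a ≠ 0 ∧ ∀ x : F, σ x = x * a + b}
      one_mem' := ⟨1, 0, (Cfsg.NearField.zero_ne_one).symm, fun x => by simp⟩
      mul_mem' := by
        rintro σ τ ⟨a, b, ha, hσ⟩ ⟨c, d, hc, hτ⟩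
        refine ⟨c * a, d * a + b, mul_ne_zero' hc ha, fun x => ?_⟩
        rw [Equiv.Perm.mul_apply, hσ, hτ, Cfsg.NearField.right_distrib, mul_assoc, add_assoc]
      inv_mem' := by
        rintro σ ⟨a, b, ha, hσ⟩
        obtain ⟨c, hc1, hc2⟩ := Cfsg.NearField.exists_inv a ha
        refine ⟨c, (-b) * c, ?_, fun x => ?_⟩
        · rintro rfl
          rw [Cfsg.NearField.mul_zero] at hc1
          exact Cfsg.NearField.zero_ne_one hc1
        · apply σ.injective
          rw [Equiv.Perm.inv_def, Equiv.apply_symm_apply, hσ, ← Cfsg.NearField.right_distrib, mul_assoc, hc2, mul_one]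
          simp [← sub_eq_add_neg] }
  have hmem : ∀ σ : Equiv.Perm F, σ ∈ H ↔ ∃ a b : F, a ≠ 0 ∧ ∀ x : F, σ x = x * a + b := fun σ => Iff.rfl
  refine ⟨H, hmem, ?_, ?_⟩
  · rw [MulAction.is_two_pretransitive_iff]
    intro x y z w hxy hzw
    -- first: send (0,1) to (x,y)
    have key : ∀ x y : F, x ≠ y → ∃ g : H, g • (0 : F) = x ∧ g • (1 : F) = y := by
      intro x y hxy
      obtain ⟨σ, hσ⟩ := exists_perm (y - x) x (sub_ne_zero.mpr (Ne.symm hxy))
      refine ⟨⟨σ, (hmem σ).mpr ⟨_, _, sub_ne_zero.mpr (Ne.symm hxy), hσ⟩⟩, ?_, ?_⟩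
      · show σ 0 = x
        rw [hσ, zero_mul', zero_add]
      · show σ 1 = y
        rw [hσ, one_mul, sub_add_cancel]
    obtain ⟨g, hg0, hg1⟩ := key x y hxy
    obtain ⟨k, hk0, hk1⟩ := key z w hzw
    refine ⟨k * g⁻¹, ?_, ?_⟩
    · rw [mul_smul, ← hg0, inv_smul_smul, hk0]
    · rw [mul_smul, ← hg1, inv_smul_smul, hk1]
  · intro x
    rw [eq_bot_iff]
    intro g hg
    rw [MulAction.mem_stabilizer_iff] at hg
    have h0 : (g : Equiv.Perm F) (x 0) = x 0 := DFunLike.congr_fun hg 0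
    have h1 : (g : Equiv.Perm F) (x 1) = x 1 := DFunLike.congr_fun hg 1
    obtain ⟨a, b, ha, hσ⟩ := (hmem _).mp g.2
    rw [hσ] at h0 h1
    have hne : x 0 ≠ x 1 := x.injective.ne (by decide)
    have h2 : (x 0 - x 1) * a = x 0 - x 1 := by
      rw [sub_mul']
      have e0 : x 0 * a = x 0 - b := eq_sub_of_add_eq h0
      have e1 : x 1 * a = x 1 - b := eq_sub_of_add_eq h1
      rw [e0, e1, sub_sub_sub_cancel_right]
    have hd : x 0 - x 1 ≠ 0 := sub_ne_zero.mpr hne
    have ha1 : a = 1 := by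
      obtain ⟨c, hc1, hc2⟩ := Cfsg.NearField.exists_inv _ hd
      have := congrArg (c * ·) h2
      simpa only [← mul_assoc, hc2, one_mul] using this
    have hb : b = 0 := by
      rw [ha1, mul_one] at h0
      simpa using h0
    rw [Subgroup.mem_bot]
    ext y
    rw [hσ, ha1, hb]
    simp

end Cfsg.Agent.S0681
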