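import Cfsg.Statements.S0682
import Mathlib
import Cfsg.Agent.S0681
-- import your own Cfsg.Agent.* helpers here

set_option autoImplicit false
open Cfsg

namespace Cfsg.Agent.S0682

open Cfsg.Agent.S0681

/-- A finite near-field has prime-power order; its additive group is commutative of prime exponent. -/
theorem result {F : Type*} [Cfsg.NearField F] [Finite F] : ∃ p j : ℕ, p.Prime ∧ 1 ≤ j ∧ Nat.card F = p ^ j ∧ (∀ x y : F, x + y = y + x) ∧ ∀ x : F, p • x = 0 := by
  classical
  -- right multiplication by a unit is an additive automorphism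
  have hfin : Finite F := inferInstance
  have h01 : (0 : F) ≠ 1 := Cfsg.NearField.zero_ne_one
  have hcard : 1 < Nat.card F := by
    rw [Finite.one_lt_card_iff_nontrivial]
    exact ⟨⟨0, 1, h01⟩⟩
  -- nsmul and right multiplication
  have hns : ∀ (n : ℕ) (x a : F), (n • x) * a = n • (x * a) := by
    intro n x a
    induction n with
    | zero => rw [zero_nsmul, zero_nsmul, zero_mul']
    | succ n ih => rw [succ_nsmul, succ_nsmul, Cfsg.NearField.right_distrib, ih]
  obtain ⟨p, hp, hpd⟩ := Nat.exists_prime_and_dvd (n := Nat.card F) hcard.ne'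
  haveI : Fact p.Prime := ⟨hp⟩
  obtain ⟨x, hx⟩ := exists_prime_addOrderOf_dvd_card' (G := F) p hpd
  have hx0 : x ≠ 0 := by
    rintro rfl
    rw [addOrderOf_zero] at hx
    exact hp.one_lt.ne hx
  have hall : ∀ y : F, p • y = 0 := by
    intro y
    obtain ⟨c, hc1, hc2⟩ := Cfsg.NearField.exists_inv x hx0
    have : y = x * (c * y) := by rw [← mul_assoc, hc1, one_mul]
    rw [this, ← hns, ← hx, addOrderOf_nsmul_eq_zero, zero_mul']
  -- p-group: nontrivial centre
  have hpg : IsPGroup p (Multiplicative F) := by
    intro g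
    refine ⟨1, ?_⟩
    rw [pow_one]
    have := hall (Multiplicative.toAdd g)
    exact congrArg Multiplicative.ofAdd this
  have hnt : Nontrivial (Multiplicative F) := ⟨⟨Multiplicative.ofAdd 0, Multiplicative.ofAdd 1, fun h => h01 (Multiplicative.ofAdd.injective h)⟩⟩
  have hc := hpg.center_nontrivial
  obtain ⟨⟨z, hz⟩, hz1⟩ := exists_ne (1 : Subgroup.center (Multiplicative F))
  have hz' : ∀ w : F, Multiplicative.toAdd z + w = w + Multiplicative.toAdd z := by
    intro w
    exact (congrArg Multiplicative.toAdd ((Subgroup.mem_center_iff.mp hz) (Multiplicative.ofAdd w))).symm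
  have hz0 : Multiplicative.toAdd z ≠ 0 := by
    intro h
    apply hz1
    apply Subtype.ext
    exact Multiplicative.toAdd.injective h
  set t : F := Multiplicative.toAdd z with ht
  obtain ⟨c, hc1, hc2⟩ := Cfsg.NearField.exists_inv t hz0
  have hcomm : ∀ a b : F, a + b = b + a := by
    intro a b
    by_cases ha : a = 0
    · rw [ha]; simp
    have hca : c * a ≠ 0 := by
      apply mul_ne_zero' _ ha
      rintro rfl
      rw [Cfsg.NearField.mul_zero] at hc1
      exact h01 hc1
    obtain ⟨d, hd1, hd2⟩ := Cfsg.NearField.exists_inv (c * a) hca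
    have ea : a = t * (c * a) := by rw [← mul_assoc, hc1, one_mul]
    have eb : b = (b * d) * (c * a) := by rw [mul_assoc, hd2, mul_one]
    calc a + b = t * (c * a) + (b * d) * (c * a) := by rw [← ea, ← eb]
      _ = (t + b * d) * (c * a) := by rw [Cfsg.NearField.right_distrib]
      _ = (b * d + t) * (c * a) := by rw [hz']
      _ = b + a := by rw [Cfsg.NearField.right_distrib, ← ea, ← eb]
  obtain ⟨j, hj⟩ := (IsPGroup.iff_card.mp hpg)
  have hj' : Nat.card F = p ^ j := hj
  refine ⟨p, j, hp, ?_, hj', hcomm, hall⟩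
  by_contra h
  have : j = 0 := by omega
  rw [hj', this] at hcard
  simp at hcard

end Cfsg.Agent.S0682
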