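import Cfsg.Statements.S0684
import Mathlib
import Cfsg.Agent.LibIrrH13
-- import your own Cfsg.Agent.* helpers here

set_option autoImplicit false
open Cfsg

namespace Cfsg.Agent.S0684

section
variable {p : ℕ} [Fact p.Prime] {V : Type*} [AddCommGroup V] [Module (ZMod p) V] [Finite V]

/-- invariance. -/
def Inv {H : Type*} [Group H] (ρ : H →* (V ≃ₗ[ZMod p] V)) (A : Subgroup H) (W : Submodule (ZMod p) V) : Prop :=
  ∀ a ∈ A, ∀ v ∈ W, ρ a v ∈ W

theorem exists_min {H : Type*} [Group H] (ρ : H →* (V ≃ₗ[ZMod p] V)) (A : Subgroup H)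
    (W0 : Submodule (ZMod p) V) (h0 : W0 ≠ ⊥) (hinv : Inv ρ A W0) :
    ∃ W : Submodule (ZMod p) V, W ≤ W0 ∧ W ≠ ⊥ ∧ Inv ρ A W ∧
      ∀ W' : Submodule (ZMod p) V, W' ≤ W → Inv ρ A W' → W' = ⊥ ∨ W' = W := by
  have hfin : ({W : Submodule (ZMod p) V | W ≤ W0 ∧ W ≠ ⊥ ∧ Inv ρ A W}).Finite := by
    have : Finite (Submodule (ZMod p) V) :=
      Finite.of_injective (fun W => (W : Set V)) SetLike.coe_injective
    exact Set.toFinite _
  obtain ⟨W, hW⟩ := hfin.exists_minimal ⟨W0, le_rfl, h0, hinv⟩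
  refine ⟨W, hW.1.1, hW.1.2.1, hW.1.2.2, fun W' h1 h2 => ?_⟩
  by_cases h : W' = ⊥
  · exact Or.inl h
  · exact Or.inr (le_antisymm h1 (hW.2 ⟨h1.trans hW.1.1, h, h2⟩ h1))

theorem main {H : Type*} [Group H] (ρ : H →* (V ≃ₗ[ZMod p] V)) (A : Subgroup H)
    (hc : ∀ a ∈ A, ∀ b ∈ A, a * b = b * a)
    (hfree : ∀ a ∈ A, ∀ v : V, v ≠ 0 → ρ a v = v → a = 1)
    (W : Submodule (ZMod p) V) (h0 : W ≠ ⊥) (hinv : Inv ρ A W)
    (hmin : ∀ W' : Submodule (ZMod p) V, W' ≤ W → Inv ρ A W' → W' = ⊥ ∨ W' = W) :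
    IsCyclic A ∧ Nat.card A ∣ Nat.card W - 1 := by
  have hnt : Nontrivial W := (Submodule.nontrivial_iff_ne_bot).mpr h0
  let R : A →* AddMonoid.End W :=
    { toFun := fun a =>
        { toFun := fun w => ⟨ρ a w, hinv a a.2 w w.2⟩
          map_zero' := by ext; simp
          map_add' := fun x y => by ext; simp }
      map_one' := by
        refine DFunLike.ext _ _ (fun w => Subtype.ext ?_)
        change ρ ((1 : A) : H) (w : V) = (w : V)
        rw [OneMemClass.coe_one, map_one]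
        rfl
      map_mul' := fun a b => by
        refine DFunLike.ext _ _ (fun w => Subtype.ext ?_)
        change ρ ((a * b : A) : H) (w : V) = ρ (a : H) (ρ (b : H) (w : V))
        rw [Subgroup.coe_mul, map_mul]
        rfl }
  have hR : ∀ (a : A) (w : W), ((R a w : W) : V) = ρ a w := fun a w => rfl
  have hirr : ∀ U : AddSubgroup W, (∀ s ∈ Set.range R, ∀ w ∈ U, s w ∈ U) → U = ⊥ ∨ U = ⊤ := by
    intro U hU
    rcases hmin ((AddSubgroup.toZModSubmodule p U).map W.subtype) (by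
      rintro _ ⟨u, -, rfl⟩
      exact u.2) (by
      rintro a ha _ ⟨u, hu, rfl⟩
      exact ⟨R ⟨a, ha⟩ u, hU _ ⟨⟨a, ha⟩, rfl⟩ u hu, rfl⟩) with h | h
    · left
      rw [eq_bot_iff]
      intro u hu
      have h1 : (u : V) ∈ (AddSubgroup.toZModSubmodule p U).map W.subtype := ⟨u, hu, rfl⟩
      rw [h, Submodule.mem_bot] at h1
      rw [AddSubgroup.mem_bot]
      exact Subtype.ext h1
    · right
      rw [eq_top_iff]
      intro u _
      have h1 : (u : V) ∈ (AddSubgroup.toZModSubmodule p U).map W.subtype := by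
        rw [h]; exact u.2
      obtain ⟨u', hu', he⟩ := h1
      have : u' = u := Subtype.ext he
      rw [← this]
      exact hu'
  have hcomm : ∀ s ∈ Set.range R, ∀ t ∈ Set.range R, s * t = t * s := by
    rintro _ ⟨a, rfl⟩ _ ⟨b, rfl⟩
    rw [← map_mul, ← map_mul]
    congr 1
    exact Subtype.ext (hc a a.2 b b.2)
  have hf := CfsgLib.IrrH13.isField (Set.range R) hirr
  have hfin := CfsgLib.IrrH13.finite_E (Set.range R) hirr
  have hcard := CfsgLib.IrrH13.card_E (Set.range R) hirr hcomm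
  let inst : Field (Subring.centralizer (Set.range R)) := hf.toField
  let f : A →* (Subring.centralizer (Set.range R)) :=
    { toFun := fun a => ⟨R a, Subring.mem_centralizer_iff.mpr (fun t ht => hcomm t ht _ ⟨a, rfl⟩)⟩
      map_one' := by
        apply Subtype.ext
        exact map_one R
      map_mul' := fun a b => by
        apply Subtype.ext
        exact map_mul R a b }
  have hinj : Function.Injective f := by
    rw [injective_iff_map_eq_one]
    intro a ha
    obtain ⟨w, hw⟩ := exists_ne (0 : W)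
    apply Subtype.ext
    apply hfree a a.2 (w : V) (fun h => hw (Subtype.ext h))
    have h1 : R a = 1 := congrArg Subtype.val ha
    rw [← hR, h1]
    rfl
  have hfA : Finite A := Finite.of_injective f hinj
  refine ⟨isCyclic_of_subgroup_isDomain f hinj, ?_⟩
  rw [← hcard, ← Nat.card_units]
  exact Subgroup.card_dvd_of_injective f.toHomUnits (fun a b hab => hinj (congrArg Units.val hab))

end

/-- Point stabiliser of a sharply doubly transitive group not of semilinear type: a maximal normal abelian subgroup `A` of a linear group `H` that is regular on non-zero vectors and has no irreducible cyclic normal subgroup is cyclic and reducible, and the order of `A` divides `p ^ k - 1` for `k` the dimension of a minimal `A`-invariant subspace. -/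
theorem result {p : ℕ} [Fact p.Prime] {V : Type*} [AddCommGroup V] [Module (ZMod p) V] [Finite V] (H : Subgroup (V ≃ₗ[ZMod p] V)) (hreg : ∀ v w : V, v ≠ 0 → w ≠ 0 → ∃! h : H, (h : V ≃ₗ[ZMod p] V) v = w) (hI : ∀ A : Subgroup H, A.Normal → IsCyclic A → ∃ W : Submodule (ZMod p) V, W ≠ ⊥ ∧ W ≠ ⊤ ∧ ∀ a ∈ A, ∀ v ∈ W, ((a : H) : V ≃ₗ[ZMod p] V) v ∈ W) (A : Subgroup H) (hAn : A.Normal) (hAc : IsMulCommutative A) (hAmax : ∀ B : Subgroup H, B.Normal → IsMulCommutative B → A ≤ B → B = A) : IsCyclic A ∧ ∃ W : Submodule (ZMod p) V, W ≠ ⊥ ∧ W ≠ ⊤ ∧ (∀ a ∈ A, ∀ v ∈ W, ((a : H) : V ≃ₗ[ZMod p] V) v ∈ W) ∧ (∀ W' : Submodule (ZMod p) V, W' ≤ W → (∀ a ∈ A, ∀ v ∈ W', ((a : H) : V ≃ₗ[ZMod p] V) v ∈ W') → W' = ⊥ ∨ W' = W) ∧ Nat.card A ∣ p ^ Module.finrank (ZMod p) W - 1 := by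
  have hfree : ∀ a ∈ A, ∀ v : V, v ≠ 0 → H.subtype a v = v → a = 1 := by
    intro a _ v hv h
    obtain ⟨_, _, huniq⟩ := hreg v v hv hv
    rw [huniq a h, huniq 1 rfl]
  have hc : ∀ a ∈ A, ∀ b ∈ A, a * b = b * a := by
    intro a ha b hb
    exact congrArg Subtype.val (hAc.is_comm.comm (⟨a, ha⟩ : A) ⟨b, hb⟩)
  have hnt : (⊤ : Submodule (ZMod p) V) ≠ ⊥ := by
    obtain ⟨W, h1, h2, _⟩ := hI ⊥ inferInstance inferInstance
    intro h
    apply h1
    rw [eq_bot_iff, ← h]
    exact le_top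
  have hcyc : IsCyclic A := by
    obtain ⟨W, h1, h2, h3, h4⟩ := exists_min H.subtype A ⊤ hnt (fun a _ v _ => Submodule.mem_top)
    exact (main H.subtype A hc hfree W h2 h3 h4).1
  refine ⟨hcyc, ?_⟩
  obtain ⟨W0, h01, h02, h03⟩ := hI A hAn hcyc
  obtain ⟨W, h1, h2, h3, h4⟩ := exists_min H.subtype A W0 h01 h03
  refine ⟨W, h2, ?_, h3, h4, ?_⟩
  · rintro rfl
    exact h02 (eq_top_iff.mpr h1)
  · have h5 := (main H.subtype A hc hfree W h2 h3 h4).2
    have h6 : Nat.card W = p ^ Module.finrank (ZMod p) W := by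
      have := Module.natCard_eq_pow_finrank (K := ZMod p) (V := W)
      rwa [Nat.card_zmod] at this
    rwa [h6] at h5

end Cfsg.Agent.S0684
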