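import Cfsg.Statements.S0685
import Mathlib
import Cfsg.Agent.S0684
-- import your own Cfsg.Agent.* helpers here

set_option autoImplicit false
open Cfsg

namespace Cfsg.Agent.S0685

open Cfsg.Agent.S0684

section
variable {p : ℕ} [Fact p.Prime] {V : Type*} [AddCommGroup V] [Module (ZMod p) V] [Finite V]

theorem card_H {H : Type*} [Group H] (ρ : H →* (V ≃ₗ[ZMod p] V))
    (hreg : ∀ v w : V, v ≠ 0 → w ≠ 0 → ∃! h : H, ρ h v = w) (hV : Nontrivial V) :
    Nat.card H = Nat.card V - 1 := by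
  obtain ⟨v0, hv0⟩ := exists_ne (0 : V)
  have h1 : Nat.card H = Nat.card {v : V // v ≠ 0} := by
    apply Nat.card_congr
    refine Equiv.ofBijective (fun h => ⟨ρ h v0, fun h0 => hv0 ((ρ h).map_eq_zero_iff.mp h0)⟩) ⟨?_, ?_⟩
    · intro a b hab
      have h1 : ρ a v0 = ρ b v0 := congrArg Subtype.val hab
      obtain ⟨c, hc, hu⟩ := hreg v0 (ρ b v0) hv0 (fun h0 => hv0 ((ρ b).map_eq_zero_iff.mp h0))
      rw [hu a h1, hu b rfl]
    · rintro ⟨w, hw⟩
      obtain ⟨c, hc, hu⟩ := hreg v0 w hv0 hw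
      exact ⟨c, Subtype.ext hc⟩
  classical
  have := Fintype.ofFinite V
  rw [h1, Nat.card_eq_fintype_card, Nat.card_eq_fintype_card, Fintype.card_subtype_compl]
  simp

/-- conjugate invariant submodules. -/
theorem map_inv {H : Type*} [Group H] (ρ : H →* (V ≃ₗ[ZMod p] V)) (A : Subgroup H) (hA : A.Normal)
    {W : Submodule (ZMod p) V} (hinv : Inv ρ A W) (h : H) :
    Inv ρ A (W.map (ρ h).toLinearMap) := by
  rintro a ha _ ⟨w, hw, rfl⟩
  refine ⟨ρ (h⁻¹ * a * h) w, hinv _ ?_ w hw, ?_⟩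
  · have := hA.conj_mem a ha h⁻¹
    rwa [inv_inv] at this
  · change (ρ h * ρ (h⁻¹ * a * h)) w = (ρ a * ρ h) w
    rw [← map_mul, ← map_mul]
    congr 2
    group

theorem sq_le {H : Type*} [Group H] (ρ : H →* (V ≃ₗ[ZMod p] V)) (A : Subgroup H) (hA : A.Normal)
    (htr : ∀ v w : V, v ≠ 0 → w ≠ 0 → ∃ h : H, ρ h v = w)
    {W : Submodule (ZMod p) V} (h0 : W ≠ ⊥) (h1 : W ≠ ⊤) (hinv : Inv ρ A W)
    (hmin : ∀ W' : Submodule (ZMod p) V, W' ≤ W → Inv ρ A W' → W' = ⊥ ∨ W' = W) :
    Nat.card W * Nat.card W ≤ Nat.card V := by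
  obtain ⟨w, hw, hw0⟩ := W.exists_mem_ne_zero_of_ne_bot h0
  obtain ⟨v, hv⟩ : ∃ v, v ∉ W := by
    by_contra hcon
    push Not at hcon
    exact h1 (eq_top_iff.mpr (fun x _ => hcon x))
  have hv0 : v ≠ 0 := fun h => hv (h ▸ W.zero_mem)
  obtain ⟨h, hh⟩ := htr w v hw0 hv0
  have hi := map_inv ρ A hA hinv h
  have hcard : Nat.card (W.map (ρ h).toLinearMap) = Nat.card W :=
    (Nat.card_congr (Submodule.equivMapOfInjective _ (ρ h).injective W).toEquiv).symm
  have hvW : v ∈ W.map (ρ h).toLinearMap := ⟨w, hw, hh⟩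
  have hbot : W ⊓ W.map (ρ h).toLinearMap = ⊥ := by
    rcases hmin (W ⊓ W.map (ρ h).toLinearMap) inf_le_left
      (fun a ha x hx => ⟨hinv a ha x hx.1, hi a ha x hx.2⟩) with h2 | h2
    · exact h2
    · exfalso
      rw [inf_eq_left] at h2
      have h3 : (W : Set V) = (W.map (ρ h).toLinearMap : Submodule (ZMod p) V) := by
        apply Set.eq_of_subset_of_ncard_le h2 _ (Set.toFinite _)
        rw [← Nat.card_coe_set_eq, ← Nat.card_coe_set_eq]
        exact hcard.le
      apply hv
      have h4 : v ∈ (W : Set V) := by rw [h3]; exact hvW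
      exact h4
  have hinj : Function.Injective
      (fun x : W × (W.map (ρ h).toLinearMap : Submodule (ZMod p) V) => (x.1 : V) + x.2) := by
    rintro ⟨a, b⟩ ⟨c, d⟩ hab
    simp only at hab
    have h5 : (a : V) - c = d - b := by
      rw [sub_eq_sub_iff_add_eq_add, hab, add_comm]
    have h6 : (a : V) - c ∈ W ⊓ W.map (ρ h).toLinearMap :=
      ⟨W.sub_mem a.2 c.2, by rw [h5]; exact Submodule.sub_mem _ d.2 b.2⟩
    rw [hbot, Submodule.mem_bot, sub_eq_zero] at h6
    rw [h6, add_right_inj] at hab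
    exact Prod.ext (Subtype.ext h6) (Subtype.ext hab)
  have := Nat.card_le_card_of_injective _ hinj
  rwa [Nat.card_prod, hcard] at this

end

theorem card_le_sq {H : Type*} [Group H] [Finite H] (A : Subgroup H) [hA : A.Normal] (hc : IsCyclic A)
    (hcen : Subgroup.centralizer (A : Set H) = A) : Nat.card H ≤ Nat.card A * Nat.card A := by
  have hk : (MulAut.conjNormal : H →* MulAut A).ker = A := by
    ext h
    constructor
    · intro hh
      rw [← hcen, Subgroup.mem_centralizer_iff]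
      intro a ha
      have h1 : MulAut.conjNormal (H := A) h ⟨a, ha⟩ = ⟨a, ha⟩ := by
        have : (MulAut.conjNormal : H →* MulAut A) h = 1 := hh
        rw [this]; rfl
      have h2 : h * a * h⁻¹ = a := by
        rw [← MulAut.conjNormal_apply (H := A) h ⟨a, ha⟩, h1]
      exact (mul_inv_eq_iff_eq_mul.mp h2).symm
    · intro hh
      rw [← hcen, Subgroup.mem_centralizer_iff] at hh
      change (MulAut.conjNormal : H →* MulAut A) h = 1
      ext a
      rw [MulAut.conjNormal_apply, mul_inv_eq_iff_eq_mul]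
      exact (hh a a.2).symm
  have h1 : Nat.card (MulAut.conjNormal : H →* MulAut A).range ≤ Nat.card A := by
    calc Nat.card (MulAut.conjNormal : H →* MulAut A).range ≤ Nat.card (MulAut A) :=
          Nat.card_le_card_of_injective _ Subtype.val_injective
      _ = (Nat.card A).totient := IsCyclic.card_mulAut A
      _ ≤ Nat.card A := Nat.totient_le _
  have h2 := Subgroup.card_eq_card_quotient_mul_card_subgroup (MulAut.conjNormal : H →* MulAut A).ker
  have h3 : Nat.card (H ⧸ (MulAut.conjNormal : H →* MulAut A).ker)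
      = Nat.card (MulAut.conjNormal : H →* MulAut A).range :=
    Nat.card_congr (QuotientGroup.quotientKerEquivRange _).toEquiv
  rw [h3, hk] at h2
  rw [h2]
  exact Nat.mul_le_mul_right _ h1

/-- In a linear group over the prime field that is regular on non-zero vectors and has no irreducible cyclic normal subgroup, a maximal normal abelian subgroup is properly contained in its centraliser, which is non-abelian. -/
theorem result {p : ℕ} [Fact p.Prime] {V : Type*} [AddCommGroup V] [Module (ZMod p) V] [Finite V] (H : Subgroup (V ≃ₗ[ZMod p] V)) (hreg : ∀ v w : V, v ≠ 0 → w ≠ 0 → ∃! h : H, (h : V ≃ₗ[ZMod p] V) v = w) (hI : ∀ A : Subgroup H, A.Normal → IsCyclic A → ∃ W : Submodule (ZMod p) V, W ≠ ⊥ ∧ W ≠ ⊤ ∧ ∀ a ∈ A, ∀ v ∈ W, ((a : H) : V ≃ₗ[ZMod p] V) v ∈ W) (A : Subgroup H) (hAn : A.Normal) (hAc : IsMulCommutative A) (hAmax : ∀ B : Subgroup H, B.Normal → IsMulCommutative B → A ≤ B → B = A) : A < Subgroup.centralizer (A : Set H) ∧ ¬ IsMulCommutative (Subgroup.centralizer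 (A : Set H)) := by
  obtain ⟨hcyc, W, h0, h1, hinv, hmin, hdvd⟩ := Cfsg.Agent.S0684.result H hreg hI A hAn hAc hAmax
  have hVn : Nontrivial V := by
    obtain ⟨w, hw, hw0⟩ := W.exists_mem_ne_zero_of_ne_bot h0
    exact ⟨w, 0, hw0⟩
  have hcH := card_H H.subtype hreg hVn
  have hsq := sq_le H.subtype A hAn (fun v w hv hw => (hreg v w hv hw).exists) h0 h1 hinv hmin
  have hcW : Nat.card W = p ^ Module.finrank (ZMod p) W := by
    have := Module.natCard_eq_pow_finrank (K := ZMod p) (V := W)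
    rwa [Nat.card_zmod] at this
  rw [← hcW] at hdvd
  have hW2 : 2 ≤ Nat.card W := by
    have : Nontrivial W := (Submodule.nontrivial_iff_ne_bot).mpr h0
    exact Finite.one_lt_card
  have hfin : Finite H := by
    apply Nat.finite_of_card_ne_zero
    rw [hcH]
    have : 1 < Nat.card V := Finite.one_lt_card
    omega
  have hAle : A ≤ Subgroup.centralizer (A : Set H) := Subgroup.le_centralizer_iff_isMulCommutative.mpr hAc
  have hne : Subgroup.centralizer (A : Set H) ≠ A := by
    intro hcen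
    have h2 := card_le_sq A hcyc hcen
    have h3 := Nat.le_of_dvd (by omega) hdvd
    have h4 : Nat.card A * Nat.card A ≤ (Nat.card W - 1) * (Nat.card W - 1) := Nat.mul_le_mul h3 h3
    obtain ⟨w, hw⟩ : ∃ w, Nat.card W = w + 1 := ⟨Nat.card W - 1, by omega⟩
    rw [hw] at hsq h4 hW2
    rw [Nat.add_sub_cancel] at h4
    have h5 : Nat.card V ≤ w * w + 1 := by omega
    nlinarith
  refine ⟨lt_of_le_of_ne hAle (Ne.symm hne), fun hcom => ?_⟩
  exact hne (hAmax _ inferInstance hcom hAle)

end Cfsg.Agent.S0685
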