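import Cfsg.Statements.S0688
import Mathlib
import Cfsg.Agent.S0685
import Cfsg.Agent.LibNF3
-- import your own Cfsg.Agent.* helpers here

set_option autoImplicit false
open Cfsg

namespace Cfsg.Agent.S0688

open Cfsg.Agent.S0684 Cfsg.Agent.S0685 Cfsg.Agent.LibNF2 Cfsg.Agent.LibNF3

theorem div24 (q : ℕ) (h : q + 1 ∣ 24) : q = 0 ∨ q = 1 ∨ q = 2 ∨ q = 3 ∨ q = 5 ∨ q = 7 ∨ q = 11 ∨ q = 23 := by
  have h1 := Nat.le_of_dvd (by norm_num) h
  have h2 : q ≤ 23 := by omega
  interval_cases q <;> omega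

/-- in a solvable group, with `A` a maximal normal abelian subgroup and `C_H(A)` non-abelian, there is a
normal subgroup `N` of prime power order and class two. -/
theorem exists_N {H : Type*} [Group H] [Finite H] (hsolv : Group.IsSolvable H) (A : Subgroup H)
    (hAn : A.Normal) (hAc : IsMulCommutative A)
    (hAmax : ∀ B : Subgroup H, B.Normal → IsMulCommutative B → A ≤ B → B = A)
    (hCn : ¬ IsMulCommutative (Subgroup.centralizer (A : Set H))) :
    ∃ N : Subgroup H, N.Normal ∧ (∃ r : ℕ, r.Prime ∧ IsPGroup r N) ∧ (∃ x y : N, x * y ≠ y * x) ∧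
      ∀ x y z : N, (x * y * x⁻¹ * y⁻¹) * z = z * (x * y * x⁻¹ * y⁻¹) := by
  have hfinS : ({M : Subgroup H | M.Normal ∧ M ≤ Subgroup.centralizer (A : Set H) ∧
      ¬ IsMulCommutative M}).Finite := Set.toFinite _
  obtain ⟨N, hN⟩ := hfinS.exists_minimal ⟨Subgroup.centralizer (A : Set H), inferInstance, le_rfl, hCn⟩
  obtain ⟨⟨hNn, hNC, hNnc⟩, hNmin⟩ := hN
  have hcA : ∀ n ∈ N, ∀ a ∈ A, n * a = a * n := by
    intro n hn a ha
    exact ((Subgroup.mem_centralizer_iff.mp (hNC hn)) a ha).symm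
  have hAcom : ∀ a ∈ A, ∀ b ∈ A, a * b = b * a := by
    intro a ha b hb
    exact congrArg Subtype.val (hAc.is_comm.comm (⟨a, ha⟩ : A) ⟨b, hb⟩)
  have hsmall : ∀ M : Subgroup H, M.Normal → M ≤ N → M ≠ N → M ≤ A := by
    intro M hM hMN hne
    have hMc : IsMulCommutative M := by
      by_contra hcon
      exact hne (le_antisymm hMN (hNmin ⟨hM, hMN.trans hNC, hcon⟩ hMN))
    have hMcom : ∀ a ∈ M, ∀ b ∈ M, a * b = b * a := by
      intro a ha b hb
      exact congrArg Subtype.val (hMc.is_comm.comm (⟨a, ha⟩ : M) ⟨b, hb⟩)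
    have hsupc : IsMulCommutative (M ⊔ A : Subgroup H) := by
      rw [Subgroup.sup_eq_closure]
      apply Subgroup.isMulCommutative_closure
      rintro x (hx | hx) y (hy | hy)
      · exact hMcom x hx y hy
      · exact hcA x (hMN hx) y hy
      · exact (hcA y (hMN hy) x hx).symm
      · exact hAcom x hx y hy
    have := hAmax (M ⊔ A) (Subgroup.sup_normal M A) hsupc le_sup_right
    rw [← this]
    exact le_sup_left
  have hNA : ¬ N ≤ A := by
    intro h
    apply hNnc
    exact ⟨⟨fun x y => Subtype.ext (hAcom x (h x.2) y (h y.2))⟩⟩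
  have hNbot : N ≠ ⊥ := by
    rintro rfl
    exact hNA bot_le
  have hcomm : ⁅N, N⁆ ≤ A := by
    apply hsmall
    · exact Subgroup.commutator_normal N N
    · exact Subgroup.commutator_le_left N N
    · exact (Group.IsSolvable.commutator_lt_of_ne_bot hNbot).ne
  have hcl : ∀ x y z : N, (x * y * x⁻¹ * y⁻¹) * z = z * (x * y * x⁻¹ * y⁻¹) := by
    intro x y z
    apply Subtype.ext
    have h1 : (x : H) * y * (x : H)⁻¹ * (y : H)⁻¹ ∈ A :=
      hcomm (Subgroup.commutator_mem_commutator x.2 y.2)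
    exact (hcA z z.2 _ h1).symm
  have hnil : Group.IsNilpotent N := by
    apply Subgroup.isNilpotent_of_ker_le_center (Abelianization.of : N →* Abelianization N)
    rw [Abelianization.ker_of]
    rw [commutator_def, Subgroup.commutator_le]
    intro x _ y _
    rw [Subgroup.mem_center_iff]
    intro z
    exact (hcl x y z).symm
  -- a prime for which the Sylow subgroup of `N` is not contained in `A`
  have hidx : (A.subgroupOf N).index ≠ 1 := by
    intro h
    rw [Subgroup.index_eq_one, Subgroup.subgroupOf_eq_top] at h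
    exact hNA h
  obtain ⟨r, hr, hrd⟩ := Nat.exists_prime_and_dvd hidx
  have hrf : Fact r.Prime := ⟨hr⟩
  obtain ⟨P⟩ : Nonempty (Sylow r N) := inferInstance
  have hPn : (P : Subgroup N).Normal := ((Group.isNilpotent_of_finite_tfae (G := N)).out 0 3 rfl rfl).mp hnil r hrf P
  have hPc : (P : Subgroup N).Characteristic := Sylow.characteristic_of_normal P hPn
  have hmapn : ((P : Subgroup N).map N.subtype).Normal := inferInstance
  have hmapeq : (P : Subgroup N).map N.subtype = N := by
    by_contra hne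
    have hle := hsmall _ hmapn (Subgroup.map_subtype_le _) hne
    have hle' : (P : Subgroup N) ≤ A.subgroupOf N := by
      intro x hx
      rw [Subgroup.mem_subgroupOf]
      exact hle ⟨x, hx, rfl⟩
    exact P.not_dvd_index (hrd.trans (Subgroup.index_dvd_of_le hle'))
  have hPtop : (P : Subgroup N) = ⊤ := by
    apply Subgroup.map_injective N.subtype_injective
    rw [hmapeq, ← MonoidHom.range_eq_map, Subgroup.range_subtype]
  have hpg : IsPGroup r N := by
    have h1 := P.isPGroup'
    rw [hPtop] at h1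
    exact h1.of_equiv Subgroup.topEquiv
  refine ⟨N, hNn, ⟨r, hr, hpg⟩, ?_, hcl⟩
  by_contra hcon
  push Not at hcon
  exact hNnc ⟨⟨hcon⟩⟩

section
variable {p : ℕ} [Fact p.Prime] {V : Type*} [AddCommGroup V] [Module (ZMod p) V] [Finite V]

theorem cyclic_of_comm {H : Type*} [Group H] (ρ : H →* (V ≃ₗ[ZMod p] V))
    (hfree : ∀ (h : H) (v : V), v ≠ 0 → ρ h v = v → h = 1) (hV : Nontrivial V)
    (B : Subgroup H) (hB : IsMulCommutative B) : IsCyclic B := by
  have htop : (⊤ : Submodule (ZMod p) V) ≠ ⊥ := top_ne_bot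
  obtain ⟨W, h1, h2, h3, h4⟩ := exists_min ρ B ⊤ htop (fun a _ v _ => Submodule.mem_top)
  exact (main ρ B (fun a ha b hb => congrArg Subtype.val (hB.is_comm.comm (⟨a, ha⟩ : B) ⟨b, hb⟩))
    (fun a _ v hv hav => hfree a v hv hav) W h2 h3 h4).1

theorem exists_q8 {H : Type*} [Group H] [Finite H] (ρ : H →* (V ≃ₗ[ZMod p] V))
    (hfree : ∀ (h : H) (v : V), v ≠ 0 → ρ h v = v → h = 1) (hV : Nontrivial V)
    (N : Subgroup H) (r : ℕ) (hr : r.Prime) (hpg : IsPGroup r N) (hnc : ∃ x y : N, x * y ≠ y * x)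
    (hcl : ∀ x y z : N, (x * y * x⁻¹ * y⁻¹) * z = z * (x * y * x⁻¹ * y⁻¹)) :
    Nonempty (N ≃* QuaternionGroup 2) := by
  refine (q8_of_class_two hr hpg ?_ hnc hcl).2
  intro B hB
  have hBc : IsMulCommutative (B.map N.subtype) := by
    constructor
    constructor
    rintro ⟨_, ⟨x, hx, rfl⟩⟩ ⟨_, ⟨y, hy, rfl⟩⟩
    apply Subtype.ext
    have h1 : x * y = y * x := congrArg Subtype.val (hB.is_comm.comm (⟨x, hx⟩ : B) ⟨y, hy⟩)
    have h2 : (x : H) * y = y * x := congrArg Subtype.val h1
    exact h2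
  have hcyc := cyclic_of_comm ρ hfree hV (B.map N.subtype) hBc
  exact isCyclic_of_injective (B.equivMapOfInjective N.subtype N.subtype_injective).toMonoidHom
    (B.equivMapOfInjective N.subtype N.subtype_injective).injective

/-- `C₄` is irreducible on `F₃²`. -/
theorem not_nine {H : Type*} [Group H] [Finite H] (ρ : H →* (V ≃ₗ[ZMod p] V))
    (hfree : ∀ (h : H) (v : V), v ≠ 0 → ρ h v = v → h = 1) (hV9 : Nat.card V = 9)
    (hH : Nat.card H = 8) (i : H) (hi : orderOf i = 4)
    (hI : ∀ A : Subgroup H, A.Normal → IsCyclic A → ∃ W : Submodule (ZMod p) V,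
      W ≠ ⊥ ∧ W ≠ ⊤ ∧ ∀ a ∈ A, ∀ v ∈ W, ρ a v ∈ W) : False := by
  have hidx : (Subgroup.zpowers i).index = 2 := by
    have := Subgroup.card_mul_index (Subgroup.zpowers i)
    rw [Nat.card_zpowers, hi, hH] at this
    omega
  obtain ⟨W, h1, h2, h3⟩ := hI (Subgroup.zpowers i) (Subgroup.normal_of_index_eq_two hidx) inferInstance
  have hdvd : Nat.card W ∣ 9 := by
    rw [← hV9]
    exact AddSubgroup.card_addSubgroup_dvd_card W.toAddSubgroup
  have hW1 : 1 < Nat.card W := by
    have : Nontrivial W := (Submodule.nontrivial_iff_ne_bot).mpr h1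
    exact Finite.one_lt_card
  have hW9 : Nat.card W ≠ 9 := by
    intro h
    apply h2
    have h5 : (W : Set V) = Set.univ := by
      apply Set.eq_of_subset_of_ncard_le (Set.subset_univ _) _ (Set.toFinite _)
      rw [Set.ncard_univ, hV9, ← Nat.card_coe_set_eq (W : Set V)]
      exact h.ge
    exact SetLike.coe_injective (by rw [h5]; rfl)
  have hW3 : Nat.card W = 3 := by
    have h6 : Nat.card W ≤ 9 := Nat.le_of_dvd (by norm_num) hdvd
    interval_cases hc : Nat.card W <;> omega
  have hmul : ∀ (g h : H) (v : V), ρ (g * h) v = ρ g (ρ h v) := by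
    intro g h v
    rw [map_mul]; rfl
  have hcW : Nat.card {w : W // w ≠ 0} = 2 := by
    classical
    have := Fintype.ofFinite W
    have h7 : Nat.card {w : W // w ≠ 0} = Nat.card W - 1 := by
      rw [Nat.card_eq_fintype_card, Nat.card_eq_fintype_card, Fintype.card_subtype_compl]
      simp
    rw [h7, hW3]
  let act : MulAction (Subgroup.zpowers i) {w : W // w ≠ 0} :=
    { smul := fun c w => ⟨⟨ρ c w.1, h3 c c.2 w.1 w.1.2⟩, fun h => w.2 (by
        have h1 : ρ c (w.1 : V) = 0 := congrArg Subtype.val h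
        exact Subtype.ext ((ρ c).map_eq_zero_iff.mp h1))⟩
      one_smul := fun w => by
        apply Subtype.ext
        apply Subtype.ext
        change ρ ((1 : Subgroup.zpowers i) : H) (w.1 : V) = w.1
        rw [OneMemClass.coe_one, map_one]
        rfl
      mul_smul := fun c d w => by
        apply Subtype.ext
        apply Subtype.ext
        change ρ ((c * d : Subgroup.zpowers i) : H) (w.1 : V) = ρ c (ρ d (w.1 : V))
        rw [Subgroup.coe_mul, hmul] }
  have h8 : Nat.card (Subgroup.zpowers i) ∣ Nat.card {w : W // w ≠ 0} := by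
    apply card_dvd_of_free
    intro c w hcw
    apply Subtype.ext
    apply hfree c (w.1 : V) (fun h => w.2 (Subtype.ext h))
    have := congrArg (fun x : {w : W // w ≠ 0} => ((x : W) : V)) hcw
    exact this
  rw [Nat.card_zpowers, hi, hcW] at h8
  omega

end

/-- Degrees of the soluble exceptional sharply doubly transitive groups: if a solvable linear group over the prime field is regular on the non-zero vectors of `V` and has no irreducible cyclic normal subgroup, then `V` has 25, 49, 121 or 529 elements. -/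
theorem result {p : ℕ} [Fact p.Prime] {V : Type*} [AddCommGroup V] [Module (ZMod p) V] [Finite V] (H : Subgroup (V ≃ₗ[ZMod p] V)) (hreg : ∀ v w : V, v ≠ 0 → w ≠ 0 → ∃! h : H, (h : V ≃ₗ[ZMod p] V) v = w) (hI : ∀ A : Subgroup H, A.Normal → IsCyclic A → ∃ W : Submodule (ZMod p) V, W ≠ ⊥ ∧ W ≠ ⊤ ∧ ∀ a ∈ A, ∀ v ∈ W, ((a : H) : V ≃ₗ[ZMod p] V) v ∈ W) (hsolv : Group.IsSolvable H) : Nat.card V = 25 ∨ Nat.card V = 49 ∨ Nat.card V = 121 ∨ Nat.card V = 529 := by
  have hfree : ∀ (h : H) (v : V), v ≠ 0 → H.subtype h v = v → h = 1 := by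
    intro a v hv h
    obtain ⟨_, _, huniq⟩ := hreg v v hv hv
    rw [huniq a h, huniq 1 rfl]
  have hVn : Nontrivial V := by
    obtain ⟨W, h1, h2, _⟩ := hI ⊥ inferInstance inferInstance
    obtain ⟨w, hw, hw0⟩ := W.exists_mem_ne_zero_of_ne_bot h1
    exact ⟨w, 0, hw0⟩
  have hcH := card_H H.subtype hreg hVn
  have hfin : Finite H := by
    apply Nat.finite_of_card_ne_zero
    rw [hcH]
    have : 1 < Nat.card V := Finite.one_lt_card
    omega
  have hfinA : ({M : Subgroup H | M.Normal ∧ IsMulCommutative M}).Finite := Set.toFinite _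
  obtain ⟨A, ⟨hAn, hAc⟩, hAmax⟩ := hfinA.exists_maximal ⟨⊥, inferInstance, inferInstance⟩
  have hAmax' : ∀ B : Subgroup H, B.Normal → IsMulCommutative B → A ≤ B → B = A :=
    fun B h1 h2 h3 => le_antisymm (hAmax ⟨h1, h2⟩ h3) h3
  have hCn := (Cfsg.Agent.S0685.result H hreg hI A hAn hAc hAmax').2
  obtain ⟨N, hNn, ⟨r, hr, hpg⟩, hnc, hcl⟩ := exists_N hsolv A hAn hAc hAmax' hCn
  obtain ⟨e⟩ := exists_q8 H.subtype hfree hVn N r hr hpg hnc hcl
  obtain ⟨q, hq, hq24⟩ := q8_numbers H.subtype hfree hVn hcH N e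
  have hN8 : Nat.card N = 8 := by
    rw [Nat.card_congr e.toEquiv, Nat.card_eq_fintype_card, QuaternionGroup.card]
  have h8 : 8 ∣ Nat.card H := by
    rw [← hN8]; exact Subgroup.card_subgroup_dvd_card N
  have hV1 : 1 < Nat.card V := Finite.one_lt_card
  have hcases : q = 3 ∨ q = 5 ∨ q = 7 ∨ q = 11 ∨ q = 23 := by
    rw [hq] at hcH hV1
    rw [hcH] at h8
    rcases div24 q hq24 with h | h | h | h | h | h | h | h
    · subst h; omega
    · subst h; omega
    · subst h; omega
    · exact Or.inl h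
    · exact Or.inr (Or.inl h)
    · exact Or.inr (Or.inr (Or.inl h))
    · exact Or.inr (Or.inr (Or.inr (Or.inl h)))
    · exact Or.inr (Or.inr (Or.inr (Or.inr h)))
  rcases hcases with h | h | h | h | h
  · exfalso
    subst h
    obtain ⟨i, _, _, _, _, _, _, _, hi⟩ := q8_relations e
    exact not_nine H.subtype hfree hq (by rw [hcH, hq]; norm_num) (i : H)
      (by rw [← hi]; exact Subgroup.orderOf_coe i) hI
  all_goals
    subst h
    rw [hq]
    norm_num

end Cfsg.Agent.S0688
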