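import Cfsg.Statements.S0691
import Mathlib
import Cfsg.Agent.LibGL2List
-- import your own Cfsg.Agent.* helpers here

set_option autoImplicit false
open Cfsg

namespace Cfsg.Agent.S0691

open CfsgLib.GL2List Matrix

def gens : List Q := [(2, 0, 0, 3), (0, 4, 1, 0), (1, 2, 1, 3)]

def W : List (List ℕ) := [[], [0], [1], [2], [0, 0], [0, 1], [0, 2], [1, 0], [1, 2], [2, 0], [2, 2], [0, 0, 0], [0, 0, 1], [0, 0, 2], [0, 1, 2], [0, 2, 2], [1, 2, 0], [1, 2, 2], [2, 0, 1], [2, 0, 2], [0, 0, 2, 2], [0, 1, 2, 2], [1, 2, 0, 2], [2, 0, 1, 2]]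

instance : Fact (Nat.Prime 5) := ⟨by norm_num⟩

theorem one_mem' : (1, 0, 0, 1) ∈ W.map (eval 5 gens) := by decide +kernel

theorem red' : ∀ x ∈ W.map (eval 5 gens), isRed 5 x = true := by decide +kernel

theorem mul' : ∀ x ∈ W.map (eval 5 gens), ∀ y ∈ gens, mul 5 x y ∈ W.map (eval 5 gens) := by decide +kernel

theorem nodup' : (W.map (eval 5 gens)).Nodup := by decide +kernel

theorem free' : ∀ x ∈ W.map (eval 5 gens), x ≠ (1, 0, 0, 1) → (x.1 * x.2.2.2 + 1) % 5 ≠ (x.2.1 * x.2.2.1 + x.1 + x.2.2.2) % 5 := by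
  decide +kernel

/-- An exceptional sharply doubly transitive group of degree 5^2: the listed matrices generate a subgroup of GL(2,5) of order 24 acting regularly on the non-zero vectors. -/
theorem result (A : Matrix.GeneralLinearGroup (Fin 2) (ZMod 5)) (B : Matrix.GeneralLinearGroup (Fin 2) (ZMod 5)) (C : Matrix.GeneralLinearGroup (Fin 2) (ZMod 5)) (hA : (A : Matrix (Fin 2) (Fin 2) (ZMod 5)) = !![2, 0; 0, -2]) (hB : (B : Matrix (Fin 2) (Fin 2) (ZMod 5)) = !![0, -1; 1, 0]) (hC : (C : Matrix (Fin 2) (Fin 2) (ZMod 5)) = !![1, 2; 1, -2]) : Nat.card (Subgroup.closure ({A, B, C} : Set (Matrix.GeneralLinearGroup (Fin 2) (ZMod 5)))) = 24 ∧ ∀ v w : Fin 2 → ZMod 5, v ≠ 0 → w ≠ 0 → ∃! h : Subgroup.closure ({A, B, C} : Set (Matrix.GeneralLinearGroup (Fin 2) (ZMod 5))), Matrix.mulVec ((h : Matrix.GeneralLinearGroup (Fin 2) (ZMod 5)) : Matrix (Fin 2) (Fin 2) (ZMod 5)) v = w := by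
  have hgA : (A : Matrix (Fin 2) (Fin 2) (ZMod 5)) = toM 5 (2, 0, 0, 3) := by rw [hA]; decide +kernel
  have hgB : (B : Matrix (Fin 2) (Fin 2) (ZMod 5)) = toM 5 (0, 4, 1, 0) := by rw [hB]; decide +kernel
  have hgC : (C : Matrix (Fin 2) (Fin 2) (ZMod 5)) = toM 5 (1, 2, 1, 3) := by rw [hC]; decide +kernel
  have hS : ∀ s ∈ ({A, B, C} : Set (Matrix.GeneralLinearGroup (Fin 2) (ZMod 5))), ∃ x ∈ gens, (s : Matrix (Fin 2) (Fin 2) (ZMod 5)) = toM 5 x := by
    rintro s (rfl | rfl | rfl)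
    · exact ⟨_, by simp [gens], hgA⟩
    · exact ⟨_, by simp [gens], hgB⟩
    · exact ⟨_, by simp [gens], hgC⟩
  have hS' : ∀ x ∈ gens, ∃ s ∈ ({A, B, C} : Set (Matrix.GeneralLinearGroup (Fin 2) (ZMod 5))), (s : Matrix (Fin 2) (Fin 2) (ZMod 5)) = toM 5 x := by
    intro x hx
    simp only [gens, List.mem_cons, List.not_mem_nil, or_false] at hx
    rcases hx with rfl | rfl | rfl
    · exact ⟨A, by simp, hgA⟩
    · exact ⟨B, by simp, hgB⟩
    · exact ⟨C, by simp, hgC⟩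
  have hcard := card_closure ({A, B, C} : Set (Matrix.GeneralLinearGroup (Fin 2) (ZMod 5))) gens W hS hS' one_mem' red' mul' nodup'
  have hW : W.length = 24 := by decide +kernel
  rw [hW] at hcard
  refine ⟨hcard, fun v w hv hw => ?_⟩
  apply regular_of_free _ _ (by rw [hcard]; norm_num) v w hv hw
  intro h hh u hu hhu
  obtain ⟨x, hx, hhx⟩ := closure_sub _ gens _ hS one_mem' red' mul' h hh
  by_cases hx1 : x = (1, 0, 0, 1)
  · apply Units.ext
    rw [hhx, hx1, toM_one]; rfl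
  · exfalso
    have h1 := fixed_det hu hhu
    rw [hhx] at h1
    simp only [toM, Matrix.of_apply, Matrix.cons_val', Matrix.cons_val_zero, Matrix.cons_val_one, Matrix.cons_val_fin_one] at h1
    apply free' x hx hx1
    have h2 : ((x.1 * x.2.2.2 + 1 : ℕ) : ZMod 5) = ((x.2.1 * x.2.2.1 + x.1 + x.2.2.2 : ℕ) : ZMod 5) := by
      push_cast; exact h1
    exact (ZMod.natCast_eq_natCast_iff' _ _ _).mp h2

end Cfsg.Agent.S0691
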