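import Cfsg.Statements.S0694
import Mathlib

-- import your own Cfsg.Agent.* helpers here

set_option autoImplicit false
open Cfsg

namespace Cfsg.Agent.S0694

/-- if every prime divisor of `n` divides `q - 1` then `n (q - 1) ∣ q ^ n - 1`. -/
theorem claimB (n : ℕ) : n ≠ 0 → ∀ q : ℤ, (∀ r : ℕ, r.Prime → r ∣ n → (r : ℤ) ∣ q - 1) →
    (n : ℤ) * (q - 1) ∣ q ^ n - 1 := by
  induction n using Nat.recOnMul with
  | zero => intro h; exact absurd rfl h
  | one => intro _ q _; simp
  | prime p hp =>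
    intro _ q hq
    have h1 : q ^ p - 1 = (∑ i ∈ Finset.range p, q ^ i) * (q - 1) := (geom_sum_mul q p).symm
    rw [h1]
    apply mul_dvd_mul_right
    have h2 : (p : ℤ) ∣ q - 1 := hq p hp dvd_rfl
    have h3 : (∑ i ∈ Finset.range p, q ^ i) ≡ ∑ i ∈ Finset.range p, 1 [ZMOD p] := by
      apply Int.ModEq.sum
      intro i _
      have : q ≡ 1 [ZMOD p] := (Int.modEq_iff_dvd.mpr h2).symm
      simpa using this.pow i
    have h4 := h3.symm.dvd
    simp only [Finset.sum_const, Finset.card_range, nsmul_eq_mul, mul_one] at h4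
    have := dvd_add h4 (dvd_refl (p : ℤ))
    rwa [sub_add_cancel] at this
  | mul a b iha ihb =>
    intro hab q hq
    have ha : a ≠ 0 := left_ne_zero_of_mul hab
    have hb : b ≠ 0 := right_ne_zero_of_mul hab
    have h1 := iha ha q (fun r hr hra => hq r hr (hra.mul_right b))
    have h2 := ihb hb (q ^ a) (fun r hr hrb => (hq r hr (hrb.mul_left a)).trans (sub_one_dvd_pow_sub_one q a))
    rw [← pow_mul] at h2
    refine dvd_trans ?_ h2
    rw [Nat.cast_mul, mul_comm (a : ℤ) b, mul_assoc]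
    exact mul_dvd_mul_left _ h1
where
  sub_one_dvd_pow_sub_one (q : ℤ) (a : ℕ) : q - 1 ∣ q ^ a - 1 := by
    simpa using sub_dvd_pow_sub_pow q 1 a

theorem lte {q i p : ℕ} (hq : 2 ≤ q) (hi : i ≠ 0) (hp : p.Prime) (hpq : p ∣ q - 1)
    (h4 : p = 2 → 4 ∣ q - 1) :
    padicValNat p (q ^ i - 1) = padicValNat p (q - 1) + padicValNat p i := by
  have hpf : Fact p.Prime := ⟨hp⟩
  have hnp : ¬ p ∣ q := by
    intro h
    have h1 : p ∣ q - (q - 1) := Nat.dvd_sub h hpq
    have h2 : q - (q - 1) = 1 := by omega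
    rw [h2] at h1
    exact hp.one_lt.ne' (Nat.dvd_one.mp h1)
  rcases hp.eq_two_or_odd' with h2 | h2
  · subst h2
    have h4' := h4 rfl
    have hq1 : q ^ i - 1 ≠ 0 := by
      have : 1 < q ^ i := Nat.one_lt_pow hi (by omega)
      omega
    have h5 := Int.two_pow_sub_pow' (x := (q : ℤ)) (y := 1) i (by
      have : ((q - 1 : ℕ) : ℤ) = (q : ℤ) - 1 := by push_cast [Nat.cast_sub (by omega : 1 ≤ q)]; ring
      rw [← this]
      exact_mod_cast h4') (by exact_mod_cast hnp)
    have e1 : ((q : ℤ) ^ i - 1 ^ i) = ((q ^ i - 1 : ℕ) : ℤ) := by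
      rw [Nat.cast_sub (Nat.one_le_pow _ _ (by omega))]
      push_cast
      ring
    have e2 : ((q : ℤ) - 1) = ((q - 1 : ℕ) : ℤ) := by
      rw [Nat.cast_sub (by omega)]
      push_cast
      ring
    rw [e1, e2] at h5
    have h6 : ((padicValNat 2 (q ^ i - 1) : ℕ) : ℕ∞) = ((padicValNat 2 (q - 1) + padicValNat 2 i : ℕ) : ℕ∞) := by
      push_cast
      rw [padicValNat_eq_emultiplicity hq1, padicValNat_eq_emultiplicity (by omega : q - 1 ≠ 0),
        padicValNat_eq_emultiplicity hi, ← Int.natCast_emultiplicity, ← Int.natCast_emultiplicity,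
        ← Int.natCast_emultiplicity]
      exact h5
    exact_mod_cast h6
  · have := padicValNat.pow_sub_pow (x := q) (y := 1) h2 (by omega) hpq hnp hi
    simpa using this

theorem claimC {q n i : ℕ} (hq : 2 ≤ q) (hn : 1 < n) (hi : i ≠ 0)
    (h1 : ∀ r : ℕ, r.Prime → r ∣ n → r ∣ q - 1) (h2 : 4 ∣ n → 4 ∣ q - 1)
    (h : n * (q - 1) ∣ q ^ i - 1) : n ∣ i := by
  have hq1 : q ^ i - 1 ≠ 0 := by
    have : 1 < q ^ i := Nat.one_lt_pow hi (by omega)
    omega
  rw [← Nat.factorization_prime_le_iff_dvd (by omega) hi]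
  intro p hp
  have hpf : Fact p.Prime := ⟨hp⟩
  rw [Nat.factorization_def _ hp, Nat.factorization_def _ hp]
  by_cases hpn : p ∣ n
  · have hpq := h1 p hp hpn
    by_cases h4 : p = 2 ∧ ¬ 4 ∣ q - 1
    · obtain ⟨rfl, h4⟩ := h4
      have h4n : ¬ 4 ∣ n := fun h => h4 (h2 h)
      have hv : padicValNat 2 n < 2 := by
        by_contra hcon
        push Not at hcon
        apply h4n
        have := (padicValNat_dvd_iff_le (p := 2) (n := 2) (a := n) (by omega)).mpr hcon
        exact this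
      have h2i : 2 ∣ i := by
        have h5 : 2 * (q - 1) ∣ q ^ i - 1 := (Nat.mul_dvd_mul_right hpn _).trans h
        have h6 : (∑ j ∈ Finset.range i, q ^ j) * (q - 1) = q ^ i - 1 := Nat.geomSum_eq hq i ▸ (by
          rw [Nat.div_mul_cancel]
          simpa using Nat.sub_dvd_pow_sub_pow q 1 i)
        rw [← h6] at h5
        have h7 : 2 ∣ ∑ j ∈ Finset.range i, q ^ j := Nat.dvd_of_mul_dvd_mul_right (by omega) h5
        have h8 : (∑ j ∈ Finset.range i, q ^ j) ≡ ∑ j ∈ Finset.range i, 1 [MOD 2] := by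
          apply Nat.ModEq.sum
          intro j _
          have : q ≡ 1 [MOD 2] := ((Nat.modEq_iff_dvd' (by omega)).mpr hpq).symm
          simpa using this.pow j
        simp only [Finset.sum_const, Finset.card_range, smul_eq_mul, mul_one] at h8
        exact (h8.dvd_iff (dvd_refl 2)).mp h7
      have : 1 ≤ padicValNat 2 i := one_le_padicValNat_of_dvd hi h2i
      omega
    · have h5 := lte hq hi hp hpq (fun he => by
        by_contra hcon
        exact h4 ⟨he, hcon⟩)
      have h6 := (padicValNat_dvd_iff_le (p := p) (a := q ^ i - 1) (n := padicValNat p (n * (q - 1))) hq1).mp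
        (pow_padicValNat_dvd.trans h)
      rw [padicValNat.mul (by omega) (by omega), h5] at h6
      omega
  · rw [padicValNat.eq_zero_of_not_dvd hpn]
    exact Nat.zero_le _

theorem natB {q n : ℕ} (hq : 2 ≤ q) (hn : n ≠ 0) (h1 : ∀ r : ℕ, r.Prime → r ∣ n → r ∣ q - 1) :
    n * (q - 1) ∣ q ^ n - 1 := by
  have h := claimB n hn (q : ℤ) (by
    intro r hr hrn
    have := h1 r hr hrn
    have e2 : ((q : ℤ) - 1) = ((q - 1 : ℕ) : ℤ) := by
      rw [Nat.cast_sub (by omega)]
      push_cast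
      ring
    rw [e2]
    exact_mod_cast this)
  have e1 : ((q : ℤ) ^ n - 1) = ((q ^ n - 1 : ℕ) : ℤ) := by
    rw [Nat.cast_sub (Nat.one_le_pow _ _ (by omega))]
    push_cast
    ring
  have e2 : ((q : ℤ) - 1) = ((q - 1 : ℕ) : ℤ) := by
    rw [Nat.cast_sub (by omega)]
    push_cast
    ring
  rw [e1, e2] at h
  exact_mod_cast h

/-- splitting of `n` with respect to the primes of `m`. -/
theorem split (m n : ℕ) (hn : n ≠ 0) : ∃ a b, n = a * b ∧ b.Coprime m ∧
    ∀ r : ℕ, r.Prime → r ∣ a → r ∣ m := by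
  induction n using Nat.recOnMul with
  | zero => exact absurd rfl hn
  | one => exact ⟨1, 1, rfl, Nat.coprime_one_left m, fun r hr h => absurd (Nat.dvd_one.mp h) hr.one_lt.ne'⟩
  | prime p hp =>
    by_cases h : p ∣ m
    · refine ⟨p, 1, by simp, Nat.coprime_one_left m, fun r hr h2 => ?_⟩
      rwa [(Nat.prime_dvd_prime_iff_eq hr hp).mp h2]
    · exact ⟨1, p, by simp, (Nat.Prime.coprime_iff_not_dvd hp).mpr h,
        fun r hr h => absurd (Nat.dvd_one.mp h) hr.one_lt.ne'⟩
  | mul x y ihx ihy =>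
    obtain ⟨a, b, hab, hb, ha⟩ := ihx (left_ne_zero_of_mul hn)
    obtain ⟨c, d, hcd, hd, hc⟩ := ihy (right_ne_zero_of_mul hn)
    refine ⟨a * c, b * d, by rw [hab, hcd]; ring, Nat.Coprime.mul_left hb hd, fun r hr h => ?_⟩
    rcases (Nat.Prime.dvd_mul hr).mp h with h | h
    · exact ha r hr h
    · exact hc r hr h

/-- The Dickson pair condition: for a prime power `q` and `n > 1`, (every prime factor of `n` divides `q - 1`, and `4 ∣ n → 4 ∣ q - 1`) holds exactly when `q ^ n ≡ 1` modulo `n * (q - 1)` but `q ^ i` is not, for `0 < i < n`. -/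
theorem result (q n : ℕ) (hq : IsPrimePow q) (hn : 1 < n) : ((∀ r : ℕ, r.Prime → r ∣ n → r ∣ q - 1) ∧ (4 ∣ n → 4 ∣ q - 1)) ↔ (q ^ n ≡ 1 [MOD n * (q - 1)] ∧ ∀ i : ℕ, 0 < i → i < n → ¬ q ^ i ≡ 1 [MOD n * (q - 1)]) := by
  have hq2 : 2 ≤ q := hq.one_lt
  have hmod : ∀ i : ℕ, q ^ i ≡ 1 [MOD n * (q - 1)] ↔ n * (q - 1) ∣ q ^ i - 1 := by
    intro i
    rw [Nat.ModEq.comm, Nat.modEq_iff_dvd' (Nat.one_le_pow _ _ (by omega))]
  simp only [hmod]
  constructor
  · rintro ⟨h1, h2⟩
    refine ⟨natB hq2 (by omega) h1, fun i hi hin h => ?_⟩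
    have := Nat.le_of_dvd hi (claimC hq2 hn (by omega) h1 h2 h)
    omega
  · rintro ⟨h1, h2⟩
    have hord : orderOf (q : ZMod (n * (q - 1))) = n := by
      rw [orderOf_eq_iff (by omega)]
      constructor
      · have := (ZMod.natCast_eq_natCast_iff (q ^ n) 1 (n * (q - 1))).mpr ((hmod n).mpr h1)
        simpa using this
      · intro i hin hi he
        apply h2 i hi hin
        rw [← hmod, ← ZMod.natCast_eq_natCast_iff]
        simpa using he
    have hdvd : ∀ i, n * (q - 1) ∣ q ^ i - 1 → n ∣ i := by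
      intro i h
      rw [← hord]
      apply orderOf_dvd_of_pow_eq_one
      have := (ZMod.natCast_eq_natCast_iff (q ^ i) 1 (n * (q - 1))).mpr ((hmod i).mpr h)
      simpa using this
    have hcop : n.Coprime q := by
      have h3 : n ∣ q ^ n - 1 := (Dvd.intro _ rfl).trans h1
      apply Nat.Coprime.symm
      apply Nat.Coprime.coprime_dvd_right h3
      rw [← Nat.coprime_pow_left_iff (n := n) (by omega)]
      have h4 : 1 ≤ q ^ n := Nat.one_le_pow _ _ (by omega)
      have := Nat.coprime_self_sub_right h4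
      rw [this]
      exact Nat.coprime_one_right _
    have hprimes : ∀ r : ℕ, r.Prime → r ∣ n → r ∣ q - 1 := by
      obtain ⟨a, b, hab, hb, ha⟩ := split (q - 1) n (by omega)
      have ha0 : a ≠ 0 := by rintro rfl; rw [zero_mul] at hab; omega
      have hb0 : b ≠ 0 := by rintro rfl; rw [mul_zero] at hab; omega
      have h3 := natB hq2 ha0 ha
      have h4 : q ^ a - 1 ∣ q ^ (a * b.totient) - 1 := by
        rw [pow_mul]
        simpa using Nat.sub_dvd_pow_sub_pow (q ^ a) 1 b.totient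
      have h5 : b ∣ q ^ (a * b.totient) - 1 := by
        have hbq : (q ^ a).Coprime b := Nat.Coprime.pow_left _ (Nat.Coprime.symm (Nat.Coprime.coprime_dvd_left (Dvd.intro_left a hab.symm) hcop))
        have := Nat.ModEq.pow_totient hbq
        rw [pow_mul]
        exact (Nat.modEq_iff_dvd' (Nat.one_le_pow _ _ (pow_pos (by omega) _))).mp this.symm
      have hcab : b.Coprime (a * (q - 1)) := by
        apply Nat.Coprime.mul_right _ hb
        rw [Nat.coprime_iff_gcd_eq_one]
        by_contra hne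
        obtain ⟨r, hr, hd⟩ := Nat.exists_prime_and_dvd hne
        have h6 : r ∣ b := hd.trans (Nat.gcd_dvd_left _ _)
        have h7 : r ∣ q - 1 := ha r hr (hd.trans (Nat.gcd_dvd_right _ _))
        exact hr.one_lt.ne' (Nat.dvd_one.mp (hb ▸ Nat.dvd_gcd h6 h7))
      have h6 : b * (a * (q - 1)) ∣ q ^ (a * b.totient) - 1 :=
        Nat.Coprime.mul_dvd_of_dvd_of_dvd hcab h5 (h3.trans h4)
      have h7 : n ∣ a * b.totient := hdvd _ (by
        rw [hab, mul_comm a b, mul_assoc]
        exact h6)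
      rw [hab] at h7
      have h8 : b ∣ b.totient := Nat.dvd_of_mul_dvd_mul_left (by omega) h7
      have h9 : b = 1 := by
        by_contra hne
        have h10 := Nat.le_of_dvd (Nat.totient_pos.mpr (by omega)) h8
        have h11 := Nat.totient_lt b (by omega)
        omega
      subst h9
      rw [mul_one] at hab
      subst hab
      exact ha
    refine ⟨hprimes, fun h4 => ?_⟩
    by_contra h4q
    obtain ⟨m, rfl⟩ := h4
    have h2q : 2 ∣ q - 1 := hprimes 2 Nat.prime_two (Dvd.intro (2 * m) (by ring))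
    have h3 := natB (q := q ^ 2) (n := m) (by nlinarith) (by omega) (fun r hr hrm =>
      (hprimes r hr (hrm.mul_left 4)).trans (by simpa using Nat.sub_dvd_pow_sub_pow q 1 2))
    have h5 : q ^ 2 - 1 = (q + 1) * (q - 1) := by
      have := Nat.sq_sub_sq q 1
      simpa using this
    have h6 : 4 ∣ q + 1 := by omega
    rw [← pow_mul, h5] at h3
    have h7 : 4 * m * (q - 1) ∣ q ^ (2 * m) - 1 := by
      refine dvd_trans ?_ h3
      obtain ⟨c, hc⟩ := h6
      rw [hc]
      exact ⟨c, by ring⟩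
    have h8 := Nat.le_of_dvd (by omega) (hdvd _ h7)
    omega

end Cfsg.Agent.S0694
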