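import Cfsg.Statements.S0695
import Mathlib
import Cfsg.Agent.LibMultPrim
-- import your own Cfsg.Agent.* helpers here

set_option autoImplicit false
open Cfsg

namespace Cfsg.Agent.S0695

open MulAction

/-- A regular normal subgroup of a doubly primitive group of finite degree at least 2 is an elementary abelian 2-group (and the degree is a power of 2), unless the degree is 3. -/
theorem result {G : Type*} [Group G] {X : Type*} [Fintype X] [MulAction G X] (hX : 2 ≤ Fintype.card X) (h2 : MulAction.IsMultiplyPreprimitive G X 2) (N : Subgroup G) [N.Normal] (htrans : MulAction.IsPretransitive N X) (hreg : ∀ x : X, MulAction.stabilizer N x = ⊥) : Fintype.card X = 3 ∨ (IsMulCommutative N ∧ (∀ n ∈ N, n ^ 2 = 1) ∧ ∃ m : ℕ, Fintype.card X = 2 ^ m) := by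
  classical
  obtain ⟨a⟩ : Nonempty X := Fintype.card_pos_iff.mp (by omega)
  rcases CfsgLib.MultPrim.pair h2 N htrans hreg a with h | h
  · left; rwa [Nat.card_eq_fintype_card] at h
  · right
    have hinv : ∀ n ∈ N, n⁻¹ = n := by
      intro n hn
      have := h n hn
      rw [pow_two] at this
      exact inv_eq_of_mul_eq_one_left this
    have hfin : Nat.card N = Fintype.card X := by
      have h1 := MulAction.index_stabilizer_of_transitive N a
      rw [hreg, Subgroup.index_bot, Nat.card_eq_fintype_card (α := X)] at h1
      exact h1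
    have hNfin : Finite N := Nat.finite_of_card_ne_zero (by omega)
    refine ⟨⟨⟨fun x y => ?_⟩⟩, h, ?_⟩
    · apply Subtype.ext
      have h1 := hinv _ (mul_mem x.2 y.2)
      rw [mul_inv_rev, hinv _ x.2, hinv _ y.2] at h1
      exact h1.symm
    · have : Fact (Nat.Prime 2) := ⟨Nat.prime_two⟩
      have hp : IsPGroup 2 N := fun x => ⟨1, by rw [pow_one]; exact Subtype.ext (h x x.2)⟩
      obtain ⟨m, hm⟩ := IsPGroup.iff_card.mp hp
      exact ⟨m, by rw [← hfin, hm]⟩

end Cfsg.Agent.S0695
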