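import Cfsg.Statements.S0696
import Mathlib
import Cfsg.Agent.LibMultPrim
-- import your own Cfsg.Agent.* helpers here

set_option autoImplicit false
open Cfsg

namespace Cfsg.Agent.S0696

open MulAction

/-- A triply primitive group of degree at least 3 having a regular normal subgroup has degree 3 or 4. -/
theorem result {G : Type*} [Group G] {X : Type*} [Fintype X] [MulAction G X] (hX : 3 ≤ Fintype.card X) (h3 : MulAction.IsMultiplyPreprimitive G X 3) (N : Subgroup G) [N.Normal] (htrans : MulAction.IsPretransitive N X) (hreg : ∀ x : X, MulAction.stabilizer N x = ⊥) : Fintype.card X = 3 ∨ Fintype.card X = 4 := by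
  classical
  obtain ⟨a⟩ : Nonempty X := Fintype.card_pos_iff.mp (by omega)
  have h2 : IsMultiplyPreprimitive G X 2 := isMultiplyPreprimitive_of_le G X h3 (by norm_num) (by
    rw [ENat.card_eq_coe_fintype_card]; exact_mod_cast hX)
  rcases CfsgLib.MultPrim.pair h2 N htrans hreg a with h | h
  · left; rwa [Nat.card_eq_fintype_card] at h
  right
  have hinv : ∀ n ∈ N, n⁻¹ = n := by
    intro n hn
    have := h n hn
    rw [pow_two] at this
    exact inv_eq_of_mul_eq_one_left this
  have hcomm : ∀ x ∈ N, ∀ y ∈ N, x * y = y * x := by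
    intro x hx y hy
    have h1 := hinv _ (mul_mem hx hy)
    rw [mul_inv_rev, hinv _ hx, hinv _ hy] at h1
    exact h1.symm
  have hinj : ∀ {m n : G}, m ∈ N → n ∈ N → m • a = n • a → m = n := fun hm hn h => CfsgLib.MultPrim.eq_of_smul_eq hreg hm hn h
  obtain ⟨b, hb⟩ : ∃ b : X, b ≠ a := by
    have : Nontrivial X := Fintype.one_lt_card_iff_nontrivial.mp (by omega)
    exact exists_ne a
  obtain ⟨c, hca, hcb⟩ : ∃ c : X, c ≠ a ∧ c ≠ b := by
    by_contra hcon
    push Not at hcon
    have h1 : (Finset.univ : Finset X) ⊆ {a, b} := by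
      intro c _
      simp only [Finset.mem_insert, Finset.mem_singleton]
      by_cases hc : c = a
      · exact Or.inl hc
      · exact Or.inr (hcon c hc)
    have h4 := Finset.card_le_card h1
    rw [Finset.card_univ] at h4
    have h5 := Finset.card_le_two (a := a) (b := b)
    omega
  obtain ⟨⟨n, hn⟩, hna⟩ := htrans.exists_smul_eq a b
  obtain ⟨⟨m, hm⟩, hma⟩ := htrans.exists_smul_eq a c
  have hna' : n • a = b := hna
  have hma' : m • a = c := hma
  have hn1 : n ≠ 1 := by rintro rfl; rw [one_smul] at hna'; exact hb hna'.symm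
  have hm1 : m ≠ 1 := by rintro rfl; rw [one_smul] at hma'; exact hca hma'.symm
  have hmn : m ≠ n := by rintro rfl; exact hcb (hma'.symm.trans hna')
  have hnmN : n * m ∈ N := mul_mem hn hm
  have hdistinct : m • a ≠ (n * m) • a := by
    intro h4
    have := hinj hm hnmN h4
    exact hn1 (by simpa using this.symm)
  have hnma : (n * m) • a ≠ a := by
    intro h4
    have h5 := hinj hnmN (one_mem N) (by rw [h4, one_smul])
    have h6 : m = n⁻¹ := (inv_eq_of_mul_eq_one_right h5).symm
    rw [hinv n hn] at h6
    exact hmn h6
  have hnmb : (n * m) • a ≠ b := by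
    intro h4
    rw [← hna'] at h4
    have := hinj hnmN hn h4
    exact hm1 (by simpa using this)
  have hprim := h3.isPreprimitive_ofFixingSubgroup (s := {a, b}) (by
    rw [Set.encard_pair hb.symm]; norm_num)
  have hconj : ∀ g : G, g • a = a → ∀ m : G, g • (m • a) = (g * m * g⁻¹) • a := by
    intro g hg m
    rw [mul_smul, mul_smul, inv_smul_eq_iff.mpr hg.symm]
  have hNn : ∀ g : G, ∀ m ∈ N, g * m * g⁻¹ ∈ N := fun g m hm => (inferInstance : N.Normal).conj_mem m hm g
  rcases CfsgLib.MultPrim.block_trivial hprim {m • a, (n * m) • a} (by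
    rintro x (rfl | rfl) (h4 | h4)
    · exact hca (hma'.symm.trans h4)
    · exact hcb (hma'.symm.trans h4)
    · exact hnma h4
    · exact hnmb h4) (by
    intro g hg x hx hgx y hy
    have hga : g • a = a := hg a (Or.inl rfl)
    have hgb : g • b = b := hg b (Or.inr rfl)
    have hgn : g * n * g⁻¹ = n := by
      apply hinj (hNn g n hn) hn
      rw [← hconj g hga, hna', hgb]
    have hgnm : g * (n * m) * g⁻¹ = n * (g * m * g⁻¹) := by
      have : g * (n * m) * g⁻¹ = (g * n * g⁻¹) * (g * m * g⁻¹) := by group
      rw [this, hgn]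
    have hnn : n * n = 1 := by rw [← pow_two]; exact h n hn
    have key : g * m * g⁻¹ = m ∨ g * m * g⁻¹ = n * m := by
      rcases hx with rfl | rfl
      · rw [hconj g hga] at hgx
        rcases hgx with h4 | h4
        · exact Or.inl (hinj (hNn g m hm) hm h4)
        · exact Or.inr (hinj (hNn g m hm) hnmN h4)
      · rw [hconj g hga, hgnm] at hgx
        rcases hgx with h4 | h4
        · right
          have h5 := hinj (mul_mem hn (hNn g m hm)) hm h4
          have h6 := congrArg (fun w => n * w) h5
          rw [← mul_assoc, hnn, one_mul] at h6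
          exact h6
        · left
          have h5 := hinj (mul_mem hn (hNn g m hm)) hnmN h4
          exact mul_left_cancel h5
    rcases hy with rfl | rfl
    · rw [hconj g hga]
      rcases key with h4 | h4 <;> rw [h4]
      · exact Or.inl rfl
      · exact Or.inr rfl
    · rw [hconj g hga, hgnm]
      rcases key with h4 | h4 <;> rw [h4]
      · exact Or.inr rfl
      · left
        show (n * (n * m)) • a = m • a
        rw [← mul_assoc, hnn, one_mul]) with h4 | h4
  · exact absurd (h4 (Or.inl rfl) (Or.inr rfl)) hdistinct
  · have huniv : (Finset.univ : Finset X) = {a, b, m • a, (n * m) • a} := by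
      ext x
      simp only [Finset.mem_univ, true_iff, Finset.mem_insert, Finset.mem_singleton]
      by_cases hxa : x = a
      · exact Or.inl hxa
      by_cases hxb : x = b
      · exact Or.inr (Or.inl hxb)
      right; right
      exact h4 x (by rintro (h5 | h5); exact hxa h5; exact hxb h5)
    rw [← Finset.card_univ, huniv, Finset.card_insert_of_notMem, Finset.card_insert_of_notMem, Finset.card_pair hdistinct]
    · simp only [Finset.mem_insert, Finset.mem_singleton, not_or]
      exact ⟨fun h5 => hcb (hma'.symm.trans h5.symm), hnmb.symm⟩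
    · simp only [Finset.mem_insert, Finset.mem_singleton, not_or]
      exact ⟨hb.symm, fun h5 => hca (hma'.symm.trans h5.symm), hnma.symm⟩

end Cfsg.Agent.S0696
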