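import Cfsg.Statements.S0697
import Mathlib
import Cfsg.Agent.LibMultPrim
import Cfsg.Agent.LibNormTrans2
-- import your own Cfsg.Agent.* helpers here

set_option autoImplicit false
open Cfsg

namespace Cfsg.Agent.S0697

open CfsgLib.NormTrans

section
variable {α : Type*} [Fintype α] [DecidableEq α]

/-- pointwise stabiliser -/
def pst (K : Subgroup (Equiv.Perm α)) (s : Finset α) : Subgroup (Equiv.Perm α) :=
  K ⊓ fixingSubgroup (Equiv.Perm α) (s : Set α)

theorem mem_pst {K : Subgroup (Equiv.Perm α)} {s : Finset α} {g : Equiv.Perm α} :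
    g ∈ pst K s ↔ g ∈ K ∧ ∀ x ∈ s, g x = x := by
  unfold pst
  rw [Subgroup.mem_inf, mem_fixingSubgroup_iff]
  rfl

/-- primitivity off `s` -/
def Prim (K : Subgroup (Equiv.Perm α)) (s : Finset α) : Prop :=
  ∀ B : Finset α, (∀ x ∈ B, x ∉ s) → (∀ g ∈ K, ∀ x ∈ B, g x ∈ B → ∀ y ∈ B, g y ∈ B) →
    (∀ x ∈ B, ∀ y ∈ B, x = y) ∨ ∀ x, x ∉ s → x ∈ B

def PT (K : Subgroup (Equiv.Perm α)) (F : Finset α) (k : ℕ) : Prop :=
  T K F k ∧ ∀ s : Finset α, F ⊆ s → s.card + 1 = F.card + k → Prim (pst K s) s

/-- a multiply transitive group of large degree of transitivity is full -/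
theorem full_of {K : Subgroup (Equiv.Perm α)} {F : Finset α} (hF : Fix K F) {m : ℕ} (h : T K F m)
    (hle : F.card + m ≤ Fintype.card α) (hn : Fintype.card α ≤ F.card + m + 1) (σ : Equiv.Perm α) (hσ : ∀ x ∈ F, σ x = x) : σ ∈ K := by
  classical
  have hc : Fᶜ.card = Fintype.card α - F.card := Finset.card_compl F
  obtain ⟨S, hSs, hSc⟩ := Finset.exists_subset_card_eq (s := Fᶜ) (n := m) (by omega)
  have hσF : ∀ z, z ∉ F → σ z ∉ F := by
    intro z hz hz2
    have h1 := hσ _ hz2
    exact hz (σ.injective h1 ▸ hz2)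
  let e : Fin m ≃ S := (S.equivFinOfCardEq hSc).symm
  obtain ⟨g, hg, hgi⟩ := h (fun i => (e i : α)) (fun i => σ (e i : α)) (fun i j hij => e.injective (Subtype.ext hij))
    (fun i j hij => e.injective (Subtype.ext (σ.injective hij))) (fun i => by
      have := hSs (e i).2
      rwa [Finset.mem_compl] at this) (fun i => hσF _ (by
      have := hSs (e i).2
      rwa [Finset.mem_compl] at this))
  have hag : ∀ z ∈ F ∪ S, g z = σ z := by
    intro z hz
    rcases Finset.mem_union.mp hz with h1 | h1
    · rw [hF g hg z h1, hσ z h1]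
    · have := hgi (e.symm ⟨z, h1⟩)
      simpa using this
  have hcard : (F ∪ S)ᶜ.card ≤ 1 := by
    rw [Finset.card_compl, Finset.card_union_of_disjoint]
    · omega
    · rw [Finset.disjoint_left]
      intro z hz hz2
      have := hSs hz2
      rw [Finset.mem_compl] at this
      exact this hz
  have : g = σ := by
    ext z
    by_cases hz : z ∈ F ∪ S
    · exact hag z hz
    · -- the only remaining point
      by_contra hne
      obtain ⟨w, hw⟩ := g.surjective (σ z)
      have hwz : w ≠ z := by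
        rintro rfl
        exact hne hw
      have hw2 : w ∉ F ∪ S := by
        intro h2
        rw [hag w h2] at hw
        exact hwz (σ.injective hw)
      have h3 : ({w, z} : Finset α) ⊆ (F ∪ S)ᶜ := by
        intro u hu
        rw [Finset.mem_insert, Finset.mem_singleton] at hu
        rw [Finset.mem_compl]
        rcases hu with rfl | rfl
        · exact hw2
        · exact hz
      have h4 := Finset.card_le_card h3
      rw [Finset.card_pair hwz] at h4
      omega
  rw [← this]
  exact hg

theorem trans_of_prim {K M : Subgroup (Equiv.Perm α)} {F : Finset α} (hF : Fix K F) (h : Prim K F)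
    (hMK : M ≤ K) (hn : ∀ k ∈ K, ∀ g ∈ M, k * g * k⁻¹ ∈ M) (hM : M ≠ ⊥) :
    ∀ x y : α, x ∉ F → y ∉ F → ∃ g ∈ M, g x = y := by
  classical
  obtain ⟨g, hg, hg1⟩ := exists_ne_one_of_ne_bot hM
  obtain ⟨x, hx⟩ : ∃ x, g x ≠ x := by
    by_contra hcon
    push Not at hcon
    exact hg1 (Equiv.ext hcon)
  have hxF : x ∉ F := fun h1 => hx (hF g (hMK hg) x h1)
  let B : Finset α := Finset.univ.filter (fun y => ∃ l ∈ M, l x = y)
  have hB : ∀ y, y ∈ B ↔ ∃ l ∈ M, l x = y := fun y => by simp [B]
  have hall : ∀ y, y ∉ F → y ∈ B := by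
    rcases h B (by
      intro y hy
      obtain ⟨l, hl, rfl⟩ := (hB y).mp hy
      exact notmem_of_fix (hF.mono hMK) hl hxF) (by
      intro k hk y hy hky z hz
      obtain ⟨l, hl, rfl⟩ := (hB y).mp hy
      obtain ⟨l', hl', hl'x⟩ := (hB _).mp hky
      obtain ⟨m, hm, rfl⟩ := (hB z).mp hz
      rw [hB]
      -- k m x = (k m l⁻¹ k⁻¹) (k l x) = (...) l' x
      refine ⟨k * (m * l⁻¹) * k⁻¹ * l', mul_mem (hn k hk _ (mul_mem hm (inv_mem hl))) hl', ?_⟩
      rw [Equiv.Perm.mul_apply, hl'x]
      simp only [Equiv.Perm.mul_apply, inv_self_apply]) with h1 | h1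
    · exfalso
      apply hx
      exact (h1 x ((hB x).mpr ⟨1, one_mem _, rfl⟩) (g x) ((hB _).mpr ⟨g, hg, rfl⟩)).symm
    · exact h1
  intro u v hu hv
  obtain ⟨l, hl, hlu⟩ := (hB u).mp (hall u hu)
  obtain ⟨m, hm, hmv⟩ := (hB v).mp (hall v hv)
  refine ⟨m * l⁻¹, mul_mem hm (inv_mem hl), ?_⟩
  rw [← hlu, Equiv.Perm.mul_apply, inv_self_apply, hmv]

/-- the pair argument: a regular normal subgroup of a doubly primitive group -/
theorem pair {K M : Subgroup (Equiv.Perm α)} {F : Finset α} (hF : Fix K F) {b : α} (hb : b ∉ F)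
    (h : Prim (st K b) (insert b F)) (hMK : M ≤ K) (hn : ∀ k ∈ K, ∀ g ∈ M, k * g * k⁻¹ ∈ M)
    (hreg : st M b = ⊥) (hcard : F.card + 4 ≤ Fintype.card α) : ∀ g ∈ M, g ^ 2 = 1 := by
  intro g hg
  by_contra hg2
  have hMF := hF.mono hMK
  have huniq : ∀ g ∈ M, g b = b → g = 1 := by
    intro g hg hgb
    have : g ∈ st M b := mem_st.mpr ⟨hg, hgb⟩
    rw [hreg] at this
    exact Subgroup.mem_bot.mp this
  have hg1 : g ≠ 1 := by rintro rfl; exact hg2 (one_pow 2)
  have hgb : g b ≠ b := fun h1 => hg1 (huniq g hg h1)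
  have hgib : g⁻¹ b ≠ b := fun h1 => hg1 (inv_eq_one.mp (huniq _ (inv_mem hg) h1))
  have hne : g b ≠ g⁻¹ b := by
    intro h1
    apply hg2
    apply huniq _ (pow_mem hg 2)
    rw [pow_two, Equiv.Perm.mul_apply, h1]
    simp
  have hcomm : ∀ k ∈ st K b, k (g b) = g b ∨ k (g b) = g⁻¹ b → (k (g b) = g b ∧ k (g⁻¹ b) = g⁻¹ b) ∨ (k (g b) = g⁻¹ b ∧ k (g⁻¹ b) = g b) := by
    intro k hk hor
    have hkb : k b = b := (mem_st.mp hk).2
    have hkib : k⁻¹ b = b := by rw [Equiv.Perm.inv_eq_iff_eq, hkb]
    have hc1 : k (g b) = (k * g * k⁻¹) b := by simp only [Equiv.Perm.mul_apply, hkib]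
    have hc2 : k (g⁻¹ b) = (k * g * k⁻¹)⁻¹ b := by
      have : (k * g * k⁻¹)⁻¹ = k * g⁻¹ * k⁻¹ := by group
      rw [this]; simp only [Equiv.Perm.mul_apply, hkib]
    have hm : k * g * k⁻¹ ∈ M := hn k (mem_st.mp hk).1 g hg
    rcases hor with h1 | h1
    · left
      have h2 : g⁻¹ * (k * g * k⁻¹) = 1 := huniq _ (mul_mem (inv_mem hg) hm) (by rw [Equiv.Perm.mul_apply, ← hc1, h1, inv_self_apply])
      have h3 : k * g * k⁻¹ = g := (inv_mul_eq_one.mp h2).symm
      rw [hc1, hc2, h3]
      exact ⟨rfl, rfl⟩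
    · right
      have h2 : g * (k * g * k⁻¹) = 1 := huniq _ (mul_mem hg hm) (by rw [Equiv.Perm.mul_apply, ← hc1, h1]; simp)
      have h3 : k * g * k⁻¹ = g⁻¹ := (inv_eq_of_mul_eq_one_right h2).symm
      rw [hc1, hc2, h3, inv_inv]
      exact ⟨rfl, rfl⟩
  rcases h {g b, g⁻¹ b} (by
    intro x hx
    rw [Finset.mem_insert, Finset.mem_singleton] at hx
    rw [Finset.mem_insert, not_or]
    rcases hx with rfl | rfl
    · exact ⟨hgb, notmem_of_fix hMF hg hb⟩
    · exact ⟨hgib, notmem_of_fix hMF (inv_mem hg) hb⟩) (by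
    intro k hk x hx hkx y hy
    rw [Finset.mem_insert, Finset.mem_singleton] at hx hkx hy ⊢
    have key : (k (g b) = g b ∧ k (g⁻¹ b) = g⁻¹ b) ∨ (k (g b) = g⁻¹ b ∧ k (g⁻¹ b) = g b) := by
      rcases hx with rfl | rfl
      · exact hcomm k hk hkx
      · rcases hkx with h1 | h1
        · -- k (g⁻¹ b) = g b
          by_cases h2 : k (g b) = g b
          · exact hcomm k hk (Or.inl h2)
          · -- use inverse: k⁻¹
            have hk' : k⁻¹ ∈ st K b := inv_mem hk
            have h3 : k⁻¹ (g b) = g⁻¹ b := by rw [Equiv.Perm.inv_eq_iff_eq, h1]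
            rcases hcomm k⁻¹ hk' (Or.inr h3) with ⟨h4, -⟩ | ⟨-, h5⟩
            · exact absurd (by rw [Equiv.Perm.inv_eq_iff_eq] at h4; exact h4.symm) h2
            · right
              rw [Equiv.Perm.inv_eq_iff_eq] at h5
              exact ⟨h5.symm, h1⟩
        · by_cases h2 : k (g b) = g⁻¹ b
          · exact absurd (k.injective (h2.trans h1.symm)) hne
          · have hkb : k b = b := (mem_st.mp hk).2
            have hkib : k⁻¹ b = b := by rw [Equiv.Perm.inv_eq_iff_eq, hkb]
            have hm : k * g * k⁻¹ ∈ M := hn k (mem_st.mp hk).1 g hg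
            have hc2 : k (g⁻¹ b) = (k * g * k⁻¹)⁻¹ b := by
              have : (k * g * k⁻¹)⁻¹ = k * g⁻¹ * k⁻¹ := by group
              rw [this]; simp only [Equiv.Perm.mul_apply, hkib]
            have h3 : g * (k * g * k⁻¹)⁻¹ = 1 := huniq _ (mul_mem hg (inv_mem hm)) (by
              rw [Equiv.Perm.mul_apply, ← hc2, h1]; simp)
            have h4 : k * g * k⁻¹ = g := (mul_inv_eq_one.mp h3).symm
            have hc1 : k (g b) = (k * g * k⁻¹) b := by simp only [Equiv.Perm.mul_apply, hkib]
            left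
            exact ⟨by rw [hc1, h4], h1⟩
    rcases hy with rfl | rfl
    · rcases key with ⟨h1, -⟩ | ⟨h1, -⟩
      · exact Or.inl h1
      · exact Or.inr h1
    · rcases key with ⟨-, h1⟩ | ⟨-, h1⟩
      · exact Or.inr h1
      · exact Or.inl h1) with h1 | h1
  · exact hne (h1 _ (by simp) _ (by simp))
  · have h2 : (Finset.univ : Finset α) ⊆ insert b F ∪ {g b, g⁻¹ b} := by
      intro x _
      rw [Finset.mem_union]
      by_cases hx : x ∈ insert b F
      · exact Or.inl hx
      · exact Or.inr (h1 x hx)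
    have h3 := (Finset.card_le_card h2).trans (Finset.card_union_le _ _)
    have h4 := Finset.card_le_two (a := g b) (b := g⁻¹ b)
    have h5 := card_insert_le' F b
    rw [Finset.card_univ] at h3
    omega

theorem main : ∀ (k : ℕ) (K M : Subgroup (Equiv.Perm α)) (F : Finset α), Fix K F → PT K F (k + 1) →
    M ≤ K → (∀ k ∈ K, ∀ g ∈ M, k * g * k⁻¹ ∈ M) → F.card + (k + 1) ≤ Fintype.card α →
    (∃ σ : Equiv.Perm α, (∀ x ∈ F, σ x = x) ∧ σ ∉ K) → (∃ a, a ∉ F ∧ st M a ≠ ⊥) → T M F (k + 1) := by
  intro k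
  induction k with
  | zero =>
    intro K M F hF hPT hMK hn hcard hfull ⟨a, haF, ha⟩
    have hM : M ≠ ⊥ := by
      rintro rfl
      apply ha
      rw [eq_bot_iff]
      exact inf_le_left
    have hprim : Prim K F := by
      have := hPT.2 F (Finset.Subset.refl F) rfl
      have h1 : pst K F = K := by
        apply le_antisymm inf_le_left
        intro g hg
        exact mem_pst.mpr ⟨hg, hF g hg⟩
      rwa [h1] at this
    exact T.one (trans_of_prim hF hprim hMK hn hM)
  | succ k ih =>
    intro K M F hF hPT hMK hn hcard hfull ⟨a, haF, ha⟩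
    have hM : M ≠ ⊥ := by
      rintro rfl
      apply ha
      rw [eq_bot_iff]
      exact inf_le_left
    have h2 : T K F 2 := hPT.1.mono (by omega) (by omega)
    have htr := normal_trans hF h2 hMK hn hM
    have hF' := hF.st a
    have hcard' : (insert a F).card = F.card + 1 := Finset.card_insert_of_notMem haF
    have hpst : ∀ s : Finset α, a ∈ s → pst (st K a) s = pst K s := by
      intro s has
      ext g
      rw [mem_pst, mem_pst, mem_st]
      constructor
      · rintro ⟨⟨h3, h4⟩, h5⟩; exact ⟨h3, h5⟩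
      · rintro ⟨h3, h5⟩; exact ⟨⟨h3, h5 a has⟩, h5⟩
    have hPT' : PT (st K a) (insert a F) (k + 1) := by
      refine ⟨hPT.1.st haF, fun s hs hsc => ?_⟩
      rw [hpst s (hs (Finset.mem_insert_self a F))]
      exact hPT.2 s ((Finset.subset_insert a F).trans hs) (by omega)
    have hfull' : ∃ σ : Equiv.Perm α, (∀ x ∈ insert a F, σ x = x) ∧ σ ∉ st K a := by
      by_contra hcon
      push Not at hcon
      obtain ⟨σ, hσ, hσK⟩ := hfull
      have hσaF : σ a ∉ F := by
        intro h3
        have h4 := hσ _ h3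
        exact haF (σ.injective h4 ▸ h3)
      obtain ⟨l, hl, hla⟩ := htr (σ a) a hσaF haF
      have h5 := hcon (l * σ) (by
        intro x hx
        rcases Finset.mem_insert.mp hx with rfl | hx
        · rw [Equiv.Perm.mul_apply, hla]
        · rw [Equiv.Perm.mul_apply, hσ x hx, hF l (hMK hl) x hx])
      have h6 := mul_mem (inv_mem (hMK hl)) (mem_st.mp h5).1
      rw [inv_mul_cancel_left] at h6
      exact hσK h6
    have hnofull : ∀ m, T K F m → F.card + m ≤ Fintype.card α → F.card + m + 1 < Fintype.card α := by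
      intro m hm hle
      by_contra hcon
      obtain ⟨σ, hσ, hσK⟩ := hfull
      exact hσK (full_of hF hm hle (by omega) σ hσ)
    by_cases hex : ∃ b, b ∉ insert a F ∧ st (st M a) b ≠ ⊥
    · exact T.of_st (hF.mono hMK) haF htr (ih (st K a) (st M a) (insert a F) hF' hPT' (st_mono hMK a) (st_norm hn a) (by omega) hfull' hex)
    · push Not at hex
      -- st M a is transitive off
      have hprim' : T (st K a) (insert a F) 2 ∨ k = 0 := by
        rcases Nat.eq_zero_or_pos k with h3 | h3
        · exact Or.inr h3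
        · exact Or.inl (hPT'.1.mono (by omega) (by omega))
      have htr' : ∀ x y : α, x ∉ insert a F → y ∉ insert a F → ∃ g ∈ st M a, g x = y := by
        rcases hprim' with h3 | h3
        · exact normal_trans hF' h3 (st_mono hMK a) (st_norm hn a) ha
        · subst h3
          apply trans_of_prim hF' _ (st_mono hMK a) (st_norm hn a) ha
          have := hPT'.2 (insert a F) (Finset.Subset.refl _) rfl
          have h1 : pst (st K a) (insert a F) = st K a := by
            apply le_antisymm inf_le_left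
            intro g hg
            exact mem_pst.mpr ⟨hg, hF' g hg⟩
          rwa [h1] at this
      have hT2 : T M F 2 := T.of_st (hF.mono hMK) haF htr (T.one htr')
      rcases Nat.eq_zero_or_pos k with h3 | h3
      · subst h3; exact hT2
      exfalso
      have hK3 : T K F 3 := hPT.1.mono (by omega) (by omega)
      have hc4 := hnofull 3 hK3 (by omega)
      obtain ⟨b, hb⟩ := exists_notMem (F := insert a F) (by omega)
      have hsq : ∀ g ∈ st M a, g ^ 2 = 1 := by
        rcases Nat.lt_or_ge k 2 with h4 | h4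
        · have hk1 : k = 1 := by omega
          subst hk1
          apply pair hF' hb _ (st_mono hMK a) (st_norm hn a) (hex b hb) (by omega)
          have h5 := hPT'.2 (insert b (insert a F)) (Finset.subset_insert _ _) (by
            rw [Finset.card_insert_of_notMem hb])
          have h6 : pst (st K a) (insert b (insert a F)) = st (st K a) b := by
            ext g
            rw [mem_pst, mem_st]
            constructor
            · rintro ⟨h7, h8⟩; exact ⟨h7, h8 b (Finset.mem_insert_self _ _)⟩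
            · rintro ⟨h7, h8⟩
              refine ⟨h7, fun x hx => ?_⟩
              rcases Finset.mem_insert.mp hx with rfl | hx
              · exact h8
              · exact hF' g h7 x hx
          rwa [h6] at h5
        · have h5 : T (st K a) (insert a F) 3 := hPT'.1.mono (by omega) (by omega)
          exact exp_two_of_reg hF' h5 (st_mono hMK a) (st_norm hn a) hb (hex b hb) (by omega)
      refine no_sharp hF hK3 hMK hn htr haF ha hsq ?_ (by omega)
      intro g hg c hc hca hgc
      have h5 : g ∈ st (st M a) c := mem_st.mpr ⟨hg, hgc⟩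
      rw [hex c (by rw [Finset.mem_insert, not_or]; exact ⟨hca, hc⟩)] at h5
      exact Subgroup.mem_bot.mp h5
end

/-- In a `k`-primitive permutation group which is not the whole symmetric group, a non-trivial non-regular normal subgroup is `k`-transitive. -/
theorem result {α : Type*} [Fintype α] [DecidableEq α] (G : Subgroup (Equiv.Perm α)) {k : ℕ} (hk : 1 ≤ k) (hkn : k ≤ Fintype.card α) (hG : MulAction.IsMultiplyPreprimitive G α k) (htop : G ≠ ⊤) (H : Subgroup G) [H.Normal] (hH : H ≠ ⊥) (hnr : ∃ a : α, MulAction.stabilizer H a ≠ ⊥) : MulAction.IsMultiplyPretransitive H α k := by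
  classical
  obtain ⟨m, rfl⟩ : ∃ m, k = m + 1 := ⟨k - 1, by omega⟩
  rw [← T_map_iff]
  obtain ⟨a, ha⟩ := hnr
  apply main m G (H.map G.subtype) ∅ (fix_empty G) _ map_le' map_norm (by simpa using hkn)
  · by_contra hcon
    push Not at hcon
    apply htop
    rw [eq_top_iff]
    intro σ _
    exact hcon σ (fun x hx => absurd hx (Finset.notMem_empty x))
  · refine ⟨a, Finset.notMem_empty a, ?_⟩
    obtain ⟨g, hg, hg1⟩ := exists_ne_one_of_ne_bot ha
    intro h
    have : ((g : G) : Equiv.Perm α) ∈ st (H.map G.subtype) a := mem_st.mpr ⟨⟨(g : G), g.2, rfl⟩, hg⟩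
    rw [h, Subgroup.mem_bot] at this
    exact hg1 (Subtype.ext (Subtype.ext this))
  · refine ⟨T_iff.mpr hG.isMultiplyPretransitive, fun s _ hs => ?_⟩
    intro B hB1 hB2
    have hs' : (s : Set α).encard + 1 = ((m + 1 : ℕ) : ℕ∞) := by
      rw [Set.encard_coe_eq_coe_finsetCard]
      have : s.card + 1 = m + 1 := by simpa using hs
      exact_mod_cast this
    have hprim := hG.isPreprimitive_ofFixingSubgroup hs'
    rcases CfsgLib.MultPrim.block_trivial hprim (B : Set α) (fun x hx => hB1 x hx) (by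
      intro g hg x hx hgx y hy
      exact hB2 (g : Equiv.Perm α) (mem_pst.mpr ⟨g.2, hg⟩) x hx hgx y hy) with h | h
    · exact Or.inl (fun x hx y hy => h hx hy)
    · exact Or.inr (fun x hx => h x hx)

end Cfsg.Agent.S0697
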