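import Cfsg.Statements.S0698
import Mathlib
import Cfsg.Agent.LibNormTrans2
-- import your own Cfsg.Agent.* helpers here

set_option autoImplicit false
open Cfsg

namespace Cfsg.Agent.S0698

open CfsgLib.NormTrans

/-- Jordan's Theorem on normal subgroups of multiply transitive groups: if `G` is `k`-transitive (`k > 1`) of degree greater than `k`, a non-trivial normal subgroup is `(k-1)`-transitive, except possibly for `k = 3` when it may be an elementary abelian 2-group. -/
theorem result {α : Type*} [Fintype α] [DecidableEq α] (G : Subgroup (Equiv.Perm α)) {k : ℕ} (hk : 1 < k) (hdeg : k < Fintype.card α) (hG : MulAction.IsMultiplyPretransitive G α k) (N : Subgroup G) [N.Normal] (hN : N ≠ ⊥) : MulAction.IsMultiplyPretransitive N α (k - 1) ∨ (k = 3 ∧ IsMulCommutative N ∧ ∀ n ∈ N, n ^ 2 = 1) := by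
  obtain ⟨m, rfl⟩ : ∃ m, k = m + 2 := ⟨k - 2, by omega⟩
  rcases jordan m G (N.map G.subtype) ∅ (fix_empty G) (T_iff.mpr hG) map_le' map_norm (map_ne_bot hN) (by simpa using hdeg) with h | ⟨h1, h2⟩
  · left
    have : m + 2 - 1 = m + 1 := by omega
    rw [this]
    exact T_map_iff.mp h
  · right
    have h3 : ∀ n ∈ N, n ^ 2 = 1 := by
      intro n hn
      have := h2 _ ⟨n, hn, rfl⟩
      exact Subtype.ext this
    refine ⟨h1, ?_, h3⟩
    constructor
    constructor
    intro a b
    have h4 := comm_of_sq h2 _ ⟨a, a.2, rfl⟩ _ ⟨b, b.2, rfl⟩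
    apply Subtype.ext
    apply Subtype.ext
    exact h4

end Cfsg.Agent.S0698
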