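import Cfsg.Statements.S0706
import Mathlib
import Cfsg.Agent.LibNormTrans2
-- import your own Cfsg.Agent.* helpers here

set_option autoImplicit false
open Cfsg

namespace Cfsg.Agent.S0706

open CfsgLib.NormTrans

section
variable {α : Type*} [Fintype α] [DecidableEq α]

/-- pointwise stabiliser in `G` as a subgroup of the symmetric group -/
def pst (G : Subgroup (Equiv.Perm α)) (s : Finset α) : Subgroup (Equiv.Perm α) :=
  G ⊓ fixingSubgroup (Equiv.Perm α) (s : Set α)

theorem mem_pst {G : Subgroup (Equiv.Perm α)} {s : Finset α} {g : Equiv.Perm α} :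
    g ∈ pst G s ↔ g ∈ G ∧ ∀ x ∈ s, g x = x := by
  unfold pst
  rw [Subgroup.mem_inf, mem_fixingSubgroup_iff]
  rfl

/-- generosity gives homogeneity -/
theorem homog {G : Subgroup (Equiv.Perm α)} {k : ℕ}
    (hgen : ∀ s : Finset α, s.card = k + 1 → ∀ σ : Equiv.Perm ↥s, ∃ g ∈ G, ∀ x : ↥s, g (x : α) = σ x) :
    ∀ (m : ℕ) (s t : Finset α), s.card = k → t.card = k → (t \ s).card = m → ∃ g ∈ G, s.image g = t := by
  intro m
  induction m with
  | zero =>
    intro s t hs ht hm
    rw [Finset.card_eq_zero, Finset.sdiff_eq_empty_iff_subset] at hm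
    have : t = s := Finset.eq_of_subset_of_card_le hm (by omega)
    exact ⟨1, one_mem _, by rw [this]; simp⟩
  | succ m ih =>
    intro s t hs ht hm
    obtain ⟨b, hb⟩ : (t \ s).Nonempty := by rw [← Finset.card_pos]; omega
    obtain ⟨a, ha⟩ : (s \ t).Nonempty := by
      rw [← Finset.card_pos]
      have h1 := Finset.card_sdiff_add_card_inter s t
      have h2 := Finset.card_sdiff_add_card_inter t s
      rw [Finset.inter_comm] at h2
      omega
    rw [Finset.mem_sdiff] at ha hb
    have hab : a ≠ b := by rintro rfl; exact hb.2 ha.1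
    -- exchange
    let S : Finset α := insert b s
    have hS : S.card = k + 1 := by rw [Finset.card_insert_of_notMem hb.2, hs]
    have haS : a ∈ S := Finset.mem_insert_of_mem ha.1
    have hbS : b ∈ S := Finset.mem_insert_self _ _
    obtain ⟨g, hg, hgs⟩ := hgen S hS (Equiv.swap ⟨a, haS⟩ ⟨b, hbS⟩)
    have himg : s.image g = insert b (s.erase a) := by
      have h1 : s = insert a (s.erase a) := (Finset.insert_erase ha.1).symm
      have h2 : g a = b := by
        have := hgs ⟨a, haS⟩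
        rw [Equiv.swap_apply_left] at this
        exact this
      have h3 : ∀ x ∈ s.erase a, g x = x := by
        intro x hx
        rw [Finset.mem_erase] at hx
        have := hgs ⟨x, Finset.mem_insert_of_mem hx.2⟩
        rw [Equiv.swap_apply_of_ne_of_ne] at this
        · exact this
        · intro h; exact hx.1 (congrArg Subtype.val h)
        · intro h
          have h4 : x = b := congrArg Subtype.val h
          rw [h4] at hx
          exact hb.2 hx.2
      conv_lhs => rw [h1, Finset.image_insert, h2]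
      congr 1
      ext y
      rw [Finset.mem_image]
      constructor
      · rintro ⟨x, hx, rfl⟩; rw [h3 x hx]; exact hx
      · intro hy; exact ⟨y, hy, h3 y hy⟩
    have hcard' : (s.image g).card = k := by rw [Finset.card_image_of_injective _ g.injective, hs]
    obtain ⟨g', hg', hg's⟩ := ih (s.image g) t hcard' ht (by
      rw [himg]
      have h1 : t \ insert b (s.erase a) = (t \ s).erase b := by
        ext x
        simp only [Finset.mem_sdiff, Finset.mem_insert, Finset.mem_erase, not_or, not_and]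
        constructor
        · rintro ⟨h1, h2, h3⟩
          refine ⟨h2, h1, fun h4 => ?_⟩
          by_cases hxa : x = a
          · rw [hxa] at h1; exact ha.2 h1
          · exact h3 hxa h4
        · rintro ⟨h1, h2, h3⟩
          exact ⟨h2, h1, fun _ => h3⟩
      rw [h1, Finset.card_erase_of_mem (by rw [Finset.mem_sdiff]; exact hb), hm]
      rfl)
    refine ⟨g' * g, mul_mem hg' hg, ?_⟩
    rw [← hg's, Finset.image_image]
    rfl

theorem card_pst {G : Subgroup (Equiv.Perm α)} {g : Equiv.Perm α} (hg : g ∈ G) (s : Finset α) :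
    Nat.card (pst G (s.image g)) = Nat.card (pst G s) := by
  have h1 : pst G (s.image g) = (pst G s).map (MulAut.conj g).toMonoidHom := by
    ext x
    rw [mem_pst, Subgroup.mem_map]
    constructor
    · rintro ⟨hx, hxs⟩
      refine ⟨g⁻¹ * x * g, mem_pst.mpr ⟨mul_mem (mul_mem (inv_mem hg) hx) hg, fun y hy => ?_⟩, ?_⟩
      · rw [Equiv.Perm.mul_apply, Equiv.Perm.mul_apply, hxs (g y) (Finset.mem_image_of_mem g hy), inv_self_apply]
      · simp [mul_assoc]
    · rintro ⟨y, hy, rfl⟩
      rw [mem_pst] at hy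
      refine ⟨mul_mem (mul_mem hg hy.1) (inv_mem hg), fun z hz => ?_⟩
      obtain ⟨w, hw, rfl⟩ := Finset.mem_image.mp hz
      show (g * y * g⁻¹) (g w) = g w
      rw [Equiv.Perm.mul_apply, Equiv.Perm.mul_apply, inv_self_apply, hy.2 w hw]
  rw [h1]
  exact Nat.card_congr ((pst G s).equivMapOfInjective _ (MulAut.conj g).injective).toEquiv.symm
end

/-- In a generously `k`-transitive permutation group, for a prime `p ≤ k` and a `k`-set `Γ`, there are no `p` points outside `Γ` lying in distinct orbits of the pointwise stabiliser of `Γ` all of length prime to `p` (at most `p - 1` such orbits). -/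
theorem result {α : Type*} [Fintype α] [DecidableEq α] (G : Subgroup (Equiv.Perm α)) {k : ℕ} (hk : k < Fintype.card α) (hgen : ∀ s : Finset α, s.card = k + 1 → ∀ σ : Equiv.Perm ↥s, ∃ g ∈ G, ∀ x : ↥s, g (x : α) = σ x) {p : ℕ} (hp : p.Prime) (hpk : p ≤ k) (Γ : Finset α) (hΓ : Γ.card = k) (f : Fin p → α) (hf : ∀ i, f i ∉ Γ) (hdist : ∀ i j, i ≠ j → f j ∉ MulAction.orbit (fixingSubgroup G (Γ : Set α)) (f i)) : ∃ i, p ∣ Nat.card (MulAction.orbit (fixingSubgroup G (Γ : Set α)) (f i)) := by
  classical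
  have hpF : Fact p.Prime := ⟨hp⟩
  by_contra hcon
  push Not at hcon
  set A : Subgroup (Equiv.Perm α) := pst G Γ with hA
  -- the cycle
  obtain ⟨Γ₁, hΓ₁, hΓ₁c⟩ := Finset.exists_subset_card_eq (hpk.trans hΓ.ge)
  obtain ⟨c, hc, hcs⟩ := Γ₁.exists_cycleOn
  have hcfix : ∀ y, y ∉ Γ₁ → ∀ i : ℤ, (c ^ i) y = y := by
    intro y hy i
    have h1 : c y = y := by
      by_contra h
      exact hy (hcs (Equiv.Perm.mem_support.mpr h))
    exact Equiv.Perm.zpow_apply_eq_self_of_apply_eq_self h1 i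
  have hcmem₁ : ∀ y ∈ Γ₁, ∀ i : ℤ, (c ^ i) y ∈ Γ₁ := by
    intro y hy i
    by_contra h
    have h1 := hcfix _ h (-i)
    rw [← Equiv.Perm.mul_apply, ← zpow_add, neg_add_cancel, zpow_zero, Equiv.Perm.one_apply] at h1
    rw [← h1] at h
    exact h hy
  have hcmem : ∀ y ∈ Γ, ∀ i : ℤ, (c ^ i) y ∈ Γ := by
    intro y hy i
    by_cases h : y ∈ Γ₁
    · exact hΓ₁ (hcmem₁ y h i)
    · rw [hcfix y h i]; exact hy
  -- the group X
  let X : Subgroup (Equiv.Perm α) :=
    { carrier := {g | g ∈ G ∧ ∃ i : ℤ, ∀ y ∈ Γ, g y = (c ^ i) y}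
      mul_mem' := by
        rintro g h ⟨hg, i, hi⟩ ⟨hh, j, hj⟩
        refine ⟨mul_mem hg hh, i + j, fun y hy => ?_⟩
        rw [Equiv.Perm.mul_apply, hj y hy, hi _ (hcmem y hy j), zpow_add, Equiv.Perm.mul_apply]
      one_mem' := ⟨one_mem _, 0, fun y _ => by simp⟩
      inv_mem' := by
        rintro g ⟨hg, i, hi⟩
        refine ⟨inv_mem hg, -i, fun y hy => ?_⟩
        rw [Equiv.Perm.inv_eq_iff_eq, hi _ (hcmem y hy (-i)), ← Equiv.Perm.mul_apply, ← zpow_add, add_neg_cancel, zpow_zero, Equiv.Perm.one_apply] }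
  have hX : ∀ g, g ∈ X ↔ g ∈ G ∧ ∃ i : ℤ, ∀ y ∈ Γ, g y = (c ^ i) y := fun g => Iff.rfl
  have hAX : A ≤ X := by
    intro g hg
    rw [hA, mem_pst] at hg
    exact (hX g).mpr ⟨hg.1, 0, fun y hy => by rw [zpow_zero]; exact hg.2 y hy⟩
  -- lifts
  have hlift : ∀ (z : α), z ∉ Γ → ∀ i : ℤ, ∃ v ∈ G, v z = z ∧ ∀ y ∈ Γ, v y = (c ^ i) y := by
    intro z hz i
    have hS : (insert z Γ).card = k + 1 := by rw [Finset.card_insert_of_notMem hz, hΓ]
    have hz₁ : z ∉ Γ₁ := fun h => hz (hΓ₁ h)
    obtain ⟨v, hv, hvs⟩ := hgen (insert z Γ) hS ((c ^ i).subtypePerm (fun y => by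
      rw [Finset.mem_insert, Finset.mem_insert]
      constructor
      · rintro (h | h)
        · left
          have h1 := hcfix z hz₁ (-i)
          rw [← h, ← Equiv.Perm.mul_apply, ← zpow_add, neg_add_cancel, zpow_zero, Equiv.Perm.one_apply] at h1
          exact h1.trans h
        · right
          have h1 := hcmem _ h (-i)
          rwa [← Equiv.Perm.mul_apply, ← zpow_add, neg_add_cancel, zpow_zero, Equiv.Perm.one_apply] at h1
      · rintro (h | h)
        · left; rw [h, hcfix z hz₁ i]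
        · right; exact hcmem y h i))
    refine ⟨v, hv, ?_, fun y hy => ?_⟩
    · have := hvs ⟨z, Finset.mem_insert_self _ _⟩
      rw [this]
      show (c ^ i) z = z
      exact hcfix z hz₁ i
    · exact hvs ⟨y, Finset.mem_insert_of_mem hy⟩
  have hp0 : 0 < p := hp.pos
  let i0 : Fin p := ⟨0, hp0⟩
  obtain ⟨x0, hx0, -, hx0c⟩ := hlift (f i0) (hf i0) 1
  have hx0X : x0 ∈ X := (hX x0).mpr ⟨hx0, 1, hx0c⟩
  have hAn : (A.subgroupOf X).Normal := by
    constructor
    intro a ha g
    rw [Subgroup.mem_subgroupOf, hA, mem_pst] at ha ⊢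
    obtain ⟨hgG, i, hi⟩ := (hX g).mp g.2
    obtain ⟨-, j, hj⟩ := (hX _).mp (inv_mem g.2)
    refine ⟨mul_mem (mul_mem hgG ha.1) (inv_mem hgG), fun y hy => ?_⟩
    show ((g : Equiv.Perm α) * a * (g : Equiv.Perm α)⁻¹) y = y
    rw [Equiv.Perm.mul_apply, Equiv.Perm.mul_apply, hj y hy, ha.2 _ (hcmem y hy j), ← hj y hy]
    simp
  have hindex : p ∣ (A.subgroupOf X).index := by
    have h1 : orderOf (QuotientGroup.mk (⟨x0, hx0X⟩ : X) : X ⧸ A.subgroupOf X) = p := by
      have hpow : ∀ n : ℕ, ((QuotientGroup.mk (⟨x0, hx0X⟩ : X) : X ⧸ A.subgroupOf X)) ^ n = 1 ↔ p ∣ n := by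
        intro n
        rw [← QuotientGroup.mk_pow, QuotientGroup.eq_one_iff, Subgroup.mem_subgroupOf]
        have h2 : ∀ y ∈ Γ, (x0 ^ n) y = (c ^ n) y := by
          have : ∀ m : ℕ, ∀ y ∈ Γ, (x0 ^ m) y = (c ^ m) y := by
            intro m
            induction m with
            | zero => intro y _; simp
            | succ m ih =>
              intro y hy
              rw [pow_succ', Equiv.Perm.mul_apply, ih y hy, pow_succ', Equiv.Perm.mul_apply, hx0c _ (by
                have := hcmem y hy m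
                rwa [zpow_natCast] at this), zpow_one]
          exact this n
        have h3 : (((⟨x0, hx0X⟩ : X) ^ n : X) : Equiv.Perm α) = x0 ^ n := rfl
        rw [h3, hA, mem_pst]
        obtain ⟨y, hy⟩ : Γ₁.Nonempty := by rw [← Finset.card_pos, hΓ₁c]; exact hp0
        rw [← hΓ₁c]
        constructor
        · rintro ⟨-, h4⟩
          have h5 := h4 y (hΓ₁ hy)
          rw [h2 y (hΓ₁ hy)] at h5
          exact (hc.pow_apply_eq hy).mp h5
        · intro h4
          refine ⟨pow_mem hx0 n, fun z hz => ?_⟩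
          rw [h2 z hz]
          by_cases hz₁ : z ∈ Γ₁
          · exact (hc.pow_apply_eq hz₁).mpr h4
          · have := hcfix z hz₁ n
            rwa [zpow_natCast] at this
      apply Nat.dvd_antisymm
      · exact orderOf_dvd_of_pow_eq_one ((hpow p).mpr dvd_rfl)
      · exact (hpow _).mp (pow_orderOf_eq_one _)
    rw [← h1]
    exact orderOf_dvd_natCard _
  let Q : Sylow p X := default
  -- the orbits are preserved
  have horb : ∀ i : Fin p, ∀ g ∈ X, ∀ z ∈ MulAction.orbit (fixingSubgroup G (Γ : Set α)) (f i), g z ∈ MulAction.orbit (fixingSubgroup G (Γ : Set α)) (f i) := by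
    rintro i g hg _ ⟨a, rfl⟩
    obtain ⟨hgG, j, hj⟩ := (hX g).mp hg
    have haG : ((a : G) : Equiv.Perm α) ∈ G := (a : G).2
    have haΓ : ∀ y ∈ Γ, ((a : G) : Equiv.Perm α) y = y := fun y hy => (mem_fixingSubgroup_iff G).mp a.2 y hy
    obtain ⟨v, hv, hvf, hvΓ⟩ := hlift (f i) (hf i) j
    -- g a = (g a v⁻¹) v
    have hmem : (⟨g * (a : G) * v⁻¹, mul_mem (mul_mem hgG haG) (inv_mem hv)⟩ : G) ∈ fixingSubgroup G (Γ : Set α) := by
      rw [mem_fixingSubgroup_iff]
      intro y hy
      show (g * (a : G) * v⁻¹) y = y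
      have h1 : v⁻¹ y = (c ^ (-j)) y := by
        rw [Equiv.Perm.inv_eq_iff_eq, hvΓ _ (hcmem y hy (-j)), ← Equiv.Perm.mul_apply, ← zpow_add, add_neg_cancel, zpow_zero, Equiv.Perm.one_apply]
      rw [Equiv.Perm.mul_apply, Equiv.Perm.mul_apply, h1, haΓ _ (hcmem y hy (-j)), hj _ (hcmem y hy (-j)), ← Equiv.Perm.mul_apply, ← zpow_add, add_neg_cancel, zpow_zero, Equiv.Perm.one_apply]
    refine ⟨⟨_, hmem⟩, ?_⟩
    show (g * (a : G) * v⁻¹) (f i) = g (((a : G) : Equiv.Perm α) (f i))
    have h2 : v⁻¹ (f i) = f i := by rw [Equiv.Perm.inv_eq_iff_eq, hvf]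
    rw [Equiv.Perm.mul_apply, Equiv.Perm.mul_apply, h2]
  have hfix : ∀ i : Fin p, ∃ z ∈ MulAction.orbit (fixingSubgroup G (Γ : Set α)) (f i), ∀ g ∈ (Q : Subgroup X), ((g : X) : Equiv.Perm α) z = z := by
    intro i
    let act : MulAction (Q : Subgroup X) (MulAction.orbit (fixingSubgroup G (Γ : Set α)) (f i)) :=
      { smul := fun g z => ⟨((g : X) : Equiv.Perm α) z, horb i _ (g : X).2 z z.2⟩
        one_smul := fun z => Subtype.ext rfl
        mul_smul := fun g h z => Subtype.ext rfl }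
    obtain ⟨z, hz⟩ := @IsPGroup.nonempty_fixed_point_of_prime_not_dvd_card p (Q : Subgroup X) _ Q.2 _ (MulAction.orbit (fixingSubgroup G (Γ : Set α)) (f i)) act (hcon i)
    refine ⟨z, z.2, fun g hg => ?_⟩
    exact congrArg Subtype.val (hz ⟨g, hg⟩)
  choose θ hθ hθfix using hfix
  have hθΓ : ∀ i, θ i ∉ Γ := by
    intro i h
    obtain ⟨a, ha⟩ := hθ i
    have haΓ : ∀ y ∈ Γ, ((a : G) : Equiv.Perm α) y = y := fun y hy => (mem_fixingSubgroup_iff G).mp a.2 y hy
    have h1 : ((a : G) : Equiv.Perm α) (f i) = θ i := ha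
    have h2 := haΓ _ h
    rw [← h2] at h1
    exact hf i (((a : G) : Equiv.Perm α).injective h1 ▸ h)
  have hθinj : Function.Injective θ := by
    intro i j hij
    by_contra hne
    apply hdist i j hne
    have h1 := hθ i
    have h2 := hθ j
    rw [← hij] at h2
    rw [← MulAction.orbit_eq_iff] at h1 h2
    rw [← h1, h2]
    exact MulAction.mem_orbit_self _
  let Γ₂ : Finset α := (Γ \ Γ₁) ∪ Finset.univ.image θ
  have hΓ₂ : Γ₂.card = k := by
    rw [Finset.card_union_of_disjoint, Finset.card_sdiff_of_subset hΓ₁, hΓ, hΓ₁c, Finset.card_image_of_injective _ hθinj, Finset.card_univ, Fintype.card_fin]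
    · omega
    · rw [Finset.disjoint_left]
      intro y hy hy2
      obtain ⟨i, -, rfl⟩ := Finset.mem_image.mp hy2
      exact hθΓ i (Finset.mem_sdiff.mp hy).1
  obtain ⟨g, hg, hgΓ⟩ := homog hgen _ Γ Γ₂ hΓ hΓ₂ rfl
  have hcardA : Nat.card (pst G Γ₂) = Nat.card A := by rw [← hgΓ, card_pst hg Γ]
  have hQle : (Q : Subgroup X).map X.subtype ≤ pst G Γ₂ := by
    rintro _ ⟨q, hq, rfl⟩
    obtain ⟨hqG, i, hi⟩ := (hX q).mp q.2
    rw [mem_pst]
    refine ⟨hqG, fun y hy => ?_⟩
    rcases Finset.mem_union.mp hy with h | h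
    · rw [Finset.mem_sdiff] at h
      show (q : Equiv.Perm α) y = y
      rw [hi y h.1, hcfix y h.2 i]
    · obtain ⟨j, -, rfl⟩ := Finset.mem_image.mp h
      exact hθfix j q hq
  have hQcard : Nat.card (Q : Subgroup X) ∣ Nat.card A := by
    rw [← hcardA, Nat.card_congr ((Q : Subgroup X).equivMapOfInjective X.subtype X.subtype_injective).toEquiv]
    exact Subgroup.card_dvd_of_le hQle
  have h1 := Subgroup.card_mul_index (A.subgroupOf X)
  rw [Nat.card_congr (Subgroup.subgroupOfEquivOfLe hAX).toEquiv] at h1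
  have h2 : p ^ ((Nat.card A).factorization p + 1) ∣ Nat.card X := by
    rw [← h1, pow_succ]
    exact mul_dvd_mul (Nat.ordProj_dvd _ _) hindex
  have h3 : p ^ ((Nat.card A).factorization p + 1) ∣ Nat.card A := (Q.pow_dvd_card_of_pow_dvd_card h2).trans hQcard
  exact Nat.pow_succ_factorization_not_dvd Nat.card_pos.ne' hp h3

end Cfsg.Agent.S0706
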