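import Cfsg.Statements.S0699
import Mathlib
import Cfsg.Agent.LibNormTrans2
import Cfsg.Agent.S0706
-- import your own Cfsg.Agent.* helpers here

set_option autoImplicit false
open Cfsg

namespace Cfsg.Agent.S0699

open CfsgLib.NormTrans

/-- Wagner's Theorem: a non-trivial normal subgroup of a triply transitive permutation group of odd degree at least 5 is triply transitive. -/
theorem result {α : Type*} [Fintype α] [DecidableEq α] (G : Subgroup (Equiv.Perm α)) (hodd : Odd (Fintype.card α)) (h5 : 5 ≤ Fintype.card α) (hG : MulAction.IsMultiplyPretransitive G α 3) (N : Subgroup G) [N.Normal] (hN : N ≠ ⊥) : MulAction.IsMultiplyPretransitive N α 3 := by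
  classical
  have h2F : Fact (Nat.Prime 2) := ⟨Nat.prime_two⟩
  set M : Subgroup (Equiv.Perm α) := N.map G.subtype with hM
  have hG3 : T G ∅ 3 := T_iff.mpr hG
  have hMG : M ≤ G := map_le'
  have hMn : ∀ k ∈ G, ∀ g ∈ M, k * g * k⁻¹ ∈ M := map_norm
  have hM1 : M ≠ ⊥ := map_ne_bot hN
  have htr : ∀ x y : α, x ∉ (∅ : Finset α) → y ∉ (∅ : Finset α) → ∃ g ∈ M, g x = y :=
    normal_trans (fix_empty G) (hG3.mono (by simp; omega) (by omega)) hMG hMn hM1
  have hM2 : T M ∅ 2 := by
    rcases jordan 1 G M ∅ (fix_empty G) hG3 hMG hMn hM1 (by simp; omega) with h | ⟨-, h⟩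
    · exact h
    · exfalso
      obtain ⟨g, hg, hg1⟩ := exists_ne_one_of_ne_bot hM1
      obtain ⟨a, ha⟩ := Equiv.Perm.exists_fixed_point_of_prime (p := 2) (n := 1) (by
        rw [← even_iff_two_dvd, Nat.not_even_iff_odd]; exact hodd) (σ := g) (by rw [pow_one]; exact h g hg)
      exact hg1 (semiregular_of_comm (fix_empty M) htr (comm_of_sq h) hg (Finset.notMem_empty a) ha)
  -- swaps
  have hswap : ∀ a b c : α, a ≠ b → a ≠ c → b ≠ c → ∃ g ∈ M, g a = a ∧ g b = c ∧ g c = b := by
    intro a b c hab hac hbc
    have h1 : T (st M a) (insert a ∅) 1 := hM2.st (Finset.notMem_empty a)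
    have heven : 2 ∣ Nat.card (st M a) := by
      let act : MulAction (st M a) {x : α // x ≠ a} :=
        { smul := fun g z => ⟨(g : Equiv.Perm α) z, fun h => z.2 ((g : Equiv.Perm α).injective (h.trans (mem_st.mp g.2).2.symm))⟩
          one_smul := fun z => Subtype.ext rfl
          mul_smul := fun g h z => Subtype.ext rfl }
      have hpt : MulAction.IsPretransitive (st M a) {x : α // x ≠ a} := by
        constructor
        intro x y
        obtain ⟨g, hg, hgx⟩ := h1 (fun _ => x) (fun _ => y) (fun _ _ _ => Subsingleton.elim _ _) (fun _ _ _ => Subsingleton.elim _ _)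
          (fun _ => by simpa using x.2) (fun _ => by simpa using y.2)
        exact ⟨⟨g, hg⟩, Subtype.ext (hgx 0)⟩
      have h2 := MulAction.index_stabilizer_of_transitive (st M a) (⟨b, hab.symm⟩ : {x : α // x ≠ a})
      have h3 : Nat.card {x : α // x ≠ a} = Fintype.card α - 1 := by
        rw [Nat.card_eq_fintype_card, Fintype.card_subtype_compl, Fintype.card_subtype_eq]
      have h4 : 2 ∣ Fintype.card α - 1 := by
        obtain ⟨m, hm⟩ := hodd
        exact ⟨m, by omega⟩
      rw [h3] at h2
      rw [← h2] at h4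
      exact h4.trans (Subgroup.index_dvd_card _)
    obtain ⟨t, ht⟩ := exists_prime_orderOf_dvd_card' (G := st M a) 2 heven
    have ht2 : ∀ z, (t : Equiv.Perm α) ((t : Equiv.Perm α) z) = z := by
      intro z
      have h2 : t ^ 2 = 1 := by rw [← ht, pow_orderOf_eq_one]
      have h3 := congrArg (fun w : st M a => (w : Equiv.Perm α) z) h2
      simpa [pow_two] using h3
    have ht1 : (t : Equiv.Perm α) ≠ 1 := by
      intro h
      have : t = 1 := Subtype.ext h
      rw [this, orderOf_one] at ht
      norm_num at ht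
    obtain ⟨x, hx⟩ : ∃ x, (t : Equiv.Perm α) x ≠ x := by
      by_contra hcon
      push Not at hcon
      exact ht1 (Equiv.ext hcon)
    have hta : (t : Equiv.Perm α) a = a := (mem_st.mp t.2).2
    have htM : (t : Equiv.Perm α) ∈ M := (mem_st.mp t.2).1
    have hxa : x ≠ a := by rintro rfl; exact hx hta
    have hya : (t : Equiv.Perm α) x ≠ a := by
      intro h
      exact hxa ((t : Equiv.Perm α).injective (h.trans hta.symm))
    obtain ⟨k, hk, hk1, hk2, hk3⟩ := hG3.three (a := a) (b := x) (c := (t : Equiv.Perm α) x) (a' := a) (b' := b) (c' := c)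
      hxa.symm hya.symm hx.symm hab hac hbc (Finset.notMem_empty _) (Finset.notMem_empty _) (Finset.notMem_empty _)
      (Finset.notMem_empty _) (Finset.notMem_empty _) (Finset.notMem_empty _)
    have e1 : k⁻¹ a = a := by rw [Equiv.Perm.inv_eq_iff_eq, hk1]
    have e2 : k⁻¹ b = x := by rw [Equiv.Perm.inv_eq_iff_eq, hk2]
    have e3 : k⁻¹ c = (t : Equiv.Perm α) x := by rw [Equiv.Perm.inv_eq_iff_eq, hk3]
    refine ⟨k * t * k⁻¹, hMn k hk _ htM, ?_, ?_, ?_⟩
    · rw [Equiv.Perm.mul_apply, Equiv.Perm.mul_apply, e1, hta, hk1]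
    · rw [Equiv.Perm.mul_apply, Equiv.Perm.mul_apply, e2, hk3]
    · rw [Equiv.Perm.mul_apply, Equiv.Perm.mul_apply, e3, ht2, hk2]
  -- generosity
  have hgen : ∀ s : Finset α, s.card = 2 + 1 → ∀ σ : Equiv.Perm ↥s, ∃ g ∈ M, ∀ x : ↥s, g (x : α) = σ x := by
    intro s hs σ
    induction σ using Equiv.Perm.swap_induction_on with
    | one => exact ⟨1, one_mem _, fun x => rfl⟩
    | swap_mul σ x y hxy ih =>
      obtain ⟨g, hg, hgs⟩ := ih
      obtain ⟨z, hz⟩ : ∃ z ∈ s, z ≠ x ∧ z ≠ y := by
        by_contra hcon
        push Not at hcon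
        have h1 : s ⊆ {(x : α), (y : α)} := by
          intro z hz
          rw [Finset.mem_insert, Finset.mem_singleton]
          by_cases h : z = x
          · exact Or.inl h
          · exact Or.inr (hcon z hz h)
        have h2 := Finset.card_le_card h1
        have h3 := Finset.card_le_two (a := (x : α)) (b := (y : α))
        omega
      have hxy' : (x : α) ≠ y := fun h => hxy (Subtype.ext h)
      obtain ⟨l, hl, hl1, hl2, hl3⟩ := hswap z x y hz.2.1 hz.2.2 hxy'
      have hls : ∀ w : ↥s, l (w : α) = (Equiv.swap x y w : ↥s) := by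
        intro w
        by_cases hwx : w = x
        · rw [hwx, Equiv.swap_apply_left, hl2]
        by_cases hwy : w = y
        · rw [hwy, Equiv.swap_apply_right, hl3]
        rw [Equiv.swap_apply_of_ne_of_ne hwx hwy]
        have hwz : (w : α) = z := by
          by_contra hne
          have h1 : ({(w : α), z, (x : α), (y : α)} : Finset α) ⊆ s := by
            intro u hu
            simp only [Finset.mem_insert, Finset.mem_singleton] at hu
            rcases hu with rfl | rfl | rfl | rfl
            · exact w.2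
            · exact hz.1
            · exact x.2
            · exact y.2
          have h2 := Finset.card_le_card h1
          rw [hs, Finset.card_insert_of_notMem, Finset.card_insert_of_notMem, Finset.card_pair hxy'] at h2
          · omega
          · simp only [Finset.mem_insert, Finset.mem_singleton, not_or]; exact hz.2
          · simp only [Finset.mem_insert, Finset.mem_singleton, not_or]
            exact ⟨hne, fun h => hwx (Subtype.ext h), fun h => hwy (Subtype.ext h)⟩
        rw [hwz, hl1]
      refine ⟨l * g, mul_mem hl hg, fun w => ?_⟩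
      rw [Equiv.Perm.mul_apply, hgs w, hls, Equiv.Perm.mul_apply]
  -- orbits outside a pair
  have horb : ∀ a b c d : α, a ≠ b → a ≠ c → b ≠ c → a ≠ d → b ≠ d → ∃ g ∈ M, g a = a ∧ g b = b ∧ g c = d := by
    intro a b c d hab hac hbc had hbd
    by_contra hcon
    push Not at hcon
    set Γ : Finset α := {a, b} with hΓ
    have hΓc : Γ.card = 2 := Finset.card_pair hab
    have hcΓ : ∀ z, z ∉ Γ ↔ a ≠ z ∧ b ≠ z := by
      intro z
      rw [hΓ, Finset.mem_insert, Finset.mem_singleton, not_or]
      exact ⟨fun h => ⟨Ne.symm h.1, Ne.symm h.2⟩, fun h => ⟨Ne.symm h.1, Ne.symm h.2⟩⟩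
    have hmemL : ∀ g : M, g ∈ fixingSubgroup M (Γ : Set α) ↔ (g : Equiv.Perm α) a = a ∧ (g : Equiv.Perm α) b = b := by
      intro g
      rw [mem_fixingSubgroup_iff]
      constructor
      · intro h
        exact ⟨h a (by simp [hΓ]), h b (by simp [hΓ])⟩
      · rintro ⟨h1, h2⟩ y hy
        have hy' : y ∈ Γ := hy
        rw [hΓ, Finset.mem_insert, Finset.mem_singleton] at hy'
        rcases hy' with rfl | rfl
        · exact h1
        · exact h2
    have hnorb : d ∉ MulAction.orbit (fixingSubgroup M (Γ : Set α)) c := by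
      rintro ⟨g, hg⟩
      have h1 := (hmemL g).mp g.2
      exact hcon _ (g : M).2 h1.1 h1.2 hg
    have hnorb' : c ∉ MulAction.orbit (fixingSubgroup M (Γ : Set α)) d := by
      intro h
      apply hnorb
      rw [← MulAction.orbit_eq_iff] at h
      rw [h]
      exact MulAction.mem_orbit_self _
    have h6 := Cfsg.Agent.S0706.result M (k := 2) (by omega) hgen (p := 2) Nat.prime_two le_rfl Γ hΓc ![c, d] (by
      intro i
      fin_cases i
      · exact (hcΓ c).mpr ⟨hac, hbc⟩
      · exact (hcΓ d).mpr ⟨had, hbd⟩) (by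
      intro i j hij
      fin_cases i <;> fin_cases j
      · exact absurd rfl hij
      · exact hnorb
      · exact hnorb'
      · exact absurd rfl hij)
    -- all orbits have odd length
    have hall : ∀ z : α, z ∉ Γ → ¬ 2 ∣ Nat.card (MulAction.orbit (fixingSubgroup M (Γ : Set α)) z) := by
      let P : Sylow 2 (fixingSubgroup M (Γ : Set α)) := default
      have hmapL : ∀ (g : fixingSubgroup M (Γ : Set α)) (z : α), z ∉ Γ → ((g : M) : Equiv.Perm α) z ∉ Γ := by
        intro g z hz
        rw [hcΓ] at hz ⊢
        have h1 := (hmemL g).mp g.2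
        constructor
        · intro h
          exact hz.1 (((g : M) : Equiv.Perm α).injective (h1.1.trans h))
        · intro h
          exact hz.2 (((g : M) : Equiv.Perm α).injective (h1.2.trans h))
      let act : MulAction (P : Subgroup (fixingSubgroup M (Γ : Set α))) {z : α // z ∉ Γ} :=
        { smul := fun g z => ⟨(((g : fixingSubgroup M (Γ : Set α)) : M) : Equiv.Perm α) z, hmapL _ _ z.2⟩
          one_smul := fun z => Subtype.ext rfl
          mul_smul := fun g h z => Subtype.ext rfl }
      have hcardc : Nat.card {z : α // z ∉ Γ} = Fintype.card α - 2 := by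
        rw [Nat.card_eq_fintype_card, Fintype.card_subtype_compl, Fintype.card_coe, hΓc]
      obtain ⟨e, he⟩ := @IsPGroup.nonempty_fixed_point_of_prime_not_dvd_card 2 (P : Subgroup (fixingSubgroup M (Γ : Set α))) _ P.2 _ {z : α // z ∉ Γ} act (by
        rw [hcardc]
        obtain ⟨m, hm⟩ := hodd
        omega)
      have he' : ∀ g ∈ (P : Subgroup (fixingSubgroup M (Γ : Set α))), ((g : M) : Equiv.Perm α) e = e := by
        intro g hg
        exact congrArg Subtype.val (he ⟨g, hg⟩)
      have hodd_e : ¬ 2 ∣ Nat.card (MulAction.orbit (fixingSubgroup M (Γ : Set α)) (e : α)) := by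
        intro h
        have h7 : Nat.card (MulAction.orbit (fixingSubgroup M (Γ : Set α)) (e : α)) = (MulAction.stabilizer (fixingSubgroup M (Γ : Set α)) (e : α)).index := by
          rw [MulAction.index_stabilizer]; rfl
        rw [h7] at h
        have h8 : (P : Subgroup (fixingSubgroup M (Γ : Set α))) ≤ MulAction.stabilizer (fixingSubgroup M (Γ : Set α)) (e : α) := fun g hg => he' g hg
        exact P.not_dvd_index (h.trans (Subgroup.index_dvd_of_le h8))
      intro z hz
      have heΓ := (hcΓ _).mp e.2
      have hz' := (hcΓ z).mp hz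
      obtain ⟨k, hk, hk1, hk2, hk3⟩ := hG3.three (a := a) (b := b) (c := (e : α)) (a' := a) (b' := b) (c' := z)
        hab heΓ.1 heΓ.2 hab hz'.1 hz'.2 (Finset.notMem_empty _) (Finset.notMem_empty _) (Finset.notMem_empty _)
        (Finset.notMem_empty _) (Finset.notMem_empty _) (Finset.notMem_empty _)
      have hk1' : k⁻¹ a = a := by rw [Equiv.Perm.inv_eq_iff_eq, hk1]
      have hk2' : k⁻¹ b = b := by rw [Equiv.Perm.inv_eq_iff_eq, hk2]
      have hk3' : k⁻¹ z = e := by rw [Equiv.Perm.inv_eq_iff_eq, hk3]
      have hcongr : Nat.card (MulAction.orbit (fixingSubgroup M (Γ : Set α)) z) = Nat.card (MulAction.orbit (fixingSubgroup M (Γ : Set α)) (e : α)) := by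
        have hset : MulAction.orbit (fixingSubgroup M (Γ : Set α)) z = k '' (MulAction.orbit (fixingSubgroup M (Γ : Set α)) (e : α)) := by
          ext w
          constructor
          · rintro ⟨g, rfl⟩
            have hgm := (hmemL g).mp g.2
            have hmem : (⟨k⁻¹ * ((g : M) : Equiv.Perm α) * k, by
                have := hMn k⁻¹ (inv_mem hk) _ (g : M).2
                rwa [inv_inv] at this⟩ : M) ∈ fixingSubgroup M (Γ : Set α) := by
              rw [hmemL]
              constructor
              · show (k⁻¹ * ((g : M) : Equiv.Perm α) * k) a = a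
                rw [Equiv.Perm.mul_apply, Equiv.Perm.mul_apply, hk1, hgm.1, hk1']
              · show (k⁻¹ * ((g : M) : Equiv.Perm α) * k) b = b
                rw [Equiv.Perm.mul_apply, Equiv.Perm.mul_apply, hk2, hgm.2, hk2']
            refine ⟨_, ⟨⟨_, hmem⟩, rfl⟩, ?_⟩
            show k ((k⁻¹ * ((g : M) : Equiv.Perm α) * k) e) = ((g : M) : Equiv.Perm α) z
            rw [Equiv.Perm.mul_apply, Equiv.Perm.mul_apply, hk3]
            simp
          · rintro ⟨_, ⟨g, rfl⟩, rfl⟩
            have hgm := (hmemL g).mp g.2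
            have hmem : (⟨k * ((g : M) : Equiv.Perm α) * k⁻¹, hMn k hk _ (g : M).2⟩ : M) ∈ fixingSubgroup M (Γ : Set α) := by
              rw [hmemL]
              constructor
              · show (k * ((g : M) : Equiv.Perm α) * k⁻¹) a = a
                rw [Equiv.Perm.mul_apply, Equiv.Perm.mul_apply, hk1', hgm.1, hk1]
              · show (k * ((g : M) : Equiv.Perm α) * k⁻¹) b = b
                rw [Equiv.Perm.mul_apply, Equiv.Perm.mul_apply, hk2', hgm.2, hk2]
            refine ⟨⟨_, hmem⟩, ?_⟩
            show (k * ((g : M) : Equiv.Perm α) * k⁻¹) z = k (((g : M) : Equiv.Perm α) e)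
            rw [Equiv.Perm.mul_apply, Equiv.Perm.mul_apply, hk3']
        rw [hset]
        exact Nat.card_image_of_injective k.injective _
      rw [hcongr]
      exact hodd_e
    obtain ⟨i, hi⟩ := h6
    fin_cases i
    · exact hall c ((hcΓ c).mpr ⟨hac, hbc⟩) hi
    · exact hall d ((hcΓ d).mpr ⟨had, hbd⟩) hi
  -- conclusion
  rw [← T_map_iff]
  obtain ⟨a⟩ : Nonempty α := Fintype.card_pos_iff.mp (by omega)
  apply T.of_st (fix_empty M) (Finset.notMem_empty a) htr
  have hst2 : T (st M a) (insert a ∅) 1 := hM2.st (Finset.notMem_empty a)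
  obtain ⟨b, hb⟩ := exists_notMem (F := insert a (∅ : Finset α)) (by simp; omega)
  apply T.of_st ((fix_empty M).st a) hb
  · intro x y hx hy
    obtain ⟨g, hg, hgx⟩ := hst2 (fun _ => x) (fun _ => y) (fun _ _ _ => Subsingleton.elim _ _) (fun _ _ _ => Subsingleton.elim _ _) (fun _ => hx) (fun _ => hy)
    exact ⟨g, hg, hgx 0⟩
  · apply T.one
    intro c d hc hd
    have hba : a ≠ b := by
      intro h; apply hb; rw [h]; exact Finset.mem_insert_self _ _
    simp only [Finset.mem_insert, Finset.notMem_empty, or_false, not_or] at hc hd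
    obtain ⟨g, hg, hg1, hg2, hg3⟩ := horb a b c d hba (Ne.symm hc.2) (Ne.symm hc.1) (Ne.symm hd.2) (Ne.symm hd.1)
    exact ⟨g, mem_st.mpr ⟨mem_st.mpr ⟨hg, hg1⟩, hg2⟩, hg3⟩

end Cfsg.Agent.S0699
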