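import Cfsg.Statements.S0700
import Mathlib
import Cfsg.Agent.LibNormTrans2
import Cfsg.Agent.S0035
-- import your own Cfsg.Agent.* helpers here

set_option autoImplicit false
open Cfsg

namespace Cfsg.Agent.S0700

open CfsgLib.NormTrans
open scoped Pointwise

section
variable {α : Type*} [Fintype α] [DecidableEq α]

/-- block off nothing -/
def Blk (M : Subgroup (Equiv.Perm α)) (B : Finset α) : Prop :=
  ∀ g ∈ M, ∀ x ∈ B, g x ∈ B → ∀ y ∈ B, g y ∈ B

theorem Blk.inter {M : Subgroup (Equiv.Perm α)} {B C : Finset α} (hB : Blk M B) (hC : Blk M C) : Blk M (B ∩ C) := by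
  intro g hg x hx hgx y hy
  rw [Finset.mem_inter] at *
  exact ⟨hB g hg x hx.1 hgx.1 y hy.1, hC g hg x hx.2 hgx.2 y hy.2⟩

theorem Blk.image {G M : Subgroup (Equiv.Perm α)} (hn : ∀ k ∈ G, ∀ g ∈ M, k * g * k⁻¹ ∈ M) {B : Finset α} (hB : Blk M B)
    {k : Equiv.Perm α} (hk : k ∈ G) : Blk M (B.image k) := by
  intro g hg x hx hgx y hy
  rw [Finset.mem_image] at *
  obtain ⟨x, hx, rfl⟩ := hx
  obtain ⟨y, hy, rfl⟩ := hy
  obtain ⟨z, hz, hzx⟩ := hgx
  have h1 : k⁻¹ * g * k ∈ M := by
    have := hn k⁻¹ (inv_mem hk) g hg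
    rwa [inv_inv] at this
  have h2 : (k⁻¹ * g * k) x = z := by
    rw [Equiv.Perm.mul_apply, Equiv.Perm.mul_apply, ← hzx, inv_self_apply]
  refine ⟨(k⁻¹ * g * k) y, hB _ h1 x hx (by rw [h2]; exact hz) y hy, ?_⟩
  simp [Equiv.Perm.mul_apply]

/-- Claim 1: primitivity. If there is a nontrivial block then elements fixing two points are trivial. -/
theorem two_fixed {G M : Subgroup (Equiv.Perm α)} (hG : T G ∅ 2) (hn : ∀ k ∈ G, ∀ g ∈ M, k * g * k⁻¹ ∈ M)
    {B₀ : Finset α} (hB₀ : Blk M B₀) (h2 : 2 ≤ B₀.card) (hlt : B₀.card < Fintype.card α) :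
    ∀ x ∈ M, ∀ a b : α, a ≠ b → x a = a → x b = b → x = 1 := by
  classical
  -- minimal block
  obtain ⟨B, hBmem, hBmin⟩ := Finset.exists_min_image (Finset.univ.filter (fun C : Finset α => Blk M C ∧ 2 ≤ C.card)) Finset.card
    ⟨B₀, by simp [hB₀, h2]⟩
  simp only [Finset.mem_filter, Finset.mem_univ, true_and] at hBmem hBmin
  have hBlt : B.card < Fintype.card α := lt_of_le_of_lt (hBmin B₀ ⟨hB₀, h2⟩) hlt
  -- lines
  have hline : ∀ k ∈ G, ∀ l ∈ G, ∀ u v : α, u ≠ v → u ∈ B.image k → v ∈ B.image k → u ∈ B.image l → v ∈ B.image l → B.image k = B.image l := by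
    intro k hk l hl u v huv h1 h2 h3 h4
    have hb1 := hBmem.1.image hn hk
    have hb2 := hBmem.1.image hn hl
    have hb := hb1.inter hb2
    have hc : 2 ≤ (B.image k ∩ B.image l).card := by
      have : ({u, v} : Finset α) ⊆ B.image k ∩ B.image l := by
        intro w hw
        rw [Finset.mem_insert, Finset.mem_singleton] at hw
        rw [Finset.mem_inter]
        rcases hw with rfl | rfl
        · exact ⟨h1, h3⟩
        · exact ⟨h2, h4⟩
      have := Finset.card_le_card this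
      rwa [Finset.card_pair huv] at this
    have hmin := hBmin _ ⟨hb, hc⟩
    have hck : (B.image k).card = B.card := Finset.card_image_of_injective _ k.injective
    have hcl : (B.image l).card = B.card := Finset.card_image_of_injective _ l.injective
    have e1 : B.image k ∩ B.image l = B.image k := Finset.eq_of_subset_of_card_le Finset.inter_subset_left (by omega)
    have e2 : B.image k ∩ B.image l = B.image l := Finset.eq_of_subset_of_card_le Finset.inter_subset_right (by omega)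
    rw [← e1, e2]
  have hexl : ∀ u v : α, u ≠ v → ∃ k ∈ G, u ∈ B.image k ∧ v ∈ B.image k := by
    intro u v huv
    obtain ⟨x, hx, y, hy, hxy⟩ := Finset.one_lt_card.mp (by omega : 1 < B.card)
    obtain ⟨k, hk, h1, h2⟩ := hG.two hxy huv (Finset.notMem_empty _) (Finset.notMem_empty _) (Finset.notMem_empty _) (Finset.notMem_empty _)
    exact ⟨k, hk, Finset.mem_image.mpr ⟨x, hx, h1⟩, Finset.mem_image.mpr ⟨y, hy, h2⟩⟩
  -- fixed lines
  have hfixl : ∀ x ∈ M, ∀ a c : α, x a = a → ∀ k ∈ G, a ∈ B.image k → c ∈ B.image k → x c ∈ B.image k := by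
    intro x hx a c hxa k hk ha hc
    exact (hBmem.1.image hn hk) x hx a ha (by rw [hxa]; exact ha) c hc
  -- off the line
  have hoff : ∀ x ∈ M, ∀ a b : α, a ≠ b → x a = a → x b = b → ∀ k ∈ G, a ∈ B.image k → b ∈ B.image k → ∀ c, c ∉ B.image k → x c = c := by
    intro x hx a b hab hxa hxb k hk ha hb c hc
    have hac : a ≠ c := by rintro rfl; exact hc ha
    have hbc : b ≠ c := by rintro rfl; exact hc hb
    obtain ⟨l, hl, hla, hlc⟩ := hexl a c hac
    obtain ⟨m, hm, hmb, hmc⟩ := hexl b c hbc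
    have h1 := hfixl x hx a c hxa l hl hla hlc
    have h2 := hfixl x hx b c hxb m hm hmb hmc
    by_contra hne
    have h3 := hline l hl m hm (x c) c hne h1 hlc h2 hmc
    -- the line contains a, b, c
    rw [← h3] at hmb
    have h4 := hline k hk l hl a b hab ha hb hla hmb
    rw [h4] at hc
    exact hc hlc
  intro x hx a b hab hxa hxb
  obtain ⟨k, hk, ha, hb⟩ := hexl a b hab
  obtain ⟨d, hd⟩ : ∃ d, d ∉ B.image k := exists_notMem (by rw [Finset.card_image_of_injective _ k.injective]; exact hBlt)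
  have hxd := hoff x hx a b hab hxa hxb k hk ha hb d hd
  have had : a ≠ d := by rintro rfl; exact hd ha
  obtain ⟨l, hl, hla, hld⟩ := hexl a d had
  ext c
  by_cases hc : c ∈ B.image k
  · by_cases hca : c = a
    · rw [hca]; exact hxa
    · by_cases hcl : c ∈ B.image l
      · exfalso
        have h4 := hline k hk l hl a c (Ne.symm hca) ha hc hla hcl
        rw [h4] at hd
        exact hd hld
      · exact hoff x hx a d had hxa hxd l hl hla hld c hcl
  · exact hoff x hx a b hab hxa hxb k hk ha hb c hc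

/-- a finite group in which all nontrivial elements have the same order is of prime exponent -/
theorem prime_exp {T : Type*} [Group T] [Finite T] [Nontrivial T] (h : ∀ x y : T, x ≠ 1 → y ≠ 1 → orderOf x = orderOf y) :
    ∃ p : ℕ, p.Prime ∧ ∀ x : T, x ^ p = 1 := by
  obtain ⟨p, hp, hdvd⟩ := Nat.exists_prime_and_dvd (n := Nat.card T) Finite.one_lt_card.ne'
  haveI : Fact p.Prime := ⟨hp⟩
  obtain ⟨x, hx⟩ := exists_prime_orderOf_dvd_card' (G := T) p hdvd
  refine ⟨p, hp, fun y => ?_⟩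
  by_cases hy : y = 1
  · rw [hy, one_pow]
  · have hx1 : x ≠ 1 := by
      rintro rfl
      rw [orderOf_one] at hx
      exact hp.one_lt.ne hx
    rw [← hx, h x y hx1 hy, pow_orderOf_eq_one]

theorem comm_of_pgroup {M T : Subgroup (Equiv.Perm α)} (hT : T ≠ ⊥)
    (hmin : ∀ L ≤ T, (∀ k ∈ M, ∀ g ∈ L, k * g * k⁻¹ ∈ L) → L = ⊥ ∨ L = T) (hn : ∀ k ∈ M, ∀ g ∈ T, k * g * k⁻¹ ∈ T)
    (hord : ∀ x ∈ T, ∀ y ∈ T, x ≠ 1 → y ≠ 1 → orderOf x = orderOf y) :
    (∀ x ∈ T, ∀ y ∈ T, x * y = y * x) ∧ ∃ p : ℕ, p.Prime ∧ ∀ x ∈ T, x ^ p = 1 := by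
  have hnt : Nontrivial T := by
    obtain ⟨g, hg, hg1⟩ := exists_ne_one_of_ne_bot hT
    exact ⟨⟨g, hg⟩, 1, fun h => hg1 (congrArg Subtype.val h)⟩
  obtain ⟨p, hp, hpe⟩ := prime_exp (T := T) (by
    intro x y hx hy
    have := hord x x.2 y y.2 (fun h => hx (Subtype.ext h)) (fun h => hy (Subtype.ext h))
    rwa [Subgroup.orderOf_coe, Subgroup.orderOf_coe] at this)
  have hpF : Fact p.Prime := ⟨hp⟩
  have hpg : IsPGroup p T := fun x => ⟨1, by rw [pow_one]; exact hpe x⟩
  have hcn := hpg.center_nontrivial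
  obtain ⟨⟨c, hc⟩, hc1⟩ := exists_ne (1 : Subgroup.center T)
  let L : Subgroup (Equiv.Perm α) :=
    { carrier := {g | g ∈ T ∧ ∀ h ∈ T, h * g = g * h}
      mul_mem' := by
        rintro x y ⟨hx, hx'⟩ ⟨hy, hy'⟩
        refine ⟨mul_mem hx hy, fun h hh => ?_⟩
        rw [← mul_assoc, hx' h hh, mul_assoc, hy' h hh, mul_assoc]
      one_mem' := ⟨one_mem _, fun h _ => by simp⟩
      inv_mem' := by
        rintro x ⟨hx, hx'⟩
        refine ⟨inv_mem hx, fun h hh => ?_⟩
        have := hx' h hh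
        rw [eq_inv_mul_iff_mul_eq, ← mul_assoc, ← this, mul_inv_cancel_right] }
  have hL : L = T := by
    rcases hmin L (fun g hg => hg.1) (by
      rintro k hk g ⟨hg, hg'⟩
      refine ⟨hn k hk g hg, fun h hh => ?_⟩
      have h1 := hn k⁻¹ (inv_mem hk) h hh
      rw [inv_inv] at h1
      have h2 := hg' _ h1
      have h3 := congrArg (fun w => k * w * k⁻¹) h2
      simp only [mul_assoc, mul_inv_cancel_left] at h3
      simpa [mul_assoc] using h3) with h | h
    · exfalso
      have : (c : Equiv.Perm α) ∈ L := ⟨c.2, fun h hh => congrArg Subtype.val (Subgroup.mem_center_iff.mp hc ⟨h, hh⟩)⟩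
      rw [h, Subgroup.mem_bot] at this
      exact hc1 (Subtype.ext (Subtype.ext this))
    · exact h
  refine ⟨fun x hx y hy => ?_, p, hp, fun x hx => congrArg Subtype.val (hpe ⟨x, hx⟩)⟩
  rw [← hL] at hy
  exact hy.2 x hx

theorem main {G M : Subgroup (Equiv.Perm α)} (hG : T G ∅ 2) (hMG : M ≤ G) (hn : ∀ k ∈ G, ∀ g ∈ M, k * g * k⁻¹ ∈ M)
    (hM1 : M ≠ ⊥) (hmin : ∀ L ≤ M, (∀ k ∈ G, ∀ g ∈ L, k * g * k⁻¹ ∈ L) → L = ⊥ ∨ L = M) :
    ((∀ a, st M a = ⊥) ∧ (∀ x ∈ M, ∀ y ∈ M, x * y = y * x) ∧ ∃ p : ℕ, p.Prime ∧ ∀ x ∈ M, x ^ p = 1) ∨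
    ((∀ B : Finset α, Blk M B → B.card ≤ 1 ∨ B = Finset.univ) ∧
      ∀ L ≤ M, L ≠ ⊥ → (∀ k ∈ M, ∀ g ∈ L, k * g * k⁻¹ ∈ L) → L = M) := by
  classical
  have htr := normal_trans (fix_empty G) hG hMG hn hM1
  have htr' : ∀ x y : α, ∃ g ∈ M, g x = y := fun x y => htr x y (Finset.notMem_empty _) (Finset.notMem_empty _)
  obtain ⟨g₀, hg₀, hg₀1⟩ := exists_ne_one_of_ne_bot hM1
  obtain ⟨a, ha⟩ : ∃ a, g₀ a ≠ a := by
    by_contra hcon
    push Not at hcon
    exact hg₀1 (Equiv.ext hcon)
  have hstconj : ∀ b c : α, st M b = ⊥ → st M c = ⊥ := by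
    intro b c hb
    obtain ⟨m, hm, hmc⟩ := htr' c b
    rw [eq_bot_iff]
    intro u hu
    have h1 : m * u * m⁻¹ ∈ st M b := by
      refine mem_st.mpr ⟨mul_mem (mul_mem hm (mem_st.mp hu).1) (inv_mem hm), ?_⟩
      rw [Equiv.Perm.mul_apply, Equiv.Perm.mul_apply, ← hmc, inv_self_apply, (mem_st.mp hu).2]
    rw [hb, Subgroup.mem_bot] at h1
    rw [Subgroup.mem_bot]
    have := congrArg (fun w => m⁻¹ * w * m) h1
    simpa [mul_assoc] using this
  have htwo : ∀ b c d : α, c ≠ b → d ≠ b → ∃ k ∈ G, k b = b ∧ k c = d := fun b c d hc hd =>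
    hG.two hc.symm hd.symm (Finset.notMem_empty _) (Finset.notMem_empty _) (Finset.notMem_empty _) (Finset.notMem_empty _)
  by_cases hreg : st M a = ⊥
  · left
    have huniq : ∀ g ∈ M, ∀ h ∈ M, g a = h a → g = h := by
      intro g hg h hh hgh
      have h1 : h⁻¹ * g ∈ st M a := mem_st.mpr ⟨mul_mem (inv_mem hh) hg, by rw [Equiv.Perm.mul_apply, hgh, inv_self_apply]⟩
      rw [hreg, Subgroup.mem_bot, inv_mul_eq_one] at h1
      exact h1.symm
    have hord : ∀ x ∈ M, ∀ y ∈ M, x ≠ 1 → y ≠ 1 → orderOf x = orderOf y := by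
      intro x hx y hy hx1 hy1
      have hxa : x a ≠ a := fun h => hx1 (huniq x hx 1 (one_mem _) h)
      have hya : y a ≠ a := fun h => hy1 (huniq y hy 1 (one_mem _) h)
      obtain ⟨k, hk, hka, hkx⟩ := htwo a _ _ hxa hya
      have hkia : k⁻¹ a = a := by rw [Equiv.Perm.inv_eq_iff_eq, hka]
      have h1 : k * x * k⁻¹ = y := huniq _ (hn k hk x hx) y hy (by
        rw [Equiv.Perm.mul_apply, Equiv.Perm.mul_apply, hkia, hkx])
      rw [← h1]
      exact (MulEquiv.orderOf_eq (MulAut.conj k) x).symm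
    have h2 := comm_of_pgroup (M := G) hM1 hmin hn hord
    exact ⟨fun b => hstconj a b hreg, h2⟩
  right
  have hfixinv : ∀ (g : Equiv.Perm α) (b : α), g b = b → g⁻¹ b = b := fun g b h => by rw [Equiv.Perm.inv_eq_iff_eq, h]
  -- primitivity
  have hprim : ∀ B : Finset α, Blk M B → B.card ≤ 1 ∨ B = Finset.univ := by
    intro B hB
    by_contra hcon
    push Not at hcon
    obtain ⟨hB1, hB2⟩ := hcon
    have hBlt : B.card < Fintype.card α := by
      rw [← Finset.card_univ]
      exact Finset.card_lt_card (Finset.ssubset_univ_iff.mpr hB2)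
    have hfr := two_fixed hG hn hB (by omega) hBlt
    let H : Subgroup M := MulAction.stabilizer M a
    have hHmem : ∀ x : M, x ∈ H ↔ (x : Equiv.Perm α) a = a := fun x => Iff.rfl
    have hconj : ∀ (g x : M), x ∈ MulAut.conj g • H ↔ (x : Equiv.Perm α) ((g : Equiv.Perm α) a) = (g : Equiv.Perm α) a := by
      intro g x
      rw [Subgroup.mem_pointwise_smul_iff_inv_smul_mem, ← map_inv, MulAut.smul_def, MulAut.conj_apply, inv_inv, hHmem]
      show ((g : Equiv.Perm α)⁻¹ * (x : Equiv.Perm α) * (g : Equiv.Perm α)) a = a ↔ _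
      rw [Equiv.Perm.mul_apply, Equiv.Perm.mul_apply, Equiv.Perm.inv_eq_iff_eq]
    have hFC : Cfsg.IsFrobeniusComplement H := by
      refine ⟨?_, ?_, ?_⟩
      · intro h
        apply hreg
        rw [eq_bot_iff]
        intro u hu
        have h1 : (⟨u, (mem_st.mp hu).1⟩ : M) ∈ H := (mem_st.mp hu).2
        rw [h, Subgroup.mem_bot] at h1
        exact Subgroup.mem_bot.mpr (congrArg Subtype.val h1)
      · intro h
        have h1 : (⟨g₀, hg₀⟩ : M) ∈ H := by rw [h]; trivial
        exact ha h1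
      · intro g hg
        rw [eq_bot_iff]
        intro x hx
        rw [Subgroup.mem_inf, hconj, hHmem] at hx
        rw [Subgroup.mem_bot]
        apply Subtype.ext
        exact hfr x x.2 a _ (fun h => hg h.symm) hx.1 hx.2
    obtain ⟨K, hKk, hKn, hKc⟩ := Cfsg.Agent.S0035.result H hFC
    have hKmem : ∀ x : M, x ∈ K ↔ (x = 1 ∨ ∀ b : α, (x : Equiv.Perm α) b ≠ b) := by
      intro x
      have h1 : x ∈ K ↔ x ∈ Cfsg.frobeniusKernel H := by rw [← hKk]; rfl
      rw [h1]
      show (x = 1 ∨ ∀ g : M, x ∉ MulAut.conj g • H) ↔ _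
      constructor
      · rintro (h | h)
        · exact Or.inl h
        · right
          intro b hb
          obtain ⟨g, hg, hgb⟩ := htr' a b
          apply h ⟨g, hg⟩
          rw [hconj]
          show (x : Equiv.Perm α) (g a) = g a
          rw [hgb]; exact hb
      · rintro (h | h)
        · exact Or.inl h
        · right
          intro g hg
          rw [hconj] at hg
          exact h _ hg
    rcases hmin (K.map M.subtype) map_le' (by
      rintro k hk _ ⟨x, hx, rfl⟩
      refine ⟨⟨k * x * k⁻¹, hn k hk x x.2⟩, ?_, rfl⟩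
      have hx' := (hKmem x).mp hx
      show _ ∈ K
      rw [hKmem]
      rcases hx' with h | h
      · left
        apply Subtype.ext
        show k * (x : Equiv.Perm α) * k⁻¹ = 1
        rw [h]; simp
      · right
        intro b hb
        have hb' : (k * (x : Equiv.Perm α) * k⁻¹) b = b := hb
        apply h (k⁻¹ b)
        have h2 := congrArg (k⁻¹ : Equiv.Perm α) hb'
        simpa [Equiv.Perm.mul_apply] using h2) with h | h
    · rw [Subgroup.map_eq_bot_iff_of_injective _ M.subtype_injective] at h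
      rw [h] at hKc
      have h3 : H = ⊤ := by
        have := hKc.card_mul_card
        rw [Subgroup.card_bot, one_mul] at this
        exact Subgroup.eq_top_of_card_eq _ this
      exact hFC.2.1 h3
    · have hKtop : K = ⊤ := by
        rw [eq_top_iff]
        intro x _
        have h3 : (x : Equiv.Perm α) ∈ K.map M.subtype := by rw [h]; exact x.2
        obtain ⟨y, hy, hyx⟩ := h3
        have : y = x := Subtype.ext hyx
        rw [← this]; exact hy
      rw [hKtop] at hKc
      have h3 : H = ⊥ := by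
        have := hKc.card_mul_card
        rw [Subgroup.card_top] at this
        have hpos : 0 < Nat.card M := Nat.card_pos
        have h4 : Nat.card H = 1 := by
          exact Nat.eq_of_mul_eq_mul_left hpos (by rw [this, mul_one])
        exact Subgroup.eq_bot_of_card_eq _ h4
      exact hFC.1 h3
  refine ⟨hprim, ?_⟩
  -- transitivity of M-invariant subgroups
  have htrT : ∀ S ≤ M, S ≠ ⊥ → (∀ k ∈ M, ∀ g ∈ S, k * g * k⁻¹ ∈ S) → ∀ x y : α, ∃ g ∈ S, g x = y := by
    intro S hSM hS hSn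
    obtain ⟨g, hg, hg1⟩ := exists_ne_one_of_ne_bot hS
    obtain ⟨x, hx⟩ : ∃ x, g x ≠ x := by
      by_contra hcon
      push Not at hcon
      exact hg1 (Equiv.ext hcon)
    let B : Finset α := Finset.univ.filter (fun y => ∃ l ∈ S, l x = y)
    have hB : ∀ y, y ∈ B ↔ ∃ l ∈ S, l x = y := fun y => by simp [B]
    have hblk : Blk M B := by
      intro k hk y hy hky z hz
      obtain ⟨l, hl, rfl⟩ := (hB y).mp hy
      obtain ⟨l', hl', hl'x⟩ := (hB _).mp hky
      obtain ⟨m, hm, rfl⟩ := (hB z).mp hz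
      rw [hB]
      refine ⟨k * (m * l⁻¹) * k⁻¹ * l', mul_mem (hSn k hk _ (mul_mem hm (inv_mem hl))) hl', ?_⟩
      rw [Equiv.Perm.mul_apply, hl'x]
      simp only [Equiv.Perm.mul_apply, inv_self_apply]
    have hall : ∀ y, y ∈ B := by
      rcases hprim B hblk with h | h
      · exfalso
        have h2 : ({g x, x} : Finset α) ⊆ B := by
          intro w hw
          rw [Finset.mem_insert, Finset.mem_singleton] at hw
          rw [hB]
          rcases hw with rfl | rfl
          · exact ⟨g, hg, rfl⟩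
          · exact ⟨1, one_mem _, rfl⟩
        have h3 := Finset.card_le_card h2
        rw [Finset.card_pair hx] at h3
        omega
      · intro y; rw [h]; exact Finset.mem_univ _
    intro u v
    obtain ⟨l, hl, hlu⟩ := (hB u).mp (hall u)
    obtain ⟨m, hm, hmv⟩ := (hB v).mp (hall v)
    refine ⟨m * l⁻¹, mul_mem hm (inv_mem hl), ?_⟩
    rw [← hlu, Equiv.Perm.mul_apply, inv_self_apply, hmv]
  intro L₀ hL₀M hL₀1 hL₀n
  by_contra hL₀ne
  -- minimal invariant subgroup
  have hfs : Fintype (Subgroup (Equiv.Perm α)) := Fintype.ofFinite _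
  obtain ⟨S, hSmem, hSmin⟩ := Finset.exists_min_image
    (Finset.univ.filter (fun L : Subgroup (Equiv.Perm α) => L ≤ M ∧ L ≠ ⊥ ∧ (∀ k ∈ M, ∀ g ∈ L, k * g * k⁻¹ ∈ L) ∧ L ≠ M)) (fun L => Nat.card L)
    ⟨L₀, by simp only [Finset.mem_filter, Finset.mem_univ, true_and]; exact ⟨hL₀M, hL₀1, hL₀n, hL₀ne⟩⟩
  simp only [Finset.mem_filter, Finset.mem_univ, true_and] at hSmem hSmin
  obtain ⟨hSM, hS1, hSn, hSne⟩ := hSmem
  have hSmin' : ∀ L ≤ S, (∀ k ∈ M, ∀ g ∈ L, k * g * k⁻¹ ∈ L) → L = ⊥ ∨ L = S := by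
    intro L hL hLn
    by_cases h : L = ⊥
    · exact Or.inl h
    · right
      by_cases h2 : L = M
      · exfalso
        apply hSne
        exact le_antisymm hSM (by rw [← h2]; exact hL)
      · exact Subgroup.eq_of_le_of_card_ge hL (hSmin L ⟨hL.trans hSM, h, hLn, h2⟩)
  -- conjugates
  let C : Equiv.Perm α → Subgroup (Equiv.Perm α) := fun k => S.map (MulAut.conj k).toMonoidHom
  have hCmem : ∀ k g, g ∈ C k ↔ k⁻¹ * g * k ∈ S := by
    intro k g
    constructor
    · rintro ⟨x, hx, rfl⟩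
      have : k⁻¹ * ((MulAut.conj k).toMonoidHom x) * k = x := by
        show k⁻¹ * (k * x * k⁻¹) * k = x
        group
      rw [this]; exact hx
    · intro h
      exact ⟨_, h, by show k * (k⁻¹ * g * k) * k⁻¹ = g; group⟩
  have hCM : ∀ k ∈ G, C k ≤ M := by
    intro k hk g hg
    rw [hCmem] at hg
    have := hn k hk _ (hSM hg)
    have h2 : k * (k⁻¹ * g * k) * k⁻¹ = g := by group
    rwa [h2] at this
  have hC1 : ∀ k, C k ≠ ⊥ := by
    intro k h
    apply hS1
    rw [Subgroup.map_eq_bot_iff_of_injective _ (MulAut.conj k).injective] at h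
    exact h
  have hCn : ∀ k ∈ G, ∀ l ∈ M, ∀ g ∈ C k, l * g * l⁻¹ ∈ C k := by
    intro k hk l hl g hg
    rw [hCmem] at hg ⊢
    have h1 : k⁻¹ * l * k ∈ M := by
      have := hn k⁻¹ (inv_mem hk) l hl
      rwa [inv_inv] at this
    have h2 := hSn _ h1 _ hg
    have h3 : k⁻¹ * l * k * (k⁻¹ * g * k) * (k⁻¹ * l * k)⁻¹ = k⁻¹ * (l * g * l⁻¹) * k := by group
    rwa [h3] at h2
  have hCcard : ∀ k, Nat.card (C k) = Nat.card S := fun k => Nat.card_congr (S.equivMapOfInjective _ (MulAut.conj k).injective).toEquiv.symm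
  have hdich : ∀ k ∈ G, C k = S ∨ (∀ x ∈ S, ∀ y ∈ C k, x * y = y * x) := by
    intro k hk
    rcases hSmin' (S ⊓ C k) inf_le_left (fun l hl g hg => ⟨hSn l hl g hg.1, hCn k hk l hl g hg.2⟩) with h | h
    · right
      intro x hx y hy
      have h1 : x * y * x⁻¹ * y⁻¹ ∈ S ⊓ C k := by
        refine Subgroup.mem_inf.mpr ⟨?_, ?_⟩
        · have h2 : x * y * x⁻¹ * y⁻¹ = x * (y * x⁻¹ * y⁻¹) := by group
          rw [h2]
          exact mul_mem hx (hSn y (hCM k hk hy) _ (inv_mem hx))
        · exact mul_mem (hCn k hk x (hSM hx) y hy) (inv_mem hy)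
      rw [h, Subgroup.mem_bot] at h1
      have h2 : x * y * (y * x)⁻¹ = 1 := by rw [← h1]; group
      exact mul_inv_eq_one.mp h2
    · left
      have h1 : S ≤ C k := by rw [← h]; exact inf_le_right
      exact (Subgroup.eq_of_le_of_card_ge h1 (hCcard k).le).symm
  obtain ⟨k₀, hk₀, hk₀ne⟩ : ∃ k ∈ G, C k ≠ S := by
    by_contra hcon
    push Not at hcon
    rcases hmin S hSM (by
      intro k hk g hg
      have h1 : k * g * k⁻¹ ∈ C k := (hCmem k _).mpr (by
        have : k⁻¹ * (k * g * k⁻¹) * k = g := by group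
        rw [this]; exact hg)
      rwa [hcon k hk] at h1) with h | h
    · exact hS1 h
    · exact hSne h
  have hcomm₀ := (hdich k₀ hk₀).resolve_left hk₀ne
  have hsemiS : ∀ t ∈ S, ∀ b, t b = b → t = 1 := by
    intro t ht b hb
    ext c
    obtain ⟨s, hs, hsc⟩ := htrT (C k₀) (hCM k₀ hk₀) (hC1 k₀) (hCn k₀ hk₀) b c
    have h1 := congrArg (fun f : Equiv.Perm α => f b) (hcomm₀ t ht s hs)
    simp only [Equiv.Perm.mul_apply, hsc, hb] at h1
    exact h1
  have hsemiC : ∀ k, ∀ s ∈ C k, ∀ b, s b = b → s = 1 := by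
    intro k s hs b hb
    rw [hCmem] at hs
    have h1 := hsemiS _ hs (k⁻¹ b) (by simp [Equiv.Perm.mul_apply, hb])
    have := congrArg (fun w => k * w * k⁻¹) h1
    simpa [mul_assoc] using this
  have htrS := htrT S hSM hS1 hSn
  -- orders
  have hordS : ∀ x ∈ S, ∀ y ∈ S, x ≠ 1 → y ≠ 1 → orderOf x = orderOf y := by
    intro x hx y hy hx1 hy1
    have hxa : x a ≠ a := fun h => hx1 (hsemiS x hx a h)
    have hya : y a ≠ a := fun h => hy1 (hsemiS y hy a h)
    obtain ⟨k, hk, hka, hkx⟩ := htwo a _ _ hxa hya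
    have hkia := hfixinv k a hka
    set s := k * x * k⁻¹ with hs
    have hsC : s ∈ C k := (hCmem k _).mpr (by
        have : k⁻¹ * (k * x * k⁻¹) * k = x := by group
        rw [hs, this]; exact hx)
    have hsa : s a = y a := by rw [hs, Equiv.Perm.mul_apply, Equiv.Perm.mul_apply, hkia, hkx]
    have hos : orderOf s = orderOf x := MulEquiv.orderOf_eq (MulAut.conj k) x
    rw [← hos]
    rcases hdich k hk with h | h
    · rw [h] at hsC
      have h1 : y⁻¹ * s = 1 := hsemiS _ (mul_mem (inv_mem hy) hsC) a (by rw [Equiv.Perm.mul_apply, hsa, inv_self_apply])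
      rw [← inv_mul_eq_one.mp h1]
    · have hpow : ∀ n : ℕ, (s ^ n) a = (y ^ n) a := by
        intro n
        induction n with
        | zero => simp
        | succ n ih =>
          have hc : y * s ^ n = s ^ n * y := (Commute.pow_right (show Commute y s from h y hy s hsC) n)
          rw [pow_succ, Equiv.Perm.mul_apply, hsa, pow_succ', Equiv.Perm.mul_apply, ← ih, ← Equiv.Perm.mul_apply, ← Equiv.Perm.mul_apply, hc]
      rw [orderOf_eq_orderOf_iff]
      intro n
      constructor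
      · intro h1
        apply hsemiS _ (pow_mem hy n) a
        rw [← hpow, h1]; rfl
      · intro h1
        apply hsemiC k _ (pow_mem hsC n) a
        rw [hpow, h1]; rfl
  obtain ⟨hScomm, -⟩ := comm_of_pgroup (M := M) hS1 hSmin' hSn hordS
  -- S commutes with all its conjugates
  have hSC : ∀ k ∈ G, ∀ x ∈ S, ∀ y ∈ C k, x * y = y * x := by
    intro k hk
    rcases hdich k hk with h | h
    · rw [h]; exact hScomm
    · exact h
  let D : Subgroup (Equiv.Perm α) :=
    { carrier := {g | g ∈ M ∧ ∀ k ∈ G, ∀ y ∈ C k, g * y = y * g}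
      mul_mem' := by
        rintro x y ⟨hx, hx'⟩ ⟨hy, hy'⟩
        refine ⟨mul_mem hx hy, fun k hk z hz => ?_⟩
        rw [mul_assoc, hy' k hk z hz, ← mul_assoc, hx' k hk z hz, mul_assoc]
      one_mem' := ⟨one_mem _, fun k _ z _ => by simp⟩
      inv_mem' := by
        rintro x ⟨hx, hx'⟩
        refine ⟨inv_mem hx, fun k hk z hz => ?_⟩
        have := hx' k hk z hz
        rw [inv_mul_eq_iff_eq_mul, ← mul_assoc, this, mul_inv_cancel_right] }
  have hDM : D = M := by
    rcases hmin D (fun g hg => hg.1) (by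
      rintro l hl g ⟨hg, hg'⟩
      refine ⟨hn l hl g hg, fun k hk y hy => ?_⟩
      have h1 : l⁻¹ * y * l ∈ C (l⁻¹ * k) := by
        rw [hCmem] at hy ⊢
        have : (l⁻¹ * k)⁻¹ * (l⁻¹ * y * l) * (l⁻¹ * k) = k⁻¹ * y * k := by group
        rwa [this]
      have h2 := hg' _ (mul_mem (inv_mem hl) hk) _ h1
      have h3 := congrArg (fun w => l * w * l⁻¹) h2
      simp only [mul_assoc, mul_inv_cancel_left] at h3
      simpa [mul_assoc] using h3) with h | h
    · exfalso
      obtain ⟨t, ht, ht1⟩ := exists_ne_one_of_ne_bot hS1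
      have : t ∈ D := ⟨hSM ht, fun k hk y hy => hSC k hk t ht y hy⟩
      rw [h, Subgroup.mem_bot] at this
      exact ht1 this
    · exact h
  have hMS : ∀ x ∈ M, ∀ y ∈ S, x * y = y * x := by
    intro x hx y hy
    rw [← hDM] at hx
    exact hx.2 1 (one_mem _) y ((hCmem 1 y).mpr (by simpa using hy))
  -- every element of M fixing a point is trivial
  apply hreg
  rw [eq_bot_iff]
  intro u hu
  rw [Subgroup.mem_bot]
  ext c
  obtain ⟨s, hs, hsc⟩ := htrS a c
  have h1 := congrArg (fun f : Equiv.Perm α => f a) (hMS u (mem_st.mp hu).1 s hs)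
  simp only [Equiv.Perm.mul_apply, hsc, (mem_st.mp hu).2] at h1
  exact h1

end

/-- Burnside's Theorem on doubly transitive groups: a minimal normal subgroup of a finite doubly transitive permutation group is elementary abelian and regular, or simple and primitive. -/
theorem result {α : Type*} [Fintype α] [DecidableEq α] (G : Subgroup (Equiv.Perm α)) (hG : MulAction.IsMultiplyPretransitive G α 2) (N : Subgroup G) [N.Normal] (hN : N ≠ ⊥) (hmin : ∀ M : Subgroup G, M.Normal → M ≤ N → M = ⊥ ∨ M = N) : (IsMulCommutative N ∧ (∃ p : ℕ, p.Prime ∧ ∀ n ∈ N, n ^ p = 1) ∧ ∀ a : α, MulAction.stabilizer N a = ⊥) ∨ (IsSimpleGroup N ∧ MulAction.IsPreprimitive N α) := by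
  classical
  have h2 : T G ∅ 2 := T_iff.mpr hG
  have hmin' : ∀ L ≤ N.map G.subtype, (∀ k ∈ G, ∀ g ∈ L, k * g * k⁻¹ ∈ L) → L = ⊥ ∨ L = N.map G.subtype := by
    intro L hL hLn
    have hLG : L ≤ G := hL.trans map_le'
    have hn : (L.subgroupOf G).Normal := by
      constructor
      intro x hx g
      rw [Subgroup.mem_subgroupOf] at hx ⊢
      exact hLn g g.2 x hx
    have hle : L.subgroupOf G ≤ N := by
      intro x hx
      rw [Subgroup.mem_subgroupOf] at hx
      obtain ⟨y, hy, hyx⟩ := hL hx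
      have : y = x := Subtype.ext hyx
      rw [← this]; exact hy
    rcases hmin _ hn hle with h | h
    · left
      rw [Subgroup.subgroupOf_eq_bot] at h
      rw [eq_bot_iff]
      intro x hx
      exact h.le_bot ⟨hx, hLG hx⟩
    · right
      rw [← h, Subgroup.subgroupOf_map_subtype, inf_eq_left.mpr hLG]
  rcases main h2 map_le' map_norm (map_ne_bot hN) hmin' with ⟨hst, hcomm, p, hp, hpe⟩ | ⟨hprim, hsimple⟩
  · left
    refine ⟨⟨⟨fun x y => ?_⟩⟩, ⟨p, hp, fun n hn => ?_⟩, fun a => ?_⟩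
    · apply Subtype.ext
      apply Subtype.ext
      exact hcomm _ ⟨x, x.2, rfl⟩ _ ⟨y, y.2, rfl⟩
    · exact Subtype.ext (hpe _ ⟨n, hn, rfl⟩)
    · rw [eq_bot_iff]
      intro x hx
      have h1 : ((x : G) : Equiv.Perm α) ∈ st (N.map G.subtype) a := mem_st.mpr ⟨⟨x, x.2, rfl⟩, hx⟩
      rw [hst, Subgroup.mem_bot] at h1
      rw [Subgroup.mem_bot]
      exact Subtype.ext (Subtype.ext h1)
  · right
    have htr := normal_trans (fix_empty G) h2 map_le' map_norm (map_ne_bot hN)
    have hpt : MulAction.IsPretransitive N α := by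
      constructor
      intro x y
      obtain ⟨_, ⟨g, hg, rfl⟩, hgx⟩ := htr x y (Finset.notMem_empty _) (Finset.notMem_empty _)
      exact ⟨⟨g, hg⟩, hgx⟩
    refine ⟨?_, ?_⟩
    · have hnt : Nontrivial N := by
        obtain ⟨g, hg, hg1⟩ := exists_ne_one_of_ne_bot hN
        exact ⟨⟨g, hg⟩, 1, fun h => hg1 (congrArg Subtype.val h)⟩
      refine ⟨fun L hL => ?_⟩
      by_cases hL1 : L = ⊥
      · exact Or.inl hL1
      right
      have h3 := hsimple ((L.map N.subtype).map G.subtype) (Subgroup.map_mono (by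
        rintro _ ⟨x, _, rfl⟩
        exact x.2)) (by
        intro h
        rw [Subgroup.map_eq_bot_iff_of_injective _ G.subtype_injective, Subgroup.map_eq_bot_iff_of_injective _ N.subtype_injective] at h
        exact hL1 h) (by
        rintro _ ⟨k, hk, rfl⟩ _ ⟨_, ⟨x, hx, rfl⟩, rfl⟩
        exact ⟨_, ⟨⟨k, hk⟩ * x * ⟨k, hk⟩⁻¹, hL.conj_mem x hx ⟨k, hk⟩, rfl⟩, rfl⟩)
      rw [eq_top_iff]
      intro x _
      have h4 : ((x : G) : Equiv.Perm α) ∈ N.map G.subtype := ⟨x, x.2, rfl⟩
      rw [← h3] at h4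
      obtain ⟨_, ⟨y, hy, rfl⟩, hyx⟩ := h4
      have : y = x := Subtype.ext (Subtype.ext hyx)
      rw [← this]; exact hy
    · refine ⟨?_⟩
      intro B hB
      have hblk : Blk (N.map G.subtype) B.toFinset := by
        rintro _ ⟨g, hg, rfl⟩ x hx hgx y hy
        rw [Set.mem_toFinset] at *
        have h5 := (MulAction.isBlock_iff_smul_eq_of_mem.mp hB) (g := ⟨g, hg⟩) hx hgx
        rw [← h5]
        exact Set.smul_mem_smul_set hy
      rcases hprim _ hblk with h | h
      · left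
        intro x hx y hy
        exact Finset.card_le_one.mp h x (Set.mem_toFinset.mpr hx) y (Set.mem_toFinset.mpr hy)
      · right
        rw [Set.eq_univ_iff_forall]
        intro x
        rw [← Set.mem_toFinset, h]
        exact Finset.mem_univ _

end Cfsg.Agent.S0700
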