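import Cfsg.Statements.S0701
import Mathlib

-- import your own Cfsg.Agent.* helpers here

set_option autoImplicit false
open Cfsg

namespace Cfsg.Agent.S0701



/-- The centraliser in the full symmetric group of a transitive permutation group `G` is semiregular, and it is transitive if and only if `G` is regular. -/
theorem result {α : Type*} (G : Subgroup (Equiv.Perm α)) [MulAction.IsPretransitive G α] : (∀ c ∈ Subgroup.centralizer (G : Set (Equiv.Perm α)), ∀ a : α, c a = a → c = 1) ∧ (MulAction.IsPretransitive (Subgroup.centralizer (G : Set (Equiv.Perm α))) α ↔ ∀ a : α, MulAction.stabilizer G a = ⊥) := by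
  constructor
  · intro c hc a hca
    ext b
    obtain ⟨g, hg⟩ := MulAction.exists_smul_eq G a b
    have h1 := Subgroup.mem_centralizer_iff.mp hc (g : Equiv.Perm α) g.2
    have h2 : (g : Equiv.Perm α) (c a) = c ((g : Equiv.Perm α) a) := by
      have := congrArg (fun e : Equiv.Perm α => e a) h1
      simpa using this
    have hg' : (g : Equiv.Perm α) a = b := hg
    rw [hca, hg'] at h2
    simpa using h2.symm
  · constructor
    · intro hT a
      rw [eq_bot_iff]
      intro g hg
      rw [MulAction.mem_stabilizer_iff] at hg
      have hg' : (g : Equiv.Perm α) a = a := hg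
      rw [Subgroup.mem_bot]
      ext b
      obtain ⟨c, hc⟩ := hT.exists_smul_eq a b
      have hc' : (c : Equiv.Perm α) a = b := hc
      have h1 := Subgroup.mem_centralizer_iff.mp c.2 (g : Equiv.Perm α) g.2
      have h2 : (g : Equiv.Perm α) ((c : Equiv.Perm α) a) = (c : Equiv.Perm α) ((g : Equiv.Perm α) a) := by
        have := congrArg (fun e : Equiv.Perm α => e a) h1
        simpa using this
      rw [hc', hg', hc'] at h2
      simpa using h2
    · intro h
      constructor
      intro a b
      -- the unique element of G taking a to x
      have hex : ∀ x : α, ∃ g : G, (g : Equiv.Perm α) a = x := fun x =>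
        (MulAction.exists_smul_eq G a x)
      choose t ht using hex
      have huniq : ∀ (g k : G) (x : α), (g : Equiv.Perm α) x = (k : Equiv.Perm α) x → g = k := by
        intro g k x hgk
        have : k⁻¹ * g ∈ MulAction.stabilizer G x := by
          rw [MulAction.mem_stabilizer_iff, mul_smul]
          have : g • x = k • x := hgk
          rw [this, inv_smul_smul]
        rw [h x, Subgroup.mem_bot] at this
        exact (inv_mul_eq_one.mp this).symm
      -- define c x = t x b
      have hinj : Function.Injective (fun x => ((t x : G) : Equiv.Perm α) b) := by
        intro x y hxy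
        have := huniq (t x) (t y) b hxy
        rw [← ht x, ← ht y, this]
      have hsurj : Function.Surjective (fun x => ((t x : G) : Equiv.Perm α) b) := by
        intro y
        obtain ⟨g, hg⟩ := MulAction.exists_smul_eq G b y
        refine ⟨(g : Equiv.Perm α) a, ?_⟩
        have : t ((g : Equiv.Perm α) a) = g := huniq _ _ a (ht _)
        simp only [this]
        exact hg
      let c : Equiv.Perm α := Equiv.ofBijective _ ⟨hinj, hsurj⟩
      have hcmem : c ∈ Subgroup.centralizer (G : Set (Equiv.Perm α)) := by
        rw [Subgroup.mem_centralizer_iff]
        intro g hg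
        ext x
        simp only [Equiv.Perm.coe_mul, Function.comp_apply]
        show g (((t x : G) : Equiv.Perm α) b) = ((t (g x) : G) : Equiv.Perm α) b
        have : t (g x) = ⟨g, hg⟩ * t x := by
          apply huniq _ _ a
          rw [ht]
          simp [ht]
        rw [this]
        simp
      refine ⟨⟨c, hcmem⟩, ?_⟩
      show ((t a : G) : Equiv.Perm α) b = _
      have : t a = 1 := huniq _ _ a (by rw [ht]; simp)
      rw [this]; simp

end Cfsg.Agent.S0701
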