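import Cfsg.Statements.S0702
import Mathlib

-- import your own Cfsg.Agent.* helpers here

set_option autoImplicit false
open Cfsg

namespace Cfsg.Agent.S0702



/-- For a transitive permutation group `G` on a finite set, the centraliser of `G` in the symmetric group is isomorphic to `N_G(G_ω)/G_ω`, and its orbit of `ω` is the set of fixed points of `G_ω`. -/
theorem result {α : Type*} [Finite α] (G : Subgroup (Equiv.Perm α)) [MulAction.IsPretransitive G α] (a : α) : Nonempty (Subgroup.centralizer (G : Set (Equiv.Perm α)) ≃* Subgroup.normalizer ((MulAction.stabilizer G a : Subgroup G) : Set G) ⧸ (MulAction.stabilizer G a).subgroupOf (Subgroup.normalizer ((MulAction.stabilizer G a : Subgroup G) : Set G))) ∧ MulAction.orbit (Subgroup.centralizer (G : Set (Equiv.Perm α))) a = MulAction.fixedPoints (MulAction.stabilizer G a) α := by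
  classical
  have : Finite G := inferInstance
  set K : Subgroup G := MulAction.stabilizer G a with hK
  set N : Subgroup G := Subgroup.normalizer (K : Set G) with hN
  -- choose coset representatives
  have hex : ∀ x : α, ∃ g : G, g • a = x := fun x => MulAction.exists_smul_eq G a x
  choose t ht using hex
  have hwell : ∀ (n : N) (g k : G), g • a = k • a → g • ((n : G)⁻¹ • a) = k • ((n : G)⁻¹ • a) := by
    intro n g k h
    have h1 : k⁻¹ * g ∈ K := by
      rw [hK, MulAction.mem_stabilizer_iff, mul_smul, h, inv_smul_smul]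
    have h2 : (n : G) * (k⁻¹ * g) * (n : G)⁻¹ ∈ K := by
      have := Subgroup.mem_normalizer_iff.mp n.2
      exact (this _).mp h1
    rw [hK, MulAction.mem_stabilizer_iff] at h2
    have h3 : (n : G)⁻¹ • ((n : G) * (k⁻¹ * g) * (n : G)⁻¹) • a = (n : G)⁻¹ • a := by rw [h2]
    simp only [← mul_smul, mul_assoc, inv_mul_cancel_left] at h3
    have h4 := congrArg (fun x => k • x) h3
    simp only [← mul_smul, mul_inv_cancel_left] at h4
    rw [← mul_smul, ← mul_smul]
    exact h4
  let c : N → α → α := fun n x => t x • ((n : G)⁻¹ • a)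
  have hc : ∀ (n : N) (g : G), c n (g • a) = g • ((n : G)⁻¹ • a) := fun n g => hwell n _ _ (ht _)
  have hcc : ∀ (n m : N) (x : α), c n (c m x) = c (n * m) x := by
    intro n m x
    obtain ⟨g, rfl⟩ : ∃ g : G, g • a = x := ⟨t x, ht x⟩
    rw [hc m g, ← mul_smul, hc, hc]
    simp only [← mul_smul, Subgroup.coe_mul, mul_inv_rev, mul_assoc]
  have hc1 : ∀ x, c 1 x = x := by
    intro x
    obtain ⟨g, rfl⟩ : ∃ g : G, g • a = x := ⟨t x, ht x⟩
    rw [hc]; simp
  let f : N →* Equiv.Perm α :=
    { toFun := fun n => ⟨c n, c n⁻¹, fun x => by rw [hcc, inv_mul_cancel, hc1], fun x => by rw [hcc, mul_inv_cancel, hc1]⟩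
      map_one' := by ext x; exact hc1 x
      map_mul' := fun n m => by ext x; exact (hcc n m x).symm }
  have hf : ∀ (n : N) (g : G), f n (g • a) = g • ((n : G)⁻¹ • a) := hc
  have hfC : ∀ n : N, f n ∈ Subgroup.centralizer (G : Set (Equiv.Perm α)) := by
    intro n
    rw [Subgroup.mem_centralizer_iff]
    intro h hh
    ext x
    obtain ⟨g, rfl⟩ : ∃ g : G, g • a = x := ⟨t x, ht x⟩
    show h (f n (g • a)) = f n (h (g • a))
    have e : h (g • a) = ((⟨h, hh⟩ : G) * g) • a := by rw [mul_smul]; rfl
    rw [e, hf, hf, mul_smul]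
    rfl
  -- centraliser elements fix the fixed points structure
  have hCa : ∀ d ∈ Subgroup.centralizer (G : Set (Equiv.Perm α)), ∀ (g : G) (x : α), d (g • x) = g • d x := by
    intro d hd g x
    have := Subgroup.mem_centralizer_iff.mp hd (g : Equiv.Perm α) g.2
    exact (congrArg (fun e : Equiv.Perm α => e x) this).symm
  have hfixN : ∀ b : α, b ∈ MulAction.fixedPoints K α → ∃ n : N, (n : G)⁻¹ • a = b := by
    intro b hb
    obtain ⟨m, hm⟩ : ∃ g : G, g • a = b := ⟨t b, ht b⟩
    have hle : K ≤ MulAction.stabilizer G b := by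
      intro k hk
      exact hb ⟨k, hk⟩
    have hcard : Nat.card K = Nat.card (MulAction.stabilizer G b) := by
      rw [← hm]
      rw [MulAction.stabilizer_smul_eq_stabilizer_map_conj]
      exact Nat.card_congr ((MulAction.stabilizer G a).equivMapOfInjective _ (MulAut.conj m).injective).toEquiv
    have heq : K = MulAction.stabilizer G b := Subgroup.eq_of_le_of_card_ge hle hcard.ge
    have hmN : m ∈ N := by
      rw [hN, Subgroup.mem_normalizer_iff'']
      intro g
      conv_lhs => rw [heq, MulAction.mem_stabilizer_iff, ← hm]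
      rw [hK, MulAction.mem_stabilizer_iff, mul_smul, mul_smul, inv_smul_eq_iff]
    exact ⟨⟨m⁻¹, N.inv_mem hmN⟩, by simpa using hm⟩
  have hCfix : ∀ d ∈ Subgroup.centralizer (G : Set (Equiv.Perm α)), d a ∈ MulAction.fixedPoints K α := by
    intro d hd k
    show (k : G) • d a = d a
    rw [← hCa d hd, show (k : G) • a = a from k.2]
  have hsurj : ∀ d ∈ Subgroup.centralizer (G : Set (Equiv.Perm α)), ∃ n : N, f n = d := by
    intro d hd
    obtain ⟨n, hn⟩ := hfixN _ (hCfix d hd)
    refine ⟨n, ?_⟩
    ext x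
    obtain ⟨g, rfl⟩ : ∃ g : G, g • a = x := ⟨t x, ht x⟩
    rw [hf, hn, hCa d hd]
  let F : N →* Subgroup.centralizer (G : Set (Equiv.Perm α)) := f.codRestrict _ hfC
  have hFsurj : Function.Surjective F := by
    rintro ⟨d, hd⟩
    obtain ⟨n, hn⟩ := hsurj d hd
    exact ⟨n, Subtype.ext hn⟩
  have hker : F.ker = K.subgroupOf N := by
    ext n
    rw [MonoidHom.mem_ker, Subgroup.mem_subgroupOf]
    constructor
    · intro h
      have h1 : f n = 1 := congrArg Subtype.val h
      have h2 : f n ((1 : G) • a) = (1 : G) • a := by rw [h1]; rfl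
      rw [hf, one_smul, one_smul] at h2
      rw [hK, MulAction.mem_stabilizer_iff]
      exact (inv_smul_eq_iff.mp h2).symm
    · intro h
      apply Subtype.ext
      ext x
      obtain ⟨g, rfl⟩ : ∃ g : G, g • a = x := ⟨t x, ht x⟩
      show f n (g • a) = g • a
      rw [hf]
      rw [hK, MulAction.mem_stabilizer_iff] at h
      rw [inv_smul_eq_iff.mpr h.symm]
  constructor
  · exact ⟨((QuotientGroup.quotientMulEquivOfEq hker.symm).trans (QuotientGroup.quotientKerEquivOfSurjective F hFsurj)).symm⟩
  · ext b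
    constructor
    · rintro ⟨d, rfl⟩
      exact hCfix d d.2
    · intro hb
      obtain ⟨n, hn⟩ := hfixN b hb
      refine ⟨⟨f n, hfC n⟩, ?_⟩
      show f n a = b
      have := hf n 1
      rw [one_smul, one_smul] at this
      rw [this, hn]

end Cfsg.Agent.S0702
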