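import Cfsg.Statements.S0703
import Mathlib

-- import your own Cfsg.Agent.* helpers here

set_option autoImplicit false
open Cfsg

namespace Cfsg.Agent.S0703

open scoped Pointwise

/-- An abelian transitive minimal normal subgroup `M` of a permutation group on a finite set is self-centralising in the symmetric group, regular, elementary abelian, and is the unique minimal normal subgroup. -/
theorem result {α : Type*} [Finite α] (G : Subgroup (Equiv.Perm α)) (M : Subgroup G) [M.Normal] (hM : M ≠ ⊥) (hmin : ∀ L : Subgroup G, L.Normal → L ≤ M → L = ⊥ ∨ L = M) (hab : IsMulCommutative M) (htrans : MulAction.IsPretransitive M α) : Subgroup.centralizer ((M.map G.subtype : Subgroup (Equiv.Perm α)) : Set (Equiv.Perm α)) = M.map G.subtype ∧ (∀ a : α, MulAction.stabilizer M a = ⊥) ∧ (∃ p : ℕ, p.Prime ∧ ∀ m ∈ M, m ^ p = 1) ∧ ∀ L : Subgroup G, L.Normal → L ≠ ⊥ → (∀ L' : Subgroup G, L'.Normal → L' ≤ L → L' = ⊥ ∨ L' = L) → L = M := by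
  classical
  have hfinG : Finite G := inferInstance
  have hMcomm : ∀ x y : M, x * y = y * x := fun x y => mul_comm' x y
  have hreg : ∀ a : α, MulAction.stabilizer M a = ⊥ := by
    intro a
    rw [eq_bot_iff]
    intro m hm
    rw [Subgroup.mem_bot]
    have hma : m • a = a := hm
    apply Subtype.ext
    apply Subtype.ext
    ext b
    obtain ⟨n, hn⟩ := htrans.exists_smul_eq a b
    have : m • b = b := by
      rw [← hn, ← mul_smul, hMcomm m n, mul_smul, hma]
    exact this
  have hcent : Subgroup.centralizer ((M.map G.subtype : Subgroup (Equiv.Perm α)) : Set (Equiv.Perm α)) = M.map G.subtype := by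
    apply le_antisymm
    · intro c hc
      rcases isEmpty_or_nonempty α with he | ⟨⟨a⟩⟩
      · have : c = 1 := by ext x; exact he.elim x
        rw [this]; exact Subgroup.one_mem _
      obtain ⟨n, hn⟩ := htrans.exists_smul_eq a (c a)
      have hn' : ((n : G) : Equiv.Perm α) a = c a := hn
      have : c = ((n : G) : Equiv.Perm α) := by
        ext b
        obtain ⟨m, hm⟩ := htrans.exists_smul_eq a b
        have hm' : ((m : G) : Equiv.Perm α) a = b := hm
        have h1 := Subgroup.mem_centralizer_iff.mp hc ((m : G) : Equiv.Perm α) ⟨m, m.2, rfl⟩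
        have h2 := congrArg (fun e : Equiv.Perm α => e a) h1
        simp only [Equiv.Perm.coe_mul, Function.comp_apply] at h2
        rw [← hm', ← h2, ← hn']
        have h3 : m • n • a = n • m • a := by rw [← mul_smul, hMcomm, mul_smul]
        exact h3
      rw [this]
      exact ⟨n, n.2, rfl⟩
    · rintro _ ⟨m, hm, rfl⟩
      rw [Subgroup.mem_centralizer_iff]
      rintro _ ⟨n, hn, rfl⟩
      have := congrArg (fun x : M => ((x : G) : Equiv.Perm α)) (hMcomm ⟨n, hn⟩ ⟨m, hm⟩)
      exact this
  refine ⟨hcent, hreg, ?_, ?_⟩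
  · have hM1 : Nat.card M ≠ 1 := by
      intro h1
      apply hM
      exact Subgroup.card_eq_one.mp h1
    obtain ⟨p, hp, hpd⟩ := Nat.exists_prime_and_dvd hM1
    haveI : Fact p.Prime := ⟨hp⟩
    refine ⟨p, hp, ?_⟩
    let L : Subgroup G :=
      { carrier := {m | m ∈ M ∧ m ^ p = 1}
        one_mem' := ⟨M.one_mem, one_pow p⟩
        mul_mem' := by
          rintro x y ⟨hx, hx1⟩ ⟨hy, hy1⟩
          refine ⟨M.mul_mem hx hy, ?_⟩
          have hxy : Commute x y := congrArg Subtype.val (hMcomm ⟨x, hx⟩ ⟨y, hy⟩)
          rw [hxy.mul_pow, hx1, hy1, one_mul]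
        inv_mem' := by
          rintro x ⟨hx, hx1⟩
          exact ⟨M.inv_mem hx, by rw [inv_pow, hx1, inv_one]⟩ }
    have hLn : L.Normal := by
      constructor
      rintro x ⟨hx, hx1⟩ g
      refine ⟨Subgroup.Normal.conj_mem inferInstance x hx g, ?_⟩
      rw [conj_pow, hx1]; group
    rcases hmin L hLn (fun x hx => hx.1) with h | h
    · exfalso
      obtain ⟨x, hx⟩ := exists_prime_orderOf_dvd_card' (G := M) p hpd
      have hxL : (x : G) ∈ L := ⟨x.2, by
        have : x ^ p = 1 := by rw [← hx, pow_orderOf_eq_one]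
        exact congrArg Subtype.val this⟩
      rw [h, Subgroup.mem_bot] at hxL
      have : x = 1 := Subtype.ext hxL
      rw [this, orderOf_one] at hx
      exact hp.one_lt.ne hx
    · intro m hm
      rw [← h] at hm
      exact hm.2
  · intro L hLn hL hLmin
    by_contra hne
    have hinf : L ⊓ M = ⊥ := by
      have hn : (L ⊓ M).Normal := Subgroup.normal_inf_normal L M
      rcases hmin (L ⊓ M) hn inf_le_right with h | h
      · exact h
      · rcases hLmin (L ⊓ M) hn inf_le_left with h' | h'
        · exact h'
        · exact absurd (h'.symm.trans h) hne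
    have hcomm : ∀ l ∈ L, ∀ m ∈ M, l * m = m * l := by
      intro l hl m hm
      have h1 : l * m * l⁻¹ * m⁻¹ ∈ L ⊓ M := by
        constructor
        · have : l * m * l⁻¹ * m⁻¹ = l * (m * l⁻¹ * m⁻¹) := by group
          rw [this]
          exact L.mul_mem hl (hLn.conj_mem _ (L.inv_mem hl) m)
        · exact M.mul_mem (Subgroup.Normal.conj_mem inferInstance m hm l) (M.inv_mem hm)
      rw [hinf, Subgroup.mem_bot] at h1
      calc l * m = (l * m * l⁻¹ * m⁻¹) * (m * l) := by group
        _ = m * l := by rw [h1, one_mul]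
    have hLM : L ≤ M := by
      intro l hl
      have : (l : Equiv.Perm α) ∈ Subgroup.centralizer ((M.map G.subtype : Subgroup (Equiv.Perm α)) : Set (Equiv.Perm α)) := by
        rw [Subgroup.mem_centralizer_iff]
        rintro _ ⟨m, hm, rfl⟩
        exact (congrArg Subtype.val (hcomm l hl m hm)).symm
      rw [hcent] at this
      obtain ⟨m, hm, hml⟩ := this
      have : m = l := Subtype.ext hml
      rw [← this]; exact hm
    apply hL
    rw [← hinf]
    exact (inf_eq_left.mpr hLM).symm

end Cfsg.Agent.S0703
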