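import Cfsg.Statements.S0704
import Mathlib

-- import your own Cfsg.Agent.* helpers here

set_option autoImplicit false
open Cfsg

namespace Cfsg.Agent.S0704

open scoped Pointwise

/-- Two distinct transitive minimal normal subgroups `M`, `N` of a permutation group are regular, non-abelian, isomorphic, each other's centraliser in the symmetric group, and the only minimal normal subgroups. -/
theorem result {α : Type*} (G : Subgroup (Equiv.Perm α)) (M N : Subgroup G) [M.Normal] [N.Normal] (hM : M ≠ ⊥) (hN : N ≠ ⊥) (hMmin : ∀ L : Subgroup G, L.Normal → L ≤ M → L = ⊥ ∨ L = M) (hNmin : ∀ L : Subgroup G, L.Normal → L ≤ N → L = ⊥ ∨ L = N) (hMN : M ≠ N) (hMt : MulAction.IsPretransitive M α) (hNt : MulAction.IsPretransitive N α) : (∀ a : α, MulAction.stabilizer M a = ⊥) ∧ (∀ a : α, MulAction.stabilizer N a = ⊥) ∧ ¬ IsMulCommutative M ∧ Nonempty (M ≃* N) ∧ Subgroup.centralizer ((M.map G.subtype : Subgroup (Equiv.Perm α)) : Set (Equiv.Perm α)) = N.map G.subtype ∧ Subgroup.centralizer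 ((N.map G.subtype : Subgroup (Equiv.Perm α)) : Set (Equiv.Perm α)) = M.map G.subtype ∧ ∀ L : Subgroup G, L.Normal → L ≠ ⊥ → (∀ L' : Subgroup G, L'.Normal → L' ≤ L → L' = ⊥ ∨ L' = L) → L = M ∨ L = N := by
  classical
  -- general facts
  have hdisj : ∀ K L : Subgroup G, K.Normal → L.Normal → (∀ L' : Subgroup G, L'.Normal → L' ≤ K → L' = ⊥ ∨ L' = K) → (∀ L' : Subgroup G, L'.Normal → L' ≤ L → L' = ⊥ ∨ L' = L) → K ≠ L → ∀ k ∈ K, ∀ l ∈ L, k * l = l * k := by
    intro K L hK hL hKm hLm hne k hk l hl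
    have hn : (K ⊓ L).Normal := Subgroup.normal_inf_normal K L
    have hinf : K ⊓ L = ⊥ := by
      rcases hKm (K ⊓ L) hn inf_le_left with h | h
      · exact h
      · rcases hLm (K ⊓ L) hn inf_le_right with h' | h'
        · exact h'
        · exact absurd (h.symm.trans h') hne
    have h1 : k * l * k⁻¹ * l⁻¹ ∈ K ⊓ L := by
      constructor
      · have : k * l * k⁻¹ * l⁻¹ = k * (l * k⁻¹ * l⁻¹) := by group
        rw [this]
        exact K.mul_mem hk (hK.conj_mem _ (K.inv_mem hk) l)
      · exact L.mul_mem (hL.conj_mem l hl k) (L.inv_mem hl)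
    rw [hinf, Subgroup.mem_bot] at h1
    calc k * l = (k * l * k⁻¹ * l⁻¹) * (l * k) := by group
      _ = l * k := by rw [h1, one_mul]
  have hMN' := hdisj M N inferInstance inferInstance hMmin hNmin hMN
  -- centraliser of a transitive group is semiregular
  have hsemi : ∀ K : Subgroup G, MulAction.IsPretransitive K α → ∀ c : Equiv.Perm α, c ∈ Subgroup.centralizer ((K.map G.subtype : Subgroup (Equiv.Perm α)) : Set (Equiv.Perm α)) → ∀ a : α, c a = a → c = 1 := by
    intro K hK c hc a hca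
    ext b
    obtain ⟨k, hk⟩ := hK.exists_smul_eq a b
    have hk' : ((k : G) : Equiv.Perm α) a = b := hk
    have h1 := Subgroup.mem_centralizer_iff.mp hc ((k : G) : Equiv.Perm α) ⟨k, k.2, rfl⟩
    have h2 := congrArg (fun e : Equiv.Perm α => e a) h1
    simp only [Equiv.Perm.coe_mul, Function.comp_apply] at h2
    rw [hca, hk'] at h2
    simpa using h2.symm
  have hcle : ∀ K L : Subgroup G, (∀ k ∈ K, ∀ l ∈ L, k * l = l * k) → L.map G.subtype ≤ Subgroup.centralizer ((K.map G.subtype : Subgroup (Equiv.Perm α)) : Set (Equiv.Perm α)) := by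
    rintro K L h _ ⟨l, hl, rfl⟩
    rw [Subgroup.mem_centralizer_iff]
    rintro _ ⟨k, hk, rfl⟩
    exact congrArg Subtype.val (h k hk l hl)
  -- α nonempty
  have hne : Nonempty α := by
    by_contra h
    rw [not_nonempty_iff] at h
    apply hM
    rw [eq_bot_iff]
    intro m _
    rw [Subgroup.mem_bot]
    apply Subtype.ext
    ext x
    exact h.elim x
  obtain ⟨a₀⟩ := hne
  have hregaux : ∀ K L : Subgroup G, MulAction.IsPretransitive K α → (∀ k ∈ K, ∀ l ∈ L, k * l = l * k) → ∀ a : α, MulAction.stabilizer L a = ⊥ := by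
    intro K L hK h a
    rw [eq_bot_iff]
    intro l hl
    rw [Subgroup.mem_bot]
    apply Subtype.ext
    apply Subtype.ext
    exact hsemi K hK _ (hcle K L h ⟨l, l.2, rfl⟩) a hl
  have hceq : ∀ K L : Subgroup G, MulAction.IsPretransitive K α → MulAction.IsPretransitive L α → (∀ k ∈ K, ∀ l ∈ L, k * l = l * k) → Subgroup.centralizer ((K.map G.subtype : Subgroup (Equiv.Perm α)) : Set (Equiv.Perm α)) = L.map G.subtype := by
    intro K L hK hL h
    apply le_antisymm
    · intro c hc
      obtain ⟨l, hl⟩ := hL.exists_smul_eq a₀ (c a₀)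
      have hl' : ((l : G) : Equiv.Perm α) a₀ = c a₀ := hl
      have h1 : (((l : G) : Equiv.Perm α))⁻¹ * c ∈ Subgroup.centralizer ((K.map G.subtype : Subgroup (Equiv.Perm α)) : Set (Equiv.Perm α)) :=
        Subgroup.mul_mem _ (Subgroup.inv_mem _ (hcle K L h ⟨l, l.2, rfl⟩)) hc
      have h2 := hsemi K hK _ h1 a₀ (by
        rw [Equiv.Perm.mul_apply, ← hl']; simp)
      have h3 : ((l : G) : Equiv.Perm α) = c := inv_mul_eq_one.mp h2
      rw [← h3]
      exact ⟨l, l.2, rfl⟩
    · exact hcle K L h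
  have hNM' : ∀ n ∈ N, ∀ m ∈ M, n * m = m * n := fun n hn m hm => (hMN' m hm n hn).symm
  have hcM := hceq M N hMt hNt hMN'
  have hcN := hceq N M hNt hMt hNM'
  have hMreg := hregaux N M hNt hNM'
  have hNreg := hregaux M N hMt hMN'
  have hMnab : ¬ IsMulCommutative M := by
    intro hab
    have h1 : M.map G.subtype ≤ Subgroup.centralizer ((M.map G.subtype : Subgroup (Equiv.Perm α)) : Set (Equiv.Perm α)) := by
      apply hcle
      intro k hk l hl
      exact congrArg Subtype.val (mul_comm' (⟨k, hk⟩ : M) ⟨l, hl⟩)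
    rw [hcM] at h1
    have h2 : M ≤ N := by
      intro m hm
      obtain ⟨n, hn, hnm⟩ := h1 ⟨m, hm, rfl⟩
      have : n = m := Subtype.ext hnm
      rw [← this]; exact hn
    rcases hNmin M inferInstance h2 with h3 | h3
    · exact hM h3
    · exact hMN h3
  -- the isomorphism
  have hex : ∀ m : M, ∃ n : N, n • a₀ = m⁻¹ • a₀ := fun m => hNt.exists_smul_eq _ _
  choose φ hφ using hex
  have hcom : ∀ (m : M) (n : N) (x : α), m • n • x = n • m • x := by
    intro m n x
    have h1 := congrArg (fun g : G => (g : Equiv.Perm α) x) (hMN' m m.2 n n.2)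
    exact h1
  have hNinj : ∀ n n' : N, n • a₀ = n' • a₀ → n = n' := by
    intro n n' h
    have : n'⁻¹ * n ∈ MulAction.stabilizer N a₀ := by
      rw [MulAction.mem_stabilizer_iff, mul_smul, h, inv_smul_smul]
    rw [hNreg a₀, Subgroup.mem_bot] at this
    exact (inv_mul_eq_one.mp this).symm
  have hMinj : ∀ n n' : M, n • a₀ = n' • a₀ → n = n' := by
    intro n n' h
    have : n'⁻¹ * n ∈ MulAction.stabilizer M a₀ := by
      rw [MulAction.mem_stabilizer_iff, mul_smul, h, inv_smul_smul]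
    rw [hMreg a₀, Subgroup.mem_bot] at this
    exact (inv_mul_eq_one.mp this).symm
  have hφmul : ∀ m m' : M, φ (m * m') = φ m * φ m' := by
    intro m m'
    apply hNinj
    rw [hφ, mul_inv_rev, mul_smul, ← hφ m, hcom, ← hφ m']
    -- n m' : φ m • φ m' • a₀
    rw [mul_smul]
  have hφbij : Function.Bijective φ := by
    constructor
    · intro m m' h
      have h1 := hφ m
      rw [h, hφ m'] at h1
      exact (inv_inj.mp (hMinj _ _ h1)).symm
    · intro n
      obtain ⟨m, hm⟩ := hMt.exists_smul_eq a₀ (n • a₀)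
      refine ⟨m⁻¹, hNinj _ _ ?_⟩
      rw [hφ, inv_inv, hm]
  refine ⟨hMreg, hNreg, hMnab, ⟨MulEquiv.mk (Equiv.ofBijective φ hφbij) hφmul⟩, hcM, hcN, ?_⟩
  intro L hLn hL hLmin
  by_contra hcon
  push Not at hcon
  obtain ⟨hLM, hLN⟩ := hcon
  have c1 := hcle M L (hdisj M L inferInstance hLn hMmin hLmin (Ne.symm hLM))
  have c2 := hcle N L (hdisj N L inferInstance hLn hNmin hLmin (Ne.symm hLN))
  rw [hcM] at c1
  rw [hcN] at c2
  have h1 : L ≤ N := by
    intro m hm
    obtain ⟨n, hn, hnm⟩ := c1 ⟨m, hm, rfl⟩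
    have : n = m := Subtype.ext hnm
    rw [← this]; exact hn
  rcases hNmin L hLn h1 with h3 | h3
  · exact hL h3
  · exact hLN h3

end Cfsg.Agent.S0704
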