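import Cfsg.Statements.S0705
import Mathlib
import Cfsg.Agent.LibPermHomog
-- import your own Cfsg.Agent.* helpers here

set_option autoImplicit false
open scoped Pointwise
open Cfsg

namespace Cfsg.Agent.S0705



/-- A generously `k`-transitive permutation group (every `(k+1)`-subset has its full symmetric group induced by the setwise stabiliser) of degree greater than `k` is `k`-transitive, and for a `k`-subset the setwise and pointwise stabilisers have the same orbits outside it. -/
theorem result {α : Type*} [Fintype α] [DecidableEq α] (G : Subgroup (Equiv.Perm α)) {k : ℕ} (hk : k < Fintype.card α) (hgen : ∀ s : Finset α, s.card = k + 1 → ∀ σ : Equiv.Perm ↥s, ∃ g ∈ G, ∀ x : ↥s, g (x : α) = σ x) : MulAction.IsMultiplyPretransitive G α k ∧ ∀ s : Finset α, s.card = k → ∀ a b : α, a ∉ s → b ∉ s → (∃ g ∈ G, g • s = s ∧ g a = b) → ∃ g ∈ G, (∀ x ∈ s, g x = x) ∧ g a = b := by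
  classical
  constructor
  · rcases Nat.eq_zero_or_pos k with rfl | hk0
    · exact MulAction.is_zero_pretransitive
    obtain ⟨j, rfl⟩ : ∃ j, k = j + 1 := ⟨k - 1, by omega⟩
    refine CfsgLib.PermHomog.mt_of_fixing_all hk ?_
    intro t ht x y hx hy
    by_cases hxy : x = y
    · exact ⟨1, fun a _ => by simp, by simp [hxy]⟩
    let s : Finset α := insert x (insert y t)
    have hs : s.card = j + 1 + 1 := by
      rw [Finset.card_insert_of_notMem, Finset.card_insert_of_notMem hy, ht]
      simp [hxy, hx]
    have hxs : x ∈ s := by simp [s]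
    have hys : y ∈ s := by simp [s]
    obtain ⟨g, hg, hgs⟩ := hgen s hs (Equiv.swap ⟨x, hxs⟩ ⟨y, hys⟩)
    refine ⟨⟨g, hg⟩, fun a ha => ?_, ?_⟩
    · have has : a ∈ s := by simp [s, ha]
      have := hgs ⟨a, has⟩
      rw [Equiv.swap_apply_of_ne_of_ne] at this
      · exact this
      · intro h; exact hx (Subtype.mk.inj h ▸ ha)
      · intro h; exact hy (Subtype.mk.inj h ▸ ha)
    · have := hgs ⟨x, hxs⟩
      rw [Equiv.swap_apply_left] at this
      exact this
  · intro s hs a b ha hb hex
    obtain ⟨g, hg, hgs, hgab⟩ := hex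
    have hmem : ∀ x ∈ s, g x ∈ s := by
      intro x hx
      have : g • x ∈ g • s := Finset.smul_mem_smul_finset hx
      rw [hgs] at this
      exact this
    have hmem' : ∀ x ∈ s, g.symm x ∈ s := by
      intro x hx
      have h1 : g⁻¹ • x ∈ g⁻¹ • s := Finset.smul_mem_smul_finset hx
      have h2 : g⁻¹ • s = s := by
        conv_lhs => rw [← hgs]
        rw [inv_smul_smul]
      rw [h2] at h1
      exact h1
    let u : Finset α := insert b s
    have hu : u.card = k + 1 := by rw [Finset.card_insert_of_notMem hb, hs]
    have hbu : b ∈ u := by simp [u]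
    -- the permutation of `u` inducing `g⁻¹` on `s` and fixing `b`
    let σ : Equiv.Perm ↥u :=
      { toFun := fun x => if h : (x : α) ∈ s then ⟨g.symm x, Finset.mem_insert_of_mem (hmem' _ h)⟩ else x
        invFun := fun x => if h : (x : α) ∈ s then ⟨g x, Finset.mem_insert_of_mem (hmem _ h)⟩ else x
        left_inv := by
          intro x
          by_cases h : (x : α) ∈ s
          · simp [h, hmem' _ h]
          · simp [h]
        right_inv := by
          intro x
          by_cases h : (x : α) ∈ s
          · simp [h, hmem _ h]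
          · simp [h] }
    obtain ⟨v, hv, hvu⟩ := hgen u hu σ
    refine ⟨v * g, G.mul_mem hv hg, fun x hx => ?_, ?_⟩
    · have h1 := hvu ⟨g x, Finset.mem_insert_of_mem (hmem x hx)⟩
      have h2 : (σ ⟨g x, Finset.mem_insert_of_mem (hmem x hx)⟩ : α) = x := by
        simp [σ, hmem x hx]
      rw [h2] at h1
      exact h1
    · have h1 := hvu ⟨b, hbu⟩
      have h2 : (σ ⟨b, hbu⟩ : α) = b := by
        simp [σ, hb]
      rw [h2] at h1
      rw [Equiv.Perm.mul_apply, hgab]
      exact h1

end Cfsg.Agent.S0705
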