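import Cfsg.Statements.S0707
import Mathlib

-- import your own Cfsg.Agent.* helpers here

set_option autoImplicit false
open Cfsg

namespace Cfsg.Agent.S0707

open scoped Pointwise

/-- In a primitive permutation group, distinct points have distinct stabilisers unless the group is regular of prime degree. -/
theorem result {α : Type*} (G : Subgroup (Equiv.Perm α)) [MulAction.IsPreprimitive G α] (h : ¬ (Nat.card α).Prime ∨ ∃ a : α, MulAction.stabilizer G a ≠ ⊥) {a b : α} (hab : a ≠ b) : MulAction.stabilizer G a ≠ MulAction.stabilizer G b := by
  classical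
  intro heq
  have hnt : Nontrivial α := ⟨⟨a, b, hab⟩⟩
  have hstab : ∀ (g : G) (x y : α), MulAction.stabilizer G x = MulAction.stabilizer G y → MulAction.stabilizer G (g • x) = MulAction.stabilizer G (g • y) := by
    intro g x y h
    rw [MulAction.stabilizer_smul_eq_stabilizer_map_conj, MulAction.stabilizer_smul_eq_stabilizer_map_conj, h]
  have hblock : MulAction.IsBlock G {x : α | MulAction.stabilizer G x = MulAction.stabilizer G a} := by
    rw [MulAction.isBlock_iff_smul_eq_of_mem]
    intro g c hc hgc
    have hc' : MulAction.stabilizer G c = MulAction.stabilizer G a := hc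
    have hgc' : MulAction.stabilizer G (g • c) = MulAction.stabilizer G a := hgc
    have hga : MulAction.stabilizer G (g • a) = MulAction.stabilizer G a := by
      rw [← hgc']; exact hstab g _ _ hc'.symm
    ext y
    rw [Set.mem_smul_set_iff_inv_smul_mem]
    simp only [Set.mem_ofPred_eq]
    constructor
    · intro hy
      have := hstab g _ _ hy
      rw [smul_inv_smul] at this
      rw [this, hga]
    · intro hy
      have := hstab g⁻¹ _ _ (hy.trans hga.symm)
      rwa [inv_smul_smul] at this
  have huniv : ∀ x : α, MulAction.stabilizer G x = MulAction.stabilizer G a := by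
    rcases hblock.subsingleton_or_eq_univ with h' | h'
    · exact absurd (h' (show a ∈ _ from rfl) (show b ∈ _ from heq.symm)) hab
    · intro x
      have : x ∈ {x : α | MulAction.stabilizer G x = MulAction.stabilizer G a} := by rw [h']; trivial
      exact this
  have hbot : ∀ x : α, MulAction.stabilizer G x = ⊥ := by
    intro x
    rw [eq_bot_iff]
    intro g hg
    rw [Subgroup.mem_bot]
    ext y
    have : g ∈ MulAction.stabilizer G y := by rw [huniv y, ← huniv x]; exact hg
    have h2 : (g : Equiv.Perm α) y = y := this
    simpa using h2
  rcases h with h | ⟨c, hc⟩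
  · apply h
    have hco := (MulAction.isCoatom_stabilizer_iff_preprimitive G a).mpr inferInstance
    rw [hbot a] at hco
    have htop : ∀ g : G, g ≠ 1 → Subgroup.zpowers g = ⊤ := by
      intro g hg
      apply hco.2
      rw [bot_lt_iff_ne_bot]
      intro h0
      rw [Subgroup.zpowers_eq_bot] at h0
      exact hg h0
    have hex : ∃ g : G, g ≠ 1 := by
      obtain ⟨g, hg⟩ := MulAction.exists_smul_eq G a b
      refine ⟨g, ?_⟩
      rintro rfl
      rw [one_smul] at hg
      exact hab hg
    obtain ⟨g, hg⟩ := hex
    have hfin : Finite G := by
      by_contra hinf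
      have hord : orderOf g = 0 := by
        by_contra hne
        have : Finite (Subgroup.zpowers g) := by
          have := Nat.finite_of_card_ne_zero (α := Subgroup.zpowers g) (by rw [Nat.card_zpowers]; exact hne)
          exact this
        rw [htop g hg] at this
        exact hinf ((Equiv.finite_iff Subgroup.topEquiv.toEquiv).mp this)
      have h2 : g ^ 2 ≠ 1 := by
        intro h2
        have := orderOf_dvd_of_pow_eq_one h2
        rw [hord] at this
        simp at this
      have h3 : g ∈ Subgroup.zpowers (g ^ 2) := by rw [htop _ h2]; trivial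
      obtain ⟨k, hk⟩ := h3
      simp only [← zpow_natCast, ← zpow_mul] at hk
      have h4 : g ^ ((2 : ℕ) * k - 1 : ℤ) = 1 := by
        rw [zpow_sub_one, hk, mul_inv_cancel]
      have h5 := orderOf_dvd_iff_zpow_eq_one.mpr h4
      rw [hord] at h5
      simp at h5
      omega
    have hcard : Nat.card α = Nat.card G := by
      have := MulAction.index_stabilizer_of_transitive G a
      rw [hbot a, Subgroup.index_bot] at this
      exact this.symm
    rw [hcard]
    have hG1 : Nat.card G ≠ 1 := by
      intro h1
      have := (Nat.card_eq_one_iff_unique.mp h1).1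
      exact hg (Subsingleton.elim _ _)
    obtain ⟨p, hp, hpd⟩ := Nat.exists_prime_and_dvd hG1
    haveI : Fact p.Prime := ⟨hp⟩
    obtain ⟨x, hx⟩ := exists_prime_orderOf_dvd_card' (G := G) p hpd
    have hx1 : x ≠ 1 := by
      rintro rfl
      rw [orderOf_one] at hx
      exact hp.one_lt.ne hx
    have : Nat.card G = p := by
      rw [← hx, ← Nat.card_zpowers, htop x hx1]
      exact (Nat.card_congr Subgroup.topEquiv.toEquiv).symm
    rw [this]; exact hp
  · exact hc (hbot c)

end Cfsg.Agent.S0707
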