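import Cfsg.Statements.S0708
import Cfsg.Agent.LibH22Tits1

set_option autoImplicit false
open Cfsg

namespace Cfsg.Agent.S0708

/-- Tits' argument: a sharply 4-transitive group (no finiteness assumed) has finite degree at most 11, and at most 6 when the degree is even. -/
theorem result {G : Type*} [Group G] {Ω : Type*} [MulAction G Ω] (h4 : MulAction.IsMultiplyPretransitive G Ω 4) (hsharp : ∀ x : Fin 4 ↪ Ω, MulAction.stabilizer G x = ⊥) (hne : Nonempty (Fin 4 ↪ Ω)) : Finite Ω ∧ Nat.card Ω ≤ 11 ∧ (Even (Nat.card Ω) → Nat.card Ω ≤ 6) := by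
  have hD : ∀ a b c d : Ω, CfsgLib.H22Tits.D4 a b c d → Function.Injective ![a, b, c, d] := by
    rintro a b c d ⟨d12, d13, d14, d23, d24, d34⟩ i j hij
    fin_cases i <;> fin_cases j <;> simp at hij <;> (first | rfl | exact absurd hij d12 | exact absurd hij d13 | exact absurd hij d14 | exact absurd hij d23 | exact absurd hij d24 | exact absurd hij d34 | exact absurd hij.symm d12 | exact absurd hij.symm d13 | exact absurd hij.symm d14 | exact absurd hij.symm d23 | exact absurd hij.symm d24 | exact absurd hij.symm d34)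
  have hSH : CfsgLib.H22Tits.SH G Ω := by
    refine ⟨?_, ?_⟩
    · intro a b c d a' b' c' d' h1 h2
      haveI := h4
      obtain ⟨g, hg⟩ := MulAction.exists_smul_eq G (⟨![a, b, c, d], hD _ _ _ _ h1⟩ : Fin 4 ↪ Ω) ⟨![a', b', c', d'], hD _ _ _ _ h2⟩
      have hg' : ∀ i, g • (![a, b, c, d] i) = ![a', b', c', d'] i := fun i => by
        have := DFunLike.congr_fun hg i
        exact this
      exact ⟨g, hg' 0, hg' 1, hg' 2, hg' 3⟩
    · intro g a b c d h1 ha hb hc hd
      have h2 : g ∈ MulAction.stabilizer G (⟨![a, b, c, d], hD _ _ _ _ h1⟩ : Fin 4 ↪ Ω) := by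
        rw [MulAction.mem_stabilizer_iff]
        apply DFunLike.ext
        intro i
        show g • (![a, b, c, d] i) = ![a, b, c, d] i
        fin_cases i
        · exact ha
        · exact hb
        · exact hc
        · exact hd
      rw [hsharp] at h2
      exact h2
  obtain ⟨p⟩ := hne
  have hp : CfsgLib.H22Tits.D4 (p 0) (p 1) (p 2) (p 3) := by
    refine ⟨?_, ?_, ?_, ?_, ?_, ?_⟩ <;> exact fun h => absurd (p.injective h) (by decide)
  exact CfsgLib.H22Tits.main hSH hp

end Cfsg.Agent.S0708
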