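import Cfsg.Statements.S0710
import Mathlib
import Cfsg.Agent.LibPrimeDegree4
-- import your own Cfsg.Agent.* helpers here

set_option autoImplicit false
open Cfsg

namespace Cfsg.Agent.S0710

open MulAction

/-- No transitive permutation group on 13 points has order `13 * 12 * 11 * 10 * 9 * 8`. -/
theorem result {α : Type*} [Fintype α] [DecidableEq α] (hα : Fintype.card α = 13) (G : Subgroup (Equiv.Perm α)) [MulAction.IsPretransitive G α] : Nat.card G ≠ 13 * 12 * 11 * 10 * 9 * 8 := by
  classical
  have hp : Fact (Nat.Prime 13) := ⟨by norm_num⟩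
  intro hcard
  let P : Sylow 13 G := default
  obtain ⟨d, hd, hN⟩ := CfsgLib.PrimeDegree4.card_normalizer hα G P
  have h1 : Nat.card (Sylow 13 G) ≡ 1 [MOD 13] := card_sylow_modEq_one 13 G
  rw [P.card_eq_index_normalizer] at h1
  have h2 := Subgroup.card_mul_index (Subgroup.normalizer ((P : Subgroup G) : Set G))
  rw [hN, hcard] at h2
  have h3 : d * (Subgroup.normalizer ((P : Subgroup G) : Set G)).index = 95040 := by
    have : 13 * (d * (Subgroup.normalizer ((P : Subgroup G) : Set G)).index) = 13 * 95040 := by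
      rw [← mul_assoc, h2]
    exact Nat.eq_of_mul_eq_mul_left (by norm_num) this
  have h4 : d * (Subgroup.normalizer ((P : Subgroup G) : Set G)).index ≡ d * 1 [MOD 13] := Nat.ModEq.mul_left d h1
  rw [h3, mul_one] at h4
  have h5 : d ≤ 12 := Nat.le_of_dvd (by norm_num) hd
  have h6 : d ∣ 12 := hd
  unfold Nat.ModEq at h4
  interval_cases d <;> omega

end Cfsg.Agent.S0710
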