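import Cfsg.Statements.S0711
import Mathlib
import Cfsg.Agent.LibMTrans
-- import your own Cfsg.Agent.* helpers here

set_option autoImplicit false
open Cfsg

namespace Cfsg.Agent.S0711

section
variable {α : Type*} [Fintype α] [DecidableEq α]

theorem exists_arc (g : Equiv.Perm α) (j : ℕ) (hj : j ≤ g.support.card) :
    ∃ A E : Finset α, A ⊆ g.support ∧ A.card = j ∧ E.card ≤ 1 ∧ ∀ a ∈ A, a ∉ E → g a ∈ A := by
  induction j with
  | zero => exact ⟨∅, ∅, by simp, by simp, by simp, by simp⟩
  | succ j ih =>
    obtain ⟨A, E, hA, hc, hE, hex⟩ := ih (by omega)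
    by_cases h : ∃ a ∈ A, g a ∉ A
    · obtain ⟨a, ha, hga⟩ := h
      have haE : a ∈ E := by
        by_contra haE
        exact hga (hex a ha haE)
      refine ⟨insert (g a) A, {g a}, ?_, ?_, by simp, ?_⟩
      · intro x hx
        rw [Finset.mem_insert] at hx
        rcases hx with rfl | hx
        · exact Equiv.Perm.apply_mem_support.mpr (hA ha)
        · exact hA hx
      · rw [Finset.card_insert_of_notMem hga, hc]
      · intro x hx hxE
        rw [Finset.mem_insert] at hx
        rw [Finset.mem_singleton] at hxE
        rcases hx with hx | hx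
        · exact absurd hx hxE
        · rw [Finset.mem_insert]
          by_cases hxa : x = a
          · left; rw [hxa]
          · right
            apply hex x hx
            intro hxE2
            exact hxa (Finset.card_le_one.mp hE x hxE2 a haE)
    · push Not at h
      obtain ⟨y, hy, hyA⟩ : ∃ y ∈ g.support, y ∉ A := by
        by_contra hcon
        push Not at hcon
        have := Finset.card_le_card (fun y hy => hcon y hy : g.support ⊆ A)
        omega
      refine ⟨insert y A, {y}, ?_, ?_, by simp, ?_⟩
      · intro x hx
        rw [Finset.mem_insert] at hx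
        rcases hx with rfl | hx
        · exact hy
        · exact hA hx
      · rw [Finset.card_insert_of_notMem hyA, hc]
      · intro x hx hxE
        rw [Finset.mem_insert] at hx
        rw [Finset.mem_singleton] at hxE
        rcases hx with hx | hx
        · exact absurd hx hxE
        · rw [Finset.mem_insert]
          exact Or.inr (h x hx)

theorem bound (g h : Equiv.Perm α) {A D C : Finset α} (hfix : ∀ a ∈ A, h a = a) (hA : A ⊆ g.support)
    (hD : D ⊆ A) (hDg : ∀ a ∈ D, g a ∈ A) (hC : C ⊆ g.support ∩ g.support.image h) :
    (g⁻¹ * (h * g * h⁻¹)).support.card + C.card + D.card ≤ 2 * g.support.card := by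
  have hsub : (g⁻¹ * (h * g * h⁻¹)).support ⊆ (g.support ∪ g.support.image h) \ D := by
    intro x hx
    rw [Equiv.Perm.mem_support] at hx
    rw [Finset.mem_sdiff]
    constructor
    · by_contra hcon
      rw [Finset.mem_union, not_or] at hcon
      apply hx
      have h1 : g x = x := by
        by_contra h1
        exact hcon.1 (Equiv.Perm.mem_support.mpr h1)
      have h2 : g (h⁻¹ x) = h⁻¹ x := by
        by_contra h2
        apply hcon.2
        rw [Finset.mem_image]
        exact ⟨h⁻¹ x, Equiv.Perm.mem_support.mpr h2, h.apply_symm_apply x⟩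
      rw [Equiv.Perm.mul_apply, Equiv.Perm.mul_apply, Equiv.Perm.mul_apply, h2,
        LibMTrans.apply_inv, Equiv.Perm.inv_eq_iff_eq]
      exact h1.symm
    · intro hxD
      apply hx
      have h1 : h⁻¹ x = x := by
        rw [Equiv.Perm.inv_eq_iff_eq]
        exact (hfix x (hD hxD)).symm
      rw [Equiv.Perm.mul_apply, Equiv.Perm.mul_apply, Equiv.Perm.mul_apply, h1,
        hfix _ (hDg x hxD), LibMTrans.inv_apply]
  have h1 := Finset.card_le_card hsub
  have h2 := Finset.card_sdiff_add_card_eq_card
    (s := D) (t := g.support ∪ g.support.image h)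
    (fun x hx => Finset.mem_union_left _ (hA (hD hx)))
  have h3 := Finset.card_union_add_card_inter g.support (g.support.image h)
  have h4 := Finset.card_le_card hC
  have h5 := Finset.card_image_of_injective g.support h.injective
  omega

theorem key (G : Subgroup (Equiv.Perm α)) {k : ℕ} (hk : 3 ≤ k) (hkn : k ≤ Fintype.card α)
    (hG : MulAction.IsMultiplyPretransitive G α k) (g : Equiv.Perm α) (hg : g ∈ G) (hg1 : g ≠ 1)
    (hmin : ∀ h ∈ G, h ≠ 1 → g.support.card ≤ h.support.card)
    (hsupp : g.support.card < 2 * k - 2) : g.support.card ≤ 3 := by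
  have hkn' : k ≤ Nat.card α := by rwa [Nat.card_eq_fintype_card]
  by_contra h4
  have hn4 : g.support.card ≤ Fintype.card α := Finset.card_le_univ _
  have hconj : ∀ h : G, g⁻¹ * ((h : Equiv.Perm α) * g * (h : Equiv.Perm α)⁻¹) ∈ G := fun h =>
    G.mul_mem (G.inv_mem hg) (G.mul_mem (G.mul_mem h.2 hg) (G.inv_mem h.2))
  have hne1 : ∀ (h : G) (x : α), (h : Equiv.Perm α) (g ((h : Equiv.Perm α)⁻¹ x)) ≠ g x →
      g⁻¹ * ((h : Equiv.Perm α) * g * (h : Equiv.Perm α)⁻¹) ≠ 1 := by
    intro h x hx he
    apply hx
    have := DFunLike.congr_fun he x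
    rw [Equiv.Perm.mul_apply, Equiv.Perm.mul_apply, Equiv.Perm.mul_apply, Equiv.Perm.one_apply,
      Equiv.Perm.inv_eq_iff_eq] at this
    exact this
  by_cases hn : Fintype.card α ≤ k + 2
  · have hA : alternatingGroup α ≤ G := by
      apply IsMultiplyPretransitive.alternatingGroup_le
      exact MulAction.isMultiplyPretransitive_of_le (n := k)
        (by rw [Nat.card_eq_fintype_card]; omega) hkn'
    obtain ⟨s, hs⟩ := Finset.exists_subset_card_eq (s := (Finset.univ : Finset α)) (n := 3)
      (by rw [Finset.card_univ]; omega)
    obtain ⟨a, b, c, hab, hac, hbc, -⟩ := Finset.card_eq_three.mp hs.2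
    have h3 : (Equiv.swap a b * Equiv.swap a c).IsThreeCycle :=
      Equiv.Perm.isThreeCycle_swap_mul_swap_same hab hac hbc
    have := hmin _ (hA h3.mem_alternatingGroup) (by
      intro h1
      have := h3.card_support
      rw [h1] at this
      simp at this)
    rw [h3.card_support] at this
    omega
  rcases Nat.lt_or_ge g.support.card (Fintype.card α) with hlt | hge
  · obtain ⟨c, hc⟩ : ∃ c, c ∉ g.support := by
      by_contra hcon
      push Not at hcon
      have := Finset.card_le_card (fun y _ => hcon y : (Finset.univ : Finset α) ⊆ g.support)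
      rw [Finset.card_univ] at this
      omega
    rcases Nat.lt_or_ge k g.support.card with hkm | hkm
    · obtain ⟨A, E, hA, hAc, hE, hex⟩ := exists_arc g (k - 1) (by omega)
      by_cases h : ∃ a ∈ A, g a ∉ A
      · obtain ⟨a, ha, hga⟩ := h
        obtain ⟨b, hb, hbA, hbg⟩ : ∃ b ∈ g.support, b ∉ A ∧ b ≠ g a := by
          by_contra hcon
          push Not at hcon
          have hsub : g.support ⊆ insert (g a) A := by
            intro y hy
            rw [Finset.mem_insert]
            by_cases hyA : y ∈ A
            · exact Or.inr hyA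
            · exact Or.inl (hcon y hy hyA)
          have := Finset.card_le_card hsub
          have := Finset.card_insert_le (g a) A
          omega
        obtain ⟨h, hh1, hh2⟩ := LibMTrans.exists_fix hG hkn' A (by omega) hga hbA
        have hb1 := bound g (h : Equiv.Perm α) (A := A) (D := A \ E) (C := insert b A)
          (fun a ha => hh1 a ha) hA Finset.sdiff_subset
          (fun a ha => hex a (Finset.mem_sdiff.mp ha).1 (Finset.mem_sdiff.mp ha).2) (by
            intro x hx
            rw [Finset.mem_insert] at hx
            rw [Finset.mem_inter, Finset.mem_image]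
            rcases hx with rfl | hx
            · exact ⟨hb, g a, Equiv.Perm.apply_mem_support.mpr (hA ha), hh2⟩
            · exact ⟨hA hx, x, hA hx, hh1 x hx⟩)
        rw [Finset.card_insert_of_notMem hbA] at hb1
        have hsd := Finset.le_card_sdiff E A
        have := hmin _ (hconj h) (hne1 h a (by
          have h1 : (h : Equiv.Perm α)⁻¹ a = a := by
            rw [Equiv.Perm.inv_eq_iff_eq]; exact (hh1 a ha).symm
          rw [h1]
          intro he
          apply hbg
          rw [← he]
          exact hh2.symm))
        omega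
      · push Not at h
        obtain ⟨y, hy, hyA⟩ : ∃ y ∈ g.support, y ∉ A := by
          by_contra hcon
          push Not at hcon
          have := Finset.card_le_card (fun y hy => hcon y hy : g.support ⊆ A)
          omega
        obtain ⟨h', hh1, hh2⟩ := LibMTrans.exists_fix hG hkn' A (by omega) hyA
          (fun hcA => hc (hA hcA))
        have hb1 := bound g (h' : Equiv.Perm α) (A := A) (D := A) (C := A)
          (fun a ha => hh1 a ha) hA (Finset.Subset.refl _)
          (fun a ha => h a ha) (by
            intro x hx
            rw [Finset.mem_inter, Finset.mem_image]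
            exact ⟨hA hx, x, hA hx, hh1 x hx⟩)
        have := hmin _ (hconj h') (hne1 h' c (by
          have h1 : (h' : Equiv.Perm α)⁻¹ c = y := by
            rw [Equiv.Perm.inv_eq_iff_eq]; exact hh2.symm
          have h2 : g c = c := by
            by_contra h2
            exact hc (Equiv.Perm.mem_support.mpr h2)
          rw [h1, h2]
          intro he
          have h3 : (h' : Equiv.Perm α) (g y) = (h' : Equiv.Perm α) y := he.trans hh2.symm
          exact (Equiv.Perm.mem_support.mp hy) ((h' : Equiv.Perm α).injective h3)))
        omega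
    · -- m ≤ k
      obtain ⟨a, ha⟩ : ∃ a, a ∈ g.support := by
        by_contra hcon
        push Not at hcon
        have : g.support = ∅ := Finset.eq_empty_of_forall_notMem hcon
        rw [this] at h4
        simp at h4
      have hga : g a ∈ g.support := Equiv.Perm.apply_mem_support.mpr ha
      have hgaa : g a ≠ a := Equiv.Perm.mem_support.mp ha
      have hce := Finset.card_erase_of_mem hga
      obtain ⟨h, hh1, hh2⟩ := LibMTrans.exists_fix hG hkn' (g.support.erase (g a)) (by omega)
        (Finset.notMem_erase _ _) (fun hcA => hc (Finset.mem_of_mem_erase hcA))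
      have hsub : (g⁻¹ * ((h : Equiv.Perm α) * g * (h : Equiv.Perm α)⁻¹)).support ⊆ {a, g a, c} := by
        intro x hx
        rw [Equiv.Perm.mem_support] at hx
        by_contra hcon
        simp only [Finset.mem_insert, Finset.mem_singleton, not_or] at hcon
        obtain ⟨hxa, hxg, hxc⟩ := hcon
        apply hx
        rw [Equiv.Perm.mul_apply, Equiv.Perm.mul_apply, Equiv.Perm.mul_apply,
          Equiv.Perm.inv_eq_iff_eq]
        by_cases hxs : x ∈ g.support
        · have h1 : (h : Equiv.Perm α)⁻¹ x = x := by
            rw [Equiv.Perm.inv_eq_iff_eq]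
            exact (hh1 x (Finset.mem_erase.mpr ⟨hxg, hxs⟩)).symm
          rw [h1]
          exact hh1 (g x) (Finset.mem_erase.mpr ⟨fun he => hxa (g.injective he),
            Equiv.Perm.apply_mem_support.mpr hxs⟩)
        · have h2 : g x = x := by
            by_contra h2
            exact hxs (Equiv.Perm.mem_support.mpr h2)
          have h3 : g ((h : Equiv.Perm α)⁻¹ x) = (h : Equiv.Perm α)⁻¹ x := by
            by_contra h3
            have h5 := Equiv.Perm.mem_support.mpr h3
            by_cases h6 : (h : Equiv.Perm α)⁻¹ x = g a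
            · apply hxc
              rw [← hh2, ← h6]
              exact (LibMTrans.apply_inv _ _).symm
            · have h7 := hh1 _ (Finset.mem_erase.mpr ⟨h6, h5⟩)
              have h8 : (h : Equiv.Perm α) ((h : Equiv.Perm α)⁻¹ x) = (h : Equiv.Perm α)⁻¹ x := h7
              rw [LibMTrans.apply_inv] at h8
              rw [← h8] at h5
              exact hxs h5
          rw [h3, h2]
          exact LibMTrans.apply_inv _ _
      have h9 := Finset.card_le_card hsub
      have h10 := Finset.card_le_three (a := a) (b := g a) (c := c)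
      have := hmin _ (hconj h) (hne1 h a (by
        have h1 : (h : Equiv.Perm α)⁻¹ a = a := by
          rw [Equiv.Perm.inv_eq_iff_eq]
          exact (hh1 a (Finset.mem_erase.mpr ⟨Ne.symm hgaa, ha⟩)).symm
        rw [h1]
        intro he
        apply hc
        have h2 : c = g a := hh2.symm.trans he
        rw [h2]
        exact hga))
      omega
  · -- no fixed points
    have hall : ∀ x, g x ≠ x := by
      intro x
      rw [← Equiv.Perm.mem_support]
      have : g.support = Finset.univ := Finset.eq_univ_of_card _ (le_antisymm hn4 hge)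
      rw [this]
      exact Finset.mem_univ x
    obtain ⟨x⟩ : Nonempty α := Fintype.card_pos_iff.mp (by omega)
    obtain ⟨y, hy⟩ : ∃ y, y ∉ ({x, g x, g⁻¹ x} : Finset α) := by
      by_contra hcon
      push Not at hcon
      have := Finset.card_le_card (fun z _ => hcon z : (Finset.univ : Finset α) ⊆ {x, g x, g⁻¹ x})
      rw [Finset.card_univ] at this
      have h2 := Finset.card_le_three (a := x) (b := g x) (c := g⁻¹ x)
      omega
    obtain ⟨z, hz⟩ : ∃ z, z ∉ ({x, g x, y, g y} : Finset α) := by
      by_contra hcon
      push Not at hcon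
      have := Finset.card_le_card (fun z _ => hcon z : (Finset.univ : Finset α) ⊆ {x, g x, y, g y})
      rw [Finset.card_univ] at this
      have h2 := Finset.card_le_four (a := x) (b := g x) (c := y) (d := g y)
      omega
    simp only [Finset.mem_insert, Finset.mem_singleton, not_or] at hy hz
    obtain ⟨hyx, hygx, hyg⟩ := hy
    obtain ⟨hzx, hzgx, hzy, hzgy⟩ := hz
    have hgyx : g y ≠ x := by
      intro h
      apply hyg
      rw [← h, LibMTrans.inv_apply]
    obtain ⟨h, hh1, hh2⟩ := LibMTrans.exists_fix hG hkn' ({x, g x, y} : Finset α)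
      (b := g y) (c := z) (by
        have h2 := Finset.card_le_three (a := x) (b := g x) (c := y)
        omega) (by
        simp only [Finset.mem_insert, Finset.mem_singleton, not_or]
        exact ⟨hgyx, fun he => hyx (g.injective he), hall y⟩) (by
        simp only [Finset.mem_insert, Finset.mem_singleton, not_or]
        exact ⟨hzx, hzgx, hzy⟩)
    have e1 : (h : Equiv.Perm α)⁻¹ x = x := by
      rw [Equiv.Perm.inv_eq_iff_eq]
      exact (hh1 x (by simp)).symm
    have e2 : (h : Equiv.Perm α) (g x) = g x := hh1 (g x) (by simp)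
    have e3 : (h : Equiv.Perm α)⁻¹ y = y := by
      rw [Equiv.Perm.inv_eq_iff_eq]
      exact (hh1 y (by simp)).symm
    have e4 : (h : Equiv.Perm α) (g y) = z := hh2
    have := hmin _ (hconj h) (hne1 h y (by
      rw [e3, e4]
      exact hzgy))
    have hx : x ∉ (g⁻¹ * ((h : Equiv.Perm α) * g * (h : Equiv.Perm α)⁻¹)).support := by
      rw [Equiv.Perm.notMem_support, Equiv.Perm.mul_apply, Equiv.Perm.mul_apply,
        Equiv.Perm.mul_apply, e1, e2, LibMTrans.inv_apply]
    have h5 : (g⁻¹ * ((h : Equiv.Perm α) * g * (h : Equiv.Perm α)⁻¹)).support.card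
        < Fintype.card α := by
      rw [← Finset.card_univ]
      exact Finset.card_lt_card ⟨Finset.subset_univ _, fun hu => hx (hu (Finset.mem_univ x))⟩
    omega

end

/-- A `k`-transitive permutation group (`k ≥ 3`) with a non-identity element of support smaller than `2k - 2` contains a non-identity element of support at most 3, and therefore contains the alternating group. -/
theorem result {α : Type*} [Fintype α] [DecidableEq α] (G : Subgroup (Equiv.Perm α)) {k : ℕ} (hk : 3 ≤ k) (hkn : k ≤ Fintype.card α) (hG : MulAction.IsMultiplyPretransitive G α k) (g : Equiv.Perm α) (hg : g ∈ G) (hg1 : g ≠ 1) (hsupp : g.support.card < 2 * k - 2) : (∃ h : Equiv.Perm α, h ∈ G ∧ h ≠ 1 ∧ h.support.card ≤ 3) ∧ alternatingGroup α ≤ G := by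
  classical
  have hkn' : k ≤ Nat.card α := by rwa [Nat.card_eq_fintype_card]
  obtain ⟨h, hh, hmin⟩ : ∃ h : Equiv.Perm α, (h ∈ G ∧ h ≠ 1) ∧
      ∀ h' : Equiv.Perm α, (h' ∈ G ∧ h' ≠ 1) → h.support.card ≤ h'.support.card := by
    obtain ⟨h, hh, hm⟩ := Set.exists_min_image {h : Equiv.Perm α | h ∈ G ∧ h ≠ 1}
      (fun h => h.support.card) (Set.toFinite _) ⟨g, hg, hg1⟩
    exact ⟨h, hh, hm⟩
  have h3 : h.support.card ≤ 3 := key G hk hkn hG h hh.1 hh.2 (fun h' h1 h2 => hmin h' ⟨h1, h2⟩)
    (lt_of_le_of_lt (hmin g ⟨hg, hg1⟩) hsupp)
  refine ⟨⟨h, hh.1, hh.2, h3⟩, ?_⟩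
  have h2t : MulAction.IsMultiplyPretransitive G α 2 :=
    MulAction.isMultiplyPretransitive_of_le (n := k) (by omega) hkn'
  have hprim : MulAction.IsPreprimitive G α := MulAction.isPreprimitive_of_is_two_pretransitive h2t
  have h0 : h.support.card ≠ 0 := by
    rw [Ne, Equiv.Perm.card_support_eq_zero]
    exact hh.2
  have h1 : h.support.card ≠ 1 := Equiv.Perm.card_support_ne_one h
  have h23 : h.support.card = 2 ∨ h.support.card = 3 := by omega
  rcases h23 with h23 | h23
  · rw [Equiv.Perm.card_support_eq_two] at h23
    rw [Equiv.Perm.subgroup_eq_top_of_isPreprimitive_of_isSwap_mem hprim h h23 hh.1]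
    exact le_top
  · rw [card_support_eq_three_iff] at h23
    exact Equiv.Perm.alternatingGroup_le_of_isPreprimitive_of_isThreeCycle_mem hprim h23 hh.1

end Cfsg.Agent.S0711
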