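import Cfsg.Statements.S0714
import Mathlib

-- import your own Cfsg.Agent.* helpers here

set_option autoImplicit false
open Cfsg

namespace Cfsg.Agent.S0714

section
variable {α : Type*} [Fintype α] [DecidableEq α] {K : Type*} [Field K]

theorem mem_alt {a b c d : α} (h1 : a ≠ b) (h2 : c ≠ d) :
    Equiv.swap a b * Equiv.swap c d ∈ alternatingGroup α := by
  rw [Equiv.Perm.mem_alternatingGroup, map_mul, Equiv.Perm.sign_swap h1, Equiv.Perm.sign_swap h2]
  decide

theorem comp_mem (W : Subrepresentation (Cfsg.permRep K (alternatingGroup α) α))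
    {f : α → K} (hf : f ∈ W.toSubmodule) {t : Equiv.Perm α} (ht : t ∈ alternatingGroup α) :
    (fun u => f (t u)) ∈ W.toSubmodule := by
  have h := W.apply_mem_toSubmodule (⟨t, ht⟩ : alternatingGroup α)⁻¹ hf
  have e : (Cfsg.permRep K (alternatingGroup α) α (⟨t, ht⟩ : alternatingGroup α)⁻¹) f
      = fun u => f (t u) := by
    funext u
    change f (((⟨t, ht⟩ : alternatingGroup α)⁻¹)⁻¹ • u) = f (t u)
    rw [inv_inv]
    rfl
  rwa [e] at h

theorem single_sub_mem (hα : 5 ≤ Fintype.card α)
    (W : Subrepresentation (Cfsg.permRep K (alternatingGroup α) α))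
    {f : α → K} (hf : f ∈ W.toSubmodule) {x y : α} (hxy : f x ≠ f y) :
    ∃ v, x ≠ v ∧ (Pi.single x (1 : K) - Pi.single v 1 : α → K) ∈ W.toSubmodule := by
  have hne : x ≠ y := fun h => hxy (by rw [h])
  obtain ⟨z, hz⟩ : ∃ z, z ∉ ({x, y} : Finset α) := by
    by_contra hcon
    push_neg at hcon
    have := Finset.card_le_card (fun z _ => hcon z : (Finset.univ : Finset α) ⊆ {x, y})
    rw [Finset.card_univ] at this
    have h2 := Finset.card_le_two (a := x) (b := y)
    omega
  obtain ⟨w, hw⟩ : ∃ w, w ∉ ({x, y, z} : Finset α) := by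
    by_contra hcon
    push_neg at hcon
    have := Finset.card_le_card (fun z _ => hcon z : (Finset.univ : Finset α) ⊆ {x, y, z})
    rw [Finset.card_univ] at this
    have h2 := Finset.card_le_three (a := x) (b := y) (c := z)
    omega
  obtain ⟨v, hv⟩ : ∃ v, v ∉ ({x, y, z, w} : Finset α) := by
    by_contra hcon
    push_neg at hcon
    have := Finset.card_le_card (fun z _ => hcon z : (Finset.univ : Finset α) ⊆ {x, y, z, w})
    rw [Finset.card_univ] at this
    have h2 := Finset.card_le_four (a := x) (b := y) (c := z) (d := w)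
    omega
  simp only [Finset.mem_insert, Finset.mem_singleton, not_or] at hz hw hv
  obtain ⟨hzx, hzy⟩ := hz
  obtain ⟨hwx, hwy, hwz⟩ := hw
  obtain ⟨hvx, hvy, hvz, hvw⟩ := hv
  refine ⟨v, Ne.symm hvx, ?_⟩
  have h1 := comp_mem W hf (mem_alt (a := x) (b := y) (c := y) (d := z) hne (Ne.symm hzy))
  have h2 := W.toSubmodule.sub_mem hf h1
  set d : α → K := f - (fun u => f ((Equiv.swap x y * Equiv.swap y z) u)) with hd
  have dx : d x = f x - f y := by
    simp only [hd, Pi.sub_apply, Equiv.Perm.mul_apply]
    rw [Equiv.swap_apply_of_ne_of_ne hne (Ne.symm hzx), Equiv.swap_apply_left]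
  have dw : d w = 0 := by
    simp only [hd, Pi.sub_apply, Equiv.Perm.mul_apply]
    rw [Equiv.swap_apply_of_ne_of_ne hwy hwz, Equiv.swap_apply_of_ne_of_ne hwx hwy, sub_self]
  have dv : d v = 0 := by
    simp only [hd, Pi.sub_apply, Equiv.Perm.mul_apply]
    rw [Equiv.swap_apply_of_ne_of_ne hvy hvz, Equiv.swap_apply_of_ne_of_ne hvx hvy, sub_self]
  clear_value d
  have h3 := comp_mem W h2 (mem_alt (a := x) (b := w) (c := w) (d := v) (Ne.symm hwx) (Ne.symm hvw))
  have h4 := W.toSubmodule.sub_mem h2 h3
  have e : d - (fun u => d ((Equiv.swap x w * Equiv.swap w v) u))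
      = (d x) • (Pi.single x (1 : K) - Pi.single v 1 : α → K) := by
    funext u
    simp only [Pi.sub_apply, Equiv.Perm.mul_apply, Pi.smul_apply, smul_eq_mul]
    by_cases hux : u = x
    · subst hux
      rw [Equiv.swap_apply_of_ne_of_ne (Ne.symm hwx) (Ne.symm hvx), Equiv.swap_apply_left, dw]
      simp [Ne.symm hvx]
    · by_cases huw : u = w
      · subst huw
        rw [Equiv.swap_apply_left, Equiv.swap_apply_of_ne_of_ne hvx hvw, dw, dv]
        simp [hwx, Ne.symm hvw]
      · by_cases huv : u = v
        · subst huv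
          rw [Equiv.swap_apply_right, Equiv.swap_apply_right, dv]
          simp [hvx]
        · rw [Equiv.swap_apply_of_ne_of_ne huw huv, Equiv.swap_apply_of_ne_of_ne hux huw]
          simp [hux, huv]
  rw [e] at h4
  have hdx : d x ≠ 0 := by rw [dx]; exact sub_ne_zero.mpr hxy
  exact (W.toSubmodule.smul_mem_iff hdx).mp h4

theorem sumZero_le (hα : 5 ≤ Fintype.card α)
    (W : Subrepresentation (Cfsg.permRep K (alternatingGroup α) α))
    {f : α → K} (hf : f ∈ W.toSubmodule) {x y : α} (hxy : f x ≠ f y) :
    (Cfsg.permSumZero K (alternatingGroup α) α).toSubmodule ≤ W.toSubmodule := by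
  obtain ⟨v, hxv, hm⟩ := single_sub_mem hα W hf hxy
  have h2t : MulAction.IsMultiplyPretransitive (alternatingGroup α) α 2 := by
    have := alternatingGroup.isMultiplyPretransitive α
    exact MulAction.isMultiplyPretransitive_of_le (n := Nat.card α - 2) (by rw [Nat.card_eq_fintype_card]; omega)
      (by rw [Nat.card_eq_fintype_card]; omega)
  have hall : ∀ a b : α, (Pi.single a (1 : K) - Pi.single b 1 : α → K) ∈ W.toSubmodule := by
    intro a b
    by_cases hab : a = b
    · subst hab
      rw [sub_self]
      exact W.toSubmodule.zero_mem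
    rw [MulAction.is_two_pretransitive_iff] at h2t
    obtain ⟨g, hg1, hg2⟩ := h2t hab hxv
    have h := comp_mem W hm g.2
    have e : (fun u => (Pi.single x (1 : K) - Pi.single v 1 : α → K) ((g : Equiv.Perm α) u))
        = (Pi.single a (1 : K) - Pi.single b 1 : α → K) := by
      funext u
      have g1 : (g : Equiv.Perm α) a = x := hg1
      have g2 : (g : Equiv.Perm α) b = v := hg2
      simp only [Pi.sub_apply, Pi.single_apply]
      have i1 : ((g : Equiv.Perm α) u = x) ↔ (u = a) := by
        rw [← g1]
        exact (g : Equiv.Perm α).injective.eq_iff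
      have i2 : ((g : Equiv.Perm α) u = v) ↔ (u = b) := by
        rw [← g2]
        exact (g : Equiv.Perm α).injective.eq_iff
      simp only [i1, i2]
    rwa [e] at h
  intro s hs
  have hs' : ∑ u, s u = 0 := hs
  have e : s = ∑ u, (s u) • (Pi.single u (1 : K) - Pi.single x 1 : α → K) := by
    funext w
    rw [Finset.sum_apply]
    simp only [Pi.smul_apply, Pi.sub_apply, smul_eq_mul, mul_sub, Finset.sum_sub_distrib]
    rw [← Finset.sum_mul, hs', zero_mul, sub_zero]
    rw [Finset.sum_eq_single w]
    · simp
    · intro b _ hb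
      simp [Ne.symm hb]
    · simp
  rw [e]
  exact W.toSubmodule.sum_mem (fun u _ => W.toSubmodule.smul_mem _ (hall u x))

end

/-- Over any field, the permutation module of the alternating group of degree at least 5 has exactly four invariant subspaces: zero, the constant functions, the functions with coordinate sum zero, and everything. -/
theorem result {α : Type*} [Fintype α] [DecidableEq α] (hα : 5 ≤ Fintype.card α) {K : Type*} [Field K] (W : Subrepresentation (Cfsg.permRep K (alternatingGroup α) α)) : W.toSubmodule = ⊥ ∨ W = Cfsg.permConstants K (alternatingGroup α) α ∨ W = Cfsg.permSumZero K (alternatingGroup α) α ∨ W.toSubmodule = ⊤ := by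
  classical
  by_cases hc : ∀ f ∈ W.toSubmodule, ∀ x y, f x = f y
  · have hne : Nonempty α := Fintype.card_pos_iff.mp (by omega)
    obtain ⟨x0⟩ := hne
    by_cases hb : W.toSubmodule = ⊥
    · exact Or.inl hb
    · right; left
      apply Subrepresentation.toSubmodule_injective
      obtain ⟨f, hf, hf0⟩ := W.toSubmodule.exists_mem_ne_zero_of_ne_bot hb
      change W.toSubmodule = Submodule.span K {fun _ => 1}
      apply le_antisymm
      · intro g hg
        rw [Submodule.mem_span_singleton]
        refine ⟨g x0, funext fun u => ?_⟩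
        simp [hc g hg x0 u]
      · rw [Submodule.span_le, Set.singleton_subset_iff]
        have hfx : f x0 ≠ 0 := by
          intro h
          apply hf0
          funext u
          rw [hc f hf u x0, h]
          rfl
        have : (fun _ => (1 : K) : α → K) = (f x0)⁻¹ • f := by
          funext u
          simp only [Pi.smul_apply, smul_eq_mul]
          rw [hc f hf u x0, inv_mul_cancel₀ hfx]
        rw [this]
        exact W.toSubmodule.smul_mem _ hf
  · push_neg at hc
    obtain ⟨f, hf, x, y, hxy⟩ := hc
    have hle := sumZero_le hα W hf hxy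
    by_cases hs : W.toSubmodule ≤ (Cfsg.permSumZero K (alternatingGroup α) α).toSubmodule
    · right; right; left
      exact Subrepresentation.toSubmodule_injective (le_antisymm hs hle)
    · right; right; right
      rw [SetLike.not_le_iff_exists] at hs
      obtain ⟨g, hg, hg0⟩ := hs
      have hg0' : ∑ u, g u ≠ 0 := hg0
      rw [eq_top_iff]
      intro s _
      have : s - ((∑ u, s u) / (∑ u, g u)) • g ∈ W.toSubmodule := by
        apply hle
        change ∑ u, (s - ((∑ u, s u) / (∑ u, g u)) • g) u = 0
        simp only [Pi.sub_apply, Pi.smul_apply, smul_eq_mul, Finset.sum_sub_distrib]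
        rw [← Finset.mul_sum, div_mul_cancel₀ _ hg0', sub_self]
      have h2 := W.toSubmodule.add_mem this (W.toSubmodule.smul_mem ((∑ u, s u) / (∑ u, g u)) hg)
      rwa [sub_add_cancel] at h2

end Cfsg.Agent.S0714
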