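import Cfsg.Statements.S0717
import Cfsg.Agent.LibPermAlg20d

set_option autoImplicit false
set_option linter.all false
open Cfsg

namespace Cfsg.Agent.S0717

/-- All suborbits of a transitive group are self-paired (every pair of points is interchanged by some group element) if and only if the permutation character is multiplicity-free and each of its irreducible constituents is real-valued. -/
theorem result {G : Type*} [Group G] [Fintype G] {Ω : Type*} [Fintype Ω] [MulAction G Ω] [MulAction.IsPretransitive G Ω] : (∀ a b : Ω, ∃ g : G, g • a = b ∧ g • b = a) ↔ ∀ χ : G → ℂ, Cfsg.IsIrrCharacter G χ → Cfsg.classInner (fun g : G => (Nat.card (MulAction.fixedBy Ω g) : ℂ)) χ ≠ 0 → Cfsg.classInner (fun g : G => (Nat.card (MulAction.fixedBy Ω g) : ℂ)) χ = 1 ∧ ∀ g : G, (starRingEnd ℂ) (χ g) = χ g := by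
  constructor
  · intro hsp χ hχ hne
    rcases CfsgLib.PermAlg20.selfpaired_mf (G := G) hsp ⟨χ, hχ⟩ with h | h
    · exact absurd h hne
    · exact h
  · intro h a b
    apply CfsgLib.PermAlg20.mf_selfpaired (G := G)
    intro χ
    by_cases h0 : Cfsg.classInner (CfsgLib.PermAlg20.pic G Ω) (χ : G → ℂ) = 0
    · exact Or.inl h0
    · exact Or.inr (h (χ : G → ℂ) χ.2 h0)

end Cfsg.Agent.S0717
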