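import Cfsg.Statements.S0718
import Cfsg.Agent.LibPermAlg20d

set_option autoImplicit false
set_option linter.all false
open Cfsg

namespace Cfsg.Agent.S0718

/-- Multiplicity-freeness of the permutation character is equivalent to commutativity of the centraliser ring, i.e. of the algebra of `G`-equivariant endomorphisms of the complex permutation module. -/
theorem result {G : Type*} [Group G] [Fintype G] {Ω : Type*} [Fintype Ω] [MulAction G Ω] : (∀ χ : G → ℂ, Cfsg.IsIrrCharacter G χ → Cfsg.classInner (fun g : G => (Nat.card (MulAction.fixedBy Ω g) : ℂ)) χ = 0 ∨ Cfsg.classInner (fun g : G => (Nat.card (MulAction.fixedBy Ω g) : ℂ)) χ = 1) ↔ ∀ S T : (Ω → ℂ) →ₗ[ℂ] (Ω → ℂ), S ∈ ((Cfsg.permRep ℂ G Ω).linHom (Cfsg.permRep ℂ G Ω)).invariants → T ∈ ((Cfsg.permRep ℂ G Ω).linHom (Cfsg.permRep ℂ G Ω)).invariants → S ∘ₗ T = T ∘ₗ S := by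
  have hinv : ∀ S : (Ω → ℂ) →ₗ[ℂ] (Ω → ℂ), S ∈ ((Cfsg.permRep ℂ G Ω).linHom (Cfsg.permRep ℂ G Ω)).invariants ↔
      ∀ g : G, Commute (S : Module.End ℂ (Ω → ℂ)) (Cfsg.permRep ℂ G Ω g) := by
    intro S
    rw [Representation.mem_invariants]
    constructor
    · intro h g
      have h1 := h g
      rw [Representation.linHom_apply] at h1
      show S ∘ₗ Cfsg.permRep ℂ G Ω g = Cfsg.permRep ℂ G Ω g ∘ₗ S
      apply LinearMap.ext
      intro v
      have h2 := LinearMap.congr_fun h1 (Cfsg.permRep ℂ G Ω g v)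
      have h3 : Cfsg.permRep ℂ G Ω g⁻¹ (Cfsg.permRep ℂ G Ω g v) = v := by
        rw [← Module.End.mul_apply, ← map_mul]; simp
      simp only [LinearMap.comp_apply] at h2 ⊢
      rw [h3] at h2
      exact h2.symm
    · intro h g
      rw [Representation.linHom_apply]
      apply LinearMap.ext
      intro v
      simp only [LinearMap.comp_apply]
      have h2 := LinearMap.congr_fun (h g).eq (Cfsg.permRep ℂ G Ω g⁻¹ v)
      have h3 : Cfsg.permRep ℂ G Ω g (Cfsg.permRep ℂ G Ω g⁻¹ v) = v := by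
        rw [← Module.End.mul_apply, ← map_mul]; simp
      have h4 : (S * Cfsg.permRep ℂ G Ω g) (Cfsg.permRep ℂ G Ω g⁻¹ v) = S (Cfsg.permRep ℂ G Ω g (Cfsg.permRep ℂ G Ω g⁻¹ v)) := rfl
      rw [h4, h3] at h2
      exact h2.symm
  constructor
  · intro hmf S T hS hT
    rw [hinv] at hS hT
    exact CfsgLib.PermAlg20.mf_comm (Cfsg.permRep ℂ G Ω) (fun χ => by
      rw [CfsgLib.PermAlg20.perm_char_eq]; exact hmf χ χ.2) hS hT
  · intro h χ hχ
    have h1 := CfsgLib.PermAlg20.comm_mf (Cfsg.permRep ℂ G Ω) (fun S T hS hT => h S T ((hinv S).mpr hS) ((hinv T).mpr hT)) ⟨χ, hχ⟩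
    rw [CfsgLib.PermAlg20.perm_char_eq] at h1
    exact h1

end Cfsg.Agent.S0718
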