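import Cfsg.Statements.S0722
import Mathlib

-- import your own Cfsg.Agent.* helpers here

set_option autoImplicit false
open Cfsg

namespace Cfsg.Agent.S0722

open scoped Pointwise

/-- In a primitive group `H`, with `N` a minimal normal subgroup and `K` a point stabiliser, `K ⊓ N` is maximal among proper `K`-invariant subgroups of `N`. -/
theorem result {α : Type*} [Finite α] (H : Subgroup (Equiv.Perm α)) [MulAction.IsPreprimitive H α] (N : Subgroup H) [N.Normal] (hN : N ≠ ⊥) (hmin : ∀ M : Subgroup H, M.Normal → M ≤ N → M = ⊥ ∨ M = N) (a : α) (X : Subgroup H) (hX : X ≤ N) (hKX : MulAction.stabilizer H a ⊓ N ≤ X) (hinv : MulAction.stabilizer H a ≤ Subgroup.normalizer (X : Set H)) : X = MulAction.stabilizer H a ⊓ N ∨ X = N := by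
  classical
  have hnt : Nontrivial α := by
    rw [← not_subsingleton_iff_nontrivial]
    intro hs
    apply hN
    rw [eq_bot_iff]
    intro n _
    rw [Subgroup.mem_bot]
    ext x
    exact Subsingleton.elim _ _
  have hco := (MulAction.isCoatom_stabilizer_iff_preprimitive H a).mpr inferInstance
  by_cases hK : X ≤ MulAction.stabilizer H a
  · left
    exact le_antisymm (le_inf hK hX) hKX
  · right
    have hlt : MulAction.stabilizer H a < MulAction.stabilizer H a ⊔ X := by
      rw [lt_iff_le_and_ne]
      refine ⟨le_sup_left, fun h => hK ?_⟩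
      rw [h]; exact le_sup_right
    have htop := hco.2 _ hlt
    apply le_antisymm hX
    intro n hn
    have hn' : n ∈ MulAction.stabilizer H a ⊔ X := by rw [htop]; trivial
    have hset := Subgroup.coe_mul_of_left_le_normalizer_right (MulAction.stabilizer H a) X hinv
    have hn2 : n ∈ ((MulAction.stabilizer H a : Subgroup H) : Set H) * (X : Set H) := by
      rw [← hset]; exact hn'
    obtain ⟨k, hk, x, hx, hkx⟩ := hn2
    have hkx' : k * x = n := hkx
    have hk2 : k = n * x⁻¹ := by rw [← hkx']; group
    have hkN : k ∈ N := by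
      rw [hk2]; exact N.mul_mem hn (N.inv_mem (hX hx))
    rw [← hkx']
    exact X.mul_mem (hKX ⟨hk, hkN⟩) hx

end Cfsg.Agent.S0722
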