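import Cfsg.Statements.S0723
import Mathlib
import Cfsg.Agent.LibPowAutB29
import Cfsg.Agent.S0721

set_option autoImplicit false
open Cfsg

namespace Cfsg.Agent.S0723

open MulAction CfsgLib.SolvMin CfsgLib.H14Prim CfsgLib.PowAut29

/-- The core of the O'Nan–Scott Theorem. Let `H` be a primitive permutation group on a finite set whose unique minimal normal subgroup `N` is non-abelian, and `K` a point stabiliser. Then there are a non-abelian simple group `T` and an isomorphism `N ≃* T^m` (`m ≥ 1`) under which `K ⊓ N` becomes either a product `∏ K_i` of proper subgroups `K_i < T`, or the set of functions constant on each block of a partition of the index set into blocks of one common size `k ≥ 2`. -/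
theorem result {α : Type*} [Finite α] (H : Subgroup (Equiv.Perm α)) [MulAction.IsPreprimitive H α] (N : Subgroup H) [N.Normal] (hN : N ≠ ⊥) (hmin : ∀ M : Subgroup H, M.Normal → M ≤ N → M = ⊥ ∨ M = N) (huniq : ∀ L : Subgroup H, L.Normal → L ≠ ⊥ → (∀ M : Subgroup H, M.Normal → M ≤ L → M = ⊥ ∨ M = L) → L = N) (hnab : ¬ IsMulCommutative N) (a : α) : ∃ (T : Type) (_ : Group T) (m : ℕ) (e : N ≃* (Fin m → T)), IsSimpleGroup T ∧ ¬ IsMulCommutative T ∧ 0 < m ∧ ((∃ K : Fin m → Subgroup T, (∀ i, K i ≠ ⊤) ∧ ∀ n : N, (n : H) ∈ MulAction.stabilizer H a ↔ ∀ i, e n i ∈ K i) ∨ (∃ (k : ℕ) (c : Fin m → Fin m), 2 ≤ k ∧ (∀ j : Fin m, Nat.card {i : Fin m // c i = j} = k ∨ Nat.card {i : Fin m // c i = j} = 0) ∧ ∀ n : N, (n : H) ∈ MulAction.stabilizer H a ↔ ∀ i j : Fin m, c i = c j → e n i = e n j)) := by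
  classical
  have hmn : IsMinNormal N := ⟨inferInstance, hN, fun M' h1 h2 => hmin M' h1 h2⟩
  haveI : Finite (Equiv.Perm α) := inferInstance
  have htr : IsPretransitive N α := normal_transitive inferInstance N hN
  obtain ⟨T, hTg, k, hTs, hk, ⟨e⟩⟩ := Cfsg.Agent.S0721.result N hN hmin
  haveI : Finite (Fin k → T) := Finite.of_equiv N e.toEquiv
  haveI : Finite T := Finite.of_injective (fun t => (fun _ : Fin k => t)) (fun a b h => congrFun h ⟨0, hk⟩)
  have hT : ¬ IsMulCommutative T := by
    intro hc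
    apply hnab
    refine ⟨⟨fun a b => ?_⟩⟩
    apply e.injective
    rw [map_mul, map_mul]
    funext i
    exact hc.is_comm.comm _ _
  obtain ⟨t₀, ht₀⟩ := exists_ne (1 : T)
  haveI : Nontrivial α := by
    by_contra hcon
    rw [not_nontrivial_iff_subsingleton] at hcon
    apply hN
    rw [eq_bot_iff]
    intro x _
    rw [Subgroup.mem_bot]
    apply Subtype.ext
    exact Subsingleton.elim _ _
  set K := stabilizer H a with hK
  have hKco : IsCoatom K := (isCoatom_stabilizer_iff_preprimitive H a).mpr inferInstance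
  have hfac : ∀ g : H, ∃ n ∈ N, ∃ b ∈ K, g = n * b := by
    intro g
    obtain ⟨n, hn⟩ := htr.exists_smul_eq a (g • a)
    refine ⟨n, n.2, (n : H)⁻¹ * g, ?_, by simp⟩
    rw [hK, mem_stabilizer_iff, mul_smul, ← hn]
    exact inv_smul_smul (n : H) a
  obtain ⟨π, hπ⟩ := exists_pi hT N e
  have hπN : ∀ n ∈ N, π n = 1 := fun n hn => pi_N N e π hπ hn
  let M : Subgroup (Fin k → T) := K.comap (N.subtype.comp e.symm.toMonoidHom)
  have hM : ∀ x, x ∈ M ↔ E N e x ∈ K := fun x => Iff.rfl
  have hMe : ∀ n : N, (n : H) ∈ K ↔ e n ∈ M := by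
    intro n
    rw [hM]; simp only [E, MulEquiv.symm_apply_apply]
  have hMtop : M ≠ ⊤ := by
    intro h
    obtain ⟨b, hb⟩ := exists_ne a
    obtain ⟨n, hn⟩ := htr.exists_smul_eq a b
    have h1 : e n ∈ M := by rw [h]; trivial
    rw [← hMe] at h1
    apply hb
    rw [← hn]; exact h1
  have hHM : ∀ h ∈ K, ∀ x ∈ M, cj N e h x ∈ M := by
    intro h hh x hx
    rw [hM, ← conj_E]
    exact K.mul_mem (K.mul_mem hh hx) (K.inv_mem hh)
  have htrH : ∀ i j, ∃ h ∈ K, π h i = j := by
    intro i j
    obtain ⟨g, hg⟩ := pi_trans N e hmn π hπ i j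
    obtain ⟨n, hn, b, hb, rfl⟩ := hfac g
    refine ⟨b, hb, ?_⟩
    rw [map_mul, hπN n hn, one_mul] at hg
    exact hg
  by_cases hMbot : M = ⊥
  · refine ⟨T, hTg, k, e, hTs, hT, hk, Or.inl ⟨fun _ => ⊥, fun i => bot_ne_top, fun n => ?_⟩⟩
    rw [hMe, hMbot, Subgroup.mem_bot]
    constructor
    · intro h i; rw [h]; exact Subgroup.one_mem _
    · intro h; funext i; exact Subgroup.mem_bot.mp (h i)
  let X : Subgroup H :=
    { carrier := {n | ∃ x, E N e x = n ∧ ∀ i, ∃ m ∈ M, m i = x i}
      mul_mem' := by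
        rintro _ _ ⟨x, rfl, hx⟩ ⟨y, rfl, hy⟩
        refine ⟨x * y, E_mul N e x y, fun i => ?_⟩
        obtain ⟨m, hm, hmi⟩ := hx i
        obtain ⟨m', hm', hmi'⟩ := hy i
        exact ⟨m * m', M.mul_mem hm hm', by rw [Pi.mul_apply, hmi, hmi']; rfl⟩
      one_mem' := ⟨1, E_one N e, fun i => ⟨1, M.one_mem, rfl⟩⟩
      inv_mem' := by
        rintro _ ⟨x, rfl, hx⟩
        refine ⟨x⁻¹, E_inv N e x, fun i => ?_⟩
        obtain ⟨m, hm, hmi⟩ := hx i
        exact ⟨m⁻¹, M.inv_mem hm, by rw [Pi.inv_apply, hmi]; rfl⟩ }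
  have hdich := inv_dichotomy K N X hKco (by rintro _ ⟨x, rfl, _⟩; exact E_mem N e x) (by
    rintro n ⟨hn, hn'⟩
    obtain ⟨x, rfl⟩ := E_surj N e hn
    exact ⟨x, rfl, fun i => ⟨x, hn', rfl⟩⟩) (by
    rintro h hh _ ⟨x, rfl, hx⟩
    refine ⟨cj N e h x, (conj_E N e h x).symm, fun i => ?_⟩
    obtain ⟨ψ, _, hψ⟩ := hπ h ((π h)⁻¹ i)
    have h3 : π h ((π h)⁻¹ i) = i := by simp
    rw [h3] at hψ
    obtain ⟨m, hm, hmi⟩ := hx ((π h)⁻¹ i)
    exact ⟨cj N e h m, hHM h hh m hm, by rw [hψ, hψ, hmi]⟩)
  rcases hdich with hX | hX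
  · -- product case
    refine ⟨T, hTg, k, e, hTs, hT, hk, Or.inl ⟨fun i => M.map (Pi.evalMonoidHom (fun _ => T) i), ?_, fun n => ?_⟩⟩
    · intro i hi
      apply hMtop
      have hall : ∀ j t, ∃ m ∈ M, m j = t := by
        intro j t
        obtain ⟨h, hh, hhi⟩ := htrH i j
        obtain ⟨ψ, hψi, hψ⟩ := hπ h i
        rw [hhi] at hψ
        obtain ⟨s, hs⟩ := (Finite.surjective_of_injective hψi) t
        have hi' : M.map (Pi.evalMonoidHom (fun _ => T) i) = ⊤ := hi
        have : s ∈ M.map (Pi.evalMonoidHom (fun _ => T) i) := by rw [hi']; trivial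
        obtain ⟨m, hm, hms⟩ := this
        refine ⟨cj N e h m, hHM h hh m hm, ?_⟩
        rw [hψ]
        have : m i = s := hms
        rw [this, hs]
      rw [eq_top_iff]
      intro x _
      rw [hM]
      have : E N e x ∈ X := ⟨x, rfl, fun j => hall j (x j)⟩
      rw [hX] at this
      exact this.2
    · rw [hMe]
      constructor
      · intro h i
        exact ⟨e n, h, rfl⟩
      · intro h
        have : E N e (e n) ∈ X := ⟨e n, rfl, fun j => by
          obtain ⟨m, hm, hmj⟩ := h j
          exact ⟨m, hm, hmj⟩⟩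
        rw [hX] at this
        exact this.2
  · -- diagonal case
    have hfull : ∀ i t, ∃ x ∈ M, x i = t := by
      intro i t
      have : E N e (Pi.mulSingle i t) ∈ X := by rw [hX]; exact E_mem N e _
      obtain ⟨x, hx, hx'⟩ := this
      obtain ⟨m, hm, hmi⟩ := hx' i
      refine ⟨m, hm, ?_⟩
      rw [hmi, E_inj N e hx, Pi.mulSingle_eq_same]
    have h1 : ∀ j, ∀ x ∈ M, (∀ l, l ≠ j → x l = 1) → x = 1 := by
      intro j x hx hxs
      by_contra hx1
      have hxj : x j ≠ 1 := by
        intro h
        apply hx1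
        funext l
        by_cases hl : l = j
        · rw [hl, h]; rfl
        · exact hxs l hl
      -- T_j ≤ M
      let S : Subgroup T := M.comap (MonoidHom.mulSingle (fun _ : Fin k => T) j)
      have hTj : ∀ t, (Pi.mulSingle j t : Fin k → T) ∈ M := by
        intro t
        refine all_of_normal S ?_ (s := x j) ?_ hxj t
        · intro t s hs
          obtain ⟨m, hm, hmt⟩ := hfull j t
          have h2 : m * Pi.mulSingle j s * m⁻¹ = Pi.mulSingle j (t * s * t⁻¹) := by
            funext l
            by_cases hl : l = j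
            · subst hl; simp [hmt]
            · simp [Pi.mulSingle_eq_of_ne hl]
          show Pi.mulSingle j (t * s * t⁻¹) ∈ M
          rw [← h2]
          exact M.mul_mem (M.mul_mem hm hs) (M.inv_mem hm)
        · show Pi.mulSingle j (x j) ∈ M
          have : (Pi.mulSingle j (x j) : Fin k → T) = x := by
            funext l
            by_cases hl : l = j
            · subst hl; simp
            · rw [Pi.mulSingle_eq_of_ne hl, hxs l hl]
          rw [this]; exact hx
      have hTall : ∀ i t, (Pi.mulSingle i t : Fin k → T) ∈ M := by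
        intro i t
        obtain ⟨h, hh, hhi⟩ := htrH j i
        obtain ⟨ψ, hψi, hψ⟩ := hπ h j
        rw [hhi] at hψ
        obtain ⟨s, hs⟩ := (Finite.surjective_of_injective hψi) t
        have h2 := hHM h hh _ (hTj s)
        have h3 : cj N e h (Pi.mulSingle j s) = Pi.mulSingle i t := by
          funext l
          by_cases hl : l = i
          · rw [hl, hψ, Pi.mulSingle_eq_same, Pi.mulSingle_eq_same, hs]
          · rw [Pi.mulSingle_eq_of_ne hl]
            obtain ⟨ψ', _, hψ'⟩ := hπ h ((π h)⁻¹ l)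
            have h3 : π h ((π h)⁻¹ l) = l := by simp
            rw [h3] at hψ'
            rw [hψ', Pi.mulSingle_eq_of_ne, map_one]
            intro h4
            apply hl
            rw [← h3, h4, hhi]
        rwa [h3] at h2
      apply hMtop
      rw [eq_top_iff]
      intro y _
      apply Subgroup.pi_mem_of_mulSingle_mem
      intro i
      exact hTall i (y i)
    obtain ⟨c, φ, hcc, hφ1, hMiff, hc2⟩ := exists_diag hT M hfull h1
    -- the relation
    have hrel : ∀ i i', c i = c i' ↔ ∀ x ∈ M, x i = 1 ↔ x i' = 1 := by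
      intro i i'
      constructor
      · intro h x hx
        rw [(hMiff x).mp hx i, (hMiff x).mp hx i', h, map_eq_one_iff _ (φ i).injective, map_eq_one_iff _ (φ i').injective]
      · intro h
        by_contra hne
        let x : Fin k → T := fun l => if c l = c i then φ l t₀ else 1
        have hx : x ∈ M := by
          rw [hMiff]
          intro l
          simp only [x, hcc]
          split_ifs with h4
          · rw [hφ1 (c l) (hcc l)]; rfl
          · rw [map_one]
        have h3 : x i ≠ 1 := by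
          simp only [x, if_true]
          rw [Ne, map_eq_one_iff _ (φ i).injective]; exact ht₀
        have h4 : x i' = 1 := by
          simp only [x]
          rw [if_neg (fun h => hne h.symm)]
        exact h3 ((h x hx).mpr h4)
    have hperm : ∀ h ∈ K, ∀ i i', c i = c i' → c (π h i) = c (π h i') := by
      intro h hh i i' hii
      rw [hrel] at hii ⊢
      intro x hx
      -- pull back
      have hh' : h⁻¹ ∈ K := K.inv_mem hh
      have h5 := hii _ (hHM h⁻¹ hh' x hx)
      have key : ∀ l, (cj N e h⁻¹ x) l = 1 ↔ x (π h l) = 1 := by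
        intro l
        obtain ⟨ψ, hψi, hψ⟩ := hπ h⁻¹ (π h l)
        have h6 : π h⁻¹ (π h l) = l := by rw [map_inv]; simp
        rw [h6] at hψ
        rw [hψ, map_eq_one_iff _ hψi]
      rw [key, key] at h5
      exact h5
    let k' := Nat.card {i : Fin k // c i = c ⟨0, hk⟩}
    let e' : N ≃* (Fin k → T) := e.trans (MulEquiv.piCongrRight (fun i => (φ i).symm))
    have he' : ∀ n i, e' n i = (φ i).symm (e n i) := fun n i => rfl
    refine ⟨T, hTg, k, e', hTs, hT, hk, Or.inr ⟨k', c, ?_, ?_, ?_⟩⟩
    · obtain ⟨i', hi', hci'⟩ := hc2 ⟨0, hk⟩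
      have : Nontrivial {i : Fin k // c i = c ⟨0, hk⟩} :=
        ⟨⟨⟨c ⟨0, hk⟩, hcc _⟩, ⟨i', hci'⟩, fun h => hi' (congrArg Subtype.val h).symm⟩⟩
      exact Finite.one_lt_card_iff_nontrivial.mpr this
    · intro j
      by_cases hj : ∃ i, c i = j
      · left
        obtain ⟨i, rfl⟩ := hj
        obtain ⟨h, hh, hhi⟩ := htrH ⟨0, hk⟩ i
        apply Nat.card_congr
        refine Equiv.symm ((π h).subtypeEquiv ?_)
        intro l
        constructor
        · intro hl
          rw [hperm h hh l ⟨0, hk⟩ hl, hhi]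
        · intro hl
          rw [← hhi] at hl
          have h6 := hperm h⁻¹ (K.inv_mem hh) _ _ hl
          rw [map_inv] at h6
          simpa using h6
      · right
        push Not at hj
        rw [Nat.card_eq_zero]
        left
        exact ⟨fun x => hj x.1 x.2⟩
    · intro n
      rw [hMe, hMiff]
      constructor
      · intro h i j hij
        rw [he', he', MulEquiv.symm_apply_eq]
        have h2 := h i
        have h3 := h j
        rw [h2, hij]
        congr 1
        rw [MulEquiv.eq_symm_apply]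
        exact h3.symm
      · intro h i
        have h2 := h i (c i) (by rw [hcc])
        rw [he', he', hφ1 (c i) (hcc i)] at h2
        have h3 : (φ i).symm (e n i) = e n (c i) := h2
        rw [← h3, MulEquiv.apply_symm_apply]

end Cfsg.Agent.S0723
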