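import Cfsg.Statements.S0724
import Mathlib

-- import your own Cfsg.Agent.* helpers here

set_option autoImplicit false
open Cfsg

namespace Cfsg.Agent.S0724

open MulAction in
theorem card_fixed_pow {α : Type*} [Fintype α] [DecidableEq α] (G : Subgroup (Equiv.Perm α)) [Fintype G] (k : ℕ) :
    (Nat.card G : ℤ) ∣ ∑ g : G, (Nat.card (fixedBy α (g : Equiv.Perm α)) : ℤ) ^ k := by
  classical
  -- Burnside's lemma for the action on Fin k → α
  have h := MulAction.sum_card_fixedBy_eq_card_orbits_mul_card_group G (Fin k → α)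
  have h2 : ∀ g : G, Fintype.card (fixedBy (Fin k → α) g) = (Nat.card (fixedBy α (g : Equiv.Perm α))) ^ k := by
    intro g
    have e : fixedBy (Fin k → α) g ≃ (Fin k → fixedBy α (g : Equiv.Perm α)) :=
      { toFun := fun x i => ⟨x.1 i, congrFun x.2 i⟩
        invFun := fun y => ⟨fun i => (y i : α), funext fun i => (y i).2⟩
        left_inv := fun x => rfl
        right_inv := fun y => rfl }
    rw [Fintype.card_congr e, Fintype.card_fun, Fintype.card_fin, Nat.card_eq_fintype_card]
  have h3 : (∑ g : G, (Nat.card (fixedBy α (g : Equiv.Perm α)) : ℤ) ^ k) =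
      ((Fintype.card (Quotient (orbitRel G (Fin k → α))) * Fintype.card G : ℕ) : ℤ) := by
    rw [← h]
    push_cast
    apply Finset.sum_congr rfl
    intro g _
    rw [h2]
    push_cast
    rfl
  rw [h3, Nat.card_eq_fintype_card]
  push_cast
  exact Dvd.intro_left _ rfl

open Polynomial in
theorem card_dvd_sum_eval {α : Type*} [Fintype α] [DecidableEq α] (G : Subgroup (Equiv.Perm α)) [Fintype G] (f : ℤ[X]) :
    (Nat.card G : ℤ) ∣ ∑ g : G, f.eval (Nat.card (MulAction.fixedBy α (g : Equiv.Perm α)) : ℤ) := by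
  induction f using Polynomial.induction_on' with
  | add p q hp hq =>
    simp only [eval_add, Finset.sum_add_distrib]
    exact dvd_add hp hq
  | monomial n a =>
    simp only [eval_monomial, ← Finset.mul_sum]
    exact Dvd.dvd.mul_left (card_fixed_pow G n) a

/-- Blichfeldt's Theorem: if a finite set `L` of natural numbers contains the number of fixed points of every non-identity element of a permutation group `G` of degree `n`, then the order of `G` divides `∏ (n - l)` over `l ∈ L`. -/
theorem result {α : Type*} [Fintype α] [DecidableEq α] (G : Subgroup (Equiv.Perm α)) (L : Finset ℕ) (hL : ∀ g ∈ G, g ≠ 1 → Nat.card (MulAction.fixedBy α g) ∈ L) : Nat.card G ∣ ∏ l ∈ L, (Fintype.card α - l) := by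
  classical
  haveI : Fintype G := Fintype.ofFinite G
  by_cases hbig : ∃ l ∈ L, Fintype.card α ≤ l
  · obtain ⟨l, hl, hle⟩ := hbig
    rw [Finset.prod_eq_zero hl (by omega)]
    exact dvd_zero _
  push Not at hbig
  have h := card_dvd_sum_eval G (∏ l ∈ L, (Polynomial.X - Polynomial.C (l : ℤ)))
  have h1 : ∀ g : G, g ≠ 1 → (∏ l ∈ L, (Polynomial.X - Polynomial.C (l : ℤ))).eval (Nat.card (MulAction.fixedBy α (g : Equiv.Perm α)) : ℤ) = 0 := by
    intro g hg
    rw [Polynomial.eval_prod]
    apply Finset.prod_eq_zero (hL g g.2 (fun h => hg (Subtype.ext h)))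
    simp
  rw [Finset.sum_eq_single (1 : G) (fun g _ hg => h1 g hg) (by simp)] at h
  rw [Polynomial.eval_prod] at h
  have h2 : Nat.card (MulAction.fixedBy α ((1 : G) : Equiv.Perm α)) = Fintype.card α := by
    rw [Nat.card_eq_fintype_card]
    apply Fintype.card_congr
    refine ⟨fun x => x.1, fun x => ⟨x, by simp [MulAction.mem_fixedBy]⟩, fun x => rfl, fun x => rfl⟩
  rw [h2] at h
  have h3 : ((∏ l ∈ L, (Fintype.card α - l) : ℕ) : ℤ) = ∏ l ∈ L, (Polynomial.X - Polynomial.C (l : ℤ)).eval (Fintype.card α : ℤ) := by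
    rw [Nat.cast_prod]
    apply Finset.prod_congr rfl
    intro l hl
    rw [Nat.cast_sub (hbig l hl).le]
    simp
  rw [← h3] at h
  exact_mod_cast h

end Cfsg.Agent.S0724
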