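import Cfsg.Statements.S0726
import Mathlib

-- import your own Cfsg.Agent.* helpers here

set_option autoImplicit false
open Cfsg

namespace Cfsg.Agent.S0726



/-- The left and right regular permutation representations of a group are each other's centralisers in the symmetric group: the centraliser of the left regular image is the right regular image, and a transitive subgroup centralising the left regular image is the whole right regular image. -/
theorem result {G : Type*} [Group G] : Subgroup.centralizer ((MulAction.toPermHom G G).range : Set (Equiv.Perm G)) = (MulAction.toPermHom Gᵐᵒᵖ G).range ∧ ∀ H : Subgroup (Equiv.Perm G), H ≤ Subgroup.centralizer ((MulAction.toPermHom G G).range : Set (Equiv.Perm G)) → MulAction.IsPretransitive H G → H = (MulAction.toPermHom Gᵐᵒᵖ G).range := by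
  have key : ∀ c ∈ Subgroup.centralizer ((MulAction.toPermHom G G).range : Set (Equiv.Perm G)), ∀ x : G, c x = x * c 1 := by
    intro c hc x
    have h1 := Subgroup.mem_centralizer_iff.mp hc (MulAction.toPermHom G G x) ⟨x, rfl⟩
    have h2 := congrArg (fun e : Equiv.Perm G => e 1) h1
    simp only [Equiv.Perm.coe_mul, Function.comp_apply, MulAction.toPermHom_apply, MulAction.toPerm_apply, smul_eq_mul, mul_one] at h2
    exact h2.symm
  constructor
  · ext c
    constructor
    · intro hc
      refine ⟨MulOpposite.op (c 1), ?_⟩
      ext x
      rw [key c hc x]
      simp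
    · rintro ⟨y, rfl⟩
      rw [Subgroup.mem_centralizer_iff]
      rintro _ ⟨x, rfl⟩
      ext z
      simp [mul_assoc]
  · intro H hH htr
    ext c
    constructor
    · intro hc
      refine ⟨MulOpposite.op (c 1), ?_⟩
      ext x
      rw [key c (hH hc) x]
      simp
    · rintro ⟨y, rfl⟩
      obtain ⟨h, hh⟩ := htr.exists_smul_eq (1 : G) y.unop
      have hh' : (h : Equiv.Perm G) 1 = y.unop := hh
      have : (h : Equiv.Perm G) = MulAction.toPermHom Gᵐᵒᵖ G y := by
        ext x
        rw [key h (hH h.2) x, hh']
        simp
      rw [← this]
      exact h.2

end Cfsg.Agent.S0726
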