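import Cfsg.Statements.S0728
import Mathlib
import Cfsg.Agent.S0741
-- import your own Cfsg.Agent.* helpers here

set_option autoImplicit false
open Cfsg

namespace Cfsg.Agent.S0728

open MulAction Cfsg.Agent.LibZG1

theorem eq_one_of_fix {G Ω : Type*} [Group G] [MulAction G Ω]
    (hsharp : ∀ x : Fin 3 ↪ Ω, MulAction.stabilizer G x = ⊥)
    (g : G) (a b c : Ω) (hab : a ≠ b) (hbc : b ≠ c) (hac : a ≠ c) (h1 : g • a = a) (h2 : g • b = b)
    (h3 : g • c = c) : g = 1 := by
  have hinj : Function.Injective ![a, b, c] := by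
    intro i j hij
    fin_cases i <;> fin_cases j <;> simp at hij ⊢ <;>
      first
        | exact hab hij
        | exact hab hij.symm
        | exact hbc hij
        | exact hbc hij.symm
        | exact hac hij
        | exact hac hij.symm
  have hmem : g ∈ MulAction.stabilizer G (⟨![a, b, c], hinj⟩ : Fin 3 ↪ Ω) := by
    rw [MulAction.mem_stabilizer_iff]
    ext i
    fin_cases i
    · exact h1
    · exact h2
    · exact h3
  rw [hsharp, Subgroup.mem_bot] at hmem
  exact hmem

theorem count_three {G Ω : Type*} [Group G] [Finite G] [MulAction G Ω] [Fintype Ω]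
    (hn : 3 ≤ Fintype.card Ω)
    (h2 : IsMultiplyPretransitive G Ω 2)
    (hfix3 : ∀ g : G, ∀ a b c : Ω, a ≠ b → b ≠ c → a ≠ c → g • a = a → g • b = b → g • c = c → g = 1)
    {a b : Ω} (hab : a ≠ b) (A : Subgroup G) (hA : A ≤ stabilizer G a ⊓ stabilizer G b)
    (hA3 : Nat.card A = 3) :
    Nat.card {t : G // orderOf t = 3 ∧ (t • a = a ∧ t • b = b)} ≤ 2 := by
  classical
  have hp3 : Fact (Nat.Prime 3) := ⟨Nat.prime_three⟩
  have h31 : ∀ t : G, orderOf t = 3 → t ≠ 1 := by
    rintro t ht rfl
    rw [orderOf_one] at ht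
    omega
  have hn3 : Fintype.card Ω ≡ 2 [MOD 3] := by
    obtain ⟨t0, ht0⟩ := exists_prime_orderOf_dvd_card' (G := A) 3 (by rw [hA3])
    have ht0' : orderOf (t0 : G) = 3 := by rw [← ht0]; exact Subgroup.orderOf_coe t0
    have hle := fixedBy_le_two hfix3 (t0 : G) (h31 _ ht0')
    have hge : 2 ≤ Nat.card (MulAction.fixedBy Ω (t0 : G)) := by
      rw [Nat.card_eq_fintype_card]
      have : 1 < Fintype.card (MulAction.fixedBy Ω (t0 : G)) :=
        Fintype.one_lt_card_iff.mpr ⟨⟨a, (hA t0.2).1⟩, ⟨b, (hA t0.2).2⟩, fun h => hab (congrArg Subtype.val h)⟩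
      omega
    have := fixedBy_mod (Ω := Ω) (p := 3) (t0 : G) (by rw [← ht0', pow_orderOf_eq_one])
    rwa [le_antisymm hle hge] at this
  have hfix : ∀ t : G, orderOf t = 3 → Nat.card (MulAction.fixedBy Ω t) = 2 := by
    intro t ht
    have hle := fixedBy_le_two hfix3 t (h31 _ ht)
    have := (fixedBy_mod (Ω := Ω) (p := 3) t (by rw [← ht, pow_orderOf_eq_one])).symm.trans hn3
    unfold Nat.ModEq at this
    omega
  let T : Set G := {t | orderOf t = 3}
  have hT : ∀ g : G, ∀ t ∈ T, g * t * g⁻¹ ∈ T := by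
    intro g t ht
    change orderOf (g * t * g⁻¹) = 3
    rw [orderOf_conj]
    exact ht
  have c1 := count_pairs h2 (fun t x y => t • x = x ∧ t • y = y) (by
    rintro g t x y ⟨h4, h5⟩
    simp only [mul_smul, inv_smul_smul, h4, h5, and_self]) T hT 2 (by
    intro t ht
    rw [card_fixed_pairs, hfix t ht]) hab
  have c2 := count_pairs h2 (fun t x y => t • x = y) (by
    intro g t x y h4
    simp only [mul_smul, inv_smul_smul, h4]) T hT (Fintype.card Ω - 2) (by
    intro t ht
    rw [S0741.card_moved_pairs, hfix t ht]) hab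
  have hN2 : Nat.card {t : G // t ∈ T ∧ t • a = b} ≤ Fintype.card Ω - 2 := by
    have hc : Fintype.card {x : Ω // x ∉ ({a, b} : Finset Ω)} = Fintype.card Ω - 2 := by
      rw [Fintype.card_subtype_compl]
      congr 1
      rw [Fintype.card_coe, Finset.card_pair hab]
    rw [← hc, ← Nat.card_eq_fintype_card]
    have key : ∀ t : G, t ∈ T → t • a = b → t • b ∉ ({a, b} : Finset Ω) ∧ t • (t • b) = a := by
      intro t ht hta
      have ht3 : t * (t * t) = 1 := by
        have := pow_orderOf_eq_one t
        rw [show orderOf t = 3 from ht, pow_succ, pow_two, mul_assoc] at this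
        exact this
      have h6 : t • (t • b) = a := by
        rw [← hta, ← mul_smul, ← mul_smul, mul_assoc, ht3, one_smul]
      refine ⟨?_, h6⟩
      intro hmem
      rw [Finset.mem_insert, Finset.mem_singleton] at hmem
      rcases hmem with h | h
      · rw [h, hta] at h6
        exact hab h6.symm
      · have : t • b = t • a := h.trans hta.symm
        exact hab (MulAction.injective t this).symm
    refine Nat.card_le_card_of_injective
      (fun t : {t : G // t ∈ T ∧ t • a = b} => (⟨(t : G) • b, (key t t.2.1 t.2.2).1⟩ :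
        {x : Ω // x ∉ ({a, b} : Finset Ω)})) ?_
    intro t t' h
    have h7 : (t : G) • b = (t' : G) • b := congrArg Subtype.val h
    have k1 := key t t.2.1 t.2.2
    have k2 := key t' t'.2.1 t'.2.2
    rw [Finset.mem_insert, Finset.mem_singleton, not_or] at k1 k2
    have h8 : (t' : G)⁻¹ * (t : G) = 1 := by
      apply hfix3 _ a b ((t : G) • b) hab (Ne.symm k1.1.2) (Ne.symm k1.1.1)
      · rw [mul_smul]; exact inv_smul_eq_iff.mpr (t.2.2.trans t'.2.2.symm)
      · rw [mul_smul]; exact inv_smul_eq_iff.mpr h7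
      · rw [mul_smul]; exact inv_smul_eq_iff.mpr (k1.2.trans (by rw [h7]; exact k2.2.symm))
    exact Subtype.ext (inv_mul_eq_one.mp h8).symm
  have hpos : 0 < Fintype.card Ω * (Fintype.card Ω - 1) * (Fintype.card Ω - 2) :=
    Nat.mul_pos (Nat.mul_pos (by omega) (by omega)) (by omega)
  apply Nat.le_of_mul_le_mul_left _ hpos
  calc Fintype.card Ω * (Fintype.card Ω - 1) * (Fintype.card Ω - 2)
        * Nat.card {t : G // orderOf t = 3 ∧ (t • a = a ∧ t • b = b)}
      = (Fintype.card Ω * (Fintype.card Ω - 1) * Nat.card {t : G // t ∈ T ∧ (t • a = a ∧ t • b = b)})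
        * (Fintype.card Ω - 2) := by
        change _ = (Fintype.card Ω * (Fintype.card Ω - 1)
          * Nat.card {t : G // orderOf t = 3 ∧ (t • a = a ∧ t • b = b)}) * (Fintype.card Ω - 2)
        ring
    _ = 2 * (Nat.card T * (Fintype.card Ω - 2)) := by rw [← c1]; ring
    _ = (Fintype.card Ω * (Fintype.card Ω - 1)) * 2 * Nat.card {t : G // t ∈ T ∧ t • a = b} := by
        rw [c2]; ring
    _ ≤ (Fintype.card Ω * (Fintype.card Ω - 1)) * 2 * (Fintype.card Ω - 2) :=
        Nat.mul_le_mul_left _ hN2
    _ = Fintype.card Ω * (Fintype.card Ω - 1) * (Fintype.card Ω - 2) * 2 := by ring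

theorem unique_of_count {G : Type*} [Group G] [Finite G] (H : Subgroup G)
    (h2 : Nat.card {t : G // orderOf t = 3 ∧ t ∈ H} ≤ 2) (A B : Subgroup G)
    (hA : A ≤ H) (hB : B ≤ H) (hA3 : Nat.card A = 3) (hB3 : Nat.card B = 3) : A = B := by
  classical
  have key : ∀ A : Subgroup G, A ≤ H → Nat.card A = 3 →
      (A : Set G) \ {1} = {t : G | orderOf t = 3 ∧ t ∈ H} := by
    intro A hA hA3
    apply Set.eq_of_subset_of_ncard_le _ _ (Set.toFinite _)
    · rintro x ⟨hx, hx1⟩
      refine ⟨?_, hA hx⟩
      have h3 : orderOf (⟨x, hx⟩ : A) ∣ 3 := by rw [← hA3]; exact orderOf_dvd_natCard _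
      rcases (Nat.dvd_prime Nat.prime_three).mp h3 with h | h
      · exfalso
        apply hx1
        rw [orderOf_eq_one_iff] at h
        exact congrArg Subtype.val h
      · rw [← h]
        exact (Subgroup.orderOf_mk x hx).symm
    · rw [Set.ncard_sdiff_singleton_of_mem A.one_mem, ← Nat.card_coe_set_eq (A : Set G),
        ← Nat.card_coe_set_eq]
      have : Nat.card (A : Set G) = 3 := hA3
      rw [this]
      exact h2
  have h3 := (key A hA hA3).trans (key B hB hB3).symm
  apply SetLike.coe_injective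
  have h4 : ∀ A : Subgroup G, (A : Set G) = insert 1 ((A : Set G) \ {1}) := by
    intro A
    rw [Set.insert_sdiff_singleton, Set.insert_eq_of_mem A.one_mem]
  rw [h4 A, h4 B, h3]

/-- In a sharply triply transitive group of even degree at least 6 (degree `q + 1`, `q` odd), a two-point stabiliser has at most one subgroup of order 3. -/
theorem result {α : Type*} [Fintype α] [DecidableEq α] (heven : Even (Fintype.card α)) (h6 : 6 ≤ Fintype.card α) (G : Subgroup (Equiv.Perm α)) (h3 : MulAction.IsMultiplyPretransitive G α 3) (hsharp : ∀ x : Fin 3 ↪ α, MulAction.stabilizer G x = ⊥) {a b : α} (hab : a ≠ b) (A B : Subgroup G) (hA : A ≤ MulAction.stabilizer G a ⊓ MulAction.stabilizer G b) (hB : B ≤ MulAction.stabilizer G a ⊓ MulAction.stabilizer G b) (hA3 : Nat.card A = 3) (hB3 : Nat.card B = 3) : A = B := by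
  have h2 : MulAction.IsMultiplyPretransitive G α 2 :=
    MulAction.isMultiplyPretransitive_of_le (n := 3) (by omega) (by rw [Nat.card_eq_fintype_card]; omega)
  apply unique_of_count (MulAction.stabilizer G a ⊓ MulAction.stabilizer G b) _ A B hA hB hA3 hB3
  exact count_three (by omega) h2 (eq_one_of_fix hsharp) hab A hA hA3

end Cfsg.Agent.S0728
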