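import Cfsg.Statements.S0733
import Mathlib

-- import your own Cfsg.Agent.* helpers here

set_option autoImplicit false
open Cfsg

namespace Cfsg.Agent.S0733

open scoped Pointwise

/-- A permutation group of affine type — generated by the translations of a finite vector space `V` over `ZMod p` together with a group `G₀` of linear automorphisms — is primitive on `V` if and only if `G₀` is irreducible on `V`. -/
theorem result {p : ℕ} [Fact p.Prime] {V : Type*} [AddCommGroup V] [Module (ZMod p) V] [Finite V] [Nontrivial V] (G₀ : Subgroup (V ≃ₗ[ZMod p] V)) (G : Subgroup (Equiv.Perm V)) (hG : ∀ σ : Equiv.Perm V, σ ∈ G ↔ ∃ g ∈ G₀, ∃ b : V, ∀ x : V, σ x = (g : V ≃ₗ[ZMod p] V) x + b) : MulAction.IsPreprimitive G V ↔ ∀ W : Submodule (ZMod p) V, (∀ g ∈ G₀, ∀ v ∈ W, (g : V ≃ₗ[ZMod p] V) v ∈ W) → W = ⊥ ∨ W = ⊤ := by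
  classical
  have htrans : ∀ b : V, ∃ g : G, ∀ x : V, g • x = x + b := by
    intro b
    refine ⟨⟨Equiv.addRight b, (hG _).mpr ⟨1, G₀.one_mem, b, fun x => by simp⟩⟩, fun x => rfl⟩
  have hlin : ∀ g ∈ G₀, ∃ k : G, ∀ x : V, k • x = (g : V ≃ₗ[ZMod p] V) x := by
    intro g hg
    refine ⟨⟨g.toEquiv, (hG _).mpr ⟨g, hg, 0, fun x => by simp⟩⟩, fun x => rfl⟩
  have hG' : ∀ k : G, ∃ g ∈ G₀, ∃ b : V, ∀ x : V, k • x = (g : V ≃ₗ[ZMod p] V) x + b := by
    intro k
    obtain ⟨g, hg, b, h⟩ := (hG k).mp k.2
    exact ⟨g, hg, b, h⟩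
  have hpre : MulAction.IsPretransitive G V := by
    constructor
    intro x y
    obtain ⟨g, hg⟩ := htrans (y - x)
    exact ⟨g, by rw [hg]; simp⟩
  constructor
  · intro hprim W hW
    have hblock : MulAction.IsBlock G (W : Set V) := by
      rw [MulAction.isBlock_iff_smul_eq_of_mem]
      intro k c hc hkc
      obtain ⟨g, hg, b, hk⟩ := hG' k
      have hb : b ∈ W := by
        have h1 : (g : V ≃ₗ[ZMod p] V) c + b ∈ W := by rw [← hk]; exact hkc
        have h2 := hW g hg c hc
        have := W.sub_mem h1 h2
        simpa using this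
      have hsub : k • (W : Set V) ⊆ W := by
        rintro _ ⟨x, hx, rfl⟩
        show k • x ∈ W
        rw [hk]
        exact W.add_mem (hW g hg x hx) hb
      apply Set.eq_of_subset_of_ncard_le hsub _ (Set.toFinite _)
      rw [Set.ncard_smul_set]
    rcases hblock.subsingleton_or_eq_univ with h | h
    · left
      rw [eq_bot_iff]
      intro w hw
      rw [Submodule.mem_bot]
      exact h hw W.zero_mem
    · right
      rw [eq_top_iff]
      intro w _
      have : w ∈ (W : Set V) := by rw [h]; trivial
      exact this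
  · intro hirr
    apply MulAction.IsPreprimitive.of_isTrivialBlock_base (0 : V)
    intro B h0 hB
    rw [MulAction.isBlock_iff_smul_eq_of_mem] at hB
    have hadd : ∀ b ∈ B, ∀ x ∈ B, x + b ∈ B := by
      intro b hb x hx
      obtain ⟨g, hg⟩ := htrans b
      have h1 : g • B = B := hB h0 (by rw [hg, zero_add]; exact hb)
      rw [← h1, ← hg]
      exact Set.smul_mem_smul_set hx
    let W : Submodule (ZMod p) V :=
      { carrier := B
        add_mem' := fun {x y} hx hy => hadd y hy x hx
        zero_mem' := h0
        smul_mem' := by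
          intro c x hx
          rw [← ZMod.natCast_zmod_val c, Nat.cast_smul_eq_nsmul]
          induction c.val with
          | zero => simpa using h0
          | succ n ih => rw [succ_nsmul]; exact hadd x hx _ ih }
    have hWB : (W : Set V) = B := rfl
    rcases hirr W (by
      intro g hg v hv
      obtain ⟨k, hk⟩ := hlin g hg
      have h1 : k • B = B := hB h0 (by rw [hk]; simpa using h0)
      rw [← hk]
      show k • v ∈ B
      rw [← h1]
      exact Set.smul_mem_smul_set hv) with h | h
    · left
      intro x hx y hy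
      have hx' : x ∈ W := hx
      have hy' : y ∈ W := hy
      rw [h, Submodule.mem_bot] at hx' hy'
      rw [hx', hy']
    · right
      rw [← hWB, h]
      rfl

end Cfsg.Agent.S0733
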