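import Cfsg.Statements.S0734
import Mathlib

-- import your own Cfsg.Agent.* helpers here

set_option autoImplicit false
open Cfsg

namespace Cfsg.Agent.S0734

open scoped Pointwise

/-- Higman's criterion for primitivity: a transitive action on a finite set is primitive if and only if every non-trivial orbital graph (edges = images of a fixed pair of distinct points) is connected. -/
theorem result {G : Type*} [Group G] {Ω : Type*} [Finite Ω] [MulAction G Ω] [MulAction.IsPretransitive G Ω] [Nontrivial Ω] : MulAction.IsPreprimitive G Ω ↔ ∀ a b : Ω, a ≠ b → (SimpleGraph.fromRel fun x y : Ω => ∃ g : G, g • a = x ∧ g • b = y).Connected := by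
  classical
  constructor
  · intro hprim a b hab
    set Γ : SimpleGraph Ω := SimpleGraph.fromRel fun x y : Ω => ∃ g : G, g • a = x ∧ g • b = y with hΓ
    have hadj : ∀ (k : G) (x y : Ω), Γ.Adj x y → Γ.Adj (k • x) (k • y) := by
      intro k x y h
      rw [hΓ, SimpleGraph.fromRel_adj] at h ⊢
      refine ⟨fun e => h.1 (MulAction.injective k e), ?_⟩
      rcases h.2 with ⟨g, hg1, hg2⟩ | ⟨g, hg1, hg2⟩
      · exact Or.inl ⟨k * g, by rw [mul_smul, hg1], by rw [mul_smul, hg2]⟩
      · exact Or.inr ⟨k * g, by rw [mul_smul, hg1], by rw [mul_smul, hg2]⟩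
    have hreach : ∀ (k : G) (x y : Ω), Γ.Reachable x y → Γ.Reachable (k • x) (k • y) := by
      intro k x y h
      obtain ⟨w⟩ := h
      induction w with
      | nil => exact SimpleGraph.Reachable.refl _
      | cons h' _ ih => exact (hadj k _ _ h').reachable.trans ih
    have hblock : MulAction.IsBlock G {x | Γ.Reachable a x} := by
      rw [MulAction.isBlock_iff_smul_eq_or_disjoint]
      intro g
      by_cases hd : Disjoint (g • {x | Γ.Reachable a x}) {x | Γ.Reachable a x}
      · exact Or.inr hd
      · left
        rw [Set.not_disjoint_iff] at hd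
        obtain ⟨z, ⟨x, hx, hxz⟩, hz⟩ := hd
        have hxz' : g • x = z := hxz
        have h1 : Γ.Reachable (g • a) z := by rw [← hxz']; exact hreach g a x hx
        have h2 : Γ.Reachable a (g • a) := SimpleGraph.Reachable.trans hz h1.symm
        ext y
        rw [Set.mem_smul_set_iff_inv_smul_mem]
        simp only [Set.mem_setOf_eq]
        constructor
        · intro hy
          have := hreach g _ _ hy
          rw [smul_inv_smul] at this
          exact h2.trans this
        · intro hy
          have h3 := hreach g⁻¹ _ _ (h2.symm.trans hy)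
          rw [inv_smul_smul] at h3
          exact h3
    have hab' : Γ.Adj a b := by
      rw [hΓ, SimpleGraph.fromRel_adj]
      exact ⟨hab, Or.inl ⟨1, by simp, by simp⟩⟩
    rcases hblock.subsingleton_or_eq_univ with h | h
    · exact absurd (h (SimpleGraph.Reachable.refl a) hab'.reachable) hab
    · have hall : ∀ x, Γ.Reachable a x := fun x => by
        have : x ∈ {x | Γ.Reachable a x} := by rw [h]; trivial
        exact this
      rw [SimpleGraph.connected_iff]
      exact ⟨fun x y => (hall x).symm.trans (hall y), inferInstance⟩
  · intro h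
    refine { isTrivialBlock_of_isBlock := ?_ }
    intro B hB
    by_cases hs : B.Subsingleton
    · exact Or.inl hs
    right
    rw [Set.not_subsingleton_iff] at hs
    obtain ⟨a, ha, b, hb, hab⟩ := hs
    have hc := h a b hab
    have hstep : ∀ x y : Ω, (SimpleGraph.fromRel fun x y : Ω => ∃ g : G, g • a = x ∧ g • b = y).Adj x y → x ∈ B → y ∈ B := by
      intro x y hxy hx
      rw [SimpleGraph.fromRel_adj] at hxy
      rcases hxy.2 with ⟨g, hg1, hg2⟩ | ⟨g, hg1, hg2⟩
      · have h1 : g • B = B := by
          rw [MulAction.isBlock_iff_smul_eq_of_mem] at hB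
          exact hB ha (hg1 ▸ hx)
        rw [← h1, ← hg2]
        exact Set.smul_mem_smul_set hb
      · have h1 : g • B = B := by
          rw [MulAction.isBlock_iff_smul_eq_of_mem] at hB
          exact hB hb (hg2 ▸ hx)
        rw [← h1, ← hg1]
        exact Set.smul_mem_smul_set ha
    rw [Set.eq_univ_iff_forall]
    intro y
    obtain ⟨w⟩ := hc.preconnected a y
    have : ∀ x y : Ω, (SimpleGraph.fromRel fun x y : Ω => ∃ g : G, g • a = x ∧ g • b = y).Walk x y → x ∈ B → y ∈ B := by
      intro x y w
      induction w with
      | nil => exact id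
      | cons h' _ ih => exact fun hx => ih (hstep _ _ h' hx)
    exact this a y w ha

end Cfsg.Agent.S0734
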