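import Cfsg.Statements.S0735
import Mathlib
import Cfsg.Agent.LibPermHomog
-- import your own Cfsg.Agent.* helpers here

set_option autoImplicit false
open Cfsg

namespace Cfsg.Agent.S0735

open scoped Pointwise

/-- A 2-homogeneous permutation group (transitive on 2-subsets) of even order is doubly transitive; a non-trivial 2-homogeneous group is primitive. -/
theorem result {α : Type*} [Fintype α] [DecidableEq α] (G : Subgroup (Equiv.Perm α)) (h2 : MulAction.IsPretransitive G (Set.powersetCard α 2)) (hα : 3 ≤ Fintype.card α) : (Even (Nat.card G) → MulAction.IsMultiplyPretransitive G α 2) ∧ (G ≠ ⊥ → MulAction.IsPreprimitive G α) := by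
  rw [CfsgLib.PermHomog.homog_iff_perm] at h2
  have hpair : ∀ a b c d : α, a ≠ b → c ≠ d → ∃ g : G, (g • a = c ∧ g • b = d) ∨ (g • a = d ∧ g • b = c) := by
    intro a b c d hab hcd
    obtain ⟨g, hg⟩ := h2 {a, b} {c, d} (Finset.card_pair hab) (Finset.card_pair hcd)
    refine ⟨g, ?_⟩
    have ha : g • a ∈ ({c, d} : Finset α) := by
      rw [← hg]; exact Finset.mem_image_of_mem _ (by simp)
    have hb : g • b ∈ ({c, d} : Finset α) := by
      rw [← hg]; exact Finset.mem_image_of_mem _ (by simp)
    simp only [Finset.mem_insert, Finset.mem_singleton] at ha hb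
    have hne : g • a ≠ g • b := fun h => hab (MulAction.injective g h)
    rcases ha with ha | ha <;> rcases hb with hb | hb
    · exact absurd (ha.trans hb.symm) hne
    · exact Or.inl ⟨ha, hb⟩
    · exact Or.inr ⟨ha, hb⟩
    · exact absurd (ha.trans hb.symm) hne
  constructor
  · intro heven
    haveI : Fact (Nat.Prime 2) := ⟨Nat.prime_two⟩
    obtain ⟨t, ht⟩ := exists_prime_orderOf_dvd_card' (G := G) 2 heven.two_dvd
    have ht1 : t ≠ 1 := by
      rintro rfl
      simp at ht
    have ht2 : ∀ x : α, t • (t • x) = x := by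
      intro x
      rw [← mul_smul, ← pow_two, ← ht, pow_orderOf_eq_one, one_smul]
    obtain ⟨a, ha⟩ : ∃ a : α, t • a ≠ a := by
      by_contra hcon
      push Not at hcon
      apply ht1
      ext x
      exact hcon x
    rw [MulAction.is_two_pretransitive_iff]
    have key : ∀ x y : α, x ≠ y → ∃ g : G, g • x = a ∧ g • y = t • a := by
      intro x y hxy
      obtain ⟨g, hg | hg⟩ := hpair x y a (t • a) hxy (Ne.symm ha)
      · exact ⟨g, hg⟩
      · refine ⟨t * g, ?_, ?_⟩
        · rw [mul_smul, hg.1, ht2]
        · rw [mul_smul, hg.2]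
    intro x y z w hxy hzw
    obtain ⟨g, hg1, hg2⟩ := key x y hxy
    obtain ⟨k, hk1, hk2⟩ := key z w hzw
    refine ⟨k⁻¹ * g, ?_, ?_⟩
    · rw [mul_smul, hg1, ← hk1, inv_smul_smul]
    · rw [mul_smul, hg2, ← hk2, inv_smul_smul]
  · intro _
    have hthird : ∀ a b : α, ∃ c : α, c ≠ a ∧ c ≠ b := by
      intro a b
      by_contra hcon
      push Not at hcon
      have : (Finset.univ : Finset α) ⊆ {a, b} := by
        intro c _
        simp only [Finset.mem_insert, Finset.mem_singleton]
        by_cases hc : c = a
        · exact Or.inl hc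
        · exact Or.inr (hcon c hc)
      have h3 := Finset.card_le_card this
      rw [Finset.card_univ] at h3
      have h4 := Finset.card_le_two (a := a) (b := b)
      omega
    have hpre : MulAction.IsPretransitive G α := by
      constructor
      intro x y
      by_cases hxy : x = y
      · exact ⟨1, by simp [hxy]⟩
      obtain ⟨c, hcx, hcy⟩ := hthird x y
      -- {x,y} -> {x,c} and so on
      obtain ⟨g, ⟨h1, h2'⟩ | ⟨h1, h2'⟩⟩ := hpair x c y c (Ne.symm hcx) (Ne.symm hcy)
      · exact ⟨g, h1⟩
      · -- g x = c, g c = y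
        exact ⟨g * g, by rw [mul_smul, h1, h2']⟩
    refine { isTrivialBlock_of_isBlock := ?_ }
    intro B hB
    by_cases hs : B.Subsingleton
    · exact Or.inl hs
    right
    rw [Set.not_subsingleton_iff] at hs
    obtain ⟨a, ha, b, hb, hab⟩ := hs
    rw [Set.eq_univ_iff_forall]
    intro c
    by_cases hca : c = a
    · rw [hca]; exact ha
    rw [MulAction.isBlock_iff_smul_eq_of_mem] at hB
    obtain ⟨g, ⟨h1, h2'⟩ | ⟨h1, h2'⟩⟩ := hpair a b a c hab (Ne.symm hca)
    · have h3 : g • B = B := hB ha (by rw [h1]; exact ha)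
      rw [← h3, ← h2']
      exact Set.smul_mem_smul_set hb
    · have h3 : g • B = B := hB hb (by rw [h2']; exact ha)
      rw [← h3, ← h1]
      exact Set.smul_mem_smul_set ha

end Cfsg.Agent.S0735
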