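import Cfsg.Statements.S0736
import Mathlib
import Cfsg.Agent.LibPermHomog
-- import your own Cfsg.Agent.* helpers here

set_option autoImplicit false
open Cfsg

namespace Cfsg.Agent.S0736

section
variable {α : Type*} [DecidableEq α]

theorem choose_mod (p a u : ℕ) [Fact p.Prime] : (p ^ a * u).choose (p ^ a) ≡ u [MOD p] := by
  induction a with
  | zero => simp; rfl
  | succ a ih =>
    have hp : 0 < p := (Fact.out : p.Prime).pos
    have h := Choose.choose_modEq_choose_mod_mul_choose_div_nat (p := p) (n := p ^ (a + 1) * u) (k := p ^ (a + 1))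
    have e1 : p ^ (a + 1) * u % p = 0 := by
      rw [pow_succ, mul_assoc, mul_comm p u, ← mul_assoc, Nat.mul_mod_left]
    have e2 : p ^ (a + 1) % p = 0 := by
      rw [pow_succ, Nat.mul_mod_left]
    have e3 : p ^ (a + 1) * u / p = p ^ a * u := by
      rw [pow_succ, mul_assoc, mul_comm p u, ← mul_assoc, Nat.mul_div_cancel _ hp]
    have e4 : p ^ (a + 1) / p = p ^ a := by
      rw [pow_succ, Nat.mul_div_cancel _ hp]
    rw [e1, e2, e3, e4, Nat.choose_self, one_mul] at h
    exact h.trans ih

theorem card_between (D M : Finset α) (hD : D ⊆ M) (j : ℕ) (hj : D.card = j) :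
    ((M.powersetCard (j + 1)).filter (fun K => D ⊆ K)).card = M.card - j := by
  have : (M.powersetCard (j + 1)).filter (fun K => D ⊆ K) = (M \ D).image (fun x => insert x D) := by
    ext K
    simp only [Finset.mem_filter, Finset.mem_powersetCard, Finset.mem_image, Finset.mem_sdiff]
    constructor
    · rintro ⟨⟨h1, h2⟩, h3⟩
      have h4 : (K \ D).card = 1 := by
        rw [Finset.card_sdiff_of_subset h3, h2, hj]; omega
      obtain ⟨x, hx⟩ := Finset.card_eq_one.mp h4
      have hxm : x ∈ K \ D := by rw [hx]; exact Finset.mem_singleton_self x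
      rw [Finset.mem_sdiff] at hxm
      refine ⟨x, ⟨h1 hxm.1, hxm.2⟩, ?_⟩
      rw [Finset.insert_eq, ← hx, Finset.sdiff_union_of_subset h3]
    · rintro ⟨x, ⟨h1, h2⟩, rfl⟩
      exact ⟨⟨Finset.insert_subset h1 hD, by rw [Finset.card_insert_of_notMem h2, hj]⟩,
        Finset.subset_insert _ _⟩
  rw [this, Finset.card_image_of_injOn, Finset.card_sdiff_of_subset hD, hj]
  intro x hx y hy hxy
  simp only [Finset.coe_sdiff, Set.mem_sdiff, Finset.mem_coe] at hx hy
  simp only at hxy
  have : x ∈ insert y D := by rw [← hxy]; exact Finset.mem_insert_self _ _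
  rw [Finset.mem_insert] at this
  rcases this with h | h
  · exact h
  · exact absurd h hx.2

theorem lemA (Δ : Finset (Finset α)) (j l : ℕ) (hΔ : ∀ D ∈ Δ, D.card = j)
    (hl : ∀ K : Finset α, K.card = j + 1 → (Δ.filter (fun D => D ⊆ K)).card = l)
    (M : Finset α) (hM : j + 1 ≤ M.card) :
    (j + 1) * (Δ.filter (fun D => D ⊆ M)).card = l * M.card.choose j := by
  have h := Finset.sum_card_bipartiteAbove_eq_sum_card_bipartiteBelow
    (s := Δ.filter (fun D => D ⊆ M)) (t := M.powersetCard (j + 1)) (fun D K => D ⊆ K)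
  have h1 : ∑ D ∈ Δ.filter (fun D => D ⊆ M), (Finset.bipartiteAbove (fun D K => D ⊆ K) (M.powersetCard (j + 1)) D).card
      = (Δ.filter (fun D => D ⊆ M)).card * (M.card - j) := by
    rw [Finset.card_eq_sum_ones, Finset.sum_mul, one_mul]
    apply Finset.sum_congr rfl
    intro D hD
    rw [Finset.mem_filter] at hD
    exact card_between D M hD.2 j (hΔ D hD.1)
  have h2 : ∑ K ∈ M.powersetCard (j + 1), (Finset.bipartiteBelow (fun D K => D ⊆ K) (Δ.filter (fun D => D ⊆ M)) K).card
      = M.card.choose (j + 1) * l := by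
    rw [← Finset.card_powersetCard, Finset.card_eq_sum_ones (M.powersetCard (j + 1)), Finset.sum_mul, one_mul]
    apply Finset.sum_congr rfl
    intro K hK
    rw [Finset.mem_powersetCard] at hK
    rw [← hl K hK.2]
    unfold Finset.bipartiteBelow
    congr 1
    ext D
    simp only [Finset.mem_filter]
    constructor
    · rintro ⟨⟨h3, _⟩, h5⟩
      exact ⟨h3, h5⟩
    · rintro ⟨h3, h5⟩
      exact ⟨⟨h3, h5.trans hK.1⟩, h5⟩
  rw [h1, h2] at h
  have h3 := Nat.choose_succ_right_eq M.card j
  have h4 : 0 < M.card - j := by omega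
  apply Nat.eq_of_mul_eq_mul_right h4
  calc (j + 1) * (Δ.filter (fun D => D ⊆ M)).card * (M.card - j)
      = (j + 1) * ((Δ.filter (fun D => D ⊆ M)).card * (M.card - j)) := by ring
    _ = l * (M.card.choose (j + 1) * (j + 1)) := by rw [h]; ring
    _ = l * M.card.choose j * (M.card - j) := by rw [h3]; ring

theorem lemB (Δ : Finset (Finset α)) (j l : ℕ) (hΔ : ∀ D ∈ Δ, D.card = j)
    (hl : ∀ K : Finset α, K.card = j + 1 → (Δ.filter (fun D => D ⊆ K)).card = l)
    (Y : Finset α) : ∀ (M : Finset α), Y ⊆ M → Y.card ≤ j → Y.card + (j + 1) ≤ M.card →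
    (j + 1) * (Δ.filter (fun D => Y ⊆ D ∧ D ⊆ M)).card
      = l * (M.card - Y.card).choose (j - Y.card) := by
  induction Y using Finset.induction_on with
  | empty =>
    intro M _ _ hM
    simp only [Finset.card_empty, Nat.sub_zero, Finset.empty_subset, true_and]
    exact lemA Δ j l hΔ hl M (by simpa using hM)
  | insert z Y hz ih =>
    intro M hYM hYj hM
    rw [Finset.card_insert_of_notMem hz] at hYj hM ⊢
    have hzM : z ∈ M := hYM (Finset.mem_insert_self _ _)
    have hYM' : Y ⊆ M := (Finset.subset_insert _ _).trans hYM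
    have h1 := ih M hYM' (by omega) (by omega)
    have h2 := ih (M.erase z) (fun x hx => Finset.mem_erase.mpr
      ⟨fun h => hz (h ▸ hx), hYM' hx⟩) (by omega) (by
      rw [Finset.card_erase_of_mem hzM]; omega)
    have h3 : (Δ.filter (fun D => Y ⊆ D ∧ D ⊆ M)).card
        = (Δ.filter (fun D => insert z Y ⊆ D ∧ D ⊆ M)).card
          + (Δ.filter (fun D => Y ⊆ D ∧ D ⊆ M.erase z)).card := by
      rw [← Finset.card_union_of_disjoint]
      · congr 1
        ext D
        simp only [Finset.mem_filter, Finset.mem_union, Finset.insert_subset_iff,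
          Finset.subset_erase]
        tauto
      · rw [Finset.disjoint_left]
        intro D hD hD'
        simp only [Finset.mem_filter, Finset.insert_subset_iff, Finset.subset_erase] at hD hD'
        exact hD'.2.2.2 hD.2.1.1
    rw [Finset.card_erase_of_mem hzM] at h2
    obtain ⟨m, hm⟩ : ∃ m, M.card - Y.card = m + 1 := ⟨M.card - Y.card - 1, by omega⟩
    obtain ⟨i, hi⟩ : ∃ i, j - Y.card = i + 1 := ⟨j - Y.card - 1, by omega⟩
    have e1 : M.card - 1 - Y.card = m := by omega
    have e2 : M.card - (Y.card + 1) = m := by omega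
    have e3 : j - (Y.card + 1) = i := by omega
    rw [h3, hm, hi, Nat.choose_succ_succ] at h1
    rw [e1, hi] at h2
    rw [e2, e3]
    nlinarith

end

/-- A `k`-homogeneous permutation group of degree `n`, `k ≥ 2`, with `k + q - 1 ≤ n` for every prime power `q` dividing `k`, is `(k-1)`-homogeneous. -/
theorem result {α : Type*} [Fintype α] [DecidableEq α] (G : Subgroup (Equiv.Perm α)) {k : ℕ} (hk : 2 ≤ k) (hG : MulAction.IsPretransitive G (Set.powersetCard α k)) (hq : ∀ q : ℕ, IsPrimePow q → q ∣ k → k + q - 1 ≤ Fintype.card α) : MulAction.IsPretransitive G (Set.powersetCard α (k - 1)) := by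
  classical
  rw [CfsgLib.PermHomog.homog_iff_perm] at hG ⊢
  obtain ⟨j, rfl⟩ : ∃ j, k = j + 1 := ⟨k - 1, by omega⟩
  rw [Nat.add_sub_cancel]
  by_contra hcon
  push Not at hcon
  obtain ⟨D0, D1, hD0, hD1, hne⟩ := hcon
  have hn : j + 2 ≤ Fintype.card α := by
    obtain ⟨p, hp, hpk⟩ := Nat.exists_prime_and_dvd (n := j + 1) (by omega)
    have := hq p hp.isPrimePow hpk
    have := hp.two_le
    omega
  let Δ : Finset (Finset α) := Finset.univ.filter (fun D => ∃ g : G, D0.image (fun x => g • x) = D)
  have hΔ : ∀ D ∈ Δ, D.card = j := by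
    intro D hD
    obtain ⟨g, rfl⟩ := (Finset.mem_filter.mp hD).2
    rw [Finset.card_image_of_injective _ (MulAction.injective g), hD0]
  have hinv : ∀ (g : G) (D : Finset α), D ∈ Δ → D.image (fun x => g • x) ∈ Δ := by
    intro g D hD
    obtain ⟨h, rfl⟩ := (Finset.mem_filter.mp hD).2
    rw [Finset.mem_filter]
    refine ⟨Finset.mem_univ _, g * h, ?_⟩
    rw [Finset.image_image]
    congr 1
  obtain ⟨K0, hK0D, hK0⟩ := Finset.exists_superset_card_eq (s := D0) (n := j + 1) (by omega) (by omega)
  set l := (Δ.filter (fun D => D ⊆ K0)).card with hl0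
  have hl : ∀ K : Finset α, K.card = j + 1 → (Δ.filter (fun D => D ⊆ K)).card = l := by
    intro K hK
    obtain ⟨g, hg⟩ := hG K0 K hK0 hK
    rw [hl0]
    symm
    apply Finset.card_bij (fun D _ => D.image (fun x => g • x))
    · intro D hD
      rw [Finset.mem_filter] at hD ⊢
      refine ⟨hinv g D hD.1, ?_⟩
      rw [← hg]
      exact Finset.image_subset_image hD.2
    · intro D _ D' _ h
      exact Finset.image_injective (MulAction.injective g) h
    · intro D hD
      rw [Finset.mem_filter] at hD
      refine ⟨D.image (fun x => g⁻¹ • x), ?_, ?_⟩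
      · rw [Finset.mem_filter]
        refine ⟨hinv g⁻¹ D hD.1, ?_⟩
        intro x hx
        rw [Finset.mem_image] at hx
        obtain ⟨y, hy, rfl⟩ := hx
        have := hD.2 hy
        rw [← hg, Finset.mem_image] at this
        obtain ⟨z, hz, rfl⟩ := this
        rwa [inv_smul_smul]
      · rw [Finset.image_image]
        conv_rhs => rw [← Finset.image_id (s := D)]
        congr 1
        ext x
        simp
  have hlpos : 0 < l := by
    rw [hl0, Finset.card_pos]
    refine ⟨D0, ?_⟩
    rw [Finset.mem_filter]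
    refine ⟨Finset.mem_filter.mpr ⟨Finset.mem_univ _, 1, by simp⟩, hK0D⟩
  have hllt : l < j + 1 := by
    obtain ⟨K1, hK1D, hK1⟩ := Finset.exists_superset_card_eq (s := D1) (n := j + 1) (by omega) (by omega)
    rw [← hl K1 hK1]
    have : Δ.filter (fun D => D ⊆ K1) ⊆ (K1.powersetCard j).erase D1 := by
      intro D hD
      rw [Finset.mem_filter] at hD
      rw [Finset.mem_erase, Finset.mem_powersetCard]
      refine ⟨?_, hD.2, hΔ D hD.1⟩
      rintro rfl
      obtain ⟨g, hg⟩ := (Finset.mem_filter.mp hD.1).2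
      exact hne g hg
    have h1 := Finset.card_le_card this
    rw [Finset.card_erase_of_mem (Finset.mem_powersetCard.mpr ⟨hK1D, hD1⟩), Finset.card_powersetCard,
      hK1, Nat.choose_succ_self_right] at h1
    omega
  have hdvd : (j + 1) ∣ l := by
    rw [← Nat.factorization_prime_le_iff_dvd (by omega) (by omega)]
    intro p hp
    have hpf : Fact p.Prime := ⟨hp⟩
    by_cases ha : (j + 1).factorization p = 0
    · rw [ha]; exact Nat.zero_le _
    rw [← hp.pow_dvd_iff_le_factorization (by omega)]
    set a := (j + 1).factorization p with haDef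
    have hqk : p ^ a ∣ j + 1 := Nat.ordProj_dvd (j + 1) p
    have hqn := hq (p ^ a) (hp.isPrimePow.pow ha) hqk
    have hqle : p ^ a ≤ j + 1 := Nat.le_of_dvd (by omega) hqk
    have hq1 : 1 ≤ p ^ a := Nat.one_le_pow _ _ hp.pos
    obtain ⟨M, -, hM⟩ := Finset.exists_superset_card_eq (s := (∅ : Finset α)) (n := j + 1 + p ^ a - 1)
      (by simp) (by omega)
    obtain ⟨Y, hYM, hY⟩ := Finset.exists_subset_card_eq (s := M) (n := p ^ a - 1) (by omega)
    have h1 := lemB Δ j l hΔ hl Y M hYM (by omega) (by omega)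
    have e1 : M.card - Y.card = j + 1 := by omega
    have e2 : j - Y.card = j + 1 - p ^ a := by omega
    rw [e1, e2, Nat.choose_symm hqle] at h1
    obtain ⟨u, hu⟩ := hqk
    have hpu : ¬ p ∣ u := by
      intro hpu
      have h3 : p ^ (a + 1) ∣ j + 1 := by
        rw [hu, pow_succ]
        exact mul_dvd_mul_left _ hpu
      rw [hp.pow_dvd_iff_le_factorization (by omega)] at h3
      omega
    have hpc : ¬ p ∣ (j + 1).choose (p ^ a) := by
      intro h
      apply hpu
      have h4 := choose_mod p a u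
      rw [← hu] at h4
      exact (h4.dvd_iff (dvd_refl p)).mp h
    have h5 : p ^ a ∣ l * (j + 1).choose (p ^ a) := by
      rw [← h1]
      exact Dvd.dvd.mul_right (Dvd.intro _ hu.symm) _
    exact Nat.Coprime.dvd_of_dvd_mul_right
      (Nat.Coprime.pow_left a ((Nat.Prime.coprime_iff_not_dvd hp).mpr hpc)) h5
  have := Nat.le_of_dvd hlpos hdvd
  omega

end Cfsg.Agent.S0736
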