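import Cfsg.Statements.S0739
import Cfsg.Agent.LibZas3

set_option autoImplicit false
set_option linter.all false
open Cfsg

namespace Cfsg.Agent.S0739

/-- In a finite Zassenhaus group whose two-point stabiliser `H = G_{a,b}` has odd order `d`, and which has no normal `q`-complement for any prime `q ∣ d`, `H` is cyclic, `C_G(H) = H`, and every element swapping `a` and `b` inverts each element of `H`. -/
theorem result {G Ω : Type*} [Group G] [Finite G] [MulAction G Ω] [Fintype Ω] (hZ : Cfsg.IsZassenhausGroup G Ω) {a b : Ω} (hab : a ≠ b) (hodd : Odd (Nat.card ↥(MulAction.stabilizer G a ⊓ MulAction.stabilizer G b))) (hnil : ∀ q : ℕ, q.Prime → q ∣ Nat.card ↥(MulAction.stabilizer G a ⊓ MulAction.stabilizer G b) → ¬ ∃ N : Subgroup G, N.Normal ∧ N.index = q ^ (Nat.card G).factorization q) : IsCyclic ↥(MulAction.stabilizer G a ⊓ MulAction.stabilizer G b) ∧ Subgroup.centralizer ((MulAction.stabilizer G a ⊓ MulAction.stabilizer G b : Subgroup G) : Set G) = MulAction.stabilizer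 G a ⊓ MulAction.stabilizer G b ∧ ∀ s : G, s • a = b → s • b = a → ∀ h ∈ MulAction.stabilizer G a ⊓ MulAction.stabilizer G b, s * h * s⁻¹ = h⁻¹ := by
  classical
  obtain ⟨H, h1, h2, h3⟩ := CfsgLib.Zas.exists_H hZ (a := a)
  have D := CfsgLib.Zas.Dat.mk (b := b) hZ hab h1 h2 h3
  obtain ⟨hc, hinv⟩ := D.EE_cyclic hodd hnil
  refine ⟨hc, ?_, fun s hs1 hs2 h hh => hinv s ⟨hs1, hs2⟩ h hh⟩
  obtain ⟨x, hx, hx1⟩ := CfsgLib.Zas.exists_EE hZ hab
  have hx2 := D.cent_EE hodd hc hinv hx hx1
  apply le_antisymm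
  · have h4 : Subgroup.centralizer ((MulAction.stabilizer G a ⊓ MulAction.stabilizer G b : Subgroup G) : Set G) ≤ Subgroup.centralizer ({x} : Set G) :=
      Subgroup.centralizer_le (Set.singleton_subset_iff.mpr hx)
    exact h4.trans_eq hx2
  · intro g hg
    rw [Subgroup.mem_centralizer_iff]
    intro y hy
    letI := hc.commGroup
    have h1 : (⟨y, hy⟩ : CfsgLib.Zas.EE G a b) * ⟨g, hg⟩ = ⟨g, hg⟩ * ⟨y, hy⟩ := IsCyclic.commGroup.mul_comm _ _
    exact congrArg Subtype.val h1

end Cfsg.Agent.S0739
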