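import Cfsg.Statements.S0744
import Mathlib
import Cfsg.Agent.LibPermHomog
-- import your own Cfsg.Agent.* helpers here

set_option autoImplicit false
open Cfsg

namespace Cfsg.Agent.S0744



/-- If for some `k > 1` the pointwise stabilisers of all `(k-1)`-subsets have the same order `> 1` and those of all `k`-subsets have the same order, then the group is `(k-1)`-transitive. -/
theorem result {α : Type*} [Fintype α] [DecidableEq α] (G : Subgroup (Equiv.Perm α)) {k : ℕ} (hk : 1 < k) (hkn : k ≤ Fintype.card α) (l m : ℕ) (hl : 1 < l) (hkm1 : ∀ s : Finset α, s.card = k - 1 → Nat.card (fixingSubgroup G (s : Set α)) = l) (hkm : ∀ s : Finset α, s.card = k → Nat.card (fixingSubgroup G (s : Set α)) = m) : MulAction.IsMultiplyPretransitive G α (k - 1) := by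
  classical
  obtain ⟨j, rfl⟩ : ∃ j, k = j + 2 := ⟨k - 2, by omega⟩
  have e1 : j + 2 - 1 = j + 1 := rfl
  rw [e1] at hkm1 ⊢
  refine CfsgLib.PermHomog.mt_of_fixing_all (by omega) ?_
  intro t ht x y hx hy
  let H : Subgroup G := fixingSubgroup G (t : Set α)
  have hmem : ∀ g : G, g ∈ H ↔ ∀ a ∈ t, g • a = a := by
    intro g
    rw [mem_fixingSubgroup_iff]
    rfl
  have hfs : ∀ (s : Finset α) (g : G), g ∈ fixingSubgroup G (s : Set α) ↔ ∀ a ∈ s, g • a = a := by
    intro s g
    rw [mem_fixingSubgroup_iff]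
    rfl
  -- `d = l / m`
  have hl0 : 0 < l := by omega
  -- for z ∉ t, and orbit of H not containing z: all K-orbits outside have size d
  have hKorb : ∀ (s : Finset α), s.card = j + 1 → ∀ w : α, w ∉ s →
      Nat.card (MulAction.orbit (fixingSubgroup G (s : Set α)) w) * m = l := by
    intro s hs w hw
    have h1 := hkm1 s hs
    have h2 := hkm (insert w s) (by rw [Finset.card_insert_of_notMem hw, hs])
    have h3 := MulAction.card_orbit_mul_card_stabilizer_eq_card_group (fixingSubgroup G (s : Set α)) w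
    rw [← Nat.card_eq_fintype_card, ← Nat.card_eq_fintype_card, ← Nat.card_eq_fintype_card, h1] at h3
    rw [← h3]
    congr 1
    rw [← h2]
    apply Nat.card_congr
    refine ⟨fun g => ⟨⟨(g : G), ?_⟩, ?_⟩, fun g => ⟨(g : G), ?_⟩, fun g => rfl, fun g => rfl⟩
    · rw [hfs]
      intro a ha
      exact (hfs _ _).mp g.2 a (Finset.mem_insert_of_mem ha)
    · rw [MulAction.mem_stabilizer_iff]
      exact (hfs _ _).mp g.2 w (Finset.mem_insert_self _ _)
    · rw [hfs]
      intro a ha
      rcases Finset.mem_insert.mp ha with rfl | ha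
      · exact g.2
      · exact (hfs _ _).mp (g : fixingSubgroup G (s : Set α)).2 a ha
  have hm0 : m ≠ 0 := by
    rintro rfl
    obtain ⟨s, -, hs⟩ := Finset.exists_subset_card_eq
      (show j + 1 ≤ (Finset.univ : Finset α).card by rw [Finset.card_univ]; omega)
    have : ∃ w, w ∉ s := by
      by_contra hc
      push Not at hc
      have : (Finset.univ : Finset α) ⊆ s := fun a _ => hc a
      have := Finset.card_le_card this
      rw [Finset.card_univ] at this
      omega
    obtain ⟨w, hw⟩ := this
    have := hKorb s hs w hw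
    omega
  -- d := l / m, l = d * m
  obtain ⟨s0, -, hs0⟩ := Finset.exists_subset_card_eq
    (show j + 1 ≤ (Finset.univ : Finset α).card by rw [Finset.card_univ]; omega)
  obtain ⟨w0, hw0⟩ : ∃ w, w ∉ s0 := by
    by_contra hc
    push Not at hc
    have : (Finset.univ : Finset α) ⊆ s0 := fun a _ => hc a
    have := Finset.card_le_card this
    rw [Finset.card_univ] at this
    omega
  set d := Nat.card (MulAction.orbit (fixingSubgroup G (s0 : Set α)) w0) with hd
  have hdl : d * m = l := hKorb s0 hs0 w0 hw0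
  have hKd : ∀ (s : Finset α), s.card = j + 1 → ∀ w : α, w ∉ s →
      Nat.card (MulAction.orbit (fixingSubgroup G (s : Set α)) w) = d := by
    intro s hs w hw
    have h1 := hKorb s hs w hw
    exact Nat.eq_of_mul_eq_mul_right (Nat.pos_of_ne_zero hm0) (h1.trans hdl.symm)
  have hd1 : d ≠ 1 := by
    intro h1
    -- then fixingSubgroup s0 is trivial
    have htriv : fixingSubgroup G (s0 : Set α) = ⊥ := by
      rw [eq_bot_iff]
      intro g hg
      rw [Subgroup.mem_bot]
      ext w
      by_cases hw : w ∈ s0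
      · exact (hfs _ _).mp hg w hw
      · have h2 := hKd s0 hs0 w hw
        rw [h1, Nat.card_eq_one_iff_unique] at h2
        have h3 := h2.1.elim (⟨g • w, ⟨⟨g, hg⟩, rfl⟩⟩ : MulAction.orbit (fixingSubgroup G (s0 : Set α)) w) ⟨w, MulAction.mem_orbit_self w⟩
        exact congrArg Subtype.val h3
    have h4 := hkm1 s0 hs0
    rw [htriv] at h4
    simp at h4
    omega
  -- key: for z ∉ t, an H-orbit O: |O| ≡ [z ∈ O] mod d
  have horb : ∀ z w : α, z ∉ t → w ∉ t → d ∣ Nat.card ↥((MulAction.orbit H w) \ {z}) := by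
    intro z w hz hw
    let K : Subgroup G := fixingSubgroup G ((insert z t : Finset α) : Set α)
    have hKmem : ∀ g : G, g ∈ K ↔ g • z = z ∧ ∀ a ∈ t, g • a = a := by
      intro g
      show g ∈ fixingSubgroup G ((insert z t : Finset α) : Set α) ↔ _
      rw [hfs]
      simp
    have hKH : K ≤ H := by
      intro g hg
      rw [hmem]
      exact ((hKmem g).mp hg).2
    have hdisj : ∀ v ∈ (MulAction.orbit H w) \ {z}, v ∉ t ∧ v ≠ z := by
      rintro v ⟨⟨g, rfl⟩, hvz⟩
      refine ⟨fun hv => ?_, hvz⟩
      have hg := (hmem (g : G)).mp g.2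
      have h1 : (g : G) • (g : G) • w = (g : G) • w := hg _ hv
      have h2 : (g : G) • w = w := MulAction.injective (g : G) h1
      apply hw
      have hv' : (g : G) • w ∈ t := hv
      rwa [h2] at hv'
    have hinv : ∀ g ∈ K, ∀ v ∈ (MulAction.orbit H w) \ {z}, g • v ∈ (MulAction.orbit H w) \ {z} := by
      intro g hg v hv
      refine ⟨?_, ?_⟩
      · obtain ⟨k, rfl⟩ := hv.1
        exact ⟨⟨g, hKH hg⟩ * k, mul_smul (⟨g, hKH hg⟩ : H) k w⟩
      · intro h1
        have h1' : g • v = z := h1
        have h2 : g • z = z := ((hKmem g).mp hg).1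
        have h3 : v = z := MulAction.injective g (h1'.trans h2.symm)
        exact hv.2 h3
    letI : MulAction K ↥((MulAction.orbit H w) \ {z}) :=
      { smul := fun g v => ⟨(g : G) • (v : α), hinv g g.2 v v.2⟩
        one_smul := fun v => Subtype.ext (one_smul G (v : α))
        mul_smul := fun g h v => Subtype.ext (mul_smul (g : G) (h : G) (v : α)) }
    have hcoe : ∀ (g : K) (v : ↥((MulAction.orbit H w) \ {z})), ((g • v : ↥((MulAction.orbit H w) \ {z})) : α) = (g : G) • (v : α) := fun _ _ => rfl
    have h1 := MulAction.card_eq_sum_card_group_div_card_stabilizer K ↥((MulAction.orbit H w) \ {z})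
    have h2 : Nat.card ↥((MulAction.orbit H w) \ {z}) = ∑ ω : Quotient (MulAction.orbitRel K ↥((MulAction.orbit H w) \ {z})), Nat.card (MulAction.orbit K (Quotient.out ω)) := by
      rw [Nat.card_congr (MulAction.selfEquivSigmaOrbits K ↥((MulAction.orbit H w) \ {z})), Nat.card_sigma]
    rw [h2]
    apply Finset.dvd_sum
    intro ω _
    set v := Quotient.out ω
    have h3 : Nat.card (MulAction.orbit K v) = Nat.card (MulAction.orbit K (v : α)) := by
      apply Nat.card_congr
      refine ⟨fun u => ⟨(u : ↥((MulAction.orbit H w) \ {z})), ?_⟩, fun u => ⟨⟨u, ?_⟩, ?_⟩, fun u => rfl, fun u => rfl⟩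
      · obtain ⟨g, hg⟩ := u.2
        exact ⟨g, congrArg Subtype.val hg⟩
      · obtain ⟨g, hg⟩ := u.2
        have : (u : α) = (g : G) • (v : α) := hg.symm
        rw [this]
        exact hinv g g.2 v v.2
      · obtain ⟨g, hg⟩ := u.2
        exact ⟨g, Subtype.ext hg⟩
    rw [h3]
    have hv := hdisj v v.2
    have h4 : Nat.card (MulAction.orbit K (v : α)) = d := by
      apply hKd
      · rw [Finset.card_insert_of_notMem hz, ht]
      · simp only [Finset.mem_insert, not_or]
        exact ⟨hv.2, hv.1⟩
    rw [h4]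
  by_contra hcon
  have hyx : y ∉ MulAction.orbit H x := by
    rintro ⟨g, hg⟩
    exact hcon ⟨g, (hmem _).mp g.2, hg⟩
  have c1 := horb x x hx hx
  have c2 := horb y x hy hx
  rw [Set.diff_singleton_eq_self hyx] at c2
  rw [Nat.card_coe_set_eq] at c1 c2
  rw [Set.ncard_diff_singleton_of_mem (MulAction.mem_orbit_self x)] at c1
  have hpos : 0 < (MulAction.orbit H x).ncard := by
    rw [Set.ncard_pos]; exact ⟨x, MulAction.mem_orbit_self x⟩
  have c3 : d ∣ 1 := by
    have := Nat.dvd_sub c2 c1
    rwa [Nat.sub_sub_self hpos] at this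
  exact hd1 (Nat.dvd_one.mp c3)

end Cfsg.Agent.S0744
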