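import Cfsg.Statements.S0757
import Cfsg.Agent.LibH22Quad

set_option autoImplicit false
open Cfsg

namespace Cfsg.Agent.S0757

/-- The two diagonal forms Σ x_i^2 and Σ_(i<n) x_i^2 + α x_n^2 on F^(n+1), with α a non-square and 2 ≠ 0 in F, are inequivalent quadratic forms (so over a finite field of odd order there are exactly two classes of non-singular symmetric bilinear forms in each dimension). -/
theorem result {F : Type*} [Field F] (h2 : (2 : F) ≠ 0) (n : ℕ) (α : F) (hα : ¬ IsSquare α) : ¬ (QuadraticMap.weightedSumSquares F (fun _ : Fin (n + 1) => (1 : F))).Equivalent (QuadraticMap.weightedSumSquares F (fun i : Fin (n + 1) => if i = Fin.last n then α else (1 : F))) := by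
  classical
  rintro ⟨g⟩
  obtain ⟨w, hw⟩ : ∃ w : Fin (n + 1) → F, w = (fun i : Fin (n + 1) => if i = Fin.last n then α else (1 : F)) := ⟨_, rfl⟩
  have hg : ∀ x, ∑ i, w i * (g x i * g x i) = ∑ i, x i * x i := by
    intro x
    have h1 := g.map_app x
    rw [QuadraticMap.weightedSumSquares_apply, QuadraticMap.weightedSumSquares_apply] at h1
    simp only [smul_eq_mul, one_mul] at h1
    rw [hw]
    exact h1
  have hgadd : ∀ x y, g (x + y) = g x + g y := fun x y => g.toLinearEquiv.map_add x y
  have hpol : ∀ x y, ∑ i, w i * (g x i * g y i) = ∑ i, x i * y i := by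
    intro x y
    have h1 := hg (x + y)
    rw [hgadd] at h1
    have h2' := hg x
    have h3 := hg y
    have h4 : 2 * ∑ i, w i * (g x i * g y i) = 2 * ∑ i, x i * y i := by
      have e1 : ∑ i, w i * ((g x + g y) i * (g x + g y) i) = ∑ i, w i * (g x i * g x i) + ∑ i, w i * (g y i * g y i) + 2 * ∑ i, w i * (g x i * g y i) := by
        rw [Finset.mul_sum, ← Finset.sum_add_distrib, ← Finset.sum_add_distrib]
        refine Finset.sum_congr rfl fun i _ => ?_
        simp only [Pi.add_apply]; ring
      have e2 : ∑ i, (x + y) i * (x + y) i = ∑ i, x i * x i + ∑ i, y i * y i + 2 * ∑ i, x i * y i := by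
        rw [Finset.mul_sum, ← Finset.sum_add_distrib, ← Finset.sum_add_distrib]
        refine Finset.sum_congr rfl fun i _ => ?_
        simp only [Pi.add_apply]; ring
      rw [e1, e2] at h1
      linear_combination h1 - h2' - h3
    exact mul_left_cancel₀ h2 h4
  let M : Matrix (Fin (n + 1)) (Fin (n + 1)) F := Matrix.of (fun i j => g (Pi.single j 1) i)
  have hM : M.transpose * Matrix.diagonal w * M = 1 := by
    ext a b
    rw [Matrix.mul_assoc, Matrix.mul_apply]
    have := hpol (Pi.single a 1) (Pi.single b 1)
    simp only [Matrix.transpose_apply, Matrix.diagonal_mul]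
    calc ∑ j, M j a * (w j * M j b) = ∑ i, w i * (g (Pi.single a 1) i * g (Pi.single b 1) i) :=
          Finset.sum_congr rfl fun i _ => by simp only [M, Matrix.of_apply]; ring
      _ = _ := this
      _ = (1 : Matrix (Fin (n + 1)) (Fin (n + 1)) F) a b := by
          simp [Pi.single_apply, Matrix.one_apply, eq_comm]
  have hdet := congrArg Matrix.det hM
  rw [Matrix.det_mul, Matrix.det_mul, Matrix.det_transpose, Matrix.det_diagonal, Matrix.det_one] at hdet
  have hprod : ∏ i, w i = α := by
    rw [hw, Finset.prod_ite_eq' Finset.univ (Fin.last n)]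
    simp
  rw [hprod] at hdet
  apply hα
  have hM0 : M.det ≠ 0 := by
    intro h; rw [h] at hdet; simp at hdet
  refine ⟨M.det⁻¹, ?_⟩
  field_simp
  linear_combination hdet

end Cfsg.Agent.S0757
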