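import Cfsg.Statements.S0758
import Cfsg.Agent.LibH22Fin

set_option autoImplicit false
open Cfsg

namespace Cfsg.Agent.S0758

/-- For a finite field F of odd order q and a non-square α: the form x² + y² is isotropic iff q ≡ 1 mod 4, and the form x² + α y² is isotropic iff q ≡ 3 mod 4. -/
theorem result {F : Type*} [Field F] [Fintype F] (h2 : (2 : F) ≠ 0) (α : F) (hα : ¬ IsSquare α) : ((∃ x y : F, (x ≠ 0 ∨ y ≠ 0) ∧ x ^ 2 + y ^ 2 = 0) ↔ Fintype.card F % 4 = 1) ∧ ((∃ x y : F, (x ≠ 0 ∨ y ≠ 0) ∧ x ^ 2 + α * y ^ 2 = 0) ↔ Fintype.card F % 4 = 3) := by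
  classical
  have hsq : ∀ β : F, (∃ x y : F, (x ≠ 0 ∨ y ≠ 0) ∧ x ^ 2 + β * y ^ 2 = 0) ↔ (IsSquare (-β)) := by
    intro β
    constructor
    · rintro ⟨x, y, hxy, h⟩
      by_cases hy : y = 0
      · exfalso
        rw [hy] at h hxy
        have hx : x = 0 := by
          have : x ^ 2 = 0 := by linear_combination h
          exact pow_eq_zero_iff (two_ne_zero) |>.1 this
        rcases hxy with h1 | h1
        · exact h1 hx
        · exact h1 rfl
      · refine ⟨x / y, ?_⟩
        field_simp
        linear_combination -h
    · rintro ⟨t, ht⟩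
      exact ⟨t, 1, Or.inr one_ne_zero, by linear_combination -ht⟩
  have hodd := Cfsg.Agent.H22.odd_of_two_ne_zero h2
  have hchar : ringChar F ≠ 2 := by
    intro h
    apply h2
    have := ringChar.Nat.cast_ringChar (R := F)
    rw [h] at this
    exact_mod_cast this
  have hneg := FiniteField.isSquare_neg_one_iff (F := F)
  rw [Nat.odd_iff] at hodd
  constructor
  · have h1 := hsq 1
    simp only [one_mul] at h1
    rw [h1, hneg]
    omega
  · rw [hsq α]
    have hprod : IsSquare (-α) ↔ ¬ IsSquare (-1 : F) := by
      have hα0 : α ≠ 0 := by rintro rfl; exact hα (IsSquare.zero)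
      constructor
      · intro h1 h3
        apply hα
        have : α = (-α) * (-1) := by ring
        rw [this]; exact h1.mul h3
      · intro h1
        -- product of two nonsquares is a square
        have h3 : quadraticChar F (-α) = 1 := by
          classical
          have e : (-α) = (-1) * α := by ring
          rw [e, map_mul, quadraticChar_neg_one_iff_not_isSquare.2 h1, quadraticChar_neg_one_iff_not_isSquare.2 hα]
          norm_num
        exact (quadraticChar_one_iff_isSquare (neg_ne_zero.2 hα0)).1 h3
    rw [hprod, hneg]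
    omega

end Cfsg.Agent.S0758
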