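import Cfsg.Statements.S0759
import Cfsg.Agent.LibH22Exist

set_option autoImplicit false
open Cfsg

namespace Cfsg.Agent.S0759
open Cfsg.Agent.H22 Module

theorem exists_of_map {F : Type*} [Field F] {m : ℕ} {ι : Type} [Fintype ι] [DecidableEq ι] (hι : Fintype.card ι = m)
    (L : (ι → F) →ₗ[F] (ι → F)) (hL : ∀ x, ∑ i, (L x i) ^ 2 = - ∑ i, (x i) ^ 2) :
    ∃ W : Submodule F (Fin (2 * m) → F), Module.finrank F W = m ∧ ∀ w ∈ W, ∑ i, w i ^ 2 = 0 := by
  obtain ⟨e⟩ : Nonempty ((ι ⊕ ι) ≃ Fin (2 * m)) := ⟨Fintype.equivOfCardEq (by simp [hι]; ring)⟩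
  obtain ⟨φ, hφ⟩ : ∃ φ : (ι → F) →ₗ[F] (Fin (2 * m) → F), ∀ x k, φ x (e k) = Sum.elim x (L x) k := by
    refine ⟨{ toFun := fun x k => Sum.elim x (L x) (e.symm k), map_add' := ?_, map_smul' := ?_ }, fun x k => ?_⟩
    · intro x y
      funext k
      show Sum.elim (x + y) (L (x + y)) (e.symm k) = Sum.elim x (L x) (e.symm k) + Sum.elim y (L y) (e.symm k)
      rw [map_add]
      rcases e.symm k with j | j <;> rfl
    · intro c x
      funext k
      show Sum.elim (c • x) (L (c • x)) (e.symm k) = c * Sum.elim x (L x) (e.symm k)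
      rw [map_smul]
      rcases e.symm k with j | j <;> rfl
    · show Sum.elim x (L x) (e.symm (e k)) = _
      rw [Equiv.symm_apply_apply]
  have hinj : Function.Injective φ := by
    intro x y h
    funext j
    have := congrFun h (e (Sum.inl j))
    rw [hφ, hφ] at this
    exact this
  refine ⟨LinearMap.range φ, ?_, ?_⟩
  · rw [LinearMap.finrank_range_of_inj hinj, finrank_fintype_fun_eq_card, hι]
  · rintro _ ⟨x, rfl⟩
    rw [← e.sum_comp, Fintype.sum_sum_type]
    simp only [hφ, Sum.elim_inl, Sum.elim_inr]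
    rw [hL]; ring

theorem sq_of_exists {F : Type*} [Field F] {m : ℕ} (W : Submodule F (Fin (2 * m) → F)) (hWm : Module.finrank F W = m) (h2 : (2 : F) ≠ 0)
    (hW : ∀ w ∈ W, ∑ i, w i ^ 2 = 0) (hm : Odd m) : IsSquare (-1 : F) := by
  classical
  obtain ⟨W', hW'⟩ := Submodule.exists_isCompl W
  have hr : finrank F W' = m := by
    have := Submodule.finrank_add_eq_of_isCompl hW'
    rw [hWm, finrank_fintype_fun_eq_card, Fintype.card_fin] at this
    omega
  obtain ⟨b1, -⟩ : ∃ b : Basis (Fin m) F W, True := ⟨finBasisOfFinrankEq F W hWm, trivial⟩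
  obtain ⟨b2, -⟩ : ∃ b : Basis (Fin m) F W', True := ⟨finBasisOfFinrankEq F W' hr, trivial⟩
  obtain ⟨b, hb⟩ : ∃ b : Basis (Fin m ⊕ Fin m) F (Fin (2 * m) → F), b = (b1.prod b2).map (Submodule.prodEquivOfIsCompl W W' hW') := ⟨_, rfl⟩
  have hbl : ∀ j, b (Sum.inl j) ∈ W := by
    intro j
    rw [hb, Basis.map_apply]
    have : (Submodule.prodEquivOfIsCompl W W' hW') ((b1.prod b2) (Sum.inl j)) = (b1 j : Fin (2 * m) → F) := by
      rw [Submodule.coe_prodEquivOfIsCompl' W W' hW']
      simp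
    rw [this]
    exact (b1 j).2
  have hpol : ∀ u ∈ W, ∀ v ∈ W, ∑ i, u i * v i = 0 := by
    intro u hu v hv
    have h3 := hW _ (W.add_mem hu hv)
    have h4 : ∑ i, (u + v) i ^ 2 = ∑ i, u i ^ 2 + 2 * ∑ i, u i * v i + ∑ i, v i ^ 2 := by
      rw [Finset.mul_sum, ← Finset.sum_add_distrib, ← Finset.sum_add_distrib]
      exact Finset.sum_congr rfl fun i _ => by rw [Pi.add_apply]; ring
    rw [h4, hW u hu, hW v hv, zero_add, add_zero] at h3
    exact (mul_eq_zero.1 h3).resolve_left h2
  obtain ⟨e⟩ : Nonempty ((Fin m ⊕ Fin m) ≃ Fin (2 * m)) := ⟨Fintype.equivOfCardEq (by simp; ring)⟩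
  obtain ⟨P, hP⟩ : ∃ P : Matrix (Fin m ⊕ Fin m) (Fin m ⊕ Fin m) F, P = Matrix.of fun i j => b j (e i) := ⟨_, rfl⟩
  have hG : ∀ j k, (P.transpose * P) j k = ∑ i, b j i * b k i := by
    intro j k
    rw [Matrix.mul_apply, ← e.sum_comp, hP]
    rfl
  have hdetP : P.det ≠ 0 := by
    intro h0
    obtain ⟨v, hv0, hv⟩ := Matrix.exists_mulVec_eq_zero_iff.2 h0
    apply hv0
    have h3 : ∑ j, v j • b j = 0 := by
      funext k
      obtain ⟨k, rfl⟩ := e.surjective k
      have h4 := congrFun hv k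
      rw [Finset.sum_apply, Pi.zero_apply]
      rw [Matrix.mulVec, dotProduct, hP] at h4
      refine Eq.trans (Finset.sum_congr rfl fun j _ => ?_) h4
      rw [Pi.smul_apply, smul_eq_mul, mul_comm]; rfl
    funext j
    exact Fintype.linearIndependent_iff.1 b.linearIndependent v h3 j
  obtain ⟨B, hB⟩ : ∃ B : Matrix (Fin m) (Fin m) F, B = (P.transpose * P).toBlocks₁₂ := ⟨_, rfl⟩
  obtain ⟨C, hC⟩ : ∃ C : Matrix (Fin m) (Fin m) F, C = (P.transpose * P).toBlocks₂₂ := ⟨_, rfl⟩
  have hGB : P.transpose * P = Matrix.fromBlocks 0 B B.transpose C := by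
    rw [← Matrix.fromBlocks_toBlocks (P.transpose * P), ← hB, ← hC]
    congr 1
    · ext j k
      show (P.transpose * P) (Sum.inl j) (Sum.inl k) = 0
      rw [hG]
      exact hpol _ (hbl j) _ (hbl k)
    · ext j k
      rw [hB]
      show (P.transpose * P) (Sum.inr j) (Sum.inl k) = (P.transpose * P) (Sum.inl k) (Sum.inr j)
      rw [hG, hG]
      exact Finset.sum_congr rfl fun i _ => mul_comm _ _
  have hJ : (Matrix.fromBlocks 0 (-1) 1 0 : Matrix (Fin m ⊕ Fin m) (Fin m ⊕ Fin m) F).det = 1 := by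
    have h5 : (Matrix.fromBlocks 0 (-1) 1 0 : Matrix (Fin m ⊕ Fin m) (Fin m ⊕ Fin m) F) =
        Matrix.fromBlocks 1 (-1) 0 1 * Matrix.fromBlocks 1 0 1 1 * Matrix.fromBlocks 1 (-1) 0 1 := by
      rw [Matrix.fromBlocks_multiply, Matrix.fromBlocks_multiply]
      simp
    rw [h5, Matrix.det_mul, Matrix.det_mul, Matrix.det_fromBlocks_zero₂₁, Matrix.det_fromBlocks_zero₁₂]
    simp
  have hdet : P.det * P.det = - (B.det * B.det) := by
    have h6 : (P.transpose * P * Matrix.fromBlocks 0 (-1) 1 0).det = P.det * P.det := by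
      rw [Matrix.det_mul, hJ, mul_one, Matrix.det_mul, Matrix.det_transpose]
    rw [← h6, hGB, Matrix.fromBlocks_multiply]
    have h7 : Matrix.fromBlocks (0 * 0 + B * 1) (0 * -1 + B * 0) (B.transpose * 0 + C * 1) (B.transpose * -1 + C * 0) = Matrix.fromBlocks B 0 C (-B.transpose) := by
      congr 1 <;> simp
    rw [h7, Matrix.det_fromBlocks_zero₁₂, Matrix.det_neg, Matrix.det_transpose, Fintype.card_fin, hm.neg_one_pow]
    ring
  have hB0 : B.det ≠ 0 := by
    intro h0
    rw [h0] at hdet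
    apply hdetP
    have : P.det * P.det = 0 := by rw [hdet]; ring
    exact mul_self_eq_zero.1 this
  refine ⟨P.det / B.det, ?_⟩
  field_simp
  linear_combination -hdet

/-- Type of the orthonormal form: over a finite field of odd order q and for m ≥ 1, the quadratic form Σ_(i<2m) x_i² on F^(2m) admits an m-dimensional subspace on which it vanishes identically if and only if it is not the case that q ≡ 3 (mod 4) and m is odd. -/
theorem result {F : Type*} [Field F] [Fintype F] (h2 : (2 : F) ≠ 0) (m : ℕ) (hm : 1 ≤ m) : (∃ W : Submodule F (Fin (2 * m) → F), Module.finrank F W = m ∧ ∀ w ∈ W, ∑ i, w i ^ 2 = 0) ↔ ¬ (Fintype.card F % 4 = 3 ∧ Odd m) := by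
  classical
  constructor
  · rintro ⟨W, hWm, hW⟩ ⟨h3, hodd⟩
    have := sq_of_exists W hWm h2 hW hodd
    exact (FiniteField.isSquare_neg_one_iff.1 this) h3
  · intro hcon
    by_cases hsq : IsSquare (-1 : F)
    · obtain ⟨i, hi⟩ := hsq
      refine exists_of_map (ι := Fin m) (Fintype.card_fin m) (i • LinearMap.id) (fun x => ?_)
      rw [← Finset.sum_neg_distrib]
      refine Finset.sum_congr rfl fun j _ => ?_
      show (i * x j) ^ 2 = - (x j) ^ 2
      linear_combination - (x j) ^ 2 * hi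
    · have h3 : Fintype.card F % 4 = 3 := by
        by_contra h
        exact hsq (FiniteField.isSquare_neg_one_iff.2 h)
      have hev : Even m := by
        rw [← Nat.not_odd_iff_even]
        exact fun h => hcon ⟨h3, h⟩
      obtain ⟨l, hl⟩ := hev
      obtain ⟨a, b, hab⟩ := exists_binary h2 1 1 (-1) one_ne_zero one_ne_zero
      rw [mul_one, mul_one] at hab
      refine exists_of_map (ι := Fin l ⊕ Fin l) (by simp [hl])
        { toFun := fun x => Sum.elim (fun j => a * x (Sum.inl j) - b * x (Sum.inr j)) (fun j => b * x (Sum.inl j) + a * x (Sum.inr j)), map_add' := ?_, map_smul' := ?_ } (fun x => ?_)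
      · intro x y
        funext j
        rcases j with j | j
        · simp; ring
        · simp; ring
      · intro c x
        funext j
        rcases j with j | j
        · simp; ring
        · simp; ring
      · rw [Fintype.sum_sum_type, Fintype.sum_sum_type, neg_add, ← Finset.sum_neg_distrib, ← Finset.sum_neg_distrib, ← Finset.sum_add_distrib, ← Finset.sum_add_distrib]
        refine Finset.sum_congr rfl fun j _ => ?_
        show (a * x (Sum.inl j) - b * x (Sum.inr j)) ^ 2 + (b * x (Sum.inl j) + a * x (Sum.inr j)) ^ 2 = - (x (Sum.inl j)) ^ 2 + - (x (Sum.inr j)) ^ 2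
        linear_combination ((x (Sum.inl j)) ^ 2 + (x (Sum.inr j)) ^ 2) * hab

end Cfsg.Agent.S0759
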