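import Cfsg.Statements.S0760
import Cfsg.Agent.LibH22WittQ

set_option autoImplicit false
open Cfsg

namespace Cfsg.Agent.S0760
open Cfsg.Agent.H22 Module

theorem dim_le {F V : Type*} [Field F] [Finite F] [AddCommGroup V] [Module F V] [FiniteDimensional F V] (Q : QuadraticForm F V) (hQ : (QuadraticMap.polarBilin Q).Nondegenerate) (W₁ W₂ : Submodule F V) (h₁ : ∀ w ∈ W₁, Q w = 0) (h₂ : ∀ w ∈ W₂, Q w = 0) (hmax₁ : ∀ W : Submodule F V, W₁ ≤ W → (∀ w ∈ W, Q w = 0) → W = W₁) :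
    finrank F W₂ ≤ finrank F W₁ := by
  classical
  by_contra hlt
  push Not at hlt
  obtain ⟨b1, hb1⟩ : ∃ b : Basis (Fin (finrank F W₁)) F W₁, b = finBasis F W₁ := ⟨_, rfl⟩
  obtain ⟨b2, hb2⟩ : ∃ b : Basis (Fin (finrank F W₂)) F W₂, b = finBasis F W₂ := ⟨_, rfl⟩
  obtain ⟨g, hg, hgu⟩ := witt_ext (OGrp Q) (fun v hv => refl_mem Q v hv) (fun v w hv hw => eich_mem Q v w hv hw) hQ le_rfl (finrank F W₁)
    (fun i => (b2 (Fin.castLE hlt.le i) : V)) (fun i => (b1 i : V))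
    ((b2.linearIndependent.map' W₂.subtype (Submodule.ker_subtype W₂)).comp _ (Fin.castLE_injective hlt.le))
    (b1.linearIndependent.map' W₁.subtype (Submodule.ker_subtype W₁))
    (fun i => by rw [h₂ _ (b2 _).2, h₁ _ (b1 _).2])
    (fun i j => by
      unfold QuadraticMap.polar
      rw [h₂ _ (b2 _).2, h₂ _ (b2 _).2, h₂ _ (W₂.add_mem (b2 _).2 (b2 _).2), h₁ _ (b1 _).2, h₁ _ (b1 _).2, h₁ _ (W₁.add_mem (b1 _).2 (b1 _).2)])
  have hle : W₁ ≤ W₂.map (g : V →ₗ[F] V) := by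
    intro w hw
    have h3 : (⟨w, hw⟩ : W₁) ∈ Submodule.span F (Set.range b1) := by rw [b1.span_eq]; trivial
    have h4 : w ∈ (Submodule.span F (Set.range b1)).map W₁.subtype := ⟨_, h3, rfl⟩
    rw [Submodule.map_span] at h4
    refine (Submodule.span_le.2 ?_) h4
    rintro _ ⟨_, ⟨i, rfl⟩, rfl⟩
    exact ⟨(b2 (Fin.castLE hlt.le i) : V), (b2 _).2, hgu i⟩
  have h5 := hmax₁ (W₂.map (g : V →ₗ[F] V)) hle (by
    rintro _ ⟨v, hv, rfl⟩
    exact (hg v).trans (h₂ v hv))
  have h6 := LinearEquiv.finrank_map_eq g W₂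
  rw [h5] at h6
  omega

/-- Witt index is well defined: if Q is a quadratic form on a finite-dimensional space V over a finite field with non-degenerate polar form, and W₁, W₂ are subspaces on which Q vanishes that are maximal with this property, then W₁ and W₂ have the same dimension, and twice this dimension is at most dim V. -/
theorem result {F V : Type*} [Field F] [Finite F] [AddCommGroup V] [Module F V] [FiniteDimensional F V] (Q : QuadraticForm F V) (hQ : (QuadraticMap.polarBilin Q).Nondegenerate) (W₁ W₂ : Submodule F V) (h₁ : ∀ w ∈ W₁, Q w = 0) (h₂ : ∀ w ∈ W₂, Q w = 0) (hmax₁ : ∀ W : Submodule F V, W₁ ≤ W → (∀ w ∈ W, Q w = 0) → W = W₁) (hmax₂ : ∀ W : Submodule F V, W₂ ≤ W → (∀ w ∈ W, Q w = 0) → W = W₂) : Module.finrank F W₁ = Module.finrank F W₂ ∧ 2 * Module.finrank F W₁ ≤ Module.finrank F V := by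
  refine ⟨le_antisymm (dim_le Q hQ W₂ W₁ h₂ h₁ hmax₂) (dim_le Q hQ W₁ W₂ h₁ h₂ hmax₁), ?_⟩
  have hS : (QuadraticMap.polarBilin Q).IsRefl := by
    intro x y h
    rw [QuadraticMap.polarBilin_apply_apply] at h ⊢
    rw [QuadraticMap.polar_comm]; exact h
  have h3 : W₁ ≤ LinearMap.BilinForm.orthogonal (QuadraticMap.polarBilin Q) W₁ := by
    intro w hw
    rw [LinearMap.BilinForm.mem_orthogonal_iff]
    intro v hv
    show QuadraticMap.polar Q v w = 0
    unfold QuadraticMap.polar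
    rw [h₁ _ (W₁.add_mem hv hw), h₁ _ hv, h₁ _ hw]
    ring
  have h4 := LinearMap.BilinForm.finrank_orthogonal hQ W₁
  have h5 := Submodule.finrank_mono h3
  have h6 := Submodule.finrank_le W₁
  omega

end Cfsg.Agent.S0760
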