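import Cfsg.Statements.S0761
import Cfsg.Agent.LibH22Alt

set_option autoImplicit false
open Cfsg

namespace Cfsg.Agent.S0761

/-- Hyperbolic partners: let B be a non-degenerate bilinear form on a finite-dimensional space, either alternating, or symmetric with 2 ≠ 0. If Z is a subspace on which B vanishes, x ∉ Z is isotropic and orthogonal to Z, then there is an isotropic y with B x y = 1 which is orthogonal to Z. -/
theorem result {F V : Type*} [Field F] [AddCommGroup V] [Module F V] [FiniteDimensional F V] (B : LinearMap.BilinForm F V) (hB : B.Nondegenerate) (hform : B.IsAlt ∨ (B.IsSymm ∧ (2 : F) ≠ 0)) (x : V) (Z : Submodule F V) (hxZ : x ∉ Z) (hx : B x x = 0) (hxz : ∀ z ∈ Z, B x z = 0) (hZ : ∀ z ∈ Z, ∀ z' ∈ Z, B z z' = 0) : ∃ y : V, B y y = 0 ∧ B x y = 1 ∧ ∀ z ∈ Z, B z y = 0 := by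
  have hR : B.IsRefl := by
    rcases hform with h | h
    · exact h.isRefl
    · exact h.1.isRefl
  obtain ⟨s, hs, hs1⟩ := Cfsg.Agent.H22.exists_functional_ne_zero B hR hB Z x hxZ
  rw [LinearMap.BilinForm.mem_orthogonal_iff] at hs
  have hzs : ∀ z ∈ Z, B z s = 0 := fun z hz => hs z hz
  have hzx : ∀ z ∈ Z, B z x = 0 := fun z hz => hR _ _ (hxz z hz)
  rcases hform with h | ⟨h, h2⟩
  · refine ⟨(B x s)⁻¹ • s, h.self_eq_zero _, ?_, ?_⟩
    · rw [map_smul, smul_eq_mul, inv_mul_cancel₀ hs1]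
    · intro z hz; rw [map_smul, hzs z hz, smul_zero]
  · obtain ⟨t, ht⟩ : ∃ t, t = (B x s)⁻¹ • s := ⟨_, rfl⟩
    have hxt : B x t = 1 := by rw [ht, map_smul, smul_eq_mul, inv_mul_cancel₀ hs1]
    have htx : B t x = 1 := by rw [h.eq t x]; exact hxt
    have hzt : ∀ z ∈ Z, B z t = 0 := by intro z hz; rw [ht, map_smul, hzs z hz, smul_zero]
    refine ⟨t - (B t t / 2) • x, ?_, ?_, ?_⟩
    · simp only [map_sub, LinearMap.sub_apply, map_smul, LinearMap.smul_apply, hx, hxt, htx, smul_eq_mul]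
      field_simp
      ring
    · rw [map_sub, map_smul, hx, hxt, smul_zero, sub_zero]
    · intro z hz
      rw [map_sub, map_smul, hzx z hz, hzt z hz, smul_zero, sub_zero]

end Cfsg.Agent.S0761
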