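import Cfsg.Statements.S0762
import Cfsg.Agent.LibH22Quad

set_option autoImplicit false
open Cfsg

namespace Cfsg.Agent.S0762
lemma exists_sqrt {F : Type*} [Field F] [Finite F] [CharP F 2] (a : F) : ∃ t : F, t ^ 2 = a := by
  haveI := Fintype.ofFinite F
  have h := FiniteField.isSquare_of_char_two (F := F) (ringChar.eq F 2 ▸ rfl) a
  obtain ⟨t, ht⟩ := h
  exact ⟨t, by rw [ht, pow_two]⟩

/-- In characteristic two over a finite field, a quadratic form on a space of dimension at least 3 vanishes on some non-zero vector. -/
theorem result {F V : Type*} [Field F] [Finite F] [CharP F 2] [AddCommGroup V] [Module F V] [FiniteDimensional F V] (Q : QuadraticForm F V) (h3 : 3 ≤ Module.finrank F V) : ∃ v : V, v ≠ 0 ∧ Q v = 0 := by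
  have h2 : (2 : F) = 0 := by exact_mod_cast CharP.cast_eq_zero F 2
  haveI : Nontrivial V := Module.nontrivial_of_finrank_pos (R := F) (by omega)
  obtain ⟨u, hu⟩ := exists_ne (0 : V)
  by_cases hQu : Q u = 0
  · exact ⟨u, hu, hQu⟩
  · -- w in ker of polar(u,.) not in span u
    have hker : ∃ w ∈ LinearMap.ker (QuadraticMap.polarBilin Q u), w ∉ Submodule.span F {u} := by
      by_contra hcon
      push Not at hcon
      have h1 : LinearMap.ker (QuadraticMap.polarBilin Q u) ≤ Submodule.span F {u} := hcon
      have h3' := Submodule.finrank_mono h1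
      rw [finrank_span_singleton hu] at h3'
      have h4 := LinearMap.finrank_range_add_finrank_ker (QuadraticMap.polarBilin Q u)
      have h5 : Module.finrank F (LinearMap.range (QuadraticMap.polarBilin Q u)) ≤ 1 := by
        have := Submodule.finrank_le (LinearMap.range (QuadraticMap.polarBilin Q u))
        rwa [Module.finrank_self] at this
      omega
    obtain ⟨w, hw, hwu⟩ := hker
    obtain ⟨t, ht⟩ := exists_sqrt (Q w / Q u)
    refine ⟨w + t • u, ?_, ?_⟩
    · intro h0
      apply hwu
      rw [Submodule.mem_span_singleton]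
      exact ⟨-t, by rw [neg_smul]; exact (eq_neg_of_add_eq_zero_left h0).symm⟩
    · have hpol : QuadraticMap.polar Q u w = 0 := hw
      have e : Q (w + t • u) = Q w + t * t * Q u + t * QuadraticMap.polar Q w u := by
        rw [QuadraticMap.map_add Q, QuadraticMap.map_smul, QuadraticMap.polar_smul_right]; simp
      rw [e, QuadraticMap.polar_comm, hpol, mul_zero, add_zero]
      have : t * t * Q u = Q w := by
        rw [← pow_two, ht, div_mul_cancel₀ _ hQu]
      rw [this]
      linear_combination (Q w) * h2

end Cfsg.Agent.S0762
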