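import Cfsg.Statements.S0763
import Cfsg.Agent.LibH22Quad

set_option autoImplicit false
open Cfsg

namespace Cfsg.Agent.S0763
lemma exists_sqrt {F : Type*} [Field F] [Finite F] [CharP F 2] (a : F) : ∃ t : F, t ^ 2 = a := by
  haveI := Fintype.ofFinite F
  have h := FiniteField.isSquare_of_char_two (F := F) (ringChar.eq F 2 ▸ rfl) a
  obtain ⟨t, ht⟩ := h
  exact ⟨t, by rw [ht, pow_two]⟩

/-- Binary quadratic forms in characteristic two over a finite field: if Q is a quadratic form on a 2-dimensional space whose polar form is non-degenerate, then either there are vectors v, w with Q v = Q w = 0 and polar value 1 (Q is xy in these coordinates), or there are v, w and μ with Q v = 1, Q w = μ, polar value 1 and x² + x + μ without roots in F (Q is x² + xy + μy²). -/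
theorem result {F V : Type*} [Field F] [Finite F] [CharP F 2] [AddCommGroup V] [Module F V] (Q : QuadraticForm F V) (h2 : Module.finrank F V = 2) (hQ : (QuadraticMap.polarBilin Q).Nondegenerate) : (∃ v w : V, LinearIndependent F ![v, w] ∧ Q v = 0 ∧ Q w = 0 ∧ QuadraticMap.polar Q v w = 1) ∨ (∃ (v w : V) (μ : F), LinearIndependent F ![v, w] ∧ (∀ x : F, x ^ 2 + x + μ ≠ 0) ∧ Q v = 1 ∧ Q w = μ ∧ QuadraticMap.polar Q v w = 1) := by
  have h22 : (2 : F) = 0 := by exact_mod_cast CharP.cast_eq_zero F 2
  haveI : FiniteDimensional F V := Module.finite_of_finrank_pos (by omega)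
  haveI : Nontrivial V := Module.nontrivial_of_finrank_pos (R := F) (by omega)
  have hself : ∀ v, QuadraticMap.polar Q v v = 0 := by
    intro v; rw [QuadraticMap.polar_self, two_smul]; linear_combination (Q v) * h22
  have hadd : ∀ x y, Q (x + y) = Q x + Q y + QuadraticMap.polar Q x y := fun x y => QuadraticMap.map_add Q x y
  have hsm : ∀ (a : F) x, Q (a • x) = a * a * Q x := fun a x => by rw [QuadraticMap.map_smul]; rfl
  have hpartner : ∀ v : V, v ≠ 0 → ∃ w, QuadraticMap.polar Q v w = 1 := by
    intro v hv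
    have h1 : ∃ w, QuadraticMap.polar Q v w ≠ 0 := by
      by_contra hcon
      push Not at hcon
      exact hv (hQ.1 v hcon)
    obtain ⟨w, hw⟩ := h1
    exact ⟨(QuadraticMap.polar Q v w)⁻¹ • w, by rw [QuadraticMap.polar_smul_right, smul_eq_mul, inv_mul_cancel₀ hw]⟩
  have hind : ∀ v w, QuadraticMap.polar Q v w = 1 → LinearIndependent F ![v, w] := by
    intro v w h
    rw [LinearIndependent.pair_iff]
    intro s t hst
    have h1 := congrArg (fun x => QuadraticMap.polar Q x w) hst
    have h2 := congrArg (fun x => QuadraticMap.polar Q v x) hst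
    simp only [QuadraticMap.polar_add_left, QuadraticMap.polar_smul_left, QuadraticMap.polar_add_right, QuadraticMap.polar_smul_right,
      hself, h, smul_eq_mul, QuadraticMap.polar_zero_left, QuadraticMap.polar_zero_right] at h1 h2
    simp at h1 h2
    exact ⟨h1, h2⟩
  by_cases hsing : ∃ v, v ≠ 0 ∧ Q v = 0
  · left
    obtain ⟨v, hv, hQv⟩ := hsing
    obtain ⟨w, hw⟩ := hpartner v hv
    refine ⟨v, w + Q w • v, ?_, hQv, ?_, ?_⟩
    · apply hind
      rw [QuadraticMap.polar_add_right, QuadraticMap.polar_smul_right, hself, hw]; simp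
    · rw [hadd, hsm, hQv, QuadraticMap.polar_smul_right, QuadraticMap.polar_comm, hw]
      simp only [smul_eq_mul]
      linear_combination (Q w) * h22
    · rw [QuadraticMap.polar_add_right, QuadraticMap.polar_smul_right, hself, hw]; simp
  · right
    push Not at hsing
    obtain ⟨v₀, hv₀⟩ := exists_ne (0 : V)
    obtain ⟨t, ht⟩ := exists_sqrt ((Q v₀)⁻¹)
    have hq0 := hsing v₀ hv₀
    have ht0 : t ≠ 0 := by
      rintro rfl
      rw [zero_pow two_ne_zero] at ht
      exact inv_ne_zero hq0 ht.symm
    obtain ⟨v, hvdef⟩ : ∃ v, v = t • v₀ := ⟨_, rfl⟩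
    have hv1 : Q v = 1 := by rw [hvdef, hsm, ← pow_two, ht, inv_mul_cancel₀ hq0]
    have hv : v ≠ 0 := by rw [hvdef]; exact smul_ne_zero ht0 hv₀
    obtain ⟨w, hw⟩ := hpartner v hv
    refine ⟨v, w, Q w, hind v w hw, ?_, hv1, rfl, hw⟩
    intro x hx
    have h1 : Q (x • v + w) = 0 := by
      rw [hadd, hsm, QuadraticMap.polar_smul_left, hv1, hw]
      simp only [smul_eq_mul]
      linear_combination hx
    have h2 : x • v + w = 0 := by
      by_contra hne
      exact hsing _ hne h1
    have h3 := hind v w hw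
    rw [LinearIndependent.pair_iff] at h3
    have := h3 x 1 (by rw [one_smul]; exact h2)
    exact one_ne_zero this.2

end Cfsg.Agent.S0763
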