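import Cfsg.Statements.S0769
import Cfsg.Agent.LibH22Lin

set_option autoImplicit false
open Cfsg

namespace Cfsg.Agent.S0769
open Cfsg.Agent.H22

/-- the lower triangular matrix -/
def lowT {F : Type*} [Field F] {n : ℕ} (d : Fin n → Fˣ) (l : ∀ i : Fin n, Fin (i : ℕ) → F) : Matrix (Fin n) (Fin n) F :=
  Matrix.of fun i j => if h : (j : ℕ) < (i : ℕ) then l i ⟨j, h⟩ else if i = j then (d i : F) else 0

lemma lowT_lt {F : Type*} [Field F] {n : ℕ} (d : Fin n → Fˣ) (l : ∀ i : Fin n, Fin (i : ℕ) → F) {i j : Fin n} (h : i < j) : lowT d l i j = 0 := by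
  have h1 : ¬ (j : ℕ) < (i : ℕ) := by
    have : (i : ℕ) < j := h
    omega
  unfold lowT
  rw [Matrix.of_apply, dif_neg h1, if_neg h.ne]

lemma lowT_eq {F : Type*} [Field F] {n : ℕ} (d : Fin n → Fˣ) (l : ∀ i : Fin n, Fin (i : ℕ) → F) (i : Fin n) : lowT d l i i = d i := by
  unfold lowT
  rw [Matrix.of_apply, dif_neg (lt_irrefl _), if_pos rfl]

lemma lowT_gt {F : Type*} [Field F] {n : ℕ} (d : Fin n → Fˣ) (l : ∀ i : Fin n, Fin (i : ℕ) → F) {i j : Fin n} (h : (j : ℕ) < i) : lowT d l i j = l i ⟨j, h⟩ := by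
  unfold lowT
  rw [Matrix.of_apply, dif_pos h]

lemma det_low {F : Type*} [Field F] {n : ℕ} (M : Matrix (Fin n) (Fin n) F) (h : ∀ i j : Fin n, i < j → M i j = 0) : M.det = ∏ i, M i i :=
  Matrix.det_of_lowerTriangular M (fun i j hij => h i j hij)

/-- Order of the Borel subgroup of GL_n(q): the invertible lower-triangular n × n matrices over a field with q elements number q^(n(n-1)/2) (q-1)^n (unitriangular part times the diagonal torus). -/
theorem result {F : Type*} [Field F] [Fintype F] {q : ℕ} (hF : Fintype.card F = q) (n : ℕ) : Nat.card {g : Matrix.GeneralLinearGroup (Fin n) F // ∀ i j : Fin n, i < j → (g : Matrix (Fin n) (Fin n) F) i j = 0} = q ^ (n * (n - 1) / 2) * (q - 1) ^ n := by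
  classical
  subst hF
  have e : {g : Matrix.GeneralLinearGroup (Fin n) F // ∀ i j : Fin n, i < j → (g : Matrix (Fin n) (Fin n) F) i j = 0} ≃
      (Fin n → Fˣ) × (∀ i : Fin n, Fin (i : ℕ) → F) := by
    have hne : ∀ g : {g : Matrix.GeneralLinearGroup (Fin n) F // ∀ i j : Fin n, i < j → (g : Matrix (Fin n) (Fin n) F) i j = 0}, ∀ i, (g.1 : Matrix (Fin n) (Fin n) F) i i ≠ 0 := by
      intro g i h
      have h1 := det_low _ g.2
      rw [Finset.prod_eq_zero (f := fun i => (g.1 : Matrix (Fin n) (Fin n) F) i i) (Finset.mem_univ i) h] at h1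
      exact Matrix.GeneralLinearGroup.det_ne_zero g.1 h1
    refine ⟨fun g => (fun i => Units.mk0 _ (hne g i), fun i j => (g.1 : Matrix (Fin n) (Fin n) F) i ⟨j, lt_trans j.2 i.2⟩),
      fun p => ⟨Matrix.GeneralLinearGroup.mkOfDetNeZero (lowT p.1 p.2) (by
        rw [det_low _ (fun i j h => lowT_lt _ _ h)]
        exact Finset.prod_ne_zero_iff.2 fun i _ => by rw [lowT_eq]; exact (p.1 i).ne_zero), fun i j h => lowT_lt _ _ h⟩, ?_, ?_⟩
    · intro g
      apply Subtype.ext
      apply Units.ext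
      show lowT _ _ = (g.1 : Matrix (Fin n) (Fin n) F)
      ext i j
      rcases lt_trichotomy i j with h | h | h
      · rw [lowT_lt _ _ h, g.2 i j h]
      · subst h; rw [lowT_eq]; rfl
      · rw [lowT_gt _ _ h]
    · rintro ⟨d, l⟩
      refine Prod.ext ?_ ?_
      · funext i
        apply Units.ext
        exact lowT_eq d l i
      · funext i j
        exact lowT_gt d l j.2
  rw [Nat.card_congr e, Nat.card_prod, Nat.card_pi, Nat.card_pi]
  simp only [Nat.card_eq_fintype_card, Fintype.card_pi, Fintype.card_units, Finset.prod_const, Finset.card_univ, Fintype.card_fin]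
  rw [mul_comm, Finset.prod_pow_eq_pow_sum, Fin.sum_univ_eq_sum_range (fun i => i), Finset.sum_range_id]

end Cfsg.Agent.S0769
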