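import Cfsg.Statements.S0770
import Cfsg.Agent.LibH22Lin

set_option autoImplicit false
open Cfsg

namespace Cfsg.Agent.S0770
open Cfsg.Agent.H22

lemma mem_T {F : Type*} [Field F] {n : ℕ} (g : Matrix.GeneralLinearGroup (Fin n) F) :
    g ∈ ((Units.map (Matrix.diagonalRingHom (Fin n) F).toMonoidHom).range : Subgroup (Matrix.GeneralLinearGroup (Fin n) F)) ↔ ∃ d : Fin n → F, (g : Matrix (Fin n) (Fin n) F) = Matrix.diagonal d := by
  constructor
  · rintro ⟨u, rfl⟩
    exact ⟨u, rfl⟩
  · rintro ⟨d, hd⟩
    have hdet := Matrix.GeneralLinearGroup.det_ne_zero g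
    rw [hd, Matrix.det_diagonal] at hdet
    have hd0 : ∀ i, d i ≠ 0 := fun i => Finset.prod_ne_zero_iff.1 hdet i (Finset.mem_univ i)
    refine ⟨⟨d, fun i => (d i)⁻¹, ?_, ?_⟩, ?_⟩
    · funext i; exact mul_inv_cancel₀ (hd0 i)
    · funext i; exact inv_mul_cancel₀ (hd0 i)
    · apply Units.ext
      exact hd.symm

/-- For a field with at least 3 elements, an invertible matrix normalises the subgroup of invertible diagonal matrices of GL_n if and only if it is monomial (exactly one non-zero entry in each row). -/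
theorem result {F : Type*} [Field F] (hF : ∃ a : F, a ≠ 0 ∧ a ≠ 1) (n : ℕ) (g : Matrix.GeneralLinearGroup (Fin n) F) : g ∈ Subgroup.normalizer ((Units.map (Matrix.diagonalRingHom (Fin n) F).toMonoidHom).range : Subgroup (Matrix.GeneralLinearGroup (Fin n) F)) ↔ ∀ i : Fin n, ∃! j : Fin n, (g : Matrix (Fin n) (Fin n) F) i j ≠ 0 := by
  classical
  constructor
  · intro hg i
    rw [Subgroup.mem_normalizer_iff] at hg
    obtain ⟨a, ha0, ha1⟩ := hF
    -- existence
    obtain ⟨j, hj⟩ : ∃ j, (g : Matrix (Fin n) (Fin n) F) i j ≠ 0 := by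
      by_contra hcon
      push Not at hcon
      exact Matrix.GeneralLinearGroup.det_ne_zero g (Matrix.det_eq_zero_of_row_eq_zero i hcon)
    refine ⟨j, hj, fun k hk => ?_⟩
    by_contra hkj
    -- the diagonal matrix with a at j
    obtain ⟨d, hd⟩ : ∃ d : Fin n → F, d = Function.update (1 : Fin n → F) j a := ⟨_, rfl⟩
    have hdet : (Matrix.diagonal d).det ≠ 0 := by
      rw [Matrix.det_diagonal, hd, Finset.prod_update_of_mem (Finset.mem_univ _)]
      simpa using ha0
    obtain ⟨D, hD⟩ : ∃ D : Matrix.GeneralLinearGroup (Fin n) F, (D : Matrix (Fin n) (Fin n) F) = Matrix.diagonal d := ⟨Matrix.GeneralLinearGroup.mkOfDetNeZero _ hdet, rfl⟩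
    have h1 := (hg D).1 ((mem_T D).2 ⟨d, hD⟩)
    obtain ⟨d', hd'⟩ := (mem_T _).1 h1
    have h2 : (g : Matrix (Fin n) (Fin n) F) * Matrix.diagonal d = Matrix.diagonal d' * (g : Matrix (Fin n) (Fin n) F) := by
      rw [← hd', ← hD, ← Units.val_mul, ← Units.val_mul]
      congr 1
      group
    have e1 := congrFun (congrFun h2 i) j
    have e2 := congrFun (congrFun h2 i) k
    rw [Matrix.mul_diagonal, Matrix.diagonal_mul, hd, Function.update_self] at e1
    rw [Matrix.mul_diagonal, Matrix.diagonal_mul, hd, Function.update_of_ne hkj, Pi.one_apply] at e2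
    have e3 : a = d' i := mul_left_cancel₀ hj (by rw [e1]; ring)
    have e4 : 1 = d' i := mul_left_cancel₀ hk (by rw [e2]; ring)
    exact ha1 (e3.trans e4.symm)
  · intro hmon
    choose π hπ hπu using hmon
    have hzero : ∀ i j, j ≠ π i → (g : Matrix (Fin n) (Fin n) F) i j = 0 := by
      intro i j hj
      by_contra h
      exact hj (hπu i j h)
    have hinj : Function.Injective π := by
      intro i i' h
      by_contra hne
      apply Matrix.GeneralLinearGroup.det_ne_zero g
      rw [← Matrix.exists_vecMul_eq_zero_iff]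
      refine ⟨(g : Matrix (Fin n) (Fin n) F) i' (π i') • Pi.single i 1 - (g : Matrix (Fin n) (Fin n) F) i (π i) • Pi.single i' 1, ?_, ?_⟩
      · intro h0
        have := congrFun h0 i
        simp [hne] at this
        exact hπ i' this
      · rw [Matrix.sub_vecMul, Matrix.smul_vecMul, Matrix.smul_vecMul, Matrix.single_one_vecMul, Matrix.single_one_vecMul]
        ext j
        simp only [Pi.sub_apply, Pi.smul_apply, smul_eq_mul, Pi.zero_apply]
        by_cases hj : j = π i
        · subst hj
          rw [h]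
          show _ * (g : Matrix (Fin n) (Fin n) F) i (π i') - _ * (g : Matrix (Fin n) (Fin n) F) i' (π i') = 0
          ring
        · show _ * (g : Matrix (Fin n) (Fin n) F) i j - _ * (g : Matrix (Fin n) (Fin n) F) i' j = 0
          rw [hzero i j hj, hzero i' j (by rw [← h]; exact hj)]
          ring
    have hbij : Function.Bijective π := Finite.injective_iff_bijective.1 hinj
    obtain ⟨e, he⟩ : ∃ e : Equiv.Perm (Fin n), ∀ i, e i = π i := ⟨Equiv.ofBijective π hbij, fun i => rfl⟩
    have hcomm : ∀ d : Fin n → F, (g : Matrix (Fin n) (Fin n) F) * Matrix.diagonal d = Matrix.diagonal (fun i => d (π i)) * (g : Matrix (Fin n) (Fin n) F) := by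
      intro d
      ext i j
      rw [Matrix.mul_diagonal, Matrix.diagonal_mul]
      by_cases hj : j = π i
      · rw [hj]; ring
      · rw [hzero i j hj]; ring
    rw [Subgroup.mem_normalizer_iff]
    intro h
    rw [mem_T, mem_T]
    constructor
    · rintro ⟨d, hd⟩
      refine ⟨fun i => d (π i), ?_⟩
      rw [Units.val_mul, Units.val_mul, hd, hcomm, Matrix.mul_assoc, ← Units.val_mul, mul_inv_cancel, Units.val_one, Matrix.mul_one]
    · rintro ⟨d, hd⟩
      refine ⟨fun i => d (e.symm i), ?_⟩
      have h1 : (g : Matrix (Fin n) (Fin n) F) * (h : Matrix (Fin n) (Fin n) F) = Matrix.diagonal d * (g : Matrix (Fin n) (Fin n) F) := by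
        rw [← hd, ← Units.val_mul, ← Units.val_mul]
        congr 1
        group
      have h2 := hcomm (fun i => d (e.symm i))
      have h3 : (fun i => (fun i => d (e.symm i)) (π i)) = d := by
        funext i
        show d (e.symm (π i)) = d i
        rw [← he, Equiv.symm_apply_apply]
      rw [h3, ← h1] at h2
      have h4 := congrArg (fun M => ((g⁻¹ : Matrix.GeneralLinearGroup (Fin n) F) : Matrix (Fin n) (Fin n) F) * M) h2
      simp only [← Matrix.mul_assoc] at h4
      rw [← Units.val_mul, inv_mul_cancel, Units.val_one, Matrix.one_mul, Matrix.one_mul] at h4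
      exact h4.symm

end Cfsg.Agent.S0770
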