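import Cfsg.Statements.S0771
import Cfsg.Agent.LibH22Par1

set_option autoImplicit false
open Cfsg

namespace Cfsg.Agent.S0771
open Cfsg.Agent.H22

/-- Maximal parabolic of GL_n(q): the stabiliser of the coordinate subspace spanned by the first k basis vectors has order q^(k(n-k)) · |GL_k(q)| · |GL_(n-k)(q)| (unipotent radical of order q^(k(n-k)) and Levi complement GL_k × GL_(n-k)). -/
theorem result {F : Type*} [Field F] [Fintype F] {q : ℕ} (hF : Fintype.card F = q) (n k : ℕ) (hk : k ≤ n) : Nat.card ↥(Cfsg.stabilizing (Cfsg.glToMat (Fin n) F) {v : Fin n → F | ∀ i : Fin n, k ≤ (i : ℕ) → v i = 0}) = q ^ (k * (n - k)) * (∏ i : Fin k, (q ^ k - q ^ (i : ℕ))) * ∏ i : Fin (n - k), (q ^ (n - k) - q ^ (i : ℕ)) := by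
  classical
  subst hF
  obtain ⟨l, rfl⟩ : ∃ l, n = k + l := ⟨n - k, by omega⟩
  rw [Nat.add_sub_cancel_left]
  rw [← coe_coordSub]
  obtain ⟨e, he⟩ : ∃ e : Fin k ⊕ Fin l ≃ Fin (k + l), e = finSumFinEquiv := ⟨_, rfl⟩
  have hel : ∀ i, e (Sum.inl i) = Fin.castAdd l i := fun i => by rw [he]; rfl
  have her : ∀ i, e (Sum.inr i) = Fin.natAdd k i := fun i => by rw [he]; rfl
  have hdet : ∀ g : Matrix.GeneralLinearGroup (Fin (k + l)) F, g ∈ Geo.subspaceStabilizer (coordSub F (k + l) k) →
      (((g : Matrix (Fin (k + l)) (Fin (k + l)) F).submatrix e e).toBlocks₁₁.det ≠ 0 ∧ ((g : Matrix (Fin (k + l)) (Fin (k + l)) F).submatrix e e).toBlocks₂₂.det ≠ 0) ∧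
      ((g : Matrix (Fin (k + l)) (Fin (k + l)) F).submatrix e e).toBlocks₂₁ = 0 := by
    intro g hg
    rw [stab_iff] at hg
    have h21 : ((g : Matrix (Fin (k + l)) (Fin (k + l)) F).submatrix e e).toBlocks₂₁ = 0 := by
      ext i j
      show (g : Matrix (Fin (k + l)) (Fin (k + l)) F) (e (Sum.inr i)) (e (Sum.inl j)) = 0
      rw [hel, her]
      exact hg _ _ (by simp) (by simp)
    refine ⟨?_, h21⟩
    have h1 : ((g : Matrix (Fin (k + l)) (Fin (k + l)) F).submatrix e e).det ≠ 0 := by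
      rw [Matrix.det_submatrix_equiv_self]
      exact Matrix.GeneralLinearGroup.det_ne_zero g
    rw [← Matrix.fromBlocks_toBlocks ((g : Matrix (Fin (k + l)) (Fin (k + l)) F).submatrix e e), h21, Matrix.det_fromBlocks_zero₂₁] at h1
    exact mul_ne_zero_iff.1 h1
  have hback : ∀ (A : Matrix.GeneralLinearGroup (Fin k) F) (D : Matrix.GeneralLinearGroup (Fin l) F) (B : Matrix (Fin k) (Fin l) F),
      ((Matrix.fromBlocks (A : Matrix (Fin k) (Fin k) F) B 0 (D : Matrix (Fin l) (Fin l) F)).submatrix e.symm e.symm).det ≠ 0 := by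
    intro A D B
    rw [Matrix.det_submatrix_equiv_self, Matrix.det_fromBlocks_zero₂₁]
    exact mul_ne_zero (Matrix.GeneralLinearGroup.det_ne_zero A) (Matrix.GeneralLinearGroup.det_ne_zero D)
  have E : ↥(Geo.subspaceStabilizer (coordSub F (k + l) k)) ≃ Matrix.GeneralLinearGroup (Fin k) F × Matrix.GeneralLinearGroup (Fin l) F × Matrix (Fin k) (Fin l) F := by
    refine ⟨fun g => (Matrix.GeneralLinearGroup.mkOfDetNeZero _ (hdet g.1 g.2).1.1, Matrix.GeneralLinearGroup.mkOfDetNeZero _ (hdet g.1 g.2).1.2, ((g.1 : Matrix (Fin (k + l)) (Fin (k + l)) F).submatrix e e).toBlocks₁₂),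
      fun p => ⟨Matrix.GeneralLinearGroup.mkOfDetNeZero _ (hback p.1 p.2.1 p.2.2), ?_⟩, ?_, ?_⟩
    · rw [stab_iff]
      intro i j hi hj
      show (Matrix.fromBlocks _ _ _ _) (e.symm i) (e.symm j) = 0
      obtain ⟨i', rfl⟩ := e.surjective i
      obtain ⟨j', rfl⟩ := e.surjective j
      rw [Equiv.symm_apply_apply, Equiv.symm_apply_apply]
      rcases i' with i' | i'
      · rw [hel] at hi
        simp at hi
        omega
      · rcases j' with j' | j'
        · rfl
        · rw [her] at hj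
          simp at hj
    · intro g
      apply Subtype.ext
      apply Units.ext
      show (Matrix.fromBlocks _ _ 0 _).submatrix e.symm e.symm = (g.1 : Matrix (Fin (k + l)) (Fin (k + l)) F)
      have h1 := Matrix.fromBlocks_toBlocks ((g.1 : Matrix (Fin (k + l)) (Fin (k + l)) F).submatrix e e)
      rw [(hdet g.1 g.2).2] at h1
      have h2 := congrArg (fun M => M.submatrix e.symm e.symm) h1
      refine h2.trans ?_
      rw [Matrix.submatrix_submatrix]
      simp
    · rintro ⟨A, D, B⟩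
      have h1 : (((Matrix.fromBlocks (A : Matrix (Fin k) (Fin k) F) B 0 (D : Matrix (Fin l) (Fin l) F)).submatrix e.symm e.symm).submatrix e e) = Matrix.fromBlocks (A : Matrix (Fin k) (Fin k) F) B 0 (D : Matrix (Fin l) (Fin l) F) := by
        rw [Matrix.submatrix_submatrix]; simp
      refine Prod.ext (Units.ext ?_) (Prod.ext (Units.ext ?_) ?_)
      · show Matrix.toBlocks₁₁ _ = _
        exact (congrArg Matrix.toBlocks₁₁ h1).trans (Matrix.toBlocks_fromBlocks₁₁ _ _ _ _)
      · show Matrix.toBlocks₂₂ _ = _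
        exact (congrArg Matrix.toBlocks₂₂ h1).trans (Matrix.toBlocks_fromBlocks₂₂ _ _ _ _)
      · show Matrix.toBlocks₁₂ _ = _
        exact (congrArg Matrix.toBlocks₁₂ h1).trans (Matrix.toBlocks_fromBlocks₁₂ _ _ _ _)
  have hc := Nat.card_congr E
  rw [Nat.card_prod, Nat.card_prod] at hc
  refine hc.trans ?_
  rw [Matrix.card_GL_field, Matrix.card_GL_field]
  have h3 : Nat.card (Matrix (Fin k) (Fin l) F) = Fintype.card F ^ (k * l) := by
    have h4 : Nat.card (Fin k → Fin l → F) = Fintype.card F ^ (k * l) := by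
      rw [Nat.card_eq_fintype_card, Fintype.card_fun, Fintype.card_fun, Fintype.card_fin, Fintype.card_fin, ← pow_mul, mul_comm]
    exact h4
  rw [h3]
  ring

end Cfsg.Agent.S0771
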