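import Cfsg.Statements.S0772
import Cfsg.Agent.LibMaxTv29b

set_option autoImplicit false
open Cfsg

namespace Cfsg.Agent.S0772
open CfsgLib.MaxTv29

theorem coatom {F : Type*} [Field F] [Finite F] (n : ℕ) (W : Submodule F (Fin n → F)) (hW0 : W ≠ ⊥) (hW1 : W ≠ ⊤)
    (hdet : ∀ x : Fˣ, ∃ g : Matrix.GeneralLinearGroup (Fin n) F, g ∈ Geo.subspaceStabilizer W ∧ Matrix.GeneralLinearGroup.det g = x) :
    IsCoatom (Geo.subspaceStabilizer W) := by
  classical
  have hexW : ∃ a, a ∉ W := by
    by_contra hcon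
    push Not at hcon
    exact hW1 (eq_top_iff.mpr fun x _ => hcon x)
  refine ⟨?_, fun M hHM => ?_⟩
  · intro heq
    obtain ⟨w, hwW, hw0⟩ := Submodule.exists_mem_ne_zero_of_ne_bot hW0
    obtain ⟨a, ha⟩ := hexW
    have hw : w ∉ Submodule.span F {a} := by
      intro hmem
      obtain ⟨c, rfl⟩ := Submodule.mem_span_singleton.mp hmem
      have hc : c ≠ 0 := by rintro rfl; simp at hw0
      exact ha ((W.smul_mem_iff hc).mp hwW)
    obtain ⟨φ, hφ1, hφ2⟩ := exists_functional _ w hw
    have hφa : φ a = 0 := hφ2 a (Submodule.mem_span_singleton_self a)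
    have h1 : tv a φ hφa ∈ (⊤ : Subgroup (Matrix.GeneralLinearGroup (Fin n) F)) := trivial
    rw [← heq] at h1
    exact tv_notMem_stab W a φ hφa ha w hwW (by rw [hφ1]; exact one_ne_zero) h1
  obtain ⟨g, hgM, hgW⟩ : ∃ g ∈ M, g ∉ Geo.subspaceStabilizer W := by
    by_contra hcon
    push Not at hcon
    exact absurd (le_antisymm hcon hHM.le) hHM.ne'
  have hHM' := hHM.le
  have hSL : Geo.specialLinear (Fin n) F ≤ M := by
    apply special_le_of_full
    have hW : ∀ w ∈ W, Full M w := fun w hw φ h => hHM' (tv_mem_stab_of_mem W w φ h hw)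
    obtain ⟨a, haT, haW⟩ : ∃ a, Full M a ∧ a ∉ W := by
      rw [mem_stab] at hgW
      push Not at hgW
      obtain ⟨w, hw, hgw⟩ := hgW
      exact ⟨_, (hW w hw).mulVec hgM, hgw⟩
    intro x
    by_cases hxW : x ∈ W
    · exact hW x hxW
    by_cases hx : x ∈ W ⊔ Submodule.span F {a}
    · obtain ⟨w, hw, z, hz, rfl⟩ := Submodule.mem_sup.mp hx
      obtain ⟨c, rfl⟩ := Submodule.mem_span_singleton.mp hz
      have hc : c ≠ 0 := by
        rintro rfl
        rw [zero_smul, add_zero] at hxW
        exact hxW hw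
      have h1 : c • a ∉ Submodule.span F {w} := by
        intro hmem
        have h2 : Submodule.span F {w} ≤ W := by
          rw [Submodule.span_singleton_le_iff_mem]; exact hw
        exact haW ((W.smul_mem_iff hc).mp (h2 hmem))
      obtain ⟨φ, hφ1, hφ2⟩ := exists_functional _ _ h1
      have hφw : φ w = 0 := hφ2 w (Submodule.mem_span_singleton_self w)
      have h3 := (haT.smul c).mulVec (hW w hw φ hφw)
      rw [tv_mulVec, hφ1, one_smul, add_comm] at h3
      exact h3
    · have h1 : a ∉ W ⊔ Submodule.span F {x - a} := by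
        intro hmem
        obtain ⟨w, hw, z, hz, hwz⟩ := Submodule.mem_sup.mp hmem
        obtain ⟨c, rfl⟩ := Submodule.mem_span_singleton.mp hz
        by_cases hc : c = 0
        · subst hc
          rw [zero_smul, add_zero] at hwz
          exact haW (hwz ▸ hw)
        · apply hx
          have h2 : x = c⁻¹ • (-w) + (c⁻¹ * (1 + c)) • a := by
            have h3 : c • x = -w + (1 + c) • a := by
              have h4 : c • x = (w + c • (x - a)) - w + c • a := by rw [smul_sub]; abel
              rw [h4, hwz, add_smul, one_smul]; abel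
            rw [← smul_smul, ← smul_add, ← h3, smul_smul, inv_mul_cancel₀ hc, one_smul]
          rw [h2]
          exact Submodule.add_mem_sup (W.smul_mem _ (W.neg_mem hw)) (Submodule.smul_mem _ _ (Submodule.mem_span_singleton_self a))
      obtain ⟨φ, hφ1, hφ2⟩ := exists_functional _ _ h1
      have hφb : φ (x - a) = 0 := hφ2 _ (Submodule.mem_sup_right (Submodule.mem_span_singleton_self _))
      have h3 : tv (x - a) φ hφb ∈ M := hHM' (tv_mem_stab_of_le_ker W _ φ hφb (fun w hw => hφ2 w (Submodule.mem_sup_left hw)))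
      have h4 := haT.mulVec h3
      rw [tv_mulVec, hφ1, one_smul, add_sub_cancel] at h4
      exact h4
  rw [eq_top_iff]
  intro h _
  obtain ⟨g, hg, hgd⟩ := hdet (Matrix.GeneralLinearGroup.det h)
  have h5 : h * g⁻¹ ∈ Geo.specialLinear (Fin n) F := by
    show Matrix.GeneralLinearGroup.det (h * g⁻¹) = 1
    rw [map_mul, map_inv, hgd, mul_inv_cancel]
  have h6 : h = (h * g⁻¹) * g := by group
  rw [h6]
  exact mul_mem (hSL h5) (hHM' hg)

/-- Maximal parabolics are maximal: over a finite field, for 0 < k < n the stabiliser in GL_n of the span of the first k coordinate vectors is a maximal proper subgroup. -/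
theorem result {F : Type*} [Field F] [Finite F] (n k : ℕ) (hk0 : 0 < k) (hkn : k < n) : IsCoatom (Cfsg.stabilizing (Cfsg.glToMat (Fin n) F) {v : Fin n → F | ∀ i : Fin n, k ≤ (i : ℕ) → v i = 0}) := by
  classical
  obtain ⟨W, hW⟩ : ∃ W : Submodule F (Fin n → F), (W : Set (Fin n → F)) = {v : Fin n → F | ∀ i : Fin n, k ≤ (i : ℕ) → v i = 0} := by
    refine ⟨{ carrier := {v : Fin n → F | ∀ i : Fin n, k ≤ (i : ℕ) → v i = 0}, add_mem' := ?_, zero_mem' := ?_, smul_mem' := ?_ }, rfl⟩
    · intro a b ha hb i hi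
      rw [Pi.add_apply, ha i hi, hb i hi, add_zero]
    · intro i hi; rfl
    · intro c a ha i hi
      rw [Pi.smul_apply, ha i hi, smul_zero]
  have hmem : ∀ v, v ∈ W ↔ ∀ i : Fin n, k ≤ (i : ℕ) → v i = 0 := by
    intro v
    rw [← SetLike.mem_coe, hW]; rfl
  rw [← hW]
  refine coatom n W ?_ ?_ ?_
  · intro h
    have h1 : (Pi.single ⟨0, by omega⟩ 1 : Fin n → F) ∈ W := by
      rw [hmem]
      intro i hi
      rw [Pi.single_eq_of_ne]
      intro h2
      rw [h2] at hi
      simp at hi
      omega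
    rw [h, Submodule.mem_bot] at h1
    have h2 := congrFun h1 ⟨0, by omega⟩
    rw [Pi.single_eq_same] at h2
    exact one_ne_zero h2
  · intro h
    have h1 : (Pi.single ⟨k, hkn⟩ 1 : Fin n → F) ∈ W := by rw [h]; trivial
    rw [hmem] at h1
    have h2 := h1 ⟨k, hkn⟩ le_rfl
    rw [Pi.single_eq_same] at h2
    exact one_ne_zero h2
  · intro x
    obtain ⟨d, hd⟩ : ∃ d : Fin n → F, d = Function.update (1 : Fin n → F) ⟨0, by omega⟩ (x : F) := ⟨_, rfl⟩
    have hdet : (Matrix.diagonal d).det = x := by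
      rw [Matrix.det_diagonal, hd, Finset.prod_update_of_mem (Finset.mem_univ _)]
      simp
    refine ⟨Matrix.GeneralLinearGroup.mkOfDetNeZero (Matrix.diagonal d) (by rw [hdet]; exact x.ne_zero), ?_, ?_⟩
    · rw [mem_stab]
      intro w hw
      rw [hmem] at hw ⊢
      intro i hi
      show (Matrix.diagonal d).mulVec w i = 0
      rw [Matrix.mulVec_diagonal, hw i hi, mul_zero]
    · apply Units.ext
      exact hdet

end Cfsg.Agent.S0772
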