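import Cfsg.Statements.S0773
import Cfsg.Agent.LibH22Par1

set_option autoImplicit false
open Cfsg

namespace Cfsg.Agent.S0773
open Cfsg.Agent.H22 CfsgLib.MaxTv29

/-- inverse transpose, reversed -/
def θ {F : Type*} [Field F] {n : ℕ} (g : Matrix.GeneralLinearGroup (Fin n) F) : Matrix.GeneralLinearGroup (Fin n) F where
  val := ((g⁻¹ : Matrix.GeneralLinearGroup (Fin n) F) : Matrix (Fin n) (Fin n) F).transpose.submatrix Fin.revPerm Fin.revPerm
  inv := (g : Matrix (Fin n) (Fin n) F).transpose.submatrix Fin.revPerm Fin.revPerm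
  val_inv := by
    rw [Matrix.submatrix_mul_equiv, ← Matrix.transpose_mul, ← Units.val_mul, mul_inv_cancel, Units.val_one, Matrix.transpose_one, Matrix.submatrix_one_equiv]
  inv_val := by
    rw [Matrix.submatrix_mul_equiv, ← Matrix.transpose_mul, ← Units.val_mul, inv_mul_cancel, Units.val_one, Matrix.transpose_one, Matrix.submatrix_one_equiv]

lemma θ_mul {F : Type*} [Field F] {n : ℕ} (g h : Matrix.GeneralLinearGroup (Fin n) F) : θ (g * h) = θ g * θ h := by
  apply Units.ext
  show ((g * h)⁻¹ : Matrix.GeneralLinearGroup (Fin n) F).val.transpose.submatrix Fin.revPerm Fin.revPerm =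
    (g⁻¹ : Matrix.GeneralLinearGroup (Fin n) F).val.transpose.submatrix Fin.revPerm Fin.revPerm * (h⁻¹ : Matrix.GeneralLinearGroup (Fin n) F).val.transpose.submatrix Fin.revPerm Fin.revPerm
  rw [Matrix.submatrix_mul_equiv, ← Matrix.transpose_mul, ← Units.val_mul, mul_inv_rev]

lemma θ_θ {F : Type*} [Field F] {n : ℕ} (g : Matrix.GeneralLinearGroup (Fin n) F) : θ (θ g) = g := by
  apply Units.ext
  ext i j
  show (g : Matrix (Fin n) (Fin n) F) (Fin.revPerm (Fin.revPerm i)) (Fin.revPerm (Fin.revPerm j)) = _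
  simp

lemma θ_stab {F : Type*} [Field F] {n k : ℕ} (hk : k ≤ n) {g : Matrix.GeneralLinearGroup (Fin n) F} (hg : g ∈ Geo.subspaceStabilizer (coordSub F n k)) :
    θ g ∈ Geo.subspaceStabilizer (coordSub F n (n - k)) := by
  have hg' := inv_mem hg
  rw [stab_iff] at hg' ⊢
  intro i j hi hj
  show ((g⁻¹ : Matrix.GeneralLinearGroup (Fin n) F) : Matrix (Fin n) (Fin n) F) (Fin.rev j) (Fin.rev i) = 0
  apply hg'
  · rw [Fin.val_rev]; omega
  · rw [Fin.val_rev]; have := i.2; omega

/-- The stabilisers in GL_n(F), F finite, of the coordinate subspaces of dimensions k and n − k are isomorphic groups, but when 2k ≠ n (and 0 < k < n) no element of GL_n conjugates one onto the other. -/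
theorem result {F : Type*} [Field F] [Finite F] (n k : ℕ) (hk0 : 0 < k) (hkn : k < n) (h2 : 2 * k ≠ n) : Nonempty (↥(Cfsg.stabilizing (Cfsg.glToMat (Fin n) F) {v : Fin n → F | ∀ i : Fin n, k ≤ (i : ℕ) → v i = 0}) ≃* ↥(Cfsg.stabilizing (Cfsg.glToMat (Fin n) F) {v : Fin n → F | ∀ i : Fin n, n - k ≤ (i : ℕ) → v i = 0})) ∧ ∀ g : Matrix.GeneralLinearGroup (Fin n) F, (Cfsg.stabilizing (Cfsg.glToMat (Fin n) F) {v : Fin n → F | ∀ i : Fin n, k ≤ (i : ℕ) → v i = 0}).map (MulAut.conj g).toMonoidHom ≠ Cfsg.stabilizing (Cfsg.glToMat (Fin n) F) {v : Fin n → F | ∀ i : Fin n, n - k ≤ (i : ℕ) → v i = 0} := by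
  rw [← coe_coordSub, ← coe_coordSub]
  constructor
  · have h1 : ∀ g ∈ Geo.subspaceStabilizer (coordSub F n (n - k)), θ g ∈ Geo.subspaceStabilizer (coordSub F n k) := by
      intro g hg
      have := θ_stab (Nat.sub_le n k) hg
      rwa [Nat.sub_sub_self hkn.le] at this
    exact ⟨{ toFun := fun g => ⟨θ g.1, θ_stab hkn.le g.2⟩, invFun := fun g => ⟨θ g.1, h1 g.1 g.2⟩, left_inv := fun g => Subtype.ext (θ_θ _), right_inv := fun g => Subtype.ext (θ_θ _), map_mul' := fun g h => Subtype.ext (θ_mul _ _) }⟩
  · intro g hg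
    obtain ⟨W, hW⟩ : ∃ W : Submodule F (Fin n → F), W = (coordSub F n k).map (le g).toLinearMap := ⟨_, rfl⟩
    have hstab : Geo.subspaceStabilizer (coordSub F n (n - k)) ≤ Geo.subspaceStabilizer W := by
      intro h hh
      have hh' : h ∈ (Geo.subspaceStabilizer (coordSub F n k)).map (MulAut.conj g).toMonoidHom := by
        have := hg.symm
        rw [show Geo.subspaceStabilizer (coordSub F n (n - k)) = stabilizing (glToMat (Fin n) F) ↑(coordSub F n (n - k)) from rfl, this] at hh
        exact hh
      obtain ⟨s, hs, rfl⟩ := hh'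
      rw [mem_stab]
      intro w hw
      rw [hW] at hw ⊢
      obtain ⟨x, hx, rfl⟩ := hw
      have hs' := (mem_stab s _).1 hs x hx
      refine ⟨_, hs', ?_⟩
      show (g : Matrix (Fin n) (Fin n) F).mulVec ((s : Matrix (Fin n) (Fin n) F).mulVec x) = ((g * s * g⁻¹ : Matrix.GeneralLinearGroup (Fin n) F) : Matrix (Fin n) (Fin n) F).mulVec ((g : Matrix (Fin n) (Fin n) F).mulVec x)
      rw [Matrix.mulVec_mulVec, Matrix.mulVec_mulVec, ← Units.val_mul, ← Units.val_mul]
      congr 2
      group
    have hfr : ∀ m, m ≤ n → Module.finrank F (coordSub F n m) = m := by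
      intro m hm
      have e : coordSub F n m ≃ₗ[F] (Fin m → F) :=
        { toFun := fun v i => v.1 (Fin.castLE hm i)
          map_add' := fun v w => rfl
          map_smul' := fun c v => rfl
          invFun := fun w => ⟨fun i => if h : (i : ℕ) < m then w ⟨i, h⟩ else 0, fun i hi => dif_neg (by omega)⟩
          left_inv := fun v => by
            apply Subtype.ext
            funext i
            by_cases h : (i : ℕ) < m
            · simp only [dif_pos h]
              rfl
            · simp only [dif_neg h]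
              exact (v.2 i (by omega)).symm
          right_inv := fun w => by
            funext i
            simp }
      rw [e.finrank_eq, Module.finrank_fintype_fun_eq_card, Fintype.card_fin]
    have hfW : Module.finrank F W = k := by
      rw [hW, LinearEquiv.finrank_map_eq, hfr k hkn.le]
    rcases stab_le_stab hstab with h | h | h
    · rw [h, finrank_bot] at hfW; omega
    · rw [h, finrank_top, Module.finrank_fintype_fun_eq_card, Fintype.card_fin] at hfW; omega
    · rw [h, hfr _ (Nat.sub_le n k)] at hfW; omega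

end Cfsg.Agent.S0773
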