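import Cfsg.Statements.S0774
import Cfsg.Agent.LibH22SpPar
import Cfsg.Agent.S0769

set_option autoImplicit false
open Cfsg

namespace Cfsg.Agent.S0774
open Cfsg.Agent.H22

/-- Borel subgroup of the symplectic group: the elements of Sp_2m(q) stabilising each of the totally isotropic coordinate subspaces ⟨e_0, ..., e_k⟩ (k < m) form a subgroup of order q^(m²) (q − 1)^m. -/
theorem result {F : Type*} [Field F] [Fintype F] {q : ℕ} (hF : Fintype.card F = q) (m : ℕ) : Nat.card ↥(⨅ k : Fin m, Cfsg.stabilizing (Cfsg.spToMat m F) {v : Fin m ⊕ Fin m → F | (∀ i : Fin m, (k : ℕ) < (i : ℕ) → v (Sum.inl i) = 0) ∧ ∀ i : Fin m, v (Sum.inr i) = 0}) = q ^ (m ^ 2) * (q - 1) ^ m := by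
  classical
  have hF' := hF
  subst hF
  have hq : 2 ≤ Fintype.card F := Fintype.one_lt_card
  obtain ⟨E, hE⟩ : ∃ E : ℕ → Submodule F (Fin m ⊕ Fin m → F), ∀ k, (E k : Set (Fin m ⊕ Fin m → F)) = {v : Fin m ⊕ Fin m → F | (∀ i : Fin m, k < (i : ℕ) → v (Sum.inl i) = 0) ∧ ∀ i : Fin m, v (Sum.inr i) = 0} := by
    refine ⟨fun k => { carrier := {v : Fin m ⊕ Fin m → F | (∀ i : Fin m, k < (i : ℕ) → v (Sum.inl i) = 0) ∧ ∀ i : Fin m, v (Sum.inr i) = 0}, add_mem' := ?_, zero_mem' := ?_, smul_mem' := ?_ }, fun k => rfl⟩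
    · intro a b ha hb
      exact ⟨fun i hi => by rw [Pi.add_apply, ha.1 i hi, hb.1 i hi, add_zero], fun i => by rw [Pi.add_apply, ha.2 i, hb.2 i, add_zero]⟩
    · exact ⟨fun i hi => rfl, fun i => rfl⟩
    · intro c a ha
      exact ⟨fun i hi => by rw [Pi.smul_apply, ha.1 i hi, smul_zero], fun i => by rw [Pi.smul_apply, ha.2 i, smul_zero]⟩
  have hmem : ∀ k v, v ∈ E k ↔ (∀ i : Fin m, k < (i : ℕ) → v (Sum.inl i) = 0) ∧ ∀ i : Fin m, v (Sum.inr i) = 0 := by
    intro k v
    rw [← SetLike.mem_coe, hE]; rfl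
  obtain ⟨B, hB⟩ : ∃ B : Subgroup (Matrix.symplecticGroup (Fin m) F), B = (⨅ k : Fin m, Cfsg.stabilizing (Cfsg.spToMat m F) {v : Fin m ⊕ Fin m → F | (∀ i : Fin m, (k : ℕ) < (i : ℕ) → v (Sum.inl i) = 0) ∧ ∀ i : Fin m, v (Sum.inr i) = 0}) := ⟨_, rfl⟩
  rw [← hB]
  obtain ⟨e, he⟩ : ∃ e : Fin m → (Fin m ⊕ Fin m → F), e = fun i => Pi.single (Sum.inl i) 1 := ⟨_, rfl⟩
  have heE : ∀ (i : Fin m) (k : ℕ), (i : ℕ) ≤ k → e i ∈ E k := by
    intro i k hik
    rw [hmem, he]
    refine ⟨fun j hj => ?_, fun j => ?_⟩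
    · exact Pi.single_eq_of_ne (by rintro h; rw [Sum.inl.injEq] at h; rw [h] at hj; omega) _
    · exact Pi.single_eq_of_ne (by simp) _
  have hspan : ∀ (k : ℕ) (v : Fin m ⊕ Fin m → F), v ∈ E k → v = ∑ i : Fin m, v (Sum.inl i) • e i := by
    intro k v hv
    rw [hmem] at hv
    ext j
    rw [Finset.sum_apply]
    simp only [Pi.smul_apply, smul_eq_mul, he]
    rcases j with j | j
    · rw [Finset.sum_eq_single j]
      · rw [Pi.single_eq_same, mul_one]
      · intro i _ hi
        rw [Pi.single_eq_of_ne (by rintro h; rw [Sum.inl.injEq] at h; exact hi h.symm), mul_zero]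
      · intro h; exact absurd (Finset.mem_univ _) h
    · rw [hv.2 j, Finset.sum_eq_zero]
      intro i _
      rw [Pi.single_eq_of_ne (by simp), mul_zero]
  have hli : LinearIndependent F e := by
    rw [he, linearIndependent_iff']
    intro s g hg i hi
    have := congrFun hg (Sum.inl i)
    rw [Finset.sum_apply, Finset.sum_eq_single i] at this
    · simpa using this
    · intro j _ hj
      rw [Pi.smul_apply, Pi.single_eq_of_ne (by rintro h; rw [Sum.inl.injEq] at h; exact hj h.symm), smul_zero]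
    · intro h; exact absurd hi h
  have hBmem : ∀ g, g ∈ B ↔ ∀ (k : Fin m) (v : Fin m ⊕ Fin m → F), v ∈ E k ↔ spToLin g v ∈ E k := by
    intro g
    rw [hB, Subgroup.mem_iInf]
    refine forall_congr' fun k => ?_
    rw [← hE]
    exact Iff.rfl
  have hTI0 : ∀ (s : Fin m → (Fin m ⊕ Fin m → F)), (∀ i j, s i (Sum.inr j) = 0) → ∀ i j, spB m F (s i) (s j) = 0 := by
    intro s hs i j
    rw [spB_apply, sympForm_eq_sum]
    apply Finset.sum_eq_zero
    intro l _
    rw [hs i l, hs j l]; ring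
  have hefix : ∀ i j, e i (Sum.inr j) = 0 := by
    intro i j
    rw [he]; exact Pi.single_eq_of_ne (by simp) _
  -- membership in B from generators
  have hBof : ∀ g : Matrix.symplecticGroup (Fin m) F, (∀ i : Fin m, spToLin g (e i) ∈ E i) → g ∈ B := by
    intro g hg
    rw [hBmem]
    intro k
    have h1 : (E k).map (spToLin g : (Fin m ⊕ Fin m → F) →ₗ[F] (Fin m ⊕ Fin m → F)) ≤ E k := by
      rintro _ ⟨x, hx, rfl⟩
      rw [hspan k x hx, map_sum]
      apply Submodule.sum_mem
      intro i _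
      rw [map_smul]
      by_cases hik : (i : ℕ) ≤ k
      · apply Submodule.smul_mem
        have h2 := hg i
        rw [hmem] at h2 ⊢
        exact ⟨fun j hj => h2.1 j (by omega), h2.2⟩
      · have : x (Sum.inl i) = 0 := ((hmem k x).1 hx).1 i (by omega)
        rw [this, zero_smul]; exact Submodule.zero_mem _
    have h2 : (E k).map (spToLin g : (Fin m ⊕ Fin m → F) →ₗ[F] (Fin m ⊕ Fin m → F)) = E k := Submodule.eq_of_le_of_finrank_eq h1 (LinearEquiv.finrank_map_eq (spToLin g) (E k))
    intro v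
    constructor
    · intro hv; exact h1 ⟨v, hv, rfl⟩
    · intro hv
      rw [← h2] at hv
      obtain ⟨x, hx, hxv⟩ := hv
      rw [← (spToLin g).injective hxv]; exact hx
  have eB := orbit_card spToLin B e
  have eG := orbit_card spToLin (⊤ : Subgroup (Matrix.symplecticGroup (Fin m) F)) e
  have o1 : Nat.card {s : Fin m → (Fin m ⊕ Fin m → F) // ∃ g ∈ B, ∀ i, spToLin g (e i) = s i} = Fintype.card F ^ (m * (m - 1) / 2) * (Fintype.card F - 1) ^ m := by
    rw [← Cfsg.Agent.S0769.result (F := F) rfl m]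
    have hlow : ∀ s : Fin m → (Fin m ⊕ Fin m → F), (∃ g ∈ B, ∀ i, spToLin g (e i) = s i) → (∀ i : Fin m, s i ∈ E i) ∧ LinearIndependent F s := by
      rintro s ⟨g, hg, h⟩
      constructor
      · intro i
        rw [← h i]
        exact ((hBmem g).1 hg i _).1 (heE i i le_rfl)
      · have : s = fun i => spToLin g (e i) := funext fun i => (h i).symm
        rw [this]
        exact hli.map' (spToLin g : (Fin m ⊕ Fin m → F) →ₗ[F] (Fin m ⊕ Fin m → F)) (LinearEquiv.ker _)
    have hdet : ∀ s : Fin m → (Fin m ⊕ Fin m → F), (∀ i : Fin m, s i ∈ E i) → LinearIndependent F s → (Matrix.of fun i j => s i (Sum.inl j) : Matrix (Fin m) (Fin m) F).det ≠ 0 := by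
      intro s hs hls
      have h1 : LinearIndependent F (Matrix.of fun i j => s i (Sum.inl j) : Matrix (Fin m) (Fin m) F).row := by
        rw [linearIndependent_iff'] at hls ⊢
        intro t g hg i hi
        apply hls t g _ i hi
        ext j
        rcases j with j | j
        · have := congrFun hg j
          rw [Finset.sum_apply] at this ⊢
          exact this
        · rw [Finset.sum_apply]
          apply Finset.sum_eq_zero
          intro l _
          rw [Pi.smul_apply, ((hmem _ _).1 (hs l)).2 j, smul_zero]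
      rw [Matrix.linearIndependent_rows_iff_isUnit, Matrix.isUnit_iff_isUnit_det] at h1
      exact h1.ne_zero
    refine Nat.card_congr ⟨fun s => ⟨Matrix.GeneralLinearGroup.mkOfDetNeZero _ (hdet s.1 (hlow s.1 s.2).1 (hlow s.1 s.2).2), ?_⟩, fun M => ⟨fun i => Sum.elim ((M.1 : Matrix (Fin m) (Fin m) F) i) 0, ?_⟩, ?_, ?_⟩
    · intro i j hij
      exact ((hmem _ _).1 ((hlow s.1 s.2).1 i)).1 j hij
    · have hlM : LinearIndependent F (fun i => (Sum.elim ((M.1 : Matrix (Fin m) (Fin m) F) i) 0 : Fin m ⊕ Fin m → F)) := by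
        have h1 : LinearIndependent F (M.1 : Matrix (Fin m) (Fin m) F).row := by
          rw [Matrix.linearIndependent_rows_iff_isUnit]
          exact M.1.isUnit
        rw [linearIndependent_iff'] at h1 ⊢
        intro t g hg i hi
        apply h1 t g _ i hi
        ext j
        have := congrFun hg (Sum.inl j)
        rw [Finset.sum_apply] at this ⊢
        exact this
      obtain ⟨A, hA⟩ := sp_ext m e (fun i => (Sum.elim ((M.1 : Matrix (Fin m) (Fin m) F) i) 0 : Fin m ⊕ Fin m → F)) hli hlM (fun i j => by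
        rw [← spB_apply, ← spB_apply, hTI0 e hefix]
        exact (hTI0 (fun i => (Sum.elim ((M.1 : Matrix (Fin m) (Fin m) F) i) 0 : Fin m ⊕ Fin m → F)) (fun _ _ => rfl) i j).symm)
      refine ⟨A, hBof A (fun i => ?_), hA⟩
      rw [spToLin_apply, hA i, hmem]
      exact ⟨fun j hj => M.2 i j hj, fun j => rfl⟩
    · intro s
      apply Subtype.ext
      funext i j
      rcases j with j | j
      · rfl
      · exact (((hmem _ _).1 ((hlow s.1 s.2).1 i)).2 j).symm
    · intro M
      apply Subtype.ext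
      apply Units.ext
      rfl
  have o2 : Nat.card {s : Fin m → (Fin m ⊕ Fin m → F) // ∃ g ∈ (⊤ : Subgroup (Matrix.symplecticGroup (Fin m) F)), ∀ i, spToLin g (e i) = s i} = Nat.card {s // TI m F m s} := by
    refine Nat.card_congr (Equiv.subtypeEquivRight fun s => ?_)
    constructor
    · rintro ⟨g, _, h⟩
      have hs : s = fun i => spToLin g (e i) := funext fun i => (h i).symm
      rw [hs]
      refine ⟨hli.map' (spToLin g : (Fin m ⊕ Fin m → F) →ₗ[F] (Fin m ⊕ Fin m → F)) (LinearEquiv.ker _), fun i j => ?_⟩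
      rw [spToLin_isometry, hTI0 e hefix]
    · intro hs
      obtain ⟨A, hA⟩ := sp_ext m e s hli hs.1 (fun i j => by rw [← spB_apply, ← spB_apply, hTI0 e hefix, hs.2])
      exact ⟨A, trivial, hA⟩
  have o3 : Nat.card {g : Matrix.symplecticGroup (Fin m) F // g ∈ (⊤ : Subgroup (Matrix.symplecticGroup (Fin m) F)) ∧ ∀ i, spToLin g (e i) = e i} = Nat.card {g : Matrix.symplecticGroup (Fin m) F // g ∈ B ∧ ∀ i, spToLin g (e i) = e i} := by
    refine Nat.card_congr (Equiv.subtypeEquivRight fun g => ?_)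
    constructor
    · rintro ⟨_, h⟩
      refine ⟨hBof g (fun i => ?_), h⟩
      rw [h]; exact heE i i le_rfl
    · rintro ⟨_, h⟩; exact ⟨trivial, h⟩
  rw [o1] at eB
  rw [o2, o3, Subgroup.card_top, card_TI m le_rfl, card_sp, prod_TI _ m m le_rfl] at eG
  have hpos : 0 < ∏ i ∈ Finset.range m, (Fintype.card F ^ (2 * m - i) - Fintype.card F ^ i) := by
    apply Finset.prod_pos
    intro i hi
    rw [Finset.mem_range] at hi
    exact Nat.sub_pos_of_lt (Nat.pow_lt_pow_right (by omega) (by omega))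
  have h3 := Nat.eq_of_mul_eq_mul_left hpos eG
  rw [Nat.sub_self, Finset.prod_range_zero] at h3
  rw [eB, ← h3]
  have e3 : m * (m + 1) / 2 = m * (m - 1) / 2 + m := by
    rw [← Finset.sum_range_id, ← Finset.sum_range_succ, Finset.sum_range_id, Nat.add_sub_cancel, mul_comm]
  have e4 : 2 * (m * (m - 1) / 2) = m * (m - 1) := by
    rw [← Finset.sum_range_id, mul_comm]; exact Finset.sum_range_id_mul_two m
  have e5 : m ^ 2 = m * (m - 1) / 2 + (m * (m + 1) / 2 + 2 * m * 0) := by
    rw [e3]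
    have : m * (m - 1) + m = m ^ 2 := by
      rcases m with _ | k
      · rfl
      · rw [Nat.add_sub_cancel]; ring
    omega
  rw [e5, pow_add]
  ring

end Cfsg.Agent.S0774
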