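import Cfsg.Statements.S0775
import Cfsg.Agent.LibH22SpPar

set_option autoImplicit false
open Cfsg

namespace Cfsg.Agent.S0775
open Cfsg.Agent.H22

/-- Maximal parabolics of the symplectic group: if W is a k-dimensional subspace of F^(2m) on which the symplectic form vanishes identically, its stabiliser in Sp_2m(q) has order q^(k(k+1)/2 + 2k(m−k)) · |Sp_(2m−2k)(q)| · |GL_k(q)|. -/
theorem result {F : Type*} [Field F] [Fintype F] {q : ℕ} (hF : Fintype.card F = q) (m k : ℕ) (hk : k ≤ m) (W : Submodule F (Fin m ⊕ Fin m → F)) (hWk : Module.finrank F W = k) (hW : ∀ u ∈ W, ∀ v ∈ W, Cfsg.sympForm m F u v = 0) : Nat.card ↥(Cfsg.stabilizing (Cfsg.spToMat m F) (W : Set (Fin m ⊕ Fin m → F))) = q ^ (k * (k + 1) / 2 + 2 * k * (m - k)) * (q ^ ((m - k) ^ 2) * ∏ i ∈ Finset.range (m - k), (q ^ (2 * (i + 1)) - 1)) * ∏ i : Fin k, (q ^ k - q ^ (i : ℕ)) := by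
  classical
  subst hF
  have hq : 2 ≤ Fintype.card F := Fintype.one_lt_card
  have h := card_stab (spToLin (m := m) (F := F)) W hWk (TI m F k) ?_ ?_ ?_
  · rw [card_TI k hk, card_sp, prod_TI _ k m hk] at h
    have hpos : 0 < ∏ i ∈ Finset.range k, (Fintype.card F ^ (2 * m - i) - Fintype.card F ^ i) := by
      apply Finset.prod_pos
      intro i hi
      rw [Finset.mem_range] at hi
      exact Nat.sub_pos_of_lt (Nat.pow_lt_pow_right (by omega) (by omega))
    apply Nat.eq_of_mul_eq_mul_right hpos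
    refine Eq.trans ?_ (h.trans ?_)
    · rfl
    · ring
  · intro s hs hsp
    refine ⟨hs, fun i j => ?_⟩
    rw [spB_apply]
    exact hW _ (hsp.le (Submodule.subset_span ⟨i, rfl⟩)) _ (hsp.le (Submodule.subset_span ⟨j, rfl⟩))
  · intro s s' hs hs'
    exact sp_ext k s s' hs.1 hs'.1 (fun i j => by rw [← spB_apply, ← spB_apply, hs.2, hs'.2])
  · intro s hs g
    refine ⟨hs.1.map' (spToLin g : (Fin m ⊕ Fin m → F) →ₗ[F] (Fin m ⊕ Fin m → F)) (LinearEquiv.ker _), fun i j => ?_⟩
    rw [spToLin_isometry, hs.2]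

end Cfsg.Agent.S0775
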