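import Cfsg.Statements.S0776
import Cfsg.Agent.LibH22SpDec

set_option autoImplicit false
open Cfsg

namespace Cfsg.Agent.S0776
open Cfsg.Agent.H22

/-- If W ≤ F^(2m) is a 2k-dimensional subspace on which the symplectic form is non-degenerate, then the stabiliser of W in Sp_2m(F) is isomorphic to Sp_2k(F) × Sp_(2m−2k)(F). -/
theorem result {F : Type*} [Field F] (m k : ℕ) (hk : k ≤ m) (W : Submodule F (Fin m ⊕ Fin m → F)) (hWk : Module.finrank F W = 2 * k) (hW : ∀ u ∈ W, (∀ v ∈ W, Cfsg.sympForm m F u v = 0) → u = 0) : Nonempty (↥(Cfsg.stabilizing (Cfsg.spToMat m F) (W : Set (Fin m ⊕ Fin m → F))) ≃* Matrix.symplecticGroup (Fin k) F × Matrix.symplecticGroup (Fin (m - k)) F) := by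
  classical
  obtain ⟨B, hB⟩ : ∃ B : LinearMap.BilinForm F (Fin m ⊕ Fin m → F), B = spB m F := ⟨_, rfl⟩
  have hBa : B.IsAlt := by rw [hB]; exact spB_isAlt
  have hBn : B.Nondegenerate := by rw [hB]; exact spB_nondeg
  have hBR : B.IsRefl := hBa.isRefl
  have hW' : ∀ u ∈ W, (∀ v ∈ W, B u v = 0) → u = 0 := by
    intro u hu h
    apply hW u hu
    intro v hv
    rw [← spB_apply, ← hB]; exact h v hv
  obtain ⟨W', hW'd⟩ : ∃ W' : Submodule F (Fin m ⊕ Fin m → F), W' = B.orthogonal W := ⟨_, rfl⟩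
  have hmem' : ∀ x, x ∈ W' ↔ ∀ w ∈ W, B w x = 0 := by
    intro x
    rw [hW'd, LinearMap.BilinForm.mem_orthogonal_iff]
  have hfr' : Module.finrank F W' = 2 * (m - k) := by
    rw [hW'd, LinearMap.BilinForm.finrank_orthogonal hBn, hWk, Module.finrank_fintype_fun_eq_card, Fintype.card_sum, Fintype.card_fin]
    omega
  have hdisj : Disjoint W W' := by
    rw [Submodule.disjoint_def]
    intro x hx hx'
    apply hW' x hx
    intro v hv
    have := (hmem' x).1 hx' v hv
    rw [← LinearMap.BilinForm.IsAlt.neg_eq hBa, this, neg_zero]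
  have hc : IsCompl W W' := by
    rw [Submodule.isCompl_iff_disjoint _ _ ?_]
    · exact hdisj
    · rw [hWk, hfr', Module.finrank_fintype_fun_eq_card, Fintype.card_sum, Fintype.card_fin]
      omega
  -- restricted forms
  obtain ⟨φ₁, hφ₁⟩ := exists_sp_iso (U := W) (B.restrict W) (fun x => hBa x.1) (fun x hx => by
    apply Subtype.ext
    apply hW' x.1 x.2
    intro v hv
    exact hx ⟨v, hv⟩) hWk
  obtain ⟨φ₂, hφ₂⟩ := exists_sp_iso (U := W') (B.restrict W') (fun x => hBa x.1) (fun x hx => by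
    apply Subtype.ext
    apply hBn.1
    intro y
    obtain ⟨w, hw, u, hu, rfl⟩ := Submodule.mem_sup.1 (show y ∈ W ⊔ W' by rw [hc.sup_eq_top]; trivial)
    rw [map_add]
    have e1 : B x.1 w = 0 := by
      rw [← LinearMap.BilinForm.IsAlt.neg_eq hBa, (hmem' x.1).1 x.2 w hw, neg_zero]
    have e2 : B x.1 u = 0 := hx ⟨u, hu⟩
    rw [e1, e2, add_zero]) hfr'
  obtain ⟨Φ, hΦ⟩ : ∃ Φ : ((Fin k ⊕ Fin k → F) × (Fin (m - k) ⊕ Fin (m - k) → F)) ≃ₗ[F] (Fin m ⊕ Fin m → F), ∀ x, Φ x = (φ₁ x.1 : Fin m ⊕ Fin m → F) + (φ₂ x.2 : Fin m ⊕ Fin m → F) :=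
    ⟨(LinearEquiv.prodCongr φ₁ φ₂).trans (Submodule.prodEquivOfIsCompl W W' hc), fun x => rfl⟩
  obtain ⟨e⟩ := stab_prod (fun x y => B x y) (fun x y => spB k F x y) (fun x y => spB (m - k) F x y) Φ (by
      intro x y
      simp only [hΦ, map_add, LinearMap.add_apply]
      rw [(hmem' _).1 (φ₂ y.2).2 _ (φ₁ x.1).2, ← hφ₁, ← hφ₂]
      have : B (φ₂ x.2 : Fin m ⊕ Fin m → F) (φ₁ y.1 : Fin m ⊕ Fin m → F) = 0 := by
        rw [← LinearMap.BilinForm.IsAlt.neg_eq hBa, (hmem' _).1 (φ₂ x.2).2 _ (φ₁ y.1).2, neg_zero]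
      rw [this, add_zero, zero_add]
      rfl) (fun x => map_zero _) (fun x => map_zero _) (fun x => by rw [map_zero, LinearMap.zero_apply]) (fun x => by rw [map_zero, LinearMap.zero_apply])
    (by
      intro x hx
      apply (spB_nondeg (m := k) (F := F)).1
      intro y
      rw [← LinearMap.BilinForm.IsAlt.neg_eq spB_isAlt, hx y, neg_zero]) W (by
      intro x
      rw [hΦ, Submodule.add_mem_iff_right W (φ₁ x.1).2]
      constructor
      · intro h
        have h1 : (φ₂ x.2 : Fin m ⊕ Fin m → F) = 0 := Submodule.disjoint_def.1 hdisj _ h (φ₂ x.2).2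
        have h2 : φ₂ x.2 = 0 := Subtype.ext h1
        exact (LinearEquiv.map_eq_zero_iff φ₂).1 h2
      · intro h
        rw [h, map_zero]; exact W.zero_mem)
  obtain ⟨e1⟩ := spIso k F
  obtain ⟨e2⟩ := spIso (m - k) F
  have e0 : ↥(Cfsg.stabilizing (Cfsg.spToMat m F) (W : Set (Fin m ⊕ Fin m → F))) ≃* IsoStab (fun x y => B x y) W := by
    have hto : ∀ g : ↥(Cfsg.stabilizing (Cfsg.spToMat m F) (W : Set (Fin m ⊕ Fin m → F))), spToLin g.1 ∈ IsoStab (fun x y => B x y) W := by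
      intro g
      refine ⟨fun x y => ?_, fun v => g.2 v⟩
      simp only [hB]
      exact spToLin_isometry g.1 x y
    refine MulEquiv.ofBijective (((spToLin (m := m) (F := F)).comp (Subgroup.subtype _)).codRestrict (IsoStab (fun x y => B x y) W) hto) ⟨?_, ?_⟩
    · intro a b h
      exact Subtype.ext (spToLin_injective (congrArg Subtype.val h))
    · rintro ⟨g, hg⟩
      obtain ⟨A, hA⟩ := exists_spToLin g (fun u v => by rw [← hB]; exact hg.1 u v)
      refine ⟨⟨A, fun v => ?_⟩, Subtype.ext hA⟩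
      have := hg.2 v
      rw [← hA] at this
      exact this
  exact ⟨e0.trans (e.trans (MulEquiv.prodCongr e1.symm e2.symm))⟩

end Cfsg.Agent.S0776
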