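import Cfsg.Statements.S0777
import Cfsg.Agent.LibH22SpPar

set_option autoImplicit false
open Cfsg

namespace Cfsg.Agent.S0777
open Cfsg.Agent.H22 Module
open Matrix hiding map_smul

section mono
variable {F : Type*} [Field F] {m : ℕ}

def bar (m : ℕ) : Equiv.Perm (Fin m ⊕ Fin m) := Equiv.sumComm _ _

lemma bar_inl (i : Fin m) : bar m (Sum.inl i) = Sum.inr i := rfl
lemma bar_inr (i : Fin m) : bar m (Sum.inr i) = Sum.inl i := rfl

def sg (F : Type*) [Field F] (m : ℕ) : Fin m ⊕ Fin m → F := Sum.elim (fun _ => -1) (fun _ => 1)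

lemma sg_sq (k : Fin m ⊕ Fin m) : sg F m k * sg F m k = 1 := by
  rcases k with k | k <;> simp [sg]

lemma sg_bar (k : Fin m ⊕ Fin m) : sg F m (bar m k) = - sg F m k := by
  rcases k with k | k <;> simp [sg, bar]

lemma sg_ne (k : Fin m ⊕ Fin m) : sg F m k ≠ 0 := by
  intro h
  have := sg_sq (F := F) k
  rw [h, mul_zero] at this
  exact zero_ne_one this

lemma bar_bar (k : Fin m ⊕ Fin m) : bar m (bar m k) = k := by
  rcases k with k | k <;> rfl

lemma bar_ne (k : Fin m ⊕ Fin m) : bar m k ≠ k := by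
  rcases k with k | k <;> simp [bar]

lemma J_eq (k l : Fin m ⊕ Fin m) : (Matrix.J (Fin m) F) k l = if l = bar m k then sg F m k else 0 := by
  rcases k with k | k <;> rcases l with l | l
  · simp [Matrix.J, bar]
  · simp only [Matrix.J, Matrix.fromBlocks_apply₁₂, Matrix.neg_apply, Matrix.one_apply, bar_inl, Sum.inr.injEq, sg, Sum.elim_inl]
    by_cases h : k = l
    · rw [if_pos h, if_pos h.symm]
    · rw [if_neg h, if_neg (fun h' => h h'.symm), neg_zero]
  · simp only [Matrix.J, Matrix.fromBlocks_apply₂₁, Matrix.one_apply, bar_inr, Sum.inl.injEq, sg, Sum.elim_inr]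
    by_cases h : k = l
    · rw [if_pos h, if_pos h.symm]
    · rw [if_neg h, if_neg (fun h' => h h'.symm)]
  · simp [Matrix.J, bar]

def mono (π : Equiv.Perm (Fin m ⊕ Fin m)) (c : Fin m ⊕ Fin m → F) : Matrix (Fin m ⊕ Fin m) (Fin m ⊕ Fin m) F :=
  Matrix.of fun k l => if k = π l then c l else 0

lemma mono_form (π : Equiv.Perm (Fin m ⊕ Fin m)) (c : Fin m ⊕ Fin m → F) (k l : Fin m ⊕ Fin m) :
    ((mono π c)ᵀ * Matrix.J (Fin m) F * mono π c) k l = c k * c l * (if π l = bar m (π k) then sg F m (π k) else 0) := by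
  rw [Matrix.mul_apply, Finset.sum_eq_single (π l)]
  · rw [Matrix.mul_apply, Finset.sum_eq_single (π k)]
    · simp only [mono, Matrix.transpose_apply, Matrix.of_apply, if_true, J_eq]
      ring
    · intro a _ ha
      simp only [mono, Matrix.transpose_apply, Matrix.of_apply, if_neg ha, zero_mul]
    · intro h; exact absurd (Finset.mem_univ _) h
  · intro a _ ha
    simp only [mono, Matrix.of_apply, if_neg ha, mul_zero]
  · intro h; exact absurd (Finset.mem_univ _) h

lemma mono_mem {π : Equiv.Perm (Fin m ⊕ Fin m)} {c : Fin m ⊕ Fin m → F} :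
    mono π c ∈ Matrix.symplecticGroup (Fin m) F ↔ (∀ k, π (bar m k) = bar m (π k)) ∧ ∀ k, c k * c (bar m k) * sg F m (π k) = sg F m k := by
  rw [SymplecticGroup.mem_iff']
  constructor
  · intro h
    have h1 : ∀ k l, c k * c l * (if π l = bar m (π k) then sg F m (π k) else 0) = if l = bar m k then sg F m k else 0 := by
      intro k l
      rw [← mono_form, h, J_eq]
    have h2 : ∀ k, π (bar m k) = bar m (π k) := by
      intro k
      by_contra hne
      have := h1 k (bar m k)
      rw [if_neg hne, if_pos rfl, mul_zero] at this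
      exact sg_ne k this.symm
    refine ⟨h2, fun k => ?_⟩
    have := h1 k (bar m k)
    rw [if_pos (h2 k), if_pos rfl] at this
    exact this
  · rintro ⟨h1, h2⟩
    ext k l
    rw [mono_form, J_eq]
    by_cases hl : l = bar m k
    · subst hl
      rw [if_pos (h1 k), if_pos rfl, h2]
    · rw [if_neg hl, if_neg, mul_zero]
      intro h
      rw [← h1] at h
      exact hl (π.injective h)

lemma mono_single (π : Equiv.Perm (Fin m ⊕ Fin m)) (c : Fin m ⊕ Fin m → F) (l : Fin m ⊕ Fin m) :
    mono π c *ᵥ (Pi.single l 1) = c l • (Pi.single (π l) (1 : F) : Fin m ⊕ Fin m → F) := by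
  rw [Matrix.mulVec_single_one]
  funext k
  show (if k = π l then c l else 0) = c l * (Pi.single (π l) (1 : F) : Fin m ⊕ Fin m → F) k
  by_cases h : k = π l
  · rw [if_pos h, h, Pi.single_eq_same, mul_one]
  · rw [if_neg h, Pi.single_eq_of_ne h, mul_zero]

/-- permutations commuting with `bar` -/
def cp (τ : Equiv.Perm (Fin m)) (ε : Fin m → Bool) : Fin m ⊕ Fin m → Fin m ⊕ Fin m :=
  Sum.elim (fun i => if ε i then Sum.inr (τ i) else Sum.inl (τ i)) (fun i => if ε i then Sum.inl (τ i) else Sum.inr (τ i))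

lemma cp_inj (τ : Equiv.Perm (Fin m)) (ε : Fin m → Bool) : Function.Injective (cp τ ε) := by
  rintro (i | i) (j | j) h <;> simp only [cp, Sum.elim_inl, Sum.elim_inr] at h
  · split_ifs at h
    · rw [Sum.inr.injEq] at h; rw [τ.injective h]
    · rw [Sum.inl.injEq] at h; rw [τ.injective h]
  · exfalso
    split_ifs at h with h1 h2 h2
    · rw [Sum.inr.injEq] at h; rw [τ.injective h] at h1; exact h2 h1
    · rw [Sum.inl.injEq] at h; rw [τ.injective h] at h1; exact h1 h2
  · exfalso
    split_ifs at h with h1 h2 h2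
    · rw [Sum.inl.injEq] at h; rw [τ.injective h] at h1; exact h2 h1
    · rw [Sum.inr.injEq] at h; rw [τ.injective h] at h1; exact h1 h2
  · split_ifs at h
    · rw [Sum.inl.injEq] at h; rw [τ.injective h]
    · rw [Sum.inr.injEq] at h; rw [τ.injective h]

lemma cp_bar (τ : Equiv.Perm (Fin m)) (ε : Fin m → Bool) (k : Fin m ⊕ Fin m) : cp τ ε (bar m k) = bar m (cp τ ε k) := by
  rcases k with i | i
  · rw [bar_inl]
    simp only [cp, Sum.elim_inl, Sum.elim_inr]
    split_ifs <;> rfl
  · rw [bar_inr]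
    simp only [cp, Sum.elim_inl, Sum.elim_inr]
    split_ifs <;> rfl

theorem card_comm (m : ℕ) : Nat.card {π : Equiv.Perm (Fin m ⊕ Fin m) // ∀ k, π (bar m k) = bar m (π k)} = 2 ^ m * Nat.factorial m := by
  classical
  have h : Nat.card (Equiv.Perm (Fin m) × (Fin m → Bool)) = 2 ^ m * Nat.factorial m := by
    rw [Nat.card_prod, Nat.card_eq_fintype_card, Nat.card_eq_fintype_card, Fintype.card_perm, Fintype.card_fun, Fintype.card_bool, Fintype.card_fin, mul_comm]
  rw [← h]
  refine (Nat.card_congr (Equiv.ofBijective (fun p => ⟨Equiv.ofBijective (cp p.1 p.2) (Finite.injective_iff_bijective.1 (cp_inj p.1 p.2)), fun k => cp_bar p.1 p.2 k⟩) ⟨?_, ?_⟩)).symm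
  · rintro ⟨τ, ε⟩ ⟨τ', ε'⟩ hp
    have h1 : ∀ i, cp τ ε (Sum.inl i) = cp τ' ε' (Sum.inl i) := by
      intro i
      exact congrArg (fun z : {π : Equiv.Perm (Fin m ⊕ Fin m) // ∀ k, π (bar m k) = bar m (π k)} => z.1 (Sum.inl i)) hp
    simp only [cp, Sum.elim_inl] at h1
    refine Prod.ext ?_ ?_
    · ext i
      have := h1 i
      show ((τ i : Fin m) : ℕ) = ((τ' i : Fin m) : ℕ)
      split_ifs at this
      · rw [Sum.inr.injEq] at this; rw [this]
      · rw [Sum.inl.injEq] at this; rw [this]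
    · funext i
      have := h1 i
      show ε i = ε' i
      split_ifs at this with h2 h3 h3
      · rw [h2, h3]
      · rw [Bool.not_eq_true] at h2 h3
        rw [h2, h3]
  · rintro ⟨π, hπ⟩
    obtain ⟨idx, hidx⟩ : ∃ idx : Fin m ⊕ Fin m → Fin m, idx = Sum.elim id id := ⟨_, rfl⟩
    have hi1 : ∀ k, k = Sum.inl (idx k) ∨ k = Sum.inr (idx k) := by
      rw [hidx]
      rintro (k | k)
      · exact Or.inl rfl
      · exact Or.inr rfl
    have hinj : Function.Injective (fun i => idx (π (Sum.inl i))) := by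
      intro i j hij
      simp only at hij
      rcases hi1 (π (Sum.inl i)) with h1 | h1 <;> rcases hi1 (π (Sum.inl j)) with h2 | h2
      · rw [hij, ← h2] at h1
        have := π.injective h1
        rwa [Sum.inl.injEq] at this
      · exfalso
        have h3 : π (Sum.inl i) = π (bar m (Sum.inl j)) := by
          rw [hπ, h2, bar_inr, ← hij]; exact h1
        have := π.injective h3
        rw [bar_inl] at this
        exact Sum.inl_ne_inr this
      · exfalso
        have h3 : π (Sum.inl i) = π (bar m (Sum.inl j)) := by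
          rw [hπ, h2, bar_inl, ← hij]; exact h1
        have := π.injective h3
        rw [bar_inl] at this
        exact Sum.inl_ne_inr this
      · rw [hij, ← h2] at h1
        have := π.injective h1
        rwa [Sum.inl.injEq] at this
    refine ⟨(Equiv.ofBijective _ (Finite.injective_iff_bijective.1 hinj), fun i => (π (Sum.inl i)).isRight), ?_⟩
    apply Subtype.ext
    have hl : ∀ i, cp (Equiv.ofBijective _ (Finite.injective_iff_bijective.1 hinj)) (fun i => (π (Sum.inl i)).isRight) (Sum.inl i) = π (Sum.inl i) := by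
      intro i
      simp only [cp, Sum.elim_inl, Equiv.ofBijective_apply]
      rcases hi1 (π (Sum.inl i)) with h1 | h1
      · rw [if_neg (by rw [h1]; simp)]; exact h1.symm
      · rw [if_pos (by rw [h1]; simp)]; exact h1.symm
    apply Equiv.ext
    rintro (i | i)
    · exact hl i
    · have h1 : (Sum.inr i : Fin m ⊕ Fin m) = bar m (Sum.inl i) := rfl
      show cp _ _ (Sum.inr i) = π (Sum.inr i)
      rw [h1, cp_bar, hl, hπ]

lemma sq_eq_one_iff_of_side_fix (x : F) (h : x ^ 2 = 1) : x = 1 ∨ x = -1 := by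
  have : (x - 1) * (x + 1) = 0 := by linear_combination h
  rcases mul_eq_zero.1 this with h | h
  · exact Or.inl (by linear_combination h)
  · exact Or.inr (by linear_combination h)

theorem card_mono [Fintype F] (m : ℕ) : Nat.card {p : Equiv.Perm (Fin m ⊕ Fin m) × (Fin m ⊕ Fin m → F) // (∀ k, p.1 (bar m k) = bar m (p.1 k)) ∧ ∀ k, p.2 k * p.2 (bar m k) * sg F m (p.1 k) = sg F m k} =
    2 ^ m * Nat.factorial m * (Fintype.card F - 1) ^ m := by
  classical
  have h : Nat.card ({π : Equiv.Perm (Fin m ⊕ Fin m) // ∀ k, π (bar m k) = bar m (π k)} × (Fin m → Fˣ)) = 2 ^ m * Nat.factorial m * (Fintype.card F - 1) ^ m := by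
    rw [Nat.card_prod, card_comm, Nat.card_eq_fintype_card (α := Fin m → Fˣ), Fintype.card_fun, Fintype.card_units, Fintype.card_fin]
  rw [← h]
  have hne : ∀ p : {p : Equiv.Perm (Fin m ⊕ Fin m) × (Fin m ⊕ Fin m → F) // (∀ k, p.1 (bar m k) = bar m (p.1 k)) ∧ ∀ k, p.2 k * p.2 (bar m k) * sg F m (p.1 k) = sg F m k}, ∀ k, p.1.2 k ≠ 0 := by
    intro p k h0
    have := p.2.2 k
    rw [h0, zero_mul, zero_mul] at this
    exact sg_ne k this.symm
  refine Nat.card_congr ⟨fun p => (⟨p.1.1, p.2.1⟩, fun i => Units.mk0 (p.1.2 (Sum.inl i)) (hne p _)),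
    fun x => ⟨(x.1.1, Sum.elim (fun i => (x.2 i : F)) (fun i => sg F m (Sum.inl i) * sg F m (x.1.1 (Sum.inl i)) * (x.2 i : F)⁻¹)), x.1.2, ?_⟩, ?_, ?_⟩
  · have hx : ∀ i, (x.2 i : F) * (x.2 i : F)⁻¹ = 1 := fun i => mul_inv_cancel₀ (x.2 i).ne_zero
    rintro (i | i)
    · rw [bar_inl]
      show (x.2 i : F) * (sg F m (Sum.inl i) * sg F m (x.1.1 (Sum.inl i)) * (x.2 i : F)⁻¹) * sg F m (x.1.1 (Sum.inl i)) = sg F m (Sum.inl i)
      linear_combination sg F m (Sum.inl i) * (sg F m (x.1.1 (Sum.inl i)) * sg F m (x.1.1 (Sum.inl i))) * (hx i) + sg F m (Sum.inl i) * sg_sq (F := F) (x.1.1 (Sum.inl i))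
    · rw [bar_inr]
      show (sg F m (Sum.inl i) * sg F m (x.1.1 (Sum.inl i)) * (x.2 i : F)⁻¹) * (x.2 i : F) * sg F m (x.1.1 (Sum.inr i)) = sg F m (Sum.inr i)
      have h1 : x.1.1 (Sum.inr i) = bar m (x.1.1 (Sum.inl i)) := x.1.2 (Sum.inl i)
      have h2 : sg F m (Sum.inr i) = - sg F m (Sum.inl i) := sg_bar (F := F) (Sum.inl i)
      rw [h1, sg_bar, h2]
      linear_combination - sg F m (Sum.inl i) * (sg F m (x.1.1 (Sum.inl i)) * sg F m (x.1.1 (Sum.inl i))) * (hx i) - sg F m (Sum.inl i) * sg_sq (F := F) (x.1.1 (Sum.inl i))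
  · intro p
    apply Subtype.ext
    refine Prod.ext rfl ?_
    funext k
    rcases k with i | i
    · rfl
    · show sg F m (Sum.inl i) * sg F m (p.1.1 (Sum.inl i)) * (p.1.2 (Sum.inl i))⁻¹ = p.1.2 (Sum.inr i)
      have h1 := p.2.2 (Sum.inl i)
      rw [bar_inl] at h1
      rw [← h1]
      have h2 := hne p (Sum.inl i)
      field_simp
      have h3 := sg_sq (F := F) (p.1.1 (Sum.inl i))
      linear_combination p.1.2 (Sum.inr i) * h3
  · rintro ⟨⟨π, hπ⟩, u⟩
    refine Prod.ext rfl ?_
    funext i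
    exact Units.ext rfl

end mono

/-- Weyl group of type C_m: for q ≥ 4 the diagonal matrices of Sp_2m(q) form a torus T ≅ (C_(q−1))^m (the elements stabilising every coordinate axis), and the normaliser of T in Sp_2m(q) has order 2^m · m! · (q − 1)^m. -/
theorem result {F : Type*} [Field F] [Fintype F] {q : ℕ} (hF : Fintype.card F = q) (hq : 4 ≤ q) (m : ℕ) : Nat.card ↥(Subgroup.normalizer (⨅ i : Fin m ⊕ Fin m, Cfsg.stabilizing (Cfsg.spToMat m F) ((Submodule.span F {(Pi.single i (1 : F) : Fin m ⊕ Fin m → F)} : Submodule F (Fin m ⊕ Fin m → F)) : Set (Fin m ⊕ Fin m → F)) : Set (Matrix.symplecticGroup (Fin m) F))) = 2 ^ m * Nat.factorial m * (q - 1) ^ m := by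
  classical
  subst hF
  obtain ⟨e, he⟩ : ∃ e : Fin m ⊕ Fin m → (Fin m ⊕ Fin m → F), e = fun i => Pi.single i 1 := ⟨_, rfl⟩
  obtain ⟨T, hT'⟩ : ∃ T : Subgroup (Matrix.symplecticGroup (Fin m) F), T = ⨅ i : Fin m ⊕ Fin m, Cfsg.stabilizing (Cfsg.spToMat m F) ((Submodule.span F {(Pi.single i (1 : F) : Fin m ⊕ Fin m → F)} : Submodule F (Fin m ⊕ Fin m → F)) : Set (Fin m ⊕ Fin m → F)) := ⟨_, rfl⟩
  have hTset : (⨅ i : Fin m ⊕ Fin m, (Cfsg.stabilizing (Cfsg.spToMat m F) ((Submodule.span F {(Pi.single i (1 : F) : Fin m ⊕ Fin m → F)} : Submodule F (Fin m ⊕ Fin m → F)) : Set (Fin m ⊕ Fin m → F)) : Set (Matrix.symplecticGroup (Fin m) F))) = (T : Set (Matrix.symplecticGroup (Fin m) F)) := by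
    rw [hT', Subgroup.coe_iInf]
    rfl
  rw [hTset]
  have he0 : ∀ i, e i ≠ 0 := by
    intro i h
    have := congrFun h i
    rw [he] at this
    simp at this
  have hinj0 : ∀ (h : Matrix.symplecticGroup (Fin m) F) i (c : F) j, spToLin h (e i) = c • e j → c ≠ 0 := by
    intro h i c j hh hc
    rw [hc, zero_smul] at hh
    exact he0 i ((LinearEquiv.map_eq_zero_iff _).1 hh)
  have hT : ∀ h, h ∈ T ↔ ∀ i, ∃ c : F, spToLin h (e i) = c • e i := by
    intro h
    rw [hT', Subgroup.mem_iInf]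
    refine forall_congr' fun i => ?_
    constructor
    · intro hh
      have h1 := (hh (e i)).1 (Submodule.mem_span_singleton.2 ⟨1, by rw [one_smul, he]⟩)
      obtain ⟨c, hc⟩ := Submodule.mem_span_singleton.1 h1
      exact ⟨c, by rw [he] at hc ⊢; exact hc.symm⟩
    · rintro ⟨c, hc⟩ v
      have hc0 := hinj0 h i c i hc
      have hei : (Pi.single i (1 : F) : Fin m ⊕ Fin m → F) = e i := by rw [he]
      show v ∈ Submodule.span F {(Pi.single i (1 : F) : Fin m ⊕ Fin m → F)} ↔ spToLin h v ∈ Submodule.span F {(Pi.single i (1 : F) : Fin m ⊕ Fin m → F)}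
      rw [hei, Submodule.mem_span_singleton, Submodule.mem_span_singleton]
      constructor
      · rintro ⟨a, rfl⟩
        exact ⟨a * c, by rw [_root_.map_smul, hc, smul_smul]⟩
      · rintro ⟨a, ha⟩
        refine ⟨a * c⁻¹, (spToLin h).injective ?_⟩
        rw [_root_.map_smul, hc, smul_smul, mul_assoc, inv_mul_cancel₀ hc0, mul_one, ha]
  -- enough torus elements
  obtain ⟨ζ, hζ0, hζ⟩ : ∃ ζ : F, ζ ≠ 0 ∧ ζ ^ 2 ≠ 1 := by
    by_contra hcon
    push Not at hcon
    have h1 : (Finset.univ : Finset F) ⊆ {0, 1, -1} := by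
      intro x _
      rw [Finset.mem_insert, Finset.mem_insert, Finset.mem_singleton]
      by_cases hx : x = 0
      · exact Or.inl hx
      · exact Or.inr (sq_eq_one_iff_of_side_fix x (hcon x hx))
    have h2 := Finset.card_le_card h1
    have h3 : ({0, 1, -1} : Finset F).card ≤ 3 := Finset.card_le_three
    rw [Finset.card_univ] at h2
    omega
  have htor : ∀ a : Fin m ⊕ Fin m, ∃ t ∈ T, ∃ d : Fin m ⊕ Fin m → F, (∀ i, spToLin t (e i) = d i • e i) ∧ ∀ b, b ≠ a → d b ≠ d a := by
    intro a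
    have hζ1 : ζ ≠ 1 := by rintro rfl; exact hζ (one_pow 2)
    obtain ⟨d, hd⟩ : ∃ d : Fin m ⊕ Fin m → F, d = fun k => if k = a then ζ else if k = bar m a then ζ⁻¹ else 1 := ⟨_, rfl⟩
    have hda : d a = ζ := by rw [hd]; exact if_pos rfl
    have hdb : d (bar m a) = ζ⁻¹ := by
      rw [hd]
      show (if bar m a = a then ζ else if bar m a = bar m a then ζ⁻¹ else 1) = ζ⁻¹
      rw [if_neg (bar_ne a), if_pos rfl]
    have hdo : ∀ k, k ≠ a → k ≠ bar m a → d k = 1 := by
      intro k h1 h2
      rw [hd]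
      show (if k = a then ζ else if k = bar m a then ζ⁻¹ else 1) = 1
      rw [if_neg h1, if_neg h2]
    have hmem : mono (1 : Equiv.Perm (Fin m ⊕ Fin m)) d ∈ Matrix.symplecticGroup (Fin m) F := by
      rw [mono_mem]
      refine ⟨fun k => rfl, fun k => ?_⟩
      have h1 : d k * d (bar m k) = 1 := by
        by_cases h1 : k = a
        · rw [h1, hda, hdb, mul_inv_cancel₀ hζ0]
        · by_cases h2 : k = bar m a
          · rw [h2, bar_bar, hda, hdb, inv_mul_cancel₀ hζ0]
          · rw [hdo k h1 h2, hdo (bar m k), mul_one]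
            · intro h; exact h2 (by rw [← h, bar_bar])
            · intro h; exact h1 ((bar m).injective h)
      rw [h1, one_mul]
      rfl
    have hte : ∀ i, spToLin ⟨_, hmem⟩ (e i) = d i • e i := by
      intro i
      show (mono (1 : Equiv.Perm (Fin m ⊕ Fin m)) d) *ᵥ (e i) = d i • e i
      rw [he]
      exact mono_single _ _ _
    refine ⟨⟨_, hmem⟩, (hT _).2 fun i => ⟨d i, hte i⟩, d, hte, ?_⟩
    intro b hb
    rw [hda]
    by_cases h2 : b = bar m a
    · rw [h2, hdb]
      intro h3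
      apply hζ
      rw [pow_two]
      nth_rw 1 [← h3]
      exact inv_mul_cancel₀ hζ0
    · rw [hdo b hb h2]; exact fun h => hζ1 h.symm
  have hes : ∀ i k, e i k = if k = i then 1 else 0 := by
    intro i k
    rw [he]
    show (Pi.single i (1 : F) : Fin m ⊕ Fin m → F) k = _
    by_cases h : k = i
    · rw [if_pos h, h, Pi.single_eq_same]
    · rw [if_neg h, Pi.single_eq_of_ne h]
  have hsupp : ∀ v : Fin m ⊕ Fin m → F, v = ∑ i, v i • e i := by
    intro v
    funext k
    rw [Finset.sum_apply, Finset.sum_eq_single k]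
    · rw [Pi.smul_apply, hes, if_pos rfl, smul_eq_mul, mul_one]
    · intro j _ hj
      rw [Pi.smul_apply, hes, if_neg (fun h => hj h.symm), smul_zero]
    · intro h; exact absurd (Finset.mem_univ _) h
  have heval : ∀ (c : F) i k, (c • e i) k = if k = i then c else 0 := by
    intro c i k
    rw [Pi.smul_apply, hes]
    by_cases h : k = i
    · rw [if_pos h, if_pos h, smul_eq_mul, mul_one]
    · rw [if_neg h, if_neg h, smul_zero]
  -- action of torus elements
  have htv : ∀ (t : Matrix.symplecticGroup (Fin m) F) (d : Fin m ⊕ Fin m → F), (∀ i, spToLin t (e i) = d i • e i) → ∀ v k, spToLin t v k = d k * v k := by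
    intro t d hd v k
    conv_lhs => rw [hsupp v, map_sum]
    rw [Finset.sum_apply, Finset.sum_eq_single k]
    · rw [_root_.map_smul, hd, smul_smul, heval, if_pos rfl, mul_comm]
    · intro j _ hj
      rw [_root_.map_smul, hd, smul_smul, heval, if_neg (fun h => hj h.symm)]
    · intro h; exact absurd (Finset.mem_univ _) h
  have hNax : ∀ g : Matrix.symplecticGroup (Fin m) F, g ∈ Subgroup.normalizer (T : Set (Matrix.symplecticGroup (Fin m) F)) → ∀ i, ∃ j, ∃ c : F, spToLin g (e i) = c • e j := by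
    intro g hg i
    have hg' := (Subgroup.mem_normalizer_iff.1 ((Subgroup.normalizer (T : Set (Matrix.symplecticGroup (Fin m) F))).inv_mem hg))
    have hv0 : spToLin g (e i) ≠ 0 := fun h => he0 i ((LinearEquiv.map_eq_zero_iff _).1 h)
    obtain ⟨a, ha⟩ : ∃ a, spToLin g (e i) a ≠ 0 := by
      by_contra hcon
      push Not at hcon
      exact hv0 (funext hcon)
    refine ⟨a, spToLin g (e i) a, ?_⟩
    funext b
    rw [heval]
    by_cases hb : b = a
    · rw [if_pos hb, hb]
    rw [if_neg hb]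
    obtain ⟨t, ht, d, hd, hdne⟩ := htor a
    obtain ⟨lam, hlam⟩ := (hT _).1 ((hg' t).1 ht) i
    rw [inv_inv] at hlam
    have h1 : spToLin t (spToLin g (e i)) = lam • spToLin g (e i) := by
      rw [← _root_.map_smul, ← hlam]
      have h2 : t * g = g * (g⁻¹ * t * g) := by group
      have h3 := congrArg (fun z => spToLin z (e i)) h2
      simp only [map_mul, LinearEquiv.mul_apply] at h3 ⊢
      exact h3
    have h2 := congrFun h1 a
    have h3 := congrFun h1 b
    rw [htv t d hd, Pi.smul_apply, smul_eq_mul] at h2 h3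
    have h4 : d a = lam := mul_right_cancel₀ ha h2
    rw [← h4] at h3
    by_contra hne
    exact hdne b hb (mul_right_cancel₀ hne h3)
  have hmonoN : ∀ (π : Equiv.Perm (Fin m ⊕ Fin m)) (c : Fin m ⊕ Fin m → F) (h : mono π c ∈ Matrix.symplecticGroup (Fin m) F),
      (⟨_, h⟩ : Matrix.symplecticGroup (Fin m) F) ∈ Subgroup.normalizer (T : Set (Matrix.symplecticGroup (Fin m) F)) := by
    intro π c hmem
    obtain ⟨g, hg⟩ : ∃ g : Matrix.symplecticGroup (Fin m) F, g = ⟨_, hmem⟩ := ⟨_, rfl⟩
    have hge : ∀ i, spToLin g (e i) = c i • e (π i) := by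
      intro i
      rw [hg]
      show (mono π c) *ᵥ (e i) = c i • e (π i)
      rw [he]
      exact mono_single _ _ _
    rw [← hg, Subgroup.mem_normalizer_iff]
    intro h
    rw [hT, hT]
    have hc0 : ∀ i, c i ≠ 0 := fun i => hinj0 g i _ _ (hge i)
    have hconj : ∀ i, spToLin (g * h * g⁻¹) (e (π i)) = (c i)⁻¹ • spToLin g (spToLin h (e i)) := by
      intro i
      have h1 : e (π i) = (c i)⁻¹ • spToLin g (e i) := by rw [hge, smul_smul, inv_mul_cancel₀ (hc0 i), one_smul]
      rw [h1, _root_.map_smul]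
      congr 1
      have h2 := congrArg (fun z => spToLin z (e i)) (show g * h * g⁻¹ * g = g * h by group)
      simp only [map_mul, LinearEquiv.mul_apply] at h2 ⊢
      exact h2
    constructor
    · intro hh i
      obtain ⟨i, rfl⟩ := π.surjective i
      obtain ⟨a, ha⟩ := hh i
      refine ⟨a, ?_⟩
      rw [hconj, ha, _root_.map_smul, hge, smul_smul, smul_smul]
      congr 1
      rw [mul_right_comm, inv_mul_cancel₀ (hc0 i), one_mul]
    · intro hh i
      obtain ⟨a, ha⟩ := hh (π i)
      refine ⟨a, (spToLin g).injective ?_⟩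
      rw [hconj] at ha
      rw [_root_.map_smul, hge, smul_smul, mul_comm, ← smul_smul, ← ha, smul_smul, mul_inv_cancel₀ (hc0 i), one_smul]
  rw [← card_mono (F := F) m]
  refine (Nat.card_congr (Equiv.ofBijective (fun p => (⟨⟨mono p.1.1 p.1.2, mono_mem.2 p.2⟩, hmonoN _ _ _⟩ : Subgroup.normalizer (T : Set (Matrix.symplecticGroup (Fin m) F)))) ⟨?_, ?_⟩)).symm
  · rintro ⟨⟨π, c⟩, hp⟩ ⟨⟨π', c'⟩, hp'⟩ h
    have h1 : mono π c = mono π' c' := congrArg (fun z : Subgroup.normalizer (T : Set (Matrix.symplecticGroup (Fin m) F)) => ((z.1 : Matrix.symplecticGroup (Fin m) F) : Matrix (Fin m ⊕ Fin m) (Fin m ⊕ Fin m) F)) h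
    have h2 : ∀ l, c l • e (π l) = c' l • e (π' l) := by
      intro l
      have := congrArg (fun M => M *ᵥ (Pi.single l (1 : F) : Fin m ⊕ Fin m → F)) h1
      simp only [mono_single] at this
      rw [he]
      exact this
    have hc : ∀ k, c k ≠ 0 := by
      intro k h0
      have : c k * c (bar m k) * sg F m (π k) = sg F m k := hp.2 k
      rw [h0, zero_mul, zero_mul] at this
      exact sg_ne k this.symm
    have h3 : ∀ l, π l = π' l ∧ c l = c' l := by
      intro l
      have h4 := congrFun (h2 l) (π l)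
      rw [heval, heval, if_pos rfl] at h4
      by_cases h5 : π l = π' l
      · rw [if_pos h5] at h4
        exact ⟨h5, h4⟩
      · rw [if_neg h5] at h4
        exact absurd h4 (hc l)
    apply Subtype.ext
    exact Prod.ext (Equiv.ext fun l => (h3 l).1) (funext fun l => (h3 l).2)
  · rintro ⟨g, hg⟩
    choose π c hgc using hNax g hg
    have hc0 : ∀ i, c i ≠ 0 := fun i => hinj0 g i _ _ (hgc i)
    have hπ : Function.Injective π := by
      intro i j hij
      have h1 : spToLin g (c j • e i) = spToLin g (c i • e j) := by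
        rw [_root_.map_smul, _root_.map_smul, hgc, hgc, hij, smul_smul, smul_smul, mul_comm]
      have h2 := (spToLin g).injective h1
      have h3 := congrFun h2 i
      rw [heval, heval, if_pos rfl] at h3
      by_contra hne
      rw [if_neg hne] at h3
      exact hc0 j h3
    have hMg : (g : Matrix (Fin m ⊕ Fin m) (Fin m ⊕ Fin m) F) = mono (Equiv.ofBijective π (Finite.injective_iff_bijective.1 hπ)) c := by
      ext k l
      have h1 : (g : Matrix (Fin m ⊕ Fin m) (Fin m ⊕ Fin m) F) k l = spToLin g (e l) k := by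
        show _ = ((g : Matrix (Fin m ⊕ Fin m) (Fin m ⊕ Fin m) F) *ᵥ (e l)) k
        rw [he, Matrix.mulVec_single_one]
        rfl
      rw [h1, hgc, heval]
      rfl
    refine ⟨⟨(Equiv.ofBijective π (Finite.injective_iff_bijective.1 hπ), c), mono_mem.1 (hMg ▸ g.2)⟩, ?_⟩
    apply Subtype.ext
    apply Subtype.ext
    exact hMg.symm

end Cfsg.Agent.S0777
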