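import Cfsg.Statements.S0778
import Cfsg.Agent.LibH22Dec

set_option autoImplicit false
open Cfsg

namespace Cfsg.Agent.S0778
open Matrix

lemma mem_diag {F : Type*} [Field F] {m : ℕ} (g : Matrix.GeneralLinearGroup (Fin m) F) :
    Matrix.fromBlocks (g : Matrix (Fin m) (Fin m) F) 0 0 ((g⁻¹ : Matrix.GeneralLinearGroup (Fin m) F) : Matrix (Fin m) (Fin m) F)ᵀ ∈ Matrix.symplecticGroup (Fin m) F := by
  rw [SymplecticGroup.mem_iff, Matrix.J, Matrix.fromBlocks_transpose, Matrix.fromBlocks_multiply, Matrix.fromBlocks_multiply, Matrix.transpose_transpose]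
  have h1 : (g : Matrix (Fin m) (Fin m) F) * ((g⁻¹ : Matrix.GeneralLinearGroup (Fin m) F) : Matrix (Fin m) (Fin m) F) = 1 := g.mul_inv
  have h2 : ((g⁻¹ : Matrix.GeneralLinearGroup (Fin m) F) : Matrix (Fin m) (Fin m) F)ᵀ * (g : Matrix (Fin m) (Fin m) F)ᵀ = 1 := by
    rw [← Matrix.transpose_mul, h1, Matrix.transpose_one]
  generalize ((g⁻¹ : Matrix.GeneralLinearGroup (Fin m) F) : Matrix (Fin m) (Fin m) F) = gi at h1 h2
  simp [h1, h2]

/-- The elements of Sp_2m(F) stabilising both W = ⟨e_1..e_m⟩ and U = ⟨f_1..f_m⟩ form a subgroup isomorphic to GL_m(F) (block-diagonal matrices diag(X, X^(−ᵀ)) up to the sign convention of J), for m ≥ 1 or m = 0 alike. -/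
theorem result {F : Type*} [Field F] (m : ℕ) : Nonempty (↥(Cfsg.stabilizing (Cfsg.spToMat m F) {v : Fin m ⊕ Fin m → F | ∀ i : Fin m, v (Sum.inr i) = 0} ⊓ Cfsg.stabilizing (Cfsg.spToMat m F) {v : Fin m ⊕ Fin m → F | ∀ i : Fin m, v (Sum.inl i) = 0}) ≃* Matrix.GeneralLinearGroup (Fin m) F) := by
  classical
  obtain ⟨S, hS⟩ : ∃ S : Subgroup (Matrix.symplecticGroup (Fin m) F), S = (Cfsg.stabilizing (Cfsg.spToMat m F) {v : Fin m ⊕ Fin m → F | ∀ i : Fin m, v (Sum.inr i) = 0} ⊓ Cfsg.stabilizing (Cfsg.spToMat m F) {v : Fin m ⊕ Fin m → F | ∀ i : Fin m, v (Sum.inl i) = 0}) := ⟨_, rfl⟩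
  rw [← hS]
  have hmem : ∀ g : Matrix.GeneralLinearGroup (Fin m) F, (⟨_, mem_diag g⟩ : Matrix.symplecticGroup (Fin m) F) ∈ S := by
    intro g
    rw [hS]
    have h0 : ∀ (h : Matrix.GeneralLinearGroup (Fin m) F) (w : Fin m → F), (h : Matrix (Fin m) (Fin m) F) *ᵥ w = 0 → w = 0 := by
      intro h w hw
      have := congrArg (((h⁻¹ : Matrix.GeneralLinearGroup (Fin m) F) : Matrix (Fin m) (Fin m) F) *ᵥ ·) hw
      simp only [Matrix.mulVec_mulVec, Matrix.mulVec_zero] at this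
      rw [h.inv_mul, Matrix.one_mulVec] at this
      exact this
    have h0' : ∀ (h : Matrix.GeneralLinearGroup (Fin m) F) (w : Fin m → F), ((h⁻¹ : Matrix.GeneralLinearGroup (Fin m) F) : Matrix (Fin m) (Fin m) F)ᵀ *ᵥ w = 0 → w = 0 := by
      intro h w hw
      have := congrArg ((h : Matrix (Fin m) (Fin m) F)ᵀ *ᵥ ·) hw
      simp only [Matrix.mulVec_mulVec, Matrix.mulVec_zero] at this
      rw [← Matrix.transpose_mul, h.inv_mul, Matrix.transpose_one, Matrix.one_mulVec] at this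
      exact this
    refine Subgroup.mem_inf.2 ⟨fun v => ?_, fun v => ?_⟩
    · show (∀ i, v (Sum.inr i) = 0) ↔ ∀ i, (Matrix.fromBlocks (g : Matrix (Fin m) (Fin m) F) 0 0 ((g⁻¹ : Matrix.GeneralLinearGroup (Fin m) F) : Matrix (Fin m) (Fin m) F)ᵀ *ᵥ v) (Sum.inr i) = 0
      have h1 : ∀ i, (Matrix.fromBlocks (g : Matrix (Fin m) (Fin m) F) 0 0 ((g⁻¹ : Matrix.GeneralLinearGroup (Fin m) F) : Matrix (Fin m) (Fin m) F)ᵀ *ᵥ v) (Sum.inr i) = (((g⁻¹ : Matrix.GeneralLinearGroup (Fin m) F) : Matrix (Fin m) (Fin m) F)ᵀ *ᵥ (v ∘ Sum.inr)) i := by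
        intro i
        rw [Matrix.fromBlocks_mulVec]
        simp
      constructor
      · intro h i
        rw [h1, show v ∘ Sum.inr = 0 from funext h, Matrix.mulVec_zero]; rfl
      · intro h
        have := h0' g (v ∘ Sum.inr) (funext fun i => by rw [← h1, h]; rfl)
        exact fun i => congrFun this i
    · show (∀ i, v (Sum.inl i) = 0) ↔ ∀ i, (Matrix.fromBlocks (g : Matrix (Fin m) (Fin m) F) 0 0 ((g⁻¹ : Matrix.GeneralLinearGroup (Fin m) F) : Matrix (Fin m) (Fin m) F)ᵀ *ᵥ v) (Sum.inl i) = 0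
      have h1 : ∀ i, (Matrix.fromBlocks (g : Matrix (Fin m) (Fin m) F) 0 0 ((g⁻¹ : Matrix.GeneralLinearGroup (Fin m) F) : Matrix (Fin m) (Fin m) F)ᵀ *ᵥ v) (Sum.inl i) = ((g : Matrix (Fin m) (Fin m) F) *ᵥ (v ∘ Sum.inl)) i := by
        intro i
        rw [Matrix.fromBlocks_mulVec]
        simp
      constructor
      · intro h i
        rw [h1, show v ∘ Sum.inl = 0 from funext h, Matrix.mulVec_zero]; rfl
      · intro h
        have := h0 g (v ∘ Sum.inl) (funext fun i => by rw [← h1, h]; rfl)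
        exact fun i => congrFun this i
  refine ⟨(MulEquiv.ofBijective (M := Matrix.GeneralLinearGroup (Fin m) F) (N := S)
    ({ toFun := fun g => ⟨⟨_, mem_diag g⟩, hmem g⟩
       map_one' := ?_
       map_mul' := ?_ } : Matrix.GeneralLinearGroup (Fin m) F →* S) ⟨?_, ?_⟩).symm⟩
  · apply Subtype.ext
    apply Subtype.ext
    show Matrix.fromBlocks ((1 : Matrix.GeneralLinearGroup (Fin m) F) : Matrix (Fin m) (Fin m) F) 0 0 (((1 : Matrix.GeneralLinearGroup (Fin m) F)⁻¹ : Matrix.GeneralLinearGroup (Fin m) F) : Matrix (Fin m) (Fin m) F)ᵀ = 1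
    rw [inv_one, Units.val_one, Matrix.transpose_one, Matrix.fromBlocks_one]
  · intro g h
    apply Subtype.ext
    apply Subtype.ext
    show Matrix.fromBlocks ((g * h : Matrix.GeneralLinearGroup (Fin m) F) : Matrix (Fin m) (Fin m) F) 0 0 (((g * h)⁻¹ : Matrix.GeneralLinearGroup (Fin m) F) : Matrix (Fin m) (Fin m) F)ᵀ =
      Matrix.fromBlocks (g : Matrix (Fin m) (Fin m) F) 0 0 ((g⁻¹ : Matrix.GeneralLinearGroup (Fin m) F) : Matrix (Fin m) (Fin m) F)ᵀ *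
      Matrix.fromBlocks (h : Matrix (Fin m) (Fin m) F) 0 0 ((h⁻¹ : Matrix.GeneralLinearGroup (Fin m) F) : Matrix (Fin m) (Fin m) F)ᵀ
    rw [Matrix.fromBlocks_multiply, _root_.mul_inv_rev, Units.val_mul, Units.val_mul, Matrix.transpose_mul]
    simp
  · intro g h hgh
    have h1 := congrArg (fun z : S => ((z.1 : Matrix.symplecticGroup (Fin m) F) : Matrix (Fin m ⊕ Fin m) (Fin m ⊕ Fin m) F)) hgh
    exact Units.ext (Matrix.fromBlocks_inj.1 h1).1
  · rintro ⟨M, hM⟩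
    rw [hS] at hM
    obtain ⟨hM1, hM2⟩ := Subgroup.mem_inf.1 hM
    obtain ⟨A, hA⟩ : ∃ A, A = (M : Matrix (Fin m ⊕ Fin m) (Fin m ⊕ Fin m) F).toBlocks₁₁ := ⟨_, rfl⟩
    obtain ⟨D, hD⟩ : ∃ D, D = (M : Matrix (Fin m ⊕ Fin m) (Fin m ⊕ Fin m) F).toBlocks₂₂ := ⟨_, rfl⟩
    have h21 : (M : Matrix (Fin m ⊕ Fin m) (Fin m ⊕ Fin m) F).toBlocks₂₁ = 0 := by
      ext i j
      have h1 := (hM1 (Pi.single (Sum.inl j) 1)).1 (by intro i; exact Pi.single_eq_of_ne (by simp) _)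
      have h2 := h1 i
      have h3 : (M : Matrix (Fin m ⊕ Fin m) (Fin m ⊕ Fin m) F) *ᵥ (Pi.single (Sum.inl j) 1) = (M : Matrix (Fin m ⊕ Fin m) (Fin m ⊕ Fin m) F).col (Sum.inl j) := Matrix.mulVec_single_one _ _
      have h4 : ((M : Matrix (Fin m ⊕ Fin m) (Fin m ⊕ Fin m) F) *ᵥ (Pi.single (Sum.inl j) 1)) (Sum.inr i) = 0 := h2
      rw [h3] at h4
      exact h4
    have h12 : (M : Matrix (Fin m ⊕ Fin m) (Fin m ⊕ Fin m) F).toBlocks₁₂ = 0 := by
      ext i j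
      have h1 := (hM2 (Pi.single (Sum.inr j) 1)).1 (by intro i; exact Pi.single_eq_of_ne (by simp) _)
      have h2 := h1 i
      have h3 : (M : Matrix (Fin m ⊕ Fin m) (Fin m ⊕ Fin m) F) *ᵥ (Pi.single (Sum.inr j) 1) = (M : Matrix (Fin m ⊕ Fin m) (Fin m ⊕ Fin m) F).col (Sum.inr j) := Matrix.mulVec_single_one _ _
      have h4 : ((M : Matrix (Fin m ⊕ Fin m) (Fin m ⊕ Fin m) F) *ᵥ (Pi.single (Sum.inr j) 1)) (Sum.inl i) = 0 := h2
      rw [h3] at h4
      exact h4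
    have hMb : (M : Matrix (Fin m ⊕ Fin m) (Fin m ⊕ Fin m) F) = Matrix.fromBlocks A 0 0 D := by
      have := (Matrix.fromBlocks_toBlocks (M : Matrix (Fin m ⊕ Fin m) (Fin m ⊕ Fin m) F)).symm
      rw [h12, h21, ← hA, ← hD] at this
      exact this
    have hsp := M.2
    rw [SymplecticGroup.mem_iff, hMb, Matrix.J, Matrix.fromBlocks_transpose, Matrix.fromBlocks_multiply, Matrix.fromBlocks_multiply] at hsp
    have h3 := (Matrix.fromBlocks_inj.1 hsp).2.2.1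
    have h4 : D * Aᵀ = 1 := by simpa using h3
    have h5 : A * Dᵀ = 1 := by
      have := congrArg Matrix.transpose h4
      rwa [Matrix.transpose_mul, Matrix.transpose_transpose, Matrix.transpose_one] at this
    have h6 : Dᵀ * A = 1 := mul_eq_one_comm.1 h5
    refine ⟨⟨A, Dᵀ, h5, h6⟩, ?_⟩
    apply Subtype.ext
    apply Subtype.ext
    show Matrix.fromBlocks A 0 0 (Dᵀ)ᵀ = (M : Matrix (Fin m ⊕ Fin m) (Fin m ⊕ Fin m) F)
    rw [hMb, Matrix.transpose_transpose]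

end Cfsg.Agent.S0778
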