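import Cfsg.Statements.S0779
import Cfsg.Agent.LibH22Un2

set_option autoImplicit false
open Cfsg

namespace Cfsg.Agent.S0779


/-- Unitary transvections: let |F| = q², h the standard Hermitian form Σ x_i y_i^q and v ≠ 0 with h(v, v) = 0. The linear map x ↦ x + c h(x, v) v is an isometry of h if and only if c = 0 or c^(q−1) = −1. -/
theorem result {F : Type*} [Field F] [Fintype F] {q : ℕ} (hF : Fintype.card F = q ^ 2) (n : ℕ) (v : Fin n → F) (hv : v ≠ 0) (hv0 : Cfsg.hermForm n F q v v = 0) (c : F) : (∀ x y : Fin n → F, Cfsg.hermForm n F q ((Cfsg.unitaryTransvection n q v c).mulVec x) ((Cfsg.unitaryTransvection n q v c).mulVec y) = Cfsg.hermForm n F q x y) ↔ (c = 0 ∨ c ^ (q - 1) = -1) := by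
  obtain ⟨σ, hσ, hf⟩ := CfsgLib.Un29.hermForm_unitary (F := F) n hF
  rw [Cfsg.Agent.H22.uTrans_iso_iff hσ hf hv hv0 c, hσ]
  have hq : 0 < q := by
    rcases Nat.eq_zero_or_pos q with h | h
    · rw [h] at hF
      have := Fintype.card_pos (α := F)
      rw [hF] at this
      norm_num at this
    · exact h
  have h1 : c ^ q = c * c ^ (q - 1) := by rw [← pow_succ', Nat.sub_add_cancel hq]
  rw [h1]
  constructor
  · intro h
    by_cases hc : c = 0
    · exact Or.inl hc
    · right
      apply mul_left_cancel₀ hc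
      rw [h]; ring
  · rintro (h | h)
    · rw [h]; ring
    · rw [h]; ring

end Cfsg.Agent.S0779
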