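import Cfsg.Statements.S0783
import Cfsg.Agent.LibH22HermS

set_option autoImplicit false
open Cfsg

namespace Cfsg.Agent.S0783
open Cfsg.Agent.H22

/-- a matrix commuting with `SU_n` is scalar -/
theorem scalar_of_comm {F : Type*} [Field F] [Fintype F] {q n : ℕ} (hF : Fintype.card F = q ^ 2) (hn : 2 ≤ n) (M : Matrix (Fin n) (Fin n) F)
    (hcomm : ∀ B : Cfsg.SU n F q, ((B.1 : Matrix.SpecialLinearGroup (Fin n) F) : Matrix (Fin n) (Fin n) F) * M = M * ((B.1 : Matrix.SpecialLinearGroup (Fin n) F) : Matrix (Fin n) (Fin n) F)) :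
    ∃ μ : F, M = Matrix.scalar (Fin n) μ := by
  obtain ⟨c, hc, hc2⟩ := exists_root_ne hF
  have hc0 : c ≠ 0 := by rintro rfl; rw [zero_pow (by omega)] at hc; exact zero_ne_one hc
  have hoff : ∀ l k : Fin n, l ≠ k → M l k = 0 := by
    intro l k hlk
    obtain ⟨D, hD⟩ := exists_diag_SU hF hlk c hc
    have h1 := congrFun (congrFun (hcomm D) l) k
    rw [hD, Matrix.diagonal_mul, Matrix.mul_diagonal, Function.update_self, Function.update_of_ne hlk, Function.update_self] at h1
    have h2 : M l k * (c - c⁻¹) = 0 := by linear_combination h1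
    refine (mul_eq_zero.1 h2).resolve_right ?_
    intro h3
    apply hc2
    have : c = c⁻¹ := sub_eq_zero.1 h3
    rw [pow_two]; nth_rewrite 2 [this]; exact mul_inv_cancel₀ hc0
  have hdiag : ∀ l k : Fin n, M l l = M k k := by
    intro l k
    by_cases hlk : l = k
    · rw [hlk]
    · obtain ⟨W, hW⟩ := exists_weyl_SU hF hlk
      have h1 := congrFun (congrFun (hcomm W) l) k
      rw [(hW M).1, (hW M).2] at h1
      exact h1.symm
  refine ⟨M ⟨0, by omega⟩ ⟨0, by omega⟩, ?_⟩
  ext i j
  by_cases h : i = j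
  · subst h
    simp [hdiag i ⟨0, by omega⟩]
  · simp [hoff i j h, h]

/-- PGU_n(q)/PSU_n(q) is cyclic of order (n, q+1): for n ≥ 2 and |F| = q² there is a surjective homomorphism from GU_n(q) onto the cyclic group of order gcd(n, q + 1) whose kernel is generated by the determinant-one elements together with the centre. -/
theorem result {F : Type*} [Field F] [Fintype F] {q : ℕ} (hF : Fintype.card F = q ^ 2) (n : ℕ) (hn : 2 ≤ n) : ∃ φ : ↥(Cfsg.GU n F q) →* Multiplicative (ZMod (Nat.gcd n (q + 1))), Function.Surjective φ ∧ φ.ker = (Matrix.GeneralLinearGroup.det : Matrix.GeneralLinearGroup (Fin n) F →* Fˣ).ker.subgroupOf (Cfsg.GU n F q) ⊔ Subgroup.center ↥(Cfsg.GU n F q) := by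
  classical
  obtain ⟨σ, hσ, hσ2, hσi⟩ := exists_sigma hF
  have h0 : 0 < n := by omega
  obtain ⟨C, hC⟩ : ∃ C : Subgroup Fˣ, C = (detU n F q).range := ⟨_, rfl⟩
  have hCcard : Nat.card C = q + 1 := by rw [hC]; exact card_range_detU hF (by omega)
  haveI : IsCyclic C := inferInstance
  obtain ⟨N, hN⟩ : ∃ N : Subgroup C, N = (powMonoidHom n : C →* C).range := ⟨_, rfl⟩
  have hQ : Nat.card (C ⧸ N) = Nat.gcd n (q + 1) := by
    have h1 := IsCyclic.card_powMonoidHom_ker (G := C) (d := n)
    have h2 := Subgroup.card_eq_card_quotient_mul_card_subgroup (powMonoidHom n : C →* C).ker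
    have h3 : Nat.card (C ⧸ (powMonoidHom n : C →* C).ker) = Nat.card N := by
      rw [hN]; exact Nat.card_congr (QuotientGroup.quotientKerEquivRange _).toEquiv
    have h4 := Subgroup.card_eq_card_quotient_mul_card_subgroup N
    rw [h3] at h2
    have h5 : 0 < Nat.card N := Nat.card_pos
    rw [h2, mul_comm] at h4
    have h6 := Nat.eq_of_mul_eq_mul_right h5 h4
    rw [← h6, h1, hCcard, Nat.gcd_comm]
  haveI : IsCyclic (C ⧸ N) := isCyclic_of_surjective (QuotientGroup.mk' N) (QuotientGroup.mk'_surjective N)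
  have e : (C ⧸ N) ≃* Multiplicative (ZMod (Nat.gcd n (q + 1))) := mulEquivOfCyclicCardEq (by
    rw [hQ]; exact (Nat.card_zmod _).symm)
  obtain ⟨δ, hδ⟩ : ∃ δ : Cfsg.GU n F q →* C, (∀ g, ((δ g : C) : Fˣ) = detU n F q g) := ⟨(detU n F q).codRestrict C (fun g => by rw [hC]; exact ⟨g, rfl⟩), fun g => rfl⟩
  have hδs : Function.Surjective δ := by
    rintro ⟨x, hx⟩
    rw [hC] at hx
    obtain ⟨g, hg⟩ := hx
    exact ⟨g, Subtype.ext (by rw [hδ]; exact hg)⟩
  refine ⟨(e.toMonoidHom.comp (QuotientGroup.mk' N)).comp δ, ?_, ?_⟩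
  · exact (e.surjective.comp (QuotientGroup.mk'_surjective N)).comp hδs
  · have hker : ∀ g, g ∈ ((e.toMonoidHom.comp (QuotientGroup.mk' N)).comp δ).ker ↔ δ g ∈ N := by
      intro g
      rw [MonoidHom.mem_ker, MonoidHom.comp_apply, MonoidHom.comp_apply]
      constructor
      · intro h
        have h1 : e (QuotientGroup.mk' N (δ g)) = e 1 := by rw [map_one]; exact h
        have h2 := e.injective h1
        rwa [QuotientGroup.mk'_apply, QuotientGroup.eq_one_iff] at h2
      · intro h
        have h2 : QuotientGroup.mk' N (δ g) = 1 := by rw [QuotientGroup.mk'_apply, QuotientGroup.eq_one_iff]; exact h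
        rw [h2]; exact map_one e
    have hscal : ∀ x : Fˣ, x ^ (q + 1) = 1 → ∃ z ∈ Subgroup.center (Cfsg.GU n F q), detU n F q z = x ^ n := by
      intro x hx
      have hx' : (x : F) ^ (q + 1) = 1 := by
        have := congrArg Units.val hx
        rwa [Units.val_pow_eq_pow_val, Units.val_one] at this
      have hdet : (Matrix.diagonal (fun _ : Fin n => (x : F))).det = (x : F) ^ n := by
        rw [Matrix.det_diagonal, Finset.prod_const, Finset.card_univ, Fintype.card_fin]
      refine ⟨⟨Matrix.GeneralLinearGroup.mkOfDetNeZero (Matrix.diagonal (fun _ : Fin n => (x : F))) (by rw [hdet]; exact pow_ne_zero _ x.ne_zero), ?_⟩, ?_, ?_⟩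
      · rw [mem_GU_iff' hσ]
        exact diag_unitary hσ _ (fun _ => hx')
      · rw [Subgroup.mem_center_iff]
        intro g
        apply Subtype.ext
        apply Units.ext
        exact (Matrix.scalar_commute (x : F) (fun _ => mul_comm _ _) _).symm
      · apply Units.ext
        rw [Units.val_pow_eq_pow_val]
        exact hdet
    have hcen : ∀ z ∈ Subgroup.center (Cfsg.GU n F q), δ z ∈ N := by
      intro z hz
      rw [Subgroup.mem_center_iff] at hz
      obtain ⟨μ, hμ⟩ := scalar_of_comm hF hn ((z.1 : Matrix.GeneralLinearGroup (Fin n) F) : Matrix (Fin n) (Fin n) F) (by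
        intro B
        have hB : Matrix.SpecialLinearGroup.toGL B.1 ∈ Cfsg.GU n F q := fun u v => B.2 u v
        have := congrArg (fun t : Cfsg.GU n F q => ((t.1 : Matrix.GeneralLinearGroup (Fin n) F) : Matrix (Fin n) (Fin n) F)) (hz ⟨_, hB⟩)
        exact this)
      have hU := (mem_GU_iff' hσ z.1).1 z.2
      rw [hμ] at hU
      have h2 : μ ^ (q + 1) = 1 := by
        have h3 := congrFun (congrFun hU ⟨0, h0⟩) ⟨0, h0⟩
        rw [Matrix.scalar_apply, Matrix.diagonal_transpose, Matrix.diagonal_map (map_zero σ), Matrix.diagonal_mul_diagonal, Matrix.diagonal_apply_eq, Matrix.one_apply_eq] at h3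
        rw [pow_succ', ← hσ]
        exact h3
      have hμ0 : μ ≠ 0 := by rintro rfl; rw [zero_pow (by omega)] at h2; exact zero_ne_one h2
      have hμu : (Units.mk0 μ hμ0) ^ (q + 1) = 1 := by
        apply Units.ext
        rw [Units.val_pow_eq_pow_val, Units.val_mk0, h2, Units.val_one]
      obtain ⟨y, hy⟩ := exists_detU hF (n := n) (by omega) _ hμu
      rw [hN]
      refine ⟨δ y, ?_⟩
      apply Subtype.ext
      rw [powMonoidHom_apply, Subgroup.coe_pow, hδ, hδ, hy]
      apply Units.ext
      rw [Units.val_pow_eq_pow_val, Units.val_mk0]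
      show μ ^ n = ((z.1 : Matrix.GeneralLinearGroup (Fin n) F) : Matrix (Fin n) (Fin n) F).det
      rw [hμ, Matrix.scalar_apply, Matrix.det_diagonal, Finset.prod_const, Finset.card_univ, Fintype.card_fin]
    apply le_antisymm
    · intro g hg
      rw [hker, hN] at hg
      obtain ⟨y, hy⟩ := hg
      rw [powMonoidHom_apply] at hy
      have hyp : ((y : C) : Fˣ) ^ (q + 1) = 1 := by
        obtain ⟨g', rfl⟩ := hδs y
        rw [hδ]; exact detU_pow hF g'
      obtain ⟨z, hz, hdz⟩ := hscal y hyp
      have h1 : detU n F q g = detU n F q z := by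
        rw [hdz, ← hδ, ← hy]; rfl
      have h2 : g = (g * z⁻¹) * z := by group
      rw [h2]
      refine mul_mem (Subgroup.mem_sup_left ?_) (Subgroup.mem_sup_right hz)
      rw [Subgroup.mem_subgroupOf, MonoidHom.mem_ker]
      show detU n F q (g * z⁻¹) = 1
      rw [map_mul, map_inv, h1, mul_inv_cancel]
    · rw [sup_le_iff]
      constructor
      · intro g hg
        rw [hker]
        rw [Subgroup.mem_subgroupOf, MonoidHom.mem_ker] at hg
        have : δ g = 1 := Subtype.ext (by rw [hδ]; exact hg)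
        rw [this]; exact one_mem _
      · intro z hz
        rw [hker]; exact hcen z hz

end Cfsg.Agent.S0783
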