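import Cfsg.Statements.S0785
import Cfsg.Agent.LibH22Quad

set_option autoImplicit false
open Cfsg

namespace Cfsg.Agent.S0785

/-- det(I) = {±1}: for a quadratic form on F^n whose polar form is non-degenerate, every element of the isometry group has determinant 1 or −1, and as soon as Q takes a non-zero value some isometry has determinant −1. -/
theorem result {F : Type*} [Field F] {n : ℕ} (Q : QuadraticForm F (Fin n → F)) (hQ : (QuadraticMap.polarBilin Q).Nondegenerate) : (∀ g : ↥(Cfsg.isometryGroup F ⇑Q), ((g : Matrix.GeneralLinearGroup (Fin n) F) : Matrix (Fin n) (Fin n) F).det = 1 ∨ ((g : Matrix.GeneralLinearGroup (Fin n) F) : Matrix (Fin n) (Fin n) F).det = -1) ∧ ((∃ v, Q v ≠ 0) → ∃ g : ↥(Cfsg.isometryGroup F ⇑Q), ((g : Matrix.GeneralLinearGroup (Fin n) F) : Matrix (Fin n) (Fin n) F).det = -1) := by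
  classical
  have hP : (LinearMap.BilinForm.toMatrix' (QuadraticMap.polarBilin Q)).det ≠ 0 := by
    rw [← Matrix.nondegenerate_iff_det_ne_zero, LinearMap.BilinForm.nondegenerate_toMatrix'_iff]
    exact hQ
  constructor
  · intro g
    have hiso : ∀ v, Q (((g : Matrix.GeneralLinearGroup (Fin n) F) : Matrix (Fin n) (Fin n) F).mulVec v) = Q v := fun v => g.2 v v
    generalize hA : ((g : Matrix.GeneralLinearGroup (Fin n) F) : Matrix (Fin n) (Fin n) F) = A at hiso
    have hpol : LinearMap.BilinForm.comp (QuadraticMap.polarBilin Q) (Matrix.toLin' A) (Matrix.toLin' A) = QuadraticMap.polarBilin Q := by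
      apply LinearMap.ext
      intro x
      apply LinearMap.ext
      intro y
      show QuadraticMap.polar Q (A.mulVec x) (A.mulVec y) = QuadraticMap.polar Q x y
      unfold QuadraticMap.polar
      rw [← Matrix.mulVec_add, hiso, hiso, hiso]
    have hm := congrArg LinearMap.BilinForm.toMatrix' hpol
    rw [LinearMap.BilinForm.toMatrix'_comp, LinearMap.toMatrix'_toLin'] at hm
    have hd := congrArg Matrix.det hm
    rw [Matrix.det_mul, Matrix.det_mul, Matrix.det_transpose] at hd
    have h1 : A.det * A.det = 1 := by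
      have : (A.det * A.det - 1) * (LinearMap.BilinForm.toMatrix' (QuadraticMap.polarBilin Q)).det = 0 := by
        linear_combination hd
      exact sub_eq_zero.1 ((mul_eq_zero.1 this).resolve_right hP)
    exact mul_self_eq_one_iff.1 h1
  · rintro ⟨v, hv⟩
    have hdet := Cfsg.Agent.H22.det_reflectionMatrix Q v hv
    refine ⟨⟨Matrix.GeneralLinearGroup.mkOfDetNeZero (Cfsg.reflectionMatrix (⇑Q) v) (by rw [hdet]; exact neg_ne_zero.2 one_ne_zero), ?_⟩, hdet⟩
    intro x _
    show Q ((Cfsg.reflectionMatrix (⇑Q) v).mulVec x) = Q x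
    have h1 : (Cfsg.reflectionMatrix (⇑Q) v).mulVec x = x - ((Q v)⁻¹ * QuadraticMap.polar Q v x) • v := Cfsg.Agent.H22.reflectionMatrix_mulVec Q v x
    rw [h1, sub_eq_add_neg, ← neg_smul, Cfsg.Agent.H22.quad_add, Cfsg.Agent.H22.quad_smul, Cfsg.Agent.H22.polar_smul_right',
      QuadraticMap.polar_comm Q x v]
    field_simp
    ring

end Cfsg.Agent.S0785
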