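import Cfsg.Statements.S0787
import Cfsg.Agent.LibH22Spin2

set_option autoImplicit false
open Cfsg

namespace Cfsg.Agent.S0787

/-- Existence and uniqueness of Ω: if F is finite, n ≥ 2, Q is a quadratic form on F^n with non-degenerate polar form and (|F|, n) ≠ (2, 4), then the group of isometries of determinant one has a unique subgroup of index 2. -/
theorem result {F : Type*} [Field F] [Fintype F] {n : ℕ} (hn : 2 ≤ n) (Q : QuadraticForm F (Fin n → F)) (hQ : (QuadraticMap.polarBilin Q).Nondegenerate) (h : Fintype.card F ≠ 2 ∨ n ≠ 4) : ∃! H : Subgroup ↥(Cfsg.specialIsometryGroup F ⇑Q), H.index = 2 := by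
  by_cases h2 : (2 : F) = 0
  · haveI : CharP F 2 := CharTwo.of_one_ne_zero_of_two_eq_zero one_ne_zero h2
    have hF : (∃ a : F, a ≠ 0 ∧ a ≠ 1) ∨ Module.finrank F (Fin n → F) ≠ 4 := by
      rcases h with h | h
      · exact Or.inl (Cfsg.Agent.H22.exists_ne_zero_one_of_card h)
      · right; simpa using h
    have h3 := (Cfsg.Agent.H22.omega_even hQ hF ⟨Pi.single ⟨0, by omega⟩ 1, by
      intro h0
      have := congrFun h0 ⟨0, by omega⟩
      simp at this⟩).1
    have htop : Cfsg.specialIsometryGroup F ⇑Q = ⊤ := by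
      rw [eq_top_iff, ← Cfsg.Agent.H22.closure_reflMat Q hQ h, Subgroup.closure_le]
      rintro g ⟨v, hv, hg⟩
      rw [SetLike.mem_coe]
      unfold Cfsg.specialIsometryGroup
      rw [MonoidHom.mem_ker]
      apply Units.ext
      show (((g : Matrix.GeneralLinearGroup (Fin n) F) : Matrix (Fin n) (Fin n) F)).det = 1
      rw [hg, Cfsg.Agent.H22.det_reflectionMatrix Q v hv]
      linear_combination -h2
    have hu : ∃! H : Subgroup ↥(Cfsg.Agent.H22.OGrp Q), H.index = 2 := by
      refine ⟨_, h3, ?_⟩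
      intro H hH
      haveI hHN : H.Normal := Subgroup.normal_of_index_eq_two hH
      have hle : commutator (Cfsg.Agent.H22.OGrp Q) ≤ H := by
        apply Subgroup.Normal.quotient_commutative_iff_commutator_le.1
        have hc : Nat.card ((Cfsg.Agent.H22.OGrp Q) ⧸ H) = 2 := hH
        haveI : Fact (Nat.Prime 2) := ⟨Nat.prime_two⟩
        haveI : IsCyclic ((Cfsg.Agent.H22.OGrp Q) ⧸ H) := isCyclic_of_prime_card hc
        exact ⟨⟨fun a b => (IsCyclic.commGroup (α := (Cfsg.Agent.H22.OGrp Q) ⧸ H)).mul_comm a b⟩⟩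
      have h6 := Subgroup.relIndex_mul_index hle
      have hH' : H.index = 2 := hH
      rw [h3, hH'] at h6
      have h7 : (commutator (Cfsg.Agent.H22.OGrp Q)).relIndex H = 1 := by omega
      exact le_antisymm (Subgroup.relIndex_eq_one.1 h7) hle
    rw [htop]
    exact Cfsg.Agent.H22.unique_index_two_congr (Subgroup.topEquiv.trans (Cfsg.Agent.H22.oIso Q)) hu
  · have hfr : 2 ≤ Module.finrank F (Fin n → F) := by simpa using hn
    have hF := Cfsg.Agent.H22.exists_ne_one_of_odd h2
    obtain ⟨x, _, _, hx, _, _, _, _, _, h4, _⟩ := Cfsg.Agent.H22.omega_odd h2 hQ hfr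
    have hN2 : (Cfsg.Agent.H22.par hQ (Or.inl hF)).ker.index = 2 := by
      have hsurj : Function.Surjective (Cfsg.Agent.H22.par hQ (Or.inl hF)) := by
        intro y
        rcases Int.units_eq_one_or y with rfl | rfl
        · exact ⟨1, map_one _⟩
        · exact ⟨_, Cfsg.Agent.H22.par_refl hQ (Or.inl hF) x hx⟩
      rw [Subgroup.index_ker, MonoidHom.range_eq_top.2 hsurj]
      simp [Nat.card_eq_fintype_card]
    have hu := Cfsg.Agent.H22.unique_index_two (Cfsg.Agent.H22.par hQ (Or.inl hF)).ker hN2 h4 (fun K hK hsq =>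
      Cfsg.Agent.H22.omega_le_squares h2 hQ hfr K (fun g hg => hsq g (MonoidHom.mem_ker.2 hg)))
    have e : (Cfsg.specialIsometryGroup F ⇑Q).map ((Cfsg.Agent.H22.oIso Q) : _ →* Cfsg.Agent.H22.OGrp Q) = (Cfsg.Agent.H22.par hQ (Or.inl hF)).ker := by
      ext g
      rw [MonoidHom.mem_ker, ← Cfsg.Agent.H22.special_iff h2 hQ g]
      constructor
      · rintro ⟨y, hy, rfl⟩
        have : (Cfsg.Agent.H22.oIso Q).symm (((Cfsg.Agent.H22.oIso Q) : _ →* Cfsg.Agent.H22.OGrp Q) y) = y := (Cfsg.Agent.H22.oIso Q).symm_apply_apply y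
        rw [this]; exact hy
      · intro hy
        exact ⟨_, hy, (Cfsg.Agent.H22.oIso Q).apply_symm_apply g⟩
    exact Cfsg.Agent.H22.unique_index_two_congr (((Cfsg.Agent.H22.oIso Q).subgroupMap _).trans (MulEquiv.subgroupCongr e)) hu

end Cfsg.Agent.S0787
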