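import Cfsg.Statements.S0792
import Cfsg.Agent.LibH22OMat

set_option autoImplicit false
open Cfsg

namespace Cfsg.Agent.S0792

/-- For q odd and Q with non-degenerate polar form on F^n, the determinant-one isometries form the subgroup generated by all products r_u r_v of two reflections (Q(u), Q(v) ≠ 0). -/
theorem result {F : Type*} [Field F] [Fintype F] (h2 : (2 : F) ≠ 0) {n : ℕ} (Q : QuadraticForm F (Fin n → F)) (hQ : (QuadraticMap.polarBilin Q).Nondegenerate) : Cfsg.specialIsometryGroup F ⇑Q = Subgroup.closure {g : ↥(Cfsg.isometryGroup F ⇑Q) | ∃ u v : Fin n → F, Q u ≠ 0 ∧ Q v ≠ 0 ∧ ((g : Matrix.GeneralLinearGroup (Fin n) F) : Matrix (Fin n) (Fin n) F) = Cfsg.reflectionMatrix ⇑Q u * Cfsg.reflectionMatrix ⇑Q v} := by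
  have h2' : Fintype.card F ≠ 2 := by
    intro h
    apply h2
    have : ((Fintype.card F : ℕ) : F) = 0 := FiniteField.cast_card_eq_zero F
    rw [h] at this
    exact_mod_cast this
  have hgen := Cfsg.Agent.H22.closure_reflMat Q hQ (Or.inl h2')
  have hsq : ∀ (v : Fin n → F), Q v ≠ 0 → Cfsg.reflectionMatrix ⇑Q v * Cfsg.reflectionMatrix ⇑Q v = 1 := by
    intro v hv
    apply Cfsg.Agent.H22.mat_ext
    intro x
    rw [← Matrix.mulVec_mulVec, Cfsg.Agent.H22.reflectionMatrix_mulVec, Cfsg.Agent.H22.reflectionMatrix_mulVec,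
      ← Cfsg.Agent.H22.reflFun_apply, ← Cfsg.Agent.H22.reflFun_apply, Cfsg.Agent.H22.reflFun_invol Q v hv, Matrix.one_mulVec]
  apply le_antisymm
  · intro g hg
    have hg1 : (((g : Matrix.GeneralLinearGroup (Fin n) F) : Matrix (Fin n) (Fin n) F)).det = 1 := by
      have := MonoidHom.mem_ker.1 hg
      have := congrArg (Units.val) this
      exact this
    rcases Cfsg.Agent.H22.mem_even_or _ (by
      rintro s ⟨v, hv, hs⟩
      have h1 : s * s = 1 := by
        apply Subtype.ext
        apply Units.ext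
        show ((s : Matrix.GeneralLinearGroup (Fin n) F) : Matrix (Fin n) (Fin n) F) * ((s : Matrix.GeneralLinearGroup (Fin n) F) : Matrix (Fin n) (Fin n) F) = 1
        rw [hs, hsq v hv]
      rw [inv_eq_of_mul_eq_one_right h1]
      exact ⟨v, hv, hs⟩) hgen (Subgroup.closure {g : ↥(Cfsg.isometryGroup F ⇑Q) | ∃ u v : Fin n → F, Q u ≠ 0 ∧ Q v ≠ 0 ∧ ((g : Matrix.GeneralLinearGroup (Fin n) F) : Matrix (Fin n) (Fin n) F) = Cfsg.reflectionMatrix ⇑Q u * Cfsg.reflectionMatrix ⇑Q v}) (by
        rintro s ⟨u, hu, hs⟩ t ⟨v, hv, ht⟩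
        apply Subgroup.subset_closure
        refine ⟨u, v, hu, hv, ?_⟩
        rw [← hs, ← ht]; rfl) g with h | h
    · exact h
    · -- contradiction or trivial
      by_cases hne : ∃ v, Q v ≠ 0
      · exfalso
        obtain ⟨v, hv⟩ := hne
        have hmem : (Cfsg.Agent.H22.oIso Q).symm (Cfsg.Agent.H22.oRefl Q v hv) ∈ {g : ↥(Cfsg.isometryGroup F ⇑Q) | ∃ v : Fin n → F, Q v ≠ 0 ∧ ((g : Matrix.GeneralLinearGroup (Fin n) F) : Matrix (Fin n) (Fin n) F) = Cfsg.reflectionMatrix ⇑Q v} := by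
          refine ⟨v, hv, ?_⟩
          rw [← Cfsg.Agent.H22.oIso_refl_iff Q _ v hv, MulEquiv.apply_symm_apply]; rfl
        have h3 := h _ hmem
        obtain ⟨_, _, hs⟩ := hmem
        have h4 : Subgroup.closure {g : ↥(Cfsg.isometryGroup F ⇑Q) | ∃ u v : Fin n → F, Q u ≠ 0 ∧ Q v ≠ 0 ∧ ((g : Matrix.GeneralLinearGroup (Fin n) F) : Matrix (Fin n) (Fin n) F) = Cfsg.reflectionMatrix ⇑Q u * Cfsg.reflectionMatrix ⇑Q v} ≤ Cfsg.specialIsometryGroup F ⇑Q := by
          rw [Subgroup.closure_le]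
          rintro s ⟨u, v, hu, hv, hs⟩
          rw [SetLike.mem_coe]
          unfold Cfsg.specialIsometryGroup
          rw [MonoidHom.mem_ker]
          apply Units.ext
          show (((s : Matrix.GeneralLinearGroup (Fin n) F) : Matrix (Fin n) (Fin n) F)).det = 1
          rw [hs, Matrix.det_mul, Cfsg.Agent.H22.det_reflectionMatrix Q u hu, Cfsg.Agent.H22.det_reflectionMatrix Q v hv]
          ring
        have h5 := h4 h3
        have h6 := (Subgroup.mul_mem_cancel_right _ hg).1 h5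
        unfold Cfsg.specialIsometryGroup at h6
        rw [MonoidHom.mem_ker] at h6
        have h7 : ((((Cfsg.Agent.H22.oIso Q).symm (Cfsg.Agent.H22.oRefl Q v hv) : ↥(Cfsg.isometryGroup F ⇑Q)) : Matrix.GeneralLinearGroup (Fin n) F) : Matrix (Fin n) (Fin n) F).det = 1 := congrArg Units.val h6
        rw [hs] at h7
        rename_i w hw
        rw [Cfsg.Agent.H22.det_reflectionMatrix Q _ hw] at h7
        apply h2
        have : (1 : F) + 1 = 0 := by nth_rewrite 1 [← h7]; ring
        rw [← this]; norm_num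
      · push Not at hne
        have hempty : {g : ↥(Cfsg.isometryGroup F ⇑Q) | ∃ v : Fin n → F, Q v ≠ 0 ∧ ((g : Matrix.GeneralLinearGroup (Fin n) F) : Matrix (Fin n) (Fin n) F) = Cfsg.reflectionMatrix ⇑Q v} = ∅ := by
          ext g
          simp only [Set.mem_setOf_eq, Set.mem_empty_iff_false, iff_false, not_exists, not_and]
          intro v hv; exact absurd (hne v) hv
        rw [hempty, Subgroup.closure_empty] at hgen
        have : g = 1 := by
          have : g ∈ (⊥ : Subgroup ↥(Cfsg.isometryGroup F ⇑Q)) := by rw [hgen]; trivial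
          exact Subgroup.mem_bot.1 this
        rw [this]; exact one_mem _
  · rw [Subgroup.closure_le]
    rintro s ⟨u, v, hu, hv, hs⟩
    rw [SetLike.mem_coe]
    unfold Cfsg.specialIsometryGroup
    rw [MonoidHom.mem_ker]
    apply Units.ext
    show (((s : Matrix.GeneralLinearGroup (Fin n) F) : Matrix (Fin n) (Fin n) F)).det = 1
    rw [hs, Matrix.det_mul, Cfsg.Agent.H22.det_reflectionMatrix Q u hu, Cfsg.Agent.H22.det_reflectionMatrix Q v hv]
    ring

end Cfsg.Agent.S0792
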