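import Cfsg.Statements.S0793
import Cfsg.Agent.LibH22Quad

set_option autoImplicit false
open Cfsg

namespace Cfsg.Agent.S0793

/-- Root elements: if Q(u) = Q(v) = 0 and f(u, v) = 0 (f the polar form), then for every c the Siegel matrix T_(u,v)(c) preserves Q, fixes u and v, and T(c) T(d) = T(c + d). -/
theorem result {F : Type*} [Field F] {n : ℕ} (Q : QuadraticForm F (Fin n → F)) (u v : Fin n → F) (hu : Q u = 0) (hv : Q v = 0) (huv : QuadraticMap.polar ⇑Q u v = 0) : (∀ c x, Q ((Cfsg.siegelMatrix ⇑Q u v c).mulVec x) = Q x) ∧ (∀ c, (Cfsg.siegelMatrix ⇑Q u v c).mulVec u = u ∧ (Cfsg.siegelMatrix ⇑Q u v c).mulVec v = v) ∧ ∀ c d, Cfsg.siegelMatrix ⇑Q u v c * Cfsg.siegelMatrix ⇑Q u v d = Cfsg.siegelMatrix ⇑Q u v (c + d) := by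
  have huu : QuadraticMap.polar Q u u = 0 := by rw [Cfsg.Agent.H22.polar_self', hu, mul_zero]
  have hvv : QuadraticMap.polar Q v v = 0 := by rw [Cfsg.Agent.H22.polar_self', hv, mul_zero]
  have hvu : QuadraticMap.polar Q v u = 0 := by rw [QuadraticMap.polar_comm]; exact huv
  have hS : ∀ c x, (Cfsg.siegelMatrix (⇑Q) u v c).mulVec x = x + (c * QuadraticMap.polar Q u x) • v - (c * QuadraticMap.polar Q v x) • u :=
    fun c x => Cfsg.Agent.H22.siegelMatrix_mulVec Q u v c x
  refine ⟨?_, ?_, ?_⟩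
  · intro c x
    rw [hS, sub_eq_add_neg, ← neg_smul, Cfsg.Agent.H22.quad_add, Cfsg.Agent.H22.quad_add, Cfsg.Agent.H22.quad_smul,
      Cfsg.Agent.H22.quad_smul, Cfsg.Agent.H22.polar_smul_right', Cfsg.Agent.H22.polar_smul_right', hu, hv,
      QuadraticMap.polar_add_left, QuadraticMap.polar_smul_left, hvu, QuadraticMap.polar_comm Q x v, QuadraticMap.polar_comm Q x u]
    simp only [smul_eq_mul]
    ring
  · intro c
    refine ⟨?_, ?_⟩
    · rw [hS, huu, hvu]; simp
    · rw [hS, hvv, huv]; simp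
  · intro c d
    apply Matrix.toLin'.injective
    apply LinearMap.ext
    intro x
    rw [Matrix.toLin'_mul, LinearMap.comp_apply, Matrix.toLin'_apply, Matrix.toLin'_apply, Matrix.toLin'_apply]
    rw [hS, hS, hS]
    rw [QuadraticMap.polar_sub_right, QuadraticMap.polar_add_right, QuadraticMap.polar_smul_right, QuadraticMap.polar_smul_right,
      QuadraticMap.polar_sub_right, QuadraticMap.polar_add_right, QuadraticMap.polar_smul_right, QuadraticMap.polar_smul_right,
      huu, hvv, hvu, huv]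
    ext i
    simp
    ring

end Cfsg.Agent.S0793
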