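import Cfsg.Statements.S0794
import Cfsg.Agent.LibH22Exist

set_option autoImplicit false
open Cfsg

namespace Cfsg.Agent.S0794
open scoped commutatorElement in
/-- the Siegel matrix as Eichler transformation -/
theorem siegel_eq {F : Type*} [Field F] {n : ℕ} (Q : QuadraticForm F (Fin n → F)) (u v : Fin n → F) (hu : Q u = 0) (hv : Q v = 0)
    (huv : QuadraticMap.polar ⇑Q u v = 0) (c : F) (g : ↥(Cfsg.isometryGroup F ⇑Q)) (h0 : QuadraticMap.polar ⇑Q u (c • v) = 0)
    (hg : ((g : Matrix.GeneralLinearGroup (Fin n) F) : Matrix (Fin n) (Fin n) F) = Cfsg.siegelMatrix ⇑Q u v c) :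
    Cfsg.Agent.H22.oIso Q g = Cfsg.Agent.H22.oEich Q u (c • v) hu h0 := by
  apply Subtype.ext
  refine (Cfsg.Agent.H22.oIso_eq_iff Q g _ _ (fun x => ?_)).2 hg
  rw [Cfsg.Agent.H22.siegelMatrix_mulVec]
  have := Cfsg.Agent.H22.oEich_apply u (c • v) hu h0 x
  rw [this, Cfsg.Agent.H22.qsmul, hv, QuadraticMap.polar_smul_left]
  simp only [smul_eq_mul]
  module

/-- For q odd, n ≥ 5 and Q with non-degenerate polar form: an isometry whose matrix is a Siegel transformation T_(u,v)(c) (u, v singular and orthogonal) is a commutator in the isometry group, so lies in Ω. -/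
theorem result {F : Type*} [Field F] [Fintype F] (h2 : (2 : F) ≠ 0) {n : ℕ} (hn : 5 ≤ n) (Q : QuadraticForm F (Fin n → F)) (hQ : (QuadraticMap.polarBilin Q).Nondegenerate) (u v : Fin n → F) (hu : Q u = 0) (hv : Q v = 0) (huv : QuadraticMap.polar ⇑Q u v = 0) (c : F) (g : ↥(Cfsg.isometryGroup F ⇑Q)) (hg : ((g : Matrix.GeneralLinearGroup (Fin n) F) : Matrix (Fin n) (Fin n) F) = Cfsg.siegelMatrix ⇑Q u v c) : g ∈ commutatorSet ↥(Cfsg.isometryGroup F ⇑Q) ∧ g ∈ Cfsg.Omega F ⇑Q := by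
  have h0 : QuadraticMap.polar ⇑Q u (c • v) = 0 := by rw [QuadraticMap.polar_smul_right, huv, smul_zero]
  have h1 := siegel_eq Q u v hu hv huv c g h0 hg
  obtain ⟨a, b, hab⟩ := Cfsg.Agent.H22.oEich_commutator h2 hQ u (c • v) hu h0 (by rw [Cfsg.Agent.H22.qsmul, hv, mul_zero])
  have hmem : g ∈ commutatorSet ↥(Cfsg.isometryGroup F ⇑Q) := by
    refine ⟨(Cfsg.Agent.H22.oIso Q).symm a, (Cfsg.Agent.H22.oIso Q).symm b, ?_⟩
    apply (Cfsg.Agent.H22.oIso Q).injective
    rw [map_commutatorElement, MulEquiv.apply_symm_apply, MulEquiv.apply_symm_apply, hab, h1]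
  refine ⟨hmem, ?_⟩
  show g ∈ commutator _
  rw [commutator_eq_closure]
  exact Subgroup.subset_closure hmem

end Cfsg.Agent.S0794
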