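import Cfsg.Statements.S0795
import Cfsg.Agent.LibH22Exist

set_option autoImplicit false
open Cfsg

namespace Cfsg.Agent.S0795

/-- Generation of Ω by root elements: for q odd, n ≥ 5 and Q with non-degenerate polar form on F^n, the commutator subgroup of the isometry group equals the subgroup generated by the isometries whose matrices are Siegel transformations T_(u,v)(c) with u, v singular and orthogonal. -/
theorem result {F : Type*} [Field F] [Fintype F] (h2 : (2 : F) ≠ 0) {n : ℕ} (hn : 5 ≤ n) (Q : QuadraticForm F (Fin n → F)) (hQ : (QuadraticMap.polarBilin Q).Nondegenerate) : Cfsg.Omega F ⇑Q = Subgroup.closure {g : ↥(Cfsg.isometryGroup F ⇑Q) | ∃ (u v : Fin n → F) (c : F), Q u = 0 ∧ Q v = 0 ∧ QuadraticMap.polar ⇑Q u v = 0 ∧ ((g : Matrix.GeneralLinearGroup (Fin n) F) : Matrix (Fin n) (Fin n) F) = Cfsg.siegelMatrix ⇑Q u v c} := by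
  have hF := Cfsg.Agent.H22.exists_ne_one_of_odd h2
  obtain ⟨e, f, e', f', u, hs⟩ := Cfsg.Agent.H22.exists_HS hQ (by simpa using hn)
  apply Subgroup.map_injective (f := ((Cfsg.Agent.H22.oIso Q) : ↥(Cfsg.isometryGroup F ⇑Q) →* Cfsg.Agent.H22.OGrp Q)) (Cfsg.Agent.H22.oIso Q).injective
  have h1 : (Cfsg.Omega F ⇑Q).map ((Cfsg.Agent.H22.oIso Q) : ↥(Cfsg.isometryGroup F ⇑Q) →* Cfsg.Agent.H22.OGrp Q) = commutator (Cfsg.Agent.H22.OGrp Q) := by
    rw [show Cfsg.Omega F ⇑Q = commutator _ from rfl, commutator_def, commutator_def, Subgroup.map_commutator]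
    congr 1 <;> exact Subgroup.map_top_of_surjective _ (Cfsg.Agent.H22.oIso Q).surjective
  rw [h1, hs.commutator_eq hQ (Or.inl hF), le_antisymm (hs.EG_le_LG hQ) Cfsg.Agent.H22.LG_le, MonoidHom.map_closure]
  unfold Cfsg.Agent.H22.LG
  congr 1
  ext g
  have key : ∀ (u v : Fin n → F) (hu : Q u = 0) (hv : Q v = 0) (huv : QuadraticMap.polar ⇑Q u v = 0) (c : F)
      (h0 : QuadraticMap.polar ⇑Q u (c • v) = 0) (x : Fin n → F), (Cfsg.siegelMatrix ⇑Q u v c).mulVec x = (Cfsg.Agent.H22.oEich Q u (c • v) hu h0).1 x := by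
    intro u v hu hv huv c h0 x
    rw [Cfsg.Agent.H22.siegelMatrix_mulVec, Cfsg.Agent.H22.oEich_apply, Cfsg.Agent.H22.qsmul, hv, QuadraticMap.polar_smul_left]
    simp only [smul_eq_mul]
    module
  constructor
  · rintro ⟨v, w, hv, hw, hqw, rfl⟩
    refine ⟨(Cfsg.Agent.H22.oIso Q).symm (Cfsg.Agent.H22.oEich Q v w hv hw), ⟨v, w, 1, hv, hqw, hw, ?_⟩, (Cfsg.Agent.H22.oIso Q).apply_symm_apply _⟩
    have hw1 : QuadraticMap.polar ⇑Q v ((1 : F) • w) = 0 := by rw [one_smul]; exact hw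
    apply Cfsg.Agent.H22.mat_ext
    intro x
    rw [key v w hv hqw hw 1 hw1 x, ← Cfsg.Agent.H22.oIso_apply, MulEquiv.apply_symm_apply]
    have h5 : Cfsg.Agent.H22.oEich Q v w hv hw = Cfsg.Agent.H22.oEich Q v ((1 : F) • w) hv hw1 := by
      congr 1
      exact (one_smul F w).symm
    rw [h5]
  · rintro ⟨g, ⟨u, v, c, hu, hv, huv, hg⟩, rfl⟩
    have h0 : QuadraticMap.polar ⇑Q u (c • v) = 0 := by rw [QuadraticMap.polar_smul_right, huv, smul_zero]
    refine ⟨u, c • v, hu, h0, by rw [Cfsg.Agent.H22.qsmul, hv, mul_zero], ?_⟩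
    apply Subtype.ext
    exact (Cfsg.Agent.H22.oIso_eq_iff Q g _ _ (fun x => key u v hu hv huv c h0 x)).2 hg

end Cfsg.Agent.S0795
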