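import Cfsg.Statements.S0796
-- import your own Cfsg.Agent.* helpers here

set_option autoImplicit false
open Cfsg

namespace Cfsg.Agent.S0796
open scoped Pointwise in
lemma conj_sub {G X : Type*} [Group G] [MulAction G X] (x : X) (A K : Subgroup G) [K.Normal]
    (hA : A ≤ MulAction.stabilizer G x) (hAn : (A.subgroupOf (MulAction.stabilizer G x)).Normal)
    (htr : ∀ y : X, ∃ k ∈ K, k • x = y)
    (hgen : Subgroup.normalClosure (A : Set G) = ⊤) : A ⊔ K = ⊤ := by
  rw [eq_top_iff, ← hgen]
  -- A ⊔ K is normal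
  have hstab : ∀ s ∈ MulAction.stabilizer G x, ∀ a ∈ A, s * a * s⁻¹ ∈ A := by
    intro s hs a ha
    have := hAn.conj_mem ⟨a, hA ha⟩ ha ⟨s, hs⟩
    exact this
  have key : ∀ g : G, ∀ a ∈ A, g * a * g⁻¹ ∈ A ⊔ K := by
    intro g a ha
    obtain ⟨k, hk, hkx⟩ := htr (g • x)
    -- g = k s
    have hs : k⁻¹ * g ∈ MulAction.stabilizer G x := by
      rw [MulAction.mem_stabilizer_iff, mul_smul, ← hkx, inv_smul_smul]
    have h1 := hstab _ hs a ha
    have h2 : g * a * g⁻¹ = k * ((k⁻¹ * g) * a * (k⁻¹ * g)⁻¹) * k⁻¹ := by group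
    rw [h2]
    exact mul_mem (mul_mem (Subgroup.mem_sup_right hk) (Subgroup.mem_sup_left h1)) (Subgroup.mem_sup_right (inv_mem hk))
  have hN : (A ⊔ K).Normal := by
    refine ⟨?_⟩
    intro n hn g
    have h3 : MulAut.conj g • (A ⊔ K) ≤ A ⊔ K := by
      rw [Subgroup.smul_sup, sup_le_iff]
      constructor
      · rintro _ ⟨a, ha, rfl⟩
        exact key g a ha
      · rintro _ ⟨a, ha, rfl⟩
        exact Subgroup.mem_sup_right (‹K.Normal›.conj_mem a ha g)
    exact h3 ⟨n, hn, rfl⟩
  exact Subgroup.normalClosure_le_normal (fun a ha => Subgroup.mem_sup_left ha)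

/-- If G is finite and acts faithfully and primitively on X, H is the stabiliser of a point, A is a normal subgroup of H whose normal closure in G is G, then for every non-trivial normal subgroup K of G the quotient G ⧸ K is isomorphic to A ⧸ B for some normal subgroup B of A. -/
theorem result {G X : Type*} [Group G] [Finite G] [MulAction G X] [FaithfulSMul G X] (hprim : MulAction.IsPreprimitive G X) (x : X) (A : Subgroup G) (hA : A ≤ MulAction.stabilizer G x) (hAn : (A.subgroupOf (MulAction.stabilizer G x)).Normal) (hgen : Subgroup.normalClosure (A : Set G) = ⊤) (K : Subgroup G) [K.Normal] (hK : K ≠ ⊥) : ∃ (B : Subgroup A) (_ : B.Normal), Nonempty (G ⧸ K ≃* A ⧸ B) := by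
  -- K is transitive
  have hfix : MulAction.fixedPoints K X ≠ Set.univ := by
    intro h
    apply hK
    rw [Subgroup.eq_bot_iff_forall]
    intro k hk
    apply FaithfulSMul.eq_of_smul_eq_smul (α := X)
    intro y
    rw [one_smul]
    have : y ∈ MulAction.fixedPoints K X := by rw [h]; trivial
    exact this ⟨k, hk⟩
  have hq : MulAction.IsQuasiPreprimitive G X := inferInstance
  have htrans : MulAction.IsPretransitive K X := MulAction.IsQuasiPreprimitive.isPretransitive_of_normal hfix
  have htr : ∀ y : X, ∃ k ∈ K, k • x = y := by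
    intro y
    obtain ⟨k, hk⟩ := MulAction.exists_smul_eq K x y
    exact ⟨k, k.2, hk⟩
  have hsup := conj_sub x A K hA hAn htr hgen
  let f : A →* G ⧸ K := (QuotientGroup.mk' K).comp A.subtype
  have hf : Function.Surjective f := by
    intro y
    obtain ⟨g, rfl⟩ := QuotientGroup.mk'_surjective K y
    have hg : g ∈ A ⊔ K := by rw [hsup]; trivial
    have hg' : g ∈ ((A ⊔ K : Subgroup G) : Set G) := hg
    rw [Subgroup.mul_normal A K] at hg'
    obtain ⟨a, ha, k, hk, rfl⟩ := hg'
    refine ⟨⟨a, ha⟩, ?_⟩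
    show (QuotientGroup.mk' K) a = (QuotientGroup.mk' K) (a * k)
    rw [map_mul]
    have : (QuotientGroup.mk' K) k = 1 := (QuotientGroup.eq_one_iff k).2 hk
    rw [this, mul_one]
  exact ⟨f.ker, inferInstance, ⟨(QuotientGroup.quotientKerEquivOfSurjective f hf).symm⟩⟩

end Cfsg.Agent.S0796
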