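import Cfsg.Statements.S0797
import Cfsg.Agent.LibH22Spin4

set_option autoImplicit false
open Cfsg

namespace Cfsg.Agent.S0797

/-- O^ε_2m(q) ≅ Ω.2² for q odd: if F is finite of odd characteristic, n ≥ 2 is even and Q has non-degenerate polar form on F^n, the isometry group of Q has exactly three subgroups of index 2. -/
theorem result {F : Type*} [Field F] [Fintype F] (h2 : (2 : F) ≠ 0) {n : ℕ} (hn : 2 ≤ n) (heven : Even n) (Q : QuadraticForm F (Fin n → F)) (hQ : (QuadraticMap.polarBilin Q).Nondegenerate) : Nat.card {H : Subgroup ↥(Cfsg.isometryGroup F ⇑Q) // H.index = 2} = 3 := by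
  rw [Cfsg.Agent.H22.card_index_two_congr (Cfsg.Agent.H22.oIso Q)]
  have hF := Cfsg.Agent.H22.exists_ne_one_of_odd h2
  obtain ⟨x, v', _, hx, hv', _, _, hs, hcl, _, _⟩ := Cfsg.Agent.H22.omega_odd h2 hQ (by simpa using hn)
  have h4 := Cfsg.Agent.H22.index_four_of _ (Cfsg.Agent.H22.closure_oRefl hQ (Or.inl hF)) (Cfsg.Agent.H22.oRefl Q x hx)
    (Cfsg.Agent.H22.oRefl Q v' hv') (Cfsg.Agent.H22.oRefl_mul_self _ _) (Cfsg.Agent.H22.oRefl_mul_self _ _) hcl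
    (Cfsg.Agent.H22.par hQ (Or.inl hF)) (Cfsg.Agent.H22.sgnC Q 1) (Cfsg.Agent.H22.par_refl _ _ _ _)
    (Cfsg.Agent.H22.par_refl _ _ _ _) (hs 1 one_ne_zero)
  exact Cfsg.Agent.H22.three_index_two _ _ (Cfsg.Agent.H22.par hQ (Or.inl hF)) (Cfsg.Agent.H22.sgnC Q 1)
    (Cfsg.Agent.H22.par_refl _ _ _ _) (Cfsg.Agent.H22.par_refl _ _ _ _) (hs 1 one_ne_zero) h4.2.2

end Cfsg.Agent.S0797
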