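import Cfsg.Statements.S0798
import Cfsg.Agent.LibH22Class

set_option autoImplicit false
open Cfsg

namespace Cfsg.Agent.S0798
open Cfsg.Agent.H22 Module

/-- For q odd, n ≥ 2 even, Q with non-degenerate polar form (n, |F|) ≠ (4, 3), and a fixed c ≠ 0: the subgroup of the isometry group generated by the reflections r_v with Q(v) ∈ c·(F^×)² has index 2. -/
theorem result {F : Type*} [Field F] [Fintype F] (h2 : (2 : F) ≠ 0) {n : ℕ} (hn : 2 ≤ n) (heven : Even n) (Q : QuadraticForm F (Fin n → F)) (hQ : (QuadraticMap.polarBilin Q).Nondegenerate) (h43 : ¬ (n = 4 ∧ Fintype.card F = 3)) (c : F) (hc : c ≠ 0) : (Subgroup.closure {g : ↥(Cfsg.isometryGroup F ⇑Q) | ∃ (v : Fin n → F) (t : F), t ≠ 0 ∧ Q v = c * t ^ 2 ∧ ((g : Matrix.GeneralLinearGroup (Fin n) F) : Matrix (Fin n) (Fin n) F) = Cfsg.reflectionMatrix ⇑Q v}).index = 2 := by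
  classical
  have hr : finrank F (Fin n → F) = n := by rw [finrank_fintype_fun_eq_card, Fintype.card_fin]
  have hcard : 3 ≤ Fintype.card F := by
    have h1 : 2 ≤ Fintype.card F := Fintype.one_lt_card
    have h3 := FiniteField.odd_card_of_char_ne_two (ringChar_ne_two h2)
    omega
  have hodd := FiniteField.odd_card_of_char_ne_two (ringChar_ne_two h2)
  have h5 : 5 ≤ Fintype.card F ∨ 6 ≤ finrank F (Fin n → F) ∨ finrank F (Fin n → F) ≤ 2 := by
    rw [hr]
    by_contra hcon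
    push Not at hcon
    obtain ⟨h6, h7, h8⟩ := hcon
    obtain ⟨k, hk⟩ := heven
    apply h43
    constructor <;> omega
  have hmain := closure_SC_index (c := c) h2 hQ hc (by rw [hr]; exact hn) h5
  refine Eq.trans ?_ hmain
  rw [← Subgroup.index_map_equiv _ (oIso Q)]
  congr 1
  rw [MonoidHom.map_closure]
  congr 1
  ext g
  constructor
  · rintro ⟨x, ⟨v, t, ht, hv, hx⟩, rfl⟩
    have hv0 : Q v ≠ 0 := by rw [hv]; exact mul_ne_zero hc (pow_ne_zero _ ht)
    exact ⟨v, hv0, t, hv, Subtype.ext ((oIso_refl_iff Q x v hv0).2 hx)⟩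
  · rintro ⟨v, hv0, t, hv, rfl⟩
    refine ⟨(oIso Q).symm (oRefl Q v hv0), ⟨v, t, ?_, hv, ?_⟩, ?_⟩
    · rintro rfl
      apply hv0
      rw [hv]; ring
    · rw [← oIso_refl_iff Q _ v hv0, MulEquiv.apply_symm_apply]; rfl
    · exact (oIso Q).apply_symm_apply _

end Cfsg.Agent.S0798
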