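import Cfsg.Statements.S0799
import Mathlib
import Cfsg.Agent.LibDkJ29

set_option autoImplicit false
open Cfsg

namespace Cfsg.Agent.S0799

open CfsgLib.Dk29 MulAction OnePoint

/-- Dickson's classification of the subgroups of PSL_2(q), q a power of the prime p, d = gcd(2, q − 1): every subgroup H is (a) cyclic or dihedral with k dividing (q+1)/d or (q−1)/d (cyclic of order k, or dihedral of order 2k), (b) isomorphic to a subgroup of the normaliser of a Sylow p-subgroup, (c) isomorphic to A_4, S_4 or A_5, or (d) isomorphic to PSL_2(K) or PGL_2(K) for a finite field K with |K|^m = q. -/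
theorem result {F : Type*} [Field F] [Fintype F] {q : ℕ} (hF : Fintype.card F = q) (p : ℕ) [Fact p.Prime] [CharP F p] (H : Subgroup (Matrix.ProjectiveSpecialLinearGroup (Fin 2) F)) : (∃ k : ℕ, (k ∣ (q + 1) / Nat.gcd 2 (q - 1) ∨ k ∣ (q - 1) / Nat.gcd 2 (q - 1)) ∧ ((IsCyclic H ∧ Nat.card H = k) ∨ Nonempty (H ≃* DihedralGroup k))) ∨ (∃ (P : Sylow p (Matrix.ProjectiveSpecialLinearGroup (Fin 2) F)) (K : Subgroup (Matrix.ProjectiveSpecialLinearGroup (Fin 2) F)), K ≤ Subgroup.normalizer ((P : Subgroup (Matrix.ProjectiveSpecialLinearGroup (Fin 2) F)) : Set (Matrix.ProjectiveSpecialLinearGroup (Fin 2) F)) ∧ Nonempty (H ≃* K)) ∨ Nonempty (H ≃* alternatingGroup (Fin 4)) ∨ Nonempty (H ≃* Equiv.Perm (Fin 4)) ∨ Nonempty (H ≃* alternatingGroup (Fin 5)) ∨ (∃ (K : Type) (_ : Field K) (_ : Fintype K) (m : ℕ), Fintype.card K ^ m = q ∧ (Nonempty (H ≃* Matrix.ProjectiveSpecialLinearGroup (Fin 2) K) ∨ Nonempty (H ≃* Matrix.ProjGenLinGroup (Fin 2) K))) := by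
  classical
  subst hF
  haveI : Finite (Matrix.ProjectiveSpecialLinearGroup (Fin 2) F) := by
    unfold Matrix.ProjectiveSpecialLinearGroup; infer_instance
  let f : H →* Matrix.ProjGenLinGroup (Fin 2) F := Matrix.ProjectiveSpecialLinearGroup.toPGL.comp H.subtype
  have hf : Function.Injective f := Matrix.ProjectiveSpecialLinearGroup.toPGL_injective.comp H.subtype_injective
  have hd : DCond F (Nat.gcd 2 (Fintype.card F - 1)) (Set.range f) := by
    right
    refine ⟨rfl, ?_⟩
    rintro _ ⟨h, rfl⟩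
    exact toPGL_mem _
  rcases dickson_gen f hf _ hd with ⟨h1, h2⟩ | ⟨n, h1, h2, h3⟩ | ⟨x, hx⟩ | h | h | h | ⟨k, hk, ⟨g, hg⟩, hc⟩
  · left
    exact ⟨Nat.card H, h2.symm, Or.inl ⟨h1, rfl⟩⟩
  · left
    exact ⟨n, h2.symm, Or.inr h3⟩
  · right; left
    obtain ⟨u, hu1, hux, huc⟩ := exists_unip x
    obtain ⟨P, hP⟩ := exists_sylow p (Matrix.ProjectiveSpecialLinearGroup.toPGL (n := Fin 2) (R := F)) Matrix.ProjectiveSpecialLinearGroup.toPGL_injective x
      (u : Matrix.ProjectiveSpecialLinearGroup (Fin 2) F) (by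
        rintro h
        apply hu1
        have := congrArg Matrix.ProjectiveSpecialLinearGroup.toPGL h
        rw [map_one] at this
        exact this) hux huc
    refine ⟨P, H, fun h hh => (hP h).mp (hx ⟨h, hh⟩), ⟨MulEquiv.refl _⟩⟩
  · right; right; left; exact h
  · right; right; right; left; exact h
  · right; right; right; right; left; exact h
  · right; right; right; right; right
    haveI : Fintype k := Fintype.ofFinite k
    obtain ⟨j, hj⟩ := exists_descent f k g hg
    have hji := descent_injective f hf k g j hj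
    obtain ⟨K, hK1, hK2, hKc, ⟨e⟩⟩ := exists_type_copy k
    rw [Nat.card_eq_fintype_card (α := k)] at hc
    refine ⟨K, hK1, hK2, Module.finrank k F, ?_, ?_⟩
    · rw [hKc]
      exact (Module.card_eq_pow_finrank (K := k) (V := F)).symm
    · rcases hc with hc | ⟨hodd, hc⟩
      · right
        obtain ⟨e'⟩ := iso_pgl j hji hc
        exact ⟨e'.trans (pglCongr e)⟩
      · left
        obtain ⟨e'⟩ := iso_psl j hji hodd hc
        exact ⟨e'.trans (pslCongr e)⟩

end Cfsg.Agent.S0799
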