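import Cfsg.Statements.S0800
import Mathlib
import Mathlib
import Cfsg.Agent.LibDkO29

set_option autoImplicit false
open Cfsg

namespace Cfsg.Agent.S0800

open CfsgLib.Dk29 MulAction OnePoint

/-- Tori of SL_2(q): if g ∈ SL_2(q) has order coprime to the characteristic p, then the order of g divides q − 1 or q + 1. -/
theorem result {F : Type*} [Field F] [Fintype F] {q : ℕ} (hF : Fintype.card F = q) (p : ℕ) [Fact p.Prime] [CharP F p] (g : Matrix.SpecialLinearGroup (Fin 2) F) (hg : Nat.Coprime (orderOf g) p) : orderOf g ∣ q - 1 ∨ orderOf g ∣ q + 1 := by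
  classical
  subst hF
  have hq1 : 1 < Fintype.card F := Fintype.one_lt_card
  have hcen : ∀ n : ℕ, (Matrix.ProjectiveSpecialLinearGroup.toPGL (g : Matrix.ProjectiveSpecialLinearGroup (Fin 2) F)) ^ n = 1 → ∃ r : F, r ^ 2 = 1 ∧ Matrix.scalar (Fin 2) r = (g ^ n : Matrix.SpecialLinearGroup (Fin 2) F) := by
    intro n hn
    rw [← map_pow, ← map_one Matrix.ProjectiveSpecialLinearGroup.toPGL, Matrix.ProjectiveSpecialLinearGroup.toPGL_injective.eq_iff] at hn
    have h1 : g ^ n ∈ Subgroup.center (Matrix.SpecialLinearGroup (Fin 2) F) := by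
      rw [← QuotientGroup.eq_one_iff]; exact hn
    rw [Matrix.SpecialLinearGroup.mem_center_iff] at h1
    obtain ⟨r, hr, hr'⟩ := h1
    exact ⟨r, by simpa using hr, hr'⟩
  have hcen2 : ∀ n : ℕ, (Matrix.ProjectiveSpecialLinearGroup.toPGL (g : Matrix.ProjectiveSpecialLinearGroup (Fin 2) F)) ^ n = 1 → g ^ (2 * n) = 1 := by
    intro n hn
    obtain ⟨r, hr, hr'⟩ := hcen n hn
    rw [mul_comm, pow_mul]
    apply Subtype.ext
    rw [Matrix.SpecialLinearGroup.coe_pow, ← hr', ← map_pow, hr, map_one, Matrix.SpecialLinearGroup.coe_one]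
  have hmem : DCond F (Nat.gcd 2 (Fintype.card F - 1)) {Matrix.ProjectiveSpecialLinearGroup.toPGL (g : Matrix.ProjectiveSpecialLinearGroup (Fin 2) F)} :=
    Or.inr ⟨rfl, by rw [Set.singleton_subset_iff]; exact toPGL_mem _⟩
  have hco : ∀ n, g ^ (n * p) = 1 → orderOf g ∣ n := by
    intro n hn
    exact hg.dvd_of_dvd_mul_right (orderOf_dvd_of_pow_eq_one hn)
  rcases gcd_cases _ hq1 with ⟨hd1, hpar⟩ | ⟨hd1, hpar⟩
  · -- characteristic two
    have hcen1 : ∀ n : ℕ, (Matrix.ProjectiveSpecialLinearGroup.toPGL (g : Matrix.ProjectiveSpecialLinearGroup (Fin 2) F)) ^ n = 1 → g ^ n = 1 := by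
      intro n hn
      obtain ⟨r, hr, hr'⟩ := hcen n hn
      have h2 : (2 : F) = 0 := by
        by_contra h2
        have h3 := FiniteField.even_card_iff_char_two (F := F)
        have h4 : ringChar F = 2 := h3.mpr (Nat.even_iff.mp hpar)
        haveI : CharP F 2 := h4 ▸ ringChar.charP F
        exact h2 (CharTwo.two_eq_zero)
      have h3 : r = 1 := by
        have h4 : (r - 1) ^ 2 = 0 := by
          have : (r - 1) ^ 2 = r ^ 2 - 1 + 2 * (1 - r) := by ring
          rw [this, hr, h2]; ring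
        exact sub_eq_zero.mp (pow_eq_zero_iff (two_ne_zero) |>.mp h4)
      apply Subtype.ext
      rw [← hr', h3, map_one, Matrix.SpecialLinearGroup.coe_one]
    rcases ord_cases p _ _ hmem with h | h | h
    · left
      have := hco 1 (by rw [one_mul]; exact hcen1 _ h)
      exact this.trans (one_dvd _)
    · left
      rw [hd1, Nat.div_one] at h
      exact orderOf_dvd_of_pow_eq_one (hcen1 _ h)
    · right
      rw [hd1, Nat.div_one] at h
      exact orderOf_dvd_of_pow_eq_one (hcen1 _ h)
  · obtain ⟨c, hc⟩ := hpar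
    rcases ord_cases p _ _ hmem with h | h | h
    · left
      have := hco 2 (hcen2 _ h)
      exact this.trans ⟨c, by omega⟩
    · left
      rw [hd1] at h
      have := orderOf_dvd_of_pow_eq_one (hcen2 _ h)
      rwa [Nat.mul_div_cancel' ⟨c, by omega⟩] at this
    · right
      rw [hd1] at h
      have := orderOf_dvd_of_pow_eq_one (hcen2 _ h)
      rwa [Nat.mul_div_cancel' ⟨c + 1, by omega⟩] at this

end Cfsg.Agent.S0800
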