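import Cfsg.Statements.S0801
import Cfsg.Agent.LibDick9C

set_option autoImplicit false
open Cfsg

namespace Cfsg.Agent.S0801

open CfsgLib.Dick9

/-- a subgroup containing all elementary matrices is everything -/
theorem eq_top_of_elem {F : Type*} [Field F] (H : Subgroup (Matrix.SpecialLinearGroup (Fin 2) F))
    (h1 : ∀ a : F, su a ∈ H) (h2 : ∀ a : F, sl a ∈ H) : H = ⊤ := by
  have h3 : ∀ g : Matrix.SpecialLinearGroup (Fin 2) F, g 1 0 ≠ 0 → g ∈ H := by
    intro g hc
    have : g = su ((g 0 0 - 1) / g 1 0) * sl (g 1 0) * su ((g 1 1 - 1) / g 1 0) := by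
      have d := det_eq g
      apply ext2
      · rw [mul00, mul00, mul01]; simp; field_simp; ring
      · rw [mul01, mul00, mul01]; simp; field_simp; linear_combination -d
      · rw [mul10, mul10, mul11]; simp
      · rw [mul11, mul10, mul11]; simp; field_simp; ring
    rw [this]
    exact H.mul_mem (H.mul_mem (h1 _) (h2 _)) (h1 _)
  rw [eq_top_iff]
  intro g _
  by_cases hc : g 1 0 = 0
  · have ha : g 0 0 ≠ 0 := by
      intro h
      have d := det_eq g
      rw [h, hc] at d
      simp at d
    have h4 : sl 1 * g ∈ H := by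
      apply h3
      rw [mul10, hc]; simpa using ha
    have : g = (sl 1)⁻¹ * (sl 1 * g) := by group
    rw [this]
    exact H.mul_mem (H.inv_mem (h2 1)) h4
  · exact h3 g hc

/-- Hua's argument: two additive subgroups of a field of odd characteristic, containing `1`, inverse to each
other, are equal subfields -/
theorem hua {F : Type*} [Field F] (h2 : (2 : F) ≠ 0) {p : ℕ} [hp : Fact p.Prime] [CharP F p] (B C : AddSubgroup F)
    (hB1 : (1 : F) ∈ B) (hC1 : (1 : F) ∈ C) (hBC : ∀ b ∈ B, b ≠ 0 → b⁻¹ ∈ C) (hCB : ∀ c ∈ C, c ≠ 0 → c⁻¹ ∈ B)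
    {lam : F} (hlam : lam ∈ B) (hgen : Subfield.closure ({lam} : Set F) = ⊤) : B = ⊤ ∧ C = ⊤ := by
  have key : ∀ B C : AddSubgroup F, (∀ b ∈ B, b ≠ 0 → b⁻¹ ∈ C) → (∀ c ∈ C, c ≠ 0 → c⁻¹ ∈ B) →
      ∀ a ∈ B, ∀ b ∈ C, a ^ 2 * b ∈ B := by
    intro B C hBC hCB a ha b hb
    by_cases ha0 : a = 0
    · rw [ha0]; simp
    by_cases hb0 : b = 0
    · rw [hb0]; simp
    by_cases hab : a * b = 1
    · have : a ^ 2 * b = a := by rw [sq, mul_assoc, hab, mul_one]
      rw [this]; exact ha
    have h1 : b⁻¹ - a ∈ B := B.sub_mem (hCB b hb hb0) ha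
    have h1' : b⁻¹ - a ≠ 0 := by
      intro h
      apply hab
      have : a = b⁻¹ := by linear_combination -h
      rw [this, inv_mul_cancel₀ hb0]
    have h3 : a⁻¹ + (b⁻¹ - a)⁻¹ ∈ C := C.add_mem (hBC a ha ha0) (hBC _ h1 h1')
    have hab' : 1 - a * b ≠ 0 := fun h => hab (by linear_combination -h)
    have h4 : a⁻¹ + (b⁻¹ - a)⁻¹ = (a * (1 - a * b))⁻¹ := by
      have e : b⁻¹ - a = (1 - a * b) / b := by field_simp
      rw [e]
      field_simp
      ring
    have h5 : a⁻¹ + (b⁻¹ - a)⁻¹ ≠ 0 := by rw [h4]; exact inv_ne_zero (mul_ne_zero ha0 hab')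
    have h6 := hCB _ h3 h5
    rw [h4, inv_inv] at h6
    have h7 := B.sub_mem ha h6
    have : a - a * (1 - a * b) = a ^ 2 * b := by ring
    rwa [this] at h7
  have e1 : B = C := by
    apply le_antisymm
    · intro a ha
      have := key C B hCB hBC 1 hC1 a ha
      simpa using this
    · intro a ha
      have := key B C hBC hCB 1 hB1 a ha
      simpa using this
  subst e1
  have hsq : ∀ a ∈ B, a ^ 2 ∈ B := fun a ha => by
    have := key B B hBC hCB a ha 1 hB1
    rwa [mul_one] at this
  have hhalf : ∀ a : F, 2 * a ∈ B → a ∈ B := by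
    intro a ha
    have hp2 : p ≠ 2 := by
      rintro rfl
      apply h2
      have : ((2 : ℕ) : F) = 0 := CharP.cast_eq_zero F 2
      exact_mod_cast this
    have hodd := hp.out.odd_of_ne_two hp2
    obtain ⟨m, hm⟩ := hodd
    have h3 := B.nsmul_mem ha (m + 1)
    have h4 : (m + 1) • (2 * a) = a := by
      rw [nsmul_eq_mul]
      have h5 : ((p : ℕ) : F) = 0 := CharP.cast_eq_zero F p
      rw [hm] at h5
      push_cast at h5 ⊢
      linear_combination a * h5
    rwa [h4] at h3
  have hmul : ∀ a ∈ B, ∀ b ∈ B, a * b ∈ B := by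
    intro a ha b hb
    apply hhalf
    have h3 := B.sub_mem (B.sub_mem (hsq _ (B.add_mem ha hb)) (hsq a ha)) (hsq b hb)
    have : (a + b) ^ 2 - a ^ 2 - b ^ 2 = 2 * (a * b) := by ring
    rwa [this] at h3
  let K : Subfield F :=
    { carrier := B
      mul_mem' := fun {a b} ha hb => hmul a ha b hb
      one_mem' := hB1
      add_mem' := fun {a b} ha hb => B.add_mem ha hb
      zero_mem' := B.zero_mem
      neg_mem' := fun {a} ha => B.neg_mem ha
      inv_mem' := fun a ha => by
        by_cases h : a = 0
        · rw [h, inv_zero]; exact B.zero_mem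
        · exact hBC a ha h }
  have hK : K = ⊤ := by
    rw [eq_top_iff, ← hgen, Subfield.closure_le]
    rintro x hx
    rw [Set.mem_singleton_iff] at hx
    rw [hx]; exact hlam
  have : B = ⊤ := by
    rw [eq_top_iff]
    intro x _
    have : x ∈ K := by rw [hK]; exact Subfield.mem_top x
    exact this
  exact ⟨this, this⟩

/-- an invariant of the exceptional subgroup -/
def finv (a b c d : ZMod 3) : ZMod 3 := a * a + b * b - c * c - d * d + (a * a - b * b) * (c * c - d * d) - a * b * c * d

theorem finv_g : ∀ a b c d : ZMod 3, finv (a - d) (b + c) c d = finv a b c d := by decide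
theorem finv_h : ∀ a b c d : ZMod 3, finv a b (a + c) (b + d) = finv a b c d := by decide

section
variable {F : Type*} [Field F]

/-- coordinates -/
noncomputable def co [CharP F 3] (lam : F) (x : ZMod 3 × ZMod 3) : F :=
  ZMod.castHom (dvd_refl 3) F x.1 + ZMod.castHom (dvd_refl 3) F x.2 * lam

theorem co_bij [CharP F 3] {lam : F} (hl : lam ^ 2 = -1) (hgen : Subfield.closure ({lam} : Set F) = ⊤) :
    Function.Bijective (co lam) := by
  set ι : ZMod 3 →+* F := ZMod.castHom (dvd_refl 3) F with hι
  have hco : ∀ a b, co lam (a, b) = ι a + ι b * lam := fun a b => rfl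
  have hmul : ∀ a b c d, co lam (a, b) * co lam (c, d) = co lam (a * c - b * d, a * d + b * c) := by
    intro a b c d
    simp only [hco, map_sub, map_add, map_mul]
    linear_combination ι b * ι d * hl
  have hadd : ∀ a b c d, co lam (a, b) + co lam (c, d) = co lam (a + c, b + d) := by
    intro a b c d
    simp only [hco, map_add]
    ring
  have hneg : ∀ a b, - co lam (a, b) = co lam (-a, -b) := by
    intro a b
    simp only [hco, map_neg]
    ring
  have hone : co lam (1, 0) = 1 := by simp [hco]
  have hzero : co lam (0, 0) = 0 := by simp [hco]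
  have hz : ∀ a b : ZMod 3, (a, b) ≠ (0, 0) → (a * a + b * b) * (a * a + b * b) = 1 := by decide
  have hinv : ∀ a b : ZMod 3, (a, b) ≠ (0, 0) →
      co lam (a, b) * co lam ((a * a + b * b) * a, - ((a * a + b * b) * b)) = 1 := by
    intro a b h
    rw [hmul, ← hone]
    congr 1
    ext
    · have := hz a b h
      simp only
      linear_combination this
    · simp only
      ring
  have hinj : Function.Injective (co lam) := by
    rintro ⟨a, b⟩ ⟨c, d⟩ h
    have h1 : co lam (a + -c, b + -d) = 0 := by
      rw [← hadd, ← hneg, h]; ring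
    by_contra hne
    have h3 : (a + -c, b + -d) ≠ ((0, 0) : ZMod 3 × ZMod 3) := by
      intro h
      apply hne
      have e1 := congrArg Prod.fst h
      have e2 := congrArg Prod.snd h
      simp only at e1 e2
      ext
      · simp only; linear_combination e1
      · simp only; linear_combination e2
    have := hinv _ _ h3
    rw [h1, zero_mul] at this
    exact zero_ne_one this
  refine ⟨hinj, ?_⟩
  let K : Subfield F :=
    { carrier := Set.range (co lam)
      mul_mem' := by
        rintro _ _ ⟨⟨a, b⟩, rfl⟩ ⟨⟨c, d⟩, rfl⟩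
        exact ⟨_, (hmul a b c d).symm⟩
      one_mem' := ⟨_, hone⟩
      add_mem' := by
        rintro _ _ ⟨⟨a, b⟩, rfl⟩ ⟨⟨c, d⟩, rfl⟩
        exact ⟨_, (hadd a b c d).symm⟩
      zero_mem' := ⟨_, hzero⟩
      neg_mem' := by
        rintro _ ⟨⟨a, b⟩, rfl⟩
        exact ⟨_, (hneg a b).symm⟩
      inv_mem' := by
        rintro _ ⟨⟨a, b⟩, rfl⟩
        by_cases h : (a, b) = ((0, 0) : ZMod 3 × ZMod 3)
        · rw [h, hzero, inv_zero]; exact ⟨_, hzero⟩
        · exact ⟨_, eq_inv_of_mul_eq_one_right (hinv a b h)⟩ }
  have hK : K = ⊤ := by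
    rw [eq_top_iff, ← hgen, Subfield.closure_le]
    rintro x hx
    rw [Set.mem_singleton_iff] at hx
    rw [hx]
    exact ⟨(0, 1), by simp [hco]⟩
  intro x
  have : x ∈ K := by rw [hK]; exact Subfield.mem_top x
  exact this

/-- the exceptional group is proper -/
theorem proper [CharP F 3] {lam : F} (hl : lam ^ 2 = -1) (hgen : Subfield.closure ({lam} : Set F) = ⊤) :
    Subgroup.closure {(su lam : Matrix.SpecialLinearGroup (Fin 2) F), sl 1} ≠ ⊤ := by
  intro htop
  set ι : ZMod 3 →+* F := ZMod.castHom (dvd_refl 3) F with hι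
  let E := Equiv.ofBijective _ (co_bij hl hgen)
  have hE : ∀ a b, E (a, b) = ι a + ι b * lam := fun a b => rfl
  let J : F → F → ZMod 3 := fun x y => finv (E.symm x).1 (E.symm x).2 (E.symm y).1 (E.symm y).2
  have hJ : ∀ a b c d, J (E (a, b)) (E (c, d)) = finv a b c d := by
    intro a b c d
    simp only [J, Equiv.symm_apply_apply]
  let H : Subgroup (Matrix.SpecialLinearGroup (Fin 2) F) :=
    { carrier := {g | ∀ x y, J (g 0 0 * x + g 0 1 * y) (g 1 0 * x + g 1 1 * y) = J x y}
      mul_mem' := by
        intro g h hg hh x y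
        rw [← (hg (h 0 0 * x + h 0 1 * y) (h 1 0 * x + h 1 1 * y)).trans (hh x y)]
        rw [mul00, mul01, mul10, mul11]
        congr 1 <;> ring
      one_mem' := by
        intro x y
        rw [one00, one01, one10, one11]
        congr 1 <;> ring
      inv_mem' := by
        intro g hg x y
        have d := det_eq g
        rw [← hg (g⁻¹ 0 0 * x + g⁻¹ 0 1 * y)]
        rw [inv00, inv01, inv10, inv11]
        congr 1
        · linear_combination x * d
        · linear_combination y * d }
  have hle : Subgroup.closure {(su lam : Matrix.SpecialLinearGroup (Fin 2) F), sl 1} ≤ H := by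
    rw [Subgroup.closure_le]
    rintro g (rfl | hg)
    · intro x y
      obtain ⟨⟨a, b⟩, rfl⟩ := E.surjective x
      obtain ⟨⟨c, d⟩, rfl⟩ := E.surjective y
      simp only [su00, su01, su10, su11]
      have e1 : 1 * E (a, b) + lam * E (c, d) = E (a - d, b + c) := by
        simp only [hE, map_sub, map_add]
        linear_combination ι d * hl
      have e2 : 0 * E (a, b) + 1 * E (c, d) = E (c, d) := by ring
      rw [e1, e2, hJ, hJ, finv_g]
    · rw [Set.mem_singleton_iff] at hg
      subst hg
      intro x y
      obtain ⟨⟨a, b⟩, rfl⟩ := E.surjective x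
      obtain ⟨⟨c, d⟩, rfl⟩ := E.surjective y
      simp only [sl00, sl01, sl10, sl11]
      have e1 : 1 * E (a, b) + 0 * E (c, d) = E (a, b) := by ring
      have e2 : 1 * E (a, b) + 1 * E (c, d) = E (a + c, b + d) := by
        simp only [hE, map_add]
        ring
      rw [e1, e2, hJ, hJ, finv_h]
  rw [htop] at hle
  have h1 : sw (0 : F) ∈ H := hle trivial
  have h3 := h1 (E (0, 0)) (E (1, 0))
  simp only [sw00, sw01, sw10, sw11] at h3
  have e1 : 0 * E (0, 0) + 1 * E (1, 0) = E (1, 0) := by ring
  have e2 : -1 * E (0, 0) + 0 * E (1, 0) = E (0, 0) := by simp [hE]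
  rw [e1, e2, hJ, hJ] at h3
  exact absurd h3 (by decide)

end

/-- Let F be a finite field of odd characteristic and λ ≠ 0 an element generating F as a field. Then the lower and upper unitriangular matrices with off-diagonal entries 1 and λ generate SL_2(F), unless |F| = 9 and λ² = −1, in which case they generate a subgroup of order 120. -/
theorem result {F : Type*} [Field F] [Fintype F] (h2 : (2 : F) ≠ 0) (lam : F) (hlam : lam ≠ 0) (hgen : Subfield.closure ({lam} : Set F) = ⊤) : (Subgroup.closure {g : Matrix.SpecialLinearGroup (Fin 2) F | (g : Matrix (Fin 2) (Fin 2) F) = !![1, 0; 1, 1] ∨ (g : Matrix (Fin 2) (Fin 2) F) = !![1, lam; 0, 1]} = ⊤ ∧ ¬ (Fintype.card F = 9 ∧ lam ^ 2 = -1)) ∨ (Fintype.card F = 9 ∧ lam ^ 2 = -1 ∧ Nat.card ↥(Subgroup.closure {g : Matrix.SpecialLinearGroup (Fin 2) F | (g : Matrix (Fin 2) (Fin 2) F) = !![1, 0; 1, 1] ∨ (g : Matrix (Fin 2) (Fin 2) F) = !![1, lam; 0, 1]}) = 120) := by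
  classical
  obtain ⟨p, hpF⟩ := CharP.exists F
  haveI hp : Fact p.Prime := ⟨CharP.char_is_prime F p⟩
  have hp2 : p ≠ 2 := by
    rintro rfl
    apply h2
    have : ((2 : ℕ) : F) = 0 := CharP.cast_eq_zero F 2
    exact_mod_cast this
  have hcl : {g : Matrix.SpecialLinearGroup (Fin 2) F | (g : Matrix (Fin 2) (Fin 2) F) = !![1, 0; 1, 1] ∨
      (g : Matrix (Fin 2) (Fin 2) F) = !![1, lam; 0, 1]} = {su lam, sl 1} := by
    ext g
    simp only [Set.mem_setOf_eq, Set.mem_insert_iff, Set.mem_singleton_iff]
    constructor
    · rintro (h | h)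
      · right; exact Subtype.ext h
      · left; exact Subtype.ext h
    · rintro (h | h)
      · right; rw [h]; rfl
      · left; rw [h]; rfl
  rw [hcl]
  set C := Subgroup.closure {(su lam : Matrix.SpecialLinearGroup (Fin 2) F), sl 1} with hC
  have hsu : su lam ∈ C := Subgroup.subset_closure (Set.mem_insert _ _)
  have hsl : sl 1 ∈ C := Subgroup.subset_closure (Set.mem_insert_of_mem _ (Set.mem_singleton _))
  have hnot : C = ⊤ → ¬ (Fintype.card F = 9 ∧ lam ^ 2 = -1) := by
    rintro htop ⟨h9, hl⟩
    have hp3 : p = 3 := by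
      obtain ⟨n, hn, hc⟩ := FiniteField.card F p
      rw [h9] at hc
      have h3 : 3 ∣ p ^ (n : ℕ) := by rw [← hc]; norm_num
      have := Nat.prime_three.dvd_of_dvd_pow h3
      exact ((Nat.prime_dvd_prime_iff_eq Nat.prime_three hp.out).1 this).symm
    subst hp3
    exact proper hl hgen htop
  let K := AlgebraicClosure F
  haveI : CharP K p := charP_of_injective_algebraMap (algebraMap F K).injective p
  have hinj : Function.Injective (algebraMap F K) := (algebraMap F K).injective
  let φ : Matrix.SpecialLinearGroup (Fin 2) F →* Matrix.SpecialLinearGroup (Fin 2) K :=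
    Matrix.SpecialLinearGroup.map (algebraMap F K)
  have hφij : ∀ (g : Matrix.SpecialLinearGroup (Fin 2) F) (i j : Fin 2), φ g i j = algebraMap F K (g i j) :=
    fun g i j => rfl
  have hφ : ∀ g : Matrix.SpecialLinearGroup (Fin 2) F, tr (φ g) = algebraMap F K (tr g) := fun g => by
    rw [tr, tr, map_add, hφij, hφij]
  have hφsu : ∀ b : F, φ (su b) = su (algebraMap F K b) := fun b => by
    apply ext2
    · rw [hφij]; simp
    · rw [hφij]; simp
    · rw [hφij]; simp
    · rw [hφij]; simp
  have hφsl : ∀ b : F, φ (sl b) = sl (algebraMap F K b) := fun b => by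
    apply ext2
    · rw [hφij]; simp
    · rw [hφij]; simp
    · rw [hφij]; simp
    · rw [hφij]; simp
  have hφinj : Function.Injective φ := by
    intro g h e
    refine ext2 (hinj ?_) (hinj ?_) (hinj ?_) (hinj ?_) <;> rw [← hφij, ← hφij, e]
  have hlamK : algebraMap F K lam ≠ 0 := fun h => hlam (hinj (by rw [h, map_zero]))
  let ρ : C →* Matrix.SpecialLinearGroup (Fin 2) K := φ.comp C.subtype
  have hρ : Function.Injective ρ := hφinj.comp C.subtype_injective
  rcases dichotomy (k := K) hp2 ρ (g₀ := ⟨su lam, hsu⟩) (h₀ := ⟨sl 1, hsl⟩) (b := algebraMap F K lam)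
    (c := 1) hlamK one_ne_zero (hφsu lam) ((hφsl 1).trans (by rw [map_one])) with h | ⟨hp3, hcard, htr⟩
  · left
    have htop : C = ⊤ := by
      let B : AddSubgroup F :=
        { carrier := {b | su b ∈ C}
          add_mem' := fun {a b} ha hb => by
            change su (a + b) ∈ C
            rw [← su_mul]; exact C.mul_mem ha hb
          zero_mem' := by
            change su 0 ∈ C
            rw [su_zero]; exact C.one_mem
          neg_mem' := fun {a} ha => by
            change su (-a) ∈ C
            have : su (-a) = (su a)⁻¹ := by rw [eq_comm, inv_eq_iff_mul_eq_one, su_mul, add_neg_cancel, su_zero]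
            rw [this]; exact C.inv_mem ha }
      let D : AddSubgroup F :=
        { carrier := {b | sl b ∈ C}
          add_mem' := fun {a b} ha hb => by
            change sl (a + b) ∈ C
            rw [← sl_mul]; exact C.mul_mem ha hb
          zero_mem' := by
            change sl 0 ∈ C
            rw [sl_zero]; exact C.one_mem
          neg_mem' := fun {a} ha => by
            change sl (-a) ∈ C
            have : sl (-a) = (sl a)⁻¹ := by rw [eq_comm, inv_eq_iff_mul_eq_one, sl_mul, add_neg_cancel, sl_zero]
            rw [this]; exact C.inv_mem ha }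
      have hBD : ∀ b ∈ B, b ≠ 0 → b⁻¹ ∈ D := by
        intro b hb hb0
        obtain ⟨g, hg⟩ := h.2 ⟨su b, hb⟩ (algebraMap F K b) (fun h => hb0 (hinj (by rw [h, map_zero]))) (hφsu b)
        rw [← map_inv₀, ← hφsl] at hg
        have := hφinj hg
        change sl b⁻¹ ∈ C
        rw [← this]; exact g.2
      have hDB : ∀ b ∈ D, b ≠ 0 → b⁻¹ ∈ B := by
        intro b hb hb0
        obtain ⟨g, hg⟩ := h.1 ⟨sl b, hb⟩ (algebraMap F K b) (fun h => hb0 (hinj (by rw [h, map_zero]))) (hφsl b)
        rw [← map_inv₀, ← hφsu] at hg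
        have := hφinj hg
        change su b⁻¹ ∈ C
        rw [← this]; exact g.2
      have hD1 : (1 : F) ∈ D := hsl
      have hB1 : (1 : F) ∈ B := by have := hDB 1 hD1 one_ne_zero; rwa [inv_one] at this
      obtain ⟨h3, h4⟩ := hua h2 (p := p) B D hB1 hD1 hBD hDB (lam := lam) hsu hgen
      apply eq_top_of_elem
      · intro a
        have : a ∈ B := by rw [h3]; trivial
        exact this
      · intro a
        have : a ∈ D := by rw [h4]; trivial
        exact this
    exact ⟨htop, hnot htop⟩
  · subst hp3
    have htr' : ∀ g ∈ C, tr g ^ 2 = 4 ∨ tr g = 0 ∨ tr g ^ 4 = -1 := by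
      intro g hg
      have h1 := htr ⟨g, hg⟩
      have e : tr (ρ ⟨g, hg⟩) = algebraMap F K (tr g) := hφ g
      rw [e] at h1
      rcases h1 with h1 | h1 | h1
      · left; apply hinj; rw [map_pow, h1, map_ofNat]
      · right; left; apply hinj; rw [h1, map_zero]
      · right; right; apply hinj; rw [map_pow, h1, map_neg, map_one]
    have hex := exceptional (p := 3) rfl (tr_su lam) (tr_sl 1) (htr' _ (C.mul_mem hsu hsl))
      (htr' _ (C.mul_mem hsu (C.inv_mem hsl)))
    have e : tr (su lam * sl 1) - 2 = lam := by rw [tr_su_sl]; ring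
    rw [e] at hex
    have hprime : ∀ l : F, l = lam → (l = 1 ∨ l = -1) → C = ⊤ := by
      intro l hl hl1
      have hbot : (⊤ : Subfield F) ≤ (ZMod.castHom (dvd_refl 3) F).fieldRange := by
        rw [← hgen, Subfield.closure_le]
        intro x hx
        rw [Set.mem_singleton_iff] at hx
        rw [hx, ← hl]
        rcases hl1 with h | h
        · rw [h]; exact Subfield.one_mem _
        · rw [h]; exact Subfield.neg_mem _ (Subfield.one_mem _)
      have hsu1 : su (1 : F) ∈ C := by
        rcases hl1 with h | h
        · rw [← h, hl]; exact hsu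
        · have : su (1 : F) = (su lam)⁻¹ := by
            rw [eq_comm, inv_eq_iff_mul_eq_one, su_mul, ← hl, h, neg_add_cancel, su_zero]
          rw [this]; exact C.inv_mem hsu
      have hall : ∀ x : F, ∃ n : ℕ, (n : F) = x := by
        intro x
        obtain ⟨y, hy⟩ := hbot (Subfield.mem_top x)
        refine ⟨y.val, ?_⟩
        rw [← hy]
        have := map_natCast (ZMod.castHom (dvd_refl 3) F) y.val
        rw [ZMod.natCast_zmod_val] at this
        exact this.symm
      apply eq_top_of_elem
      · intro a
        obtain ⟨n, rfl⟩ := hall a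
        have : su ((n : ℕ) : F) = su 1 ^ n := by rw [su_pow, mul_one]
        rw [this]; exact C.pow_mem hsu1 n
      · intro a
        obtain ⟨n, rfl⟩ := hall a
        have : sl ((n : ℕ) : F) = sl 1 ^ n := by rw [sl_pow, mul_one]
        rw [this]; exact C.pow_mem hsl n
    rcases hex with h0 | h0 | h0 | h0
    · exact absurd h0 hlam
    · left
      have htop := hprime lam rfl (Or.inl h0)
      exact ⟨htop, hnot htop⟩
    · left
      have htop := hprime lam rfl (Or.inr h0)
      exact ⟨htop, hnot htop⟩
    · right
      refine ⟨?_, h0, ?_⟩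
      · have := Fintype.card_of_bijective (co_bij h0 hgen)
        rw [← this, Fintype.card_prod, ZMod.card]
      · -- order
        have h60 : Nat.card C = 60 * Nat.card (act.comp ρ).ker := by
          have h1 := (act.comp ρ).ker.card_mul_index
          rw [Subgroup.index_ker, hcard] at h1
          rw [← h1, mul_comm]
        have hev : 2 ∣ Nat.card C := by rw [h60]; exact ⟨30 * Nat.card (act.comp ρ).ker, by ring⟩
        obtain ⟨t, ht⟩ := exists_prime_orderOf_dvd_card' 2 hev
        have hneg1 : (-1 : Matrix.SpecialLinearGroup (Fin 2) F) ∈ C := by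
          have h1 : (t : Matrix.SpecialLinearGroup (Fin 2) F) * t = 1 := by
            have := pow_orderOf_eq_one t
            rw [ht, sq] at this
            exact congrArg Subtype.val this
          have h3 : (t : Matrix.SpecialLinearGroup (Fin 2) F) ≠ 1 := by
            intro h
            have : t = 1 := Subtype.ext h
            rw [this, orderOf_one] at ht
            norm_num at ht
          have h4 : (t : Matrix.SpecialLinearGroup (Fin 2) F) = (t : Matrix.SpecialLinearGroup (Fin 2) F)⁻¹ :=
            eq_inv_of_mul_eq_one_left h1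
          generalize hT : (t : Matrix.SpecialLinearGroup (Fin 2) F) = T at *
          have e1 : T 0 0 = T 1 1 := by
            calc T 0 0 = T⁻¹ 0 0 := by rw [← h4]
              _ = _ := inv00 T
          have e2 : T 0 1 = - T 0 1 := by
            calc T 0 1 = T⁻¹ 0 1 := by rw [← h4]
              _ = _ := inv01 T
          have e3 : T 1 0 = - T 1 0 := by
            calc T 1 0 = T⁻¹ 1 0 := by rw [← h4]
              _ = _ := inv10 T
          have e2' : T 0 1 = 0 := by
            have : 2 * T 0 1 = 0 := by linear_combination e2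
            exact (mul_eq_zero.1 this).resolve_left h2
          have e3' : T 1 0 = 0 := by
            have : 2 * T 1 0 = 0 := by linear_combination e3
            exact (mul_eq_zero.1 this).resolve_left h2
          rcases sc_iff.2 ⟨e2', e3', e1⟩ with h | h
          · exact absurd h h3
          · rw [← h, ← hT]; exact t.2
        have hker : Nat.card (act.comp ρ).ker = 2 := by
          have hne : (1 : C) ≠ ⟨-1, hneg1⟩ := by
            intro h
            have h1 : (1 : Matrix.SpecialLinearGroup (Fin 2) F) = -1 := congrArg Subtype.val h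
            have h3 : (1 : Matrix.SpecialLinearGroup (Fin 2) F) 0 0 = (-1 : Matrix.SpecialLinearGroup (Fin 2) F) 0 0 := by
              rw [← h1]
            rw [neg_apply', one00] at h3
            apply h2
            linear_combination h3
          have hset : (((act.comp ρ).ker : Subgroup C) : Set C) = {1, ⟨-1, hneg1⟩} := by
            ext g
            rw [SetLike.mem_coe, MonoidHom.mem_ker, MonoidHom.comp_apply, act_eq_one]
            have e1 : ρ 1 = 1 := map_one ρ
            have e2 : ρ ⟨-1, hneg1⟩ = -1 := by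
              change φ (-1) = -1
              apply ext2
              · rw [hφij, neg_apply', neg_apply', one00, one00]; simp
              · rw [hφij, neg_apply', neg_apply', one01, one01]; simp
              · rw [hφij, neg_apply', neg_apply', one10, one10]; simp
              · rw [hφij, neg_apply', neg_apply', one11, one11]; simp
            constructor
            · rintro (h | h)
              · left; exact hρ (h.trans e1.symm)
              · right; exact hρ (h.trans e2.symm)
            · rintro (h | h)
              · left; rw [h, e1]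
              · right
                rw [Set.mem_singleton_iff] at h
                rw [h, e2]
          have : Nat.card (act.comp ρ).ker = (((act.comp ρ).ker : Subgroup C) : Set C).ncard := rfl
          rw [this, hset, Set.ncard_pair hne]
        rw [h60, hker]

end Cfsg.Agent.S0801
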