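import Cfsg.Statements.S0802
import Mathlib
import Mathlib
import Cfsg.Agent.LibDkU29
import Cfsg.Agent.S0252

set_option autoImplicit false
open Cfsg

namespace Cfsg.Agent.S0802

open CfsgLib.Dk29 MulAction OnePoint

theorem a4_comm : ∀ a b : alternatingGroup (Fin 4), a * a = 1 → a * (b * a * b⁻¹) = (b * a * b⁻¹) * a := by decide +kernel

theorem a4_inv : ∃ a : alternatingGroup (Fin 4), a ≠ 1 ∧ a * a = 1 := by decide +kernel

theorem a4_into_a5 : ∃ j : alternatingGroup (Fin 4) →* alternatingGroup (Fin 5), Function.Injective j := by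
  let e : Fin 4 ≃ {x : Fin 5 // x ≠ 4} := finSuccAboveEquiv (4 : Fin 5)
  let f : Equiv.Perm (Fin 4) →* Equiv.Perm (Fin 5) := Equiv.Perm.extendDomainHom e
  refine ⟨(f.comp (alternatingGroup (Fin 4)).subtype).codRestrict _ (fun x => ?_), ?_⟩
  · rw [Equiv.Perm.mem_alternatingGroup]
    show Equiv.Perm.sign (Equiv.Perm.extendDomain (x : Equiv.Perm (Fin 4)) e) = 1
    rw [Equiv.Perm.sign_extendDomain]
    exact x.2
  · intro a b h
    have h1 : f a = f b := congrArg Subtype.val h
    exact Subtype.ext (Equiv.Perm.extendDomainHom_injective e h1)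

theorem sub_of_inj {A B G : Type*} [Group A] [Group B] [Group G] (j : A →* B) (hj : Function.Injective j) (i : B →* G) (hi : Function.Injective i) :
    ∃ H : Subgroup G, Nonempty (H ≃* A) :=
  ⟨(i.comp j).range, ⟨(MonoidHom.ofInjective (f := i.comp j) (hi.comp hj)).symm⟩⟩

/-- PSL_2(p^n) has a subgroup isomorphic to A_4 if and only if it is not the case that p = 2 and n is odd. -/
theorem result {F : Type*} [Field F] [Fintype F] (p n : ℕ) [Fact p.Prime] [CharP F p] (hF : Fintype.card F = p ^ n) : (∃ H : Subgroup (Matrix.ProjectiveSpecialLinearGroup (Fin 2) F), Nonempty (H ≃* alternatingGroup (Fin 4))) ↔ ¬ (p = 2 ∧ Odd n) := by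
  classical
  have hq1 : 1 < Fintype.card F := Fintype.one_lt_card
  constructor
  · rintro ⟨H, ⟨e⟩⟩ ⟨rfl, hn⟩
    let K := AlgebraicClosure F
    haveI : CharP K 2 := charP_of_injective_algebraMap (algebraMap F K).injective 2
    let f : H →* Matrix.ProjGenLinGroup (Fin 2) F := Matrix.ProjectiveSpecialLinearGroup.toPGL.comp H.subtype
    have hf : Function.Injective f := Matrix.ProjectiveSpecialLinearGroup.toPGL_injective.comp H.subtype_injective
    letI : MulAction H (OnePoint K) := MulAction.compHom _ ((Matrix.ProjGenLinGroup.map (algebraMap F K)).comp f)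
    let M : Mob H (OnePoint K) K := (mob (K := K)).comp ((Matrix.ProjGenLinGroup.map (algebraMap F K)).comp f) ((map_injective' (algebraMap F K)).comp hf)
    have hφ : ∀ (h : H) (p : OnePoint K), h • p = Matrix.ProjGenLinGroup.map (algebraMap F K) (f h) • p := fun h p => rfl
    clear_value M
    obtain ⟨a, ha1, haa⟩ := a4_inv
    obtain ⟨t, ht⟩ : ∃ t, t = e.symm a := ⟨_, rfl⟩
    have ht1 : t ≠ 1 := by rw [ht]; intro h; exact ha1 (e.symm.injective (h.trans (map_one _).symm))
    have htt : t * t = 1 := by rw [ht, ← map_mul, haa, map_one]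
    have htc : ∀ h : H, t * (h * t * h⁻¹) = (h * t * h⁻¹) * t := by
      intro h
      apply e.injective
      have := a4_comm a (e h) haa
      simp only [ht, map_mul, map_inv, MulEquiv.apply_symm_apply]
      exact this
    obtain ⟨x, htU⟩ : ∃ x, t ∈ M.U x := by
      obtain ⟨x, hx⟩ := M.fix t
      refine ⟨x, ?_⟩
      rw [M.mem_U]
      refine ⟨hx, ?_⟩
      have h1 : M.χ x t * M.χ x t = 1 := by
        rw [← M.mul x t t hx hx, htt]; exact M.χ_one x
      apply Units.ext
      have h2 : ((M.χ x t : Kˣ) : K) * ((M.χ x t : Kˣ) : K) = 1 := by rw [← Units.val_mul, h1, Units.val_one]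
      rcases mul_self_eq_one_iff.mp h2 with h | h
      · rw [h, Units.val_one]
      · rw [h, Units.val_one]; exact CharTwo.neg_eq 1
    have hfix : ∀ h : H, h • x = x := by
      intro h
      by_contra hne
      have h1 := M.mem_U_smul x t h htU
      have h2 : h * t * h⁻¹ ≠ 1 := by intro h3; rw [mul_inv_eq_one, mul_eq_left] at h3; exact ht1 h3
      have h3 : (h * t * h⁻¹) • (t • (h • x)) = t • (h • x) := by
        rw [← mul_smul, ← htc h, mul_smul, M.U_le _ h1]
      have h4 : t • (h • x) = h • x := by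
        by_contra h5
        exact M.smul_ne (h • x) (t • (h • x)) _ h1 h2 h5 h3
      exact M.smul_ne x (h • x) t htU ht1 hne h4
    have hq : 2 ≤ M.q x := by
      unfold Mob.q
      haveI : Nontrivial (M.U x) := ⟨⟨t, htU⟩, 1, fun h => ht1 (congrArg Subtype.val h)⟩
      exact Finite.one_lt_card
    obtain ⟨x0, hx0⟩ := rational_x M f hφ x hq
    have hle : H ≤ bor x0 := by
      intro h hh
      show Matrix.ProjectiveSpecialLinearGroup.toPGL h • x0 = x0
      apply map_pt_injective (algebraMap F K)
      have h1 := hfix ⟨h, hh⟩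
      rw [hφ, ← hx0, ← map_smul'] at h1
      exact h1
    have h12 : 12 ∣ Nat.card (bor x0) := by
      rw [← card_a4, ← Nat.card_congr e.toEquiv]
      exact Subgroup.card_dvd_of_le hle
    have h1 := bor_card' x0
    rcases gcd_cases _ hq1 with ⟨hd, hpar⟩ | ⟨hd, hpar⟩
    · rw [hd, one_mul] at h1
      rw [h1, hF] at h12
      have h3 : 3 ∣ 2 ^ n * (2 ^ n - 1) := dvd_trans (by norm_num) h12
      have h4 : 3 ∣ 2 ^ n - 1 := (Nat.Coprime.dvd_of_dvd_mul_left (Nat.Coprime.pow_right n (by norm_num)) h3)
      obtain ⟨k, hk⟩ := hn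
      have h5 : 2 ^ n % 3 = 2 := by
        rw [hk, pow_add, pow_mul, Nat.mul_mod, Nat.pow_mod]
        norm_num
      omega
    · rw [hF] at hpar
      have hn0 : n ≠ 0 := by rintro rfl; obtain ⟨k, hk⟩ := hn; omega
      exact (Nat.not_even_iff_odd.mpr hpar) ((Nat.even_pow.mpr ⟨even_two, hn0⟩))
  · intro hpn
    by_cases hp : p = 2
    · subst hp
      have hn : Even n := by
        rw [← Nat.not_odd_iff_even]; exact fun h => hpn ⟨rfl, h⟩
      obtain ⟨m, hm⟩ := hn
      haveI : Fintype (GaloisField 2 2) := Fintype.ofFinite _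
      have hc4 : Fintype.card (GaloisField 2 2) = 4 := by
        rw [← Nat.card_eq_fintype_card, GaloisField.card 2 2 (by norm_num)]; norm_num
      obtain ⟨σ⟩ := exists_emb (F := F) (K := GaloisField 2 2) m (by rw [hc4, hF, hm, show (4 : ℕ) = 2 ^ 2 by norm_num, ← pow_mul]; congr 1; ring)
      obtain ⟨e⟩ := Cfsg.Agent.S0252.result (F := GaloisField 2 2) hc4
      obtain ⟨j, hj⟩ := a4_into_a5
      exact sub_of_inj j hj ((pslMap σ).comp e.symm.toMonoidHom) ((pslMap_injective σ).comp e.symm.injective)
    · have hodd : Odd (Fintype.card F) := by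
        rw [hF]; exact ((Fact.out (p := p.Prime)).odd_of_ne_two hp).pow
      obtain ⟨V, hV⟩ := exists_klein (F := F) hodd
      have hmod : (Fintype.card F % 8 = 3 ∨ Fintype.card F % 8 = 5) ∨ (Fintype.card F % 8 = 1 ∨ Fintype.card F % 8 = 7) := by
        have := Nat.odd_iff.mp hodd
        omega
      rcases hmod with hmod | hmod
      · exact ⟨_, (klein_norm_iso hodd V _ hV Subgroup.le_normalizer le_rfl).1 (psl_norm_twelve hmod V hV)⟩
      · obtain ⟨e⟩ := (klein_norm_iso hodd V _ hV Subgroup.le_normalizer le_rfl).2 (psl_norm_24 hmod V hV)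
        exact sub_of_inj (alternatingGroup (Fin 4)).subtype (alternatingGroup (Fin 4)).subtype_injective
          ((Subgroup.normalizer (V : Set (Matrix.ProjectiveSpecialLinearGroup (Fin 2) F))).subtype.comp e.symm.toMonoidHom)
          ((Subgroup.normalizer (V : Set (Matrix.ProjectiveSpecialLinearGroup (Fin 2) F))).subtype_injective.comp e.symm.injective)

end Cfsg.Agent.S0802
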