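import Cfsg.Statements.S0803
import Mathlib
import Mathlib
import Cfsg.Agent.LibDkT29

set_option autoImplicit false
open Cfsg

namespace Cfsg.Agent.S0803

open CfsgLib.Dk29

/-- PSL_2(q) has a subgroup isomorphic to S_4 iff q² ≡ 1 (mod 16). -/
theorem result {F : Type*} [Field F] [Fintype F] {q : ℕ} (hF : Fintype.card F = q) : (∃ H : Subgroup (Matrix.ProjectiveSpecialLinearGroup (Fin 2) F), Nonempty (H ≃* Equiv.Perm (Fin 4))) ↔ q ^ 2 % 16 = 1 := by
  classical
  subst hF
  have hq1 : 1 < Fintype.card F := Fintype.one_lt_card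
  constructor
  · rintro ⟨H, ⟨e⟩⟩
    have h24 : 24 ∣ Nat.card (Matrix.ProjectiveSpecialLinearGroup (Fin 2) F) := by
      rw [← card_s4, ← Nat.card_congr e.toEquiv]
      exact Subgroup.card_subgroup_dvd_card H
    have h1 := card_PSL (F := F)
    rcases gcd_cases _ hq1 with ⟨hd, hpar⟩ | ⟨hd, hpar⟩
    · exfalso
      obtain ⟨p, hp⟩ := CharP.exists F
      haveI := hp
      obtain ⟨n, hpp, hn⟩ := FiniteField.card F p
      have hp2 : p = 2 := by
        rw [hn] at hpar
        have := (Nat.even_pow.mp hpar).1
        exact (Nat.Prime.even_iff hpp).mp this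
      subst hp2
      let c : Equiv.Perm (Fin 4) := finRotate 4
      have hc4 : orderOf c = 4 := by
        rw [show c = finRotate 4 from rfl]
        exact orderOf_eq_prime_pow (p := 2) (n := 1) (by decide) (by decide)
      let g := Matrix.ProjectiveSpecialLinearGroup.toPGL (e.symm c : Matrix.ProjectiveSpecialLinearGroup (Fin 2) F)
      have hg4 : orderOf g = 4 := by
        rw [show g = Matrix.ProjectiveSpecialLinearGroup.toPGL (e.symm c : Matrix.ProjectiveSpecialLinearGroup (Fin 2) F) from rfl,
          orderOf_injective _ Matrix.ProjectiveSpecialLinearGroup.toPGL_injective, Subgroup.orderOf_coe, MulEquiv.orderOf_eq, hc4]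
      rcases ord_cases 2 1 g (Or.inl rfl) with h | h | h
      · have := orderOf_dvd_of_pow_eq_one h
        rw [hg4] at this
        have := Nat.le_of_dvd (by norm_num) this
        omega
      · rw [Nat.div_one] at h
        have := orderOf_dvd_of_pow_eq_one h
        rw [hg4] at this
        obtain ⟨m, hm⟩ := hpar
        obtain ⟨k, hk⟩ := this
        omega
      · rw [Nat.div_one] at h
        have := orderOf_dvd_of_pow_eq_one h
        rw [hg4] at this
        obtain ⟨m, hm⟩ := hpar
        obtain ⟨k, hk⟩ := this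
        omega
    · have hmod : Fintype.card F % 8 = 1 ∨ Fintype.card F % 8 = 3 ∨ Fintype.card F % 8 = 5 ∨ Fintype.card F % 8 = 7 := by
        have := Nat.odd_iff.mp hpar
        omega
      have h8 : ¬ (Fintype.card F % 8 = 3 ∨ Fintype.card F % 8 = 5) := fun h => psl_not_eight h (dvd_trans (by norm_num) h24)
      have hmod' : Fintype.card F % 8 = 1 ∨ Fintype.card F % 8 = 7 := by tauto
      have h16 : Fintype.card F % 16 = 1 ∨ Fintype.card F % 16 = 7 ∨ Fintype.card F % 16 = 9 ∨ Fintype.card F % 16 = 15 := by omega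
      rcases h16 with h | h | h | h <;> simp [Nat.pow_mod, h]
  · intro h
    have hmod : Fintype.card F % 8 = 1 ∨ Fintype.card F % 8 = 7 := by
      have h2 : Fintype.card F % 16 < 16 := Nat.mod_lt _ (by norm_num)
      rw [Nat.pow_mod] at h
      generalize hr : Fintype.card F % 16 = r at h h2
      have : r = 1 ∨ r = 7 ∨ r = 9 ∨ r = 15 := by
        interval_cases r <;> simp_all
      omega
    have hodd : Odd (Fintype.card F) := by rw [Nat.odd_iff]; omega
    obtain ⟨V, hV⟩ := exists_klein (F := F) hodd
    exact ⟨_, (klein_norm_iso hodd V _ hV Subgroup.le_normalizer le_rfl).2 (psl_norm_24 hmod V hV)⟩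

end Cfsg.Agent.S0803
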