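import Cfsg.Statements.S0804
import Mathlib
import Mathlib
import Cfsg.Agent.LibDkW29

set_option autoImplicit false
open Cfsg

namespace Cfsg.Agent.S0804

open CfsgLib.Dk29 MulAction

/-- PSL_2(q) has a subgroup isomorphic to A_5 iff 5 ∣ q(q² − 1). -/
theorem result {F : Type*} [Field F] [Fintype F] {q : ℕ} (hF : Fintype.card F = q) : (∃ H : Subgroup (Matrix.ProjectiveSpecialLinearGroup (Fin 2) F), Nonempty (H ≃* alternatingGroup (Fin 5))) ↔ 5 ∣ q * (q ^ 2 - 1) := by
  classical
  subst hF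
  have hq1 : 1 < Fintype.card F := Fintype.one_lt_card
  have hc := card_PSL (F := F)
  have hsq : Fintype.card F ^ 2 - 1 = (Fintype.card F - 1) * (Fintype.card F + 1) := by
    obtain ⟨c, hc⟩ : ∃ c, Fintype.card F = c + 1 := ⟨Fintype.card F - 1, by omega⟩
    rw [hc, Nat.add_sub_cancel]
    have : (c + 1) ^ 2 = c * (c + 1 + 1) + 1 := by ring
    omega
  rw [hsq, ← hc]
  constructor
  · rintro ⟨H, ⟨e⟩⟩
    have h60 : 60 ∣ Nat.card (Matrix.ProjectiveSpecialLinearGroup (Fin 2) F) := by
      rw [← card_a5, ← Nat.card_congr e.toEquiv]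
      exact Subgroup.card_subgroup_dvd_card H
    exact Dvd.dvd.mul_left (dvd_trans (by norm_num) h60) _
  · intro h5
    rcases gcd_cases _ hq1 with ⟨hd, hpar⟩ | ⟨hd, hpar⟩
    · obtain ⟨p, hp⟩ := CharP.exists F
      haveI := hp
      obtain ⟨n, hpp, hn⟩ := FiniteField.card F p
      have hp2 : p = 2 := by
        rw [hn] at hpar
        exact (Nat.Prime.even_iff hpp).mp (Nat.even_pow.mp hpar).1
      subst hp2
      rw [hc, hn] at h5
      have hne : Even (n : ℕ) := by
        by_contra hodd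
        rw [Nat.not_even_iff_odd] at hodd
        obtain ⟨k, hk⟩ := hodd
        have h6 : 5 ∣ (2 ^ (n : ℕ) - 1) * (2 ^ (n : ℕ) + 1) := (Nat.Coprime.dvd_of_dvd_mul_left (Nat.Coprime.pow_right (n : ℕ) (by norm_num)) h5)
        have h7 : 2 ^ (n : ℕ) % 5 = 2 ∨ 2 ^ (n : ℕ) % 5 = 3 := by
          rcases Nat.even_or_odd' k with ⟨j, rfl | rfl⟩
          · left
            have h16 : 16 ^ j % 5 = 1 := by rw [Nat.pow_mod]; norm_num
            have e1 : 2 ^ (n : ℕ) = 2 * 16 ^ j := by
              rw [hk, show (16 : ℕ) = 2 ^ 4 by norm_num, ← pow_mul, ← pow_succ']; congr 1; ring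
            omega
          · right
            have h16 : 16 ^ j % 5 = 1 := by rw [Nat.pow_mod]; norm_num
            have e1 : 2 ^ (n : ℕ) = 8 * 16 ^ j := by
              rw [hk, show (16 : ℕ) = 2 ^ 4 by norm_num, show (8 : ℕ) = 2 ^ 3 by norm_num, ← pow_mul, ← pow_add]; congr 1; ring
            omega
        rcases (Nat.prime_five.dvd_mul).mp h6 with h8 | h8
        · omega
        · omega
      obtain ⟨m, hm⟩ := hne
      haveI : Fintype (GaloisField 2 2) := Fintype.ofFinite _
      have hc4 : Fintype.card (GaloisField 2 2) = 4 := by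
        rw [← Nat.card_eq_fintype_card, GaloisField.card 2 2 (by norm_num)]; norm_num
      obtain ⟨σ⟩ := exists_emb (F := F) (K := GaloisField 2 2) m (by rw [hc4, hn, hm, show (4 : ℕ) = 2 ^ 2 by norm_num, ← pow_mul]; congr 1; ring)
      obtain ⟨e⟩ := Cfsg.Agent.S0252.result (F := GaloisField 2 2) hc4
      exact ⟨(pslMap σ).range, ⟨(MonoidHom.ofInjective (pslMap_injective σ)).symm.trans e⟩⟩
    · apply exists_a5 hpar
      rw [hd] at h5
      exact (Nat.Coprime.dvd_of_dvd_mul_left (by norm_num) h5)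

end Cfsg.Agent.S0804
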