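import Cfsg.Statements.S0805
import Mathlib
import Mathlib
import Cfsg.Agent.LibDkP29

set_option autoImplicit false
open Cfsg

namespace Cfsg.Agent.S0805

open CfsgLib.Dk29 MulAction OnePoint

/-- Subfield subgroups: let F be a finite field of odd order q and K a finite field with |K|^m = q, m ≥ 1. Then PSL_2(F) has a subgroup isomorphic to PSL_2(K), and has a subgroup isomorphic to PGL_2(K) if and only if m is even. -/
theorem result {F K : Type*} [Field F] [Fintype F] [Field K] [Fintype K] {q : ℕ} (hF : Fintype.card F = q) (hodd : Odd q) (m : ℕ) (hm : 1 ≤ m) (hK : Fintype.card K ^ m = q) : (∃ H : Subgroup (Matrix.ProjectiveSpecialLinearGroup (Fin 2) F), Nonempty (H ≃* Matrix.ProjectiveSpecialLinearGroup (Fin 2) K)) ∧ ((∃ H : Subgroup (Matrix.ProjectiveSpecialLinearGroup (Fin 2) F), Nonempty (H ≃* Matrix.ProjGenLinGroup (Fin 2) K)) ↔ Even m) := by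
  classical
  subst hF
  obtain ⟨σ⟩ := exists_emb m hK
  refine ⟨⟨(pslMap σ).range, ⟨(MonoidHom.ofInjective (pslMap_injective σ)).symm⟩⟩, ?_, ?_⟩
  · rintro ⟨H, ⟨e⟩⟩
    by_contra hodd'
    rw [Nat.not_even_iff_odd] at hodd'
    have h1 : Nat.card H ∣ Nat.card (Matrix.ProjectiveSpecialLinearGroup (Fin 2) F) := Subgroup.card_subgroup_dvd_card H
    rw [Nat.card_congr e.toEquiv, card_PGL] at h1
    have h2 := card_PSL (F := F)
    have h3 : Nat.gcd 2 (Fintype.card F - 1) = 2 := by
      obtain ⟨c, hc⟩ := hodd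
      rw [hc]; simp
    rw [h3, ← hK] at h2
    rw [← hK] at hodd
    exact two_part (Fintype.card K) m ((Nat.odd_pow_iff (by omega)).mp hodd) hodd' Fintype.one_lt_card _ h2 h1
  · intro hm'
    exact ⟨(pglPsl σ m hm' hK hodd).range, ⟨(MonoidHom.ofInjective (pglPsl_injective σ m hm' hK hodd)).symm⟩⟩

end Cfsg.Agent.S0805
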