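import Cfsg.Statements.S0806
import Mathlib
import Mathlib
import Cfsg.Agent.LibDkO29

set_option autoImplicit false
open Cfsg

namespace Cfsg.Agent.S0806

open CfsgLib.Dk29 MulAction OnePoint

/-- Minimal index (Galois): if q ∉ {2, 3, 5, 7, 9, 11} then every proper subgroup of PSL_2(q) has index ≥ q + 1, and some subgroup has index exactly q + 1. -/
theorem result {F : Type*} [Field F] [Fintype F] {q : ℕ} (hF : Fintype.card F = q) (hq : q ∉ ({2, 3, 5, 7, 9, 11} : Finset ℕ)) : (∀ H : Subgroup (Matrix.ProjectiveSpecialLinearGroup (Fin 2) F), H ≠ ⊤ → q + 1 ≤ H.index) ∧ ∃ H : Subgroup (Matrix.ProjectiveSpecialLinearGroup (Fin 2) F), H.index = q + 1 := by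
  classical
  subst hF
  refine ⟨fun H hH => ?_, bor ∞, bor_index _⟩
  have h1 := card_le_of_proper H hH hq
  have h2 := card_PSL (F := F)
  rw [← Subgroup.card_mul_index H] at h2
  have hq1 : 1 < Fintype.card F := Fintype.one_lt_card
  have h3 : 0 < Fintype.card F * (Fintype.card F - 1) := Nat.mul_pos (by omega) (by omega)
  by_contra hlt
  push Not at hlt
  have h4 : Fintype.card F * (Fintype.card F - 1) * (Fintype.card F + 1) ≤ (Fintype.card F * (Fintype.card F - 1)) * H.index := by
    calc Fintype.card F * (Fintype.card F - 1) * (Fintype.card F + 1) = Fintype.card F * ((Fintype.card F - 1) * (Fintype.card F + 1)) := by ring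
      _ = (Nat.gcd 2 (Fintype.card F - 1) * Nat.card H) * H.index := by rw [← h2]; ring
      _ ≤ _ := Nat.mul_le_mul_right _ h1
  have h5 := Nat.le_of_mul_le_mul_left h4 h3
  omega

end Cfsg.Agent.S0806
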