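import Cfsg.Statements.S0808
import Mathlib
import Mathlib
import Cfsg.Agent.LibDkT29

set_option autoImplicit false
open Cfsg

namespace Cfsg.Agent.S0808

open CfsgLib.Dk29

/-- Conjugacy classes of four-groups in PSL_2(q), q odd: if q ≡ 3 or 5 (mod 8) all Klein four-subgroups are conjugate; if q ≡ 1 or 7 (mod 8) there are two Klein four-subgroups which are not conjugate, and every Klein four-subgroup is conjugate to one of them. -/
theorem result {F : Type*} [Field F] [Fintype F] {q : ℕ} (hF : Fintype.card F = q) (hodd : Odd q) : ((q % 8 = 3 ∨ q % 8 = 5) → ∀ V W : Subgroup (Matrix.ProjectiveSpecialLinearGroup (Fin 2) F), IsKleinFour V → IsKleinFour W → ∃ g : Matrix.ProjectiveSpecialLinearGroup (Fin 2) F, W = V.map (MulAut.conj g).toMonoidHom) ∧ ((q % 8 = 1 ∨ q % 8 = 7) → ∃ V₁ V₂ : Subgroup (Matrix.ProjectiveSpecialLinearGroup (Fin 2) F), IsKleinFour V₁ ∧ IsKleinFour V₂ ∧ (¬ ∃ g : Matrix.ProjectiveSpecialLinearGroup (Fin 2) F, V₂ = V₁.map (MulAut.conj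 g).toMonoidHom) ∧ ∀ W : Subgroup (Matrix.ProjectiveSpecialLinearGroup (Fin 2) F), IsKleinFour W → (∃ g : Matrix.ProjectiveSpecialLinearGroup (Fin 2) F, W = V₁.map (MulAut.conj g).toMonoidHom) ∨ (∃ g : Matrix.ProjectiveSpecialLinearGroup (Fin 2) F, W = V₂.map (MulAut.conj g).toMonoidHom)) := by
  classical
  subst hF
  refine ⟨fun h V W hV hW => klein_conj_all (psl_not_eight h) V W hV hW, fun h => ?_⟩
  have h4 := psl_card_klein hodd
  have hpos : 0 < Nat.card (Matrix.ProjectiveSpecialLinearGroup (Fin 2) F) := Nat.card_pos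
  have hclass : ∀ V : Subgroup (Matrix.ProjectiveSpecialLinearGroup (Fin 2) F), IsKleinFour V →
      2 * {W : Subgroup (Matrix.ProjectiveSpecialLinearGroup (Fin 2) F) | ∃ g, W = V.map (MulAut.conj g).toMonoidHom}.ncard =
        {V : Subgroup (Matrix.ProjectiveSpecialLinearGroup (Fin 2) F) | IsKleinFour V}.ncard := by
    intro V hV
    have h1 := class_card V
    rw [psl_norm_24 h V hV] at h1
    rw [ncard_klein]
    omega
  have hsub : ∀ V : Subgroup (Matrix.ProjectiveSpecialLinearGroup (Fin 2) F), IsKleinFour V →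
      {W : Subgroup (Matrix.ProjectiveSpecialLinearGroup (Fin 2) F) | ∃ g, W = V.map (MulAut.conj g).toMonoidHom} ⊆ {V : Subgroup (Matrix.ProjectiveSpecialLinearGroup (Fin 2) F) | IsKleinFour V} := by
    rintro V hV W ⟨g, rfl⟩; exact klein_conj V hV g
  obtain ⟨V₁, hV₁⟩ := exists_klein (F := F) hodd
  have hne : ({V : Subgroup (Matrix.ProjectiveSpecialLinearGroup (Fin 2) F) | IsKleinFour V} \ {W | ∃ g, W = V₁.map (MulAut.conj g).toMonoidHom}).Nonempty := by
    rw [← Set.ncard_pos (Set.toFinite _), Set.ncard_sdiff (hsub V₁ hV₁) (Set.toFinite _)]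
    have h1 := hclass V₁ hV₁
    have h2 := ncard_klein (G := Matrix.ProjectiveSpecialLinearGroup (Fin 2) F)
    omega
  obtain ⟨V₂, hV₂, hV₁₂⟩ := hne
  have hdisj : Disjoint {W : Subgroup (Matrix.ProjectiveSpecialLinearGroup (Fin 2) F) | ∃ g, W = V₁.map (MulAut.conj g).toMonoidHom}
      {W : Subgroup (Matrix.ProjectiveSpecialLinearGroup (Fin 2) F) | ∃ g, W = V₂.map (MulAut.conj g).toMonoidHom} := by
    letI := conjAct (Matrix.ProjectiveSpecialLinearGroup (Fin 2) F)
    rw [Set.disjoint_left]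
    rintro W ⟨g, hg⟩ ⟨h, hh⟩
    apply hV₁₂
    refine ⟨h⁻¹ * g, ?_⟩
    have e1 : W = g • V₁ := hg
    have e2 : W = h • V₂ := hh
    show V₂ = (h⁻¹ * g) • V₁
    rw [mul_smul, ← e1, e2, inv_smul_smul]
  refine ⟨V₁, V₂, hV₁, hV₂, hV₁₂, ?_⟩
  have hunion : {W : Subgroup (Matrix.ProjectiveSpecialLinearGroup (Fin 2) F) | ∃ g, W = V₁.map (MulAut.conj g).toMonoidHom} ∪
      {W : Subgroup (Matrix.ProjectiveSpecialLinearGroup (Fin 2) F) | ∃ g, W = V₂.map (MulAut.conj g).toMonoidHom} =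
      {V : Subgroup (Matrix.ProjectiveSpecialLinearGroup (Fin 2) F) | IsKleinFour V} := by
    apply Set.eq_of_subset_of_ncard_le (Set.union_subset (hsub V₁ hV₁) (hsub V₂ hV₂))
    rw [Set.ncard_union_eq hdisj (Set.toFinite _) (Set.toFinite _)]
    have h1 := hclass V₁ hV₁
    have h2 := hclass V₂ hV₂
    omega
  intro W hW
  have h1 : W ∈ {V : Subgroup (Matrix.ProjectiveSpecialLinearGroup (Fin 2) F) | IsKleinFour V} := hW
  rw [← hunion] at h1
  exact h1

end Cfsg.Agent.S0808
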