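import Cfsg.Statements.S0809
import Mathlib
import Mathlib
import Cfsg.Agent.LibDkU29

set_option autoImplicit false
open Cfsg

namespace Cfsg.Agent.S0809

open CfsgLib.Dk29 MulAction

theorem four {F : Type*} [Field F] [Fintype F] (hodd : Odd (Fintype.card F)) (A : Subgroup (Matrix.SpecialLinearGroup (Fin 2) F)) (hA : Nat.card A = 4) :
    ∃ a : Matrix.SpecialLinearGroup (Fin 2) F, (a : Matrix (Fin 2) (Fin 2) F) * a = -1 ∧ A = Subgroup.zpowers a := by
  have h2 := two_ne_zero_of_odd hodd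
  obtain ⟨a, haA, ha⟩ : ∃ a ∈ A, a * a ≠ 1 := by
    by_contra hcon
    push Not at hcon
    have h1 : (A : Set (Matrix.SpecialLinearGroup (Fin 2) F)) ⊆ {1, -1} := by
      intro x hx
      rcases CfsgLib.Fus21.PSL2.one_or_neg_one_of_sq h2 (hcon x hx) with h | h
      · exact Or.inl (Subtype.ext h)
      · exact Or.inr (Subtype.ext (by rw [h]; simp))
    have h3 := Set.ncard_le_ncard h1 (Set.toFinite _)
    have h4 : (A : Set (Matrix.SpecialLinearGroup (Fin 2) F)).ncard = 4 := hA
    have h5 := Set.ncard_insert_le (1 : Matrix.SpecialLinearGroup (Fin 2) F) {-1}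
    rw [Set.ncard_singleton] at h5
    omega
  have h4 : a ^ 4 = 1 := by
    have h1 : (⟨a, haA⟩ : A) ^ Nat.card A = 1 := pow_card_eq_one'
    rw [hA] at h1
    exact congrArg Subtype.val h1
  have hsq : (a * a) * (a * a) = 1 := by
    rw [← h4, ← pow_two, ← pow_two, ← pow_mul]
  refine ⟨a, ?_, ?_⟩
  · rcases CfsgLib.Fus21.PSL2.one_or_neg_one_of_sq h2 hsq with h | h
    · exact absurd (Subtype.ext h) ha
    · exact h
  · symm
    apply Subgroup.eq_of_le_of_card_ge
    · rw [Subgroup.zpowers_le]; exact haA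
    · rw [Nat.card_zpowers, hA]
      have h5 : orderOf a = 2 ^ (1 + 1) := orderOf_eq_prime_pow (p := 2) (by rw [pow_one, pow_two]; exact ha) h4
      omega

/-- In SL_2(q), q odd: any two subgroups of order 4 are conjugate, and the normaliser of a subgroup of order 4 has order 2(q − 1) if q ≡ 1 (mod 4) and 2(q + 1) if q ≡ 3 (mod 4); consequently all involutions of PSL_2(q) are conjugate. -/
theorem result {F : Type*} [Field F] [Fintype F] {q : ℕ} (hF : Fintype.card F = q) (hodd : Odd q) (A : Subgroup (Matrix.SpecialLinearGroup (Fin 2) F)) (hA : Nat.card A = 4) : (∀ B : Subgroup (Matrix.SpecialLinearGroup (Fin 2) F), Nat.card B = 4 → ∃ g : Matrix.SpecialLinearGroup (Fin 2) F, B = A.map (MulAut.conj g).toMonoidHom) ∧ (q % 4 = 1 → Nat.card ↥(Subgroup.normalizer (A : Set (Matrix.SpecialLinearGroup (Fin 2) F))) = 2 * (q - 1)) ∧ (q % 4 = 3 → Nat.card ↥(Subgroup.normalizer (A : Set (Matrix.SpecialLinearGroup (Fin 2) F))) = 2 * (q + 1)) ∧ (∀ x y : Matrix.ProjectiveSpecialLinearGroup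 (Fin 2) F, orderOf x = 2 → orderOf y = 2 → IsConj x y) := by
  classical
  subst hF
  have h2 := two_ne_zero_of_odd hodd
  obtain ⟨a, ha, rfl⟩ := four hodd A hA
  obtain ⟨h, hh⟩ := CfsgLib.Fus21.PSL2.conj_w1 (Nat.odd_iff.mp hodd) h2 (CfsgLib.Fus21.PSL2.trace_zero_of_sq ha)
  have hkey : Nat.card ↥(Subgroup.normalizer ((Subgroup.zpowers a : Subgroup _) : Set (Matrix.SpecialLinearGroup (Fin 2) F))) =
      2 * Nat.card (Subgroup.centralizer {CfsgLib.Fus21.PSL2.pr F a}) := by
    have h1 : Subgroup.normalizer ((Subgroup.zpowers a : Subgroup _) : Set (Matrix.SpecialLinearGroup (Fin 2) F)) =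
        (Subgroup.centralizer {CfsgLib.Fus21.PSL2.pr F a}).comap (CfsgLib.Fus21.PSL2.pr F) := by
      ext g
      rw [← conj_map_eq_iff, Subgroup.mem_comap, Subgroup.mem_centralizer_singleton_iff]
      have hmem : ∀ x, x ∈ Subgroup.zpowers a → CfsgLib.Fus21.PSL2.pr F x = 1 ∨ CfsgLib.Fus21.PSL2.pr F x = CfsgLib.Fus21.PSL2.pr F a := by
        rintro _ ⟨k, rfl⟩
        have hinv := CfsgLib.Fus21.PSL2.involution_of_sq h2 ha
        have hpow := pow_orderOf_eq_one (CfsgLib.Fus21.PSL2.pr F a)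
        rw [hinv] at hpow
        have hpow' : (CfsgLib.Fus21.PSL2.pr F a) ^ (2 : ℤ) = 1 := by
          rw [← hpow]; exact zpow_ofNat _ 2
        rcases Int.even_or_odd' k with ⟨j, rfl | rfl⟩
        · left
          show CfsgLib.Fus21.PSL2.pr F (a ^ (2 * j)) = 1
          rw [map_zpow, zpow_mul, hpow', one_zpow]
        · right
          show CfsgLib.Fus21.PSL2.pr F (a ^ (2 * j + 1)) = _
          rw [map_zpow, _root_.zpow_add, zpow_mul, hpow', one_zpow, one_mul, zpow_one]
      constructor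
      · intro hg
        have h3 : g * a * g⁻¹ ∈ Subgroup.zpowers a := by
          rw [← hg]; exact ⟨a, Subgroup.mem_zpowers a, rfl⟩
        rcases hmem _ h3 with h4 | h4
        · exfalso
          have hinv := CfsgLib.Fus21.PSL2.involution_of_sq h2 ha
          rw [map_mul, map_mul, map_inv, mul_inv_eq_one, mul_eq_left] at h4
          rw [h4, orderOf_one] at hinv
          omega
        · rw [map_mul, map_mul, map_inv, mul_inv_eq_iff_eq_mul] at h4
          exact h4
      · intro hg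
        apply Subgroup.eq_of_le_of_card_ge
        · rw [MonoidHom.map_zpowers, Subgroup.zpowers_le]
          show g * a * g⁻¹ ∈ Subgroup.zpowers a
          have h3 : CfsgLib.Fus21.PSL2.pr F (g * a * g⁻¹ * a⁻¹) = 1 := by
            rw [map_mul, map_mul, map_mul, map_inv, map_inv, hg, mul_inv_cancel_right, mul_inv_cancel]
          rcases CfsgLib.Fus21.PSL2.pr_eq_one.mp h3 with h4 | h4
          · have h5 : g * a * g⁻¹ * a⁻¹ = 1 := Subtype.ext h4
            rw [mul_inv_eq_one] at h5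
            rw [h5]; exact Subgroup.mem_zpowers a
          · have h5 : g * a * g⁻¹ * a⁻¹ = a * a := Subtype.ext (h4.trans ha.symm)
            have h6 : g * a * g⁻¹ = a * a * a := by rw [← h5]; group
            rw [h6]
            exact mul_mem (mul_mem (Subgroup.mem_zpowers a) (Subgroup.mem_zpowers a)) (Subgroup.mem_zpowers a)
        · exact (Nat.card_congr ((Subgroup.zpowers a).equivMapOfInjective _ (MulAut.conj g).injective).toEquiv).le
    rw [h1]
    have h3 := Subgroup.card_mul_index ((Subgroup.centralizer {CfsgLib.Fus21.PSL2.pr F a}).comap (CfsgLib.Fus21.PSL2.pr F))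
    rw [Subgroup.index_comap_of_surjective _ CfsgLib.Fus21.PSL2.pr_surj] at h3
    have h4 := Subgroup.card_mul_index (Subgroup.centralizer {CfsgLib.Fus21.PSL2.pr F a})
    have h5 : Nat.card (Matrix.SpecialLinearGroup (Fin 2) F) = 2 * Nat.card (Matrix.ProjectiveSpecialLinearGroup (Fin 2) F) := by
      have h6 := card_PSL (F := F)
      have h7 : Nat.gcd 2 (Fintype.card F - 1) = 2 := by obtain ⟨c, hc⟩ := hodd; rw [hc]; simp
      rw [h7] at h6
      rw [h6, Cfsg.Agent.H22.card_SL2]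
    rw [h5, ← h4, ← mul_assoc] at h3
    have h8 : (Subgroup.centralizer {CfsgLib.Fus21.PSL2.pr F a}).index ≠ 0 := Subgroup.index_ne_zero_of_finite
    exact Nat.eq_of_mul_eq_mul_right (Nat.pos_of_ne_zero h8) h3
  have hinv := CfsgLib.Fus21.PSL2.involution_of_sq h2 ha
  have ha1 : CfsgLib.Fus21.PSL2.pr F a ≠ 1 := by intro h; rw [h, orderOf_one] at hinv; omega
  have haa : CfsgLib.Fus21.PSL2.pr F a * CfsgLib.Fus21.PSL2.pr F a = 1 := by
    have hpow := pow_orderOf_eq_one (CfsgLib.Fus21.PSL2.pr F a)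
    rw [hinv] at hpow
    rw [← pow_two]; exact hpow
  obtain ⟨m, -, -, hmq, hdata⟩ := inv_data (F := F) hodd
  have hC := (hdata _ ha1 haa).1
  rw [hC] at hkey
  refine ⟨?_, ?_, ?_, ?_⟩
  · intro B hB
    obtain ⟨b, hb, rfl⟩ := four hodd B hB
    obtain ⟨k, hk⟩ := CfsgLib.Fus21.PSL2.conj_w1 (Nat.odd_iff.mp hodd) h2 (CfsgLib.Fus21.PSL2.trace_zero_of_sq hb)
    refine ⟨k * h⁻¹, ?_⟩
    rw [MonoidHom.map_zpowers]
    congr 1
    show b = k * h⁻¹ * a * (k * h⁻¹)⁻¹
    have h3 : a = h * CfsgLib.Fus21.PSL2.w1 * h⁻¹ := by rw [← hh]; group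
    have h4 : b = k * CfsgLib.Fus21.PSL2.w1 * k⁻¹ := by rw [← hk]; group
    rw [h3, h4]; group
  · intro hq
    rw [hkey]
    rcases hmq with ⟨h3, h4⟩ | ⟨h3, h4⟩
    · rw [h4]
    · omega
  · intro hq
    rw [hkey]
    rcases hmq with ⟨h3, h4⟩ | ⟨h3, h4⟩
    · omega
    · rw [h4]
  · intro x y hx hy
    rw [isConj_iff]
    exact CfsgLib.Fus21.PSL2.involutions_conj (Nat.odd_iff.mp hodd) h2 hx hy

end Cfsg.Agent.S0809
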