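import Cfsg.Statements.S0812
import Mathlib
import Mathlib
import Cfsg.Agent.LibDkN29

set_option autoImplicit false
open Cfsg

namespace Cfsg.Agent.S0812

open CfsgLib.Dk29 MulAction OnePoint

/-- For q ∉ {2, 3, 5, 7, 9, 11}, PSL_2(q) has a maximal subgroup isomorphic to the dihedral group of order 2(q − 1)/d, d = gcd(2, q − 1). -/
theorem result {F : Type*} [Field F] [Fintype F] {q : ℕ} (hF : Fintype.card F = q) (hq : q ∉ ({2, 3, 5, 7, 9, 11} : Finset ℕ)) : ∃ H : Subgroup (Matrix.ProjectiveSpecialLinearGroup (Fin 2) F), IsCoatom H ∧ Nonempty (H ≃* DihedralGroup ((q - 1) / Nat.gcd 2 (q - 1))) := by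
  classical
  subst hF
  have hq1 : 1 < Fintype.card F := Fintype.one_lt_card
  have hc := card_PSL (F := F)
  obtain ⟨T, N, hT, hd⟩ := split_torus (Matrix.ProjectiveSpecialLinearGroup.toPGL (n := Fin 2) (R := F)) Matrix.ProjectiveSpecialLinearGroup.toPGL_injective toPGL_range.ge _ hc
  have hq2 : Fintype.card F ≠ 2 ∧ Fintype.card F ≠ 3 ∧ Fintype.card F ≠ 5 ∧ Fintype.card F ≠ 7 ∧ Fintype.card F ≠ 9 ∧ Fintype.card F ≠ 11 := by
    simp only [Finset.mem_insert, Finset.mem_singleton, not_or] at hq
    exact hq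
  have hm : 2 ≤ (Fintype.card F - 1) / Nat.gcd 2 (Fintype.card F - 1) := by
    rcases gcd_cases _ hq1 with ⟨hd1, hpar⟩ | ⟨hd1, hpar⟩
    · rw [hd1]; obtain ⟨c, hc'⟩ := hpar; omega
    · rw [hd1]; obtain ⟨c, hc'⟩ := hpar; omega
  have hT := hT hm
  refine ⟨N, ?_, hT.dih hm⟩
  generalize hcP : Nat.card (Matrix.ProjectiveSpecialLinearGroup (Fin 2) F) = C at hc
  have hpow : ∀ Q s, 4 ≤ Q → 2 ≤ s → Q ^ s = Fintype.card F → 4 * Q ≤ Fintype.card F := by
    intro Q s hQ hs h
    rw [← h]
    calc 4 * Q ≤ Q * Q := Nat.mul_le_mul_right _ hQ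
      _ = Q ^ 2 := by ring
      _ ≤ Q ^ s := Nat.pow_le_pow_right (by omega) hs
  have hval : ∀ q, Fintype.card F = q → Nat.gcd 2 (q - 1) * C = q * ((q - 1) * (q + 1)) := by
    rintro q rfl; exact hc
  rcases gcd_cases _ hq1 with ⟨hd1, hpar⟩ | ⟨hd1, hpar⟩
  · have hm4 : 4 ≤ Fintype.card F := by obtain ⟨c, hc'⟩ := hpar; omega
    rw [hd1] at hT hm
    apply torus_max T N _ hT hm
    · rw [hcP]
      rw [hd1] at hc
      rw [Nat.div_one]
      have e1 : 3 * (Fintype.card F + 1) ≤ Fintype.card F * ((Fintype.card F - 1) * (Fintype.card F + 1)) := by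
        rw [← mul_assoc]
        apply Nat.mul_le_mul_right
        calc 3 ≤ 4 * 3 := by norm_num
          _ ≤ _ := Nat.mul_le_mul hm4 (by omega)
      omega
    · rw [hd1]; omega
    · intro n hn hmn
      rw [hd1, Nat.div_one, Nat.div_one] at hn
      rw [Nat.div_one] at hmn ⊢
      rcases hn with h | h
      · exact Nat.dvd_antisymm h hmn
      · exfalso
        have e1 : Fintype.card F - 1 ∣ 2 := by
          have e2 := (Nat.dvd_add_right (c := 2) (dvd_refl (Fintype.card F - 1))).mp (by
            have : Fintype.card F - 1 + 2 = Fintype.card F + 1 := by omega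
            rw [this]; exact hmn.trans h)
          exact e2
        have := Nat.le_of_dvd (by norm_num) e1; omega
    · intro h; obtain ⟨c, hc'⟩ := hpar; omega
    · intro h
      rw [Nat.div_one] at h
      have h5 : Fintype.card F = 4 := by obtain ⟨c, hc'⟩ := hpar; omega
      have := hval 4 h5
      norm_num at this
      omega
    · intro h
      rw [Nat.div_one] at h
      have h5 : Fintype.card F = 4 ∨ Fintype.card F = 6 := by obtain ⟨c, hc'⟩ := hpar; omega
      rcases h5 with h5 | h5
      · have := hval 4 h5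
        norm_num at this
        left; omega
      · have := hval 6 h5
        norm_num at this
        right; omega
    · intro Q s hQ hs h
      have := hpow Q s hQ hs h
      omega
  · rw [hd1] at hT hm
    obtain ⟨c, hc'⟩ := hpar
    have hmc : (Fintype.card F + 1) / 2 = c + 1 := by omega
    have hmc' : (Fintype.card F - 1) / 2 = c := by omega
    rw [hmc'] at hT hm
    apply torus_max T N _ hT hm
    · rw [hcP]
      rw [hd1, hc'] at hc
      rw [Nat.add_sub_cancel] at hc
      have e1 : 3 * (2 * (c + 1)) ≤ (2 * c + 1) * (c * (2 * (c + 1))) := by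
        rw [← mul_assoc (2 * c + 1)]
        apply Nat.mul_le_mul_right
        calc 3 = 3 * 1 := by norm_num
          _ ≤ _ := Nat.mul_le_mul (by omega) (by omega)
      have e2 : (2 * c + 1) * (2 * c * (2 * c + 1 + 1)) = 2 * ((2 * c + 1) * (c * (2 * (c + 1)))) := by ring
      omega
    · rw [hd1]; omega
    · intro n hn hmn
      rw [hd1, hmc, hmc'] at hn
      rcases hn with h | h
      · exact Nat.dvd_antisymm h hmn
      · exfalso
        have e1 : c ∣ 1 := (Nat.dvd_add_right (c := 1) (dvd_refl c)).mp (hmn.trans h)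
        have := Nat.le_of_dvd (by norm_num) e1; omega
    · intro h
      omega
    · intro h
      omega
    · intro h
      omega
    · intro Q s hQ hs h
      have := hpow Q s hQ hs h
      omega

end Cfsg.Agent.S0812
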