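import Cfsg.Agent.LibAutPSL27i
-- Template for statement S0813 (row 813; see /opt/grader/pristine/manifest.json for weights).
-- Copy to Cfsg/Agent/S0813.lean and replace the sorry. The statement below is byte-identical to the frozen
-- statement Cfsg.CfsgFrozen.S0813 (Cfsg/Statements/S0813.lean; the theorem Cfsg.card_mulaut_psl);
-- the grader kernel-checks Cfsg.Agent.S0813.result against that frozen type. Keep the theorem IN THIS FILE
-- (a `result` declared elsewhere and merely imported here is not credited); helpers may live anywhere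
-- under Cfsg/Agent/.
import Cfsg.Statements.S0813
-- import your own Cfsg.Agent.* helpers here

set_option autoImplicit false
open Cfsg

namespace Cfsg.Agent.S0813

open CfsgLib.AutPSL27 in
theorem aux {F : Type*} [Field F] [Fintype F] {n : ℕ} (p : ℕ) [Fact p.Prime] [CharP F p] (hn : 2 ≤ n)
    {B : Type*} [Group B] (χ : MulAut (Matrix.ProjectiveSpecialLinearGroup (Fin n) F) →* B)
    (hs : Function.Surjective χ) (hk : ∀ α, (∃ g : GL (Fin n) F, α = lft (cj g)) ↔ χ α = 1) :
    Nat.card (MulAut (Matrix.ProjectiveSpecialLinearGroup (Fin n) F)) = Nat.card B * Nat.card (Matrix.ProjGenLinGroup (Fin n) F) := by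
  have h1 : χ.ker = ((lft (G := Matrix.SpecialLinearGroup (Fin n) F)).comp cj).range := by
    ext α
    rw [MonoidHom.mem_ker, ← hk]
    constructor
    · rintro ⟨g, rfl⟩
      exact ⟨g, rfl⟩
    · rintro ⟨g, rfl⟩
      exact ⟨g, rfl⟩
  rw [← Subgroup.card_mul_index χ.ker, Subgroup.index_ker, MonoidHom.range_eq_top.2 hs, Subgroup.card_top, mul_comm, h1]
  congr 1
  rw [← Nat.card_congr (QuotientGroup.quotientKerEquivRange _).toEquiv]
  have h2 := cjP_ker (F := F) (n := n) p hn
  exact Nat.card_congr (QuotientGroup.quotientMulEquivOfEq h2).toEquiv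

/-- |Aut(PSL_n(q))|, q = p^f: for n ≥ 3 it is 2 f |PGL_n(q)|, and for n = 2 (q ≥ 4) it is f |PGL_2(q)|. -/
theorem result {F : Type*} [Field F] [Fintype F] (p f : ℕ) [Fact p.Prime] (hf : 1 ≤ f) (hF : Fintype.card F = p ^ f) (n : ℕ) (hn : 2 ≤ n) (h2 : n = 2 → 4 ≤ p ^ f) : Nat.card (MulAut (Matrix.ProjectiveSpecialLinearGroup (Fin n) F)) = (if n = 2 then 1 else 2) * f * Nat.card (Matrix.ProjGenLinGroup (Fin n) F) := by
  haveI := CfsgLib.AutPSL27.charP_of_card hF
  obtain ⟨hc1, hc2⟩ := CfsgLib.AutPSL27.ringAut_cyclic (F := F) p f (by rw [Nat.card_eq_fintype_card, hF])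
  by_cases hn2 : n = 2
  · subst hn2
    obtain ⟨χ, hχ⟩ := CfsgLib.AutPSL27.exists_chi2 (F := F) p
    rw [if_pos rfl, one_mul, aux p le_rfl χ ?_ ?_, hc2]
    · intro σ
      exact ⟨_, (hχ _ σ).1 ⟨1, rfl⟩⟩
    · intro α
      rw [← hχ]
      have : CfsgLib.AutPSL27.fl (1 : F ≃+* F) = (1 : MulAut (Matrix.SpecialLinearGroup (Fin 2) F)) := map_one CfsgLib.AutPSL27.fl
      simp only [this, mul_one]
  · rw [if_neg hn2]
    obtain ⟨χ, hχ⟩ := CfsgLib.AutPSL27.exists_chi3 (F := F) (n := n) p (by omega)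
    rw [aux p hn χ ?_ ?_, Nat.card_prod, hc2]
    · have : Nat.card (Multiplicative (ZMod 2)) = 2 := Nat.card_zmod 2
      rw [this, mul_comm f 2]
    · rintro ⟨σ, ε⟩
      obtain ⟨k, hk⟩ : ∃ k : ℕ, Multiplicative.ofAdd ((k : ℕ) : ZMod 2) = ε := by
        refine ⟨(Multiplicative.toAdd ε).val, ?_⟩
        rw [ZMod.natCast_val, ZMod.cast_id]
        rfl
      exact ⟨_, (hχ _ (σ, ε)).1 ⟨1, k, rfl, hk⟩⟩
    · intro α
      rw [← hχ]
      have : CfsgLib.AutPSL27.fl (1 : F ≃+* F) = (1 : MulAut (Matrix.SpecialLinearGroup (Fin n) F)) := map_one CfsgLib.AutPSL27.fl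
      constructor
      · rintro ⟨g, rfl⟩
        exact ⟨g, 0, by rw [Prod.fst_one, this, pow_zero, mul_one, mul_one], by simp⟩
      · rintro ⟨g, k, rfl, hk⟩
        refine ⟨g, ?_⟩
        rw [Prod.snd_one] at hk
        have hk' : ((k : ℕ) : ZMod 2) = 0 := hk
        rw [CfsgLib.AutPSL27.it_pow_even hk', Prod.fst_one, this, mul_one, mul_one]

end Cfsg.Agent.S0813
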