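import Cfsg.Agent.S2604
import Cfsg.Agent.LibCardAut27
-- Template for statement S0816 (row 816; see /opt/grader/pristine/manifest.json for weights).
-- Copy to Cfsg/Agent/S0816.lean and replace the sorry. The statement below is byte-identical to the frozen
-- statement Cfsg.CfsgFrozen.S0816 (Cfsg/Statements/S0816.lean; the theorem Cfsg.card_mulaut_pomega_odd_dim);
-- the grader kernel-checks Cfsg.Agent.S0816.result against that frozen type. Keep the theorem IN THIS FILE
-- (a `result` declared elsewhere and merely imported here is not credited); helpers may live anywhere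
-- under Cfsg/Agent/.
import Cfsg.Statements.S0816
-- import your own Cfsg.Agent.* helpers here

set_option autoImplicit false
open Cfsg

namespace Cfsg.Agent.S0816

open Cfsg.Agent.H22 CfsgLib.RhoO27 CfsgLib.AutO27 in
theorem aux {F : Type*} [Field F] [Fintype F] (p f : ℕ) [Fact p.Prime] (hf : 1 ≤ f) (hF : Fintype.card F = p ^ f) (hodd : Odd p) (m : ℕ) (hm : 3 ≤ m)
    (q : (Unit ⊕ (Fin m ⊕ Fin m) → F) → F) (hq : q = ⇑(Cfsg.Agent.H22.qOdd m F)) (hout : Nonempty (Cfsg.Out (Cfsg.POmega F q) ≃* Multiplicative (ZMod 2 × ZMod f))) :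
    Nat.card (MulAut (Cfsg.POmega F q)) = 2 * f * Nat.card (Cfsg.POmega F q) := by
  subst hq
  have h2 : (2 : F) ≠ 0 := two_ne_zero_of_odd (by rw [hF]; exact hodd.pow)
  obtain ⟨e, ff, u, hG⟩ := good_qOdd (F := F) hm h2
  rw [card_mulAut_pomega hG.gd]
  congr 1
  obtain ⟨e1⟩ := hout
  rw [Nat.card_congr e1.toEquiv, Nat.card_congr (Multiplicative.toAdd), Nat.card_prod, Nat.card_zmod, Nat.card_zmod]


/-- |Aut(PΩ_(2m+1)(q))| = 2 f · |PΩ_(2m+1)(q)| for q = p^f odd and m ≥ 3 (for the form quadFormOdd). -/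
theorem result {F : Type*} [Field F] [Fintype F] (p f : ℕ) [Fact p.Prime] (hf : 1 ≤ f) (hF : Fintype.card F = p ^ f) (hodd : Odd p) (m : ℕ) (hm : 3 ≤ m) : Nat.card (MulAut (Cfsg.POmega F (Cfsg.quadFormOdd m F))) = 2 * f * Nat.card (Cfsg.POmega F (Cfsg.quadFormOdd m F)) := by
  have hp : p ≠ 2 := by rintro rfl; exact absurd hodd (by decide)
  exact aux p f hf hF hodd m hm _ (Cfsg.Agent.H22.coe_qOdd m).symm (Cfsg.Agent.S2604.result hf hF hp hm)

end Cfsg.Agent.S0816
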