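import Cfsg.Agent.LibMin27b
-- Template for statement S2605 (row 2605; see /opt/grader/pristine/manifest.json for weights).
-- Copy to Cfsg/Agent/S2605.lean and replace the sorry. The statement below is byte-identical to the frozen
-- statement Cfsg.CfsgFrozen.S2605 (Cfsg/Statements/S2605.lean; the theorem Cfsg.cg16_out_pomega_minus_char_two);
-- the grader kernel-checks Cfsg.Agent.S2605.result against that frozen type. Keep the theorem IN THIS FILE
-- (a `result` declared elsewhere and merely imported here is not credited); helpers may live anywhere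
-- under Cfsg/Agent/.
import Cfsg.Statements.S2605
-- import your own Cfsg.Agent.* helpers here

set_option autoImplicit false
open Cfsg

namespace Cfsg.Agent.S2605

set_option maxHeartbeats 1000000 in
open Cfsg.Agent.H22 CfsgLib.RhoO27 CfsgLib.AutO27 CfsgLib.Even27 CfsgLib.Min27 CfsgLib.AutPSL27 in
theorem aux {F : Type*} [Field F] [Fintype F] {f m : ℕ} (hf : 1 ≤ f) (hF : Fintype.card F = 2 ^ f) (hm : 3 ≤ m) (a b : F)
    (hab : ∀ z₁ z₂ : F, z₁ ^ 2 + a * z₁ * z₂ + b * z₂ ^ 2 = 0 → z₁ = 0 ∧ z₂ = 0) (q : ((Fin m ⊕ Fin m) ⊕ Fin 2 → F) → F) (hq : q = ⇑(qMinus m F a b)) :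
    IsCyclic (Cfsg.Out (Cfsg.POmega F q)) ∧ Nat.card (Cfsg.Out (Cfsg.POmega F q)) = 2 * f := by
  subst hq
  haveI : Fact (Nat.Prime 2) := ⟨Nat.prime_two⟩
  haveI : CharP F 2 := charP_of_card_eq_prime_pow hF
  obtain ⟨e, ff, u, hG⟩ := good_qMinus (F := F) hm a b hab
  obtain ⟨K, _, _, hK2, θ, hθ⟩ := exists_adjoin hab
  haveI : Module.Finite F K := Module.finite_of_finrank_pos (by rw [hK2]; norm_num)
  haveI : Finite K := Module.finite_of_finite F
  letI := Fintype.ofFinite K
  have hK : Fintype.card K = Fintype.card F ^ 2 := by rw [Module.card_eq_pow_finrank (K := F) (V := K), hK2]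
  obtain ⟨χ, hχ⟩ := exists_chi (m := m) hK hab hθ
  have hcK := ringAut_cyclic (F := K) 2 (f * 2) (by rw [Nat.card_eq_fintype_card, hK, hF, ← pow_mul])
  have e1 : (K ≃+* K) ≃* Cfsg.Out (Cfsg.POmega F ⇑(qMinus m F a b)) :=
    MulEquiv.ofBijective ((pj (qMinus m F a b)).comp χ) ⟨iota_inj hK hab hθ hχ hG, iota_surj_two hK hab hθ hχ hG⟩
  haveI := hcK.1
  refine ⟨isCyclic_of_surjective e1 e1.surjective, ?_⟩
  rw [← Nat.card_congr e1.toEquiv, hcK.2, mul_comm]


/-- Outer automorphism group of PΩ⁻_2m(q), m ≥ 4, q = 2^f: cyclic of order 2f, generated by a semilinear map inducing the Frobenius automorphism of the field (its f-th power is a graph automorphism, an orthogonal transvection). -/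
theorem result {F : Type*} [Field F] [Fintype F] {f m : ℕ} (hf : 1 ≤ f) (hF : Fintype.card F = 2 ^ f) (hm : 4 ≤ m) (a b : F) (hab : ∀ z₁ z₂ : F, z₁ ^ 2 + a * z₁ * z₂ + b * z₂ ^ 2 = 0 → z₁ = 0 ∧ z₂ = 0) : IsCyclic (Cfsg.Out (Cfsg.POmega F (Cfsg.quadFormMinus (m - 1) F a b))) ∧ Nat.card (Cfsg.Out (Cfsg.POmega F (Cfsg.quadFormMinus (m - 1) F a b))) = 2 * f := by
  exact aux hf hF (by omega) a b hab _ (Cfsg.Agent.H22.coe_qMinus (m - 1) a b).symm

end Cfsg.Agent.S2605
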