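import Cfsg.Agent.S2606
import Cfsg.Agent.S2605
import Cfsg.Agent.LibCardAut27
-- Template for statement S0818 (row 818; see /opt/grader/pristine/manifest.json for weights).
-- Copy to Cfsg/Agent/S0818.lean and replace the sorry. The statement below is byte-identical to the frozen
-- statement Cfsg.CfsgFrozen.S0818 (Cfsg/Statements/S0818.lean; the theorem Cfsg.card_mulaut_pomega_minus);
-- the grader kernel-checks Cfsg.Agent.S0818.result against that frozen type. Keep the theorem IN THIS FILE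
-- (a `result` declared elsewhere and merely imported here is not credited); helpers may live anywhere
-- under Cfsg/Agent/.
import Cfsg.Statements.S0818
-- import your own Cfsg.Agent.* helpers here

set_option autoImplicit false
open Cfsg

namespace Cfsg.Agent.S0818

set_option maxHeartbeats 1000000 in
open Cfsg.Agent.H22 CfsgLib.RhoO27 CfsgLib.AutO27 in
theorem aux {F : Type*} [Field F] [Fintype F] (m : ℕ) (hm : 3 ≤ m) (a b : F)
    (hab : ∀ z₁ z₂ : F, z₁ ^ 2 + a * z₁ * z₂ + b * z₂ ^ 2 = 0 → z₁ = 0 ∧ z₂ = 0) (q : ((Fin m ⊕ Fin m) ⊕ Fin 2 → F) → F) (hq : q = ⇑(qMinus m F a b)) :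
    Nat.card (MulAut (Cfsg.POmega F q)) = Nat.card (Cfsg.Out (Cfsg.POmega F q)) * Nat.card (Cfsg.POmega F q) := by
  subst hq
  obtain ⟨e, ff, u, hG⟩ := good_qMinus (F := F) hm a b hab
  exact card_mulAut_pomega hG.gd


/-- |Aut(PΩ⁻_2m(q))| for q = p^f, m ≥ 4 (form quadFormMinus (m−1) with anisotropic binary part): |PΩ⁻_2m(q)| times f, times 2 if p = 2, and times 4 or 8 if p is odd according as m(q−1)/2 is even or odd. -/
theorem result {F : Type*} [Field F] [Fintype F] (p f : ℕ) [Fact p.Prime] (hf : 1 ≤ f) (hF : Fintype.card F = p ^ f) (m : ℕ) (hm : 4 ≤ m) (a b : F) (hab : ∀ z₁ z₂ : F, z₁ ^ 2 + a * z₁ * z₂ + b * z₂ ^ 2 = 0 → z₁ = 0 ∧ z₂ = 0) : Nat.card (MulAut (Cfsg.POmega F (Cfsg.quadFormMinus (m - 1) F a b))) = (if p = 2 then 2 else (if Even (m * (p ^ f - 1) / 2) then 4 else 8)) * f * Nat.card (Cfsg.POmega F (Cfsg.quadFormMinus (m - 1) F a b)) := by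
  have hp2 := (Fact.out : p.Prime).two_le
  rw [aux (m - 1) (by omega) a b hab _ (Cfsg.Agent.H22.coe_qMinus (m - 1) a b).symm]
  congr 1
  by_cases hp : p = 2
  · subst hp
    rw [if_pos rfl]
    exact (Cfsg.Agent.S2605.result hf hF hm a b hab).2
  · rw [if_neg hp]
    have h := Cfsg.Agent.S2606.result hf hF hp hm a b hab
    have hodd : Odd p := (Fact.out : p.Prime).odd_of_ne_two hp
    have hq : Odd (p ^ f) := hodd.pow
    have key : Even (m * (p ^ f - 1) / 2) ↔ ¬ (p ^ f % 4 = 3 ∧ Odd m) := by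
      obtain ⟨k, hk⟩ := hq
      rw [hk]
      have e1 : m * (2 * k + 1 - 1) / 2 = m * k := by
        rw [Nat.add_sub_cancel, ← mul_assoc, mul_comm m 2, mul_assoc]
        exact Nat.mul_div_cancel_left _ (by norm_num)
      rw [e1, Nat.even_mul, ← Nat.not_even_iff_odd]
      have e2 : (2 * k + 1) % 4 = 3 ↔ ¬ Even k := by
        rw [Nat.even_iff]; omega
      rw [e2]
      tauto
    by_cases hc : p ^ f % 4 = 3 ∧ Odd m
    · rw [if_pos hc] at h
      obtain ⟨e1⟩ := h
      rw [if_neg (fun h' => (key.1 h') hc), Nat.card_congr e1.toEquiv, Nat.card_prod, DihedralGroup.nat_card, Nat.card_congr (Multiplicative.toAdd), Nat.card_zmod]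
    · rw [if_neg hc] at h
      obtain ⟨e1⟩ := h
      rw [if_pos (key.2 hc), Nat.card_congr e1.toEquiv, Nat.card_congr (Multiplicative.toAdd), Nat.card_prod, Nat.card_zmod, Nat.card_zmod]
      ring

end Cfsg.Agent.S0818
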