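import Cfsg.Statements.S0823
import Cfsg.Agent.LibH22Perm2

set_option autoImplicit false
open Cfsg

namespace Cfsg.Agent.S0823
open Cfsg.Agent.H22 Module

section
variable {F : Type*} [Field F] {N : ℕ}

/-- sum zero -/
def WS (F : Type*) [Field F] (N : ℕ) : Submodule F (Fin N → F) where
  carrier := {v | ∑ i, v i = 0}
  add_mem' := by
    intro u v h1 h3
    show ∑ i, (u + v) i = 0
    rw [Set.mem_setOf_eq] at h1 h3
    simp only [Pi.add_apply, Finset.sum_add_distrib, h1, h3, add_zero]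
  zero_mem' := by
    show ∑ i, (0 : Fin N → F) i = 0
    simp
  smul_mem' := by
    intro c v h1
    show ∑ i, (c • v) i = 0
    rw [Set.mem_setOf_eq] at h1
    simp only [Pi.smul_apply, ← Finset.smul_sum, h1, smul_zero]

lemma mem_WS {v : Fin N → F} : v ∈ WS F N ↔ ∑ i, v i = 0 := Iff.rfl

def permLS : Equiv.Perm (Fin N) →* Module.End F (WS F N) where
  toFun π := { toFun := fun v => ⟨fun i => v.1 (π.symm i), by rw [mem_WS, Equiv.sum_comp π.symm v.1]; exact v.2⟩
               map_add' := fun u v => rfl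
               map_smul' := fun c v => rfl }
  map_one' := rfl
  map_mul' π σ := rfl

noncomputable def permES : Equiv.Perm (Fin N) →* (WS F N ≃ₗ[F] WS F N) :=
  (LinearMap.GeneralLinearGroup.generalLinearEquiv F (WS F N)).toMonoidHom.comp (permLS (F := F) (N := N)).toHomUnits

lemma permES_apply (π : Equiv.Perm (Fin N)) (v : WS F N) (i : Fin N) : (permES π v).1 i = v.1 (π.symm i) := rfl

lemma permES_injective (h3 : 3 ≤ N) : Function.Injective (permES (F := F) (N := N)) := by
  classical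
  rw [injective_iff_map_eq_one]
  intro π hπ
  by_contra hne
  obtain ⟨i, hi⟩ : ∃ i, π i ≠ i := by
    by_contra hcon
    push Not at hcon
    apply hne
    ext k
    rw [hcon k]; rfl
  obtain ⟨j, hj⟩ : ∃ j : Fin N, j ∉ ({i, π i} : Finset (Fin N)) := by
    by_contra hcon
    push Not at hcon
    have h1 : (Finset.univ : Finset (Fin N)) ⊆ {i, π i} := fun x _ => hcon x
    have h2 := Finset.card_le_card h1
    rw [Finset.card_univ, Fintype.card_fin] at h2
    have h3 : ({i, π i} : Finset (Fin N)).card ≤ 2 := Finset.card_le_two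
    omega
  simp only [Finset.mem_insert, Finset.mem_singleton, not_or] at hj
  obtain ⟨v, hv⟩ : ∃ v : WS F N, v.1 = (Pi.single i 1 - Pi.single j 1 : Fin N → F) := by
    refine ⟨⟨_, ?_⟩, rfl⟩
    rw [mem_WS]
    simp only [Pi.sub_apply, Finset.sum_sub_distrib]
    rw [Finset.sum_pi_single', Finset.sum_pi_single', if_pos (Finset.mem_univ _), if_pos (Finset.mem_univ _), sub_self]
  have e1 : v.1 (π.symm (π i)) = v.1 (π i) := by
    rw [← permES_apply π v (π i), hπ]; rfl
  rw [Equiv.symm_apply_apply, hv] at e1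
  simp only [Pi.sub_apply] at e1
  rw [Pi.single_eq_same, Pi.single_eq_of_ne (Ne.symm hj.1), Pi.single_eq_of_ne hi, Pi.single_eq_of_ne (Ne.symm hj.2)] at e1
  have : (1 : F) = 0 := by linear_combination e1
  exact one_ne_zero this

end

lemma perm4_center (π : Equiv.Perm (Fin 4)) (h : ∀ σ : Equiv.Perm (Fin 4), σ * π = π * σ) : π = 1 := by
  revert π
  decide

/-- SO_3(3) ≅ S_4: the determinant-one isometries of the form x_0² + x_1y_1 over the field with 3 elements form a group isomorphic to the symmetric group on 4 letters. -/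
theorem result {F : Type*} [Field F] [Fintype F] (hF : Fintype.card F = 3) : Nonempty (↥(Cfsg.specialIsometryGroup F (Cfsg.quadFormOdd 1 F)) ≃* Equiv.Perm (Fin 4)) := by
  classical
  have h3 : (3 : F) = 0 := by
    have h := FiniteField.cast_card_eq_zero F
    rw [hF] at h
    exact_mod_cast h
  have h2 : (2 : F) ≠ 0 := by
    intro h
    apply one_ne_zero (α := F)
    linear_combination h3 - h
  have hunit : ∀ u : Fˣ, u ^ 2 = 1 := by
    intro u
    have := pow_card_eq_one' (G := Fˣ) (x := u)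
    rwa [Nat.card_eq_fintype_card, Fintype.card_units, hF] at this
  obtain ⟨Q, hQdef⟩ : ∃ Q : QuadraticForm F (Unit ⊕ (Fin 1 ⊕ Fin 1) → F), Q = qOdd 1 F := ⟨_, rfl⟩
  have hQ : (QuadraticMap.polarBilin Q).Nondegenerate := by rw [hQdef]; exact nondeg_qOdd 1 h2
  have hQv : ∀ x, Q x = x (.inl ()) ^ 2 + x (.inr (.inl 0)) * x (.inr (.inr 0)) := by
    intro x
    rw [hQdef, coe_qOdd]
    unfold Cfsg.quadFormOdd
    simp
  rw [← coe_qOdd, ← hQdef]
  obtain ⟨L, hL⟩ : ∃ L : (Unit ⊕ (Fin 1 ⊕ Fin 1) → F) →ₗ[F] WS F 4, ∀ x, (L x).1 = ![x (.inl ()) + x (.inr (.inl 0)) - x (.inr (.inr 0)),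
      - x (.inl ()) + x (.inr (.inl 0)) - x (.inr (.inr 0)), x (.inr (.inl 0)), - x (.inr (.inr 0))] := by
    refine ⟨{ toFun := fun x => ⟨![x (.inl ()) + x (.inr (.inl 0)) - x (.inr (.inr 0)),
      - x (.inl ()) + x (.inr (.inl 0)) - x (.inr (.inr 0)), x (.inr (.inl 0)), - x (.inr (.inr 0))], ?_⟩, map_add' := ?_, map_smul' := ?_ }, fun x => rfl⟩
    · rw [mem_WS, Fin.sum_univ_four]
      show (x (.inl ()) + x (.inr (.inl 0)) - x (.inr (.inr 0))) + (- x (.inl ()) + x (.inr (.inl 0)) - x (.inr (.inr 0))) + x (.inr (.inl 0)) + (- x (.inr (.inr 0))) = 0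
      linear_combination (x (.inr (.inl 0)) - x (.inr (.inr 0))) * h3
    · intro x y
      apply Subtype.ext
      funext i
      fin_cases i
      · show (x + y) (.inl ()) + (x + y) (.inr (.inl 0)) - (x + y) (.inr (.inr 0)) = (x (.inl ()) + x (.inr (.inl 0)) - x (.inr (.inr 0))) + (y (.inl ()) + y (.inr (.inl 0)) - y (.inr (.inr 0)))
        simp only [Pi.add_apply]; ring
      · show - (x + y) (.inl ()) + (x + y) (.inr (.inl 0)) - (x + y) (.inr (.inr 0)) = (- x (.inl ()) + x (.inr (.inl 0)) - x (.inr (.inr 0))) + (- y (.inl ()) + y (.inr (.inl 0)) - y (.inr (.inr 0)))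
        simp only [Pi.add_apply]; ring
      · rfl
      · show - (x + y) (.inr (.inr 0)) = - x (.inr (.inr 0)) + (- y (.inr (.inr 0)))
        simp only [Pi.add_apply]; ring
    · intro c x
      apply Subtype.ext
      funext i
      fin_cases i
      · show (c • x) (.inl ()) + (c • x) (.inr (.inl 0)) - (c • x) (.inr (.inr 0)) = c * (x (.inl ()) + x (.inr (.inl 0)) - x (.inr (.inr 0)))
        simp only [Pi.smul_apply, smul_eq_mul]; ring
      · show - (c • x) (.inl ()) + (c • x) (.inr (.inl 0)) - (c • x) (.inr (.inr 0)) = c * (- x (.inl ()) + x (.inr (.inl 0)) - x (.inr (.inr 0)))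
        simp only [Pi.smul_apply, smul_eq_mul]; ring
      · rfl
      · show - (c • x) (.inr (.inr 0)) = c * (- x (.inr (.inr 0)))
        simp only [Pi.smul_apply, smul_eq_mul]; ring
  have hLQ : ∀ x, ∑ i, (L x).1 i ^ 2 = - Q x := by
    intro x
    rw [hL, Fin.sum_univ_four, hQv]
    show (x (.inl ()) + x (.inr (.inl 0)) - x (.inr (.inr 0))) ^ 2 + (- x (.inl ()) + x (.inr (.inl 0)) - x (.inr (.inr 0))) ^ 2 + (x (.inr (.inl 0))) ^ 2 + (- x (.inr (.inr 0))) ^ 2 = _
    linear_combination (x (.inl ()) ^ 2 + (x (.inr (.inl 0))) ^ 2 + (x (.inr (.inr 0))) ^ 2 - x (.inr (.inl 0)) * x (.inr (.inr 0))) * h3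
  have hinj : Function.Injective L := by
    rw [← LinearMap.ker_eq_bot, LinearMap.ker_eq_bot']
    intro x hx
    have e1 : ∀ i, (L x).1 i = 0 := fun i => by rw [hx]; rfl
    rw [hL] at e1
    have e2 : x (.inr (.inl 0)) = 0 := e1 2
    have e3 : - x (.inr (.inr 0)) = 0 := e1 3
    have e4 : x (.inl ()) + x (.inr (.inl 0)) - x (.inr (.inr 0)) = 0 := e1 0
    funext k
    rcases k with ⟨⟩ | k | k
    · show x (.inl ()) = 0
      linear_combination e4 - e2 - e3
    · fin_cases k; exact e2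
    · fin_cases k
      show x (.inr (.inr 0)) = 0
      linear_combination -e3
  have hr : finrank F (WS F 4) ≤ 3 := by
    obtain ⟨f, hf⟩ : ∃ f : WS F 4 →ₗ[F] (Fin 3 → F), ∀ v i, f v i = v.1 i.castSucc :=
      ⟨{ toFun := fun v i => v.1 i.castSucc, map_add' := fun u v => rfl, map_smul' := fun c v => rfl }, fun v i => rfl⟩
    have hfi : Function.Injective f := by
      rw [← LinearMap.ker_eq_bot, LinearMap.ker_eq_bot']
      intro v hv
      have e1 : ∀ i : Fin 3, v.1 i.castSucc = 0 := fun i => by rw [← hf, hv]; rfl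
      have e2 := v.2
      rw [mem_WS, Fin.sum_univ_castSucc, Finset.sum_eq_zero (fun i _ => e1 i), zero_add] at e2
      apply Subtype.ext
      funext i
      refine Fin.lastCases ?_ (fun i => ?_) i
      · exact e2
      · exact e1 i
    have := LinearMap.finrank_le_finrank_of_injective hfi
    rwa [finrank_fintype_fun_eq_card, Fintype.card_fin] at this
  obtain ⟨φ, hφ⟩ : ∃ φ : (Unit ⊕ (Fin 1 ⊕ Fin 1) → F) ≃ₗ[F] WS F 4, ∀ x, φ x = L x := by
    refine ⟨LinearMap.linearEquivOfInjective L hinj ?_, fun x => rfl⟩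
    have h4 := LinearMap.finrank_le_finrank_of_injective hinj
    have h5 : finrank F (Unit ⊕ (Fin 1 ⊕ Fin 1) → F) = 3 := by rw [finrank_fintype_fun_eq_card]; rfl
    omega
  obtain ⟨c, hc⟩ : ∃ c : (WS F 4 ≃ₗ[F] WS F 4) →* ((Unit ⊕ (Fin 1 ⊕ Fin 1) → F) ≃ₗ[F] (Unit ⊕ (Fin 1 ⊕ Fin 1) → F)), ∀ g x, φ (c g x) = g (φ x) := by
    refine ⟨{ toFun := fun g => (φ.trans g).trans φ.symm, map_one' := ?_, map_mul' := ?_ }, fun g x => ?_⟩
    · ext1 x
      exact φ.symm_apply_apply x
    · intro g h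
      ext1 x
      show φ.symm (g (h (φ x))) = φ.symm (g (φ (φ.symm (h (φ x)))))
      rw [LinearEquiv.apply_symm_apply]
    · exact LinearEquiv.apply_symm_apply _ _
  obtain ⟨f0, hf0⟩ : ∃ f0 : Equiv.Perm (Fin 4) →* OGrp Q, Function.Injective f0 := by
    refine ⟨(c.comp permES).codRestrict _ ?_, ?_⟩
    · intro g x
      show Q (c (permES g) x) = Q x
      apply neg_injective
      rw [← hLQ, ← hLQ, ← hφ, ← hφ, hc]
      simp only [permES_apply]
      exact Equiv.sum_comp g.symm (fun i => (φ x).1 i ^ 2)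
    · intro g h hgh
      apply permES_injective (F := F) (N := 4) (by norm_num)
      have h1 : c (permES g) = c (permES h) := congrArg Subtype.val hgh
      apply LinearEquiv.ext
      intro w
      obtain ⟨x, rfl⟩ := φ.surjective w
      rw [← hc, ← hc, h1]
  obtain ⟨f1, hf1⟩ : ∃ f1 : Equiv.Perm (Fin 4) →* Cfsg.isometryGroup F ⇑Q, Function.Injective f1 :=
    ⟨(oIso Q).symm.toMonoidHom.comp f0, fun x y h => hf0 ((oIso Q).symm.injective h)⟩
  -- twisting by the determinant
  have hscal : ∀ u : Fˣ, Matrix.GeneralLinearGroup.scalar (Unit ⊕ (Fin 1 ⊕ Fin 1)) u ∈ Cfsg.isometryGroup F ⇑Q := by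
    intro u
    rw [mem_isometryGroup_iff]
    intro x
    rw [glLin_apply, Matrix.GeneralLinearGroup.coe_scalar]
    have h1 : (Matrix.scalar (Unit ⊕ (Fin 1 ⊕ Fin 1)) (u : F)).mulVec x = (u : F) • x := by
      rw [Matrix.scalar_apply]
      funext i
      rw [Matrix.mulVec_diagonal]; rfl
    rw [h1, qsmul]
    have h4 : (u : F) * u = 1 := by
      have := congrArg Units.val (hunit u)
      rwa [Units.val_pow_eq_pow_val, Units.val_one, pow_two] at this
    rw [h4, one_mul]
  obtain ⟨tw, htw⟩ : ∃ tw : Cfsg.isometryGroup F ⇑Q →* Cfsg.specialIsometryGroup F ⇑Q, ∀ g, ((tw g).1 : Matrix.GeneralLinearGroup (Unit ⊕ (Fin 1 ⊕ Fin 1)) F) =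
      Matrix.GeneralLinearGroup.scalar _ (Matrix.GeneralLinearGroup.det g.1) * g.1 := by
    refine ⟨{ toFun := fun g => ⟨⟨Matrix.GeneralLinearGroup.scalar _ (Matrix.GeneralLinearGroup.det g.1) * g.1, Subgroup.mul_mem _ (hscal _) g.2⟩, ?_⟩, map_one' := ?_, map_mul' := ?_ }, fun g => rfl⟩
    · show Matrix.GeneralLinearGroup.det (Matrix.GeneralLinearGroup.scalar _ (Matrix.GeneralLinearGroup.det g.1) * g.1) = 1
      rw [map_mul, Matrix.GeneralLinearGroup.det_scalar]
      show Matrix.GeneralLinearGroup.det g.1 ^ 3 * Matrix.GeneralLinearGroup.det g.1 = 1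
      have h4 := hunit (Matrix.GeneralLinearGroup.det g.1)
      rw [← pow_succ, show 3 + 1 = 2 * 2 from rfl, pow_mul, h4, one_pow]
    · apply Subtype.ext
      apply Subtype.ext
      show Matrix.GeneralLinearGroup.scalar _ (Matrix.GeneralLinearGroup.det 1) * 1 = 1
      rw [map_one, map_one, mul_one]
    · intro g h
      apply Subtype.ext
      apply Subtype.ext
      show Matrix.GeneralLinearGroup.scalar _ (Matrix.GeneralLinearGroup.det (g.1 * h.1)) * (g.1 * h.1) =
        (Matrix.GeneralLinearGroup.scalar _ (Matrix.GeneralLinearGroup.det g.1) * g.1) * (Matrix.GeneralLinearGroup.scalar _ (Matrix.GeneralLinearGroup.det h.1) * h.1)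
      rw [map_mul, map_mul, mul_assoc, mul_assoc]
      congr 1
      rw [← mul_assoc, Matrix.GeneralLinearGroup.scalar_commute, mul_assoc]
  obtain ⟨f, hf⟩ : ∃ f : Equiv.Perm (Fin 4) →* Cfsg.specialIsometryGroup F ⇑Q, Function.Injective f := by
    refine ⟨tw.comp f1, ?_⟩
    rw [injective_iff_map_eq_one]
    intro π hπ
    apply perm4_center
    intro σ
    apply hf1
    rw [map_mul, map_mul]
    have h4 := congrArg (fun z : Cfsg.specialIsometryGroup F ⇑Q => (z.1.1 : Matrix.GeneralLinearGroup (Unit ⊕ (Fin 1 ⊕ Fin 1)) F)) hπ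
    simp only [MonoidHom.comp_apply, htw] at h4
    have h5 : (f1 π).1 = (Matrix.GeneralLinearGroup.scalar _ (Matrix.GeneralLinearGroup.det (f1 π).1))⁻¹ := (inv_eq_of_mul_eq_one_right h4).symm
    apply Subtype.ext
    show (f1 σ).1 * (f1 π).1 = (f1 π).1 * (f1 σ).1
    rw [h5, ← map_inv, ← Matrix.GeneralLinearGroup.scalar_commute]
  have hcO : Nat.card (Cfsg.isometryGroup F ⇑Q) = 48 := by
    rw [Nat.card_congr (oIso Q).toEquiv, hQdef, card_O_odd 1 h2, hF]
    simp
  haveI : Finite (Cfsg.isometryGroup F ⇑Q) := Nat.finite_of_card_ne_zero (by rw [hcO]; norm_num)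
  have hc4 : Nat.card (Equiv.Perm (Fin 4)) = 24 := by
    rw [Nat.card_eq_fintype_card, Fintype.card_perm, Fintype.card_fin]
    rfl
  have hle : 24 ≤ Nat.card (Cfsg.specialIsometryGroup F ⇑Q) := by
    rw [← hc4]; exact Nat.card_le_card_of_injective f hf
  have hdvd := Subgroup.card_subgroup_dvd_card (Cfsg.specialIsometryGroup F ⇑Q)
  rw [hcO] at hdvd
  have hne : Nat.card (Cfsg.specialIsometryGroup F ⇑Q) ≠ 48 := by
    intro h
    have h5 : Cfsg.specialIsometryGroup F ⇑Q = ⊤ := by
      apply Subgroup.eq_top_of_card_eq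
      rw [h, hcO]
    have h6 : (⟨Matrix.GeneralLinearGroup.scalar _ (-1), hscal (-1)⟩ : Cfsg.isometryGroup F ⇑Q) ∈ Cfsg.specialIsometryGroup F ⇑Q := by rw [h5]; trivial
    have h7 : Matrix.GeneralLinearGroup.det (Matrix.GeneralLinearGroup.scalar (Unit ⊕ (Fin 1 ⊕ Fin 1)) (-1 : Fˣ)) = 1 := h6
    rw [Matrix.GeneralLinearGroup.det_scalar] at h7
    have h8 : ((-1 : F)) ^ 3 = 1 := by
      have := congrArg Units.val h7
      simpa using this
    apply h2
    linear_combination -h8
  have hc24 : Nat.card (Cfsg.specialIsometryGroup F ⇑Q) = 24 := by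
    obtain ⟨k, hk⟩ := hdvd
    have hk2 : k < 3 := by
      by_contra h
      push Not at h
      nlinarith
    interval_cases k
    · omega
    · omega
    · omega
  have hb : Function.Bijective f := (Nat.bijective_iff_injective_and_card f).2 ⟨hf, by rw [hc24, hc4]⟩
  exact ⟨(MulEquiv.ofBijective f hb).symm⟩

end Cfsg.Agent.S0823
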