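import Cfsg.Statements.S0824
import Cfsg.Agent.LibH22Perm2

set_option autoImplicit false
open Cfsg

namespace Cfsg.Agent.S0824
open Cfsg.Agent.H22 Module

lemma qN6 {F : Type*} [Field F] (v : Fin 6 → F) : qN v =
    v 0 * (v 1 + v 2 + v 3 + v 4 + v 5) + v 1 * (v 2 + v 3 + v 4 + v 5) + v 2 * (v 3 + v 4 + v 5) +
    v 3 * (v 4 + v 5) + v 4 * v 5 := by
  unfold qN
  simp only [Fin.sum_univ_six, show (0 : Fin 6) < 1 by decide, show (0 : Fin 6) < 2 by decide, show (0 : Fin 6) < 3 by decide,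
    show (0 : Fin 6) < 4 by decide, show (0 : Fin 6) < 5 by decide, 
    show (1 : Fin 6) < 2 by decide, show (1 : Fin 6) < 3 by decide, show (1 : Fin 6) < 4 by decide, show (1 : Fin 6) < 5 by decide,
    show (2 : Fin 6) < 3 by decide, show (2 : Fin 6) < 4 by decide,
    show (2 : Fin 6) < 5 by decide, show (3 : Fin 6) < 4 by decide,
    show (3 : Fin 6) < 5 by decide, show (4 : Fin 6) < 5 by decide,
    show ¬ (1 : Fin 6) < 0 by decide, show ¬ (2 : Fin 6) < 0 by decide, show ¬ (3 : Fin 6) < 0 by decide,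
    show ¬ (4 : Fin 6) < 0 by decide, show ¬ (5 : Fin 6) < 0 by decide, 
    show ¬ (2 : Fin 6) < 1 by decide, show ¬ (3 : Fin 6) < 1 by decide, show ¬ (4 : Fin 6) < 1 by decide, show ¬ (5 : Fin 6) < 1 by decide,
    show ¬ (3 : Fin 6) < 2 by decide, show ¬ (4 : Fin 6) < 2 by decide,
    show ¬ (5 : Fin 6) < 2 by decide, show ¬ (4 : Fin 6) < 3 by decide,
    show ¬ (5 : Fin 6) < 3 by decide, show ¬ (5 : Fin 6) < 4 by decide,
    lt_irrefl, if_true, if_false]
  ring

/-- O⁻_4(2) ≅ S_5: the isometry group of the form x y + z_1² + z_1 z_2 + z_2² over the field with 2 elements is isomorphic to the symmetric group on 5 letters. -/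
theorem result {F : Type*} [Field F] [Fintype F] (hF : Fintype.card F = 2) : Nonempty (↥(Cfsg.isometryGroup F (Cfsg.quadFormMinus 1 F 1 1)) ≃* Equiv.Perm (Fin 5)) := by
  classical
  have h2 : (2 : F) = 0 := by
    have h := FiniteField.cast_card_eq_zero F
    rw [hF] at h
    exact_mod_cast h
  have hN : ((6 : ℕ) : F) = 0 := by push_cast; linear_combination (3 : F) * h2
  have h01 : ∀ x : F, x = 0 ∨ x = 1 := by
    intro x
    have h := FiniteField.pow_card x
    rw [hF] at h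
    have : x * (x - 1) = 0 := by linear_combination h
    rcases mul_eq_zero.1 this with h | h
    · exact Or.inl h
    · exact Or.inr (sub_eq_zero.1 h)
  have hab : ∀ z₁ z₂ : F, z₁ ^ 2 + 1 * z₁ * z₂ + 1 * z₂ ^ 2 = 0 → z₁ = 0 ∧ z₂ = 0 := by
    intro z₁ z₂ h
    rcases h01 z₁ with rfl | rfl <;> rcases h01 z₂ with rfl | rfl
    · exact ⟨rfl, rfl⟩
    · exfalso; apply one_ne_zero (α := F); linear_combination h
    · exfalso; apply one_ne_zero (α := F); linear_combination h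
    · exfalso; apply one_ne_zero (α := F); linear_combination h - h2
  obtain ⟨L, hL⟩ : ∃ L : ((Fin 1 ⊕ Fin 1) ⊕ Fin 2 → F) →ₗ[F] WP F (0 : Fin 6), ∀ x, (L x).1 = ![0, x (.inl (.inl 0)), x (.inl (.inl 0)) + x (.inl (.inr 0)) + x (.inr 0),
      x (.inl (.inl 0)) + x (.inl (.inr 0)) + x (.inr 0) + x (.inr 1), x (.inl (.inl 0)) + x (.inl (.inr 0)) + x (.inr 1), x (.inl (.inr 0))] := by
    refine ⟨{ toFun := fun x => ⟨![0, x (.inl (.inl 0)), x (.inl (.inl 0)) + x (.inl (.inr 0)) + x (.inr 0),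
      x (.inl (.inl 0)) + x (.inl (.inr 0)) + x (.inr 0) + x (.inr 1), x (.inl (.inl 0)) + x (.inl (.inr 0)) + x (.inr 1), x (.inl (.inr 0))], ?_⟩, map_add' := ?_, map_smul' := ?_ }, fun x => rfl⟩
    · rw [mem_WP]
      refine ⟨?_, rfl⟩
      rw [Fin.sum_univ_six]
      show 0 + x (.inl (.inl 0)) + (x (.inl (.inl 0)) + x (.inl (.inr 0)) + x (.inr 0)) +
        (x (.inl (.inl 0)) + x (.inl (.inr 0)) + x (.inr 0) + x (.inr 1)) + (x (.inl (.inl 0)) + x (.inl (.inr 0)) + x (.inr 1)) + x (.inl (.inr 0)) = 0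
      linear_combination (2 * x (.inl (.inl 0)) + 2 * x (.inl (.inr 0)) + x (.inr 0) + x (.inr 1)) * h2
    · intro x y
      apply Subtype.ext
      funext i
      fin_cases i
      · exact (add_zero (0 : F)).symm
      · rfl
      · show (x + y) (.inl (.inl 0)) + (x + y) (.inl (.inr 0)) + (x + y) (.inr 0) = (x (.inl (.inl 0)) + x (.inl (.inr 0)) + x (.inr 0)) + (y (.inl (.inl 0)) + y (.inl (.inr 0)) + y (.inr 0))
        simp only [Pi.add_apply]; ring
      · show (x + y) (.inl (.inl 0)) + (x + y) (.inl (.inr 0)) + (x + y) (.inr 0) + (x + y) (.inr 1) = (x (.inl (.inl 0)) + x (.inl (.inr 0)) + x (.inr 0) + x (.inr 1)) + (y (.inl (.inl 0)) + y (.inl (.inr 0)) + y (.inr 0) + y (.inr 1))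
        simp only [Pi.add_apply]; ring
      · show (x + y) (.inl (.inl 0)) + (x + y) (.inl (.inr 0)) + (x + y) (.inr 1) = (x (.inl (.inl 0)) + x (.inl (.inr 0)) + x (.inr 1)) + (y (.inl (.inl 0)) + y (.inl (.inr 0)) + y (.inr 1))
        simp only [Pi.add_apply]; ring
      · rfl
    · intro c x
      apply Subtype.ext
      funext i
      fin_cases i
      · exact (mul_zero c).symm
      · rfl
      · show (c • x) (.inl (.inl 0)) + (c • x) (.inl (.inr 0)) + (c • x) (.inr 0) = c * (x (.inl (.inl 0)) + x (.inl (.inr 0)) + x (.inr 0))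
        simp only [Pi.smul_apply, smul_eq_mul]; ring
      · show (c • x) (.inl (.inl 0)) + (c • x) (.inl (.inr 0)) + (c • x) (.inr 0) + (c • x) (.inr 1) = c * (x (.inl (.inl 0)) + x (.inl (.inr 0)) + x (.inr 0) + x (.inr 1))
        simp only [Pi.smul_apply, smul_eq_mul]; ring
      · show (c • x) (.inl (.inl 0)) + (c • x) (.inl (.inr 0)) + (c • x) (.inr 1) = c * (x (.inl (.inl 0)) + x (.inl (.inr 0)) + x (.inr 1))
        simp only [Pi.smul_apply, smul_eq_mul]; ring
      · rfl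
  obtain ⟨f0, hf0, hf00⟩ : ∃ f0 : Equiv.Perm (Fin 5) →* Equiv.Perm (Fin 6), Function.Injective f0 ∧ ∀ π, f0 π 0 = 0 := by
    refine ⟨Equiv.Perm.extendDomainHom (finSuccAboveEquiv (0 : Fin 6)), Equiv.Perm.extendDomainHom_injective _, fun π => ?_⟩
    exact Equiv.Perm.extendDomain_apply_not_subtype π (finSuccAboveEquiv (0 : Fin 6)) (by simp)
  have hq : ∀ (π : Equiv.Perm (Fin 5)) (v : WP F (0 : Fin 6)), qN (permE hN 0 (f0 π) v).1 = qN v.1 := by
    intro π v
    have h1 : (permE hN 0 (f0 π) v).1 = fun i => v.1 ((f0 π).symm i) := by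
      funext i
      rw [permE_apply]
      have h0 : (f0 π).symm 0 = 0 := by rw [Equiv.symm_apply_eq]; exact (hf00 π).symm
      rw [h0, v.2.2, sub_zero]
    rw [h1, qN_perm]
  have hL' : ∀ x, qN (L x).1 = qMinus 1 F 1 1 x := by
    intro x
    rw [hL, qN6, coe_qMinus]
    unfold Cfsg.quadFormMinus
    rw [Fin.sum_univ_one]
    generalize x (.inl (.inl 0)) = x0
    generalize x (.inl (.inr 0)) = y0
    generalize x (.inr 0) = z
    generalize x (.inr 1) = w
    show 0 * (x0 + (x0 + y0 + z) + (x0 + y0 + z + w) + (x0 + y0 + w) + y0) + x0 * ((x0 + y0 + z) + (x0 + y0 + z + w) + (x0 + y0 + w) + y0) +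
      (x0 + y0 + z) * ((x0 + y0 + z + w) + (x0 + y0 + w) + y0) + (x0 + y0 + z + w) * ((x0 + y0 + w) + y0) + (x0 + y0 + w) * y0 = x0 * y0 + (z ^ 2 + 1 * z * w + 1 * w ^ 2)
    linear_combination (3*w*x0 + 3*w*y0 + w*z + 3*x0*x0 + 6*x0*y0 + 3*x0*z + 3*y0*y0 + 3*y0*z) * h2
  obtain ⟨f, hf⟩ := perm_orth (F := F) (N := 6) (a := 0) hN (by norm_num) f0 hf0 hq (qMinus 1 F 1 1) (nondeg_qMinus 1 1 1 hab) L hL' (by simp)
  have hc : Nat.card (OGrp (qMinus 1 F 1 1)) = 120 := by
    rw [card_O_minus 1 1 1 hab, hF]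
    simp
  have hc2 : Nat.card (Equiv.Perm (Fin 5)) = 120 := by
    rw [Nat.card_eq_fintype_card, Fintype.card_perm, Fintype.card_fin]
    rfl
  haveI : Finite (OGrp (qMinus 1 F 1 1)) := Nat.finite_of_card_ne_zero (by rw [hc]; norm_num)
  have hb : Function.Bijective f := (Nat.bijective_iff_injective_and_card f).2 ⟨hf, by rw [hc, hc2]⟩
  rw [← coe_qMinus]
  exact ⟨(oIso (qMinus 1 F 1 1)).trans (MulEquiv.ofBijective f hb).symm⟩

end Cfsg.Agent.S0824
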