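import Cfsg.Statements.S0825
import Cfsg.Agent.LibH22Perm2

set_option autoImplicit false
open Cfsg

namespace Cfsg.Agent.S0825
open Cfsg.Agent.H22 Module

lemma qN8 {F : Type*} [Field F] (v : Fin 8 → F) : qN v =
    v 0 * (v 1 + v 2 + v 3 + v 4 + v 5 + v 6 + v 7) + v 1 * (v 2 + v 3 + v 4 + v 5 + v 6 + v 7) + v 2 * (v 3 + v 4 + v 5 + v 6 + v 7) +
    v 3 * (v 4 + v 5 + v 6 + v 7) + v 4 * (v 5 + v 6 + v 7) + v 5 * (v 6 + v 7) + v 6 * v 7 := by
  unfold qN
  simp only [Fin.sum_univ_eight, show (0 : Fin 8) < 1 by decide, show (0 : Fin 8) < 2 by decide, show (0 : Fin 8) < 3 by decide,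
    show (0 : Fin 8) < 4 by decide, show (0 : Fin 8) < 5 by decide, show (0 : Fin 8) < 6 by decide, show (0 : Fin 8) < 7 by decide,
    show (1 : Fin 8) < 2 by decide, show (1 : Fin 8) < 3 by decide, show (1 : Fin 8) < 4 by decide, show (1 : Fin 8) < 5 by decide,
    show (1 : Fin 8) < 6 by decide, show (1 : Fin 8) < 7 by decide, show (2 : Fin 8) < 3 by decide, show (2 : Fin 8) < 4 by decide,
    show (2 : Fin 8) < 5 by decide, show (2 : Fin 8) < 6 by decide, show (2 : Fin 8) < 7 by decide, show (3 : Fin 8) < 4 by decide,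
    show (3 : Fin 8) < 5 by decide, show (3 : Fin 8) < 6 by decide, show (3 : Fin 8) < 7 by decide, show (4 : Fin 8) < 5 by decide,
    show (4 : Fin 8) < 6 by decide, show (4 : Fin 8) < 7 by decide, show (5 : Fin 8) < 6 by decide, show (5 : Fin 8) < 7 by decide,
    show (6 : Fin 8) < 7 by decide,
    show ¬ (1 : Fin 8) < 0 by decide, show ¬ (2 : Fin 8) < 0 by decide, show ¬ (3 : Fin 8) < 0 by decide,
    show ¬ (4 : Fin 8) < 0 by decide, show ¬ (5 : Fin 8) < 0 by decide, show ¬ (6 : Fin 8) < 0 by decide, show ¬ (7 : Fin 8) < 0 by decide,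
    show ¬ (2 : Fin 8) < 1 by decide, show ¬ (3 : Fin 8) < 1 by decide, show ¬ (4 : Fin 8) < 1 by decide, show ¬ (5 : Fin 8) < 1 by decide,
    show ¬ (6 : Fin 8) < 1 by decide, show ¬ (7 : Fin 8) < 1 by decide, show ¬ (3 : Fin 8) < 2 by decide, show ¬ (4 : Fin 8) < 2 by decide,
    show ¬ (5 : Fin 8) < 2 by decide, show ¬ (6 : Fin 8) < 2 by decide, show ¬ (7 : Fin 8) < 2 by decide, show ¬ (4 : Fin 8) < 3 by decide,
    show ¬ (5 : Fin 8) < 3 by decide, show ¬ (6 : Fin 8) < 3 by decide, show ¬ (7 : Fin 8) < 3 by decide, show ¬ (5 : Fin 8) < 4 by decide,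
    show ¬ (6 : Fin 8) < 4 by decide, show ¬ (7 : Fin 8) < 4 by decide, show ¬ (6 : Fin 8) < 5 by decide, show ¬ (7 : Fin 8) < 5 by decide,
    show ¬ (7 : Fin 8) < 6 by decide, lt_irrefl, if_true, if_false]
  ring

/-- O⁺_6(2) ≅ S_8: the isometry group of the hyperbolic form x_1y_1 + x_2y_2 + x_3y_3 over the field with 2 elements is isomorphic to the symmetric group on 8 letters. -/
theorem result {F : Type*} [Field F] [Fintype F] (hF : Fintype.card F = 2) : Nonempty (↥(Cfsg.isometryGroup F (Cfsg.quadFormPlus 3 F)) ≃* Equiv.Perm (Fin 8)) := by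
  classical
  have h2 : (2 : F) = 0 := by
    have h := FiniteField.cast_card_eq_zero F
    rw [hF] at h
    exact_mod_cast h
  have hN : ((8 : ℕ) : F) = 0 := by push_cast; linear_combination (4 : F) * h2
  obtain ⟨L, hL⟩ : ∃ L : (Fin 3 ⊕ Fin 3 → F) →ₗ[F] WP F (0 : Fin 8), ∀ x, (L x).1 = ![0, x (.inl 2) + x (.inr 2), x (.inl 1) + x (.inr 1) + x (.inr 2),
      x (.inl 1) + x (.inl 2) + x (.inr 0) + x (.inr 1), x (.inl 0) + x (.inl 1) + x (.inl 2) + x (.inr 1), x (.inl 0) + x (.inl 2) + x (.inr 0),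
      x (.inl 0) + x (.inr 0) + x (.inr 1) + x (.inr 2), x (.inl 0) + x (.inl 1) + x (.inr 0) + x (.inr 2)] := by
    refine ⟨{ toFun := fun x => ⟨![0, x (.inl 2) + x (.inr 2), x (.inl 1) + x (.inr 1) + x (.inr 2),
      x (.inl 1) + x (.inl 2) + x (.inr 0) + x (.inr 1), x (.inl 0) + x (.inl 1) + x (.inl 2) + x (.inr 1), x (.inl 0) + x (.inl 2) + x (.inr 0),
      x (.inl 0) + x (.inr 0) + x (.inr 1) + x (.inr 2), x (.inl 0) + x (.inl 1) + x (.inr 0) + x (.inr 2)], ?_⟩, map_add' := ?_, map_smul' := ?_ }, fun x => rfl⟩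
    · rw [mem_WP]
      refine ⟨?_, rfl⟩
      rw [Fin.sum_univ_eight]
      show 0 + (x (.inl 2) + x (.inr 2)) + (x (.inl 1) + x (.inr 1) + x (.inr 2)) +
        (x (.inl 1) + x (.inl 2) + x (.inr 0) + x (.inr 1)) + (x (.inl 0) + x (.inl 1) + x (.inl 2) + x (.inr 1)) + (x (.inl 0) + x (.inl 2) + x (.inr 0)) +
        (x (.inl 0) + x (.inr 0) + x (.inr 1) + x (.inr 2)) + (x (.inl 0) + x (.inl 1) + x (.inr 0) + x (.inr 2)) = 0
      linear_combination (2 * x (.inl 0) + 2 * x (.inl 1) + 2 * x (.inl 2) + 2 * x (.inr 0) + 2 * x (.inr 1) + 2 * x (.inr 2)) * h2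
    · intro x y
      apply Subtype.ext
      funext i
      fin_cases i
      · exact (add_zero (0 : F)).symm
      · show (x + y) (.inl 2) + (x + y) (.inr 2) = (x (.inl 2) + x (.inr 2)) + (y (.inl 2) + y (.inr 2))
        simp only [Pi.add_apply]; ring
      · show (x + y) (.inl 1) + (x + y) (.inr 1) + (x + y) (.inr 2) = (x (.inl 1) + x (.inr 1) + x (.inr 2)) + (y (.inl 1) + y (.inr 1) + y (.inr 2))
        simp only [Pi.add_apply]; ring
      · show (x + y) (.inl 1) + (x + y) (.inl 2) + (x + y) (.inr 0) + (x + y) (.inr 1) = (x (.inl 1) + x (.inl 2) + x (.inr 0) + x (.inr 1)) + (y (.inl 1) + y (.inl 2) + y (.inr 0) + y (.inr 1))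
        simp only [Pi.add_apply]; ring
      · show (x + y) (.inl 0) + (x + y) (.inl 1) + (x + y) (.inl 2) + (x + y) (.inr 1) = (x (.inl 0) + x (.inl 1) + x (.inl 2) + x (.inr 1)) + (y (.inl 0) + y (.inl 1) + y (.inl 2) + y (.inr 1))
        simp only [Pi.add_apply]; ring
      · show (x + y) (.inl 0) + (x + y) (.inl 2) + (x + y) (.inr 0) = (x (.inl 0) + x (.inl 2) + x (.inr 0)) + (y (.inl 0) + y (.inl 2) + y (.inr 0))
        simp only [Pi.add_apply]; ring
      · show (x + y) (.inl 0) + (x + y) (.inr 0) + (x + y) (.inr 1) + (x + y) (.inr 2) = (x (.inl 0) + x (.inr 0) + x (.inr 1) + x (.inr 2)) + (y (.inl 0) + y (.inr 0) + y (.inr 1) + y (.inr 2))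
        simp only [Pi.add_apply]; ring
      · show (x + y) (.inl 0) + (x + y) (.inl 1) + (x + y) (.inr 0) + (x + y) (.inr 2) = (x (.inl 0) + x (.inl 1) + x (.inr 0) + x (.inr 2)) + (y (.inl 0) + y (.inl 1) + y (.inr 0) + y (.inr 2))
        simp only [Pi.add_apply]; ring
    · intro c x
      apply Subtype.ext
      funext i
      fin_cases i
      · exact (mul_zero c).symm
      · show (c • x) (.inl 2) + (c • x) (.inr 2) = c * (x (.inl 2) + x (.inr 2))
        simp only [Pi.smul_apply, smul_eq_mul]; ring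
      · show (c • x) (.inl 1) + (c • x) (.inr 1) + (c • x) (.inr 2) = c * (x (.inl 1) + x (.inr 1) + x (.inr 2))
        simp only [Pi.smul_apply, smul_eq_mul]; ring
      · show (c • x) (.inl 1) + (c • x) (.inl 2) + (c • x) (.inr 0) + (c • x) (.inr 1) = c * (x (.inl 1) + x (.inl 2) + x (.inr 0) + x (.inr 1))
        simp only [Pi.smul_apply, smul_eq_mul]; ring
      · show (c • x) (.inl 0) + (c • x) (.inl 1) + (c • x) (.inl 2) + (c • x) (.inr 1) = c * (x (.inl 0) + x (.inl 1) + x (.inl 2) + x (.inr 1))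
        simp only [Pi.smul_apply, smul_eq_mul]; ring
      · show (c • x) (.inl 0) + (c • x) (.inl 2) + (c • x) (.inr 0) = c * (x (.inl 0) + x (.inl 2) + x (.inr 0))
        simp only [Pi.smul_apply, smul_eq_mul]; ring
      · show (c • x) (.inl 0) + (c • x) (.inr 0) + (c • x) (.inr 1) + (c • x) (.inr 2) = c * (x (.inl 0) + x (.inr 0) + x (.inr 1) + x (.inr 2))
        simp only [Pi.smul_apply, smul_eq_mul]; ring
      · show (c • x) (.inl 0) + (c • x) (.inl 1) + (c • x) (.inr 0) + (c • x) (.inr 2) = c * (x (.inl 0) + x (.inl 1) + x (.inr 0) + x (.inr 2))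
        simp only [Pi.smul_apply, smul_eq_mul]; ring
  have hq : ∀ (π : Equiv.Perm (Fin 8)) (v : WP F (0 : Fin 8)), qN (permE hN 0 π v).1 = qN v.1 := by
    intro π v
    have h1 : qN (permE hN 0 π v).1 = qN (fun i => (fun j => v.1 (π.symm j)) i - v.1 (π.symm 0)) := rfl
    show qN (permE hN 0 π v).1 = qN v.1
    rw [h1, ← qN_perm v.1 π.symm]
    have h3 : ∑ j, v.1 (π.symm j) = 0 := by rw [Equiv.sum_comp π.symm v.1]; exact v.2.1
    generalize (fun j => v.1 (π.symm j)) = u at h3 ⊢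
    generalize v.1 (π.symm 0) = c
    rw [Fin.sum_univ_eight] at h3
    rw [qN8, qN8]
    linear_combination (-7 * c) * h3 + (14 * c ^ 2) * h2
  have hL' : ∀ x, qN (L x).1 = qPlus 3 F x := by
    intro x
    rw [hL, qN8, coe_qPlus]
    unfold Cfsg.quadFormPlus
    rw [Fin.sum_univ_three]
    generalize x (.inl 0) = x0
    generalize x (.inl 1) = x1
    generalize x (.inl 2) = x2
    generalize x (.inr 0) = y0
    generalize x (.inr 1) = y1
    generalize x (.inr 2) = y2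
    show 0 * ((x2 + y2) + (x1 + y1 + y2) + (x1 + x2 + y0 + y1) + (x0 + x1 + x2 + y1) + (x0 + x2 + y0) + (x0 + y0 + y1 + y2) + (x0 + x1 + y0 + y2)) +
      (x2 + y2) * ((x1 + y1 + y2) + (x1 + x2 + y0 + y1) + (x0 + x1 + x2 + y1) + (x0 + x2 + y0) + (x0 + y0 + y1 + y2) + (x0 + x1 + y0 + y2)) +
      (x1 + y1 + y2) * ((x1 + x2 + y0 + y1) + (x0 + x1 + x2 + y1) + (x0 + x2 + y0) + (x0 + y0 + y1 + y2) + (x0 + x1 + y0 + y2)) +
      (x1 + x2 + y0 + y1) * ((x0 + x1 + x2 + y1) + (x0 + x2 + y0) + (x0 + y0 + y1 + y2) + (x0 + x1 + y0 + y2)) +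
      (x0 + x1 + x2 + y1) * ((x0 + x2 + y0) + (x0 + y0 + y1 + y2) + (x0 + x1 + y0 + y2)) +
      (x0 + x2 + y0) * ((x0 + y0 + y1 + y2) + (x0 + x1 + y0 + y2)) +
      (x0 + y0 + y1 + y2) * (x0 + x1 + y0 + y2) = x0 * y0 + x1 * y1 + x2 * y2
    linear_combination (3*x0*x0 + 7*x0*x1 + 7*x0*x2 + 6*x0*y0 + 7*x0*y1 + 7*x0*y2 + 3*x1*x1 + 7*x1*x2 + 7*x1*y0 + 6*x1*y1 + 7*x1*y2 + 3*x2*x2 + 7*x2*y0 + 7*x2*y1 + 7*x2*y2 + 3*y0*y0 + 7*y0*y1 + 7*y0*y2 + 3*y1*y1 + 7*y1*y2 + 3*y2*y2) * h2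
  obtain ⟨f, hf⟩ := perm_orth (F := F) (N := 8) (a := 0) hN (by norm_num) (MonoidHom.id (Equiv.Perm (Fin 8))) (fun x y h => h) hq (qPlus 3 F) (nondeg_qPlus 3) L hL' (by simp)
  have hc : Nat.card (OGrp (qPlus 3 F)) = 40320 := by
    rw [card_O_plus 2, hF]
    simp [Finset.prod_range_succ]
  have hc2 : Nat.card (Equiv.Perm (Fin 8)) = 40320 := by
    rw [Nat.card_eq_fintype_card, Fintype.card_perm, Fintype.card_fin]
    rfl
  haveI : Finite (OGrp (qPlus 3 F)) := Nat.finite_of_card_ne_zero (by rw [hc]; norm_num)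
  have hb : Function.Bijective f := (Nat.bijective_iff_injective_and_card f).2 ⟨hf, by rw [hc, hc2]⟩
  rw [← coe_qPlus]
  exact ⟨(oIso (qPlus 3 F)).trans (MulEquiv.ofBijective f hb).symm⟩

end Cfsg.Agent.S0825
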