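import Cfsg.Statements.S0828
import Cfsg.Agent.LibH22Lines
import Cfsg.Agent.LibH22Sp

set_option autoImplicit false
open Cfsg

namespace Cfsg.Agent.S0828
open Cfsg.Agent.H22

/-- The symplectic generalised quadrangle over a field with q elements: the number of 2-dimensional subspaces of F^4 on which the symplectic form vanishes is (q + 1)(q² + 1), and every non-zero vector lies in exactly q + 1 of them. -/
theorem result {F : Type*} [Field F] [Fintype F] {q : ℕ} (hF : Fintype.card F = q) : Nat.card {W : Submodule F (Fin 2 ⊕ Fin 2 → F) // Module.finrank F W = 2 ∧ ∀ u ∈ W, ∀ v ∈ W, Cfsg.sympForm 2 F u v = 0} = (q + 1) * (q ^ 2 + 1) ∧ ∀ v : Fin 2 ⊕ Fin 2 → F, v ≠ 0 → Nat.card {W : Submodule F (Fin 2 ⊕ Fin 2 → F) // Module.finrank F W = 2 ∧ v ∈ W ∧ ∀ u ∈ W, ∀ w ∈ W, Cfsg.sympForm 2 F u w = 0} = q + 1 := by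
  classical
  subst hF
  have hq : 2 ≤ Fintype.card F := Fintype.one_lt_card
  have hfr : Module.finrank F (Fin 2 ⊕ Fin 2 → F) = 4 := by simp
  obtain ⟨P, hP⟩ : ∃ P : Submodule F (Fin 2 ⊕ Fin 2 → F) → Prop, P = fun W => ∀ u ∈ W, ∀ v ∈ W, Cfsg.sympForm 2 F u v = 0 := ⟨_, rfl⟩
  have hpair : ∀ v w, P (Submodule.span F {v, w}) ↔ spB 2 F v w = 0 := by
    intro v w
    rw [hP]
    simp only [← spB_apply]
    constructor
    · intro h
      exact h v (Submodule.subset_span (by simp)) w (Submodule.subset_span (by simp))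
    · intro h x hx y hy
      rw [Submodule.mem_span_pair] at hx hy
      obtain ⟨a, b, rfl⟩ := hx
      obtain ⟨c, d, rfl⟩ := hy
      have hwv : spB 2 F w v = 0 := by rw [← LinearMap.BilinForm.IsAlt.neg_eq spB_isAlt v w, h, neg_zero]
      simp [h, hwv, spB_isAlt.self_eq_zero]
  have hthrough : ∀ v : Fin 2 ⊕ Fin 2 → F, v ≠ 0 → Nat.card {W : Submodule F (Fin 2 ⊕ Fin 2 → F) // Module.finrank F W = 2 ∧ v ∈ W ∧ P W} = Fintype.card F + 1 := by
    intro v hv
    have h1 := count_through P hv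
    have h2 : Nat.card {w : Fin 2 ⊕ Fin 2 → F // w ∉ Submodule.span F {v} ∧ P (Submodule.span F {v, w})} = Fintype.card F ^ 3 - Fintype.card F := by
      have hne : spB 2 F v ≠ 0 := by
        intro h
        apply hv
        apply (spB_nondeg (m := 2) (F := F)).1
        intro y; rw [h]; rfl
      have h3 := card_functional_eq (spB 2 F v) hne 0
      rw [hfr] at h3
      have h4 : Nat.card {w : Fin 2 ⊕ Fin 2 → F // w ∉ Submodule.span F {v} ∧ P (Submodule.span F {v, w})} =
          Set.ncard ({w | spB 2 F v w = 0} \ (Submodule.span F {v} : Set (Fin 2 ⊕ Fin 2 → F))) := by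
        refine Nat.card_congr (Equiv.subtypeEquivRight fun w => ?_)
        rw [hpair]
        exact and_comm
      rw [h4, Set.ncard_diff (by
        intro w hw
        obtain ⟨a, rfl⟩ := Submodule.mem_span_singleton.1 hw
        show spB 2 F v (a • v) = 0
        rw [map_smul, spB_isAlt.self_eq_zero, smul_zero])]
      have h5 : Set.ncard {w | spB 2 F v w = 0} = Fintype.card F ^ 3 := h3
      have h6 : (Submodule.span F {v} : Set (Fin 2 ⊕ Fin 2 → F)).ncard = Fintype.card F := by
        have : (Submodule.span F {v} : Set (Fin 2 ⊕ Fin 2 → F)).ncard = Nat.card (Submodule.span F {v}) := rfl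
        rw [this, natcard_space (F := F), finrank_span_singleton hv, pow_one]
      rw [h5, h6]
    rw [h2] at h1
    obtain ⟨q, hqe⟩ : ∃ q, q = Fintype.card F := ⟨_, rfl⟩
    rw [← hqe] at h1 hq ⊢
    obtain ⟨r, rfl⟩ : ∃ r, q = r + 1 := ⟨q - 1, by omega⟩
    have e1 : (r + 1) ^ 3 - (r + 1) = (r + 2) * (r * (r + 1)) := by
      apply Nat.sub_eq_of_eq_add; ring
    have e2 : (r + 1) ^ 2 - (r + 1) = r * (r + 1) := by
      apply Nat.sub_eq_of_eq_add; ring
    rw [e1, e2] at h1
    have h7 : 0 < r * (r + 1) := Nat.mul_pos (by omega) (by omega)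
    exact (Nat.eq_of_mul_eq_mul_right h7 h1).symm
  constructor
  · have h1 := count_lines P (fun _ => True) (fun _ _ _ _ => trivial)
    rw [Finset.sum_congr rfl (fun v _ => hthrough v.1 v.2.1), Finset.sum_const, Finset.card_univ, smul_eq_mul] at h1
    have h2 : Fintype.card {v : Fin 2 ⊕ Fin 2 → F // v ≠ 0 ∧ True} = Fintype.card F ^ 4 - 1 := by
      have : Fintype.card {v : Fin 2 ⊕ Fin 2 → F // v ≠ 0 ∧ True} = Fintype.card {v : Fin 2 ⊕ Fin 2 → F // ¬ (v = 0)} :=
        Fintype.card_congr (Equiv.subtypeEquivRight fun v => by simp)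
      rw [this, Fintype.card_subtype_compl, Fintype.card_subtype_eq]
      simp
    rw [h2] at h1
    rw [hP] at h1
    obtain ⟨q, hqe⟩ : ∃ q, q = Fintype.card F := ⟨_, rfl⟩
    rw [← hqe] at h1 hq ⊢
    obtain ⟨r, rfl⟩ : ∃ r, q = r + 1 := ⟨q - 1, by omega⟩
    have e1 : (r + 1) ^ 4 - 1 = ((r + 1) ^ 2 + 1) * (r * (r + 2)) := by
      apply Nat.sub_eq_of_eq_add; ring
    have e2 : (r + 1) ^ 2 - 1 = r * (r + 2) := by
      apply Nat.sub_eq_of_eq_add; ring
    rw [e1, e2] at h1
    have h7 : 0 < r * (r + 2) := Nat.mul_pos (by omega) (by omega)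
    apply Nat.eq_of_mul_eq_mul_right h7
    rw [← h1]; ring
  · intro v hv
    have := hthrough v hv
    rw [hP] at this
    exact this

end Cfsg.Agent.S0828
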