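import Cfsg.Statements.S0829
import Cfsg.Agent.LibH22HermL

set_option autoImplicit false
open Cfsg

namespace Cfsg.Agent.S0829
open Cfsg.Agent.H22

/-- The unitary quadrangle of PSU_4(q): with |F| = q², the number of 2-dimensional subspaces of F^4 on which the Hermitian form Σ x_i y_i^q vanishes is (q + 1)(q³ + 1). -/
theorem result {F : Type*} [Field F] [Fintype F] {q : ℕ} (hF : Fintype.card F = q ^ 2) : Nat.card {W : Submodule F (Fin 4 → F) // Module.finrank F W = 2 ∧ ∀ u ∈ W, ∀ v ∈ W, Cfsg.hermForm 4 F q u v = 0} = (q + 1) * (q ^ 3 + 1) := by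
  have hq := two_le_of_card_sq hF
  have h := count_ti_lines hF 2
  rw [cntH_zero hF, cntH_zero hF, if_pos (by decide), if_pos (by decide)] at h
  simp only [Nat.add_sub_cancel, Nat.reduceAdd, Nat.reduceSub, pow_one] at h
  have h1 : 1 < q ^ 4 := Nat.one_lt_pow (by norm_num) (by omega)
  have h2 : 1 < q ^ 2 := Nat.one_lt_pow (by norm_num) (by omega)
  have e1 : q ^ 4 - q ^ 2 = q ^ 2 * (q ^ 2 - 1) := by rw [Nat.mul_sub]; ring_nf
  rw [e1] at h
  have hpos : 0 < (q ^ 4 - 1) * (q ^ 2 * (q ^ 2 - 1)) := Nat.mul_pos (by omega) (Nat.mul_pos (by positivity) (by omega))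
  apply Nat.eq_of_mul_eq_mul_right hpos
  rw [← mul_assoc]
  refine h.trans ?_
  ring

end Cfsg.Agent.S0829
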