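import Cfsg.Statements.S0831
import Cfsg.Agent.LibH22Fam

set_option autoImplicit false
open Cfsg

namespace Cfsg.Agent.S0831
open Cfsg.Agent.H22 Module

/-- coordinate subspaces -/
def cs (F : Type*) [Field F] {m : ℕ} (s : Fin m → Bool) : Submodule F (Fin m ⊕ Fin m → F) where
  carrier := {v | ∀ i, if s i then v (.inr i) = 0 else v (.inl i) = 0}
  add_mem' := by
    intro a b ha hb i
    have h1 := ha i
    have h2 := hb i
    by_cases h : s i
    · rw [if_pos h] at h1 h2 ⊢
      rw [Pi.add_apply, h1, h2, add_zero]
    · rw [if_neg h] at h1 h2 ⊢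
      rw [Pi.add_apply, h1, h2, add_zero]
  zero_mem' := by
    intro i
    split_ifs <;> rfl
  smul_mem' := by
    intro c a ha i
    have h1 := ha i
    by_cases h : s i
    · rw [if_pos h] at h1 ⊢
      rw [Pi.smul_apply, h1, smul_zero]
    · rw [if_neg h] at h1 ⊢
      rw [Pi.smul_apply, h1, smul_zero]

lemma mem_cs {F : Type*} [Field F] {m : ℕ} {s : Fin m → Bool} {v : Fin m ⊕ Fin m → F} : v ∈ cs F s ↔ ∀ i, if s i then v (.inr i) = 0 else v (.inl i) = 0 := Iff.rfl

lemma cs_equiv (F : Type*) [Field F] {m : ℕ} (s : Fin m → Bool) : Nonempty (cs F s ≃ₗ[F] (Fin m → F)) := by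
  refine ⟨{ toFun := fun v i => if s i then v.1 (.inl i) else v.1 (.inr i)
            invFun := fun w => ⟨Sum.elim (fun i => if s i then w i else 0) (fun i => if s i then 0 else w i), ?_⟩
            map_add' := ?_, map_smul' := ?_, left_inv := ?_, right_inv := ?_ }⟩
  · intro v w
    funext i
    show (if s i then v.1 (.inl i) + w.1 (.inl i) else v.1 (.inr i) + w.1 (.inr i)) = (if s i then v.1 (.inl i) else v.1 (.inr i)) + (if s i then w.1 (.inl i) else w.1 (.inr i))
    split_ifs <;> rfl
  · intro c v
    funext i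
    show (if s i then c * v.1 (.inl i) else c * v.1 (.inr i)) = c * (if s i then v.1 (.inl i) else v.1 (.inr i))
    split_ifs <;> rfl
  · intro i
    by_cases h : s i <;> simp [h]
  · intro v
    apply Subtype.ext
    funext k
    rcases k with i | i
    · have := v.2 i
      by_cases h : s i
      · simp [h]
      · rw [if_neg h] at this; simp [h, this]
    · have := v.2 i
      by_cases h : s i
      · rw [if_pos h] at this; simp [h, this]
      · simp [h]
  · intro w
    funext i
    by_cases h : s i <;> simp [h]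

lemma cs_ts (F : Type*) [Field F] {m : ℕ} (s : Fin m → Bool) : TS (qPlus m F) m (cs F s) := by
  obtain ⟨e⟩ := cs_equiv F s
  refine ⟨by rw [e.finrank_eq, finrank_fintype_fun_eq_card, Fintype.card_fin], ?_⟩
  intro v hv
  rw [coe_qPlus]
  unfold Cfsg.quadFormPlus
  apply Finset.sum_eq_zero
  intro i _
  have := hv i
  split_ifs at this with h
  · rw [this, mul_zero]
  · rw [this, zero_mul]

/-- The two families of maximal totally singular subspaces of the hyperbolic quadric: for the form Σ x_i y_i on F^(2m), m ≥ 1, and m-dimensional subspaces U, W, X on which it vanishes, the parities of m − dim(U ∩ W), m − dim(W ∩ X) and m − dim(U ∩ X) sum to an even number (so 'even codimension of the intersection' is an equivalence relation), and there exist two such subspaces meeting in codimension 1 (so there are exactly two classes). -/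
theorem result {F : Type*} [Field F] (m : ℕ) (hm : 1 ≤ m) : (∀ U W X : Submodule F (Fin m ⊕ Fin m → F), (Module.finrank F U = m ∧ ∀ w ∈ U, Cfsg.quadFormPlus m F w = 0) → (Module.finrank F W = m ∧ ∀ w ∈ W, Cfsg.quadFormPlus m F w = 0) → (Module.finrank F X = m ∧ ∀ w ∈ X, Cfsg.quadFormPlus m F w = 0) → Even ((m - Module.finrank F ↥(U ⊓ W)) + (m - Module.finrank F ↥(W ⊓ X)) + (m - Module.finrank F ↥(U ⊓ X)))) ∧ ∃ U W : Submodule F (Fin m ⊕ Fin m → F), (Module.finrank F U = m ∧ ∀ w ∈ U, Cfsg.quadFormPlus m F w = 0) ∧ (Module.finrank F W = m ∧ ∀ w ∈ W, Cfsg.quadFormPlus m F w = 0) ∧ Module.finrank F ↥(U ⊓ W) + 1 = m := by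
  classical
  have hV : finrank F (Fin m ⊕ Fin m → F) = 2 * m := by
    rw [finrank_fintype_fun_eq_card, Fintype.card_sum, Fintype.card_fin]; ring
  constructor
  · intro U W X hU hW hX
    rw [← coe_qPlus] at hU hW hX
    exact three_even (nondeg_qPlus m) hV hU _ W X hW hX rfl
  · obtain ⟨i0, -⟩ : ∃ i : Fin m, True := ⟨⟨0, hm⟩, trivial⟩
    refine ⟨cs F (fun _ => true), cs F (fun i => if i = i0 then false else true), ?_, ?_, ?_⟩
    · rw [← coe_qPlus]; exact cs_ts F _
    · rw [← coe_qPlus]; exact cs_ts F _
    · have h1 := cs_ts F (m := m) (fun _ => true)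
      obtain ⟨f, hf⟩ : ∃ f : (Fin m ⊕ Fin m → F) →ₗ[F] F, ∀ v, f v = v (.inl i0) := ⟨LinearMap.proj _, fun v => rfl⟩
      have h2 := finrank_inf_ker (cs F (fun _ : Fin m => true)) f (by
        intro h
        have h3 : (Pi.single (.inl i0) 1 : Fin m ⊕ Fin m → F) ∈ cs F (fun _ : Fin m => true) := by
          rw [mem_cs]
          intro i
          rw [if_pos rfl]
          exact Pi.single_eq_of_ne (by simp) _
        have h4 := h h3
        rw [LinearMap.mem_ker, hf, Pi.single_eq_same] at h4
        exact one_ne_zero h4)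
      rw [h1.1] at h2
      have h3 : (cs F (fun _ : Fin m => true)) ⊓ (cs F (fun i => if i = i0 then false else true)) = (cs F (fun _ : Fin m => true)) ⊓ LinearMap.ker f := by
        ext v
        rw [Submodule.mem_inf, Submodule.mem_inf, LinearMap.mem_ker, hf]
        constructor
        · rintro ⟨ha, hb⟩
          refine ⟨ha, ?_⟩
          have := hb i0
          simpa using this
        · rintro ⟨ha, hb⟩
          refine ⟨ha, fun i => ?_⟩
          have h5 := ha i
          rw [if_pos rfl] at h5
          by_cases hi : i = i0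
          · subst hi; simpa using hb
          · simp [hi, h5]
      rw [h3]
      exact h2.symm

end Cfsg.Agent.S0831
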