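import Cfsg.Statements.S0832
import Cfsg.Agent.S0831

set_option autoImplicit false
open Cfsg

namespace Cfsg.Agent.S0832
open Cfsg.Agent.H22 Module

/-- For the form Σ x_i y_i on F^(2m) over a finite field, m ≥ 1: an (m−1)-dimensional subspace on which the form vanishes is contained in exactly two m-dimensional subspaces on which it vanishes. -/
theorem result {F : Type*} [Field F] [Finite F] (m : ℕ) (hm : 1 ≤ m) (U : Submodule F (Fin m ⊕ Fin m → F)) (hU : Module.finrank F U + 1 = m ∧ ∀ u ∈ U, Cfsg.quadFormPlus m F u = 0) : Nat.card {W : Submodule F (Fin m ⊕ Fin m → F) // Module.finrank F W = m ∧ (∀ w ∈ W, Cfsg.quadFormPlus m F w = 0) ∧ U ≤ W} = 2 := by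
  classical
  have hV : finrank F (Fin m ⊕ Fin m → F) = 2 * m := by
    rw [finrank_fintype_fun_eq_card, Fintype.card_sum, Fintype.card_fin]; ring
  rw [← coe_qPlus] at hU ⊢
  rw [← two_over (nondeg_qPlus m) hV (Cfsg.Agent.S0831.cs_ts F (fun _ => true)) U hU.1 hU.2]
  refine Nat.card_congr (Equiv.subtypeEquivRight fun W => ?_)
  unfold TS
  rw [and_assoc]

end Cfsg.Agent.S0832
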