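import Cfsg.Statements.S0833
import Cfsg.Agent.LibH22Tens

set_option autoImplicit false
open Cfsg

namespace Cfsg.Agent.S0833
open Cfsg.Agent.H22 Module

attribute [local ext] TensorProduct.ext in
lemma alt_symm {F U W : Type*} [Field F] [AddCommGroup U] [Module F U] [AddCommGroup W] [Module F W]
    {B₁ : LinearMap.BilinForm F U} {B₂ : LinearMap.BilinForm F W} (hA₁ : B₁.IsAlt) (hA₂ : B₂.IsAlt) : (B₁.tmul B₂).IsSymm := by
  rw [LinearMap.isSymm_iff_eq_flip]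
  ext x₁ x₂ y₁ y₂
  show B₂ x₂ y₂ * B₁ x₁ y₁ = B₂ y₂ x₂ * B₁ y₁ x₁
  rw [← LinearMap.BilinForm.IsAlt.neg_eq hA₁ y₁ x₁, ← LinearMap.BilinForm.IsAlt.neg_eq hA₂ y₂ x₂]
  ring

/-- If B₁, B₂ are non-degenerate alternating forms on U (dim 2k) and W (dim 2l), then B₁ ⊗ B₂ on U ⊗ W is symmetric, non-degenerate, and vanishes identically on some subspace of dimension 2kl (half of dim U ⊗ W). -/
theorem result {F U W : Type*} [Field F] [Fintype F] [AddCommGroup U] [Module F U] [FiniteDimensional F U] [AddCommGroup W] [Module F W] [FiniteDimensional F W] (B₁ : LinearMap.BilinForm F U) (B₂ : LinearMap.BilinForm F W) (h₁ : B₁.Nondegenerate) (h₂ : B₂.Nondegenerate) (hA₁ : B₁.IsAlt) (hA₂ : B₂.IsAlt) (k l : ℕ) (hU : Module.finrank F U = 2 * k) (hW : Module.finrank F W = 2 * l) : (B₁.tmul B₂).IsSymm ∧ (B₁.tmul B₂).Nondegenerate ∧ (∃ X : Submodule F (TensorProduct F U W), Module.finrank F X = 2 *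 k * l ∧ ∀ x ∈ X, ∀ y ∈ X, (B₁.tmul B₂) x y = 0) := by
  refine ⟨alt_symm hA₁ hA₂, nondeg_tmul h₁ h₂, ?_⟩
  obtain ⟨X, hX, hX0⟩ := exists_lagrangian hA₁ h₁ hU
  obtain ⟨Y, hY, hY0⟩ := ti_tmul B₂ hX hX0
  exact ⟨Y, by rw [hY, hW]; ring, hY0⟩

end Cfsg.Agent.S0833
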