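import Cfsg.Statements.S0834
import Cfsg.Agent.LibH22Tens

set_option autoImplicit false
open Cfsg

namespace Cfsg.Agent.S0834
open Cfsg.Agent.H22 Module

lemma tsymm {F U W : Type*} [Field F] [AddCommGroup U] [Module F U] [AddCommGroup W] [Module F W]
    {B₁ : LinearMap.BilinForm F U} {B₂ : LinearMap.BilinForm F W} (h₁ : B₁.IsSymm) (h₂ : B₂.IsSymm) : LinearMap.BilinForm.IsSymm (B₁.tmul B₂) := by
  have h3 : LinearMap.IsSymm B₁ := ⟨fun x y => h₁.eq x y⟩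
  have h4 : LinearMap.IsSymm B₂ := ⟨fun x y => h₂.eq x y⟩
  have h5 := LinearMap.IsSymm.tmul h3 h4
  exact ⟨fun x y => h5.eq x y⟩

/-- Over a finite field with 2 ≠ 0: if B₁ on U (dim 2k, k ≥ 1) and B₂ on W (dim 2l, l ≥ 1) are non-degenerate symmetric forms admitting no totally isotropic subspaces of dimensions k, resp. l (minus type), then B₁ ⊗ B₂ admits a totally isotropic subspace of dimension 2kl (plus type). -/
theorem result {F U W : Type*} [Field F] [Fintype F] [AddCommGroup U] [Module F U] [FiniteDimensional F U] [AddCommGroup W] [Module F W] [FiniteDimensional F W] (h2 : (2 : F) ≠ 0) (B₁ : LinearMap.BilinForm F U) (B₂ : LinearMap.BilinForm F W) (h₁ : B₁.Nondegenerate) (h₂ : B₂.Nondegenerate) (hS₁ : B₁.IsSymm) (hS₂ : B₂.IsSymm) (k l : ℕ) (hk : 1 ≤ k) (hl : 1 ≤ l) (hU : Module.finrank F U = 2 * k) (hW : Module.finrank F W = 2 * l) (hm₁ : ¬ (∃ X : Submodule F (U), Module.finrank F X = k ∧ ∀ x ∈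 X, ∀ y ∈ X, (B₁) x y = 0)) (hm₂ : ¬ (∃ X : Submodule F (W), Module.finrank F X = l ∧ ∀ x ∈ X, ∀ y ∈ X, (B₂) x y = 0)) : (∃ X : Submodule F (TensorProduct F U W), Module.finrank F X = 2 * k * l ∧ ∀ x ∈ X, ∀ y ∈ X, (B₁.tmul B₂) x y = 0) := by
  classical
  obtain ⟨b, -⟩ : ∃ b : Basis (Fin (2 * k)) F U, True := ⟨finBasisOfFinrankEq F U hU, trivial⟩
  obtain ⟨c, -⟩ : ∃ c : Basis (Fin (2 * l)) F W, True := ⟨finBasisOfFinrankEq F W hW, trivial⟩
  refine ti_of_disc h2 (nondeg_tmul h₁ h₂) (tsymm hS₁ hS₂) (n := 2 * k * l) ?_ (b.tensorProduct c) ?_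
  · rw [Module.finrank_tensorProduct, hU, hW]; ring
  · rw [Dis_tmul, Fintype.card_fin, Fintype.card_fin]
    refine ⟨(-1) ^ (k * l) * (Dis b B₁ ^ l * Dis c B₂ ^ k), ?_⟩
    rw [show 2 * k * l = (k * l) + (k * l) by ring, pow_add]
    ring

end Cfsg.Agent.S0834
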