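import Cfsg.Statements.S0835
import Cfsg.Agent.LibH22Tens

set_option autoImplicit false
open Cfsg

namespace Cfsg.Agent.S0835
open Cfsg.Agent.H22 Module

lemma tsymm {F U W : Type*} [Field F] [AddCommGroup U] [Module F U] [AddCommGroup W] [Module F W]
    {B₁ : LinearMap.BilinForm F U} {B₂ : LinearMap.BilinForm F W} (h₁ : B₁.IsSymm) (h₂ : B₂.IsSymm) : LinearMap.BilinForm.IsSymm (B₁.tmul B₂) := by
  have h3 : LinearMap.IsSymm B₁ := ⟨fun x y => h₁.eq x y⟩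
  have h4 : LinearMap.IsSymm B₂ := ⟨fun x y => h₂.eq x y⟩
  have h5 := LinearMap.IsSymm.tmul h3 h4
  exact ⟨fun x y => h5.eq x y⟩

/-- Over a finite field with 2 ≠ 0: if B₁ on U (dim 2k, k ≥ 1) is non-degenerate symmetric of minus type (no totally isotropic k-subspace) and B₂ on W (dim 2l + 1) is non-degenerate symmetric, then B₁ ⊗ B₂ (dimension 2k(2l+1)) admits no totally isotropic subspace of dimension k(2l+1) (minus type). -/
theorem result {F U W : Type*} [Field F] [Fintype F] [AddCommGroup U] [Module F U] [FiniteDimensional F U] [AddCommGroup W] [Module F W] [FiniteDimensional F W] (h2 : (2 : F) ≠ 0) (B₁ : LinearMap.BilinForm F U) (B₂ : LinearMap.BilinForm F W) (h₁ : B₁.Nondegenerate) (h₂ : B₂.Nondegenerate) (hS₁ : B₁.IsSymm) (hS₂ : B₂.IsSymm) (k l : ℕ) (hk : 1 ≤ k) (hU : Module.finrank F U = 2 * k) (hW : Module.finrank F W = 2 * l + 1) (hm₁ : ¬ (∃ X : Submodule F (U), Module.finrank F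 X = k ∧ ∀ x ∈ X, ∀ y ∈ X, (B₁) x y = 0)) : ¬ (∃ X : Submodule F (TensorProduct F U W), Module.finrank F X = k * (2 * l + 1) ∧ ∀ x ∈ X, ∀ y ∈ X, (B₁.tmul B₂) x y = 0) := by
  classical
  rintro ⟨X, hX, hX0⟩
  obtain ⟨b, -⟩ : ∃ b : Basis (Fin (2 * k)) F U, True := ⟨finBasisOfFinrankEq F U hU, trivial⟩
  obtain ⟨c, -⟩ : ∃ c : Basis (Fin (2 * l + 1)) F W, True := ⟨finBasisOfFinrankEq F W hW, trivial⟩
  have h3 := disc_of_ti (nondeg_tmul h₁ h₂) (tsymm hS₁ hS₂) (n := k * (2 * l + 1)) (by rw [Module.finrank_tensorProduct, hU, hW]; ring) hX hX0 (b.tensorProduct c)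
  rw [Dis_tmul, Fintype.card_fin, Fintype.card_fin] at h3
  have hb := Dis_ne_zero b h₁
  have hc := Dis_ne_zero c h₂
  apply hm₁
  refine ti_of_disc h2 h₁ hS₁ hU b ?_
  have h4 : (-1) ^ k * Dis b B₁ = ((-1) ^ (k * (2 * l + 1)) * (Dis b B₁ ^ (2 * l + 1) * Dis c B₂ ^ (2 * k))) / ((-1) ^ (k * l) * Dis b B₁ ^ l * Dis c B₂ ^ k) ^ 2 := by
    rw [eq_div_iff (pow_ne_zero _ (mul_ne_zero (mul_ne_zero (pow_ne_zero _ (neg_ne_zero.2 one_ne_zero)) (pow_ne_zero _ hb)) (pow_ne_zero _ hc)))]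
    ring
  rw [h4]
  exact h3.div (IsSquare.sq _)

end Cfsg.Agent.S0835
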