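import Cfsg.Statements.S0836
import Cfsg.Agent.LibH22SL

set_option autoImplicit false
open Cfsg

namespace Cfsg.Agent.S0836

/-- For i ≠ j and any scalar c, the elementary transvection 1 + c E_ij is a commutator ⁅g, h⁆ of two elements of SL_n(F) provided n ≥ 3, or n = 2 and F contains x ≠ 0 with x² ≠ 1. -/
theorem result {F : Type*} [Field F] (n : ℕ) (hn : 3 ≤ n ∨ (n = 2 ∧ ∃ x : F, x ≠ 0 ∧ x ^ 2 ≠ 1)) (i j : Fin n) (hij : i ≠ j) (c : F) (t : Matrix.SpecialLinearGroup (Fin n) F) (ht : (t : Matrix (Fin n) (Fin n) F) = Matrix.transvection i j c) : t ∈ commutatorSet (Matrix.SpecialLinearGroup (Fin n) F) := by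
  rcases hn with hn | ⟨hn, x, hx, hx2⟩
  · -- choose a third index k
    obtain ⟨k, hki, hkj⟩ : ∃ k : Fin n, k ≠ i ∧ k ≠ j := by
      have : ({i, j} : Finset (Fin n)).card < Fintype.card (Fin n) := by
        have := Finset.card_le_two (a := i) (b := j)
        simp; omega
      obtain ⟨k, hk⟩ := Finset.exists_mem_notMem_of_card_lt_card (s := {i, j}) (t := Finset.univ) (by simpa using this)
      simp at hk
      exact ⟨k, hk.1, hk.2⟩
    refine ⟨Matrix.SpecialLinearGroup.transvection (i := i) (j := k) hki.symm c,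
      Matrix.SpecialLinearGroup.transvection (i := k) (j := j) hkj 1, ?_⟩
    rw [Cfsg.Agent.H22.transvection_commutator hki.symm hkj hij c 1, mul_one]
    exact Subtype.ext ht.symm
  · subst hn
    have h3 : x ^ 2 - 1 ≠ 0 := sub_ne_zero_of_ne hx2
    obtain ⟨a, b, hab⟩ := Cfsg.Agent.H22.SL2_transvection_commutator hij c x hx hx2
    exact ⟨a, b, hab.trans (Subtype.ext ht.symm)⟩

end Cfsg.Agent.S0836
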