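import Cfsg.Statements.S0837
import Cfsg.Agent.LibH22HermD

set_option autoImplicit false
open Cfsg

namespace Cfsg.Agent.S0837
open Cfsg.Agent.H22

theorem guIso' {F : Type*} [Field F] [Fintype F] {q : ℕ} {σ : F →+* F} (n : ℕ) (hσ : ∀ x, σ x = x ^ q) : Nonempty (Cfsg.GU n F q ≃* Iso (fun x y => BH σ n x y)) :=
  ⟨guIso hσ⟩

/-- If W ≤ F^n (|F| = q²) is a k-dimensional subspace on which the Hermitian form Σ x_i y_i^q is non-degenerate, then the stabiliser of W in GU_n(q) is isomorphic to GU_k(q) × GU_(n−k)(q). -/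
theorem result {F : Type*} [Field F] [Fintype F] {q : ℕ} (hF : Fintype.card F = q ^ 2) (n k : ℕ) (hk : k ≤ n) (W : Submodule F (Fin n → F)) (hWk : Module.finrank F W = k) (hW : ∀ u ∈ W, (∀ v ∈ W, Cfsg.hermForm n F q u v = 0) → u = 0) : Nonempty (↥((Cfsg.stabilizing (Cfsg.glToMat (Fin n) F) (W : Set (Fin n → F))).subgroupOf (Cfsg.GU n F q)) ≃* ↥(Cfsg.GU k F q) × ↥(Cfsg.GU (n - k) F q)) := by
  classical
  obtain ⟨σ, hσ, hσ2, hσi⟩ := exists_sigma hF
  have hW' : ∀ u ∈ W, (∀ v ∈ W, BH σ n u v = 0) → u = 0 := by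
    intro u hu h
    apply hW u hu
    intro v hv
    rw [← BH_hermForm hσ, ← BH_symm hσ2, h v hv, map_zero]
  have hc := isCompl_hperp hσ2 hσi hW'
  obtain ⟨W', hW'd⟩ : ∃ W' : Submodule F (Fin n → F), W' = hperp σ W := ⟨_, rfl⟩
  have hmem' : ∀ x, x ∈ W' ↔ ∀ w ∈ W, BH σ n w x = 0 := by
    intro x; rw [hW'd]; exact mem_hperp
  rw [← hW'd] at hc
  have hfr' : Module.finrank F W' = n - k := by
    have := Submodule.finrank_add_eq_of_isCompl hc
    rw [hWk, Module.finrank_fintype_fun_eq_card, Fintype.card_fin] at this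
    omega
  have hdisj := hc.disjoint
  obtain ⟨φ₁, hφ₁⟩ := exists_herm_iso hσ2 hσi ((BH σ n).domRestrict₁₂ W W) (fun x y => BH_symm hσ2 x.1 y.1) (fun x hx => by
    apply Subtype.ext
    apply hW' x.1 x.2
    intro v hv
    exact hx ⟨v, hv⟩) hWk
  obtain ⟨φ₂, hφ₂⟩ := exists_herm_iso hσ2 hσi ((BH σ n).domRestrict₁₂ W' W') (fun x y => BH_symm hσ2 x.1 y.1) (fun x hx => by
    apply Subtype.ext
    apply BH_nondeg (σ := σ)
    intro y
    obtain ⟨w, hw, u, hu, rfl⟩ := Submodule.mem_sup.1 (show y ∈ W ⊔ W' by rw [hc.sup_eq_top]; trivial)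
    rw [map_add]
    have e1 : BH σ n x.1 w = 0 := by
      rw [← BH_symm hσ2, (hmem' x.1).1 x.2 w hw, map_zero]
    have e2 : BH σ n x.1 u = 0 := hx ⟨u, hu⟩
    rw [e1, e2, add_zero]) hfr'
  obtain ⟨Φ, hΦ⟩ : ∃ Φ : ((Fin k → F) × (Fin (n - k) → F)) ≃ₗ[F] (Fin n → F), ∀ x, Φ x = (φ₁ x.1 : Fin n → F) + (φ₂ x.2 : Fin n → F) :=
    ⟨(LinearEquiv.prodCongr φ₁ φ₂).trans (Submodule.prodEquivOfIsCompl W W' hc), fun x => rfl⟩
  obtain ⟨e⟩ := stab_prod (fun x y => BH σ n x y) (fun x y => BH σ k x y) (fun x y => BH σ (n - k) x y) Φ (by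
      intro x y
      simp only [hΦ, map_add, LinearMap.add_apply]
      rw [(hmem' _).1 (φ₂ y.2).2 _ (φ₁ x.1).2, ← hφ₁, ← hφ₂]
      have : BH σ n (φ₂ x.2 : Fin n → F) (φ₁ y.1 : Fin n → F) = 0 := by
        rw [← BH_symm hσ2, (hmem' _).1 (φ₂ x.2).2 _ (φ₁ y.1).2, map_zero]
      rw [this, add_zero, zero_add]
      rfl) (fun x => map_zero _) (fun x => map_zero _) (fun x => by rw [map_zero, LinearMap.zero_apply]) (fun x => by rw [map_zero, LinearMap.zero_apply])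
    (by
      intro x hx
      apply BH_nondeg (σ := σ)
      intro y
      rw [← BH_symm hσ2, hx y, map_zero]) W (by
      intro x
      rw [hΦ, Submodule.add_mem_iff_right W (φ₁ x.1).2]
      constructor
      · intro h
        have h1 : (φ₂ x.2 : Fin n → F) = 0 := Submodule.disjoint_def.1 hdisj _ h (φ₂ x.2).2
        have h2 : φ₂ x.2 = 0 := Subtype.ext h1
        exact (LinearEquiv.map_eq_zero_iff φ₂).1 h2
      · intro h
        rw [h, map_zero]; exact W.zero_mem)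
  obtain ⟨e1⟩ := guIso' k hσ
  obtain ⟨e2⟩ := guIso' (n - k) hσ
  have e0 : ↥((Cfsg.stabilizing (Cfsg.glToMat (Fin n) F) (W : Set (Fin n → F))).subgroupOf (Cfsg.GU n F q)) ≃* IsoStab (fun x y => BH σ n x y) W := by
    have hto : ∀ g : ↥((Cfsg.stabilizing (Cfsg.glToMat (Fin n) F) (W : Set (Fin n → F))).subgroupOf (Cfsg.GU n F q)), glLin g.1.1 ∈ IsoStab (fun x y => BH σ n x y) W := by
      intro g
      exact ⟨fun x y => (mem_GU_iff hσ g.1.1).1 g.1.2 x y, fun v => g.2 v⟩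
    refine MulEquiv.ofBijective (((glLin (F := F) (ι := Fin n)).toMonoidHom.comp ((Subgroup.subtype _).comp (Subgroup.subtype _))).codRestrict (IsoStab (fun x y => BH σ n x y) W) hto) ⟨?_, ?_⟩
    · intro a b h
      have h1 : glLin a.1.1 = glLin b.1.1 := congrArg Subtype.val h
      exact Subtype.ext (Subtype.ext (glLin.injective h1))
    · rintro ⟨g, hg⟩
      obtain ⟨A, rfl⟩ := glLin.surjective g
      exact ⟨⟨⟨A, (mem_GU_iff hσ A).2 hg.1⟩, fun v => hg.2 v⟩, rfl⟩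
  exact ⟨e0.trans (e.trans (MulEquiv.prodCongr e1.symm e2.symm))⟩

end Cfsg.Agent.S0837
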