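import Cfsg.Statements.S0838
import Cfsg.Agent.LibH22Exist

set_option autoImplicit false
open Cfsg

namespace Cfsg.Agent.S0838
open Cfsg.Agent.H22 Module

universe u v

theorem sim {F : Type u} [Field F] [Fintype F] (h2 : (2 : F) ≠ 0) (k : ℕ) : ∀ (V₁ V₂ : Type v) [AddCommGroup V₁] [Module F V₁] [FiniteDimensional F V₁]
    [AddCommGroup V₂] [Module F V₂] [FiniteDimensional F V₂] (Q₁ : QuadraticForm F V₁) (Q₂ : QuadraticForm F V₂)
    (_ : (QuadraticMap.polarBilin Q₁).Nondegenerate) (_ : (QuadraticMap.polarBilin Q₂).Nondegenerate) (_ : finrank F V₁ = 2 * k + 1) (_ : finrank F V₂ = 2 * k + 1),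
    ∃ (g : V₁ ≃ₗ[F] V₂) (c : F), c ≠ 0 ∧ ∀ v, Q₂ (g v) = c * Q₁ v := by
  induction k with
  | zero =>
    intro V₁ V₂ _ _ _ _ _ _ Q₁ Q₂ hQ₁ hQ₂ hd₁ hd₂
    obtain ⟨g⟩ : Nonempty (V₁ ≃ₗ[F] V₂) := ⟨LinearEquiv.ofFinrankEq V₁ V₂ (by rw [hd₁, hd₂])⟩
    obtain ⟨e, he0, he⟩ := finrank_eq_one_iff'.1 hd₁
    have key : ∀ (V : Type v) [AddCommGroup V] [Module F V] (Q : QuadraticForm F V) (_ : (QuadraticMap.polarBilin Q).Nondegenerate) (x : V), x ≠ 0 →
        (∀ y, ∃ c : F, c • x = y) → Q x ≠ 0 := by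
      intro V _ _ Q hQ x hx hspan h0
      apply hx
      apply hQ.1
      intro y
      obtain ⟨c, rfl⟩ := hspan y
      show QuadraticMap.polar Q x (c • x) = 0
      rw [QuadraticMap.polar_smul_right, pself, h0]
      simp
    have h1 := key V₁ Q₁ hQ₁ e he0 he
    have h3 := key V₂ Q₂ hQ₂ (g e) (fun h => he0 (by simpa using h)) (fun y => by
      obtain ⟨c, hc⟩ := he (g.symm y)
      exact ⟨c, by rw [← map_smul, hc, LinearEquiv.apply_symm_apply]⟩)
    refine ⟨g, Q₂ (g e) / Q₁ e, div_ne_zero h3 h1, fun v => ?_⟩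
    obtain ⟨c, rfl⟩ := he v
    rw [map_smul, qsmul, qsmul]
    field_simp
  | succ k ih =>
    intro V₁ V₂ _ _ _ _ _ _ Q₁ Q₂ hQ₁ hQ₂ hd₁ hd₂
    obtain ⟨e, he0, he⟩ := exists_singular hQ₁ (by omega)
    obtain ⟨f, hf⟩ := exists_HP_of_singular hQ₁ e he0 he
    obtain ⟨e', he0', he'⟩ := exists_singular hQ₂ (by omega)
    obtain ⟨f', hf'⟩ := exists_HP_of_singular hQ₂ e' he0' he'
    have hr := hf.finrank_eq
    have hr' := hf'.finrank_eq
    obtain ⟨g, c, hc, hg⟩ := ih (perp2 Q₁ e f) (perp2 Q₂ e' f') (qres Q₁ _) (qres Q₂ _) (hf.nondeg hQ₁) (hf'.nondeg hQ₂) (by omega) (by omega)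
    refine ⟨(hf.equiv.trans (LinearEquiv.prodCongr (LinearEquiv.prodCongr (LinearEquiv.smulOfNeZero F F c hc) (LinearEquiv.refl F F)) g)).trans hf'.equiv.symm, c, hc, fun v => ?_⟩
    obtain ⟨⟨⟨a, b⟩, w⟩, rfl⟩ := hf.equiv.symm.surjective v
    have h1 : (((hf.equiv.trans (LinearEquiv.prodCongr (LinearEquiv.prodCongr (LinearEquiv.smulOfNeZero F F c hc) (LinearEquiv.refl F F)) g)).trans hf'.equiv.symm) (hf.equiv.symm ((a, b), w))) =
        hf'.equiv.symm ((c * a, b), g w) := by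
      simp only [LinearEquiv.trans_apply, LinearEquiv.apply_symm_apply]
      rfl
    rw [h1, HP.equiv_symm_apply, HP.equiv_symm_apply, hf.Q_decomp, hf'.Q_decomp]
    have h3 := hg w
    rw [qres_apply, qres_apply] at h3
    rw [h3]
    ring

/-- Over a finite field with 2 ≠ 0 and n odd: two quadratic forms Q₁, Q₂ on F^n with non-degenerate polar forms are similar — there are an invertible linear map g and a scalar c ≠ 0 with Q₂ (g v) = c · Q₁ v for all v. -/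
theorem result {F : Type*} [Field F] [Fintype F] (h2 : (2 : F) ≠ 0) {n : ℕ} (hn : Odd n) (Q₁ Q₂ : QuadraticForm F (Fin n → F)) (h₁ : (QuadraticMap.polarBilin Q₁).Nondegenerate) (h₂ : (QuadraticMap.polarBilin Q₂).Nondegenerate) : ∃ (g : (Fin n → F) ≃ₗ[F] (Fin n → F)) (c : F), c ≠ 0 ∧ ∀ v, Q₂ (g v) = c * Q₁ v := by
  obtain ⟨k, hk⟩ := hn
  exact sim h2 k (Fin n → F) (Fin n → F) Q₁ Q₂ h₁ h₂ (by rw [finrank_fintype_fun_eq_card, Fintype.card_fin, hk]) (by rw [finrank_fintype_fun_eq_card, Fintype.card_fin, hk])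

end Cfsg.Agent.S0838
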