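import Cfsg.Statements.S0839
import Cfsg.Agent.LibH22SL

set_option autoImplicit false
open Cfsg

namespace Cfsg.Agent.S0839
open Cfsg.Agent.H22

/-- Every transvection t ∈ SL_(n+2)(F) (rank(t − 1) = 1, (t − 1)² = 0) is conjugate in SL_(n+2)(F) to 1 + v·e_0ᵀ for some column vector v with v_0 = 0 (the group A of matrices that are the identity except in the first column below the diagonal); the dimension is written n + 2 ≥ 2. -/
theorem result {F : Type*} [Field F] (n : ℕ) (t : Matrix.SpecialLinearGroup (Fin (n + 2)) F) (ht : Cfsg.IsTransvection (t : Matrix (Fin (n + 2)) (Fin (n + 2)) F)) : ∃ (g : Matrix.SpecialLinearGroup (Fin (n + 2)) F) (v : Fin (n + 2) → F), v 0 = 0 ∧ ((g⁻¹ * t * g : Matrix.SpecialLinearGroup (Fin (n + 2)) F) : Matrix (Fin (n + 2)) (Fin (n + 2)) F) = 1 + Matrix.vecMulVec v (Pi.single 0 1) := by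
  classical
  obtain ⟨hr, hsq⟩ := ht
  obtain ⟨N, hN⟩ : ∃ N : Matrix (Fin (n + 2)) (Fin (n + 2)) F, N = (t : Matrix (Fin (n + 2)) (Fin (n + 2)) F) - 1 := ⟨_, rfl⟩
  rw [← hN] at hr hsq
  -- rank one decomposition
  obtain ⟨a, φ, ha, hφ, hNa⟩ : ∃ a φ : Fin (n + 2) → F, a ≠ 0 ∧ φ ≠ 0 ∧ N = Matrix.vecMulVec a φ := by
    obtain ⟨a', ha'0, ha'⟩ := finrank_eq_one_iff'.1 (show Module.finrank F (LinearMap.range N.mulVecLin) = 1 from hr)
    have h1 : ∀ j, ∃ c : F, c • (a' : Fin (n + 2) → F) = N.mulVec (Pi.single j 1) := by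
      intro j
      obtain ⟨c, hc⟩ := ha' ⟨N.mulVec (Pi.single j 1), ⟨Pi.single j 1, rfl⟩⟩
      exact ⟨c, congrArg Subtype.val hc⟩
    choose c hc using h1
    have hNeq : N = Matrix.vecMulVec (a' : Fin (n + 2) → F) c := by
      ext i j
      have := congrFun (hc j) i
      rw [Matrix.mulVec_single_one] at this
      rw [Matrix.vecMulVec_apply]
      rw [Pi.smul_apply, smul_eq_mul] at this
      rw [mul_comm]
      exact this.symm
    refine ⟨a', c, fun h => ha'0 (Subtype.ext h), fun h => ?_, hNeq⟩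
    rw [hNeq, h] at hr
    rw [Matrix.vecMulVec_zero, Matrix.rank_zero] at hr
    exact absurd hr (by norm_num)
  have hφa : dotProduct φ a = 0 := by
    rw [hNa, Matrix.vecMulVec_mul_vecMulVec] at hsq
    obtain ⟨i, hi⟩ : ∃ i, a i ≠ 0 := by
      by_contra hcon; push Not at hcon; exact ha (funext hcon)
    obtain ⟨j, hj⟩ : ∃ j, φ j ≠ 0 := by
      by_contra hcon; push Not at hcon; exact hφ (funext hcon)
    have h1 := congrFun (congrFun hsq i) j
    simp only [Matrix.vecMulVec_apply, Matrix.smul_apply, Matrix.zero_apply, smul_eq_mul, Pi.smul_apply] at h1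
    rcases mul_eq_zero.1 h1 with h2 | h2
    · first | exact h2 | exact absurd h2 hi | exact (mul_eq_zero.1 h2).resolve_right hi | exact (mul_eq_zero.1 h2).resolve_left hi
    · first | exact h2 | exact absurd h2 hj | exact (mul_eq_zero.1 h2).resolve_right hj | exact (mul_eq_zero.1 h2).resolve_left hj
  -- the functional
  obtain ⟨f, hf⟩ : ∃ f : (Fin (n + 2) → F) →ₗ[F] F, ∀ x, f x = dotProduct φ x :=
    ⟨{ toFun := fun x => dotProduct φ x, map_add' := fun x y => dotProduct_add φ x y, map_smul' := fun c x => dotProduct_smul c φ x }, fun x => rfl⟩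
  obtain ⟨j, hj⟩ : ∃ j, φ j ≠ 0 := by
    by_contra hcon; push Not at hcon; exact hφ (funext hcon)
  have hfx : f (Pi.single j 1) ≠ 0 := by
    rw [hf, dotProduct_single_one]; exact hj
  have hf0 : f ≠ 0 := by rintro rfl; exact hfx rfl
  have hker : Module.finrank F (LinearMap.ker f) = n + 1 := by
    have h1 := LinearMap.finrank_range_add_finrank_ker f
    rw [LinearMap.range_eq_top.2 (LinearMap.surjective hf0), finrank_top, Module.finrank_self, Module.finrank_fintype_fun_eq_card, Fintype.card_fin] at h1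
    omega
  obtain ⟨b⟩ : Nonempty (Module.Basis (Fin (n + 1)) F (LinearMap.ker f)) := ⟨Module.finBasisOfFinrankEq F _ hker⟩
  obtain ⟨r, hrr⟩ : ∃ r : Fin (n + 2) → (Fin (n + 2) → F), r = Fin.cons (Pi.single j 1) (fun i => (b i : Fin (n + 2) → F)) := ⟨_, rfl⟩
  have hli : LinearIndependent F r := by
    rw [hrr, linearIndependent_fin_cons]
    constructor
    · exact b.linearIndependent.map' (LinearMap.ker f).subtype (Submodule.ker_subtype _)
    · intro hmem
      have hle : Submodule.span F (Set.range fun i => (b i : Fin (n + 2) → F)) ≤ LinearMap.ker f := by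
        rw [Submodule.span_le]
        rintro _ ⟨i, rfl⟩
        exact (b i).2
      exact hfx (LinearMap.mem_ker.1 (hle hmem))
  have hdet0 : (Matrix.of r).det ≠ 0 := by
    have h1 : LinearIndependent F (Matrix.of r).row := hli
    rw [Matrix.linearIndependent_rows_iff_isUnit, Matrix.isUnit_iff_isUnit_det] at h1
    exact h1.ne_zero
  obtain ⟨d, hd⟩ : ∃ d, d = (Matrix.of r).det := ⟨_, rfl⟩
  rw [← hd] at hdet0
  obtain ⟨M, hM⟩ : ∃ M : Matrix (Fin (n + 2)) (Fin (n + 2)) F, M = (Matrix.of r).updateRow 0 (d⁻¹ • r 0) := ⟨_, rfl⟩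
  have hMdet : M.det = 1 := by
    rw [hM, Matrix.det_updateRow_smul]
    have : (Matrix.of r).updateRow 0 (r 0) = Matrix.of r := Matrix.updateRow_eq_self _ _
    rw [this, ← hd, inv_mul_cancel₀ hdet0]
  obtain ⟨g, hg⟩ : ∃ g : Matrix.SpecialLinearGroup (Fin (n + 2)) F, (g : Matrix (Fin (n + 2)) (Fin (n + 2)) F) = M.transpose :=
    ⟨⟨M.transpose, by rw [Matrix.det_transpose, hMdet]⟩, rfl⟩
  obtain ⟨c, hc⟩ : ∃ c, c = d⁻¹ * φ j := ⟨_, rfl⟩
  have hφg : Matrix.vecMul φ (g : Matrix (Fin (n + 2)) (Fin (n + 2)) F) = c • Pi.single 0 1 := by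
    rw [hg, Matrix.vecMul_transpose]
    ext i
    refine Fin.cases ?_ (fun i => ?_) i
    · show dotProduct (M 0) φ = _
      rw [hM, Matrix.updateRow_self, smul_dotProduct, dotProduct_comm, hrr, Fin.cons_zero, dotProduct_single_one, hc]
      simp
    · show dotProduct (M i.succ) φ = _
      rw [hM, Matrix.updateRow_ne (Fin.succ_ne_zero i)]
      have h1 : (Matrix.of r) i.succ = (b i : Fin (n + 2) → F) := by
        rw [hrr]; rfl
      rw [h1, dotProduct_comm, ← hf, LinearMap.mem_ker.1 (b i).2]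
      simp
  have hginv : ((g⁻¹ : Matrix.SpecialLinearGroup (Fin (n + 2)) F) : Matrix (Fin (n + 2)) (Fin (n + 2)) F) * (g : Matrix (Fin (n + 2)) (Fin (n + 2)) F) = 1 := by
    rw [← Matrix.SpecialLinearGroup.coe_mul, inv_mul_cancel, Matrix.SpecialLinearGroup.coe_one]
  have hginv2 : (g : Matrix (Fin (n + 2)) (Fin (n + 2)) F) * ((g⁻¹ : Matrix.SpecialLinearGroup (Fin (n + 2)) F) : Matrix (Fin (n + 2)) (Fin (n + 2)) F) = 1 := by
    rw [← Matrix.SpecialLinearGroup.coe_mul, mul_inv_cancel, Matrix.SpecialLinearGroup.coe_one]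
  refine ⟨g, c • Matrix.mulVec ((g⁻¹ : Matrix.SpecialLinearGroup (Fin (n + 2)) F) : Matrix (Fin (n + 2)) (Fin (n + 2)) F) a, ?_, ?_⟩
  · have h1 : dotProduct (Matrix.vecMul φ (g : Matrix (Fin (n + 2)) (Fin (n + 2)) F)) (Matrix.mulVec ((g⁻¹ : Matrix.SpecialLinearGroup (Fin (n + 2)) F) : Matrix (Fin (n + 2)) (Fin (n + 2)) F) a) = 0 := by
      rw [← Matrix.dotProduct_mulVec, Matrix.mulVec_mulVec, hginv2, Matrix.one_mulVec, hφa]
    rw [hφg, smul_dotProduct, single_one_dotProduct] at h1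
    exact h1
  · have ht : (t : Matrix (Fin (n + 2)) (Fin (n + 2)) F) = 1 + N := by rw [hN]; abel
    rw [Matrix.SpecialLinearGroup.coe_mul, Matrix.SpecialLinearGroup.coe_mul, ht, Matrix.mul_add, Matrix.add_mul, mul_one, hginv, hNa]
    congr 1
    rw [Matrix.mul_vecMulVec, Matrix.vecMulVec_mul, hφg]
    ext i k
    simp only [Matrix.vecMulVec_apply, Pi.smul_apply, smul_eq_mul]
    ring

end Cfsg.Agent.S0839
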