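import Cfsg.Statements.S0841
import Mathlib

set_option autoImplicit false
set_option linter.all false
open Cfsg

namespace Cfsg.Agent.S0841

open scoped commutatorElement

/-- If the commutator subgroup of G lies in the centre, then for all x, y in G and every natural number n one has (x * y) ^ n = x ^ n * y ^ n * c ^ (n * (n - 1) / 2) with c = y⁻¹ * x⁻¹ * y * x. -/
theorem result {G : Type*} [Group G] (hG : commutator G ≤ Subgroup.center G) (x y : G) (n : ℕ) : (x * y) ^ n = x ^ n * y ^ n * (y⁻¹ * x⁻¹ * y * x) ^ (n * (n - 1) / 2) := by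
  have hcen : ∀ a b : G, (y⁻¹ * x⁻¹ * y * x) * a = a * (y⁻¹ * x⁻¹ * y * x) := by
    intro a b
    have h1 : y⁻¹ * x⁻¹ * y * x ∈ commutator G := by
      have : y⁻¹ * x⁻¹ * y * x = ⁅y⁻¹, x⁻¹⁆ := by
        rw [commutatorElement_def]; group
      rw [this]
      exact Subgroup.commutator_mem_commutator (Subgroup.mem_top _) (Subgroup.mem_top _)
    exact (Subgroup.mem_center_iff.mp (hG h1) a).symm
  set c := y⁻¹ * x⁻¹ * y * x with hc
  have hyx : y * x = x * y * c := by rw [hc]; group
  have hpow : ∀ k : ℕ, y ^ k * x = x * y ^ k * c ^ k := by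
    intro k
    induction k with
    | zero => simp
    | succ k ih =>
      have hcc : ∀ m : ℕ, ∀ a : G, c ^ m * a = a * c ^ m := fun m a => by
        have : Commute c a := hcen a 1
        exact (this.pow_left m)
      calc y ^ (k + 1) * x = y * (y ^ k * x) := by rw [pow_succ']; group
        _ = y * x * y ^ k * c ^ k := by rw [ih]; group
        _ = x * y * (c * y ^ k) * c ^ k := by rw [hyx]; group
        _ = x * (y * y ^ k) * (c * c ^ k) := by rw [hcen (y ^ k) 1]; group
        _ = x * y ^ (k + 1) * c ^ (k + 1) := by rw [← pow_succ', ← pow_succ']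
  have hcc : ∀ m : ℕ, ∀ a : G, c ^ m * a = a * c ^ m := fun m a => by
    have : Commute c a := hcen a 1
    exact (this.pow_left m)
  induction n with
  | zero => simp
  | succ k ih =>
    have harith : (k + 1) * (k + 1 - 1) / 2 = k * (k - 1) / 2 + k := by
      rcases k with _ | k
      · simp
      · have : (k + 1 + 1) * (k + 1 + 1 - 1) = (k + 1) * (k + 1 - 1) + (k + 1) * 2 := by
          simp only [Nat.add_sub_cancel]; ring
        rw [this, Nat.add_mul_div_right _ _ (by norm_num)]
    rw [harith, pow_succ, ih]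
    calc x ^ k * y ^ k * c ^ (k * (k - 1) / 2) * (x * y) = x ^ k * y ^ k * (x * y) * c ^ (k * (k - 1) / 2) := by
          rw [mul_assoc (x ^ k * y ^ k), hcc]; group
      _ = x ^ k * (y ^ k * x) * y * c ^ (k * (k - 1) / 2) := by group
      _ = x ^ k * x * y ^ k * (c ^ k * y) * c ^ (k * (k - 1) / 2) := by rw [hpow]; group
      _ = x ^ k * x * (y ^ k * y) * (c ^ k * c ^ (k * (k - 1) / 2)) := by rw [hcc k y]; simp only [mul_assoc]
      _ = _ := by rw [← pow_succ, ← pow_succ, ← pow_add, Nat.add_comm (k * (k - 1) / 2) k]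

end Cfsg.Agent.S0841
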