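import Cfsg.Statements.S0842
import Cfsg.Agent.LibBSz3

set_option autoImplicit false
set_option linter.all false
open Cfsg

namespace Cfsg.Agent.S0842

open CfsgLib.BSz

/-- Suppose a Sylow 2-subgroup S of the finite group G is generalized quaternion of order at least 16, and let D be the commutator subgroup of S, C its centralizer and N its normalizer in G. Then there is a subgroup K of odd order, contained in C and normalized by N, with K ⊔ S = N and K ⊔ (S ⊓ C) = C, and C has index 2 in N. -/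
theorem result {G : Type*} [Group G] [Finite G] (S : Sylow 2 G) (n : ℕ) (e : (S : Subgroup G) ≃* QuaternionGroup (2 ^ (n + 2))) (D : Subgroup G) (hD : D = ⁅(S : Subgroup G), (S : Subgroup G)⁆) : ∃ K : Subgroup G, Odd (Nat.card K) ∧ K ≤ Subgroup.centralizer (D : Set G) ∧ Subgroup.normalizer (D : Set G) ≤ Subgroup.normalizer (K : Set G) ∧ K ⊔ (S : Subgroup G) = Subgroup.normalizer (D : Set G) ∧ K ⊔ ((S : Subgroup G) ⊓ Subgroup.centralizer (D : Set G)) = Subgroup.centralizer (D : Set G) ∧ ((Subgroup.centralizer (D : Set G)).subgroupOf (Subgroup.normalizer (D : Set G))).index = 2 := by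
  obtain ⟨a, x, h⟩ := exists_QD (S : Subgroup G) n e
  subst hD
  rw [h.comm_eq]
  obtain ⟨K, hKC, hK, hodd, hgen⟩ := exists_K h
  have hCN : Subgroup.centralizer ((Subgroup.zpowers (a ^ 2) : Subgroup G) : Set G) ≤ Subgroup.normalizer ((Subgroup.zpowers (a ^ 2) : Subgroup G) : Set G) :=
    Subgroup.centralizer_le_normalizer _
  have hCn := (Subgroup.normal_subgroupOf_iff hCN).mp (by rw [← Subgroup.normalizerMonoidHom_ker]; infer_instance)
  have hconj : ∀ g ∈ Subgroup.normalizer ((Subgroup.zpowers (a ^ 2) : Subgroup G) : Set G), ∀ k ∈ K, g * k * g⁻¹ ∈ K := by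
    intro g hg k hk
    rw [hK]
    refine ⟨hCn k g (hKC hk) hg, ?_⟩
    rw [order_conj]
    exact ((hK k).mp hk).2
  have haC : a ∈ Subgroup.centralizer ((Subgroup.zpowers (a ^ 2) : Subgroup G) : Set G) := a_mem_C h
  refine ⟨K, hodd, hKC, ?_, ?_, ?_, (relIndex_CN h).1⟩
  · intro g hg
    rw [Subgroup.mem_normalizer_iff]
    intro k
    refine ⟨hconj g hg k, fun h1 => ?_⟩
    have := hconj g⁻¹ (Subgroup.inv_mem _ hg) _ h1
    simpa [mul_assoc] using this
  · apply le_antisymm (sup_le (hKC.trans hCN) h.S_le_norm)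
    intro g hg
    rcases N_cases h hg with h1 | h1
    · obtain ⟨k, hk, j, rfl⟩ := hgen g h1
      exact Subgroup.mul_mem _ (Subgroup.mem_sup_left hk) (Subgroup.mem_sup_right (Subgroup.zpow_mem _ h.ha j))
    · obtain ⟨k, hk, j, hj⟩ := hgen _ h1
      have : g = x * (k * a ^ j) := by rw [← hj]; group
      rw [this]
      exact Subgroup.mul_mem _ (Subgroup.mem_sup_right h.hx) (Subgroup.mul_mem _ (Subgroup.mem_sup_left hk) (Subgroup.mem_sup_right (Subgroup.zpow_mem _ h.ha j)))
  · rw [h.inf_cent]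
    apply le_antisymm (sup_le hKC (Subgroup.zpowers_le.mpr haC))
    intro g hg
    obtain ⟨k, hk, j, rfl⟩ := hgen g hg
    exact Subgroup.mul_mem _ (Subgroup.mem_sup_left hk) (Subgroup.mem_sup_right (Subgroup.zpow_mem_zpowers _ _))

end Cfsg.Agent.S0842
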