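import Cfsg.Statements.S0843
import Cfsg.Agent.LibBSz3

set_option autoImplicit false
set_option linter.all false
open Cfsg

namespace Cfsg.Agent.S0843

open CfsgLib.BSz

/-- Suppose a Sylow 2-subgroup S of the finite group G is generalized quaternion of order at least 16; let D be the commutator subgroup of S and X the set of elements of the centralizer of D whose order is divisible by the order of D. Then D is contained in the cyclic subgroup generated by any element of X; an element of G conjugating some element of X into the centralizer of D normalizes D; and the normalizer of D maps X to itself under conjugation. -/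
theorem result {G : Type*} [Group G] [Finite G] (S : Sylow 2 G) (n : ℕ) (e : (S : Subgroup G) ≃* QuaternionGroup (2 ^ (n + 2))) (D : Subgroup G) (hD : D = ⁅(S : Subgroup G), (S : Subgroup G)⁆) : (∀ y : G, y ∈ Subgroup.centralizer (D : Set G) → Nat.card D ∣ orderOf y → D ≤ Subgroup.zpowers y) ∧ (∀ g y : G, y ∈ Subgroup.centralizer (D : Set G) → Nat.card D ∣ orderOf y → g * y * g⁻¹ ∈ Subgroup.centralizer (D : Set G) → g ∈ Subgroup.normalizer (D : Set G)) ∧ (∀ g y : G, g ∈ Subgroup.normalizer (D : Set G) → y ∈ Subgroup.centralizer (D : Set G) → Nat.card D ∣ orderOf y → g * y * g⁻¹ ∈ Subgroup.centralizer (D : Set G) ∧ Nat.card D ∣ orderOf (g * y * g⁻¹)) := by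
  obtain ⟨a, x, h⟩ := exists_QD (S : Subgroup G) n e
  subst hD
  rw [h.comm_eq]
  have hc : Nat.card (Subgroup.zpowers (a ^ 2)) = 2 ^ (n + 2) := by rw [Nat.card_zpowers, h.order_sq]
  rw [hc]
  refine ⟨fun y hy ho => D_le h hy ho, fun g y hy ho hg => conj_mem_N h hy ho hg, fun g y hg hy ho => ⟨?_, by rw [order_conj]; exact ho⟩⟩
  have hCN : Subgroup.centralizer ((Subgroup.zpowers (a ^ 2) : Subgroup G) : Set G) ≤ Subgroup.normalizer ((Subgroup.zpowers (a ^ 2) : Subgroup G) : Set G) :=
    Subgroup.centralizer_le_normalizer _
  have hCn := (Subgroup.normal_subgroupOf_iff hCN).mp (by rw [← Subgroup.normalizerMonoidHom_ker]; infer_instance)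
  exact hCn y g hy hg

end Cfsg.Agent.S0843
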