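import Cfsg.Statements.S0848
import Mathlib
import Cfsg.Agent.LibDi11f

set_option autoImplicit false
set_option linter.all false
open Cfsg

namespace Cfsg.Agent.S0848

open Subgroup Cfsg CfsgLib.Di11

theorem hom_trivial {G : Type*} [Group G] (hperf : commutator G = ⊤) {A : Type*} [CommGroup A] (f : G →* A) (g : G) : f g = 1 := by
  have h1 := Abelianization.commutator_subset_ker f
  rw [hperf] at h1
  exact h1 (mem_top g)

theorem not_sym {G : Type*} [Group G] (hperf : commutator G = ⊤) {n : ℕ} (hn : 2 ≤ n) : ¬ Nonempty (G ≃* Equiv.Perm (Fin n)) := by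
  rintro ⟨e⟩
  obtain ⟨m, rfl⟩ : ∃ m, n = m + 2 := ⟨n - 2, by omega⟩
  have h1 := hom_trivial hperf (Equiv.Perm.sign.comp e.toMonoidHom) (e.symm (Equiv.swap 0 1))
  simp at h1

theorem not_isolated {G : Type*} [Group G] [Finite G] (hperf : commutator G = ⊤) {z a b : G} (h : DD z a b)
    (htop : centralizer ({z} : Set G) ⊔ oddCore G = ⊤) : False := by
  obtain ⟨N, hN⟩ : ∃ N, N = oddCore G := ⟨_, rfl⟩
  haveI hNn : N.Normal := by rw [hN]; unfold oddCore; infer_instance
  have hNodd : (Nat.card N).Coprime 2 := by rw [hN]; exact CfsgLib.Cores.pPrimeCore_coprime 2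
  rw [← hN] at htop
  haveI : Fact (Nat.Prime 2) := ⟨Nat.prime_two⟩
  haveI : Group.IsNilpotent (centralizer ({z} : Set G)) := h.isPGroup.isNilpotent
  haveI : Group.IsSolvable (centralizer ({z} : Set G)) := inferInstance
  have hsurj : Function.Surjective ((QuotientGroup.mk' N).comp (centralizer ({z} : Set G)).subtype) := by
    rw [← MonoidHom.range_eq_top, MonoidHom.range_eq_map, ← Subgroup.map_map, ← MonoidHom.range_eq_map, Subgroup.range_subtype]
    have h1 : (centralizer ({z} : Set G) ⊔ N).map (QuotientGroup.mk' N) = ⊤ := by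
      rw [htop, ← MonoidHom.range_eq_map, MonoidHom.range_eq_top]
      exact QuotientGroup.mk'_surjective N
    rw [Subgroup.map_sup, QuotientGroup.map_mk'_self, sup_bot_eq] at h1
    exact h1
  haveI hs : Group.IsSolvable (G ⧸ N) := solvable_of_surjective hsurj
  have hcomm : commutator (G ⧸ N) = ⊤ := by
    rw [_root_.commutator_def, ← (MonoidHom.range_eq_top.2 (QuotientGroup.mk'_surjective N)), MonoidHom.range_eq_map, ← Subgroup.map_commutator, ← _root_.commutator_def, hperf]
  have hNt : N ≠ ⊤ := by
    intro h1
    have hzN : z ∈ N := h1 ▸ mem_top z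
    have hoz : orderOf z = 2 := orderOf_eq_prime (by rw [pow_two]; exact h.zz) h.z1
    have h2 : orderOf z ∣ Nat.card N := Subgroup.orderOf_dvd_natCard _ hzN
    rw [hoz] at h2
    have h3 := Nat.Coprime.eq_one_of_dvd hNodd.symm h2
    omega
  haveI : Nontrivial (G ⧸ N) := QuotientGroup.nontrivial_iff.2 hNt
  exact absurd hcomm (IsSolvable.commutator_lt_top_of_nontrivial (G ⧸ N)).ne

theorem not_b {G : Type*} [Group G] [Finite G] (hperf : commutator G = ⊤) {z a b : G} (h : DD z a b)
    (hb : IsConj z b) (hba : ¬ IsConj z (b * a)) : False := by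
  rcases h.order_b hb hba with h1 | h1
  · exact not_sym hperf (by norm_num) (h.sym_four hb h1)
  · exact not_sym hperf (by norm_num) (h.sym_five hb hba h1)

/-- If a finite group equals its own commutator subgroup and contains an involution whose centralizer is isomorphic to the dihedral group of order 8, then the group has order 168 or 360. -/
theorem result {G : Type*} [Group G] [Finite G] (hperf : commutator G = ⊤) (t : G) (ht : orderOf t = 2) (e : Subgroup.centralizer ({t} : Set G) ≃* DihedralGroup 4) : Nat.card G = 168 ∨ Nat.card G = 360 := by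
  obtain ⟨a, b, h⟩ := exists_DD ht e
  by_cases hb : IsConj t b
  · by_cases hba : IsConj t (b * a)
    · exact h.order_c hb hba
    · exact absurd (not_b hperf h hb hba) id
  · by_cases hba : IsConj t (b * a)
    · exfalso
      apply not_b hperf (h.swap (mem_zpowers a)) hba
      intro h1
      apply hb
      have h2 : b * a * a = b * t := by rw [mul_assoc, h.aa]
      rw [h2] at h1
      exact h1.trans h.conj_b.symm
    · exact absurd (not_isolated hperf h (h.isolated hb hba)) id

end Cfsg.Agent.S0848
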