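import Cfsg.Statements.S0849
import Cfsg.Agent.LibTI

set_option autoImplicit false
set_option linter.all false
open Cfsg

namespace Cfsg.Agent.S0849

open CfsgLib.CharBasic CfsgLib.CharIndA

/-- Let H be a subgroup of a finite group G and S a subset of H that is mapped to itself under conjugation by H, is disjoint from its conjugate by any element outside H, and is closed under inverses. Let φ be a class function of H vanishing on H away from S, and let u, v be involutions of G. Then the sum of the induced function of φ over all products a * b with a conjugate to u and b conjugate to v equals the index of H times the sum of φ (a * b) over such pairs with a and b in H. -/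
theorem result {G : Type*} [Group G] [Fintype G] (H : Subgroup G) (S : Set G) (hSH : S ⊆ H) (hHS : ∀ h ∈ H, ∀ s ∈ S, h * s * h⁻¹ ∈ S) (hTI : ∀ g : G, g ∉ H → ∀ s ∈ S, g * s * g⁻¹ ∉ S) (hinv : ∀ s ∈ S, s⁻¹ ∈ S) (φ : H → ℂ) (hφ : Cfsg.IsClassFunction H φ) (hφS : ∀ x : H, (x : G) ∉ S → φ x = 0) (u v : G) (hu : orderOf u = 2) (hv : orderOf v = 2) : ∑ᶠ p ∈ {p : G × G | IsConj u p.1 ∧ IsConj v p.2}, Cfsg.indFun H φ (p.1 * p.2) = (H.index : ℂ) * ∑ᶠ p ∈ {p : H × H | IsConj u (p.1 : G) ∧ IsConj v (p.2 : G)}, φ (p.1 * p.2) := by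
  classical
  haveI := Fintype.ofFinite H
  have hu2 : ∀ a : G, IsConj u a → a * a = 1 := by
    intro a ha
    obtain ⟨c, hc⟩ := isConj_iff.mp ha
    have h1 : u * u = 1 := by have := pow_orderOf_eq_one u; rw [hu, pow_two] at this; exact this
    rw [← hc]
    calc c * u * c⁻¹ * (c * u * c⁻¹) = c * (u * u) * c⁻¹ := by group
      _ = 1 := by rw [h1]; group
  have hv2 : ∀ a : G, IsConj v a → a * a = 1 := by
    intro a ha
    obtain ⟨c, hc⟩ := isConj_iff.mp ha
    have h1 : v * v = 1 := by have := pow_orderOf_eq_one v; rw [hv, pow_two] at this; exact this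
    rw [← hc]
    calc c * v * c⁻¹ * (c * v * c⁻¹) = c * (v * v) * c⁻¹ := by group
      _ = 1 := by rw [h1]; group
  rw [finsum_mem_def, finsum_mem_def, finsum_eq_sum_of_fintype, finsum_eq_sum_of_fintype]
  -- the sum over `H × H`
  let F : G × G → ℂ := fun p => if IsConj u p.1 ∧ IsConj v p.2 then extendByZero H φ (p.1 * p.2) else 0
  have hR : ∑ p : H × H, Set.indicator {p : H × H | IsConj u (p.1 : G) ∧ IsConj v (p.2 : G)} (fun p => φ (p.1 * p.2)) p = ∑ p : G × G, F p := by
    apply Fintype.sum_of_injective (fun p : H × H => ((p.1 : G), (p.2 : G)))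
    · intro p q hpq
      have h1 := congrArg Prod.fst hpq
      have h2 := congrArg Prod.snd hpq
      exact Prod.ext (Subtype.ext h1) (Subtype.ext h2)
    · rintro ⟨a, b⟩ hab
      show (if IsConj u a ∧ IsConj v b then extendByZero H φ (a * b) else 0) = 0
      split_ifs with hc
      · by_cases hm : a * b ∈ H
        · rw [ext_mem _ _ hm]
          apply hφS
          intro hs
          have ha2 := hu2 a hc.1
          have hb2 := hv2 b hc.2
          have hainv : a⁻¹ = a := inv_eq_of_mul_eq_one_left ha2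
          have hbinv : b⁻¹ = b := inv_eq_of_mul_eq_one_left hb2
          have haH : a ∈ H := by
            by_contra hna
            apply hTI a hna _ hs
            have e1 : a * (a * b) * a⁻¹ = (a * b)⁻¹ := by
              rw [mul_inv_rev, ← mul_assoc, ha2, one_mul, hbinv]
            rw [e1]; exact hinv _ hs
          have hbH : b ∈ H := by
            have := H.mul_mem (H.inv_mem haH) hm
            simpa using this
          exact hab ⟨(⟨a, haH⟩, ⟨b, hbH⟩), rfl⟩
        · exact ext_not_mem _ _ hm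
      · rfl
    · rintro ⟨a, b⟩
      show _ = (if IsConj u (a : G) ∧ IsConj v (b : G) then extendByZero H φ ((a : G) * b) else 0)
      rw [Set.indicator_apply]
      by_cases hc : IsConj u (a : G) ∧ IsConj v (b : G)
      · rw [if_pos hc, if_pos (show (a, b) ∈ {p : H × H | IsConj u (p.1 : G) ∧ IsConj v (p.2 : G)} from hc)]
        exact (ext_coe H φ (a * b)).symm
      · rw [if_neg hc, if_neg (show (a, b) ∉ {p : H × H | IsConj u (p.1 : G) ∧ IsConj v (p.2 : G)} from hc)]
  rw [hR]
  have hL : ∀ p : G × G, Set.indicator {p : G × G | IsConj u p.1 ∧ IsConj v p.2} (fun p => Cfsg.indFun H φ (p.1 * p.2)) p =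
      (Nat.card H : ℂ)⁻¹ * ∑ x : G, F (x⁻¹ * p.1 * x, x⁻¹ * p.2 * x) := by
    rintro ⟨a, b⟩
    rw [Set.indicator_apply]
    have hcj : ∀ (w c x : G), IsConj w (x⁻¹ * c * x) ↔ IsConj w c := by
      intro w c x
      have h1 : IsConj c (x⁻¹ * c * x) := isConj_iff.mpr ⟨x⁻¹, by simp⟩
      exact ⟨fun h => h.trans h1.symm, fun h => h.trans h1⟩
    have hF : ∀ x : G, F (x⁻¹ * a * x, x⁻¹ * b * x) = if IsConj u a ∧ IsConj v b then extendByZero H φ (x⁻¹ * (a * b) * x) else 0 := by
      intro x
      show (if IsConj u (x⁻¹ * a * x) ∧ IsConj v (x⁻¹ * b * x) then extendByZero H φ (x⁻¹ * a * x * (x⁻¹ * b * x)) else 0) = _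
      have e : x⁻¹ * a * x * (x⁻¹ * b * x) = x⁻¹ * (a * b) * x := by group
      rw [e]
      simp only [hcj]
    rw [Finset.sum_congr rfl fun x _ => hF x]
    by_cases hc : IsConj u a ∧ IsConj v b
    · rw [if_pos (show (a, b) ∈ {p : G × G | IsConj u p.1 ∧ IsConj v p.2} from hc), ind_apply]
      simp only [if_pos hc]
    · rw [if_neg (show (a, b) ∉ {p : G × G | IsConj u p.1 ∧ IsConj v p.2} from hc)]
      simp only [if_neg hc, Finset.sum_const_zero, mul_zero]
  rw [Finset.sum_congr rfl fun p _ => hL p, ← Finset.mul_sum, Finset.sum_comm]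
  have hx : ∀ x : G, ∑ p : G × G, F (x⁻¹ * p.1 * x, x⁻¹ * p.2 * x) = ∑ p : G × G, F p := by
    intro x
    apply Fintype.sum_equiv (Equiv.prodCongr (MulAut.conj x⁻¹).toEquiv (MulAut.conj x⁻¹).toEquiv)
    rintro ⟨a, b⟩
    show F (x⁻¹ * a * x, x⁻¹ * b * x) = F (x⁻¹ * a * x⁻¹⁻¹, x⁻¹ * b * x⁻¹⁻¹)
    rw [inv_inv]
  rw [Finset.sum_congr rfl fun x _ => hx x, Finset.sum_const, nsmul_eq_mul, Finset.card_univ, ← Nat.card_eq_fintype_card, ← mul_assoc]
  congr 1
  have hH : (Nat.card H : ℂ) ≠ 0 := by exact_mod_cast Nat.card_pos.ne'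
  rw [← Subgroup.card_mul_index H]
  push_cast
  field_simp

end Cfsg.Agent.S0849
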