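import Cfsg.Statements.S0851
import Cfsg.Agent.LibFrobK

set_option autoImplicit false
set_option linter.all false
open Cfsg

namespace Cfsg.Agent.S0851

open CfsgLib.CharBasic CfsgLib.FrobK CfsgLib.CharIndA

/-- Let K be a subgroup of the finite group G that meets each conjugate by an element outside its normalizer N trivially, is properly contained in N, and contains the centralizer of each of its non-identity elements (a T.I. subgroup with Frobenius normalizer). Suppose K is abelian, let e be the index of K in N, and call an irreducible character of N relevant when it takes at some element of K a value different from its degree. Then either there is exactly one relevant character and K is an elementary abelian p-group of order e + 1 for some prime p, or there are a sign ε and an injective map f from the relevant characters to the irreducible characters of G such that inducing χ - ξ to G gives ε (f χ - f ξ) for all relevant χ and ξ. -/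
theorem result {G : Type*} [Group G] [Fintype G] (K : Subgroup G) (hTI : ∀ g : G, g ∉ Subgroup.normalizer (K : Set G) → ∀ k ∈ K, g * k * g⁻¹ ∈ K → k = 1) (hlt : K < Subgroup.normalizer (K : Set G)) (hC : ∀ k ∈ K, k ≠ 1 → Subgroup.centralizer ({k} : Set G) ≤ K) (hab : ∀ a ∈ K, ∀ b ∈ K, a * b = b * a) : (Nat.card {χ : Cfsg.IrrCharacter (Subgroup.normalizer (K : Set G)) // ∃ k : Subgroup.normalizer (K : Set G), (k : G) ∈ K ∧ (χ : ↥(Subgroup.normalizer (K : Set G)) → ℂ) k ≠ (χ : ↥(Subgroup.normalizer (K : Set G)) → ℂ) 1} = 1 ∧ ∃ p : ℕ, p.Prime ∧ Cfsg.IsElementaryAbelian p K ∧ Nat.card K = (K.subgroupOf (Subgroup.normalizer (K : Set G))).index + 1) ∨ ∃ (ε : ℂ) (f : {χ : Cfsg.IrrCharacter (Subgroup.normalizer (K : Set G)) // ∃ k : Subgroup.normalizer (K : Set G), (k : G) ∈ K ∧ (χ : ↥(Subgroup.normalizer (K : Set G)) → ℂ) k ≠ (χ : ↥(Subgroup.normalizer (K : Set G)) → ℂ) 1} → Cfsg.IrrCharacter G), (ε = 1 ∨ ε = -1) ∧ Function.Injective f ∧ ∀ χ ξ, Cfsg.indFun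 (Subgroup.normalizer (K : Set G)) ((χ.1 : ↥(Subgroup.normalizer (K : Set G)) → ℂ) - (ξ.1 : ↥(Subgroup.normalizer (K : Set G)) → ℂ)) = ε • ((f χ : G → ℂ) - (f ξ : G → ℂ)) := by
  right
  classical
  haveI := Fintype.ofFinite ↥(Subgroup.normalizer (K : Set G))
  haveI := Fintype.ofFinite ↥(K.subgroupOf (Subgroup.normalizer (K : Set G)))
  have hfpf := fpf (hC' (K := K) hC)
  have hrel : ∀ χ : {χ : Cfsg.IrrCharacter (Subgroup.normalizer (K : Set G)) // ∃ k : Subgroup.normalizer (K : Set G), (k : G) ∈ K ∧ (χ : ↥(Subgroup.normalizer (K : Set G)) → ℂ) k ≠ (χ : ↥(Subgroup.normalizer (K : Set G)) → ℂ) 1},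
      Rel (K.subgroupOf (Subgroup.normalizer (K : Set G))) (χ.1 : ↥(Subgroup.normalizer (K : Set G)) → ℂ) := by
    intro χ
    obtain ⟨k, hk, hne⟩ := χ.2
    exact ⟨χ.1.2, k, Subgroup.mem_subgroupOf.mpr hk, hne⟩
  have hdeg : ∀ χ ξ : {χ : Cfsg.IrrCharacter (Subgroup.normalizer (K : Set G)) // ∃ k : Subgroup.normalizer (K : Set G), (k : G) ∈ K ∧ (χ : ↥(Subgroup.normalizer (K : Set G)) → ℂ) k ≠ (χ : ↥(Subgroup.normalizer (K : Set G)) → ℂ) 1},
      (χ.1 : ↥(Subgroup.normalizer (K : Set G)) → ℂ) 1 = (ξ.1 : ↥(Subgroup.normalizer (K : Set G)) → ℂ) 1 := by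
    have key : ∀ χ : {χ : Cfsg.IrrCharacter (Subgroup.normalizer (K : Set G)) // ∃ k : Subgroup.normalizer (K : Set G), (k : G) ∈ K ∧ (χ : ↥(Subgroup.normalizer (K : Set G)) → ℂ) k ≠ (χ : ↥(Subgroup.normalizer (K : Set G)) → ℂ) 1},
        (χ.1 : ↥(Subgroup.normalizer (K : Set G)) → ℂ) 1 = ((K.subgroupOf (Subgroup.normalizer (K : Set G))).index : ℂ) := by
      intro χ
      obtain ⟨θ, hθ, -, he⟩ := rel_exists normal' hfpf (hrel χ)
      rw [he, ind_one, irr_degree_one_of_comm _ hθ, mul_one]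
      intro a b
      apply Subtype.ext
      apply Subtype.ext
      exact hab _ (Subgroup.mem_subgroupOf.mp a.2) _ (Subgroup.mem_subgroupOf.mp b.2)
    intro χ ξ
    rw [key, key]
  have hoff : ∀ χ : {χ : Cfsg.IrrCharacter (Subgroup.normalizer (K : Set G)) // ∃ k : Subgroup.normalizer (K : Set G), (k : G) ∈ K ∧ (χ : ↥(Subgroup.normalizer (K : Set G)) → ℂ) k ≠ (χ : ↥(Subgroup.normalizer (K : Set G)) → ℂ) 1},
      ∀ x : ↥(Subgroup.normalizer (K : Set G)), (x : G) ∉ K → (χ.1 : ↥(Subgroup.normalizer (K : Set G)) → ℂ) x = 0 :=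
    fun χ x hx => rel_off normal' hfpf (hrel χ) (fun h => hx (Subgroup.mem_subgroupOf.mp h))
  by_cases hemp : IsEmpty {χ : Cfsg.IrrCharacter (Subgroup.normalizer (K : Set G)) // ∃ k : Subgroup.normalizer (K : Set G), (k : G) ∈ K ∧ (χ : ↥(Subgroup.normalizer (K : Set G)) → ℂ) k ≠ (χ : ↥(Subgroup.normalizer (K : Set G)) → ℂ) 1}
  · exact ⟨1, fun χ => (hemp.false χ).elim, Or.inl rfl, fun χ => (hemp.false χ).elim, fun χ => (hemp.false χ).elim⟩
  · rw [not_isEmpty_iff] at hemp
    obtain ⟨i₀⟩ := hemp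
    obtain ⟨ε, hε, μ, h1, h2, h3⟩ := CfsgLib.Exc.exceptional_ind (N := Subgroup.normalizer (K : Set G)) i₀
      (fun χ : {χ : Cfsg.IrrCharacter (Subgroup.normalizer (K : Set G)) // ∃ k : Subgroup.normalizer (K : Set G), (k : G) ∈ K ∧ (χ : ↥(Subgroup.normalizer (K : Set G)) → ℂ) k ≠ (χ : ↥(Subgroup.normalizer (K : Set G)) → ℂ) 1} => (χ.1 : ↥(Subgroup.normalizer (K : Set G)) → ℂ)) (fun χ => χ.1.2)
      (fun χ ξ h => Subtype.ext (Subtype.ext h)) hdeg (fun i j => by
        apply ind_isom hTI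
        · exact classFun_sub (irr_classFun j.1.2) (irr_classFun i₀.1.2)
        · intro x hx; rw [Pi.sub_apply, hoff i x hx, hoff i₀ x hx, sub_zero]
        · rw [Pi.sub_apply, hdeg i i₀, sub_self]
        · intro x hx; rw [Pi.sub_apply, hoff j x hx, hoff i₀ x hx, sub_zero]
        · rw [Pi.sub_apply, hdeg j i₀, sub_self])
    refine ⟨ε, fun χ => ⟨μ χ, h1 χ⟩, hε, fun χ ξ h => h2 (congrArg Subtype.val h), fun χ ξ => ?_⟩
    rw [ind_sub]
    exact h3 χ ξ

end Cfsg.Agent.S0851
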