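import Cfsg.Statements.S4456
import Cfsg.Agent.LibResid19

set_option autoImplicit false
open Cfsg

namespace Cfsg.Agent.S4456


/-- Let p be a prime and G a finite group such that p divides the degree of every irreducible character of G of degree greater than one. Then G has a normal p-complement: a normal subgroup of order prime to p whose index is a power of p. -/
theorem result {G : Type*} [Group G] [Finite G] (p : ℕ) (hp : p.Prime) (hdeg : ∀ χ : Cfsg.IrrCharacter G, Cfsg.charDegree (χ : G → ℂ) ≠ 1 → p ∣ Cfsg.charDegree (χ : G → ℂ)) : ∃ N : Subgroup G, N.Normal ∧ (Nat.card N).Coprime p ∧ ∃ k : ℕ, N.index = p ^ k := by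
  haveI : Fact p.Prime := ⟨hp⟩
  haveI hN : (Cfsg.pResidual p G).Normal := CfsgLib.TransFus.pResidual_normal p
  have h1 := CfsgLib.Resid19.thompson hdeg
  refine ⟨Cfsg.pResidual p G, hN, (Nat.coprime_comm.1 ((Nat.Prime.coprime_iff_not_dvd hp).2 h1)), ?_⟩
  have h2 : IsPGroup p (G ⧸ Cfsg.pResidual p G) := CfsgLib.TransFus.isPGroup_quotient_pResidual (Cfsg.pResidual p G) le_rfl
  obtain ⟨k, hk⟩ := (IsPGroup.iff_card).1 h2
  exact ⟨k, by rw [Subgroup.index]; exact hk⟩

end Cfsg.Agent.S4456
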