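import Cfsg.Statements.S0855
import Mathlib
import Cfsg.Agent.S4456
import Cfsg.Agent.LibCharMore
import Cfsg.Agent.LibClifford2
-- import your own Cfsg.Agent.* helpers here

set_option autoImplicit false
open Cfsg

namespace Cfsg.Agent.S0855

open CfsgLib.CharBasic CfsgLib.CharIndA CfsgLib.CharNorm CfsgLib.Clifford CfsgLib.CharMore
open scoped commutatorElement

/-- For a finite group G and a prime p: every irreducible character of G has degree a power of p if and only if G has an abelian normal subgroup whose order is prime to p and whose index is a power of p. -/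
theorem result {G : Type*} [Group G] [Finite G] (p : ℕ) (hp : p.Prime) : (∀ χ : Cfsg.IrrCharacter G, ∃ k : ℕ, (χ : G → ℂ) 1 = (p : ℂ) ^ k) ↔ ∃ A : Subgroup G, A.Normal ∧ (∀ a ∈ A, ∀ b ∈ A, a * b = b * a) ∧ Nat.Coprime (Nat.card A) p ∧ ∃ k : ℕ, A.index = p ^ k := by
    classical
    haveI : Fintype G := Fintype.ofFinite G
    constructor
    · intro hdeg
      have hdeg' : ∀ χ : Cfsg.IrrCharacter G, ∃ k : ℕ, charDegree (χ : G → ℂ) = p ^ k := by
        intro χ
        obtain ⟨k, hk⟩ := hdeg χ
        refine ⟨k, ?_⟩
        rw [CfsgLib.CharInt.irr_one_eq_charDegree χ.2] at hk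
        exact_mod_cast hk
      obtain ⟨N, hN, hcop, k, hk⟩ := Cfsg.Agent.S4456.result p hp (fun χ h1 => by
        obtain ⟨k, hk⟩ := hdeg' χ
        rw [hk] at h1 ⊢
        rcases Nat.eq_zero_or_pos k with h0 | h0
        · rw [h0, pow_zero] at h1; exact absurd rfl h1
        · exact dvd_pow_self p h0.ne')
      haveI : Fintype N := Fintype.ofFinite N
      refine ⟨N, hN, ?_, hcop, k, hk⟩
      -- all irreducible characters of N are linear
      have hlin : ∀ θ : N → ℂ, IsIrrCharacter N θ → θ 1 = 1 := by
        intro θ hθ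
        obtain ⟨χ, hχ, hne⟩ := exists_above N hθ
        have h1 := clifford_degree hN hχ hθ hne
        obtain ⟨e, he⟩ := char_mult (isCharacter_restrict (irr_isCharacter hχ) N) (irr_isCharacter hθ)
        obtain ⟨d, hd0, hd⟩ := irr_one_nat hθ
        obtain ⟨j, hj⟩ := hdeg ⟨χ, hχ⟩
        simp only at hj
        rw [hj, he, hd] at h1
        have h2 : p ^ j = e * (inertia hN θ).index * d := by exact_mod_cast h1
        have h3 : d ∣ p ^ j := ⟨e * (inertia hN θ).index, by rw [h2]; ring⟩
        have h4 : d ∣ Nat.card N := by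
          have h5 := CfsgLib.CharInt2.charDegree_dvd_card hθ
          have h6 : (charDegree θ : ℂ) = (d : ℂ) := by
            rw [← hd, CfsgLib.CharInt.irr_one_eq_charDegree hθ]
          have h7 : charDegree θ = d := by exact_mod_cast h6
          rwa [h7] at h5
        have h5 : d = 1 := Nat.eq_one_of_dvd_coprimes (hcop.pow_right j) h4 h3
        rw [hd, h5, Nat.cast_one]
      have h6 := card_linear (G := N)
      have h7 := sum_sq_degree (G := N)
      rw [Finset.sum_congr rfl (g := fun _ => (1 : ℂ)) (fun χ _ => by rw [hlin χ χ.2, one_pow]), Finset.sum_const,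
        nsmul_eq_mul, mul_one, Finset.card_univ] at h7
      have h8 : Nat.card {χ : Cfsg.IrrCharacter N // (χ : N → ℂ) 1 = 1} = Nat.card (Cfsg.IrrCharacter N) :=
        Nat.card_congr (Equiv.subtypeUnivEquiv (fun χ => hlin χ χ.2))
      rw [h8, Nat.card_eq_fintype_card] at h6
      have h9 : (commutator N).index = Nat.card N := by
        rw [← h6]; exact_mod_cast h7
      have h10 : Nat.card (commutator N) = 1 := by
        have h11 := (commutator N).card_mul_index
        rw [h9] at h11
        exact Nat.eq_of_mul_eq_mul_right Nat.card_pos (by rw [h11, one_mul])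
      rw [Subgroup.card_eq_one] at h10
      intro a ha b hb
      have h12 : ⁅(⟨a, ha⟩ : N), (⟨b, hb⟩ : N)⁆ ∈ commutator N := Subgroup.commutator_mem_commutator (Subgroup.mem_top _) (Subgroup.mem_top _)
      rw [h10, Subgroup.mem_bot, commutatorElement_eq_one_iff_mul_comm] at h12
      exact congrArg Subtype.val h12
    · rintro ⟨A, hA, hab, -, k, hk⟩ χ
      have h1 := ito χ.2 A hab
      rw [hk, Nat.dvd_prime_pow hp] at h1
      obtain ⟨j, -, hj⟩ := h1
      refine ⟨j, ?_⟩
      rw [CfsgLib.CharInt.irr_one_eq_charDegree χ.2, hj]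
      push_cast; rfl

end Cfsg.Agent.S0855
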