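import Cfsg.Statements.S0856
import Cfsg.Agent.LibGallagher

set_option autoImplicit false
set_option linter.all false
open Cfsg

namespace Cfsg.Agent.S0856

open CfsgLib.CharBasic CfsgLib.Gallagher CfsgLib.Clifford
open scoped ComplexConjugate

/-- Let N be a normal subgroup of the finite group G and φ, ϑ irreducible characters of N that are invariant under conjugation by G, such that the pointwise product φ * ϑ is irreducible and ϑ is the restriction of an irreducible character χ of G. Then multiplication by χ is a bijection from the set of irreducible characters of G having nonzero inner product with the function induced from φ onto the set of those having nonzero inner product with the function induced from φ * ϑ. -/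
theorem result {G : Type*} [Group G] [Fintype G] (N : Subgroup G) [hN : N.Normal] (φ ϑ : N → ℂ) (hφ : Cfsg.IsIrrCharacter N φ) (hϑ : Cfsg.IsIrrCharacter N ϑ) (hφinv : ∀ (g : G) (n : N), φ ⟨g * n * g⁻¹, hN.conj_mem (n : G) n.2 g⟩ = φ n) (hϑinv : ∀ (g : G) (n : N), ϑ ⟨g * n * g⁻¹, hN.conj_mem (n : G) n.2 g⟩ = ϑ n) (hprod : Cfsg.IsIrrCharacter N (φ * ϑ)) (χ : G → ℂ) (hχ : Cfsg.IsIrrCharacter G χ) (hext : ∀ n : N, χ n = ϑ n) : Set.BijOn (fun β : G → ℂ => β * χ) {β : G → ℂ | Cfsg.IsIrrCharacter G β ∧ Cfsg.classInner (Cfsg.indFun N φ) β ≠ 0} {ψ : G → ℂ | Cfsg.IsIrrCharacter G ψ ∧ Cfsg.classInner (Cfsg.indFun N (φ * ϑ)) ψ ≠ 0} := by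
  classical
  haveI := Fintype.ofFinite N
  have hχc := irr_isCharacter hχ
  have hφc := irr_isCharacter hφ
  have hφG : IsCharacter G (indFun N φ) := CfsgLib.CharIndA.isCharacter_ind N hφc
  obtain ⟨e, he, hexp, hnorm⟩ := char_expand hφG
  have hmul : indFun N (φ * ϑ) = indFun N φ * χ := by
    rw [← CfsgLib.CharIndA.ind_mul_restrict N φ (char_classFun hχc)]
    congr 1
    ext n
    simp [hext n]
  have hI1 : inertia hN φ = ⊤ := by
    rw [eq_top_iff]; intro g _
    rw [mem_inertia]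
    ext n; exact hφinv g n
  have hI2 : inertia hN (φ * ϑ) = ⊤ := by
    rw [eq_top_iff]; intro g _
    rw [mem_inertia]
    ext n
    change φ _ * ϑ _ = _
    rw [hφinv g n, hϑinv g n]; rfl
  have hn1 : classInner (indFun N φ) (indFun N φ) = classInner (indFun N (φ * ϑ)) (indFun N (φ * ϑ)) := by
    rw [ci_ind_self hN hφ, ci_ind_self hN hprod, hI1, hI2]
  have hdd : ∀ β γ : IrrCharacter G, ∃ k : ℕ, classInner ((β : G → ℂ) * χ) ((γ : G → ℂ) * χ) = k := fun β γ =>
    char_mult (isCharacter_mul (irr_isCharacter β.2) hχc) (isCharacter_mul (irr_isCharacter γ.2) hχc)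
  choose d hd using hdd
  have hd1 : ∀ β, 1 ≤ d β β := by
    intro β
    rw [Nat.one_le_iff_ne_zero]
    intro h
    have h1 := hd β β
    rw [h, Nat.cast_zero] at h1
    have h2 := inner_self_eq_zero h1
    have h3 := congrFun h2 1
    rw [Pi.mul_apply, Pi.zero_apply] at h3
    exact (mul_ne_zero (irr_one_ne_zero β.2) (irr_one_ne_zero hχ)) h3
  have hexp2 : indFun N (φ * ϑ) = ∑ β : IrrCharacter G, (e β : ℂ) • ((β : G → ℂ) * χ) := by
    rw [hmul, hexp, Finset.sum_mul]
    exact Finset.sum_congr rfl fun β _ => by rw [smul_mul_assoc]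
  have hinner : ∀ ψ : G → ℂ, classInner (indFun N (φ * ϑ)) ψ = ∑ β : IrrCharacter G, (e β : ℂ) * classInner ((β : G → ℂ) * χ) ψ := by
    intro ψ
    rw [hexp2, CfsgLib.CharNorm.ci_sum_l]
    exact Finset.sum_congr rfl fun β _ => by rw [CfsgLib.CharNorm.ci_smul_l]
  have hnorm2 : classInner (indFun N (φ * ϑ)) (indFun N (φ * ϑ)) = ((∑ β : IrrCharacter G, ∑ γ : IrrCharacter G, e β * (e γ * d β γ) : ℕ) : ℂ) := by
    rw [hinner]
    push_cast
    refine Finset.sum_congr rfl fun β _ => ?_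
    rw [hexp2, CfsgLib.CharNorm.ci_sum_r, Finset.mul_sum]
    refine Finset.sum_congr rfl fun γ _ => ?_
    rw [CfsgLib.CharNorm.ci_smul_r, Complex.conj_natCast, hd]
  have hN1 : ∑ β : IrrCharacter G, e β ^ 2 = ∑ β : IrrCharacter G, ∑ γ : IrrCharacter G, e β * (e γ * d β γ) := by
    rw [hnorm, hnorm2] at hn1
    exact_mod_cast hn1
  have hterm : ∀ β γ : IrrCharacter G, e β * (e γ * (if β = γ then 1 else 0)) ≤ e β * (e γ * d β γ) := by
    intro β γ
    apply Nat.mul_le_mul_left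
    apply Nat.mul_le_mul_left
    split_ifs with h
    · subst h; exact hd1 β
    · exact Nat.zero_le _
  have hN2 : ∑ β : IrrCharacter G, ∑ γ : IrrCharacter G, e β * (e γ * (if β = γ then 1 else 0)) = ∑ β : IrrCharacter G, e β ^ 2 := by
    refine Finset.sum_congr rfl fun β _ => ?_
    rw [Finset.sum_eq_single β]
    · rw [if_pos rfl]; ring
    · intro γ _ hne; rw [if_neg (Ne.symm hne)]; ring
    · intro h; exact absurd (Finset.mem_univ _) h
  have hall : ∀ β γ : IrrCharacter G, e β * (e γ * (if β = γ then 1 else 0)) = e β * (e γ * d β γ) := by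
    rw [← hN2] at hN1
    have h1 := (Finset.sum_eq_sum_iff_of_le (fun β _ => Finset.sum_le_sum fun γ _ => hterm β γ)).mp hN1
    intro β γ
    exact (Finset.sum_eq_sum_iff_of_le (fun γ _ => hterm β γ)).mp (h1 β (Finset.mem_univ β)) γ (Finset.mem_univ γ)
  have hdelta : ∀ β γ : IrrCharacter G, e β ≠ 0 → e γ ≠ 0 → d β γ = if β = γ then 1 else 0 := by
    intro β γ hβ hγ
    have h1 := hall β γ
    have h2 := Nat.eq_of_mul_eq_mul_left (Nat.pos_of_ne_zero hβ) h1
    exact (Nat.eq_of_mul_eq_mul_left (Nat.pos_of_ne_zero hγ) h2).symm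
  have hirr : ∀ β : IrrCharacter G, e β ≠ 0 → IsIrrCharacter G ((β : G → ℂ) * χ) := by
    intro β hβ
    rw [irr_iff_norm_one]
    refine ⟨isCharacter_mul (irr_isCharacter β.2) hχc, ?_⟩
    rw [hd, hdelta β β hβ hβ, if_pos rfl]; simp
  have hmulne : ∀ β γ : IrrCharacter G, e β ≠ 0 → e γ ≠ 0 → (β : G → ℂ) * χ = (γ : G → ℂ) * χ → β = γ := by
    intro β γ hβ hγ h
    by_contra hne
    have h1 := hd β γ
    rw [h, irr_inner_self (hirr γ hγ), hdelta β γ hβ hγ, if_neg hne] at h1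
    simp at h1
  refine ⟨?_, ?_, ?_⟩
  · rintro β ⟨hβ, hm⟩
    have heβ : e ⟨β, hβ⟩ ≠ 0 := by
      intro h; apply hm; rw [show classInner (indFun N φ) β = _ from he ⟨β, hβ⟩, h, Nat.cast_zero]
    refine ⟨hirr ⟨β, hβ⟩ heβ, ?_⟩
    rw [hinner, Finset.sum_eq_single ⟨β, hβ⟩]
    · rw [hd ⟨β, hβ⟩ ⟨β, hβ⟩, hdelta _ _ heβ heβ, if_pos rfl]
      simpa using heβ
    · intro γ _ hne
      by_cases heγ : e γ = 0
      · rw [heγ]; simp
      · rw [hd γ ⟨β, hβ⟩, hdelta _ _ heγ heβ, if_neg hne]; simp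
    · intro h; exact absurd (Finset.mem_univ _) h
  · rintro β ⟨hβ, hm⟩ γ ⟨hγ, hm'⟩ h
    have heβ : e ⟨β, hβ⟩ ≠ 0 := by
      intro h; apply hm; rw [show classInner (indFun N φ) β = _ from he ⟨β, hβ⟩, h, Nat.cast_zero]
    have heγ : e ⟨γ, hγ⟩ ≠ 0 := by
      intro h; apply hm'; rw [show classInner (indFun N φ) γ = _ from he ⟨γ, hγ⟩, h, Nat.cast_zero]
    exact congrArg Subtype.val (hmulne ⟨β, hβ⟩ ⟨γ, hγ⟩ heβ heγ h)
  · rintro ψ ⟨hψ, hm⟩
    rw [hinner] at hm
    obtain ⟨β, -, hβ⟩ := Finset.exists_ne_zero_of_sum_ne_zero hm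
    have heβ : e β ≠ 0 := fun h => hβ (by rw [h]; simp)
    have h1 : classInner ((β : G → ℂ) * χ) ψ ≠ 0 := right_ne_zero_of_mul hβ
    refine ⟨β, ⟨β.2, ?_⟩, ?_⟩
    · rw [he]; exact_mod_cast heβ
    · by_contra hne
      exact h1 (irr_inner_ne (hirr β heβ) hψ hne)

end Cfsg.Agent.S0856
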