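import Cfsg.Statements.S0857
import Mathlib
import Cfsg.Agent.LibAbCliff15
-- import your own Cfsg.Agent.* helpers here

set_option autoImplicit false
open Cfsg

namespace Cfsg.Agent.S0857

open CfsgLib.CharBasic CfsgLib.CharIndA CfsgLib.CharNorm CfsgLib.Clifford CfsgLib.Glaub4 CfsgLib.AbCliff CfsgLib.CharMore
open scoped ComplexConjugate

theorem self_le {G : Type*} [Group G] [Fintype G] (N : Subgroup G) [Fintype N] (χ : G → ℂ) (hχ : Cfsg.IsIrrCharacter G χ)
    {r : ℝ} (hr : classInner (fun n : N => χ n) (fun n : N => χ n) = (r : ℂ)) :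
    r * Nat.card N ≤ Nat.card G ∧ (r * Nat.card N = Nat.card G ↔ ∀ g : G, g ∉ N → χ g = 0) := by
  classical
  have h1 := irr_inner_self hχ
  rw [inner_self_eq] at h1 hr
  have h2 : ((Nat.card G : ℝ)⁻¹ * ∑ g : G, ‖χ g‖ ^ 2 : ℝ) = 1 := by exact_mod_cast h1
  have h3 : ((Nat.card N : ℝ)⁻¹ * ∑ g : N, ‖χ g‖ ^ 2 : ℝ) = r := by exact_mod_cast hr
  have hG : (Nat.card G : ℝ) ≠ 0 := by exact_mod_cast Nat.card_pos.ne'
  have hN : (Nat.card N : ℝ) ≠ 0 := by exact_mod_cast Nat.card_pos.ne'
  rw [inv_mul_eq_iff_eq_mul₀ hG, mul_one] at h2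
  rw [inv_mul_eq_iff_eq_mul₀ hN, mul_comm] at h3
  have h4 : ∑ g : N, ‖χ g‖ ^ 2 = ∑ g ∈ Finset.univ.filter (fun g : G => g ∈ N), ‖χ g‖ ^ 2 := by
    rw [Finset.sum_subtype (Finset.univ.filter (fun g : G => g ∈ N)) (p := fun g => g ∈ N) (by simp)]
  have h5 := Finset.sum_filter_add_sum_filter_not Finset.univ (fun g : G => g ∈ N) (fun g => ‖χ g‖ ^ 2)
  rw [← h4, h3, h2] at h5
  have h6 : 0 ≤ ∑ g ∈ Finset.univ.filter (fun g : G => g ∉ N), ‖χ g‖ ^ 2 := Finset.sum_nonneg fun _ _ => by positivity
  refine ⟨by linarith, ?_, ?_⟩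
  · intro heq g hg
    have h7 : ∑ g ∈ Finset.univ.filter (fun g : G => g ∉ N), ‖χ g‖ ^ 2 = 0 := by linarith
    rw [Finset.sum_eq_zero_iff_of_nonneg (fun _ _ => by positivity)] at h7
    have h8 := h7 g (Finset.mem_filter.2 ⟨Finset.mem_univ _, hg⟩)
    simpa using h8
  · intro h0
    have h7 : ∑ g ∈ Finset.univ.filter (fun g : G => g ∉ N), ‖χ g‖ ^ 2 = 0 := by
      apply Finset.sum_eq_zero
      intro g hg
      rw [h0 g (Finset.mem_filter.1 hg).2]; simp
    linarith

/-- Let L < K be normal subgroups of the finite group G with no normal subgroup of G strictly between them and with K / L abelian (the commutator subgroup of K lies in L). Let ϑ be an irreducible character of K invariant under conjugation by G. Then the restriction of ϑ to L is irreducible; or it equals e times an irreducible character of L with e ^ 2 equal to the index of L in K; or it is the sum of a family of pairwise distinct irreducible characters of L indexed by a set whose size is the index of L in K. -/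
theorem result {G : Type*} [Group G] [Fintype G] (K L : Subgroup G) [hK : K.Normal] [L.Normal] (hLK : L < K) (hchief : ∀ M : Subgroup G, M.Normal → L ≤ M → M ≤ K → M = L ∨ M = K) (hab : ⁅K, K⁆ ≤ L) (ϑ : K → ℂ) (hϑ : Cfsg.IsIrrCharacter K ϑ) (hinv : ∀ (g : G) (n : K), ϑ ⟨g * n * g⁻¹, hK.conj_mem (n : G) n.2 g⟩ = ϑ n) : Cfsg.IsIrrCharacter L (fun x : L => ϑ ⟨(x : G), hLK.le x.2⟩) ∨ (∃ (φ : L → ℂ) (e : ℕ), Cfsg.IsIrrCharacter L φ ∧ (fun x : L => ϑ ⟨(x : G), hLK.le x.2⟩) = (e : ℂ) • φ ∧ e ^ 2 = L.relIndex K) ∨ (∃ F : Finset (L → ℂ), (∀ φ ∈ F, Cfsg.IsIrrCharacter L φ) ∧ F.card = L.relIndex K ∧ (fun x : L => ϑ ⟨(x : G), hLK.le x.2⟩) = ∑ φ ∈ F, φ) := by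
    classical
    haveI : Fintype K := Fintype.ofFinite K
    haveI : Fintype L := Fintype.ofFinite L
    have hLn : L.Normal := inferInstance
    haveI hN' : (L.subgroupOf K).Normal := hLn.subgroupOf K
    haveI : Fintype (L.subgroupOf K) := Fintype.ofFinite _
    have hle : L ≤ K := hLK.le
    have hcK : ∀ a ∈ K, ∀ b ∈ K, a * b * a⁻¹ * b⁻¹ ∈ L := fun a ha b hb => hab (Subgroup.commutator_mem_commutator ha hb)
    have habK : ∀ a b : K ⧸ L.subgroupOf K, a * b = b * a := by
      intro a b
      induction a using QuotientGroup.induction_on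
      induction b using QuotientGroup.induction_on
      rename_i a b
      rw [← QuotientGroup.mk_mul, ← QuotientGroup.mk_mul, QuotientGroup.eq, Subgroup.mem_subgroupOf]
      have h1 := hcK (b⁻¹ : K) (b⁻¹).2 (a⁻¹ : K) (a⁻¹).2
      have h2 : (((a * b)⁻¹ * (b * a) : K) : G) = ((b⁻¹ : K) : G) * ((a⁻¹ : K) : G) * ((b⁻¹ : K) : G)⁻¹ * ((a⁻¹ : K) : G)⁻¹ := by
        push_cast; group
      rw [h2]; exact h1
    set R : L → ℂ := resT hle ϑ with hR
    have hRchar : IsCharacter L R := resT_char hle (irr_isCharacter hϑ)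
    have hR1 : R 1 = ϑ 1 := rfl
    have hR0 : R ≠ 0 := by
      intro h
      apply irr_one_ne_zero hϑ
      rw [← hR1, h]; rfl
    obtain ⟨φ, hφ, hφR⟩ := exists_constituent hRchar hR0
    have hϑinv : ∀ g, cj hK g ϑ = ϑ := fun g => funext fun n => hinv g n
    have hRinv : ∀ g, cj hLn g R = R := by
      intro g
      ext n
      exact congrFun (hϑinv g) ⟨(n : G), hle n.2⟩
    -- all conjugates of φ are K-conjugate
    have h3 : ∀ ψ : L → ℂ, classInner (fun x : L.subgroupOf K => ϑ x) (toSub K ψ) = classInner R ψ := by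
      intro ψ
      rw [← toSub_resT hle, ci_toSub hle]
    have hcons : ∀ ψ : L → ℂ, IsIrrCharacter L ψ → classInner R ψ ≠ 0 → ∃ k : K, cj hLn (k : G) φ = ψ := by
      intro ψ hψ h1
      obtain ⟨k, hk⟩ := constituents_conj hN' hϑ ((toSub_irr hle).2 hφ) ((toSub_irr hle).2 hψ)
        (by rw [h3]; exact hφR) (by rw [h3]; exact h1)
      rw [cj_toSub hLn] at hk
      exact ⟨k, toSub_inj hle hk⟩
    have hRcj : ∀ g : G, classInner R (cj hLn g φ) = classInner R φ := by
      intro g
      have h2 := ci_cj hLn g R φ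
      rwa [hRinv] at h2
    have hconj : ∀ g : G, ∃ k ∈ K, cj hLn k φ = cj hLn g φ := by
      intro g
      obtain ⟨k, hk⟩ := hcons _ (cj_irr hLn g hφ) (by rw [hRcj]; exact hφR)
      exact ⟨k, k.2, hk⟩
    set T := inertia hLn φ with hT
    have hLT : L ≤ T := le_inertia hLn (irr_classFun hφ)
    have hfact : ∀ g : G, ∃ t ∈ T, ∃ k ∈ K, g = t * k := by
      intro g
      obtain ⟨k, hk, h⟩ := hconj g
      refine ⟨g * k⁻¹, ?_, k, hk, by group⟩
      exact (cj_eq_iff hLn).1 h.symm
    have hTKn : (T ⊓ K).Normal := by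
      refine ⟨fun x hx g => ?_⟩
      obtain ⟨t, ht, k, hk, rfl⟩ := hfact g
      have h1 : k * x * k⁻¹ * x⁻¹ ∈ L := hcK k hk x hx.2
      have h2 : k * x * k⁻¹ ∈ T := by
        have h3 : k * x * k⁻¹ = (k * x * k⁻¹ * x⁻¹) * x := by group
        rw [h3]; exact mul_mem (hLT h1) hx.1
      have h4 : t * k * x * (t * k)⁻¹ = t * (k * x * k⁻¹) * t⁻¹ := by group
      rw [h4]
      exact ⟨mul_mem (mul_mem ht h2) (T.inv_mem ht), hK.conj_mem _ (mul_mem (mul_mem hk hx.2) (K.inv_mem hk)) t⟩
    have hφ' : IsIrrCharacter (L.subgroupOf K) (toSub K φ) := (toSub_irr hle).2 hφ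
    have hcφ : classInner (fun x : L.subgroupOf K => ϑ x) (toSub K φ) = classInner R φ := by
      rw [← toSub_resT hle, ci_toSub hle]
    rcases hchief (T ⊓ K) hTKn (le_inf hLT hle) inf_le_right with hcase | hcase
    · -- inertia is L
      right; right
      have hin : inertia hN' (toSub K φ) = L.subgroupOf K := by
        ext k
        rw [mem_inertia, cj_toSub hLn, Subgroup.mem_subgroupOf]
        constructor
        · intro h
          have h1 : (k : G) ∈ T ⊓ K := ⟨toSub_inj hle h, k.2⟩
          rwa [hcase] at h1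
        · intro h
          rw [cj_of_mem hLn h (irr_classFun hφ)]
      have hself : classInner (indFun (L.subgroupOf K) (toSub K φ)) (indFun (L.subgroupOf K) (toSub K φ)) = 1 := by
        rw [ci_ind_self hN' hφ', hin]
        exact inv_mul_cancel₀ (by exact_mod_cast Nat.card_pos.ne')
      have hirr : IsIrrCharacter K (indFun (L.subgroupOf K) (toSub K φ)) :=
        irr_iff_norm_one.2 ⟨isCharacter_ind _ (irr_isCharacter hφ'), hself⟩
      have hind : indFun (L.subgroupOf K) (toSub K φ) = ϑ := by
        by_contra hne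
        have h1 := irr_inner_ne hϑ hirr (fun h => hne h.symm)
        rw [frobenius' _ _ (irr_classFun hϑ), hcφ] at h1
        exact hφR h1
      have hm1 : classInner R φ = 1 := by
        have h1 := irr_inner_self hϑ
        conv_lhs at h1 => rw [← hind]
        rw [hind, ← hind] at h1
        have h2 : classInner ϑ (indFun (L.subgroupOf K) (toSub K φ)) = 1 := by rw [hind]; exact irr_inner_self hϑ
        rw [frobenius' _ _ (irr_classFun hϑ), hcφ] at h2
        exact h2
      let f : K ⧸ L.subgroupOf K → (L → ℂ) := fun q => cj hLn ((q.out : K) : G) φ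
      have hfmk : ∀ k : K, f (k : K ⧸ L.subgroupOf K) = cj hLn (k : G) φ := by
        intro k
        show cj hLn _ φ = _
        rw [cj_eq_iff]
        obtain ⟨n, hn⟩ := QuotientGroup.mk_out_eq_mul (L.subgroupOf K) k
        rw [hn]
        apply cj_of_mem hLn _ (irr_classFun hφ)
        push_cast
        have : (k : G) * ((n : K) : G) * (k : G)⁻¹ ∈ L := hLn.conj_mem _ (Subgroup.mem_subgroupOf.1 n.2) _
        exact this
      have hfinj : Function.Injective f := by
        intro q q' h
        have h1 := (cj_eq_iff hLn).1 h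
        have h2 : ((q.out : K) : G) * ((q'.out : K) : G)⁻¹ ∈ T ⊓ K := ⟨h1, mul_mem q.out.2 (K.inv_mem q'.out.2)⟩
        rw [hcase] at h2
        rw [← QuotientGroup.out_eq' q, ← QuotientGroup.out_eq' q', ← inv_inj, ← QuotientGroup.mk_inv, ← QuotientGroup.mk_inv,
          QuotientGroup.eq, Subgroup.mem_subgroupOf]
        push_cast
        rwa [inv_inv]
      refine ⟨Finset.univ.image f, ?_, ?_, ?_⟩
      · intro ψ hψ
        obtain ⟨k, -, rfl⟩ := Finset.mem_image.1 hψ
        exact cj_irr hLn _ hφ
      · rw [Finset.card_image_of_injective _ hfinj, Finset.card_univ, ← Nat.card_eq_fintype_card]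
        rfl
      · rw [Finset.sum_image (fun a _ b _ h => hfinj h)]
        show R = _
        apply classFun_ext (char_classFun hRchar) (classFun_sum _ fun q _ => cj_classFun hLn _ (irr_classFun hφ))
        intro ψ hψ
        rw [ci_sum_l]
        by_cases h1 : classInner R ψ = 0
        · rw [h1]
          symm
          apply Finset.sum_eq_zero
          intro q _
          apply irr_inner_ne (cj_irr hLn _ hφ) hψ
          intro h2
          apply one_ne_zero (α := ℂ)
          rw [← hm1, ← hRcj ((q.out : K) : G)]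
          rw [h2]; exact h1
        · obtain ⟨k, hk⟩ := hcons ψ hψ h1
          rw [Finset.sum_eq_single (k : K ⧸ L.subgroupOf K)]
          · have h4 : cj hLn ((((k : K ⧸ L.subgroupOf K)).out : K) : G) φ = cj hLn (k : G) φ := hfmk k
            rw [h4, hk, irr_inner_self hψ, ← hk, hRcj, hm1]
          · intro q _ hne
            apply irr_inner_ne (cj_irr hLn _ hφ) hψ
            intro h2
            apply hne
            apply hfinj
            rw [hfmk, hk]; exact h2
          · intro h; exact absurd (Finset.mem_univ _) h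
    · -- φ is invariant
      have hKT : K ≤ T := by rw [← hcase]; exact inf_le_left
      have hinvK : ∀ k : K, cj hN' k (toSub K φ) = toSub K φ := by
        intro k
        rw [cj_toSub hLn]
        congr 1
        exact hKT k.2
      obtain ⟨e, C, he, hC, hind, hcard, hmem⟩ := ind_eq habK hφ' hinvK
      have hϑC : ϑ ∈ C := hmem ϑ hϑ (by rw [hcφ]; exact hφR)
      have hRe : R = (e : ℂ) • φ := by
        apply toSub_inj hle
        rw [hR, toSub_resT]
        exact (hC ϑ hϑC).2
      let Fx : Set (K →* ℂˣ) := {l | (∀ x : L.subgroupOf K, l x = 1) ∧ ∀ k, (l k : ℂ) * ϑ k = ϑ k}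
      let U : Subgroup G := (⨅ l ∈ Fx, l.ker).map K.subtype
      have hUmem : ∀ g : G, g ∈ U ↔ ∃ hg : g ∈ K, ∀ l ∈ Fx, l ⟨g, hg⟩ = 1 := by
        intro g
        constructor
        · rintro ⟨k, hk, rfl⟩
          refine ⟨k.2, fun l hl => ?_⟩
          have h1 := (Subgroup.mem_iInf.1 (Subgroup.mem_iInf.1 hk l)) hl
          exact h1
        · rintro ⟨hg, h⟩
          refine ⟨⟨g, hg⟩, ?_, rfl⟩
          simp only [SetLike.mem_coe]
          rw [Subgroup.mem_iInf]
          intro l
          rw [Subgroup.mem_iInf]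
          intro hl
          exact h l hl
      have hLU : L ≤ U := by
        intro x hx
        rw [hUmem]
        exact ⟨hle hx, fun l hl => hl.1 ⟨⟨x, hle hx⟩, Subgroup.mem_subgroupOf.2 hx⟩⟩
      have hUK : U ≤ K := by
        intro x hx
        exact ((hUmem x).1 hx).1
      have hUn : U.Normal := by
        refine ⟨fun x hx g => ?_⟩
        rw [hUmem] at hx ⊢
        obtain ⟨hxK, hx⟩ := hx
        refine ⟨hK.conj_mem x hxK g, fun l hl => ?_⟩
        let c : K →* K := (MulAut.conjNormal g : MulAut K).toMonoidHom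
        have hc : ∀ k : K, c k = ⟨g * k * g⁻¹, hK.conj_mem k k.2 g⟩ := by
          intro k; apply Subtype.ext; exact MulAut.conjNormal_apply g k
        have h1 : l.comp c ∈ Fx := by
          refine ⟨?_, ?_⟩
          · intro y
            rw [MonoidHom.comp_apply, hc]
            exact hl.1 ⟨⟨g * ((y : K) : G) * g⁻¹, hK.conj_mem _ (y : K).2 g⟩, Subgroup.mem_subgroupOf.2 (hLn.conj_mem _ (Subgroup.mem_subgroupOf.1 y.2) g)⟩
          · intro k
            have h2 := hl.2 (c k)
            rw [MonoidHom.comp_apply]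
            have h3 : ϑ (c k) = ϑ k := by rw [hc]; exact hinv g k
            rwa [h3] at h2
        have h2 := hx _ h1
        rw [MonoidHom.comp_apply, hc] at h2
        exact h2
      rcases hchief U hUn hLU hUK with h | h
      · right; left
        refine ⟨φ, e, hφ, hRe, ?_⟩
        have hself : classInner (fun n : L.subgroupOf K => ϑ n) (fun n : L.subgroupOf K => ϑ n) = (((e : ℝ) ^ 2 : ℝ) : ℂ) := by
          rw [(hC ϑ hϑC).2, ci_smul_l, ci_smul_r, irr_inner_self hφ']
          simp
          ring
        have hoff : ∀ k : K, k ∉ L.subgroupOf K → ϑ k = 0 := by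
          intro k hk
          have h1 : (k : G) ∉ U := by
            rw [h]; exact fun h' => hk (Subgroup.mem_subgroupOf.2 h')
          rw [hUmem] at h1
          push Not at h1
          obtain ⟨l, hl, hne⟩ := h1 k.2
          have h2 := hl.2 k
          have h4 : ((l k : ℂ) - 1) * ϑ k = 0 := by rw [sub_mul, h2, one_mul, sub_self]
          rcases mul_eq_zero.1 h4 with h5 | h5
          · exfalso
            apply hne
            apply Units.ext
            rw [Units.val_one]
            exact sub_eq_zero.1 h5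
          · exact h5
        have h1 := (self_le (L.subgroupOf K) ϑ hϑ hself).2.2 hoff
        have h2 : ((L.subgroupOf K).index : ℝ) * Nat.card (L.subgroupOf K) = Nat.card K := by
          rw [← Nat.cast_mul, Subgroup.index_mul_card]
        rw [← h2] at h1
        have h4 : (Nat.card (L.subgroupOf K) : ℝ) ≠ 0 := by exact_mod_cast Nat.card_pos.ne'
        have h5 := mul_right_cancel₀ h4 h1
        have h6 : e ^ 2 = (L.subgroupOf K).index := by exact_mod_cast h5
        exact h6
      · left
        let Φ : ((K ⧸ L.subgroupOf K) →* ℂˣ) → C := fun l =>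
          ⟨fun k => ϑ k * l (k : K ⧸ L.subgroupOf K), by
            apply hmem
            · exact irr_mul_linear hϑ (l.comp (QuotientGroup.mk' (L.subgroupOf K)))
            · have h1 : (fun n : L.subgroupOf K => ϑ n * (l (((n : K) : K ⧸ L.subgroupOf K)) : ℂ)) = fun n : L.subgroupOf K => ϑ n := by
                ext n
                have h3 : (((n : K) : K ⧸ L.subgroupOf K)) = 1 := (QuotientGroup.eq_one_iff _).2 n.2
                simp only [h3, map_one, Units.val_one, mul_one]
              rw [h1, hcφ]; exact hφR⟩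
        have hΦ : Function.Injective Φ := by
          intro l l' hll
          have h1 : ∀ k : K, ϑ k * l (k : K ⧸ L.subgroupOf K) = ϑ k * l' (k : K ⧸ L.subgroupOf K) := fun k =>
            congrFun (congrArg Subtype.val hll) k
          have h2 : ((l⁻¹ * l').comp (QuotientGroup.mk' (L.subgroupOf K))) ∈ Fx := by
            refine ⟨?_, ?_⟩
            · intro x
              rw [MonoidHom.comp_apply]
              have h3 : (QuotientGroup.mk' (L.subgroupOf K)) (x : K) = 1 := (QuotientGroup.eq_one_iff _).2 x.2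
              rw [h3, map_one]
            · intro k
              have h3 := h1 k
              have h4 : (((l⁻¹ * l').comp (QuotientGroup.mk' (L.subgroupOf K)) k : ℂˣ) : ℂ) =
                  ((l (k : K ⧸ L.subgroupOf K) : ℂˣ) : ℂ)⁻¹ * l' (k : K ⧸ L.subgroupOf K) := by
                rw [MonoidHom.comp_apply, MonoidHom.mul_apply, MonoidHom.inv_apply, Units.val_mul, Units.val_inv_eq_inv_val]
                rfl
              rw [h4]
              have h5 : ((l (k : K ⧸ L.subgroupOf K) : ℂˣ) : ℂ) ≠ 0 := Units.ne_zero _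
              field_simp
              linear_combination -h3
          ext k
          have h6 : (k : G) ∈ U := by rw [h]; exact k.2
          rw [hUmem] at h6
          obtain ⟨_, h6⟩ := h6
          have h7 := h6 _ h2
          rw [MonoidHom.comp_apply, MonoidHom.mul_apply, MonoidHom.inv_apply, inv_mul_eq_one] at h7
          exact congrArg Units.val h7
        have hcardhom : Nat.card ((K ⧸ L.subgroupOf K) →* ℂˣ) = (L.subgroupOf K).index := by
          letI : CommGroup (K ⧸ L.subgroupOf K) := { (inferInstance : Group (K ⧸ L.subgroupOf K)) with mul_comm := habK }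
          exact card_hom_of_comm (A := K ⧸ L.subgroupOf K)
        have h8 : (L.subgroupOf K).index ≤ C.card := by
          rw [← hcardhom]
          have := Nat.card_le_card_of_injective Φ hΦ
          simpa using this
        have hCpos : 0 < C.card := Finset.card_pos.2 ⟨ϑ, hϑC⟩
        have he1 : e = 1 := by
          have h9 : e ^ 2 * C.card ≤ 1 * C.card := by rw [hcard, one_mul]; exact h8
          have h10 := Nat.le_of_mul_le_mul_right h9 hCpos
          nlinarith
        have h11 : R = φ := by rw [hRe, he1, Nat.cast_one, one_smul]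
        show IsIrrCharacter L R
        rw [h11]; exact hφ

end Cfsg.Agent.S0857
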