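import Cfsg.Statements.S0858
import Mathlib
import Cfsg.Agent.S0857
import Cfsg.Agent.LibInd2
-- import your own Cfsg.Agent.* helpers here

set_option autoImplicit false
open Cfsg

namespace Cfsg.Agent.S0858

open CfsgLib.CharBasic CfsgLib.CharIndA CfsgLib.CharNorm CfsgLib.Clifford CfsgLib.CharMore CfsgLib.Ind2
open scoped ComplexConjugate
universe u

theorem nest_irr {G : Type u} [Group G] [Fintype G] (T : Subgroup G) (H : Subgroup T) {θ : H → ℂ} (hθ : IsIrrCharacter H θ) :
    IsIrrCharacter _ (nest T H θ) :=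
  isIrrCharacter_comp_equiv hθ (H.equivMapOfInjective T.subtype T.subtype_injective).symm

/-- the homogeneous case: if all restrictions to normal subgroups above `N` are homogeneous then `χ_N` is irreducible -/
theorem homog {Γ : Type u} [Group Γ] [Fintype Γ] (N : Subgroup Γ) [hNn : N.Normal] (hsolv : Group.IsSolvable (Γ ⧸ N))
    (hchief : ∀ (K L : Subgroup Γ), K.Normal → L.Normal → N ≤ L → L < K → (∀ M : Subgroup Γ, M.Normal → L ≤ M → M ≤ K → M = L ∨ M = K) →
      ¬ IsSquare (L.relIndex K))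
    (χ : Γ → ℂ) (hχ : IsIrrCharacter Γ χ)
    (hhom : ∀ (L : Subgroup Γ) [hL : L.Normal] [Fintype L], N ≤ L → ∀ θ : L → ℂ, IsIrrCharacter L θ →
      classInner (fun x : L => χ x) θ ≠ 0 → ∀ g, cj hL g θ = θ) :
    IsIrrCharacter N (fun x : N => χ x) := by
  classical
  by_contra hN
  obtain ⟨K, hK⟩ := exists_minimal_of_wellFoundedLT (fun K : Subgroup Γ => K.Normal ∧ N ≤ K ∧ IsIrrCharacter K (fun x : K => χ x))
    ⟨⊤, inferInstance, le_top, by
      have := isIrrCharacter_comp_equiv hχ (Subgroup.topEquiv (G := Γ))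
      exact this⟩
  obtain ⟨⟨hKn, hNK, hKirr⟩, hKmin⟩ := hK
  have hNK' : N < K := lt_of_le_of_ne hNK (fun h => hN (by subst h; exact hKirr))
  obtain ⟨L, hL⟩ := exists_maximal_of_wellFoundedGT (fun L : Subgroup Γ => L.Normal ∧ N ≤ L ∧ L < K)
    ⟨N, hNn, le_rfl, hNK'⟩
  obtain ⟨⟨hLn, hNL, hLK⟩, hLmax⟩ := hL
  haveI := hKn
  haveI := hLn
  have hch : ∀ M : Subgroup Γ, M.Normal → L ≤ M → M ≤ K → M = L ∨ M = K := by
    intro M hM h1 h2
    by_cases h3 : M = K
    · exact Or.inr h3
    · left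
      exact le_antisymm (hLmax ⟨hM, hNL.trans h1, lt_of_le_of_ne h2 h3⟩ h1) h1
  have hLirr : ¬ IsIrrCharacter L (fun x : L => χ x) := by
    intro h
    exact absurd (hKmin ⟨hLn, hNL, h⟩ hLK.le) (not_le_of_gt hLK)
  -- K/L abelian
  have hab : ⁅K, K⁆ ≤ L := by
    haveI hsL : Group.IsSolvable (Γ ⧸ L) := by
      haveI := hsolv
      exact Group.isSolvable_of_surjective (f := QuotientGroup.map N L (MonoidHom.id Γ) hNL) (by
        intro q
        obtain ⟨g, rfl⟩ := QuotientGroup.mk'_surjective L q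
        exact ⟨(g : Γ ⧸ N), rfl⟩)
    haveI : (⁅K, K⁆ ⊔ L).Normal := inferInstance
    rcases hch (⁅K, K⁆ ⊔ L) this le_sup_right (sup_le (Subgroup.commutator_le_left K K) hLK.le) with h | h
    · rw [← h]; exact le_sup_left
    · exfalso
      have h1 : (⁅K, K⁆ ⊔ L).map (QuotientGroup.mk' L) = K.map (QuotientGroup.mk' L) := by rw [h]
      rw [Subgroup.map_sup, Subgroup.map_commutator] at h1
      have h2 : L.map (QuotientGroup.mk' L) = ⊥ := by
        rw [Subgroup.map_eq_bot_iff, QuotientGroup.ker_mk']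
      rw [h2, sup_bot_eq] at h1
      have h3 : K.map (QuotientGroup.mk' L) ≠ ⊥ := by
        rw [Ne, Subgroup.map_eq_bot_iff, QuotientGroup.ker_mk']
        exact not_le_of_gt hLK
      exact absurd h1 (Group.IsSolvable.commutator_lt_of_ne_bot h3).ne
  have hcl := irr_classFun hχ
  haveI : Fintype L := Fintype.ofFinite L
  rcases Cfsg.Agent.S0857.result K L hLK hch hab (fun x : K => χ x) hKirr (fun g n => hcl n g) with h | ⟨φ, e, -, -, he⟩ | ⟨F, hF, hFc, hFs⟩
  · exact hLirr h
  · exact hchief K L hKn hLn hNL hLK hch ⟨e, by rw [← he, sq]⟩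
  · have hFpos : 0 < F.card := by
      rw [hFc]
      exact Nat.pos_of_ne_zero Subgroup.FiniteIndex.index_ne_zero
    obtain ⟨φ, hφ⟩ := Finset.card_pos.1 hFpos
    have h1 : classInner (fun x : L => χ x) φ = 1 := by
      have h2 : (fun x : L => χ x) = ∑ φ ∈ F, φ := hFs
      rw [h2, ci_sum_l, Finset.sum_eq_single φ]
      · exact irr_inner_self (hF φ hφ)
      · intro ψ hψ hne
        exact irr_inner_ne (hF ψ hψ) (hF φ hφ) hne
      · intro h; exact absurd hφ h
    have h2 := restrict_of_invariant hLn hχ (hF φ hφ) (hhom L hNL φ (hF φ hφ) (by rw [h1]; exact one_ne_zero))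
      (by rw [h1]; exact one_ne_zero)
    rw [h1, one_smul] at h2
    exact hLirr (by rw [h2]; exact hF φ hφ)

theorem main {G : Type u} [Group G] [Fintype G] (N : Subgroup G) [hNn : N.Normal] (hsolv : Group.IsSolvable (G ⧸ N)) (hchief : ∀ (H K L : Subgroup G), N ≤ L → L < K → K ≤ H → (∀ h ∈ H, ∀ k ∈ K, h * k * h⁻¹ ∈ K) → (∀ h ∈ H, ∀ l ∈ L, h * l * h⁻¹ ∈ L) → (∀ M : Subgroup G, L ≤ M → M ≤ K → (∀ h ∈ H, ∀ m ∈ M, h * m * h⁻¹ ∈ M) → M = L ∨ M = K) → ¬ IsSquare (L.relIndex K)) :
    ∀ (n : ℕ) (H : Subgroup G), Nat.card H = n → N ≤ H → ∀ χ : H → ℂ, IsIrrCharacter H χ →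
      ∃ (H' : Subgroup G) (hNH : N ≤ H') (ψ : H' → ℂ), Cfsg.IsIrrCharacter H' ψ ∧ Cfsg.indFun H' ψ = indFun H χ ∧ Cfsg.IsIrrCharacter N (fun n : N => ψ ⟨(n : G), hNH n.2⟩) := by
  classical
  intro n
  induction n using Nat.strong_induction_on with
  | _ n ih =>
  intro H hHn hNH χ hχ
  haveI : Fintype H := Fintype.ofFinite H
  haveI hN' : (N.subgroupOf H).Normal := hNn.subgroupOf H
  by_cases hcase : ∀ (L : Subgroup H) [hL : L.Normal] [Fintype L], N.subgroupOf H ≤ L → ∀ θ : L → ℂ, IsIrrCharacter L θ →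
      classInner (fun x : L => χ x) θ ≠ 0 → ∀ g, cj hL g θ = θ
  · refine ⟨H, hNH, χ, hχ, rfl, ?_⟩
    haveI hs' : Group.IsSolvable (H ⧸ N.subgroupOf H) := by
      haveI := hsolv
      let f : H ⧸ N.subgroupOf H →* G ⧸ N := QuotientGroup.map (N.subgroupOf H) N H.subtype (fun x hx => hx)
      have hf : Function.Injective f := by
        rw [injective_iff_map_eq_one]
        intro q hq
        obtain ⟨x, rfl⟩ := QuotientGroup.mk'_surjective _ q
        have h1 : ((x : G) : G ⧸ N) = 1 := hq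
        exact (QuotientGroup.eq_one_iff _).2 (Subgroup.mem_subgroupOf.2 ((QuotientGroup.eq_one_iff _).1 h1))
      exact Group.isSolvable_of_isSolvable_injective hf
    have h1 := homog (N.subgroupOf H) hs' (by
      intro K L hKn hLn hNL hLK hch
      have hinj := H.subtype_injective
      have h2 := hchief H (K.map H.subtype) (L.map H.subtype) (by
          intro x hx
          exact ⟨⟨x, hNH hx⟩, hNL (Subgroup.mem_subgroupOf.2 hx), rfl⟩)
        ((Subgroup.map_lt_map_iff_of_injective hinj).2 hLK) (Subgroup.map_subtype_le K)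
        (by
          rintro h hh _ ⟨k, hk, rfl⟩
          exact ⟨⟨h, hh⟩ * k * ⟨h, hh⟩⁻¹, hKn.conj_mem k hk _, rfl⟩)
        (by
          rintro h hh _ ⟨k, hk, rfl⟩
          exact ⟨⟨h, hh⟩ * k * ⟨h, hh⟩⁻¹, hLn.conj_mem k hk _, rfl⟩)
        (by
          intro M hM1 hM2 hM3
          have hMH : M ≤ H := hM2.trans (Subgroup.map_subtype_le K)
          have hMm : (M.subgroupOf H).map H.subtype = M := by
            rw [Subgroup.subgroupOf_map_subtype, inf_eq_left.2 hMH]
          have hMn : (M.subgroupOf H).Normal := by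
            refine ⟨fun x hx g => ?_⟩
            rw [Subgroup.mem_subgroupOf] at hx ⊢
            exact hM3 g g.2 x hx
          have h3 : L ≤ M.subgroupOf H := by
            intro x hx
            exact Subgroup.mem_subgroupOf.2 (hM1 ⟨x, hx, rfl⟩)
          have h4 : M.subgroupOf H ≤ K := by
            intro x hx
            obtain ⟨k, hk, hkx⟩ := hM2 (Subgroup.mem_subgroupOf.1 hx)
            have : k = x := Subtype.ext hkx
            rwa [← this]
          rcases hch _ hMn h3 h4 with h5 | h5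
          · left; rw [← hMm, h5]
          · right; rw [← hMm, h5])
      have h6 : (L.map H.subtype).relIndex (K.map H.subtype) = L.relIndex K := by
        exact Subgroup.relIndex_map_map_of_injective L K hinj
      rwa [h6] at h2) χ hχ hcase
    exact (toSub_irr hNH).1 h1
  · push Not at hcase
    obtain ⟨L, hLn, hLf, hNL, θ, hθ, hne, g, hg⟩ := hcase
    set T : Subgroup H := inertia hLn θ with hT
    haveI : Fintype T := Fintype.ofFinite T
    have hLT : L ≤ T := le_inertia hLn (irr_classFun hθ)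
    have hTlt : Nat.card T < n := by
      rw [← hHn]
      refine lt_of_le_of_ne (Subgroup.card_le_card_group T) (fun h => ?_)
      have h1 : T = ⊤ := Subgroup.eq_top_of_card_eq _ h
      apply hg
      have h2 : g ∈ T := h1 ▸ Subgroup.mem_top g
      exact h2
    obtain ⟨ψ, hψ, -, hind, -⟩ := clifford_corr_surj hLn hLT hθ (fun g => Iff.rfl) hχ hne
    have hcT : Nat.card (T.map H.subtype) = Nat.card T := Subgroup.card_map_of_injective H.subtype_injective
    have hNT : N ≤ T.map H.subtype := by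
      intro x hx
      exact ⟨⟨x, hNH hx⟩, hLT (hNL (Subgroup.mem_subgroupOf.2 hx)), rfl⟩
    obtain ⟨H', hNH', ψ', h1, h2, h3⟩ := ih _ hTlt (T.map H.subtype) hcT hNT (nest H T ψ) (nest_irr H T hψ)
    refine ⟨H', hNH', ψ', h1, ?_, h3⟩
    rw [h2, ← ind_nest, hind]

/-- Let N be a normal subgroup of the finite group G with G / N solvable, and suppose that for every subgroup H containing N and all subgroups L < K between N and H that are normal in H with no subgroup normal in H strictly between them, the index of L in K is not a perfect square. Then every irreducible character χ of G is induced from an irreducible character ψ of some subgroup H containing N such that the restriction of ψ to N is irreducible. -/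
theorem result {G : Type*} [Group G] [Fintype G] (N : Subgroup G) [N.Normal] (hsolv : Group.IsSolvable (G ⧸ N)) (hchief : ∀ (H K L : Subgroup G), N ≤ L → L < K → K ≤ H → (∀ h ∈ H, ∀ k ∈ K, h * k * h⁻¹ ∈ K) → (∀ h ∈ H, ∀ l ∈ L, h * l * h⁻¹ ∈ L) → (∀ M : Subgroup G, L ≤ M → M ≤ K → (∀ h ∈ H, ∀ m ∈ M, h * m * h⁻¹ ∈ M) → M = L ∨ M = K) → ¬ IsSquare (L.relIndex K)) (χ : G → ℂ) (hχ : Cfsg.IsIrrCharacter G χ) : ∃ (H : Subgroup G) (hNH : N ≤ H) (ψ : H → ℂ), Cfsg.IsIrrCharacter H ψ ∧ Cfsg.indFun H ψ = χ ∧ Cfsg.IsIrrCharacter N (fun n : N => ψ ⟨(n : G), hNH n.2⟩) := by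
    obtain ⟨H', hNH, ψ, h1, h2, h3⟩ := main N hsolv hchief _ ⊤ rfl le_top (fun x => χ x) (by
      have := isIrrCharacter_comp_equiv hχ (Subgroup.topEquiv (G := G))
      exact this)
    refine ⟨H', hNH, ψ, h1, ?_, h3⟩
    rw [h2]
    exact ind_top (irr_classFun hχ)

end Cfsg.Agent.S0858
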