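import Cfsg.Statements.S0859
import Mathlib
import Cfsg.Agent.LibInd2
import Cfsg.Agent.LibCores
import Cfsg.Agent.LibExtend
-- import your own Cfsg.Agent.* helpers here

set_option autoImplicit false
open Cfsg

namespace Cfsg.Agent.S0859

open CfsgLib.CharBasic CfsgLib.CharIndA CfsgLib.CharNorm CfsgLib.Clifford CfsgLib.CharMore CfsgLib.Ind2
open scoped ComplexConjugate
universe u

theorem mackey1 {G : Type u} [Group G] [Fintype G] (T N : Subgroup G) [hNn : N.Normal] [Fintype N] (hNT : ∀ g : G, ∃ n ∈ N, ∃ t ∈ T, g = n * t)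
    {μ : T → ℂ} (hμ : IsClassFunction T μ) :
    (fun n : N => indFun T μ n) = indFun (T.subgroupOf N) (fun x => μ ⟨((x : N) : G), Subgroup.mem_subgroupOf.1 x.2⟩) := by
  classical
  ext k
  rw [ind_apply T μ, ind_apply (T.subgroupOf N)]
  set F : G → ℂ := fun x => extendByZero T μ (x⁻¹ * (k : G) * x) with hF
  have hFt : ∀ x : G, ∀ t ∈ T, F (x * t) = F x := by
    intro x t ht
    simp only [hF]
    have h1 : (x * t)⁻¹ * (k : G) * (x * t) = t⁻¹ * (x⁻¹ * (k : G) * x) * t := by group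
    rw [h1]
    by_cases h2 : x⁻¹ * (k : G) * x ∈ T
    · rw [ext_mem T μ h2, ext_mem T μ (T.mul_mem (T.mul_mem (T.inv_mem ht) h2) ht)]
      have h3 := hμ ⟨x⁻¹ * (k : G) * x, h2⟩ ⟨t, ht⟩⁻¹
      rw [← h3]
      congr 1
      apply Subtype.ext
      push_cast
      rw [inv_inv]
    · rw [ext_not_mem T μ h2, ext_not_mem T μ (fun h3 => h2 (by
        have h4 := T.mul_mem (T.mul_mem ht h3) (T.inv_mem ht)
        have h5 : t * (t⁻¹ * (x⁻¹ * (k : G) * x) * t) * t⁻¹ = x⁻¹ * (k : G) * x := by group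
        rwa [h5] at h4))]
  have h1 : (Nat.card N : ℂ) * ∑ x : G, F x = (Nat.card G : ℂ) * ∑ y : N, F y := by
    have h2 : ∀ y : N, ∑ x : G, F (y * x) = ∑ x : G, F x := fun y =>
      Equiv.sum_comp (Equiv.mulLeft (y : G)) F
    have h3 : ∑ y : N, ∑ x : G, F (y * x) = (Nat.card N : ℂ) * ∑ x : G, F x := by
      rw [Finset.sum_congr rfl fun y _ => h2 y, Finset.sum_const, nsmul_eq_mul, Finset.card_univ, Nat.card_eq_fintype_card]
    have h4 : ∀ x : G, ∑ y : N, F (y * x) = ∑ y : N, F y := by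
      intro x
      obtain ⟨n, hn, t, ht, rfl⟩ := hNT x
      have h5 : ∀ y : N, F (y * (n * t)) = F ((y * ⟨n, hn⟩ : N) : G) := by
        intro y
        rw [← mul_assoc, hFt _ t ht]
        rfl
      rw [Finset.sum_congr rfl fun y _ => h5 y]
      exact Equiv.sum_comp (Equiv.mulRight (⟨n, hn⟩ : N)) (fun y : N => F y)
    rw [← h3, Finset.sum_comm, Finset.sum_congr rfl fun x _ => h4 x, Finset.sum_const, nsmul_eq_mul, Finset.card_univ,
      Nat.card_eq_fintype_card]
  have hF' : ∀ y : N, F y = extendByZero (T.subgroupOf N) (fun x => μ ⟨((x : N) : G), Subgroup.mem_subgroupOf.1 x.2⟩) (y⁻¹ * k * y) := by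
    intro y
    simp only [hF]
    by_cases h2 : (y : G)⁻¹ * (k : G) * y ∈ T
    · rw [ext_mem T μ h2, ext_mem (T.subgroupOf N) _ (x := y⁻¹ * k * y) (Subgroup.mem_subgroupOf.2 h2)]
      rfl
    · rw [ext_not_mem T μ h2, ext_not_mem (T.subgroupOf N) _ (x := y⁻¹ * k * y) (fun h3 => h2 (Subgroup.mem_subgroupOf.1 h3))]
  have hcards : Nat.card T * Nat.card N = Nat.card (T.subgroupOf N) * Nat.card G := by
    have htop : T ⊔ N = ⊤ := by
      rw [eq_top_iff]
      intro g _
      obtain ⟨n, hn, t, ht, rfl⟩ := hNT g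
      exact mul_mem (Subgroup.mem_sup_right hn) (Subgroup.mem_sup_left ht)
    have h2 : N.relIndex T = N.index := by
      rw [← Subgroup.relIndex_sup_right T N, htop, Subgroup.relIndex_top_right]
    have h3 : Nat.card (N.subgroupOf T) * N.relIndex T = Nat.card T := Subgroup.card_mul_index _
    have h4 : Nat.card N * N.index = Nat.card G := Subgroup.card_mul_index _
    have h5 : Nat.card (N.subgroupOf T) = Nat.card (T.subgroupOf N) :=
      Nat.card_congr
        { toFun := fun x => ⟨⟨((x : T) : G), Subgroup.mem_subgroupOf.1 x.2⟩, Subgroup.mem_subgroupOf.2 (x : T).2⟩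
          invFun := fun x => ⟨⟨((x : N) : G), Subgroup.mem_subgroupOf.1 x.2⟩, Subgroup.mem_subgroupOf.2 (x : N).2⟩
          left_inv := fun x => rfl
          right_inv := fun x => rfl }
    rw [← h3, h2, h5, ← h4]; ring
  rw [Finset.sum_congr rfl fun y _ => (hF' y).symm]
  have hT0 : (Nat.card T : ℂ) ≠ 0 := by exact_mod_cast Nat.card_pos.ne'
  have hN0 : (Nat.card N : ℂ) ≠ 0 := by exact_mod_cast Nat.card_pos.ne'
  have hTN0 : (Nat.card (T.subgroupOf N) : ℂ) ≠ 0 := by exact_mod_cast Nat.card_pos.ne'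
  have hc' : (Nat.card T : ℂ) * Nat.card N = Nat.card (T.subgroupOf N) * Nat.card G := by exact_mod_cast hcards
  rw [inv_mul_eq_iff_eq_mul₀ hT0]
  apply mul_left_cancel₀ hN0
  rw [h1]
  field_simp
  linear_combination (-∑ y : N, F y) * hc'

/-- a non-homogeneous normal subgroup exists -/
theorem exists_nonhom {G : Type u} [Group G] [Fintype G] (N : Subgroup G) [hNn : N.Normal] [Fintype N] (hsolv : Group.IsSolvable G)
    (hAG : ∀ q : ℕ, q.Prime → ∀ Q : Subgroup G, Q ≤ N → IsPGroup q Q → ∀ a ∈ Q, ∀ b ∈ Q, a * b = b * a)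
    {χ : G → ℂ} (hχ : IsIrrCharacter G χ) (hχN : IsIrrCharacter N (fun x : N => χ x)) (h1 : χ 1 ≠ 1) :
    ∃ (M : Subgroup G) (hM : M.Normal) (_ : Fintype M) (θ : M → ℂ), M ≤ N ∧ IsIrrCharacter M θ ∧
      classInner (fun x : M => χ x) θ ≠ 0 ∧ inertia hM θ ≠ ⊤ := by
  classical
  by_contra hcon
  push Not at hcon
  obtain ⟨Z₀, hZ₀n, hZ₀⟩ := exists_center (irr_isCharacter hχ)
  haveI := hZ₀n
  set Z := Z₀ ⊓ N with hZ
  haveI hZn : Z.Normal := inferInstance
  have hZN : Z ≤ N := inf_le_right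
  have hZne : Z ≠ N := by
    intro h
    apply h1
    have h2 : ∀ n : N, ‖χ n‖ = (χ 1).re := by
      intro n
      have h3 : (n : G) ∈ Z := by rw [h]; exact n.2
      exact (hZ₀ n).1 h3.1
    have h3 := irr_inner_self hχN
    rw [inner_self_eq, Finset.sum_congr rfl fun n _ => by rw [h2 n], Finset.sum_const, nsmul_eq_mul, Finset.card_univ,
      ← Nat.card_eq_fintype_card, inv_mul_cancel_left₀ (by exact_mod_cast Nat.card_pos.ne')] at h3
    obtain ⟨m, hm0, hm⟩ := irr_one_nat hχ
    rw [hm, Complex.natCast_re] at h3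
    have h4 : m ^ 2 = 1 := by exact_mod_cast h3
    have h5 : m = 1 := by nlinarith
    rw [hm, h5, Nat.cast_one]
  -- minimal normal subgroup above Z
  have hNbar : N.map (QuotientGroup.mk' Z) ≠ ⊥ := by
    rw [Ne, Subgroup.map_eq_bot_iff, QuotientGroup.ker_mk']
    exact fun h => hZne (le_antisymm hZN h)
  haveI : (N.map (QuotientGroup.mk' Z)).Normal := hNn.map _ (QuotientGroup.mk'_surjective _)
  obtain ⟨Mb, hMbn, hMbN, hMb0, hMbmin⟩ := CfsgLib.Cores.exists_minimal_normal (N.map (QuotientGroup.mk' Z)) hNbar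
  haveI := hMbn
  haveI := hsolv
  haveI : Group.IsSolvable (G ⧸ Z) := inferInstance
  obtain ⟨q, hq, -, -, hMbq⟩ := CfsgLib.Cores.minimal_normal_elementary Mb hMb0 hMbmin inferInstance
  haveI : Fact q.Prime := ⟨hq⟩
  set M := Mb.comap (QuotientGroup.mk' Z) with hM
  haveI hMn : M.Normal := hMbn.comap _
  have hZM : Z ≤ M := by
    intro z hz
    rw [hM, Subgroup.mem_comap]
    have : (QuotientGroup.mk' Z) z = 1 := (QuotientGroup.eq_one_iff _).2 hz
    rw [this]; exact Mb.one_mem
  have hMN : M ≤ N := by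
    intro m hm
    obtain ⟨n, hn, hnm⟩ := hMbN (Subgroup.mem_comap.1 hm)
    have h2 : n⁻¹ * m ∈ Z := QuotientGroup.eq.1 hnm
    have h3 := N.mul_mem hn (hZN h2)
    rwa [mul_inv_cancel_left] at h3
  have hMZ : ¬ M ≤ Z := by
    intro h
    apply hMb0
    rw [eq_bot_iff]
    intro y hy
    obtain ⟨m, rfl⟩ := QuotientGroup.mk'_surjective Z y
    exact (QuotientGroup.eq_one_iff _).2 (h (Subgroup.mem_comap.2 hy))
  -- M = Q Z
  obtain ⟨Q⟩ : Nonempty (Sylow q M) := inferInstance
  set Q' : Subgroup G := (Q : Subgroup M).map M.subtype with hQ'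
  have hQ'M : Q' ≤ M := Subgroup.map_subtype_le _
  have hQ'p : IsPGroup q Q' := Q.isPGroup'.map _
  have hsup : M ≤ Q' ⊔ Z := by
    have h2 : (Q' ⊔ Z).relIndex M ∣ Z.relIndex M := Subgroup.relIndex_dvd_of_le_left M le_sup_right
    have h3 : (Q' ⊔ Z).relIndex M ∣ Q'.relIndex M := Subgroup.relIndex_dvd_of_le_left M le_sup_left
    have h4 : Q'.relIndex M = (Q : Subgroup M).index := by
      have h5 : Q'.subgroupOf M = (Q : Subgroup M) := Subgroup.comap_map_eq_self_of_injective M.subtype_injective _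
      rw [Subgroup.relIndex, h5]
    have h5 : ¬ q ∣ (Q : Subgroup M).index := Q.not_dvd_index
    have h6 : ∃ k : ℕ, Z.relIndex M = q ^ k := by
      have h7 : Nat.card Mb = Z.relIndex M := by
        have h8 : M.map (QuotientGroup.mk' Z) = Mb := Subgroup.map_comap_eq_self_of_surjective (QuotientGroup.mk'_surjective _) _
        rw [← h8, ← Subgroup.relIndex_ker, QuotientGroup.ker_mk']
      rw [← h7]
      exact (IsPGroup.iff_card.1 hMbq)
    obtain ⟨k, hk⟩ := h6
    rw [hk] at h2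
    rw [h4] at h3
    have h7 : Nat.Coprime (q ^ k) (Q : Subgroup M).index := Nat.Coprime.pow_left _ ((Nat.Prime.coprime_iff_not_dvd hq).2 h5)
    have h8 : (Q' ⊔ Z).relIndex M = 1 := Nat.eq_one_of_dvd_coprimes h7 h2 h3
    exact Subgroup.relIndex_eq_one.1 h8
  have hdec : ∀ m ∈ M, ∃ s ∈ Q', ∃ z ∈ Z, m = s * z := by
    intro m hm
    obtain ⟨s, hs, z, hz, h⟩ := Subgroup.mem_sup_of_normal_right.1 (hsup hm)
    exact ⟨s, hs, z, hz, h.symm⟩
  have hcomm : ∀ m ∈ M, ∀ m' ∈ M, χ (m * m' * m⁻¹ * m'⁻¹) = χ 1 := by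
    intro m hm m' hm'
    obtain ⟨s, hs, z, hz, rfl⟩ := hdec m hm
    obtain ⟨s', hs', z', hz', rfl⟩ := hdec m' hm'
    have hss := hAG q hq Q' (hQ'M.trans hMN) hQ'p s hs s' hs'
    have hzn := (hZ₀ z).1 hz.1
    have hzn' := (hZ₀ z').1 hz'.1
    obtain ⟨n, ρ, hρ, rfl⟩ := hχ
    rw [Representation.char_one, Complex.natCast_re, norm_character_eq_iff] at hzn hzn'
    obtain ⟨ω, hω⟩ := hzn
    obtain ⟨ω', hω'⟩ := hzn'
    have h2 : ρ (s * z * (s' * z')) = ρ (s' * z' * (s * z)) := by
      have h3 : ρ (s * z * (s' * z')) = (ω * ω') • ρ (s * s') := by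
        refine LinearMap.ext fun v => ?_
        simp only [map_mul, hω, hω', Module.End.mul_apply, LinearMap.smul_apply, LinearMap.id_apply, map_smul, smul_smul]
        rw [mul_comm]
      have h4 : ρ (s' * z' * (s * z)) = (ω * ω') • ρ (s' * s) := by
        refine LinearMap.ext fun v => ?_
        simp only [map_mul, hω, hω', Module.End.mul_apply, LinearMap.smul_apply, LinearMap.id_apply, map_smul, smul_smul]
      rw [h3, h4, hss]
    rw [Representation.char_one, character_eq_finrank_iff]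
    have h3 : s * z * (s' * z') * (s * z)⁻¹ * (s' * z')⁻¹ = (s * z * (s' * z')) * (s' * z' * (s * z))⁻¹ := by group
    rw [h3, map_mul, h2, ← map_mul, mul_inv_cancel, map_one]
    rfl
  haveI : Fintype M := Fintype.ofFinite M
  obtain ⟨θ, hθ, hne⟩ := exists_below M hχ
  have hin := hcon M hMn inferInstance θ hMN hθ hne
  have hres := restrict_of_invariant hMn hχ hθ (fun g => by
    have : g ∈ inertia hMn θ := hin ▸ Subgroup.mem_top g
    exact this) hne
  set c := classInner (fun x : M => χ x) θ with hc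
  have hval : ∀ m : M, χ m = c * θ m := fun m => congrFun hres m
  apply hMZ
  intro m hm
  refine ⟨(hZ₀ m).2 ?_, hMN hm⟩
  have h2 : ‖θ ⟨m, hm⟩‖ = (θ 1).re := by
    apply scalar_of_comm_mod_ker hθ
    intro x
    have h3 := hcomm m hm x x.2
    have h4 := hval (⟨m, hm⟩ * x * ⟨m, hm⟩⁻¹ * x⁻¹)
    have h5 := hval 1
    have h6 : χ ((1 : M) : G) = χ 1 := rfl
    have h7 : χ (((⟨m, hm⟩ * x * ⟨m, hm⟩⁻¹ * x⁻¹ : M)) : G) = χ (m * x * m⁻¹ * (x : G)⁻¹) := rfl
    rw [h7, h3, ← h6, h5] at h4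
    exact (mul_left_cancel₀ hne h4).symm
  have h3 : ‖χ 1‖ = (χ 1).re := by
    obtain ⟨k, -, hk⟩ := irr_one_nat hχ
    rw [hk, Complex.norm_natCast, Complex.natCast_re]
  have h4 : ‖θ 1‖ = (θ 1).re := by
    obtain ⟨k, -, hk⟩ := irr_one_nat hθ
    rw [hk, Complex.norm_natCast, Complex.natCast_re]
  have h5 : χ 1 = c * θ 1 := hval 1
  rw [hval ⟨m, hm⟩, norm_mul, h2, ← h4, ← norm_mul, ← h5, h3]

theorem mono : ∀ (n : ℕ) (G : Type u) [Group G] [Fintype G] (N : Subgroup G) [N.Normal], Nat.card G = n → Group.IsSolvable G →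
    (∀ q : ℕ, q.Prime → ∀ Q : Subgroup G, Q ≤ N → IsPGroup q Q → ∀ a ∈ Q, ∀ b ∈ Q, a * b = b * a) →
    ∀ χ : G → ℂ, IsIrrCharacter G χ → IsIrrCharacter N (fun x : N => χ x) →
      ∃ (U : Subgroup G) (lam : U → ℂ), IsCharacter U lam ∧ lam 1 = 1 ∧ indFun U lam = χ := by
  intro n
  induction n using Nat.strong_induction_on with
  | _ n ih =>
  intro G _ _ N hNn hGn hsolv hAG χ hχ hχN
  classical
  haveI : Fintype N := Fintype.ofFinite N
  by_cases h1 : χ 1 = 1
  · refine ⟨⊤, fun x => χ x, isCharacter_restrict (irr_isCharacter hχ) ⊤, h1, ind_top (irr_classFun hχ)⟩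
  · obtain ⟨M, hMn, hMf, θ, hMN, hθ, hne, hin⟩ := exists_nonhom N hsolv hAG hχ hχN h1
    set T := inertia hMn θ with hT
    haveI : Fintype T := Fintype.ofFinite T
    have hMT : M ≤ T := le_inertia hMn (irr_classFun hθ)
    have hTlt : Nat.card T < n := by
      rw [← hGn]
      exact lt_of_le_of_ne (Subgroup.card_le_card_group T) (fun h => hin (Subgroup.eq_top_of_card_eq _ h))
    obtain ⟨μ, hμ, -, hind, -⟩ := clifford_corr_surj hMn hMT hθ (fun g => Iff.rfl) hχ hne
    have hNT : ∀ g : G, ∃ n ∈ N, ∃ t ∈ T, g = n * t := by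
      intro g
      haveI hMN' : (M.subgroupOf N).Normal := hMn.subgroupOf N
      haveI : Fintype (M.subgroupOf N) := Fintype.ofFinite _
      have h3 : ∀ ψ : M → ℂ, classInner (fun x : M.subgroupOf N => χ ((x : N) : G)) (toSub N ψ) = classInner (fun x : M => χ x) ψ := by
        intro ψ
        have h4 : (fun x : M.subgroupOf N => χ ((x : N) : G)) = toSub N (fun x : M => χ x) := rfl
        rw [h4, ci_toSub hMN]
      have hcj : ∀ g : G, classInner (fun x : M => χ x) (cj hMn g θ) = classInner (fun x : M => χ x) θ := by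
        intro g
        have h5 := ci_cj hMn g (fun x : M => χ x) θ
        rwa [cj_restrict hMn g (irr_classFun hχ)] at h5
      obtain ⟨k, hk⟩ := constituents_conj hMN' hχN ((toSub_irr hMN).2 hθ) ((toSub_irr hMN).2 (cj_irr hMn g⁻¹ hθ))
        (by rw [h3]; exact hne) (by rw [h3, hcj]; exact hne)
      rw [cj_toSub hMn] at hk
      have h6 := toSub_inj hMN hk
      have h7 : (k : G) * g⁻¹⁻¹ ∈ T := (cj_eq_iff hMn).1 h6
      rw [inv_inv] at h7
      exact ⟨(k : G)⁻¹, N.inv_mem k.2, _, h7, by group⟩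
    have hmac := mackey1 T N hNT (irr_classFun hμ)
    rw [hind] at hmac
    -- irreducibility of μ restricted to T ∩ N
    have hirr1 : IsIrrCharacter (T.subgroupOf N) (fun x => μ ⟨((x : N) : G), Subgroup.mem_subgroupOf.1 x.2⟩) := by
      haveI : Fintype (T.subgroupOf N) := Fintype.ofFinite _
      set ν : T.subgroupOf N → ℂ := fun x => μ ⟨((x : N) : G), Subgroup.mem_subgroupOf.1 x.2⟩ with hν
      have hνc : IsCharacter (T.subgroupOf N) ν := by
        let j : T.subgroupOf N →* T :=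
          { toFun := fun x => ⟨((x : N) : G), Subgroup.mem_subgroupOf.1 x.2⟩
            map_one' := rfl
            map_mul' := fun _ _ => rfl }
        exact isCharacter_comp (irr_isCharacter hμ) j
      have hν0 : ν ≠ 0 := by
        intro h
        have : ν 1 = μ 1 := rfl
        rw [h] at this
        exact irr_one_ne_zero hμ this.symm
      obtain ⟨ψ, hψ, hψν⟩ := exists_constituent hνc hν0
      obtain ⟨m, hm⟩ := char_mult hνc (irr_isCharacter hψ)
      obtain ⟨ν', hν', hsplit⟩ : ∃ ν' : T.subgroupOf N → ℂ, IsCharacter _ ν' ∧ ν = ψ + ν' := by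
        exact split_off hνc hψ hψν
      by_cases h0 : ν' = 0
      · rw [hsplit, h0, add_zero]; exact hψ
      · exfalso
        have h2 : (fun x : N => χ x) = indFun (T.subgroupOf N) ψ + indFun (T.subgroupOf N) ν' := by
          rw [hmac, hsplit, ind_add]
        have hpos : ∀ {f : T.subgroupOf N → ℂ}, IsCharacter _ f → f ≠ 0 → indFun (T.subgroupOf N) f 1 ≠ 0 := by
          intro f hf hf0
          rw [ind_one]
          apply mul_ne_zero
          · exact_mod_cast Subgroup.FiniteIndex.index_ne_zero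
          · intro h3
            apply hf0
            ext x
            have h4 := char_norm_le hf x
            rw [h3, Complex.zero_re] at h4
            exact norm_le_zero_iff.1 h4
        exact CfsgLib.Extend.not_irr_add (isCharacter_ind _ (irr_isCharacter hψ)) (isCharacter_ind _ hν')
          (hpos (irr_isCharacter hψ) (irr_ne_zero hψ)) (hpos hν' h0) (h2 ▸ hχN)
    have hirr2 : IsIrrCharacter (N.subgroupOf T) (fun x : N.subgroupOf T => μ x) := by
      let e : N.subgroupOf T ≃* T.subgroupOf N :=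
        { toFun := fun x => ⟨⟨((x : T) : G), Subgroup.mem_subgroupOf.1 x.2⟩, Subgroup.mem_subgroupOf.2 (x : T).2⟩
          invFun := fun x => ⟨⟨((x : N) : G), Subgroup.mem_subgroupOf.1 x.2⟩, Subgroup.mem_subgroupOf.2 (x : N).2⟩
          left_inv := fun x => rfl
          right_inv := fun x => rfl
          map_mul' := fun _ _ => rfl }
      exact isIrrCharacter_comp_equiv hirr1 e
    haveI : (N.subgroupOf T).Normal := hNn.subgroupOf T
    obtain ⟨U, lam, hl, hl1, hlU⟩ := ih _ hTlt T (N.subgroupOf T) rfl inferInstance (by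
      intro q hq Q hQN hQ a ha b hb
      have h8 := hAG q hq (Q.map T.subtype) (by
        rintro _ ⟨x, hx, rfl⟩
        exact Subgroup.mem_subgroupOf.1 (hQN hx)) (hQ.map _) a ⟨a, ha, rfl⟩ b ⟨b, hb, rfl⟩
      exact Subtype.ext h8) μ hμ hirr2
    refine ⟨U.map T.subtype, nest T U lam, ?_, ?_, ?_⟩
    · exact isCharacter_comp hl (U.equivMapOfInjective T.subtype T.subtype_injective).symm.toMonoidHom
    · show lam _ = 1
      rw [map_one]; exact hl1
    · rw [← ind_nest, hlU, hind]

/-- Let G be a finite solvable group and N a normal subgroup such that for every prime p every Sylow p-subgroup of N is abelian. Suppose every irreducible character of G is induced from an irreducible character of some subgroup containing N whose restriction to N is irreducible. Then every irreducible character of G is induced from a character of degree 1 of some subgroup. -/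
theorem result {G : Type*} [Group G] [Fintype G] [Group.IsSolvable G] (N : Subgroup G) [N.Normal] (hab : ∀ (p : ℕ) [Fact p.Prime] (P : Sylow p N), ∀ a ∈ P, ∀ b ∈ P, a * b = b * a) (hrel : ∀ χ : G → ℂ, Cfsg.IsIrrCharacter G χ → ∃ (H : Subgroup G) (hNH : N ≤ H) (ψ : H → ℂ), Cfsg.IsIrrCharacter H ψ ∧ Cfsg.indFun H ψ = χ ∧ Cfsg.IsIrrCharacter N (fun n : N => ψ ⟨(n : G), hNH n.2⟩)) (χ : G → ℂ) (hχ : Cfsg.IsIrrCharacter G χ) : ∃ (U : Subgroup G) (lam : U → ℂ), Cfsg.IsCharacter U lam ∧ lam 1 = 1 ∧ Cfsg.indFun U lam = χ := by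
    classical
    obtain ⟨H, hNH, ψ, hψ, hind, hψN⟩ := hrel χ hχ
    haveI : Fintype H := Fintype.ofFinite H
    have hNn : N.Normal := inferInstance
    haveI : (N.subgroupOf H).Normal := hNn.subgroupOf H
    obtain ⟨U, lam, hl, hl1, hlU⟩ := mono _ H (N.subgroupOf H) rfl inferInstance (by
      intro q hq Q hQN hQ a ha b hb
      haveI : Fact q.Prime := ⟨hq⟩
      let Q1 : Subgroup N := (Q.map H.subtype).subgroupOf N
      have hQ1 : IsPGroup q Q1 := (hQ.map H.subtype).comap_of_injective _ N.subtype_injective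
      obtain ⟨P, hP⟩ := hQ1.exists_le_sylow
      have haN : (a : G) ∈ N := Subgroup.mem_subgroupOf.1 (hQN ha)
      have hbN : (b : G) ∈ N := Subgroup.mem_subgroupOf.1 (hQN hb)
      have h1 := hab q P ⟨a, haN⟩ (hP (Subgroup.mem_subgroupOf.2 ⟨a, ha, rfl⟩)) ⟨b, hbN⟩ (hP (Subgroup.mem_subgroupOf.2 ⟨b, hb, rfl⟩))
      have h2 : (a : G) * (b : G) = (b : G) * (a : G) := congrArg Subtype.val h1
      exact Subtype.ext h2) ψ hψ ((toSub_irr hNH).2 hψN)
    refine ⟨U.map H.subtype, nest H U lam, ?_, ?_, ?_⟩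
    · exact isCharacter_comp hl (U.equivMapOfInjective H.subtype H.subtype_injective).symm.toMonoidHom
    · show lam _ = 1
      rw [map_one]; exact hl1
    · rw [← ind_nest, hlU, hind]

end Cfsg.Agent.S0859
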