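import Cfsg.Statements.S0861
import Mathlib
import Cfsg.Agent.LibBlockQP
import Cfsg.Agent.LibDZ19
import Cfsg.Agent.LibGalChar
import Cfsg.Agent.LibCharMore
-- import your own Cfsg.Agent.* helpers here

set_option autoImplicit false
open Cfsg

namespace Cfsg.Agent.S0861

open CfsgLib.CharBasic CfsgLib.GalChar
open scoped ComplexConjugate

/-- Let P be a normal abelian Sylow p-subgroup of the finite group G and suppose some element g of P has centralizer exactly P. Then the number of irreducible characters of G is at most the order of P, and if equality holds then G / P is abelian (the commutator subgroup lies in P). -/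
theorem result {G : Type*} [Group G] [Finite G] (p : ℕ) [Fact p.Prime] (P : Sylow p G) [(P : Subgroup G).Normal] (hab : ∀ a ∈ P, ∀ b ∈ P, a * b = b * a) (g : G) (hg : g ∈ P) (hC : Subgroup.centralizer ({g} : Set G) = P) : Nat.card (Cfsg.IrrCharacter G) ≤ Nat.card P ∧ (Nat.card (Cfsg.IrrCharacter G) = Nat.card P → commutator G ≤ P) := by
    classical
    haveI : Fintype G := Fintype.ofFinite G
    have hp : p.Prime := Fact.out
    obtain ⟨M, hM⟩ := CfsgLib.DZ19.exists_modular p
    haveI := CfsgLib.LocR.isPrime hM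
    have hgp : ∃ k : ℕ, orderOf g = p ^ k := by
      have h1 := (IsPGroup.iff_orderOf.1 P.isPGroup') ⟨g, hg⟩
      rwa [Subgroup.orderOf_mk] at h1
    have hidx : ¬ p ∣ (P : Subgroup G).index := P.not_dvd_index
    have hne : ∀ χ : Cfsg.IrrCharacter G, (χ : G → ℂ) g ≠ 0 := by
      intro χ h0
      have h1 := CfsgLib.BlockQP.char_congr hM (irr_isCharacter χ.2) (Commute.one_right g) hgp
      rw [mul_one, h0, zero_sub, CfsgLib.CharInt.irr_one_eq_charDegree χ.2] at h1
      have h2 : MemLocalIdeal M ((-(charDegree (χ : G → ℂ) : ℤ) : ℤ) : ℂ) := by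
        push_cast; exact h1
      rw [CfsgLib.LocR.memI_intCast_iff hM] at h2
      have h3 : (p : ℤ) ∣ (charDegree (χ : G → ℂ) : ℤ) := (dvd_neg).1 h2
      have h4 : p ∣ charDegree (χ : G → ℂ) := by exact_mod_cast h3
      exact hidx (h4.trans (CfsgLib.CharMore.ito χ.2 (P : Subgroup G) hab))
    have hsum : ∑ χ : Cfsg.IrrCharacter G, ‖(χ : G → ℂ) g‖ ^ 2 = Nat.card P := by
      have h1 := column_orthogonality g g
      rw [if_pos (IsConj.refl g), hC] at h1
      simp only [Complex.mul_conj, Complex.normSq_eq_norm_sq] at h1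
      exact_mod_cast h1
    have hσ : ∀ σ : ℂ ≃+* ℂ, ∃ τ : Cfsg.IrrCharacter G → Cfsg.IrrCharacter G,
        (∀ i ∈ (Finset.univ : Finset (Cfsg.IrrCharacter G)), ∀ j ∈ (Finset.univ : Finset (Cfsg.IrrCharacter G)), τ i = τ j → i = j) ∧
        (∀ i ∈ (Finset.univ : Finset (Cfsg.IrrCharacter G)), τ i ∈ (Finset.univ : Finset (Cfsg.IrrCharacter G))) ∧
        ∀ i ∈ (Finset.univ : Finset (Cfsg.IrrCharacter G)), ((τ i : Cfsg.IrrCharacter G) : G → ℂ) g = σ ((i : G → ℂ) g) := by
      intro σ
      exact ⟨galIrr σ, fun i _ j _ h => (galIrr σ).injective h, fun _ _ => Finset.mem_univ _, fun i _ => galIrr_apply σ i g⟩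
    have hint : ∀ χ ∈ (Finset.univ : Finset (Cfsg.IrrCharacter G)), IsIntegral ℤ ((χ : G → ℂ) g) :=
      fun χ _ => char_isIntegral (irr_isCharacter χ.2) g
    have hcard : (Finset.univ : Finset (Cfsg.IrrCharacter G)).card = Nat.card (Cfsg.IrrCharacter G) := by
      rw [Finset.card_univ, Nat.card_eq_fintype_card]
    constructor
    · have h1 := card_le_sum_norm_sq_of_closed Finset.univ (fun χ : Cfsg.IrrCharacter G => (χ : G → ℂ) g) hint
        (fun χ _ => hne χ) hσ
      rw [hsum, hcard] at h1
      exact_mod_cast h1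
    · intro heq
      have h1 := norm_eq_one_of_closed Finset.univ (fun χ : Cfsg.IrrCharacter G => (χ : G → ℂ) g) hint
        (fun χ _ => hne χ) hσ (by rw [hsum, hcard, heq])
      have h2 : ∀ χ' : G ⧸ (P : Subgroup G) → ℂ, IsIrrCharacter (G ⧸ (P : Subgroup G)) χ' → χ' 1 = 1 := by
        intro χ' hχ'
        have h3 := isIrrCharacter_comp_surj hχ' (QuotientGroup.mk' (P : Subgroup G)) (QuotientGroup.mk'_surjective _)
        have h4 := h1 ⟨_, h3⟩ (Finset.mem_univ _)
        have h5 : (QuotientGroup.mk' (P : Subgroup G)) g = 1 := by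
          rw [QuotientGroup.mk'_apply, QuotientGroup.eq_one_iff]; exact hg
        simp only [Function.comp, h5] at h4
        obtain ⟨n, -, hn⟩ := irr_one_nat hχ'
        rw [hn, Complex.norm_natCast] at h4
        rw [hn, ← Complex.ofReal_natCast, h4, Complex.ofReal_one]
      have h6 := card_linear (G := G ⧸ (P : Subgroup G))
      have h7 := sum_sq_degree (G := G ⧸ (P : Subgroup G))
      rw [Finset.sum_congr rfl (g := fun _ => (1 : ℂ)) (fun χ _ => by rw [h2 χ χ.2, one_pow]), Finset.sum_const,
        nsmul_eq_mul, mul_one, Finset.card_univ] at h7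
      have h8 : Nat.card {χ : Cfsg.IrrCharacter (G ⧸ (P : Subgroup G)) // (χ : G ⧸ (P : Subgroup G) → ℂ) 1 = 1} =
          Nat.card (Cfsg.IrrCharacter (G ⧸ (P : Subgroup G))) :=
        Nat.card_congr (Equiv.subtypeUnivEquiv (fun χ => h2 χ χ.2))
      rw [h8, Nat.card_eq_fintype_card] at h6
      have h9 : (commutator (G ⧸ (P : Subgroup G))).index = Nat.card (G ⧸ (P : Subgroup G)) := by
        rw [← h6]; exact_mod_cast h7
      have h10 : Nat.card (commutator (G ⧸ (P : Subgroup G))) = 1 := by
        have h11 := (commutator (G ⧸ (P : Subgroup G))).card_mul_index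
        rw [h9] at h11
        exact Nat.eq_of_mul_eq_mul_right Nat.card_pos (by rw [h11, one_mul])
      rw [Subgroup.card_eq_one] at h10
      have h12 : (commutator G).map (QuotientGroup.mk' (P : Subgroup G)) = ⊥ := by
        rw [← h10, commutator_def, commutator_def, Subgroup.map_commutator,
          Subgroup.map_top_of_surjective _ (QuotientGroup.mk'_surjective _)]
      rw [Subgroup.map_eq_bot_iff, QuotientGroup.ker_mk'] at h12
      exact h12

end Cfsg.Agent.S0861
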