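import Cfsg.Statements.S0865
import Cfsg.Agent.LibExtend4

set_option autoImplicit false
open Cfsg

namespace Cfsg.Agent.S0865

/-- Let N be a normal subgroup of the finite group G and λ a character of N of degree 1, invariant under conjugation by G, whose order (under pointwise multiplication) is coprime to the index of N. Then there is a character μ of G of degree 1 restricting to λ with the same order as λ, and μ is the only degree-1 character of G restricting to λ whose order is coprime to the index of N. -/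
theorem result {G : Type*} [Group G] [Finite G] (N : Subgroup G) [hN : N.Normal] (lam : N → ℂ) (hlam : Cfsg.IsCharacter N lam ∧ lam 1 = 1) (hinv : ∀ (g : G) (n : N), lam ⟨g * n * g⁻¹, hN.conj_mem (n : G) n.2 g⟩ = lam n) (hcop : Nat.Coprime N.index (orderOf lam)) : ∃ μ : G → ℂ, (Cfsg.IsCharacter G μ ∧ μ 1 = 1 ∧ (∀ n : N, μ n = lam n) ∧ orderOf μ = orderOf lam) ∧ ∀ μ' : G → ℂ, Cfsg.IsCharacter G μ' ∧ μ' 1 = 1 → (∀ n : N, μ' n = lam n) → Nat.Coprime N.index (orderOf μ') → μ' = μ := by
  obtain ⟨f, hf⟩ := CfsgLib.CharBasic.exists_hom_of_linear hlam.1 hlam.2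
  have hlamf : lam = fun n => (f n : ℂ) := funext hf
  have ho : orderOf lam = orderOf f := by rw [hlamf, CfsgLib.Extend.orderOf_val]
  rw [ho] at hcop
  have hinv' : CfsgLib.Extend.Inv N (fun n => (f n : ℂ)) := by rw [← hlamf]; exact hinv
  obtain ⟨μ, h1, h2⟩ := CfsgLib.Extend.ext_linear_coprime hinv' hcop
  refine ⟨fun g => (μ g : ℂ), ⟨CfsgLib.CharBasic.isCharacter_hom μ, by simp, fun n => by simp only; rw [h1, hf], ?_⟩, ?_⟩
  · rw [CfsgLib.Extend.orderOf_val, ho, h2]
  · intro μ' h3 h4 h5
    obtain ⟨f', hf'⟩ := CfsgLib.CharBasic.exists_hom_of_linear h3.1 h3.2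
    have hf'' : μ' = fun g => (f' g : ℂ) := funext hf'
    rw [hf'', CfsgLib.Extend.orderOf_val] at h5
    have : f' = μ := CfsgLib.Extend.linear_unique (N := N) (fun n => Units.ext (by rw [← hf', h4, hf, h1])) h5 (by rw [h2]; exact hcop)
    rw [hf'', this]

end Cfsg.Agent.S0865
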