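import Cfsg.Statements.S0868
import Cfsg.Agent.LibGallagher

set_option autoImplicit false
set_option linter.all false
open scoped ComplexConjugate
open Cfsg

namespace Cfsg.Agent.S0868

open CfsgLib.CharBasic CfsgLib.Gallagher

/-- Let N be a normal subgroup of the finite group G, χ an irreducible character of G whose restriction ϑ to N is irreducible, and ψ an irreducible character of G. Define η on G by η g = (1 / order of N) * Σ over n in N of ψ (n * g) * conj (χ (n * g)). Then: if the restriction of ψ to N has nonzero inner product with ϑ, η is an irreducible character of G; if that inner product is zero, η vanishes identically; and if ψ = χ then η is identically 1. -/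
theorem result {G : Type*} [Group G] [Fintype G] (N : Subgroup G) [N.Normal] [Fintype N] (χ : G → ℂ) (hχ : Cfsg.IsIrrCharacter G χ) (hχN : Cfsg.IsIrrCharacter N (fun n : N => χ n)) (ψ : G → ℂ) (hψ : Cfsg.IsIrrCharacter G ψ) (η : G → ℂ) (hη : η = fun g => (Nat.card N : ℂ)⁻¹ * ∑ n : N, ψ ((n : G) * g) * conj (χ ((n : G) * g))) : (Cfsg.classInner (fun n : N => ψ n) (fun n : N => χ n) ≠ 0 → Cfsg.IsIrrCharacter G η) ∧ (Cfsg.classInner (fun n : N => ψ n) (fun n : N => χ n) = 0 → η = 0) ∧ (ψ = χ → η = fun _ => 1) := by
  have hη' : η = avg N (fun g => ψ g * conj (χ g)) := hη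
  refine ⟨fun h => ?_, fun h => ?_, fun h => ?_⟩
  · rw [hη']
    exact (gallagher_exists N hχ hχN hψ h).1
  · have hc : IsCharacter G η := by
      rw [hη']
      exact avg_char N (isCharacter_mul (irr_isCharacter hψ) (isCharacter_conj (irr_isCharacter hχ)))
    have h1 : η 1 = 0 := by
      rw [hη', avg_one N ψ χ, h]
    obtain ⟨n, ρ, rfl⟩ := hc
    rw [Representation.char_one] at h1
    have hn : n = 0 := by
      have h5 : Module.finrank ℂ (Fin n → ℂ) = n := by simp
      rw [h5] at h1
      exact_mod_cast h1
    subst hn
    ext g
    have h0 : ρ g = 0 := by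
      apply LinearMap.ext
      intro v
      exact Subsingleton.elim _ _
    rw [Representation.character, h0, map_zero]
    rfl
  · subst h
    rw [hη']
    exact avg_norm_sq N (irr_isCharacter hψ) hχN

end Cfsg.Agent.S0868
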