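import Cfsg.Statements.S0869
import Mathlib

set_option autoImplicit false
set_option linter.all false
open Cfsg

namespace Cfsg.Agent.S0869

/-- Let S be a nonempty finite type and R an additive subgroup of the integer-valued functions on S that is closed under pointwise multiplication. If the constant function 1 is not in R, then there exist a point x of S and a prime p such that p divides f x for every f in R. -/
theorem result {S : Type*} [Finite S] [Nonempty S] (R : AddSubgroup (S → ℤ)) (hmul : ∀ f ∈ R, ∀ g ∈ R, f * g ∈ R) (h1 : (1 : S → ℤ) ∉ R) : ∃ (x : S) (p : ℕ), p.Prime ∧ ∀ f ∈ R, (p : ℤ) ∣ f x := by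
  classical
  haveI := Fintype.ofFinite S
  by_contra hcon
  push Not at hcon
  have hone : ∀ x : S, ∃ f ∈ R, f x = 1 := by
    intro x
    let I : AddSubgroup ℤ := R.map (Pi.evalAddMonoidHom (fun _ : S => ℤ) x)
    obtain ⟨d, hd⟩ := Int.subgroup_cyclic I
    have hd1 : d.natAbs = 1 := by
      by_contra hne
      obtain ⟨p, hp, hpd⟩ := Nat.exists_prime_and_dvd hne
      obtain ⟨f, hf, hnd⟩ := hcon x p hp
      apply hnd
      have hfI : f x ∈ I := ⟨f, hf, rfl⟩
      rw [hd, AddSubgroup.mem_closure_singleton] at hfI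
      obtain ⟨k, hk⟩ := hfI
      rw [← hk, smul_eq_mul]
      exact Dvd.dvd.mul_left (Int.natCast_dvd.mpr hpd) k
    have h1I : (1 : ℤ) ∈ I := by
      rw [hd, AddSubgroup.mem_closure_singleton]
      rcases Int.natAbs_eq d with h | h
      · exact ⟨1, by rw [h, hd1]; simp⟩
      · exact ⟨-1, by rw [h, hd1]; simp⟩
    obtain ⟨f, hf, hfx⟩ := h1I
    exact ⟨f, hf, hfx⟩
  choose f hf hfx using hone
  have key : ∀ s : Finset S, (1 : S → ℤ) - ∏ x ∈ s, (1 - f x) ∈ R := by
    intro s
    induction s using Finset.induction with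
    | empty => simp [R.zero_mem]
    | insert a s ha ih =>
      rw [Finset.prod_insert ha]
      have : (1 : S → ℤ) - (1 - f a) * ∏ x ∈ s, (1 - f x) = (1 - ∏ x ∈ s, (1 - f x)) + f a - f a * (1 - ∏ x ∈ s, (1 - f x)) := by ring
      rw [this]
      exact R.sub_mem (R.add_mem ih (hf a)) (hmul _ (hf a) _ ih)
  have h2 := key Finset.univ
  have h3 : ∏ x : S, (1 - f x) = 0 := by
    ext y
    rw [Finset.prod_apply, Pi.zero_apply, Finset.prod_eq_zero_iff]
    exact ⟨y, Finset.mem_univ y, by simp [hfx]⟩
  rw [h3, sub_zero] at h2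
  exact h1 h2

end Cfsg.Agent.S0869
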