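import Cfsg.Statements.S0873
import Cfsg.Agent.LibCharBasic3

set_option autoImplicit false
set_option linter.all false
open Cfsg

namespace Cfsg.Agent.S0873

open CfsgLib.CharBasic

/-- Let C be a normal subgroup of the finite group G of order prime to p and P a p-subgroup with C ⊔ P = G. Let λ be a character of C of degree 1 invariant under conjugation by G and equal to 1 at every element of C centralized by P. Then λ is identically 1. -/
theorem result {G : Type*} [Group G] [Finite G] (p : ℕ) [Fact p.Prime] (C P : Subgroup G) [hC : C.Normal] (hP : IsPGroup p P) (hcop : Nat.Coprime (Nat.card C) p) (hCP : C ⊔ P = ⊤) (lam : C → ℂ) (hlam : Cfsg.IsCharacter C lam ∧ lam 1 = 1) (hinv : ∀ (g : G) (c : C), lam ⟨g * c * g⁻¹, hC.conj_mem (c : G) c.2 g⟩ = lam c) (hker : ∀ c : C, (c : G) ∈ Subgroup.centralizer (P : Set G) → lam c = 1) : lam = fun _ => 1 := by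
  classical
  obtain ⟨hc, h1⟩ := hlam
  obtain ⟨f, hf⟩ := exists_hom_of_linear hc h1
  ext c
  -- the coset of the kernel through `c`
  letI : MulAction P {y : C // lam y = lam c} :=
    { smul := fun g y => ⟨⟨(g : G) * (y.1 : G) * (g : G)⁻¹, hC.conj_mem _ y.1.2 g⟩, by rw [hinv]; exact y.2⟩
      one_smul := by
        intro y
        apply Subtype.ext; apply Subtype.ext
        show ((1 : P) : G) * (y.1 : G) * ((1 : P) : G)⁻¹ = y.1
        simp
      mul_smul := by
        intro g g' y
        apply Subtype.ext; apply Subtype.ext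
        show ((g * g' : P) : G) * (y.1 : G) * ((g * g' : P) : G)⁻¹ = (g : G) * ((g' : G) * (y.1 : G) * (g' : G)⁻¹) * (g : G)⁻¹
        push_cast; group }
  have hcard : Nat.card {y : C // lam y = lam c} = Nat.card f.ker := by
    apply Nat.card_congr
    refine ⟨fun y => ⟨c⁻¹ * y.1, ?_⟩, fun k => ⟨c * k.1, ?_⟩, fun y => ?_, fun k => ?_⟩
    · rw [MonoidHom.mem_ker, map_mul, map_inv]
      have h2 : ((f y.1 : ℂˣ) : ℂ) = (f c : ℂˣ) := by rw [← hf, ← hf]; exact y.2
      rw [Units.ext h2, inv_mul_cancel]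
    · rw [hf, hf, map_mul, MonoidHom.mem_ker.mp k.2, mul_one]
    · apply Subtype.ext; simp
    · apply Subtype.ext; simp
  have hnd : ¬ p ∣ Nat.card {y : C // lam y = lam c} := by
    rw [hcard]
    intro hd
    have h2 : p ∣ Nat.card C := hd.trans (Subgroup.card_subgroup_dvd_card _)
    have h3 := Nat.dvd_gcd h2 dvd_rfl
    rw [hcop] at h3
    exact (Fact.out : p.Prime).one_lt.ne' (Nat.dvd_one.mp h3)
  obtain ⟨y, hy⟩ := hP.nonempty_fixed_point_of_prime_not_dvd_card {y : C // lam y = lam c} hnd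
  rw [← y.2]
  apply hker
  rw [Subgroup.mem_centralizer_iff]
  intro g hg
  have h2 := hy ⟨g, hg⟩
  have h3 : g * (y.1 : G) * g⁻¹ = y.1 := congrArg (fun z : {y : C // lam y = lam c} => ((z.1 : C) : G)) h2
  exact mul_inv_eq_iff_eq_mul.mp h3

end Cfsg.Agent.S0873
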