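import Cfsg.Statements.S0875
import Mathlib
import Cfsg.Agent.LibPPChar
import Cfsg.Agent.LibGallagher
-- import your own Cfsg.Agent.* helpers here

set_option autoImplicit false
open Cfsg

namespace Cfsg.Agent.S0875

open CfsgLib.CharBasic CfsgLib.CharIndA CfsgLib.CharNorm CfsgLib.CharMore CfsgLib.BrauerInd CfsgLib.Gallagher
open scoped ComplexConjugate
universe u

theorem isInt_sum {ι : Type*} (s : Finset ι) (f : ι → ℂ) (h : ∀ i ∈ s, IsIntegral ℤ (f i)) : IsIntegral ℤ (∑ i ∈ s, f i) :=
  IsIntegral.sum f h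

theorem int_elem {E : Type u} [Group E] [Fintype E] (f : E →* E) (hf : ∀ e, f (f e) = f e) (n : ℕ) (F : E → ℂ)
    (hF : ∀ b, ∃ w, IsIntegral ℤ w ∧ F b = n * w) (hn : Nat.card f.range ∣ n) {ξ : E → ℂ} (hξ : IsCharacter E ξ) :
    IsIntegral ℤ ((Nat.card E : ℂ)⁻¹ * ∑ e, F (f e) * ξ e) := by
  classical
  haveI : Fintype f.ker := Fintype.ofFinite _
  haveI : Fintype f.range := Fintype.ofFinite _
  set ζ := avg f.ker ξ with hζ
  have hζc : IsCharacter E ζ := avg_char f.ker hξ
  have h1 : ∑ e, F (f e) * ξ e = ∑ e, F (f e) * ζ e := by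
    have h2 : ∀ a : f.ker, ∑ e, F (f e) * ξ (a * e) = ∑ e, F (f e) * ξ e := by
      intro a
      rw [← Equiv.sum_comp (Equiv.mulLeft (a : E)) (fun e => F (f e) * ξ e)]
      refine Finset.sum_congr rfl fun e _ => ?_
      simp only [Equiv.coe_mulLeft, map_mul]
      rw [show f a = 1 from a.2, one_mul]
    have h3 : ∑ a : f.ker, ∑ e, F (f e) * ξ (a * e) = (Nat.card f.ker : ℂ) * ∑ e, F (f e) * ξ e := by
      rw [Finset.sum_congr rfl fun a _ => h2 a, Finset.sum_const, nsmul_eq_mul, Finset.card_univ, Nat.card_eq_fintype_card]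
    have hk0 : (Nat.card f.ker : ℂ) ≠ 0 := by exact_mod_cast Nat.card_pos.ne'
    apply mul_left_cancel₀ hk0
    rw [← h3, Finset.sum_comm, Finset.mul_sum]
    refine Finset.sum_congr rfl fun e _ => ?_
    rw [hζ]
    unfold avg
    rw [← Finset.mul_sum]
    field_simp
  have hinv : ∀ e, ζ e = ζ (f e) := by
    intro e
    have h4 : e * (f e)⁻¹ ∈ f.ker := by
      rw [MonoidHom.mem_ker, map_mul, map_inv, hf, mul_inv_cancel]
    have h5 := avg_mul_left f.ker ξ ⟨e * (f e)⁻¹, h4⟩ (f e)
    have h6 : e * (f e)⁻¹ * f e = e := by group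
    simp only [h6] at h5
    exact h5
  rw [h1, Finset.sum_congr rfl fun e _ => by rw [hinv e]]
  have h7 := sum_comp_surj f.rangeRestrict f.rangeRestrict_surjective (fun q : f.range => F q * ζ q)
  have h8 : ∑ e, F (f e) * ζ (f e) = (Nat.card f.ker : ℂ) * ∑ q : f.range, F q * ζ q := by
    rw [← f.ker_rangeRestrict, ← h7]; rfl
  rw [h8]
  obtain ⟨c, hc⟩ := hn
  have hcard : Nat.card f.ker * Nat.card f.range = Nat.card E := by
    rw [← Subgroup.index_ker, Subgroup.card_mul_index]
  choose w hw hFw using hF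
  have h9 : (Nat.card E : ℂ)⁻¹ * ((Nat.card f.ker : ℂ) * ∑ q : f.range, F q * ζ q) = (c : ℂ) * ∑ q : f.range, w q * ζ q := by
    have h10 : ∑ q : f.range, F q * ζ q = (n : ℂ) * ∑ q : f.range, w q * ζ q := by
      rw [Finset.mul_sum]
      refine Finset.sum_congr rfl fun q _ => by rw [hFw]; ring
    rw [h10, ← hcard, hc]
    have hk0 : (Nat.card f.ker : ℂ) ≠ 0 := by exact_mod_cast Nat.card_pos.ne'
    have hr0 : (Nat.card f.range : ℂ) ≠ 0 := by exact_mod_cast Nat.card_pos.ne'
    push_cast
    field_simp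
  rw [h9]
  refine IsIntegral.mul ?_ (isInt_sum _ _ fun q _ => IsIntegral.mul (hw q) (char_isIntegral hζc _))
  exact_mod_cast (isIntegral_algebraMap (R := ℤ) (A := ℂ) (x := (c : ℤ)))

/-- Let G be a finite group of order m * n with m and n coprime, and g an element whose order is coprime to m. Every x in G factors uniquely as x = u * v with u, v commuting, the order of u coprime to n and the order of v coprime to m; let ϑ be the function on G equal to n at those x whose factor v is conjugate to g and equal to 0 elsewhere. Then ϑ is a linear combination of the irreducible characters of G with algebraic-integer coefficients. -/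
theorem result {G : Type*} [Group G] [Fintype G] (m n : ℕ) (hmn : Nat.card G = m * n) (hcop : Nat.Coprime m n) (g : G) (hg : Nat.Coprime (orderOf g) m) (ϑ : G → ℂ) (hϑ1 : ∀ x : G, (∃ v : G, IsConj v g ∧ (∃ u : G, x = u * v ∧ Commute u v ∧ Nat.Coprime (orderOf u) n ∧ Nat.Coprime (orderOf v) m)) → ϑ x = n) (hϑ0 : ∀ x : G, (¬ ∃ v : G, IsConj v g ∧ (∃ u : G, x = u * v ∧ Commute u v ∧ Nat.Coprime (orderOf u) n ∧ Nat.Coprime (orderOf v) m)) → ϑ x = 0) : ∃ c : Cfsg.IrrCharacter G → ℂ, (∀ χ, c χ ∈ Cfsg.AlgInt) ∧ ϑ = ∑ᶠ χ : Cfsg.IrrCharacter G, c χ • (χ : G → ℂ) := by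
    classical
    have hG0 : 0 < Nat.card G := Nat.card_pos
    have hm0 : m ≠ 0 := by rintro rfl; rw [zero_mul] at hmn; omega
    have hn0 : n ≠ 0 := by rintro rfl; rw [mul_zero] at hmn; omega
    obtain ⟨k, hk1, hk2⟩ := Nat.chineseRemainder hcop 0 1
    obtain ⟨k', hk1', hk2'⟩ := Nat.chineseRemainder hcop 1 0
    have hmk : m ∣ k := Nat.modEq_zero_iff_dvd.1 hk1
    have hnk' : n ∣ k' := Nat.modEq_zero_iff_dvd.1 hk2'
    have hpow : ∀ x : G, x ^ (m * n) = 1 := fun x => by rw [← hmn]; exact pow_card_eq_one'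
    have hordm : ∀ x : G, Nat.Coprime (orderOf x) n → orderOf x ∣ m := fun x hx =>
      hx.dvd_of_dvd_mul_right (orderOf_dvd_of_pow_eq_one (hpow x))
    have hordn : ∀ x : G, Nat.Coprime (orderOf x) m → orderOf x ∣ n := fun x hx =>
      hx.dvd_of_dvd_mul_left (orderOf_dvd_of_pow_eq_one (hpow x))
    have hkn : ∀ x : G, orderOf x ∣ n → x ^ k = x := by
      intro x hx
      have h1 : k ≡ 1 [MOD orderOf x] := hk2.of_dvd hx
      rw [(pow_eq_pow_iff_modEq (x := x) (n := k) (m := 1)).2 h1, pow_one]
    have hkm : ∀ x : G, orderOf x ∣ m → x ^ k = 1 := fun x hx => orderOf_dvd_iff_pow_eq_one.1 (hx.trans hmk)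
    have hkk : ∀ x : G, x ^ k' * x ^ k = x := by
      intro x
      have h1 : k' + k ≡ 1 [MOD m * n] := by
        rw [← Nat.modEq_and_modEq_iff_modEq_mul hcop]
        exact ⟨by simpa using hk1'.add hk1, by simpa using hk2'.add hk2⟩
      rw [← pow_add]
      have h2 : k' + k ≡ 1 [MOD orderOf x] := h1.of_dvd (orderOf_dvd_of_pow_eq_one (hpow x))
      rw [(pow_eq_pow_iff_modEq (x := x) (n := k' + k) (m := 1)).2 h2, pow_one]
    have hok : ∀ x : G, orderOf (x ^ k) ∣ n := by
      intro x
      apply orderOf_dvd_of_pow_eq_one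
      obtain ⟨c, rfl⟩ := hmk
      rw [← pow_mul, show m * c * n = (m * n) * c by ring, pow_mul, hpow, one_pow]
    have hok' : ∀ x : G, orderOf (x ^ k') ∣ m := by
      intro x
      apply orderOf_dvd_of_pow_eq_one
      obtain ⟨c, rfl⟩ := hnk'
      rw [← pow_mul, show n * c * m = (m * n) * c by ring, pow_mul, hpow, one_pow]
    have hϑ : ∀ x : G, ϑ x = if IsConj (x ^ k) g then (n : ℂ) else 0 := by
      intro x
      split_ifs with h
      · apply hϑ1
        refine ⟨x ^ k, h, x ^ k', (hkk x).symm, (Commute.refl x).pow_pow k' k, ?_, ?_⟩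
        · exact Nat.Coprime.coprime_dvd_left (hok' x) hcop
        · exact Nat.Coprime.coprime_dvd_left (hok x) hcop.symm
      · apply hϑ0
        rintro ⟨v, hv, u, hx, hc, hu, hv2⟩
        apply h
        rw [hx, hc.mul_pow, hkm u (hordm u hu), hkn v (hordn v hv2), one_mul]
        exact hv
    have hcl : IsClassFunction G ϑ := by
      intro x y
      rw [hϑ, hϑ]
      have h1 : IsConj ((y * x * y⁻¹) ^ k) g ↔ IsConj (x ^ k) g := by
        rw [conj_pow]
        have h2 : IsConj (x ^ k) (y * x ^ k * y⁻¹) := isConj_iff.2 ⟨y, rfl⟩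
        exact ⟨fun h => h2.trans h, fun h => h2.symm.trans h⟩
      simp only [h1]
    have hk2k : ∀ x : G, (x ^ k) ^ k = x ^ k := fun x => hkn _ (hok x)
    -- elementary subgroups
    have helem : ∀ (E : Subgroup G) (q : ℕ), q.Prime → IsElementary q E → ∀ [Fintype E] (ξ : E → ℂ), IsCharacter E ξ →
        IsIntegral ℤ ((Nat.card E : ℂ)⁻¹ * ∑ e : E, ϑ e * ξ e) := by
      intro E q hq hE _ ξ hξ
      have hmulk : ∀ a b : E, (a * b) ^ k = a ^ k * b ^ k := by
        apply CfsgLib.PPChar.pow_hom hq hE
        by_cases hqm : q ∣ m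
        · right
          rintro u ⟨j, hj⟩
          apply Subtype.ext
          rw [SubmonoidClass.coe_pow]
          apply hkm
          apply hordm
          rw [Subgroup.orderOf_coe, hj]
          exact Nat.Coprime.pow_left _ (Nat.Coprime.coprime_dvd_left hqm hcop)
        · left
          rintro u ⟨j, hj⟩
          apply Subtype.ext
          rw [SubmonoidClass.coe_pow]
          apply hkn
          apply hordn
          rw [Subgroup.orderOf_coe, hj]
          exact Nat.Coprime.pow_left _ ((Nat.Prime.coprime_iff_not_dvd hq).2 hqm)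
      let f : E →* E :=
        { toFun := fun e => e ^ k
          map_one' := one_pow k
          map_mul' := hmulk }
      have hff : ∀ e, f (f e) = f e := by
        intro e
        apply Subtype.ext
        show (((e ^ k) ^ k : E) : G) = ((e ^ k : E) : G)
        rw [SubmonoidClass.coe_pow, SubmonoidClass.coe_pow, hk2k]
      have hrange : Nat.card f.range ∣ n := by
        have h1 : Nat.card f.range ∣ m * n := by
          rw [← hmn]
          exact (Subgroup.card_subgroup_dvd_card f.range).trans (Subgroup.card_subgroup_dvd_card E)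
        have h2 : Nat.Coprime (Nat.card f.range) m := by
          rw [Nat.coprime_iff_gcd_eq_one] 
          by_contra hne
          obtain ⟨r, hr, hrd⟩ := Nat.exists_prime_and_dvd hne
          have hr1 := hrd.trans (Nat.gcd_dvd_left _ _)
          have hr2 := hrd.trans (Nat.gcd_dvd_right _ _)
          haveI : Fact r.Prime := ⟨hr⟩
          obtain ⟨y, hy⟩ := exists_prime_orderOf_dvd_card' (G := f.range) r hr1
          obtain ⟨e, he⟩ := y.2
          have h3 : orderOf (((y : E) : G)) ∣ n := by
            rw [← he]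
            exact hok (e : G)
          rw [Subgroup.orderOf_coe, Subgroup.orderOf_coe, hy] at h3
          have h4 := Nat.dvd_gcd hr2 h3
          rw [hcop] at h4
          exact hr.one_lt.ne' (Nat.dvd_one.1 h4)
        exact h2.dvd_of_dvd_mul_left h1
      have h5 := int_elem f hff n (fun b : E => if IsConj (b : G) g then (n : ℂ) else 0) (by
        intro b
        by_cases hb : IsConj (b : G) g
        · exact ⟨1, isIntegral_one, by simp only [if_pos hb, mul_one]⟩
        · exact ⟨0, isIntegral_zero, by simp only [if_neg hb, mul_zero]⟩) hrange hξ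
      have h6 : ∀ e : E, ϑ e = if IsConj ((f e : E) : G) g then (n : ℂ) else 0 := by
        intro e
        rw [hϑ]
        rfl
      rw [Finset.sum_congr rfl fun e _ => by rw [h6 e]]
      exact h5
    have key : ∀ f ∈ Submodule.span ℤ (indSet fun H : Subgroup G => ∃ p : ℕ, p.Prime ∧ IsElementary p H),
        ∀ χ : G → ℂ, IsIrrCharacter G χ → IsIntegral ℤ (classInner (f * ϑ) χ) := by
      intro f hf χ hχ
      induction hf using Submodule.span_induction with
      | mem x hx =>
        obtain ⟨H, φ, ⟨p, hp, hH⟩, hφ, rfl⟩ := hx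
        haveI := Fintype.ofFinite H
        rw [← ind_mul_restrict H φ hcl, frobenius H _ (irr_classFun hχ)]
        have h1 := helem H p hp hH (fun h : H => φ h * conj (χ h)) (isCharacter_mul hφ (isCharacter_conj (isCharacter_restrict (irr_isCharacter hχ) H)))
        unfold classInner
        convert h1 using 3
        ring
      | zero => rw [zero_mul, ci_zero_l]; exact isIntegral_zero
      | add x y _ _ hx hy => rw [add_mul, ci_add_l]; exact hx.add hy
      | smul a x _ hx =>
        rw [smul_mul_assoc]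
        have h1 : a • (x * ϑ) = (a : ℂ) • (x * ϑ) := by
          ext y; simp
        rw [h1, ci_smul_l]
        exact (isIntegral_algebraMap (R := ℤ) (A := ℂ) (x := a)).mul hx
    have hint : ∀ χ : Cfsg.IrrCharacter G, IsIntegral ℤ (classInner ϑ (χ : G → ℂ)) := by
      intro χ
      have := key 1 one_mem χ χ.2
      rwa [one_mul] at this
    refine ⟨fun χ => classInner ϑ (χ : G → ℂ), fun χ => hint χ, ?_⟩
    rw [finsum_eq_sum_of_fintype]
    exact classFun_expand hcl

end Cfsg.Agent.S0875
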