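import Cfsg.Statements.S0876
import Mathlib
import Cfsg.Agent.LibBlockQP
import Cfsg.Agent.LibBlockOrth
import Cfsg.Agent.S0875
-- import your own Cfsg.Agent.* helpers here

set_option autoImplicit false
open Cfsg

namespace Cfsg.Agent.S0876

open CfsgLib.CharBasic CfsgLib.LocR

/-- Let G be a finite group, p a prime and M a maximal ideal of the ring of algebraic integers containing p. Let x, y be elements with p-parts a and b (so a⁻¹ * x and b⁻¹ * y are their p-regular parts). Then a⁻¹ * x and b⁻¹ * y are conjugate in G if and only if, for every irreducible character χ, the difference χ x - χ y lies in the local ideal at M. -/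
theorem result {G : Type*} [Group G] [Finite G] (p : ℕ) (M : Ideal Cfsg.AlgInt) (hM : Cfsg.IsPModular p M) (x y a b : G) (ha : Cfsg.IsPPart p x a) (hb : Cfsg.IsPPart p y b) : IsConj (a⁻¹ * x) (b⁻¹ * y) ↔ ∀ χ : Cfsg.IrrCharacter G, Cfsg.MemLocalIdeal M ((χ : G → ℂ) x - (χ : G → ℂ) y) := by
    classical
    haveI : Fintype G := Fintype.ofFinite G
    haveI hPr := CfsgLib.LocR.isPrime hM
    haveI hpf : Fact p.Prime := ⟨hM.1⟩
    have hp : p.Prime := hM.1
    obtain ⟨s, hs1, hs2, hs3, hs4⟩ := ha
    obtain ⟨t, ht1, ht2, ht3, ht4⟩ := hb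
    have hsx : a⁻¹ * x = s := by rw [← hs1]; group
    have hty : b⁻¹ * y = t := by rw [← ht1]; group
    rw [hsx, hty]
    have hxs : ∀ χ : Cfsg.IrrCharacter G, MemLocalIdeal M ((χ : G → ℂ) x - (χ : G → ℂ) s) := by
      intro χ
      have := CfsgLib.BlockQP.char_congr hM (irr_isCharacter χ.2) hs2 hs3
      rwa [hs1] at this
    have hyt : ∀ χ : Cfsg.IrrCharacter G, MemLocalIdeal M ((χ : G → ℂ) y - (χ : G → ℂ) t) := by
      intro χ
      have := CfsgLib.BlockQP.char_congr hM (irr_isCharacter χ.2) ht2 ht3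
      rwa [ht1] at this
    constructor
    · intro h χ
      have h1 : (χ : G → ℂ) s = (χ : G → ℂ) t := CfsgLib.CharInt.irr_isConj χ.2 h
      have h2 := hxs χ
      rw [h1] at h2
      exact memI_trans h2 (memI_sub_comm.1 (hyt χ))
    · intro h
      by_contra hne
      obtain ⟨e, n, hn, hG⟩ := Nat.exists_eq_pow_mul_and_not_dvd (n := Nat.card G) Nat.card_pos.ne' p hp.ne_one
      have hcop : Nat.Coprime (p ^ e) n := Nat.Coprime.pow_left _ ((Nat.Prime.coprime_iff_not_dvd hp).2 hn)
      obtain ⟨c, hc, hsum⟩ := Cfsg.Agent.S0875.result (p ^ e) n hG hcop s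
        (Nat.Coprime.pow_right _ ((Nat.Prime.coprime_iff_not_dvd hp).2 hs4).symm)
        (fun z => if (∃ v : G, IsConj v s ∧ (∃ u : G, z = u * v ∧ Commute u v ∧ Nat.Coprime (orderOf u) n ∧ Nat.Coprime (orderOf v) (p ^ e))) then (n : ℂ) else 0)
        (fun z hz => if_pos hz) (fun z hz => if_neg hz)
      have hx : (fun z => if (∃ v : G, IsConj v s ∧ (∃ u : G, z = u * v ∧ Commute u v ∧ Nat.Coprime (orderOf u) n ∧ Nat.Coprime (orderOf v) (p ^ e))) then (n : ℂ) else 0) x = n := by
        apply if_pos
        refine ⟨s, IsConj.refl s, a, hs1.symm, hs2, ?_, ?_⟩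
        · obtain ⟨k, hk⟩ := hs3
          rw [hk]
          exact Nat.Coprime.pow_left _ ((Nat.Prime.coprime_iff_not_dvd hp).2 hn)
        · exact Nat.Coprime.pow_right _ ((Nat.Prime.coprime_iff_not_dvd hp).2 hs4).symm
      have hy : (fun z => if (∃ v : G, IsConj v s ∧ (∃ u : G, z = u * v ∧ Commute u v ∧ Nat.Coprime (orderOf u) n ∧ Nat.Coprime (orderOf v) (p ^ e))) then (n : ℂ) else 0) y = 0 := by
        apply if_neg
        rintro ⟨v, hv, u, huv, hcm, hu, hv2⟩
        apply hne
        have hupp : ∃ k : ℕ, orderOf u = p ^ k := by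
          have h1 : orderOf u ∣ p ^ e * n := by rw [← hG]; exact orderOf_dvd_natCard u
          have h2 : orderOf u ∣ p ^ e := hu.dvd_of_dvd_mul_right h1
          obtain ⟨k, -, hk⟩ := (Nat.dvd_prime_pow hp).1 h2
          exact ⟨k, hk⟩
        have hvp : ¬ p ∣ orderOf v := by
          intro hd
          rcases Nat.eq_zero_or_pos e with he | he
          · rw [he, pow_zero, one_mul] at hG
            exact hn (hG ▸ (hd.trans (orderOf_dvd_natCard v)))
          · have h1 := Nat.dvd_gcd hd (dvd_pow_self p he.ne')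
            rw [hv2] at h1
            exact hp.one_lt.ne' (Nat.dvd_one.1 h1)
        have h1 : IsPPart p y u := ⟨v, huv.symm, hcm, hupp, hvp⟩
        have h2 : IsPPart p y b := ⟨t, ht1, ht2, ht3, ht4⟩
        have h3 : u = b := CfsgLib.BlockOrth.isPPart_unique h1 h2
        have h4 : v = t := by
          have h5 : u * v = b * t := by rw [← huv, ht1]
          rw [h3] at h5
          exact mul_left_cancel h5
        rw [← h4]
        exact hv.symm
      rw [hsum] at hx hy
      rw [finsum_eq_sum_of_fintype] at hx hy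
      have h1 : MemLocalIdeal M (n : ℂ) := by
        have h2 : (n : ℂ) = ∑ χ : Cfsg.IrrCharacter G, c χ * ((χ : G → ℂ) x - (χ : G → ℂ) y) := by
          have h3 : (n : ℂ) = (n : ℂ) - 0 := by ring
          rw [h3]
          conv_lhs => rw [← hx, ← hy]
          rw [Finset.sum_apply, Finset.sum_apply, ← Finset.sum_sub_distrib]
          refine Finset.sum_congr rfl fun χ _ => ?_
          simp only [Pi.smul_apply, smul_eq_mul]
          ring
        rw [h2]
        exact memI_sum fun χ _ => memI_mul_left (memR_of_isIntegral (hc χ)) (h χ)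
      rw [memI_natCast_iff hM] at h1
      exact hn h1

end Cfsg.Agent.S0876
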