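import Cfsg.Statements.S0877
import Mathlib
import Cfsg.Agent.LibPPChar
import Cfsg.Agent.LibCharInt2
-- import your own Cfsg.Agent.* helpers here

set_option autoImplicit false
open Cfsg

namespace Cfsg.Agent.S0877

open CfsgLib.CharBasic CfsgLib.BrauerInd
open scoped ComplexConjugate
universe u

theorem elem_surj {E B : Type*} [Group E] [Finite E] [Group B] {q : ℕ} (hq : q.Prime) (φ : E →* B) (hφ : Function.Surjective φ) (hE : IsElementary q E) :
    IsElementary q B := by
  obtain ⟨x, hx, hcop, k, hk⟩ := hE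
  refine ⟨φ x, ?_, ?_, ?_⟩
  · rw [Subgroup.mem_center_iff]
    intro b
    obtain ⟨e, rfl⟩ := hφ b
    rw [← map_mul, ← map_mul, Subgroup.mem_center_iff.1 hx e]
  · exact Nat.Coprime.coprime_dvd_left (orderOf_map_dvd φ x) hcop
  · have h1 : Subgroup.zpowers (φ x) = (Subgroup.zpowers x).map φ := (MonoidHom.map_zpowers φ x).symm
    have h2 : (Subgroup.zpowers (φ x)).index ∣ q ^ k := by
      rw [h1, ← hk]; exact Subgroup.index_map_dvd _ hφ
    obtain ⟨j, -, hj⟩ := (Nat.dvd_prime_pow hq).1 h2
    exact ⟨j, hj⟩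

theorem main {G : Type u} [Group G] [Fintype G] (H : Subgroup G) [Fintype H] (hHall : Nat.Coprime (Nat.card H) H.index) (hfus : ∀ x ∈ H, ∀ y ∈ H, IsConj x y → ∃ h ∈ H, h * x * h⁻¹ = y) (helem : ∀ (E : Subgroup G) (p : ℕ), p.Prime → Cfsg.IsElementary p E → Nat.card E ∣ Nat.card H → ∃ g : G, E.map (MulAut.conj g).toMonoidHom ≤ H) : ∃ K : Subgroup G, K.Normal ∧ K ⊔ H = ⊤ ∧ K ⊓ H = ⊥ := by
  classical
  set m := H.index with hm
  set n := Nat.card H with hn
  have hmn : Nat.card G = n * m := by rw [hn, hm, Subgroup.card_mul_index]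
  obtain ⟨k, hk1, hk2⟩ := Nat.chineseRemainder hHall 1 0
  have hmk : m ∣ k := Nat.modEq_zero_iff_dvd.1 hk2
  have hpow : ∀ x : G, x ^ (n * m) = 1 := fun x => by rw [← hmn]; exact pow_card_eq_one'
  have hkn : ∀ x : G, orderOf x ∣ n → x ^ k = x := by
    intro x hx
    have h1 : k ≡ 1 [MOD orderOf x] := hk1.of_dvd hx
    rw [(pow_eq_pow_iff_modEq (x := x) (n := k) (m := 1)).2 h1, pow_one]
  have hok : ∀ x : G, orderOf (x ^ k) ∣ n := by
    intro x
    apply orderOf_dvd_of_pow_eq_one
    obtain ⟨c, rfl⟩ := hmk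
    rw [← pow_mul, show m * c * n = (n * m) * c by ring, pow_mul, hpow, one_pow]
  have hHn : ∀ x ∈ H, orderOf x ∣ n := by
    intro x hx
    rw [hn, ← Subgroup.orderOf_mk x hx]
    exact orderOf_dvd_natCard _
  -- conjugate into H
  have hex : ∀ g : G, ∃ c : G, c * g ^ k * c⁻¹ ∈ H := by
    intro g
    obtain ⟨p, hpge, hp⟩ := Nat.exists_infinite_primes (orderOf (g ^ k) + 1)
    have h1 : IsElementary p (Subgroup.zpowers (g ^ k)) := by
      refine ⟨⟨g ^ k, Subgroup.mem_zpowers _⟩, ?_, ?_, 0, ?_⟩
      · rw [Subgroup.mem_center_iff]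
        rintro ⟨_, j, rfl⟩
        apply Subtype.ext
        show (g ^ k) ^ j * g ^ k = g ^ k * (g ^ k) ^ j
        rw [← zpow_add_one, ← zpow_one_add, add_comm]
      · rw [Subgroup.orderOf_mk]
        exact ((Nat.Prime.coprime_iff_not_dvd hp).2 (fun h => by
          have := Nat.le_of_dvd (orderOf_pos _) h
          omega)).symm
      · rw [pow_zero, Subgroup.index_eq_one, eq_top_iff]
        rintro ⟨_, j, rfl⟩ -
        exact ⟨j, Subtype.ext (by simp)⟩
    obtain ⟨c, hc⟩ := helem _ p hp h1 (by rw [Nat.card_zpowers]; exact hok g)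
    exact ⟨c, hc ⟨g ^ k, Subgroup.mem_zpowers _, rfl⟩⟩
  choose c hc using hex
  let hh : G → H := fun g => ⟨c g * g ^ k * (c g)⁻¹, hc g⟩
  have hhd : ∀ g d (h : d * g ^ k * d⁻¹ ∈ H), IsConj (hh g) ⟨d * g ^ k * d⁻¹, h⟩ := by
    intro g d h
    obtain ⟨y, hy, e⟩ := hfus _ (hc g) _ h (by
      rw [isConj_iff]
      exact ⟨d * (c g)⁻¹, by group⟩)
    rw [isConj_iff]
    exact ⟨⟨y, hy⟩, Subtype.ext e⟩
  have hhH : ∀ x : H, IsConj (hh x) x := by
    intro x
    have h1 : (1 : G) * (x : G) ^ k * 1⁻¹ = x := by rw [hkn x (hHn x x.2)]; group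
    have h2 := hhd x 1 (by rw [h1]; exact x.2)
    have h3 : (⟨(1 : G) * (x : G) ^ k * 1⁻¹, by rw [h1]; exact x.2⟩ : H) = x := Subtype.ext h1
    rwa [h3] at h2
  have hhconj : ∀ g y : G, IsConj (hh (y * g * y⁻¹)) (hh g) := by
    intro g y
    have h1 : (c g * y⁻¹) * (y * g * y⁻¹) ^ k * (c g * y⁻¹)⁻¹ = c g * g ^ k * (c g)⁻¹ := by
      rw [conj_pow]; group
    have h2 := hhd (y * g * y⁻¹) (c g * y⁻¹) (by rw [h1]; exact hc g)
    have h3 : (⟨(c g * y⁻¹) * (y * g * y⁻¹) ^ k * (c g * y⁻¹)⁻¹, by rw [h1]; exact hc g⟩ : H) = hh g := Subtype.ext h1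
    rwa [h3] at h2
  let hat : (H → ℂ) → G → ℂ := fun F g => F (hh g)
  have hcf : ∀ {F : H → ℂ}, IsClassFunction H F → ∀ {a b : H}, IsConj a b → F a = F b := by
    intro F hF a b hab
    obtain ⟨y, rfl⟩ := isConj_iff.1 hab
    exact (hF a y).symm
  have hhatcf : ∀ {F : H → ℂ}, IsClassFunction H F → IsClassFunction G (hat F) := by
    intro F hF g y
    exact hcf hF (hhconj g y)
  have hgen : ∀ θ : H → ℂ, IsIrrCharacter H θ → IsGeneralizedCharacter G (hat θ) := by
    intro θ hθ
    apply gen_of_elementary (hhatcf (irr_classFun hθ))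
    intro E q hq hE
    have hmulk : ∀ a b : E, (a * b) ^ k = a ^ k * b ^ k := by
      apply CfsgLib.PPChar.pow_hom hq hE
      by_cases hqm : q ∣ n
      · left
        rintro u ⟨j, hj⟩
        apply Subtype.ext
        rw [SubmonoidClass.coe_pow]
        apply hkn
        have h1 : orderOf (u : G) ∣ n * m := orderOf_dvd_of_pow_eq_one (hpow _)
        have h2 : Nat.Coprime (orderOf (u : G)) m := by
          rw [Subgroup.orderOf_coe, hj]
          exact Nat.Coprime.pow_left _ (Nat.Coprime.coprime_dvd_left hqm hHall)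
        exact h2.dvd_of_dvd_mul_right h1
      · right
        rintro u ⟨j, hj⟩
        apply Subtype.ext
        rw [SubmonoidClass.coe_pow]
        have h1 : orderOf (u : G) ∣ n * m := orderOf_dvd_of_pow_eq_one (hpow _)
        have h2 : Nat.Coprime (orderOf (u : G)) n := by
          rw [Subgroup.orderOf_coe, hj]
          exact Nat.Coprime.pow_left _ ((Nat.Prime.coprime_iff_not_dvd hq).2 hqm)
        exact orderOf_dvd_iff_pow_eq_one.1 ((h2.dvd_of_dvd_mul_left h1).trans hmk)
    let f : E →* G :=
      { toFun := fun e => (e : G) ^ k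
        map_one' := by simp
        map_mul' := fun a b => by
          have := congrArg (Subtype.val) (hmulk a b)
          simpa using this }
    have hrange : Nat.card f.range ∣ n := by
      have h1 : Nat.card f.range ∣ n * m := by
        rw [← hmn]
        exact Subgroup.card_subgroup_dvd_card f.range
      have h2 : Nat.Coprime (Nat.card f.range) m := by
        rw [Nat.coprime_iff_gcd_eq_one]
        by_contra hne
        obtain ⟨r, hr, hrd⟩ := Nat.exists_prime_and_dvd hne
        have hr1 := hrd.trans (Nat.gcd_dvd_left _ _)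
        have hr2 := hrd.trans (Nat.gcd_dvd_right _ _)
        haveI : Fact r.Prime := ⟨hr⟩
        obtain ⟨y, hy⟩ := exists_prime_orderOf_dvd_card' (G := f.range) r hr1
        obtain ⟨e, he⟩ := y.2
        have h3 : orderOf (y : G) ∣ n := by
          rw [← he]
          exact hok (e : G)
        rw [Subgroup.orderOf_coe, hy] at h3
        have h4 := Nat.dvd_gcd h3 hr2
        rw [hHall] at h4
        exact hr.one_lt.ne' (Nat.dvd_one.1 h4)
      exact h2.dvd_of_dvd_mul_right h1
    obtain ⟨d, hd⟩ := helem f.range q hq (elem_surj hq f.rangeRestrict f.rangeRestrict_surjective hE) hrange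
    let j : E →* H :=
      { toFun := fun e => ⟨d * f e * d⁻¹, hd ⟨f e, ⟨e, rfl⟩, rfl⟩⟩
        map_one' := by apply Subtype.ext; simp
        map_mul' := fun a b => by
          apply Subtype.ext
          show d * f (a * b) * d⁻¹ = (d * f a * d⁻¹) * (d * f b * d⁻¹)
          rw [map_mul]; group }
    have h5 : (fun e : E => hat θ e) = θ ∘ j := by
      ext e
      exact hcf (irr_classFun hθ) (hhd e d (hd ⟨f e, ⟨e, rfl⟩, rfl⟩))
    rw [h5]
    exact gen_of_char (isCharacter_comp (irr_isCharacter hθ) j)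
  have hgenc : ∀ θ : IrrCharacter H, ∃ z : ℤ, classInner (hat θ) (fun _ => 1) = z := fun θ =>
    gen_inner_int (hgen θ θ.2) (gen_of_irr isIrrCharacter_one)
  choose M hM using hgenc
  have hG0 : (Nat.card G : ℂ) ≠ 0 := by exact_mod_cast Nat.card_pos.ne'
  have hn0 : (n : ℂ) ≠ 0 := by rw [hn]; exact_mod_cast Nat.card_pos.ne'
  let w : H → G → ℕ := fun x g => if IsConj (hh g) x then Nat.card (Subgroup.centralizer ({hh g} : Set H)) else 0
  have hA : ∀ x : H, ∑ θ : IrrCharacter H, (M θ : ℂ) * conj ((θ : H → ℂ) x) = ((∑ g : G, w x g : ℕ) : ℂ) / (Nat.card G : ℂ) := by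
    intro x
    have h1 : ∀ θ : IrrCharacter H, (M θ : ℂ) * conj ((θ : H → ℂ) x) = (Nat.card G : ℂ)⁻¹ * ∑ g : G, (θ : H → ℂ) (hh g) * conj ((θ : H → ℂ) x) := by
      intro θ
      rw [← hM θ]
      unfold classInner
      rw [mul_assoc, Finset.sum_mul]
      congr 1
      refine Finset.sum_congr rfl fun g _ => ?_
      rw [map_one, mul_one]
    rw [Finset.sum_congr rfl fun θ _ => h1 θ, ← Finset.mul_sum, Finset.sum_comm, div_eq_mul_inv, mul_comm]
    congr 1
    push_cast
    refine Finset.sum_congr rfl fun g _ => ?_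
    rw [column_orthogonality (hh g) x]
    simp only [w]
    split_ifs <;> simp
  have hdiv : ∀ x : H, Nat.card G ∣ ∑ g : G, w x g := by
    intro x
    apply CfsgLib.CharInt2.div_isIntegral Nat.card_pos.ne'
    rw [← hA]
    refine IsIntegral.sum _ fun θ _ => ?_
    refine IsIntegral.mul (isIntegral_algebraMap (R := ℤ) (A := ℂ) (x := M θ)) ?_
    rw [← char_inv_eq_conj (irr_isCharacter θ.2)]
    exact char_isIntegral (irr_isCharacter θ.2) _
  choose a ha using hdiv
  have hapos : ∀ x : H, 1 ≤ a x := by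
    intro x
    by_contra h
    have h0 : a x = 0 := by omega
    have h1 := ha x
    rw [h0, mul_zero, Finset.sum_eq_zero_iff] at h1
    have h2 := h1 (x : G) (Finset.mem_univ _)
    simp only [w, if_pos (hhH x)] at h2
    exact Nat.card_pos.ne' h2
  have hAa : ∀ x : H, ∑ θ : IrrCharacter H, (M θ : ℂ) * conj ((θ : H → ℂ) x) = (a x : ℂ) := by
    intro x
    rw [hA, ha x]
    push_cast
    field_simp
  have hM1 : M ⟨fun _ => 1, isIrrCharacter_one⟩ = 1 := by
    have h1 := hM ⟨fun _ => 1, isIrrCharacter_one⟩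
    have h2 : classInner (fun _ : G => (1 : ℂ)) (fun _ => 1) = 1 := irr_inner_self isIrrCharacter_one
    have h3 : hat (fun _ => 1) = fun _ => (1 : ℂ) := rfl
    simp only [h3, h2] at h1
    exact_mod_cast h1.symm
  have hsum : ∑ x : H, (a x : ℂ) = n := by
    rw [Finset.sum_congr rfl fun x _ => (hAa x).symm, Finset.sum_comm]
    have h1 : ∀ θ : IrrCharacter H, ∑ x : H, (M θ : ℂ) * conj ((θ : H → ℂ) x) = if θ = ⟨fun _ => 1, isIrrCharacter_one⟩ then (n : ℂ) else 0 := by
      intro θ
      rw [← Finset.mul_sum]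
      have h2 : ∑ x : H, conj ((θ : H → ℂ) x) = n * classInner (fun _ : H => (1 : ℂ)) (θ : H → ℂ) := by
        unfold classInner
        rw [← mul_assoc, mul_inv_cancel₀ hn0, one_mul]
        simp
      rw [h2]
      split_ifs with h
      · rw [h, hM1, irr_inner_self isIrrCharacter_one]; simp
      · rw [irr_inner_ne isIrrCharacter_one θ.2 (fun h' => h (Subtype.ext h'.symm))]; simp
    rw [Finset.sum_congr rfl fun θ _ => h1 θ, Finset.sum_ite_eq']
    simp
  have ha1 : ∀ x : H, a x = 1 := by
    have h1 : ∑ x : H, a x = ∑ x : H, 1 := by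
      have h2 : ∑ x : H, a x = n := by exact_mod_cast hsum
      rw [h2, Finset.sum_const, smul_eq_mul, mul_one, Finset.card_univ, hn, Nat.card_eq_fintype_card]
    have h3 := (Finset.sum_eq_sum_iff_of_le (fun x _ => hapos x)).1 h1.symm
    intro x
    exact (h3 x (Finset.mem_univ _)).symm
  have hM0 : ∀ θ : IrrCharacter H, θ ≠ ⟨fun _ => 1, isIrrCharacter_one⟩ → M θ = 0 := by
    intro θ hθ
    have h1 : (fun _ : H => (1 : ℂ)) = ∑ ψ : IrrCharacter H, (M ψ : ℂ) • (fun x => conj ((ψ : H → ℂ) x)) := by
      ext x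
      rw [Finset.sum_apply]
      have := hAa x
      rw [ha1 x, Nat.cast_one] at this
      rw [← this]
      rfl
    have h2 : classInner (fun _ : H => (1 : ℂ)) (fun x => conj ((θ : H → ℂ) x)) = M θ := by
      rw [h1, CfsgLib.CharBasic.inner_sum_left, Finset.sum_eq_single θ]
      · rw [CfsgLib.CharBasic.inner_smul_left, irr_inner_self (isIrrCharacter_conj θ.2), mul_one]
      · intro ψ _ hne
        rw [CfsgLib.CharBasic.inner_smul_left, irr_inner_ne (isIrrCharacter_conj ψ.2) (isIrrCharacter_conj θ.2), mul_zero]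
        intro h
        apply hne
        apply Subtype.ext
        ext x
        have := congrFun h x
        exact star_injective this
      · intro h; exact absurd (Finset.mem_univ _) h
    have h3 : classInner (fun _ : H => (1 : ℂ)) (fun x => conj ((θ : H → ℂ) x)) = 0 := by
      apply irr_inner_ne isIrrCharacter_one (isIrrCharacter_conj θ.2)
      intro h
      apply hθ
      apply Subtype.ext
      ext x
      have := congrFun h x
      have h4 := congrArg (fun z => conj z) this
      simp only [map_one, Complex.conj_conj] at h4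
      exact h4.symm
    rw [h3] at h2
    exact_mod_cast h2.symm
  have hint : ∀ F : H → ℂ, IsClassFunction H F → classInner (hat F) (fun _ => 1) = classInner F (fun _ => 1) := by
    intro F hF
    have h1 : hat F = ∑ θ : IrrCharacter H, classInner F θ • hat (θ : H → ℂ) := by
      ext g
      show F (hh g) = _
      rw [classFun_expand_apply hF (hh g), Finset.sum_apply]
      rfl
    rw [h1, CfsgLib.CharBasic.inner_sum_left, Finset.sum_eq_single (⟨fun _ => 1, isIrrCharacter_one⟩ : IrrCharacter H)]
    · rw [CfsgLib.CharBasic.inner_smul_left, hM, hM1]; simp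
    · intro θ _ hne
      rw [CfsgLib.CharBasic.inner_smul_left, hM, hM0 θ hne]; simp
    · intro h; exact absurd (Finset.mem_univ _) h
  have hhh1 : hh 1 = 1 := by
    apply Subtype.ext
    show c 1 * 1 ^ k * (c 1)⁻¹ = 1
    rw [one_pow, mul_one, mul_inv_cancel]
  have hirr : ∀ θ : IrrCharacter H, IsIrrCharacter G (hat (θ : H → ℂ)) := by
    intro θ
    have h1 : classInner (hat (θ : H → ℂ)) (hat (θ : H → ℂ)) = 1 := by
      have h2 := hint (fun x => (θ : H → ℂ) x * conj ((θ : H → ℂ) x)) (classFun_mul (irr_classFun θ.2) (irr_classFun (isIrrCharacter_conj θ.2)))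
      have h3 : ∀ {X : Type u} [Group X] [Fintype X] (F : X → ℂ), classInner (fun x => F x * conj (F x)) (fun _ => 1) = classInner F F := by
        intro X _ _ F
        unfold classInner
        congr 1
        refine Finset.sum_congr rfl fun g _ => ?_
        rw [map_one, mul_one]
      rw [h3 (θ : H → ℂ), irr_inner_self θ.2] at h2
      rw [← h3 (hat (θ : H → ℂ))]
      exact h2
    obtain ⟨d, hd0, hd⟩ := irr_one_nat θ.2
    apply irr_of_gen_norm_one_pos (hgen θ θ.2) h1
    show 0 < ((θ : H → ℂ) (hh 1)).re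
    rw [hhh1, hd, Complex.natCast_re]
    exact_mod_cast hd0
  choose Kθ hKn hKm using fun θ : IrrCharacter H => exists_kernel (irr_isCharacter (hirr θ))
  have hKmem : ∀ g : G, g ∈ (⨅ θ, Kθ θ) ↔ g ^ k = 1 := by
    intro g
    rw [Subgroup.mem_iInf]
    constructor
    · intro h
      have h1 : IsConj (hh g) 1 := by
        rw [isConj_iff_irr]
        intro θ
        have h2 := (hKm θ g).1 (h θ)
        have h3 : (θ : H → ℂ) (hh g) = (θ : H → ℂ) (hh 1) := h2
        rwa [hhh1] at h3
      have h2 : hh g = 1 := by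
        rw [isConj_comm] at h1
        exact isConj_one_right.1 h1
      have h3 : c g * g ^ k * (c g)⁻¹ = 1 := congrArg Subtype.val h2
      have h4 : g ^ k = (c g)⁻¹ * (c g * g ^ k * (c g)⁻¹) * c g := by group
      rw [h4, h3]; group
    · intro h θ
      rw [hKm]
      show (θ : H → ℂ) (hh g) = (θ : H → ℂ) (hh 1)
      have h2 : hh g = 1 := by
        apply Subtype.ext
        show c g * g ^ k * (c g)⁻¹ = 1
        rw [h, mul_one, mul_inv_cancel]
      rw [h2, hhh1]
  have hKH : (⨅ θ, Kθ θ) ⊓ H = ⊥ := by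
    rw [eq_bot_iff]
    rintro x ⟨hx1, hx2⟩
    have h1 := (hKmem x).1 hx1
    rw [hkn x (hHn x hx2)] at h1
    exact h1
  have hKcard : Nat.card ↥(⨅ θ, Kθ θ) = m := by
    have h1 := ha 1
    rw [ha1, mul_one] at h1
    have h2 : ∀ g : G, w 1 g = if g ^ k = 1 then n else 0 := by
      intro g
      have h3 : IsConj (hh g) 1 ↔ g ^ k = 1 := by
        constructor
        · intro h
          have h2 : hh g = 1 := by
            rw [isConj_comm] at h
            exact isConj_one_right.1 h
          have h3 : c g * g ^ k * (c g)⁻¹ = 1 := congrArg Subtype.val h2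
          have h4 : g ^ k = (c g)⁻¹ * (c g * g ^ k * (c g)⁻¹) * c g := by group
          rw [h4, h3]; group
        · intro h
          have h2 : hh g = 1 := by
            apply Subtype.ext
            show c g * g ^ k * (c g)⁻¹ = 1
            rw [h, mul_one, mul_inv_cancel]
          rw [h2]
      simp only [w]
      by_cases h4 : g ^ k = 1
      · rw [if_pos h4, if_pos (h3.2 h4)]
        have h5 : hh g = 1 := by
          have := h3.2 h4
          rw [isConj_comm] at this
          exact isConj_one_right.1 this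
        rw [h5]
        have h6 : Subgroup.centralizer ({1} : Set H) = ⊤ := by
          rw [eq_top_iff]
          intro x _
          rw [Subgroup.mem_centralizer_singleton_iff]
          simp
        rw [h6, Subgroup.card_top]
      · rw [if_neg h4, if_neg (fun h => h4 (h3.1 h))]
    rw [Finset.sum_congr rfl fun g _ => h2 g, ← Finset.sum_filter, Finset.sum_const, smul_eq_mul, hmn] at h1
    have h3 : (Finset.univ.filter fun g : G => g ^ k = 1).card = m := by
      have hnpos : 0 < n := by rw [hn]; exact Nat.card_pos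
      apply Nat.eq_of_mul_eq_mul_right hnpos
      rw [h1]; ring
    rw [← h3, Nat.card_eq_fintype_card, Fintype.card_subtype]
    congr 1
    ext g
    simp only [Finset.mem_filter, Finset.mem_univ, true_and]
    exact hKmem g
  haveI : (⨅ θ, Kθ θ).Normal := Subgroup.normal_iInf_normal hKn
  refine ⟨⨅ θ, Kθ θ, inferInstance, ?_, hKH⟩
  have hcomp : Subgroup.IsComplement' (⨅ θ, Kθ θ) H := by
    apply Subgroup.isComplement'_of_coprime
    · rw [hKcard, hmn]; ring
    · rw [hKcard]; exact hHall.symm
  exact hcomp.sup_eq_top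

/-- Let H be a subgroup of the finite group G whose order is coprime to its index. Suppose that elements of H conjugate in G are conjugate in H, and that every subgroup E of G that is elementary for some prime (in the sense used for Brauer's characterisation of characters) and whose order divides the order of H is conjugate to a subgroup of H. Then there is a normal subgroup K with K ⊔ H = ⊤ and K ⊓ H trivial. -/
theorem result {G : Type*} [Group G] [Finite G] (H : Subgroup G) (hHall : Nat.Coprime (Nat.card H) H.index) (hfus : ∀ x ∈ H, ∀ y ∈ H, IsConj x y → ∃ h ∈ H, h * x * h⁻¹ = y) (helem : ∀ (E : Subgroup G) (p : ℕ), p.Prime → Cfsg.IsElementary p E → Nat.card E ∣ Nat.card H → ∃ g : G, E.map (MulAut.conj g).toMonoidHom ≤ H) : ∃ K : Subgroup G, K.Normal ∧ K ⊔ H = ⊤ ∧ K ⊓ H = ⊥ := by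
    classical
    haveI : Fintype G := Fintype.ofFinite G
    haveI : Fintype H := Fintype.ofFinite H
    exact main H hHall hfus helem

end Cfsg.Agent.S0877
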