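import Cfsg.Statements.S0890
import Cfsg.Agent.LibHSP2
-- import your own Cfsg.Agent.* helpers here

set_option autoImplicit false
open Cfsg

namespace Cfsg.Agent.S0890

open CfsgLib CfsgLib.CharBasic CfsgLib.CharIndA CfsgLib.Clifford CfsgLib.Extend Cfsg.Agent.LibHSP1 Cfsg.Agent.LibHSP2
open scoped ComplexConjugate

/-- Let L ≤ H < G with L normal in G, H a maximal subgroup and G / L solvable. Let ϑ be an irreducible character of H whose restriction to L is irreducible and whose induction χ to G is irreducible. Then there is a normal subgroup M of G containing L such that the restriction of χ to M is not a natural-number multiple of a single irreducible character of M. -/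
theorem result {G : Type*} [Group G] [Fintype G] (L H : Subgroup G) [L.Normal] (hLH : L ≤ H) (hmax : IsCoatom H) (hsolv : Group.IsSolvable (G ⧸ L)) (ϑ : H → ℂ) (hϑ : Cfsg.IsIrrCharacter H ϑ) (hϑL : Cfsg.IsIrrCharacter L (fun x : L => ϑ ⟨(x : G), hLH x.2⟩)) (hind : Cfsg.IsIrrCharacter G (Cfsg.indFun H ϑ)) : ∃ M : Subgroup G, M.Normal ∧ L ≤ M ∧ ¬ ∃ (φ : M → ℂ) (e : ℕ), Cfsg.IsIrrCharacter M φ ∧ (fun m : M => Cfsg.indFun H ϑ m) = (e : ℂ) • φ := by
  classical
  by_contra hcon
  push Not at hcon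
  have hLn : L.Normal := inferInstance
  set K := H.normalCore with hKdef
  have hKH : K ≤ H := H.normalCore_le
  have hLK : L ≤ K := Subgroup.normal_le_normalCore.mpr hLH
  have hfin : ∀ Y : Subgroup G, Fintype Y := fun Y => Fintype.ofFinite Y
  letI := hfin
  have hL' : Cfsg.IsIrrCharacter L (fun x : L => Cfsg.extendByZero H ϑ (x : G)) := by
    convert hϑL using 1
    funext x
    rw [ext_mem H ϑ (hLH x.2)]
  have hcl : Cfsg.IsClassFunction G (Cfsg.indFun H ϑ) := ind_classFun H ϑ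
  have hirr : ∀ Y : Subgroup G, L ≤ Y → Y ≤ H → Cfsg.IsIrrCharacter Y (fun y : Y => Cfsg.extendByZero H ϑ (y : G)) :=
    fun Y h1 h2 => res_irr H ϑ hϑ L Y h1 h2 hL'
  have hhom : ∀ X : Subgroup G, X.Normal → L ≤ X → ∃ (φ : X → ℂ) (e : ℕ), Cfsg.IsIrrCharacter X φ ∧
      (fun m : X => Cfsg.indFun H ϑ m) = (e : ℂ) • φ := hcon
  -- the core
  obtain ⟨φK, eK, hφK, hχK⟩ := hhom K inferInstance hLK
  have hcore : ∀ x ∈ K, Cfsg.indFun H ϑ x = (H.index : ℂ) * Cfsg.extendByZero H ϑ x :=
    fun x hx => core_inv H ϑ hϑ hind K hKH (hirr K hLK hKH) hφK eK hχK x hx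
  have hKt : K ≠ ⊤ := fun h => hmax.1 (top_le_iff.mp (h ▸ hKH))
  obtain ⟨M, p, a, hMn, hKM, hp, hcM, ha, hcommM⟩ := chief K hKt (solv_quot L K hLK hsolv)
  have hK0 : 0 < Nat.card K := Nat.card_pos
  have hMK : M ≠ K := by
    intro h
    rw [h] at hcM
    have h1 : p ^ a = 1 := by
      have : Nat.card K * p ^ a = Nat.card K * 1 := by rw [← hcM, mul_one]
      exact Nat.eq_of_mul_eq_mul_left hK0 this
    exact absurd h1 (Nat.one_lt_pow ha hp.one_lt).ne'
  obtain ⟨hHM, hMH⟩ := inf_eq H hmax M hKM hMK hcommM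
  have hcGM := card_eq H M hHM
  rw [hMH, hcM] at hcGM
  have hidx : H.index = p ^ a := by
    have h1 := Subgroup.card_mul_index H
    have h2 : 0 < Nat.card H := Nat.card_pos
    have h3 : (Nat.card H * Nat.card K) * H.index = (Nat.card H * Nat.card K) * p ^ a := by
      calc (Nat.card H * Nat.card K) * H.index = (Nat.card H * H.index) * Nat.card K := by ring
        _ = Nat.card G * Nat.card K := by rw [h1]
        _ = (Nat.card H * Nat.card K) * p ^ a := by rw [hcGM]; ring
    exact Nat.eq_of_mul_eq_mul_left (Nat.mul_pos h2 hK0) h3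
  -- `e ^ 2 = n` for any normal supplement
  obtain ⟨φ, e, hφ, hχM⟩ := hhom M hMn (hLK.trans hKM)
  have heM := lemB H ϑ hϑ M hHM hφ e hχM
  have he2 : (e : ℂ) ^ 2 = (H.index : ℂ) := by
    rw [heM]
    have h1 : (fun y : (M ⊓ H : Subgroup G) => Cfsg.indFun H ϑ (y : G)) =
        (H.index : ℂ) • fun y : (M ⊓ H : Subgroup G) => Cfsg.extendByZero H ϑ (y : G) := by
      funext y
      exact hcore y (hMH.le y.2)
    rw [h1, CharBasic.inner_smul_right, irr_inner_self (hirr (M ⊓ H) (le_inf (hLK.trans hKM) hLH) inf_le_right)]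
    simp
  have he2' : e ^ 2 = p ^ a := by
    rw [← hidx]; exact_mod_cast he2
  have hMt : M ≠ ⊤ := by
    rintro rfl
    have h1 : (e : ℂ) ^ 2 = 1 := by
      have h2 := irr_inner_self hφ
      have h3 : Cfsg.classInner (fun m : (⊤ : Subgroup G) => Cfsg.indFun H ϑ m) (fun m : (⊤ : Subgroup G) => Cfsg.indFun H ϑ m) = 1 := by
        have h4 := (isIrr_comp_equiv (Subgroup.topEquiv (G := G))).mpr hind
        exact irr_inner_self h4
      rw [hχM, CharBasic.inner_smul_left, CharBasic.inner_smul_right, h2] at h3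
      simpa [sq] using h3
    have h5 : e ^ 2 = 1 := by exact_mod_cast h1
    rw [h5] at he2'
    exact absurd he2'.symm (Nat.one_lt_pow ha hp.one_lt).ne'
  obtain ⟨X, q, b, hXn, hMX, hq, hcX, hb, hcommX⟩ := chief M hMt (solv_quot L M (hLK.trans hKM) hsolv)
  have hHX : H ⊔ X = ⊤ := by
    rw [eq_top_iff, ← hHM]
    exact sup_le_sup_left hMX H
  have hXH : ¬ X ≤ H := by
    intro h
    have h1 : M ≤ H := hMX.trans h
    exact hMK (le_antisymm (Subgroup.normal_le_normalCore.mpr h1) hKM)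
  have hXK : X ⊓ H ≠ K := by
    intro h
    have h1 := card_eq H X hHX
    rw [h, hcX, hcM] at h1
    have h2 : (Nat.card G * Nat.card K) * 1 = (Nat.card G * Nat.card K) * q ^ b := by
      rw [mul_one]
      nth_rewrite 2 [hcGM]
      rw [h1]; ring
    have h3 := Nat.eq_of_mul_eq_mul_left (Nat.mul_pos Nat.card_pos hK0) h2
    exact absurd h3.symm (Nat.one_lt_pow hb hq.one_lt).ne'
  have hpq : p ≠ q := by
    rintro rfl
    apply hXK
    refine prime_ne H hmax X (hKM.trans hMX) hp (c := a + b) ?_ hXH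
    rw [hcX, hcM, pow_add]; ring
  obtain ⟨φ', e', hφ', hχX⟩ := hhom X hXn ((hLK.trans hKM).trans hMX)
  have heX := lemB H ϑ hϑ X hHX hφ' e' hχX
  have he0 : (e : ℂ) ≠ 0 := by
    intro h0
    have : e = 0 := by exact_mod_cast h0
    rw [this] at he2'
    have h1 : 0 < p ^ a := Nat.pow_pos hp.pos
    simp at he2'
    omega
  -- comparison of multiplicities
  have hval : ∀ m : M, (e' : ℂ) * φ' ⟨m, hMX m.2⟩ = e * φ m := by
    intro m
    have h1 := congrFun hχM m
    have h2 := congrFun hχX ⟨m, hMX m.2⟩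
    simp only [Pi.smul_apply, smul_eq_mul] at h1 h2
    rw [← h1, ← h2]
  have hφ0 : φ 1 ≠ 0 := irr_one_ne_zero hφ
  have he'0 : (e' : ℂ) ≠ 0 := by
    intro h0
    have h1 := hval 1
    rw [h0, zero_mul] at h1
    exact (mul_ne_zero he0 hφ0) h1.symm
  have hMXn : (M.subgroupOf X).Normal := subgroupOf_normal hMn X
  have hθ1 : Cfsg.IsIrrCharacter (M.subgroupOf X) (toSub X φ) := (toSub_irr hMX).mpr hφ
  have hfunc : (fun n : M.subgroupOf X => φ' n) = ((e : ℂ) / e') • toSub X φ := by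
    funext n
    have h1 := hval ⟨((n : X) : G), Subgroup.mem_subgroupOf.mp n.2⟩
    show φ' n = ((e : ℂ) / e') * φ ⟨((n : X) : G), Subgroup.mem_subgroupOf.mp n.2⟩
    have h2 : φ' (⟨((n : X) : G), hMX (Subgroup.mem_subgroupOf.mp n.2)⟩ : X) = φ' n := rfl
    rw [h2] at h1
    field_simp
    linear_combination h1
  haveI : Fintype (M.subgroupOf X) := Fintype.ofFinite _
  obtain ⟨f, hf, hfd⟩ := ratio_dvd_index hθ1 hφ' (by
    rw [hfunc, CharBasic.inner_smul_left, irr_inner_self hθ1, mul_one]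
    exact div_ne_zero he0 he'0)
  have hef : e = e' * f := by
    have h1 := hval 1
    have h2 : φ' (⟨((1 : M) : G), hMX (1 : M).2⟩ : X) = φ' 1 := rfl
    have h3 : toSub X φ 1 = φ 1 := rfl
    rw [h2, hf, h3] at h1
    have h4 : ((e' * f : ℕ) : ℂ) * φ 1 = (e : ℂ) * φ 1 := by push_cast; linear_combination h1
    exact_mod_cast (mul_right_cancel₀ hφ0 h4).symm
  have hidxM : (M.subgroupOf X).index = q ^ b := by
    have h1 := Subgroup.card_mul_index (M.subgroupOf X)
    rw [Nat.card_congr (Subgroup.subgroupOfEquivOfLe hMX).toEquiv, hcX] at h1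
    exact Nat.eq_of_mul_eq_mul_left Nat.card_pos h1
  have hf1 : f = 1 := by
    rw [hidxM] at hfd
    have h1 : f ∣ p ^ a := by
      rw [← he2', hef]
      exact Dvd.intro_left (e' ^ 2 * f) (by ring)
    have h2 : Nat.Coprime (p ^ a) (q ^ b) := Nat.Coprime.pow _ _ ((Nat.coprime_primes hp hq).mpr hpq)
    exact Nat.eq_one_of_dvd_coprimes h2 h1 hfd
  have hee : e' = e := by rw [hef, hf1, mul_one]
  rw [hee, he2] at heX
  -- so `χ` is a multiple of `ϑ` on `Q = X ⊓ H`
  set Q := X ⊓ H with hQ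
  have hKQ : K ≤ Q := le_inf (hKM.trans hMX) hKH
  have hQirr := hirr Q (hLK.trans hKQ) inf_le_right
  have hQval : (fun y : Q => Cfsg.indFun H ϑ (y : G)) = (H.index : ℂ) • fun y : Q => Cfsg.extendByZero H ϑ (y : G) := by
    apply eq_of_degree hQirr (isCharacter_restrict (irr_isCharacter hind) Q) H.index
    · rw [← CharBasic.inner_conj_symm, ← heX]
      simp
    · show Cfsg.indFun H ϑ ((1 : Q) : G) = _
      rw [Subgroup.coe_one]
      exact hcore 1 K.one_mem
  have hn0 : (H.index : ℂ) ≠ 0 := by exact_mod_cast Subgroup.index_ne_zero_of_finite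
  have hvan : ∀ y ∈ Q, Cfsg.extendByZero H ϑ y ≠ 0 → y ∈ K := by
    intro y hy hy0
    by_contra hyK
    have h1 : ∃ g : G, g⁻¹ * y * g ∉ H := by
      by_contra h
      push Not at h
      apply hyK
      show ∀ b : G, b * y * b⁻¹ ∈ H
      intro b
      have := h b⁻¹
      rwa [inv_inv] at this
    obtain ⟨g0, hg0⟩ := h1
    have h2 : ∀ g : G, Cfsg.extendByZero H ϑ (g⁻¹ * y * g) = if g⁻¹ * y * g ∈ H then Cfsg.extendByZero H ϑ y else 0 := by
      intro g
      by_cases hg : g⁻¹ * y * g ∈ H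
      · rw [if_pos hg]
        have h3 : g⁻¹ * y * g ∈ X := by
          have := hXn.conj_mem y hy.1 g⁻¹
          rwa [inv_inv] at this
        have h4 := congrFun hQval ⟨g⁻¹ * y * g, h3, hg⟩
        have h5 := congrFun hQval ⟨y, hy⟩
        simp only [Pi.smul_apply, smul_eq_mul] at h4 h5
        have h6 := hcl y g⁻¹
        rw [inv_inv] at h6
        rw [h6, h5] at h4
        exact (mul_left_cancel₀ hn0 h4).symm
      · rw [if_neg hg, ext_not_mem H ϑ hg]
    have h5 : Cfsg.indFun H ϑ y = (H.index : ℂ) * Cfsg.extendByZero H ϑ y := congrFun hQval ⟨y, hy⟩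
    rw [ind_apply, Finset.sum_congr rfl fun g _ => h2 g, ← Finset.sum_filter, Finset.sum_const, nsmul_eq_mul] at h5
    have hH0 : (Nat.card H : ℂ) ≠ 0 := by exact_mod_cast Nat.card_pos.ne'
    have hidx2 : (Nat.card H : ℂ) * (H.index : ℂ) = Nat.card G := by exact_mod_cast Subgroup.card_mul_index H
    have h6 : ((Finset.univ.filter fun g : G => g⁻¹ * y * g ∈ H).card : ℂ) = Nat.card G := by
      rw [← hidx2]
      have h7 : (Nat.card H : ℂ) * ((Nat.card H : ℂ)⁻¹ * (((Finset.univ.filter fun g : G => g⁻¹ * y * g ∈ H).card : ℂ) *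
          Cfsg.extendByZero H ϑ y)) = (Nat.card H : ℂ) * ((H.index : ℂ) * Cfsg.extendByZero H ϑ y) := by rw [h5]
      rw [← mul_assoc, mul_inv_cancel₀ hH0, one_mul, ← mul_assoc] at h7
      exact mul_right_cancel₀ hy0 h7
    have h8 : (Finset.univ.filter fun g : G => g⁻¹ * y * g ∈ H).card = Nat.card G := by exact_mod_cast h6
    have h9 : (Finset.univ.filter fun g : G => g⁻¹ * y * g ∈ H) = Finset.univ := by
      apply Finset.eq_univ_of_card
      rw [h8, Nat.card_eq_fintype_card]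
    have h10 : g0 ∈ (Finset.univ.filter fun g : G => g⁻¹ * y * g ∈ H) := by rw [h9]; exact Finset.mem_univ _
    exact hg0 (Finset.mem_filter.mp h10).2
  -- norms
  have hnQ : ∑ g : G, (if g ∈ Q then Cfsg.extendByZero H ϑ g * conj (Cfsg.extendByZero H ϑ g) else 0) = Nat.card Q := by
    have h1 := irr_inner_self hQirr
    rw [Cfsg.classInner, sum_sub Q (fun g => Cfsg.extendByZero H ϑ g * conj (Cfsg.extendByZero H ϑ g))] at h1
    have h2 : (Nat.card Q : ℂ) ≠ 0 := by exact_mod_cast Nat.card_pos.ne'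
    field_simp at h1
    exact h1
  have hnK : ∑ g : G, (if g ∈ K then Cfsg.extendByZero H ϑ g * conj (Cfsg.extendByZero H ϑ g) else 0) = Nat.card K := by
    have h1 := irr_inner_self (hirr K hLK hKH)
    rw [Cfsg.classInner, sum_sub K (fun g => Cfsg.extendByZero H ϑ g * conj (Cfsg.extendByZero H ϑ g))] at h1
    have h2 : (Nat.card K : ℂ) ≠ 0 := by exact_mod_cast Nat.card_pos.ne'
    field_simp at h1
    exact h1
  have hsum : ∑ g : G, (if g ∈ Q then Cfsg.extendByZero H ϑ g * conj (Cfsg.extendByZero H ϑ g) else 0) =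
      ∑ g : G, (if g ∈ K then Cfsg.extendByZero H ϑ g * conj (Cfsg.extendByZero H ϑ g) else 0) := by
    refine Finset.sum_congr rfl fun g _ => ?_
    by_cases hgK : g ∈ K
    · rw [if_pos hgK, if_pos (hKQ hgK)]
    · rw [if_neg hgK]
      by_cases hgQ : g ∈ Q
      · rw [if_pos hgQ]
        by_cases h0 : Cfsg.extendByZero H ϑ g = 0
        · rw [h0, zero_mul]
        · exact absurd (hvan g hgQ h0) hgK
      · rw [if_neg hgQ]
  rw [hnQ, hnK] at hsum
  have hcard : Nat.card Q = Nat.card K := by exact_mod_cast hsum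
  exact hXK (Subgroup.eq_of_le_of_card_ge hKQ hcard.le).symm

end Cfsg.Agent.S0890
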