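import Cfsg.Statements.S0893
import Mathlib
import Cfsg.Agent.LibExChar15
-- import your own Cfsg.Agent.* helpers here

set_option autoImplicit false
open Cfsg

namespace Cfsg.Agent.S0893

open CfsgLib.CharBasic CfsgLib.CharIndA CfsgLib.ExtraH28 CfsgLib.ExChar15

/-- Let P be an extraspecial p-group of order p ^ (2 * n + 1), A an abelian subgroup of order p ^ (n + 1), and λ a character of A of degree 1 that is not identically 1 on the elements of A lying in the centre of P. Then the function induced from λ to P is an irreducible character of P and vanishes at every element outside the centre. -/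
theorem result {P : Type*} [Group P] [Fintype P] (p n : ℕ) [Fact p.Prime] (hP : Cfsg.IsExtraspecial p P) (hcard : Nat.card P = p ^ (2 * n + 1)) (A : Subgroup P) (hab : ∀ a ∈ A, ∀ b ∈ A, a * b = b * a) (hA : Nat.card A = p ^ (n + 1)) (lam : A → ℂ) (hlam : Cfsg.IsCharacter A lam ∧ lam 1 = 1) (hZ : ∃ a : A, (a : P) ∈ Subgroup.center P ∧ lam a ≠ 1) : Cfsg.IsIrrCharacter P (Cfsg.indFun A lam) ∧ ∀ x : P, x ∉ Subgroup.center P → Cfsg.indFun A lam x = 0 := by
    classical
    haveI : Fintype A := Fintype.ofFinite A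
    obtain ⟨a, ha, hne⟩ := hZ
    have hp : p.Prime := Fact.out
    have ha1 : (a : P) ≠ 1 := by
      intro h
      apply hne
      have : a = 1 := Subtype.ext h
      rw [this]; exact hlam.2
    have hza : Subgroup.zpowers (a : P) = Subgroup.center P := by
      have h1 : Subgroup.zpowers (a : P) ≤ Subgroup.center P := by
        rw [Subgroup.zpowers_le]; exact ha
      apply Subgroup.eq_of_le_of_card_ge h1
      rw [hP.2]
      have h2 : Nat.card (Subgroup.zpowers (a : P)) ∣ p := by
        rw [← hP.2]; exact Subgroup.card_dvd_of_le h1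
      rcases (Nat.dvd_prime hp).1 h2 with h3 | h3
      · exfalso
        rw [Nat.card_zpowers, orderOf_eq_one_iff] at h3
        exact ha1 h3
      · rw [h3]
    have hcA : Subgroup.center P ≤ A := by
      rw [← hza, Subgroup.zpowers_le]; exact a.2
    have hmul : ∀ z (hz : z ∈ Subgroup.center P) g, Cfsg.indFun A lam (z * g) = lam ⟨z, hcA hz⟩ * Cfsg.indFun A lam g := by
      intro z hz g
      rw [ind_apply A lam, ind_apply A lam]
      rw [show lam ⟨z, hcA hz⟩ * ((Nat.card A : ℂ)⁻¹ * ∑ x : P, extendByZero A lam (x⁻¹ * g * x)) =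
        (Nat.card A : ℂ)⁻¹ * ∑ x : P, lam ⟨z, hcA hz⟩ * extendByZero A lam (x⁻¹ * g * x) by rw [← Finset.mul_sum]; ring]
      refine congrArg _ ?_
      refine Finset.sum_congr rfl fun x _ => ?_
      have h1 : x⁻¹ * (z * g) * x = z * (x⁻¹ * g * x) := by
        have h2 := Subgroup.mem_center_iff.1 hz x⁻¹
        calc x⁻¹ * (z * g) * x = (x⁻¹ * z) * g * x := by group
          _ = (z * x⁻¹) * g * x := by rw [h2]
          _ = z * (x⁻¹ * g * x) := by group
      rw [h1]
      by_cases hm : x⁻¹ * g * x ∈ A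
      · rw [ext_mem A lam hm, ext_mem A lam (mul_mem (hcA hz) hm), ← linear_mul hlam.1 hlam.2]
        rfl
      · rw [ext_not_mem A lam hm, ext_not_mem A lam (fun h => hm ((Subgroup.mul_mem_cancel_left A (hcA hz)).1 h)), mul_zero]
    have hoff : ∀ x : P, x ∉ Subgroup.center P → Cfsg.indFun A lam x = 0 := fun x hx =>
      vanish hP (ind_classFun A lam) ha hne (fun g => hmul a ha g) hx
    refine ⟨?_, hoff⟩
    have hidx : A.index = p ^ n := by
      have h1 := A.card_mul_index
      rw [hA, hcard] at h1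
      apply Nat.eq_of_mul_eq_mul_left (pow_pos hp.pos (n + 1))
      rw [h1]; ring
    have hone : Cfsg.indFun A lam 1 = (p : ℂ) ^ n := by
      rw [ind_one A lam, hidx, hlam.2]; push_cast; ring
    have hnorm : ∀ z ∈ Subgroup.center P, ‖Cfsg.indFun A lam z‖ = (p : ℝ) ^ n := by
      intro z hz
      have h1 := hmul z hz 1
      rw [mul_one] at h1
      rw [h1, norm_mul, hone, norm_pow, Complex.norm_natCast]
      have h2 : ‖lam ⟨z, hcA hz⟩‖ = 1 := by
        have h3 : lam ⟨z, hcA hz⟩ ^ (Nat.card A) = 1 := by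
          have h4 : ∀ k : ℕ, lam ((⟨z, hcA hz⟩ : A) ^ k) = lam ⟨z, hcA hz⟩ ^ k := by
            intro k
            induction k with
            | zero => rw [pow_zero, pow_zero, hlam.2]
            | succ k ih => rw [pow_succ, linear_mul hlam.1 hlam.2, ih, pow_succ]
          rw [← h4, pow_card_eq_one', hlam.2]
        exact norm_one_of_pow Nat.card_pos.ne' h3
      rw [h2, one_mul]
    rw [irr_iff_norm_one]
    refine ⟨isCharacter_ind A hlam.1, ?_⟩
    rw [norm_eq hP hoff hnorm, hcard]
    have hp0 : (p : ℝ) ≠ 0 := by exact_mod_cast hp.ne_zero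
    have : ((p ^ (2 * n + 1) : ℕ) : ℝ)⁻¹ * (p * ((p : ℝ) ^ n) ^ 2) = 1 := by
      push_cast
      rw [inv_mul_eq_one₀ (pow_ne_zero _ hp0)]
      ring
    rw [this]; simp

end Cfsg.Agent.S0893
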