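import Cfsg.Statements.S0894
import Mathlib
import Cfsg.Agent.LibExChar15
-- import your own Cfsg.Agent.* helpers here

set_option autoImplicit false
open Cfsg

namespace Cfsg.Agent.S0894

open CfsgLib.CharBasic CfsgLib.CharIndA CfsgLib.ExtraH28 CfsgLib.ExChar15

/-- Let P be an extraspecial p-group of order p ^ (2 * n + 1). Then every irreducible character of P has degree 1 or p ^ n, and exactly p - 1 of them have degree p ^ n. -/
theorem result {P : Type*} [Group P] [Finite P] (p n : ℕ) [Fact p.Prime] (hP : Cfsg.IsExtraspecial p P) (hcard : Nat.card P = p ^ (2 * n + 1)) : (∀ χ : Cfsg.IrrCharacter P, (χ : P → ℂ) 1 = 1 ∨ (χ : P → ℂ) 1 = (p : ℂ) ^ n) ∧ Nat.card {χ : Cfsg.IrrCharacter P // (χ : P → ℂ) 1 = (p : ℂ) ^ n} = p - 1 := by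
    classical
    haveI : Fintype P := Fintype.ofFinite P
    have hp : p.Prime := Fact.out
    have hn := n_pos hP hcard
    have hp0 : (p : ℂ) ≠ 0 := by exact_mod_cast hp.ne_zero
    have hdeg : ∀ χ : Cfsg.IrrCharacter P, (χ : P → ℂ) 1 = 1 ∨ (χ : P → ℂ) 1 = (p : ℂ) ^ n := by
      intro χ
      by_cases h : ∀ z ∈ Subgroup.center P, (χ : P → ℂ) z = (χ : P → ℂ) 1
      · exact Or.inl (linear_of_trivial hP χ.2 h)
      · push Not at h
        exact Or.inr (degree hP hcard χ.2 h).1
    refine ⟨hdeg, ?_⟩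
    have h1p : (1 : ℂ) ≠ (p : ℂ) ^ n := by
      intro h
      have : p ^ n = 1 := by exact_mod_cast h.symm
      have h2 : 1 < p ^ n := Nat.one_lt_pow (by omega) hp.one_lt
      omega
    have hs := sum_sq_degree (G := P)
    have hlin := card_linear (G := P)
    have hidx : (commutator P).index = p ^ (2 * n) := by
      have h1 := (commutator P).card_mul_index
      rw [hP.1.2.2, hP.2, hcard] at h1
      rw [hP.1.2.2]
      apply Nat.eq_of_mul_eq_mul_left hp.pos
      rw [h1]; ring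
    rw [hidx] at hlin
    rw [← Finset.sum_filter_add_sum_filter_not Finset.univ (fun χ : Cfsg.IrrCharacter P => (χ : P → ℂ) 1 = 1)] at hs
    rw [Finset.sum_congr rfl (g := fun _ => (1 : ℂ)) (fun χ hχ => by rw [(Finset.mem_filter.1 hχ).2, one_pow])] at hs
    rw [Finset.sum_congr (s₁ := Finset.univ.filter (fun χ : Cfsg.IrrCharacter P => ¬ (χ : P → ℂ) 1 = 1)) rfl (g := fun _ => ((p : ℂ) ^ n) ^ 2)
      (fun χ hχ => by rw [(hdeg χ).resolve_left (Finset.mem_filter.1 hχ).2])] at hs
    rw [Finset.sum_const, Finset.sum_const, nsmul_eq_mul, nsmul_eq_mul, mul_one] at hs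
    rw [Nat.card_eq_fintype_card, Fintype.card_subtype] at hlin
    rw [hlin] at hs
    have hset : (Finset.univ.filter (fun χ : Cfsg.IrrCharacter P => ¬ (χ : P → ℂ) 1 = 1)) =
        Finset.univ.filter (fun χ : Cfsg.IrrCharacter P => (χ : P → ℂ) 1 = (p : ℂ) ^ n) := by
      ext χ
      simp only [Finset.mem_filter, Finset.mem_univ, true_and]
      exact ⟨fun h => (hdeg χ).resolve_left h, fun h h' => h1p (h'.symm.trans h)⟩
    rw [hset, hcard] at hs
    rw [Nat.card_eq_fintype_card, Fintype.card_subtype]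
    set N := (Finset.univ.filter (fun χ : Cfsg.IrrCharacter P => (χ : P → ℂ) 1 = (p : ℂ) ^ n)).card with hN
    have h5 : p ^ (2 * n) + N * (p ^ n) ^ 2 = p ^ (2 * n + 1) := by exact_mod_cast hs
    have h6 : p ^ (2 * n) * (1 + N) = p ^ (2 * n) * p := by
      calc p ^ (2 * n) * (1 + N) = p ^ (2 * n) + N * (p ^ n) ^ 2 := by ring
        _ = _ := by rw [h5]; ring
    have h7 := Nat.eq_of_mul_eq_mul_left (pow_pos hp.pos (2 * n)) h6
    omega

end Cfsg.Agent.S0894
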