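import Cfsg.Statements.S0895
import Cfsg.Agent.LibFS

set_option autoImplicit false
set_option linter.all false
open Cfsg

namespace Cfsg.Agent.S0895

open CfsgLib.CharBasic CfsgLib.FS

/-- Let χ be a real-valued irreducible character of a finite group G whose degree is an odd natural number. Then the average over s in G of χ (s * s) equals 1. -/
theorem result {G : Type*} [Group G] [Fintype G] (χ : G → ℂ) (hχ : Cfsg.IsIrrCharacter G χ) (hreal : ∀ g : G, (χ g).im = 0) (d : ℕ) (hd : χ 1 = d) (hodd : Odd d) : (Nat.card G : ℂ)⁻¹ * ∑ s : G, χ (s * s) = 1 := by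
  have hG : (Nat.card G : ℂ) ≠ 0 := by exact_mod_cast Nat.card_pos.ne'
  have hfs := (fs_ne_zero_iff hχ).mpr hreal
  rw [fsInd_eq] at hfs
  obtain ⟨n, ρ, hρ, rfl⟩ := hχ
  have hn : n = d := by
    rw [Representation.char_one] at hd
    have : Module.finrank ℂ (Fin n → ℂ) = n := by simp
    rw [this] at hd
    exact_mod_cast hd
  subst hn
  by_cases hex : ∃ X : Matrix (Fin n) (Fin n) ℂ, IsInv ρ X ∧ X ≠ 0
  · obtain ⟨X, hX, hX0⟩ := hex
    obtain ⟨ε, hε, ht, hsum⟩ := sum_char_sq_of_isInv hX hX0
    rcases hε with rfl | rfl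
    · rw [hsum, one_mul, inv_mul_cancel₀ hG]
    · exfalso
      have h1 := isUnit_of_isInv hX hX0
      rw [Matrix.isUnit_iff_isUnit_det] at h1
      have h2 := congrArg Matrix.det ht
      rw [Matrix.det_transpose, Matrix.det_smul, Fintype.card_fin, hodd.neg_one_pow] at h2
      apply h1.ne_zero
      linear_combination (1/2 : ℂ) * h2
  · exfalso
    push Not at hex
    have h0 : ∀ E, avg ρ E = 0 := fun E => hex _ (isInv_avg ρ E)
    apply hfs
    rw [sum_char_sq]
    simp [h0]

end Cfsg.Agent.S0895
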