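import Cfsg.Statements.S0897
import Cfsg.Agent.LibExtend6

set_option autoImplicit false
set_option linter.all false
open Cfsg
open scoped Pointwise

namespace Cfsg.Agent.S0897

/-- Let N be a normal subgroup of the finite group G with the index of N a power of the prime p, and P a Sylow p-subgroup of G such that P ⊓ N lies in the centre of P and every character of degree 1 of P ⊓ N is the restriction of a character of degree 1 of P. Then every irreducible character of N invariant under conjugation by G is the restriction of an irreducible character of G. -/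
theorem result {G : Type*} [Group G] [Fintype G] (p : ℕ) [Fact p.Prime] (N : Subgroup G) [hN : N.Normal] (hind : ∃ k : ℕ, N.index = p ^ k) (P : Sylow p G) (hcent : ∀ x ∈ (P : Subgroup G) ⊓ N, ∀ y ∈ (P : Subgroup G), x * y = y * x) (hlin : ∀ lam : ↥((P : Subgroup G) ⊓ N) → ℂ, Cfsg.IsCharacter ↥((P : Subgroup G) ⊓ N) lam → lam 1 = 1 → ∃ μ : ↥(P : Subgroup G) → ℂ, Cfsg.IsCharacter ↥(P : Subgroup G) μ ∧ μ 1 = 1 ∧ ∀ x : ↥((P : Subgroup G) ⊓ N), μ ⟨(x : G), x.2.1⟩ = lam x) (ϑ : N → ℂ) (hϑ : Cfsg.IsIrrCharacter N ϑ) (hinv : ∀ (g : G) (n : N), ϑ ⟨g * n * g⁻¹, hN.conj_mem (n : G) n.2 g⟩ = ϑ n) : ∃ χ : G → ℂ, Cfsg.IsIrrCharacter G χ ∧ ∀ n : N, χ n = ϑ n := by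
  classical
  haveI := Fintype.ofFinite N
  have hp : p.Prime := Fact.out
  obtain ⟨E, hE, hEN, φ, hφ, hinvφ, m, hm, hci⟩ := CfsgLib.Extend.dade p hp hind hϑ hinv
  haveI := Fintype.ofFinite ↥(E ⊓ N)
  obtain ⟨x, hxc, hxo, hxi⟩ := hE
  -- the p'-part lies in N
  have hxN : (x : G) ∈ N := by
    rw [← QuotientGroup.eq_one_iff, ← orderOf_eq_one_iff]
    obtain ⟨k, hk⟩ := hind
    have h1 : orderOf ((x : G) : G ⧸ N) ∣ p ^ k := by
      rw [← hk]; exact orderOf_dvd_natCard _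
    have h2 : orderOf ((x : G) : G ⧸ N) ∣ orderOf x := by
      rw [← Subgroup.orderOf_coe]
      exact orderOf_map_dvd (QuotientGroup.mk' N) (x : G)
    exact Nat.Coprime.eq_one_of_dvd (Nat.Coprime.coprime_dvd_left h2 (Nat.Coprime.pow_right k hxo)) h1
  obtain ⟨Q⟩ := (inferInstance : Nonempty (Sylow p E))
  set S : Subgroup G := (Q : Subgroup E).map E.subtype with hS
  have hSE : S ≤ E := Subgroup.map_subtype_le _
  have hSp : IsPGroup p S := Q.2.map _
  have hSD := CfsgLib.Extend.exists_sylow_mul (N := N) p hind E Q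
  -- E = ⟨x⟩ Q
  have hxQ : ∀ g ∈ E, ∃ (k : ℤ), ∃ s ∈ S, g = (x : G) ^ k * s := by
    have h1 : Subgroup.zpowers x ⊔ (Q : Subgroup E) = ⊤ := by
      rw [← Subgroup.index_eq_one]
      by_contra hne
      obtain ⟨q, hq, hqd⟩ := Nat.exists_prime_and_dvd hne
      have h2 : q ∣ (Q : Subgroup E).index := hqd.trans (Subgroup.index_dvd_of_le le_sup_right)
      have h3 : q ∣ (Subgroup.zpowers x).index := hqd.trans (Subgroup.index_dvd_of_le le_sup_left)
      obtain ⟨k, hk⟩ := hxi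
      rw [hk] at h3
      have h5 := (Nat.prime_dvd_prime_iff_eq hq hp).mp (hq.dvd_of_dvd_pow h3)
      rw [h5] at h2
      exact Q.not_dvd_index h2
    haveI : (Subgroup.zpowers x).Normal := by
      refine ⟨fun y hy z => ?_⟩
      obtain ⟨k, rfl⟩ := hy
      have : Commute z (x ^ k) := (show Commute z x from Subgroup.mem_center_iff.mp hxc z).zpow_right k
      simp only
      rw [this.eq, mul_inv_cancel_right]
      exact ⟨k, rfl⟩
    intro g hg
    have h6 : (⟨g, hg⟩ : E) ∈ ((Subgroup.zpowers x : Subgroup E) : Set E) * ((Q : Subgroup E) : Set E) := by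
      rw [← Subgroup.normal_mul, h1]; trivial
    obtain ⟨_, ⟨k, rfl⟩, q, hq, hqd⟩ := h6
    refine ⟨k, q, ⟨q, hq, rfl⟩, ?_⟩
    have := congrArg Subtype.val hqd
    simp only [Subgroup.coe_mul, Subgroup.coe_zpow] at this
    exact this.symm
  -- S is contained in a conjugate of P
  obtain ⟨P₁, hP₁⟩ := hSp.exists_le_sylow
  obtain ⟨g₀, hg₀⟩ := MulAction.exists_smul_eq G P₁ P
  have hSP : ∀ s ∈ S, g₀ * s * g₀⁻¹ ∈ (P : Subgroup G) := by
    intro s hs
    rw [← hg₀]
    exact (Subgroup.mem_pointwise_smul_iff_inv_smul_mem).mpr (by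
      have : (MulAut.conj g₀)⁻¹ • (g₀ * s * g₀⁻¹) = s := by rw [← map_inv]; simp [mul_assoc]
      rw [this]; exact hP₁ hs)
  have hSNc : ∀ a ∈ S ⊓ N, ∀ b ∈ S, a * b = b * a := by
    intro a ha b hb
    have h1 := hcent (g₀ * a * g₀⁻¹) ⟨hSP a ha.1, hN.conj_mem a ha.2 g₀⟩ (g₀ * b * g₀⁻¹) (hSP b hb)
    have h2 : g₀ * (a * b) * g₀⁻¹ = g₀ * (b * a) * g₀⁻¹ := by
      calc g₀ * (a * b) * g₀⁻¹ = g₀ * a * g₀⁻¹ * (g₀ * b * g₀⁻¹) := by group
        _ = _ := by rw [h1]; group
    exact mul_left_cancel (mul_right_cancel h2)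
  have hxcomm : ∀ g ∈ E, (x : G) * g = g * x := by
    intro g hg
    have := Subgroup.mem_center_iff.mp hxc ⟨g, hg⟩
    exact (congrArg Subtype.val this).symm
  have hDcomm : ∀ a b : ↥(E ⊓ N), a * b = b * a := by
    rintro ⟨a, ha⟩ ⟨b, hb⟩
    apply Subtype.ext
    show a * b = b * a
    obtain ⟨k, s, hs, rfl⟩ := hxQ a ha.1
    obtain ⟨l, t, ht, rfl⟩ := hxQ b hb.1
    have hsN : s ∈ N := by
      have := N.mul_mem (N.inv_mem (N.zpow_mem hxN k)) ha.2
      simpa using this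
    have c1 : Commute ((x : G) ^ k) ((x : G) ^ l * t) := by
      have : Commute (x : G) ((x : G) ^ l * t) := hxcomm _ hb.1
      exact this.zpow_left k
    have c2 : Commute s ((x : G) ^ l) := by
      have : Commute (x : G) s := hxcomm s (hSE hs)
      exact (this.zpow_left l).symm
    have c3 : Commute s t := hSNc s ⟨hs, hsN⟩ t ht
    exact (c1.mul_left (c2.mul_right c3)).eq
  have hφ1 : φ 1 = 1 := CfsgLib.CharBasic.irr_degree_one_of_comm hDcomm hφ
  obtain ⟨f, hf⟩ := CfsgLib.CharBasic.exists_hom_of_linear (CfsgLib.CharBasic.irr_isCharacter hφ) hφ1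
  -- the linear character of P ⊓ N
  let j : ↥(S ⊓ N) →* ↥((P : Subgroup G) ⊓ N) :=
    { toFun := fun y => ⟨g₀ * y * g₀⁻¹, hSP y y.2.1, hN.conj_mem y y.2.2 g₀⟩
      map_one' := by apply Subtype.ext; simp
      map_mul' := by
        intro a b
        apply Subtype.ext
        simp only [Subgroup.coe_mul]
        group }
  have hj : Function.Injective j := by
    intro a b hab
    have h1 := congrArg (fun y : ↥((P : Subgroup G) ⊓ N) => (y : G)) hab
    exact Subtype.ext (mul_left_cancel (mul_right_cancel h1))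
  obtain ⟨lam, hlam⟩ := CfsgLib.Extend.ext_hom_comm (A := ↥((P : Subgroup G) ⊓ N)) (by
    rintro ⟨a, ha⟩ ⟨b, hb⟩
    exact Subtype.ext (hcent a ha b hb.1)) j hj (f.comp (Subgroup.inclusion (inf_le_inf_right N hSE : S ⊓ N ≤ E ⊓ N)))
  obtain ⟨μ, hμ, hμ1, hμe⟩ := hlin (fun y => (lam y : ℂ)) (CfsgLib.CharBasic.isCharacter_hom lam) (by simp)
  obtain ⟨M, hM⟩ := CfsgLib.CharBasic.exists_hom_of_linear hμ hμ1
  let jS : S →* (P : Subgroup G) :=
    { toFun := fun y => ⟨g₀ * y * g₀⁻¹, hSP y y.2⟩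
      map_one' := by apply Subtype.ext; simp
      map_mul' := by
        intro a b
        apply Subtype.ext
        simp only [Subgroup.coe_mul]
        group }
  obtain ⟨F, hFS, hFD⟩ := CfsgLib.Extend.hom_glue E S (E ⊓ N) hSE inf_le_left hSD (M.comp jS) f (by
    intro y h1 h2
    apply Units.ext
    have h3 := hμe (j ⟨y, h1, h2.2⟩)
    have h4 := hlam ⟨y, h1, h2.2⟩
    rw [MonoidHom.comp_apply] at h4
    show (M (jS ⟨y, h1⟩) : ℂ) = f ⟨y, h2⟩
    rw [← hM]
    refine h3.trans ?_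
    rw [h4]; rfl) (by
    intro s hs a b hab
    apply Units.ext
    rw [← hf, ← hf]
    exact hinvφ s (hSE hs) a b hab) (by
    intro s hs d hd
    exact ⟨E.mul_mem (E.mul_mem (hSE hs) hd.1) (E.inv_mem (hSE hs)), hN.conj_mem d hd.2 s⟩)
  refine CfsgLib.Extend.ext_of_linear_supplement p hind hϑ hinv E hEN (CfsgLib.CharBasic.isCharacter_hom F) m hm ?_
  intro _
  rw [← hci]
  congr 1
  ext y
  rw [hf]
  exact congrArg Units.val (hFD y)

end Cfsg.Agent.S0897
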