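import Cfsg.Statements.S0898
import Mathlib
import Cfsg.Agent.LibGallagher
-- import your own Cfsg.Agent.* helpers here

set_option autoImplicit false
open Cfsg

namespace Cfsg.Agent.S0898

open CfsgLib.CharBasic CfsgLib.CharNorm CfsgLib.Gallagher
open scoped ComplexConjugate
universe u

section
variable {G : Type u} [Group G] [Fintype G] (H : Subgroup G) [Fintype H] (hab : ∀ a ∈ H, ∀ b ∈ H, a * b = b * a)
  (hZ : H ⊓ Subgroup.center G = ⊥)
  (hone : ∀ g : G, g ∉ Subgroup.center G → ∀ a b : G, Subgroup.centralizer ({g} : Set G) ⊓ H.map (MulAut.conj a).toMonoidHom ≠ ⊥ → Subgroup.centralizer ({g} : Set G) ⊓ H.map (MulAut.conj b).toMonoidHom ≠ ⊥ → H.map (MulAut.conj a).toMonoidHom = H.map (MulAut.conj b).toMonoidHom)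

def NN : Subgroup G where
  carrier := {g | ∀ h, h ∈ H ↔ g * h * g⁻¹ ∈ H}
  one_mem' := fun h => by simp
  mul_mem' := by
    intro a b ha hb h
    rw [hb h, ha]
    have : a * (b * h * b⁻¹) * a⁻¹ = a * b * h * (a * b)⁻¹ := by group
    rw [this]
  inv_mem' := by
    intro g hg h
    rw [hg (g⁻¹ * h * g⁻¹⁻¹)]
    have : g * (g⁻¹ * h * g⁻¹⁻¹) * g⁻¹ = h := by group
    rw [this]

def PP (g : G) : Prop := ∃ h ∈ H, h ≠ 1 ∧ g * h = h * g

omit [Fintype G] [Fintype H] in
theorem mem_NN_of {a b : G} (h : H.map (MulAut.conj a).toMonoidHom = H.map (MulAut.conj b).toMonoidHom) : a⁻¹ * b ∈ NN H := by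
  intro x
  constructor
  · intro hx
    have h1 : b * x * b⁻¹ ∈ H.map (MulAut.conj a).toMonoidHom := by rw [h]; exact ⟨x, hx, rfl⟩
    obtain ⟨y, hy, hyx⟩ := h1
    have h2 : a * y * a⁻¹ = b * x * b⁻¹ := hyx
    have h3 : a⁻¹ * b * x * (a⁻¹ * b)⁻¹ = y := by
      have : a⁻¹ * b * x * (a⁻¹ * b)⁻¹ = a⁻¹ * (b * x * b⁻¹) * a := by group
      rw [this, ← h2]; group
    rw [h3]; exact hy
  · intro hx
    have h1 : b * x * b⁻¹ ∈ H.map (MulAut.conj b).toMonoidHom := by
      rw [← h]
      refine ⟨a⁻¹ * b * x * (a⁻¹ * b)⁻¹, hx, ?_⟩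
      show a * (a⁻¹ * b * x * (a⁻¹ * b)⁻¹) * a⁻¹ = _
      group
    obtain ⟨y, hy, hyx⟩ := h1
    have h2 : b * y * b⁻¹ = b * x * b⁻¹ := hyx
    have h3 : y = x := by
      have := congrArg (fun z => b⁻¹ * z * b) h2
      simpa [mul_assoc] using this
    rwa [← h3]

include hZ hone in
omit [Fintype G] [Fintype H] in
theorem PP_mem {g : G} (hg : PP H g) : g ∈ NN H := by
  obtain ⟨h, hh, h1, hc⟩ := hg
  have hnc : h ∉ Subgroup.center G := by
    intro hcen
    have : h ∈ H ⊓ Subgroup.center G := ⟨hh, hcen⟩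
    rw [hZ, Subgroup.mem_bot] at this
    exact h1 this
  have h2 := hone h hnc 1 g (by
    intro e
    have : h ∈ Subgroup.centralizer ({h} : Set G) ⊓ H.map (MulAut.conj (1 : G)).toMonoidHom := by
      refine ⟨Subgroup.mem_centralizer_singleton_iff.2 rfl, h, hh, ?_⟩
      show 1 * h * 1⁻¹ = h
      group
    rw [e, Subgroup.mem_bot] at this
    exact h1 this) (by
    intro e
    have : h ∈ Subgroup.centralizer ({h} : Set G) ⊓ H.map (MulAut.conj g).toMonoidHom := by
      refine ⟨Subgroup.mem_centralizer_singleton_iff.2 rfl, h, hh, ?_⟩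
      show g * h * g⁻¹ = h
      rw [hc]; group
    rw [e, Subgroup.mem_bot] at this
    exact h1 this)
  have h3 := mem_NN_of H h2
  simpa using h3

omit [Fintype G] in
theorem coset_conj {g : G} (hg : g ∈ NN H) (hP : ¬ PP H g) {χ : G → ℂ} (hχ : IsClassFunction G χ) (h : H) :
    χ (h * g) = χ g := by
  let f : H → H := fun y => ⟨y * (g * (y : G)⁻¹ * g⁻¹), H.mul_mem y.2 ((hg _).1 (H.inv_mem y.2))⟩
  have hf : Function.Injective f := by
    intro y z hyz
    have h2 : (y : G) * (g * (y : G)⁻¹ * g⁻¹) = z * (g * (z : G)⁻¹ * g⁻¹) := congrArg Subtype.val hyz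
    have h3 : g * ((z : G)⁻¹ * y) = ((z : G)⁻¹ * y) * g := by
      have h4 : (z : G)⁻¹ * ((y : G) * (g * (y : G)⁻¹ * g⁻¹)) * g * y = (z : G)⁻¹ * (z * (g * (z : G)⁻¹ * g⁻¹)) * g * y := by rw [h2]
      have h5 : (z : G)⁻¹ * ((y : G) * (g * (y : G)⁻¹ * g⁻¹)) * g * y = (z : G)⁻¹ * y * g := by group
      have h6 : (z : G)⁻¹ * (z * (g * (z : G)⁻¹ * g⁻¹)) * g * y = g * ((z : G)⁻¹ * y) := by group
      rw [h5, h6] at h4
      exact h4.symm
    by_contra hne
    apply hP
    refine ⟨(z : G)⁻¹ * y, H.mul_mem (H.inv_mem z.2) y.2, ?_, h3⟩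
    intro h7
    exact hne (Subtype.ext (inv_mul_eq_one.1 h7).symm)
  obtain ⟨y, hy⟩ := (Finite.injective_iff_surjective.1 hf) h
  have h2 : (y : G) * (g * (y : G)⁻¹ * g⁻¹) = h := congrArg Subtype.val hy
  rw [← h2]
  have h3 : (y : G) * (g * (y : G)⁻¹ * g⁻¹) * g = y * g * (y : G)⁻¹ := by group
  rw [h3]
  exact hχ g y

include hab hZ hone in
theorem part1 (χ : G → ℂ) (hχ : Cfsg.IsIrrCharacter G χ) (hker : ∃ h ∈ H, χ h ≠ χ 1) :
    (Nat.card H : ℝ) * (Cfsg.classInner (fun h : H => χ h) (fun _ => 1)).re ^ 2 < (χ 1).re ^ 2 := by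
  classical
  haveI : Fintype (NN H) := Fintype.ofFinite _
  have hHN : H ≤ NN H := by
    intro x hx h
    constructor
    · intro hh
      exact H.mul_mem (H.mul_mem hx hh) (H.inv_mem hx)
    · intro hh
      have := H.mul_mem (H.mul_mem (H.inv_mem hx) hh) hx
      have h2 : x⁻¹ * (x * h * x⁻¹) * x = h := by group
      rwa [h2] at this
  haveI hHn : (H.subgroupOf (NN H)).Normal := by
    refine ⟨fun x hx g => ?_⟩
    rw [Subgroup.mem_subgroupOf] at hx ⊢
    exact (g.2 _).1 hx
  haveI : Fintype (H.subgroupOf (NN H)) := Fintype.ofFinite _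
  set d := (χ 1).re with hd
  obtain ⟨dn, hdn0, hdn⟩ := irr_one_nat hχ
  have hdpos : 0 < d := by rw [hd, hdn, Complex.natCast_re]; exact_mod_cast hdn0
  have hχ1 : χ 1 = (d : ℂ) := by rw [hd, hdn, Complex.natCast_re]; simp
  have hH0 : (Nat.card H : ℂ) ≠ 0 := by exact_mod_cast Nat.card_pos.ne'
  let ψ : G → ℂ := fun g => (Nat.card H : ℂ)⁻¹ * ∑ h : H, χ (h * g)
  have hψ : ∀ g, ψ g = (Nat.card H : ℂ)⁻¹ * ∑ h : H, χ (h * g) := fun g => rfl
  obtain ⟨cn, hcn⟩ : ∃ cn : ℕ, classInner (fun h : H => χ h) (fun _ => 1) = cn :=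
    char_mult (isCharacter_restrict (irr_isCharacter hχ) H) isCharacter_one
  have hψ1 : ψ 1 = cn := by
    rw [hψ, ← hcn]
    unfold classInner
    simp
  have hψH : ∀ h ∈ H, ∀ g, ψ (h * g) = ψ g := by
    intro h hh g
    rw [hψ, hψ]
    congr 1
    refine Fintype.sum_equiv (Equiv.mulRight (⟨h, hh⟩ : H)) _ _ fun m => ?_
    simp [mul_assoc]
  -- on NN
  have havg : ∀ n : NN H, avg (H.subgroupOf (NN H)) (fun n : NN H => χ n) n = ψ n := by
    intro n
    unfold avg
    rw [hψ]
    have hc : Nat.card (H.subgroupOf (NN H)) = Nat.card H := Nat.card_congr (Subgroup.subgroupOfEquivOfLe hHN).toEquiv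
    rw [hc]
    congr 1
    refine Fintype.sum_equiv (Subgroup.subgroupOfEquivOfLe hHN).toEquiv _ _ fun m => ?_
    rfl
  have hχN : IsCharacter (NN H) (fun n : NN H => χ n) := isCharacter_restrict (irr_isCharacter hχ) _
  have hψN : IsCharacter (NN H) (fun n : NN H => ψ n) := by
    have := avg_char (H.subgroupOf (NN H)) hχN
    have h2 : avg (H.subgroupOf (NN H)) (fun n : NN H => χ n) = fun n : NN H => ψ n := funext havg
    rwa [h2] at this
  set η : G → ℂ := fun g => χ g - ψ g with hη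
  have hηN : IsGeneralizedCharacter (NN H) (fun n : NN H => η n) :=
    gen_sub (gen_of_char hχN) (gen_of_char hψN)
  have hηne : (fun n : NN H => η n) ≠ 0 := by
    intro h0
    obtain ⟨h, hh, hne⟩ := hker
    apply hne
    have h1 := congrFun h0 ⟨h, hHN hh⟩
    have h2 := congrFun h0 1
    have h3 : χ h - ψ h = 0 := h1
    have h4 : χ 1 - ψ 1 = 0 := h2
    have h5 := hψH h hh 1
    rw [mul_one] at h5
    rw [sub_eq_zero.1 h3, sub_eq_zero.1 h4, h5]
  have hηη : (Nat.card (NN H) : ℝ) ≤ ∑ n : NN H, ‖η n‖ ^ 2 := by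
    obtain ⟨z, hz⟩ := gen_inner_int hηN hηN
    have h1 := inner_self_eq (fun n : NN H => η n)
    rw [hz] at h1
    have h2 : (z : ℝ) = (Nat.card (NN H) : ℝ)⁻¹ * ∑ n : NN H, ‖η n‖ ^ 2 := by exact_mod_cast h1
    have hN0 : (0 : ℝ) < Nat.card (NN H) := by exact_mod_cast Nat.card_pos
    have h3 : 0 ≤ (z : ℝ) := by rw [h2]; positivity
    have h4 : z ≠ 0 := by
      intro h0
      apply hηne
      apply CfsgLib.CharBasic.inner_self_eq_zero
      rw [hz, h0, Int.cast_zero]
    have h5 : (1 : ℝ) ≤ z := by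
      have h6 : 0 ≤ z := by exact_mod_cast h3
      have h7 : 1 ≤ z := by omega
      exact_mod_cast h7
    rw [h2, inv_mul_eq_div, le_div_iff₀ hN0, one_mul] at h5
    exact h5
  have hψη : ∑ n : NN H, ψ n * conj (η n) = 0 := by
    have h1 := ci_avg (H.subgroupOf (NN H)) (fun n : NN H => χ n) (fun n : NN H => χ n)
    have h2 : avg (H.subgroupOf (NN H)) (fun n : NN H => χ n) = fun n : NN H => ψ n := funext havg
    rw [h2] at h1
    unfold classInner at h1
    have hN0 : (Nat.card (NN H) : ℂ)⁻¹ ≠ 0 := inv_ne_zero (by exact_mod_cast Nat.card_pos.ne')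
    have h3 := mul_left_cancel₀ hN0 h1
    have h4 : ∑ n : NN H, ψ n * conj (η n) = ∑ n : NN H, ψ n * conj (χ n) - ∑ n : NN H, ψ n * conj (ψ n) := by
      rw [← Finset.sum_sub_distrib]
      refine Finset.sum_congr rfl fun n _ => ?_
      simp only [hη, map_sub]
      ring
    rw [h4, h3, sub_self]
  -- vanishing of η on NN ∖ U
  have hη0 : ∀ g ∈ NN H, ¬ PP H g → η g = 0 := by
    intro g hg hP
    simp only [hη]
    rw [hψ, Finset.sum_congr rfl fun h _ => coset_conj H hg hP (irr_classFun hχ) h, Finset.sum_const, nsmul_eq_mul,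
      Finset.card_univ, ← Nat.card_eq_fintype_card, inv_mul_cancel_left₀ hH0, sub_self]
  have hsumU : ∀ {R : Type} [AddCommMonoid R] (F : G → R), (∀ g ∈ NN H, ¬ PP H g → F g = 0) →
      ∑ n : NN H, F n = ∑ g ∈ Finset.univ.filter (fun g => PP H g), F g := by
    intro R _ F hF
    have h1 : ∑ n : NN H, F n = ∑ g ∈ Finset.univ.filter (fun g => g ∈ NN H), F g :=
      (Finset.sum_subtype _ (fun x => by simp) _).symm
    rw [h1]
    symm
    apply Finset.sum_subset
    · intro g hg
      exact Finset.mem_filter.2 ⟨Finset.mem_univ _, PP_mem H hZ hone (Finset.mem_filter.1 hg).2⟩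
    · intro g hg hg'
      exact hF g (Finset.mem_filter.1 hg).2 (fun h => hg' (Finset.mem_filter.2 ⟨Finset.mem_univ _, h⟩))
  set U : Finset G := Finset.univ.filter (fun g => PP H g) with hU
  have e1 : (Nat.card (NN H) : ℝ) ≤ ∑ g ∈ U, ‖η g‖ ^ 2 := by
    rw [← hsumU (fun g => ‖η g‖ ^ 2) (fun g hg hP => by rw [hη0 g hg hP]; simp)]
    exact hηη
  have e2 : ∑ g ∈ U, ψ g * conj (η g) = 0 := by
    rw [← hsumU (fun g => ψ g * conj (η g)) (fun g hg hP => by rw [hη0 g hg hP]; simp)]
    exact hψη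
  have e3 : ∑ g ∈ U, ‖χ g‖ ^ 2 = ∑ g ∈ U, ‖ψ g‖ ^ 2 + ∑ g ∈ U, ‖η g‖ ^ 2 := by
    have h1 : ∀ g, ((‖χ g‖ ^ 2 : ℝ) : ℂ) = ((‖ψ g‖ ^ 2 : ℝ) : ℂ) + ((‖η g‖ ^ 2 : ℝ) : ℂ) + ψ g * conj (η g) + conj (ψ g * conj (η g)) := by
      intro g
      have h2 : χ g = ψ g + η g := by simp only [hη]; ring
      rw [← Complex.normSq_eq_norm_sq, ← Complex.normSq_eq_norm_sq, ← Complex.normSq_eq_norm_sq, ← Complex.mul_conj,
        ← Complex.mul_conj, ← Complex.mul_conj, h2]
      simp only [map_add, map_mul, Complex.conj_conj]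
      ring
    have h3 : ((∑ g ∈ U, ‖χ g‖ ^ 2 : ℝ) : ℂ) = ((∑ g ∈ U, ‖ψ g‖ ^ 2 + ∑ g ∈ U, ‖η g‖ ^ 2 : ℝ) : ℂ) := by
      rw [Complex.ofReal_sum, Finset.sum_congr rfl fun g _ => h1 g, Finset.sum_add_distrib, Finset.sum_add_distrib, Finset.sum_add_distrib,
        e2, ← map_sum, e2, map_zero, add_zero, add_zero]
      push_cast
      rfl
    exact_mod_cast h3
  -- lower bound on the sum of |ψ|²
  have hZcard : ∀ z ∈ Subgroup.center G, ∀ h ∈ H, ‖ψ (h * z)‖ = cn := by
    intro z hz h hh
    rw [hψH h hh z, hψ]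
    have h1 : ∀ h : H, χ (h * z) = χ z / χ 1 * χ h := by
      intro h
      have h2 : (h : G) * z = z * h := Subgroup.mem_center_iff.1 hz h
      rw [h2]
      exact char_mul_of_scalar (irr_isCharacter hχ) (irr_one_ne_zero hχ) (irr_center hχ hz) h
    rw [Finset.sum_congr rfl fun h _ => h1 h, ← Finset.mul_sum]
    have h3 : (Nat.card H : ℂ)⁻¹ * (χ z / χ 1 * ∑ h : H, χ h) = (χ z / χ 1) * ψ 1 := by
      rw [hψ]
      simp only [mul_one]
      ring
    rw [h3, hψ1, norm_mul, norm_div, irr_center hχ hz, hχ1, Complex.norm_real, Complex.ofReal_re, Real.norm_of_nonneg hdpos.le,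
      div_self hdpos.ne', one_mul, Complex.norm_natCast]
  obtain ⟨h₀, hh₀, hne₀⟩ := hker
  have hh₀1 : h₀ ≠ 1 := by rintro rfl; exact hne₀ rfl
  have hcenU : ∀ z ∈ Subgroup.center G, PP H z := fun z hz =>
    ⟨h₀, hh₀, hh₀1, (Subgroup.mem_center_iff.1 hz h₀).symm⟩
  have e4 : (Nat.card (Subgroup.center G) : ℝ) * Nat.card H * (cn : ℝ) ^ 2 ≤ ∑ g ∈ U, ‖ψ g‖ ^ 2 := by
    haveI : Fintype (Subgroup.center G) := Fintype.ofFinite _
    let f : H × Subgroup.center G → G := fun p => p.1 * p.2
    have hf : Function.Injective f := by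
      rintro ⟨h, z⟩ ⟨h', z'⟩ e
      have e' : (h : G) * z = h' * z' := e
      have h1 : (h' : G)⁻¹ * h = z' * (z : G)⁻¹ := by
        calc (h' : G)⁻¹ * h = (h' : G)⁻¹ * (h * z) * (z : G)⁻¹ := by group
          _ = (h' : G)⁻¹ * (h' * z') * (z : G)⁻¹ := by rw [e']
          _ = _ := by group
      have h2 : (h' : G)⁻¹ * h ∈ H ⊓ Subgroup.center G :=
        ⟨H.mul_mem (H.inv_mem h'.2) h.2, h1 ▸ (Subgroup.center G).mul_mem z'.2 ((Subgroup.center G).inv_mem z.2)⟩
      rw [hZ, Subgroup.mem_bot] at h2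
      have h3 : h = h' := Subtype.ext (inv_mul_eq_one.1 h2).symm
      subst h3
      have h4 : z = z' := Subtype.ext (mul_left_cancel e')
      rw [h4]
    have h1 : ∑ g ∈ Finset.univ.image f, ‖ψ g‖ ^ 2 ≤ ∑ g ∈ U, ‖ψ g‖ ^ 2 := by
      apply Finset.sum_le_sum_of_subset_of_nonneg
      · intro g hg
        obtain ⟨⟨h, z⟩, -, rfl⟩ := Finset.mem_image.1 hg
        refine Finset.mem_filter.2 ⟨Finset.mem_univ _, h₀, hh₀, hh₀1, ?_⟩
        show (h : G) * z * h₀ = h₀ * (h * z)
        have h2 : (z : G) * h₀ = h₀ * z := (Subgroup.mem_center_iff.1 z.2 h₀).symm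
        rw [mul_assoc, h2, ← mul_assoc, hab h h.2 h₀ hh₀, mul_assoc]
      · intro _ _ _; positivity
    refine le_trans (le_of_eq ?_) h1
    rw [Finset.sum_image (fun a _ b _ h => hf h)]
    rw [Finset.sum_congr rfl (g := fun _ => (cn : ℝ) ^ 2) (fun p _ => by rw [show f p = p.1 * p.2 from rfl, hZcard p.2 p.2.2 p.1 p.1.2])]
    rw [Finset.sum_const, nsmul_eq_mul, Finset.card_univ, Fintype.card_prod, ← Nat.card_eq_fintype_card, ← Nat.card_eq_fintype_card]
    push_cast
    ring
  -- upper bound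
  have hirr : ∑ g : G, ‖χ g‖ ^ 2 = Nat.card G := by
    have h1 := irr_inner_self hχ
    rw [inner_self_eq] at h1
    have h2 : ((Nat.card G : ℝ)⁻¹ * ∑ g : G, ‖χ g‖ ^ 2 : ℝ) = 1 := by exact_mod_cast h1
    rwa [inv_mul_eq_iff_eq_mul₀ (by exact_mod_cast Nat.card_pos.ne'), mul_one] at h2
  set S : ℝ := ∑ g ∈ U.filter (fun g => g ∉ Subgroup.center G), ‖χ g‖ ^ 2 with hS
  have hcensum : ∑ g ∈ Finset.univ.filter (fun g : G => g ∈ Subgroup.center G), ‖χ g‖ ^ 2 = Nat.card (Subgroup.center G) * d ^ 2 := by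
    rw [Finset.sum_congr rfl (g := fun _ => d ^ 2) (fun g hg => by rw [irr_center hχ (Finset.mem_filter.1 hg).2]), Finset.sum_const,
      nsmul_eq_mul, Nat.card_eq_fintype_card, Fintype.card_subtype]
  have e5 : ∑ g ∈ U, ‖χ g‖ ^ 2 = S + Nat.card (Subgroup.center G) * d ^ 2 := by
    rw [← Finset.sum_filter_add_sum_filter_not U (fun g => g ∉ Subgroup.center G), hS, ← hcensum]
    congr 1
    refine Finset.sum_congr ?_ fun _ _ => rfl
    ext g
    simp only [Finset.mem_filter, Finset.mem_univ, true_and, not_not, hU]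
    exact ⟨fun h => h.2, fun h => ⟨hcenU g h, h⟩⟩
  have e6 : (Nat.card G : ℝ) * S ≤ Nat.card (NN H) * ((Nat.card G : ℝ) - Nat.card (Subgroup.center G) * d ^ 2) := by
    -- double count
    have h1 : ∀ x : G, ∑ g ∈ Finset.univ.filter (fun g : G => g ∉ Subgroup.center G ∧ PP H (x⁻¹ * g * x)), ‖χ g‖ ^ 2 = S := by
      intro x
      rw [hS]
      refine Finset.sum_bij (fun g _ => x⁻¹ * g * x) ?_ ?_ ?_ ?_
      · intro g hg
        obtain ⟨-, h2, h3⟩ := Finset.mem_filter.1 hg
        refine Finset.mem_filter.2 ⟨Finset.mem_filter.2 ⟨Finset.mem_univ _, h3⟩, ?_⟩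
        intro h4
        apply h2
        have h5 := (inferInstance : (Subgroup.center G).Normal).conj_mem _ h4 x
        have h6 : x * (x⁻¹ * g * x) * x⁻¹ = g := by group
        rwa [h6] at h5
      · intro a _ b _ e
        have := congrArg (fun z => x * z * x⁻¹) e
        simpa [mul_assoc] using this
      · intro b hb
        obtain ⟨h2, h3⟩ := Finset.mem_filter.1 hb
        refine ⟨x * b * x⁻¹, Finset.mem_filter.2 ⟨Finset.mem_univ _, ?_, ?_⟩, by group⟩
        · intro h4
          apply h3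
          have h5 := (inferInstance : (Subgroup.center G).Normal).conj_mem _ h4 x⁻¹
          have h6 : x⁻¹ * (x * b * x⁻¹) * x⁻¹⁻¹ = b := by group
          rwa [h6] at h5
        · have h6 : x⁻¹ * (x * b * x⁻¹) * x = b := by group
          rw [h6]; exact (Finset.mem_filter.1 h2).2
      · intro g _
        have := irr_classFun hχ g x⁻¹
        rw [inv_inv] at this
        rw [this]
    have h2 : (Nat.card G : ℝ) * S = ∑ x : G, ∑ g ∈ Finset.univ.filter (fun g : G => g ∉ Subgroup.center G ∧ PP H (x⁻¹ * g * x)), ‖χ g‖ ^ 2 := by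
      rw [Finset.sum_congr rfl fun x _ => h1 x, Finset.sum_const, nsmul_eq_mul, Finset.card_univ, Nat.card_eq_fintype_card]
    have h3 : ∑ x : G, ∑ g ∈ Finset.univ.filter (fun g : G => g ∉ Subgroup.center G ∧ PP H (x⁻¹ * g * x)), ‖χ g‖ ^ 2 =
        ∑ g ∈ Finset.univ.filter (fun g : G => g ∉ Subgroup.center G), ((Finset.univ.filter (fun x : G => PP H (x⁻¹ * g * x))).card : ℝ) * ‖χ g‖ ^ 2 := by
      simp only [Finset.sum_filter]
      rw [Finset.sum_comm]
      refine Finset.sum_congr rfl fun g _ => ?_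
      by_cases hg : g ∉ Subgroup.center G
      · simp only [hg, not_false_eq_true, true_and, if_true]
        rw [← Finset.sum_filter, Finset.sum_const, nsmul_eq_mul]
      · simp only [hg, false_and, if_false, Finset.sum_const_zero]
    have h4 : ∀ g : G, g ∉ Subgroup.center G → ((Finset.univ.filter (fun x : G => PP H (x⁻¹ * g * x))).card : ℝ) ≤ Nat.card (NN H) := by
      intro g hg
      rcases Finset.eq_empty_or_nonempty (Finset.univ.filter (fun x : G => PP H (x⁻¹ * g * x))) with h5 | ⟨a, ha⟩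
      · rw [h5]; simp
      · have hcm : ∀ x : G, PP H (x⁻¹ * g * x) → Subgroup.centralizer ({g} : Set G) ⊓ H.map (MulAut.conj x).toMonoidHom ≠ ⊥ := by
          rintro x ⟨h, hh, hh1, hc⟩ e
          have h6 : x * h * x⁻¹ ∈ Subgroup.centralizer ({g} : Set G) ⊓ H.map (MulAut.conj x).toMonoidHom := by
            refine ⟨?_, h, hh, rfl⟩
            show x * h * x⁻¹ ∈ Subgroup.centralizer ({g} : Set G)
            rw [Subgroup.mem_centralizer_singleton_iff]
            have h7 : g * (x * h * x⁻¹) = x * ((x⁻¹ * g * x) * h) * x⁻¹ := by group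
            have h8 : x * h * x⁻¹ * g = x * (h * (x⁻¹ * g * x)) * x⁻¹ := by group
            first
              | rw [h7, h8, hc]
              | rw [h8, h7, hc]
          rw [e, Subgroup.mem_bot] at h6
          apply hh1
          have h7 : h = x⁻¹ * (x * h * x⁻¹) * x := by group
          rw [h7, h6]; group
        have h5 : (Finset.univ.filter (fun x : G => PP H (x⁻¹ * g * x))).card ≤ (Finset.univ : Finset (NN H)).card := by
          apply Finset.card_le_card_of_injOn (fun x => if h : a⁻¹ * x ∈ NN H then (⟨a⁻¹ * x, h⟩ : NN H) else 1)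
          · intro x _; exact Finset.mem_coe.2 (Finset.mem_univ _)
          · intro x hx y hy e
            have hx' := mem_NN_of H (hone g hg a x (hcm a (Finset.mem_filter.1 ha).2) (hcm x (Finset.mem_filter.1 hx).2))
            have hy' := mem_NN_of H (hone g hg a y (hcm a (Finset.mem_filter.1 ha).2) (hcm y (Finset.mem_filter.1 hy).2))
            simp only [dif_pos hx', dif_pos hy'] at e
            exact mul_left_cancel (congrArg Subtype.val e)
        rw [Finset.card_univ, ← Nat.card_eq_fintype_card] at h5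
        exact_mod_cast h5
    rw [h2, h3]
    calc ∑ g ∈ Finset.univ.filter (fun g : G => g ∉ Subgroup.center G), ((Finset.univ.filter (fun x : G => PP H (x⁻¹ * g * x))).card : ℝ) * ‖χ g‖ ^ 2
        ≤ ∑ g ∈ Finset.univ.filter (fun g : G => g ∉ Subgroup.center G), (Nat.card (NN H) : ℝ) * ‖χ g‖ ^ 2 := by
          refine Finset.sum_le_sum fun g hg => ?_
          exact mul_le_mul_of_nonneg_right (h4 g (Finset.mem_filter.1 hg).2) (by positivity)
      _ = Nat.card (NN H) * ((Nat.card G : ℝ) - Nat.card (Subgroup.center G) * d ^ 2) := by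
          rw [← Finset.mul_sum]
          congr 1
          rw [← hcensum, ← hirr]
          have := Finset.sum_filter_add_sum_filter_not (Finset.univ : Finset G) (fun g => g ∈ Subgroup.center G) (fun g => ‖χ g‖ ^ 2)
          linarith
  have hGpos : (0 : ℝ) < Nat.card G := by exact_mod_cast Nat.card_pos
  have hZpos : (0 : ℝ) < Nat.card (Subgroup.center G) := by exact_mod_cast Nat.card_pos
  have hNpos : (0 : ℝ) < Nat.card (NN H) := by exact_mod_cast Nat.card_pos
  have e7 : S < Nat.card (NN H) := by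
    have h1 : (Nat.card G : ℝ) * S < Nat.card G * Nat.card (NN H) := by
      have h2 : 0 < (Nat.card (NN H) : ℝ) * (Nat.card (Subgroup.center G) * d ^ 2) := by positivity
      nlinarith [e6]
    exact lt_of_mul_lt_mul_left h1 hGpos.le
  have e8 : (Nat.card (Subgroup.center G) : ℝ) * (Nat.card H * (cn : ℝ) ^ 2) < Nat.card (Subgroup.center G) * d ^ 2 := by
    nlinarith [e1, e3, e4, e5, e7]
  have e9 := lt_of_mul_lt_mul_left e8 hZpos.le
  rw [hcn, Complex.natCast_re]
  exact e9
end

/-- Let H be an abelian subgroup of the finite group G meeting the centre of G trivially, such that for every non-central g the centralizer of g has nontrivial intersection with at most one conjugate of H. Let χ be an irreducible character of G with χ h ≠ χ 1 for some h in H, and let c be the inner product of the restriction of χ to H with the principal character. Then χ(1)² > (order of H)·c²; and if in addition χ 1 ≠ 1 and no proper normal subgroup of G contains H, then (1 + χ 1)² > order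 of H (both sides read as real numbers). -/
theorem result {G : Type*} [Group G] [Fintype G] (H : Subgroup G) [Fintype H] (hab : ∀ a ∈ H, ∀ b ∈ H, a * b = b * a) (hZ : H ⊓ Subgroup.center G = ⊥) (hone : ∀ g : G, g ∉ Subgroup.center G → ∀ a b : G, Subgroup.centralizer ({g} : Set G) ⊓ H.map (MulAut.conj a).toMonoidHom ≠ ⊥ → Subgroup.centralizer ({g} : Set G) ⊓ H.map (MulAut.conj b).toMonoidHom ≠ ⊥ → H.map (MulAut.conj a).toMonoidHom = H.map (MulAut.conj b).toMonoidHom) (χ : G → ℂ) (hχ : Cfsg.IsIrrCharacter G χ) (hker : ∃ h ∈ H, χ h ≠ χ 1) : (χ 1).re ^ 2 > (Nat.card H : ℝ) * (Cfsg.classInner (fun h : H => χ h) (fun _ => 1)).re ^ 2 ∧ (χ 1 ≠ 1 → (∀ M : Subgroup G, M.Normal → H ≤ M → M = ⊤) → (1 + (χ 1).re) ^ 2 > (Nat.card H : ℝ)) := by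
    classical
    have h1 := part1 H hab hZ hone χ hχ hker
    refine ⟨h1, ?_⟩
    intro hχ1 hnorm
    obtain ⟨d, hd0, hd⟩ := irr_one_nat hχ
    have hd1 : 2 ≤ d := by
      rcases Nat.lt_or_ge d 2 with h | h
      · exfalso; apply hχ1
        have : d = 1 := by omega
        rw [hd, this, Nat.cast_one]
      · exact h
    -- χ χ̄
    have hφc : IsCharacter G (fun g => χ g * conj (χ g)) := isCharacter_mul (irr_isCharacter hχ) (isCharacter_conj (irr_isCharacter hχ))
    obtain ⟨m, hm, hexp, -⟩ := char_expand hφc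
    let one : Cfsg.IrrCharacter G := ⟨fun _ => 1, isIrrCharacter_one⟩
    have hm1 : m one = 1 := by
      have h2 := hm one
      have h3 : classInner (fun g => χ g * conj (χ g)) (fun _ => 1) = classInner χ χ := by
        unfold classInner
        congr 1
        refine Finset.sum_congr rfl fun g _ => ?_
        rw [map_one, mul_one]
      rw [show ((one : Cfsg.IrrCharacter G) : G → ℂ) = fun _ => 1 from rfl, h3, irr_inner_self hχ] at h2
      exact_mod_cast h2.symm
    choose c hc using fun ξ : Cfsg.IrrCharacter G => char_mult (isCharacter_restrict (irr_isCharacter ξ.2) H) (isCharacter_one (G := H))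
    choose e he0 he using fun ξ : Cfsg.IrrCharacter G => irr_one_nat ξ.2
    have hc1 : c one = 1 := by
      have h2 := hc one
      have h3 : classInner (fun _ : H => (1 : ℂ)) (fun _ => 1) = 1 := irr_inner_self isIrrCharacter_one
      have h4 : classInner (fun h : H => ((one : Cfsg.IrrCharacter G) : G → ℂ) h) (fun _ => 1) = 1 := h3
      rw [h4] at h2
      exact_mod_cast h2.symm
    have he1 : e one = 1 := by
      have h2 := he one
      have h3 : ((one : Cfsg.IrrCharacter G) : G → ℂ) 1 = 1 := rfl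
      rw [h3] at h2
      exact_mod_cast h2.symm
    have hne : ∀ ξ : Cfsg.IrrCharacter G, ξ ≠ one → (Nat.card H : ℝ) * (c ξ : ℝ) ^ 2 < (e ξ : ℝ) ^ 2 := by
      intro ξ hξ
      have h2 : ∃ h ∈ H, (ξ : G → ℂ) h ≠ (ξ : G → ℂ) 1 := by
        by_contra hcon
        push Not at hcon
        obtain ⟨K, hKn, hK⟩ := exists_kernel (irr_isCharacter ξ.2)
        have h3 := hnorm K hKn (fun h hh => (hK h).2 (hcon h hh))
        apply hξ
        have h4 : ∀ g, (ξ : G → ℂ) g = (ξ : G → ℂ) 1 := fun g => (hK g).1 (h3 ▸ Subgroup.mem_top g)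
        by_contra hne
        have h5 : (ξ : G → ℂ) ≠ (one : G → ℂ) := fun h => hne (Subtype.ext h)
        have h6 := irr_inner_ne ξ.2 isIrrCharacter_one h5
        unfold classInner at h6
        rw [Finset.sum_congr rfl (g := fun _ => (ξ : G → ℂ) 1) (fun g _ => by rw [h4 g, map_one, mul_one]), Finset.sum_const,
          nsmul_eq_mul, Finset.card_univ, ← Nat.card_eq_fintype_card, inv_mul_cancel_left₀ (by exact_mod_cast Nat.card_pos.ne')] at h6
        exact irr_one_ne_zero ξ.2 h6
      have h3 := part1 H hab hZ hone ξ ξ.2 h2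
      have h4 := hc ξ
      rw [h4, he ξ, Complex.natCast_re, Complex.natCast_re] at h3
      exact h3
    set s := Real.sqrt (Nat.card H) with hs
    have hspos : 0 < s := Real.sqrt_pos.2 (by exact_mod_cast Nat.card_pos)
    have hs2 : s ^ 2 = Nat.card H := Real.sq_sqrt (by positivity)
    have hne' : ∀ ξ : Cfsg.IrrCharacter G, ξ ≠ one → s * c ξ < e ξ := by
      intro ξ hξ
      have h2 := hne ξ hξ
      rw [← hs2, ← mul_pow] at h2
      exact lt_of_pow_lt_pow_left₀ 2 (by positivity) h2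
    -- degree and H-multiplicity sums
    have hdeg : (d : ℝ) ^ 2 = ∑ ξ : Cfsg.IrrCharacter G, (m ξ : ℝ) * e ξ := by
      have h2 := congrFun hexp 1
      simp only [Finset.sum_apply, Pi.smul_apply, smul_eq_mul] at h2
      rw [hd] at h2
      simp only [Complex.conj_natCast] at h2
      have h3 : ((d ^ 2 : ℕ) : ℂ) = ((∑ ξ : Cfsg.IrrCharacter G, m ξ * e ξ : ℕ) : ℂ) := by
        push_cast
        rw [sq, h2]
        refine Finset.sum_congr rfl fun ξ _ => ?_
        rw [he ξ]
      have h4 : d ^ 2 = ∑ ξ : Cfsg.IrrCharacter G, m ξ * e ξ := by exact_mod_cast h3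
      exact_mod_cast h4
    have hmult : (d : ℝ) ≤ ∑ ξ : Cfsg.IrrCharacter G, (m ξ : ℝ) * c ξ := by
      have h2 : classInner (fun h : H => χ h) (fun h : H => χ h) = ∑ ξ : Cfsg.IrrCharacter G, (m ξ : ℂ) * c ξ := by
        have h3 : classInner (fun h : H => χ h) (fun h : H => χ h) = classInner (fun h : H => χ h * conj (χ h)) (fun _ => 1) := by
          unfold classInner
          congr 1
          refine Finset.sum_congr rfl fun g _ => ?_
          rw [map_one, mul_one]
        have h4 : (fun h : H => χ h * conj (χ h)) = ∑ ξ : Cfsg.IrrCharacter G, (m ξ : ℂ) • (fun h : H => (ξ : G → ℂ) h) := by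
          ext h
          have := congrFun hexp (h : G)
          simp only [Finset.sum_apply, Pi.smul_apply, smul_eq_mul] at this ⊢
          exact this
        rw [h3, h4, CfsgLib.CharBasic.inner_sum_left]
        refine Finset.sum_congr rfl fun ξ _ => ?_
        rw [CfsgLib.CharBasic.inner_smul_left]
        congr 1
        exact hc ξ
      -- ⟨χ_H, χ_H⟩ ≥ χ(1)
      obtain ⟨a, ha, hexpa, -⟩ := char_expand (isCharacter_restrict (irr_isCharacter hχ) H)
      have h5 : classInner (fun h : H => χ h) (fun h : H => χ h) = ∑ ξ : Cfsg.IrrCharacter H, (a ξ : ℂ) * a ξ := by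
        rw [parseval (char_classFun (isCharacter_restrict (irr_isCharacter hχ) H)) (char_classFun (isCharacter_restrict (irr_isCharacter hχ) H))]
        refine Finset.sum_congr rfl fun ξ _ => ?_
        rw [ha ξ, Complex.conj_natCast]
      have h6 : (d : ℂ) = ∑ ξ : Cfsg.IrrCharacter H, (a ξ : ℂ) := by
        have h7 := congrFun hexpa 1
        simp only [Finset.sum_apply, Pi.smul_apply, smul_eq_mul] at h7
        have h8 : χ ((1 : H) : G) = (d : ℂ) := hd
        rw [h8] at h7
        rw [h7]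
        refine Finset.sum_congr rfl fun ξ _ => ?_
        rw [irr_degree_one_of_comm (fun x y => Subtype.ext (hab x x.2 y y.2)) ξ.2, mul_one]
      have h7 : d ≤ ∑ ξ : Cfsg.IrrCharacter G, m ξ * c ξ := by
        have h8 : d = ∑ ξ : Cfsg.IrrCharacter H, a ξ := by exact_mod_cast h6
        have h9 : (∑ ξ : Cfsg.IrrCharacter H, a ξ * a ξ) = ∑ ξ : Cfsg.IrrCharacter G, m ξ * c ξ := by
          have := h5.symm.trans h2
          exact_mod_cast this
        rw [← h9, h8]
        exact Finset.sum_le_sum fun ξ _ => Nat.le_mul_self _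
      exact_mod_cast h7
    rw [← Finset.add_sum_erase _ _ (Finset.mem_univ one)] at hdeg hmult
    rw [hm1, he1] at hdeg
    rw [hm1, hc1] at hmult
    set A := ∑ ξ ∈ Finset.univ.erase one, (m ξ : ℝ) * e ξ with hA
    set B := ∑ ξ ∈ Finset.univ.erase one, (m ξ : ℝ) * c ξ with hB
    have hdr : (2 : ℝ) ≤ d := by exact_mod_cast hd1
    have hlt : s * B < A := by
      rw [hB, hA, Finset.mul_sum]
      apply Finset.sum_lt_sum
      · intro ξ hξ
        have := (hne' ξ (Finset.ne_of_mem_erase hξ)).le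
        have h0 : (0 : ℝ) ≤ m ξ := by positivity
        nlinarith
      · -- some m ξ ≠ 0
        by_contra hcon
        push Not at hcon
        have h2 : A = 0 := by
          rw [hA]
          apply Finset.sum_eq_zero
          intro ξ hξ
          have h3 := hcon ξ hξ
          have h4 := hne' ξ (Finset.ne_of_mem_erase hξ)
          have h0 : (0 : ℝ) ≤ m ξ := by positivity
          have h5 : (m ξ : ℝ) * (e ξ - s * c ξ) ≤ 0 := by nlinarith
          have h6 : (m ξ : ℝ) = 0 := by
            by_contra h7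
            have h8 : (0 : ℝ) < m ξ := lt_of_le_of_ne h0 (fun h => h7 h.symm)
            have h9 : 0 < (m ξ : ℝ) * (e ξ - s * c ξ) := mul_pos h8 (by linarith)
            linarith
          rw [h6, zero_mul]
        rw [h2] at hdeg
        push_cast at hdeg
        nlinarith
    have hdeg' : A = (d : ℝ) ^ 2 - 1 := by
      push_cast at hdeg; linarith
    have hB' : (d : ℝ) - 1 ≤ B := by
      push_cast at hmult; linarith
    have h10 : s < 1 + d := by
      by_contra hcon
      push Not at hcon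
      have : (1 + d) * ((d : ℝ) - 1) ≤ s * B := by
        have h11 : (1 + (d : ℝ)) * (d - 1) ≤ s * (d - 1) := mul_le_mul_of_nonneg_right hcon (by linarith)
        have h12 : s * ((d : ℝ) - 1) ≤ s * B := mul_le_mul_of_nonneg_left hB' hspos.le
        linarith
      nlinarith
    rw [hd, Complex.natCast_re, ← hs2]
    exact pow_lt_pow_left₀ h10 hspos.le (by norm_num)

end Cfsg.Agent.S0898
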