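import Cfsg.Statements.S0900
import Mathlib
import Cfsg.Agent.LibClifford2
-- import your own Cfsg.Agent.* helpers here

set_option autoImplicit false
open Cfsg

namespace Cfsg.Agent.S0900

open CfsgLib.CharBasic CfsgLib.CharIndA CfsgLib.CharNorm CfsgLib.Clifford
open scoped ComplexConjugate

theorem self_le {G : Type*} [Group G] [Fintype G] (N : Subgroup G) [Fintype N] (χ : G → ℂ) (hχ : Cfsg.IsIrrCharacter G χ)
    {r : ℝ} (hr : classInner (fun n : N => χ n) (fun n : N => χ n) = (r : ℂ)) :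
    r * Nat.card N ≤ Nat.card G ∧ (r * Nat.card N = Nat.card G ↔ ∀ g : G, g ∉ N → χ g = 0) := by
  classical
  have h1 := irr_inner_self hχ
  rw [inner_self_eq] at h1 hr
  have h2 : ((Nat.card G : ℝ)⁻¹ * ∑ g : G, ‖χ g‖ ^ 2 : ℝ) = 1 := by exact_mod_cast h1
  have h3 : ((Nat.card N : ℝ)⁻¹ * ∑ g : N, ‖χ g‖ ^ 2 : ℝ) = r := by exact_mod_cast hr
  have hG : (Nat.card G : ℝ) ≠ 0 := by exact_mod_cast Nat.card_pos.ne'
  have hN : (Nat.card N : ℝ) ≠ 0 := by exact_mod_cast Nat.card_pos.ne'
  rw [inv_mul_eq_iff_eq_mul₀ hG, mul_one] at h2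
  rw [inv_mul_eq_iff_eq_mul₀ hN, mul_comm] at h3
  have h4 : ∑ g : N, ‖χ g‖ ^ 2 = ∑ g ∈ Finset.univ.filter (fun g : G => g ∈ N), ‖χ g‖ ^ 2 := by
    rw [Finset.sum_subtype (Finset.univ.filter (fun g : G => g ∈ N)) (p := fun g => g ∈ N) (by simp)]
  have h5 := Finset.sum_filter_add_sum_filter_not Finset.univ (fun g : G => g ∈ N) (fun g => ‖χ g‖ ^ 2)
  rw [← h4, h3, h2] at h5
  have h6 : 0 ≤ ∑ g ∈ Finset.univ.filter (fun g : G => g ∉ N), ‖χ g‖ ^ 2 := Finset.sum_nonneg fun _ _ => by positivity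
  refine ⟨by linarith, ?_, ?_⟩
  · intro heq g hg
    have h7 : ∑ g ∈ Finset.univ.filter (fun g : G => g ∉ N), ‖χ g‖ ^ 2 = 0 := by linarith
    rw [Finset.sum_eq_zero_iff_of_nonneg (fun _ _ => by positivity)] at h7
    have h8 := h7 g (Finset.mem_filter.2 ⟨Finset.mem_univ _, hg⟩)
    simpa using h8
  · intro h0
    have h7 : ∑ g ∈ Finset.univ.filter (fun g : G => g ∉ N), ‖χ g‖ ^ 2 = 0 := by
      apply Finset.sum_eq_zero
      intro g hg
      rw [h0 g (Finset.mem_filter.1 hg).2]; simp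
    linarith

/-- Let N be a normal subgroup of the finite group G, χ an irreducible character of G and ϑ an irreducible character of N having nonzero inner product with the restriction of χ. Consider: (a) the restriction of χ to N is e • ϑ for a natural number e with e ^ 2 equal to the index of N; (b) χ vanishes outside N and ϑ is invariant under conjugation by G; (c) ϑ is invariant and every irreducible character of G having nonzero inner product with the function induced from ϑ equals χ. Then (a) ↔ (b) and (a) ↔ (c). -/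
theorem result {G : Type*} [Group G] [Fintype G] (N : Subgroup G) [hN : N.Normal] [Fintype N] (χ : G → ℂ) (hχ : Cfsg.IsIrrCharacter G χ) (ϑ : N → ℂ) (hϑ : Cfsg.IsIrrCharacter N ϑ) (hcon : Cfsg.classInner (fun n : N => χ n) ϑ ≠ 0) : ((∃ e : ℕ, (fun n : N => χ n) = (e : ℂ) • ϑ ∧ e ^ 2 = N.index) ↔ ((∀ g : G, g ∉ N → χ g = 0) ∧ ∀ (g : G) (n : N), ϑ ⟨g * n * g⁻¹, hN.conj_mem (n : G) n.2 g⟩ = ϑ n)) ∧ ((∃ e : ℕ, (fun n : N => χ n) = (e : ℂ) • ϑ ∧ e ^ 2 = N.index) ↔ (∀ (g : G) (n : N), ϑ ⟨g * n * g⁻¹, hN.conj_mem (n : G) n.2 g⟩ = ϑ n ∧ ∀ ψ : G → ℂ, Cfsg.IsIrrCharacter G ψ → Cfsg.classInner (Cfsg.indFun N ϑ) ψ ≠ 0 → ψ = χ)) := by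
    classical
    have hinv_iff : (∀ (g : G) (n : N), ϑ ⟨g * n * g⁻¹, hN.conj_mem (n : G) n.2 g⟩ = ϑ n) ↔ ∀ g, cj hN g ϑ = ϑ := by
      constructor
      · intro h g; ext n; exact h g n
      · intro h g n; exact congrFun (h g) n
    obtain ⟨e, he⟩ := char_mult (isCharacter_restrict (irr_isCharacter hχ) N) (irr_isCharacter hϑ)
    have he0 : (e : ℂ) ≠ 0 := by rw [← he]; exact hcon
    have hGN : (Nat.card G : ℝ) = N.index * Nat.card N := by
      rw [← Nat.cast_mul, Subgroup.index_mul_card]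
    have hN0 : (Nat.card N : ℝ) ≠ 0 := by exact_mod_cast Nat.card_pos.ne'
    -- if invariant
    have hres : (∀ g, cj hN g ϑ = ϑ) → (fun n : N => χ n) = (e : ℂ) • ϑ := by
      intro h
      rw [← he]; exact restrict_of_invariant hN hχ hϑ h hcon
    -- if restriction is a multiple of θ, the multiple is e and θ is invariant
    have hmul : ∀ e' : ℕ, (fun n : N => χ n) = (e' : ℂ) • ϑ → e' = e ∧ ∀ g, cj hN g ϑ = ϑ := by
      intro e' h
      have h1 : classInner (fun n : N => χ n) ϑ = e' := by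
        rw [h, ci_smul_l, irr_inner_self hϑ, mul_one]
      have h2 : e' = e := by rw [he] at h1; exact_mod_cast h1.symm
      refine ⟨h2, fun g => ?_⟩
      have h3 := cj_restrict hN g (irr_classFun hχ)
      rw [h, h2] at h3
      have h4 : (e : ℂ) • cj hN g ϑ = (e : ℂ) • ϑ := h3
      exact smul_right_injective _ he0 h4
    have hself : (fun n : N => χ n) = (e : ℂ) • ϑ → classInner (fun n : N => χ n) (fun n : N => χ n) = (((e : ℝ) ^ 2 : ℝ) : ℂ) := by
      intro h
      rw [h, ci_smul_l, ci_smul_r, irr_inner_self hϑ]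
      simp
      ring
    have hidx_iff : (fun n : N => χ n) = (e : ℂ) • ϑ → (e ^ 2 = N.index ↔ ∀ g : G, g ∉ N → χ g = 0) := by
      intro h
      have h1 := (self_le N χ hχ (hself h)).2
      rw [← h1, hGN, mul_left_inj' hN0]
      constructor
      · intro h2; rw [← h2]; push_cast; rfl
      · intro h2; exact_mod_cast h2
    have hA : (∃ e : ℕ, (fun n : N => χ n) = (e : ℂ) • ϑ ∧ e ^ 2 = N.index) ↔ ((∀ g, cj hN g ϑ = ϑ) ∧ e ^ 2 = N.index) := by
      constructor
      · rintro ⟨e', h1, h2⟩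
        obtain ⟨h3, h4⟩ := hmul e' h1
        exact ⟨h4, by rw [← h3]; exact h2⟩
      · rintro ⟨h1, h2⟩
        exact ⟨e, hres h1, h2⟩
    have hindself : (∀ g, cj hN g ϑ = ϑ) → classInner (indFun N ϑ) (indFun N ϑ) = N.index := by
      intro h
      rw [ci_ind_self hN hϑ]
      have h1 : inertia hN ϑ = ⊤ := by
        ext g; exact ⟨fun _ => trivial, fun _ => h g⟩
      rw [h1, Subgroup.card_top, inv_mul_eq_iff_eq_mul₀ (by exact_mod_cast Nat.card_pos.ne'), ← Nat.cast_mul, Subgroup.card_mul_index]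
    have hindχ : classInner (indFun N ϑ) χ = e := by
      rw [frobenius N ϑ (irr_classFun hχ), ← CfsgLib.CharBasic.inner_conj_symm, he]; simp
    have hχind : classInner χ (indFun N ϑ) = e := by
      rw [frobenius' N ϑ (irr_classFun hχ), he]
    constructor
    · rw [hA, hinv_iff]
      constructor
      · rintro ⟨h1, h2⟩
        exact ⟨(hidx_iff (hres h1)).1 h2, h1⟩
      · rintro ⟨h1, h2⟩
        exact ⟨h2, (hidx_iff (hres h2)).2 h1⟩
    · rw [hA]
      constructor
      · rintro ⟨h1, h2⟩ g n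
        refine ⟨hinv_iff.2 h1 g n, fun ψ hψ hne => ?_⟩
        have h3 : indFun N ϑ = (e : ℂ) • χ := by
          rw [← sub_eq_zero]
          apply CfsgLib.CharBasic.inner_self_eq_zero
          rw [ci_sub_l, ci_sub_r, ci_sub_r, ci_smul_l, ci_smul_l, ci_smul_r, ci_smul_r, hindself h1, hindχ, hχind, irr_inner_self hχ,
            ← h2]
          push_cast
          simp
          ring
        by_contra hne'
        apply hne
        rw [h3, ci_smul_l, irr_inner_ne hχ hψ (fun h => hne' h.symm), mul_zero]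
      · intro h
        have h1 : ∀ g, cj hN g ϑ = ϑ := hinv_iff.1 fun g n => (h g n).1
        refine ⟨h1, ?_⟩
        have h2 := (h 1 1).2
        have h3 : indFun N ϑ = (e : ℂ) • χ := by
          apply classFun_ext (ind_classFun N ϑ) (classFun_smul _ (irr_classFun hχ))
          intro ψ hψ
          by_cases hψχ : ψ = χ
          · rw [hψχ, hindχ, ci_smul_l, irr_inner_self hχ, mul_one]
          · rw [ci_smul_l, irr_inner_ne hχ hψ (fun h => hψχ h.symm), mul_zero]
            by_contra h4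
            exact hψχ (h2 ψ hψ h4)
        have h4 := hindself h1
        rw [h3, ci_smul_l, ci_smul_r, irr_inner_self hχ] at h4
        simp at h4
        have h5 : ((e ^ 2 : ℕ) : ℂ) = (N.index : ℂ) := by
          push_cast; rw [sq]; exact h4
        exact_mod_cast h5

end Cfsg.Agent.S0900
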