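import Cfsg.Statements.S0903
import Cfsg.Agent.EqBase

set_option autoImplicit false
open Cfsg

namespace Cfsg.Agent.S0903

/-- Let P be a p-subgroup of the finite group G, let c centralize P and let g, h ∈ G. The number of pairs (x, y) with x conjugate to g, y conjugate to h and x * y = c is congruent modulo p to the number of such pairs in which x and y both centralize P. (This is why the Brauer map on class sums is multiplicative.) -/
theorem result {G : Type*} [Group G] [Finite G] (p : ℕ) [Fact p.Prime] (P : Subgroup G) (hP : IsPGroup p P) (c : G) (hc : c ∈ Subgroup.centralizer (P : Set G)) (g h : G) : Nat.card {xy : G × G // IsConj g xy.1 ∧ IsConj h xy.2 ∧ xy.1 * xy.2 = c} ≡ Nat.card {xy : G × G // IsConj g xy.1 ∧ IsConj h xy.2 ∧ xy.1 * xy.2 = c ∧ xy.1 ∈ Subgroup.centralizer (P : Set G) ∧ xy.2 ∈ Subgroup.centralizer (P : Set G)} [MOD p] := by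
  classical
  set X := {xy : G × G // IsConj g xy.1 ∧ IsConj h xy.2 ∧ xy.1 * xy.2 = c} with hX
  letI act : MulAction P X :=
    { smul := fun q xy => ⟨((q : G) * xy.1.1 * (q : G)⁻¹, (q : G) * xy.1.2 * (q : G)⁻¹), by
        refine ⟨xy.2.1.trans (isConj_iff.mpr ⟨q, rfl⟩), xy.2.2.1.trans (isConj_iff.mpr ⟨q, rfl⟩), ?_⟩
        have h1 := Subgroup.mem_centralizer_iff.mp hc q q.2
        have h2 : (q : G) * xy.1.1 * (q : G)⁻¹ * ((q : G) * xy.1.2 * (q : G)⁻¹) =
          (q : G) * (xy.1.1 * xy.1.2) * (q : G)⁻¹ := by group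
        change (q : G) * xy.1.1 * (q : G)⁻¹ * ((q : G) * xy.1.2 * (q : G)⁻¹) = c
        rw [h2, xy.2.2.2, h1]; group⟩
      one_smul := by
        rintro ⟨⟨x, y⟩, hxy⟩
        apply Subtype.ext
        change (((1 : P) : G) * x * ((1 : P) : G)⁻¹, ((1 : P) : G) * y * ((1 : P) : G)⁻¹) = (x, y)
        simp
      mul_smul := by
        rintro a b ⟨⟨x, y⟩, hxy⟩
        apply Subtype.ext
        change (((a * b : P) : G) * x * ((a * b : P) : G)⁻¹, ((a * b : P) : G) * y * ((a * b : P) : G)⁻¹) =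
          ((a : G) * ((b : G) * x * (b : G)⁻¹) * (a : G)⁻¹, (a : G) * ((b : G) * y * (b : G)⁻¹) * (a : G)⁻¹)
        ext <;> (push_cast; group) }
  have key := hP.card_modEq_card_fixedPoints X
  refine key.trans ?_
  rw [show Nat.card (MulAction.fixedPoints P X) = Nat.card {xy : G × G // IsConj g xy.1 ∧ IsConj h xy.2 ∧ xy.1 * xy.2 = c ∧ xy.1 ∈ Subgroup.centralizer (P : Set G) ∧ xy.2 ∈ Subgroup.centralizer (P : Set G)} from ?_]
  apply Nat.card_congr
  refine ⟨fun x => ⟨x.1.1, x.1.2.1, x.1.2.2.1, x.1.2.2.2, ?_, ?_⟩, fun x => ⟨⟨x.1, x.2.1, x.2.2.1, x.2.2.2.1⟩, ?_⟩, ?_, ?_⟩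
  · rw [Subgroup.mem_centralizer_iff]
    intro q hq
    have h1 := x.2 ⟨q, hq⟩
    have h2 : q * x.1.1.1 * q⁻¹ = x.1.1.1 := congrArg (fun z : X => z.1.1) h1
    calc q * x.1.1.1 = (q * x.1.1.1 * q⁻¹) * q := by group
      _ = _ := by rw [h2]
  · rw [Subgroup.mem_centralizer_iff]
    intro q hq
    have h1 := x.2 ⟨q, hq⟩
    have h2 : q * x.1.1.2 * q⁻¹ = x.1.1.2 := congrArg (fun z : X => z.1.2) h1
    calc q * x.1.1.2 = (q * x.1.1.2 * q⁻¹) * q := by group
      _ = _ := by rw [h2]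
  · intro q
    apply Subtype.ext
    change ((q : G) * x.1.1 * (q : G)⁻¹, (q : G) * x.1.2 * (q : G)⁻¹) = x.1
    have h1 := Subgroup.mem_centralizer_iff.mp x.2.2.2.2.1 q q.2
    have h2 := Subgroup.mem_centralizer_iff.mp x.2.2.2.2.2 q q.2
    rw [h1, h2]
    ext <;> simp
  · intro x; rfl
  · intro x; rfl

end Cfsg.Agent.S0903
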