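import Cfsg.Statements.S0905
import Cfsg.Agent.LibBlockNil

set_option autoImplicit false
open Cfsg

namespace Cfsg.Agent.S0905

/-- Let F be a field of characteristic p and let g be an element of the finite group G no conjugate of which centralizes O_p(G). Then the class sum of g is a nilpotent element of the group algebra F[G]. -/
theorem result {G : Type*} [Group G] [Finite G] (p : ℕ) [Fact p.Prime] (F : Type*) [Field F] [CharP F p] (g : G) (hg : ∀ x : G, IsConj g x → x ∉ Subgroup.centralizer (Cfsg.pCore p G : Set G)) : IsNilpotent (∑ᶠ x ∈ ConjClasses.carrier (ConjClasses.mk g), MonoidAlgebra.single x (1 : F) : MonoidAlgebra F G) := by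
  classical
  letI : Fintype G := Fintype.ofFinite G
  exact CfsgLib.BlockNil.class_sum_nilpotent F g (pCore p G) (CfsgLib.Cores.pCore_isPGroup p) hg

end Cfsg.Agent.S0905
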