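import Cfsg.Statements.S0939
import Cfsg.Agent.LibBlockCov4
import Cfsg.Agent.LibCores

set_option autoImplicit false
open Cfsg

namespace Cfsg.Agent.S0939
open CfsgLib.CharInt hiding irr_isCharacter irr_classFun irr_one_ne_zero schur_scalar
open CfsgLib.CharInt2 CfsgLib.CharBasic CfsgLib.BlockR CfsgLib.BlockCore CfsgLib.BlockCount2
  CfsgLib.BlockIdem CfsgLib.BlockBrauer CfsgLib.BlockInd CfsgLib.BlockOrth CfsgLib.BlockQP
  CfsgLib.Clifford CfsgLib.BlockCov CfsgLib.BlockCov2 CfsgLib.BlockCov3 CfsgLib.BlockCov4
open scoped ComplexConjugate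

/-- Let G be a finite group with a normal p-complement (the largest normal subgroup O_p'(G) of order prime to p has p-power index). Then, relative to any maximal ideal M of the algebraic integers containing p, the principal block of G is the set of irreducible characters χ with χ n = χ 1 for every n ∈ O_p'(G). -/
theorem result {G : Type*} [Group G] [Finite G] (p : ℕ) [Fact p.Prime] (M : Ideal Cfsg.AlgInt) (hM : Cfsg.IsPModular p M) (hnc : ∃ k : ℕ, (Cfsg.pPrimeCore p G).index = p ^ k) : Cfsg.principalBlock M G = {χ : Cfsg.IrrCharacter G | ∀ n ∈ Cfsg.pPrimeCore p G, (χ : G → ℂ) n = (χ : G → ℂ) 1} := by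

  classical
  letI : Fintype G := Fintype.ofFinite G
  letI : Fintype (pPrimeCore p G) := Fintype.ofFinite _
  haveI : (pPrimeCore p G).Normal := inferInstance
  exact principal_of_complement (pPrimeCore p G) hM
    (fun h => (Fact.out : p.Prime).coprime_iff_not_dvd.mp (CfsgLib.Cores.pPrimeCore_coprime p).symm h) hnc

end Cfsg.Agent.S0939
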