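import Cfsg.Statements.S0941
import Cfsg.Agent.LibBlockCov4

set_option autoImplicit false
open Cfsg

namespace Cfsg.Agent.S0941
open CfsgLib.CharInt hiding irr_isCharacter irr_classFun irr_one_ne_zero schur_scalar
open CfsgLib.CharInt2 CfsgLib.CharBasic CfsgLib.BlockR CfsgLib.BlockCore CfsgLib.BlockCount2
  CfsgLib.BlockIdem CfsgLib.BlockBrauer CfsgLib.BlockInd CfsgLib.BlockOrth CfsgLib.BlockQP
  CfsgLib.Clifford CfsgLib.BlockCov CfsgLib.BlockCov2 CfsgLib.BlockCov3 CfsgLib.BlockCov4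
open scoped ComplexConjugate

/-- Let P be a normal p-subgroup of the finite group G such that the index of C_G(P) is a power of p, and fix a maximal ideal M of the algebraic integers containing p. Then (i) two irreducible characters of G ⧸ P lie in the same block if and only if their inflations to G do, and (ii) every block of G contains the inflation of some irreducible character of G ⧸ P; so inflation induces a bijection between the blocks of G ⧸ P and the blocks of G. -/
theorem result {G : Type*} [Group G] [Finite G] (p : ℕ) [Fact p.Prime] (M : Ideal Cfsg.AlgInt) (hM : Cfsg.IsPModular p M) (P : Subgroup G) [P.Normal] (hP : IsPGroup p P) (hC : ∃ k : ℕ, (Subgroup.centralizer (P : Set G)).index = p ^ k) : (∀ χ ψ : Cfsg.IrrCharacter (G ⧸ P), Cfsg.SameBlock M (χ : G ⧸ P → ℂ) (ψ : G ⧸ P → ℂ) ↔ Cfsg.SameBlock M ((χ : G ⧸ P → ℂ) ∘ QuotientGroup.mk) ((ψ : G ⧸ P → ℂ) ∘ QuotientGroup.mk)) ∧ ∀ B : Set (Cfsg.IrrCharacter G), Cfsg.IsPBlock M B → ∃ χ : Cfsg.IrrCharacter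 (G ⧸ P), ∃ θ ∈ B, (θ : G → ℂ) = (χ : G ⧸ P → ℂ) ∘ QuotientGroup.mk := by

  classical
  letI : Fintype G := Fintype.ofFinite G
  have h0 : ∀ χ : IrrCharacter (G ⧸ P), (infl P χ : G → ℂ) = (χ : G ⧸ P → ℂ) ∘ QuotientGroup.mk := by
    intro χ; funext g; exact infl_apply P χ g
  refine ⟨fun χ ψ => ?_, fun B hB => ?_⟩
  · rw [← h0, ← h0]
    exact sameBlock_infl_iff hM hP hC χ ψ
  · obtain ⟨ξ, hξ⟩ := exists_infl_mem hM hP hB
    exact ⟨ξ, infl P ξ, hξ, h0 ξ⟩

end Cfsg.Agent.S0941
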