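import Cfsg.Statements.S0944
import Cfsg.Agent.LibCharIndA
import Cfsg.Agent.LibCharInt2

set_option autoImplicit false
open Cfsg

namespace Cfsg.Agent.S0944


/-- Let χ be an irreducible character of the finite group G and u an involution. Then χ u is a rational integer n with n ≡ χ 1 (mod 2). -/
theorem result {G : Type*} [Group G] [Finite G] (χ : Cfsg.IrrCharacter G) (u : G) (hu : orderOf u = 2) : ∃ n : ℤ, (χ : G → ℂ) u = (n : ℂ) ∧ (2 : ℤ) ∣ (Cfsg.charDegree (χ : G → ℂ) : ℤ) - n := by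
  classical
  letI : Fintype G := Fintype.ofFinite G
  letI : Fintype (Subgroup.zpowers u) := Fintype.ofFinite _
  have h3 : ∃ m : ℤ, Cfsg.classInner (fun s : (Subgroup.zpowers u) => (χ : G → ℂ) s)
      (fun _ : (Subgroup.zpowers u) => (1 : ℂ)) = m :=
    CfsgLib.CharBasic.gen_inner_int (CfsgLib.CharIndA.gen_restrict
      (CfsgLib.CharBasic.gen_of_irr χ.2) _)
      (CfsgLib.CharBasic.gen_of_irr CfsgLib.CharBasic.isIrrCharacter_one)
  obtain ⟨m, hm⟩ := h3
  have hdeg := CfsgLib.CharInt.irr_one_eq_charDegree χ.2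
  have hu2 : u ^ 2 = 1 := by rw [← hu, pow_orderOf_eq_one]
  have hcard : Nat.card (Subgroup.zpowers u) = 2 := by rw [Nat.card_zpowers, hu]
  have hu1 : u ≠ 1 := by rintro rfl; rw [orderOf_one] at hu; omega
  obtain ⟨U, hU⟩ : ∃ U : Subgroup.zpowers u, U = ⟨u, Subgroup.mem_zpowers u⟩ := ⟨_, rfl⟩
  have hU1 : (1 : Subgroup.zpowers u) ≠ U := by
    rw [hU]; intro h; exact hu1 (congrArg Subtype.val h).symm
  have huniv : (Finset.univ : Finset (Subgroup.zpowers u)) = {1, U} := by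
    symm
    apply Finset.eq_univ_of_card
    rw [Finset.card_pair hU1, ← Nat.card_eq_fintype_card, hcard]
  rw [CfsgLib.CharBasic.inner_one_right, huniv, Finset.sum_pair hU1, hcard, hU,
    OneMemClass.coe_one, hdeg] at hm
  have h4 : (χ : G → ℂ) u = 2 * m - ((Cfsg.charDegree (χ : G → ℂ) : ℕ) : ℂ) := by
    rw [← hm]; push_cast; ring
  refine ⟨2 * m - Cfsg.charDegree (χ : G → ℂ), ?_, ⟨Cfsg.charDegree (χ : G → ℂ) - m, by ring⟩⟩
  rw [h4]; push_cast; ring
end Cfsg.Agent.S0944
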