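import Cfsg.Statements.S0950
import Cfsg.Agent.LibQ8a

set_option autoImplicit false
open Cfsg

namespace Cfsg.Agent.S0950


/-- Let S be a Sylow 2-subgroup of the finite group G that is isomorphic to the quaternion group of order 8, and suppose S has no normal complement in G. Then any two subgroups of order 4 of S are conjugate by an element of the normalizer of S. -/
theorem result {G : Type*} [Group G] [Finite G] (S : Sylow 2 G) (e : (S : Subgroup G) ≃* QuaternionGroup 2) (hnc : ∀ N : Subgroup G, N.Normal → ¬ Subgroup.IsComplement' N (S : Subgroup G)) (A B : Subgroup G) (hA : A ≤ S) (hB : B ≤ S) (hA4 : Nat.card A = 4) (hB4 : Nat.card B = 4) : ∃ n ∈ Subgroup.normalizer ((S : Subgroup G) : Set G), B = A.map (MulAut.conj n).toMonoidHom := by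
  classical
  haveI : Fact (Nat.Prime 2) := ⟨Nat.prime_two⟩
  have h := CfsgLib.Q8.IsQ8.of_equiv e
  obtain ⟨t, ht⟩ : ∃ t, t = ((e.symm (QuaternionGroup.a 2) : (S : Subgroup G)) : G) := ⟨_, rfl⟩
  rw [← ht] at h
  have hnpc : ¬ ∃ N : Subgroup G, CfsgLib.TransPC.IsNPC 2 N := by
    rintro ⟨N, hN⟩
    exact hnc N hN.1 (hN.isComplement' S)
  have key : ∀ A : Subgroup G, A ≤ S → Nat.card A = 4 → ∃ x ∈ (S : Subgroup G), x ≠ 1 ∧ x ≠ t ∧
      A = Subgroup.zpowers x := by
    intro A hA hA4
    have hex : ∃ x ∈ A, x ≠ 1 ∧ x ≠ t := by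
      by_contra hcon
      push Not at hcon
      have hsub : (A : Set G) ⊆ ({1, t} : Set G) := by
        intro x hx
        by_cases h1 : x = 1
        · left; exact h1
        · right; exact hcon x hx h1
      have h1 := Set.ncard_le_ncard hsub (Set.toFinite _)
      have h2 : (A : Set G).ncard = 4 := by rw [← Nat.card_coe_set_eq]; exact hA4
      have h3 : ({1, t} : Set G).ncard ≤ 2 := Set.ncard_insert_le 1 {t} |>.trans (by simp)
      omega
    obtain ⟨x, hx, h1, h2⟩ := hex
    refine ⟨x, hA hx, h1, h2, ?_⟩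
    have h3 := h.sq x (hA hx) h1 h2
    have h4 : orderOf x = 2 ^ (1 + 1) := by
      apply orderOf_eq_prime_pow
      · rw [pow_one, pow_two, h3]; exact h.ne
      · norm_num
        rw [show (4 : ℕ) = 2 * 2 from rfl, pow_mul, pow_two x, h3, pow_two, h.tt]
    symm
    apply Subgroup.eq_of_le_of_card_ge
    · rwa [Subgroup.zpowers_le]
    · rw [Nat.card_zpowers, h4, hA4]; norm_num
  obtain ⟨x, hx, hx1, hx2, rfl⟩ := key A hA hA4
  obtain ⟨y, hy, hy1, hy2, rfl⟩ := key B hB hB4
  obtain ⟨n, hn, hny⟩ := CfsgLib.Q8.fusion S h hnpc hx hx1 hx2 hy hy1 hy2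
  refine ⟨n, hn, ?_⟩
  rw [MonoidHom.map_zpowers, ← hny]
  rfl
end Cfsg.Agent.S0950
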