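import Cfsg.Statements.S0951
import Cfsg.Agent.LibQ8g

set_option autoImplicit false
open Cfsg

namespace Cfsg.Agent.S0951


/-- Let S be a Sylow 2-subgroup of the finite group G isomorphic to the quaternion group of order 8. Suppose G has no nontrivial normal subgroup of odd order and G ≠ S. Then, relative to any maximal ideal M of the algebraic integers containing 2, the principal block of G consists of exactly 7 irreducible characters. -/
theorem result {G : Type*} [Group G] [Finite G] (M : Ideal Cfsg.AlgInt) (hM : Cfsg.IsPModular 2 M) (S : Sylow 2 G) (e : (S : Subgroup G) ≃* QuaternionGroup 2) (hO : ∀ N : Subgroup G, N.Normal → Odd (Nat.card N) → N = ⊥) (hG : (S : Subgroup G) ≠ ⊤) : Nat.card (Cfsg.principalBlock M G) = 7 := by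
  classical
  haveI : Fact (Nat.Prime 2) := ⟨Nat.prime_two⟩
  letI : Fintype G := Fintype.ofFinite G
  obtain ⟨t, ht⟩ : ∃ t, t = ((e.symm (QuaternionGroup.a 2) : (S : Subgroup G)) : G) := ⟨_, rfl⟩
  have hq := CfsgLib.Q8.IsQ8.of_equiv e
  rw [← ht] at hq
  have ht2 : orderOf t = 2 := orderOf_eq_prime (by rw [pow_two]; exact hq.tt) hq.ne
  have htS : t ∈ S := hq.mem
  have hiso : Cfsg.IsIsolatedInvolution t := (CfsgLib.Isolated.isolated_iff_sylow S ht2 htS).2
    (fun g hg => hq.unique hg (by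
      rw [Ne, mul_inv_eq_one]
      intro he
      exact hq.ne (by simpa using he)) (by
      calc g * t * g⁻¹ * (g * t * g⁻¹) = g * (t * t) * g⁻¹ := by group
      _ = 1 := by rw [hq.tt]; group))
  have hcore : Cfsg.oddCore G = ⊥ := hO _ inferInstance CfsgLib.ZStar.oddCore_odd
  have hcen : ∀ c : G, Commute c t := by
    intro c
    have h1 := CfsgLib.ZStar.zstar hiso c
    rw [hcore, Subgroup.mem_bot, mul_inv_eq_one, mul_inv_eq_iff_eq_mul] at h1
    exact h1.symm
  have hnpc : ¬ ∃ N : Subgroup G, CfsgLib.TransPC.IsNPC 2 N := by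
    rintro ⟨N, hN⟩
    have h1 : N = ⊥ := hO N hN.1 (by
      rw [← Nat.not_even_iff_odd, even_iff_two_dvd]; exact hN.2.1)
    have h2 := hN.isComplement' S
    rw [h1, Subgroup.isComplement'_bot_left] at h2
    exact hG h2
  have hctx : CfsgLib.Q8.CCtx G S t := ⟨hq, hcen, fun y hy h1 h2 y' hy' h1' h2' => by
    obtain ⟨n, -, hn⟩ := CfsgLib.Q8.fusion S hq hnpc hy h1 h2 hy' h1' h2'
    exact ⟨n, hn⟩⟩
  obtain ⟨e, e', he, he', hee⟩ := CfsgLib.PPChar.exists_exp (G := G) 2 Nat.prime_two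
  obtain ⟨ζ, δ, h1, h2, h3, h4, h5, h6, h7, h8⟩ := hctx.blocks hM he he' hee
  exact CfsgLib.Q8.Blk.card_seven (⟨hctx, hM, he, he', hee, h1, h2, h3, h4, h5, h6, h7, h8⟩ :
    CfsgLib.Q8.Blk G S t M e e' ζ δ)
end Cfsg.Agent.S0951
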