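import Cfsg.Statements.S0953
import Cfsg.Agent.LibBlockCount2

set_option autoImplicit false
open Cfsg

namespace Cfsg.Agent.S0953

/-- Let P be a Sylow p-subgroup of the finite group G with normalizer N, and fix a maximal ideal M of the algebraic integers containing p. The number of blocks of G having P as a defect group equals the number of conjugacy classes of N consisting of elements of order prime to p that centralize P. -/
theorem result {G : Type*} [Group G] [Finite G] (p : ℕ) [Fact p.Prime] (M : Ideal Cfsg.AlgInt) (hM : Cfsg.IsPModular p M) (P : Sylow p G) : Nat.card {B : Set (Cfsg.IrrCharacter G) // Cfsg.IsPBlock M B ∧ Cfsg.IsDefectGroup p M B (P : Subgroup G)} = Nat.card {C : ConjClasses (Subgroup.normalizer ((P : Subgroup G) : Set G)) // ∀ n : Subgroup.normalizer ((P : Subgroup G) : Set G), ConjClasses.mk n = C → ¬ p ∣ orderOf n ∧ (n : G) ∈ Subgroup.centralizer ((P : Subgroup G) : Set G)} := by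
  classical
  have hp := CfsgLib.BlockR.isPrime_of_modular hM
  set N := Subgroup.normalizer ((P : Subgroup G) : Set G) with hN
  have hPp : IsPGroup p (P : Subgroup G) := P.isPGroup'
  have hPN : (P : Subgroup G) ≤ N := Subgroup.le_normalizer
  have hP'p : IsPGroup p ((P : Subgroup G).subgroupOf N) := hPp.comap_subtype
  have hidx : ¬ p ∣ ((P : Subgroup G).subgroupOf N).index := by
    intro h
    apply P.not_dvd_index
    have h1 : (P : Subgroup G).relIndex N * N.index = (P : Subgroup G).index :=
      Subgroup.relIndex_mul_index hPN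
    rw [← h1]
    exact h.mul_right _
  haveI hnorm : ((P : Subgroup G).subgroupOf N).Normal :=
    CfsgLib.BlockFMT2.normal_subgroupOf_normalizer (P : Subgroup G)
  have hdef : ∀ b : Set (Cfsg.IrrCharacter N), Cfsg.IsPBlock M b →
      Cfsg.IsDefectGroup p M b ((P : Subgroup G).subgroupOf N) := fun b hb =>
    CfsgLib.BlockCount2.defectGroup_normal_sylow hM hP'p hidx hb
  have hup : ∀ b : {b : Set (Cfsg.IrrCharacter N) // Cfsg.IsPBlock M b},
      ∃ B : {B : Set (Cfsg.IrrCharacter G) // Cfsg.IsPBlock M B ∧
        Cfsg.IsDefectGroup p M B (P : Subgroup G)}, Cfsg.IsInducedBlock M N b.1 B.1 := by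
    intro b
    obtain ⟨B, hB, hD, hI⟩ := CfsgLib.BlockFMT2.fmt_up hM b.2 (hdef b.1 b.2)
    exact ⟨⟨B, hB, hD⟩, hI⟩
  choose f hf using hup
  have hbij : Function.Bijective f := by
    constructor
    · intro b b' h
      apply Subtype.ext
      refine CfsgLib.BlockFMT2.fmt_unique hM (hdef b.1 b.2) (hf b) (hdef b'.1 b'.2) ?_
      rw [h]; exact hf b'
    · intro B
      obtain ⟨b, hb, hD, hI⟩ := CfsgLib.BlockFMT2.fmt_down hM B.2.1 B.2.2
      refine ⟨⟨b, hb⟩, ?_⟩
      apply Subtype.ext
      exact CfsgLib.BlockInd.induced_unique hp (hf ⟨b, hb⟩) hI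
  rw [← Nat.card_congr (Equiv.ofBijective f hbij),
    CfsgLib.BlockCount2.card_blocks_normal_sylow hM hP'p hidx]
  have hcent : ∀ n : N, n ∈ Subgroup.centralizer (((P : Subgroup G).subgroupOf N : Subgroup N) : Set N) ↔
      (n : G) ∈ Subgroup.centralizer ((P : Subgroup G) : Set G) := by
    intro n
    rw [Subgroup.mem_centralizer_iff, Subgroup.mem_centralizer_iff]
    constructor
    · intro h x hx
      have := h ⟨x, hPN hx⟩ (Subgroup.mem_subgroupOf.mpr hx)
      exact congrArg Subtype.val this
    · intro h x hx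
      exact Subtype.ext (h x (Subgroup.mem_subgroupOf.mp hx))
  simp only [hcent]

end Cfsg.Agent.S0953
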