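import Cfsg.Statements.S0960
import Cfsg.Agent.LibOnceJ19

set_option autoImplicit false
open Cfsg

namespace Cfsg.Agent.S0960


/-- Let p be an odd prime and G a finite group whose Sylow p-subgroup P has order p; let e be the index of C_G(P) in N_G(P) (a divisor of p − 1) and fix a maximal ideal M of the algebraic integers containing p. Then the principal block of G consists of exactly e + (p - 1) / e irreducible characters, and the degree d of each of them satisfies d ≡ 1, d ≡ -1, d ≡ e or d ≡ -e modulo p. -/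
theorem result {G : Type*} [Group G] [Finite G] (p : ℕ) [Fact p.Prime] (M : Ideal Cfsg.AlgInt) (hM : Cfsg.IsPModular p M) (hodd : p ≠ 2) (P : Sylow p G) (hP : Nat.card P = p) (e : ℕ) (he : (Subgroup.centralizer ((P : Subgroup G) : Set G)).relIndex (Subgroup.normalizer ((P : Subgroup G) : Set G)) = e) : Nat.card (Cfsg.principalBlock M G) = e + (p - 1) / e ∧ ∀ χ ∈ Cfsg.principalBlock M G, ((Cfsg.charDegree (χ : G → ℂ) : ℤ) ≡ 1 [ZMOD p] ∨ (Cfsg.charDegree (χ : G → ℂ) : ℤ) ≡ -1 [ZMOD p] ∨ (Cfsg.charDegree (χ : G → ℂ) : ℤ) ≡ (e : ℤ) [ZMOD p] ∨ (Cfsg.charDegree (χ : G → ℂ) : ℤ) ≡ -(e : ℤ) [ZMOD p]) := by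
  classical
  letI := Fintype.ofFinite G
  have h := CfsgLib.Once19.once_of_sylow P hP
  obtain ⟨x, hx, h1, h2⟩ := CfsgLib.Once19.sylow_gen P hP
  obtain ⟨D, hDx, hth, hb, hθ⟩ := CfsgLib.Once19.exists_principal hM h hx
  letI : Fintype D.C := Fintype.ofFinite _
  have hC : Subgroup.centralizer ((P : Subgroup G) : Set G) = D.C := by rw [h2, ← hDx]
  have hN : Subgroup.normalizer ((P : Subgroup G) : Set G) = D.N := by
    rw [h1, ← hDx]
  rw [hC, hN] at he
  obtain ⟨Y, hYn, hYB, hYc, hBc, hYreg, δ, hδ, ε, hε, hYd, hrel⟩ := D.principal hM hth hb hθ he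
  have he0 : 0 < e := by
    rw [Nat.pos_iff_ne_zero]; rintro rfl
    rw [mul_zero] at hYc
    have := D.prime.two_le
    omega
  have hYq : Y.card = (p - 1) / e := by
    rw [← hYc]; exact (Nat.mul_div_cancel _ he0).symm
  refine ⟨by rw [hBc, hYq, add_comm], ?_⟩
  intro χ hχ
  by_cases hχY : χ ∈ Y
  · have := hYd χ hχY
    rcases hε with rfl | rfl
    · right; right; left; simpa using this
    · right; right; right; simpa using this
  · obtain ⟨a1, a2, -⟩ := hδ χ hχ hχY
    rcases a1 with a1 | a1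
    · left; rw [a1] at a2; exact a2
    · right; left; rw [a1] at a2; exact a2

end Cfsg.Agent.S0960
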