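import Cfsg.Statements.S0962
import Cfsg.Agent.LibBlockCount

set_option autoImplicit false
open Cfsg

namespace Cfsg.Agent.S0962

/-- Fix a maximal ideal M of the algebraic integers containing the prime p and a natural number d. The number of blocks of the finite group G of defect at least d is at most the number of conjugacy classes of p-regular elements of G of defect at least d, where the defect of a class is the exponent of p in the order of the centralizer of any of its elements. -/
theorem result {G : Type*} [Group G] [Finite G] (p : ℕ) [Fact p.Prime] (M : Ideal Cfsg.AlgInt) (hM : Cfsg.IsPModular p M) (d : ℕ) : Nat.card {B : Set (Cfsg.IrrCharacter G) // Cfsg.IsPBlock M B ∧ d ≤ Cfsg.blockDefect p B} ≤ Nat.card {C : ConjClasses G // ∃ g : G, ConjClasses.mk g = C ∧ Cfsg.IsPRegular p g ∧ d ≤ (Nat.card (Subgroup.centralizer ({g} : Set G))).factorization p} := by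
  classical
  have hp := CfsgLib.BlockR.isPrime_of_modular hM
  apply CfsgLib.BlockCount.card_blocks_le hp
  intro B B' hB hdB hB' hdB' C hC χ hχ
  by_cases hreg : p ∣ orderOf (Quotient.out C : G)
  · rw [← CfsgLib.BlockIdem.blockCoeff_eq_fou, CfsgLib.BlockOrth.blockCoeff_eq_zero hM hB hreg,
      zero_mul]
    exact CfsgLib.BlockR.ideal_zero hp
  · apply CfsgLib.BlockR.ideal_mul_left hp (CfsgLib.BlockIdem.AR_ind_block hp hB _)
    by_contra hcon
    apply hC
    exact ⟨Quotient.out C, CfsgLib.BlockCount.mk_out C, hreg,
      hdB'.trans (CfsgLib.BlockCount.defect_le_of_cent hM hB' hχ hcon)⟩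

end Cfsg.Agent.S0962
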