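import Cfsg.Statements.S0987
import Mathlib
import Cfsg.Agent.LibSmallSyl
-- import your own Cfsg.Agent.* helpers here

set_option autoImplicit false
open Cfsg

namespace Cfsg.Agent.S0987

open MulAction

theorem normal_of_two {G : Type*} [Group G] [Finite G] (q r : ℕ) (hq : q.Prime) [Fact r.Prime] (hqr : q < r)
    (hG : Nat.card G = q * r) (R : Sylow r G) : (R : Subgroup G).Normal := by
  classical
  have hr : Fact r.Prime := inferInstance
  apply CfsgLib.SmallSyl.normal_of_card_one
  have h2 : Nat.card (Sylow r G) ≡ 1 [MOD r] := card_sylow_modEq_one r G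
  have h3 : Nat.card (Sylow r G) ∣ q := CfsgLib.SmallSyl.card_sylow_dvd (n := 1) (p := r) (by rw [hG, pow_one, mul_comm]) (by
    intro h
    exact absurd ((Nat.prime_dvd_prime_iff_eq hr.out hq).mp h) hqr.ne')
  rcases (Nat.dvd_prime hq).mp h3 with h5 | h5
  · exact h5
  · rw [h5] at h2
    have h6 : q % r = 1 % r := h2
    rw [Nat.mod_eq_of_lt hqr, Nat.mod_eq_of_lt hr.out.one_lt] at h6
    exact absurd h6 hq.one_lt.ne'

/-- If a finite group has order pqr for primes p < q < r, then its Sylow r-subgroups are normal. -/
theorem result {G : Type*} [Group G] [Finite G] (p q r : ℕ) (hp : p.Prime) (hq : q.Prime) [Fact r.Prime] (hpq : p < q) (hqr : q < r) (hG : Nat.card G = p * q * r) (R : Sylow r G) : (R : Subgroup G).Normal := by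
  classical
  have hr : Fact r.Prime := inferInstance
  have hpF : Fact p.Prime := ⟨hp⟩
  have hp2 := hp.two_le
  have hq2 := hq.two_le
  have hr2 := hr.out.two_le
  have hpq' : p ≠ q := hpq.ne
  have hpr' : p ≠ r := (hpq.trans hqr).ne
  let P : Sylow p G := default
  have hcop : p.Coprime (q * r) := Nat.Coprime.mul_right ((Nat.coprime_primes hp hq).mpr hpq') ((Nat.coprime_primes hp hr.out).mpr hpr')
  have hPcard : Nat.card (P : Subgroup G) = p := by
    rw [CfsgLib.SmallSyl.card_sylow (n := 1) (m := q * r) (by rw [hG, pow_one, mul_assoc]) (by rw [← Nat.Prime.coprime_iff_not_dvd hp]; exact hcop) P, pow_one]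
  have hmin : (Nat.card G).minFac = p := by
    rw [hG]
    apply le_antisymm
    · exact Nat.minFac_le_of_dvd hp2 (by rw [mul_assoc]; exact dvd_mul_right _ _)
    · have hs := Nat.minFac_prime (n := p * q * r) (by
        have : 2 ≤ p * q * r := by
          calc 2 ≤ p := hp2
            _ ≤ p * (q * r) := Nat.le_mul_of_pos_right _ (by positivity)
            _ = p * q * r := by ring
        omega)
      have hsd := Nat.minFac_dvd (p * q * r)
      set s := (p * q * r).minFac
      rcases (Nat.Prime.dvd_mul hs).mp hsd with h | h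
      · rcases (Nat.Prime.dvd_mul hs).mp h with h | h
        · rw [(Nat.prime_dvd_prime_iff_eq hs hp).mp h]
        · rw [(Nat.prime_dvd_prime_iff_eq hs hq).mp h]; exact hpq.le
      · rw [(Nat.prime_dvd_prime_iff_eq hs hr.out).mp h]; omega
  have hcyc : IsCyclic P := isCyclic_of_prime_card hPcard
  have hcomp := IsCyclic.isComplement' hmin (P := P) hcyc
  set K := (MonoidHom.transferSylow P (IsCyclic.normalizer_le_centralizer hmin hcyc)).ker with hK
  have hKcard : Nat.card K = q * r := by
    have h1 := hcomp.card_mul_card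
    rw [hPcard, hG] at h1
    have h2 : p * Nat.card K = p * (q * r) := by rw [mul_comm, h1, mul_assoc]
    exact Nat.eq_of_mul_eq_mul_left hp.pos h2
  have hKidx : K.index = p := by
    have := Subgroup.card_mul_index K
    rw [hKcard, hG] at this
    have h2 : (q * r) * K.index = (q * r) * p := by rw [this]; ring
    exact Nat.eq_of_mul_eq_mul_left (by positivity) h2
  -- R is contained in K
  have hRcard : Nat.card (R : Subgroup G) = r := by
    rw [CfsgLib.SmallSyl.card_sylow (n := 1) (m := p * q) (by rw [hG, pow_one, mul_comm]) (by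
      intro h
      rcases (Nat.Prime.dvd_mul hr.out).mp h with h | h
      · exact hpr' ((Nat.prime_dvd_prime_iff_eq hr.out hp).mp h).symm
      · exact hqr.ne' ((Nat.prime_dvd_prime_iff_eq hr.out hq).mp h)) R, pow_one]
  have hRK : (R : Subgroup G) ≤ K := by
    apply CfsgLib.SmallSyl.le_normal_of_coprime_index
    rw [hKidx, hRcard]
    exact ((Nat.coprime_primes hp hr.out).mpr hpr').symm
  have hRn : ((R.subtype hRK : Sylow r K) : Subgroup K).Normal := normal_of_two q r hq hqr hKcard _
  have hchar := Sylow.characteristic_of_normal (R.subtype hRK) hRn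
  have h5 : ((R.subtype hRK : Sylow r K) : Subgroup K).map K.subtype = R := by
    rw [Sylow.coe_subtype]
    exact Subgroup.map_subgroupOf_eq_of_le hRK
  rw [← h5]
  infer_instance

end Cfsg.Agent.S0987
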