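import Cfsg.Statements.S0989
import Mathlib

-- import your own Cfsg.Agent.* helpers here

set_option autoImplicit false
open Cfsg

namespace Cfsg.Agent.S0989

open Equiv.Perm

/-- In the symmetric group on p or p + 1 letters, p a prime, the normalizer of a Sylow p-subgroup has order p * (p - 1). -/
theorem result {α : Type*} [Fintype α] [DecidableEq α] (p : ℕ) [Fact p.Prime] (hα : Fintype.card α = p ∨ Fintype.card α = p + 1) (P : Sylow p (Equiv.Perm α)) : Nat.card ↥(Subgroup.normalizer ((P : Subgroup (Equiv.Perm α)) : Set (Equiv.Perm α))) = p * (p - 1) := by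
  classical
  have hp : Fact p.Prime := inferInstance
  set n := Fintype.card α with hn
  have hpn : p ∣ n.factorial := by
    rw [hp.out.dvd_factorial]; omega
  have hp2n : ¬ p ^ 2 ∣ n.factorial := by
    intro h
    have h0 : ¬ p ^ 2 ∣ p.factorial := by
      intro h4
      have h5 : p.factorial = p * (p - 1).factorial := (Nat.mul_factorial_pred hp.out.ne_zero).symm
      rw [h5, pow_two] at h4
      have h6 : p ∣ (p - 1).factorial := Nat.dvd_of_mul_dvd_mul_left hp.out.pos h4
      rw [hp.out.dvd_factorial] at h6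
      have := hp.out.pos
      omega
    rcases hα with h1 | h1
    · rw [h1] at h; exact h0 h
    · rw [h1, Nat.factorial_succ] at h
      apply h0
      have hc : Nat.Coprime (p ^ 2) (p + 1) := by
        apply Nat.Coprime.pow_left
        simp
      exact hc.dvd_of_dvd_mul_left h
  have hG : Nat.card (Equiv.Perm α) = n.factorial := by
    rw [Nat.card_perm, Nat.card_eq_fintype_card]
  have hPcard : Nat.card P = p := by
    obtain ⟨m, hm⟩ := IsPGroup.iff_card.mp P.2
    have h1 : p ∣ Nat.card P := P.dvd_card_of_dvd_card (by rw [hG]; exact hpn)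
    have h2 : Nat.card P ∣ n.factorial := by rw [← hG]; exact Subgroup.card_subgroup_dvd_card _
    have hm1 : m ≤ 1 := by
      by_contra hcon
      apply hp2n
      refine dvd_trans ?_ h2
      rw [hm]
      exact pow_dvd_pow p (by omega)
    interval_cases m
    · rw [hm, pow_zero] at h1
      exact absurd (Nat.dvd_one.mp h1) hp.out.ne_one
    · rw [hm, pow_one]
  obtain ⟨σ, hσ⟩ := exists_prime_orderOf_dvd_card' (G := P) p (by rw [show Nat.card (P : Subgroup (Equiv.Perm α)) = p from hPcard])
  have hct : ∀ τ : P, orderOf τ = p → (τ : Equiv.Perm α).cycleType = {p} := by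
    intro τ hτ
    have h0 : orderOf (τ : Equiv.Perm α) = p := by rw [Subgroup.orderOf_coe, hτ]
    obtain ⟨k, hk⟩ := cycleType_prime_order (σ := (τ : Equiv.Perm α)) (by rw [h0]; exact hp.out)
    have h1 := Equiv.Perm.sum_cycleType (τ : Equiv.Perm α)
    have h2 := Finset.card_le_univ (τ : Equiv.Perm α).support
    rw [← h1, hk, Multiset.sum_replicate, h0, smul_eq_mul] at h2
    have h3 := hp.out.two_le
    have h4 : k = 0 := by
      by_contra hk0
      have : 2 * p ≤ (k + 1) * p := Nat.mul_le_mul_right _ (by omega)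
      omega
    rw [hk, h4, h0]
    simp
  have hσP : ∀ τ : P, τ ∈ Subgroup.zpowers σ := by
    intro τ
    have h1 : Nat.card (Subgroup.zpowers σ) = p := by rw [Nat.card_zpowers, hσ]
    have h2 : Subgroup.zpowers σ = ⊤ := by
      apply Subgroup.eq_top_of_card_eq
      rw [h1]; exact hPcard.symm
    rw [h2]; trivial
  have hcyc : IsCyclic P := ⟨σ, hσP⟩
  have hcent : Nat.card (Subgroup.centralizer {(σ : Equiv.Perm α)}) = p := by
    rw [nat_card_centralizer, hct σ hσ]
    rcases hα with h | h <;> simp [h, ← hn]
  have hcentP : (Subgroup.centralizer ((P : Subgroup (Equiv.Perm α)) : Set (Equiv.Perm α))) = P := by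
    have h1 : Subgroup.centralizer ((P : Subgroup (Equiv.Perm α)) : Set (Equiv.Perm α)) ≤ Subgroup.centralizer {(σ : Equiv.Perm α)} :=
      Subgroup.centralizer_le (by intro x hx; rw [Set.mem_singleton_iff] at hx; rw [hx]; exact σ.2)
    have h2 : (P : Subgroup (Equiv.Perm α)) ≤ Subgroup.centralizer ((P : Subgroup (Equiv.Perm α)) : Set (Equiv.Perm α)) := by
      intro x hx
      rw [Subgroup.mem_centralizer_iff]
      intro y hy
      have h3 := (hcyc.commGroup).mul_comm (⟨y, hy⟩ : P) ⟨x, hx⟩
      exact congrArg Subtype.val h3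
    apply le_antisymm
    · have h3 : (P : Subgroup (Equiv.Perm α)) = Subgroup.centralizer {(σ : Equiv.Perm α)} := by
        apply Subgroup.eq_of_le_of_card_ge (h2.trans h1)
        rw [hcent]; exact hPcard.ge
      rw [← h3] at h1
      exact h1
    · exact h2
  have hker := Subgroup.card_mul_index ((P : Subgroup (Equiv.Perm α)).normalizerMonoidHom.ker)
  rw [Subgroup.index_ker] at hker
  rw [← hker]
  congr 1
  · rw [Subgroup.normalizerMonoidHom_ker, hcentP]
    exact (Nat.card_congr (Subgroup.subgroupOfEquivOfLe Subgroup.le_normalizer).toEquiv).trans hPcard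
  · have hsurj : (P : Subgroup (Equiv.Perm α)).normalizerMonoidHom.range = ⊤ := by
      rw [eq_top_iff]
      intro ψ _
      have h1 : orderOf (ψ σ) = p := by rw [MulEquiv.orderOf_eq, hσ]
      have h2 : IsConj (σ : Equiv.Perm α) (ψ σ : P) := by
        rw [isConj_iff_cycleType_eq, hct _ hσ, hct _ h1]
      rw [isConj_iff] at h2
      obtain ⟨g, hg⟩ := h2
      have hgN : g ∈ Subgroup.normalizer ((P : Subgroup (Equiv.Perm α)) : Set (Equiv.Perm α)) := by
        apply Subgroup.mem_normalizer_fintype
        intro x hx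
        obtain ⟨k, hk⟩ := Subgroup.mem_zpowers_iff.mp (hσP ⟨x, hx⟩)
        have h3 : (σ : Equiv.Perm α) ^ k = x := by
          have := congrArg Subtype.val hk
          simpa using this
        rw [← h3, ← conj_zpow, hg]
        exact Subgroup.zpow_mem _ (ψ σ).2 k
      refine ⟨⟨g, hgN⟩, ?_⟩
      have h4 : (P : Subgroup (Equiv.Perm α)).normalizerMonoidHom ⟨g, hgN⟩ σ = ψ σ := by
        apply Subtype.ext
        exact hg
      apply MulEquiv.ext
      intro x
      obtain ⟨k, hk⟩ := Subgroup.mem_zpowers_iff.mp (hσP x)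
      rw [← hk, map_zpow, map_zpow, h4]
    rw [hsurj, Subgroup.card_top, IsCyclic.card_mulAut]
    rw [show Nat.card (P : Subgroup (Equiv.Perm α)) = p from hPcard, Nat.totient_prime hp.out]

end Cfsg.Agent.S0989
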