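import Cfsg.Statements.S0990
import Mathlib

-- import your own Cfsg.Agent.* helpers here

set_option autoImplicit false
open Cfsg

namespace Cfsg.Agent.S0990

open Equiv.Perm

/-- Let p be an odd prime and P a Sylow p-subgroup of the symmetric group on a finite set with at least two elements. Then P is contained in the alternating group, and twice the order of the normalizer of P inside the alternating group equals the order of the normalizer of P in the symmetric group. -/
theorem result {α : Type*} [Fintype α] [DecidableEq α] (hα : 2 ≤ Fintype.card α) (p : ℕ) [Fact p.Prime] (hp : p ≠ 2) (P : Sylow p (Equiv.Perm α)) : (P : Subgroup (Equiv.Perm α)) ≤ alternatingGroup α ∧ 2 * Nat.card ↥(Subgroup.normalizer ((((P : Subgroup (Equiv.Perm α)).subgroupOf (alternatingGroup α) : Subgroup ↥(alternatingGroup α)) : Set ↥(alternatingGroup α)))) = Nat.card ↥(Subgroup.normalizer ((P : Subgroup (Equiv.Perm α)) : Set (Equiv.Perm α))) := by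
  classical
  have hpp : Fact p.Prime := inferInstance
  have hodd : ∀ x ∈ (P : Subgroup (Equiv.Perm α)), x ∈ alternatingGroup α := by
    intro x hx
    rw [mem_alternatingGroup]
    obtain ⟨k, hk⟩ := P.2 ⟨x, hx⟩
    have h1 : x ^ (p ^ k) = 1 := by
      have := congrArg Subtype.val hk
      simpa using this
    have h2 : sign x ^ (p ^ k) = 1 := by rw [← map_pow, h1, map_one]
    rcases Int.units_eq_one_or (sign x) with h | h
    · exact h
    · exfalso
      rw [h, Odd.neg_one_pow ((hpp.out.odd_of_ne_two hp).pow)] at h2
      exact absurd h2 (by decide)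
  have hle : (P : Subgroup (Equiv.Perm α)) ≤ alternatingGroup α := hodd
  refine ⟨hle, ?_⟩
  set N : Subgroup (Equiv.Perm α) := Subgroup.normalizer ((P : Subgroup (Equiv.Perm α)) : Set (Equiv.Perm α)) with hN
  have h1 : Subgroup.normalizer ((((P : Subgroup (Equiv.Perm α)).subgroupOf (alternatingGroup α) : Subgroup ↥(alternatingGroup α)) : Set ↥(alternatingGroup α))) = N.subgroupOf (alternatingGroup α) := by
    ext x
    rw [Subgroup.mem_subgroupOf, hN, Subgroup.mem_normalizer_iff, Subgroup.mem_normalizer_iff]
    constructor
    · intro h y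
      constructor
      · intro hy
        have := (h ⟨y, hle hy⟩).mp (by rw [Subgroup.mem_subgroupOf]; exact hy)
        rw [Subgroup.mem_subgroupOf] at this
        exact this
      · intro hy
        have hyA : y ∈ alternatingGroup α := by
          have h2 := hle hy
          have h3 : (x : Equiv.Perm α)⁻¹ * ((x : Equiv.Perm α) * y * (x : Equiv.Perm α)⁻¹) * (x : Equiv.Perm α) ∈ alternatingGroup α :=
            mul_mem (mul_mem (inv_mem x.2) h2) x.2
          have h4 : (x : Equiv.Perm α)⁻¹ * ((x : Equiv.Perm α) * y * (x : Equiv.Perm α)⁻¹) * (x : Equiv.Perm α) = y := by group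
          rwa [h4] at h3
        have := (h ⟨y, hyA⟩).mpr (by rw [Subgroup.mem_subgroupOf]; exact hy)
        rw [Subgroup.mem_subgroupOf] at this
        exact this
    · intro h y
      rw [Subgroup.mem_subgroupOf, Subgroup.mem_subgroupOf]
      exact h y
  rw [h1]
  have h2 : Nat.card (N.subgroupOf (alternatingGroup α)) = Nat.card (((alternatingGroup α).subgroupOf N)) := by
    have e1 : Nat.card (N.subgroupOf (alternatingGroup α)) = Nat.card ((N ⊓ alternatingGroup α : Subgroup (Equiv.Perm α))) := by
      rw [← Subgroup.inf_subgroupOf_right]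
      exact Nat.card_congr (Subgroup.subgroupOfEquivOfLe inf_le_right).toEquiv
    have e2 : Nat.card ((alternatingGroup α).subgroupOf N) = Nat.card ((alternatingGroup α ⊓ N : Subgroup (Equiv.Perm α))) := by
      rw [← Subgroup.inf_subgroupOf_right]
      exact Nat.card_congr (Subgroup.subgroupOfEquivOfLe inf_le_right).toEquiv
    rw [e1, e2, inf_comm]
  rw [h2]
  have h3 : ((alternatingGroup α).subgroupOf N).index = 2 := by
    have h4 : ((alternatingGroup α).subgroupOf N).index = ((sign : Equiv.Perm α →* ℤˣ).comp N.subtype).ker.index := by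
      rfl
    rw [h4, Subgroup.index_ker]
    have h5 : ((sign : Equiv.Perm α →* ℤˣ).comp N.subtype).range = ⊤ := by
      -- Frattini
      have hfr : N ⊔ alternatingGroup α = ⊤ := P.normalizer_sup_eq_top' hle
      obtain ⟨a, b, hab⟩ := Fintype.exists_pair_of_one_lt_card (α := α) (by omega)
      have h8 : Equiv.swap a b ∈ ((N ⊔ alternatingGroup α : Subgroup (Equiv.Perm α)) : Set (Equiv.Perm α)) := by rw [hfr]; trivial
      rw [Subgroup.mul_normal] at h8
      obtain ⟨x, hx, y, hy, hxy'⟩ := h8
      have hxy : x * y = Equiv.swap a b := hxy'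
      have h6 : sign x = -1 := by
        have h7 := congrArg sign hxy
        rw [map_mul, mem_alternatingGroup.mp hy, mul_one, sign_swap hab] at h7
        exact h7
      rw [eq_top_iff]
      intro u _
      rcases Int.units_eq_one_or u with h | h
      · rw [h]; exact one_mem _
      · rw [h]; exact ⟨⟨x, hx⟩, h6⟩
    rw [h5, Subgroup.card_top]
    simp
  have h6 := Subgroup.card_mul_index ((alternatingGroup α).subgroupOf N)
  rw [h3] at h6
  omega

end Cfsg.Agent.S0990
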