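import Cfsg.Statements.S0995
import Mathlib
import Cfsg.Agent.LibSmallSyl
-- import your own Cfsg.Agent.* helpers here

set_option autoImplicit false
open Cfsg

namespace Cfsg.Agent.S0995

open MulAction

/-- Let G be a finite perfect group containing an element z of prime order p whose centralizer is the cyclic group it generates. Let t be the number of conjugacy classes of elements of order p. Then t divides p - 1, the number of Sylow p-subgroups has the form 1 + n * p, and |G| * t = (p - 1) * p * (1 + n * p). -/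
theorem result {G : Type*} [Group G] [Finite G] (hperf : commutator G = ⊤) (p : ℕ) [Fact p.Prime] (z : G) (hz : orderOf z = p) (hC : Subgroup.centralizer ({z} : Set G) = Subgroup.zpowers z) : ∃ n t : ℕ, t = Nat.card {c : ConjClasses G // ∃ g : G, ConjClasses.mk g = c ∧ orderOf g = p} ∧ t ∣ p - 1 ∧ Nat.card (Sylow p G) = 1 + n * p ∧ Nat.card G * t = (p - 1) * p * (1 + n * p) := by
  classical
  have hp : Fact p.Prime := inferInstance
  have hz1 : z ≠ 1 := by
    rintro rfl
    rw [orderOf_one] at hz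
    exact hp.out.one_lt.ne hz
  have hzp : IsPGroup p (Subgroup.zpowers z) := IsPGroup.of_card (n := 1) (by rw [Nat.card_zpowers, hz, pow_one])
  obtain ⟨P, hP⟩ := hzp.exists_le_sylow
  have hzP : z ∈ (P : Subgroup G) := hP (Subgroup.mem_zpowers z)
  -- prime order subgroups
  have hgen : ∀ c ∈ Subgroup.zpowers z, c ≠ 1 → Subgroup.zpowers c = Subgroup.zpowers z := by
    intro c hc hc1
    have hle : Subgroup.zpowers c ≤ Subgroup.zpowers z := by rw [Subgroup.zpowers_le]; exact hc
    apply Subgroup.eq_of_le_of_card_ge hle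
    have h1 := Subgroup.card_dvd_of_le hle
    rw [Nat.card_zpowers z, hz] at h1 ⊢
    rcases (Nat.dvd_prime hp.out).mp h1 with h | h
    · rw [Nat.card_zpowers, orderOf_eq_one_iff] at h
      exact absurd h hc1
    · rw [h]
  have hPz : (P : Subgroup G) = Subgroup.zpowers z := by
    have hnt : Nontrivial (P : Subgroup G) := ⟨⟨z, hzP⟩, 1, fun h => hz1 (congrArg Subtype.val h)⟩
    have h1 : Nontrivial (Subgroup.center (P : Subgroup G)) := P.2.center_nontrivial
    obtain ⟨⟨c, hc⟩, hc1⟩ := exists_ne (1 : Subgroup.center (P : Subgroup G))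
    have hc1' : (c : G) ≠ 1 := fun h => hc1 (Subtype.ext (Subtype.ext h))
    have h2 : ∀ y ∈ (P : Subgroup G), y * (c : G) = c * y := by
      intro y hy
      exact congrArg Subtype.val (Subgroup.mem_center_iff.mp hc ⟨y, hy⟩)
    have h3 : (c : G) ∈ Subgroup.centralizer ({z} : Set G) := by
      rw [Subgroup.mem_centralizer_singleton_iff]
      exact (h2 z hzP).symm
    rw [hC] at h3
    have h4 := hgen _ h3 hc1'
    apply le_antisymm _ hP
    rw [← hC]
    intro y hy
    rw [Subgroup.mem_centralizer_singleton_iff]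
    have h5 : z ∈ Subgroup.zpowers (c : G) := by rw [h4]; exact Subgroup.mem_zpowers z
    obtain ⟨k, hk⟩ := Subgroup.mem_zpowers_iff.mp h5
    rw [← hk]
    exact (Commute.zpow_right (show Commute y (c : G) from h2 y hy) k)
  have hPcard : Nat.card (P : Subgroup G) = p := by rw [hPz, Nat.card_zpowers, hz]
  set N : Subgroup G := Subgroup.normalizer ((P : Subgroup G) : Set G) with hN
  set e : ℕ := ((P : Subgroup G).subgroupOf N).index with he
  have hNcard : Nat.card N = p * e := by
    have h1 := Subgroup.card_mul_index ((P : Subgroup G).subgroupOf N)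
    rw [← h1, Nat.card_congr (Subgroup.subgroupOfEquivOfLe (Subgroup.le_normalizer : (P : Subgroup G) ≤ N)).toEquiv, hPcard]
  have hPgen : ∀ a ∈ (P : Subgroup G), a ≠ 1 → Subgroup.zpowers a = P := by
    intro a ha ha1
    rw [hPz] at ha ⊢
    exact hgen a ha ha1
  have hcent : ∀ a ∈ (P : Subgroup G), a ≠ 1 → ∀ g : G, g * a * g⁻¹ = a → g ∈ (P : Subgroup G) := by
    intro a ha ha1 g hg
    rw [hPz, ← hC, Subgroup.mem_centralizer_singleton_iff]
    have h1 : z ∈ Subgroup.zpowers a := by rw [hPgen a ha ha1]; exact hzP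
    obtain ⟨k, hk⟩ := Subgroup.mem_zpowers_iff.mp h1
    rw [← hk]
    have h2 : Commute g a := mul_inv_eq_iff_eq_mul.mp hg
    exact h2.zpow_right k
  have hPcomm : ∀ a ∈ (P : Subgroup G), ∀ b ∈ (P : Subgroup G), b * a * b⁻¹ = a := by
    intro a ha b hb
    rw [hPz] at ha hb
    obtain ⟨k, rfl⟩ := Subgroup.mem_zpowers_iff.mp ha
    obtain ⟨l, rfl⟩ := Subgroup.mem_zpowers_iff.mp hb
    rw [← zpow_add, ← zpow_neg, ← zpow_add]
    congr 1; ring
  -- fibres
  have hfib : ∀ a ∈ (P : Subgroup G), a ≠ 1 → Nat.card {b : {b : G // b ∈ (P : Subgroup G) ∧ b ≠ 1} // IsConj a (b : G)} = e := by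
    intro a ha ha1
    have hmem : ∀ n : N, (n : G) * a * (n : G)⁻¹ ∈ (P : Subgroup G) := fun n => (Subgroup.mem_normalizer_iff.mp n.2 a).mp ha
    have hne : ∀ n : N, (n : G) * a * (n : G)⁻¹ ≠ 1 := by
      intro n h
      rw [conj_eq_one_iff] at h
      exact ha1 h
    have hw : ∀ n m : N, QuotientGroup.leftRel ((P : Subgroup G).subgroupOf N) n m → (⟨⟨(n : G) * a * (n : G)⁻¹, hmem n, hne n⟩, isConj_iff.mpr ⟨n, rfl⟩⟩ : {b : {b : G // b ∈ (P : Subgroup G) ∧ b ≠ 1} // IsConj a (b : G)}) = ⟨⟨(m : G) * a * (m : G)⁻¹, hmem m, hne m⟩, isConj_iff.mpr ⟨m, rfl⟩⟩ := by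
      intro n m h
      rw [QuotientGroup.leftRel_apply, Subgroup.mem_subgroupOf] at h
      apply Subtype.ext
      apply Subtype.ext
      show (n : G) * a * (n : G)⁻¹ = (m : G) * a * (m : G)⁻¹
      have h1 := hPcomm a ha _ h
      have h2 : (((n⁻¹ * m : N)) : G) = (n : G)⁻¹ * m := rfl
      rw [h2] at h1
      have h3 := congrArg (fun w => (n : G) * w * (n : G)⁻¹) h1
      simp only [mul_inv_rev, inv_inv] at h3
      rw [← h3]; group
    let f : (N ⧸ ((P : Subgroup G).subgroupOf N)) → {b : {b : G // b ∈ (P : Subgroup G) ∧ b ≠ 1} // IsConj a (b : G)} :=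
      Quotient.lift (fun n : N => ⟨⟨(n : G) * a * (n : G)⁻¹, hmem n, hne n⟩, isConj_iff.mpr ⟨n, rfl⟩⟩) hw
    have hf : Function.Bijective f := by
      constructor
      · intro x y
        obtain ⟨n, rfl⟩ := QuotientGroup.mk_surjective x
        obtain ⟨m, rfl⟩ := QuotientGroup.mk_surjective y
        intro hxy
        have h0 : f (QuotientGroup.mk n) = f (QuotientGroup.mk m) := hxy
        have h1 : (n : G) * a * (n : G)⁻¹ = (m : G) * a * (m : G)⁻¹ :=
          congrArg (fun w : {b : {b : G // b ∈ (P : Subgroup G) ∧ b ≠ 1} // IsConj a (b : G)} => ((w : {b : G // b ∈ (P : Subgroup G) ∧ b ≠ 1}) : G)) h0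
        rw [QuotientGroup.eq, Subgroup.mem_subgroupOf]
        apply hcent a ha ha1
        show ((n : G)⁻¹ * m) * a * ((n : G)⁻¹ * m)⁻¹ = a
        have h3 : ((n : G)⁻¹ * m) * a * ((n : G)⁻¹ * m)⁻¹ = (n : G)⁻¹ * ((m : G) * a * (m : G)⁻¹) * n := by group
        rw [h3, ← h1]; group
      · rintro ⟨⟨b, hb, hb1⟩, hab⟩
        obtain ⟨g, hg⟩ := isConj_iff.mp hab
        have hgN : g ∈ N := by
          rw [hN, Subgroup.mem_normalizer_iff_map_conj_eq, ← hPgen a ha ha1, MonoidHom.map_zpowers]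
          have h2 : (MulAut.conj g : G →* G) a = b := hg
          rw [h2, hPgen b hb hb1, hPgen a ha ha1]
        exact ⟨QuotientGroup.mk (⟨g, hgN⟩ : N), Subtype.ext (Subtype.ext hg)⟩
    rw [← Nat.card_congr (Equiv.ofBijective f hf)]
    rfl
  have hord : ∀ a ∈ (P : Subgroup G), a ≠ 1 → orderOf a = p := by
    intro a ha ha1
    rw [← Nat.card_zpowers, hPgen a ha ha1, hPcard]
  -- the class map
  let F : {b : G // b ∈ (P : Subgroup G) ∧ b ≠ 1} → {c : ConjClasses G // ∃ g : G, ConjClasses.mk g = c ∧ orderOf g = p} :=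
    fun b => ⟨ConjClasses.mk (b : G), ⟨b, rfl, hord _ b.2.1 b.2.2⟩⟩
  have hFsurj : Function.Surjective F := by
    rintro ⟨c, g, rfl, hg⟩
    have h1 : IsPGroup p (Subgroup.zpowers g) := IsPGroup.of_card (n := 1) (by rw [Nat.card_zpowers, hg, pow_one])
    obtain ⟨Q, hQ⟩ := h1.exists_le_sylow
    obtain ⟨k, hk⟩ := MulAction.exists_smul_eq G P Q
    have h2 : g ∈ (Q : Subgroup G) := hQ (Subgroup.mem_zpowers g)
    rw [← hk, CfsgLib.SmallSyl.mem_smul_sylow] at h2
    refine ⟨⟨k⁻¹ * g * k, h2, ?_⟩, ?_⟩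
    · intro h3
      have h4 : g = 1 := by
        have := congrArg (fun w => k * w * k⁻¹) h3
        simpa [mul_assoc] using this
      rw [h4, orderOf_one] at hg
      exact hp.out.one_lt.ne hg
    · apply Subtype.ext
      show ConjClasses.mk (k⁻¹ * g * k) = ConjClasses.mk g
      rw [ConjClasses.mk_eq_mk_iff_isConj]
      exact isConj_iff.mpr ⟨k, by group⟩
  have hfin : Finite {c : ConjClasses G // ∃ g : G, ConjClasses.mk g = c ∧ orderOf g = p} := inferInstance
  have hft : Fintype {c : ConjClasses G // ∃ g : G, ConjClasses.mk g = c ∧ orderOf g = p} := Fintype.ofFinite _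
  have hcount := Nat.card_congr (Equiv.sigmaFiberEquiv F)
  rw [Nat.card_sigma] at hcount
  have hfc : ∀ c, Nat.card {x // F x = c} = e := by
    intro c
    obtain ⟨a, rfl⟩ := hFsurj c
    rw [← hfib a a.2.1 a.2.2]
    apply Nat.card_congr
    apply Equiv.subtypeEquivRight
    intro b
    rw [Subtype.ext_iff]
    show ConjClasses.mk (b : G) = ConjClasses.mk (a : G) ↔ _
    rw [ConjClasses.mk_eq_mk_iff_isConj]
    exact isConj_comm
  rw [Finset.sum_congr rfl (fun c _ => hfc c), Finset.sum_const, Finset.card_univ, smul_eq_mul] at hcount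
  have hP1 : Nat.card {b : G // b ∈ (P : Subgroup G) ∧ b ≠ 1} = p - 1 := by
    have h1 : Nat.card {b : G // b ∈ (P : Subgroup G) ∧ b ≠ 1} = Nat.card {b : (P : Subgroup G) // b ≠ 1} := by
      apply Nat.card_congr
      exact
        { toFun := fun b => ⟨⟨b, b.2.1⟩, fun h => b.2.2 (congrArg Subtype.val h)⟩
          invFun := fun b => ⟨b, (b : (P : Subgroup G)).2, fun h => b.2 (Subtype.ext h)⟩
          left_inv := fun b => rfl
          right_inv := fun b => rfl }
    have hft2 : Fintype (P : Subgroup G) := Fintype.ofFinite _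
    have h2 : Fintype.card (P : Subgroup G) = p := by rw [← Nat.card_eq_fintype_card, hPcard]
    rw [h1, Nat.card_eq_fintype_card, Fintype.card_subtype_compl, Fintype.card_subtype_eq, h2]
  rw [hP1] at hcount
  have hmod : Nat.card (Sylow p G) ≡ 1 [MOD p] := card_sylow_modEq_one p G
  have hpos : 1 ≤ Nat.card (Sylow p G) := Nat.card_pos
  obtain ⟨n, hn⟩ := (Nat.modEq_iff_dvd' hpos).mp hmod.symm
  refine ⟨n, Nat.card {c : ConjClasses G // ∃ g : G, ConjClasses.mk g = c ∧ orderOf g = p}, rfl, ?_, ?_, ?_⟩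
  · rw [Nat.card_eq_fintype_card]
    exact ⟨e, hcount.symm⟩
  · rw [mul_comm n p, ← hn]; omega
  · have h1 := CfsgLib.SmallSyl.card_normalizer_mul P
    rw [← h1, ← hN, hNcard, Nat.card_eq_fintype_card (α := {c : ConjClasses G // ∃ g : G, ConjClasses.mk g = c ∧ orderOf g = p}), ← hcount]
    have h2 : 1 + n * p = Nat.card (Sylow p G) := by rw [mul_comm n p, ← hn]; omega
    rw [h2]
    ring

end Cfsg.Agent.S0995
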