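import Cfsg.Statements.S1004
import Mathlib
import Cfsg.Agent.LibO168d
-- import your own Cfsg.Agent.* helpers here

set_option autoImplicit false
open Cfsg

namespace Cfsg.Agent.S1004



/-- Let G be a simple group of order 168 and T a Sylow 2-subgroup. Then T is dihedral of order 8, T is its own normalizer, and T is the centralizer of any non-identity element of T that commutes with every element of T. -/
theorem result {G : Type*} [Group G] [Finite G] [IsSimpleGroup G] (h : Nat.card G = 168) (T : Sylow 2 G) : Nonempty (↥(T : Subgroup G) ≃* DihedralGroup 4) ∧ Subgroup.normalizer ((T : Subgroup G) : Set G) = T ∧ ∀ z : G, z ∈ (T : Subgroup G) → z ≠ 1 → (∀ t ∈ (T : Subgroup G), t * z = z * t) → Subgroup.centralizer ({z} : Set G) = T := by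
    exact ⟨CfsgLib.O168.d8 h T, CfsgLib.O168.norm2 h T, fun z hz hz1 hc => by
      have h2 := Subgroup.orderOf_dvd_natCard _ hz
      rw [CfsgLib.O168.sy2 h] at h2
      rcases CfsgLib.O168.orders h z with h3 | h3 | h3 | h3 | h3
      · exact absurd (orderOf_eq_one_iff.1 h3) hz1
      · exact CfsgLib.O168.cen_z h T hz h3 hc
      · rw [h3] at h2; omega
      · exfalso
        have h4 := CfsgLib.O168.cen4 h h3
        have h5 : (T : Subgroup G) ≤ Subgroup.centralizer ({z} : Set G) := fun t ht => by
          rw [Subgroup.mem_centralizer_singleton_iff]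
          exact hc t ht
        have h6 := Subgroup.card_dvd_of_le h5
        rw [h4, CfsgLib.O168.sy2 h] at h6
        omega
      · rw [h3] at h2; omega⟩

end Cfsg.Agent.S1004
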