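import Cfsg.Statements.S1012
import Mathlib
import Cfsg.Agent.LibO168a
-- import your own Cfsg.Agent.* helpers here

set_option autoImplicit false
open Cfsg

namespace Cfsg.Agent.S1012



/-- A group of order 24 containing no element of order 6 is isomorphic to the symmetric group of degree 4. -/
theorem result {G : Type*} [Group G] [Finite G] (h : Nat.card G = 24) (h6 : ∀ g : G, orderOf g ≠ 6) : Nonempty (G ≃* Equiv.Perm (Fin 4)) := by
    exact CfsgLib.O168.iso_s4 h h6

end Cfsg.Agent.S1012
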