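import Cfsg.Statements.S1013
import Mathlib
import Cfsg.Agent.LibSmallSyl
import Cfsg.Agent.LibPrimeDegree3
-- import your own Cfsg.Agent.* helpers here

set_option autoImplicit false
open Cfsg

namespace Cfsg.Agent.S1013

open MulAction

theorem trans_of_normal {α : Type*} [Fintype α] [DecidableEq α] {p : ℕ} [hp : Fact p.Prime] (hα : Fintype.card α = p) (G : Subgroup (Equiv.Perm α)) [MulAction.IsPretransitive ↥G α] (N : Subgroup G) [N.Normal] (hN1 : N ≠ ⊥) : p ∣ Nat.card N := by
  have hprim : IsPreprimitive G α := IsPreprimitive.of_prime_card (by rw [Nat.card_eq_fintype_card, hα]; exact hp.out)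
  have hNt : MulAction.IsPretransitive N α := by
    apply IsQuasiPreprimitive.isPretransitive_of_normal (G := G)
    intro h
    apply hN1
    rw [eq_bot_iff]
    intro x hx
    rw [Subgroup.mem_bot]
    apply Subtype.ext
    ext z
    have hz : z ∈ fixedPoints N α := by rw [h]; trivial
    exact hz ⟨x, hx⟩
  obtain ⟨a⟩ : Nonempty α := Fintype.card_pos_iff.mp (by rw [hα]; exact hp.out.pos)
  have h1 := MulAction.index_stabilizer_of_transitive N a
  rw [Nat.card_eq_fintype_card, hα] at h1
  rw [← h1]
  exact Subgroup.index_dvd_card _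

/-- Let G be a transitive permutation group of prime degree p having more than one Sylow p-subgroup, and suppose a Sylow p-subgroup P has prime index in its normalizer. Then G is simple. -/
theorem result {α : Type*} [Fintype α] [DecidableEq α] {p : ℕ} [Fact p.Prime] (hα : Fintype.card α = p) (G : Subgroup (Equiv.Perm α)) [MulAction.IsPretransitive ↥G α] (P : Sylow p ↥G) (hn : 1 < Nat.card (Sylow p ↥G)) (ht : (((P : Subgroup ↥G).subgroupOf (Subgroup.normalizer ((P : Subgroup ↥G) : Set ↥G))).index).Prime) : IsSimpleGroup ↥G := by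
  classical
  have hp : Fact p.Prime := inferInstance
  have hPcard := CfsgLib.PrimeDegree2.card_sylow hα G P
  have hnt : Nontrivial G := by
    rw [← not_subsingleton_iff_nontrivial]
    intro hs
    have h2 : Subsingleton (Sylow p G) := by
      constructor
      intro A B
      apply Sylow.ext
      exact Subsingleton.elim _ _
    have := Finite.card_le_one_iff_subsingleton.mpr h2
    omega
  refine ⟨fun N hN => ?_⟩
  by_cases hN1 : N = ⊥
  · exact Or.inl hN1
  right
  have hpN := trans_of_normal hα G N hN1
  have hidx : Nat.Coprime p N.index := by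
    rw [Nat.Prime.coprime_iff_not_dvd hp.out]
    intro hdvd
    have h1 := Subgroup.card_mul_index N
    have h2 : p ^ 2 ∣ Nat.card G := by
      rw [← h1, pow_two]
      exact mul_dvd_mul hpN hdvd
    have h3 := P.pow_dvd_card_of_pow_dvd_card h2
    rw [show Nat.card P = p from hPcard] at h3
    have h4 := Nat.le_of_dvd hp.out.pos h3
    have := hp.out.two_le
    nlinarith
  have hPN : (P : Subgroup G) ≤ N := by
    apply CfsgLib.SmallSyl.le_normal_of_coprime_index
    rw [hPcard]; exact hidx
  set M : Subgroup G := Subgroup.normalizer ((P : Subgroup G) : Set G) with hM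
  have hPM : (P : Subgroup G) ≤ M := Subgroup.le_normalizer
  have hfr : M ⊔ N = ⊤ := P.normalizer_sup_eq_top' hPN
  have ht1 : (P : Subgroup G).relIndex (N ⊓ M) * (N ⊓ M).relIndex M = (P : Subgroup G).relIndex M :=
    Subgroup.relIndex_mul_relIndex _ _ _ (le_inf hPN hPM) inf_le_right
  have ht2 : ((P : Subgroup G).relIndex M).Prime := ht
  rw [← ht1] at ht2
  have hcases : (P : Subgroup G).relIndex (N ⊓ M) = 1 ∨ (N ⊓ M).relIndex M = 1 := by
    by_contra hcon
    push Not at hcon
    exact Nat.not_prime_mul hcon.1 hcon.2 ht2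
  rcases hcases with h | h
  swap
  · rw [Subgroup.relIndex_eq_one] at h
    have : M ≤ N := h.trans inf_le_left
    rw [← hfr, eq_comm]
    exact sup_eq_right.mpr this
  exfalso
  rw [Subgroup.relIndex_eq_one] at h
  -- Burnside in N
  let PN : Sylow p N := P.subtype hPN
  have hPNcoe : (PN : Subgroup N) = (P : Subgroup G).subgroupOf N := rfl
  have hcyc : IsCyclic (P : Subgroup G) := isCyclic_of_prime_card hPcard
  have hle : Subgroup.normalizer ((PN : Subgroup N) : Set N) ≤ Subgroup.centralizer ((PN : Subgroup N) : Set N) := by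
    intro x hx
    have hxM : (x : G) ∈ M := by
      rw [hM]
      apply Subgroup.mem_normalizer_fintype
      intro y hy
      have h1 := (Subgroup.mem_normalizer_iff.mp hx ⟨y, hPN hy⟩).mp (by rw [hPNcoe, Subgroup.mem_subgroupOf]; exact hy)
      rw [hPNcoe, Subgroup.mem_subgroupOf] at h1
      exact h1
    have hxP : (x : G) ∈ (P : Subgroup G) := h ⟨x.2, hxM⟩
    rw [Subgroup.mem_centralizer_iff]
    intro y hy
    have hy' : (y : G) ∈ (P : Subgroup G) := by
      have : y ∈ (P : Subgroup G).subgroupOf N := hy
      rwa [Subgroup.mem_subgroupOf] at this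
    obtain ⟨g, hg⟩ := hcyc.exists_generator
    obtain ⟨k, hk⟩ := Subgroup.mem_zpowers_iff.mp (hg ⟨y, hy'⟩)
    obtain ⟨l, hl⟩ := Subgroup.mem_zpowers_iff.mp (hg ⟨x, hxP⟩)
    have h1 : (⟨y, hy'⟩ : (P : Subgroup G)) * ⟨x, hxP⟩ = ⟨x, hxP⟩ * ⟨y, hy'⟩ := by
      rw [← hk, ← hl, ← zpow_add, ← zpow_add, add_comm]
    have h2 : (y : G) * (x : G) = x * y := congrArg Subtype.val h1
    exact Subtype.ext h2
  have hcomp := MonoidHom.ker_transferSylow_isComplement' PN hle
  have hK0 : ¬ p ∣ Nat.card (MonoidHom.transferSylow PN hle).ker := MonoidHom.not_dvd_card_ker_transferSylow PN hle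
  have hKn : (MonoidHom.transferSylow PN hle).ker.Normal := inferInstance
  set K := (MonoidHom.transferSylow PN hle).ker with hK
  have hPNcard : Nat.card (PN : Subgroup N) = p := by
    rw [hPNcoe, Nat.card_congr (Subgroup.subgroupOfEquivOfLe hPN).toEquiv, hPcard]
  have hKidx : K.index = p := by
    have h1 := hcomp.card_mul_card
    rw [hPNcard] at h1
    have h2 := Subgroup.card_mul_index K
    rw [← h1] at h2
    exact Nat.eq_of_mul_eq_mul_left Nat.card_pos h2
  have hKG : (K.map N.subtype).Normal := by
    constructor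
    rintro _ ⟨x, hx, rfl⟩ g
    -- the conjugate subgroup
    let φ : N ≃* N := MulAut.conjNormal g
    have h1 : Nat.Coprime (Nat.card (K.map φ.toMonoidHom)) K.index := by
      rw [hKidx]
      have h2 : Nat.card (K.map φ.toMonoidHom) = Nat.card K := Nat.card_congr (K.equivMapOfInjective φ.toMonoidHom φ.injective).toEquiv.symm
      rw [h2]
      exact ((Nat.Prime.coprime_iff_not_dvd hp.out).mpr hK0).symm
    have h2 : K.map φ.toMonoidHom ≤ K := CfsgLib.SmallSyl.le_normal_of_coprime_index h1
    refine ⟨φ x, h2 ⟨x, hx, rfl⟩, ?_⟩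
    exact MulAut.conjNormal_apply g x
  have hKbot : K = ⊥ := by
    by_contra hKne
    have h1 : K.map N.subtype ≠ ⊥ := by
      intro h2
      rw [Subgroup.map_eq_bot_iff_of_injective _ N.subtype_injective] at h2
      exact hKne h2
    have h2 := trans_of_normal hα G (K.map N.subtype) h1
    have h3 : Nat.card (K.map N.subtype) = Nat.card K := Nat.card_congr (K.equivMapOfInjective N.subtype N.subtype_injective).toEquiv.symm
    rw [h3] at h2
    exact hK0 h2
  have hNcard : Nat.card N = p := by
    have h1 := hcomp.card_mul_card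
    rw [hPNcard, hKbot, Subgroup.card_bot, one_mul] at h1
    exact h1.symm
  have hPeq : (P : Subgroup G) = N := Subgroup.eq_of_le_of_card_ge hPN (by rw [hNcard]; exact hPcard.ge)
  have := CfsgLib.SmallSyl.card_one_of_normal P (by rw [hPeq]; exact hN)
  omega

end Cfsg.Agent.S1013
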