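import Cfsg.Statements.S1018
import Mathlib
import Cfsg.Agent.LibCosetFix
-- import your own Cfsg.Agent.* helpers here

set_option autoImplicit false
open Cfsg

namespace Cfsg.Agent.S1018

open MulAction

/-- Let P be a Sylow p-subgroup of order p of a finite group G, and consider the action of G on the left cosets of the normalizer N of P. Then every element of order p fixes exactly one coset, and an element of N that does not centralize P fixes at most as many cosets as there are orbits of P. -/
theorem result {G : Type*} [Group G] [Finite G] (p : ℕ) [Fact p.Prime] (P : Sylow p G) (hP : Nat.card ↥(P : Subgroup G) = p) : (∀ y : G, orderOf y = p → Nat.card (MulAction.fixedBy (G ⧸ Subgroup.normalizer ((P : Subgroup G) : Set G)) y) = 1) ∧ ∀ x : G, x ∈ Subgroup.normalizer ((P : Subgroup G) : Set G) → x ∉ Subgroup.centralizer ((P : Subgroup G) : Set G) → Nat.card (MulAction.fixedBy (G ⧸ Subgroup.normalizer ((P : Subgroup G) : Set G)) x) ≤ Nat.card (MulAction.orbitRel.Quotient ↥(P : Subgroup G) (G ⧸ Subgroup.normalizer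 ((P : Subgroup G) : Set G))) := by
  classical
  have hp : Fact p.Prime := inferInstance
  set N : Subgroup G := Subgroup.normalizer ((P : Subgroup G) : Set G) with hN
  -- elements of order p in a conjugate of N lie in the conjugate of P
  have hcyc : ∀ y ∈ (P : Subgroup G), y ≠ 1 → Subgroup.zpowers y = P := by
    intro y hy hy1
    apply Subgroup.eq_of_le_of_card_ge
    · rw [Subgroup.zpowers_le]; exact hy
    · have h1 : Nat.card (Subgroup.zpowers y) ∣ p := by
        rw [← hP]
        exact Subgroup.card_dvd_of_le (by rw [Subgroup.zpowers_le]; exact hy)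
      rcases (Nat.dvd_prime hp.out).mp h1 with h | h
      · rw [Nat.card_zpowers, orderOf_eq_one_iff] at h
        exact absurd h hy1
      · rw [h]; exact hP.le
  have hNP : ∀ y ∈ N, orderOf y = p → y ∈ (P : Subgroup G) := by
    intro y hy hyp
    have h1 : IsPGroup p (Subgroup.zpowers y) := IsPGroup.of_card (n := 1) (by rw [Nat.card_zpowers, hyp, pow_one])
    have h2 : Subgroup.zpowers y ⊓ Subgroup.normalizer ((P : Subgroup G) : Set G) = Subgroup.zpowers y ⊓ P := h1.inf_normalizer_sylow P
    have h3 : y ∈ Subgroup.zpowers y ⊓ Subgroup.normalizer ((P : Subgroup G) : Set G) := ⟨Subgroup.mem_zpowers y, hy⟩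
    rw [h2] at h3
    exact h3.2
  constructor
  · intro y hy
    have hy1 : y ≠ 1 := by
      rintro rfl
      rw [orderOf_one] at hy
      exact hp.out.one_lt.ne hy
    rw [Nat.card_eq_one_iff_unique]
    constructor
    · constructor
      rintro ⟨c, hc⟩ ⟨d, hd⟩
      apply Subtype.ext
      obtain ⟨k, rfl⟩ := QuotientGroup.mk_surjective c
      obtain ⟨l, rfl⟩ := QuotientGroup.mk_surjective d
      have h1 : k⁻¹ * y * k ∈ N := (CfsgLib.CosetFix.smul_mk_eq_iff N y k).mp hc
      have h2 : l⁻¹ * y * l ∈ N := (CfsgLib.CosetFix.smul_mk_eq_iff N y l).mp hd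
      have ho : ∀ m : G, orderOf (m⁻¹ * y * m) = p := by
        intro m
        have h3 : m⁻¹ * y * m = MulAut.conj m⁻¹ y := by simp
        rw [h3, MulEquiv.orderOf_eq, hy]
      have h1' := hNP _ h1 (ho k)
      have h2' := hNP _ h2 (ho l)
      have hne : ∀ m : G, m⁻¹ * y * m ≠ 1 := by
        intro m h3
        have := ho m
        rw [h3, orderOf_one] at this
        exact hp.out.one_lt.ne this
      rw [QuotientGroup.eq]
      show k⁻¹ * l ∈ N
      rw [hN, Subgroup.mem_normalizer_iff_map_conj_eq, ← hcyc _ h2' (hne l), MonoidHom.map_zpowers]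
      conv_lhs => rw [show (MulAut.conj (k⁻¹ * l) : G →* G) (l⁻¹ * y * l) = k⁻¹ * y * k by
        show MulAut.conj (k⁻¹ * l) (l⁻¹ * y * l) = _
        rw [MulAut.conj_apply]; group]
      rw [hcyc _ h1' (hne k), hcyc _ h2' (hne l)]
    · have h1 : IsPGroup p (Subgroup.zpowers y) := IsPGroup.of_card (n := 1) (by rw [Nat.card_zpowers, hy, pow_one])
      obtain ⟨Q, hQ⟩ := h1.exists_le_sylow
      obtain ⟨k, hk⟩ := MulAction.exists_smul_eq G P Q
      refine ⟨⟨QuotientGroup.mk k, ?_⟩⟩
      show y • (QuotientGroup.mk k : G ⧸ N) = QuotientGroup.mk k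
      rw [CfsgLib.CosetFix.smul_mk_eq_iff]
      have h2 : y ∈ (Q : Subgroup G) := hQ (Subgroup.mem_zpowers y)
      rw [← hk, Sylow.coe_subgroup_smul, Subgroup.mem_pointwise_smul_iff_inv_smul_mem] at h2
      apply Subgroup.le_normalizer
      have h3 : (MulAut.conj k)⁻¹ • y = k⁻¹ * y * k := by
        rw [← map_inv, MulAut.smul_def, MulAut.conj_apply, inv_inv]
      rw [h3] at h2
      exact h2
  · intro x hxN hxC
    apply Nat.card_le_card_of_injective (fun c : fixedBy (G ⧸ N) x => (Quotient.mk'' (c : G ⧸ N) : orbitRel.Quotient (P : Subgroup G) (G ⧸ N)))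
    rintro ⟨c, hc⟩ ⟨d, hd⟩ hcd
    apply Subtype.ext
    show c = d
    have h1 : c ∈ orbit (P : Subgroup G) d := by
      have := Quotient.exact hcd
      exact this
    obtain ⟨u, hu⟩ := h1
    have hu' : (u : G) • d = c := hu
    have hc' : x • c = c := hc
    have hd' : x • d = d := hd
    have hxi : x⁻¹ • d = d := by rw [inv_smul_eq_iff, hd']
    have hconj : x * u * x⁻¹ ∈ (P : Subgroup G) := (Subgroup.mem_normalizer_iff.mp hxN u).mp u.2
    have hv : (u : G)⁻¹ * (x * u * x⁻¹) ∈ (P : Subgroup G) := mul_mem (inv_mem u.2) hconj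
    have hvd : ((u : G)⁻¹ * (x * u * x⁻¹)) • d = d := by
      rw [mul_smul, mul_smul, mul_smul, hxi, hu', hc', ← hu', inv_smul_smul]
    by_cases hv1 : (u : G)⁻¹ * (x * u * x⁻¹) = 1
    · by_cases hu1 : (u : G) = 1
      · rw [hu1, one_smul] at hu'
        exact hu'.symm
      · exfalso
        apply hxC
        rw [Subgroup.mem_centralizer_iff]
        intro w hw
        have hw' : w ∈ (P : Subgroup G) := hw
        rw [← hcyc _ u.2 hu1] at hw'
        obtain ⟨k, rfl⟩ := Subgroup.mem_zpowers_iff.mp hw'
        have h2 : Commute x (u : G) := by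
          have h3 := inv_mul_eq_one.mp hv1
          exact (mul_inv_eq_iff_eq_mul.mp h3.symm)
        exact (h2.zpow_right k).symm
    · have h2 : (u : G) ∈ stabilizer G d := by
        have h3 : (u : G) ∈ Subgroup.zpowers ((u : G)⁻¹ * (x * u * x⁻¹)) := by
          rw [hcyc _ hv hv1]; exact u.2
        obtain ⟨k, hk⟩ := Subgroup.mem_zpowers_iff.mp h3
        rw [← hk]
        exact Subgroup.zpow_mem _ (show _ ∈ stabilizer G d from hvd) k
      rw [← hu']
      exact h2

end Cfsg.Agent.S1018
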