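import Cfsg.Statements.S1026
import Cfsg.Agent.LibChevAll
import Cfsg.Agent.LibChevU2

set_option autoImplicit false
open Cfsg

namespace Cfsg.Agent.S1026

open CfsgLib.Chev


/-- Every element of `U` has a unique expression `∏_{r ∈ Φ⁺} x_r(t_r)`, the product over the positive roots in increasing index order (the coefficient family `t`, supported on the positive roots, exists and is unique); and conversely every such ordered product is the matrix of an element of `U`. -/
theorem result {F : Type*} [Field F] (D : Cfsg.Lie.ChevalleyDatum) (hD : D ∈ [Cfsg.Lie.chevG2, Cfsg.Lie.chevB2, Cfsg.Lie.chevD4, Cfsg.Lie.chevF4, Cfsg.Lie.chevE6, Cfsg.Lie.chevE7, Cfsg.Lie.chevE8]) :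
    (∀ g : GL D.Idx F, g ∈ D.posUnipotent F →
      ∃! t : ℕ → F, (∀ r, ¬ D.IsPosRoot r → t r = 0) ∧
        (g : Matrix D.Idx D.Idx F) = D.wordMat F (D.posRoots.map fun r => (r, t r))) ∧
    (∀ t : ℕ → F, ∃ g : GL D.Idx F, g ∈ D.posUnipotent F ∧
      (g : Matrix D.Idx D.Idx F) = D.wordMat F (D.posRoots.map fun r => (r, t r))) := by
  obtain ⟨T, gd⟩ := good_of_mem hD
  have hev := gd.even
  constructor
  · intro x hx
    rw [gd.U_eq] at hx
    obtain ⟨t, ⟨h1, h2⟩, h3⟩ := gd.Uge_expr _ (T.n / 2) rfl le_rfl (by omega) x hx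
    refine ⟨t, ⟨?_, ?_⟩, ?_⟩
    · intro r hr
      apply h1
      rw [gd.isPos_iff] at hr
      exact hr
    · rw [gd.wd_iff, gd.posRoots_eq]
      exact h2
    · rintro t' ⟨h1', h2'⟩
      apply h3
      refine ⟨?_, ?_⟩
      · intro r hr
        apply h1'
        rw [gd.isPos_iff]
        exact hr
      · rw [gd.wd_iff, gd.posRoots_eq] at h2'
        exact h2'
  · intro t
    refine ⟨gd.wd (D.posRoots.map fun r => (r, t r)), ?_, gd.wd_val _⟩
    rw [gd.U_eq, gd.posRoots_eq]
    exact gd.pr_mem (k := T.n / 2) (m := T.n - T.n / 2) (by omega) t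

end Cfsg.Agent.S1026
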