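import Cfsg.Statements.S1030
import Cfsg.Agent.LibChevAll
import Cfsg.Agent.LibChevSL2

set_option autoImplicit false
open Cfsg

namespace Cfsg.Agent.S1030

open CfsgLib.Chev


/-- There is a homomorphism `SL₂(F) → GL` with image `⟨X_r, X_{-r}⟩` sending `[[1,t],[0,1]]` to `x_r(t)` and `[[1,0],[t,1]]` to `x_{-r}(t)`. -/
theorem result {F : Type*} [Field F] (D : Cfsg.Lie.ChevalleyDatum) (hD : D ∈ [Cfsg.Lie.chevG2, Cfsg.Lie.chevB2, Cfsg.Lie.chevD4, Cfsg.Lie.chevF4, Cfsg.Lie.chevE6, Cfsg.Lie.chevE7, Cfsg.Lie.chevE8]) (r : ℕ) (hr : r < D.nroots) :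
    ∃ φ : Matrix.SpecialLinearGroup (Fin 2) F →* GL D.Idx F,
      φ.range = D.rootSubgroup F r ⊔ D.rootSubgroup F (D.neg r) ∧
      ∀ (g : Matrix.SpecialLinearGroup (Fin 2) F) (t : F),
        ((g : Matrix (Fin 2) (Fin 2) F) = !![1, t; 0, 1] → ((φ g : GL D.Idx F) : Matrix D.Idx D.Idx F) = D.x F r t) ∧
        ((g : Matrix (Fin 2) (Fin 2) F) = !![1, 0; t, 1] → ((φ g : GL D.Idx F) : Matrix D.Idx D.Idx F) = D.x F (D.neg r) t) := by
  obtain ⟨T, gd⟩ := good_of_mem hD
  rw [gd.hn] at hr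
  obtain ⟨φ, h1, h2, h3⟩ := gd.exists_sl2 (F := F) hr
  rw [gd.neg_eq hr]
  refine ⟨φ, ?_, ?_⟩
  · apply le_antisymm
    · rintro _ ⟨x, rfl⟩
      have hx : ∀ t, gd.X r t ∈ D.rootSubgroup F r ⊔ D.rootSubgroup F (T.n - 1 - r) :=
        fun t => Subgroup.mem_sup_left (Subgroup.subset_closure ⟨t, rfl⟩)
      have hy : ∀ t, gd.X (T.n - 1 - r) t ∈ D.rootSubgroup F r ⊔ D.rootSubgroup F (T.n - 1 - r) :=
        fun t => Subgroup.mem_sup_right (Subgroup.subset_closure ⟨t, rfl⟩)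
      have := CfsgLib.SL2P.mem_of_gens ((D.rootSubgroup F r ⊔ D.rootSubgroup F (T.n - 1 - r)).comap φ)
        (fun t => by rw [Subgroup.mem_comap, h1]; exact hx t)
        (by
          rw [Subgroup.mem_comap, h3]
          exact Subgroup.mul_mem _ (Subgroup.mul_mem _ (hx _) (hy _)) (hx _)) x
      exact this
    · rw [sup_le_iff]
      unfold Cfsg.Lie.ChevalleyDatum.rootSubgroup
      rw [Subgroup.closure_le, Subgroup.closure_le]
      constructor
      · rintro x ⟨t, hx⟩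
        rw [gd.X_iff] at hx
        exact ⟨_, by rw [h1, hx]⟩
      · rintro x ⟨t, hx⟩
        rw [gd.X_iff] at hx
        exact ⟨_, by rw [h2, hx]⟩
  · intro x t
    constructor
    · intro hx
      have e : x = CfsgLib.SL2P.xx t := by
        apply Matrix.SpecialLinearGroup.ext
        intro i j
        rw [hx]; rfl
      rw [e, h1]; rfl
    · intro hx
      have e : x = CfsgLib.SL2P.yy t := by
        apply Matrix.SpecialLinearGroup.ext
        intro i j
        rw [hx]; rfl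
      rw [e, h2]; rfl

end Cfsg.Agent.S1030
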