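import Cfsg.Statements.S1032
import Cfsg.Agent.LibChevAll
import Cfsg.Agent.LibChevU

set_option autoImplicit false
open Cfsg

namespace Cfsg.Agent.S1032

open CfsgLib.Chev


/-- For a fundamental root `p`, a root `s` and `c ≠ 0`: `h_p(c) x_s(t) h_p(c)⁻¹ = x_s(c^{A_{p,s}} t)`, stated as `h_p(c) x_s(t) = x_s(c^{A_{p,s}} t) h_p(c)`. -/
theorem result {F : Type*} [Field F] (D : Cfsg.Lie.ChevalleyDatum) (hD : D ∈ [Cfsg.Lie.chevG2, Cfsg.Lie.chevB2, Cfsg.Lie.chevD4, Cfsg.Lie.chevF4, Cfsg.Lie.chevE6, Cfsg.Lie.chevE7, Cfsg.Lie.chevE8]) (i s : ℕ) (hi : i < D.rank) (hs : s < D.nroots) (c : F) (hc : c ≠ 0) (t : F) :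
    D.hMat F (D.simple i) c * D.x F s t = D.x F s (c ^ (D.cartan i s) * t) * D.hMat F (D.simple i) c := by
  obtain ⟨T, g⟩ := good_of_mem hD
  rw [g.hn] at hs
  rw [g.hl] at hi
  rw [g.simple i hi, g.hMat_eq (g.sim_lt hi)]
  have h := g.Hg_sim hi (Units.mk0 c hc)
  rw [Units.val_mk0] at h
  rw [h, g.hd_eq_tor]
  have h2 := g.tor_X (fun j => (Units.mk0 c hc) ^ (T.pair (T.sim i) (T.sim j))) hs t
  have h3 := congrArg Units.val h2
  rw [Units.val_mul, Units.val_mul] at h3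
  have h4 : chi T (fun j => (Units.mk0 c hc) ^ (T.pair (T.sim i) (T.sim j))) s = (Units.mk0 c hc) ^ (T.A i s) := by
    have h5 := CfsgLib.Chev.Good3.dg_inj (g.hd_eq_tor (D := D) (F := F) (T.sim i) (Units.mk0 c hc)) s (by rw [g.hn]; exact hs)
    rw [← h5, g.pair_sim hi]
  rw [h4] at h3
  rw [g.AD hi hs]
  have h6 : (((Units.mk0 c hc) ^ (T.A i s) : Fˣ) : F) = c ^ (T.A i s) := by simp
  rw [h6] at h3
  exact h3

end Cfsg.Agent.S1032
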