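import Cfsg.Statements.S1033
import Cfsg.Agent.LibChevAll
import Cfsg.Agent.LibChevBP

set_option autoImplicit false
open Cfsg

namespace Cfsg.Agent.S1033

open CfsgLib.Chev


/-- `h_p(c)` (for a fundamental root `p = p_{i+1}` and `c ≠ 0`) is diagonal: it fixes each `h_{p_j}` and scales `e_s` by `c^{A_{p,s}}`. -/
theorem result {F : Type*} [Field F] (D : Cfsg.Lie.ChevalleyDatum) (hD : D ∈ [Cfsg.Lie.chevG2, Cfsg.Lie.chevB2, Cfsg.Lie.chevD4, Cfsg.Lie.chevF4, Cfsg.Lie.chevE6, Cfsg.Lie.chevE7, Cfsg.Lie.chevE8]) (i : ℕ) (hi : i < D.rank) (c : F) (hc : c ≠ 0) :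
    D.hMat F (D.simple i) c = Matrix.diagonal (Sum.elim (fun _ => (1 : F)) (fun s : Fin D.nroots => c ^ (D.cartan i s))) := by
  obtain ⟨T, g⟩ := good_of_mem hD
  rw [g.hl] at hi
  rw [g.simple i hi, g.hMat_eq (g.sim_lt hi)]
  have h := g.Hg_sim hi (Units.mk0 c hc)
  rw [Units.val_mk0] at h
  rw [h]
  unfold hd
  rw [CfsgLib.Chev.Good3.dg_val]
  unfold Cfsg.Lie.ChevalleyDatum.charDiag
  congr 1
  ext k
  cases k with
  | inl k => simp
  | inr k =>
    simp only [Sum.elim_inr]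
    have hk : k.val < T.n := by rw [← g.hn]; exact k.isLt
    rw [g.pair_sim hi, g.AD hi hk]
    simp

end Cfsg.Agent.S1033
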