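import Cfsg.Statements.S1034
import Cfsg.Agent.LibChevAll
import Cfsg.Agent.LibChevBP

set_option autoImplicit false
open Cfsg

namespace Cfsg.Agent.S1034

open CfsgLib.Chev


/-- Every element of `H` is a product `h_{p_1}(c_1) ⋯ h_{p_l}(c_l)` over the fundamental roots, with non-zero `c_i`. -/
theorem result {F : Type*} [Field F] (D : Cfsg.Lie.ChevalleyDatum) (hD : D ∈ [Cfsg.Lie.chevG2, Cfsg.Lie.chevB2, Cfsg.Lie.chevD4, Cfsg.Lie.chevF4, Cfsg.Lie.chevE6, Cfsg.Lie.chevE7, Cfsg.Lie.chevE8]) (g : GL D.Idx F) (hg : g ∈ D.diagonalSubgroup F) :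
    ∃ c : ℕ → F, (∀ i < D.rank, c i ≠ 0) ∧
      (g : Matrix D.Idx D.Idx F) = D.wordMat F ((List.range D.rank).flatMap fun i => D.hWord (D.simple i) (c i)) := by
  obtain ⟨T, g⟩ := good_of_mem hD
  rw [g.mem_H] at hg
  obtain ⟨a, rfl⟩ := hg
  refine ⟨fun i => (a i : F), fun i _ => Units.ne_zero _, ?_⟩
  have hr : List.range D.rank = List.range T.l := by rw [g.hl]
  rw [hr, ← g.hel_range, ← g.wd_val]
  congr 1
  have key : ∀ L : List ℕ, (∀ i ∈ L, i < T.l) → (List.map (fun i => hd D T (T.sim i) (a i)) L).prod =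
      g.wd (List.flatMap (fun i => D.hWord (D.simple i) (a i : F)) L) := by
    intro L
    induction L with
    | nil => intro _; rfl
    | cons j L ih =>
      intro hL
      have hj := hL j List.mem_cons_self
      rw [List.map_cons, List.prod_cons, List.flatMap_cons, g.wd_append, ih (fun i hi => hL i (List.mem_cons_of_mem _ hi)),
        g.simple j hj, g.wd_hWord (g.sim_lt hj), g.Hg_sim hj]
  exact key _ (fun i hi => List.mem_range.1 hi)

end Cfsg.Agent.S1034
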