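import Cfsg.Statements.S1040
import Cfsg.Agent.LibChevAll
import Cfsg.Agent.LibChevBP

set_option autoImplicit false
open Cfsg

namespace Cfsg.Agent.S1040

open CfsgLib.Chev


/-- `U ∩ N = 1` and `B ∩ N = UH ∩ N = H`. -/
theorem result {F : Type*} [Field F] (D : Cfsg.Lie.ChevalleyDatum) (hD : D ∈ [Cfsg.Lie.chevG2, Cfsg.Lie.chevB2, Cfsg.Lie.chevD4, Cfsg.Lie.chevF4, Cfsg.Lie.chevE6, Cfsg.Lie.chevE7, Cfsg.Lie.chevE8]) :
    D.posUnipotent F ⊓ D.monomialSubgroup F = ⊥ ∧ D.borelSubgroup F ⊓ D.monomialSubgroup F = D.diagonalSubgroup F := by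
  obtain ⟨T, g⟩ := good_of_mem hD
  exact ⟨g.U_inf_N, g.B_inf_N⟩

end Cfsg.Agent.S1040
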