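import Cfsg.Statements.S1041
import Cfsg.Agent.LibChevAll
import Cfsg.Agent.LibChevU

set_option autoImplicit false
open Cfsg

namespace Cfsg.Agent.S1041

open CfsgLib.Chev


/-- `U` and `V` generate the whole Chevalley group. -/
theorem result {F : Type*} [Field F] (D : Cfsg.Lie.ChevalleyDatum) (hD : D ∈ [Cfsg.Lie.chevG2, Cfsg.Lie.chevB2, Cfsg.Lie.chevD4, Cfsg.Lie.chevF4, Cfsg.Lie.chevE6, Cfsg.Lie.chevE7, Cfsg.Lie.chevE8]) : D.posUnipotent F ⊔ D.negUnipotent F = D.group F := by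
  obtain ⟨T, g⟩ := good_of_mem hD
  apply le_antisymm
  · rw [sup_le_iff]
    unfold Cfsg.Lie.ChevalleyDatum.posUnipotent Cfsg.Lie.ChevalleyDatum.negUnipotent Cfsg.Lie.ChevalleyDatum.group
    rw [Subgroup.closure_le, Subgroup.closure_le]
    constructor
    · rintro x ⟨r, t, hr, hx⟩
      have hr' := hr.1
      apply Subgroup.subset_closure
      refine ⟨⟨r, hr'⟩, t, ?_⟩
      rw [hx]
      unfold Cfsg.Lie.ChevalleyDatum.x
      rw [dif_pos hr']
    · rintro x ⟨r, t, hr, hx⟩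
      have hr' := hr.1
      apply Subgroup.subset_closure
      refine ⟨⟨r, hr'⟩, t, ?_⟩
      rw [hx]
      unfold Cfsg.Lie.ChevalleyDatum.x
      rw [dif_pos hr']
  · unfold Cfsg.Lie.ChevalleyDatum.group
    rw [Subgroup.closure_le]
    rintro x ⟨r, t, hx⟩
    have hx' : (x : Matrix D.Idx D.Idx F) = D.x F r t := by
      rw [hx]
      unfold Cfsg.Lie.ChevalleyDatum.x
      rw [dif_pos r.isLt]
    rcases g.pos_or_neg (r := r) (by rw [← g.hn]; exact r.isLt) with h | h
    · exact Subgroup.mem_sup_left (Subgroup.subset_closure ⟨r, t, h, hx'⟩)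
    · exact Subgroup.mem_sup_right (Subgroup.subset_closure ⟨r, t, h, hx'⟩)

end Cfsg.Agent.S1041
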