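import Cfsg.Statements.S1045
import Cfsg.Agent.LibChevAll
import Cfsg.Agent.LibChevBP

set_option autoImplicit false
open Cfsg

namespace Cfsg.Agent.S1045

open CfsgLib.Chev


/-- For a fundamental root `p`, the subgroup `U_p` generated by the `X_s`, `s` positive and `s ≠ p`, is normalised by `X_p` and `X_{-p}`, and `U = U_p ⊔ X_p`. -/
theorem result {F : Type*} [Field F] (D : Cfsg.Lie.ChevalleyDatum) (hD : D ∈ [Cfsg.Lie.chevG2, Cfsg.Lie.chevB2, Cfsg.Lie.chevD4, Cfsg.Lie.chevF4, Cfsg.Lie.chevE6, Cfsg.Lie.chevE7, Cfsg.Lie.chevE8]) (i : ℕ) (hi : i < D.rank) :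
    D.rootSubgroup F (D.simple i) ⊔ D.rootSubgroup F (D.neg (D.simple i)) ≤
        Subgroup.normalizer (Subgroup.closure {g : GL D.Idx F | ∃ (s : ℕ) (t : F), D.IsPosRoot s ∧ s ≠ D.simple i ∧
          (g : Matrix D.Idx D.Idx F) = D.x F s t} : Set (GL D.Idx F)) ∧
      Subgroup.closure {g : GL D.Idx F | ∃ (s : ℕ) (t : F), D.IsPosRoot s ∧ s ≠ D.simple i ∧
          (g : Matrix D.Idx D.Idx F) = D.x F s t} ⊔ D.rootSubgroup F (D.simple i) = D.posUnipotent F := by
  obtain ⟨T, g⟩ := good_of_mem hD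
  rw [g.hl] at hi
  have e : (Subgroup.closure {g : GL D.Idx F | ∃ (s : ℕ) (t : F), D.IsPosRoot s ∧ s ≠ D.simple i ∧
          (g : Matrix D.Idx D.Idx F) = D.x F s t}) = g.Up i := by
    unfold CfsgLib.Chev.Good3.Up
    congr 1
    ext x
    constructor
    · rintro ⟨s, t, h1, h2, h3⟩
      rw [g.isPos_iff] at h1
      rw [g.simple i hi] at h2
      rw [g.X_iff] at h3
      exact ⟨s, t, h1.1, h1.2, h2, h3⟩
    · rintro ⟨s, t, h1, h2, h3, h4⟩
      refine ⟨s, t, g.isPos_iff.2 ⟨h1, h2⟩, ?_, g.X_iff.2 h4⟩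
      rw [g.simple i hi]; exact h3
  rw [e, g.simple i hi, g.neg_eq (g.sim_lt hi)]
  constructor
  · rw [sup_le_iff]
    constructor
    · unfold Cfsg.Lie.ChevalleyDatum.rootSubgroup
      rw [Subgroup.closure_le]
      rintro x ⟨t, hx⟩
      rw [g.X_iff] at hx
      subst hx
      show g.X (T.sim i) t ∈ Subgroup.normalizer (g.Up (F := F) i : Set (GL D.Idx F))
      rw [Subgroup.mem_normalizer_iff]
      intro y
      constructor
      · intro hy; exact g.Up_norm hi (Or.inl rfl) t hy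
      · intro hy
        have := g.Up_norm hi (Or.inl rfl) (-t) hy
        have e : g.X (T.sim i) (-t) * (g.X (T.sim i) t * y * (g.X (T.sim i) t)⁻¹) * (g.X (T.sim i) (-t))⁻¹ = y := by
          rw [g.X_neg]; group
        rwa [e] at this
    · unfold Cfsg.Lie.ChevalleyDatum.rootSubgroup
      rw [Subgroup.closure_le]
      rintro x ⟨t, hx⟩
      rw [g.X_iff] at hx
      subst hx
      show g.X (T.n - 1 - T.sim i) t ∈ Subgroup.normalizer (g.Up (F := F) i : Set (GL D.Idx F))
      rw [Subgroup.mem_normalizer_iff]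
      intro y
      constructor
      · intro hy; exact g.Up_norm hi (Or.inr rfl) t hy
      · intro hy
        have := g.Up_norm hi (Or.inr rfl) (-t) hy
        have e : g.X (T.n - 1 - T.sim i) (-t) * (g.X (T.n - 1 - T.sim i) t * y * (g.X (T.n - 1 - T.sim i) t)⁻¹) * (g.X (T.n - 1 - T.sim i) (-t))⁻¹ = y := by
          rw [g.X_neg]; group
        rwa [e] at this
  · apply le_antisymm
    · rw [sup_le_iff]
      refine ⟨g.Up_le_U i, ?_⟩
      unfold Cfsg.Lie.ChevalleyDatum.rootSubgroup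
      rw [Subgroup.closure_le]
      rintro x ⟨t, hx⟩
      rw [g.X_iff] at hx
      subst hx
      exact g.X_mem_U (g.sim_pos hi) (g.sim_lt hi) t
    · intro x hx
      obtain ⟨y, hy, t, rfl⟩ := (g.U_decomp hi).1 hx
      exact Subgroup.mul_mem _ (Subgroup.mem_sup_left hy) (Subgroup.mem_sup_right (Subgroup.subset_closure ⟨t, g.X_iff.2 rfl⟩))

end Cfsg.Agent.S1045
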