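import Cfsg.Statements.S1053
import Cfsg.Agent.LibChevAll
import Cfsg.Agent.LibChevU2

set_option autoImplicit false
open Cfsg

namespace Cfsg.Agent.S1053

open CfsgLib.Chev


/-- There is `n₀ ∈ N` with `n₀ U n₀⁻¹ = V` (a representative of the longest element of the Weyl group). -/
theorem result {F : Type*} [Field F] (D : Cfsg.Lie.ChevalleyDatum) (hD : D ∈ [Cfsg.Lie.chevG2, Cfsg.Lie.chevB2, Cfsg.Lie.chevD4, Cfsg.Lie.chevF4, Cfsg.Lie.chevE6, Cfsg.Lie.chevE7, Cfsg.Lie.chevE8]) :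
    ∃ n ∈ D.monomialSubgroup F, (D.posUnipotent F).map (MulAut.conj n).toMonoidHom = D.negUnipotent F := by
  obtain ⟨T, gd⟩ := good_of_mem hD
  obtain ⟨n, hn, h1, h2⟩ := gd.exists_n0' (F := F)
  refine ⟨n, hn, ?_⟩
  ext v
  rw [Subgroup.mem_map]
  constructor
  · rintro ⟨u, hu, rfl⟩
    exact (h1 u).1 hu
  · intro hv
    refine ⟨n⁻¹ * v * n, ?_, ?_⟩
    · rw [h1]
      have e : n * (n⁻¹ * v * n) * n⁻¹ = v := by group
      rw [e]; exact hv
    · show n * (n⁻¹ * v * n) * n⁻¹ = v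
      group

end Cfsg.Agent.S1053
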