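import Cfsg.Statements.S1063
import Cfsg.Agent.LibChevCard2
import Cfsg.Agent.LibChevPoinT
import Cfsg.Agent.LibChevSmith

set_option autoImplicit false
open Cfsg

namespace Cfsg.Agent.S1063

open CfsgLib.Chev

/-- `gcd(3, q-1) · |E₆(q)| = q³⁶ (q² - 1)(q⁵ - 1)(q⁶ - 1)(q⁸ - 1)(q⁹ - 1)(q¹² - 1)`. -/
theorem result {F : Type*} [Field F] [Fintype F] {q : ℕ} (hq : Fintype.card F = q) : Nat.gcd 3 (q - 1) * Nat.card ↥(Cfsg.Lie.chevE6.group F) = q ^ 36 * (q ^ 2 - 1) * (q ^ 5 - 1) * (q ^ 6 - 1) * (q ^ 8 - 1) * (q ^ 9 - 1) * (q ^ 12 - 1) := by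
  subst hq
  have h := good3_E6.card_formula (F := F) ocnn_E6 poin_E6 smith_E6 rfl
  have h2 : tE6.n / 2 = 36 := rfl
  rw [h2] at h
  have n2 : Int.natAbs 2 = 2 := rfl
  have n3 : Int.natAbs 3 = 3 := rfl
  simp only [List.map_cons, List.map_nil, List.prod_cons, List.prod_nil, mul_one, Int.natAbs_neg, Int.natAbs_one,
    Nat.gcd_one_left, one_mul, n2, n3] at h
  linarith [h]

end Cfsg.Agent.S1063
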