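import Cfsg.Statements.S1072
import Cfsg.Agent.LibTwP3

set_option autoImplicit false
open Cfsg

namespace Cfsg.Agent.S1072

open CfsgLib.Chev

/-- ²F₄(2^(2m+1)) is simple for `m ≥ 1`. -/
theorem result {K : Type*} [Field K] [Fintype K] {m : ℕ} (hm : 1 ≤ m) (hK : Fintype.card K = 2 ^ (2 * m + 1)) :
    IsSimpleGroup ↥(Cfsg.Lie.twistedF4 K (2 ^ m)) ∧ ¬ IsMulCommutative ↥(Cfsg.Lie.twistedF4 K (2 ^ m)) := by
  have : Fact (Nat.Prime 2) := ⟨Nat.prime_two⟩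
  have : CharP K 2 := charP_of_card Nat.prime_two hK
  obtain ⟨f, hf⟩ := exists_frobp K 2 m
  exact TwF4.simple hf hK hm

end Cfsg.Agent.S1072
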