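import Cfsg.Statements.S1080
import Cfsg.Agent.LibChevAll
import Cfsg.Agent.LibChevBP

set_option autoImplicit false
open Cfsg

namespace Cfsg.Agent.S1080

open CfsgLib.Chev
open scoped Matrix


/-- Field automorphisms: for every field automorphism `f` there is a group automorphism sending each `x_r(t)` to `x_r(f t)`. -/
theorem result {F : Type*} [Field F] (D : Cfsg.Lie.ChevalleyDatum) (hD : D ∈ [Cfsg.Lie.chevG2, Cfsg.Lie.chevB2, Cfsg.Lie.chevD4, Cfsg.Lie.chevF4, Cfsg.Lie.chevE6, Cfsg.Lie.chevE7, Cfsg.Lie.chevE8]) (f : F ≃+* F) :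
    ∃ α : ↥(D.group F) ≃* ↥(D.group F), ∀ (g : ↥(D.group F)) (r : ℕ) (t : F), r < D.nroots →
      ((g : GL D.Idx F) : Matrix D.Idx D.Idx F) = D.x F r t → ((α g : GL D.Idx F) : Matrix D.Idx D.Idx F) = D.x F r (f t) := by
  obtain ⟨T, gd⟩ := good_of_mem hD
  have hmap : ∀ (f : F ≃+* F) (r : Fin D.nroots) (t : F), (D.xMat F r t).map f = D.xMat F r (f t) := by
    intro f r t
    ext row col
    simp only [Cfsg.Lie.ChevalleyDatum.xMat, Matrix.map_apply, Matrix.of_apply]
    cases col with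
    | inl i =>
      cases row with
      | inl i' => simp only; split_ifs <;> simp
      | inr u => simp only; split_ifs <;> simp
    | inr s =>
      cases row with
      | inl i' => simp only; split_ifs <;> simp
      | inr u =>
        simp only
        split_ifs <;> simp [map_list_sum, List.map_map, Function.comp_def]
  have hx : ∀ (f : F ≃+* F) (r : ℕ) (t : F), (D.x F r t).map f = D.x F r (f t) := by
    intro f r t
    unfold Cfsg.Lie.ChevalleyDatum.x
    split_ifs with h
    · exact hmap f _ t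
    · simp
  let Φ : GL D.Idx F ≃* GL D.Idx F := Units.mapEquiv (f.mapMatrix (m := D.Idx)).toMulEquiv
  have hΦ : ∀ g : GL D.Idx F, ((Φ g : GL D.Idx F) : Matrix D.Idx D.Idx F) = (g : Matrix D.Idx D.Idx F).map f := fun g => rfl
  have hG : (D.group F).map Φ.toMonoidHom = D.group F := by
    conv_lhs => rw [gd.G_eq]
    rw [gd.G_eq, MonoidHom.map_closure]
    congr 1
    ext x
    constructor
    · rintro ⟨y, ⟨r, t, hr, rfl⟩, rfl⟩
      refine ⟨r, f t, hr, ?_⟩
      apply Units.ext
      show ((Φ (gd.X r t) : GL D.Idx F) : Matrix D.Idx D.Idx F) = _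
      rw [hΦ, gd.X_val, hx, gd.X_val]
    · rintro ⟨r, t, hr, rfl⟩
      refine ⟨gd.X r (f.symm t), ⟨r, f.symm t, hr, rfl⟩, ?_⟩
      apply Units.ext
      show ((Φ (gd.X r (f.symm t)) : GL D.Idx F) : Matrix D.Idx D.Idx F) = _
      rw [hΦ, gd.X_val, hx, gd.X_val, f.apply_symm_apply]
  refine ⟨(Φ.subgroupMap (D.group F)).trans (MulEquiv.subgroupCongr hG), ?_⟩
  intro g r t hr hg
  show ((Φ (g : GL D.Idx F) : GL D.Idx F) : Matrix D.Idx D.Idx F) = _
  rw [hΦ, hg, hx]

end Cfsg.Agent.S1080
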