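import Cfsg.Statements.S1081
import Cfsg.Agent.LibGraph3

set_option autoImplicit false
open Cfsg

namespace Cfsg.Agent.S1081

open CfsgLib.Chev

/-- Graph automorphisms: for E₆ with ρ = (p₁ p₆)(p₃ p₅) and for D₄ with ρ the 3-cycle on the outer nodes there is a group automorphism sending `x_p(t) ↦ x_{ρ(p)}(t)` and `x_{-p}(t) ↦ x_{-ρ(p)}(t)` for every fundamental root `p`. -/
theorem result {F : Type*} [Field F] (p : Cfsg.Lie.ChevalleyDatum × List ℕ)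
    (hp : p ∈ [(Cfsg.Lie.chevE6, [5, 1, 4, 3, 2, 0]), (Cfsg.Lie.chevD4, [2, 1, 3, 0]), (Cfsg.Lie.chevD4, [3, 1, 0, 2])]) :
    ∃ α : ↥(p.1.group F) ≃* ↥(p.1.group F), ∀ (g : ↥(p.1.group F)) (i : ℕ) (t : F), i < p.1.rank →
      (((g : GL p.1.Idx F) : Matrix p.1.Idx p.1.Idx F) = p.1.x F (p.1.simple i) t →
        ((α g : GL p.1.Idx F) : Matrix p.1.Idx p.1.Idx F) = p.1.x F (p.1.simple (p.2.getD i 0)) t) ∧
      (((g : GL p.1.Idx F) : Matrix p.1.Idx p.1.Idx F) = p.1.x F (p.1.neg (p.1.simple i)) t →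
        ((α g : GL p.1.Idx F) : Matrix p.1.Idx p.1.Idx F) = p.1.x F (p.1.neg (p.1.simple (p.2.getD i 0))) t) := by
  simp only [List.mem_cons, List.not_mem_nil, or_false] at hp
  rcases hp with rfl | rfl | rfl
  · obtain ⟨σ, hσ⟩ := good3_E6.graph_equiv_one tr_E6 gdE6_ok gdE6_ok chkInv_E6 chkL1_E6 chkL1_E6 (RingEquiv.refl F)
    exact ⟨σ, fun x i t hi => good3_E6.graph_stmt gdE6_ok _ chkS_E6 (fun _ t => t) σ hσ (fun _ _ _ => rfl) x i t hi⟩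
  · obtain ⟨σ, hσ⟩ := good3_D4.graph_equiv_one tr_D4 gdD4a_ok gdD4b_ok chkInv_D4a chkL1_D4a chkL1_D4b (RingEquiv.refl F)
    exact ⟨σ, fun x i t hi => good3_D4.graph_stmt gdD4a_ok _ chkS_D4a (fun _ t => t) σ hσ (fun _ _ _ => rfl) x i t hi⟩
  · obtain ⟨σ, hσ⟩ := good3_D4.graph_equiv_one tr_D4 gdD4b_ok gdD4a_ok chkInv_D4b chkL1_D4b chkL1_D4a (RingEquiv.refl F)
    exact ⟨σ, fun x i t hi => good3_D4.graph_stmt gdD4b_ok _ chkS_D4b (fun _ t => t) σ hσ (fun _ _ _ => rfl) x i t hi⟩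

end Cfsg.Agent.S1081
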