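import Cfsg.Statements.S1095
import Cfsg.Agent.LibChevAll
import Cfsg.Agent.LibChevBP

set_option autoImplicit false
open Cfsg

namespace Cfsg.Agent.S1095

open CfsgLib.Chev
open scoped Matrix


/-- `n_p` (p = p_{i+1} fundamental) is the signed monomial matrix `h_{p_j} ↦ h_{p_j} - A_{p_j,p} h_p`, `e_s ↦ η_s e_{w_p(s)}`, with `η_s = ±1`, `η_p = η_{-p} = -1`, `η_s η_{w_p(s)} = (-1)^{A_{p,s}}`, `η_s η_{-s} = 1`. -/
theorem result {F : Type*} [Field F] (D : Cfsg.Lie.ChevalleyDatum) (hD : D ∈ [Cfsg.Lie.chevG2, Cfsg.Lie.chevB2, Cfsg.Lie.chevD4, Cfsg.Lie.chevF4, Cfsg.Lie.chevE6, Cfsg.Lie.chevE7, Cfsg.Lie.chevE8]) (i : ℕ) (hi : i < D.rank) :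
    ∃ η : ℕ → ℤ, (∀ s < D.nroots, η s = 1 ∨ η s = -1) ∧ η (D.simple i) = -1 ∧ η (D.neg (D.simple i)) = -1 ∧
      (∀ s < D.nroots, η s * η (D.reflectRoot i s) = (-1) ^ (D.cartan i s).natAbs ∧ η s * η (D.neg s) = 1) ∧
      D.nMat F (D.simple i) 1 = Matrix.of (fun (row col : D.Idx) =>
        Sum.elim
          (fun j' : Fin D.rank => Sum.elim
            (fun j : Fin D.rank => (if j' = j then (1 : F) else 0) - (if (j' : ℕ) = i then ((D.cartan j (D.simple i) : ℤ) : F) else 0))
            (fun _ => (0 : F)) col)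
          (fun s' : Fin D.nroots => Sum.elim
            (fun _ => (0 : F))
            (fun s : Fin D.nroots => if (s' : ℕ) = D.reflectRoot i s then ((η s : ℤ) : F) else 0) col)
          row) := by
  obtain ⟨T, g⟩ := good_of_mem hD
  rw [g.hl] at hi
  have hsl := g.sim_lt hi
  have hev := g.even
  refine ⟨fun s => T.eta i s, fun s _ => T.eta_cases i s, ?_, ?_, ?_, ?_⟩
  · show T.eta i (D.simple i) = -1
    rw [g.simple i hi, g.eta_sim hi]
  · show T.eta i (D.neg (D.simple i)) = -1
    rw [g.simple i hi, g.neg_eq hsl, g.eta_neg hi hsl, g.eta_sim hi]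
  · intro s hs
    rw [g.hn] at hs
    show T.eta i s * T.eta i (D.reflectRoot i s) = _ ∧ T.eta i s * T.eta i (D.neg s) = 1
    rw [g.reflect_eq hi hs, g.neg_eq hs, g.eta_neg hi hs, g.AD hi hs]
    exact ⟨g.eta_w hi hs, T.eta_mul_self i s⟩
  · ext row col
    cases col with
    | inl j =>
      have hj : j.val < T.l := by rw [← g.hl]; exact j.isLt
      have e1 : D.nMat F (D.simple i) 1 row (Sum.inl j) = (nM D F i *ᵥ hV D F j.val) row := by
        rw [mulVec_hV _ j.isLt]; rfl
      rw [e1, g.nM_h hi hj]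
      cases row with
      | inl j' =>
        simp only [Matrix.of_apply, Sum.elim_inl]
        rw [Pi.add_apply, Pi.smul_apply, hV_inl, hV_inl, g.simple i hi, g.AD hj hsl]
        by_cases h1 : j' = j
        · subst h1
          by_cases h2 : j'.val = i
          · simp [h2, sub_eq_add_neg]
          · simp [h2]
        · have h1' : j'.val ≠ j.val := fun h => h1 (Fin.ext h)
          by_cases h2 : j'.val = i
          · simp [h2, h1, sub_eq_add_neg, h1']
            intro h3; exact absurd (h2.trans h3) h1'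
          · simp [h2, h1, h1']
      | inr s' =>
        simp only [Matrix.of_apply, Sum.elim_inl, Sum.elim_inr]
        rw [Pi.add_apply, Pi.smul_apply, hV_inr, hV_inr, smul_zero, add_zero]
    | inr s =>
      have hs : s.val < T.n := by rw [← g.hn]; exact s.isLt
      have e1 : D.nMat F (D.simple i) 1 row (Sum.inr s) = (nM D F i *ᵥ eV D F s.val) row := by
        rw [mulVec_eV _ s.isLt]; rfl
      rw [e1, g.nM_e hi hs]
      cases row with
      | inl j' =>
        simp only [Matrix.of_apply, Sum.elim_inl, Sum.elim_inr]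
        rw [Pi.smul_apply, eV_inl, smul_zero]
      | inr s' =>
        simp only [Matrix.of_apply, Sum.elim_inr]
        rw [Pi.smul_apply, eV_inr, g.reflect_eq hi hs]
        split_ifs <;> simp

end Cfsg.Agent.S1095
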