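import Cfsg.Statements.S1096
import Cfsg.Agent.LibChevAll
import Cfsg.Agent.LibChevU

set_option autoImplicit false
open Cfsg

namespace Cfsg.Agent.S1096

open CfsgLib.Chev


/-- `n_p h_{p_j}(t) n_p⁻¹ = h_{w_p(p_j)}(t)` for fundamental `p`, `p_j` and `t ≠ 0`, stated as `n_p h_{p_j}(t) = h_{w_p(p_j)}(t) n_p`. -/
theorem result {F : Type*} [Field F] (D : Cfsg.Lie.ChevalleyDatum) (hD : D ∈ [Cfsg.Lie.chevG2, Cfsg.Lie.chevB2, Cfsg.Lie.chevD4, Cfsg.Lie.chevF4, Cfsg.Lie.chevE6, Cfsg.Lie.chevE7, Cfsg.Lie.chevE8]) (i j : ℕ) (hi : i < D.rank) (hj : j < D.rank) (t : F) (ht : t ≠ 0) :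
    D.nMat F (D.simple i) 1 * D.hMat F (D.simple j) t = D.hMat F (D.reflectRoot i (D.simple j)) t * D.nMat F (D.simple i) 1 := by
  obtain ⟨T, g⟩ := good_of_mem hD
  rw [g.hl] at hi hj
  rw [g.simple i hi, g.simple j hj, g.nMat_eq (g.sim_lt hi), g.hMat_eq (g.sim_lt hj), g.reflect_eq hi (g.sim_lt hj),
    g.hMat_eq (g.w_lt hi (g.sim_lt hj)), ← Units.val_mul, ← Units.val_mul]
  congr 1
  have h1 := g.Hg_eq (g.sim_lt hj) (Units.mk0 _ ht)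
  have h2 := g.Hg_eq (g.w_lt hi (g.sim_lt hj)) (Units.mk0 _ ht)
  rw [Units.val_mk0] at h1 h2
  rw [h1, h2, ← g.nn_hd hi (g.sim_lt hj)]
  show g.nn i * _ = _ * g.nn i
  group

end Cfsg.Agent.S1096
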