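import Cfsg.Statements.S1098
import Cfsg.Agent.LibGraph3

set_option autoImplicit false
open Cfsg

namespace Cfsg.Agent.S1098

open CfsgLib.Chev

/-- Graph automorphisms in characteristic 2 (K perfect): for B₂ (a short, b long) `x_a(t) ↦ x_b(t²)`, `x_b(t) ↦ x_a(t)`, and for F₄ (p₁, p₂ short, p₃, p₄ long) `x_{p₁}(t) ↦ x_{p₄}(t²)`, `x_{p₂}(t) ↦ x_{p₃}(t²)`, `x_{p₃}(t) ↦ x_{p₂}(t)`, `x_{p₄}(t) ↦ x_{p₁}(t)`, likewise on the negatives, extend to an automorphism of the group. -/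
theorem result {K : Type*} [Field K] [CharP K 2] (hperf : ∀ x : K, ∃ y : K, y ^ 2 = x)
    (p : Cfsg.Lie.ChevalleyDatum × List (ℕ × ℕ))
    (hp : p ∈ [(Cfsg.Lie.chevB2, [(1, 2), (0, 1)]), (Cfsg.Lie.chevF4, [(3, 2), (2, 2), (1, 1), (0, 1)])]) :
    ∃ α : ↥(p.1.group K) ≃* ↥(p.1.group K), ∀ (g : ↥(p.1.group K)) (i : ℕ) (t : K), i < p.1.rank →
      (((g : GL p.1.Idx K) : Matrix p.1.Idx p.1.Idx K) = p.1.x K (p.1.simple i) t →
        ((α g : GL p.1.Idx K) : Matrix p.1.Idx p.1.Idx K) = p.1.x K (p.1.simple (p.2.getD i (0, 1)).1) (t ^ (p.2.getD i (0, 1)).2)) ∧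
      (((g : GL p.1.Idx K) : Matrix p.1.Idx p.1.Idx K) = p.1.x K (p.1.neg (p.1.simple i)) t →
        ((α g : GL p.1.Idx K) : Matrix p.1.Idx p.1.Idx K) = p.1.x K (p.1.neg (p.1.simple (p.2.getD i (0, 1)).1)) (t ^ (p.2.getD i (0, 1)).2)) := by
  haveI : Fact (Nat.Prime 2) := ⟨Nat.prime_two⟩
  simp only [List.mem_cons, List.not_mem_nil, or_false] at hp
  rcases hp with rfl | rfl
  · obtain ⟨σ, hσ⟩ := good3_B2.graph_equiv_p tr_B2 hperf gdB2_ok chkInv_B2 chkLp_B2 eps_B2 (RingEquiv.refl K)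
    refine ⟨σ, fun x i t hi => ?_⟩
    have h := good3_B2.graph_stmt gdB2_ok _ chkS_B2 (fun r t => t ^ gdB2.lam r) σ (fun x r t hr hx => by
      have := hσ x r t hr hx
      rw [eps_B2 r hr, Int.cast_one, one_mul]
      exact this) (fun r hr t => by rw [gdB2_ok.lneg hr]) x i t hi
    have hi' : i < 2 := hi
    interval_cases i
    · have e : gdB2.lam (tB2.sim 0) = 2 := by decide +kernel
      simp only [e] at h
      exact h
    · have e : gdB2.lam (tB2.sim 1) = 1 := by decide +kernel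
      simp only [e] at h
      exact h
  · obtain ⟨σ, hσ⟩ := good3_F4.graph_equiv_p tr_F4 hperf gdF4_ok chkInv_F4 chkLp_F4 eps_F4 (RingEquiv.refl K)
    refine ⟨σ, fun x i t hi => ?_⟩
    have h := good3_F4.graph_stmt gdF4_ok _ chkS_F4 (fun r t => t ^ gdF4.lam r) σ (fun x r t hr hx => by
      have := hσ x r t hr hx
      rw [eps_F4 r hr, Int.cast_one, one_mul]
      exact this) (fun r hr t => by rw [gdF4_ok.lneg hr]) x i t hi
    have hi' : i < 4 := hi
    interval_cases i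
    · have e : gdF4.lam (tF4.sim 0) = 2 := by decide +kernel
      simp only [e] at h
      exact h
    · have e : gdF4.lam (tF4.sim 1) = 2 := by decide +kernel
      simp only [e] at h
      exact h
    · have e : gdF4.lam (tF4.sim 2) = 1 := by decide +kernel
      simp only [e] at h
      exact h
    · have e : gdF4.lam (tF4.sim 3) = 1 := by decide +kernel
      simp only [e] at h
      exact h

end Cfsg.Agent.S1098
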