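import Cfsg.Statements.S1099
import Cfsg.Agent.LibGraph3

set_option autoImplicit false
open Cfsg

namespace Cfsg.Agent.S1099

open CfsgLib.Chev

/-- Graph automorphism of G₂ in characteristic 3 (K perfect): `x_a(t) ↦ x_b(t³)`, `x_b(t) ↦ x_a(t)`, `x_{-a}(t) ↦ x_{-b}(t³)`, `x_{-b}(t) ↦ x_{-a}(t)` extend to an automorphism of the group. -/
theorem result {K : Type*} [Field K] [CharP K 3] (hperf : ∀ x : K, ∃ y : K, y ^ 3 = x) :
    ∃ α : ↥(Cfsg.Lie.chevG2.group K) ≃* ↥(Cfsg.Lie.chevG2.group K), ∀ (g : ↥(Cfsg.Lie.chevG2.group K)) (t : K),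
      (((g : GL Cfsg.Lie.chevG2.Idx K) : Matrix _ _ K) = Cfsg.Lie.chevG2.x K Cfsg.Lie.g2a t →
        ((α g : GL Cfsg.Lie.chevG2.Idx K) : Matrix _ _ K) = Cfsg.Lie.chevG2.x K Cfsg.Lie.g2b (t ^ 3)) ∧
      (((g : GL Cfsg.Lie.chevG2.Idx K) : Matrix _ _ K) = Cfsg.Lie.chevG2.x K Cfsg.Lie.g2b t →
        ((α g : GL Cfsg.Lie.chevG2.Idx K) : Matrix _ _ K) = Cfsg.Lie.chevG2.x K Cfsg.Lie.g2a t) ∧
      (((g : GL Cfsg.Lie.chevG2.Idx K) : Matrix _ _ K) = Cfsg.Lie.chevG2.x K Cfsg.Lie.g2ma t →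
        ((α g : GL Cfsg.Lie.chevG2.Idx K) : Matrix _ _ K) = Cfsg.Lie.chevG2.x K Cfsg.Lie.g2mb (t ^ 3)) ∧
      (((g : GL Cfsg.Lie.chevG2.Idx K) : Matrix _ _ K) = Cfsg.Lie.chevG2.x K Cfsg.Lie.g2mb t →
        ((α g : GL Cfsg.Lie.chevG2.Idx K) : Matrix _ _ K) = Cfsg.Lie.chevG2.x K Cfsg.Lie.g2ma t) := by
  haveI : Fact (Nat.Prime 3) := ⟨Nat.prime_three⟩
  obtain ⟨σ, hσ⟩ := good3_G2.graph_equiv_p tr_G2 hperf gdG2_ok chkInv_G2 chkLp_G2 eps_G2 (RingEquiv.refl K)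
  have hn : tG2.n = 12 := rfl
  have key : ∀ (a b m : ℕ), a < 12 → gdG2.rho a = b → gdG2.lam a = m → ∀ (x : ↥(Cfsg.Lie.chevG2.group K)) (t : K),
      ((x : GL Cfsg.Lie.chevG2.Idx K) : Matrix _ _ K) = Cfsg.Lie.chevG2.x K a t →
        ((σ x : GL Cfsg.Lie.chevG2.Idx K) : Matrix _ _ K) = Cfsg.Lie.chevG2.x K b (t ^ m) := by
    intro a b m ha hb hm x t hx
    have h := hσ x a t (by rw [hn]; exact ha) (good3_G2.eq_X hx)
    rw [h, hb, hm]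
    rfl
  refine ⟨σ, fun x t => ⟨key _ _ _ (by decide) (by decide +kernel) (by decide +kernel) x t, ?_,
    key _ _ _ (by decide) (by decide +kernel) (by decide +kernel) x t, ?_⟩⟩
  · intro hx
    have := key Cfsg.Lie.g2b Cfsg.Lie.g2a 1 (by decide) (by decide +kernel) (by decide +kernel) x t hx
    rwa [pow_one] at this
  · intro hx
    have := key Cfsg.Lie.g2mb Cfsg.Lie.g2ma 1 (by decide) (by decide +kernel) (by decide +kernel) x t hx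
    rwa [pow_one] at this

end Cfsg.Agent.S1099
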