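import Cfsg.Statements.S1100
import Cfsg.Agent.LibChevAll
import Cfsg.Agent.LibChevU2

set_option autoImplicit false
open Cfsg

namespace Cfsg.Agent.S1100

open CfsgLib.Chev


/-- Canonical form `g = b n_w u` (`b ∈ B`, `u ∈ U_w⁻ = ⟨X_r : r > 0, n_w X_r n_w⁻¹ ≤ V⟩`): such a decomposition exists for every element of the group; the coset `n_w H` is determined by `g`; and for a fixed representative `n_w` the factors `b`, `u` are unique. -/
theorem result {F : Type*} [Field F] (D : Cfsg.Lie.ChevalleyDatum) (hD : D ∈ [Cfsg.Lie.chevG2, Cfsg.Lie.chevB2, Cfsg.Lie.chevD4, Cfsg.Lie.chevF4, Cfsg.Lie.chevE6, Cfsg.Lie.chevE7, Cfsg.Lie.chevE8]) :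
    (∀ g ∈ D.group F, ∃ b ∈ D.borelSubgroup F, ∃ n ∈ D.monomialSubgroup F,
      ∃ u ∈ Subgroup.closure {x : GL D.Idx F | ∃ (r : ℕ) (t : F), D.IsPosRoot r ∧
            (D.rootSubgroup F r).map (MulAut.conj n).toMonoidHom ≤ D.negUnipotent F ∧ (x : Matrix D.Idx D.Idx F) = D.x F r t},
        g = b * n * u) ∧
    (∀ (b b' n n' u u' : GL D.Idx F), b ∈ D.borelSubgroup F → b' ∈ D.borelSubgroup F →
      n ∈ D.monomialSubgroup F → n' ∈ D.monomialSubgroup F →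
      u ∈ Subgroup.closure {x : GL D.Idx F | ∃ (r : ℕ) (t : F), D.IsPosRoot r ∧
            (D.rootSubgroup F r).map (MulAut.conj n).toMonoidHom ≤ D.negUnipotent F ∧ (x : Matrix D.Idx D.Idx F) = D.x F r t} →
      u' ∈ Subgroup.closure {x : GL D.Idx F | ∃ (r : ℕ) (t : F), D.IsPosRoot r ∧
            (D.rootSubgroup F r).map (MulAut.conj n').toMonoidHom ≤ D.negUnipotent F ∧ (x : Matrix D.Idx D.Idx F) = D.x F r t} →
      b * n * u = b' * n' * u' → n⁻¹ * n' ∈ D.diagonalSubgroup F ∧ (n = n' → b = b' ∧ u = u')) := by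
  obtain ⟨T, gd⟩ := good_of_mem hD
  constructor
  · intro x hx
    obtain ⟨b, hb, n, hn, u, hu, rfl⟩ := gd.bruhat hx
    obtain ⟨w, hw, h, hh, rfl⟩ := gd.mem_N.1 hn
    obtain ⟨a, ha, ha', c, hc, e⟩ := gd.Um_decomp (F := F) _ w rfl hw _ (gd.H_norm_U hh hu)
    have hh' : h⁻¹ ∈ D.diagonalSubgroup F := Subgroup.inv_mem _ hh
    refine ⟨b * (gd.nw w * a * (gd.nw w)⁻¹), Subgroup.mul_mem _ hb (CfsgLib.Chev.Good3.U_le_B ha'), gd.nw w * h, hn,
      h⁻¹ * c * (h⁻¹)⁻¹, ?_, ?_⟩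
    · rw [gd.Um_eq hw hh]
      exact gd.Um_H hh' hc
    · have e2 : u = h⁻¹ * (h * u * h⁻¹) * h := by group
      rw [e2, e]; group
  · intro b b' n n' u u' hb hb' hn hn' hu hu' e
    have huU : ∀ (n u : GL D.Idx F), n ∈ D.monomialSubgroup F →
        u ∈ Subgroup.closure {x : GL D.Idx F | ∃ (r : ℕ) (t : F), D.IsPosRoot r ∧
            (D.rootSubgroup F r).map (MulAut.conj n).toMonoidHom ≤ D.negUnipotent F ∧ (x : Matrix D.Idx D.Idx F) = D.x F r t} →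
        u ∈ D.borelSubgroup F ∧ n * u * n⁻¹ ∈ D.negUnipotent F := by
      intro n u hn hu
      obtain ⟨w, hw, h, hh, rfl⟩ := gd.mem_N.1 hn
      rw [gd.Um_eq hw hh] at hu
      refine ⟨CfsgLib.Chev.Good3.U_le_B (gd.Um_le_U _ hu), ?_⟩
      have h1 := gd.Um_conj hw (gd.Um_H hh hu)
      have e : gd.nw w * h * u * (gd.nw w * h)⁻¹ = gd.nw w * (h * u * h⁻¹) * (gd.nw w)⁻¹ := by group
      rw [e]; exact h1
    obtain ⟨h1, h2⟩ := huU n u hn hu
    obtain ⟨h3, h4⟩ := huU n' u' hn' hu'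
    refine ⟨?_, ?_⟩
    · apply gd.bruhat_uniq hn hn' (b := b'⁻¹ * b) (b' := u * u'⁻¹) (Subgroup.mul_mem _ (Subgroup.inv_mem _ hb') hb)
        (Subgroup.mul_mem _ h1 (Subgroup.inv_mem _ h3))
      have e2 : n' = b'⁻¹ * (b' * n' * u') * u'⁻¹ := by group
      rw [e2, ← e]; group
    · intro hnn
      subst hnn
      have e2 : b'⁻¹ * b = (n * u' * n⁻¹) * (n * u * n⁻¹)⁻¹ := by
        have : b'⁻¹ * b = b'⁻¹ * (b * n * u) * u⁻¹ * n⁻¹ := by group
        rw [this, e]; group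
      have e3 : b'⁻¹ * b = 1 := by
        apply gd.B_inf_V (Subgroup.mul_mem _ (Subgroup.inv_mem _ hb') hb)
        rw [e2]
        exact Subgroup.mul_mem _ h4 (Subgroup.inv_mem _ h2)
      have e4 : b = b' := by
        rw [inv_mul_eq_one] at e3; exact e3.symm
      subst e4
      exact ⟨rfl, mul_left_cancel e⟩

end Cfsg.Agent.S1100
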