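import Cfsg.Statements.S1101
import Cfsg.Agent.LibTwG2c

set_option autoImplicit false
open Cfsg

namespace Cfsg.Agent.S1101

open CfsgLib.Chev

/-- For ²G₂ over `K` with `|K| = 3^(2m+1)`, `θ = 3^m`: `U¹ = G¹ ∩ U` consists exactly of the elements `x_a(t^θ) x_b(t) x_{a+b}(t^{θ+1}+u^θ) x_{2a+b}(t^{2θ+1}+v^θ) x_{3a+b}(u) x_{3a+2b}(v)`, `t, u, v ∈ K`, and it has `|K|³` elements. -/
theorem result {K : Type*} [Field K] [Fintype K] {m : ℕ} (hK : Fintype.card K = 3 ^ (2 * m + 1)) :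
    (∀ g : GL Cfsg.Lie.chevG2.Idx K, g ∈ Cfsg.Lie.chevG2.posUnipotent K ⊓ Cfsg.Lie.twistedG2 K (3 ^ m) ↔
      ∃ t u v : K, (g : Matrix Cfsg.Lie.chevG2.Idx Cfsg.Lie.chevG2.Idx K) = Cfsg.Lie.chevG2.wordMat K (Cfsg.Lie.reeWordU (3 ^ m) t u v)) ∧
    Nat.card ↥(Cfsg.Lie.chevG2.posUnipotent K ⊓ Cfsg.Lie.twistedG2 K (3 ^ m)) = (3 ^ (2 * m + 1)) ^ 3 := by
  have : Fact (Nat.Prime 3) := ⟨Nat.prime_three⟩
  have : CharP K 3 := charP_of_card Nat.prime_three hK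
  obtain ⟨f, hf⟩ := exists_frobp K 3 m
  have R := TwG2.R hf hK
  have hE : Cfsg.Lie.chevG2.posUnipotent K ⊓ Cfsg.Lie.twistedG2 K (3 ^ m) = Cfsg.Lie.chevG2.posUnipotent K ⊓ (TwG2.S f).Fx := by
    rw [R.toTwR.E_eq]
  constructor
  · intro g
    constructor
    · intro hg
      rw [hE] at hg
      obtain ⟨t, u, v, e⟩ := TwG2.U_Fx hf hK hg
      refine ⟨t, u, v, ?_⟩
      rw [e, TwG2.uW_eq hf, good3_G2.wd_val]
    · rintro ⟨t, u, v, e⟩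
      have h1 : g = TwG2.uW f t u v := by
        apply Units.ext
        rw [e, TwG2.uW_eq hf, good3_G2.wd_val]
      rw [h1]
      exact ⟨TwG2.uW_U t u v, TwG2.uW_mem hf t u v⟩
  · rw [hE, TwG2.card_U hf hK, hK]

end Cfsg.Agent.S1101
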