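import Cfsg.Statements.S1118
import Mathlib
import Cfsg.Agent.LibRank1H12b

set_option autoImplicit false
open Cfsg

namespace Cfsg.Agent.S1118

open Cfsg Subgroup CfsgLib.Invol CfsgLib.FusionH12 CfsgLib.StrongH12 CfsgLib.Rank1H12


/-- In the rank-one set-up (`G` finite and doubly transitive on `Ω`, `t` an involution moving `a`, `Q` normal in `G_a` with `G_a = Q D`, `Q ⊓ D = 1` for the two-point stabiliser `D = G_a ⊓ G_{t • a}`, `|Q|` even, `|D|` odd), the normaliser of a subset of `Q` containing a non-identity element lies in `G_a`; consequently `N_G(Q) = N_G(G_a) = G_a`. -/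
theorem result {G Ω : Type*} [Group G] [Finite G] [MulAction G Ω] {a : Ω} {t : G} {Q : Subgroup G}
    (hS : Cfsg.IsRankOneSetup G Ω a t Q) :
    (∀ X : Set G, X ⊆ (Q : Set G) → (∃ x ∈ X, x ≠ 1) → Subgroup.normalizer X ≤ MulAction.stabilizer G a) ∧
      Subgroup.normalizer (Q : Set G) = MulAction.stabilizer G a ∧
      Subgroup.normalizer (MulAction.stabilizer G a : Set G) = MulAction.stabilizer G a := by
  have h1 : ∀ X : Set G, X ⊆ (Q : Set G) → (∃ x ∈ X, x ≠ 1) →
      Subgroup.normalizer X ≤ MulAction.stabilizer G a := by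
    rintro X hX ⟨x, hx, hx1⟩ g hg
    have h2 : g * x * g⁻¹ ∈ X := (Subgroup.mem_set_normalizer_iff.1 hg x).1 hx
    have h3 : (g * x * g⁻¹) • (g • a) = g • a := by
      rw [mul_smul, mul_smul, inv_smul_smul, Q_fix hS (hX hx)]
    rw [MulAction.mem_stabilizer_iff]
    by_contra hne
    have h4 := Q_free hS hne (hX h2) h3
    apply hx1
    have : x = g⁻¹ * (g * x * g⁻¹) * g := by group
    rw [this, h4]; group
  obtain ⟨z, hz, hz2⟩ := exists_involution_mem hS.even_card
  have hz1 : z ≠ 1 := ne_one hz2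
  have h2 : Subgroup.normalizer (Q : Set G) = MulAction.stabilizer G a := by
    apply le_antisymm
    · exact h1 Q le_rfl ⟨z, hz, hz1⟩
    · intro d hd
      rw [mem_nrm]
      apply Subgroup.eq_of_le_of_card_ge
      · rw [cj_le']
        intro x hx
        exact hS.conj_mem d hd x hx
      · rw [card_cj]
  refine ⟨h1, h2, le_antisymm ?_ Subgroup.le_normalizer⟩
  intro g hg
  rw [mem_nrm, ← stab_smul] at hg
  rw [MulAction.mem_stabilizer_iff]
  by_contra hne
  apply hz1
  apply Q_free hS hne hz
  have : z ∈ MulAction.stabilizer G (g • a) := by rw [hg]; exact hS.le hz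
  exact MulAction.mem_stabilizer_iff.1 this

end Cfsg.Agent.S1118
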