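import Cfsg.Statements.S1120
import Mathlib
import Cfsg.Agent.LibRank1H12b

set_option autoImplicit false
open Cfsg

namespace Cfsg.Agent.S1120

open Cfsg Subgroup CfsgLib.Invol CfsgLib.FusionH12 CfsgLib.StrongH12 CfsgLib.Rank1H12


/-- In the rank-one set-up (`G` finite and doubly transitive on `Ω`, `t` an involution moving `a`, `Q` normal in `G_a` with `G_a = Q D`, `Q ⊓ D = 1` for the two-point stabiliser `D = G_a ⊓ G_{t • a}`, `|Q|` even, `|D|` odd), if `G` has 2-rank at least 2 then `O_{2'}(G)` equals the normal core of `G_a`. -/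
theorem result {G Ω : Type*} [Group G] [Finite G] [MulAction G Ω] {a : Ω} {t : G} {Q : Subgroup G}
    (hS : Cfsg.IsRankOneSetup G Ω a t Q)
    (h2 : ∃ x y : G, x ≠ 1 ∧ y ≠ 1 ∧ x ≠ y ∧ x * x = 1 ∧ y * y = 1 ∧ x * y = y * x) :
    Cfsg.pPrimeCore 2 G = (MulAction.stabilizer G a).normalCore := by
  apply le_antisymm
  · have hn : (pPrimeCore 2 G).Normal := inferInstance
    have hodd := CfsgLib.Cores.pPrimeCore_coprime (G := G) 2
    obtain ⟨x, y, hx1, hy1, hxy, hx, hy, hc⟩ := h2
    have hxo : orderOf x = 2 := orderOf_eq_two hx1 hx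
    have hyo : orderOf y = 2 := orderOf_eq_two hy1 hy
    have hz1 : x * y ≠ 1 := fun h => hxy (by
      have := eq_inv_of_mul_eq_one_left h
      rw [this, inv_eq hyo])
    have hzo : orderOf (x * y) = 2 := by
      apply orderOf_eq_two hz1
      calc x * y * (x * y) = (y * x) * (x * y) := by rw [hc]
        _ = y * (x * x) * y := by group
        _ = 1 := by rw [hx, mul_one, hy]
    obtain ⟨b, hb, -⟩ := unique_fix' hS hxo
    have hb' : x • b = b := hb
    have hyb : y • b = b := fix_of_comm hS hxo hb' hc.symm
    have hzb : (x * y) • b = b := by rw [mul_smul, hyb, hb']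
    let V : Subgroup G := closure {x, y}
    have hVel : ∀ v ∈ V, v = 1 ∨ v = x ∨ v = y ∨ v = x * y := by
      intro v hv
      rcases mem_closure_pair hxo hyo hv with ⟨n, rfl⟩ | ⟨n, rfl⟩
      · rcases Int.even_or_odd' n with ⟨k, rfl | rfl⟩
        · left; rw [zpow_mul, zpow_two, ← pow_two, ← hzo, pow_orderOf_eq_one, one_zpow]
        · right; right; right
          rw [zpow_add, zpow_mul, zpow_two, ← pow_two]
          nth_rw 1 [← hzo]
          rw [pow_orderOf_eq_one, one_zpow, one_mul, zpow_one]
      · rcases Int.even_or_odd' n with ⟨k, rfl | rfl⟩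
        · right; left; rw [zpow_mul, zpow_two, ← pow_two]
          nth_rw 1 [← hzo]
          rw [pow_orderOf_eq_one, one_zpow, one_mul]
        · right; right; left
          rw [zpow_add, zpow_mul, zpow_two, ← pow_two]
          nth_rw 1 [← hzo]
          rw [pow_orderOf_eq_one, one_zpow, one_mul, zpow_one, hc, mul_assoc, hx, mul_one]
    have hxV : x ∈ V := subset_closure (by simp)
    have hyV : y ∈ V := subset_closure (by simp)
    have hVfix : ∀ v ∈ V, v ≠ 1 → orderOf v = 2 ∧ v • b = b := by
      intro v hv hv1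
      rcases hVel v hv with rfl | rfl | rfl | rfl
      · exact absurd rfl hv1
      · exact ⟨hxo, hb'⟩
      · exact ⟨hyo, hyb⟩
      · exact ⟨hzo, hzb⟩
    haveI hVc : IsMulCommutative V := by
      refine ⟨⟨fun u v => ?_⟩⟩
      apply Subtype.ext
      change (u : G) * v = v * u
      have hcomm : ∀ u ∈ V, u * u = 1 := by
        intro u hu
        by_cases h : u = 1
        · rw [h, one_mul]
        · exact mul_self (hVfix u hu h).1
      have h1 := hcomm _ (mul_mem u.2 v.2)
      have h2 := hcomm _ u.2
      have h3 := hcomm _ v.2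
      calc (u : G) * v = (u * v)⁻¹ := (eq_inv_of_mul_eq_one_left h1)
        _ = (v : G)⁻¹ * (u : G)⁻¹ := mul_inv_rev _ _
        _ = v * u := by rw [← eq_inv_of_mul_eq_one_left h2, ← eq_inv_of_mul_eq_one_left h3]
    have hVnc : ¬ IsCyclic V := by
      intro hcyc
      classical
      haveI := Fintype.ofFinite V
      have hcard : Nat.card {v : V // v ^ 2 = 1} ≤ 2 := by
        have := IsCyclic.card_pow_eq_one_le (α := V) (n := 2) (by norm_num)
        rw [Nat.card_eq_fintype_card, Fintype.card_subtype]
        exact this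
      have hinj : Function.Injective (fun i : Fin 3 => (![⟨⟨x, hxV⟩, Subtype.ext (by simpa [pow_two] using hx)⟩,
        ⟨⟨y, hyV⟩, Subtype.ext (by simpa [pow_two] using hy)⟩,
        ⟨1, one_pow 2⟩] i : {v : V // v ^ 2 = 1})) := by
        intro i j hij
        fin_cases i <;> fin_cases j <;> simp_all [Subtype.ext_iff]
      have := Nat.card_le_card_of_injective _ hinj
      rw [Nat.card_fin] at this
      omega
    have hcop : (Nat.card V).Coprime (Nat.card (pPrimeCore 2 G)) := by
      have hVp : IsPGroup 2 V := by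
        intro v
        refine ⟨1, ?_⟩
        by_cases h : v = 1
        · rw [h]; simp
        · have := (hVfix v v.2 (fun h' => h (Subtype.ext h'))).1
          apply Subtype.ext
          rw [pow_one, coe_pow, coe_one, ← this, pow_orderOf_eq_one]
      haveI : Fact (Nat.Prime 2) := ⟨Nat.prime_two⟩
      obtain ⟨n, hn⟩ := hVp.exists_card_eq
      rw [hn]
      exact Nat.Coprime.pow_left n hodd.symm
    have hgen := CfsgLib.Coprime2.generation_noncyclic (A := V) hVnc (K := pPrimeCore 2 G)
      (by rw [normalizer_eq_top]; exact le_top) hcop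
    have hle : pPrimeCore 2 G ≤ MulAction.stabilizer G b := by
      rw [← hgen]
      apply iSup₂_le
      rintro v ⟨hv, hv1⟩ g hg
      obtain ⟨-, hg2⟩ := mem_inf.1 hg
      rw [mem_centralizer_singleton_iff] at hg2
      obtain ⟨hvo, hvb⟩ := hVfix v hv hv1
      exact MulAction.mem_stabilizer_iff.2 (fix_of_comm hS hvo hvb hg2)
    rw [Subgroup.normal_le_normalCore]
    obtain ⟨g, hg⟩ := trans hS b a
    rw [← hg, stab_smul, ← cj_of_normal g (pPrimeCore 2 G)]
    exact cj_mono hle
  · apply CfsgLib.Cores.le_pPrimeCore inferInstance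
    rw [Nat.coprime_two_right]
    have hle : (MulAction.stabilizer G a).normalCore ≤ D2 a t := by
      apply le_inf (normalCore_le _)
      rw [stab_smul, ← cj_of_normal t (MulAction.stabilizer G a).normalCore]
      exact cj_mono (normalCore_le _)
    exact hS.odd_card.of_dvd_nat (card_dvd_of_le hle)

end Cfsg.Agent.S1120
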