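import Cfsg.Statements.S1124
import Mathlib
import Cfsg.Agent.LibRank1H12b

set_option autoImplicit false
open scoped Pointwise
open Cfsg

namespace Cfsg.Agent.S1124

open Cfsg Subgroup CfsgLib.Invol CfsgLib.FusionH12 CfsgLib.StrongH12 CfsgLib.Rank1H12


/-- Let `t` be an element of order 2 of a finite group normalising a subgroup `X` of odd order, `Y = C_X(t)` and `Z` the set of elements of `X` inverted by `t`. Then `(y, z) ↦ y z` is a bijection `Y × Z → X`, so `|X| = |Y| |Z|`, and the subgroup generated by `Z` is normal in `X`. -/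
theorem result {M : Type*} [Group M] [Finite M]
    (t : M) (ht : orderOf t = 2) (X : Subgroup M) (hodd : Odd (Nat.card X))
    (hnorm : ∀ x ∈ X, t * x * t⁻¹ ∈ X) :
    (∀ x ∈ X, ∃! p : M × M, p.1 ∈ X ⊓ Subgroup.centralizer {t} ∧ p.2 ∈ Cfsg.invertedBy X t ∧ x = p.1 * p.2) ∧
      Nat.card X = Nat.card ↥(X ⊓ Subgroup.centralizer {t}) * Nat.card (Cfsg.invertedBy X t) ∧
      ∀ x ∈ X, MulAut.conj x • Subgroup.closure (Cfsg.invertedBy X t) = Subgroup.closure (Cfsg.invertedBy X t) := by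
  have hmemC : ∀ {c : M}, c ∈ X ⊓ Subgroup.centralizer {t} ↔ c ∈ X ∧ Commute c t := by
    intro c
    rw [mem_inf, mem_centralizer_singleton_iff]; exact Iff.rfl
  have hfac : ∀ x ∈ X, ∃! p : M × M, p.1 ∈ X ⊓ Subgroup.centralizer {t} ∧ p.2 ∈ invertedBy X t ∧
      x = p.1 * p.2 := by
    intro x hx
    obtain ⟨f, hf, hft, hc⟩ := factor ht hodd hnorm hx
    refine ⟨(x * f⁻¹, f), ⟨hmemC.2 ⟨mul_mem hx (inv_mem hf), hc⟩, ⟨hf, hft⟩, by simp⟩, ?_⟩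
    rintro ⟨c', f'⟩ ⟨hc', hf', h⟩
    simp only at hc' hf' h
    have h2 := factor_unique ht hodd hf'.1 hf (hmemC.1 hc').2 hc hf'.2 hft (by rw [← h]; simp)
    exact Prod.ext h2.1 h2.2
  refine ⟨hfac, ?_, ?_⟩
  · rw [← Nat.card_prod]
    symm
    refine Nat.card_eq_of_bijective (fun p : ↥(X ⊓ Subgroup.centralizer {t}) × invertedBy X t =>
      (⟨p.1.1 * p.2.1, mul_mem (hmemC.1 p.1.2).1 p.2.2.1⟩ : X)) ⟨?_, ?_⟩
    · rintro ⟨⟨c, hc⟩, ⟨f, hf⟩⟩ ⟨⟨c', hc'⟩, ⟨f', hf'⟩⟩ h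
      have h' : c * f = c' * f' := congrArg Subtype.val h
      have h2 := factor_unique ht hodd hf.1 hf'.1 (hmemC.1 hc).2 (hmemC.1 hc').2 hf.2 hf'.2 h'
      obtain ⟨rfl, rfl⟩ := h2
      rfl
    · rintro ⟨x, hx⟩
      obtain ⟨⟨c, f⟩, ⟨hc, hf, h⟩, -⟩ := hfac x hx
      exact ⟨⟨⟨c, hc⟩, ⟨f, hf⟩⟩, Subtype.ext h.symm⟩
  · intro x hx
    change (Subgroup.closure (invertedBy X t)).map (MulAut.conj x).toMonoidHom = _
    apply Subgroup.eq_of_le_of_card_ge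
    · change cj x _ ≤ _
      obtain ⟨f, hf, hft, hc⟩ := factor ht hodd hnorm hx
      have hcX : x * f⁻¹ ∈ X := mul_mem hx (inv_mem hf)
      have hxe : x = (x * f⁻¹) * f := by simp
      rw [hxe, cj_mul, cj_of_mem (D := Subgroup.closure (invertedBy X t)) (Subgroup.subset_closure (show f ∈ invertedBy X t from ⟨hf, hft⟩)), cj_le_iff, closure_le]
      intro j hj
      rw [SetLike.mem_coe, mem_cj, inv_inv]
      apply Subgroup.subset_closure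
      refine ⟨mul_mem (mul_mem hcX hj.1) (inv_mem hcX), ?_⟩
      have h1 : t * (x * f⁻¹) = (x * f⁻¹) * t := hc.eq.symm
      have h2 : (x * f⁻¹)⁻¹ * t⁻¹ = t⁻¹ * (x * f⁻¹)⁻¹ := by
        rw [← mul_inv_rev, h1, mul_inv_rev]
      calc t * ((x * f⁻¹) * j * (x * f⁻¹)⁻¹) * t⁻¹ = (t * (x * f⁻¹)) * j * ((x * f⁻¹)⁻¹ * t⁻¹) := by group
        _ = (x * f⁻¹) * (t * j * t⁻¹) * (x * f⁻¹)⁻¹ := by rw [h1, h2]; group
        _ = ((x * f⁻¹) * j * (x * f⁻¹)⁻¹)⁻¹ := by rw [hj.2]; group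
    · change _ ≤ Nat.card (cj x _)
      rw [card_cj]

end Cfsg.Agent.S1124
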