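import Cfsg.Statements.S1125
import Mathlib
import Cfsg.Agent.LibRank1H12b

set_option autoImplicit false
open Cfsg

namespace Cfsg.Agent.S1125

open Cfsg Subgroup CfsgLib.Invol CfsgLib.FusionH12 CfsgLib.StrongH12 CfsgLib.Rank1H12


/-- In the rank-one set-up (`G` finite and doubly transitive on `Ω`, `t` an involution moving `a`, `Q` normal in `G_a` with `G_a = Q D`, `Q ⊓ D = 1` for the two-point stabiliser `D = G_a ⊓ G_{t • a}`, `|Q|` even, `|D|` odd), let `X ⊆ D` fix at least three points of `Ω`. Then `C_G(X)` is doubly transitive on the fixed-point set of `X`, `|C_Q(X)|` is even, and `C_{G_a}(X) = C_Q(X) C_D(X)`. -/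
theorem result {G Ω : Type*} [Group G] [Finite G] [MulAction G Ω] {a : Ω} {t : G} {Q : Subgroup G}
    (hS : Cfsg.IsRankOneSetup G Ω a t Q)
    (X : Set G) (hX : X ⊆ ((MulAction.stabilizer G a ⊓ MulAction.stabilizer G (t • a)) : Set G))
    (h3 : ∃ b c d : Ω, b ≠ c ∧ b ≠ d ∧ c ≠ d ∧ ∀ x ∈ X, x • b = b ∧ x • c = c ∧ x • d = d) :
    (∀ b₁ b₂ c₁ c₂ : Ω, (∀ x ∈ X, x • b₁ = b₁ ∧ x • b₂ = b₂ ∧ x • c₁ = c₁ ∧ x • c₂ = c₂) →
        b₁ ≠ b₂ → c₁ ≠ c₂ → ∃ g ∈ Subgroup.centralizer X, g • b₁ = c₁ ∧ g • b₂ = c₂) ∧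
      Even (Nat.card ↥(Subgroup.centralizer X ⊓ Q)) ∧
      (Subgroup.centralizer X ⊓ Q) ⊔ (Subgroup.centralizer X ⊓ (MulAction.stabilizer G a ⊓ MulAction.stabilizer G (t • a))) = Subgroup.centralizer X ⊓ MulAction.stabilizer G a := by
  have hXa : ∀ x ∈ X, x • a = a := fun x hx =>
    MulAction.mem_stabilizer_iff.1 (Set.mem_of_mem_inter_left (hX hx))
  have hXta : ∀ x ∈ X, x • t • a = t • a := fun x hx =>
    MulAction.mem_stabilizer_iff.1 (Set.mem_of_mem_inter_right (hX hx))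
  refine ⟨?_, odd_fix hS hXa h3, ?_⟩
  · intro b₁ b₂ c₁ c₂ hfix hb hc
    exact cent_two_trans hS h3 hfix hb hc
  · apply le_antisymm
    · apply sup_le
      · exact le_inf inf_le_left (inf_le_right.trans hS.le)
      · exact le_inf inf_le_left (inf_le_right.trans inf_le_left)
    · intro g hg
      obtain ⟨hg1, hg2⟩ := mem_inf.1 hg
      have h4 : g • (t • a) ≠ a := by
        intro h
        apply ta_ne hS
        exact smul_left_cancel g (h.trans (MulAction.mem_stabilizer_iff.1 hg2).symm)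
      have h5 : ∀ x ∈ X, x • (g • (t • a)) = g • (t • a) := by
        intro x hx
        rw [smul_smul, (mem_centralizer_iff.1 hg1) x hx, mul_smul, hXta x hx]
      obtain ⟨q, hq, hqc⟩ := Q_cent hS hXa (ta_ne hS) h4 hXta h5
      have h6 : q⁻¹ * g ∈ Subgroup.centralizer X ⊓
          (MulAction.stabilizer G a ⊓ MulAction.stabilizer G (t • a)) := by
        rw [mem_inf, mem_inf]
        refine ⟨mul_mem (inv_mem hq.1) hg1, mul_mem (inv_mem (hS.le hq.2)) hg2, ?_⟩
        rw [MulAction.mem_stabilizer_iff, mul_smul, inv_smul_eq_iff, hqc]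
      have h7 := mul_mem ((le_sup_left : Subgroup.centralizer X ⊓ Q ≤ (Subgroup.centralizer X ⊓ Q) ⊔
        (Subgroup.centralizer X ⊓ (MulAction.stabilizer G a ⊓ MulAction.stabilizer G (t • a)))) hq)
        ((le_sup_right : _ ≤ (Subgroup.centralizer X ⊓ Q) ⊔
        (Subgroup.centralizer X ⊓ (MulAction.stabilizer G a ⊓ MulAction.stabilizer G (t • a)))) h6)
      rwa [mul_inv_cancel_left] at h7

end Cfsg.Agent.S1125
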