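import Cfsg.Statements.S1127
import Mathlib
import Cfsg.Agent.LibRank1H12b

set_option autoImplicit false
open Cfsg

namespace Cfsg.Agent.S1127

open Cfsg Subgroup CfsgLib.Invol CfsgLib.FusionH12 CfsgLib.StrongH12 CfsgLib.Rank1H12


/-- In the rank-one set-up (`G` finite and doubly transitive on `Ω`, `t` an involution moving `a`, `Q` normal in `G_a` with `G_a = Q D`, `Q ⊓ D = 1` for the two-point stabiliser `D = G_a ⊓ G_{t • a}`, `|Q|` even, `|D|` odd): if `s` is an involution of `G_a` and `r ∈ Q` satisfy `t s t = r⁻¹ t r`, then `C_D(t) = C_D(s)`; moreover `C_D(t) ⊓ C_D(K) = C_D(I ∩ G_a)`, where `K` is the set of elements of `D` inverted by `t` and `I ∩ G_a` the set of involutions of `G_a`. -/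
theorem result {G Ω : Type*} [Group G] [Finite G] [MulAction G Ω] {a : Ω} {t : G} {Q : Subgroup G}
    (hS : Cfsg.IsRankOneSetup G Ω a t Q) :
    (∀ s r : G, s ∈ Cfsg.involutionsIn (MulAction.stabilizer G a : Set G) → r ∈ Q → t * s * t = r⁻¹ * t * r →
        (MulAction.stabilizer G a ⊓ MulAction.stabilizer G (t • a)) ⊓ Subgroup.centralizer {t} = (MulAction.stabilizer G a ⊓ MulAction.stabilizer G (t • a)) ⊓ Subgroup.centralizer {s}) ∧
      (MulAction.stabilizer G a ⊓ MulAction.stabilizer G (t • a)) ⊓ Subgroup.centralizer {t} ⊓ Subgroup.centralizer (Cfsg.invertedBy (MulAction.stabilizer G a ⊓ MulAction.stabilizer G (t • a)) t) =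
        (MulAction.stabilizer G a ⊓ MulAction.stabilizer G (t • a)) ⊓ Subgroup.centralizer (Cfsg.involutionsIn (MulAction.stabilizer G a : Set G)) := by
  have ht := t_order hS
  have ht2 := mul_self ht
  obtain ⟨⟨s₀, r₀⟩, ⟨hs₀, hr₀, he₀⟩, huniq⟩ := structure_eq hS
  simp only at hs₀ hr₀ he₀
  have hC1 : ∀ d ∈ D2 a t, Commute d t → Commute d s₀ := by
    intro d hd hdt
    have h1 := huniq (d * s₀ * d⁻¹, d * r₀ * d⁻¹) ⟨?_, ?_, ?_⟩
    · have h2 : d * s₀ * d⁻¹ = s₀ := congrArg Prod.fst h1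
      exact mul_inv_eq_iff_eq_mul.1 h2
    · rw [mem_involutionsIn] at hs₀ ⊢
      exact ⟨mul_mem (mul_mem (mem_inf.1 hd).1 hs₀.1) (inv_mem (mem_inf.1 hd).1),
        by rw [orderOf_conj, hs₀.2]⟩
    · exact hS.conj_mem d (mem_inf.1 hd).1 r₀ hr₀
    · simp only
      have h3 : t * d = d * t := hdt.eq.symm
      have h4 : d⁻¹ * t = t * d⁻¹ := by
        rw [inv_mul_eq_iff_eq_mul, ← mul_assoc, ← h3, mul_inv_cancel_right]
      calc t * (d * s₀ * d⁻¹) * t = (t * d) * s₀ * (d⁻¹ * t) := by group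
        _ = d * (t * s₀ * t) * d⁻¹ := by rw [h3, h4]; group
        _ = d * (r₀⁻¹ * t * r₀) * d⁻¹ := by rw [he₀]
        _ = (d * r₀⁻¹) * (d⁻¹ * (d * t) * d⁻¹) * (d * r₀ * d⁻¹) := by group
        _ = (d * r₀⁻¹) * (d⁻¹ * (t * d) * d⁻¹) * (d * r₀ * d⁻¹) := by rw [h3]
        _ = _ := by group
  have hinv : ∀ d ∈ D2 a t, t * d * t⁻¹ ∈ D2 a t := normalizes_D hS
  have hs₀' := mem_involutionsIn.1 hs₀
  -- the converse
  have hC2 : ∀ d ∈ D2 a t, Commute d s₀ → Commute d t := by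
    intro d hd hds
    obtain ⟨f, hf, hft, hc⟩ := factor ht hS.odd_card hinv hd
    have h1 : Commute (d * f⁻¹) s₀ := hC1 _ (mul_mem hd (inv_mem hf)) hc
    have h2 : Commute f s₀ := by
      have := h1.inv_left.mul_left hds
      have h3 : (d * f⁻¹)⁻¹ * d = f := by group
      rwa [h3] at this
    have h3 : f = 1 := by
      apply K_conj_inj hS hs₀'.1 hs₀'.2 (k := f) (l := 1) ⟨hf, hft⟩ ⟨one_mem _, by simp⟩
      rw [mul_assoc, ← h2.eq, inv_mul_cancel_left]; simp
    rw [h3, inv_one, mul_one] at hc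
    exact hc
  have hmem : ∀ (s d : G), d ∈ (MulAction.stabilizer G a ⊓ MulAction.stabilizer G (t • a)) ⊓
      Subgroup.centralizer {s} ↔ d ∈ D2 a t ∧ Commute d s := by
    intro s d
    refine Subgroup.mem_inf.trans ?_
    rw [mem_centralizer_singleton_iff]; exact Iff.rfl
  refine ⟨?_, ?_⟩
  · intro s r hs hr hsr
    have h1 := huniq (s, r) ⟨hs, hr, hsr⟩
    have h2 : s = s₀ := congrArg Prod.fst h1
    subst h2
    ext d
    rw [hmem, hmem]
    exact ⟨fun h => ⟨h.1, hC1 d h.1 h.2⟩, fun h => ⟨h.1, hC2 d h.1 h.2⟩⟩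
  · ext d
    rw [mem_inf, hmem]
    refine Iff.trans ?_ Subgroup.mem_inf.symm
    constructor
    · rintro ⟨⟨hd, hdt⟩, hdK⟩
      refine ⟨hd, ?_⟩
      change d ∈ Subgroup.centralizer _
      rw [mem_centralizer_iff] at hdK ⊢
      intro s hs
      have hs' := mem_involutionsIn.1 hs
      obtain ⟨k, hk, hks⟩ := K_trans hS hs₀'.1 hs₀'.2 hs'.1 hs'.2
      have h1 : Commute k d := hdK k hk
      have h2 : Commute s₀ d := (hC1 d hd hdt).symm
      rw [← hks]
      exact (h1.inv_left.mul_left h2).mul_left h1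
    · rintro ⟨hd, hdI⟩
      change d ∈ Subgroup.centralizer _ at hdI
      rw [mem_centralizer_iff] at hdI
      have hds : Commute d s₀ := (hdI s₀ hs₀).symm
      have hdt := hC2 d hd hds
      refine ⟨⟨hd, hdt⟩, ?_⟩
      rw [mem_centralizer_iff]
      intro k hk
      -- d k d⁻¹ is again in K and conjugates s₀ in the same way
      have h1 : d * k * d⁻¹ ∈ invertedBy (D2 a t) t := by
        refine ⟨mul_mem (mul_mem hd hk.1) (inv_mem hd), ?_⟩
        have h3 : t * d = d * t := hdt.eq.symm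
        have h4 : d⁻¹ * t⁻¹ = t⁻¹ * d⁻¹ := by rw [← mul_inv_rev, h3, mul_inv_rev]
        calc t * (d * k * d⁻¹) * t⁻¹ = (t * d) * k * (d⁻¹ * t⁻¹) := by group
          _ = d * (t * k * t⁻¹) * d⁻¹ := by rw [h3, h4]; group
          _ = (d * k * d⁻¹)⁻¹ := by rw [hk.2]; group
      have h5 : ∀ s ∈ involutionsIn (MulAction.stabilizer G a : Set G), d⁻¹ * s * d = s := by
        intro s hs
        rw [mul_assoc, hdI s hs, inv_mul_cancel_left]
      have h6 : ∀ s ∈ involutionsIn (MulAction.stabilizer G a : Set G), d * s * d⁻¹ = s := by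
        intro s hs
        rw [← hdI s hs, mul_inv_cancel_right]
      have h7 : d * k * d⁻¹ = k := by
        apply K_conj_inj hS hs₀'.1 hs₀'.2 h1 hk
        have h8 : k⁻¹ * s₀ * k ∈ involutionsIn (MulAction.stabilizer G a : Set G) := by
          rw [mem_involutionsIn]
          exact ⟨mul_mem (mul_mem (inv_mem hk.1.1) hs₀'.1) hk.1.1, by rw [orderOf_conj', hs₀'.2]⟩
        calc (d * k * d⁻¹)⁻¹ * s₀ * (d * k * d⁻¹) = d * (k⁻¹ * (d⁻¹ * s₀ * d) * k) * d⁻¹ := by group
          _ = d * (k⁻¹ * s₀ * k) * d⁻¹ := by rw [h5 s₀ hs₀]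
          _ = k⁻¹ * s₀ * k := h6 _ h8
      exact (mul_inv_eq_iff_eq_mul.1 h7).symm

end Cfsg.Agent.S1127
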