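import Cfsg.Statements.S1134
import Cfsg.Agent.LibRank1H12b

set_option autoImplicit false
set_option linter.all false
open Cfsg

namespace Cfsg.Agent.S1134

open Cfsg Subgroup CfsgLib.Invol CfsgLib.FusionH12 CfsgLib.StrongH12 CfsgLib.Rank1H12

/-- In the rank-one set-up (`G` finite and doubly transitive on `Ω`, `t` an involution moving `a`, `Q` normal in `G_a` with `G_a = Q D`, `Q ⊓ D = 1` for the two-point stabiliser `D = G_a ⊓ G_{t • a}`, `|Q|` even, `|D|` odd), with the action faithful and `G` containing two distinct commuting involutions, with `V = C_D(t)`: subsets of `V` conjugate in `G` are conjugate in `V`. -/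
theorem result {G Ω : Type*} [Group G] [Finite G] [MulAction G Ω] [FaithfulSMul G Ω] {a : Ω} {t : G} {Q : Subgroup G}
    (hS : Cfsg.IsRankOneSetup G Ω a t Q)
    (h2 : ∃ x y : G, x ≠ 1 ∧ y ≠ 1 ∧ x ≠ y ∧ x * x = 1 ∧ y * y = 1 ∧ x * y = y * x)
    (X : Set G) (hX : X ⊆ (((MulAction.stabilizer G a ⊓ MulAction.stabilizer G (t • a)) ⊓ Subgroup.centralizer {t} : Subgroup G) : Set G)) (g : G)
    (hY : (fun x => g * x * g⁻¹) '' X ⊆ (((MulAction.stabilizer G a ⊓ MulAction.stabilizer G (t • a)) ⊓ Subgroup.centralizer {t} : Subgroup G) : Set G)) :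
    ∃ v ∈ (MulAction.stabilizer G a ⊓ MulAction.stabilizer G (t • a)) ⊓ Subgroup.centralizer {t}, (fun x => v * x * v⁻¹) '' X = (fun x => g * x * g⁻¹) '' X := by
  have ht := t_order hS
  have ht2 := mul_self ht
  have htt : t⁻¹ = t := inv_eq ht
  obtain ⟨b, hb, -⟩ := unique_fix' hS ht
  have hb' : t • b = b := hb
  have hba : b ≠ a := by
    rintro rfl
    exact ta_ne hS hb'
  have hbta : b ≠ t • a := by
    intro h
    apply hba
    have h1 := hb'
    rw [h] at h1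
    have h2 := smul_left_cancel t h1
    rw [h, h2]
  have hXm : ∀ x ∈ X, x ∈ D2 a t ∧ x * t = t * x := by
    intro x hx
    have h := hX hx
    obtain ⟨h1, h2⟩ := mem_inf.1 h
    rw [mem_centralizer_singleton_iff] at h2
    exact ⟨h1, h2⟩
  have hYm : ∀ x ∈ X, g * x * g⁻¹ ∈ D2 a t ∧ (g * x * g⁻¹) * t = t * (g * x * g⁻¹) := by
    intro x hx
    have h := hY ⟨x, hx, rfl⟩
    obtain ⟨h1, h2⟩ := mem_inf.1 h
    rw [mem_centralizer_singleton_iff] at h2
    exact ⟨h1, h2⟩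
  have hXa : ∀ x ∈ X, x • a = a := fun x hx => MulAction.mem_stabilizer_iff.1 (mem_inf.1 (hXm x hx).1).1
  have hXta : ∀ x ∈ X, x • t • a = t • a := fun x hx => MulAction.mem_stabilizer_iff.1 (mem_inf.1 (hXm x hx).1).2
  have hXb : ∀ x ∈ X, x • b = b := fun x hx => fix_of_comm hS ht hb' (hXm x hx).2
  have hYa : ∀ x ∈ X, x • (g⁻¹ • a) = g⁻¹ • a := by
    intro x hx
    have h := MulAction.mem_stabilizer_iff.1 (mem_inf.1 (hYm x hx).1).1
    rw [mul_smul, mul_smul] at h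
    exact (eq_inv_smul_iff.2 h)
  have hYta : ∀ x ∈ X, x • (g⁻¹ • (t • a)) = g⁻¹ • (t • a) := by
    intro x hx
    have h := MulAction.mem_stabilizer_iff.1 (mem_inf.1 (hYm x hx).1).2
    rw [mul_smul, mul_smul] at h
    exact (eq_inv_smul_iff.2 h)
  obtain ⟨c, hc, hc1, hc2⟩ := cent_two_trans hS ⟨a, t • a, b, (ta_ne hS).symm, hba.symm, hbta.symm,
    fun x hx => ⟨hXa x hx, hXta x hx, hXb x hx⟩⟩ (b₁ := g⁻¹ • a) (b₂ := g⁻¹ • (t • a)) (c₁ := a) (c₂ := t • a)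
    (fun x hx => ⟨hYa x hx, hYta x hx, hXa x hx, hXta x hx⟩)
    (fun h => (ta_ne hS).symm (smul_left_cancel g⁻¹ h)) (ta_ne hS).symm
  have hhD : g * c⁻¹ ∈ D2 a t := by
    have h1 : c * g⁻¹ ∈ D2 a t := by
      rw [mem_inf, MulAction.mem_stabilizer_iff, MulAction.mem_stabilizer_iff, mul_smul, mul_smul]
      exact ⟨hc1, hc2⟩
    have h2 := inv_mem h1
    rwa [mul_inv_rev, inv_inv] at h2
  obtain ⟨f, hf, hft, hfc⟩ := factor ht (X := D2 a t) hS.odd_card (normalizes_D hS) hhD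
  have hcx : ∀ x ∈ X, (g * c⁻¹) * x * (g * c⁻¹)⁻¹ = g * x * g⁻¹ := by
    intro x hx
    have h1 := (mem_centralizer_iff.1 hc) x hx
    calc (g * c⁻¹) * x * (g * c⁻¹)⁻¹ = g * (c⁻¹ * (x * c)) * g⁻¹ := by group
      _ = g * (c⁻¹ * (c * x)) * g⁻¹ := by rw [h1]
      _ = g * x * g⁻¹ := by group
  have hfx : ∀ x ∈ X, f * x = x * f := by
    intro x hx
    have h1 : Commute (f * x * f⁻¹) t := by
      have h2 : f * x * f⁻¹ = (g * c⁻¹ * f⁻¹)⁻¹ * (g * x * g⁻¹) * (g * c⁻¹ * f⁻¹) := by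
        rw [← hcx x hx]; group
      rw [h2]
      exact ((hfc.inv_left).mul_left (hYm x hx).2).mul_left hfc
    have h3 : f * x * f⁻¹ = f⁻¹ * x * f := by
      calc f * x * f⁻¹ = (f * x * f⁻¹) * t * t⁻¹ := by group
        _ = t * (f * x * f⁻¹) * t⁻¹ := by rw [h1.eq]
        _ = (t * f * t⁻¹) * (t * x * t⁻¹) * (t * f * t⁻¹)⁻¹ := by group
        _ = f⁻¹ * x * f := by
          rw [hft, inv_inv, show t * x * t⁻¹ = x by rw [← (hXm x hx).2]; group]
    have h4 : Commute (f ^ 2) x := by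
      change f ^ 2 * x = x * f ^ 2
      calc f ^ 2 * x = f * (f * x * f⁻¹) * f := by rw [pow_two]; group
        _ = f * (f⁻¹ * x * f) * f := by rw [h3]
        _ = x * f ^ 2 := by rw [pow_two]; group
    obtain ⟨n, hn⟩ := exists_sqrt (odd_order hS.odd_card hf)
    have h5 : f = (f ^ 2) ^ n := by
      rw [← pow_mul, mul_comm, pow_mul]; exact hn.symm
    rw [h5]
    exact (h4.pow_left n).eq
  refine ⟨g * c⁻¹ * f⁻¹, mem_inf.2 ⟨mul_mem hhD (inv_mem hf), ?_⟩, ?_⟩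
  · rw [mem_centralizer_singleton_iff]; exact hfc.eq
  · apply Set.image_congr
    intro x hx
    change (g * c⁻¹ * f⁻¹) * x * (g * c⁻¹ * f⁻¹)⁻¹ = g * x * g⁻¹
    rw [← hcx x hx]
    have h6 : f⁻¹ * x * f = x := by
      rw [mul_assoc, ← hfx x hx, inv_mul_cancel_left]
    calc (g * c⁻¹ * f⁻¹) * x * (g * c⁻¹ * f⁻¹)⁻¹ = (g * c⁻¹) * (f⁻¹ * x * f) * (g * c⁻¹)⁻¹ := by group
      _ = _ := by rw [h6]

end Cfsg.Agent.S1134
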