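import Cfsg.Statements.S1137
import Cfsg.Agent.LibSzk9

set_option autoImplicit false
set_option linter.all false
open Cfsg

namespace Cfsg.Agent.S1137

/-- In a Suzuki 2-group `P` (a finite non-abelian 2-group with more than one involution admitting a cyclic group of automorphisms regular on its involutions) the involutions are exactly the non-identity central elements, and `Z(P)` is elementary abelian. -/
theorem result {P : Type*} [Group P] (hP : Cfsg.IsSuzukiTwoGroup P) :
    (∀ x : P, (x ≠ 1 ∧ x * x = 1) ↔ (x ∈ Subgroup.center P ∧ x ≠ 1)) ∧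
      ∀ z ∈ Subgroup.center P, z * z = 1 := by
  classical
  obtain ⟨hfin, hna, K, iK, iA, S⟩ := CfsgLib.Szk.exists_suz hP
  have hc := S.center_eq hna
  refine ⟨fun x => ?_, fun z hz => ?_⟩
  · rw [hc]
    exact ⟨fun h => ⟨h.2, h.1⟩, fun h => ⟨h.2, h.1⟩⟩
  · rw [hc] at hz
    exact hz

end Cfsg.Agent.S1137
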