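import Cfsg.Statements.S1138
import Cfsg.Agent.LibSzk9

set_option autoImplicit false
set_option linter.all false
open Cfsg

namespace Cfsg.Agent.S1138

/-- Let `P` be a Suzuki 2-group with `|Z(P)| = q`. Then every square lies in `Z(P)` and `P/Z(P)` is abelian (so elementary abelian), `|P| = q²` or `|P| = q³`, and `P` has exponent 4. -/
theorem result {P : Type*} [Group P] (hP : Cfsg.IsSuzukiTwoGroup P) :
    (∀ x : P, x * x ∈ Subgroup.center P) ∧ (∀ x y : P, x⁻¹ * y⁻¹ * x * y ∈ Subgroup.center P) ∧
      (Nat.card P = Nat.card (Subgroup.center P) ^ 2 ∨ Nat.card P = Nat.card (Subgroup.center P) ^ 3) ∧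
      Monoid.exponent P = 4 := by
  classical
  obtain ⟨hfin, hna, K, iK, iA, S⟩ := CfsgLib.Szk.exists_suz hP
  have hc := S.center_eq hna
  refine ⟨fun x => ?_, fun x y => ?_, ?_, ?_⟩
  · rw [hc]; exact S.sq_mem hna x
  · rw [hc]; exact S.cm_mem hna x y
  · rw [hc]; exact S.card_eq hna
  · have h1 : Monoid.exponent P ∣ 4 := by
      apply Monoid.exponent_dvd_of_forall_pow_eq_one
      intro x
      have := S.sq_mem hna x
      rw [S.mem_Z] at this
      rw [show (4 : ℕ) = 2 * 2 by norm_num, pow_mul, pow_two, pow_two]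
      exact this
    have h2 : Monoid.exponent P ≠ 1 := by
      intro h
      obtain ⟨x, y, hxy⟩ := hna
      apply hxy
      have h3 : ∀ x : P, x = 1 := fun x => by
        have := Monoid.pow_exponent_eq_one x
        rwa [h, pow_one] at this
      rw [h3 x, h3 y]
    have h3 : Monoid.exponent P ≠ 2 := by
      intro h
      obtain ⟨x, y, hxy⟩ := hna
      apply hxy
      have h3 : ∀ x : P, x * x = 1 := fun x => by
        have := Monoid.pow_exponent_eq_one x
        rwa [h, pow_two] at this
      exact S.central (h3 x) y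
    have h4 : Monoid.exponent P ≤ 4 := Nat.le_of_dvd (by norm_num) h1
    have h5 : Monoid.exponent P ≠ 0 := by
      intro h; rw [h] at h1; omega
    have h6 : Monoid.exponent P ≠ 3 := by
      intro h; rw [h] at h1; omega
    omega

end Cfsg.Agent.S1138
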