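import Cfsg.Statements.S1141
import Cfsg.Agent.LibUS8

set_option autoImplicit false
open Cfsg

namespace Cfsg.Agent.S1141


/-- Let `q = 2^n ≥ 4` and `|F| = q²`. A Sylow 2-subgroup `S` of `PSU₃(q)` has order `q³`, its centre has order `q`, and `S` is a Suzuki 2-group. -/
theorem result {F : Type*} [Field F] [Fintype F] {n : ℕ} (hn : 2 ≤ n)
    (hF : Fintype.card F = (2 ^ n) ^ 2) (S : Sylow 2 (Cfsg.PSU 3 F (2 ^ n))) :
    Nat.card S = (2 ^ n) ^ 3 ∧ Nat.card (Subgroup.center ↥(S : Subgroup (Cfsg.PSU 3 F (2 ^ n)))) = 2 ^ n ∧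
      Cfsg.IsSuzukiTwoGroup ↥(S : Subgroup (Cfsg.PSU 3 F (2 ^ n))) := by
  obtain ⟨D, hD⟩ := CfsgLib.US8.exists_dat (by omega : 1 ≤ n) hF
  obtain ⟨e⟩ := CfsgLib.US8.psu_equiv (by omega) hF hD S
  have hF' : Nat.card F = (2 ^ n) ^ 2 := by rw [Nat.card_eq_fintype_card]; exact hF
  obtain ⟨h1, h2⟩ := CfsgLib.US8.card_UU (D := D) hF'
  refine ⟨?_, ?_, CfsgLib.US8.suzuki_equiv e (CfsgLib.US8.suzuki hn hF')⟩
  · rw [← h2]; exact (Nat.card_congr e.toEquiv).symm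
  · have hc := CfsgLib.Comp.map_center_equiv e
    have ec := (e.subgroupMap (Subgroup.center (CfsgLib.US8.UU D))).trans (MulEquiv.subgroupCongr hc)
    rw [← Nat.card_congr ec.toEquiv, CfsgLib.US8.center_eq, CfsgLib.US8.card_kerpr, h1]
end Cfsg.Agent.S1141
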