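import Cfsg.Statements.S1151
import Cfsg.Agent.LibRee2

set_option autoImplicit false
open Cfsg

namespace Cfsg.Agent.S1151

open CfsgLib.Chev CfsgLib.Rank1

/-- In the small Ree group ²G₂(q), q = 3^(2m+1), realised as G¹ inside the Chevalley group G₂ over the field with q elements (θ the 3^m-th power map), with H¹ = G¹ ∩ H and U¹ = G¹ ∩ U the intersections with the ambient diagonal and positive unipotent subgroups: `H¹` has exactly `(q - 1)/2` elements of odd order, and each non-identity one centralises no non-identity element of `U¹`. -/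
theorem result {K : Type*} [Field K] [Fintype K] {m : ℕ} (hK : Fintype.card K = 3 ^ (2 * m + 1)) :
    2 * Nat.card {h : ↥(Cfsg.Lie.chevG2.diagonalSubgroup K ⊓ Cfsg.Lie.twistedG2 K (3 ^ m)) // Odd (orderOf h)} = 3 ^ (2 * m + 1) - 1 ∧
      ∀ h ∈ (Cfsg.Lie.chevG2.diagonalSubgroup K ⊓ Cfsg.Lie.twistedG2 K (3 ^ m)), h ≠ 1 → Odd (orderOf h) →
        (Cfsg.Lie.chevG2.posUnipotent K ⊓ Cfsg.Lie.twistedG2 K (3 ^ m)) ⊓ Subgroup.centralizer {h} = ⊥ := by
  have : Fact (Nat.Prime 3) := ⟨Nat.prime_three⟩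
  have : CharP K 3 := charP_of_card Nat.prime_three hK
  obtain ⟨f, hf⟩ := exists_frobp K 3 m
  have hFx : Cfsg.Lie.twistedG2 K (3 ^ m) = (TwG2.S f).Fx := (TwG2.R hf hK).toTwR.E_eq
  have hmod : ∀ k : ℕ, 3 ^ (2 * k + 1) % 4 = 3 := by
    intro k
    induction k with
    | zero => rfl
    | succ k ih =>
      have : 3 ^ (2 * (k + 1) + 1) = 9 * 3 ^ (2 * k + 1) := by ring
      rw [this, Nat.mul_mod, ih]
  have hq := hmod m
  have hrange := TwG2.hGh_range hf hK
  constructor
  · set k := (3 ^ (2 * m + 1) - 1) / 2 with hk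
    have hk2 : 3 ^ (2 * m + 1) - 1 = 2 * k := by omega
    have hkodd : Odd k := by rw [Nat.odd_iff]; omega
    have hcardU : Nat.card Kˣ = 2 * k := by rw [Nat.card_units, Nat.card_eq_fintype_card, hK, hk2]
    have hiff : ∀ s : Kˣ, Odd (orderOf s) ↔ s ^ k = 1 := by
      intro s
      rw [← orderOf_dvd_iff_pow_eq_one]
      constructor
      · intro ho
        have h1 : orderOf s ∣ 2 * k := by rw [← hcardU]; exact orderOf_dvd_natCard s
        exact (Nat.Coprime.dvd_mul_left (Nat.coprime_two_right.2 ho)).1 h1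
      · intro hd
        exact Odd.of_dvd_nat hkodd hd
    -- the squaring map
    let sq : Kˣ →* Kˣ := powMonoidHom 2
    have hker : Nat.card sq.ker = 2 := by
      have h1 : (sq.ker : Set Kˣ) = {1, -1} := by
        ext s
        simp only [SetLike.mem_coe, MonoidHom.mem_ker, Set.mem_insert_iff, Set.mem_singleton_iff]
        constructor
        · intro h; exact TwG2.sq_one h
        · rintro (rfl | rfl)
          · show (1 : Kˣ) ^ 2 = 1; simp
          · show (-1 : Kˣ) ^ 2 = 1; simp
      have hne : (1 : Kˣ) ≠ -1 := by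
        intro h
        have h5 := congrArg Units.val h
        simp only [Units.val_neg, Units.val_one] at h5
        have h6 : (2 : K) = 0 := by
          have : (1 : K) + 1 = 0 := by nth_rewrite 1 [h5]; ring
          rw [← this]; norm_num
        have h8 := TwG2.hp3 (K := K)
        push_cast at h8
        exact one_ne_zero (α := K) (by
          calc (1 : K) = 3 - 2 := by norm_num
            _ = 0 := by rw [h6, h8, sub_zero])
      have h2 : Nat.card sq.ker = Set.ncard (sq.ker : Set Kˣ) := rfl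
      rw [h2, h1, Set.ncard_pair hne]
    have hrng : ∀ s : Kˣ, s ∈ sq.range ↔ s ^ k = 1 := by
      intro s
      constructor
      · rintro ⟨r, rfl⟩
        show (r ^ 2) ^ k = 1
        rw [← pow_mul, ← hcardU]; exact pow_card_eq_one'
      · intro h
        refine ⟨s ^ ((k + 1) / 2), ?_⟩
        show (s ^ ((k + 1) / 2)) ^ 2 = s
        have h1 : (k + 1) / 2 * 2 = k + 1 := by
          rw [Nat.odd_iff] at hkodd; omega
        rw [← pow_mul, h1, pow_succ, h, one_mul]
    have hcr : Nat.card sq.range = k := by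
      have h1 := Subgroup.card_mul_index sq.ker
      rw [Subgroup.index_ker, hker, hcardU] at h1
      omega
    have e : Nat.card {h : ↥(Cfsg.Lie.chevG2.diagonalSubgroup K ⊓ Cfsg.Lie.twistedG2 K (3 ^ m)) // Odd (orderOf h)} = k := by
      rw [← hcr]
      symm
      refine Nat.card_eq_of_bijective (fun s => ⟨⟨TwG2.hGh f s.1, by rw [← hrange]; exact ⟨s.1, rfl⟩⟩, ?_⟩) ⟨?_, ?_⟩
      · have h1 : orderOf (⟨TwG2.hGh f s.1, by rw [← hrange]; exact ⟨s.1, rfl⟩⟩ : ↥(Cfsg.Lie.chevG2.diagonalSubgroup K ⊓ Cfsg.Lie.twistedG2 K (3 ^ m))) = orderOf s.1 := by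
          rw [← Subgroup.orderOf_coe]
          exact orderOf_injective (TwG2.hGh f) TwG2.hGh_inj s.1
        rw [h1, hiff, ← hrng]
        exact s.2
      · intro s s' h
        have h1 := congrArg (fun x => ((x.1 : ↥(Cfsg.Lie.chevG2.diagonalSubgroup K ⊓ Cfsg.Lie.twistedG2 K (3 ^ m))) : GL Cfsg.Lie.chevG2.Idx K)) h
        exact Subtype.ext (TwG2.hGh_inj h1)
      · rintro ⟨⟨x, hx⟩, ho⟩
        have hx' := hx
        rw [← hrange] at hx'
        obtain ⟨s, rfl⟩ := hx'
        refine ⟨⟨s, ?_⟩, rfl⟩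
        rw [hrng, ← hiff]
        have h1 : orderOf (⟨TwG2.hGh f s, hx⟩ : ↥(Cfsg.Lie.chevG2.diagonalSubgroup K ⊓ Cfsg.Lie.twistedG2 K (3 ^ m))) = orderOf s := by
          rw [← Subgroup.orderOf_coe]
          exact orderOf_injective (TwG2.hGh f) TwG2.hGh_inj s
        rw [← h1]; exact ho
    rw [e, hk2]
  · intro h hh h1 ho
    rw [eq_bot_iff]
    rintro x ⟨hx, hc0⟩
    have hc := Subgroup.mem_centralizer_singleton_iff.1 hc0
    have hx : x ∈ Cfsg.Lie.chevG2.posUnipotent K ⊓ Cfsg.Lie.twistedG2 K (3 ^ m) := hx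
    rw [← hrange] at hh
    obtain ⟨s, rfl⟩ := hh
    rw [Subgroup.mem_bot]
    by_contra hne
    rw [hFx] at hx
    obtain ⟨t, u, v, rfl⟩ := TwG2.U_Fx hf hK hx
    have ho' : Odd (orderOf s) := by
      have := orderOf_injective (TwG2.hGh f) TwG2.hGh_inj s
      rw [← this]; exact ho
    have := TwG2.comm_odd hf hK hne hc.symm ho'
    rw [this, map_one] at h1
    exact h1 rfl

end Cfsg.Agent.S1151
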