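import Cfsg.Statements.S1160
import Mathlib
import Cfsg.Agent.LibHalfH12

set_option autoImplicit false
open Cfsg

namespace Cfsg.Agent.S1160

open CfsgLib.HalfH12 CfsgLib.SolvCoprime Subgroup

/-- multiplicative version of a distributive action -/
@[reducible] def mulInst (P E : Type*) [Group P] [AddCommGroup E] [DistribMulAction P E] :
    MulDistribMulAction P (Multiplicative E) where
  smul g v := Multiplicative.ofAdd (g • Multiplicative.toAdd v)
  one_smul v := by
    change Multiplicative.ofAdd ((1 : P) • Multiplicative.toAdd v) = v
    rw [one_smul]; rfl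
  mul_smul g h v := by
    change Multiplicative.ofAdd ((g * h) • Multiplicative.toAdd v) =
      Multiplicative.ofAdd (g • (h • Multiplicative.toAdd v))
    rw [mul_smul]
  smul_mul g v w := by
    change Multiplicative.ofAdd (g • (Multiplicative.toAdd v + Multiplicative.toAdd w)) = _
    rw [smul_add]; rfl
  smul_one g := by
    change Multiplicative.ofAdd (g • (0 : E)) = _
    rw [smul_zero]; rfl

theorem cyc_unique {P : Type*} [Group P] [Finite P] (hc : IsCyclic P) {p : ℕ} (hp : p.Prime) {z y : P}
    (hz : orderOf z = p) (hy : orderOf y = p) : zpowers z = zpowers y := by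
  classical
  haveI := Fintype.ofFinite P
  have hle : (Finset.univ.filter (fun x : P => x ^ p = 1)).card ≤ p :=
    IsCyclic.card_pow_eq_one_le hp.pos
  have key : ∀ w : P, orderOf w = p → ∀ x : P, x ∈ zpowers w ↔ x ^ p = 1 := by
    intro w hw
    have h1 : (Finset.univ.filter (fun x : P => x ∈ zpowers w)) ⊆
        (Finset.univ.filter (fun x : P => x ^ p = 1)) := by
      intro x hx
      simp only [Finset.mem_filter, Finset.mem_univ, true_and] at hx ⊢
      obtain ⟨i, rfl⟩ := mem_zpowers_iff.1 hx
      rw [← zpow_natCast, ← zpow_mul, mul_comm, zpow_mul, zpow_natCast, ← hw, pow_orderOf_eq_one,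
        one_zpow]
    have h2 : (Finset.univ.filter (fun x : P => x ∈ zpowers w)).card = p := by
      rw [← Fintype.card_subtype, ← Nat.card_eq_fintype_card]
      exact (Nat.card_zpowers w).trans hw
    have h3 := Finset.eq_of_subset_of_card_le h1 (by rw [h2]; exact hle)
    intro x
    have := Finset.ext_iff.1 h3 x
    simpa using this
  ext x
  rw [key z hz, key y hy]


/-- Let `p ≠ 2` be prime and `P` a finite `p`-group acting faithfully by additive automorphisms on a finite elementary abelian `q`-group `E` (`q` prime), such that `|P_a|` is the same for all `a ≠ 0`. Then `P` is cyclic and every non-identity element of `P` fixes only `0`. -/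
theorem result {P E : Type*} [Group P] [Finite P]
    [AddCommGroup E] [Finite E] [DistribMulAction P E] [FaithfulSMul P E]
    {p q : ℕ} [Fact p.Prime] (hp2 : p ≠ 2) (hP : IsPGroup p P) (hq : q.Prime) (hE : ∀ e : E, q • e = 0)
    (hconst : ∀ a b : E, a ≠ 0 → b ≠ 0 →
      Nat.card (MulAction.stabilizer P a) = Nat.card (MulAction.stabilizer P b)) :
    IsCyclic P ∧ ∀ g : P, g ≠ 1 → ∀ a : E, g • a = a → a = 0 := by
  classical
  have hp := (Fact.out : p.Prime)
  have hfaith : ∀ g h : P, (∀ e : E, g • e = h • e) → g = h := fun g h H =>
    FaithfulSMul.eq_of_smul_eq_smul (α := E) H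
  letI := mulInst P E
  haveI : FaithfulSMul P (Multiplicative E) :=
    ⟨fun {g h} H => hfaith g h (fun e => H (Multiplicative.ofAdd e))⟩
  haveI : Fact q.Prime := ⟨hq⟩
  have hEp : ∀ v : Multiplicative E, v ^ q = 1 := fun v => hE (Multiplicative.toAdd v)
  have hVp : IsPGroup q (Multiplicative E) := fun v => ⟨1, by rw [pow_one]; exact hEp v⟩
  have hstE : ∀ a b : Multiplicative E, a ≠ 1 → b ≠ 1 → Nat.card (MulAction.stabilizer P a) =
      Nat.card (MulAction.stabilizer P b) := fun a b ha hb =>
    hconst (Multiplicative.toAdd a) (Multiplicative.toAdd b) ha hb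
  -- semiregularity
  have hsemi : ∀ g : P, g ≠ 1 → ∀ a : E, g • a = a → a = 0 := by
    intro g hg a hga
    by_contra ha
    have hnt : ∀ b : Multiplicative E, b ≠ 1 → MulAction.stabilizer P b ≠ ⊥ := by
      intro b hb h
      have h1 : Nat.card (MulAction.stabilizer P a) = 1 := by
        rw [hconst a (Multiplicative.toAdd b) ha hb]
        change Nat.card (MulAction.stabilizer P b) = 1
        rw [h, card_bot]
      rw [Subgroup.card_eq_one] at h1
      have : g ∈ MulAction.stabilizer P a := hga
      rw [h1, mem_bot] at this
      exact hg this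
    by_cases hpq : p = q
    · subst hpq
      -- a nonzero fixed point
      obtain ⟨n, hn⟩ := hVp.exists_card_eq
      have hdvd : p ∣ Nat.card E := by
        have h1 : Nat.card (Multiplicative E) = Nat.card E := rfl
        rw [← h1, hn]
        apply dvd_pow_self
        rintro rfl
        rw [pow_zero] at hn
        rw [h1] at hn
        have := (Nat.card_eq_one_iff_unique.1 hn).1
        exact ha (Subsingleton.elim _ _)
      obtain ⟨b, hb, hb0⟩ := hP.exists_fixed_point_of_prime_dvd_card_of_fixed_point E hdvd
        (a := (0 : E)) (fun g => smul_zero g)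
      have htop : MulAction.stabilizer P b = ⊤ := by
        rw [eq_top_iff]; intro x _; exact hb x
      have hall : ∀ e : E, g • e = e := by
        intro e
        by_cases he : e = 0
        · rw [he, smul_zero]
        · have h1 : MulAction.stabilizer P e = ⊤ := by
            apply eq_top_of_card_eq
            rw [hconst e b he (Ne.symm hb0), htop, card_top]
          have : g ∈ MulAction.stabilizer P e := by rw [h1]; trivial
          exact this
      apply hg
      apply hfaith
      intro e
      rw [hall, one_smul]
    · have hcoV : p.Coprime (Nat.card (Multiplicative E)) := by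
        obtain ⟨n, hn⟩ := hVp.exists_card_eq
        rw [hn]
        exact Nat.Coprime.pow_right _ ((Nat.coprime_primes hp hq).2 hpq)
      by_cases hcyc : IsCyclic P
      · -- element of order p
        have hg1 : orderOf g ≠ 1 := fun h => hg (orderOf_eq_one_iff.1 h)
        obtain ⟨k, hk⟩ := (IsPGroup.iff_orderOf.1 hP) g
        have hkpos : k ≠ 0 := by rintro rfl; rw [pow_zero] at hk; exact hg1 hk
        obtain ⟨z, hz⟩ : ∃ z : P, orderOf z = p := by
          apply exists_prime_orderOf_dvd_card'
          exact (dvd_pow_self p hkpos).trans (by rw [← hk]; exact orderOf_dvd_natCard g)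
        have hcommP : ∀ x y : P, x * y = y * x := by
          obtain ⟨c, hc⟩ := hcyc.exists_generator
          intro x y
          obtain ⟨i, rfl⟩ := mem_zpowers_iff.1 (hc x)
          obtain ⟨j, rfl⟩ := mem_zpowers_iff.1 (hc y)
          rw [← zpow_add, ← zpow_add, add_comm]
        haveI : (zpowers z).Normal := ⟨fun x hx y => by
          rw [hcommP y x, mul_inv_cancel_right]; exact hx⟩
        have hza : Multiplicative.ofAdd a = (1 : Multiplicative E) := by
          apply case1 (P := P) hstE hnt (N := zpowers z)
          · intro h
            rw [zpowers_eq_bot] at h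
            rw [h, orderOf_one] at hz
            exact hp.one_lt.ne hz
          · rw [Nat.card_zpowers, hz]; exact hcoV
          · -- z fixes a, as the stabilizer of a contains an element of order p
            have hst := hnt (Multiplicative.ofAdd a) ha
            have hstp : IsPGroup p (MulAction.stabilizer P (Multiplicative.ofAdd a)) := hP.to_subgroup _
            haveI : Nontrivial (MulAction.stabilizer P (Multiplicative.ofAdd a)) :=
              (nontrivial_iff_ne_bot _).2 hst
            obtain ⟨n, hn, hn'⟩ := hstp.nontrivial_iff_card.1 this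
            obtain ⟨y, hy⟩ := exists_prime_orderOf_dvd_card'
              (G := MulAction.stabilizer P (Multiplicative.ofAdd a)) p
              (by rw [hn']; exact dvd_pow_self _ hn.ne')
            have hy' : orderOf (y : P) = p := by rw [Subgroup.orderOf_coe, hy]
            have heq : zpowers z = zpowers (y : P) := cyc_unique hcyc hp hz hy'
            intro n hn
            rw [heq] at hn
            have hle : zpowers (y : P) ≤ MulAction.stabilizer P (Multiplicative.ofAdd a) := by
              rw [zpowers_le]; exact y.2
            exact hle hn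
        exact ha hza
      · obtain ⟨A, hAn, hAc, hAe, hAcard⟩ := CfsgLib.PCyc.exists_normal_elem hp hp2 hP hcyc
        exact case2 (P := P) (V := Multiplicative E) hp2 hP hstE hnt hAc hAe hAcard hcoV
  refine ⟨?_, hsemi⟩
  by_contra hcyc
  have hPnt : Nontrivial P := by
    by_contra h
    rw [not_nontrivial_iff_subsingleton] at h
    exact hcyc inferInstance
  obtain ⟨g, hg⟩ := exists_ne (1 : P)
  have hEnt : ∃ e : E, e ≠ 0 := by
    by_contra hall
    push Not at hall
    apply hg
    apply hfaith
    intro e
    rw [hall (g • e), hall ((1 : P) • e)]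
  obtain ⟨e, he⟩ := hEnt
  obtain ⟨A, hAn, hAc, hAe, hAcard⟩ := CfsgLib.PCyc.exists_normal_elem hp hp2 hP hcyc
  have hAne : A ≠ ⊥ := by
    intro h
    rw [h, card_bot] at hAcard
    have := Nat.one_lt_pow (n := 2) (by norm_num) hp.one_lt
    omega
  by_cases hpq : p = q
  · subst hpq
    have hdvd : p ∣ Nat.card E := by
      obtain ⟨n, hn⟩ := hVp.exists_card_eq
      have h1 : Nat.card (Multiplicative E) = Nat.card E := rfl
      rw [← h1, hn]
      apply dvd_pow_self
      rintro rfl
      rw [pow_zero] at hn
      rw [h1] at hn
      have := (Nat.card_eq_one_iff_unique.1 hn).1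
      exact he (Subsingleton.elim _ _)
    obtain ⟨b, hb, hb0⟩ := hP.exists_fixed_point_of_prime_dvd_card_of_fixed_point E hdvd
      (a := (0 : E)) (fun g => smul_zero g)
    exact hb0 (hsemi g hg b (hb g)).symm
  · have hcoV : p.Coprime (Nat.card (Multiplicative E)) := by
      obtain ⟨n, hn⟩ := hVp.exists_card_eq
      rw [hn]
      exact Nat.Coprime.pow_right _ ((Nat.coprime_primes hp hq).2 hpq)
    have h1 := eq_top_of_fixed_mem (A := A) (V := Multiplicative E) hp hAcard
      (fun a => Subtype.ext (hAe a a.2)) hcoV ⊥ (fun a ha v hav => by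
        have : (a : P) ≠ 1 := fun h => ha (Subtype.ext h)
        rw [mem_bot]
        exact hsemi a this (Multiplicative.toAdd v) hav)
    have h2 : Multiplicative.ofAdd e ∈ (⊥ : Subgroup (Multiplicative E)) := by rw [h1]; trivial
    exact he (mem_bot.1 h2)

end Cfsg.Agent.S1160
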