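import Cfsg.Statements.S1163
import Mathlib
import Cfsg.Agent.LibSuz12
-- import your own Cfsg.Agent.* helpers here

set_option autoImplicit false
open Cfsg

namespace Cfsg.Agent.S1163

open Cfsg.Agent.Suz
open MulAction
open scoped Pointwise
open CfsgLib.TIConj

variable {F : Type*} [Field F] [Fintype F] {O : Set (Projectivization F (Fin 4 → F))} {m : ℕ}

theorem main {G : Type*} [Group G] (D : Data F O m) (e : G ≃* Gp O) :
    Nat.card G = (2 ^ (2 * m + 1)) ^ 2 * (2 ^ (2 * m + 1) - 1) * ((2 ^ (2 * m + 1)) ^ 2 + 1) ∧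
    ∃ S : Sylow 2 G,
      Nat.card (Subgroup.normalizer ((S : Subgroup G) : Set G)) = (2 ^ (2 * m + 1)) ^ 2 * (2 ^ (2 * m + 1) - 1) ∧
      (Subgroup.normalizer ((S : Subgroup G) : Set G)).index = (2 ^ (2 * m + 1)) ^ 2 + 1 ∧
      MulAction.IsMultiplyPretransitive G (G ⧸ Subgroup.normalizer ((S : Subgroup G) : Set G)) 2 ∧
      ∀ x y : G ⧸ Subgroup.normalizer ((S : Subgroup G) : Set G),
        x ≠ (QuotientGroup.mk 1) → y ≠ (QuotientGroup.mk 1) → ∃! s : ↥(S : Subgroup G), (s : G) • x = y := by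
  have hcG : Nat.card G = (2 ^ (2 * m + 1)) ^ 2 * (2 ^ (2 * m + 1) - 1) * ((2 ^ (2 * m + 1)) ^ 2 + 1) := by
    rw [Nat.card_congr e.toEquiv, D.card_G]
    ring
  have hfin : Finite G := Finite.of_equiv _ e.symm.toEquiv
  refine ⟨hcG, ?_⟩
  let U' : Subgroup G := D.Us.comap e.toMonoidHom
  have hU'e : U' ≃* D.Us :=
    MulEquiv.ofBijective ((e.toMonoidHom.comp U'.subtype).codRestrict D.Us (fun x => x.2)) ⟨fun x y h => by
      apply Subtype.ext
      exact e.injective (congrArg Subtype.val h), fun y => ⟨⟨e.symm y, by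
        change e (e.symm y) ∈ D.Us
        rw [e.apply_symm_apply]; exact y.2⟩, Subtype.ext (e.apply_symm_apply _)⟩⟩
  have hU'c : Nat.card U' = (2 ^ (2 * m + 1)) ^ 2 := by
    rw [Nat.card_congr hU'e.toEquiv, D.card_Us]
  have hU'i : U'.index = ((2 ^ (2 * m + 1)) ^ 2 + 1) * (2 ^ (2 * m + 1) - 1) := by
    have h1 := U'.card_mul_index
    rw [hcG, hU'c] at h1
    apply Nat.eq_of_mul_eq_mul_left (show 0 < (2 ^ (2 * m + 1)) ^ 2 by positivity)
    rw [h1]; ring
  have hp : IsPGroup 2 U' := by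
    apply IsPGroup.of_card (n := (2 * m + 1) * 2)
    rw [hU'c, ← pow_mul]
  let S : Sylow 2 G := hp.toSylow (by rw [hU'i]; exact D.not_two_dvd)
  have hS : (S : Subgroup G) = U' := rfl
  have hmemU : ∀ x, x ∈ U' ↔ ∃ a b, e x = D.u a b := fun x => Iff.rfl
  have hN : ∀ x, x ∈ Subgroup.normalizer (U' : Set G) ↔ e x • inf F = inf F := by
    intro x
    have h1 : e x • inf F = inf F ↔ e x ∈ Subgroup.normalizer (D.Us : Set (Gp O)) := by
      rw [D.normalizer_Us]; exact Iff.rfl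
    rw [h1, Subgroup.mem_normalizer_iff, Subgroup.mem_normalizer_iff]
    constructor
    · intro h y
      have h2 := h (e.symm y)
      change e (e.symm y) ∈ D.Us ↔ e (x * e.symm y * x⁻¹) ∈ D.Us at h2
      rwa [map_mul, map_mul, map_inv, e.apply_symm_apply] at h2
    · intro h y
      change e y ∈ D.Us ↔ e (x * y * x⁻¹) ∈ D.Us
      rw [map_mul, map_mul, map_inv]
      exact h (e y)
  have hNc : Nat.card (Subgroup.normalizer (U' : Set G)) = (2 ^ (2 * m + 1)) ^ 2 * (2 ^ (2 * m + 1) - 1) := by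
    rw [← D.card_borel]
    apply Nat.card_congr
    refine
      { toFun := fun x => ⟨e x, (hN x).mp x.2⟩
        invFun := fun y => ⟨e.symm y, (hN _).mpr (by rw [e.apply_symm_apply]; exact y.2)⟩
        left_inv := fun x => Subtype.ext (e.symm_apply_apply _)
        right_inv := fun y => Subtype.ext (e.apply_symm_apply _) }
  have heq : ∀ g h : G, (QuotientGroup.mk g : G ⧸ Subgroup.normalizer (U' : Set G)) = QuotientGroup.mk h ↔
      e g • inf F = e h • inf F := by
    intro g h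
    rw [QuotientGroup.eq, hN, map_mul, map_inv, mul_smul, inv_smul_eq_iff]
    exact eq_comm
  have hO : ∀ g : G, e g • inf F ∈ O := fun g => D.smul_mem _ D.inf_mem
  refine ⟨S, ?_, ?_, ?_, ?_⟩
  · rw [hS]; exact hNc
  · rw [hS]
    have h1 := (Subgroup.normalizer (U' : Set G)).card_mul_index
    rw [hcG, hNc] at h1
    have hq := D.q_ge
    exact Nat.eq_of_mul_eq_mul_left (by
      have : 0 < 2 ^ (2 * m + 1) - 1 := by omega
      positivity) h1
  · rw [hS, MulAction.is_two_pretransitive_iff]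
    intro a b c d
    induction a using QuotientGroup.induction_on with
    | H a =>
    induction b using QuotientGroup.induction_on with
    | H b =>
    induction c using QuotientGroup.induction_on with
    | H c =>
    induction d using QuotientGroup.induction_on with
    | H d =>
      intro hab hcd
      rw [Ne, heq] at hab hcd
      obtain ⟨k₁, h1, h2⟩ := D.gtwo (hO a) (hO b) hab
      obtain ⟨k₂, h3, h4⟩ := D.gtwo (hO c) (hO d) hcd
      refine ⟨e.symm (k₂⁻¹ * k₁), ?_, ?_⟩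
      · change (QuotientGroup.mk (e.symm (k₂⁻¹ * k₁) * a) : G ⧸ Subgroup.normalizer (U' : Set G)) = QuotientGroup.mk c
        rw [heq, map_mul, e.apply_symm_apply, mul_smul, mul_smul, h1, inv_smul_eq_iff, h3]
      · change (QuotientGroup.mk (e.symm (k₂⁻¹ * k₁) * b) : G ⧸ Subgroup.normalizer (U' : Set G)) = QuotientGroup.mk d
        rw [heq, map_mul, e.apply_symm_apply, mul_smul, mul_smul, h2, inv_smul_eq_iff, h4]
  · rw [hS]
    intro x y
    induction x using QuotientGroup.induction_on with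
    | H x =>
    induction y using QuotientGroup.induction_on with
    | H y =>
      intro hx hy
      rw [Ne, heq, map_one, one_smul] at hx hy
      obtain ⟨x₁, x₂, hx'⟩ := ((D.hO _).mp (hO x)).resolve_left hx
      obtain ⟨y₁, y₂, hy'⟩ := ((D.hO _).mp (hO y)).resolve_left hy
      have hkey : ∀ s : G, (QuotientGroup.mk (s * x) : G ⧸ Subgroup.normalizer (U' : Set G)) = QuotientGroup.mk y ↔
          e s • pt D.S x₁ x₂ = pt D.S y₁ y₂ := by
        intro s
        rw [heq, map_mul, mul_smul, hx', hy']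
      refine ⟨⟨e.symm (D.u (y₁ + x₁) (y₂ + x₂ + D.S (y₁ + x₁) * x₁)), ?_⟩, ?_, ?_⟩
      · rw [hmemU]
        exact ⟨_, _, e.apply_symm_apply _⟩
      · change (QuotientGroup.mk (_ * x) : G ⧸ Subgroup.normalizer (U' : Set G)) = QuotientGroup.mk y
        rw [hkey, e.apply_symm_apply, D.u_pt]
        congr 1
        · linear_combination x₁ * D.h2
        · linear_combination (x₂ + D.S (y₁ + x₁) * x₁) * D.h2
      · rintro ⟨s, hs⟩ hsx
        obtain ⟨a, b, hab⟩ := (hmemU s).mp hs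
        have h1 : (QuotientGroup.mk (s * x) : G ⧸ Subgroup.normalizer (U' : Set G)) = QuotientGroup.mk y := hsx
        rw [hkey, hab, D.u_pt] at h1
        obtain ⟨h2, h3⟩ := pt_inj h1
        have ha : a = y₁ + x₁ := by linear_combination h2 - x₁ * D.h2
        subst ha
        apply Subtype.ext
        apply e.injective
        change e s = e (e.symm _)
        rw [hab, e.apply_symm_apply]
        congr 1
        linear_combination h3 - (x₂ + D.S (y₁ + x₁) * x₁) * D.h2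

/-- For the Suzuki group Sz(q), q = 2^(2m+1) ≥ 8, realised as the elements g of Sp₄(F) with g* = g^θ (θ the 2^(m+1)-th power map, so that θ² is squaring): `|Sz(q)| = q² (q - 1) (q² + 1)`, and there is a Sylow 2-subgroup `S` whose normaliser `H` has order `q²(q-1)` and index `q² + 1`, the action of `Sz(q)` on the cosets of `H` is doubly transitive, and `S` acts regularly on the cosets other than `H` itself. -/
theorem result {F : Type*} [Field F] [Fintype F] {m : ℕ} (hm : 1 ≤ m) (hF : Fintype.card F = 2 ^ (2 * m + 1)) :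
    Nat.card ↥(Cfsg.Lie.Sz F (2 ^ (m + 1))) = (2 ^ (2 * m + 1)) ^ 2 * (2 ^ (2 * m + 1) - 1) * ((2 ^ (2 * m + 1)) ^ 2 + 1) ∧
    ∃ S : Sylow 2 ↥(Cfsg.Lie.Sz F (2 ^ (m + 1))),
      Nat.card (Subgroup.normalizer ((S : Subgroup ↥(Cfsg.Lie.Sz F (2 ^ (m + 1)))) : Set ↥(Cfsg.Lie.Sz F (2 ^ (m + 1))))) = (2 ^ (2 * m + 1)) ^ 2 * (2 ^ (2 * m + 1) - 1) ∧
      (Subgroup.normalizer ((S : Subgroup ↥(Cfsg.Lie.Sz F (2 ^ (m + 1)))) : Set ↥(Cfsg.Lie.Sz F (2 ^ (m + 1))))).index = (2 ^ (2 * m + 1)) ^ 2 + 1 ∧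
      MulAction.IsMultiplyPretransitive ↥(Cfsg.Lie.Sz F (2 ^ (m + 1))) (↥(Cfsg.Lie.Sz F (2 ^ (m + 1))) ⧸ Subgroup.normalizer ((S : Subgroup ↥(Cfsg.Lie.Sz F (2 ^ (m + 1)))) : Set ↥(Cfsg.Lie.Sz F (2 ^ (m + 1))))) 2 ∧
      ∀ x y : ↥(Cfsg.Lie.Sz F (2 ^ (m + 1))) ⧸ Subgroup.normalizer ((S : Subgroup ↥(Cfsg.Lie.Sz F (2 ^ (m + 1)))) : Set ↥(Cfsg.Lie.Sz F (2 ^ (m + 1)))),
        x ≠ (QuotientGroup.mk 1) → y ≠ (QuotientGroup.mk 1) → ∃! s : ↥(S : Subgroup ↥(Cfsg.Lie.Sz F (2 ^ (m + 1)))), (s : ↥(Cfsg.Lie.Sz F (2 ^ (m + 1)))) • x = y := by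
  exact main (Cfsg.Agent.Suz.data hm hF) (lieIso hm hF)

end Cfsg.Agent.S1163
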