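import Cfsg.Statements.S1165
import Mathlib
import Cfsg.Agent.LibRank1H12d

set_option autoImplicit false
open Cfsg

namespace Cfsg.Agent.S1165

open Cfsg Subgroup CfsgLib.Invol CfsgLib.FusionH12 CfsgLib.StrongH12 CfsgLib.Rank1H12


/-- In the rank-one set-up (`G` finite and doubly transitive on `Ω`, `t` an involution moving `a`, `Q` normal in `G_a` with `G_a = Q D`, `Q ⊓ D = 1` for the two-point stabiliser `D = G_a ⊓ G_{t • a}`, `|Q|` even, `|D|` odd): every `x ∈ Q`, `x ≠ 1`, determines unique `g, f ∈ Q`, `h ∈ D` with `t x t = g h t f` (a consequence of the canonical form). For these: (H1) the `f`-part of `x⁻¹` is `g⁻¹`; (H2) the `f`-part of `f` is `x`; (H3) for `a ∈ D` the `f`-part of `a⁻¹ x a` is `(t a t)⁻¹ f (t a t)`; (H4) the `h`-part of `a⁻¹ x a` is `(t a t)⁻¹ h a`, that of `x⁻¹` is `t h⁻¹ t`, and that of `f` is `h⁻¹`. -/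
theorem result {G Ω : Type*} [Group G] [Finite G] [MulAction G Ω] {a : Ω} {t : G} {Q : Subgroup G}
    (hS : Cfsg.IsRankOneSetup G Ω a t Q)
    (x g h f : G) (hx : x ∈ Q) (hx1 : x ≠ 1) (hg : g ∈ Q) (hh : h ∈ (MulAction.stabilizer G a ⊓ MulAction.stabilizer G (t • a))) (hf : f ∈ Q)
    (heq : t * x * t = g * h * t * f) :
    (∀ g₁ h₁ f₁ : G, g₁ ∈ Q → h₁ ∈ (MulAction.stabilizer G a ⊓ MulAction.stabilizer G (t • a)) → f₁ ∈ Q → t * x⁻¹ * t = g₁ * h₁ * t * f₁ →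
        f₁ = g⁻¹ ∧ h₁ = t * h⁻¹ * t) ∧
      (∀ g₂ h₂ f₂ : G, g₂ ∈ Q → h₂ ∈ (MulAction.stabilizer G a ⊓ MulAction.stabilizer G (t • a)) → f₂ ∈ Q → t * f * t = g₂ * h₂ * t * f₂ →
        f₂ = x ∧ h₂ = h⁻¹) ∧
      ∀ c ∈ (MulAction.stabilizer G a ⊓ MulAction.stabilizer G (t • a)), ∀ g₃ h₃ f₃ : G, g₃ ∈ Q → h₃ ∈ (MulAction.stabilizer G a ⊓ MulAction.stabilizer G (t • a)) → f₃ ∈ Q →
        t * (c⁻¹ * x * c) * t = g₃ * h₃ * t * f₃ →
          f₃ = (t * c * t)⁻¹ * f * (t * c * t) ∧ h₃ = (t * c * t)⁻¹ * h * c := by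
  have ht2 := mul_self (t_order hS)
  have htt : t⁻¹ = t := inv_eq (t_order hS)
  refine ⟨?_, ?_, ?_⟩
  · intro g₁ h₁ f₁ hg₁ hh₁ hf₁ he
    have h0 : t * x⁻¹ * t = f⁻¹ * (t * h⁻¹ * t) * t * g⁻¹ := by
      calc t * x⁻¹ * t = (t⁻¹ * x * t⁻¹)⁻¹ := by group
        _ = (g * h * t * f)⁻¹ := by rw [htt, heq]
        _ = f⁻¹ * t⁻¹ * h⁻¹ * g⁻¹ := by group
        _ = f⁻¹ * t * h⁻¹ * (t * t) * g⁻¹ := by rw [htt, ht2, mul_one]
        _ = _ := by simp only [mul_assoc]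
    obtain ⟨e1, e2, e3⟩ := bruhat_unique hS hg₁ hh₁ hf₁ (inv_mem hf) (conj_t_mem hS (inv_mem hh))
      (inv_mem hg) (he.symm.trans h0)
    exact ⟨e3, e2⟩
  · intro g₂ h₂ f₂ hg₂ hh₂ hf₂ he
    have h0 : t * f * t = (h⁻¹ * g⁻¹ * h) * h⁻¹ * t * x := by
      have h1 : t * f = h⁻¹ * g⁻¹ * (t * x * t) := by rw [heq]; group
      calc t * f * t = h⁻¹ * g⁻¹ * t * x * (t * t) := by rw [h1]; simp only [mul_assoc]
        _ = _ := by rw [ht2]; group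
    have hgQ : h⁻¹ * g⁻¹ * h ∈ Q := by
      have := hS.conj_mem h⁻¹ (inv_mem (Subgroup.mem_inf.1 hh).1) g⁻¹ (inv_mem hg)
      rwa [inv_inv] at this
    obtain ⟨e1, e2, e3⟩ := bruhat_unique hS hg₂ hh₂ hf₂ hgQ (inv_mem hh) hx (he.symm.trans h0)
    exact ⟨e3, e2⟩
  · intro c hc g₃ h₃ f₃ hg₃ hh₃ hf₃ he
    have hctD := conj_t_mem hS hc
    have h0 : t * (c⁻¹ * x * c) * t = ((t * c * t)⁻¹ * g * (t * c * t)) * ((t * c * t)⁻¹ * h * c) * t *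
        ((t * c * t)⁻¹ * f * (t * c * t)) := by
      calc t * (c⁻¹ * x * c) * t = (t * c * t⁻¹)⁻¹ * (t * x * t) * (t⁻¹ * c * t) := by group
        _ = (t * c * t)⁻¹ * (g * h * t * f) * (t * c * t) := by rw [htt, heq]
        _ = ((t * c * t)⁻¹ * g * (t * c * t)) * ((t * c * t)⁻¹ * h) * t * (t * c * t) *
          ((t * c * t)⁻¹ * f * (t * c * t)) := by group
        _ = ((t * c * t)⁻¹ * g * (t * c * t)) * ((t * c * t)⁻¹ * h) * (t * t) * c * t *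
          ((t * c * t)⁻¹ * f * (t * c * t)) := by simp only [mul_assoc]
        _ = _ := by rw [ht2, mul_one]; simp only [mul_assoc]
    have hQ : ∀ q ∈ Q, (t * c * t)⁻¹ * q * (t * c * t) ∈ Q := by
      intro q hq
      have := hS.conj_mem _ (inv_mem (Subgroup.mem_inf.1 hctD).1) q hq
      rwa [inv_inv] at this
    obtain ⟨e1, e2, e3⟩ := bruhat_unique hS hg₃ hh₃ hf₃ (hQ g hg)
      (mul_mem (mul_mem (inv_mem hctD) hh) hc) (hQ f hf) (he.symm.trans h0)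
    exact ⟨e3, e2⟩

end Cfsg.Agent.S1165
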