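import Cfsg.Statements.S1166
import Mathlib
import Cfsg.Agent.LibRank1H12d

set_option autoImplicit false
open Cfsg

namespace Cfsg.Agent.S1166

open Cfsg Subgroup CfsgLib.Invol CfsgLib.FusionH12 CfsgLib.StrongH12 CfsgLib.Rank1H12


/-- In the rank-one set-up (`G` finite and doubly transitive on `Ω`, `t` an involution moving `a`, `Q` normal in `G_a` with `G_a = Q D`, `Q ⊓ D = 1` for the two-point stabiliser `D = G_a ⊓ G_{t • a}`, `|Q|` even, `|D|` odd), with `t x t = g_x h_x t f_x` and `t y t = g_y h_y t f_y` (`g, f ∈ Q`, `h ∈ D`) for `x, y ∈ Q ∖ 1` with `x y ≠ 1`: then `z = f_x g_y ≠ 1`, and if `t z t = g_z h_z t f_z` and `t (x y) t = g' h' t f'` then `f' = (t h_y t)⁻¹ f_z (t h_y t) f_y` and `h' = h_x h_z h_y` (H6). -/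
theorem result {G Ω : Type*} [Group G] [Finite G] [MulAction G Ω] {a : Ω} {t : G} {Q : Subgroup G}
    (hS : Cfsg.IsRankOneSetup G Ω a t Q)
    (x y gx hx fx gy hy fy : G) (hxQ : x ∈ Q) (hx1 : x ≠ 1) (hyQ : y ∈ Q) (hy1 : y ≠ 1) (hxy : x * y ≠ 1)
    (hgx : gx ∈ Q) (hhx : hx ∈ (MulAction.stabilizer G a ⊓ MulAction.stabilizer G (t • a))) (hfx : fx ∈ Q) (ex : t * x * t = gx * hx * t * fx)
    (hgy : gy ∈ Q) (hhy : hy ∈ (MulAction.stabilizer G a ⊓ MulAction.stabilizer G (t • a))) (hfy : fy ∈ Q) (ey : t * y * t = gy * hy * t * fy) :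
    fx * gy ≠ 1 ∧
      ∀ gz hz fz g' h' f' : G, gz ∈ Q → hz ∈ (MulAction.stabilizer G a ⊓ MulAction.stabilizer G (t • a)) → fz ∈ Q → t * (fx * gy) * t = gz * hz * t * fz →
        g' ∈ Q → h' ∈ (MulAction.stabilizer G a ⊓ MulAction.stabilizer G (t • a)) → f' ∈ Q → t * (x * y) * t = g' * h' * t * f' →
          f' = (t * hy * t)⁻¹ * fz * (t * hy * t) * fy ∧ h' = hx * hz * hy := by
  have ht2 := mul_self (t_order hS)
  have htt : t⁻¹ = t := inv_eq (t_order hS)
  have hmul : t * (x * y) * t = (t * x * t) * (t * y * t) := by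
    calc t * (x * y) * t = t * x * 1 * y * t := by group
      _ = t * x * (t * t) * y * t := by rw [ht2]
      _ = _ := by simp only [mul_assoc]
  have hkey : ∀ z : G, t * (x * y) * t = gx * hx * (t * (fx * gy)) * hy * t * fy := by
    intro _
    rw [hmul, ex, ey]; simp only [mul_assoc]
  refine ⟨?_, ?_⟩
  · intro h1
    have h2 := hkey 1
    rw [h1, mul_one] at h2
    have h3 : t * (x * y) * t ∈ MulAction.stabilizer G a := by
      rw [h2]
      have h4 := conj_t_mem hS hhy
      have h5 : gx * hx * t * hy * t * fy = gx * hx * (t * hy * t) * fy := by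
        simp only [mul_assoc]
      rw [h5]
      exact mul_mem (mul_mem (mul_mem (hS.le hgx) (Subgroup.mem_inf.1 hhx).1)
        (Subgroup.mem_inf.1 h4).1) (hS.le hfy)
    apply hxy
    apply Q_free hS (ta_ne hS) (mul_mem hxQ hyQ)
    rw [MulAction.mem_stabilizer_iff, mul_smul, mul_smul] at h3
    calc (x * y) • t • a = t • t • (x * y) • t • a := by rw [smul_smul t t, ht2, one_smul]
      _ = t • a := by rw [h3]
  · intro gz hz fz g' h' f' hgz hhz hfz ez hg' hh' hf' e'
    have hyt := conj_t_mem hS hhy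
    have h1 : t * (fx * gy) = gz * hz * t * fz * t := by
      rw [← ez]
      simp only [mul_assoc]
      rw [ht2]; simp
    have h0 : t * (x * y) * t = (gx * (hx * gz * hx⁻¹)) * (hx * hz * hy) * t *
        ((t * hy * t)⁻¹ * fz * (t * hy * t) * fy) := by
      rw [hkey 1, h1]
      have h2 : hy * t = t * (t * hy * t) := by
        simp only [← mul_assoc]; rw [ht2]; simp
      calc gx * hx * (gz * hz * t * fz * t) * hy * t * fy
          = gx * hx * gz * hz * t * fz * (t * hy * t) * fy := by simp only [mul_assoc]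
        _ = gx * hx * gz * hz * (t * (t * hy * t)) * ((t * hy * t)⁻¹ * fz * (t * hy * t) * fy) := by
          group
        _ = gx * hx * gz * hz * (hy * t) * ((t * hy * t)⁻¹ * fz * (t * hy * t) * fy) := by rw [← h2]
        _ = _ := by group
    have hgQ : gx * (hx * gz * hx⁻¹) ∈ Q :=
      mul_mem hgx (hS.conj_mem hx (Subgroup.mem_inf.1 hhx).1 gz hgz)
    have hfQ : (t * hy * t)⁻¹ * fz * (t * hy * t) * fy ∈ Q := by
      apply mul_mem _ hfy
      have := hS.conj_mem _ (inv_mem (Subgroup.mem_inf.1 hyt).1) fz hfz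
      rwa [inv_inv] at this
    obtain ⟨e1, e2, e3⟩ := bruhat_unique hS hg' hh' hf' hgQ
      (mul_mem (mul_mem hhx hhz) hhy) hfQ (e'.symm.trans h0)
    exact ⟨e3, e2⟩

end Cfsg.Agent.S1166
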