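import Cfsg.Statements.S1176
import Cfsg.Agent.LibIsolated

set_option autoImplicit false
open Cfsg

namespace Cfsg.Agent.S1176

open scoped commutatorElement

/-- Let x₀ be an involution of the finite group G and D its conjugacy class. Assume (a) for each x ∈ D the subgroup W(x) generated by the members of D commuting with x is a 2-group of nilpotency class at most 2, and (b) the product of two distinct commuting members of D again lies in D. Then for all x, y ∈ D, if xy has even order greater than 2, its order is 4. -/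
theorem result {G : Type*} [Group G] [Finite G] (x₀ : G) (hx₀ : orderOf x₀ = 2) (ha : ∀ x : G, IsConj x₀ x → IsPGroup 2 ↥(Subgroup.closure {y : G | IsConj x₀ y ∧ Commute y x}) ∧ ⁅⁅Subgroup.closure {y : G | IsConj x₀ y ∧ Commute y x}, Subgroup.closure {y : G | IsConj x₀ y ∧ Commute y x}⁆, Subgroup.closure {y : G | IsConj x₀ y ∧ Commute y x}⁆ = ⊥) (hb : ∀ x y : G, IsConj x₀ x → IsConj x₀ y → x ≠ y → Commute x y → IsConj x₀ (x * y)) (x y : G) (hx : IsConj x₀ x) (hy : IsConj x₀ y) (heven : Even (orderOf (x * y))) (hgt : 2 < orderOf (x * y)) : orderOf (x * y) = 4 := by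
  have hx2 : orderOf x = 2 := by
    obtain ⟨g, rfl⟩ := isConj_iff.1 hx; rw [CfsgLib.Invol.orderOf_conj, hx₀]
  have hy2 : orderOf y = 2 := by
    obtain ⟨g, rfl⟩ := isConj_iff.1 hy; rw [CfsgLib.Invol.orderOf_conj, hx₀]
  obtain ⟨z, hzm, hz2, hzx, hzy, h4, h4'⟩ := CfsgLib.Isolated.central_invol hx2 hy2 heven
  have hz1 := CfsgLib.Invol.ne_one hz2
  have hzD : IsConj x₀ z := by
    have key : ∀ u : G, IsConj x₀ u → orderOf u = 2 → Commute z u → IsConj x₀ (z * u) → IsConj x₀ z := by
      intro u hu hu2 hzu hzuD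
      have h1 := hb (z * u) u hzuD hu (fun h => hz1 (by simpa using h))
        (hzu.mul_left (Commute.refl u))
      rwa [mul_assoc, CfsgLib.Invol.mul_self hu2, mul_one] at h1
    by_cases h : 4 ∣ orderOf (x * y)
    · exact key x hx hx2 hzx (hx.trans (h4 h).1)
    · exact key x hx hx2 hzx (hy.trans (h4' h).1)
  obtain ⟨-, h5⟩ := ha z hzD
  have hxW : x ∈ Subgroup.closure {y : G | IsConj x₀ y ∧ Commute y z} :=
    Subgroup.subset_closure ⟨hx, hzx.symm⟩
  have hyW : y ∈ Subgroup.closure {y : G | IsConj x₀ y ∧ Commute y z} :=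
    Subgroup.subset_closure ⟨hy, hzy.symm⟩
  have h6 : ⁅⁅x, y⁆, x⁆ = 1 := by
    have := Subgroup.commutator_mem_commutator (Subgroup.commutator_mem_commutator hxW hyW) hxW
    rw [h5] at this
    exact this
  have hxx := CfsgLib.Invol.mul_self hx2
  have hyy := CfsgLib.Invol.mul_self hy2
  have hxi := CfsgLib.Invol.inv_eq hx2
  have hyi := CfsgLib.Invol.inv_eq hy2
  have h7 : (x * y) ^ 4 = 1 := by
    rw [commutatorElement_eq_one_iff_mul_comm, commutatorElement_def, hxi, hyi] at h6
    -- x*y*x*y*x = x*(x*y*x*y)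
    have h8 : (x * y) ^ 4 = (x * y * x * y * x) * y * x * y := by
      simp only [pow_succ, pow_zero, one_mul, mul_assoc]
    rw [h8, h6]
    calc x * (x * y * x * y) * y * x * y = (x * x) * y * x * (y * y) * x * y := by group
    _ = y * x * x * y := by rw [hxx, hyy]; group
    _ = 1 := by rw [mul_assoc y x x, hxx, mul_one, hyy]
  have h8 := orderOf_dvd_of_pow_eq_one h7
  have h9 : orderOf (x * y) ≤ 4 := Nat.le_of_dvd (by norm_num) h8
  rcases (by omega : orderOf (x * y) = 3 ∨ orderOf (x * y) = 4) with h | h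
  · rw [h] at h8; norm_num at h8
  · exact h
end Cfsg.Agent.S1176
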