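import Cfsg.Statements.S1177
import Mathlib
import Cfsg.Agent.LibFusionH12

set_option autoImplicit false
open Cfsg

namespace Cfsg.Agent.S1177

/-- Let A be a nontrivial elementary abelian 2-subgroup of a finite group G which is a T.I. set (each conjugate of A meets A trivially or equals A) and which does not commute elementwise with any conjugate of A other than A itself. Then for every a ∈ A, a ≠ 1, every conjugate of A contained in C_G(a) is equal to A (A is weakly closed in C_G(a)). -/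
theorem result {G : Type*} [Group G] [Finite G] (A : Subgroup G) (hA : Cfsg.IsElementaryAbelian 2 A) (hA1 : A ≠ ⊥) (hTI : ∀ g : G, A.map (MulAut.conj g).toMonoidHom ⊓ A = ⊥ ∨ A.map (MulAut.conj g).toMonoidHom = A) (hb : ∀ g : G, (∀ a ∈ A, ∀ b ∈ A.map (MulAut.conj g).toMonoidHom, a * b = b * a) → A.map (MulAut.conj g).toMonoidHom = A) (a : G) (ha : a ∈ A) (ha1 : a ≠ 1) (g : G) (hg : A.map (MulAut.conj g).toMonoidHom ≤ Subgroup.centralizer ({a} : Set G)) : A.map (MulAut.conj g).toMonoidHom = A := by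
  by_contra hne
  set B := A.map (MulAut.conj g).toMonoidHom with hB
  have hBA : B ⊓ A = ⊥ := (hTI g).resolve_right hne
  have hAc : ∀ x ∈ A, ∀ y ∈ A, x * y = y * x := fun x hx y hy =>
    congrArg (fun z : A => (z : G)) (hA.1.1.1 ⟨x, hx⟩ ⟨y, hy⟩)
  have hA2 : ∀ x ∈ A, x * x = 1 := fun x hx => by rw [← pow_two]; exact hA.2 x hx
  have hB2 : ∀ x ∈ B, x * x = 1 := by
    rintro _ ⟨x, hx, rfl⟩
    rw [← map_mul, hA2 x hx, map_one]
  -- conjugates of A by elements with nontrivial intersection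
  have hTI2 : ∀ (k y : G), y ≠ 1 → y ∈ A → k * y * k⁻¹ ∈ A → ∀ x ∈ A, k * x * k⁻¹ ∈ A := by
    intro k y hy hyA hky x hx
    rcases hTI k with h | h
    · exfalso
      have h1 : k * y * k⁻¹ ∈ A.map (MulAut.conj k).toMonoidHom ⊓ A :=
        Subgroup.mem_inf.2 ⟨⟨y, hyA, rfl⟩, hky⟩
      rw [h, Subgroup.mem_bot] at h1
      apply hy
      have : y = k⁻¹ * (k * y * k⁻¹) * k := by group
      rw [this, h1]; group
    · rw [← h]; exact ⟨x, hx, rfl⟩
  -- B normalizes A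
  have hBn : ∀ b ∈ B, ∀ x ∈ A, b * x * b⁻¹ ∈ A := by
    intro b hb
    apply hTI2 b a ha1 ha
    have h1 := hg hb
    rw [Subgroup.mem_centralizer_singleton_iff] at h1
    rw [h1, mul_inv_cancel_right]
    exact ha
  -- elements of A commuting with a nontrivial element of B normalize B
  have hAn : ∀ y ∈ A, ∀ b ∈ B, b ≠ 1 → y * b = b * y → ∀ b' ∈ B, y * b' * y⁻¹ ∈ B := by
    intro y hy b hb hb1 hyb b' hb'
    obtain ⟨c, hc, hcb⟩ := hb
    obtain ⟨c', hc', hcb'⟩ := hb'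
    have hcb1 : b = g * c * g⁻¹ := by rw [← hcb]; rfl
    have hcb1' : b' = g * c' * g⁻¹ := by rw [← hcb']; rfl
    have h1 := hTI2 (g⁻¹ * y * g) c (by rintro rfl; apply hb1; rw [hcb1]; simp) hc (by
      have h2 : g⁻¹ * y * g * c * (g⁻¹ * y * g)⁻¹ = g⁻¹ * (y * b) * y⁻¹ * g := by rw [hcb1]; group
      rw [h2, hyb, hcb1]
      have h3 : g⁻¹ * (g * c * g⁻¹ * y) * y⁻¹ * g = c := by group
      rw [h3]; exact hc) c' hc'
    refine ⟨_, h1, ?_⟩
    show g * (g⁻¹ * y * g * c' * (g⁻¹ * y * g)⁻¹) * g⁻¹ = y * b' * y⁻¹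
    rw [hcb1']; group
  -- A and B commute
  have hcomm : ∀ x ∈ A, ∀ b ∈ B, ∀ b' ∈ B, (x * b * x⁻¹) * b' = b' * (x * b * x⁻¹) := by
    intro x hx b hb b' hb'
    by_cases hb1 : b = 1
    · rw [hb1]; simp
    -- y = [x, b] = x * (b x⁻¹ b⁻¹) ∈ A
    have hyA : x * b * x⁻¹ * b⁻¹ ∈ A := by
      have h1 := hBn b hb x⁻¹ (inv_mem hx)
      have h2 := A.mul_mem hx h1
      have h3 : x * (b * x⁻¹ * b⁻¹) = x * b * x⁻¹ * b⁻¹ := by group
      rwa [h3] at h2
    set y := x * b * x⁻¹ * b⁻¹ with hy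
    have hbi : b⁻¹ = b := inv_eq_of_mul_eq_one_left (hB2 b hb)
    have hxi : x⁻¹ = x := inv_eq_of_mul_eq_one_left (hA2 x hx)
    have hyi : y⁻¹ = y := inv_eq_of_mul_eq_one_left (hA2 y hyA)
    have hyb : y * b = b * y := by
      -- b y b⁻¹ = y⁻¹ = y
      have h1 : b * y * b⁻¹ = y⁻¹ := by
        rw [hy]
        have h2 : (x * b * x⁻¹ * b⁻¹)⁻¹ = b * x * b⁻¹ * x⁻¹ := by group
        rw [h2, hbi, hxi]
        calc b * (x * b * x * b) * b = b * x * b * x * (b * b) := by simp only [mul_assoc]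
          _ = b * x * b * x := by rw [hB2 b hb, mul_one]
      rw [hyi] at h1
      exact (mul_inv_eq_iff_eq_mul.1 h1).symm
    have h1 := hAn y hyA b hb hb1 hyb b' hb'
    -- [y, b'] ∈ A ∩ B
    have h2 : y * b' * y⁻¹ * b'⁻¹ ∈ B ⊓ A := by
      refine Subgroup.mem_inf.2 ⟨B.mul_mem h1 (B.inv_mem hb'), ?_⟩
      have h3 := A.mul_mem hyA (hBn b' hb' y⁻¹ (inv_mem hyA))
      have h4 : y * (b' * y⁻¹ * b'⁻¹) = y * b' * y⁻¹ * b'⁻¹ := by group
      rwa [h4] at h3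
    rw [hBA, Subgroup.mem_bot] at h2
    have h3 : y * b' = b' * y := by
      have h4 := mul_inv_eq_one.1 h2
      exact mul_inv_eq_iff_eq_mul.1 h4
    have h4 : x * b * x⁻¹ = y * b := by rw [hy, inv_mul_cancel_right]
    have hbb : b * b' = b' * b := by
      obtain ⟨c, hc, rfl⟩ := hb
      obtain ⟨c', hc', rfl⟩ := hb'
      rw [← map_mul, ← map_mul, hAc c hc c' hc']
    rw [h4, mul_assoc, hbb, ← mul_assoc, h3, mul_assoc]
  -- so the conjugates of B under A coincide with B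
  have hBnorm : ∀ x ∈ A, B.map (MulAut.conj x).toMonoidHom = B := by
    intro x hx
    have h1 := hb (g⁻¹ * x * g) (by
      intro c hc d hd
      obtain ⟨e, he, hed⟩ := hd
      have hed' : d = (g⁻¹ * x * g) * e * (g⁻¹ * x * g)⁻¹ := by rw [← hed]; rfl
      have h2 := hcomm x hx (g * e * g⁻¹) ⟨e, he, rfl⟩ (g * c * g⁻¹) ⟨c, hc, rfl⟩
      have h3 : d = g⁻¹ * (x * (g * e * g⁻¹) * x⁻¹) * g := by rw [hed']; group
      have h4 : c = g⁻¹ * (g * c * g⁻¹) * g := by group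
      rw [h3]
      calc c * (g⁻¹ * (x * (g * e * g⁻¹) * x⁻¹) * g) = g⁻¹ * ((g * c * g⁻¹) * (x * (g * e * g⁻¹) * x⁻¹)) * g := by group
        _ = g⁻¹ * ((x * (g * e * g⁻¹) * x⁻¹) * (g * c * g⁻¹)) * g := by rw [h2]
        _ = _ := by group)
    have h2 : CfsgLib.FusionH12.cj (g⁻¹ * x * g) A = A := h1
    show CfsgLib.FusionH12.cj x (CfsgLib.FusionH12.cj g A) = CfsgLib.FusionH12.cj g A
    rw [← CfsgLib.FusionH12.cj_mul]
    have h3 : x * g = g * (g⁻¹ * x * g) := by group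
    rw [h3, CfsgLib.FusionH12.cj_mul, h2]
  apply hne
  apply hb
  intro x hx b hb'
  have h1 : x * b * x⁻¹ ∈ B := by
    rw [← hBnorm x hx]; exact ⟨b, hb', rfl⟩
  have h2 : x * b * x⁻¹ * b⁻¹ ∈ B ⊓ A := by
    refine Subgroup.mem_inf.2 ⟨B.mul_mem h1 (B.inv_mem hb'), ?_⟩
    have h3 := A.mul_mem hx (hBn b hb' x⁻¹ (inv_mem hx))
    have h4 : x * (b * x⁻¹ * b⁻¹) = x * b * x⁻¹ * b⁻¹ := by group
    rwa [h4] at h3
  rw [hBA, Subgroup.mem_bot] at h2
  have h4 := mul_inv_eq_one.1 h2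
  exact mul_inv_eq_iff_eq_mul.1 h4

end Cfsg.Agent.S1177
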