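import Cfsg.Statements.S1178
import Mathlib
import Cfsg.Agent.LibFusionH12

set_option autoImplicit false
open Cfsg

namespace Cfsg.Agent.S1178

/-- Let A be a subgroup of a Sylow 2-subgroup S of the finite group G which is weakly closed in S. If a conjugate g A g⁻¹ commutes elementwise with A, then g A g⁻¹ = A. -/
theorem result {G : Type*} [Group G] [Finite G] (S : Sylow 2 G) (A : Subgroup G) (hW : Cfsg.IsWeaklyClosed A (S : Subgroup G)) (g : G) (hc : ∀ a ∈ A, ∀ b ∈ A.map (MulAut.conj g).toMonoidHom, a * b = b * a) : A.map (MulAut.conj g).toMonoidHom = A := by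
  have : Fact (Nat.Prime 2) := ⟨Nat.prime_two⟩
  have hAp : IsPGroup 2 A := S.2.to_le hW.1
  have hBp : IsPGroup 2 (A.map (MulAut.conj g).toMonoidHom) := hAp.map _
  have hle : A ≤ Subgroup.normalizer ((A.map (MulAut.conj g).toMonoidHom : Subgroup G) : Set G) := by
    refine le_trans ?_ (Subgroup.centralizer_le_normalizer _)
    intro a ha
    rw [Subgroup.mem_centralizer_iff]
    intro b hb
    exact (hc a ha b hb).symm
  have hp : IsPGroup 2 (A ⊔ A.map (MulAut.conj g).toMonoidHom : Subgroup G) :=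
    IsPGroup.to_sup_of_normal_right' hAp hBp hle
  obtain ⟨Q, hQ⟩ := hp.exists_le_sylow
  obtain ⟨h, hh⟩ := MulAction.exists_smul_eq G Q S
  have hQS : ∀ x ∈ (Q : Subgroup G), h * x * h⁻¹ ∈ (S : Subgroup G) := by
    intro x hx
    rw [← hh]
    exact ⟨x, hx, rfl⟩
  have key : ∀ k : G, (∀ x ∈ A, k * x * k⁻¹ ∈ (Q : Subgroup G)) → A.map (MulAut.conj (h * k)).toMonoidHom = A := by
    intro k hk
    apply hW.2
    rintro _ ⟨x, hx, rfl⟩
    have := hQS _ (hk x hx)
    simpa [mul_assoc] using this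
  have h1 := key 1 (fun x hx => by simpa using hQ (le_sup_left (a := A) hx))
  have h2 := key g (fun x hx => hQ (le_sup_right (a := A) ⟨x, hx, rfl⟩))
  rw [mul_one] at h1
  have h3 : CfsgLib.FusionH12.cj h A = A := h1
  have h4 : CfsgLib.FusionH12.cj (h * g) A = A := h2
  rw [CfsgLib.FusionH12.cj_mul] at h4
  show CfsgLib.FusionH12.cj g A = A
  have h5 : CfsgLib.FusionH12.cj h (CfsgLib.FusionH12.cj g A) = CfsgLib.FusionH12.cj h A := by rw [h4, h3]
  exact CfsgLib.FusionH12.cj_inj.1 h5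

end Cfsg.Agent.S1178
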