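import Cfsg.Statements.S1181
import Mathlib
import Cfsg.Agent.LibIsolated

set_option autoImplicit false
open Cfsg

namespace Cfsg.Agent.S1181


/-- Let z be an isolated involution of the finite group G and N a normal subgroup with z ∉ N. Then the centralizer of zN in G/N is the image of C_G(z), and zN is an isolated involution of G/N. -/
theorem result {G : Type*} [Group G] [Finite G] (z : G) (hz : Cfsg.IsIsolatedInvolution z) (N : Subgroup G) [N.Normal] (hzN : z ∉ N) : Subgroup.centralizer ({(QuotientGroup.mk z : G ⧸ N)} : Set (G ⧸ N)) = (Subgroup.centralizer ({z} : Set G)).map (QuotientGroup.mk' N) ∧ Cfsg.IsIsolatedInvolution (QuotientGroup.mk z : G ⧸ N) := by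
  have hz2' : orderOf (QuotientGroup.mk z : G ⧸ N) = 2 := by
    apply CfsgLib.Invol.orderOf_eq_two
    · intro h; exact hzN ((QuotientGroup.eq_one_iff z).1 h)
    · rw [← QuotientGroup.mk_mul, CfsgLib.Invol.mul_self hz.1]; rfl
  constructor
  · apply le_antisymm
    · intro x hx
      induction x using QuotientGroup.induction_on with
      | H g =>
        rw [Subgroup.mem_centralizer_singleton_iff, ← QuotientGroup.mk_mul, ← QuotientGroup.mk_mul,
          QuotientGroup.eq] at hx
        -- hx : (g*z)⁻¹ * (z*g) ∈ N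
        obtain ⟨d, hd, hdz⟩ := CfsgLib.Isolated.exists_conj_zpowers hz (CfsgLib.Isolated.isConj_conj g⁻¹ z)
        -- d z d⁻¹ = g⁻¹ z g, d ∈ ⟨z g⁻¹ z g⟩ ≤ N
        have hmem : z * (g⁻¹ * z * g⁻¹⁻¹) ∈ N := by
          have e : z * (g⁻¹ * z * g⁻¹⁻¹) = (g * z)⁻¹ * (z * g) := by
            rw [mul_inv_rev, CfsgLib.Invol.inv_eq hz.1]; group
          rw [e]; exact hx
        have hdN : d ∈ N := (Subgroup.zpowers_le.2 hmem) hd
        refine ⟨g * d, ?_, ?_⟩
        · rw [SetLike.mem_coe, Subgroup.mem_centralizer_singleton_iff]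
          have : d * z = g⁻¹ * z * g * d := by
            have h2 := mul_inv_eq_iff_eq_mul.1 hdz
            rw [h2, inv_inv]
          rw [mul_assoc, this]; group
        · simp only [QuotientGroup.coe_mk', QuotientGroup.mk_mul]
          rw [(QuotientGroup.eq_one_iff d).2 hdN, mul_one]
    · rintro _ ⟨g, hg, rfl⟩
      rw [SetLike.mem_coe, Subgroup.mem_centralizer_singleton_iff] at hg
      rw [Subgroup.mem_centralizer_singleton_iff]
      simp only [QuotientGroup.coe_mk']
      rw [← QuotientGroup.mk_mul, hg, QuotientGroup.mk_mul]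
  · rw [CfsgLib.Isolated.isolated_iff]
    refine ⟨hz2', fun x => ?_⟩
    induction x using QuotientGroup.induction_on with
    | H g =>
      have h1 := CfsgLib.Isolated.odd_of_isolated hz (CfsgLib.Isolated.isConj_conj g z)
      apply Odd.of_dvd_nat h1
      have := orderOf_map_dvd (QuotientGroup.mk' N) (z * (g * z * g⁻¹))
      simpa using this
end Cfsg.Agent.S1181
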