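import Cfsg.Statements.S1182
import Mathlib
import Cfsg.Agent.LibIsolated

set_option autoImplicit false
open Cfsg

namespace Cfsg.Agent.S1182


/-- Let z be an isolated involution of the finite group G and H a subgroup normalized by z. If x, y ∈ H both commute with z and y = h x h⁻¹ for some h ∈ H, then y = c x c⁻¹ for some c ∈ H commuting with z. -/
theorem result {G : Type*} [Group G] [Finite G] (z : G) (hz : Cfsg.IsIsolatedInvolution z) (H : Subgroup G) (hzH : z ∈ Subgroup.normalizer (H : Set G)) (x y : G) (hx : x ∈ H) (hy : y ∈ H) (hxz : Commute x z) (hyz : Commute y z) (h : G) (hh : h ∈ H) (hconj : h * x * h⁻¹ = y) : ∃ c ∈ H, Commute c z ∧ c * x * c⁻¹ = y := by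
  obtain ⟨d, hd, hdz⟩ := CfsgLib.Isolated.exists_conj_zpowers hz (CfsgLib.Isolated.isConj_conj h z)
  have hmemH : z * (h * z * h⁻¹) ∈ H := by
    have h1 : z * h * z⁻¹ ∈ H := (Subgroup.mem_normalizer_iff.1 hzH h).1 hh
    have h2 : z * (h * z * h⁻¹) = (z * h * z⁻¹) * h⁻¹ := by
      rw [CfsgLib.Invol.inv_eq hz.1]; group
    rw [h2]
    exact mul_mem h1 (inv_mem hh)
  have hcommy : Commute (z * (h * z * h⁻¹)) y := by
    apply Commute.mul_left hyz.symm
    rw [← hconj]
    have := hxz.symm.map (MulAut.conj h).toMonoidHom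
    simpa using this
  have hdH : d ∈ H := (Subgroup.zpowers_le.2 hmemH) hd
  have hdy : Commute d y := by
    obtain ⟨k, rfl⟩ := Subgroup.mem_zpowers_iff.1 hd
    exact hcommy.zpow_left k
  refine ⟨d⁻¹ * h, mul_mem (inv_mem hdH) hh, ?_, ?_⟩
  · have h1 : d⁻¹ * h * z * (d⁻¹ * h)⁻¹ = z := by
      calc d⁻¹ * h * z * (d⁻¹ * h)⁻¹ = d⁻¹ * (h * z * h⁻¹) * d := by group
      _ = z := by rw [← hdz]; group
    exact mul_inv_eq_iff_eq_mul.1 h1
  · calc d⁻¹ * h * x * (d⁻¹ * h)⁻¹ = d⁻¹ * (h * x * h⁻¹) * d := by group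
      _ = d⁻¹ * (y * d) := by rw [hconj]; group
      _ = y := by rw [← hdy.eq]; group
end Cfsg.Agent.S1182
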