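import Cfsg.Statements.S1183
import Cfsg.Agent.LibZCor

set_option autoImplicit false
open Cfsg

namespace Cfsg.Agent.S1183


/-- Let z be an isolated involution of the finite group G and C = C_G(z). Then the subgroup of G generated by its elements of odd order is all of G if and only if the subgroup of C generated by its elements of odd order is all of C. -/
theorem result {G : Type*} [Group G] [Finite G] (z : G) (hz : Cfsg.IsIsolatedInvolution z) : Cfsg.pResidual 2 G = ⊤ ↔ Cfsg.pResidual 2 ↥(Subgroup.centralizer ({z} : Set G)) = ⊤ := by
  exact CfsgLib.ZCor.residual_iff hz
end Cfsg.Agent.S1183
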