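import Cfsg.Statements.S1184
import Mathlib
import Cfsg.Agent.LibIsolated

set_option autoImplicit false
open Cfsg

namespace Cfsg.Agent.S1184


/-- Let z be an isolated involution of the finite group G. If s and t are distinct conjugates of z, then st does not commute with z. -/
theorem result {G : Type*} [Group G] [Finite G] (z : G) (hz : Cfsg.IsIsolatedInvolution z) (g h : G) (hne : g * z * g⁻¹ ≠ h * z * h⁻¹) : ¬ Commute (g * z * g⁻¹ * (h * z * h⁻¹)) z := by
  intro hc
  set a := g * z * g⁻¹ with ha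
  set b := h * z * h⁻¹ with hb
  have hai : Cfsg.IsIsolatedInvolution a := CfsgLib.Isolated.isolated_conj hz g
  have hbi : Cfsg.IsIsolatedInvolution b := CfsgLib.Isolated.isolated_conj hz h
  have hab : IsConj a b := (CfsgLib.Isolated.isConj_conj g z).symm.trans (CfsgLib.Isolated.isConj_conj h z)
  have hodd := CfsgLib.Isolated.odd_of_isolated hai hab
  have hza : IsConj a z := (CfsgLib.Isolated.isConj_conj g z).symm
  -- d ∈ ⟨a z⟩ with d a d⁻¹ = z
  obtain ⟨d, hd, hdz⟩ := CfsgLib.Isolated.exists_conj_zpowers hai hza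
  have hinv := CfsgLib.Invol.left_inverts hai.1 hbi.1
  set w := a * b with hw
  -- a and z normalize ⟨w⟩
  have haN : ∀ k : ℤ, a * w ^ k * a⁻¹ = w ^ (-k) := by
    intro k; rw [CfsgLib.Invol.inverts_zpow hinv, zpow_neg]
  have hzN : ∀ k : ℤ, z * w ^ k * z⁻¹ = w ^ k := by
    intro k
    have := (hc.zpow_left k).eq
    rw [← this, mul_inv_cancel_right]
  have hN : ∀ x : G, (∃ e : ℤ, ∀ k : ℤ, x * w ^ k * x⁻¹ = w ^ (e * k)) → True := fun _ _ => trivial
  -- (a z)^n acts on powers of w by ±1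
  have haz : ∀ k : ℤ, (a * z) * w ^ k * (a * z)⁻¹ = w ^ (-k) := by
    intro k
    calc (a * z) * w ^ k * (a * z)⁻¹ = a * (z * w ^ k * z⁻¹) * a⁻¹ := by group
    _ = w ^ (-k) := by rw [hzN, haN]
  have hazn : ∀ n : ℕ, (∀ k : ℤ, (a * z) ^ n * w ^ k * ((a * z) ^ n)⁻¹ = w ^ k) ∨
      (∀ k : ℤ, (a * z) ^ n * w ^ k * ((a * z) ^ n)⁻¹ = w ^ (-k)) := by
    intro n
    induction n with
    | zero => left; intro k; simp
    | succ n ih =>
      rcases ih with ih | ih
      · right; intro k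
        calc (a * z) ^ (n + 1) * w ^ k * ((a * z) ^ (n + 1))⁻¹
            = (a * z) * ((a * z) ^ n * w ^ k * ((a * z) ^ n)⁻¹) * (a * z)⁻¹ := by
              rw [pow_succ', mul_inv_rev]; simp only [mul_assoc]
          _ = w ^ (-k) := by rw [ih, haz]
      · left; intro k
        calc (a * z) ^ (n + 1) * w ^ k * ((a * z) ^ (n + 1))⁻¹
            = (a * z) * ((a * z) ^ n * w ^ k * ((a * z) ^ n)⁻¹) * (a * z)⁻¹ := by
              rw [pow_succ', mul_inv_rev]; simp only [mul_assoc]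
          _ = w ^ k := by rw [ih, haz, neg_neg]
  obtain ⟨n, hn⟩ : ∃ n : ℕ, (a * z) ^ n = d := by
    have := (mem_powers_iff_mem_zpowers (x := a * z)).2 hd
    exact this
  have hzw : z * w * z⁻¹ = w⁻¹ := by
    rw [← hdz, ← hn]
    have e1 : (a * z) ^ n * a * ((a * z) ^ n)⁻¹ * w * ((a * z) ^ n * a * ((a * z) ^ n)⁻¹)⁻¹ =
        (a * z) ^ n * (a * (((a * z) ^ n)⁻¹ * w * (a * z) ^ n) * a⁻¹) * ((a * z) ^ n)⁻¹ := by group
    rw [e1]
    rcases hazn n with h1 | h1
    · have h2 : ((a * z) ^ n)⁻¹ * w * (a * z) ^ n = w ^ (1 : ℤ) := by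
        have := h1 1
        rw [zpow_one] at this
        rw [zpow_one]
        nth_rw 1 [← this]
        group
      rw [h2, haN, h1, zpow_neg, zpow_one]
    · have h2 : ((a * z) ^ n)⁻¹ * w * (a * z) ^ n = w ^ (-1 : ℤ) := by
        have := h1 (-1)
        rw [neg_neg, zpow_one] at this
        nth_rw 1 [← this]
        group
      rw [h2, haN, h1, neg_neg, zpow_neg, zpow_one]
  have hw2 : w = w⁻¹ := by
    rw [← hzw, ← hc.eq, mul_inv_cancel_right]
  have hw1 : w ^ 2 = 1 := by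
    rw [pow_two]; nth_rw 1 [hw2]; simp
  have h6 := orderOf_dvd_of_pow_eq_one hw1
  rcases (Nat.dvd_prime Nat.prime_two).1 h6 with h7 | h7
  · rw [orderOf_eq_one_iff] at h7
    apply hne
    have := eq_inv_of_mul_eq_one_left h7
    rw [this, CfsgLib.Invol.inv_eq hbi.1]
  · rw [h7] at hodd; exact absurd hodd (by decide)
end Cfsg.Agent.S1184
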