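import Cfsg.Statements.S1185
import Mathlib
import Cfsg.Agent.LibIsolated

set_option autoImplicit false
open Cfsg

namespace Cfsg.Agent.S1185


/-- Let z be an isolated involution of the finite group G with centralizer C. Then for every g ∈ G there is exactly one element k in the coset gC that has odd order and is inverted by z. -/
theorem result {G : Type*} [Group G] [Finite G] (z : G) (hz : Cfsg.IsIsolatedInvolution z) (g : G) : ∃! k : G, (Odd (orderOf k) ∧ z * k * z⁻¹ = k⁻¹) ∧ g⁻¹ * k ∈ Subgroup.centralizer ({z} : Set G) := by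
  have hodd := CfsgLib.Isolated.odd_of_isolated (CfsgLib.Isolated.isolated_conj hz g)
    (CfsgLib.Isolated.isConj_conj g z).symm
  set v := g * z * g⁻¹ with hv
  have hv2 : orderOf v = 2 := by rw [hv, CfsgLib.Invol.orderOf_conj, hz.1]
  obtain ⟨n, hn⟩ := hodd
  have hinv := CfsgLib.Invol.right_inverts hv2 hz.1
  -- k = (v z)^(n+1)
  have hk2 : (v * z) ^ (n + 1) * (v * z) ^ (n + 1) = v * z := by
    rw [← pow_add]
    have : n + 1 + (n + 1) = orderOf (v * z) + 1 := by omega
    rw [this, pow_succ, pow_orderOf_eq_one, one_mul]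
  have hkinv := CfsgLib.Invol.inverts_pow hinv (n + 1)
  have hsq : ∀ k : G, z * k * z⁻¹ = k⁻¹ → g⁻¹ * k ∈ Subgroup.centralizer ({z} : Set G) → k * k = v * z := by
    intro k hk hc
    rw [Subgroup.mem_centralizer_singleton_iff] at hc
    have h1 : k * z * k⁻¹ = v := by
      rw [hv]
      calc k * z * k⁻¹ = g * (g⁻¹ * k * z) * k⁻¹ := by group
      _ = g * z * g⁻¹ := by rw [hc]; group
    have hk' : z * k⁻¹ * z = k := by
      have h2 := congrArg (fun x => x⁻¹) hk
      simp only [mul_inv_rev, inv_inv, CfsgLib.Invol.inv_eq hz.1] at h2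
      rw [mul_assoc]; exact h2
    have h3 : k * z * k⁻¹ * z = k * (z * k⁻¹ * z) := by simp only [mul_assoc]
    rw [← h1, h3, hk']
  refine ⟨(v * z) ^ (n + 1), ⟨⟨?_, hkinv⟩, ?_⟩, ?_⟩
  · have : orderOf ((v * z) ^ (n + 1)) ∣ orderOf (v * z) := orderOf_pow_dvd _
    exact Odd.of_dvd_nat ⟨n, hn⟩ this
  · rw [Subgroup.mem_centralizer_singleton_iff]
    have h1 : (v * z) ^ (n + 1) * z * ((v * z) ^ (n + 1))⁻¹ = v := by
      have h2 : z * ((v * z) ^ (n + 1))⁻¹ = (v * z) ^ (n + 1) * z := by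
        rw [← hkinv, CfsgLib.Invol.inv_eq hz.1]
        simp [← mul_assoc, CfsgLib.Invol.mul_self hz.1]
      rw [mul_assoc, h2, ← mul_assoc, hk2, mul_assoc, CfsgLib.Invol.mul_self hz.1, mul_one]
    have h3 : (v * z) ^ (n + 1) * z = v * (v * z) ^ (n + 1) := mul_inv_eq_iff_eq_mul.1 h1
    rw [mul_assoc, h3]
    nth_rw 1 [hv]
    group
  · rintro k ⟨⟨hko, hki⟩, hkc⟩
    have h1 := hsq k hki hkc
    obtain ⟨m, hm⟩ := hko
    -- k = (k^2)^(m+1)
    have h2 : k = (v * z) ^ (m + 1) := by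
      rw [← h1, ← pow_two, ← pow_mul]
      have : 2 * (m + 1) = orderOf k + 1 := by omega
      rw [this, pow_succ, pow_orderOf_eq_one, one_mul]
    -- both are in ⟨v z⟩ and have the same square
    have h3 : (k * ((v * z) ^ (n + 1))⁻¹) ^ 2 = 1 := by
      have hcomm : Commute k ((v * z) ^ (n + 1))⁻¹ := by
        rw [h2]
        exact ((Commute.refl (v * z)).pow_pow _ _).inv_right
      rw [hcomm.mul_pow, inv_pow, pow_two, h1, pow_two, hk2, mul_inv_cancel]
    have h4 : Odd (orderOf (k * ((v * z) ^ (n + 1))⁻¹)) := by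
      have : k * ((v * z) ^ (n + 1))⁻¹ ∈ Subgroup.zpowers (v * z) := by
        rw [h2]
        exact mul_mem (Subgroup.npow_mem_zpowers _ _) (inv_mem (Subgroup.npow_mem_zpowers _ _))
      have h5 := CfsgLib.Invol.orderOf_dvd_card_of_mem this
      rw [Nat.card_zpowers] at h5
      exact Odd.of_dvd_nat ⟨n, hn⟩ h5
    rcases (Nat.dvd_prime Nat.prime_two).1 (orderOf_dvd_of_pow_eq_one h3) with h7 | h7
    · rw [orderOf_eq_one_iff] at h7
      exact mul_inv_eq_one.1 h7
    · rw [h7] at h4; exact absurd h4 (by decide)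
end Cfsg.Agent.S1185
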