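import Cfsg.Statements.S1236
import Cfsg.Agent.LibNI8

set_option autoImplicit false
open Cfsg

namespace Cfsg.Agent.S1236

/-- Klein four-subgroups of dihedral groups are self-centralizing -/
theorem dih_klein {m : ℕ} (hm : m ≠ 0) {V : Subgroup (DihedralGroup m)} (hV4 : Nat.card V = 4)
    (hV2 : ∀ v ∈ V, v * v = 1) {c : DihedralGroup m} (hc : ∀ v ∈ V, c * v = v * c) : c ∈ V := by
  classical
  haveI : NeZero m := ⟨hm⟩
  -- a reflection
  have hrot : ∀ i j : ZMod m, i + i = 0 → j + j = 0 → i ≠ 0 → j ≠ 0 → i = j := by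
    intro i j hi hj hi0 hj0
    have key : ∀ i : ZMod m, i + i = 0 → i ≠ 0 → 2 * i.val = m := by
      intro i hi hi0
      have h1 : ((2 * i.val : ℕ) : ZMod m) = 0 := by
        push_cast
        rw [ZMod.natCast_zmod_val, two_mul]; exact hi
      rw [ZMod.natCast_eq_zero_iff] at h1
      obtain ⟨k, hk⟩ := h1
      have h2 := ZMod.val_lt i
      have h3 : 0 < i.val := Nat.pos_of_ne_zero (fun h => hi0 ((ZMod.val_eq_zero i).1 h))
      have h4 : k < 2 := by
        by_contra hcon
        have : 2 ≤ k := by omega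
        nlinarith
      have h5 : k ≠ 0 := by rintro rfl; omega
      have h6 : k = 1 := by omega
      rw [h6, mul_one] at hk; exact hk
    have h1 := key i hi hi0
    have h2 := key j hj hj0
    apply ZMod.val_injective m
    omega
  have hVr : ∀ i : ZMod m, DihedralGroup.r i ∈ V → i + i = 0 := by
    intro i hi
    have := hV2 _ hi
    rw [DihedralGroup.r_mul_r] at this
    rw [DihedralGroup.one_def] at this
    exact DihedralGroup.r.inj this
  obtain ⟨s, hs⟩ : ∃ s : ZMod m, DihedralGroup.sr s ∈ V := by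
    by_contra hcon
    push Not at hcon
    have hall : ∀ v : V, ∃ i : ZMod m, (v : DihedralGroup m) = DihedralGroup.r i ∧ i + i = 0 := by
      rintro ⟨v, hv⟩
      cases v with
      | r i => exact ⟨i, rfl, hVr i hv⟩
      | sr i => exact absurd hv (hcon i)
    have hle : Nat.card V ≤ 2 := by
      by_cases hex : ∃ j : ZMod m, j + j = 0 ∧ j ≠ 0
      · obtain ⟨j, hj, hj0⟩ := hex
        have hsub : (V : Set (DihedralGroup m)) ⊆ (({DihedralGroup.r 0, DihedralGroup.r j} : Finset (DihedralGroup m)) : Set (DihedralGroup m)) := by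
          intro v hv
          obtain ⟨i, hi, hi2⟩ := hall ⟨v, hv⟩
          change v = _ at hi
          rw [hi]
          by_cases h0 : i = 0
          · simp [h0]
          · simp [hrot i j hi2 hj h0 hj0]
        have h1 := Set.ncard_le_ncard hsub (Finset.finite_toSet _)
        rw [Set.ncard_coe_finset] at h1
        have h2 : Nat.card V = (V : Set (DihedralGroup m)).ncard := rfl
        rw [h2]
        exact h1.trans (Finset.card_le_two)
      · push Not at hex
        have hsub : (V : Set (DihedralGroup m)) ⊆ (({DihedralGroup.r 0} : Finset (DihedralGroup m)) : Set (DihedralGroup m)) := by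
          intro v hv
          obtain ⟨i, hi, hi2⟩ := hall ⟨v, hv⟩
          change v = _ at hi
          rw [hi, hex i hi2]; simp
        have h1 := Set.ncard_le_ncard hsub (Finset.finite_toSet _)
        rw [Set.ncard_coe_finset] at h1
        have h2 : Nat.card V = (V : Set (DihedralGroup m)).ncard := rfl
        rw [h2]
        exact h1.trans (by simp)
    omega
  -- a nontrivial rotation
  obtain ⟨j, hjV, hj0⟩ : ∃ j : ZMod m, DihedralGroup.r j ∈ V ∧ j ≠ 0 := by
    by_contra hcon
    push Not at hcon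
    have hsub : (V : Set (DihedralGroup m)) ⊆ (({DihedralGroup.r 0, DihedralGroup.sr s} : Finset (DihedralGroup m)) : Set (DihedralGroup m)) := by
      intro v hv
      cases v with
      | r i => rw [hcon i hv]; simp
      | sr i =>
        have h1 := V.mul_mem hs hv
        rw [DihedralGroup.sr_mul_sr] at h1
        have h2 := hcon _ h1
        have h3 : i = s := sub_eq_zero.1 h2
        rw [h3]; simp
    have h1 := Set.ncard_le_ncard hsub (Finset.finite_toSet _)
    rw [Set.ncard_coe_finset] at h1
    have h2 : Nat.card V = (V : Set (DihedralGroup m)).ncard := rfl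
    rw [h2] at hV4
    have := Finset.card_le_two (a := DihedralGroup.r (0 : ZMod m)) (b := DihedralGroup.sr s)
    omega
  have hj2 := hVr j hjV
  cases c with
  | r i =>
    have h1 := hc _ hs
    rw [DihedralGroup.r_mul_sr, DihedralGroup.sr_mul_r] at h1
    have h2 : s - i = s + i := by simpa using h1
    have h3 : i + i = 0 := by
      have : s + i - (s - i) = 0 := by rw [h2]; ring
      rw [← this]; ring
    by_cases h0 : i = 0
    · rw [h0]; exact V.one_mem
    · rw [hrot i j h3 hj2 h0 hj0]; exact hjV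
  | sr i =>
    have h1 := hc _ hs
    rw [DihedralGroup.sr_mul_sr, DihedralGroup.sr_mul_sr] at h1
    have h2 : s - i = i - s := by simpa using h1
    have h3 : (i - s) + (i - s) = 0 := by
      have : (i - s) + (i - s) = (i - s) - (s - i) := by ring
      rw [this, h2, sub_self]
    have h4 : DihedralGroup.r (i - s) ∈ V := by
      by_cases h0 : i - s = 0
      · rw [h0]; exact V.one_mem
      · rw [hrot _ j h3 hj2 h0 hj0]; exact hjV
    have h5 := V.mul_mem hs h4
    rw [DihedralGroup.sr_mul_r] at h5
    have h6 : s + (i - s) = i := by ring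
    rwa [h6] at h5

theorem qd_klein {D : Type*} [Group D] (hD : Cfsg.IsQuasiDihedral D) {V : Subgroup D} (hV4 : Nat.card V = 4)
    (hV2 : ∀ v ∈ V, v * v = 1) {c : D} (hc : ∀ v ∈ V, c * v = v * c) : c ∈ V := by
  obtain ⟨k, x, y, h, -⟩ := CfsgLib.QD.exists_QDi hD
  haveI := h.finite
  have hV : IsKleinFour V := CfsgLib.F8.isKleinFour_of hV4 hV2
  have h1 := (h.four.2 V hV).1
  have h2 : c ∈ Subgroup.centralizer (V : Set D) := by
    rw [Subgroup.mem_centralizer_iff]
    intro v hv
    exact (hc v hv).symm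
  rw [h1] at h2; exact h2

/-- Let R be a finite group, t a central involution of R such that R ⧸ ⟨t⟩ is dihedral (of order ≥ 4) or quasi-dihedral, and A ≤ R an elementary abelian subgroup of order 8 containing t. Then C_R(A) = A. -/
theorem result {R : Type*} [Group R] [Finite R] (t : R) (ht : orderOf t = 2) (htz : t ∈ Subgroup.center R) [(Subgroup.zpowers t).Normal] (hq : (∃ m : ℕ, 2 ≤ m ∧ Nonempty (R ⧸ Subgroup.zpowers t ≃* DihedralGroup m)) ∨ Cfsg.IsQuasiDihedral (R ⧸ Subgroup.zpowers t)) (A : Subgroup R) (hA : Cfsg.IsElementaryAbelian 2 A) (hA8 : Nat.card A = 8) (htA : t ∈ A) : Subgroup.centralizer (A : Set R) = A := by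
  have hle : A ≤ Subgroup.centralizer (A : Set R) := by
    intro a ha
    rw [Subgroup.mem_centralizer_iff]
    intro b hb
    exact congrArg Subtype.val (hA.1.1.comm (⟨b, hb⟩ : A) ⟨a, ha⟩)
  apply le_antisymm _ hle
  intro c hc
  obtain ⟨N, hN⟩ : ∃ N, N = Subgroup.zpowers t := ⟨_, rfl⟩
  have hNA : Subgroup.zpowers t ≤ A := by rwa [Subgroup.zpowers_le]
  obtain ⟨V, hV⟩ : ∃ V, V = A.map (QuotientGroup.mk' (Subgroup.zpowers t)) := ⟨_, rfl⟩
  have hVc : Nat.card V = 4 := by
    have h1 : (Subgroup.zpowers t).relIndex A = Nat.card V := by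
      rw [hV, ← Subgroup.relIndex_ker, QuotientGroup.ker_mk']
    have h2 := Subgroup.card_mul_index ((Subgroup.zpowers t).subgroupOf A)
    rw [Nat.card_congr (Subgroup.subgroupOfEquivOfLe hNA).toEquiv, Nat.card_zpowers, ht, hA8] at h2
    rw [← h1]
    change ((Subgroup.zpowers t).subgroupOf A).index = 4
    omega
  have hV2 : ∀ v ∈ V, v * v = 1 := by
    rw [hV]
    rintro _ ⟨a, ha, rfl⟩
    have := hA.2 a ha
    rw [← map_mul, ← pow_two, this, map_one]
  have hcV : ∀ v ∈ V, (c : R ⧸ Subgroup.zpowers t) * v = v * (c : R ⧸ Subgroup.zpowers t) := by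
    rw [hV]
    rintro _ ⟨a, ha, rfl⟩
    have h1 := Subgroup.mem_centralizer_iff.1 hc a ha
    change ((c * a : R) : R ⧸ Subgroup.zpowers t) = ((a * c : R) : R ⧸ Subgroup.zpowers t)
    rw [h1]
  have hmem : (c : R ⧸ Subgroup.zpowers t) ∈ V := by
    rcases hq with ⟨m, hm, ⟨e⟩⟩ | hq
    · have h1 : e (c : R ⧸ Subgroup.zpowers t) ∈ V.map e.toMonoidHom := by
        refine dih_klein (m := m) (by omega) ?_ ?_ ?_
        · rw [Subgroup.card_map_of_injective (f := e.toMonoidHom) e.injective]; exact hVc
        · rintro _ ⟨v, hv, rfl⟩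
          rw [← map_mul, hV2 v hv, map_one]
        · rintro _ ⟨v, hv, rfl⟩
          change e _ * e v = e v * e _
          rw [← map_mul, hcV v hv, map_mul]
      obtain ⟨v, hv, hve⟩ := h1
      have : v = (c : R ⧸ Subgroup.zpowers t) := e.injective hve
      rw [← this]; exact hv
    · exact qd_klein hq hVc hV2 hcV
  rw [hV] at hmem
  obtain ⟨a, ha, hac⟩ := hmem
  have h1 := QuotientGroup.eq.1 (hac : (a : R ⧸ Subgroup.zpowers t) = (c : R ⧸ Subgroup.zpowers t))
  have h2 := mul_mem ha (hNA h1)
  rwa [mul_inv_cancel_left] at h2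
end Cfsg.Agent.S1236
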