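import Cfsg.Statements.S1239
import Cfsg.Agent.LibZW8

set_option autoImplicit false
open Cfsg

namespace Cfsg.Agent.S1239


/-- Let X be a finite group whose Sylow 2-subgroup S is quasi-dihedral or wreathed, and suppose some involution of S is isolated in X. Then the product of the largest normal odd-order subgroup O(X) with the centre of S is normal in X. -/
theorem result {X : Type*} [Group X] [Finite X] (S : Sylow 2 X) (hS : Cfsg.IsQuasiDihedral (S : Subgroup X) ∨ Cfsg.IsWreathed (S : Subgroup X)) (z : X) (hzS : z ∈ S) (hz : Cfsg.IsIsolatedInvolution z) : (Cfsg.oddCore X ⊔ (Subgroup.center (S : Subgroup X)).map (S : Subgroup X).subtype).Normal := by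
  have hzc : ∀ s ∈ (S : Subgroup X), s * z = z * s := by
    intro s hs
    have h1 := CfsgLib.Isolated.eq_of_mem_pgroup hz (CfsgLib.Isolated.isConj_conj s z) S.2 hzS
      (mul_mem (mul_mem hs hzS) (inv_mem hs))
    exact mul_inv_eq_iff_eq_mul.1 h1
  have hzC : (⟨z, hzS⟩ : (S : Subgroup X)) ∈ Subgroup.center (S : Subgroup X) := by
    rw [Subgroup.mem_center_iff]
    rintro ⟨s, hs⟩
    exact Subtype.ext (hzc s hs)
  have hzo : orderOf (⟨z, hzS⟩ : (S : Subgroup X)) = 2 := by rw [Subgroup.orderOf_mk]; exact hz.1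
  have key : ∀ w ∈ ((Subgroup.center (S : Subgroup X)).map (S : Subgroup X).subtype), ∀ g : X,
      w * g * w⁻¹ * g⁻¹ ∈ Cfsg.oddCore X := by
    rcases hS with hS | hS
    · obtain ⟨k, x, y, h, -⟩ := CfsgLib.QD.exists_QDi hS
      have hz1 : (⟨z, hzS⟩ : (S : Subgroup X)) ≠ 1 := by
        intro hh; rw [hh, orderOf_one] at hzo; omega
      have hzt := ((h.center_iff _).1 hzC).resolve_left hz1
      rintro _ ⟨w, hw, rfl⟩ g
      rcases (h.center_iff w).1 hw with rfl | rfl
      · have : ((S : Subgroup X).subtype (1 : (S : Subgroup X))) * g * ((S : Subgroup X).subtype (1 : (S : Subgroup X)))⁻¹ * g⁻¹ = 1 := by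
          rw [map_one]; group
        rw [this]; exact one_mem _
      · rw [← hzt]
        exact CfsgLib.ZStar.zstar hz g
    · obtain ⟨k, x, y, u, h, -⟩ := CfsgLib.Wr.exists_Wr hS
      have hzt : (⟨z, hzS⟩ : (S : Subgroup X)) = CfsgLib.Wr.Wr.u x y (2 * (2 ^ k : ℕ)) (2 * (2 ^ k : ℕ)) := by
        rcases (h.involution_iff _).1 hzo with h1 | h1 | h1 | ⟨i, h1⟩
        · exfalso
          rw [h1] at hzC
          obtain ⟨j, hj⟩ := (h.center_iff _).1 hzC
          obtain ⟨⟨a, ha⟩, ⟨b, hb⟩⟩ := (h.u_eq _ _ _ _).1 hj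
          exact h.half_not ⟨a - b, by linarith⟩
        · exfalso
          rw [h1] at hzC
          obtain ⟨j, hj⟩ := (h.center_iff _).1 hzC
          obtain ⟨⟨a, ha⟩, ⟨b, hb⟩⟩ := (h.u_eq _ _ _ _).1 hj
          exact h.half_not ⟨b - a, by linarith⟩
        · exact h1
        · exfalso
          rw [h1] at hzC
          obtain ⟨j, hj⟩ := (h.center_iff _).1 hzC
          exact h.uz_ne _ _ _ _ hj
      have hB : ¬ CfsgLib.F8.OddAut 2 (CfsgLib.WrG.BB h) := by
        intro ho
        have h1 := CfsgLib.WrG.BB_conj h ho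
        have h2 : ((CfsgLib.Wr.Wr.u x y (2 * (2 ^ k : ℕ)) (2 * (2 ^ k : ℕ)) : (S : Subgroup X)) : X) = z := by
          rw [← hzt]
        rw [h2] at h1
        have h3 := CfsgLib.Isolated.eq_of_mem_pgroup hz h1.symm S.2 hzS (Subtype.coe_prop _)
        rw [← h2] at h3
        have h4 := (h.u_eq _ _ _ _).1 (Subtype.ext h3)
        apply h.half_not
        simpa using h4.2
      intro w hw g
      have hfx : CfsgLib.ZW8.Fixd (S : Subgroup X) w := by
        apply CfsgLib.ZW8.fixd_of_weak S (Subgroup.map_subtype_le _ hw) (CfsgLib.WrG.ZG_mem hw)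
        intro i g hg
        exact CfsgLib.WrG.ZG_weak h hB (by rw [Subgroup.zpowers_le]; exact pow_mem hw i) hg
      exact CfsgLib.ZW8.zstar_fixd _ X S w rfl (Subgroup.map_subtype_le _ hw) hfx g
  haveI hOn : (Cfsg.oddCore X).Normal := inferInstance
  constructor
  intro n hn g
  obtain ⟨o, ho, w, hw, rfl⟩ := (CfsgLib.CentricH12.mem_sup_of_le_normalizer (A := Cfsg.oddCore X)
    (B := (Subgroup.center (S : Subgroup X)).map (S : Subgroup X).subtype)
    (by rw [Subgroup.normalizer_eq_top_iff.2 hOn]; exact le_top)).1 hn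
  have h1 : g * (o * w) * g⁻¹ = (g * o * g⁻¹) * w * (w⁻¹ * g * w⁻¹⁻¹ * g⁻¹) := by group
  rw [h1]
  exact mul_mem (mul_mem (Subgroup.mem_sup_left (hOn.conj_mem o ho g)) (Subgroup.mem_sup_right hw))
    (Subgroup.mem_sup_left (key _ (inv_mem hw) g))
end Cfsg.Agent.S1239
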