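import Cfsg.Statements.S1247
import Cfsg.Agent.LibBenderMax

set_option autoImplicit false
open Cfsg

namespace Cfsg.Agent.S1247


/-- Let G be a non-abelian finite simple group, A a maximal subgroup, F = F*(A) its generalized Fitting subgroup (viewed in G), and S ≤ F a subgroup subnormal in F with C_F(S) ≤ S. Let B be any subgroup of G containing S. Then (a) for every prime q not dividing |F(A)|, O_q(B) ∩ A = 1; and (b) for every prime p dividing |F(A)|, O_p(B) commutes elementwise with the subgroup of F generated by its elements of order prime to p. -/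
theorem result {G : Type*} [Group G] [Finite G] [IsSimpleGroup G] (hna : ¬ IsMulCommutative G) (A : Subgroup G) (hA : IsCoatom A) (S : Subgroup G) (hSF : S ≤ (Cfsg.generalizedFittingSubgroup ↥A).map A.subtype) (hSsn : (S.subgroupOf ((Cfsg.generalizedFittingSubgroup ↥A).map A.subtype)).IsSubnormal) (hSC : (Cfsg.generalizedFittingSubgroup ↥A).map A.subtype ⊓ Subgroup.centralizer (S : Set G) ≤ S) (B : Subgroup G) (hSB : S ≤ B) : (∀ q : ℕ, q.Prime → ¬ q ∣ Nat.card (Cfsg.fittingSubgroup ↥A) → (Cfsg.pCore q ↥B).map B.subtype ⊓ A = ⊥) ∧ (∀ p : ℕ, p.Prime → p ∣ Nat.card (Cfsg.fittingSubgroup ↥A) → ∀ x ∈ (Cfsg.pCore p ↥B).map B.subtype, ∀ y ∈ (Cfsg.pResidual p ↥(Cfsg.generalizedFittingSubgroup ↥A)).map ((Cfsg.generalizedFittingSubgroup ↥A).subtype) , x * (A.subtype y) = (A.subtype y) * x) := by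
  have hSA : S ≤ A := hSF.trans (Subgroup.map_subtype_le _)
  have hF : S.subgroupOf A ≤ Cfsg.generalizedFittingSubgroup ↥A := by
    intro x hx
    obtain ⟨y, hy, hxy⟩ := hSF (Subgroup.mem_subgroupOf.1 hx)
    rwa [← Subtype.ext hxy]
  have hsn : (S.subgroupOf A).IsSubnormal := by
    apply CfsgLib.Comp3.isSubnormal_of_subgroupOf hF CfsgLib.Comp3.gfitting_subnormal
    let f : ↥(Cfsg.generalizedFittingSubgroup ↥A) →*
        ↥((Cfsg.generalizedFittingSubgroup ↥A).map A.subtype) :=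
      A.subtype.subgroupMap (Cfsg.generalizedFittingSubgroup ↥A)
    have e : (S.subgroupOf A).subgroupOf (Cfsg.generalizedFittingSubgroup ↥A) =
        (S.subgroupOf ((Cfsg.generalizedFittingSubgroup ↥A).map A.subtype)).comap f := rfl
    rw [e]
    exact hSsn.comap f
  have hC : Cfsg.generalizedFittingSubgroup ↥A ⊓
      Subgroup.centralizer ((S.subgroupOf A : Subgroup ↥A) : Set ↥A) ≤ S.subgroupOf A := by
    intro x hx
    obtain ⟨h1, h2⟩ := Subgroup.mem_inf.1 hx
    rw [Subgroup.mem_subgroupOf]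
    apply hSC
    refine Subgroup.mem_inf.2 ⟨⟨x, h1, rfl⟩, ?_⟩
    rw [Subgroup.mem_centralizer_iff] at h2 ⊢
    intro s hs
    exact congrArg Subtype.val (h2 ⟨s, hSA hs⟩ (Subgroup.mem_subgroupOf.2 hs))
  refine ⟨fun q hq hqd => ?_, fun p hp hpd => ?_⟩
  · exact CfsgLib.BenderMax.main1 hSA hF hsn hC hSB hq
      (CfsgLib.BenderMax.pCore_eq_bot_of_not_dvd hq hqd)
  · intro x hx y hy
    have h1 := CfsgLib.BenderMax.main2 hA hSA hF hsn hC hSB hp
      (CfsgLib.BenderMax.pCore_ne_bot_of_dvd hp hpd)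
    have h2 : (Cfsg.pResidual p ↥(Cfsg.generalizedFittingSubgroup ↥A)).map
        (Cfsg.generalizedFittingSubgroup ↥A).subtype ≤ CfsgLib.BenderMax.uu p ↥A := by
      rw [Cfsg.pResidual, MonoidHom.map_closure, Subgroup.closure_le]
      rintro _ ⟨z, hz, rfl⟩
      apply CfsgLib.BenderMax.mem_uu_of_coprime hp z.2
      rw [Subgroup.orderOf_coe]
      exact hz
    exact CfsgLib.Comp2.commute_of_commutator_eq_bot h1 hx ⟨y, h2 hy, rfl⟩
end Cfsg.Agent.S1247
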