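import Cfsg.Statements.S1254
import Cfsg.Agent.EqBase
import Cfsg.Agent.LibDih8

set_option autoImplicit false
open Cfsg

namespace Cfsg.Agent.S1254


/-- Let X be a finite group whose Sylow 2-subgroup S is dihedral (of order at least 4). Then X has a normal 2-complement if and only if, for every Klein four-subgroup U ≤ S, the normalizer N_X(U) is generated by C_X(U) and N_S(U). -/
theorem result {X : Type*} [Group X] [Finite X] (S : Sylow 2 X) (m : ℕ) (hm : 2 ≤ m) (eS : (S : Subgroup X) ≃* DihedralGroup m) : Cfsg.HasNormalPComplement 2 X ↔ ∀ U : Subgroup X, U ≤ S → IsKleinFour U → Subgroup.normalizer (U : Set X) = Subgroup.centralizer (U : Set X) ⊔ ((S : Subgroup X) ⊓ Subgroup.normalizer (U : Set X)) := by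
  classical
  haveI : Fact (Nat.Prime 2) := ⟨Nat.prime_two⟩
  obtain ⟨r, s, h⟩ := CfsgLib.Dih8.exists_DHi eS
  have hcard : Nat.card S = 2 * m := h.card
  obtain ⟨n, hn⟩ := IsPGroup.iff_card.1 S.2
  have hn' : Nat.card S = 2 ^ n := hn
  obtain ⟨k, hk⟩ : ∃ k, m = 2 ^ k := by
    rcases n with _ | n
    · rw [hn'] at hcard; omega
    · refine ⟨n, ?_⟩
      have : 2 * m = 2 * 2 ^ n := by rw [← hcard, hn']; ring
      omega
  rw [CfsgLib.TransPC.hasNPC_iff]
  constructor
  · rintro ⟨N, hN⟩ U hU hUk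
    have hNn := hN.1
    apply le_antisymm
    · intro x hx
      -- `x = k s`
      have hcompl := hN.isComplement' S
      obtain ⟨⟨a, b⟩, hab⟩ := hcompl.2 x
      have hx' : (a : X) * (b : X) = x := hab
      have key : ∀ u ∈ U, x * u * x⁻¹ = b * u * (b : X)⁻¹ := by
        intro u hu
        have h1 : x * u * x⁻¹ ∈ S := hU ((Subgroup.mem_normalizer_iff.1 hx u).1 hu)
        have h2 : (b : X) * u * (b : X)⁻¹ ∈ S := mul_mem (mul_mem b.2 (hU hu)) (inv_mem b.2)
        have h3 : x * u * x⁻¹ * ((b : X) * u * (b : X)⁻¹)⁻¹ ∈ (S : Subgroup X) := mul_mem h1 (inv_mem h2)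
        have h4 : x * u * x⁻¹ * ((b : X) * u * (b : X)⁻¹)⁻¹ ∈ N := by
          have e : x * u * x⁻¹ * ((b : X) * u * (b : X)⁻¹)⁻¹ =
              a * (((b : X) * u * (b : X)⁻¹) * (a : X)⁻¹ * ((b : X) * u * (b : X)⁻¹)⁻¹) := by
            rw [← hx']; group
          rw [e]
          exact mul_mem a.2 (hNn.conj_mem _ (inv_mem a.2) _)
        have h5 : x * u * x⁻¹ * ((b : X) * u * (b : X)⁻¹)⁻¹ ∈ N ⊓ (S : Subgroup X) :=
          Subgroup.mem_inf.2 ⟨h4, h3⟩
        rw [hcompl.disjoint.eq_bot, Subgroup.mem_bot, mul_inv_eq_one] at h5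
        exact h5
      have hbx : (b : X)⁻¹ * x ∈ Subgroup.centralizer (U : Set X) := by
        rw [CfsgLib.FusionH12.mem_centralizer_iff']
        intro u hu
        calc (b : X)⁻¹ * x * u * ((b : X)⁻¹ * x)⁻¹ = (b : X)⁻¹ * (x * u * x⁻¹) * b := by group
          _ = (b : X)⁻¹ * (b * u * (b : X)⁻¹) * b := by rw [key u hu]
          _ = u := by group
      have hCN : Subgroup.centralizer (U : Set X) ≤ Subgroup.normalizer (U : Set X) := by
        intro c hc
        rw [CfsgLib.FusionH12.mem_nrm]; exact CfsgLib.FusionH12.cj_of_mem_centralizer hc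
      have hbN : (b : X) ∈ Subgroup.normalizer (U : Set X) := by
        have h6 : (b : X) = x * ((b : X)⁻¹ * x)⁻¹ := by group
        rw [h6]
        exact mul_mem hx (inv_mem (hCN hbx))
      have h7 : x = b * ((b : X)⁻¹ * x) := by group
      rw [h7]
      exact mul_mem (Subgroup.mem_sup_right (Subgroup.mem_inf.2 ⟨b.2, hbN⟩)) (Subgroup.mem_sup_left hbx)
    · refine sup_le ?_ inf_le_right
      intro c hc
      rw [CfsgLib.FusionH12.mem_nrm]; exact CfsgLib.FusionH12.cj_of_mem_centralizer hc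
  · intro hall
    apply CfsgLib.F8.npc S
    intro U hU
    have hUk := h.klein_of_oddAut hk hU.le hU.odd
    have h1 := hall U hU.le hUk
    obtain ⟨y, hyN, hyo, hyc⟩ := hU.odd
    apply hyc
    rw [h1] at hyN
    have hnorm : ((S : Subgroup X) ⊓ Subgroup.normalizer (U : Set X)) ≤
        Subgroup.normalizer ((Subgroup.centralizer (U : Set X) : Subgroup X) : Set X) := by
      intro n hn
      rw [CfsgLib.FusionH12.mem_nrm, CfsgLib.FusionH12.cj_centralizer, CfsgLib.FusionH12.cj_of_mem_nrm hn.2]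
    obtain ⟨c, hc, t, ht, hy⟩ := (CfsgLib.CentricH12.mem_sup_of_le_normalizer hnorm).1 hyN
    -- powers
    have hpow : ∀ j : ℕ, ∃ c' ∈ Subgroup.centralizer (U : Set X), y ^ j = c' * t ^ j := by
      intro j
      induction j with
      | zero => exact ⟨1, one_mem _, by simp⟩
      | succ j ih =>
        obtain ⟨c', hc', hj⟩ := ih
        refine ⟨c' * (t ^ j * c * (t ^ j)⁻¹), mul_mem hc' ?_, ?_⟩
        · exact (Subgroup.mem_normalizer_iff.1 (hnorm (pow_mem ht j)) c).1 hc
        · calc y ^ (j + 1) = y ^ j * y := pow_succ y j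
            _ = (c' * t ^ j) * (c * t) := by rw [hj, hy]
            _ = c' * (t ^ j * c * (t ^ j)⁻¹) * t ^ (j + 1) := by rw [pow_succ]; group
    obtain ⟨e, he⟩ := S.2 ⟨t, ht.1⟩
    have he' : t ^ 2 ^ e = 1 := congrArg Subtype.val he
    obtain ⟨c', hc', hce⟩ := hpow (2 ^ e)
    rw [he', mul_one] at hce
    obtain ⟨q, hq⟩ := exists_pow_eq_self_of_coprime (hyo.pow_right e).symm
    rw [← hq, hce]
    exact pow_mem hc' q
end Cfsg.Agent.S1254
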