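import Cfsg.Statements.S1255
import Cfsg.Agent.EqBase
import Cfsg.Agent.LibDih8
import Cfsg.Agent.LibOdd8b
import Cfsg.Agent.LibThompTrH12

set_option autoImplicit false
open Cfsg

namespace Cfsg.Agent.S1255


/-- Let X be a finite group whose Sylow 2-subgroup S is dihedral of order 2m ≥ 4. Then X has no subgroup of index 2 and no isolated involution if and only if either all involutions of X are conjugate, or for every Klein four-subgroup U ≤ S the index |N_X(U) : C_X(U)| equals 3 when |S| = 4 and equals 6 when |S| > 4. -/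
theorem result {X : Type*} [Group X] [Finite X] (S : Sylow 2 X) (m : ℕ) (hm : 2 ≤ m) (eS : (S : Subgroup X) ≃* DihedralGroup m) : ((∀ H : Subgroup X, H.index ≠ 2) ∧ (∀ z : X, ¬ Cfsg.IsIsolatedInvolution z)) ↔ ((∀ a b : X, orderOf a = 2 → orderOf b = 2 → IsConj a b) ∨ (∀ U : Subgroup X, U ≤ S → IsKleinFour U → (Subgroup.centralizer (U : Set X)).relIndex (Subgroup.normalizer (U : Set X)) = (if Nat.card S = 4 then 3 else 6))) := by
  classical
  haveI : Fact (Nat.Prime 2) := ⟨Nat.prime_two⟩
  obtain ⟨r, s, h⟩ := CfsgLib.Dih8.exists_DHi eS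
  have hcard : Nat.card S = 2 * m := h.card
  obtain ⟨n, hn⟩ := IsPGroup.iff_card.1 S.2
  have hn' : Nat.card S = 2 ^ n := hn
  obtain ⟨k, hk⟩ : ∃ k, m = 2 ^ k * 2 := by
    rcases n with _ | _ | n
    · rw [hn'] at hcard; omega
    · rw [hn'] at hcard; omega
    · refine ⟨n, ?_⟩
      have : 2 * m = 2 * (2 ^ n * 2) := by rw [← hcard, hn']; ring
      omega
  have ha : 0 < 2 ^ k := by positivity
  set z := r ^ ((2 ^ k : ℕ) : ℤ) with hz
  have hzz : z * z = 1 := by
    rw [hz, ← zpow_add, h.rot_eq_one, hk]
    exact ⟨1, by push_cast; ring⟩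
  have hz1 : z ≠ 1 := by
    rw [hz, Ne, h.rot_eq_one, hk]
    intro hd
    have := Int.le_of_dvd (by positivity) hd
    push_cast at this
    have h2 : (0 : ℤ) < 2 ^ k := by positivity
    omega
  have hzS : z ∈ (S : Subgroup X) := h.rot_mem _
  have oz : orderOf z = 2 := CfsgLib.Invol.orderOf_eq_two hz1 hzz
  have os : orderOf s = 2 := CfsgLib.Invol.orderOf_eq_two (by
    have := h.ref_ne_one 0; simpa using this) h.ss
  have hzs : z * s = s * z := by
    have h1 : s * z = r ^ (-((2 ^ k : ℕ) : ℤ)) * s := h.s_mul _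
    rw [h1]
    congr 1
    rw [hz, h.rot_eq, hk]
    exact ⟨1, by push_cast; ring⟩
  have hsz : s ≠ z := by
    intro h1; apply h.not_mem; rw [h1]; exact zpow_mem (Subgroup.mem_zpowers r) _
  -- consequences of one class of involutions
  have hone : (∀ a b : X, orderOf a = 2 → orderOf b = 2 → IsConj a b) →
      ((∀ H : Subgroup X, H.index ≠ 2) ∧ (∀ z : X, ¬ Cfsg.IsIsolatedInvolution z)) := by
    intro hall
    constructor
    · intro H hH
      haveI hHn : H.Normal := Subgroup.normal_of_index_eq_two hH
      have h1 : ∃ t ∈ H, orderOf t = 2 := by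
        by_cases hzH : z ∈ H
        · exact ⟨z, hzH, oz⟩
        by_cases hsH : s ∈ H
        · exact ⟨s, hsH, os⟩
        refine ⟨z * s, ?_, ?_⟩
        · rw [Subgroup.mul_mem_iff_of_index_two hH]
          exact iff_of_false hzH hsH
        · apply CfsgLib.Invol.orderOf_eq_two
          · intro h2
            apply hsz
            have : s = z⁻¹ := eq_inv_of_mul_eq_one_right h2
            rw [this, inv_eq_of_mul_eq_one_left hzz]
          · calc z * s * (z * s) = z * (s * z) * s := by group
              _ = z * (z * s) * s := by rw [hzs]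
              _ = (z * z) * (s * s) := by group
              _ = 1 := by rw [hzz, h.ss, one_mul]
      obtain ⟨t, htH, ot⟩ := h1
      have h2 : ∀ b : X, orderOf b = 2 → b ∈ H := by
        intro b hb
        obtain ⟨c, hc⟩ := isConj_iff.1 (hall t b ot hb)
        rw [← hc]; exact hHn.conj_mem _ htH _
      have hsH : s ∈ H := h2 s os
      have hrs : r * s ∈ H := h2 _ (by
        apply CfsgLib.Invol.orderOf_eq_two
        · have := h.ref_ne_one 1; simpa using this
        · have := h.ref_sq 1; simpa using this)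
      have hrH : r ∈ H := by
        have := mul_mem hrs hsH
        rwa [mul_assoc, h.ss, mul_one] at this
      have hSH : (S : Subgroup X) ≤ H := by
        intro x hx
        rcases h.all x hx with h3 | ⟨i, rfl⟩
        · exact (Subgroup.zpowers_le.2 hrH) h3
        · exact mul_mem (zpow_mem hrH i) hsH
      have h3 := Subgroup.index_dvd_of_le hSH
      rw [hH] at h3
      exact S.not_dvd_index h3
    · rintro w ⟨ow, hw⟩
      obtain ⟨c, hc⟩ := isConj_iff.1 (hall z w oz ow)
      obtain ⟨d, hd⟩ := isConj_iff.1 (hall w (c * s * c⁻¹) ow (by rw [CfsgLib.Invol.orderOf_conj, os]))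
      have hcomm : Commute w (d * w * d⁻¹) := by
        rw [hd, ← hc]
        change c * z * c⁻¹ * (c * s * c⁻¹) = c * s * c⁻¹ * (c * z * c⁻¹)
        calc c * z * c⁻¹ * (c * s * c⁻¹) = c * (z * s) * c⁻¹ := by group
          _ = c * (s * z) * c⁻¹ := by rw [hzs]
          _ = c * s * c⁻¹ * (c * z * c⁻¹) := by group
      have h1 := hw d hcomm
      rw [hd, ← hc] at h1
      apply hsz
      exact mul_left_cancel (mul_right_cancel h1)
  constructor
  · rintro ⟨hno, -⟩
    left
    have key : ∀ x : X, orderOf x = 2 → IsConj x z := by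
      intro x hx
      have hrel : (Subgroup.zpowers r).relIndex (S : Subgroup X) = 2 := by
        have h1 := Subgroup.card_mul_index ((Subgroup.zpowers r).subgroupOf (S : Subgroup X))
        have h2 : Subgroup.zpowers r ≤ S := by rw [Subgroup.zpowers_le]; exact h.hr
        rw [Nat.card_congr (Subgroup.subgroupOfEquivOfLe h2).toEquiv, Nat.card_zpowers, h.or, hcard,
          mul_comm] at h1
        exact Nat.eq_of_mul_eq_mul_right h.pos h1
      by_contra hcon
      obtain ⟨N, -, hN, -⟩ := CfsgLib.ThompTrH12.thompson_transfer S (Subgroup.zpowers r) hrel x hx (by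
        intro g hg
        apply hcon
        obtain ⟨i, hi⟩ := Subgroup.mem_zpowers_iff.1 hg
        rw [isConj_iff]
        refine ⟨g, ?_⟩
        rw [← hi]
        have o1 : orderOf (g * x * g⁻¹) = 2 := by rw [CfsgLib.Invol.orderOf_conj, hx]
        rw [← hi] at o1
        exact h.rot_sq hk ha (CfsgLib.Invol.mul_self o1) (CfsgLib.Invol.ne_one o1))
      exact hno N hN
    intro a b oa ob
    exact (key a oa).trans (key b ob).symm
  · rintro (hall | hidx)
    · exact hone hall
    · apply hone
      have hodd : ∀ i : ℤ, CfsgLib.F8.OddAut 2 (h.D (2 ^ k) i) := by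
        intro i
        have h1 := hidx _ (h.D_le (2 ^ k) i) (h.klein_D i hk ha)
        apply CfsgLib.F8.oddAut_of_dvd Nat.prime_three (by norm_num)
        rw [h1]
        split_ifs <;> norm_num
      have key : ∀ x : X, orderOf x = 2 → IsConj x z := by
        intro x hx
        obtain ⟨g, hg⟩ := CfsgLib.Klein8.exists_conj_mem S hx
        have o1 : orderOf (g * x * g⁻¹) = 2 := by rw [CfsgLib.Invol.orderOf_conj, hx]
        have h1 : IsConj (g * x * g⁻¹) z := by
          rcases h.all _ hg with h2 | ⟨i, hi⟩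
          · obtain ⟨i, hi⟩ := Subgroup.mem_zpowers_iff.1 h2
            rw [← hi] at o1 ⊢
            rw [h.rot_sq hk ha (CfsgLib.Invol.mul_self o1) (CfsgLib.Invol.ne_one o1)]
          · obtain ⟨y, -, hy⟩ := CfsgLib.F8.klein_trans (h.klein_D i hk ha) (hodd i) (a := r ^ i * s) (b := z)
              ⟨0, Or.inr (by simp)⟩ ⟨1, Or.inl (by rw [mul_one])⟩ (h.ref_ne_one i) hz1
            rw [hi]
            exact isConj_iff.2 ⟨y, hy⟩
        exact (isConj_iff.2 ⟨g, rfl⟩ : IsConj x (g * x * g⁻¹)).trans h1
      intro a b oa ob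
      exact (key a oa).trans (key b ob).symm
end Cfsg.Agent.S1255
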