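import Cfsg.Statements.S1256
import Cfsg.Agent.EqBase
import Cfsg.Agent.LibDih8

set_option autoImplicit false
open Cfsg

namespace Cfsg.Agent.S1256


/-- Let X be a finite group whose Sylow 2-subgroup S is dihedral of order 2m ≥ 4. If |S| = 4, any two Klein four-subgroups of X are conjugate; if |S| > 4, there are Klein four-subgroups U₁, U₂ of X that are not conjugate, and every Klein four-subgroup of X is conjugate to U₁ or to U₂. -/
theorem result {X : Type*} [Group X] [Finite X] (S : Sylow 2 X) (m : ℕ) (hm : 2 ≤ m) (eS : (S : Subgroup X) ≃* DihedralGroup m) : (Nat.card S = 4 → ∀ U V : Subgroup X, IsKleinFour U → IsKleinFour V → (∃ x : X, U.map (MulAut.conj x).toMonoidHom = V)) ∧ (4 < Nat.card S → ∃ U₁ U₂ : Subgroup X, IsKleinFour U₁ ∧ IsKleinFour U₂ ∧ ¬ (∃ x : X, U₁.map (MulAut.conj x).toMonoidHom = U₂) ∧ ∀ V : Subgroup X, IsKleinFour V → (∃ x : X, V.map (MulAut.conj x).toMonoidHom = U₁) ∨ (∃ x : X, V.map (MulAut.conj x).toMonoidHom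 = U₂)) := by
  classical
  haveI : Fact (Nat.Prime 2) := ⟨Nat.prime_two⟩
  obtain ⟨r, s, h⟩ := CfsgLib.Dih8.exists_DHi eS
  have hcard : Nat.card S = 2 * m := h.card
  obtain ⟨n, hn⟩ := IsPGroup.iff_card.1 S.2
  have hn' : Nat.card S = 2 ^ n := hn
  have hS := CfsgLib.FusionH12.SylIn.ofSylow S
  -- Klein four groups are 2-groups
  have hKp : ∀ U : Subgroup X, IsKleinFour U → IsPGroup 2 U := fun U hU =>
    IsPGroup.of_card (n := 2) (by rw [hU.card_four]; norm_num)
  refine ⟨?_, ?_⟩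
  · intro h4 U V hU hV
    obtain ⟨x, -, hx⟩ := hS.exists_conj_le (hKp U hU) le_top
    obtain ⟨y, -, hy⟩ := hS.exists_conj_le (hKp V hV) le_top
    have hx' : CfsgLib.FusionH12.cj x U = S := Subgroup.eq_of_le_of_card_ge hx (by
      rw [CfsgLib.FusionH12.card_cj, hU.card_four]; exact h4.le)
    have hy' : CfsgLib.FusionH12.cj y V = S := Subgroup.eq_of_le_of_card_ge hy (by
      rw [CfsgLib.FusionH12.card_cj, hV.card_four]; exact h4.le)
    refine ⟨y⁻¹ * x, ?_⟩
    change CfsgLib.FusionH12.cj (y⁻¹ * x) U = V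
    rw [CfsgLib.FusionH12.cj_mul, hx', ← hy', CfsgLib.FusionH12.cj_inv_cj]
  · intro h4
    obtain ⟨k, rfl⟩ : ∃ k, n = k + 3 := by
      refine ⟨n - 3, ?_⟩
      rcases n with _ | _ | _ | n
      · rw [hn'] at h4; norm_num at h4
      · rw [hn'] at h4; norm_num at h4
      · rw [hn'] at h4; norm_num at h4
      · omega
    have hm : m = 2 ^ (k + 1) * 2 := by
      have : 2 * m = 2 * (2 ^ (k + 1) * 2) := by rw [← hcard, hn']; ring
      omega
    have ha : 0 < 2 ^ (k + 1) := by positivity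
    have ha2 : 2 ∣ 2 ^ (k + 1) := ⟨2 ^ k, by ring⟩
    have ham : 2 ^ (k + 1) ∣ m := ⟨2, hm⟩
    refine ⟨h.D (2 ^ (k + 1)) 0, h.D (2 ^ (k + 1)) 1, h.klein_D _ hm ha, h.klein_D _ hm ha, ?_, ?_⟩
    · rintro ⟨x, hx⟩
      have hx' : CfsgLib.FusionH12.cj x (h.D (2 ^ (k + 1)) 0) = h.D (2 ^ (k + 1)) 1 := hx
      have hfus := CfsgLib.F8.fus hS (h.D_le (2 ^ (k + 1)) 0) (g := x) (by rw [hx']; exact h.D_le _ _)
      have hr := CfsgLib.F8.reach_ind (S := (S : Subgroup X))
        (P := fun D => ∃ y ∈ (S : Subgroup X), CfsgLib.FusionH12.cj y (h.D (2 ^ (k + 1)) 0) = D) ?_ ?_ hfus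
        ⟨1, one_mem _, CfsgLib.FusionH12.cj_one _⟩
      · obtain ⟨y, hy, hyD⟩ := hr
        rw [hx'] at hyD
        have := h.par ham ha2 hy hyD
        omega
      · rintro D t ht - ⟨y, hy, rfl⟩
        exact ⟨t * y, mul_mem ht hy, CfsgLib.FusionH12.cj_mul _ _ _⟩
      · rintro D t - - ⟨U, hU, hDU, htU⟩ ⟨y, hy, rfl⟩
        have hUk := h.klein_of_oddAut (k := k + 2) (by rw [hm]; ring) hU.le hU.odd
        have hDU' : CfsgLib.FusionH12.cj y (h.D (2 ^ (k + 1)) 0) = U := by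
          apply Subgroup.eq_of_le_of_card_ge hDU
          rw [CfsgLib.FusionH12.card_cj, h.card_D _ hm ha, hUk.card_four]
        refine ⟨y, hy, ?_⟩
        rw [hDU', CfsgLib.FusionH12.cj_of_mem_nrm htU]
    · intro V hV
      obtain ⟨x, -, hx⟩ := hS.exists_conj_le (hKp V hV) le_top
      have hxV : IsKleinFour (CfsgLib.FusionH12.cj x V) := by
        apply CfsgLib.F8.isKleinFour_of
        · rw [CfsgLib.FusionH12.card_cj, hV.card_four]
        · rintro u ⟨v, hv, rfl⟩
          rw [← map_mul]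
          have : v * v = 1 := congrArg Subtype.val (hV.mul_self ⟨v, hv⟩)
          rw [this, map_one]
      obtain ⟨i, hi⟩ := h.klein_cases hm ha hx hxV
      rcases Int.even_or_odd' i with ⟨c, hc | hc⟩
      · obtain ⟨y, -, hy⟩ := h.exists_conj_of_par hm ha (i := i) (j := 0) ⟨-c, by omega⟩
        left
        refine ⟨y * x, ?_⟩
        change CfsgLib.FusionH12.cj (y * x) V = _
        rw [CfsgLib.FusionH12.cj_mul, hi, hy]
      · obtain ⟨y, -, hy⟩ := h.exists_conj_of_par hm ha (i := i) (j := 1) ⟨-c, by omega⟩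
        right
        refine ⟨y * x, ?_⟩
        change CfsgLib.FusionH12.cj (y * x) V = _
        rw [CfsgLib.FusionH12.cj_mul, hi, hy]
end Cfsg.Agent.S1256
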