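import Cfsg.Statements.S1260
import Mathlib
import Cfsg.Agent.LibComp

set_option autoImplicit false
open Cfsg

namespace Cfsg.Agent.S1260


/-- Let H be a subnormal subgroup of the finite group G and K a subgroup of H. Then K is a component of H if and only if K, viewed in G, is a component of G. -/
theorem result {G : Type*} [Group G] [Finite G] (H : Subgroup G) (hH : H.IsSubnormal) (K : Subgroup ↥H) : Cfsg.IsComponent K ↔ Cfsg.IsComponent (K.map H.subtype) := by
  exact CfsgLib.Comp.isComponent_map_subtype_iff hH K
end Cfsg.Agent.S1260
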