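import Cfsg.Statements.S1274
import Cfsg.Agent.LibPComp

set_option autoImplicit false
open Cfsg

namespace Cfsg.Agent.S1274


/-- A p-component K of the finite group X is a normal subgroup of L_{p'}(X). -/
theorem result {X : Type*} [Group X] [Finite X] (p : ℕ) [Fact p.Prime] (K : Subgroup X) (hK : Cfsg.IsPComponent p K) : (K.subgroupOf (Cfsg.pLayer p X)).Normal := by
  exact CfsgLib.PComp.pcomp_normal_pLayer hK
end Cfsg.Agent.S1274
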