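import Cfsg.Statements.S1278
import Cfsg.Agent.LibPComp

set_option autoImplicit false
open Cfsg

namespace Cfsg.Agent.S1278


/-- Let K ≠ L be 2-components of the finite group X. Then ⁅K, L⁆ ≤ O(K) ⊓ O(L), and if K is quasisimple then ⁅K, L⁆ = 1. -/
theorem result {X : Type*} [Group X] [Finite X] (K L : Subgroup X) (hK : Cfsg.IsPComponent 2 K) (hL : Cfsg.IsPComponent 2 L) (hne : K ≠ L) : ⁅K, L⁆ ≤ ((Cfsg.oddCore ↥K).map K.subtype) ⊓ ((Cfsg.oddCore ↥L).map L.subtype) ∧ (Cfsg.IsQuasisimple ↥K → ⁅K, L⁆ = ⊥) := by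
  haveI : Fact (Nat.Prime 2) := ⟨Nat.prime_two⟩
  obtain ⟨h1, h2, h3⟩ := CfsgLib.PComp.pcomps_commutator_le hK hL hne
  constructor
  · change _ ≤ (Cfsg.pPrimeCore 2 ↥K).map K.subtype ⊓ (Cfsg.pPrimeCore 2 ↥L).map L.subtype
    rw [CfsgLib.Comp3.map_pPrimeCore_of_subnormal 2 hK.1,
      CfsgLib.Comp3.map_pPrimeCore_of_subnormal 2 hL.1]
    exact le_inf (le_inf h1 h2) (le_inf h1 h3)
  · intro h
    exact CfsgLib.PComp.pcomps_commute_of_quasisimple hK hL hne h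
end Cfsg.Agent.S1278
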