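import Cfsg.Statements.S1279
import Cfsg.Agent.LibSig
import Cfsg.Agent.LibBenderMax

set_option autoImplicit false
open Cfsg

namespace Cfsg.Agent.S1279


/-- Let A be a noncyclic elementary abelian p-subgroup of the finite group G such that C_G(a) is solvable for every non-identity a ∈ A. Then a ↦ O_{p'}(C_G(a)) is a solvable A-signalizer functor on G. -/
theorem result {G : Type*} [Group G] [Finite G] (p : ℕ) [Fact p.Prime] (A : Subgroup G) (hA : Cfsg.IsElementaryAbelian p A) (hA2 : p ^ 2 ≤ Nat.card ↥A) (hsolv : ∀ a ∈ A, a ≠ 1 → Group.IsSolvable ↥(Subgroup.centralizer ({a} : Set G))) : Cfsg.IsSolvableSignalizerFunctor p A (fun a => Cfsg.centralizerPPrimeCore p a) := by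
  have hcore : ∀ a : G, (Nat.card (Cfsg.centralizerPPrimeCore p a)).Coprime p := by
    intro a
    unfold Cfsg.centralizerPPrimeCore
    rw [Subgroup.card_map_of_injective (Subgroup.subtype_injective _)]
    exact CfsgLib.Cores.pPrimeCore_coprime p
  refine ⟨⟨?_, ?_, ?_, ?_⟩, ?_⟩
  · intro a _ _
    exact Subgroup.map_subtype_le _
  · intro a _ _ h
    exact (Nat.Prime.coprime_iff_not_dvd Fact.out).1 (hcore a).symm h
  · intro a ha _ b hb x hx
    have h1 := CfsgLib.BenderMax.le_normalizer_map (Cfsg.pPrimeCore p ↥(Subgroup.centralizer ({a} : Set G)))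
    have hb' : b ∈ Subgroup.centralizer ({a} : Set G) := by
      rw [CfsgLib.PQ3.mem_centralizer_one]
      exact CfsgLib.Sig.ea_comm hA ha hb
    exact (Subgroup.mem_normalizer_iff.1 (h1 hb') x).1 hx
  · intro a ha ha1 b hb hb1
    haveI := hsolv b hb hb1
    -- work in H = C(b)
    obtain ⟨H, hH⟩ : ∃ H, H = Subgroup.centralizer ({b} : Set G) := ⟨_, rfl⟩
    haveI hHs : Group.IsSolvable H := hH ▸ hsolv b hb hb1
    have haH : a ∈ H := by
      rw [hH, CfsgLib.PQ3.mem_centralizer_one]
      exact CfsgLib.Sig.ea_comm hA hb ha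
    have hLayer : Cfsg.layer (H ⧸ Cfsg.pPrimeCore p H) = ⊥ := by
      rw [eq_bot_iff, Cfsg.layer]
      apply sSup_le
      intro K hK
      exfalso
      apply CfsgLib.Comp.quasisimple_not_solvable hK.2
      infer_instance
    have hpl : Cfsg.pLayer p H = ⊥ := CfsgLib.PQ.pLayer_eq_bot_iff.2 hLayer
    let a' : H := ⟨a, haH⟩
    have hPp : IsPGroup p (Subgroup.zpowers a') := IsPGroup.of_card (n := 1) (by
      rw [Nat.card_zpowers, ← Subgroup.orderOf_coe, pow_one]
      exact CfsgLib.Sig.ea_orderOf hA ha ha1)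
    have h1 := (CfsgLib.PQ.p_locals_of_trivial_pLayer hpl hPp).2
    -- X = O_{p'}(C(a)) ⊓ C(b), as a subgroup of N_H(<a>)
    intro x hx
    obtain ⟨hx1, hx2⟩ := Subgroup.mem_inf.1 hx
    have hxH : x ∈ H := hH ▸ hx2
    have hxa : x ∈ Subgroup.centralizer ({a} : Set G) := Subgroup.map_subtype_le _ hx1
    suffices h : (⟨x, hxH⟩ : H) ∈ Cfsg.pPrimeCore p H by
      have h2 : x ∈ (Cfsg.pPrimeCore p H).map H.subtype := ⟨_, h, rfl⟩
      rw [hH] at h2
      exact h2
    apply h1
    -- the centralizer of a' in H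
    obtain ⟨Y, hY⟩ : ∃ Y : Subgroup H, Y = (Cfsg.centralizerPPrimeCore p a).subgroupOf H := ⟨_, rfl⟩
    obtain ⟨C, hC⟩ : ∃ C : Subgroup H, C = Subgroup.centralizer ((Subgroup.zpowers a' : Subgroup H) : Set H) := ⟨_, rfl⟩
    have hCa : ∀ c : H, c ∈ C ↔ (c : G) ∈ Subgroup.centralizer ({a} : Set G) := by
      intro c
      rw [hC, CfsgLib.PQ3.centralizer_zpowers, CfsgLib.PQ3.mem_centralizer_one,
        CfsgLib.PQ3.mem_centralizer_one]
      constructor
      · intro h; exact congrArg Subtype.val h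
      · intro h; exact Subtype.ext h
    have hYC : Y ≤ C := by
      intro y hy
      rw [hCa]
      rw [hY, Subgroup.mem_subgroupOf] at hy
      exact Subgroup.map_subtype_le _ hy
    have hCY : C ≤ Subgroup.normalizer (Y : Set H) := by
      intro c hc
      rw [hCa] at hc
      have h3 := CfsgLib.BenderMax.le_normalizer_map
        (Cfsg.pPrimeCore p ↥(Subgroup.centralizer ({a} : Set G))) hc
      rw [Subgroup.mem_normalizer_iff]
      intro z
      rw [hY, Subgroup.mem_subgroupOf, Subgroup.mem_subgroupOf]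
      exact Subgroup.mem_normalizer_iff.1 h3 z
    have hYcop : (Nat.card Y).Coprime p := by
      apply Nat.Coprime.coprime_dvd_left _ (hcore a)
      rw [hY]
      exact Subgroup.card_comap_dvd_of_injective _ _ (Subgroup.subtype_injective _)
    have hYcore : Y ≤ (Cfsg.pPrimeCore p C).map C.subtype := by
      haveI : (Y.subgroupOf C).Normal := (Subgroup.normal_subgroupOf_iff_le_normalizer hYC).2 hCY
      have h4 : Y.subgroupOf C ≤ Cfsg.pPrimeCore p C := by
        apply CfsgLib.Cores.le_pPrimeCore inferInstance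
        rwa [Nat.card_congr (Subgroup.subgroupOfEquivOfLe hYC).toEquiv]
      have h5 := Subgroup.map_mono (f := C.subtype) h4
      rwa [Subgroup.map_subgroupOf_eq_of_le hYC] at h5
    have h6 : C ≤ Subgroup.normalizer ((Subgroup.zpowers a' : Subgroup H) : Set H) :=
      hC ▸ CfsgLib.PQ.centralizer_le_normalizer' _
    have h7 := CfsgLib.PQ3.map_core_le p h6 (hC ▸ CfsgLib.PQ.normalizer_le_normalizer_centralizer _)
    apply h7
    apply hYcore
    rw [hY, Subgroup.mem_subgroupOf]
    exact hx1
  · intro a ha ha1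
    haveI := hsolv a ha ha1
    exact Group.isSolvable_of_isSolvable_injective (Subgroup.inclusion_injective
      (Subgroup.map_subtype_le _ : Cfsg.centralizerPPrimeCore p a ≤ Subgroup.centralizer ({a} : Set G)))
end Cfsg.Agent.S1279
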