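import Cfsg.Statements.S1281
import Cfsg.Agent.LibSig

set_option autoImplicit false
open Cfsg

namespace Cfsg.Agent.S1281


/-- Let θ be a solvable A-signalizer functor on the finite group G (A a noncyclic elementary abelian p-subgroup) and N a normal subgroup of order prime to p. Then for all non-identity a, b ∈ A, the image of θ a in G / N meets the centralizer of the image of b inside the image of θ b. -/
theorem result {G : Type*} [Group G] [Finite G] (p : ℕ) [Fact p.Prime] (A : Subgroup G) (hA : Cfsg.IsElementaryAbelian p A) (hA2 : p ^ 2 ≤ Nat.card ↥A) (θ : G → Subgroup G) (hθ : Cfsg.IsSolvableSignalizerFunctor p A θ) (N : Subgroup G) [N.Normal] (hN : ¬ p ∣ Nat.card ↥N) (a b : G) (ha : a ∈ A) (ha1 : a ≠ 1) (hb : b ∈ A) (hb1 : b ≠ 1) : (θ a).map (QuotientGroup.mk' N) ⊓ Subgroup.centralizer {QuotientGroup.mk' N b} ≤ (θ b).map (QuotientGroup.mk' N) := by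
  intro y hy
  obtain ⟨⟨x, hx, rfl⟩, hy2⟩ := Subgroup.mem_inf.1 hy
  have hθa := CfsgLib.Sig.mem_family.1 (CfsgLib.Sig.theta_mem hθ ha ha1)
  have hb' : Subgroup.zpowers b ≤ A := by rwa [Subgroup.zpowers_le]
  have hbp : IsPGroup p (Subgroup.zpowers b) := (CfsgLib.Sig.ea_pgroup hA).to_le hb'
  have hθn : Subgroup.zpowers b ≤ Subgroup.normalizer (θ a : Set G) := hb'.trans hθa.2.2.1
  have hbN : Subgroup.zpowers b ≤ Subgroup.normalizer ((θ a ⊓ N : Subgroup G) : Set G) := by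
    intro g hg
    rw [Subgroup.mem_normalizer_iff]
    intro z
    rw [Subgroup.mem_inf, Subgroup.mem_inf, ← Subgroup.mem_normalizer_iff.1 (hθn hg) z]
    have : z ∈ N ↔ g * z * g⁻¹ ∈ N := by
      have h3 : g ∈ Subgroup.normalizer (N : Set G) := by
        rw [Subgroup.normalizer_eq_top]; trivial
      exact Subgroup.mem_normalizer_iff.1 h3 z
    rw [this]
  have hxN : x ∈ Subgroup.normalizer ((θ a ⊓ N : Subgroup G) : Set G) := by
    rw [Subgroup.mem_normalizer_iff]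
    intro z
    have h3 : x ∈ Subgroup.normalizer (N : Set G) := by
      rw [Subgroup.normalizer_eq_top]; trivial
    rw [Subgroup.mem_inf, Subgroup.mem_inf, ← Subgroup.mem_normalizer_iff.1 h3 z,
      ← Subgroup.mem_normalizer_iff.1 (Subgroup.le_normalizer hx) z]
  have hyc : QuotientGroup.mk' N b * QuotientGroup.mk' N x =
      QuotientGroup.mk' N x * QuotientGroup.mk' N b := CfsgLib.PQ3.mem_centralizer_one.1 hy2
  have hfix : ∀ c ∈ Subgroup.zpowers b, c * x * c⁻¹ * x⁻¹ ∈ θ a ⊓ N := by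
    intro c hc
    refine Subgroup.mem_inf.2 ⟨mul_mem ((Subgroup.mem_normalizer_iff.1 (hθn hc) x).1 hx) (inv_mem hx), ?_⟩
    rw [← QuotientGroup.eq_one_iff]
    change QuotientGroup.mk' N (c * x * c⁻¹ * x⁻¹) = 1
    obtain ⟨k, rfl⟩ := hc
    change QuotientGroup.mk' N (b ^ k * x * (b ^ k)⁻¹ * x⁻¹) = 1
    rw [map_mul, map_mul, map_mul, map_inv, map_inv, map_zpow]
    have h4 : Commute (QuotientGroup.mk' N b) (QuotientGroup.mk' N x) := hyc
    rw [(h4.zpow_left k).eq]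
    group
  obtain ⟨c, hc, hxc⟩ := CfsgLib.Coprime.exists_fixed_in_coset hθn
    (CfsgLib.Sig.coprime_of_not_dvd hbp hθa.2.1) (Or.inl (CfsgLib.PQ.solvable_of_pgroup hbp))
    (inf_le_left) hbN hx hxN hfix
  obtain ⟨hc1, hc2⟩ := Subgroup.mem_inf.1 hc
  rw [CfsgLib.PQ3.centralizer_zpowers] at hc2
  refine ⟨c, hθa.2.2.2 b hb hb1 (Subgroup.mem_inf.2 ⟨hc1, hc2⟩), ?_⟩
  have h5 : QuotientGroup.mk' N (x⁻¹ * c) = 1 :=
    (QuotientGroup.eq_one_iff _).2 (Subgroup.mem_inf.1 hxc).2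
  rw [map_mul, map_inv, inv_mul_eq_one] at h5
  exact h5.symm
end Cfsg.Agent.S1281
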