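import Cfsg.Statements.S1286
import Mathlib

set_option autoImplicit false
open Cfsg

namespace Cfsg.Agent.S1286

open Subgroup Cfsg in
theorem s1286_mem {X : Type*} [Group X] {x : X} (hx : orderOf x = 3) (g : X) :
    g ∈ zpowers x ↔ g = 1 ∨ g = x ∨ g = x⁻¹ := by
  constructor
  · rintro ⟨n, rfl⟩
    change x ^ n = 1 ∨ x ^ n = x ∨ x ^ n = x⁻¹
    have h3 : x ^ (3 : ℤ) = 1 := by
      have := pow_orderOf_eq_one x
      rw [hx] at this
      exact_mod_cast this
    have h1 : x ^ n = x ^ (n % 3) := by
      conv_lhs => rw [← Int.emod_add_mul_ediv n 3, zpow_add, zpow_mul, h3, one_zpow, mul_one]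
    rw [h1]
    have h2 : n % 3 = 0 ∨ n % 3 = 1 ∨ n % 3 = 2 := by omega
    rcases h2 with h | h | h
    · left; rw [h, zpow_zero]
    · right; left; rw [h, zpow_one]
    · right; right; rw [h]
      rw [eq_inv_iff_mul_eq_one, ← zpow_add_one]
      exact h3
  · rintro (rfl | rfl | rfl)
    · exact one_mem _
    · exact mem_zpowers _
    · exact inv_mem (mem_zpowers _)

open Subgroup Cfsg in
theorem s1286_aux {X : Type*} [Group X] [Finite X] {a b x y : X} (ha2 : a * a = 1)
    (hb2 : b * b = 1) (ha1 : a ≠ 1) (hb1 : b ≠ 1) (hab : a * b = b * a) (hne : a ≠ b)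
    (hx : orderOf x = 3) (hy : orderOf y = 3) (hxa : a * x = x * a) (hxb : b * x = x⁻¹ * b)
    (hyb : b * y = y * b) (hya : a * y = y⁻¹ * a)
    (hW : ∀ W : Subgroup X, x ∈ W → y ∈ W → 2 ∣ Nat.card W) :
    ∃ (A : Subgroup X) (θ : X → Subgroup X), IsElementaryAbelian 2 A ∧ Nat.card A = 4 ∧
      IsSolvableSignalizerFunctor 2 A θ ∧ ¬ IsCompleteSignalizerFunctor 2 A θ := by
  classical
  have hai : a⁻¹ = a := inv_eq_of_mul_eq_one_right ha2
  have hbi : b⁻¹ = b := inv_eq_of_mul_eq_one_right hb2
  have hc1 : a * b ≠ 1 := by
    intro h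
    apply hne
    rw [mul_eq_one_iff_eq_inv.1 h, hbi]
  let A : Subgroup X :=
    { carrier := {g | g = 1 ∨ g = a ∨ g = b ∨ g = a * b}
      one_mem' := Or.inl rfl
      mul_mem' := by
        rintro g h (rfl | rfl | rfl | rfl) (rfl | rfl | rfl | rfl)
        · left; simp
        · right; left; simp
        · right; right; left; simp
        · right; right; right; simp
        · right; left; simp
        · left; exact ha2
        · right; right; right; rfl
        · right; right; left; rw [← mul_assoc, ha2, one_mul]
        · right; right; left; simp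
        · right; right; right; exact hab.symm
        · left; exact hb2
        · right; left; rw [hab, ← mul_assoc, hb2, one_mul]
        · right; right; right; simp
        · right; right; left; rw [hab, mul_assoc, ha2, mul_one]
        · right; left; rw [mul_assoc, hb2, mul_one]
        · left
          calc a * b * (a * b) = (a * b) * (b * a) := by rw [hab]
            _ = a * (b * b) * a := by group
            _ = 1 := by rw [hb2, mul_one, ha2]
      inv_mem' := by
        rintro g (rfl | rfl | rfl | rfl)
        · left; simp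
        · right; left; exact hai
        · right; right; left; exact hbi
        · right; right; right; rw [mul_inv_rev, hai, hbi, hab] }
  have hAm : ∀ g, g ∈ A ↔ g = 1 ∨ g = a ∨ g = b ∨ g = a * b := fun g => Iff.rfl
  have haA : a ∈ A := (hAm a).2 (Or.inr (Or.inl rfl))
  have hbA : b ∈ A := (hAm b).2 (Or.inr (Or.inr (Or.inl rfl)))
  have hx1 : x ≠ 1 := by rintro rfl; simp at hx
  have hy1 : y ≠ 1 := by rintro rfl; simp at hy
  have hxi : x ≠ x⁻¹ := by
    intro h
    have : x ^ 2 = 1 := by rw [pow_two]; nth_rw 2 [h]; exact mul_inv_cancel x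
    have := orderOf_dvd_of_pow_eq_one this
    rw [hx] at this; omega
  have hyi : y ≠ y⁻¹ := by
    intro h
    have : y ^ 2 = 1 := by rw [pow_two]; nth_rw 2 [h]; exact mul_inv_cancel y
    have := orderOf_dvd_of_pow_eq_one this
    rw [hy] at this; omega
  have hbx : ∀ g, g ∈ zpowers x → b * g = g * b → g = 1 := by
    intro g hg h
    rcases (s1286_mem hx g).1 hg with rfl | rfl | rfl
    · rfl
    · rw [hxb] at h; exact absurd (mul_right_cancel h).symm hxi
    · exfalso
      have h2 : b * x = x * b := by
        have : Commute b x⁻¹ := h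
        exact (Commute.inv_right_iff.1 this).eq
      rw [hxb] at h2; exact absurd (mul_right_cancel h2).symm hxi
  have hay : ∀ g, g ∈ zpowers y → a * g = g * a → g = 1 := by
    intro g hg h
    rcases (s1286_mem hy g).1 hg with rfl | rfl | rfl
    · rfl
    · rw [hya] at h; exact absurd (mul_right_cancel h).symm hyi
    · exfalso
      have h2 : a * y = y * a := by
        have : Commute a y⁻¹ := h
        exact (Commute.inv_right_iff.1 this).eq
      rw [hya] at h2; exact absurd (mul_right_cancel h2).symm hyi
  have hxaz : ∀ g ∈ zpowers x, a * g = g * a := by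
    rintro _ ⟨n, rfl⟩
    exact ((show Commute a x from hxa).zpow_right n).eq
  have hybz : ∀ g ∈ zpowers y, b * g = g * b := by
    rintro _ ⟨n, rfl⟩
    exact ((show Commute b y from hyb).zpow_right n).eq
  have hconjx : ∀ g ∈ zpowers x, b * g * b⁻¹ ∈ zpowers x := by
    rintro _ ⟨n, rfl⟩
    change b * x ^ n * b⁻¹ ∈ zpowers x
    rw [← conj_zpow, hxb, mul_inv_cancel_right]
    exact zpow_mem (inv_mem (mem_zpowers x)) n
  have hconjy : ∀ g ∈ zpowers y, a * g * a⁻¹ ∈ zpowers y := by
    rintro _ ⟨n, rfl⟩
    change a * y ^ n * a⁻¹ ∈ zpowers y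
    rw [← conj_zpow, hya, mul_inv_cancel_right]
    exact zpow_mem (inv_mem (mem_zpowers y)) n
  let θ : X → Subgroup X := fun g => if g = a then zpowers x else if g = b then zpowers y else ⊥
  have hθa : θ a = zpowers x := if_pos rfl
  have hθb : θ b = zpowers y := by
    change (if b = a then _ else if b = b then _ else _) = _
    rw [if_neg hne.symm, if_pos rfl]
  have hθc : θ (a * b) = ⊥ := by
    change (if a * b = a then _ else if a * b = b then _ else _) = _
    rw [if_neg (by rw [mul_eq_left]; exact hb1), if_neg (by rw [mul_eq_right]; exact ha1)]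
  have hcond : ∀ g, g ∈ zpowers x → a * b * g = g * (a * b) → g = 1 := by
    intro g hg h
    apply hbx g hg
    have h1 := hxaz g hg
    have h2 : a * (b * g) = a * (g * b) := by
      rw [← mul_assoc, h, ← mul_assoc, ← mul_assoc, h1]
    exact mul_left_cancel h2
  have hcondy : ∀ g, g ∈ zpowers y → a * b * g = g * (a * b) → g = 1 := by
    intro g hg h
    apply hay g hg
    have h1 := hybz g hg
    have h2 : b * (a * g) = b * (g * a) := by
      rw [← mul_assoc, ← hab, h, hab, ← mul_assoc, ← mul_assoc, h1]
    exact mul_left_cancel h2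
  have hfun : IsSignalizerFunctor 2 A θ := by
    refine ⟨?_, ?_, ?_, ?_⟩
    · intro g hg hg1
      rcases (hAm g).1 hg with rfl | rfl | rfl | rfl
      · exact absurd rfl hg1
      · rw [hθa]
        intro z hz
        rw [mem_centralizer_iff]
        rintro _ rfl
        exact hxaz z hz
      · rw [hθb]
        intro z hz
        rw [mem_centralizer_iff]
        rintro _ rfl
        exact hybz z hz
      · rw [hθc]; exact bot_le
    · intro g hg hg1
      rcases (hAm g).1 hg with rfl | rfl | rfl | rfl
      · exact absurd rfl hg1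
      · rw [hθa, Nat.card_zpowers, hx]; decide
      · rw [hθb, Nat.card_zpowers, hy]; decide
      · rw [hθc, card_bot]; decide
    · intro g hg hg1 h hh z hz
      rcases (hAm g).1 hg with rfl | rfl | rfl | rfl
      · exact absurd rfl hg1
      · rw [hθa] at hz ⊢
        rcases (hAm h).1 hh with rfl | rfl | rfl | rfl
        · rwa [one_mul, inv_one, mul_one]
        · rwa [hxaz z hz, mul_inv_cancel_right]
        · exact hconjx z hz
        · have h1 := hconjx z hz
          have h2 := hxaz _ h1
          have e : g * b * z * (g * b)⁻¹ = g * (b * z * b⁻¹) * g⁻¹ := by group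
          rw [e, h2, mul_inv_cancel_right]
          exact h1
      · rw [hθb] at hz ⊢
        rcases (hAm h).1 hh with rfl | rfl | rfl | rfl
        · rwa [one_mul, inv_one, mul_one]
        · exact hconjy z hz
        · rwa [hybz z hz, mul_inv_cancel_right]
        · have e : a * g * z * (a * g)⁻¹ = a * (g * z * g⁻¹) * a⁻¹ := by group
          rw [e, hybz z hz, mul_inv_cancel_right]
          exact hconjy z hz
      · rw [hθc] at hz ⊢
        rw [mem_bot] at hz ⊢
        rw [hz]; group
    · intro g hg hg1 h hh hh1 z hz
      obtain ⟨hz1, hz2⟩ := mem_inf.1 hz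
      have hz3 : h * z = z * h := mem_centralizer_iff.1 hz2 h rfl
      rcases (hAm g).1 hg with rfl | rfl | rfl | rfl
      · exact absurd rfl hg1
      · rw [hθa] at hz1
        rcases (hAm h).1 hh with rfl | rfl | rfl | rfl
        · exact absurd rfl hh1
        · rwa [hθa]
        · rw [hbx z hz1 hz3]; exact one_mem _
        · rw [hcond z hz1 hz3]; exact one_mem _
      · rw [hθb] at hz1
        rcases (hAm h).1 hh with rfl | rfl | rfl | rfl
        · exact absurd rfl hh1
        · rw [hay z hz1 hz3]; exact one_mem _
        · rwa [hθb]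
        · rw [hcondy z hz1 hz3]; exact one_mem _
      · rw [hθc, mem_bot] at hz1
        rw [hz1]; exact one_mem _
  refine ⟨A, θ, ⟨⟨⟨?_⟩⟩, ?_⟩, ?_, ⟨hfun, ?_⟩, ?_⟩
  · rintro ⟨g, hg⟩ ⟨h, hh⟩
    apply Subtype.ext
    change g * h = h * g
    have hac : a * (a * b) = a * b * a := by rw [← mul_assoc, mul_assoc a b a, ← hab, ← mul_assoc]
    have hbc : b * (a * b) = a * b * b := by rw [← mul_assoc, ← hab]
    rcases (hAm g).1 hg with rfl | rfl | rfl | rfl <;> rcases (hAm h).1 hh with rfl | rfl | rfl | rfl
    all_goals first | rfl | (rw [one_mul, mul_one]) | (rw [mul_one, one_mul]) | exact hab | exact hab.symm | exact hac | exact hac.symm | exact hbc | exact hbc.symm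
  · intro g hg
    rcases (hAm g).1 hg with rfl | rfl | rfl | rfl
    · simp
    · rw [pow_two]; exact ha2
    · rw [pow_two]; exact hb2
    · rw [pow_two]
      calc a * b * (a * b) = (a * b) * (b * a) := by rw [hab]
        _ = a * (b * b) * a := by group
        _ = 1 := by rw [hb2, mul_one, ha2]
  · have h1 : (A : Set X) = {1, a, b, a * b} := by
      ext g
      exact hAm g
    have h2 : Nat.card A = (A : Set X).ncard := rfl
    rw [h2, h1, Set.ncard_eq_toFinset_card']
    simp only [Set.toFinset_insert, Set.toFinset_singleton]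
    rw [Finset.card_insert_of_notMem, Finset.card_insert_of_notMem, Finset.card_insert_of_notMem,
      Finset.card_singleton]
    · rw [Finset.mem_singleton]
      intro h
      exact ha1 (mul_eq_right.1 h.symm)
    · rw [Finset.mem_insert, Finset.mem_singleton]
      rintro (h | h)
      · exact hne h
      · exact hb1 (mul_eq_left.1 h.symm)
    · rw [Finset.mem_insert, Finset.mem_insert, Finset.mem_singleton]
      rintro (h | h | h)
      · exact ha1 h.symm
      · exact hb1 h.symm
      · exact hc1 h.symm
  · intro g hg hg1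
    rcases (hAm g).1 hg with rfl | rfl | rfl | rfl
    · exact absurd rfl hg1
    · rw [hθa]; infer_instance
    · rw [hθb]; infer_instance
    · rw [hθc]; infer_instance
  · rintro ⟨_, W, _, hW2, hW3⟩
    apply hW2
    apply hW
    · have := hW3 a haA ha1
      have h2 : x ∈ θ a := hθa ▸ mem_zpowers x
      rw [← this] at h2
      exact (mem_inf.1 h2).1
    · have := hW3 b hbA hb1
      have h2 : y ∈ θ b := hθb ▸ mem_zpowers y
      rw [← this] at h2
      exact (mem_inf.1 h2).1

/-- There exist a finite group X, an elementary abelian subgroup A of order 4 and a solvable A-signalizer functor θ on X for the prime 2 which is not complete. -/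
theorem result : ∃ (X : Type) (_ : Group X) (_ : Finite X) (A : Subgroup X) (θ : X → Subgroup X), Cfsg.IsElementaryAbelian 2 A ∧ Nat.card ↥A = 4 ∧ Cfsg.IsSolvableSignalizerFunctor 2 A θ ∧ ¬ Cfsg.IsCompleteSignalizerFunctor 2 A θ := by
  obtain ⟨A, θ, h⟩ := s1286_aux (X := Equiv.Perm (Fin 5)) (a := Equiv.swap 3 4)
    (b := Equiv.swap 0 1) (x := Equiv.swap 0 1 * Equiv.swap 1 2)
    (y := Equiv.swap 2 3 * Equiv.swap 3 4) (by decide) (by decide) (by decide) (by decide)
    (by decide) (by decide) (orderOf_eq_prime (by decide) (by decide))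
    (orderOf_eq_prime (by decide) (by decide)) (by decide) (by decide) (by decide) (by decide)
    (by
      intro W hx hy
      have h1 := mul_mem (mul_mem hx (mul_mem hx hy)) (mul_mem hx hy)
      have h2 := Subgroup.orderOf_dvd_natCard W h1
      rwa [orderOf_eq_prime (p := 2) (by decide) (by decide)] at h2)
  exact ⟨_, _, inferInstance, A, θ, h⟩
end Cfsg.Agent.S1286
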