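import Cfsg.Statements.S1289
import Cfsg.Agent.LibPComp

set_option autoImplicit false
open Cfsg

namespace Cfsg.Agent.S1289


/-- A p-component K of the finite group X is subnormal, perfect, of order divisible by p, and minimal among the subnormal perfect subgroups of X of order divisible by p. -/
theorem result {X : Type*} [Group X] [Finite X] (p : ℕ) [Fact p.Prime] (K : Subgroup X) (hK : Cfsg.IsPComponent p K) : K.IsSubnormal ∧ ⁅K, K⁆ = K ∧ p ∣ Nat.card ↥K ∧ ∀ H : Subgroup X, H ≤ K → H.IsSubnormal → ⁅H, H⁆ = H → p ∣ Nat.card ↥H → H = K := by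
  refine ⟨hK.1, CfsgLib.PComp.pcomp_commutator_eq hK, ?_, ?_⟩
  · by_contra h
    apply CfsgLib.PComp.pcomp_inf_core_ne hK
    exact CfsgLib.Comp.le_pPrimeCore_of_subnormal hK.1
      ((Nat.Prime.coprime_iff_not_dvd Fact.out).2 h).symm
  · intro H hHK hH hperf hdvd
    apply hK.2.2 H hH hHK
    have h1 : (H.map (QuotientGroup.mk' (Cfsg.pPrimeCore p X))) ≤ K.map (QuotientGroup.mk' (Cfsg.pPrimeCore p X)) :=
      Subgroup.map_mono hHK
    have h2 := CfsgLib.Comp.quasisimple_subnormal hK.2.1.2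
      (H := (H.map (QuotientGroup.mk' (Cfsg.pPrimeCore p X))).subgroupOf (K.map (QuotientGroup.mk' (Cfsg.pPrimeCore p X))))
      (hH.map (QuotientGroup.mk'_surjective _)).subgroupOf
    rcases h2 with h2 | h2
    · exact le_antisymm h1 (Subgroup.subgroupOf_eq_top.1 h2)
    · exfalso
      have h3 : ⁅H.map (QuotientGroup.mk' (Cfsg.pPrimeCore p X)), H.map (QuotientGroup.mk' (Cfsg.pPrimeCore p X))⁆ = ⊥ := by
        rw [Subgroup.commutator_eq_bot_iff_le_centralizer]
        intro x hx
        rw [Subgroup.mem_centralizer_iff]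
        intro y hy
        have h4 : (⟨x, h1 hx⟩ : K.map (QuotientGroup.mk' (Cfsg.pPrimeCore p X))) ∈ Subgroup.center _ :=
          h2 (Subgroup.mem_subgroupOf.2 hx)
        exact congrArg Subtype.val (Subgroup.mem_center_iff.1 h4 ⟨y, h1 hy⟩)
      rw [← Subgroup.map_commutator, hperf, Subgroup.map_eq_bot_iff, QuotientGroup.ker_mk'] at h3
      have h5 : Nat.card H ∣ Nat.card (Cfsg.pPrimeCore p X) := Subgroup.card_dvd_of_le h3
      have h6 := CfsgLib.Cores.pPrimeCore_coprime (G := X) p
      exact (Nat.Prime.coprime_iff_not_dvd Fact.out).1 h6.symm (hdvd.trans h5)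
end Cfsg.Agent.S1289
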