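import Cfsg.Statements.S1297
import Cfsg.Agent.LibKBal

set_option autoImplicit false
open Cfsg

namespace Cfsg.Agent.S1297


/-- Let G be finite. Suppose that for every involution x, writing C = C_G(x), every component K of C / O(C) has K / Z(K) locally balanced. Then G is balanced. -/
theorem result {G : Type*} [Group G] [Finite G] (h : ∀ x : G, orderOf x = 2 → ∀ K : Subgroup (↥(Subgroup.centralizer ({x} : Set G)) ⧸ Cfsg.oddCore ↥(Subgroup.centralizer ({x} : Set G))), Cfsg.IsComponent K → Cfsg.IsLocallyBalanced (↥K ⧸ Subgroup.center ↥K)) : Cfsg.IsBalanced G := by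
  haveI : Fact (Nat.Prime 2) := ⟨Nat.prime_two⟩
  have key : ∀ x y : G, orderOf x = 2 → orderOf y = 2 → x * y = y * x →
      Cfsg.centralizerPPrimeCore 2 x ⊓ Subgroup.centralizer {y} ≤
        Cfsg.centralizerPPrimeCore 2 y ⊓ Subgroup.centralizer {x} := by
    intro x y hx hy hxy
    apply le_inf
    · rw [← CfsgLib.KBal.delta_zpowers_two hx]
      apply CfsgLib.KBal.kbalanced_at (k := 1) le_rfl hy
        (fun K hK => CfsgLib.KBal.locally_one_of_locally (h y hy K hK))
        (CfsgLib.KBal.ea_zpowers hx)
      · rw [Nat.card_zpowers, hx, pow_one]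
      · rintro _ ⟨n, rfl⟩
        exact ((show Commute x y from hxy).zpow_left n).eq
    · exact inf_le_left.trans (CfsgLib.KBal.core_le x)
  intro x y hx hy hxy
  exact le_antisymm (key x y hx hy hxy) (key y x hy hx hxy.symm)
end Cfsg.Agent.S1297
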