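import Cfsg.Statements.S1299
import Cfsg.Agent.LibFunctor
import Cfsg.Agent.LibKBal

set_option autoImplicit false
open Cfsg

namespace Cfsg.Agent.S1299

open Subgroup Cfsg CfsgLib.Sig CfsgLib.KBal CfsgLib.Functor in
theorem s1299_aux {G : Type*} [Group G] [Finite G] (p k : ℕ) [Fact p.Prime] (hk : 1 ≤ k)
    (hbal : IsKBalanced p k G) (A : Subgroup G) (hA : IsElementaryAbelian p A)
    (hAk : p ^ (k + 2) ≤ Nat.card A)
    (hsolv : ∀ a ∈ A, a ≠ 1 → Group.IsSolvable (centralizerPPrimeCore p a)) :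
    IsSignalizerFunctor p A (fun a => ⨆ D : {D : Subgroup G // D ≤ A ∧ Nat.card D = p ^ k},
      signalizerDelta p (D : Subgroup G) ⊓ centralizer {a}) := by
  have hp : 0 < p := (Fact.out : p.Prime).pos
  have hA1 : A ≠ ⊥ := by
    rintro rfl
    rw [card_bot] at hAk
    exact absurd hAk (not_le.2 (Nat.one_lt_pow (by omega) (Fact.out : p.Prime).one_lt))
  have hDne : ∀ D : Subgroup G, Nat.card D = p ^ k → ∃ d ∈ D, d ≠ 1 := by
    intro D hD
    have : D ≠ ⊥ := by
      rintro rfl
      rw [card_bot] at hD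
      exact absurd hD.symm (Nat.one_lt_pow (by omega) (Fact.out : p.Prime).one_lt).ne'
    obtain ⟨⟨a, ha⟩, h1⟩ := ne_bot_iff_exists_ne_one.1 this
    exact ⟨a, ha, fun h => h1 (Subtype.ext h)⟩
  -- Δ(D) ∩ C(a) ≤ core(a)
  have hcore : ∀ D ≤ A, Nat.card D = p ^ k → ∀ a ∈ A, a ≠ 1 →
      signalizerDelta p D ⊓ centralizer ({a} : Set G) ≤ centralizerPPrimeCore p a := by
    intro D hD hDc a ha h1
    exact hbal D (ea_le hA hD) hDc a (ea_orderOf hA ha h1) (fun d hd => ea_comm hA (hD hd) ha)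
  have hAC : ∀ a ∈ A, A ≤ centralizer ({a} : Set G) := by
    intro a ha b hb
    rw [CfsgLib.PQ3.mem_centralizer_one]
    exact ea_comm hA ha hb
  have hAcore : ∀ a ∈ A, A ≤ normalizer (centralizerPPrimeCore p a : Set G) := fun a ha =>
    (hAC a ha).trans (centralizer_le_normalizer_core a)
  have hAD : ∀ D ≤ A, A ≤ normalizer (signalizerDelta p D : Set G) := by
    intro D hD
    rw [← inv_iff]
    intro b hb x hx
    rw [mem_delta] at hx ⊢
    intro a ha h1
    exact (mem_normalizer_iff.1 (hAcore a (hD ha) hb) x).1 (hx a ha h1)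
  -- the rank functor inside core(a)
  have hfun : ∀ a ∈ A, a ≠ 1 → RankFunctor p A k (fun D => signalizerDelta p D) := by
    intro a ha h1
    refine ⟨?_, fun D hD _ => hAD D hD, ?_⟩
    · intro D hD hDc x hx
      rw [mem_centralizer_iff]
      intro d hd
      by_cases hd1 : d = 1
      · rw [hd1, one_mul, mul_one]
      · exact CfsgLib.PQ3.mem_centralizer_one.1 (core_le d (mem_delta.1 hx d hd hd1))
    · intro D hD hDc D' hD' hDc' x hx
      obtain ⟨hx1, hx2⟩ := mem_inf.1 hx
      rw [mem_delta]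
      intro d hd hd1
      apply hcore D hD hDc d (hD' hd) hd1
      exact mem_inf.2 ⟨hx1, centralizer_le (by simpa using hd) hx2⟩
  have hθ : ∀ a ∈ A, a ≠ 1 → (⨆ D : {D : Subgroup G // D ≤ A ∧ Nat.card D = p ^ k},
      signalizerDelta p (D : Subgroup G) ⊓ centralizer {a}) =
      clos p A k (fun D => signalizerDelta p D) (centralizerPPrimeCore p a) := by
    intro a ha h1
    unfold clos
    congr 1
    funext D
    apply le_antisymm
    · exact le_inf inf_le_left (hcore D D.2.1 D.2.2 a ha h1)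
    · exact inf_le_inf_left _ (core_le a)
  have hnd : ∀ a : G, ¬ p ∣ Nat.card (centralizerPPrimeCore p a) := fun a h =>
    (Fact.out : p.Prime).one_lt.ne' (Nat.eq_one_of_dvd_coprimes (core_cop (p := p) a) h dvd_rfl)
  have hAinv : ∀ a ∈ A, a ≠ 1 → A ≤ normalizer
      (clos p A k (fun D => signalizerDelta p D) (centralizerPPrimeCore p a) : Set G) := by
    intro a ha h1
    exact clos_inv (hfun a ha h1) (hAcore a ha)
  have hbalance : ∀ a ∈ A, a ≠ 1 → ∀ b ∈ A, b ≠ 1 →
      clos p A k (fun D => signalizerDelta p D) (centralizerPPrimeCore p a) ⊓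
        centralizer ({b} : Set G) ≤
      clos p A k (fun D => signalizerDelta p D) (centralizerPPrimeCore p b) := by
    intro a ha h1 b hb hb1
    apply gen_hyper hA hA1
      (inv_inf (hAinv a ha h1) (inv_centralizer hA (by simpa using hb)))
    · intro h
      exact hnd a (h.trans (card_dvd_of_le (inf_le_left.trans (clos_le_self _))))
    · intro E hE hEi
      have hEc : p ^ (k + 1) ≤ Nat.card E := card_hyper hE hEi hAk
      obtain ⟨D, hD, hDc⟩ := exists_card (m := k) ((ea_pgroup hA).to_le hE)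
        (le_trans (Nat.pow_le_pow_right hp (by omega)) hEc)
      have hDA := hD.trans hE
      intro x hx
      obtain ⟨hx1, hxE⟩ := mem_inf.1 hx
      obtain ⟨hx2, hxb⟩ := mem_inf.1 hx1
      have h3 := complete hA hAk (hfun a ha h1) _ _ le_rfl (hAcore a ha) (hsolv a ha h1) (hnd a)
        D hDA hDc (mem_inf.2 ⟨hx2, centralizer_le hD hxE⟩)
      apply le_clos hDA hDc
      exact mem_inf.2 ⟨h3, hcore D hDA hDc b hb hb1 (mem_inf.2 ⟨h3, hxb⟩)⟩
  refine ⟨?_, ?_, ?_, ?_⟩
  · intro a ha h1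
    exact iSup_le fun D => inf_le_right
  · intro a ha h1
    change ¬ p ∣ Nat.card (⨆ D : {D : Subgroup G // D ≤ A ∧ Nat.card D = p ^ k},
      signalizerDelta p (D : Subgroup G) ⊓ centralizer {a} : Subgroup G)
    rw [hθ a ha h1]
    intro h
    exact hnd a (h.trans (card_dvd_of_le (clos_le_self _)))
  · intro a ha h1
    change ∀ b ∈ A, ∀ x ∈ (⨆ D : {D : Subgroup G // D ≤ A ∧ Nat.card D = p ^ k},
      signalizerDelta p (D : Subgroup G) ⊓ centralizer {a} : Subgroup G), b * x * b⁻¹ ∈ (⨆ D : {D : Subgroup G // D ≤ A ∧ Nat.card D = p ^ k},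
      signalizerDelta p (D : Subgroup G) ⊓ centralizer {a} : Subgroup G)
    rw [hθ a ha h1]
    exact inv_iff.2 (hAinv a ha h1)
  · intro a ha h1 b hb hb1
    change (⨆ D : {D : Subgroup G // D ≤ A ∧ Nat.card D = p ^ k},
      signalizerDelta p (D : Subgroup G) ⊓ centralizer {a} : Subgroup G) ⊓ centralizer {b} ≤
      (⨆ D : {D : Subgroup G // D ≤ A ∧ Nat.card D = p ^ k},
      signalizerDelta p (D : Subgroup G) ⊓ centralizer {b} : Subgroup G)
    rw [hθ a ha h1, hθ b hb hb1]
    exact hbalance a ha h1 b hb hb1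

/-- Let G be finite and k-balanced for the prime p (k ≥ 1), A an elementary abelian p-subgroup of order at least p^(k+2) such that O_{p'}(C_G(a)) is solvable for every non-identity a ∈ A. For a ∈ A put θ a = the subgroup generated by the Δ_G(D) ∩ C_G(a) over the subgroups D ≤ A of order p^k. Then θ is an A-signalizer functor. -/
theorem result {G : Type*} [Group G] [Finite G] (p k : ℕ) [Fact p.Prime] (hk : 1 ≤ k) (hbal : Cfsg.IsKBalanced p k G) (A : Subgroup G) (hA : Cfsg.IsElementaryAbelian p A) (hAk : p ^ (k + 2) ≤ Nat.card ↥A) (hsolv : ∀ a ∈ A, a ≠ 1 → Group.IsSolvable ↥(Cfsg.centralizerPPrimeCore p a)) : Cfsg.IsSignalizerFunctor p A (fun a => ⨆ D : {D : Subgroup G // D ≤ A ∧ Nat.card ↥D = p ^ k}, Cfsg.signalizerDelta p (D : Subgroup G) ⊓ Subgroup.centralizer {a}) := by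
  exact s1299_aux p k hk hbal A hA hAk hsolv
end Cfsg.Agent.S1299
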