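import Cfsg.Statements.S1300
import Cfsg.Agent.LibKBal

set_option autoImplicit false
open Cfsg

namespace Cfsg.Agent.S1300


/-- For a finite group G, balance in the sense of commuting involutions is the same as 1-balance for the prime 2. -/
theorem result {G : Type*} [Group G] [Finite G] : Cfsg.IsBalanced G ↔ Cfsg.IsKBalanced 2 1 G := by
  haveI : Fact (Nat.Prime 2) := ⟨Nat.prime_two⟩
  constructor
  · intro h A hA hA2 b hb hcomm
    rw [pow_one] at hA2
    have hne : A ≠ ⊥ := by
      rintro rfl
      rw [Subgroup.card_bot] at hA2; omega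
    obtain ⟨⟨a, ha⟩, ha1'⟩ := Subgroup.ne_bot_iff_exists_ne_one.1 hne
    have ha1 : a ≠ 1 := fun h => ha1' (Subtype.ext h)
    have hord : orderOf a = 2 := orderOf_eq_prime (hA.2 a ha) ha1
    refine le_trans (inf_le_inf_right _ (fun y hy => CfsgLib.KBal.mem_delta.1 hy a ha ha1)) ?_
    rw [h a b hord hb (hcomm a ha)]
    exact inf_le_left
  · intro h
    have key : ∀ x y : G, orderOf x = 2 → orderOf y = 2 → x * y = y * x →
        Cfsg.centralizerPPrimeCore 2 x ⊓ Subgroup.centralizer {y} ≤
          Cfsg.centralizerPPrimeCore 2 y ⊓ Subgroup.centralizer {x} := by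
      intro x y hx hy hxy
      apply le_inf
      · rw [← CfsgLib.KBal.delta_zpowers_two hx]
        apply h (Subgroup.zpowers x) (CfsgLib.KBal.ea_zpowers hx) (by
          rw [Nat.card_zpowers, hx, pow_one]) y hy
        rintro _ ⟨n, rfl⟩
        exact ((show Commute x y from hxy).zpow_left n).eq
      · exact inf_le_left.trans (CfsgLib.KBal.core_le x)
    intro x y hx hy hxy
    exact le_antisymm (key x y hx hy hxy) (key y x hy hx hxy.symm)
end Cfsg.Agent.S1300
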