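import Cfsg.Statements.S1302
import Cfsg.Agent.LibBaer
import Cfsg.Agent.LibPComp
import Cfsg.Agent.LibPQ2

set_option autoImplicit false
open Cfsg

namespace Cfsg.Agent.S1302

open Subgroup Cfsg CfsgLib.PQ CfsgLib.PQ3 CfsgLib.Comp3 CfsgLib.PComp in
theorem s1302_aux {X : Type*} [Group X] [Finite X] (p : ℕ) [Fact p.Prime] (hp : p ≠ 2)
    (hX : IsPConstrained p X) (A : Subgroup X) (hAp : IsPGroup p A)
    (hΩ : ∀ x ∈ centralizer (A : Set X), orderOf x = p → x ∈ A) (Q : Subgroup X)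
    (hQ : ¬ p ∣ Nat.card Q) (hAQ : A ≤ normalizer (Q : Set X)) : Q ≤ pPrimeCore p X := by
  obtain ⟨f, hf⟩ : ∃ f, f = QuotientGroup.mk' (pPrimeCore p X) := ⟨_, rfl⟩
  have hfs : Function.Surjective f := hf ▸ QuotientGroup.mk'_surjective _
  have hker : f.ker = pPrimeCore p X := by rw [hf, QuotientGroup.ker_mk']
  have hAp' : IsPGroup p (A.map f) := hAp.map f
  have hQ' : ¬ p ∣ Nat.card (Q.map f) := fun h => hQ (h.trans (card_map_dvd _ f))
  have hAQ' : A.map f ≤ normalizer ((Q.map f : Subgroup _) : Set (X ⧸ pPrimeCore p X)) := by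
    rintro _ ⟨a, ha, rfl⟩
    rw [← CfsgLib.PSub.map_conj_eq_iff_mem_normalizer, ← map_conj_map]
    congr 1
    rw [CfsgLib.PSub.map_conj_eq_iff_mem_normalizer]
    exact hAQ ha
  have hVp := CfsgLib.Cores.pCore_isPGroup (G := X ⧸ pPrimeCore p X) p
  have hVQ : Q.map f ⊓ pCore p (X ⧸ pPrimeCore p X) = ⊥ := by
    rw [inf_comm]
    exact inf_eq_bot_of_coprime (CfsgLib.Sig.coprime_of_not_dvd hVp hQ')
  have hn : ∀ B : Subgroup (X ⧸ pPrimeCore p X),
      B ≤ normalizer ((pCore p (X ⧸ pPrimeCore p X) : Subgroup _) : Set (X ⧸ pPrimeCore p X)) := by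
    intro B
    rw [normalizer_eq_top]
    exact le_top
  have hcomm := CfsgLib.Baer.fixed_gen hp hAp' hQ' hAQ' _ _ le_rfl hVp (hn _) (hn _) (by
    intro x hxV hxA hxp
    by_cases hx1 : x = 1
    · rw [hx1]; exact one_mem _
    have hxo : orderOf x = p := orderOf_eq_prime hxp hx1
    have hC := map_centralizer_of_coprime f hfs (solvable_of_pgroup hAp) (by
      rw [hker]
      obtain ⟨k, hk⟩ := IsPGroup.iff_card.1 hAp
      rw [hk]
      exact Nat.Coprime.pow_left _ (CfsgLib.Cores.pPrimeCore_coprime p).symm)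
    rw [← hC] at hxA
    obtain ⟨y, hy, rfl⟩ := hxA
    have hyp : y ^ p ∈ pPrimeCore p X := by
      rw [← hker, MonoidHom.mem_ker, map_pow, hxp]
    have hm : (orderOf (y ^ p)).Coprime p :=
      Nat.Coprime.coprime_dvd_left (Subgroup.orderOf_dvd_natCard _ hyp)
        (CfsgLib.Cores.pPrimeCore_coprime p)
    obtain ⟨m, hm'⟩ : ∃ m, m = orderOf (y ^ p) := ⟨_, rfl⟩
    rw [← hm'] at hm
    have hyA : y ^ m ∈ A := by
      by_cases h1 : y ^ m = 1
      · rw [h1]; exact one_mem _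
      apply hΩ _ (pow_mem hy m)
      apply orderOf_eq_prime _ h1
      rw [← pow_mul, mul_comm, pow_mul, hm', pow_orderOf_eq_one]
    have hfy : f y ∈ zpowers (f y ^ m) := by
      rw [mem_zpowers_pow_iff, hxo]
      exact hm
    have hfyA : f y ∈ A.map f := by
      have h2 : zpowers (f y ^ m) ≤ A.map f := by
        rw [zpowers_le, ← map_pow]
        exact ⟨_, hyA, rfl⟩
      exact h2 hfy
    rw [mem_centralizer_iff]
    intro q hq
    have h3 : q * f y * q⁻¹ * (f y)⁻¹ ∈ Q.map f ⊓ pCore p (X ⧸ pPrimeCore p X) := by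
      refine mem_inf.2 ⟨?_, ?_⟩
      · have e : q * f y * q⁻¹ * (f y)⁻¹ = q * (f y * q⁻¹ * (f y)⁻¹) := by group
        rw [e]
        exact mul_mem hq ((mem_normalizer_iff.1 (hAQ' hfyA) _).1 (inv_mem hq))
      · exact mul_mem ((inferInstance : (pCore p (X ⧸ pPrimeCore p X)).Normal).conj_mem _ hxV q)
          (inv_mem hxV)
    rw [hVQ, mem_bot, mul_inv_eq_one, mul_inv_eq_iff_eq_mul] at h3
    exact h3)
  have hlay : layer (X ⧸ pPrimeCore p X) = ⊥ := by
    rw [← pLayer_eq_bot_iff, ← pConstrained_iff]; exact hX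
  have hF : generalizedFittingSubgroup (X ⧸ pPrimeCore p X) = pCore p (X ⧸ pPrimeCore p X) := by
    rw [generalizedFittingSubgroup, hlay,
      CfsgLib.PQ2.fitting_eq_pCore_of (CfsgLib.PComp.pPrimeCore_quotient_eq_bot p), bot_sup_eq]
  have hCV := CfsgLib.Comp.centralizer_gfitting_le (G := X ⧸ pPrimeCore p X)
  rw [hF] at hCV
  have hle : Q.map f ≤ pCore p (X ⧸ pPrimeCore p X) := by
    refine le_trans ?_ hCV
    rw [commutator_comm, commutator_eq_bot_iff_le_centralizer] at hcomm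
    exact hcomm
  rw [inf_of_le_left hle, Subgroup.map_eq_bot_iff, hker] at hVQ
  exact hVQ

/-- Let X be a finite p-constrained group, p an odd prime, and A an abelian p-subgroup of X containing every element of order p of C_X(A). Then every subgroup of X of order prime to p that is normalized by A lies in O_{p'}(X). -/
theorem result {X : Type*} [Group X] [Finite X] (p : ℕ) [Fact p.Prime] (hp : p ≠ 2) (hX : Cfsg.IsPConstrained p X) (A : Subgroup X) (hA : IsMulCommutative ↥A) (hAp : IsPGroup p ↥A) (hΩ : ∀ x ∈ Subgroup.centralizer (A : Set X), orderOf x = p → x ∈ A) (Q : Subgroup X) (hQ : ¬ p ∣ Nat.card ↥Q) (hAQ : A ≤ Subgroup.normalizer (Q : Set X)) : Q ≤ Cfsg.pPrimeCore p X := by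
  exact s1302_aux p hp hX A hAp hΩ Q hQ hAQ
end Cfsg.Agent.S1302
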