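import Cfsg.Statements.S1303
import Cfsg.Agent.LibPComp
import Cfsg.Agent.LibPQ

set_option autoImplicit false
open Cfsg

namespace Cfsg.Agent.S1303

set_option maxRecDepth 100000 in
theorem sl_pow12 : ∀ g : Matrix.SpecialLinearGroup (Fin 2) (ZMod 3), (g ^ 3) ^ 4 = 1 := by
  decide +kernel

set_option maxRecDepth 100000 in
theorem sl_mul : ∀ g h : Matrix.SpecialLinearGroup (Fin 2) (ZMod 3),
    g ^ 4 = 1 → h ^ 4 = 1 → (g * h) ^ 4 = 1 := by decide +kernel

set_option maxRecDepth 100000 in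
theorem sl_inv : ∀ t : Matrix.SpecialLinearGroup (Fin 2) (ZMod 3),
    t ^ 2 = 1 → ∀ g, g * t = t * g := by decide +kernel

set_option maxRecDepth 100000 in
theorem sl_cent : ∀ t : Matrix.SpecialLinearGroup (Fin 2) (ZMod 3),
    (∀ g, g ^ 4 = 1 → g * t = t * g) → t ^ 2 = 1 := by decide +kernel

set_option maxRecDepth 100000 in
theorem sl_three : ∃ u : Matrix.SpecialLinearGroup (Fin 2) (ZMod 3), u ^ 3 = 1 ∧ u ≠ 1 := by
  decide +kernel

open Subgroup Cfsg in
/-- the normal subgroup of order 8 -/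
def slQ : Subgroup (Matrix.SpecialLinearGroup (Fin 2) (ZMod 3)) where
  carrier := {g | g ^ 4 = 1}
  mul_mem' := fun {g h} hg hh => sl_mul g h hg hh
  one_mem' := one_pow 4
  inv_mem' := fun {g} hg => by
    change g⁻¹ ^ 4 = 1
    rw [inv_pow, show g ^ 4 = 1 from hg, inv_one]

instance : slQ.Normal := ⟨fun g hg h => by
  change (h * g * h⁻¹) ^ 4 = 1
  rw [conj_pow, show g ^ 4 = 1 from hg, mul_one, mul_inv_cancel]⟩

theorem slQ_p : IsPGroup 2 slQ := fun g => ⟨2, Subtype.ext g.2⟩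

theorem sl_solvable : Group.IsSolvable (Matrix.SpecialLinearGroup (Fin 2) (ZMod 3)) := by
  haveI : Fact (Nat.Prime 2) := ⟨Nat.prime_two⟩
  haveI : Fact (Nat.Prime 3) := ⟨Nat.prime_three⟩
  have h1 : IsPGroup 3 (Matrix.SpecialLinearGroup (Fin 2) (ZMod 3) ⧸ slQ) := by
    intro g
    obtain ⟨g, rfl⟩ := QuotientGroup.mk_surjective g
    refine ⟨1, ?_⟩
    rw [pow_one, ← QuotientGroup.mk_pow, QuotientGroup.eq_one_iff]
    exact sl_pow12 g
  haveI := h1.isNilpotent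
  haveI := slQ_p.isNilpotent
  have h2 : Group.IsSolvable slQ := inferInstance
  have h3 : Group.IsSolvable (Matrix.SpecialLinearGroup (Fin 2) (ZMod 3) ⧸ slQ) := inferInstance
  exact Group.isSolvable_of_ker_le_range slQ.subtype (QuotientGroup.mk' slQ) (by
    rw [QuotientGroup.ker_mk', Subgroup.range_subtype])

open Subgroup Cfsg in
theorem sl_core : pPrimeCore 2 (Matrix.SpecialLinearGroup (Fin 2) (ZMod 3)) = ⊥ := by
  haveI : Fact (Nat.Prime 2) := ⟨Nat.prime_two⟩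
  rw [eq_bot_iff]
  intro n hn
  have hodd := CfsgLib.Cores.pPrimeCore_coprime (G := Matrix.SpecialLinearGroup (Fin 2) (ZMod 3)) 2
  have hinf : slQ ⊓ pPrimeCore 2 (Matrix.SpecialLinearGroup (Fin 2) (ZMod 3)) = ⊥ := by
    apply inf_eq_bot_of_coprime
    obtain ⟨k, hk⟩ := IsPGroup.iff_card.1 slQ_p
    rw [hk]
    exact Nat.Coprime.pow_left _ hodd.symm
  have h1 : n ^ 2 = 1 := by
    apply sl_cent
    intro g hg
    have h2 : g * n * g⁻¹ * n⁻¹ ∈ slQ ⊓ pPrimeCore 2 (Matrix.SpecialLinearGroup (Fin 2) (ZMod 3)) := by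
      refine mem_inf.2 ⟨?_, ?_⟩
      · have e : g * n * g⁻¹ * n⁻¹ = g * (n * g⁻¹ * n⁻¹) := by group
        rw [e]
        exact mul_mem hg ((inferInstance : slQ.Normal).conj_mem _ (inv_mem hg) n)
      · exact mul_mem ((inferInstance : (pPrimeCore 2 _).Normal).conj_mem _ hn g) (inv_mem hn)
    rw [hinf, mem_bot, mul_inv_eq_one, mul_inv_eq_iff_eq_mul] at h2
    exact h2
  have h3 := Subgroup.orderOf_dvd_natCard _ hn
  have h4 := orderOf_dvd_of_pow_eq_one h1
  have h5 : orderOf n = 1 := Nat.eq_one_of_dvd_coprimes hodd h3 h4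
  rw [mem_bot]
  exact orderOf_eq_one_iff.1 h5

/-- The group X = SL(2, 3): it is 2-constrained, O_{2'}(X) = 1, its centre A = Z(X) contains every involution of X = C_X(A), and X has a subgroup of order 3 (normalized by A) not contained in O_{2'}(X). -/
theorem result : Cfsg.IsPConstrained 2 (Matrix.SpecialLinearGroup (Fin 2) (ZMod 3)) ∧ Cfsg.pPrimeCore 2 (Matrix.SpecialLinearGroup (Fin 2) (ZMod 3)) = ⊥ ∧ (∀ t : Matrix.SpecialLinearGroup (Fin 2) (ZMod 3), orderOf t = 2 → t ∈ Subgroup.center (Matrix.SpecialLinearGroup (Fin 2) (ZMod 3))) ∧ ∃ Q : Subgroup (Matrix.SpecialLinearGroup (Fin 2) (ZMod 3)), Nat.card ↥Q = 3 ∧ ¬ (Q ≤ Cfsg.pPrimeCore 2 (Matrix.SpecialLinearGroup (Fin 2) (ZMod 3))) := by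
  haveI : Fact (Nat.Prime 2) := ⟨Nat.prime_two⟩
  haveI := sl_solvable
  refine ⟨?_, sl_core, ?_, ?_⟩
  · rw [CfsgLib.PQ.pConstrained_iff, CfsgLib.PQ.pLayer_eq_bot_iff, eq_bot_iff, Cfsg.layer]
    apply sSup_le
    intro K hK
    exact absurd (inferInstance : Group.IsSolvable K) (CfsgLib.Comp.quasisimple_not_solvable hK.2)
  · intro t ht
    rw [Subgroup.mem_center_iff]
    have h := pow_orderOf_eq_one t
    rw [ht] at h
    exact sl_inv t h
  · obtain ⟨u, hu, hu1⟩ := sl_three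
    refine ⟨Subgroup.zpowers u, ?_, ?_⟩
    · haveI : Fact (Nat.Prime 3) := ⟨Nat.prime_three⟩
      rw [Nat.card_zpowers, orderOf_eq_prime hu hu1]
    · rw [sl_core, Subgroup.zpowers_le, Subgroup.mem_bot]
      exact hu1
end Cfsg.Agent.S1303
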