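import Cfsg.Statements.S1304
import Mathlib

set_option autoImplicit false
open Cfsg

namespace Cfsg.Agent.S1304

open scoped commutatorElement


/-- Let X be a perfect group and α an automorphism of X with α(x) x⁻¹ central for every x. Then α is the identity. -/
theorem result {X : Type*} [Group X] (hperf : commutator X = ⊤) (α : X ≃* X) (h : ∀ x : X, α x * x⁻¹ ∈ Subgroup.center X) : ∀ x : X, α x = x := by
  have key : ∀ x y : X, α ⁅x, y⁆ = ⁅x, y⁆ := by
    intro x y
    have hx := Subgroup.mem_center_iff.1 (h x)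
    have hy := Subgroup.mem_center_iff.1 (h y)
    have ex : α x = α x * x⁻¹ * x := by group
    have ey : α y = α y * y⁻¹ * y := by group
    rw [map_commutatorElement, ex, ey]
    set a := α x * x⁻¹ with ha
    set b := α y * y⁻¹ with hb
    simp only [commutatorElement_def, mul_inv_rev]
    calc a * x * (b * y) * (x⁻¹ * a⁻¹) * (y⁻¹ * b⁻¹)
        = a * (x * b) * y * (x⁻¹ * a⁻¹) * (y⁻¹ * b⁻¹) := by simp only [mul_assoc]
      _ = a * (b * x) * y * (x⁻¹ * a⁻¹) * (y⁻¹ * b⁻¹) := by rw [hy]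
      _ = a * (b * (x * y * x⁻¹ * a⁻¹ * y⁻¹ * b⁻¹)) := by simp only [mul_assoc]
      _ = a * (b * (x * y * x⁻¹ * a⁻¹ * y⁻¹ * b⁻¹)) := rfl
      _ = a * b * ((x * y * x⁻¹) * a⁻¹ * (y⁻¹ * b⁻¹)) := by simp only [mul_assoc]
      _ = b * a * ((x * y * x⁻¹) * a⁻¹ * (y⁻¹ * b⁻¹)) := by rw [hx b]
      _ = b * (a * ((x * y * x⁻¹) * a⁻¹)) * y⁻¹ * b⁻¹ := by simp only [mul_assoc]
      _ = b * (x * y * x⁻¹ * y⁻¹) * b⁻¹ := by
        have : a * ((x * y * x⁻¹) * a⁻¹) = x * y * x⁻¹ := by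
          rw [← mul_assoc, ← hx (x * y * x⁻¹)]; group
        rw [this]; simp only [mul_assoc]
      _ = x * y * x⁻¹ * y⁻¹ := by rw [← hy (x * y * x⁻¹ * y⁻¹)]; group
  have hc : commutator X ≤ (α : X →* X).eqLocus (MonoidHom.id X) := by
    rw [commutator_def, Subgroup.commutator_le]
    intro a _ b _
    exact key a b
  intro x
  have : x ∈ commutator X := by rw [hperf]; trivial
  exact hc this
end Cfsg.Agent.S1304
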