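import Cfsg.Statements.S1314
import Cfsg.Agent.LibInvol

set_option autoImplicit false
open Cfsg

namespace Cfsg.Agent.S1314

open scoped commutatorElement

/-- Let x be an involution of a group G and L a perfect subgroup with ⁅L, x L x⁻¹⁆ = 1. Then l ↦ l (x l x⁻¹) is a group homomorphism π from L to G whose kernel is central in L and whose image lies in C_G(x); and the commutator subgroup of C_{L ⊔ xLx⁻¹}(x) equals the image of π. -/
theorem result {G : Type*} [Group G] [Finite G] (x : G) (hx : orderOf x = 2) (L : Subgroup G) (hperf : ⁅L, L⁆ = L) (hcomm : ⁅L, L.map (MulAut.conj x).toMonoidHom⁆ = ⊥) : ∃ π : ↥L →* G, (∀ l : ↥L, π l = (l : G) * (x * (l : G) * x⁻¹)) ∧ π.ker ≤ Subgroup.center ↥L ∧ π.range ≤ Subgroup.centralizer ({x} : Set G) ∧ ⁅(L ⊔ L.map (MulAut.conj x).toMonoidHom) ⊓ Subgroup.centralizer ({x} : Set G), (L ⊔ L.map (MulAut.conj x).toMonoidHom) ⊓ Subgroup.centralizer ({x} : Set G)⁆ = π.range := by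
  have hxx := CfsgLib.Invol.mul_self hx
  have hxi := CfsgLib.Invol.inv_eq hx
  have hLm : ∀ l ∈ L, x * l * x⁻¹ ∈ L.map (MulAut.conj x).toMonoidHom := fun l hl => ⟨l, hl, rfl⟩
  have hcm : ∀ l ∈ L, ∀ m ∈ L, l * (x * m * x⁻¹) = (x * m * x⁻¹) * l := by
    intro l hl m hm
    have h1 := Subgroup.commutator_mem_commutator hl (hLm m hm)
    rw [hcomm, Subgroup.mem_bot, commutatorElement_eq_one_iff_mul_comm] at h1
    exact h1
  obtain ⟨π, hπ⟩ : ∃ π : ↥L →* G, ∀ l : ↥L, π l = (l : G) * (x * (l : G) * x⁻¹) := by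
    refine ⟨MonoidHom.mk' (fun l => (l : G) * (x * (l : G) * x⁻¹)) ?_, fun l => rfl⟩
    intro l m
    have h1 := hcm m m.2 l l.2
    calc ((l * m : L) : G) * (x * ((l * m : L) : G) * x⁻¹) =
        l * (m * (x * l * x⁻¹)) * (x * m * x⁻¹) := by push_cast; group
    _ = l * ((x * l * x⁻¹) * m) * (x * m * x⁻¹) := by rw [h1]
    _ = (l * (x * l * x⁻¹)) * (m * (x * m * x⁻¹)) := by group
  have hcx : π.range ≤ Subgroup.centralizer ({x} : Set G) := by
    rintro _ ⟨l, rfl⟩
    rw [Subgroup.mem_centralizer_singleton_iff, hπ]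
    have h1 := hcm l l.2 l l.2
    calc (l : G) * (x * l * x⁻¹) * x = l * x * l := by group
    _ = (x * x) * l * x * l := by rw [hxx, one_mul]
    _ = x * ((x * l * x⁻¹) * l) := by rw [hxi]; group
    _ = x * ((l : G) * (x * l * x⁻¹)) := by rw [h1]
  obtain ⟨W, hW⟩ : ∃ W : Subgroup G, W = L ⊔ L.map (MulAut.conj x).toMonoidHom := ⟨_, rfl⟩
  have hLW : L ≤ W := by rw [hW]; exact le_sup_left
  have hLW' : L.map (MulAut.conj x).toMonoidHom ≤ W := by rw [hW]; exact le_sup_right
  have hrW : π.range ≤ W := by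
    rintro _ ⟨l, rfl⟩
    rw [hπ]
    exact mul_mem (hLW l.2) (hLW' (hLm l l.2))
  refine ⟨π, hπ, ?_, hcx, ?_⟩
  · intro l hl
    rw [MonoidHom.mem_ker, hπ] at hl
    rw [Subgroup.mem_center_iff]
    intro m
    apply Subtype.ext
    have h1 := hcm m m.2 l l.2
    have h2 : x * (l : G) * x⁻¹ = (l : G)⁻¹ := eq_inv_of_mul_eq_one_right hl
    rw [h2] at h1
    have h3 : Commute (m : G) (l : G)⁻¹ := h1
    exact (Commute.inv_right_iff.1 h3).eq
  · rw [← hW]
    apply le_antisymm
    · -- elements of `C_W(x)`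
      have hel : ∀ c ∈ W ⊓ Subgroup.centralizer ({x} : Set G), ∃ d ∈ π.range, ∃ z, c = d * z ∧
          ∀ w ∈ W, w * z = z * w := by
        rintro c ⟨hcW, hcx'⟩
        obtain ⟨l, hl, m', hm', rfl⟩ : ∃ l ∈ L, ∃ m ∈ L.map (MulAut.conj x).toMonoidHom, l * m = c := by
          have hn : L.map (MulAut.conj x).toMonoidHom ≤ Subgroup.normalizer (L : Set G) := by
            rintro _ ⟨m, hm, rfl⟩
            rw [Subgroup.mem_normalizer_iff]
            intro l
            have h1 : ∀ l ∈ L, (x * m * x⁻¹) * l * (x * m * x⁻¹)⁻¹ = l := by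
              intro l hl
              rw [← hcm l hl m hm, mul_inv_cancel_right]
            have h1' : ∀ l ∈ L, (x * m * x⁻¹)⁻¹ * l * (x * m * x⁻¹) = l := by
              intro l hl
              rw [mul_assoc, hcm l hl m hm, inv_mul_cancel_left]
            change l ∈ L ↔ (x * m * x⁻¹) * l * (x * m * x⁻¹)⁻¹ ∈ L
            constructor
            · intro hl; rw [h1 l hl]; exact hl
            · intro hl
              have h2 := h1' _ hl
              have e : (x * m * x⁻¹)⁻¹ * ((x * m * x⁻¹) * l * (x * m * x⁻¹)⁻¹) * (x * m * x⁻¹) = l := by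
                group
              rw [e] at h2
              rw [h2]; exact hl
          have hcW' : c ∈ ((L ⊔ L.map (MulAut.conj x).toMonoidHom : Subgroup G) : Set G) := by
            rw [← hW]; exact hcW
          rw [Subgroup.coe_mul_of_right_le_normalizer_left _ _ hn] at hcW'
          exact Set.mem_mul.1 hcW'
        obtain ⟨m, hm, rfl⟩ := hm'
        have hcx' : l * (x * m * x⁻¹) * x = x * (l * (x * m * x⁻¹)) :=
          Subgroup.mem_centralizer_singleton_iff.1 hcx'
        -- `m⁻¹ l = x (l m⁻¹) x⁻¹`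
        have h1 : m⁻¹ * l = x * (l * m⁻¹) * x⁻¹ := by
          have h2 : l * x * m = x * l * (x * m * x⁻¹) := by
            calc l * x * m = l * (x * m * x⁻¹) * x := by group
            _ = x * (l * (x * m * x⁻¹)) := hcx'
            _ = _ := by group
          have h3 : (x * l * x⁻¹) * m = l * (x * m * x⁻¹) := by
            have h4 : x * (l * x * m) * 1 = x * (x * l * (x * m * x⁻¹)) * 1 := by rw [h2]
            calc (x * l * x⁻¹) * m = x * (l * x * m) := by rw [hxi]; group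
            _ = x * (x * l * (x * m * x⁻¹)) := by rw [h2]
            _ = (x * x) * l * (x * m * x⁻¹) := by group
            _ = l * (x * m * x⁻¹) := by rw [hxx, one_mul]
          have h5 := hcm m hm l hl
          symm
          calc x * (l * m⁻¹) * x⁻¹ = m⁻¹ * (m * (x * l * x⁻¹)) * (x * m * x⁻¹)⁻¹ := by group
          _ = m⁻¹ * (l * (x * m * x⁻¹)) * (x * m * x⁻¹)⁻¹ := by rw [h5, h3]
          _ = m⁻¹ * l := by group
        refine ⟨m * (x * m * x⁻¹), ⟨⟨m, hm⟩, hπ _⟩, m⁻¹ * l, ?_, ?_⟩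
        · change l * (x * m * x⁻¹) = _
          have h2 := hcm l hl m hm
          have h3 := hcm (m⁻¹ * l) (mul_mem (inv_mem hm) hl) m hm
          calc l * (x * m * x⁻¹) = m * ((m⁻¹ * l) * (x * m * x⁻¹)) := by group
          _ = m * ((x * m * x⁻¹) * (m⁻¹ * l)) := by rw [h3]
          _ = _ := by group
        · -- `z = m⁻¹ l` is central in `W`
          have hzL : m⁻¹ * l ∈ L := mul_mem (inv_mem hm) hl
          have hle : W ≤ Subgroup.centralizer ({m⁻¹ * l} : Set G) := by
            rw [hW, sup_le_iff]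
            constructor
            · intro w hw
              rw [Subgroup.mem_centralizer_singleton_iff, h1]
              exact hcm w hw _ (mul_mem hl (inv_mem hm))
            · rintro _ ⟨w, hw, rfl⟩
              rw [Subgroup.mem_centralizer_singleton_iff]
              exact (hcm _ hzL w hw).symm
          intro w hw
          exact Subgroup.mem_centralizer_singleton_iff.1 (hle hw)
      rw [Subgroup.commutator_le]
      intro c₁ hc₁ c₂ hc₂
      obtain ⟨d₁, hd₁, z₁, rfl, hz₁⟩ := hel c₁ hc₁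
      obtain ⟨d₂, hd₂, z₂, rfl, hz₂⟩ := hel c₂ hc₂
      have e1 : ⁅d₁ * z₁, d₂ * z₂⁆ = ⁅d₁, d₂⁆ := by
        have hz₁W : z₁ ∈ W := by
          have := mul_mem (inv_mem (hrW hd₁)) hc₁.1
          rwa [inv_mul_cancel_left] at this
        have a1 : Commute d₂ z₁ := hz₁ _ (hrW hd₂)
        have a2 : Commute d₁ z₂ := hz₂ _ (hrW hd₁)
        have a3 : Commute z₁ z₂ := hz₂ _ hz₁W
        have a4 : Commute d₂ z₂ := hz₂ _ (hrW hd₂)
        rw [commutatorElement_def, commutatorElement_def]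
        calc d₁ * z₁ * (d₂ * z₂) * (d₁ * z₁)⁻¹ * (d₂ * z₂)⁻¹
            = d₁ * (z₁ * d₂) * (z₂ * z₁⁻¹) * d₁⁻¹ * (z₂⁻¹ * d₂⁻¹) := by group
        _ = d₁ * (d₂ * z₁) * (z₁⁻¹ * z₂) * d₁⁻¹ * (z₂⁻¹ * d₂⁻¹) := by
            rw [a1.symm.eq, a3.symm.inv_right.eq]
        _ = d₁ * d₂ * (z₂ * d₁⁻¹) * z₂⁻¹ * d₂⁻¹ := by group
        _ = d₁ * d₂ * (d₁⁻¹ * z₂) * z₂⁻¹ * d₂⁻¹ := by rw [a2.symm.inv_right.eq]
        _ = d₁ * d₂ * d₁⁻¹ * d₂⁻¹ := by group
      rw [e1]
      exact mul_mem (mul_mem (mul_mem hd₁ hd₂) (inv_mem hd₁)) (inv_mem hd₂)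
    · have h1 : π.range = ⁅π.range, π.range⁆ := by
        have h2 : (⊤ : Subgroup L) = ⁅(⊤ : Subgroup L), ⊤⁆ := by
          apply Subgroup.map_injective L.subtype_injective
          rw [Subgroup.map_commutator, ← MonoidHom.range_eq_map, Subgroup.range_subtype, hperf]
        rw [MonoidHom.range_eq_map, ← Subgroup.map_commutator, ← h2]
      rw [h1]
      exact Subgroup.commutator_mono (le_inf hrW hcx) (le_inf hrW hcx)
end Cfsg.Agent.S1314
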