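import Cfsg.Statements.S1319
import Mathlib
import Cfsg.Agent.LibComp3

set_option autoImplicit false
open Cfsg

namespace Cfsg.Agent.S1319


/-- Let A be a subnormal subgroup of the finite group X with E(A) = A. Then A ≤ E(X) and A is normal in E(X). -/
theorem result {X : Type*} [Group X] [Finite X] (A : Subgroup X) (hsn : A.IsSubnormal) (hA : Cfsg.layer ↥A = ⊤) : A ≤ Cfsg.layer X ∧ (A.subgroupOf (Cfsg.layer X)).Normal := by
  exact CfsgLib.Comp3.subnormal_layer_normal A hsn hA
end Cfsg.Agent.S1319
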