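import Cfsg.Statements.S1328
import Cfsg.Agent.LibPQ4

set_option autoImplicit false
open Cfsg

namespace Cfsg.Agent.S1328

open Subgroup Cfsg CfsgLib.Comp CfsgLib.Comp2 CfsgLib.Comp3 CfsgLib.PComp CfsgLib.PQ CfsgLib.PQ2
  CfsgLib.PQ3 CfsgLib.PQ4
open scoped commutatorElement Pointwise

theorem aux {G : Type*} [Group G] [Finite G] (H : Subgroup G) (hO : pPrimeCore 2 ↥H = ⊥) (t : G)
    (ht : orderOf t = 2) (htH : t ∈ normalizer (H : Set G)) (Y : Subgroup G) (hY1 : Y ≠ ⊥)
    (hY : Y ≤ (pPrimeCore 2 ↥(H ⊓ centralizer ({t} : Set G))).map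
      (H ⊓ centralizer ({t} : Set G)).subtype) :
    ∃ E : Subgroup ↥H, IsComponent E ∧ t ∈ normalizer ((E.map H.subtype : Subgroup G) : Set G) ∧
      Y ≤ normalizer ((E.map H.subtype : Subgroup G) : Set G) ∧
      ¬ (t ∈ centralizer ((E.map H.subtype : Subgroup G) : Set G)) ∧
      ¬ (Y ≤ centralizer ((E.map H.subtype : Subgroup G) : Set G)) := by
  haveI : Fact (Nat.Prime 2) := ⟨Nat.prime_two⟩
  obtain ⟨X, hX⟩ : ∃ X, X = zpowers t ⊔ H := ⟨_, rfl⟩
  have hHX : H ≤ X := hX ▸ le_sup_right
  have htX : t ∈ X := hX ▸ mem_sup_left (mem_zpowers t)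
  have htn : zpowers t ≤ normalizer (H : Set G) := by rwa [zpowers_le]
  haveI hHn : (H.subgroupOf X).Normal := by
    rw [normal_subgroupOf_iff_le_normalizer hHX, hX]
    exact sup_le htn le_normalizer
  have hidx : (H.subgroupOf X).index ∣ 2 ^ 1 := by
    change H.relIndex X ∣ _
    rw [hX, CfsgLib.Coprime.relIndex_sup_of_le_normalizer htn, pow_one, ← ht, ← Nat.card_zpowers]
    exact relIndex_dvd_card _ _
  have hOX : pPrimeCore 2 X = ⊥ := by
    have h1 := core_le_of_index (G := X) hidx
    have h2 := map_pPrimeCore_of_subnormal 2 (inferInstance : (H.subgroupOf X).Normal).isSubnormal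
    have h3 : pPrimeCore 2 (H.subgroupOf X) = ⊥ := by
      have h4 := CfsgLib.Cores.map_pPrimeCore_equiv 2 (subgroupOfEquivOfLe hHX)
      rwa [hO, Subgroup.map_eq_bot_iff_of_injective _ (subgroupOfEquivOfLe hHX).injective] at h4
    rw [h3, Subgroup.map_bot, inf_eq_left.2 h1] at h2
    exact h2.symm
  have hEX : layer X ≤ H.subgroupOf X := layer_le_of_index (G := X) hidx
  -- the element t in X
  obtain ⟨t', ht'⟩ : ∃ t' : X, t' = ⟨t, htX⟩ := ⟨_, rfl⟩
  have ht't : (t' : G) = t := by rw [ht']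
  have hordt : orderOf t' = 2 := by rw [← Subgroup.orderOf_coe, ht't, ht]
  have htp : IsPGroup 2 (zpowers t') := IsPGroup.of_card (n := 1) (by
    rw [Nat.card_zpowers, hordt, pow_one])
  -- Y in X
  have hYH : Y ≤ H := hY.trans ((map_subtype_le _).trans inf_le_left)
  have hYX : Y ≤ X := hYH.trans hHX
  have hYle : Y.subgroupOf X ≤ centralizerPPrimeCore 2 t' := by
    -- C_H(t) ⊴ C_X(t)
    have h1 : (pPrimeCore 2 ↥(H ⊓ centralizer ({t} : Set G))).map
        (H ⊓ centralizer ({t} : Set G)).subtype ≤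
        (pPrimeCore 2 ↥(X ⊓ centralizer ({t} : Set G))).map
        (X ⊓ centralizer ({t} : Set G)).subtype := by
      apply map_core_le 2 (inf_le_inf_right _ hHX)
      intro g hg
      obtain ⟨hg1, hg2⟩ := mem_inf.1 hg
      apply CfsgLib.Coprime.mem_normalizer_of_conj_smul_eq
      rw [Subgroup.smul_inf, CfsgLib.Coprime.conj_smul_eq_of_mem_normalizer (le_normalizer hg2),
        CfsgLib.Coprime.conj_smul_eq_of_mem_normalizer
          ((normal_subgroupOf_iff_le_normalizer hHX).1 hHn hg1)]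
    have h2 := hY.trans h1
    intro y hy
    obtain ⟨⟨z, hz⟩, hz1, hzy⟩ := h2 (mem_subgroupOf.1 hy)
    change z = (y : G) at hzy
    obtain ⟨hz2, hz3⟩ := mem_inf.1 hz
    -- transport along the isomorphism C_X(t) ≃ C_{X}(t')
    have hmem : ∀ w : X, (w : G) ∈ X ⊓ centralizer ({t} : Set G) ↔
        w ∈ centralizer ({t'} : Set X) := by
      intro w
      rw [mem_centralizer_one, mem_inf, mem_centralizer_one]
      constructor
      · rintro ⟨_, h⟩
        exact Subtype.ext (by rw [Subgroup.coe_mul, Subgroup.coe_mul, ht't]; exact h)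
      · intro h
        refine ⟨w.2, ?_⟩
        have := congrArg Subtype.val h
        rwa [Subgroup.coe_mul, Subgroup.coe_mul, ht't] at this
    let e : ↥(X ⊓ centralizer ({t} : Set G)) ≃* ↥(centralizer ({t'} : Set X)) :=
      { toFun := fun w => ⟨⟨w, (mem_inf.1 w.2).1⟩, (hmem _).1 w.2⟩
        invFun := fun w => ⟨w, (hmem _).2 w.2⟩
        left_inv := fun w => rfl
        right_inv := fun w => rfl
        map_mul' := fun a b => rfl }
    have h3 := CfsgLib.Cores.map_pPrimeCore_equiv 2 e
    have h4 : e ⟨z, hz⟩ ∈ pPrimeCore 2 ↥(centralizer ({t'} : Set X)) := by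
      rw [← h3]
      exact ⟨_, hz1, rfl⟩
    refine ⟨e ⟨z, hz⟩, h4, ?_⟩
    apply Subtype.ext
    exact hzy
  have hYcop : (Nat.card (Y.subgroupOf X)).Coprime 2 := by
    apply Nat.Coprime.coprime_dvd_left (card_dvd_of_le hYle)
    unfold centralizerPPrimeCore
    rw [card_map_of_injective (subtype_injective _)]
    exact CfsgLib.Cores.pPrimeCore_coprime 2
  have hYpre := hYle.trans (centralizerPPrimeCore_le_preLayer (G := X) 2 t')
  have hYV : ⁅pCore 2 X, Y.subgroupOf X⁆ = ⊥ := by
    rw [eq_bot_iff, ← preLayer_normalizer_commute_pCore (G := X) htp]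
    exact commutator_mono le_rfl hYpre
  -- some component not centralized by Y
  obtain ⟨D, hD, hDY⟩ : ∃ D : Subgroup X, IsComponent D ∧ ⁅D, Y.subgroupOf X⁆ ≠ ⊥ := by
    by_contra hcon
    push Not at hcon
    apply hY1
    have := eq_bot_of_centralizes hOX hYcop hYV hcon
    rwa [subgroupOf_eq_bot, disjoint_iff, inf_eq_left.2 hYX] at this
  have hDt : ⁅D, zpowers t'⁆ = D := by
    by_contra hne
    apply hDY
    rw [eq_bot_iff, ← component_centralizes_core hOX hordt hD hne]
    exact commutator_mono le_rfl hYle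
  have hYD : Y.subgroupOf X ≤ normalizer (D : Set X) :=
    hYpre.trans (preLayer_le_normalizer_component hOX htp hD)
  have htD : t' ∈ normalizer (D : Set X) := by
    have := normalizer_commutator_ge_right D (zpowers t')
    rw [hDt] at this
    exact this (mem_zpowers t')
  have hDH : D ≤ H.subgroupOf X := (component_le_layer hD).trans hEX
  refine ⟨(D.subgroupOf (H.subgroupOf X)).map (subgroupOfEquivOfLe hHX).toMonoidHom,
    isComponent_map_equiv _ (isComponent_subgroupOf hD hDH), ?_⟩
  have hEmap : ((D.subgroupOf (H.subgroupOf X)).map (subgroupOfEquivOfLe hHX).toMonoidHom).map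
      H.subtype = D.map X.subtype := by
    rw [map_map]
    have : H.subtype.comp (subgroupOfEquivOfLe hHX).toMonoidHom =
      X.subtype.comp (H.subgroupOf X).subtype := rfl
    rw [this, ← map_map, map_subgroupOf_eq_of_le hDH]
  rw [hEmap]
  have hnorm : ∀ g : X, g ∈ normalizer (D : Set X) →
      (g : G) ∈ normalizer ((D.map X.subtype : Subgroup G) : Set G) := by
    intro g hg
    rw [← CfsgLib.PSub.map_conj_eq_iff_mem_normalizer] at hg ⊢
    have := map_conj_map X.subtype g D
    rw [hg] at this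
    exact this.symm
  have hcent : ∀ g : X, (g : G) ∈ centralizer ((D.map X.subtype : Subgroup G) : Set G) →
      g ∈ centralizer (D : Set X) := by
    intro g hg
    rw [mem_centralizer_iff] at hg ⊢
    intro d hd
    exact Subtype.ext (hg d ⟨d, hd, rfl⟩)
  refine ⟨?_, ?_, ?_, ?_⟩
  · have := hnorm t' htD
    rwa [ht't] at this
  · intro y hy
    exact hnorm ⟨y, hYX hy⟩ (hYD (mem_subgroupOf.2 hy))
  · intro h
    have h1 := hcent t' (by rwa [ht't])
    apply component_ne_bot hD
    rw [← hDt, commutator_comm, commutator_eq_bot_iff_le_centralizer, zpowers_le]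
    exact h1
  · intro h
    apply hDY
    rw [commutator_comm, commutator_eq_bot_iff_le_centralizer]
    intro y hy
    exact hcent y (h (mem_subgroupOf.1 hy))

/-- Let G be finite, H ≤ G with O(H) = 1, t an involution of G normalizing H, and Y a nontrivial subgroup of O(C_H(t)). Then some component E of H is normalized by t and by Y and centralized by neither t nor Y. -/
theorem result {G : Type*} [Group G] [Finite G] (H : Subgroup G) (hO : Cfsg.oddCore ↥H = ⊥) (t : G) (ht : orderOf t = 2) (htH : t ∈ Subgroup.normalizer (H : Set G)) (Y : Subgroup G) (hY1 : Y ≠ ⊥) (hY : Y ≤ (Cfsg.oddCore ↥(H ⊓ Subgroup.centralizer ({t} : Set G))).map (H ⊓ Subgroup.centralizer ({t} : Set G)).subtype) : ∃ E : Subgroup ↥H, Cfsg.IsComponent E ∧ (E.map H.subtype).map (MulAut.conj t).toMonoidHom = E.map H.subtype ∧ Y ≤ Subgroup.normalizer ((E.map H.subtype : Subgroup G) : Set G) ∧ ¬ (t ∈ Subgroup.centralizer ((E.map H.subtype : Subgroup G) : Set G)) ∧ ¬ (Y ≤ Subgroup.centralizer ((E.map H.subtype : Subgroup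 G) : Set G)) := by
  obtain ⟨E, h1, h2, h3, h4, h5⟩ := aux H hO t ht htH Y hY1 hY
  exact ⟨E, h1, CfsgLib.PSub.map_conj_eq_iff_mem_normalizer.2 h2, h3, h4, h5⟩
end Cfsg.Agent.S1328
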