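import Cfsg.Statements.S1348
import Cfsg.Agent.LibSLE8

set_option autoImplicit false
open Cfsg

namespace Cfsg.Agent.S1348

open Subgroup Matrix CfsgLib.SLE8

theorem norm_map {G : Type*} [Group G] {C : Subgroup G} {K : Subgroup C} (hn : K.Normal) {g : G} (hg : g ∈ C) :
    g ∈ normalizer ((K.map C.subtype : Subgroup G) : Set G) := by
  have h4 : ∀ g ∈ C, ∀ x ∈ K.map C.subtype, g * x * g⁻¹ ∈ K.map C.subtype := by
    rintro g hg _ ⟨y, hy, rfl⟩
    exact ⟨⟨g, hg⟩ * y * ⟨g, hg⟩⁻¹, hn.conj_mem y hy ⟨g, hg⟩, rfl⟩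
  rw [Subgroup.mem_normalizer_iff]
  intro x
  constructor
  · exact h4 g hg x
  · intro hx
    have := h4 g⁻¹ (inv_mem hg) _ hx
    have e : g⁻¹ * (g * x * g⁻¹) * g⁻¹⁻¹ = x := by group
    rwa [e] at this

theorem cent_map {G : Type*} [Group G] {C : Subgroup G} {K : Subgroup C} {x : C} (hx : x ∈ centralizer (K : Set C)) :
    (x : G) ∈ centralizer ((K.map C.subtype : Subgroup G) : Set G) := by
  rw [mem_centralizer_iff] at hx ⊢
  rintro _ ⟨y, hy, rfl⟩
  exact congrArg Subtype.val (hx y hy)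

theorem quasi_map {G : Type*} [Group G] {C : Subgroup G} {K : Subgroup C} (h : IsQuasisimple K) :
    IsQuasisimple (K.map C.subtype : Subgroup G) :=
  CfsgLib.Comp.quasisimple_equiv (K.equivMapOfInjective _ (Subgroup.subtype_injective _)) h

theorem diag_of {F : Type*} [Field F] {m : ℕ} (hm : 2 ≤ m) (h2 : (2 : F) ≠ 0) {t : Matrix.SpecialLinearGroup (Fin (m+1)) F}
    (ht : (t : Matrix (Fin (m+1)) (Fin (m+1)) F) = tm F m) {x : Matrix.SpecialLinearGroup (Fin (m+1)) F}
    (hx : x ∈ centralizer (((slC h2 ht).range.map (centralizer ({t} : Set (Matrix.SpecialLinearGroup (Fin (m+1)) F))).subtype : Subgroup _) : Set (Matrix.SpecialLinearGroup (Fin (m+1)) F))) :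
    ∃ a : F, (x : Matrix (Fin (m+1)) (Fin (m+1)) F) = Matrix.diagonal (fun i => if i = Fin.last m then (x : Matrix (Fin (m+1)) (Fin (m+1)) F) (Fin.last m) (Fin.last m) else a) := by
  apply comm_emb hm
  intro A
  rw [mem_centralizer_iff] at hx
  have h1 := hx _ ⟨_, ⟨A, rfl⟩, rfl⟩
  have h3 := congrArg (fun u : Matrix.SpecialLinearGroup (Fin (m+1)) F => (u : Matrix (Fin (m+1)) (Fin (m+1)) F)) h1
  exact h3.symm

/-- Let F be a finite field of odd order, n ≥ 7 odd, and t ∈ SL(n, F) the diagonal matrix with entries −1, …, −1, 1. Then E(C(t)) is a standard subgroup of SL(n, F). -/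
theorem result {F : Type*} [Field F] [Fintype F] [DecidableEq F] (hF : Odd (Fintype.card F)) (n : ℕ) (hn : 7 ≤ n) (hodd : Odd n) (t : Matrix.SpecialLinearGroup (Fin n) F) (ht : (t : Matrix (Fin n) (Fin n) F) = Matrix.diagonal (fun i : Fin n => if (i : ℕ) + 1 = n then (1 : F) else -1)) : Cfsg.IsStandardSubgroup ((Cfsg.layer ↥(Subgroup.centralizer ({t} : Set (Matrix.SpecialLinearGroup (Fin n) F)))).map (Subgroup.centralizer ({t} : Set (Matrix.SpecialLinearGroup (Fin n) F))).subtype) := by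
  classical
  obtain ⟨m, rfl⟩ : ∃ m, n = m + 1 := ⟨n - 1, by omega⟩
  have h2 : (2 : F) ≠ 0 := two_ne_zero_of_odd hF
  have ht' : (t : Matrix (Fin (m+1)) (Fin (m+1)) F) = tm F m := ht
  have hord : orderOf t = 2 := by
    apply orderOf_eq_prime_iff.2 ⟨?_, ?_⟩
    · apply (pow_two t).trans
      apply Subtype.ext
      show (t : Matrix (Fin (m+1)) (Fin (m+1)) F) * (t : Matrix (Fin (m+1)) (Fin (m+1)) F) = 1
      rw [ht']
      exact tm_sq
    · intro h
      exact tm_ne_one h2 (by omega) (ht'.symm.trans (congrArg (fun u : Matrix.SpecialLinearGroup (Fin (m+1)) F => (u : Matrix (Fin (m+1)) (Fin (m+1)) F)) h))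
  have hq : Cfsg.IsQuasisimple (Matrix.SpecialLinearGroup (Fin m) F) :=
    CfsgLib.KS3.isQuasisimple_SL m (by omega) (by rintro ⟨h7, h8⟩; omega)
  have hcomp := component_range (slC h2 ht') (slC_inj h2 ht') (slC_normal h2 ht') hq
  have hm2 : 2 ≤ m := by omega
  have hcomm : ∀ x ∈ centralizer (((slC h2 ht').range.map (centralizer ({t} : Set (Matrix.SpecialLinearGroup (Fin (m+1)) F))).subtype : Subgroup _) : Set (Matrix.SpecialLinearGroup (Fin (m+1)) F)),
      ∀ y ∈ centralizer (((slC h2 ht').range.map (centralizer ({t} : Set (Matrix.SpecialLinearGroup (Fin (m+1)) F))).subtype : Subgroup _) : Set (Matrix.SpecialLinearGroup (Fin (m+1)) F)), x * y = y * x := by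
    intro x hx y hy
    obtain ⟨a, ha⟩ := diag_of hm2 h2 ht' hx
    obtain ⟨b, hb⟩ := diag_of hm2 h2 ht' hy
    apply Subtype.ext
    show (x : Matrix (Fin (m+1)) (Fin (m+1)) F) * (y : Matrix (Fin (m+1)) (Fin (m+1)) F) = (y : Matrix (Fin (m+1)) (Fin (m+1)) F) * (x : Matrix (Fin (m+1)) (Fin (m+1)) F)
    rw [ha, hb, Matrix.diagonal_mul_diagonal, Matrix.diagonal_mul_diagonal]
    congr 1
    ext i
    exact mul_comm _ _
  have hlay : Cfsg.layer ↥(centralizer ({t} : Set (Matrix.SpecialLinearGroup (Fin (m+1)) F))) = (slC h2 ht').range := by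
    apply layer_eq hcomp
    intro x hx y hy
    exact Subtype.ext (hcomm _ (cent_map hx) _ (cent_map hy))
  rw [hlay]
  apply standard_of hord
  · exact quasi_map hcomp.2
  · exact Subgroup.map_subtype_le _
  · intro g hg
    exact norm_map (slC_normal h2 ht') hg
  · exact hcomm
  · intro x hx hxo
    obtain ⟨a, ha⟩ := diag_of hm2 h2 ht' hx
    obtain ⟨b, hb⟩ : ∃ b, b = (x : Matrix (Fin (m+1)) (Fin (m+1)) F) (Fin.last m) (Fin.last m) := ⟨_, rfl⟩
    rw [← hb] at ha
    have h5 := orderOf_eq_prime_iff.1 hxo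
    have h6 : (x : Matrix (Fin (m+1)) (Fin (m+1)) F) * (x : Matrix (Fin (m+1)) (Fin (m+1)) F) = 1 := by
      have := congrArg (fun u : Matrix.SpecialLinearGroup (Fin (m+1)) F => (u : Matrix (Fin (m+1)) (Fin (m+1)) F)) ((pow_two x).symm.trans h5.1)
      exact this
    have hx1 : (x : Matrix (Fin (m+1)) (Fin (m+1)) F) ≠ 1 := fun h => h5.2 (Subtype.ext h)
    have hdet : (x : Matrix (Fin (m+1)) (Fin (m+1)) F).det = 1 := x.2
    rw [ha, Matrix.diagonal_mul_diagonal, ← Matrix.diagonal_one] at h6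
    have h7 := fun i => congrFun (Matrix.diagonal_injective h6) i
    have ha2 : a * a = 1 := by
      have := h7 (Fin.castSucc ⟨0, by omega⟩)
      simp only [(Fin.castSucc_lt_last (⟨0, by omega⟩ : Fin m)).ne, if_false] at this
      exact this
    rw [ha, Matrix.det_diagonal, Fin.prod_univ_castSucc] at hdet
    have h8 : ∀ i : Fin m, (if Fin.castSucc i = Fin.last m then b else a) = a := by
      intro i
      rw [if_neg (Fin.castSucc_lt_last i).ne]
    rw [Finset.prod_congr rfl (fun i _ => h8 i), Finset.prod_const, Finset.card_univ, Fintype.card_fin, if_pos rfl] at hdet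
    obtain ⟨k, hk⟩ : ∃ k, m = 2 * k := by
      obtain ⟨k, hk⟩ := hodd
      exact ⟨k, by omega⟩
    have h9 : a ^ m = 1 := by
      rw [hk, pow_mul, pow_two, ha2, _root_.one_pow]
    rw [h9, one_mul] at hdet
    have h10 : a = 1 ∨ a = -1 := by
      have : (a - 1) * (a + 1) = 0 := by linear_combination ha2
      rcases mul_eq_zero.1 this with h | h
      · left; linear_combination h
      · right; linear_combination h
    rcases h10 with h10 | h10
    · exfalso
      apply hx1
      rw [ha, hdet, h10, ← Matrix.diagonal_one]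
      congr 1
      ext i
      split_ifs <;> rfl
    · apply Subtype.ext
      show (x : Matrix (Fin (m+1)) (Fin (m+1)) F) = (t : Matrix (Fin (m+1)) (Fin (m+1)) F)
      rw [ha, ht', hdet, h10, tm]
      congr 1
      ext i
      rcases Fin.eq_castSucc_or_eq_last i with ⟨i', rfl⟩ | h3
      · rw [if_neg (Fin.castSucc_lt_last i').ne, tm_c]
      · rw [h3, if_pos rfl, tm_l]
end Cfsg.Agent.S1348
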