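import Cfsg.Statements.S1386
import Cfsg.Agent.LibBGCore

set_option autoImplicit false
open Cfsg

namespace Cfsg.Agent.S1386

/-- Let G be a finite group, W₁, W₂ subgroups forming a self-normalizing cyclic pair, S a subgroup with W₂ ≤ S and W₁ a complement to S' in S, and (W₁, U, W₂') type-P data for S. Then W₂' = W₂ (that is, C_{S'}(W₁) = W₂). -/
theorem result {G : Type*} [Group G] [Finite G] (W₁ W₂ S U W₂' : Subgroup G) (hW : Cfsg.IsSelfNormalizingCyclic W₁ W₂)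
    (hSW : Cfsg.IsComplIn ⁅S, S⁆ W₁ S) (hW₂S : W₂ ≤ S) (hP : Cfsg.IsTypePWith S W₁ U W₂') :
    W₂' = W₂ := by
  obtain ⟨hW1, hW2, hWd, hWc, hWcyc, hWn⟩ := hW
  obtain ⟨-, hW2', hWd', hWc', hWcyc', hWn'⟩ := hP.selfNormalizing
  obtain ⟨x, hx, hx1⟩ : ∃ x ∈ W₁, x ≠ 1 := by
    by_contra hcon; push Not at hcon
    exact hW1 (Subgroup.eq_bot_iff_forall _ |>.2 hcon)
  obtain ⟨w, hw, hw1⟩ : ∃ x ∈ W₂, x ≠ 1 := by
    by_contra hcon; push Not at hcon
    exact hW2 (Subgroup.eq_bot_iff_forall _ |>.2 hcon)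
  have hcen := hP.W₂_centralizer x hx hx1
  have hcom : ∀ {A : Subgroup G}, IsCyclic A → ∀ a ∈ A, ∀ b ∈ A, a * b = b * a := by
    intro A hA a ha b hb
    have := hA.commGroup.mul_comm (⟨a, ha⟩ : A) ⟨b, hb⟩
    exact congrArg Subtype.val this
  have h1 : ∀ w ∈ W₂, ∃ s ∈ W₂', ∃ v ∈ W₁, w = s * v := by
    intro w hw
    obtain ⟨s, hs, v, hv, e⟩ := hSW.2.2.2 w (hW₂S hw)
    refine ⟨s, ?_, v, hv, e⟩
    rw [← hcen]
    refine ⟨hs, ?_⟩
    change s ∈ Subgroup.centralizer ({x} : Set G)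
    rw [Subgroup.mem_centralizer_singleton_iff]
    have hs' : s = w * v⁻¹ := by rw [e]; simp
    have hwx : x * w = w * x := hWc x hx w hw
    have hvx : v * x = x * v := hcom hP.W₁_cyclic v hv x hx
    have hvx' : v⁻¹ * x = x * v⁻¹ := by
      rw [inv_mul_eq_iff_eq_mul, ← mul_assoc, eq_mul_inv_iff_mul_eq, hvx]
    rw [hs', mul_assoc, hvx', ← mul_assoc, ← hwx, mul_assoc]
  have h2 : W₂ ≤ W₁ ⊔ W₂' := by
    intro w hw
    obtain ⟨s, hs, v, hv, rfl⟩ := h1 w hw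
    exact mul_mem (Subgroup.mem_sup_right hs) (Subgroup.mem_sup_left hv)
  have hle : W₁ ⊔ W₂ ≤ W₁ ⊔ W₂' := sup_le le_sup_left h2
  have hy1 : x * w ∉ W₁ := fun h => hw1 (by
    have : w ∈ W₁ ⊓ W₂ := ⟨by simpa using mul_mem (inv_mem hx) h, hw⟩
    rwa [hWd, Subgroup.mem_bot] at this)
  have hy2 : x * w ∉ W₂ := fun h => hx1 (by
    have : x ∈ W₁ ⊓ W₂ := ⟨hx, by simpa using mul_mem h (inv_mem hw)⟩
    rwa [hWd, Subgroup.mem_bot] at this)
  have hyW : x * w ∈ W₁ ⊔ W₂ := mul_mem (Subgroup.mem_sup_left hx) (Subgroup.mem_sup_right hw)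
  have h3 := hWn {x * w} (by
    rintro y hy
    rw [Set.mem_singleton_iff] at hy
    subst hy
    exact ⟨hyW, fun h => h.elim hy1 hy2⟩) (Set.singleton_nonempty _)
  have h4 : W₁ ⊔ W₂' ≤ W₁ ⊔ W₂ := by
    rw [← h3]
    intro z hz
    have hc : z * (x * w) = (x * w) * z := hcom hWcyc' z hz _ (hle hyW)
    change ∀ t, t ∈ ({x * w} : Set G) ↔ z * t * z⁻¹ ∈ ({x * w} : Set G)
    intro t
    simp only [Set.mem_singleton_iff]
    constructor
    · rintro rfl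
      rw [hc]; simp
    · intro h
      have : z * t = (x * w) * z := by rw [← h]; simp
      rw [← hc] at this
      exact mul_left_cancel this
  have h5 : W₁ ⊔ W₂ = W₁ ⊔ W₂' := le_antisymm hle h4
  have hn1 : W₁ ≤ Subgroup.normalizer (W₂ : Set G) := by
    rw [Subgroup.le_normalizer_iff]
    intro a ha b hb
    rw [hWc a ha b hb]; simpa using hb
  have hn2 : W₁ ≤ Subgroup.normalizer (W₂' : Set G) := by
    rw [Subgroup.le_normalizer_iff]
    intro a ha b hb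
    rw [hWc' a ha b hb]; simpa using hb
  have c1 := CfsgLib.BGPi.card_sup_of_disjoint hn1 hWd
  have c2 := CfsgLib.BGPi.card_sup_of_disjoint hn2 hWd'
  have c3 : Nat.card W₂ = Nat.card W₂' := by
    rw [h5, c2] at c1
    exact (Nat.eq_of_mul_eq_mul_left (CfsgLib.BGPi.card_pos' W₁) c1).symm
  have hcop : (Nat.card W₁).Coprime (Nat.card W₂) := by
    refine Nat.Coprime.coprime_dvd_right ?_ hP.W₁_hall
    have hWS : W₁ ⊔ W₂ ≤ S := sup_le hSW.2.1 hW₂S
    have d1 : Nat.card W₁ * Nat.card W₂ ∣ Nat.card W₁ * W₁.relIndex S := by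
      rw [← c1, CfsgLib.BGPi.card_mul_relIndex hSW.2.1]
      exact Subgroup.card_dvd_of_le hWS
    exact Nat.dvd_of_mul_dvd_mul_left (CfsgLib.BGPi.card_pos' W₁) d1
  have h6 : W₂ ≤ W₂' := by
    intro w hw
    obtain ⟨s, hs, v, hv, e⟩ := h1 w hw
    have hsv : Commute s v := (hWc' v hv s hs).symm
    have e2 : s ^ Nat.card W₂ * v ^ Nat.card W₂ = 1 := by
      rw [← hsv.mul_pow, ← e]
      have := pow_card_eq_one' (G := W₂) (x := ⟨w, hw⟩)
      exact congrArg Subtype.val this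
    have e3 : v ^ Nat.card W₂ ∈ W₁ ⊓ W₂' := by
      refine Subgroup.mem_inf.2 ⟨pow_mem hv _, ?_⟩
      have : v ^ Nat.card W₂ = (s ^ Nat.card W₂)⁻¹ := (inv_eq_of_mul_eq_one_right e2).symm
      rw [this]; exact inv_mem (pow_mem hs _)
    rw [hWd', Subgroup.mem_bot] at e3
    have e4 : v ^ Nat.card W₁ = 1 := by
      have := pow_card_eq_one' (G := W₁) (x := ⟨v, hv⟩)
      exact congrArg Subtype.val this
    have e5 : orderOf v ∣ 1 := by
      rw [← hcop]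
      exact Nat.dvd_gcd (orderOf_dvd_of_pow_eq_one e4) (orderOf_dvd_of_pow_eq_one e3)
    have e6 : v = 1 := orderOf_eq_one_iff.1 (Nat.dvd_one.1 e5)
    rw [e, e6, mul_one]; exact hs
  exact (CfsgLib.BGPi.eq_of_card_le h6 c3.symm.le).symm


end Cfsg.Agent.S1386
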