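import Cfsg.Statements.S1387
import Cfsg.Agent.LibBGCore

set_option autoImplicit false
open Cfsg

namespace Cfsg.Agent.S1387

open CfsgLib.BGPi in
theorem u_pi {G : Type*} [Group G] [Finite G] {M W₁ U W₂ : Subgroup G} (hP : Cfsg.IsTypePWith M W₁ U W₂) :
    IsPi {p | p ∣ Nat.card (Cfsg.fittingHallOf M)}ᶜ U := by
  have h1 := IsComplIn_relIndex hP.U_compl
  have h2 := hall_fittingHallOf M
  intro p hp hd hp2
  refine h2.2.2 p hp hp2 ?_
  rw [← h1] at hd
  refine hd.trans ?_
  rw [← Subgroup.relIndex_mul_relIndex (fittingHallOf M) ⁅M, M⁆ M hP.U_compl.1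
    (comm_self_le M)]
  exact dvd_mul_right _ _

open CfsgLib.BGPi in
theorem u_inf_f {G : Type*} [Group G] [Finite G] {M W₁ U W₂ : Subgroup G} (hP : Cfsg.IsTypePWith M W₁ U W₂) :
    U ⊓ Cfsg.fittingOf M ≤ Subgroup.centralizer (Cfsg.fittingHallOf M : Set G) := by
  rw [le_cz_comm]
  exact nilpotent_commute (π := {p | p ∣ Nat.card (Cfsg.fittingHallOf M)}) (fittingOf_nilpotent M)
    (fittingHallOf_le_fittingOf M) inf_le_right (hall_fittingHallOf M).2.1 ((u_pi hP).le inf_le_left)

open CfsgLib.BGPi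

/-- Let M be a subgroup of a finite group G with type-P data (W₁, U, W₂) and H = M_F. Then the Fitting subgroup F(M) is generated by H and the centralizer of H in U. -/
theorem result {G : Type*} [Group G] [Finite G] (M W₁ U W₂ : Subgroup G) (hP : Cfsg.IsTypePWith M W₁ U W₂) :
    Cfsg.fittingOf M = Cfsg.fittingHallOf M ⊔ (U ⊓ Subgroup.centralizer (Cfsg.fittingHallOf M : Set G)) := by
  have hHM := fittingHallOf_le M
  have hFH := hP.fitting_eq
  have hUF := u_inf_f hP
  apply le_antisymm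
  · intro x hx
    obtain ⟨h, hh, u, hu, e⟩ := hP.U_compl.2.2.2 x (hP.fitting_le hx)
    have hu2 : u ∈ fittingOf M := by
      have : u = h⁻¹ * x := by rw [e]; simp
      rw [this]; exact mul_mem (inv_mem (fittingHallOf_le_fittingOf M hh)) hx
    rw [e]
    exact mul_mem (Subgroup.mem_sup_left hh) (Subgroup.mem_sup_right ⟨hu, hUF ⟨hu, hu2⟩⟩)
  · refine sup_le (fittingHallOf_le_fittingOf M) ?_
    rw [← hFH]
    refine le_trans (inf_le_inf_right _ ?_) le_sup_right
    exact hP.U_compl.2.1.trans (comm_self_le M)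


end Cfsg.Agent.S1387
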