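import Cfsg.Statements.S1388
import Cfsg.Agent.S1387

set_option autoImplicit false
open Cfsg

namespace Cfsg.Agent.S1388

open CfsgLib.BGPi

/-- Let M be a subgroup of a finite group G with type-P data (W₁, U, W₂) and H = M_F. Then the derived subgroup of U centralizes H, and if U ≠ 1 then U does not centralize H. -/
theorem result {G : Type*} [Group G] [Finite G] (M W₁ U W₂ : Subgroup G) (hP : Cfsg.IsTypePWith M W₁ U W₂) :
    ⁅U, U⁆ ≤ Subgroup.centralizer (Cfsg.fittingHallOf M : Set G) ∧ (U ≠ ⊥ → ¬ U ≤ Subgroup.centralizer (Cfsg.fittingHallOf M : Set G)) := by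
  have hMM : ⁅M, M⁆ ≤ M := comm_self_le M
  have hUM' : U ≤ ⁅M, M⁆ := hP.U_compl.2.1
  refine ⟨?_, ?_⟩
  · refine le_trans (le_inf ?_ ?_) (Cfsg.Agent.S1387.u_inf_f hP)
    · exact comm_self_le U
    · rw [← hP.fitting_eq]
      exact (Subgroup.commutator_mono hUM' hUM').trans hP.derived_two_le
  · intro hU hUC
    have hpi := Cfsg.Agent.S1387.u_pi hP
    have hsup := IsComplIn_sup hP.U_compl
    have hcardU := IsComplIn_relIndex' hP.U_compl
    have hcH := hall_fittingHallOf M
    -- U is a normal Hall subgroup of M'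
    have hallU : IsPiHallOf {p | p ∣ Nat.card (fittingHallOf M)}ᶜ U ⁅M, M⁆ := by
      refine ⟨hUM', hpi, fun p hp hpi2 hd => ?_⟩
      rw [hcardU] at hd
      exact hpi2 hd
    have hnU : ⁅M, M⁆ ≤ Subgroup.normalizer (U : Set G) := by
      rw [← hsup]
      exact sup_le (le_nz_of_le_cz (le_cz_comm.1 hUC)) Subgroup.le_normalizer
    have e1 := piCoreOf_eq_of_hall hallU hnU
    have hnM : M ≤ Subgroup.normalizer (U : Set G) := by
      rw [← e1]
      refine le_trans ?_ (nz_le_nz_piCoreOf _ _)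
      exact left_le_nz_comm M M
    have hc : (Nat.card U).Coprime (U.relIndex M) := by
      rw [← Subgroup.relIndex_mul_relIndex U ⁅M, M⁆ M hUM' hMM]
      refine Nat.Coprime.mul_right (hall_coprime hallU) ?_
      rw [IsComplIn_relIndex hP.W₁_compl]
      have h1 := hP.W₁_hall
      rw [IsComplIn_relIndex' hP.W₁_compl] at h1
      exact (Nat.Coprime.coprime_dvd_right (Subgroup.card_dvd_of_le hUM') h1).symm
    have h2 := le_fittingHallOf (hUM'.trans hMM) hnM hP.U_nilpotent hc
    apply hU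
    rw [eq_bot_iff, ← hP.U_compl.2.2.1]
    exact le_inf h2 le_rfl


end Cfsg.Agent.S1388
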