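import Cfsg.Statements.S1462
import Cfsg.Agent.EqBase
import Cfsg.Agent.LibBGPlen
import Cfsg.Agent.LibBGRank
import Cfsg.Agent.S1443


set_option autoImplicit false
open Cfsg

namespace Cfsg.Agent.S1462
open CfsgLib.BGPi
open scoped CfsgLib.BGPi
open scoped commutatorElement

/-- Let G be a finite solvable group, p an odd prime with G = O_{p',p,p'}(G), E an elementary abelian p-subgroup contained in no larger elementary abelian p-subgroup of G, and L a subgroup of order coprime to p normalized by E. Then L ≤ O_{p'}(G). -/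
theorem result {G : Type*} [Group G] [Finite G] [Group.IsSolvable G] (p : ℕ) [Fact p.Prime] (hp : p ≠ 2) (hpl : Cfsg.PLengthLE p 1 G) (E L : Subgroup G) (hE : Cfsg.IsElementaryAbelian p E)
    (hEmax : ∀ B : Subgroup G, Cfsg.IsElementaryAbelian p B → E ≤ B → B = E) (hL : (Nat.card L).Coprime p) (hEL : E ≤ Subgroup.normalizer (L : Set G)) :
    L ≤ Cfsg.pPrimeCore p G := by
  have hpp : p.Prime := Fact.out
  set K := Cfsg.pPrimeCore p G with hK
  set π := QuotientGroup.mk' K with hπ
  obtain ⟨S, hS, hES⟩ := exists_syl_ge hpp (elab_isPi hpp hE) (le_top : E ≤ ⊤)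
  have hSM : S ≤ Cfsg.pPrimePCore p G := (plen_one_iff hpp hS).1 hpl
  have hSp : IsPGroup p S := (hall_isPi hS).isPGroup hpp
  have hSbar : S.map π = Cfsg.pCore p (G ⧸ K) := by
    have := ppc_eq_sup hpp hS
    rw [inf_eq_left.2 hSM] at this
    exact pcore_quot_eq this
  have hSn : (S.map π).Normal := by rw [hSbar]; infer_instance
  have hSK : S ⊓ K = ⊥ := by
    rw [inf_comm]
    exact cop_inf (coprime_card_of_pgroup hpp hSp (coprime_core p))
  have hLc : (Nat.card ↥(L.map π)).Coprime p :=
    Nat.Coprime.coprime_dvd_left (Subgroup.card_map_dvd L π) hL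
  have hSbp : IsPGroup p ↥(S.map π) := hSp.map π
  have hLS : L.map π ⊓ S.map π = ⊥ := cop_inf (coprime_card_of_pgroup hpp hSbp hLc)
  have hLE : L.map π ≤ Subgroup.centralizer (E.map π : Set (G ⧸ K)) := by
    rw [← comm_eq_bot_iff, ← le_bot_iff, ← hLS]
    refine le_inf ?_ ?_
    · rw [← Subgroup.map_commutator]
      exact Subgroup.map_mono (comm_le_left hEL)
    · exact (Subgroup.commutator_mono le_top (Subgroup.map_mono hES)).trans
        (comm_le_right (by rw [Subgroup.normalizer_eq_top]))
  have hLcz : L.map π ≤ Subgroup.centralizer (S.map π : Set (G ⧸ K)) := by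
    refine Cfsg.Agent.S1443.result p hp (S.map π) (E.map π) (L.map π) hSbp (Subgroup.map_mono hES)
      (elab_map hE π) (by rw [Subgroup.normalizer_eq_top]; exact le_top) hLc ?_
    rintro _ ⟨⟨x, hx, rfl⟩, hxc⟩ hxo
    have h1 : x ^ p = 1 := by
      have h2 : x ^ p ∈ S ⊓ K := by
        refine ⟨pow_mem hx p, (QuotientGroup.eq_one_iff _).1 ?_⟩
        have := pow_orderOf_eq_one (π x)
        rw [hxo, ← map_pow] at this
        exact this
      rw [hSK] at h2
      exact Subgroup.mem_bot.1 h2
    have h2 : ∀ e ∈ E, e * x = x * e := by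
      intro e he
      have h3 : ⁅e, x⁆ ∈ S ⊓ K := by
        refine ⟨?_, ?_⟩
        · show e * x * e⁻¹ * x⁻¹ ∈ S
          exact mul_mem (mul_mem (mul_mem (hES he) hx) (inv_mem (hES he))) (inv_mem hx)
        · have h4 : π ⁅e, x⁆ = 1 := by
            rw [map_commutatorElement, commutatorElement_eq_one_iff_mul_comm]
            exact mem_cz.1 hxc _ (Subgroup.mem_map_of_mem π he)
          exact (QuotientGroup.eq_one_iff _).1 h4
      rw [hSK] at h3
      exact commutatorElement_eq_one_iff_mul_comm.1 (Subgroup.mem_bot.1 h3)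
    have h3 : x ∈ E := mem_of_max_elab (M := ⊤) le_top hE (fun C _ hC hEC => hEmax C hC hEC)
      (Subgroup.mem_top x) h1 h2
    refine hLE.trans (Subgroup.centralizer_le ?_)
    rw [Set.singleton_subset_iff]
    exact Subgroup.mem_map_of_mem π h3
  have h1 : L.map π ≤ S.map π := by
    refine hLcz.trans ?_
    rw [hSbar]
    exact pconstrained_core (CfsgLib.Cores.pPrimeCore_quotient_pPrimeCore p)
  have h2 : L.map π = ⊥ := by
    rw [← hLS, inf_eq_left.2 h1]
  rw [Subgroup.map_eq_bot_iff, QuotientGroup.ker_mk'] at h2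
  exact h2


end Cfsg.Agent.S1462
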