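import Cfsg.Statements.S1396
import Cfsg.Agent.LibBG7c
import Cfsg.Agent.S1462

set_option autoImplicit false
open Cfsg

namespace Cfsg.Agent.S1396
open CfsgLib.BGPi
open scoped CfsgLib.BGPi commutatorElement

/-- Let G be a minimal simple group of odd order, p a prime dividing the order of G and A an abelian p-subgroup. Suppose either (1) A consists exactly of the elements x of C_G(A) with x^p = 1, and every proper subgroup of G has p-length at most one, or (2) A is normal and self-centralizing in some Sylow p-subgroup of G and has rank at least 2. Then A satisfies the transitivity hypothesis. -/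
theorem result {G : Type*} [Group G] [Finite G] (hG : Cfsg.IsMinSimpleOddOrder G)
    (p : ℕ) [Fact p.Prime] (hp : p ∣ Nat.card G) (A : Subgroup G) (hAp : IsPGroup p A) (hAc : IsMulCommutative A)
    (h : (∀ x ∈ Subgroup.centralizer (A : Set G), x ^ p = 1 ↔ x ∈ A) ∧ (∀ H : Subgroup G, H ≠ ⊤ → Cfsg.PLengthLE p 1 H) ∨
      ∃ P : Sylow p G, Cfsg.IsSCN (P : Subgroup G) A ∧ ¬ Cfsg.PRankLE p 1 A) :
    Cfsg.TransitivityHypothesis A := by
  have hpp : p.Prime := Fact.out
  rcases h with ⟨hmem, hpl⟩ | ⟨P, hP, hr⟩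
  · have hA1 : A ≠ ⊥ := by
      rintro rfl
      obtain ⟨x, hx⟩ := exists_prime_orderOf_dvd_card' p hp
      have h1 : x ∈ Subgroup.centralizer ((⊥ : Subgroup G) : Set G) := by
        rw [mem_cz]
        intro y hy
        rw [Subgroup.mem_bot.1 hy, one_mul, mul_one]
      have h2 := (hmem x h1).1 (by rw [← hx]; exact pow_orderOf_eq_one x)
      rw [Subgroup.mem_bot.1 h2, orderOf_one] at hx
      exact hpp.ne_one hx.symm
    have hAe : Cfsg.IsElementaryAbelian p A :=
      ⟨hAc, fun a ha => (hmem a (comm_iff_le_cz.1 hAc ha)).2 ha⟩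
    refine th_of_inv hG hpp hAp hA1 fun X hX hAX Y hYX hY hAY => ?_
    haveI := ms_sol hG hX
    rw [← pPrimeCore_map hpp, le_coreOf_iff hYX]
    refine Cfsg.Agent.S1462.result p (ms_p_ne_two hG hpp hp) (hpl X hX) (A.subgroupOf X) _ ?_ ?_ ?_ ?_
    · refine ⟨comm_subgroupOf hAc, fun a ha => Subtype.ext (hAe.2 a ha)⟩
    · intro B hB hAB
      have h1 : B.map X.subtype ≤ A := by
        rintro _ ⟨b, hb, rfl⟩
        refine (hmem _ ?_).1 ?_
        · rw [mem_cz]
          intro a ha
          exact congrArg Subtype.val (mem_cz.1 (comm_iff_le_cz.1 hB.1 hb) ⟨a, hAX ha⟩ (hAB ha))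
        · exact congrArg Subtype.val (hB.2 b hb)
      apply le_antisymm
      · intro b hb
        exact h1 (Subgroup.mem_map_of_mem X.subtype hb)
      · exact hAB
    · rwa [card_subgroupOf hYX]
    · exact nz_subgroupOf hAY
  · exact th_of_scn hG hpp (hall_of_sylow P) hP hr

end Cfsg.Agent.S1396
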