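import Cfsg.Statements.S1441
import Cfsg.Agent.EqBase
import Cfsg.Agent.LibBGCop


set_option autoImplicit false
open Cfsg

namespace Cfsg.Agent.S1441
open CfsgLib.BGPi
open scoped CfsgLib.BGPi

/-- Let G be a finite group, H a solvable subgroup and A a subgroup normalizing H. Suppose there is a chain H = H₀ ≥ H₁ ≥ ⋯ ≥ H_n = 1 of subgroups normal in H and normalized by A such that A acts trivially on each factor H_{i-1}/H_i (that is, [H_{i-1}, A] ≤ H_i). Then every prime dividing the index of C_A(H) in A divides the order of H. -/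
theorem result {G : Type*} [Group G] [Finite G] (H A : Subgroup G) (hH : Group.IsSolvable H) (hA : (A ≤ Subgroup.normalizer (H : Set G)))
    (n : ℕ) (c : Fin (n + 1) → Subgroup G) (hc0 : c 0 = H) (hcn : c (Fin.last n) = ⊥) (hanti : Antitone c)
    (hcN : ∀ i, H ≤ Subgroup.normalizer ((c i : Subgroup G) : Set G)) (hcA : ∀ i, A ≤ Subgroup.normalizer ((c i : Subgroup G) : Set G))
    (htriv : ∀ i : Fin n, ⁅c i.castSucc, A⁆ ≤ c i.succ) :
    ∀ p : ℕ, p.Prime → p ∣ (A ⊓ Subgroup.centralizer (H : Set G)).relIndex A → p ∣ Nat.card H := by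
  intro p hp hd
  by_contra hpH
  haveI : Fact p.Prime := ⟨hp⟩
  obtain ⟨P, hP⟩ := exists_syl hp A
  have hPA : P ≤ A := hP.1
  have hcop : ∀ K : Subgroup G, K ≤ H → (Nat.card P).Coprime (Nat.card K) := by
    intro K hK
    have h1 : IsPi {p} P := hP.2.1
    have h2 : (Nat.card P).Coprime (Nat.card H) := by
      refine h1.coprime_of_dvd ?_
      intro q _ hqp hqd
      rw [Set.mem_singleton_iff] at hqp
      subst hqp; exact hpH hqd
    exact cop_le h2 le_rfl hK
  have hle : ∀ i, c i ≤ H := by
    intro i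
    rw [← hc0]; exact hanti (Fin.zero_le i)
  have key : ∀ i : Fin (n + 1), P ≤ Subgroup.centralizer (c i : Set G) := by
    intro i
    induction i using Fin.reverseInduction with
    | last => rw [hcn]; intro x _; rw [mem_cz]; intro y hy; rw [Subgroup.mem_bot.1 hy]; simp
    | cast i ih =>
      refine cop_le_cz (hPA.trans (hcA _)) (hcop _ (hle _)) (solvable_sub (hle _) hH) ?_
      exact ih.trans (cz_anti ((Subgroup.commutator_mono le_rfl hPA).trans (htriv i)))
  have h0 : P ≤ A ⊓ Subgroup.centralizer (H : Set G) := by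
    have := key 0
    rw [hc0] at this
    exact le_inf hPA this
  refine hP.2.2 p hp rfl ?_
  rw [← Subgroup.relIndex_mul_relIndex _ _ _ h0 inf_le_left]
  exact hd.mul_left _


end Cfsg.Agent.S1441
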