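import Cfsg.Statements.S1442
import Cfsg.Agent.EqBase
import Cfsg.Agent.LibBGCop


set_option autoImplicit false
open Cfsg

namespace Cfsg.Agent.S1442
open CfsgLib.BGPi
open scoped CfsgLib.BGPi

/-- Let G be a finite group, H a nilpotent subgroup and A a subgroup normalizing H with the orders of A and H coprime. Put C = H ∩ C_G(A). If H ∩ C_G(C) ≤ C then A centralizes H. -/
theorem result {G : Type*} [Group G] [Finite G] (H A : Subgroup G) (hH : Group.IsNilpotent H) (hA : (A ≤ Subgroup.normalizer (H : Set G))) (hcop : (Nat.card A).Coprime (Nat.card H))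
    (hC : H ⊓ Subgroup.centralizer (((H ⊓ Subgroup.centralizer (A : Set G)) : Subgroup G) : Set G) ≤ (H ⊓ Subgroup.centralizer (A : Set G))) :
    A ≤ Subgroup.centralizer (H : Set G) := by
  have hs : Group.IsSolvable H := by haveI := hH; infer_instance
  set C := H ⊓ Subgroup.centralizer (A : Set G) with hCdef
  have hAC : A ≤ Subgroup.centralizer (C : Set G) := le_cz_comm.1 inf_le_right
  have hCH : C = H := by
    refine nilpotent_eq_of_nz_le hH inf_le_left ?_
    set N := H ⊓ Subgroup.normalizer (C : Set G) with hN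
    have hAN : A ≤ Subgroup.normalizer (N : Set G) :=
      le_nz_inf hA ((le_nz_of_le_cz hAC).trans (nz_le_nz_nz _))
    have hcopN : (Nat.card A).Coprime (Nat.card N) := cop_le hcop le_rfl inf_le_left
    have hsN := solvable_sub (inf_le_left : N ≤ H) hs
    have e1 : ⁅C, A⁆ = ⊥ := comm_eq_bot_iff.2 (le_cz_comm.1 hAC)
    have e2 : ⁅⁅N, C⁆, A⁆ = ⊥ :=
      le_bot_iff.1 ((Subgroup.commutator_mono (comm_le_right inf_le_right) le_rfl).trans e1.le)
    have e3 : ⁅⁅A, N⁆, C⁆ = ⊥ :=
      Subgroup.commutator_commutator_eq_bot_of_rotate e2 (by rw [e1]; simp)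
    rw [comm_eq_bot_iff] at e3
    have h1 : ⁅N, A⁆ ≤ C := by
      refine le_trans (le_inf ((comm_le_left hAN).trans inf_le_left) ?_) hC
      rw [Subgroup.commutator_comm]; exact e3
    have h2 : A ≤ Subgroup.centralizer (N : Set G) := by
      refine cop_le_cz hAN hcopN hsN ?_
      exact hAC.trans (cz_anti h1)
    exact le_inf inf_le_left (le_cz_comm.1 h2)
  rw [← hCH]
  exact hAC


end Cfsg.Agent.S1442
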