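import Cfsg.Statements.S1459
import Cfsg.Agent.EqBase
import Cfsg.Agent.LibBGPlen
import Cfsg.Agent.LibBGRank
import Cfsg.Agent.LibCoprime2
import Cfsg.Agent.LibSolvCoprime2


set_option autoImplicit false
open Cfsg

namespace Cfsg.Agent.S1459
open CfsgLib.BGPi
open scoped CfsgLib.BGPi
open scoped commutatorElement

/-- Let G be a finite solvable group. (a) If H is a normal subgroup of order coprime to its index, K is a complement to H, and H ≤ G', then H = [H, K] and H ∩ C_G(K) ≤ [H, H]. (b) If G' is nilpotent and has prime index in G, then the order of G' is coprime to its index and G' = [G, K] (the subgroup generated by commutators of elements of G with elements of K) for every complement K of G'. -/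
theorem result {G : Type*} [Group G] [Finite G] [Group.IsSolvable G] :
    (∀ (H K : Subgroup G), H.Normal → (Nat.card H).Coprime H.index → Subgroup.IsComplement' H K → H ≤ commutator G →
        H = ⁅H, K⁆ ∧ H ⊓ Subgroup.centralizer (K : Set G) ≤ ⁅H, H⁆) ∧
      (Group.IsNilpotent ↥(commutator G) → (commutator G).index.Prime →
        (Nat.card ↥(commutator G)).Coprime (commutator G).index ∧
        ∀ K : Subgroup G, Subgroup.IsComplement' (commutator G) K → commutator G = ⁅(⊤ : Subgroup G), K⁆) := by
  have partA : ∀ (H K : Subgroup G), H.Normal → (Nat.card H).Coprime H.index → Subgroup.IsComplement' H K → H ≤ commutator G →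
        H = ⁅H, K⁆ ∧ H ⊓ Subgroup.centralizer (K : Set G) ≤ ⁅H, H⁆ := by
    intro H K hHn hcop hc hH
    have hHK : H ⊔ K = ⊤ := hc.sup_eq_top
    have hKc : Nat.card K = H.index := hc.card_right
    have hinf : H ⊓ K = ⊥ := hc.isCompl.inf_eq_bot
    have nt : ∀ X : Subgroup G, H ≤ Subgroup.normalizer (X : Set G) → K ≤ Subgroup.normalizer (X : Set G) → X.Normal := by
      intro X h1 h2
      rw [← Subgroup.normalizer_eq_top_iff, ← top_le_iff, ← hHK]
      exact sup_le h1 h2
    have hNn : (⁅H, K⁆).Normal := nt _ (left_le_nz_comm H K) (right_le_nz_comm H K)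
    set W := ⁅H, K⁆ ⊔ ⁅H, H⁆ with hW
    have hWn : W.Normal := by infer_instance
    have hWH : W ≤ H := sup_le (comm_le_left (by rw [Subgroup.normalizer_eq_top]; exact le_top))
      (Subgroup.commutator_le_self H)
    have hGW : commutator G ≤ W ⊔ ⁅K, K⁆ := by
      rw [commutator_def, Subgroup.commutator_le]
      intro g1 _ g2 _
      have hd : ∀ g : G, ∃ h ∈ H, ∃ k ∈ K, h * k = g := by
        intro g
        rw [← mem_sup_of_nz' (by rw [Subgroup.normalizer_eq_top]; exact le_top), hHK]
        trivial
      obtain ⟨h1, hh1, k1, hk1, rfl⟩ := hd g1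
      obtain ⟨h2, hh2, k2, hk2, rfl⟩ := hd g2
      set f := QuotientGroup.mk' W with hf
      have c1 : ∀ h ∈ H, ∀ k ∈ K, Commute (f h) (f k) := by
        intro h hh k hk
        rw [← commutatorElement_eq_one_iff_commute, ← map_commutatorElement]
        exact (QuotientGroup.eq_one_iff _).2 (Subgroup.mem_sup_left (Subgroup.commutator_mem_commutator hh hk))
      have c2 : ∀ h ∈ H, ∀ k ∈ H, Commute (f h) (f k) := by
        intro h hh k hk
        rw [← commutatorElement_eq_one_iff_commute, ← map_commutatorElement]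
        exact (QuotientGroup.eq_one_iff _).2 (Subgroup.mem_sup_right (Subgroup.commutator_mem_commutator hh hk))
      have key : ∀ {Y : Type _} [Group Y] (z1 a z2 b : Y), Commute z1 a → Commute z1 b → Commute z1 z2 →
          Commute z2 a → Commute z2 b → ⁅z1 * a, z2 * b⁆ = ⁅a, b⁆ := by
        intro Y _ z1 a z2 b h1 h2 h3 h4 h5
        have e1 : ⁅z1 * a, z2 * b⁆ * ((z2 * b) * (z1 * a)) = (z1 * a) * (z2 * b) := by
          rw [commutatorElement_def]; group
        have e2 : ⁅a, b⁆ * ((z2 * b) * (z1 * a)) = (z1 * a) * (z2 * b) := by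
          calc ⁅a, b⁆ * ((z2 * b) * (z1 * a)) = ⁅a, b⁆ * (z2 * (b * z1) * a) := by simp only [mul_assoc]
            _ = ⁅a, b⁆ * ((z2 * z1) * (b * a)) := by rw [← h2.eq]; simp only [mul_assoc]
            _ = ⁅a, b⁆ * ((b * a) * (z2 * z1)) := by
                have : Commute (z2 * z1) (b * a) := (h5.mul_right h4).mul_left (h2.mul_right h1)
                rw [this.eq]
            _ = (a * b) * (z2 * z1) := by rw [commutatorElement_def]; group
            _ = (z2 * z1) * (a * b) := by
                have : Commute (a * b) (z2 * z1) := ((h4.symm.mul_left h5.symm).mul_right (h1.symm.mul_left h2.symm))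
                rw [this.eq]
            _ = z1 * (z2 * a) * b := by rw [← h3.eq]; simp only [mul_assoc]
            _ = _ := by rw [h4.eq]; simp only [mul_assoc]
        exact mul_right_cancel (e1.trans e2.symm)
      have e : f ⁅h1 * k1, h2 * k2⁆ = f ⁅k1, k2⁆ := by
        rw [map_commutatorElement, map_mul, map_mul, map_commutatorElement]
        exact key _ _ _ _ (c1 _ hh1 _ hk1) (c1 _ hh1 _ hk2) (c2 _ hh1 _ hh2) (c1 _ hh2 _ hk1) (c1 _ hh2 _ hk2)
      have e2 : (⁅h1 * k1, h2 * k2⁆ * ⁅k1, k2⁆⁻¹) ∈ W := by
        rw [← QuotientGroup.eq_one_iff]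
        show f _ = 1
        rw [map_mul, map_inv, e, mul_inv_cancel]
      have e3 : ⁅h1 * k1, h2 * k2⁆ = (⁅h1 * k1, h2 * k2⁆ * ⁅k1, k2⁆⁻¹) * ⁅k1, k2⁆ := by group
      rw [e3]
      exact mul_mem (Subgroup.mem_sup_left e2) (Subgroup.mem_sup_right (Subgroup.commutator_mem_commutator hk1 hk2))
    have hHW : H = W := by
      refine le_antisymm ?_ hWH
      have h1 : (W ⊔ ⁅K, K⁆) ⊓ H = W ⊔ (⁅K, K⁆ ⊓ H) :=
        dedekind (by rw [Subgroup.normalizer_eq_top]; exact le_top) hWH
      have h2 : ⁅K, K⁆ ⊓ H = ⊥ := by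
        rw [← le_bot_iff, ← hinf, inf_comm]
        exact inf_le_inf le_rfl (Subgroup.commutator_le_self K)
      rw [h2, sup_bot_eq] at h1
      rw [← h1]
      exact le_inf (hH.trans hGW) le_rfl
    have hA : H = ⁅H, K⁆ := by
      refine le_antisymm ?_ (le_sup_left.trans hWH)
      have h1 : H.map (QuotientGroup.mk' ⁅H, K⁆) = ⊥ := by
        by_contra hne
        refine (Group.IsSolvable.commutator_lt_of_ne_bot hne).ne ?_
        rw [← Subgroup.map_commutator]
        have e0 : H.map (QuotientGroup.mk' ⁅H, K⁆) = W.map (QuotientGroup.mk' ⁅H, K⁆) := congrArg _ hHW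
        rw [e0, hW, Subgroup.map_sup,
          (Subgroup.map_eq_bot_iff ⁅H, K⁆).2 (by rw [QuotientGroup.ker_mk']), bot_sup_eq]
      rw [Subgroup.map_eq_bot_iff, QuotientGroup.ker_mk'] at h1
      exact h1
    refine ⟨hA, ?_⟩
    have hHHn : (⁅H, H⁆).Normal := inferInstance
    set f := QuotientGroup.mk' ⁅H, H⁆ with hf
    haveI : IsMulCommutative ↥(H.map f) := by
      rw [comm_iff_comm_bot, ← Subgroup.map_commutator, Subgroup.map_eq_bot_iff, QuotientGroup.ker_mk']
    have hnn : (H.map f).Normal := hHn.map _ (QuotientGroup.mk'_surjective _)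
    have h1 := CfsgLib.Coprime2.abelian_decomp (A := K.map f) (V := H.map f)
      (by rw [Subgroup.normalizer_eq_top]; exact le_top)
      (Nat.Coprime.of_dvd (Subgroup.card_map_dvd K f) (Subgroup.card_map_dvd H f) (by
        rw [hKc]; exact hcop.symm))
    rw [← Subgroup.map_commutator, ← hA] at h1
    have h2 : H.map f ⊓ Subgroup.centralizer (K.map f : Set (G ⧸ ⁅H, H⁆)) = ⊥ := by
      have := h1.1
      rwa [inf_eq_left.2 inf_le_left] at this
    rintro x ⟨hx, hxc⟩
    have h3 : f x ∈ H.map f ⊓ Subgroup.centralizer (K.map f : Set (G ⧸ ⁅H, H⁆)) := by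
      refine ⟨Subgroup.mem_map_of_mem f hx, ?_⟩
      rintro _ ⟨k, hk, rfl⟩
      rw [← map_mul, ← map_mul, mem_cz.1 hxc k hk]
    rw [h2] at h3
    exact (QuotientGroup.eq_one_iff _).1 (Subgroup.mem_bot.1 h3)
  refine ⟨partA, ?_⟩
  intro hnil hprime
  set D := commutator G with hD
  set q := D.index with hq
  have hDn : D.Normal := inferInstance
  have hcop : (Nat.card D).Coprime q := by
    rw [Nat.coprime_comm, hprime.coprime_iff_not_dvd]
    intro hd
    haveI : Fact q.Prime := ⟨hprime⟩
    -- D = [D, G]
    have hE : D ≤ ⁅D, (⊤ : Subgroup G)⁆ := by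
      set E := ⁅D, (⊤ : Subgroup G)⁆ with hE
      have hEn : E.Normal := inferInstance
      have hED : E ≤ D := Subgroup.commutator_mono le_top le_rfl
      have hcyc : IsCyclic (G ⧸ D) := isCyclic_of_prime_card (p := q) rfl
      let f : (G ⧸ E) →* (G ⧸ D) := QuotientGroup.map E D (MonoidHom.id G) hED
      have hker : f.ker ≤ Subgroup.center (G ⧸ E) := by
        intro y hy
        obtain ⟨x, rfl⟩ := QuotientGroup.mk_surjective y
        have hx : x ∈ D := by
          rw [← QuotientGroup.eq_one_iff]
          exact hy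
        rw [Subgroup.mem_center_iff]
        intro z
        obtain ⟨w, rfl⟩ := QuotientGroup.mk_surjective z
        have h1 : ⁅x, w⁆ ∈ E := Subgroup.commutator_mem_commutator hx (Subgroup.mem_top w)
        have h2 : QuotientGroup.mk' E ⁅x, w⁆ = 1 := (QuotientGroup.eq_one_iff _).2 h1
        rw [map_commutatorElement, commutatorElement_eq_one_iff_mul_comm] at h2
        exact h2.symm
      have hcomm := commutative_of_cyclic_center_quotient f hker
      rw [hD, commutator_def, Subgroup.commutator_le]
      intro a _ b _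
      rw [← QuotientGroup.eq_one_iff]
      have h2 : QuotientGroup.mk' E ⁅a, b⁆ = 1 := by
        rw [map_commutatorElement, commutatorElement_eq_one_iff_mul_comm]
        exact hcomm _ _
      exact h2
    set Q := Cfsg.piCoreOf {q}ᶜ D with hQ
    have hQh : Cfsg.IsPiHallOf {q}ᶜ Q D := nilpotent_hall hnil
    have hQn : Q.Normal := by
      rw [← Subgroup.normalizer_eq_top_iff, ← top_le_iff]
      have h1 : (⊤ : Subgroup G) ≤ Subgroup.normalizer (D : Set G) := by rw [Subgroup.normalizer_eq_top]
      exact h1.trans (nz_le_nz_piCoreOf _ _)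
    have hQp : IsPGroup q (G ⧸ Q) := by
      rw [IsPGroup.iff_card]
      have h1 : Nat.card (G ⧸ Q) = Q.relIndex D * q := by
        have h2 := Subgroup.relIndex_mul_relIndex Q D ⊤ hQh.1 le_top
        rw [Subgroup.relIndex_top_right, Subgroup.relIndex_top_right] at h2
        exact h2.symm
      rw [h1]
      have h3 : ∀ r, r.Prime → r ∣ Q.relIndex D → r = q := by
        intro r hr hrd
        by_contra hne
        exact hQh.2.2 r hr hne hrd
      have hne0 : Q.relIndex D ≠ 0 := by
        have := card_mul_relIndex hQh.1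
        intro h0
        rw [h0, mul_zero] at this
        exact (card_pos' D).ne this
      refine ⟨(Q.relIndex D).primeFactorsList.length + 1, ?_⟩
      rw [pow_succ]
      congr 1
      exact Nat.eq_prime_pow_of_unique_prime_dvd hne0 (fun {r} hr hrd => h3 r hr hrd)
    haveI : Group.IsNilpotent (G ⧸ Q) := hQp.isNilpotent
    have hDQ : D.map (QuotientGroup.mk' Q) = ⊥ := by
      by_contra hne
      haveI : (D.map (QuotientGroup.mk' Q)).Normal := hDn.map _ (QuotientGroup.mk'_surjective _)
      have h1 := CfsgLib.SolvCoprime.commutator_top_lt_of_nilpotent _ hne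
      refine h1.ne (le_antisymm h1.le ?_)
      have h2 := Subgroup.map_mono (f := QuotientGroup.mk' Q) hE
      rw [Subgroup.map_commutator, Subgroup.map_top_of_surjective _ (QuotientGroup.mk'_surjective _)] at h2
      exact h2
    rw [Subgroup.map_eq_bot_iff, QuotientGroup.ker_mk'] at hDQ
    have h4 : q ∣ Nat.card Q := hd.trans (Subgroup.card_dvd_of_le hDQ)
    exact hQh.2.1 q hprime h4 rfl
  refine ⟨hcop, fun K hK => ?_⟩
  have h1 := (partA D K hDn hcop hK le_rfl).1
  apply le_antisymm
  · conv_lhs => rw [h1]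
    exact Subgroup.commutator_mono le_top le_rfl
  · exact Subgroup.commutator_mono le_rfl le_top


end Cfsg.Agent.S1459
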