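import Cfsg.Statements.S1461
import Cfsg.Agent.EqBase
import Cfsg.Agent.LibBGPlen
import Cfsg.Agent.LibBGRank


set_option autoImplicit false
open Cfsg

namespace Cfsg.Agent.S1461
open CfsgLib.BGPi
open scoped CfsgLib.BGPi

/-- Let G be a finite solvable group, p a prime with G = O_{p',p,p'}(G), and S a Sylow p-subgroup. Then: if S ≤ G' then S ≤ [N_G(S), N_G(S)]; if Y ⊆ S and xYx⁻¹ ⊆ S then x = g c for some g ∈ N_G(S) and c centralizing Y; and for every p-subgroup Q there is x ∈ C_G(Q ∩ S) with xQx⁻¹ ≤ S. -/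
theorem result {G : Type*} [Group G] [Finite G] [Group.IsSolvable G] (p : ℕ) [Fact p.Prime] (hpl : Cfsg.PLengthLE p 1 G) (S : Sylow p G) :
    ((S : Subgroup G) ≤ commutator G → (S : Subgroup G) ≤ ⁅Subgroup.normalizer ((S : Subgroup G) : Set G), Subgroup.normalizer ((S : Subgroup G) : Set G)⁆) ∧
      (∀ (Y : Set G) (x : G), Y ⊆ (S : Subgroup G) → (fun y => x * y * x⁻¹) '' Y ⊆ (S : Subgroup G) →
        ∃ g ∈ Subgroup.normalizer ((S : Subgroup G) : Set G), ∃ c ∈ Subgroup.centralizer Y, g * c = x) ∧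
      ∀ Q : Subgroup G, IsPGroup p Q → ∃ x ∈ Subgroup.centralizer ((Q ⊓ (S : Subgroup G) : Subgroup G) : Set G), Q.map (MulAut.conj x).toMonoidHom ≤ (S : Subgroup G) := by
  have hpp : p.Prime := Fact.out
  set K := Cfsg.pPrimeCore p G with hK
  set N := Subgroup.normalizer ((S : Subgroup G) : Set G) with hN
  have hSh : Cfsg.IsPiHallOf {p} (S : Subgroup G) ⊤ := hall_of_sylow S
  have hSM : (S : Subgroup G) ≤ Cfsg.pPrimePCore p G := (plen_one_iff hpp hSh).1 hpl
  have hn : (K ⊔ (S : Subgroup G)).Normal := (sup_core_normal_iff hpp hSh).2 hSM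
  have hKN : K ⊔ N = ⊤ := by
    have h1 : Cfsg.IsPiHallOf {p} (S : Subgroup G) (K ⊔ (S : Subgroup G)) :=
      hall_le_of_le hSh le_sup_right le_top
    have h2 := frattini_syl hpp (N := K ⊔ (S : Subgroup G)) (M := ⊤) le_top
      (by rw [Subgroup.normalizer_eq_top]) h1
    rw [top_inf_eq, sup_assoc] at h2
    rw [← h2, hN, sup_eq_right.2 (Subgroup.le_normalizer (H := (S : Subgroup G)))]
  have hUK : N ≤ Subgroup.normalizer (K : Set G) := by rw [Subgroup.normalizer_eq_top]; exact le_top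
  have hcop : ∀ X : Subgroup G, X ≤ (S : Subgroup G) → (Nat.card X).Coprime (Nat.card K) := by
    intro X hX
    have := coprime_card_of_pgroup hpp (A := K) (S.isPGroup'.to_le hX) (coprime_core p)
    exact this.symm
  have fus : ∀ (X : Subgroup G) (x : G), X ≤ (S : Subgroup G) → X ^ᵍ x ≤ (S : Subgroup G) →
      ∃ g ∈ N, ∃ c ∈ Subgroup.centralizer (X : Set G), x = g * c := by
    intro X x hX hx
    obtain ⟨u, hu, c, hc, e⟩ := prod_fusion hUK (hX.trans Subgroup.le_normalizer) (hcop X hX)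
      (Or.inl inferInstance) (g := x) (by rw [hKN]; trivial) (hx.trans Subgroup.le_normalizer)
    exact ⟨u, hu, c, hc.2, e⟩
  refine ⟨?_, ?_, ?_⟩
  · intro hS
    have := prod_der hUK (Subgroup.le_normalizer (H := (S : Subgroup G))) (hcop _ le_rfl)
    rw [hKN] at this
    have h2 : (S : Subgroup G) ⊓ ⁅(⊤ : Subgroup G), ⊤⁆ = S := inf_eq_left.2 hS
    rw [h2] at this
    rw [this]
    exact inf_le_right
  · intro Y x hY hx
    obtain ⟨g, hg, c, hc, e⟩ := fus (Subgroup.closure Y) x ((Subgroup.closure_le _).2 hY)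
      (Subgroup.map_le_iff_le_comap.2 ((Subgroup.closure_le _).2 (fun y hy => hx ⟨y, hy, rfl⟩)))
    refine ⟨g, hg, c, ?_, e.symm⟩
    exact Subgroup.centralizer_le Subgroup.subset_closure hc
  · intro Q hQ
    obtain ⟨y, -, hy⟩ := syl_subj hpp hSh (isPi_of_isPGroup hpp hQ) le_top
    obtain ⟨g, hg, c, hc, e⟩ := fus (Q ⊓ (S : Subgroup G)) y inf_le_right
      ((cj_mono inf_le_left y).trans hy)
    refine ⟨c, hc, ?_⟩
    have : c = g⁻¹ * y := by rw [e]; group
    rw [this]
    have h2 := cj_mul Q g⁻¹ y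
    refine h2.le.trans ?_
    rw [cj_le_iff, inv_inv, mem_nz.1 hg]
    exact hy


end Cfsg.Agent.S1461
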