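import Cfsg.Statements.S1464
import Cfsg.Agent.EqBase
import Cfsg.Agent.LibBGStab


set_option autoImplicit false
open Cfsg

namespace Cfsg.Agent.S1464
open CfsgLib.BGPi
open scoped CfsgLib.BGPi commutatorElement

/-- Let p be an odd prime and G a solvable group of odd order, P a p-subgroup with O_{p'}(G)P normal in G, and A a p-subgroup of N_G(P) with [[P, A], A] = 1. Then the image of A in the quotient N_G(P)/C_G(P) is contained in the p-core of that quotient. -/
theorem result {G : Type*} [Group G] [Finite G] [Group.IsSolvable G] (hodd : Odd (Nat.card G)) (p : ℕ) [Fact p.Prime] (hp : p ≠ 2) (P A : Subgroup G) (hP : IsPGroup p P) (hPn : (Cfsg.pPrimeCore p G ⊔ P).Normal)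
    (hA : IsPGroup p A) (hAN : A ≤ Subgroup.normalizer (P : Set G)) (hquad : ⁅⁅P, A⁆, A⁆ = ⊥) :
    (A.subgroupOf (Subgroup.normalizer (P : Set G))).map
        (QuotientGroup.mk' ((Subgroup.centralizer (P : Set G)).subgroupOf (Subgroup.normalizer (P : Set G))))
      ≤ Cfsg.pCore p _ := by
  set N := Subgroup.normalizer (P : Set G) with hN
  have hPN : P ≤ N := Subgroup.le_normalizer
  haveI hPn' : (P.subgroupOf N).Normal := normal_subgroupOf hPN le_rfl
  have hPp : IsPGroup p ↥(P.subgroupOf N) := isPGroup_subgroupOf hP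
  have hCeq : (Subgroup.centralizer (P : Set G)).subgroupOf N =
      Subgroup.centralizer ((P.subgroupOf N : Subgroup N) : Set N) := by
    ext x
    rw [Subgroup.mem_subgroupOf, mem_cz, mem_cz]
    constructor
    · intro h y hy
      exact Subtype.ext (h y hy)
    · intro h y hy
      exact congrArg Subtype.val (h ⟨y, hPN hy⟩ hy)
  have gen : ∀ (C : Subgroup N) [C.Normal], C = Subgroup.centralizer ((P.subgroupOf N : Subgroup N) : Set N) →
      (A.subgroupOf N).map (QuotientGroup.mk' C) ≤ Cfsg.pCore p (N ⧸ C) := by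
    rintro C _ rfl
    rintro _ ⟨x, hx, rfl⟩
    refine pstab hp (hodd.of_dvd_nat (Subgroup.card_subgroup_dvd_card N)) _ hPp ?_ ?_
    · have h1 : Subgroup.zpowers x ≤ A.subgroupOf N := by rwa [Subgroup.zpowers_le]
      exact (isPGroup_subgroupOf (M := N) hA).to_le h1
    · intro u hu
      apply Subtype.ext
      have h1 : ⁅⁅(u : G), (x : G)⁆, (x : G)⁆ ∈ ⁅⁅P, A⁆, A⁆ :=
        Subgroup.commutator_mem_commutator (Subgroup.commutator_mem_commutator hu hx) hx
      rw [hquad, Subgroup.mem_bot] at h1
      exact h1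
  exact gen _ hCeq


end Cfsg.Agent.S1464
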