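import Cfsg.Statements.S1466
import Cfsg.Agent.EqBase
import Cfsg.Agent.LibBGScn


set_option autoImplicit false
open Cfsg

namespace Cfsg.Agent.S1466
open CfsgLib.BGPi
open scoped CfsgLib.BGPi

/-- Let p be a prime and R a nontrivial finite p-group. Then for every i > 0, Z(R) ≤ C_R(L_i(R)) ≤ L_i(R); likewise Z(R) ≤ C_R(L_*(R)) ≤ L_*(R) and Z(R) ≤ C_R(L(R)) ≤ L(R); and L(R) ≠ 1, L_*(R) ≠ 1. -/
theorem result {R : Type*} [Group R] [Finite R] (p : ℕ) [Fact p.Prime] (hR : IsPGroup p R) [Nontrivial R] :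
    (∀ i : ℕ, 0 < i → Subgroup.center R ≤ Subgroup.centralizer ((Cfsg.puigSeq R i : Subgroup R) : Set R) ∧
        Subgroup.centralizer ((Cfsg.puigSeq R i : Subgroup R) : Set R) ≤ Cfsg.puigSeq R i) ∧
      (Subgroup.center R ≤ Subgroup.centralizer ((Cfsg.puigLower R : Subgroup R) : Set R) ∧ Subgroup.centralizer ((Cfsg.puigLower R : Subgroup R) : Set R) ≤ Cfsg.puigLower R) ∧
      (Subgroup.center R ≤ Subgroup.centralizer ((Cfsg.puigSubgroup R : Subgroup R) : Set R) ∧ Subgroup.centralizer ((Cfsg.puigSubgroup R : Subgroup R) : Set R) ≤ Cfsg.puigSubgroup R) ∧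
      Cfsg.puigSubgroup R ≠ ⊥ ∧ Cfsg.puigLower R ≠ ⊥ := by
  have hp : p.Prime := Fact.out
  have hZ : ∀ X : Subgroup R, Subgroup.center R ≤ Subgroup.centralizer (X : Set R) := fun X => by
    intro z hz
    rw [mem_cz]
    intro x _
    exact (Subgroup.mem_center_iff.1 hz x)
  have h1 : ∀ X : Subgroup R, Subgroup.center R ≤ Subgroup.centralizer ((Cfsg.puigStep X : Subgroup R) : Set R) ∧
      Subgroup.centralizer ((Cfsg.puigStep X : Subgroup R) : Set R) ≤ Cfsg.puigStep X :=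
    fun X => ⟨hZ _, cz_puigStep_le hp hR X⟩
  have hne : ∀ X : Subgroup R, Cfsg.puigStep X ≠ ⊥ := by
    intro X h
    have h2 := (h1 X).1.trans (h1 X).2
    rw [h, le_bot_iff] at h2
    haveI := hR.center_nontrivial
    exact (Subgroup.nontrivial_iff_ne_bot _).1 this h2
  refine ⟨fun i hi => ?_, ?_, ?_, ?_, ?_⟩
  · obtain ⟨j, rfl⟩ := Nat.exists_eq_succ_of_ne_zero hi.ne'
    exact h1 _
  · rw [← puigStep_subgroup]; exact h1 _
  · rw [← puigStep_lower]; exact h1 _
  · rw [← puigStep_lower]; exact hne _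
  · rw [← puigStep_subgroup]; exact hne _


end Cfsg.Agent.S1466
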