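import Cfsg.Statements.S1469
import Cfsg.Agent.EqBase
import Cfsg.Agent.LibBGPuig2


set_option autoImplicit false
open Cfsg

namespace Cfsg.Agent.S1469
open CfsgLib.BGPi
open scoped CfsgLib.BGPi commutatorElement

/-- Let p be an odd prime, G a solvable group of odd order and S a Sylow p-subgroup, and let Z be the centre of the Puig subgroup L(S), viewed inside G. Then G is generated by O_{p'}(G) and N_G(Z); and if O_{p'}(G) = 1 then Z is normal in G. -/
theorem result {G : Type*} [Group G] [Finite G] [Group.IsSolvable G] (hodd : Odd (Nat.card G)) (p : ℕ) [Fact p.Prime] (hp : p ≠ 2) (S : Sylow p G) :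
    Cfsg.pPrimeCore p G ⊔ Subgroup.normalizer ((((Subgroup.center ↥(Cfsg.puigSubgroup ↥(S : Subgroup G))).map (Cfsg.puigSubgroup ↥(S : Subgroup G)).subtype).map (S : Subgroup G).subtype : Subgroup G) : Set G) = ⊤ ∧
      (Cfsg.pPrimeCore p G = ⊥ → (((Subgroup.center ↥(Cfsg.puigSubgroup ↥(S : Subgroup G))).map (Cfsg.puigSubgroup ↥(S : Subgroup G)).subtype).map (S : Subgroup G).subtype).Normal) := by
  have hpp : p.Prime := Fact.out
  have hS : Cfsg.IsPiHallOf {p} (S : Subgroup G) ⊤ := hall_of_sylow S
  rw [map_center_map, map_puigSubgroup]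
  refine ⟨?_, fun hO => puig_center_normal hodd hp hO hS⟩
  set K := Cfsg.pPrimeCore p G with hK
  set π := QuotientGroup.mk' K with hπ
  have hSK : (S : Subgroup G) ⊓ π.ker = ⊥ := by
    rw [QuotientGroup.ker_mk', inf_comm]
    exact cop_inf (coprime_card_of_pgroup hpp S.isPGroup' (coprime_core p))
  have hS' := hall_map hS π
  rw [Subgroup.map_top_of_surjective _ (QuotientGroup.mk'_surjective _)] at hS'
  have hodd' : Odd (Nat.card (G ⧸ K)) := hodd.of_dvd_nat (Subgroup.card_quotient_dvd_card _)
  have h1 := puig_center_normal hodd' hp (CfsgLib.Cores.pPrimeCore_quotient_pPrimeCore p) hS'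
  rw [pgSub_map π hSK, ← zinf_map π hSK (pgSub_le_self _)] at h1
  exact sup_nz_eq_top hpp (coprime_core p)
    (S.isPGroup'.to_le (inf_le_left.trans (pgSub_le_self _))) h1


end Cfsg.Agent.S1469
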