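import Cfsg.Statements.S1475
import Cfsg.Agent.LibPGraphH12

set_option autoImplicit false
open Cfsg

namespace Cfsg.Agent.S1475


/-- Let G be a finite solvable group such that the order of every element is a prime power (1 included). Then at most two distinct primes divide the order of G. -/
theorem result {G : Type*} [Group G] [Finite G] [Group.IsSolvable G] (h : ∀ g : G, IsPrimePow (orderOf g) ∨ g = 1) :
    (Nat.card G).primeFactors.card ≤ 2 := by
  classical
  by_contra hcon
  push Not at hcon
  have hG : Group.IsSolvable G := inferInstance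
  have hpf : ∀ r ∈ (Nat.card G).primeFactors, r.Prime ∧ r ∣ Nat.card G := fun r hr => ⟨Nat.prime_of_mem_primeFactors hr, Nat.dvd_of_mem_primeFactors hr⟩
  refine (CfsgLib.PGraphH12.s3633 (Nat.card G).primeFactors (by omega) ⟨hpf, ?_⟩ (⊥ : Subgroup G) inferInstance).2 hG
  rintro r hr s hs hrs ⟨x, hx⟩
  have hrp := (hpf r hr).1
  have hsp := (hpf s hs).1
  rcases h x with h1 | h1
  · rw [hx, isPrimePow_nat_iff] at h1
    obtain ⟨p, k, hp, hk, h2⟩ := h1
    have h3 : r = p := (Nat.prime_dvd_prime_iff_eq hrp hp).1 (hrp.dvd_of_dvd_pow (h2 ▸ Dvd.intro _ rfl))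
    have h4 : s = p := (Nat.prime_dvd_prime_iff_eq hsp hp).1 (hsp.dvd_of_dvd_pow (h2 ▸ Dvd.intro_left _ rfl))
    exact hrs (h3.trans h4.symm)
  · rw [h1, orderOf_one] at hx
    have := Nat.eq_one_of_mul_eq_one_right hx.symm
    exact hrp.one_lt.ne' this
end Cfsg.Agent.S1475
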