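import Cfsg.Statements.S1486
import Cfsg.Agent.LibClifford2

set_option autoImplicit false
set_option linter.all false
open Cfsg

namespace Cfsg.Agent.S1486

open CfsgLib.Clifford

/-- Let H be a normal subgroup of the finite group G and θ, φ irreducible characters of H. If φ is a G-conjugate of θ then the functions induced from θ and φ coincide; if φ is not a G-conjugate of θ then the induced functions are orthogonal. -/
theorem result {G : Type*} [Group G] [Fintype G] (H : Subgroup G) [hN : H.Normal] (θ φ : H → ℂ) (hθ : Cfsg.IsIrrCharacter H θ) (hφ : Cfsg.IsIrrCharacter H φ) : ((∃ g : G, φ = fun h : H => θ ⟨g * h * g⁻¹, hN.conj_mem h h.2 g⟩) → Cfsg.indFun H φ = Cfsg.indFun H θ) ∧ ((¬ ∃ g : G, φ = fun h : H => θ ⟨g * h * g⁻¹, hN.conj_mem h h.2 g⟩) → Cfsg.classInner (Cfsg.indFun H φ) (Cfsg.indFun H θ) = 0) := by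
  constructor
  · rintro ⟨g, rfl⟩
    exact ind_cj hN g θ
  · intro h
    haveI := Fintype.ofFinite H
    rw [ci_ind_ind hN hφ hθ]
    have : IsEmpty {x : G // cj hN x φ = θ} := by
      refine ⟨fun ⟨x, hx⟩ => h ⟨x⁻¹, ?_⟩⟩
      have := congrArg (cj hN x⁻¹) hx
      rw [cj_cj, mul_inv_cancel, cj_one] at this
      exact this
    have h0 : Nat.card {x : G // cj hN x φ = θ} = 0 := Nat.card_of_isEmpty
    rw [h0]; simp

end Cfsg.Agent.S1486
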