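import Cfsg.Statements.S1487
import Cfsg.Agent.LibInd2

set_option autoImplicit false
set_option linter.all false
open Cfsg

namespace Cfsg.Agent.S1487

open CfsgLib.CharBasic CfsgLib.Ind2

/-- Let A ≤ H be normal subgroups of the finite group G and θ an irreducible character of H. Then θ takes the value θ 1 on all of A if and only if the function induced from θ to G takes its value at 1 on all of A. -/
theorem result {G : Type*} [Group G] [Fintype G] (A H : Subgroup G) [A.Normal] [H.Normal] (hAH : A ≤ H) (θ : H → ℂ) (hθ : Cfsg.IsIrrCharacter H θ) : (∀ a : H, (a : G) ∈ A → θ a = θ 1) ↔ (∀ a : G, a ∈ A → Cfsg.indFun H θ a = Cfsg.indFun H θ 1) := by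
  haveI := Fintype.ofFinite H
  have hχ := irr_isCharacter hθ
  have h0 := irr_one_ne_zero hθ
  constructor
  · intro h a ha
    rw [ind_ker_iff hχ h0]
    intro x
    have h1 : x⁻¹ * a * x ∈ A := by
      have := (inferInstance : A.Normal).conj_mem a ha x⁻¹
      simpa using this
    exact ⟨hAH h1, h ⟨_, hAH h1⟩ h1⟩
  · intro h a ha
    obtain ⟨h1, h2⟩ := (ind_ker_iff hχ h0 (a : G)).mp (h a ha) 1
    have e : (⟨(1 : G)⁻¹ * (a : G) * 1, h1⟩ : H) = a := Subtype.ext (by simp)
    rwa [e] at h2

end Cfsg.Agent.S1487
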