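import Cfsg.Statements.S1488
import Cfsg.Agent.LibInd2

set_option autoImplicit false
set_option linter.all false
open Cfsg

namespace Cfsg.Agent.S1488

open CfsgLib.CharBasic CfsgLib.Ind2

/-- Let A be a normal subgroup of the finite group G contained in the subgroup H, let θ be a function on H and θ₁ a function on the image of H in G ⧸ A whose composite with the projection is θ. Then the function induced from θ₁ to G ⧸ A, composed with the projection G → G ⧸ A, equals the function induced from θ to G. -/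
theorem result {G : Type*} [Group G] [Fintype G] (A H : Subgroup G) [A.Normal] (hAH : A ≤ H) [Fintype (G ⧸ A)] [Fintype ↥(H.map (QuotientGroup.mk' A))] (θ : H → ℂ) (θ₁ : ↥(H.map (QuotientGroup.mk' A)) → ℂ) (hθ : ∀ x : H, θ₁ ⟨QuotientGroup.mk' A x, Subgroup.mem_map_of_mem _ x.2⟩ = θ x) (g : G) : Cfsg.indFun (H.map (QuotientGroup.mk' A)) θ₁ (QuotientGroup.mk' A g) = Cfsg.indFun H θ g := by
  have h1 := congrFun (ind_comp (QuotientGroup.mk' A) (QuotientGroup.mk'_surjective A) (H.map (QuotientGroup.mk' A)) θ₁) g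
  rw [Function.comp_apply] at h1
  rw [h1]
  have hcomap : (H.map (QuotientGroup.mk' A)).comap (QuotientGroup.mk' A) = H := by
    rw [Subgroup.comap_map_eq_self]
    rw [QuotientGroup.ker_mk']; exact hAH
  have hcard : Nat.card ((H.map (QuotientGroup.mk' A)).comap (QuotientGroup.mk' A)) = Nat.card H := by rw [hcomap]
  unfold indFun
  rw [hcard]
  congr 1
  refine Finset.sum_congr rfl fun x _ => ?_
  by_cases hx : x⁻¹ * g * x ∈ H
  · rw [CfsgLib.CharIndA.ext_mem _ _ hx, CfsgLib.CharIndA.ext_mem _ _ (show x⁻¹ * g * x ∈ (H.map (QuotientGroup.mk' A)).comap (QuotientGroup.mk' A) by rw [hcomap]; exact hx)]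
    exact hθ ⟨_, hx⟩
  · rw [CfsgLib.CharIndA.ext_not_mem _ _ hx, CfsgLib.CharIndA.ext_not_mem _ _ (show ¬ x⁻¹ * g * x ∈ (H.map (QuotientGroup.mk' A)).comap (QuotientGroup.mk' A) by rw [hcomap]; exact hx)]

end Cfsg.Agent.S1488
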