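import Cfsg.Statements.S1491
import Mathlib
import Cfsg.Agent.LibAbCliff15
import Cfsg.Agent.LibExtend4
-- import your own Cfsg.Agent.* helpers here

set_option autoImplicit false
open Cfsg

namespace Cfsg.Agent.S1491

open CfsgLib.CharBasic CfsgLib.Extend

/-- Let H be a normal subgroup of the finite group G and θ an irreducible character of H with inertia group T, where T/H is abelian (commutators of T lie in H) and the index of H in T is coprime to the order of H. Then the function induced from θ is the sum of a set of exactly [T:H] irreducible characters of G, each of degree [G:T] * θ(1). -/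
theorem result {G : Type*} [Group G] [Fintype G] (H T : Subgroup G) [hN : H.Normal] (θ : H → ℂ) (hθ : Cfsg.IsIrrCharacter H θ) (hT : ∀ g : G, g ∈ T ↔ ∀ h : H, θ ⟨g * h * g⁻¹, hN.conj_mem h h.2 g⟩ = θ h) (hab : ∀ x ∈ T, ∀ y ∈ T, x * y * x⁻¹ * y⁻¹ ∈ H) (hcop : Nat.Coprime (Nat.card H) (H.relIndex T)) : ∃ C : Finset (G → ℂ), (∀ χ ∈ C, Cfsg.IsIrrCharacter G χ) ∧ C.card = H.relIndex T ∧ Cfsg.indFun H θ = ∑ χ ∈ C, χ ∧ ∀ χ ∈ C, χ 1 = (T.index : ℂ) * θ 1 := by
    classical
    haveI : Fintype H := Fintype.ofFinite H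
    haveI : Fintype T := Fintype.ofFinite T
    have hT' : ∀ g, g ∈ T ↔ CfsgLib.Clifford.cj hN g θ = θ := by
      intro g
      rw [hT g]
      exact ⟨fun h => funext h, fun h n => congrFun h n⟩
    have hHT : H ≤ T := fun g hg => (hT' g).2 (CfsgLib.Clifford.cj_of_mem hN hg (CfsgLib.CharBasic.irr_classFun hθ))
    obtain ⟨e, C, he, hC, hcard, hind, hdeg, he1⟩ := CfsgLib.AbCliff.ind_eq_inertia T hθ hT' hab
    haveI : (H.subgroupOf T).Normal := hN.subgroupOf T
    have hθ' : IsIrrCharacter (H.subgroupOf T) (CfsgLib.Clifford.toSub T θ) := (CfsgLib.Clifford.toSub_irr hHT).2 hθ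
    have h1 : e = 1 := by
      apply he1
      obtain ⟨d, hd0, hd⟩ := irr_one_nat hθ'
      have hinv : Inv (H.subgroupOf T) (CfsgLib.Clifford.toSub T θ) := by
        intro t n
        exact (hT (t : G)).1 t.2 ⟨((n : T) : G), Subgroup.mem_subgroupOf.mp n.2⟩
      have hidx : (H.subgroupOf T).index = H.relIndex T := rfl
      have hcardH : Nat.card (H.subgroupOf T) = Nat.card H := Nat.card_congr (Subgroup.subgroupOfEquivOfLe hHT).toEquiv
      have hdH : d ∣ Nat.card H := by
        have h2 := CfsgLib.CharInt2.charDegree_dvd_card hθ'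
        rw [hcardH] at h2
        have h3 : (charDegree (CfsgLib.Clifford.toSub T θ) : ℂ) = (d : ℂ) := by
          rw [← hd, CfsgLib.CharInt.irr_one_eq_charDegree hθ']
        have h4 : charDegree (CfsgLib.Clifford.toSub T θ) = d := by exact_mod_cast h3
        rwa [h4] at h2
      have hoH : detOrder (CfsgLib.Clifford.toSub T θ) ∣ Nat.card H := by
        obtain ⟨f, hf⟩ := detChar_irr hθ'
        unfold detOrder
        apply orderOf_dvd_of_pow_eq_one
        rw [hf]
        ext x
        simp only [Pi.pow_apply, Pi.one_apply]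
        rw [← Units.val_pow_eq_pow_val, ← map_pow, ← hcardH, pow_card_eq_one', map_one, Units.val_one]
      have hcop' : Nat.Coprime (H.subgroupOf T).index (detOrder (CfsgLib.Clifford.toSub T θ) * d) := by
        rw [hidx]
        exact Nat.Coprime.mul_right (Nat.Coprime.coprime_dvd_right hoH hcop.symm)
          (Nat.Coprime.coprime_dvd_right hdH hcop.symm)
      obtain ⟨χ, ⟨hχ, hext, -⟩, -⟩ := ext_coprime hθ' hinv d hd hcop'
      exact ⟨χ, hχ, fun n h => hext ⟨⟨n, h⟩, Subgroup.mem_subgroupOf.2 n.2⟩⟩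
    subst h1
    refine ⟨C, hC, ?_, ?_, ?_⟩
    · rw [← hcard]; ring
    · rw [hind, Nat.cast_one, one_smul]
    · intro χ hχ
      rw [hdeg χ hχ]; push_cast; ring

end Cfsg.Agent.S1491
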