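import Cfsg.Statements.S1492
import Cfsg.Agent.LibInd2

set_option autoImplicit false
set_option linter.all false
open Cfsg

namespace Cfsg.Agent.S1492

open CfsgLib.CharBasic CfsgLib.Ind2

/-- Let ψ be an irreducible character of the finite group G and B ≤ D ≤ C subgroups with B normal in C, every commutator of an element of D with an element of C lying in B (so D/B is central in C/B), and ψ constant equal to ψ 1 on B. Then ψ(1) ^ 2 * |C| * |D| ≤ |G| ^ 2. -/
theorem result {G : Type*} [Group G] [Finite G] (ψ : G → ℂ) (hψ : Cfsg.IsIrrCharacter G ψ) (B C D : Subgroup G) (hBD : B ≤ D) (hDC : D ≤ C) (hBn : ∀ c ∈ C, ∀ b ∈ B, c * b * c⁻¹ ∈ B) (hcent : ∀ d ∈ D, ∀ c ∈ C, d * c * d⁻¹ * c⁻¹ ∈ B) (hker : ∀ b ∈ B, ψ b = ψ 1) : ‖ψ 1‖ ^ 2 * (Nat.card C : ℝ) * (Nat.card D : ℝ) ≤ (Nat.card G : ℝ) ^ 2 := by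
  classical
  haveI := Fintype.ofFinite G
  haveI := Fintype.ofFinite C
  obtain ⟨ξ, hξ, hm⟩ := CfsgLib.Clifford.exists_below C hψ
  have hψd := CfsgLib.CharInt.irr_one_eq_charDegree hψ
  have hξd := CfsgLib.CharInt.irr_one_eq_charDegree hξ
  have h1 : classInner (indFun C ξ) ψ ≠ 0 := by
    rw [CfsgLib.CharIndA.frobenius C _ (irr_classFun hψ)]
    intro h
    exact hm (CfsgLib.CharNorm.ci_zero_comm h)
  have hle : charDegree ψ ≤ C.index * charDegree ξ :=
    CfsgLib.CharMore.degree_le_of_mult (CfsgLib.CharIndA.isCharacter_ind C (irr_isCharacter hξ)) hψ h1 hψd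
      (by rw [CfsgLib.CharIndA.ind_one, hξd]; push_cast; ring)
  have hsq := sq_degree_mul_le hξ (D.subgroupOf C) (by
    intro d hd
    apply scalar_of_comm_mod_ker hξ
    intro c
    have h2 := hcent d (Subgroup.mem_subgroupOf.mp hd) c c.2
    exact ker_constituent (isCharacter_restrict (irr_isCharacter hψ) C) hξ hm (g := d * c * d⁻¹ * c⁻¹) (hker _ h2))
  have hcardD : Nat.card (D.subgroupOf C) = Nat.card D := Nat.card_congr (Subgroup.subgroupOfEquivOfLe hDC).toEquiv
  rw [hcardD] at hsq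
  have hCG := Subgroup.card_mul_index C
  have hfin : charDegree ψ ^ 2 * Nat.card C * Nat.card D ≤ Nat.card G ^ 2 := by
    calc charDegree ψ ^ 2 * Nat.card C * Nat.card D ≤ (C.index * charDegree ξ) ^ 2 * Nat.card C * Nat.card D := by
          gcongr
      _ = C.index ^ 2 * Nat.card C * (charDegree ξ ^ 2 * Nat.card D) := by ring
      _ ≤ C.index ^ 2 * Nat.card C * Nat.card C := by gcongr
      _ = (Nat.card C * C.index) ^ 2 := by ring
      _ = _ := by rw [hCG]
  rw [hψd, Complex.norm_natCast]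
  exact_mod_cast hfin

end Cfsg.Agent.S1492
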