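import Cfsg.Statements.S1494
import Cfsg.Agent.LibInd2

set_option autoImplicit false
set_option linter.all false
open Cfsg

namespace Cfsg.Agent.S1494

open CfsgLib.CharBasic

theorem aux {A : Type*} [Group A] [Finite A] (hab : ∀ a b : A, a * b = b * a) (χ : A → ℂ) (hχ : IsCharacter A χ)
    (p : ℕ) (hp : p.Prime) (x y : A) (hx : x ^ p = 1) :
    ∃ ω : ℂ, IsIntegral ℤ ω ∧ χ (x * y) - χ y = (1 - Complex.exp (2 * Real.pi * Complex.I / p)) * ω := by
  classical
  haveI := Fintype.ofFinite A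
  obtain ⟨m, -, hexp, -⟩ := char_expand hχ
  haveI : NeZero p := ⟨hp.ne_zero⟩
  have hζ : IsPrimitiveRoot (Complex.exp (2 * Real.pi * Complex.I / p)) p := Complex.isPrimitiveRoot_exp _ hp.ne_zero
  set ζ := Complex.exp (2 * Real.pi * Complex.I / p)
  have hζint : IsIntegral ℤ ζ := hζ.isIntegral hp.pos
  have h1 : ∀ ψ : IrrCharacter A, ∃ ω : ℂ, IsIntegral ℤ ω ∧ (ψ : A → ℂ) (x * y) - (ψ : A → ℂ) y = (1 - ζ) * ω := by
    intro ψ
    obtain ⟨f, hf⟩ := irr_hom_of_comm hab ψ.2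
    have hfx : ((f x : ℂˣ) : ℂ) ^ p = 1 := by
      rw [← Units.val_pow_eq_pow_val, ← map_pow, hx, map_one]; rfl
    obtain ⟨j, -, hj⟩ := hζ.eq_pow_of_pow_eq_one hfx
    refine ⟨-(∑ i ∈ Finset.range j, ζ ^ i) * (ψ : A → ℂ) y, ?_, ?_⟩
    · apply IsIntegral.mul
      · apply IsIntegral.neg
        exact IsIntegral.sum _ fun i _ => hζint.pow i
      · exact char_isIntegral (irr_isCharacter ψ.2) y
    · have h2 : (ψ : A → ℂ) (x * y) = ζ ^ j * (ψ : A → ℂ) y := by
        rw [hf, hf, map_mul, hj]; rfl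
      rw [h2]
      have h3 := geom_sum_mul ζ j
      linear_combination (-(ψ : A → ℂ) y) * h3
  choose ω hω1 hω2 using h1
  refine ⟨∑ ψ, (m ψ : ℂ) * ω ψ, ?_, ?_⟩
  · exact IsIntegral.sum _ fun ψ _ => (isIntegral_algebraMap (R := ℤ) (A := ℂ) (x := (m ψ : ℤ))).mul (hω1 ψ) |> fun h => by simpa using h
  · rw [hexp]
    simp only [Finset.sum_apply, Pi.smul_apply, smul_eq_mul]
    rw [← Finset.sum_sub_distrib, Finset.mul_sum]
    refine Finset.sum_congr rfl fun ψ _ => ?_
    rw [← mul_sub, hω2]; ring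

/-- Let χ be a generalized character of the finite group G, p a prime, x an element of order p and y an element commuting with x. Then χ(x * y) − χ(y) = (1 − ε) * ω for some algebraic integer ω, where ε = exp(2πi/p). -/
theorem result {G : Type*} [Group G] [Finite G] (χ : G → ℂ) (hχ : Cfsg.IsGeneralizedCharacter G χ) (p : ℕ) (hp : p.Prime) (x y : G) (hx : orderOf x = p) (hxy : x * y = y * x) : ∃ ω : ℂ, IsIntegral ℤ ω ∧ χ (x * y) - χ y = (1 - Complex.exp (2 * Real.pi * Complex.I / p)) * ω := by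
  classical
  obtain ⟨α, β, hα, hβ, rfl⟩ := hχ
  let A : Subgroup G := Subgroup.closure {x, y}
  have hxA : x ∈ A := Subgroup.subset_closure (by simp)
  have hyA : y ∈ A := Subgroup.subset_closure (by simp)
  have hab : ∀ a b : A, a * b = b * a := by
    have hcomm : ∀ a ∈ ({x, y} : Set G), ∀ b ∈ ({x, y} : Set G), a * b = b * a := by
      rintro a (rfl | rfl) b (rfl | rfl)
      · rfl
      · exact hxy
      · exact hxy.symm
      · rfl
    letI := Subgroup.closureCommGroupOfComm hcomm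
    intro a b
    exact mul_comm a b
  have hx' : (⟨x, hxA⟩ : A) ^ p = 1 := by
    apply Subtype.ext
    simp only [Subgroup.coe_pow, Subgroup.coe_one]
    rw [← hx, pow_orderOf_eq_one]
  obtain ⟨ω1, h1, h1'⟩ := aux hab _ (isCharacter_restrict hα A) p hp ⟨x, hxA⟩ ⟨y, hyA⟩ hx'
  obtain ⟨ω2, h2, h2'⟩ := aux hab _ (isCharacter_restrict hβ A) p hp ⟨x, hxA⟩ ⟨y, hyA⟩ hx'
  refine ⟨ω1 - ω2, h1.sub h2, ?_⟩
  simp only [Subgroup.coe_mul] at h1' h2'
  simp only [Pi.sub_apply]
  linear_combination h1' - h2'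

end Cfsg.Agent.S1494
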