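import Cfsg.Statements.S1495
import Cfsg.Agent.LibCharInt2

set_option autoImplicit false
set_option linter.all false
open Cfsg

namespace Cfsg.Agent.S1495

/-- Let p be a prime, ε = exp(2πi/p), and n an integer such that n = (1 − ε) * ω for some algebraic integer ω. Then p divides n. -/
theorem result (p : ℕ) (hp : p.Prime) (n : ℤ) (ω : ℂ) (hω : IsIntegral ℤ ω) (h : (n : ℂ) = (1 - Complex.exp (2 * Real.pi * Complex.I / p)) * ω) : (p : ℤ) ∣ n := by
  classical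
  haveI : NeZero p := ⟨hp.ne_zero⟩
  haveI : Fact p.Prime := ⟨hp⟩
  have hζ : IsPrimitiveRoot (Complex.exp (2 * Real.pi * Complex.I / p)) p := Complex.isPrimitiveRoot_exp _ hp.ne_zero
  set ζ := Complex.exp (2 * Real.pi * Complex.I / p)
  have hζint : IsIntegral ℤ ζ := hζ.isIntegral hp.pos
  have hprod : (p : ℂ) = ∏ μ ∈ primitiveRoots p ℂ, (1 - μ) := by
    have h1 := Polynomial.eval_one_cyclotomic_prime (R := ℂ) (p := p)
    rw [Polynomial.cyclotomic_eq_prod_X_sub_primitiveRoots hζ, Polynomial.eval_prod] at h1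
    rw [← h1]
    simp
  by_contra hpn
  have hcop : IsCoprime (p : ℤ) n := (Nat.prime_iff_prime_int.mp hp).coprime_iff_not_dvd.mpr hpn
  obtain ⟨u, v, huv⟩ := hcop
  have hζmem : ζ ∈ primitiveRoots p ℂ := (mem_primitiveRoots hp.pos).mpr hζ
  have hp1 : (p : ℂ) = (1 - ζ) * ∏ μ ∈ (primitiveRoots p ℂ).erase ζ, (1 - μ) := by
    rw [hprod, ← Finset.mul_prod_erase _ _ hζmem]
  have hint1 : ∀ μ ∈ primitiveRoots p ℂ, IsIntegral ℤ μ := fun μ hμ => ((mem_primitiveRoots hp.pos).mp hμ).isIntegral hp.pos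
  have hP : IsIntegral ℤ (∏ μ ∈ (primitiveRoots p ℂ).erase ζ, (1 - μ)) :=
    IsIntegral.prod _ fun μ hμ => isIntegral_one.sub (hint1 μ (Finset.mem_of_mem_erase hμ))
  -- (1-ζ) is a unit
  have hcast : (u : ℂ) * p + v * n = 1 := by exact_mod_cast huv
  have hunit : (1 - ζ) * ((u : ℂ) * (∏ μ ∈ (primitiveRoots p ℂ).erase ζ, (1 - μ)) + v * ω) = 1 := by
    linear_combination hcast - u * hp1 - v * h
  set w := ((u : ℂ) * (∏ μ ∈ (primitiveRoots p ℂ).erase ζ, (1 - μ)) + v * ω) with hw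
  have hI : ∀ k : ℤ, IsIntegral ℤ (k : ℂ) := fun k => by simpa using isIntegral_algebraMap (R := ℤ) (A := ℂ) (x := k)
  have hwint : IsIntegral ℤ w := ((hI u).mul hP).add ((hI v).mul hω)
  have hinv : ∀ μ ∈ primitiveRoots p ℂ, ∃ z : ℂ, IsIntegral ℤ z ∧ (1 - μ) * z = 1 := by
    intro μ hμ
    have hμ' := (mem_primitiveRoots hp.pos).mp hμ
    obtain ⟨j, -, hj⟩ := hμ'.eq_pow_of_pow_eq_one hζ.pow_eq_one
    refine ⟨(∑ i ∈ Finset.range j, μ ^ i) * w, ?_, ?_⟩
    · exact (IsIntegral.sum _ fun i _ => (hint1 μ hμ).pow i).mul hwint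
    · have h3 := geom_sum_mul μ j
      rw [hj] at h3
      linear_combination hunit - w * h3
  choose! z hz1 hz2 using hinv
  have hfin : (p : ℂ) * ∏ μ ∈ primitiveRoots p ℂ, z μ = 1 := by
    rw [hprod, ← Finset.prod_mul_distrib]
    exact Finset.prod_eq_one fun μ hμ => hz2 μ hμ
  have hinvp : IsIntegral ℤ ((1 : ℕ) / (p : ℂ)) := by
    have : ((1 : ℕ) : ℂ) / (p : ℂ) = ∏ μ ∈ primitiveRoots p ℂ, z μ := by
      have hp0 : (p : ℂ) ≠ 0 := by exact_mod_cast hp.ne_zero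
      field_simp
      rw [hfin]; simp
    rw [this]
    exact IsIntegral.prod _ fun μ hμ => hz1 μ hμ
  have := CfsgLib.CharInt2.div_isIntegral hp.ne_zero hinvp
  exact hp.one_lt.ne' (Nat.dvd_one.mp this)

end Cfsg.Agent.S1495
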