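import Cfsg.Statements.S1497
import Cfsg.Agent.LibDade

set_option autoImplicit false
set_option linter.all false
open Cfsg

namespace Cfsg.Agent.S1497

open CfsgLib.Dade

/-- Let A be a nonempty subset of the finite group G not containing 1 and L a subgroup. Then A is a TI-subset whose normaliser is L if and only if the Dade hypothesis holds for A, L and the constant choice H(a) = ⊥. -/
theorem result {G : Type*} [Group G] [Finite G] (A : Set G) (hA : A.Nonempty) (h1 : (1 : G) ∉ A) (L : Subgroup G) : (Cfsg.IsTISubset A ∧ Subgroup.normalizer A = L) ↔ Cfsg.DadeHypothesis A L (fun _ => ⊥) := by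
  constructor
  · rintro ⟨hTI, hN⟩
    have hconj : ∀ x ∈ L, ∀ a ∈ A, x * a * x⁻¹ ∈ A := by
      intro x hx a ha
      rw [← hN] at hx
      exact (Subgroup.mem_set_normalizer_iff.mp hx a).mp ha
    have hsub : A ⊆ (L : Set G) := by
      intro a ha
      by_contra hL
      have hL' : a ∉ Subgroup.normalizer A := by rw [hN]; exact hL
      have := hTI a hL' a ha (by have : a * a * a⁻¹ = a := by group
                                 rw [this]; exact ha)
      rw [this] at ha; exact h1 ha
    have hcL : ∀ a ∈ A, Subgroup.centralizer ({a} : Set G) ≤ L := by
      intro a ha g hg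
      by_contra hL
      have hL' : g ∉ Subgroup.normalizer A := by rw [hN]; exact hL
      have hga : g * a * g⁻¹ = a := by
        rw [Subgroup.mem_centralizer_singleton_iff.mp hg]; group
      have := hTI g hL' a ha (by rw [hga]; exact ha)
      rw [this] at ha; exact h1 ha
    exact 
      { one_not_mem := h1
        subset := hsub
        conj_mem := hconj
        fusion := by
          intro a ha g hg
          by_cases hL : g ∈ L
          · exact ⟨g, hL, rfl⟩
          · exfalso
            have hL' : g ∉ Subgroup.normalizer A := by rw [hN]; exact hL
            have := hTI g hL' a ha hg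
            rw [this] at ha; exact h1 ha
        le_centralizer := fun a _ => bot_le
        conj_mem_H := by
          intro a _ c _ u hu
          rw [Subgroup.mem_bot] at hu ⊢
          rw [hu]; group
        inf_eq_bot := fun a _ => bot_inf_eq _
        sup_eq := by
          intro a ha
          rw [bot_sup_eq, inf_eq_right]
          exact hcL a ha
        coprime := by
          intro a _ b _
          rw [Subgroup.card_bot]
          exact Nat.coprime_one_left _ }
  · intro hD
    have hcL : ∀ a ∈ A, Subgroup.centralizer ({a} : Set G) ≤ L := by
      intro a ha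
      have := hD.sup_eq a ha
      rw [bot_sup_eq] at this
      rw [← this]; exact inf_le_left
    have hin : ∀ a ∈ A, ∀ g : G, g * a * g⁻¹ ∈ A → g ∈ L := by
      intro a ha g hg
      obtain ⟨x, hx, hx'⟩ := hD.fusion a ha g hg
      have hc : x⁻¹ * g ∈ Subgroup.centralizer ({a} : Set G) := by
        rw [Subgroup.mem_centralizer_singleton_iff]
        have e : g * a = x * a * x⁻¹ * g := by rw [hx']; group
        calc x⁻¹ * g * a = x⁻¹ * (g * a) := by group
          _ = _ := by rw [e]; group
      have := L.mul_mem hx (hcL a ha hc)
      have e : x * (x⁻¹ * g) = g := by group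
      rwa [e] at this
    have hN : Subgroup.normalizer A = L := by
      ext g
      constructor
      · intro hg
        obtain ⟨a, ha⟩ := hA
        exact hin a ha g ((Subgroup.mem_set_normalizer_iff.mp hg a).mp ha)
      · intro hg
        rw [Subgroup.mem_set_normalizer_iff]
        intro h
        refine ⟨fun hh => hD.conj_mem g hg h hh, fun hh => ?_⟩
        have := hD.conj_mem g⁻¹ (L.inv_mem hg) _ hh
        have e : g⁻¹ * (g * h * g⁻¹) * g⁻¹⁻¹ = h := by group
        rwa [e] at this
    refine ⟨fun g hg a ha hga => ?_, hN⟩
    exfalso
    apply hg
    rw [hN]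
    exact hin a ha g hga

end Cfsg.Agent.S1497
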