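import Cfsg.Statements.S1498
import Cfsg.Agent.LibDade

set_option autoImplicit false
set_option linter.all false
open Cfsg

namespace Cfsg.Agent.S1498

open CfsgLib.Dade

/-- Under the Dade hypothesis for (A, L, H): for a ∈ A and x ∈ L, the subgroup attached to x * a * x⁻¹ is the conjugate of H a by x. -/
theorem result {G : Type*} [Group G] [Finite G] (A : Set G) (L : Subgroup G) (H : G → Subgroup G) (hD : Cfsg.DadeHypothesis A L H) (a : G) (ha : a ∈ A) (x : G) (hx : x ∈ L) : H (x * a * x⁻¹) = (H a).map (MulAut.conj x).toMonoidHom := by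
  have hb : x * a * x⁻¹ ∈ A := hD.conj_mem x hx a ha
  ext u
  constructor
  · intro hu
    refine ⟨x⁻¹ * u * x, ?_, ?_⟩
    · have := (conj_H_mem_iff hD ha hb (g := x) rfl (u := x⁻¹ * u * x)).mp (by
        have e : x * (x⁻¹ * u * x) * x⁻¹ = u := by group
        rw [e]; exact hu)
      exact this
    · simp only [MulEquiv.toMonoidHom_eq_coe, MonoidHom.coe_coe, MulAut.conj_apply]
      group
  · rintro ⟨v, hv, rfl⟩
    exact conj_H_mem hD ha hb rfl hv

end Cfsg.Agent.S1498
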