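import Cfsg.Statements.S1499
import Cfsg.Agent.LibDade

set_option autoImplicit false
set_option linter.all false
open Cfsg

namespace Cfsg.Agent.S1499

open CfsgLib.Dade

/-- Under the Dade hypothesis for (A, L, H), let a, b ∈ A. If an element of the coset a·H(a) is conjugate in G to an element of b·H(b), then a and b are conjugate by an element of L. Moreover the set normaliser of the coset a·H(a) is the centraliser of a. -/
theorem result {G : Type*} [Group G] [Finite G] (A : Set G) (L : Subgroup G) (H : G → Subgroup G) (hD : Cfsg.DadeHypothesis A L H) (a b : G) (ha : a ∈ A) (hb : b ∈ A) : ((∃ u ∈ H a, ∃ v ∈ H b, ∃ g : G, g * (a * u) * g⁻¹ = b * v) → ∃ x ∈ L, x * a * x⁻¹ = b) ∧ Subgroup.normalizer ((fun u : G => a * u) '' (H a : Set G)) = Subgroup.centralizer ({a} : Set G) := by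
  constructor
  · rintro ⟨u, hu, v, hv, g, h⟩
    have h1 := (key hD ha hb hu hv h).1
    obtain ⟨x, hx, hx'⟩ := hD.fusion a ha g (by rw [h1]; exact hb)
    exact ⟨x, hx, by rw [hx', h1]⟩
  · ext g
    constructor
    · intro hg
      have h1 := (Subgroup.mem_set_normalizer_iff.mp hg a).mp ⟨1, (H a).one_mem, by simp⟩
      obtain ⟨v, hv, hv'⟩ := h1
      have h2 : g * (a * 1) * g⁻¹ = a * v := by rw [mul_one]; exact hv'.symm
      have h3 := (key hD ha ha (H a).one_mem hv h2).1
      rw [Subgroup.mem_centralizer_singleton_iff]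
      rw [mul_inv_eq_iff_eq_mul] at h3
      exact h3
    · intro hg
      have hc : g * a = a * g := Subgroup.mem_centralizer_singleton_iff.mp hg
      have hca : g * a * g⁻¹ = a := by rw [hc]; group
      rw [Subgroup.mem_set_normalizer_iff]
      intro y
      constructor
      · rintro ⟨u, hu, rfl⟩
        refine ⟨g * u * g⁻¹, conj_H_mem hD ha ha hca hu, ?_⟩
        simp only
        calc a * (g * u * g⁻¹) = (g * a * g⁻¹) * (g * u * g⁻¹) := by rw [hca]
          _ = _ := by group
      · rintro ⟨u, hu, hu'⟩
        refine ⟨g⁻¹ * u * g, ?_, ?_⟩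
        · exact (conj_H_mem_iff hD ha ha hca).mp (by
            have e : g * (g⁻¹ * u * g) * g⁻¹ = u := by group
            rw [e]; exact hu)
        · simp only at hu' ⊢
          have e : y = g⁻¹ * (a * u) * g := by rw [hu']; group
          rw [e]
          calc a * (g⁻¹ * u * g) = g⁻¹ * (g * a * g⁻¹ * u) * g := by group
            _ = _ := by rw [hca]

end Cfsg.Agent.S1499
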