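import Cfsg.Statements.S1504
import Cfsg.Agent.LibCyc

set_option autoImplicit false
set_option linter.all false
open Cfsg

namespace Cfsg.Agent.S1504

open CfsgLib.CharBasic CfsgLib.CharIndA CfsgLib.CharNorm CfsgLib.Cyc

/-- Let W₁, W₂ be subgroups of a finite group with W₁ ⊓ W₂ = ⊥ whose elements commute, and W = W₁ ⊔ W₂. For linear characters φ, ψ of W with φ trivial on W₂ and ψ trivial on W₁, the function (1 − φ)(1 − ψ) vanishes on W₁ ∪ W₂; and the family of these functions, indexed by pairs (φ, ψ) with φ ≠ 1 ≠ ψ, is linearly independent over ℂ. -/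
theorem result {G : Type*} [Group G] [Finite G] (W₁ W₂ : Subgroup G) (hdisj : W₁ ⊓ W₂ = ⊥) (hcomm : ∀ a ∈ W₁, ∀ b ∈ W₂, a * b = b * a) : (∀ φ ψ : ↥(W₁ ⊔ W₂) →* ℂˣ, (∀ w : ↥(W₁ ⊔ W₂), (w : G) ∈ W₂ → φ w = 1) → (∀ w : ↥(W₁ ⊔ W₂), (w : G) ∈ W₁ → ψ w = 1) → ∀ w : ↥(W₁ ⊔ W₂), ((w : G) ∈ W₁ ∨ (w : G) ∈ W₂) → (1 - (φ w : ℂ) - (ψ w : ℂ) + (φ w : ℂ) * (ψ w : ℂ)) = 0) ∧ LinearIndependent ℂ (fun p : {p : (↥(W₁ ⊔ W₂) →* ℂˣ) × (↥(W₁ ⊔ W₂) →* ℂˣ) // p.1 ≠ 1 ∧ p.2 ≠ 1 ∧ (∀ w : ↥(W₁ ⊔ W₂), (w : G) ∈ W₂ → p.1 w = 1) ∧ (∀ w : ↥(W₁ ⊔ W₂), (w : G) ∈ W₁ → p.2 w = 1)} => fun w : ↥(W₁ ⊔ W₂) => 1 - (p.1.1 w : ℂ) - (p.1.2 w : ℂ) + (p.1.1 w : ℂ) * (p.1.2 w : ℂ)) := by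
  haveI := Fintype.ofFinite G
  haveI : Fintype ↥(W₁ ⊔ W₂) := Fintype.ofFinite _
  constructor
  · intro φ ψ h1 h2 w hw
    exact al_zero (W₁ := W₁) (W₂ := W₂) h1 h2 w hw
  · classical
    rw [linearIndependent_iff']
    intro s c hc p hp
    have h1 : ∀ q : {p : (↥(W₁ ⊔ W₂) →* ℂˣ) × (↥(W₁ ⊔ W₂) →* ℂˣ) // p.1 ≠ 1 ∧ p.2 ≠ 1 ∧ (∀ w : ↥(W₁ ⊔ W₂), (w : G) ∈ W₂ → p.1 w = 1) ∧ (∀ w : ↥(W₁ ⊔ W₂), (w : G) ∈ W₁ → p.2 w = 1)},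
        classInner (al q.1.1 q.1.2) (fun w => ((p.1.1 * p.1.2) w : ℂ)) = if q = p then 1 else 0 := by
      intro q
      obtain ⟨⟨φ, ψ⟩, hφ, hψ, t1, t2⟩ := q
      obtain ⟨⟨φ', ψ'⟩, hφ', hψ', t1', t2'⟩ := p
      simp only at hφ hψ t1 t2 hφ' hψ' t1' t2' ⊢
      have u1 : Tr (W₁ ⊔ W₂) W₂ (1 : ↥(W₁ ⊔ W₂) →* ℂˣ) := Tr.one
      have u2 : Tr (W₁ ⊔ W₂) W₁ (1 : ↥(W₁ ⊔ W₂) →* ℂˣ) := Tr.one
      rw [al_inner_hom]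
      have e2 : (1 : ↥(W₁ ⊔ W₂) →* ℂˣ) ≠ φ' * ψ' := fun h =>
        hφ' (prod_inj hdisj hcomm t1' u1 t2' u2 (h.symm.trans (one_mul (1 : ↥(W₁ ⊔ W₂) →* ℂˣ)).symm)).1
      have e5 : φ ≠ φ' * ψ' := fun h => hψ' (prod_inj hdisj hcomm t1 t1' u2 t2' ((mul_one φ).trans h)).2.symm
      have e6 : ψ ≠ φ' * ψ' := fun h => hφ' (prod_inj hdisj hcomm u1 t1' t2 t2' ((one_mul ψ).trans h)).1.symm
      rw [if_neg e2, if_neg e5, if_neg e6]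
      by_cases h : φ * ψ = φ' * ψ'
      · obtain ⟨h1, h2⟩ := prod_inj hdisj hcomm t1 t1' t2 t2' h
        subst h1; subst h2
        simp
      · rw [if_neg h, if_neg]
        · ring
        · intro h'
          apply h
          have := congrArg Subtype.val h'
          simp only [Prod.mk.injEq] at this
          rw [this.1, this.2]
    have h2 := congrArg (fun f => classInner f (fun w => ((p.1.1 * p.1.2) w : ℂ))) hc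
    beta_reduce at h2
    rw [ci_zero_l, ci_sum_l] at h2
    have h3 : ∀ q ∈ s, classInner (c q • fun w : ↥(W₁ ⊔ W₂) => 1 - (q.1.1 w : ℂ) - (q.1.2 w : ℂ) + (q.1.1 w : ℂ) * (q.1.2 w : ℂ))
        (fun w => ((p.1.1 * p.1.2) w : ℂ)) = c q * (if q = p then 1 else 0) := by
      intro q _
      rw [← h1 q]
      exact ci_smul_l _ _ _
    rw [Finset.sum_congr rfl h3] at h2
    simpa [hp] using h2

end Cfsg.Agent.S1504
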