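import Cfsg.Statements.S1507
import Cfsg.Agent.LibCyc2

set_option autoImplicit false
set_option linter.all false
open Cfsg

namespace Cfsg.Agent.S1507

open CfsgLib.CharBasic CfsgLib.CharIndA CfsgLib.CharNorm CfsgLib.Cyc

theorem alt {H : Type*} [CommGroup H] [Finite H] (P Q : Subgroup H) (hd : P ⊓ Q = ⊥)
    (hm : ∀ ω : H, ∃ φ ∈ P, ∃ ψ ∈ Q, φ * ψ = ω) (a : H → ℂ) (ha : ∀ φ ∈ P, ∀ ψ ∈ Q, a (φ * ψ) = a φ)
    (hcard : Nat.card {ω : H // a ω ≠ 0} < 2 * Nat.card Q) :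
    (∀ ω, a ω = 0) ∨ ∃ (φ₀ : H) (c : ℂ), (∀ ω, ω * φ₀⁻¹ ∈ Q → a ω = c) ∧ ∀ ω, ω * φ₀⁻¹ ∉ Q → a ω = 0 := by
  classical
  by_cases h0 : ∀ ω, a ω = 0
  · exact Or.inl h0
  right
  push Not at h0
  obtain ⟨ω₀, hω₀⟩ := h0
  obtain ⟨φ₀, hφ₀, ψ₀, hψ₀, rfl⟩ := hm ω₀
  rw [ha φ₀ hφ₀ ψ₀ hψ₀] at hω₀
  have huniq : ∀ φ ∈ P, φ ≠ φ₀ → a φ = 0 := by
    intro φ hφ hne
    by_contra hcon
    have hinj : Function.Injective (fun x : Q ⊕ Q => (match x with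
        | Sum.inl ψ => ⟨φ₀ * ψ, by rw [ha φ₀ hφ₀ ψ ψ.2]; exact hω₀⟩
        | Sum.inr ψ => ⟨φ * ψ, by rw [ha φ hφ ψ ψ.2]; exact hcon⟩ : {ω : H // a ω ≠ 0})) := by
      have hX : ∀ ψ ψ' : Q, φ₀ * ψ ≠ φ * ψ' := by
        intro ψ ψ' h
        apply hne
        have h1 : φ * φ₀⁻¹ = ψ * (ψ' : H)⁻¹ := by
          have h2 : φ = φ₀ * ψ * (ψ' : H)⁻¹ := by rw [h]; group
          rw [mul_inv_eq_iff_eq_mul, h2, mul_assoc, mul_comm]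
        have h3 : φ * φ₀⁻¹ ∈ P ⊓ Q := ⟨P.mul_mem hφ (P.inv_mem hφ₀), by rw [h1]; exact Q.mul_mem ψ.2 (Q.inv_mem ψ'.2)⟩
        rw [hd, Subgroup.mem_bot] at h3
        exact mul_inv_eq_one.mp h3
      rintro (ψ | ψ) (ψ' | ψ') h
      · have := congrArg Subtype.val h
        simp only [mul_right_inj] at this
        rw [Subtype.ext this]
      · exact (hX ψ ψ' (congrArg Subtype.val h)).elim
      · exact (hX ψ' ψ (congrArg Subtype.val h).symm).elim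
      · have := congrArg Subtype.val h
        simp only [mul_right_inj] at this
        rw [Subtype.ext this]
    have := Nat.card_le_card_of_injective _ hinj
    rw [Nat.card_sum] at this
    omega
  refine ⟨φ₀, a φ₀, fun ω hω => ?_, fun ω hω => ?_⟩
  · have := ha φ₀ hφ₀ _ hω
    rwa [mul_comm ω, mul_inv_cancel_left] at this
  · obtain ⟨φ, hφ, ψ, hψ, rfl⟩ := hm ω
    rw [ha φ hφ ψ hψ]
    apply huniq φ hφ
    rintro rfl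
    apply hω
    rw [mul_comm φ, mul_inv_cancel_right]
    exact hψ

theorem count {H : Type*} [CommGroup H] [Finite H] (P Q : Subgroup H) (hd : P ⊓ Q = ⊥)
    (a : H → ℂ) (ha : ∀ φ ∈ P, ∀ ψ ∈ Q, a (φ * ψ) = a φ + a ψ - a 1)
    {φ₁ φ₂ ψ₁ ψ₂ : H} (hφ₁ : φ₁ ∈ P) (hφ₂ : φ₂ ∈ P) (hψ₁ : ψ₁ ∈ Q) (hψ₂ : ψ₂ ∈ Q) (h1 : a φ₁ ≠ a φ₂) (h2 : a ψ₁ ≠ a ψ₂) :
    Nat.card Q + Nat.card P ≤ Nat.card {ω : H // a ω ≠ 0} + 2 := by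
  classical
  haveI := Fintype.ofFinite P
  have hX : ∀ φ ∈ P, ∀ φ' ∈ P, ∀ ψ ∈ Q, ∀ ψ' ∈ Q, φ * ψ = φ' * ψ' → φ = φ' ∧ ψ = ψ' := by
    intro φ hφ φ' hφ' ψ hψ ψ' hψ' h
    have e1 : φ * φ'⁻¹ = ψ' * ψ⁻¹ := by
      have h2 : φ = φ' * ψ' * ψ⁻¹ := by rw [← h]; group
      rw [mul_inv_eq_iff_eq_mul, h2, mul_assoc, mul_comm]
    have h3 : φ * φ'⁻¹ ∈ P ⊓ Q := ⟨P.mul_mem hφ (P.inv_mem hφ'), by rw [e1]; exact Q.mul_mem hψ' (Q.inv_mem hψ)⟩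
    rw [hd, Subgroup.mem_bot] at h3
    have h4 := mul_inv_eq_one.mp h3
    refine ⟨h4, ?_⟩
    rw [h4] at h
    exact mul_left_cancel h
  have e1 : ∀ ψ ∈ Q, ∃ φ, (φ = φ₁ ∨ φ = φ₂) ∧ a (φ * ψ) ≠ 0 := by
    intro ψ hψ
    by_contra hcon
    push Not at hcon
    have a1 := hcon φ₁ (Or.inl rfl)
    have a2 := hcon φ₂ (Or.inr rfl)
    rw [ha _ hφ₁ _ hψ] at a1
    rw [ha _ hφ₂ _ hψ] at a2
    apply h1
    linear_combination a1 - a2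
  have e2 : ∀ φ ∈ P, ∃ ψ, (ψ = ψ₁ ∨ ψ = ψ₂) ∧ a (φ * ψ) ≠ 0 := by
    intro φ hφ
    by_contra hcon
    push Not at hcon
    have a1 := hcon ψ₁ (Or.inl rfl)
    have a2 := hcon ψ₂ (Or.inr rfl)
    rw [ha _ hφ _ hψ₁] at a1
    rw [ha _ hφ _ hψ₂] at a2
    apply h2
    linear_combination a1 - a2
  choose f hf1 hf2 using e1
  choose g hg1 hg2 using e2
  have hfP : ∀ ψ hψ, f ψ hψ ∈ P := by
    intro ψ hψ
    rcases hf1 ψ hψ with h | h <;> rw [h] <;> assumption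
  have hgQ : ∀ φ hφ, g φ hφ ∈ Q := by
    intro ψ hψ
    rcases hg1 ψ hψ with h | h <;> rw [h] <;> assumption
  have hinj : Function.Injective (fun x : Q ⊕ {φ : P // (φ : H) ≠ φ₁ ∧ (φ : H) ≠ φ₂} => (match x with
      | Sum.inl ψ => ⟨f ψ ψ.2 * ψ, hf2 ψ ψ.2⟩
      | Sum.inr φ => ⟨φ.1 * g φ.1 φ.1.2, hg2 φ.1 φ.1.2⟩ : {ω : H // a ω ≠ 0})) := by
    rintro (ψ | φ) (ψ' | φ') h
    · have h3 := hX _ (hfP ψ ψ.2) _ (hfP ψ' ψ'.2) _ ψ.2 _ ψ'.2 (congrArg Subtype.val h)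
      rw [Subtype.ext h3.2]
    · have h3 := hX _ (hfP ψ ψ.2) _ φ'.1.2 _ ψ.2 _ (hgQ φ'.1 φ'.1.2) (congrArg Subtype.val h)
      rcases hf1 ψ ψ.2 with h4 | h4
      · exact (φ'.2.1 (h3.1.symm.trans h4)).elim
      · exact (φ'.2.2 (h3.1.symm.trans h4)).elim
    · have h3 := hX _ φ.1.2 _ (hfP ψ' ψ'.2) _ (hgQ φ.1 φ.1.2) _ ψ'.2 (congrArg Subtype.val h)
      rcases hf1 ψ' ψ'.2 with h4 | h4
      · exact (φ.2.1 (h3.1.trans h4)).elim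
      · exact (φ.2.2 (h3.1.trans h4)).elim
    · have h3 := hX _ φ.1.2 _ φ'.1.2 _ (hgQ φ.1 φ.1.2) _ (hgQ φ'.1 φ'.1.2) (congrArg Subtype.val h)
      rw [Subtype.ext (Subtype.ext h3.1)]
  have h3 := Nat.card_le_card_of_injective _ hinj
  rw [Nat.card_sum] at h3
  have h4 : Nat.card P ≤ Nat.card {φ : P // (φ : H) ≠ φ₁ ∧ (φ : H) ≠ φ₂} + 2 := by
    have h5 : Nat.card {φ : P // (φ : H) ≠ φ₁ ∧ (φ : H) ≠ φ₂} =
        ((Finset.univ : Finset P).erase ⟨φ₁, hφ₁⟩ |>.erase ⟨φ₂, hφ₂⟩).card := by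
      rw [Nat.card_eq_fintype_card, Fintype.card_subtype]
      congr 1
      ext x
      simp only [Finset.mem_filter, Finset.mem_univ, true_and, Finset.mem_erase, and_true, Ne, Subtype.ext_iff]
      tauto
    rw [h5, Nat.card_eq_fintype_card, ← Finset.card_univ]
    have h6 := Finset.pred_card_le_card_erase (s := (Finset.univ : Finset P)) (a := ⟨φ₁, hφ₁⟩)
    have h7 := Finset.pred_card_le_card_erase (s := (Finset.univ : Finset P).erase ⟨φ₁, hφ₁⟩) (a := ⟨φ₂, hφ₂⟩)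
    omega
  omega

/-- the characters trivial on `X` -/
def TrS {G : Type*} [Group G] (W X : Subgroup G) : Subgroup (W →* ℂˣ) where
  carrier := {φ | Tr W X φ}
  one_mem' := Tr.one
  mul_mem' := fun h h' => Tr.mul h h'
  inv_mem' := fun h => Tr.inv h

open Classical in
/-- Let W₁, W₂ ≤ G form a self-normalising cyclic subgroup W = W₁ ⊔ W₂ of odd order with Nat.card W₁ < Nat.card W₂, and χ an orthonormal family of irreducible characters of G up to sign, indexed by the linear characters ω of W, with χ_1 = 1, χ_ω = ω on W outside W₁ ∪ W₂, and the induction identity for (1 − φ)(1 − ψ). Let θ be a class function of G vanishing on W outside W₁ ∪ W₂, and suppose fewer than 2 · Nat.card W₁ linear characters ω of W have ⟨θ, χ ω⟩ ≠ 0. Then one of: all ⟨θ, χ ω⟩ vanish; or there are ψ₀ and a with ⟨θ, χ ω⟩ = a when ω ψ₀⁻¹ is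 trivial on W₂ and 0 otherwise; or there are φ₀ and a with ⟨θ, χ ω⟩ = a when ω φ₀⁻¹ is trivial on W₁ and 0 otherwise. -/
theorem result {G : Type*} [Group G] [Fintype G] (W₁ W₂ : Subgroup G) (hW : Cfsg.IsSelfNormalizingCyclic W₁ W₂) (hodd : Odd (Nat.card ↥(W₁ ⊔ W₂))) (χ : (↥(W₁ ⊔ W₂) →* ℂˣ) → (G → ℂ)) (hχ : Cfsg.IsCyclicTIFamily W₁ W₂ χ) (hlt : Nat.card W₁ < Nat.card W₂) (θ : G → ℂ) (hθ : Cfsg.IsClassFunction G θ) (hθV : ∀ w : ↥(W₁ ⊔ W₂), (w : G) ∉ W₁ → (w : G) ∉ W₂ → θ w = 0) (hfew : Nat.card {ω : ↥(W₁ ⊔ W₂) →* ℂˣ // Cfsg.classInner θ (χ ω) ≠ 0} < 2 * Nat.card W₁) : (∀ ω, Cfsg.classInner θ (χ ω) = 0) ∨ (∃ (ψ₀ : ↥(W₁ ⊔ W₂) →* ℂˣ) (a : ℂ), ∀ ω, Cfsg.classInner θ (χ ω) = if (∀ w : ↥(W₁ ⊔ W₂), (w : G) ∈ W₂ → (ω * ψ₀⁻¹) w = 1) then a else 0) ∨ (∃ (φ₀ : ↥(W₁ ⊔ W₂) →* ℂˣ) (a : ℂ), ∀ ω, Cfsg.classInner θ (χ ω) = if (∀ w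 : ↥(W₁ ⊔ W₂), (w : G) ∈ W₁ → (ω * φ₀⁻¹) w = 1) then a else 0) := by
  classical
  have hd := hW.2.2.1
  have hc := hW.2.2.2.1
  have hab := comm_of_cyclic hW.2.2.2.2.1
  have hadd : ∀ φ ∈ TrS (W₁ ⊔ W₂) W₂, ∀ ψ ∈ TrS (W₁ ⊔ W₂) W₁, classInner θ (χ (φ * ψ)) =
      classInner θ (χ φ) + classInner θ (χ ψ) - classInner θ (χ 1) := fun φ hφ ψ hψ => inner_vanish hχ hφ hψ hθ hθV
  have hm : ∀ ω : ↥(W₁ ⊔ W₂) →* ℂˣ, ∃ φ ∈ TrS (W₁ ⊔ W₂) W₂, ∃ ψ ∈ TrS (W₁ ⊔ W₂) W₁, φ * ψ = ω := by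
    intro ω
    obtain ⟨φ, ψ, h1, h2, h3⟩ := exists_prod hd hc ω
    exact ⟨φ, h1, ψ, h2, h3⟩
  have hPQ : TrS (W₁ ⊔ W₂) W₂ ⊓ TrS (W₁ ⊔ W₂) W₁ = ⊥ := by
    rw [Subgroup.eq_bot_iff_forall]
    rintro φ ⟨h1, h2⟩
    apply hom_ext_factors hd hc
    · intro w hw; rw [h2 w hw]; rfl
    · intro w hw; rw [h1 w hw]; rfl
  have hcP : Nat.card (TrS (W₁ ⊔ W₂) W₂) = Nat.card W₁ := card_Tr_left hd hc hab
  have hcQ : Nat.card (TrS (W₁ ⊔ W₂) W₁) = Nat.card W₂ := card_Tr_right hd hc hab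
  have ho1 : Odd (Nat.card W₁) := Odd.of_dvd_nat hodd (Subgroup.card_dvd_of_le le_sup_left)
  have ho2 : Odd (Nat.card W₂) := Odd.of_dvd_nat hodd (Subgroup.card_dvd_of_le le_sup_right)
  by_cases hb : ∃ φ ∈ TrS (W₁ ⊔ W₂) W₂, ∃ φ' ∈ TrS (W₁ ⊔ W₂) W₂, classInner θ (χ φ) ≠ classInner θ (χ φ')
  · by_cases hb' : ∃ ψ ∈ TrS (W₁ ⊔ W₂) W₁, ∃ ψ' ∈ TrS (W₁ ⊔ W₂) W₁, classInner θ (χ ψ) ≠ classInner θ (χ ψ')
    · exfalso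
      obtain ⟨φ₁, h1, φ₂, h2, h3⟩ := hb
      obtain ⟨ψ₁, h4, ψ₂, h5, h6⟩ := hb'
      have := count _ _ hPQ (fun ω => classInner θ (χ ω)) hadd h1 h2 h4 h5 h3 h6
      rw [hcP, hcQ] at this
      obtain ⟨k, hk⟩ := ho1
      obtain ⟨l, hl⟩ := ho2
      omega
    · push Not at hb'
      have h1 : ∀ φ ∈ TrS (W₁ ⊔ W₂) W₂, ∀ ψ ∈ TrS (W₁ ⊔ W₂) W₁, classInner θ (χ (φ * ψ)) = classInner θ (χ φ) := by
        intro φ hφ ψ hψ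
        rw [hadd φ hφ ψ hψ, hb' ψ hψ 1 (Subgroup.one_mem _)]; ring
      rcases alt _ _ hPQ hm (fun ω => classInner θ (χ ω)) h1 (by rw [hcQ]; omega) with h | ⟨φ₀, c, h2, h3⟩
      · exact Or.inl h
      · right; right
        refine ⟨φ₀, c, fun ω => ?_⟩
        split_ifs with h4
        · exact h2 ω h4
        · exact h3 ω h4
  · push Not at hb
    have h1 : ∀ ψ ∈ TrS (W₁ ⊔ W₂) W₁, ∀ φ ∈ TrS (W₁ ⊔ W₂) W₂, classInner θ (χ (ψ * φ)) = classInner θ (χ ψ) := by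
      intro ψ hψ φ hφ
      have e : ψ * φ = φ * ψ := mul_comm ψ φ
      rw [e, hadd φ hφ ψ hψ, hb φ hφ 1 (Subgroup.one_mem _)]; ring
    have hm' : ∀ ω : ↥(W₁ ⊔ W₂) →* ℂˣ, ∃ φ ∈ TrS (W₁ ⊔ W₂) W₁, ∃ ψ ∈ TrS (W₁ ⊔ W₂) W₂, φ * ψ = ω := by
      intro ω
      obtain ⟨φ, h1, ψ, h2, h3⟩ := hm ω
      exact ⟨ψ, h2, φ, h1, (mul_comm ψ φ).trans h3⟩
    rcases alt _ _ (by rw [inf_comm]; exact hPQ) hm' (fun ω => classInner θ (χ ω)) h1 (by rw [hcP]; exact hfew) with h | ⟨φ₀, c, h2, h3⟩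
    · exact Or.inl h
    · right; left
      refine ⟨φ₀, c, fun ω => ?_⟩
      split_ifs with h4
      · exact h2 ω h4
      · exact h3 ω h4

end Cfsg.Agent.S1507
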