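import Cfsg.Statements.S1508
import Cfsg.Agent.LibCyc4

set_option autoImplicit false
set_option linter.all false
open Cfsg

namespace Cfsg.Agent.S1508

open CfsgLib.CharBasic CfsgLib.CharIndA CfsgLib.CharNorm CfsgLib.Cyc CfsgLib.Sgn

/-- Let W₁, W₂ ≤ G form a self-normalising cyclic subgroup W = W₁ ⊔ W₂ of odd order and χ an orthonormal family of irreducible characters of G up to sign, indexed by the linear characters ω of W, with χ_1 = 1, χ_ω = ω on W outside W₁ ∪ W₂, and the induction identity for (1 − φ)(1 − ψ). Let ω be a linear character of W and g an element of G whose order is coprime to the order of ω. Then χ ω g is an integer. -/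
theorem result {G : Type*} [Group G] [Fintype G] (W₁ W₂ : Subgroup G) (hW : Cfsg.IsSelfNormalizingCyclic W₁ W₂) (hodd : Odd (Nat.card ↥(W₁ ⊔ W₂))) (χ : (↥(W₁ ⊔ W₂) →* ℂˣ) → (G → ℂ)) (hχ : Cfsg.IsCyclicTIFamily W₁ W₂ χ) (ω : ↥(W₁ ⊔ W₂) →* ℂˣ) (g : G) (hg : Nat.Coprime (orderOf g) (orderOf ω)) : ∃ n : ℤ, χ ω g = n := by
  have hs : SIrr (χ ω) := hχ.irr_or_neg ω
  apply CfsgLib.GalChar.exists_int_of_fixed (gen_isIntegral hs.gen g)
  intro σ
  obtain ⟨k, hk, hk'⟩ := CfsgLib.GalChar.exists_coprime_of_gal G σ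
  have hkg : k.Coprime (orderOf g) := hk.coprime_dvd_right (orderOf_dvd_natCard g)
  have hω0 : 0 < orderOf ω := orderOf_pos ω
  have hg0 : 0 < orderOf g := orderOf_pos g
  obtain ⟨k', hk1, hk2⟩ := Nat.chineseRemainder hg k 1
  have hc1 : k'.Coprime (orderOf g) := by
    have h := hk1.gcd_eq
    rw [Nat.Coprime, h]; exact hkg
  have hc2 : k'.Coprime (orderOf ω) := by
    have h := hk2.gcd_eq
    rw [Nat.Coprime, h]; simp
  obtain ⟨σ', hσ'⟩ := CfsgLib.GalField.exists_ringEquiv_pow (orderOf g * orderOf ω) k' (Nat.mul_pos hg0 hω0) (Nat.Coprime.mul_right hc1 hc2)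
  have hpow : ∀ (τ : ℂ ≃+* ℂ) (m : ℕ), (∀ χ : G → ℂ, IsCharacter G χ → χ (g ^ m) = τ (χ g)) → χ ω (g ^ m) = τ (χ ω g) := by
    intro τ m h
    rcases hs with h' | h'
    · exact h _ (CfsgLib.CharBasic.irr_isCharacter h')
    · have := h _ (CfsgLib.CharBasic.irr_isCharacter h')
      simp only [Pi.neg_apply, map_neg, neg_inj] at this
      exact this
  have e1 : χ ω (g ^ k') = σ' (χ ω g) := by
    apply hpow
    intro χ' h'
    apply CfsgLib.GalChar.char_pow_eq_of_roots h' g k' σ'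
    intro ζ hζ
    exact hσ' ζ (by rw [pow_mul, hζ, one_pow])
  have e2 : χ ω (g ^ k) = σ (χ ω g) := hpow σ k fun χ' h' => hk' χ' h' g
  have e3 : g ^ k' = g ^ k := pow_eq_pow_iff_modEq.mpr hk1
  have e4 : gal σ' ω = ω := by
    ext w
    rw [gal_apply]
    have h1 : (ω w) ^ orderOf ω = 1 := by
      have : (ω ^ orderOf ω) w = 1 := by rw [pow_orderOf_eq_one]; rfl
      exact this
    have h2 : ((ω w : ℂˣ) : ℂ) ^ (orderOf g * orderOf ω) = 1 := by
      rw [mul_comm, pow_mul, ← Units.val_pow_eq_pow_val, h1]; simp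
    rw [hσ' _ h2]
    have h3 : (ω w) ^ k' = (ω w) ^ 1 := by
      apply pow_eq_pow_iff_modEq.mpr
      exact hk2.of_dvd (orderOf_dvd_of_pow_eq_one h1)
    rw [← Units.val_pow_eq_pow_val, h3, pow_one]
  have e5 := fam_gal hW hodd hχ σ' ω g
  rw [e4] at e5
  rw [← e2, ← e3, e1, e5]

end Cfsg.Agent.S1508
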