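import Cfsg.Statements.S1509
import Cfsg.Agent.LibSgn

set_option autoImplicit false
set_option linter.all false
open Cfsg

namespace Cfsg.Agent.S1509

open CfsgLib.CharBasic CfsgLib.CharIndA CfsgLib.CharNorm CfsgLib.Sgn

theorem key {X : Type*} [Group X] [Fintype X] {α β γ δ : X → ℂ} (hα : SIrr α) (hβ : SIrr β) (hγ : SIrr γ) (hδ : SIrr δ)
    {u v : ℂ} (hu : u ≠ 0) (hv : v ≠ 0) (hab : Cfsg.classInner α β = 0) (hcd : Cfsg.classInner γ δ = 0)
    (hmix : u * (Cfsg.classInner α γ - Cfsg.classInner β γ) - v * (Cfsg.classInner α δ - Cfsg.classInner β δ) = 0)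
    (h1 : α 1 = β 1) (h2 : u * γ 1 = v * δ 1) : Cfsg.classInner α γ = 0 ∧ Cfsg.classInner α δ = 0 := by
  have h0 := hα.one_ne
  have hba := ci_zero_comm hab
  have hdc := ci_zero_comm hcd
  have hAC : Cfsg.classInner α γ ≠ 0 → Cfsg.classInner β γ = 0 ∧ Cfsg.classInner α δ = 0 := by
    intro h
    rcases hα.inner hγ with h' | h' | h'
    · exact absurd h' h
    · rw [← h'.1]; rw [← h'.1] at hcd; exact ⟨hba, hcd⟩
    · have hg : γ = -α := by rw [h'.1, neg_neg]
      rw [hg, ci_neg_r, hba, neg_zero]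
      rw [hg, ci_neg_l, neg_eq_zero] at hcd
      exact ⟨rfl, hcd⟩
  have hBD : Cfsg.classInner α δ ≠ 0 → Cfsg.classInner β δ = 0 ∧ Cfsg.classInner α γ = 0 := by
    intro h
    rcases hα.inner hδ with h' | h' | h'
    · exact absurd h' h
    · rw [← h'.1]; rw [← h'.1] at hdc; exact ⟨hba, hdc⟩
    · have hg : δ = -α := by rw [h'.1, neg_neg]
      rw [hg, ci_neg_r, hba, neg_zero]
      rw [hg, ci_neg_l, neg_eq_zero] at hdc
      exact ⟨rfl, hdc⟩
  constructor
  · by_contra hA
    obtain ⟨hC, hB⟩ := hAC hA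
    rw [hC, hB, sub_zero, zero_sub, mul_neg, sub_neg_eq_add] at hmix
    have hD : Cfsg.classInner β δ ≠ 0 := by
      intro hD
      rw [hD, mul_zero, add_zero] at hmix
      exact (mul_ne_zero hu hA) hmix
    rcases hα.inner hγ with h' | h' | h'
    · exact absurd h' hA
    · rcases hβ.inner hδ with h'' | h'' | h''
      · exact absurd h'' hD
      · rw [h'.2, h''.2] at hmix
        rw [← h'.1, ← h''.1, ← h1] at h2
        have : u * α 1 = 0 := by linear_combination (1/2) * h2 + (1/2) * α 1 * hmix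
        exact (mul_ne_zero hu h0) this
      · rw [h'.2, h''.2] at hmix
        have e1 : δ 1 = - α 1 := by rw [h1, h''.1]; simp
        rw [← h'.1, e1] at h2
        have : u * α 1 = 0 := by linear_combination (1/2) * h2 + (1/2) * α 1 * hmix
        exact (mul_ne_zero hu h0) this
    · have e0 : γ 1 = - α 1 := by rw [h'.1]; simp
      rcases hβ.inner hδ with h'' | h'' | h''
      · exact absurd h'' hD
      · rw [h'.2, h''.2] at hmix
        rw [e0, ← h''.1, ← h1] at h2
        have : u * α 1 = 0 := by linear_combination -(1/2) * h2 - (1/2) * α 1 * hmix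
        exact (mul_ne_zero hu h0) this
      · rw [h'.2, h''.2] at hmix
        have e1 : δ 1 = - α 1 := by rw [h1, h''.1]; simp
        rw [e0, e1] at h2
        have : u * α 1 = 0 := by linear_combination -(1/2) * h2 - (1/2) * α 1 * hmix
        exact (mul_ne_zero hu h0) this
  · by_contra hB
    obtain ⟨hD, hA⟩ := hBD hB
    rw [hD, hA, sub_zero, zero_sub] at hmix
    have hC : Cfsg.classInner β γ ≠ 0 := by
      intro hC
      rw [hC, neg_zero, mul_zero, zero_sub, neg_eq_zero] at hmix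
      exact (mul_ne_zero hv hB) hmix
    rcases hα.inner hδ with h' | h' | h'
    · exact absurd h' hB
    · rcases hβ.inner hγ with h'' | h'' | h''
      · exact absurd h'' hC
      · rw [h'.2, h''.2] at hmix
        rw [← h'.1, ← h''.1, ← h1] at h2
        have : u * α 1 = 0 := by linear_combination (1/2) * h2 - (1/2) * α 1 * hmix
        exact (mul_ne_zero hu h0) this
      · rw [h'.2, h''.2] at hmix
        have e1 : γ 1 = - α 1 := by rw [h1, h''.1]; simp
        rw [← h'.1, e1] at h2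
        have : u * α 1 = 0 := by linear_combination -(1/2) * h2 + (1/2) * α 1 * hmix
        exact (mul_ne_zero hu h0) this
    · have e0 : δ 1 = - α 1 := by rw [h'.1]; simp
      rcases hβ.inner hγ with h'' | h'' | h''
      · exact absurd h'' hC
      · rw [h'.2, h''.2] at hmix
        rw [e0, ← h''.1, ← h1] at h2
        have : u * α 1 = 0 := by linear_combination (1/2) * h2 - (1/2) * α 1 * hmix
        exact (mul_ne_zero hu h0) this
      · rw [h'.2, h''.2] at hmix
        have e1 : γ 1 = - α 1 := by rw [h1, h''.1]; simp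
        rw [e0, e1] at h2
        have : u * α 1 = 0 := by linear_combination -(1/2) * h2 + (1/2) * α 1 * hmix
        exact (mul_ne_zero hu h0) this

/-- Let α, β, γ, δ be functions on a finite group X each of which is an irreducible character or the negative of one, and u, v nonzero real numbers. Suppose ⟨α, β⟩ = ⟨γ, δ⟩ = 0, ⟨α − β, uγ − vδ⟩ = 0, α 1 = β 1 and u γ 1 = v δ 1. Then also ⟨α, γ⟩ = ⟨α, δ⟩ = ⟨β, γ⟩ = ⟨β, δ⟩ = 0. -/
theorem result {X : Type*} [Group X] [Fintype X] (α β γ δ : X → ℂ) (hα : Cfsg.IsIrrCharacter X α ∨ Cfsg.IsIrrCharacter X (-α)) (hβ : Cfsg.IsIrrCharacter X β ∨ Cfsg.IsIrrCharacter X (-β)) (hγ : Cfsg.IsIrrCharacter X γ ∨ Cfsg.IsIrrCharacter X (-γ)) (hδ : Cfsg.IsIrrCharacter X δ ∨ Cfsg.IsIrrCharacter X (-δ)) (u v : ℝ) (hu : u ≠ 0) (hv : v ≠ 0) (hab : Cfsg.classInner α β = 0) (hcd : Cfsg.classInner γ δ = 0) (hmix : Cfsg.classInner (α - β) ((u : ℂ) • γ - (v : ℂ) • δ) = 0) (h1 : α 1 = β 1) (h2 : (u : ℂ) * γ 1 = (v : ℂ) * δ 1) : Cfsg.classInner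 α γ = 0 ∧ Cfsg.classInner α δ = 0 ∧ Cfsg.classInner β γ = 0 ∧ Cfsg.classInner β δ = 0 := by
  have hu' : (u : ℂ) ≠ 0 := by exact_mod_cast hu
  have hv' : (v : ℂ) ≠ 0 := by exact_mod_cast hv
  have hm : (u : ℂ) * (Cfsg.classInner α γ - Cfsg.classInner β γ) - (v : ℂ) * (Cfsg.classInner α δ - Cfsg.classInner β δ) = 0 := by
    rw [ci_sub_l, ci_sub_r, ci_sub_r, ci_smul_r, ci_smul_r, ci_smul_r, ci_smul_r, Complex.conj_ofReal, Complex.conj_ofReal] at hmix
    linear_combination hmix
  have k1 := key hα hβ hγ hδ hu' hv' hab hcd hm h1 h2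
  have k2 := key hβ hα hγ hδ hu' hv' (ci_zero_comm hab) hcd (by linear_combination -hm) h1.symm h2
  exact ⟨k1.1, k1.2, k2.1, k2.2⟩

end Cfsg.Agent.S1509
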