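import Cfsg.Statements.S1512
import Cfsg.Agent.LibCopAct

set_option autoImplicit false
set_option linter.all false
open Cfsg

namespace Cfsg.Agent.S1512

open CfsgLib.CharBasic CfsgLib.CopAct

/-- Let K be a normal subgroup of the finite group L and x a non-identity element whose order is coprime to the order of K, such that K ⊓ C_L(y) = W₂ for every non-identity element y of the cyclic group generated by x. Then the number of conjugacy classes of K mapped to themselves by conjugation by x is at most Nat.card W₂. -/
theorem result {L : Type*} [Group L] [Finite L] (K W₂ : Subgroup L) [hK : K.Normal] (x : L) (hx1 : x ≠ 1) (hx : Nat.Coprime (orderOf x) (Nat.card K)) (hC : ∀ y ∈ Subgroup.zpowers x, y ≠ 1 → K ⊓ Subgroup.centralizer ({y} : Set L) = W₂) : Nat.card {C : ConjClasses K // ConjClasses.map (MulEquiv.toMonoidHom ((MulAut.conjNormal x : MulAut K))) C = C} ≤ Nat.card W₂ := by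
  have hW := hC x (Subgroup.mem_zpowers x) hx1
  have hle : W₂ ≤ K := by rw [← hW]; exact inf_le_left
  let f : W₂ → {C : ConjClasses K // ConjClasses.map (MulEquiv.toMonoidHom ((MulAut.conjNormal x : MulAut K))) C = C} := fun w =>
    ⟨ConjClasses.mk ⟨w, hle w.2⟩, by
      rw [map_conj_eq_iff]
      refine ⟨1, ?_⟩
      have h1 : (w : L) ∈ K ⊓ Subgroup.centralizer ({x} : Set L) := by rw [hW]; exact w.2
      have h2 := Subgroup.mem_centralizer_singleton_iff.mp h1.2
      simp only [Subgroup.coe_one, one_mul, inv_one, mul_one]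
      rw [← h2]; group⟩
  apply Nat.card_le_card_of_surjective f
  rintro ⟨C, hC'⟩
  obtain ⟨h, hh, hx'⟩ := exists_fixed_rep hx hC'
  have h1 : (h : L) ∈ W₂ := by
    rw [← hW]
    exact ⟨h.2, Subgroup.mem_centralizer_singleton_iff.mpr hx'⟩
  refine ⟨⟨h, h1⟩, ?_⟩
  apply Subtype.ext
  exact hh

end Cfsg.Agent.S1512
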