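import Cfsg.Statements.S1513
import Cfsg.Agent.LibCyc7

set_option autoImplicit false
set_option linter.all false
open Cfsg

namespace Cfsg.Agent.S1513

open CfsgLib.CharBasic CfsgLib.CharIndA CfsgLib.CharNorm CfsgLib.Cyc

/-- Let L be a finite group with K normal with complement W₁ ≠ 1 a cyclic Hall subgroup, and W₂ ≠ 1 a cyclic subgroup of K equal to C_K(x) for every non-identity x ∈ W₁, with W₁W₂ of odd order. For an irreducible character θ of K: if θ is not fixed under conjugation by some element of W₁, then the function induced from θ to L is an irreducible character of L; and the irreducible characters of K fixed by all of W₁ are exactly Nat.card W₂ in number, each inducing to the sum of Nat.card W₁ pairwise distinct irreducible characters of L. -/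
theorem result {L : Type*} [Group L] [Fintype L] (K W₁ W₂ : Subgroup L) [hK : K.Normal] (hKW₁ : K ⊓ W₁ = ⊥) (hKW₁' : K ⊔ W₁ = ⊤) (hW₁ : W₁ ≠ ⊥) (hW₁c : IsCyclic W₁) (hHall : Nat.Coprime (Nat.card W₁) W₁.index) (hW₂ : W₂ ≠ ⊥) (hW₂c : IsCyclic W₂) (hW₂K : W₂ ≤ K) (hC : ∀ x ∈ W₁, x ≠ 1 → K ⊓ Subgroup.centralizer ({x} : Set L) = W₂) (hodd : Odd (Nat.card ↥(W₁ ⊔ W₂))) : (∀ θ : K → ℂ, Cfsg.IsIrrCharacter K θ → (∃ x ∈ W₁, (fun k : K => θ ⟨x * k * x⁻¹, hK.conj_mem (k : L) k.2 x⟩) ≠ θ) → Cfsg.IsIrrCharacter L (Cfsg.indFun K θ)) ∧ Nat.card {θ : Cfsg.IrrCharacter K // ∀ x ∈ W₁, (fun k : K => (θ : K → ℂ) ⟨x * k * x⁻¹, hK.conj_mem (k : L) k.2 x⟩) = θ} = Nat.card W₂ ∧ (∀ θ : K → ℂ, Cfsg.IsIrrCharacter K θ → (∀ x ∈ W₁, (fun k : K => θ ⟨x * k * x⁻¹, hK.conj_mem (k : L) k.2 x⟩) = θ) → ∃ C : Finset (L → ℂ), C.card = Nat.card W₁ ∧ (∀ μ ∈ C, Cfsg.IsIrrCharacter L μ) ∧ Cfsg.indFun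 K θ = ∑ μ ∈ C, μ) := by
  classical
  have h : Setup K W₁ W₂ := Setup.mk hK hKW₁ hKW₁' hW₁ hW₁c hHall hW₂ hW₂c hW₂K hC hodd
  obtain ⟨μ, δ, hm⟩ := h.exists_mu
  haveI : Fintype (↥(W₁ ⊔ W₂) →* ℂˣ) := Fintype.ofFinite _
  obtain ⟨⟨x, hx⟩, hx0⟩ := Subgroup.ne_bot_iff_exists_ne_one.mp hW₁
  have hx1 : x ≠ 1 := fun h => hx0 (Subtype.ext h)
  refine ⟨fun θ hθ hne => MuFam.ind_irr h hm hθ hne, ?_, ?_⟩
  · rw [← card_Tr_right h.disj h.comm (comm_of_cyclic h.cyc)]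
    symm
    let f : {ψ : ↥(W₁ ⊔ W₂) →* ℂˣ // Tr _ W₁ ψ} → {θ : Cfsg.IrrCharacter K // ∀ x ∈ W₁, (fun k : K => (θ : K → ℂ) ⟨x * k * x⁻¹, hK.conj_mem (k : L) k.2 x⟩) = θ} := fun ψ =>
      ⟨⟨fun k : K => μ ψ.1 k, MuFam.res_irr h hm ψ.1⟩, fun x _ => res_fixed h.nK (CfsgLib.CharBasic.irr_classFun (hm.irr ψ.1)) x⟩
    apply Nat.card_eq_of_bijective f
    constructor
    · intro ψ ψ' he
      apply Subtype.ext
      exact MuFam.res_inj h hm ψ.2 ψ'.2 (congrArg (fun t => ((t.1 : IrrCharacter K) : K → ℂ)) he)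
    · rintro ⟨⟨θ, hθ⟩, hfix⟩
      obtain ⟨ψ, h1, h2⟩ := MuFam.all h hm hx hx1 hθ (hfix x hx)
      exact ⟨⟨ψ, h1⟩, Subtype.ext (Subtype.ext h2.symm)⟩
  · intro θ hθ hfix
    obtain ⟨ψ, h1, rfl⟩ := MuFam.all h hm hx hx1 hθ (hfix x hx)
    refine ⟨(Finset.univ.filter (fun φ : ↥(W₁ ⊔ W₂) →* ℂˣ => Tr _ W₂ φ)).image (fun φ => μ (φ * ψ)), ?_, ?_, ?_⟩
    · rw [Finset.card_image_of_injective, ← h.card_Phi]
      intro φ φ' he
      exact mul_right_cancel (hm.inj he)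
    · intro χ hχ
      obtain ⟨φ, -, rfl⟩ := Finset.mem_image.mp hχ
      exact hm.irr _
    · rw [Finset.sum_image]
      · exact MuFam.ind_res h hm ψ
      · intro φ _ φ' _ he
        exact mul_right_cancel (hm.inj he)

end Cfsg.Agent.S1513
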