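import Cfsg.Statements.S1515
import Cfsg.Agent.LibCoh

set_option autoImplicit false
set_option linter.all false
open Cfsg

namespace Cfsg.Agent.S1515

open CfsgLib.CharBasic CfsgLib.CharIndA CfsgLib.CharNorm CfsgLib.Coh

/-- Let (S, τ, R) be a coherence system from L to G, χ ∈ S, and ψ an integer combination of S with ⟨χ, ψ⟩ = ⟨conj χ, ψ⟩ = 0. Let τ₁ be a linear isometry on the integer combinations of χ − ψ and χ − conj χ, with virtual-character values, agreeing with τ on integer multiples of χ − conj χ. Then the sum over α ∈ R χ of the squared absolute values of ⟨τ₁(χ − ψ), α⟩ is at least ⟨χ, χ⟩; and if ⟨τ₁(χ − ψ), τ₁(χ − ψ)⟩ minus that sum is at least ⟨ψ, ψ⟩, then the sum equals ⟨χ, χ⟩ and every ⟨τ₁(χ − ψ), α⟩ with α ∈ R χ is 0 or 1. -/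
theorem result {L : Type*} [Group L] [Fintype L] {G : Type*} [Group G] [Fintype G] (S : Set (L → ℂ)) (τ : (L → ℂ) → (G → ℂ)) (R : (L → ℂ) → Finset (G → ℂ)) (hS : Cfsg.IsCoherenceSystem S τ R) (χ : L → ℂ) (hχ : χ ∈ S) (ψ : L → ℂ) (hψ : ψ ∈ Cfsg.zspan S) (h1 : Cfsg.classInner χ ψ = 0) (h2 : Cfsg.classInner (Cfsg.conjFun χ) ψ = 0) (τ₁ : (L → ℂ) → (G → ℂ)) (hτ₁ : Cfsg.IsLinearIsometryOn (Cfsg.zspan {χ - ψ, χ - Cfsg.conjFun χ}) τ₁) (hagree : ∀ n : ℤ, τ₁ (n • (χ - Cfsg.conjFun χ)) = τ (n • (χ - Cfsg.conjFun χ))) : (Cfsg.classInner χ χ).re ≤ ∑ α ∈ R χ, ‖Cfsg.classInner (τ₁ (χ - ψ)) α‖ ^ 2 ∧ ((Cfsg.classInner ψ ψ).re ≤ (Cfsg.classInner (τ₁ (χ - ψ)) (τ₁ (χ - ψ))).re - ∑ α ∈ R χ, ‖Cfsg.classInner (τ₁ (χ - ψ)) α‖ ^ 2 → (∑ α ∈ R χ, ‖Cfsg.classInner (τ₁ (χ - ψ)) α‖ ^ 2 = (Cfsg.classInner χ χ).re ∧ ∀ α ∈ R χ, Cfsg.classInner (τ₁ (χ - ψ)) α = 0 ∨ Cfsg.classInner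 (τ₁ (χ - ψ)) α = 1)) := by
  classical
  have hE := zm_span (S := ({χ - ψ, χ - Cfsg.conjFun χ} : Set (L → ℂ)))
  have m1 : χ - ψ ∈ Cfsg.zspan ({χ - ψ, χ - Cfsg.conjFun χ} : Set (L → ℂ)) := z_sub (by simp)
  have m2 : χ - Cfsg.conjFun χ ∈ Cfsg.zspan ({χ - ψ, χ - Cfsg.conjFun χ} : Set (L → ℂ)) := z_sub (by simp)
  have hg := iso_gen hτ₁ m1
  have ha : ∀ α, ∃ n : ℤ, α ∈ R χ → Cfsg.classInner (τ₁ (χ - ψ)) α = n := by
    intro α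
    by_cases hα : α ∈ R χ
    · obtain ⟨n, hn⟩ := gen_inner_int hg (hS.virtual χ hχ α hα)
      exact ⟨n, fun _ => hn⟩
    · exact ⟨0, fun h => absurd h hα⟩
  choose a ha using ha
  have h12 : Cfsg.classInner χ (Cfsg.conjFun χ) = 0 := hS.orthogonal χ hχ _ (hS.conj_mem χ hχ) (hS.conj_ne χ hχ).symm
  have h12' : Cfsg.classInner ψ χ = 0 := ci_zero_comm h1
  have h12'' : Cfsg.classInner ψ (Cfsg.conjFun χ) = 0 := ci_zero_comm h2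
  have hag : τ₁ (χ - Cfsg.conjFun χ) = ∑ α ∈ R χ, α := by
    have := hagree 1
    rw [one_smul] at this
    rw [this, hS.sum_eq χ hχ]
  have hsum : ∑ α ∈ R χ, Cfsg.classInner (τ₁ (χ - ψ)) α = Cfsg.classInner χ χ := by
    rw [← ci_sum_r, ← hag, iso_inner hτ₁ m1 m2, ci_sub_l, ci_sub_r, ci_sub_r, h12, h12', h12'']
    ring
  have hsumZ : ((∑ α ∈ R χ, a α : ℤ) : ℂ) = Cfsg.classInner χ χ := by
    rw [← hsum]; push_cast
    exact Finset.sum_congr rfl fun α hα => (ha α hα).symm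
  have hnorm : ∑ α ∈ R χ, ‖Cfsg.classInner (τ₁ (χ - ψ)) α‖ ^ 2 = ((∑ α ∈ R χ, a α ^ 2 : ℤ) : ℝ) := by
    push_cast
    refine Finset.sum_congr rfl fun α hα => ?_
    rw [ha α hα]
    simp
  have hre : (Cfsg.classInner χ χ).re = ((∑ α ∈ R χ, a α : ℤ) : ℝ) := by
    rw [← hsumZ, Complex.intCast_re]
  have hle : ∀ α ∈ R χ, a α ≤ a α ^ 2 := fun α _ => Int.le_self_sq _
  have hle' : ∑ α ∈ R χ, a α ≤ ∑ α ∈ R χ, a α ^ 2 := Finset.sum_le_sum hle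
  constructor
  · rw [hnorm, hre]
    exact_mod_cast hle'
  · intro hineq
    have e1 : (Cfsg.classInner (τ₁ (χ - ψ)) (τ₁ (χ - ψ))).re = (Cfsg.classInner χ χ).re + (Cfsg.classInner ψ ψ).re := by
      rw [iso_inner hτ₁ m1 m1, ci_sub_l, ci_sub_r, ci_sub_r, h1, h12']
      simp
    rw [e1, hnorm, hre] at hineq
    have h3 : ∑ α ∈ R χ, a α ^ 2 ≤ ∑ α ∈ R χ, a α := by
      have : ((∑ α ∈ R χ, a α ^ 2 : ℤ) : ℝ) ≤ ((∑ α ∈ R χ, a α : ℤ) : ℝ) := by linarith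
      exact_mod_cast this
    have h4 := le_antisymm hle' h3
    refine ⟨by rw [hnorm, hre, h4], fun α hα => ?_⟩
    have h5 := (Finset.sum_eq_sum_iff_of_le hle).mp h4 α hα
    have h6 : a α * (a α - 1) = 0 := by rw [mul_sub, mul_one, ← pow_two, ← h5, sub_self]
    rw [ha α hα]
    rcases mul_eq_zero.mp h6 with h | h
    · left; rw [h]; simp
    · right; rw [sub_eq_zero.mp h]; simp

end Cfsg.Agent.S1515
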