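import Cfsg.Statements.S1518
import Cfsg.Agent.LibDade2
import Cfsg.Agent.LibExc

set_option autoImplicit false
set_option linter.all false
open Cfsg

namespace Cfsg.Agent.S1518

open CfsgLib.Dade CfsgLib.CharBasic CfsgLib.Exc
open scoped ComplexConjugate

/-- Under the Dade hypothesis for (A, L, H): if χ is an irreducible character of L vanishing at every non-identity element of L outside A, then the Dade image of χ − conj χ equals μ − conj μ for some irreducible character μ of G. -/
theorem result {G : Type*} [Group G] [Fintype G] (A : Set G) (L : Subgroup G) [Fintype L] (H : G → Subgroup G) (hD : Cfsg.DadeHypothesis A L H) (χ : L → ℂ) (hχ : Cfsg.IsIrrCharacter L χ) (hsupp : ∀ x : L, x ≠ 1 → (x : G) ∉ A → χ x = 0) : ∃ μ : G → ℂ, Cfsg.IsIrrCharacter G μ ∧ Cfsg.dadeIsometry A L H (χ - Cfsg.conjFun χ) = μ - Cfsg.conjFun μ := by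
  classical
  have hχc := irr_classFun hχ
  have hχcc : IsIrrCharacter L (conjFun χ) := isIrrCharacter_conj hχ
  have hsup : ∀ x : L, (x : G) ∉ A → (χ - conjFun χ) x = 0 := by
    intro x hx
    by_cases h1 : x = 1
    · subst h1
      obtain ⟨n, hn⟩ := char_one_nat (irr_isCharacter hχ)
      simp [conjFun, hn]
    · simp [conjFun, hsupp x h1 hx]
  have hcl : IsClassFunction L (χ - conjFun χ) := classFun_sub hχc (irr_classFun hχcc)
  have hgen : IsGeneralizedCharacter L (χ - conjFun χ) := gen_sub (gen_of_irr hχ) (gen_of_irr hχcc)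
  set τ := dadeIsometry A L H (χ - conjFun χ) with hτ
  have hτgen : IsGeneralizedCharacter G τ := dade_gen hD hgen hsup
  by_cases hreal : conjFun χ = χ
  · refine ⟨fun _ => 1, isIrrCharacter_one, ?_⟩
    have h1 : χ - conjFun χ = 0 := by rw [hreal, sub_self]
    have h2 : τ = 0 := by
      have hn : classInner τ τ = 0 := by
        rw [hτ, dade_isom hD hcl hsup hcl, h1]
        simp [classInner]
      exact inner_self_eq_zero hn
    rw [h2]
    ext g; simp [conjFun]
  · have hnorm : classInner τ τ = 2 := by
      rw [hτ, dade_isom hD hcl hsup hcl, diff_inner hχ hχcc hχ hχcc, if_pos rfl, if_pos rfl,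
        if_neg (fun h => hreal h.symm), if_neg hreal]
      norm_num
    have hτ1 : τ 1 = 0 := by
      apply dade_zero
      rintro ⟨a, ha, x, u, hu, h⟩
      have h1 : (a : G) * u = 1 := by rw [← h]; group
      have h2 : (1 : G) * (a * u) * 1⁻¹ = a * u := by group
      have h3 : (a : G)⁻¹ ∈ H a := by
        have : (a : G)⁻¹ = u := inv_eq_of_mul_eq_one_right h1
        rw [this]; exact hu
      have h4 : (a : G) ∈ H a ⊓ (L ⊓ Subgroup.centralizer ({(a : G)} : Set G)) :=
        ⟨by simpa using (H (a : G)).inv_mem h3, self_mem hD ha⟩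
      rw [hD.inf_eq_bot a ha, Subgroup.mem_bot] at h4
      exact hD.one_not_mem (h4 ▸ ha)
    obtain ⟨μ, ν, hμ, hν, hne, hsub⟩ := gen_norm_two_zero hτgen hnorm hτ1
    refine ⟨μ, hμ, ?_⟩
    rw [hsub]
    -- conjugation
    have hconj : conjFun τ = -τ := by
      ext g
      by_cases hex : ∃ a : L, (a : G) ∈ A ∧ ∃ x : G, ∃ u ∈ H (a : G), x * g * x⁻¹ = (a : G) * u
      · obtain ⟨a, ha, x, u, hu, h⟩ := hex
        simp only [conjFun, Pi.neg_apply]
        rw [hτ, dade_apply hD hcl ha hu h]
        simp [conjFun]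
      · simp only [conjFun, Pi.neg_apply]
        rw [hτ, dade_zero hex]; simp
    have hμc : IsIrrCharacter G (conjFun μ) := isIrrCharacter_conj hμ
    have hνc : IsIrrCharacter G (conjFun ν) := isIrrCharacter_conj hν
    have h1 : conjFun μ - conjFun ν = ν - μ := by
      have : conjFun τ = conjFun μ - conjFun ν := by
        rw [hsub]; ext g; simp [conjFun]
      rw [← this, hconj, hsub]; abel
    -- inner product with ν
    have h2 : classInner (conjFun μ - conjFun ν) (ν - μ) = 2 := by
      rw [h1, diff_inner hν hμ hν hμ, if_pos rfl, if_pos rfl, if_neg (fun h => hne h.symm), if_neg hne]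
      norm_num
    rw [diff_inner hμc hνc hν hμ] at h2
    have h3 : conjFun μ = ν := by
      by_contra h
      rw [if_neg h] at h2
      split_ifs at h2 <;> norm_num at h2
    rw [h3]

end Cfsg.Agent.S1518
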