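import Cfsg.Statements.S1524
import Cfsg.Agent.LibCoh16

set_option autoImplicit false
set_option linter.all false
open Cfsg

namespace Cfsg.Agent.S1524

open CfsgLib.Coh in
theorem odd'_of {G : Type*} [Group G] [Finite G] (H L W₁ : Subgroup G) (hodd : Odd (Nat.card L)) (hHL : H ≤ L) (hW₁L : W₁ ≤ L) (hH1 : H ≠ ⊥) (hW1 : W₁ ≠ ⊥) (hnil : Group.IsNilpotent H) (hHn : ∀ x ∈ L, ∀ h ∈ H, x * h * x⁻¹ ∈ H) (hinf : H ⊓ W₁ = ⊥) (hsup : H ⊔ W₁ = L) (hfpf : ∀ w ∈ W₁, w ≠ 1 → ∀ h ∈ H, w * h = h * w → h = 1) (hTI : Cfsg.IsTISubset (H : Set G)) (hN : Subgroup.normalizer (H : Set G) = L) : Odd' H L := by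
  refine ⟨hodd, ?_, hH1, hnil, hHn, ?_, ?_⟩
  · refine lt_of_le_of_ne hHL ?_
    rintro rfl
    apply hW1
    rw [← hinf, inf_eq_right.mpr hW₁L]
  · intro h hh hh1 x hx hxh
    -- write `x = k w`
    have h1 : ∃ k ∈ H, ∃ w ∈ W₁, k * w = x := by
      rw [← hsup] at hx
      have hl : ∀ w ∈ W₁, ∀ k ∈ H, w * k * w⁻¹ ∈ H := fun w hw k hk => hHn w (hW₁L hw) k hk
      refine Subgroup.closure_induction (p := fun x _ => ∃ k ∈ H, ∃ w ∈ W₁, k * w = x) ?_ ?_ ?_ ?_ (by rwa [Subgroup.sup_eq_closure] at hx : x ∈ Subgroup.closure ((H : Set G) ∪ (W₁ : Set G)))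
      · rintro y (hy | hy)
        · exact ⟨y, hy, 1, W₁.one_mem, mul_one y⟩
        · exact ⟨1, H.one_mem, y, hy, one_mul y⟩
      · exact ⟨1, H.one_mem, 1, W₁.one_mem, mul_one 1⟩
      · rintro y z - - ⟨k, hk, w, hw, rfl⟩ ⟨k', hk', w', hw', rfl⟩
        exact ⟨k * (w * k' * w⁻¹), H.mul_mem hk (hl w hw k' hk'), w * w', W₁.mul_mem hw hw', by group⟩
      · rintro y - ⟨k, hk, w, hw, rfl⟩
        refine ⟨w⁻¹ * k⁻¹ * w⁻¹⁻¹, hl _ (W₁.inv_mem hw) _ (H.inv_mem hk), w⁻¹, W₁.inv_mem hw, by group⟩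
    obtain ⟨k, hk, w, hw, rfl⟩ := h1
    by_cases hw1 : w = 1
    · rw [hw1, mul_one]; exact hk
    · exfalso
      -- the map `u ↦ w u w⁻¹ u⁻¹` is a bijection of `H`, so `k w` is conjugate under `H` to `w`
      have hwN : ∀ u ∈ H, w * u * w⁻¹ ∈ H := hHn w (hW₁L hw)
      let f : H → H := fun u => ⟨(u : G)⁻¹ * (w * u * w⁻¹), H.mul_mem (H.inv_mem u.2) (hwN u u.2)⟩
      have hf : Function.Injective f := by
        intro u v huv
        have h5 : (u : G)⁻¹ * (w * u * w⁻¹) = (v : G)⁻¹ * (w * v * w⁻¹) := congrArg Subtype.val huv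
        have h6 : w * ((u : G) * (v : G)⁻¹) = ((u : G) * (v : G)⁻¹) * w := by
          calc w * ((u : G) * (v : G)⁻¹) = (u : G) * ((u : G)⁻¹ * (w * u * w⁻¹)) * w * (v : G)⁻¹ := by group
            _ = (u : G) * ((v : G)⁻¹ * (w * v * w⁻¹)) * w * (v : G)⁻¹ := by rw [h5]
            _ = _ := by group
        have h7 := hfpf w hw hw1 _ (H.mul_mem u.2 (H.inv_mem v.2)) h6
        exact Subtype.ext (mul_inv_eq_one.mp h7)
      obtain ⟨u, hu⟩ := Finite.surjective_of_injective hf ⟨k, hk⟩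
      have hu' : (u : G)⁻¹ * (w * u * w⁻¹) = k := congrArg Subtype.val hu
      have h8 : k * w = (u : G)⁻¹ * w * u := by rw [← hu']; group
      rw [h8] at hxh
      have h9 : w * ((u : G) * h * (u : G)⁻¹) = ((u : G) * h * (u : G)⁻¹) * w := by
        calc w * ((u : G) * h * (u : G)⁻¹) = (u : G) * ((u : G)⁻¹ * w * u * h) * (u : G)⁻¹ := by group
          _ = (u : G) * (h * ((u : G)⁻¹ * w * u)) * (u : G)⁻¹ := by rw [hxh]
          _ = _ := by group
      have h10 := hfpf w hw hw1 _ (H.mul_mem (H.mul_mem u.2 hh) (H.inv_mem u.2)) h9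
      apply hh1
      have h11 : h = (u : G)⁻¹ * ((u : G) * h * (u : G)⁻¹) * u := by group
      rw [h11, h10]; group
  · intro g hg h hh hgh
    exact hTI g (by rw [hN]; exact hg) h hh hgh

/-- Let G be a finite group and H ≤ L subgroups with L of odd order, H ≠ ⊥ nilpotent and normal in L with a nontrivial complement W₁ in L (H ⊓ W₁ = ⊥, H ⊔ W₁ = L) acting on H without non-identity fixed points (L is a Frobenius group with kernel H), and suppose the underlying set of H is a TI-subset of G whose normaliser is L. Let S be the set of functions on L induced from the non-principal irreducible characters of H. Then (S, L minus 1, induction to G) is coherent. -/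
theorem result {G : Type*} [Group G] [Fintype G] (H L W₁ : Subgroup G) [Fintype L] (hodd : Odd (Nat.card L)) (hHL : H ≤ L) (hW₁L : W₁ ≤ L) (hH1 : H ≠ ⊥) (hW1 : W₁ ≠ ⊥) (hnil : Group.IsNilpotent H) (hHn : ∀ x ∈ L, ∀ h ∈ H, x * h * x⁻¹ ∈ H) (hinf : H ⊓ W₁ = ⊥) (hsup : H ⊔ W₁ = L) (hfpf : ∀ w ∈ W₁, w ≠ 1 → ∀ h ∈ H, w * h = h * w → h = 1) (hTI : Cfsg.IsTISubset (H : Set G)) (hN : Subgroup.normalizer (H : Set G) = L) : Cfsg.IsCoherent (Cfsg.inducedIrrAbove (H.subgroupOf L) ⊥) {1}ᶜ (fun α : L → ℂ => Cfsg.indFun L α) := by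
  exact (odd'_of H L W₁ hodd hHL hW₁L hH1 hW1 hnil hHn hinf hsup hfpf hTI hN).coherent

end Cfsg.Agent.S1524
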