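import Cfsg.Statements.S1525
import Cfsg.Agent.LibDade2

set_option autoImplicit false
set_option linter.all false
open Cfsg

namespace Cfsg.Agent.S1525

open CfsgLib.Dade CfsgLib.CharBasic
open scoped ComplexConjugate

theorem avg_sq_le {ι : Type*} (s : Finset ι) (f : ι → ℂ) (hs : 0 < s.card) :
    ‖(s.card : ℂ)⁻¹ * ∑ i ∈ s, f i‖ ^ 2 ≤ (s.card : ℝ)⁻¹ * ∑ i ∈ s, ‖f i‖ ^ 2 := by
  have h1 : ‖∑ i ∈ s, f i‖ ^ 2 ≤ (∑ i ∈ s, ‖f i‖) ^ 2 := pow_le_pow_left₀ (norm_nonneg _) (norm_sum_le _ _) 2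
  have h2 := sq_sum_le_card_mul_sum_sq (s := s) (f := fun i => ‖f i‖)
  have hpos : (0 : ℝ) < s.card := by exact_mod_cast hs
  rw [norm_mul, mul_pow, norm_inv, Complex.norm_natCast]
  have h3 : ‖∑ i ∈ s, f i‖ ^ 2 ≤ s.card * ∑ i ∈ s, ‖f i‖ ^ 2 := h1.trans h2
  calc ((s.card : ℝ)⁻¹) ^ 2 * ‖∑ i ∈ s, f i‖ ^ 2 ≤ ((s.card : ℝ)⁻¹) ^ 2 * (s.card * ∑ i ∈ s, ‖f i‖ ^ 2) := by gcongr
    _ = _ := by field_simp

/-- Under the Dade hypothesis for (A, L, H), let χ be a class function of G and let ψ be a function on L whose value at each a ∈ A is the average of χ over the coset a·H(a). Then (1/|G|) Σ |χ g|² over the elements g of G conjugate into some coset a·H(a) with a ∈ A is at least (1/|L|) Σ_{a ∈ A ∩ L} |ψ a|². -/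
theorem result {G : Type*} [Group G] [Fintype G] (A : Set G) (L : Subgroup G) [Fintype L] (H : G → Subgroup G) (hD : Cfsg.DadeHypothesis A L H) (χ : G → ℂ) (hχ : Cfsg.IsClassFunction G χ) (ψ : L → ℂ) (hψ : ∀ a : L, (a : G) ∈ A → ψ a = (Nat.card (H a) : ℂ)⁻¹ * ∑ᶠ u ∈ (H a : Set G), χ (a * u)) : (Nat.card L : ℝ)⁻¹ * ∑ᶠ a ∈ {a : L | (a : G) ∈ A}, ‖ψ a‖ ^ 2 ≤ (Nat.card G : ℝ)⁻¹ * ∑ᶠ g ∈ {g : G | ∃ a ∈ A, ∃ u ∈ H a, ∃ x : G, x * g * x⁻¹ = a * u}, ‖χ g‖ ^ 2 := by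
  classical
  let α : L → ℂ := fun x => if (x : G) ∈ A then 1 else 0
  have hα : IsClassFunction L α := by
    intro x h
    simp only [α]
    have : ((h * x * h⁻¹ : L) : G) ∈ A ↔ (x : G) ∈ A := by
      constructor
      · intro h1
        have := hD.conj_mem (h : G)⁻¹ (L.inv_mem h.2) _ h1
        have e : (h : G)⁻¹ * ((h * x * h⁻¹ : L) : G) * (h : G)⁻¹⁻¹ = x := by
          simp only [Subgroup.coe_mul, Subgroup.coe_inv]; group
        rwa [e] at this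
      · intro h1; exact hD.conj_mem h h.2 x h1
    simp only [this]
  let F : G → ℂ := fun g => ((‖χ g‖ ^ 2 : ℝ) : ℂ)
  have hF : IsClassFunction G F := by
    intro g h
    simp only [F]
    rw [hχ g h]
  have hD1 : ∀ g : G, dadeIsometry A L H α g = if (∃ a ∈ A, ∃ u ∈ H a, ∃ x : G, x * g * x⁻¹ = a * u) then 1 else 0 := by
    intro g
    by_cases h : ∃ a ∈ A, ∃ u ∈ H a, ∃ x : G, x * g * x⁻¹ = a * u
    · rw [if_pos h]
      obtain ⟨a, ha, u, hu, x, hx⟩ := h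
      rw [dade_apply hD hα (a := ⟨a, hD.subset ha⟩) ha hu hx]
      simp only [α]; rw [if_pos ha]
    · rw [if_neg h]
      apply dade_zero
      rintro ⟨a, ha, x, u, hu, hx⟩
      exact h ⟨a, ha, u, hu, x, hx⟩
  have key := dade_inner hD hα (fun x hx => if_neg hx) hF
    (fun a => if (a : G) ∈ A then (Nat.card (H a) : ℂ)⁻¹ * ∑ᶠ u ∈ (H a : Set G), F (a * u) else 0)
    (fun a ha => if_pos ha)
  unfold classInner at key
  -- left side as real
  have hL1 : ∑ g : G, dadeIsometry A L H α g * conj (F g) =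
      ((∑ᶠ g ∈ {g : G | ∃ a ∈ A, ∃ u ∈ H a, ∃ x : G, x * g * x⁻¹ = a * u}, ‖χ g‖ ^ 2 : ℝ) : ℂ) := by
    rw [finsum_mem_eq_finite_toFinset_sum _ (Set.toFinite _)]
    have : (Set.toFinite {g : G | ∃ a ∈ A, ∃ u ∈ H a, ∃ x : G, x * g * x⁻¹ = a * u}).toFinset =
        Finset.univ.filter (fun g : G => ∃ a ∈ A, ∃ u ∈ H a, ∃ x : G, x * g * x⁻¹ = a * u) := by
      ext g; simp
    rw [this, Finset.sum_filter, Complex.ofReal_sum]
    refine Finset.sum_congr rfl fun g _ => ?_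
    rw [hD1]
    split_ifs
    · simp [F]
    · simp
  have hR1 : ∑ a : L, α a * conj (if (a : G) ∈ A then (Nat.card (H a) : ℂ)⁻¹ * ∑ᶠ u ∈ (H a : Set G), F (a * u) else 0) =
      ((∑ a : L, (if (a : G) ∈ A then (Nat.card (H a) : ℝ)⁻¹ * ∑ u ∈ (Set.toFinite (H a : Set G)).toFinset, ‖χ (a * u)‖ ^ 2 else 0) : ℝ) : ℂ) := by
    rw [Complex.ofReal_sum]
    refine Finset.sum_congr rfl fun a _ => ?_
    simp only [α]
    split_ifs with ha
    · rw [finsum_mem_eq_finite_toFinset_sum _ (Set.toFinite _)]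
      simp only [F]
      rw [one_mul, map_mul, map_inv₀, Complex.conj_natCast, map_sum]
      push_cast
      simp
    · simp
  rw [hL1, hR1] at key
  have key' : (Nat.card G : ℝ)⁻¹ * ∑ᶠ g ∈ {g : G | ∃ a ∈ A, ∃ u ∈ H a, ∃ x : G, x * g * x⁻¹ = a * u}, ‖χ g‖ ^ 2 =
      (Nat.card L : ℝ)⁻¹ * ∑ a : L, (if (a : G) ∈ A then (Nat.card (H a) : ℝ)⁻¹ * ∑ u ∈ (Set.toFinite (H a : Set G)).toFinset, ‖χ (a * u)‖ ^ 2 else 0) := by
    apply Complex.ofReal_injective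
    rw [Complex.ofReal_mul, Complex.ofReal_mul, Complex.ofReal_inv, Complex.ofReal_inv, Complex.ofReal_natCast, Complex.ofReal_natCast]
    exact key
  rw [key', finsum_mem_eq_finite_toFinset_sum _ (Set.toFinite _)]
  have hset : (Set.toFinite {a : L | (a : G) ∈ A}).toFinset = Finset.univ.filter (fun a : L => (a : G) ∈ A) := by
    ext g; simp
  rw [hset, Finset.sum_filter]
  apply mul_le_mul_of_nonneg_left _ (by positivity)
  apply Finset.sum_le_sum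
  intro a _
  split_ifs with ha
  · rw [hψ a ha, finsum_mem_eq_finite_toFinset_sum _ (Set.toFinite _)]
    have h2 : (Set.toFinite (H a : Set G)).toFinset.card = Nat.card (H a) := by
      rw [← Set.ncard_eq_toFinset_card _ (Set.toFinite _), ← Nat.card_coe_set_eq]
      rfl
    rw [← h2]
    apply avg_sq_le
    rw [h2]; exact Nat.card_pos
  · exact le_refl _

end Cfsg.Agent.S1525
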