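import Cfsg.Statements.S1527
import Mathlib

set_option autoImplicit false
set_option linter.all false
open Cfsg

namespace Cfsg.Agent.S1527

theorem one_ti {G : Type*} [Group G] [Finite G] (H : Subgroup G) (hTI : Cfsg.IsTISubset (H : Set G)) :
    Nat.card {g : G // g ≠ 1 ∧ ∃ x : G, x * g * x⁻¹ ∈ H} = (Subgroup.normalizer (H : Set G)).index * (Nat.card H - 1) := by
  classical
  haveI := Fintype.ofFinite G
  -- count pairs
  let P := {p : G × G // p.2 ≠ 1 ∧ p.1 * p.2 * p.1⁻¹ ∈ H}
  have h1 : Nat.card P = Nat.card G * (Nat.card H - 1) := by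
    have e : P ≃ G × {h : H // h ≠ 1} :=
      { toFun := fun p => (p.1.1, ⟨⟨p.1.1 * p.1.2 * p.1.1⁻¹, p.2.2⟩, fun h => p.2.1 (by
          have h2 : p.1.1 * p.1.2 * p.1.1⁻¹ = 1 := congrArg Subtype.val h
          rw [mul_inv_eq_one] at h2
          exact mul_eq_left.mp h2)⟩)
        invFun := fun q => ⟨(q.1, q.1⁻¹ * q.2.1 * q.1), by
          constructor
          · intro h
            apply q.2.2
            apply Subtype.ext
            have : (q.2.1 : G) = q.1 * (q.1⁻¹ * q.2.1 * q.1) * q.1⁻¹ := by group
            rw [this]
            simp only at h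
            rw [h]; simp
          · have : q.1 * (q.1⁻¹ * (q.2.1 : G) * q.1) * q.1⁻¹ = q.2.1 := by group
            simp only
            rw [this]; exact q.2.1.2⟩
        left_inv := fun p => by
          apply Subtype.ext; apply Prod.ext
          · rfl
          · simp only; group
        right_inv := fun q => by
          apply Prod.ext
          · rfl
          · apply Subtype.ext; apply Subtype.ext
            simp only; group }
    rw [Nat.card_congr e, Nat.card_prod]
    congr 1
    have := Fintype.card_subtype_compl (fun h : H => h = 1)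
    rw [Nat.card_eq_fintype_card, Nat.card_eq_fintype_card]
    simpa using this
  -- fibres
  let U := {g : G // g ≠ 1 ∧ ∃ x : G, x * g * x⁻¹ ∈ H}
  have h2 : Nat.card P = Nat.card U * Nat.card (Subgroup.normalizer (H : Set G)) := by
    have hmem : ∀ (u : U), (Classical.choose u.2.2) * u.1 * (Classical.choose u.2.2)⁻¹ ∈ H := fun u => Classical.choose_spec u.2.2
    have e : U × Subgroup.normalizer (H : Set G) ≃ P :=
      Equiv.ofBijective (fun q => ⟨(q.2 * Classical.choose q.1.2.2, q.1.1), q.1.2.1, by
        have h3 := (Subgroup.mem_normalizer_iff.mp q.2.2 _).mp (hmem q.1)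
        have e : (q.2 : G) * Classical.choose q.1.2.2 * q.1.1 * ((q.2 : G) * Classical.choose q.1.2.2)⁻¹ =
          q.2 * ((Classical.choose q.1.2.2) * q.1.1 * (Classical.choose q.1.2.2)⁻¹) * (q.2 : G)⁻¹ := by group
        simp only
        rw [e]; exact h3⟩) ⟨by
          rintro ⟨u, n⟩ ⟨u', n'⟩ h
          have h3 := congrArg (fun z => z.1.2) h
          simp only at h3
          have h4 : u = u' := Subtype.ext h3
          subst h4
          have h5 := congrArg (fun z => z.1.1) h
          simp only at h5
          have h6 : n = n' := Subtype.ext (mul_right_cancel h5)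
          rw [h6], by
          rintro ⟨⟨x, g⟩, hg1, hx⟩
          let u : U := ⟨g, hg1, x, hx⟩
          set x0 := Classical.choose u.2.2 with hx0
          have h0 := hmem u
          have hn : x * x0⁻¹ ∈ Subgroup.normalizer (H : Set G) := by
            by_contra hcon
            have e1 : x * x0⁻¹ * (x0 * g * x0⁻¹) * (x * x0⁻¹)⁻¹ = x * g * x⁻¹ := by group
            have := hTI _ hcon (x0 * g * x0⁻¹) h0 (by rw [e1]; exact hx)
            apply hg1
            have e2 : g = x0⁻¹ * (x0 * g * x0⁻¹) * x0 := by group
            rw [e2, this]; group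
          refine ⟨(u, ⟨_, hn⟩), ?_⟩
          apply Subtype.ext
          apply Prod.ext
          · simp only
            rw [← hx0]; group
          · rfl⟩
    rw [← Nat.card_congr e, Nat.card_prod]
  have h3 := Subgroup.card_mul_index (Subgroup.normalizer (H : Set G))
  rw [h1, ← h3, mul_comm (Nat.card U)] at h2
  have hpos : 0 < Nat.card (Subgroup.normalizer (H : Set G)) := Nat.card_pos
  rw [mul_assoc] at h2
  exact (Nat.eq_of_mul_eq_mul_left hpos h2).symm

/-- Let G be a finite group and H i (i in a finite index type) subgroups of pairwise coprime orders, each of whose underlying sets is a TI-subset of G, such that every non-identity element of G is conjugate to an element of some H i. Then Nat.card G − 1 = Σ_i [G : N_G(H i)] · (Nat.card (H i) − 1). -/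
theorem result {G : Type*} [Group G] [Finite G] {ι : Type*} [Fintype ι] (H : ι → Subgroup G) (hcop : ∀ i j, i ≠ j → Nat.Coprime (Nat.card (H i)) (Nat.card (H j))) (hTI : ∀ i, Cfsg.IsTISubset (H i : Set G)) (hcover : ∀ g : G, g ≠ 1 → ∃ i, ∃ x : G, x * g * x⁻¹ ∈ H i) : Nat.card G - 1 = ∑ i, (Subgroup.normalizer (H i : Set G)).index * (Nat.card (H i) - 1) := by
  classical
  haveI := Fintype.ofFinite G
  have h1 : Nat.card G - 1 = Nat.card {g : G // g ≠ 1} := by
    have := Fintype.card_subtype_compl (fun g : G => g = 1)
    rw [Nat.card_eq_fintype_card, Nat.card_eq_fintype_card]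
    simpa using this.symm
  have h2 : Nat.card {g : G // g ≠ 1} = ∑ i, Nat.card {g : G // g ≠ 1 ∧ ∃ x : G, x * g * x⁻¹ ∈ H i} := by
    rw [← Nat.card_sigma]
    symm
    apply Nat.card_congr
    refine Equiv.ofBijective (fun s => ⟨s.2.1, s.2.2.1⟩) ⟨?_, ?_⟩
    · rintro ⟨i, g, hg, x, hx⟩ ⟨j, g', hg', y, hy⟩ h
      have h3 : g = g' := congrArg Subtype.val h
      subst h3
      by_cases hij : i = j
      · subst hij; rfl
      · exfalso
        have hcop' := hcop i j hij
        have o1 : orderOf g ∣ Nat.card (H i) := by
          have e1 : orderOf (x * g * x⁻¹) = orderOf g := by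
            have := orderOf_injective (MulAut.conj x).toMonoidHom (MulAut.conj x).injective g
            simpa using this
          rw [← e1]
          have := orderOf_dvd_natCard (⟨_, hx⟩ : H i)
          rwa [Subgroup.orderOf_mk] at this
        have o2 : orderOf g ∣ Nat.card (H j) := by
          have e1 : orderOf (y * g * y⁻¹) = orderOf g := by
            have := orderOf_injective (MulAut.conj y).toMonoidHom (MulAut.conj y).injective g
            simpa using this
          rw [← e1]
          have := orderOf_dvd_natCard (⟨_, hy⟩ : H j)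
          rwa [Subgroup.orderOf_mk] at this
        have := Nat.dvd_gcd o1 o2
        rw [hcop'] at this
        exact hg (orderOf_eq_one_iff.mp (Nat.dvd_one.mp this))
    · rintro ⟨g, hg⟩
      obtain ⟨i, x, hx⟩ := hcover g hg
      exact ⟨⟨i, g, hg, x, hx⟩, rfl⟩
  rw [h1, h2]
  exact Finset.sum_congr rfl fun i _ => one_ti (H i) (hTI i)

end Cfsg.Agent.S1527
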