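import Cfsg.Statements.S1528
import Cfsg.Agent.S0171

set_option autoImplicit false
set_option linter.all false
open Cfsg

namespace Cfsg.Agent.S1528

open CfsgLib.Clifford CfsgLib.CharBasic CfsgLib.CharNorm

/-- Let N be a normal subgroup of the finite group G such that every element of G commuting with a non-identity element of N lies in N. If χ is an irreducible character of G with χ n ≠ χ 1 for some n ∈ N, then χ is the function induced from some irreducible character of N. -/
theorem result {G : Type*} [Group G] [Fintype G] (N : Subgroup G) [N.Normal] (hC : ∀ n ∈ N, n ≠ 1 → Subgroup.centralizer ({n} : Set G) ≤ N) (χ : G → ℂ) (hχ : Cfsg.IsIrrCharacter G χ) (hker : ∃ n ∈ N, χ n ≠ χ 1) : ∃ φ : N → ℂ, Cfsg.IsIrrCharacter N φ ∧ χ = Cfsg.indFun N φ := by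
  classical
  have hN : N.Normal := inferInstance
  haveI := Fintype.ofFinite N
  obtain ⟨φ, hφ, hφχ⟩ := exists_below N hχ
  have hφ1 : φ ≠ fun _ => 1 := by
    intro h
    obtain ⟨n, hn, hne⟩ := hker
    apply hne
    have h2 := clifford_sum hN hχ hφ hφχ
    have h3 := congrFun h2 ⟨n, hn⟩
    have h4 := congrFun h2 1
    have h5 : ∀ x : G, ∀ y : N, cj hN x φ y = 1 := by
      intro x y; rw [cj_apply, h]
    simp only [Pi.smul_apply, Finset.sum_apply, h5] at h3 h4
    change χ n = _ at h3
    change χ 1 = _ at h4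
    rw [h3, h4]
  have hirr := Cfsg.Agent.S0171.ind_irr N hN (fun x hx k hk hxk => by
    by_contra hk1
    exact hx (hC k hk hk1 (by rw [Subgroup.mem_centralizer_singleton_iff]; exact hxk))) φ hφ hφ1
  refine ⟨φ, hφ, ?_⟩
  by_contra hne
  have h1 := irr_inner_ne hχ hirr hne
  rw [CfsgLib.CharIndA.frobenius' N φ (irr_classFun hχ)] at h1
  exact hφχ h1

end Cfsg.Agent.S1528
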