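import Cfsg.Statements.S1529
import Cfsg.Agent.LibCoh

set_option autoImplicit false
set_option linter.all false
open Cfsg

namespace Cfsg.Agent.S1529

open CfsgLib.CharBasic CfsgLib.CharIndA CfsgLib.CharNorm CfsgLib.Coh CfsgLib.Sgn

/-- Let N be a subgroup of the finite group G, S a set of irreducible characters of N with at least two members, and τ₁ a linear isometry on the integer combinations of S with virtual-character values such that τ₁ α vanishes at 1 whenever α ∈ ℤ[S] does. Then there is ε ∈ {1, −1} such that ε • τ₁ χ is an irreducible character of G for every χ ∈ S, and distinct members of S give distinct characters. -/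
theorem result {G : Type*} [Group G] [Fintype G] (N : Subgroup G) [Fintype N] (S : Set (N → ℂ)) (hirr : ∀ χ ∈ S, Cfsg.IsIrrCharacter N χ) (htwo : ∃ χ ∈ S, ∃ ψ ∈ S, χ ≠ ψ) (τ₁ : (N → ℂ) → (G → ℂ)) (hτ₁ : Cfsg.IsLinearIsometryOn (Cfsg.zspan S) τ₁) (h0 : ∀ α ∈ Cfsg.zspan S, α 1 = 0 → τ₁ α 1 = 0) : ∃ ε : ℂ, (ε = 1 ∨ ε = -1) ∧ (∀ χ ∈ S, Cfsg.IsIrrCharacter G (ε • τ₁ χ)) ∧ (∀ χ ∈ S, ∀ ψ ∈ S, τ₁ χ = τ₁ ψ → χ = ψ) := by
  have hE := zm_span (S := S)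
  have hs : ∀ χ ∈ S, SIrr (τ₁ χ) := by
    intro χ hχ
    have h1 := iso_inner hτ₁ (z_sub hχ) (z_sub hχ)
    rw [irr_inner_self (hirr χ hχ)] at h1
    exact gen_norm_one (iso_gen hτ₁ (z_sub hχ)) h1
  have hrel : ∀ χ ∈ S, ∀ ψ ∈ S, ψ 1 * τ₁ χ 1 = χ 1 * τ₁ ψ 1 := by
    intro χ hχ ψ hψ
    obtain ⟨a, ha, ha'⟩ := irr_one_nat (hirr χ hχ)
    obtain ⟨b, hb, hb'⟩ := irr_one_nat (hirr ψ hψ)
    have m1 : (b : ℤ) • χ ∈ Cfsg.zspan S := z_smul _ (z_sub hχ)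
    have m2 : (a : ℤ) • ψ ∈ Cfsg.zspan S := z_smul _ (z_sub hψ)
    have h1 := h0 ((b : ℤ) • χ - (a : ℤ) • ψ) (z_minus m1 m2) (by
      simp only [Pi.sub_apply, Pi.smul_apply, ha', hb']
      simp [mul_comm])
    rw [iso_sub hE hτ₁ m1 m2, iso_smul hτ₁ (z_sub hχ), iso_smul hτ₁ (z_sub hψ)] at h1
    simp only [Pi.sub_apply, Pi.smul_apply] at h1
    rw [ha', hb']
    have h2 : (b : ℂ) * τ₁ χ 1 - (a : ℂ) * τ₁ ψ 1 = 0 := by simpa using h1
    exact sub_eq_zero.mp h2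
  obtain ⟨χ₀, hχ₀, -⟩ := htwo
  obtain ⟨a, ha, ha'⟩ := irr_one_nat (hirr χ₀ hχ₀)
  have hinj : ∀ χ ∈ S, ∀ ψ ∈ S, τ₁ χ = τ₁ ψ → χ = ψ := by
    intro χ hχ ψ hψ he
    by_contra hne
    have h1 := iso_inner hτ₁ (z_sub hχ) (z_sub hψ)
    rw [irr_inner_ne (hirr χ hχ) (hirr ψ hψ) hne, ← he, iso_inner hτ₁ (z_sub hχ) (z_sub hχ), irr_inner_self (hirr χ hχ)] at h1
    exact one_ne_zero h1
  -- sign
  have hsgn : ∀ (x y : G → ℂ) (b c : ℕ), 0 < b → 0 < c → IsIrrCharacter G x → IsIrrCharacter G y → (b : ℂ) * x 1 = -((c : ℂ) * y 1) → False := by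
    intro x y b c hb hc hx hy h
    obtain ⟨m, hm, hm'⟩ := irr_one_nat hx
    obtain ⟨n, hn, hn'⟩ := irr_one_nat hy
    rw [hm', hn'] at h
    have h2 : ((b * m + c * n : ℕ) : ℂ) = 0 := by push_cast; rw [h]; ring
    have h3 : b * m + c * n = 0 := by exact_mod_cast h2
    have : 0 < b * m := Nat.mul_pos hb hm
    omega
  rcases hs χ₀ hχ₀ with h | h
  · refine ⟨1, Or.inl rfl, fun χ hχ => ?_, hinj⟩
    rw [one_smul]
    rcases hs χ hχ with h' | h'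
    · exact h'
    · exfalso
      obtain ⟨b, hb, hb'⟩ := irr_one_nat (hirr χ hχ)
      have h1 := hrel χ₀ hχ₀ χ hχ
      rw [ha', hb'] at h1
      exact hsgn _ _ b a hb ha h h' (by rw [h1]; simp)
  · refine ⟨-1, Or.inr rfl, fun χ hχ => ?_, hinj⟩
    rw [neg_one_smul]
    rcases hs χ hχ with h' | h'
    · exfalso
      obtain ⟨b, hb, hb'⟩ := irr_one_nat (hirr χ hχ)
      have h1 := hrel χ₀ hχ₀ χ hχ
      rw [ha', hb'] at h1
      exact hsgn _ _ a b ha hb h' h (by rw [← h1]; simp)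
    · exact h'

end Cfsg.Agent.S1529
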