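import Cfsg.Statements.S1531
import Cfsg.Agent.LibCoh2

set_option autoImplicit false
set_option linter.all false
open Cfsg

namespace Cfsg.Agent.S1531

open CfsgLib.CharBasic CfsgLib.CharIndA CfsgLib.CharNorm CfsgLib.Coh CfsgLib.Sgn

theorem sirr_of {A : Type*} [Group A] [Fintype A] {G : Type*} [Group G] [Fintype G] {S : Set (A → ℂ)} (hirr : ∀ χ ∈ S, Cfsg.IsIrrCharacter A χ)
    {τ₁ : (A → ℂ) → (G → ℂ)} (hτ₁ : Cfsg.IsLinearIsometryOn (Cfsg.zspan S) τ₁) : ∀ χ ∈ S, SIrr (τ₁ χ) := by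
  intro χ hχ
  have h1 := iso_inner hτ₁ (z_sub hχ) (z_sub hχ)
  rw [irr_inner_self (hirr χ hχ)] at h1
  exact gen_norm_one (iso_gen hτ₁ (z_sub hχ)) h1

theorem rel_of {A : Type*} [Group A] [Fintype A] {G : Type*} [Group G] [Fintype G] {S : Set (A → ℂ)} (hirr : ∀ χ ∈ S, Cfsg.IsIrrCharacter A χ)
    {τ₁ : (A → ℂ) → (G → ℂ)} (hτ₁ : Cfsg.IsLinearIsometryOn (Cfsg.zspan S) τ₁) (h0 : ∀ α ∈ Cfsg.zspanOn S {1}ᶜ, τ₁ α 1 = 0)
    {χ ψ : A → ℂ} (hχ : χ ∈ S) (hψ : ψ ∈ S) {a b : ℕ} (ha' : χ 1 = a) (hb' : ψ 1 = b) :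
    (b : ℤ) • χ - (a : ℤ) • ψ ∈ Cfsg.zspanOn S {1}ᶜ ∧ τ₁ ((b : ℤ) • χ - (a : ℤ) • ψ) = (b : ℤ) • τ₁ χ - (a : ℤ) • τ₁ ψ ∧
      (b : ℂ) * τ₁ χ 1 = a * τ₁ ψ 1 := by
  have hE := zm_span (S := S)
  have m1 : (b : ℤ) • χ ∈ Cfsg.zspan S := z_smul _ (z_sub hχ)
  have m2 : (a : ℤ) • ψ ∈ Cfsg.zspan S := z_smul _ (z_sub hψ)
  have h2 : (b : ℤ) • χ - (a : ℤ) • ψ ∈ Cfsg.zspanOn S {1}ᶜ := by
    rw [mem_z1]
    refine ⟨z_minus m1 m2, ?_⟩
    simp only [Pi.sub_apply, Pi.smul_apply, ha', hb']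
    simp [mul_comm]
  have h3 : τ₁ ((b : ℤ) • χ - (a : ℤ) • ψ) = (b : ℤ) • τ₁ χ - (a : ℤ) • τ₁ ψ := by
    rw [iso_sub hE hτ₁ m1 m2, iso_smul hτ₁ (z_sub hχ), iso_smul hτ₁ (z_sub hψ)]
  refine ⟨h2, h3, ?_⟩
  have h1 := h0 _ h2
  rw [h3] at h1
  simp only [Pi.sub_apply, Pi.smul_apply] at h1
  have h2 : (b : ℂ) * τ₁ χ 1 - (a : ℂ) * τ₁ ψ 1 = 0 := by simpa using h1
  exact sub_eq_zero.mp h2

/-- Let N be a subgroup of the finite group G, S a set of irreducible characters of N, and α a linear isometry on the integer combinations of S vanishing at 1 with values virtual characters of G vanishing at 1. Let X, Y ⊆ S be disjoint, each with at least two members, and σ, τ linear isometries on ℤ[X], ℤ[Y] into virtual characters agreeing with α on the members vanishing at 1. Then ⟨σ χ, τ η⟩ = 0 for χ ∈ X, η ∈ Y; and if for some χ₀ ∈ X, η₀ ∈ Y with degrees c = χ₀ 1, e = η₀ 1 one has α (c • η₀ − e • χ₀) = c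 • τ η₀ − e • σ χ₀, then (X ∪ Y, N minus 1, α) is coherent. -/
theorem result {G : Type*} [Group G] [Fintype G] (N : Subgroup G) [Fintype N] (S X Y : Set (N → ℂ)) (hirr : ∀ ξ ∈ S, Cfsg.IsIrrCharacter N ξ) (hXS : X ⊆ S) (hYS : Y ⊆ S) (hXY : Disjoint X Y) (hX2 : ∃ a ∈ X, ∃ b ∈ X, a ≠ b) (hY2 : ∃ a ∈ Y, ∃ b ∈ Y, a ≠ b) (α : (N → ℂ) → (G → ℂ)) (hα : Cfsg.IsLinearIsometryOn (Cfsg.zspanOn S {1}ᶜ) α) (hα1 : ∀ θ ∈ Cfsg.zspanOn S {1}ᶜ, α θ 1 = 0) (σ τ : (N → ℂ) → (G → ℂ)) (hσ : Cfsg.IsLinearIsometryOn (Cfsg.zspan X) σ) (hσα : ∀ θ ∈ Cfsg.zspanOn X {1}ᶜ, σ θ = α θ) (hτ : Cfsg.IsLinearIsometryOn (Cfsg.zspan Y) τ) (hτα : ∀ θ ∈ Cfsg.zspanOn Y {1}ᶜ, τ θ = α θ) : (∀ χ ∈ X, ∀ η ∈ Y, Cfsg.classInner (σ χ) (τ η) = 0) ∧ ((∃ χ₀ ∈ X, ∃ η₀ ∈ Y, α (χ₀ 1 • η₀ - η₀ 1 • χ₀) = χ₀ 1 • τ η₀ - η₀ 1 • σ χ₀) → Cfsg.IsCoherent (X ∪ Y) {1}ᶜ α) := by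
  have hXz : Cfsg.zspan X ⊆ Cfsg.zspan S := z_mono hXS
  have hYz : Cfsg.zspan Y ⊆ Cfsg.zspan S := z_mono hYS
  have hX1 : Cfsg.zspanOn X {1}ᶜ ⊆ Cfsg.zspanOn S {1}ᶜ := z1_mono hXS
  have hY1 : Cfsg.zspanOn Y {1}ᶜ ⊆ Cfsg.zspanOn S {1}ᶜ := z1_mono hYS
  have hiX : ∀ ξ ∈ X, Cfsg.IsIrrCharacter N ξ := fun ξ h => hirr ξ (hXS h)
  have hiY : ∀ ξ ∈ Y, Cfsg.IsIrrCharacter N ξ := fun ξ h => hirr ξ (hYS h)
  have hsX := sirr_of hiX hσ
  have hsY := sirr_of hiY hτ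
  have h0X : ∀ θ ∈ Cfsg.zspanOn X {1}ᶜ, σ θ 1 = 0 := fun θ hθ => by rw [hσα θ hθ]; exact hα1 θ (hX1 hθ)
  have h0Y : ∀ θ ∈ Cfsg.zspanOn Y {1}ᶜ, τ θ 1 = 0 := fun θ hθ => by rw [hτα θ hθ]; exact hα1 θ (hY1 hθ)
  have hdisj : ∀ χ ∈ X, ∀ η ∈ Y, Cfsg.classInner χ η = 0 := fun χ hχ η hη =>
    irr_inner_ne (hiX χ hχ) (hiY η hη) (fun h => Set.disjoint_left.mp hXY hχ (by rw [h]; exact hη))
  have horth : ∀ χ ∈ X, ∀ η ∈ Y, Cfsg.classInner (σ χ) (τ η) = 0 := by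
    intro χ hχ η hη
    obtain ⟨χ', hχ', hne⟩ : ∃ χ' ∈ X, χ' ≠ χ := by
      obtain ⟨a, ha, b, hb, hab⟩ := hX2
      by_cases h : a = χ
      · exact ⟨b, hb, fun h' => hab (h.trans h'.symm)⟩
      · exact ⟨a, ha, h⟩
    obtain ⟨η', hη', hne'⟩ : ∃ η' ∈ Y, η' ≠ η := by
      obtain ⟨a, ha, b, hb, hab⟩ := hY2
      by_cases h : a = η
      · exact ⟨b, hb, fun h' => hab (h.trans h'.symm)⟩
      · exact ⟨a, ha, h⟩
    obtain ⟨a, ha, ha'⟩ := irr_one_nat (hiX χ hχ)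
    obtain ⟨b, hb, hb'⟩ := irr_one_nat (hiX χ' hχ')
    obtain ⟨c, hc, hc'⟩ := irr_one_nat (hiY η hη)
    obtain ⟨d, hd, hd'⟩ := irr_one_nat (hiY η' hη')
    obtain ⟨r1, r2, r3⟩ := rel_of hiX hσ h0X hχ hχ' ha' hb'
    obtain ⟨s1, s2, s3⟩ := rel_of hiY hτ h0Y hη hη' hc' hd'
    by_contra hA
    have ob : Cfsg.classInner (σ χ) (σ χ') = 0 := by
      rw [iso_inner hσ (z_sub hχ) (z_sub hχ')]; exact irr_inner_ne (hiX χ hχ) (hiX χ' hχ') hne.symm
    have oc : Cfsg.classInner (τ η) (τ η') = 0 := by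
      rw [iso_inner hτ (z_sub hη) (z_sub hη')]; exact irr_inner_ne (hiY η hη) (hiY η' hη') hne'.symm
    have hz : Cfsg.classInner ((b : ℤ) • σ χ - (a : ℤ) • σ χ') ((d : ℤ) • τ η - (c : ℤ) • τ η') = 0 := by
      rw [← r2, ← s2, hσα _ r1, hτα _ s1, iso_inner hα (hX1 r1) (hY1 s1)]
      have e1 : ∀ (n : ℤ) (f : N → ℂ), n • f = (n : ℂ) • f := fun n f => by ext x; simp
      rw [e1, e1, e1, e1, ci_sub_l, ci_sub_r, ci_sub_r, ci_smul_l, ci_smul_l, ci_smul_l, ci_smul_l]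
      simp only [ci_smul_r, hdisj χ hχ η hη, hdisj χ hχ η' hη', hdisj χ' hχ' η hη, hdisj χ' hχ' η' hη']
      ring
    have e1 : ∀ (n : ℤ) (f : G → ℂ), n • f = (n : ℂ) • f := fun n f => by ext x; simp
    rw [e1, e1, e1, e1, ci_sub_l, ci_sub_r, ci_sub_r] at hz
    simp only [ci_smul_l, ci_smul_r] at hz
    simp only [Int.cast_natCast, map_natCast] at hz
    -- `σ χ = ± τ η`
    have key : ∀ s : ℂ, (s = 1 ∨ s = -1) → σ χ = s • τ η → False := by
      intro s hs he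
      have hss : s * s = 1 := by rcases hs with h | h <;> rw [h] <;> norm_num
      have hsc : (starRingEnd ℂ) s = s := by rcases hs with h | h <;> rw [h] <;> simp
      have hs0 : s ≠ 0 := by rcases hs with h | h <;> rw [h] <;> norm_num
      have he' : τ η = s • σ χ := by rw [he, smul_smul, hss, one_smul]
      have z1 : Cfsg.classInner (σ χ) (τ η) = s := by
        rw [he, ci_smul_l, (hsY η hη).self, mul_one]
      have z2 : Cfsg.classInner (σ χ) (τ η') = 0 := by rw [he, ci_smul_l, oc, mul_zero]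
      have z3 : Cfsg.classInner (σ χ') (τ η) = 0 := by rw [he', ci_smul_r, ci_zero_comm ob, mul_zero]
      rw [z1, z2, z3] at hz
      have haC : (a : ℂ) ≠ 0 := by exact_mod_cast ha.ne'
      have hbC : (b : ℂ) ≠ 0 := by exact_mod_cast hb.ne'
      have hcC : (c : ℂ) ≠ 0 := by exact_mod_cast hc.ne'
      have hdC : (d : ℂ) ≠ 0 := by exact_mod_cast hd.ne'
      rcases (hsX χ' hχ').inner (hsY η' hη') with h | h | h
      · rw [h] at hz
        have : (b : ℂ) * d * s = 0 := by linear_combination hz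
        exact (mul_ne_zero (mul_ne_zero hbC hdC) hs0) this
      · rw [h.2] at hz
        have hsn : s = -1 := by
          rcases hs with h' | h'
          · exfalso
            rw [h'] at hz
            have h3 : ((b * d + a * c : ℕ) : ℂ) = 0 := by push_cast; linear_combination hz
            have h4 : b * d + a * c = 0 := by exact_mod_cast h3
            have : 0 < b * d := Nat.mul_pos hb hd
            omega
          · exact h'
        have v1 : σ χ 1 = - τ η 1 := by rw [he, hsn]; simp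
        have v2 : σ χ' 1 = τ η' 1 := by rw [h.1]
        rw [v1, v2] at r3
        have h5 : (b * c + a * d : ℂ) * τ η 1 = 0 := by linear_combination (-(c:ℂ)) * r3 - (a:ℂ) * (-1) * s3
        rcases mul_eq_zero.mp h5 with h6 | h6
        · have h7 : ((b * c + a * d : ℕ) : ℂ) = 0 := by push_cast; exact h6
          have h8 : b * c + a * d = 0 := by exact_mod_cast h7
          have : 0 < b * c := Nat.mul_pos hb hc
          omega
        · exact (hsY η hη).one_ne h6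
      · rw [h.2] at hz
        have hsn : s = 1 := by
          rcases hs with h' | h'
          · exact h'
          · exfalso
            rw [h'] at hz
            have h3 : ((b * d + a * c : ℕ) : ℂ) = 0 := by push_cast; linear_combination -hz
            have h4 : b * d + a * c = 0 := by exact_mod_cast h3
            have : 0 < b * d := Nat.mul_pos hb hd
            omega
        have v1 : σ χ 1 = τ η 1 := by rw [he, hsn]; simp
        have v2 : σ χ' 1 = - τ η' 1 := by rw [h.1]; simp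
        rw [v1, v2] at r3
        have h5 : (b * c + a * d : ℂ) * τ η 1 = 0 := by linear_combination (c:ℂ) * r3 + (a:ℂ) * s3
        rcases mul_eq_zero.mp h5 with h6 | h6
        · have h7 : ((b * c + a * d : ℕ) : ℂ) = 0 := by push_cast; exact h6
          have h8 : b * c + a * d = 0 := by exact_mod_cast h7
          have : 0 < b * c := Nat.mul_pos hb hc
          omega
        · exact (hsY η hη).one_ne h6
    rcases (hsX χ hχ).inner (hsY η hη) with h | h | h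
    · exact hA h
    · exact key 1 (Or.inl rfl) (by rw [one_smul]; exact h.1)
    · exact key (-1) (Or.inr rfl) (by rw [neg_one_smul]; exact h.1)
  refine ⟨horth, ?_⟩
  rintro ⟨χ₀, hχ₀, η₀, hη₀, hrel⟩
  classical
  obtain ⟨c, hc, hc'⟩ := irr_one_nat (hiX χ₀ hχ₀)
  obtain ⟨e, he, he'⟩ := irr_one_nat (hiY η₀ hη₀)
  have hU : X ∪ Y ⊆ S := Set.union_subset hXS hYS
  have hiU : ∀ ξ ∈ X ∪ Y, Cfsg.IsIrrCharacter N ξ := fun ξ h => hirr ξ (hU h)
  have hYX : ∀ {η}, η ∈ Y → η ∉ X := fun {η} h h' => Set.disjoint_left.mp hXY h' h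
  obtain ⟨τ₂, t1, t2⟩ := build (S := X ∪ Y) (G := G) (fun χ hχ φ hφ hne => irr_inner_ne (hiU χ hχ) (hiU φ hφ) hne)
    (fun χ hχ => by rw [irr_inner_self (hiU χ hχ)]; exact one_ne_zero) (fun ξ => if ξ ∈ X then σ ξ else τ ξ)
    (by
      intro χ hχ
      beta_reduce
      rcases hχ with h | h
      · rw [if_pos h]; exact iso_gen hσ (z_sub h)
      · rw [if_neg (hYX h)]; exact iso_gen hτ (z_sub h))
    (by
      intro χ hχ φ hφ
      beta_reduce
      rcases hχ with h | h <;> rcases hφ with h' | h'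
      · rw [if_pos h, if_pos h']; exact iso_inner hσ (z_sub h) (z_sub h')
      · rw [if_pos h, if_neg (hYX h'), horth χ h φ h', hdisj χ h φ h']
      · rw [if_neg (hYX h), if_pos h', ci_zero_comm (horth φ h' χ h), ci_zero_comm (hdisj φ h' χ h)]
      · rw [if_neg (hYX h), if_neg (hYX h')]; exact iso_inner hτ (z_sub h) (z_sub h'))
  have t2X : ∀ α ∈ Cfsg.zspan X, τ₂ α = σ α := by
    intro α hα
    refine z_ind (p := fun α => τ₂ α = σ α) hα ?_ ?_ ?_ ?_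
    · intro ξ hξ; rw [t2 ξ (Or.inl hξ), if_pos hξ]
    · rw [iso_zero zm_span t1, iso_zero zm_span hσ]
    · intro a b ha hb h1 h2
      rw [iso_add t1 (z_mono Set.subset_union_left ha) (z_mono Set.subset_union_left hb), iso_add hσ ha hb, h1, h2]
    · intro n a ha h1
      rw [iso_smul t1 (z_mono Set.subset_union_left ha), iso_smul hσ ha, h1]
  have t2Y : ∀ α ∈ Cfsg.zspan Y, τ₂ α = τ α := by
    intro α hα
    refine z_ind (p := fun α => τ₂ α = τ α) hα ?_ ?_ ?_ ?_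
    · intro ξ hξ; rw [t2 ξ (Or.inr hξ), if_neg (hYX hξ)]
    · rw [iso_zero zm_span t1, iso_zero zm_span hτ]
    · intro a b ha hb h1 h2
      rw [iso_add t1 (z_mono Set.subset_union_right ha) (z_mono Set.subset_union_right hb), iso_add hτ ha hb, h1, h2]
    · intro n a ha h1
      rw [iso_smul t1 (z_mono Set.subset_union_right ha), iso_smul hτ ha, h1]
  refine ⟨?_, τ₂, t1, ?_⟩
  · obtain ⟨a, ha, b, hb, hab⟩ := hX2
    obtain ⟨m, hm, hm'⟩ := irr_one_nat (hiX a ha)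
    obtain ⟨n, hn, hn'⟩ := irr_one_nat (hiX b hb)
    obtain ⟨r1, r2, r3⟩ := rel_of hiX hσ h0X ha hb hm' hn'
    refine ⟨_, z1_mono Set.subset_union_left r1, ?_⟩
    intro h0
    have := congrArg (fun f => Cfsg.classInner f a) h0
    have e1 : ∀ (n : ℤ) (f : N → ℂ), n • f = (n : ℂ) • f := fun n f => by ext x; simp
    beta_reduce at this
    rw [e1, e1, ci_sub_l, ci_smul_l, ci_smul_l, irr_inner_self (hiX a ha), irr_inner_ne (hiX b hb) (hiX a ha) hab.symm, ci_zero_l] at this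
    simp only [mul_one, mul_zero, sub_zero, Int.cast_natCast] at this
    have : n = 0 := by exact_mod_cast this
    omega
  · intro α' hα'
    obtain ⟨k1, k2⟩ := mem_z1.mp hα'
    have hdec : ∃ β ∈ Cfsg.zspan X, ∃ γ ∈ Cfsg.zspan Y, α' = β + γ := by
      have : α' ∈ Submodule.span ℤ (X ∪ Y) := k1
      rw [Submodule.span_union, Submodule.mem_sup] at this
      obtain ⟨β, hβ, γ, hγ, h⟩ := this
      exact ⟨β, hβ, γ, hγ, h.symm⟩
    obtain ⟨β, hβ, γ, hγ, rfl⟩ := hdec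
    -- the degree of β
    have hβint : ∃ m : ℤ, β 1 = m := by
      refine z_ind (p := fun β => ∃ m : ℤ, β 1 = m) hβ ?_ ⟨0, by simp⟩ ?_ ?_
      · intro ξ hξ
        obtain ⟨n, -, hn⟩ := irr_one_nat (hiX ξ hξ)
        exact ⟨n, by rw [hn]; simp⟩
      · rintro a b - - ⟨m, hm⟩ ⟨n, hn⟩
        exact ⟨m + n, by rw [Pi.add_apply, hm, hn]; simp⟩
      · rintro k a - ⟨m, hm⟩
        exact ⟨k * m, by rw [Pi.smul_apply, hm]; simp⟩
    obtain ⟨m, hm⟩ := hβint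
    have hγ1 : γ 1 = -m := by
      rw [Pi.add_apply, hm] at k2
      linear_combination k2
    have mX : (c * e : ℤ) • β - (m * e : ℤ) • χ₀ ∈ Cfsg.zspanOn X {1}ᶜ := by
      rw [mem_z1]
      refine ⟨z_minus (z_smul _ hβ) (z_smul _ (z_sub hχ₀)), ?_⟩
      simp only [Pi.sub_apply, Pi.smul_apply, hm, hc']
      simp; ring
    have mY : (c * e : ℤ) • γ + (m * c : ℤ) • η₀ ∈ Cfsg.zspanOn Y {1}ᶜ := by
      rw [mem_z1]
      refine ⟨z_add (z_smul _ hγ) (z_smul _ (z_sub hη₀)), ?_⟩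
      simp only [Pi.add_apply, Pi.smul_apply, hγ1, he']
      simp; ring
    have mR : χ₀ 1 • η₀ - η₀ 1 • χ₀ ∈ Cfsg.zspanOn S {1}ᶜ := by
      have e1 : χ₀ 1 • η₀ - η₀ 1 • χ₀ = (c : ℤ) • η₀ - (e : ℤ) • χ₀ := by
        rw [hc', he']; ext x; simp
      rw [e1, mem_z1]
      refine ⟨z_minus (z_smul _ (z_sub (hYS hη₀))) (z_smul _ (z_sub (hXS hχ₀))), ?_⟩
      simp only [Pi.sub_apply, Pi.smul_apply, hc', he']
      simp [mul_comm]
    have hsum : (c * e : ℤ) • (β + γ) = ((c * e : ℤ) • β - (m * e : ℤ) • χ₀) + ((c * e : ℤ) • γ + (m * c : ℤ) • η₀) -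
        m • (χ₀ 1 • η₀ - η₀ 1 • χ₀) := by
      rw [hc', he']
      ext x
      simp only [Pi.add_apply, Pi.sub_apply, Pi.smul_apply]
      simp only [smul_eq_mul, zsmul_eq_mul]
      push_cast
      ring
    have hα'S : β + γ ∈ Cfsg.zspanOn S {1}ᶜ := z1_mono hU hα'
    have q1 : α ((c * e : ℤ) • (β + γ)) = (c * e : ℤ) • (σ β + τ γ) := by
      rw [hsum, iso_sub zm_on hα (z1_add (hX1 mX) (hY1 mY)) (z1_smul m mR), iso_add hα (hX1 mX) (hY1 mY), iso_smul hα mR, hrel,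
        ← hσα _ mX, ← hτα _ mY, iso_sub zm_span hσ (z_smul _ hβ) (z_smul _ (z_sub hχ₀)), iso_smul hσ hβ, iso_smul hσ (z_sub hχ₀),
        iso_add hτ (z_smul _ hγ) (z_smul _ (z_sub hη₀)), iso_smul hτ hγ, iso_smul hτ (z_sub hη₀), hc', he']
      ext x
      simp only [Pi.add_apply, Pi.sub_apply, Pi.smul_apply]
      simp only [smul_eq_mul, zsmul_eq_mul]
      push_cast
      ring
    rw [iso_smul hα hα'S] at q1
    have hce : (c * e : ℤ) ≠ 0 := by
      have : 0 < c * e := Nat.mul_pos hc he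
      exact_mod_cast this.ne'
    have q2 : α (β + γ) = σ β + τ γ := by
      ext x
      have := congrFun q1 x
      simp only [Pi.smul_apply] at this
      simp only [zsmul_eq_mul] at this
      exact mul_left_cancel₀ (by exact_mod_cast hce) this
    rw [q2, iso_add t1 (z_mono Set.subset_union_left hβ) (z_mono Set.subset_union_right hγ), t2X β hβ, t2Y γ hγ]

end Cfsg.Agent.S1531
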