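import Cfsg.Statements.S1536
import Cfsg.Agent.LibCopAct

set_option autoImplicit false
set_option linter.all false
open Cfsg

namespace Cfsg.Agent.S1536

open CfsgLib.CharBasic CfsgLib.CopAct

theorem two_le {X : Type*} [Finite X] {a b : X} (h : a ≠ b) : 2 ≤ Nat.card X := by
  haveI : Nontrivial X := ⟨a, b, h⟩
  exact Finite.one_lt_card

/-- Let H be a normal subgroup of the finite group M whose order is coprime to its index. For x ∈ M: some non-principal irreducible character of H is unchanged under h ↦ θ(x h x⁻¹) if and only if some non-identity element of H commutes with x. -/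
theorem result {M : Type*} [Group M] [Finite M] (H : Subgroup M) [hN : H.Normal] (hHall : Nat.Coprime (Nat.card H) H.index) (x : M) : (∃ θ : H → ℂ, Cfsg.IsIrrCharacter H θ ∧ θ ≠ (fun _ => 1) ∧ (fun h : H => θ ⟨x * h * x⁻¹, hN.conj_mem h h.2 x⟩) = θ) ↔ ∃ h ∈ H, h ≠ 1 ∧ x * h = h * x := by
  classical
  haveI := Fintype.ofFinite H
  -- split x = x1 * x2 with x1 ∈ H and x2 coprime to |H|
  obtain ⟨m, hm1, hm2⟩ := Nat.chineseRemainder hHall 1 0
  obtain ⟨m', hm1', hm2'⟩ := Nat.chineseRemainder hHall 0 1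
  have hxn : ∀ y : M, y ^ (Nat.card H * H.index) = 1 := by
    intro y
    rw [Subgroup.card_mul_index]; exact pow_card_eq_one'
  -- x1 = x ^ m ∈ H
  have hx1 : x ^ m ∈ H := by
    obtain ⟨j, hj⟩ := Nat.modEq_zero_iff_dvd.mp hm2
    rw [hj, pow_mul]
    exact Subgroup.pow_mem _ (Subgroup.pow_index_mem H x) j
  have hx2 : Nat.Coprime (orderOf (x ^ m')) (Nat.card H) := by
    have h1 : (x ^ m') ^ H.index = 1 := by
      obtain ⟨j, hj⟩ := Nat.modEq_zero_iff_dvd.mp hm1'
      rw [hj, ← pow_mul, mul_assoc, mul_comm j, ← mul_assoc, pow_mul, hxn, one_pow]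
    exact Nat.Coprime.coprime_dvd_left (orderOf_dvd_of_pow_eq_one h1) hHall.symm
  have hmul : x ^ m * x ^ m' = x := by
    rw [← pow_add]
    conv_rhs => rw [← pow_one x]
    rw [pow_eq_pow_iff_modEq]
    have h1 : m + m' ≡ 1 [MOD Nat.card H * H.index] := by
      rw [← Nat.modEq_and_modEq_iff_modEq_mul hHall]
      exact ⟨by simpa using hm1.add hm1', by simpa using hm2.add hm2'⟩
    exact h1.of_dvd (by rw [Subgroup.card_mul_index]; exact orderOf_dvd_natCard x)
  set x1 := x ^ m with hx1def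
  set x2 := x ^ m' with hx2def
  have hcomm : x1 * x2 = x2 * x1 := by rw [hx1def, hx2def, ← pow_add, ← pow_add, add_comm]
  -- action of x on class functions equals that of x2
  have hact : ∀ θ : H → ℂ, IsIrrCharacter H θ → ((fun h : H => θ ⟨x * h * x⁻¹, hN.conj_mem h h.2 x⟩) = θ ↔
      (fun h : H => θ ⟨x2 * h * x2⁻¹, hN.conj_mem h h.2 x2⟩) = θ) := by
    intro θ hθ
    have hcl := irr_classFun hθ
    have e : (fun h : H => θ ⟨x * h * x⁻¹, hN.conj_mem h h.2 x⟩) = fun h : H => θ ⟨x2 * h * x2⁻¹, hN.conj_mem h h.2 x2⟩ := by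
      ext h
      rw [← hcl ⟨x2 * h * x2⁻¹, hN.conj_mem h h.2 x2⟩ ⟨x1, hx1⟩]
      congr 1
      apply Subtype.ext
      simp only [Subgroup.coe_mul, Subgroup.coe_inv]
      conv_lhs => rw [← hmul]
      group
    rw [e]
  have hcount := card_fixed (K := H) x2
  -- centralizer statement for x2
  have hcent : (∃ h ∈ H, h ≠ 1 ∧ x * h = h * x) ↔ ∃ h ∈ H, h ≠ 1 ∧ x2 * h = h * x2 := by
    constructor
    · rintro ⟨h, hh, h1, h2⟩
      refine ⟨h, hh, h1, ?_⟩
      exact (show Commute x h from h2).pow_left m'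
    · rintro ⟨h, hh, h1, h2⟩
      by_cases hx11 : x1 = 1
      · refine ⟨h, hh, h1, ?_⟩
        have : x = x2 := by rw [← hmul, hx11, one_mul]
        rw [this]; exact h2
      · refine ⟨x1, hx1, hx11, ?_⟩
        exact ((Commute.refl x).pow_right m)
  rw [hcent]
  constructor
  · rintro ⟨θ, hθ, hθ1, hfix⟩
    have h2 : 2 ≤ Nat.card {θ : IrrCharacter H // (fun h : H => (θ : H → ℂ) ⟨x2 * h * x2⁻¹, hN.conj_mem h h.2 x2⟩) = θ} := by
      refine two_le (a := ⟨⟨θ, hθ⟩, (hact θ hθ).mp hfix⟩) (b := ⟨⟨fun _ => 1, isIrrCharacter_one⟩, rfl⟩) ?_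
      intro h
      exact hθ1 (congrArg (fun z => (z.1.1 : H → ℂ)) h)
    rw [← hcount] at h2
    haveI : Finite {C : ConjClasses H // ConjClasses.map (MulEquiv.toMonoidHom ((MulAut.conjNormal x2 : MulAut H))) C = C} := inferInstance
    obtain ⟨C, D, hCD⟩ := (Finite.one_lt_card_iff_nontrivial.mp (lt_of_lt_of_le one_lt_two h2)).exists_pair_ne
    -- one of them is nontrivial
    have hex : ∃ E : {C : ConjClasses H // ConjClasses.map (MulEquiv.toMonoidHom ((MulAut.conjNormal x2 : MulAut H))) C = C}, E.1 ≠ ConjClasses.mk 1 := by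
      by_contra hcon
      push Not at hcon
      exact hCD (Subtype.ext ((hcon C).trans (hcon D).symm))
    obtain ⟨⟨E, hE⟩, hE1⟩ := hex
    obtain ⟨h, hh, hx'⟩ := exists_fixed_rep hx2 hE
    refine ⟨h, h.2, ?_, hx'.symm⟩
    intro h1
    apply hE1
    have h4 : h = 1 := Subtype.ext h1
    exact hh.symm.trans (by rw [h4])
  · rintro ⟨h, hh, h1, h2⟩
    have h3 : 2 ≤ Nat.card {C : ConjClasses H // ConjClasses.map (MulEquiv.toMonoidHom ((MulAut.conjNormal x2 : MulAut H))) C = C} := by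
      refine two_le (a := ⟨ConjClasses.mk ⟨h, hh⟩, ?_⟩) (b := ⟨ConjClasses.mk 1, ?_⟩) ?_
      · rw [map_conj_eq_iff]
        exact ⟨1, by simp only [Subgroup.coe_one, one_mul, inv_one, mul_one]; rw [h2]; group⟩
      · rw [map_conj_eq_iff]
        exact ⟨1, by simp⟩
      · intro he
        have := congrArg Subtype.val he
        simp only at this
        rw [ConjClasses.mk_eq_mk_iff_isConj, isConj_comm, isConj_one_right] at this
        exact h1 (congrArg Subtype.val this)
    rw [hcount] at h3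
    obtain ⟨α, β, hαβ⟩ := (Finite.one_lt_card_iff_nontrivial.mp (lt_of_lt_of_le one_lt_two h3)).exists_pair_ne
    have hex : ∃ γ : {θ : IrrCharacter H // (fun h : H => (θ : H → ℂ) ⟨x2 * h * x2⁻¹, hN.conj_mem h h.2 x2⟩) = θ}, (γ.1 : H → ℂ) ≠ fun _ => 1 := by
      by_contra hcon
      push Not at hcon
      exact hαβ (Subtype.ext (Subtype.ext ((hcon α).trans (hcon β).symm)))
    obtain ⟨γ, hγ⟩ := hex
    exact ⟨γ.1, γ.1.2, hγ, (hact _ γ.1.2).mpr γ.2⟩

end Cfsg.Agent.S1536
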