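import Cfsg.Statements.S1546


set_option autoImplicit false
set_option linter.all false
open Cfsg

namespace Cfsg.Agent.S1546

theorem modsum {p m : ℕ} (h : p ≡ 1 [MOD m]) (k : ℕ) : ∑ i ∈ Finset.range k, p ^ i ≡ k [MOD m] := by
  induction k with
  | zero => simp; rfl
  | succ k ih =>
    rw [Finset.sum_range_succ]
    have := h.pow k
    rw [one_pow] at this
    exact ih.add this

/-- Let p and q be odd primes and N = (p ^ q − 1) / (p − 1) = 1 + p + ⋯ + p^(q−1). Then N is odd; if p ≡ 1 (mod q) then q ∣ N; and if p is not ≡ 1 (mod q) then N is coprime to p − 1 and every divisor of N is ≡ 1 (mod q). -/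
theorem result (p q : ℕ) (hp : p.Prime) (hq : q.Prime) (hp2 : p ≠ 2) (hq2 : q ≠ 2) : Odd ((p ^ q - 1) / (p - 1)) ∧ (p % q = 1 → q ∣ (p ^ q - 1) / (p - 1)) ∧ (p % q ≠ 1 → Nat.Coprime ((p ^ q - 1) / (p - 1)) (p - 1) ∧ ∀ x : ℕ, x ∣ (p ^ q - 1) / (p - 1) → x % q = 1) := by
  have hp3 : 3 ≤ p := by have := hp.two_le; omega
  have hq3 : 3 ≤ q := by have := hq.two_le; omega
  have hN : (p ^ q - 1) / (p - 1) = ∑ i ∈ Finset.range q, p ^ i := (Nat.geomSum_eq hp.two_le q).symm
  have hNm : (∑ i ∈ Finset.range q, p ^ i) * (p - 1) = p ^ q - 1 := by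
    rw [← hN, Nat.div_mul_cancel]
    exact Nat.sub_one_dvd_pow_sub_one p q
  rw [hN]
  have hmod : ∀ r : ℕ, r ∣ p - 1 → p ≡ 1 [MOD r] := fun r hr => ((Nat.modEq_iff_dvd' (by omega)).mpr hr).symm
  refine ⟨?_, ?_, ?_⟩
  · have hodd : Odd p := hp.odd_of_ne_two hp2
    have h1 := modsum (hmod 2 (by obtain ⟨k, hk⟩ := hodd; exact ⟨k, by omega⟩)) q
    have h2 : Odd q := hq.odd_of_ne_two hq2
    rw [Nat.odd_iff] at h2 ⊢
    rw [← h2]; exact h1
  · intro h1
    have h2 : p ≡ 1 [MOD q] := by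
      show p % q = 1 % q
      rw [h1, Nat.mod_eq_of_lt (by omega)]
    exact (Nat.modEq_zero_iff_dvd).mp ((modsum h2 q).trans (by show q % q = 0 % q; simp))
  · intro h1
    have hcop : Nat.Coprime (∑ i ∈ Finset.range q, p ^ i) (p - 1) := by
      rw [Nat.coprime_iff_gcd_eq_one]
      by_contra hne
      obtain ⟨r, hr, hrd⟩ := Nat.exists_prime_and_dvd hne
      have h2 : r ∣ p - 1 := hrd.trans (Nat.gcd_dvd_right _ _)
      have h3 : r ∣ ∑ i ∈ Finset.range q, p ^ i := hrd.trans (Nat.gcd_dvd_left _ _)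
      have h4 := modsum (hmod r h2) q
      have h5 : r ∣ q := (Nat.modEq_zero_iff_dvd).mp (h4.symm.trans ((Nat.modEq_zero_iff_dvd).mpr h3))
      have h6 : r = q := (Nat.prime_dvd_prime_iff_eq hr hq).mp h5
      rw [h6] at h2
      apply h1
      have h7 : p % q = 1 % q := hmod q h2
      rw [h7, Nat.mod_eq_of_lt (by omega)]
    refine ⟨hcop, ?_⟩
    have hprime : ∀ r : ℕ, r.Prime → r ∣ ∑ i ∈ Finset.range q, p ^ i → r % q = 1 := by
      intro r hr hrd
      haveI := Fact.mk hr
      haveI := Fact.mk hq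
      have h2 : ¬ r ∣ p - 1 := fun h3 => hr.one_lt.ne' (Nat.Coprime.eq_one_of_dvd (hcop.coprime_dvd_left hrd) h3)
      have h3 : r ∣ p ^ q - 1 := by rw [← hNm]; exact hrd.mul_right _
      have h4 : (p : ZMod r) ^ q = 1 := by
        have h5 : ((p ^ q - 1 : ℕ) : ZMod r) = 0 := (ZMod.natCast_eq_zero_iff _ _).mpr h3
        rw [Nat.cast_sub (Nat.one_le_pow _ _ (by omega))] at h5
        push_cast at h5
        exact sub_eq_zero.mp h5
      have h5 : (p : ZMod r) ≠ 1 := by
        intro h6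
        apply h2
        rw [← ZMod.natCast_eq_zero_iff, Nat.cast_sub (by omega), h6]; simp
      have h6 : orderOf (p : ZMod r) = q := orderOf_eq_prime h4 h5
      have h7 : (p : ZMod r) ≠ 0 := by
        intro h8
        rw [h8, zero_pow (by omega)] at h4
        exact zero_ne_one h4
      have h8 := ZMod.orderOf_dvd_card_sub_one h7
      rw [h6] at h8
      obtain ⟨k, hk⟩ := h8
      have h9 : r = 1 + q * k := by have := hr.one_lt; omega
      rw [h9, Nat.add_mul_mod_self_left, Nat.mod_eq_of_lt (by omega)]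
    intro x
    induction x using Nat.recOnMul with
    | zero =>
      intro h2
      exfalso
      have h3 := zero_dvd_iff.mp h2
      rw [h3, zero_mul] at hNm
      have : 1 < p ^ q := Nat.one_lt_pow (by omega) (by omega)
      omega
    | one => intro _; exact Nat.mod_eq_of_lt (by omega)
    | prime r hr => exact hprime r hr
    | mul y z hy hz =>
      intro h2
      rw [Nat.mul_mod, hy ((Dvd.intro _ rfl).trans h2), hz ((Dvd.intro_left _ rfl).trans h2)]
      exact Nat.mod_eq_of_lt (by omega)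

end Cfsg.Agent.S1546
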