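import Cfsg.Statements.S1552
import Cfsg.Agent.LibOrbD28
import Cfsg.Agent.LibOrbOut28
import Cfsg.Agent.LibTrio28

set_option autoImplicit false
open scoped Pointwise
open Cfsg

namespace Cfsg.Agent.S1552

/-- A sextet stabiliser has four orbits on the 1771 sextets, of sizes 1, 90, 240, 1440; and the stabiliser is a maximal proper subgroup. -/
theorem result (S : Finset (Finset Cfsg.GolayPt)) (hS : S ∈ Cfsg.sextets) : ∃ X₁ ∈ Cfsg.sextets, ∃ X₂ ∈ Cfsg.sextets, ∃ X₃ ∈ Cfsg.sextets, (MulAction.orbit ↥(MulAction.stabilizer Cfsg.M24 S) X₁).ncard = 90 ∧ (MulAction.orbit ↥(MulAction.stabilizer Cfsg.M24 S) X₂).ncard = 240 ∧ (MulAction.orbit ↥(MulAction.stabilizer Cfsg.M24 S) X₃).ncard = 1440 ∧ Cfsg.sextets = {S} ∪ MulAction.orbit ↥(MulAction.stabilizer Cfsg.M24 S) X₁ ∪ MulAction.orbit ↥(MulAction.stabilizer Cfsg.M24 S) X₂ ∪ MulAction.orbit ↥(MulAction.stabilizer Cfsg.M24 S) X₃ ∧ IsCoatom (MulAction.stabilizer Cfsg.M24 S) := by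
  have hco := CfsgLib.OrbOut28.coatom_of_dec CfsgLib.OrbD28.dec_ss (CfsgLib.OrbG28.sextets_eq_orbit CfsgLib.OrbD28.S0_mem)
    CfsgLib.OrbG28.sextets_card CfsgLib.OrbG28.sextets_finite 0 (by congr 1) (by decide) (by norm_num)
    (by decide +kernel) S hS
  have hS' := hS
  rw [CfsgLib.OrbG28.sextets_eq_orbit CfsgLib.OrbD28.S0_mem] at hS'
  obtain ⟨g, hg⟩ := hS'
  have hg' : g • CfsgLib.Syn28.sextetOf 3489 = S := hg
  have hd := CfsgLib.OrbD28.dec_ss.smul CfsgLib.OrbG28.sextets_inv g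
  rw [hg'] at hd
  obtain ⟨X₀, h0, X₁, h1, X₂, h2, X₃, h3, c0, c1, c2, c3, hu⟩ :=
    CfsgLib.Trio28.Dec.out4 (n₁ := 1) (n₂ := 90) (n₃ := 240) (n₄ := 1440) hd CfsgLib.OrbG28.sextets_inv
  have hmem : S ∈ MulAction.orbit ↥(MulAction.stabilizer ↥M24 S) X₀ := by
    by_contra hcon
    have hS1 := hS
    rw [hu] at hS1
    have hfix : ∀ X, S ∈ MulAction.orbit ↥(MulAction.stabilizer ↥M24 S) X →
        (MulAction.orbit ↥(MulAction.stabilizer ↥M24 S) X).ncard = 1 := by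
      intro X hX
      have e1 := MulAction.orbit_eq_iff.mpr hX
      rw [← e1, Set.ncard_eq_one]
      refine ⟨S, ?_⟩
      ext T
      constructor
      · rintro ⟨h, rfl⟩
        exact h.2
      · intro hT
        rw [Set.mem_singleton_iff] at hT
        rw [hT]; exact MulAction.mem_orbit_self _
    rcases hS1 with ((h | h) | h) | h
    · exact hcon h
    · have := hfix _ h; omega
    · have := hfix _ h; omega
    · have := hfix _ h; omega
  have h0' := CfsgLib.Trio28.orbit_eq_singleton_of_ncard c0 hmem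
  rw [h0'] at hu
  exact ⟨X₁, h1, X₂, h2, X₃, h3, c1, c2, c3, hu, hco⟩

end Cfsg.Agent.S1552
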