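import Cfsg.Statements.S1553
import Cfsg.Agent.LibRestr28

set_option autoImplicit false
open scoped Pointwise
open Cfsg

namespace Cfsg.Agent.S1553

/-- The stabiliser of an octad in the group of the length-24 code induces on the octad exactly its alternating group. -/
theorem result (o : Finset Cfsg.GolayPt) (ho : o ∈ Cfsg.octads) : {e : Equiv.Perm ↥o | ∃ g : Equiv.Perm Cfsg.GolayPt, g ∈ Cfsg.M24 ∧ ∃ h : (∀ x, g x ∈ o ↔ x ∈ o), g.subtypePerm h = e} = (alternatingGroup ↥o : Set (Equiv.Perm ↥o)) := by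
  open CfsgLib.Restr28 in
  have hS : ∀ g ∈ M24 ⊓ MulAction.stabilizer (Equiv.Perm GolayPt) o, ∀ x, g x ∈ o ↔ x ∈ o :=
    fun g hg => CfsgLib.Restr28.stab_iff.1 (Subgroup.mem_inf.1 hg).2
  have h1 := CfsgLib.Restr28.card_range_restr (M24 ⊓ MulAction.stabilizer (Equiv.Perm GolayPt) o) o hS
    (M24 ⊓ fixingSubgroup (Equiv.Perm GolayPt) (o : Set GolayPt))
    (by
      intro g hg
      rw [Subgroup.mem_inf, CfsgLib.Restr28.mem_fixing] at hg
      exact Subgroup.mem_inf.2 ⟨hg.1, CfsgLib.Restr28.stab_of_fixing hg.2⟩)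
    (by
      intro g hg
      rw [Subgroup.mem_inf, CfsgLib.Restr28.mem_fixing]
      exact ⟨fun h => h.2, fun h => ⟨(Subgroup.mem_inf.1 hg).1, h⟩⟩)
  rw [(CfsgLib.M24.octad_pointwise ho).1, CfsgLib.Restr28.card_stab_oct ho] at h1
  have h2 := CfsgLib.Restr28.range_octad ho _ hS (by omega)
  rw [← h2]
  ext e
  rw [SetLike.mem_coe, MonoidHom.mem_range]
  constructor
  · rintro ⟨g, hg, h, rfl⟩
    exact ⟨⟨g, Subgroup.mem_inf.2 ⟨hg, CfsgLib.Restr28.stab_iff.2 h⟩⟩, rfl⟩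
  · rintro ⟨g, rfl⟩
    exact ⟨g, (Subgroup.mem_inf.1 g.2).1, hS g g.2, rfl⟩

end Cfsg.Agent.S1553
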