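import Cfsg.Statements.S1555
import Cfsg.Agent.LibM24f

set_option autoImplicit false
open scoped Pointwise
open Cfsg

namespace Cfsg.Agent.S1555

open CfsgLib.Steiner CfsgLib.M24 CfsgLib.Golay in
theorem four_case {o : Finset GolayPt} (ho : o ∈ octads) {t : Finset GolayPt} (ht : t ⊆ o) (h4 : t.card = 4) :
    ((blocks octads).filter fun o' => o ∩ o' = t).card = 4 := by
  classical
  have h1 := lam_mul octads_steiner t (by omega)
  rw [h4, CfsgLib.Golay.card_pt] at h1
  have h2 : lam octads t = 5 := by
    have e1 : Nat.choose (8 - 4) (5 - 4) = 4 := by decide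
    have e2 : Nat.choose (24 - 4) (5 - 4) = 20 := by decide
    rw [e1, e2] at h1
    omega
  have h3 : ((blocks octads).filter fun b => t ⊆ b) = insert o ((blocks octads).filter fun o' => o ∩ o' = t) := by
    ext b
    rw [Finset.mem_insert, Finset.mem_filter, Finset.mem_filter, mem_blocks]
    constructor
    · rintro ⟨hb, htb⟩
      by_cases hbo : b = o
      · exact Or.inl hbo
      · right
        refine ⟨hb, ?_⟩
        have h5 := card_octad_inter_octad ho hb (Ne.symm hbo)
        have h6 : t ⊆ o ∩ b := Finset.subset_inter ht htb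
        have h7 := Finset.card_le_card h6
        symm
        apply Finset.eq_of_subset_of_card_le h6
        omega
    · rintro (rfl | ⟨hb, hob⟩)
      · exact ⟨ho, ht⟩
      · exact ⟨hb, by rw [← hob]; exact Finset.inter_subset_right⟩
  rw [lam, h3, Finset.card_insert_of_notMem] at h2
  · omega
  · rw [Finset.mem_filter, Finset.inter_self]
    rintro ⟨_, h5⟩
    have h8 : o.card = 8 := ho.2
    rw [h5] at h8
    omega

open CfsgLib.Steiner CfsgLib.M24 CfsgLib.Golay in
theorem two_case {o : Finset GolayPt} (ho : o ∈ octads) {s : Finset GolayPt} (hs : s ⊆ o) (h2 : s.card = 2) :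
    ((blocks octads).filter fun o' => o ∩ o' = s).card = 16 := by
  classical
  have h1 := lam_mul octads_steiner s (by omega)
  rw [h2, CfsgLib.Golay.card_pt] at h1
  have h3 : lam octads s = 77 := by
    have e1 : Nat.choose (8 - 2) (5 - 2) = 20 := by decide
    have e2 : Nat.choose (24 - 2) (5 - 2) = 1540 := by decide
    rw [e1, e2] at h1
    omega
  have h8 : o.card = 8 := ho.2
  let ts : Finset (Finset GolayPt) := (Finset.powersetCard 4 (Finset.univ : Finset GolayPt)).filter fun u => s ⊆ u ∧ u ⊆ o
  have hts : ts.card = 15 := by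
    have := card_between (t := 4) s o hs (by omega)
    rw [h8, h2] at this
    exact this
  have hmem : ∀ t, t ∈ ts ↔ t.card = 4 ∧ s ⊆ t ∧ t ⊆ o := by
    intro t
    rw [Finset.mem_filter, Finset.mem_powersetCard]
    constructor
    · rintro ⟨⟨_, h⟩, h'⟩; exact ⟨h, h'⟩
    · rintro ⟨h, h'⟩; exact ⟨⟨Finset.subset_univ _, h⟩, h'⟩
  have h4 : ((blocks octads).filter fun b => s ⊆ b) = insert o (((blocks octads).filter fun o' => o ∩ o' = s) ∪
      ts.biUnion fun t => (blocks octads).filter fun o' => o ∩ o' = t) := by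
    ext b
    rw [Finset.mem_insert, Finset.mem_union, Finset.mem_biUnion, Finset.mem_filter, Finset.mem_filter, mem_blocks]
    constructor
    · rintro ⟨hb, htb⟩
      by_cases hbo : b = o
      · exact Or.inl hbo
      · right
        have h5 := card_octad_inter_octad ho hb (Ne.symm hbo)
        have h6 : s ⊆ o ∩ b := Finset.subset_inter hs htb
        have h7 := Finset.card_le_card h6
        have h9 : (o ∩ b).card = 2 ∨ (o ∩ b).card = 4 := by omega
        rcases h9 with h9 | h9
        · left
          exact ⟨hb, (Finset.eq_of_subset_of_card_le h6 (by omega)).symm⟩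
        · right
          exact ⟨o ∩ b, (hmem _).2 ⟨h9, h6, Finset.inter_subset_left⟩, Finset.mem_filter.2 ⟨mem_blocks.2 hb, rfl⟩⟩
    · rintro (rfl | ⟨hb, hob⟩ | ⟨t, ht, hbt⟩)
      · exact ⟨ho, hs⟩
      · exact ⟨hb, by rw [← hob]; exact Finset.inter_subset_right⟩
      · rw [Finset.mem_filter, mem_blocks] at hbt
        rw [hmem] at ht
        exact ⟨hbt.1, ht.2.1.trans (by rw [← hbt.2]; exact Finset.inter_subset_right)⟩
  rw [lam, h4, Finset.card_insert_of_notMem, Finset.card_union_of_disjoint, Finset.card_biUnion,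
    Finset.sum_congr rfl (fun t ht => four_case ho ((hmem t).1 ht).2.2 ((hmem t).1 ht).1), Finset.sum_const,
    smul_eq_mul, hts] at h3
  · omega
  · intro t _ t' _ htt'
    rw [Function.onFun, Finset.disjoint_left]
    intro b hb hb'
    rw [Finset.mem_filter] at hb hb'
    exact htt' (hb.2.symm.trans hb'.2)
  · rw [Finset.disjoint_left]
    intro b hb hb'
    rw [Finset.mem_filter] at hb
    rw [Finset.mem_biUnion] at hb'
    obtain ⟨t, ht, hbt⟩ := hb'
    rw [Finset.mem_filter] at hbt
    rw [hmem] at ht
    have : s = t := hb.2.symm.trans hbt.2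
    rw [← this] at ht
    omega
  · rw [Finset.mem_union, Finset.mem_biUnion, Finset.mem_filter, Finset.inter_self]
    rintro (⟨_, h5⟩ | ⟨t, ht, hbt⟩)
    · rw [h5] at h8; omega
    · rw [Finset.mem_filter, Finset.inter_self] at hbt
      rw [hmem] at ht
      rw [hbt.2] at h8
      omega

/-- Bottom row of the Leech triangle: an octad is met in a prescribed pair of its points by exactly 16 octads and in a prescribed 4-subset by exactly 4 octads. -/
theorem result (o : Finset Cfsg.GolayPt) (ho : o ∈ Cfsg.octads) (s : Finset Cfsg.GolayPt) (hs : s ⊆ o) : (s.card = 2 → {o' : Finset Cfsg.GolayPt | o' ∈ Cfsg.octads ∧ o ∩ o' = s}.ncard = 16) ∧ (s.card = 4 → {o' : Finset Cfsg.GolayPt | o' ∈ Cfsg.octads ∧ o ∩ o' = s}.ncard = 4) := by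
  classical
  have key : ∀ t : Finset GolayPt, {o' : Finset GolayPt | o' ∈ octads ∧ o ∩ o' = t} =
      ((((CfsgLib.Steiner.blocks octads).filter fun o' => o ∩ o' = t) : Finset (Finset GolayPt)) : Set (Finset GolayPt)) := by
    intro t
    ext b
    rw [Finset.mem_coe, Finset.mem_filter, CfsgLib.Steiner.mem_blocks]; rfl
  constructor
  · intro h2
    rw [key, Set.ncard_coe_finset]
    exact two_case ho hs h2
  · intro h4
    rw [key, Set.ncard_coe_finset]
    exact four_case ho hs h4

end Cfsg.Agent.S1555
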