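import Cfsg.Statements.S1559
import Cfsg.Agent.LibOrbF28
import Cfsg.Agent.LibOrbOut28

set_option autoImplicit false
open scoped Pointwise
open Cfsg

namespace Cfsg.Agent.S1559

/-- A trio stabiliser has five orbits on the 3795 trios, of sizes 1, 42, 56, 1008, 2688; and the stabiliser is a maximal proper subgroup. -/
theorem result (T : Finset (Finset Cfsg.GolayPt)) (hT : T ∈ Cfsg.trios) : ∃ X₁ ∈ Cfsg.trios, ∃ X₂ ∈ Cfsg.trios, ∃ X₃ ∈ Cfsg.trios, ∃ X₄ ∈ Cfsg.trios, (MulAction.orbit ↥(MulAction.stabilizer Cfsg.M24 T) X₁).ncard = 42 ∧ (MulAction.orbit ↥(MulAction.stabilizer Cfsg.M24 T) X₂).ncard = 56 ∧ (MulAction.orbit ↥(MulAction.stabilizer Cfsg.M24 T) X₃).ncard = 1008 ∧ (MulAction.orbit ↥(MulAction.stabilizer Cfsg.M24 T) X₄).ncard = 2688 ∧ Cfsg.trios = {T} ∪ MulAction.orbit ↥(MulAction.stabilizer Cfsg.M24 T) X₁ ∪ MulAction.orbit ↥(MulAction.stabilizer Cfsg.M24 T) X₂ ∪ MulAction.orbit ↥(MulAction.stabilizer Cfsg.M24 T) X₃ ∪ MulAction.orbit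 ↥(MulAction.stabilizer Cfsg.M24 T) X₄ ∧ IsCoatom (MulAction.stabilizer Cfsg.M24 T) := by
  have hco := CfsgLib.OrbOut28.coatom_of_dec CfsgLib.OrbF28.dec_tt (CfsgLib.Trio28.trios_eq_orbit CfsgLib.OrbF28.T0_mem)
    CfsgLib.Trio28.trios_ncard CfsgLib.OrbG28.trios_finite 0
    (by
      have e1 : CfsgLib.TrioKey28.tobj 10252323 ∈ trios :=
        (CfsgLib.TrioKey28.tgood_spec (k := 10252323) (by decide +kernel)).2.2.2
      show CfsgLib.TrioKey28.tobj 10252323 = CfsgLib.Trio28.trioOf (CfsgLib.Golay.fset 2702848) (CfsgLib.Golay.fset 5538256)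
      symm
      apply CfsgLib.Trio28.eq_trioOf CfsgLib.OrbF28.T0_mem
      · exact CfsgLib.TrioKey28.inTrio_spec (a := 2702848) (b := 5538256) (by decide +kernel)
      · exact CfsgLib.TrioKey28.inTrio_spec (a := 2702848) (b := 5538256) (by decide +kernel)
      · intro h
        have := CfsgLib.TrioKey28.cw_inj (by decide) (by decide) h
        revert this; decide)
    (by decide) (by norm_num) (by decide +kernel) T hT
  have hT' := hT
  rw [CfsgLib.Trio28.trios_eq_orbit CfsgLib.OrbF28.T0_mem] at hT'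
  obtain ⟨g, hg⟩ := hT'
  have hg' : g • CfsgLib.OrbF28.T0 = T := hg
  have hd := CfsgLib.OrbF28.dec_tt.smul CfsgLib.OrbG28.trios_inv g
  rw [hg'] at hd
  have hu0 := CfsgLib.Trio28.Dec.eq_iUnion hd CfsgLib.OrbG28.trios_inv
  have hfix : ∀ X, T ∈ MulAction.orbit ↥(MulAction.stabilizer ↥M24 T) X →
      (MulAction.orbit ↥(MulAction.stabilizer ↥M24 T) X).ncard = 1 ∧
        MulAction.orbit ↥(MulAction.stabilizer ↥M24 T) X = {T} := by
    intro X hX
    have e1 := MulAction.orbit_eq_iff.mpr hX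
    have e2 : MulAction.orbit ↥(MulAction.stabilizer ↥M24 T) X = {T} := by
      rw [← e1]
      ext T'
      constructor
      · rintro ⟨h, rfl⟩
        exact h.2
      · intro hT
        rw [Set.mem_singleton_iff] at hT
        rw [hT]; exact MulAction.mem_orbit_self _
    exact ⟨by rw [e2, Set.ncard_singleton], e2⟩
  obtain ⟨i, hi⟩ := hd.cover T hT
  have h0 : i = 0 := by
    have h1 := (hfix _ hi).1
    rw [hd.card i] at h1
    clear hi
    revert i
    decide
  rw [h0] at hi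
  have h00 := (hfix _ hi).2
  refine ⟨_, hd.mem 1, _, hd.mem 2, _, hd.mem 3, _, hd.mem 4, hd.card 1, hd.card 2, hd.card 3, hd.card 4, ?_, hco⟩
  conv_lhs => rw [hu0]
  rw [← h00]
  ext b
  simp only [Set.mem_iUnion, Set.mem_union]
  constructor
  · rintro ⟨i, hi⟩
    fin_cases i
    · exact Or.inl (Or.inl (Or.inl (Or.inl hi)))
    · exact Or.inl (Or.inl (Or.inl (Or.inr hi)))
    · exact Or.inl (Or.inl (Or.inr hi))
    · exact Or.inl (Or.inr hi)
    · exact Or.inr hi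
  · rintro ((((hi | hi) | hi) | hi) | hi)
    · exact ⟨0, hi⟩
    · exact ⟨1, hi⟩
    · exact ⟨2, hi⟩
    · exact ⟨3, hi⟩
    · exact ⟨4, hi⟩

end Cfsg.Agent.S1559
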