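import Cfsg.Statements.S1563
import Cfsg.Agent.LibTriad28

set_option autoImplicit false
open scoped Pointwise
open Cfsg

namespace Cfsg.Agent.S1563

/-- The stabiliser of a pair of points (setwise) is a maximal proper subgroup of the group of the length-24 code. -/
theorem result (s : Finset Cfsg.GolayPt) (hs : s.card = 2) : IsCoatom (MulAction.stabilizer Cfsg.M24 s) := by
  obtain ⟨X, hX0, hX⟩ := CfsgLib.Triad28.dec_duad hs
  exact CfsgLib.OrbOut28.coatom_of_dec (N := 276) hX (CfsgLib.Triad28.sets_eq_orbit (by norm_num) hs)
    (by rw [CfsgLib.Triad28.ncard_sets]; decide) (Set.toFinite _) 0 hX0 (by decide) (by norm_num)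
    (by decide +kernel) s hs

end Cfsg.Agent.S1563
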