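import Cfsg.Statements.S1566
import Cfsg.Agent.LibOrbE28
import Cfsg.Agent.LibOrbOut28

set_option autoImplicit false
open scoped Pointwise
open Cfsg

namespace Cfsg.Agent.S1566

/-- The setwise stabiliser of a dodecad together with its complement is a maximal proper subgroup of the group of the length-24 code. -/
theorem result (d : Finset Cfsg.GolayPt) (hd : d ∈ Cfsg.dodecads) : IsCoatom (MulAction.stabilizer Cfsg.M24 ({d, dᶜ} : Finset (Finset Cfsg.GolayPt))) := by
  exact CfsgLib.OrbOut28.coatom_of_dec CfsgLib.OrbE28.dec_pp (CfsgLib.OrbG28.dpairs_eq_orbit CfsgLib.OrbE28.d0_mem')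
    CfsgLib.OrbG28.dpairs_card CfsgLib.OrbG28.dpairs_finite 0
    (by
      show CfsgLib.OrbG28.cpl (CfsgLib.Golay.fset (CfsgLib.Golay.cw 363)) = _
      rw [CfsgLib.OrbG28.cpl_eq_iff]
      right
      rw [show 8442831 = CfsgLib.Golay.cw (363 ^^^ 2048) from by decide +kernel, CfsgLib.OrbG28.fset_cw_compl, compl_compl])
    (by decide) (by norm_num) (by decide +kernel) _ ⟨d, hd, rfl⟩

end Cfsg.Agent.S1566
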