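import Cfsg.Statements.S1567
import Mathlib
import Cfsg.Agent.LibCoI

set_option autoImplicit false
open Cfsg

namespace Cfsg.Agent.S1567

/-- The rank-24 lattice is the additive subgroup generated by its 196560 minimal vectors. -/
theorem result : AddSubgroup.closure {x : Cfsg.GolayPt → ℤ | x ∈ Cfsg.leechLattice ∧ Cfsg.sqNorm x = 32} = Cfsg.leechLattice := by
  exact CfsgLib.Co.closure_min

end Cfsg.Agent.S1567
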