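import Cfsg.Statements.S1569
import Mathlib
import Cfsg.Agent.LibFrameC

set_option autoImplicit false
open scoped Pointwise
open Cfsg

namespace Cfsg.Agent.S1569

/-- The cross through a lattice vector of customary norm 8 has exactly 48 members. -/
theorem result (x : Cfsg.GolayPt → ℤ) (hx : x ∈ Cfsg.leechLattice) (hxn : Cfsg.sqNorm x = 64) : (Cfsg.cross x).ncard = 48 := by
  rw [CfsgLib.Leech.leechLattice_eq] at hx
  have H := CfsgLib.Frame.hyp_Lam
  have hB : CfsgLib.Frame.BL ⟨x, hx⟩ ⟨x, hx⟩ = 8 := by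
    have := CfsgLib.Frame.BL_self ⟨x, hx⟩
    have e : sqNorm ((⟨x, hx⟩ : CfsgLib.Leech.Lam) : CfsgLib.Leech.E) = 64 := hxn
    omega
  have h := (CfsgLib.Frame.counting H).1 ⟨x, hx⟩ hB
  have e : cross x = Subtype.val '' CfsgLib.Frame.cls CfsgLib.Frame.BL ⟨x, hx⟩ := by
    ext y
    constructor
    · rintro ⟨h1, h2, z, h3, h4⟩
      rw [CfsgLib.Leech.leechLattice_eq] at h1 h3
      refine ⟨⟨y, h1⟩, ⟨?_, ⟨z, h3⟩, Subtype.ext ?_⟩, rfl⟩
      · have := CfsgLib.Frame.BL_self ⟨y, h1⟩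
        have e : sqNorm ((⟨y, h1⟩ : CfsgLib.Leech.Lam) : CfsgLib.Leech.E) = 64 := h2.trans hxn
        omega
      · rw [← two_nsmul]; exact h4
    · rintro ⟨⟨y, h1⟩, ⟨h2, ⟨z, h3⟩, h4⟩, rfl⟩
      rw [cross, CfsgLib.Leech.leechLattice_eq]
      refine ⟨h1, ?_, z, h3, ?_⟩
      · have := CfsgLib.Frame.BL_self ⟨y, h1⟩
        rw [hxn, ← this, h2]; rfl
      · rw [two_nsmul]; exact congrArg Subtype.val h4
  rw [e, Set.ncard_image_of_injective _ Subtype.val_injective, h]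

end Cfsg.Agent.S1569
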