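import Cfsg.Statements.S1571
import Mathlib
import Cfsg.Agent.LibCoD

set_option autoImplicit false
open scoped Pointwise
open Cfsg

namespace Cfsg.Agent.S1571

/-- The stabiliser of the standard cross in the automorphism group of the lattice is the monomial group of the code: each of its elements acts as a signed permutation with permutation part in the code's group and sign set a codeword, and it has order 4096 · 244823040. -/
theorem result : (∀ g : ↥Cfsg.Co0, (∀ v : ↥Cfsg.leechLattice, (v : Cfsg.GolayPt → ℤ) ∈ Cfsg.stdCross → ((g • v : ↥Cfsg.leechLattice) : Cfsg.GolayPt → ℤ) ∈ Cfsg.stdCross) → ∃ f ∈ Cfsg.golayMonomialMaps, ∀ v : ↥Cfsg.leechLattice, ((g • v : ↥Cfsg.leechLattice) : Cfsg.GolayPt → ℤ) = f (v : Cfsg.GolayPt → ℤ)) ∧ Nat.card {g : ↥Cfsg.Co0 // (∀ v : ↥Cfsg.leechLattice, (v : Cfsg.GolayPt → ℤ) ∈ Cfsg.stdCross → ((g • v : ↥Cfsg.leechLattice) : Cfsg.GolayPt → ℤ) ∈ Cfsg.stdCross)} = 4096 * 244823040 := by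
  constructor
  · intro g hg
    obtain ⟨σ, hσ, c, hc, rfl⟩ := CfsgLib.Co.exists_of_NN (g := g) hg
    refine ⟨signedPerm σ⁻¹ (support₂ c), ⟨σ⁻¹, inv_mem hσ, support₂ c, ⟨c, hc, rfl⟩, rfl⟩, fun v => ?_⟩
    funext i
    rw [CfsgLib.Co.mono_apply, signedPerm]
    by_cases h : c i = 0
    · rw [if_neg (by simp [support₂, h]), h, CfsgLib.Leech.lf_zero]
      change (1 - 2 * 0) * (v : GolayPt → ℤ) (σ i) = (v : GolayPt → ℤ) (σ⁻¹⁻¹ i)
      rw [inv_inv]; ring
    · rw [if_pos (by simp [support₂, h]), CfsgLib.Leech.lf_eq_one.2 h]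
      change (1 - 2 * 1) * (v : GolayPt → ℤ) (σ i) = -(v : GolayPt → ℤ) (σ⁻¹⁻¹ i)
      rw [inv_inv]; ring
  · exact CfsgLib.Co.card_NN

end Cfsg.Agent.S1571
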