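import Cfsg.Statements.S1573
import Mathlib
import Cfsg.Agent.LibCoE

set_option autoImplicit false
open Cfsg

namespace Cfsg.Agent.S1573

/-- Census of minimal vectors by inner product with a fixed minimal vector: 4600 have customary inner product −2, 47104 have −1, and 93150 are orthogonal. -/
theorem result (v : Cfsg.GolayPt → ℤ) (hv : v ∈ Cfsg.leechLattice) (hvn : Cfsg.sqNorm v = 32) : {w : Cfsg.GolayPt → ℤ | w ∈ Cfsg.leechLattice ∧ Cfsg.sqNorm w = 32 ∧ Cfsg.dotInt v w = -16}.ncard = 4600 ∧ {w : Cfsg.GolayPt → ℤ | w ∈ Cfsg.leechLattice ∧ Cfsg.sqNorm w = 32 ∧ Cfsg.dotInt v w = -8}.ncard = 47104 ∧ {w : Cfsg.GolayPt → ℤ | w ∈ Cfsg.leechLattice ∧ Cfsg.sqNorm w = 32 ∧ Cfsg.dotInt v w = 0}.ncard = 93150 := by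
  have key : ∀ r : ℤ, {w : GolayPt → ℤ | w ∈ leechLattice ∧ sqNorm w = 32 ∧ dotInt v w = r}.ncard =
      CfsgLib.Co.cntD ⟨v, hv⟩ 32 r := by
    intro r
    have : {w : GolayPt → ℤ | w ∈ leechLattice ∧ sqNorm w = 32 ∧ dotInt v w = r} =
        Subtype.val '' {w : leechLattice | sqNorm (w : GolayPt → ℤ) = 32 ∧ dotInt v (w : GolayPt → ℤ) = r} := by
      ext w
      constructor
      · rintro ⟨h1, h2, h3⟩; exact ⟨⟨w, h1⟩, ⟨h2, h3⟩, rfl⟩
      · rintro ⟨w, ⟨h2, h3⟩, rfl⟩; exact ⟨w.2, h2, h3⟩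
    rw [this, Set.ncard_image_of_injective _ Subtype.val_injective]
    rfl
  rw [key, key, key]
  exact CfsgLib.Co.census32 ⟨v, hv⟩ hvn

end Cfsg.Agent.S1573
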