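import Cfsg.Statements.S1575
import Mathlib
import Cfsg.Agent.LibCoC

set_option autoImplicit false
open Cfsg

namespace Cfsg.Agent.S1575

/-- The stabiliser of a minimal vector is transitive on the minimal vectors of customary inner product −1 with it. -/
theorem result (v w w' : ↥Cfsg.leechLattice) (hv : Cfsg.sqNorm (v : Cfsg.GolayPt → ℤ) = 32) (hw : Cfsg.sqNorm (w : Cfsg.GolayPt → ℤ) = 32) (hw' : Cfsg.sqNorm (w' : Cfsg.GolayPt → ℤ) = 32) (hd : Cfsg.dotInt (v : Cfsg.GolayPt → ℤ) (w : Cfsg.GolayPt → ℤ) = -8) (hd' : Cfsg.dotInt (v : Cfsg.GolayPt → ℤ) (w' : Cfsg.GolayPt → ℤ) = -8) : ∃ g : ↥Cfsg.Co0, g • v = v ∧ g • w = w' := by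
  obtain ⟨g, hg, hgw⟩ := CfsgLib.Co.tr_m8 v w hv hw hd
  obtain ⟨g', hg', hgw'⟩ := CfsgLib.Co.tr_m8 v w' hv hw' hd'
  have e1 : g • v = g' • v := Subtype.ext (hg.trans hg'.symm)
  have e2 : g • (v + w) = g' • (v + w') := Subtype.ext (hgw.trans hgw'.symm)
  rw [CfsgLib.Co.act_add, CfsgLib.Co.act_add, e1] at e2
  refine ⟨g'⁻¹ * g, ?_, ?_⟩
  · rw [mul_smul, inv_smul_eq_iff]
    exact e1
  · rw [mul_smul, inv_smul_eq_iff]
    exact add_left_cancel e2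

end Cfsg.Agent.S1575
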