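import Cfsg.Statements.S1579
import Mathlib
import Cfsg.Agent.LibCoC

set_option autoImplicit false
open Cfsg

namespace Cfsg.Agent.S1579

/-- The stabiliser of a vector of customary norm 6 is transitive on the 552 minimal vectors that complete it to a sum of two minimal vectors. -/
theorem result (u v v' : ↥Cfsg.leechLattice) (hu : Cfsg.sqNorm (u : Cfsg.GolayPt → ℤ) = 48) (hv : Cfsg.sqNorm (v : Cfsg.GolayPt → ℤ) = 32 ∧ Cfsg.sqNorm ((u - v) : Cfsg.GolayPt → ℤ) = 32) (hv' : Cfsg.sqNorm (v' : Cfsg.GolayPt → ℤ) = 32 ∧ Cfsg.sqNorm ((u - v') : Cfsg.GolayPt → ℤ) = 32) : ∃ g : ↥Cfsg.Co0, g • u = u ∧ g • v = v' := by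
  have key : ∀ x : leechLattice, sqNorm (x : GolayPt → ℤ) = 32 → sqNorm ((u : GolayPt → ℤ) - (x : GolayPt → ℤ)) = 32 →
      dotInt (x : GolayPt → ℤ) (u : GolayPt → ℤ) = 24 := by
    intro x h1 h2
    rw [CfsgLib.Co.sqNorm_sub, hu, h1, CfsgLib.Co.dot_comm] at h2
    omega
  obtain ⟨g, hg, hgw⟩ := CfsgLib.Co.tr48' u v hu hv.1 (key v hv.1 hv.2)
  obtain ⟨g', hg', hgw'⟩ := CfsgLib.Co.tr48' u v' hu hv'.1 (key v' hv'.1 hv'.2)
  refine ⟨g'⁻¹ * g, ?_, ?_⟩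
  · rw [mul_smul, inv_smul_eq_iff]
    exact Subtype.ext (hgw.trans hgw'.symm)
  · rw [mul_smul, inv_smul_eq_iff]
    exact Subtype.ext (hg.trans hg'.symm)

end Cfsg.Agent.S1579
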