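import Cfsg.Statements.S1586
import Mathlib
import Cfsg.Agent.LibHS
import Cfsg.Agent.LibM24e
import Cfsg.Agent.S0414

set_option autoImplicit false
open Cfsg

namespace Cfsg.Agent.S1586

open CfsgLib.HS CfsgLib.M24 CfsgLib.Golay in
theorem aux {α : Type*} [Fintype α] [DecidableEq α] (hα : Fintype.card α = 22) {B : Set (Finset α)} (hB : Cfsg.IsSteinerSystem 3 6 B) : Nat.card (Cfsg.pointBlockGraph B ≃g Cfsg.pointBlockGraph B) = 88704000 := by
  classical
  haveI : Fintype B := Fintype.ofFinite B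
  have hr : (isoHom (Cfsg.pointBlockGraph B)).range = autG (Cfsg.pointBlockGraph B) := by
    apply le_antisymm
    · rintro _ ⟨f, rfl⟩ x y
      exact f.map_adj_iff
    · intro σ hσ; exact mem_range_isoHom hσ
  have h1 : Nat.card (Cfsg.pointBlockGraph B ≃g Cfsg.pointBlockGraph B) = Nat.card ↥(autG (Cfsg.pointBlockGraph B)) := by
    rw [← hr]
    exact Nat.card_congr (MonoidHom.ofInjective (isoHom_injective _)).toEquiv
  have h2 := card_inf_stabilizer (autG (Cfsg.pointBlockGraph B)) (none : Option (α ⊕ B))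
  have h3 : (MulAction.orbit (autG (Cfsg.pointBlockGraph B)) (none : Option (α ⊕ B))).ncard = 100 := by
    have h4 : MulAction.orbit (autG (Cfsg.pointBlockGraph B)) (none : Option (α ⊕ B)) = Set.univ := by
      rw [Set.eq_univ_iff_forall]
      intro x
      obtain ⟨σ, hσ, h5⟩ := graph_trans hα hB none x
      exact ⟨⟨σ, hσ⟩, h5⟩
    rw [h4, Set.ncard_univ, Nat.card_eq_fintype_card, card_V hα hB]
  have h4 : autG (Cfsg.pointBlockGraph B) ⊓ MulAction.stabilizer (Equiv.Perm (Option (α ⊕ B))) (none : Option (α ⊕ B)) =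
      (ext (B := B)).range := by
    apply le_antisymm
    · rintro σ ⟨hσ, h0⟩
      obtain ⟨g, hg⟩ := exists_ext hσ h0
      exact ⟨g, hg⟩
    · rintro _ ⟨g, rfl⟩
      exact ⟨ext_mem g, ext_none g⟩
  have h5 : Nat.card ↥((ext (B := B)).range) = 887040 := by
    rw [← Nat.card_congr (MonoidHom.ofInjective (ext_injective (B := B))).toEquiv]
    exact (Cfsg.Agent.S0414.result hα hB).1
  rw [h1, ← h2, h3, h4, h5]

/-- The Higman–Sims graph built from an S(3, 6, 22) has exactly 88704000 automorphisms. -/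
theorem result {α : Type*} [Fintype α] [DecidableEq α] (hα : Fintype.card α = 22) {B : Set (Finset α)} (hB : Cfsg.IsSteinerSystem 3 6 B) : Nat.card (Cfsg.pointBlockGraph B ≃g Cfsg.pointBlockGraph B) = 88704000 := by
  exact aux hα hB

end Cfsg.Agent.S1586
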