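import Cfsg.Statements.S1589
import Cfsg.Agent.EqBase
import Cfsg.Agent.LibIdxF28

set_option autoImplicit false
open scoped Pointwise
open Cfsg

namespace Cfsg.Agent.S1589

/-- Subgroups of the group of the length-24 code of index 759, 276 and 1771 are exactly the octad, duad and sextet stabilisers, and no subgroup has index 253. -/
theorem result : (∀ H : Subgroup ↥Cfsg.M24, H.index = 759 → ∃ o ∈ Cfsg.octads, H = MulAction.stabilizer Cfsg.M24 o) ∧ (∀ H : Subgroup ↥Cfsg.M24, H.index = 276 → ∃ s : Finset Cfsg.GolayPt, s.card = 2 ∧ H = MulAction.stabilizer Cfsg.M24 s) ∧ (∀ H : Subgroup ↥Cfsg.M24, H.index = 1771 → ∃ S ∈ Cfsg.sextets, H = MulAction.stabilizer Cfsg.M24 S) ∧ ∀ H : Subgroup ↥Cfsg.M24, H.index ≠ 253 := by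
  have hcard : ∀ (H : Subgroup ↥Cfsg.M24) (i n : ℕ), H.index = i → n * i = 244823040 → 0 < i → Nat.card ↥H = n := by
    intro H i n h1 h2 h3
    have h4 := Subgroup.card_mul_index H
    rw [h1, CfsgLib.OrbG28.M24_card, ← h2] at h4
    exact Nat.eq_of_mul_eq_mul_right h3 h4
  refine ⟨fun H hH => ?_, fun H hH => ?_, fun H hH => ?_, fun H hH => ?_⟩
  · exact CfsgLib.Idx28.idx759 (hcard H 759 322560 hH (by norm_num) (by norm_num))
  · exact CfsgLib.Idx28.idx276 (hcard H 276 887040 hH (by norm_num) (by norm_num))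
  · exact CfsgLib.Idx28.idx1771 (hcard H 1771 138240 hH (by norm_num) (by norm_num))
  · exact CfsgLib.Idx28.no253 (hcard H 253 967680 hH (by norm_num) (by norm_num))

end Cfsg.Agent.S1589
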