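import Cfsg.Statements.S1590
import Cfsg.Agent.LibTern28

set_option autoImplicit false
open Cfsg

namespace Cfsg.Agent.S1590

open CfsgLib.Tern28

/-- The length-12 ternary code has 729 words with weight distribution 0^1 6^264 9^440 12^24. -/
theorem result : Nat.card ↥Cfsg.ternaryGolayCode = 729 ∧ (∀ x ∈ Cfsg.ternaryGolayCode, x ≠ 0 → (Cfsg.ternarySupport x).card = 6 ∨ (Cfsg.ternarySupport x).card = 9 ∨ (Cfsg.ternarySupport x).card = 12) ∧ {x : Cfsg.ArrayPt → ZMod 3 | x ∈ Cfsg.ternaryGolayCode ∧ (Cfsg.ternarySupport x).card = 6}.ncard = 264 ∧ {x : Cfsg.ArrayPt → ZMod 3 | x ∈ Cfsg.ternaryGolayCode ∧ (Cfsg.ternarySupport x).card = 9}.ncard = 440 ∧ {x : Cfsg.ArrayPt → ZMod 3 | x ∈ Cfsg.ternaryGolayCode ∧ (Cfsg.ternarySupport x).card = 12}.ncard = 24 := by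
  refine ⟨card_code, ?_, ?_, ?_, ?_⟩
  · intro x hx h0
    obtain ⟨k, hk, rfl⟩ := mem_code.1 hx
    have hk0 : k ≠ 0 := by
      rintro rfl; exact h0 word_zero
    rw [card_support]
    exact weights k (List.mem_range.2 hk) hk0
  · rw [count_wt]; decide +kernel
  · rw [count_wt]; decide +kernel
  · rw [count_wt]; decide +kernel

end Cfsg.Agent.S1590
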