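import Cfsg.Statements.S1595
import Cfsg.Agent.LibUniqAll

set_option autoImplicit false
open Cfsg

namespace Cfsg.Agent.S1595

open CfsgLib.Uniq CfsgLib.Golay

/-- counting -/
def cnt : List ℕ → ℕ → ℕ → ℕ
  | [], _, _ => 0
  | c :: l, b, s => Nat.add (cond (Nat.beq (Nat.land b c) s) 1 0) (cnt l b s)

theorem cnt_eq (l : List ℕ) (b s : ℕ) : cnt l b s = (l.filter fun c => Nat.beq (Nat.land b c) s).length := by
  induction l with
  | nil => rfl
  | cons c l ih =>
    rw [cnt, ih, List.filter_cons]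
    cases h : Nat.beq (Nat.land b c) s
    · simp [h]
    · simp [h, Nat.add_comm]

/-- expected values -/
def good (p n : ℕ) : Bool := and (or (not (Nat.beq p 2)) (Nat.beq n 3)) (and (or (not (Nat.beq p 3)) (Nat.beq n 2))
  (or (not (Nat.beq p 4)) (Nat.beq n 3)))

def chk : Bool := V12.all fun b => (List.range 4096).all fun s =>
  or (not (Nat.beq (Nat.land s b) s)) (good (pop s) (cnt V12 b s))

theorem chk_true : chk = true := by decide +kernel

theorem V12_lt : ∀ m ∈ V12, m < 2 ^ 12 := by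
  have : (V12.all fun m => Nat.blt m 4096) = true := by decide +kernel
  intro m hm
  have h := List.all_eq_true.1 this m hm
  simpa [Nat.blt_eq] using h

/-- Leech triangle of S(5, 6, 12): blocks meet in 0, 2, 3 or 4 points, and a block is met exactly in a given 2-, 3- or 4-subset by 3, 2, 3 blocks respectively. -/
theorem result {α : Type*} [Fintype α] [DecidableEq α] (hα : Fintype.card α = 12) {B : Set (Finset α)} (hB : Cfsg.IsSteinerSystem 5 6 B) (b : Finset α) (hb : b ∈ B) : (∀ c ∈ B, c ≠ b → (b ∩ c).card = 0 ∨ (b ∩ c).card = 2 ∨ (b ∩ c).card = 3 ∨ (b ∩ c).card = 4) ∧ ∀ s ⊆ b, (s.card = 2 → {c : Finset α | c ∈ B ∧ b ∩ c = s}.ncard = 3) ∧ (s.card = 3 → {c : Finset α | c ∈ B ∧ b ∩ c = s}.ncard = 2) ∧ (s.card = 4 → {c : Finset α | c ∈ B ∧ b ∩ c = s}.ncard = 3) := by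
  obtain ⟨e, he⟩ := exists12 hα hB
  refine ⟨fun c hc hcb => inter12 hα hB hb hc (Ne.symm hcb), ?_⟩
  intro s hs
  rw [he] at hb
  obtain ⟨mb, hmb, rfl⟩ := hb
  have hmb' : mb ∈ V12 := hmb
  obtain ⟨ms, hms, rfl⟩ := exists_mask e s
  have hsub := im_subset e hs hms
  have hcount : {c : Finset α | c ∈ B ∧ im e mb ∩ c = im e ms}.ncard = cnt V12 mb ms := by
    have h1 : {c : Finset α | c ∈ B ∧ im e mb ∩ c = im e ms} =
        im e '' {m | m ∈ V12 ∧ Nat.land mb m = ms} := by
      ext c
      rw [he]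
      constructor
      · rintro ⟨⟨m, hm, rfl⟩, h⟩
        refine ⟨m, ⟨hm, ?_⟩, rfl⟩
        have h' : im e mb ∩ im e m = im e ms := h
        rw [← im_and] at h'
        exact im_injective e (lt_of_le_of_lt Nat.and_le_left (V12_lt mb hmb')) hms h'
      · rintro ⟨m, ⟨hm, h⟩, rfl⟩
        refine ⟨⟨m, hm, rfl⟩, ?_⟩
        rw [← im_and]
        exact congrArg (im e) h
    rw [h1, Set.ncard_image_of_injOn, cnt_eq]
    · have h2 : {m | m ∈ V12 ∧ Nat.land mb m = ms} =
          ((V12.filter fun c => Nat.beq (Nat.land mb c) ms).toFinset : Set ℕ) := by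
        ext m
        simp only [Set.mem_setOf_eq, List.coe_toFinset, List.mem_filter, beq_iff]
      rw [h2, Set.ncard_coe_finset, List.toFinset_card_of_nodup (V12_nodup.filter _)]
    · intro a ha b hb h
      exact im_injective e (V12_lt a ha.1) (V12_lt b hb.1) h
  have key := List.all_eq_true.1 (List.all_eq_true.1 chk_true mb hmb') ms (List.mem_range.2 hms)
  have hg : good (pop ms) (cnt V12 mb ms) = true := by
    rw [Bool.or_eq_true] at key
    rcases key with h | h
    · exfalso
      have h' : Nat.land ms mb = ms := hsub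
      rw [h'] at h
      simp at h
    · exact h
  change ((im e ms).card = 2 → {c : Finset α | c ∈ B ∧ im e mb ∩ c = im e ms}.ncard = 3) ∧ ((im e ms).card = 3 → {c : Finset α | c ∈ B ∧ im e mb ∩ c = im e ms}.ncard = 2) ∧
    ((im e ms).card = 4 → {c : Finset α | c ∈ B ∧ im e mb ∩ c = im e ms}.ncard = 3)
  rw [hcount]
  rw [good] at hg
  simp only [Bool.and_eq_true, Bool.or_eq_true, beq_iff, Bool.not_eq_true', ← Bool.not_eq_true] at hg
  have hcard : (im e ms).card = pop ms := by rw [card_im, bc_eq_pop (by norm_num) hms]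
  rw [hcard]
  exact ⟨fun h => hg.1.resolve_left (fun h' => h' h), fun h => hg.2.1.resolve_left (fun h' => h' h),
    fun h => hg.2.2.resolve_left (fun h' => h' h)⟩

end Cfsg.Agent.S1595
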