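import Cfsg.Statements.S1598
import Cfsg.Agent.LibAglB28

set_option autoImplicit false
open scoped Pointwise
open Cfsg

namespace Cfsg.Agent.S1598

open Cfsg CfsgLib.Golay CfsgLib.M24 CfsgLib.OrbG28 CfsgLib.Six28 CfsgLib.Qrt28 CfsgLib.Mtw28 CfsgLib.Agl28

theorem transfer {H K : Subgroup ↥Cfsg.M24} (h : H = K)
    (hK : ∃ (N : Subgroup ↥K) (_ : N.Normal), Nat.card N = 9 ∧ Nonempty (↥K ⧸ N ≃* GL (Fin 2) (ZMod 3))) :
    ∃ (N : Subgroup ↥H) (_ : N.Normal), Nat.card N = 9 ∧ Nonempty (↥H ⧸ N ≃* GL (Fin 2) (ZMod 3)) := by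
  subst h; exact hK

theorem main {e T : Finset GolayPt} (he : e ∈ dodecads) (hT : T ∈ trp e) :
    ∃ (N : Subgroup ↥(KK e T)) (_ : N.Normal), Nat.card N = 9 ∧ Nonempty (↥(KK e T) ⧸ N ≃* GL (Fin 2) (ZMod 3)) := by
  obtain ⟨N, hn, h9, h3, hf⟩ := exists_N he hT
  haveI := hn
  exact ⟨N, hn, h9, gl23_quot N h9 h3 (card_K he hT)
    (fun g hg => cent_le' (act e T) (act_inj he hT) (card_Om he hT) N h9 hf hg)⟩

/-- A quartet stabiliser inside the dodecad stabiliser has order 432, a normal subgroup of order 9 with quotient GL(2, 3), and is transitive on the dodecad. -/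
theorem result (d : Finset Cfsg.GolayPt) (hd : d ∈ Cfsg.dodecads) (Q : Finset (Finset Cfsg.GolayPt)) (hQ : Q ∈ Cfsg.quartets d) : Nat.card ↥(MulAction.stabilizer Cfsg.M24 d ⊓ MulAction.stabilizer Cfsg.M24 Q) = 432 ∧ (∃ (N : Subgroup ↥(MulAction.stabilizer Cfsg.M24 d ⊓ MulAction.stabilizer Cfsg.M24 Q)) (_ : N.Normal), Nat.card N = 9 ∧ Nonempty (↥(MulAction.stabilizer Cfsg.M24 d ⊓ MulAction.stabilizer Cfsg.M24 Q) ⧸ N ≃* GL (Fin 2) (ZMod 3))) ∧ ∀ p ∈ d, ∀ q ∈ d, ∃ g ∈ (MulAction.stabilizer Cfsg.M24 d ⊓ MulAction.stabilizer Cfsg.M24 Q), ((g : ↥Cfsg.M24) : Equiv.Perm Cfsg.GolayPt) p = q := by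
  obtain ⟨T, hT, hrel⟩ := exists_T hd hQ
  have heq := stab_eq hd hQ hT hrel
  have heq' : MulAction.stabilizer ↥Cfsg.M24 d ⊓ MulAction.stabilizer ↥Cfsg.M24 Q = KK dᶜ T := by
    rw [heq, KK, stab_compl]
  refine ⟨card_SQ hd hQ, transfer heq' (main (compl_mem_dodecads hd) hT), ?_⟩
  intro p hp q hq
  rw [heq]
  obtain ⟨t1, t2, t3, h12, h13, h23, hT3⟩ := Finset.card_eq_three.1 hT.2
  have hm3 : ∀ x, x ∈ T ↔ x = t1 ∨ x = t2 ∨ x = t3 := by
    intro x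
    rw [hT3]; simp
  obtain ⟨g, h1, h2, h3, h4, h5⟩ := m9_trans (compl_mem_dodecads hd) (p := t1) (q := t2) (r := t3) (hT.1 ((hm3 _).2 (Or.inl rfl)))
    (hT.1 ((hm3 _).2 (Or.inr (Or.inl rfl)))) (hT.1 ((hm3 _).2 (Or.inr (Or.inr rfl)))) h12 h13 h23 (x := p) (y := q)
    (fun h => (Finset.mem_compl.1 h) hp) (fun h => (Finset.mem_compl.1 h) hq)
  refine ⟨g, ⟨compl_stab h1, ?_⟩, h5⟩
  show g • T = T
  apply Finset.eq_of_subset_of_card_le
  · intro z hz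
    obtain ⟨w, hw, rfl⟩ := Finset.mem_smul_finset.1 hz
    rw [hm3] at hw
    have : (g : Equiv.Perm Cfsg.GolayPt) w = w := by
      rcases hw with rfl | rfl | rfl
      · exact h2
      · exact h3
      · exact h4
    show (g : Equiv.Perm Cfsg.GolayPt) w ∈ T
    rw [this, hm3]; exact hw
  · rw [Finset.card_smul_finset]

end Cfsg.Agent.S1598
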