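import Cfsg.Statements.S1601
import Cfsg.Agent.S0498
import Cfsg.Agent.LibQrtE28
import Cfsg.Agent.LibM24f

set_option autoImplicit false
open scoped Pointwise
open Cfsg

namespace Cfsg.Agent.S1601

open Cfsg CfsgLib.Golay CfsgLib.M24 CfsgLib.OrbG28 CfsgLib.Six28 CfsgLib.Qrt28 CfsgLib.Mtw28

theorem q_trans {d : Finset GolayPt} (hd : d ∈ dodecads) {p q : GolayPt} (hp : p ∈ d) (hq : q ∉ d)
    {a a' b b' : GolayPt} (ha : a ∈ d.erase p) (ha' : a' ∈ d.erase p) (hb : b ∈ d.erase p) (hb' : b' ∈ d.erase p)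
    (h : a ≠ a') (h' : b ≠ b') : ∃ g : ↥M24, g • d = d ∧ (g : Equiv.Perm GolayPt) p = p ∧ (g : Equiv.Perm GolayPt) q = q ∧
      (g : Equiv.Perm GolayPt) a = b ∧ (g : Equiv.Perm GolayPt) a' = b' := by
  rw [Finset.mem_erase] at ha ha' hb hb'
  obtain ⟨g, g1, g2, g3, g4⟩ := three_trans hd hp ha.2 ha'.2 (Ne.symm ha.1) (Ne.symm ha'.1) h hp hb.2 hb'.2
    (Ne.symm hb.1) (Ne.symm hb'.1) h'
  obtain ⟨k, k1, k2, k3, k4, k5⟩ := m9_trans hd hp hb.2 hb'.2 (Ne.symm hb.1) (Ne.symm hb'.1) h'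
    (x := (g : Equiv.Perm GolayPt) q) (y := q) (notMem_of_stab g1 hq) hq
  refine ⟨k * g, by rw [mul_smul, g1, k1], ?_, k5, ?_, ?_⟩
  · show (k : Equiv.Perm GolayPt) ((g : Equiv.Perm GolayPt) p) = p
    rw [g2, k2]
  · show (k : Equiv.Perm GolayPt) ((g : Equiv.Perm GolayPt) a) = b
    rw [g3, k3]
  · show (k : Equiv.Perm GolayPt) ((g : Equiv.Perm GolayPt) a') = b'
    rw [g4, k4]

theorem card_660 {d : Finset GolayPt} (hd : d ∈ dodecads) {p q : GolayPt} (hp : p ∈ d) (hq : q ∉ d) :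
    Nat.card ↥(MulAction.stabilizer M24 d ⊓ MulAction.stabilizer M24 p ⊓ MulAction.stabilizer M24 q) = 660 := by
  have h := ncard_orbit_sub' (MulAction.stabilizer ↥M24 d ⊓ MulAction.stabilizer ↥M24 p) q
  have h1 : MulAction.orbit ↥(MulAction.stabilizer ↥M24 d ⊓ MulAction.stabilizer ↥M24 p) q = ((dᶜ : Finset GolayPt) : Set GolayPt) := by
    ext x
    rw [Finset.mem_coe, Finset.mem_compl]
    constructor
    · rintro ⟨⟨g, hg⟩, rfl⟩
      exact notMem_of_stab hg.1 hq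
    · intro hx
      obtain ⟨r, hr, h1, _⟩ := exists_others hd p p
      obtain ⟨s, hs, h2, h3⟩ := exists_others hd p r
      obtain ⟨g, g1, g2, _, _, g3⟩ := m9_trans hd hp hr hs (Ne.symm h1) (Ne.symm h2) (Ne.symm h3) (x := q) (y := x) hq hx
      exact ⟨⟨g, g1, g2⟩, g3⟩
  rw [h1, Set.ncard_coe_finset, Finset.card_compl, show d.card = 12 from hd.2, card_P1 hd hp, card_pt] at h
  omega

theorem map_stab4 (d : Finset GolayPt) (p q : GolayPt) :
    (MulAction.stabilizer M24 d ⊓ MulAction.stabilizer M24 p ⊓ MulAction.stabilizer M24 q).map M24.subtype =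
      M24 ⊓ StS d ⊓ St p ⊓ St q := by
  ext g
  simp only [Subgroup.mem_map, MulAction.mem_stabilizer_iff, Subgroup.coe_subtype, Subgroup.mem_inf]
  constructor
  · rintro ⟨⟨h, hh⟩, ⟨⟨h1, h2⟩, h3⟩, rfl⟩; exact ⟨⟨⟨hh, h1⟩, h2⟩, h3⟩
  · rintro ⟨⟨⟨hg, h3⟩, h4⟩, h5⟩; exact ⟨⟨g, hg⟩, ⟨⟨h3, h4⟩, h5⟩, rfl⟩

theorem simple_660 {d : Finset GolayPt} (hd : d ∈ dodecads) {p q : GolayPt} (hp : p ∈ d) (hq : q ∉ d) :
    IsSimpleGroup ↥(MulAction.stabilizer M24 d ⊓ MulAction.stabilizer M24 p ⊓ MulAction.stabilizer M24 q) := by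
  apply simple_of_map (map_stab4 d p q)
  have hcard : Nat.card ↥(M24 ⊓ StS d ⊓ St p ⊓ St q) = 660 := by
    rw [← card_of_map (map_stab4 d p q)]; exact card_660 hd hp hq
  have hc : (d.erase p).card = 11 := by
    rw [Finset.card_erase_of_mem hp, hd.2]
  haveI : Fact (Nat.Prime 11) := ⟨by norm_num⟩
  have hX : ∀ g ∈ M24 ⊓ StS d ⊓ St p ⊓ St q, ∀ x ∈ d.erase p, g x ∈ d.erase p := by
    intro g hg x hx
    rw [Finset.mem_erase] at hx ⊢
    refine ⟨fun h => hx.1 ?_, (mem_of_smul_eq hg.1.1.2 x).2 hx.2⟩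
    apply g.injective
    rw [h]; exact hg.1.2.symm
  apply simple_of (M24 ⊓ StS d ⊓ St p ⊓ St q) ((inf_le_left.trans inf_le_left).trans inf_le_left) _ hX 11 5 (by norm_num) (by norm_num)
    (by norm_num) (Or.inl hc)
  · rw [hcard]; norm_num
  · rw [hcard]; norm_num
  · rw [hcard]
  · rw [hcard]; norm_num
  · intro N hN hNb
    rw [← hc]
    apply dvd_of_two ((inf_le_left.trans inf_le_left).trans inf_le_left) _ (by rw [hc]; norm_num) hX _ N hN hNb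
    intro a ha a' ha' b hb b' hb' h h'
    obtain ⟨g, g1, g2, g3, g4, g5⟩ := q_trans hd hp hq ha ha' hb hb' h h'
    exact ⟨g, ⟨⟨⟨g.2, g1⟩, g2⟩, g3⟩, g4, g5⟩

/-- In the 3-transitive action of the smallest Mathieu group on the complementary dodecad, a point stabiliser is isomorphic to PSL(2, 11). -/
theorem result (d : Finset Cfsg.GolayPt) (hd : d ∈ Cfsg.dodecads) (p q : Cfsg.GolayPt) (hp : p ∈ d) (hq : q ∉ d) : Nonempty (↥(MulAction.stabilizer Cfsg.M24 d ⊓ MulAction.stabilizer Cfsg.M24 p ⊓ MulAction.stabilizer Cfsg.M24 q) ≃* Matrix.ProjectiveSpecialLinearGroup (Fin 2) (ZMod 11)) := by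
  haveI := simple_660 hd hp hq
  haveI : Fact (Nat.Prime 11) := ⟨by norm_num⟩
  exact Cfsg.Agent.S0498.result 11 (Or.inl rfl) (by rw [card_660 hd hp hq]; norm_num) (by rw [ZMod.card])

end Cfsg.Agent.S1601
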