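import Cfsg.Statements.S1602
import Cfsg.Agent.LibQrtE28

set_option autoImplicit false
open scoped Pointwise
open Cfsg

namespace Cfsg.Agent.S1602

open Cfsg CfsgLib.Golay CfsgLib.M24 CfsgLib.Qrt28

/-- In the 12-point action of the smallest Mathieu group the setwise stabiliser of a pair is isomorphic to the symmetric group of degree 5. -/
theorem result (d : Finset Cfsg.GolayPt) (hd : d ∈ Cfsg.dodecads) (p q q' : Cfsg.GolayPt) (hp : p ∈ d) (hq : q ∉ d) (hq' : q' ∉ d) (hqq' : q ≠ q') : Nonempty (↥(MulAction.stabilizer Cfsg.M24 d ⊓ MulAction.stabilizer Cfsg.M24 p ⊓ MulAction.stabilizer Cfsg.M24 ({q, q'} : Finset Cfsg.GolayPt)) ≃* Equiv.Perm (Fin 5)) := by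
  obtain ⟨o, ho, h6, hpo, hod⟩ := exists_oct hd hp hq hq' hqq'
  rw [stab_pair hd ho h6 hpo hp hod]
  exact hexad_pt hd ⟨h6, o, ho, rfl⟩ (Finset.mem_inter.2 ⟨hpo, hp⟩)

end Cfsg.Agent.S1602
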