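import Cfsg.Statements.S1604
import Cfsg.Agent.LibFamB28

set_option autoImplicit false
open scoped Pointwise
open Cfsg

namespace Cfsg.Agent.S1604

open Cfsg CfsgLib.Golay CfsgLib.M24 CfsgLib.Syn28 CfsgLib.OrbG28 CfsgLib.Cnt28 CfsgLib.Fam28 CfsgLib.FamB28
open scoped Pointwise

theorem cnt {o : Finset GolayPt} (ho : o ∈ octads) {p q : GolayPt} (hp : p ∈ o) (hq : q ∈ o) (hpq : p ≠ q) (n : ℕ) :
    {x : Finset GolayPt | x ∈ octads ∧ p ∈ x ∧ q ∈ x ∧ (o ∩ x).card = n}.ncard =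
      cntB (fun k => and (Nat.beq (pop (cw k)) 8) (and (Nat.beq (pop (Nat.land 8536111 (cw k))) n)
        (and (Nat.beq (pop (Nat.land 8388608 (cw k))) 1) (Nat.beq (pop (Nat.land 1 (cw k))) 1)))) 12 0 := by
  obtain ⟨h, hh⟩ := base_qa ho hp hq hpq
  have e1 : {x : Finset GolayPt | x ∈ octads ∧ p ∈ x ∧ q ∈ x ∧ (o ∩ x).card = n} =
      {x | x ∈ octads ∧ c3 (o, {p}, {q}) x = (n, 1, 1)} := by
    ext x
    simp only [Set.mem_setOf_eq, c3, Prod.mk.injEq, one_iff]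
    tauto
  rw [e1, cnt_transport hh octads_inv (fun t => t = (n, 1, 1))]
  exact cnt_base 8 8536111 8388608 1 (fun t => t = (n, 1, 1)) (fun t => and (Nat.beq t.1 n) (and (Nat.beq t.2.1 1) (Nat.beq t.2.2 1)))
    (fun t => by
      obtain ⟨a, b, c⟩ := t
      rw [Bool.and_eq_true, Bool.and_eq_true, beq_iff, beq_iff, beq_iff, Prod.mk.injEq, Prod.mk.injEq])

/-- A hexad stabiliser in the two-point stabiliser has orbits of sizes 1, 16, 60 on the 77 hexads: the 16 hexads disjoint from it and the 60 meeting it in two points. -/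
theorem result (p q : Cfsg.GolayPt) (hpq : p ≠ q) (o o' o'' : Finset Cfsg.GolayPt) (ho : o ∈ Cfsg.octads) (ho' : o' ∈ Cfsg.octads) (ho'' : o'' ∈ Cfsg.octads) (hp : p ∈ o ∧ p ∈ o' ∧ p ∈ o'') (hq : q ∈ o ∧ q ∈ o' ∧ q ∈ o'') (h : (o ∩ o').card = (o ∩ o'').card) : {x : Finset Cfsg.GolayPt | x ∈ Cfsg.octads ∧ p ∈ x ∧ q ∈ x ∧ (o ∩ x).card = 2}.ncard = 16 ∧ {x : Finset Cfsg.GolayPt | x ∈ Cfsg.octads ∧ p ∈ x ∧ q ∈ x ∧ (o ∩ x).card = 4}.ncard = 60 ∧ ∃ g : Equiv.Perm Cfsg.GolayPt, g ∈ Cfsg.M24 ∧ g p = p ∧ g q = q ∧ g • o = o ∧ g • o' = o'' := by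
  refine ⟨?_, ?_, ?_⟩
  · rw [cnt ho hp.1 hq.1 hpq]; decide +kernel
  · rw [cnt ho hp.1 hq.1 hpq]; decide +kernel
  · obtain ⟨k, hk⟩ := base_qa ho hp.1 hq.1 hpq
    obtain ⟨g, hg, hgx⟩ := fam_transport (fam := fun t => t.2 = (1, 1)) hk octads_inv trans_qa o' ho' o'' ho''
      (by show ((({p} : Finset GolayPt) ∩ o').card, (({q} : Finset GolayPt) ∩ o').card) = (1, 1)
          rw [one_iff.2 hp.2.1, one_iff.2 hq.2.1])
      (by
        show ((o ∩ o').card, (({p} : Finset GolayPt) ∩ o').card, (({q} : Finset GolayPt) ∩ o').card) =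
          ((o ∩ o'').card, (({p} : Finset GolayPt) ∩ o'').card, (({q} : Finset GolayPt) ∩ o'').card)
        rw [one_iff.2 hp.2.1, one_iff.2 hq.2.1, one_iff.2 hp.2.2, one_iff.2 hq.2.2, h])
    obtain ⟨h1, h2, h3⟩ := fix_iff hg
    exact ⟨g, g.2, fix_single h2, fix_single h3, h1, hgx⟩

end Cfsg.Agent.S1604
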