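import Cfsg.Statements.S1605
import Cfsg.Agent.LibFamB28
import Cfsg.Agent.LibSix28

set_option autoImplicit false
open scoped Pointwise
open Cfsg

namespace Cfsg.Agent.S1605

open Cfsg CfsgLib.Golay CfsgLib.M24 CfsgLib.Syn28 CfsgLib.OrbG28 CfsgLib.Cnt28 CfsgLib.Fam28 CfsgLib.FamB28
open scoped Pointwise

theorem cnt {o : Finset GolayPt} (ho : o ∈ octads) {p q : GolayPt} (hp : p ∈ o) (hq : q ∉ o) (n : ℕ) :
    {x : Finset GolayPt | (x ∈ octads ∧ p ∈ x ∧ q ∉ x) ∧ (o ∩ x).card = n}.ncard =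
      cntB (fun k => and (Nat.beq (pop (cw k)) 8) (and (Nat.beq (pop (Nat.land 8536111 (cw k))) n)
        (and (Nat.beq (pop (Nat.land 8388608 (cw k))) 1) (Nat.beq (pop (Nat.land 16 (cw k))) 0)))) 12 0 := by
  obtain ⟨h, hh⟩ := base_qb ho hp hq
  have e1 : {x : Finset GolayPt | (x ∈ octads ∧ p ∈ x ∧ q ∉ x) ∧ (o ∩ x).card = n} =
      {x | x ∈ octads ∧ c3 (o, {p}, {q}) x = (n, 1, 0)} := by
    ext x
    simp only [Set.mem_setOf_eq, c3, Prod.mk.injEq, one_iff, zero_iff]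
    tauto
  rw [e1, cnt_transport hh octads_inv (fun t => t = (n, 1, 0))]
  exact cnt_base 8 8536111 8388608 16 (fun t => t = (n, 1, 0)) (fun t => and (Nat.beq t.1 n) (and (Nat.beq t.2.1 1) (Nat.beq t.2.2 0)))
    (fun t => by
      obtain ⟨a, b, c⟩ := t
      rw [Bool.and_eq_true, Bool.and_eq_true, beq_iff, beq_iff, beq_iff, Prod.mk.injEq, Prod.mk.injEq])

theorem cnt0 {p q : GolayPt} (hpq : p ≠ q) {o : Finset GolayPt} (ho : o ∈ octads) (hp : p ∈ o) (hq : q ∉ o) :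
    {x : Finset GolayPt | (x ∈ octads ∧ p ∈ x ∧ q ∉ x)}.ncard = 176 := by
  obtain ⟨h, hh⟩ := base_qb ho hp hq
  have e1 : {x : Finset GolayPt | (x ∈ octads ∧ p ∈ x ∧ q ∉ x)} =
      {x | x ∈ octads ∧ (c3 (o, {p}, {q}) x).2 = (1, 0)} := by
    ext x
    simp only [Set.mem_setOf_eq, c3, Prod.mk.injEq, one_iff, zero_iff]
  rw [e1, cnt_transport hh octads_inv (fun t => t.2 = (1, 0))]
  have h2 := cnt_base 8 8536111 8388608 16 (fun t => t.2 = (1, 0)) (fun t => (and (Nat.beq t.2.1 1) (Nat.beq t.2.2 0)))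
    (fun t => by
      obtain ⟨a, b, c⟩ := t
      rw [Bool.and_eq_true, beq_iff, beq_iff, Prod.mk.injEq])
  rw [show {x : Finset GolayPt | x ∈ octads ∧ (c3 (fset 8536111, fset 8388608, fset 16) x).2 = (1, 0)} = _ from rfl]
  refine h2.trans ?_
  decide +kernel

theorem exists_oct {p q : GolayPt} (hpq : p ≠ q) : ∃ o ∈ octads, p ∈ o ∧ q ∉ o := by
  -- move from the base octad
  obtain ⟨g, hg, h⟩ := CfsgLib.Six28.agree5 (Equiv.swap (pt 23) p * Equiv.swap (pt 4) (Equiv.swap (pt 23) p q))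
    (F := {pt 23, pt 4}) ((Finset.card_le_two).trans (by norm_num))
  have h234 : pt 23 ≠ pt 4 := by decide +kernel
  have hq' : Equiv.swap (pt 23) p q ≠ pt 23 := by
    intro h1
    have := congrArg (Equiv.swap (pt 23) p) h1
    rw [Equiv.swap_apply_left, Equiv.swap_apply_self] at this
    exact hpq this.symm
  have e1 : g (pt 23) = p := by
    rw [h _ (by simp), Equiv.Perm.mul_apply, Equiv.swap_apply_of_ne_of_ne h234 hq'.symm, Equiv.swap_apply_left]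
  have e2 : g (pt 4) = q := by
    rw [h _ (by simp), Equiv.Perm.mul_apply, Equiv.swap_apply_left, Equiv.swap_apply_self]
  refine ⟨g • fset 8536111, smul_mem_octads hg base_octad, ?_, ?_⟩
  · rw [← e1]
    exact Finset.smul_mem_smul_finset (a := g) (show pt 23 ∈ fset 8536111 by decide +kernel)
  · intro h1
    rw [← e2, Finset.mem_smul_finset] at h1
    obtain ⟨y, hy, hyq⟩ := h1
    have : y = pt 4 := g.injective hyq
    rw [this] at hy
    revert hy; decide +kernel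

/-- The two-point stabiliser acts on the 176 octads through the first point avoiding the second with rank 3 and subdegrees 1, 70, 105 (intersections 8, 2, 4). -/
theorem result (p q : Cfsg.GolayPt) (hpq : p ≠ q) : {x : Finset Cfsg.GolayPt | (x ∈ Cfsg.octads ∧ p ∈ x ∧ q ∉ x)}.ncard = 176 ∧ (∀ o o' : Finset Cfsg.GolayPt, (o ∈ Cfsg.octads ∧ p ∈ o ∧ q ∉ o) → (o' ∈ Cfsg.octads ∧ p ∈ o' ∧ q ∉ o') → ∃ g : Equiv.Perm Cfsg.GolayPt, g ∈ Cfsg.M24 ∧ g p = p ∧ g q = q ∧ g • o = o') ∧ ∀ o : Finset Cfsg.GolayPt, (o ∈ Cfsg.octads ∧ p ∈ o ∧ q ∉ o) → {x : Finset Cfsg.GolayPt | (x ∈ Cfsg.octads ∧ p ∈ x ∧ q ∉ x) ∧ (o ∩ x).card = 2}.ncard = 70 ∧ {x : Finset Cfsg.GolayPt | (x ∈ Cfsg.octads ∧ p ∈ x ∧ q ∉ x) ∧ (o ∩ x).card = 4}.ncard = 105 ∧ ∀ o' o'' : Finset Cfsg.GolayPt, (o' ∈ Cfsg.octads ∧ p ∈ o' ∧ q ∉ o') → (o'' ∈ Cfsg.octads ∧ p ∈ o'' ∧ q ∉ o'') → (o ∩ o').card = (o ∩ o'').card → ∃ g : Equiv.Perm Cfsg.GolayPt,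 g ∈ Cfsg.M24 ∧ g p = p ∧ g q = q ∧ g • o = o ∧ g • o' = o'' := by
  obtain ⟨o1, ho1, hp1, hq1⟩ := exists_oct hpq
  refine ⟨cnt0 hpq ho1 hp1 hq1, ?_, ?_⟩
  · rintro o o' ⟨ho, hp, hq⟩ ⟨ho', hp', hq'⟩
    obtain ⟨h, hh⟩ := base_qb ho hp hq
    obtain ⟨k, hk⟩ := base_qb ho' hp' hq'
    have e1 : k⁻¹ • h • ((o, {p}, {q}) : T3) = (o', {p}, {q}) := by rw [hh, ← hk, inv_smul_smul]
    have e2 : (((k⁻¹ * h) • o, (k⁻¹ * h) • ({p} : Finset GolayPt), (k⁻¹ * h) • ({q} : Finset GolayPt)) : T3) = (o', {p}, {q}) := by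
      rw [← mul_smul] at e1; exact e1
    rw [Prod.mk.injEq, Prod.mk.injEq] at e2
    refine ⟨(k⁻¹ * h : ↥M24), (k⁻¹ * h).2, fix_single e2.2.1, fix_single e2.2.2, e2.1⟩
  · rintro o ⟨ho, hp, hq⟩
    refine ⟨?_, ?_, ?_⟩
    · rw [cnt ho hp hq]; decide +kernel
    · rw [cnt ho hp hq]; decide +kernel
    · rintro o' o'' ⟨ho', hp', hq'⟩ ⟨ho'', hp'', hq''⟩ h
      obtain ⟨k, hk⟩ := base_qb ho hp hq
      obtain ⟨g, hg, hgx⟩ := fam_transport (fam := fun t => t.2 = (1, 0)) hk octads_inv trans_qb o' ho' o'' ho''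
        (by show ((({p} : Finset GolayPt) ∩ o').card, (({q} : Finset GolayPt) ∩ o').card) = (1, 0)
            rw [one_iff.2 hp', zero_iff.2 hq'])
        (by
          show ((o ∩ o').card, (({p} : Finset GolayPt) ∩ o').card, (({q} : Finset GolayPt) ∩ o').card) =
            ((o ∩ o'').card, (({p} : Finset GolayPt) ∩ o'').card, (({q} : Finset GolayPt) ∩ o'').card)
          rw [one_iff.2 hp', zero_iff.2 hq', one_iff.2 hp'', zero_iff.2 hq'', h])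
      obtain ⟨h1, h2, h3⟩ := fix_iff hg
      exact ⟨g, g.2, fix_single h2, fix_single h3, h1, hgx⟩

end Cfsg.Agent.S1605
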