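import Cfsg.Statements.S1606
import Cfsg.Agent.EqBase
import Cfsg.Agent.LibIdxI28

set_option autoImplicit false
open scoped Pointwise
open Cfsg

namespace Cfsg.Agent.S1606

/-- The stabiliser of two points in the group of the length-24 code has no subgroups of index 56 or 210. -/
theorem result (p q : Cfsg.GolayPt) (hpq : p ≠ q) (H : Subgroup ↥(MulAction.stabilizer Cfsg.M24 p ⊓ MulAction.stabilizer Cfsg.M24 q)) : H.index ≠ 56 ∧ H.index ≠ 210 := by
  have hY : Nat.card ↥(H.map (MulAction.stabilizer ↥Cfsg.M24 p ⊓ MulAction.stabilizer ↥Cfsg.M24 q).subtype) = Nat.card ↥H :=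
    (Nat.card_congr (Subgroup.equivMapOfInjective H _ (Subgroup.subtype_injective _)).toEquiv).symm
  have h1 := Subgroup.card_mul_index H
  rw [CfsgLib.M24.card_of_map (CfsgLib.M24.map_stab2 p q), CfsgLib.M24.card_M22 p q hpq] at h1
  have hle := Subgroup.map_subtype_le H
  constructor
  · intro h2
    rw [h2] at h1
    exact CfsgLib.Idx28.H56.false ⟨hpq, hle.trans inf_le_left, hle.trans inf_le_right, by rw [hY]; omega⟩
  · intro h2
    rw [h2] at h1
    exact CfsgLib.Idx28.no2112 hpq (hle.trans inf_le_left) (hle.trans inf_le_right) (by rw [hY]; omega)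

end Cfsg.Agent.S1606
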