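import Cfsg.Statements.S1607
import Cfsg.Agent.LibFamB28

set_option autoImplicit false
open scoped Pointwise
open Cfsg

namespace Cfsg.Agent.S1607

open Cfsg CfsgLib.Golay CfsgLib.M24 CfsgLib.Syn28 CfsgLib.OrbG28 CfsgLib.Cnt28 CfsgLib.Fam28 CfsgLib.FamB28
open scoped Pointwise

theorem cnt {o : Finset GolayPt} (ho : o ∈ octads) {x : GolayPt} (hx : x ∈ o) (n : ℕ) :
    {o' : Finset GolayPt | o' ∈ octads ∧ x ∈ o' ∧ (o ∩ o').card = n}.ncard =
      cntB (fun k => and (Nat.beq (pop (cw k)) 8) (and (Nat.beq (pop (Nat.land 8536111 (cw k))) n)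
        (Nat.beq (pop (Nat.land 8388608 (cw k))) 1))) 12 0 := by
  obtain ⟨h, hh⟩ := base_qc ho hx
  have e1 : {o' : Finset GolayPt | o' ∈ octads ∧ x ∈ o' ∧ (o ∩ o').card = n} =
      {y | y ∈ octads ∧ (fun t : ℕ × ℕ × ℕ => t.1 = n ∧ t.2.1 = 1) (c3 (o, {x}, Finset.univ) y)} := by
    ext y
    simp only [Set.mem_setOf_eq, c3, one_iff]
    tauto
  rw [e1, cnt_transport hh octads_inv (fun t => t.1 = n ∧ t.2.1 = 1)]
  exact cnt_base 8 8536111 8388608 16777215 (fun t => t.1 = n ∧ t.2.1 = 1) (fun t => and (Nat.beq t.1 n) (Nat.beq t.2.1 1))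
    (fun t => by
      obtain ⟨a, b, c⟩ := t
      rw [Bool.and_eq_true, beq_iff, beq_iff])

/-- The point stabiliser acts on the 253 heptads of its S(4, 7, 23) with rank 3 and subdegrees 1, 112, 140 (intersections 8, 2, 4). -/
theorem result (x : Cfsg.GolayPt) (o : Finset Cfsg.GolayPt) (ho : o ∈ Cfsg.octads) (hx : x ∈ o) : {o' : Finset Cfsg.GolayPt | o' ∈ Cfsg.octads ∧ x ∈ o' ∧ (o ∩ o').card = 2}.ncard = 112 ∧ {o' : Finset Cfsg.GolayPt | o' ∈ Cfsg.octads ∧ x ∈ o' ∧ (o ∩ o').card = 4}.ncard = 140 ∧ ∀ o' o'' : Finset Cfsg.GolayPt, o' ∈ Cfsg.octads → o'' ∈ Cfsg.octads → x ∈ o' → x ∈ o'' → (o ∩ o').card = (o ∩ o'').card → ∃ g : Equiv.Perm Cfsg.GolayPt, g ∈ Cfsg.M24 ∧ g x = x ∧ g • o = o ∧ g • o' = o'' := by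
  refine ⟨?_, ?_, ?_⟩
  · rw [cnt ho hx]; decide +kernel
  · rw [cnt ho hx]; decide +kernel
  · intro o' o'' ho' ho'' hx' hx'' h
    obtain ⟨k, hk⟩ := base_qc ho hx
    obtain ⟨g, hg, hgx⟩ := fam_transport (fam := fun t => t.2.1 = 1) hk octads_inv trans_qc o' ho' o'' ho''
      (by show ((({x} : Finset GolayPt) ∩ o').card) = 1
          rw [one_iff.2 hx'])
      (by
        show ((o ∩ o').card, (({x} : Finset GolayPt) ∩ o').card, ((Finset.univ : Finset GolayPt) ∩ o').card) =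
          ((o ∩ o'').card, (({x} : Finset GolayPt) ∩ o'').card, ((Finset.univ : Finset GolayPt) ∩ o'').card)
        rw [one_iff.2 hx', one_iff.2 hx'', h, full_card, full_card, ho'.2, ho''.2])
    obtain ⟨h1, h2, _⟩ := fix_iff hg
    exact ⟨g, g.2, fix_single h2, h1, hgx⟩

end Cfsg.Agent.S1607
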