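import Cfsg.Statements.S1609
import Cfsg.Agent.EqBase
import Cfsg.Agent.LibIdxB28

set_option autoImplicit false
open scoped Pointwise
open Cfsg

namespace Cfsg.Agent.S1609

/-- Subgroups of index 253 in the Mathieu group of degree 23 are exactly the duad stabilisers and the heptad stabilisers. -/
theorem result (x : Cfsg.GolayPt) (H : Subgroup ↥(MulAction.stabilizer Cfsg.M24 x)) (hH : H.index = 253) : (∃ s : Finset Cfsg.GolayPt, s.card = 2 ∧ x ∉ s ∧ H = (MulAction.stabilizer Cfsg.M24 s).subgroupOf (MulAction.stabilizer Cfsg.M24 x)) ∨ ∃ o ∈ Cfsg.octads, x ∈ o ∧ H = (MulAction.stabilizer Cfsg.M24 o).subgroupOf (MulAction.stabilizer Cfsg.M24 x) := by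
  have hc : Nat.card ↥(H.map (MulAction.stabilizer ↥Cfsg.M24 x).subtype) = 40320 := by
    rw [Nat.card_congr (Subgroup.equivMapOfInjective H _ (Subgroup.subtype_injective _)).toEquiv.symm]
    have h1 := Subgroup.card_mul_index H
    rw [hH, CfsgLib.Idx28.card_st] at h1
    omega
  have key : ∀ K : Subgroup ↥Cfsg.M24, H.map (MulAction.stabilizer ↥Cfsg.M24 x).subtype = MulAction.stabilizer ↥Cfsg.M24 x ⊓ K →
      H = K.subgroupOf (MulAction.stabilizer ↥Cfsg.M24 x) := by
    intro K hK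
    ext g
    rw [Subgroup.mem_subgroupOf]
    constructor
    · intro hg
      have h1 : (g : ↥Cfsg.M24) ∈ H.map (MulAction.stabilizer ↥Cfsg.M24 x).subtype := ⟨g, hg, rfl⟩
      rw [hK] at h1
      exact h1.2
    · intro hg
      have h1 : (g : ↥Cfsg.M24) ∈ H.map (MulAction.stabilizer ↥Cfsg.M24 x).subtype := by
        rw [hK]; exact ⟨g.2, hg⟩
      obtain ⟨k, hk, hkg⟩ := h1
      have h2 : k = g := Subtype.ext hkg
      rw [← h2]; exact hk
  rcases CfsgLib.Idx28.idx253 (Subgroup.map_subtype_le H) hc with ⟨s, hs, hx, he⟩ | ⟨o, ho, hx, he⟩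
  · exact Or.inl ⟨s, hs, hx, key _ he⟩
  · exact Or.inr ⟨o, ho, hx, key _ he⟩

end Cfsg.Agent.S1609
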