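import Cfsg.Statements.S1612
import Mathlib
import Cfsg.Agent.LibR3B

set_option autoImplicit false
open Cfsg

namespace Cfsg.Agent.S1612

/-- In a 3-transposition group (no solvable normal subgroup, perfect derived group), the normaliser of a commuting set of transpositions of maximum size contains a Sylow 2-subgroup and is doubly transitive on the set. -/
theorem result {G : Type*} [Group G] [Finite G] (hsol : ∀ N : Subgroup G, N.Normal → Group.IsSolvable ↥N → N = ⊥) (hperf : ⁅commutator G, commutator G⁆ = commutator G) {D : Set G} (hD : Cfsg.IsThreeTranspositionClass D) {E : Set G} (hE : E ⊆ D) (hc : ∀ a ∈ E, ∀ b ∈ E, Commute a b) (hmax : ∀ E' : Set G, E' ⊆ D → (∀ a ∈ E', ∀ b ∈ E', Commute a b) → E'.ncard ≤ E.ncard) : (∃ P : Sylow 2 G, (P : Subgroup G) ≤ Subgroup.normalizer E) ∧ ∀ a ∈ E, ∀ b ∈ E, ∀ c ∈ E, ∀ d ∈ E, a ≠ b → c ≠ d → ∃ g ∈ Subgroup.normalizer E, g * a * g⁻¹ = c ∧ g * b * g⁻¹ = d := by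
  have hS := hD.1
  have hC := CfsgLib.TTC28.CI_of_class hD.2.1
  have hG := CfsgLib.R3.group_of_class hD
  have hinj : ∀ g : G, Function.Injective (fun x => g * x * g⁻¹) :=
    fun g a b h => mul_left_cancel (mul_right_cancel h)
  refine ⟨?_, ?_⟩
  · have h2 := CfsgLib.TTB28.two_group_closure (fun x hx => CfsgLib.TT28.sq hS (hE hx)) hc
    obtain ⟨P, hP⟩ := h2.exists_le_sylow
    refine ⟨P, ?_⟩
    have hEP := CfsgLib.R3.max_eq hS hE hmax P.isPGroup' (fun x hx => hP (Subgroup.subset_closure hx))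
    intro g hg
    rw [Subgroup.mem_set_normalizer_iff]
    intro x
    rw [← hEP]
    constructor
    · rintro ⟨h1, h3⟩
      exact ⟨hC g x h1, mul_mem (mul_mem hg h3) (inv_mem hg)⟩
    · rintro ⟨h1, h3⟩
      refine ⟨(CfsgLib.TT28.CI.mem_iff hC).1 h1, ?_⟩
      have e : x = g⁻¹ * (g * x * g⁻¹) * g := by group
      rw [e]; exact mul_mem (mul_mem (inv_mem hg) h3) hg
  · intro a ha b hb c hc' d hd hab hcd
    have hprim := CfsgLib.R3.prim_of_perfect hsol hperf hD ⟨a, hE ha, b, hE hb, hab⟩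
    obtain ⟨g0, hg0⟩ := CfsgLib.TTF28.class_conj hD.2.1 (hE ha) (hE hc')
    have h1 : g0 * b * g0⁻¹ ∈ CfsgLib.R3.Dd D c := by
      rw [← hg0]
      exact CfsgLib.R3.Dd_conj hC g0 ⟨hE hb, hab.symm, hc a ha b hb⟩
    obtain ⟨h, hh, e⟩ := CfsgLib.R3.class_Dd hG hprim (hE hc') h1 ⟨hE hd, hcd.symm, hc c hc' d hd⟩
    have hhc : h * c * h⁻¹ = c := CfsgLib.R3.Md_fix (CfsgLib.R3.closure_Dd_le hh)
    have e1 : (h * g0) * a * (h * g0)⁻¹ = c := by
      calc (h * g0) * a * (h * g0)⁻¹ = h * (g0 * a * g0⁻¹) * h⁻¹ := by group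
        _ = c := by rw [hg0, hhc]
    have e2 : (h * g0) * b * (h * g0)⁻¹ = d := by
      rw [e]; group
    have hcc : ∀ x ∈ E, x ∈ Subgroup.centralizer ({c, d} : Set G) := by
      intro x hx
      rw [Subgroup.mem_centralizer_iff]
      rintro y (rfl | rfl)
      · exact hc y hc' x hx
      · exact hc y hd x hx
    have hcc' : ∀ x ∈ (fun x => (h * g0) * x * (h * g0)⁻¹) '' E, x ∈ Subgroup.centralizer ({c, d} : Set G) := by
      rintro _ ⟨x, hx, rfl⟩
      rw [Subgroup.mem_centralizer_iff]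
      rintro y (rfl | rfl)
      · have := (CfsgLib.TT28.commute_conj (h * g0)).2 (hc a ha x hx)
        rw [e1] at this; exact this
      · have := (CfsgLib.TT28.commute_conj (h * g0)).2 (hc b hb x hx)
        rw [e2] at this; exact this
    obtain ⟨m, hm, em⟩ := CfsgLib.R3.max_conj hS hC hE hc hmax (h * g0) hcc hcc'
    refine ⟨m * (h * g0), ?_, ?_, ?_⟩
    · rw [Subgroup.mem_set_normalizer_iff]
      have key : (fun x => (m * (h * g0)) * x * (m * (h * g0))⁻¹) '' E = E := by
        have e3 : (fun x => (m * (h * g0)) * x * (m * (h * g0))⁻¹) =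
            (fun x => m * x * m⁻¹) ∘ (fun x => (h * g0) * x * (h * g0)⁻¹) := by
          funext x; simp only [Function.comp]; group
        rw [e3, Set.image_comp]; exact em
      intro x
      constructor
      · intro hx
        rw [← key]; exact ⟨x, hx, rfl⟩
      · intro hx
        rw [← key] at hx
        obtain ⟨y, hy, ey⟩ := hx
        rwa [← hinj _ ey]
    · have := Subgroup.mem_centralizer_iff.1 hm c (by simp)
      calc m * (h * g0) * a * (m * (h * g0))⁻¹ = m * ((h * g0) * a * (h * g0)⁻¹) * m⁻¹ := by group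
        _ = c := by rw [e1, ← this]; group
    · have := Subgroup.mem_centralizer_iff.1 hm d (by simp)
      calc m * (h * g0) * b * (m * (h * g0))⁻¹ = m * ((h * g0) * b * (h * g0)⁻¹) * m⁻¹ := by group
        _ = d := by rw [e2, ← this]; group

end Cfsg.Agent.S1612
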