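import Cfsg.Statements.S1615
import Mathlib
import Cfsg.Agent.LibR3B
import Cfsg.Agent.LibR3F

set_option autoImplicit false
open Cfsg

namespace Cfsg.Agent.S1615

/-- If O(⟨D_x⟩) is not central in ⟨D_x⟩ for some transposition x, the 3-transposition group is the symmetric group of degree 5. -/
theorem result {G : Type*} [Group G] [Finite G] (hsol : ∀ N : Subgroup G, N.Normal → Group.IsSolvable ↥N → N = ⊥) (hperf : ⁅commutator G, commutator G⁆ = commutator G) {D : Set G} (hD : Cfsg.IsThreeTranspositionClass D) (x : G) (hx : x ∈ D) (h : ¬ Cfsg.oddCore ↥(Subgroup.closure {y : G | y ∈ D ∧ y ≠ x ∧ Commute x y}) ≤ Subgroup.center ↥(Subgroup.closure {y : G | y ∈ D ∧ y ≠ x ∧ Commute x y})) : Nonempty (G ≃* Equiv.Perm (Fin 5)) := by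
  obtain ⟨d, hd, hDd⟩ := hD.2.1
  have hD2 : ∃ a ∈ D, ∃ b ∈ D, a ≠ b := by
    by_contra hcon
    push Not at hcon
    apply h
    intro a _
    have hb : Subgroup.closure {y : G | y ∈ D ∧ y ≠ x ∧ Commute x y} = ⊥ := by
      rw [Subgroup.closure_eq_bot_iff]
      rintro y ⟨h1, h2, _⟩
      exact absurd (hcon y h1 x hx) h2
    have h9 : ∀ b : G, b ∈ Subgroup.closure {y : G | y ∈ D ∧ y ≠ x ∧ Commute x y} → b = 1 := by
      intro b hb'
      rw [hb, Subgroup.mem_bot] at hb'
      exact hb'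
    rw [show a = 1 from Subtype.ext (h9 a a.2)]; exact one_mem _
  have hprim := CfsgLib.R3.prim_of_perfect hsol hperf hD hD2
  exact CfsgLib.R3.S5_of_odd (CfsgLib.R3.group_of_class hD) hprim hx h

end Cfsg.Agent.S1615
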