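import Cfsg.Statements.S1618
import Cfsg.Agent.LibZCor2
import Cfsg.Agent.LibCores

set_option autoImplicit false
open Cfsg

namespace Cfsg.Agent.S1618

open Subgroup

/-- A group generated by a class of involutions whose pairwise products (of distinct members) have p-power order for a fixed odd prime p has nilpotent derived subgroup. -/
theorem result {G : Type*} [Group G] [Finite G] (p : ℕ) (hp : p.Prime) (hodd : p ≠ 2) {D : Set G} (hinv : ∀ d ∈ D, orderOf d = 2) (hconj : ∃ d ∈ D, D = conjugatesOf d) (hgen : Subgroup.closure D = ⊤) (hprod : ∀ x ∈ D, ∀ y ∈ D, x ≠ y → ∃ k : ℕ, orderOf (x * y) = p ^ k) : Group.IsNilpotent ↥(commutator G) := by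
  obtain ⟨d, hd, hD⟩ := hconj
  haveI : Fact p.Prime := ⟨hp⟩
  have h1 : ∀ a ∈ conjugatesOf d, ∀ b ∈ conjugatesOf d, a * b ∈ Cfsg.pCore p G := by
    apply CfsgLib.ZCor.prime_power_products hp hodd (hinv d hd)
    intro a ha b hb
    rw [← hD] at ha hb
    by_cases hab : a = b
    · refine ⟨0, ?_⟩
      rw [hab, ← pow_two, ← hinv b hb, pow_orderOf_eq_one, pow_zero, orderOf_one]
    · exact hprod a ha b hb hab
  rw [← hD] at h1
  have hNp : IsPGroup p ↥(Cfsg.pCore p G) := CfsgLib.Cores.pCore_isPGroup p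
  -- modulo the `p`-core, `G` is generated by one element
  have h2 : commutator G ≤ Cfsg.pCore p G := by
    have hsq : ∀ x ∈ D, x * x = 1 := fun x hx => by rw [← pow_two, ← hinv x hx, pow_orderOf_eq_one]
    have h3 : ∀ g : G, ∃ k : ℤ, (QuotientGroup.mk g : G ⧸ Cfsg.pCore p G) = (QuotientGroup.mk d) ^ k := by
      intro g
      have hg : g ∈ closure D := by rw [hgen]; exact mem_top g
      induction hg using closure_induction with
      | mem x hx =>
        refine ⟨1, ?_⟩
        rw [zpow_one, QuotientGroup.eq]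
        have : x⁻¹ = x := inv_eq_of_mul_eq_one_left (hsq x hx)
        rw [this]; exact h1 x hx d hd
      | one => exact ⟨0, by simp⟩
      | mul x y _ _ ihx ihy =>
        obtain ⟨k, hk⟩ := ihx
        obtain ⟨l, hl⟩ := ihy
        exact ⟨k + l, by rw [QuotientGroup.mk_mul, hk, hl, zpow_add]⟩
      | inv x _ ih =>
        obtain ⟨k, hk⟩ := ih
        exact ⟨-k, by rw [QuotientGroup.mk_inv, hk, zpow_neg]⟩
    rw [commutator_def, commutator_le]
    intro a _ b _
    rw [← QuotientGroup.eq_one_iff]
    obtain ⟨k, hk⟩ := h3 a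
    obtain ⟨l, hl⟩ := h3 b
    rw [commutatorElement_def, QuotientGroup.mk_mul, QuotientGroup.mk_mul, QuotientGroup.mk_mul, QuotientGroup.mk_inv,
      QuotientGroup.mk_inv, hk, hl]
    group
  have h4 : IsPGroup p ↥(commutator G) := hNp.to_le h2
  exact h4.isNilpotent

end Cfsg.Agent.S1618
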