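import Cfsg.Statements.S1638
import Cfsg.Agent.LibSix28

set_option autoImplicit false
open scoped Pointwise
open Cfsg

namespace Cfsg.Agent.S1638

open Cfsg CfsgLib.Golay CfsgLib.M24 CfsgLib.Six28
open scoped Pointwise

theorem lam_four {T : Finset GolayPt} (hT : T.card = 4) : CfsgLib.Steiner.lam octads T = 5 := by
  have h1 := CfsgLib.Steiner.lam_mul octads_steiner T (by omega)
  rw [hT, card_pt] at h1
  have e1 : Nat.choose (8 - 4) (5 - 4) = 4 := by decide
  have e2 : Nat.choose (24 - 4) (5 - 4) = 20 := by decide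
  rw [e1, e2] at h1
  omega

theorem quad {p q : GolayPt} (hpq : p ≠ q) {s : Finset GolayPt} (hs : s.card = 2 ∧ p ∉ s ∧ q ∉ s) :
    ({p, q} ∪ s : Finset GolayPt).card = 4 := by
  rw [Finset.card_union_of_disjoint, Finset.card_pair hpq, hs.1]
  rw [Finset.disjoint_left]
  intro x hx
  rw [Finset.mem_insert, Finset.mem_singleton] at hx
  rcases hx with rfl | rfl
  · exact hs.2.1
  · exact hs.2.2

theorem cnt_all {p q : GolayPt} (hpq : p ≠ q) {s : Finset GolayPt} (hs : s.card = 2 ∧ p ∉ s ∧ q ∉ s) :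
    {t : Finset GolayPt | (t.card = 2 ∧ p ∉ t ∧ q ∉ t) ∧ Disjoint s t}.ncard = 190 := by
  classical
  have h4 := quad hpq hs
  have h1 : {t : Finset GolayPt | (t.card = 2 ∧ p ∉ t ∧ q ∉ t) ∧ Disjoint s t} =
      ((Finset.powersetCard 2 ({p, q} ∪ s)ᶜ : Finset (Finset GolayPt)) : Set (Finset GolayPt)) := by
    ext t
    rw [Finset.mem_coe, Finset.mem_powersetCard, Set.mem_setOf_eq, Finset.disjoint_left]
    constructor
    · rintro ⟨⟨h1, h2, h3⟩, h4⟩
      refine ⟨fun x hx => ?_, h1⟩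
      rw [Finset.mem_compl, Finset.mem_union, Finset.mem_insert, Finset.mem_singleton]
      rintro ((rfl | rfl) | h5)
      · exact h2 hx
      · exact h3 hx
      · exact h4 h5 hx
    · rintro ⟨h1, h2⟩
      refine ⟨⟨h2, fun h => ?_, fun h => ?_⟩, fun x hx hx' => ?_⟩
      · exact Finset.mem_compl.1 (h1 h) (by simp)
      · exact Finset.mem_compl.1 (h1 h) (by simp)
      · exact Finset.mem_compl.1 (h1 hx') (Finset.mem_union_right _ hx)
  rw [h1, Set.ncard_coe_finset, Finset.card_powersetCard, Finset.card_compl, card_pt, h4]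
  decide

theorem cnt_special {p q : GolayPt} (hpq : p ≠ q) {s : Finset GolayPt} (hs : s.card = 2 ∧ p ∉ s ∧ q ∉ s) :
    {t : Finset GolayPt | (t.card = 2 ∧ p ∉ t ∧ q ∉ t) ∧ Disjoint s t ∧
      (∃ o ∈ octads, p ∈ o ∧ q ∈ o ∧ s ∪ t ⊆ o)}.ncard = 30 := by
  classical
  have h4 := quad hpq hs
  set Y : Finset GolayPt := {p, q} ∪ s with hY
  let Oc := (CfsgLib.Steiner.blocks octads).filter fun b => Y ⊆ b
  have hOc : Oc.card = 5 := lam_four h4
  have hmem : ∀ o, o ∈ Oc ↔ o ∈ octads ∧ Y ⊆ o := by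
    intro o
    rw [Finset.mem_filter, CfsgLib.Steiner.mem_blocks]
  have hpY : p ∈ Y := by rw [hY]; simp
  have hqY : q ∈ Y := by rw [hY]; simp
  have hsY : s ⊆ Y := Finset.subset_union_right
  have h1 : {t : Finset GolayPt | (t.card = 2 ∧ p ∉ t ∧ q ∉ t) ∧ Disjoint s t ∧
      (∃ o ∈ octads, p ∈ o ∧ q ∈ o ∧ s ∪ t ⊆ o)} =
      ((Oc.biUnion fun o => Finset.powersetCard 2 (o \ Y) : Finset (Finset GolayPt)) : Set (Finset GolayPt)) := by
    ext t
    rw [Finset.mem_coe, Finset.mem_biUnion]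
    constructor
    · rintro ⟨⟨h1, h2, h3⟩, h5, o, ho, hp, hq, hst⟩
      refine ⟨o, (hmem o).2 ⟨ho, ?_⟩, ?_⟩
      · rw [hY]
        intro x hx
        rw [Finset.mem_union, Finset.mem_insert, Finset.mem_singleton] at hx
        rcases hx with (rfl | rfl) | hx
        · exact hp
        · exact hq
        · exact hst (Finset.mem_union_left _ hx)
      · rw [Finset.mem_powersetCard]
        refine ⟨fun x hx => ?_, h1⟩
        rw [Finset.mem_sdiff, hY, Finset.mem_union, Finset.mem_insert, Finset.mem_singleton]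
        refine ⟨hst (Finset.mem_union_right _ hx), ?_⟩
        rintro ((rfl | rfl) | h6)
        · exact h2 hx
        · exact h3 hx
        · exact Finset.disjoint_left.1 h5 h6 hx
    · rintro ⟨o, ho, ht⟩
      rw [hmem] at ho
      rw [Finset.mem_powersetCard] at ht
      have hnot : ∀ x ∈ t, x ∉ Y := fun x hx => (Finset.mem_sdiff.1 (ht.1 hx)).2
      refine ⟨⟨ht.2, fun h => hnot p h hpY, fun h => hnot q h hqY⟩, ?_, o, ho.1, ho.2 hpY, ho.2 hqY, ?_⟩
      · rw [Finset.disjoint_left]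
        intro x hx hx'
        exact hnot x hx' (hsY hx)
      · exact Finset.union_subset (hsY.trans ho.2) (ht.1.trans Finset.sdiff_subset)
  rw [h1, Set.ncard_coe_finset, Finset.card_biUnion]
  · rw [Finset.sum_congr rfl (fun o ho => by
      rw [Finset.card_powersetCard, Finset.card_sdiff_of_subset ((hmem o).1 ho).2,
        show o.card = 8 from ((hmem o).1 ho).1.2, h4]), Finset.sum_const, hOc]
    rfl
  · intro o ho o' ho' hne
    rw [Function.onFun, Finset.disjoint_left]
    intro U hU hU'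
    rw [Finset.mem_powersetCard] at hU hU'
    apply hne
    have ho1 := (hmem o).1 ho
    have ho2 := (hmem o').1 ho'
    apply octad_eq ho1.1 ho2.1
    have h3 : Y ∪ U ⊆ o ∩ o' := by
      apply Finset.subset_inter
      · exact Finset.union_subset ho1.2 (hU.1.trans Finset.sdiff_subset)
      · exact Finset.union_subset ho2.2 (hU'.1.trans Finset.sdiff_subset)
    have h5 := Finset.card_le_card h3
    have h6 : Disjoint Y U := by
      rw [Finset.disjoint_left]
      intro x hx hx'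
      exact (Finset.mem_sdiff.1 (hU.1 hx')).2 hx
    rw [Finset.card_union_of_disjoint h6, h4, hU.2] at h5
    omega

/-- colouring of the points -/
def col (p q : GolayPt) (s t : Finset GolayPt) (x : GolayPt) : ℕ :=
  if x = p then 1 else if x = q then 2 else if x ∈ s ∧ x ∈ t then 3 else if x ∈ s then 4 else if x ∈ t then 5 else 0

theorem col_count {p q : GolayPt} (hpq : p ≠ q) {s t : Finset GolayPt} (hs : p ∉ s ∧ q ∉ s) (ht : p ∉ t ∧ q ∉ t) (c : ℕ) :
    (Finset.univ.filter fun x => col p q s t x = c).card =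
      if c = 1 then 1 else if c = 2 then 1 else if c = 3 then (s ∩ t).card else if c = 4 then s.card - (s ∩ t).card
        else if c = 5 then t.card - (s ∩ t).card else if c = 0 then 24 - (2 + (s.card + t.card - (s ∩ t).card)) else 0 := by
  have h1 : (s \ t).card = s.card - (s ∩ t).card := by
    have := Finset.card_sdiff_add_card_inter s t; omega
  have h2 : (t \ s).card = t.card - (s ∩ t).card := by
    have := Finset.card_sdiff_add_card_inter t s
    rw [Finset.inter_comm t s] at this; omega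
  have h3 : ({p, q} ∪ (s ∪ t)).card = 2 + (s.card + t.card - (s ∩ t).card) := by
    rw [Finset.card_union_of_disjoint, Finset.card_pair hpq]
    · congr 1
      have := Finset.card_union_add_card_inter s t; omega
    · rw [Finset.disjoint_left]
      intro x hx hx'
      rw [Finset.mem_insert, Finset.mem_singleton] at hx
      rw [Finset.mem_union] at hx'
      rcases hx with rfl | rfl <;> rcases hx' with hx' | hx'
      · exact hs.1 hx'
      · exact ht.1 hx'
      · exact hs.2 hx'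
      · exact ht.2 hx'
  have key : ∀ x, (x = p → x ≠ q ∧ x ∉ s ∧ x ∉ t) ∧ (x = q → x ≠ p ∧ x ∉ s ∧ x ∉ t) := by
    intro x
    constructor
    · rintro rfl; exact ⟨hpq, hs.1, ht.1⟩
    · rintro rfl; exact ⟨hpq.symm, hs.2, ht.2⟩
  have hval : ∀ x, (x = p ∧ col p q s t x = 1) ∨ (x = q ∧ col p q s t x = 2) ∨
      (x ≠ p ∧ x ≠ q ∧ x ∈ s ∧ x ∈ t ∧ col p q s t x = 3) ∨ (x ≠ p ∧ x ≠ q ∧ x ∈ s ∧ x ∉ t ∧ col p q s t x = 4) ∨
      (x ≠ p ∧ x ≠ q ∧ x ∉ s ∧ x ∈ t ∧ col p q s t x = 5) ∨ (x ≠ p ∧ x ≠ q ∧ x ∉ s ∧ x ∉ t ∧ col p q s t x = 0) := by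
    intro x
    by_cases hp : x = p
    · left; exact ⟨hp, by rw [col, if_pos hp]⟩
    · by_cases hq : x = q
      · right; left; exact ⟨hq, by rw [col, if_neg hp, if_pos hq]⟩
      · by_cases h4 : x ∈ s <;> by_cases h5 : x ∈ t
        · right; right; left
          exact ⟨hp, hq, h4, h5, by rw [col, if_neg hp, if_neg hq, if_pos ⟨h4, h5⟩]⟩
        · right; right; right; left
          exact ⟨hp, hq, h4, h5, by rw [col, if_neg hp, if_neg hq, if_neg (fun h => h5 h.2), if_pos h4]⟩
        · right; right; right; right; left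
          exact ⟨hp, hq, h4, h5, by rw [col, if_neg hp, if_neg hq, if_neg (fun h => h4 h.1), if_neg h4, if_pos h5]⟩
        · right; right; right; right; right
          exact ⟨hp, hq, h4, h5, by rw [col, if_neg hp, if_neg hq, if_neg (fun h => h4 h.1), if_neg h4, if_neg h5]⟩
  by_cases c1 : c = 1
  · rw [if_pos c1, Finset.card_eq_one]
    refine ⟨p, ?_⟩
    ext x
    rw [Finset.mem_filter, Finset.mem_singleton]
    have h6 := hval x
    subst c1
    constructor
    · rintro ⟨_, h⟩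
      rcases h6 with h6 | h6 | h6 | h6 | h6 | h6 <;> first | exact h6.1 | (exfalso; omega)
    · intro h; exact ⟨Finset.mem_univ _, by rw [col, if_pos h]⟩
  rw [if_neg c1]
  by_cases c2 : c = 2
  · rw [if_pos c2, Finset.card_eq_one]
    refine ⟨q, ?_⟩
    ext x
    rw [Finset.mem_filter, Finset.mem_singleton]
    have h6 := hval x
    subst c2
    constructor
    · rintro ⟨_, h⟩
      rcases h6 with h6 | h6 | h6 | h6 | h6 | h6 <;> first | (exfalso; omega) | exact h6.1
    · intro h; exact ⟨Finset.mem_univ _, by rw [col, if_neg (fun h' => hpq (h'.symm.trans h)), if_pos h]⟩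
  rw [if_neg c2]
  by_cases c3 : c = 3
  · rw [if_pos c3]
    congr 1
    ext x
    rw [Finset.mem_filter, Finset.mem_inter]
    have h6 := hval x
    have h7 := key x
    subst c3
    constructor
    · rintro ⟨_, h⟩
      rcases h6 with h6 | h6 | h6 | h6 | h6 | h6 <;> first | exact ⟨h6.2.2.1, h6.2.2.2.1⟩ | omega
    · rintro ⟨h, h'⟩
      refine ⟨Finset.mem_univ _, ?_⟩
      rcases h6 with h6 | h6 | h6 | h6 | h6 | h6
      · exact absurd h (h7.1 h6.1).2.1
      · exact absurd h (h7.2 h6.1).2.1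
      · exact h6.2.2.2.2
      · exact absurd h' h6.2.2.2.1
      · exact absurd h h6.2.2.1
      · exact absurd h h6.2.2.1
  rw [if_neg c3]
  by_cases c4 : c = 4
  · rw [if_pos c4, ← h1]
    congr 1
    ext x
    rw [Finset.mem_filter, Finset.mem_sdiff]
    have h6 := hval x
    have h7 := key x
    subst c4
    constructor
    · rintro ⟨_, h⟩
      rcases h6 with h6 | h6 | h6 | h6 | h6 | h6 <;> first | exact ⟨h6.2.2.1, h6.2.2.2.1⟩ | omega
    · rintro ⟨h, h'⟩
      refine ⟨Finset.mem_univ _, ?_⟩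
      rcases h6 with h6 | h6 | h6 | h6 | h6 | h6
      · exact absurd h (h7.1 h6.1).2.1
      · exact absurd h (h7.2 h6.1).2.1
      · exact absurd h6.2.2.2.1 h'
      · exact h6.2.2.2.2
      · exact absurd h h6.2.2.1
      · exact absurd h h6.2.2.1
  rw [if_neg c4]
  by_cases c5 : c = 5
  · rw [if_pos c5, ← h2]
    congr 1
    ext x
    rw [Finset.mem_filter, Finset.mem_sdiff]
    have h6 := hval x
    have h7 := key x
    subst c5
    constructor
    · rintro ⟨_, h⟩
      rcases h6 with h6 | h6 | h6 | h6 | h6 | h6 <;> first | exact ⟨h6.2.2.2.1, h6.2.2.1⟩ | omega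
    · rintro ⟨h, h'⟩
      refine ⟨Finset.mem_univ _, ?_⟩
      rcases h6 with h6 | h6 | h6 | h6 | h6 | h6
      · exact absurd h (h7.1 h6.1).2.2
      · exact absurd h (h7.2 h6.1).2.2
      · exact absurd h6.2.2.1 h'
      · exact absurd h6.2.2.1 h'
      · exact h6.2.2.2.2
      · exact absurd h h6.2.2.2.1
  rw [if_neg c5]
  by_cases c0 : c = 0
  · rw [if_pos c0, ← h3, ← card_pt, ← Finset.card_compl]
    congr 1
    ext x
    rw [Finset.mem_filter, Finset.mem_compl, Finset.mem_union, Finset.mem_union, Finset.mem_insert, Finset.mem_singleton]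
    have h6 := hval x
    subst c0
    constructor
    · rintro ⟨_, h⟩
      rcases h6 with h6 | h6 | h6 | h6 | h6 | h6 <;> first | (rintro ((h8 | h8) | (h8 | h8)) <;> tauto) | omega
    · intro h
      refine ⟨Finset.mem_univ _, ?_⟩
      rcases h6 with h6 | h6 | h6 | h6 | h6 | h6
      · exact absurd (Or.inl (Or.inl h6.1)) h
      · exact absurd (Or.inl (Or.inr h6.1)) h
      · exact absurd (Or.inr (Or.inl h6.2.2.1)) h
      · exact absurd (Or.inr (Or.inl h6.2.2.1)) h
      · exact absurd (Or.inr (Or.inr h6.2.2.2.1)) h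
      · exact h6.2.2.2.2
  · rw [if_neg c0, Finset.card_eq_zero, Finset.filter_eq_empty_iff]
    intro x _ h
    have := hval x
    omega

theorem exists_perm {p q : GolayPt} (hpq : p ≠ q) {s t t' : Finset GolayPt} (hs : p ∉ s ∧ q ∉ s)
    (ht : p ∉ t ∧ q ∉ t) (ht' : p ∉ t' ∧ q ∉ t') (h1 : t.card = t'.card) (h2 : (s ∩ t).card = (s ∩ t').card) :
    ∃ σ : Equiv.Perm GolayPt, σ p = p ∧ σ q = q ∧ σ • s = s ∧ σ • t = t' := by
  obtain ⟨σ, hσ⟩ := exists_perm_of_colour (col p q s t) (col p q s t') (by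
    intro c
    rw [col_count hpq hs ht, col_count hpq hs ht', h1, h2])
  have hc : ∀ t : Finset GolayPt, (p ∉ t ∧ q ∉ t) → ∀ x, (col p q s t x = 1 ↔ x = p) ∧ (col p q s t x = 2 ↔ x = q) ∧
      ((col p q s t x = 3 ∨ col p q s t x = 4) ↔ x ∈ s) ∧ ((col p q s t x = 3 ∨ col p q s t x = 5) ↔ x ∈ t) := by
    intro t ht x
    rw [col]
    by_cases hp : x = p
    · rw [if_pos hp]
      have a1 : x ∉ s := by rw [hp]; exact hs.1
      have a2 : x ∉ t := by rw [hp]; exact ht.1
      have a3 : x ≠ q := by rw [hp]; exact hpq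
      simp [hp, hpq, hs.1, ht.1]
    · rw [if_neg hp]
      by_cases hq : x = q
      · rw [if_pos hq]
        have a1 : x ∉ s := by rw [hq]; exact hs.2
        have a2 : x ∉ t := by rw [hq]; exact ht.2
        simp [hq, hpq.symm, hs.2, ht.2]
      · rw [if_neg hq]
        by_cases h4 : x ∈ s <;> by_cases h5 : x ∈ t <;> simp [hp, hq, h4, h5]
  refine ⟨σ, ?_, ?_, ?_, ?_⟩
  · rw [← (hc t' ht' _).1, hσ, (hc t ht _).1]
  · rw [← (hc t' ht' _).2.1, hσ, (hc t ht _).2.1]
  · ext y
    rw [← Finset.inv_smul_mem_iff]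
    show σ⁻¹ y ∈ s ↔ _
    rw [← (hc t ht _).2.2.1, ← hσ, (hc t' ht' _).2.2.1]; simp
  · ext y
    rw [← Finset.inv_smul_mem_iff]
    show σ⁻¹ y ∈ t ↔ _
    rw [← (hc t ht _).2.2.2, ← hσ, (hc t' ht' _).2.2.2]; simp

/-- Fix two points p ≠ q and a pair s of two further points. Among the pairs avoiding p, q and disjoint from s, exactly 30 lie in an octad together with p, q and s and exactly 160 do not; and any two pairs other than s that meet s in equally many points and agree on that octad property are carried to one another by an element of the group of the length-24 code fixing p, q and s. -/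
theorem result (p q : Cfsg.GolayPt) (hpq : p ≠ q) (s : Finset Cfsg.GolayPt) (hs : (s.card = 2 ∧ p ∉ s ∧ q ∉ s)) : {t : Finset Cfsg.GolayPt | (t.card = 2 ∧ p ∉ t ∧ q ∉ t) ∧ Disjoint s t ∧ (∃ o ∈ Cfsg.octads, p ∈ o ∧ q ∈ o ∧ s ∪ t ⊆ o)}.ncard = 30 ∧ {t : Finset Cfsg.GolayPt | (t.card = 2 ∧ p ∉ t ∧ q ∉ t) ∧ Disjoint s t ∧ ¬ (∃ o ∈ Cfsg.octads, p ∈ o ∧ q ∈ o ∧ s ∪ t ⊆ o)}.ncard = 160 ∧ ∀ t t' : Finset Cfsg.GolayPt, (t.card = 2 ∧ p ∉ t ∧ q ∉ t) → (t'.card = 2 ∧ p ∉ t' ∧ q ∉ t') → t ≠ s → t' ≠ s → (s ∩ t).card = (s ∩ t').card → ((∃ o ∈ Cfsg.octads, p ∈ o ∧ q ∈ o ∧ s ∪ t ⊆ o) ↔ (∃ o ∈ Cfsg.octads, p ∈ o ∧ q ∈ o ∧ s ∪ t' ⊆ o)) → ∃ g : Equiv.Perm Cfsg.GolayPt, g ∈ Cfsg.M24 ∧ g p = p ∧ g q = q ∧ g • s = s ∧ g • t = t' := by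
  classical
  refine ⟨cnt_special hpq hs, ?_, ?_⟩
  · have h1 := cnt_all hpq hs
    have h2 := cnt_special hpq hs
    have h3 : {t : Finset GolayPt | (t.card = 2 ∧ p ∉ t ∧ q ∉ t) ∧ Disjoint s t} =
        {t : Finset GolayPt | (t.card = 2 ∧ p ∉ t ∧ q ∉ t) ∧ Disjoint s t ∧ (∃ o ∈ octads, p ∈ o ∧ q ∈ o ∧ s ∪ t ⊆ o)} ∪
        {t : Finset GolayPt | (t.card = 2 ∧ p ∉ t ∧ q ∉ t) ∧ Disjoint s t ∧ ¬ (∃ o ∈ octads, p ∈ o ∧ q ∈ o ∧ s ∪ t ⊆ o)} := by
      ext t
      rw [Set.mem_union]
      simp only [Set.mem_setOf_eq]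
      constructor
      · rintro ⟨a, b⟩
        by_cases h : ∃ o ∈ octads, p ∈ o ∧ q ∈ o ∧ s ∪ t ⊆ o
        · exact Or.inl ⟨a, b, h⟩
        · exact Or.inr ⟨a, b, h⟩
      · rintro (⟨a, b, _⟩ | ⟨a, b, _⟩) <;> exact ⟨a, b⟩
    rw [h3, Set.ncard_union_eq, h2] at h1
    · omega
    · rw [Set.disjoint_left]
      rintro t ⟨_, _, h⟩ ⟨_, _, h'⟩
      exact h' h
  · intro t t' ht ht' hts hts' hst hiff
    obtain ⟨σ, e1, e2, e3, e4⟩ := exists_perm hpq hs.2 ht.2 ht'.2 (ht.1.trans ht'.1.symm) hst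
    have h4 := quad hpq hs
    have hdis : Disjoint ({p, q} : Finset GolayPt) (s ∪ t) := by
      rw [Finset.disjoint_left]
      intro x hx hx'
      rw [Finset.mem_insert, Finset.mem_singleton] at hx
      rw [Finset.mem_union] at hx'
      rcases hx with rfl | rfl <;> rcases hx' with hx' | hx'
      · exact hs.2.1 hx'
      · exact ht.2.1 hx'
      · exact hs.2.2 hx'
      · exact ht.2.2 hx'
    have hcard : ({p, q} ∪ (s ∪ t)).card = 6 - (s ∩ t).card := by
      rw [Finset.card_union_of_disjoint hdis, Finset.card_pair hpq]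
      have := Finset.card_union_add_card_inter s t
      have h5 := Finset.card_le_card (Finset.inter_subset_left (s₁ := s) (s₂ := t))
      omega
    have hfin : ∀ g ∈ M24, (∀ x ∈ ({p, q} ∪ (s ∪ t) : Finset GolayPt), g x = σ x) →
        ∃ g : Equiv.Perm GolayPt, g ∈ M24 ∧ g p = p ∧ g q = q ∧ g • s = s ∧ g • t = t' := by
      intro g hg h
      refine ⟨g, hg, ?_, ?_, ?_, ?_⟩
      · rw [h p (by simp), e1]
      · rw [h q (by simp), e2]
      · rw [smul_eq_of_agree h (Finset.subset_union_left.trans Finset.subset_union_right), e3]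
      · rw [smul_eq_of_agree h (Finset.subset_union_right.trans Finset.subset_union_right), e4]
    have hsp : ∀ u : Finset GolayPt, Special ({p, q} ∪ (s ∪ u)) ↔ ∃ o ∈ octads, p ∈ o ∧ q ∈ o ∧ s ∪ u ⊆ o := by
      intro u
      constructor
      · rintro ⟨o, ho, h⟩
        exact ⟨o, ho, h (by simp), h (by simp), Finset.subset_union_right.trans h⟩
      · rintro ⟨o, ho, h1, h2, h3⟩
        refine ⟨o, ho, Finset.union_subset ?_ h3⟩
        intro x hx
        rw [Finset.mem_insert, Finset.mem_singleton] at hx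
        rcases hx with rfl | rfl <;> assumption
    rcases Nat.eq_zero_or_pos (s ∩ t).card with h0 | h0
    · obtain ⟨g, hg, h⟩ := agree6 σ (F := {p, q} ∪ (s ∪ t)) (by rw [hcard, h0]) (by
        have : σ • ({p, q} ∪ (s ∪ t) : Finset GolayPt) = {p, q} ∪ (s ∪ t') := by
          rw [Finset.smul_finset_union, Finset.smul_finset_union, e3, e4]
          congr 1
          rw [Finset.smul_finset_insert, Finset.smul_finset_singleton]
          show ({σ p, σ q} : Finset GolayPt) = _
          rw [e1, e2]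
        rw [this, hsp, hsp]
        exact hiff)
      exact hfin g hg h
    · obtain ⟨g, hg, h⟩ := agree5 σ (F := {p, q} ∪ (s ∪ t)) (by omega)
      exact hfin g hg h

end Cfsg.Agent.S1638
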