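import Cfsg.Statements.S1640
import Mathlib
import Cfsg.Agent.LibCoF

set_option autoImplicit false
open Cfsg

namespace Cfsg.Agent.S1640

/-- The stabiliser of a vector of customary norm 6 is transitive on the 11178 minimal vectors of customary inner product −2 with it. -/
theorem result (u : ↥Cfsg.leechLattice) (hu : Cfsg.sqNorm (u : Cfsg.GolayPt → ℤ) = 48) : {x : ↥Cfsg.leechLattice | Cfsg.sqNorm (x : Cfsg.GolayPt → ℤ) = 32 ∧ Cfsg.dotInt (u : Cfsg.GolayPt → ℤ) (x : Cfsg.GolayPt → ℤ) = -16}.ncard = 11178 ∧ ∀ x ∈ {x : ↥Cfsg.leechLattice | Cfsg.sqNorm (x : Cfsg.GolayPt → ℤ) = 32 ∧ Cfsg.dotInt (u : Cfsg.GolayPt → ℤ) (x : Cfsg.GolayPt → ℤ) = -16}, ∀ x' ∈ {x : ↥Cfsg.leechLattice | Cfsg.sqNorm (x : Cfsg.GolayPt → ℤ) = 32 ∧ Cfsg.dotInt (u : Cfsg.GolayPt → ℤ) (x : Cfsg.GolayPt → ℤ) = -16}, ∃ g : ↥Cfsg.Co0, g • u = u ∧ g • x = x' := by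
  constructor
  · rw [← (CfsgLib.Co.census48 u hu).2.1, ← CfsgLib.Co.cntD_neg]; rfl
  · rintro x ⟨h1, h2⟩ x' ⟨h1', h2'⟩
    have e : ∀ y : leechLattice, dotInt (u : GolayPt → ℤ) (y : GolayPt → ℤ) = -16 →
        dotInt (u : GolayPt → ℤ) ((-y : leechLattice) : GolayPt → ℤ) = 16 := by
      intro y hy
      rw [AddSubgroup.coe_neg, CfsgLib.Co.dot_neg_right, hy]; norm_num
    obtain ⟨g, hg, hgw⟩ := CfsgLib.Co.tr_p16 u (-x) hu (by rw [AddSubgroup.coe_neg, CfsgLib.Co.sqNorm_neg, h1]) (e x h2)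
    obtain ⟨g', hg', hgw'⟩ := CfsgLib.Co.tr_p16 u (-x') hu (by rw [AddSubgroup.coe_neg, CfsgLib.Co.sqNorm_neg, h1']) (e x' h2')
    have e1 : g • (-x) = g' • (-x') := Subtype.ext (hgw.trans hgw'.symm)
    rw [CfsgLib.Co.act_neg, CfsgLib.Co.act_neg, neg_inj] at e1
    refine ⟨g'⁻¹ * g, ?_, ?_⟩
    · rw [mul_smul, inv_smul_eq_iff, hg, hg']
    · rw [mul_smul, inv_smul_eq_iff]
      exact e1

end Cfsg.Agent.S1640
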