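import Cfsg.Statements.S1698
import Cfsg.Agent.LibTCFi24S

set_option autoImplicit false
open Cfsg

namespace Cfsg.Agent.S1698

/-- The commutator subgroup of the presented Fi₂₄ (our definition of Fi₂₄′) is simple of the expected order (that is, it is a simple group of the order of the Fischer group Fi₂₄′). -/
theorem result : Cfsg.IsFi24' Cfsg.Spor.Fi24' := by
  exact ⟨CfsgLib.TCFi24.simple, CfsgLib.TCFi24.card_comm⟩

end Cfsg.Agent.S1698
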