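import Cfsg.Statements.S1717
import Cfsg.Agent.LibSL52H14
import Cfsg.Agent.LibPSub


set_option autoImplicit false
open Cfsg

namespace Cfsg.Agent.S1717

open Matrix CfsgLib.SL52H14 CfsgLib.PSub
open scoped Pointwise

/-- position function -/
def pos : Fin 5 → ℕ := ![0, 4, 1, 2, 3]

/-- unitriangular with respect to `pos` -/
def UT (g : Matrix (Fin 5) (Fin 5) (ZMod 2)) : Prop := ∀ i j, (g - 1) i j ≠ 0 → pos i < pos j

theorem ut_mul {g h : Matrix (Fin 5) (Fin 5) (ZMod 2)} (hg : UT g) (hh : UT h) : UT (g * h) := by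
  intro i j hij
  have e : g * h - 1 = (g - 1) * (h - 1) + (g - 1) + (h - 1) := by noncomm_ring
  rw [e, Matrix.add_apply, Matrix.add_apply] at hij
  by_contra hcon
  apply hij
  have h1 : (g - 1) i j = 0 := by
    by_contra h0
    exact hcon (hg i j h0)
  have h2 : (h - 1) i j = 0 := by
    by_contra h0
    exact hcon (hh i j h0)
  have h3 : ((g - 1) * (h - 1)) i j = 0 := by
    rw [Matrix.mul_apply]
    apply Finset.sum_eq_zero
    intro l _
    by_contra h0
    exact hcon ((hg i l (left_ne_zero_of_mul h0)).trans (hh l j (right_ne_zero_of_mul h0)))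
  rw [h1, h2, h3]; simp

theorem ut_one : UT 1 := by
  intro i j h
  rw [sub_self] at h
  exact absurd rfl h

theorem ut_pow {g : Matrix (Fin 5) (Fin 5) (ZMod 2)} (hg : UT g) (n : ℕ) : UT (g ^ n) := by
  induction n with
  | zero => rw [pow_zero]; exact ut_one
  | succ n ih => rw [pow_succ]; exact ut_mul ih hg

theorem pos_lt (i : Fin 5) : pos i < 5 := by
  fin_cases i <;> decide

theorem sub_pow {g : Matrix (Fin 5) (Fin 5) (ZMod 2)} (hg : UT g) (k : ℕ) : ∀ i j, ((g - 1) ^ k) i j ≠ 0 → pos i + k ≤ pos j := by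
  induction k with
  | zero =>
    intro i j h
    rw [pow_zero] at h
    have : i = j := by
      by_contra hij
      exact h (Matrix.one_apply_ne hij)
    rw [this]; simp
  | succ k ih =>
    intro i j h
    rw [pow_succ, Matrix.mul_apply] at h
    obtain ⟨l, -, hl⟩ := Finset.exists_ne_zero_of_sum_ne_zero h
    have h1 := ih i l (left_ne_zero_of_mul hl)
    have h2 := hg l j (right_ne_zero_of_mul hl)
    omega

theorem ut_pow_eight {g : Matrix (Fin 5) (Fin 5) (ZMod 2)} (hg : UT g) : g ^ 8 = 1 := by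
  have h1 : (g - 1) ^ 8 = 0 := by
    ext i j
    by_contra h
    have := sub_pow hg 8 i j h
    have := pos_lt j
    omega
  have h2 : (g - 1) ^ (2 ^ 3) = g ^ (2 ^ 3) - 1 ^ (2 ^ 3) := sub_pow_char_pow_of_commute (p := 2) (n := 3) (Commute.one_right g)
  have h3 : g ^ 8 - 1 = 0 := by
    rw [← h1]
    simpa using h2.symm
  exact sub_eq_zero.1 h3

/-- the unitriangular group -/
def U : Subgroup (Matrix.SpecialLinearGroup (Fin 5) (ZMod 2)) where
  carrier := {g | UT (g : Matrix (Fin 5) (Fin 5) (ZMod 2))}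
  one_mem' := by
    show UT _
    rw [Matrix.SpecialLinearGroup.coe_one]; exact ut_one
  mul_mem' := by
    intro a b ha hb
    show UT _
    rw [Matrix.SpecialLinearGroup.coe_mul]
    exact ut_mul ha hb
  inv_mem' := by
    intro a ha
    have h1 : a ^ 8 = 1 := by
      apply Subtype.ext
      rw [Matrix.SpecialLinearGroup.coe_pow, Matrix.SpecialLinearGroup.coe_one]
      exact ut_pow_eight ha
    have h2 : a⁻¹ = a ^ 7 := by
      apply inv_eq_of_mul_eq_one_left
      rw [← pow_succ]; exact h1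
    show UT _
    rw [h2, Matrix.SpecialLinearGroup.coe_pow]
    exact ut_pow ha 7

theorem isPGroup_U : IsPGroup 2 U := by
  intro x
  refine ⟨3, ?_⟩
  apply Subtype.ext
  apply Subtype.ext
  show ((x : Matrix.SpecialLinearGroup (Fin 5) (ZMod 2)) ^ (2 ^ 3) : Matrix.SpecialLinearGroup (Fin 5) (ZMod 2)).1 = 1
  have := ut_pow_eight x.2
  rw [← Matrix.SpecialLinearGroup.coe_pow] at this
  exact this

theorem transv_mem (i j : Fin 5) (hij : i ≠ j) (h : pos i < pos j) :
    ∃ t ∈ U, (t : Matrix (Fin 5) (Fin 5) (ZMod 2)) = Matrix.transvection i j 1 := by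
  refine ⟨⟨Matrix.transvection i j 1, Matrix.det_transvection_of_ne i j hij 1⟩, ?_, rfl⟩
  show UT _
  intro a b hab
  have : (Matrix.transvection i j (1 : ZMod 2) - 1) a b = Matrix.single i j 1 a b := by
    simp [Matrix.transvection]
  rw [this] at hab
  have hi : i = a ∧ j = b := by
    by_contra hcon
    apply hab
    rw [Matrix.single_apply, if_neg hcon]
  rw [← hi.1, ← hi.2]; exact h

theorem U_comm {g : Matrix.SpecialLinearGroup (Fin 5) (ZMod 2)} (hg : g ∈ U) :
    (g : Matrix (Fin 5) (Fin 5) (ZMod 2)) * (Matrix.transvection (0 : Fin 5) 1 (1 : ZMod 2)) = (Matrix.transvection (0 : Fin 5) 1 (1 : ZMod 2)) * g := by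
  rw [comm_iff]
  have h : UT (g : Matrix (Fin 5) (Fin 5) (ZMod 2)) := hg
  have key : ∀ i j, ¬ (pos i < pos j) → (g : Matrix (Fin 5) (Fin 5) (ZMod 2)) i j = (1 : Matrix (Fin 5) (Fin 5) (ZMod 2)) i j := by
    intro i j hij
    by_contra hne
    exact hij (h i j (by rw [Matrix.sub_apply]; exact sub_ne_zero.2 hne))
  refine ⟨?_, ?_, ?_, ?_, ?_, ?_, ?_, ?_⟩
  · rw [key 1 0 (by decide)]; rfl
  · rw [key 2 0 (by decide)]; rfl
  · rw [key 3 0 (by decide)]; rfl
  · rw [key 4 0 (by decide)]; rfl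
  · rw [key 0 0 (by decide), key 1 1 (by decide)]; rfl
  · rw [key 1 2 (by decide)]; rfl
  · rw [key 1 3 (by decide)]; rfl
  · rw [key 1 4 (by decide)]; rfl

theorem comm_entries (g : Matrix (Fin 5) (Fin 5) (ZMod 2)) (i j : Fin 5) (h : g * Matrix.transvection i j 1 = Matrix.transvection i j 1 * g) :
    (∀ a, a ≠ i → g a i = 0) ∧ (∀ b, b ≠ j → g j b = 0) ∧ g i i = g j j := by
  have h1 : g * Matrix.single i j 1 = Matrix.single i j 1 * g := by
    have e1 : g * Matrix.transvection i j 1 = g + g * Matrix.single i j 1 := by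
      rw [Matrix.transvection, mul_add, mul_one]
    have e2 : Matrix.transvection i j 1 * g = g + Matrix.single i j 1 * g := by
      rw [Matrix.transvection, add_mul, one_mul]
    rw [e1, e2] at h
    exact add_left_cancel h
  have h2 : ∀ a b, (g * Matrix.single i j (1 : ZMod 2) : Matrix (Fin 5) (Fin 5) (ZMod 2)) a b = (Matrix.single i j (1 : ZMod 2) * g : Matrix (Fin 5) (Fin 5) (ZMod 2)) a b := fun a b => by rw [h1]
  refine ⟨?_, ?_, ?_⟩
  · intro a ha
    have := h2 a j
    rw [Matrix.mul_single_apply_same, Matrix.single_mul_apply_of_ne _ _ _ _ _ ha, mul_one] at this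
    exact this
  · intro b hb
    have := h2 i b
    rw [Matrix.mul_single_apply_of_ne _ _ _ _ _ hb, Matrix.single_mul_apply_same, one_mul] at this
    exact this.symm
  · have := h2 i j
    rw [Matrix.mul_single_apply_same, Matrix.single_mul_apply_same, mul_one, one_mul] at this
    exact this

theorem cent_U (g : Matrix.SpecialLinearGroup (Fin 5) (ZMod 2)) (hg : ∀ t ∈ U, g * t = t * g) :
    (g : Matrix (Fin 5) (Fin 5) (ZMod 2)) = 1 ∨ (g : Matrix (Fin 5) (Fin 5) (ZMod 2)) = Matrix.transvection 0 1 1 := by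
  have h : ∀ i j : Fin 5, i ≠ j → pos i < pos j → (g : Matrix (Fin 5) (Fin 5) (ZMod 2)) * Matrix.transvection i j 1 = Matrix.transvection i j 1 * (g : Matrix (Fin 5) (Fin 5) (ZMod 2)) := by
    intro i j hij hp
    obtain ⟨t, ht, ht'⟩ := transv_mem i j hij hp
    rw [← ht']
    have := congrArg (fun x : Matrix.SpecialLinearGroup (Fin 5) (ZMod 2) => (x : Matrix (Fin 5) (Fin 5) (ZMod 2))) (hg t ht)
    simpa using this
  obtain ⟨a1, a2, a3⟩ := comm_entries g 0 2 (h 0 2 (by decide) (by decide))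
  obtain ⟨b1, b2, b3⟩ := comm_entries g 2 3 (h 2 3 (by decide) (by decide))
  obtain ⟨c1, c2, c3⟩ := comm_entries g 3 4 (h 3 4 (by decide) (by decide))
  obtain ⟨d1, d2, d3⟩ := comm_entries g 4 1 (h 4 1 (by decide) (by decide))
  have h00 : (g : Matrix (Fin 5) (Fin 5) (ZMod 2)) 0 0 = 1 := by
    apply two_ne
    intro h00
    have h4 : (g : Matrix (Fin 5) (Fin 5) (ZMod 2)).det = 0 := by
      apply Matrix.det_eq_zero_of_column_eq_zero 0
      intro i
      by_cases hi : i = 0
      · rw [hi]; exact h00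
      · exact a1 i hi
    rw [g.2] at h4
    exact absurd h4 (by decide)
  have h22 := a3.symm.trans h00
  have h33 := b3.symm.trans h22
  have h44 := c3.symm.trans h33
  have h11 := d3.symm.trans h44
  have h01 : (g : Matrix (Fin 5) (Fin 5) (ZMod 2)) 0 1 = 0 ∨ (g : Matrix (Fin 5) (Fin 5) (ZMod 2)) 0 1 = 1 := by
    have : ∀ z : ZMod 2, z = 0 ∨ z = 1 := by decide
    exact this _
  have key : (g : Matrix (Fin 5) (Fin 5) (ZMod 2)) = !![1, (g : Matrix (Fin 5) (Fin 5) (ZMod 2)) 0 1, 0, 0, 0; 0,1,0,0,0; 0,0,1,0,0; 0,0,0,1,0; 0,0,0,0,1] := by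
    ext i j
    fin_cases i <;> fin_cases j <;>
      first
      | rfl | exact h00 | exact h11 | exact h22 | exact h33 | exact h44
      | exact a1 _ (by decide) | exact a2 _ (by decide)
      | exact b1 _ (by decide) | exact b2 _ (by decide)
      | exact c1 _ (by decide) | exact c2 _ (by decide)
      | exact d1 _ (by decide) | exact d2 _ (by decide)
  rcases h01 with h01 | h01
  · left
    rw [key, h01]
    ext i j
    fin_cases i <;> fin_cases j <;> rfl
  · right
    rw [key, h01, single01]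

theorem main {G : Type*} [Group G] [Finite G] (s : Matrix.SpecialLinearGroup (Fin 5) (ZMod 2))
    (hs : (s : Matrix (Fin 5) (Fin 5) (ZMod 2)) = Matrix.transvection 0 1 1) (z : G) (hz : orderOf z = 2)
    (CG : Subgroup G) (hCG : CG = Subgroup.centralizer ({z} : Set G))
    (CS : Subgroup (Matrix.SpecialLinearGroup (Fin 5) (ZMod 2))) (hCS : CS = Subgroup.centralizer ({s} : Set (Matrix.SpecialLinearGroup (Fin 5) (ZMod 2))))
    (e : CG ≃* CS) (T : Sylow 2 CG) : ¬ 2 ∣ ((T : Subgroup CG).map CG.subtype).index := by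
  have hUC : U ≤ CS := by
    intro g hg
    rw [hCS, Subgroup.mem_centralizer_singleton_iff]
    apply Subtype.ext
    have := U_comm hg
    rw [← hs] at this
    simpa using this
  have hUp : IsPGroup 2 (U.subgroupOf CS) := isPGroup_U.comap_of_injective _ CS.subtype_injective
  obtain ⟨P, hP⟩ := hUp.exists_le_sylow
  -- central elements of P
  have hZ : ∀ x : CS, (∀ y ∈ P, x * y = y * x) → x = 1 ∨ (x : Matrix.SpecialLinearGroup (Fin 5) (ZMod 2)) = s := by
    intro x hx
    rcases cent_U x (fun t ht => congrArg Subtype.val (hx ⟨t, hUC ht⟩ (hP (Subgroup.mem_subgroupOf.2 ht)))) with h | h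
    · left
      apply Subtype.ext
      apply Subtype.ext
      exact h
    · right
      apply Subtype.ext
      rw [h]; exact hs.symm
  -- the image of T
  let T' : Sylow 2 CS := T.mapSurjective (f := e.toMonoidHom) e.surjective
  have hT' : ∀ y, y ∈ T' ↔ ∃ t ∈ T, e t = y := by
    intro y
    exact Iff.rfl
  have hsC : s ∈ CS := by first | (rw [hCG]; exact Subgroup.mem_centralizer_singleton_iff.2 rfl) | (rw [hCS]; exact Subgroup.mem_centralizer_singleton_iff.2 rfl)
  have hZT' : ∀ x : CS, (∀ y ∈ T', x * y = y * x) → x = 1 ∨ (x : Matrix.SpecialLinearGroup (Fin 5) (ZMod 2)) = s := by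
    intro x hx
    obtain ⟨c, hc⟩ := MulAction.exists_smul_eq CS T' P
    have h1 : ∀ y ∈ P, (c * x * c⁻¹) * y = y * (c * x * c⁻¹) := by
      intro y hy
      rw [← hc] at hy
      have h2 : c⁻¹ * y * c ∈ T' := by
        have h5 : y ∈ (MulAut.conj c • (T' : Subgroup CS)) := hy
        rw [Subgroup.mem_pointwise_smul_iff_inv_smul_mem, ← map_inv, MulAut.smul_def, MulAut.conj_apply, inv_inv] at h5
        exact h5
      have h3 := hx _ h2
      calc (c * x * c⁻¹) * y = c * (x * (c⁻¹ * y * c)) * c⁻¹ := by group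
        _ = c * ((c⁻¹ * y * c) * x) * c⁻¹ := by rw [h3]
        _ = y * (c * x * c⁻¹) := by group
    rcases hZ _ h1 with h | h
    · left
      exact conj_eq_one_iff.1 h
    · right
      have h2 : (c : Matrix.SpecialLinearGroup (Fin 5) (ZMod 2)) * s = s * c := Subgroup.mem_centralizer_singleton_iff.1 (hCS ▸ c.2)
      have h3 : (c : Matrix.SpecialLinearGroup (Fin 5) (ZMod 2)) * x * (c : Matrix.SpecialLinearGroup (Fin 5) (ZMod 2))⁻¹ = s := h
      have h4 : (c : Matrix.SpecialLinearGroup (Fin 5) (ZMod 2)) * x = s * c := by rw [← h3]; group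
      rw [← h2] at h4
      exact mul_left_cancel h4
  have hzC : z ∈ CG := by first | (rw [hCG]; exact Subgroup.mem_centralizer_singleton_iff.2 rfl) | (rw [hCS]; exact Subgroup.mem_centralizer_singleton_iff.2 rfl)
  have hzc : ∀ y : CG, (⟨z, hzC⟩ : CG) * y = y * ⟨z, hzC⟩ := by
    intro y
    apply Subtype.ext
    exact (Subgroup.mem_centralizer_singleton_iff.1 (hCG ▸ y.2)).symm
  have hz1 : z ≠ 1 := by
    rintro rfl
    rw [orderOf_one] at hz
    norm_num at hz
  have hez : (e ⟨z, hzC⟩ : Matrix.SpecialLinearGroup (Fin 5) (ZMod 2)) = s := by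
    rcases hZT' (e ⟨z, hzC⟩) (fun y hy => by
      obtain ⟨t, ht, rfl⟩ := (hT' y).1 hy
      rw [← map_mul, ← map_mul, hzc]) with h | h
    · exfalso
      have := (map_eq_one_iff e e.injective).1 h
      exact hz1 (congrArg Subtype.val this)
    · exact h
  have hZT : ∀ x : CG, (∀ y ∈ T, x * y = y * x) → x = 1 ∨ (x : G) = z := by
    intro x hx
    rcases hZT' (e x) (fun y hy => by
      obtain ⟨t, ht, rfl⟩ := (hT' y).1 hy
      rw [← map_mul, ← map_mul, hx t ht]) with h | h
    · left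
      exact (map_eq_one_iff e e.injective).1 h
    · right
      rw [← hez] at h
      have := e.injective (Subtype.ext h)
      rw [this]
  -- z in T
  have hzT : (⟨z, hzC⟩ : CG) ∈ T := by
    have hzz : (⟨z, hzC⟩ : CG) ^ 2 = 1 := by
      apply Subtype.ext
      show z ^ 2 = 1
      rw [← hz, pow_orderOf_eq_one]
    haveI hn : (Subgroup.zpowers (⟨z, hzC⟩ : CG)).Normal := by
      refine ⟨fun n hn g => ?_⟩
      obtain ⟨k, rfl⟩ := Subgroup.mem_zpowers_iff.1 hn
      have : Commute (⟨z, hzC⟩ : CG) g := hzc g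
      have h2 : g * (⟨z, hzC⟩ : CG) ^ k * g⁻¹ = (⟨z, hzC⟩ : CG) ^ k := by
        rw [mul_inv_eq_iff_eq_mul]
        exact ((this.zpow_left k).eq).symm
      rw [h2]
      exact Subgroup.zpow_mem_zpowers _ k
    have hp : IsPGroup 2 (Subgroup.zpowers (⟨z, hzC⟩ : CG)) := by
      intro x
      refine ⟨1, ?_⟩
      obtain ⟨k, hk⟩ := Subgroup.mem_zpowers_iff.1 x.2
      apply Subtype.ext
      show (x : CG) ^ (2 ^ 1) = 1
      rw [← hk, ← zpow_natCast, ← _root_.zpow_mul, mul_comm, _root_.zpow_mul]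
      have : (⟨z, hzC⟩ : CG) ^ ((2 ^ 1 : ℕ) : ℤ) = 1 := by
        rw [zpow_natCast, pow_one]; exact hzz
      rw [this, _root_.one_zpow]
    have h2 := T.3 (IsPGroup.to_sup_of_normal_right T.2 hp) le_sup_left
    have h3 : (⟨z, hzC⟩ : CG) ∈ (T : Subgroup CG) ⊔ Subgroup.zpowers (⟨z, hzC⟩ : CG) := Subgroup.mem_sup_right (Subgroup.mem_zpowers _)
    rw [h2] at h3
    exact h3
  have hzT0 : z ∈ (T : Subgroup CG).map CG.subtype := ⟨⟨z, hzC⟩, hzT, rfl⟩
  have hT0C : (T : Subgroup CG).map CG.subtype ≤ CG := Subgroup.map_subtype_le _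
  have hN : Subgroup.normalizer (((T : Subgroup CG).map CG.subtype : Subgroup G) : Set G) ≤ CG := by
    intro g hg
    rw [Subgroup.mem_normalizer_iff] at hg
    have h1 : g * z * g⁻¹ ∈ (T : Subgroup CG).map CG.subtype := (hg z).1 hzT0
    rcases hZT ⟨g * z * g⁻¹, hT0C h1⟩ (fun y hy => by
      apply Subtype.ext
      show g * z * g⁻¹ * (y : G) = (y : G) * (g * z * g⁻¹)
      have h2 : g⁻¹ * (y : G) * g ∈ (T : Subgroup CG).map CG.subtype := by
        rw [hg]
        have : g * (g⁻¹ * (y : G) * g) * g⁻¹ = y := by group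
        rw [this]
        exact ⟨y, hy, rfl⟩
      have h3 : (g⁻¹ * (y : G) * g) * z = z * (g⁻¹ * (y : G) * g) := Subgroup.mem_centralizer_singleton_iff.1 (hCG ▸ hT0C h2)
      calc g * z * g⁻¹ * (y : G) = g * (z * (g⁻¹ * (y : G) * g)) * g⁻¹ := by group
        _ = g * ((g⁻¹ * (y : G) * g) * z) * g⁻¹ := by rw [h3]
        _ = (y : G) * (g * z * g⁻¹) := by group) with h | h
    · exfalso
      have h3 : g * z * g⁻¹ = 1 := congrArg Subtype.val h
      exact hz1 (conj_eq_one_iff.1 h3)
    · have h3 : g * z * g⁻¹ = z := h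
      rw [hCG, Subgroup.mem_centralizer_singleton_iff]
      rw [mul_inv_eq_iff_eq_mul] at h3
      exact h3
  obtain ⟨Q, hQ⟩ := sylow_of_normalizer (G := G) (p := 2) (P := (T : Subgroup CG).map CG.subtype) (T.2.map _) (by
    intro R hR hTR hRN
    exact subgroupOf_sylow_eq T hR (hRN.trans hN) hTR)
  rw [← hQ]
  exact Q.not_dvd_index


/-- Let G be a finite group with an involution z whose centraliser C is isomorphic to the centraliser of a transvection of SL(5, 2). Then a Sylow 2-subgroup of C, viewed in G, is a Sylow 2-subgroup of G (its index in G is odd). -/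
theorem result {G : Type*} [Group G] [Finite G] (s : Matrix.SpecialLinearGroup (Fin 5) (ZMod 2)) (hs : (s : Matrix (Fin 5) (Fin 5) (ZMod 2)) = Matrix.transvection 0 1 1) (z : G) (hz : orderOf z = 2) (e : (Subgroup.centralizer ({z} : Set G)) ≃* Subgroup.centralizer ({s} : Set (Matrix.SpecialLinearGroup (Fin 5) (ZMod 2)))) (T : Sylow 2 (Subgroup.centralizer ({z} : Set G))) : ¬ 2 ∣ ((T : Subgroup (Subgroup.centralizer ({z} : Set G))).map (Subgroup.subtype (Subgroup.centralizer ({z} : Set G)))).index := by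
  exact main s hs z hz _ rfl _ rfl e T

end Cfsg.Agent.S1717
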