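import Cfsg.Statements.S1753
import Mathlib

-- import your own Cfsg.Agent.* helpers here

set_option autoImplicit false
universe u
open Cfsg

namespace Cfsg.Agent.S1753

universe v
theorem card_quot_le {G : Type v} [Group G] [Finite G] (N : Subgroup G) [N.Normal] : Nat.card (G ⧸ N) ≤ Nat.card G :=
  Nat.card_le_card_of_surjective _ (QuotientGroup.mk'_surjective N)

theorem card_lt' {G : Type v} [Group G] [Finite G] (H : Subgroup G) (hH : H ≠ ⊤) : Nat.card H < Nat.card G := by
  apply lt_of_le_of_ne (Subgroup.card_le_card_group H)
  intro h
  exact hH ((Subgroup.card_eq_iff_eq_top H).mp h)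

/-- Let K be any property of groups. (1) If G is a minimal counterexample relative to K — a finite non-abelian simple group not satisfying K such that every finite non-abelian simple group of smaller order satisfies K — then every proper subgroup of G is a K-group (all its non-abelian simple sections satisfy K), since such sections have smaller order than G. (2) Consequently (induction on the order), if every finite non-abelian simple group all of whose proper subgroups are K-groups satisfies K, then every finite non-abelian simple group satisfies K. -/
theorem result (K : ∀ (X : Type u) [Group X], Prop) :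
    (∀ (G : Type u) [Group G], Cfsg.IsMinCounterexampleWith K G → Cfsg.IsKProperWith K G) ∧
      ((∀ (X : Type u) [Group X] [Finite X], IsSimpleGroup X → ¬ IsMulCommutative X → Cfsg.IsKProperWith K X → K X) →
        ∀ (G : Type u) [Group G] [Finite G], IsSimpleGroup G → ¬ IsMulCommutative G → K G) := by
  constructor
  · intro G _ hG H hH L N hN hs hna
    obtain ⟨hfin, hG1, hG2, hG3, hG4⟩ := hG
    haveI := hfin
    apply hG4 _ hs hna
    exact (card_quot_le N).trans_lt ((Subgroup.card_le_card_group L).trans_lt (card_lt' H hH))
  · intro hmain G _ _ hG hGn
    obtain ⟨n, hn⟩ : ∃ n, Nat.card G = n := ⟨_, rfl⟩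
    induction n using Nat.strong_induction_on generalizing G with
    | _ n ih =>
      apply hmain G hG hGn
      intro H hH L N hN hs hna
      exact ih (Nat.card (L ⧸ N)) (hn ▸ (card_quot_le N).trans_lt ((Subgroup.card_le_card_group L).trans_lt (card_lt' H hH))) (L ⧸ N) hs hna rfl

end Cfsg.Agent.S1753
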