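import Cfsg.Statements.S1754
import Mathlib
import Cfsg.Agent.LibComp
import Cfsg.Agent.LibTIConj
-- import your own Cfsg.Agent.* helpers here

set_option autoImplicit false
open Cfsg

namespace Cfsg.Agent.S1754

open CfsgLib.TIConj

/-- Let A be a standard subgroup of the finite group G (A quasisimple, C_G(A) tightly embedded of even order, A commuting elementwise with no other conjugate of itself, and N_G(A) = N_G(C_G(A))), and let t be an involution of G centralizing A. Then the centralizer of t lies in the normalizer of A; in particular A, viewed inside C_G(t), is a component of C_G(t). -/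
theorem result {G : Type*} [Group G] [Finite G]
    (A : Subgroup G) (hA : Cfsg.IsStandardSubgroup A) (t : G) (ht : orderOf t = 2) (htA : t ∈ Subgroup.centralizer (A : Set G)) :
    Subgroup.centralizer ({t} : Set G) ≤ Subgroup.normalizer (A : Set G) ∧
      Cfsg.IsComponent (A.subgroupOf (Subgroup.centralizer ({t} : Set G))) := by
  obtain ⟨hq, ⟨heven, htight⟩, _, hnorm⟩ := hA
  have hle : Subgroup.centralizer ({t} : Set G) ≤ Subgroup.normalizer (A : Set G) := by
    intro g hg
    rw [hnorm]
    by_contra hgn
    have h1 := htight g hgn
    have h2 : t ∈ Subgroup.centralizer (A : Set G) ⊓ (Subgroup.centralizer (A : Set G)).map (MulAut.conj g).toMonoidHom := by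
      refine Subgroup.mem_inf.mpr ⟨htA, ?_⟩
      rw [mem_conj]
      have h3 : t * g = g * t := Subgroup.mem_centralizer_iff.mp hg t rfl
      rw [mul_assoc, h3, inv_mul_cancel_left]
      exact htA
    have h3 : 2 ∣ Nat.card ↥(Subgroup.centralizer (A : Set G) ⊓ (Subgroup.centralizer (A : Set G)).map (MulAut.conj g).toMonoidHom : Subgroup G) := by
      rw [← ht]
      exact Subgroup.orderOf_dvd_natCard _ h2
    exact (Nat.not_even_iff_odd.mpr h1) (even_iff_two_dvd.mpr h3)
  refine ⟨hle, ?_, ?_⟩
  · have hn : (A.subgroupOf (Subgroup.centralizer ({t} : Set G))).Normal := by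
      constructor
      intro x hx g
      rw [Subgroup.mem_subgroupOf] at hx ⊢
      exact conj_mem_of_normalizer (hle g.2) hx
    exact hn.isSubnormal
  · have hAC : A ≤ Subgroup.centralizer ({t} : Set G) := by
      intro a ha
      rw [Subgroup.mem_centralizer_iff]
      rintro x rfl
      exact (Subgroup.mem_centralizer_iff.mp htA a ha).symm
    exact CfsgLib.Comp.quasisimple_equiv (Subgroup.subgroupOfEquivOfLe hAC).symm hq

end Cfsg.Agent.S1754
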