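import Cfsg.Statements.S1755
import Mathlib
import Cfsg.Agent.LibComp
import Cfsg.Agent.LibTIConj
-- import your own Cfsg.Agent.* helpers here

set_option autoImplicit false
open Cfsg

namespace Cfsg.Agent.S1755

open CfsgLib.TIConj

theorem unique_inv {H : Type*} [Group H] [Finite H] [IsCyclic H] {x y : H} (hx : x * x = 1) (hx1 : x ≠ 1) (hy : y * y = 1) (hy1 : y ≠ 1) : x = y := by
  classical
  have hft : Fintype H := Fintype.ofFinite H
  by_contra hne
  have h1 := IsCyclic.card_pow_eq_one_le (α := H) (n := 2) (by norm_num)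
  have h2 : ({1, x, y} : Finset H) ⊆ (Finset.univ.filter fun a : H => a ^ 2 = 1) := by
    intro a ha
    simp only [Finset.mem_insert, Finset.mem_singleton] at ha
    rw [Finset.mem_filter]
    refine ⟨Finset.mem_univ _, ?_⟩
    rcases ha with rfl | rfl | rfl
    · exact one_pow _
    · rw [pow_two, hx]
    · rw [pow_two, hy]
  have h3 := Finset.card_le_card h2
  rw [Finset.card_insert_of_notMem (by simp [Ne.symm hx1, Ne.symm hy1]), Finset.card_insert_of_notMem (by simpa using hne), Finset.card_singleton] at h3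
  omega

theorem exists_inv_pow {H : Type*} [Group H] (hH : IsPGroup 2 H) {x : H} (hx : x ≠ 1) : ∃ k : ℕ, x ^ k ≠ 1 ∧ (x ^ k) * (x ^ k) = 1 := by
  classical
  obtain ⟨k, hk⟩ := hH x
  have hex : ∃ k, x ^ (2 ^ k) = 1 := ⟨k, hk⟩
  have h1 := Nat.find_spec hex
  have h2 : Nat.find hex ≠ 0 := by
    intro h0
    rw [h0, pow_zero, pow_one] at h1
    exact hx h1
  obtain ⟨n, hn⟩ := Nat.exists_eq_succ_of_ne_zero h2
  refine ⟨2 ^ n, Nat.find_min hex (by omega), ?_⟩
  rw [hn, Nat.succ_eq_add_one, pow_succ, mul_two, pow_add] at h1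
  exact h1

theorem main {G : Type*} [Group G] [Finite G] (z : G) (hz : orderOf z = 2) (hz2 : z * z = 1) (hz1 : z ≠ 1) (hzC : z ∈ Subgroup.centralizer ({z} : Set G))
    (Q : Subgroup ↥(Subgroup.centralizer ({z} : Set G))) (hQn : Q.Normal) (hzQ : (⟨z, hzC⟩ : Subgroup.centralizer ({z} : Set G)) ∈ Q)
    (hQ : Cfsg.IsOfSymplecticType Q) (B : Subgroup ↥Q) (hBc : B.Characteristic) (hBa : IsMulCommutative ↥B) (g : G) :
    ((B.map Q.subtype).map (Subgroup.centralizer ({z} : Set G)).subtype).map (MulAut.conj g).toMonoidHom =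
        (B.map Q.subtype).map (Subgroup.centralizer ({z} : Set G)).subtype ∨
      ((B.map Q.subtype).map (Subgroup.centralizer ({z} : Set G)).subtype).map (MulAut.conj g).toMonoidHom ⊓
        (B.map Q.subtype).map (Subgroup.centralizer ({z} : Set G)).subtype = ⊥ := by
  obtain ⟨hQ2, hQc⟩ := hQ
  have hBcyc := hQc B hBc hBa
  have hBn : B.Normal := inferInstance
  set B2 : Subgroup G := (B.map Q.subtype).map (Subgroup.centralizer ({z} : Set G)).subtype with hB2
  by_cases hBbot : B = ⊥
  · right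
    have : B2 = ⊥ := by rw [hB2, hBbot, Subgroup.map_bot, Subgroup.map_bot]
    rw [this, inf_bot_eq]
  -- an involution in B
  obtain ⟨b, hbB, hb1⟩ : ∃ b ∈ B, b ≠ 1 := by
    by_contra h
    push Not at h
    exact hBbot (eq_bot_iff.mpr fun x hx => Subgroup.mem_bot.mpr (h x hx))
  obtain ⟨k, hk1, hk2⟩ := exists_inv_pow hQ2 hb1
  have hwB : b ^ k ∈ B := pow_mem hbB k
  -- uniqueness in B
  have huniq : ∀ x ∈ B, ∀ y ∈ B, x * x = 1 → x ≠ 1 → y * y = 1 → y ≠ 1 → x = y := by
    intro x hx y hy h1 h2 h3 h4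
    have := unique_inv (H := B) (x := ⟨x, hx⟩) (y := ⟨y, hy⟩) (Subtype.ext h1) (fun h => h2 (congrArg Subtype.val h)) (Subtype.ext h3) (fun h => h4 (congrArg Subtype.val h))
    exact congrArg Subtype.val this
  have hwZ : b ^ k ∈ Subgroup.center Q := by
    rw [Subgroup.mem_center_iff]
    intro q
    have h1 : q * b ^ k * q⁻¹ ∈ B := hBn.conj_mem _ hwB q
    have h2 : q * b ^ k * q⁻¹ = b ^ k := by
      apply huniq _ h1 _ hwB _ _ hk2 hk1
      · calc q * b ^ k * q⁻¹ * (q * b ^ k * q⁻¹) = q * (b ^ k * b ^ k) * q⁻¹ := by group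
          _ = 1 := by rw [hk2]; group
      · intro h
        apply hk1
        have : q⁻¹ * (q * b ^ k * q⁻¹) * q = q⁻¹ * 1 * q := by rw [h]
        simpa [mul_assoc] using this
    exact (mul_inv_eq_iff_eq_mul.mp h2)
  have hcc := hQc (Subgroup.center Q) inferInstance ⟨⟨fun a b => Subtype.ext ((Subgroup.mem_center_iff.mp b.2 a))⟩⟩
  have hzZ : (⟨⟨z, hzC⟩, hzQ⟩ : Q) ∈ Subgroup.center Q := by
    rw [Subgroup.mem_center_iff]
    intro q
    apply Subtype.ext
    apply Subtype.ext
    exact (Subgroup.mem_centralizer_iff.mp (q : Subgroup.centralizer ({z} : Set G)).2 z rfl).symm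
  have hzw : (⟨⟨z, hzC⟩, hzQ⟩ : Q) = b ^ k := by
    have := unique_inv (H := Subgroup.center Q) (x := ⟨_, hzZ⟩) (y := ⟨_, hwZ⟩) (Subtype.ext (Subtype.ext (Subtype.ext hz2)))
      (fun h => hz1 (congrArg (fun x : Subgroup.center Q => ((x : Q) : G)) h)) (Subtype.ext hk2) (fun h => hk1 (congrArg Subtype.val h))
    exact congrArg Subtype.val this
  have hzB : (⟨⟨z, hzC⟩, hzQ⟩ : Q) ∈ B := hzw ▸ hwB
  -- membership in B2
  have hmem2 : ∀ x : G, x ∈ B2 → ∃ y ∈ B, ((y : Subgroup.centralizer ({z} : Set G)) : G) = x := by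
    rintro x ⟨_, ⟨y, hy, rfl⟩, rfl⟩
    exact ⟨y, hy, rfl⟩
  have huniq2 : ∀ x ∈ B2, x * x = 1 → x ≠ 1 → x = z := by
    intro x hx h1 h2
    obtain ⟨y, hy, rfl⟩ := hmem2 x hx
    have h3 := huniq y hy _ hzB (Subtype.ext (Subtype.ext h1)) (fun h => h2 (by rw [h]; rfl)) (Subtype.ext (Subtype.ext hz2))
      (fun h => hz1 (congrArg (fun x : Q => ((x : Subgroup.centralizer ({z} : Set G)) : G)) h))
    rw [h3]
  have hB2p : IsPGroup 2 B2 := ((hQ2.to_subgroup B).map Q.subtype).map _
  by_cases hg : g ∈ Subgroup.centralizer ({z} : Set G)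
  · left
    rw [conj_eq_iff]
    have hn1 : (B.map Q.subtype).Normal := inferInstance
    rw [Subgroup.mem_normalizer_iff]
    have hone : ∀ g' : G, g' ∈ Subgroup.centralizer ({z} : Set G) → ∀ x ∈ B2, g' * x * g'⁻¹ ∈ B2 := by
      rintro g' hg' x ⟨y, hy, rfl⟩
      exact ⟨_, hn1.conj_mem y hy ⟨g', hg'⟩, rfl⟩
    intro x
    constructor
    · intro hx
      exact hone g hg x hx
    · intro hx
      have := hone g⁻¹ (inv_mem hg) _ hx
      simpa [mul_assoc] using this
  · right
    rw [eq_bot_iff]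
    intro x hx
    rw [Subgroup.mem_bot]
    by_contra hx1
    obtain ⟨hx2, hx3⟩ := Subgroup.mem_inf.mp hx
    obtain ⟨m, hm1, hm2⟩ := exists_inv_pow hB2p (x := (⟨x, hx3⟩ : B2)) (fun h => hx1 (congrArg Subtype.val h))
    have hm1' : x ^ m ≠ 1 := fun h => hm1 (Subtype.ext h)
    have hm2' : x ^ m * x ^ m = 1 := congrArg Subtype.val hm2
    have h1 := huniq2 (x ^ m) (pow_mem hx3 m) hm2' hm1'
    have h2 : g⁻¹ * x ^ m * g ∈ B2 := mem_conj.mp (pow_mem hx2 m)
    have h3 := huniq2 _ h2 (by
      calc g⁻¹ * x ^ m * g * (g⁻¹ * x ^ m * g) = g⁻¹ * (x ^ m * x ^ m) * g := by group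
        _ = 1 := by rw [hm2']; group) (by
      intro h
      apply hm1'
      have : g * (g⁻¹ * x ^ m * g) * g⁻¹ = g * 1 * g⁻¹ := by rw [h]
      simpa [mul_assoc] using this)
    rw [h1] at h3
    apply hg
    rw [Subgroup.mem_centralizer_iff]
    rintro y rfl
    have : g * (g⁻¹ * y * g) = g * y := by rw [h3]
    rw [← this]; group

/-- Let G be a finite group and let z be an involution of G such that Q, the generalized Fitting subgroup of the centralizer C of z, is a 2-group of symplectic type (every characteristic abelian subgroup of Q is cyclic). Let B be a characteristic abelian subgroup of Q, viewed as a subgroup of G. Then for every g in G, the conjugate of B by g either equals B or meets B trivially. -/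
theorem result {G : Type*} [Group G] [Finite G] (z : G) (hz : orderOf z = 2) (hQ : Cfsg.IsOfSymplecticType ↥(Cfsg.generalizedFittingSubgroup ↥(Subgroup.centralizer ({z} : Set G))))
    (B : Subgroup ↥(Cfsg.generalizedFittingSubgroup ↥(Subgroup.centralizer ({z} : Set G)))) (hBc : B.Characteristic) (hBa : IsMulCommutative ↥B) (g : G) :
    ((B.map (Cfsg.generalizedFittingSubgroup ↥(Subgroup.centralizer ({z} : Set G))).subtype).map (Subgroup.centralizer ({z} : Set G)).subtype).map (MulAut.conj g).toMonoidHom =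
        (B.map (Cfsg.generalizedFittingSubgroup ↥(Subgroup.centralizer ({z} : Set G))).subtype).map (Subgroup.centralizer ({z} : Set G)).subtype ∨
      ((B.map (Cfsg.generalizedFittingSubgroup ↥(Subgroup.centralizer ({z} : Set G))).subtype).map (Subgroup.centralizer ({z} : Set G)).subtype).map (MulAut.conj g).toMonoidHom ⊓
        (B.map (Cfsg.generalizedFittingSubgroup ↥(Subgroup.centralizer ({z} : Set G))).subtype).map (Subgroup.centralizer ({z} : Set G)).subtype = ⊥ := by
  have hz2 : z * z = 1 := by rw [← pow_two, ← hz]; exact pow_orderOf_eq_one z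
  have hz1 : z ≠ 1 := by rintro rfl; rw [orderOf_one] at hz; omega
  have hzC : z ∈ Subgroup.centralizer ({z} : Set G) := by
    rw [Subgroup.mem_centralizer_iff]; rintro x rfl; rfl
  refine main z hz hz2 hz1 hzC _ inferInstance ?_ hQ B hBc hBa g
  apply CfsgLib.Comp.centralizer_gfitting_le
  rw [Subgroup.mem_centralizer_iff]
  intro q _
  apply Subtype.ext
  exact (Subgroup.mem_centralizer_iff.mp q.2 z rfl).symm

end Cfsg.Agent.S1755
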