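import Cfsg.Statements.S1756
import Mathlib
import Cfsg.Agent.LibExtraH28
-- import your own Cfsg.Agent.* helpers here

set_option autoImplicit false
open Cfsg

namespace Cfsg.Agent.S1756

open CfsgLib.ExtraH28

section
variable {E : Type*} [Group E] [Finite E]

theorem center_unique (h2 : Nat.card (Subgroup.center E) = 2) {x y : E} (hx : x ∈ Subgroup.center E) (hx1 : x ≠ 1)
    (hy : y ∈ Subgroup.center E) (hy1 : y ≠ 1) : x = y := by
  obtain ⟨a, ha, ha2⟩ := (Nat.card_eq_two_iff' (1 : Subgroup.center E)).mp h2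
  have h3 := ha2 ⟨x, hx⟩ (fun h => hx1 (congrArg Subtype.val h))
  have h4 := ha2 ⟨y, hy⟩ (fun h => hy1 (congrArg Subtype.val h))
  exact congrArg Subtype.val (h3.trans h4.symm)

theorem main (hE : Cfsg.IsExtraspecial 2 E) (φ : E →* E) (hφ : ∀ x, φ (φ x) = x) (C : Subgroup E)
    (hC : ∀ x, x ∈ C ↔ φ x = x) (hi : C.index = 2) (u : E) : φ u * u⁻¹ ∈ Subgroup.center E := by
  have : Fact (Nat.Prime 2) := ⟨Nat.prime_two⟩
  by_cases huC : u ∈ C
  · rw [(hC u).mp huC, mul_inv_cancel]; exact one_mem _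
  have hinj : Function.Injective φ := fun a b h => by rw [← hφ a, h, hφ]
  have hZφ : ∀ z ∈ Subgroup.center E, φ z = z := by
    intro z hz
    by_cases hz1 : z = 1
    · rw [hz1, map_one]
    · apply center_unique hE.2 _ (fun h => hz1 (hinj (by rw [h, map_one]))) hz hz1
      rw [Subgroup.mem_center_iff] at hz ⊢
      intro g
      rw [← hφ g, ← map_mul, hz (φ g), map_mul]
  obtain ⟨c, hc⟩ : ∃ c, c = φ u * u⁻¹ := ⟨_, rfl⟩
  have hφu : φ u = c * u := by rw [hc]; simp
  -- φ preserves C
  have hCφ : ∀ x, φ x ∈ C ↔ x ∈ C := by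
    intro x
    rw [hC, hC, hφ]
    constructor
    · intro h; exact h.symm
    · intro h; exact h.symm
  have hcC : c ∈ C := by
    rw [hc, Subgroup.mul_mem_iff_of_index_two hi, hCφ, inv_mem_iff]
  have hCn : C.Normal := Subgroup.normal_of_index_eq_two hi
  -- c commutes with C
  have hcom : ∀ w ∈ C, c * w = w * c := by
    have h1 : ∀ w ∈ C, c * (u * w * u⁻¹) = (u * w * u⁻¹) * c := by
      intro w hw
      have h2 := (hC _).mp (hCn.conj_mem w hw u)
      rw [map_mul, map_mul, map_inv, hφu, (hC w).mp hw] at h2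
      have h3 : c * (u * w * u⁻¹) * c⁻¹ = u * w * u⁻¹ := by
        calc c * (u * w * u⁻¹) * c⁻¹ = c * u * w * (c * u)⁻¹ := by simp [mul_assoc]
          _ = _ := h2
      exact mul_inv_eq_iff_eq_mul.mp h3
    intro w hw
    have h2 := h1 (u⁻¹ * w * u) (by simpa using hCn.conj_mem w hw u⁻¹)
    have h3 : u * (u⁻¹ * w * u) * u⁻¹ = w := by group
    rwa [h3] at h2
  have hcc : c * c = 1 := by
    have h1 : φ (φ u) = u := hφ u
    rw [hφu, map_mul, hφu, (hC c).mp hcC, ← mul_assoc] at h1
    exact mul_eq_right.mp h1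
  rw [← hc, Subgroup.mem_center_iff]
  by_contra hcon
  have huc : ¬ (u * c = c * u) := by
    intro h
    apply hcon
    intro g
    by_cases hg : g ∈ C
    · exact (hcom g hg).symm
    · have h1 : g * u⁻¹ ∈ C := by
        rw [Subgroup.mul_mem_iff_of_index_two hi, inv_mem_iff]
        exact ⟨fun h => absurd h hg, fun h => absurd h huC⟩
      have h2 := hcom _ h1
      calc g * c = (g * u⁻¹) * (u * c) := by simp [mul_assoc]
        _ = (g * u⁻¹) * c * u := by rw [h]; simp [mul_assoc]
        _ = c * g := by rw [← h2]; simp [mul_assoc]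
  -- commutator
  have hz := comm_mem_center hE u c
  have hzc := hz
  rw [Subgroup.mem_center_iff] at hzc
  have huu : u ^ 2 ∈ Subgroup.center E := pow_mem_center hE u
  have h1 : (c * u) * (c * u) = u * u := by
    rw [← hφu, ← map_mul, ← pow_two, hZφ _ huu, ]
  -- u c = z c u
  obtain ⟨z, hzd⟩ : ∃ z, z = u * c * u⁻¹ * c⁻¹ := ⟨_, rfl⟩
  rw [← hzd] at hzc hz
  have h2 : u * c = z * (c * u) := by rw [hzd]; group
  have h3 : z = 1 := by
    have h4 : (c * u) * (c * u) = z * (u * u) := by
      calc (c * u) * (c * u) = c * (u * c) * u := by simp [mul_assoc]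
        _ = c * z * (c * u) * u := by rw [h2]; simp [mul_assoc]
        _ = z * (c * c) * (u * u) := by rw [hzc c]; simp [mul_assoc]
        _ = z * (u * u) := by rw [hcc, mul_one]
    rw [h1] at h4
    exact (mul_eq_right.mp h4.symm)
  apply huc
  rw [h2, h3, one_mul]
end

/-- Let Q be an extraspecial 2-subgroup of the finite group G (special with centre of order 2) and t an involution of G normalizing Q such that the centralizer of t in Q has index at most 2 in Q. Then t lies in the product of Q with the centralizer of Q. -/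
theorem result {G : Type*} [Group G] [Finite G] (Q : Subgroup G)
    (hQ : Cfsg.IsExtraspecial 2 ↥Q) (t : G) (ht : orderOf t = 2) (htN : t ∈ Subgroup.normalizer (Q : Set G))
    (hi : (Subgroup.centralizer ({t} : Set G) ⊓ Q).relIndex Q ≤ 2) :
    t ∈ Q ⊔ Subgroup.centralizer (Q : Set G) := by
  have htt : t * t = 1 := by rw [← pow_two, ← ht]; exact pow_orderOf_eq_one t
  have hfac : Fact (Nat.Prime 2) := ⟨Nat.prime_two⟩
  have hconj : ∀ x ∈ Q, t * x * t⁻¹ ∈ Q := fun x hx => (Subgroup.mem_normalizer_iff.mp htN x).mp hx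
  let φ : ↥Q →* ↥Q :=
    { toFun := fun x => ⟨t * x * t⁻¹, hconj x x.2⟩
      map_one' := Subtype.ext (by simp)
      map_mul' := fun x y => Subtype.ext (by simp [mul_assoc]) }
  have hφφ : ∀ x, φ (φ x) = x := by
    intro x
    apply Subtype.ext
    change t * (t * x * t⁻¹) * t⁻¹ = x
    have hti : t⁻¹ = t := inv_eq_of_mul_eq_one_left htt
    calc t * (t * x * t⁻¹) * t⁻¹ = (t * t) * x * (t⁻¹ * t⁻¹) := by simp [mul_assoc]
      _ = x := by rw [htt, hti, htt, one_mul, mul_one]
  have hCmem : ∀ x : ↥Q, x ∈ (Subgroup.centralizer ({t} : Set G) ⊓ Q).subgroupOf Q ↔ φ x = x := by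
    intro x
    rw [Subgroup.mem_subgroupOf, Subgroup.mem_inf, Subgroup.mem_centralizer_iff]
    constructor
    · intro h
      apply Subtype.ext
      change t * x * t⁻¹ = x
      rw [h.1 t rfl]; simp
    · intro h
      have h1 : t * x * t⁻¹ = x := congrArg Subtype.val h
      refine ⟨?_, x.2⟩
      rintro y rfl
      exact mul_inv_eq_iff_eq_mul.mp h1
  have hidx : ((Subgroup.centralizer ({t} : Set G) ⊓ Q).subgroupOf Q).index ≤ 2 := hi
  have hidx0 : ((Subgroup.centralizer ({t} : Set G) ⊓ Q).subgroupOf Q).index ≠ 0 := Subgroup.index_ne_zero_of_finite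
  have key : ∀ x : ↥Q, φ x * x⁻¹ ∈ Subgroup.center ↥Q := by
    intro x
    by_cases h1 : ((Subgroup.centralizer ({t} : Set G) ⊓ Q).subgroupOf Q).index = 1
    · have h2 := (hCmem x).mp (by rw [Subgroup.index_eq_one.mp h1]; trivial)
      rw [h2, mul_inv_cancel]; exact one_mem _
    · exact main hQ φ hφφ _ hCmem (by omega) x
  obtain ⟨q, hq⟩ := inner_of_trivial_mod_center hQ φ key
  have h1 : (q : G)⁻¹ * t ∈ Subgroup.centralizer (Q : Set G) := by
    rw [Subgroup.mem_centralizer_iff]
    intro x hx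
    have h2 : t * x * t⁻¹ = q * x * (q : G)⁻¹ := congrArg Subtype.val (hq ⟨x, hx⟩)
    have h3 : t * x = q * x * (q : G)⁻¹ * t := by rw [← h2]; simp
    rw [mul_assoc, h3]; simp [mul_assoc]
  have h2 : t = q * ((q : G)⁻¹ * t) := by simp
  rw [h2]
  exact mul_mem ((le_sup_left : Q ≤ Q ⊔ Subgroup.centralizer (Q : Set G)) q.2) ((le_sup_right : Subgroup.centralizer (Q : Set G) ≤ _) h1)

end Cfsg.Agent.S1756
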