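import Cfsg.Statements.S1780
import Mathlib

-- import your own Cfsg.Agent.* helpers here

set_option autoImplicit false
open Cfsg

namespace Cfsg.Agent.S1780

section
variable {A : Type*} [CommGroup A]

theorem W_part (t : MulAut A) (hC : ∀ a : A, t (t a) = a → t a = a) (j : ℕ) :
    ∀ a : A, a * a = 1 → (t ^ (2 ^ j)) a = a → t a = a := by
  -- the map `N a = t a * a`
  let N : A → A := fun a => t a * a
  have hW : ∀ a, a * a = 1 → N a * N a = 1 := by
    intro a ha
    simp only [N]
    calc t a * a * (t a * a) = t (a * a) * (a * a) := by rw [map_mul]; exact mul_mul_mul_comm _ _ _ _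
      _ = 1 := by rw [ha, map_one, one_mul]
  have hNpow : ∀ j : ℕ, ∀ a, a * a = 1 → (N^[2 ^ j]) a = (t ^ (2 ^ j)) a * a := by
    intro j
    induction j with
    | zero => intro a _; simp [N]
    | succ j ih =>
      intro a ha
      have h1 : ((t ^ (2 ^ j)) a * a) * ((t ^ (2 ^ j)) a * a) = 1 := by
        calc (t ^ (2 ^ j)) a * a * ((t ^ (2 ^ j)) a * a) = (t ^ (2 ^ j)) (a * a) * (a * a) := by rw [map_mul]; exact mul_mul_mul_comm _ _ _ _
          _ = 1 := by rw [ha, map_one, one_mul]
      rw [pow_succ, mul_two, Function.iterate_add_apply, ih a ha, ih _ h1, map_mul]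
      have h2 : (t ^ (2 ^ j)) ((t ^ (2 ^ j)) a) = (t ^ (2 ^ j + 2 ^ j)) a := by rw [pow_add]; rfl
      rw [h2]
      have h3 : (t ^ (2 ^ j)) a * (t ^ (2 ^ j)) a = 1 := by rw [← map_mul, ha, map_one]
      calc (t ^ (2 ^ j + 2 ^ j)) a * (t ^ (2 ^ j)) a * ((t ^ (2 ^ j)) a * a)
          = (t ^ (2 ^ j + 2 ^ j)) a * ((t ^ (2 ^ j)) a * (t ^ (2 ^ j)) a) * a := by
            rw [mul_assoc, mul_assoc, mul_assoc]
        _ = _ := by rw [h3, mul_one]
  have hchain : ∀ m : ℕ, ∀ a, a * a = 1 → (N^[m + 1]) a = 1 → t a = a := by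
    intro m
    induction m with
    | zero =>
      intro a ha h
      simp only [zero_add, Function.iterate_one, N] at h
      exact (eq_inv_of_mul_eq_one_left h).trans (inv_eq_of_mul_eq_one_left ha)
    | succ m ih =>
      intro a ha h
      rw [Function.iterate_succ_apply] at h
      have h1 := ih (N a) (hW a ha) h
      -- t (N a) = N a
      apply hC
      simp only [N, map_mul] at h1
      -- t (t a) * t a = t a * a
      rw [mul_comm] at h1
      exact mul_left_cancel h1
  intro a ha h
  apply hchain (2 ^ j - 1) a ha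
  rw [Nat.sub_add_cancel Nat.one_le_two_pow, hNpow j a ha, h, ha]

/-- the automorphism form -/
theorem main [Finite A] (hA : IsPGroup 2 A) (t : MulAut A) (ht : ∃ k : ℕ, t ^ (2 ^ k) = 1) (hC : ∀ a : A, t (t a) = a → t a = a) :
    ∀ a : A, t a = a := by
  obtain ⟨k, hk⟩ := ht
  have h0 : ∀ a : A, a * a = 1 → t a = a := by
    intro a ha
    exact W_part t hC k a ha (by rw [hk]; rfl)
  have h1 : ∀ m : ℕ, ∀ a : A, a ^ (2 ^ m) = 1 → t a = a := by
    intro m
    induction m with
    | zero => intro a ha; rw [pow_zero, pow_one] at ha; rw [ha, map_one]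
    | succ m ih =>
      intro a ha
      have h2 : t (a * a) = a * a := ih _ (by rw [← pow_two, ← pow_mul, ← pow_succ']; exact ha)
      rw [map_mul] at h2
      have h3 : (t a * a⁻¹) * (t a * a⁻¹) = 1 := by
        rw [mul_mul_mul_comm, h2, mul_mul_mul_comm, mul_inv_cancel, one_mul]
      have h4 := h0 _ h3
      apply hC
      rw [map_mul, map_inv] at h4
      -- t (t a) * (t a)⁻¹ = t a * a⁻¹
      have h5 : t (t a) = t a * a⁻¹ * t a := by rw [← h4, inv_mul_cancel_right]
      rw [h5, mul_assoc, mul_comm a⁻¹, ← mul_assoc, h2, mul_inv_cancel_right]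
  intro a
  obtain ⟨m, hm⟩ := hA a
  exact h1 m a hm
end

/-- Let A be a finite abelian 2-group and t an automorphism of A whose order is a power of 2. If every element of A fixed by t² is fixed by t, then t fixes every element of A. -/
theorem result {A : Type*} [CommGroup A] [Finite A]
    (hA : IsPGroup 2 A) (t : MulAut A) (ht : ∃ k : ℕ, orderOf t = 2 ^ k) (hC : ∀ a : A, t (t a) = a → t a = a) :
    ∀ a : A, t a = a := by
  obtain ⟨k, hk⟩ := ht
  exact main hA t ⟨k, hk ▸ pow_orderOf_eq_one t⟩ hC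

end Cfsg.Agent.S1780
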