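import Cfsg.Statements.S1781
import Mathlib
import Cfsg.Agent.LibTIConj
import Cfsg.Agent.S1780
-- import your own Cfsg.Agent.* helpers here

set_option autoImplicit false
open Cfsg

namespace Cfsg.Agent.S1781

open CfsgLib.TIConj

/-- Let A be an abelian 2-subgroup of the finite group G such that every conjugate of A equals A or meets A trivially, and let g ∈ G with g A g⁻¹ ≠ A. Then either the subgroup of those elements of A that normalize g A g⁻¹ is an elementary abelian 2-group, or A and g A g⁻¹ commute elementwise. -/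
theorem result {G : Type*} [Group G] [Finite G] (A : Subgroup G)
    (hA2 : IsPGroup 2 ↥A) (hAa : IsMulCommutative ↥A)
    (hti : ∀ h : G, A.map (MulAut.conj h).toMonoidHom = A ∨ A.map (MulAut.conj h).toMonoidHom ⊓ A = ⊥)
    (g : G) (hg : A.map (MulAut.conj g).toMonoidHom ≠ A) :
    Cfsg.IsElementaryAbelian 2 (A ⊓ Subgroup.normalizer ((A.map (MulAut.conj g).toMonoidHom : Subgroup G) : Set G)) ∨
      ⁅A, A.map (MulAut.conj g).toMonoidHom⁆ = ⊥ := by
  set B : Subgroup G := A.map (MulAut.conj g).toMonoidHom with hB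
  have hAB : A ⊓ B = ⊥ := by
    rcases hti g with h | h
    · exact absurd h hg
    · rw [inf_comm]; exact h
  have hBa : ∀ x ∈ B, ∀ y ∈ B, x * y = y * x := by
    intro x hx y hy
    obtain ⟨x', hx', rfl⟩ := hx
    obtain ⟨y', hy', rfl⟩ := hy
    have h1 : x' * y' = y' * x' := congrArg Subtype.val (hAa.is_comm.comm (⟨x', hx'⟩ : A) ⟨y', hy'⟩)
    rw [← map_mul, h1, map_mul]
  have hB2 : IsPGroup 2 B := hA2.map _
  have htiB : ∀ h : G, B.map (MulAut.conj h).toMonoidHom = B ∨ B.map (MulAut.conj h).toMonoidHom ⊓ B = ⊥ := by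
    intro h
    rcases hti (g⁻¹ * h * g) with h1 | h1
    · left
      rw [conj_eq_iff] at h1 ⊢
      rw [Subgroup.mem_normalizer_iff] at h1 ⊢
      intro x
      have h2 := h1 (g⁻¹ * x * g)
      rw [hB, mem_conj, mem_conj, h2]
      simp [mul_assoc]
    · right
      rw [eq_bot_iff]
      intro x hx
      obtain ⟨hx1, hx2⟩ := Subgroup.mem_inf.mp hx
      have h2 : g⁻¹ * x * g ∈ A.map (MulAut.conj (g⁻¹ * h * g)).toMonoidHom ⊓ A := by
        refine Subgroup.mem_inf.mpr ⟨?_, ?_⟩
        · rw [mem_conj]
          rw [mem_conj, hB, mem_conj] at hx1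
          simpa [mul_assoc] using hx1
        · rw [hB, mem_conj] at hx2; exact hx2
      rw [h1, Subgroup.mem_bot] at h2
      rw [Subgroup.mem_bot]
      have : g * (g⁻¹ * x * g) * g⁻¹ = g * 1 * g⁻¹ := by rw [h2]
      simpa [mul_assoc] using this
  by_cases hel : ∀ a ∈ (A ⊓ Subgroup.normalizer (B : Set G) : Subgroup G), a ^ 2 = 1
  · left
    refine ⟨⟨⟨fun a b => Subtype.ext ?_⟩⟩, hel⟩
    have h1 : (a : G) * b = b * a := congrArg Subtype.val (hAa.is_comm.comm (⟨a, (Subgroup.mem_inf.mp a.2).1⟩ : A) ⟨b, (Subgroup.mem_inf.mp b.2).1⟩)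
    exact h1
  · right
    push Not at hel
    obtain ⟨t, ht, ht2⟩ := hel
    obtain ⟨htA, htN⟩ := Subgroup.mem_inf.mp ht
    -- the automorphism of B
    letI : CommGroup B := { (inferInstance : Group B) with mul_comm := fun x y => Subtype.ext (hBa x x.2 y y.2) }
    let τ : MulAut B := MulEquiv.mk' (Equiv.mk (fun x : B => (⟨t * x * t⁻¹, conj_mem_of_normalizer htN x.2⟩ : B)) (fun x : B => (⟨t⁻¹ * x * t, conj_mem_of_normalizer' htN x.2⟩ : B)) (fun x => Subtype.ext (by simp [mul_assoc])) (fun x => Subtype.ext (by simp [mul_assoc]))) (fun x y => Subtype.ext (by simp [mul_assoc]))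
    have hτ : ∀ x : B, ((τ x : B) : G) = t * x * t⁻¹ := fun x => rfl
    have hτn : ∀ n : ℕ, ∀ x : B, (((τ ^ n) x : B) : G) = t ^ n * x * (t ^ n)⁻¹ := by
      intro n
      induction n with
      | zero => intro x; simp
      | succ n ih =>
        intro x
        rw [pow_succ, MulAut.mul_apply, ih, hτ, pow_succ]
        simp [mul_assoc]
    have key := Cfsg.Agent.S1780.main hB2 τ (by
        obtain ⟨k, hk⟩ := hA2 ⟨t, htA⟩
        refine ⟨k, ?_⟩
        ext x
        have hk' : t ^ (2 ^ k) = 1 := congrArg Subtype.val hk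
        rw [hτn, hk']; simp) (by
        intro x hx
        have h1 : t * (t * x * t⁻¹) * t⁻¹ = x := congrArg Subtype.val hx
        -- x normalises A
        have h2 : (x : G) ∈ Subgroup.normalizer (A : Set G) := by
          rw [← conj_eq_iff]
          rcases hti x with h | h
          · exact h
          · exfalso
            apply ht2
            have h3 : t ^ 2 ∈ A.map (MulAut.conj (x : G)).toMonoidHom ⊓ A := by
              refine Subgroup.mem_inf.mpr ⟨?_, pow_mem htA 2⟩
              rw [mem_conj]
              have h4 : (x : G)⁻¹ * t ^ 2 * x = t ^ 2 := by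
                have h5 : t ^ 2 * (x : G) = x * t ^ 2 := by
                  calc t ^ 2 * (x : G) = (t * (t * x * t⁻¹) * t⁻¹) * t ^ 2 := by simp [mul_assoc, pow_two]
                    _ = x * t ^ 2 := by rw [h1]
                rw [mul_assoc, h5, inv_mul_cancel_left]
              rw [h4]; exact pow_mem htA 2
            rw [h] at h3
            exact h3
        apply Subtype.ext
        rw [hτ]
        have h3 : t * (x : G) * t⁻¹ * (x : G)⁻¹ ∈ A ⊓ B := by
          refine Subgroup.mem_inf.mpr ⟨?_, ?_⟩
          · have h4 := conj_mem_of_normalizer h2 (inv_mem htA)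
            have h5 : t * (x : G) * t⁻¹ * (x : G)⁻¹ = t * (x * t⁻¹ * (x : G)⁻¹) := by group
            rw [h5]; exact mul_mem htA h4
          · exact mul_mem (conj_mem_of_normalizer htN x.2) (inv_mem x.2)
        rw [hAB, Subgroup.mem_bot] at h3
        exact mul_inv_eq_one.mp h3)
    have htne : t ≠ 1 := by rintro rfl; exact ht2 (one_pow _)
    -- B normalises A
    have hBN : B ≤ Subgroup.normalizer (A : Set G) := by
      intro x hx
      rw [← conj_eq_iff]
      rcases hti x with h | h
      · exact h
      · exfalso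
        apply htne
        have h1 : t * x * t⁻¹ = x := congrArg Subtype.val (key ⟨x, hx⟩)
        have h3 : t ∈ A.map (MulAut.conj (x : G)).toMonoidHom ⊓ A := by
          refine Subgroup.mem_inf.mpr ⟨?_, htA⟩
          rw [mem_conj]
          have h5 : t * x = x * t := mul_inv_eq_iff_eq_mul.mp h1
          rw [mul_assoc, h5, inv_mul_cancel_left]; exact htA
        rw [h] at h3
        exact h3
    exact comm_of_ti hBN hAB (le_of_eq (card_conj A g).symm) (fun h _ => htiB h)

end Cfsg.Agent.S1781
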