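import Cfsg.Statements.S1782
import Mathlib
import Cfsg.Agent.LibTIConj
import Cfsg.Agent.S0986
import Cfsg.Agent.LibSolvFrat
-- import your own Cfsg.Agent.* helpers here

set_option autoImplicit false
open Cfsg

namespace Cfsg.Agent.S1782

open CfsgLib.TIConj

universe u

theorem frattini_eq_bot_of_sq {R : Type u} [Group R] [Finite R] (h : ∀ x : R, x * x = 1) : frattini R = ⊥ := by
  have hc : ∀ x y : R, x * y = y * x := by
    intro x y
    have hinv : ∀ z : R, z⁻¹ = z := fun z => inv_eq_of_mul_eq_one_left (h z)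
    rw [← hinv (x * y), mul_inv_rev, hinv, hinv]
  rw [eq_bot_iff]
  apply CfsgLib.SolvFrat.frattini_le_of_elementary Nat.prime_two
  · rw [commutator_def, Subgroup.commutator_le]
    intro x _ y _
    rw [Subgroup.mem_bot]
    exact commutatorElement_eq_one_iff_mul_comm.mpr (hc x y)
  · intro x
    rw [Subgroup.mem_bot, pow_two, h]

section
variable {S : Type u} [Group S] [Finite S]

/-- a proper subgroup of a `p`-group lies in a proper normal subgroup -/
theorem exists_between {p : ℕ} [Fact p.Prime] (hS : IsPGroup p S) (R H : Subgroup S) (h : R < H) :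
    ∃ M : Subgroup S, R ≤ M ∧ M < H ∧ H ≤ Subgroup.normalizer (M : Set S) := by
  have hfin : ({M : Subgroup S | R ≤ M ∧ M < H}).Finite := Set.toFinite _
  obtain ⟨M, hM⟩ := hfin.exists_maximal ⟨R, le_refl _, h⟩
  refine ⟨M, hM.1.1, hM.1.2, ?_⟩
  have h1 := Cfsg.Agent.S0986.exists_gt H (hS.to_subgroup H) M hM.1.2
  by_contra hcon
  have h2 : H ⊓ Subgroup.normalizer (M : Set S) < H := by
    refine lt_of_le_of_ne inf_le_left (fun h3 => hcon ?_)
    rw [← h3]; exact inf_le_right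
  exact absurd (hM.2 (y := H ⊓ Subgroup.normalizer (M : Set S)) ⟨hM.1.1.trans h1.le, h2⟩ h1.le) (not_le_of_gt h1)

theorem exists_sq_mem (hS : IsPGroup 2 S) (K : Subgroup S) (t : S) (ht : t ∉ K) : ∃ k : ℕ, t ^ (2 ^ k) ∉ K ∧ (t ^ (2 ^ k)) * (t ^ (2 ^ k)) ∈ K := by
  classical
  obtain ⟨k, hk⟩ := hS t
  have hex : ∃ k, t ^ (2 ^ k) ∈ K := ⟨k, hk ▸ one_mem K⟩
  have h1 := Nat.find_spec hex
  have h2 : Nat.find hex ≠ 0 := by
    intro h0
    rw [h0, pow_zero, pow_one] at h1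
    exact ht h1
  obtain ⟨n, hn⟩ := Nat.exists_eq_succ_of_ne_zero h2
  refine ⟨n, Nat.find_min hex (by omega), ?_⟩
  rw [hn, Nat.succ_eq_add_one, pow_succ, mul_two, pow_add] at h1
  exact h1

theorem core (hS : IsPGroup 2 S)
    (Δ : Set (Subgroup S)) (hinv : ∀ s : S, ∀ R ∈ Δ, R.map (MulAut.conj s).toMonoidHom ∈ Δ)
    (hΦ : ∀ R ∈ Δ, frattini ↥R ≠ ⊥) (hord : ∀ R ∈ Δ, ∀ T ∈ Δ, Nat.card ↥R = Nat.card ↥T)
    (hti : ∀ R ∈ Δ, ∀ T ∈ Δ, R = T ∨ R ⊓ T = ⊥) (n : ℕ) :
    ∀ H : Subgroup S, Nat.card H = n → ∀ R ∈ Δ, ∀ T ∈ Δ, R ≤ H → T ≤ H → R ≠ T → ⁅R, T⁆ = ⊥ := by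
  induction n using Nat.strong_induction_on with
  | _ n ih =>
    intro H hH
    -- conjugates in H commute
    have hne : ∀ T ∈ Δ, T ≠ ⊥ := by
      rintro T hT rfl
      apply hΦ _ hT
      rw [eq_bot_iff]
      intro x _
      rw [Subgroup.mem_bot]
      exact Subsingleton.elim _ _
    have hA : ∀ R ∈ Δ, ∀ T ∈ Δ, R ≤ H → T ≤ H → R ≠ T → ∀ h ∈ H, R.map (MulAut.conj h).toMonoidHom ≠ R →
        ⁅R, R.map (MulAut.conj h).toMonoidHom⁆ = ⊥ := by
      intro R hR T hT hRH hTH hRT h hh hhR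
      have hlt : R < H := by
        refine lt_of_le_of_ne hRH ?_
        rintro rfl
        rcases hti _ hR _ hT with h1 | h1
        · exact hRT h1
        · apply hne T hT
          rw [eq_bot_iff, ← h1]
          exact le_inf hTH le_rfl
      obtain ⟨M, hRM, hMH, hHM⟩ := exists_between hS R H hlt
      have hcard : Nat.card M < n := by
        rw [← hH]
        refine lt_of_le_of_ne (Nat.card_le_card_of_injective _ (Subgroup.inclusion_injective hMH.le)) ?_
        intro h2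
        exact hMH.ne (Subgroup.eq_of_le_of_card_ge hMH.le h2.ge)
      refine ih _ hcard M rfl R hR _ (hinv h R hR) hRM ?_ (Ne.symm hhR)
      rintro x ⟨y, hy, rfl⟩
      exact conj_mem_of_normalizer (hHM hh) (hRM hy)
    intro R hR T hT hRH hTH hRT
    have hRTbot : R ⊓ T = ⊥ := (hti _ hR _ hT).resolve_left hRT
    by_contra hcon
    -- neither normalises the other
    have htin : ∀ A ∈ Δ, ∀ g : S, A.map (MulAut.conj g).toMonoidHom = A ∨ A.map (MulAut.conj g).toMonoidHom ⊓ A = ⊥ :=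
      fun A hA g => hti _ (hinv g A hA) _ hA
    have hR' : ¬ R ≤ Subgroup.normalizer (T : Set S) := by
      intro h
      apply hcon
      rw [Subgroup.commutator_comm]
      exact comm_of_ti h (by rw [inf_comm]; exact hRTbot) (hord _ hT _ hR).le (fun g _ => htin R hR g)
    have hT' : ¬ T ≤ Subgroup.normalizer (R : Set S) := by
      intro h
      apply hcon
      exact comm_of_ti h hRTbot (hord _ hR _ hT).le (fun g _ => htin T hT g)
    obtain ⟨t0, ht0, ht0'⟩ := Set.not_subset.mp hT'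
    obtain ⟨k, hk1, hk2⟩ := exists_sq_mem hS _ t0 ht0'
    obtain ⟨t, ht⟩ : ∃ t, t = t0 ^ (2 ^ k) := ⟨_, rfl⟩
    rw [← ht] at hk1 hk2
    have htT : t ∈ T := ht ▸ pow_mem ht0 _
    -- conjugate of R by t
    have hRt : R.map (MulAut.conj t).toMonoidHom ≠ R := fun h => hk1 (conj_eq_iff.mp h)
    have hRRt : R.map (MulAut.conj t).toMonoidHom ⊓ R = ⊥ := (htin R hR t).resolve_left hRt
    have hcomR := hA R hR T hT hRH hTH hRT t (hTH htT) hRt
    have hmemt : ∀ r ∈ R, t * r * t⁻¹ ∈ R.map (MulAut.conj t).toMonoidHom := fun r hr => ⟨r, hr, rfl⟩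
    -- r x t r t⁻¹
    have hcR : ∀ r ∈ R, ∀ s ∈ R, r * (t * s * t⁻¹) = (t * s * t⁻¹) * r := fun r hr s hs =>
      commute_of_comm_bot hcomR hr (hmemt s hs)
    -- facts for r outside N(T)
    have hTr : ∀ r ∈ R, r ∉ Subgroup.normalizer (T : Set S) → T.map (MulAut.conj r).toMonoidHom ⊓ T = ⊥ ∧
        (∀ x ∈ T, ∀ y ∈ T, x * (r * y * r⁻¹) = (r * y * r⁻¹) * x) := by
      intro r hr hrN
      have h1 : T.map (MulAut.conj r).toMonoidHom ≠ T := fun h => hrN (conj_eq_iff.mp h)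
      have h2 := hA T hT R hR hTH hRH (Ne.symm hRT) r (hRH hr) h1
      exact ⟨(htin T hT r).resolve_left h1, fun x hx y hy => commute_of_comm_bot h2 hx ⟨y, hy, rfl⟩⟩
    have hsq1 : ∀ r ∈ R, r ∉ Subgroup.normalizer (T : Set S) → r * r = 1 := by
      intro r hr hrN
      obtain ⟨_, hc⟩ := hTr r hr hrN
      have h1 : t * (r * t * r⁻¹) = (r * t * r⁻¹) * t := hc t htT t htT
      -- c = t r t⁻¹ r⁻¹ commutes with t
      have h2 : t * (t * r * t⁻¹ * r⁻¹) = (t * r * t⁻¹ * r⁻¹) * t := by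
        have h3 : t * r * t⁻¹ * r⁻¹ = t * (r * t * r⁻¹)⁻¹ := by group
        have h4 : Commute t (r * t * r⁻¹) := h1
        rw [h3]
        exact ((Commute.refl t).mul_right h4.inv_right).eq
      have h5 : (t * t) * r * (t * t)⁻¹ * r = (t * r * t⁻¹) * (t * r * t⁻¹) := by
        have h6 : (t * t) * r * (t * t)⁻¹ = (t * (t * r * t⁻¹ * r⁻¹) * t⁻¹) * (t * r * t⁻¹) := by
          simp [mul_assoc]
        rw [h6, h2]
        have h7 : r * (t * r * t⁻¹) = (t * r * t⁻¹) * r := hcR r hr r hr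
        have h8 : t * r * t⁻¹ * r⁻¹ * t * t⁻¹ * (t * r * t⁻¹) * r = t * r * t⁻¹ * (r⁻¹ * ((t * r * t⁻¹) * r)) := by
          simp [mul_assoc]
        rw [h8, ← h7, inv_mul_cancel_left]
      have h9 : (t * r * t⁻¹) * (t * r * t⁻¹) ∈ R.map (MulAut.conj t).toMonoidHom ⊓ R := by
        refine Subgroup.mem_inf.mpr ⟨mul_mem (hmemt r hr) (hmemt r hr), ?_⟩
        rw [← h5]
        exact mul_mem (conj_mem_of_normalizer hk2 hr) hr
      rw [hRRt, Subgroup.mem_bot] at h9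
      have h10 : t * (r * r) * t⁻¹ = 1 := by rw [← h9]; group
      have h11 := congrArg (fun x => t⁻¹ * x * t) h10
      simpa [mul_assoc] using h11
    obtain ⟨r, hr, hrN⟩ := Set.not_subset.mp hR'
    have hsq2 : ∀ m ∈ R, m ∈ Subgroup.normalizer (T : Set S) → (m * m) * (m * m) = 1 → m * m = 1 := by
      intro m hm hmN hm4
      have hrm : r * m ∉ Subgroup.normalizer (T : Set S) := by
        intro h
        exact hrN ((Subgroup.mul_mem_cancel_right _ hmN).mp h)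
      have h1 := hsq1 _ (mul_mem hr hm) hrm
      have h2 := hsq1 _ hr hrN
      have hrinv : r⁻¹ = r := inv_eq_of_mul_eq_one_left h2
      have h3 : r * m⁻¹ * r⁻¹ = m := by
        have h4 : r * m * r = m⁻¹ := by
          rw [eq_inv_iff_mul_eq_one, ← h1]; simp [mul_assoc]
        rw [← h4, hrinv]
        calc r * (r * m * r) * r = (r * r) * m * (r * r) := by simp [mul_assoc]
          _ = m := by rw [h2]; simp
      obtain ⟨hTT, _⟩ := hTr r hr hrN
      -- u = n' n⁻¹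
      have hu : t * m * t⁻¹ * m⁻¹ ∈ T := by
        have : t * m * t⁻¹ * m⁻¹ = t * (m * t⁻¹ * m⁻¹) := by group
        rw [this]
        exact mul_mem htT (conj_mem_of_normalizer hmN (inv_mem htT))
      have hv : r * (t * m * t⁻¹ * m⁻¹) * r⁻¹ = (t * m * t⁻¹) * m := by
        have h5 : r * (t * m * t⁻¹ * m⁻¹) * r⁻¹ = (r * (t * m * t⁻¹)) * r⁻¹ * (r * m⁻¹ * r⁻¹) := by simp [mul_assoc]
        rw [h5, h3, hcR r hr m hm, mul_inv_cancel_right]
      have hc := hcR m hm m hm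
      have hcc : Commute m (t * m * t⁻¹) := hc
      have huu : (t * m * t⁻¹ * m⁻¹) * (t * m * t⁻¹ * m⁻¹) = (t * m * t⁻¹) * (t * m * t⁻¹) * (m⁻¹ * m⁻¹) := by
        have h6 : m⁻¹ * (t * m * t⁻¹) = (t * m * t⁻¹) * m⁻¹ := hcc.inv_left.eq
        calc (t * m * t⁻¹ * m⁻¹) * (t * m * t⁻¹ * m⁻¹) = (t * m * t⁻¹) * (m⁻¹ * (t * m * t⁻¹)) * m⁻¹ := by simp [mul_assoc]
          _ = _ := by rw [h6]; simp [mul_assoc]
      have hvv : ((t * m * t⁻¹) * m) * ((t * m * t⁻¹) * m) = (t * m * t⁻¹) * (t * m * t⁻¹) * (m * m) := by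
        calc ((t * m * t⁻¹) * m) * ((t * m * t⁻¹) * m) = (t * m * t⁻¹) * (m * (t * m * t⁻¹)) * m := by simp [mul_assoc]
          _ = _ := by rw [hc]; simp [mul_assoc]
      have hm2 : m⁻¹ * m⁻¹ = m * m := by
        rw [← mul_inv_rev]; exact inv_eq_of_mul_eq_one_left hm4
      have h7 : ((t * m * t⁻¹) * m) * ((t * m * t⁻¹) * m) ∈ T.map (MulAut.conj r).toMonoidHom ⊓ T := by
        refine Subgroup.mem_inf.mpr ⟨?_, ?_⟩
        · rw [← hv]
          exact mul_mem ⟨_, hu, rfl⟩ ⟨_, hu, rfl⟩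
        · rw [hvv, ← hm2, ← huu]
          exact mul_mem hu hu
      rw [hTT, Subgroup.mem_bot, hvv] at h7
      have h8 : m * m ∈ R.map (MulAut.conj t).toMonoidHom ⊓ R := by
        refine Subgroup.mem_inf.mpr ⟨?_, mul_mem hm hm⟩
        rw [← inv_eq_of_mul_eq_one_right h7]
        exact inv_mem (mul_mem (hmemt m hm) (hmemt m hm))
      rw [hRRt, Subgroup.mem_bot] at h8
      exact h8
    -- all squares in R are trivial
    have hall : ∀ m ∈ R, m * m = 1 := by
      intro m hm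
      by_cases hmN : m ∈ Subgroup.normalizer (T : Set S)
      · by_contra hmm
        obtain ⟨k, hk3, hk4⟩ := exists_sq_mem hS ⊥ (m * m) hmm
        rw [Subgroup.mem_bot] at hk3 hk4
        apply hk3
        have h1 : (m * m) ^ (2 ^ k) = (m ^ (2 ^ k)) * (m ^ (2 ^ k)) := by
          rw [← pow_two, ← pow_mul, mul_comm, pow_mul, pow_two]
        rw [h1] at hk4 ⊢
        exact hsq2 _ (pow_mem hm _) (pow_mem hmN _) hk4
      · exact hsq1 m hm hmN
    exact hΦ R hR (frattini_eq_bot_of_sq (fun x => Subtype.ext (hall x x.2)))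
end

/-- Let S be a finite 2-group and Δ a set of subgroups of S closed under conjugation by S, all of the same order, each with nontrivial Frattini subgroup, and such that two distinct members of Δ meet trivially. Then any two distinct members of Δ commute elementwise. -/
theorem result {S : Type*} [Group S] [Finite S] (hS : IsPGroup 2 S)
    (Δ : Set (Subgroup S)) (hinv : ∀ s : S, ∀ R ∈ Δ, R.map (MulAut.conj s).toMonoidHom ∈ Δ)
    (hΦ : ∀ R ∈ Δ, frattini ↥R ≠ ⊥) (hord : ∀ R ∈ Δ, ∀ T ∈ Δ, Nat.card ↥R = Nat.card ↥T)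
    (hti : ∀ R ∈ Δ, ∀ T ∈ Δ, R = T ∨ R ⊓ T = ⊥) :
    ∀ R ∈ Δ, ∀ T ∈ Δ, R ≠ T → ⁅R, T⁆ = ⊥ := by
  intro R hR T hT hRT
  exact core hS Δ hinv hΦ hord hti _ ⊤ rfl R hR T hT le_top le_top hRT

end Cfsg.Agent.S1782
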