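import Cfsg.Statements.S1784
import Mathlib
import Cfsg.Agent.LibExtraH28
import Cfsg.Agent.LibComp
import Cfsg.Agent.LibComp2
import Cfsg.Agent.LibSolvNilp
-- import your own Cfsg.Agent.* helpers here

set_option autoImplicit false
open Cfsg

namespace Cfsg.Agent.S1784

open CfsgLib.ExtraH28

universe u

section
variable {E : Type u} [Group E] [Finite E]

/-- abstract form: `φ` an involutory automorphism of an extraspecial 2-group, nontrivial -/
theorem abs (hE : Cfsg.IsExtraspecial 2 E) (φ : E →* E) (hφ : ∀ x, φ (φ x) = x) (hne : ∃ x, φ x ≠ x)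
    (Q₀ : Subgroup E) (hQ₀ : ∀ q, q ∈ Q₀ ↔ φ q * q⁻¹ ∈ Subgroup.center E) (D : Subgroup E)
    (hD : D = Subgroup.closure (Set.range fun q => φ q * q⁻¹)) :
    D = Q₀ ⊓ Subgroup.centralizer (Q₀ : Set E) := by
  haveI : Fact (Nat.Prime 2) := ⟨Nat.prime_two⟩
  have hinj : Function.Injective φ := fun a b h => by rw [← hφ a, h, hφ]
  have hφZ : ∀ z ∈ Subgroup.center E, φ z = z := by
    intro z hz
    by_cases hz1 : z = 1
    · rw [hz1, map_one]
    · obtain ⟨a, ha, ha2⟩ := (Nat.card_eq_two_iff' (1 : Subgroup.center E)).mp hE.2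
      have hφz : φ z ∈ Subgroup.center E := by
        rw [Subgroup.mem_center_iff] at hz ⊢
        intro g
        rw [← hφ g, ← map_mul, hz (φ g), map_mul]
      have h3 := ha2 ⟨z, hz⟩ (fun h => hz1 (congrArg Subtype.val h))
      have h4 := ha2 ⟨φ z, hφz⟩ (fun h => hz1 (hinj ((congrArg Subtype.val h).trans (map_one φ).symm)))
      exact congrArg Subtype.val (h4.trans h3.symm)
  have hsq : ∀ x : E, x * x ∈ Subgroup.center E := fun x => by rw [← pow_two]; exact pow_mem_center hE x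
  have hcomm := comm_mem_center hE
  -- swap property: xy and yx agree mod centre
  -- D normal
  have hDn : D.Normal := by
    constructor
    intro d hd x
    -- x (φ q q⁻¹) x⁻¹ : use φ(x q) (x q)⁻¹ = φ x φ q q⁻¹ x⁻¹
    rw [hD] at hd ⊢
    induction hd using Subgroup.closure_induction with
    | mem d hd =>
      obtain ⟨q, rfl⟩ := hd
      -- x φq q⁻¹ x⁻¹ = (φ x' ...) with x' = φ x
      have h1 : x * (φ q * q⁻¹) * x⁻¹ = (φ (φ x * q) * (φ x * q)⁻¹) * (φ (φ x) * (φ x)⁻¹)⁻¹ := by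
        rw [map_mul, hφ]; group
      rw [h1]
      exact mul_mem (Subgroup.subset_closure ⟨_, rfl⟩) (inv_mem (Subgroup.subset_closure ⟨_, rfl⟩))
    | one => simp
    | mul a b _ _ ha hb =>
      have : x * (a * b) * x⁻¹ = (x * a * x⁻¹) * (x * b * x⁻¹) := by group
      rw [this]; exact mul_mem ha hb
    | inv a _ ha =>
      have : x * a⁻¹ * x⁻¹ = (x * a * x⁻¹)⁻¹ := by group
      rw [this]; exact inv_mem ha
  have hDne : D ≠ ⊥ := by
    intro h
    obtain ⟨x, hx⟩ := hne
    apply hx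
    have h1 : φ x * x⁻¹ ∈ D := by rw [hD]; exact Subgroup.subset_closure ⟨x, rfl⟩
    rw [h, Subgroup.mem_bot] at h1
    exact mul_inv_eq_one.mp h1
  have hZD : Subgroup.center E ≤ D := by
    haveI := hE.1.1.isNilpotent
    -- D ∩ Z ≠ 1, |Z| = 2
    have h1 : D ⊓ Subgroup.center E ≠ ⊥ := CfsgLib.SolvNilp.inf_center_ne_bot D hDne
    have h2 : Nat.card (D ⊓ Subgroup.center E : Subgroup E) ∣ 2 := by
      rw [← hE.2]; exact Subgroup.card_dvd_of_le inf_le_right
    have h3 : Nat.card (D ⊓ Subgroup.center E : Subgroup E) ≠ 1 := fun h => h1 (Subgroup.card_eq_one.mp h)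
    have h4 : Nat.card (D ⊓ Subgroup.center E : Subgroup E) = 2 := ((Nat.dvd_prime Nat.prime_two).mp h2).resolve_left h3
    have h5 : D ⊓ Subgroup.center E = Subgroup.center E := Subgroup.eq_of_le_of_card_ge inf_le_right (by rw [h4, hE.2])
    rw [← h5]; exact inf_le_left
  -- D ≤ Q₀ ⊓ C(Q₀)
  have hle : D ≤ Q₀ ⊓ Subgroup.centralizer (Q₀ : Set E) := by
    rw [hD, Subgroup.closure_le]
    rintro _ ⟨q, rfl⟩
    refine Subgroup.mem_inf.mpr ⟨?_, ?_⟩
    · rw [hQ₀]
      have h1 : φ (φ q * q⁻¹) * (φ q * q⁻¹)⁻¹ = ((φ q * q⁻¹) * (φ q * q⁻¹))⁻¹ := by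
        rw [map_mul, hφ, map_inv]; group
      rw [h1]; exact inv_mem (hsq _)
    · rw [Subgroup.mem_centralizer_iff]
      intro r hr
      have hr' := (hQ₀ r).mp hr
      -- [r, φ q] = [r, q]
      have e1 : r * φ q * r⁻¹ * (φ q)⁻¹ = r * q * r⁻¹ * q⁻¹ := by
        have h1 : φ (φ r * q * (φ r)⁻¹ * q⁻¹) = φ r * q * (φ r)⁻¹ * q⁻¹ := hφZ _ (hcomm (φ r) q)
        have h2 : φ (φ r * q * (φ r)⁻¹ * q⁻¹) = r * φ q * r⁻¹ * (φ q)⁻¹ := by
          rw [map_mul, map_mul, map_mul, map_inv, map_inv, hφ]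
        rw [← h2, h1]
        -- φ r = z r
        obtain ⟨z, hz⟩ : ∃ z, z = φ r * r⁻¹ := ⟨_, rfl⟩
        rw [← hz, Subgroup.mem_center_iff] at hr'
        have h3 : φ r = z * r := by rw [hz]; simp
        rw [h3]
        have h4 := hr' (r * q * r⁻¹)
        calc z * r * q * (z * r)⁻¹ * q⁻¹ = (z * (r * q * r⁻¹)) * z⁻¹ * q⁻¹ := by group
          _ = (r * q * r⁻¹) * z * z⁻¹ * q⁻¹ := by rw [h4]
          _ = r * q * r⁻¹ * q⁻¹ := by group
      -- [r, φ q q⁻¹]
      have e2 := comm_mul_right (e := r) (x := φ q) (y := q⁻¹) (hcomm r q⁻¹)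
      have e3 := comm_mul_right (e := r) (x := q) (y := q⁻¹) (hcomm r q⁻¹)
      rw [mul_inv_cancel] at e3
      have e4 : r * (φ q * q⁻¹) * r⁻¹ * (φ q * q⁻¹)⁻¹ = 1 := by
        rw [e2, e1, ← e3]; simp
      exact comm_eq_one_iff.mp e4
  -- cardinality
  apply Subgroup.eq_of_le_of_card_ge hle
  have hZQ : Subgroup.center E ≤ Q₀ := by
    intro z hz
    rw [hQ₀, hφZ z hz, mul_inv_cancel]; exact one_mem _
  have h1 := index_centralizer hE Q₀ hZQ
  -- |C(Q₀)| = |E| / |Q₀ : Z|
  -- the hom E → E/Z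
  have hZn : (Subgroup.center E).Normal := inferInstance
  have hab : ∀ a b : E ⧸ Subgroup.center E, a * b = b * a := by
    intro a b
    obtain ⟨a, rfl⟩ := QuotientGroup.mk'_surjective _ a
    obtain ⟨b, rfl⟩ := QuotientGroup.mk'_surjective _ b
    rw [← map_mul, ← map_mul]
    apply (QuotientGroup.eq (s := Subgroup.center E)).mpr
    have := hcomm b⁻¹ a⁻¹
    have e : (a * b)⁻¹ * (b * a) = b⁻¹ * a⁻¹ * b⁻¹⁻¹ * a⁻¹⁻¹ := by group
    rw [e]; exact this
  let ψ : E →* E ⧸ Subgroup.center E :=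
    { toFun := fun q => QuotientGroup.mk' (Subgroup.center E) (φ q * q⁻¹)
      map_one' := by simp
      map_mul' := by
        intro a b
        simp only [map_mul, mul_inv_rev, map_inv]
        generalize (QuotientGroup.mk' (Subgroup.center E)) (φ a) = x1
        generalize (QuotientGroup.mk' (Subgroup.center E)) (φ b) = x2
        generalize (QuotientGroup.mk' (Subgroup.center E)) a = x3
        generalize (QuotientGroup.mk' (Subgroup.center E)) b = x4
        calc x1 * x2 * (x4⁻¹ * x3⁻¹) = x1 * ((x2 * x4⁻¹) * x3⁻¹) := by simp [mul_assoc]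
          _ = x1 * (x3⁻¹ * (x2 * x4⁻¹)) := by rw [hab (x2 * x4⁻¹)]
          _ = x1 * x3⁻¹ * (x2 * x4⁻¹) := by simp [mul_assoc] }
  have hker : ψ.ker = Q₀ := by
    ext q
    rw [MonoidHom.mem_ker, hQ₀]
    exact QuotientGroup.eq_one_iff _
  have hrange : ψ.range ≤ D.map (QuotientGroup.mk' (Subgroup.center E)) := by
    rintro _ ⟨q, rfl⟩
    refine ⟨φ q * q⁻¹, ?_, rfl⟩
    rw [hD]; exact Subgroup.subset_closure ⟨q, rfl⟩
  have h2 : Nat.card ψ.range ≤ Nat.card (D.map (QuotientGroup.mk' (Subgroup.center E))) :=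
    Nat.card_le_card_of_injective _ (Subgroup.inclusion_injective hrange)
  rw [← Subgroup.index_ker, hker] at h2
  have h3 : Nat.card (D.map (QuotientGroup.mk' (Subgroup.center E))) * 2 = Nat.card D := by
    have h4 := Subgroup.card_mul_index ((Subgroup.center E).subgroupOf D)
    rw [Nat.card_congr (Subgroup.subgroupOfEquivOfLe hZD).toEquiv, hE.2] at h4
    have h5 : ((Subgroup.center E).subgroupOf D).index = Nat.card (D.map (QuotientGroup.mk' (Subgroup.center E))) := by
      have h6 : ((QuotientGroup.mk' (Subgroup.center E)).comp D.subtype).ker = (Subgroup.center E).subgroupOf D := by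
        ext x
        rw [MonoidHom.mem_ker, Subgroup.mem_subgroupOf]
        exact QuotientGroup.eq_one_iff _
      rw [← h6, Subgroup.index_ker]
      congr 1
      rw [MonoidHom.range_comp, Subgroup.range_subtype]
    rw [← h4, h5, mul_comm]
  have h4 := Subgroup.card_mul_index (Subgroup.centralizer (Q₀ : Set E))
  have h5 := Subgroup.card_mul_index Q₀
  have h6 := Subgroup.card_mul_index ((Subgroup.center E).subgroupOf Q₀)
  rw [Nat.card_congr (Subgroup.subgroupOfEquivOfLe hZQ).toEquiv, hE.2] at h6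
  have h7 : ((Subgroup.center E).subgroupOf Q₀).index = (Subgroup.center E).relIndex Q₀ := rfl
  rw [h7] at h6
  rw [h1] at h4
  -- |C(Q₀)| * rel = |E| = |Q₀| * idx = 2 * rel * idx
  have h8 : Nat.card (Subgroup.centralizer (Q₀ : Set E)) = 2 * Q₀.index := by
    have hpos : 0 < (Subgroup.center E).relIndex Q₀ := Nat.pos_of_ne_zero (by rw [← h7]; exact Subgroup.index_ne_zero_of_finite)
    apply Nat.eq_of_mul_eq_mul_right hpos
    rw [h4, ← h5, ← h6]; ring
  have h9 : Nat.card (Q₀ ⊓ Subgroup.centralizer (Q₀ : Set E) : Subgroup E) ≤ Nat.card (Subgroup.centralizer (Q₀ : Set E)) :=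
    Nat.card_le_card_of_injective _ (Subgroup.inclusion_injective inf_le_right)
  omega
theorem zpowers_two {G : Type*} [Group G] {x y : G} (hx : x * x = 1) (hy : y ∈ Subgroup.zpowers x) : y = 1 ∨ y = x := by
  obtain ⟨i, rfl⟩ := hy
  rcases Int.even_or_odd' i with ⟨k, rfl | rfl⟩
  · left; simp only [zpow_mul, zpow_two, hx, one_zpow]
  · right; simp only [zpow_add, zpow_mul, zpow_two, hx, one_zpow, zpow_one, one_mul]

theorem main {G : Type u} [Group G] [Finite G] (z : G) (hz : orderOf z = 2) (C : Subgroup G) (hC : C = Subgroup.centralizer ({z} : Set G))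
    (Q : Subgroup C) (hQn : Q.Normal) (hCQ : Subgroup.centralizer (Q : Set C) ≤ Q) (hE : Cfsg.IsExtraspecial 2 Q)
    (α : G) (hα : orderOf α = 2) (hαC : α ∈ C) (hαQ : α ∉ Q.map C.subtype)
    (Q₀ : Subgroup G) (hQ₀ : ∀ q : G, q ∈ Q₀ ↔ (q ∈ Q.map C.subtype ∧ α * q * α⁻¹ * q⁻¹ ∈ Subgroup.zpowers z)) :
    Subgroup.closure ((fun q : G => α * q * α⁻¹ * q⁻¹) '' (Q.map C.subtype : Set G)) = (Subgroup.center ↥Q₀).map Q₀.subtype ∧
      (¬ Q₀ ≤ (Q.map C.subtype ⊓ Subgroup.centralizer ({α} : Set G)) ⊔ Subgroup.zpowers z →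
        ∃ q ∈ Q.map C.subtype, q * α * q⁻¹ = α * z) := by
  have hzz : z * z = 1 := by rw [← pow_two, ← hz]; exact pow_orderOf_eq_one z
  have hz1 : z ≠ 1 := by rintro rfl; rw [orderOf_one] at hz; omega
  have hαα : α * α = 1 := by rw [← pow_two, ← hα]; exact pow_orderOf_eq_one α
  have hαi : α⁻¹ = α := inv_eq_of_mul_eq_one_left hαα
  have hCz : ∀ x ∈ C, x * z = z * x := by
    intro x hx
    rw [hC] at hx
    exact (Subgroup.mem_centralizer_iff.mp hx z rfl).symm
  have hzC : z ∈ C := by rw [hC, Subgroup.mem_centralizer_iff]; rintro x rfl; rfl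
  have hzQ : (⟨z, hzC⟩ : C) ∈ Q := by
    apply hCQ
    rw [Subgroup.mem_centralizer_iff]
    intro q _
    exact Subtype.ext (hCz q q.2)
  obtain ⟨z', hz'⟩ : ∃ z' : Q, z' = ⟨⟨z, hzC⟩, hzQ⟩ := ⟨_, rfl⟩
  have hz'Z : z' ∈ Subgroup.center Q := by
    rw [Subgroup.mem_center_iff]
    intro q
    rw [hz']
    exact Subtype.ext (Subtype.ext (hCz q (q : C).2))
  have hz'z : z' * z' = 1 := by rw [hz']; exact Subtype.ext (Subtype.ext hzz)
  have hz'1 : z' ≠ 1 := by
    intro h; apply hz1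
    rw [hz'] at h
    exact congrArg (fun x : Q => ((x : C) : G)) h
  let j : Q →* G := C.subtype.comp Q.subtype
  have hj : Function.Injective j := C.subtype_injective.comp Q.subtype_injective
  have hjr : j.range = Q.map C.subtype := by rw [MonoidHom.range_comp, Subgroup.range_subtype]
  have hjz : j z' = z := by rw [hz']; rfl
  have hzp : Subgroup.zpowers z' = Subgroup.center Q := by
    apply Subgroup.eq_of_le_of_card_ge (Subgroup.zpowers_le.mpr hz'Z)
    rw [hE.2, Nat.card_zpowers]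
    exact (orderOf_eq_prime (by rw [pow_two, hz'z]) hz'1 : orderOf z' = 2).ge
  have hcen : ∀ w : Q, j w ∈ Subgroup.zpowers z ↔ w ∈ Subgroup.center Q := by
    intro w
    rw [← hzp]
    constructor
    · intro h
      rcases zpowers_two hzz h with h1 | h1
      · have : w = 1 := hj (h1.trans (map_one j).symm)
        rw [this]; exact one_mem _
      · have : w = z' := hj (h1.trans hjz.symm)
        rw [this]; exact Subgroup.mem_zpowers z'
    · rintro ⟨k, rfl⟩
      refine ⟨k, ?_⟩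
      simp only
      rw [map_zpow, hjz]
  -- conjugation
  let φ : Q →* Q :=
    { toFun := fun q => ⟨⟨α, hαC⟩ * q * ⟨α, hαC⟩⁻¹, hQn.conj_mem q q.2 ⟨α, hαC⟩⟩
      map_one' := Subtype.ext (by simp)
      map_mul' := fun a b => Subtype.ext (by simp [mul_assoc]) }
  have hjφ : ∀ q, j (φ q) = α * j q * α⁻¹ := fun q => rfl
  have hφφ : ∀ q, φ (φ q) = q := by
    intro q
    apply hj
    rw [hjφ, hjφ, hαi]
    calc α * (α * j q * α) * α = (α * α) * j q * (α * α) := by simp [mul_assoc]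
      _ = j q := by rw [hαα, one_mul, mul_one]
  have hne : ∃ x, φ x ≠ x := by
    by_contra hcon
    push Not at hcon
    apply hαQ
    refine ⟨⟨α, hαC⟩, ?_, rfl⟩
    apply hCQ
    rw [Subgroup.mem_centralizer_iff]
    intro q hq
    apply Subtype.ext
    have h1 := congrArg j (hcon ⟨q, hq⟩)
    rw [hjφ] at h1
    exact (mul_inv_eq_iff_eq_mul.mp h1).symm
  have hkey := abs hE φ hφφ hne (Q₀.comap j) (by
    intro q
    rw [Subgroup.mem_comap, hQ₀, ← hcen, map_mul, map_inv, hjφ]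
    constructor
    · rintro ⟨_, h⟩; exact h
    · intro h; exact ⟨by rw [← hjr]; exact ⟨q, rfl⟩, h⟩) _ rfl
  have hQ₀le : Q₀ ≤ j.range := by
    rw [hjr]; exact fun q hq => ((hQ₀ q).mp hq).1
  refine ⟨?_, ?_⟩
  · have h1 := congrArg (Subgroup.map j) hkey
    rw [MonoidHom.map_closure] at h1
    have h2 : (j : Q → G) '' (Set.range fun q => φ q * q⁻¹) = (fun q : G => α * q * α⁻¹ * q⁻¹) '' (Q.map C.subtype : Set G) := by
      ext x
      constructor
      · rintro ⟨_, ⟨q, rfl⟩, rfl⟩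
        refine ⟨j q, ?_, ?_⟩
        · rw [SetLike.mem_coe, ← hjr]; exact ⟨q, rfl⟩
        · simp only; rw [map_mul, map_inv, hjφ]
      · rintro ⟨y, hy, rfl⟩
        rw [SetLike.mem_coe, ← hjr] at hy
        obtain ⟨q, rfl⟩ := hy
        exact ⟨_, ⟨q, rfl⟩, by rw [map_mul, map_inv, hjφ]⟩
    rw [h2] at h1
    rw [h1, CfsgLib.Comp2.map_center_eq]
    ext x
    constructor
    · rintro ⟨q, hq, rfl⟩
      obtain ⟨hq1, hq2⟩ := Subgroup.mem_inf.mp hq
      refine Subgroup.mem_inf.mpr ⟨hq1, ?_⟩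
      rw [Subgroup.mem_centralizer_iff] at hq2 ⊢
      intro y hy
      obtain ⟨r, rfl⟩ := hQ₀le hy
      rw [← map_mul, hq2 r hy, map_mul]
    · intro hx
      obtain ⟨hx1, hx2⟩ := Subgroup.mem_inf.mp hx
      obtain ⟨q, rfl⟩ := hQ₀le hx1
      refine ⟨q, Subgroup.mem_inf.mpr ⟨hx1, ?_⟩, rfl⟩
      rw [Subgroup.mem_centralizer_iff] at hx2 ⊢
      intro r hr
      apply hj
      rw [map_mul, map_mul]
      exact hx2 (j r) hr
  · intro hnot
    obtain ⟨q, hq, hqn⟩ := Set.not_subset.mp hnot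
    obtain ⟨hqQ, hqz⟩ := (hQ₀ q).mp hq
    refine ⟨q, hqQ, ?_⟩
    rcases zpowers_two hzz hqz with h1 | h1
    · exfalso
      apply hqn
      apply (le_sup_left : _ ≤ (Q.map C.subtype ⊓ Subgroup.centralizer ({α} : Set G)) ⊔ Subgroup.zpowers z)
      refine Subgroup.mem_inf.mpr ⟨hqQ, ?_⟩
      rw [Subgroup.mem_centralizer_iff]
      rintro y rfl
      exact mul_inv_eq_iff_eq_mul.mp (mul_inv_eq_one.mp h1)
    · rw [← h1, hαi]
      calc q * α * q⁻¹ = (α * α) * q * α * q⁻¹ := by rw [hαα, one_mul]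
        _ = α * (α * q * α * q⁻¹) := by simp [mul_assoc]
end

/-- Let G be a finite group and let z be an involution of G such that Q, the generalized Fitting subgroup of the centralizer C of z, is a 2-group of symplectic type (every characteristic abelian subgroup of Q is cyclic); suppose Q is extraspecial, and view Q inside G. Let α be an involution of C that is not in Q, and let Q₀ be the subgroup of those q ∈ Q whose commutator with α lies in the subgroup generated by z. Then (a) the subgroup generated by the commutators α q α⁻¹ q⁻¹, q ∈ Q, equals the centre of Q₀; and (b) if Q₀ is not contained in the product of the centralizer of α in Q with the subgroup generated by z, then some element of Q conjugates α to α z. -/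
theorem result {G : Type*} [Group G] [Finite G] (z : G) (hz : orderOf z = 2) (hQ : Cfsg.IsOfSymplecticType ↥(Cfsg.generalizedFittingSubgroup ↥(Subgroup.centralizer ({z} : Set G)))) (hE : Cfsg.IsExtraspecial 2 ↥(Cfsg.generalizedFittingSubgroup ↥(Subgroup.centralizer ({z} : Set G))))
    (α : G) (hα : orderOf α = 2) (hαC : α ∈ Subgroup.centralizer ({z} : Set G)) (hαQ : α ∉ (Cfsg.generalizedFittingSubgroup ↥(Subgroup.centralizer ({z} : Set G))).map (Subgroup.centralizer ({z} : Set G)).subtype)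
    (Q₀ : Subgroup G) (hQ₀ : ∀ q : G, q ∈ Q₀ ↔ (q ∈ (Cfsg.generalizedFittingSubgroup ↥(Subgroup.centralizer ({z} : Set G))).map (Subgroup.centralizer ({z} : Set G)).subtype ∧ α * q * α⁻¹ * q⁻¹ ∈ Subgroup.zpowers z)) :
    Subgroup.closure ((fun q : G => α * q * α⁻¹ * q⁻¹) '' ((Cfsg.generalizedFittingSubgroup ↥(Subgroup.centralizer ({z} : Set G))).map (Subgroup.centralizer ({z} : Set G)).subtype : Set G)) = (Subgroup.center ↥Q₀).map Q₀.subtype ∧
      (¬ Q₀ ≤ ((Cfsg.generalizedFittingSubgroup ↥(Subgroup.centralizer ({z} : Set G))).map (Subgroup.centralizer ({z} : Set G)).subtype ⊓ Subgroup.centralizer ({α} : Set G)) ⊔ Subgroup.zpowers z →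
        ∃ q ∈ (Cfsg.generalizedFittingSubgroup ↥(Subgroup.centralizer ({z} : Set G))).map (Subgroup.centralizer ({z} : Set G)).subtype, q * α * q⁻¹ = α * z) := by
  exact main z hz _ rfl _ inferInstance CfsgLib.Comp.centralizer_gfitting_le hE α hα hαC hαQ Q₀ hQ₀

end Cfsg.Agent.S1784
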