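import Cfsg.Statements.S1785
import Mathlib
import Cfsg.Agent.LibElem2
import Cfsg.Agent.LibTIConj
-- import your own Cfsg.Agent.* helpers here

set_option autoImplicit false
open Cfsg

namespace Cfsg.Agent.S1785

open CfsgLib.Elem2 CfsgLib.TIConj

theorem ea_iff {P : Type*} [Group P] (U : Subgroup P) : Cfsg.IsElementaryAbelian 2 U ↔ EA U := by
  constructor
  · rintro ⟨h1, h2⟩
    exact ⟨fun a ha b hb => congrArg Subtype.val (h1.is_comm.comm (⟨a, ha⟩ : U) ⟨b, hb⟩), fun a ha => by rw [← pow_two]; exact h2 a ha⟩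
  · rintro ⟨h1, h2⟩
    exact ⟨⟨⟨fun a b => Subtype.ext (h1 a a.2 b b.2)⟩⟩, fun a ha => by rw [pow_two]; exact h2 a ha⟩

section
variable {X : Type*} [Group X] [Finite X] (hX : IsPGroup 2 X) (E : Subgroup X) [E.Normal] (hE : EA E) (hE32 : 32 ≤ Nat.card E)

include hX hE hE32

theorem fix4 (V : Subgroup X) (hV : EA V) (hV4 : Nat.card V = 4) : 4 ≤ Nat.card (E ⊓ Subgroup.centralizer (V : Set X) : Subgroup X) := by
  have h1 := four_fix E V hE hV hV4 (fun v _ f hf => (inferInstance : E.Normal).conj_mem f hf v)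
  have h2 : 2 ^ (1 + 1) ≤ Nat.card (E ⊓ Subgroup.centralizer (V : Set X) : Subgroup X) := by
    apply card_ge hX
    by_contra hcon
    push Not at hcon
    have : Nat.card (E ⊓ Subgroup.centralizer (V : Set X) : Subgroup X) ^ 4 ≤ (2 ^ 1) ^ 4 := Nat.pow_le_pow_left hcon 4
    omega
  exact h2

theorem partb (V : Subgroup X) (hV : EA V) (hV4 : Nat.card V = 4) : ∃ A : Subgroup X, V ≤ A ∧ EA A ∧ Nat.card A = 8 := by
  by_cases hVE : V ≤ E
  · obtain ⟨A, h1, h2, h3⟩ := exists_mid hX E V hVE (n := 2) (m := 3) hV4 (by norm_num) (by omega)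
    exact ⟨A, h1, hE.mono h2, h3⟩
  · have h4 := fix4 hX E hE hE32 V hV hV4
    have hcomm : ∀ v ∈ V, ∀ c ∈ (E ⊓ Subgroup.centralizer (V : Set X) : Subgroup X), v * c = c * v :=
      fun v hv c hc => Subgroup.mem_centralizer_iff.mp (Subgroup.mem_inf.mp hc).2 v hv
    obtain ⟨c, hc, hcV⟩ : ∃ c ∈ (E ⊓ Subgroup.centralizer (V : Set X) : Subgroup X), c ∉ V := by
      by_contra hcon
      push Not at hcon
      have h5 : (E ⊓ Subgroup.centralizer (V : Set X) : Subgroup X) = V := Subgroup.eq_of_le_of_card_ge hcon (by omega)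
      apply hVE
      rw [← h5]
      exact inf_le_left
    have h8 := card_double_prod hcomm hc hcV
    obtain ⟨A, h1, h2, h3⟩ := exists_mid hX _ V (le_prod_left (h := hcomm)) (n := 2) (m := 3) hV4 (by norm_num) (by omega)
    exact ⟨A, h1, (hV.prod (hE.mono inf_le_left) hcomm).mono h2, h3⟩

/-- the relation -/
def R (C D : Subgroup X) : Prop := Cfsg.IsElementaryAbelian 2 C ∧ Nat.card ↥C = 8 ∧ Cfsg.IsElementaryAbelian 2 D ∧ Nat.card ↥D = 8 ∧ ⁅C, D⁆ = ⊥

omit [Finite X] hX hE hE32 [E.Normal] in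
theorem R_mk {C D : Subgroup X} (h1 : EA C) (h2 : Nat.card C = 8) (h3 : EA D) (h4 : Nat.card D = 8) (h : ∀ a ∈ C, ∀ b ∈ D, a * b = b * a) : R C D :=
  ⟨(ea_iff C).mpr h1, h2, (ea_iff D).mpr h3, h4, comm_bot_iff.mpr h⟩

omit [Finite X] hX hE hE32 [E.Normal] in
theorem R_symm {C D : Subgroup X} (h : R C D) : R D C := by
  obtain ⟨h1, h2, h3, h4, h5⟩ := h
  exact ⟨h3, h4, h1, h2, by rw [Subgroup.commutator_comm]; exact h5⟩

theorem to_E (A : Subgroup X) (hA : EA A) (hA8 : Nat.card A = 8) :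
    ∃ W : Subgroup X, EA W ∧ Nat.card W = 8 ∧ W ≤ E ∧ Relation.ReflTransGen R A W := by
  classical
  have hEb : E ≠ ⊥ := by rintro rfl; rw [Subgroup.card_bot] at hE32; omega
  obtain ⟨e, heE, he1, hee, hez⟩ := exists_central hX E hE hEb
  have hec : Nat.card (Subgroup.zpowers e) = 2 := by
    rw [Nat.card_zpowers]; exact orderOf_eq_prime (by rw [pow_two, hee]) he1
  obtain ⟨x, hxA, hxe⟩ : ∃ x ∈ A, x ∉ Subgroup.zpowers e := by
    by_contra hcon
    push Not at hcon
    have h1 := Nat.card_le_card_of_injective _ (Subgroup.inclusion_injective (show A ≤ Subgroup.zpowers e from hcon))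
    omega
  have hxx := hA.2 x hxA
  have hx1 : x ≠ 1 := by rintro rfl; exact hxe (one_mem _)
  have hxc : Nat.card (Subgroup.zpowers x) = 2 := by
    rw [Nat.card_zpowers]; exact orderOf_eq_prime (by rw [pow_two, hxx]) hx1
  have hcomm : ∀ v ∈ Subgroup.zpowers e, ∀ c ∈ Subgroup.zpowers x, v * c = c * v := by
    rintro v hv c _
    rcases mem_zpowers_of_sq hee hv with rfl | rfl
    · simp
    · exact hez c
  obtain ⟨y, hyA, hye⟩ : ∃ y ∈ A, y ∉ prod (Subgroup.zpowers e) (Subgroup.zpowers x) hcomm := by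
    by_contra hcon
    push Not at hcon
    have h1 := Nat.card_le_card_of_injective _ (Subgroup.inclusion_injective (show A ≤ prod (Subgroup.zpowers e) (Subgroup.zpowers x) hcomm from hcon))
    have h2 : Nat.card (prod (Subgroup.zpowers e) (Subgroup.zpowers x) hcomm) ≤ 4 := by
      have h3 : Nat.card (prod (Subgroup.zpowers e) (Subgroup.zpowers x) hcomm) ≤ Nat.card (Subgroup.zpowers e × Subgroup.zpowers x) := by
        apply Nat.card_le_card_of_surjective (fun p : Subgroup.zpowers e × Subgroup.zpowers x => (⟨p.1 * p.2, ⟨p.1, p.1.2, p.2, p.2.2, rfl⟩⟩ : prod (Subgroup.zpowers e) (Subgroup.zpowers x) hcomm))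
        rintro ⟨_, ⟨v, hv, c, hc, rfl⟩⟩
        exact ⟨(⟨v, hv⟩, ⟨c, hc⟩), rfl⟩
      rw [Nat.card_prod, hec, hxc] at h3
      exact h3
    omega
  have hyy := hA.2 y hyA
  have hcomm2 : ∀ v ∈ Subgroup.zpowers x, ∀ c ∈ Subgroup.zpowers y, v * c = c * v := by
    intro v hv c hc
    exact hA.1 v ((Subgroup.zpowers_le.mpr hxA) hv) c ((Subgroup.zpowers_le.mpr hyA) hc)
  have hyx : y ∉ Subgroup.zpowers x := fun h => hye (le_prod_right h)
  -- V
  obtain ⟨V, hV⟩ : ∃ V, V = prod (Subgroup.zpowers x) (Subgroup.zpowers y) hcomm2 := ⟨_, rfl⟩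
  have hVA : V ≤ A := by
    rw [hV]
    rintro _ ⟨v, hv, c, hc, rfl⟩
    exact mul_mem ((Subgroup.zpowers_le.mpr hxA) hv) ((Subgroup.zpowers_le.mpr hyA) hc)
  have hVe : EA V := hA.mono hVA
  have hV4 : Nat.card V = 4 := by
    apply le_antisymm
    · have h3 : Nat.card V ≤ Nat.card (Subgroup.zpowers x × Subgroup.zpowers y) := by
        apply Nat.card_le_card_of_surjective (fun p : Subgroup.zpowers x × Subgroup.zpowers y => (⟨p.1 * p.2, hV ▸ ⟨p.1, p.1.2, p.2, p.2.2, rfl⟩⟩ : V))
        rintro ⟨z, hz⟩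
        have hz' := hz
        rw [hV] at hz'
        obtain ⟨v, hv, c, hc, rfl⟩ := hz'
        exact ⟨(⟨v, hv⟩, ⟨c, hc⟩), rfl⟩
      have hy1 : y ≠ 1 := by rintro rfl; exact hyx (one_mem _)
      have hyc : Nat.card (Subgroup.zpowers y) = 2 := by
        rw [Nat.card_zpowers]; exact orderOf_eq_prime (by rw [pow_two, hyy]) hy1
      rw [Nat.card_prod, hyc, hxc] at h3
      exact h3
    · have := card_double_prod hcomm2 (Subgroup.mem_zpowers y) hyx
      rw [← hV, hxc] at this
      omega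
  have heV : e ∉ V := by
    intro h
    rw [hV] at h
    obtain ⟨v, hv, c, hc, hvc⟩ := h
    rcases mem_zpowers_of_sq hyy hc with rfl | rfl
    · rw [mul_one] at hvc
      rcases mem_zpowers_of_sq hxx hv with h3 | h3
      · exact he1 (hvc.trans h3)
      · apply hxe
        rw [← h3, ← hvc]; exact Subgroup.mem_zpowers e
    · apply hye
      have : c = e * v := by
        have hvv : v * v = 1 := (EA.zpowers hxx).2 v hv
        rw [hez v, hvc, ← mul_assoc, hvv, one_mul]
      rw [this]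
      exact ⟨e, Subgroup.mem_zpowers e, v, hv, rfl⟩
  -- A1
  have hcomm3 : ∀ v ∈ V, ∀ c ∈ Subgroup.zpowers e, v * c = c * v := by
    intro v _ c hc
    rcases mem_zpowers_of_sq hee hc with rfl | rfl
    · simp
    · exact (hez v).symm
  have h8 := card_double_prod hcomm3 (Subgroup.mem_zpowers e) heV
  obtain ⟨A1, hA1, hA18⟩ := exists_le_card hX _ (m := 3) (show 2 ^ 3 ≤ Nat.card (prod V (Subgroup.zpowers e) hcomm3) by omega)
  have hA1e : EA A1 := (hVe.prod (EA.zpowers hee) hcomm3).mono hA1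
  have hr1 : R A A1 := by
    apply R_mk hA hA8 hA1e hA18
    intro a ha b hb
    obtain ⟨v, hv, c, hc, rfl⟩ := hA1 hb
    have h1 := hA.1 a ha v (hVA hv)
    have h2 : a * c = c * a := by
      rcases mem_zpowers_of_sq hee hc with rfl | rfl
      · simp
      · exact (hez a).symm
    rw [← mul_assoc, h1, mul_assoc, h2, mul_assoc]
  by_cases hVE : V ≤ E
  · refine ⟨A1, hA1e, hA18, ?_, Relation.ReflTransGen.single hr1⟩
    refine hA1.trans ?_
    rintro _ ⟨v, hv, c, hc, rfl⟩
    exact mul_mem (hVE hv) ((Subgroup.zpowers_le.mpr heE) hc)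
  · obtain ⟨z, hzV, hzE⟩ := Set.not_subset.mp hVE
    have hzz := hVe.2 z hzV
    have h4 := fix4 hX E hE hE32 V hVe hV4
    have hcomm4 : ∀ v ∈ (E ⊓ Subgroup.centralizer (V : Set X) : Subgroup X), ∀ c ∈ Subgroup.zpowers z, v * c = c * v := by
      intro v hv c hc
      exact (Subgroup.mem_centralizer_iff.mp (Subgroup.mem_inf.mp hv).2 c ((Subgroup.zpowers_le.mpr hzV) hc)).symm
    have h5 := card_double_prod hcomm4 (Subgroup.mem_zpowers z) (fun h => hzE (Subgroup.mem_inf.mp h).1)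
    obtain ⟨A2, hA2, hA28⟩ := exists_le_card hX _ (m := 3) (show 2 ^ 3 ≤ Nat.card (prod _ _ hcomm4) by omega)
    have hA2e : EA A2 := ((hE.mono inf_le_left).prod (EA.zpowers hzz) hcomm4).mono hA2
    have hr2 : R A1 A2 := by
      apply R_mk hA1e hA18 hA2e hA28
      intro a ha b hb
      obtain ⟨v, hv, c, hc, rfl⟩ := hA1 ha
      obtain ⟨f, hf, d, hd, rfl⟩ := hA2 hb
      have hdV : d ∈ V := (Subgroup.zpowers_le.mpr hzV) hd
      have h1 : v * f = f * v := Subgroup.mem_centralizer_iff.mp (Subgroup.mem_inf.mp hf).2 v hv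
      have h2 : v * d = d * v := hVe.1 v hv d hdV
      have h3 : ∀ g, c * g = g * c := by
        intro g
        rcases mem_zpowers_of_sq hee hc with rfl | rfl
        · simp
        · exact hez g
      calc v * c * (f * d) = v * (f * d) * c := by rw [mul_assoc, h3]; simp only [mul_assoc]
        _ = (v * f) * d * c := by simp [mul_assoc]
        _ = f * (v * d) * c := by rw [h1]; simp [mul_assoc]
        _ = f * d * (v * c) := by rw [h2]; simp [mul_assoc]
    have hC := card_le_sq E hE z hzz (fun f hf => (inferInstance : E.Normal).conj_mem f hf z)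
    have hC8 : 2 ^ (2 + 1) ≤ Nat.card (E ⊓ Subgroup.centralizer ({z} : Set X) : Subgroup X) := by
      apply card_ge hX
      by_contra hcon
      push Not at hcon
      have : Nat.card (E ⊓ Subgroup.centralizer ({z} : Set X) : Subgroup X) ^ 2 ≤ (2 ^ 2) ^ 2 := Nat.pow_le_pow_left hcon 2
      omega
    obtain ⟨A3, hA3, hA38⟩ := exists_le_card hX _ hC8
    have hA3e : EA A3 := hE.mono (hA3.trans inf_le_left)
    have hr3 : R A2 A3 := by
      apply R_mk hA2e hA28 hA3e hA38
      intro a ha b hb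
      obtain ⟨f, hf, d, hd, rfl⟩ := hA2 ha
      obtain ⟨hb1, hb2⟩ := Subgroup.mem_inf.mp (hA3 hb)
      have h1 : z * b = b * z := Subgroup.mem_centralizer_iff.mp hb2 z rfl
      have h2 : d * b = b * d := by
        rcases mem_zpowers_of_sq hzz hd with rfl | rfl
        · simp
        · exact h1
      have h3 : f * b = b * f := hE.1 f (Subgroup.mem_inf.mp hf).1 b hb1
      rw [mul_assoc, h2, ← mul_assoc, h3, mul_assoc]
    exact ⟨A3, hA3e, hA38, hA3.trans inf_le_left, ((Relation.ReflTransGen.single hr1).tail hr2).tail hr3⟩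
end

/-- Let X be a finite 2-group having a normal elementary abelian subgroup of order at least 32. Then (a) for any two elementary abelian subgroups A, B of X of order 8 there is a chain A = A₁, A₂, …, Aₙ = B of elementary abelian subgroups of order 8 in which consecutive members commute elementwise; and (b) every elementary abelian subgroup of X of order 4 is contained in an elementary abelian subgroup of order 8. -/
theorem result {X : Type*} [Group X] [Finite X]
    (hX : IsPGroup 2 X) (E : Subgroup X) [E.Normal] (hE : Cfsg.IsElementaryAbelian 2 E) (hE32 : 32 ≤ Nat.card ↥E) :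
    (∀ A B : Subgroup X, Cfsg.IsElementaryAbelian 2 A → Nat.card ↥A = 8 → Cfsg.IsElementaryAbelian 2 B → Nat.card ↥B = 8 →
        Relation.ReflTransGen
          (fun C D : Subgroup X => Cfsg.IsElementaryAbelian 2 C ∧ Nat.card ↥C = 8 ∧ Cfsg.IsElementaryAbelian 2 D ∧ Nat.card ↥D = 8 ∧ ⁅C, D⁆ = ⊥)
          A B) ∧
      (∀ V : Subgroup X, Cfsg.IsElementaryAbelian 2 V → Nat.card ↥V = 4 →
        ∃ A : Subgroup X, V ≤ A ∧ Cfsg.IsElementaryAbelian 2 A ∧ Nat.card ↥A = 8) := by
  have hEA := (ea_iff E).mp hE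
  constructor
  · intro A B hA hA8 hB hB8
    obtain ⟨W, hW, hW8, hWE, hAW⟩ := to_E hX E hEA hE32 A ((ea_iff A).mp hA) hA8
    obtain ⟨W', hW', hW8', hWE', hBW⟩ := to_E hX E hEA hE32 B ((ea_iff B).mp hB) hB8
    have h1 : R W W' := R_mk hW hW8 hW' hW8' (fun a ha b hb => hEA.1 a (hWE ha) b (hWE' hb))
    have h2 : Relation.ReflTransGen R W' B := by
      have hs : Std.Symm (R (X := X)) := ⟨fun _ _ h => R_symm h⟩
      exact (Relation.ReflTransGen.stdSymm (r := R (X := X))).symm _ _ hBW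
    exact (hAW.tail h1).trans h2
  · intro V hV hV4
    obtain ⟨A, h1, h2, h3⟩ := partb hX E hEA hE32 V ((ea_iff V).mp hV) hV4
    exact ⟨A, h1, (ea_iff A).mpr h2, h3⟩

end Cfsg.Agent.S1785
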