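import Cfsg.Statements.S1850
import Mathlib
import Cfsg.Agent.LibLEP
import Cfsg.Agent.LibPQ

set_option autoImplicit false
open Cfsg

namespace Cfsg.Agent.S1850

open CfsgLib.LE in
theorem charPOf_normalizer_of_mem {G : Type*} [Group G] [Finite G] {p : ℕ} [Fact p.Prime] {P : Subgroup G} (hP : IsPGroup p ↥P) {y : G}
    (hy : y ∈ P) (hcy : CharPOf p (Subgroup.centralizer ({y} : Set G))) : CharPOf p (Subgroup.normalizer (P : Set G)) :=
  charPOf_normalizer_of_centralizer hP (charPOf_centralizer_of_mem hP hy hcy)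

/-- an element of prime order in a non-trivial p-group -/
theorem exists_order_p {G : Type*} [Group G] [Finite G] {p : ℕ} [hp : Fact p.Prime] {P : Subgroup G} (hP : IsPGroup p ↥P) (h : P ≠ ⊥) :
    ∃ x ∈ P, orderOf x = p := by
  haveI : Nontrivial P := (Subgroup.nontrivial_iff_ne_bot P).2 h
  obtain ⟨n, hn⟩ := IsPGroup.iff_card.1 hP
  have h1 : p ∣ Nat.card P := by
    rw [hn]
    apply dvd_pow_self
    rintro rfl
    rw [pow_zero] at hn
    exact (Finite.one_lt_card (α := P)).ne' hn
  obtain ⟨x, hx⟩ := exists_prime_orderOf_dvd_card' (G := P) p h1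
  exact ⟨x, x.2, by rw [Subgroup.orderOf_coe, hx]⟩

theorem mem_zpowers_two {G : Type*} [Group G] {z : G} (hz : orderOf z = 2) {x : G} (hx : x ∈ Subgroup.zpowers z) : x = 1 ∨ x = z := by
  obtain ⟨k, rfl⟩ := Subgroup.mem_zpowers_iff.1 hx
  have h2 : z ^ (2 : ℤ) = 1 := by
    have := pow_orderOf_eq_one z
    rw [hz] at this
    exact_mod_cast this
  rcases Int.even_or_odd' k with ⟨m, rfl | rfl⟩
  · left
    rw [zpow_mul, h2, one_zpow]
  · right
    rw [zpow_add, zpow_mul, h2, one_zpow, one_mul, zpow_one]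

theorem centralizer_eq_normalizer {G : Type*} [Group G] {z : G} (hz : orderOf z = 2) :
    Subgroup.centralizer ({z} : Set G) = Subgroup.normalizer ((Subgroup.zpowers z : Subgroup G) : Set G) := by
  ext g
  rw [Subgroup.mem_centralizer_singleton_iff, Subgroup.mem_normalizer_iff]
  constructor
  · intro h x
    constructor
    · intro hx
      rcases mem_zpowers_two hz hx with rfl | rfl
      · simp
      · have : g * x * g⁻¹ = x := by rw [h]; group
        rw [this]; exact hx
    · intro hx
      rcases mem_zpowers_two hz hx with h1 | h1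
      · have : x = 1 := by
          have h3 : x = g⁻¹ * (g * x * g⁻¹) * g := by group
          rw [h3, h1]; group
        rw [this]; exact Subgroup.one_mem _
      · have : x = z := by
          have h3 : x = g⁻¹ * (g * x * g⁻¹) * g := by group
          rw [h3, h1]
          calc g⁻¹ * z * g = g⁻¹ * (z * g) := by group
            _ = g⁻¹ * (g * z) := by rw [h]
            _ = z := by group
        rw [this]; exact Subgroup.mem_zpowers z
  · intro h
    have h1 := (h z).1 (Subgroup.mem_zpowers z)
    rcases mem_zpowers_two hz h1 with h2 | h2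
    · exfalso
      have : z = 1 := by
        have h3 : z = g⁻¹ * (g * z * g⁻¹) * g := by group
        rw [h3, h2]; group
      rw [this, orderOf_one] at hz
      norm_num at hz
    · calc g * z = (g * z * g⁻¹) * g := by group
        _ = z * g := by rw [h2]


/-- Let G be a non-abelian finite simple QTKE-group and T a Sylow 2-subgroup of G. If U is a nontrivial 2-subgroup of G with U ∩ Z(T) ≠ 1, then F*(N_G(U)) = O₂(N_G(U)). -/
theorem result {G : Type*} [Group G] [Finite G] [IsSimpleGroup G]
    (hG : ¬ IsMulCommutative G) (hQ : Cfsg.IsQTKE G) (T : Sylow 2 G) (U : Subgroup G)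
    (hU : IsPGroup 2 ↥U) (hZ : U ⊓ ((T : Subgroup G) ⊓ Subgroup.centralizer ((T : Subgroup G) : Set G)) ≠ ⊥) :
    Subgroup.normalizer (U : Set G) ∈ Cfsg.calHe G := by
  haveI : Fact (Nat.Prime 2) := ⟨Nat.prime_two⟩
  have hW : IsPGroup 2 ↥(U ⊓ ((T : Subgroup G) ⊓ Subgroup.centralizer ((T : Subgroup G) : Set G))) := hU.to_le inf_le_left
  obtain ⟨z, hz, hz2⟩ := exists_order_p hW hZ
  have hCz : CfsgLib.LE.CharPOf 2 (Subgroup.centralizer ({z} : Set G)) := by
    rw [CfsgLib.LE.charPOf_iff_type]
    apply hQ.2.2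
    · refine ⟨Subgroup.zpowers z, ?_, ?_, ?_⟩
      · exact (IsPGroup.iff_card).2 ⟨1, by rw [Nat.card_zpowers, hz2]; norm_num⟩
      · rw [Ne, Subgroup.zpowers_eq_bot]
        rintro rfl
        rw [orderOf_one] at hz2
        norm_num at hz2
      · exact centralizer_eq_normalizer hz2
    · refine ⟨T, ?_⟩
      intro t ht
      rw [Subgroup.mem_centralizer_singleton_iff]
      exact (Subgroup.mem_centralizer_iff.1 hz.2.2 t ht)
  exact CfsgLib.LE.gfitOf_eq_iff.2 (charPOf_normalizer_of_mem hU hz.1 hCz)

end Cfsg.Agent.S1850
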