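import Cfsg.Statements.S1958
import Cfsg.Agent.LibAxB9

set_option autoImplicit false
open Cfsg

namespace Cfsg.Agent.S1958

open CfsgLib.BGPi
open scoped CfsgLib.BGPi commutatorElement

theorem half {G : Type*} [Group G] [Finite G]
    (p : ℕ) [Fact p.Prime] (x y : G) (hx : orderOf x = p) (hxy : x * y = y * x)
    (hCy : Group.IsSolvable ↥(Subgroup.centralizer ({y} : Set G))) :
    Cfsg.centralizerPPrimeCore p x ⊓ Subgroup.centralizer {y} ≤
      Cfsg.centralizerPPrimeCore p y ⊓ Subgroup.centralizer {x} := by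
  set Cx := Subgroup.centralizer ({x} : Set G) with hCx
  set Cy := Subgroup.centralizer ({y} : Set G) with hCyd
  have hcx : Cfsg.centralizerPPrimeCore p x ≤ Cx := by
    rintro _ ⟨a, _, rfl⟩; exact a.2
  have hxCy : x ∈ Cy := Subgroup.mem_centralizer_singleton_iff.2 hxy
  set P : Subgroup ↥Cy := Subgroup.zpowers ⟨x, hxCy⟩ with hP
  set D : Subgroup ↥Cy := (Cfsg.centralizerPPrimeCore p x).subgroupOf Cy with hD
  have hPp : IsPGroup p P := by
    apply CfsgLib.Fus9.zpowers_isPGroup
    exact ⟨1, by rw [Subgroup.orderOf_mk, hx, pow_one]⟩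
  have hDco : (Nat.card D).Coprime p := by
    have h1 : (Nat.card (Cfsg.centralizerPPrimeCore p x)).Coprime p := by
      have : Nat.card (Cfsg.centralizerPPrimeCore p x) = Nat.card (Cfsg.pPrimeCore p ↥Cx) :=
        card_map_subtype _
      rw [this]
      exact CfsgLib.Cores.pPrimeCore_coprime p
    refine Nat.Coprime.coprime_dvd_left ?_ h1
    have h2 : Nat.card D = Nat.card (D.map Cy.subtype) := (card_map_subtype _).symm
    rw [h2, hD, Subgroup.subgroupOf_map_subtype]
    exact Subgroup.card_dvd_of_le inf_le_left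
  have hPD : ⁅P, D⁆ = ⊥ := by
    rw [Subgroup.commutator_eq_bot_iff_le_centralizer, hP, Subgroup.zpowers_le,
      Subgroup.mem_centralizer_iff]
    intro d hd
    have h1 : (d : G) ∈ Cx := hcx hd
    rw [Subgroup.mem_centralizer_singleton_iff] at h1
    exact Subtype.ext h1
  have hnorm : Subgroup.centralizer (P : Set ↥Cy) ≤ Subgroup.normalizer (D : Set ↥Cy) := by
    intro c hc
    have hc1 : (c : G) ∈ Cx := by
      rw [Subgroup.mem_centralizer_singleton_iff]
      have := Subgroup.mem_centralizer_iff.1 hc ⟨x, hxCy⟩ (Subgroup.mem_zpowers _)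
      exact (congrArg Subtype.val this).symm
    have key : ∀ c : G, c ∈ Cx → ∀ d ∈ Cfsg.centralizerPPrimeCore p x,
        c * d * c⁻¹ ∈ Cfsg.centralizerPPrimeCore p x := by
      rintro c hc _ ⟨d, hd, rfl⟩
      have hn : (Cfsg.pPrimeCore p ↥Cx).Normal := inferInstance
      exact ⟨⟨c, hc⟩ * d * ⟨c, hc⟩⁻¹, hn.conj_mem d hd ⟨c, hc⟩, rfl⟩
    rw [Subgroup.mem_normalizer_iff]
    intro d
    constructor
    · intro hd
      exact key c hc1 d hd
    · intro hd
      have := key (c : G)⁻¹ (inv_mem hc1) ((c * d * c⁻¹ : ↥Cy) : G) hd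
      have e : (c : G)⁻¹ * ((c * d * c⁻¹ : ↥Cy) : G) * (c : G)⁻¹⁻¹ = d := by
        simp only [Subgroup.coe_mul, InvMemClass.coe_inv]; group
      rw [e] at this
      exact this
  haveI := hCy
  have hmain := CfsgLib.AxB9.le_pPrimeCore_of_centralizer hPp hDco hPD hnorm
  intro g hg
  obtain ⟨hg1, hg2⟩ := Subgroup.mem_inf.1 hg
  refine Subgroup.mem_inf.2 ⟨⟨⟨g, hg2⟩, hmain ?_, rfl⟩, hcx hg1⟩
  exact hg1

/-- Let `G` be a finite group, `p` a prime, and `x, y` commuting elements of order `p` whose centralizers `C_G(x)` and `C_G(y)` are both solvable. Then `O_{p'}(C_G(x)) ∩ C_G(y) = O_{p'}(C_G(y)) ∩ C_G(x)` (balance). -/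
theorem result {G : Type*} [Group G] [Finite G]
    (p : ℕ) [Fact p.Prime] (x y : G) (hx : orderOf x = p) (hy : orderOf y = p) (hxy : x * y = y * x)
    (hCx : Group.IsSolvable ↥(Subgroup.centralizer ({x} : Set G))) (hCy : Group.IsSolvable ↥(Subgroup.centralizer ({y} : Set G))) :
    Cfsg.centralizerPPrimeCore p x ⊓ Subgroup.centralizer {y} = Cfsg.centralizerPPrimeCore p y ⊓ Subgroup.centralizer {x} := by
  exact le_antisymm (half p x y hx hxy hCy) (half p y x hy hxy.symm hCx)

end Cfsg.Agent.S1958
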