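import Cfsg.Statements.S1966
import Cfsg.Agent.LibFusionH12b
import Cfsg.Agent.LibCores

set_option autoImplicit false
open Cfsg

namespace Cfsg.Agent.S1966

/-- Let p be a prime, G a finite group with Sylow p-subgroup S and 𝓕 a conjugation family for S in G. Then the members of 𝓕 containing O_p(G) still form a conjugation family for S in G. -/
theorem result {G : Type*} [Group G] [Finite G] {p : ℕ} [Fact p.Prime] (S : Sylow p G) (𝓕 : Set (Subgroup G)) (h : Cfsg.IsConjugationFamily 𝓕 (S : Subgroup G)) : Cfsg.IsConjugationFamily {T : Subgroup G | T ∈ 𝓕 ∧ Cfsg.pCore p G ≤ T} (S : Subgroup G) := by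
  refine ⟨fun T hT => h.1 T hT.1, ?_⟩
  intro A g hA hAS hgA
  have hQS : pCore p G ≤ (S : Subgroup G) := CfsgLib.Cores.pCore_le_sylow S
  have hQn : (pCore p G).Normal := inferInstance
  have hconj : ∀ (q : G), q ∈ pCore p G → ∀ x : G, x⁻¹ * q * x ∈ pCore p G := fun q hq x => by
    have := hQn.conj_mem q hq x⁻¹
    simpa using this
  have hconj' : ∀ (q : G), q ∈ pCore p G → ∀ x : G, ∃ r ∈ pCore p G, x⁻¹ * r * x = q := fun q hq x =>
    ⟨x * q * x⁻¹, hQn.conj_mem q hq x, by simp [mul_assoc]⟩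
  obtain ⟨n, T, x, e1, e2, e3, e4, e5⟩ := h.2 (A ∪ (pCore p G : Set G)) g (hA.mono Set.subset_union_left)
    (Set.union_subset hAS hQS) (by
      rw [Set.image_union]
      refine Set.union_subset hgA ?_
      rintro _ ⟨q, hq, rfl⟩
      exact hQS (hconj q hq g))
  refine ⟨n, T, x, e1, fun i => ⟨e2 i, ?_⟩, e3, fun hn => Set.subset_union_left.trans (e4 hn),
    fun i hi => (Set.image_mono Set.subset_union_left).trans (e5 i hi)⟩
  rcases i with ⟨i, hi⟩
  rcases i with _ | i
  · exact fun q hq => e4 hi (Or.inr hq)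
  · intro q hq
    obtain ⟨r, hr, hrq⟩ := hconj' q hq ((List.ofFn x).take (i + 1)).prod
    have := e5 ⟨i, by omega⟩ hi ⟨r, Or.inr hr, rfl⟩
    simpa [hrq] using this

end Cfsg.Agent.S1966
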