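import Cfsg.Statements.S1967
import Cfsg.Agent.LibFusionH12c

set_option autoImplicit false
open Cfsg

namespace Cfsg.Agent.S1967

/-- Let p be a prime, G a finite group with Sylow p-subgroup S and W a conjugacy functor for p on G. Then W controls strong fusion in G if and only if, whenever T ≤ S and g ∈ G satisfy gTg⁻¹ ≤ S, one can write g = n c with n ∈ N_G(W(S)) and c ∈ C_G(T). -/
theorem result {G : Type*} [Group G] [Finite G] {p : ℕ} [Fact p.Prime] (S : Sylow p G) (W : Subgroup G → Subgroup G) (hW : Cfsg.IsConjugacyFunctor p W) : Cfsg.ControlsStrongFusionIn p W ⊤ ↔ ∀ (T : Subgroup G) (g : G), T ≤ (S : Subgroup G) → T.map (MulAut.conj g).toMonoidHom ≤ (S : Subgroup G) → ∃ n ∈ Subgroup.normalizer ((W (S : Subgroup G) : Subgroup G) : Set G), ∃ c ∈ Subgroup.centralizer (T : Set G), g = n * c := by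
  have hS := CfsgLib.FusionH12.SylIn.ofSylow S
  have hW' : ∀ W' ∈ ({W} : Set (Subgroup G → Subgroup G)), IsConjugacyFunctor p W' :=
    fun W' hW' => by rw [hW']; exact hW
  rw [CfsgLib.FusionH12c.ctlFusion_iff, CfsgLib.FusionH12c.famFusion_iff' hW' hS]
  constructor
  · intro h T g hT hg
    obtain ⟨n, c, c1, c2, c3, c4⟩ := CfsgLib.FusionH12c.chain_of_reach hT (h T g hT (Subgroup.mem_top g) hg)
    have : ∀ i : Fin (n + 1), c i ∈ Subgroup.normalizer ((W (S : Subgroup G) : Subgroup G) : Set G) := by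
      intro i
      induction i using Fin.induction with
      | zero => rw [c1]; exact one_mem _
      | succ i ih =>
        obtain ⟨N, ⟨W', hW', rfl⟩, hc⟩ := c2 i
        rw [Set.mem_singleton_iff] at hW'
        subst hW'
        have := mul_mem hc.2 ih
        rwa [inv_mul_cancel_right] at this
    refine ⟨c (Fin.last n), this _, (c (Fin.last n))⁻¹ * g, CfsgLib.FusionH12.agree_iff.1 c4, ?_⟩
    rw [mul_inv_cancel_left]
  · intro h D g hD _ hgD
    obtain ⟨n, hn, c, hc, rfl⟩ := h D g hD hgD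
    have h1 : CfsgLib.FusionH12.cj n D ≤ (S : Subgroup G) := by
      rwa [CfsgLib.FusionH12.cj_mul, CfsgLib.FusionH12.cj_of_mem_centralizer hc] at hgD
    refine CfsgLib.FusionH12c.reach_centralizing (g := n) hD
      (CfsgLib.FusionH12.Reach.single ⟨hD, h1, Or.inl ?_⟩) (by rwa [inv_mul_cancel_left])
    exact ⟨_, ⟨W, rfl, rfl⟩, ⟨Subgroup.mem_top _, hn⟩⟩

end Cfsg.Agent.S1967
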