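import Cfsg.Statements.S1969
import Cfsg.Agent.LibFusionH12g

set_option autoImplicit false
universe u
open Cfsg

namespace Cfsg.Agent.S1969

/-- Let p be a prime, G a finite group and W an isomorphism-invariant p-group functor (W assigns to every group Q a subgroup W(Q), nontrivial whenever Q is a nontrivial finite p-group, and every isomorphism from a finite p-group Q onto a group R carries W(Q) onto W(R)). Suppose that W(S*) is normal in G* whenever G* = K/R is a section of G with C_{G*}(O_p(G*)) ≤ O_p(G*) and S* is a Sylow p-subgroup of G*. Then W controls strong fusion in every section of G: for every section K/R and every Sylow p-subgroup T of K/R, the subgroup W(T) controls strong fusion in K/R. -/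
theorem result {G : Type u} [Group G] [Finite G] {p : ℕ} [Fact p.Prime] (W : ∀ (Q : Type u) [Group Q], Subgroup Q) (hW : Cfsg.IsCharPFunctor.{u} p W) (hloc : ∀ (K R : Subgroup G) [hR : (R.subgroupOf K).Normal], Subgroup.centralizer ((Cfsg.pCore p (↥K ⧸ R.subgroupOf K) : Subgroup (↥K ⧸ R.subgroupOf K)) : Set (↥K ⧸ R.subgroupOf K)) ≤ Cfsg.pCore p (↥K ⧸ R.subgroupOf K) → ∀ T : Sylow p (↥K ⧸ R.subgroupOf K), (Cfsg.inducedFunctor (G := (↥K ⧸ R.subgroupOf K)) W ((T : Subgroup (↥K ⧸ R.subgroupOf K)))).Normal) : ∀ (K R : Subgroup G) [hR : (R.subgroupOf K).Normal], ∀ T : Sylow p (↥K ⧸ R.subgroupOf K), Cfsg.ControlsStrongFusion p (Cfsg.inducedFunctor (G := (↥K ⧸ R.subgroupOf K)) W ((T : Subgroup (↥K ⧸ R.subgroupOf K)))) := by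
  have h𝓦 : ∀ W' ∈ ({W} : Set (∀ (Q : Type u) [Group Q], Subgroup Q)), IsCharPFunctor.{u} p W' := by
    rintro W' rfl; exact hW
  have hsec := CfsgLib.FusionH12f.forall_sec'
      (fun H _ => Subgroup.centralizer ((pCore p H : Subgroup H) : Set H) ≤ pCore p H →
        FamilyControlsStrongFusionIn p (CfsgLib.SecH12.indSet {W} H) ⊤) (G := G) ?_ ?_
  · intro K R hR T
    have h1 := CfsgLib.FusionH12f.main_fusion h𝓦 _ (↥K ⧸ R.subgroupOf K) le_rfl
      (fun H _ hH hc => hsec H (hH.trans (CfsgLib.SecH12.IsSec.of_quot K R)) hc)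
    have hT := CfsgLib.FusionH12.SylIn.ofSylow T
    rw [CfsgLib.FusionH12c.famFusion_iff' (CfsgLib.SecH12.indSet_isConj h𝓦 _) hT] at h1
    refine ⟨T, CfsgLib.FusionH12b.W_le (CfsgLib.SecH12.induced_isConj hW _) T.2, ?_⟩
    intro A hA
    refine ⟨hA, fun g hg => ?_⟩
    obtain ⟨n, c, c1, c2, c3, c4⟩ := CfsgLib.FusionH12c.fusIn_iff.1 h1 A g (Subgroup.mem_top g) hA hg
    refine ⟨c (Fin.last n), ?_, fun a ha => (c4 a ha).symm⟩
    have : ∀ i : Fin (n + 1), c i ∈ Subgroup.normalizer ((inducedFunctor (G := (↥K ⧸ R.subgroupOf K)) W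
      (T : Subgroup (↥K ⧸ R.subgroupOf K)) : Subgroup (↥K ⧸ R.subgroupOf K)) : Set (↥K ⧸ R.subgroupOf K)) := by
      intro i
      induction i using Fin.induction with
      | zero => rw [c1]; exact one_mem _
      | succ i ih =>
        obtain ⟨N, ⟨W', ⟨W'', hW'', rfl⟩, rfl⟩, hc⟩ := c2 i
        rw [Set.mem_singleton_iff] at hW''
        subst hW''
        have := mul_mem hc.2 ih
        rwa [inv_mul_cancel_right] at this
    exact this _
  · intro H H' _ _ _ _ e h hc
    exact CfsgLib.SecH12.famFusion_equiv h𝓦 e (h (CfsgLib.FusionH12f.charP_equiv e hc))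
  · intro K R hR hc
    obtain ⟨T⟩ : Nonempty (Sylow p (↥K ⧸ R.subgroupOf K)) := inferInstance
    have hT := CfsgLib.FusionH12.SylIn.ofSylow T
    rw [CfsgLib.FusionH12c.famFusion_iff' (CfsgLib.SecH12.indSet_isConj h𝓦 _) hT]
    intro D g hD _ hgD
    refine CfsgLib.FusionH12.Reach.single ⟨hD, hgD, Or.inl ⟨_, ⟨_, ⟨W, rfl, rfl⟩, rfl⟩, Subgroup.mem_top _, ?_⟩⟩
    have := hloc K R hc T
    rw [Subgroup.normalizer_eq_top]
    exact Subgroup.mem_top _

end Cfsg.Agent.S1969
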