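import Cfsg.Statements.S1970
import Cfsg.Agent.LibFusionH12g

set_option autoImplicit false
universe u
open Cfsg

namespace Cfsg.Agent.S1970

/-- Let p be a prime, G a finite group and W an isomorphism-invariant p-group functor (W assigns to every group Q a subgroup W(Q), nontrivial whenever Q is a nontrivial finite p-group, and every isomorphism from a finite p-group Q onto a group R carries W(Q) onto W(R)). Suppose that for every section G* = K/R of G with C_{G*}(O_p(G*)) ≤ O_p(G*) and every Sylow p-subgroup S* of G*, one has O_p(G*) ∩ (G*)' = O_p(G*) ∩ (N_{G*}(W(S*)))'. Then W controls transfer in every section G* of G: S* ∩ (G*)' = S* ∩ (N_{G*}(W(S*)))' for a Sylow p-subgroup S* of G*. -/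
theorem result {G : Type u} [Group G] [Finite G] {p : ℕ} [Fact p.Prime] (W : ∀ (Q : Type u) [Group Q], Subgroup Q) (hW : Cfsg.IsCharPFunctor.{u} p W) (hloc : ∀ (K R : Subgroup G) [hR : (R.subgroupOf K).Normal], Subgroup.centralizer ((Cfsg.pCore p (↥K ⧸ R.subgroupOf K) : Subgroup (↥K ⧸ R.subgroupOf K)) : Set (↥K ⧸ R.subgroupOf K)) ≤ Cfsg.pCore p (↥K ⧸ R.subgroupOf K) → ∀ T : Sylow p (↥K ⧸ R.subgroupOf K), Cfsg.pCore p (↥K ⧸ R.subgroupOf K) ⊓ commutator (↥K ⧸ R.subgroupOf K) = Cfsg.pCore p (↥K ⧸ R.subgroupOf K) ⊓ ⁅Subgroup.normalizer ((Cfsg.inducedFunctor (G := (↥K ⧸ R.subgroupOf K)) W ((T : Subgroup (↥K ⧸ R.subgroupOf K))) : Subgroup (↥K ⧸ R.subgroupOf K)) : Set (↥K ⧸ R.subgroupOf K)), Subgroup.normalizer ((Cfsg.inducedFunctor (G := (↥K ⧸ R.subgroupOf K)) W ((T : Subgroup (↥K ⧸ R.subgroupOf K))) : Subgroup (↥K ⧸ R.subgroupOf K)) : Set (↥K ⧸ R.subgroupOf K))⁆) : ∀ (K R : Subgroup G) [hR : (R.subgroupOf K).Normal], Cfsg.ControlsTransferIn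 p (Cfsg.inducedFunctor (G := (↥K ⧸ R.subgroupOf K)) W) ⊤ := by
  have h𝓦 : ∀ W' ∈ ({W} : Set (∀ (Q : Type u) [Group Q], Subgroup Q)), IsCharPFunctor.{u} p W' := by
    rintro W' rfl; exact hW
  have hsec := CfsgLib.FusionH12f.forall_sec'
      (fun H _ => Subgroup.centralizer ((pCore p H : Subgroup H) : Set H) ≤ pCore p H →
        ∀ T : Sylow p H, pCore p H ⊓ _root_.commutator H ≤
          CfsgLib.FusionH12c.focF (CfsgLib.SecH12.indSet {W} H) ⊤ (T : Subgroup H)) (G := G) ?_ ?_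
  · intro K R hR
    have h1 := CfsgLib.FusionH12f.main_transfer h𝓦 _ (↥K ⧸ R.subgroupOf K) le_rfl
      (fun H _ hH hc => hsec H (hH.trans (CfsgLib.SecH12.IsSec.of_quot K R)) hc)
    rw [CfsgLib.FusionH12c.ctlTransfer_iff]
    unfold CfsgLib.SecH12.indSet at h1
    rwa [Set.image_singleton] at h1
  · intro H H' _ _ _ _ e h hc
    exact CfsgLib.FusionH12f.focFΦ_equiv h𝓦 e (h (CfsgLib.FusionH12f.charP_equiv e hc))
  · intro K R hR hc T
    refine le_trans ?_ (CfsgLib.FusionH12c.le_focF ⊤ _ (Set.mem_image_of_mem _ rfl))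
    rw [hloc K R hc T, top_inf_eq]
    exact inf_le_inf (CfsgLib.Cores.pCore_le_sylow T) le_rfl

end Cfsg.Agent.S1970
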