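import Cfsg.Statements.S1981
import Cfsg.Agent.LibKinf9

set_option autoImplicit false
open Cfsg

namespace Cfsg.Agent.S1981

/-- Let P be a finite p-group generated by its abelian normal subgroups. Then both K-infinity subgroups of P equal P. -/
theorem result {P : Type*} [Group P] [Finite P] {p : ℕ} [Fact p.Prime] (hP : IsPGroup p P) (hgen : ⨆ A ∈ {A : Subgroup P | A.Normal ∧ IsMulCommutative ↥A}, A = ⊤) : Cfsg.kInfLower P = ⊤ ∧ Cfsg.kInfUpper P = ⊤ := by
  have hE : ∀ n, Cfsg.kSeqEven P n = ⊤ := by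
    intro n
    rw [eq_top_iff, ← hgen]
    refine iSup₂_le fun A hA => le_sSup ?_
    haveI := hA.1
    exact CfsgLib.Kinf9.abelian_mem_lower hA.2 (by rw [Subgroup.normalizer_eq_top]; exact le_top)
  have hO : ∀ n, Cfsg.kSeqOdd P n = ⊤ := by
    intro n
    cases n with
    | zero => rfl
    | succ n =>
      rw [eq_top_iff, ← hgen]
      refine iSup₂_le fun A hA => le_sSup ?_
      haveI := hA.1
      exact CfsgLib.Kinf9.abelian_mem_upper hA.2 (by rw [Subgroup.normalizer_eq_top]; exact le_top)
  constructor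
  · unfold Cfsg.kInfLower
    simp [hE]
  · unfold Cfsg.kInfUpper
    simp [hO]

end Cfsg.Agent.S1981
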