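import Cfsg.Statements.S1993
import Cfsg.Agent.LibKfun9
import Cfsg.Agent.LibNormH12c

set_option autoImplicit false
universe u
open Cfsg

namespace Cfsg.Agent.S1993

open CfsgLib.BGPi CfsgLib.Kfun9
open scoped CfsgLib.BGPi

theorem K_transfer {W : ∀ (Q : Type u) [Group Q], Subgroup Q} (hW : IsK W) {p : ℕ}
    [hp : Fact p.Prime] (hp5 : 5 ≤ p) (G : Type u) [Group G] [Finite G] :
    Cfsg.FamilyControlsTransferIn p (CfsgLib.SecH12.indSet {W} G) ⊤ := by
  refine CfsgLib.NormH12c.transfer_of_locHyp (K_char hW) _ G le_rfl ?_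
  intro H _ hH _ T hT
  have := hH.finite
  have hor : ¬ (Cfsg.inducedFunctor Cfsg.kInfLower (T : Subgroup H)).Normal ∨
      ¬ (Cfsg.inducedFunctor Cfsg.kInfUpper (T : Subgroup H)).Normal := by
    rcases hW with rfl | rfl
    · exact Or.inl hT
    · exact Or.inr hT
  obtain ⟨g, hg, hgQ, hgU, -⟩ := Cfsg.Agent.S1983.result T hor
  refine ⟨g, hg, hgQ, fun U V hUV hU => ?_⟩
  have key : ∀ k : ℕ, Cfsg.iterCommutator U (Subgroup.zpowers g) (4 + k) ≤ V := by
    intro k
    induction k with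
    | zero => exact hgU U V hUV hU
    | succ k ih =>
      have hVn := hUV.2.2.1
      change ⁅Cfsg.iterCommutator U (Subgroup.zpowers g) (4 + k), Subgroup.zpowers g⁆ ≤ V
      exact (Subgroup.commutator_mono ih le_rfl).trans (Subgroup.commutator_le_left V _)
  obtain ⟨k, hk⟩ : ∃ k, p - 1 = 4 + k := ⟨p - 5, by omega⟩
  rw [hk]
  exact key k

/-- Let p be a prime, G a finite group with Sylow p-subgroup S, and K the upper K-infinity subgroup of S. If p ≥ 5 then S ∩ G' = S ∩ (N_G(K))'; and if p is odd and every section of G is p-stable in the normalizer form, then K controls strong fusion in G. -/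
theorem result {G : Type u} [Group G] [Finite G] {p : ℕ} [Fact p.Prime] (S : Sylow p G) : (5 ≤ p → (S : Subgroup G) ⊓ commutator G = (S : Subgroup G) ⊓ ⁅Subgroup.normalizer ((Cfsg.inducedFunctor Cfsg.kInfUpper (S : Subgroup G) : Subgroup G) : Set G), Subgroup.normalizer ((Cfsg.inducedFunctor Cfsg.kInfUpper (S : Subgroup G) : Subgroup G) : Set G)⁆) ∧ (p ≠ 2 → (∀ (K R : Subgroup G) [hR : (R.subgroupOf K).Normal], Cfsg.IsNormalizerPStable p (↥K ⧸ R.subgroupOf K)) → Cfsg.ControlsStrongFusion p (Cfsg.inducedFunctor Cfsg.kInfUpper (S : Subgroup G))) := by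
  have hW : IsK @Cfsg.kInfUpper := Or.inr rfl
  refine ⟨fun hp5 => ?_, fun _ hst => K_controls hW hst S⟩
  have h1 := K_transfer hW hp5 G
  have h𝓦 : ∀ W' ∈ ({@Cfsg.kInfUpper} : Set (∀ (Q : Type u) [Group Q], Subgroup Q)),
      Cfsg.IsCharPFunctor.{u} p W' := by
    rintro W' rfl; exact K_char hW
  rw [CfsgLib.FusionH12c.famTransfer_iff' (CfsgLib.SecH12.indSet_isConj h𝓦 G)
    (CfsgLib.FusionH12.SylIn.ofSylow S)] at h1
  have h3 : CfsgLib.FusionH12c.focF (CfsgLib.SecH12.indSet {@Cfsg.kInfUpper} G) ⊤ (S : Subgroup G) =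
      (S : Subgroup G) ⊓ ⁅𝓝(Cfsg.inducedFunctor Cfsg.kInfUpper (S : Subgroup G)),
        𝓝(Cfsg.inducedFunctor Cfsg.kInfUpper (S : Subgroup G))⁆ := by
    unfold CfsgLib.FusionH12c.focF CfsgLib.SecH12.indSet
    simp only [iSup_image, iSup_singleton, top_inf_eq]
  rw [h3] at h1
  refine le_antisymm h1 ?_
  exact inf_le_inf le_rfl (Subgroup.commutator_mono le_top le_top)

end Cfsg.Agent.S1993
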