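import Cfsg.Statements.S1996
import Cfsg.Agent.LibFusionH12g

set_option autoImplicit false
universe u
open Cfsg

namespace Cfsg.Agent.S1996

/-- Let p be a prime, G a finite group and W₁, W₂ two isomorphism-invariant p-group functors (W assigns to every group Q a subgroup W(Q), nontrivial whenever Q is a nontrivial finite p-group, and every isomorphism from a finite p-group Q onto a group R carries W(Q) onto W(R)). Suppose that G* = N_{G*}(W₁(S*)) N_{G*}(W₂(S*)) whenever G* = K/R is a section of G with C_{G*}(O_p(G*)) ≤ O_p(G*) and S* is a Sylow p-subgroup of G*. Then the pair {W₁, W₂} controls strong fusion in G. -/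
theorem result {G : Type u} [Group G] [Finite G] {p : ℕ} [Fact p.Prime] (W₁ W₂ : ∀ (Q : Type u) [Group Q], Subgroup Q) (hW₁ : Cfsg.IsCharPFunctor.{u} p W₁) (hW₂ : Cfsg.IsCharPFunctor.{u} p W₂) (hfac : ∀ (K R : Subgroup G) [hR : (R.subgroupOf K).Normal], Subgroup.centralizer ((Cfsg.pCore p (↥K ⧸ R.subgroupOf K) : Subgroup (↥K ⧸ R.subgroupOf K)) : Set (↥K ⧸ R.subgroupOf K)) ≤ Cfsg.pCore p (↥K ⧸ R.subgroupOf K) → ∀ T : Sylow p (↥K ⧸ R.subgroupOf K), ∀ x : (↥K ⧸ R.subgroupOf K), ∃ a ∈ Subgroup.normalizer ((Cfsg.inducedFunctor (G := (↥K ⧸ R.subgroupOf K)) W₁ (T : Subgroup (↥K ⧸ R.subgroupOf K)) : Subgroup (↥K ⧸ R.subgroupOf K)) : Set (↥K ⧸ R.subgroupOf K)), ∃ b ∈ Subgroup.normalizer ((Cfsg.inducedFunctor (G := (↥K ⧸ R.subgroupOf K)) W₂ (T : Subgroup (↥K ⧸ R.subgroupOf K)) : Subgroup (↥K ⧸ R.subgroupOf K)) : Set (↥K ⧸ R.subgroupOf K)), x = a * b) : Cfsg.FamilyControlsStrongFusionIn p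 {Cfsg.inducedFunctor (G := G) W₁, Cfsg.inducedFunctor (G := G) W₂} ⊤ := by
  have h𝓦 : ∀ W ∈ ({W₁, W₂} : Set (∀ (Q : Type u) [Group Q], Subgroup Q)), IsCharPFunctor.{u} p W := by
    rintro W (rfl | rfl)
    · exact hW₁
    · exact hW₂
  have key := CfsgLib.FusionH12f.main_fusion h𝓦 _ G le_rfl
    (CfsgLib.FusionH12f.forall_sec'
      (fun H _ => Subgroup.centralizer ((pCore p H : Subgroup H) : Set H) ≤ pCore p H →
        FamilyControlsStrongFusionIn p (CfsgLib.SecH12.indSet {W₁, W₂} H) ⊤) ?_ ?_)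
  · unfold CfsgLib.SecH12.indSet at key
    rwa [Set.image_pair] at key
  · intro H H' _ _ _ _ e h hc
    exact CfsgLib.SecH12.famFusion_equiv h𝓦 e (h (CfsgLib.FusionH12f.charP_equiv e hc))
  · intro K R hR hc
    obtain ⟨T⟩ : Nonempty (Sylow p (↥K ⧸ R.subgroupOf K)) := inferInstance
    have hT := CfsgLib.FusionH12.SylIn.ofSylow T
    rw [CfsgLib.FusionH12c.famFusion_iff' (CfsgLib.SecH12.indSet_isConj h𝓦 _) hT]
    intro D g hD _ hgD
    obtain ⟨a, ha, b, hb, rfl⟩ := hfac K R hc T g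
    set N₁ := Subgroup.normalizer ((inducedFunctor (G := (↥K ⧸ R.subgroupOf K)) W₁
      (T : Subgroup (↥K ⧸ R.subgroupOf K)) : Subgroup (↥K ⧸ R.subgroupOf K)) :
        Set (↥K ⧸ R.subgroupOf K)) with hN₁
    set N₂ := Subgroup.normalizer ((inducedFunctor (G := (↥K ⧸ R.subgroupOf K)) W₂
      (T : Subgroup (↥K ⧸ R.subgroupOf K)) : Subgroup (↥K ⧸ R.subgroupOf K)) :
        Set (↥K ⧸ R.subgroupOf K)) with hN₂
    have hTN₁ : (T : Subgroup (↥K ⧸ R.subgroupOf K)) ≤ N₁ := Subgroup.le_normalizer.trans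
      (CfsgLib.FusionH12b.nrm_le_nrm_W (CfsgLib.SecH12.induced_isConj hW₁ _) T.2)
    have hTN₂ : (T : Subgroup (↥K ⧸ R.subgroupOf K)) ≤ N₂ := Subgroup.le_normalizer.trans
      (CfsgLib.FusionH12b.nrm_le_nrm_W (CfsgLib.SecH12.induced_isConj hW₂ _) T.2)
    have h1 : CfsgLib.FusionH12.cj b D ≤ N₂ := by
      refine (CfsgLib.FusionH12.cj_mono (hD.trans hTN₂)).trans ?_
      rw [CfsgLib.FusionH12.cj_of_mem hb]
    have h2 : CfsgLib.FusionH12.cj b D ≤ N₁ := by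
      rw [CfsgLib.FusionH12.cj_mul] at hgD
      rw [← CfsgLib.FusionH12.cj_inv_cj a (CfsgLib.FusionH12.cj b D)]
      refine (CfsgLib.FusionH12.cj_mono (hgD.trans hTN₁)).trans ?_
      rw [CfsgLib.FusionH12.cj_of_mem (inv_mem ha)]
    obtain ⟨m, hm, hm'⟩ := (hT.mono (le_inf hTN₁ hTN₂) le_top).exists_conj_le
      (CfsgLib.FusionH12.isPGroup_cj (T.2.to_le hD)) (le_inf h2 h1)
    rw [← CfsgLib.FusionH12.cj_mul] at hm'
    have e : a * m⁻¹ * (m * b) = a * b := by group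
    have h3 : CfsgLib.FusionH12c.FStep (T : Subgroup (↥K ⧸ R.subgroupOf K))
        (CfsgLib.FusionH12c.nset (CfsgLib.SecH12.indSet {W₁, W₂} (↥K ⧸ R.subgroupOf K)) ⊤ T) D (m * b) :=
      ⟨hD, hm', Or.inl ⟨_, ⟨_, ⟨W₂, Or.inr rfl, rfl⟩, rfl⟩, ⟨Subgroup.mem_top _, N₂.mul_mem hm.2 hb⟩⟩⟩
    have h4 : CfsgLib.FusionH12c.FStep (T : Subgroup (↥K ⧸ R.subgroupOf K))
        (CfsgLib.FusionH12c.nset (CfsgLib.SecH12.indSet {W₁, W₂} (↥K ⧸ R.subgroupOf K)) ⊤ T)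
        (CfsgLib.FusionH12.cj (m * b) D) (a * m⁻¹) :=
      ⟨hm', by rw [← CfsgLib.FusionH12.cj_mul, e]; exact hgD,
        Or.inl ⟨_, ⟨_, ⟨W₁, Or.inl rfl, rfl⟩, rfl⟩, ⟨Subgroup.mem_top _, N₁.mul_mem ha (N₁.inv_mem hm.1)⟩⟩⟩
    have := CfsgLib.FusionH12.Reach.cons h3 (CfsgLib.FusionH12.Reach.single h4)
    rwa [e] at this

end Cfsg.Agent.S1996
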