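import Cfsg.Statements.S2007
import Cfsg.Agent.LibNpc9

set_option autoImplicit false
open Cfsg

namespace Cfsg.Agent.S2007

open CfsgLib.BGPi CfsgLib.Fus9 CfsgLib.Npc9
open scoped CfsgLib.BGPi commutatorElement

/-- Let p be a prime, G a finite group with Sylow p-subgroup S, and T a normal subgroup of S containing C_S(T). If N_G(T)/C_G(T) is a p-group (every element of N_G(T) of order prime to p centralizes T), then N_G(T) has a normal p-complement. -/
theorem result {G : Type*} [Group G] [Finite G] {p : ℕ} [Fact p.Prime] (S : Sylow p G) (T : Subgroup G) (hTS : T ≤ (S : Subgroup G)) (hTn : (S : Subgroup G) ≤ Subgroup.normalizer ((T : Subgroup G) : Set G)) (hC : (S : Subgroup G) ⊓ Subgroup.centralizer ((T : Subgroup G) : Set G) ≤ T) (hN : ∀ g ∈ Subgroup.normalizer ((T : Subgroup G) : Set G), (orderOf g).Coprime p → g ∈ Subgroup.centralizer ((T : Subgroup G) : Set G)) : Cfsg.HasNormalPComplement p ↥(Subgroup.normalizer ((T : Subgroup G) : Set G)) := by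
  have hp : p.Prime := Fact.out
  set N := Subgroup.normalizer (T : Set G) with hNd
  set C := Subgroup.centralizer (T : Set G) with hCd
  have hCN : C ≤ N := cz_le_nz T
  -- C, as a subgroup of N
  set C' : Subgroup ↥N := C.subgroupOf N with hC'
  have hC'n : C'.Normal := normal_subgroupOf hCN (nz_le_nz_cz T)
  -- C' has p-power index
  have hidx : ∃ k, C'.index = p ^ k := by
    have h1 : IsPGroup p (↥N ⧸ C') := by
      rw [IsPGroup.iff_orderOf]
      intro q
      obtain ⟨x, rfl⟩ := QuotientGroup.mk_surjective q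
      -- write the order of x as p^a * m
      obtain ⟨a, m, hm, hxm⟩ := Nat.exists_eq_pow_mul_and_not_dvd (orderOf_pos x).ne' p hp.ne_one
      have h2 : (orderOf (x ^ p ^ a)).Coprime p := by
        rw [orderOf_pow, hxm, Nat.gcd_mul_right_left, Nat.mul_div_cancel_left _ (pow_pos hp.pos a)]
        exact ((Nat.Prime.coprime_iff_not_dvd hp).2 hm).symm
      have h3 : (x ^ p ^ a : ↥N) ∈ C' := by
        apply hN _ (x ^ p ^ a).2
        rwa [Subgroup.orderOf_coe]
      have h4 : (QuotientGroup.mk x : ↥N ⧸ C') ^ p ^ a = 1 := by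
        rw [← QuotientGroup.mk_pow, QuotientGroup.eq_one_iff]; exact h3
      obtain ⟨k, _, hk⟩ := (Nat.dvd_prime_pow hp).1 (orderOf_dvd_of_pow_eq_one h4)
      exact ⟨k, hk⟩
    obtain ⟨k, hk⟩ := IsPGroup.iff_card.1 h1
    exact ⟨k, hk⟩
  obtain ⟨k, hk⟩ := hidx
  refine hnpc_of_normal_index hC'n hk ?_
  -- C has a central Sylow p-subgroup
  have hSh : IsPiHallOf {p} ((S : Subgroup G) ⊓ C) C :=
    hall_inf_normal (sylow_hall S hTn) hCN (nz_le_nz_cz T)
  obtain ⟨Q, hQ⟩ := exists_sylow_of_hall hSh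
  have hcomm : HasNormalPComplement p ↥C := by
    refine hnpc_of_central Q ?_
    refine le_trans le_top ?_
    intro x _
    rw [Subgroup.mem_centralizer_iff]
    intro y hy
    have hy1 : (y : G) ∈ (S : Subgroup G) ⊓ C := by rw [← hQ]; exact ⟨y, hy, rfl⟩
    have hy2 : (y : G) ∈ T := hC hy1
    exact Subtype.ext (Subgroup.mem_centralizer_iff.1 x.2 _ hy2)
  exact (hnpc_equiv (Subgroup.subgroupOfEquivOfLe hCN)).2 hcomm

end Cfsg.Agent.S2007
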