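import Cfsg.Statements.S2008
import Mathlib

set_option autoImplicit false
open Cfsg

namespace Cfsg.Agent.S2008

/-- an involution acting without fixed points on a normal subgroup inverts it -/
theorem inverts {H : Type*} [Group H] [Finite H] {z : H} (hz : z * z = 1) (N : Subgroup H) [N.Normal]
    (h : N ⊓ Subgroup.centralizer ({z} : Set H) = ⊥) : ∀ x ∈ N, z * x * z⁻¹ = x⁻¹ := by
  let φ : ↥N →* ↥N := (MulAut.conjNormal z).toMonoidHom
  have hφ : MonoidHom.FixedPointFree φ := by
    intro x hx
    have h1 : z * (x : H) * z⁻¹ = x := by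
      have := congrArg Subtype.val hx
      simpa [φ, MulAut.conjNormal_apply] using this
    have h2 : (x : H) ∈ N ⊓ Subgroup.centralizer ({z} : Set H) := by
      refine Subgroup.mem_inf.2 ⟨x.2, ?_⟩
      rw [Subgroup.mem_centralizer_singleton_iff]
      calc (x : H) * z = (z * x * z⁻¹) * z := by rw [h1]
        _ = z * x := by group
    rw [h, Subgroup.mem_bot] at h2
    exact Subtype.ext h2
  have hinv : Function.Involutive φ := by
    intro x
    apply Subtype.ext
    have : z * (z * (x : H) * z⁻¹) * z⁻¹ = (z * z) * x * (z * z)⁻¹ := by group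
    simp only [φ, MulEquiv.coe_toMonoidHom, MulAut.conjNormal_apply]
    rw [this, hz]; group
  intro x hx
  have := congrFun (hφ.coe_eq_inv_of_involutive hinv) ⟨x, hx⟩
  have := congrArg Subtype.val this
  simpa [φ, MulAut.conjNormal_apply] using this

theorem core {H : Type*} [Group H] [Finite H] (z : H) (hz : orderOf z = 2) (hN : ∀ N : Subgroup H, N.Normal → N ≠ ⊤ → N ⊓ Subgroup.centralizer ({z} : Set H) = ⊥) (E : Subgroup H) (hE : IsKleinFour ↥E) (hc : ∀ e ∈ E, e ≠ 1 → IsConj z e) (N : Subgroup H) [hNn : N.Normal] (hNt : N ≠ ⊤) : N = ⊥ := by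
  have hcard : Nat.card E = 4 := hE.card_four
  have hexp : ∀ e ∈ E, e * e = 1 := by
    intro e he
    have := hE.exponent_two
    have h2 : (⟨e, he⟩ : E) ^ 2 = 1 := by
      rw [← this]; exact Monoid.pow_exponent_eq_one _
    have := congrArg Subtype.val h2
    simpa [pow_two] using this
  -- every involution of E acts without fixed points
  have hinv : ∀ e ∈ E, e ≠ 1 → ∀ x ∈ N, e * x * e⁻¹ = x⁻¹ := by
    intro e he he1
    obtain ⟨g, hg⟩ := isConj_iff.1 (hc e he he1)
    refine inverts (hexp e he) N ?_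
    rw [eq_bot_iff]
    intro x hx0
    obtain ⟨hxN, hxe⟩ := Subgroup.mem_inf.1 hx0
    rw [Subgroup.mem_centralizer_singleton_iff] at hxe
    have h1 : g⁻¹ * x * g ∈ N ⊓ Subgroup.centralizer ({z} : Set H) := by
      refine Subgroup.mem_inf.2 ⟨by simpa using hNn.conj_mem x hxN g⁻¹, ?_⟩
      rw [Subgroup.mem_centralizer_singleton_iff]
      have hze : z = g⁻¹ * e * g := by rw [← hg]; group
      rw [hze]
      calc g⁻¹ * x * g * (g⁻¹ * e * g) = g⁻¹ * (x * e) * g := by group
        _ = g⁻¹ * (e * x) * g := by rw [hxe]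
        _ = _ := by group
    rw [hN N inferInstance hNt, Subgroup.mem_bot] at h1
    rw [Subgroup.mem_bot]
    calc x = g * (g⁻¹ * x * g) * g⁻¹ := by group
      _ = 1 := by rw [h1]; group
  -- two distinct involutions
  obtain ⟨a, ha1⟩ : ∃ a : E, a ≠ 1 := by
    by_contra hcon
    push Not at hcon
    have : Subsingleton E := ⟨fun a b => (hcon a).trans (hcon b).symm⟩
    rw [Nat.card_of_subsingleton (1 : E)] at hcard
    omega
  obtain ⟨b, hb⟩ : ∃ b : E, b ≠ 1 ∧ b ≠ a := by
    classical
    by_contra hcon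
    push Not at hcon
    haveI : Fintype E := Fintype.ofFinite _
    have h1 : (Finset.univ : Finset E) ⊆ Insert.insert 1 (Singleton.singleton a) := by
      intro b _
      by_cases h : b = 1
      · simp [h]
      · simp [hcon b h]
    have h2 := Finset.card_le_card h1
    rw [Finset.card_univ, ← Nat.card_eq_fintype_card, hcard] at h2
    have h3 := Finset.card_le_two (a := (1 : E)) (b := a)
    omega
  have hab : (a : H) * b ≠ 1 := by
    intro h
    apply hb.2
    apply Subtype.ext
    have h1 := hexp a a.2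
    calc (b : H) = (a : H) * a * b := by rw [h1, one_mul]
      _ = a * (a * b) := by group
      _ = a := by rw [h, mul_one]
  have ha := hinv a a.2 (fun h => ha1 (Subtype.ext h))
  have hb' := hinv b b.2 (fun h => hb.1 (Subtype.ext h))
  have hab' := hinv (a * b) (E.mul_mem a.2 b.2) hab
  rw [eq_bot_iff]
  intro x hx
  have e1 := hab' x hx
  have e2 : (a : H) * (b : H) * x * ((a : H) * (b : H))⁻¹ = x := by
    calc (a : H) * (b : H) * x * ((a : H) * (b : H))⁻¹ = (a : H) * ((b : H) * x * (b : H)⁻¹) * (a : H)⁻¹ := by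
          simp only [mul_inv_rev, mul_assoc]
      _ = a * x⁻¹ * (a : H)⁻¹ := by rw [hb' x hx]
      _ = x⁻¹⁻¹ := ha x⁻¹ (N.inv_mem hx)
      _ = x := inv_inv x
  -- x = x⁻¹
  have e3 : x = x⁻¹ := e2.symm.trans e1
  -- so `a` fixes x
  have e4 : (a : H) * x * (a : H)⁻¹ = x := (ha x hx).trans e3.symm
  obtain ⟨g, hg⟩ := isConj_iff.1 (hc a a.2 (fun h => ha1 (Subtype.ext h)))
  have h1 : g⁻¹ * x * g ∈ N ⊓ Subgroup.centralizer ({z} : Set H) := by
    refine Subgroup.mem_inf.2 ⟨by simpa using hNn.conj_mem x hx g⁻¹, ?_⟩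
    rw [Subgroup.mem_centralizer_singleton_iff]
    have hze : z = g⁻¹ * a * g := by rw [← hg]; group
    rw [hze]
    calc g⁻¹ * x * g * (g⁻¹ * a * g) = g⁻¹ * (x * a) * g := by group
      _ = g⁻¹ * ((a * x * (a : H)⁻¹) * a) * g := by rw [e4]
      _ = _ := by group
  rw [hN N inferInstance hNt, Subgroup.mem_bot] at h1
  rw [Subgroup.mem_bot]
  calc x = g * (g⁻¹ * x * g) * g⁻¹ := by group
    _ = 1 := by rw [h1]; group

/-- Let H be a finite group and z an involution such that every proper normal subgroup of H meets the centralizer of z trivially, and suppose z lies in a Klein four-subgroup E of H all three of whose involutions are conjugate to z in H. Then H has no non-trivial abelian normal subgroup. -/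
theorem result {H : Type*} [Group H] [Finite H] (z : H) (hz : orderOf z = 2) (hN : ∀ N : Subgroup H, N.Normal → N ≠ ⊤ → N ⊓ Subgroup.centralizer ({z} : Set H) = ⊥) (E : Subgroup H) (hE : IsKleinFour ↥E) (hzE : z ∈ E) (hc : ∀ e ∈ E, e ≠ 1 → IsConj z e) (N : Subgroup H) [N.Normal] (hab : IsMulCommutative ↥N) : N = ⊥ := by
  by_cases hNt : N = ⊤
  · exfalso
    have hcomm : ∀ x y : H, x * y = y * x := by
      intro x y
      have hx : x ∈ N := by rw [hNt]; trivial
      have hy : y ∈ N := by rw [hNt]; trivial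
      exact congrArg Subtype.val (hab.is_comm.comm (⟨x, hx⟩ : N) ⟨y, hy⟩)
    have hz1 : ∀ e ∈ E, e ≠ 1 → e = z := by
      intro e he he1
      obtain ⟨g, hg⟩ := isConj_iff.1 (hc e he he1)
      rw [← hg, hcomm g z]; group
    have hcard : Nat.card E = 4 := hE.card_four
    haveI : Fintype E := Fintype.ofFinite _
    classical
    have h1 : (Finset.univ : Finset E) ⊆ Insert.insert 1 (Singleton.singleton ⟨z, hzE⟩) := by
      intro e _
      by_cases h : (e : H) = 1
      · simp [Subtype.ext_iff, h]
      · simp [Subtype.ext_iff, hz1 e e.2 h]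
    have h2 := Finset.card_le_card h1
    rw [Finset.card_univ, ← Nat.card_eq_fintype_card, hcard] at h2
    have h3 := Finset.card_le_two (a := (1 : E)) (b := ⟨z, hzE⟩)
    omega
  · exact core z hz hN E hE hc N hNt

end Cfsg.Agent.S2008
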