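import Cfsg.Statements.S2009
import Cfsg.Agent.S2008

set_option autoImplicit false
open Cfsg

namespace Cfsg.Agent.S2009

/-- Let H be a finite group and z an involution such that every proper normal subgroup of H meets the centralizer of z trivially, and suppose z lies in a Klein four-subgroup E of H all three of whose involutions are conjugate to z in H. Then H is simple. -/
theorem result {H : Type*} [Group H] [Finite H] (z : H) (hz : orderOf z = 2) (hN : ∀ N : Subgroup H, N.Normal → N ≠ ⊤ → N ⊓ Subgroup.centralizer ({z} : Set H) = ⊥) (E : Subgroup H) (hE : IsKleinFour ↥E) (hzE : z ∈ E) (hc : ∀ e ∈ E, e ≠ 1 → IsConj z e) : IsSimpleGroup H := by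
  haveI : Nontrivial H := ⟨⟨z, 1, fun h => by rw [h, orderOf_one] at hz; omega⟩⟩
  refine ⟨fun N hNn => ?_⟩
  by_cases h : N = ⊤
  · exact Or.inr h
  · exact Or.inl (Cfsg.Agent.S2008.core z hz hN E hE hc N h)

end Cfsg.Agent.S2009
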