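import Cfsg.Statements.S3963
import Cfsg.Agent.LibSchur4

set_option autoImplicit false
open Cfsg

namespace Cfsg.Agent.S3963

set_option linter.style.haveILetI false
set_option linter.unusedSectionVars false
set_option linter.unusedVariables false

open Subgroup CfsgLib.Schur
open scoped commutatorElement

/-- For every `n ≥ 1` the dicyclic (generalized quaternion) group of order `4 n` has trivial Schur multiplier. -/
theorem result (n : ℕ) [NeZero n] : Cfsg.HasCyclicSchurMultiplier (QuaternionGroup n) 1 := by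
  rw [hasCyclic_one_iff']
  intro Γ _ _ σ hσ
  have hz : ∀ z ∈ σ.ker, ∀ x, x * z = z * x := fun z hz x => mem_center_iff.mp (hσ.2.1 hz) x
  obtain ⟨x, hx⟩ := hσ.1 (QuaternionGroup.a 1)
  obtain ⟨y, hy⟩ := hσ.1 (QuaternionGroup.xa 0)
  have hgenQ : closure ({QuaternionGroup.a 1, QuaternionGroup.xa 0} : Set (QuaternionGroup n)) = ⊤ := by
    rw [eq_top_iff]
    have h1 : (QuaternionGroup.a 1 : QuaternionGroup n) ∈ closure ({QuaternionGroup.a 1, QuaternionGroup.xa 0} : Set (QuaternionGroup n)) :=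
      subset_closure (by simp)
    have h2 : (QuaternionGroup.xa 0 : QuaternionGroup n) ∈ closure ({QuaternionGroup.a 1, QuaternionGroup.xa 0} : Set (QuaternionGroup n)) :=
      subset_closure (by simp)
    haveI : NeZero (2 * n) := ⟨by have := NeZero.ne n; omega⟩
    have h3 : ∀ i : ZMod (2 * n), (QuaternionGroup.a i : QuaternionGroup n) ∈ closure ({QuaternionGroup.a 1, QuaternionGroup.xa 0} : Set (QuaternionGroup n)) := by
      intro i
      have : (QuaternionGroup.a i : QuaternionGroup n) = (QuaternionGroup.a 1) ^ i.val := by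
        rw [QuaternionGroup.a_one_pow, ZMod.natCast_zmod_val]
      rw [this]; exact pow_mem h1 _
    rintro (i | i) _
    · exact h3 i
    · have : (QuaternionGroup.xa i : QuaternionGroup n) = QuaternionGroup.xa 0 * QuaternionGroup.a i := by
        rw [QuaternionGroup.xa_mul_a, zero_add]
      rw [this]; exact mul_mem h2 (h3 i)
  have hgen : closure {x, y} = (⊤ : Subgroup Γ) := by
    apply closure_eq_top_of_stem σ hσ
    rw [Set.image_pair, hx, hy]; exact hgenQ
  have hn2 : (n : ZMod (2 * n)) + n = 0 := by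
    have := ZMod.natCast_self (2 * n)
    push_cast at this
    linear_combination this
  have ha : y * x * y⁻¹ * x ∈ σ.ker := by
    rw [MonoidHom.mem_ker, map_mul, map_mul, map_mul, map_inv, hx, hy, QuaternionGroup.one_def]
    have h1 : (QuaternionGroup.xa 0 * QuaternionGroup.a 1 : QuaternionGroup n) = QuaternionGroup.a (-1) * QuaternionGroup.xa 0 := by
      rw [QuaternionGroup.xa_mul_a, QuaternionGroup.a_mul_xa]
      congr 1
      ring
    rw [h1, mul_inv_cancel_right, QuaternionGroup.a_mul_a, neg_add_cancel]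
  have hn : y * x ^ n = x ^ n * y := by
    -- x ^ n = y ^ 2 b
    have h1 : (y ^ 2)⁻¹ * x ^ n ∈ σ.ker := by
      rw [MonoidHom.mem_ker, map_mul, map_inv, map_pow, map_pow, hx, hy, QuaternionGroup.a_one_pow, pow_two,
        QuaternionGroup.xa_mul_xa, sub_zero, add_zero, inv_mul_cancel]
    have h2 : x ^ n = y ^ 2 * ((y ^ 2)⁻¹ * x ^ n) := by group
    obtain ⟨b, hb⟩ : ∃ b, b = (y ^ 2)⁻¹ * x ^ n := ⟨_, rfl⟩
    rw [← hb] at h1 h2
    have h3 := hz b h1 y
    rw [h2]
    calc y * (y ^ 2 * b) = y ^ 2 * (y * b) := by group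
      _ = y ^ 2 * (b * y) := by rw [h3]
      _ = _ := by group
  obtain ⟨hcomm, hcn⟩ := dihedral_like σ.ker hσ.2.1 x y hgen ha n hn
  rw [eq_bot_iff]
  intro k hk
  obtain ⟨j, rfl⟩ := mem_zpowers_iff.mp (hcomm (hσ.2.2 hk))
  have h1 : σ ⁅x, y⁆ = QuaternionGroup.a 2 := by
    rw [map_commutatorElement, hx, hy, commutatorElement_def, mul_inv_eq_iff_eq_mul, mul_inv_eq_iff_eq_mul,
      QuaternionGroup.a_mul_xa, QuaternionGroup.a_mul_xa, QuaternionGroup.xa_mul_a]
    congr 1
    ring
  rw [MonoidHom.mem_ker, map_zpow, h1] at hk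
  have h2 : (QuaternionGroup.a 2 : QuaternionGroup n) = (QuaternionGroup.a 1) ^ (2 : ℤ) := by
    rw [zpow_ofNat, pow_two, QuaternionGroup.a_mul_a]; congr 1; norm_num
  rw [h2, ← zpow_mul] at hk
  have h3 := orderOf_dvd_iff_zpow_eq_one.mpr hk
  rw [QuaternionGroup.orderOf_a_one] at h3
  push_cast at h3
  have h4 : (n : ℤ) ∣ j := Int.dvd_of_mul_dvd_mul_left (by norm_num) h3
  obtain ⟨l, rfl⟩ := h4
  rw [mem_bot, zpow_mul, zpow_natCast, hcn, one_zpow]

end Cfsg.Agent.S3963
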