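import Cfsg.Statements.S2117
import Cfsg.Agent.LibMul2
import Cfsg.Agent.S3963
import Cfsg.Agent.S0261
import Cfsg.Agent.S0262

set_option autoImplicit false
open Cfsg

namespace Cfsg.Agent.S2117

/-- For a finite field with q elements, q ≠ 4 and q ≠ 9, the special linear group SL₂ has trivial Schur multiplier (here the Schur multiplier is described through stem extensions, as in the definitions). -/
theorem result {F : Type*} [Field F] [Fintype F] (h4 : Fintype.card F ≠ 4) (h9 : Fintype.card F ≠ 9) : Cfsg.HasCyclicSchurMultiplier (Matrix.SpecialLinearGroup (Fin 2) F) 1 := by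
  rw [CfsgLib.Schur.hasCyclic_one_iff']
  intro Γ _ _ σ hst
  obtain ⟨p, hchar⟩ := CharP.exists F
  obtain ⟨n, hp, hn⟩ := FiniteField.card F p
  haveI : Fact p.Prime := ⟨hp⟩
  apply CfsgLib.Mul.ker_eq_bot_of_local hst
  intro r _
  by_cases hrp : r = p
  · subst hrp
    obtain ⟨P, hP⟩ := CfsgLib.Mul.comm_bot_char (p := r) hst.1 hst.2.1 h4 h9
    refine ⟨P, fun a _ ha => ?_⟩
    rw [hP] at ha
    exact ha
  · obtain ⟨P⟩ : Nonempty (Sylow r Γ) := inferInstance
    refine ⟨P, ?_⟩
    by_cases hr2 : r = 2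
    · subst hr2
      have hodd : Odd (Fintype.card F) := by
        rw [hn]
        exact Odd.pow (hp.odd_of_ne_two (fun h => hrp h.symm))
      refine CfsgLib.Mul.inf_bot_of_multiplier hst.1 hst.2.1 P ?_
      intro R
      obtain ⟨k, hk, he⟩ := Cfsg.Agent.S0261.result hodd R
      haveI : NeZero (2 ^ k) := ⟨pow_ne_zero k two_ne_zero⟩
      exact ⟨QuaternionGroup (2 ^ k), inferInstance, inferInstance, Cfsg.Agent.S3963.result (2 ^ k), he⟩
    · intro a _ ha
      rw [CfsgLib.Mul.comm_bot_of_cyclic hst.2.1 P (fun R => Cfsg.Agent.S0262.result p r hr2 hrp R)] at ha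
      exact ha

end Cfsg.Agent.S2117
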