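import Cfsg.Statements.S2087
import Cfsg.Agent.LibMul3
import Cfsg.Agent.S2117
import Cfsg.Agent.S0255
import Cfsg.Agent.S0300
import Cfsg.Agent.LibH22Lin
import Mathlib.Algebra.Field.ULift

set_option autoImplicit false
open Cfsg

namespace Cfsg.Agent.S2087

universe u

theorem aux {K G : Type u} [Field K] [Fintype K] [Group G] (h4 : 4 < Fintype.card K) (h9 : Fintype.card K ≠ 9)
    (e : Matrix.ProjectiveSpecialLinearGroup (Fin 2) K ≃* G) :
    Cfsg.HasCyclicSchurMultiplier G (Nat.gcd 2 (Fintype.card K - 1)) := by
  classical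
  have hk : (e.toMonoidHom.comp (QuotientGroup.mk' (Subgroup.center (Matrix.SpecialLinearGroup (Fin 2) K)))).ker =
      Subgroup.center (Matrix.SpecialLinearGroup (Fin 2) K) := by
    ext x
    rw [MonoidHom.mem_ker]
    change e _ = 1 ↔ _
    rw [EmbeddingLike.map_eq_one_iff]
    exact QuotientGroup.eq_one_iff x
  refine CfsgLib.Mul.hasCyclic_of_cover (Cfsg.Agent.S0300.sl2_perfect h4.le)
    (e.toMonoidHom.comp (QuotientGroup.mk' (Subgroup.center (Matrix.SpecialLinearGroup (Fin 2) K))))
    (e.surjective.comp (QuotientGroup.mk'_surjective _)) hk.le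
    (Cfsg.Agent.S2117.result (by omega) h9) ?_ ?_
  · rw [hk]
    have hcard := Cfsg.Agent.H22.card_center_SL (F := K) 2 (by norm_num)
    rcases (Nat.dvd_prime Nat.prime_two).1 (Nat.gcd_dvd_left 2 (Fintype.card K - 1)) with h | h
    · rw [h] at hcard
      rw [Subgroup.card_eq_one] at hcard
      rw [hcard]
      infer_instance
    · rw [h] at hcard
      exact isCyclic_of_prime_card (p := 2) hcard
  · rw [hk]
    exact Cfsg.Agent.H22.card_center_SL 2 (by norm_num)

/-- Exceptional Schur multiplier: over the field with 2 elements, PSL₃ has Schur multiplier cyclic of order 2 (here the Schur multiplier is described through stem extensions, as in the definitions). -/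
theorem result {F : Type*} [Field F] [Fintype F] (hF : Fintype.card F = 2) : Cfsg.HasCyclicSchurMultiplier (Matrix.ProjectiveSpecialLinearGroup (Fin 3) F) 2 := by
  obtain ⟨e⟩ := Cfsg.Agent.S0255.result (F := ULift (ZMod 7)) (K := F) (by simp) hF
  have := aux (K := ULift (ZMod 7)) (by simp) (by simp) e
  simpa using this

end Cfsg.Agent.S2087
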