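import Cfsg.Statements.S2086
import Cfsg.Agent.LibSLn9
import Cfsg.Agent.LibMul3
import Cfsg.Agent.S2087
import Cfsg.Agent.LibH22Lin

set_option autoImplicit false
open Cfsg

namespace Cfsg.Agent.S2086

/-- `SL_n(q)` has trivial multiplier -/
theorem sl_trivial {F : Type*} [Field F] [Fintype F] {n : ℕ} (h : CfsgLib.SLn.Cond n F) :
    Cfsg.HasCyclicSchurMultiplier (Matrix.SpecialLinearGroup (Fin n) F) 1 := by
  rw [CfsgLib.Schur.hasCyclic_one_iff']
  intro Γ _ _ σ hst
  exact CfsgLib.SLn.ker_bot h hst

theorem units_pow {F : Type*} [Field F] [Fintype F] (k : ℕ) (hk : 0 < k) (h : k < Fintype.card F - 1) :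
    ∃ r : Fˣ, r ^ k ≠ 1 := by
  classical
  obtain ⟨ζ, hζ⟩ := IsCyclic.exists_generator (α := Fˣ)
  refine ⟨ζ, fun h1 => ?_⟩
  have h2 : orderOf ζ = Fintype.card F - 1 := by
    rw [orderOf_eq_card_of_forall_mem_zpowers hζ, Nat.card_eq_fintype_card, Fintype.card_units]
  have h3 := Nat.le_of_dvd hk (orderOf_dvd_of_pow_eq_one h1)
  omega

theorem units_two {F : Type*} [Field F] [Fintype F] (h : Fintype.card F = 3) : ∃ r : Fˣ, r ^ 3 ≠ 1 := by
  classical
  obtain ⟨ζ, hζ⟩ := IsCyclic.exists_generator (α := Fˣ)
  refine ⟨ζ, fun h1 => ?_⟩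
  have h2 : orderOf ζ = 2 := by
    rw [orderOf_eq_card_of_forall_mem_zpowers hζ, Nat.card_eq_fintype_card, Fintype.card_units, h]
  have h3 := orderOf_dvd_of_pow_eq_one h1
  rw [h2] at h3
  omega

/-- Schur multipliers of the linear groups: for n ≥ 2 and a field F with q elements (q ≥ 4 when n = 2), apart from the five exceptional pairs (n, q) = (2, 4), (2, 9), (3, 2), (3, 4), (4, 2), the Schur multiplier of PSL_n(F) is cyclic of order gcd(n, q − 1); here the Schur multiplier is described through stem extensions, as in the definitions. -/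
theorem result {F : Type*} [Field F] [Fintype F] {q : ℕ} (hF : Fintype.card F = q) (n : ℕ) (hn : 2 ≤ n) (h2 : n = 2 → 4 ≤ q) (hexc : (n, q) ∉ ({(2, 4), (2, 9), (3, 2), (3, 4), (4, 2)} : Set (ℕ × ℕ))) : Cfsg.HasCyclicSchurMultiplier (Matrix.ProjectiveSpecialLinearGroup (Fin n) F) (Nat.gcd n (q - 1)) := by
  subst hF
  have hcard : 1 < Fintype.card F := Fintype.one_lt_card
  have e2 : n = 2 → Fintype.card F ≠ 4 ∧ Fintype.card F ≠ 9 := by
    rintro rfl
    constructor
    · intro h; apply hexc; rw [h]; simp
    · intro h; apply hexc; rw [h]; simp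
  by_cases hn2 : n = 2
  · subst hn2
    have h4 := h2 rfl
    obtain ⟨h5, h6⟩ := e2 rfl
    exact Cfsg.Agent.S2087.aux (by omega) h6 (MulEquiv.refl _)
  have hcond : CfsgLib.SLn.Cond n F := by
    by_cases h3 : n = 3
    · left
      refine ⟨h3, ?_⟩
      have c1 : Fintype.card F ≠ 2 := by intro h; apply hexc; rw [h, h3]; simp
      have c2 : Fintype.card F ≠ 4 := by intro h; apply hexc; rw [h, h3]; simp
      by_cases c3 : Fintype.card F = 3
      · exact units_two c3
      · exact units_pow 3 (by norm_num) (by omega)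
    · by_cases h4 : n = 4
      · right; left
        refine ⟨h4, ?_⟩
        have c1 : Fintype.card F ≠ 2 := by intro h; apply hexc; rw [h, h4]; simp
        by_cases c3 : Fintype.card F = 3
        · left
          intro h20
          obtain ⟨p, hp⟩ := CharP.exists F
          have hp2 : p = 2 := by
            have h5 : ((2 : ℕ) : F) = 0 := by exact_mod_cast h20
            have hp' : p.Prime := CharP.char_is_prime F p
            rw [CharP.cast_eq_zero_iff F p] at h5
            exact (Nat.prime_dvd_prime_iff_eq hp' Nat.prime_two).1 h5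
          subst hp2
          obtain ⟨m, -, hm⟩ := FiniteField.card F 2
          rw [c3] at hm
          have : (2 : ℕ) ∣ 3 := by
            rw [hm]
            exact dvd_pow_self 2 m.ne_zero
          omega
        · right
          exact units_pow 2 (by norm_num) (by omega)
      · right; right; omega
  have hn : 1 ≤ n := by omega
  classical
  haveI : NeZero n := ⟨by omega⟩
  haveI : Nonempty (Fin n) := ⟨⟨0, hn⟩⟩
  have hker : (QuotientGroup.mk' (Subgroup.center (Matrix.SpecialLinearGroup (Fin n) F))).ker =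
      Subgroup.center (Matrix.SpecialLinearGroup (Fin n) F) := QuotientGroup.ker_mk' _
  refine CfsgLib.Mul.hasCyclic_of_cover (X := Matrix.SpecialLinearGroup (Fin n) F)
    (Cfsg.Agent.H22.SLn_perfect (by rw [Fintype.card_fin]; omega))
    (QuotientGroup.mk' (Subgroup.center (Matrix.SpecialLinearGroup (Fin n) F)))
    (QuotientGroup.mk'_surjective _) hker.le (sl_trivial hcond) ?_ ?_
  · rw [hker]
    exact isCyclic_of_surjective _ (Matrix.SpecialLinearGroup.center_equiv_rootsOfUnity (n := Fin n) (R := F)).symm.surjective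
  · rw [hker]
    exact Cfsg.Agent.H22.card_center_SL n hn

end Cfsg.Agent.S2086
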