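import Cfsg.Statements.S2092
import Cfsg.Agent.LibSpCov9
import Cfsg.Agent.LibMul3
import Cfsg.Agent.LibH22Sp4

set_option autoImplicit false
open Cfsg

namespace Cfsg.Agent.S2092

/-- the standard symplectic setting -/
noncomputable def sy (m : ℕ) (F : Type*) [Field F] :
    CfsgLib.SyM.Sy F (Fin m ⊕ Fin m → F) (Matrix.symplecticGroup (Fin m) F) where
  f := Cfsg.Agent.H22.spB m F
  alt := Cfsg.Agent.H22.spB_isAlt
  nd := by
    intro v h
    by_contra hv
    obtain ⟨w, hw⟩ := Cfsg.Agent.H22.exists_not_ortho v hv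
    exact hw (h w)
  ρ := { toFun := fun A => ((Cfsg.Agent.H22.spToLin A : (Fin m ⊕ Fin m → F) ≃ₗ[F] _) : (Fin m ⊕ Fin m → F) →ₗ[F] _)
         map_one' := by rw [map_one]; rfl
         map_mul' := fun A B => by rw [map_mul]; rfl }
  inj := by
    intro A B h
    apply Cfsg.Agent.H22.spToLin_injective
    ext1 v
    exact LinearMap.congr_fun h v
  inv := fun g x y => Cfsg.Agent.H22.spToLin_isometry g x y
  t := fun v a => Cfsg.Agent.H22.spT v a
  ht := by
    intro v a w
    change Cfsg.Agent.H22.spToLin (Cfsg.Agent.H22.spT v a) w = _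
    rw [Cfsg.Agent.H22.spToLin_apply, Cfsg.Agent.H22.coe_spT, Cfsg.Agent.H22.sympTransvection_mulVec]

theorem adm {F : Type*} [Field F] [Fintype F] {m : ℕ} (hm : 2 ≤ m) (h2 : m = 2 → 3 ≤ Fintype.card F)
    (hexc : ¬ (m = 3 ∧ Fintype.card F = 2)) : CfsgLib.SyM.Adm F (Fin m ⊕ Fin m → F) := by
  classical
  have h1 : 1 < Fintype.card F := Fintype.one_lt_card
  by_cases h4 : 4 ≤ Fintype.card F
  · left
    obtain ⟨ζ, hζ⟩ := IsCyclic.exists_generator (α := Fˣ)
    have e2 : orderOf ζ = Fintype.card F - 1 := by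
      rw [orderOf_eq_card_of_forall_mem_zpowers hζ, Nat.card_eq_fintype_card, Fintype.card_units]
    refine ⟨ζ, ζ.ne_zero, fun h => ?_⟩
    have h5 : ζ ^ 2 = 1 := by
      apply Units.ext
      push_cast
      exact h
    have h3 := Nat.le_of_dvd two_pos (orderOf_dvd_of_pow_eq_one h5)
    omega
  · have hc0 : ((Fintype.card F : ℕ) : F) = 0 := FiniteField.cast_card_eq_zero F
    by_cases h3 : Fintype.card F = 3
    · right; left
      rw [h3] at hc0
      constructor
      · intro h
        apply one_ne_zero (α := F)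
        push_cast at hc0
        linear_combination hc0 - h
      · intro c
        have h5 := FiniteField.pow_card c
        rw [h3] at h5
        have h6 : c * ((c - 1) * (c + 1)) = 0 := by linear_combination h5
        rcases mul_eq_zero.1 h6 with h | h
        · exact Or.inl h
        · rcases mul_eq_zero.1 h with h | h
          · exact Or.inr (Or.inl (sub_eq_zero.1 h))
          · exact Or.inr (Or.inr (eq_neg_of_add_eq_zero_left h))
    · right; right
      have h2' : Fintype.card F = 2 := by omega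
      rw [h2'] at hc0
      refine ⟨by exact_mod_cast hc0, ?_, ?_⟩
      · intro c
        have h5 := FiniteField.pow_card c
        rw [h2'] at h5
        have h6 : c * (c - 1) = 0 := by linear_combination h5
        rcases mul_eq_zero.1 h6 with h | h
        · exact Or.inl h
        · exact Or.inr (sub_eq_zero.1 h)
      · rw [Module.finrank_fintype_fun_eq_card, Fintype.card_sum, Fintype.card_fin]
        have : m ≠ 2 := fun h => by have := h2 h; omega
        have : m ≠ 3 := fun h => hexc ⟨h, h2'⟩
        omega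

theorem sp_trivial {F : Type*} [Field F] [Fintype F] {m : ℕ} (hm : 2 ≤ m) (h2 : m = 2 → 3 ≤ Fintype.card F)
    (hexc : ¬ (m = 3 ∧ Fintype.card F = 2)) : Cfsg.HasCyclicSchurMultiplier (Matrix.symplecticGroup (Fin m) F) 1 := by
  have hp : commutator (Matrix.symplecticGroup (Fin m) F) = ⊤ := Cfsg.Agent.H22.sp_perfect (by
    by_cases h : m = 2
    · exact Or.inr (Or.inl ⟨h, h2 h⟩)
    · left; omega)
  rw [CfsgLib.Schur.hasCyclic_one_iff']
  intro Γ _ _ σ hst
  obtain ⟨hσ, hc, hcm⟩ := hst
  have hΓ : commutator Γ = ⊤ := by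
    rw [eq_top_iff]
    intro x _
    have h1 : (commutator Γ).map σ = ⊤ := by
      rw [commutator_def, Subgroup.map_commutator, ← MonoidHom.range_eq_map, MonoidHom.range_eq_top.2 hσ]
      exact hp
    have h3 : σ x ∈ (commutator Γ).map σ := by rw [h1]; exact Subgroup.mem_top _
    obtain ⟨y, hy, hyx⟩ := h3
    have h4 : y⁻¹ * x ∈ commutator Γ := hcm (by rw [MonoidHom.mem_ker, map_mul, map_inv, hyx, inv_mul_cancel])
    have := mul_mem hy h4
    rwa [mul_inv_cancel_left] at this
  refine CfsgLib.SyM.sp_ker_bot (sy m F) hσ hc hΓ ?_ (adm hm h2 hexc)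
  rw [Module.finrank_fintype_fun_eq_card, Fintype.card_sum, Fintype.card_fin]
  omega

/-- Schur multipliers of the symplectic groups: for m ≥ 2 and a field F with q elements (q ≥ 3 when m = 2), with (m, q) ≠ (3, 2), the Schur multiplier of PSp_2m(F) is cyclic of order gcd(2, q − 1); here the Schur multiplier is described through stem extensions, as in the definitions. -/
theorem result {F : Type*} [Field F] [Fintype F] {q : ℕ} (hF : Fintype.card F = q) (m : ℕ) (hm : 2 ≤ m) (h2 : m = 2 → 3 ≤ q) (hexc : ¬ (m = 3 ∧ q = 2)) : Cfsg.HasCyclicSchurMultiplier (Cfsg.PSp m F) (Nat.gcd 2 (q - 1)) := by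
  subst hF
  haveI : NeZero m := ⟨by omega⟩
  classical
  have hp : commutator (Matrix.symplecticGroup (Fin m) F) = ⊤ := Cfsg.Agent.H22.sp_perfect (by
    by_cases h : m = 2
    · exact Or.inr (Or.inl ⟨h, h2 h⟩)
    · left; omega)
  have hker : (QuotientGroup.mk' (Subgroup.center (Matrix.symplecticGroup (Fin m) F))).ker =
      Subgroup.center (Matrix.symplecticGroup (Fin m) F) := QuotientGroup.ker_mk' _
  have hcard := Cfsg.Agent.H22.card_center_sp (F := F) (m := m) (by omega)
  refine CfsgLib.Mul.hasCyclic_of_cover (X := Matrix.symplecticGroup (Fin m) F) hp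
    (QuotientGroup.mk' (Subgroup.center (Matrix.symplecticGroup (Fin m) F)))
    (QuotientGroup.mk'_surjective _) hker.le (sp_trivial hm h2 hexc) ?_ ?_
  · rw [hker]
    have h3 : Nat.gcd 2 (Fintype.card F - 1) = 1 ∨ Nat.gcd 2 (Fintype.card F - 1) = 2 :=
      (Nat.dvd_prime Nat.prime_two).1 (Nat.gcd_dvd_left 2 _)
    rcases h3 with h3 | h3
    · rw [h3] at hcard
      haveI := (Nat.card_eq_one_iff_unique.1 hcard).1
      exact isCyclic_of_subsingleton
    · rw [h3] at hcard
      haveI : Fact (Nat.Prime 2) := ⟨Nat.prime_two⟩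
      exact isCyclic_of_prime_card hcard
  · rw [hker]
    exact hcard

end Cfsg.Agent.S2092
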