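import Cfsg.Statements.S2103
import Cfsg.Agent.S2397
import Cfsg.Agent.LibSM9

set_option autoImplicit false
open Cfsg

namespace Cfsg.Agent.S2103

/-- Schur multipliers of the Chevalley groups of type F₄: over a finite field with more than 2 elements the Schur multiplier of F₄(q) is trivial (here the Schur multiplier is described through stem extensions, as in the definitions); q = 2 is exceptional. -/
theorem result {F : Type*} [Field F] [Fintype F] (hF : 3 ≤ Fintype.card F) : Cfsg.HasCyclicSchurMultiplier ↥(Cfsg.Lie.chevF4.group F) 1 := by
  classical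
  have h2 : 2 < (Finset.univ : Finset F).card := by rw [Finset.card_univ]; omega
  obtain ⟨x, -, hx⟩ := Finset.exists_mem_notMem_of_card_lt_card (s := {0, 1}) (t := Finset.univ)
    (lt_of_le_of_lt Finset.card_le_two h2)
  simp only [Finset.mem_insert, Finset.mem_singleton, not_or] at hx
  exact CfsgLib.Chev.mult_F4 (Cfsg.Agent.S2397.result _ (by simp) (fun _ => ⟨x, hx.1, hx.2⟩)) (c := Units.mk0 x hx.1)
    (fun h => hx.2 (congrArg Units.val h))

end Cfsg.Agent.S2103
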