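import Cfsg.Statements.S2111
import Cfsg.Agent.LibSuzM3
import Cfsg.Agent.S0331

set_option autoImplicit false
open Cfsg

namespace Cfsg.Agent.S2111




/-- Schur multipliers of the Suzuki groups: for q = 2^(2m+1) with m ≥ 2 the Schur multiplier of Sz(q) is trivial (here the Schur multiplier is described through stem extensions, as in the definitions); q = 8 is exceptional. -/
theorem result {F : Type*} [Field F] [Fintype F] {m : ℕ} (hm : 2 ≤ m) (hF : Fintype.card F = 2 ^ (2 * m + 1)) : Cfsg.HasCyclicSchurMultiplier ↥(Cfsg.Lie.Sz F (2 ^ (m + 1))) 1 := by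
  have hm1 : 1 ≤ m := by omega
  let D := Cfsg.Agent.Suz.data hm1 hF
  let ε := Cfsg.Agent.Suz.lieIso hm1 hF
  rw [CfsgLib.Schur.hasCyclic_one_iff']
  intro Γ _ _ σ hst
  let τ : Γ →* Cfsg.Sz F m := ε.toMonoidHom.comp σ
  have hker : τ.ker = σ.ker := by
    ext x
    rw [MonoidHom.mem_ker, MonoidHom.mem_ker]
    exact ε.map_eq_one_iff
  have hτ : Cfsg.IsStemExtension τ := by
    refine ⟨ε.surjective.comp hst.1, ?_, ?_⟩
    · rw [hker]; exact hst.2.1
    · rw [hker]; exact hst.2.2
  rw [← hker]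
  exact CfsgLib.SuzM.ker_eq_bot D hm hτ (fun p _ hp P => Cfsg.Agent.S0331.result hm1 hF hp P)

end Cfsg.Agent.S2111
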