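import Cfsg.Agent.LibAutAn27
-- Template for statement S2119 (row 2119; see /opt/grader/pristine/manifest.json for weights).
-- Copy to Cfsg/Agent/S2119.lean and replace the sorry. The statement below is byte-identical to the frozen
-- statement Cfsg.CfsgFrozen.S2119 (Cfsg/Statements/S2119.lean; the theorem Cfsg.kfact_aut_alternating_eq_symmetric);
-- the grader kernel-checks Cfsg.Agent.S2119.result against that frozen type. Keep the theorem IN THIS FILE
-- (a `result` declared elsewhere and merely imported here is not credited); helpers may live anywhere
-- under Cfsg/Agent/.
import Cfsg.Statements.S2119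
-- import your own Cfsg.Agent.* helpers here

set_option autoImplicit false
open Cfsg

namespace Cfsg.Agent.S2119

open CfsgLib.AutAn27


/-- Automorphisms of the alternating groups: for n ≥ 4 with n ≠ 6, every automorphism of the alternating group of degree n is conjugation by a unique permutation, i.e. conjugation induces an isomorphism from the symmetric group of degree n onto the automorphism group of the alternating group (so the outer automorphism group has order 2). -/
theorem result (n : ℕ) (hn : 4 ≤ n) (h6 : n ≠ 6) : Function.Bijective (MulAut.conjNormal : Equiv.Perm (Fin n) →* MulAut ↥(alternatingGroup (Fin n))) := by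
  refine ⟨conjNormal_inj hn, fun α => ?_⟩
  haveI : Nontrivial (Fin n) := Fin.nontrivial_iff_two_le.2 (by omega)
  obtain ⟨σ, hσ⟩ := induced (X := Fin n) (o := ⟨0, by omega⟩) (u := ⟨1, by omega⟩) (v := ⟨2, by omega⟩) (w := ⟨3, by omega⟩)
    (by simp) (by simp) (by simp) (by simp) (by simp) (by simp) α (preserve (by rw [Fintype.card_fin]; exact h6) α)
  exact ⟨σ, hσ.symm⟩

end Cfsg.Agent.S2119
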