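import Cfsg.Statements.S2126
import Mathlib
import Cfsg.Agent.LibSuz12
import Cfsg.Agent.LibSuz13
import Cfsg.Agent.LibSuz10
import Cfsg.Agent.LibIrrH13
-- import your own Cfsg.Agent.* helpers here

set_option autoImplicit false
open Cfsg

namespace Cfsg.Agent.S2126

open Cfsg.Agent.Suz Cfsg.Agent.Suz13
open MulAction
open scoped Pointwise
open CfsgLib.TIConj

theorem out_congr {G H : Type*} [Group G] [Group H] (e : G ≃* H) :
    (MulAut.conj : G →* MulAut G).range.index = (MulAut.conj : H →* MulAut H).range.index := by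
  have h1 : ((MulAut.conj : G →* MulAut G).range).map (MulAut.congr e).toMonoidHom = (MulAut.conj : H →* MulAut H).range := by
    ext x
    constructor
    · rintro ⟨_, ⟨g, rfl⟩, rfl⟩
      refine ⟨e g, ?_⟩
      ext y
      change e g * y * (e g)⁻¹ = e (g * e.symm y * g⁻¹)
      rw [map_mul, map_mul, map_inv, e.apply_symm_apply]
    · rintro ⟨h, rfl⟩
      refine ⟨MulAut.conj (e.symm h), ⟨_, rfl⟩, ?_⟩
      ext y
      change e (e.symm h * e.symm y * (e.symm h)⁻¹) = h * y * h⁻¹
      rw [map_mul, map_mul, map_inv, e.apply_symm_apply, e.apply_symm_apply]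
  rw [← h1]
  exact (Subgroup.index_map_equiv _ (MulAut.congr e)).symm

variable {F : Type*} [Field F] [Fintype F] {O : Set (Projectivization F (Fin 4 → F))} {m : ℕ}

/-- field automorphisms -/
noncomputable def fa (D : Data F O m) (ψ : F ≃+* F) : MulAut (Gp O) :=
  MulEquiv.ofBijective (Phi D D (ψ : F →+* F) (comm_S D D (dvd_refl _) _))
    (Finite.injective_iff_bijective.mp (Phi_inj D D _ _))

theorem fa_u (D : Data F O m) (ψ : F ≃+* F) (a b : F) : fa D ψ (D.u a b) = D.u (ψ a) (ψ b) :=
  Phi_u D D (ψ : F →+* F) (comm_S D D (dvd_refl _) _) a b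
theorem fa_h (D : Data F O m) (ψ : F ≃+* F) (t : Fˣ) :
    fa D ψ (D.h t) = D.h (Units.map ((ψ : F →+* F) : F →* F) t) :=
  Phi_h D D (ψ : F →+* F) (comm_S D D (dvd_refl _) _) t
theorem fa_w (D : Data F O m) (ψ : F ≃+* F) : fa D ψ D.w = D.w :=
  Phi_w D D (ψ : F →+* F) (comm_S D D (dvd_refl _) _)

theorem aut_index (D : Data F O m) : (MulAut.conj : Gp O →* MulAut (Gp O)).range.index = 2 * m + 1 := by
  have h2f : Fact (Nat.Prime 2) := ⟨Nat.prime_two⟩
  have hc : Nat.card (F ≃+* F) = 2 * m + 1 :=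
    (CfsgLib.IrrH13.ringEquiv_card 2 (2 * m + 1) F (by rw [Nat.card_eq_fintype_card, D.hF])).2
  rw [← hc]
  symm
  apply Nat.card_congr
  refine Equiv.ofBijective (fun ψ => (QuotientGroup.mk (fa D ψ) : MulAut (Gp O) ⧸ (MulAut.conj : Gp O →* MulAut (Gp O)).range)) ⟨?_, ?_⟩
  · intro ψ ψ' h
    rw [QuotientGroup.eq] at h
    obtain ⟨g, hg⟩ := h
    have h1 : ∀ x, fa D ψ' x = fa D ψ g * fa D ψ x * (fa D ψ g)⁻¹ := by
      intro x
      have h2 : (fa D ψ)⁻¹ * fa D ψ' = MulAut.conj g := hg.symm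
      have h3 : fa D ψ' = fa D ψ * MulAut.conj g := by rw [← h2]; group
      rw [h3]
      change fa D ψ (g * x * g⁻¹) = _
      rw [map_mul, map_mul, map_inv]
    set y := fa D ψ g with hy
    -- `y` normalises `U`
    have h3 : y • inf F = inf F := by
      have h4 : fa D ψ' (D.u 1 0) = D.u 1 0 := by rw [fa_u, map_one, map_zero]
      have h5 : fa D ψ (D.u 1 0) = D.u 1 0 := by rw [fa_u, map_one, map_zero]
      have h6 := h1 (D.u 1 0)
      rw [h4, h5] at h6
      have h7 : D.u 1 0 • (y • inf F) = y • inf F := by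
        have e : D.u 1 0 * y = y * D.u 1 0 := by
          nth_rewrite 1 [h6]
          group
        rw [← mul_smul, e, mul_smul, D.u_inf]
      rcases (D.hO _).mp (D.smul_mem y D.inf_mem) with h | ⟨p, q, h⟩
      · exact h
      · exfalso
        rw [h] at h7
        exact one_ne_zero (D.u_fix h7).1
    have hwc : D.w * y = y * D.w := by
      have h6 := h1 D.w
      rw [fa_w, fa_w] at h6
      nth_rewrite 1 [h6]
      group
    have h4 : y • pt D.S 0 0 = pt D.S 0 0 := by
      rw [← D.w_inf, ← mul_smul, ← hwc, mul_smul, h3]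
    obtain ⟨t, ht⟩ := D.gtorus y h3 h4
    have ht1 : t = 1 := by
      rw [ht, D.wh] at hwc
      have h5 := D.h_inj (mul_right_cancel hwc)
      by_contra hne
      apply D.sq_ne_one hne
      rw [pow_two]
      nth_rewrite 2 [← h5]
      exact mul_inv_cancel t
    rw [ht1, D.h_one] at ht
    apply RingEquiv.ext
    intro b
    have h5 := h1 (D.u 0 b)
    rw [fa_u, fa_u, ht, one_mul, inv_one, mul_one] at h5
    exact (D.u_inj h5).2.symm
  · intro x
    induction x using QuotientGroup.induction_on with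
    | H α =>
      obtain ⟨g, ψ, h1, h2⟩ := normalise D D α.toMonoidHom α.injective
      have hbij : Function.Bijective ψ := Finite.injective_iff_bijective.mp ψ.injective
      let ψ' : F ≃+* F := RingEquiv.ofBijective ψ hbij
      refine ⟨ψ', ?_⟩
      change (QuotientGroup.mk (fa D ψ') : MulAut (Gp O) ⧸ (MulAut.conj : Gp O →* MulAut (Gp O)).range) = QuotientGroup.mk α
      symm
      rw [QuotientGroup.eq]
      refine ⟨α.symm g, ?_⟩
      have h3 : (MulAut.conj g * α : MulAut (Gp O)).toMonoidHom = (fa D ψ').toMonoidHom := by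
        apply hom_ext D
        · intro b
          change g * α (D.u 0 b) * g⁻¹ = fa D ψ' (D.u 0 b)
          rw [fa_u, map_zero]
          exact h1 b
        · change g * α D.w * g⁻¹ = fa D ψ' D.w
          rw [fa_w]
          exact h2
      have h4 : MulAut.conj g * α = fa D ψ' := MulEquiv.toMonoidHom_injective h3
      rw [← h4]
      ext x
      change ((α.symm g * x * (α.symm g)⁻¹ : Gp O) : Matrix.SpecialLinearGroup (Fin 4) F) _ _ = ((α.symm (g * α x * g⁻¹) : Gp O) : Matrix.SpecialLinearGroup (Fin 4) F) _ _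
      rw [map_mul, map_mul, map_inv, α.symm_apply_apply]

/-- Outer automorphisms of the Suzuki groups: for q = 2^(2m+1) with m ≥ 1 the outer automorphism group of Sz(q) has order 2m + 1 (field automorphisms only). -/
theorem result {F : Type*} [Field F] [Fintype F] {m : ℕ} (hm : 1 ≤ m) (hF : Fintype.card F = 2 ^ (2 * m + 1)) : Nat.card (Cfsg.Out ↥(Cfsg.Lie.Sz F (2 ^ (m + 1)))) = 2 * m + 1 := by
  change (MulAut.conj : Cfsg.Lie.Sz F (2 ^ (m + 1)) →* MulAut (Cfsg.Lie.Sz F (2 ^ (m + 1)))).range.index = 2 * m + 1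
  rw [out_congr (lieIso hm hF)]
  exact aut_index (Cfsg.Agent.Suz.data hm hF)

end Cfsg.Agent.S2126
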