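import Cfsg.Statements.S2140
import Cfsg.Agent.LibMinIdx5H13

set_option autoImplicit false
open Cfsg

namespace Cfsg.Agent.S2140

open MulAction Matrix CfsgLib.MinIdx
open scoped LinearAlgebra.Projectivization

theorem lower {F : Type*} [Field F] [Fintype F] (n : ℕ) (hn : 3 ≤ n) (hexc : ¬ (n = 4 ∧ Fintype.card F = 2))
    (H : Subgroup (Matrix.SpecialLinearGroup (Fin n) F)) (hH : H ≠ ⊤) :
    (Fintype.card F ^ n - 1) / (Fintype.card F - 1) ≤ H.index := by
  have h1 : 1 < Nat.card (Matrix.SpecialLinearGroup (Fin n) F ⧸ H) := by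
    have h2 : H.index ≠ 1 := fun h => hH (Subgroup.index_eq_one.1 h)
    have h3 : H.index ≠ 0 := Subgroup.index_ne_zero_of_finite
    have h4 : Nat.card (Matrix.SpecialLinearGroup (Fin n) F ⧸ H) = H.index := rfl
    omega
  have h2 := min_degree (F := F) (Ω := Matrix.SpecialLinearGroup (Fin n) F ⧸ H) hn
    (by rw [Nat.card_eq_fintype_card]; exact hexc) (fun w w' => MulAction.exists_smul_eq _ w w') h1
  rw [Nat.card_eq_fintype_card (α := F)] at h2
  apply Nat.div_le_of_le_mul
  rw [mul_comm]
  exact h2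

theorem upper {F : Type*} [Field F] [Fintype F] (n : ℕ) (hn : 3 ≤ n) :
    ∃ H : Subgroup (Matrix.ProjectiveSpecialLinearGroup (Fin n) F),
      H.index = (Fintype.card F ^ n - 1) / (Fintype.card F - 1) := by
  haveI : Nontrivial (Fin n) := Fin.nontrivial_iff_two_le.2 (by omega)
  obtain ⟨v, hv⟩ : ∃ v : Fin n → F, v ≠ 0 := exists_ne 0
  refine ⟨stabilizer (Matrix.ProjectiveSpecialLinearGroup (Fin n) F) (Projectivization.mk F v hv), ?_⟩
  rw [MulAction.index_stabilizer_of_transitive]
  have h2 : Nat.card (Fin n → F) - 1 = Nat.card (ℙ F (Fin n → F)) * (Nat.card F - 1) :=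
    Projectivization.card F (Fin n → F)
  rw [Nat.card_fun, Nat.card_eq_fintype_card (α := Fin n), Fintype.card_fin, Nat.card_eq_fintype_card (α := F)] at h2
  rw [h2]
  have := Fintype.one_lt_card (α := F)
  exact (Nat.mul_div_cancel _ (by omega)).symm

/-- Minimal index of a proper subgroup of the linear groups: for n ≥ 3 and a field F with q elements, (n, q) ≠ (4, 2), every proper subgroup of PSL_n(F) has index at least (q^n − 1)/(q − 1), and some subgroup has exactly that index (the stabiliser of a point of the projective space). -/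
theorem result {F : Type*} [Field F] [Fintype F] {q : ℕ} (hF : Fintype.card F = q) (n : ℕ) (hn : 3 ≤ n) (hexc : ¬ (n = 4 ∧ q = 2)) : (∀ H : Subgroup (Matrix.ProjectiveSpecialLinearGroup (Fin n) F), H ≠ ⊤ → (q ^ n - 1) / (q - 1) ≤ H.index) ∧ (∃ H : Subgroup (Matrix.ProjectiveSpecialLinearGroup (Fin n) F), H.index = (q ^ n - 1) / (q - 1)) := by
  subst hF
  refine ⟨fun H hH => ?_, upper n hn⟩
  have hsurj : Function.Surjective (QuotientGroup.mk' (Subgroup.center (Matrix.SpecialLinearGroup (Fin n) F))) :=
    QuotientGroup.mk'_surjective _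
  have h1 : (H.comap (QuotientGroup.mk' (Subgroup.center (Matrix.SpecialLinearGroup (Fin n) F)))).index = H.index :=
    Subgroup.index_comap_of_surjective H hsurj
  rw [← h1]
  apply lower n hn hexc
  intro h
  apply hH
  apply Subgroup.comap_injective hsurj
  rw [h, Subgroup.comap_top]

end Cfsg.Agent.S2140
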