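import Cfsg.Statements.S2154
import Mathlib
import Cfsg.Agent.LibChevBT4
-- import your own Cfsg.Agent.* helpers here

set_option autoImplicit false
open Cfsg

namespace Cfsg.Agent.S2154

open CfsgLib.Chev in
theorem aux {F : Type*} [Field F] [Fintype F] (p : ℕ) [Fact p.Prime] [CharP F p] {D : Cfsg.Lie.ChevalleyDatum} {T : Tb} (g : Good3 D T) (hl : 0 < T.l) (U : Subgroup (GL D.Idx F)) (hUG : U ≤ D.group F) (hU : IsPGroup p ↥U) (hne : U ≠ ⊥) : ∃ g ∈ D.group F, ∃ J : Set ℕ, (∃ i, i < D.rank ∧ i ∉ J) ∧ Subgroup.normalizer (U : Set (GL D.Idx F)) ⊓ D.group F ≤ (D.parabolicSubgroup F J).map (MulAut.conj g).toMonoidHom ∧ U ≤ (D.unipotentRadical F J).map (MulAut.conj g).toMonoidHom := by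
  obtain ⟨x, hx, J, ⟨i, hi, hiJ⟩, h1, h2⟩ := g.borel_tits hl U hUG hU hne
  exact ⟨x, hx, J, ⟨i, hi.trans_eq g.hl.symm, hiJ⟩, h1, h2⟩

/-- The Borel–Tits property of the finite Chevalley groups of types G₂, B₂, D₄, F₄, E₆, E₇, E₈ over a finite field of characteristic p: for every non-trivial p-subgroup U of the group G there are an element g of G and a proper set J of fundamental roots such that the normaliser of U in G lies in the conjugate by g of the standard parabolic subgroup P_J and U lies in the conjugate by g of its unipotent radical U_J. -/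
theorem result {F : Type*} [Field F] [Fintype F] (p : ℕ) [Fact p.Prime] [CharP F p] (D : Cfsg.Lie.ChevalleyDatum) (hD : D ∈ [Cfsg.Lie.chevG2, Cfsg.Lie.chevB2, Cfsg.Lie.chevD4, Cfsg.Lie.chevF4, Cfsg.Lie.chevE6, Cfsg.Lie.chevE7, Cfsg.Lie.chevE8]) (U : Subgroup (GL D.Idx F)) (hUG : U ≤ D.group F) (hU : IsPGroup p ↥U) (hne : U ≠ ⊥) : ∃ g ∈ D.group F, ∃ J : Set ℕ, (∃ i, i < D.rank ∧ i ∉ J) ∧ Subgroup.normalizer (U : Set (GL D.Idx F)) ⊓ D.group F ≤ (D.parabolicSubgroup F J).map (MulAut.conj g).toMonoidHom ∧ U ≤ (D.unipotentRadical F J).map (MulAut.conj g).toMonoidHom := by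
  simp only [List.mem_cons, List.not_mem_nil, or_false] at hD
  rcases hD with rfl | rfl | rfl | rfl | rfl | rfl | rfl
  · exact aux p CfsgLib.Chev.good3_G2 (by decide +kernel) U hUG hU hne
  · exact aux p CfsgLib.Chev.good3_B2 (by decide +kernel) U hUG hU hne
  · exact aux p CfsgLib.Chev.good3_D4 (by decide +kernel) U hUG hU hne
  · exact aux p CfsgLib.Chev.good3_F4 (by decide +kernel) U hUG hU hne
  · exact aux p CfsgLib.Chev.good3_E6 (by decide +kernel) U hUG hU hne
  · exact aux p CfsgLib.Chev.good3_E7 (by decide +kernel) U hUG hU hne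
  · exact aux p CfsgLib.Chev.good3_E8 (by decide +kernel) U hUG hU hne

end Cfsg.Agent.S2154
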