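import Cfsg.Statements.S2155
import Mathlib
import Cfsg.Agent.LibCentUJ15b
import Cfsg.Agent.LibComp3
import Cfsg.Agent.LibCores
-- import your own Cfsg.Agent.* helpers here

set_option autoImplicit false
open Cfsg

namespace Cfsg.Agent.S2155

open Cfsg Subgroup in
theorem fit_le {H : Type*} [Group H] [Finite H] {p : ℕ} [hp : Fact p.Prime]
    (h : centralizer (pCore p H : Set H) ≤ pCore p H) : fittingSubgroup H ≤ pCore p H := by
  rw [CfsgLib.Cores.fittingSubgroup_eq_iSup_pCore]
  refine iSup_le fun ⟨q, hq⟩ => ?_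
  change pCore q H ≤ pCore p H
  by_cases hqp : q = p
  · rw [hqp]
  · have h1 : pCore q H ≤ centralizer (pCore p H : Set H) := by
      rw [← Subgroup.commutator_eq_bot_iff_le_centralizer, eq_bot_iff]
      have h2 : ⁅pCore q H, pCore p H⁆ ≤ pCore q H ⊓ pCore p H := Subgroup.commutator_le_inf _ _
      refine h2.trans ?_
      have : Fact q.Prime := ⟨hq⟩
      have h3 : (pCore q H) ⊓ (pCore p H) = ⊥ := by
        apply Subgroup.inf_eq_bot_of_coprime
        obtain ⟨a, ha⟩ := IsPGroup.iff_card.1 (CfsgLib.Cores.pCore_isPGroup (G := H) q)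
        obtain ⟨b, hb⟩ := IsPGroup.iff_card.1 (CfsgLib.Cores.pCore_isPGroup (G := H) p)
        rw [ha, hb]
        exact Nat.Coprime.pow _ _ ((Nat.coprime_primes hq hp.out).2 hqp)
      exact h3.le
    exact h1.trans h

open Cfsg Subgroup in
theorem gfit_eq {H : Type*} [Group H] [Finite H] {p : ℕ} [hp : Fact p.Prime] (h : centralizer (pCore p H : Set H) ≤ pCore p H) :
    generalizedFittingSubgroup H = pCore p H := by
  apply le_antisymm
  · exact CfsgLib.Comp3.gfitting_le_of_centralizer _ (fit_le h) h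
  · exact (CfsgLib.Cores.pCore_le_fittingSubgroup p).trans CfsgLib.Comp.fitting_le_gfitting

/-- In a Chevalley group of type G₂, B₂, D₄, F₄, E₆, E₇ or E₈ over a finite field of characteristic p (for types G₂ and B₂ the field is assumed to have at least 3 elements, so that the group is simple), the generalized Fitting subgroup of every proper standard parabolic subgroup P_J is a p-group (P_J is p-constrained with trivial largest normal subgroup of order prime to p). -/
theorem result {F : Type*} [Field F] [Fintype F] (p : ℕ) [Fact p.Prime] [CharP F p] (D : Cfsg.Lie.ChevalleyDatum) (hD : D ∈ [Cfsg.Lie.chevG2, Cfsg.Lie.chevB2, Cfsg.Lie.chevD4, Cfsg.Lie.chevF4, Cfsg.Lie.chevE6, Cfsg.Lie.chevE7, Cfsg.Lie.chevE8]) (hq : (D = Cfsg.Lie.chevG2 ∨ D = Cfsg.Lie.chevB2) → 3 ≤ Fintype.card F) (J : Set ℕ) (hJ : ∃ i, i < D.rank ∧ i ∉ J) : IsPGroup p ↥(Cfsg.generalizedFittingSubgroup ↥(D.parabolicSubgroup F J)) := by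
    obtain ⟨T, g, hA, hl⟩ := CfsgLib.Chev.good_adj_of_mem hD
    have hP : Finite ↥(D.parabolicSubgroup F J) := inferInstance
    have hJ' : ∃ i < T.l, i ∉ J := by
      obtain ⟨i, hi, hiJ⟩ := hJ
      exact ⟨i, by rw [← g.hl]; exact hi, hiJ⟩
    have hU : (D.unipotentRadical F J).subgroupOf (D.parabolicSubgroup F J) ≤ Cfsg.pCore p ↥(D.parabolicSubgroup F J) := by
      apply CfsgLib.Cores.le_pCore
      · refine ⟨fun n hn x => ?_⟩
        exact g.conj_UJ (J := J) x.2 hn
      · have h2 : IsPGroup p ↥(D.posUnipotent F) := g.U_pgroup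
        have h3 : IsPGroup p ↥(D.unipotentRadical F J) := h2.to_le (g.UJ_le_U _)
        exact h3.of_equiv (Subgroup.subgroupOfEquivOfLe (CfsgLib.Chev.Good3.B_le_par (D := D) (F := F) J |>.trans' ((g.UJ_le_U J).trans CfsgLib.Chev.Good3.U_le_B))).symm
    have hc : Subgroup.centralizer (Cfsg.pCore p ↥(D.parabolicSubgroup F J) : Set ↥(D.parabolicSubgroup F J)) ≤ Cfsg.pCore p ↥(D.parabolicSubgroup F J) := by
      intro x hx
      apply hU
      have h1 : ∀ u ∈ D.unipotentRadical F J, (x : GL D.Idx F) * u = u * x := by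
        intro u hu
        have huP : u ∈ D.parabolicSubgroup F J := CfsgLib.Chev.Good3.B_le_par J (CfsgLib.Chev.Good3.U_le_B (g.UJ_le_U J hu))
        have h2 := Subgroup.mem_centralizer_iff.1 hx ⟨u, huP⟩ (hU hu)
        exact (congrArg Subtype.val h2).symm
      exact g.cent_UJ hA hJ' (g.par_le_G _ x.2) h1
    rw [gfit_eq hc]
    exact CfsgLib.Cores.pCore_isPGroup p

end Cfsg.Agent.S2155
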