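import Cfsg.Agent.EqBase
import Cfsg.Agent.LibG2H

set_option autoImplicit false
open Cfsg

namespace Cfsg.Agent.S2298

open CfsgLib.G2C CfsgLib.G2H


/-- Over a finite field F with q elements, every irreducible complex character of GL₂ has degree 1, q − 1, q or q + 1; and when q ≥ 3 (so that these four numbers are distinct) there are exactly q − 1 irreducible characters of degree 1, exactly q − 1 of degree q, exactly (q − 1)(q − 2)/2 of degree q + 1 and exactly q(q − 1)/2 of degree q − 1. -/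
theorem result {F : Type*} [Field F] [Fintype F] :
    (∀ χ : Matrix.GeneralLinearGroup (Fin 2) F → ℂ, Cfsg.IsIrrCharacter (Matrix.GeneralLinearGroup (Fin 2) F) χ →
      χ 1 = 1 ∨ χ 1 = (Fintype.card F : ℂ) - 1 ∨ χ 1 = (Fintype.card F : ℂ) ∨ χ 1 = (Fintype.card F : ℂ) + 1) ∧
    (3 ≤ Fintype.card F →
      Nat.card {χ : Cfsg.IrrCharacter (Matrix.GeneralLinearGroup (Fin 2) F) // (χ : Matrix.GeneralLinearGroup (Fin 2) F → ℂ) 1 = 1} = Fintype.card F - 1 ∧
      Nat.card {χ : Cfsg.IrrCharacter (Matrix.GeneralLinearGroup (Fin 2) F) // (χ : Matrix.GeneralLinearGroup (Fin 2) F → ℂ) 1 = (Fintype.card F : ℂ)} = Fintype.card F - 1 ∧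
      Nat.card {χ : Cfsg.IrrCharacter (Matrix.GeneralLinearGroup (Fin 2) F) // (χ : Matrix.GeneralLinearGroup (Fin 2) F → ℂ) 1 = (Fintype.card F : ℂ) + 1} = (Fintype.card F - 1) * (Fintype.card F - 2) / 2 ∧
      Nat.card {χ : Cfsg.IrrCharacter (Matrix.GeneralLinearGroup (Fin 2) F) // (χ : Matrix.GeneralLinearGroup (Fin 2) F → ℂ) 1 = (Fintype.card F : ℂ) - 1} = Fintype.card F * (Fintype.card F - 1) / 2) := by
  classical
  have hq : 2 ≤ Fintype.card F := Fintype.one_lt_card
  obtain ⟨K, M, -, h1, h2, hM, hK, h0, c0, c2, c1, c3⟩ := gl_main (F := F)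
  constructor
  · intro χ hχ
    rcases deg_cases hq (h1 ⟨χ, hχ⟩) (hM _) (hK _) (h0 _) with h | h | h | h
    · exact Or.inl h.1
    · exact Or.inr (Or.inl h.1)
    · exact Or.inr (Or.inr (Or.inl h.1))
    · exact Or.inr (Or.inr (Or.inr h.1))
  · intro hq3
    have key := fun χ => deg_iff hq3 (h1 χ) (hM χ) (hK χ) (h0 χ)
    refine ⟨?_, ?_, ?_, ?_⟩
    · rw [← c0]
      exact Nat.card_congr (Equiv.subtypeEquivRight fun χ => (key χ).1)
    · rw [← c1]
      exact Nat.card_congr (Equiv.subtypeEquivRight fun χ => (key χ).2.1)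
    · rw [← c2, Nat.mul_div_cancel_left _ (by norm_num)]
      exact Nat.card_congr (Equiv.subtypeEquivRight fun χ => (key χ).2.2.1)
    · rw [mul_comm (Fintype.card F), ← c3, Nat.mul_div_cancel_left _ (by norm_num)]
      exact Nat.card_congr (Equiv.subtypeEquivRight fun χ => (key χ).2.2.2)

end Cfsg.Agent.S2298
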