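import Cfsg.Agent.EqBase
import Cfsg.Agent.LibG2C

set_option autoImplicit false
open Cfsg

namespace Cfsg.Agent.S2301

open CfsgLib.G2B CfsgLib.G2C Matrix

variable {F : Type*} [Field F]

theorem conj_u (p : ℕ) [Fact p.Prime] [CharP F p] {g : Matrix.SpecialLinearGroup (Fin 2) F} (hg : orderOf g = p) :
    ∃ b : F, b ≠ 0 ∧ IsConj g ((frSL F).u b) := by
  obtain ⟨h1, h2⟩ := sl_order_p p hg
  obtain ⟨b, hb, P, hP, h3⟩ := sl_unip g h1 1 (one_pow 2) (by rw [h2, mul_one])
  refine ⟨b, hb, ?_⟩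
  refine IsConj.symm ((sl_isConj_iff _ _).mpr ⟨P, hP, ?_⟩)
  exact h3.symm

theorem classes [Fintype F] (hF2 : (2 : F) ≠ 0) (p : ℕ) [Fact p.Prime] [CharP F p] :
    Nat.card {C : ConjClasses (Matrix.SpecialLinearGroup (Fin 2) F) // ∃ g : Matrix.SpecialLinearGroup (Fin 2) F, orderOf g = p ∧ ConjClasses.mk g = C} = 2 := by
  classical
  obtain ⟨ν, hν⟩ := FiniteField.exists_nonsquare (ringChar_ne_two hF2)
  have hν0 : ν ≠ 0 := fun h => hν (h ▸ IsSquare.zero)
  let nn : Bool → F := fun b => if b then 1 else ν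
  have hnn : ∀ b, nn b ≠ 0 := by
    intro b; cases b
    · exact hν0
    · exact one_ne_zero
  let f : Bool → {C : ConjClasses (Matrix.SpecialLinearGroup (Fin 2) F) // ∃ g : Matrix.SpecialLinearGroup (Fin 2) F, orderOf g = p ∧ ConjClasses.mk g = C} :=
    fun b => ⟨ConjClasses.mk ((frSL F).u (nn b)), (frSL F).u (nn b), orderOf_u _ p (hnn b), rfl⟩
  have key : ∀ b b' : F, b ≠ 0 → b' ≠ 0 → (IsConj ((frSL F).u b) ((frSL F).u b') ↔ IsSquare (b * b')) := by
    intro b b' hb hb'
    exact unip_conj_iff (one_pow 2) hb hb'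
  have hf : Function.Bijective f := by
    constructor
    · intro b b' h
      have h1 : IsConj ((frSL F).u (nn b)) ((frSL F).u (nn b')) := ConjClasses.mk_eq_mk_iff_isConj.mp (congrArg Subtype.val h)
      rw [key _ _ (hnn b) (hnn b')] at h1
      cases b <;> cases b'
      · rfl
      · exfalso; apply hν
        simpa [nn] using h1
      · exfalso; apply hν
        simpa [nn] using h1
      · rfl
    · rintro ⟨_, g, hg, rfl⟩
      obtain ⟨b, hb, hc⟩ := conj_u p hg
      have h7 : ∃ c : Bool, IsSquare (nn c * b) := by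
        by_cases hsq : IsSquare b
        · exact ⟨true, by simpa [nn] using hsq⟩
        · exact ⟨false, by simpa [nn] using isSquare_mul_of_not hν hsq⟩
      obtain ⟨c, hc'⟩ := h7
      refine ⟨c, ?_⟩
      apply Subtype.ext
      exact ConjClasses.mk_eq_mk_iff_isConj.mpr (((key _ _ (hnn c) hb).mpr hc').trans hc.symm)
  rw [← Nat.card_congr (Equiv.ofBijective f hf), Nat.card_eq_fintype_card, Fintype.card_bool]


/-- Over a finite field with q elements of odd characteristic p, the elements of order p of SL₂ (the non-identity unipotent elements) fall into exactly two conjugacy classes, each of size (q² − 1)/2; two upper unitriangular matrices with non-zero off-diagonal entries b and b′ are conjugate exactly when bb′ is a square. -/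
theorem result {F : Type*} [Field F] [Fintype F] (p : ℕ) [Fact p.Prime] [CharP F p] (hp : p ≠ 2) :
    Nat.card {C : ConjClasses (Matrix.SpecialLinearGroup (Fin 2) F) // ∃ g : Matrix.SpecialLinearGroup (Fin 2) F, orderOf g = p ∧ ConjClasses.mk g = C} = 2 ∧
    (∀ g : Matrix.SpecialLinearGroup (Fin 2) F, orderOf g = p → Nat.card (ConjClasses.mk g).carrier = (Fintype.card F ^ 2 - 1) / 2) ∧
    ∀ g h : Matrix.SpecialLinearGroup (Fin 2) F, (g : Matrix (Fin 2) (Fin 2) F) 0 0 = 1 → (g : Matrix (Fin 2) (Fin 2) F) 1 1 = 1 → (g : Matrix (Fin 2) (Fin 2) F) 1 0 = 0 → (g : Matrix (Fin 2) (Fin 2) F) 0 1 ≠ 0 →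
      (h : Matrix (Fin 2) (Fin 2) F) 0 0 = 1 → (h : Matrix (Fin 2) (Fin 2) F) 1 1 = 1 → (h : Matrix (Fin 2) (Fin 2) F) 1 0 = 0 → (h : Matrix (Fin 2) (Fin 2) F) 0 1 ≠ 0 →
      (IsConj g h ↔ IsSquare ((g : Matrix (Fin 2) (Fin 2) F) 0 1 * (h : Matrix (Fin 2) (Fin 2) F) 0 1)) := by
  have hF2 : (2 : F) ≠ 0 := by
    intro h
    have h1 := (CharP.cast_eq_zero_iff F p 2).mp (by exact_mod_cast h)
    exact hp ((Nat.prime_dvd_prime_iff_eq Fact.out Nat.prime_two).mp h1)
  have hodd : Odd (Fintype.card F) := by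
    rw [← Nat.not_even_iff_odd]
    intro he
    have h1 : (2 : ℕ) ∣ Fintype.card F := he.two_dvd
    obtain ⟨n, hn, hc⟩ := FiniteField.card F p
    rw [hc] at h1
    exact hp ((Nat.prime_dvd_prime_iff_eq Nat.prime_two Fact.out).mp (Nat.prime_two.dvd_of_dvd_pow h1)).symm
  refine ⟨classes hF2 p, fun g hg => ?_, fun g h g00 g11 g10 g01 h00 h11 h10 h01 => ?_⟩
  · obtain ⟨b, hb, hc⟩ := conj_u p hg
    rw [carrier_conj hc]
    have h1 := card_carrier ((frSL F).u b)
    rw [card_centralizer_u_SL hb, card_sq_one_odd hodd, card_SL] at h1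
    have h2 : Fintype.card F * (Nat.card ↑(ConjClasses.mk ((frSL F).u b)).carrier * 2) =
      Fintype.card F * ((Fintype.card F - 1) * (Fintype.card F + 1)) := by rw [← h1]; ring
    have h3 := Nat.eq_of_mul_eq_mul_left Fintype.card_pos h2
    have h4 := Nat.sq_sub_sq (Fintype.card F) 1
    rw [one_pow] at h4
    rw [h4, mul_comm (Fintype.card F + 1), ← h3]
    omega
  · have e1 : g = mkSL _ (det_U 1 ((g : Matrix (Fin 2) (Fin 2) F) 0 1) (one_pow 2)) := by
      apply Subtype.ext
      apply ext2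
      · exact g00
      · rfl
      · exact g10
      · exact g11
    have e2 : h = mkSL _ (det_U 1 ((h : Matrix (Fin 2) (Fin 2) F) 0 1) (one_pow 2)) := by
      apply Subtype.ext
      apply ext2
      · exact h00
      · rfl
      · exact h10
      · exact h11
    conv_lhs => rw [e1, e2]
    exact unip_conj_iff (one_pow 2) g01 h01

end Cfsg.Agent.S2301
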