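import Cfsg.Agent.EqBase
import Cfsg.Agent.LibG2C

set_option autoImplicit false
open Cfsg

namespace Cfsg.Agent.S2303

open CfsgLib.G2B CfsgLib.G2C Matrix

variable {F : Type*} [Field F]

theorem mem_cent (g x : GL (Fin 2) F) : x ∈ Subgroup.centralizer ({g} : Set (GL (Fin 2) F)) ↔
    (x : Matrix (Fin 2) (Fin 2) F) * (g : Matrix (Fin 2) (Fin 2) F) = (g : Matrix (Fin 2) (Fin 2) F) * (x : Matrix (Fin 2) (Fin 2) F) := by
  rw [Subgroup.mem_centralizer_singleton_iff]
  constructor
  · intro h
    exact congrArg (fun z : GL (Fin 2) F => (z : Matrix (Fin 2) (Fin 2) F)) h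
  · intro h
    exact Units.ext h

theorem split_card [Fintype F] (g : GL (Fin 2) F) (h01 : (g : Matrix (Fin 2) (Fin 2) F) 0 1 = 0) (h10 : (g : Matrix (Fin 2) (Fin 2) F) 1 0 = 0)
    (hne : (g : Matrix (Fin 2) (Fin 2) F) 0 0 ≠ (g : Matrix (Fin 2) (Fin 2) F) 1 1) :
    Nat.card (Subgroup.centralizer ({g} : Set (Matrix.GeneralLinearGroup (Fin 2) F))) = (Fintype.card F - 1) ^ 2 := by
  classical
  let f : Fˣ × Fˣ → Subgroup.centralizer ({g} : Set (GL (Fin 2) F)) := fun x =>
    ⟨mkGL !![(x.1 : F), 0; 0, (x.2 : F)] (by rw [det_fin_two_of]; simp), by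
      rw [mem_cent, mkGL_coe]
      apply ext2 <;> simp [Matrix.mul_apply, Fin.sum_univ_two, h01, h10, mul_comm]⟩
  have hf : Function.Bijective f := by
    constructor
    · rintro ⟨a, b⟩ ⟨a', b'⟩ h
      have h1 : ((mkGL !![(a : F), 0; 0, (b : F)] (by rw [det_fin_two_of]; simp) : GL (Fin 2) F) : Matrix (Fin 2) (Fin 2) F) =
          ((mkGL !![(a' : F), 0; 0, (b' : F)] (by rw [det_fin_two_of]; simp) : GL (Fin 2) F) : Matrix (Fin 2) (Fin 2) F) :=
        congrArg (fun z : Subgroup.centralizer ({g} : Set (GL (Fin 2) F)) => ((z : GL (Fin 2) F) : Matrix (Fin 2) (Fin 2) F)) h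
      rw [mkGL_coe, mkGL_coe] at h1
      have h00 := congrFun (congrFun h1 0) 0
      have h11 := congrFun (congrFun h1 1) 1
      simp only [of_apply, cons_val', cons_val_zero, cons_val_one, cons_val_fin_one] at h00 h11
      rw [Units.ext h00, Units.ext h11]
    · rintro ⟨x, hx⟩
      have hx' := hx
      rw [mem_cent] at hx'
      have e01 := congrFun (congrFun hx' 0) 1
      have e10 := congrFun (congrFun hx' 1) 0
      simp only [Matrix.mul_apply, Fin.sum_univ_two, h01, h10] at e01 e10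
      have z01 : (x : Matrix (Fin 2) (Fin 2) F) 0 1 = 0 := by
        have : (x : Matrix (Fin 2) (Fin 2) F) 0 1 * ((g : Matrix (Fin 2) (Fin 2) F) 0 0 - (g : Matrix (Fin 2) (Fin 2) F) 1 1) = 0 := by
          linear_combination -e01
        exact (mul_eq_zero.mp this).resolve_right (sub_ne_zero.mpr hne)
      have z10 : (x : Matrix (Fin 2) (Fin 2) F) 1 0 = 0 := by
        have : (x : Matrix (Fin 2) (Fin 2) F) 1 0 * ((g : Matrix (Fin 2) (Fin 2) F) 0 0 - (g : Matrix (Fin 2) (Fin 2) F) 1 1) = 0 := by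
          linear_combination e10
        exact (mul_eq_zero.mp this).resolve_right (sub_ne_zero.mpr hne)
      have hd := gl_det_ne x
      rw [det_fin_two, z01, z10, mul_zero, sub_zero] at hd
      refine ⟨(Units.mk0 _ (left_ne_zero_of_mul hd), Units.mk0 _ (right_ne_zero_of_mul hd)), ?_⟩
      apply Subtype.ext
      apply Units.ext
      apply ext2
      · rfl
      · exact z01.symm
      · exact z10.symm
      · rfl
  rw [← Nat.card_congr (Equiv.ofBijective f hf), Nat.card_eq_fintype_card, Fintype.card_prod, Fintype.card_units, sq]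

theorem elliptic_card [Fintype F] (g : GL (Fin 2) F)
    (h : ∀ (c : F) (v : Fin 2 → F), v ≠ 0 → (g : Matrix (Fin 2) (Fin 2) F).mulVec v ≠ c • v) :
    Nat.card (Subgroup.centralizer ({g} : Set (Matrix.GeneralLinearGroup (Fin 2) F))) = Fintype.card F ^ 2 - 1 := by
  classical
  have hr : (g : Matrix (Fin 2) (Fin 2) F) 1 0 ≠ 0 := by
    intro h0
    apply h ((g : Matrix (Fin 2) (Fin 2) F) 0 0) ![1, 0] (by
      intro h1
      have := congrFun h1 0
      simp at this)
    ext i
    fin_cases i <;> simp [Matrix.mulVec, dotProduct, Fin.sum_univ_two, h0]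
  have hdet : ∀ a b : F, (a, b) ≠ (0, 0) → (a • (1 : Matrix (Fin 2) (Fin 2) F) + b • (g : Matrix (Fin 2) (Fin 2) F)).det ≠ 0 := by
    intro a b hab h0
    obtain ⟨v, hv, h1⟩ := Matrix.exists_mulVec_eq_zero_iff.mpr h0
    rw [add_mulVec, smul_mulVec, smul_mulVec, one_mulVec] at h1
    have hb : b ≠ 0 := by
      rintro rfl
      rw [zero_smul, add_zero] at h1
      have ha : a ≠ 0 := fun ha => hab (by rw [ha])
      exact hv ((smul_eq_zero.mp h1).resolve_left ha)
    apply h (-a / b) v hv
    have h2 : b • (g : Matrix (Fin 2) (Fin 2) F).mulVec v = -(a • v) := eq_neg_of_add_eq_zero_right h1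
    calc (g : Matrix (Fin 2) (Fin 2) F).mulVec v = b⁻¹ • (b • (g : Matrix (Fin 2) (Fin 2) F).mulVec v) := by
          rw [smul_smul, inv_mul_cancel₀ hb, one_smul]
      _ = _ := by rw [h2, smul_neg, smul_smul, ← neg_smul]; congr 1; field_simp
  let f : {x : F × F // x ≠ (0, 0)} → Subgroup.centralizer ({g} : Set (GL (Fin 2) F)) := fun x =>
    ⟨mkGL _ (hdet x.1.1 x.1.2 x.2), by
      rw [mem_cent, mkGL_coe, add_mul, mul_add, Matrix.smul_mul, Matrix.smul_mul, Matrix.mul_smul, Matrix.mul_smul, one_mul, mul_one]⟩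
  have hf : Function.Bijective f := by
    constructor
    · rintro ⟨⟨a, b⟩, hab⟩ ⟨⟨a', b'⟩, hab'⟩ h
      have h1 : ((mkGL _ (hdet a b hab) : GL (Fin 2) F) : Matrix (Fin 2) (Fin 2) F) =
          ((mkGL _ (hdet a' b' hab') : GL (Fin 2) F) : Matrix (Fin 2) (Fin 2) F) :=
        congrArg (fun z : Subgroup.centralizer ({g} : Set (GL (Fin 2) F)) => ((z : GL (Fin 2) F) : Matrix (Fin 2) (Fin 2) F)) h
      rw [mkGL_coe, mkGL_coe] at h1
      have h00 := congrFun (congrFun h1 0) 0
      have h10 := congrFun (congrFun h1 1) 0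
      simp at h00 h10
      have hb : b = b' := h10.resolve_right hr
      rw [hb] at h00
      have ha : a = a' := by simpa using h00
      subst ha hb
      rfl
    · rintro ⟨x, hx⟩
      have hx' := hx
      rw [mem_cent] at hx'
      have e00 := congrFun (congrFun hx' 0) 0
      have e10 := congrFun (congrFun hx' 1) 0
      simp only [Matrix.mul_apply, Fin.sum_univ_two] at e00 e10
      set b : F := (x : Matrix (Fin 2) (Fin 2) F) 1 0 / (g : Matrix (Fin 2) (Fin 2) F) 1 0 with hb
      have hb' : (x : Matrix (Fin 2) (Fin 2) F) 1 0 = b * (g : Matrix (Fin 2) (Fin 2) F) 1 0 := by rw [hb]; field_simp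
      have h01 : (x : Matrix (Fin 2) (Fin 2) F) 0 1 = b * (g : Matrix (Fin 2) (Fin 2) F) 0 1 := by
        apply mul_right_cancel₀ hr
        rw [hb'] at e00
        linear_combination e00
      have h11 : (x : Matrix (Fin 2) (Fin 2) F) 1 1 = ((x : Matrix (Fin 2) (Fin 2) F) 0 0 - b * (g : Matrix (Fin 2) (Fin 2) F) 0 0) + b * (g : Matrix (Fin 2) (Fin 2) F) 1 1 := by
        apply mul_right_cancel₀ hr
        rw [hb'] at e10
        linear_combination e10
      have hxe : (x : Matrix (Fin 2) (Fin 2) F) = ((x : Matrix (Fin 2) (Fin 2) F) 0 0 - b * (g : Matrix (Fin 2) (Fin 2) F) 0 0) • (1 : Matrix (Fin 2) (Fin 2) F) +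
          b • (g : Matrix (Fin 2) (Fin 2) F) := by
        apply ext2
        · simp
        · simp [h01]
        · simp [hb']
        · simp [h11]
      refine ⟨⟨((x : Matrix (Fin 2) (Fin 2) F) 0 0 - b * (g : Matrix (Fin 2) (Fin 2) F) 0 0, b), ?_⟩, ?_⟩
      · intro h0
        apply gl_det_ne x
        rw [Prod.mk.injEq] at h0
        rw [hxe, h0.1, h0.2]
        simp
      · apply Subtype.ext
        apply Units.ext
        exact hxe.symm
  rw [← Nat.card_congr (Equiv.ofBijective f hf), Nat.card_eq_fintype_card, Fintype.card_subtype_compl, Fintype.card_subtype_eq,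
    Fintype.card_prod, sq]


/-- Over a finite field with q elements: a diagonal element of GL₂ with two distinct diagonal entries has centralizer of order (q − 1)² (so q(q + 1) conjugates), and an element of GL₂ with no eigenvector in F² has centralizer of order q² − 1 (so q(q − 1) conjugates). -/
theorem result {F : Type*} [Field F] [Fintype F] (g : Matrix.GeneralLinearGroup (Fin 2) F) :
    ((g : Matrix (Fin 2) (Fin 2) F) 0 1 = 0 → (g : Matrix (Fin 2) (Fin 2) F) 1 0 = 0 → (g : Matrix (Fin 2) (Fin 2) F) 0 0 ≠ (g : Matrix (Fin 2) (Fin 2) F) 1 1 →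
      Nat.card (Subgroup.centralizer ({g} : Set (Matrix.GeneralLinearGroup (Fin 2) F))) = (Fintype.card F - 1) ^ 2) ∧
    ((∀ (c : F) (v : Fin 2 → F), v ≠ 0 → (g : Matrix (Fin 2) (Fin 2) F).mulVec v ≠ c • v) →
      Nat.card (Subgroup.centralizer ({g} : Set (Matrix.GeneralLinearGroup (Fin 2) F))) = Fintype.card F ^ 2 - 1) := by
  constructor
  · intro h01 h10 hne
    exact split_card g h01 h10 hne
  · intro h
    exact elliptic_card g h

end Cfsg.Agent.S2303
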