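import Cfsg.Agent.EqBase
import Cfsg.Agent.LibG2M

set_option autoImplicit false
open Cfsg

namespace Cfsg.Agent.S2307


open scoped ComplexConjugate
open CfsgLib.CharBasic CfsgLib.G2A CfsgLib.G2B CfsgLib.G2C CfsgLib.G2D CfsgLib.G2E CfsgLib.G2F CfsgLib.G2G CfsgLib.G2H CfsgLib.G2I CfsgLib.G2J CfsgLib.G2K CfsgLib.G2L CfsgLib.G2M


/-- Over a finite field F with q elements, q odd, let α be the multiplicative character of F of order 2. The character of SL₂ induced from the linear character b ↦ α(b₁₁) of the upper triangular subgroup is the sum of two distinct irreducible characters, each of degree (q + 1)/2, which are conjugate under GL₂: some fixed element of GL₂ conjugates the one into the other. -/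
theorem result {F : Type*} [Field F] [Fintype F] [DecidableEq F] (hodd : Odd (Fintype.card F)) (α : MulChar F ℂ)
    (hα : α ^ 2 = 1) (hα1 : α ≠ 1) :
    ∃ χ₁ χ₂ : Matrix.SpecialLinearGroup (Fin 2) F → ℂ, Cfsg.IsIrrCharacter (Matrix.SpecialLinearGroup (Fin 2) F) χ₁ ∧ Cfsg.IsIrrCharacter (Matrix.SpecialLinearGroup (Fin 2) F) χ₂ ∧ χ₁ ≠ χ₂ ∧
      Cfsg.indFun ((Cfsg.upperTriangularGL 2 F).comap Matrix.SpecialLinearGroup.toGL) (fun b => α (((b : Matrix.SpecialLinearGroup (Fin 2) F) : Matrix (Fin 2) (Fin 2) F) 0 0)) = χ₁ + χ₂ ∧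
      χ₁ 1 = (((Fintype.card F + 1) / 2 : ℕ) : ℂ) ∧ χ₂ 1 = (((Fintype.card F + 1) / 2 : ℕ) : ℂ) ∧
      ∃ x : Matrix.GeneralLinearGroup (Fin 2) F, ∀ g h : Matrix.SpecialLinearGroup (Fin 2) F,
        Matrix.SpecialLinearGroup.toGL h = x * Matrix.SpecialLinearGroup.toGL g * x⁻¹ → χ₂ h = χ₁ g := by

  classical
  have h20 := two_ne_of_odd hodd
  have hq : 3 ≤ Fintype.card F := by
    have h2 : 2 ≤ Fintype.card F := Fintype.one_lt_card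
    obtain ⟨k, hk⟩ := hodd
    omega
  have hF : (Fintype.card F : ℂ) ≠ 0 := by exact_mod_cast Fintype.card_ne_zero
  obtain ⟨ν, hν⟩ := FiniteField.exists_nonsquare (ringChar_ne_two (two_ne_of_odd hodd))
  have hν0 : ν ≠ 0 := fun h => hν (h ▸ IsSquare.zero)
  obtain ⟨ψ, hψ⟩ := exists_addChar (F := F)
  obtain ⟨K, a, b, h0, h1, h2, h3, ha, hb, hK, hK2, hK0, n1, n2, n3, n4, n5, n6⟩ := odd_main hodd hν hψ
  have key : ∀ χ : IrrCharacter (Matrix.SpecialLinearGroup (Fin 2) F), ∀ n : ℕ,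
      (χ : Matrix.SpecialLinearGroup (Fin 2) F → ℂ) 1 = (n : ℂ) ↔ 2 * K χ + (Fintype.card F - 1) * (a χ + b χ) = 2 * n :=
    fun χ => nat2 (by omega : 1 ≤ Fintype.card F) (h1 χ)
  have hL := fSL_apply α
  have hfw : fSL α = (fSL α).comp (frSL F).sw := by
    rw [fSL_sw_iff, ← sq, hα]
  have hnorm := (frSL F).inner_hom (fSL α) (fSL α) _ _ hL hL
  rw [if_pos rfl, if_pos hfw] at hnorm
  have hchar : IsCharacter _ (indFun (frSL F).B ((frSL F).lam (fun a _ => α a))) := char_ind (frSL F) hL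
  set I := indFun (frSL F).B ((frSL F).lam (fun a _ => α a)) with hI
  have hI1 : I 1 = (Fintype.card F : ℂ) + 1 := ind_one_value (frSL F) hL
  have hI0 : I ≠ 0 := by
    intro h
    rw [h, Pi.zero_apply] at hI1
    have : ((Fintype.card F + 1 : ℕ) : ℂ) = 0 := by push_cast; exact hI1.symm
    rw [Nat.cast_eq_zero] at this
    omega
  obtain ⟨χ₀, hχ₀, hne₀⟩ := CfsgLib.CharMore.exists_constituent hchar hI0
  obtain ⟨ψ₀, hψ₀, hne, hsplit⟩ := norm_two_split hchar (by rw [hI] at *; rw [hnorm]; norm_num) hχ₀ hne₀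
  have hin1 : classInner χ₀ I ≠ 0 := by
    rw [hsplit, CfsgLib.CharBasic.inner_add_right, irr_inner_ne hχ₀ hψ₀ (Ne.symm hne), irr_inner_self hχ₀]
    norm_num
  have hin2 : classInner ψ₀ I ≠ 0 := by
    rw [hsplit, CfsgLib.CharBasic.inner_add_right, irr_inner_ne hψ₀ hχ₀ hne, irr_inner_self hψ₀]
    norm_num
  have hu : ∀ c, fSL α ⟨(frSL F).u c, (frSL F).u_mem c⟩ = 1 := by
    intro c
    apply Units.ext
    rw [← fSL_apply]
    change α ((frSL F).mat ((frSL F).u c) 0 0) = 1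
    rw [(frSL F).mat_u]; simp
  obtain ⟨n, hn, hn'⟩ := sum_ne_of_inner (frSL F) hu hL hχ₀ hin1
  obtain ⟨m, hm, hm'⟩ := sum_ne_of_inner (frSL F) hu hL hψ₀ hin2
  have hs2 := sum_ind (frSL F) hL
  rw [← hI, hsplit] at hs2
  simp only [Pi.add_apply, Finset.sum_add_distrib] at hs2
  rw [hn', hm', ← mul_add] at hs2
  have hs3 := mul_left_cancel₀ hF hs2
  have hs4 : n + m = 2 := by exact_mod_cast hs3
  have hn1 : n = 1 := by omega
  have hm1 : m = 1 := by omega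
  rw [hn1] at hn'
  rw [hm1] at hm'
  have k1 : K ⟨χ₀, hχ₀⟩ = 1 := by
    have h5 : ∑ c : F, χ₀ ((frSL F).u c) = (Fintype.card F : ℂ) * K ⟨χ₀, hχ₀⟩ := h0 ⟨χ₀, hχ₀⟩
    rw [hn'] at h5
    exact (Nat.cast_injective (mul_left_cancel₀ hF h5)).symm
  have k2 : K ⟨ψ₀, hψ₀⟩ = 1 := by
    have h5 : ∑ c : F, ψ₀ ((frSL F).u c) = (Fintype.card F : ℂ) * K ⟨ψ₀, hψ₀⟩ := h0 ⟨ψ₀, hψ₀⟩
    rw [hm'] at h5
    exact (Nat.cast_injective (mul_left_cancel₀ hF h5)).symm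
  have htriv : ∀ (χ : Matrix.SpecialLinearGroup (Fin 2) F → ℂ) (hχ : IsIrrCharacter (Matrix.SpecialLinearGroup (Fin 2) F) χ),
      classInner χ I ≠ 0 → K ⟨χ, hχ⟩ = 1 → a ⟨χ, hχ⟩ + b ⟨χ, hχ⟩ ≠ 0 := by
    intro χ hχ hin hk hab
    have hd : χ 1 = ((1 : ℕ) : ℂ) := (key ⟨χ, hχ⟩ 1).mpr (by rw [hk, hab, mul_zero, add_zero])
    rw [Nat.cast_one] at hd
    have hsum : ∑ c : F, χ ((frSL F).u c) = (Fintype.card F : ℂ) * K ⟨χ, hχ⟩ := h0 ⟨χ, hχ⟩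
    have ht := linear_trivial (irr_isCharacter hχ) hd (by rw [hsum, hk]; simpa using hF)
    apply hα1
    apply MulChar.ext
    intro x
    have h6 := linear_restrict (frSL F) hL hχ hd hin ⟨dgSL x, dgSL_mem x⟩
    rw [ht, ← fSL_apply] at h6
    rw [MulChar.one_apply_coe]
    exact h6.symm
  have t1 := htriv χ₀ hχ₀ hin1 k1
  have t2 := htriv ψ₀ hψ₀ hin2 k2
  have hab : a ⟨χ₀, hχ₀⟩ + b ⟨χ₀, hχ₀⟩ = 1 ∧ a ⟨ψ₀, hψ₀⟩ + b ⟨ψ₀, hψ₀⟩ = 1 := by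
    have f1 : 2 * χ₀ 1 = 2 * K ⟨χ₀, hχ₀⟩ + ((Fintype.card F : ℂ) - 1) * (a ⟨χ₀, hχ₀⟩ + b ⟨χ₀, hχ₀⟩) := h1 ⟨χ₀, hχ₀⟩
    have f2 : 2 * ψ₀ 1 = 2 * K ⟨ψ₀, hψ₀⟩ + ((Fintype.card F : ℂ) - 1) * (a ⟨ψ₀, hψ₀⟩ + b ⟨ψ₀, hψ₀⟩) := h1 ⟨ψ₀, hψ₀⟩
    rw [k1] at f1
    rw [k2] at f2
    have f3 := congrFun hsplit 1
    rw [Pi.add_apply, hI1] at f3
    have hq1 : (Fintype.card F : ℂ) - 1 ≠ 0 := by
      have : ((Fintype.card F - 1 : ℕ) : ℂ) ≠ 0 := by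
        rw [Nat.cast_ne_zero]; omega
      rwa [Nat.cast_sub (by omega), Nat.cast_one] at this
    have f4 : ((Fintype.card F : ℂ) - 1) * ((a ⟨χ₀, hχ₀⟩ + b ⟨χ₀, hχ₀⟩ + (a ⟨ψ₀, hψ₀⟩ + b ⟨ψ₀, hψ₀⟩) : ℕ) : ℂ) = ((Fintype.card F : ℂ) - 1) * ((2 : ℕ) : ℂ) := by
      push_cast at f1 f2 ⊢
      linear_combination -f1 - f2 - 2 * f3
    have f5 := Nat.cast_injective (mul_left_cancel₀ hq1 f4)
    omega
  have hp := partner hν hψ h1 h2 h3 h20 (Units.mk0 ν hν0) rfl 1 n4 ⟨ψ₀, hψ₀⟩ ⟨χ₀, hχ₀⟩ ⟨k2, hab.2⟩ ⟨k1, hab.1⟩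
    (fun h => hne (congrArg Subtype.val h))
  have hdeg : ∀ χ : IrrCharacter (Matrix.SpecialLinearGroup (Fin 2) F), K χ = 1 → a χ + b χ = 1 →
      (χ : Matrix.SpecialLinearGroup (Fin 2) F → ℂ) 1 = (((Fintype.card F + 1) / 2 : ℕ) : ℂ) := by
    intro χ hk hs
    rw [key, hk, hs]
    obtain ⟨k, hk⟩ := hodd
    omega
  refine ⟨χ₀, ψ₀, hχ₀, hψ₀, hne.symm, hsplit, hdeg ⟨χ₀, hχ₀⟩ k1 hab.1, hdeg ⟨ψ₀, hψ₀⟩ k2 hab.2,
    dgGL (Units.mk0 ν hν0) 1, ?_⟩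
  intro g h hgh
  have hgh2 : h = sgm (Units.mk0 ν hν0) g := by
    have e1 : Matrix.SpecialLinearGroup.toGL h * dgGL (Units.mk0 ν hν0) 1 = dgGL (Units.mk0 ν hν0) 1 * Matrix.SpecialLinearGroup.toGL g := by
      rw [hgh]; group
    have e2 := congrArg (fun z : GL (Fin 2) F => (z : Matrix (Fin 2) (Fin 2) F)) e1
    have e3 : (h : Matrix (Fin 2) (Fin 2) F) * !![ν, 0; 0, ((1 : Fˣ) : F)] = !![ν, 0; 0, ((1 : Fˣ) : F)] * (g : Matrix (Fin 2) (Fin 2) F) := e2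
    have c00 := congrFun (congrFun e3 0) 0
    have c01 := congrFun (congrFun e3 0) 1
    have c10 := congrFun (congrFun e3 1) 0
    have c11 := congrFun (congrFun e3 1) 1
    simp [Matrix.mul_apply, Fin.sum_univ_two] at c00 c01 c10 c11
    apply Subtype.ext
    rw [sgm_coe]
    apply ext2
    · apply mul_right_cancel₀ hν0
      rw [c00]
      simp [mul_comm]
    · simpa using c01
    · simp only [Matrix.cons_val', Matrix.cons_val_zero, Matrix.cons_val_one, Matrix.of_apply, Matrix.cons_val_fin_one]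
      rw [← c10]
      rw [Units.val_inv_eq_inv_val, Units.val_mk0]
      field_simp
    · simpa using c11
  have := hp g
  rw [hgh2]
  exact this.symm

end Cfsg.Agent.S2307
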