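import Cfsg.Agent.EqBase
import Cfsg.Agent.LibG2C

set_option autoImplicit false
open Cfsg

namespace Cfsg.Agent.S2308

open CfsgLib.G2B CfsgLib.G2C Matrix

variable {F : Type*} [Field F]

theorem rep_bijective {G : Type*} [Group G] (fr : CfsgLib.G2A.Frame F G) :
    Function.Bijective (fun o : Option F => (QuotientGroup.mk (fr.rep o) : G ⧸ fr.B)) := by
  constructor
  · intro o o' h
    have h1 : (fr.rep o)⁻¹ * fr.rep o' ∈ fr.B := QuotientGroup.eq.mp h
    have h2 := @fr.bruhat_bijective.1 (o, ⟨_, h1⟩) (o', 1) (by simp)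
    exact congrArg Prod.fst h2
  · intro x
    obtain ⟨g, rfl⟩ := QuotientGroup.mk_surjective x
    obtain ⟨⟨o, b⟩, h⟩ := fr.bruhat_bijective.2 g
    refine ⟨o, ?_⟩
    apply QuotientGroup.eq.mpr
    have e : (fr.rep o)⁻¹ * g = b := by rw [← h]; simp
    rw [e]; exact b.2

theorem fixed_value [Fintype F] [DecidableEq F] (g : GL (Fin 2) F) :
    Cfsg.fixedPointCharacter (Cfsg.upperTriangularGL 2 F) g = (if (frGL F).mat g 1 0 = 0 then 1 else 0) +
      ∑ c : F, (if (frGL F).mat g 0 1 + c * ((frGL F).mat g 0 0 - (frGL F).mat g 1 1) - c ^ 2 * (frGL F).mat g 1 0 = 0 then (1 : ℂ) else 0) := by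
  classical
  set fr := frGL F with hfr
  have h1 : Nat.card (MulAction.fixedBy (GL (Fin 2) F ⧸ fr.B) g) = Nat.card {o : Option F // (fr.rep o)⁻¹ * g * fr.rep o ∈ fr.B} := by
    apply Nat.card_congr
    refine ((Equiv.ofBijective _ (rep_bijective fr)).subtypeEquiv ?_).symm
    intro o
    change _ ↔ g • (QuotientGroup.mk (fr.rep o) : GL (Fin 2) F ⧸ fr.B) = _
    constructor
    · intro h
      change (QuotientGroup.mk (g * fr.rep o) : GL (Fin 2) F ⧸ fr.B) = QuotientGroup.mk (fr.rep o)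
      rw [eq_comm]
      apply QuotientGroup.eq.mpr
      rwa [← mul_assoc]
    · intro h
      have h2 : (QuotientGroup.mk (g * fr.rep o) : GL (Fin 2) F ⧸ fr.B) = QuotientGroup.mk (fr.rep o) := h
      have h3 := QuotientGroup.eq.mp h2.symm
      rwa [← mul_assoc] at h3
  change (Nat.card (MulAction.fixedBy (GL (Fin 2) F ⧸ fr.B) g) : ℂ) = _
  rw [h1, Nat.card_eq_fintype_card, Fintype.card_subtype, Finset.card_filter, Fintype.sum_option]
  push_cast
  congr 1
  · simp only [CfsgLib.G2A.Frame.rep, inv_one, one_mul, mul_one]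
    by_cases h : g ∈ fr.B
    · rw [if_pos h, if_pos ((fr.mem_B g).mp h)]
    · rw [if_neg h, if_neg (fun h' => h ((fr.mem_B g).mpr h'))]
  · refine Finset.sum_congr rfl fun c _ => ?_
    have h2 : (fr.rep (some c))⁻¹ * g * fr.rep (some c) ∈ fr.B ↔ fr.mat g 0 1 + c * (fr.mat g 0 0 - fr.mat g 1 1) - c ^ 2 * fr.mat g 1 0 = 0 := by
      rw [fr.mem_B]
      simp only [CfsgLib.G2A.Frame.rep]
      rw [fr.mat_conj_rep]
      simp [fr.ε_ne]
    by_cases h : (fr.rep (some c))⁻¹ * g * fr.rep (some c) ∈ fr.B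
    · rw [if_pos h, if_pos (h2.mp h)]
    · rw [if_neg h, if_neg (fun h' => h (h2.mpr h'))]


/-- Values of the permutation character of GL₂ over a finite field F with q elements on the cosets of its upper triangular subgroup (equivalently, the number of lines of F² that an element maps to themselves): q + 1 at a scalar matrix, 2 at a diagonal matrix with two different diagonal entries, 0 at an element with no eigenvector in F², and 1 at an upper triangular matrix with equal diagonal entries and non-zero upper right entry. -/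
theorem result {F : Type*} [Field F] [Fintype F] (g : Matrix.GeneralLinearGroup (Fin 2) F) :
    ((∃ a : F, (g : Matrix (Fin 2) (Fin 2) F) = a • (1 : Matrix (Fin 2) (Fin 2) F)) → Cfsg.fixedPointCharacter (Cfsg.upperTriangularGL 2 F) g = Fintype.card F + 1) ∧
    ((g : Matrix (Fin 2) (Fin 2) F) 0 1 = 0 → (g : Matrix (Fin 2) (Fin 2) F) 1 0 = 0 → (g : Matrix (Fin 2) (Fin 2) F) 0 0 ≠ (g : Matrix (Fin 2) (Fin 2) F) 1 1 →
      Cfsg.fixedPointCharacter (Cfsg.upperTriangularGL 2 F) g = 2) ∧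
    ((∀ (c : F) (v : Fin 2 → F), v ≠ 0 → (g : Matrix (Fin 2) (Fin 2) F).mulVec v ≠ c • v) → Cfsg.fixedPointCharacter (Cfsg.upperTriangularGL 2 F) g = 0) ∧
    ((g : Matrix (Fin 2) (Fin 2) F) 1 0 = 0 → (g : Matrix (Fin 2) (Fin 2) F) 0 0 = (g : Matrix (Fin 2) (Fin 2) F) 1 1 → (g : Matrix (Fin 2) (Fin 2) F) 0 1 ≠ 0 →
      Cfsg.fixedPointCharacter (Cfsg.upperTriangularGL 2 F) g = 1) := by
  classical
  rw [fixed_value]
  have hg : (frGL F).mat g = (g : Matrix (Fin 2) (Fin 2) F) := rfl
  rw [hg]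
  refine ⟨?_, ?_, ?_, ?_⟩
  · rintro ⟨a, ha⟩
    rw [ha]
    simp
    ring
  · intro h01 h10 hne
    have h1 : ∀ c : F, ((g : Matrix (Fin 2) (Fin 2) F) 0 1 + c * ((g : Matrix (Fin 2) (Fin 2) F) 0 0 - (g : Matrix (Fin 2) (Fin 2) F) 1 1) - c ^ 2 * (g : Matrix (Fin 2) (Fin 2) F) 1 0 = 0) ↔ c = 0 := by
      intro c
      rw [h01, h10]
      constructor
      · intro h
        have : c * ((g : Matrix (Fin 2) (Fin 2) F) 0 0 - (g : Matrix (Fin 2) (Fin 2) F) 1 1) = 0 := by linear_combination h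
        exact (mul_eq_zero.mp this).resolve_right (sub_ne_zero.mpr hne)
      · rintro rfl; ring
    simp only [h1, Finset.sum_ite_eq', Finset.mem_univ, if_true]
    rw [if_pos h10]
    norm_num
  · intro h
    have hr : (g : Matrix (Fin 2) (Fin 2) F) 1 0 ≠ 0 := by
      intro h0
      apply h ((g : Matrix (Fin 2) (Fin 2) F) 0 0) ![1, 0] (by
        intro h1
        have := congrFun h1 0
        simp at this)
      ext i
      fin_cases i <;> simp [Matrix.mulVec, dotProduct, Fin.sum_univ_two, h0]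
    have h1 : ∀ c : F, ¬ ((g : Matrix (Fin 2) (Fin 2) F) 0 1 + c * ((g : Matrix (Fin 2) (Fin 2) F) 0 0 - (g : Matrix (Fin 2) (Fin 2) F) 1 1) - c ^ 2 * (g : Matrix (Fin 2) (Fin 2) F) 1 0 = 0) := by
      intro c hc
      apply h ((g : Matrix (Fin 2) (Fin 2) F) 1 0 * c + (g : Matrix (Fin 2) (Fin 2) F) 1 1) ![c, 1] (by
        intro h1
        have := congrFun h1 1
        simp at this)
      ext i
      fin_cases i
      · simp [Matrix.mulVec, dotProduct, Fin.sum_univ_two]
        linear_combination hc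
      · simp [Matrix.mulVec, dotProduct, Fin.sum_univ_two]
    simp only [h1, hr, if_false, Finset.sum_const_zero, add_zero]
  · intro h10 h00 h01
    have h1 : ∀ c : F, ¬ ((g : Matrix (Fin 2) (Fin 2) F) 0 1 + c * ((g : Matrix (Fin 2) (Fin 2) F) 0 0 - (g : Matrix (Fin 2) (Fin 2) F) 1 1) - c ^ 2 * (g : Matrix (Fin 2) (Fin 2) F) 1 0 = 0) := by
      intro c hc
      apply h01
      rw [h10, h00] at hc
      linear_combination hc
    simp only [h1, if_false, Finset.sum_const_zero, add_zero]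
    rw [if_pos h10]

end Cfsg.Agent.S2308
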