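import Cfsg.Agent.EqBase
import Cfsg.Agent.LibG2I

set_option autoImplicit false
open Cfsg

namespace Cfsg.Agent.S2309

open CfsgLib.CharBasic CfsgLib.G2B CfsgLib.G2C CfsgLib.G2D CfsgLib.G2H CfsgLib.G2I


/-- Over a finite field F with q elements: every irreducible complex character of GL₂ of degree q − 1 vanishes at every diagonal matrix with two distinct entries, and every irreducible complex character of degree q + 1 vanishes at every element with no eigenvector in F². -/
theorem result {F : Type*} [Field F] [Fintype F] (χ : Matrix.GeneralLinearGroup (Fin 2) F → ℂ) (hχ : Cfsg.IsIrrCharacter (Matrix.GeneralLinearGroup (Fin 2) F) χ) (g : Matrix.GeneralLinearGroup (Fin 2) F) :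
    (χ 1 = (Fintype.card F : ℂ) - 1 → (g : Matrix (Fin 2) (Fin 2) F) 0 1 = 0 → (g : Matrix (Fin 2) (Fin 2) F) 1 0 = 0 → (g : Matrix (Fin 2) (Fin 2) F) 0 0 ≠ (g : Matrix (Fin 2) (Fin 2) F) 1 1 → χ g = 0) ∧
    (χ 1 = (Fintype.card F : ℂ) + 1 → (∀ (c : F) (v : Fin 2 → F), v ≠ 0 → (g : Matrix (Fin 2) (Fin 2) F).mulVec v ≠ c • v) → χ g = 0) := by
  classical
  have hq : 2 ≤ Fintype.card F := Fintype.one_lt_card
  have hF : (Fintype.card F : ℂ) ≠ 0 := by exact_mod_cast Fintype.card_ne_zero
  obtain ⟨K, M, hs, h1, h2, hM, hK, h0, -⟩ := gl_main (F := F)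
  have h1' : χ 1 = K ⟨χ, hχ⟩ + ((Fintype.card F : ℂ) - 1) * M ⟨χ, hχ⟩ := h1 ⟨χ, hχ⟩
  have hcases := deg_cases hq h1' (hM _) (hK _) (h0 _)
  have hnat : ∀ n m : ℕ, (n : ℂ) = m → n = m := fun n m h => by exact_mod_cast h
  constructor
  · intro hdeg h01 h10 hne
    have hq3 : 3 ≤ Fintype.card F := by
      by_contra hcon
      have hq2 : Fintype.card F = 2 := by omega
      have hd := gl_det_ne g
      rw [Matrix.det_fin_two, h01, zero_mul, sub_zero] at hd
      have ha := left_ne_zero_of_mul hd
      have hb := right_ne_zero_of_mul hd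
      have hsub : Subsingleton Fˣ := by
        rw [← Finite.card_le_one_iff_subsingleton, Nat.card_eq_fintype_card, Fintype.card_units, hq2]
      apply hne
      have := Subsingleton.elim (Units.mk0 _ ha) (Units.mk0 _ hb)
      exact congrArg Units.val this
    have key := deg_iff hq3 (h1 ⟨χ, hχ⟩) (hM _) (hK _) (h0 _)
    have hK0 := key.2.2.2.mp hdeg
    have hsum : ∑ c : F, χ ((frGL F).u c) = 0 := by
      rw [hs ⟨χ, hχ⟩, hK0]; simp
    have hz := sum_zero (frGL F) (irr_isCharacter hχ) hsum g
    have hc : ∀ c : F, χ (g * (frGL F).u c) = χ g := by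
      intro c
      apply isClassFunction_iff_mem.mp (irr_classFun hχ)
      have hm : ((g * (frGL F).u c : GL (Fin 2) F) : Matrix (Fin 2) (Fin 2) F) =
          !![(g : Matrix (Fin 2) (Fin 2) F) 0 0, (g : Matrix (Fin 2) (Fin 2) F) 0 0 * c + (g : Matrix (Fin 2) (Fin 2) F) 0 1;
            (g : Matrix (Fin 2) (Fin 2) F) 1 0, (g : Matrix (Fin 2) (Fin 2) F) 1 0 * c + (g : Matrix (Fin 2) (Fin 2) F) 1 1] :=
        (frGL F).mat_mul_u g c
      apply gl_conj
      · rw [hm]
        intro h
        apply hne
        have := h.2.2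
        simpa [h10] using this
      · intro h
        exact hne h.2.2
      · rw [hm, Matrix.trace_fin_two_of, Matrix.trace_fin_two, h10]; ring
      · rw [hm, Matrix.det_fin_two_of, Matrix.det_fin_two, h10]; ring
    rw [Finset.sum_congr rfl (fun c _ => hc c), Finset.sum_const, Finset.card_univ, nsmul_eq_mul] at hz
    exact (mul_eq_zero.mp hz).resolve_left hF
  · intro hdeg hell
    have hK2 : K ⟨χ, hχ⟩ = 2 := by
      rcases hcases with h | h | h | h
      · exfalso
        rw [hdeg] at h
        have := hnat (Fintype.card F + 1) 1 (by push_cast; exact h.1)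
        omega
      · exfalso
        rw [hdeg] at h
        have := hnat (Fintype.card F + 1 + 1) (Fintype.card F) (by push_cast; linear_combination h.1)
        omega
      · exfalso
        rw [hdeg] at h
        have := hnat (Fintype.card F + 1) (Fintype.card F) (by push_cast; exact h.1)
        omega
      · exact h.2.2
    have hsum : ∑ c : F, χ ((frGL F).u c) = (Fintype.card F : ℂ) * 2 := by
      rw [hs ⟨χ, hχ⟩, hK2]; simp
    obtain ⟨f, L, hf, hL, h | h⟩ := K_cases (frGL F) hχ (by rw [hsum]; exact mul_ne_zero hF (by norm_num))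
    · rw [h.2.1]
      exact ind_ell (frGL F) L hell
    · exfalso
      have h3 := h.2.1
      rw [hsum] at h3
      have h4 : (Fintype.card F : ℂ) = 0 := by linear_combination h3
      exact hF h4

end Cfsg.Agent.S2309
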