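import Cfsg.Agent.EqBase
import Cfsg.Agent.LibG2H

set_option autoImplicit false
open Cfsg

namespace Cfsg.Agent.S2310

open CfsgLib.G2C CfsgLib.G2H


/-- Over a finite field F with q ≥ 3 elements, let u be the upper unitriangular matrix of GL₂ with off-diagonal entry 1. An irreducible complex character χ of GL₂ takes at u the value 1 if χ has degree 1 or q + 1, the value −1 if χ has degree q − 1, and the value 0 if χ has degree q. -/
theorem result {F : Type*} [Field F] [Fintype F] (hq : 3 ≤ Fintype.card F) (χ : Matrix.GeneralLinearGroup (Fin 2) F → ℂ) (hχ : Cfsg.IsIrrCharacter (Matrix.GeneralLinearGroup (Fin 2) F) χ)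
    (u : Matrix.GeneralLinearGroup (Fin 2) F) (hu : (u : Matrix (Fin 2) (Fin 2) F) = !![1, 1; 0, 1]) :
    (χ 1 = 1 → χ u = 1) ∧ (χ 1 = (Fintype.card F : ℂ) + 1 → χ u = 1) ∧
    (χ 1 = (Fintype.card F : ℂ) - 1 → χ u = -1) ∧ (χ 1 = (Fintype.card F : ℂ) → χ u = 0) := by
  classical
  obtain ⟨K, M, -, h1, h2, hM, hK, h0, -⟩ := gl_main (F := F)
  have key := deg_iff hq (h1 ⟨χ, hχ⟩) (hM _) (hK _) (h0 _)
  have hu' : u = (frGL F).u 1 := Units.ext hu
  have h3 : χ u = K ⟨χ, hχ⟩ - M ⟨χ, hχ⟩ := by rw [hu']; exact h2 ⟨χ, hχ⟩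
  have hM1 : M ⟨χ, hχ⟩ = 0 ∨ M ⟨χ, hχ⟩ = 1 := by have := hM ⟨χ, hχ⟩; omega
  refine ⟨fun h => ?_, fun h => ?_, fun h => ?_, fun h => ?_⟩
  · have h4 := key.1.mp h
    rw [h3, h4, h0 _ h4]; simp
  · have h4 := key.2.2.1.mp h
    rcases hM1 with h5 | h5
    · have := h0 _ h5; omega
    · rw [h3, h4, h5]; norm_num
  · have h4 := key.2.2.2.mp h
    rcases hM1 with h5 | h5
    · have := h0 _ h5; omega
    · rw [h3, h4, h5]; norm_num
  · have h4 := key.2.1.mp h
    rw [h3, h4.1, h4.2]; simp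

end Cfsg.Agent.S2310
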