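import Cfsg.Statements.S2312
import Mathlib
import Cfsg.Agent.LibStVal15d
-- import your own Cfsg.Agent.* helpers here

set_option autoImplicit false
open Cfsg

namespace Cfsg.Agent.S2312



/-- In a Chevalley group of type G₂, B₂, D₄, F₄, E₆, E₇ or E₈ over a finite field of characteristic p, the value of the Steinberg character at an element g of order prime to p (a semisimple element) is, up to sign, the largest power of p dividing the order of the centralizer of g. -/
theorem result {F : Type*} [Field F] [Fintype F] (p : ℕ) [Fact p.Prime] [CharP F p] (D : Cfsg.Lie.ChevalleyDatum) (hD : D ∈ [Cfsg.Lie.chevG2, Cfsg.Lie.chevB2, Cfsg.Lie.chevD4, Cfsg.Lie.chevF4, Cfsg.Lie.chevE6, Cfsg.Lie.chevE7, Cfsg.Lie.chevE8]) (g : ↥(D.group F)) (hg : ¬ p ∣ orderOf g) :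
    D.steinbergCharacter F g = ((p ^ (Nat.card ↥(Subgroup.centralizer ({g} : Set ↥(D.group F)))).factorization p : ℕ) : ℂ) ∨
      D.steinbergCharacter F g = -((p ^ (Nat.card ↥(Subgroup.centralizer ({g} : Set ↥(D.group F)))).factorization p : ℕ) : ℂ) := by
    simp only [List.mem_cons, List.not_mem_nil, or_false] at hD
    rcases hD with rfl | rfl | rfl | rfl | rfl | rfl | rfl
    · exact CfsgLib.Chev.good3_G2.val_thm (by decide +kernel) g hg
    · exact CfsgLib.Chev.good3_B2.val_thm (by decide +kernel) g hg
    · exact CfsgLib.Chev.good3_D4.val_thm (by decide +kernel) g hg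
    · exact CfsgLib.Chev.good3_F4.val_thm (by decide +kernel) g hg
    · exact CfsgLib.Chev.good3_E6.val_thm (by decide +kernel) g hg
    · exact CfsgLib.Chev.good3_E7.val_thm (by decide +kernel) g hg
    · exact CfsgLib.Chev.good3_E8.val_thm (by decide +kernel) g hg

end Cfsg.Agent.S2312
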