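import Cfsg.Statements.S2315
import Cfsg.Agent.LibNilH13
import Cfsg.Agent.LibUniH13

set_option autoImplicit false
open Cfsg

namespace Cfsg.Agent.S2315

open Module CfsgLib.Jor in
theorem main {F : Type*} [Field F] {p : ℕ} [Fact p.Prime] [CharP F p] (n : ℕ) :
    Nat.card {g : Matrix.GeneralLinearGroup (Fin n) F // ∃ k : ℕ, orderOf g = p ^ k} = Nat.card {T : End F (Fin n → F) // IsNilpotent T} := by
  refine Nat.card_congr (Equiv.ofBijective (fun g => ⟨Matrix.toLin' (g.1 : Matrix (Fin n) (Fin n) F) - 1, (CfsgLib.Uni.ppow_iff g.1).1 g.2⟩) ⟨?_, ?_⟩)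
  · rintro ⟨g, hg⟩ ⟨h, hh⟩ e
    have e1 := congrArg Subtype.val e
    simp only [sub_left_inj] at e1
    exact Subtype.ext (Units.ext (Matrix.toLin'.injective e1))
  · rintro ⟨T, hT⟩
    have h1 : IsUnit (1 + T) := hT.isUnit_one_add
    obtain ⟨g, hg⟩ : ∃ g : Matrix.GeneralLinearGroup (Fin n) F, Matrix.toLin' (g : Matrix (Fin n) (Fin n) F) = 1 + T := by
      have h2 : IsUnit (LinearMap.toMatrixAlgEquiv' (1 + T)) := h1.map _
      obtain ⟨g, hg⟩ := h2
      refine ⟨g, ?_⟩
      rw [hg]
      exact Matrix.toLin'_toMatrix' (1 + T)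
    have h3 : Matrix.toLin' (g : Matrix (Fin n) (Fin n) F) - 1 = T := by rw [hg, add_sub_cancel_left]
    exact ⟨⟨g, (CfsgLib.Uni.ppow_iff g).2 (by rw [h3]; exact hT)⟩, Subtype.ext h3⟩

/-- Steinberg's count of unipotent elements for the general linear group: over a finite field with q elements of characteristic p, the number of elements of GL_n of p-power order (the unipotent matrices) is q^(n(n−1)). -/
theorem result {F : Type*} [Field F] [Fintype F] (p : ℕ) [Fact p.Prime] [CharP F p] (n : ℕ) :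
    Nat.card {g : Matrix.GeneralLinearGroup (Fin n) F // ∃ k : ℕ, orderOf g = p ^ k} = Fintype.card F ^ (n * (n - 1)) := by
  rw [main, CfsgLib.Nil.card_nil n (Fin n → F) (by simp), Nat.card_eq_fintype_card]

end Cfsg.Agent.S2315
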