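import Cfsg.Statements.S2317
import Cfsg.Agent.LibUniH13

set_option autoImplicit false
open Cfsg

namespace Cfsg.Agent.S2317

open Module CfsgLib.Jor CfsgLib.Uni

/-- Over a finite field of characteristic p, the conjugacy classes of GL_n consisting of elements of p-power order (the unipotent classes) are as many as the partitions of n. -/
theorem result {F : Type*} [Field F] [Fintype F] (p : ℕ) [Fact p.Prime] [CharP F p] (n : ℕ) :
    Nat.card {C : ConjClasses (Matrix.GeneralLinearGroup (Fin n) F) //
      ∃ g : Matrix.GeneralLinearGroup (Fin n) F, (∃ k : ℕ, orderOf g = p ^ k) ∧ ConjClasses.mk g = C} =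
      Fintype.card (Nat.Partition n) := by
  classical
  have key := CfsgLib.InvC.card_types (G := GL (Fin n) F) (fun g => ∃ k : ℕ, orderOf g = p ^ k) (fun g => nk (Matrix.toLin' (g : Matrix (Fin n) (Fin n) F)))
    ((Finset.univ : Finset (Nat.Partition n)).image (fun μ => sm μ.parts)) ?_ ?_ ?_
  · rw [Finset.card_image_of_injective, Finset.card_univ] at key
    · rw [← key]
      exact Nat.card_congr (Equiv.subtypeEquivRight fun C => exists_congr fun g => and_comm)
    · intro μ ν h
      apply Nat.Partition.ext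
      exact sm_inj (fun a ha => μ.parts_pos ha) (fun a ha => ν.parts_pos ha) (congrFun h)
  · intro g hg
    obtain ⟨M, hM⟩ := (ppow_iff g).1 hg
    obtain ⟨S, hS1, hS2, hS3⟩ := exists_parts hM
    rw [Module.finrank_fin_fun] at hS2
    rw [Finset.mem_image]
    exact ⟨⟨S, fun {i} hi => (hS1 i hi).1, hS2⟩, Finset.mem_univ _, funext fun k => (hS3 k).symm⟩
  · intro x hx
    rw [Finset.mem_image] at hx
    obtain ⟨μ, -, rfl⟩ := hx
    have hle : ∀ a ∈ μ.parts, a ≤ p ^ n := by
      intro a ha
      have h1 : a ≤ n := by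
        have := Multiset.single_le_sum (fun _ _ => Nat.zero_le _) a ha
        rwa [μ.parts_sum] at this
      exact h1.trans (Nat.lt_pow_self (Fact.out : p.Prime).one_lt).le
    obtain ⟨T, hT, hTk⟩ := exists_type (F := F) μ.parts μ.parts_sum hle
    have hT' := hT
    rw [sub_pow_pk, sub_eq_zero] at hT'
    obtain ⟨A, hA⟩ := exists_gl (pow_ne_zero n (Fact.out : p.Prime).ne_zero) hT'
    refine ⟨A, (ppow_iff A).2 ⟨_, by rw [hA]; exact hT⟩, ?_⟩
    funext k
    rw [hA, hTk]
  · intro g h hg hh
    constructor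
    · intro hc
      obtain ⟨ψ, hψ⟩ := lin_conj hc
      funext k
      exact nk_congr ψ hψ k
    · intro hn
      obtain ⟨M, hM⟩ := (ppow_iff g).1 hg
      obtain ⟨M', hM'⟩ := (ppow_iff h).1 hh
      obtain ⟨ψ, hψ⟩ := conj_of_nk hM hM' (congrFun hn)
      refine CfsgLib.Cls.isConj_of_lin ψ (fun v => ?_)
      have := hψ v
      rwa [Matrix.toLin'_apply, Matrix.toLin'_apply] at this

end Cfsg.Agent.S2317
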