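import Cfsg.Agent.EqBase
import Cfsg.Agent.LibG2I

set_option autoImplicit false
open Cfsg

namespace Cfsg.Agent.S2320

open CfsgLib.CharBasic CfsgLib.G2B CfsgLib.G2C CfsgLib.G2D CfsgLib.G2H CfsgLib.G2I


/-- Over a finite field F with q elements, every irreducible complex character of GL₂ of degree q takes a value of absolute value 1 at every diagonal matrix with two different diagonal entries and at every element with no eigenvector in F². -/
theorem result {F : Type*} [Field F] [Fintype F] (χ : Matrix.GeneralLinearGroup (Fin 2) F → ℂ) (hχ : Cfsg.IsIrrCharacter (Matrix.GeneralLinearGroup (Fin 2) F) χ) (hdeg : χ 1 = (Fintype.card F : ℂ)) (g : Matrix.GeneralLinearGroup (Fin 2) F) :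
    ((g : Matrix (Fin 2) (Fin 2) F) 0 1 = 0 → (g : Matrix (Fin 2) (Fin 2) F) 1 0 = 0 → (g : Matrix (Fin 2) (Fin 2) F) 0 0 ≠ (g : Matrix (Fin 2) (Fin 2) F) 1 1 → ‖χ g‖ = 1) ∧
    ((∀ (c : F) (v : Fin 2 → F), v ≠ 0 → (g : Matrix (Fin 2) (Fin 2) F).mulVec v ≠ c • v) → ‖χ g‖ = 1) := by
  classical
  have hq : 2 ≤ Fintype.card F := Fintype.one_lt_card
  have hF : (Fintype.card F : ℂ) ≠ 0 := by exact_mod_cast Fintype.card_ne_zero
  obtain ⟨K, M, hs, h1, h2, hM, hK, h0, -⟩ := gl_main (F := F)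
  have h1' : χ 1 = K ⟨χ, hχ⟩ + ((Fintype.card F : ℂ) - 1) * M ⟨χ, hχ⟩ := h1 ⟨χ, hχ⟩
  have hcases := deg_cases hq h1' (hM _) (hK _) (h0 _)
  have hnat : ∀ n m : ℕ, (n : ℂ) = m → n = m := fun n m h => by exact_mod_cast h
  have hK1 : K ⟨χ, hχ⟩ = 1 := by
    rcases hcases with h | h | h | h
    · exact h.2.2
    · exfalso
      rw [hdeg] at h
      have := hnat (Fintype.card F + 1) (Fintype.card F) (by push_cast; linear_combination h.1)
      omega
    · exact h.2.2
    · exfalso
      rw [hdeg] at h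
      have := hnat (Fintype.card F + 1) (Fintype.card F) (by push_cast; linear_combination -h.1)
      omega
  have hsum : ∑ c : F, χ ((frGL F).u c) = (Fintype.card F : ℂ) := by
    rw [hs ⟨χ, hχ⟩, hK1]; simp
  obtain ⟨f, L, hf, hL, h | ⟨hfw, -, ψ, hψ, hne, hψs, hI⟩⟩ := K_cases (frGL F) hχ (by rw [hsum]; exact hF)
  · exfalso
    have h3 := h.2.2
    rw [hsum] at h3
    have h4 : (Fintype.card F : ℂ) = 0 := by linear_combination -h3
    exact hF h4
  · have hψ1 : ψ 1 = 1 := by
      have h3 := congrFun hI 1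
      rw [ind_one_value (frGL F) hL, Pi.add_apply, hdeg] at h3
      linear_combination -h3
    constructor
    · intro h01 h10 hne'
      have hm : g ∈ (frGL F).B := ((frGL F).mem_B g).mpr h10
      have h3 := congrFun hI g
      rw [ind_diag (frGL F) L h01 h10 hne', Pi.add_apply] at h3
      have hinner : classInner ψ (indFun (frGL F).B ((frGL F).lam L)) ≠ 0 := by
        rw [hI, CfsgLib.CharBasic.inner_add_right, irr_inner_ne hψ hχ hne, irr_inner_self hψ]
        norm_num
      have h4 : ψ g = (f ⟨g, hm⟩ : ℂ) := linear_restrict (frGL F) hL hψ hψ1 hinner ⟨g, hm⟩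
      have h5 := (CfsgLib.G2E.eq_comp_sw_iff (frGL F) hL hL).mp hfw ⟨g, hm⟩
      have h6 : L ((frGL F).mat g 0 0) ((frGL F).mat g 1 1) = (f ⟨g, hm⟩ : ℂ) := hL ⟨g, hm⟩
      have h7 : χ g = (f ⟨g, hm⟩ : ℂ) := by
        have h5' : L ((frGL F).mat g 0 0) ((frGL F).mat g 1 1) = L ((frGL F).mat g 1 1) ((frGL F).mat g 0 0) := h5
        rw [← h5', h6, h4] at h3
        linear_combination -h3
      rw [h7]
      exact norm_hom f _
    · intro hell
      have h3 := congrFun hI g
      rw [ind_ell (frGL F) L hell, Pi.add_apply] at h3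
      have h7 : χ g = - ψ g := by linear_combination -h3
      rw [h7, norm_neg]
      exact norm_linear (irr_isCharacter hψ) hψ1 g

end Cfsg.Agent.S2320
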