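import Cfsg.Agent.EqBase
import Cfsg.Agent.LibG2M

set_option autoImplicit false
open Cfsg

namespace Cfsg.Agent.S2321


open scoped ComplexConjugate
open CfsgLib.CharBasic CfsgLib.G2A CfsgLib.G2B CfsgLib.G2C CfsgLib.G2D CfsgLib.G2E CfsgLib.G2F CfsgLib.G2G CfsgLib.G2H CfsgLib.G2I CfsgLib.G2J CfsgLib.G2K CfsgLib.G2L CfsgLib.G2M


/-- Over a finite field F with q elements, an irreducible complex character of SL₂ of degree q (the Steinberg character) takes the value 1 at every diagonal matrix whose diagonal entry a has a² ≠ 1, the value −1 at every element with no eigenvector in F², and the value 0 at every upper triangular matrix with equal diagonal entries and non-zero upper right entry. -/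
theorem result {F : Type*} [Field F] [Fintype F] (χ : Matrix.SpecialLinearGroup (Fin 2) F → ℂ) (hχ : Cfsg.IsIrrCharacter (Matrix.SpecialLinearGroup (Fin 2) F) χ) (hdeg : χ 1 = (Fintype.card F : ℂ)) (g : Matrix.SpecialLinearGroup (Fin 2) F) :
    ((g : Matrix (Fin 2) (Fin 2) F) 0 1 = 0 → (g : Matrix (Fin 2) (Fin 2) F) 1 0 = 0 → (g : Matrix (Fin 2) (Fin 2) F) 0 0 ^ 2 ≠ 1 → χ g = 1) ∧
    ((∀ (c : F) (v : Fin 2 → F), v ≠ 0 → (g : Matrix (Fin 2) (Fin 2) F).mulVec v ≠ c • v) → χ g = -1) ∧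
    ((g : Matrix (Fin 2) (Fin 2) F) 1 0 = 0 → (g : Matrix (Fin 2) (Fin 2) F) 0 0 = (g : Matrix (Fin 2) (Fin 2) F) 1 1 → (g : Matrix (Fin 2) (Fin 2) F) 0 1 ≠ 0 → χ g = 0) := by

  classical
  have hq2 : 2 ≤ Fintype.card F := Fintype.one_lt_card
  have hnat : ∀ n m : ℕ, (n : ℂ) = m → n = m := fun n m h => by exact_mod_cast h
  have hsum : ∑ c : F, χ ((frSL F).u c) = (Fintype.card F : ℂ) := by
    rcases Nat.even_or_odd (Fintype.card F) with hev | hodd
    · have hc : CharP F 2 := by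
        have := FiniteField.even_card_iff_char_two.mpr (Nat.even_iff.mp hev)
        exact ringChar.of_eq this
      obtain ⟨K, M, hs, h1, h2, hM, hK, h0, -⟩ := sl_even_main (F := F)
      have h1' : χ 1 = K ⟨χ, hχ⟩ + ((Fintype.card F : ℂ) - 1) * M ⟨χ, hχ⟩ := h1 ⟨χ, hχ⟩
      have hcases := deg_cases hq2 h1' (hM _) (hK _) (h0 _)
      have hK1 : K ⟨χ, hχ⟩ = 1 := by
        rcases hcases with h | h | h | h
        · exact h.2.2
        · exfalso
          rw [hdeg] at h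
          have := hnat (Fintype.card F + 1) (Fintype.card F) (by push_cast; linear_combination h.1)
          omega
        · exact h.2.2
        · exfalso
          rw [hdeg] at h
          have := hnat (Fintype.card F + 1) (Fintype.card F) (by push_cast; linear_combination -h.1)
          omega
      have := hs ⟨χ, hχ⟩
      rw [hK1] at this
      simpa using this
    · obtain ⟨ν, hν⟩ := FiniteField.exists_nonsquare (ringChar_ne_two (two_ne_of_odd hodd))
      obtain ⟨ψ, hψ⟩ := exists_addChar (F := F)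
      obtain ⟨K, a, b, h0, h1, h2, h3, ha, hb, hK, hK2, hK0, n1, n2, n3, n4, n5, n6⟩ := odd_main hodd hν hψ
      have hn := (nat2 (by omega : 1 ≤ Fintype.card F) (h1 ⟨χ, hχ⟩) (Fintype.card F)).mp hdeg
      have ha' := ha ⟨χ, hχ⟩
      have hb' := hb ⟨χ, hχ⟩
      have hK' := hK ⟨χ, hχ⟩
      have hK2' := hK2 ⟨χ, hχ⟩
      have hK0' := hK0 ⟨χ, hχ⟩
      have hK1 : K ⟨χ, hχ⟩ = 1 := by
        obtain ⟨k, hk⟩ := hodd
        have e1 : Fintype.card F - 1 = 2 * k := by omega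
        rw [e1] at hn
        have : a ⟨χ, hχ⟩ + b ⟨χ, hχ⟩ = 0 ∨ a ⟨χ, hχ⟩ + b ⟨χ, hχ⟩ = 1 ∨ a ⟨χ, hχ⟩ + b ⟨χ, hχ⟩ = 2 := by omega
        rcases this with h | h | h <;> rw [h] at hn <;> omega
      have := h0 ⟨χ, hχ⟩
      rw [hK1] at this
      simpa using this
  obtain ⟨f, L, hL, hf, hval⟩ := steinberg hχ hdeg hsum
  have hd := g.2
  rw [Matrix.det_fin_two] at hd
  refine ⟨?_, ?_, ?_⟩
  · intro h01 h10 hne
    have hne' : (frSL F).mat g 0 0 ≠ (frSL F).mat g 1 1 := by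
      intro h
      apply hne
      have h' : (g : Matrix (Fin 2) (Fin 2) F) 0 0 = (g : Matrix (Fin 2) (Fin 2) F) 1 1 := h
      rw [h01, zero_mul, sub_zero, ← h'] at hd
      rw [sq, hd]
    have hm : g ∈ (frSL F).B := ((frSL F).mem_B g).mpr h10
    have hm' : g⁻¹ ∈ (frSL F).B := inv_mem hm
    rw [hval, ind_diag (frSL F) L h01 h10 hne']
    have e1 : L ((frSL F).mat g 0 0) ((frSL F).mat g 1 1) = 1 := (hL ⟨g, hm⟩).trans (hf _)
    have e2 : L ((frSL F).mat g 1 1) ((frSL F).mat g 0 0) = 1 := by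
      have e3 : L ((frSL F).mat g⁻¹ 0 0) ((frSL F).mat g⁻¹ 1 1) = 1 := (hL ⟨g⁻¹, hm'⟩).trans (hf _)
      have e4 : (frSL F).mat g⁻¹ = ((g⁻¹ : Matrix.SpecialLinearGroup (Fin 2) F) : Matrix (Fin 2) (Fin 2) F) := rfl
      rw [e4, Matrix.SpecialLinearGroup.coe_inv, Matrix.adjugate_fin_two] at e3
      exact e3
    rw [e1, e2]; norm_num
  · intro hell
    rw [hval, ind_ell (frSL F) L hell]; norm_num
  · intro h10 h00 h01
    have hm : g ∈ (frSL F).B := ((frSL F).mem_B g).mpr h10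
    rw [hval, ind_unip (frSL F) L h10 h00 h01]
    have e1 : L ((frSL F).mat g 0 0) ((frSL F).mat g 1 1) = 1 := (hL ⟨g, hm⟩).trans (hf _)
    rw [e1]; norm_num

end Cfsg.Agent.S2321
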