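import Cfsg.Agent.EqBase
import Cfsg.Agent.LibG2M

set_option autoImplicit false
open Cfsg

namespace Cfsg.Agent.S2322


open scoped ComplexConjugate
open CfsgLib.CharBasic CfsgLib.G2A CfsgLib.G2B CfsgLib.G2C CfsgLib.G2D CfsgLib.G2E CfsgLib.G2F CfsgLib.G2G CfsgLib.G2H CfsgLib.G2I CfsgLib.G2J CfsgLib.G2K CfsgLib.G2L CfsgLib.G2M


/-- Over a finite field F with q elements, q odd: every irreducible complex character of SL₂ of degree q − 1 or (q − 1)/2 vanishes at every diagonal matrix whose diagonal entry a has a² ≠ 1, and every irreducible complex character of degree q + 1 or (q + 1)/2 vanishes at every element with no eigenvector in F². -/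
theorem result {F : Type*} [Field F] [Fintype F] (hodd : Odd (Fintype.card F)) (χ : Matrix.SpecialLinearGroup (Fin 2) F → ℂ) (hχ : Cfsg.IsIrrCharacter (Matrix.SpecialLinearGroup (Fin 2) F) χ) (g : Matrix.SpecialLinearGroup (Fin 2) F) :
    ((χ 1 = (Fintype.card F : ℂ) - 1 ∨ χ 1 = (((Fintype.card F - 1) / 2 : ℕ) : ℂ)) →
      (g : Matrix (Fin 2) (Fin 2) F) 0 1 = 0 → (g : Matrix (Fin 2) (Fin 2) F) 1 0 = 0 → (g : Matrix (Fin 2) (Fin 2) F) 0 0 ^ 2 ≠ 1 → χ g = 0) ∧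
    ((χ 1 = (Fintype.card F : ℂ) + 1 ∨ χ 1 = (((Fintype.card F + 1) / 2 : ℕ) : ℂ)) →
      (∀ (c : F) (v : Fin 2 → F), v ≠ 0 → (g : Matrix (Fin 2) (Fin 2) F).mulVec v ≠ c • v) → χ g = 0) := by

  classical
  have hq : 3 ≤ Fintype.card F := by
    have h2 : 2 ≤ Fintype.card F := Fintype.one_lt_card
    obtain ⟨k, hk⟩ := hodd
    omega
  have hF : (Fintype.card F : ℂ) ≠ 0 := by exact_mod_cast Fintype.card_ne_zero
  obtain ⟨ν, hν⟩ := FiniteField.exists_nonsquare (ringChar_ne_two (two_ne_of_odd hodd))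
  obtain ⟨ψ, hψ⟩ := exists_addChar (F := F)
  obtain ⟨K, a, b, h0, h1, h2, h3, ha, hb, hK, hK2, hK0, n1, n2, n3, n4, n5, n6⟩ := odd_main hodd hν hψ
  have key : ∀ χ : IrrCharacter (Matrix.SpecialLinearGroup (Fin 2) F), ∀ n : ℕ,
      (χ : Matrix.SpecialLinearGroup (Fin 2) F → ℂ) 1 = (n : ℂ) ↔ 2 * K χ + (Fintype.card F - 1) * (a χ + b χ) = 2 * n :=
    fun χ => nat2 (by omega : 1 ≤ Fintype.card F) (h1 χ)
  have e2 : (Fintype.card F : ℂ) + 1 = ((Fintype.card F + 1 : ℕ) : ℂ) := by push_cast; ring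
  have e3 : (Fintype.card F : ℂ) - 1 = ((Fintype.card F - 1 : ℕ) : ℂ) := by push_cast [Nat.cast_sub (by omega : 1 ≤ Fintype.card F)]; ring
  have hhalf : ∀ χ : IrrCharacter (Matrix.SpecialLinearGroup (Fin 2) F), K χ = 1 → a χ + b χ = 1 → Ell (g : Matrix (Fin 2) (Fin 2) F) →
      (χ : Matrix.SpecialLinearGroup (Fin 2) F → ℂ) g = 0 := fun χ h4 h5 h6 => half_zero hν hψ h0 h1 h2 h3 hodd n4 χ h4 h5 h6
  constructor
  · intro hdeg h01 h10 hne
    have hq5 : 5 ≤ Fintype.card F := by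
      by_contra hcon
      have h6 : Fintype.card F = 3 := by
        obtain ⟨k, hk⟩ := hodd
        omega
      have hd := g.2
      rw [Matrix.det_fin_two, h01, zero_mul, sub_zero] at hd
      have h7 := FiniteField.pow_card_sub_one_eq_one ((g : Matrix (Fin 2) (Fin 2) F) 0 0) (fun h => by rw [h, zero_mul] at hd; exact zero_ne_one hd)
      rw [h6] at h7
      exact hne h7
    have tt := type_iff hq5 hodd (ha ⟨χ, hχ⟩) (hb ⟨χ, hχ⟩) (hK ⟨χ, hχ⟩) (hK2 ⟨χ, hχ⟩) (hK0 ⟨χ, hχ⟩)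
    have hK0' : K ⟨χ, hχ⟩ = 0 := by
      rcases hdeg with h | h
      · rw [e3] at h
        exact (tt.2.2.2.1.mp ((key ⟨χ, hχ⟩ _).mp h)).1
      · exact (tt.2.2.2.2.2.mp ((key ⟨χ, hχ⟩ _).mp h)).1
    have hz : ∑ c : F, χ ((frSL F).u c) = 0 := by
      have := h0 ⟨χ, hχ⟩
      rw [hK0'] at this
      simpa using this
    have hs := sum_zero (frSL F) (irr_isCharacter hχ) hz g
    rw [Finset.sum_congr rfl (fun c _ => isClassFunction_iff_mem.mp (irr_classFun hχ) _ _ (diag_conj hodd h01 h10 hne c)), Finset.sum_const,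
      Finset.card_univ, nsmul_eq_mul] at hs
    exact (mul_eq_zero.mp hs).resolve_left hF
  · intro hdeg hell
    have ha' := ha ⟨χ, hχ⟩
    have hb' := hb ⟨χ, hχ⟩
    have hK' := hK ⟨χ, hχ⟩
    have hK2' := hK2 ⟨χ, hχ⟩
    have hK0' := hK0 ⟨χ, hχ⟩
    have hcases : K ⟨χ, hχ⟩ = 2 ∨ (K ⟨χ, hχ⟩ = 1 ∧ a ⟨χ, hχ⟩ + b ⟨χ, hχ⟩ = 1) ∨ (Fintype.card F = 3 ∧ K ⟨χ, hχ⟩ = 0 ∧ a ⟨χ, hχ⟩ + b ⟨χ, hχ⟩ = 2) := by
      have h8 : 2 * K ⟨χ, hχ⟩ + (Fintype.card F - 1) * (a ⟨χ, hχ⟩ + b ⟨χ, hχ⟩) = 2 * (Fintype.card F + 1) ∨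
          2 * K ⟨χ, hχ⟩ + (Fintype.card F - 1) * (a ⟨χ, hχ⟩ + b ⟨χ, hχ⟩) = 2 * ((Fintype.card F + 1) / 2) := by
        rcases hdeg with h | h
        · left; rw [e2] at h; exact (key ⟨χ, hχ⟩ _).mp h
        · right; exact (key ⟨χ, hχ⟩ _).mp h
      obtain ⟨k, hk⟩ := hodd
      have e4 : Fintype.card F - 1 = 2 * k := by omega
      have e5 : (Fintype.card F + 1) / 2 = k + 1 := by omega
      rw [e4, e5, hk] at h8
      have : a ⟨χ, hχ⟩ + b ⟨χ, hχ⟩ = 0 ∨ a ⟨χ, hχ⟩ + b ⟨χ, hχ⟩ = 1 ∨ a ⟨χ, hχ⟩ + b ⟨χ, hχ⟩ = 2 := by omega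
      rcases this with h | h | h <;> rw [h] at h8 <;> omega
    rcases hcases with hk | hk | ⟨hq3, hk, hab⟩
    · have hsum : ∑ c : F, χ ((frSL F).u c) = (Fintype.card F : ℂ) * 2 := by
        have := h0 ⟨χ, hχ⟩
        rw [hk] at this
        simpa using this
      obtain ⟨f, L, hf, hL, h | ⟨hfw, h', -⟩⟩ := K_cases (frSL F) hχ (by rw [hsum]; exact mul_ne_zero hF two_ne_zero)
      · rw [h.2.1]; exact ind_ell (frSL F) L hell
      · exfalso
        rw [hsum] at h'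
        have h4 : (Fintype.card F : ℂ) = 0 := by linear_combination h'
        exact hF h4
    · exact hhalf ⟨χ, hχ⟩ hk.1 hk.2 hell
    · -- q = 3, the character of degree 2 of SL_2(3) which is rational
      have : Nonempty {χ // K χ = 0 ∧ a χ + b χ = 1} := (Nat.card_pos_iff.mp (by rw [n5]; norm_num)).1
      obtain ⟨l, hl⟩ := this
      have hl1 : (l : Matrix.SpecialLinearGroup (Fin 2) F → ℂ) 1 = 1 := by
        have := (key l 1).mpr (by rw [hl.1, hl.2, hq3])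
        rw [this]; simp
      obtain ⟨f, hf⟩ := exists_hom_of_linear (irr_isCharacter l.2) hl1
      have hχl := irr_mul_linear hχ f
      set X : IrrCharacter (Matrix.SpecialLinearGroup (Fin 2) F) := ⟨_, hχl⟩ with hX
      have hXval : ∀ g, (X : Matrix.SpecialLinearGroup (Fin 2) F → ℂ) g = χ g * (l : Matrix.SpecialLinearGroup (Fin 2) F → ℂ) g := fun g => by
        rw [hf]
      have haa : a ⟨χ, hχ⟩ = 1 := by omega
      have hbb : b ⟨χ, hχ⟩ = 1 := by omega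
      have g2 : χ ((frSL F).u 1) + χ ((frSL F).u ν) = 2 * K ⟨χ, hχ⟩ - (a ⟨χ, hχ⟩ + b ⟨χ, hχ⟩) := h2 ⟨χ, hχ⟩
      have g3 : χ ((frSL F).u 1) - χ ((frSL F).u ν) = (a ⟨χ, hχ⟩ - b ⟨χ, hχ⟩) * gs ψ := h3 ⟨χ, hχ⟩
      rw [hk, haa, hbb] at g2
      rw [haa, hbb] at g3
      push_cast at g2 g3
      have v1 : χ ((frSL F).u 1) = -1 := by
        apply mul_left_cancel₀ (two_ne_zero (α := ℂ))
        linear_combination g2 + g3
      have v2 : χ ((frSL F).u ν) = -1 := by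
        apply mul_left_cancel₀ (two_ne_zero (α := ℂ))
        linear_combination g2 - g3
      have v3 : χ 1 = 2 := by
        have := (key ⟨χ, hχ⟩ 2).mpr (by rw [hk, hab, hq3])
        simpa using this
      have w2 := h2 l
      have w2' : (l : Matrix.SpecialLinearGroup (Fin 2) F → ℂ) ((frSL F).u 1) + (l : Matrix.SpecialLinearGroup (Fin 2) F → ℂ) ((frSL F).u ν) = -1 := by
        have hab' : (a l : ℂ) + b l = 1 := by exact_mod_cast hl.2
        rw [w2, hl.1, hab']; norm_num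
      have x1 := (key X 2).mp (by rw [hXval, v3, hl1]; norm_num)
      rw [hq3] at x1
      have x2 := h2 X
      rw [hXval, hXval, v1, v2] at x2
      have aX := ha X
      have bX := hb X
      have kX := hK X
      have kX2 := hK2 X
      have kX0 := hK0 X
      have x3 : (K X = 1 ∧ a X + b X = 1) ∨ (K X = 0 ∧ a X + b X = 2) := by
        have : a X + b X = 0 ∨ a X + b X = 1 ∨ a X + b X = 2 := by omega
        omega
      rcases x3 with x3 | x3
      · have x4 := hhalf X x3.1 x3.2 hell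
        rw [hXval] at x4
        rcases mul_eq_zero.mp x4 with x5 | x5
        · exact x5
        · exfalso
          rw [hf] at x5
          exact (f g).ne_zero x5
      · exfalso
        have hab' : (a X : ℂ) + b X = 2 := by exact_mod_cast x3.2
        rw [x3.1, hab'] at x2
        have : (3 : ℂ) = 0 := by push_cast at x2; linear_combination x2 + w2'
        norm_num at this

end Cfsg.Agent.S2322
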