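import Cfsg.Agent.EqBase
import Cfsg.Agent.LibG2L

set_option autoImplicit false
open Cfsg

namespace Cfsg.Agent.S2323


open scoped ComplexConjugate
open CfsgLib.CharBasic CfsgLib.G2A CfsgLib.G2B CfsgLib.G2C CfsgLib.G2D CfsgLib.G2E CfsgLib.G2F CfsgLib.G2G CfsgLib.G2H CfsgLib.G2I CfsgLib.G2J CfsgLib.G2K CfsgLib.G2L


/-- Over a finite field F with q ≥ 4 elements, let u be the upper unitriangular matrix of SL₂ with off-diagonal entry 1. An irreducible complex character of SL₂ takes at u the value 1 if its degree is q + 1 and the value −1 if its degree is q − 1. -/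
theorem result {F : Type*} [Field F] [Fintype F] (hq : 4 ≤ Fintype.card F) (χ : Matrix.SpecialLinearGroup (Fin 2) F → ℂ) (hχ : Cfsg.IsIrrCharacter (Matrix.SpecialLinearGroup (Fin 2) F) χ)
    (u : Matrix.SpecialLinearGroup (Fin 2) F) (hu : (u : Matrix (Fin 2) (Fin 2) F) = !![1, 1; 0, 1]) :
    (χ 1 = (Fintype.card F : ℂ) + 1 → χ u = 1) ∧ (χ 1 = (Fintype.card F : ℂ) - 1 → χ u = -1) := by

  classical
  have e2 : (Fintype.card F : ℂ) + 1 = ((Fintype.card F + 1 : ℕ) : ℂ) := by push_cast; ring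
  have e3 : (Fintype.card F : ℂ) - 1 = ((Fintype.card F - 1 : ℕ) : ℂ) := by push_cast [Nat.cast_sub (by omega : 1 ≤ Fintype.card F)]; ring
  have hu' : u = (frSL F).u 1 := (frSL F).inj (hu.trans ((frSL F).mat_u 1).symm)
  rcases Nat.even_or_odd (Fintype.card F) with hev | hodd
  · have hc : CharP F 2 := by
      have := FiniteField.even_card_iff_char_two.mpr (Nat.even_iff.mp hev)
      exact ringChar.of_eq this
    obtain ⟨K, M, hs, h1, h2, hM, hK, h0, -⟩ := sl_even_main (F := F)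
    have h1' : χ 1 = K ⟨χ, hχ⟩ + ((Fintype.card F : ℂ) - 1) * M ⟨χ, hχ⟩ := h1 ⟨χ, hχ⟩
    have h2' : χ ((frSL F).u 1) = K ⟨χ, hχ⟩ - M ⟨χ, hχ⟩ := h2 ⟨χ, hχ⟩
    have hd := deg_iff (by omega : 3 ≤ Fintype.card F) h1' (hM _) (hK _) (h0 _)
    have hM' := hM ⟨χ, hχ⟩
    have h0' := h0 ⟨χ, hχ⟩
    rw [hu', h2']
    constructor
    · intro h
      have hk := hd.2.2.1.mp h
      have hm : M ⟨χ, hχ⟩ = 1 := by omega
      rw [hk, hm]; norm_num
    · intro h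
      have hk := hd.2.2.2.mp h
      have hm : M ⟨χ, hχ⟩ = 1 := by omega
      rw [hk, hm]; norm_num
  · obtain ⟨ν, hν⟩ := FiniteField.exists_nonsquare (ringChar_ne_two (two_ne_of_odd hodd))
    obtain ⟨ψ, hψ⟩ := exists_addChar (F := F)
    obtain ⟨K, a, b, h0, h1, h2, h3, ha, hb, hK, hK2, hK0, n1, n2, n3, n4, n5, n6⟩ := odd_main hodd hν hψ
    have hq5 : 5 ≤ Fintype.card F := by
      obtain ⟨k, hk⟩ := hodd
      omega
    have h1' : 2 * χ 1 = 2 * K ⟨χ, hχ⟩ + ((Fintype.card F : ℂ) - 1) * (a ⟨χ, hχ⟩ + b ⟨χ, hχ⟩) := h1 ⟨χ, hχ⟩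
    have h2' : χ ((frSL F).u 1) + χ ((frSL F).u ν) = 2 * K ⟨χ, hχ⟩ - (a ⟨χ, hχ⟩ + b ⟨χ, hχ⟩) := h2 ⟨χ, hχ⟩
    have h3' : χ ((frSL F).u 1) - χ ((frSL F).u ν) = (a ⟨χ, hχ⟩ - b ⟨χ, hχ⟩) * gs ψ := h3 ⟨χ, hχ⟩
    have hn := nat2 (by omega : 1 ≤ Fintype.card F) h1'
    have ht := type_iff hq5 hodd (ha ⟨χ, hχ⟩) (hb ⟨χ, hχ⟩) (hK ⟨χ, hχ⟩) (hK2 ⟨χ, hχ⟩) (hK0 ⟨χ, hχ⟩)
    have ha' := ha ⟨χ, hχ⟩
    have hb' := hb ⟨χ, hχ⟩
    have hK2' := hK2 ⟨χ, hχ⟩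
    rw [hu', e2, e3, hn, hn, ht.2.2.1, ht.2.2.2.1]
    constructor
    · intro hk
      obtain ⟨ea, eb⟩ := hK2' hk
      rw [hk, ea, eb] at h2'
      rw [ea, eb] at h3'
      apply mul_left_cancel₀ (two_ne_zero (α := ℂ))
      push_cast at h2' h3'
      linear_combination h2' + h3'
    · rintro ⟨hk, hab⟩
      have ea : a ⟨χ, hχ⟩ = 1 := by omega
      have eb : b ⟨χ, hχ⟩ = 1 := by omega
      rw [hk, ea, eb] at h2'
      rw [ea, eb] at h3'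
      apply mul_left_cancel₀ (two_ne_zero (α := ℂ))
      push_cast at h2' h3'
      linear_combination h2' + h3'

end Cfsg.Agent.S2323
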