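import Cfsg.Agent.EqBase
import Cfsg.Agent.LibG2L

set_option autoImplicit false
open Cfsg

namespace Cfsg.Agent.S2324


open scoped ComplexConjugate
open CfsgLib.CharBasic CfsgLib.G2A CfsgLib.G2B CfsgLib.G2C CfsgLib.G2D CfsgLib.G2E CfsgLib.G2F CfsgLib.G2G CfsgLib.G2H CfsgLib.G2I CfsgLib.G2J CfsgLib.G2K CfsgLib.G2L


/-- Over a finite field F with q elements, q odd and q ≥ 5, let u be the upper unitriangular matrix of SL₂ with off-diagonal entry 1 and let δ = (−1)^((q−1)/2). Every irreducible complex character χ of SL₂ of degree (q + 1)/2 satisfies (2χ(u) − 1)² = δq, and every irreducible complex character χ of degree (q − 1)/2 satisfies (2χ(u) + 1)² = δq; that is, χ(u) = (1 ± √(δq))/2 in the first case and χ(u) = (−1 ± √(δq))/2 in the second. Moreover two different irreducible characters of degree (q + 1)/2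 take the two different values (their values at u add up to 1), and likewise for degree (q − 1)/2 (values adding up to −1). -/
theorem result {F : Type*} [Field F] [Fintype F] (hodd : Odd (Fintype.card F)) (hq : 5 ≤ Fintype.card F)
    (u : Matrix.SpecialLinearGroup (Fin 2) F) (hu : (u : Matrix (Fin 2) (Fin 2) F) = !![1, 1; 0, 1]) :
    (∀ χ : Matrix.SpecialLinearGroup (Fin 2) F → ℂ, Cfsg.IsIrrCharacter (Matrix.SpecialLinearGroup (Fin 2) F) χ → χ 1 = (((Fintype.card F + 1) / 2 : ℕ) : ℂ) → (2 * χ u - 1) ^ 2 = (-1 : ℂ) ^ ((Fintype.card F - 1) / 2) * (Fintype.card F : ℂ)) ∧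
    (∀ χ : Matrix.SpecialLinearGroup (Fin 2) F → ℂ, Cfsg.IsIrrCharacter (Matrix.SpecialLinearGroup (Fin 2) F) χ → χ 1 = (((Fintype.card F - 1) / 2 : ℕ) : ℂ) → (2 * χ u + 1) ^ 2 = (-1 : ℂ) ^ ((Fintype.card F - 1) / 2) * (Fintype.card F : ℂ)) ∧
    (∀ χ₁ χ₂ : Matrix.SpecialLinearGroup (Fin 2) F → ℂ, Cfsg.IsIrrCharacter (Matrix.SpecialLinearGroup (Fin 2) F) χ₁ → Cfsg.IsIrrCharacter (Matrix.SpecialLinearGroup (Fin 2) F) χ₂ → χ₁ ≠ χ₂ →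
      χ₁ 1 = (((Fintype.card F + 1) / 2 : ℕ) : ℂ) → χ₂ 1 = (((Fintype.card F + 1) / 2 : ℕ) : ℂ) → χ₁ u + χ₂ u = 1) ∧
    (∀ χ₁ χ₂ : Matrix.SpecialLinearGroup (Fin 2) F → ℂ, Cfsg.IsIrrCharacter (Matrix.SpecialLinearGroup (Fin 2) F) χ₁ → Cfsg.IsIrrCharacter (Matrix.SpecialLinearGroup (Fin 2) F) χ₂ → χ₁ ≠ χ₂ →
      χ₁ 1 = (((Fintype.card F - 1) / 2 : ℕ) : ℂ) → χ₂ 1 = (((Fintype.card F - 1) / 2 : ℕ) : ℂ) → χ₁ u + χ₂ u = -1) := by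

  classical
  have hu' : u = (frSL F).u 1 := (frSL F).inj (hu.trans ((frSL F).mat_u 1).symm)
  have h20 := two_ne_of_odd hodd
  obtain ⟨ν, hν⟩ := FiniteField.exists_nonsquare (ringChar_ne_two h20)
  have hν0 : ν ≠ 0 := fun h => hν (h ▸ IsSquare.zero)
  obtain ⟨ψ, hψ⟩ := exists_addChar (F := F)
  obtain ⟨K, a, b, h0, h1, h2, h3, ha, hb, hK, hK2, hK0, n1, n2, n3, n4, n5, n6⟩ := odd_main hodd hν hψ
  have hgs := gs_sq h20 hψ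
  have heta : eta F (-1) = (-1 : ℂ) ^ ((Fintype.card F - 1) / 2) := by
    rw [eta_apply, quadraticChar_neg_one (ringChar_ne_two h20), ZMod.χ₄_eq_neg_one_pow (Nat.odd_iff.mp hodd)]
    have : Fintype.card F / 2 = (Fintype.card F - 1) / 2 := by
      obtain ⟨k, hk⟩ := hodd
      omega
    rw [this]
    push_cast
    rfl
  rw [heta] at hgs
  have key : ∀ χ : IrrCharacter (Matrix.SpecialLinearGroup (Fin 2) F), ∀ n : ℕ,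
      (χ : Matrix.SpecialLinearGroup (Fin 2) F → ℂ) 1 = (n : ℂ) ↔ 2 * K χ + (Fintype.card F - 1) * (a χ + b χ) = 2 * n :=
    fun χ => nat2 (by omega : 1 ≤ Fintype.card F) (h1 χ)
  have tt := fun χ => type_iff hq hodd (ha χ) (hb χ) (hK χ) (hK2 χ) (hK0 χ)
  have habsq : ∀ χ, a χ + b χ = 1 → ((a χ : ℂ) - b χ) ^ 2 = 1 := by
    intro χ h
    have : (a χ = 0 ∧ b χ = 1) ∨ (a χ = 1 ∧ b χ = 0) := by omega
    rcases this with ⟨x, y⟩ | ⟨x, y⟩ <;> rw [x, y] <;> norm_num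
  refine ⟨?_, ?_, ?_, ?_⟩
  · intro χ hχ hd
    have ty := (tt ⟨χ, hχ⟩).2.2.2.2.1.mp ((key ⟨χ, hχ⟩ _).mp hd)
    have h2' : χ ((frSL F).u 1) + χ ((frSL F).u ν) = 2 * K ⟨χ, hχ⟩ - (((a ⟨χ, hχ⟩ + b ⟨χ, hχ⟩ : ℕ)) : ℂ) := by
      rw [Nat.cast_add]; exact h2 ⟨χ, hχ⟩
    have h3' : χ ((frSL F).u 1) - χ ((frSL F).u ν) = (a ⟨χ, hχ⟩ - b ⟨χ, hχ⟩) * gs ψ := h3 ⟨χ, hχ⟩
    rw [ty.1, ty.2] at h2'
    have e : 2 * χ u - 1 = (a ⟨χ, hχ⟩ - b ⟨χ, hχ⟩) * gs ψ := by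
      rw [hu']
      push_cast at h2'
      linear_combination h2' + h3'
    rw [e, mul_pow, habsq _ ty.2, one_mul, hgs]
  · intro χ hχ hd
    have ty := (tt ⟨χ, hχ⟩).2.2.2.2.2.mp ((key ⟨χ, hχ⟩ _).mp hd)
    have h2' : χ ((frSL F).u 1) + χ ((frSL F).u ν) = 2 * K ⟨χ, hχ⟩ - (((a ⟨χ, hχ⟩ + b ⟨χ, hχ⟩ : ℕ)) : ℂ) := by
      rw [Nat.cast_add]; exact h2 ⟨χ, hχ⟩
    have h3' : χ ((frSL F).u 1) - χ ((frSL F).u ν) = (a ⟨χ, hχ⟩ - b ⟨χ, hχ⟩) * gs ψ := h3 ⟨χ, hχ⟩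
    rw [ty.1, ty.2] at h2'
    have e : 2 * χ u + 1 = (a ⟨χ, hχ⟩ - b ⟨χ, hχ⟩) * gs ψ := by
      rw [hu']
      push_cast at h2'
      linear_combination h2' + h3'
    rw [e, mul_pow, habsq _ ty.2, one_mul, hgs]
  · intro χ₁ χ₂ hχ₁ hχ₂ hne hd1 hd2
    have ty1 := (tt ⟨χ₁, hχ₁⟩).2.2.2.2.1.mp ((key ⟨χ₁, hχ₁⟩ _).mp hd1)
    have ty2 := (tt ⟨χ₂, hχ₂⟩).2.2.2.2.1.mp ((key ⟨χ₂, hχ₂⟩ _).mp hd2)
    have hp := partner hν hψ h1 h2 h3 h20 (Units.mk0 ν hν0) rfl 1 n4 ⟨χ₁, hχ₁⟩ ⟨χ₂, hχ₂⟩ ty1 ty2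
      (fun h => hne (congrArg Subtype.val h)) ((frSL F).u 1)
    have hp' : χ₂ ((frSL F).u 1) = χ₁ ((frSL F).u ν) := by
      rw [sgm_u, Units.val_mk0, mul_one] at hp
      exact hp
    have h2' : χ₁ ((frSL F).u 1) + χ₁ ((frSL F).u ν) = 2 * K ⟨χ₁, hχ₁⟩ - (((a ⟨χ₁, hχ₁⟩ + b ⟨χ₁, hχ₁⟩ : ℕ)) : ℂ) := by
      rw [Nat.cast_add]; exact h2 ⟨χ₁, hχ₁⟩
    rw [hu', hp', h2', ty1.1, ty1.2]; norm_num
  · intro χ₁ χ₂ hχ₁ hχ₂ hne hd1 hd2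
    have ty1 := (tt ⟨χ₁, hχ₁⟩).2.2.2.2.2.mp ((key ⟨χ₁, hχ₁⟩ _).mp hd1)
    have ty2 := (tt ⟨χ₂, hχ₂⟩).2.2.2.2.2.mp ((key ⟨χ₂, hχ₂⟩ _).mp hd2)
    have hp := partner hν hψ h1 h2 h3 h20 (Units.mk0 ν hν0) rfl 0 n5 ⟨χ₁, hχ₁⟩ ⟨χ₂, hχ₂⟩ ty1 ty2
      (fun h => hne (congrArg Subtype.val h)) ((frSL F).u 1)
    have hp' : χ₂ ((frSL F).u 1) = χ₁ ((frSL F).u ν) := by
      rw [sgm_u, Units.val_mk0, mul_one] at hp
      exact hp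
    have h2' : χ₁ ((frSL F).u 1) + χ₁ ((frSL F).u ν) = 2 * K ⟨χ₁, hχ₁⟩ - (((a ⟨χ₁, hχ₁⟩ + b ⟨χ₁, hχ₁⟩ : ℕ)) : ℂ) := by
      rw [Nat.cast_add]; exact h2 ⟨χ₁, hχ₁⟩
    rw [hu', hp', h2', ty1.1, ty1.2]; norm_num

end Cfsg.Agent.S2324
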