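import Cfsg.Agent.EqBase
import Cfsg.Agent.LibG2C

set_option autoImplicit false
open Cfsg

namespace Cfsg.Agent.S2329

open CfsgLib.G2B CfsgLib.G2C


/-- Over a finite field of characteristic p, any two elements of order p of GL₂ are conjugate: there is a single conjugacy class of non-identity unipotent elements. -/
theorem result {F : Type*} [Field F] [Fintype F] (p : ℕ) [Fact p.Prime] [CharP F p] (g h : Matrix.GeneralLinearGroup (Fin 2) F)
    (hg : orderOf g = p) (hh : orderOf h = p) : IsConj g h := by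
  have h1 : ∀ x : GL (Fin 2) F, orderOf x = p → ¬ IsSc (x : Matrix (Fin 2) (Fin 2) F) ∧
      (x : Matrix (Fin 2) (Fin 2) F).trace = 2 ∧ (x : Matrix (Fin 2) (Fin 2) F).det = 1 := by
    intro x hx
    have h2 : (x : Matrix (Fin 2) (Fin 2) F) ^ p = 1 := by
      have : x ^ p = 1 := by rw [← hx, pow_orderOf_eq_one]
      exact congrArg (fun z : GL (Fin 2) F => (z : Matrix (Fin 2) (Fin 2) F)) this
    have hne : (x : Matrix (Fin 2) (Fin 2) F) ≠ 1 := by
      intro h
      have : x = 1 := Units.ext h
      rw [this, orderOf_one] at hx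
      exact (Fact.out : p.Prime).one_lt.ne hx
    exact ⟨not_sc_of_pow p h2 hne, trace_of_pow p h2⟩
  obtain ⟨a1, a2, a3⟩ := h1 g hg
  obtain ⟨b1, b2, b3⟩ := h1 h hh
  exact gl_conj a1 b1 (by rw [a2, b2]) (by rw [a3, b3])

end Cfsg.Agent.S2329
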