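import Cfsg.Statements.S2362
import Cfsg.Agent.LibBs7

set_option autoImplicit false
open Cfsg

namespace Cfsg.Agent.S2362

open Cfsg.Agent.H22 in
/-- Let F be a finite field of odd order and n ≥ 3. The simple orthogonal group PΩ(2n+1, F) (type B_n) and the projective symplectic group PSp(2n, F) (type C_n), which have the same order, do not have the same set of element orders. -/
theorem result {F : Type*} [Field F] [Fintype F] (hodd : Odd (Fintype.card F)) (n : ℕ) (hn : 3 ≤ n) :
    Set.range (orderOf : Cfsg.POmega F (Cfsg.quadFormOdd n F) → ℕ) ≠ Set.range (orderOf : Cfsg.PSp n F → ℕ) := by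
  classical
  intro heq
  have h2 : (2 : F) ≠ 0 := two_ne_zero_of_odd hodd
  obtain ⟨p, hchar⟩ := CharP.exists F
  have hp : p.Prime := CharP.char_is_prime F p
  haveI : Fact p.Prime := ⟨hp⟩
  obtain ⟨f, _, hf⟩ := FiniteField.card F p
  have hpq : p ∣ Fintype.card F := by
    rw [hf]; exact dvd_pow_self p f.pos.ne'
  have hp2 : p ≠ 2 := by
    rintro rfl
    exact absurd hodd (Nat.not_odd_iff_even.2 (even_iff_two_dvd.2 hpq))
  obtain ⟨m, rfl⟩ : ∃ m, n = m + 1 := ⟨n - 1, by omega⟩
  obtain ⟨x, hx⟩ := CfsgLib.Bs.exists_PSp (F := F) hp2 (show 1 ≤ m by omega)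
  have hmem : p * (Fintype.card F ^ m + 1) ∈ Set.range (orderOf : Cfsg.POmega F (Cfsg.quadFormOdd (m + 1) F) → ℕ) := by
    rw [heq]; exact ⟨x, hx⟩
  revert hmem
  rw [← coe_qOdd]
  rintro ⟨y, hy⟩
  obtain ⟨g, rfl⟩ := QuotientGroup.mk_surjective y
  have hfr : Module.finrank F (Unit ⊕ (Fin (m + 1) ⊕ Fin (m + 1)) → F) = 2 * m + 3 := by
    simp; omega
  have hQ := nondeg_qOdd (F := F) (m + 1) h2
  have hcenter : Subgroup.center (Cfsg.Omega F ⇑(qOdd (m + 1) F)) = ⊥ := by
    rw [eq_bot_iff]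
    intro c hc
    rw [Subgroup.mem_bot]
    have h1 : omegaIso (qOdd (m + 1) F) c ∈ Subgroup.center (commutator (OGrp (qOdd (m + 1) F))) := by
      rw [Subgroup.mem_center_iff] at hc ⊢
      intro z
      have := hc ((omegaIso (qOdd (m + 1) F)).symm z)
      have := congrArg (omegaIso (qOdd (m + 1) F)) this
      rwa [map_mul, map_mul, MulEquiv.apply_symm_apply] at this
    have h3 := CfsgLib.Bs.center_trivial h2 hQ (hs_qOdd (F := F) (m := m + 1) (by omega)) (by rw [hfr]; exact ⟨m + 1, by ring⟩) (by omega) h1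
    exact (MulEquiv.map_eq_one_iff _).1 h3
  have hord : orderOf (((omegaIso (qOdd (m + 1) F)) g : commutator (OGrp (qOdd (m + 1) F))) : OGrp (qOdd (m + 1) F)) =
      p * (Fintype.card F ^ m + 1) := by
    rw [← hy, Subgroup.orderOf_coe]
    rw [orderOf_injective (omegaIso (qOdd (m + 1) F)).toMonoidHom (omegaIso (qOdd (m + 1) F)).injective g |> fun h => (show orderOf ((omegaIso (qOdd (m + 1) F)) g) = orderOf g from h)]
    symm
    apply orderOf_injective (QuotientGroup.mk' (Subgroup.center (Cfsg.Omega F ⇑(qOdd (m + 1) F))))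
    rw [← MonoidHom.ker_eq_bot_iff, QuotientGroup.ker_mk', hcenter]
  exact CfsgLib.Bs.no_element h2 hQ (by omega) hfr hp hpq (by
    rw [CfsgLib.Bs.cnt_odd_one h2]; ring_nf) ((omegaIso (qOdd (m + 1) F)) g).2 hord

end Cfsg.Agent.S2362
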