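import Cfsg.Statements.S2363
import Cfsg.Agent.S0243
import Cfsg.Agent.S0245
import Cfsg.Agent.S0246
import Cfsg.Agent.S0280
import Cfsg.Agent.LibH22POrd2
import Cfsg.Agent.S1059
import Cfsg.Agent.S1062
import Cfsg.Agent.S1063
import Cfsg.Agent.S1064
import Cfsg.Agent.S1065
import Cfsg.Agent.S1066
import Cfsg.Agent.S1067
import Cfsg.Agent.S1068
import Cfsg.Agent.S1069
import Cfsg.Agent.S1163

set_option autoImplicit false
open Cfsg

namespace Cfsg.Agent.S2363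


theorem key {p f N M d R g : ℕ} (hp : p.Prime) (hd : Nat.Coprime p d) (hd0 : 0 < d)
    (h : d * g = (p ^ f) ^ N * R) (hg : 0 < g) (hR : R < (p ^ f) ^ M) (hNM : M ≤ 2 * N) :
    g < p ^ (3 * g.factorization p) ∧ (3 * M ≤ 5 * N → g ^ 3 < p ^ (8 * g.factorization p)) := by
  have h1 : p ^ (f * N) ∣ g := by
    have : p ^ (f * N) ∣ d * g := by rw [h, pow_mul]; exact Dvd.intro _ rfl
    exact (Nat.Coprime.dvd_of_dvd_mul_left (Nat.Coprime.pow_left _ hd) this)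
  have h2 : f * N ≤ g.factorization p := (hp.pow_dvd_iff_le_factorization hg.ne').1 h1
  have h3 : g < p ^ (f * (N + M)) := by
    calc g ≤ d * g := Nat.le_mul_of_pos_left _ hd0
      _ = (p ^ f) ^ N * R := h
      _ < (p ^ f) ^ N * (p ^ f) ^ M := Nat.mul_lt_mul_of_pos_left hR (by
          have := hp.pos; positivity)
      _ = p ^ (f * (N + M)) := by rw [← pow_add, ← pow_mul]
  constructor
  · refine lt_of_lt_of_le h3 (Nat.pow_le_pow_right hp.pos ?_)
    calc f * (N + M) ≤ f * (3 * N) := Nat.mul_le_mul_left _ (by omega)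
      _ = 3 * (f * N) := by ring
      _ ≤ _ := Nat.mul_le_mul_left _ h2
  · intro h4
    calc g ^ 3 < (p ^ (f * (N + M))) ^ 3 := Nat.pow_lt_pow_left h3 (by norm_num)
      _ = p ^ (f * (3 * (N + M))) := by rw [← pow_mul]; ring_nf
      _ ≤ p ^ (8 * g.factorization p) := Nat.pow_le_pow_right hp.pos (by
        calc f * (3 * (N + M)) ≤ f * (8 * N) := Nat.mul_le_mul_left _ (by omega)
          _ = 8 * (f * N) := by ring
          _ ≤ _ := Nat.mul_le_mul_left _ h2)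

theorem cop_of_dvd {p f m x d : ℕ} (hp : p.Prime) (hf : 1 ≤ f) (hd : d ∣ x) (hx : x + 1 = (p ^ f) ^ m ∨ x = (p ^ f) ^ m + 1)
    (hm : 1 ≤ m) : Nat.Coprime p d := by
  rw [hp.coprime_iff_not_dvd]
  intro h
  have h1 : p ∣ (p ^ f) ^ m := by
    rw [← pow_mul]; exact dvd_pow_self _ (by positivity)
  have h2 : p ∣ x := h.trans hd
  rcases hx with hx | hx
  · rw [← hx] at h1
    have := (Nat.dvd_add_right h2).1 h1
    exact hp.one_lt.ne' (Nat.dvd_one.1 this)
  · rw [hx] at h2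
    have := (Nat.dvd_add_right h1).1 h2
    exact hp.one_lt.ne' (Nat.dvd_one.1 this)

theorem mul_lt {a b x y : ℕ} (ha : a < x) (hb : b ≤ y) (hy : 0 < y) : a * b < x * y := by
  calc a * b ≤ a * y := Nat.mul_le_mul_left _ hb
    _ < x * y := Nat.mul_lt_mul_of_pos_right ha hy

theorem prod_even_le {q : ℕ} (hq : 2 ≤ q) (m : ℕ) :
    ∏ i ∈ Finset.range m, (q ^ (2 * (i + 1)) - 1) ≤ q ^ (m * (m + 1)) := by
  induction m with
  | zero => simp
  | succ m ih =>
    rw [Finset.prod_range_succ]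
    have e : (m + 1) * (m + 1 + 1) = m * (m + 1) + 2 * (m + 1) := by ring
    rw [e, pow_add]
    exact Nat.mul_le_mul ih (Nat.sub_le _ _)

theorem prod_even_lt {q : ℕ} (hq : 2 ≤ q) (m : ℕ) (hm : 1 ≤ m) :
    ∏ i ∈ Finset.range m, (q ^ (2 * (i + 1)) - 1) < q ^ (m * (m + 1)) := by
  obtain ⟨m, rfl⟩ : ∃ k, m = k + 1 := ⟨m - 1, by omega⟩
  rw [Finset.prod_range_succ]
  have e : (m + 1) * (m + 1 + 1) = m * (m + 1) + 2 * (m + 1) := by ring
  rw [e, pow_add, mul_comm, mul_comm (q ^ _)]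
  have : 0 < q ^ (2 * (m + 1)) := by positivity
  exact mul_lt (by omega) (prod_even_le hq m) (by positivity)

theorem pm_lt {q a b : ℕ} (hq : 2 ≤ q) (h : a ≤ b) : (q ^ a - 1) * (q ^ b + 1) < q ^ (a + b) := by
  have h1 : 1 ≤ q ^ a := Nat.one_le_pow _ _ (by omega)
  have h2 : q ^ a ≤ q ^ b := Nat.pow_le_pow_right (by omega) h
  obtain ⟨x, hx⟩ : ∃ x, q ^ a = x + 1 := ⟨q ^ a - 1, by omega⟩
  rw [pow_add, hx, Nat.add_sub_cancel]
  rw [hx] at h2
  nlinarith

/-- product `(q^2-1)...(q^(k+1)-1)` -/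
theorem prod_sl_lt {q : ℕ} (hq : 2 ≤ q) (k : ℕ) :
    2 * 0 + ∏ i ∈ Finset.range (k + 1), (q ^ (i + 2) - 1) < q ^ ((k + 1) * (k + 4) / 2) := by
  rw [mul_zero, zero_add]
  induction k with
  | zero =>
    have : 0 < q ^ 2 := by positivity
    simp only [zero_add, Finset.range_one, Finset.prod_singleton]
    show q ^ 2 - 1 < q ^ 2
    omega
  | succ k ih =>
    rw [Finset.prod_range_succ]
    have e : (k + 1 + 1) * (k + 1 + 4) / 2 = (k + 1) * (k + 4) / 2 + (k + 1 + 2) := by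
      have : (k + 1 + 1) * (k + 1 + 4) = (k + 1) * (k + 4) + (k + 1 + 2) * 2 := by ring
      rw [this, Nat.add_mul_div_right _ _ (by norm_num)]
    rw [e, pow_add q ((k + 1) * (k + 4) / 2)]
    exact mul_lt ih (Nat.sub_le _ _) (by positivity)

theorem prod_su_aux {q : ℕ} (hq : 2 ≤ q) (j : ℕ) :
    ∏ i ∈ Finset.range (2 * j), (if Even (i + 1) then q ^ (i + 2) + 1 else q ^ (i + 2) - 1) ≤ q ^ (j * (2 * j + 3)) := by
  induction j with
  | zero => simp
  | succ j ih =>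
    have e : 2 * (j + 1) = 2 * j + 1 + 1 := by ring
    rw [e, Finset.prod_range_succ, Finset.prod_range_succ]
    have h1 : ¬ Even (2 * j + 1) := by simp
    have h2 : Even (2 * j + 1 + 1) := ⟨j + 1, by ring⟩
    rw [if_neg h1, if_pos h2, mul_assoc]
    have e2 : (j + 1) * (2 * j + 1 + 1 + 3) = j * (2 * j + 3) + (2 * j + 2 + (2 * j + 1 + 2)) := by ring
    rw [e2, pow_add q (j * (2 * j + 3))]
    exact Nat.mul_le_mul ih (pm_lt hq (by omega)).le

theorem prod_su_lt {q : ℕ} (hq : 2 ≤ q) (k : ℕ) (hk : 1 ≤ k) :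
    ∏ i ∈ Finset.range k, (if Even (i + 1) then q ^ (i + 2) + 1 else q ^ (i + 2) - 1) < q ^ (k * (k + 3) / 2) := by
  rcases Nat.even_or_odd' k with ⟨j, rfl | rfl⟩
  · obtain ⟨j, rfl⟩ : ∃ i, j = i + 1 := ⟨j - 1, by omega⟩
    have e : 2 * (j + 1) = 2 * j + 1 + 1 := by ring
    rw [e, Finset.prod_range_succ, Finset.prod_range_succ]
    have h1 : ¬ Even (2 * j + 1) := by simp
    have h2 : Even (2 * j + 1 + 1) := ⟨j + 1, by ring⟩
    rw [if_neg h1, if_pos h2, mul_assoc]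
    have e2 : (2 * j + 1 + 1) * (2 * j + 1 + 1 + 3) / 2 = (2 * j + 2 + (2 * j + 1 + 2)) + j * (2 * j + 3) := by
      have : (2 * j + 1 + 1) * (2 * j + 1 + 1 + 3) = ((2 * j + 2 + (2 * j + 1 + 2)) + j * (2 * j + 3)) * 2 := by ring
      rw [this, Nat.mul_div_cancel _ (by norm_num)]
    rw [e2, pow_add q (2 * j + 2 + (2 * j + 1 + 2)), mul_comm]
    exact mul_lt (pm_lt hq (by omega)) (prod_su_aux hq j) (by positivity)
  · rw [Finset.prod_range_succ]
    have h1 : ¬ Even (2 * j + 1) := by simp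
    rw [if_neg h1]
    have e2 : (2 * j + 1) * (2 * j + 1 + 3) / 2 = (2 * j + 2) + j * (2 * j + 3) := by
      have : (2 * j + 1) * (2 * j + 1 + 3) = ((2 * j + 2) + j * (2 * j + 3)) * 2 := by ring
      rw [this, Nat.mul_div_cancel _ (by norm_num)]
    rw [e2, pow_add q (2 * j + 2), mul_comm]
    have : 0 < q ^ (2 * j + 2) := by positivity
    exact mul_lt (Nat.sub_lt this one_pos) (prod_su_aux hq j) (by positivity)

theorem prod_gl {q : ℕ} (hq : 2 ≤ q) (n : ℕ) : ∏ i : Fin n, (q ^ n - q ^ (i : ℕ)) =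
    q ^ (n * (n - 1) / 2) * ∏ i ∈ Finset.range n, (q ^ (i + 1) - 1) := by
  rw [Fin.prod_univ_eq_prod_range (fun i => q ^ n - q ^ i) n, ← Finset.prod_range_reflect (fun i => q ^ (i + 1) - 1) n]
  have h1 : ∀ i ∈ Finset.range n, q ^ n - q ^ i = q ^ i * (q ^ (n - 1 - i + 1) - 1) := by
    intro i hi
    rw [Finset.mem_range] at hi
    rw [Nat.mul_sub, mul_one, ← pow_add]
    congr 2
    omega
  rw [Finset.prod_congr rfl h1, Finset.prod_mul_distrib, Finset.prod_pow_eq_pow_sum, Finset.sum_range_id]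

theorem minus_lt {q m : ℕ} (hq : 2 ≤ q) (hm : 3 ≤ m) :
    (q ^ m + 1) * ∏ i ∈ Finset.range (m - 1), (q ^ (2 * (i + 1)) - 1) < q ^ (m ^ 2) := by
  obtain ⟨k, rfl⟩ : ∃ k, m = k + 2 := ⟨m - 2, by omega⟩
  have e : k + 2 - 1 = k + 1 := rfl
  rw [e, Finset.prod_range_succ']
  have h1 : ∏ i ∈ Finset.range k, (q ^ (2 * (i + 1 + 1)) - 1) ≤ q ^ (k * (k + 3)) := by
    clear hm e
    induction k with
    | zero => simp
    | succ k ih =>
      rw [Finset.prod_range_succ]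
      have e : (k + 1) * (k + 1 + 3) = k * (k + 3) + 2 * (k + 1 + 1) := by ring
      rw [e, pow_add]
      exact Nat.mul_le_mul ih (Nat.sub_le _ _)
  have h2 := pm_lt hq (show 2 ≤ k + 2 by omega)
  have e2 : (k + 2) ^ 2 = (2 + (k + 2)) + k * (k + 3) := by ring
  rw [e2, pow_add q (2 + (k + 2))]
  generalize ∏ i ∈ Finset.range k, (q ^ (2 * (i + 1 + 1)) - 1) = P at h1 ⊢
  calc (q ^ (k + 2) + 1) * (P * (q ^ (2 * (0 + 1)) - 1)) = ((q ^ 2 - 1) * (q ^ (k + 2) + 1)) * P := by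
        rw [zero_add, mul_one]; ring
    _ < _ := mul_lt h2 h1 (by positivity)


/-- the conclusion for the families other than PSL_2 -/
def Con (p g : ℕ) : Prop := g < p ^ (3 * g.factorization p) ∧ g ^ 3 < p ^ (8 * g.factorization p)

theorem con_key {p f N M d R g : ℕ} (hp : p.Prime) (hd : Nat.Coprime p d) (hd0 : 0 < d)
    (h : d * g = (p ^ f) ^ N * R) (hg : 0 < g) (hR : R < (p ^ f) ^ M) (h1 : M ≤ 2 * N) (h2 : 3 * M ≤ 5 * N) : Con p g := by
  have := key hp hd hd0 h hg hR h1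
  exact ⟨this.1, this.2 h2⟩

theorem card_pp {F : Type} [Field F] [Fintype F] {p : ℕ} [CharP F p] : ∃ f, 1 ≤ f ∧ Fintype.card F = p ^ f := by
  obtain ⟨n, _, h⟩ := FiniteField.card F p
  exact ⟨n, n.pos, h⟩

theorem root_pp {p k q j : ℕ} (hp : p.Prime) (hk : 1 ≤ k) (hj : j ≠ 0) (h : p ^ k = q ^ j) : ∃ f, 1 ≤ f ∧ q = p ^ f := by
  have h1 : q ∣ p ^ k := by rw [h]; exact dvd_pow_self _ hj
  obtain ⟨f, _, hf⟩ := (Nat.dvd_prime_pow hp).1 h1
  refine ⟨f, ?_, hf⟩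
  by_contra h0
  have : f = 0 := by omega
  rw [this, pow_zero] at hf
  rw [hf, one_pow] at h
  have := Nat.one_lt_pow (by omega : k ≠ 0) hp.one_lt
  omega

theorem two_le_pp {p f : ℕ} (hp : p.Prime) (hf : 1 ≤ f) : 2 ≤ p ^ f := by
  calc 2 ≤ p := hp.two_le
    _ = p ^ 1 := (pow_one p).symm
    _ ≤ p ^ f := Nat.pow_le_pow_right hp.pos hf

theorem psl_eq {F : Type} [Field F] [Fintype F] (k : ℕ) :
    Nat.gcd (k + 2) (Fintype.card F - 1) * Nat.card (Matrix.ProjectiveSpecialLinearGroup (Fin (k + 2)) F) =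
      Fintype.card F ^ ((k + 2) * (k + 1) / 2) * ∏ i ∈ Finset.range (k + 1), (Fintype.card F ^ (i + 2) - 1) := by
  have hq : 2 ≤ Fintype.card F := Fintype.one_lt_card
  have h := Cfsg.Agent.S0243.result (F := F) rfl (k + 2) (by omega)
  rw [prod_gl hq, Finset.prod_range_succ'] at h
  simp only [zero_add, pow_one] at h
  have e : k + 2 - 1 = k + 1 := rfl
  rw [e] at h
  have h1 : 0 < Fintype.card F - 1 := by omega
  apply Nat.eq_of_mul_eq_mul_right h1
  calc _ = Nat.gcd (k + 2) (Fintype.card F - 1) * ((Fintype.card F - 1) * Nat.card (Matrix.ProjectiveSpecialLinearGroup (Fin (k + 2)) F)) := by ring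
    _ = _ := h
    _ = _ := by ring

theorem cop_gcd {p f m n : ℕ} (hp : p.Prime) (hf : 1 ≤ f) (hm : 1 ≤ m) : Nat.Coprime p (Nat.gcd n ((p ^ f) ^ m - 1)) := by
  have : 0 < (p ^ f) ^ m := by have := hp.pos; positivity
  exact cop_of_dvd hp hf (Nat.gcd_dvd_right _ _) (Or.inl (by omega : (p ^ f) ^ m - 1 + 1 = (p ^ f) ^ m)) hm

theorem cop_gcd' {p f m n : ℕ} (hp : p.Prime) (hf : 1 ≤ f) (hm : 1 ≤ m) : Nat.Coprime p (Nat.gcd n ((p ^ f) ^ m + 1)) :=
  cop_of_dvd hp hf (Nat.gcd_dvd_right _ _) (Or.inr rfl) hm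

theorem gcd_pos' {n x : ℕ} (hn : 0 < n) : 0 < Nat.gcd n x := Nat.gcd_pos_of_pos_left _ hn

theorem psl {F : Type} [Field F] [Fintype F] {p : ℕ} (hp : p.Prime) [CharP F p] (n : ℕ) (hn : 3 ≤ n) :
    Con p (Nat.card (Matrix.ProjectiveSpecialLinearGroup (Fin n) F)) := by
  obtain ⟨f, hf, hq⟩ := card_pp (F := F) (p := p)
  obtain ⟨k, rfl⟩ : ∃ k, n = k + 2 := ⟨n - 2, by omega⟩
  have h := psl_eq (F := F) k
  rw [hq] at h
  have hd : Nat.Coprime p (Nat.gcd (k + 2) (p ^ f - 1)) := by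
    have := cop_gcd (n := k + 2) hp hf (le_refl 1)
    rwa [pow_one] at this
  obtain ⟨N, hN⟩ : ∃ N, (k + 2) * (k + 1) = 2 * N := by
    have := Nat.even_mul_succ_self (k + 1)
    obtain ⟨r, hr⟩ := this
    exact ⟨r, by rw [mul_comm, hr]; ring⟩
  obtain ⟨M, hM⟩ : ∃ M, (k + 1) * (k + 4) = 2 * M := ⟨N + (k + 1), by linarith⟩
  have hR := prod_sl_lt (two_le_pp hp hf) k
  rw [mul_zero, zero_add, hM, Nat.mul_div_cancel_left _ (by norm_num)] at hR
  rw [hN, Nat.mul_div_cancel_left _ (by norm_num)] at h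
  refine con_key hp hd (gcd_pos' (by omega)) h Nat.card_pos hR ?_ ?_
  · nlinarith
  · nlinarith

theorem psl_two {F : Type} [Field F] [Fintype F] {p : ℕ} (hp : p.Prime) [CharP F p] :
    Nat.card (Matrix.ProjectiveSpecialLinearGroup (Fin 2) F) < p ^ (3 * (Nat.card (Matrix.ProjectiveSpecialLinearGroup (Fin 2) F)).factorization p) ∧
    Fintype.card F = p ^ (Nat.card (Matrix.ProjectiveSpecialLinearGroup (Fin 2) F)).factorization p := by
  obtain ⟨f, hf, hq⟩ := card_pp (F := F) (p := p)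
  have h := psl_eq (F := F) 0
  rw [hq] at h
  have hd : Nat.Coprime p (Nat.gcd (0 + 2) (p ^ f - 1)) := by
    have := cop_gcd (n := 0 + 2) hp hf (le_refl 1)
    rwa [pow_one] at this
  have hR := prod_sl_lt (two_le_pp hp hf) 0
  have e1 : (0 + 2) * (0 + 1) / 2 = 1 := rfl
  have e2 : (0 + 1) * (0 + 4) / 2 = 2 := rfl
  rw [e1] at h
  rw [mul_zero, zero_add, e2] at hR
  refine ⟨(key hp hd (gcd_pos' (by omega)) h Nat.card_pos hR (by norm_num)).1, ?_⟩
  rw [hq]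
  congr 1
  have h3 := congrArg (fun x => x.factorization p) h
  beta_reduce at h3
  have hR0 : 0 < ∏ i ∈ Finset.range (0 + 1), ((p ^ f) ^ (i + 2) - 1) := by
    rw [zero_add, Finset.prod_range_one, zero_add]
    have := two_le_pp hp hf
    have : 1 < (p ^ f) ^ 2 := Nat.one_lt_pow (by norm_num) (by omega)
    omega
  rw [Nat.factorization_mul (gcd_pos' (by omega)).ne' Nat.card_pos.ne', Nat.factorization_mul (by have := hp.pos; positivity) hR0.ne',
    Finsupp.add_apply, Finsupp.add_apply, pow_one, hp.factorization_pow, Finsupp.single_eq_same] at h3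
  have hz : (∏ i ∈ Finset.range (0 + 1), ((p ^ f) ^ (i + 2) - 1)).factorization p = 0 := by
    apply Nat.factorization_eq_zero_of_not_dvd
    rw [zero_add, Finset.prod_range_one, zero_add]
    intro hdv
    have h5 : p ∣ (p ^ f) ^ 2 := by rw [← pow_mul]; exact dvd_pow_self _ (by positivity)
    have h6 : (p ^ f) ^ 2 = ((p ^ f) ^ 2 - 1) + 1 := by
      have := hp.pos
      have : 0 < (p ^ f) ^ 2 := by positivity
      omega
    rw [h6] at h5
    have := (Nat.dvd_add_right hdv).1 h5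
    exact hp.one_lt.ne' (Nat.dvd_one.1 this)
  have hz2 : (Nat.gcd (0 + 2) (p ^ f - 1)).factorization p = 0 :=
    Nat.factorization_eq_zero_of_not_dvd ((hp.coprime_iff_not_dvd).1 hd)
  rw [hz, hz2, zero_add, add_zero] at h3
  exact h3.symm

theorem psp {F : Type} [Field F] [Fintype F] {p : ℕ} (hp : p.Prime) [CharP F p] (m : ℕ) (hm : 2 ≤ m) :
    Con p (Nat.card (Cfsg.PSp m F)) := by
  obtain ⟨f, hf, hq⟩ := card_pp (F := F) (p := p)
  have h1 := Cfsg.Agent.S0245.result hq m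
  have h2 := Cfsg.Agent.S0246.result hq m (by omega)
  rw [Subgroup.card_eq_card_quotient_mul_card_subgroup (Subgroup.center (Matrix.symplecticGroup (Fin m) F)), h2, mul_comm] at h1
  have hd : Nat.Coprime p (Nat.gcd 2 (p ^ f - 1)) := by
    have := cop_gcd (n := 2) hp hf (le_refl 1)
    rwa [pow_one] at this
  refine con_key hp hd (gcd_pos' (by omega)) h1 Nat.card_pos (prod_even_lt (two_le_pp hp hf) m (by omega)) ?_ ?_
  · nlinarith
  · nlinarith

theorem psu {F : Type} [Field F] [Fintype F] {p : ℕ} (hp : p.Prime) [CharP F p] (n q : ℕ) (hF : Fintype.card F = q ^ 2) (hn : 3 ≤ n) :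
    Con p (Nat.card (Cfsg.PSU n F q)) := by
  obtain ⟨f', hf', hq'⟩ := card_pp (F := F) (p := p)
  obtain ⟨f, hf, rfl⟩ := root_pp hp hf' two_ne_zero (hq'.symm.trans hF)
  obtain ⟨k, rfl⟩ : ∃ k, n = k + 2 := ⟨n - 2, by omega⟩
  have h := Cfsg.Agent.S0280.result hF (k + 2) (by omega)
  rw [Finset.prod_range_succ'] at h
  have e : k + 2 - 1 = k + 1 := rfl
  rw [e] at h
  have h1 : 0 < p ^ f + 1 := by omega
  simp only [zero_add, Even.zero, if_true, pow_one] at h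
  have h2 : Nat.gcd (k + 2) (p ^ f + 1) * Nat.card (Cfsg.PSU (k + 2) F (p ^ f)) =
      (p ^ f) ^ ((k + 2) * (k + 1) / 2) * ∏ i ∈ Finset.range (k + 1), (if Even (i + 1) then (p ^ f) ^ (i + 2) + 1 else (p ^ f) ^ (i + 2) - 1) := by
    apply Nat.eq_of_mul_eq_mul_right h1
    calc _ = Nat.gcd (k + 2) (p ^ f + 1) * ((p ^ f + 1) * Nat.card (Cfsg.PSU (k + 2) F (p ^ f))) := by ring
      _ = _ := h
      _ = _ := by ring
  have hd : Nat.Coprime p (Nat.gcd (k + 2) (p ^ f + 1)) := by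
    have := cop_gcd' (n := k + 2) hp hf (le_refl 1)
    rwa [pow_one] at this
  obtain ⟨N, hN⟩ : ∃ N, (k + 2) * (k + 1) = 2 * N := by
    have := Nat.even_mul_succ_self (k + 1)
    obtain ⟨r, hr⟩ := this
    exact ⟨r, by rw [mul_comm, hr]; ring⟩
  obtain ⟨M, hM⟩ : ∃ M, (k + 1) * (k + 4) = 2 * M := ⟨N + (k + 1), by linarith⟩
  have hR := prod_su_lt (two_le_pp hp hf) (k + 1) (by omega)
  have e2 : (k + 1) * (k + 1 + 3) = 2 * M := hM
  rw [e2, Nat.mul_div_cancel_left _ (by norm_num)] at hR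
  rw [hN, Nat.mul_div_cancel_left _ (by norm_num)] at h2
  refine con_key hp hd (gcd_pos' (by omega)) h2 Nat.card_pos hR ?_ ?_
  · nlinarith
  · nlinarith

theorem podd {F : Type} [Field F] [Fintype F] {p : ℕ} (hp : p.Prime) [CharP F p] (m : ℕ) (hm : 3 ≤ m) (ho : Odd (Fintype.card F)) :
    Con p (Nat.card (Cfsg.POmega F (Cfsg.quadFormOdd m F))) := by
  obtain ⟨f, hf, hq⟩ := card_pp (F := F) (p := p)
  have h1 := Cfsg.Agent.H22.card_pomega_odd ho m (by omega)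
  rw [hq] at h1 ho
  have hd : Nat.Coprime p 2 := by
    rw [hp.coprime_iff_not_dvd]
    intro h
    have h2 : p = 2 := (Nat.prime_dvd_prime_iff_eq hp Nat.prime_two).1 h
    rw [h2] at ho
    exact (Nat.not_even_iff_odd.2 ho) ((Nat.even_pow' (by omega)).2 even_two)
  refine con_key hp hd (by norm_num) h1 Nat.card_pos (prod_even_lt (two_le_pp hp hf) m (by omega)) ?_ ?_
  · nlinarith
  · nlinarith

theorem pplus {F : Type} [Field F] [Fintype F] {p : ℕ} (hp : p.Prime) [CharP F p] (m : ℕ) (hm : 4 ≤ m) :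
    Con p (Nat.card (Cfsg.POmega F (Cfsg.quadFormPlus m F))) := by
  obtain ⟨f, hf, hq⟩ := card_pp (F := F) (p := p)
  have h1 := Cfsg.Agent.H22.card_pomega_plus (F := F) m (by omega)
  rw [hq, mul_assoc] at h1
  have hR : ((p ^ f) ^ m - 1) * ∏ i ∈ Finset.range (m - 1), ((p ^ f) ^ (2 * (i + 1)) - 1) < (p ^ f) ^ (m ^ 2) := by
    have h3 := prod_even_le (two_le_pp hp hf) (m - 1)
    have e : m ^ 2 = m + (m - 1) * (m - 1 + 1) := by
      obtain ⟨k, rfl⟩ : ∃ k, m = k + 1 := ⟨m - 1, by omega⟩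
      simp only [Nat.add_sub_cancel]
      ring
    rw [e, pow_add]
    have h4 : 0 < (p ^ f) ^ m := by have := hp.pos; positivity
    exact mul_lt (Nat.sub_lt h4 one_pos) h3 (by have := hp.pos; positivity)
  obtain ⟨k, rfl⟩ : ∃ k, m = k + 1 := ⟨m - 1, by omega⟩
  simp only [Nat.add_sub_cancel] at h1 hR
  refine con_key hp (cop_gcd hp hf (by omega)) (gcd_pos' (by omega)) h1 Nat.card_pos hR ?_ ?_
  · nlinarith
  · nlinarith

theorem pminus {F : Type} [Field F] [Fintype F] {p : ℕ} (hp : p.Prime) [CharP F p] (m : ℕ) (hm : 4 ≤ m) (a b : F)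
    (hab : ∀ z₁ z₂ : F, z₁ ^ 2 + a * z₁ * z₂ + b * z₂ ^ 2 = 0 → z₁ = 0 ∧ z₂ = 0) :
    Con p (Nat.card (Cfsg.POmega F (Cfsg.quadFormMinus (m - 1) F a b))) := by
  obtain ⟨f, hf, hq⟩ := card_pp (F := F) (p := p)
  have h1 := Cfsg.Agent.H22.card_pomega_minus (F := F) m (by omega) a b hab
  rw [hq, mul_assoc] at h1
  have hR := minus_lt (two_le_pp hp hf) (show 3 ≤ m by omega)
  obtain ⟨k, rfl⟩ : ∃ k, m = k + 1 := ⟨m - 1, by omega⟩
  simp only [Nat.add_sub_cancel] at h1 hR ⊢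
  refine con_key hp (cop_gcd' hp hf (by omega)) (gcd_pos' (by omega)) h1 Nat.card_pos hR ?_ ?_
  · nlinarith
  · nlinarith

theorem sub_lt' {q a : ℕ} (hq : 2 ≤ q) : q ^ a - 1 < q ^ a := Nat.sub_lt (by positivity) one_pos

theorem exc {F : Type} [Field F] [Fintype F] {p : ℕ} (hp : p.Prime) [CharP F p] :
    Con p (Nat.card ↥(Cfsg.Lie.chevG2.group F)) ∧ Con p (Nat.card ↥(Cfsg.Lie.chevF4.group F)) ∧
    Con p (Nat.card ↥(Cfsg.Lie.chevE6.group F)) ∧ Con p (Nat.card ↥(Cfsg.Lie.chevE7.group F)) ∧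
    Con p (Nat.card ↥(Cfsg.Lie.chevE8.group F)) := by
  obtain ⟨f, hf, hq⟩ := card_pp (F := F) (p := p)
  have hq2 := two_le_pp hp hf
  have hs : ∀ a, (p ^ f) ^ a - 1 < (p ^ f) ^ a := fun a => sub_lt' hq2
  have hpos : ∀ a, 0 < (p ^ f) ^ a := fun a => by have := hp.pos; positivity
  have hd1 : ∀ n, Nat.Coprime p (Nat.gcd n (p ^ f - 1)) := fun n => by
    have := cop_gcd (n := n) hp hf (le_refl 1)
    rwa [pow_one] at this
  refine ⟨?_, ?_, ?_, ?_, ?_⟩
  · have h := Cfsg.Agent.S1059.result hq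
    refine con_key (f := f) (d := 1) (N := 6) (M := 8) (R := ((p ^ f) ^ 2 - 1) * ((p ^ f) ^ 6 - 1)) hp (Nat.coprime_one_right _) one_pos
      (by rw [h]; ring) Nat.card_pos ?_ (by norm_num) (by norm_num)
    rw [show (8 : ℕ) = 2 + 6 from rfl, pow_add]
    exact mul_lt (hs 2) (hs 6).le (hpos _)
  · have h := Cfsg.Agent.S1062.result hq
    refine con_key (f := f) (d := 1) (N := 24) (M := 28) (R := ((p ^ f) ^ 2 - 1) * (((p ^ f) ^ 6 - 1) * (((p ^ f) ^ 8 - 1) * ((p ^ f) ^ 12 - 1)))) hp (Nat.coprime_one_right _) one_pos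
      (by rw [h]; ring) Nat.card_pos ?_ (by norm_num) (by norm_num)
    rw [show (28 : ℕ) = 2 + (6 + (8 + 12)) from rfl, pow_add, pow_add, pow_add]
    exact mul_lt (hs 2) (Nat.mul_le_mul (hs _).le (Nat.mul_le_mul (hs _).le (hs _).le))
      (Nat.mul_pos (hpos _) (Nat.mul_pos (hpos _) (hpos _)))
  · have h := Cfsg.Agent.S1063.result hq
    refine con_key (f := f) (N := 36) (M := 42) (R := ((p ^ f) ^ 2 - 1) * (((p ^ f) ^ 5 - 1) * (((p ^ f) ^ 6 - 1) * (((p ^ f) ^ 8 - 1) * (((p ^ f) ^ 9 - 1) * ((p ^ f) ^ 12 - 1)))))) hp (hd1 3) (gcd_pos' (by norm_num))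
      (by rw [h]; ring) Nat.card_pos ?_ (by norm_num) (by norm_num)
    rw [show (42 : ℕ) = 2 + (5 + (6 + (8 + (9 + 12)))) from rfl, pow_add, pow_add, pow_add, pow_add, pow_add]
    exact mul_lt (hs 2) (Nat.mul_le_mul (hs _).le (Nat.mul_le_mul (hs _).le (Nat.mul_le_mul (hs _).le (Nat.mul_le_mul (hs _).le (hs _).le))))
      (Nat.mul_pos (hpos _) (Nat.mul_pos (hpos _) (Nat.mul_pos (hpos _) (Nat.mul_pos (hpos _) (hpos _)))))
  · have h := Cfsg.Agent.S1064.result hq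
    refine con_key (f := f) (N := 63) (M := 70) (R := ((p ^ f) ^ 2 - 1) * (((p ^ f) ^ 6 - 1) * (((p ^ f) ^ 8 - 1) * (((p ^ f) ^ 10 - 1) * (((p ^ f) ^ 12 - 1) * (((p ^ f) ^ 14 - 1) * ((p ^ f) ^ 18 - 1))))))) hp (hd1 2) (gcd_pos' (by norm_num))
      (by rw [h]; ring) Nat.card_pos ?_ (by norm_num) (by norm_num)
    rw [show (70 : ℕ) = 2 + (6 + (8 + (10 + (12 + (14 + 18))))) from rfl, pow_add, pow_add, pow_add, pow_add, pow_add, pow_add]
    exact mul_lt (hs 2) (Nat.mul_le_mul (hs _).le (Nat.mul_le_mul (hs _).le (Nat.mul_le_mul (hs _).le (Nat.mul_le_mul (hs _).le (Nat.mul_le_mul (hs _).le (hs _).le)))))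
      (Nat.mul_pos (hpos _) (Nat.mul_pos (hpos _) (Nat.mul_pos (hpos _) (Nat.mul_pos (hpos _) (Nat.mul_pos (hpos _) (hpos _))))))
  · have h := Cfsg.Agent.S1065.result hq
    refine con_key (f := f) (d := 1) (N := 120) (M := 128) (R := ((p ^ f) ^ 2 - 1) * (((p ^ f) ^ 8 - 1) * (((p ^ f) ^ 12 - 1) * (((p ^ f) ^ 14 - 1) * (((p ^ f) ^ 18 - 1) * (((p ^ f) ^ 20 - 1) * (((p ^ f) ^ 24 - 1) * ((p ^ f) ^ 30 - 1)))))))) hp (Nat.coprime_one_right _) one_pos
      (by rw [h]; ring) Nat.card_pos ?_ (by norm_num) (by norm_num)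
    rw [show (128 : ℕ) = 2 + (8 + (12 + (14 + (18 + (20 + (24 + 30)))))) from rfl, pow_add, pow_add, pow_add, pow_add, pow_add, pow_add, pow_add]
    exact mul_lt (hs 2) (Nat.mul_le_mul (hs _).le (Nat.mul_le_mul (hs _).le (Nat.mul_le_mul (hs _).le (Nat.mul_le_mul (hs _).le (Nat.mul_le_mul (hs _).le (Nat.mul_le_mul (hs _).le (hs _).le))))))
      (Nat.mul_pos (hpos _) (Nat.mul_pos (hpos _) (Nat.mul_pos (hpos _) (Nat.mul_pos (hpos _) (Nat.mul_pos (hpos _) (Nat.mul_pos (hpos _) (hpos _)))))))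

theorem tw {K : Type} [Field K] [Fintype K] {p q : ℕ} (hp : p.Prime) [CharP K p] (hq : IsPrimePow q) :
    (Fintype.card K = q ^ 2 → Con p (Nat.card ↥(Cfsg.Lie.twistedE6 K q))) ∧
    (Fintype.card K = q ^ 3 → Con p (Nat.card ↥(Cfsg.Lie.twistedD4 K q))) := by
  obtain ⟨f', hf', hq'⟩ := card_pp (F := K) (p := p)
  constructor
  · intro hK
    obtain ⟨f, hf, rfl⟩ := root_pp hp hf' two_ne_zero (hq'.symm.trans hK)
    have hq2 := two_le_pp hp hf
    have hs : ∀ a, (p ^ f) ^ a - 1 < (p ^ f) ^ a := fun a => sub_lt' hq2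
    have hpos : ∀ a, 0 < (p ^ f) ^ a := fun a => by have := hp.pos; positivity
    have h := Cfsg.Agent.S1066.result hq hK
    have hd : Nat.Coprime p (Nat.gcd 3 (p ^ f + 1)) := by
      have := cop_gcd' (n := 3) hp hf (le_refl 1)
      rwa [pow_one] at this
    refine con_key (f := f) (N := 36) (M := 42) (R := (((p ^ f) ^ 2 - 1) * ((p ^ f) ^ 5 + 1)) * (((p ^ f) ^ 6 - 1) * ((((p ^ f) ^ 8 - 1) * ((p ^ f) ^ 9 + 1)) * ((p ^ f) ^ 12 - 1)))) hp hd (gcd_pos' (by norm_num))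
      (by rw [h]; ring) Nat.card_pos ?_ (by norm_num) (by norm_num)
    rw [show (42 : ℕ) = (2 + 5) + (6 + ((8 + 9) + 12)) from rfl, pow_add _ (2 + 5), pow_add _ 6, pow_add _ (8 + 9)]
    exact mul_lt (pm_lt hq2 (by norm_num)) (Nat.mul_le_mul (hs _).le (Nat.mul_le_mul (pm_lt hq2 (by norm_num)).le (hs _).le))
      (Nat.mul_pos (hpos _) (Nat.mul_pos (hpos _) (hpos _)))
  · intro hK
    obtain ⟨f, hf, rfl⟩ := root_pp hp hf' three_ne_zero (hq'.symm.trans hK)
    have hq2 := two_le_pp hp hf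
    have hs : ∀ a, (p ^ f) ^ a - 1 < (p ^ f) ^ a := fun a => sub_lt' hq2
    have hpos : ∀ a, 0 < (p ^ f) ^ a := fun a => by have := hp.pos; positivity
    have h := Cfsg.Agent.S1067.result hq hK
    refine con_key (f := f) (d := 1) (N := 12) (M := 16) (R := (((p ^ f) ^ 2 - 1) * ((p ^ f) ^ 8 + (p ^ f) ^ 4 + 1)) * ((p ^ f) ^ 6 - 1)) hp (Nat.coprime_one_right _) one_pos
      (by rw [h]; ring) Nat.card_pos ?_ (by norm_num) (by norm_num)
    rw [show (16 : ℕ) = 10 + 6 from rfl, pow_add _ 10]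
    refine mul_lt ?_ (hs _).le (hpos _)
    generalize p ^ f = q at *
    obtain ⟨x, rfl⟩ : ∃ x, q = x + 2 := ⟨q - 2, by omega⟩
    have : (x + 2) ^ 2 - 1 = x ^ 2 + 4 * x + 3 := by
      have : (x + 2) ^ 2 = x ^ 2 + 4 * x + 3 + 1 := by ring
      omega
    rw [this]
    ring_nf
    omega

theorem sz {K : Type} [Field K] [Fintype K] {m : ℕ} (hm : 1 ≤ m) (hK : Fintype.card K = 2 ^ (2 * m + 1)) :
    Con 2 (Nat.card ↥(Cfsg.Lie.Sz K (2 ^ (m + 1)))) := by
  have h := (Cfsg.Agent.S1163.result hm hK).1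
  have hq2 := two_le_pp Nat.prime_two (show 1 ≤ 2 * m + 1 by omega)
  refine con_key (f := 2 * m + 1) (d := 1) (N := 2) (M := 3) (R := ((2 ^ (2 * m + 1)) ^ 1 - 1) * ((2 ^ (2 * m + 1)) ^ 2 + 1)) Nat.prime_two (Nat.coprime_one_right _) one_pos
      (by rw [h, pow_one]; ring) ?_ (pm_lt hq2 (by norm_num)) (by norm_num) (by norm_num)
  rw [h]
  have : 0 < 2 ^ (2 * m + 1) - 1 := by omega
  positivity

theorem f4 {K : Type} [Field K] [Fintype K] {m : ℕ} (hm : 1 ≤ m) (hK : Fintype.card K = 2 ^ (2 * m + 1)) :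
    Con 2 (Nat.card ↥(Cfsg.Lie.twistedF4 K (2 ^ m))) := by
  have h := Cfsg.Agent.S1068.result hK
  have hq2 := two_le_pp Nat.prime_two (show 1 ≤ 2 * m + 1 by omega)
  refine con_key (f := 2 * m + 1) (d := 1) (N := 12) (M := 14) (R := (((2 ^ (2 * m + 1)) ^ 1 - 1) * ((2 ^ (2 * m + 1)) ^ 3 + 1)) * (((2 ^ (2 * m + 1)) ^ 4 - 1) * ((2 ^ (2 * m + 1)) ^ 6 + 1))) Nat.prime_two (Nat.coprime_one_right _) one_pos
      (by rw [h, pow_one]; ring) ?_ ?_ (by norm_num) (by norm_num)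
  · rw [h]
    have : 0 < 2 ^ (2 * m + 1) - 1 := by omega
    have : 0 < (2 ^ (2 * m + 1)) ^ 4 - 1 := by
      have : 1 < (2 ^ (2 * m + 1)) ^ 4 := Nat.one_lt_pow (by norm_num) (by omega)
      omega
    positivity
  · rw [show (14 : ℕ) = (1 + 3) + (4 + 6) from rfl, pow_add _ (1 + 3)]
    exact mul_lt (pm_lt hq2 (by norm_num)) (pm_lt hq2 (by norm_num)).le (by positivity)

theorem ree {K : Type} [Field K] [Fintype K] {m : ℕ} (hm : 1 ≤ m) (hK : Fintype.card K = 3 ^ (2 * m + 1)) :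
    Con 3 (Nat.card ↥(Cfsg.Lie.twistedG2 K (3 ^ m))) := by
  have h := Cfsg.Agent.S1069.result hK
  have hq2 := two_le_pp Nat.prime_three (show 1 ≤ 2 * m + 1 by omega)
  refine con_key (f := 2 * m + 1) (d := 1) (N := 3) (M := 4) (R := ((3 ^ (2 * m + 1)) ^ 1 - 1) * ((3 ^ (2 * m + 1)) ^ 3 + 1)) Nat.prime_three (Nat.coprime_one_right _) one_pos
      (by rw [h, pow_one]; ring) ?_ (pm_lt hq2 (by norm_num)) (by norm_num) (by norm_num)
  rw [h]
  have : 0 < 3 ^ (2 * m + 1) - 1 := by omega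
  positivity

theorem con_of {G H : Type*} [Group G] [Group H] {p : ℕ} (e : Nonempty (G ≃* H)) (h : Con p (Nat.card H)) : Con p (Nat.card G) := by
  obtain ⟨e⟩ := e
  rwa [Nat.card_congr e.toEquiv]

/-- Let G be a finite simple group of Lie type in characteristic p and let p^k be the exact power of p dividing the order of G. Then the order of G is less than p^(3k); and unless G is isomorphic to PSL(2, F) for the field F with p^k elements, the cube of the order of G is less than p^(8k) (that is, the order is below p^(8k/3)). -/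
theorem result {G : Type*} [Group G] [Finite G] (p : ℕ) (hp : p.Prime) (hG : Cfsg.IsLieTypeChar p G) :
    Nat.card G < p ^ (3 * (Nat.card G).factorization p) ∧
      ((¬ ∃ (F : Type) (_ : Field F) (_ : Fintype F), Fintype.card F = p ^ (Nat.card G).factorization p ∧
          Nonempty (G ≃* Matrix.ProjectiveSpecialLinearGroup (Fin 2) F)) →
        Nat.card G ^ 3 < p ^ (8 * (Nat.card G).factorization p)) := by
  have main : (∃ (F : Type) (_ : Field F) (_ : Fintype F) (_ : CharP F p), Nonempty (G ≃* Matrix.ProjectiveSpecialLinearGroup (Fin 2) F)) ∨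
      Con p (Nat.card G) := by
    rcases hG with h | h | h | h | h | h | h | h | ⟨rfl, h⟩ | ⟨rfl, h⟩ | ⟨rfl, h⟩
    · obtain ⟨F, i1, i2, i3, n, h1, h2, e⟩ := h
      rcases eq_or_lt_of_le h1 with h3 | h3
      · subst h3; exact Or.inl ⟨F, i1, i2, i3, e⟩
      · exact Or.inr (con_of e (psl hp n h3))
    · obtain ⟨F, i1, i2, i3, m, h1, h2, e⟩ := h
      exact Or.inr (con_of e (psp hp m h1))
    · obtain ⟨F, i1, i2, i3, n, q, h0, h1, h2, e⟩ := h
      exact Or.inr (con_of e (psu hp n q h0 h1))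
    · obtain ⟨F, i1, i2, i3, m, h1, h2, e⟩ := h
      exact Or.inr (con_of e (podd hp m h1 h2))
    · obtain ⟨F, i1, i2, i3, m, h1, e⟩ := h
      exact Or.inr (con_of e (pplus hp m h1))
    · obtain ⟨F, i1, i2, i3, m, a, b, h1, h2, e⟩ := h
      exact Or.inr (con_of e (pminus hp m h1 a b h2))
    · obtain ⟨F, i1, i2, i3, h⟩ := h
      have hx := exc (F := F) hp
      rcases h with ⟨_, e⟩ | e | e | e | e
      · exact Or.inr (con_of e hx.1)
      · exact Or.inr (con_of e hx.2.1)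
      · exact Or.inr (con_of e hx.2.2.1)
      · exact Or.inr (con_of e hx.2.2.2.1)
      · exact Or.inr (con_of e hx.2.2.2.2)
    · obtain ⟨K, i1, i2, i3, q, hq, h⟩ := h
      rcases h with ⟨h1, e⟩ | ⟨h1, e⟩
      · exact Or.inr (con_of e ((tw hp hq).1 h1))
      · exact Or.inr (con_of e ((tw hp hq).2 h1))
    · obtain ⟨K, i1, i2, m, hm, hK, e⟩ := h
      exact Or.inr (con_of e (sz hm hK))
    · obtain ⟨K, i1, i2, m, hm, hK, e⟩ := h
      exact Or.inr (con_of e (f4 hm hK))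
    · obtain ⟨K, i1, i2, m, hm, hK, e⟩ := h
      exact Or.inr (con_of e (ree hm hK))
  rcases main with ⟨F, i1, i2, i3, ⟨e⟩⟩ | h
  · have h := psl_two (F := F) hp
    rw [← Nat.card_congr e.toEquiv] at h
    exact ⟨h.1, fun hn => absurd ⟨F, i1, i2, h.2, ⟨e⟩⟩ hn⟩
  · exact ⟨h.1, fun _ => h.2⟩

end Cfsg.Agent.S2363
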