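import Cfsg.Statements.S2364
import Cfsg.Agent.LibFlg2H13

set_option autoImplicit false
open Cfsg

namespace Cfsg.Agent.S2364



/-- Let F be a finite field of characteristic p, n ≥ 4, and let a, b be commuting elements of PSL(n, F) with a of order p. Then every prime divisor of the order of b divides the order of SL(n − 2, F). -/
theorem result {F : Type*} [Field F] [Fintype F] (p : ℕ) [Fact p.Prime] [CharP F p] (n : ℕ) (hn : 4 ≤ n)
    (a b : Matrix.ProjectiveSpecialLinearGroup (Fin n) F) (ha : orderOf a = p) (hab : Commute a b) :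
    (orderOf b).primeFactors ⊆ (Nat.card (Matrix.SpecialLinearGroup (Fin (n - 2)) F)).primeFactors := by
  classical
  intro r hr
  rw [Nat.mem_primeFactors] at hr ⊢
  obtain ⟨hrp, hrb, hb0⟩ := hr
  refine ⟨hrp, ?_, Nat.card_pos.ne'⟩
  by_contra hcon
  have hr1 : r ≠ p := by
    rintro rfl
    exact hcon (CfsgLib.Flg.dvd_card_SL (p := r) (by omega) (Or.inl rfl))
  have hm : ∀ j, 1 ≤ j → j ≤ n - 2 → ¬ r ∣ Fintype.card F ^ j - 1 := by
    intro j h1 h2 h3
    exact hcon (CfsgLib.Flg.dvd_card_SL (p := p) (by omega) (Or.inr ⟨j, h1, h2, h3⟩))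
  have ha1 : a ≠ 1 := by
    rintro rfl
    rw [orderOf_one] at ha
    exact (Fact.out : p.Prime).one_lt.ne ha
  have hap : a ^ p = 1 := by rw [← ha]; exact pow_orderOf_eq_one a
  obtain ⟨k, hk⟩ := hrb
  have hk0 : k ≠ 0 := by
    rintro rfl
    exact hb0 hk
  have hbk : (b ^ k) ^ r = 1 := by rw [← pow_mul, mul_comm, ← hk]; exact pow_orderOf_eq_one b
  have h1 := CfsgLib.Flg.flag_psl hrp hr1 (by omega) hm a (b ^ k) hap ha1 hbk (hab.pow_right k)
  have h2 := orderOf_dvd_of_pow_eq_one h1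
  rw [hk] at h2
  have h3 := Nat.le_of_dvd (Nat.pos_of_ne_zero hk0) h2
  have h4 : 2 * k ≤ r * k := Nat.mul_le_mul_right k hrp.two_le
  omega

end Cfsg.Agent.S2364
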