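import Cfsg.Statements.S2365
import Cfsg.Agent.LibSpBlkH13
import Cfsg.Agent.LibH22HermS

set_option autoImplicit false
open Cfsg

namespace Cfsg.Agent.S2365

open Module Polynomial Matrix

theorem center_pow {F : Type*} [Field F] [Fintype F] {q n : ℕ} (hF : Fintype.card F = q ^ 2) (hn : 2 ≤ n) : ∀ z ∈ Subgroup.center (Cfsg.SU n F q), z ^ (Nat.gcd n (q + 1)) = 1 := by
  intro z hz
  have h1 : (⟨z, hz⟩ : Subgroup.center (Cfsg.SU n F q)) ^ (Nat.gcd n (q + 1)) = 1 := by
    rw [← Cfsg.Agent.H22.card_center_SU hF hn]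
    exact pow_card_eq_one'
  exact congrArg Subtype.val h1

/-- the factor -/
def fac (q j : ℕ) : ℕ := if Even j then q ^ j - 1 else q ^ j + 1

theorem fac_dvd_iff {q r : ℕ} (hq : 1 ≤ q) (j : ℕ) : r ∣ fac q j ↔ (-(q : ZMod r)) ^ j = 1 := by
  unfold fac
  split_ifs with h
  · rw [h.neg_pow, ← ZMod.natCast_eq_zero_iff, Nat.cast_sub (Nat.one_le_pow _ _ hq), Nat.cast_pow, Nat.cast_one, sub_eq_zero]
  · rw [(Nat.not_even_iff_odd.mp h).neg_pow, ← ZMod.natCast_eq_zero_iff, Nat.cast_add, Nat.cast_pow, Nat.cast_one, neg_eq_iff_eq_neg, ← eq_neg_iff_add_eq_zero]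

theorem card_SU' {F : Type*} [Field F] [Fintype F] {q n : ℕ} (hF : Fintype.card F = q ^ 2) :
    Nat.card (Cfsg.SU (n + 1) F q) = q ^ ((n + 1) * n / 2) * ∏ i ∈ Finset.range n, fac q (i + 2) := by
  have h1 := Cfsg.Agent.H22.card_SU (n := n + 1) hF (by omega)
  rw [Finset.prod_range_succ', if_pos (by norm_num), zero_add, pow_one, ← mul_assoc, mul_comm] at h1
  have h2 := Nat.eq_of_mul_eq_mul_right (by omega) h1
  rw [h2, Nat.add_sub_cancel]
  congr 1
  apply Finset.prod_congr rfl
  intro i _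
  unfold fac
  have h3 : Even (i + 1) ↔ ¬ Even (i + 2) := by
    rw [show i + 2 = (i + 1) + 1 by ring, Nat.even_add_one (n := i + 1), not_not]
  by_cases h : Even (i + 1)
  · rw [if_pos h, if_neg (h3.mp h)]
  · rw [if_neg h, if_pos (by by_contra h4; exact h (h3.mpr h4))]

theorem aeval_map {F ι : Type*} [Field F] [Fintype ι] [DecidableEq ι] (σ : F →+* F) (X : Matrix ι ι F) (g : F[X]) : aeval (X.map σ) (g.map σ) = (aeval X g).map σ := by
  induction g using Polynomial.induction_on' with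
  | add p q hp hq =>
    rw [Polynomial.map_add, map_add, map_add, hp, hq]
    ext i j
    simp only [Matrix.add_apply, Matrix.map_apply, map_add]
  | monomial n a =>
    rw [Polynomial.map_monomial, aeval_monomial, aeval_monomial]
    have h1 : (algebraMap F (Matrix ι ι F) a * X ^ n).map σ = (algebraMap F (Matrix ι ι F) a).map σ * (X ^ n).map σ := Matrix.map_mul
    have h2 : (X ^ n).map σ = (X.map σ) ^ n := map_pow (RingHom.mapMatrix σ) X n
    rw [h1, h2]
    congr 1
    rw [Matrix.algebraMap_eq_diagonal, Matrix.algebraMap_eq_diagonal, Matrix.diagonal_map (map_zero σ)]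
    rfl

theorem sq_two : ∀ x : ZMod 2, x ≠ 0 → x ^ 2 = 1 := by decide

/-- Let q be a power of the prime p, F the field with q² elements, m ≥ 4, and let a, b be commuting elements of PSU(m, q) with a of order p. Then every prime divisor of the order of b divides the order of SU(m − 2, q). -/
theorem result {F : Type*} [Field F] [Fintype F] (p : ℕ) [Fact p.Prime] [CharP F p] (m q : ℕ) (hm : 4 ≤ m) (hF : Fintype.card F = q ^ 2)
    (a b : Cfsg.PSU m F q) (ha : orderOf a = p) (hab : Commute a b) :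
    (orderOf b).primeFactors ⊆ (Nat.card ↥(Cfsg.SU (m - 2) F q)).primeFactors := by
  classical
  intro r hr
  rw [Nat.mem_primeFactors] at hr ⊢
  obtain ⟨hrP, hrb, hb0⟩ := hr
  refine ⟨hrP, ?_, Nat.card_pos.ne'⟩
  by_contra hcon
  haveI : Fact r.Prime := ⟨hrP⟩
  have hF1 : 1 < Fintype.card F := Fintype.one_lt_card
  have hq1 : 1 < q := by
    rcases Nat.lt_or_ge 1 q with h | h
    · exact h
    · interval_cases q <;> omega
  obtain ⟨n, rfl⟩ := Nat.exists_eq_add_of_le' hm
  -- q = p ^ t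
  obtain ⟨t, ht⟩ : ∃ t, q = p ^ t := by
    obtain ⟨k, hp', hk⟩ := FiniteField.card F p
    rw [hF] at hk
    have h1 : q ∣ p ^ (k : ℕ) := by rw [← hk]; exact dvd_pow_self q two_ne_zero
    obtain ⟨t, _, ht⟩ := (Nat.dvd_prime_pow hp').mp h1
    exact ⟨t, ht⟩
  have ht0 : t ≠ 0 := by
    rintro rfl
    rw [pow_zero] at ht
    omega
  have hpq : ∀ z : ℕ, p ∣ q * z + 1 → False := by
    intro z h
    have h1 : p ∣ q * z := Dvd.dvd.mul_right (by rw [ht]; exact dvd_pow_self p ht0) z
    have h2 := (Nat.dvd_add_right h1).mp h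
    exact (Fact.out : p.Prime).one_lt.ne' (Nat.dvd_one.mp h2)
  have hcard := card_SU' (F := F) (q := q) (n := n + 1) hF
  have hrp : r ≠ p := by
    rintro rfl
    apply hcon
    show r ∣ Nat.card (Cfsg.SU (n + 2) F q)
    rw [hcard]
    apply Dvd.dvd.mul_right
    rw [ht, ← pow_mul]
    apply dvd_pow_self
    have h1 : 1 ≤ (n + 1 + 1) * (n + 1) / 2 := by
      rw [Nat.le_div_iff_mul_le (by norm_num)]
      nlinarith
    positivity
  have hfac : ∀ j, 2 ≤ j → j ≤ n + 2 → ¬ r ∣ fac q j := by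
    intro j hj1 hj2 h
    apply hcon
    show r ∣ Nat.card (Cfsg.SU (n + 2) F q)
    rw [hcard]
    apply Dvd.dvd.mul_left
    have h2 := Finset.dvd_prod_of_mem (fun i => fac q (i + 2)) (Finset.mem_range.mpr (show j - 2 < n + 1 by omega))
    refine dvd_trans h (dvd_trans ?_ h2)
    show fac q j ∣ fac q (j - 2 + 2)
    rw [Nat.sub_add_cancel hj1]
  set e := orderOf (-(q : ZMod r)) with he
  have hfe : ∀ j, r ∣ fac q j ↔ e ∣ j := by
    intro j
    rw [fac_dvd_iff (by omega), he, orderOf_dvd_iff_pow_eq_one]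
  have he2 : ¬ e ∣ 2 := by
    rw [← hfe]
    exact hfac 2 le_rfl (by omega)
  have hrq : ¬ r ∣ q := by
    rw [ht]
    intro h
    exact hrp ((Nat.prime_dvd_prime_iff_eq hrP (Fact.out)).mp (hrP.dvd_of_dvd_pow h))
  have hrF' : ¬ r ∣ Fintype.card F := by
    rw [hF]
    intro h
    exact hrq (hrP.dvd_of_dvd_pow h)
  have hq0 : -(q : ZMod r) ≠ 0 := by
    rw [neg_ne_zero, Ne, ZMod.natCast_eq_zero_iff]
    exact hrq
  have he0 : 0 < e := by
    have h1 := orderOf_pos (Units.mk0 (-(q : ZMod r)) hq0)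
    rw [← orderOf_units, Units.val_mk0] at h1
    exact h1
  have heb : n + 2 < e := by
    by_contra hle
    rcases Nat.lt_or_ge e 2 with h1 | h1
    · have h2 : e = 1 := by omega
      exact he2 (h2 ▸ one_dvd 2)
    · exact hfac e h1 (by omega) ((hfe e).mpr dvd_rfl)
  have hr2 : r ≠ 2 := by
    rintro rfl
    -- q is odd, so 2 divides q^2 - 1
    apply he2
    rw [← hfe, fac_dvd_iff (by omega)]
    exact sq_two _ hq0
  -- coprimality with the centre
  have hcr : Nat.Coprime (Nat.gcd (n + 4) (q + 1)) r := by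
    apply Nat.Coprime.coprime_dvd_left (Nat.gcd_dvd_right _ _)
    rw [Nat.coprime_comm, Nat.Prime.coprime_iff_not_dvd hrP]
    intro h
    have h1 : r ∣ fac q 1 := by
      unfold fac
      rw [if_neg (by norm_num), pow_one]
      exact h
    exact he2 (((hfe 1).mp h1).trans (one_dvd 2))
  have hcp : Nat.Coprime (Nat.gcd (n + 4) (q + 1)) p := by
    apply Nat.Coprime.coprime_dvd_left (Nat.gcd_dvd_right _ _)
    rw [Nat.coprime_comm, Nat.Prime.coprime_iff_not_dvd Fact.out]
    intro h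
    exact hpq 1 (by rwa [mul_one])
  have ha1 : a ≠ 1 := by
    rintro rfl
    rw [orderOf_one] at ha
    exact (Fact.out : p.Prime).one_lt.ne ha
  have hap : a ^ p = 1 := by rw [← ha]; exact pow_orderOf_eq_one a
  obtain ⟨k, hk⟩ := hrb
  have hk0 : k ≠ 0 := by
    rintro rfl
    exact hb0 hk
  have hbk : (b ^ k) ^ r = 1 := by rw [← pow_mul, mul_comm, ← hk]; exact pow_orderOf_eq_one b
  have hbk1 : b ^ k ≠ 1 := by
    intro h1
    have h2 := orderOf_dvd_of_pow_eq_one h1
    rw [hk] at h2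
    have h3 := Nat.le_of_dvd (Nat.pos_of_ne_zero hk0) h2
    have h4 : 2 * k ≤ r * k := Nat.mul_le_mul_right k hrP.two_le
    omega
  obtain ⟨A, B, hA, hB, hA1, hB1, hAB⟩ := CfsgLib.CQ.exists_pair (center_pow hF (by omega)) hrP (Fact.out : p.Prime) hcr hcp _ _ hap hbk ha1 hbk1 (hab.pow_right k)
  let MA : Matrix (Fin (n + 4)) (Fin (n + 4)) F := A.1.1
  let MB : Matrix (Fin (n + 4)) (Fin (n + 4)) F := B.1.1
  let MB' : Matrix (Fin (n + 4)) (Fin (n + 4)) F := (B⁻¹).1.1
  let f : Matrix (Fin (n + 4)) (Fin (n + 4)) F ≃ₐ[F] Module.End F (Fin (n + 4) → F) := Matrix.toLinAlgEquiv'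
  have hfr : finrank F (Fin (n + 4) → F) = n + 4 := by rw [Module.finrank_pi, Fintype.card_fin]
  haveI : CharP (Matrix (Fin (n + 4)) (Fin (n + 4)) F) p := by infer_instance
  have hcoe : ∀ (X : Cfsg.SU (n + 4) F q) (j : ℕ), (X ^ j).1.1 = X.1.1 ^ j := fun X j => by
    rw [Subgroup.coe_pow, Matrix.SpecialLinearGroup.coe_pow]
  have hext : ∀ X Y : Cfsg.SU (n + 4) F q, X.1.1 = Y.1.1 → X = Y := fun X Y h => Subtype.ext (Subtype.ext h)
  have hBf : f MB ^ r = 1 := by
    rw [← map_pow]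
    show f (B.1.1 ^ r) = 1
    rw [← hcoe, hB]
    exact map_one f
  have hf1 : f MB ≠ 1 := by
    intro h
    apply hB1
    apply hext
    apply f.injective
    rw [show B.1.1 = MB from rfl, h]
    exact (map_one f).symm
  have hAB' : Commute MA MB := congrArg (fun X : Cfsg.SU (n + 4) F q => X.1.1) hAB
  have hN : IsNilpotent (f (MA - 1)) := by
    refine ⟨p, ?_⟩
    rw [← map_pow, sub_pow_char_of_commute (p := p) (Commute.one_right MA)]
    have h1 : MA ^ p = 1 := by
      show A.1.1 ^ p = 1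
      rw [← hcoe, hA]
      rfl
    rw [h1, one_pow, sub_self, map_zero]
  have hN0 : f (MA - 1) ≠ 0 := by
    rw [Ne, EmbeddingLike.map_eq_zero_iff, sub_eq_zero]
    intro h
    exact hA1 (hext _ _ h)
  have hcomm : Commute (f MB) (f (MA - 1)) := (hAB'.symm.sub_right (Commute.one_right _)).map f
  have hrF : (r : F) ≠ 0 := CfsgLib.Flg.cast_ne (p := p) hrP hrp
  have hQ : ((Fintype.card F : ℕ) : ZMod r) = (-(q : ZMod r)) ^ 2 := by
    rw [hF, Nat.cast_pow, neg_sq]
  have hkQ : orderOf ((Fintype.card F : ℕ) : ZMod r) = e / Nat.gcd e 2 := by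
    rw [hQ, orderOf_pow' _ two_ne_zero]
  rcases Nat.even_or_odd e with heven | hodd
  · have hg2 : Nat.gcd e 2 = 2 := Nat.gcd_eq_right heven.two_dvd
    rw [hg2] at hkQ
    obtain ⟨c, hc⟩ := heven
    have hc' : e / 2 = c := by omega
    rw [hc'] at hkQ
    have hinv1 : MB * MB' = 1 := congrArg (fun X : Cfsg.SU (n + 4) F q => X.1.1) (mul_inv_cancel B)
    have hinv2 : MB' * MB = 1 := congrArg (fun X : Cfsg.SU (n + 4) F q => X.1.1) (inv_mul_cancel B)
    have hσ : ∀ x : F, iterateFrobenius F p t x = x ^ q := fun x => by rw [iterateFrobenius_def, ← ht]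
    obtain ⟨j, hj⟩ := CfsgLib.Homg.no_nilp (K := F) (V := Fin (n + 4) → F) hrP (p := p) hrF t (f MB) (f MB')
      (by rw [← map_mul, hinv1, map_one]) (by rw [← map_mul, hinv2, map_one]) hBf
      (by
        intro g hg
        have h1 : aeval MB g = 0 := by
          apply f.injective
          rw [← Polynomial.aeval_algHom_apply, map_zero]
          exact hg
        have hU := (Cfsg.Agent.H22.mem_SU_iff hσ B.1).1 B.2
        have h2 : MB.map (iterateFrobenius F p t) = MB'ᵀ := by
          have h3 : MB'ᵀ * MBᵀ = 1 := by rw [← Matrix.transpose_mul, hinv1, Matrix.transpose_one]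
          calc MB.map (iterateFrobenius F p t) = (MB'ᵀ * MBᵀ) * MB.map (iterateFrobenius F p t) := by rw [h3, one_mul]
            _ = MB'ᵀ * (MBᵀ * MB.map (iterateFrobenius F p t)) := by rw [mul_assoc]
            _ = MB'ᵀ := by rw [show MBᵀ * MB.map (iterateFrobenius F p t) = 1 from hU, mul_one]
        have h4 := aeval_map (iterateFrobenius F p t) MB g
        rw [h1, h2, CfsgLib.SpBlk.aeval_transpose] at h4
        have h5 : aeval MB' (g.map (iterateFrobenius F p t)) = 0 := by
          have h6 := congrArg Matrix.transpose h4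
          rw [Matrix.transpose_transpose] at h6
          rw [h6]
          ext i j
          simp
        have h7 : aeval (f MB') (g.map (iterateFrobenius F p t)) = f (aeval MB' (g.map (iterateFrobenius F p t))) := Polynomial.aeval_algHom_apply f _ _
        rw [h7, h5, map_zero])
      (f (MA - 1)) hcomm hN hN0 hf1 (by rw [hkQ]; omega) (by rw [hkQ, hfr]; omega)
    rw [← ht, hF] at hj
    have h1 : (-(q : ZMod r)) ^ (2 * j + 1) = 1 := by
      have h2 : ((q * (q ^ 2) ^ j + 1 : ℕ) : ZMod r) = 0 := (ZMod.natCast_eq_zero_iff _ _).mpr hj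
      push_cast at h2
      have h3 : (-(q : ZMod r)) ^ (2 * j + 1) = -((q : ZMod r) * ((q : ZMod r) ^ 2) ^ j) := by
        rw [pow_succ, pow_mul, neg_sq]; ring
      rw [h3]
      exact neg_eq_of_add_eq_zero_right (by rw [add_comm, add_comm] at h2; exact h2)
    have h2 : e ∣ 2 * j + 1 := by rw [he, orderOf_dvd_iff_pow_eq_one]; exact h1
    obtain ⟨d, hd⟩ := h2
    rw [hc] at hd
    have h3 : (c + c) * d = 2 * (c * d) := by ring
    omega
  · have hg1 : Nat.gcd e 2 = 1 := Nat.coprime_two_right.mpr hodd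
    rw [hg1, Nat.div_one] at hkQ
    apply hf1
    apply CfsgLib.Flg.flag hrP hrF' (by rw [hfr]; omega) ?_ (f MB) (f (MA - 1)) hBf hcomm hN hN0
    intro j hj1 hj2 hj3
    have h1 : orderOf ((Fintype.card F : ℕ) : ZMod r) ∣ j := by
      rw [orderOf_dvd_iff_pow_eq_one]
      rw [← ZMod.natCast_eq_zero_iff, Nat.cast_sub (Nat.one_le_pow _ _ (by omega)), Nat.cast_pow, Nat.cast_one, sub_eq_zero] at hj3
      exact hj3
    rw [hkQ] at h1
    have := Nat.le_of_dvd (by omega) h1
    rw [hfr] at hj2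
    omega

end Cfsg.Agent.S2365
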