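import Cfsg.Statements.S2366
import Cfsg.Agent.LibH22SpecB

set_option autoImplicit false
open Cfsg

namespace Cfsg.Agent.S2366


/-- The set of element orders of PSU(3, q) for an odd prime power q = p^n: writing d = gcd(3, q + 1), a positive integer is the order of some element exactly when it divides one of q + 1, p(q + 1)/d, (q² − 1)/d, (q² − q + 1)/d. -/
theorem result {F : Type*} [Field F] [Fintype F] (p : ℕ) [Fact p.Prime] [CharP F p] (hp : p ≠ 2) (q : ℕ) (hF : Fintype.card F = q ^ 2) :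
    Set.range (orderOf : Cfsg.PSU 3 F q → ℕ) =
      {s : ℕ | s ∣ q + 1} ∪ {s : ℕ | s ∣ p * (q + 1) / Nat.gcd 3 (q + 1)} ∪
        {s : ℕ | s ∣ (q ^ 2 - 1) / Nat.gcd 3 (q + 1)} ∪ {s : ℕ | s ∣ (q ^ 2 - q + 1) / Nat.gcd 3 (q + 1)} := by
  classical
  have h2 : (2 : F) ≠ 0 := by
    intro h
    apply hp
    have h3 : ((2 : ℕ) : F) = 0 := by exact_mod_cast h
    rw [CharP.cast_eq_zero_iff F p] at h3
    exact (Nat.prime_dvd_prime_iff_eq Fact.out Nat.prime_two).1 h3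
  have hq := Cfsg.Agent.H22.two_le_of_card_sq hF
  obtain ⟨d3, d1, d2, d4, d5, dpos⟩ := Cfsg.Agent.H22.Sp.d_dvd hq
  have hp0 := (Fact.out : p.Prime).pos
  ext s
  simp only [Set.mem_union, Set.mem_setOf_eq]
  constructor
  · rintro ⟨x, rfl⟩
    obtain ⟨A, rfl⟩ := QuotientGroup.mk_surjective x
    rcases Cfsg.Agent.H22.Sp.good_all p hp hF A with h | h | h | h
    · exact Or.inl (Or.inl (Or.inl ((Cfsg.Agent.H22.Sp.ord_dvd_iff hF A _).2 h)))
    · exact Or.inl (Or.inl (Or.inr ((Cfsg.Agent.H22.Sp.ord_dvd_iff hF A _).2 h)))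
    · exact Or.inl (Or.inr ((Cfsg.Agent.H22.Sp.ord_dvd_iff hF A _).2 h))
    · exact Or.inr ((Cfsg.Agent.H22.Sp.ord_dvd_iff hF A _).2 h)
  · rintro (((h | h) | h) | h)
    · exact Cfsg.Agent.H22.Sp.range_of hF (Nat.succ_pos _) (Cfsg.Agent.H22.Sp.ex1 hF) h
    · refine Cfsg.Agent.H22.Sp.range_of hF ?_ (Cfsg.Agent.H22.Sp.ex2 p hF h2) h
      exact Nat.div_pos (Nat.le_of_dvd (Nat.mul_pos hp0 (Nat.succ_pos _)) (Dvd.dvd.mul_left d1 _)) dpos
    · refine Cfsg.Agent.H22.Sp.range_of hF ?_ (Cfsg.Agent.H22.Sp.ex3 hF h2) h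
      have h4 : 0 < q ^ 2 - 1 := by
        have : 2 ^ 2 ≤ q ^ 2 := Nat.pow_le_pow_left hq 2
        omega
      exact Nat.div_pos (Nat.le_of_dvd h4 d4) dpos
    · refine Cfsg.Agent.H22.Sp.range_of hF ?_ (Cfsg.Agent.H22.Sp.ex4 hF) h
      exact Nat.div_pos (Nat.le_of_dvd (Nat.succ_pos _) d5) dpos

end Cfsg.Agent.S2366
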