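import Cfsg.Statements.S2368
import Cfsg.Agent.LibUnip

set_option autoImplicit false
open Pointwise
open Cfsg

namespace Cfsg.Agent.S2368

/-- Let F be a finite field of characteristic p and m ≥ 1. Every element of GL(m, F) of p-power order has order less than p·m, and GL(m, F) has an element of p-power order at least m; so the largest order of a p-element of GL(m, F) is the least power of p that is at least m. -/
theorem result {F : Type*} [Field F] [Fintype F] (p : ℕ) [Fact p.Prime] [CharP F p] (m : ℕ) (hm : 1 ≤ m) :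
    (∀ g : Matrix.GeneralLinearGroup (Fin m) F, (∃ j : ℕ, orderOf g = p ^ j) → orderOf g < p * m) ∧
      ∃ g : Matrix.GeneralLinearGroup (Fin m) F, (∃ j : ℕ, orderOf g = p ^ j) ∧ m ≤ orderOf g := by
  have hp := (Fact.out : p.Prime)
  haveI : NeZero m := ⟨by omega⟩
  constructor
  · intro g hg
    have h1 := CfsgLib.Unip.orderOf_le p g (CfsgLib.Unip.nilpotent_of_orderOf p g hg)
    refine lt_of_le_of_lt (Nat.le_of_dvd (pow_pos hp.pos _) h1) ?_
    rcases Nat.lt_or_ge 1 m with h | h
    · have h2 := Nat.pow_pred_clog_lt_self hp.one_lt h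
      have h3 : 0 < Nat.clog p m := Nat.clog_pos hp.one_lt h
      have h4 : p ^ Nat.clog p m = p * p ^ (Nat.clog p m).pred := by
        rw [← pow_succ']
        congr 1
        exact (Nat.succ_pred_eq_of_pos h3).symm
      rw [h4]
      exact Nat.mul_lt_mul_of_pos_left h2 hp.pos
    · have : m = 1 := by omega
      subst this
      simpa using hp.one_lt
  · obtain ⟨u, hu, hu'⟩ := CfsgLib.Unip.exists_unipotent F m hm
    have h := CfsgLib.Unip.orderOf_eq p u hu hu'
    exact ⟨u, ⟨_, h⟩, by rw [h]; exact Nat.le_pow_clog hp.one_lt m⟩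

end Cfsg.Agent.S2368
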