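import Cfsg.Statements.S2369
import Cfsg.Agent.LibParCard
import Cfsg.Agent.LibInvTF4

set_option autoImplicit false
open Cfsg

namespace Cfsg.Agent.S2369


open CfsgLib.Chev CfsgLib.F4C CfsgLib.Inv in
theorem aux {K : Type*} [Field K] [Fintype K] [CharP K 2] {G : Subgroup (GL Cfsg.Lie.chevF4.Idx K)}
    (hG : G ≤ Cfsg.Lie.chevF4.group K) (a b c : GL Cfsg.Lie.chevF4.Idx K) (hb : b ∈ G) (hc : c ∈ G) (hab : a * b = b * a)
    (h : c * a * c⁻¹ = XP good3_F4 K [47, 44] ∨ c * a * c⁻¹ = XP good3_F4 K [39, 45]) {l : ℕ} (hl : l.Prime) (hlb : l ∣ orderOf b) :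
    l ∣ Fintype.card K * (Fintype.card K ^ 4 - 1) := by
  have hy : c * b * c⁻¹ ∈ Cfsg.Lie.chevF4.group K := hG (Subgroup.mul_mem _ (Subgroup.mul_mem _ hc hb) (Subgroup.inv_mem _ hc))
  have ho : orderOf (c * b * c⁻¹) = orderOf b := by
    have : c * b * c⁻¹ = MulAut.conj c b := rfl
    rw [this]
    exact orderOf_injective (MulAut.conj c).toMonoidHom (MulAut.conj c).injective b
  have hcomm : (c * a * c⁻¹) * (c * b * c⁻¹) = (c * b * c⁻¹) * (c * a * c⁻¹) := by
    have e1 : (c * a * c⁻¹) * (c * b * c⁻¹) = c * (a * b) * c⁻¹ := by group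
    rw [e1, hab]; group
  have key : ∀ P : Subgroup (GL Cfsg.Lie.chevF4.Idx K), c * b * c⁻¹ ∈ P → l ∣ Nat.card P := by
    intro P hP
    rw [← ho] at hlb
    have h1 : orderOf (⟨c * b * c⁻¹, hP⟩ : ↥P) ∣ Nat.card P := orderOf_dvd_natCard _
    rw [← Subgroup.orderOf_coe] at h1
    exact hlb.trans h1
  rcases h with h | h
  · have e : XP good3_F4 K [47, 44] = good3_F4.X 47 (1 : K) * good3_F4.X 44 1 := by simp [XP]
    apply par_primes (F := K) (Or.inl rfl) hl (key _ (c47_le ⟨hy, ?_⟩))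
    refine Subgroup.mem_centralizer_iff.2 ?_
    rintro _ rfl
    rw [← e, ← h]; exact hcomm
  · have e : XP good3_F4 K [39, 45] = vv K := by simp [XP, vv]
    apply par_primes (F := K) (Or.inr rfl) hl (key _ (cvv_le ⟨hy, ?_⟩))
    refine Subgroup.mem_centralizer_iff.2 ?_
    rintro _ rfl
    rw [← e, ← h]; exact hcomm


/-- Let q = 2^(2m+1) with m ≥ 1 and let a, b be commuting elements of the large Ree group ²F₄(q) with a an involution. Then every prime divisor of the order of b divides q(q⁴ − 1). -/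
theorem result {K : Type*} [Field K] [Fintype K] (m : ℕ) (hm : 1 ≤ m) (hK : Fintype.card K = 2 ^ (2 * m + 1))
    (a b : ↥(Cfsg.Lie.twistedF4 K (2 ^ m))) (ha : orderOf a = 2) (hab : Commute a b) :
    (orderOf b).primeFactors ⊆ (2 ^ (2 * m + 1) * ((2 ^ (2 * m + 1)) ^ 4 - 1)).primeFactors := by

  haveI : Fact (Nat.Prime 2) := ⟨Nat.prime_two⟩
  haveI : CharP K 2 := charP_of_card_eq_prime_pow hK
  obtain ⟨f, hf⟩ := CfsgLib.Chev.exists_frobp K 2 m
  have R := CfsgLib.Chev.TwF4x.R hf hK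
  have haa : a * a = 1 := by
    have h0 := pow_orderOf_eq_one a
    have h1 : a ^ (orderOf a) = a * a := by
      have : ∀ n, n = 2 → a ^ n = a * a := by rintro n rfl; exact pow_two a
      exact this _ ha
    rw [← h1, h0]
  obtain ⟨w, hw, c, hc⟩ := CfsgLib.Inv.cl_TF4 R a haa
  have hab' : (a : GL Cfsg.Lie.chevF4.Idx K) * b = b * a := congrArg Subtype.val hab.eq
  have h : (c : GL Cfsg.Lie.chevF4.Idx K) * a * (c : GL Cfsg.Lie.chevF4.Idx K)⁻¹ = CfsgLib.Inv.XP CfsgLib.Chev.good3_F4 K [47, 44] ∨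
      (c : GL Cfsg.Lie.chevF4.Idx K) * a * (c : GL Cfsg.Lie.chevF4.Idx K)⁻¹ = CfsgLib.Inv.XP CfsgLib.Chev.good3_F4 K [39, 45] := by
    simp only [CfsgLib.Inv.RTF4, List.mem_cons, List.not_mem_nil, or_false] at hw
    rcases hw with rfl | rfl | rfl
    · exfalso
      rw [CfsgLib.Inv.XP_nil] at hc
      have h2 : c * a * c⁻¹ = 1 := Subtype.ext hc
      have : a = 1 := by
        have e : a = c⁻¹ * (c * a * c⁻¹) * c := by group
        rw [e, h2]; group
      rw [this, orderOf_one] at ha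
      omega
    · exact Or.inl hc
    · exact Or.inr hc
  intro l hl
  rw [Nat.mem_primeFactors] at hl
  have h1 : l ∣ Fintype.card K * (Fintype.card K ^ 4 - 1) :=
    aux (fun x hx => R.E_le_G hx) (a : GL Cfsg.Lie.chevF4.Idx K) b c b.2 c.2 hab' h hl.1 (by rw [Subgroup.orderOf_coe]; exact hl.2.1)
  rw [hK] at h1
  rw [Nat.mem_primeFactors]
  refine ⟨hl.1, h1, ?_⟩
  apply Nat.mul_ne_zero
  · positivity
  · have h2 : 1 < (2 ^ (2 * m + 1)) ^ 4 := by
      rw [← pow_mul]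
      exact Nat.one_lt_two_pow (by omega)
    omega

end Cfsg.Agent.S2369
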