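import Cfsg.Statements.S2370
import Cfsg.Agent.LibHtExp
import Cfsg.Agent.LibInvTF4
import Cfsg.Agent.LibF4C2

set_option autoImplicit false
open Cfsg

namespace Cfsg.Agent.S2370


theorem hB : ∀ s < CfsgLib.Chev.tF4.n, CfsgLib.Chev.hgt CfsgLib.Chev.tF4 s ≤ 11 := by
  have h : ((List.range 48).all fun s => decide (CfsgLib.Chev.hgt CfsgLib.Chev.tF4 s ≤ 11)) = true := by decide +kernel
  intro s hs
  rw [CfsgLib.F4C.n_F4] at hs
  exact of_decide_eq_true (List.all_eq_true.1 h s (List.mem_range.2 hs))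


/-- Let q = 2^(2m+1) with m ≥ 1. Every element of 2-power order of the large Ree group ²F₄(q) has order at most 32. -/
theorem result {K : Type*} [Field K] [Fintype K] (m : ℕ) (hm : 1 ≤ m) (hK : Fintype.card K = 2 ^ (2 * m + 1))
    (x : ↥(Cfsg.Lie.twistedF4 K (2 ^ m))) (hx : ∃ j : ℕ, orderOf x = 2 ^ j) : orderOf x ≤ 32 := by

  haveI : Fact (Nat.Prime 2) := ⟨Nat.prime_two⟩
  haveI : CharP K 2 := charP_of_card_eq_prime_pow hK
  obtain ⟨f, hf⟩ := CfsgLib.Chev.exists_frobp K 2 m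
  have R := CfsgLib.Chev.TwF4x.R hf hK
  obtain ⟨j, hj⟩ := hx
  have h1 : (x : GL Cfsg.Lie.chevF4.Idx K) ^ (2 ^ 5) = 1 :=
    CfsgLib.Chev.good3_F4.pow_of_pgroup hB (by norm_num) (by norm_num) (R.E_le_G x.2) (by rw [Subgroup.orderOf_coe]; exact hj)
  have h2 : x ^ 32 = 1 := Subtype.ext h1
  exact Nat.le_of_dvd (by norm_num) (orderOf_dvd_of_pow_eq_one h2)

end Cfsg.Agent.S2370
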