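import Cfsg.Statements.S2380
import Cfsg.Agent.LibHc2H13

set_option autoImplicit false
open scoped MatrixGroups
open Cfsg

namespace Cfsg.Agent.S2380



/-- Sylow subgroups of `GL_n(q)` for large primes. Let `F` be a field with `q` elements and `r` a prime with `r > n` and `r ∤ q`. Let `d` be the multiplicative order of `q` modulo `r` and `m` the `r`-part of the value at `q` of the `d`-th cyclotomic polynomial. Then every Sylow `r`-subgroup of `GL_n(q)` is a direct product of `⌊n/d⌋` cyclic groups of order `m` (the degrees of the Weyl group being `1, …, n`). -/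
theorem result {F : Type*} [Field F] [Fintype F] {q : ℕ} (hq : Fintype.card F = q) (n : ℕ)
    (r : ℕ) [Fact r.Prime] (hrn : n < r) (hrq : ¬ r ∣ q) (P : Sylow r (GL (Fin n) F)) :
    Nonempty (↥(P : Subgroup (GL (Fin n) F)) ≃*
      (Fin (n / orderOf (q : ZMod r)) →
        Multiplicative (ZMod (r ^ padicValNat r ((Polynomial.cyclotomic (orderOf (q : ZMod r)) ℤ).eval (q : ℤ)).natAbs)))) := by
  classical
  have hr : r.Prime := Fact.out
  have hq1 : 1 < q := by rw [← hq]; exact Fintype.one_lt_card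
  subst hq
  rw [CfsgLib.Hc.val_phi hr hq1 hrq]
  have hd : 0 < orderOf ((Fintype.card F : ℕ) : ZMod r) := by
    have hq0 : ((Fintype.card F : ℕ) : ZMod r) ≠ 0 := by rwa [Ne, ZMod.natCast_eq_zero_iff]
    exact (isOfFinOrder_iff_pow_eq_one.2 ⟨r - 1, Nat.sub_pos_of_lt hr.one_lt, ZMod.pow_card_sub_one_eq_one hq0⟩).orderOf_pos
  obtain ⟨f, hf⟩ := CfsgLib.Hc.torus_gl (F := F) (n := n) (a := n / orderOf ((Fintype.card F : ℕ) : ZMod r)) hd (Nat.div_mul_le_self _ _)
    (m := r ^ padicValNat r (Fintype.card F ^ orderOf ((Fintype.card F : ℕ) : ZMod r) - 1)) pow_padicValNat_dvd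
  refine CfsgLib.Hc.syl_iso f hf ?_ P
  have h1 : Nat.card (Multiplicative (ZMod (r ^ padicValNat r (Fintype.card F ^ orderOf ((Fintype.card F : ℕ) : ZMod r) - 1)))) =
    r ^ padicValNat r (Fintype.card F ^ orderOf ((Fintype.card F : ℕ) : ZMod r) - 1) := Nat.card_zmod _
  rw [CfsgLib.Hc.gl_val hr hrn hrq, Nat.card_fun, Nat.card_eq_fintype_card (α := Fin _), Fintype.card_fin, h1, ← pow_mul, mul_comm]

end Cfsg.Agent.S2380
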