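import Cfsg.Statements.S2381
import Cfsg.Agent.LibHc3H13

set_option autoImplicit false
open Cfsg

namespace Cfsg.Agent.S2381



/-- Sylow subgroups of `Sp_{2n}(q)` for large primes. Let `F` be a field with `q` elements and `r` an odd prime with `r > n` and `r ∤ q` (so `r` does not divide the order `2^n n!` of the Weyl group). Let `d` be the multiplicative order of `q` modulo `r`, `a` the number of `i` with `1 ≤ i ≤ n` and `d ∣ 2i` (the degrees being `2, 4, …, 2n`), and `m` the `r`-part of the value at `q` of the `d`-th cyclotomic polynomial. Then every Sylow `r`-subgroup of the symplectic group `Sp_{2n}(q)` is a direct product of `a` cyclic groups of order `m`. -/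
theorem result {F : Type*} [Field F] [Fintype F] {q : ℕ} (hq : Fintype.card F = q) (n : ℕ)
    (r : ℕ) [Fact r.Prime] (hr2 : r ≠ 2) (hrn : n < r) (hrq : ¬ r ∣ q) (P : Sylow r ↥(Matrix.symplecticGroup (Fin n) F)) :
    Nonempty (↥(P : Subgroup ↥(Matrix.symplecticGroup (Fin n) F)) ≃*
      (Fin ((Finset.Icc 1 n).filter (fun i => orderOf (q : ZMod r) ∣ 2 * i)).card →
        Multiplicative (ZMod (r ^ padicValNat r ((Polynomial.cyclotomic (orderOf (q : ZMod r)) ℤ).eval (q : ℤ)).natAbs)))) := by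
  classical
  have hr : r.Prime := Fact.out
  have hq1 : 1 < q := by rw [← hq]; exact Fintype.one_lt_card
  subst hq
  rw [CfsgLib.Hc.val_phi hr hq1 hrq]
  have hd : 0 < orderOf ((Fintype.card F : ℕ) : ZMod r) := by
    have hq0 : ((Fintype.card F : ℕ) : ZMod r) ≠ 0 := by rwa [Ne, ZMod.natCast_eq_zero_iff]
    exact (isOfFinOrder_iff_pow_eq_one.2 ⟨r - 1, Nat.sub_pos_of_lt hr.one_lt, ZMod.pow_card_sub_one_eq_one hq0⟩).orderOf_pos
  obtain ⟨d, hdd⟩ : ∃ d, d = orderOf ((Fintype.card F : ℕ) : ZMod r) := ⟨_, rfl⟩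
  have hsp := CfsgLib.Hc.sp_val (F := F) (n := n) hr hr2 hrn hrq
  rw [← hdd] at hd hsp
  rw [← hdd]
  obtain ⟨v, hv⟩ : ∃ v, v = padicValNat r (Fintype.card F ^ d - 1) := ⟨_, rfl⟩
  rw [← hv] at hsp
  rw [← hv]
  have hcz : ∀ k : ℕ, Nat.card (Fin k → Multiplicative (ZMod (r ^ v))) = r ^ (k * v) := by
    intro k
    have h1 : Nat.card (Multiplicative (ZMod (r ^ v))) = r ^ v := Nat.card_zmod _
    rw [Nat.card_fun, Nat.card_eq_fintype_card (α := Fin _), Fintype.card_fin, h1, ← pow_mul, mul_comm]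
  obtain ⟨a, ha⟩ : ∃ a, a = ((Finset.Icc 1 n).filter (fun i => d ∣ 2 * i)).card := ⟨_, rfl⟩
  rw [← ha] at hsp
  rw [← ha]
  have hIcc : Finset.Icc 1 n = Finset.Ioc 0 n := rfl
  rcases Nat.even_or_odd d with heven | hodd
  · obtain ⟨e, he⟩ := heven
    have he2 : d = 2 * e := by omega
    have ha' : a = n / e := by
      rw [ha, ← Nat.Ioc_filter_dvd_card_eq_div, hIcc]
      congr 1
      refine Finset.filter_congr fun i _ => ?_
      rw [he2]
      exact Nat.mul_dvd_mul_iff_left two_pos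
    have he0 : 0 < e := by omega
    obtain ⟨f, hf⟩ := CfsgLib.Hc.torus_sp (F := F) (n := n) (a := a) (e := e) (m := r ^ v) he0 (by rw [ha']; exact Nat.div_mul_le_self _ _) (by
      have h1 : Fintype.card F ^ d - 1 = (Fintype.card F ^ e - 1) * (Fintype.card F ^ e + 1) := by
        have h2 : (Fintype.card F ^ e) ^ 2 - 1 ^ 2 = (Fintype.card F ^ e + 1) * (Fintype.card F ^ e - 1) := Nat.sq_sub_sq _ _
        rw [he2, mul_comm 2 e, pow_mul]
        rw [one_pow] at h2
        rw [h2, mul_comm]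
      have h3 : ¬ r ∣ Fintype.card F ^ e - 1 := by
        intro h
        have h4 : d ∣ e := by
          rw [hdd, orderOf_dvd_iff_pow_eq_one]
          rw [← ZMod.natCast_eq_zero_iff, Nat.cast_sub (Nat.one_le_pow _ _ (by omega)), Nat.cast_pow, Nat.cast_one, sub_eq_zero] at h
          exact h
        have := Nat.le_of_dvd he0 h4
        omega
      have h5 : r ^ v ∣ (Fintype.card F ^ e - 1) * (Fintype.card F ^ e + 1) := by
        rw [← h1, hv]; exact pow_padicValNat_dvd
      exact (Nat.Coprime.pow_left v ((Nat.Prime.coprime_iff_not_dvd hr).2 h3)).dvd_of_dvd_mul_left h5)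
    refine CfsgLib.Hc.syl_iso f hf ?_ P
    rw [hcz, hsp]
  · have ha' : a = n / d := by
      rw [ha, ← Nat.Ioc_filter_dvd_card_eq_div, hIcc]
      congr 1
      refine Finset.filter_congr fun i _ => ?_
      exact ⟨fun h => (Nat.Coprime.dvd_of_dvd_mul_left hodd.coprime_two_right h), fun h => h.mul_left 2⟩
    obtain ⟨f, hf⟩ := CfsgLib.Hc.torus_gl (F := F) (n := n) (a := a) (m := r ^ v) hd (by rw [ha']; exact Nat.div_mul_le_self _ _) (by rw [hv]; exact pow_padicValNat_dvd)
    obtain ⟨g, hg⟩ := CfsgLib.Hc.gl_sp (F := F) n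
    refine CfsgLib.Hc.syl_iso (g.comp f) (hg.comp hf) ?_ P
    rw [hcz, hsp]

end Cfsg.Agent.S2381
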