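import Cfsg.Statements.S2383
import Cfsg.Agent.LibCR12

set_option autoImplicit false
open Cfsg

namespace Cfsg.Agent.S2383

/-- Steinberg's count of semisimple classes in characteristic 2 for the types B₂, D₄, E₇, where the finite simply connected group has trivial centre and so coincides with the Chevalley group: for the Chevalley group of type B₂, D₄ or E₇ over a field with `q` elements of characteristic 2, the conjugacy classes of elements of odd order number exactly `q^l`, `l` the rank. -/
theorem result {F : Type*} [Field F] [Fintype F] {q : ℕ} (hq : Fintype.card F = q) [CharP F 2]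
    (D : Cfsg.Lie.ChevalleyDatum) (hD : D ∈ [Cfsg.Lie.chevB2, Cfsg.Lie.chevD4, Cfsg.Lie.chevE7]) :
    Nat.card {c : ConjClasses ↥(D.group F) // ∃ g : ↥(D.group F), ConjClasses.mk g = c ∧ Odd (orderOf g)} = q ^ D.rank := by
  subst hq
  have h2 : (Fintype.card F - 1) % 2 = 1 := by
    have h3 : 2 ∣ Fintype.card F := by
      rw [← CharP.cast_eq_zero_iff F 2]
      exact FiniteField.cast_card_eq_zero F
    have h4 : 1 ≤ Fintype.card F := Fintype.card_pos
    omega
  have h3 : Nat.gcd 2 (Fintype.card F - 1) = 1 := by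
    rw [← Nat.Coprime, Nat.coprime_two_left]
    exact Nat.odd_iff.2 h2
  have hodd : ∀ n : ℕ, Odd n ↔ n.Coprime 2 := fun n => by rw [Nat.coprime_comm, Nat.coprime_two_left]
  simp only [hodd]
  simp only [List.mem_cons, List.not_mem_nil, or_false] at hD
  rcases hD with rfl | rfl | rfl
  · exact CfsgLib.Chev.card_ss_of CfsgLib.Chev.good3_B2 F 2 CfsgLib.Chev.smith_B2 rfl (by simp [h3])
  · exact CfsgLib.Chev.card_ss_of CfsgLib.Chev.good3_D4 F 2 CfsgLib.Chev.smith_D4 rfl (by simp [h3])
  · exact CfsgLib.Chev.card_ss_of CfsgLib.Chev.good3_E7 F 2 CfsgLib.Chev.smith_E7 rfl (by simp [h3])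

end Cfsg.Agent.S2383
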