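import Cfsg.Statements.S2384
import Cfsg.Agent.LibCP2H13
import Cfsg.Agent.LibClsH13
import Cfsg.Agent.S2569

set_option autoImplicit false
open Cfsg

namespace Cfsg.Agent.S2384

open Module Polynomial CfsgLib.CP CfsgLib.Cls in
/-- conjugacy in `SL` of semisimple elements with the same characteristic polynomial -/
theorem sl_conj {F : Type*} [Field F] [Fintype F] {p : ℕ} [Fact p.Prime] [CharP F p] {n : ℕ} {g h : Matrix.SpecialLinearGroup (Fin n) F}
    (hg : (orderOf g).Coprime p) (hh : (orderOf h).Coprime p) (e : (g : Matrix (Fin n) (Fin n) F).charpoly = (h : Matrix (Fin n) (Fin n) F).charpoly) :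
    IsConj g h := by
  classical
  have hpow : ∀ (x : Matrix.SpecialLinearGroup (Fin n) F), (Matrix.toLin' (x : Matrix (Fin n) (Fin n) F)) ^ orderOf x = 1 := by
    intro x
    rw [← Matrix.toLin'_pow, ← Matrix.SpecialLinearGroup.coe_pow, pow_orderOf_eq_one, Matrix.SpecialLinearGroup.coe_one, Matrix.toLin'_one]; rfl
  obtain ⟨ψ, hψ⟩ := conj_of_charpoly hg (hpow g) hh (hpow h) (by rw [Matrix.charpoly_toLin', Matrix.charpoly_toLin', e])
  obtain ⟨P, hP1, hP2⟩ := exists_GL_conj (A := (g : Matrix (Fin n) (Fin n) F)) (B := (h : Matrix (Fin n) (Fin n) F)) ψ hψ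
  let x : GL (Fin n) F := (g : GL (Fin n) F)
  have hx : (x : Matrix (Fin n) (Fin n) F) = (g : Matrix (Fin n) (Fin n) F) := rfl
  have hxo : (orderOf x).Coprime p := by
    have : orderOf x = orderOf g := orderOf_injective (Matrix.SpecialLinearGroup.toGL : Matrix.SpecialLinearGroup (Fin n) F →* GL (Fin n) F)
      Matrix.SpecialLinearGroup.toGL_injective g
    rw [this]; exact hg
  obtain ⟨k, hk1, hk2⟩ := Cfsg.Agent.S2569.result x P hxo
  have hPx : P * x * P⁻¹ = (h : GL (Fin n) F) := by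
    rw [mul_inv_eq_iff_eq_mul]
    exact Units.ext hP2
  rw [isConj_iff]
  let K : Matrix.SpecialLinearGroup (Fin n) F := ⟨(k : Matrix (Fin n) (Fin n) F), hk1⟩
  refine ⟨K, ?_⟩
  rw [mul_inv_eq_iff_eq_mul]
  apply Subtype.ext
  have h3 : k * x = (h : GL (Fin n) F) * k := by rw [← hPx, ← hk2]; group
  exact congrArg (fun u : GL (Fin n) F => (u : Matrix (Fin n) (Fin n) F)) h3

open Module Polynomial CfsgLib.CP CfsgLib.Cls in
theorem coeff_zero_eq {F : Type*} [Field F] {n : ℕ} (g : Matrix.SpecialLinearGroup (Fin n) F) :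
    (g : Matrix (Fin n) (Fin n) F).charpoly.coeff 0 = (-1) ^ n := by
  have h := Matrix.det_eq_sign_charpoly_coeff (g : Matrix (Fin n) (Fin n) F)
  rw [g.2, Fintype.card_fin] at h
  have h2 : ((-1 : F) ^ n) * (-1) ^ n = 1 := by rw [← mul_pow]; simp
  calc (g : Matrix (Fin n) (Fin n) F).charpoly.coeff 0 = ((-1 : F) ^ n * (-1) ^ n) * (g : Matrix (Fin n) (Fin n) F).charpoly.coeff 0 := by rw [h2, one_mul]
    _ = (-1) ^ n := by rw [mul_assoc, ← h, mul_one]

open Module Polynomial CfsgLib.CP CfsgLib.Cls in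
theorem main {F : Type*} [Field F] [Fintype F] (p : ℕ) [Fact p.Prime] [CharP F p] (m : ℕ) :
    Nat.card {c : ConjClasses (Matrix.SpecialLinearGroup (Fin (m + 1)) F) //
      ∃ g : Matrix.SpecialLinearGroup (Fin (m + 1)) F, ConjClasses.mk g = c ∧ (orderOf g).Coprime p} = Nat.card (Fin m → F) := by
  classical
  refine card_eq_of_fibres (G := {g : Matrix.SpecialLinearGroup (Fin (m + 1)) F // (orderOf g).Coprime p})
    (fun g => ⟨ConjClasses.mk g.1, g.1, rfl, g.2⟩) (fun g i => (g.1 : Matrix (Fin (m + 1)) (Fin (m + 1)) F).charpoly.coeff (i.1 + 1)) ?_ ?_ ?_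
  · rintro ⟨c, g, rfl, hg⟩
    exact ⟨⟨g, hg⟩, rfl⟩
  · intro a
    obtain ⟨P, hP1, hP2, hP3⟩ := exists_monic (Fin.cons ((-1) ^ (m + 1)) a : Fin (m + 1) → F)
    obtain ⟨M, hM⟩ := exists_companion hP1 hP2
    have hdet : M.det = 1 := by
      have h1 := hP3 0
      rw [Fin.cons_zero] at h1
      have h0 : P.coeff 0 = (-1) ^ (m + 1) := h1
      rw [Matrix.det_eq_sign_charpoly_coeff, hM, Fintype.card_fin, h0, ← mul_pow]; simp
    let h : Matrix.SpecialLinearGroup (Fin (m + 1)) F := ⟨M, hdet⟩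
    obtain ⟨N, hN⟩ := exists_pow_coprime (F := F) (p := p) h
    refine ⟨⟨h ^ (Fintype.card F ^ N), hN⟩, ?_⟩
    funext i
    simp only [Matrix.SpecialLinearGroup.coe_pow]
    rw [charpoly_pow]
    change M.charpoly.coeff (i.1 + 1) = a i
    rw [hM]
    have h1 := hP3 i.succ
    rw [Fin.cons_succ, Fin.val_succ] at h1
    exact h1
  · rintro ⟨g, hg⟩ ⟨h, hh⟩
    constructor
    · intro e
      have e1 := congrArg Subtype.val e
      rw [ConjClasses.mk_eq_mk_iff_isConj, isConj_iff] at e1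
      obtain ⟨c, hc⟩ := e1
      change c * g * c⁻¹ = h at hc
      have h1 : (h : Matrix (Fin (m + 1)) (Fin (m + 1)) F).charpoly = (g : Matrix (Fin (m + 1)) (Fin (m + 1)) F).charpoly := by
        rw [← hc, Matrix.SpecialLinearGroup.coe_mul, Matrix.charpoly_mul_comm, ← Matrix.SpecialLinearGroup.coe_mul, inv_mul_cancel_left]
      funext i
      exact (congrArg (fun P : F[X] => P.coeff (i.1 + 1)) h1).symm
    · intro e
      refine Subtype.ext ?_
      rw [ConjClasses.mk_eq_mk_iff_isConj]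
      refine sl_conj hg hh (monic_ext (n := m + 1) (Matrix.charpoly_monic _) (Matrix.charpoly_monic _)
        (by rw [Matrix.charpoly_natDegree_eq_dim, Fintype.card_fin]) (by rw [Matrix.charpoly_natDegree_eq_dim, Fintype.card_fin]) fun i => ?_)
      refine Fin.cases ?_ (fun j => ?_) i
      · exact (coeff_zero_eq g).trans (coeff_zero_eq h).symm
      · exact congrFun e j

/-- In `SL_n(q)`, `q` a power of the prime `p`, the number of conjugacy classes of elements of order prime to `p` (the semisimple classes) is `q^(n-1)`. -/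
theorem result {F : Type*} [Field F] [Fintype F] {q : ℕ} (hq : Fintype.card F = q) (p : ℕ) [Fact p.Prime] [CharP F p] (n : ℕ) (hn : 1 ≤ n) :
    Nat.card {c : ConjClasses (Matrix.SpecialLinearGroup (Fin n) F) //
      ∃ g : Matrix.SpecialLinearGroup (Fin n) F, ConjClasses.mk g = c ∧ (orderOf g).Coprime p} = q ^ (n - 1) := by
  obtain ⟨m, rfl⟩ : ∃ m, n = m + 1 := ⟨n - 1, by omega⟩
  rw [main, Nat.card_fun, Nat.card_eq_fintype_card, hq, Nat.card_eq_fintype_card, Fintype.card_fin, Nat.add_sub_cancel]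

end Cfsg.Agent.S2384
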