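import Cfsg.Statements.S2385
import Cfsg.Agent.LibCP4H13
import Cfsg.Agent.LibClsH13

set_option autoImplicit false
open Cfsg

namespace Cfsg.Agent.S2385

open Module Polynomial CfsgLib.CP CfsgLib.Cls Cfsg.Agent.H22 in
/-- characteristic polynomials of symplectic matrices are palindromic -/
theorem rev {F : Type*} [Field F] {n : ℕ} (A : Matrix.symplecticGroup (Fin n) F) :
    (A : Matrix (Fin n ⊕ Fin n) (Fin n ⊕ Fin n) F).charpoly.reverse = (A : Matrix (Fin n ⊕ Fin n) (Fin n ⊕ Fin n) F).charpoly := by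
  classical
  have hdet : (A : Matrix (Fin n ⊕ Fin n) (Fin n ⊕ Fin n) F).det = 1 := SymplecticGroup.det_eq_one A.2
  have hu : IsUnit (A : Matrix (Fin n ⊕ Fin n) (Fin n ⊕ Fin n) F) := by
    rw [Matrix.isUnit_iff_isUnit_det, hdet]; exact isUnit_one
  have h1 := Matrix.charpoly_inv _ hu
  rw [hdet, Ring.inverse_one, map_one, mul_one, Fintype.card_sum, Fintype.card_fin, ← two_mul, pow_mul, neg_one_sq, one_pow, one_mul,
    ← Matrix.reverse_charpoly] at h1
  rw [← h1]
  have hJ : (Matrix.J (Fin n) F).det = 1 := SymplecticGroup.det_eq_one (SymplecticGroup.J_mem _ _)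
  have h2 : (A : Matrix (Fin n ⊕ Fin n) (Fin n ⊕ Fin n) F)⁻¹ = - Matrix.J (Fin n) F * (A : Matrix (Fin n ⊕ Fin n) (Fin n ⊕ Fin n) F).transpose * Matrix.J (Fin n) F :=
    (SymplecticGroup.coe_inv' A) ▸ (SymplecticGroup.coe_inv A)
  rw [h2, Matrix.charpoly_mul_comm, ← Matrix.mul_assoc, mul_neg, Matrix.J_squared, neg_neg, one_mul, Matrix.charpoly_transpose]

open Module Polynomial CfsgLib.CP CfsgLib.Cls Cfsg.Agent.H22 in
theorem pal {F : Type*} [Field F] {n : ℕ} (A : Matrix.symplecticGroup (Fin n) F) {j : ℕ} (hj : j ≤ 2 * n) :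
    (A : Matrix (Fin n ⊕ Fin n) (Fin n ⊕ Fin n) F).charpoly.coeff j = (A : Matrix (Fin n ⊕ Fin n) (Fin n ⊕ Fin n) F).charpoly.coeff (2 * n - j) := by
  conv_lhs => rw [← rev A]
  rw [coeff_reverse, Matrix.charpoly_natDegree_eq_dim, Fintype.card_sum, Fintype.card_fin, ← two_mul, revAt_le hj]

open Module Polynomial CfsgLib.CP CfsgLib.Cls Cfsg.Agent.H22 in
theorem pal_ext {F : Type*} [Field F] {n : ℕ} (A B : Matrix.symplecticGroup (Fin n) F)
    (h : ∀ i : Fin n, (A : Matrix (Fin n ⊕ Fin n) (Fin n ⊕ Fin n) F).charpoly.coeff (i.1 + 1) = (B : Matrix (Fin n ⊕ Fin n) (Fin n ⊕ Fin n) F).charpoly.coeff (i.1 + 1)) :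
    (A : Matrix (Fin n ⊕ Fin n) (Fin n ⊕ Fin n) F).charpoly = (B : Matrix (Fin n ⊕ Fin n) (Fin n ⊕ Fin n) F).charpoly := by
  have hd : ∀ A : Matrix.symplecticGroup (Fin n) F, (A : Matrix (Fin n ⊕ Fin n) (Fin n ⊕ Fin n) F).charpoly.natDegree = 2 * n := by
    intro A
    rw [Matrix.charpoly_natDegree_eq_dim, Fintype.card_sum, Fintype.card_fin, ← two_mul]
  have h0 : ∀ A : Matrix.symplecticGroup (Fin n) F, (A : Matrix (Fin n ⊕ Fin n) (Fin n ⊕ Fin n) F).charpoly.coeff 0 = 1 := by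
    intro A
    rw [pal A (Nat.zero_le _), Nat.sub_zero, ← hd A]
    exact (Matrix.charpoly_monic _).coeff_natDegree
  refine monic_ext (n := 2 * n) (Matrix.charpoly_monic _) (Matrix.charpoly_monic _) (hd A) (hd B) fun i => ?_
  rcases Nat.eq_zero_or_pos i.1 with hi | hi
  · rw [hi, h0, h0]
  · by_cases hin : i.1 ≤ n
    · have := h ⟨i.1 - 1, by omega⟩
      simp only [Nat.sub_add_cancel hi] at this
      exact this
    · have h1 : i.1 ≤ 2 * n := i.2.le
      rw [pal A h1, pal B h1]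
      have := h ⟨2 * n - i.1 - 1, by omega⟩
      have e : 2 * n - i.1 - 1 + 1 = 2 * n - i.1 := by have := i.2; omega
      simp only [e] at this
      exact this

open Module Polynomial CfsgLib.CP CfsgLib.Cls Cfsg.Agent.H22 in
/-- the block matrix determines the characteristic polynomial of the corner -/
theorem corner' {F : Type*} [Field F] (K : Type*) [Field K] [Algebra F K] [IsAlgClosed K] {n : ℕ} (M M' : Matrix (Fin n) (Fin n) F)
    (h : (Matrix.fromBlocks 0 (-1) 1 M : Matrix (Fin n ⊕ Fin n) (Fin n ⊕ Fin n) F).charpoly = (Matrix.fromBlocks 0 (-1) 1 M' : Matrix (Fin n ⊕ Fin n) (Fin n ⊕ Fin n) F).charpoly) :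
    M.charpoly = M'.charpoly := by
  apply Polynomial.map_injective (algebraMap F K) (algebraMap F K).injective
  rw [← Matrix.charpoly_map, ← Matrix.charpoly_map]
  apply Polynomial.funext
  intro b
  obtain ⟨a, ha⟩ : ∃ a : K, a * a - b * a + 1 = 0 := by
    have hd : (X ^ 2 - C b * X + 1 : K[X]).degree ≠ 0 := by
      have : (X ^ 2 - C b * X + 1 : K[X]) = C 1 * X ^ 2 + C (-b) * X + C 1 := by
        rw [map_neg, map_one]; ring
      rw [this, degree_quadratic one_ne_zero]; decide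
    obtain ⟨a, ha⟩ := IsAlgClosed.exists_root _ hd
    refine ⟨a, ?_⟩
    rw [IsRoot.def] at ha
    simp only [eval_add, eval_sub, eval_pow, eval_X, eval_mul, eval_C, eval_one] at ha
    rw [← ha]; ring
  have ha0 : a ≠ 0 := by
    rintro rfl
    simp at ha
  have hb : a + a⁻¹ = b := by
    apply mul_left_cancel₀ ha0
    rw [mul_add, mul_inv_cancel₀ ha0]
    linear_combination ha
  have h1 := congrArg (fun P => (P.map (algebraMap F K)).eval a) h
  rw [← Matrix.charpoly_map, ← Matrix.charpoly_map] at h1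
  have h2 : ∀ M : Matrix (Fin n) (Fin n) F, (Matrix.fromBlocks 0 (-1) 1 M : Matrix (Fin n ⊕ Fin n) (Fin n ⊕ Fin n) F).map (algebraMap F K) =
      (Matrix.fromBlocks 0 (-1) 1 (M.map (algebraMap F K)) : Matrix (Fin n ⊕ Fin n) (Fin n ⊕ Fin n) K) := by
    intro M
    rw [Matrix.fromBlocks_map]
    congr 1
    · ext; simp
    · ext i j; simp [Matrix.one_apply]
    · ext i j; simp [Matrix.one_apply]
  rw [h2, h2, blk_eval _ _ ha0, blk_eval _ _ ha0, hb] at h1
  exact mul_left_cancel₀ (pow_ne_zero _ ha0) h1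

theorem corner {F : Type*} [Field F] {n : ℕ} (M M' : Matrix (Fin n) (Fin n) F)
    (h : (Matrix.fromBlocks 0 (-1) 1 M : Matrix (Fin n ⊕ Fin n) (Fin n ⊕ Fin n) F).charpoly = (Matrix.fromBlocks 0 (-1) 1 M' : Matrix (Fin n ⊕ Fin n) (Fin n ⊕ Fin n) F).charpoly) :
    M.charpoly = M'.charpoly := corner' (AlgebraicClosure F) M M' h

open Module Polynomial CfsgLib.CP CfsgLib.Cls Cfsg.Agent.H22 CfsgLib.Semi in
/-- conjugacy of semisimple symplectic matrices -/
theorem sp_conj {F : Type*} [Field F] [Finite F] {p : ℕ} [Fact p.Prime] [CharP F p] {n : ℕ} {g h : Matrix.symplecticGroup (Fin n) F}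
    (hg : (orderOf g).Coprime p) (hh : (orderOf h).Coprime p)
    (e : (g : Matrix (Fin n ⊕ Fin n) (Fin n ⊕ Fin n) F).charpoly = (h : Matrix (Fin n ⊕ Fin n) (Fin n ⊕ Fin n) F).charpoly) : IsConj g h := by
  classical
  have hpow : ∀ (x : Matrix.symplecticGroup (Fin n) F), ((spToLin x : (Fin n ⊕ Fin n → F) →ₗ[F] (Fin n ⊕ Fin n → F)) : End F (Fin n ⊕ Fin n → F)) ^ orderOf x = 1 := by
    intro x
    have h1 : (Matrix.toLin' (x : Matrix (Fin n ⊕ Fin n) (Fin n ⊕ Fin n) F)) ^ orderOf x = 1 := by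
      rw [← Matrix.toLin'_pow]
      have : (x : Matrix (Fin n ⊕ Fin n) (Fin n ⊕ Fin n) F) ^ orderOf x = ((x ^ orderOf x : Matrix.symplecticGroup (Fin n) F) : Matrix (Fin n ⊕ Fin n) (Fin n ⊕ Fin n) F) := rfl
      rw [this, pow_orderOf_eq_one, Submonoid.coe_one, Matrix.toLin'_one]; rfl
    exact h1
  have hch : ∀ x : Matrix.symplecticGroup (Fin n) F, ((spToLin x : (Fin n ⊕ Fin n → F) →ₗ[F] (Fin n ⊕ Fin n → F)) : End F (Fin n ⊕ Fin n → F)).charpoly =
      (x : Matrix (Fin n ⊕ Fin n) (Fin n ⊕ Fin n) F).charpoly := fun x => Matrix.charpoly_toLin' _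
  obtain ⟨ψ, hψ⟩ := conj_of_charpoly hg (hpow g) hh (hpow h) (by rw [hch, hch, e])
  have hr : ((orderOf g : ℕ) : F) ≠ 0 := by
    rw [Ne, CharP.cast_eq_zero_iff F p]
    intro hd
    have := Nat.Coprime.eq_one_of_dvd hg.symm hd
    exact (Fact.out : p.Prime).one_lt.ne' this
  obtain ⟨Gm, hG1, hG2⟩ := symp_conj (spB n F) spB_isAlt spB_nondeg (spB n F) spB_isAlt spB_nondeg (spToLin g) (spToLin_isometry g) (spToLin h) (spToLin_isometry h) hr
    (by rw [← map_pow, pow_orderOf_eq_one, map_one]) ψ hψ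
  obtain ⟨c, hc⟩ := exists_spToLin Gm hG1
  rw [isConj_iff]
  refine ⟨c, ?_⟩
  apply spToLin_injective
  rw [map_mul, map_mul, map_inv, hc]
  ext1 v
  show Gm (spToLin g (Gm⁻¹ v)) = spToLin h v
  rw [hG2]
  congr 1
  exact LinearEquiv.apply_symm_apply Gm v

open Module Polynomial CfsgLib.CP CfsgLib.Cls Cfsg.Agent.H22 in
theorem main {F : Type*} [Field F] [Fintype F] (p : ℕ) [Fact p.Prime] [CharP F p] (n : ℕ) :
    Nat.card {c : ConjClasses ↥(Matrix.symplecticGroup (Fin n) F) //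
      ∃ g : ↥(Matrix.symplecticGroup (Fin n) F), ConjClasses.mk g = c ∧ (orderOf g).Coprime p} = Nat.card (Fin n → F) := by
  classical
  let ψ : {g : ↥(Matrix.symplecticGroup (Fin n) F) // (orderOf g).Coprime p} → (Fin n → F) :=
    fun g i => ((g.1 : ↥(Matrix.symplecticGroup (Fin n) F)) : Matrix (Fin n ⊕ Fin n) (Fin n ⊕ Fin n) F).charpoly.coeff (i.1 + 1)
  refine card_eq_of_fibres (G := {g : ↥(Matrix.symplecticGroup (Fin n) F) // (orderOf g).Coprime p})
    (fun g => ⟨ConjClasses.mk g.1, g.1, rfl, g.2⟩) ψ ?_ ?_ ?_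
  · rintro ⟨c, g, rfl, hg⟩
    exact ⟨⟨g, hg⟩, rfl⟩
  · have hex : ∀ b : Fin n → F, ∃ (M : Matrix (Fin n) (Fin n) F) (g : {g : ↥(Matrix.symplecticGroup (Fin n) F) // (orderOf g).Coprime p}),
        (∀ i : Fin n, M.charpoly.coeff i = b i) ∧ ((g.1 : ↥(Matrix.symplecticGroup (Fin n) F)) : Matrix (Fin n ⊕ Fin n) (Fin n ⊕ Fin n) F).charpoly =
          (Matrix.fromBlocks 0 (-1) 1 M : Matrix (Fin n ⊕ Fin n) (Fin n ⊕ Fin n) F).charpoly := by
      intro b
      obtain ⟨P, hP1, hP2, hP3⟩ := exists_monic b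
      obtain ⟨M, A, hM, hA⟩ := exists_spc hP1 hP2
      obtain ⟨N, hN⟩ := exists_pow_coprime (F := F) (p := p) A
      refine ⟨M, ⟨A ^ (Fintype.card F ^ N), hN⟩, fun i => by rw [hM]; exact hP3 i, ?_⟩
      have h1 : (((A ^ (Fintype.card F ^ N) : ↥(Matrix.symplecticGroup (Fin n) F))) : Matrix (Fin n ⊕ Fin n) (Fin n ⊕ Fin n) F) =
        (A : Matrix (Fin n ⊕ Fin n) (Fin n ⊕ Fin n) F) ^ (Fintype.card F ^ N) := rfl
      have h2 : ∀ k, ((A : Matrix (Fin n ⊕ Fin n) (Fin n ⊕ Fin n) F) ^ (Fintype.card F ^ k)).charpoly = (A : Matrix (Fin n ⊕ Fin n) (Fin n ⊕ Fin n) F).charpoly := by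
        intro k
        induction k with
        | zero => rw [pow_zero, pow_one]
        | succ k ih => rw [pow_succ, pow_mul, FiniteField.Matrix.charpoly_pow_card, ih]
      change (((A ^ (Fintype.card F ^ N) : ↥(Matrix.symplecticGroup (Fin n) F))) : Matrix (Fin n ⊕ Fin n) (Fin n ⊕ Fin n) F).charpoly = _
      rw [h1, h2, hA]
    choose M g hM hg using hex
    have hinj : Function.Injective (fun b => ψ (g b)) := by
      intro b b' hb
      have h1 := pal_ext (g b).1 (g b').1 (fun i => congrFun hb i)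
      rw [hg, hg] at h1
      have h2 := corner _ _ h1
      funext i
      rw [← hM b i, ← hM b' i, h2]
    have hsurj := Finite.surjective_of_injective hinj
    intro c
    obtain ⟨b, hb⟩ := hsurj c
    exact ⟨g b, hb⟩
  · rintro ⟨g, hg⟩ ⟨h, hh⟩
    constructor
    · intro e
      have e1 := congrArg Subtype.val e
      rw [ConjClasses.mk_eq_mk_iff_isConj, isConj_iff] at e1
      obtain ⟨c, hc⟩ := e1
      change c * g * c⁻¹ = h at hc
      have h1 : (h : Matrix (Fin n ⊕ Fin n) (Fin n ⊕ Fin n) F).charpoly = (g : Matrix (Fin n ⊕ Fin n) (Fin n ⊕ Fin n) F).charpoly := by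
        rw [← hc, Submonoid.coe_mul, Matrix.charpoly_mul_comm, ← Submonoid.coe_mul, inv_mul_cancel_left]
      funext i
      exact (congrArg (fun P : F[X] => P.coeff (i.1 + 1)) h1).symm
    · intro e
      refine Subtype.ext ?_
      rw [ConjClasses.mk_eq_mk_iff_isConj]
      exact sp_conj hg hh (pal_ext g h fun i => congrFun e i)

/-- In the symplectic group `Sp_{2n}(q)`, `q` a power of the prime `p`, the number of conjugacy classes of elements of order prime to `p` is `q^n`. -/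
theorem result {F : Type*} [Field F] [Fintype F] {q : ℕ} (hq : Fintype.card F = q) (p : ℕ) [Fact p.Prime] [CharP F p] (n : ℕ) :
    Nat.card {c : ConjClasses ↥(Matrix.symplecticGroup (Fin n) F) //
      ∃ g : ↥(Matrix.symplecticGroup (Fin n) F), ConjClasses.mk g = c ∧ (orderOf g).Coprime p} = q ^ n := by
  rw [main, Nat.card_fun, Nat.card_eq_fintype_card, hq, Nat.card_eq_fintype_card, Fintype.card_fin]

end Cfsg.Agent.S2385
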