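import Cfsg.Statements.S2392
import Mathlib
import Cfsg.Agent.LibWt15
-- import your own Cfsg.Agent.* helpers here

set_option autoImplicit false
open scoped MatrixGroups
open Cfsg

namespace Cfsg.Agent.S2392

open Matrix

section
variable {F : Type*} [Field F] {m : ℕ}

def eqv (m : ℕ) : Fin m ⊕ Fin 1 ≃ Fin (m + 1) := finSumFinEquiv

def up (m : ℕ) : Matrix.SpecialLinearGroup (Fin m ⊕ Fin 1) F →* Matrix.SpecialLinearGroup (Fin (m + 1)) F where
  toFun s := ⟨Matrix.reindex (eqv m) (eqv m) s.1, by rw [det_reindex_self]; exact s.2⟩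
  map_one' := by
    apply Subtype.ext
    simp
  map_mul' a b := by
    apply Subtype.ext
    change Matrix.reindex (eqv m) (eqv m) (a.1 * b.1) = Matrix.reindex (eqv m) (eqv m) a.1 * Matrix.reindex (eqv m) (eqv m) b.1
    simp [Matrix.submatrix_mul_equiv]

theorem up_inj {a b : Matrix.SpecialLinearGroup (Fin m ⊕ Fin 1) F} (h : up m a = up m b) : a = b := by
  apply Subtype.ext
  have h1 := congrArg Subtype.val h
  exact (Matrix.reindex (eqv m) (eqv m)).injective h1

def xx (v : Fin m → F) : Matrix.SpecialLinearGroup (Fin m ⊕ Fin 1) F :=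
  ⟨fromBlocks 1 (Matrix.of fun i _ => v i) 0 1, by rw [det_fromBlocks_zero₂₁]; simp⟩

def yy (v : Fin m → F) : Matrix.SpecialLinearGroup (Fin m ⊕ Fin 1) F :=
  ⟨fromBlocks 1 0 (Matrix.of fun _ i => v i) 1, by rw [det_fromBlocks_zero₁₂]; simp⟩

def gg (A : Matrix (Fin m) (Fin m) F) (hA : A.det = 1) : Matrix.SpecialLinearGroup (Fin m ⊕ Fin 1) F :=
  ⟨fromBlocks A 0 0 1, by rw [det_fromBlocks_zero₂₁, hA]; simp⟩

theorem xx_zero : xx (0 : Fin m → F) = 1 := by
  apply Subtype.ext
  change fromBlocks _ _ _ _ = _
  rw [Matrix.SpecialLinearGroup.coe_one, ← fromBlocks_one]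
  congr 1

theorem xx_add (u v : Fin m → F) : xx (u + v) = xx u * xx v := by
  apply Subtype.ext
  rw [Matrix.SpecialLinearGroup.coe_mul]
  change fromBlocks _ _ _ _ = fromBlocks _ _ _ _ * fromBlocks _ _ _ _
  rw [fromBlocks_multiply]
  simp only [Matrix.one_mul, Matrix.mul_one, Matrix.mul_zero, Matrix.zero_mul, add_zero, zero_add]
  congr 1
  ext i j
  simp [add_comm]

theorem gg_xx (A : Matrix (Fin m) (Fin m) F) (hA : A.det = 1) (v : Fin m → F) :
    gg A hA * xx v = xx (A *ᵥ v) * gg A hA := by
  apply Subtype.ext
  rw [Matrix.SpecialLinearGroup.coe_mul, Matrix.SpecialLinearGroup.coe_mul]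
  change fromBlocks _ _ _ _ * fromBlocks _ _ _ _ = fromBlocks _ _ _ _ * fromBlocks _ _ _ _
  rw [fromBlocks_multiply, fromBlocks_multiply]
  simp only [Matrix.one_mul, Matrix.mul_one, Matrix.mul_zero, Matrix.zero_mul, add_zero, zero_add]
  congr 1

theorem xx_comm {v : Fin m → F} (h : ∀ y, xx v * y = y * xx v) : v = 0 := by
  funext i
  have h1 := congrArg Subtype.val (h (yy (Pi.single i 1)))
  rw [Matrix.SpecialLinearGroup.coe_mul, Matrix.SpecialLinearGroup.coe_mul] at h1
  change fromBlocks _ _ _ _ * fromBlocks _ _ _ _ = fromBlocks _ _ _ _ * fromBlocks _ _ _ _ at h1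
  rw [fromBlocks_multiply, fromBlocks_multiply] at h1
  have h2 := congrFun (congrFun (fromBlocks_inj.1 h1).1 i) i
  simp [Matrix.mul_apply] at h2
  simpa using h2

end

/-- A lower bound for representations in cross characteristic: for `n ≥ 3` and a field `F` with `q` elements, every homomorphism from `SL_n(F)` to `GL_d(K)`, `K` a field of characteristic different from that of `F`, whose kernel is central has `d ≥ q^(n-1) - 1`. -/
theorem result {F : Type*} [Field F] [Fintype F] {q : ℕ} (hq : Fintype.card F = q) (n : ℕ) (hn : 3 ≤ n)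
    {K : Type*} [Field K] (hK : ringChar K ≠ ringChar F) {d : ℕ}
    (ρ : Matrix.SpecialLinearGroup (Fin n) F →* GL (Fin d) K) (hker : ρ.ker ≤ Subgroup.center (Matrix.SpecialLinearGroup (Fin n) F)) :
    q ^ (n - 1) - 1 ≤ d := by
    classical
    obtain ⟨m, rfl⟩ : ∃ m, n = m + 1 := ⟨n - 1, by omega⟩
    have hm : 2 ≤ m := by omega
    haveI : Nontrivial (Fin m) := Fin.nontrivial_iff_two_le.2 hm
    let P := AddChar.FiniteField.primitiveChar F K hK
    let L := CyclotomicField P.n K
    let ψ : AddChar F L := P.char
    have hψ : ψ ≠ 1 := by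
      have := P.prim one_ne_zero
      rwa [AddChar.mulShift_one] at this
    have hLK : ringChar L ≠ ringChar F := by
      rw [← Algebra.ringChar_eq K L]
      exact hK
    have hc : (Fintype.card (Fin m → F) : L) ≠ 0 := by
      rw [Fintype.card_fun, Nat.cast_pow]
      exact pow_ne_zero _ (CfsgLib.Wt15.card_ne_zero hLK)
    let Φ : Matrix.SpecialLinearGroup (Fin (m + 1)) F →* Matrix (Fin d) (Fin d) L :=
      ((algebraMap K L).mapMatrix : Matrix (Fin d) (Fin d) K →+* Matrix (Fin d) (Fin d) L).toMonoidHom.comp
        ((Units.coeHom _).comp ρ)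
    have hΦ : ∀ g, Φ g = 1 → ρ g = 1 := by
      intro g hg
      apply Units.ext
      exact (Matrix.map_injective (algebraMap K L).injective) (by
        change (ρ g : Matrix (Fin d) (Fin d) K).map (algebraMap K L) = (1 : Matrix (Fin d) (Fin d) K).map (algebraMap K L)
        have : (1 : Matrix (Fin d) (Fin d) K).map (algebraMap K L) = 1 := Matrix.map_one _ (map_zero _) (map_one _)
        rw [this]
        exact hg)
    let R : (Fin m → F) → Matrix (Fin d) (Fin d) L := fun v => Φ (up m (xx v))
    have R0 : R 0 = 1 := by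
      change Φ (up m (xx 0)) = 1
      rw [xx_zero, map_one, map_one]
    have Ra : ∀ u v, R (u + v) = R u * R v := by
      intro u v
      change Φ (up m (xx (u + v))) = _
      rw [xx_add, map_mul, map_mul]
    have hex : ∃ w : Fin m → F, w ≠ 0 ∧ CfsgLib.Wt15.e ψ R w ≠ 0 := by
      by_contra hcon
      push Not at hcon
      obtain ⟨i⟩ : Nonempty (Fin m) := ⟨⟨0, by omega⟩⟩
      have h1 : R (Pi.single i 1) = 1 := by
        apply CfsgLib.Wt15.R_eq_one hψ hc R0 Ra
        intro w hw
        have : w = 0 := by
          by_contra h0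
          exact hw (hcon w h0)
        rw [this, zero_dotProduct]
      have h2 : up m (xx (Pi.single i 1)) ∈ ρ.ker := hΦ _ h1
      have h3 := Subgroup.mem_center_iff.1 (hker h2)
      have h4 : (Pi.single i 1 : Fin m → F) = 0 := xx_comm fun y => up_inj (by rw [map_mul, map_mul]; exact (h3 _).symm)
      have h5 := congrFun h4 i
      simp at h5
    obtain ⟨w0, hw0, he0⟩ := hex
    have hstep : ∀ w ∈ {w : Fin m → F | CfsgLib.Wt15.e ψ R w ≠ 0}, ∀ i j, i ≠ j → ∀ c : F,
        Function.update w j (w j + c * w i) ∈ {w : Fin m → F | CfsgLib.Wt15.e ψ R w ≠ 0} := by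
      intro w hw i j hij c
      have hdet : (transvection i j (-c)).det = 1 := det_transvection_of_ne i j hij _
      have hinv : transvection i j (-c) * transvection i j c = 1 := by
        rw [transvection_mul_transvection_same i j hij, neg_add_cancel, transvection_zero]
      have hinv' : transvection i j c * transvection i j (-c) = 1 := by
        rw [transvection_mul_transvection_same i j hij, add_neg_cancel, transvection_zero]
      let T : (Fin m → F) ≃ (Fin m → F) :=
        { toFun := fun v => transvection i j (-c) *ᵥ v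
          invFun := fun v => transvection i j c *ᵥ v
          left_inv := fun v => by
            change transvection i j c *ᵥ (transvection i j (-c) *ᵥ v) = v
            rw [mulVec_mulVec, hinv', one_mulVec]
          right_inv := fun v => by
            change transvection i j (-c) *ᵥ (transvection i j c *ᵥ v) = v
            rw [mulVec_mulVec, hinv, one_mulVec] }
      let g : (Matrix (Fin d) (Fin d) L)ˣ := Units.map Φ (toUnits (up m (gg (transvection i j (-c)) hdet)))
      refine CfsgLib.Wt15.conj_ne g T ?_ ?_ hw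
      · intro v
        change Φ (up m (gg _ hdet)) * Φ (up m (xx v)) = Φ (up m (xx (transvection i j (-c) *ᵥ v))) * Φ (up m (gg _ hdet))
        rw [← map_mul, ← map_mul, ← map_mul, ← map_mul, gg_xx]
      · intro v
        change _ ⬝ᵥ (transvection i j (-c) *ᵥ v) = _
        rw [dotProduct_mulVec]
        congr 1
        have : (Function.update w j (w j + c * w i)) = w ᵥ* transvection i j c := by
          rw [transvection, vecMul_add, vecMul_one]
          funext k
          by_cases hk : k = j
          · subst hk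
            simp [Matrix.vecMul, dotProduct, Matrix.single, mul_comm]
          · rw [Function.update_of_ne hk]
            simp [Matrix.vecMul, dotProduct, Matrix.single, hk, Ne.symm hk]
        rw [this, vecMul_vecMul, hinv', vecMul_one]
    have hall : ∀ w : Fin m → F, w ≠ 0 → CfsgLib.Wt15.e ψ R w ≠ 0 := by
      intro w hw
      exact CfsgLib.Wt15.trans_all hstep he0 hw0 hw
    have hfin := CfsgLib.Wt15.card_le hψ hc Ra (Finset.univ.erase (0 : Fin m → F)) (fun w hw => hall w (Finset.ne_of_mem_erase hw))
    rw [Finset.card_erase_of_mem (Finset.mem_univ _), Finset.card_univ, Fintype.card_fun, Fintype.card_fin, hq] at hfin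
    simpa using hfin

end Cfsg.Agent.S2392
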