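import Cfsg.Statements.S2393
import Mathlib
import Cfsg.Agent.LibWt15
-- import your own Cfsg.Agent.* helpers here

set_option autoImplicit false
open scoped MatrixGroups
open Cfsg

namespace Cfsg.Agent.S2393

open Matrix

section
variable {F : Type*} [Field F] {m : ℕ}

def SS (v : Fin (m + 1) → F) : Matrix (Fin (m + 1)) (Fin (m + 1)) F :=
  Matrix.of fun i j => if i = 0 then v j else if j = 0 then v i else 0

theorem SS_tr (v : Fin (m + 1) → F) : (SS v)ᵀ = SS v := by
  ext i j
  rw [transpose_apply]
  simp only [SS, Matrix.of_apply]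
  by_cases hi : i = 0
  · by_cases hj : j = 0
    · simp [hi, hj]
    · simp [hi, hj]
  · by_cases hj : j = 0
    · simp [hi, hj]
    · simp [hi, hj]

def xx (v : Fin (m + 1) → F) : ↥(Matrix.symplecticGroup (Fin (m + 1)) F) :=
  ⟨fromBlocks 1 (SS v) 0 1, by
    rw [SymplecticGroup.mem_iff, J, fromBlocks_transpose, fromBlocks_multiply, fromBlocks_multiply, SS_tr]
    simp⟩

def yy (v : Fin (m + 1) → F) : ↥(Matrix.symplecticGroup (Fin (m + 1)) F) :=
  ⟨fromBlocks 1 0 (SS v) 1, by
    rw [SymplecticGroup.mem_iff, J, fromBlocks_transpose, fromBlocks_multiply, fromBlocks_multiply, SS_tr]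
    simp⟩

def gg (A D : Matrix (Fin (m + 1)) (Fin (m + 1)) F) (hA : A * Dᵀ = 1) : ↥(Matrix.symplecticGroup (Fin (m + 1)) F) :=
  ⟨fromBlocks A 0 0 D, by
    have h2 : D * Aᵀ = 1 := by
      have := congrArg Matrix.transpose hA
      rwa [transpose_mul, transpose_transpose, transpose_one] at this
    rw [SymplecticGroup.mem_iff, J, fromBlocks_transpose, fromBlocks_multiply, fromBlocks_multiply]
    simp [hA, h2]⟩

theorem xx_zero : xx (0 : Fin (m + 1) → F) = 1 := by
  apply Subtype.ext
  change fromBlocks _ _ _ _ = (1 : Matrix _ _ F)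
  rw [← fromBlocks_one]
  congr 1
  ext i j
  simp [SS]

theorem xx_add (u v : Fin (m + 1) → F) : xx (u + v) = xx u * xx v := by
  apply Subtype.ext
  change fromBlocks _ _ _ _ = fromBlocks _ _ _ _ * fromBlocks _ _ _ _
  rw [fromBlocks_multiply]
  simp only [Matrix.one_mul, Matrix.mul_one, Matrix.mul_zero, Matrix.zero_mul, add_zero, zero_add]
  congr 1
  ext i j
  simp only [SS, Matrix.of_apply, Matrix.add_apply, Pi.add_apply]
  split_ifs <;> ring

theorem gg_xx (A D : Matrix (Fin (m + 1)) (Fin (m + 1)) F) (hA : A * Dᵀ = 1) (v v' : Fin (m + 1) → F)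
    (h : A * SS v = SS v' * D) :
    gg A D hA * xx v = xx v' * gg A D hA := by
  apply Subtype.ext
  change fromBlocks _ _ _ _ * fromBlocks _ _ _ _ = fromBlocks _ _ _ _ * fromBlocks _ _ _ _
  rw [fromBlocks_multiply, fromBlocks_multiply]
  simp only [Matrix.one_mul, Matrix.mul_one, Matrix.mul_zero, Matrix.zero_mul, add_zero, zero_add]
  rw [h]

theorem xx_comm (h : ∀ y, xx (Pi.single 0 1 : Fin (m + 1) → F) * y = y * xx (Pi.single 0 1)) : False := by
  have h1 := congrArg Subtype.val (h (yy (Pi.single 0 1)))
  change fromBlocks _ _ _ _ * fromBlocks _ _ _ _ = fromBlocks _ _ _ _ * fromBlocks _ _ _ _ at h1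
  rw [fromBlocks_multiply, fromBlocks_multiply] at h1
  have h2 := congrFun (congrFun (fromBlocks_inj.1 h1).1 0) 0
  simp only [Matrix.one_mul, Matrix.mul_one, Matrix.mul_zero, add_zero, Matrix.add_apply, Matrix.mul_apply] at h2
  rw [Finset.sum_eq_single (0 : Fin (m + 1))] at h2
  · simp [SS] at h2
  · intro b _ hb
    simp [SS, hb]
  · intro h; exact absurd (Finset.mem_univ _) h

theorem tv_conj {k : Fin (m + 1)} (hk : k ≠ 0) (c : F) (v : Fin (m + 1) → F) :
    transvection 0 k c * SS v = SS (Function.update v 0 (v 0 + 2 * c * v k)) * transvection k 0 (-c) := by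
  rw [transvection, transvection, Matrix.add_mul, Matrix.mul_add, Matrix.one_mul, Matrix.mul_one]
  ext i j
  rw [Matrix.add_apply, Matrix.add_apply, Matrix.mul_apply, Matrix.mul_apply]
  rw [Finset.sum_eq_single k, Finset.sum_eq_single k]
  · simp only [SS, Matrix.of_apply, Matrix.single_apply]
    by_cases hi : i = 0
    · subst hi
      by_cases hj : j = 0
      · subst hj
        simp [hk, Ne.symm hk]
        ring
      · simp [hk, hj, Ne.symm hk, Ne.symm hj]
    · by_cases hj : j = 0
      · subst hj
        simp [hk, hi, Ne.symm hk, Ne.symm hi]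
      · simp [hk, hj, hi, Ne.symm hk, Ne.symm hj, Ne.symm hi]
  · intro b _ hb
    simp [Matrix.single_apply, Ne.symm hb]
  · intro h; exact absurd (Finset.mem_univ _) h
  · intro b _ hb
    simp [Matrix.single_apply, Ne.symm hb]
  · intro h; exact absurd (Finset.mem_univ _) h

theorem diag_conj {t : F} (ht : t ≠ 0) (v : Fin (m + 1) → F) :
    Matrix.diagonal (Function.update (1 : Fin (m + 1) → F) 0 t) * SS v =
      SS (fun j => if j = 0 then t * t * v 0 else t * v j) * Matrix.diagonal (Function.update (1 : Fin (m + 1) → F) 0 t⁻¹) := by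
  ext i j
  rw [Matrix.diagonal_mul, Matrix.mul_diagonal]
  simp only [SS, Matrix.of_apply]
  by_cases hi : i = 0
  · subst hi
    by_cases hj : j = 0
    · subst hj
      simp
      field_simp
    · simp [hj]
  · by_cases hj : j = 0
    · subst hj
      simp [hi]
      field_simp
    · simp [hj, hi]

end

theorem card_rg {F : Type*} [Field F] [Fintype F] (hodd : Odd (Fintype.card F)) :
    Nat.card (powMonoidHom 2 : Fˣ →* Fˣ).range = (Fintype.card F - 1) / 2 := by
  classical
  have h1 := IsCyclic.card_powMonoidHom_range (G := Fˣ) 2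
  have h2 : Nat.card Fˣ = Fintype.card F - 1 := by rw [Nat.card_eq_fintype_card, Fintype.card_units]
  have h3 : (Nat.card Fˣ).gcd 2 = 2 := by
    rw [h2]
    apply Nat.gcd_eq_right
    obtain ⟨k, hk⟩ := hodd
    exact ⟨k, by omega⟩
  rw [h3, h2] at h1
  exact h1

/-- A lower bound for representations in cross characteristic: for `n ≥ 2` and a field `F` with `q` elements, `q` odd, every homomorphism from the symplectic group `Sp_{2n}(F)` to `GL_d(K)`, `K` a field of characteristic different from that of `F`, whose kernel is central has `d ≥ q^(n-1)(q-1)/2`. -/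
theorem result {F : Type*} [Field F] [Fintype F] {q : ℕ} (hq : Fintype.card F = q) (hodd : Odd q) (n : ℕ) (hn : 2 ≤ n)
    {K : Type*} [Field K] (hK : ringChar K ≠ ringChar F) {d : ℕ}
    (ρ : ↥(Matrix.symplecticGroup (Fin n) F) →* GL (Fin d) K) (hker : ρ.ker ≤ Subgroup.center ↥(Matrix.symplecticGroup (Fin n) F)) :
    q ^ (n - 1) * (q - 1) / 2 ≤ d := by
    classical
    obtain ⟨m, rfl⟩ : ∃ m, n = m + 1 := ⟨n - 1, by omega⟩
    haveI : Nontrivial (Fin (m + 1)) := Fin.nontrivial_iff_two_le.2 (by omega)
    let P := AddChar.FiniteField.primitiveChar F K hK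
    let L := CyclotomicField P.n K
    let ψ : AddChar F L := P.char
    have hψ : ψ ≠ 1 := by
      have := P.prim one_ne_zero
      rwa [AddChar.mulShift_one] at this
    have hLK : ringChar L ≠ ringChar F := by
      rw [← Algebra.ringChar_eq K L]
      exact hK
    have hc : (Fintype.card (Fin (m + 1) → F) : L) ≠ 0 := by
      rw [Fintype.card_fun, Nat.cast_pow]
      exact pow_ne_zero _ (CfsgLib.Wt15.card_ne_zero hLK)
    have h2F : (2 : F) ≠ 0 := by
      intro h
      have h1 : ringChar F = 2 := by
        have := (ringChar.spec F 2).1 (by exact_mod_cast h)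
        exact ((Nat.dvd_prime Nat.prime_two).1 this).resolve_left (CharP.ringChar_ne_one)
      have := FiniteField.even_card_of_char_two h1
      rw [hq] at this
      rw [Nat.odd_iff] at hodd
      omega
    let Φ : ↥(Matrix.symplecticGroup (Fin (m + 1)) F) →* Matrix (Fin d) (Fin d) L :=
      ((algebraMap K L).mapMatrix : Matrix (Fin d) (Fin d) K →+* Matrix (Fin d) (Fin d) L).toMonoidHom.comp
        ((Units.coeHom _).comp ρ)
    have hΦ : ∀ g, Φ g = 1 → ρ g = 1 := by
      intro g hg
      apply Units.ext
      exact (Matrix.map_injective (algebraMap K L).injective) (by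
        change (ρ g : Matrix (Fin d) (Fin d) K).map (algebraMap K L) = (1 : Matrix (Fin d) (Fin d) K).map (algebraMap K L)
        have : (1 : Matrix (Fin d) (Fin d) K).map (algebraMap K L) = 1 := Matrix.map_one _ (map_zero _) (map_one _)
        rw [this]
        exact hg)
    let R : (Fin (m + 1) → F) → Matrix (Fin d) (Fin d) L := fun v => Φ (xx v)
    have R0 : R 0 = 1 := by
      change Φ (xx 0) = 1
      rw [xx_zero, map_one]
    have Ra : ∀ u v, R (u + v) = R u * R v := by
      intro u v
      change Φ (xx (u + v)) = _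
      rw [xx_add, map_mul]
    have hex : ∃ w : Fin (m + 1) → F, w 0 ≠ 0 ∧ CfsgLib.Wt15.e ψ R w ≠ 0 := by
      by_contra hcon
      push Not at hcon
      have h1 : R (Pi.single 0 1) = 1 := by
        apply CfsgLib.Wt15.R_eq_one hψ hc R0 Ra
        intro w hw
        have : w 0 = 0 := by
          by_contra h0
          exact hw (hcon w h0)
        rw [dotProduct_single, this, zero_mul]
      have h2 : xx (Pi.single 0 1) ∈ ρ.ker := hΦ _ h1
      have h3 := Subgroup.mem_center_iff.1 (hker h2)
      exact xx_comm fun y => (h3 y).symm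
    obtain ⟨w0, hw0, he0⟩ := hex
    have hstep : ∀ w ∈ {w : Fin (m + 1) → F | CfsgLib.Wt15.e ψ R w ≠ 0}, ∀ k, k ≠ 0 → ∀ c : F,
        Function.update w k (w k + c * w 0) ∈ {w : Fin (m + 1) → F | CfsgLib.Wt15.e ψ R w ≠ 0} := by
      intro w hw k hk c'
      obtain ⟨c, hcc⟩ : ∃ c : F, c' = -(2 * c) := ⟨-(c' / 2), by field_simp⟩
      have hA : transvection (0 : Fin (m + 1)) k c * (transvection k 0 (-c))ᵀ = 1 := by
        rw [transvection, transvection, transpose_add, transpose_one, transpose_single, ← transvection, ← transvection,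
          transvection_mul_transvection_same _ _ hk.symm, add_neg_cancel, transvection_zero]
      let T : (Fin (m + 1) → F) ≃ (Fin (m + 1) → F) :=
        { toFun := fun v => Function.update v 0 (v 0 + 2 * c * v k)
          invFun := fun v => Function.update v 0 (v 0 - 2 * c * v k)
          left_inv := fun v => by
            funext j
            by_cases hj : j = 0
            · subst hj; simp [hk]
            · simp [hj]
          right_inv := fun v => by
            funext j
            by_cases hj : j = 0
            · subst hj; simp [hk]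
            · simp [hj] }
      let g : (Matrix (Fin d) (Fin d) L)ˣ := Units.map Φ (toUnits (gg _ _ hA))
      refine CfsgLib.Wt15.conj_ne g T ?_ ?_ hw
      · intro v
        change Φ (gg _ _ hA) * Φ (xx v) = Φ (xx (Function.update v 0 (v 0 + 2 * c * v k))) * Φ (gg _ _ hA)
        rw [← map_mul, ← map_mul, gg_xx _ _ _ _ _ (tv_conj hk c v)]
      · intro v
        change Function.update w k (w k + c' * w 0) ⬝ᵥ (Function.update v 0 (v 0 + 2 * c * v k)) = w ⬝ᵥ v
        have e1 : Function.update w k (w k + c' * w 0) = w + Pi.single k (c' * w 0) := by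
          funext j
          by_cases hj : j = k
          · subst hj; simp
          · simp [hj]
        have e2 : Function.update v 0 (v 0 + 2 * c * v k) = v + Pi.single 0 (2 * c * v k) := by
          funext j
          by_cases hj : j = 0
          · subst hj; simp
          · simp [hj]
        rw [e1, e2, add_dotProduct, dotProduct_add, dotProduct_single, single_dotProduct, hcc]
        simp [hk]
        ring
    have hdiag : ∀ w : Fin (m + 1) → F, CfsgLib.Wt15.e ψ R w ≠ 0 → ∀ t : F, t ≠ 0 →
        CfsgLib.Wt15.e ψ R (fun j => if j = 0 then t * t * w 0 else t * w j) ≠ 0 := by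
      intro w hw t0 ht0
      obtain ⟨t, ht, htt⟩ : ∃ t : F, t ≠ 0 ∧ t0 = t⁻¹ := ⟨t0⁻¹, inv_ne_zero ht0, by rw [inv_inv]⟩
      have hA : Matrix.diagonal (Function.update (1 : Fin (m + 1) → F) 0 t) *
          (Matrix.diagonal (Function.update (1 : Fin (m + 1) → F) 0 t⁻¹))ᵀ = 1 := by
        rw [diagonal_transpose, diagonal_mul_diagonal, ← diagonal_one]
        congr 1
        funext j
        by_cases hj : j = 0
        · subst hj; simp [ht]
        · simp [hj]
      let T : (Fin (m + 1) → F) ≃ (Fin (m + 1) → F) :=
        { toFun := fun v j => if j = 0 then t * t * v 0 else t * v j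
          invFun := fun v j => if j = 0 then t⁻¹ * t⁻¹ * v 0 else t⁻¹ * v j
          left_inv := fun v => by
            funext j
            by_cases hj : j = 0
            · subst hj; simp; field_simp
            · simp [hj]; field_simp
          right_inv := fun v => by
            funext j
            by_cases hj : j = 0
            · subst hj; simp; field_simp
            · simp [hj]; field_simp }
      let g : (Matrix (Fin d) (Fin d) L)ˣ := Units.map Φ (toUnits (gg _ _ hA))
      refine CfsgLib.Wt15.conj_ne g T ?_ ?_ hw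
      · intro v
        change Φ (gg _ _ hA) * Φ (xx v) = Φ (xx (fun j => if j = 0 then t * t * v 0 else t * v j)) * Φ (gg _ _ hA)
        rw [← map_mul, ← map_mul, gg_xx _ _ _ _ _ (diag_conj ht v)]
      · intro v
        change (fun j => if j = 0 then t0 * t0 * w 0 else t0 * w j) ⬝ᵥ (fun j => if j = 0 then t * t * v 0 else t * v j) = w ⬝ᵥ v
        unfold dotProduct
        refine Finset.sum_congr rfl fun j _ => ?_
        by_cases hj : j = 0
        · subst hj
          simp only [if_true]
          rw [htt]
          field_simp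
        · simp only [if_neg hj]
          rw [htt]
          field_simp
    let S : Finset (Fin (m + 1) → F) := Finset.univ.image
      (fun p : (powMonoidHom 2 : Fˣ →* Fˣ).range × (Fin m → F) => (Fin.cons (((p.1 : Fˣ) : F) * w0 0) p.2 : Fin (m + 1) → F))
    have hSc : S.card = (q - 1) / 2 * q ^ m := by
      rw [Finset.card_image_of_injective, Finset.card_univ, Fintype.card_prod, ← Nat.card_eq_fintype_card, card_rg (by rwa [hq]), hq,
        Fintype.card_fun, Fintype.card_fin, hq]
      intro a b hab
      have h1 := Fin.cons_injective2 (α := fun _ => F) hab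
      apply Prod.ext
      · apply Subtype.ext
        apply Units.ext
        exact mul_right_cancel₀ hw0 h1.1
      · exact h1.2
    have hfin := CfsgLib.Wt15.card_le hψ hc Ra S (fun w hw => by
      obtain ⟨⟨⟨_, ⟨t, rfl⟩⟩, u⟩, _, rfl⟩ := Finset.mem_image.1 hw
      have h1 := hdiag w0 he0 (t : F) t.ne_zero
      refine CfsgLib.Wt15.trans_step0 hstep h1 (i := 0) ?_ ?_
      · simp [hw0]
      · simp [pow_two])
    rw [hSc] at hfin
    have h3 : q ^ (m + 1 - 1) * (q - 1) / 2 = (q - 1) / 2 * q ^ m := by
      obtain ⟨k, hk⟩ := hodd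
      rw [Nat.add_sub_cancel, hk, Nat.add_sub_cancel, Nat.mul_div_cancel_left k (by norm_num), mul_comm k,
        show (2 * k + 1) ^ m * (2 * k) = 2 * ((2 * k + 1) ^ m * k) by ring, Nat.mul_div_cancel_left _ (by norm_num)]
    rw [h3]
    exact hfin

end Cfsg.Agent.S2393
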