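import Cfsg.Statements.S2394
import Cfsg.Agent.LibH22SpOrder
import Cfsg.Agent.LibLEZsig

set_option autoImplicit false
open scoped MatrixGroups
open Cfsg

namespace Cfsg.Agent.S2394

theorem card_dvd {F : Type*} [Field F] [Fintype F] (n : ℕ) {d : ℕ}
    (ρ : ↥(Matrix.symplecticGroup (Fin n) F) →* GL (Fin d) F) (hρ : Function.Injective ρ) :
    Fintype.card F ^ (n ^ 2) * ∏ i ∈ Finset.range n, (Fintype.card F ^ (2 * (i + 1)) - 1) ∣ ∏ i : (Fin d), (Fintype.card F ^ d - Fintype.card F ^ (i : ℕ)) := by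
  have h := Subgroup.card_dvd_of_injective ρ hρ
  rwa [Cfsg.Agent.H22.card_sp, Matrix.card_GL_field] at h

/-- The smallest degree of a faithful representation of the symplectic group `Sp_{2n}(q)` over its own field `F_q` is `2n`: every injective homomorphism from `Sp_{2n}(F)` to `GL_d(F)`, `F` the field with `q` elements, has `d ≥ 2n`. -/
theorem result {F : Type*} [Field F] [Fintype F] (n : ℕ) {d : ℕ}
    (ρ : ↥(Matrix.symplecticGroup (Fin n) F) →* GL (Fin d) F) (hρ : Function.Injective ρ) : 2 * n ≤ d := by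
  classical
  by_contra hlt
  push Not at hlt
  have hd := card_dvd n ρ hρ
  have hq1 : 1 < Fintype.card F := Fintype.one_lt_card
  obtain ⟨q, hq⟩ : ∃ q, q = Fintype.card F := ⟨_, rfl⟩
  rw [← hq] at hd hq1
  have hn : n ≠ 0 := by rintro rfl; omega
  have hpos : 0 < ∏ i : (Fin d), (q ^ d - q ^ (i : ℕ)) := Finset.prod_pos fun i _ => Nat.sub_pos_of_lt (Nat.pow_lt_pow_right hq1 i.2)
  by_cases h2 : 2 * n = 2
  · have hn1 : n = 1 := by omega
    subst hn1
    have hle := Nat.le_of_dvd hpos hd
    have h3 : d = 0 ∨ d = 1 := by omega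
    rcases h3 with rfl | rfl
    · simp at hle
      have : 4 ≤ q ^ 2 := by nlinarith
      have h4 : 3 ≤ q ^ 2 - 1 := by omega
      nlinarith
    · simp at hle
      have : 4 ≤ q ^ 2 := by nlinarith
      have h4 : 3 ≤ q ^ 2 - 1 := by omega
      have h5 : q * 3 ≤ q * (q ^ 2 - 1) := Nat.mul_le_mul_left _ h4
      omega
  · by_cases h6 : q = 2 ∧ 2 * n = 6
    · obtain ⟨rfl, hn6⟩ := h6
      have hn3 : n = 3 := by omega
      subst hn3
      have h7 : d < 6 := by omega
      interval_cases d <;> revert hd <;> decide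
    · obtain ⟨r, hr, hrd, hrn⟩ := CfsgLib.LEZsig.zsigmondy q (2 * n) hq1 (by omega) h6 (fun h => h2 h.1)
      have h8 : r ∣ q ^ (n ^ 2) * ∏ i ∈ Finset.range n, (q ^ (2 * (i + 1)) - 1) := by
        refine Dvd.dvd.mul_left (hrd.trans ?_) _
        have := Finset.dvd_prod_of_mem (fun i => q ^ (2 * (i + 1)) - 1) (Finset.mem_range.2 (show n - 1 < n by omega))
        simp only [Nat.sub_add_cancel (Nat.one_le_iff_ne_zero.2 hn)] at this
        exact this
      have h9 := h8.trans hd
      rw [Prime.dvd_finset_prod_iff hr.prime] at h9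
      obtain ⟨i, -, hi⟩ := h9
      have h10 : q ^ d - q ^ (i : ℕ) = q ^ (i : ℕ) * (q ^ (d - i) - 1) := by
        rw [Nat.mul_sub, mul_one, ← pow_add, Nat.add_sub_cancel' i.2.le]
      rw [h10, hr.dvd_mul] at hi
      rcases hi with hi | hi
      · have h11 := hr.dvd_of_dvd_pow hi
        have h12 : r ∣ q ^ (2 * n) := h11.trans (dvd_pow_self q (by omega))
        have h13 : r ∣ 1 := by
          have h14 := (Nat.dvd_sub_iff_right (Nat.one_le_pow _ _ (by omega)) h12).1 hrd
          exact h14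
        exact hr.one_lt.ne' (Nat.dvd_one.1 h13)
      · exact hrn (d - i) (by have := i.2; omega) (by omega) hi

end Cfsg.Agent.S2394
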