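import Cfsg.Statements.S2396
import Cfsg.Agent.LibStC2

set_option autoImplicit false
open scoped MatrixGroups
open Cfsg

namespace Cfsg.Agent.S2396

/-- For each of the types G₂, B₂, D₄, F₄, E₆, E₇, E₈ and any field `K` (for types B₂ and G₂ the field must have more than two elements — the cases where the Chevalley group is not simple are set aside), the group presented by the generators x̄_r(t) subject only to (R1) and (R2) maps onto the Chevalley group by x̄_r(t) ↦ x_r(t), and this homomorphism is a central extension: it is surjective with kernel contained in the centre. -/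
theorem result {K : Type*} [Field K] (D : Cfsg.Lie.ChevalleyDatum) (hD : D ∈ [Cfsg.Lie.chevG2, Cfsg.Lie.chevB2, Cfsg.Lie.chevD4, Cfsg.Lie.chevF4, Cfsg.Lie.chevE6, Cfsg.Lie.chevE7, Cfsg.Lie.chevE8]) (hK : D ∈ [Cfsg.Lie.chevB2, Cfsg.Lie.chevG2] → ∃ x : K, x ≠ 0 ∧ x ≠ 1) :
    ∃ θ : D.SteinbergCover K →* ↥(D.group K), Function.Surjective θ ∧ θ.ker ≤ Subgroup.center (D.SteinbergCover K) ∧
      ∀ (r : ℕ) (t : K), r < D.nroots → ((θ (D.scGen K r t) : GL D.Idx K) : Matrix D.Idx D.Idx K) = D.x K r t := by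

  obtain ⟨T, g, hT, h⟩ := CfsgLib.Chev.RG3.perf_all (Γ := D.SteinbergCover K) hD hK
  obtain ⟨R, hR⟩ := g.exists_RG3 (F := K) hT
  have hmem : ∀ z, R.pi z ∈ D.group K := fun z => by rw [← R.pi_range]; exact ⟨z, rfl⟩
  refine ⟨R.pi.codRestrict (D.group K) hmem, ?_, ?_, ?_⟩
  · rintro ⟨x, hx⟩
    rw [← R.pi_range] at hx
    obtain ⟨z, rfl⟩ := hx
    exact ⟨z, rfl⟩
  · have e : (R.pi.codRestrict (D.group K) hmem).ker = R.pi.ker := by
      ext z
      rw [MonoidHom.mem_ker, MonoidHom.mem_ker, ← Subtype.coe_inj]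
      rfl
    rw [e]
    exact R.ker_central
  · intro r t hr
    rw [g.hn] at hr
    have := R.hpi r hr t
    rw [hR] at this
    show ((R.pi (D.scGen K r t) : GL D.Idx K) : Matrix D.Idx D.Idx K) = _
    rw [this]
    rfl

end Cfsg.Agent.S2396
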