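import Cfsg.Statements.S2399
import Cfsg.Agent.LibStU4

set_option autoImplicit false
open scoped MatrixGroups
open Cfsg

namespace Cfsg.Agent.S2399


open Cfsg.Lie CfsgLib.Chev Matrix
open scoped commutatorElement

theorem fin_case {D : ChevalleyDatum} {T : Tb} (g : Good3 D T) {K : Type*} [Field K] [Finite K] (hT : T.TrOK)
    (hperf : commutator (D.SteinbergCover K) = ⊤) (θ : D.SteinbergCover K →* ↥(D.group K))
    (hθ : ∀ (r : ℕ) (t : K), r < D.nroots → ((θ (D.scGen K r t) : GL D.Idx K) : Matrix D.Idx D.Idx K) = D.x K r t)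
    {L : Type*} [Field L] (hL : ringChar L = ringChar K) {n : ℕ}
    (φ : ↥(D.group K) →* GL (Fin n) L ⧸ Subgroup.center (GL (Fin n) L)) :
    ∃ ψ : D.SteinbergCover K →* GL (Fin n) L, (QuotientGroup.mk' (Subgroup.center (GL (Fin n) L))).comp ψ = φ.comp θ := by
  classical
  obtain ⟨ℓ, hℓK⟩ := CharP.exists K
  have hℓp : ℓ.Prime := by
    rcases CharP.char_is_prime_or_zero K ℓ with h | h
    · exact h
    · subst h
      have := CharP.charP_to_charZero K
      exact absurd ‹Finite K› (not_finite_iff_infinite.2 (CharZero.infinite K))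
  have : Fact ℓ.Prime := ⟨hℓp⟩
  have hℓL : CharP L ℓ := by
    have e : ringChar L = ℓ := by rw [hL]; exact ringChar.eq K ℓ
    rw [← e]; exact ringChar.charP L
  set mk := QuotientGroup.mk' (Subgroup.center (GL (Fin n) L)) with hmk
  have : Finite (GL D.Idx K) := inferInstance
  let P := ((mk.comp (MonoidHom.fst (GL (Fin n) L) ↥(D.group K))).eqLocus (φ.comp (MonoidHom.snd (GL (Fin n) L) ↥(D.group K))))
  let p2 : P →* ↥(D.group K) := (MonoidHom.snd (GL (Fin n) L) ↥(D.group K)).comp P.subtype
  let p1 : P →* GL (Fin n) L := (MonoidHom.fst (GL (Fin n) L) ↥(D.group K)).comp P.subtype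
  have hp12 : ∀ x : P, mk (p1 x) = φ (p2 x) := fun x => x.2
  have hp2 : Function.Surjective p2 := by
    intro d
    obtain ⟨e, he⟩ := QuotientGroup.mk'_surjective _ (φ d)
    exact ⟨⟨(e, d), he⟩, rfl⟩
  have hk1 : ∀ x : P, p2 x = 1 → p1 x ∈ Subgroup.center (GL (Fin n) L) := by
    intro x hx
    have h1 : mk (p1 x) = 1 := by rw [hp12, hx, map_one]
    rwa [hmk, ← MonoidHom.mem_ker, QuotientGroup.ker_mk'] at h1
  have hp2c : ∀ x : P, p2 x = 1 → ∀ z : P, z * x = x * z := by
    intro x hx z
    have h2 := hk1 x hx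
    rw [Subgroup.mem_center_iff] at h2
    apply Subtype.ext
    apply Prod.ext
    · exact h2 (p1 z)
    · show p2 z * p2 x = p2 x * p2 z
      rw [hx, mul_one, one_mul]
  -- the group is perfect
  have hG : commutator ↥(D.group K) = ⊤ := by
    obtain ⟨R, hR⟩ := g.exists_RG3 (F := K) hT
    have hθs : Function.Surjective θ := by
      rintro ⟨x, hx⟩
      rw [← R.pi_range] at hx
      obtain ⟨z, rfl⟩ := hx
      refine ⟨z, Subtype.ext ?_⟩
      have e : (D.group K).subtype.comp θ = R.pi := by
        apply MonoidHom.eq_of_eqOn_dense g.sc_gen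
        rintro _ ⟨r, hr, t, rfl⟩
        have h2 := R.hpi r hr t
        rw [hR] at h2
        show ((θ (D.scGen K r t) : GL D.Idx K)) = R.pi (D.scGen K r t)
        rw [h2]
        exact Units.ext (hθ r t (by rw [g.hn]; exact hr))
      exact DFunLike.congr_fun e z
    rw [commutator_def, ← MonoidHom.range_eq_top.2 hθs, MonoidHom.range_eq_map, ← Subgroup.map_commutator, ← commutator_def, hperf]
  -- finiteness
  have hfc : Finite (commutatorSet P) := by
    let sec : ↥(D.group K) → P := fun d => (hp2 d).choose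
    have hsec : ∀ d, p2 (sec d) = d := fun d => (hp2 d).choose_spec
    have hsub : commutatorSet P ⊆ Set.range (fun q : ↥(D.group K) × ↥(D.group K) => ⁅sec q.1, sec q.2⁆) := by
      rintro _ ⟨a, b, rfl⟩
      refine ⟨(p2 a, p2 b), ?_⟩
      have key : ∀ y : P, ∃ z : P, (∀ u : P, u * z = z * u) ∧ y = sec (p2 y) * z := by
        intro y
        refine ⟨(sec (p2 y))⁻¹ * y, ?_, by group⟩
        apply hp2c
        rw [map_mul, map_inv, hsec, inv_mul_cancel]
      obtain ⟨z, hz, ea⟩ := key a
      obtain ⟨z', hz', eb⟩ := key b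
      show ⁅sec (p2 a), sec (p2 b)⁆ = ⁅a, b⁆
      set A := sec (p2 a)
      set B := sec (p2 b)
      rw [ea, eb, commutatorElement_def, commutatorElement_def, _root_.mul_inv_rev, _root_.mul_inv_rev]
      symm
      calc A * z * (B * z') * (z⁻¹ * A⁻¹) * (z'⁻¹ * B⁻¹) =
          A * (z * (B * z')) * z⁻¹ * A⁻¹ * (z'⁻¹ * B⁻¹) := by group
        _ = A * B * (z' * A⁻¹) * z'⁻¹ * B⁻¹ := by rw [← hz]; group
        _ = _ := by rw [← hz']; group
    exact Set.Finite.subset (Set.finite_range _) hsub
  let E := commutator P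
  have : Finite E := inferInstance
  have hmap : E.map p2 = ⊤ := g.comm_img p2 hp2 hG
  let p : E →* GL D.Idx K := ((D.group K).subtype.comp p2).comp E.subtype
  have hpr : p.range = D.group K := by
    rw [MonoidHom.range_eq_map, ← Subgroup.map_map, ← MonoidHom.range_eq_map, Subgroup.range_subtype]
    show E.map ((D.group K).subtype.comp p2) = _
    rw [← Subgroup.map_map, hmap, ← MonoidHom.range_eq_map, Subgroup.range_subtype]
  have hker : ∀ x : E, p x = 1 → p2 x.1 = 1 := by
    intro x hx
    apply Subtype.ext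
    exact hx
  have hpc : p.ker ≤ Subgroup.center E := by
    intro x hx
    rw [Subgroup.mem_center_iff]
    intro z
    apply Subtype.ext
    exact hp2c x.1 (hker x hx) z.1
  have hco : (Nat.card p.ker).Coprime ℓ := by
    rw [Nat.coprime_comm, Nat.Prime.coprime_iff_not_dvd hℓp]
    intro hdvd
    obtain ⟨x, hx⟩ := exists_prime_orderOf_dvd_card' ℓ hdvd
    have hx1 : x ^ ℓ = 1 := by rw [← hx]; exact pow_orderOf_eq_one x
    have hpx : p2 x.1.1 = 1 := hker x.1 (MonoidHom.mem_ker.1 x.2)
    have h1 := hk1 x.1.1 hpx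
    rw [Matrix.GeneralLinearGroup.center_eq_range_scalar] at h1
    obtain ⟨c, hc⟩ := h1
    have h2 : (p1 x.1.1) ^ ℓ = 1 := by
      have := congrArg (fun y : p.ker => p1 y.1.1) hx1
      simpa using this
    have h3 : p1 x.1.1 = 1 := by
      rw [← hc, ← map_pow] at h2
      by_cases hn : n = 0
      · subst hn
        exact Units.ext (by ext i; exact i.elim0)
      · have hi : c ^ ℓ = 1 := by
          have i0 : Fin n := ⟨0, Nat.pos_of_ne_zero hn⟩
          have h4 := congrArg (fun M : GL (Fin n) L => (M : Matrix (Fin n) (Fin n) L) i0 i0) h2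
          apply Units.ext
          simpa [Matrix.diagonal_pow] using h4
        have hc1 : c = 1 := by
          apply Units.ext
          have h5 := congrArg Units.val hi
          rw [Units.val_pow_eq_pow_val, Units.val_one] at h5
          have h6 : ((c : L) - 1) ^ ℓ = 0 := by rw [sub_pow_char, h5]; simp
          have h7 := pow_eq_zero_iff (hℓp.ne_zero) |>.1 h6
          rw [sub_eq_zero] at h7
          exact h7
        rw [← hc, hc1, map_one]
    have h8 : x = 1 := by
      apply Subtype.ext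
      apply Subtype.ext
      apply Subtype.ext
      exact Prod.ext h3 hpx
    rw [h8, orderOf_one] at hx
    exact hℓp.one_lt.ne hx
  obtain ⟨τ, hτ⟩ := g.lift_finite (ℓ := ℓ) p hpr hpc hco
  have hθτ : ∀ x, p2 (τ x).1 = θ x := by
    have e : (p2.comp E.subtype).comp τ = θ := by
      apply MonoidHom.eq_of_eqOn_dense g.sc_gen
      rintro _ ⟨r, hr, t, rfl⟩
      apply Subtype.ext
      have h1 := hτ r hr t
      have h2 : ((θ (D.scGen K r t) : GL D.Idx K)) = g.X r t := Units.ext (hθ r t (by rw [g.hn]; exact hr))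
      rw [h2]
      exact h1
    exact fun x => DFunLike.congr_fun e x
  refine ⟨(p1.comp E.subtype).comp τ, MonoidHom.ext fun x => ?_⟩
  show mk (p1 (τ x).1) = φ (θ x)
  rw [hp12, hθτ]



/-- Projective representations in the natural characteristic lift: for each of the types G₂, B₂, D₄, F₄, E₆, E₇, E₈ over any field `K` (for types B₂ and G₂ the field must have more than two elements — the cases where the Chevalley group is not simple are set aside), every homomorphism from the Chevalley group to `PGL_n(L) = GL_n(L)/Z`, `L` a field of the same characteristic as `K`, lifts uniquely to a homomorphism from the group Δ presented by (R1), (R2) to `GL_n(L)`, compatibly with the projection Δ → Chevalley group sending x̄_r(t) to x_r(t). -/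
theorem result {K : Type*} [Field K] (D : Cfsg.Lie.ChevalleyDatum) (hD : D ∈ [Cfsg.Lie.chevG2, Cfsg.Lie.chevB2, Cfsg.Lie.chevD4, Cfsg.Lie.chevF4, Cfsg.Lie.chevE6, Cfsg.Lie.chevE7, Cfsg.Lie.chevE8]) (hK : D ∈ [Cfsg.Lie.chevB2, Cfsg.Lie.chevG2] → ∃ x : K, x ≠ 0 ∧ x ≠ 1)
    (θ : D.SteinbergCover K →* ↥(D.group K))
    (hθ : ∀ (r : ℕ) (t : K), r < D.nroots → ((θ (D.scGen K r t) : GL D.Idx K) : Matrix D.Idx D.Idx K) = D.x K r t)
    {L : Type*} [Field L] (hL : ringChar L = ringChar K) {n : ℕ}
    (φ : ↥(D.group K) →* GL (Fin n) L ⧸ Subgroup.center (GL (Fin n) L)) :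
    ∃! ψ : D.SteinbergCover K →* GL (Fin n) L, (QuotientGroup.mk' (Subgroup.center (GL (Fin n) L))).comp ψ = φ.comp θ := by

  obtain ⟨T, g, hT, hpq, hS⟩ := CfsgLib.Chev.pq_self_of_mem hD
  have hperf : commutator (D.SteinbergCover K) = ⊤ := by
    obtain ⟨T', g', hT', h⟩ := CfsgLib.Chev.RG3.perf_all (Γ := D.SteinbergCover K) hD hK
    obtain ⟨R, _⟩ := g'.exists_RG3 (F := K) hT'
    exact h R
  have hmks : Function.Surjective (QuotientGroup.mk' (Subgroup.center (GL (Fin n) L))) := QuotientGroup.mk'_surjective _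
  have hmkc : (QuotientGroup.mk' (Subgroup.center (GL (Fin n) L))).ker ≤ Subgroup.center (GL (Fin n) L) := by
    rw [QuotientGroup.ker_mk']
  by_cases hfin : Finite K
  · obtain ⟨ψ, hψ⟩ := fin_case g hT hperf θ hθ hL φ
    exact ⟨ψ, hψ, fun ψ' hψ' => CfsgLib.Chev.hom_eq_of_central hperf _ _ _ hmkc (hψ'.trans hψ.symm)⟩
  · have hK5 : ∃ s : Finset K, 4 < s.card := by
      rw [not_finite_iff_infinite] at hfin
      obtain ⟨s, hs⟩ := Infinite.exists_subset_card_eq K 5
      exact ⟨s, by omega⟩
    exact g.univ hpq hS hT hK5 hperf _ hmks hmkc (φ.comp θ)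

end Cfsg.Agent.S2399
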