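import Cfsg.Statements.S2400
import Cfsg.Agent.S2397
import Cfsg.Agent.LibSM14

set_option autoImplicit false
open Cfsg

namespace Cfsg.Agent.S2400

/-- Over a finite field `K`, the group presented by Steinberg's relators (R1)–(R3) (the universal Chevalley group) of type E₆ or E₇, or of type B₂ or D₄ with `K` of more than two elements, has trivial Schur multiplier: every finite stem extension of it is an isomorphism (Schur multiplier described through stem extensions as in the definitions). Types G₂, F₄ and E₈ are not covered here. -/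
theorem result {K : Type*} [Field K] [Fintype K] (e : Cfsg.Lie.ChevalleyDatum × ℕ)
    (he : e ∈ [(Cfsg.Lie.chevE6, 0), (Cfsg.Lie.chevE7, 0), (Cfsg.Lie.chevB2, 2), (Cfsg.Lie.chevD4, 2)]) (hK : Fintype.card K ≠ e.2) :
    Cfsg.HasCyclicSchurMultiplier (e.1.SteinbergGroup K) 1 := by
  classical
  have hx : 3 ≤ Fintype.card K → ∃ x : K, x ≠ 0 ∧ x ≠ 1 := by
    intro h3
    have h2 : 2 < (Finset.univ : Finset K).card := by rw [Finset.card_univ]; omega
    obtain ⟨x, -, hx⟩ := Finset.exists_mem_notMem_of_card_lt_card (s := {0, 1}) (t := Finset.univ)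
      (lt_of_le_of_lt Finset.card_le_two h2)
    simp only [Finset.mem_insert, Finset.mem_singleton, not_or] at hx
    exact ⟨x, hx.1, hx.2⟩
  have h1 : 1 < Fintype.card K := Fintype.one_lt_card
  simp only [List.mem_cons, List.not_mem_nil, or_false] at he
  rcases he with rfl | rfl | rfl | rfl
  · exact CfsgLib.Chev.mult_st_E6 (Cfsg.Agent.S2397.result _ (by simp) (fun h => by
      exfalso
      simp only [List.mem_cons, List.not_mem_nil, or_false] at h
      rcases h with h | h
      · exact absurd h (CfsgLib.Chev.ne_of_n CfsgLib.Chev.good3_E6 CfsgLib.Chev.good3_B2 (by decide))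
      · exact absurd h (CfsgLib.Chev.ne_of_n CfsgLib.Chev.good3_E6 CfsgLib.Chev.good3_G2 (by decide))))
  · exact CfsgLib.Chev.mult_st_E7 (Cfsg.Agent.S2397.result _ (by simp) (fun h => by
      exfalso
      simp only [List.mem_cons, List.not_mem_nil, or_false] at h
      rcases h with h | h
      · exact absurd h (CfsgLib.Chev.ne_of_n CfsgLib.Chev.good3_E7 CfsgLib.Chev.good3_B2 (by decide))
      · exact absurd h (CfsgLib.Chev.ne_of_n CfsgLib.Chev.good3_E7 CfsgLib.Chev.good3_G2 (by decide))))
  · have h3 : 3 ≤ Fintype.card K := by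
      have : Fintype.card K ≠ 2 := hK
      omega
    exact CfsgLib.Chev.mult_st_B2 (Cfsg.Agent.S2397.result _ (by simp) (fun _ => hx h3)) h3 (hx h3)
  · have h3 : 3 ≤ Fintype.card K := by
      have : Fintype.card K ≠ 2 := hK
      omega
    obtain ⟨x, hx0, hx1⟩ := hx h3
    exact CfsgLib.Chev.mult_st_D4 (Cfsg.Agent.S2397.result _ (by simp) (fun _ => hx h3)) (c := Units.mk0 x hx0)
      (fun h => hx1 (congrArg Units.val h))

end Cfsg.Agent.S2400
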