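import Cfsg.Statements.S2402
import Cfsg.Agent.LibTwoGenH13
import Cfsg.Agent.LibNormH13

set_option autoImplicit false
open Cfsg

namespace Cfsg.Agent.S2402

open CfsgLib.SLn CfsgLib.TwoGen Matrix in
theorem diag_mul {K : Type*} [Field K] {n : ℕ} {D : SpecialLinearGroup (Fin n) K} {e : Fin n → K} (hD : (D : Matrix (Fin n) (Fin n) K) = diagonal e)
    {i j : Fin n} (h : i ≠ j) {a b : K} (hab : e i * a = b * e j) : D * TT h a = TT h b * D := by
  apply Subtype.ext
  have e1 : (D * TT h a).1 = D.1 * (TT h a).1 := rfl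
  have e2 : (TT h b * D).1 = (TT h b).1 * D.1 := rfl
  rw [e1, e2, TT_coe, TT_coe, transvection, transvection, mul_add, add_mul, mul_one, one_mul]
  congr 1
  change (D : Matrix (Fin n) (Fin n) K) * _ = _ * (D : Matrix (Fin n) (Fin n) K)
  rw [hD]
  ext r c
  rw [diagonal_mul, mul_diagonal]
  by_cases hr : i = r
  · subst hr
    by_cases hc : j = c
    · subst hc; rw [single_apply_same, single_apply_same]; exact hab
    · rw [single_apply_of_col_ne _ _ hc, single_apply_of_col_ne _ _ hc, mul_zero, zero_mul]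
  · rw [single_apply_of_row_ne hr, single_apply_of_row_ne hr, mul_zero, zero_mul]

open CfsgLib.SLn CfsgLib.TwoGen Matrix in
theorem diag_conj {K : Type*} [Field K] {n : ℕ} {D : SpecialLinearGroup (Fin n) K} {e : Fin n → K} (hD : (D : Matrix (Fin n) (Fin n) K) = diagonal e)
    {i j : Fin n} (h : i ≠ j) {a b : K} (hab : e i * a = b * e j) : D * TT h a * D⁻¹ = TT h b := by
  rw [diag_mul hD h hab, mul_inv_cancel_right]

/-- sums of two squares -/
theorem two_sq {K : Type*} [Field K] [Fintype K] (c : K) : ∃ a b : K, c = a ^ 2 + b ^ 2 := by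
  by_cases h2 : ringChar K = 2
  · obtain ⟨a, ha⟩ := FiniteField.isSquare_of_char_two h2 c
    exact ⟨a, 0, by rw [ha]; ring⟩
  · obtain ⟨a, b, hab⟩ := CfsgLib.Norm.universal (k := K) 0 1 c (by
      have h20 : (2 : K) ≠ 0 := Ring.two_ne_zero h2
      intro h
      apply h20
      have h4 : (2 : K) * 2 = 0 := by linear_combination -h
      exact mul_self_eq_zero.1 h4)
    exact ⟨a, b, by rw [← hab]; ring⟩

open CfsgLib.SLn CfsgLib.TwoGen Matrix in
theorem main {K : Type*} [Field K] [Fintype K] (hK : 3 < Fintype.card K) (n : ℕ) (hn : 1 ≤ n)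
    (k : Kˣ) (hk : ∀ u : Kˣ, u ∈ Subgroup.zpowers k)
    (h x w : Matrix.SpecialLinearGroup (Fin (n + 1)) K)
    (hh : (h : Matrix (Fin (n + 1)) (Fin (n + 1)) K) =
      Matrix.diagonal (fun i => if i.val = 0 then (k : K) else if i.val = 1 then ((k⁻¹ : Kˣ) : K) else 1))
    (hx : x = TT (succ_ne hn 0) 1)
    (hw : (w : Matrix (Fin (n + 1)) (Fin (n + 1)) K) = Matrix.of (fun i j => if j = i + 1 then sg K n i else 0)) :
    Subgroup.closure ({h, x * w} : Set (Matrix.SpecialLinearGroup (Fin (n + 1)) K)) = ⊤ := by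
  classical
  obtain ⟨d, hd⟩ : ∃ d : Fin (n + 1) → K, d = (fun i : Fin (n + 1) => if i.val = 0 then (k : K) else if i.val = 1 then ((k⁻¹ : Kˣ) : K) else 1) := ⟨_, rfl⟩
  rw [← hd] at hh
  have h01 : (0 : Fin (n + 1)) + 1 = 1 := zero_add 1
  have hv1 : (1 : Fin (n + 1)).val = 1 := by
    obtain ⟨m, rfl⟩ : ∃ m, n = m + 1 := ⟨n - 1, by omega⟩
    rfl
  have hk0 : (k : K) ≠ 0 := k.ne_zero
  have hd0 : d 0 = k := by rw [hd]; rfl
  have hd1 : d (0 + 1) = (k : K)⁻¹ := by
    rw [h01, hd]
    simp only [hv1, if_true]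
    rw [if_neg one_ne_zero, Units.val_inv_eq_inv_val]
  -- the second value
  have hd2 : d ((0 + 1) + 1) = k ∨ d ((0 + 1) + 1) = 1 := by
    by_cases hn1 : n = 1
    · left
      subst hn1
      rw [hd]; rfl
    · right
      have h2 : ((0 : Fin (n + 1)) + 1 + 1).val = 2 := by
        obtain ⟨m, rfl⟩ : ∃ m, n = m + 2 := ⟨n - 2, by omega⟩
        rw [h01]
        rfl
      rw [hd]
      simp only [h2]
      simp
  let H := Subgroup.closure ({h, x * w} : Set (Matrix.SpecialLinearGroup (Fin (n + 1)) K))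
  have hhH : h ∈ H := Subgroup.subset_closure (by simp)
  have hyH : x * w ∈ H := Subgroup.subset_closure (by simp)
  have hcard : orderOf k = Fintype.card K - 1 := by
    rw [orderOf_eq_card_of_forall_mem_zpowers hk, Nat.card_eq_fintype_card, Fintype.card_units]
  have hk1 : (k : K) ≠ 1 := by
    intro hh
    have : k = 1 := Units.ext hh
    rw [this, orderOf_one] at hcard
    omega
  have hk2 : (k : K) ^ 2 ≠ 1 := by
    intro hh
    have : k ^ 2 = 1 := Units.ext (by rw [Units.val_pow_eq_pow_val, hh, Units.val_one])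
    have := Nat.le_of_dvd two_pos (orderOf_dvd_of_pow_eq_one this)
    have h3 := hcard ▸ this
    have h4 : Fintype.card K = 3 := by omega
    omega
  -- the shifted torus element
  let D := w * h * w⁻¹
  have hD : (D : Matrix (Fin (n + 1)) (Fin (n + 1)) K) = diagonal (fun i => d (i + 1)) := by
    have h1 : (D * w).1 = (w * h).1 := congrArg Subtype.val (inv_mul_cancel_right (w * h) w)
    have h2 : (w : Matrix (Fin (n + 1)) (Fin (n + 1)) K) * (h : Matrix (Fin (n + 1)) (Fin (n + 1)) K) = diagonal (fun i => d (i + 1)) * (w : Matrix (Fin (n + 1)) (Fin (n + 1)) K) := by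
      rw [hh, hw]
      ext i j
      rw [mul_diagonal, diagonal_mul, of_apply]
      by_cases hj : j = i + 1
      · rw [if_pos hj, hj, mul_comm]
      · rw [if_neg hj, zero_mul, mul_zero]
    have h3 : (D : Matrix (Fin (n + 1)) (Fin (n + 1)) K) * (w : Matrix (Fin (n + 1)) (Fin (n + 1)) K) = diagonal (fun i => d (i + 1)) * (w : Matrix (Fin (n + 1)) (Fin (n + 1)) K) := by
      rw [← h2]; exact h1
    have hwu : IsUnit (w : Matrix (Fin (n + 1)) (Fin (n + 1)) K) := by
      rw [Matrix.isUnit_iff_isUnit_det, w.2]; exact isUnit_one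
    exact hwu.mul_right_cancel h3
  obtain ⟨m, hm⟩ : ∃ m : K, m = k * d ((0 + 1) + 1) := ⟨_, rfl⟩
  have hdm : d ((0 + 1) + 1) = (k : K)⁻¹ * m := by rw [hm, inv_mul_cancel_left₀ hk0]
  have hm0 : m ≠ 0 := by
    rw [hm]
    rcases hd2 with h | h <;> rw [h]
    · exact mul_ne_zero hk0 hk0
    · rw [mul_one]; exact hk0
  have hm1 : m ≠ 1 := by
    rw [hm]
    rcases hd2 with h | h <;> rw [h]
    · rw [← sq]; exact hk2
    · rw [mul_one]; exact hk1
  let U : K → Matrix.SpecialLinearGroup (Fin (n + 1)) K := fun a => TT (succ_ne hn 0) a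
  have hUadd : ∀ a b, U (a + b) = U a * U b := fun a b => TT_add _ a b
  have hUneg : ∀ a, (U a)⁻¹ = U (-a) := fun a => SpecialLinearGroup.transvection_inv _ a
  have hhU : ∀ a, h * U a * h⁻¹ = U (k ^ 2 * a) := by
    intro a
    refine diag_conj hh _ ?_
    rw [hd0, hd1]
    field_simp
  have hDU : ∀ a, D * U a * D⁻¹ = U (m⁻¹ * a) := by
    intro a
    refine diag_conj hD _ ?_
    rw [hd1, hdm]
    field_simp
  have hz : x * w * h * (x * w)⁻¹ = D * U (m - 1) := by
    have h1 : x * w * h * (x * w)⁻¹ = x * D * x⁻¹ := by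
      show x * w * h * (x * w)⁻¹ = x * (w * h * w⁻¹) * x⁻¹
      group
    have hx' : x = U 1 := hx
    have h2 : U 1 * D = D * U m := by
      have := hDU m
      rw [inv_mul_cancel₀ hm0] at this
      rw [← this, inv_mul_cancel_right]
    rw [h1, hx', h2, hUneg, mul_assoc, ← hUadd, ← sub_eq_add_neg]
  have hzH : D * U (m - 1) ∈ H := by
    rw [← hz]
    exact H.mul_mem (H.mul_mem hyH hhH) (H.inv_mem hyH)
  have hhD : h * D = D * h := by
    apply Subtype.ext
    show (h : Matrix (Fin (n + 1)) (Fin (n + 1)) K) * (D : Matrix (Fin (n + 1)) (Fin (n + 1)) K) = (D : Matrix (Fin (n + 1)) (Fin (n + 1)) K) * (h : Matrix (Fin (n + 1)) (Fin (n + 1)) K)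
    rw [hh, hD, diagonal_mul_diagonal, diagonal_mul_diagonal]
    congr 1
    funext i
    exact mul_comm _ _
  have ht : U (m⁻¹ * ((k ^ 2 - 1) * (m - 1))) ∈ H := by
    have h1 : h * (D * U (m - 1)) * h⁻¹ * (D * U (m - 1))⁻¹ = U (m⁻¹ * ((k ^ 2 - 1) * (m - 1))) := by
      rw [← hDU]
      have h2 : h * (D * U (m - 1)) * h⁻¹ * (D * U (m - 1))⁻¹ = (h * D) * U (m - 1) * h⁻¹ * (U (m - 1))⁻¹ * D⁻¹ := by group
      have h3 : (D * h) * U (m - 1) * h⁻¹ * (U (m - 1))⁻¹ * D⁻¹ = D * ((h * U (m - 1) * h⁻¹) * (U (m - 1))⁻¹) * D⁻¹ := by group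
      rw [h2, hhD, h3, hhU, hUneg, ← hUadd]
      congr 3
      ring
    rw [← h1]
    exact H.mul_mem (H.mul_mem (H.mul_mem hhH hzH) (H.inv_mem hhH)) (H.inv_mem hzH)
  have ht0 : m⁻¹ * ((k ^ 2 - 1) * (m - 1)) ≠ 0 := mul_ne_zero (inv_ne_zero hm0) (mul_ne_zero (sub_ne_zero.2 hk2) (sub_ne_zero.2 hm1))
  obtain ⟨t, htd⟩ : ∃ t : K, t = m⁻¹ * ((k ^ 2 - 1) * (m - 1)) := ⟨_, rfl⟩
  rw [← htd] at ht ht0
  have hpow : ∀ i : ℕ, ∀ a, U a ∈ H → U (((k : K) ^ i) ^ 2 * a) ∈ H := by
    intro i
    induction i with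
    | zero => intro a ha; simpa using ha
    | succ i ih =>
      intro a ha
      have h1 := ih a ha
      have h2 := H.mul_mem (H.mul_mem hhH h1) (H.inv_mem hhH)
      rw [hhU] at h2
      have e1 : (k : K) ^ 2 * (((k : K) ^ i) ^ 2 * a) = ((k : K) ^ (i + 1)) ^ 2 * a := by ring
      rw [e1] at h2
      exact h2
  have hsq : ∀ b a : K, U a ∈ H → U (b ^ 2 * a) ∈ H := by
    intro b a ha
    by_cases hb : b = 0
    · subst hb
      rw [zero_pow two_ne_zero, zero_mul]
      have : U 0 = 1 := SpecialLinearGroup.transvection_coeff_zero _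
      rw [this]; exact H.one_mem
    · have h1 := hk (Units.mk0 b hb)
      rw [← mem_powers_iff_mem_zpowers] at h1
      obtain ⟨i, hi⟩ := h1
      have h2 : (k : K) ^ i = b := by
        have := congrArg Units.val hi
        simpa using this
      rw [← h2]
      exact hpow i a ha
  have hall : ∀ a, U a ∈ H := by
    intro a
    obtain ⟨b, c, hbc⟩ := two_sq (a / t)
    have h1 : a = b ^ 2 * t + c ^ 2 * t := by
      rw [← add_mul, ← hbc, div_mul_cancel₀ _ ht0]
    rw [h1, hUadd]
    exact H.mul_mem (hsq b t ht) (hsq c t ht)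
  have hwH : w ∈ H := by
    have h1 : w = x⁻¹ * (x * w) := by group
    rw [h1]
    have h2 : x ∈ H := by rw [hx]; exact hall 1
    exact H.mul_mem (H.inv_mem h2) hyH
  exact gen hn hw hwH hall

/-- Explicit two-element generation of `PSL_{n+1}(K)` for a finite field `K` with more than three elements: let `k` generate the multiplicative group of `K`, `h = diag(k, k⁻¹, 1, …, 1)`, `x = 1 + E₁₂` (the elementary transvection) and `w` the monomial matrix with entries `1` in positions `(i, i+1)` and `(−1)^n` in position `(n+1, 1)`. Then `h` and `x·w` generate `SL_{n+1}(K)` modulo its centre: the subgroup they generate together with the centre is everything. -/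
theorem result {K : Type*} [Field K] [Fintype K] (hK : 3 < Fintype.card K) (n : ℕ) (hn : 1 ≤ n)
    (k : Kˣ) (hk : ∀ u : Kˣ, u ∈ Subgroup.zpowers k)
    (h x w : Matrix.SpecialLinearGroup (Fin (n + 1)) K)
    (hh : (h : Matrix (Fin (n + 1)) (Fin (n + 1)) K) =
      Matrix.diagonal (fun i => if i.val = 0 then (k : K) else if i.val = 1 then ((k⁻¹ : Kˣ) : K) else 1))
    (hx : (x : Matrix (Fin (n + 1)) (Fin (n + 1)) K) = Matrix.transvection (0 : Fin (n + 1)) (1 : Fin (n + 1)) 1)
    (hw : (w : Matrix (Fin (n + 1)) (Fin (n + 1)) K) =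
      Matrix.of (fun i j => if j.val = i.val + 1 then 1 else if i.val = n ∧ j.val = 0 then (-1) ^ n else 0)) :
    Subgroup.closure ({h, x * w} : Set (Matrix.SpecialLinearGroup (Fin (n + 1)) K)) ⊔
      Subgroup.center (Matrix.SpecialLinearGroup (Fin (n + 1)) K) = ⊤ := by
  classical
  rw [main hK n hn k hk h x w hh (Subtype.ext (by rw [CfsgLib.SLn.TT_coe, zero_add]; exact hx)) (hw.trans (CfsgLib.TwoGen.w_eq hn)), top_sup_eq]

end Cfsg.Agent.S2402
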