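import Cfsg.Statements.S2403
import Cfsg.Agent.LibTwoGenH13

set_option autoImplicit false
open Cfsg

namespace Cfsg.Agent.S2403

theorem three {K : Type*} [Field K] [Fintype K] (hK : Fintype.card K ≤ 3) (a : K) : a = 0 ∨ a = 1 ∨ a = -1 := by
  classical
  by_contra hcon
  push Not at hcon
  obtain ⟨h0, h1, h2⟩ := hcon
  have hcard : ({0, 1, a} : Finset K).card = 3 := by
    rw [Finset.card_insert_of_notMem, Finset.card_insert_of_notMem, Finset.card_singleton]
    · rw [Finset.mem_singleton]; exact fun h => h1 h.symm
    · rw [Finset.mem_insert, Finset.mem_singleton]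
      rintro (h | h)
      · exact zero_ne_one h
      · exact h0 h.symm
  have huniv : ({0, 1, a} : Finset K) = Finset.univ := by
    apply Finset.eq_univ_of_card
    have := Finset.card_le_univ ({0, 1, a} : Finset K)
    omega
  have hm : ∀ y : K, y = 0 ∨ y = 1 ∨ y = a := by
    intro y
    have : y ∈ ({0, 1, a} : Finset K) := by rw [huniv]; exact Finset.mem_univ y
    simpa using this
  rcases hm (-1) with h | h | h
  · exact one_ne_zero (neg_eq_zero.1 h)
  · rcases hm (a + 1) with h' | h' | h'
    · exact h2 (eq_neg_of_add_eq_zero_left h')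
    · apply h0; linear_combination h'
    · exact one_ne_zero (by linear_combination h' : (1 : K) = 0)
  · exact h2 h.symm

/-- Explicit two-element generation of `PSL_{n+1}(K)` over the fields with two or three elements: with `x = 1 + E₁₂` and `w` the monomial matrix with entries `1` in positions `(i, i+1)` and `(−1)^n` in position `(n+1, 1)`, the elements `x` and `w` generate `SL_{n+1}(K)` modulo its centre. -/
theorem result {K : Type*} [Field K] [Fintype K] (hK : Fintype.card K ≤ 3) (n : ℕ) (hn : 1 ≤ n)
    (x w : Matrix.SpecialLinearGroup (Fin (n + 1)) K)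
    (hx : (x : Matrix (Fin (n + 1)) (Fin (n + 1)) K) = Matrix.transvection (0 : Fin (n + 1)) (1 : Fin (n + 1)) 1)
    (hw : (w : Matrix (Fin (n + 1)) (Fin (n + 1)) K) =
      Matrix.of (fun i j => if j.val = i.val + 1 then 1 else if i.val = n ∧ j.val = 0 then (-1) ^ n else 0)) :
    Subgroup.closure ({x, w} : Set (Matrix.SpecialLinearGroup (Fin (n + 1)) K)) ⊔
      Subgroup.center (Matrix.SpecialLinearGroup (Fin (n + 1)) K) = ⊤ := by
  classical
  have hgen := CfsgLib.TwoGen.gen hn (H := Subgroup.closure ({x, w} : Set (Matrix.SpecialLinearGroup (Fin (n + 1)) K))) (w := w)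
    (hw.trans (CfsgLib.TwoGen.w_eq hn)) (Subgroup.subset_closure (by simp)) (fun a => by
      have hx1 : CfsgLib.SLn.TT (CfsgLib.TwoGen.succ_ne hn 0) (1 : K) = x := by
        apply Subtype.ext
        rw [CfsgLib.SLn.TT_coe, zero_add]
        exact hx.symm
      have hxm : x ∈ Subgroup.closure ({x, w} : Set (Matrix.SpecialLinearGroup (Fin (n + 1)) K)) := Subgroup.subset_closure (by simp)
      rcases three hK a with rfl | rfl | rfl
      · have : CfsgLib.SLn.TT (CfsgLib.TwoGen.succ_ne hn 0) (0 : K) = 1 := Matrix.SpecialLinearGroup.transvection_coeff_zero _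
        rw [this]; exact Subgroup.one_mem _
      · rw [hx1]; exact hxm
      · have : CfsgLib.SLn.TT (CfsgLib.TwoGen.succ_ne hn 0) (-1 : K) = x⁻¹ := by
          rw [← hx1]
          exact (Matrix.SpecialLinearGroup.transvection_inv _ _).symm
        rw [this]; exact Subgroup.inv_mem _ hxm)
  rw [hgen, top_sup_eq]

end Cfsg.Agent.S2403
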