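import Cfsg.Statements.S2404
import Cfsg.Agent.LibCR12

set_option autoImplicit false
open Cfsg

namespace Cfsg.Agent.S2404

/-- Steinberg's count of semisimple classes for type E₆ when the finite simply connected group has trivial centre: over a field with `q` elements of characteristic `p` with `q ≢ 1 (mod 3)`, the simply connected group E₆(q) coincides with the Chevalley group, and the conjugacy classes of elements of order prime to `p` in the Chevalley group of type E₆ number exactly `q^6`. -/
theorem result {F : Type*} [Field F] [Fintype F] {q : ℕ} (hq : Fintype.card F = q) (hq3 : q % 3 ≠ 1) (p : ℕ) [Fact p.Prime] [CharP F p] :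
    Nat.card {c : ConjClasses ↥(Cfsg.Lie.chevE6.group F) // ∃ g : ↥(Cfsg.Lie.chevE6.group F), ConjClasses.mk g = c ∧ (orderOf g).Coprime p} = q ^ 6 := by
  subst hq
  have h3 : Nat.gcd 3 (Fintype.card F - 1) = 1 := by
    have h4 : 1 ≤ Fintype.card F := Fintype.card_pos
    rw [← Nat.Coprime, Nat.Prime.coprime_iff_not_dvd Nat.prime_three]
    omega
  exact CfsgLib.Chev.card_ss_of CfsgLib.Chev.good3_E6 F p CfsgLib.Chev.smith_E6 rfl (by simp [h3])

end Cfsg.Agent.S2404
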