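import Cfsg.Statements.S2416
import Cfsg.Agent.LibChevMono

set_option autoImplicit false
open scoped MatrixGroups
open Cfsg

namespace Cfsg.Agent.S2416


open Cfsg.Lie CfsgLib.Chev Matrix

theorem ring_char_ne {K : Type*} [Field K] {p : ℕ} (hp : p.Prime) (h : ringChar K ≠ p) : ((p : ℤ) : K) ≠ 0 := by
  intro h0
  rw [Int.cast_natCast] at h0
  have h1 := ringChar.dvd h0
  rcases (Nat.dvd_prime hp).1 h1 with h2 | h2
  · have h3 : ((ringChar K : ℕ) : K) = 0 := ringChar.Nat.cast_ringChar
    rw [h2] at h3
    simp at h3
  · exact h h2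

theorem adj_D4 : (List.range 4).all (fun a => (List.range 4).all (fun b => Nat.beq a b || decide (tD4.A a (tD4.sim b) = 0) || (tD4.chkW1 [b, a] (tD4.sim b) (tD4.sim a) && tD4.chkW1 [a, b] (tD4.sim a) (tD4.sim b)))) = true := by decide +kernel
theorem adj_E6 : (List.range 6).all (fun a => (List.range 6).all (fun b => Nat.beq a b || decide (tE6.A a (tE6.sim b) = 0) || (tE6.chkW1 [b, a] (tE6.sim b) (tE6.sim a) && tE6.chkW1 [a, b] (tE6.sim a) (tE6.sim b)))) = true := by decide +kernel
theorem adj_E7 : (List.range 7).all (fun a => (List.range 7).all (fun b => Nat.beq a b || decide (tE7.A a (tE7.sim b) = 0) || (tE7.chkW1 [b, a] (tE7.sim b) (tE7.sim a) && tE7.chkW1 [a, b] (tE7.sim a) (tE7.sim b)))) = true := by decide +kernel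
theorem adj_E8 : (List.range 8).all (fun a => (List.range 8).all (fun b => Nat.beq a b || decide (tE8.A a (tE8.sim b) = 0) || (tE8.chkW1 [b, a] (tE8.sim b) (tE8.sim a) && tE8.chkW1 [a, b] (tE8.sim a) (tE8.sim b)))) = true := by decide +kernel

theorem sl_case {D : ChevalleyDatum} {T : Tb} (g : Good4 D T) {K : Type*} [Field K]
    (h : (List.range T.l).all (fun a => (List.range T.l).all (fun b => Nat.beq a b || decide (T.A a (T.sim b) = 0) || (T.chkW1 [b, a] (T.sim b) (T.sim a) && T.chkW1 [a, b] (T.sim a) (T.sim b)))) = true)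
    (i : ℕ) (hi : i < T.l) {M : Subgroup (GL D.Idx K)} (hN : D.monomialSubgroup K ≤ M)
    (hX : ∀ t : K, g.X (T.sim i) t ∈ M) : D.group K ≤ M := by
  have h1 : ∀ a < T.l, ∀ b < T.l, a ≠ b → T.A a (T.sim b) ≠ 0 → T.chkW1 [b, a] (T.sim b) (T.sim a) = true ∧ T.chkW1 [a, b] (T.sim a) (T.sim b) = true := by
    intro a ha b hb hab hA
    rw [List.all_eq_true] at h
    have h2 := h a (List.mem_range.2 ha)
    rw [List.all_eq_true] at h2
    have h3 := h2 b (List.mem_range.2 hb)
    simp only [Bool.or_eq_true, Bool.and_eq_true, decide_eq_true_eq, Nat.beq_eq] at h3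
    rcases h3 with (h3 | h3) | h3
    · exact absurd h3 hab
    · exact absurd h3 hA
    · exact h3
  obtain ⟨L, hL⟩ := g.Conn
  unfold Tb.chkConn at hL
  rw [Bool.and_eq_true, List.all_eq_true] at hL
  obtain ⟨hL1, hL2⟩ := hL
  have h4 := Good4.walk_const T (fun a => ∀ t : K, g.X (T.sim a) t ∈ M) (by
    intro a ha b hb hab hA
    constructor
    · intro h5 t
      exact g.mono_word hN [a, b] (h1 a ha b hb hab hA).2 h5 t
    · intro h5 t
      exact g.mono_word hN [b, a] (h1 a ha b hb hab hA).1 h5 t) L hL1
  apply g.mono_top hN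
  intro j hj
  have hj' := hL2 j (List.mem_range.2 hj)
  have hi' := hL2 i (List.mem_range.2 hi)
  rw [List.contains_iff_mem] at hi' hj'
  exact (h4 i hi' j hj').1 hX


/-- A Chevalley group of type G₂, B₂, D₄, F₄, E₆, E₇ or E₈ over a finite field lies in (indeed equals) the subgroup generated by its monomial subgroup `N` and a single fundamental root subgroup `X_p`, where `p` is a short fundamental root if there are two root lengths (any fundamental root otherwise), provided the characteristic is not 2 for types B₂, F₄ and not 3 for type G₂ (and the field has more than two elements for B₂, G₂). -/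
theorem result {K : Type*} [Field K] [Finite K] (D : Cfsg.Lie.ChevalleyDatum) (hD : D ∈ [Cfsg.Lie.chevG2, Cfsg.Lie.chevB2, Cfsg.Lie.chevD4, Cfsg.Lie.chevF4, Cfsg.Lie.chevE6, Cfsg.Lie.chevE7, Cfsg.Lie.chevE8])
    (hK : D ∈ [Cfsg.Lie.chevB2, Cfsg.Lie.chevG2] → ∃ x : K, x ≠ 0 ∧ x ≠ 1)
    (h2 : D ∈ [Cfsg.Lie.chevB2, Cfsg.Lie.chevF4] → ringChar K ≠ 2) (h3 : D = Cfsg.Lie.chevG2 → ringChar K ≠ 3)
    (i : ℕ) (hi : i < D.rank) (hshort : D.isLong (D.simple i) = false) :
    D.group K ≤ D.monomialSubgroup K ⊔ D.rootSubgroup K (D.simple i) := by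

  have hN : D.monomialSubgroup K ≤ D.monomialSubgroup K ⊔ D.rootSubgroup K (D.simple i) := le_sup_left
  have hR : D.rootSubgroup K (D.simple i) ≤ D.monomialSubgroup K ⊔ D.rootSubgroup K (D.simple i) := le_sup_right
  generalize D.monomialSubgroup K ⊔ D.rootSubgroup K (D.simple i) = M at hN hR
  simp only [List.mem_cons, List.not_mem_nil, or_false] at hD
  rcases hD with rfl | rfl | rfl | rfl | rfl | rfl | rfl
  · have hi' : i < 2 := hi
    interval_cases i
    · have hX : ∀ t : K, good4_G2.X (tG2.sim 0) t ∈ M := by
        intro t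
        have e : chevG2.simple 0 = tG2.sim 0 := by decide +kernel
        rw [e] at hR
        exact good4_G2.rootSubgroup_le_iff (by decide +kernel) hR t
      have h3' : ((3 : ℤ) : K) ≠ 0 := by
        have := ring_char_ne Nat.prime_three (h3 rfl)
        simpa using this
      apply good4_G2.mono_top hN
      intro j hj
      have hj' : j < 2 := hj
      interval_cases j
      · exact hX
      · exact good4_G2.mono_comm (C := 3) (s1 := 4) (s2 := 8) (by decide +kernel) h3' (good4_G2.mono_word hN [0] (by decide +kernel) hX) (good4_G2.mono_word hN [1] (by decide +kernel) hX)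
    · exact absurd hshort (by decide +kernel)
  · have hi' : i < 2 := hi
    interval_cases i
    · have hX : ∀ t : K, good4_B2.X (tB2.sim 0) t ∈ M := by
        intro t
        have e : chevB2.simple 0 = tB2.sim 0 := by decide +kernel
        rw [e] at hR
        exact good4_B2.rootSubgroup_le_iff (by decide +kernel) hR t
      have h3' : ((2 : ℤ) : K) ≠ 0 := by
        have := ring_char_ne Nat.prime_two (h2 (by simp))
        simpa using this
      apply good4_B2.mono_top hN
      intro j hj
      have hj' : j < 2 := hj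
      interval_cases j
      · exact hX
      · exact good4_B2.mono_comm (C := 2) (s1 := 2) (s2 := 6) (by decide +kernel) h3' (good4_B2.mono_word hN [0] (by decide +kernel) hX) (good4_B2.mono_word hN [1] (by decide +kernel) hX)
    · exact absurd hshort (by decide +kernel)
  · have hi' : i < 4 := hi
    refine sl_case good4_D4 adj_D4 i hi hN ?_
    intro t
    have e : chevD4.simple i = tD4.sim i := by interval_cases i <;> decide +kernel
    rw [e] at hR
    exact good4_D4.rootSubgroup_le_iff (good4_D4.sim_lt hi) hR t
  · have hi' : i < 4 := hi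
    have h3' : ((2 : ℤ) : K) ≠ 0 := by
      have := ring_char_ne Nat.prime_two (h2 (by simp))
      simpa using this
    have hX0 : ∀ t : K, good4_F4.X (tF4.sim 0) t ∈ M := by
      interval_cases i
      · intro t
        have e : chevF4.simple 0 = tF4.sim 0 := by decide +kernel
        rw [e] at hR
        exact good4_F4.rootSubgroup_le_iff (by decide +kernel) hR t
      · have hX1 : ∀ t : K, good4_F4.X (tF4.sim 1) t ∈ M := by
          intro t
          have e : chevF4.simple 1 = tF4.sim 1 := by decide +kernel
          rw [e] at hR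
          exact good4_F4.rootSubgroup_le_iff (by decide +kernel) hR t
        exact (good4_F4.mono_word hN [1, 0] (by decide +kernel) hX1)
      · exact absurd hshort (by decide +kernel)
      · exact absurd hshort (by decide +kernel)
    apply good4_F4.mono_top hN
    intro j hj
    have hj' : j < 4 := hj
    interval_cases j
    · exact hX0
    · exact (good4_F4.mono_word hN [0, 1] (by decide +kernel) hX0)
    · exact good4_F4.mono_comm (C := 2) (s1 := 9) (s2 := 39) (by decide +kernel) h3' (good4_F4.mono_word hN [3, 1, 2, 1, 0] (by decide +kernel) hX0) (good4_F4.mono_word hN [2, 3, 1, 2, 1] (by decide +kernel) hX0)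
    · exact good4_F4.mono_comm (C := 2) (s1 := 10) (s2 := 38) (by decide +kernel) h3' (good4_F4.mono_word hN [1, 2, 1, 0] (by decide +kernel) hX0) (good4_F4.mono_word hN [3, 1, 2, 1] (by decide +kernel) hX0)
  · have hi' : i < 6 := hi
    refine sl_case good4_E6 adj_E6 i hi hN ?_
    intro t
    have e : chevE6.simple i = tE6.sim i := by interval_cases i <;> decide +kernel
    rw [e] at hR
    exact good4_E6.rootSubgroup_le_iff (good4_E6.sim_lt hi) hR t
  · have hi' : i < 7 := hi
    refine sl_case good4_E7 adj_E7 i hi hN ?_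
    intro t
    have e : chevE7.simple i = tE7.sim i := by interval_cases i <;> decide +kernel
    rw [e] at hR
    exact good4_E7.rootSubgroup_le_iff (good4_E7.sim_lt hi) hR t
  · have hi' : i < 8 := hi
    refine sl_case good4_E8 adj_E8 i hi hN ?_
    intro t
    have e : chevE8.simple i = tE8.sim i := by interval_cases i <;> decide +kernel
    rw [e] at hR
    exact good4_E8.rootSubgroup_le_iff (good4_E8.sim_lt hi) hR t

end Cfsg.Agent.S2416
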