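import Cfsg.Statements.S2417
import Cfsg.Agent.LibChevMono

set_option autoImplicit false
open scoped MatrixGroups
open Cfsg

namespace Cfsg.Agent.S2417

open Cfsg.Lie CfsgLib.Chev Matrix


/-- In the characteristics with an exceptional graph symmetry — type B₂ or F₄ in characteristic 2 (field of more than two elements for B₂) and type G₂ in characteristic 3 — the Chevalley group lies in the subgroup generated by its monomial subgroup `N` and the two fundamental root subgroups `X_a`, `X_b` of a short root `a` and a long root `b` joined in the Dynkin diagram. -/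
theorem result {K : Type*} [Field K] [Finite K] (e : Cfsg.Lie.ChevalleyDatum × ℕ)
    (he : e ∈ [(Cfsg.Lie.chevB2, 2), (Cfsg.Lie.chevF4, 2), (Cfsg.Lie.chevG2, 3)]) [CharP K e.2]
    (hK : e.1 = Cfsg.Lie.chevB2 → ∃ x : K, x ≠ 0 ∧ x ≠ 1)
    (i j : ℕ) (hi : i < e.1.rank) (hj : j < e.1.rank) (hshort : e.1.isLong (e.1.simple i) = false)
    (hlong : e.1.isLong (e.1.simple j) = true) (hbond : e.1.bonds i j ≠ 0) :
    e.1.group K ≤ e.1.monomialSubgroup K ⊔ e.1.rootSubgroup K (e.1.simple i) ⊔ e.1.rootSubgroup K (e.1.simple j) := by

  have hN : e.1.monomialSubgroup K ≤ e.1.monomialSubgroup K ⊔ e.1.rootSubgroup K (e.1.simple i) ⊔ e.1.rootSubgroup K (e.1.simple j) :=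
    le_trans le_sup_left le_sup_left
  have hRi : e.1.rootSubgroup K (e.1.simple i) ≤ e.1.monomialSubgroup K ⊔ e.1.rootSubgroup K (e.1.simple i) ⊔ e.1.rootSubgroup K (e.1.simple j) :=
    le_trans le_sup_right le_sup_left
  have hRj : e.1.rootSubgroup K (e.1.simple j) ≤ e.1.monomialSubgroup K ⊔ e.1.rootSubgroup K (e.1.simple i) ⊔ e.1.rootSubgroup K (e.1.simple j) :=
    le_sup_right
  generalize e.1.monomialSubgroup K ⊔ e.1.rootSubgroup K (e.1.simple i) ⊔ e.1.rootSubgroup K (e.1.simple j) = M at hN hRi hRj
  simp only [List.mem_cons, List.not_mem_nil, or_false] at he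
  rcases he with rfl | rfl | rfl
  · have hi' : i < 2 := hi
    have hj' : j < 2 := hj
    have hi0 : i = 0 := by
      interval_cases i
      · rfl
      · exact absurd hshort (by decide +kernel)
    have hj0 : j = 1 := by
      interval_cases j
      · exact absurd hlong (by decide +kernel)
      · rfl
    subst hi0
    subst hj0
    apply good4_B2.mono_top hN
    intro k hk t
    have hk' : k < 2 := hk
    interval_cases k
    · have e : chevB2.simple 0 = tB2.sim 0 := by decide +kernel
      simp only [e] at hRi
      exact good4_B2.rootSubgroup_le_iff (by decide +kernel) hRi t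
    · have e : chevB2.simple 1 = tB2.sim 1 := by decide +kernel
      simp only [e] at hRj
      exact good4_B2.rootSubgroup_le_iff (by decide +kernel) hRj t
  · have hi' : i < 4 := hi
    have hj' : j < 4 := hj
    have hX0 : ∀ t : K, good4_F4.X (tF4.sim 0) t ∈ M ∧ good4_F4.X (tF4.sim 1) t ∈ M := by
      interval_cases i
      · have hX : ∀ t : K, good4_F4.X (tF4.sim 0) t ∈ M := by
          intro t
          have e : chevF4.simple 0 = tF4.sim 0 := by decide +kernel
          simp only [e] at hRi
          exact good4_F4.rootSubgroup_le_iff (by decide +kernel) hRi t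
        exact fun t => ⟨hX t, (good4_F4.mono_word hN [0, 1] (by decide +kernel) hX) t⟩
      · have hX : ∀ t : K, good4_F4.X (tF4.sim 1) t ∈ M := by
          intro t
          have e : chevF4.simple 1 = tF4.sim 1 := by decide +kernel
          simp only [e] at hRi
          exact good4_F4.rootSubgroup_le_iff (by decide +kernel) hRi t
        exact fun t => ⟨(good4_F4.mono_word hN [1, 0] (by decide +kernel) hX) t, hX t⟩
      · exact absurd hshort (by decide +kernel)
      · exact absurd hshort (by decide +kernel)
    have hX2 : ∀ t : K, good4_F4.X (tF4.sim 2) t ∈ M ∧ good4_F4.X (tF4.sim 3) t ∈ M := by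
      clear hX0 hbond
      interval_cases j
      · exact absurd hlong (by decide +kernel)
      · exact absurd hlong (by decide +kernel)
      · have hX : ∀ t : K, good4_F4.X (tF4.sim 2) t ∈ M := by
          intro t
          have e : chevF4.simple 2 = tF4.sim 2 := by decide +kernel
          simp only [e] at hRj
          exact good4_F4.rootSubgroup_le_iff (by decide +kernel) hRj t
        exact fun t => ⟨hX t, (good4_F4.mono_word hN [2, 3] (by decide +kernel) hX) t⟩
      · have hX : ∀ t : K, good4_F4.X (tF4.sim 3) t ∈ M := by
          intro t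
          have e : chevF4.simple 3 = tF4.sim 3 := by decide +kernel
          simp only [e] at hRj
          exact good4_F4.rootSubgroup_le_iff (by decide +kernel) hRj t
        exact fun t => ⟨(good4_F4.mono_word hN [3, 2] (by decide +kernel) hX) t, hX t⟩
    apply good4_F4.mono_top hN
    intro k hk t
    have hk' : k < 4 := hk
    interval_cases k
    · exact (hX0 t).1
    · exact (hX0 t).2
    · exact (hX2 t).1
    · exact (hX2 t).2
  · have hi' : i < 2 := hi
    have hj' : j < 2 := hj
    have hi0 : i = 0 := by
      interval_cases i
      · rfl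
      · exact absurd hshort (by decide +kernel)
    have hj0 : j = 1 := by
      interval_cases j
      · exact absurd hlong (by decide +kernel)
      · rfl
    subst hi0
    subst hj0
    apply good4_G2.mono_top hN
    intro k hk t
    have hk' : k < 2 := hk
    interval_cases k
    · have e : chevG2.simple 0 = tG2.sim 0 := by decide +kernel
      simp only [e] at hRi
      exact good4_G2.rootSubgroup_le_iff (by decide +kernel) hRi t
    · have e : chevG2.simple 1 = tG2.sim 1 := by decide +kernel
      simp only [e] at hRj
      exact good4_G2.rootSubgroup_le_iff (by decide +kernel) hRj t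

end Cfsg.Agent.S2417
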