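import Cfsg.Statements.S2418
import Cfsg.Agent.LibCoxC

set_option autoImplicit false
open Cfsg

namespace Cfsg.Agent.S2418

open Cfsg.Lie CfsgLib.Chev Matrix
set_option maxRecDepth 100000

theorem card_one {G : Type*} [Group G] {H : Subgroup G} (h : H = ⊥) : Nat.card H = 1 := by
  rw [h]; exact Subgroup.card_bot


/-- For the Coxeter groups of types B₂, G₂, D₄, F₄, E₇, E₈ the centre has order 2 (the element acting as −1 on the root system) and is generated by a power of the Coxeter element `s₁ s₂ ⋯ s_l`; the Coxeter group of type E₆ has trivial centre. -/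
theorem result (c : (Σ n : ℕ, CoxeterMatrix (Fin n)) × ℕ)
    (hc : c ∈ [(⟨2, CoxeterMatrix.B 2⟩, 2), (⟨2, CoxeterMatrix.G₂⟩, 2), (⟨4, Cfsg.Lie.coxeterD4⟩, 2), (⟨4, CoxeterMatrix.F₄⟩, 2),
      (⟨6, CoxeterMatrix.E₆⟩, 1), (⟨7, CoxeterMatrix.E₇⟩, 2), (⟨8, CoxeterMatrix.E₈⟩, 2)]) :
    Nat.card (Subgroup.center c.1.2.Group) = c.2 ∧
      Subgroup.center c.1.2.Group ≤ Subgroup.zpowers ((List.finRange c.1.1).map c.1.2.simple).prod := by

  simp only [List.mem_cons, List.not_mem_nil, or_false] at hc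
  rcases hc with rfl | rfl | rfl | rfl | rfl | rfl | rfl
  · exact good3_B2.center_two (M := (CoxeterMatrix.B 2 : CoxeterMatrix (Fin tB2.l))) cox_B2 (r0 := 7) (by decide +kernel) (List.finRange 2) 2 (by decide +kernel)
  · exact good3_G2.center_two (M := (CoxeterMatrix.G₂ : CoxeterMatrix (Fin tG2.l))) cox_G2 (r0 := 11) (by decide +kernel) (List.finRange 2) 3 (by decide +kernel)
  · exact good3_D4.center_two (M := (coxeterD4 : CoxeterMatrix (Fin tD4.l))) cox_D4 (r0 := 23) (by decide +kernel) (List.finRange 4) 3 (by decide +kernel)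
  · exact good3_F4.center_two (M := (CoxeterMatrix.F₄ : CoxeterMatrix (Fin tF4.l))) cox_F4 (r0 := 47) (by decide +kernel) (List.finRange 4) 6 (by decide +kernel)
  · have h := good3_E6.center_one (M := (CoxeterMatrix.E₆ : CoxeterMatrix (Fin tE6.l))) cox_E6 (r0 := 71) (by decide +kernel) (u := [0, 1, 2, 0, 3, 1, 2, 0, 3, 2, 4, 3, 1, 2, 0, 3, 2, 4, 3, 1, 5, 4, 3, 1, 2, 0, 3, 2, 4, 3, 1, 5, 4, 3, 2, 0]) (by decide +kernel)
    exact ⟨card_one h, h.le.trans bot_le⟩
  · exact good3_E7.center_two (M := (CoxeterMatrix.E₇ : CoxeterMatrix (Fin tE7.l))) cox_E7 (r0 := 125) (by decide +kernel) (List.finRange 7) 9 (by decide +kernel)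
  · exact good3_E8.center_two (M := (CoxeterMatrix.E₈ : CoxeterMatrix (Fin tE8.l))) cox_E8 (r0 := 239) (by decide +kernel) (List.finRange 8) 15 (by decide +kernel)

end Cfsg.Agent.S2418
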