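import Cfsg.Statements.S2419
import Cfsg.Agent.LibCoxC

set_option autoImplicit false
open Cfsg

namespace Cfsg.Agent.S2419

open Cfsg.Lie CfsgLib.Chev Matrix
set_option maxRecDepth 100000

theorem simple_ne {D : ChevalleyDatum} {T : Tb} (g : Good3 D T) {M : CoxeterMatrix (Fin T.l)} (hM : ∀ i j : Fin T.l, chkOrd T [(i : ℕ), (j : ℕ)] (M i j) = true)
    {i j : Fin T.l} (hij : i ≠ j) : M.simple i ≠ M.simple j := by
  obtain ⟨ψ, hψ, hr, hr', hs, hω⟩ := g.exists_cox' hM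
  intro h
  have h1 := congrArg ψ h
  rw [hs, hs] at h1
  have h2 := congrArg (fun σ : Equiv.Perm (Fin T.n) => ((σ (g.fs i.2) : Fin T.n) : ℕ)) h1
  have e1 : ((g.ps i (g.fs i.2) : Fin T.n) : ℕ) = T.n - 1 - T.sim i := by
    rw [g.ps_val i.2]
    exact g.w_sim i.2
  have e2 : ((g.ps j (g.fs i.2) : Fin T.n) : ℕ) = T.w j (T.sim i) := by
    rw [g.ps_val j.2]
    rfl
  have h3 : T.n - 1 - T.sim i = T.w j (T.sim i) := by rw [← e1, ← e2]; exact h2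
  have h4 := g.v_w (j := i) j.2 (g.sim_lt i.2) i.2
  rw [if_neg (by intro h; exact hij (Fin.ext h)), ← h3, g.v_neg (g.sim_lt i.2) i.2, g.v_sim i.2 i.2, if_pos rfl] at h4
  norm_num at h4

theorem gen1 {D : ChevalleyDatum} {T : Tb} (g : Good3 D T) {M : CoxeterMatrix (Fin T.l)} (hM : ∀ i j : Fin T.l, chkOrd T [(i : ℕ), (j : ℕ)] (M i j) = true)
    (i : Fin T.l) (LL : List (List ℕ)) (h : chkGen T ([i].map Fin.val) LL = true) :
    ∃ T' : Finset M.Group, T'.card = 1 ∧ (∀ t ∈ T', ∃ (g : M.Group) (i : Fin T.l), t = g * M.simple i * g⁻¹) ∧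
      Subgroup.closure (({((List.finRange T.l).map M.simple).prod} : Set M.Group) ∪ ↑T') = ⊤ := by
  refine ⟨{M.simple i}, Finset.card_singleton _, ?_, ?_⟩
  · intro t ht
    rw [Finset.mem_singleton] at ht
    exact ⟨1, i, by rw [ht]; simp⟩
  · have h := g.gen_cox hM [i] LL h
    rw [Finset.coe_singleton]
    have e : {x | ∃ j ∈ [i], x = M.simple j} = {M.simple i} := by
      ext x; simp
    rw [e] at h
    exact h

theorem gen2 {D : ChevalleyDatum} {T : Tb} (g : Good3 D T) {M : CoxeterMatrix (Fin T.l)} (hM : ∀ i j : Fin T.l, chkOrd T [(i : ℕ), (j : ℕ)] (M i j) = true)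
    (i j : Fin T.l) (hij : i ≠ j) (LL : List (List ℕ)) (h : chkGen T ([i, j].map Fin.val) LL = true) :
    ∃ T' : Finset M.Group, T'.card = 2 ∧ (∀ t ∈ T', ∃ (g : M.Group) (i : Fin T.l), t = g * M.simple i * g⁻¹) ∧
      Subgroup.closure (({((List.finRange T.l).map M.simple).prod} : Set M.Group) ∪ ↑T') = ⊤ := by
  classical
  refine ⟨{M.simple i, M.simple j}, Finset.card_pair (simple_ne g hM hij), ?_, ?_⟩
  · intro t ht
    rw [Finset.mem_insert, Finset.mem_singleton] at ht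
    rcases ht with rfl | rfl
    · exact ⟨1, i, by simp⟩
    · exact ⟨1, j, by simp⟩
  · have h := g.gen_cox hM [i, j] LL h
    rw [Finset.coe_insert, Finset.coe_singleton]
    have e : {x | ∃ k ∈ [i, j], x = M.simple k} = {M.simple i, M.simple j} := by
      ext x; simp
    rw [e] at h
    exact h


/-- The Coxeter groups of types B₂, G₂, E₆, E₇, E₈ are generated by the Coxeter element `s₁ s₂ ⋯ s_l` together with one suitable reflection (a conjugate of a simple reflection); for types D₄ and F₄ the Coxeter element together with two suitable reflections suffices. -/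
theorem result (c : (Σ n : ℕ, CoxeterMatrix (Fin n)) × ℕ)
    (hc : c ∈ [(⟨2, CoxeterMatrix.B 2⟩, 1), (⟨2, CoxeterMatrix.G₂⟩, 1), (⟨4, Cfsg.Lie.coxeterD4⟩, 2), (⟨4, CoxeterMatrix.F₄⟩, 2),
      (⟨6, CoxeterMatrix.E₆⟩, 1), (⟨7, CoxeterMatrix.E₇⟩, 1), (⟨8, CoxeterMatrix.E₈⟩, 1)]) :
    ∃ T : Finset c.1.2.Group, T.card = c.2 ∧ (∀ t ∈ T, ∃ (g : c.1.2.Group) (i : Fin c.1.1), t = g * c.1.2.simple i * g⁻¹) ∧
      Subgroup.closure (({((List.finRange c.1.1).map c.1.2.simple).prod} : Set c.1.2.Group) ∪ ↑T) = ⊤ := by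

  simp only [List.mem_cons, List.not_mem_nil, or_false] at hc
  rcases hc with rfl | rfl | rfl | rfl | rfl | rfl | rfl
  · exact gen1 good3_B2 (M := (CoxeterMatrix.B 2 : CoxeterMatrix (Fin tB2.l))) cox_B2 ⟨0, by decide⟩ [[0], [0, 2]] (by decide +kernel)
  · exact gen1 good3_G2 (M := (CoxeterMatrix.G₂ : CoxeterMatrix (Fin tG2.l))) cox_G2 ⟨0, by decide⟩ [[0], [0, 2]] (by decide +kernel)
  · exact gen2 good3_D4 (M := (coxeterD4 : CoxeterMatrix (Fin tD4.l))) cox_D4 ⟨1, by decide⟩ ⟨2, by decide⟩ (by decide) [[5, 1, 4], [1], [2], [4, 2, 1, 2, 5]] (by decide +kernel)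
  · exact gen2 good3_F4 (M := (CoxeterMatrix.F₄ : CoxeterMatrix (Fin tF4.l))) cox_F4 ⟨0, by decide⟩ ⟨2, by decide⟩ (by decide) [[0], [4, 0, 5], [2], [4, 2, 5]] (by decide +kernel)
  · exact gen1 good3_E6 (M := (CoxeterMatrix.E₆ : CoxeterMatrix (Fin tE6.l))) cox_E6 ⟨3, by decide⟩ [[7, 7, 7, 7, 7, 3, 6, 6, 6, 6, 6], [3, 7, 7, 7, 3, 6, 6, 6, 3], [7, 7, 7, 7, 3, 6, 6, 6, 6], [3], [6, 3, 7], [6, 6, 3, 7, 7]] (by decide +kernel)
  · exact gen1 good3_E7 (M := (CoxeterMatrix.E₇ : CoxeterMatrix (Fin tE7.l))) cox_E7 ⟨3, by decide⟩ [[8, 3, 8, 8, 8, 8, 3, 7, 7, 7, 7, 3, 7], [3, 7, 3, 8, 8, 8, 8, 3, 7, 7, 7, 7, 3, 8, 3], [3, 8, 8, 8, 8, 3, 7, 7, 7, 7, 3], [3], [7, 3, 8], [7, 7, 3, 8, 8], [7, 7, 7, 3, 8, 8, 8]] (by decide +kernel)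
  · exact gen1 good3_E8 (M := (CoxeterMatrix.E₈ : CoxeterMatrix (Fin tE8.l))) cox_E8 ⟨1, by decide⟩ [[8, 1, 9, 9, 9, 9, 1, 9, 9, 1, 8, 8, 1, 8, 8, 8, 8, 1, 9], [1], [9, 1, 8, 8, 8, 8, 1, 8, 8, 1, 9, 9, 1, 9, 9, 9, 9, 1, 8], [8, 8, 8, 8, 1, 8, 8, 1, 9, 9, 1, 9, 9, 9, 9], [8, 8, 8, 8, 8, 1, 8, 8, 1, 9, 9, 1, 9, 9, 9, 9, 9], [8, 8, 8, 8, 8, 8, 1, 8, 8, 1, 9, 9, 1, 9, 9, 9, 9, 9, 9], [9, 9, 9, 9, 9, 9, 1, 9, 9, 1, 8, 8, 1, 8, 8, 8, 8, 8, 8], [9, 9, 9, 9, 9, 1, 9, 9, 1, 8, 8, 1, 8, 8, 8, 8, 8]] (by decide +kernel)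

end Cfsg.Agent.S2419
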