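import Cfsg.Statements.S2426
import Mathlib
import Cfsg.Agent.LibSym1
import Cfsg.Agent.LibH14SL2Pres
-- import your own Cfsg.Agent.* helpers here

set_option autoImplicit false
open Cfsg

namespace Cfsg.Agent.S2426

open Matrix CfsgLib.SL2Pres

universe v
variable (K : Type v) [Field K]

/-- the relators -/
def rels : Set (FreeGroup (Bool × K)) :=
  ({g : FreeGroup (Bool × K) | ∃ (b : Bool) (t u : K), g = FreeGroup.of (b, t) * FreeGroup.of (b, u) * (FreeGroup.of (b, t + u))⁻¹} ∪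
    {g | ∃ (b : Bool) (t u : K), t ≠ 0 ∧
      g = (FreeGroup.of (b, t) * FreeGroup.of (!b, -t⁻¹) * FreeGroup.of (b, t)) * FreeGroup.of (b, u) *
            (FreeGroup.of (b, t) * FreeGroup.of (!b, -t⁻¹) * FreeGroup.of (b, t))⁻¹ * (FreeGroup.of (!b, -(t⁻¹ ^ 2 * u)))⁻¹})

variable {K}

def px (t : K) : PresentedGroup (rels K) := PresentedGroup.of (true, t)
def py (t : K) : PresentedGroup (rels K) := PresentedGroup.of (false, t)

theorem padd (b : Bool) (t u : K) : (PresentedGroup.of (b, t + u) : PresentedGroup (rels K)) = PresentedGroup.of (b, t) * PresentedGroup.of (b, u) := by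
  have h := PresentedGroup.one_of_mem (rels := rels K) (x := FreeGroup.of (b, t) * FreeGroup.of (b, u) * (FreeGroup.of (b, t + u))⁻¹)
    (Or.inl ⟨b, t, u, rfl⟩)
  rw [map_mul, map_mul, map_inv, mul_inv_eq_one] at h
  exact h.symm

theorem pst : St (px (K := K)) py where
  hx s t := padd true s t
  hy s t := padd false s t
  hw t u ht := by
    have h := PresentedGroup.one_of_mem (rels := rels K) (x := (FreeGroup.of (true, t) * FreeGroup.of (!true, -t⁻¹) * FreeGroup.of (true, t)) * FreeGroup.of (true, u) *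
            (FreeGroup.of (true, t) * FreeGroup.of (!true, -t⁻¹) * FreeGroup.of (true, t))⁻¹ * (FreeGroup.of (!true, -(t⁻¹ ^ 2 * u)))⁻¹)
      (Or.inr ⟨true, t, u, ht, rfl⟩)
    simp only [map_mul, map_inv] at h
    rw [mul_inv_eq_one, mul_inv_eq_iff_eq_mul] at h
    have e : t⁻¹ ^ 2 * u = t⁻¹ * t⁻¹ * u := by ring
    rw [e] at h
    exact h

def rk : CfsgLib.Sym.Rk1 K (PresentedGroup (rels K)) where
  x := px
  y := py
  x_add := pst.hx
  y_add := pst.hy
  wx' v hv a := by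
    have h := pst.hw v a hv
    have e : -(v⁻¹ * v⁻¹ * a) = -(v ^ 2)⁻¹ * a := by field_simp
    rw [e] at h
    exact h
  wy' v hv a := by
    have h := pst.hw' v a hv
    have e : -(v * v * a) = -(v ^ 2) * a := by ring
    rw [e] at h
    exact h

theorem XY_rel (b : Bool) (t u : K) (ht : t ≠ 0) (f : Bool × K → Matrix.SpecialLinearGroup (Fin 2) K)
    (hf : ∀ t, f (true, t) = X t) (hf' : ∀ t, f (false, t) = Y t) :
    (f (b, t) * f (!b, -t⁻¹) * f (b, t)) * f (b, u) = f (!b, -(t⁻¹ ^ 2 * u)) * (f (b, t) * f (!b, -t⁻¹) * f (b, t)) := by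
  cases b
  · simp only [Bool.not_false, hf, hf']
    apply Subtype.ext
    change (!![1, 0; t, 1] * !![1, -t⁻¹; 0, 1] * !![1, 0; t, 1]) * !![1, 0; u, 1] = !![1, -(t⁻¹ ^ 2 * u); 0, 1] * (!![1, 0; t, 1] * !![1, -t⁻¹; 0, 1] * !![1, 0; t, 1])
    ext i j
    fin_cases i <;> fin_cases j <;> simp [mul_apply, Fin.sum_univ_two, ht] <;> (try field_simp) <;> (try ring_nf) <;> (try simp)
  · simp only [Bool.not_true, hf, hf']
    apply Subtype.ext
    change (!![1, t; 0, 1] * !![1, 0; -t⁻¹, 1] * !![1, t; 0, 1]) * !![1, u; 0, 1] = !![1, 0; -(t⁻¹ ^ 2 * u), 1] * (!![1, t; 0, 1] * !![1, 0; -t⁻¹, 1] * !![1, t; 0, 1])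
    ext i j
    fin_cases i <;> fin_cases j <;> simp [mul_apply, Fin.sum_univ_two, ht] <;> (try field_simp) <;> (try ring_nf) <;> (try simp)

def gn (p : Bool × K) : Matrix.SpecialLinearGroup (Fin 2) K := if p.1 then X p.2 else Y p.2

theorem Y_add' (s t : K) : (Y (s + t) : Matrix.SpecialLinearGroup (Fin 2) K) = Y s * Y t := by
  apply Subtype.ext
  change (!![1, 0; s + t, 1] : Matrix (Fin 2) (Fin 2) K) = !![1, 0; s, 1] * !![1, 0; t, 1]
  ext i j
  fin_cases i <;> fin_cases j <;> simp [mul_apply, Fin.sum_univ_two]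

theorem gn_rels : ∀ r ∈ rels K, FreeGroup.lift gn r = 1 := by
  classical
  rintro r (⟨b, t, u, rfl⟩ | ⟨b, t, u, ht, rfl⟩)
  · simp only [map_mul, map_inv, FreeGroup.lift_apply_of]
    rw [mul_inv_eq_one]
    cases b
    · exact (Y_add' t u).symm
    · exact (X_add t u).symm
  · simp only [map_mul, map_inv, FreeGroup.lift_apply_of]
    rw [mul_inv_eq_one, mul_inv_eq_iff_eq_mul]
    exact XY_rel b t u ht gn (fun _ => rfl) (fun _ => rfl)

/-- The rank-one Steinberg presentation of `SL₂` over a finite field `K`: generators `x(t)`, `y(t)` (`t ∈ K`; the two opposite root subgroups) subject to additivity `x(t)x(u) = x(t+u)`, `y(t)y(u) = y(t+u)` and, with `w(t) = x(t) y(−t⁻¹) x(t)` and `w'(t) = y(t) x(−t⁻¹) y(t)` for `t ≠ 0`, the relations `w(t) x(u) w(t)⁻¹ = y(−t⁻² u)` and `w'(t) y(u) w'(t)⁻¹ = x(−t⁻² u)`, present `SL₂(K)`, with `x(t) ↦ (1 t; 0 1)` and `y(t) ↦ (1 0; t 1)`. -/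
theorem result {K : Type*} [Field K] [Finite K] :
    ∃ e : PresentedGroup
        ({g : FreeGroup (Bool × K) | ∃ (b : Bool) (t u : K), g = FreeGroup.of (b, t) * FreeGroup.of (b, u) * (FreeGroup.of (b, t + u))⁻¹} ∪
          {g | ∃ (b : Bool) (t u : K), t ≠ 0 ∧
            g = (FreeGroup.of (b, t) * FreeGroup.of (!b, -t⁻¹) * FreeGroup.of (b, t)) * FreeGroup.of (b, u) *
                  (FreeGroup.of (b, t) * FreeGroup.of (!b, -t⁻¹) * FreeGroup.of (b, t))⁻¹ * (FreeGroup.of (!b, -(t⁻¹ ^ 2 * u)))⁻¹})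
        ≃* Matrix.SpecialLinearGroup (Fin 2) K,
      (∀ t : K, ((e (PresentedGroup.of (true, t)) : Matrix (Fin 2) (Fin 2) K)) = !![1, t; 0, 1]) ∧
      (∀ t : K, ((e (PresentedGroup.of (false, t)) : Matrix (Fin 2) (Fin 2) K)) = !![1, 0; t, 1]) := by
    classical
    let toSL : PresentedGroup (rels K) →* Matrix.SpecialLinearGroup (Fin 2) K := PresentedGroup.toGroup gn_rels
    have tX : ∀ t : K, toSL (px t) = X t := fun t => PresentedGroup.toGroup.of gn_rels
    have tY : ∀ t : K, toSL (py t) = Y t := fun t => PresentedGroup.toGroup.of gn_rels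
    obtain ⟨φ, hφX, hφY, -⟩ := exists_hom pst (fun t u ht hu => (rk (K := K)).H_mul ht hu)
    have h1 : φ.comp toSL = MonoidHom.id _ := by
      apply PresentedGroup.ext
      rintro ⟨b, t⟩
      cases b
      · change φ (toSL (py t)) = py t
        rw [tY, hφY]
      · change φ (toSL (px t)) = px t
        rw [tX, hφX]
    have hX : ∀ t : K, toSL (φ (X t)) = X t := fun t => by rw [hφX, tX]
    have hY : ∀ t : K, toSL (φ (Y t)) = Y t := fun t => by rw [hφY, tY]
    have h2 : toSL.comp φ = MonoidHom.id _ := by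
      ext1 g
      change toSL (φ g) = g
      by_cases hc : g.1 1 0 = 0
      · calc toSL (φ g) = toSL (φ (X (g.1 0 0 * g.1 0 1) * ((X (g.1 0 0) * Y (-(g.1 0 0)⁻¹) * X (g.1 0 0)) * (X (-1) * Y 1 * X (-1))))) :=
              congrArg (fun z => toSL (φ z)) (bruhat2 g hc)
          _ = X (g.1 0 0 * g.1 0 1) * ((X (g.1 0 0) * Y (-(g.1 0 0)⁻¹) * X (g.1 0 0)) * (X (-1) * Y 1 * X (-1))) := by
              simp only [map_mul, hX, hY]
          _ = g := (bruhat2 g hc).symm
      · calc toSL (φ g) = toSL (φ (X (g.1 0 0 / g.1 1 0) * (X (-1 / g.1 1 0) * Y (g.1 1 0) * X (-1 / g.1 1 0)) * X (g.1 1 1 / g.1 1 0))) :=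
              congrArg (fun z => toSL (φ z)) (bruhat1 g hc)
          _ = X (g.1 0 0 / g.1 1 0) * (X (-1 / g.1 1 0) * Y (g.1 1 0) * X (-1 / g.1 1 0)) * X (g.1 1 1 / g.1 1 0) := by
              simp only [map_mul, hX, hY]
          _ = g := (bruhat1 g hc).symm
    refine ⟨toSL.toMulEquiv φ h1 h2, ?_, ?_⟩
    · intro t
      change ((toSL (px t) : Matrix.SpecialLinearGroup (Fin 2) K) : Matrix (Fin 2) (Fin 2) K) = _
      rw [tX]; rfl
    · intro t
      change ((toSL (py t) : Matrix.SpecialLinearGroup (Fin 2) K) : Matrix (Fin 2) (Fin 2) K) = _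
      rw [tY]; rfl

end Cfsg.Agent.S2426
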