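import Cfsg.Statements.S2430
import Cfsg.Agent.LibTorD

set_option autoImplicit false
open Cfsg

namespace Cfsg.Agent.S2430

open CfsgLib.Tor CfsgLib.G2B CfsgLib.G2C

/-- Let F be a finite field with q elements, q odd, ℓ an odd prime, and P a Sylow ℓ-subgroup of SL₂ over F. If ℓ divides q − 1, the centraliser of P is cyclic of order q − 1 (a split torus) and the normaliser of P has order 2(q − 1); if ℓ divides q + 1, the centraliser of P is cyclic of order q + 1 (a non-split torus) and the normaliser of P has order 2(q + 1). -/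
theorem result {F : Type*} [Field F] [Fintype F] (hodd : Odd (Fintype.card F)) (ℓ : ℕ) [Fact ℓ.Prime] (hℓ : ℓ ≠ 2)
    (P : Sylow ℓ (Matrix.SpecialLinearGroup (Fin 2) F)) :
    (ℓ ∣ Fintype.card F - 1 →
      Nat.card (Subgroup.centralizer ((P : Subgroup (Matrix.SpecialLinearGroup (Fin 2) F)) : Set (Matrix.SpecialLinearGroup (Fin 2) F))) = Fintype.card F - 1 ∧
      IsCyclic (Subgroup.centralizer ((P : Subgroup (Matrix.SpecialLinearGroup (Fin 2) F)) : Set (Matrix.SpecialLinearGroup (Fin 2) F))) ∧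
      Nat.card (Subgroup.normalizer ((P : Subgroup (Matrix.SpecialLinearGroup (Fin 2) F)) : Set (Matrix.SpecialLinearGroup (Fin 2) F))) = 2 * (Fintype.card F - 1)) ∧
    (ℓ ∣ Fintype.card F + 1 →
      Nat.card (Subgroup.centralizer ((P : Subgroup (Matrix.SpecialLinearGroup (Fin 2) F)) : Set (Matrix.SpecialLinearGroup (Fin 2) F))) = Fintype.card F + 1 ∧
      IsCyclic (Subgroup.centralizer ((P : Subgroup (Matrix.SpecialLinearGroup (Fin 2) F)) : Set (Matrix.SpecialLinearGroup (Fin 2) F))) ∧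
      Nat.card (Subgroup.normalizer ((P : Subgroup (Matrix.SpecialLinearGroup (Fin 2) F)) : Set (Matrix.SpecialLinearGroup (Fin 2) F))) = 2 * (Fintype.card F + 1)) := by
  have h2 := two_ne_of_odd hodd
  obtain ⟨ν, hν⟩ := FiniteField.exists_nonsquare (ringChar_ne_two h2)
  have hν0 : ν ≠ 0 := fun h => hν (h ▸ IsSquare.zero)
  have hq : 2 ≤ Fintype.card F := Fintype.one_lt_card
  have hp : ℓ.Prime := Fact.out
  have hG := card_SL F
  have hndq : ∀ {a b : ℕ}, a + 2 = b → ℓ ∣ a → ¬ ℓ ∣ b := by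
    intro a b hab ha hb
    have h3 : ℓ ∣ 2 := by
      have := (Nat.dvd_add_right ha).mp (hab ▸ hb)
      exact this
    exact hℓ ((Nat.prime_dvd_prime_iff_eq hp Nat.prime_two).mp h3)
  have hnq : ∀ {a : ℕ}, (a + 1 = Fintype.card F ∨ a = Fintype.card F + 1) → ℓ ∣ a → ¬ ℓ ∣ Fintype.card F := by
    intro a ha hd hb
    have h3 : ℓ ∣ 1 := by
      rcases ha with ha | ha
      · exact (Nat.dvd_add_right hd).mp (ha ▸ hb)
      · exact (Nat.dvd_add_right hb).mp (ha ▸ hd)
    exact hp.one_lt.ne' (Nat.dvd_one.mp h3)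
  constructor
  · intro hd
    refine sylow_tor hℓ P h2 JS_t JS_d (cyc_TS h2) (Fintype.card F - 1) (Fintype.card F * (Fintype.card F + 1)) (card_TS h2) ?_ hd ?_ w_TS
    · rw [hG]; ring
    · rw [hp.dvd_mul, not_or]
      exact ⟨hnq (Or.inl (by omega)) hd, hndq (by omega) hd⟩
  · intro hd
    obtain ⟨w, hw⟩ := w_TN (F := F) hodd hν0
    refine sylow_tor hℓ P h2 (JN_t ν) (JN_d hν0) (cyc_TN hν) (Fintype.card F + 1) (Fintype.card F * (Fintype.card F - 1)) (card_TN h2 hν) ?_ hd ?_ hw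
    · rw [hG]; ring
    · rw [hp.dvd_mul, not_or]
      exact ⟨hnq (Or.inr rfl) hd, fun h => hndq (by omega) h hd⟩

end Cfsg.Agent.S2430
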