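import Cfsg.Statements.S2432
import Cfsg.Agent.LibG2L

set_option autoImplicit false
open Cfsg

namespace Cfsg.Agent.S2432

open CfsgLib.G2A CfsgLib.G2B CfsgLib.G2C CfsgLib.G2E CfsgLib.G2I

/-- Let F be a finite field with q elements, q odd, and for a multiplicative character α of F let R(α) be the function on SL₂ induced from the linear character b ↦ α(b₁₁) of the upper triangular subgroup. For multiplicative characters α, β the inner product of R(α) and R(β) equals the number of true statements among 'α = β' and 'α = β⁻¹' (the Mackey formula for the upper triangular subgroup, whose intersection with a conjugate by the Weyl element is the diagonal subgroup). -/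
theorem result {F : Type*} [Field F] [Fintype F] [DecidableEq F] (hodd : Odd (Fintype.card F))
    (α β : MulChar F ℂ) [Decidable (α = β)] [Decidable (α = β⁻¹)] :
    Cfsg.classInner (Cfsg.indFun ((Cfsg.upperTriangularGL 2 F).comap Matrix.SpecialLinearGroup.toGL) (fun b => α (((b : Matrix.SpecialLinearGroup (Fin 2) F) : Matrix (Fin 2) (Fin 2) F) 0 0))) (Cfsg.indFun ((Cfsg.upperTriangularGL 2 F).comap Matrix.SpecialLinearGroup.toGL) (fun b => β (((b : Matrix.SpecialLinearGroup (Fin 2) F) : Matrix (Fin 2) (Fin 2) F) 0 0))) =
      (if α = β then 1 else 0) + (if α = β⁻¹ then 1 else 0) := by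
  classical
  have h := (frSL F).inner_hom (fSL α) (fSL β) (fun a _ => α a) (fun a _ => β a) (fSL_apply α) (fSL_apply β)
  have e1 : fSL α = fSL β ↔ α = β := by
    constructor
    · intro h
      apply mulChar_ext_units
      intro a
      have h1 := congrArg (fun f => ((f ⟨dgSL a, dgSL_mem a⟩ : ℂˣ) : ℂ)) h
      exact h1
    · rintro rfl; rfl
  have e2 : fSL α = (fSL β).comp (frSL F).sw ↔ α = β⁻¹ := by
    rw [fSL_sw_iff, mul_eq_one_iff_eq_inv]
  refine Eq.trans h ?_
  simp only [e1, e2]

end Cfsg.Agent.S2432
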