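import Cfsg.Statements.S2433
import Cfsg.Agent.LibG2L

set_option autoImplicit false
open Cfsg

namespace Cfsg.Agent.S2433

open CfsgLib.G2A CfsgLib.G2B CfsgLib.G2C CfsgLib.G2E CfsgLib.G2I

/-- Let F be a finite field with q elements, q odd, α a multiplicative character of F, and R(α) the function on SL₂ induced from the linear character b ↦ α(b₁₁) of the upper triangular subgroup. Then R(α) takes the value α(a) + α(a⁻¹) at a diagonal element with entries a, a⁻¹, a² ≠ 1; the value 0 at every element with no eigenvector in F²; the value α(ε) at an upper triangular element with both diagonal entries ε and non-zero upper right entry; and the value (q + 1)α(ε) at the scalar element ε (ε = ±1). -/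
theorem result {F : Type*} [Field F] [Fintype F] [DecidableEq F] (hodd : Odd (Fintype.card F)) (α : MulChar F ℂ) (g : Matrix.SpecialLinearGroup (Fin 2) F) :
    ((g : Matrix (Fin 2) (Fin 2) F) 0 1 = 0 → (g : Matrix (Fin 2) (Fin 2) F) 1 0 = 0 → (g : Matrix (Fin 2) (Fin 2) F) 0 0 ^ 2 ≠ 1 →
      (Cfsg.indFun ((Cfsg.upperTriangularGL 2 F).comap Matrix.SpecialLinearGroup.toGL) (fun b => α (((b : Matrix.SpecialLinearGroup (Fin 2) F) : Matrix (Fin 2) (Fin 2) F) 0 0))) g = α ((g : Matrix (Fin 2) (Fin 2) F) 0 0) + α ((g : Matrix (Fin 2) (Fin 2) F) 1 1)) ∧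
    ((∀ (c : F) (v : Fin 2 → F), v ≠ 0 → (g : Matrix (Fin 2) (Fin 2) F).mulVec v ≠ c • v) → (Cfsg.indFun ((Cfsg.upperTriangularGL 2 F).comap Matrix.SpecialLinearGroup.toGL) (fun b => α (((b : Matrix.SpecialLinearGroup (Fin 2) F) : Matrix (Fin 2) (Fin 2) F) 0 0))) g = 0) ∧
    ((g : Matrix (Fin 2) (Fin 2) F) 1 0 = 0 → (g : Matrix (Fin 2) (Fin 2) F) 0 0 = (g : Matrix (Fin 2) (Fin 2) F) 1 1 → (g : Matrix (Fin 2) (Fin 2) F) 0 1 ≠ 0 →
      (Cfsg.indFun ((Cfsg.upperTriangularGL 2 F).comap Matrix.SpecialLinearGroup.toGL) (fun b => α (((b : Matrix.SpecialLinearGroup (Fin 2) F) : Matrix (Fin 2) (Fin 2) F) 0 0))) g = α ((g : Matrix (Fin 2) (Fin 2) F) 0 0)) ∧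
    ((g : Matrix (Fin 2) (Fin 2) F) 0 1 = 0 → (g : Matrix (Fin 2) (Fin 2) F) 1 0 = 0 → (g : Matrix (Fin 2) (Fin 2) F) 0 0 = (g : Matrix (Fin 2) (Fin 2) F) 1 1 →
      (Cfsg.indFun ((Cfsg.upperTriangularGL 2 F).comap Matrix.SpecialLinearGroup.toGL) (fun b => α (((b : Matrix.SpecialLinearGroup (Fin 2) F) : Matrix (Fin 2) (Fin 2) F) 0 0))) g = ((Fintype.card F : ℂ) + 1) * α ((g : Matrix (Fin 2) (Fin 2) F) 0 0)) := by
  have hd : (g : Matrix (Fin 2) (Fin 2) F) 0 0 * (g : Matrix (Fin 2) (Fin 2) F) 1 1 - (g : Matrix (Fin 2) (Fin 2) F) 0 1 * (g : Matrix (Fin 2) (Fin 2) F) 1 0 = 1 := by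
    rw [← Matrix.det_fin_two]; exact g.2
  refine ⟨?_, ?_, ?_, ?_⟩
  · intro h01 h10 ha
    have hne : (frSL F).mat g 0 0 ≠ (frSL F).mat g 1 1 := by
      intro e
      have e' : (g : Matrix (Fin 2) (Fin 2) F) 0 0 = (g : Matrix (Fin 2) (Fin 2) F) 1 1 := e
      apply ha
      rw [h01, zero_mul, sub_zero, ← e'] at hd
      rw [sq]; exact hd
    exact ind_diag (frSL F) (fun a _ => α a) (g := g) h01 h10 hne
  · intro h
    exact ind_ell (frSL F) (fun a _ => α a) (g := g) h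
  · intro h10 h00 h01
    exact ind_unip (frSL F) (fun a _ => α a) (g := g) h10 h00 h01
  · intro h01 h10 h00
    have h := (frSL F).ind_value (fun a _ => α a) g
    refine Eq.trans h ?_
    have e10 : (frSL F).mat g 1 0 = 0 := h10
    have e01 : (frSL F).mat g 0 1 = 0 := h01
    have e00 : (frSL F).mat g 0 0 = (frSL F).mat g 1 1 := h00
    rw [if_pos e10]
    have hs : ∀ c : F, (if (frSL F).mat g 0 1 + c * ((frSL F).mat g 0 0 - (frSL F).mat g 1 1) - c ^ 2 * (frSL F).mat g 1 0 = 0 then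
        α ((frSL F).mat g 1 1 + c * (frSL F).mat g 1 0) else 0) = α ((g : Matrix (Fin 2) (Fin 2) F) 0 0) := by
      intro c
      rw [if_pos (by rw [e10, e01, e00]; ring), e10, mul_zero, add_zero, ← e00]
      rfl
    rw [Finset.sum_congr rfl (fun c _ => hs c), Finset.sum_const, Finset.card_univ, nsmul_eq_mul]
    show α ((g : Matrix (Fin 2) (Fin 2) F) 0 0) + _ = _
    ring

end Cfsg.Agent.S2433
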