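import Cfsg.Statements.S2434
import Mathlib
import Cfsg.Agent.LibSLD15d
-- import your own Cfsg.Agent.* helpers here

set_option autoImplicit false
open Cfsg

namespace Cfsg.Agent.S2434

open CfsgLib.CharBasic CfsgLib.CharIndA CfsgLib.G2A CfsgLib.G2B CfsgLib.G2C CfsgLib.G2D CfsgLib.G2E CfsgLib.G2F CfsgLib.G2G CfsgLib.G2H CfsgLib.G2I CfsgLib.G2J CfsgLib.G2K CfsgLib.G2L CfsgLib.G2M CfsgLib.Tor CfsgLib.SLD15 Matrix

universe v
variable {F : Type v} [Field F] [Fintype F] [DecidableEq F]

theorem central_sc {C : Subgroup (SpecialLinearGroup (Fin 2) F)} (hC : NT C) {c : SpecialLinearGroup (Fin 2) F} (hc : c ∈ C)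
    (hz : c ∈ Subgroup.center (SpecialLinearGroup (Fin 2) F)) : c = 1 ∨ c = -1 := by
  by_cases hsc : IsSc (c : Matrix (Fin 2) (Fin 2) F)
  · exact sc_of _ hsc
  · exfalso
    have h1 := hC.cent c hc hsc
    have h2 : (frSL F).u 1 ∈ C := by
      rw [← h1, Subgroup.mem_centralizer_singleton_iff]
      exact (Subgroup.mem_center_iff.1 hz _)
    have h3 : (((frSL F).u 1 : SpecialLinearGroup (Fin 2) F) : Matrix (Fin 2) (Fin 2) F) = !![1, 1; 0, 1] := (frSL F).mat_u 1
    have h4 : ¬ IsSc (((frSL F).u 1 : SpecialLinearGroup (Fin 2) F) : Matrix (Fin 2) (Fin 2) F) := by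
      intro h
      have := h.1
      rw [h3] at this
      exact one_ne_zero this
    exact (hC.ell _ h2 h4).ne (by rw [h3]; rfl)

/-- Let F be a finite field with q elements, q odd, and C a cyclic subgroup of order q + 1 of SL₂ over F (a non-split torus; it contains the centre). For every homomorphism θ from C to the non-zero complex numbers with θ² ≠ 1 there is an irreducible complex character χ of degree q − 1 such that χ(c) = −θ(c) − θ(c)⁻¹ for every non-central c in C, χ(zg) = θ(z)χ(g) for central z in C, χ vanishes at diagonal elements with entry a, a² ≠ 1, and χ takes the value −1 at every upper unitriangular element other than 1. Conversely every irreducible character of degree q − 1 has, for some such θ, the values −θ(c) − θ(c)⁻¹ at the non-central elements c of C (for q ≥ 5 these are exactly the cuspidal characters of degree q − 1). -/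
theorem result {F : Type*} [Field F] [Fintype F] (hodd : Odd (Fintype.card F))
    (C : Subgroup (Matrix.SpecialLinearGroup (Fin 2) F)) (hC : IsCyclic C) (hcard : Nat.card C = Fintype.card F + 1) :
    (∀ θ : C →* ℂˣ, (∃ c : C, θ c ^ 2 ≠ 1) →
      ∃ χ : Matrix.SpecialLinearGroup (Fin 2) F → ℂ, Cfsg.IsIrrCharacter (Matrix.SpecialLinearGroup (Fin 2) F) χ ∧ χ 1 = (Fintype.card F : ℂ) - 1 ∧
        (∀ c : C, (c : Matrix.SpecialLinearGroup (Fin 2) F) ∉ Subgroup.center (Matrix.SpecialLinearGroup (Fin 2) F) → χ c = -((θ c).val + (θ c)⁻¹.val)) ∧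
        (∀ c : C, (c : Matrix.SpecialLinearGroup (Fin 2) F) ∈ Subgroup.center (Matrix.SpecialLinearGroup (Fin 2) F) → ∀ g : Matrix.SpecialLinearGroup (Fin 2) F, χ ((c : Matrix.SpecialLinearGroup (Fin 2) F) * g) = (θ c).val * χ g) ∧
        (∀ g : Matrix.SpecialLinearGroup (Fin 2) F, (g : Matrix (Fin 2) (Fin 2) F) 0 1 = 0 → (g : Matrix (Fin 2) (Fin 2) F) 1 0 = 0 → (g : Matrix (Fin 2) (Fin 2) F) 0 0 ^ 2 ≠ 1 → χ g = 0) ∧
        (∀ g : Matrix.SpecialLinearGroup (Fin 2) F, (g : Matrix (Fin 2) (Fin 2) F) 1 0 = 0 → (g : Matrix (Fin 2) (Fin 2) F) 0 0 = 1 → (g : Matrix (Fin 2) (Fin 2) F) 1 1 = 1 → (g : Matrix (Fin 2) (Fin 2) F) 0 1 ≠ 0 → χ g = -1)) ∧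
    (∀ χ : Matrix.SpecialLinearGroup (Fin 2) F → ℂ, Cfsg.IsIrrCharacter (Matrix.SpecialLinearGroup (Fin 2) F) χ → χ 1 = (Fintype.card F : ℂ) - 1 →
      ∃ θ : C →* ℂˣ, (∃ c : C, θ c ^ 2 ≠ 1) ∧
        ∀ c : C, (c : Matrix.SpecialLinearGroup (Fin 2) F) ∉ Subgroup.center (Matrix.SpecialLinearGroup (Fin 2) F) → χ c = -((θ c).val + (θ c)⁻¹.val)) := by
    classical
    have h2 := two_ne_of_odd hodd
    have hC' := nt_of hodd C hC hcard
    have hq2 : 2 ≤ Fintype.card F := Fintype.one_lt_card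
    have hq3 : 3 ≤ Fintype.card F := by
      obtain ⟨k, hk⟩ := hodd
      omega
    refine ⟨?_, ?_⟩
    · intro θ hθ
      obtain ⟨α, hα⟩ := exists_alpha h2 hC' θ
      refine ⟨chi C α θ, chi_irr hodd hC hcard hC' α hα hθ, chi_one hC' α θ, ?_, ?_, ?_, ?_⟩
      · intro c hc
        have hns : ¬ IsSc ((c : SpecialLinearGroup (Fin 2) F) : Matrix (Fin 2) (Fin 2) F) := by
          intro h
          exact hc (center_mem h2 _ (sc_of _ h))
        exact chi_ell hC' α θ c.2 hns
      · intro c hc g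
        rcases central_sc hC' c.2 hc with h | h
        · have hc1 : c = 1 := Subtype.ext h
          rw [hc1]
          simp
        · have hc1 : c = ⟨-1, hC'.neg⟩ := Subtype.ext h
          rw [hc1]
          exact chi_neg hC' α hα g
      · intro g h01 h10 hsq
        apply chi_split hC' α θ h10
        intro h00
        apply hsq
        have hd := g.2
        rw [Matrix.det_fin_two, h10, mul_zero, sub_zero, ← h00] at hd
        rw [sq]; exact hd
      · intro g h10 h00 h11 h01
        rw [chi_unip hC' α θ h10 (by rw [h00, h11]) h01, h00]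
        simp
    · intro χ hχ hdeg
      obtain ⟨ν, hν⟩ := FiniteField.exists_nonsquare (ringChar_ne_two h2)
      obtain ⟨ψ, hψ⟩ := exists_addChar (F := F)
      obtain ⟨K, a, b, m0, m1, m2, m3, ha, hb, hK, hK2, hK0, n1, n2, n3, n4, n5, n6⟩ := odd_main hodd hν hψ
      have hqm : (Fintype.card F : ℂ) - 1 ≠ 0 := by
        rw [sub_ne_zero]; exact_mod_cast (by omega : Fintype.card F ≠ 1)
      have hqz : (Fintype.card F : ℂ) ≠ 0 := by exact_mod_cast (by omega : Fintype.card F ≠ 0)
      -- the family of discrete series characters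
      have hex : ∀ θ : {θ : C →* ℂˣ // ∃ c : C, θ c ^ 2 ≠ 1}, ∃ χ : {χ : IrrCharacter (SpecialLinearGroup (Fin 2) F) // K χ = 0 ∧ a χ + b χ = 2},
          ∃ α : MulChar F ℂ, (χ.1 : SpecialLinearGroup (Fin 2) F → ℂ) = chi C α θ.1 := by
        intro θ
        obtain ⟨α, hα⟩ := exists_alpha h2 hC' θ.1
        have hirr := chi_irr hodd hC hcard hC' α hα θ.2
        refine ⟨⟨⟨chi C α θ.1, hirr⟩, ?_⟩, α, rfl⟩
        have k0 : K ⟨chi C α θ.1, hirr⟩ = 0 := by
          have h3 := m0 ⟨chi C α θ.1, hirr⟩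
          have h4 := chi_sum_u hC' α θ.1
          rw [show (∑ c : F, ((⟨chi C α θ.1, hirr⟩ : IrrCharacter (SpecialLinearGroup (Fin 2) F)) : SpecialLinearGroup (Fin 2) F → ℂ) ((frSL F).u c)) = 0 from h4] at h3
          have h5 := (mul_eq_zero.mp h3.symm).resolve_left hqz
          exact_mod_cast h5
        refine ⟨k0, ?_⟩
        have h3 := m1 ⟨chi C α θ.1, hirr⟩
        rw [k0, show ((⟨chi C α θ.1, hirr⟩ : IrrCharacter (SpecialLinearGroup (Fin 2) F)) : SpecialLinearGroup (Fin 2) F → ℂ) 1 = (Fintype.card F : ℂ) - 1 from chi_one hC' α θ.1] at h3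
        have h4 : ((Fintype.card F : ℂ) - 1) * (((a ⟨chi C α θ.1, hirr⟩ + b ⟨chi C α θ.1, hirr⟩ : ℕ)) : ℂ) = ((Fintype.card F : ℂ) - 1) * ((2 : ℕ) : ℂ) := by
          push_cast at h3 ⊢
          linear_combination -h3
        exact Nat.cast_injective (mul_left_cancel₀ hqm h4)
      choose Φ hΦ using hex
      letI : CommGroup C := IsCyclic.commGroup
      have hfin : Finite (C →* ℂˣ) := by
        apply Nat.finite_of_card_ne_zero
        rw [card_hom_of_comm]
        exact Nat.card_pos.ne'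
      letI : Fintype {θ : C →* ℂˣ // ∃ c : C, θ c ^ 2 ≠ 1} := Fintype.ofFinite _
      letI : Fintype {χ : IrrCharacter (SpecialLinearGroup (Fin 2) F) // K χ = 0 ∧ a χ + b χ = 2} := Fintype.ofFinite _
      obtain ⟨g0, hg0⟩ := hC.exists_generator
      have hord : orderOf (g0 : SpecialLinearGroup (Fin 2) F) = Fintype.card F + 1 := by
        rw [Subgroup.orderOf_coe, orderOf_eq_card_of_forall_mem_zpowers hg0, hcard]
      have hns : ¬ IsSc ((g0 : SpecialLinearGroup (Fin 2) F) : Matrix (Fin 2) (Fin 2) F) := by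
        intro h
        have h3 : (g0 : SpecialLinearGroup (Fin 2) F) ^ 2 = 1 := by
          rcases sc_of _ h with h | h <;> rw [h] <;> simp
        have h4 := Nat.le_of_dvd (by norm_num) (orderOf_dvd_of_pow_eq_one h3)
        rw [hord] at h4
        omega
      have hext : ∀ f f' : C →* ℂˣ, f g0 = f' g0 → f = f' := by
        intro f f' h
        ext x
        obtain ⟨k, rfl⟩ := Subgroup.mem_zpowers_iff.mp (hg0 x)
        rw [map_zpow, map_zpow, h]
      have hfib : ∀ y ∈ (Finset.univ : Finset {χ : IrrCharacter (SpecialLinearGroup (Fin 2) F) // K χ = 0 ∧ a χ + b χ = 2}),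
          ((Finset.univ : Finset {θ : C →* ℂˣ // ∃ c : C, θ c ^ 2 ≠ 1}).filter (fun θ => Φ θ = y)).card ≤ 2 := by
        intro y _
        rcases Finset.eq_empty_or_nonempty ((Finset.univ : Finset {θ : C →* ℂˣ // ∃ c : C, θ c ^ 2 ≠ 1}).filter (fun θ => Φ θ = y)) with h | ⟨θ0, h0⟩
        · rw [h]; simp
        · rw [Finset.mem_filter] at h0
          have hsub : ((Finset.univ : Finset {θ : C →* ℂˣ // ∃ c : C, θ c ^ 2 ≠ 1}).filter (fun θ => Φ θ = y)).image (fun θ => θ.1 g0) ⊆
              {θ0.1 g0, (θ0.1 g0)⁻¹} := by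
            intro z hz
            obtain ⟨θ, hθ, rfl⟩ := Finset.mem_image.1 hz
            rw [Finset.mem_filter] at hθ
            obtain ⟨α, hα⟩ := hΦ θ
            obtain ⟨α0, hα0⟩ := hΦ θ0
            have h3 : chi C α θ.1 (g0 : SpecialLinearGroup (Fin 2) F) = chi C α0 θ0.1 (g0 : SpecialLinearGroup (Fin 2) F) := by
              rw [← hα, ← hα0, hθ.2, h0.2]
            rw [chi_ell hC' α θ.1 g0.2 hns, chi_ell hC' α0 θ0.1 g0.2 hns] at h3
            have h4 : (θ.1 g0 : ℂ) + (((θ.1 g0)⁻¹ : ℂˣ) : ℂ) = (θ0.1 g0 : ℂ) + (((θ0.1 g0)⁻¹ : ℂˣ) : ℂ) := neg_injective h3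
            have h5 : (θ.1 g0 : ℂ) * (((θ.1 g0)⁻¹ : ℂˣ) : ℂ) = 1 := by rw [← Units.val_mul, mul_inv_cancel, Units.val_one]
            have h6 : (θ0.1 g0 : ℂ) * (((θ0.1 g0)⁻¹ : ℂˣ) : ℂ) = 1 := by rw [← Units.val_mul, mul_inv_cancel, Units.val_one]
            have h7 : ((θ.1 g0 : ℂ) - (θ0.1 g0 : ℂ)) * ((θ.1 g0 : ℂ) - (((θ0.1 g0)⁻¹ : ℂˣ) : ℂ)) = 0 := by
              linear_combination (θ.1 g0 : ℂ) * h4 - h5 + h6
            rw [Finset.mem_insert, Finset.mem_singleton]
            rcases mul_eq_zero.mp h7 with h8 | h8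
            · left; exact Units.ext (sub_eq_zero.mp h8)
            · right; exact Units.ext (sub_eq_zero.mp h8)
          have hinj : Set.InjOn (fun θ : {θ : C →* ℂˣ // ∃ c : C, θ c ^ 2 ≠ 1} => θ.1 g0)
              ((Finset.univ : Finset {θ : C →* ℂˣ // ∃ c : C, θ c ^ 2 ≠ 1}).filter (fun θ => Φ θ = y)) := by
            intro x _ z _ hxz
            exact Subtype.ext (hext _ _ hxz)
          rw [← Finset.card_image_of_injOn hinj]
          exact (Finset.card_le_card hsub).trans Finset.card_le_two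
      have hcT : Fintype.card F - 1 ≤ Fintype.card {θ : C →* ℂˣ // ∃ c : C, θ c ^ 2 ≠ 1} := by
        have := card_theta (C := C)
        rw [hcard, Nat.card_eq_fintype_card] at this
        omega
      have hsurj : ∀ y, ∃ θ, Φ θ = y := by
        intro y
        by_contra hcon
        push Not at hcon
        have hmaps : ∀ θ ∈ (Finset.univ : Finset {θ : C →* ℂˣ // ∃ c : C, θ c ^ 2 ≠ 1}), Φ θ ∈ (Finset.univ.erase y) := by
          intro θ _
          rw [Finset.mem_erase]
          exact ⟨hcon θ, Finset.mem_univ _⟩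
        have h3 := Finset.card_le_mul_card_image_of_maps_to hmaps 2 (fun z _ => hfib z (Finset.mem_univ _))
        rw [Finset.card_univ, Finset.card_erase_of_mem (Finset.mem_univ _), Finset.card_univ] at h3
        have e1 : Fintype.card {θ : C →* ℂˣ // ∃ c : C, θ c ^ 2 ≠ 1} = Nat.card {θ : C →* ℂˣ // ∃ c : C, θ c ^ 2 ≠ 1} :=
          Nat.card_eq_fintype_card.symm
        have e2 : Fintype.card {χ : IrrCharacter (SpecialLinearGroup (Fin 2) F) // K χ = 0 ∧ a χ + b χ = 2} =
            Nat.card {χ : IrrCharacter (SpecialLinearGroup (Fin 2) F) // K χ = 0 ∧ a χ + b χ = 2} := Nat.card_eq_fintype_card.symm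
        rw [e1, e2] at h3
        rw [e1] at hcT
        have hpos : 0 < Nat.card {χ : IrrCharacter (SpecialLinearGroup (Fin 2) F) // K χ = 0 ∧ a χ + b χ = 2} := by
          rw [← e2]; exact Fintype.card_pos_iff.2 ⟨y⟩
        have n6' : 2 * Nat.card {χ : IrrCharacter (SpecialLinearGroup (Fin 2) F) // K χ = 0 ∧ a χ + b χ = 2} = Fintype.card F - 1 := n6
        omega
      obtain ⟨θi, -⟩ : ∃ θ : {θ : C →* ℂˣ // ∃ c : C, θ c ^ 2 ≠ 1}, True := by
        by_contra hcon
        push Not at hcon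
        have : Fintype.card {θ : C →* ℂˣ // ∃ c : C, θ c ^ 2 ≠ 1} = 0 := by
          rw [Fintype.card_eq_zero_iff]
          exact ⟨fun θ => (hcon θ).elim⟩
        omega
      have key := nat2 (by omega : 1 ≤ Fintype.card F) (m1 ⟨χ, hχ⟩) (Fintype.card F - 1)
      have hdeg' : 2 * K ⟨χ, hχ⟩ + (Fintype.card F - 1) * (a ⟨χ, hχ⟩ + b ⟨χ, hχ⟩) = 2 * (Fintype.card F - 1) := by
        apply key.mp
        push_cast [Nat.cast_sub (by omega : 1 ≤ Fintype.card F)]
        exact hdeg
      have hty : (K ⟨χ, hχ⟩ = 0 ∧ a ⟨χ, hχ⟩ + b ⟨χ, hχ⟩ = 2) ∨ (Fintype.card F = 3 ∧ K ⟨χ, hχ⟩ = 1 ∧ a ⟨χ, hχ⟩ + b ⟨χ, hχ⟩ = 1) := by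
        have t1 := ha ⟨χ, hχ⟩
        have t2 := hb ⟨χ, hχ⟩
        have t3 := hK ⟨χ, hχ⟩
        have t4 := hK2 ⟨χ, hχ⟩
        have t5 := hK0 ⟨χ, hχ⟩
        generalize a ⟨χ, hχ⟩ = a' at *
        generalize b ⟨χ, hχ⟩ = b' at *
        generalize K ⟨χ, hχ⟩ = K' at *
        obtain ⟨k, hk⟩ := hodd
        interval_cases a' <;> interval_cases b' <;> interval_cases K' <;> omega
      rcases hty with hty | ⟨hq, hty⟩
      · obtain ⟨θ, hθ⟩ := hsurj ⟨⟨χ, hχ⟩, hty⟩
        refine ⟨θ.1, θ.2, ?_⟩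
        intro c hc
        obtain ⟨α, hα⟩ := hΦ θ
        rw [hθ] at hα
        have h3 : χ = chi C α θ.1 := hα
        have hnsc : ¬ IsSc ((c : SpecialLinearGroup (Fin 2) F) : Matrix (Fin 2) (Fin 2) F) := by
          intro h
          exact hc (center_mem h2 _ (sc_of _ h))
        rw [h3]
        exact chi_ell hC' α θ.1 c.2 hnsc
      · refine ⟨θi.1, θi.2, ?_⟩
        intro c hc
        have hnsc : ¬ IsSc ((c : SpecialLinearGroup (Fin 2) F) : Matrix (Fin 2) (Fin 2) F) := by
          intro h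
          exact hc (center_mem h2 _ (sc_of _ h))
        have h3 : χ c = 0 := half_zero hν hψ m0 m1 m2 m3 hodd n4 ⟨χ, hχ⟩ hty.1 hty.2 (hC'.ell _ c.2 hnsc)
        rw [h3]
        -- c has order four
        have hc4 : c ^ 4 = 1 := by
          have := pow_card_eq_one' (x := c)
          rwa [hcard, hq] at this
        have hθ2 : θi.1 c ^ 2 ≠ 1 := by
          intro h
          obtain ⟨c', hc'⟩ := θi.2
          apply hc'
          -- c generates C
          have hoc : orderOf c = 4 := by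
            have h5 : orderOf c ∣ 4 := orderOf_dvd_of_pow_eq_one hc4
            have h6 : ¬ orderOf c ∣ 2 := by
              intro h6
              apply hnsc
              have h7 : c ^ 2 = 1 := orderOf_dvd_iff_pow_eq_one.1 h6
              have h8 : (c : SpecialLinearGroup (Fin 2) F) * (c : SpecialLinearGroup (Fin 2) F) = 1 := by
                have := congrArg Subtype.val h7
                rw [sq] at this
                exact this
              rcases sq_one_sc h2 h8 with h9 | h9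
              · rw [h9]; exact ⟨by simp, by simp, by simp⟩
              · rw [h9]; exact ⟨by simp, by simp, by simp⟩
            have h7 : orderOf c ∈ Nat.divisors 4 := Nat.mem_divisors.2 ⟨h5, by norm_num⟩
            have h8 : Nat.divisors 4 = {1, 2, 4} := by decide
            rw [h8] at h7
            simp only [Finset.mem_insert, Finset.mem_singleton] at h7
            rcases h7 with h7 | h7 | h7
            · exact absurd (by rw [h7]; exact one_dvd 2) h6
            · exact absurd (by rw [h7]) h6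
            · exact h7
          have hgen : Subgroup.zpowers c = ⊤ := by
            apply Subgroup.eq_top_of_card_eq
            rw [Nat.card_zpowers, hoc, hcard, hq]
          have h10 : c' ∈ Subgroup.zpowers c := by rw [hgen]; exact Subgroup.mem_top _
          obtain ⟨k, rfl⟩ := Subgroup.mem_zpowers_iff.1 h10
          rw [map_zpow, ← zpow_natCast, ← _root_.zpow_mul, mul_comm, _root_.zpow_mul, zpow_natCast, h, _root_.one_zpow]
        have hθ4 : (θi.1 c ^ 2) ^ 2 = 1 := by
          rw [← pow_mul, ← map_pow, hc4, map_one]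
        have h5 : θi.1 c ^ 2 = -1 := (sq_eq_one_units hθ4).resolve_left hθ2
        have h6 : (θi.1 c : ℂ) * (((θi.1 c)⁻¹ : ℂˣ) : ℂ) = 1 := by rw [← Units.val_mul, mul_inv_cancel, Units.val_one]
        have h7 : (θi.1 c : ℂ) ^ 2 = -1 := by
          rw [← Units.val_pow_eq_pow_val, h5]; simp
        have h8 : (θi.1 c : ℂ) ≠ 0 := Units.ne_zero _
        have h9 : (θi.1 c : ℂ) * ((θi.1 c : ℂ) + (((θi.1 c)⁻¹ : ℂˣ) : ℂ)) = 0 := by linear_combination h7 + h6
        have h10 := (mul_eq_zero.mp h9).resolve_left h8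
        change (0 : ℂ) = -((θi.1 c : ℂ) + (((θi.1 c)⁻¹ : ℂˣ) : ℂ))
        rw [h10, neg_zero]

end Cfsg.Agent.S2434
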