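import Cfsg.Statements.S2435
import Mathlib
import Cfsg.Agent.LibSLD15e
-- import your own Cfsg.Agent.* helpers here

set_option autoImplicit false
open Cfsg

namespace Cfsg.Agent.S2435

open CfsgLib.CharBasic CfsgLib.CharIndA CfsgLib.G2A CfsgLib.G2B CfsgLib.G2C CfsgLib.G2D CfsgLib.G2E CfsgLib.G2F CfsgLib.G2G CfsgLib.G2H CfsgLib.G2I CfsgLib.G2J CfsgLib.G2K CfsgLib.G2L CfsgLib.G2M CfsgLib.Tor CfsgLib.SLD15 Matrix

universe v
variable {F : Type v} [Field F] [Fintype F] [DecidableEq F]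

theorem dgSL_mul (a b : Fˣ) : (dgSL (a * b) : SpecialLinearGroup (Fin 2) F) = dgSL a * dgSL b := by
  apply Subtype.ext
  change (!![((a * b : Fˣ) : F), 0; 0, (((a * b)⁻¹ : Fˣ) : F)] : Matrix (Fin 2) (Fin 2) F) =
    !![(a : F), 0; 0, ((a⁻¹ : Fˣ) : F)] * !![(b : F), 0; 0, ((b⁻¹ : Fˣ) : F)]
  apply ext2
  · simp
  · simp
  · simp
  · simp [mul_comm]

theorem dgSL_one : (dgSL 1 : SpecialLinearGroup (Fin 2) F) = 1 := by
  apply Subtype.ext
  change (!![((1 : Fˣ) : F), 0; 0, (((1 : Fˣ)⁻¹ : Fˣ) : F)] : Matrix (Fin 2) (Fin 2) F) = 1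
  apply ext2 <;> simp

noncomputable def dgHom : Fˣ →* (frSL F).B where
  toFun a := ⟨dgSL a, dgSL_mem a⟩
  map_one' := Subtype.ext dgSL_one
  map_mul' a b := Subtype.ext (dgSL_mul a b)

theorem diag_eq {g : SpecialLinearGroup (Fin 2) F} (h01 : (g : Matrix (Fin 2) (Fin 2) F) 0 1 = 0) (h10 : (g : Matrix (Fin 2) (Fin 2) F) 1 0 = 0) :
    ∃ a : Fˣ, g = dgSL a := by
  have hd := g.2
  rw [Matrix.det_fin_two, h10, mul_zero, sub_zero] at hd
  refine ⟨Units.mk ((g : Matrix (Fin 2) (Fin 2) F) 0 0) ((g : Matrix (Fin 2) (Fin 2) F) 1 1) hd (by rw [mul_comm]; exact hd), ?_⟩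
  apply Subtype.ext
  apply ext2
  · rfl
  · exact h01
  · exact h10
  · rfl

theorem dg_inv (a : Fˣ) : (frSL F).sw ⟨dgSL a, dgSL_mem a⟩ = ⟨dgSL a⁻¹, dgSL_mem a⁻¹⟩ := by
  apply Subtype.ext
  apply (frSL F).inj
  rw [(frSL F).mat_sw]
  change (!![((dgSL a : SpecialLinearGroup (Fin 2) F) : Matrix (Fin 2) (Fin 2) F) 1 1, 0; 0, ((dgSL a : SpecialLinearGroup (Fin 2) F) : Matrix (Fin 2) (Fin 2) F) 0 0] : Matrix (Fin 2) (Fin 2) F) =
    !![((a⁻¹ : Fˣ) : F), 0; 0, (((a⁻¹)⁻¹ : Fˣ) : F)]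
  rw [inv_inv]
  rfl

/-- the split case -/
theorem split_case (hodd : Odd (Fintype.card F)) (hq : 5 ≤ Fintype.card F) {χ ψ' : IrrCharacter (SpecialLinearGroup (Fin 2) F)}
    (hdeg : (χ : SpecialLinearGroup (Fin 2) F → ℂ) 1 ≠ 1) (hdeg' : (ψ' : SpecialLinearGroup (Fin 2) F → ℂ) 1 ≠ 1) {f : (frSL F).B →* ℂˣ} {L : F → F → ℂ} (hL : ∀ b, (frSL F).lam L b = (f b : ℂ))
    (hI : indFun (frSL F).B ((frSL F).lam L) = (χ : SpecialLinearGroup (Fin 2) F → ℂ) + (ψ' : SpecialLinearGroup (Fin 2) F → ℂ))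
    (hσ : ∀ ν' : Fˣ, ¬ IsSquare (ν' : F) → ∀ g, (ψ' : SpecialLinearGroup (Fin 2) F → ℂ) g = (χ : SpecialLinearGroup (Fin 2) F → ℂ) (sgm ν' g))
    (a : Fˣ) (ha : (a : F) ^ 2 ≠ 1) : (IsSquare (a : F) → (χ : SpecialLinearGroup (Fin 2) F → ℂ) (dgSL a) = 1) ∧
      (¬ IsSquare (a : F) → (χ : SpecialLinearGroup (Fin 2) F → ℂ) (dgSL a) = -1) := by
  classical
  have h2 := two_ne_of_odd hodd
  obtain ⟨ν, hν⟩ := FiniteField.exists_nonsquare (ringChar_ne_two h2)
  have hν0 : ν ≠ 0 := fun h => hν (h ▸ IsSquare.zero)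
  have hnirr : ¬ IsIrrCharacter (SpecialLinearGroup (Fin 2) F) (indFun (frSL F).B ((frSL F).lam L)) := by
    rw [hI]
    intro h
    have h3 := irr_inner_self h
    obtain ⟨n, hn⟩ := char_mult (irr_isCharacter χ.2) (irr_isCharacter ψ'.2)
    obtain ⟨k, hk⟩ := char_mult (irr_isCharacter ψ'.2) (irr_isCharacter χ.2)
    rw [CfsgLib.CharBasic.inner_add_left, CfsgLib.CharBasic.inner_add_right, CfsgLib.CharBasic.inner_add_right,
      irr_inner_self χ.2, irr_inner_self ψ'.2, hn, hk] at h3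
    have h5 : 1 + n + (k + 1) = 1 := by exact_mod_cast h3
    omega
  have hfs : f = f.comp (frSL F).sw := by
    by_contra h
    exact hnirr ((irr_ind_iff (frSL F) hL).2 h)
  let m : Fˣ →* ℂˣ := f.comp dgHom
  have hm1 : ∀ x : Fˣ, m x * m x = 1 := by
    intro x
    have h3 : f ⟨dgSL x, dgSL_mem x⟩ = f ⟨dgSL x⁻¹, dgSL_mem x⁻¹⟩ := by
      conv_lhs => rw [hfs]
      rw [MonoidHom.comp_apply, dg_inv]
    have h4 : m x = m x⁻¹ := h3
    nth_rewrite 2 [h4]
    rw [← map_mul, mul_inv_cancel, map_one]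
  have hfnt : f ≠ 1 := by
    intro h
    have h3 : classInner (1 : SpecialLinearGroup (Fin 2) F → ℂ) (indFun (frSL F).B ((frSL F).lam L)) = 1 := by
      let _ : Fintype (frSL F).B := Fintype.ofFinite _
      have hcf : IsClassFunction (SpecialLinearGroup (Fin 2) F) (1 : SpecialLinearGroup (Fin 2) F → ℂ) := fun _ _ => rfl
      rw [frobenius' _ _ hcf]
      have e1 : (frSL F).lam L = fun b => (((1 : (frSL F).B →* ℂˣ) b : ℂˣ) : ℂ) := by
        funext b
        rw [hL, h]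
      have e2 : (fun b : (frSL F).B => (1 : SpecialLinearGroup (Fin 2) F → ℂ) (b : SpecialLinearGroup (Fin 2) F)) = fun b => (((1 : (frSL F).B →* ℂˣ) b : ℂˣ) : ℂ) := by
        funext b
        simp
      rw [e1, e2]
      exact irr_inner_self (isIrrCharacter_hom _)
    have h1irr : IsIrrCharacter (SpecialLinearGroup (Fin 2) F) (1 : SpecialLinearGroup (Fin 2) F → ℂ) := by
      have := isIrrCharacter_hom (1 : SpecialLinearGroup (Fin 2) F →* ℂˣ)
      have e : (fun g : SpecialLinearGroup (Fin 2) F => (((1 : SpecialLinearGroup (Fin 2) F →* ℂˣ) g : ℂˣ) : ℂ)) = 1 := by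
        funext g; simp
      rwa [e] at this
    rw [hI, CfsgLib.CharBasic.inner_add_right, irr_inner_ne h1irr χ.2 (fun h => hdeg (by rw [← h]; rfl)),
      irr_inner_ne h1irr ψ'.2 (fun h => hdeg' (by rw [← h]; rfl))] at h3
    norm_num at h3
  have hmnt : ∃ x : Fˣ, m x ≠ 1 := by
    by_contra hcon
    push Not at hcon
    apply hfnt
    ext b
    have h3 : f b = f ⟨dgSL (Units.mk (((b : SpecialLinearGroup (Fin 2) F) : Matrix (Fin 2) (Fin 2) F) 0 0) (((b : SpecialLinearGroup (Fin 2) F) : Matrix (Fin 2) (Fin 2) F) 1 1) (by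
        have hd := (b : SpecialLinearGroup (Fin 2) F).2
        have h10 : ((b : SpecialLinearGroup (Fin 2) F) : Matrix (Fin 2) (Fin 2) F) 1 0 = 0 := ((frSL F).mem_B _).1 b.2
        rw [Matrix.det_fin_two, h10, mul_zero, sub_zero] at hd
        exact hd) (by
        have hd := (b : SpecialLinearGroup (Fin 2) F).2
        have h10 : ((b : SpecialLinearGroup (Fin 2) F) : Matrix (Fin 2) (Fin 2) F) 1 0 = 0 := ((frSL F).mem_B _).1 b.2
        rw [Matrix.det_fin_two, h10, mul_zero, sub_zero, mul_comm] at hd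
        exact hd)), dgSL_mem _⟩ := by
      apply Units.ext
      rw [← hL, ← hL]
      rfl
    rw [h3]
    have := hcon (Units.mk (((b : SpecialLinearGroup (Fin 2) F) : Matrix (Fin 2) (Fin 2) F) 0 0) (((b : SpecialLinearGroup (Fin 2) F) : Matrix (Fin 2) (Fin 2) F) 1 1) (by
        have hd := (b : SpecialLinearGroup (Fin 2) F).2
        have h10 : ((b : SpecialLinearGroup (Fin 2) F) : Matrix (Fin 2) (Fin 2) F) 1 0 = 0 := ((frSL F).mem_B _).1 b.2
        rw [Matrix.det_fin_two, h10, mul_zero, sub_zero] at hd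
        exact hd) (by
        have hd := (b : SpecialLinearGroup (Fin 2) F).2
        have h10 : ((b : SpecialLinearGroup (Fin 2) F) : Matrix (Fin 2) (Fin 2) F) 1 0 = 0 := ((frSL F).mem_B _).1 b.2
        rw [Matrix.det_fin_two, h10, mul_zero, sub_zero, mul_comm] at hd
        exact hd))
    exact congrArg Units.val this
  have hms : ∀ x : Fˣ, IsSquare (x : F) → m x = 1 := by
    rintro x ⟨y, hy⟩
    have hy0 : y ≠ 0 := by
      rintro rfl
      rw [mul_zero] at hy
      exact x.ne_zero hy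
    have : x = Units.mk0 y hy0 * Units.mk0 y hy0 := Units.ext hy
    rw [this, map_mul, hm1]
  have hmn : ∀ x : Fˣ, ¬ IsSquare (x : F) → m x = -1 := by
    intro x hx
    have h3 : m x = 1 ∨ m x = -1 := sq_eq_one_units (by rw [sq]; exact hm1 x)
    rcases h3 with h3 | h3
    · exfalso
      obtain ⟨y, hy⟩ := hmnt
      apply hy
      by_cases hys : IsSquare (y : F)
      · exact hms y hys
      · have h4 : IsSquare ((x * y : Fˣ) : F) := by
          rw [Units.val_mul]
          exact isSquare_mul_of_not hx hys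
        have h5 := hms _ h4
        rw [map_mul, h3, one_mul] at h5
        exact h5
    · exact h3
  have hsg : sgm (Units.mk0 ν hν0) (dgSL a) = dgSL a := by
    apply Subtype.ext
    rw [sgm_coe]
    apply ext2
    · rfl
    · change ((Units.mk0 ν hν0 : Fˣ) : F) * 0 = 0
      rw [mul_zero]
    · change (((Units.mk0 ν hν0 : Fˣ)⁻¹ : Fˣ) : F) * 0 = 0
      rw [mul_zero]
    · rfl
  have hval : 2 * (χ : SpecialLinearGroup (Fin 2) F → ℂ) (dgSL a) = 2 * (m a : ℂ) := by
    have h3 := congrFun hI (dgSL a)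
    have h4 := hσ (Units.mk0 ν hν0) hν (dgSL a)
    rw [hsg] at h4
    rw [Pi.add_apply, h4] at h3
    have hne : (frSL F).mat (dgSL a) 0 0 ≠ (frSL F).mat (dgSL a) 1 1 := by
      intro h
      apply ha
      have h5 : (a : F) = ((a⁻¹ : Fˣ) : F) := h
      rw [sq]
      nth_rewrite 2 [h5]
      simp
    rw [ind_diag (frSL F) L (g := dgSL a) rfl rfl hne] at h3
    have h5 : L ((frSL F).mat (dgSL a) 0 0) ((frSL F).mat (dgSL a) 1 1) = (m a : ℂ) := hL ⟨dgSL a, dgSL_mem a⟩
    have h6 : L ((frSL F).mat (dgSL a) 1 1) ((frSL F).mat (dgSL a) 0 0) = (m a⁻¹ : ℂ) := by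
      have h7 := hL ⟨dgSL a⁻¹, dgSL_mem a⁻¹⟩
      have h8 : (frSL F).lam L ⟨dgSL a⁻¹, dgSL_mem a⁻¹⟩ = L ((a⁻¹ : Fˣ) : F) (((a⁻¹)⁻¹ : Fˣ) : F) := rfl
      rw [h8, inv_inv] at h7
      exact h7
    have h9 : m a⁻¹ = m a := by
      rw [map_inv]
      exact inv_eq_of_mul_eq_one_left (hm1 a)
    rw [h5, h6, h9] at h3
    linear_combination -h3
  have hval' := mul_left_cancel₀ two_ne_zero hval
  constructor
  · intro hs
    rw [hval', hms a hs, Units.val_one]
  · intro hs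
    rw [hval', hmn a hs]
    simp

/-- Let F be a finite field with q elements, q odd and q ≥ 5, and χ an irreducible complex character of SL₂ over F. If χ has degree (q + 1)/2, then at a diagonal element with entry a, a² ≠ 1, χ takes the value 1 when a is a square in F and −1 otherwise. If χ has degree (q − 1)/2, then at an element g with no eigenvector in F² (so g has order dividing q + 1), χ takes the value −1 when g raised to the power (q + 1)/2 is the identity and the value 1 otherwise. -/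
theorem result {F : Type*} [Field F] [Fintype F] (hodd : Odd (Fintype.card F)) (hq : 5 ≤ Fintype.card F)
    (χ : Matrix.SpecialLinearGroup (Fin 2) F → ℂ) (hχ : Cfsg.IsIrrCharacter (Matrix.SpecialLinearGroup (Fin 2) F) χ) (g : Matrix.SpecialLinearGroup (Fin 2) F) :
    (χ 1 = (((Fintype.card F + 1) / 2 : ℕ) : ℂ) → (g : Matrix (Fin 2) (Fin 2) F) 0 1 = 0 → (g : Matrix (Fin 2) (Fin 2) F) 1 0 = 0 → (g : Matrix (Fin 2) (Fin 2) F) 0 0 ^ 2 ≠ 1 →
      (IsSquare ((g : Matrix (Fin 2) (Fin 2) F) 0 0) → χ g = 1) ∧ (¬ IsSquare ((g : Matrix (Fin 2) (Fin 2) F) 0 0) → χ g = -1)) ∧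
    (χ 1 = (((Fintype.card F - 1) / 2 : ℕ) : ℂ) → (∀ (c : F) (v : Fin 2 → F), v ≠ 0 → (g : Matrix (Fin 2) (Fin 2) F).mulVec v ≠ c • v) →
      (((g ^ ((Fintype.card F + 1) / 2)) : Matrix (Fin 2) (Fin 2) F) = 1 → χ g = -1) ∧ (((g ^ ((Fintype.card F + 1) / 2)) : Matrix (Fin 2) (Fin 2) F) ≠ 1 → χ g = 1)) := by
    classical
    have h2 := two_ne_of_odd hodd
    obtain ⟨ν, hν⟩ := FiniteField.exists_nonsquare (ringChar_ne_two h2)
    have hν0 : ν ≠ 0 := fun h => hν (h ▸ IsSquare.zero)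
    obtain ⟨ψ, hψ⟩ := exists_addChar (F := F)
    obtain ⟨K, a, b, m0, m1, m2, m3, ha, hb, hK, hK2, hK0, n1, n2, n3, n4, n5, n6⟩ := odd_main hodd hν hψ
    have key : ∀ χ : IrrCharacter (Matrix.SpecialLinearGroup (Fin 2) F), ∀ n : ℕ,
        (χ : Matrix.SpecialLinearGroup (Fin 2) F → ℂ) 1 = (n : ℂ) ↔ 2 * K χ + (Fintype.card F - 1) * (a χ + b χ) = 2 * n :=
      fun χ => nat2 (by omega : 1 ≤ Fintype.card F) (m1 χ)
    have tt := type_iff hq hodd (ha ⟨χ, hχ⟩) (hb ⟨χ, hχ⟩) (hK ⟨χ, hχ⟩) (hK2 ⟨χ, hχ⟩) (hK0 ⟨χ, hχ⟩)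
    refine ⟨?_, ?_⟩
    · intro hdeg h01 h10 hsq
      have hty := tt.2.2.2.2.1.mp ((key ⟨χ, hχ⟩ _).mp hdeg)
      obtain ⟨f, L, hL, ψ', hne, k1, s1, hI, hσ⟩ := halves hν hψ m0 m1 m2 m3 hodd n4 ⟨χ, hχ⟩ hty.1 hty.2
      obtain ⟨a', rfl⟩ := diag_eq h01 h10
      have hd1 : ∀ χ : IrrCharacter (Matrix.SpecialLinearGroup (Fin 2) F), K χ = 1 → a χ + b χ = 1 →
          (χ : Matrix.SpecialLinearGroup (Fin 2) F → ℂ) 1 ≠ 1 := by
        intro χ q1 q2 h
        have h3 := (key χ 1).mp (by rw [h]; simp)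
        rw [q1, q2] at h3
        omega
      have hpar : ∀ ν' : Fˣ, ¬ IsSquare (ν' : F) → ∀ g, (ψ' : SpecialLinearGroup (Fin 2) F → ℂ) g = χ (sgm ν' g) := by
        intro ν' hν'
        obtain ⟨K', a'', b'', m0', m1', m2', m3', ha', hb', hK', hK2', hK0', n1', n2', n3', n4', n5', n6'⟩ := odd_main hodd hν' hψ
        have tt' := fun χ : IrrCharacter (Matrix.SpecialLinearGroup (Fin 2) F) => type_iff hq hodd (ha' χ) (hb' χ) (hK' χ) (hK2' χ) (hK0' χ)
        have key' : ∀ χ : IrrCharacter (Matrix.SpecialLinearGroup (Fin 2) F), ∀ n : ℕ,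
          (χ : Matrix.SpecialLinearGroup (Fin 2) F → ℂ) 1 = (n : ℂ) ↔ 2 * K' χ + (Fintype.card F - 1) * (a'' χ + b'' χ) = 2 * n :=
          fun χ => nat2 (by omega : 1 ≤ Fintype.card F) (m1' χ)
        have e1 := (tt' ⟨χ, hχ⟩).2.2.2.2.1.mp ((key' ⟨χ, hχ⟩ _).mp hdeg)
        have hdeg2 : (ψ' : Matrix.SpecialLinearGroup (Fin 2) F → ℂ) 1 = (((Fintype.card F + 1) / 2 : ℕ) : ℂ) := by
          rw [key ψ']
          exact (type_iff hq hodd (ha ψ') (hb ψ') (hK ψ') (hK2 ψ') (hK0 ψ')).2.2.2.2.1.mpr ⟨k1, s1⟩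
        have e2 := (tt' ψ').2.2.2.2.1.mp ((key' ψ' _).mp hdeg2)
        exact partner hν' hψ m1' m2' m3' h2 ν' rfl 1 n4' ⟨χ, hχ⟩ ψ' e1 e2 hne.symm
      exact split_case hodd hq (hd1 ⟨χ, hχ⟩ hty.1 hty.2) (hd1 ψ' k1 s1) hL hI hpar a' hsq
    · intro hdeg hell
      have hty := tt.2.2.2.2.2.mp ((key ⟨χ, hχ⟩ _).mp hdeg)
      have hTc := card_TN h2 hν
      have hcyc := cyc_TN (F := F) hν
      have hC := nt_of hodd (TJ (JN ν)) hcyc hTc
      obtain ⟨x, hx⟩ := hall_of hodd hcyc hTc g hell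
      set k := (Fintype.card F + 1) / 2 with hk
      have hk2 : k * 2 = Fintype.card F + 1 := by
        obtain ⟨l, hl⟩ := hodd
        omega
      have hck : ∀ c : TJ (JN ν), (c : SpecialLinearGroup (Fin 2) F) ^ k = 1 ∨ (c : SpecialLinearGroup (Fin 2) F) ^ k = -1 := by
        intro c
        apply sq_one_sc h2
        rw [← sq, ← pow_mul, hk2, ← hTc, ← Subgroup.coe_pow, pow_card_eq_one']
        rfl
      have hm1 : (-1 : SpecialLinearGroup (Fin 2) F) ≠ 1 := neg_one_ne h2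
      let θ : TJ (JN ν) →* ℂˣ :=
        { toFun := fun c => if (c : SpecialLinearGroup (Fin 2) F) ^ k = 1 then 1 else -1
          map_one' := by simp
          map_mul' := fun c d => by
            have hcd : ((c * d : TJ (JN ν)) : SpecialLinearGroup (Fin 2) F) ^ k = (c : SpecialLinearGroup (Fin 2) F) ^ k * (d : SpecialLinearGroup (Fin 2) F) ^ k := by
              rw [Subgroup.coe_mul]
              exact (show Commute (c : SpecialLinearGroup (Fin 2) F) (d : SpecialLinearGroup (Fin 2) F) from hC.comm _ c.2 _ d.2).mul_pow k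
            rw [hcd]
            rcases hck c with h | h <;> rcases hck d with h' | h' <;> rw [h, h'] <;> simp [hm1] }
      have hθ2 : ∀ c, θ c ^ 2 = 1 := by
        intro c
        change (if (c : SpecialLinearGroup (Fin 2) F) ^ k = 1 then (1 : ℂˣ) else -1) ^ 2 = 1
        split_ifs <;> simp
      obtain ⟨g0, hg0⟩ := hcyc.exists_generator
      have hord : orderOf (g0 : SpecialLinearGroup (Fin 2) F) = Fintype.card F + 1 := by
        rw [Subgroup.orderOf_coe, orderOf_eq_card_of_forall_mem_zpowers hg0, hTc]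
      have hns0 : ¬ IsSc ((g0 : SpecialLinearGroup (Fin 2) F) : Matrix (Fin 2) (Fin 2) F) := by
        intro h
        have h3 : (g0 : SpecialLinearGroup (Fin 2) F) ^ 2 = 1 := by
          rcases sc_of _ h with h | h <;> rw [h] <;> simp
        have h4 := Nat.le_of_dvd (by norm_num) (orderOf_dvd_of_pow_eq_one h3)
        rw [hord] at h4
        omega
      have hθ0 : θ g0 = -1 := by
        change (if (g0 : SpecialLinearGroup (Fin 2) F) ^ k = 1 then (1 : ℂˣ) else -1) = -1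
        rw [if_neg]
        intro h
        have := Nat.le_of_dvd (by omega) (orderOf_dvd_of_pow_eq_one h)
        rw [hord] at this
        omega
      have hns : ¬ IsSc ((x * g * x⁻¹ : SpecialLinearGroup (Fin 2) F) : Matrix (Fin 2) (Fin 2) F) := by
        intro h
        have hne : g = 1 ∨ g = -1 := by
          rcases sc_of _ h with h3 | h3
          · left
            have := congrArg (fun z => x⁻¹ * z * x) h3
            simpa [mul_assoc] using this
          · right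
            have := congrArg (fun z => x⁻¹ * z * x) h3
            simpa [mul_assoc] using this
        have hell' : Ell (g : Matrix (Fin 2) (Fin 2) F) := hell
        apply hell'.ne
        rcases hne with rfl | rfl <;> simp
      have hv := half_disc hodd hcyc hTc hC hθ2 g0.2 hns0 hθ0 hν hψ m0 m1 m2 m3 ha hb hK hK2 hK0 n5 ⟨χ, hχ⟩ hty.1 hty.2 hx hns
      have hv2 : χ g = -(θ ⟨x * g * x⁻¹, hx⟩ : ℂ) := by
        rw [← hv]
        exact (irr_classFun hχ g x).symm
      have hpow : (x * g * x⁻¹) ^ k = x * g ^ k * x⁻¹ := by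
        rw [← MulAut.conj_apply, ← map_pow, MulAut.conj_apply]
      have hcast : (((g ^ k : SpecialLinearGroup (Fin 2) F)) : Matrix (Fin 2) (Fin 2) F) = (g : Matrix (Fin 2) (Fin 2) F) ^ k := by
        simp
      have hiff : (x * g * x⁻¹) ^ k = 1 ↔ g ^ k = 1 := by
        rw [hpow]
        constructor
        · intro h
          have := congrArg (fun z => x⁻¹ * z * x) h
          simpa [mul_assoc] using this
        · intro h
          rw [h]; simp
      have hθv : θ ⟨x * g * x⁻¹, hx⟩ = if (x * g * x⁻¹) ^ k = 1 then 1 else -1 := rfl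
      constructor
      · intro h
        have h3 : g ^ k = 1 := Subtype.ext (by first | exact h | (rw [hcast]; exact h))
        rw [hv2, hθv, if_pos (hiff.2 h3)]
        simp
      · intro h
        have h3 : ¬ g ^ k = 1 := by
          intro h3
          apply h
          have h4 := congrArg Subtype.val h3
          first | exact h4 | (rw [hcast] at h4; exact h4)
        rw [hv2, hθv, if_neg (fun h4 => h3 (hiff.1 h4))]
        simp

end Cfsg.Agent.S2435
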