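import Cfsg.Statements.S2438
import Cfsg.Agent.LibG2L

set_option autoImplicit false
open Cfsg

namespace Cfsg.Agent.S2438

open CfsgLib.CharBasic CfsgLib.G2A CfsgLib.G2B CfsgLib.G2C CfsgLib.G2D CfsgLib.G2E CfsgLib.G2F CfsgLib.G2G CfsgLib.G2H CfsgLib.G2I CfsgLib.G2J CfsgLib.G2K CfsgLib.G2L

/-- Let F be a finite field with q elements, q odd, q ≥ 5, U the upper unitriangular subgroup of SL₂ over F, and χ an irreducible complex character. The sum of the values of χ over U equals 2q, q, 0, q, 0 according as the degree of χ is q + 1, q, q − 1, (q + 1)/2, (q − 1)/2; so among these five degrees the sum vanishes exactly for the degrees q − 1 and (q − 1)/2, i.e. the irreducible characters of those two degrees are the ones whose restriction to U does not contain the trivial character (the cuspidal characters), while those of degree q + 1, q and (q + 1)/2 are not cuspidal. -/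
theorem result {F : Type*} [Field F] [Fintype F] [DecidableEq F] (hodd : Odd (Fintype.card F)) (hq : 5 ≤ Fintype.card F)
    (χ : Matrix.SpecialLinearGroup (Fin 2) F → ℂ) (hχ : Cfsg.IsIrrCharacter (Matrix.SpecialLinearGroup (Fin 2) F) χ) :
    (χ 1 = (Fintype.card F : ℂ) + 1 →
      (∑ g : Matrix.SpecialLinearGroup (Fin 2) F, if (g : Matrix (Fin 2) (Fin 2) F) 1 0 = 0 ∧ (g : Matrix (Fin 2) (Fin 2) F) 0 0 = 1 ∧ (g : Matrix (Fin 2) (Fin 2) F) 1 1 = 1 then χ g else 0) = 2 * (Fintype.card F : ℂ)) ∧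
    (χ 1 = (Fintype.card F : ℂ) →
      (∑ g : Matrix.SpecialLinearGroup (Fin 2) F, if (g : Matrix (Fin 2) (Fin 2) F) 1 0 = 0 ∧ (g : Matrix (Fin 2) (Fin 2) F) 0 0 = 1 ∧ (g : Matrix (Fin 2) (Fin 2) F) 1 1 = 1 then χ g else 0) = (Fintype.card F : ℂ)) ∧
    (χ 1 = (Fintype.card F : ℂ) - 1 →
      (∑ g : Matrix.SpecialLinearGroup (Fin 2) F, if (g : Matrix (Fin 2) (Fin 2) F) 1 0 = 0 ∧ (g : Matrix (Fin 2) (Fin 2) F) 0 0 = 1 ∧ (g : Matrix (Fin 2) (Fin 2) F) 1 1 = 1 then χ g else 0) = 0) ∧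
    (χ 1 = (((Fintype.card F + 1) / 2 : ℕ) : ℂ) →
      (∑ g : Matrix.SpecialLinearGroup (Fin 2) F, if (g : Matrix (Fin 2) (Fin 2) F) 1 0 = 0 ∧ (g : Matrix (Fin 2) (Fin 2) F) 0 0 = 1 ∧ (g : Matrix (Fin 2) (Fin 2) F) 1 1 = 1 then χ g else 0) = (Fintype.card F : ℂ)) ∧
    (χ 1 = (((Fintype.card F - 1) / 2 : ℕ) : ℂ) →
      (∑ g : Matrix.SpecialLinearGroup (Fin 2) F, if (g : Matrix (Fin 2) (Fin 2) F) 1 0 = 0 ∧ (g : Matrix (Fin 2) (Fin 2) F) 0 0 = 1 ∧ (g : Matrix (Fin 2) (Fin 2) F) 1 1 = 1 then χ g else 0) = 0) := by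
  classical
  have h20 := two_ne_of_odd hodd
  obtain ⟨ν, hν⟩ := FiniteField.exists_nonsquare (ringChar_ne_two h20)
  obtain ⟨ψ, hψ⟩ := exists_addChar (F := F)
  obtain ⟨K, a, b, h0, h1, h2, h3, ha, hb, hK, hK2, hK0, n1, n2, n3, n4, n5, n6⟩ := odd_main hodd hν hψ
  have key : ∀ χ : IrrCharacter (Matrix.SpecialLinearGroup (Fin 2) F), ∀ n : ℕ,
      (χ : Matrix.SpecialLinearGroup (Fin 2) F → ℂ) 1 = (n : ℂ) ↔ 2 * K χ + (Fintype.card F - 1) * (a χ + b χ) = 2 * n :=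
    fun χ => nat2 (by omega : 1 ≤ Fintype.card F) (h1 χ)
  have tt := type_iff hq hodd (ha ⟨χ, hχ⟩) (hb ⟨χ, hχ⟩) (hK ⟨χ, hχ⟩) (hK2 ⟨χ, hχ⟩) (hK0 ⟨χ, hχ⟩)
  have e2 : (Fintype.card F : ℂ) + 1 = ((Fintype.card F + 1 : ℕ) : ℂ) := by push_cast; ring
  have e3 : (Fintype.card F : ℂ) - 1 = ((Fintype.card F - 1 : ℕ) : ℂ) := by push_cast [Nat.cast_sub (by omega : 1 ≤ Fintype.card F)]; ring
  have hsum : (∑ g : Matrix.SpecialLinearGroup (Fin 2) F, if (g : Matrix (Fin 2) (Fin 2) F) 1 0 = 0 ∧ (g : Matrix (Fin 2) (Fin 2) F) 0 0 = 1 ∧ (g : Matrix (Fin 2) (Fin 2) F) 1 1 = 1 then χ g else 0) =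
      (Fintype.card F : ℂ) * K ⟨χ, hχ⟩ := by
    rw [← h0 ⟨χ, hχ⟩, ← Finset.sum_filter]
    symm
    apply Finset.sum_bij (fun (c : F) _ => (frSL F).u c)
    · intro c _
      rw [Finset.mem_filter]
      exact ⟨Finset.mem_univ _, rfl, rfl, rfl⟩
    · intro c _ d _ e
      exact (frSL F).u_inj e
    · intro g hg
      rw [Finset.mem_filter] at hg
      refine ⟨(g : Matrix (Fin 2) (Fin 2) F) 0 1, Finset.mem_univ _, ?_⟩
      apply (frSL F).inj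
      rw [(frSL F).mat_u]
      exact ext2 hg.2.2.1.symm rfl hg.2.1.symm hg.2.2.2.symm
    · intro c _
      rfl
  rw [hsum, e2, e3]
  refine ⟨?_, ?_, ?_, ?_, ?_⟩
  · intro h
    rw [tt.2.2.1.mp ((key ⟨χ, hχ⟩ _).mp h)]
    push_cast; ring
  · intro h
    rw [(tt.2.1.mp ((key ⟨χ, hχ⟩ _).mp h)).1]
    push_cast; ring
  · intro h
    rw [(tt.2.2.2.1.mp ((key ⟨χ, hχ⟩ _).mp h)).1]
    push_cast; ring
  · intro h
    rw [(tt.2.2.2.2.1.mp ((key ⟨χ, hχ⟩ _).mp h)).1]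
    push_cast; ring
  · intro h
    rw [(tt.2.2.2.2.2.mp ((key ⟨χ, hχ⟩ _).mp h)).1]
    push_cast; ring

end Cfsg.Agent.S2438
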