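import Cfsg.Statements.S2439
import Mathlib
import Cfsg.Agent.LibSLB15e
import Cfsg.Agent.LibSLB15g
import Cfsg.Agent.LibUDZ15j
import Cfsg.Agent.LibCharBasic2
-- import your own Cfsg.Agent.* helpers here

set_option autoImplicit false
open Cfsg

namespace Cfsg.Agent.S2439

open CfsgLib.SLB CfsgLib.UDZ CfsgLib.BrP CfsgLib.SL2P Cfsg CfsgLib.BlockCore in
theorem aux {F : Type*} [Field F] [Fintype F] (p : ℕ) [hp : Fact p.Prime] [CharP F p] (hp2 : p ≠ 2) (M : Ideal Cfsg.AlgInt) (hM : Cfsg.IsPModular p M) :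
    ∃ St : IrrCharacter (Matrix.SpecialLinearGroup (Fin 2) F),
      (∀ χ : IrrCharacter (Matrix.SpecialLinearGroup (Fin 2) F), (χ : Matrix.SpecialLinearGroup (Fin 2) F → ℂ) 1 = (Fintype.card F : ℂ) ↔ χ = St) ∧
      IsPBlock M ({St} : Set (IrrCharacter (Matrix.SpecialLinearGroup (Fin 2) F))) ∧
      (St : Matrix.SpecialLinearGroup (Fin 2) F → ℂ) (-1) = (St : Matrix.SpecialLinearGroup (Fin 2) F → ℂ) 1 ∧
      Nat.card {B : Set (IrrCharacter (Matrix.SpecialLinearGroup (Fin 2) F)) // IsPBlock M B} = 3 ∧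
      ∀ b, IsPBlock M b → b ≠ {St} → ∀ P : Sylow p (Matrix.SpecialLinearGroup (Fin 2) F), IsDefectGroup p M b (P : Subgroup (Matrix.SpecialLinearGroup (Fin 2) F)) := by
  classical
  have hk : 1 ≤ 1 := le_rfl
  have hMP : M.IsPrime := hM.2.1.isPrime
  have hchar := charP_kM hM
  have hfin : Finite (Matrix.SpecialLinearGroup (Fin 2) F) := inferInstance
  letI : Fintype (Matrix.SpecialLinearGroup (Fin 2) F) := Fintype.ofFinite _
  obtain ⟨χ, h1, h2, h3, h4⟩ := exists_st (F := F) (p := p) (k := 1) hk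
  have hcU : Nat.card (UB (b0 1) : Subgroup (Matrix.SpecialLinearGroup (Fin (1 + 1)) F)) = Fintype.card F := by
    rw [card_U, Fin.prod_univ_two]
    simp
  set Z := Subgroup.center (Matrix.SpecialLinearGroup (Fin (1 + 1)) F) with hZ
  have hodd : Odd (Fintype.card F) := by
    obtain ⟨f, hf⟩ := FiniteField.card F p
    rw [hf.2]
    exact (hp.out.odd_of_ne_two hp2).pow
  have hF2 : Even (Fintype.card F - 1) := by
    obtain ⟨m, hm⟩ := hodd
    exact ⟨m, by omega⟩
  have hcardZ : Nat.card Z = 2 := by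
    rw [hZ, Cfsg.Agent.H22.card_center_SL (1 + 1) (by omega)]
    exact Nat.gcd_eq_left hF2.two_dvd
  have hdvd : Nat.card Z ∣ p - 1 := by
    rw [hcardZ]
    obtain ⟨m, hm⟩ := hp.out.odd_of_ne_two hp2
    exact ⟨m, by omega⟩
  have hp1 : 0 < p - 1 := by have := hp.out.two_le; omega
  have hcop : ¬ p ∣ Nat.card Z := by
    intro h
    have := Nat.le_of_dvd hp1 (dvd_trans h hdvd)
    omega
  have hZp : ∀ x ∈ Z, ∀ n : ℕ, x ^ p ^ n = 1 → x = 1 := by
    intro x hx n hn
    have h5 : orderOf x ∣ p ^ n := orderOf_dvd_of_pow_eq_one hn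
    have h6 : orderOf (⟨x, hx⟩ : Z) ∣ Nat.card Z := orderOf_dvd_natCard _
    rw [Subgroup.orderOf_mk] at h6
    have h7 : Nat.Coprime (p ^ n) (Nat.card Z) := Nat.Coprime.pow_left n ((Nat.Prime.coprime_iff_not_dvd hp.out).2 hcop)
    have h8 := Nat.eq_one_of_dvd_coprimes h7 h5 h6
    exact orderOf_eq_one_iff.1 h8
  have hroots : HasEnoughRootsOfUnity (kM M) (Monoid.exponent Z) := roots_of_dvd (p := p) ((Group.exponent_dvd_nat_card).trans hdvd)
  have hc0 : ((Nat.card Z : ℕ) : kM M) ≠ 0 := by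
    intro h
    exact hcop ((CharP.cast_eq_zero_iff (kM M) p _).1 h)
  have hcomm : ∀ a b : Z, a * b = b * a := fun a b => Subtype.ext (Subgroup.mem_center_iff.1 b.2 a)
  haveI : Finite (Z →* (kM M)ˣ) := finite_hom Z hcomm hroots
  letI : Fintype (Z →* (kM M)ˣ) := Fintype.ofFinite _
  have hcard : Nat.card (Z →* (kM M)ˣ) = Nat.card Z := card_hom Z hcomm hroots
  have hne1 : ∃ P : Subgroup (Matrix.SpecialLinearGroup (Fin (1 + 1)) F), IsPGroup p P ∧ P ≠ ⊥ := by
    refine ⟨UB (b0 1), UB_pgroup _, ?_⟩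
    intro h
    have h5 : Nat.card (UB (b0 1) : Subgroup (Matrix.SpecialLinearGroup (Fin (1 + 1)) F)) = 1 := by
      rw [h]; exact Subgroup.card_bot
    rw [hcU] at h5
    have := Fintype.one_lt_card (α := F)
    omega
  set 𝓕 := zfam (k := kM M) Z hc0 (by rw [← Nat.card_eq_fintype_card]; exact hcard) (fun z hz => hom_sep Z hcomm hroots z hz) with h𝓕
  have hcount := blocks_card (G := Matrix.SpecialLinearGroup (Fin (1 + 1)) F) (p := p) (M := M) (sys F hk) (UB_pgroup _) (UB_pgroup _)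
    hM (St := ⟨χ, h1⟩) h3 (Z := Z) le_rfl hZp btz hne1 𝓕
  rw [hcard, hcardZ] at hcount
  refine ⟨⟨χ, h1⟩, ?_, ⟨⟨χ, h1⟩, (CfsgLib.BlockReg.defect_zero_block hM h3).symm⟩, ?_, hcount, ?_⟩
  · intro ψ
    constructor
    · intro hψ
      have h5 : (charDegree (ψ : Matrix.SpecialLinearGroup (Fin 2) F → ℂ)).factorization p = (Nat.card (Matrix.SpecialLinearGroup (Fin 2) F)).factorization p := by
        rw [← h3]
        congr 2
        have e1 := CfsgLib.CharInt.irr_one_eq_charDegree ψ.2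
        have e2 := CfsgLib.CharInt.irr_one_eq_charDegree h1
        rw [hψ] at e1
        rw [h2, hcU, ] at e2
        exact Nat.cast_injective (R := ℂ) (e1.symm.trans e2)
      exact CfsgLib.UDZ.unique (sys F hk) (UB_pgroup _) (UB_pgroup _) h5 h3
    · rintro rfl
      show χ 1 = _
      rw [h2, hcU]
  · apply h4
    rw [Matrix.SpecialLinearGroup.mem_center_iff]
    refine ⟨-1, by simp, ?_⟩
    ext i j
    rw [Matrix.SpecialLinearGroup.coe_neg, Matrix.SpecialLinearGroup.coe_one, Matrix.scalar_apply, Matrix.neg_apply, Matrix.one_apply, Matrix.diagonal_apply]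
    split_ifs <;> simp
  · intro b hb hbne P
    rw [g_def hM hb]
    obtain ⟨P1, hP1, hP11, hP12⟩ := pos_of_ne (sys F hk) (UB_pgroup _) (UB_pgroup _) hM h3 hb hbne
    obtain ⟨s, hs⟩ := 𝓕.exists_s le_rfl (g_blk hb)
    obtain ⟨S, hS⟩ := br_sylow' (p := p) (Z := Z) le_rfl hZp btz (g_blk hb) (𝓕.isZI s) hs hP1 hP11 hP12
    obtain ⟨D, hD⟩ := exists_isDef (p := p) (g_blk hb)
    obtain ⟨x, _, hx⟩ := hD.ge le_top S.2 (by rw [hS]; exact (𝓕.isZI s).ne)
    obtain ⟨y, hy⟩ := MulAction.exists_smul_eq (Matrix.SpecialLinearGroup (Fin (1 + 1)) F) S P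
    have h2 : (P : Subgroup (Matrix.SpecialLinearGroup (Fin (1 + 1)) F)) = cS y (S : Subgroup (Matrix.SpecialLinearGroup (Fin (1 + 1)) F)) := by
      rw [← hy]
      rfl
    apply hD.of_card le_top P.2
    · rw [h2]
      have h3 : cj y (JB M b) = JB M b := fx_iff.1 (g_blk hb).zh.2 y (Subgroup.mem_top y)
      have h4 : Br (cS y (S : Subgroup (Matrix.SpecialLinearGroup (Fin (1 + 1)) F))) (cj y (JB M b)) = cj y (Br (S : Subgroup (Matrix.SpecialLinearGroup (Fin (1 + 1)) F)) (JB M b)) := (cj_br _ _ _).symm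
      rw [← h3, h4, hS]
      intro h5
      rw [cj_eq_zero] at h5
      exact (𝓕.isZI s).ne h5
    · obtain ⟨S', hS'⟩ := hD.pg.exists_le_sylow
      have h5 : Nat.card (S' : Subgroup (Matrix.SpecialLinearGroup (Fin (1 + 1)) F)) = Nat.card (P : Subgroup (Matrix.SpecialLinearGroup (Fin (1 + 1)) F)) := by
        rw [S'.card_eq_multiplicity, P.card_eq_multiplicity]
      rw [← h5]
      exact Nat.card_le_card_of_injective _ (Subgroup.inclusion_injective hS')

open Cfsg in
theorem neg_one_central {F : Type*} [Field F] (g : Matrix.SpecialLinearGroup (Fin 2) F) : g * (-1) = (-1) * g := by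
  rw [mul_neg, neg_mul, mul_one, one_mul]

open Cfsg in
theorem sgn_or {F : Type*} [Field F] [Fintype F] (χ : IrrCharacter (Matrix.SpecialLinearGroup (Fin 2) F)) :
    (χ : Matrix.SpecialLinearGroup (Fin 2) F → ℂ) (-1) = (χ : Matrix.SpecialLinearGroup (Fin 2) F → ℂ) 1 ∨
    (χ : Matrix.SpecialLinearGroup (Fin 2) F → ℂ) (-1) = -(χ : Matrix.SpecialLinearGroup (Fin 2) F → ℂ) 1 := by
  classical
  have hfin : Finite (Matrix.SpecialLinearGroup (Fin 2) F) := inferInstance
  letI : Fintype (Matrix.SpecialLinearGroup (Fin 2) F) := Fintype.ofFinite _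
  have h1 := CfsgLib.BlockOrth.sum_conj_mul χ.2 (-1) (-1)
  have h2 : ∀ x : Matrix.SpecialLinearGroup (Fin 2) F, x * (-1) * x⁻¹ * (-1) = 1 := by
    intro x
    rw [neg_one_central x, mul_assoc (-1) x, mul_inv_cancel, mul_one, neg_mul_neg, mul_one]
  simp only [h2, Finset.sum_const, Finset.card_univ, nsmul_eq_mul, ← Nat.card_eq_fintype_card] at h1
  have h0 := CfsgLib.CharInt.irr_one_ne_zero χ.2
  have hG : (Nat.card (Matrix.SpecialLinearGroup (Fin 2) F) : ℂ) ≠ 0 := by exact_mod_cast Nat.card_pos.ne'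
  rw [eq_div_iff h0, mul_assoc, mul_assoc] at h1
  have h3 := mul_left_cancel₀ hG h1
  exact (mul_self_eq_mul_self_iff.1 h3.symm)

open Cfsg CfsgLib.LocR in
theorem sgn_same {F : Type*} [Field F] [Fintype F] {p : ℕ} [hp : Fact p.Prime] (hp2 : p ≠ 2) {M : Ideal AlgInt} (hM : IsPModular p M)
    {χ ψ : IrrCharacter (Matrix.SpecialLinearGroup (Fin 2) F)}
    (h : SameBlock M (χ : Matrix.SpecialLinearGroup (Fin 2) F → ℂ) (ψ : Matrix.SpecialLinearGroup (Fin 2) F → ℂ))
    (h1 : (χ : Matrix.SpecialLinearGroup (Fin 2) F → ℂ) (-1) = (χ : Matrix.SpecialLinearGroup (Fin 2) F → ℂ) 1)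
    (h2 : (ψ : Matrix.SpecialLinearGroup (Fin 2) F → ℂ) (-1) = -(ψ : Matrix.SpecialLinearGroup (Fin 2) F → ℂ) 1) : False := by
  have hP : M.IsPrime := hM.2.1.isPrime
  have h3 := h (-1)
  have hidx : (Subgroup.centralizer ({(-1 : Matrix.SpecialLinearGroup (Fin 2) F)} : Set (Matrix.SpecialLinearGroup (Fin 2) F))).index = 1 := by
    rw [Subgroup.index_eq_one, eq_top_iff]
    intro x _
    rw [Subgroup.mem_centralizer_singleton_iff]
    exact neg_one_central x
  have h01 := CfsgLib.CharInt.irr_one_ne_zero χ.2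
  have h02 := CfsgLib.CharInt.irr_one_ne_zero ψ.2
  unfold centralChar at h3
  rw [hidx, h1, h2, Nat.cast_one, one_mul, one_mul, div_self h01, neg_div, div_self h02] at h3
  have h4 : MemLocalIdeal M ((2 : ℤ) : ℂ) := by
    have : (1 : ℂ) - -1 = ((2 : ℤ) : ℂ) := by norm_num
    rwa [this] at h3
  rw [memI_intCast_iff hM] at h4
  have h5 : p ∣ 2 := by exact_mod_cast h4
  exact hp2 ((Nat.prime_dvd_prime_iff_eq hp.out Nat.prime_two).1 h5)

open Cfsg in
theorem exists_minus {F : Type*} [Field F] [Fintype F] (h2 : (2 : F) ≠ 0) : ∃ χ : IrrCharacter (Matrix.SpecialLinearGroup (Fin 2) F),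
    (χ : Matrix.SpecialLinearGroup (Fin 2) F → ℂ) (-1) = -(χ : Matrix.SpecialLinearGroup (Fin 2) F → ℂ) 1 := by
  by_contra hcon
  push Not at hcon
  have h1 : IsConj (-1 : Matrix.SpecialLinearGroup (Fin 2) F) 1 := by
    rw [CfsgLib.CharBasic.isConj_iff_irr]
    intro χ
    exact (sgn_or χ).resolve_right (hcon χ)
  rw [isConj_one_left] at h1
  have h3 := congrArg (fun g : Matrix.SpecialLinearGroup (Fin 2) F => g 0 0) h1
  simp only [Matrix.SpecialLinearGroup.coe_neg, Matrix.SpecialLinearGroup.coe_one, Matrix.neg_apply, Matrix.one_apply_eq] at h3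
  apply h2
  linear_combination -h3

/-- Let F be a finite field with q elements of odd characteristic p, and M a maximal ideal of the algebraic integers containing p. Then SL₂ over F has exactly three p-blocks relative to M: the irreducible character of degree q (the Steinberg character) alone; the other irreducible characters taking the same value at −1 as at 1 (the principal block); and the irreducible characters χ with χ(−1) = −χ(1). Every Sylow p-subgroup is a defect group of each of the last two blocks. -/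
theorem result {F : Type*} [Field F] [Fintype F] (p : ℕ) [Fact p.Prime] [CharP F p] (hp : p ≠ 2)
    (M : Ideal Cfsg.AlgInt) (hM : Cfsg.IsPModular p M) :
    (∀ B : Set (Cfsg.IrrCharacter (Matrix.SpecialLinearGroup (Fin 2) F)), Cfsg.IsPBlock M B ↔
      (B = {χ : Cfsg.IrrCharacter (Matrix.SpecialLinearGroup (Fin 2) F) | (χ : Matrix.SpecialLinearGroup (Fin 2) F → ℂ) 1 = (Fintype.card F : ℂ)} ∨
       B = {χ : Cfsg.IrrCharacter (Matrix.SpecialLinearGroup (Fin 2) F) | (χ : Matrix.SpecialLinearGroup (Fin 2) F → ℂ) (-1) = (χ : Matrix.SpecialLinearGroup (Fin 2) F → ℂ) 1 ∧ (χ : Matrix.SpecialLinearGroup (Fin 2) F → ℂ) 1 ≠ (Fintype.card F : ℂ)} ∨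
       B = {χ : Cfsg.IrrCharacter (Matrix.SpecialLinearGroup (Fin 2) F) | (χ : Matrix.SpecialLinearGroup (Fin 2) F → ℂ) (-1) = -(χ : Matrix.SpecialLinearGroup (Fin 2) F → ℂ) 1})) ∧
    Nat.card {B : Set (Cfsg.IrrCharacter (Matrix.SpecialLinearGroup (Fin 2) F)) // Cfsg.IsPBlock M B} = 3 ∧
    ∀ P : Sylow p (Matrix.SpecialLinearGroup (Fin 2) F),
      Cfsg.IsDefectGroup p M {χ : Cfsg.IrrCharacter (Matrix.SpecialLinearGroup (Fin 2) F) | (χ : Matrix.SpecialLinearGroup (Fin 2) F → ℂ) (-1) = (χ : Matrix.SpecialLinearGroup (Fin 2) F → ℂ) 1 ∧ (χ : Matrix.SpecialLinearGroup (Fin 2) F → ℂ) 1 ≠ (Fintype.card F : ℂ)} (P : Subgroup (Matrix.SpecialLinearGroup (Fin 2) F)) ∧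
      Cfsg.IsDefectGroup p M {χ : Cfsg.IrrCharacter (Matrix.SpecialLinearGroup (Fin 2) F) | (χ : Matrix.SpecialLinearGroup (Fin 2) F → ℂ) (-1) = -(χ : Matrix.SpecialLinearGroup (Fin 2) F → ℂ) 1} (P : Subgroup (Matrix.SpecialLinearGroup (Fin 2) F)) := by
    classical
    have hP : M.IsPrime := hM.2.1.isPrime
    obtain ⟨St, hSt1, hStB, hStz, hcard, hdef⟩ := aux (F := F) p hp M hM
    obtain ⟨χm, hχm⟩ := exists_minus (F := F) (by
      intro h
      have h1 : ((2 : ℕ) : F) = 0 := by exact_mod_cast h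
      rw [CharP.cast_eq_zero_iff F p] at h1
      exact hp ((Nat.prime_dvd_prime_iff_eq (Fact.out : p.Prime) Nat.prime_two).1 h1))
    let one : IrrCharacter (Matrix.SpecialLinearGroup (Fin 2) F) := ⟨fun _ => 1, CfsgLib.CharBasic.isIrrCharacter_one⟩
    have hq1 : (1 : ℂ) ≠ (Fintype.card F : ℂ) := by
      have := Fintype.one_lt_card (α := F)
      intro h
      have h1 : 1 = Fintype.card F := by exact_mod_cast h
      omega
    have hone : one ≠ St := by
      intro h
      exact hq1 ((hSt1 one).2 h)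
    set bp := blockOf M (one : Matrix.SpecialLinearGroup (Fin 2) F → ℂ) with hbp
    set bm := blockOf M (χm : Matrix.SpecialLinearGroup (Fin 2) F → ℂ) with hbm
    have hbpB : IsPBlock M bp := ⟨one, rfl⟩
    have hbmB : IsPBlock M bm := ⟨χm, rfl⟩
    have h1p : one ∈ bp := CfsgLib.BlockIdem.mem_blockOf_self hP _
    have hmm : χm ∈ bm := CfsgLib.BlockIdem.mem_blockOf_self hP _
    have hχmSt : χm ≠ St := by
      rintro rfl
      rw [hStz] at hχm
      have h0 := CfsgLib.CharInt.irr_one_ne_zero χm.2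
      apply h0
      linear_combination (1/2 : ℂ) * hχm
    have hsig_p : ∀ ψ ∈ bp, (ψ : Matrix.SpecialLinearGroup (Fin 2) F → ℂ) (-1) = (ψ : Matrix.SpecialLinearGroup (Fin 2) F → ℂ) 1 := by
      intro ψ hψ
      rcases sgn_or ψ with h | h
      · exact h
      · exact (sgn_same hp hM (χ := one) (ψ := ψ) hψ rfl h).elim
    have hsig_m : ∀ ψ ∈ bm, (ψ : Matrix.SpecialLinearGroup (Fin 2) F → ℂ) (-1) = -(ψ : Matrix.SpecialLinearGroup (Fin 2) F → ℂ) 1 := by
      intro ψ hψ
      rcases sgn_or ψ with h | h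
      · refine (sgn_same hp hM (χ := ψ) (ψ := χm) ?_ h hχm).elim
        intro g
        exact CfsgLib.LocR.memI_sub_comm.1 (hψ g)
      · exact h
    have hne0 : ∀ ψ : IrrCharacter (Matrix.SpecialLinearGroup (Fin 2) F), (ψ : Matrix.SpecialLinearGroup (Fin 2) F → ℂ) 1 ≠ -(ψ : Matrix.SpecialLinearGroup (Fin 2) F → ℂ) 1 := by
      intro ψ h
      apply CfsgLib.CharInt.irr_one_ne_zero ψ.2
      linear_combination (1/2 : ℂ) * h
    have n1 : ({St} : Set _) ≠ bp := by
      intro h; rw [← h] at h1p; exact hone h1p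
    have n2 : ({St} : Set _) ≠ bm := by
      intro h; rw [← h] at hmm; exact hχmSt hmm
    have n3 : bp ≠ bm := by
      intro h
      have h5 := hsig_p χm (by rw [h]; exact hmm)
      rw [hχm] at h5
      exact hne0 χm h5.symm
    have hall : ∀ b, IsPBlock M b → b = {St} ∨ b = bp ∨ b = bm := by
      intro b hb
      by_contra hcon
      push Not at hcon
      let f : Fin 4 → {B : Set (IrrCharacter (Matrix.SpecialLinearGroup (Fin 2) F)) // IsPBlock M B} :=
        ![⟨{St}, hStB⟩, ⟨bp, hbpB⟩, ⟨bm, hbmB⟩, ⟨b, hb⟩]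
      have hf : Function.Injective f := by
        intro i j hij
        have h' : (f i).1 = (f j).1 := congrArg Subtype.val hij
        fin_cases i <;> fin_cases j
        · rfl
        · exact absurd h' n1
        · exact absurd h' n2
        · exact absurd h'.symm hcon.1
        · exact absurd h'.symm n1
        · rfl
        · exact absurd h' n3
        · exact absurd h'.symm hcon.2.1
        · exact absurd h'.symm n2
        · exact absurd h'.symm n3
        · rfl
        · exact absurd h'.symm hcon.2.2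
        · exact absurd h' hcon.1
        · exact absurd h' hcon.2.1
        · exact absurd h' hcon.2.2
        · rfl
      haveI : Finite {B : Set (IrrCharacter (Matrix.SpecialLinearGroup (Fin 2) F)) // IsPBlock M B} :=
        Nat.finite_of_card_ne_zero (by rw [hcard]; norm_num)
      have h5 := Nat.card_le_card_of_injective f hf
      rw [hcard, Nat.card_eq_fintype_card, Fintype.card_fin] at h5
      omega
    have hmem : ∀ ψ : IrrCharacter (Matrix.SpecialLinearGroup (Fin 2) F), ψ = St ∨ ψ ∈ bp ∨ ψ ∈ bm := by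
      intro ψ
      have h5 : ψ ∈ blockOf M (ψ : Matrix.SpecialLinearGroup (Fin 2) F → ℂ) := CfsgLib.BlockIdem.mem_blockOf_self hP _
      rcases hall _ ⟨ψ, rfl⟩ with h | h | h
      · left; rw [h] at h5; exact h5
      · right; left; rw [h] at h5; exact h5
      · right; right; rw [h] at h5; exact h5
    have e0 : {χ : Cfsg.IrrCharacter (Matrix.SpecialLinearGroup (Fin 2) F) | (χ : Matrix.SpecialLinearGroup (Fin 2) F → ℂ) 1 = (Fintype.card F : ℂ)} = {St} := by
      ext ψ
      exact hSt1 ψ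
    have ep : {χ : Cfsg.IrrCharacter (Matrix.SpecialLinearGroup (Fin 2) F) | (χ : Matrix.SpecialLinearGroup (Fin 2) F → ℂ) (-1) = (χ : Matrix.SpecialLinearGroup (Fin 2) F → ℂ) 1 ∧ (χ : Matrix.SpecialLinearGroup (Fin 2) F → ℂ) 1 ≠ (Fintype.card F : ℂ)} = bp := by
      ext ψ
      constructor
      · rintro ⟨h1, h2⟩
        rcases hmem ψ with h | h | h
        · exact absurd ((hSt1 ψ).2 h) h2
        · exact h
        · have := hsig_m ψ h
          rw [h1] at this
          exact absurd this (hne0 ψ)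
      · intro h
        refine ⟨hsig_p ψ h, fun h2 => ?_⟩
        have h3 := (hSt1 ψ).1 h2
        rw [h3] at h
        apply n1
        obtain ⟨χ0, hχ0⟩ := hStB
        rw [hχ0]
        have h6 : St ∈ blockOf M (χ0 : Matrix.SpecialLinearGroup (Fin 2) F → ℂ) := by rw [← hχ0]; rfl
        have h7 : χ0 = St := by
          have h8 : χ0 ∈ blockOf M (χ0 : Matrix.SpecialLinearGroup (Fin 2) F → ℂ) := CfsgLib.BlockIdem.mem_blockOf_self hP _
          rw [← hχ0] at h8
          exact h8
        rcases hall _ ⟨χ0, rfl⟩ with h9 | h9 | h9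
        · exfalso
          have h10 : one ∈ blockOf M (χ0 : Matrix.SpecialLinearGroup (Fin 2) F → ℂ) := by
            intro g
            rw [h7]
            exact CfsgLib.LocR.memI_sub_comm.1 (h g)
          rw [h9] at h10
          exact hone h10
        · exact h9
        · exfalso
          rw [h9] at h6
          have := hsig_m St h6
          rw [hStz] at this
          exact hne0 St this
    have em : {χ : Cfsg.IrrCharacter (Matrix.SpecialLinearGroup (Fin 2) F) | (χ : Matrix.SpecialLinearGroup (Fin 2) F → ℂ) (-1) = -(χ : Matrix.SpecialLinearGroup (Fin 2) F → ℂ) 1} = bm := by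
      ext ψ
      constructor
      · intro h1
        rcases hmem ψ with h | h | h
        · exfalso
          subst h
          have h1' : (ψ : Matrix.SpecialLinearGroup (Fin 2) F → ℂ) (-1) = -(ψ : Matrix.SpecialLinearGroup (Fin 2) F → ℂ) 1 := h1
          rw [hStz] at h1'
          exact hne0 ψ h1'
        · exfalso
          have h1' : (ψ : Matrix.SpecialLinearGroup (Fin 2) F → ℂ) (-1) = -(ψ : Matrix.SpecialLinearGroup (Fin 2) F → ℂ) 1 := h1
          rw [hsig_p ψ h] at h1'
          exact hne0 ψ h1'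
        · exact h
      · intro h
        exact hsig_m ψ h
    rw [e0, ep, em]
    refine ⟨fun B => ⟨hall B, ?_⟩, hcard, fun P => ⟨hdef bp hbpB n1.symm P, hdef bm hbmB n2.symm P⟩⟩
    rintro (rfl | rfl | rfl)
    · exact hStB
    · exact hbpB
    · exact hbmB

end Cfsg.Agent.S2439
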