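import Cfsg.Statements.S2440
import Mathlib
import Cfsg.Agent.LibSLB15e
import Cfsg.Agent.LibSLB15g
import Cfsg.Agent.LibUDZ15j
-- import your own Cfsg.Agent.* helpers here

set_option autoImplicit false
open Cfsg

namespace Cfsg.Agent.S2440

open CfsgLib.SLB CfsgLib.UDZ CfsgLib.BrP CfsgLib.SL2P in
theorem aux (p : ℕ) [hp : Fact p.Prime] (k : ℕ) (hk : 1 ≤ k) (M : Ideal Cfsg.AlgInt) (hM : Cfsg.IsPModular p M) :
    Nat.card {B : Set (Cfsg.IrrCharacter (Matrix.SpecialLinearGroup (Fin (k + 1)) (ZMod p))) // Cfsg.IsPBlock M B} =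
      Nat.gcd (k + 1) (p - 1) + 1 := by
  classical
  have hMP : M.IsPrime := hM.2.1.isPrime
  have hchar := charP_kM hM
  have hfin : Finite (Matrix.SpecialLinearGroup (Fin (k + 1)) (ZMod p)) := inferInstance
  letI : Fintype (Matrix.SpecialLinearGroup (Fin (k + 1)) (ZMod p)) := Fintype.ofFinite _
  obtain ⟨χ, h1, h2, h3, h4⟩ := exists_st (F := ZMod p) (p := p) hk
  set Z := Subgroup.center (Matrix.SpecialLinearGroup (Fin (k + 1)) (ZMod p)) with hZ
  have hcardZ : Nat.card Z = Nat.gcd (k + 1) (p - 1) := by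
    rw [hZ, Cfsg.Agent.H22.card_center_SL (k + 1) (by omega), ZMod.card]
  have hdvd : Nat.card Z ∣ p - 1 := by rw [hcardZ]; exact Nat.gcd_dvd_right _ _
  have hp1 : 0 < p - 1 := by have := hp.out.two_le; omega
  have hcop : ¬ p ∣ Nat.card Z := by
    intro h
    have := Nat.le_of_dvd hp1 (dvd_trans h hdvd)
    omega
  have hZp : ∀ x ∈ Z, ∀ n : ℕ, x ^ p ^ n = 1 → x = 1 := by
    intro x hx n hn
    have h5 : orderOf x ∣ p ^ n := orderOf_dvd_of_pow_eq_one hn
    have h6 : orderOf (⟨x, hx⟩ : Z) ∣ Nat.card Z := orderOf_dvd_natCard _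
    rw [Subgroup.orderOf_mk] at h6
    have h7 : Nat.Coprime (p ^ n) (Nat.card Z) := Nat.Coprime.pow_left n ((Nat.Prime.coprime_iff_not_dvd hp.out).2 hcop)
    have h8 := Nat.eq_one_of_dvd_coprimes h7 h5 h6
    exact orderOf_eq_one_iff.1 h8
  have hroots : HasEnoughRootsOfUnity (kM M) (Monoid.exponent Z) := roots_of_dvd (p := p) ((Group.exponent_dvd_nat_card).trans hdvd)
  have hc0 : ((Nat.card Z : ℕ) : kM M) ≠ 0 := by
    intro h
    exact hcop ((CharP.cast_eq_zero_iff (kM M) p _).1 h)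
  have hcomm : ∀ a b : Z, a * b = b * a := fun a b => Subtype.ext (Subgroup.mem_center_iff.1 b.2 a)
  haveI : Finite (Z →* (kM M)ˣ) := finite_hom Z hcomm hroots
  letI : Fintype (Z →* (kM M)ˣ) := Fintype.ofFinite _
  have hcard : Nat.card (Z →* (kM M)ˣ) = Nat.card Z := card_hom Z hcomm hroots
  have hne1 : ∃ P : Subgroup (Matrix.SpecialLinearGroup (Fin (k + 1)) (ZMod p)), IsPGroup p P ∧ P ≠ ⊥ := by
    refine ⟨UB (b0 k), UB_pgroup _, ?_⟩
    intro h
    have h5 := xx_U (F := ZMod p) (⟨0, hk⟩ : Fin k) 1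
    rw [h, Subgroup.mem_bot] at h5
    have h6 := congrArg (fun g : Matrix.SpecialLinearGroup (Fin (k + 1)) (ZMod p) => g (⟨0, hk⟩ : Fin k).castSucc (⟨0, hk⟩ : Fin k).succ) h5
    simp only [ph_apply, x00, x01, x10, x11, one_ap, if_neg (cs_ne _), if_neg (cs_ne _).symm, if_true] at h6
    simp at h6
  have hfin2 := blocks_card (G := Matrix.SpecialLinearGroup (Fin (k + 1)) (ZMod p)) (p := p) (M := M) (sys (ZMod p) hk) (UB_pgroup _) (UB_pgroup _)
    hM (St := ⟨χ, h1⟩) h3 (Z := Z) le_rfl hZp btz hne1 (zfam Z hc0 (by rw [← Nat.card_eq_fintype_card]; exact hcard)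
      (fun z hz => hom_sep Z hcomm hroots z hz))
  rw [hfin2, hcard, hcardZ]

/-- For a prime p and n ≥ 2, the group SL_n over the field with p elements has exactly gcd(n, p − 1) + 1 p-blocks relative to any maximal ideal of the algebraic integers containing p, that is, one more than the order of its centre (only this total is asserted; it arises as the defect-zero block of the Steinberg character plus as many blocks of maximal defect as the order of the centre). -/
theorem result (p : ℕ) [Fact p.Prime] (n : ℕ) (hn : 2 ≤ n) (M : Ideal Cfsg.AlgInt) (hM : Cfsg.IsPModular p M) :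
    Nat.card {B : Set (Cfsg.IrrCharacter (Matrix.SpecialLinearGroup (Fin n) (ZMod p))) // Cfsg.IsPBlock M B} =
      Nat.gcd n (p - 1) + 1 := by
    obtain ⟨k, rfl⟩ : ∃ k, n = k + 1 := ⟨n - 1, by omega⟩
    exact aux p k (by omega) M hM

end Cfsg.Agent.S2440
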