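import Cfsg.Statements.S2441
import Mathlib
import Cfsg.Agent.LibUDZ15g
-- import your own Cfsg.Agent.* helpers here

set_option autoImplicit false
open Cfsg

namespace Cfsg.Agent.S2441



/-- For a prime p, the Chevalley groups of types G₂, F₄ and E₈ over the field with p elements (types for which the simply connected and adjoint groups coincide, so the group has trivial centre) each have exactly two p-blocks relative to any maximal ideal of the algebraic integers containing p (only the count is asserted; it arises as the defect-zero block of the Steinberg character plus a single block of maximal defect). -/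
theorem result (p : ℕ) [Fact p.Prime] (M : Ideal Cfsg.AlgInt) (hM : Cfsg.IsPModular p M) :
    Nat.card {B : Set (Cfsg.IrrCharacter (Cfsg.Lie.chevG2.group (ZMod p))) // Cfsg.IsPBlock M B} = 2 ∧
    Nat.card {B : Set (Cfsg.IrrCharacter (Cfsg.Lie.chevF4.group (ZMod p))) // Cfsg.IsPBlock M B} = 2 ∧
    Nat.card {B : Set (Cfsg.IrrCharacter (Cfsg.Lie.chevE8.group (ZMod p))) // Cfsg.IsPBlock M B} = 2 := by
    have h1 : (0 : ℕ) < CfsgLib.Chev.tG2.l := by decide +kernel
    have h2 : (0 : ℕ) < CfsgLib.Chev.tF4.l := by decide +kernel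
    have h3 : (0 : ℕ) < CfsgLib.Chev.tE8.l := by decide +kernel
    exact ⟨CfsgLib.Chev.good3_G2.two_blocks CfsgLib.Chev.adj_G2 h1 hM, CfsgLib.Chev.good3_F4.two_blocks CfsgLib.Chev.adj_F4 h2 hM,
      CfsgLib.Chev.good3_E8.two_blocks CfsgLib.Chev.adj_E8 h3 hM⟩

end Cfsg.Agent.S2441
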