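import Cfsg.Statements.S2532
import Cfsg.Agent.LibKS4

set_option autoImplicit false
open Cfsg

namespace Cfsg.Agent.S2532




/-- There is a function `f` of two natural-number arguments such that, whenever `m ≥ f(n, r)`, every subgroup of order `n` of the alternating group of degree `m` centralizes some subgroup of that alternating group isomorphic to the alternating group of degree `r`. -/
theorem result :
    ∃ f : ℕ → ℕ → ℕ, ∀ (m r : ℕ) (H : Subgroup ↥(alternatingGroup (Fin m))), f (Nat.card H) r ≤ m →
      ∃ K : Subgroup ↥(alternatingGroup (Fin m)), Nonempty (↥K ≃* ↥(alternatingGroup (Fin r))) ∧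
        K ≤ Subgroup.centralizer (H : Set ↥(alternatingGroup (Fin m))) := by
  exact CfsgLib.KS4.s2532

end Cfsg.Agent.S2532
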