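import Cfsg.Statements.S2541
import Cfsg.Agent.LibKS1

set_option autoImplicit false
open Cfsg

namespace Cfsg.Agent.S2541




/-- Let F be a field with 9 elements. The symmetric group S_6 is not isomorphic to PGL_2(F) (although both have index-2 subgroups isomorphic to A_6). -/
theorem result {F : Type*} [Field F] [Fintype F] (hF : Fintype.card F = 9) : ¬ Nonempty (Equiv.Perm (Fin 6) ≃* Matrix.ProjGenLinGroup (Fin 2) F) := by
  exact CfsgLib.KS1.s2541 hF

end Cfsg.Agent.S2541
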