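import Cfsg.Statements.S2544
import Mathlib
import Cfsg.Agent.LibSLB15e
import Cfsg.Agent.LibDZ19
import Cfsg.Agent.LibCharMore
-- import your own Cfsg.Agent.* helpers here

set_option autoImplicit false
open Cfsg

namespace Cfsg.Agent.S2544

open CfsgLib.SLB in
theorem aux {F : Type*} [Field F] [Fintype F] (p : ℕ) [hp : Fact p.Prime] [CharP F p] (k : ℕ) (hk : 1 ≤ k) :
    ∃ χ : Matrix.ProjectiveSpecialLinearGroup (Fin (k + 1)) F → ℂ, Cfsg.IsIrrCharacter (Matrix.ProjectiveSpecialLinearGroup (Fin (k + 1)) F) χ ∧ ∀ P : Sylow p (Matrix.ProjectiveSpecialLinearGroup (Fin (k + 1)) F), χ 1 = Nat.card P ∧ ∀ x : Matrix.ProjectiveSpecialLinearGroup (Fin (k + 1)) F, x ∈ P → x ≠ 1 → χ x = 0 := by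
  classical
  obtain ⟨χ, h1, h2, h3, h4⟩ := exists_st (F := F) (p := p) hk
  set Z := Subgroup.center (Matrix.SpecialLinearGroup (Fin (k + 1)) F) with hZ
  obtain ⟨χ', h5, h6⟩ := CfsgLib.CharMore.deflate_irr (QuotientGroup.mk' Z) (QuotientGroup.mk'_surjective _) h1 (fun g hg => by
    rw [QuotientGroup.ker_mk'] at hg
    exact h4 g hg)
  have h61 : χ' 1 = χ 1 := by rw [h6]; rfl
  have hq : ¬ p ∣ Fintype.card F - 1 := by
    obtain ⟨f, hf⟩ := FiniteField.card F p
    have hpq : p ∣ Fintype.card F := by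
      rw [hf.2]; exact dvd_pow_self _ f.ne_zero
    intro h
    have hq1 : 1 < Fintype.card F := Fintype.one_lt_card
    have h3 : p ∣ Fintype.card F - (Fintype.card F - 1) := Nat.dvd_sub hpq h
    rw [show Fintype.card F - (Fintype.card F - 1) = 1 by omega] at h3
    exact hp.out.one_lt.ne' (Nat.dvd_one.1 h3)
  have hcZ : ¬ p ∣ Nat.card Z := by
    rw [hZ, Cfsg.Agent.H22.card_center_SL (k + 1) (by omega)]
    intro h
    exact hq (dvd_trans h (Nat.gcd_dvd_right _ _))
  have hZ0 : Nat.card Z ≠ 0 := Nat.card_pos.ne'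
  have hP0 : Nat.card (Matrix.ProjectiveSpecialLinearGroup (Fin (k + 1)) F) ≠ 0 := Nat.card_pos.ne'
  have hcard : (Nat.card (Matrix.ProjectiveSpecialLinearGroup (Fin (k + 1)) F)).factorization p = (Nat.card (Matrix.SpecialLinearGroup (Fin (k + 1)) F)).factorization p := by
    rw [Subgroup.card_eq_card_quotient_mul_card_subgroup Z, Nat.factorization_mul hP0 hZ0, Finsupp.add_apply, Nat.factorization_eq_zero_of_not_dvd hcZ, add_zero]
  have hdeg : Cfsg.charDegree χ' = Cfsg.charDegree χ := by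
    have e1 := CfsgLib.CharInt.irr_one_eq_charDegree h1
    have e2 := CfsgLib.CharInt.irr_one_eq_charDegree h5
    rw [h61, e1] at e2
    exact (Nat.cast_injective e2).symm
  have hfac : (Cfsg.charDegree χ').factorization p = (Nat.card (Matrix.ProjectiveSpecialLinearGroup (Fin (k + 1)) F)).factorization p := by
    rw [hdeg, h3, hcard]
  refine ⟨χ', h5, fun P => ⟨?_, ?_⟩⟩
  · rw [h61, h2]
    congr 1
    rw [P.card_eq_multiplicity, hcard, fac (p := p)]
    obtain ⟨m, hm⟩ := (IsPGroup.iff_card).1 (UB_pgroup (b0 k) (F := F) (p := p))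
    rw [hm, hp.out.factorization_pow, Finsupp.single_eq_same]
  · intro x hx hx1
    apply CfsgLib.DZ19.vanish h5 hfac
    have h7 := P.2 ⟨x, hx⟩
    obtain ⟨m, hm⟩ := h7
    have h8 : x ^ p ^ m = 1 := congrArg Subtype.val hm
    have h9 := orderOf_dvd_of_pow_eq_one h8
    obtain ⟨i, _, hi⟩ := (Nat.dvd_prime_pow hp.out).1 h9
    rw [hi]
    rcases Nat.eq_zero_or_pos i with h0 | h0
    · rw [h0, pow_zero] at hi
      exact absurd (orderOf_eq_one_iff.1 hi) hx1
    · exact dvd_pow_self _ (by omega)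

/-- Let F be a finite field of characteristic p and consider the projective special linear group PSL_n(F) with n ≥ 2. This group has an irreducible complex character χ whose degree equals the order of a Sylow p-subgroup (namely q^(n(n−1)/2) when #F = q) and whose restriction to any Sylow p-subgroup P is the regular character of P: χ vanishes on the non-identity elements of P. (This is the Steinberg character.) -/
theorem result {F : Type*} [Field F] [Fintype F] (p : ℕ) [Fact p.Prime] [CharP F p] (n : ℕ) (hn : 2 ≤ n) : ∃ χ : Matrix.ProjectiveSpecialLinearGroup (Fin n) F → ℂ, Cfsg.IsIrrCharacter (Matrix.ProjectiveSpecialLinearGroup (Fin n) F) χ ∧ ∀ P : Sylow p (Matrix.ProjectiveSpecialLinearGroup (Fin n) F), χ 1 = Nat.card P ∧ ∀ x : Matrix.ProjectiveSpecialLinearGroup (Fin n) F, x ∈ P → x ≠ 1 → χ x = 0 := by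
    obtain ⟨k, rfl⟩ : ∃ k, n = k + 1 := ⟨n - 1, by omega⟩
    exact aux p k (by omega)

end Cfsg.Agent.S2544
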