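import Cfsg.Statements.S2567
import Mathlib

set_option autoImplicit false
open Cfsg

namespace Cfsg.Agent.S2567

open Module

theorem center_pow {F : Type*} [Field F] [Fintype F] {q n : ℕ} (hF : Fintype.card F = q) (z : GL (Fin n) F)
    (hz : z ∈ Subgroup.center (GL (Fin n) F)) : z ^ (q - 1) = 1 := by
  rw [Matrix.GeneralLinearGroup.mem_center_iff_val_mem_range_scalar] at hz
  obtain ⟨c, hc⟩ := hz
  rcases Nat.eq_zero_or_pos n with h0 | h0
  · subst h0
    apply Units.ext
    ext i; exact i.elim0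
  · haveI : Nonempty (Fin n) := ⟨⟨0, h0⟩⟩
    have hc0 : c ≠ 0 := by
      rintro rfl
      rw [map_zero] at hc
      have := z.isUnit
      rw [← hc] at this
      exact not_isUnit_zero this
    apply Units.ext
    rw [Units.val_pow_eq_pow_val, ← hc, ← map_pow, ← hF, FiniteField.pow_card_sub_one_eq_one c hc0, map_one]
    rfl

/-- Lifting elements of prime order from PGL to GL: let F be a finite field with q elements, r a prime not dividing q − 1, and x an element of order r in GL_n(F) modulo its centre (the scalar matrices). Then x has exactly one preimage in GL_n(F) of order r. -/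
theorem result {F : Type*} [Field F] [Fintype F] {q n r : ℕ} (hF : Fintype.card F = q) (hr : r.Prime) (hdiv : ¬ r ∣ q - 1) (x : GL (Fin n) F ⧸ Subgroup.center (GL (Fin n) F)) (hx : orderOf x = r) : ∃! g : GL (Fin n) F, (QuotientGroup.mk g : GL (Fin n) F ⧸ Subgroup.center (GL (Fin n) F)) = x ∧ orderOf g = r := by
  classical
  haveI : Fact r.Prime := ⟨hr⟩
  have hcop : Nat.Coprime (q - 1) r := by
    rw [Nat.coprime_comm]
    exact (Nat.Prime.coprime_iff_not_dvd hr).mpr hdiv
  have hq1 : 1 < r := hr.one_lt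
  obtain ⟨g0, rfl⟩ := QuotientGroup.mk_surjective x
  have hg0r : g0 ^ r ∈ Subgroup.center (GL (Fin n) F) := by
    rw [← QuotientGroup.eq_one_iff]
    rw [QuotientGroup.mk_pow, ← hx, pow_orderOf_eq_one]
  obtain ⟨a, -, ha⟩ := Nat.exists_mul_mod_eq_one_of_coprime hcop hq1
  have hxm : ((g0 ^ ((q - 1) * a) : GL (Fin n) F) : GL (Fin n) F ⧸ Subgroup.center (GL (Fin n) F)) = (g0 : GL (Fin n) F ⧸ Subgroup.center (GL (Fin n) F)) := by
    rw [QuotientGroup.mk_pow]
    conv_rhs => rw [← pow_one (g0 : GL (Fin n) F ⧸ Subgroup.center (GL (Fin n) F))]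
    rw [pow_eq_pow_iff_modEq, hx]
    unfold Nat.ModEq
    rw [ha, Nat.mod_eq_of_lt hq1]
  refine ⟨g0 ^ ((q - 1) * a), ⟨hxm, ?_⟩, ?_⟩
  · apply orderOf_eq_prime
    · rw [← pow_mul, mul_comm, pow_mul, pow_mul, center_pow hF _ hg0r, one_pow]
    · intro h
      rw [h] at hxm
      have : orderOf (QuotientGroup.mk (1 : GL (Fin n) F) : GL (Fin n) F ⧸ Subgroup.center (GL (Fin n) F)) = r := by
        rw [hxm]; exact hx
      rw [QuotientGroup.mk_one, orderOf_one] at this
      omega
  · rintro g ⟨hg, hgo⟩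
    have hz : g⁻¹ * g0 ∈ Subgroup.center (GL (Fin n) F) := by
      rw [← QuotientGroup.eq]; exact hg
    -- g = g^((q-1) a) since order r; g0 = g z
    set z := g⁻¹ * g0 with hzd
    have hg0 : g0 = g * z := by rw [hzd]; group
    have hcomm : Commute g z := by
      have := Subgroup.mem_center_iff.mp hz g
      exact this
    rw [hg0, hcomm.mul_pow, pow_mul z, center_pow hF z hz, one_pow, mul_one]
    conv_lhs => rw [← pow_one g]
    rw [pow_eq_pow_iff_modEq, hgo]
    unfold Nat.ModEq
    rw [ha, Nat.mod_eq_of_lt hq1]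

end Cfsg.Agent.S2567
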