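import Cfsg.Statements.S2568
import Cfsg.Agent.LibSS2H13
import Cfsg.Agent.LibCntH13
import Cfsg.Agent.LibInvCH13

set_option autoImplicit false
open Cfsg

namespace Cfsg.Agent.S2568

open CfsgLib.SS2 CfsgLib.Cnt Module

/-- matrices as operators -/
theorem lin_pow {F : Type*} [Field F] {n : ℕ} (g : GL (Fin n) F) (k : ℕ) : (Matrix.toLin' (g : Matrix (Fin n) (Fin n) F)) ^ k = Matrix.toLin' ((g ^ k : GL (Fin n) F) : Matrix (Fin n) (Fin n) F) := by
  rw [Units.val_pow_eq_pow_val, Matrix.toLin'_pow]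

theorem lin_eq_one {F : Type*} [Field F] {n : ℕ} (g : GL (Fin n) F) : Matrix.toLin' (g : Matrix (Fin n) (Fin n) F) = 1 ↔ g = 1 := by
  constructor
  · intro h
    apply Units.ext
    apply Matrix.toLin'.injective
    rw [h, Units.val_one, Matrix.toLin'_one]; rfl
  · rintro rfl
    rw [Units.val_one, Matrix.toLin'_one]; rfl

theorem exists_gl {F : Type*} [Field F] {n r : ℕ} (hr : r ≠ 0) {T : End F (Fin n → F)} (hT : T ^ r = 1) : ∃ g : GL (Fin n) F, Matrix.toLin' (g : Matrix (Fin n) (Fin n) F) = T := by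
  have h1 : IsUnit T := IsUnit.of_pow_eq_one hT hr
  have h2 : IsUnit (LinearMap.toMatrix' T) := by
    have := h1.map (LinearMap.toMatrixAlgEquiv' : End F (Fin n → F) ≃ₐ[F] Matrix (Fin n) (Fin n) F)
    exact this
  obtain ⟨g, hg⟩ := h2
  exact ⟨g, by rw [hg, Matrix.toLin'_toMatrix']⟩

/-- Number of conjugacy classes of elements of a given prime order r, coprime to the characteristic, in GL_n(q): if i is the multiplicative order of q modulo r and t = (r − 1)/i, the classes correspond to the non-zero t-tuples of natural numbers (a_1, …, a_t) with i(a_1 + ⋯ + a_t) ≤ n (a_j is the multiplicity of the j-th Frobenius orbit of nontrivial r-th roots of unity among the eigenvalues), so there are exactly C(⌊n/i⌋ + t, t) − 1 of them. -/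
theorem result {F : Type*} [Field F] [Fintype F] {p q : ℕ} [Fact p.Prime] [CharP F p] (hF : Fintype.card F = q) (n r i t : ℕ) (hr : r.Prime) (hrp : r ≠ p) (hi : i = orderOf (q : ZMod r)) (ht : t * i = r - 1) : Nat.card {C : ConjClasses (GL (Fin n) F) // ∃ g : GL (Fin n) F, ConjClasses.mk g = C ∧ orderOf g = r} = Nat.choose (n / i + t) t - 1 := by
  classical
  subst hF hi
  have hpos := ord_pos (F := F) hr hrp
  have hcard := card_fac (F := F) hr hrp
  have ht' : (fac F r).card = t := Nat.eq_of_mul_eq_mul_right hpos (hcard.trans ht.symm)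
  have key := CfsgLib.InvC.card_types (G := GL (Fin n) F) (fun g => orderOf g = r)
    (fun g => mult r (Matrix.toLin' (g : Matrix (Fin n) (Fin n) F))) ((bd (fac F r) (n / orderOf (Fintype.card F : ZMod r))).erase 0) ?_ ?_ ?_
  · rw [key, Finset.card_erase_of_mem (zero_mem_bd _), card_bd, Fintype.card_coe, ht']
  · intro g hg
    have hT : Matrix.toLin' (g : Matrix (Fin n) (Fin n) F) ^ r = 1 := by rw [lin_pow, lin_eq_one, ← hg, pow_orderOf_eq_one]
    rw [Finset.mem_erase, mem_bd]
    refine ⟨fun h0 => ?_, ?_⟩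
    · have h1 := eq_one_of_mult hr hrp hT h0
      rw [lin_eq_one] at h1
      rw [h1, orderOf_one] at hg
      exact hr.one_lt.ne hg
    · have h1 := mult_le hr hrp hT
      rw [Module.finrank_fin_fun] at h1
      rw [Nat.le_div_iff_mul_le hpos, mul_comm]
      exact h1
  · intro a ha
    rw [Finset.mem_erase, mem_bd, Nat.le_div_iff_mul_le hpos, mul_comm] at ha
    obtain ⟨T, hT, hm⟩ := exists_mult hr hrp a ha.2
    obtain ⟨g, hg⟩ := exists_gl hr.ne_zero hT
    refine ⟨g, ?_, by rw [hg]; exact hm⟩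
    haveI : Fact r.Prime := ⟨hr⟩
    apply orderOf_eq_prime
    · rw [← lin_eq_one, ← lin_pow, hg, hT]
    · intro h1
      rw [← lin_eq_one, hg] at h1
      apply ha.1
      rw [← hm, h1, mult_one hr hrp]
  · intro g h hg hh
    have hT : Matrix.toLin' (g : Matrix (Fin n) (Fin n) F) ^ r = 1 := by rw [lin_pow, lin_eq_one, ← hg, pow_orderOf_eq_one]
    have hT' : Matrix.toLin' (h : Matrix (Fin n) (Fin n) F) ^ r = 1 := by rw [lin_pow, lin_eq_one, ← hh, pow_orderOf_eq_one]
    constructor
    · intro hc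
      rw [isConj_iff] at hc
      obtain ⟨c, hc⟩ := hc
      let ψ : (Fin n → F) ≃ₗ[F] (Fin n → F) := LinearEquiv.ofLinear (Matrix.toLin' (c : Matrix (Fin n) (Fin n) F)) (Matrix.toLin' ((c⁻¹ : GL (Fin n) F) : Matrix (Fin n) (Fin n) F))
        (by rw [← Matrix.toLin'_mul, ← Units.val_mul, mul_inv_cancel, Units.val_one, Matrix.toLin'_one]) (by rw [← Matrix.toLin'_mul, ← Units.val_mul, inv_mul_cancel, Units.val_one, Matrix.toLin'_one])
      refine mult_congr ψ (fun v => ?_)
      show Matrix.toLin' (c : Matrix (Fin n) (Fin n) F) (Matrix.toLin' (g : Matrix (Fin n) (Fin n) F) v) = Matrix.toLin' (h : Matrix (Fin n) (Fin n) F) (Matrix.toLin' (c : Matrix (Fin n) (Fin n) F) v)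
      rw [← LinearMap.comp_apply, ← LinearMap.comp_apply, ← Matrix.toLin'_mul, ← Matrix.toLin'_mul, ← Units.val_mul, ← Units.val_mul, ← hc, inv_mul_cancel_right]
    · intro hm
      obtain ⟨ψ, hψ⟩ := conj_of_mult hr hrp hT hT' rfl hm
      exact CfsgLib.Cls.isConj_of_lin ψ (fun v => hψ v)

end Cfsg.Agent.S2568
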