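import Cfsg.Statements.S2571
import Cfsg.Agent.LibRegH13

set_option autoImplicit false
open Cfsg

namespace Cfsg.Agent.S2571

open Module CfsgLib.Reg
open Matrix (mulVec)
open scoped Matrix

/-- Centraliser of a regular unipotent element in GL_n(q): if u is an invertible n × n matrix over the field with q elements, n ≥ 1, with (u − 1)^n = 0 and rank(u − 1) = n − 1 (a single unipotent Jordan block), then its centraliser in GL_n(q) has order (q − 1) q^(n−1). -/
theorem result {F : Type*} [Field F] [Fintype F] {q n : ℕ} (hF : Fintype.card F = q) (hn : 1 ≤ n) (u : GL (Fin n) F) (hnil : ((u : Matrix (Fin n) (Fin n) F) - 1) ^ n = 0) (hreg : ((u : Matrix (Fin n) (Fin n) F) - 1).rank = n - 1) : Nat.card ↥(Subgroup.centralizer ({u} : Set (GL (Fin n) F))) = (q - 1) * q ^ (n - 1) := by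
  classical
  have h := of_matrix (n := n) hnil hreg (by simp)
  rw [← hF, ← card_units h hn]
  refine Nat.card_congr ((Units.mapEquiv (Matrix.toLinAlgEquiv' (R := F) (n := Fin n)).toMulEquiv).toEquiv.subtypeEquiv ?_)
  intro g
  rw [Subgroup.mem_centralizer_singleton_iff]
  have h1 : Commute (((Units.mapEquiv (Matrix.toLinAlgEquiv' (R := F) (n := Fin n)).toMulEquiv).toEquiv g : (End F (Fin n → F))ˣ) : End F (Fin n → F)) (Matrix.toLin' ((u : Matrix (Fin n) (Fin n) F) - 1)) ↔
      Commute (g : Matrix (Fin n) (Fin n) F) ((u : Matrix (Fin n) (Fin n) F) - 1) := by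
    constructor
    · intro hc
      apply (Matrix.toLinAlgEquiv' (R := F) (n := Fin n)).injective
      rw [map_mul, map_mul]
      exact hc
    · intro hc
      have := congrArg (Matrix.toLinAlgEquiv' (R := F) (n := Fin n)) hc
      rw [map_mul, map_mul] at this
      exact this
  rw [h1]
  constructor
  · intro hc
    apply Commute.sub_right _ (Commute.one_right _)
    exact congrArg Units.val hc
  · intro hc
    have := hc.add_right (Commute.one_right (g : Matrix (Fin n) (Fin n) F))
    rw [sub_add_cancel] at this
    exact Units.ext this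

end Cfsg.Agent.S2571
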