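import Cfsg.Statements.S2579
import Cfsg.Agent.LibInv2bH13
import Cfsg.Agent.LibClsH13

set_option autoImplicit false
open Cfsg

namespace Cfsg.Agent.S2579

open Module CfsgLib.Inv2 CfsgLib.Cls LinearMap
open Matrix (mulVec)
open scoped Matrix

theorem exists_comm' {F V : Type*} [Field F] [AddCommGroup V] [Module F V] [FiniteDimensional F V] (N N' : V →ₗ[F] V) (hN : ∀ x, N (N x) = 0) (hN' : ∀ x, N' (N' x) = 0)
    {r : ℕ} (hr : finrank F (range N) = r) (hr' : finrank F (range N') = r) (h0 : 2 * r < finrank F V) :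
    ∃ f : V →ₗ[F] V, LinearMap.det f = 1 ∧ ∀ x, f (N x) = N' (f x) := by
  obtain ⟨b1, h11, h12⟩ := exists_adapted N hN hr
  obtain ⟨b2, h21, h22⟩ := exists_adapted N' hN' hr'
  let e := b1.equiv b2 (Equiv.refl _)
  have he : ∀ j, e (b1 j) = b2 j := fun j => by rw [Basis.equiv_apply]; rfl
  have hd : LinearMap.det (e : V →ₗ[F] V) ≠ 0 := (LinearEquiv.isUnit_det' e).ne_zero
  set c := (LinearMap.det (e : V →ₗ[F] V))⁻¹ with hc
  let j0 : Fin (finrank F V - 2 * r) := ⟨0, by omega⟩
  let w : Fin (finrank F V - 2 * r) → F := fun i => if i = j0 then c else 1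
  let W : Fin r ⊕ (Fin r ⊕ Fin (finrank F V - 2 * r)) → F := Sum.elim (fun _ => 1) (Sum.elim (fun _ => 1) w)
  let D := Matrix.toLin b2 b2 (Matrix.diagonal W)
  have hD : ∀ j, D (b2 j) = W j • b2 j := fun j => toLin_diagonal _ _ j
  have hdet : LinearMap.det D = c := by
    rw [LinearMap.det_toLin, Matrix.det_diagonal, Fintype.prod_sum_type, Fintype.prod_sum_type]
    simp [W, w]
  refine ⟨D.comp (e : V →ₗ[F] V), ?_, comm_of_bases N N' b1 b2 h11 h12 h21 h22 _ (fun _ => 1) w ?_ ?_ ?_⟩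
  · rw [LinearMap.det_comp, hdet, hc, inv_mul_cancel₀ hd]
  · intro i
    show D (e _) = _
    rw [he, hD]; rfl
  · intro i
    show D (e _) = _
    rw [he, hD]; rfl
  · intro i
    show D (e _) = _
    rw [he, hD]; rfl

theorem tv_props {F : Type*} [Field F] {n : ℕ} {s : Matrix (Fin n) (Fin n) F} (hs : Cfsg.IsTransvection s) :
    (∀ x, Matrix.toLin' (s - 1) (Matrix.toLin' (s - 1) x) = 0) ∧ finrank F (range (Matrix.toLin' (s - 1))) = 1 := by
  refine ⟨fun x => ?_, ?_⟩
  · rw [Matrix.toLin'_apply, Matrix.toLin'_apply, Matrix.mulVec_mulVec, hs.2, Matrix.zero_mulVec]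
  · rw [Matrix.toLin'_apply']
    exact hs.1

theorem tv_conj {F : Type*} [Field F] {n : ℕ} (hn : 3 ≤ n) {s t : Matrix (Fin n) (Fin n) F} (hs : Cfsg.IsTransvection s) (ht : Cfsg.IsTransvection t) :
    ∃ f : (Fin n → F) →ₗ[F] (Fin n → F), LinearMap.det f = 1 ∧ ∀ x, f (Matrix.toLin' (s - 1) x) = Matrix.toLin' (t - 1) (f x) := by
  have h1 := tv_props hs
  have h2 := tv_props ht
  have h3 : finrank F (Fin n → F) = n := by rw [Module.finrank_fintype_fun_eq_card, Fintype.card_fin]
  generalize Matrix.toLin' (s - 1) = N at *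
  generalize Matrix.toLin' (t - 1) = N' at *
  exact exists_comm' N N' h1.1 h2.1 h1.2 h2.2 (by omega)

/-- In SL_n(F) with n ≥ 3, over a finite field F, any two transvections (matrices t with t − 1 of rank one and square zero) are conjugate by an element of SL_n(F). -/
theorem result {F : Type*} [Field F] [Finite F] {n : ℕ} (hn : 3 ≤ n) (s t : Matrix.SpecialLinearGroup (Fin n) F) (hs : Cfsg.IsTransvection (s : Matrix (Fin n) (Fin n) F)) (ht : Cfsg.IsTransvection (t : Matrix (Fin n) (Fin n) F)) : IsConj s t := by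
  obtain ⟨f, hf1, hf2⟩ := tv_conj hn hs ht
  have hdet : (LinearMap.toMatrix' f).det = 1 := by rw [LinearMap.det_toMatrix', hf1]
  let g : Matrix.SpecialLinearGroup (Fin n) F := ⟨LinearMap.toMatrix' f, hdet⟩
  have hg : g * s = t * g := by
    apply Subtype.ext
    show LinearMap.toMatrix' f * (s : Matrix (Fin n) (Fin n) F) = (t : Matrix (Fin n) (Fin n) F) * LinearMap.toMatrix' f
    apply mat_ext
    intro v
    have h1 := hf2 v
    simp only [map_sub, LinearMap.sub_apply, Matrix.toLin'_one, LinearMap.id_apply, Matrix.toLin'_apply] at h1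
    have h2 := sub_left_injective h1
    rw [← Matrix.mulVec_mulVec, ← Matrix.mulVec_mulVec, LinearMap.toMatrix'_mulVec, LinearMap.toMatrix'_mulVec]
    exact h2
  rw [isConj_iff]
  exact ⟨g, by rw [hg, mul_inv_cancel_right]⟩

end Cfsg.Agent.S2579
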