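import Cfsg.Statements.S2572
import Cfsg.Agent.LibInv2bH13
import Cfsg.Agent.LibClsH13
import Cfsg.Agent.S2579

set_option autoImplicit false
open Cfsg

namespace Cfsg.Agent.S2572

open Module CfsgLib.Inv2 CfsgLib.Cls LinearMap Cfsg.Agent.S2579
open Matrix (mulVec)
open scoped Matrix

section
variable {F : Type*} [Field F] {n : ℕ}

theorem rank_one_iff (N : Matrix (Fin n) (Fin n) F) : N.rank = 1 ↔ ∃ v w : Fin n → F, v ≠ 0 ∧ w ≠ 0 ∧ N = Matrix.vecMulVec v w := by
  classical
  constructor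
  · intro h
    have h' : finrank F (range N.mulVecLin) = 1 := h
    rw [finrank_eq_one_iff'] at h'
    obtain ⟨v, hv, hv2⟩ := h'
    have h3 : ∀ j, ∃ c : F, c • (v : Fin n → F) = N *ᵥ (Pi.single j 1) := by
      intro j
      obtain ⟨c, hc⟩ := hv2 ⟨N *ᵥ (Pi.single j 1), ⟨_, rfl⟩⟩
      exact ⟨c, congrArg Subtype.val hc⟩
    choose w hw using h3
    have hN : N = Matrix.vecMulVec (v : Fin n → F) w := by
      ext i j
      have := congrFun (hw j) i
      rw [Matrix.mulVec_single_one] at this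
      rw [Matrix.vecMulVec_apply]
      simp only [Pi.smul_apply, smul_eq_mul, Matrix.col_apply] at this
      rw [← this, mul_comm]
    refine ⟨v, w, fun h => hv (Subtype.ext h), ?_, hN⟩
    rintro rfl
    rw [Matrix.vecMulVec_zero] at hN
    subst hN
    rw [Matrix.rank_zero] at h
    exact absurd h (by norm_num)
  · rintro ⟨v, w, hv, hw, rfl⟩
    have h1 : range (Matrix.vecMulVec v w).mulVecLin = F ∙ v := by
      apply le_antisymm
      · rintro _ ⟨x, rfl⟩
        rw [Matrix.mulVecLin_apply, Matrix.vecMulVec_mulVec]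
        rw [Submodule.mem_span_singleton]
        exact ⟨w ⬝ᵥ x, by simp⟩
      · rw [Submodule.span_singleton_le_iff_mem]
        obtain ⟨j, hj⟩ : ∃ j, w j ≠ 0 := by
          by_contra hcon; push Not at hcon; exact hw (funext hcon)
        refine ⟨Pi.single j (w j)⁻¹, ?_⟩
        rw [Matrix.mulVecLin_apply, Matrix.vecMulVec_mulVec, dotProduct_single, mul_inv_cancel₀ hj]
        simp
    show finrank F (range (Matrix.vecMulVec v w).mulVecLin) = 1
    rw [h1]
    exact finrank_span_singleton hv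

theorem sq_zero_iff {v w : Fin n → F} (hv : v ≠ 0) (hw : w ≠ 0) : Matrix.vecMulVec v w * Matrix.vecMulVec v w = 0 ↔ w ⬝ᵥ v = 0 := by
  rw [Matrix.vecMulVec_mul_vecMulVec]
  constructor
  · intro h
    by_contra hne
    obtain ⟨i, hi⟩ : ∃ i, v i ≠ 0 := by
      by_contra hcon; push Not at hcon; exact hv (funext hcon)
    obtain ⟨j, hj⟩ : ∃ j, w j ≠ 0 := by
      by_contra hcon; push Not at hcon; exact hw (funext hcon)
    have := congrFun (congrFun h i) j
    simp [Matrix.vecMulVec_apply, hi, hj, hne] at this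
  · intro h
    rw [h]; simp

variable [Fintype F]

theorem card_pairs (hn : 1 ≤ n) : Nat.card {p : (Fin n → F) × (Fin n → F) // p.1 ≠ 0 ∧ p.2 ≠ 0 ∧ p.2 ⬝ᵥ p.1 = 0} =
    (Fintype.card F ^ n - 1) * (Fintype.card F ^ (n - 1) - 1) := by
  classical
  have hfib : ∀ v : {v : Fin n → F // v ≠ 0}, Nat.card {w : Fin n → F // w ≠ 0 ∧ w ⬝ᵥ v.1 = 0} = Fintype.card F ^ (n - 1) - 1 := by
    rintro ⟨v, hv⟩
    let φ : (Fin n → F) →ₗ[F] F :=
      { toFun := fun w => w ⬝ᵥ v
        map_add' := fun a b => add_dotProduct a b v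
        map_smul' := fun c a => smul_dotProduct c a v }
    have hφ : finrank F (ker φ) = n - 1 := by
      have h1 := finrank_range_add_finrank_ker φ
      have h2 : range φ = ⊤ := by
        rw [range_eq_top]
        obtain ⟨j, hj⟩ : ∃ j, v j ≠ 0 := by
          by_contra hcon; push Not at hcon; exact hv (funext hcon)
        intro c
        refine ⟨Pi.single j (c * (v j)⁻¹), ?_⟩
        show Pi.single j (c * (v j)⁻¹) ⬝ᵥ v = c
        rw [single_dotProduct]; field_simp
      rw [h2, finrank_top, finrank_self, Module.finrank_fintype_fun_eq_card, Fintype.card_fin] at h1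
      omega
    have h3 : Nat.card (ker φ) = Fintype.card F ^ (n - 1) := by
      rw [Module.natCard_eq_pow_finrank (K := F), hφ, Nat.card_eq_fintype_card]
    have h4 : Nat.card {w : Fin n → F // w ≠ 0 ∧ w ⬝ᵥ v = 0} = Nat.card {w : ker φ // w ≠ 0} := by
      refine Nat.card_congr
        { toFun := fun w => ⟨⟨w.1, w.2.2⟩, fun h => w.2.1 (congrArg Subtype.val h)⟩
          invFun := fun w => ⟨w.1.1, fun h => w.2 (Subtype.ext h), w.1.2⟩
          left_inv := fun w => rfl
          right_inv := fun w => rfl }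
    rw [h4, ← h3]
    rw [Nat.card_eq_fintype_card, Nat.card_eq_fintype_card, Fintype.card_subtype_compl, Fintype.card_subtype_eq]
  let e : {p : (Fin n → F) × (Fin n → F) // p.1 ≠ 0 ∧ p.2 ≠ 0 ∧ p.2 ⬝ᵥ p.1 = 0} ≃
      (Σ v : {v : Fin n → F // v ≠ 0}, {w : Fin n → F // w ≠ 0 ∧ w ⬝ᵥ v.1 = 0}) :=
    { toFun := fun p => ⟨⟨p.1.1, p.2.1⟩, ⟨p.1.2, p.2.2⟩⟩
      invFun := fun s => ⟨(s.1.1, s.2.1), s.1.2, s.2.2⟩
      left_inv := fun p => rfl
      right_inv := fun s => rfl }
  rw [Nat.card_congr e, Nat.card_sigma]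
  simp only [hfib]
  rw [Finset.sum_const, Finset.card_univ, smul_eq_mul]
  congr 1
  rw [Fintype.card_subtype_compl, Fintype.card_subtype_eq, Fintype.card_fun, Fintype.card_fin]

theorem card_X (hn : 1 ≤ n) : Nat.card {N : Matrix (Fin n) (Fin n) F // N.rank = 1 ∧ N * N = 0} * (Fintype.card F - 1) =
    (Fintype.card F ^ n - 1) * (Fintype.card F ^ (n - 1) - 1) := by
  classical
  rw [← card_pairs hn, ← Fintype.card_units, ← Nat.card_eq_fintype_card (α := Fˣ), ← Nat.card_prod]
  have hch : ∀ N : {N : Matrix (Fin n) (Fin n) F // N.rank = 1 ∧ N * N = 0}, ∃ p : (Fin n → F) × (Fin n → F),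
      p.1 ≠ 0 ∧ p.2 ≠ 0 ∧ N.1 = Matrix.vecMulVec p.1 p.2 := by
    rintro ⟨N, hN, -⟩
    obtain ⟨v, w, hv, hw, h⟩ := (rank_one_iff N).mp hN
    exact ⟨(v, w), hv, hw, h⟩
  choose p hp1 hp2 hp3 using hch
  refine Nat.card_congr (Equiv.ofBijective (fun x => ⟨((x.2 : F) • (p x.1).1, ((x.2⁻¹ : Fˣ) : F) • (p x.1).2), ?_, ?_, ?_⟩) ⟨?_, ?_⟩)
  · exact smul_ne_zero x.2.ne_zero (hp1 x.1)
  · exact smul_ne_zero (x.2⁻¹).ne_zero (hp2 x.1)
  · have h1 := x.1.2.2
    have h2 := hp3 x.1
    have h3 : (p x.1).2 ⬝ᵥ (p x.1).1 = 0 := by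
      rw [← sq_zero_iff (hp1 x.1) (hp2 x.1), ← h2]; exact h1
    simp only [smul_dotProduct, dotProduct_smul, h3, smul_zero]
  · rintro ⟨N, c⟩ ⟨N', c'⟩ h
    simp only [Subtype.mk.injEq, Prod.mk.injEq] at h
    obtain ⟨h1, h2⟩ := h
    have hN : N = N' := by
      apply Subtype.ext
      have e1 : N.1 = Matrix.vecMulVec ((c : F) • (p N).1) (((c⁻¹ : Fˣ) : F) • (p N).2) := by
        rw [Matrix.smul_vecMulVec, Matrix.vecMulVec_smul, smul_smul, Units.mul_inv, one_smul]
        exact hp3 N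
      have e2 : N'.1 = Matrix.vecMulVec ((c' : F) • (p N').1) (((c'⁻¹ : Fˣ) : F) • (p N').2) := by
        rw [Matrix.smul_vecMulVec, Matrix.vecMulVec_smul, smul_smul, Units.mul_inv, one_smul]
        exact hp3 N'
      rw [e1, e2, h1, h2]
    subst hN
    congr 1
    apply Units.ext
    exact smul_left_injective F (hp1 N) h1
  · rintro ⟨⟨v, w⟩, hv, hw, hvw⟩
    simp only at hv hw hvw
    let N : {N : Matrix (Fin n) (Fin n) F // N.rank = 1 ∧ N * N = 0} := ⟨Matrix.vecMulVec v w, (rank_one_iff _).mpr ⟨v, w, hv, hw, rfl⟩, (sq_zero_iff hv hw).mpr hvw⟩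
    have hN := hp3 N
    have hent : ∀ i j, v i * w j = (p N).1 i * (p N).2 j := by
      intro i j
      exact congrFun (congrFun hN i) j
    obtain ⟨j, hj⟩ : ∃ j, w j ≠ 0 := by
      by_contra hcon; push Not at hcon; exact hw (funext hcon)
    obtain ⟨i, hi⟩ : ∃ i, v i ≠ 0 := by
      by_contra hcon; push Not at hcon; exact hv (funext hcon)
    have hpj : (p N).2 j ≠ 0 := by
      intro h0
      have := hent i j
      rw [h0, mul_zero] at this
      exact mul_ne_zero hi hj this
    have hpi : (p N).1 i ≠ 0 := by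
      intro h0
      have := hent i j
      rw [h0, zero_mul] at this
      exact mul_ne_zero hi hj this
    refine ⟨(N, Units.mk0 ((p N).2 j / w j) (div_ne_zero hpj hj)), ?_⟩
    apply Subtype.ext
    apply Prod.ext
    · funext k
      simp only [Units.val_mk0, Pi.smul_apply, smul_eq_mul]
      have := hent k j
      field_simp
      linear_combination -this
    · funext k
      simp only [Units.val_inv_eq_inv_val, Units.val_mk0, Pi.smul_apply, smul_eq_mul]
      have h1 := hent i j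
      have h2 := hent i k
      -- w_j / p2_j * p2_k = w_k
      rw [inv_div, div_mul_eq_mul_div, div_eq_iff hpj]
      apply mul_left_cancel₀ hpi
      apply mul_left_cancel₀ hi
      linear_combination v i * w k * h1 - v i * w j * h2
end

/-- Centraliser of a transvection in GL_n(q), n ≥ 2: if t − 1 has rank one and square zero, the centraliser of t in GL_n(q) has order q^(2n−3) (q − 1) |GL_(n−2)(q)| (a group of order q^(2n−3) extended by GL_1(q) × GL_(n−2)(q)). -/
theorem result {F : Type*} [Field F] [Fintype F] {q n : ℕ} (hF : Fintype.card F = q) (hn : 2 ≤ n) (t : GL (Fin n) F) (ht : Cfsg.IsTransvection (t : Matrix (Fin n) (Fin n) F)) : Nat.card ↥(Subgroup.centralizer ({t} : Set (GL (Fin n) F))) = q ^ (2 * n - 3) * (q - 1) * ∏ i : Fin (n - 2), (q ^ (n - 2) - q ^ (i : ℕ)) := by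
  classical
  have hconj : ∀ y : GL (Fin n) F, IsConj t y ↔ Cfsg.IsTransvection (y : Matrix (Fin n) (Fin n) F) := by
    intro y
    constructor
    · rw [isConj_iff]
      rintro ⟨g, rfl⟩
      have h1 : (((g * t * g⁻¹ : GL (Fin n) F) : Matrix (Fin n) (Fin n) F) - 1) = (g : Matrix (Fin n) (Fin n) F) * ((t : Matrix (Fin n) (Fin n) F) - 1) * ((g⁻¹ : GL (Fin n) F) : Matrix (Fin n) (Fin n) F) := by
        rw [Units.val_mul, Units.val_mul, mul_sub, sub_mul, mul_one, Units.mul_inv]
      constructor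
      · rw [h1, Matrix.rank_mul_eq_left_of_isUnit_det, Matrix.rank_mul_eq_right_of_isUnit_det]
        · exact ht.1
        · exact (Matrix.isUnit_iff_isUnit_det _).mp g.isUnit
        · exact (Matrix.isUnit_iff_isUnit_det _).mp (g⁻¹).isUnit
      · rw [h1]
        calc _ = (g : Matrix (Fin n) (Fin n) F) * ((t : Matrix (Fin n) (Fin n) F) - 1) * (((g⁻¹ : GL (Fin n) F) : Matrix (Fin n) (Fin n) F) * (g : Matrix (Fin n) (Fin n) F)) * ((t : Matrix (Fin n) (Fin n) F) - 1) * ((g⁻¹ : GL (Fin n) F) : Matrix (Fin n) (Fin n) F) := by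
              simp only [Matrix.mul_assoc]
          _ = 0 := by
              rw [Units.inv_mul, mul_one, Matrix.mul_assoc _ ((t : Matrix (Fin n) (Fin n) F) - 1) ((t : Matrix (Fin n) (Fin n) F) - 1), ht.2]
              simp
    · intro hy
      have h1 := tv_props ht
      have h2 := tv_props hy
      obtain ⟨b1, h11, h12⟩ := exists_adapted _ h1.1 h1.2
      obtain ⟨b2, h21, h22⟩ := exists_adapted _ h2.1 h2.2
      let e := b1.equiv b2 (Equiv.refl _)
      have he : ∀ j, e (b1 j) = b2 j := fun j => by rw [Basis.equiv_apply]; rfl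
      apply isConj_of_lin e
      intro v
      have := comm_of_bases _ _ b1 b2 h11 h12 h21 h22 (e : (Fin n → F) →ₗ[F] (Fin n → F)) (fun _ => 1) (fun _ => 1)
        (fun i => by rw [one_smul]; exact he _) (fun i => by rw [one_smul]; exact he _) (fun i => by rw [one_smul]; exact he _) v
      simp only [map_sub, LinearMap.sub_apply, Matrix.toLin'_one, LinearMap.id_apply, Matrix.toLin'_apply] at this
      exact sub_left_injective this
  have hcls : Nat.card {y : GL (Fin n) F // IsConj t y} = Nat.card {N : Matrix (Fin n) (Fin n) F // N.rank = 1 ∧ N * N = 0} := by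
    refine Nat.card_congr
      { toFun := fun y => ⟨(y.1 : Matrix (Fin n) (Fin n) F) - 1, (hconj y.1).mp y.2⟩
        invFun := fun N => ⟨⟨1 + N.1, 1 - N.1, ?_, ?_⟩, (hconj _).mpr ?_⟩
        left_inv := fun y => ?_
        right_inv := fun N => ?_ }
    · rw [add_mul, one_mul, mul_sub, mul_one, N.2.2]; abel
    · rw [mul_add, mul_one, sub_mul, one_mul, N.2.2]; abel
    · have : (((⟨1 + N.1, 1 - N.1, by rw [add_mul, one_mul, mul_sub, mul_one, N.2.2]; abel, by rw [mul_add, mul_one, sub_mul, one_mul, N.2.2]; abel⟩ : GL (Fin n) F) : Matrix (Fin n) (Fin n) F) - 1) = N.1 := by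
        show (1 + N.1) - 1 = N.1
        rw [add_sub_cancel_left]
      constructor
      · rw [this]; exact N.2.1
      · rw [this]; exact N.2.2
    · apply Subtype.ext
      apply Units.ext
      show 1 + ((y.1 : Matrix (Fin n) (Fin n) F) - 1) = _
      rw [add_sub_cancel]
    · apply Subtype.ext
      show (1 + N.1) - 1 = N.1
      rw [add_sub_cancel_left]
  have h1 := card_centralizer_mul t
  have h2 := card_X (F := F) (n := n) (by omega)
  rw [hcls, Matrix.card_GL_field] at h1
  rw [hF] at h1 h2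
  obtain ⟨k, rfl⟩ : ∃ k, n = k + 2 := ⟨n - 2, by omega⟩
  have hq : 1 < q := by rw [← hF]; exact Fintype.one_lt_card
  set X := Nat.card {N : Matrix (Fin (k + 2)) (Fin (k + 2)) F // N.rank = 1 ∧ N * N = 0} with hX
  have h3 : ∏ i : Fin (k + 2), (q ^ (k + 2) - q ^ (i : ℕ)) = (q ^ (k + 2) - 1) * (q * (q ^ (k + 1) - 1)) * (q ^ (2 * k) * ∏ i : Fin k, (q ^ k - q ^ (i : ℕ))) := by
    rw [Fin.prod_univ_succ, Fin.prod_univ_succ]
    simp only [Fin.val_zero, pow_zero, Fin.val_succ]
    rw [← mul_assoc]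
    congr 1
    · congr 1
      rw [Nat.mul_sub, mul_one, ← pow_succ', zero_add, pow_one]
    · rw [show q ^ (2 * k) = ∏ _i : Fin k, q ^ 2 by rw [Finset.prod_const, Finset.card_univ, Fintype.card_fin, ← pow_mul], ← Finset.prod_mul_distrib]
      refine Finset.prod_congr rfl fun i _ => ?_
      rw [Nat.mul_sub, ← pow_add, ← pow_add]
      congr 2 <;> omega
  rw [h3] at h1
  rw [show k + 2 - 1 = k + 1 by omega] at h2
  have hXpos : 0 < X * (q - 1) := by
    rw [h2]
    have e1 : 1 < q ^ (k + 2) := Nat.one_lt_pow (by omega) hq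
    have e2 : 1 < q ^ (k + 1) := Nat.one_lt_pow (by omega) hq
    exact Nat.mul_pos (by omega) (by omega)
  apply Nat.eq_of_mul_eq_mul_right hXpos
  rw [← mul_assoc, h1]
  rw [show 2 * (k + 2) - 3 = 2 * k + 1 by omega, show k + 2 - 2 = k by omega]
  calc _ = ((q ^ (k + 2) - 1) * (q ^ (k + 1) - 1)) * (q ^ (2 * k + 1) * (q - 1) * ∏ i : Fin k, (q ^ k - q ^ (i : ℕ))) := by
        rw [pow_succ]; ring
    _ = _ := by rw [← h2]; ring

end Cfsg.Agent.S2572
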