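import Cfsg.Statements.S2574
import Cfsg.Agent.LibRegH13
import Cfsg.Agent.LibH22Sp

set_option autoImplicit false
open Cfsg

namespace Cfsg.Agent.S2574

open Module CfsgLib.Reg Cfsg.Agent.H22
open Matrix (mulVec)
open scoped Matrix

/-- A regular unipotent element of the symplectic group has totally isotropic small invariant subspaces: over a finite field, if u ∈ Sp_2m(F) satisfies (u − 1)^(2m) = 0 and rank(u − 1) = 2m − 1, and W is a u-invariant subspace with 2 dim W ≤ 2m, then the alternating form vanishes identically on W. -/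
theorem result {F : Type*} [Field F] [Finite F] {m : ℕ} (u : Matrix.symplecticGroup (Fin m) F) (hnil : ((u : Matrix (Fin m ⊕ Fin m) (Fin m ⊕ Fin m) F) - 1) ^ (2 * m) = 0) (hreg : ((u : Matrix (Fin m ⊕ Fin m) (Fin m ⊕ Fin m) F) - 1).rank = 2 * m - 1) (W : Submodule F (Fin m ⊕ Fin m → F)) (hW : ∀ v ∈ W, (u : Matrix (Fin m ⊕ Fin m) (Fin m ⊕ Fin m) F).mulVec v ∈ W) (hdim : 2 * Module.finrank F W ≤ 2 * m) : ∀ v ∈ W, ∀ w ∈ W, Cfsg.sympForm m F v w = 0 := by
  classical
  have h := of_matrix (n := 2 * m) hnil hreg (by simp; omega)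
  have hinv : ∀ v ∈ W, Matrix.toLin' ((u : Matrix (Fin m ⊕ Fin m) (Fin m ⊕ Fin m) F) - 1) v ∈ W := by
    intro v hv
    rw [Matrix.toLin'_apply, Matrix.sub_mulVec, Matrix.one_mulVec]
    exact W.sub_mem (hW v hv) hv
  have h1 := h.invariant_eq W hinv
  set d := finrank F W with hd
  have h2 := h.range_pow (k := 2 * m - d) (by omega)
  rw [show 2 * m - (2 * m - d) = d by omega] at h2
  rw [← h1] at h2
  set N := Matrix.toLin' ((u : Matrix (Fin m ⊕ Fin m) (Fin m ⊕ Fin m) F) - 1) with hN
  -- adjoint: f(N x, y) = f(x, N' y), N' = u⁻¹ - 1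
  set U := spToLin (F := F) u with hU
  have hUN : ∀ x, N x = U x - x := by
    intro x
    rw [hN, Matrix.toLin'_apply, Matrix.sub_mulVec, Matrix.one_mulVec, hU, spToLin_apply]
  have hadj : ∀ x y, spB m F (N x) y = spB m F x (-(U.symm (N y))) := by
    intro x y
    have e1 : spB m F (U x) y = spB m F x (U.symm y) := by
      conv_lhs => rw [← LinearEquiv.apply_symm_apply U y]
      exact spToLin_isometry u _ _
    rw [hUN, hUN, map_sub U.symm, LinearEquiv.symm_apply_apply, neg_sub, map_sub (spB m F x), map_sub (spB m F), LinearMap.sub_apply, e1]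
  have hadjk : ∀ k x y, (∀ j, (N ^ j) y = 0 → True) → ∃ z, spB m F ((N ^ k) x) y = spB m F x z ∧ ∃ g : End F (Fin m ⊕ Fin m → F), z = g ((N ^ k) y) := by
    intro k
    induction k with
    | zero => intro x y _; exact ⟨y, rfl, 1, rfl⟩
    | succ k ih =>
      intro x y hh
      obtain ⟨z, hz, g, hg⟩ := ih x (-(U.symm (N y))) (fun _ _ => trivial)
      refine ⟨z, ?_, ?_⟩
      · rw [pow_succ', Module.End.mul_apply, hadj, hz]
      · have hc : ∀ j, ∀ w, (N ^ j) (U.symm w) = U.symm ((N ^ j) w) := by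
          have h0 : ∀ w, N (U.symm w) = U.symm (N w) := by
            intro w
            rw [hUN, hUN, map_sub U.symm, LinearEquiv.symm_apply_apply, LinearEquiv.apply_symm_apply]
          intro j
          induction j with
          | zero => intro w; rfl
          | succ j ihj => intro w; rw [pow_succ', Module.End.mul_apply, ihj, h0, Module.End.mul_apply]
        refine ⟨-(g * (U.symm : (Fin m ⊕ Fin m → F) →ₗ[F] (Fin m ⊕ Fin m → F))), ?_⟩
        rw [hg, map_neg, hc, map_neg, LinearMap.neg_apply, Module.End.mul_apply, pow_succ]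
        rfl
  intro v hv w hw
  rw [← spB_apply]
  rw [← h2] at hv
  obtain ⟨x, rfl⟩ := hv
  obtain ⟨z, hz, g, hg⟩ := hadjk (2 * m - d) x w (fun _ _ => trivial)
  have hw0 : (N ^ (2 * m - d)) w = 0 := by
    rw [h1] at hw
    rw [show 2 * m - d = (2 * m - d - d) + d by omega, pow_add, Module.End.mul_apply]
    rw [LinearMap.mem_ker] at hw
    rw [hw, map_zero]
  rw [hz, hg, hw0, map_zero, map_zero]

end Cfsg.Agent.S2574
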