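import Cfsg.Statements.S2575
import Mathlib

set_option autoImplicit false
open Cfsg

namespace Cfsg.Agent.S2575

open Module

/-- In a finite field of odd order `q`, an element `ζ` of order `2^(v2 (q-1))`, it generates the Sylow 2-subgroup. -/
theorem exists_order {F : Type*} [Field F] [Fintype F] (k : ℕ) (hk : k ∣ Fintype.card F - 1) : ∃ c : F, c ≠ 0 ∧ orderOf c = k := by
  classical
  obtain ⟨g, hg⟩ := IsCyclic.exists_generator (α := Fˣ)
  have ho : orderOf g = Fintype.card F - 1 := by
    rw [orderOf_eq_card_of_forall_mem_zpowers hg, Nat.card_eq_fintype_card, Fintype.card_units]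
  obtain ⟨m, hm⟩ := hk
  have hpos : 0 < Fintype.card F - 1 := by
    have := Fintype.one_lt_card (α := F); omega
  have hm0 : 0 < m := by
    rcases Nat.eq_zero_or_pos m with h | h
    · subst h; omega
    · exact h
  refine ⟨((g ^ m : Fˣ) : F), Units.ne_zero _, ?_⟩
  rw [orderOf_units, orderOf_pow, ho, hm]
  rw [Nat.gcd_eq_right (Dvd.intro_left k rfl)]
  exact Nat.mul_div_cancel _ hm0

theorem neg_one_ne {F : Type*} [Field F] [Fintype F] {q : ℕ} (hF : Fintype.card F = q) (hq : Odd q) : (-1 : F) ≠ 1 := by
  intro h
  have h2 : ringChar F = 2 := by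
    have : ((2 : ℕ) : F) = 0 := by push_cast; linear_combination -h
    have h3 := (ringChar.spec F 2).mp this
    exact ((Nat.dvd_prime Nat.prime_two).mp h3).resolve_left (CharP.char_ne_one F (ringChar F))
  have := FiniteField.even_card_of_char_two h2
  rw [hF] at this
  rw [Nat.odd_iff] at hq
  omega

/-- Which diagonal involutions of PGL_n(q) lie in PSL_n(q), q odd: for the diagonal matrix t with i entries −1 and n − i entries 1, some non-zero scalar multiple of t has determinant one if and only if i is even or the 2-part of q − 1 exceeds the 2-part of n (that is, −1 is an n-th power in the field exactly in the latter case). -/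
theorem result {F : Type*} [Field F] [Fintype F] {q : ℕ} (hF : Fintype.card F = q) (hq : Odd q) {n : ℕ} (hn : 1 ≤ n) (i : ℕ) (hi : i ≤ n) : (∃ c : F, c ≠ 0 ∧ (c • Matrix.diagonal (fun j : Fin n => if (j : ℕ) < i then (-1 : F) else 1)).det = 1) ↔ (Even i ∨ padicValNat 2 n < padicValNat 2 (q - 1)) := by
  classical
  have hne := neg_one_ne hF hq
  have hdet : ∀ c : F, (c • Matrix.diagonal (fun j : Fin n => if (j : ℕ) < i then (-1 : F) else 1)).det = c ^ n * (-1) ^ i := by
    intro c
    rw [Matrix.det_smul, Fintype.card_fin, Matrix.det_diagonal]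
    congr 1
    rw [Finset.prod_ite, Finset.prod_const_one, mul_one, Finset.prod_const]
    congr 1
    rw [Fin.card_filter_val_lt]
    omega
  simp only [hdet]
  have hq1 : 0 < q - 1 := by
    have := Fintype.one_lt_card (α := F); omega
  constructor
  · rintro ⟨c, hc0, hc⟩
    by_contra hcon
    push Not at hcon
    obtain ⟨hi1, hi2⟩ := hcon
    rw [Nat.not_even_iff_odd] at hi1
    rw [hi1.neg_one_pow] at hc
    have hcn : c ^ n = -1 := by linear_combination -hc
    obtain ⟨m', hm'⟩ : 2 ^ padicValNat 2 (q - 1) ∣ q - 1 := pow_padicValNat_dvd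
    have hm'odd : Odd m' := by
      rw [← Nat.not_even_iff_odd, even_iff_two_dvd]
      rintro ⟨k, hk⟩
      have : 2 ^ (padicValNat 2 (q - 1) + 1) ∣ q - 1 := ⟨k, by rw [pow_succ, mul_assoc, ← hk]; exact hm'⟩
      rw [padicValNat_dvd_iff_le (by omega)] at this
      omega
    have hd : q - 1 ∣ n * m' := by
      have : 2 ^ padicValNat 2 (q - 1) ∣ n := by
        rw [padicValNat_dvd_iff_le (by omega)]; exact hi2
      exact (Eq.dvd hm').trans (Nat.mul_dvd_mul_right this m')
    obtain ⟨k, hk⟩ := hd
    have h1 : c ^ (n * m') = 1 := by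
      rw [hk, pow_mul, ← hF, FiniteField.pow_card_sub_one_eq_one c hc0, one_pow]
    rw [pow_mul, hcn, hm'odd.neg_one_pow] at h1
    exact hne h1
  · rintro (h | h)
    · exact ⟨1, one_ne_zero, by rw [one_pow, h.neg_one_pow, one_mul]⟩
    · rcases Nat.even_or_odd i with hi' | hi'
      · exact ⟨1, one_ne_zero, by rw [one_pow, hi'.neg_one_pow, one_mul]⟩
      · obtain ⟨n', hn'⟩ : 2 ^ padicValNat 2 n ∣ n := pow_padicValNat_dvd
        have hn'odd : Odd n' := by
          rw [← Nat.not_even_iff_odd, even_iff_two_dvd]
          rintro ⟨k, hk⟩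
          have : 2 ^ (padicValNat 2 n + 1) ∣ n := ⟨k, by rw [pow_succ, mul_assoc, ← hk]; exact hn'⟩
          rw [padicValNat_dvd_iff_le (by omega)] at this
          omega
        obtain ⟨c, hc0, hc⟩ := exists_order (F := F) (2 ^ (padicValNat 2 n + 1)) (by
          rw [hF, padicValNat_dvd_iff_le (by omega)]; omega)
        refine ⟨c, hc0, ?_⟩
        have h1 : c ^ (2 ^ padicValNat 2 n) = -1 := by
          have h2 : (c ^ (2 ^ padicValNat 2 n)) ^ 2 = 1 := by
            rw [← pow_mul, ← pow_succ, ← hc, pow_orderOf_eq_one]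
          have h2' : (c ^ (2 ^ padicValNat 2 n) - 1) * (c ^ (2 ^ padicValNat 2 n) + 1) = 0 := by linear_combination h2
          rcases (mul_eq_zero.mp h2').imp (fun h => sub_eq_zero.mp h) (fun h => eq_neg_of_add_eq_zero_left h) with h3 | h3
          · exfalso
            have := orderOf_dvd_of_pow_eq_one h3
            rw [hc] at this
            have := Nat.le_of_dvd (by positivity) this
            rw [pow_succ] at this
            have : 0 < 2 ^ padicValNat 2 n := by positivity
            omega
          · exact h3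
        rw [hi'.neg_one_pow]
        conv_lhs => rw [hn']
        rw [pow_mul, h1, hn'odd.neg_one_pow]
        ring

end Cfsg.Agent.S2575
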