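import Cfsg.Statements.S2576
import Mathlib
import Cfsg.Agent.S2575

set_option autoImplicit false
open Cfsg

namespace Cfsg.Agent.S2576

open Module

theorem key {F : Type*} [Field F] [Fintype F] {q : ℕ} (hF : Fintype.card F = q) (hq : Odd q) {m : ℕ} (hm : 1 ≤ m) (μ : F)
    (hμ : orderOf μ = 2 ^ padicValNat 2 (q - 1)) (h1 : q % 4 = 1) :
    (∃ c : F, c ≠ 0 ∧ c ^ (2 * m) * (-μ) ^ m = 1) ↔ padicValNat 2 (q - 1) < padicValNat 2 (2 * m) := by
  classical
  have hne := Cfsg.Agent.S2575.neg_one_ne hF hq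
  have hq1 : 0 < q - 1 := by
    have := Fintype.one_lt_card (α := F); omega
  set a := padicValNat 2 (q - 1) with ha
  have ha2 : 2 ≤ a := by
    rw [ha, ← padicValNat_dvd_iff_le (by omega)]
    omega
  have hμ0 : μ ≠ 0 := by
    rintro rfl
    rw [orderOf_zero] at hμ
    have : 0 < 2 ^ a := by positivity
    omega
  have h2m : padicValNat 2 (2 * m) = padicValNat 2 m + 1 := by
    rw [padicValNat.mul (by norm_num) (by omega)]
    have : padicValNat 2 2 = 1 := padicValNat_self
    omega
  have hpow : ∀ k, 0 < k → ∃ k', k = 2 ^ padicValNat 2 k * k' ∧ Odd k' := by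
    intro k hk
    obtain ⟨n', hn'⟩ : 2 ^ padicValNat 2 k ∣ k := pow_padicValNat_dvd
    refine ⟨n', hn', ?_⟩
    rw [← Nat.not_even_iff_odd, even_iff_two_dvd]
    rintro ⟨j, hj⟩
    have : 2 ^ (padicValNat 2 k + 1) ∣ k := ⟨j, by rw [pow_succ, mul_assoc, ← hj]; exact hn'⟩
    rw [padicValNat_dvd_iff_le (by omega)] at this
    omega
  -- order of -μ is 2^a
  have hμh : μ ^ (2 ^ (a - 1)) = -1 := by
    have h2 : (μ ^ (2 ^ (a - 1))) ^ 2 = 1 := by
      rw [← pow_mul, ← pow_succ, show a - 1 + 1 = a by omega, ← hμ, pow_orderOf_eq_one]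
    have h2' : (μ ^ (2 ^ (a - 1)) - 1) * (μ ^ (2 ^ (a - 1)) + 1) = 0 := by linear_combination h2
    rcases (mul_eq_zero.mp h2').imp (fun h => sub_eq_zero.mp h) (fun h => eq_neg_of_add_eq_zero_left h) with h3 | h3
    · exfalso
      have := orderOf_dvd_of_pow_eq_one h3
      rw [hμ] at this
      have := Nat.le_of_dvd (by positivity) this
      have h5 : 2 ^ a = 2 ^ (a - 1) * 2 := by rw [← pow_succ]; congr 1; omega
      have : 0 < 2 ^ (a - 1) := by positivity
      omega
    · exact h3
  have hμh' : (-μ) ^ (2 ^ (a - 1)) = -1 := by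
    rw [Even.neg_pow]
    · exact hμh
    · rw [Nat.even_pow]; exact ⟨even_two, by omega⟩
  obtain ⟨m', hm', hm'o⟩ := hpow m (by omega)
  obtain ⟨r, hr, hro⟩ := hpow (q - 1) hq1
  rw [← ha] at hr
  set b := padicValNat 2 m with hb
  rw [h2m]
  have hflt : ∀ c : F, c ≠ 0 → c ^ (q - 1) = 1 := fun c hc => by rw [← hF]; exact FiniteField.pow_card_sub_one_eq_one c hc
  constructor
  · rintro ⟨c, hc0, hc⟩
    by_contra hcon
    push Not at hcon
    -- b + 1 ≤ a;   raise to power  2^(a-1-b) * r : c^(2m * 2^(a-1-b) r) = 1; (-μ)^(m 2^(a-1-b) r) = (-1)^(m' r) = -1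
    have h3 := congrArg (· ^ (2 ^ (a - 1 - b) * r)) hc
    simp only [one_pow, mul_pow] at h3
    have h4 : (c ^ (2 * m)) ^ (2 ^ (a - 1 - b) * r) = 1 := by
      rw [← pow_mul]
      have : 2 * m * (2 ^ (a - 1 - b) * r) = (q - 1) * m' := by
        conv_lhs => rw [hm']
        rw [hr]
        have : 2 ^ a = 2 * 2 ^ b * 2 ^ (a - 1 - b) := by
          rw [← pow_succ', ← pow_add]; congr 1; omega
        rw [this]; ring
      rw [this, pow_mul, hflt c hc0, one_pow]
    have h5 : ((-μ) ^ m) ^ (2 ^ (a - 1 - b) * r) = -1 := by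
      rw [← pow_mul]
      have : m * (2 ^ (a - 1 - b) * r) = 2 ^ (a - 1) * (m' * r) := by
        conv_lhs => rw [hm']
        have : 2 ^ (a - 1) = 2 ^ b * 2 ^ (a - 1 - b) := by
          rw [← pow_add]; congr 1; omega
        rw [this]; ring
      rw [this, pow_mul, hμh', (hm'o.mul hro).neg_one_pow]
    rw [h4, h5, one_mul] at h3
    exact hne h3
  · intro h
    refine ⟨1, one_ne_zero, ?_⟩
    rw [one_pow, one_mul]
    have : m = 2 ^ (a - 1) * (2 * (2 ^ (b - a) * m')) := by
      conv_lhs => rw [hm']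
      have : 2 ^ b = 2 ^ (a - 1) * 2 * 2 ^ (b - a) := by
        rw [← pow_succ, ← pow_add]; congr 1; omega
      rw [this]; ring
    rw [this, pow_mul, hμh', pow_mul]
    norm_num

/-- Which involutions of PGL_2m(q) coming from a scalar of the quadratic extension field lie in PSL_2m(q), q odd: let μ generate the Sylow 2-subgroup of the multiplicative group of the field with q elements (μ has order the 2-part of q − 1) and let t be the block-diagonal matrix with m diagonal blocks [[0, 1], [μ, 0]] (so t² is the scalar μ and t is an involution modulo scalars). Then some non-zero scalar multiple of t has determinant one if and only if q ≡ 3 (mod 4) or the 2-part of q − 1 is less than the 2-part of 2m. -/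
theorem result {F : Type*} [Field F] [Fintype F] {q : ℕ} (hF : Fintype.card F = q) (hq : Odd q) {m : ℕ} (hm : 1 ≤ m) (μ : F) (hμ : orderOf μ = 2 ^ padicValNat 2 (q - 1)) : (∃ c : F, c ≠ 0 ∧ (c • Matrix.blockDiagonal (fun _ : Fin m => !![(0 : F), 1; μ, 0])).det = 1) ↔ (q % 4 = 3 ∨ padicValNat 2 (q - 1) < padicValNat 2 (2 * m)) := by
  classical
  have hdet : ∀ c : F, (c • Matrix.blockDiagonal (fun _ : Fin m => !![(0 : F), 1; μ, 0])).det = c ^ (2 * m) * (-μ) ^ m := by
    intro c
    rw [Matrix.det_smul, Matrix.det_blockDiagonal]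
    simp only [Fintype.card_prod, Fintype.card_fin, Matrix.det_fin_two_of, Finset.prod_const, Finset.card_univ]
    ring
  simp only [hdet]
  have h4 : q % 4 = 1 ∨ q % 4 = 3 := by
    rw [Nat.odd_iff] at hq; omega
  rcases h4 with h | h
  · rw [key hF hq hm μ hμ h]
    omega
  · have hne := Cfsg.Agent.S2575.neg_one_ne hF hq
    have ha : padicValNat 2 (q - 1) = 1 := by
      have h1 : 1 ≤ padicValNat 2 (q - 1) := by
        rw [← padicValNat_dvd_iff_le (by omega)]
        omega
      have h2 : ¬ 2 ≤ padicValNat 2 (q - 1) := by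
        rw [← padicValNat_dvd_iff_le (by omega)]
        omega
      omega
    rw [ha, pow_one] at hμ
    have hμ1 : μ = -1 := by
      have h2 : μ ^ 2 = 1 := by rw [← hμ, pow_orderOf_eq_one]
      have h2' : (μ - 1) * (μ + 1) = 0 := by linear_combination h2
      rcases (mul_eq_zero.mp h2').imp (fun h => sub_eq_zero.mp h) (fun h => eq_neg_of_add_eq_zero_left h) with h3 | h3
      · rw [h3, orderOf_one] at hμ; omega
      · exact h3
    constructor
    · intro _; exact Or.inl h
    · intro _
      exact ⟨1, one_ne_zero, by rw [hμ1]; simp⟩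

end Cfsg.Agent.S2576
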