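import Cfsg.Statements.S2670
import Cfsg.Agent.LibPG6H13

set_option autoImplicit false
open Cfsg

namespace Cfsg.Agent.S2670

open CfsgLib.PG

theorem aux {F : Type*} [Field F] [Fintype F] {n r : ℕ} (hn : 0 < n) (hr : r.Prime) (hrq : r ∣ Fintype.card F - 1) : Nat.card {C : ConjClasses (GL (Fin n) F ⧸ Subgroup.center (GL (Fin n) F)) // ∃ g : GL (Fin n) F ⧸ Subgroup.center (GL (Fin n) F), ConjClasses.mk g = C ∧ orderOf g = r} = (Nat.choose (n + r - 1) (r - 1) - r - (if r ∣ n then 1 else 0)) / r + r * (if r ∣ n then 1 else 0) := by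
  obtain ⟨p, hp⟩ := CharP.exists F
  haveI : Fact p.Prime := ⟨CharP.char_is_prime F p⟩
  have hrp : r ≠ p := by
    rintro rfl
    have h1 : r ∣ Fintype.card F := (CharP.cast_eq_zero_iff F r _).1 (FiniteField.cast_card_eq_zero F)
    have h2 := Fintype.card_pos (α := F)
    have h3 := (Nat.dvd_sub_iff_right h2 h1).1 hrq
    exact hr.one_lt.ne' (Nat.dvd_one.1 h3)
  have hd : r ∣ Nat.card Fˣ := by rw [Nat.card_units, Nat.card_eq_fintype_card]; exact hrq
  obtain ⟨ζ, -, hζ⟩ := exists_prim hr hd
  exact main (p := p) hr hrp hζ (setup_gl hd) hn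

/-- Number of conjugacy classes of elements of prime order r in PGL_n(q) = GL_n(q)/scalars when r divides q − 1 (n ≥ 2): the classes of elements with a diagonalisable lift correspond to the orbits of the cyclic rotation on the r-tuples of eigenvalue multiplicities (a_0, …, a_(r−1)) summing to n with every a_j < n, and when r divides n there are r − 1 further classes (lifts acting irreducibly on blocks of size r); in all (C(n+r−1, r−1) − r − [r ∣ n])/r + r·[r ∣ n] classes. -/
theorem result {F : Type*} [Field F] [Fintype F] {q : ℕ} (hF : Fintype.card F = q) {n r : ℕ} (hn : 2 ≤ n) (hr : r.Prime) (hrq : r ∣ q - 1) : Nat.card {C : ConjClasses (GL (Fin n) F ⧸ Subgroup.center (GL (Fin n) F)) // ∃ g : GL (Fin n) F ⧸ Subgroup.center (GL (Fin n) F), ConjClasses.mk g = C ∧ orderOf g = r} = (Nat.choose (n + r - 1) (r - 1) - r - (if r ∣ n then 1 else 0)) / r + r * (if r ∣ n then 1 else 0) := by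
  subst hF
  exact aux (by omega) hr hrq

end Cfsg.Agent.S2670
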