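import Cfsg.Statements.S2578
import Cfsg.Agent.LibClsH13

set_option autoImplicit false
open Cfsg

namespace Cfsg.Agent.S2578

open Module CfsgLib.Reg CfsgLib.Cls
open Matrix (mulVec)
open scoped Matrix

/-- Regular unipotent classes of SL_n(q): for n ≥ 2 over the field with q elements, the matrices u of determinant one with (u − 1)^n = 0 and rank(u − 1) = n − 1 form a single GL_n(q)-class which splits into exactly gcd(n, q − 1) conjugacy classes of SL_n(q). -/
theorem result {F : Type*} [Field F] [Fintype F] {q : ℕ} (hF : Fintype.card F = q) {n : ℕ} (hn : 2 ≤ n) : Nat.card {C : ConjClasses (Matrix.SpecialLinearGroup (Fin n) F) // ∃ u : Matrix.SpecialLinearGroup (Fin n) F, ConjClasses.mk u = C ∧ ((u : Matrix (Fin n) (Fin n) F) - 1) ^ n = 0 ∧ ((u : Matrix (Fin n) (Fin n) F) - 1).rank = n - 1} = Nat.gcd n (q - 1) := by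
  classical
  obtain ⟨M, hM1, hM2⟩ := exists_regular F n
  have hdet : (1 + M).det = 1 := by
    have h1 : IsNilpotent (Matrix.toLin' M) := ⟨n, by rw [← Matrix.toLin'_pow, hM1, map_zero]⟩
    have h2 := det_one_add h1
    rw [← LinearMap.det_toLin', map_add, Matrix.toLin'_one]
    exact h2
  let x : Matrix.SpecialLinearGroup (Fin n) F := ⟨1 + M, hdet⟩
  have hx : (((x : Matrix.SpecialLinearGroup (Fin n) F) : Matrix (Fin n) (Fin n) F) - 1) ^ n = 0 ∧ (((x : Matrix.SpecialLinearGroup (Fin n) F) : Matrix (Fin n) (Fin n) F) - 1).rank = n - 1 := by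
    have : ((x : Matrix.SpecialLinearGroup (Fin n) F) : Matrix (Fin n) (Fin n) F) - 1 = M := by
      show (1 + M) - 1 = M
      rw [add_sub_cancel_left]
    rw [this]; exact ⟨hM1, hM2⟩
  haveI : Nonempty (Fin n) := ⟨⟨0, by omega⟩⟩
  have hker : (Matrix.SpecialLinearGroup.toGL (n := Fin n) (R := F)).range = (Matrix.GeneralLinearGroup.det : GL (Fin n) F →* Fˣ).ker := by
    ext g
    constructor
    · rintro ⟨s, rfl⟩
      exact Matrix.SpecialLinearGroup.coeToGL_det s
    · intro hg
      rw [MonoidHom.mem_ker] at hg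
      refine ⟨⟨(g : Matrix (Fin n) (Fin n) F), ?_⟩, ?_⟩
      · rw [← Matrix.GeneralLinearGroup.val_det_apply, hg]; rfl
      · exact Units.ext rfl
  have hxG : (((Matrix.SpecialLinearGroup.toGL x : GL (Fin n) F) : Matrix (Fin n) (Fin n) F) - 1) ^ n = 0 ∧
      (((Matrix.SpecialLinearGroup.toGL x : GL (Fin n) F) : Matrix (Fin n) (Fin n) F) - 1).rank = n - 1 := hx
  have h := card_classes (Matrix.GeneralLinearGroup.det : GL (Fin n) F →* Fˣ) (Matrix.GeneralLinearGroup.det_surjective)
    (Matrix.SpecialLinearGroup.toGL (n := Fin n) (R := F)) Matrix.SpecialLinearGroup.toGL_injective hker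
    (fun u => ((u : Matrix (Fin n) (Fin n) F) - 1) ^ n = 0 ∧ ((u : Matrix (Fin n) (Fin n) F) - 1).rank = n - 1) x (by
      intro y
      exact reg_conj_iff (by omega) (by simp) (Matrix.SpecialLinearGroup.toGL x : GL (Fin n) F) hxG (Matrix.SpecialLinearGroup.toGL y))
  rw [h, map_det_centralizer (by omega) (by simp) _ hxG, IsCyclic.index_powMonoidHom_range, Nat.card_eq_fintype_card, Fintype.card_units, hF,
    Nat.gcd_comm]

end Cfsg.Agent.S2578
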