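import Cfsg.Statements.S2581
import Cfsg.Agent.LibJCen2H13
import Cfsg.Agent.LibJor8H13

set_option autoImplicit false
open Cfsg

namespace Cfsg.Agent.S2581

open CfsgLib.Jor CfsgLib.JCen Module Matrix

theorem sum_rw (a : ℕ → ℕ) (M : ℕ) : (∑ i ∈ Finset.range M, ∑ j ∈ Finset.range M, if i < j then i * a i * a j else 0) = ∑ j ∈ Finset.range M, a j * ∑ i ∈ Finset.range j, i * a i := by
  rw [Finset.sum_comm]
  refine Finset.sum_congr rfl fun j hj => ?_
  rw [Finset.mem_range] at hj
  rw [← Finset.sum_filter]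
  have h : (Finset.range M).filter (fun i => i < j) = Finset.range j := by
    ext i
    rw [Finset.mem_filter, Finset.mem_range, Finset.mem_range]
    omega
  rw [h, Finset.mul_sum]
  exact Finset.sum_congr rfl fun i _ => by ring

/-- matrices commuting with `J` as operators -/
theorem card_comm {F ι : Type*} [Field F] [Fintype ι] [DecidableEq ι] (J : Matrix ι ι F) :
    Nat.card {g : GL ι F // (g : Matrix ι ι F) * J = J * (g : Matrix ι ι F)} = Nat.card (Au (Matrix.toLin' J)) := by
  refine Nat.card_congr (Equiv.ofBijective (fun g => (⟨LinearEquiv.ofLinear (Matrix.toLin' (g.1 : Matrix ι ι F)) (Matrix.toLin' ((g.1⁻¹ : GL ι F) : Matrix ι ι F))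
    (by rw [← Matrix.toLin'_mul, ← Units.val_mul, mul_inv_cancel, Units.val_one, Matrix.toLin'_one]) (by rw [← Matrix.toLin'_mul, ← Units.val_mul, inv_mul_cancel, Units.val_one, Matrix.toLin'_one]), fun v => by
      show Matrix.toLin' (g.1 : Matrix ι ι F) (Matrix.toLin' J v) = Matrix.toLin' J (Matrix.toLin' (g.1 : Matrix ι ι F) v)
      rw [← LinearMap.comp_apply, ← LinearMap.comp_apply, ← Matrix.toLin'_mul, ← Matrix.toLin'_mul, g.2]⟩ : Au (Matrix.toLin' J))) ⟨?_, ?_⟩)
  · intro g h hgh
    apply Subtype.ext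
    apply Units.ext
    apply Matrix.toLin'.injective
    apply LinearMap.ext
    intro v
    exact congrArg (fun z : Au (Matrix.toLin' J) => z.1 v) hgh
  · rintro ⟨g, hg⟩
    obtain ⟨A, hA⟩ := CfsgLib.Cls.exists_GL g
    refine ⟨⟨A, ?_⟩, ?_⟩
    · apply Matrix.toLin'.injective
      apply LinearMap.ext
      intro v
      rw [Matrix.toLin'_mul, Matrix.toLin'_mul, LinearMap.comp_apply, LinearMap.comp_apply, Matrix.toLin'_apply (A : Matrix ι ι F), Matrix.toLin'_apply (A : Matrix ι ι F), hA, hA, hg]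
    · apply Subtype.ext
      ext1 v
      show Matrix.toLin' (A : Matrix ι ι F) v = g v
      rw [Matrix.toLin'_apply, hA]

/-- Order of the centraliser in GL of a unipotent matrix of given Jordan type over the field with q elements: if the type has a_i blocks of size i (all block sizes at least 1), the invertible matrices commuting with it number q^γ · Π_i |GL_(a_i)(q)| with γ = 2 Σ_(i<j) i a_i a_j + Σ_i (i − 1) a_i² (a group of order q^γ extended by Π GL_(a_i)(q)). -/
theorem result {F : Type*} [Field F] [Fintype F] {q : ℕ} (hF : Fintype.card F = q) {t : ℕ} (d : Fin t → ℕ) (hd : ∀ k, 1 ≤ d k) : Nat.card {g : GL ((k : Fin t) × Fin (d k)) F // (g : Matrix ((k : Fin t) × Fin (d k)) ((k : Fin t) × Fin (d k)) F) * Cfsg.jordanTypeMatrix d F = Cfsg.jordanTypeMatrix d F * (g : Matrix ((k : Fin t) × Fin (d k)) ((k : Fin t) × Fin (d k)) F)} = q ^ (2 * (∑ i ∈ Finset.range (Finset.univ.sup d + 1), ∑ j ∈ Finset.range (Finset.univ.sup d + 1), if i < j then i * (Finset.univ.filter (fun k : Fin t =>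 d k = i)).card * (Finset.univ.filter (fun k : Fin t => d k = j)).card else 0) + ∑ i ∈ Finset.range (Finset.univ.sup d + 1), (i - 1) * (Finset.univ.filter (fun k : Fin t => d k = i)).card ^ 2) * ∏ i ∈ Finset.range (Finset.univ.sup d + 1), ∏ j : Fin ((Finset.univ.filter (fun k : Fin t => d k = i)).card), (q ^ (Finset.univ.filter (fun k : Fin t => d k = i)).card - q ^ (j : ℕ)) := by
  classical
  subst hF
  rw [card_comm]
  have e0 : Nonempty (((k : Fin t) × Fin (d k)) ≃ Fin (∑ k, d k)) := ⟨Fintype.equivOfCardEq (by rw [card_sig, Fintype.card_fin])⟩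
  obtain ⟨e⟩ := e0
  have h1 := card_Au_congr (T := Matrix.toLin' (Cfsg.jordanTypeMatrix d F)) (T' := Matrix.toLin' (Matrix.reindex e e (Cfsg.jordanTypeMatrix d F))) (LinearEquiv.funCongrLeft F F e.symm) (fun v => by
    rw [Matrix.toLin'_apply, Matrix.toLin'_apply, Matrix.reindex_apply, Matrix.submatrix_mulVec_equiv]
    funext i
    show (Cfsg.jordanTypeMatrix d F *ᵥ v) (e.symm i) = (Cfsg.jordanTypeMatrix d F *ᵥ (fun j => v (e.symm (e j)))) (e.symm i)
    simp only [Equiv.symm_apply_apply])
  rw [h1, card_type (Finset.univ.sup d + 1) (Finset.univ.val.map d) (by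
    intro a ha
    rw [Multiset.mem_map] at ha
    obtain ⟨i, -, rfl⟩ := ha
    exact ⟨hd i, Nat.lt_succ_of_le (Finset.le_sup (Finset.mem_univ i))⟩) _ _ _ (J_nil d e) (fun k => nk_J d e k), Nat.card_eq_fintype_card]
  have hG : ∀ i, ∏ j : Fin ((Finset.univ.filter (fun k : Fin t => d k = i)).card), (Fintype.card F ^ (Finset.univ.filter (fun k : Fin t => d k = i)).card - Fintype.card F ^ (j : ℕ)) = G (Fintype.card F) ((Finset.univ.val.map d).count i) := by
    intro i
    rw [count_d]; rfl
  rw [sum_rw, Finset.prod_congr rfl fun i _ => hG i]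
  unfold Ex
  simp only [count_d]

end Cfsg.Agent.S2581
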