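import Cfsg.Statements.S2582
import Cfsg.Agent.LibJor8H13
import Cfsg.Agent.LibSemi2H13

set_option autoImplicit false
open Cfsg

namespace Cfsg.Agent.S2582

open CfsgLib.Jor Cfsg.Agent.H22 Module

/-- Which unipotent Jordan types occur in the finite symplectic group: over a finite field, a unipotent matrix with Jordan block sizes d_1, …, d_t (sum 2m, all at least 1) is similar to an element of Sp_2m(F) if and only if every odd block size occurs an even number of times. -/
theorem result {F : Type*} [Field F] [Fintype F] {m t : ℕ} (d : Fin t → ℕ) (hd : ∀ k, 1 ≤ d k) (hsum : ∑ k, d k = 2 * m) : (∃ e : ((k : Fin t) × Fin (d k)) ≃ (Fin m ⊕ Fin m), ∃ A : Matrix.symplecticGroup (Fin m) F, IsConj (Matrix.reindex e e (Cfsg.jordanTypeMatrix d F)) (A : Matrix (Fin m ⊕ Fin m) (Fin m ⊕ Fin m) F)) ↔ ∀ j : ℕ, Odd j → Even (Finset.univ.filter (fun k : Fin t => d k = j)).card := by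
  classical
  constructor
  · rintro ⟨e, A, hA⟩ j hj
    rw [← count_d]
    refine even_count_sp (spB m F) spB_nondeg (spToLin A : (Fin m ⊕ Fin m → F) →ₗ[F] (Fin m ⊕ Fin m → F)) (fun x y => spToLin_isometry A x y) spB_isAlt (fun k => ?_) hj
    have h1 := nk_of_isConj hA k
    rw [nk_J] at h1
    rw [h1]
    congr 1
  · intro h
    have hR : RSp F (Finset.univ.val.map d) := by
      refine build (RSp F) Even rsp_zero (fun S S' => rsp_add) ?_ (fun a _ => rsp_pair F a) _ ?_ ?_
      · intro a ha he
        by_cases h2 : (2 : F) = 0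
        · haveI : CharP F 2 := CharTwo.of_one_ne_zero_of_two_eq_zero one_ne_zero h2
          apply rsp_of_ror
          obtain ⟨l, hl⟩ := he
          have : a = 2 * l := by omega
          rw [this]
          exact ror_even_two F (by omega)
        · exact rsp_even_odd F h2 ha he
      · intro a ha
        rw [Multiset.mem_map] at ha
        obtain ⟨i, -, rfl⟩ := ha
        exact hd i
      · intro a ha
        rw [count_d]
        exact h a (by rwa [Nat.not_even_iff_odd] at ha)
    obtain ⟨n', B, T, hA, hB, hT, ⟨M, hM⟩, hS⟩ := hR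
    have hn : n' = 2 * m := by
      have := dim_eq hM hS
      rw [Module.finrank_fin_fun] at this
      rw [this, ← hsum]; rfl
    obtain ⟨φ, hφ⟩ := CfsgLib.Semi.alt_iso B hA hB (spB m F) spB_isAlt spB_nondeg (by simp; omega)
    obtain ⟨A, hAT⟩ := exists_spToLin (φ.symm.trans (T.trans φ)) (by
      intro u v
      show spB m F (φ (T (φ.symm u))) (φ (T (φ.symm v))) = _
      rw [hφ, hT, ← hφ, LinearEquiv.apply_symm_apply, LinearEquiv.apply_symm_apply])
    have hnk : ∀ k, nk (T : (Fin n' → F) →ₗ[F] (Fin n' → F)) k = nk (spToLin A : (Fin m ⊕ Fin m → F) →ₗ[F] (Fin m ⊕ Fin m → F)) k := by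
      intro k
      refine nk_congr φ (fun v => ?_) k
      rw [hAT]
      show φ (T v) = φ (T (φ.symm (φ v)))
      rw [LinearEquiv.symm_apply_apply]
    obtain ⟨e⟩ : Nonempty (((k : Fin t) × Fin (d k)) ≃ (Fin m ⊕ Fin m)) := ⟨Fintype.equivOfCardEq (by rw [card_sig, hsum, Fintype.card_sum, Fintype.card_fin]; ring)⟩
    refine ⟨e, A, isConj_mat' (J_nil d e) (fun k => ?_)⟩
    rw [nk_J, ← hS, hnk]
    congr 1

end Cfsg.Agent.S2582
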