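import Cfsg.Statements.S2584
import Cfsg.Agent.LibJor8H13

set_option autoImplicit false
open Cfsg

namespace Cfsg.Agent.S2584

open CfsgLib.Jor

/-- Which unipotent Jordan types occur in a finite orthogonal group in characteristic two: over a finite field of characteristic 2 and in even dimension 2m, a unipotent matrix with Jordan block sizes d_1, …, d_t (sum 2m, all at least 1) is similar to an isometry of some quadratic form on F^(2m) with non-degenerate polar form if and only if every odd block size occurs an even number of times (the same condition as for the symplectic group, which contains these orthogonal groups). -/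
theorem result {F : Type*} [Field F] [Fintype F] [CharP F 2] {m t : ℕ} (d : Fin t → ℕ) (hd : ∀ k, 1 ≤ d k) (hsum : ∑ k, d k = 2 * m) : (∃ Q : QuadraticForm F (Fin (2 * m) → F), (QuadraticMap.polarBilin Q).Nondegenerate ∧ ∃ e : ((k : Fin t) × Fin (d k)) ≃ Fin (2 * m), ∃ A : ↥(Cfsg.isometryGroup F ⇑Q), IsConj (Matrix.reindex e e (Cfsg.jordanTypeMatrix d F)) ((A : Matrix.GeneralLinearGroup (Fin (2 * m)) F) : Matrix (Fin (2 * m)) (Fin (2 * m)) F)) ↔ ∀ j : ℕ, Odd j → Even (Finset.univ.filter (fun k : Fin t => d k = j)).card := by
  rw [orth_iff d Even (fun a ha he => by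
    obtain ⟨l, hl⟩ := he
    have : a = 2 * l := by omega
    rw [this]
    exact ror_even_two F (by omega)) ?_ hd hsum]
  · constructor
    · intro h j ho
      exact h j ho.pos (by rwa [Nat.not_even_iff_odd])
    · intro h j hj he
      exact h j (by rwa [Nat.not_even_iff_odd] at he)
  · intro n Q hQ T hT S hS k hk he
    rw [Nat.not_even_iff_odd] at he
    refine even_count_sp (QuadraticMap.polarBilin Q) hQ _ ?_ (CfsgLib.InvC.polar_alt Q) hS he
    intro x y
    rw [QuadraticMap.polarBilin_apply_apply, QuadraticMap.polarBilin_apply_apply]
    unfold QuadraticMap.polar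
    show Q (T x + T y) - Q (T x) - Q (T y) = _
    rw [← map_add, hT, hT, hT]

end Cfsg.Agent.S2584
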