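import Cfsg.Statements.S2585
import Cfsg.Agent.LibH22Sp
import Cfsg.Agent.LibH22OForms

set_option autoImplicit false
open Cfsg

namespace Cfsg.Agent.S2585

open Module Cfsg.Agent.H22
open Matrix (mulVec)
open scoped Matrix

theorem aux {F V : Type*} [Field F] [Fintype F] [CharP F 2] [AddCommGroup V] [Module F V] [FiniteDimensional F V]
    (Q0 : QuadraticForm F V) (A : V →ₗ[F] V)
    (hA : ∀ u v, QuadraticMap.polar Q0 (A u) (A v) = QuadraticMap.polar Q0 u v) :
    ∃ Q : QuadraticForm F V, (∀ u v, QuadraticMap.polar Q u v = QuadraticMap.polar Q0 u v) ∧ ∀ v, Q (A v) = Q v := by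
  have hadd : ∀ u v, Q0 (A (u + v)) - Q0 (u + v) = (Q0 (A u) - Q0 u) + (Q0 (A v) - Q0 v) := by
    intro u v
    have h1 := hA u v
    simp only [QuadraticMap.polar, ← map_add] at h1
    linear_combination h1
  let r : F ≃+* F := (frobeniusEquiv F 2).symm
  have hr2 : ∀ x : F, r x ^ 2 = x := fun x => frobeniusEquiv_symm_pow_p F 2 x
  have hr2' : ∀ x : F, r (x ^ 2) = x := fun x => frobeniusEquiv_symm_pow F 2 x
  let lam : V →ₗ[F] F :=
    { toFun := fun v => r (Q0 (A v) - Q0 v)
      map_add' := fun u v => by rw [hadd, map_add]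
      map_smul' := fun c v => by
        simp only [RingHom.id_apply, smul_eq_mul]
        rw [map_smul, QuadraticMap.map_smul, QuadraticMap.map_smul]
        rw [show (c * c) • Q0 (A v) - (c * c) • Q0 v = c ^ 2 * (Q0 (A v) - Q0 v) by simp only [smul_eq_mul]; ring]
        rw [map_mul, hr2'] }
  have hlam : ∀ v, lam v ^ 2 = Q0 (A v) - Q0 v := fun v => hr2 _
  obtain ⟨μ, hμ⟩ : ∃ μ : V →ₗ[F] F, μ ∘ₗ (A - LinearMap.id) = lam := by
    have h1 : lam ∈ LinearMap.range (A - LinearMap.id).dualMap := by
      rw [LinearMap.range_dualMap_eq_dualAnnihilator_ker, Submodule.mem_dualAnnihilator]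
      intro v hv
      rw [LinearMap.mem_ker, LinearMap.sub_apply, LinearMap.id_apply, sub_eq_zero] at hv
      have := hlam v
      rw [hv, sub_self] at this
      exact pow_eq_zero_iff (two_ne_zero) |>.mp this
    obtain ⟨μ, hμ⟩ := h1
    exact ⟨μ, hμ⟩
  refine ⟨Q0 + QuadraticMap.linMulLin μ μ, ?_, ?_⟩
  · intro u v
    rw [QuadraticMap.coeFn_add, QuadraticMap.polar_add]
    simp only [QuadraticMap.polar, QuadraticMap.linMulLin_apply, map_add]
    have := CharTwo.add_self_eq_zero (μ u * μ v)
    linear_combination this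
  · intro v
    have h1 : μ (A v) = lam v + μ v := by
      rw [← hμ]
      simp
    simp only [QuadraticMap.add_apply, QuadraticMap.linMulLin_apply, h1]
    have h2 := hlam v
    have := CharTwo.add_self_eq_zero (lam v * μ v + Q0 (A v) - Q0 v)
    linear_combination h2 + this

/-- Over a finite field of characteristic two every element of the symplectic group is orthogonal for a suitable quadratic form: for each A in Sp_2m(F) there is a quadratic form Q on F^(2m) whose polar form is the alternating form defining Sp_2m(F) (so Q is non-degenerate) and which A preserves. Equivalently, for m ≥ 1, Sp_2m(F) is the union of the conjugates of its two orthogonal subgroups O⁺_2m(F) and O⁻_2m(F). -/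
theorem result {F : Type*} [Field F] [Fintype F] [CharP F 2] {m : ℕ} (A : Matrix.symplecticGroup (Fin m) F) : ∃ Q : QuadraticForm F (Fin m ⊕ Fin m → F), (∀ u v : Fin m ⊕ Fin m → F, QuadraticMap.polar ⇑Q u v = Cfsg.sympForm m F u v) ∧ ∀ v : Fin m ⊕ Fin m → F, Q ((A : Matrix (Fin m ⊕ Fin m) (Fin m ⊕ Fin m) F).mulVec v) = Q v := by
  obtain ⟨Q, h1, h2⟩ := aux (qPlus m F) (Matrix.mulVecLin (A : Matrix (Fin m ⊕ Fin m) (Fin m ⊕ Fin m) F)) (by
    intro u v
    have hp : ∀ u v, QuadraticMap.polar (qPlus m F) u v = Cfsg.sympForm m F u v := by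
      intro u v
      rw [polar_qPlus, sympForm_eq_sum]
      refine Finset.sum_congr rfl fun i _ => ?_
      have := CharTwo.add_self_eq_zero (u (Sum.inl i) * v (Sum.inr i))
      linear_combination this
    rw [hp, hp]
    exact mem_sp_iff.1 A.2 u v)
  refine ⟨Q, ?_, h2⟩
  intro u v
  rw [h1, polar_qPlus, sympForm_eq_sum]
  refine Finset.sum_congr rfl fun i _ => ?_
  have := CharTwo.add_self_eq_zero (u (Sum.inl i) * v (Sum.inr i))
  linear_combination this

end Cfsg.Agent.S2585
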