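import Cfsg.Statements.S2586
import Cfsg.Agent.S2580

set_option autoImplicit false
open Cfsg

namespace Cfsg.Agent.S2586

open Matrix (mulVec)
open scoped Matrix

/-- Over a finite field, every element of the symplectic group Sp_2m(F) is conjugate by an invertible matrix to its inverse. -/
theorem result {F : Type*} [Field F] [Finite F] {m : ℕ} (A : Matrix.symplecticGroup (Fin m) F) : IsConj (A : Matrix (Fin m ⊕ Fin m) (Fin m ⊕ Fin m) F) ((A⁻¹ : Matrix.symplecticGroup (Fin m) F) : Matrix (Fin m ⊕ Fin m) (Fin m ⊕ Fin m) F) := by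
  have h1 := Cfsg.Agent.S2580.conj_transpose (A : Matrix (Fin m ⊕ Fin m) (Fin m ⊕ Fin m) F)
  refine h1.trans ?_
  -- J⁻¹ Aᵀ J = A⁻¹
  have hJ : IsUnit (Matrix.J (Fin m) F) := by
    rw [Matrix.isUnit_iff_isUnit_det]; exact Matrix.isUnit_det_J (Fin m) F
  have hA : (A : Matrix (Fin m ⊕ Fin m) (Fin m ⊕ Fin m) F).transpose * Matrix.J (Fin m) F * (A : Matrix (Fin m ⊕ Fin m) (Fin m ⊕ Fin m) F) = Matrix.J (Fin m) F :=
    SymplecticGroup.mem_iff'.mp A.2
  have hAi : (A : Matrix (Fin m ⊕ Fin m) (Fin m ⊕ Fin m) F) * ((A⁻¹ : Matrix.symplecticGroup (Fin m) F) : Matrix (Fin m ⊕ Fin m) (Fin m ⊕ Fin m) F) = 1 := by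
    have := congrArg Subtype.val (mul_inv_cancel A)
    exact this
  refine IsConj.symm ⟨hJ.unit, ?_⟩
  show Matrix.J (Fin m) F * ((A⁻¹ : Matrix.symplecticGroup (Fin m) F) : Matrix (Fin m ⊕ Fin m) (Fin m ⊕ Fin m) F) = (A : Matrix (Fin m ⊕ Fin m) (Fin m ⊕ Fin m) F).transpose * Matrix.J (Fin m) F
  conv_lhs => rw [← hA]
  rw [Matrix.mul_assoc, hAi, mul_one]

end Cfsg.Agent.S2586
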