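import Cfsg.Statements.S2589
import Cfsg.Agent.LibSemi2H13
import Cfsg.Agent.LibH22Sp

set_option autoImplicit false
open Cfsg

namespace Cfsg.Agent.S2589

open Module CfsgLib.Semi Cfsg.Agent.H22
open Matrix (mulVec)
open scoped Matrix

/-- the linear equivalence of an invertible matrix -/
theorem exists_lin {F ι : Type*} [Field F] [Fintype ι] [DecidableEq ι] (c : (Matrix ι ι F)ˣ) : ∃ g : (ι → F) ≃ₗ[F] (ι → F), ∀ v, g v = (c : Matrix ι ι F) *ᵥ v := by
  refine ⟨LinearEquiv.ofLinear (Matrix.toLin' (c : Matrix ι ι F)) (Matrix.toLin' ((c⁻¹ : (Matrix ι ι F)ˣ) : Matrix ι ι F)) ?_ ?_, fun v => rfl⟩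
  · rw [← Matrix.toLin'_mul, Units.mul_inv, Matrix.toLin'_one]
  · rw [← Matrix.toLin'_mul, Units.inv_mul, Matrix.toLin'_one]

/-- Two semisimple elements of the finite symplectic group Sp_2m(F) (elements of order prime to the characteristic) are conjugate in Sp_2m(F) if and only if they are conjugate in GL_2m(F). -/
theorem result {F : Type*} [Field F] [Fintype F] {p : ℕ} [Fact p.Prime] [CharP F p] {m : ℕ} (A B : Matrix.symplecticGroup (Fin m) F) (hA : (orderOf A).Coprime p) : IsConj A B ↔ IsConj (A : Matrix (Fin m ⊕ Fin m) (Fin m ⊕ Fin m) F) (B : Matrix (Fin m ⊕ Fin m) (Fin m ⊕ Fin m) F) := by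
  classical
  constructor
  · rw [isConj_iff]
    rintro ⟨c, rfl⟩
    refine ⟨⟨(c : Matrix (Fin m ⊕ Fin m) (Fin m ⊕ Fin m) F), ((c⁻¹ : Matrix.symplecticGroup (Fin m) F) : Matrix (Fin m ⊕ Fin m) (Fin m ⊕ Fin m) F), ?_, ?_⟩, ?_⟩
    · exact congrArg Subtype.val (mul_inv_cancel c)
    · exact congrArg Subtype.val (inv_mul_cancel c)
    · show (c : Matrix (Fin m ⊕ Fin m) (Fin m ⊕ Fin m) F) * (A : Matrix (Fin m ⊕ Fin m) (Fin m ⊕ Fin m) F) = ((c * A * c⁻¹ : Matrix.symplecticGroup (Fin m) F) : Matrix (Fin m ⊕ Fin m) (Fin m ⊕ Fin m) F) * (c : Matrix (Fin m ⊕ Fin m) (Fin m ⊕ Fin m) F)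
      have h1 : (c * A : Matrix.symplecticGroup (Fin m) F) = (c * A * c⁻¹) * c := by group
      exact congrArg Subtype.val h1
  · rintro ⟨c, hc⟩
    have hc' : (c : Matrix (Fin m ⊕ Fin m) (Fin m ⊕ Fin m) F) * (A : Matrix (Fin m ⊕ Fin m) (Fin m ⊕ Fin m) F) = (B : Matrix (Fin m ⊕ Fin m) (Fin m ⊕ Fin m) F) * (c : Matrix (Fin m ⊕ Fin m) (Fin m ⊕ Fin m) F) := hc
    obtain ⟨g, hg⟩ := exists_lin c
    haveI : Finite (Matrix.symplecticGroup (Fin m) F) := Subtype.finite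
    have hr0 : ((orderOf A : ℕ) : F) ≠ 0 := by
      intro h
      rw [CharP.cast_eq_zero_iff F p] at h
      have h1 := Nat.Coprime.eq_one_of_dvd hA.symm h
      exact (Fact.out : p.Prime).one_lt.ne' h1
    obtain ⟨G, hG1, hG2⟩ := symp_conj (spB m F) spB_isAlt spB_nondeg (spB m F) spB_isAlt spB_nondeg (spToLin A) (spToLin_isometry A) (spToLin B) (spToLin_isometry B)
      hr0 (by rw [← map_pow, pow_orderOf_eq_one, map_one]) g (by
        intro v
        rw [hg, hg, spToLin_apply, spToLin_apply, Matrix.mulVec_mulVec, Matrix.mulVec_mulVec, hc'])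
    obtain ⟨C, hC⟩ := exists_spToLin G hG1
    rw [isConj_iff]
    refine ⟨C, ?_⟩
    rw [mul_inv_eq_iff_eq_mul]
    apply spToLin_injective
    rw [map_mul, map_mul]
    apply LinearEquiv.ext
    intro v
    rw [LinearEquiv.mul_apply, LinearEquiv.mul_apply, hC]
    exact hG2 v

end Cfsg.Agent.S2589
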