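import Cfsg.Statements.S2590
import Cfsg.Agent.LibSemi2H13
import Cfsg.Agent.S2589
import Cfsg.Agent.LibClsH13

set_option autoImplicit false
open Cfsg

namespace Cfsg.Agent.S2590

open Module CfsgLib.Semi Cfsg.Agent.H22
open Matrix (mulVec)
open scoped Matrix

/-- Two semisimple elements of odd order of a finite orthogonal group (isometry group of a quadratic form on F^n with non-degenerate polar form, F finite of characteristic p; the elements have odd order prime to p) are conjugate in the orthogonal group if and only if they are conjugate in GL_n(F). -/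
theorem result {F : Type*} [Field F] [Fintype F] {p : ℕ} [Fact p.Prime] [CharP F p] {n : ℕ} (Q : QuadraticForm F (Fin n → F)) (hQ : (QuadraticMap.polarBilin Q).Nondegenerate) (A B : ↥(Cfsg.isometryGroup F ⇑Q)) (hodd : Odd (orderOf A)) (hA : (orderOf A).Coprime p) : IsConj A B ↔ IsConj ((A : Matrix.GeneralLinearGroup (Fin n) F) : Matrix (Fin n) (Fin n) F) ((B : Matrix.GeneralLinearGroup (Fin n) F) : Matrix (Fin n) (Fin n) F) := by
  classical
  constructor
  · rw [isConj_iff]
    rintro ⟨c, rfl⟩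
    refine ⟨(c : Matrix.GeneralLinearGroup (Fin n) F), ?_⟩
    have h1 : c * A = (c * A * c⁻¹) * c := by group
    exact congrArg (fun z : ↥(Cfsg.isometryGroup F ⇑Q) => ((z : Matrix.GeneralLinearGroup (Fin n) F) : Matrix (Fin n) (Fin n) F)) h1
  · rintro ⟨c, hc⟩
    have hc' : (c : Matrix (Fin n) (Fin n) F) * ((A : Matrix.GeneralLinearGroup (Fin n) F) : Matrix (Fin n) (Fin n) F) = ((B : Matrix.GeneralLinearGroup (Fin n) F) : Matrix (Fin n) (Fin n) F) * (c : Matrix (Fin n) (Fin n) F) := hc
    obtain ⟨g, hg⟩ := Cfsg.Agent.S2589.exists_lin c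
    obtain ⟨T, hT⟩ := Cfsg.Agent.S2589.exists_lin (A : Matrix.GeneralLinearGroup (Fin n) F)
    obtain ⟨T', hT'⟩ := Cfsg.Agent.S2589.exists_lin (B : Matrix.GeneralLinearGroup (Fin n) F)
    have hr0 : ((orderOf A : ℕ) : F) ≠ 0 := by
      intro h
      rw [CharP.cast_eq_zero_iff F p] at h
      have h1 := Nat.Coprime.eq_one_of_dvd hA.symm h
      exact (Fact.out : p.Prime).one_lt.ne' h1
    have hTr : T ^ (orderOf A) = 1 := by
      have h1 : ∀ k : ℕ, ∀ v, (T ^ k) v = (((A ^ k : ↥(Cfsg.isometryGroup F ⇑Q)) : Matrix.GeneralLinearGroup (Fin n) F) : Matrix (Fin n) (Fin n) F) *ᵥ v := by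
        intro k
        induction k with
        | zero => intro v; rw [pow_zero, pow_zero]; show v = (1 : Matrix (Fin n) (Fin n) F) *ᵥ v; rw [Matrix.one_mulVec]
        | succ k ih =>
          intro v
          rw [pow_succ, pow_succ, LinearEquiv.mul_apply, ih, hT, Matrix.mulVec_mulVec]
          rfl
      apply LinearEquiv.ext
      intro v
      rw [h1, pow_orderOf_eq_one]
      show (1 : Matrix (Fin n) (Fin n) F) *ᵥ v = v
      rw [Matrix.one_mulVec]
    obtain ⟨G, hG1, hG2⟩ := orth_conj Q hQ T (fun x => by rw [hT]; exact A.2 x x) T' (fun x => by rw [hT']; exact B.2 x x) hr0 hodd hTr g (by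
        intro v
        rw [hg, hg, hT, hT', Matrix.mulVec_mulVec, Matrix.mulVec_mulVec, hc'])
    obtain ⟨C, hC⟩ := CfsgLib.Cls.exists_GL G
    rw [isConj_iff]
    refine ⟨⟨C, fun u v => ?_⟩, ?_⟩
    · show Q ((C : Matrix (Fin n) (Fin n) F) *ᵥ u) = Q u
      rw [hC, hG1]
    · rw [mul_inv_eq_iff_eq_mul]
      apply Subtype.ext
      apply Units.ext
      show (C : Matrix (Fin n) (Fin n) F) * ((A : Matrix.GeneralLinearGroup (Fin n) F) : Matrix (Fin n) (Fin n) F) = ((B : Matrix.GeneralLinearGroup (Fin n) F) : Matrix (Fin n) (Fin n) F) * (C : Matrix (Fin n) (Fin n) F)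
      apply CfsgLib.Cls.mat_ext
      intro v
      rw [← Matrix.mulVec_mulVec, ← Matrix.mulVec_mulVec, hC, hC, ← hT, ← hT', hG2]

end Cfsg.Agent.S2590
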