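import Cfsg.Statements.S2592
import Cfsg.Agent.LibSpRegH13
import Cfsg.Agent.LibH22Sp
import Cfsg.Agent.S2575

set_option autoImplicit false
open Cfsg

namespace Cfsg.Agent.S2592

open Module CfsgLib.Semi CfsgLib.Reg CfsgLib.Cls CfsgLib.SpReg Cfsg.Agent.H22
open Matrix (mulVec)
open scoped Matrix

theorem card_sq {F : Type*} [Field F] [Fintype F] (hodd : Odd (Fintype.card F)) : Nat.card {s : F // ∃ a : F, a ≠ 0 ∧ s = a * a} * 2 = Fintype.card F - 1 := by
  classical
  have h1 : Nat.card {s : F // ∃ a : F, a ≠ 0 ∧ s = a * a} = Nat.card (powMonoidHom 2 : Fˣ →* Fˣ).range := by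
    refine Nat.card_congr (Equiv.symm (Equiv.ofBijective (fun x => ⟨((x : Fˣ) : F), ?_⟩) ⟨?_, ?_⟩))
    · obtain ⟨x, y, rfl⟩ := x
      exact ⟨y, y.ne_zero, by show ((y ^ 2 : Fˣ) : F) = y * y; rw [Units.val_pow_eq_pow_val, pow_two]⟩
    · intro x y hxy
      have := congrArg Subtype.val hxy
      exact Subtype.ext (Units.ext this)
    · rintro ⟨s, a, ha, rfl⟩
      refine ⟨⟨(Units.mk0 a ha) ^ 2, ⟨Units.mk0 a ha, rfl⟩⟩, ?_⟩
      apply Subtype.ext
      show (((Units.mk0 a ha) ^ 2 : Fˣ) : F) = a * a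
      rw [Units.val_pow_eq_pow_val, Units.val_mk0, pow_two]
  rw [h1]
  have h2 := Subgroup.card_mul_index (powMonoidHom 2 : Fˣ →* Fˣ).range
  rw [IsCyclic.index_powMonoidHom_range, Nat.card_eq_fintype_card, Nat.card_eq_fintype_card, Fintype.card_units] at h2
  rw [Nat.card_eq_fintype_card, ← h2]
  congr 1
  symm
  rw [Nat.gcd_eq_right]
  obtain ⟨k, hk⟩ := hodd
  exact ⟨k, by omega⟩

theorem card_coefs {F : Type*} [Field F] [Fintype F] (hodd : Odd (Fintype.card F)) {m : ℕ} (hm : 1 ≤ m) :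
    Nat.card {c : Fin (2 * m) → F // (∀ i : Fin (2 * m), Odd (i : ℕ) → c i = 0) ∧ ∃ a : F, a ≠ 0 ∧ c ⟨0, by omega⟩ = a * a} * 2 =
      (Fintype.card F - 1) * Fintype.card F ^ (m - 1) := by
  classical
  obtain ⟨k, rfl⟩ : ∃ k, m = k + 1 := ⟨m - 1, by omega⟩
  let e : {c : Fin (2 * (k + 1)) → F // (∀ i : Fin (2 * (k + 1)), Odd (i : ℕ) → c i = 0) ∧ ∃ a : F, a ≠ 0 ∧ c ⟨0, by omega⟩ = a * a} ≃
      {s : F // ∃ a : F, a ≠ 0 ∧ s = a * a} × (Fin k → F) :=
    { toFun := fun c => (⟨c.1 ⟨0, by omega⟩, c.2.2⟩, fun j => c.1 ⟨2 * ((j : ℕ) + 1), by omega⟩)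
      invFun := fun x => ⟨fun i => if h0 : (i : ℕ) = 0 then (x.1 : F) else if h1 : Even (i : ℕ) then x.2 ⟨(i : ℕ) / 2 - 1, by
          have := i.2
          obtain ⟨t, ht⟩ := h1
          omega⟩ else 0, by
        refine ⟨fun i hi => ?_, ?_⟩
        · have h0 : (i : ℕ) ≠ 0 := by rintro h; rw [h] at hi; exact absurd hi (by decide)
          have h1 : ¬ Even (i : ℕ) := by rw [Nat.not_even_iff_odd]; exact hi
          simp only [h0, h1, dite_false]
        · simpa using x.1.2⟩
      left_inv := fun c => by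
        apply Subtype.ext
        funext i
        by_cases h0 : (i : ℕ) = 0
        · simp only [h0, dite_true]
          exact congrArg c.1 (Fin.ext h0.symm)
        · by_cases h1 : Even (i : ℕ)
          · simp only [h0, h1, dite_true, dite_false]
            refine congrArg c.1 (Fin.ext ?_)
            obtain ⟨t, ht⟩ := h1
            simp only
            omega
          · simp only [h0, h1, dite_false]
            exact (c.2.1 i (Nat.not_even_iff_odd.mp h1)).symm
      right_inv := fun x => by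
        apply Prod.ext
        · apply Subtype.ext; simp
        · funext j
          have h0 : 2 * ((j : ℕ) + 1) ≠ 0 := by omega
          have h1 : Even (2 * ((j : ℕ) + 1)) := even_two_mul _
          simp only [h0, h1, dite_true, dite_false]
          refine congrArg x.2 (Fin.ext ?_)
          simp only
          omega }
  rw [Nat.card_congr e, Nat.card_prod, mul_right_comm, card_sq hodd, Nat.card_eq_fintype_card, Fintype.card_fun, Fintype.card_fin, Nat.add_sub_cancel]

section
variable {F V : Type*} [Field F] [Fintype F] [AddCommGroup V] [Module F V] [FiniteDimensional F V] (B : LinearMap.BilinForm F V) (hB : B.Nondegenerate)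

theorem comm_of_comm {w : End F V} {n : ℕ} (h : Regular w n) (hn : 1 ≤ n) {X Y : End F V} (hX : Commute X w) (hY : Commute Y w) : Commute X Y := by
  obtain ⟨c, rfl⟩ := h.exists_pol hn hY
  unfold Regular.pol
  exact Commute.sum_right _ _ _ (fun i _ => (hX.pow_right _).smul_right _)

include hB in
theorem card_K {p : ℕ} [Fact p.Prime] [CharP F p] (hp : p ≠ 2) {ε : F} (hε : ε * ε = 1) (hs : ∀ x y, B x y = ε * B y x)
    {w : End F V} (hw : adj B hB w = -w) {m : ℕ} (hm : 1 ≤ m) (h : Regular w (2 * m)) :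
    Nat.card {X : End F V // Commute X w ∧ adj B hB X * X = 1} = 2 * Fintype.card F ^ m := by
  classical
  have hn : 1 ≤ 2 * m := by omega
  have h2 : (2 : F) ≠ 0 := by
    intro h0
    have : ((2 : ℕ) : F) = 0 := by exact_mod_cast h0
    rw [CharP.cast_eq_zero_iff F p] at this
    exact hp ((Nat.prime_dvd_prime_iff_eq (Fact.out : p.Prime) Nat.prime_two).mp this)
  have hodd : Odd (Fintype.card F) := by
    have h3 : ringChar F ≠ 2 := by
      intro h4
      apply h2
      have := ringChar.Nat.cast_ringChar (R := F)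
      rw [h4] at this
      exact_mod_cast this
    exact Nat.odd_iff.mpr (FiniteField.odd_card_of_char_ne_two h3)
  haveI : Finite V := Module.finite_of_finite F
  haveI : Finite (End F V) := DFunLike.finite _
  -- section
  have hsec : ∀ c : {c : Fin (2 * m) → F // (∀ i : Fin (2 * m), Odd (i : ℕ) → c i = 0) ∧ ∃ a : F, a ≠ 0 ∧ c ⟨0, by omega⟩ = a * a},
      ∃ S : End F V, Commute S w ∧ IsUnit S ∧ adj B hB S * S = Regular.pol w c.1 := by
    rintro ⟨c, hc, a, ha, hca⟩
    obtain ⟨d, hd0, hd⟩ := exists_norm B hB hw h hn hp c hc ha hca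
    exact ⟨Regular.pol w d, Regular.pol_comm w d, (h.pol_isUnit_iff hn d).mpr hd0, hd⟩
  choose s hs1 hs2 hs3 using hsec
  have hadjw : ∀ {X : End F V}, Commute X w → Commute (adj B hB X) w := by
    intro X hX
    have h1 := congrArg (adj B hB) hX
    rw [adj_mul, adj_mul, hw, neg_mul, mul_neg] at h1
    exact (neg_injective h1).symm
  have hprod : Nat.card {X : End F V // Commute X w ∧ adj B hB X * X = 1} * Nat.card {c : Fin (2 * m) → F // (∀ i : Fin (2 * m), Odd (i : ℕ) → c i = 0) ∧ ∃ a : F, a ≠ 0 ∧ c ⟨0, by omega⟩ = a * a} =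
      (Fintype.card F - 1) * Fintype.card F ^ (2 * m - 1) := by
    rw [← Nat.card_prod, ← card_units h hn]
    refine Nat.card_congr (Equiv.ofBijective (fun x => ⟨((hs2 x.2).mul (IsUnit.of_mul_eq_one _ (mul_eq_one_comm.mp x.1.2.2) : IsUnit x.1.1)).unit, ?_⟩) ⟨?_, ?_⟩)
    · rw [IsUnit.unit_spec]
      exact (hs1 x.2).mul_left x.1.2.1
    · rintro ⟨⟨X, hX1, hX2⟩, c⟩ ⟨⟨X', hX1', hX2'⟩, c'⟩ hxx
      have h1 : s c * X = s c' * X' := by
        have := congrArg (fun z => ((z.1 : (End F V)ˣ) : End F V)) hxx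
        simpa using this
      have h3 : ∀ (c : {c : Fin (2 * m) → F // (∀ i : Fin (2 * m), Odd (i : ℕ) → c i = 0) ∧ ∃ a : F, a ≠ 0 ∧ c ⟨0, by omega⟩ = a * a}) (X : End F V), Commute X w → adj B hB X * X = 1 →
          adj B hB (s c * X) * (s c * X) = Regular.pol w c.1 := by
        intro c X hX1 hX2
        have hc1 : Commute X (Regular.pol w c.1) := comm_of_comm h hn hX1 (Regular.pol_comm w _)
        rw [adj_mul]
        calc adj B hB X * adj B hB (s c) * (s c * X) = adj B hB X * (adj B hB (s c) * s c) * X := by simp only [mul_assoc]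
          _ = adj B hB X * (Regular.pol w c.1 * X) := by rw [hs3, mul_assoc]
          _ = (adj B hB X * X) * Regular.pol w c.1 := by rw [← hc1.eq, mul_assoc]
          _ = _ := by rw [hX2, one_mul]
      have h4 : c = c' := by
        apply Subtype.ext
        apply h.pol_injective hn
        show Regular.pol w c.1 = Regular.pol w c'.1
        rw [← h3 c X hX1 hX2, h1, h3 c' X' hX1' hX2']
      subst h4
      have h5 : X = X' := (hs2 c).mul_left_cancel h1
      subst h5
      rfl
    · rintro ⟨Z, hZ⟩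
      obtain ⟨d, hd⟩ := h.exists_pol hn hZ
      have hd0 : d ⟨0, hn⟩ ≠ 0 := (h.pol_isUnit_iff hn d).mp (by rw [← hd]; exact Z.isUnit)
      obtain ⟨c, hc1, hc2, hc3⟩ := norm_form B hB hw h hn h2 hε hs d
      let c' : {c : Fin (2 * m) → F // (∀ i : Fin (2 * m), Odd (i : ℕ) → c i = 0) ∧ ∃ a : F, a ≠ 0 ∧ c ⟨0, by omega⟩ = a * a} := ⟨c, hc2, _, hd0, hc3⟩
      obtain ⟨S, hS⟩ := hs2 c'
      have hSw : Commute ((S⁻¹ : (End F V)ˣ) : End F V) w := by
        have := hs1 c'
        rw [← hS] at this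
        exact this.units_inv_left
      have hX1 : Commute (((S⁻¹ : (End F V)ˣ) : End F V) * (Z : End F V)) w := hSw.mul_left hZ
      have hSS : adj B hB ((S⁻¹ : (End F V)ˣ) : End F V) * adj B hB (S : End F V) = 1 := by
        rw [← adj_mul, Units.mul_inv, adj_one]
      have hX2 : adj B hB (((S⁻¹ : (End F V)ˣ) : End F V) * (Z : End F V)) * (((S⁻¹ : (End F V)ˣ) : End F V) * (Z : End F V)) = 1 := by
        have e1 : adj B hB (Z : End F V) * (Z : End F V) = adj B hB (S : End F V) * (S : End F V) := by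
          rw [hd, hc1, hS]; exact (hs3 c').symm
        have c1 : Commute (adj B hB (Z : End F V)) (adj B hB ((S⁻¹ : (End F V)ˣ) : End F V)) := comm_of_comm h hn (hadjw hZ) (hadjw hSw)
        have c2 : Commute ((S⁻¹ : (End F V)ˣ) : End F V) (Z : End F V) := comm_of_comm h hn hSw hZ
        rw [adj_mul]
        calc adj B hB (Z : End F V) * adj B hB ((S⁻¹ : (End F V)ˣ) : End F V) * (((S⁻¹ : (End F V)ˣ) : End F V) * (Z : End F V))
            = adj B hB ((S⁻¹ : (End F V)ˣ) : End F V) * (adj B hB (Z : End F V) * (Z : End F V)) * ((S⁻¹ : (End F V)ˣ) : End F V) := by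
              rw [c1.eq, c2.eq]; simp only [mul_assoc]
          _ = (adj B hB ((S⁻¹ : (End F V)ˣ) : End F V) * adj B hB (S : End F V)) * ((S : End F V) * ((S⁻¹ : (End F V)ˣ) : End F V)) := by
              rw [e1]; simp only [mul_assoc]
          _ = 1 := by rw [hSS, Units.mul_inv, one_mul]
      refine ⟨(⟨_, hX1, hX2⟩, c'), ?_⟩
      apply Subtype.ext
      apply Units.ext
      show s c' * (((S⁻¹ : (End F V)ˣ) : End F V) * (Z : End F V)) = Z
      rw [← hS, ← mul_assoc, Units.mul_inv, one_mul]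
  have h5 := card_coefs (F := F) hodd hm
  set a := Nat.card {X : End F V // Commute X w ∧ adj B hB X * X = 1}
  set b := Nat.card {c : Fin (2 * m) → F // (∀ i : Fin (2 * m), Odd (i : ℕ) → c i = 0) ∧ ∃ a : F, a ≠ 0 ∧ c ⟨0, by omega⟩ = a * a}
  have hq : 1 < Fintype.card F := Fintype.one_lt_card
  set q := Fintype.card F
  have hqp : 0 < (q - 1) * q ^ (m - 1) := Nat.mul_pos (by omega) (Nat.pos_of_ne_zero (by positivity))
  -- a * b * 2 = 2 (q-1) q^(2m-1)
  apply Nat.eq_of_mul_eq_mul_right hqp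
  rw [← h5, show a * (b * 2) = (a * b) * 2 by ring, hprod, h5]
  obtain ⟨k, rfl⟩ : ∃ k, m = k + 1 := ⟨m - 1, by omega⟩
  rw [show 2 * (k + 1) - 1 = (k + 1) + k by omega, Nat.add_sub_cancel, pow_add]
  ring

end

/-- Over a finite field with q elements, q odd, the centraliser in Sp_2m(F) (m ≥ 1) of a regular unipotent element (u − 1 nilpotent of rank 2m − 1) has order 2 q^m. -/
theorem result {F : Type*} [Field F] [Fintype F] {q : ℕ} (hF : Fintype.card F = q) (hq : Odd q) {m : ℕ} (hm : 1 ≤ m) (u : Matrix.symplecticGroup (Fin m) F) (hnil : ((u : Matrix (Fin m ⊕ Fin m) (Fin m ⊕ Fin m) F) - 1) ^ (2 * m) = 0) (hreg : ((u : Matrix (Fin m ⊕ Fin m) (Fin m ⊕ Fin m) F) - 1).rank = 2 * m - 1) : Nat.card ↥(Subgroup.centralizer ({u} : Set ↥(Matrix.symplecticGroup (Fin m) F))) = 2 * q ^ m := by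
  classical
  obtain ⟨p, hpc⟩ := CharP.exists F
  haveI : Fact p.Prime := ⟨CharP.char_is_prime F p⟩
  have h2' : (2 : F) ≠ 0 := by
    intro h0
    apply Cfsg.Agent.S2575.neg_one_ne hF hq
    linear_combination -h0
  have hp : p ≠ 2 := by
    rintro rfl
    exact h2' (by exact_mod_cast CharP.cast_eq_zero F 2)
  have hreg' := of_matrix (n := 2 * m) hnil hreg (by simp; omega)
  set T := spToLin (F := F) u with hT
  have hTN : ((T : (Fin m ⊕ Fin m → F) →ₗ[F] (Fin m ⊕ Fin m → F)) - 1) = Matrix.toLin' ((u : Matrix (Fin m ⊕ Fin m) (Fin m ⊕ Fin m) F) - 1) := by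
    rw [map_sub, Matrix.toLin'_one]; rfl
  rw [← hTN] at hreg'
  have hwreg := regular_w T h2' hreg'
  have hadjw := adj_w (spB m F) spB_nondeg T (spToLin_isometry u)
  have hs : ∀ x y, spB m F x y = (-1) * spB m F y x := fun x y => by rw [neg_one_mul]; exact (LinearMap.BilinForm.IsAlt.neg_eq spB_isAlt y x).symm
  rw [← hF, ← card_K (spB m F) spB_nondeg hp (by norm_num) hs hadjw hm hwreg]
  have hTs : ∀ v, T.symm v = spToLin u⁻¹ v := by
    intro v
    rw [hT, LinearEquiv.symm_apply_eq, ← LinearEquiv.mul_apply, ← map_mul, mul_inv_cancel, map_one]; rfl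
  refine Nat.card_congr (Equiv.ofBijective (fun g => ⟨(spToLin (F := F) g.1 : (Fin m ⊕ Fin m → F) →ₗ[F] (Fin m ⊕ Fin m → F)), ?_, ?_⟩) ⟨?_, ?_⟩)
  · have hg := g.2
    rw [Subgroup.mem_centralizer_singleton_iff] at hg
    have hg1 : ∀ v, spToLin g.1 (T v) = T (spToLin g.1 v) := by
      intro v
      have := congrArg (fun z => spToLin (F := F) z v) hg
      simpa [map_mul, LinearEquiv.mul_apply] using this
    have hg2 : ∀ v, spToLin g.1 (T.symm v) = T.symm (spToLin g.1 v) := by
      intro v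
      rw [eq_comm, LinearEquiv.symm_apply_eq, ← hg1, LinearEquiv.apply_symm_apply]
    apply LinearMap.ext
    intro v
    show spToLin g.1 (T v - T.symm v) = T (spToLin g.1 v) - T.symm (spToLin g.1 v)
    rw [map_sub, hg1, hg2]
  · rw [adj_isom (spB m F) spB_nondeg _ (spToLin_isometry g.1)]
    apply LinearMap.ext
    intro v
    show (spToLin g.1).symm (spToLin g.1 v) = v
    rw [LinearEquiv.symm_apply_apply]
  · intro g g' hgg
    apply Subtype.ext
    apply spToLin_injective
    apply LinearEquiv.toLinearMap_injective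
    exact congrArg Subtype.val hgg
  · rintro ⟨X, hX1, hX2⟩
    have hXu : IsUnit X := IsUnit.of_mul_eq_one _ (mul_eq_one_comm.mp hX2)
    let D : (Fin m ⊕ Fin m → F) ≃ₗ[F] (Fin m ⊕ Fin m → F) := LinearEquiv.ofBijective X ((Module.End.isUnit_iff _).mp hXu)
    have hDX : ∀ v, D v = X v := fun v => rfl
    have hDiso : ∀ x y, spB m F (D x) (D y) = spB m F x y := by
      intro x y
      rw [hDX, hDX, ← adj_left (spB m F) spB_nondeg X, ← Module.End.mul_apply, hX2]; rfl
    obtain ⟨A, hA⟩ := exists_spToLin D hDiso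
    -- X commutes with T: T ∈ F[w] since T commutes with w
    have hTw : Commute (T : (Fin m ⊕ Fin m → F) →ₗ[F] (Fin m ⊕ Fin m → F)) ((T : (Fin m ⊕ Fin m → F) →ₗ[F] (Fin m ⊕ Fin m → F)) - (T.symm : (Fin m ⊕ Fin m → F) →ₗ[F] (Fin m ⊕ Fin m → F))) := by
      apply LinearMap.ext
      intro v
      show T (T v - T.symm v) = T (T v) - T.symm (T v)
      rw [map_sub, LinearEquiv.apply_symm_apply, LinearEquiv.symm_apply_apply]
    have hXT := comm_of_comm hwreg (by omega) hX1 hTw
    refine ⟨⟨A, ?_⟩, ?_⟩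
    · rw [Subgroup.mem_centralizer_singleton_iff]
      apply spToLin_injective
      rw [map_mul, map_mul]
      apply LinearEquiv.ext
      intro v
      rw [LinearEquiv.mul_apply, LinearEquiv.mul_apply, hA]
      exact LinearMap.congr_fun hXT v
    · apply Subtype.ext
      apply LinearMap.ext
      intro v
      show spToLin A v = X v
      rw [hA]; rfl

end Cfsg.Agent.S2592
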