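import Cfsg.Statements.S2591
import Cfsg.Agent.S2592
import Cfsg.Agent.LibH22Spin2

set_option autoImplicit false
open Cfsg

namespace Cfsg.Agent.S2591

open Module CfsgLib.Semi CfsgLib.Reg CfsgLib.Cls CfsgLib.SpReg Cfsg.Agent.H22 Cfsg.Agent.S2592
open Matrix (mulVec)
open scoped Matrix

/-- the model: the shift is skew for an alternating form -/
theorem exists_skew (F : Type*) [Field F] (h2 : (2 : F) ≠ 0) {m : ℕ} (hm : 1 ≤ m) : ∃ (B : LinearMap.BilinForm F (Fin (2 * m) → F)) (N : End F (Fin (2 * m) → F)),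
    B.IsAlt ∧ B.Nondegenerate ∧ Regular N (2 * m) ∧ ∀ x y, B (N x) y = - B x (N y) := by
  classical
  obtain ⟨k, hk⟩ : ∃ k, 2 * m = k + 1 := ⟨2 * m - 1, by omega⟩
  rw [hk]
  let N : End F (Fin (k + 1) → F) :=
    { toFun := fun v i => if h : (i : ℕ) + 1 < k + 1 then v ⟨i + 1, h⟩ else 0
      map_add' := fun u v => by
        funext i
        by_cases h : (i : ℕ) + 1 < k + 1
        · simp only [dif_pos h, Pi.add_apply]
        · simp only [dif_neg h, Pi.add_apply, add_zero]
      map_smul' := fun c v => by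
        funext i
        by_cases h : (i : ℕ) + 1 < k + 1
        · simp only [dif_pos h, Pi.smul_apply, RingHom.id_apply]
        · simp only [dif_neg h, Pi.smul_apply, smul_zero, RingHom.id_apply] }
  have hNc : ∀ v (i : Fin k), N v i.castSucc = v i.succ := by
    intro v i
    show (if h : (i.castSucc : ℕ) + 1 < k + 1 then v ⟨i.castSucc + 1, h⟩ else 0) = v i.succ
    rw [dif_pos (by simp)]
    rfl
  have hNl : ∀ v, N v (Fin.last k) = 0 := by
    intro v
    show (if h : ((Fin.last k : Fin (k + 1)) : ℕ) + 1 < k + 1 then v ⟨_, h⟩ else 0) = 0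
    rw [dif_neg (by simp)]
  let B : LinearMap.BilinForm F (Fin (k + 1) → F) := LinearMap.mk₂ F (fun x y => ∑ i : Fin (k + 1), (-1) ^ (i : ℕ) * x i * y i.rev)
    (fun x x' y => by rw [← Finset.sum_add_distrib]; refine Finset.sum_congr rfl fun i _ => ?_; simp only [Pi.add_apply]; ring)
    (fun c x y => by rw [smul_eq_mul, Finset.mul_sum]; refine Finset.sum_congr rfl fun i _ => ?_; simp only [Pi.smul_apply, smul_eq_mul]; ring)
    (fun x y y' => by rw [← Finset.sum_add_distrib]; refine Finset.sum_congr rfl fun i _ => ?_; simp only [Pi.add_apply]; ring)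
    (fun c x y => by rw [smul_eq_mul, Finset.mul_sum]; refine Finset.sum_congr rfl fun i _ => ?_; simp only [Pi.smul_apply, smul_eq_mul]; ring)
  have hB : ∀ x y, B x y = ∑ i : Fin (k + 1), (-1) ^ (i : ℕ) * x i * y i.rev := fun x y => rfl
  have hskew : ∀ x y, B x y = - B y x := by
    intro x y
    rw [hB, hB, ← Finset.sum_neg_distrib, ← Equiv.sum_comp Fin.revPerm]
    refine Finset.sum_congr rfl fun i _ => ?_
    simp only [Fin.revPerm_apply, Fin.rev_rev]
    have h1 : ((-1 : F)) ^ ((i.rev : Fin (k + 1)) : ℕ) = -(-1) ^ (i : ℕ) := by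
      rw [Fin.val_rev]
      have hi := i.2
      rcases Nat.even_or_odd (i : ℕ) with he | ho
      · have : Odd (k + 1 - ((i : ℕ) + 1)) := by
          obtain ⟨t, ht⟩ := he
          rw [Nat.odd_iff]; omega
        rw [he.neg_one_pow, this.neg_one_pow]
      · have : Even (k + 1 - ((i : ℕ) + 1)) := by
          obtain ⟨t, ht⟩ := ho
          rw [Nat.even_iff]; omega
        rw [ho.neg_one_pow, this.neg_one_pow, neg_neg]
    rw [h1]; ring
  have hNB : ∀ x y, B (N x) y = - B x (N y) := by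
    intro x y
    rw [hB, hB, Fin.sum_univ_castSucc, Fin.sum_univ_succ (f := fun i : Fin (k + 1) => (-1) ^ (i : ℕ) * x i * N y i.rev)]
    have h1 : N y (Fin.rev 0) = 0 := by
      rw [Fin.rev_zero]; exact hNl y
    rw [hNl, h1, mul_zero, zero_mul, mul_zero, add_zero, zero_add, ← Finset.sum_neg_distrib]
    refine Finset.sum_congr rfl fun i _ => ?_
    rw [hNc]
    have h2 : N y (Fin.rev i.succ) = y (Fin.rev i.castSucc) := by
      have e1 : Fin.rev i.succ = (Fin.rev i).castSucc := by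
        apply Fin.ext; simp [Fin.val_rev]
      have e2 : Fin.rev i.castSucc = (Fin.rev i).succ := by
        apply Fin.ext
        simp only [Fin.val_rev, Fin.val_castSucc, Fin.val_succ]
        omega
      rw [e1, e2, hNc]
    rw [h2, Fin.val_castSucc, Fin.val_succ, pow_succ]
    ring
  have hNpow : ∀ j v (i : Fin (k + 1)), (N ^ j) v i = if h : (i : ℕ) + j < k + 1 then v ⟨i + j, h⟩ else 0 := by
    intro j
    induction j with
    | zero => intro v i; rw [dif_pos (by omega)]; simp
    | succ j ih =>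
      intro v i
      rw [pow_succ', Module.End.mul_apply]
      show (if h : (i : ℕ) + 1 < k + 1 then (N ^ j) v ⟨i + 1, h⟩ else 0) = _
      by_cases h : (i : ℕ) + 1 < k + 1
      · rw [dif_pos h, ih]
        simp only [show (i : ℕ) + 1 + j = i + (j + 1) by omega]
      · rw [dif_neg h, dif_neg (by omega)]
  have hnil : N ^ (k + 1) = 0 := by
    apply LinearMap.ext
    intro v
    funext i
    rw [hNpow, dif_neg (by omega)]
    rfl
  have hker : finrank F (LinearMap.ker N) ≤ 1 := by
    let ev : LinearMap.ker N →ₗ[F] F := (LinearMap.proj (0 : Fin (k + 1))).comp (LinearMap.ker N).subtype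
    have hev : Function.Injective ev := by
      rw [← LinearMap.ker_eq_bot, LinearMap.ker_eq_bot']
      rintro ⟨v, hv⟩ hv0
      apply Subtype.ext
      funext i
      rw [LinearMap.mem_ker] at hv
      refine Fin.cases ?_ (fun j => ?_) i
      · exact hv0
      · show v j.succ = 0
        rw [← hNc v j, hv]; rfl
    have := LinearMap.finrank_le_finrank_of_injective hev
    simpa using this
  have hrank : finrank F (LinearMap.range N) = k + 1 - 1 := by
    have h1 := LinearMap.finrank_range_add_finrank_ker N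
    rw [Module.finrank_fintype_fun_eq_card, Fintype.card_fin] at h1
    have h2 : finrank F (LinearMap.ker N) ≠ 0 := by
      intro h
      rw [Submodule.finrank_eq_zero] at h
      have hinj : Function.Injective N := LinearMap.ker_eq_bot.mp h
      have : Function.Injective (N ^ (k + 1)) := by
        rw [Module.End.coe_pow]; exact hinj.iterate (k + 1)
      rw [hnil] at this
      have h3 := @this (fun _ => 1) 0 rfl
      have := congrFun h3 0
      exact one_ne_zero this
    omega
  refine ⟨B, N, ?_, ?_, ⟨hnil, hrank, by simp⟩, hNB⟩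
  · intro x
    have h3 := hskew x x
    have : 2 * B x x = 0 := by linear_combination h3
    exact (mul_eq_zero.mp this).resolve_left h2
  · have key : ∀ x, (∀ y, B x y = 0) → x = 0 := by
      intro x hx
      funext i
      have h3 := hx (Pi.single i.rev 1)
      rw [hB, Finset.sum_eq_single i] at h3
      · rw [Pi.single_eq_same, mul_one] at h3
        exact (mul_eq_zero.mp h3).resolve_left (pow_ne_zero _ (neg_ne_zero.mpr one_ne_zero))
      · intro j _ hj
        rw [Pi.single_eq_of_ne (fun h => hj (Fin.rev_injective h)), mul_zero]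
      · intro hh; exact absurd (Finset.mem_univ i) hh
    exact ⟨key, fun x hx => key x (fun y => by rw [hskew, hx, neg_zero])⟩

section
variable {F : Type*} [Field F] [Fintype F] {m : ℕ}

/-- a regular unipotent element of `Sp` exists -/
theorem exists_unip (h2 : (2 : F) ≠ 0) (hm : 1 ≤ m) : ∃ u : Matrix.symplecticGroup (Fin m) F,
    Regular ((spToLin u : (Fin m ⊕ Fin m → F) →ₗ[F] (Fin m ⊕ Fin m → F)) - 1) (2 * m) := by
  classical
  obtain ⟨B, N, hA, hB, hN, hskew⟩ := exists_skew F h2 hm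
  obtain ⟨φ, hφ⟩ := alt_iso (spB m F) spB_isAlt spB_nondeg B hA hB (by simp; omega)
  -- Cayley transform
  have hNn : IsNilpotent N := ⟨_, hN.nil⟩
  obtain ⟨P, hP⟩ : IsUnit (1 - N) := hNn.isUnit_one_sub
  obtain ⟨M, hM⟩ : IsUnit (1 + N) := hNn.isUnit_one_add
  let U : (End F (Fin (2 * m) → F))ˣ := M * P⁻¹
  have hUv : (U : End F (Fin (2 * m) → F)) * (1 - N) = 1 + N := by
    show (M : End F (Fin (2 * m) → F)) * ((P⁻¹ : (End F (Fin (2 * m) → F))ˣ) : End F (Fin (2 * m) → F)) * (1 - N) = 1 + N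
    rw [← hP, mul_assoc, Units.inv_mul, mul_one, hM]
  have hiso : ∀ x y, B ((U : End F (Fin (2 * m) → F)) x) ((U : End F (Fin (2 * m) → F)) y) = B x y := by
    have hPs : Function.Surjective (P : End F (Fin (2 * m) → F)) := ((Module.End.isUnit_iff _).mp P.isUnit).2
    intro x y
    obtain ⟨x, rfl⟩ := hPs x
    obtain ⟨y, rfl⟩ := hPs y
    rw [← Module.End.mul_apply, ← Module.End.mul_apply, hP, hUv]
    show B (x + N x) (y + N y) = B (x - N x) (y - N y)
    simp only [map_add, map_sub, LinearMap.add_apply, LinearMap.sub_apply]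
    rw [hskew x y]
    ring
  have hU1 : (U : End F (Fin (2 * m) → F)) - 1 = ((2 : F) • ((P⁻¹ : (End F (Fin (2 * m) → F))ˣ) : End F (Fin (2 * m) → F))) * N := by
    have hc : Commute (((P⁻¹ : (End F (Fin (2 * m) → F))ˣ) : End F (Fin (2 * m) → F))) N := by
      apply Commute.units_inv_left
      rw [hP]
      exact (Commute.one_left N).sub_left (Commute.refl N)
    have h3 : ((U : End F (Fin (2 * m) → F)) - 1) * (1 - N) = (((2 : F) • ((P⁻¹ : (End F (Fin (2 * m) → F))ˣ) : End F (Fin (2 * m) → F))) * N) * (1 - N) := by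
      rw [sub_mul, hUv, one_mul, smul_mul_assoc, smul_mul_assoc, hc.eq, mul_assoc, ← hP, Units.inv_mul, mul_one, two_smul, hP]
      abel
    have hu : IsUnit (1 - N) := by rw [← hP]; exact P.isUnit
    exact hu.mul_right_cancel h3
  have hUreg : Regular ((U : End F (Fin (2 * m) → F)) - 1) (2 * m) := by
    have hc : Commute ((2 : F) • ((P⁻¹ : (End F (Fin (2 * m) → F))ˣ) : End F (Fin (2 * m) → F))) N := by
      apply Commute.smul_left
      apply Commute.units_inv_left
      rw [hP]
      exact (Commute.one_left N).sub_left (Commute.refl N)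
    have hu : IsUnit ((2 : F) • ((P⁻¹ : (End F (Fin (2 * m) → F))ˣ) : End F (Fin (2 * m) → F))) := by
      have : (2 : F) • ((P⁻¹ : (End F (Fin (2 * m) → F))ˣ) : End F (Fin (2 * m) → F)) = ((2 : F) • 1) * ((P⁻¹ : (End F (Fin (2 * m) → F))ˣ) : End F (Fin (2 * m) → F)) := by
        rw [smul_mul_assoc, one_mul]
      rw [this]
      refine IsUnit.mul ?_ (P⁻¹).isUnit
      refine isUnit_iff_exists.mpr ⟨(2 : F)⁻¹ • 1, ?_, ?_⟩
      · rw [smul_mul_smul_comm, mul_one, mul_inv_cancel₀ h2, one_smul]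
      · rw [smul_mul_smul_comm, mul_one, inv_mul_cancel₀ h2, one_smul]
    refine ⟨?_, ?_, hN.dim⟩
    · rw [hU1, hc.mul_pow, hN.nil, mul_zero]
    · rw [hU1]
      have hinj := ((Module.End.isUnit_iff _).mp hu).1
      rw [← hN.rank]
      have : LinearMap.range (((2 : F) • ((P⁻¹ : (End F (Fin (2 * m) → F))ˣ) : End F (Fin (2 * m) → F))) * N) = (LinearMap.range N).map ((2 : F) • ((P⁻¹ : (End F (Fin (2 * m) → F))ˣ) : End F (Fin (2 * m) → F))) := LinearMap.range_comp _ _
      rw [this]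
      exact (Submodule.equivMapOfInjective _ hinj _).finrank_eq.symm
  -- transport
  let Ue : (Fin (2 * m) → F) ≃ₗ[F] (Fin (2 * m) → F) := LinearEquiv.ofBijective (U : End F (Fin (2 * m) → F)) ((Module.End.isUnit_iff _).mp U.isUnit)
  let W : (Fin m ⊕ Fin m → F) ≃ₗ[F] (Fin m ⊕ Fin m → F) := (φ.trans Ue).trans φ.symm
  have hW : ∀ v, φ (W v) = (U : End F (Fin (2 * m) → F)) (φ v) := by
    intro v
    show φ (φ.symm (Ue (φ v))) = _
    rw [LinearEquiv.apply_symm_apply]; rfl
  obtain ⟨u, hu⟩ := exists_spToLin W (by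
    intro x y
    rw [← hφ, hW, hW, hiso, hφ])
  refine ⟨u, ?_⟩
  rw [hu]
  -- regularity transported
  have hWN : ∀ v, φ (((W : (Fin m ⊕ Fin m → F) →ₗ[F] (Fin m ⊕ Fin m → F)) - 1) v) = ((U : End F (Fin (2 * m) → F)) - 1) (φ v) := by
    intro v
    show φ (W v - v) = (U : End F (Fin (2 * m) → F)) (φ v) - φ v
    rw [map_sub, hW]
  have hWk : ∀ (k : ℕ) v, φ ((((W : (Fin m ⊕ Fin m → F) →ₗ[F] (Fin m ⊕ Fin m → F)) - 1) ^ k) v) = (((U : End F (Fin (2 * m) → F)) - 1) ^ k) (φ v) := by
    intro k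
    induction k with
    | zero => intro v; rfl
    | succ k ih => intro v; rw [pow_succ', pow_succ', Module.End.mul_apply, Module.End.mul_apply, hWN, ih]
  refine ⟨?_, ?_, by simp; omega⟩
  · apply LinearMap.ext
    intro v
    apply φ.injective
    rw [hWk, hUreg.nil]
    simp
  · rw [← hUreg.rank]
    have : LinearMap.range ((U : End F (Fin (2 * m) → F)) - 1) = (LinearMap.range ((W : (Fin m ⊕ Fin m → F) →ₗ[F] (Fin m ⊕ Fin m → F)) - 1)).map (φ : (Fin m ⊕ Fin m → F) →ₗ[F] (Fin (2 * m) → F)) := by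
      apply le_antisymm
      · rintro _ ⟨y, rfl⟩
        obtain ⟨x, rfl⟩ := φ.surjective y
        exact ⟨_, ⟨x, rfl⟩, hWN x⟩
      · rintro _ ⟨_, ⟨x, rfl⟩, rfl⟩
        exact ⟨φ x, (hWN x).symm⟩
    rw [this]
    exact (LinearEquiv.finrank_map_eq φ _).symm

theorem reg_iff (u : Matrix.symplecticGroup (Fin m) F) : (((u : Matrix (Fin m ⊕ Fin m) (Fin m ⊕ Fin m) F) - 1) ^ (2 * m) = 0 ∧
    ((u : Matrix (Fin m ⊕ Fin m) (Fin m ⊕ Fin m) F) - 1).rank = 2 * m - 1) ↔ Regular ((spToLin u : (Fin m ⊕ Fin m → F) →ₗ[F] (Fin m ⊕ Fin m → F)) - 1) (2 * m) := by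
  have hTN : ((spToLin u : (Fin m ⊕ Fin m → F) →ₗ[F] (Fin m ⊕ Fin m → F)) - 1) = Matrix.toLin' ((u : Matrix (Fin m ⊕ Fin m) (Fin m ⊕ Fin m) F) - 1) := by
    rw [map_sub, Matrix.toLin'_one]; rfl
  rw [hTN]
  constructor
  · rintro ⟨h1, h3⟩
    exact of_matrix (n := 2 * m) h1 h3 (by simp; omega)
  · intro h
    refine ⟨?_, h.rank⟩
    have := h.nil
    rw [← Matrix.toLin'_pow] at this
    exact Matrix.toLin'.injective (by rw [this, map_zero])

/-- a similitude with multiplier `a` -/
theorem exists_simil (a : F) (ha : a ≠ 0) : ∃ g : (Fin m ⊕ Fin m → F) ≃ₗ[F] (Fin m ⊕ Fin m → F), ∀ x y, spB m F (g x) (g y) = a * spB m F x y := by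
  let g : (Fin m ⊕ Fin m → F) →ₗ[F] (Fin m ⊕ Fin m → F) :=
    { toFun := fun x => Sum.elim (fun i => a * x (Sum.inl i)) (fun i => x (Sum.inr i))
      map_add' := fun x y => by
        funext i; rcases i with i | i
        · show a * (x (Sum.inl i) + y (Sum.inl i)) = a * x (Sum.inl i) + a * y (Sum.inl i); ring
        · rfl
      map_smul' := fun c x => by
        funext i; rcases i with i | i
        · show a * (c * x (Sum.inl i)) = c * (a * x (Sum.inl i)); ring
        · rfl }
  have hg : ∀ x, g x = Sum.elim (fun i => a * x (Sum.inl i)) (fun i => x (Sum.inr i)) := fun x => rfl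
  have hinj : Function.Injective g := by
    rw [← LinearMap.ker_eq_bot, LinearMap.ker_eq_bot']
    intro x hx
    funext i
    have := congrFun hx i
    rcases i with i | i
    · have h1 : a * x (Sum.inl i) = 0 := this
      exact (mul_eq_zero.mp h1).resolve_left ha
    · exact this
  refine ⟨LinearEquiv.ofBijective g ⟨hinj, LinearMap.surjective_of_injective hinj⟩, fun x y => ?_⟩
  show spB m F (g x) (g y) = a * spB m F x y
  rw [spB_apply, spB_apply, sympForm_eq_sum, sympForm_eq_sum, Finset.mul_sum]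
  refine Finset.sum_congr rfl fun i _ => ?_
  rw [hg, hg]
  simp only [Sum.elim_inl, Sum.elim_inr]
  ring

/-- transport of regularity -/
theorem regular_transport {V V' : Type*} [AddCommGroup V] [Module F V] [FiniteDimensional F V] [AddCommGroup V'] [Module F V'] [FiniteDimensional F V']
    {N : End F V} {N' : End F V'} {n : ℕ} (h : Regular N n) (g : V ≃ₗ[F] V') (hg : ∀ x, N' (g x) = g (N x)) : Regular N' n := by
  have hk : ∀ (k : ℕ) x, (N' ^ k) (g x) = g ((N ^ k) x) := by
    intro k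
    induction k with
    | zero => intro x; rfl
    | succ k ih => intro x; rw [pow_succ', pow_succ', Module.End.mul_apply, Module.End.mul_apply, ih, hg]
  refine ⟨?_, ?_, by rw [← h.dim]; exact g.finrank_eq.symm⟩
  · apply LinearMap.ext
    intro v
    obtain ⟨v, rfl⟩ := g.surjective v
    rw [hk, h.nil]; simp
  · rw [← h.rank]
    have : LinearMap.range N' = (LinearMap.range N).map (g : V →ₗ[F] V') := by
      apply le_antisymm
      · rintro _ ⟨y, rfl⟩
        obtain ⟨x, rfl⟩ := g.surjective y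
        exact ⟨_, ⟨x, rfl⟩, (hg x).symm⟩
      · rintro _ ⟨_, ⟨x, rfl⟩, rfl⟩
        exact ⟨g x, hg x⟩
    rw [this]
    exact LinearEquiv.finrank_map_eq g _

/-- the key reduction -/
theorem key {V : Type*} [AddCommGroup V] [Module F V] [FiniteDimensional F V] {p : ℕ} [Fact p.Prime] [CharP F p] (hp : p ≠ 2) (h2 : (2 : F) ≠ 0)
    (B : LinearMap.BilinForm F V) (hB : B.Nondegenerate)
    {ε : F} (hε : ε * ε = 1) (hs : ∀ x y, B x y = ε * B y x) (T : V ≃ₗ[F] V) (hT : ∀ x y, B (T x) (T y) = B x y) {n : ℕ} (hn : 1 ≤ n)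
    (h : Regular ((T : V →ₗ[F] V) - 1) n) (g : V ≃ₗ[F] V) (hg : ∀ x y, B (g (T x)) (g (T y)) = B (g x) (g y)) :
    ∃ c0 : F, c0 ≠ 0 ∧ ∀ a μ : F, a ≠ 0 → c0 = μ * (a * a) → ∃ z : V ≃ₗ[F] V, (∀ x, z (T x) = T (z x)) ∧ ∀ x y, B (g x) (g y) = μ * B (z x) (z y) := by
  set w : End F V := (T : V →ₗ[F] V) - (T.symm : V →ₗ[F] V) with hw
  have hwr := regular_w T h2 h
  have hadj := adj_w B hB T hT
  rw [← hw] at hwr hadj
  set H : End F V := adj B hB (g : V →ₗ[F] V) * (g : V →ₗ[F] V) with hH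
  have hHB : ∀ x y, B (H x) y = B (g x) (g y) := by
    intro x y
    rw [hH, Module.End.mul_apply, adj_left]; rfl
  have hHT : ∀ x, H (T x) = T (H x) := by
    intro x
    apply ext_left B hB
    intro y
    obtain ⟨y, rfl⟩ := T.surjective y
    rw [hHB, hg, hT, hHB]
  have hHTs : ∀ x, H (T.symm x) = T.symm (H x) := by
    intro x
    rw [eq_comm, LinearEquiv.symm_apply_eq, ← hHT, LinearEquiv.apply_symm_apply]
  have hHw : Commute H w := by
    apply LinearMap.ext
    intro v
    show H (T v - T.symm v) = T (H v) - T.symm (H v)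
    rw [map_sub, hHT, hHTs]
  obtain ⟨c, hc⟩ := hwr.exists_pol hn hHw
  have hHs : adj B hB H = H := by rw [hH, adj_mul, adj_adj B hB hε hs]
  have hceven : ∀ i : Fin n, Odd (i : ℕ) → c i = 0 := by
    rw [← sym_iff B hB hadj hwr hn h2, ← hc, hHs]
  have hHinj : Function.Injective H := by
    rw [← LinearMap.ker_eq_bot, LinearMap.ker_eq_bot']
    intro x hx
    apply g.injective
    rw [map_zero]
    apply ext_left B hB
    intro y
    obtain ⟨y, rfl⟩ := g.surjective y
    rw [← hHB, hx, map_zero, LinearMap.zero_apply, LinearMap.zero_apply]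
  have hHu : IsUnit H := (Module.End.isUnit_iff _).mpr ⟨hHinj, LinearMap.surjective_of_injective hHinj⟩
  have hc0 : c ⟨0, hn⟩ ≠ 0 := by
    rw [hc, hwr.pol_isUnit_iff hn] at hHu
    exact hHu
  refine ⟨c ⟨0, hn⟩, hc0, fun a μ ha hμ => ?_⟩
  have hμ0 : μ ≠ 0 := by rintro rfl; rw [zero_mul] at hμ; exact hc0 hμ
  obtain ⟨d, hd0, hd⟩ := exists_norm B hB hadj hwr hn hp (fun i => μ⁻¹ * c i) (fun i hi => by rw [hceven i hi, mul_zero]) (a := a) ha
    (by rw [hμ, ← mul_assoc, inv_mul_cancel₀ hμ0, one_mul])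
  have hpol : Regular.pol w (fun i => μ⁻¹ * c i) = μ⁻¹ • H := by
    rw [hc]; unfold Regular.pol; rw [Finset.smul_sum]
    refine Finset.sum_congr rfl fun i _ => ?_
    rw [smul_smul]
  rw [hpol] at hd
  have hZu : IsUnit (Regular.pol w d) := (hwr.pol_isUnit_iff hn _).mpr hd0
  refine ⟨LinearEquiv.ofBijective (Regular.pol w d) ((Module.End.isUnit_iff _).mp hZu), fun x => ?_, fun x y => ?_⟩
  · have hTw : Commute (T : V →ₗ[F] V) w := by
      apply LinearMap.ext
      intro v
      show T (T v - T.symm v) = T (T v) - T.symm (T v)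
      rw [map_sub, LinearEquiv.apply_symm_apply, LinearEquiv.symm_apply_apply]
    have hZT := comm_of_comm hwr hn (Regular.pol_comm w d) hTw
    exact congrArg (fun f : End F V => f x) hZT
  · show _ = μ * B (Regular.pol w d x) (Regular.pol w d y)
    rw [← adj_left B hB, ← Module.End.mul_apply, hd, LinearMap.smul_apply, map_smul, LinearMap.smul_apply, smul_eq_mul, ← mul_assoc,
      mul_inv_cancel₀ hμ0, one_mul, hHB]

/-- non-conjugacy -/
theorem key2 {V : Type*} [AddCommGroup V] [Module F V] [FiniteDimensional F V] (h2 : (2 : F) ≠ 0)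
    (B : LinearMap.BilinForm F V) (hB : B.Nondegenerate)
    {ε : F} (hε : ε * ε = 1) (hs : ∀ x y, B x y = ε * B y x) (T : V ≃ₗ[F] V) (hT : ∀ x y, B (T x) (T y) = B x y) {n : ℕ} (hn : 1 ≤ n)
    (h : Regular ((T : V →ₗ[F] V) - 1) n) (z : V ≃ₗ[F] V) (hz : ∀ x, z (T x) = T (z x)) (μ : F) (hμ : ∀ x y, B (z x) (z y) = μ * B x y) :
    ∃ a, μ = a * a := by
  set w : End F V := (T : V →ₗ[F] V) - (T.symm : V →ₗ[F] V) with hw
  have hwr := regular_w T h2 h
  have hadj := adj_w B hB T hT
  rw [← hw] at hwr hadj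
  have hzs : ∀ x, z (T.symm x) = T.symm (z x) := by
    intro x
    rw [eq_comm, LinearEquiv.symm_apply_eq, ← hz, LinearEquiv.apply_symm_apply]
  have hzw : Commute (z : V →ₗ[F] V) w := by
    apply LinearMap.ext
    intro v
    show z (T v - T.symm v) = T (z v) - T.symm (z v)
    rw [map_sub, hz, hzs]
  obtain ⟨d, hd⟩ := hwr.exists_pol hn hzw
  obtain ⟨c, hc, _, hc0⟩ := norm_form B hB hadj hwr hn h2 hε hs d
  refine ⟨d ⟨0, hn⟩, ?_⟩
  rw [← hc0]
  have hX : adj B hB (Regular.pol w d) * Regular.pol w d = μ • (1 : End F V) := by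
    rw [← hd]
    apply LinearMap.ext
    intro x
    apply ext_left B hB
    intro y
    rw [Module.End.mul_apply, adj_left]
    show B (z x) (z y) = B (μ • x) y
    rw [hμ, map_smul, LinearMap.smul_apply, smul_eq_mul]
  have hn1 := pol_sub_nilpotent hwr hn c
  rw [← hc, hX] at hn1
  exact chi_unique hwr hn (X := μ • (1 : End F V)) ((Commute.one_left w).smul_left μ) (by rw [sub_self]; exact IsNilpotent.zero) hn1

end

/-- Over a finite field of odd order and for m ≥ 1, the regular unipotent elements of Sp_2m(F) (u − 1 nilpotent of rank 2m − 1, a single Jordan block) form exactly two conjugacy classes of Sp_2m(F) (one class under the similarity group, which splits in two). -/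
theorem result {F : Type*} [Field F] [Fintype F] {q : ℕ} (hF : Fintype.card F = q) (hq : Odd q) {m : ℕ} (hm : 1 ≤ m) : Nat.card {C : ConjClasses ↥(Matrix.symplecticGroup (Fin m) F) // ∃ u : Matrix.symplecticGroup (Fin m) F, ConjClasses.mk u = C ∧ ((u : Matrix (Fin m ⊕ Fin m) (Fin m ⊕ Fin m) F) - 1) ^ (2 * m) = 0 ∧ ((u : Matrix (Fin m ⊕ Fin m) (Fin m ⊕ Fin m) F) - 1).rank = 2 * m - 1} = 2 := by
  classical
  obtain ⟨p, hpc⟩ := CharP.exists F
  haveI : Fact p.Prime := ⟨CharP.char_is_prime F p⟩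
  have h2' : (2 : F) ≠ 0 := by
    intro h0
    apply Cfsg.Agent.S2575.neg_one_ne hF hq
    linear_combination -h0
  have hp : p ≠ 2 := by
    rintro rfl
    exact h2' (by exact_mod_cast CharP.cast_eq_zero F 2)
  have hn : 1 ≤ 2 * m := by omega
  have hs : ∀ x y, spB m F x y = (-1) * spB m F y x := fun x y => by rw [neg_one_mul]; exact (LinearMap.BilinForm.IsAlt.neg_eq spB_isAlt y x).symm
  obtain ⟨u0, hu0⟩ := exists_unip h2' hm
  obtain ⟨δ, hδ⟩ := FiniteField.exists_nonsquare (F := F) (by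
    intro h
    exact hp (CharP.eq F hpc (ringChar.of_eq h)))
  have hδ0 : δ ≠ 0 := by rintro rfl; exact hδ (IsSquare.zero)
  obtain ⟨hh, hhm⟩ := exists_simil (m := m) δ hδ0
  -- u1
  obtain ⟨u1, hu1⟩ := exists_spToLin (hh.symm.trans ((spToLin u0).trans hh)) (by
    intro x y
    obtain ⟨x, rfl⟩ := hh.surjective x
    obtain ⟨y, rfl⟩ := hh.surjective y
    simp only [LinearEquiv.trans_apply, LinearEquiv.symm_apply_apply]
    rw [hhm, hhm, spToLin_isometry])
  have hu1' : ∀ x, spToLin u1 (hh x) = hh (spToLin u0 x) := by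
    intro x
    rw [hu1]; simp
  have tr : ∀ (u : Matrix.symplecticGroup (Fin m) F) (g : (Fin m ⊕ Fin m → F) ≃ₗ[F] (Fin m ⊕ Fin m → F)), (∀ x, spToLin u (g x) = g (spToLin u0 x)) →
      Regular ((spToLin u : (Fin m ⊕ Fin m → F) →ₗ[F] (Fin m ⊕ Fin m → F)) - 1) (2 * m) := by
    intro u g hug
    refine regular_transport hu0 g (fun x => ?_)
    show spToLin u (g x) - g x = g (spToLin u0 x - x)
    rw [hug, map_sub]
  have hu1r := tr u1 hh hu1'
  have hnc : ¬ IsConj u0 u1 := by
    rintro ⟨c, hc⟩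
    rw [SemiconjBy] at hc
    obtain ⟨a, ha⟩ := key2 h2' (spB m F) spB_nondeg (ε := -1) (by norm_num) hs (spToLin u0) (spToLin_isometry u0) hn hu0 ((spToLin (F := F) c.1).trans hh.symm)
      (fun x => by
        rw [LinearEquiv.trans_apply, LinearEquiv.trans_apply]
        rw [LinearEquiv.symm_apply_eq, ← hu1', LinearEquiv.apply_symm_apply]
        have := congrArg (fun z => spToLin (F := F) z x) hc
        simpa [map_mul, LinearEquiv.mul_apply] using this) δ⁻¹
      (fun x y => by
        have h5 := hhm (hh.symm (spToLin c.1 x)) (hh.symm (spToLin c.1 y))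
        rw [LinearEquiv.apply_symm_apply, LinearEquiv.apply_symm_apply, spToLin_isometry] at h5
        rw [h5, LinearEquiv.trans_apply, LinearEquiv.trans_apply, ← mul_assoc, inv_mul_cancel₀ hδ0, one_mul])
    exact hδ ⟨a⁻¹, by rw [← mul_inv, ← ha, inv_inv]⟩
  have hcl : ∀ u : Matrix.symplecticGroup (Fin m) F, Regular ((spToLin u : (Fin m ⊕ Fin m → F) →ₗ[F] (Fin m ⊕ Fin m → F)) - 1) (2 * m) → IsConj u0 u ∨ IsConj u1 u := by
    intro u hu
    obtain ⟨g, hg⟩ := Regular.conj hu0 hu hn
    have hg' : ∀ v, g (spToLin u0 v) = spToLin u (g v) := by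
      intro v
      have h5 := hg v
      have h6 : g (spToLin u0 v - v) = spToLin u (g v) - g v := h5
      rw [map_sub, sub_left_inj] at h6
      exact h6
    obtain ⟨c0, hc0, hkey⟩ := key hp h2' (spB m F) spB_nondeg (ε := -1) (by norm_num) hs (spToLin u0) (spToLin_isometry u0) hn hu0 g
      (fun x y => by rw [hg', hg', spToLin_isometry])
    have fin : ∀ (u2 : Matrix.symplecticGroup (Fin m) F) (s : (Fin m ⊕ Fin m → F) ≃ₗ[F] (Fin m ⊕ Fin m → F)), (∀ x y, spB m F (s x) (s y) = spB m F x y) →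
        (∀ x, s (spToLin u2 x) = spToLin u (s x)) → IsConj u2 u := by
      intro u2 s hs1 hs2
      obtain ⟨S, hS⟩ := exists_spToLin s hs1
      rw [isConj_iff]
      refine ⟨S, ?_⟩
      rw [mul_inv_eq_iff_eq_mul]
      apply spToLin_injective
      ext1 x
      rw [map_mul, map_mul, LinearEquiv.mul_apply, LinearEquiv.mul_apply, hS, hs2]
    by_cases hsq : IsSquare c0
    · left
      obtain ⟨a, ha⟩ := hsq
      have ha0 : a ≠ 0 := by rintro rfl; rw [zero_mul] at ha; exact hc0 ha
      obtain ⟨z, hz1, hz2⟩ := hkey a 1 ha0 (by rw [ha, one_mul])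
      refine fin u0 (z.symm.trans g) (fun x y => ?_) (fun x => ?_)
      · rw [LinearEquiv.trans_apply, LinearEquiv.trans_apply, hz2, one_mul, LinearEquiv.apply_symm_apply, LinearEquiv.apply_symm_apply]
      · obtain ⟨x, rfl⟩ := z.surjective x
        rw [LinearEquiv.trans_apply, LinearEquiv.trans_apply, ← hz1, LinearEquiv.symm_apply_apply, LinearEquiv.symm_apply_apply, hg']
    · right
      obtain ⟨a, ha⟩ := H22.isSquare_div_of_not h2' c0 δ hc0 hδ0 hsq hδ
      have ha' : c0 = δ * (a * a) := by rw [← ha, mul_div_cancel₀ _ hδ0]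
      have ha0 : a ≠ 0 := by rintro rfl; rw [zero_mul, mul_zero] at ha'; exact hc0 ha'
      obtain ⟨z, hz1, hz2⟩ := hkey a δ ha0 ha'
      refine fin u1 ((z.trans hh).symm.trans g) (fun x y => ?_) (fun x => ?_)
      · rw [LinearEquiv.trans_apply, LinearEquiv.trans_apply, hz2, ← hhm]
        obtain ⟨x, rfl⟩ := (z.trans hh).surjective x
        obtain ⟨y, rfl⟩ := (z.trans hh).surjective y
        rw [LinearEquiv.symm_apply_apply, LinearEquiv.symm_apply_apply]; rfl
      · obtain ⟨x, rfl⟩ := (z.trans hh).surjective x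
        have e1 : ((z.trans hh).symm.trans g) ((z.trans hh) x) = g x := by
          rw [LinearEquiv.trans_apply, LinearEquiv.symm_apply_apply]
        have e2 : spToLin u1 ((z.trans hh) x) = (z.trans hh) (spToLin u0 x) := by
          rw [LinearEquiv.trans_apply, LinearEquiv.trans_apply, hu1', ← hz1]
        rw [e1, e2, LinearEquiv.trans_apply, LinearEquiv.symm_apply_apply, hg']
  have hfin : ({C : ConjClasses ↥(Matrix.symplecticGroup (Fin m) F) | ∃ u : Matrix.symplecticGroup (Fin m) F, ConjClasses.mk u = C ∧ ((u : Matrix (Fin m ⊕ Fin m) (Fin m ⊕ Fin m) F) - 1) ^ (2 * m) = 0 ∧ ((u : Matrix (Fin m ⊕ Fin m) (Fin m ⊕ Fin m) F) - 1).rank = 2 * m - 1}) =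
      {ConjClasses.mk u0, ConjClasses.mk u1} := by
    ext C
    simp only [Set.mem_setOf_eq, Set.mem_insert_iff, Set.mem_singleton_iff]
    constructor
    · rintro ⟨u, rfl, hu⟩
      rcases hcl u ((reg_iff u).mp hu) with h | h
      · left; exact (ConjClasses.mk_eq_mk_iff_isConj.mpr h).symm
      · right; exact (ConjClasses.mk_eq_mk_iff_isConj.mpr h).symm
    · rintro (rfl | rfl)
      · exact ⟨u0, rfl, (reg_iff u0).mpr hu0⟩
      · exact ⟨u1, rfl, (reg_iff u1).mpr hu1r⟩
  show Nat.card ({C : ConjClasses ↥(Matrix.symplecticGroup (Fin m) F) | ∃ u : Matrix.symplecticGroup (Fin m) F, ConjClasses.mk u = C ∧ ((u : Matrix (Fin m ⊕ Fin m) (Fin m ⊕ Fin m) F) - 1) ^ (2 * m) = 0 ∧ ((u : Matrix (Fin m ⊕ Fin m) (Fin m ⊕ Fin m) F) - 1).rank = 2 * m - 1} : Set _) = 2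
  rw [hfin, Nat.card_coe_set_eq, Set.ncard_pair]
  intro h
  exact hnc (ConjClasses.mk_eq_mk_iff_isConj.mp h)

end Cfsg.Agent.S2591
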