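import Cfsg.Statements.S2593
import Cfsg.Agent.LibInvC2H13

set_option autoImplicit false
open Cfsg

namespace Cfsg.Agent.S2593

open CfsgLib.InvC CfsgLib.Inv2 Cfsg.Agent.H22 Module LinearMap

theorem polar_eq {F : Type*} [Field F] [CharP F 2] {m : ℕ} (x y : Fin m ⊕ Fin m → F) : QuadraticMap.polarBilin (qPlus m F) x y = spB m F x y := by
  rw [QuadraticMap.polarBilin_apply_apply, polar_qPlus, spB_apply, sympForm_eq_sum]
  refine Finset.sum_congr rfl fun i _ => ?_
  rw [CharTwo.sub_eq_add]; ring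

open Classical in
/-- the type -/
noncomputable def tyB {F V : Type*} [Field F] [AddCommGroup V] [Module F V] (B : LinearMap.BilinForm F V) (T : V ≃ₗ[F] V) : ℕ ⊕ ℕ :=
  if (∀ v, B v (nl T v) = 0) then Sum.inr (finrank F (range (nl T))) else Sum.inl (finrank F (range (nl T)))

theorem tyB_alt {F V : Type*} [Field F] [AddCommGroup V] [Module F V] {B : LinearMap.BilinForm F V} {T : V ≃ₗ[F] V} (h : ∀ v, B v (nl T v) = 0) : tyB B T = Sum.inr (finrank F (range (nl T))) := by
  unfold tyB; rw [if_pos h]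

theorem tyB_ne {F V : Type*} [Field F] [AddCommGroup V] [Module F V] {B : LinearMap.BilinForm F V} {T : V ≃ₗ[F] V} (h : ∃ v, B v (nl T v) ≠ 0) : tyB B T = Sum.inl (finrank F (range (nl T))) := by
  unfold tyB; rw [if_neg (by push Not; exact h)]

theorem tyB_eq_iff {F V : Type*} [Field F] [AddCommGroup V] [Module F V] {B : LinearMap.BilinForm F V} {T S : V ≃ₗ[F] V} : tyB B T = tyB B S ↔ finrank F (range (nl T)) = finrank F (range (nl S)) ∧
    ((∀ v, B v (nl T v) = 0) ↔ ∀ v, B v (nl S v) = 0) := by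
  by_cases h1 : ∀ v, B v (nl T v) = 0
  · rw [tyB_alt h1]
    by_cases h2 : ∀ v, B v (nl S v) = 0
    · rw [tyB_alt h2, Sum.inr.injEq]; tauto
    · rw [tyB_ne (by push Not at h2; exact h2)]
      simp only [reduceCtorEq, false_iff]; tauto
  · rw [tyB_ne (by push Not at h1; exact h1)]
    by_cases h2 : ∀ v, B v (nl S v) = 0
    · rw [tyB_alt h2]
      simp only [reduceCtorEq, false_iff]; tauto
    · rw [tyB_ne (by push Not at h2; exact h2), Sum.inl.injEq]; tauto

theorem conj_iff {F : Type*} [Field F] [Fintype F] [CharP F 2] {m : ℕ} (g h : Matrix.symplecticGroup (Fin m) F) (hg : orderOf g = 2) (hh : orderOf h = 2) :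
    IsConj g h ↔ tyB (spB m F) (spToLin g) = tyB (spB m F) (spToLin h) := by
  have hsq : ∀ x : F, IsSquare x := fun x => FiniteField.isSquare_of_char_two (ringChar.eq F 2) x
  rw [tyB_eq_iff]
  constructor
  · intro hc
    obtain ⟨c, hc⟩ := isConj_iff.1 hc
    have h2 : c * g = h * c := by rw [← hc]; group
    have h3 : spToLin (F := F) c * spToLin g = spToLin h * spToLin c := by rw [← map_mul, ← map_mul, h2]
    refine ⟨rank_conj h3, ?_⟩
    constructor
    · intro h1 v
      obtain ⟨v, rfl⟩ := (spToLin (F := F) c).surjective v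
      rw [← nl_conj h3, spToLin_isometry, h1]
    · intro h1 v
      rw [← spToLin_isometry c, nl_conj h3, h1]
  · intro hty
    obtain ⟨c, hc, hc2⟩ := alt_conj (spB m F) hsq spB_isAlt spB_nondeg (spToLin g) (spToLin h) (spToLin_isometry g) (spToLin_isometry h)
      (sp_invol hg) (sp_invol hh) hty.1 hty.2
    obtain ⟨C, hC⟩ := exists_spToLin c hc
    rw [isConj_iff]
    refine ⟨C, ?_⟩
    rw [mul_inv_eq_iff_eq_mul]
    apply spToLin_injective
    rw [map_mul, map_mul, hC, hc2]

theorem exists_sp {F : Type*} [Field F] [Fintype F] [CharP F 2] {m : ℕ} {T : (Fin m ⊕ Fin m → F) ≃ₗ[F] (Fin m ⊕ Fin m → F)} (hT : T ∈ OGrp (qPlus m F)) (hT2 : T * T = 1)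
    {s : ℕ} (hr : finrank F (range (nl T)) = s) (hs : 1 ≤ s) :
    ∃ g : Matrix.symplecticGroup (Fin m) F, orderOf g = 2 ∧ spToLin g = T := by
  obtain ⟨g, hg⟩ := exists_spToLin T (fun x y => by rw [← polar_eq, ← polar_eq]; exact polar_isom hT x y)
  refine ⟨g, (ord_two g).mpr ⟨spToLin_injective (by rw [map_mul, hg, hT2, map_one]), ?_⟩, hg⟩
  rintro rfl
  rw [map_one] at hg
  have h2 : nl (1 : (Fin m ⊕ Fin m → F) ≃ₗ[F] (Fin m ⊕ Fin m → F)) = 0 := by
    apply LinearMap.ext
    intro x
    rw [nl_apply]; show x - x = 0; rw [sub_self]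
  rw [← hg, h2, LinearMap.range_zero, finrank_bot] at hr
  omega

/-- Number of conjugacy classes of involutions in the symplectic group Sp_2m(F) over a finite field of characteristic two (m ≥ 1): for each s with 1 ≤ s ≤ m there is one class with rank(t − 1) = s if s is odd and two if s is even (according as v ↦ f(v, tv), f the symplectic form, vanishes identically or not), so m + ⌊m/2⌋ classes in all. -/
theorem result {F : Type*} [Field F] [Fintype F] [CharP F 2] {m : ℕ} (hm : 1 ≤ m) : Nat.card {C : ConjClasses ↥(Matrix.symplecticGroup (Fin m) F) // ∃ g : Matrix.symplecticGroup (Fin m) F, ConjClasses.mk g = C ∧ orderOf g = 2} = m + m / 2 := by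
  classical
  rw [card_types (fun g : Matrix.symplecticGroup (Fin m) F => orderOf g = 2) (fun g => tyB (spB m F) (spToLin g)) ((Finset.Icc 1 m).disjSum ((Finset.Icc 1 m).filter (fun s => Even s)))
    ?_ ?_ conj_iff, Finset.card_disjSum, card_even_Icc, Nat.card_Icc, Nat.add_sub_cancel]
  · intro g hg
    have hT2 := sp_invol hg
    rw [ord_two] at hg
    have hpos := rank_pos (T := spToLin (F := F) g) (fun h => hg.2 (spToLin_injective (by rw [h, map_one])))
    have hle := rank_le hT2
    have hV : finrank F (Fin m ⊕ Fin m → F) = 2 * m := by simp; omega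
    by_cases h : ∀ v, spB m F v (nl (spToLin g) v) = 0
    · simp only [tyB_alt h, Finset.inr_mem_disjSum, Finset.mem_filter, Finset.mem_Icc]
      exact ⟨⟨hpos, by omega⟩, even_of_zero (spB m F) spB_isAlt spB_nondeg _ (spToLin_isometry g) hT2 h⟩
    · push Not at h
      simp only [tyB_ne h, Finset.inl_mem_disjSum, Finset.mem_Icc]
      exact ⟨hpos, by omega⟩
  · intro x hx
    rcases x with s | s
    · simp only [Finset.inl_mem_disjSum, Finset.mem_Icc] at hx
      obtain ⟨T, hT, hT2, hr, hv⟩ := exists_nonalt (F := F) hx.2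
      obtain ⟨g, hg, hgT⟩ := exists_sp hT hT2 hr hx.1
      refine ⟨g, hg, ?_⟩
      show tyB (spB m F) (spToLin g) = _
      rw [hgT, tyB_ne, hr]
      obtain ⟨v, hv⟩ := hv hx.1
      refine ⟨v, ?_⟩
      rw [← polar_eq, QuadraticMap.polarBilin_apply_apply, ← q_nl _ T hT]
      exact hv
    · simp only [Finset.inr_mem_disjSum, Finset.mem_filter, Finset.mem_Icc] at hx
      obtain ⟨T, hT, hT2, hr, hv⟩ := exists_alt (F := F) hx.1.2 hx.2
      obtain ⟨g, hg, hgT⟩ := exists_sp hT hT2 hr hx.1.1
      refine ⟨g, hg, ?_⟩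
      show tyB (spB m F) (spToLin g) = _
      rw [hgT, tyB_alt, hr]
      intro v
      rw [← polar_eq, QuadraticMap.polarBilin_apply_apply, ← q_nl _ T hT]
      exact hv v

end Cfsg.Agent.S2593
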