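import Cfsg.Statements.S2680
import Cfsg.Agent.LibCen3H13

set_option autoImplicit false
open Cfsg

namespace Cfsg.Agent.S2680

open CfsgLib.InvC CfsgLib.Inv2 CfsgLib.Cen2 Cfsg.Agent.H22 Module LinearMap

theorem sq_one {F : Type*} [Field F] [CharP F 2] {m : ℕ} {t : Matrix.symplecticGroup (Fin m) F} (ht : t ^ 2 = 1) : spToLin t * spToLin t = 1 := by
  rw [← map_mul, ← pow_two, ht, map_one]

/-- the centraliser as linear maps -/
theorem card_centralizer {F : Type*} [Field F] [Fintype F] [CharP F 2] {m : ℕ} (t : Matrix.symplecticGroup (Fin m) F) :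
    Nat.card ↥(Subgroup.centralizer ({t} : Set ↥(Matrix.symplecticGroup (Fin m) F))) = Nat.card (Cen (spB m F) (nl (spToLin t))) := by
  refine Nat.card_congr (Equiv.ofBijective (fun g => (⟨spToLin (F := F) g.1, spToLin_isometry g.1, ?_⟩ : Cen (spB m F) (nl (spToLin t)))) ⟨?_, ?_⟩)
  · intro x
    have h := g.2
    rw [Subgroup.mem_centralizer_singleton_iff] at h
    exact nl_conj (by rw [← map_mul, ← map_mul, h]) x
  · intro g h hgh
    exact Subtype.ext (spToLin_injective (congrArg Subtype.val hgh))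
  · rintro ⟨g, hg1, hg2⟩
    obtain ⟨A, hA⟩ := exists_spToLin g hg1
    refine ⟨⟨A, ?_⟩, Subtype.ext hA⟩
    rw [Subgroup.mem_centralizer_singleton_iff]
    apply spToLin_injective
    rw [map_mul, map_mul, hA]
    ext1 x
    have h1 := hg2 x
    rw [nl_apply, nl_apply, map_sub, sub_left_inj] at h1
    exact h1

theorem card_Iso_sp {F : Type*} [Field F] [Fintype F] {m : ℕ} : Nat.card (Iso (spB m F)) = Nat.card (Matrix.symplecticGroup (Fin m) F) := by
  symm
  refine Nat.card_congr (Equiv.ofBijective (fun g => (⟨spToLin (F := F) g, spToLin_isometry g⟩ : Iso (spB m F))) ⟨?_, ?_⟩)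
  · intro g h hgh
    exact spToLin_injective (congrArg Subtype.val hgh)
  · rintro ⟨g, hg⟩
    obtain ⟨A, hA⟩ := exists_spToLin g hg
    exact ⟨A, Subtype.ext hA⟩

theorem card_Fx {F : Type*} [Field F] [Fintype F] [CharP F 2] {m s : ℕ} (t : Matrix.symplecticGroup (Fin m) F) (ht : t ^ 2 = 1)
    (hs : ((t : Matrix (Fin m ⊕ Fin m) (Fin m ⊕ Fin m) F) - 1).rank = s) :
    Nat.card (Fx (spB m F) (nl (spToLin t))) = Fintype.card F ^ (2 * m * s - (3 * s ^ 2 - s) / 2) * (Fintype.card F ^ ((m - s) ^ 2) * ∏ i : Fin (m - s), (Fintype.card F ^ (2 * ((i : ℕ) + 1)) - 1)) := by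
  have hT2 := sq_one ht
  rw [sp_rank] at hs
  have hV : finrank F (Fin m ⊕ Fin m → F) = 2 * m := by simp; omega
  have hle := rank_le hT2
  have h := card_Iso (spB m F) spB_isAlt spB_nondeg (nl (spToLin t)) (nl_selfadj (spB m F) (spToLin t) hT2 (spToLin_isometry t)) (nl_sq _ hT2) hV hs
  rw [card_Iso_sp, card_sp, Nat.card_eq_fintype_card] at h
  exact fx_arith Fintype.one_lt_card (by omega) h

/-- the non-alternating case -/
theorem card_nonalt {F : Type*} [Field F] [Fintype F] [CharP F 2] {m s : ℕ} (t : Matrix.symplecticGroup (Fin m) F) (ht : t ^ 2 = 1)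
    (hs : ((t : Matrix (Fin m ⊕ Fin m) (Fin m ⊕ Fin m) F) - 1).rank = s) (h0 : ∃ v, spB m F v (nl (spToLin t) v) ≠ 0) :
    Nat.card ↥(Subgroup.centralizer ({t} : Set ↥(Matrix.symplecticGroup (Fin m) F))) = nO (Fintype.card F) s *
      (Fintype.card F ^ (2 * m * s - (3 * s ^ 2 - s) / 2) * (Fintype.card F ^ ((m - s) ^ 2) * ∏ i : Fin (m - s), (Fintype.card F ^ (2 * ((i : ℕ) + 1)) - 1))) := by
  have hsq : ∀ x : F, IsSquare x := fun x => FiniteField.isSquare_of_char_two (ringChar.eq F 2) x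
  have hT2 := sq_one ht
  have hN := nl_selfadj (spB m F) (spToLin t) hT2 (spToLin_isometry t)
  have hs' := hs
  rw [sp_rank] at hs'
  obtain ⟨W, b, hW, hb⟩ := exists_orth_of_ne (spB m F) hsq spB_isAlt spB_nondeg (spToLin t) (spToLin_isometry t) hT2 h0 hs'
  obtain ⟨hb1, hb2⟩ := indep_of_compl (nl (spToLin t)) W hW b
  rw [card_centralizer, card_Cen (spB m F) spB_isAlt spB_nondeg (nl (spToLin t)) hN (nl_sq _ hT2) (fun i => (b i : Fin m ⊕ Fin m → F)) hb1 hb2
    (1 : Matrix (Fin s) (Fin s) F) (fun i j => by rw [Matrix.one_apply]; exact hb i j), card_orth_matrix, card_Fx t ht hs, Nat.card_eq_fintype_card]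

theorem tv_iff {F : Type*} [Field F] [Fintype F] [CharP F 2] {m : ℕ} (t : Matrix.symplecticGroup (Fin m) F) (v : Fin m ⊕ Fin m → F) :
    Cfsg.sympForm m F v ((t : Matrix (Fin m ⊕ Fin m) (Fin m ⊕ Fin m) F).mulVec v) = spB m F v (nl (spToLin t) v) := by
  rw [nl_apply, map_sub, spB_isAlt v, sub_zero, spB_apply, spToLin_apply]

/-- Centraliser order of an involution t of Sp_2m(q), q even, with s = rank(t − 1) odd (type b_s): |C(t)| = q^(2ms − (3s² − s)/2) · |Sp_(s−1)(q)| · |Sp_(2m−2s)(q)|, where |Sp_2k(q)| = q^(k²) Π_(i=1)^k (q^(2i) − 1). -/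
theorem result {F : Type*} [Field F] [Fintype F] [CharP F 2] {q : ℕ} (hF : Fintype.card F = q) {m s : ℕ} (t : Matrix.symplecticGroup (Fin m) F) (ht : t ^ 2 = 1) (hs : ((t : Matrix (Fin m ⊕ Fin m) (Fin m ⊕ Fin m) F) - 1).rank = s) (hodd : Odd s) : Nat.card ↥(Subgroup.centralizer ({t} : Set ↥(Matrix.symplecticGroup (Fin m) F))) = q ^ (2 * m * s - (3 * s ^ 2 - s) / 2) * ((q : ℕ) ^ (((s - 1) / 2) ^ 2) * ∏ i : Fin ((s - 1) / 2), (q ^ (2 * ((i : ℕ) + 1)) - 1)) * ((q : ℕ) ^ ((m - s) ^ 2) * ∏ i : Fin (m - s), (q ^ (2 * ((i : ℕ) + 1)) - 1)) := by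
  subst hF
  obtain ⟨k, rfl⟩ := hodd
  have h0 : ∃ v, spB m F v (nl (spToLin t) v) ≠ 0 := by
    by_contra hcon
    push Not at hcon
    have h1 := even_of_zero (spB m F) spB_isAlt spB_nondeg (spToLin t) (spToLin_isometry t) (sq_one ht) hcon
    rw [sp_rank] at hs
    rw [hs] at h1
    exact (Nat.not_even_iff_odd.mpr ⟨k, rfl⟩) h1
  rw [card_nonalt t ht hs h0, nO_odd]
  have : (2 * k + 1 - 1) / 2 = k := by omega
  rw [this]
  ring

end Cfsg.Agent.S2680
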