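import Cfsg.Statements.S2594
import Cfsg.Agent.S2680

set_option autoImplicit false
open Cfsg

namespace Cfsg.Agent.S2594

open CfsgLib.InvC CfsgLib.Inv2 CfsgLib.Cen2 Cfsg.Agent.H22 Module LinearMap Cfsg.Agent.S2680

/-- Over a finite field with q elements, q even, an element t of Sp_2m(F) with rank(t − 1) = 1 (a symplectic transvection) has centraliser in Sp_2m(F) of order q^(2m−1) · |Sp_(2m−2)(q)| = q^(2m−1) · q^((m−1)²) · Π_(i=1)^(m−1) (q^(2i) − 1). -/
theorem result {F : Type*} [Field F] [Fintype F] [CharP F 2] {q : ℕ} (hF : Fintype.card F = q) {m : ℕ} (hm : 1 ≤ m) (t : Matrix.symplecticGroup (Fin m) F) (ht : ((t : Matrix (Fin m ⊕ Fin m) (Fin m ⊕ Fin m) F) - 1).rank = 1) : Nat.card ↥(Subgroup.centralizer ({t} : Set ↥(Matrix.symplecticGroup (Fin m) F))) = q ^ (2 * m - 1) * (q ^ ((m - 1) ^ 2) * ∏ i : Fin (m - 1), (q ^ (2 * ((i : ℕ) + 1)) - 1)) := by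
  classical
  -- a transvection is an involution
  have hN : ∀ x y, spB m F (nl (spToLin t) x) y = spB m F x (nl (spToLin t⁻¹) y) := by
    intro x y
    have h1 : ∀ z, spToLin t (spToLin t⁻¹ z) = z := by
      intro z; rw [← LinearEquiv.mul_apply, ← map_mul, mul_inv_cancel, map_one]; rfl
    rw [nl_apply, nl_apply, map_sub, map_sub, LinearMap.sub_apply, ← spToLin_isometry t x (spToLin t⁻¹ y), h1]
  have hr := ht
  rw [sp_rank] at hr
  have ht2 : t ^ 2 = 1 := by
    obtain ⟨u, hu, hspan⟩ := finrank_eq_one_iff'.mp hr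
    obtain ⟨u, hu'⟩ := u
    -- N x = φ(x) u
    have hφ : ∀ x, ∃ c : F, c • u = nl (spToLin t) x := by
      intro x
      obtain ⟨c, hc⟩ := hspan ⟨nl (spToLin t) x, ⟨x, rfl⟩⟩
      exact ⟨c, congrArg Subtype.val hc⟩
    choose φ hφ using hφ
    have hT : ∀ x, spToLin t x = x + φ x • u := by
      intro x; rw [hφ, nl_apply]; abel
    have huu : nl (spToLin t) u = 0 := by
      obtain ⟨x0, hx0⟩ := hu'
      have hu0 : u ≠ 0 := fun h => hu (Subtype.ext h)
      have h1 : ∀ x y, φ x * spB m F u y + φ y * spB m F x u = 0 := by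
        intro x y
        have h2 := spToLin_isometry t x y
        rw [hT, hT] at h2
        simp only [map_add, map_smul, LinearMap.add_apply, LinearMap.smul_apply, smul_eq_mul] at h2
        have h3 : spB m F u u = 0 := spB_isAlt u
        rw [h3] at h2
        linear_combination h2
      -- take x = x0 with φ x0 = 1, y = u
      have h4 : φ x0 = 1 := by
        have := hφ x0
        rw [hx0] at this
        have h5 : (φ x0 - 1) • u = 0 := by rw [sub_smul, this, one_smul, sub_self]
        exact sub_eq_zero.mp ((smul_eq_zero.mp h5).resolve_right hu0)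
      have h6 := h1 x0 u
      rw [h4, spB_isAlt u, mul_zero, zero_add] at h6
      rcases mul_eq_zero.mp h6 with h7 | h7
      · rw [← hφ, h7, zero_smul]
      · -- B x0 u = 0: then for all y, B u y = φ y * 0
        have h8 : ∀ y, spB m F u y = 0 := by
          intro y
          have := h1 x0 y
          rw [h4, h7, mul_zero, add_zero, one_mul] at this
          exact this
        exact absurd (spB_nondeg.1 u h8) hu0
    apply spToLin_injective
    rw [pow_two, map_mul, map_one]
    ext1 x
    rw [LinearEquiv.mul_apply]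
    have h9 : spToLin t (spToLin t x) = x + φ x • u + φ x • u := by
      have h10 : spToLin t u = u := by
        rw [nl_apply, sub_eq_zero] at huu; exact huu
      conv_lhs => rw [hT x]
      rw [map_add, map_smul, h10, hT]
    rw [h9, add_assoc, ← add_smul, CharTwo.add_self_eq_zero, zero_smul, add_zero]; rfl
  rw [Cfsg.Agent.S2680.result hF t ht2 ht odd_one]
  have e1 : 2 * m * 1 - (3 * 1 ^ 2 - 1) / 2 = 2 * m - 1 := by norm_num
  rw [e1]
  simp

end Cfsg.Agent.S2594
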