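import Cfsg.Statements.S2597
import Cfsg.Agent.LibInvC3H13

set_option autoImplicit false
open Cfsg

namespace Cfsg.Agent.S2597

open CfsgLib.InvC CfsgLib.Inv2 Cfsg.Agent.H22 Module LinearMap

theorem exists_ne01 {F : Type*} [Field F] [Fintype F] (h : Fintype.card F ≠ 2) : ∃ a : F, a ≠ 0 ∧ a ≠ 1 := by
  classical
  by_contra hcon
  push Not at hcon
  have h1 : (Finset.univ : Finset F) = {0, 1} := by
    ext a
    simp only [Finset.mem_univ, Finset.mem_insert, Finset.mem_singleton, true_iff]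
    by_cases h0 : a = 0
    · exact Or.inl h0
    · exact Or.inr (hcon a h0)
  have h2 : Fintype.card F = 2 := by
    rw [← Finset.card_univ, h1, Finset.card_pair zero_ne_one]
  exact h h2

theorem aux {F : Type*} [Field F] [Fintype F] [CharP F 2] {m : ℕ} (hm : 1 ≤ m) (h : Fintype.card F ≠ 2 ∨ m ≠ 2) {Q0 : (Fin m ⊕ Fin m → F) → F} (hQ0 : ⇑(qPlus m F) = Q0) :
    Nat.card {C : ConjClasses ↥(Cfsg.Omega F Q0) // ∃ g : ↥(Cfsg.Omega F Q0), ConjClasses.mk g = C ∧ orderOf g = 2} = 2 * (m / 2) + (if Even m then 1 else 0) := by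
  subst hQ0
  have hV : finrank F (Fin m ⊕ Fin m → F) = 2 * m := by simp; omega
  have hF : (∃ a : F, a ≠ 0 ∧ a ≠ 1) ∨ finrank F (Fin m ⊕ Fin m → F) ≠ 4 := by
    rcases h with h | h
    · exact Or.inl (exists_ne01 h)
    · exact Or.inr (by omega)
  have hne : ∃ x : Fin m ⊕ Fin m → F, x ≠ 0 := by
    haveI : Nonempty (Fin m) := ⟨⟨0, hm⟩⟩
    exact exists_ne 0
  have hQ := nondeg_qPlus (F := F) m
  have hK := (omega_even hQ hF hne).2
  have hn : ∀ s, 1 ≤ s → s ≤ m → ∃ T ∈ OGrp (qPlus m F), T * T = 1 ∧ finrank F (range (nl T)) = s ∧ ∃ v, qPlus m F (nl T v) ≠ 0 := by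
    intro s h1 h2
    obtain ⟨T, hT, hT2, hr, hv⟩ := exists_nonalt (F := F) h2
    exact ⟨T, hT, hT2, hr, hv h1⟩
  have ha : ∀ s, 1 ≤ s → s ≤ m → Even s → ∃ T ∈ OGrp (qPlus m F), T * T = 1 ∧ finrank F (range (nl T)) = s ∧ ∀ v, qPlus m F (nl T v) = 0 :=
    fun s _ h2 h3 => exists_alt h2 h3
  rw [card_classes_congr (omIso (qPlus m F)) 2]
  by_cases he : Even m
  · rw [if_pos he, count_K' hQ hF _ hK hV he hm hn ha]; ring
  · rw [if_neg he, count_K (k := m) hQ hF _ hK hV (fun T hT hT2 _ => by have := rank_le hT2; omega) hn ha ?_]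
    · ring
    · intro g hg hb
      have := (mem_K_iff hQ hF _ hK (g : OGrp (qPlus m F))).mp g.2
      rw [hb.1] at this
      exact he this

/-- Number of conjugacy classes of involutions in Ω⁺_2m(F) (the commutator subgroup of the orthogonal group of Σ x_i y_i) over a finite field F of characteristic two, m ≥ 1, excluding the case m = 2 over the field of two elements: the involutions of Ω are those with s = rank(t − 1) even, giving two O-classes for each even s with 2 ≤ s ≤ m, each of which is a single Ω-class except that for m even the class with s = m and v ↦ f(v, tv) identically zero splits in two; in all 2⌊m/2⌋ + 1 classes if m is even and 2⌊m/2⌋ if m is odd. -/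
theorem result {F : Type*} [Field F] [Fintype F] [CharP F 2] {m : ℕ} (hm : 1 ≤ m) (h : Fintype.card F ≠ 2 ∨ m ≠ 2) : Nat.card {C : ConjClasses ↥(Cfsg.Omega F (Cfsg.quadFormPlus m F)) // ∃ g : ↥(Cfsg.Omega F (Cfsg.quadFormPlus m F)), ConjClasses.mk g = C ∧ orderOf g = 2} = 2 * (m / 2) + (if Even m then 1 else 0) := by
  exact aux hm h (coe_qPlus m)

end Cfsg.Agent.S2597
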