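import Cfsg.Statements.S2598
import Cfsg.Agent.S2597
import Cfsg.Agent.S0824

set_option autoImplicit false
open Cfsg

namespace Cfsg.Agent.S2598

open CfsgLib.InvC CfsgLib.Inv2 Cfsg.Agent.H22 Module LinearMap Equiv Equiv.Perm

/-- involutions of `A_5` -/
theorem a5 : Nat.card {C : ConjClasses (alternatingGroup (Fin 5)) // ∃ g, ConjClasses.mk g = C ∧ orderOf g = 2} = 1 := by
  have hmem : (swap 0 4 * swap 1 3 : Perm (Fin 5)) ∈ alternatingGroup (Fin 5) := by
    rw [mem_alternatingGroup]; decide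
  have key : ∀ g : alternatingGroup (Fin 5), orderOf g = 2 → IsConj (⟨swap 0 4 * swap 1 3, hmem⟩ : alternatingGroup (Fin 5)) g := by
    intro g hg
    have hg' : orderOf (g : Perm (Fin 5)) = 2 := by rw [Subgroup.orderOf_coe]; exact hg
    have hg1 : (g : Perm (Fin 5)) ≠ 1 := by
      intro h; rw [h, orderOf_one] at hg'; omega
    have hcy : ∀ n, n ∈ cycleType (g : Perm (Fin 5)) → n = 2 := by
      intro n hn
      have h1 := dvd_of_mem_cycleType hn
      rw [hg'] at h1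
      have h2 := two_le_of_mem_cycleType hn
      exact le_antisymm (Nat.le_of_dvd (by norm_num) h1) h2
    have h := alternatingGroup.isConj_swap_mul_swap_of_cycleType_two g.2 hg1 hcy
    obtain ⟨c, hc⟩ := isConj_iff.1 h
    rw [isConj_iff]
    rcases Int.units_eq_one_or (sign c) with hs | hs
    · exact ⟨⟨c, mem_alternatingGroup.mpr hs⟩, Subtype.ext hc⟩
    · refine ⟨⟨c * swap 0 4, mem_alternatingGroup.mpr (by rw [map_mul, hs, sign_swap (by decide)]; decide)⟩, Subtype.ext ?_⟩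
      show c * swap 0 4 * (swap 0 4 * swap 1 3) * (c * swap 0 4)⁻¹ = (g : Perm (Fin 5))
      rw [← hc]
      have : (swap 0 4 : Perm (Fin 5)) * (swap 0 4 * swap 1 3) * (swap 0 4)⁻¹ = swap 0 4 * swap 1 3 := by decide
      rw [mul_inv_rev]
      calc c * swap 0 4 * (swap 0 4 * swap 1 3) * ((swap 0 4)⁻¹ * c⁻¹) = c * ((swap 0 4 : Perm (Fin 5)) * (swap 0 4 * swap 1 3) * (swap 0 4)⁻¹) * c⁻¹ := by group
        _ = _ := by rw [this]
  have hord : orderOf (⟨swap 0 4 * swap 1 3, hmem⟩ : alternatingGroup (Fin 5)) = 2 := by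
    rw [← Subgroup.orderOf_coe]
    show orderOf (swap 0 4 * swap 1 3 : Perm (Fin 5)) = 2
    rw [orderOf_eq_prime_iff]
    constructor
    · decide
    · decide
  rw [Nat.card_eq_one_iff_unique]
  refine ⟨⟨?_⟩, ⟨⟨_, _, rfl, hord⟩⟩⟩
  rintro ⟨_, g, rfl, hg⟩ ⟨_, h, rfl, hh⟩
  apply Subtype.ext
  exact ConjClasses.mk_eq_mk_iff_isConj.mpr ((key g hg).symm.trans (key h hh))

/-- the exceptional case -/
theorem exc {F : Type*} [Field F] [Fintype F] [CharP F 2] (hF : Fintype.card F = 2) (a b : F) (hab : ∀ z₁ z₂ : F, z₁ ^ 2 + a * z₁ * z₂ + b * z₂ ^ 2 = 0 → z₁ = 0 ∧ z₂ = 0) :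
    Nat.card {C : ConjClasses ↥(Cfsg.Omega F (Cfsg.quadFormMinus 1 F a b)) // ∃ g : ↥(Cfsg.Omega F (Cfsg.quadFormMinus 1 F a b)), ConjClasses.mk g = C ∧ orderOf g = 2} = 1 := by
  classical
  have h01 : ∀ x : F, x ≠ 0 → x = 1 := by
    intro x hx
    by_contra h1
    have h3 : ({0, 1, x} : Finset F).card ≤ Fintype.card F := Finset.card_le_univ _
    rw [Finset.card_insert_of_notMem (by simp [Ne.symm hx]), Finset.card_pair (Ne.symm h1), hF] at h3
    omega
  have ha : a = 1 := h01 a (a_ne hab)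
  have hb : b = 1 := by
    apply h01
    rintro rfl
    exact one_ne_zero (hab 0 1 (by ring)).2
  subst ha hb
  obtain ⟨e⟩ := Cfsg.Agent.S0824.result hF
  have hmap : (Cfsg.Omega F (Cfsg.quadFormMinus 1 F 1 1)).map e.toMonoidHom = alternatingGroup (Fin 5) := by
    rw [← alternatingGroup.commutator_perm_eq (α := Fin 5) (by simp)]
    show (commutator ↥(Cfsg.isometryGroup F (Cfsg.quadFormMinus 1 F 1 1))).map e.toMonoidHom = _
    rw [commutator_def, commutator_def, Subgroup.map_commutator]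
    congr 1 <;> exact Subgroup.map_top_of_surjective _ e.surjective
  let e' : ↥(Cfsg.Omega F (Cfsg.quadFormMinus 1 F 1 1)) ≃* ↥(alternatingGroup (Fin 5)) :=
    (e.subgroupMap (Cfsg.Omega F (Cfsg.quadFormMinus 1 F 1 1))).trans (MulEquiv.subgroupCongr hmap)
  rw [card_classes_congr e' 2]
  exact a5

theorem aux {F : Type*} [Field F] [Fintype F] [CharP F 2] {k : ℕ} (h : Fintype.card F ≠ 2 ∨ k ≠ 1) (a b : F) (hab : ∀ z₁ z₂ : F, z₁ ^ 2 + a * z₁ * z₂ + b * z₂ ^ 2 = 0 → z₁ = 0 ∧ z₂ = 0)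
    {Q0 : ((Fin k ⊕ Fin k) ⊕ Fin 2 → F) → F} (hQ0 : ⇑(qMinus k F a b) = Q0) :
    Nat.card {C : ConjClasses ↥(Cfsg.Omega F Q0) // ∃ g : ↥(Cfsg.Omega F Q0), ConjClasses.mk g = C ∧ orderOf g = 2} = (k + 1) / 2 + k / 2 := by
  subst hQ0
  have hV : finrank F ((Fin k ⊕ Fin k) ⊕ Fin 2 → F) = 2 * (k + 1) := by simp; omega
  have hF : (∃ a : F, a ≠ 0 ∧ a ≠ 1) ∨ finrank F ((Fin k ⊕ Fin k) ⊕ Fin 2 → F) ≠ 4 := by
    rcases h with h | h
    · exact Or.inl (Cfsg.Agent.S2597.exists_ne01 h)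
    · exact Or.inr (by omega)
  have hne : ∃ x : (Fin k ⊕ Fin k) ⊕ Fin 2 → F, x ≠ 0 := exists_ne 0
  have hQ := nondeg_qMinus (F := F) k a b hab
  have hK := (omega_even hQ hF hne).2
  rw [card_classes_congr (omIso (qMinus k F a b)) 2]
  refine count_K hQ hF _ hK hV (fun T hT hT2 h => minus_alt_le hab hT2 h) (fun s h1 h2 => minus_nonalt hab h1 h2) (fun s _ h2 h3 => minus_alt h2 h3) ?_
  intro g hg hb
  have hT2 : ((g : OGrp (qMinus k F a b)) : ((Fin k ⊕ Fin k) ⊕ Fin 2 → F) ≃ₗ[F] ((Fin k ⊕ Fin k) ⊕ Fin 2 → F)) * ((g : OGrp (qMinus k F a b)) : ((Fin k ⊕ Fin k) ⊕ Fin 2 → F) ≃ₗ[F] ((Fin k ⊕ Fin k) ⊕ Fin 2 → F)) = 1 :=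
    congrArg Subtype.val ((ord_two _).mp (ord_K hg)).1
  have := minus_alt_le hab hT2 hb.2
  omega

/-- Number of conjugacy classes of involutions in Ω⁻_2m(F) (the commutator subgroup of the orthogonal group of an elliptic quadratic form, Σ_(i<m−1) x_i y_i plus an anisotropic binary form) over a finite field F of characteristic two, m ≥ 1: the involutions of Ω are those with s = rank(t − 1) even, one O-class for each even s with 2 ≤ s ≤ m on which v ↦ f(v, tv) is not identically zero and one for each even s with 2 ≤ s < m on which it is zero (f the polar form; in characteristic 2, f(v, tv) = Q(v + tv)), none of which splits in Ω; in all ⌊m/2⌋ + ⌊(m − 1)/2⌋. -/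
theorem result {F : Type*} [Field F] [Fintype F] [CharP F 2] {m : ℕ} (hm : 1 ≤ m) (a b : F) (hab : ∀ z₁ z₂ : F, z₁ ^ 2 + a * z₁ * z₂ + b * z₂ ^ 2 = 0 → z₁ = 0 ∧ z₂ = 0) : Nat.card {C : ConjClasses ↥(Cfsg.Omega F (Cfsg.quadFormMinus (m - 1) F a b)) // ∃ g : ↥(Cfsg.Omega F (Cfsg.quadFormMinus (m - 1) F a b)), ConjClasses.mk g = C ∧ orderOf g = 2} = m / 2 + (m - 1) / 2 := by
  obtain ⟨k, rfl⟩ : ∃ k, m = k + 1 := ⟨m - 1, by omega⟩
  by_cases h : Fintype.card F = 2 ∧ k = 1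
  · obtain ⟨h1, rfl⟩ := h
    exact exc h1 a b hab
  · exact aux (by tauto) a b hab (coe_qMinus k a b)

end Cfsg.Agent.S2598
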