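import Cfsg.Statements.S2599
import Mathlib

set_option autoImplicit false
open Cfsg

namespace Cfsg.Agent.S2599

open Module

/-- An irreducible invariant subspace of a semisimple isometry is non-degenerate or totally singular: let Q be a quadratic form on F^n (F finite of characteristic p) with non-degenerate polar form f, x an isometry of Q of order prime to p, and U a non-zero x-invariant subspace containing no x-invariant subspace other than 0 and U. Then U meets its f-orthogonal trivially, or Q vanishes on U, or p = 2, U is a line spanned by a non-singular vector and x fixes U pointwise. -/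
theorem result {F : Type*} [Field F] [Fintype F] {p : ℕ} [Fact p.Prime] [CharP F p] {n : ℕ} (Q : QuadraticForm F (Fin n → F)) (hQ : (QuadraticMap.polarBilin Q).Nondegenerate) (x : ↥(Cfsg.isometryGroup F ⇑Q)) (hx : (orderOf x).Coprime p) (U : Submodule F (Fin n → F)) (hU0 : U ≠ ⊥) (hUx : ∀ u ∈ U, ((x : Matrix.GeneralLinearGroup (Fin n) F) : Matrix (Fin n) (Fin n) F).mulVec u ∈ U) (hirr : ∀ W : Submodule F (Fin n → F), W ≤ U → (∀ w ∈ W, ((x : Matrix.GeneralLinearGroup (Fin n) F) : Matrix (Fin n) (Fin n) F).mulVec w ∈ W) → W = ⊥ ∨ W = U) : U ⊓ LinearMap.BilinForm.orthogonal (QuadraticMap.polarBilin Q) U = ⊥ ∨ (∀ u ∈ U, Q u = 0) ∨ (p = 2 ∧ Module.finrank F U = 1 ∧ (∃ u ∈ U, Q u ≠ 0) ∧ ∀ u ∈ U, ((x : Matrix.GeneralLinearGroup (Fin n) F) : Matrix (Fin n) (Fin n) F).mulVec u = u) := by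
  classical
  set M : Matrix (Fin n) (Fin n) F := ((x : Matrix.GeneralLinearGroup (Fin n) F) : Matrix (Fin n) (Fin n) F) with hM
  have hQx : ∀ v, Q (M.mulVec v) = Q v := fun v => x.2 v v
  have hpol : ∀ u v, QuadraticMap.polarBilin Q (M.mulVec u) (M.mulVec v) = QuadraticMap.polarBilin Q u v := by
    intro u v
    simp only [QuadraticMap.polarBilin_apply_apply, QuadraticMap.polar]
    rw [← Matrix.mulVec_add, hQx, hQx, hQx]
  have hMi : Function.Injective (M.mulVec) := by
    rw [Matrix.mulVec_injective_iff_isUnit]
    exact (x : Matrix.GeneralLinearGroup (Fin n) F).isUnit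
  -- M maps U onto U
  have hsurj : ∀ u ∈ U, ∃ w ∈ U, M.mulVec w = u := by
    have h1 : U.map M.mulVecLin ≤ U := by
      rintro _ ⟨w, hw, rfl⟩
      exact hUx w hw
    have h2 : finrank F (U.map M.mulVecLin) = finrank F U := (Submodule.equivMapOfInjective M.mulVecLin hMi U).finrank_eq.symm
    have h3 := Submodule.eq_of_le_of_finrank_eq h1 h2
    intro u hu
    rw [← h3] at hu
    obtain ⟨w, hw, rfl⟩ := hu
    exact ⟨w, hw, rfl⟩
  set B := QuadraticMap.polarBilin Q with hB
  have hinv : ∀ w ∈ U ⊓ LinearMap.BilinForm.orthogonal B U, M.mulVec w ∈ U ⊓ LinearMap.BilinForm.orthogonal B U := by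
    intro w hw
    refine ⟨hUx w hw.1, ?_⟩
    intro u hu
    obtain ⟨v, hv, rfl⟩ := hsurj u hu
    show B _ _ = 0
    rw [hpol]
    exact hw.2 v hv
  rcases hirr (U ⊓ LinearMap.BilinForm.orthogonal B U) inf_le_left hinv with h | h
  · exact Or.inl h
  · right
    have hiso : ∀ u ∈ U, ∀ v ∈ U, B u v = 0 := by
      intro u hu v hv
      rw [← h] at hv
      exact hv.2 u hu
    have hadd : ∀ u ∈ U, ∀ v ∈ U, Q (u + v) = Q u + Q v := by
      intro u hu v hv
      have := hiso u hu v hv
      simp only [hB, QuadraticMap.polarBilin_apply_apply, QuadraticMap.polar] at this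
      linear_combination this
    let W : Submodule F (Fin n → F) :=
      { carrier := {u | u ∈ U ∧ Q u = 0}
        add_mem' := fun {a b} ha hb => ⟨U.add_mem ha.1 hb.1, by rw [hadd a ha.1 b hb.1, ha.2, hb.2, add_zero]⟩
        zero_mem' := ⟨U.zero_mem, QuadraticMap.map_zero Q⟩
        smul_mem' := fun c a ha => ⟨U.smul_mem c ha.1, by rw [QuadraticMap.map_smul, ha.2, smul_zero]⟩ }
    have hWm : ∀ u, u ∈ W ↔ u ∈ U ∧ Q u = 0 := fun u => Iff.rfl
    rcases hirr W (fun u hu => hu.1) (fun w hw => ⟨hUx w hw.1, by rw [hQx]; exact hw.2⟩) with h0 | h0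
    · right
      have hinj : ∀ u ∈ U, Q u = 0 → u = 0 := by
        intro u hu hq
        have : u ∈ W := ⟨hu, hq⟩
        rw [h0] at this
        exact this
      obtain ⟨u0, hu0, hu0n⟩ := Submodule.exists_mem_ne_zero_of_ne_bot hU0
      have hq0 : Q u0 ≠ 0 := fun h => hu0n (hinj u0 hu0 h)
      have hp2 : p = 2 := by
        by_contra hp
        have h2 : (2 : F) ≠ 0 := by
          intro h2
          have : ((2 : ℕ) : F) = 0 := by exact_mod_cast h2
          rw [CharP.cast_eq_zero_iff F p] at this
          exact hp ((Nat.prime_dvd_prime_iff_eq (Fact.out : p.Prime) Nat.prime_two).mp this)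
        have h3 := hadd u0 hu0 u0 hu0
        have h4 : Q (u0 + u0) = 4 * Q u0 := by
          rw [← two_smul F u0, QuadraticMap.map_smul]
          simp only [smul_eq_mul]; ring
        apply hq0
        have : (2:F) * Q u0 = 0 := by linear_combination h3 - h4
        exact (mul_eq_zero.mp this).resolve_left h2
      subst hp2
      have hscal : ∀ u ∈ U, ∃ c : F, u = c • u0 ∧ c ^ 2 * Q u0 = Q u := by
        intro u hu
        obtain ⟨c, hc⟩ : ∃ c : F, c ^ 2 = Q u / Q u0 := by
          have hs := (PerfectRing.bijective_frobenius (R := F) (p := 2)).2 (Q u / Q u0)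
          obtain ⟨c, hc⟩ := hs
          exact ⟨c, hc⟩
        have hc' : c ^ 2 * Q u0 = Q u := by rw [hc]; field_simp
        refine ⟨c, ?_, hc'⟩
        have h1 : Q (u + c • u0) = 0 := by
          rw [hadd u hu _ (U.smul_mem c hu0), QuadraticMap.map_smul, smul_eq_mul, ← pow_two, hc']
          exact CharTwo.add_self_eq_zero _
        have h2 := hinj _ (U.add_mem hu (U.smul_mem c hu0)) h1
        rw [← sub_eq_zero]
        rw [← h2]
        have : (-1 : F) = 1 := by
          have := CharTwo.add_self_eq_zero (1 : F)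
          linear_combination -this
        rw [sub_eq_add_neg, ← neg_one_smul F (c • u0), this, one_smul]
      have hUs : U = F ∙ u0 := by
        apply le_antisymm
        · intro u hu
          obtain ⟨c, hc, -⟩ := hscal u hu
          rw [hc]
          exact Submodule.smul_mem _ _ (Submodule.mem_span_singleton_self _)
        · rw [Submodule.span_singleton_le_iff_mem]
          exact hu0
      refine ⟨rfl, ?_, ⟨u0, hu0, hq0⟩, ?_⟩
      · rw [hUs]
        exact finrank_span_singleton hu0n
      · intro u hu
        obtain ⟨c, hc, hc2⟩ := hscal _ (hUx u0 hu0)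
        rw [hQx] at hc2
        have hc1 : c ^ 2 = 1 := by
          have : (c ^ 2 - 1) * Q u0 = 0 := by linear_combination hc2
          have := (mul_eq_zero.mp this).resolve_right hq0
          linear_combination this
        have hc3 : c = 1 := by
          have : (c + 1) ^ 2 = 0 := by
            rw [CharTwo.add_sq, hc1]
            have := CharTwo.add_self_eq_zero (1 : F)
            linear_combination this
          have h5 := pow_eq_zero_iff (two_ne_zero) |>.mp this
          have := CharTwo.add_self_eq_zero (1 : F)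
          linear_combination h5 - this
        rw [hc3, one_smul] at hc
        obtain ⟨d, hd, -⟩ := hscal u hu
        rw [hd, Matrix.mulVec_smul, hc]
    · left
      intro u hu
      rw [← h0] at hu
      exact hu.2

end Cfsg.Agent.S2599
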