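import Cfsg.Agent.LibAutPSL27j
-- Template for statement S2602 (row 2602; see /opt/grader/pristine/manifest.json for weights).
-- Copy to Cfsg/Agent/S2602.lean and replace the sorry. The statement below is byte-identical to the frozen
-- statement Cfsg.CfsgFrozen.S2602 (Cfsg/Statements/S2602.lean; the theorem Cfsg.cg16_out_psl_two_structure);
-- the grader kernel-checks Cfsg.Agent.S2602.result against that frozen type. Keep the theorem IN THIS FILE
-- (a `result` declared elsewhere and merely imported here is not credited); helpers may live anywhere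
-- under Cfsg/Agent/.
import Cfsg.Statements.S2602
-- import your own Cfsg.Agent.* helpers here

set_option autoImplicit false
open Cfsg

namespace Cfsg.Agent.S2602

/-- Structure of the outer automorphism group of PSL_2(q), q = p^f ≥ 4: it has a normal cyclic subgroup of order gcd(2, q − 1) (diagonal automorphisms) with cyclic quotient of order f (field automorphisms); there is no graph automorphism in dimension 2. -/
theorem result {F : Type*} [Field F] [Fintype F] {p f : ℕ} [Fact p.Prime] (hf : 1 ≤ f) (hF : Fintype.card F = p ^ f) (h4 : 4 ≤ p ^ f) : ∃ φ : Cfsg.Out (Matrix.ProjectiveSpecialLinearGroup (Fin 2) F) →* Multiplicative (ZMod f), Function.Surjective φ ∧ IsCyclic φ.ker ∧ Nat.card φ.ker = Nat.gcd 2 (p ^ f - 1) := by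
  haveI := CfsgLib.AutPSL27.charP_of_card hF
  have hF' : Nat.card F = p ^ f := by rw [Nat.card_eq_fintype_card, hF]
  obtain ⟨χ, hχ⟩ := CfsgLib.AutPSL27.exists_chi2 (F := F) p
  obtain ⟨φ, hs, -, hc, hk⟩ := CfsgLib.AutPSL27.out_struct (F := F) (n := 2) p le_rfl χ
    (fun σ => ⟨_, (hχ _ σ).1 ⟨1, rfl⟩⟩) (CfsgLib.AutPSL27.chi2_ker hχ)
  obtain ⟨e⟩ := CfsgLib.AutPSL27.exists_ringAut_equiv (F := F) p f hF'
  refine ⟨(e : _ →* _).comp φ, e.surjective.comp hs, ?_, ?_⟩
  · rw [CfsgLib.AutPSL27.conj_ker]; exact hc
  · rw [CfsgLib.AutPSL27.conj_ker, hk, hF']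

end Cfsg.Agent.S2602
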