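import Cfsg.Agent.LibAutPSL27i
import Cfsg.Agent.LibRhoOdd27b
-- Template for statement S2604 (row 2604; see /opt/grader/pristine/manifest.json for weights).
-- Copy to Cfsg/Agent/S2604.lean and replace the sorry. The statement below is byte-identical to the frozen
-- statement Cfsg.CfsgFrozen.S2604 (Cfsg/Statements/S2604.lean; the theorem Cfsg.cg16_out_pomega_odd_dim);
-- the grader kernel-checks Cfsg.Agent.S2604.result against that frozen type. Keep the theorem IN THIS FILE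
-- (a `result` declared elsewhere and merely imported here is not credited); helpers may live anywhere
-- under Cfsg/Agent/.
import Cfsg.Statements.S2604
-- import your own Cfsg.Agent.* helpers here

set_option autoImplicit false
open Cfsg

namespace Cfsg.Agent.S2604

set_option maxHeartbeats 1000000 in
open Cfsg.Agent.H22 CfsgLib.RhoO27 CfsgLib.AutO27 CfsgLib.Semi27 CfsgLib.H9027 CfsgLib.QForm27 CfsgLib.Lift27 in
theorem aux {F : Type*} [Field F] [Fintype F] {p f m : ℕ} [Fact p.Prime] (hf : 1 ≤ f) (hF : Fintype.card F = p ^ f) (hp : p ≠ 2) (hm : 3 ≤ m) :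
    Nonempty (Cfsg.Out (Cfsg.POmega F ⇑(qOdd m F)) ≃* Multiplicative (ZMod 2 × ZMod f)) := by
  have hodd : Odd (Fintype.card F) := by
    rw [hF]
    exact ((Fact.out : p.Prime).odd_of_ne_two hp).pow
  have h2 : (2 : F) ≠ 0 := two_ne_zero_of_odd hodd
  obtain ⟨e, ff, u, hG⟩ := good_qOdd (F := F) hm h2
  have hm1 : 1 ≤ m := by omega
  have h0 : (rho (SOg (qOdd m F)) SO_le).range = (rho (GOs (qOdd m F)) le_rfl).range := range_SO h2 hG
  let q : MulAut (Cfsg.POmega F ⇑(qOdd m F)) →* Cfsg.Out (Cfsg.POmega F ⇑(qOdd m F)) := QuotientGroup.mk' (Cfsg.Inn (Cfsg.POmega F ⇑(qOdd m F)))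
  have hq : ∀ β, q β = 1 ↔ β ∈ Cfsg.Inn (Cfsg.POmega F ⇑(qOdd m F)) := fun β => QuotientGroup.eq_one_iff β
  let n : SOg (qOdd m F) →* Cfsg.Out (Cfsg.POmega F ⇑(qOdd m F)) := q.comp (rho (SOg (qOdd m F)) SO_le)
  let c : (F ≃+* F) →* Cfsg.Out (Cfsg.POmega F ⇑(qOdd m F)) :=
    q.comp ((CfsgLib.RhoO27.R (qOdd m F)).comp ((SemidirectProduct.inr : (F ≃+* F) →* GamL (Unit ⊕ (Fin m ⊕ Fin m)) F).codRestrict (SP (qOdd m F)) fun σ => std_odd σ))
  have hc : ∀ σ, c σ = q (ph (std_odd σ)) := fun σ => rfl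
  have hn : ∀ s, n s = 1 ↔ dOdd h2 hm1 s = 1 := by
    intro s
    rw [← inn_iff_odd hG h2 hm1 s, ← hq]; rfl
  have hn2 : ∀ s s', dOdd h2 hm1 s = dOdd h2 hm1 s' → n s = n s' := by
    intro s s' h
    rw [← mul_inv_eq_one, ← map_inv, ← map_mul, hn, map_mul, map_inv, h, mul_inv_cancel]
  have hcomm : ∀ s σ, Commute (n s) (c σ) := by
    intro s σ
    have hmem : gm σ (s : GL (Unit ⊕ (Fin m ⊕ Fin m)) F) ∈ SOg (qOdd m F) := by
      refine ⟨?_, ?_⟩
      · have := cjG_mem (Q := qOdd m F) ⟨_, std_odd σ⟩ s.2.1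
        rwa [cjG_std] at this
      · apply Units.ext
        have h6 : ((s : GL (Unit ⊕ (Fin m ⊕ Fin m)) F) : Matrix (Unit ⊕ (Fin m ⊕ Fin m)) (Unit ⊕ (Fin m ⊕ Fin m)) F).det = 1 := congrArg Units.val s.2.2
        show (((s : GL (Unit ⊕ (Fin m ⊕ Fin m)) F) : Matrix (Unit ⊕ (Fin m ⊕ Fin m)) (Unit ⊕ (Fin m ⊕ Fin m)) F).map σ).det = 1
        have h7 := (σ : F →+* F).map_det ((s : GL (Unit ⊕ (Fin m ⊕ Fin m)) F) : Matrix (Unit ⊕ (Fin m ⊕ Fin m)) (Unit ⊕ (Fin m ⊕ Fin m)) F)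
        rw [h6, map_one] at h7
        exact h7.symm
    have h1 : c σ * n s = n ⟨_, hmem⟩ * c σ := by
      rw [hc]
      show q _ * q _ = q _ * q _
      rw [← map_mul, ← map_mul]
      congr 1
      have := ph_mul_rho (GOs (qOdd m F)) le_rfl (std_odd σ) (fun g hg => gm_GOs (std_odd σ) hg) ⟨s.1, SO_le s.2⟩
      exact this
    have h3 : dOdd h2 hm1 ⟨_, hmem⟩ = dOdd h2 hm1 s := by
      rcases Int.units_eq_one_or (dOdd h2 hm1 s) with h | h
      · rw [h]
        rw [← hn] at h ⊢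
        rw [h, mul_one] at h1
        exact (mul_eq_right.1 h1.symm)
      · rcases Int.units_eq_one_or (dOdd h2 hm1 ⟨_, hmem⟩) with h' | h'
        · exfalso
          rw [← hn] at h'
          rw [h', one_mul] at h1
          have h5 : n s = 1 := mul_eq_left.1 h1
          rw [hn, h] at h5
          exact absurd h5 (by decide)
        · rw [h, h']
    rw [hn2 _ _ h3] at h1
    exact h1.symm
  have hsurj : ∀ z : Cfsg.Out (Cfsg.POmega F ⇑(qOdd m F)), ∃ s σ, z = n s * c σ := by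
    intro z
    obtain ⟨β, rfl⟩ := QuotientGroup.mk_surjective z
    obtain ⟨x, rfl⟩ := R_surj hG β
    obtain ⟨h, hx⟩ := R_split x (std_odd x.1.right)
    have h4 : rho (GOs (qOdd m F)) le_rfl ⟨x.1.left, h⟩ ∈ (rho (SOg (qOdd m F)) SO_le).range := by rw [h0]; exact ⟨_, rfl⟩
    obtain ⟨s, hs⟩ := h4
    refine ⟨s, x.1.right, ?_⟩
    rw [hc]
    show q _ = q _ * q _
    rw [← map_mul, hx, hs]
  have hinj : ∀ s σ, n s * c σ = 1 → n s = 1 ∧ σ = 1 := by
    intro s σ h
    have h5 : q (rho (SOg (qOdd m F)) SO_le s * ph (std_odd σ)) = 1 := h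
    rw [hq, rho_def] at h5
    unfold ph at h5
    rw [← map_mul, mem_inn hG] at h5
    have h6 : σ = 1 := by
      have : (1 : F ≃+* F) * σ = 1 := h5.1
      rwa [one_mul] at this
    refine ⟨?_, h6⟩
    rw [h6, map_one, mul_one] at h
    exact h
  have hker : n.ker = (dOdd (m := m) h2 hm1).ker := by
    ext s
    rw [MonoidHom.mem_ker, MonoidHom.mem_ker, hn]
  have hcard : Nat.card n.range = 2 := by
    rw [← Subgroup.index_ker, hker, Subgroup.index_ker]
    have : (dOdd (m := m) h2 hm1).range = ⊤ := by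
      rw [MonoidHom.range_eq_top]
      intro z
      obtain ⟨ν, hν⟩ : ∃ ν : F, ¬ IsSquare ν := FiniteField.exists_nonsquare (ringChar_ne_two h2)
      have hν0 : ν ≠ 0 := by rintro rfl; exact hν IsSquare.zero
      rcases Int.units_eq_one_or z with rfl | rfl
      · exact ⟨1, map_one _⟩
      · obtain ⟨g₀, h, hh⟩ := exists_neg (m := m) h2 hm1 h2 (RingHom.id F) ν hν0 hν
        exact ⟨_, hh⟩
    rw [this]
    simp [Nat.card_eq_fintype_card]
  let Θ : n.range × (F ≃+* F) →* Cfsg.Out (Cfsg.POmega F ⇑(qOdd m F)) :=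
    MonoidHom.noncommCoprod n.range.subtype c (by
      rintro ⟨_, s, rfl⟩ σ
      exact hcomm s σ)
  have hΘ : Function.Bijective Θ := by
    constructor
    · rw [injective_iff_map_eq_one]
      rintro ⟨⟨_, s, rfl⟩, σ⟩ h
      obtain ⟨h1, h3⟩ := hinj s σ h
      exact Prod.ext (Subtype.ext h1) h3
    · intro z
      obtain ⟨s, σ, rfl⟩ := hsurj z
      exact ⟨(⟨_, s, rfl⟩, σ), rfl⟩
  obtain ⟨e1⟩ := CfsgLib.AutPSL27.exists_ringAut_equiv (F := F) p f (by rw [Nat.card_eq_fintype_card, hF])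
  haveI : Fact (Nat.Prime 2) := ⟨Nat.prime_two⟩
  have e2 : n.range ≃* Multiplicative (ZMod 2) := mulEquivOfPrimeCardEq (p := 2) hcard (by simp)
  exact ⟨(MulEquiv.ofBijective Θ hΘ).symm.trans ((MulEquiv.prodCongr e2 e1).trans (MulEquiv.prodMultiplicative (ZMod 2) (ZMod f)).symm)⟩

theorem aux2 {F : Type*} [Field F] [Fintype F] {p f m : ℕ} [Fact p.Prime] (hf : 1 ≤ f) (hF : Fintype.card F = p ^ f) (hp : p ≠ 2) (hm : 3 ≤ m)
    (q : (Unit ⊕ (Fin m ⊕ Fin m) → F) → F) (hq : q = ⇑(Cfsg.Agent.H22.qOdd m F)) :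
    Nonempty (Cfsg.Out (Cfsg.POmega F q) ≃* Multiplicative (ZMod 2 × ZMod f)) := by
  subst hq
  exact aux hf hF hp hm


/-- Outer automorphism group of the simple orthogonal group Ω_(2m+1)(q), m ≥ 3, q = p^f odd: it is the direct product of a group of order 2 (diagonal automorphisms, from SO) and a cyclic group of order f (field automorphisms). -/
theorem result {F : Type*} [Field F] [Fintype F] {p f m : ℕ} [Fact p.Prime] (hf : 1 ≤ f) (hF : Fintype.card F = p ^ f) (hp : p ≠ 2) (hm : 3 ≤ m) : Nonempty (Cfsg.Out (Cfsg.POmega F (Cfsg.quadFormOdd m F)) ≃* Multiplicative (ZMod 2 × ZMod f)) := by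
  exact aux2 hf hF hp hm _ (Cfsg.Agent.H22.coe_qOdd m).symm

end Cfsg.Agent.S2604
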