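import Cfsg.Agent.LibMin27d
-- Template for statement S2606 (row 2606; see /opt/grader/pristine/manifest.json for weights).
-- Copy to Cfsg/Agent/S2606.lean and replace the sorry. The statement below is byte-identical to the frozen
-- statement Cfsg.CfsgFrozen.S2606 (Cfsg/Statements/S2606.lean; the theorem Cfsg.cg16_out_pomega_minus_odd);
-- the grader kernel-checks Cfsg.Agent.S2606.result against that frozen type. Keep the theorem IN THIS FILE
-- (a `result` declared elsewhere and merely imported here is not credited); helpers may live anywhere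
-- under Cfsg/Agent/.
import Cfsg.Statements.S2606
-- import your own Cfsg.Agent.* helpers here

set_option autoImplicit false
open Cfsg

namespace Cfsg.Agent.S2606

set_option maxHeartbeats 1000000 in
open Cfsg.Agent.H22 CfsgLib.RhoO27 CfsgLib.AutO27 CfsgLib.Even27 CfsgLib.Min27 CfsgLib.AutPSL27 in
theorem aux {F : Type*} [Field F] [Fintype F] {p f m : ℕ} [Fact p.Prime] (hf : 1 ≤ f) (hF : Fintype.card F = p ^ f) (hp : p ≠ 2) (hm : 3 ≤ m) (a b : F)
    (hab : ∀ z₁ z₂ : F, z₁ ^ 2 + a * z₁ * z₂ + b * z₂ ^ 2 = 0 → z₁ = 0 ∧ z₂ = 0) (q : ((Fin m ⊕ Fin m) ⊕ Fin 2 → F) → F) (hq : q = ⇑(qMinus m F a b)) :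
    ((Even m ∧ Fintype.card F % 4 = 3) → Nonempty (Cfsg.Out (Cfsg.POmega F q) ≃* DihedralGroup 4 × Multiplicative (ZMod f))) ∧
    (¬ (Even m ∧ Fintype.card F % 4 = 3) → Nonempty (Cfsg.Out (Cfsg.POmega F q) ≃* Multiplicative (ZMod 2 × ZMod (2 * f)))) := by
  subst hq
  have hodd : Odd (Fintype.card F) := by
    rw [hF]
    exact ((Fact.out : p.Prime).odd_of_ne_two hp).pow
  have h2 : (2 : F) ≠ 0 := two_ne_zero_of_odd hodd
  obtain ⟨e, ff, u, hG⟩ := good_qMinus (F := F) hm a b hab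
  obtain ⟨K, _, _, hK2, θ, hθ⟩ := exists_adjoin hab
  haveI : Module.Finite F K := Module.finite_of_finrank_pos (by rw [hK2]; norm_num)
  haveI : Finite K := Module.finite_of_finite F
  letI := Fintype.ofFinite K
  have hK : Fintype.card K = Fintype.card F ^ 2 := by rw [Module.card_eq_pow_finrank (K := F) (V := K), hK2]
  obtain ⟨χ, hχ⟩ := exists_chi (m := m) hK hab hθ
  have hE := ev_qMinus (m := m) h2 hab
  have hn := negIn_minus (m := m) hodd hab
  have hcK : Nat.card K = p ^ (2 * f) := by rw [Nat.card_eq_fintype_card, hK, hF, ← pow_mul, mul_comm]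
  have hcF : Nat.card F = p ^ f := by rw [Nat.card_eq_fintype_card, hF]
  constructor
  · rintro ⟨h1, h3⟩
    have hfo : Odd f := by
      rw [hF, pow_mod_four_eq_three ((Fact.out : p.Prime).odd_of_ne_two hp)] at h3
      exact h3.2
    exact out_pos hK hab hθ hχ hG hE hfo hcK hcF (hn.2 ⟨h1, h3⟩)
  · intro h1
    exact out_neg hK hab hθ hχ hG hE hcK (fun h => h1 (hn.1 h))


/-- Outer automorphism group of PΩ⁻_2m(q), m ≥ 4, q = p^f odd: it is dihedral of order 8 times cyclic of order f when q ≡ 3 (mod 4) and m is odd, and otherwise the direct product of a group of order 2 with a cyclic group of order 2f. -/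
theorem result {F : Type*} [Field F] [Fintype F] {p f m : ℕ} [Fact p.Prime] (hf : 1 ≤ f) (hF : Fintype.card F = p ^ f) (hp : p ≠ 2) (hm : 4 ≤ m) (a b : F) (hab : ∀ z₁ z₂ : F, z₁ ^ 2 + a * z₁ * z₂ + b * z₂ ^ 2 = 0 → z₁ = 0 ∧ z₂ = 0) : if p ^ f % 4 = 3 ∧ Odd m then Nonempty (Cfsg.Out (Cfsg.POmega F (Cfsg.quadFormMinus (m - 1) F a b)) ≃* DihedralGroup 4 × Multiplicative (ZMod f)) else Nonempty (Cfsg.Out (Cfsg.POmega F (Cfsg.quadFormMinus (m - 1) F a b)) ≃* Multiplicative (ZMod 2 × ZMod (2 * f))) := by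
  have h := aux hf hF hp (m := m - 1) (by omega) a b hab _ (Cfsg.Agent.H22.coe_qMinus (m - 1) a b).symm
  split_ifs with h1
  · refine h.1 ⟨?_, by rw [hF]; exact h1.1⟩
    obtain ⟨k, hk⟩ := h1.2
    exact ⟨k, by omega⟩
  · refine h.2 ?_
    rintro ⟨⟨k, hk⟩, h3⟩
    exact h1 ⟨by rw [← hF]; exact h3, ⟨k, by omega⟩⟩

end Cfsg.Agent.S2606
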