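import Cfsg.Agent.LibSpinApp27
-- Template for statement S2609 (row 2609; see /opt/grader/pristine/manifest.json for weights).
-- Copy to Cfsg/Agent/S2609.lean and replace the sorry. The statement below is byte-identical to the frozen
-- statement Cfsg.CfsgFrozen.S2609 (Cfsg/Statements/S2609.lean; the theorem Cfsg.cg16_spinor_norm_criterion);
-- the grader kernel-checks Cfsg.Agent.S2609.result against that frozen type. Keep the theorem IN THIS FILE
-- (a `result` declared elsewhere and merely imported here is not credited); helpers may live anywhere
-- under Cfsg/Agent/.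
import Cfsg.Statements.S2609
-- import your own Cfsg.Agent.* helpers here

set_option autoImplicit false
open Cfsg

namespace Cfsg.Agent.S2609

open Cfsg.Agent.H22 CfsgLib.Spinor27


/-- Spinor norm criterion for Ω over a finite field of odd order: let Q be a quadratic form on F^n, n ≥ 2, with non-degenerate polar form, and let g be an isometry written as a product of reflections in non-singular vectors v_1, …, v_k. Then g lies in Ω (the commutator subgroup of the orthogonal group) if and only if k is even and Q(v_1)⋯Q(v_k) is a square; in particular, for g of determinant one, whether that product is a square does not depend on the chosen factorisation (it is the spinor norm of g). -/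
theorem result {F : Type*} [Field F] [Fintype F] (h2 : (2 : F) ≠ 0) {n : ℕ} (hn : 2 ≤ n) (Q : QuadraticForm F (Fin n → F)) (hQ : (QuadraticMap.polarBilin Q).Nondegenerate) (g : ↥(Cfsg.isometryGroup F ⇑Q)) (vs : List (Fin n → F)) (hvs : ∀ v ∈ vs, Q v ≠ 0) (hg : ((g : Matrix.GeneralLinearGroup (Fin n) F) : Matrix (Fin n) (Fin n) F) = (vs.map (fun v => Cfsg.reflectionMatrix ⇑Q v)).prod) : g ∈ Cfsg.Omega F ⇑Q ↔ (Even vs.length ∧ IsSquare (vs.map (fun v => Q v)).prod) := by
  obtain ⟨l, hl⟩ : ∃ l : List {v : Fin n → F // Q v ≠ 0}, l.map Subtype.val = vs := by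
    lift vs to List {v : Fin n → F // Q v ≠ 0} using hvs with l
    exact ⟨l, rfl⟩
  have hfr : 2 ≤ Module.finrank F (Fin n → F) := by simpa using hn
  have hg' : oIso Q g = (l.map fun v => oRefl Q v.1 v.2).prod := by
    apply Subtype.ext
    refine (oIso_eq_iff Q g _ _ (list_refl_mulVec l)).2 ?_
    rw [hg, ← hl, List.map_map]
    rfl
  rw [mem_omega_mat, hg', refl_prod_mem h2 hQ hfr, ← hl, List.length_map, List.map_map]
  rfl

end Cfsg.Agent.S2609
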