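import Cfsg.Agent.LibSpinNeg27
-- Template for statement S2610 (row 2610; see /opt/grader/pristine/manifest.json for weights).
-- Copy to Cfsg/Agent/S2610.lean and replace the sorry. The statement below is byte-identical to the frozen
-- statement Cfsg.CfsgFrozen.S2610 (Cfsg/Statements/S2610.lean; the theorem Cfsg.cg16_neg_one_mem_omega_iff_discriminant_square);
-- the grader kernel-checks Cfsg.Agent.S2610.result against that frozen type. Keep the theorem IN THIS FILE
-- (a `result` declared elsewhere and merely imported here is not credited); helpers may live anywhere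
-- under Cfsg/Agent/.
import Cfsg.Statements.S2610
-- import your own Cfsg.Agent.* helpers here

set_option autoImplicit false
open Cfsg

namespace Cfsg.Agent.S2610

open Cfsg.Agent.H22 CfsgLib.Spinor27


/-- For a quadratic form Q on F^n with non-degenerate polar form, F finite of odd order and n ≥ 2 even, the isometry −1 lies in Ω (the commutator subgroup of the orthogonal group) if and only if the discriminant of Q (the determinant of the Gram matrix of its polar form) is a square. -/
theorem result {F : Type*} [Field F] [Fintype F] (h2 : (2 : F) ≠ 0) {n : ℕ} (hn : 2 ≤ n) (he : Even n) (Q : QuadraticForm F (Fin n → F)) (hQ : (QuadraticMap.polarBilin Q).Nondegenerate) : (∃ g : ↥(Cfsg.isometryGroup F ⇑Q), g ∈ Cfsg.Omega F ⇑Q ∧ ((g : Matrix.GeneralLinearGroup (Fin n) F) : Matrix (Fin n) (Fin n) F) = -1) ↔ IsSquare (Matrix.of (fun i j : Fin n => QuadraticMap.polar ⇑Q (Pi.single i 1) (Pi.single j 1))).det := by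
  have hfr : 2 ≤ Module.finrank F (Fin n → F) := by simpa using hn
  obtain ⟨v, hv, ho⟩ := exists_ortho_basis h2 hQ (n := n) (by simp)
  obtain ⟨g₀, hg₀⟩ : ∃ g₀ : OGrp Q, ∀ x, g₀.1 x = -x :=
    ⟨⟨LinearEquiv.neg F, fun x => by simp [QuadraticMap.map_neg]⟩, fun x => rfl⟩
  have h1 := gram_square_iff h2 he (Pi.basisFun F (Fin n)) v ho (Q := Q)
  simp only [Pi.basisFun_apply] at h1
  rw [h1, neg_mem_omega_iff g₀ hg₀, neg_mem_iff h2 hQ hfr v hv ho g₀ hg₀]
  exact ⟨fun h => h.2, fun h => ⟨he, h⟩⟩

end Cfsg.Agent.S2610
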