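import Cfsg.Agent.LibLevi27
-- Template for statement S2611 (row 2611; see /opt/grader/pristine/manifest.json for weights).
-- Copy to Cfsg/Agent/S2611.lean and replace the sorry. The statement below is byte-identical to the frozen
-- statement Cfsg.CfsgFrozen.S2611 (Cfsg/Statements/S2611.lean; the theorem Cfsg.cg16_omega_plus_levi_mem_iff_det_square);
-- the grader kernel-checks Cfsg.Agent.S2611.result against that frozen type. Keep the theorem IN THIS FILE
-- (a `result` declared elsewhere and merely imported here is not credited); helpers may live anywhere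
-- under Cfsg/Agent/.
import Cfsg.Statements.S2611
-- import your own Cfsg.Agent.* helpers here

set_option autoImplicit false
open Cfsg

namespace Cfsg.Agent.S2611

open Cfsg.Agent.H22 CfsgLib.Spinor27


/-- For the hyperbolic quadratic form Σ x_i y_i on F^(2m) (F finite, m ≥ 1, excluding m = 2 over the field of two elements) and an invertible m × m matrix A, the block-diagonal isometry diag(A, (A⁻¹)ᵀ), which stabilises the two maximal totally singular subspaces x = 0 and y = 0, lies in Ω⁺_2m(F) (the commutator subgroup of the orthogonal group) if and only if det A is a square in F. -/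
theorem result {F : Type*} [Field F] [Fintype F] {m : ℕ} (hm : 1 ≤ m) (h : Fintype.card F ≠ 2 ∨ m ≠ 2) (A : GL (Fin m) F) : (∃ g : ↥(Cfsg.isometryGroup F (Cfsg.quadFormPlus m F)), g ∈ Cfsg.Omega F (Cfsg.quadFormPlus m F) ∧ ((g : Matrix.GeneralLinearGroup (Fin m ⊕ Fin m) F) : Matrix (Fin m ⊕ Fin m) (Fin m ⊕ Fin m) F) = Matrix.fromBlocks (A : Matrix (Fin m) (Fin m) F) 0 0 ((A : Matrix (Fin m) (Fin m) F)⁻¹).transpose) ↔ IsSquare (A : Matrix (Fin m) (Fin m) F).det := by
  have hF : (∃ a : F, a ≠ 0 ∧ a ≠ 1) ∨ Module.finrank F (Fin m ⊕ Fin m → F) ≠ 4 := by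
    rcases h with h | h
    · exact Or.inl (exists_ne_zero_one_of_card h)
    · right
      simp
      omega
  have hQ := nondeg_qPlus (F := F) m
  rw [← coe_qPlus, exists_mat_iff (Q := qPlus m F) _ (levi A) (fun x => by rw [levi_apply, Matrix.coe_units_inv])]
  by_cases h2 : (2 : F) = 0
  · haveI : CharP F 2 := CharTwo.of_one_ne_zero_of_two_eq_zero one_ne_zero h2
    obtain ⟨i₀⟩ : Nonempty (Fin m) := ⟨⟨0, by omega⟩⟩
    rw [(omega_even hQ hF ⟨Pi.single (Sum.inl i₀) 1, by simp⟩).2]
    exact ⟨fun _ => FiniteField.isSquare_of_char_two (ringChar.eq F 2) _, fun _ => parFun_levi A⟩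
  · rw [mem_omega_iff h2 hQ (frm hm), spin_levi h2 hm, chi_eq_one]
    exact ⟨fun h => h.2, fun h => ⟨parFun_levi A, h⟩⟩

end Cfsg.Agent.S2611
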