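import Cfsg.Agent.LibLevi27
-- Template for statement S2612 (row 2612; see /opt/grader/pristine/manifest.json for weights).
-- Copy to Cfsg/Agent/S2612.lean and replace the sorry. The statement below is byte-identical to the frozen
-- statement Cfsg.CfsgFrozen.S2612 (Cfsg/Statements/S2612.lean; the theorem Cfsg.cg16_omega_plus_swaps_maximal_singular_iff_even);
-- the grader kernel-checks Cfsg.Agent.S2612.result against that frozen type. Keep the theorem IN THIS FILE
-- (a `result` declared elsewhere and merely imported here is not credited); helpers may live anywhere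
-- under Cfsg/Agent/.
import Cfsg.Statements.S2612
-- import your own Cfsg.Agent.* helpers here

set_option autoImplicit false
open Cfsg

namespace Cfsg.Agent.S2612

open Cfsg.Agent.H22 CfsgLib.Spinor27

section swap
variable {F : Type*} [Field F] {m : ℕ}

def sw (m : ℕ) (F : Type*) [Field F] : OGrp (qPlus m F) :=
  ⟨LinearEquiv.funCongrLeft F F (Equiv.sumComm (Fin m) (Fin m)), fun x => by
    rw [qPlus_dot, qPlus_dot, dotProduct_comm]
    rfl⟩

theorem sw_apply (x : Fin m ⊕ Fin m → F) : (sw m F).1 x = x ∘ Sum.swap := rfl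

theorem hp (i : Fin m) : HP (qPlus m F) (famPlus m F i).1 (famPlus m F i).2 :=
    ⟨((qfam_plus m).1 i).1, ((qfam_plus m).1 i).2, by rw [((qfam_plus m).2 i i).2.2, if_pos rfl]⟩

theorem q1 (i : Fin m) : qPlus m F ((famPlus m F i).1 - (famPlus m F i).2) = -1 := by
  rw [qsub, (hp i).1, (hp i).2.1, (hp i).2.2]; ring

theorem q1' (i : Fin m) : qPlus m F ((famPlus m F i).1 - (famPlus m F i).2) ≠ 0 := by
  rw [q1]; exact neg_ne_zero.2 one_ne_zero

theorem sw_list (L : List (Fin m)) (hL : L.Nodup) (x : Fin m ⊕ Fin m → F) :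
    ((L.map fun i => oRefl (qPlus m F) _ (q1' i)).prod).1 x =
      Sum.elim (fun j => if j ∈ L then x (Sum.inr j) else x (Sum.inl j)) (fun j => if j ∈ L then x (Sum.inl j) else x (Sum.inr j)) := by
  induction L with
  | nil =>
    ext (j | j) <;> simp
  | cons a L ih =>
    rw [List.nodup_cons] at hL
    rw [List.map_cons, List.prod_cons, og_mul_apply, ih hL.2, oRefl_apply, q1]
    have h1 : ∀ y : Fin m ⊕ Fin m → F, QuadraticMap.polar (qPlus m F) ((famPlus m F a).1 - (famPlus m F a).2) y = y (Sum.inr a) - y (Sum.inl a) := by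
      intro y
      rw [QuadraticMap.polar_sub_left, polar_qPlus, polar_qPlus]
      unfold famPlus
      simp [Pi.single_apply]
    rw [h1]
    ext (j | j)
    · by_cases hj : j = a
      · subst hj
        simp [hL.1, famPlus]
      · simp [famPlus, hj]
    · by_cases hj : j = a
      · subst hj
        simp [hL.1, famPlus]
      · simp [famPlus, hj]

theorem sw_eq : sw m F = ((List.finRange m).map fun i => oRefl (qPlus m F) _ (q1' i)).prod := by
  apply og_ext
  intro x
  rw [sw_list _ (List.nodup_finRange m), sw_apply]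
  ext (j | j) <;> simp

theorem hom_sw (φ : OGrp (qPlus m F) →* ℤˣ) (c : ℤˣ) (h : ∀ i, φ (oRefl (qPlus m F) _ (q1' i)) = c) : φ (sw m F) = c ^ m := by
  rw [sw_eq, map_list_prod, List.map_map]
  have : (⇑φ ∘ fun i => oRefl (qPlus m F) ((famPlus m F i).1 - (famPlus m F i).2) (q1' i)) = fun _ : Fin m => c := funext h
  rw [this, List.map_const', List.prod_replicate, List.length_finRange]

end swap


/-- For the hyperbolic quadratic form Σ x_i y_i on F^(2m) (F finite, m ≥ 1, excluding m = 2 over the field of two elements), Ω⁺_2m(F) (the commutator subgroup of the orthogonal group) contains an element interchanging the two complementary maximal totally singular subspaces {y = 0} and {x = 0} if and only if m is even (dimension divisible by 4). -/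
theorem result {F : Type*} [Field F] [Fintype F] {m : ℕ} (hm : 1 ≤ m) (h : Fintype.card F ≠ 2 ∨ m ≠ 2) : (∃ g : ↥(Cfsg.isometryGroup F (Cfsg.quadFormPlus m F)), g ∈ Cfsg.Omega F (Cfsg.quadFormPlus m F) ∧ (∀ v : Fin m ⊕ Fin m → F, (∀ i, v (Sum.inr i) = 0) → ∀ i, (((g : Matrix.GeneralLinearGroup (Fin m ⊕ Fin m) F) : Matrix (Fin m ⊕ Fin m) (Fin m ⊕ Fin m) F).mulVec v) (Sum.inl i) = 0) ∧ (∀ v : Fin m ⊕ Fin m → F, (∀ i, v (Sum.inl i) = 0) → ∀ i, (((g : Matrix.GeneralLinearGroup (Fin m ⊕ Fin m) F) : Matrix (Fin m ⊕ Fin m) (Fin m ⊕ Fin m) F).mulVec v) (Sum.inr i) = 0)) ↔ Even m := by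
  have hF : (∃ a : F, a ≠ 0 ∧ a ≠ 1) ∨ Module.finrank F (Fin m ⊕ Fin m → F) ≠ 4 := by
    rcases h with h | h
    · exact Or.inl (exists_ne_zero_one_of_card h)
    · right
      simp
      omega
  have hQ := nondeg_qPlus (F := F) m
  obtain ⟨i₀⟩ : Nonempty (Fin m) := ⟨⟨0, by omega⟩⟩
  have hev : (2 : F) = 0 → ∀ g, g ∈ commutator (OGrp (qPlus m F)) ↔ par hQ hF g = 1 := by
    intro h2
    haveI : CharP F 2 := CharTwo.of_one_ne_zero_of_two_eq_zero one_ne_zero h2
    exact (omega_even hQ hF ⟨Pi.single (Sum.inl i₀) 1, by simp⟩).2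
  have hpar : par hQ hF (sw m F) = (-1) ^ m := hom_sw _ _ fun i => par_refl _ _ _ _
  rw [← coe_qPlus]
  constructor
  · rintro ⟨g, hg, hx, hy⟩
    rw [mem_omega_mat] at hg
    have hp1 : par hQ hF (oIso (qPlus m F) g) = 1 := by
      by_cases h2 : (2 : F) = 0
      · exact (hev h2 _).1 hg
      · exact ((mem_omega_iff h2 hQ (frm hm) _).1 hg).1
    obtain ⟨M, hM⟩ : ∃ M : Matrix (Fin m ⊕ Fin m) (Fin m ⊕ Fin m) F, M = ((g : Matrix.GeneralLinearGroup (Fin m ⊕ Fin m) F) : Matrix (Fin m ⊕ Fin m) (Fin m ⊕ Fin m) F) := ⟨_, rfl⟩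
    have hgx : ∀ x, (oIso (qPlus m F) g).1 x = M.mulVec x := fun x => by rw [hM]; rfl
    have m11 : ∀ i j, M (Sum.inl i) (Sum.inl j) = 0 := by
      intro i j
      have := hx (Pi.single (Sum.inl j) 1) (by intro i; simp) i
      rw [← hM, Matrix.mulVec_single_one] at this
      exact this
    have m22 : ∀ i j, M (Sum.inr i) (Sum.inr j) = 0 := by
      intro i j
      have := hy (Pi.single (Sum.inr j) 1) (by intro i; simp) i
      rw [← hM, Matrix.mulVec_single_one] at this
      exact this
    have hMb : M = Matrix.fromBlocks 0 M.toBlocks₁₂ M.toBlocks₂₁ 0 := by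
      ext (i | i) (j | j)
      · exact m11 i j
      · rfl
      · rfl
      · exact m22 i j
    have hk := par_blocks (A := M.toBlocks₂₁) (D := M.toBlocks₁₂) (sw m F * oIso (qPlus m F) g) (fun x => by
      rw [og_mul_apply, sw_apply, hgx]
      conv_lhs => rw [hMb]
      rw [Matrix.fromBlocks_mulVec, Matrix.fromBlocks_mulVec]
      ext (j | j) <;> simp)
    have hk' : par hQ hF (sw m F * oIso (qPlus m F) g) = 1 := hk
    rw [map_mul, hpar, hp1, mul_one] at hk'
    by_contra hne
    rw [Nat.not_even_iff_odd] at hne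
    rw [hne.neg_one_pow] at hk'
    exact absurd hk' (by decide)
  · intro he
    refine ⟨(oIso (qPlus m F)).symm (sw m F), ?_, ?_, ?_⟩
    · rw [mem_omega_mat, MulEquiv.apply_symm_apply]
      by_cases h2 : (2 : F) = 0
      · rw [hev h2, hpar, he.neg_one_pow]
      · rw [mem_omega_iff h2 hQ (frm hm)]
        refine ⟨hpar.trans he.neg_one_pow, ?_⟩
        rw [hom_sw (spin h2 hQ (frm hm)) (chi (-1 : F)) (fun i => by rw [spin_refl, q1])]
        obtain ⟨k, rfl⟩ := he
        rw [← two_mul, pow_mul, Int.units_sq, one_pow]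
    · intro v hv i
      rw [← oIso_apply, MulEquiv.apply_symm_apply]
      exact hv i
    · intro v hv i
      rw [← oIso_apply, MulEquiv.apply_symm_apply]
      exact hv i

end Cfsg.Agent.S2612
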