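import Cfsg.Agent.LibSpinApp27
-- Template for statement S2613 (row 2613; see /opt/grader/pristine/manifest.json for weights).
-- Copy to Cfsg/Agent/S2613.lean and replace the sorry. The statement below is byte-identical to the frozen
-- statement Cfsg.CfsgFrozen.S2613 (Cfsg/Statements/S2613.lean; the theorem Cfsg.cg16_hyperbolic_pairs_involution_mem_omega_plus_iff);
-- the grader kernel-checks Cfsg.Agent.S2613.result against that frozen type. Keep the theorem IN THIS FILE
-- (a `result` declared elsewhere and merely imported here is not credited); helpers may live anywhere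
-- under Cfsg/Agent/.
import Cfsg.Statements.S2613
-- import your own Cfsg.Agent.* helpers here

set_option autoImplicit false
open Cfsg

namespace Cfsg.Agent.S2613

open Cfsg.Agent.H22 CfsgLib.Spinor27


/-- For the hyperbolic form Σ x_j y_j on F^(2m), F finite with q elements, q odd, and 1 ≤ i ≤ m: the involution negating the first i hyperbolic pairs (x_j, y_j ↦ −x_j, −y_j for j < i) and fixing the rest lies in Ω⁺_2m(q) (commutator subgroup of the orthogonal group) if and only if q^i ≡ 1 (mod 4); its (−1)-eigenspace is a hyperbolic 2i-space. -/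
theorem result {F : Type*} [Field F] [Fintype F] {q : ℕ} (hF : Fintype.card F = q) (hq : Odd q) {m : ℕ} (i : ℕ) (hi : 1 ≤ i) (him : i ≤ m) : (∃ g : ↥(Cfsg.isometryGroup F (Cfsg.quadFormPlus m F)), g ∈ Cfsg.Omega F (Cfsg.quadFormPlus m F) ∧ ((g : Matrix.GeneralLinearGroup (Fin m ⊕ Fin m) F) : Matrix (Fin m ⊕ Fin m) (Fin m ⊕ Fin m) F) = Matrix.diagonal (fun k : Fin m ⊕ Fin m => if (Sum.elim (fun j : Fin m => (j : ℕ)) (fun j : Fin m => (j : ℕ)) k) < i then (-1 : F) else 1)) ↔ q ^ i % 4 = 1 := by
  subst hF
  have hfr : 2 ≤ Module.finrank F (Fin m ⊕ Fin m → F) := by simp; omega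
  have hs := qfam_plus (F := F) m
  obtain ⟨g, g1, g3, g4⟩ := fam_neg_mem hq (nondeg_qPlus (F := F) m) hfr _ (QFam_castLE him hs)
  have h1 := sub_fam_neg him hs g1 g3
  rw [← g4]
  rw [← coe_qPlus]
  refine exists_mat_iff (Q := qPlus m F) _ g (diagonal_mulVec_eq _ _ ?_)
  rintro (j | j)
  · exact (h1 j).1
  · exact (h1 j).2

end Cfsg.Agent.S2613
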