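import Cfsg.Agent.LibSpinApp27
-- Template for statement S2614 (row 2614; see /opt/grader/pristine/manifest.json for weights).
-- Copy to Cfsg/Agent/S2614.lean and replace the sorry. The statement below is byte-identical to the frozen
-- statement Cfsg.CfsgFrozen.S2614 (Cfsg/Statements/S2614.lean; the theorem Cfsg.cg16_hyperbolic_pairs_involution_mem_omega_odd_dim_iff);
-- the grader kernel-checks Cfsg.Agent.S2614.result against that frozen type. Keep the theorem IN THIS FILE
-- (a `result` declared elsewhere and merely imported here is not credited); helpers may live anywhere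
-- under Cfsg/Agent/.
import Cfsg.Statements.S2614
-- import your own Cfsg.Agent.* helpers here

set_option autoImplicit false
open Cfsg

namespace Cfsg.Agent.S2614

open Cfsg.Agent.H22 CfsgLib.Spinor27


/-- For the form x_0² + Σ x_j y_j on F^(2m+1), F finite with q elements, q odd, and 1 ≤ i ≤ m: the involution of determinant one negating the first i hyperbolic pairs (and fixing x_0 and the other pairs) lies in Ω_(2m+1)(q) (commutator subgroup of the orthogonal group) if and only if q^i ≡ 1 (mod 4); its (−1)-eigenspace is a hyperbolic 2i-space. -/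
theorem result {F : Type*} [Field F] [Fintype F] {q : ℕ} (hF : Fintype.card F = q) (hq : Odd q) {m : ℕ} (i : ℕ) (hi : 1 ≤ i) (him : i ≤ m) : (∃ g : ↥(Cfsg.isometryGroup F (Cfsg.quadFormOdd m F)), g ∈ Cfsg.Omega F (Cfsg.quadFormOdd m F) ∧ ((g : Matrix.GeneralLinearGroup (Unit ⊕ (Fin m ⊕ Fin m)) F) : Matrix (Unit ⊕ (Fin m ⊕ Fin m)) (Unit ⊕ (Fin m ⊕ Fin m)) F) = Matrix.diagonal (fun k : Unit ⊕ (Fin m ⊕ Fin m) => if (Sum.elim (fun _ : Unit => i) (Sum.elim (fun j : Fin m => (j : ℕ)) (fun j : Fin m => (j : ℕ))) k) < i then (-1 : F) else 1)) ↔ q ^ i % 4 = 1 := by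
  subst hF
  have h2 : (2 : F) ≠ 0 := two_ne_zero_of_odd hq
  have hfr : 2 ≤ Module.finrank F (Unit ⊕ (Fin m ⊕ Fin m) → F) := by simp; omega
  have hs := qfam_odd (F := F) m
  obtain ⟨g, g1, g3, g4⟩ := fam_neg_mem hq (nondeg_qOdd (F := F) m h2) hfr _ (QFam_castLE him hs)
  have h1 := sub_fam_neg him hs g1 g3
  rw [← g4]
  rw [← coe_qOdd]
  refine exists_mat_iff (Q := qOdd m F) _ g (diagonal_mulVec_eq _ _ ?_)
  rintro (j | j | j)
  · have h5 : g.1 (Pi.single (.inl ()) 1 : Unit ⊕ (Fin m ⊕ Fin m) → F) = Pi.single (.inl ()) 1 := by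
      apply g3
      intro k
      exact ((cperp_odd m (Pi.single (.inl ()) 1 : Unit ⊕ (Fin m ⊕ Fin m) → F)).2 (by simp)) _
    rw [h5]
    simp
  · exact (h1 j).1
  · exact (h1 j).2

end Cfsg.Agent.S2614
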