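import Cfsg.Statements.S2615
import Cfsg.Agent.LibDiscH13

set_option autoImplicit false
open Cfsg

namespace Cfsg.Agent.S2615

open Module Cfsg.Agent.H22 CfsgLib.Inv2

theorem aux {F : Type*} [Field F] [Fintype F] (hq : Odd (Fintype.card F)) {k : ℕ} (a b : F) (hab : ∀ z₁ z₂ : F, z₁ ^ 2 + a * z₁ * z₂ + b * z₂ ^ 2 = 0 → z₁ = 0 ∧ z₂ = 0) (i : ℕ) (him : i ≤ k)
    {Q0 : ((Fin k ⊕ Fin k) ⊕ Fin 2 → F) → F} (hQ0 : ⇑(qMinus k F a b) = Q0) :
    (∃ g : ↥(Cfsg.isometryGroup F Q0), g ∈ Cfsg.Omega F Q0 ∧ ((g : Matrix.GeneralLinearGroup ((Fin k ⊕ Fin k) ⊕ Fin 2) F) : Matrix ((Fin k ⊕ Fin k) ⊕ Fin 2) ((Fin k ⊕ Fin k) ⊕ Fin 2) F) = Matrix.diagonal (fun t : (Fin k ⊕ Fin k) ⊕ Fin 2 => if (Sum.elim (Sum.elim (fun j : Fin k => (j : ℕ)) (fun j : Fin k => (j : ℕ))) (fun _ : Fin 2 => i) t) < i then (-1 : F) else 1)) ↔ Fintype.card F ^ i % 4 = 1 := by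
  subst hQ0
  have h2 : (2 : F) ≠ 0 := two_ne_zero_of_odd hq
  have hfr : 2 ≤ finrank F ((Fin k ⊕ Fin k) ⊕ Fin 2 → F) := by simp
  have hQ := nondeg_qMinus (F := F) k a b hab
  have hs := qfam_minus (F := F) k a b
  let s : Fin i → ((Fin k ⊕ Fin k) ⊕ Fin 2 → F) × ((Fin k ⊕ Fin k) ⊕ Fin 2 → F) := fun j => famMinus k F (Fin.castLE him j)
  have hs' : QFam (qMinus k F a b) i s := by
    refine ⟨fun j => hs.1 _, fun j l => ⟨(hs.2 _ _).1, (hs.2 _ _).2.1, ?_⟩⟩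
    have h3 := (hs.2 (Fin.castLE him j) (Fin.castLE him l)).2.2
    have h4 : (Fin.castLE him j = Fin.castLE him l) ↔ j = l := (Fin.castLE_injective him).eq_iff
    simp only [h4] at h3
    exact h3
  obtain ⟨g, g1, g3, g4, g5, g6⟩ := fam_neg h2 hQ hfr s hs'
  obtain ⟨_, _, _, _, _, _, _, _, _, _, hO⟩ := omega_odd h2 hQ hfr
  let D : Matrix ((Fin k ⊕ Fin k) ⊕ Fin 2) ((Fin k ⊕ Fin k) ⊕ Fin 2) F := Matrix.diagonal (fun t : (Fin k ⊕ Fin k) ⊕ Fin 2 => if (Sum.elim (Sum.elim (fun j : Fin k => (j : ℕ)) (fun j : Fin k => (j : ℕ))) (fun _ : Fin 2 => i) t) < i then (-1 : F) else 1)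
  have hD : ∀ x, D.mulVec x = g.1 x := by
    have hfix1 : ∀ t : Fin k, ¬ (t : ℕ) < i → cperp (qMinus k F a b) s (famMinus k F t).1 ∧ cperp (qMinus k F a b) s (famMinus k F t).2 := by
      intro t ht
      constructor
      · intro j
        refine ⟨?_, ?_⟩
        · exact (hs.2 _ _).1
        · rw [QuadraticMap.polar_comm]
          have h3 := (hs.2 t (Fin.castLE him j)).2.2
          rw [if_neg (by intro h; apply ht; rw [h]; exact j.2)] at h3
          exact h3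
      · intro j
        refine ⟨?_, ?_⟩
        · have h3 := (hs.2 (Fin.castLE him j) t).2.2
          rw [if_neg (by intro h; apply ht; rw [← h]; exact j.2)] at h3
          exact h3
        · exact (hs.2 _ _).2.1
    have hfix2 : ∀ t : Fin 2, cperp (qMinus k F a b) s (Pi.single (.inr t) 1) := by
      intro t j
      have h3 := (cperp_minus k a b (Pi.single (.inr t) 1)).2 (by fin_cases t <;> simp)
      exact h3 (Fin.castLE him j)
    have hlin : (Matrix.toLin' D) = ((g.1 : ((Fin k ⊕ Fin k) ⊕ Fin 2 → F) ≃ₗ[F] ((Fin k ⊕ Fin k) ⊕ Fin 2 → F)) : ((Fin k ⊕ Fin k) ⊕ Fin 2 → F) →ₗ[F] ((Fin k ⊕ Fin k) ⊕ Fin 2 → F)) := by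
      apply (Pi.basisFun F ((Fin k ⊕ Fin k) ⊕ Fin 2)).ext
      intro t
      rw [Pi.basisFun_apply, Matrix.toLin'_apply]
      have hDt : D.mulVec (Pi.single t 1) = (if (Sum.elim (Sum.elim (fun j : Fin k => (j : ℕ)) (fun j : Fin k => (j : ℕ))) (fun _ : Fin 2 => i) t) < i then (-1 : F) else 1) • Pi.single t 1 := by
        show (Matrix.diagonal _).mulVec (Pi.single t 1) = _
        ext y
        rw [Matrix.mulVec_diagonal, Pi.smul_apply, smul_eq_mul]
        by_cases hy : y = t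
        · rw [hy]
        · rw [Pi.single_eq_of_ne hy, mul_zero, mul_zero]
      rw [hDt]
      rcases t with (t | t) | t
      · show (if (t : ℕ) < i then (-1 : F) else 1) • (famMinus k F t).1 = g.1 (famMinus k F t).1
        by_cases ht : (t : ℕ) < i
        · rw [if_pos ht, neg_one_smul]
          exact (g1 ⟨t, ht⟩).1.symm
        · rw [if_neg ht, one_smul, g3 _ (hfix1 t ht).1]
      · show (if (t : ℕ) < i then (-1 : F) else 1) • (famMinus k F t).2 = g.1 (famMinus k F t).2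
        by_cases ht : (t : ℕ) < i
        · rw [if_pos ht, neg_one_smul]
          exact (g1 ⟨t, ht⟩).2.symm
        · rw [if_neg ht, one_smul, g3 _ (hfix1 t ht).2]
      · show (if i < i then (-1 : F) else 1) • (Pi.single (.inr t) 1 : (Fin k ⊕ Fin k) ⊕ Fin 2 → F) = g.1 (Pi.single (.inr t) 1)
        rw [if_neg (lt_irrefl _), one_smul, g3 _ (hfix2 t)]
    intro x
    exact LinearMap.congr_fun hlin x
  have hiff : (∃ x : ↥(Cfsg.isometryGroup F ⇑(qMinus k F a b)), x ∈ Cfsg.Omega F ⇑(qMinus k F a b) ∧ ((x : Matrix.GeneralLinearGroup ((Fin k ⊕ Fin k) ⊕ Fin 2) F) : Matrix ((Fin k ⊕ Fin k) ⊕ Fin 2) ((Fin k ⊕ Fin k) ⊕ Fin 2) F) = D) ↔ g ∈ commutator (OGrp (qMinus k F a b)) := by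
    constructor
    · rintro ⟨x, hx, hxD⟩
      have h3 := (oIso_eq_iff (qMinus k F a b) x g.1 D hD).2 hxD
      have h4 : oIso (qMinus k F a b) x = g := Subtype.ext h3
      rw [← h4]
      exact (mem_Omega_iff _ x).1 hx
    · intro hg
      refine ⟨(oIso (qMinus k F a b)).symm g, ?_, ?_⟩
      · rw [mem_Omega_iff, MulEquiv.apply_symm_apply]; exact hg
      · apply (oIso_eq_iff (qMinus k F a b) _ g.1 D hD).1
        rw [MulEquiv.apply_symm_apply]
  refine hiff.trans ?_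
  rw [hO 1 one_ne_zero, pow_mod_four_eq_one hq]
  constructor
  · rintro ⟨_, h4⟩
    by_cases hsq : IsSquare (-1 : F)
    · left; exact (isSquare_neg_one_iff h2).1 hsq
    · right
      rw [g6 hsq, neg_one_pow_eq_one_iff_even (by decide)] at h4
      exact h4
  · intro h
    refine ⟨g4, ?_⟩
    by_cases hsq : IsSquare (-1 : F)
    · exact g5 hsq
    · rw [g6 hsq, neg_one_pow_eq_one_iff_even (by decide)]
      rcases h with h | h
      · exact absurd ((isSquare_neg_one_iff h2).2 h) hsq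
      · exact h

/-- For an elliptic form Σ_(j<m−1) x_j y_j + (z₁² + a z₁z₂ + b z₂²) (anisotropic binary part) on F^(2m), F finite with q elements, q odd, and 1 ≤ i ≤ m − 1: the involution negating the first i hyperbolic pairs and fixing the rest lies in Ω⁻_2m(q) (commutator subgroup of the orthogonal group) if and only if q^i ≡ 1 (mod 4). -/
theorem result {F : Type*} [Field F] [Fintype F] {q : ℕ} (hF : Fintype.card F = q) (hq : Odd q) {m : ℕ} (a b : F) (hab : ∀ z₁ z₂ : F, z₁ ^ 2 + a * z₁ * z₂ + b * z₂ ^ 2 = 0 → z₁ = 0 ∧ z₂ = 0) (i : ℕ) (hi : 1 ≤ i) (him : i + 1 ≤ m) : (∃ g : ↥(Cfsg.isometryGroup F (Cfsg.quadFormMinus (m - 1) F a b)), g ∈ Cfsg.Omega F (Cfsg.quadFormMinus (m - 1) F a b) ∧ ((g : Matrix.GeneralLinearGroup ((Fin (m - 1) ⊕ Fin (m - 1)) ⊕ Fin 2) F) : Matrix ((Fin (m - 1) ⊕ Fin (m - 1)) ⊕ Fin 2) ((Fin (m - 1) ⊕ Fin (m - 1)) ⊕ Fin 2) F) = Matrix.diagonal (fun k : (Fin (m - 1) ⊕ Fin (m - 1)) ⊕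 Fin 2 => if (Sum.elim (Sum.elim (fun j : Fin (m - 1) => (j : ℕ)) (fun j : Fin (m - 1) => (j : ℕ))) (fun _ : Fin 2 => i) k) < i then (-1 : F) else 1)) ↔ q ^ i % 4 = 1 := by
  subst hF
  exact aux hq a b hab i (by omega) (coe_qMinus (m - 1) a b)

end Cfsg.Agent.S2615
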