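import Cfsg.Statements.S2616
import Cfsg.Agent.LibStdH13

set_option autoImplicit false
open Cfsg

namespace Cfsg.Agent.S2616

open Module Cfsg.Agent.H22 CfsgLib.OmA CfsgLib.Inv2 CfsgLib.Std

theorem hypBasis {F V : Type*} [Field F] [AddCommGroup V] [Module F V] [FiniteDimensional F V] {m : ℕ} (hV : Module.finrank F V = 2 * m)
    {Q : QuadraticForm F V} {s : Fin m → V × V} (hs : QFam Q m s) : ∃ b : Module.Basis (Fin m ⊕ Fin m) F V,
    (∀ i, Q (b (Sum.inl i)) = 0 ∧ Q (b (Sum.inr i)) = 0) ∧ (∀ i j, QuadraticMap.polar ⇑Q (b (Sum.inl i)) (b (Sum.inr j)) = if i = j then 1 else 0) ∧ (∀ i j, QuadraticMap.polar ⇑Q (b (Sum.inl i)) (b (Sum.inl j)) = 0 ∧ QuadraticMap.polar ⇑Q (b (Sum.inr i)) (b (Sum.inr j)) = 0) := by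
  have hli := hs.indep
  let b : Basis (Fin m ⊕ Fin m) F V := Basis.mk hli (by
    rw [hli.span_eq_top_of_card_eq_finrank' (by simp only [Fintype.card_sum, Fintype.card_fin]; omega)])
  refine ⟨b, fun i => ?_, fun i j => ?_, fun i j => ?_⟩
  · rw [Basis.mk_apply, Basis.mk_apply]; exact hs.1 i
  · rw [Basis.mk_apply, Basis.mk_apply]; exact (hs.2 i j).2.2
  · rw [Basis.mk_apply, Basis.mk_apply, Basis.mk_apply, Basis.mk_apply]; exact ⟨(hs.2 i j).1, (hs.2 i j).2.1⟩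

theorem aux {F V : Type*} [Field F] [Fintype F] [AddCommGroup V] [Module F V] [FiniteDimensional F V] {k : ℕ} (hV : Module.finrank F V = 2 * (k + 1)) (Q : QuadraticForm F V) (hQ : (QuadraticMap.polarBilin Q).Nondegenerate) : (∃ b : Module.Basis (Fin (k + 1) ⊕ Fin (k + 1)) F V, (∀ i, Q (b (Sum.inl i)) = 0 ∧ Q (b (Sum.inr i)) = 0) ∧ (∀ i j, QuadraticMap.polar ⇑Q (b (Sum.inl i)) (b (Sum.inr j)) = if i = j then 1 else 0) ∧ (∀ i j, QuadraticMap.polar ⇑Q (b (Sum.inl i)) (b (Sum.inl j)) = 0 ∧ QuadraticMap.polar ⇑Q (b (Sum.inr i)) (b (Sum.inr j)) = 0)) ∨ (∃ (b : Module.Basis ((Fin k ⊕ Fin k) ⊕ Fin 2) F V) (ζ : F), (∀ t : F, t ^ 2 + t + ζ ≠ 0) ∧ (∀ i, Q (b (Sum.inl (Sum.inl i))) = 0 ∧ Q (b (Sum.inl (Sum.inr i))) = 0) ∧ (∀ i j, QuadraticMap.polar ⇑Q (b (Sum.inl (Sum.inl i))) (b (Sum.inl (Sum.inr j))) = if i = j then 1 else 0) ∧ (∀ i j, QuadraticMap.polar ⇑Q (b (Sum.inl (Sum.inl i))) (b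 (Sum.inl (Sum.inl j))) = 0 ∧ QuadraticMap.polar ⇑Q (b (Sum.inl (Sum.inr i))) (b (Sum.inl (Sum.inr j))) = 0) ∧ (∀ i (k : Fin 2), QuadraticMap.polar ⇑Q (b (Sum.inl (Sum.inl i))) (b (Sum.inr k)) = 0 ∧ QuadraticMap.polar ⇑Q (b (Sum.inl (Sum.inr i))) (b (Sum.inr k)) = 0) ∧ Q (b (Sum.inr 0)) = 1 ∧ QuadraticMap.polar ⇑Q (b (Sum.inr 0)) (b (Sum.inr 1)) = 1 ∧ Q (b (Sum.inr 1)) = ζ) := by
  obtain ⟨s, hs⟩ := exists_QFam k Q hQ (by omega)
  have hfr := finrank_comp hQ hs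
  have hnd := nondeg_qres (comp_nd hQ hs)
  by_cases han : ∀ v : comp Q s, qres Q (comp Q s) v = 0 → v = 0
  · right
    obtain ⟨x, y, hx, hxy, hli⟩ := plane_basis hnd (by omega) han
    have hli' : LinearIndependent F (fun i : Fin 2 => ((![x, y] i : comp Q s) : V)) :=
      hli.map' (comp Q s).subtype (Submodule.ker_subtype _)
    obtain ⟨b, hb1, hb2, hb3⟩ := exists_basis hs hli' (fun i => (![x, y] i).2) (by simp only [Fintype.card_fin]; omega)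
    have hcc : ∀ i (k : Fin 2), QuadraticMap.polar ⇑Q (s i).1 ((![x, y] k : comp Q s) : V) = 0 ∧ QuadraticMap.polar ⇑Q (s i).2 ((![x, y] k : comp Q s) : V) = 0 :=
      fun i k => mem_comp.1 (![x, y] k).2 i
    refine ⟨b, qres Q (comp Q s) y, ?_, ?_, ?_, ?_, ?_, ?_, ?_, ?_⟩
    · intro t ht
      have h1 : qres Q (comp Q s) (t • x + y) = 0 := by
        rw [qadd, qsmul, QuadraticMap.polar_smul_left, hx, hxy, smul_eq_mul]
        linear_combination ht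
      have h2 := han _ h1
      rw [LinearIndependent.pair_iff] at hli
      have h3 := (hli t 1 (by rw [one_smul]; exact h2)).2
      exact one_ne_zero h3
    · intro i; rw [hb1, hb2]; exact hs.1 i
    · intro i j; rw [hb1, hb2]; exact (hs.2 i j).2.2
    · intro i j; rw [hb1, hb1, hb2, hb2]; exact ⟨(hs.2 i j).1, (hs.2 i j).2.1⟩
    · intro i k; rw [hb1, hb2, hb3]; exact hcc i k
    · rw [hb3]; exact hx
    · rw [hb3, hb3]; exact hxy
    · rw [hb3]; rfl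
  · left
    push Not at han
    obtain ⟨v, hv, hv0⟩ := han
    obtain ⟨f, hf⟩ := exists_HP_of_singular hnd v hv0 hv
    exact hypBasis hV (QFam_cons hs (HP_of_qres hf) v.2 f.2)

/-- Standard bases of a non-degenerate quadratic space of even dimension 2m over a finite field: either there is a hyperbolic basis e_i, f_i (Q(e_i) = Q(f_i) = 0, B(e_i, f_j) = δ_ij, the e's pairwise orthogonal and the f's pairwise orthogonal, B the polar form), or there is an elliptic basis: hyperbolic pairs e_i, f_i for i < m − 1 together with x, y orthogonal to them with Q(x) = 1, B(x, y) = 1, Q(y) = ζ where t² + t + ζ has no root in the field. -/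
theorem result {F V : Type*} [Field F] [Finite F] [AddCommGroup V] [Module F V] [FiniteDimensional F V] {m : ℕ} (hm : 1 ≤ m) (hV : Module.finrank F V = 2 * m) (Q : QuadraticForm F V) (hQ : (QuadraticMap.polarBilin Q).Nondegenerate) : (∃ b : Module.Basis (Fin m ⊕ Fin m) F V, (∀ i, Q (b (Sum.inl i)) = 0 ∧ Q (b (Sum.inr i)) = 0) ∧ (∀ i j, QuadraticMap.polar ⇑Q (b (Sum.inl i)) (b (Sum.inr j)) = if i = j then 1 else 0) ∧ (∀ i j, QuadraticMap.polar ⇑Q (b (Sum.inl i)) (b (Sum.inl j)) = 0 ∧ QuadraticMap.polar ⇑Q (b (Sum.inr i)) (b (Sum.inr j)) = 0)) ∨ (∃ (b : Module.Basis ((Fin (m - 1) ⊕ Fin (m - 1)) ⊕ Fin 2) F V) (ζ : F), (∀ t : F, t ^ 2 + t + ζ ≠ 0) ∧ (∀ i, Q (b (Sum.inl (Sum.inl i))) = 0 ∧ Q (b (Sum.inl (Sum.inr i))) = 0) ∧ (∀ i j, QuadraticMap.polar ⇑Q (b (Sum.inl (Sum.inl i))) (b (Sum.inl (Sum.inr j))) = if i = j then 1 else 0) ∧ (∀ i j, QuadraticMap.polar ⇑Q (b (Sum.inl (Sum.inl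 i))) (b (Sum.inl (Sum.inl j))) = 0 ∧ QuadraticMap.polar ⇑Q (b (Sum.inl (Sum.inr i))) (b (Sum.inl (Sum.inr j))) = 0) ∧ (∀ i (k : Fin 2), QuadraticMap.polar ⇑Q (b (Sum.inl (Sum.inl i))) (b (Sum.inr k)) = 0 ∧ QuadraticMap.polar ⇑Q (b (Sum.inl (Sum.inr i))) (b (Sum.inr k)) = 0) ∧ Q (b (Sum.inr 0)) = 1 ∧ QuadraticMap.polar ⇑Q (b (Sum.inr 0)) (b (Sum.inr 1)) = 1 ∧ Q (b (Sum.inr 1)) = ζ) := by
  haveI : Fintype F := Fintype.ofFinite F
  obtain ⟨k, rfl⟩ : ∃ k, m = k + 1 := ⟨m - 1, by omega⟩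
  exact aux hV Q hQ

end Cfsg.Agent.S2616
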