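import Cfsg.Statements.S2617
import Cfsg.Agent.LibStdH13
import Cfsg.Agent.LibInv2mH13

set_option autoImplicit false
open Cfsg

namespace Cfsg.Agent.S2617

open Module Cfsg.Agent.H22 CfsgLib.OmA CfsgLib.Inv2 CfsgLib.Std

theorem aniso {F : Type*} [Field F] (ζ : F) (hζ : ∀ t : F, t ^ 2 + t + ζ ≠ 0) (z₁ z₂ : F) (h : z₁ ^ 2 + 1 * z₁ * z₂ + ζ * z₂ ^ 2 = 0) : z₁ = 0 ∧ z₂ = 0 := by
  by_cases h2 : z₂ = 0
  · subst h2
    refine ⟨?_, rfl⟩
    have : z₁ ^ 2 = 0 := by linear_combination h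
    exact pow_eq_zero_iff (two_ne_zero) |>.1 this
  · exfalso
    apply hζ (z₁ / z₂)
    field_simp
    linear_combination h

theorem aux {F : Type*} [Field F] [Fintype F] {k : ℕ} (ζ : F) (hζ : ∀ t : F, t ^ 2 + t + ζ ≠ 0) (g : (Fin (k + 1) ⊕ Fin (k + 1) → F) ≃ₗ[F] ((Fin k ⊕ Fin k) ⊕ Fin 2 → F)) : ¬ (∀ v : Fin (k + 1) ⊕ Fin (k + 1) → F, Cfsg.quadFormMinus k F 1 ζ (g v) = Cfsg.quadFormPlus (k + 1) F v) := by
  intro h
  have hs := qfam_plus (F := F) (k + 1)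
  let U := LinearMap.ker (LinearMap.funLeft F F (Sum.inr : Fin (k + 1) → Fin (k + 1) ⊕ Fin (k + 1)))
  have h1 := LinearMap.finrank_range_add_finrank_ker (LinearMap.funLeft F F (Sum.inr : Fin (k + 1) → Fin (k + 1) ⊕ Fin (k + 1)))
  have h2 : LinearMap.range (LinearMap.funLeft F F (Sum.inr : Fin (k + 1) → Fin (k + 1) ⊕ Fin (k + 1))) = ⊤ := by
    rw [LinearMap.range_eq_top]
    exact LinearMap.funLeft_surjective_of_injective F F _ Sum.inr_injective
  rw [h2, finrank_top, Module.finrank_fintype_fun_eq_card, Module.finrank_fintype_fun_eq_card] at h1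
  simp only [Fintype.card_sum, Fintype.card_fin] at h1
  refine qMinus_TS (k := k) 1 ζ (aniso ζ hζ) (W := U.map (g : (Fin (k + 1) ⊕ Fin (k + 1) → F) →ₗ[F] ((Fin k ⊕ Fin k) ⊕ Fin 2 → F))) ?_ ?_
  · rintro _ ⟨u, hu, rfl⟩
    rw [coe_qMinus]
    show Cfsg.quadFormMinus k F 1 ζ (g u) = 0
    rw [h]
    unfold Cfsg.quadFormPlus
    apply Finset.sum_eq_zero
    intro i _
    have h3 : u (Sum.inr i) = 0 := congrFun (LinearMap.mem_ker.1 hu) i
    rw [h3, mul_zero]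
  · have h4 := LinearEquiv.finrank_map_eq g U
    rw [h4]
    show finrank F ↥(LinearMap.ker _) = k + 1
    omega

/-- The two standard quadratic forms of even dimension 2m over a finite field are not isometric: there is no linear isomorphism carrying the elliptic form Σ_(i<m−1) x_i y_i + z₁² + z₁z₂ + ζ z₂² (t² + t + ζ without roots) to the hyperbolic form Σ_(i<m) x_i y_i (they have different Witt index). -/
theorem result {F : Type*} [Field F] [Finite F] {m : ℕ} (hm : 1 ≤ m) (ζ : F) (hζ : ∀ t : F, t ^ 2 + t + ζ ≠ 0) (g : (Fin m ⊕ Fin m → F) ≃ₗ[F] ((Fin (m - 1) ⊕ Fin (m - 1)) ⊕ Fin 2 → F)) : ¬ (∀ v : Fin m ⊕ Fin m → F, Cfsg.quadFormMinus (m - 1) F 1 ζ (g v) = Cfsg.quadFormPlus m F v) := by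
  haveI : Fintype F := Fintype.ofFinite F
  obtain ⟨k, rfl⟩ : ∃ k, m = k + 1 := ⟨m - 1, by omega⟩
  exact aux ζ hζ g

end Cfsg.Agent.S2617
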