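import Cfsg.Statements.S2618
import Cfsg.Agent.LibStdH13

set_option autoImplicit false
open Cfsg

namespace Cfsg.Agent.S2618

open Module Cfsg.Agent.H22 CfsgLib.OmA CfsgLib.Inv2 CfsgLib.Std

theorem aux {F V : Type*} [Field F] [Fintype F] [AddCommGroup V] [Module F V] [FiniteDimensional F V] {m : ℕ} (hV : Module.finrank F V = 2 * m + 1) (Q : QuadraticForm F V) (hQ : (QuadraticMap.polarBilin Q).Nondegenerate) : ∃ b : Module.Basis (Unit ⊕ (Fin m ⊕ Fin m)) F V, Q (b (Sum.inl ())) ≠ 0 ∧ (∀ i, QuadraticMap.polar ⇑Q (b (Sum.inl ())) (b (Sum.inr (Sum.inl i))) = 0 ∧ QuadraticMap.polar ⇑Q (b (Sum.inl ())) (b (Sum.inr (Sum.inr i))) = 0) ∧ (∀ i, Q (b (Sum.inr (Sum.inl i))) = 0 ∧ Q (b (Sum.inr (Sum.inr i))) = 0) ∧ (∀ i j, QuadraticMap.polar ⇑Q (b (Sum.inr (Sum.inl i))) (b (Sum.inr (Sum.inr j))) = if i = j then 1 else 0) ∧ (∀ i j, QuadraticMap.polar ⇑Q (b (Sum.inr (Sum.inl i))) (b (Sum.inr (Sum.inl j))) = 0 ∧ QuadraticMap.polar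 ⇑Q (b (Sum.inr (Sum.inr i))) (b (Sum.inr (Sum.inr j))) = 0) := by
  obtain ⟨s, hs⟩ := exists_QFam m Q hQ (by omega)
  have hfr := finrank_comp hQ hs
  have hnt : Nontrivial (comp Q s) := Module.nontrivial_of_finrank_pos (R := F) (by omega)
  obtain ⟨x, hx⟩ := exists_nonsing (nondeg_qres (comp_nd hQ hs)) (exists_ne 0)
  have hx' : Q (x : V) ≠ 0 := hx
  have hx0 : (x : V) ≠ 0 := ne_zero_of_Q hx'
  have hxc := mem_comp.1 x.2
  obtain ⟨b, hb1, hb2, hb3⟩ := exists_basis hs (t := fun _ : Unit => (x : V)) (LinearIndependent.of_subsingleton (i := ()) hx0)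
    (fun _ => x.2) (by simp only [Fintype.card_unit]; exact hV)
  refine ⟨b.reindex (Equiv.sumComm _ _), ?_, ?_, ?_, ?_, ?_⟩
  · rw [Basis.reindex_apply]
    show Q (b (Sum.inr ())) ≠ 0
    rw [hb3]; exact hx'
  · intro i
    rw [Basis.reindex_apply, Basis.reindex_apply, Basis.reindex_apply]
    show QuadraticMap.polar Q (b (Sum.inr ())) (b (Sum.inl (Sum.inl i))) = 0 ∧ QuadraticMap.polar Q (b (Sum.inr ())) (b (Sum.inl (Sum.inr i))) = 0
    rw [hb1, hb2, hb3, QuadraticMap.polar_comm, QuadraticMap.polar_comm Q _ (s i).2]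
    exact hxc i
  · intro i
    rw [Basis.reindex_apply, Basis.reindex_apply]
    show Q (b (Sum.inl (Sum.inl i))) = 0 ∧ Q (b (Sum.inl (Sum.inr i))) = 0
    rw [hb1, hb2]
    exact hs.1 i
  · intro i j
    rw [Basis.reindex_apply, Basis.reindex_apply]
    show QuadraticMap.polar Q (b (Sum.inl (Sum.inl i))) (b (Sum.inl (Sum.inr j))) = _
    rw [hb1, hb2]
    exact (hs.2 i j).2.2
  · intro i j
    rw [Basis.reindex_apply, Basis.reindex_apply, Basis.reindex_apply, Basis.reindex_apply]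
    show QuadraticMap.polar Q (b (Sum.inl (Sum.inl i))) (b (Sum.inl (Sum.inl j))) = 0 ∧ QuadraticMap.polar Q (b (Sum.inl (Sum.inr i))) (b (Sum.inl (Sum.inr j))) = 0
    rw [hb1, hb2, hb1, hb2]
    exact ⟨(hs.2 i j).1, (hs.2 i j).2.1⟩

/-- Standard (parabolic) basis of a non-degenerate quadratic space of odd dimension 2m + 1 over a finite field (the non-degeneracy of the polar form forces the characteristic to be odd): there is a basis e_i, f_i (i < m), x with Q(e_i) = Q(f_i) = 0, B(e_i, f_j) = δ_ij (B the polar form), the e's pairwise orthogonal and the f's pairwise orthogonal, x orthogonal to all of them and Q(x) ≠ 0. -/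
theorem result {F V : Type*} [Field F] [Finite F] [AddCommGroup V] [Module F V] [FiniteDimensional F V] {m : ℕ} (hV : Module.finrank F V = 2 * m + 1) (Q : QuadraticForm F V) (hQ : (QuadraticMap.polarBilin Q).Nondegenerate) : ∃ b : Module.Basis (Unit ⊕ (Fin m ⊕ Fin m)) F V, Q (b (Sum.inl ())) ≠ 0 ∧ (∀ i, QuadraticMap.polar ⇑Q (b (Sum.inl ())) (b (Sum.inr (Sum.inl i))) = 0 ∧ QuadraticMap.polar ⇑Q (b (Sum.inl ())) (b (Sum.inr (Sum.inr i))) = 0) ∧ (∀ i, Q (b (Sum.inr (Sum.inl i))) = 0 ∧ Q (b (Sum.inr (Sum.inr i))) = 0) ∧ (∀ i j, QuadraticMap.polar ⇑Q (b (Sum.inr (Sum.inl i))) (b (Sum.inr (Sum.inr j))) = if i = j then 1 else 0) ∧ (∀ i j, QuadraticMap.polar ⇑Q (b (Sum.inr (Sum.inl i))) (b (Sum.inr (Sum.inl j))) = 0 ∧ QuadraticMap.polar ⇑Q (b (Sum.inr (Sum.inr i))) (b (Sum.inr (Sum.inr j))) = 0) := by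
  haveI : Fintype F := Fintype.ofFinite F
  exact aux hV Q hQ

end Cfsg.Agent.S2618
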