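import Cfsg.Statements.S2619
import Mathlib

set_option autoImplicit false
open Cfsg

namespace Cfsg.Agent.S2619

open Module

theorem polar_zero_eq {F V ι : Type*} [Field F] [AddCommGroup V] [Module F V] [Fintype ι] (b : Module.Basis ι F V)
    (Q Q' : QuadraticForm F V) (h : QuadraticMap.polarBilin Q = QuadraticMap.polarBilin Q') (hb : ∀ i, Q (b i) = Q' (b i)) : Q = Q' := by
  ext v
  rw [← b.sum_repr v]
  have key : ∀ s : Finset ι, Q (∑ i ∈ s, b.repr v i • b i) = Q' (∑ i ∈ s, b.repr v i • b i) := by
    classical
    intro s
    induction s using Finset.induction_on with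
    | empty => simp
    | insert a s ha ih =>
      rw [Finset.sum_insert ha, QuadraticMap.map_add Q, QuadraticMap.map_add Q', ih, QuadraticMap.map_smul Q, QuadraticMap.map_smul Q', hb]
      have h1 := congrArg (fun B : LinearMap.BilinForm F V => B (b.repr v a • b a) (∑ i ∈ s, b.repr v i • b i)) h
      have h2 : QuadraticMap.polar Q (b.repr v a • b a) (∑ i ∈ s, b.repr v i • b i) = QuadraticMap.polar Q' (b.repr v a • b a) (∑ i ∈ s, b.repr v i • b i) := h1
      rw [h2]
  exact key Finset.univ

/-- Over a finite field of characteristic two, given an alternating bilinear form B on a finite-dimensional space, a basis (v_i) and scalars (λ_i), there is exactly one quadratic form whose polar form is B and whose value at each v_i is λ_i. -/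
theorem result {F V ι : Type*} [Field F] [Finite F] [CharP F 2] [AddCommGroup V] [Module F V] [Fintype ι] (b : Module.Basis ι F V) (B : LinearMap.BilinForm F V) (hB : B.IsAlt) (c : ι → F) : ∃! Q : QuadraticForm F V, QuadraticMap.polarBilin Q = B ∧ ∀ i, Q (b i) = c i := by
  classical
  let e := Fintype.equivFin ι
  let A : LinearMap.BilinForm F V := (LinearMap.BilinForm.toMatrix b).symm (Matrix.of fun i j => if i = j then c i else if e i < e j then B (b i) (b j) else 0)
  have hA : ∀ i j, A (b i) (b j) = if i = j then c i else if e i < e j then B (b i) (b j) else 0 := by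
    intro i j
    have h1 := LinearMap.BilinForm.toMatrix_apply b A i j
    rw [← h1]
    show (LinearMap.BilinForm.toMatrix b ((LinearMap.BilinForm.toMatrix b).symm _)) i j = _
    rw [LinearEquiv.apply_symm_apply]
    rfl
  have hpol : QuadraticMap.polarBilin (LinearMap.BilinMap.toQuadraticMap A) = B := by
    apply b.ext
    intro i
    apply b.ext
    intro j
    rw [QuadraticMap.polarBilin_apply_apply, LinearMap.BilinMap.polar_toQuadraticMap, hA, hA]
    by_cases h : i = j
    · subst h
      rw [if_pos rfl, hB (b i)]
      exact CharTwo.add_self_eq_zero _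
    · rw [if_neg h, if_neg (Ne.symm h)]
      rcases lt_trichotomy (e i) (e j) with h1 | h1 | h1
      · rw [if_pos h1, if_neg (not_lt.2 h1.le), add_zero]
      · exact absurd (e.injective h1) h
      · rw [if_neg (not_lt.2 h1.le), if_pos h1, zero_add]
        have h2 := LinearMap.BilinForm.IsAlt.neg_eq hB (b i) (b j)
        rw [← h2, CharTwo.neg_eq]
  refine ⟨LinearMap.BilinMap.toQuadraticMap A, ⟨hpol, fun i => ?_⟩, ?_⟩
  · rw [LinearMap.BilinMap.toQuadraticMap_apply, hA, if_pos rfl]
  · rintro Q' ⟨h1, h2⟩
    apply polar_zero_eq b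
    · rw [h1, hpol]
    · intro i
      rw [h2, LinearMap.BilinMap.toQuadraticMap_apply, hA, if_pos rfl]

end Cfsg.Agent.S2619
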