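import Cfsg.Statements.S2621
import Cfsg.Agent.LibDiscH13

set_option autoImplicit false
open Cfsg

namespace Cfsg.Agent.S2621

open Module Cfsg.Agent.H22 CfsgLib.Disc

/-- Discriminant of an elliptic quadratic form Σ_(i<m−1) x_i y_i + z₁² + a z₁z₂ + c z₂² (binary part anisotropic) in dimension 2m over a field with q elements, q odd, m ≥ 1: the determinant of the Gram matrix of its polar form in any basis is a square if and only if m(q − 1)/2 is odd (equivalently q^m ≡ 3 (mod 4)). -/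
theorem result {F : Type*} [Field F] [Fintype F] {q : ℕ} (hF : Fintype.card F = q) (hq : Odd q) {m : ℕ} (hm : 1 ≤ m) (a c : F) (hac : ∀ z₁ z₂ : F, z₁ ^ 2 + a * z₁ * z₂ + c * z₂ ^ 2 = 0 → z₁ = 0 ∧ z₂ = 0) {ι : Type*} [Fintype ι] [DecidableEq ι] (b : Module.Basis ι F ((Fin (m - 1) ⊕ Fin (m - 1)) ⊕ Fin 2 → F)) : IsSquare (Matrix.of (fun i j : ι => QuadraticMap.polar (Cfsg.quadFormMinus (m - 1) F a c) (b i) (b j))).det ↔ ¬ Even (m * (q - 1) / 2) := by
  subst hF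
  have h2 : (2 : F) ≠ 0 := two_ne_zero_of_odd hq
  have h1 : Matrix.of (fun i j : ι => QuadraticMap.polar (Cfsg.quadFormMinus (m - 1) F a c) (b i) (b j)) = gram (qMinus (m - 1) F a c) b := by
    rw [← coe_qMinus]; rfl
  rw [h1, isSquare_gram_iff _ b (Pi.basisFun F _), gram_minus, ← isSquare_neg_one_pow h2 m]
  have hns := disc_not_square h2 a c hac
  have hd0 : a ^ 2 - 4 * c ≠ 0 := by
    intro h; apply hns; rw [h]; exact IsSquare.zero
  obtain ⟨k, rfl⟩ : ∃ k, m = k + 1 := ⟨m - 1, by omega⟩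
  have h3 : (-1 : F) ^ (k + 1 - 1) * (4 * c - a ^ 2) = (-1) ^ (k + 1) * (a ^ 2 - 4 * c) := by
    rw [Nat.add_sub_cancel, pow_succ]; ring
  rw [h3]
  have hm1 : (-1 : F) ^ (k + 1) ≠ 0 := pow_ne_zero _ (neg_ne_zero.2 one_ne_zero)
  constructor
  · intro hs hs2
    apply hns
    have h4 : a ^ 2 - 4 * c = (-1) ^ (k + 1) * (a ^ 2 - 4 * c) / (-1) ^ (k + 1) := by field_simp
    rw [h4]
    exact hs.div hs2
  · intro hs
    have h5 : IsSquare ((-1 : F) ^ (k + 1) / (a ^ 2 - 4 * c)) := isSquare_div_of_not h2 _ _ hm1 hd0 hs hns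
    have h6 : (-1 : F) ^ (k + 1) * (a ^ 2 - 4 * c) = ((-1 : F) ^ (k + 1) / (a ^ 2 - 4 * c)) * (a ^ 2 - 4 * c) ^ 2 := by
      field_simp
    rw [h6]
    exact h5.mul (IsSquare.sq _)

end Cfsg.Agent.S2621
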