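import Cfsg.Statements.S2623
import Cfsg.Agent.LibDiscH13

set_option autoImplicit false
open Cfsg

namespace Cfsg.Agent.S2623

open Module Cfsg.Agent.H22 CfsgLib.Disc

theorem gram_std {F : Type*} [Field F] {n : ℕ} (Q : QuadraticForm F (Fin n → F)) :
    Matrix.of (fun i j : Fin n => QuadraticMap.polar ⇑Q (Pi.single i 1) (Pi.single j 1)) = gram Q (Pi.basisFun F (Fin n)) := by
  ext i j
  show _ = QuadraticMap.polar Q (Pi.basisFun F (Fin n) i) (Pi.basisFun F (Fin n) j)
  rw [Pi.basisFun_apply, Pi.basisFun_apply]; rfl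

/-- Over a finite field of odd order, two quadratic forms on F^n with non-degenerate polar forms are isometric (related by an invertible linear change of variables) if and only if their discriminants (determinants of the Gram matrices of their polar forms) lie in the same square class. -/
theorem result {F : Type*} [Field F] [Fintype F] (h2 : (2 : F) ≠ 0) {n : ℕ} (Q₁ Q₂ : QuadraticForm F (Fin n → F)) (h₁ : (QuadraticMap.polarBilin Q₁).Nondegenerate) (h₂ : (QuadraticMap.polarBilin Q₂).Nondegenerate) : (∃ g : (Fin n → F) ≃ₗ[F] (Fin n → F), ∀ v, Q₂ (g v) = Q₁ v) ↔ IsSquare ((Matrix.of (fun i j : Fin n => QuadraticMap.polar ⇑Q₁ (Pi.single i 1) (Pi.single j 1))).det * (Matrix.of (fun i j : Fin n => QuadraticMap.polar ⇑Q₂ (Pi.single i 1) (Pi.single j 1))).det) := by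
  rw [gram_std, gram_std]
  exact isometric_iff h2 Q₁ Q₂ h₁ h₂ (Pi.basisFun F (Fin n)) (Pi.basisFun F (Fin n)) rfl

end Cfsg.Agent.S2623
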