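import Cfsg.Statements.S2624
import Cfsg.Agent.LibDiscH13

set_option autoImplicit false
open Cfsg

namespace Cfsg.Agent.S2624

open Module Cfsg.Agent.H22 CfsgLib.Disc

/-- For a quadratic form Q on F^n with non-degenerate polar form, F finite and n ≥ 2 even, every non-zero scalar c is the multiplier of some similarity: there is an invertible linear map g with Q(g v) = c·Q(v) for all v. -/
theorem result {F : Type*} [Field F] [Fintype F] {n : ℕ} (hn : 2 ≤ n) (he : Even n) (Q : QuadraticForm F (Fin n → F)) (hQ : (QuadraticMap.polarBilin Q).Nondegenerate) (c : F) (hc : c ≠ 0) : ∃ g : (Fin n → F) ≃ₗ[F] (Fin n → F), ∀ v, Q (g v) = c * Q v := by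
  by_cases h2 : (2 : F) = 0
  · haveI : CharP F 2 := CharTwo.of_one_ne_zero_of_two_eq_zero one_ne_zero h2
    obtain ⟨t, ht⟩ : IsSquare c := FiniteField.isSquare_of_char_two (ringChar.eq F 2) _
    have ht0 : t ≠ 0 := by rintro rfl; exact hc (by rw [ht, mul_zero])
    refine ⟨LinearEquiv.smulOfUnit (Units.mk0 t ht0), fun v => ?_⟩
    show Q (t • v) = c * Q v
    rw [qsmul, ← ht]
  · have hcQ : (QuadraticMap.polarBilin (c • Q)).Nondegenerate := by
      apply nondeg_of_left
      intro x hx
      apply hQ.1
      intro y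
      have h1 : QuadraticMap.polar (c • Q) x y = c * QuadraticMap.polar Q x y := by
        unfold QuadraticMap.polar
        simp only [QuadraticMap.smul_apply, smul_eq_mul]; ring
      have h3 := hx y
      rw [h1] at h3
      exact (mul_eq_zero.1 h3).resolve_left hc
    have h4 := (isometric_iff h2 (c • Q) Q hcQ hQ (Pi.basisFun F (Fin n)) (Pi.basisFun F (Fin n)) rfl).2 (by
      have h5 : gram (c • Q) (Pi.basisFun F (Fin n)) = c • gram Q (Pi.basisFun F (Fin n)) := by
        ext i j
        show QuadraticMap.polar (c • Q) _ _ = c * QuadraticMap.polar Q _ _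
        unfold QuadraticMap.polar
        simp only [QuadraticMap.smul_apply, smul_eq_mul]; ring
      rw [h5, Matrix.det_smul, Fintype.card_fin]
      obtain ⟨k, rfl⟩ := he
      exact ⟨c ^ k * (gram Q (Pi.basisFun F (Fin (k + k)))).det, by ring⟩)
    obtain ⟨g, hg⟩ := h4
    exact ⟨g, fun v => by rw [hg]; rfl⟩

end Cfsg.Agent.S2624
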