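import Cfsg.Statements.S2625
import Cfsg.Agent.LibDiscH13

set_option autoImplicit false
open Cfsg

namespace Cfsg.Agent.S2625

open Module Cfsg.Agent.H22 CfsgLib.Disc

/-- For a quadratic form Q on F^n with non-degenerate polar form, F finite and n odd (so |F| is odd), the multiplier of any similarity is a square: if g is an invertible linear map with Q(g v) = c·Q(v) for all v then c is a square. -/
theorem result {F : Type*} [Field F] [Fintype F] {n : ℕ} (hn : Odd n) (Q : QuadraticForm F (Fin n → F)) (hQ : (QuadraticMap.polarBilin Q).Nondegenerate) (g : (Fin n → F) ≃ₗ[F] (Fin n → F)) (c : F) (hg : ∀ v, Q (g v) = c * Q v) : IsSquare c := by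
  have h3 : gram Q ((Pi.basisFun F (Fin n)).map g) = c • gram Q (Pi.basisFun F (Fin n)) := by
    ext i j
    show QuadraticMap.polar Q ((Pi.basisFun F (Fin n)).map g i) ((Pi.basisFun F (Fin n)).map g j) = c * QuadraticMap.polar Q (Pi.basisFun F (Fin n) i) (Pi.basisFun F (Fin n) j)
    rw [Basis.map_apply, Basis.map_apply]
    unfold QuadraticMap.polar
    rw [← map_add, hg, hg, hg]; ring
  obtain ⟨t, ht, h⟩ := gram_det Q ((Pi.basisFun F (Fin n)).map g) (Pi.basisFun F (Fin n))
  rw [h3, Matrix.det_smul, Fintype.card_fin] at h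
  have hd : (gram Q (Pi.basisFun F (Fin n))).det ≠ 0 := by
    rw [gram_eq]
    exact (LinearMap.BilinForm.nondegenerate_iff_det_ne_zero (Pi.basisFun F (Fin n))).1 hQ
  have h4 : c ^ n = t ^ 2 := mul_right_cancel₀ hd h
  obtain ⟨k, rfl⟩ := hn
  by_cases hc : c = 0
  · rw [hc]; exact IsSquare.zero
  · refine ⟨t / c ^ k, ?_⟩
    have h5 : c ^ k ≠ 0 := pow_ne_zero _ hc
    field_simp
    rw [← h4]; ring

end Cfsg.Agent.S2625
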