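import Cfsg.Statements.S2626
import Cfsg.Agent.LibOSumH13

set_option autoImplicit false
open Cfsg

namespace Cfsg.Agent.S2626

open Module Cfsg.Agent.H22 CfsgLib.OSum CfsgLib.Inv2

theorem emb_comm {F V W : Type*} [Field F] [AddCommGroup V] [Module F V] [AddCommGroup W] [Module F W]
    {Q : QuadraticForm F V} {R : QuadraticForm F W} (φ : OGrp Q →* OGrp R) (g : OGrp Q) (h : g ∈ commutator (OGrp Q)) : φ g ∈ commutator (OGrp R) := by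
  have h1 : φ g ∈ (commutator (OGrp Q)).map φ := ⟨g, h, rfl⟩
  rw [commutator_def, Subgroup.map_commutator] at h1
  exact Subgroup.commutator_mono le_top le_top h1

theorem aux {F : Type*} [Field F] [Fintype F] {k l : ℕ} (Q₁ : QuadraticForm F (Fin k → F)) (Q₂ : QuadraticForm F (Fin l → F))
    (g₁ : ↥(Cfsg.isometryGroup F ⇑Q₁)) (g₂ : ↥(Cfsg.isometryGroup F ⇑Q₂)) (hg₁ : g₁ ∈ Cfsg.Omega F ⇑Q₁) (hg₂ : g₂ ∈ Cfsg.Omega F ⇑Q₂) :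
    ∃ g : ↥(Cfsg.isometryGroup F ⇑(osum Q₁ Q₂)), g ∈ Cfsg.Omega F ⇑(osum Q₁ Q₂) ∧ ((g : Matrix.GeneralLinearGroup (Fin k ⊕ Fin l) F) : Matrix (Fin k ⊕ Fin l) (Fin k ⊕ Fin l) F) = Matrix.fromBlocks ((g₁ : Matrix.GeneralLinearGroup (Fin k) F) : Matrix (Fin k) (Fin k) F) 0 0 ((g₂ : Matrix.GeneralLinearGroup (Fin l) F) : Matrix (Fin l) (Fin l) F) := by
  refine ⟨(oIso (osum Q₁ Q₂)).symm (sumHom Q₁ Q₂ (oIso Q₁ g₁, oIso Q₂ g₂)), ?_, ?_⟩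
  · rw [mem_Omega_iff, MulEquiv.apply_symm_apply]
    have h1 : sumHom Q₁ Q₂ (oIso Q₁ g₁, oIso Q₂ g₂) = (embL Q₁ Q₂).φ (oIso Q₁ g₁) * (embR Q₁ Q₂).φ (oIso Q₂ g₂) := by
      show _ = sumHom Q₁ Q₂ (oIso Q₁ g₁, 1) * sumHom Q₁ Q₂ (1, oIso Q₂ g₂)
      rw [← map_mul]; simp
    rw [h1]
    exact mul_mem (emb_comm _ _ ((mem_Omega_iff Q₁ g₁).1 hg₁)) (emb_comm _ _ ((mem_Omega_iff Q₂ g₂).1 hg₂))
  · rw [oIso_blocks, MulEquiv.apply_symm_apply]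

/-- Ω of an orthogonal direct sum contains the product of the Ω's: for quadratic forms Q₁ on F^k and Q₂ on F^l with non-degenerate polar forms (F finite) and Q = Q₁ ⊕ Q₂ on F^(k+l), if g₁ lies in Ω(Q₁) and g₂ in Ω(Q₂) (commutator subgroups of the orthogonal groups) then the block-diagonal isometry diag(g₁, g₂) lies in Ω(Q). -/
theorem result {F : Type*} [Field F] [Fintype F] {k l : ℕ} (Q₁ : QuadraticForm F (Fin k → F)) (Q₂ : QuadraticForm F (Fin l → F)) (h₁ : (QuadraticMap.polarBilin Q₁).Nondegenerate) (h₂ : (QuadraticMap.polarBilin Q₂).Nondegenerate) (g₁ : ↥(Cfsg.isometryGroup F ⇑Q₁)) (g₂ : ↥(Cfsg.isometryGroup F ⇑Q₂)) (hg₁ : g₁ ∈ Cfsg.Omega F ⇑Q₁) (hg₂ : g₂ ∈ Cfsg.Omega F ⇑Q₂) : ∃ g : ↥(Cfsg.isometryGroup F (fun v : Fin k ⊕ Fin l → F => Q₁ (v ∘ Sum.inl) + Q₂ (v ∘ Sum.inr))), g ∈ Cfsg.Omega F (fun v : Fin k ⊕ Fin l →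 F => Q₁ (v ∘ Sum.inl) + Q₂ (v ∘ Sum.inr)) ∧ ((g : Matrix.GeneralLinearGroup (Fin k ⊕ Fin l) F) : Matrix (Fin k ⊕ Fin l) (Fin k ⊕ Fin l) F) = Matrix.fromBlocks ((g₁ : Matrix.GeneralLinearGroup (Fin k) F) : Matrix (Fin k) (Fin k) F) 0 0 ((g₂ : Matrix.GeneralLinearGroup (Fin l) F) : Matrix (Fin l) (Fin l) F) := by
  exact aux Q₁ Q₂ g₁ g₂ hg₁ hg₂

end Cfsg.Agent.S2626
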