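import Cfsg.Statements.S2627
import Cfsg.Agent.LibOSumH13

set_option autoImplicit false
open Cfsg

namespace Cfsg.Agent.S2627

open Module Cfsg.Agent.H22 CfsgLib.OSum CfsgLib.Inv2

theorem aux {F : Type*} [Field F] [Fintype F] {k l : ℕ} (h : Fintype.card F ≠ 2 ∨ (k ≠ 4 ∧ k + l ≠ 4)) (Q₁ : QuadraticForm F (Fin k → F)) (Q₂ : QuadraticForm F (Fin l → F))
    (h₁ : (QuadraticMap.polarBilin Q₁).Nondegenerate) (h₂ : (QuadraticMap.polarBilin Q₂).Nondegenerate)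
    (g₁ : ↥(Cfsg.isometryGroup F ⇑Q₁)) :
    (∃ g : ↥(Cfsg.isometryGroup F ⇑(osum Q₁ Q₂)), g ∈ Cfsg.Omega F ⇑(osum Q₁ Q₂) ∧ ((g : Matrix.GeneralLinearGroup (Fin k ⊕ Fin l) F) : Matrix (Fin k ⊕ Fin l) (Fin k ⊕ Fin l) F) = Matrix.fromBlocks ((g₁ : Matrix.GeneralLinearGroup (Fin k) F) : Matrix (Fin k) (Fin k) F) 0 0 1) ↔ g₁ ∈ Cfsg.Omega F ⇑Q₁ := by
  have hf1 : finrank F (Fin k → F) = k := by rw [Module.finrank_fintype_fun_eq_card, Fintype.card_fin]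
  have hf2 : finrank F (Fin k ⊕ Fin l → F) = k + l := by
    rw [Module.finrank_fintype_fun_eq_card]; simp only [Fintype.card_sum, Fintype.card_fin]
  have hF : (∃ a : F, a ≠ 0 ∧ a ≠ 1) ∨ (finrank F (Fin k → F) ≠ 4 ∧ finrank F (Fin k ⊕ Fin l → F) ≠ 4) := by
    rw [hf1, hf2]
    exact h.imp (fun h => exists_ne_zero_one_of_card h) id
  have key := (embL Q₁ Q₂).mem_iff h₁ (osum_nondeg h₁ h₂) hF (by rw [hf1, hf2]; omega) (oIso Q₁ g₁)
  rw [mem_Omega_iff, ← key]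
  have hiff : ∀ g : ↥(Cfsg.isometryGroup F ⇑(osum Q₁ Q₂)), ((g : Matrix.GeneralLinearGroup (Fin k ⊕ Fin l) F) : Matrix (Fin k ⊕ Fin l) (Fin k ⊕ Fin l) F) = Matrix.fromBlocks ((g₁ : Matrix.GeneralLinearGroup (Fin k) F) : Matrix (Fin k) (Fin k) F) 0 0 1 ↔ oIso (osum Q₁ Q₂) g = (embL Q₁ Q₂).φ (oIso Q₁ g₁) := by
    intro g
    have h3 := oIso_blocks g₁ (1 : ↥(Cfsg.isometryGroup F ⇑Q₂)) g
    rw [map_one] at h3
    exact h3
  constructor
  · rintro ⟨g, hg, hgm⟩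
    rw [← (hiff g).1 hgm]
    exact (mem_Omega_iff _ g).1 hg
  · intro hg
    refine ⟨(oIso (osum Q₁ Q₂)).symm ((embL Q₁ Q₂).φ (oIso Q₁ g₁)), ?_, ?_⟩
    · rw [mem_Omega_iff, MulEquiv.apply_symm_apply]; exact hg
    · rw [hiff, MulEquiv.apply_symm_apply]

/-- For an orthogonal direct sum Q = Q₁ ⊕ Q₂ of quadratic forms with non-degenerate polar forms over a finite field, an isometry g₁ of Q₁ extended by the identity on the second summand lies in Ω(Q) (the commutator subgroup of the orthogonal group of Q) if and only if g₁ lies in Ω(Q₁). (Excluded: the field of two elements when the first summand or the whole space has dimension 4, where the commutator subgroup of O⁺₄(2) is smaller than the group usually called Ω.) -/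
theorem result {F : Type*} [Field F] [Fintype F] {k l : ℕ} (h : Fintype.card F ≠ 2 ∨ (k ≠ 4 ∧ k + l ≠ 4)) (Q₁ : QuadraticForm F (Fin k → F)) (Q₂ : QuadraticForm F (Fin l → F)) (h₁ : (QuadraticMap.polarBilin Q₁).Nondegenerate) (h₂ : (QuadraticMap.polarBilin Q₂).Nondegenerate) (g₁ : ↥(Cfsg.isometryGroup F ⇑Q₁)) : (∃ g : ↥(Cfsg.isometryGroup F (fun v : Fin k ⊕ Fin l → F => Q₁ (v ∘ Sum.inl) + Q₂ (v ∘ Sum.inr))), g ∈ Cfsg.Omega F (fun v : Fin k ⊕ Fin l → F => Q₁ (v ∘ Sum.inl) + Q₂ (v ∘ Sum.inr)) ∧ ((g : Matrix.GeneralLinearGroup (Fin k ⊕ Fin l) F) : Matrix (Fin k ⊕ Fin l) (Fin k ⊕ Fin l) F) = Matrix.fromBlocks ((g₁ : Matrix.GeneralLinearGroup (Fin k) F) : Matrix (Fin k) (Fin k) F) 0 0 1) ↔ g₁ ∈ Cfsg.Omega F ⇑Q₁ := by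
  exact aux h Q₁ Q₂ h₁ h₂ g₁

end Cfsg.Agent.S2627
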