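import Cfsg.Statements.S2628
import Cfsg.Agent.LibOSumH13

set_option autoImplicit false
open Cfsg

namespace Cfsg.Agent.S2628

open Module Cfsg.Agent.H22 CfsgLib.OSum CfsgLib.Inv2

def prodEq {F V W : Type*} [Field F] [AddCommGroup V] [Module F V] [AddCommGroup W] [Module F W] (p : Submodule F V) (q : Submodule F W) :
    ↥(p.prod q) ≃ₗ[F] p × q where
  toFun x := (⟨x.1.1, x.2.1⟩, ⟨x.1.2, x.2.2⟩)
  invFun y := ⟨(y.1.1, y.2.1), y.1.2, y.2.2⟩
  map_add' x y := rfl
  map_smul' c x := rfl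
  left_inv x := rfl
  right_inv y := rfl

theorem rank_double {F : Type*} [Field F] {k : ℕ} {Q : QuadraticForm F (Fin k → F)} (g : OGrp Q) :
    finrank F (LinearMap.range (nl (sumHom Q Q (g, g)).1)) = finrank F (LinearMap.range (nl g.1)) + finrank F (LinearMap.range (nl g.1)) := by
  let e : (Fin k ⊕ Fin k → F) ≃ₗ[F] (Fin k → F) × (Fin k → F) := LinearEquiv.sumArrowLequivProdArrow (Fin k) (Fin k) F F
  have h7 : (LinearMap.range (nl (sumHom Q Q (g, g)).1)).map (e : (Fin k ⊕ Fin k → F) →ₗ[F] _) = (LinearMap.range (nl g.1)).prod (LinearMap.range (nl g.1)) := by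
    ext ⟨x, y⟩
    constructor
    · rintro ⟨_, ⟨v, rfl⟩, hv⟩
      have h8 : e (nl (sumHom Q Q (g, g)).1 v) = (nl g.1 (v ∘ Sum.inl), nl g.1 (v ∘ Sum.inr)) := rfl
      have h9 : e (nl (sumHom Q Q (g, g)).1 v) = (x, y) := hv
      rw [h8] at h9
      have h10 := Prod.mk.inj h9
      exact ⟨⟨_, h10.1⟩, ⟨_, h10.2⟩⟩
    · rintro ⟨⟨a, ha⟩, ⟨b, hb⟩⟩
      refine ⟨_, ⟨Sum.elim a b, rfl⟩, ?_⟩
      have h8 : e (nl (sumHom Q Q (g, g)).1 (Sum.elim a b)) = (nl g.1 a, nl g.1 b) := rfl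
      show e (nl (sumHom Q Q (g, g)).1 (Sum.elim a b)) = (x, y)
      rw [h8]
      exact Prod.ext ha hb
  have h8 := LinearEquiv.finrank_map_eq e (LinearMap.range (nl (sumHom Q Q (g, g)).1))
  rw [← h8, h7, LinearEquiv.finrank_eq (prodEq _ _), Module.finrank_prod]

theorem diag_mem {F : Type*} [Field F] [Fintype F] {k : ℕ} (h : Fintype.card F ≠ 2 ∨ k ≠ 2) (Q : QuadraticForm F (Fin k → F))
    (hQ : (QuadraticMap.polarBilin Q).Nondegenerate) (g : OGrp Q) : sumHom Q Q (g, g) ∈ commutator (OGrp (osum Q Q)) := by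
  have hf1 : finrank F (Fin k → F) = k := by rw [Module.finrank_fintype_fun_eq_card, Fintype.card_fin]
  have hf2 : finrank F (Fin k ⊕ Fin k → F) = k + k := by
    rw [Module.finrank_fintype_fun_eq_card]; simp only [Fintype.card_sum, Fintype.card_fin]
  rcases Nat.eq_zero_or_pos k with h0 | h0
  · have hs1 : Subsingleton (Fin k → F) := Module.finrank_zero_iff.1 (by rw [hf1, h0])
    have : g = 1 := og_ext fun a => Subsingleton.elim _ _
    rw [this]
    have : sumHom Q Q (1, 1) = 1 := map_one _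
    rw [this]
    exact one_mem _
  have hR := osum_nondeg hQ hQ
  have hF1 : (∃ a : F, a ≠ 0 ∧ a ≠ 1) ∨ finrank F (Fin k ⊕ Fin k → F) ≠ 4 := by
    rw [hf2]
    rcases h with h | h
    · exact Or.inl (exists_ne_zero_one_of_card h)
    · exact Or.inr (by omega)
  have hnt' : Nontrivial (Fin k ⊕ Fin k → F) := Module.nontrivial_of_finrank_pos (R := F) (by omega)
  let δ : OGrp Q →* OGrp (osum Q Q) := (sumHom Q Q).comp ((MonoidHom.id _).prod (MonoidHom.id _))
  show δ g ∈ _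
  have hδ : ∀ v (hv : Q v ≠ 0), δ (oRefl Q v hv) = oRefl (osum Q Q) ((embL Q Q).j v) (by rw [(embL Q Q).hj]; exact hv) * oRefl (osum Q Q) ((embR Q Q).j v) (by rw [(embR Q Q).hj]; exact hv) := by
    intro v hv
    rw [← (embL Q Q).hφ v hv, ← (embR Q Q).hφ v hv]
    show sumHom Q Q (oRefl Q v hv, oRefl Q v hv) = sumHom Q Q (oRefl Q v hv, 1) * sumHom Q Q (1, oRefl Q v hv)
    rw [← map_mul]; simp
  -- the generators lie in `Ω`, at least modulo the two characters
  by_cases h2 : (2 : F) = 0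
  · haveI : CharP F 2 := CharTwo.of_one_ne_zero_of_two_eq_zero one_ne_zero h2
    rw [(omega_even hR hF1 (exists_ne 0)).2]
    have h5 : par hR hF1 (δ g) = (-1) ^ (finrank F (LinearMap.range (nl (δ g).1))) := par_eq hR hF1 (δ g)
    rw [h5, neg_one_pow_eq_one_iff_even (by decide)]
    exact ⟨_, rank_double g⟩
  · obtain ⟨_, _, _, _, _, _, _, _, _, _, hO⟩ := omega_odd h2 hR (by omega)
    rw [hO 1 one_ne_zero]
    have hF2 := exists_ne_one_of_odd h2
    constructor
    · have heq : (par hR (Or.inl hF2)).comp δ = 1 := by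
        apply MonoidHom.eq_of_eqOn_dense (closure_oRefl hQ (Or.inl hF2))
        rintro _ ⟨v, hv, rfl⟩
        show par hR (Or.inl hF2) (δ (oRefl Q v hv)) = 1
        rw [hδ, map_mul, par_refl, par_refl]; rfl
      exact DFunLike.congr_fun heq g
    · have heq : (sgnC (osum Q Q) 1).comp δ = 1 := by
        apply MonoidHom.eq_of_eqOn_dense (closure_oRefl hQ (Or.inl hF2))
        rintro _ ⟨v, hv, rfl⟩
        show sgnC (osum Q Q) 1 (δ (oRefl Q v hv)) = 1
        rw [hδ, map_mul]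
        refine (sgn_two_refl h2 hR (by omega) _ _ _ _).1 ?_
        rw [(embL Q Q).hj, (embR Q Q).hj, div_self hv]
        exact IsSquare.one
      exact DFunLike.congr_fun heq g

theorem aux {F : Type*} [Field F] [Fintype F] {k : ℕ} (h : Fintype.card F ≠ 2 ∨ k ≠ 2) (Q : QuadraticForm F (Fin k → F)) (hQ : (QuadraticMap.polarBilin Q).Nondegenerate) (g : ↥(Cfsg.isometryGroup F ⇑Q)) :
    ∃ x : ↥(Cfsg.isometryGroup F ⇑(osum Q Q)), x ∈ Cfsg.Omega F ⇑(osum Q Q) ∧ ((x : Matrix.GeneralLinearGroup (Fin k ⊕ Fin k) F) : Matrix (Fin k ⊕ Fin k) (Fin k ⊕ Fin k) F) = Matrix.fromBlocks ((g : Matrix.GeneralLinearGroup (Fin k) F) : Matrix (Fin k) (Fin k) F) 0 0 ((g : Matrix.GeneralLinearGroup (Fin k) F) : Matrix (Fin k) (Fin k) F) := by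
  refine ⟨(oIso (osum Q Q)).symm (sumHom Q Q (oIso Q g, oIso Q g)), ?_, ?_⟩
  · rw [mem_Omega_iff, MulEquiv.apply_symm_apply]
    exact diag_mem h Q hQ _
  · rw [oIso_blocks, MulEquiv.apply_symm_apply]

/-- For the orthogonal direct sum Q ⊕ Q of two copies of a quadratic form Q with non-degenerate polar form on F^k (F finite), every isometry g of Q acting diagonally, diag(g, g), lies in Ω(Q ⊕ Q), the commutator subgroup of the orthogonal group of Q ⊕ Q. (Excluded: k = 2 over the field of two elements, where Q ⊕ Q is the hyperbolic 4-space whose orthogonal group's commutator subgroup is smaller than the group usually called Ω.) -/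
theorem result {F : Type*} [Field F] [Fintype F] {k : ℕ} (h : Fintype.card F ≠ 2 ∨ k ≠ 2) (Q : QuadraticForm F (Fin k → F)) (hQ : (QuadraticMap.polarBilin Q).Nondegenerate) (g : ↥(Cfsg.isometryGroup F ⇑Q)) : ∃ x : ↥(Cfsg.isometryGroup F (fun v : Fin k ⊕ Fin k → F => Q (v ∘ Sum.inl) + Q (v ∘ Sum.inr))), x ∈ Cfsg.Omega F (fun v : Fin k ⊕ Fin k → F => Q (v ∘ Sum.inl) + Q (v ∘ Sum.inr)) ∧ ((x : Matrix.GeneralLinearGroup (Fin k ⊕ Fin k) F) : Matrix (Fin k ⊕ Fin k) (Fin k ⊕ Fin k) F) = Matrix.fromBlocks ((g : Matrix.GeneralLinearGroup (Fin k) F) : Matrix (Fin k) (Fin k) F) 0 0 ((g : Matrix.GeneralLinearGroup (Fin k) F) : Matrix (Fin k) (Fin k) F) := by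
  exact aux h Q hQ g

end Cfsg.Agent.S2628
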