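import Cfsg.Statements.S2629
import Cfsg.Agent.LibOmAH13

set_option autoImplicit false
open Cfsg

namespace Cfsg.Agent.S2629

open Module Cfsg.Agent.H22 CfsgLib.OmA CfsgLib.Inv2

theorem aux {F : Type*} [Field F] [Fintype F] (h2 : (2 : F) ≠ 0) {m : ℕ} (hm : 1 ≤ m) (Q : QuadraticForm F (Fin m ⊕ Fin m → F))
    (hQ : (QuadraticMap.polarBilin Q).Nondegenerate) {Q0 : (Fin m ⊕ Fin m → F) → F} (hQ0 : ⇑Q = Q0)
    (U : Submodule F (Fin m ⊕ Fin m → F)) (hU : Module.finrank F U = m) (hU0 : ∀ u ∈ U, Q0 u = 0)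
    (g : ↥(Cfsg.isometryGroup F Q0)) :
    Even (m - Module.finrank F ↥(U ⊓ U.map (Matrix.mulVecLin ((g : Matrix.GeneralLinearGroup (Fin m ⊕ Fin m) F) : Matrix (Fin m ⊕ Fin m) (Fin m ⊕ Fin m) F)))) ↔
      ((g : Matrix.GeneralLinearGroup (Fin m ⊕ Fin m) F) : Matrix (Fin m ⊕ Fin m) (Fin m ⊕ Fin m) F).det = 1 := by
  subst hQ0
  have hfr : finrank F (Fin m ⊕ Fin m → F) = 2 * m := by
    rw [Module.finrank_fintype_fun_eq_card]
    simp only [Fintype.card_sum, Fintype.card_fin]; omega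
  have h1 := special_iff h2 hQ (oIso Q g)
  rw [MulEquiv.symm_apply_apply, par_TS hQ _ hfr hU0 hU, neg_one_pow_eq_one_iff_even (by decide)] at h1
  have h3 : g ∈ Cfsg.specialIsometryGroup F ⇑Q ↔ ((g : Matrix.GeneralLinearGroup (Fin m ⊕ Fin m) F) : Matrix (Fin m ⊕ Fin m) (Fin m ⊕ Fin m) F).det = 1 := by
    unfold Cfsg.specialIsometryGroup
    rw [MonoidHom.mem_ker]
    constructor
    · intro h; exact congrArg Units.val h
    · intro h; exact Units.ext h
  rw [← h3, h1, map_mat_eq]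
  have h4 : finrank F ↥(U ⊓ U.map (((oIso Q g : OGrp Q) : (Fin m ⊕ Fin m → F) ≃ₗ[F] (Fin m ⊕ Fin m → F)) : (Fin m ⊕ Fin m → F) →ₗ[F] (Fin m ⊕ Fin m → F))) ≤ m := by
    conv_rhs => rw [← hU]
    exact Submodule.finrank_mono inf_le_left
  rw [Nat.even_sub h4, Nat.even_add]
  tauto

theorem U0_props (F : Type*) [Field F] (m : ℕ) : Module.finrank F ↥(LinearMap.ker (LinearMap.funLeft F F (Sum.inr : Fin m → Fin m ⊕ Fin m))) = m ∧
    ∀ u ∈ LinearMap.ker (LinearMap.funLeft F F (Sum.inr : Fin m → Fin m ⊕ Fin m)), Cfsg.quadFormPlus m F u = 0 := by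
  constructor
  · have h1 := LinearMap.finrank_range_add_finrank_ker (LinearMap.funLeft F F (Sum.inr : Fin m → Fin m ⊕ Fin m))
    have h2 : LinearMap.range (LinearMap.funLeft F F (Sum.inr : Fin m → Fin m ⊕ Fin m)) = ⊤ := by
      rw [LinearMap.range_eq_top]
      exact LinearMap.funLeft_surjective_of_injective F F _ Sum.inr_injective
    rw [h2, finrank_top, Module.finrank_fintype_fun_eq_card, Module.finrank_fintype_fun_eq_card] at h1
    simp only [Fintype.card_sum, Fintype.card_fin] at h1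
    omega
  · intro u hu
    unfold Cfsg.quadFormPlus
    apply Finset.sum_eq_zero
    intro i _
    have h1 := congrFun (LinearMap.mem_ker.1 hu) i
    have h2 : u (Sum.inr i) = 0 := h1
    rw [h2, mul_zero]

/-- For the hyperbolic form Σ x_i y_i on F^(2m) over a finite field of odd order (m ≥ 1), an isometry g preserves the class of the maximal totally singular subspace U₀ = {y = 0} (that is, m − dim(U₀ ∩ gU₀) is even) if and only if det g = 1: the stabiliser of each of the two classes of maximal totally singular subspaces is SO. -/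
theorem result {F : Type*} [Field F] [Fintype F] (h2 : (2 : F) ≠ 0) {m : ℕ} (hm : 1 ≤ m) (g : ↥(Cfsg.isometryGroup F (Cfsg.quadFormPlus m F))) : Even (m - Module.finrank F ↥(LinearMap.ker (LinearMap.funLeft F F (Sum.inr : Fin m → Fin m ⊕ Fin m)) ⊓ (LinearMap.ker (LinearMap.funLeft F F (Sum.inr : Fin m → Fin m ⊕ Fin m))).map (Matrix.mulVecLin ((g : Matrix.GeneralLinearGroup (Fin m ⊕ Fin m) F) : Matrix (Fin m ⊕ Fin m) (Fin m ⊕ Fin m) F)))) ↔ ((g : Matrix.GeneralLinearGroup (Fin m ⊕ Fin m) F) : Matrix (Fin m ⊕ Fin m) (Fin m ⊕ Fin m) F).det = 1 := by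
  exact aux h2 hm (Cfsg.Agent.H22.qPlus m F) (Cfsg.Agent.H22.nondeg_qPlus m) (Cfsg.Agent.H22.coe_qPlus m) _ (U0_props F m).1 (U0_props F m).2 g

end Cfsg.Agent.S2629
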