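import Cfsg.Statements.S2630
import Cfsg.Agent.S2629

set_option autoImplicit false
open Cfsg

namespace Cfsg.Agent.S2630

open Module Cfsg.Agent.H22 CfsgLib.OmA CfsgLib.Inv2

theorem aux {F : Type*} [Field F] [Fintype F] [CharP F 2] {m : ℕ} (hm : 1 ≤ m) (h : Fintype.card F ≠ 2 ∨ m ≠ 2) (Q : QuadraticForm F (Fin m ⊕ Fin m → F))
    (hQ : (QuadraticMap.polarBilin Q).Nondegenerate) {Q0 : (Fin m ⊕ Fin m → F) → F} (hQ0 : ⇑Q = Q0)
    (U : Submodule F (Fin m ⊕ Fin m → F)) (hU : Module.finrank F U = m) (hU0 : ∀ u ∈ U, Q0 u = 0)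
    (g : ↥(Cfsg.isometryGroup F Q0)) :
    Even (m - Module.finrank F ↥(U ⊓ U.map (Matrix.mulVecLin ((g : Matrix.GeneralLinearGroup (Fin m ⊕ Fin m) F) : Matrix (Fin m ⊕ Fin m) (Fin m ⊕ Fin m) F)))) ↔
      g ∈ Cfsg.Omega F Q0 := by
  subst hQ0
  have hfr : finrank F (Fin m ⊕ Fin m → F) = 2 * m := by
    rw [Module.finrank_fintype_fun_eq_card]
    simp only [Fintype.card_sum, Fintype.card_fin]; omega
  have hF := hF_of (F := F) (n := finrank F (Fin m ⊕ Fin m → F)) (by rw [hfr]; omega)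
  have hnt : Nontrivial (Fin m ⊕ Fin m → F) := Module.nontrivial_of_finrank_pos (R := F) (by omega)
  rw [mem_Omega_iff, (omega_even hQ hF (exists_ne 0)).2, par_TS hQ _ hfr hU0 hU, neg_one_pow_eq_one_iff_even (by decide), map_mat_eq]
  have h4 : finrank F ↥(U ⊓ U.map (((oIso Q g : OGrp Q) : (Fin m ⊕ Fin m → F) ≃ₗ[F] (Fin m ⊕ Fin m → F)) : (Fin m ⊕ Fin m → F) →ₗ[F] (Fin m ⊕ Fin m → F))) ≤ m := by
    conv_rhs => rw [← hU]
    exact Submodule.finrank_mono inf_le_left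
  rw [Nat.even_sub h4, Nat.even_add]
  tauto

/-- For the hyperbolic form Σ x_i y_i on F^(2m) over a finite field of characteristic two (m ≥ 1, excluding m = 2 over the field of two elements), an isometry g preserves the class of the maximal totally singular subspace U₀ = {y = 0} (m − dim(U₀ ∩ gU₀) even) if and only if g lies in Ω (the commutator subgroup of the orthogonal group): the stabiliser of each class is Ω. -/
theorem result {F : Type*} [Field F] [Fintype F] [CharP F 2] {m : ℕ} (hm : 1 ≤ m) (h : Fintype.card F ≠ 2 ∨ m ≠ 2) (g : ↥(Cfsg.isometryGroup F (Cfsg.quadFormPlus m F))) : Even (m - Module.finrank F ↥(LinearMap.ker (LinearMap.funLeft F F (Sum.inr : Fin m → Fin m ⊕ Fin m)) ⊓ (LinearMap.ker (LinearMap.funLeft F F (Sum.inr : Fin m → Fin m ⊕ Fin m))).map (Matrix.mulVecLin ((g : Matrix.GeneralLinearGroup (Fin m ⊕ Fin m) F) : Matrix (Fin m ⊕ Fin m) (Fin m ⊕ Fin m) F)))) ↔ g ∈ Cfsg.Omega F (Cfsg.quadFormPlus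 m F) := by
  exact aux hm h (Cfsg.Agent.H22.qPlus m F) (Cfsg.Agent.H22.nondeg_qPlus m) (Cfsg.Agent.H22.coe_qPlus m) _ (Cfsg.Agent.S2629.U0_props F m).1 (Cfsg.Agent.S2629.U0_props F m).2 g

end Cfsg.Agent.S2630
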