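import Cfsg.Statements.S2631
import Cfsg.Agent.LibOmAH13

set_option autoImplicit false
open Cfsg

namespace Cfsg.Agent.S2631

open Module Cfsg.Agent.H22 CfsgLib.OmA CfsgLib.Inv2

theorem aux {F : Type*} [Field F] [Fintype F] {m : ℕ} (hm : 1 ≤ m) (h : Fintype.card F ≠ 2 ∨ m ≠ 2) (Q : QuadraticForm F (Fin m ⊕ Fin m → F))
    (hQ : (QuadraticMap.polarBilin Q).Nondegenerate) {Q0 : (Fin m ⊕ Fin m → F) → F} (hQ0 : ⇑Q = Q0)
    (U W : Submodule F (Fin m ⊕ Fin m → F)) (hU : Module.finrank F U = m) (hW : Module.finrank F W = m) (hU0 : ∀ u ∈ U, Q0 u = 0)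
    (hW0 : ∀ w ∈ W, Q0 w = 0) (he : Even (m - Module.finrank F ↥(U ⊓ W))) :
    ∃ g : ↥(Cfsg.isometryGroup F Q0), g ∈ Cfsg.Omega F Q0 ∧ U.map (Matrix.mulVecLin ((g : Matrix.GeneralLinearGroup (Fin m ⊕ Fin m) F) : Matrix (Fin m ⊕ Fin m) (Fin m ⊕ Fin m) F)) = W := by
  subst hQ0
  have hfr : finrank F (Fin m ⊕ Fin m → F) = 2 * m := by
    rw [Module.finrank_fintype_fun_eq_card]
    simp only [Fintype.card_sum, Fintype.card_fin]; omega
  have hF := hF_of (F := F) (n := finrank F (Fin m ⊕ Fin m → F)) (by rw [hfr]; omega)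
  apply mat_of_abs
  exact max_TS_trans hQ hF hm hfr hU0 hW0 hU hW he

/-- For the hyperbolic form Σ x_i y_i on F^(2m) over a finite field (m ≥ 1, excluding m = 2 over the field of two elements), Ω (the commutator subgroup of the orthogonal group) acts transitively on each of the two classes of maximal totally singular subspaces: if U and W are m-dimensional totally singular subspaces with m − dim(U ∩ W) even, some element of Ω carries U to W. -/
theorem result {F : Type*} [Field F] [Fintype F] {m : ℕ} (hm : 1 ≤ m) (h : Fintype.card F ≠ 2 ∨ m ≠ 2) (U W : Submodule F (Fin m ⊕ Fin m → F)) (hU : Module.finrank F U = m) (hW : Module.finrank F W = m) (hU0 : ∀ u ∈ U, Cfsg.quadFormPlus m F u = 0) (hW0 : ∀ w ∈ W, Cfsg.quadFormPlus m F w = 0) (he : Even (m - Module.finrank F ↥(U ⊓ W))) : ∃ g : ↥(Cfsg.isometryGroup F (Cfsg.quadFormPlus m F)), g ∈ Cfsg.Omega F (Cfsg.quadFormPlus m F) ∧ U.map (Matrix.mulVecLin ((g : Matrix.GeneralLinearGroup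 (Fin m ⊕ Fin m) F) : Matrix (Fin m ⊕ Fin m) (Fin m ⊕ Fin m) F)) = W := by
  exact aux hm h (Cfsg.Agent.H22.qPlus m F) (Cfsg.Agent.H22.nondeg_qPlus m) (Cfsg.Agent.H22.coe_qPlus m) U W hU hW hU0 hW0 he

end Cfsg.Agent.S2631
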