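import Cfsg.Statements.S2633
import Cfsg.Agent.LibOmAH13

set_option autoImplicit false
open Cfsg

namespace Cfsg.Agent.S2633

open Module Cfsg.Agent.H22 CfsgLib.OmA CfsgLib.Inv2

/-- Ω is transitive on totally singular subspaces of each dimension less than half the dimension: for a quadratic form Q on F^n with non-degenerate polar form (F finite; excluding dimension 4 over the field of two elements), if U and W are subspaces of the same dimension k with 2k < n on which Q vanishes, then some element of Ω (the commutator subgroup of the orthogonal group) carries U to W. -/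
theorem result {F : Type*} [Field F] [Fintype F] {n : ℕ} (h : Fintype.card F ≠ 2 ∨ n ≠ 4) (Q : QuadraticForm F (Fin n → F)) (hQ : (QuadraticMap.polarBilin Q).Nondegenerate) (U W : Submodule F (Fin n → F)) {k : ℕ} (hk : 2 * k < n) (hU : Module.finrank F U = k) (hW : Module.finrank F W = k) (hU0 : ∀ u ∈ U, Q u = 0) (hW0 : ∀ w ∈ W, Q w = 0) : ∃ g : ↥(Cfsg.isometryGroup F ⇑Q), g ∈ Cfsg.Omega F ⇑Q ∧ U.map (Matrix.mulVecLin ((g : Matrix.GeneralLinearGroup (Fin n) F) : Matrix (Fin n) (Fin n) F)) = W := by
  have hfr : finrank F (Fin n → F) = n := by rw [Module.finrank_fintype_fun_eq_card, Fintype.card_fin]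
  have hF := hF_of (F := F) (n := finrank F (Fin n → F)) (by rw [hfr]; exact h)
  apply mat_of_abs
  by_cases hU1 : U = ⊥
  · have hW1 : W = ⊥ := by
      rw [hU1, finrank_bot] at hU
      exact Submodule.finrank_eq_zero.1 (by rw [hW, ← hU])
    refine ⟨1, one_mem _, ?_⟩
    rw [hU1, hW1, Submodule.map_bot]
  · obtain ⟨g, hg⟩ := witt_sub hQ U W (LinearEquiv.ofFinrankEq U W (by rw [hU, hW])) (fun u => by
      rw [hW0 _ (LinearEquiv.ofFinrankEq U W (by rw [hU, hW]) u).2, hU0 _ u.2])
    exact exists_omega_of_covers (covers_TS hQ hF hU0 hU1 (by rw [hU, hfr]; exact hk)) g hg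

end Cfsg.Agent.S2633
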