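import Cfsg.Statements.S2634
import Cfsg.Agent.LibOmAH13

set_option autoImplicit false
open Cfsg

namespace Cfsg.Agent.S2634

open Module Cfsg.Agent.H22 CfsgLib.OmA CfsgLib.Inv2

/-- Over a finite field of characteristic two, Ω (the commutator subgroup of the orthogonal group of a quadratic form Q on F^n with non-degenerate polar form; excluding dimension 4 over the field of two elements) acts transitively on the non-singular 1-spaces: for u, v with Q(u) ≠ 0 and Q(v) ≠ 0 some element of Ω carries the line through u to the line through v. -/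
theorem result {F : Type*} [Field F] [Fintype F] [CharP F 2] {n : ℕ} (h : Fintype.card F ≠ 2 ∨ n ≠ 4) (Q : QuadraticForm F (Fin n → F)) (hQ : (QuadraticMap.polarBilin Q).Nondegenerate) (u v : Fin n → F) (hu : Q u ≠ 0) (hv : Q v ≠ 0) : ∃ g : ↥(Cfsg.isometryGroup F ⇑Q), g ∈ Cfsg.Omega F ⇑Q ∧ (F ∙ ((g : Matrix.GeneralLinearGroup (Fin n) F) : Matrix (Fin n) (Fin n) F).mulVec u) = F ∙ v := by
  have hF := hF_of (F := F) (n := finrank F (Fin n → F)) (by rw [Module.finrank_fintype_fun_eq_card, Fintype.card_fin]; exact h)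
  obtain ⟨g, hg, c, hc, hgu⟩ := nonsing_trans hQ hF hu hv
  refine ⟨(oIso Q).symm g, ?_, ?_⟩
  · rw [mem_Omega_iff, MulEquiv.apply_symm_apply]; exact hg
  · rw [← oIso_apply, MulEquiv.apply_symm_apply, hgu]
    exact Submodule.span_singleton_smul_eq (isUnit_iff_ne_zero.2 hc) v

end Cfsg.Agent.S2634
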