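import Cfsg.Statements.S2635
import Cfsg.Agent.LibOmAH13

set_option autoImplicit false
open Cfsg

namespace Cfsg.Agent.S2635

open Module Cfsg.Agent.H22 CfsgLib.OmA CfsgLib.Inv2

/-- Over a finite field of characteristic two, for a quadratic form Q on F^n with non-degenerate polar form, n ≥ 2, other than dimension 4 over the field of two elements, Ω (the commutator subgroup of the orthogonal group) is exactly the subgroup generated by the products of two reflections (orthogonal transvections) x ↦ x − Q(v)⁻¹ f(x, v) v, Q(v) ≠ 0: the products of an even number of reflections. -/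
theorem result {F : Type*} [Field F] [Fintype F] [CharP F 2] {n : ℕ} (hn : 2 ≤ n) (h : Fintype.card F ≠ 2 ∨ n ≠ 4) (Q : QuadraticForm F (Fin n → F)) (hQ : (QuadraticMap.polarBilin Q).Nondegenerate) : Cfsg.Omega F ⇑Q = Subgroup.closure {g : ↥(Cfsg.isometryGroup F ⇑Q) | ∃ u v : Fin n → F, Q u ≠ 0 ∧ Q v ≠ 0 ∧ ((g : Matrix.GeneralLinearGroup (Fin n) F) : Matrix (Fin n) (Fin n) F) = Cfsg.reflectionMatrix ⇑Q u * Cfsg.reflectionMatrix ⇑Q v} := by
  have hfr : finrank F (Fin n → F) = n := by rw [Module.finrank_fintype_fun_eq_card, Fintype.card_fin]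
  have hF := hF_of (F := F) (n := finrank F (Fin n → F)) (by rw [hfr]; exact h)
  have hV : ∃ x : Fin n → F, x ≠ 0 := ⟨Pi.single ⟨0, by omega⟩ 1, by
    intro h0
    have := congrFun h0 ⟨0, by omega⟩
    rw [Pi.single_eq_same] at this
    exact one_ne_zero this⟩
  ext x
  rw [mem_Omega_iff, omega_closure hQ hF hV]
  have himg : (oIso Q : ↥(Cfsg.isometryGroup F ⇑Q) →* OGrp Q) '' {g : ↥(Cfsg.isometryGroup F ⇑Q) | ∃ u v : Fin n → F, Q u ≠ 0 ∧ Q v ≠ 0 ∧ ((g : Matrix.GeneralLinearGroup (Fin n) F) : Matrix (Fin n) (Fin n) F) = Cfsg.reflectionMatrix ⇑Q u * Cfsg.reflectionMatrix ⇑Q v} =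
      {g : OGrp Q | ∃ (u v : Fin n → F) (hu : Q u ≠ 0) (hv : Q v ≠ 0), g = oRefl Q u hu * oRefl Q v hv} := by
    have hM : ∀ (u v : Fin n → F) (hu : Q u ≠ 0) (hv : Q v ≠ 0) (y : Fin n → F),
        (Cfsg.reflectionMatrix ⇑Q u * Cfsg.reflectionMatrix ⇑Q v).mulVec y = (oRefl Q u hu * oRefl Q v hv).1 y := by
      intro u v hu hv y
      rw [← Matrix.mulVec_mulVec, reflectionMatrix_mulVec, reflectionMatrix_mulVec]
      show _ = refl Q u hu (refl Q v hv y)
      rw [refl_apply, refl_apply]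
    ext g
    constructor
    · rintro ⟨y, ⟨u, v, hu, hv, hy⟩, rfl⟩
      refine ⟨u, v, hu, hv, ?_⟩
      apply Subtype.ext
      exact (oIso_eq_iff Q y _ _ (hM u v hu hv)).2 hy
    · rintro ⟨u, v, hu, hv, rfl⟩
      refine ⟨(oIso Q).symm (oRefl Q u hu * oRefl Q v hv), ⟨u, v, hu, hv, ?_⟩, ?_⟩
      · apply (oIso_eq_iff Q _ _ _ (hM u v hu hv)).1
        rw [MulEquiv.apply_symm_apply]
      · exact MulEquiv.apply_symm_apply _ _
  rw [← himg, ← MonoidHom.map_closure, Subgroup.mem_map]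
  constructor
  · rintro ⟨y, hy, hyx⟩
    have : y = x := (oIso Q).injective hyx
    rw [← this]; exact hy
  · intro hx
    exact ⟨x, hx, rfl⟩

end Cfsg.Agent.S2635
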