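import Cfsg.Statements.S2636
import Mathlib

set_option autoImplicit false
open Cfsg

namespace Cfsg.Agent.S2636

open Module

/-- the fixed field of `σ` -/
noncomputable abbrev fix {F : Type*} [Field F] (σ : F ≃+* F) : Subfield F := FixedPoints.subfield (Subgroup.zpowers σ) F

theorem mem_fix {F : Type*} [Field F] (σ : F ≃+* F) (x : F) : x ∈ fix σ ↔ σ x = x := by
  constructor
  · intro h
    exact h ⟨σ, Subgroup.mem_zpowers σ⟩
  · intro h
    rintro ⟨τ, k, rfl⟩
    show (σ ^ k) x = x
    have hfix : σ ∈ MulAction.stabilizer (F ≃+* F) x := h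
    exact zpow_mem hfix k

theorem card_fix {F : Type*} [Field F] [Fintype F] {q₀ r : ℕ} (hr : r.Prime) (hF : Fintype.card F = q₀ ^ r) (σ : F ≃+* F) (hσ : orderOf σ = r) :
    Nat.card (fix σ) = q₀ := by
  classical
  have hpos : 0 < orderOf σ := by rw [hσ]; exact hr.pos
  haveI : Finite (Subgroup.zpowers σ) := Nat.finite_of_card_ne_zero (by rw [Nat.card_zpowers]; omega)
  haveI : Fintype (Subgroup.zpowers σ) := Fintype.ofFinite _
  have h1 : finrank (fix σ) F = r := by
    rw [FixedPoints.finrank_eq_card, ← Nat.card_eq_fintype_card, Nat.card_zpowers, hσ]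
  have h2 : Nat.card F = Nat.card (fix σ) ^ r := by
    rw [Module.natCard_eq_pow_finrank (K := fix σ), h1]
  rw [Nat.card_eq_fintype_card, hF] at h2
  exact (Nat.pow_left_injective hr.ne_zero h2).symm

/-- Centraliser of a field automorphism in PGL_n: let F be the field with q = q₀^r elements, σ a field automorphism of F of prime order r (so its fixed field has q₀ elements) and n ≥ 1. The invertible matrices g whose entrywise image under σ is a scalar multiple of g — those whose coset modulo scalars is fixed by σ — number (q − 1)/(q₀ − 1) · |GL_n(q₀)|; equivalently the centraliser in PGL_n(q) of the induced automorphism has the order of PGL_n(q₀). -/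
theorem result {F : Type*} [Field F] [Fintype F] {q₀ r n : ℕ} (hr : r.Prime) (hn : 1 ≤ n) (hF : Fintype.card F = q₀ ^ r) (σ : F ≃+* F) (hσ : orderOf σ = r) : Nat.card {g : GL (Fin n) F // ∃ c : F, c ≠ 0 ∧ (g : Matrix (Fin n) (Fin n) F).map σ = c • (g : Matrix (Fin n) (Fin n) F)} = (q₀ ^ r - 1) / (q₀ - 1) * ∏ i : Fin n, (q₀ ^ n - q₀ ^ (i : ℕ)) := by
  classical
  haveI : Nonempty (Fin n) := ⟨⟨0, by omega⟩⟩
  have hE := card_fix hr hF σ hσ
  have hq : 1 < q₀ := by
    rw [← hE, Nat.card_eq_fintype_card]; exact Fintype.one_lt_card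
  let ι : GL (Fin n) (fix σ) →* GL (Fin n) F := Matrix.GeneralLinearGroup.map (fix σ).subtype
  have hι : ∀ h i j, ((ι h : GL (Fin n) F) : Matrix (Fin n) (Fin n) F) i j = (((h : Matrix (Fin n) (Fin n) (fix σ)) i j : fix σ) : F) := fun h i j => rfl
  let s : Fˣ →* GL (Fin n) F := Units.map (Matrix.scalar (Fin n) : F →+* Matrix (Fin n) (Fin n) F).toMonoidHom
  have hs : ∀ (d : Fˣ) (g : GL (Fin n) F), ((s d * g : GL (Fin n) F) : Matrix (Fin n) (Fin n) F) = (d : F) • (g : Matrix (Fin n) (Fin n) F) := by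
    intro d g
    rw [Units.val_mul]
    show Matrix.scalar (Fin n) (d : F) * _ = _
    rw [Matrix.scalar_apply, ← Matrix.smul_one_eq_diagonal, Matrix.smul_mul, one_mul]
  have hcomm : ∀ (d : Fˣ) (g : GL (Fin n) F), Commute (s d) g := by
    intro d g
    apply Units.ext
    rw [Units.val_mul, Units.val_mul]
    exact Matrix.scalar_commute (d : F) (fun r => Commute.all _ _) _
  let Ψ : Fˣ × GL (Fin n) (fix σ) →* GL (Fin n) F := MonoidHom.noncommCoprod s ι (fun d g => hcomm d (ι g))
  have hΨ : ∀ x, Ψ x = s x.1 * ι x.2 := fun x => rfl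
  have hS : ∀ g : GL (Fin n) F, (∃ c : F, c ≠ 0 ∧ (g : Matrix (Fin n) (Fin n) F).map σ = c • (g : Matrix (Fin n) (Fin n) F)) ↔ g ∈ Ψ.range := by
    intro g
    constructor
    · rintro ⟨c, hc0, hc⟩
      have hg0 : (g : Matrix (Fin n) (Fin n) F) ≠ 0 := g.ne_zero
      obtain ⟨i0, j0, hd0⟩ : ∃ i j, (g : Matrix (Fin n) (Fin n) F) i j ≠ 0 := by
        by_contra hcon; push Not at hcon; exact hg0 (by ext i j; exact hcon i j)
      set d := (g : Matrix (Fin n) (Fin n) F) i0 j0 with hd
      have hent : ∀ i j, σ ((g : Matrix (Fin n) (Fin n) F) i j) = c * (g : Matrix (Fin n) (Fin n) F) i j := by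
        intro i j
        have := congrFun (congrFun hc i) j
        simpa using this
      have hmem : ∀ i j, d⁻¹ * (g : Matrix (Fin n) (Fin n) F) i j ∈ fix σ := by
        intro i j
        rw [mem_fix, map_mul, map_inv₀, hent, hd, hent, mul_inv]
        have h0 : (g : Matrix (Fin n) (Fin n) F) i0 j0 ≠ 0 := hd0
        field_simp
      let h : Matrix (Fin n) (Fin n) (fix σ) := fun i j => ⟨d⁻¹ * (g : Matrix (Fin n) (Fin n) F) i j, hmem i j⟩
      have hmap : h.map (fix σ).subtype = d⁻¹ • (g : Matrix (Fin n) (Fin n) F) := by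
        ext i j; rfl
      have hdet : h.det ≠ 0 := by
        intro h0
        have h1 : (h.map (fix σ).subtype).det = 0 := by
          have := RingHom.map_det (fix σ).subtype h
          rw [h0, map_zero] at this
          exact this.symm
        rw [hmap, Matrix.det_smul] at h1
        have h2 : (g : Matrix (Fin n) (Fin n) F).det ≠ 0 := by
          have := (Matrix.isUnit_iff_isUnit_det _).mp g.isUnit
          exact this.ne_zero
        exact mul_ne_zero (pow_ne_zero _ (inv_ne_zero hd0)) h2 h1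
      refine ⟨(Units.mk0 d hd0, Matrix.GeneralLinearGroup.mkOfDetNeZero h hdet), ?_⟩
      apply Units.ext
      rw [hΨ, hs]
      ext i j
      rw [Matrix.smul_apply, hι]
      show d * (d⁻¹ * (g : Matrix (Fin n) (Fin n) F) i j) = _
      rw [mul_inv_cancel_left₀ hd0]
    · rintro ⟨⟨d, h⟩, rfl⟩
      refine ⟨σ (d : F) / d, div_ne_zero ((map_ne_zero σ).mpr d.ne_zero) d.ne_zero, ?_⟩
      rw [hΨ, hs]
      ext i j
      rw [Matrix.map_apply, Matrix.smul_apply, Matrix.smul_apply, Matrix.smul_apply, smul_eq_mul, map_mul, hι]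
      have : σ (((h : Matrix (Fin n) (Fin n) (fix σ)) i j : fix σ) : F) = (((h : Matrix (Fin n) (Fin n) (fix σ)) i j : fix σ) : F) :=
        (mem_fix σ _).mp ((h : Matrix (Fin n) (Fin n) (fix σ)) i j).2
      rw [this]
      have := d.ne_zero
      simp only [smul_eq_mul]
      field_simp
  have hcard1 : Nat.card {g : GL (Fin n) F // ∃ c : F, c ≠ 0 ∧ (g : Matrix (Fin n) (Fin n) F).map σ = c • (g : Matrix (Fin n) (Fin n) F)} = Nat.card Ψ.range :=
    Nat.card_congr (Equiv.subtypeEquivRight hS)
  have hker : Nat.card Ψ.ker = q₀ - 1 := by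
    have h0 : Nat.card (fix σ)ˣ = q₀ - 1 := by
      rw [Nat.card_eq_fintype_card, Fintype.card_units, ← Nat.card_eq_fintype_card, hE]
    rw [← h0]
    symm
    refine Nat.card_congr (Equiv.ofBijective (fun e => ⟨(Units.map (fix σ).subtype.toMonoidHom e, Units.map (Matrix.scalar (Fin n) : (fix σ) →+* Matrix (Fin n) (Fin n) (fix σ)).toMonoidHom e⁻¹), ?_⟩) ⟨?_, ?_⟩)
    · rw [MonoidHom.mem_ker, hΨ]
      apply Units.ext
      rw [hs]
      ext i j
      rw [Matrix.smul_apply, hι]
      show (e : F) * (((Matrix.scalar (Fin n) ((e⁻¹ : (fix σ)ˣ) : fix σ)) i j : fix σ) : F) = (1 : Matrix (Fin n) (Fin n) F) i j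
      rw [Matrix.scalar_apply]
      by_cases hij : i = j
      · subst hij
        rw [Matrix.diagonal_apply_eq, Matrix.one_apply_eq]
        have : ((e : fix σ) : F) * (((e⁻¹ : (fix σ)ˣ) : fix σ) : F) = (((e : fix σ) * ((e⁻¹ : (fix σ)ˣ) : fix σ) : fix σ) : F) := rfl
        rw [this, Units.mul_inv]; rfl
      · rw [Matrix.diagonal_apply_ne _ hij, Matrix.one_apply_ne hij]
        simp
    · intro e e' hee
      have h1 := congrArg (fun x => ((x.1.1 : Fˣ) : F)) hee
      apply Units.ext
      exact Subtype.ext h1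
    · rintro ⟨⟨d, h⟩, hdh⟩
      rw [MonoidHom.mem_ker, hΨ] at hdh
      have h1 := congrArg (fun g : GL (Fin n) F => (g : Matrix (Fin n) (Fin n) F)) hdh
      simp only [hs] at h1
      have hent : ∀ i j, (d : F) * (((h : Matrix (Fin n) (Fin n) (fix σ)) i j : fix σ) : F) = (1 : Matrix (Fin n) (Fin n) F) i j := by
        intro i j
        have := congrFun (congrFun h1 i) j
        rw [Matrix.smul_apply, hι] at this
        exact this
      let i0 : Fin n := ⟨0, by omega⟩
      have hd1 := hent i0 i0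
      rw [Matrix.one_apply_eq] at hd1
      have hinv : (d : F)⁻¹ = (((h : Matrix (Fin n) (Fin n) (fix σ)) i0 i0 : fix σ) : F) := by
        exact (eq_inv_of_mul_eq_one_right hd1).symm
      have hdm : (d : F) ∈ fix σ := by
        have : (d : F)⁻¹ ∈ fix σ := by rw [hinv]; exact ((h : Matrix (Fin n) (Fin n) (fix σ)) i0 i0).2
        have h2 := (fix σ).inv_mem this
        rwa [inv_inv] at h2
      refine ⟨Units.mk0 ⟨(d : F), hdm⟩ (fun h => d.ne_zero (congrArg Subtype.val h)), ?_⟩
      apply Subtype.ext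
      apply Prod.ext
      · exact Units.ext rfl
      · apply Units.ext
        ext i j
        show (((Matrix.scalar (Fin n) (((Units.mk0 (⟨(d : F), hdm⟩ : fix σ) _)⁻¹ : (fix σ)ˣ) : fix σ)) i j : fix σ) : F) = _
        rw [Matrix.scalar_apply]
        have h3 := hent i j
        by_cases hij : i = j
        · subst hij
          rw [Matrix.diagonal_apply_eq]
          rw [Matrix.one_apply_eq] at h3
          rw [Units.val_inv_eq_inv_val, Units.val_mk0]
          show (d : F)⁻¹ = _
          exact (eq_inv_of_mul_eq_one_right h3).symm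
        · rw [Matrix.diagonal_apply_ne _ hij]
          rw [Matrix.one_apply_ne hij] at h3
          have h4 := (mul_eq_zero.mp h3).resolve_left d.ne_zero
          rw [h4]; rfl
  have hprod : Nat.card Ψ.range * (q₀ - 1) = (q₀ ^ r - 1) * ∏ i : Fin n, (q₀ ^ n - q₀ ^ (i : ℕ)) := by
    have h1 := Subgroup.card_mul_index Ψ.ker
    rw [Subgroup.index_ker, hker, Nat.card_prod, Nat.card_eq_fintype_card (α := Fˣ), Fintype.card_units, hF, Matrix.card_GL_field,
      ← Nat.card_eq_fintype_card, hE] at h1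
    rw [mul_comm, h1]
  obtain ⟨k, hk⟩ : q₀ - 1 ∣ q₀ ^ r - 1 := by
    have := Nat.sub_dvd_pow_sub_pow q₀ 1 r
    rwa [one_pow] at this
  rw [hcard1, hk, Nat.mul_div_cancel_left _ (by omega)]
  rw [hk] at hprod
  apply Nat.eq_of_mul_eq_mul_right (show 0 < q₀ - 1 by omega)
  rw [hprod]; ring

end Cfsg.Agent.S2636
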