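import Cfsg.Statements.S2637
import Cfsg.Agent.LibQClsH13
import Cfsg.Agent.LibPG5H13
import Cfsg.Agent.LibSemi2H13
import Cfsg.Agent.LibRSym4H13
import Cfsg.Agent.LibH22HermO2

set_option autoImplicit false
open Cfsg

namespace Cfsg.Agent.S2637

open Module Polynomial CfsgLib.Typ CfsgLib.QCls CfsgLib.Semi CfsgLib.GUemb CfsgLib.RS Cfsg.Agent.H22

section
variable {F : Type*} [Field F] [Fintype F]

theorem no_root (hq : Fintype.card F % 3 = 2) (x : F) : x ^ 2 + x + 1 ≠ 0 := by
  intro h
  have h3 : x ^ 3 = 1 := by linear_combination (x - 1) * h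
  have hx0 : x ≠ 0 := by
    rintro rfl
    norm_num at h
  have h4 : x ^ (Fintype.card F - 1) = 1 := FiniteField.pow_card_sub_one_eq_one x hx0
  have h5 : x = 1 := by
    obtain ⟨k, hk⟩ : ∃ k, Fintype.card F - 1 = 3 * k + 1 := ⟨(Fintype.card F - 2) / 3, by omega⟩
    rw [hk, pow_succ, pow_mul, h3, one_pow, one_mul] at h4
    exact h4
  rw [h5] at h
  have h6 : ((3 : ℕ) : F) = 0 := by push_cast; linear_combination h
  obtain ⟨p, hp⟩ := CharP.exists F
  have hpp := CharP.char_is_prime F p
  have h7 : p ∣ 3 := (CharP.cast_eq_zero_iff F p 3).1 h6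
  have h8 : p = 3 := (Nat.prime_dvd_prime_iff_eq hpp Nat.prime_three).1 h7
  have h9 : p ∣ Fintype.card F := (CharP.cast_eq_zero_iff F p _).1 (FiniteField.cast_card_eq_zero F)
  rw [h8] at h9
  omega

theorem three_ne (hq : Fintype.card F % 3 = 2) : ((3 : ℕ) : F) ≠ 0 := by
  intro h6
  obtain ⟨p, hp⟩ := CharP.exists F
  have hpp := CharP.char_is_prime F p
  have h7 : p ∣ 3 := (CharP.cast_eq_zero_iff F p 3).1 h6
  have h8 : p = 3 := (Nat.prime_dvd_prime_iff_eq hpp Nat.prime_three).1 h7
  have h9 : p ∣ Fintype.card F := (CharP.cast_eq_zero_iff F p _).1 (FiniteField.cast_card_eq_zero F)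
  rw [h8] at h9
  omega

theorem aniso (hq : Fintype.card F % 3 = 2) : ∀ z₁ z₂ : F, z₁ ^ 2 + 1 * z₁ * z₂ + 1 * z₂ ^ 2 = 0 → z₁ = 0 ∧ z₂ = 0 := by
  intro z₁ z₂ h
  have h2 : z₂ = 0 := by
    by_contra h2
    apply no_root hq (z₁ / z₂)
    field_simp
    linear_combination h
  subst h2
  refine ⟨?_, rfl⟩
  have : z₁ ^ 2 = 0 := by linear_combination h
  exact pow_eq_zero_iff (by norm_num) |>.1 this

theorem irr (hq : Fintype.card F % 3 = 2) : (X ^ 2 + (X + C 1) : F[X]).Monic ∧ Irreducible (X ^ 2 + (X + C 1) : F[X]) := by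
  have hlt : (X + C 1 : F[X]).degree < 2 := by
    rw [degree_X_add_C]; norm_num
  have hdeg : (X ^ 2 + (X + C 1) : F[X]).degree = 2 := by
    rw [degree_add_eq_left_of_degree_lt (by rw [degree_X_pow]; exact hlt), degree_X_pow]; rfl
  have hnat : (X ^ 2 + (X + C 1) : F[X]).natDegree = 2 := natDegree_eq_of_degree_eq_some hdeg
  have hmonic : (X ^ 2 + (X + C 1) : F[X]).Monic := monic_X_pow_add hlt
  refine ⟨hmonic, ?_⟩
  classical
  rw [hmonic.irreducible_iff_roots_eq_zero_of_degree_le_three (by rw [hnat]) (by rw [hnat]; norm_num)]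
  apply Multiset.eq_zero_of_forall_notMem
  intro x hx
  rw [mem_roots hmonic.ne_zero, IsRoot.def] at hx
  simp only [eval_add, eval_pow, eval_X, eval_C] at hx
  exact no_root hq x (by linear_combination hx)

theorem kd_irr {f0 : F[X]} (h1 : f0.Monic) (h2 : Irreducible f0) {U : Type*} [AddCommGroup U] [Module F U] [FiniteDimensional F U] {T : End F U} (hT : aeval T f0 = 0)
    (f : F[X]) (hf : f.Monic) (hfi : Irreducible f) (k : ℕ) : (f = f0 ∧ k ≠ 0 → kd T f k = finrank F U) ∧ (¬ (f = f0 ∧ k ≠ 0) → kd T f k = 0) := by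
  unfold kd
  constructor
  · rintro ⟨rfl, hk⟩
    rw [map_pow, hT, zero_pow hk, LinearMap.ker_zero, finrank_top]
  · intro hne
    by_cases hk : k = 0
    · subst hk
      rw [pow_zero, map_one, Submodule.finrank_eq_zero]
      exact LinearMap.ker_id
    · have h : f ≠ f0 := fun h => hne ⟨h, hk⟩
      rw [Submodule.finrank_eq_zero, LinearMap.ker_eq_bot']
      intro v hv
      have hcop : IsCoprime (f ^ k) f0 := by
        apply IsCoprime.pow_left
        rw [hfi.coprime_iff_not_dvd]
        intro hd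
        exact h (eq_of_monic_of_associated hf h1 (hfi.associated_of_dvd h2 hd))
      obtain ⟨x, y, hxy⟩ := hcop
      have h1 := congrArg (fun q : F[X] => aeval T q v) hxy
      simp only [map_add, map_mul, hT, mul_zero, add_zero, map_one, Module.End.mul_apply, hv, map_zero, Module.End.one_apply] at h1
      exact h1.symm

theorem conj_irr {f0 : F[X]} (h1 : f0.Monic) (h2 : Irreducible f0) {U U' : Type*} [AddCommGroup U] [Module F U] [FiniteDimensional F U] [AddCommGroup U'] [Module F U'] [FiniteDimensional F U']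
    (hU : finrank F U = finrank F U') {T : End F U} {T' : End F U'} (hT : aeval T f0 = 0) (hT' : aeval T' f0 = 0) : ∃ ψ : U ≃ₗ[F] U', ∀ v, ψ (T v) = T' (ψ v) := by
  apply conj_of_kd
  intro f hf hfi k
  by_cases h : f = f0 ∧ k ≠ 0
  · rw [(kd_irr h1 h2 hT f hf hfi k).1 h, (kd_irr h1 h2 hT' f hf hfi k).1 h, hU]
  · rw [(kd_irr h1 h2 hT f hf hfi k).2 h, (kd_irr h1 h2 hT' f hf hfi k).2 h]

end

section
variable {F K : Type*} [Field F] [Fintype F] [Field K] [Fintype K] [Algebra F K] (hK : Fintype.card K = Fintype.card F ^ 2) (hq : Fintype.card F % 3 = 2) {ω : K} (hω : ω ^ 2 + ω + 1 = 0)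
include hK hq hω

omit hK hq [Fintype F] [Fintype K] in
theorem w3 : ω ^ 3 = 1 := by linear_combination (ω - 1) * hω

omit hK hq [Fintype F] [Fintype K] in
theorem w0 : ω ≠ 0 := by
  rintro rfl
  norm_num at hω

theorem bar_w : bar F ω = ω ^ 2 := by
  rw [bar_apply]
  obtain ⟨k, hk⟩ : ∃ k, Fintype.card F = 3 * k + 2 := ⟨(Fintype.card F - 2) / 3, by omega⟩
  rw [hk, pow_add, pow_mul, w3 hω, one_pow, one_mul]

/-- `1, ω` generate the quadratic extension -/
theorem gen (z : K) : ∃ a b : F, z = algebraMap F K a + algebraMap F K b * ω := by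
  have hno : ∀ x : F, ω ≠ algebraMap F K x := by
    intro x hx
    apply no_root hq x
    apply (algebraMap F K).injective
    rw [hx] at hω
    rw [map_add, map_add, map_pow, map_one, map_zero, hω]
  let φ : (F × F) →ₗ[F] K :=
    { toFun := fun p => algebraMap F K p.1 + algebraMap F K p.2 * ω
      map_add' := fun p q => by simp only [Prod.fst_add, Prod.snd_add, map_add]; ring
      map_smul' := fun c p => by
        show algebraMap F K (c * p.1) + algebraMap F K (c * p.2) * ω = c • (algebraMap F K p.1 + algebraMap F K p.2 * ω)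
        rw [Algebra.smul_def, map_mul, map_mul]; ring }
  have hφi : Function.Injective φ := by
    rw [← LinearMap.ker_eq_bot, LinearMap.ker_eq_bot']
    rintro ⟨x, y⟩ h
    have h' : algebraMap F K x + algebraMap F K y * ω = 0 := h
    have hy : y = 0 := by
      by_contra hy
      have hy' : algebraMap F K y ≠ 0 := (map_ne_zero_iff _ (algebraMap F K).injective).2 hy
      apply hno (-x / y)
      rw [map_div₀, map_neg, eq_div_iff hy']
      linear_combination h'
    subst hy
    rw [map_zero, zero_mul, add_zero, map_eq_zero_iff _ (algebraMap F K).injective] at h'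
    rw [h']; rfl
  have hφs : Function.Surjective φ := (LinearMap.injective_iff_surjective_of_finrank_eq_finrank (by
    rw [finrank_two hK, Module.finrank_prod, Module.finrank_self])).1 hφi
  obtain ⟨⟨x, y⟩, hxy⟩ := hφs z
  exact ⟨x, y, hxy.symm⟩


omit hK hq hω [Fintype K] in
theorem herm_smul (z : K) {ι : Type*} [Fintype ι] (u v : ι → K) : herm F (z • u) v = z * herm F u v := by
  unfold herm
  rw [Finset.mul_sum]
  exact Finset.sum_congr rfl fun i _ => by rw [Pi.smul_apply, smul_eq_mul]; ring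

omit hK hq hω [Fintype K] in
theorem herm_smul' (z : K) {ι : Type*} [Fintype ι] (u v : ι → K) : herm F u (z • v) = bar F z * herm F u v := by
  unfold herm
  rw [Finset.mul_sum]
  exact Finset.sum_congr rfl fun i _ => by rw [Pi.smul_apply, smul_eq_mul, map_mul]; ring

omit hK hq hω in
theorem herm_eq {m : ℕ} (u v : Fin m → K) : Cfsg.hermForm m K (Fintype.card F) u v = herm F u v := by
  unfold Cfsg.hermForm herm
  exact Finset.sum_congr rfl fun i _ => by rw [bar_apply]

theorem card_cent {m : ℕ} (x : Matrix.symplecticGroup (Fin m) F) (hx3 : x ^ 3 = 1) (hfpf : IsUnit ((x : Matrix (Fin m ⊕ Fin m) (Fin m ⊕ Fin m) F) - 1)) :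
    Nat.card ↥(Subgroup.centralizer ({x} : Set ↥(Matrix.symplecticGroup (Fin m) F))) = Nat.card (Cfsg.GU m K (Fintype.card F)) := by
  obtain ⟨δ, hδ0, hδ⟩ := exists_skew (F := F) hK
  have hBalt := bform_alt hK (ι := Fin m) hδ
  have hBnd := bform_nondeg hK (ι := Fin m) hδ0
  have hw0 := w0 hω
  let T0 : (Fin m → K) ≃ₗ[F] (Fin m → K) :=
    { toFun := fun v => ω • v
      map_add' := fun u v => smul_add _ _ _
      map_smul' := fun c v => smul_comm _ _ _
      invFun := fun v => ω⁻¹ • v
      left_inv := fun v => by show ω⁻¹ • ω • v = v; rw [smul_smul, inv_mul_cancel₀ hw0, one_smul]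
      right_inv := fun v => by show ω • ω⁻¹ • v = v; rw [smul_smul, mul_inv_cancel₀ hw0, one_smul] }
  have hT0a : ∀ v, T0 v = ω • v := fun v => rfl
  have hT0 : ∀ u v, bform F δ (T0 u) (T0 v) = bform F δ u v := by
    intro u v
    rw [bform_apply, bform_apply, hT0a, hT0a, herm_smul, herm_smul', bar_w hK hq hω]
    congr 1
    have := w3 hω
    linear_combination (δ * herm F u v) * this
  have hT03 : T0 ^ 3 = 1 := by
    apply LinearEquiv.ext
    intro v
    show ω • ω • ω • v = v
    rw [smul_smul, smul_smul, show ω * ω * ω = ω ^ 3 by ring, w3 hω, one_smul]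
  obtain ⟨hmon, hirr⟩ := irr hq
  have ha0 : aeval ((T0 : (Fin m → K) →ₗ[F] (Fin m → K)) : End F (Fin m → K)) (X ^ 2 + (X + C 1) : F[X]) = 0 := by
    apply LinearMap.ext
    intro v
    rw [map_add, map_add, map_pow, aeval_X, aeval_C, map_one]
    show ω • ω • v + (ω • v + v) = 0
    have : ω • ω • v + (ω • v + v) = (ω ^ 2 + ω + 1) • v := by
      rw [add_smul, add_smul, one_smul, smul_smul, pow_two, add_assoc]
    rw [this, hω, zero_smul]
  obtain ⟨T, hT⟩ : ∃ T, T = spToLin x := ⟨_, rfl⟩
  have hT3 : T ^ 3 = 1 := by rw [hT, ← map_pow, hx3, map_one]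
  have hTfix : ∀ v, T v = v → v = 0 := by
    intro v hv
    rw [hT, spToLin_apply] at hv
    obtain ⟨u, hu⟩ := hfpf
    have h1 : ((x : Matrix (Fin m ⊕ Fin m) (Fin m ⊕ Fin m) F) - 1).mulVec v = 0 := by
      rw [Matrix.sub_mulVec, hv, Matrix.one_mulVec, sub_self]
    rw [← hu] at h1
    have h2 := congrArg (fun w => ((u⁻¹ : (Matrix (Fin m ⊕ Fin m) (Fin m ⊕ Fin m) F)ˣ) : Matrix (Fin m ⊕ Fin m) (Fin m ⊕ Fin m) F).mulVec w) h1
    simpa only [Matrix.mulVec_mulVec, Units.inv_mul, Matrix.one_mulVec, Matrix.mulVec_zero] using h2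
  have haT : aeval ((T : (Fin m ⊕ Fin m → F) →ₗ[F] (Fin m ⊕ Fin m → F)) : End F (Fin m ⊕ Fin m → F)) (X ^ 2 + (X + C 1) : F[X]) = 0 := by
    apply LinearMap.ext
    intro v
    rw [map_add, map_add, map_pow, aeval_X, aeval_C, map_one]
    show T (T v) + (T v + v) = 0
    apply hTfix
    have h3 : T (T (T v)) = v := LinearEquiv.congr_fun hT3 v
    rw [map_add, map_add, h3]
    abel
  obtain ⟨ψ, hψ⟩ := conj_irr hmon hirr (by
    rw [← Module.finrank_mul_finrank F K (Fin m → K), finrank_two hK, Module.finrank_fin_fun, Module.finrank_fintype_fun_eq_card, Fintype.card_sum, Fintype.card_fin, two_mul]) ha0 haT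
  obtain ⟨Gm, hG1, hG2⟩ := symp_conj (bform F δ) hBalt hBnd (spB m F) spB_isAlt spB_nondeg T0 hT0 T (by rw [hT]; exact spToLin_isometry x) (three_ne hq) hT03 ψ hψ
  have hG1' : ∀ u v, bform F δ (Gm.symm u) (Gm.symm v) = spB m F u v := fun u v => by rw [← hG1, LinearEquiv.apply_symm_apply, LinearEquiv.apply_symm_apply]
  have hG2' : ∀ v, Gm.symm (T v) = T0 (Gm.symm v) := by
    intro v
    apply Gm.injective
    rw [LinearEquiv.apply_symm_apply, hG2, LinearEquiv.apply_symm_apply]
  have hact : ∀ (g : Cfsg.GU m K (Fintype.card F)) v, act F m g (T0 v) = T0 (act F m g v) := by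
    intro g v
    show (glLin (g : GL (Fin m) K)) (ω • v) = ω • (glLin (g : GL (Fin m) K)) v
    rw [map_smul]
  have hex : ∀ g : Cfsg.GU m K (Fintype.card F), ∃ A, spToLin A = Gm.symm.trans ((act F m g).trans Gm) := by
    intro g
    apply exists_spToLin
    intro u v
    show spB m F (Gm (act F m g (Gm.symm u))) (Gm (act F m g (Gm.symm v))) = _
    rw [hG1, bform_apply, act_herm, ← bform_apply, hG1']
  choose A hA using hex
  have hAa : ∀ g v, spToLin (A g) v = Gm (act F m g (Gm.symm v)) := fun g v => by rw [hA]; rfl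
  have hmem : ∀ g, A g ∈ Subgroup.centralizer ({x} : Set ↥(Matrix.symplecticGroup (Fin m) F)) := by
    intro g
    rw [Subgroup.mem_centralizer_singleton_iff]
    apply spToLin_injective
    rw [map_mul, map_mul]
    ext1 v
    show spToLin (A g) (spToLin x v) = spToLin x (spToLin (A g) v)
    rw [hAa, hAa, ← hT, hG2', hact, hG2]
  symm
  refine Nat.card_congr (Equiv.ofBijective (fun g => (⟨A g, hmem g⟩ : ↥(Subgroup.centralizer ({x} : Set ↥(Matrix.symplecticGroup (Fin m) F))))) ⟨?_, ?_⟩)
  · intro g h hgh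
    have h1 : A g = A h := congrArg Subtype.val hgh
    apply act_injective (F := F) m
    ext1 v
    have h2 := hAa g (Gm v)
    rw [h1, hAa, LinearEquiv.symm_apply_apply] at h2
    exact (Gm.injective h2).symm
  · rintro ⟨s, hs⟩
    rw [Subgroup.mem_centralizer_singleton_iff] at hs
    let t : (Fin m → K) ≃ₗ[F] (Fin m → K) := Gm.trans ((spToLin s).trans Gm.symm)
    have hta : ∀ v, t v = Gm.symm (spToLin s (Gm v)) := fun v => rfl
    have hcomm : ∀ v, spToLin s (T v) = T (spToLin s v) := by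
      intro v
      have h1 := congrArg spToLin hs
      rw [map_mul, map_mul, ← hT] at h1
      exact LinearEquiv.congr_fun h1 v
    have htT : ∀ v, t (ω • v) = ω • t v := by
      intro v
      rw [hta, hta, ← hT0a v, hG2, hcomm, hG2']
      rfl
    have htK : ∀ (z : K) v, t (z • v) = z • t v := by
      intro z v
      obtain ⟨a, b, rfl⟩ := gen hK hq hω z
      rw [add_smul, add_smul, map_add, mul_smul, mul_smul, algebraMap_smul, algebraMap_smul, algebraMap_smul, algebraMap_smul, map_smul, map_smul, htT]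
    have htB : ∀ u v, bform F δ (t u) (t v) = bform F δ u v := by
      intro u v
      rw [hta, hta, hG1', spToLin_isometry, hG1]
    have hth : ∀ u v, herm F (t u) (t v) = herm F u v := by
      intro u v
      by_contra hne
      have hne' : herm F (t u) (t v) - herm F u v ≠ 0 := sub_ne_zero.2 hne
      obtain ⟨w, hw⟩ := exists_omega (F := F) (K := K)
      have h1 := htB ((w / (δ * (herm F (t u) (t v) - herm F u v))) • u) v
      rw [htK, bform_apply, bform_apply, herm_smul, herm_smul, ← sub_eq_zero, ← map_sub] at h1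
      have h2 : δ * (w / (δ * (herm F (t u) (t v) - herm F u v)) * herm F (t u) (t v)) - δ * (w / (δ * (herm F (t u) (t v) - herm F u v)) * herm F u v) = w := by
        field_simp
      rw [h2, hw] at h1
      exact one_ne_zero h1
    let t' : (Fin m → K) ≃ₗ[K] (Fin m → K) := { t with map_smul' := htK }
    have hGU : glLin.symm t' ∈ Cfsg.GU m K (Fintype.card F) := by
      intro u v
      show Cfsg.hermForm m K (Fintype.card F) ((glLin.symm t' : GL (Fin m) K).1.mulVec u) ((glLin.symm t' : GL (Fin m) K).1.mulVec v) = _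
      rw [glLin_symm_mulVec, glLin_symm_mulVec, herm_eq, herm_eq]
      exact hth u v
    refine ⟨⟨_, hGU⟩, Subtype.ext ?_⟩
    apply spToLin_injective
    ext1 v
    show spToLin (A _) v = spToLin s v
    rw [hAa]
    have h1 : act F m (⟨glLin.symm t', hGU⟩ : Cfsg.GU m K (Fintype.card F)) (Gm.symm v) = t (Gm.symm v) := by
      show (glLin (glLin.symm t')) (Gm.symm v) = _
      rw [MulEquiv.apply_symm_apply]; rfl
    rw [h1, hta, LinearEquiv.apply_symm_apply, LinearEquiv.apply_symm_apply]

end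

/-- Centraliser of a fixed-point-free element of order three in Sp_2m(q) when q ≡ 2 (mod 3): if x ∈ Sp_2m(F) (|F| = q, m ≥ 1) satisfies x³ = 1 and x − 1 is invertible, then its centraliser in Sp_2m(F) has the order of the unitary group GU_m(q), namely q^(m(m−1)/2) Π_(i=1)^m (q^i − (−1)^i) (x lies in the centre of a subgroup GU_m(q) of Sp_2m(q)). -/
theorem result {F : Type*} [Field F] [Fintype F] {q : ℕ} (hF : Fintype.card F = q) (hq : q % 3 = 2) {m : ℕ} (hm : 1 ≤ m) (x : Matrix.symplecticGroup (Fin m) F) (hx3 : x ^ 3 = 1) (hfpf : IsUnit ((x : Matrix (Fin m ⊕ Fin m) (Fin m ⊕ Fin m) F) - 1)) : (Nat.card ↥(Subgroup.centralizer ({x} : Set ↥(Matrix.symplecticGroup (Fin m) F))) : ℤ) = (q : ℤ) ^ (m * (m - 1) / 2) * ∏ i : Fin m, ((q : ℤ) ^ ((i : ℕ) + 1) - (-1) ^ ((i : ℕ) + 1)) := by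
  subst hF
  obtain ⟨K, iK1, iK2, hKr, ω, hω'⟩ := exists_adjoin (a := 1) (b := 1) (aniso hq)
  haveI : Module.Finite F K := Module.finite_of_finrank_pos (by rw [hKr]; norm_num)
  haveI : Finite K := Module.finite_of_finite F
  haveI : Fintype K := Fintype.ofFinite K
  have hK : Fintype.card K = Fintype.card F ^ 2 := by rw [Module.card_eq_pow_finrank (K := F) (V := K), hKr]
  have hω : ω ^ 2 + ω + 1 = 0 := by rw [map_one, one_mul] at hω'; exact hω'
  rw [card_cent hK hq hω x hx3 hfpf, card_GU hK]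
  push_cast
  congr 1
  rw [← Fin.prod_univ_eq_prod_range (fun i => if Even i then (Fintype.card F : ℤ) ^ (i + 1) + 1 else ((Fintype.card F ^ (i + 1) - 1 : ℕ) : ℤ))]
  refine Finset.prod_congr rfl fun i _ => ?_
  by_cases h : Even (i : ℕ)
  · rw [if_pos h, (Even.add_one h).neg_one_pow]
    ring
  · rw [if_neg h]
    rw [Nat.not_even_iff_odd] at h
    rw [(Odd.add_one h).neg_one_pow, Nat.cast_sub (Nat.one_le_pow _ _ Fintype.card_pos)]
    push_cast; ring

end Cfsg.Agent.S2637
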