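import Cfsg.Statements.S2638
import Cfsg.Agent.LibCycH13

set_option autoImplicit false
open Cfsg

namespace Cfsg.Agent.S2638

open Module CfsgLib.Cyc Polynomial
open Matrix (mulVec)
open scoped Matrix

/-- If an element x of GL_n(q), n ≥ 1, has prime order r and the multiplicative order of q modulo r is n (r is a primitive prime divisor of q^n − 1, so x acts irreducibly), then the centraliser of x in GL_n(q) is cyclic of order q^n − 1 (the multiplicative group of the field with q^n elements, a Singer cycle). -/
theorem result {F : Type*} [Field F] [Fintype F] {p q : ℕ} [Fact p.Prime] [CharP F p] (hF : Fintype.card F = q) {n r : ℕ} (hn : 1 ≤ n) (hr : r.Prime) (hrp : r ≠ p) (hi : orderOf (q : ZMod r) = n) (x : GL (Fin n) F) (hx : orderOf x = r) : IsCyclic ↥(Subgroup.centralizer ({x} : Set (GL (Fin n) F))) ∧ Nat.card ↥(Subgroup.centralizer ({x} : Set (GL (Fin n) F))) = q ^ n - 1 := by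
  classical
  haveI : Nonempty (Fin n) := ⟨⟨0, by omega⟩⟩
  let L := (Matrix.toLinAlgEquiv' (R := F) (n := Fin n))
  set T : End F (Fin n → F) := L (x : Matrix (Fin n) (Fin n) F) with hT
  have hfr : finrank F (Fin n → F) = n := by simp
  have hr0 : (r : F) ≠ 0 := by
    intro h
    rw [CharP.cast_eq_zero_iff F p] at h
    exact hrp ((Nat.prime_dvd_prime_iff_eq (Fact.out : p.Prime) hr).mp h).symm
  have hTr : T ^ r = 1 := by
    rw [hT, ← map_pow, ← Units.val_pow_eq_pow_val, ← hx, pow_orderOf_eq_one, Units.val_one, map_one]
  have hT1 : T ≠ 1 := by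
    intro h
    rw [hT, ← map_one L] at h
    have h2 := L.injective h
    have : x = 1 := Units.ext h2
    rw [this, orderOf_one] at hx
    exact hr.one_lt.ne hx
  obtain ⟨hμ, hd⟩ := minpoly_irreducible hr hr0 T hTr hT1 (by rw [hF, hfr]; exact hi)
  haveI : Fact (Irreducible (minpoly F T)) := ⟨hμ⟩
  haveI : FiniteDimensional F (AdjoinRoot (minpoly F T)) := (AdjoinRoot.powerBasis hμ.ne_zero).finite
  haveI : Finite (AdjoinRoot (minpoly F T)) := Module.finite_of_finite F
  haveI : Fintype (AdjoinRoot (minpoly F T)) := Fintype.ofFinite _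
  let A := act T (minpoly F T) (minpoly.aeval F T)
  have hAinj : Function.Injective A := act_injective T (minpoly.aeval F T) hμ
  let φ : (AdjoinRoot (minpoly F T))ˣ →* GL (Fin n) F :=
    (Units.map (L.symm : End F (Fin n → F) →* Matrix (Fin n) (Fin n) F)).comp (Units.map (A : AdjoinRoot (minpoly F T) →* End F (Fin n → F)))
  have hφ : ∀ k, ((φ k : GL (Fin n) F) : Matrix (Fin n) (Fin n) F) = L.symm (A (k : AdjoinRoot (minpoly F T))) := fun k => rfl
  have hφinj : Function.Injective φ := by
    intro a b hab
    have h1 := congrArg Units.val hab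
    rw [hφ, hφ] at h1
    exact Units.ext (hAinj (L.symm.injective h1))
  have hrange : φ.range = Subgroup.centralizer {x} := by
    ext g
    rw [Subgroup.mem_centralizer_singleton_iff]
    constructor
    · rintro ⟨k, rfl⟩
      apply Units.ext
      rw [Units.val_mul, Units.val_mul, hφ]
      apply L.injective
      rw [map_mul, map_mul, AlgEquiv.apply_symm_apply]
      exact act_comm T (minpoly F T) (minpoly.aeval F T) k
    · intro hg
      have hcomm : Commute (L (g : Matrix (Fin n) (Fin n) F)) T := by
        have := congrArg (fun z : GL (Fin n) F => L (z : Matrix (Fin n) (Fin n) F)) hg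
        simp only [Units.val_mul, map_mul] at this
        exact this
      obtain ⟨k, hk⟩ := exists_act T (minpoly.aeval F T) hμ hd hcomm
      have hk0 : k ≠ 0 := by
        rintro rfl
        rw [map_zero] at hk
        have h1 : IsUnit (L (g : Matrix (Fin n) (Fin n) F)) := g.isUnit.map L
        rw [hk] at h1
        exact not_isUnit_zero h1
      refine ⟨Units.mk0 k hk0, ?_⟩
      apply Units.ext
      rw [hφ]
      apply L.injective
      rw [AlgEquiv.apply_symm_apply]
      exact hk.symm
  let e : (AdjoinRoot (minpoly F T))ˣ ≃* φ.range := MonoidHom.ofInjective hφinj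
  rw [← hrange]
  constructor
  · exact isCyclic_of_surjective e e.surjective
  · rw [← Nat.card_congr e.toEquiv, Nat.card_eq_fintype_card, Fintype.card_units, Module.card_eq_pow_finrank (K := F), hF]
    congr 2
    exact ((AdjoinRoot.powerBasis hμ.ne_zero).finrank).trans (hd.trans hfr)

end Cfsg.Agent.S2638
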