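import Cfsg.Statements.S2639
import Cfsg.Agent.LibGUemb2H13
import Cfsg.Agent.LibSemi2H13

set_option autoImplicit false
open Cfsg

namespace Cfsg.Agent.S2639

open CfsgLib.GUemb Cfsg.Agent.H22 Module LinearMap

/-- The unitary group embeds in the symplectic group of twice the dimension over the subfield: for a field K with q² elements and a field F with q elements (isomorphic to the subfield of K of order q), there is an injective homomorphism GU_m(q) → Sp_2m(F). -/
theorem result {K F : Type*} [Field K] [Fintype K] [Field F] [Fintype F] {q : ℕ} (hK : Fintype.card K = q ^ 2) (hF : Fintype.card F = q) (m : ℕ) : ∃ φ : ↥(Cfsg.GU m K q) →* ↥(Matrix.symplecticGroup (Fin m) F), Function.Injective φ := by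
  classical
  subst hF
  obtain ⟨ι⟩ := exists_emb hK
  letI : Algebra F K := ι.toAlgebra
  obtain ⟨δ, hδ, hδ'⟩ := exists_skew (F := F) hK
  obtain ⟨φ, hφ⟩ := CfsgLib.Semi.alt_iso (bform F δ : LinearMap.BilinForm F (Fin m → K)) (bform_alt hK hδ') (bform_nondeg hK hδ) (spB m F) spB_isAlt spB_nondeg (by
    rw [finrank_pi hK]; simp; omega)
  have hac : ∀ (g : ↥(Cfsg.GU m K (Fintype.card F))), ∃ A : Matrix.symplecticGroup (Fin m) F, spToLin A = φ.symm.trans ((act F m g).trans φ) := by
    intro g
    apply exists_spToLin
    intro u v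
    show spB m F (φ (act F m g (φ.symm u))) (φ (act F m g (φ.symm v))) = _
    rw [hφ, bform_apply, act_herm, ← bform_apply, ← hφ, LinearEquiv.apply_symm_apply, LinearEquiv.apply_symm_apply]
  choose A hA using hac
  refine ⟨MonoidHom.mk' A ?_, ?_⟩
  · intro g h
    apply spToLin_injective
    rw [map_mul, hA, hA, hA, map_mul]
    ext1 v
    show φ (act F m g (act F m h (φ.symm v))) = φ (act F m g (φ.symm (φ (act F m h (φ.symm v)))))
    rw [LinearEquiv.symm_apply_apply]
  · intro g h hgh
    have h1 : A g = A h := hgh
    apply act_injective (F := F) m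
    ext1 v
    have h2 := congrArg (fun z => spToLin z (φ v)) h1
    simp only [hA] at h2
    have h3 : φ (act F m g (φ.symm (φ v))) = φ (act F m h (φ.symm (φ v))) := h2
    rw [LinearEquiv.symm_apply_apply] at h3
    exact φ.injective h3

end Cfsg.Agent.S2639
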