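import Cfsg.Statements.S2640
import Cfsg.Agent.LibGUemb2H13

set_option autoImplicit false
open Cfsg

namespace Cfsg.Agent.S2640

open CfsgLib.GUemb Cfsg.Agent.H22 Module LinearMap CfsgLib.Std

theorem aux {K F : Type*} [Field K] [Fintype K] [Field F] [Fintype F] (hK : Fintype.card K = Fintype.card F ^ 2) (m : ℕ) (hm : Even m)
    {Q0 : (Fin m ⊕ Fin m → F) → F} (hQ0 : ⇑(qPlus m F) = Q0) : ∃ φ : ↥(Cfsg.GU m K (Fintype.card F)) →* ↥(Cfsg.isometryGroup F Q0), Function.Injective φ := by
  classical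
  subst hQ0
  obtain ⟨ι⟩ := exists_emb hK
  letI : Algebra F K := ι.toAlgebra
  obtain ⟨ω, hω⟩ := exists_omega (F := F) (K := K)
  obtain ⟨s, hs, -⟩ := exists_fam hK hm (Function.Embedding.refl (Fin m)) hω
  obtain ⟨ψ, hψ⟩ := iso_plus (finrank_pi hK m) hs
  obtain ⟨f, hf⟩ := exists_hom hK hω (qPlus m F) ψ hψ
  exact ⟨(oIso (qPlus m F)).symm.toMonoidHom.comp f, (oIso (qPlus m F)).symm.injective.comp hf⟩

/-- For m even, the unitary group GU_m(q) (over the field with q² elements) embeds in the orthogonal group O⁺_2m(q) of the hyperbolic form Σ x_i y_i over the field with q elements (there is an injective homomorphism). -/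
theorem result {K F : Type*} [Field K] [Fintype K] [Field F] [Fintype F] {q : ℕ} (hK : Fintype.card K = q ^ 2) (hF : Fintype.card F = q) (m : ℕ) (hm : Even m) : ∃ φ : ↥(Cfsg.GU m K q) →* ↥(Cfsg.isometryGroup F (Cfsg.quadFormPlus m F)), Function.Injective φ := by
  subst hF
  exact aux hK m hm (coe_qPlus m)

end Cfsg.Agent.S2640
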