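import Cfsg.Statements.S2641
import Cfsg.Agent.LibGUemb2H13

set_option autoImplicit false
open Cfsg

namespace Cfsg.Agent.S2641

open CfsgLib.GUemb Cfsg.Agent.H22 Module LinearMap CfsgLib.Std

theorem aux {K F : Type*} [Field K] [Fintype K] [Field F] [Fintype F] (hK : Fintype.card K = Fintype.card F ^ 2) (k : ℕ) (hk : Even k)
    (a b : F) (hab : ∀ z₁ z₂ : F, z₁ ^ 2 + a * z₁ * z₂ + b * z₂ ^ 2 = 0 → z₁ = 0 ∧ z₂ = 0)
    {Q0 : ((Fin k ⊕ Fin k) ⊕ Fin 2 → F) → F} (hQ0 : ⇑(qMinus k F a b) = Q0) : ∃ φ : ↥(Cfsg.GU (k + 1) K (Fintype.card F)) →* ↥(Cfsg.isometryGroup F Q0), Function.Injective φ := by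
  classical
  subst hQ0
  obtain ⟨ι, θ, hθ⟩ := exists_ext hK a b hab
  letI : Algebra F K := ι.toAlgebra
  have hθ' : θ ^ 2 + algebraMap F K a * θ + algebraMap F K b = 0 := hθ
  obtain ⟨ω, hω⟩ := exists_omega (F := F) (K := K)
  obtain ⟨hth1, hth2, hth3⟩ := theta_bar hab hθ'
  have hbas := theta_basis hK hth1
  obtain ⟨s, hs, hs0⟩ := exists_fam (ι := Fin (k + 1)) hK hk Fin.castSuccEmb hω
  have hlast : ∀ i, (s i).1 (Fin.last k) = 0 ∧ (s i).2 (Fin.last k) = 0 := by
    intro i
    apply hs0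
    rintro ⟨j, hj⟩
    exact (Fin.castSucc_lt_last j).ne hj
  have hsing : ∀ z : K, algebraMap F K (qform F ω (Pi.single (Fin.last k) z : Fin (k + 1) → K)) = z * bar F z := by
    intro z
    rw [qform_apply hK hω, herm_single_right, Pi.single_eq_same]
  have hpol : ∀ z w : K, QuadraticMap.polar (qform F ω) (Pi.single (Fin.last k) z : Fin (k + 1) → K) (Pi.single (Fin.last k) w) = Algebra.trace F K (z * bar F w) := by
    intro z w
    rw [qform_polar hK hω, herm_single_right, Pi.single_eq_same]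
  let t : Fin 2 → (Fin (k + 1) → K) := ![Pi.single (Fin.last k) 1, Pi.single (Fin.last k) (-θ)]
  have ht0 : t 0 = Pi.single (Fin.last k) 1 := rfl
  have ht1 : t 1 = Pi.single (Fin.last k) (-θ) := rfl
  have ha1 : LinearIndependent F t := by
    rw [Fintype.linearIndependent_iff]
    intro g hg
    rw [Fin.sum_univ_two, ht0, ht1] at hg
    have h1 := congrFun hg (Fin.last k)
    rw [Pi.add_apply, Pi.smul_apply, Pi.smul_apply, Pi.single_eq_same, Pi.single_eq_same, Algebra.smul_def, Algebra.smul_def, Pi.zero_apply] at h1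
    have h2 : (g 0, g 1) = ((0 : F), (0 : F)) := hbas.1 (by
      simp only [map_zero, mul_zero, sub_zero]
      linear_combination h1)
    intro i
    fin_cases i
    · exact (Prod.ext_iff.1 h2).1
    · exact (Prod.ext_iff.1 h2).2
  have ha2 : ∀ i, t i ∈ comp (qform F ω) s := by
    intro i
    rw [mem_comp]
    intro j
    fin_cases i
    · rw [Fin.zero_eta, ht0]
      constructor
      · rw [qform_polar hK hω, herm_single_right, (hlast j).1, zero_mul, map_zero]
      · rw [qform_polar hK hω, herm_single_right, (hlast j).2, zero_mul, map_zero]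
    · rw [Fin.mk_one, ht1]
      constructor
      · rw [qform_polar hK hω, herm_single_right, (hlast j).1, zero_mul, map_zero]
      · rw [qform_polar hK hω, herm_single_right, (hlast j).2, zero_mul, map_zero]
  have ha3 : qform F ω (t 0) = 1 := by
    apply (algebraMap F K).injective
    rw [ht0, hsing, map_one, mul_one, map_one]
  have ha4 : QuadraticMap.polar (qform F ω) (t 0) (t 1) = a := by
    rw [ht0, ht1, hpol, one_mul]
    apply (algebraMap F K).injective
    rw [tr_eq hK, bar_bar hK]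
    rw [map_neg, hth2]
    ring
  have ha5 : qform F ω (t 1) = b := by
    apply (algebraMap F K).injective
    rw [ht1, hsing, map_neg]
    linear_combination hth3
  have hmain : ∃ ψ : (Fin (k + 1) → K) ≃ₗ[F] ((Fin k ⊕ Fin k) ⊕ Fin 2 → F), ∀ v, qMinus k F a b (ψ v) = qform F ω v := by
    refine iso_minus (Q := qform F ω) (V := Fin (k + 1) → K) (k := k) (a := a) (b := b) (by rw [finrank_pi hK]; ring) hs (t := t) ?_ ?_ ?_ ?_ ?_
    · exact ha1
    · exact ha2
    · exact ha3
    · exact ha4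
    · exact ha5
  · obtain ⟨ψ, hψ⟩ := hmain
    obtain ⟨f, hf⟩ := exists_hom hK hω (qMinus k F a b) ψ hψ
    exact ⟨(oIso (qMinus k F a b)).symm.toMonoidHom.comp f, (oIso (qMinus k F a b)).symm.injective.comp hf⟩

/-- For m odd, the unitary group GU_m(q) (over the field with q² elements) embeds in the orthogonal group O⁻_2m(q) of an elliptic form (Σ_(i<m−1) x_i y_i plus an anisotropic binary form) over the field with q elements (there is an injective homomorphism). -/
theorem result {K F : Type*} [Field K] [Fintype K] [Field F] [Fintype F] {q : ℕ} (hK : Fintype.card K = q ^ 2) (hF : Fintype.card F = q) (m : ℕ) (hm : Odd m) (a b : F) (hab : ∀ z₁ z₂ : F, z₁ ^ 2 + a * z₁ * z₂ + b * z₂ ^ 2 = 0 → z₁ = 0 ∧ z₂ = 0) : ∃ φ : ↥(Cfsg.GU m K q) →* ↥(Cfsg.isometryGroup F (Cfsg.quadFormMinus (m - 1) F a b)), Function.Injective φ := by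
  subst hF
  obtain ⟨k, hk⟩ : ∃ k, m = k + 1 := ⟨m - 1, by have := hm.pos; omega⟩
  subst hk
  exact aux hK k (by rw [Nat.odd_add_one, Nat.not_odd_iff_even] at hm; exact hm) a b hab (coe_qMinus k a b)

end Cfsg.Agent.S2641
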