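import Cfsg.Statements.S2642
import Cfsg.Agent.LibJor3H13
import Cfsg.Agent.S2588

set_option autoImplicit false
open Cfsg

namespace Cfsg.Agent.S2642

open CfsgLib.Jor Module Matrix Cfsg.Agent.H22 CfsgLib.Norm

/-- Number of conjugacy classes of elements of order p in the general unitary group GU_n(q), q a power of p: every unipotent Jordan type occurs and the classes correspond to the partitions of n with all parts at most p other than the all-ones partition, exactly as in GL_n; so there are (number of partitions of n with parts ≤ p) − 1 classes. -/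
theorem result {K : Type*} [Field K] [Fintype K] {p q n : ℕ} [Fact p.Prime] [CharP K p] (hK : Fintype.card K = q ^ 2) : Nat.card {C : ConjClasses ↥(Cfsg.GU n K q) // ∃ g : ↥(Cfsg.GU n K q), ConjClasses.mk g = C ∧ orderOf g = p} = (Finset.univ.filter (fun μ : Nat.Partition n => ∀ a ∈ μ.parts, a ≤ p)).card - 1 := by
  classical
  obtain ⟨σ, hσ, hσ2, hσi⟩ := exists_sigma hK
  have hmapq : ∀ X : Matrix (Fin n) (Fin n) K, X.map (fun x : K => x ^ q) = X.map σ := by
    intro X
    ext i j
    rw [Matrix.map_apply, Matrix.map_apply, hσ]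
  refine CfsgLib.Jor.card_order_p (Cfsg.GU n K q).subtype Subtype.val_injective (fun g h _ _ hc => Cfsg.Agent.S2587.gu_conj hK g h hc) (fun A hA => ?_)
  obtain ⟨B, hB⟩ := Cfsg.Agent.S2588.similar_unitary hK A (by
    rw [hmapq]
    apply isConj_mat (M := p)
    · rw [← pow_eq_one_iff_nil, lin_pow, lin_eq_one, ← hA, pow_orderOf_eq_one]
    · intro k
      rw [← nk_map σ, ← nk_transpose]
      apply nk_inv_mat (M := ((A : Matrix (Fin n) (Fin n) K).map σ)ᵀ)
      apply Matrix.mul_nonsing_inv
      rw [Matrix.det_transpose]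
      have h1 := (A.isUnit.map σ.mapMatrix)
      exact (Matrix.isUnit_iff_isUnit_det _).1 h1)
  exact ⟨B, hB⟩

end Cfsg.Agent.S2642
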