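import Cfsg.Statements.S2643
import Cfsg.Agent.LibClsH13
import Cfsg.Agent.S2587
import Cfsg.Agent.S2588
import Cfsg.Agent.S2580
import Cfsg.Agent.LibH22HermS

set_option autoImplicit false
open Cfsg

namespace Cfsg.Agent.S2643

open Module CfsgLib.Reg CfsgLib.Cls Cfsg.Agent.H22 Cfsg.Agent.S2587 Cfsg.Agent.S2588
open Matrix (mulVec)
open scoped Matrix

section
variable {K : Type*} [Field K] [Fintype K] {q n : ℕ}

theorem exists_unipotent (hK : Fintype.card K = q ^ 2) (hn : 1 ≤ n) : ∃ B : ↥(Cfsg.GU n K q),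
    (((B : GL (Fin n) K) : Matrix (Fin n) (Fin n) K) - 1) ^ n = 0 ∧ (((B : GL (Fin n) K) : Matrix (Fin n) (Fin n) K) - 1).rank = n - 1 := by
  classical
  obtain ⟨σ, hσ, hσ2, hσi⟩ := exists_sigma hK
  obtain ⟨M, hM1, hM2, hM3⟩ := exists_regular' K n
  have hnil : IsNilpotent M := ⟨n, hM1⟩
  obtain ⟨a, ha⟩ : IsUnit (1 + M) := hnil.isUnit_one_add
  have hx : ((a : Matrix (Fin n) (Fin n) K) - 1) ^ n = 0 ∧ ((a : Matrix (Fin n) (Fin n) K) - 1).rank = n - 1 := by
    rw [ha, add_sub_cancel_left]; exact ⟨hM1, hM2⟩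
  have hai : (((a⁻¹ : GL (Fin n) K) : Matrix (Fin n) (Fin n) K) - 1) ^ n = 0 ∧ (((a⁻¹ : GL (Fin n) K) : Matrix (Fin n) (Fin n) K) - 1).rank = n - 1 := by
    have h1 : ((a⁻¹ : GL (Fin n) K) : Matrix (Fin n) (Fin n) K) - 1 = (-((a⁻¹ : GL (Fin n) K) : Matrix (Fin n) (Fin n) K)) * M := by
      have h2 : M = (a : Matrix (Fin n) (Fin n) K) - 1 := by rw [ha, add_sub_cancel_left]
      rw [h2, mul_sub, mul_one, neg_mul, Units.inv_mul]; abel
    have hc : Commute (-((a⁻¹ : GL (Fin n) K) : Matrix (Fin n) (Fin n) K)) M := by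
      have h3 : Commute (a : Matrix (Fin n) (Fin n) K) M := by
        rw [ha]; exact (Commute.one_left M).add_left (Commute.refl M)
      exact (h3.units_inv_left).neg_left
    rw [h1]
    constructor
    · rw [hc.mul_pow, hM1, mul_zero]
    · rw [Matrix.rank_mul_eq_right_of_isUnit_det, hM2]
      rw [← Matrix.isUnit_iff_isUnit_det]
      exact (a⁻¹).isUnit.neg
  have hconj : IsConj a a⁻¹ := (reg_conj_iff hn (by simp) a hx a⁻¹).mp hai
  have hmap : (a : Matrix (Fin n) (Fin n) K).map (fun x : K => x ^ q) = (a : Matrix (Fin n) (Fin n) K) := by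
    rw [ha]
    ext i j
    rw [Matrix.map_apply]
    by_cases hij : i = j
    · subst hij
      rw [Matrix.add_apply, Matrix.one_apply_eq]
      have : (fun x : K => x ^ q) (1 + M i i) = σ (1 + M i i) := (hσ _).symm
      show (fun x : K => x ^ q) (1 + M i i) = _
      rw [this, map_add, map_one]
      rcases hM3 i i with h | h <;> rw [h] <;> simp
    · rw [Matrix.add_apply, Matrix.one_apply_ne hij, zero_add]
      show (M i j) ^ q = M i j
      rw [← hσ]
      rcases hM3 i j with h | h <;> rw [h] <;> simp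
  obtain ⟨B, hB⟩ := similar_unitary hK a (by
    rw [hmap]
    have h1 : IsConj (a : Matrix (Fin n) (Fin n) K) ((a⁻¹ : GL (Fin n) K) : Matrix (Fin n) (Fin n) K) := by
      rw [isConj_iff] at hconj
      obtain ⟨c, hc⟩ := hconj
      refine ⟨c, ?_⟩
      rw [mul_inv_eq_iff_eq_mul] at hc
      exact congrArg Units.val hc
    refine h1.trans ?_
    have h2 := Cfsg.Agent.S2580.conj_transpose ((a⁻¹ : GL (Fin n) K) : Matrix (Fin n) (Fin n) K)
    rw [← Matrix.transpose_nonsing_inv, ← Matrix.coe_units_inv]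
    exact h2)
  exact ⟨B, (reg_conj_iff hn (by simp) a hx _).mpr hB⟩

theorem unip_det {a : GL (Fin n) K} (ha : ((a : Matrix (Fin n) (Fin n) K) - 1) ^ n = 0) : Matrix.GeneralLinearGroup.det a = 1 := by
  have h1 : IsNilpotent (Matrix.toLin' ((a : Matrix (Fin n) (Fin n) K) - 1)) := ⟨n, by rw [← Matrix.toLin'_pow, ha, map_zero]⟩
  have h2 := det_one_add h1
  apply Units.ext
  rw [Matrix.GeneralLinearGroup.val_det_apply, ← LinearMap.det_toLin', Units.val_one, ← h2]
  congr 1
  rw [map_sub, Matrix.toLin'_one]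
  show _ = (1 : End K (Fin n → K)) + (_ - 1)
  rw [add_sub_cancel]

theorem centr_det (hK : Fintype.card K = q ^ 2) (hn : 1 ≤ n) (x : ↥(Cfsg.GU n K q))
    (hx : (((x : GL (Fin n) K) : Matrix (Fin n) (Fin n) K) - 1) ^ n = 0 ∧ (((x : GL (Fin n) K) : Matrix (Fin n) (Fin n) K) - 1).rank = n - 1) :
    (Subgroup.centralizer {x}).map (detU n K q).rangeRestrict = (powMonoidHom n : (detU n K q).range →* (detU n K q).range).range := by
  classical
  obtain ⟨σ, hσ, hσ2, hσi⟩ := exists_sigma hK
  let st : Matrix (Fin n) (Fin n) K → Matrix (Fin n) (Fin n) K := fun X => (X.map σ).transpose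
  have hmul : ∀ x y, st (x * y) = st y * st x := fun x y => by
    show ((x * y).map σ).transpose = (y.map σ).transpose * (x.map σ).transpose
    rw [Matrix.map_mul, Matrix.transpose_mul]
  have hone : st 1 = 1 := by
    show ((1 : Matrix (Fin n) (Fin n) K).map σ).transpose = 1
    rw [Matrix.map_one σ (map_zero σ) (map_one σ), Matrix.transpose_one]
  have hadd : ∀ x y, st (x + y) = st x + st y := fun x y => by
    show ((x + y).map σ).transpose = (x.map σ).transpose + (y.map σ).transpose
    rw [Matrix.map_add σ (map_add σ), Matrix.transpose_add]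
  have hsc : ∀ a : K, st (Matrix.scalar (Fin n) a) = Matrix.scalar (Fin n) (σ a) := by
    intro a
    show ((Matrix.scalar (Fin n) a).map σ).transpose = _
    rw [Matrix.scalar_apply, Matrix.scalar_apply, Matrix.diagonal_map (map_zero σ), Matrix.diagonal_transpose]
  have hcent : ∀ (a : K) (x : Matrix (Fin n) (Fin n) K), Commute (Matrix.scalar (Fin n) a) x :=
    fun a x => (Matrix.scalar_commute a (fun r => Commute.all _ _) x)
  have h := of_matrix (n := n) hx.1 hx.2 (by simp)
  ext a
  constructor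
  · rintro ⟨g, hg, rfl⟩
    rw [SetLike.mem_coe, Subgroup.mem_centralizer_singleton_iff] at hg
    have hgv : ((g.1 : GL (Fin n) K) : Matrix (Fin n) (Fin n) K) * ((x.1 : GL (Fin n) K) : Matrix (Fin n) (Fin n) K) =
        ((x.1 : GL (Fin n) K) : Matrix (Fin n) (Fin n) K) * ((g.1 : GL (Fin n) K) : Matrix (Fin n) (Fin n) K) :=
      congrArg (fun z : ↥(Cfsg.GU n K q) => ((z.1 : GL (Fin n) K) : Matrix (Fin n) (Fin n) K)) hg
    have hcomm : Commute (Matrix.toLin' ((g.1 : GL (Fin n) K) : Matrix (Fin n) (Fin n) K)) (Matrix.toLin' (((x.1 : GL (Fin n) K) : Matrix (Fin n) (Fin n) K) - 1)) := by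
      show Matrix.toLin' _ ∘ₗ Matrix.toLin' _ = Matrix.toLin' _ ∘ₗ Matrix.toLin' _
      rw [← Matrix.toLin'_mul, ← Matrix.toLin'_mul, mul_sub, sub_mul, mul_one, one_mul, hgv]
    obtain ⟨c, hc2⟩ := h.exists_pol hn hcomm
    have hu : IsUnit (Regular.pol (Matrix.toLin' (((x.1 : GL (Fin n) K) : Matrix (Fin n) (Fin n) K) - 1)) c) := by
      rw [← hc2]
      exact g.1.isUnit.map (Matrix.toLinAlgEquiv' (R := K) (n := Fin n))
    have hc0 := (h.pol_isUnit_iff hn c).mp hu
    set lam := c ⟨0, by omega⟩ with hlam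
    -- g - λ nilpotent
    have hgn : IsNilpotent (((g.1 : GL (Fin n) K) : Matrix (Fin n) (Fin n) K) - Matrix.scalar (Fin n) lam) := by
      have h1 := pol_sub_nilpotent h hn c
      rw [← hc2] at h1
      have h2 := h1.map (Matrix.toLinAlgEquiv' (R := K) (n := Fin n)).symm
      have h4 : ((g.1 : GL (Fin n) K) : Matrix (Fin n) (Fin n) K) - Matrix.scalar (Fin n) lam =
          (Matrix.toLinAlgEquiv' (R := K) (n := Fin n)).symm (Matrix.toLin' ((g.1 : GL (Fin n) K) : Matrix (Fin n) (Fin n) K) - c ⟨0, by omega⟩ • 1) := by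
        apply (Matrix.toLinAlgEquiv' (R := K) (n := Fin n)).injective
        rw [AlgEquiv.apply_symm_apply, map_sub]
        congr 1
        have h3 : Matrix.scalar (Fin n) lam = lam • (1 : Matrix (Fin n) (Fin n) K) := by
          rw [Matrix.scalar_apply, ← Matrix.smul_one_eq_diagonal]
        rw [h3, map_smul, map_one]
      rw [h4]
      exact h2
    set G := ((g.1 : GL (Fin n) K) : Matrix (Fin n) (Fin n) K) with hG
    have hGG : st G * G = 1 := (mem_GU hσ g.1).mp g.2
    have hGG' : G * st G = 1 := mul_eq_one_comm.mp hGG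
    have hsub : st (G - Matrix.scalar (Fin n) lam) = st G - Matrix.scalar (Fin n) (σ lam) := by
      have : G = (G - Matrix.scalar (Fin n) lam) + Matrix.scalar (Fin n) lam := by rw [sub_add_cancel]
      have h1 := congrArg st this
      rw [hadd, hsc] at h1
      rw [h1, add_sub_cancel_right]
    have hpow : ∀ k (X : Matrix (Fin n) (Fin n) K), st (X ^ k) = st X ^ k := by
      intro k X
      induction k with
      | zero => rw [pow_zero, pow_zero, hone]
      | succ k ih => rw [pow_succ, hmul, ih, ← pow_succ']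
    have hstn : IsNilpotent (st G - Matrix.scalar (Fin n) (σ lam)) := by
      obtain ⟨k, hk⟩ := hgn
      refine ⟨k, ?_⟩
      rw [← hsub, ← hpow, hk]
      show ((0 : Matrix (Fin n) (Fin n) K).map σ).transpose = 0
      rw [Matrix.map_zero σ (map_zero σ), Matrix.transpose_zero]
    -- 1 - λ σλ nilpotent
    have hcomm2 : Commute G (st G) := by show G * st G = st G * G; rw [hGG, hGG']
    have hkey : IsNilpotent (1 - Matrix.scalar (Fin n) (lam * σ lam)) := by
      have e1 : 1 - Matrix.scalar (Fin n) (lam * σ lam) = (G - Matrix.scalar (Fin n) lam) * st G + Matrix.scalar (Fin n) lam * (st G - Matrix.scalar (Fin n) (σ lam)) := by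
        rw [sub_mul, hGG', mul_sub, map_mul]; abel
      rw [e1]
      have c1 : Commute (G - Matrix.scalar (Fin n) lam) (st G) := hcomm2.sub_left (hcent _ _)
      have c2 : Commute (Matrix.scalar (Fin n) lam) (st G - Matrix.scalar (Fin n) (σ lam)) := hcent _ _
      apply Commute.isNilpotent_add
      · apply Commute.mul_left
        · apply Commute.mul_right
          · exact (hcent _ _).symm
          · exact (c1.sub_right (hcent _ _).symm)
        · apply Commute.mul_right
          · exact (hcent _ _).symm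
          · exact (Commute.refl _).sub_right (hcent _ _).symm
      · exact c1.isNilpotent_mul_right hgn
      · exact c2.isNilpotent_mul_left hstn
    have hlam1 : lam * σ lam = 1 := by
      have e1 : (1 : Matrix (Fin n) (Fin n) K) - Matrix.scalar (Fin n) (lam * σ lam) = Matrix.scalar (Fin n) (1 - lam * σ lam) := by rw [map_sub, map_one]
      rw [e1] at hkey
      obtain ⟨k, hk⟩ := hkey
      rw [← map_pow] at hk
      have h3 := congrFun (congrFun hk ⟨0, by omega⟩) ⟨0, by omega⟩
      rw [Matrix.scalar_apply, Matrix.diagonal_apply_eq] at h3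
      have h5 : 1 - lam * σ lam = 0 := isNilpotent_iff_eq_zero.mp ⟨k, h3⟩
      exact (sub_eq_zero.mp h5).symm
    have hlamq : lam ^ (q + 1) = 1 := by
      rw [pow_succ', ← hσ]; exact hlam1
    obtain ⟨s, hs⟩ := exists_detU (n := n) hK hn (Units.mk0 lam hc0) (by
      apply Units.ext; rw [Units.val_pow_eq_pow_val, Units.val_mk0, hlamq]; rfl)
    refine ⟨⟨Units.mk0 lam hc0, ⟨s, hs⟩⟩, ?_⟩
    apply Subtype.ext
    apply Units.ext
    show lam ^ n = ((Matrix.GeneralLinearGroup.det g.1 : Kˣ) : K)
    rw [Matrix.GeneralLinearGroup.val_det_apply, ← LinearMap.det_toLin', hc2, det_pol h hn c hc0]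
  · rintro ⟨⟨c, hc⟩, rfl⟩
    have hcq : (c : K) ^ (q + 1) = 1 := by
      obtain ⟨g, hg⟩ := hc
      have h1 := detU_pow hK g
      rw [hg] at h1
      have := congrArg Units.val h1
      rwa [Units.val_pow_eq_pow_val] at this
    let s : GL (Fin n) K := Units.map (Matrix.scalar (Fin n) : K →+* Matrix (Fin n) (Fin n) K).toMonoidHom c
    have hs : s ∈ Cfsg.GU n K q := by
      rw [mem_GU hσ]
      show st (Matrix.scalar (Fin n) (c : K)) * Matrix.scalar (Fin n) (c : K) = 1
      rw [hsc, ← map_mul, hσ, ← pow_succ, hcq, map_one]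
    refine ⟨⟨s, hs⟩, ?_, ?_⟩
    · rw [SetLike.mem_coe, Subgroup.mem_centralizer_singleton_iff]
      apply Subtype.ext
      apply Units.ext
      exact hcent _ _
    · apply Subtype.ext
      apply Units.ext
      show ((Matrix.GeneralLinearGroup.det s : Kˣ) : K) = (c : K) ^ n
      rw [Matrix.GeneralLinearGroup.val_det_apply]
      show (Matrix.scalar (Fin n) (c : K)).det = (c : K) ^ n
      rw [Matrix.scalar_apply, Matrix.det_diagonal, Finset.prod_const, Finset.card_univ, Fintype.card_fin]

end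

/-- Regular unipotent classes of SU_n(q), n ≥ 2: the elements u of the special unitary group (isometries of Σ u_i v_i^q of determinant one over the field with q² elements) with (u − 1)^n = 0 and rank(u − 1) = n − 1 form exactly gcd(n, q + 1) conjugacy classes of SU_n(q). -/
theorem result {K : Type*} [Field K] [Fintype K] {q n : ℕ} (hK : Fintype.card K = q ^ 2) (hn : 2 ≤ n) : Nat.card {C : ConjClasses ↥(Cfsg.SU n K q) // ∃ u : ↥(Cfsg.SU n K q), ConjClasses.mk u = C ∧ (((u : GL (Fin n) K) : Matrix (Fin n) (Fin n) K) - 1) ^ n = 0 ∧ (((u : GL (Fin n) K) : Matrix (Fin n) (Fin n) K) - 1).rank = n - 1} = Nat.gcd n (q + 1) := by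
  classical
  let ι : ↥(Cfsg.SU n K q) →* ↥(Cfsg.GU n K q) :=
    { toFun := fun A => ⟨Matrix.SpecialLinearGroup.toGL A.1, fun u v => A.2 u v⟩
      map_one' := Subtype.ext (map_one _)
      map_mul' := fun A B => Subtype.ext (map_mul _ _ _) }
  have hι : Function.Injective ι := by
    intro A B hAB
    apply Subtype.ext
    exact Matrix.SpecialLinearGroup.toGL_injective (congrArg Subtype.val hAB)
  have hker : ι.range = (detU n K q).rangeRestrict.ker := by
    rw [MonoidHom.ker_rangeRestrict]
    ext g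
    constructor
    · rintro ⟨A, rfl⟩
      rw [MonoidHom.mem_ker]
      apply Units.ext
      exact A.1.2
    · intro hd
      rw [MonoidHom.mem_ker] at hd
      have hd' := congrArg Units.val hd
      refine ⟨⟨⟨(g.1 : Matrix (Fin n) (Fin n) K), hd'⟩, fun u v => g.2 u v⟩, ?_⟩
      apply Subtype.ext
      exact Units.ext rfl
  obtain ⟨B, hB⟩ := exists_unipotent (n := n) hK (by omega)
  have hBr : B ∈ ι.range := by
    rw [hker, MonoidHom.ker_rangeRestrict, MonoidHom.mem_ker]
    exact unip_det hB.1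
  obtain ⟨x, hx⟩ := hBr
  have hxG : ((((ι x) : GL (Fin n) K) : Matrix (Fin n) (Fin n) K) - 1) ^ n = 0 ∧ ((((ι x) : GL (Fin n) K) : Matrix (Fin n) (Fin n) K) - 1).rank = n - 1 := by
    rw [hx]; exact hB
  have h := card_classes (detU n K q).rangeRestrict (MonoidHom.rangeRestrict_surjective _) ι hι hker
    (fun u => (((u : GL (Fin n) K) : Matrix (Fin n) (Fin n) K) - 1) ^ n = 0 ∧ (((u : GL (Fin n) K) : Matrix (Fin n) (Fin n) K) - 1).rank = n - 1) x (by
      intro y
      constructor
      · intro hy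
        apply gu_conj hK
        exact (reg_conj_iff (by omega) (by simp) ((ι x) : GL (Fin n) K) hxG ((ι y) : GL (Fin n) K)).mp hy
      · intro hy
        refine (reg_conj_iff (by omega) (by simp) ((ι x) : GL (Fin n) K) hxG ((ι y) : GL (Fin n) K)).mpr ?_
        rw [isConj_iff] at hy ⊢
        obtain ⟨c, hc⟩ := hy
        exact ⟨c, congrArg Subtype.val hc⟩)
  rw [h, centr_det hK (by omega) _ hxG, IsCyclic.index_powMonoidHom_range, card_range_detU hK (by omega), Nat.gcd_comm]

end Cfsg.Agent.S2643
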