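import Cfsg.Statements.S2644
import Cfsg.Agent.LibClsH13
import Cfsg.Agent.S2587
import Cfsg.Agent.S2572
import Cfsg.Agent.LibH22HermS
import Cfsg.Agent.LibInv2uH13

set_option autoImplicit false
open Cfsg

namespace Cfsg.Agent.S2644

open Module CfsgLib.Reg CfsgLib.Cls CfsgLib.Inv2 Cfsg.Agent.H22 Cfsg.Agent.S2587 Cfsg.Agent.S2579
open Matrix (mulVec)
open scoped Matrix

section
variable {K : Type*} [Field K] [Fintype K] {q n : ℕ}

theorem tv_GL_conj {s t : GL (Fin n) K} (hs : Cfsg.IsTransvection (s : Matrix (Fin n) (Fin n) K)) (ht : Cfsg.IsTransvection (t : Matrix (Fin n) (Fin n) K)) :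
    IsConj s t := by
  have h1 := tv_props hs
  have h2 := tv_props ht
  obtain ⟨b1, h11, h12⟩ := exists_adapted _ h1.1 h1.2
  obtain ⟨b2, h21, h22⟩ := exists_adapted _ h2.1 h2.2
  let e := b1.equiv b2 (Equiv.refl _)
  have he : ∀ j, e (b1 j) = b2 j := fun j => by rw [Basis.equiv_apply]; rfl
  apply isConj_of_lin e
  intro v
  have := comm_of_bases _ _ b1 b2 h11 h12 h21 h22 (e : (Fin n → K) →ₗ[K] (Fin n → K)) (fun _ => 1) (fun _ => 1)
    (fun i => by rw [one_smul]; exact he _) (fun i => by rw [one_smul]; exact he _) (fun i => by rw [one_smul]; exact he _) v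
  simp only [map_sub, LinearMap.sub_apply, Matrix.toLin'_one, LinearMap.id_apply, Matrix.toLin'_apply] at this
  exact sub_left_injective this

/-- a non-isotropic vector in the kernel -/
theorem exists_vec {σ : K →+* K} (hσ2 : ∀ x, σ (σ x) = x) (hσi : σ ≠ RingHom.id K) (hn : 3 ≤ n) (N : (Fin n → K) →ₗ[K] (Fin n → K))
    (hN : ∀ x y, BH σ n x (N y) = -(BH σ n (N x) y) - BH σ n (N x) (N y)) (hr : finrank K (LinearMap.range N) = 1) :
    ∃ d, N d = 0 ∧ BH σ n d d ≠ 0 := by
  obtain ⟨w, hw0, hw⟩ := finrank_eq_one_iff'.mp hr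
  have hker : finrank K (LinearMap.ker N) = n - 1 := by
    have := LinearMap.finrank_range_add_finrank_ker N
    rw [hr, Module.finrank_fintype_fun_eq_card, Fintype.card_fin] at this
    omega
  obtain ⟨w1, hw1⟩ := w.2
  have hperp : ∀ x, N x = 0 → BH σ n x w = 0 := by
    intro x hx
    rw [← hw1, hN, hx]
    simp
  have hperp' : ∀ x, N x = 0 → BH σ n w x = 0 := by
    intro x hx
    rw [← BH_symm hσ2, hperp x hx, map_zero]
  -- kernel of BH w
  have hkw : LinearMap.ker N = LinearMap.ker (BH σ n (w : Fin n → K)) := by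
    apply Submodule.eq_of_le_of_finrank_eq (fun x hx => hperp' x hx)
    have h1 := LinearMap.finrank_range_add_finrank_ker (BH σ n (w : Fin n → K))
    have h2 : finrank K (LinearMap.range (BH σ n (w : Fin n → K))) = 1 := by
      have h3 : LinearMap.range (BH σ n (w : Fin n → K)) = ⊤ := by
        rw [LinearMap.range_eq_top]
        apply LinearMap.surjective
        intro h0
        apply hw0
        apply Subtype.ext
        apply BH_nondeg (σ := σ)
        intro y
        rw [h0]; rfl
      rw [h3, finrank_top, finrank_self]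
    rw [h2, Module.finrank_fintype_fun_eq_card, Fintype.card_fin] at h1
    rw [hker]; omega
  -- x in ker N not in span w
  obtain ⟨x, hx, hxw⟩ : ∃ x, N x = 0 ∧ x ∉ (K ∙ (w : Fin n → K)) := by
    by_contra hcon
    push Not at hcon
    have h1 : LinearMap.ker N ≤ (K ∙ (w : Fin n → K)) := fun x hx => hcon x hx
    have h2 := Submodule.finrank_mono h1
    have h3 := finrank_span_le_card (R := K) ({(w : Fin n → K)} : Set (Fin n → K))
    rw [hker] at h2
    simp only [Set.toFinset_singleton, Finset.card_singleton] at h3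
    omega
  obtain ⟨z, hz, hxz⟩ : ∃ z, N z = 0 ∧ BH σ n x z ≠ 0 := by
    by_contra hcon
    push Not at hcon
    apply hxw
    -- BH x vanishes on ker (BH w)
    have h1 : ∀ z, BH σ n (w : Fin n → K) z = 0 → BH σ n x z = 0 := by
      intro z hz
      have : z ∈ LinearMap.ker N := by rw [hkw]; exact hz
      exact hcon z this
    obtain ⟨y0, hy0⟩ : ∃ y, BH σ n (w : Fin n → K) y ≠ 0 := by
      by_contra hc; push Not at hc
      exact hw0 (Subtype.ext (BH_nondeg (σ := σ) _ hc))
    set c := BH σ n x y0 / BH σ n (w : Fin n → K) y0 with hc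
    have h2 : ∀ y, BH σ n x y = c * BH σ n (w : Fin n → K) y := by
      intro y
      have h3 := h1 (y - (BH σ n (w : Fin n → K) y / BH σ n (w : Fin n → K) y0) • y0) (by
        rw [map_sub, map_smul, smul_eq_mul]; field_simp; ring)
      rw [map_sub, map_smul, smul_eq_mul, sub_eq_zero] at h3
      rw [h3, hc]; field_simp
    have h4 : x = σ c • (w : Fin n → K) := by
      rw [← sub_eq_zero]
      apply BH_nondeg (σ := σ)
      intro y
      rw [map_sub, LinearMap.sub_apply, LinearMap.map_smulₛₗ, LinearMap.smul_apply, hσ2, smul_eq_mul, h2, sub_self]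
    rw [h4]
    exact Submodule.smul_mem _ _ (Submodule.mem_span_singleton_self _)
  by_cases hxx : BH σ n x x = 0
  · by_cases hzz : BH σ n z z = 0
    · obtain ⟨t, ht⟩ := exists_trace_eq hσ2 hσi 1 (map_one σ)
      refine ⟨x + (t / BH σ n x z) • z, by rw [map_add, map_smul, hx, hz]; simp, ?_⟩
      have h5 : BH σ n z x = σ (BH σ n x z) := (BH_symm hσ2 x z).symm
      have h6 : σ (BH σ n x z) ≠ 0 := (map_ne_zero σ).mpr hxz
      rw [map_add, semi_add, semi_add, semi_smul, semi_smul, lin_smul, lin_smul, hxx, hzz, h5, map_div₀]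
      simp only [mul_zero, add_zero, zero_add]
      rw [div_mul_cancel₀ _ hxz, div_mul_cancel₀ _ h6, add_comm, ht]
      exact one_ne_zero
    · exact ⟨z, hz, hzz⟩
  · exact ⟨x, hx, hxx⟩

/-- the centraliser of a transvection in `GU` has full determinant -/
theorem exists_centr (hK : Fintype.card K = q ^ 2) (hn : 3 ≤ n) (s : ↥(Cfsg.GU n K q)) (hs : Cfsg.IsTransvection (((s : GL (Fin n) K) : Matrix (Fin n) (Fin n) K)))
    (c : K) (hc : c ^ (q + 1) = 1) : ∃ D : ↥(Cfsg.GU n K q), D * s = s * D ∧ ((D : GL (Fin n) K) : Matrix (Fin n) (Fin n) K).det = c := by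
  classical
  obtain ⟨σ, hσ, hσ2, hσi⟩ := exists_sigma hK
  set S : Matrix (Fin n) (Fin n) K := ((s : GL (Fin n) K) : Matrix (Fin n) (Fin n) K) with hS
  have hSpres : ∀ x y, BH σ n (S *ᵥ x) (S *ᵥ y) = BH σ n x y := by
    intro x y
    rw [BH_hermForm hσ, BH_hermForm hσ]
    exact s.2 y x
  have h1 := tv_props hs
  obtain ⟨d, hd, hdd⟩ := exists_vec (n := n) hσ2 hσi hn (Matrix.toLin' (S - 1)) (by
    intro x y
    have h2 := hSpres x y
    rw [Matrix.toLin'_apply, Matrix.toLin'_apply, Matrix.sub_mulVec, Matrix.sub_mulVec, Matrix.one_mulVec, Matrix.one_mulVec]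
    simp only [map_sub, LinearMap.sub_apply]
    rw [h2]; ring) h1.2
  set β := BH σ n d d with hβ
  have hσβ : σ β = β := BH_symm hσ2 d d
  have hcσ : c * σ c = 1 := by rw [hσ, ← pow_succ', hc]
  set P : Matrix (Fin n) (Fin n) K := Matrix.vecMulVec d (fun i => σ (d i)) with hP
  have hBH : ∀ x y, BH σ n x y = (fun i => σ (x i)) ⬝ᵥ y := fun x y => rfl
  have hPP : P * P = β • P := by
    rw [hP, Matrix.vecMulVec_mul_vecMulVec, ← hBH]
    ext i j
    simp only [Matrix.vecMulVec_apply, Matrix.smul_apply, smul_eq_mul, Pi.smul_apply, MulOpposite.smul_eq_mul_unop, MulOpposite.unop_op, ← hβ]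
    ring
  set a := (c - 1) / β with ha
  set M : Matrix (Fin n) (Fin n) K := 1 + a • P with hM
  have hdet : M.det = c := by
    rw [hM, hP, ← Matrix.smul_vecMulVec, Matrix.vecMulVec_eq Unit, Matrix.det_one_add_replicateCol_mul_replicateRow]
    rw [dotProduct_smul, ← hBH, ← hβ, smul_eq_mul, ha]
    field_simp
    ring
  have hc0 : c ≠ 0 := by
    rintro rfl; rw [zero_mul] at hcσ; exact zero_ne_one hcσ
  have hstM : ((M.map σ).transpose) = 1 + σ a • P := by
    ext i j
    rw [Matrix.transpose_apply, Matrix.map_apply, hM, Matrix.add_apply, Matrix.smul_apply, map_add, hP, Matrix.vecMulVec_apply, smul_eq_mul, map_mul, map_mul, hσ2,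
      Matrix.add_apply, Matrix.smul_apply, Matrix.vecMulVec_apply, smul_eq_mul]
    congr 1
    · by_cases hij : i = j
      · subst hij; simp
      · rw [Matrix.one_apply_ne hij, Matrix.one_apply_ne (Ne.symm hij), map_zero]
    · ring
  have hMM : (M.map σ).transpose * M = 1 := by
    rw [hstM, hM, add_mul, one_mul, mul_add, mul_one, Matrix.smul_mul, Matrix.mul_smul, hPP, smul_smul, smul_smul]
    have : a + (σ a + σ a * a * β) = 0 := by
      rw [ha, map_div₀, map_sub, map_one, hσβ]
      field_simp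
      linear_combination hcσ
    rw [add_assoc, ← add_smul, ← add_smul, this, zero_smul, add_zero]
  let D : GL (Fin n) K := Matrix.GeneralLinearGroup.mkOfDetNeZero M (by rw [hdet]; exact hc0)
  have hD : D ∈ Cfsg.GU n K q := (mem_GU hσ D).mpr hMM
  refine ⟨⟨D, hD⟩, ?_, hdet⟩
  apply Subtype.ext
  apply Units.ext
  show M * S = S * M
  -- (S - 1) P = 0 = P (S - 1)
  have e1 : (S - 1) * P = 0 := by
    rw [hP, Matrix.mul_vecMulVec]
    have : (S - 1) *ᵥ d = 0 := hd
    rw [this, Matrix.zero_vecMulVec]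
  have e2 : P * (S - 1) = 0 := by
    rw [hP, Matrix.vecMulVec_mul]
    have : (fun i => σ (d i)) ᵥ* (S - 1) = 0 := by
      apply dotProduct_eq
      intro y
      rw [← Matrix.dotProduct_mulVec, ← hBH, zero_dotProduct]
      have h2 := hSpres d y
      have h3 : S *ᵥ d = d := by
        have : (S - 1) *ᵥ d = 0 := hd
        rw [Matrix.sub_mulVec, Matrix.one_mulVec, sub_eq_zero] at this
        exact this
      rw [h3] at h2
      rw [Matrix.sub_mulVec, Matrix.one_mulVec, map_sub, h2, sub_self]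
    rw [this, Matrix.vecMulVec_zero]
  have e3 : S * P = P := by
    rw [Matrix.sub_mul, one_mul, sub_eq_zero] at e1; exact e1
  have e4 : P * S = P := by
    rw [Matrix.mul_sub, mul_one, sub_eq_zero] at e2; exact e2
  rw [hM, add_mul, mul_add, one_mul, mul_one, Matrix.smul_mul, Matrix.mul_smul, e3, e4]

end

/-- In the special unitary group SU_n(q) with n ≥ 3 (isometries of Σ u_i v_i^q of determinant one over the field with q² elements), any two transvections (elements t with t − 1 of rank one and square zero) are conjugate. -/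
theorem result {K : Type*} [Field K] [Fintype K] {q n : ℕ} (hK : Fintype.card K = q ^ 2) (hn : 3 ≤ n) (s t : ↥(Cfsg.SU n K q)) (hs : Cfsg.IsTransvection (((s : GL (Fin n) K) : Matrix (Fin n) (Fin n) K))) (ht : Cfsg.IsTransvection (((t : GL (Fin n) K) : Matrix (Fin n) (Fin n) K))) : IsConj s t := by
  classical
  let S : ↥(Cfsg.GU n K q) := ⟨Matrix.SpecialLinearGroup.toGL s.1, fun u v => s.2 u v⟩
  let T : ↥(Cfsg.GU n K q) := ⟨Matrix.SpecialLinearGroup.toGL t.1, fun u v => t.2 u v⟩
  have h1 : IsConj S T := gu_conj hK S T (tv_GL_conj hs ht)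
  rw [isConj_iff] at h1
  obtain ⟨g, hg⟩ := h1
  have hgd := detU_pow hK g
  have hgd' : (((g : GL (Fin n) K) : Matrix (Fin n) (Fin n) K).det) ^ (q + 1) = 1 := by
    have := congrArg Units.val hgd
    rwa [Units.val_pow_eq_pow_val] at this
  have hg0 : (((g : GL (Fin n) K) : Matrix (Fin n) (Fin n) K).det) ≠ 0 := by
    intro h; rw [h, zero_pow (by omega)] at hgd'; exact zero_ne_one hgd'
  obtain ⟨D, hD1, hD2⟩ := exists_centr hK hn S hs ((((g : GL (Fin n) K) : Matrix (Fin n) (Fin n) K).det)⁻¹) (by rw [inv_pow, hgd', inv_one])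
  have hdet : (((g * D : ↥(Cfsg.GU n K q)) : GL (Fin n) K) : Matrix (Fin n) (Fin n) K).det = 1 := by
    show (((g : GL (Fin n) K) : Matrix (Fin n) (Fin n) K) * ((D : GL (Fin n) K) : Matrix (Fin n) (Fin n) K)).det = 1
    rw [Matrix.det_mul, hD2, mul_inv_cancel₀ hg0]
  let h : ↥(Cfsg.SU n K q) := ⟨⟨(((g * D : ↥(Cfsg.GU n K q)) : GL (Fin n) K) : Matrix (Fin n) (Fin n) K), hdet⟩, fun u v => (g * D).2 u v⟩
  have hfin : h * s = t * h := by
    apply Subtype.ext
    apply Subtype.ext
    show (((g : GL (Fin n) K) : Matrix (Fin n) (Fin n) K) * ((D : GL (Fin n) K) : Matrix (Fin n) (Fin n) K)) * _ = _ * (((g : GL (Fin n) K) : Matrix (Fin n) (Fin n) K) * ((D : GL (Fin n) K) : Matrix (Fin n) (Fin n) K))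
    have e1 : g * S = T * g := by rw [← hg]; group
    have e2 : (g * D) * S = T * (g * D) := by
      rw [mul_assoc, hD1, ← mul_assoc, e1, mul_assoc]
    exact congrArg (fun z : ↥(Cfsg.GU n K q) => ((z : GL (Fin n) K) : Matrix (Fin n) (Fin n) K)) e2
  rw [isConj_iff]
  exact ⟨h, by rw [hfin, mul_inv_cancel_right]⟩

end Cfsg.Agent.S2644
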