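import Cfsg.Statements.S2645
import Cfsg.Agent.LibRSym5H13

set_option autoImplicit false
open Cfsg

namespace Cfsg.Agent.S2645

open Module CfsgLib.Typ CfsgLib.SS2 CfsgLib.Dual CfsgLib.RS CfsgLib.Semi Cfsg.Agent.H22

section
variable {F : Type*} [Field F] [Fintype F] {p r m : ℕ} [Fact p.Prime] [CharP F p] (hr : r.Prime) (hrp : r ≠ p)
include p hr hrp

theorem exists_sp (hodd : Odd r) (a : fac F r → ℕ) (ha : ∀ f, a (io hr hrp f) = a f) (hle : orderOf (Fintype.card F : ZMod r) * ∑ f, a f ≤ 2 * m)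
    (heven : Even (orderOf (Fintype.card F : ZMod r) * ∑ f, a f)) : ∃ A : Matrix.symplecticGroup (Fin m) F,
      ((spToLin A : (Fin m ⊕ Fin m → F) →ₗ[F] (Fin m ⊕ Fin m → F)) : End F (Fin m ⊕ Fin m → F)) ^ r = 1 ∧ mult r (spToLin A : (Fin m ⊕ Fin m → F) →ₗ[F] (Fin m ⊕ Fin m → F)) = a := by
  classical
  have hR := rsym_all hr hrp a ha
  obtain ⟨n, hn⟩ : ∃ n, n = orderOf (Fintype.card F : ZMod r) * ∑ f, a f := ⟨_, rfl⟩
  rw [← hn] at hR hle heven
  obtain ⟨S, T, hS, hs, hT, hf, hTr, hm⟩ := hR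
  obtain ⟨B, hA, hB, hBT⟩ := sp_of_sym hodd T hf hTr S hS hs hT
  obtain ⟨k, hk⟩ := heven
  let m0 := m - k
  let C : LinearMap.BilinForm F ((Fin n → F) × (Fin m0 ⊕ Fin m0 → F)) := B.compl₁₂ (LinearMap.fst F _ _) (LinearMap.fst F _ _) + (spB m0 F).compl₁₂ (LinearMap.snd F _ _) (LinearMap.snd F _ _)
  have hp : ∀ x y, C x y = B x.1 y.1 + spB m0 F x.2 y.2 := fun x y => rfl
  have hCA : C.IsAlt := fun x => by rw [hp, hA, spB_isAlt, add_zero]
  have hCB : C.Nondegenerate := by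
    have key : ∀ x, (∀ y, C x y = 0) → x = 0 := by
      intro x hx
      apply Prod.ext
      · apply hB.1
        intro y
        have h1 := hx (y, 0)
        rw [hp, map_zero, add_zero] at h1
        exact h1
      · apply spB_nondeg.1
        intro y
        have h1 := hx (0, y)
        rw [hp, map_zero, zero_add] at h1
        exact h1
    refine ⟨key, fun x hx => key x (fun y => ?_)⟩
    have := LinearMap.IsAlt.neg hCA y x
    rw [← this, hx y, neg_zero]
  let T2 : ((Fin n → F) × (Fin m0 ⊕ Fin m0 → F)) ≃ₗ[F] ((Fin n → F) × (Fin m0 ⊕ Fin m0 → F)) := T.prodCongr (LinearEquiv.refl F _)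
  obtain ⟨φ, hφ⟩ := alt_iso C hCA hCB (spB m F) spB_isAlt spB_nondeg (by
    rw [Module.finrank_prod, Module.finrank_fin_fun, Module.finrank_fintype_fun_eq_card, Module.finrank_fintype_fun_eq_card]
    simp only [Fintype.card_sum, Fintype.card_fin]
    show n + (m0 + m0) = m + m
    simp only [m0]
    omega)
  obtain ⟨A, hAT⟩ := exists_spToLin (φ.symm.trans (T2.trans φ)) (by
    intro u v
    show spB m F (φ (T2 (φ.symm u))) (φ (T2 (φ.symm v))) = _
    rw [hφ, hp]
    have h1 : B (T2 (φ.symm u)).1 (T2 (φ.symm v)).1 + spB m0 F (T2 (φ.symm u)).2 (T2 (φ.symm v)).2 = C (φ.symm u) (φ.symm v) := by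
      show B (T (φ.symm u).1) (T (φ.symm v).1) + spB m0 F (φ.symm u).2 (φ.symm v).2 = _
      rw [hBT, hp]
    rw [h1, ← hφ, LinearEquiv.apply_symm_apply, LinearEquiv.apply_symm_apply])
  have hint : ∀ v, φ (T2 v) = spToLin A (φ v) := by
    intro v
    rw [hAT]
    show φ (T2 v) = φ (T2 (φ.symm (φ v)))
    rw [LinearEquiv.symm_apply_apply]
  have hT2 : ((T2 : ((Fin n → F) × (Fin m0 ⊕ Fin m0 → F)) →ₗ[F] ((Fin n → F) × (Fin m0 ⊕ Fin m0 → F))) : End F _) = LinearMap.prodMap (T : (Fin n → F) →ₗ[F] (Fin n → F)) 1 := rfl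
  refine ⟨A, conj_pow φ hint (by rw [hT2]; exact prodMap_pow hTr (one_pow r)), ?_⟩
  rw [← mult_congr φ hint, hT2, mult_prod hr hrp hTr (one_pow r), mult_one hr hrp, add_zero, hm]

theorem sp_conj_iff (g h : Matrix.symplecticGroup (Fin m) F) (hg : orderOf g = r) (hh : orderOf h = r) : (IsConj g h ↔ mult r (spToLin g : (Fin m ⊕ Fin m → F) →ₗ[F] (Fin m ⊕ Fin m → F)) = mult r (spToLin h : (Fin m ⊕ Fin m → F) →ₗ[F] (Fin m ⊕ Fin m → F))) := by
  have hr0 : (r : F) ≠ 0 := by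
    rw [Ne, CharP.cast_eq_zero_iff F p]
    intro h
    exact hrp ((Nat.prime_dvd_prime_iff_eq (Fact.out : p.Prime) hr).1 h).symm
  refine conj_iff (V := Fin m ⊕ Fin m → F) hr hrp (spToLin (m := m) (F := F)) ?_ g h hg hh
  intro g h hg hh hψ
  obtain ⟨ψ, hψ⟩ := hψ
  obtain ⟨Gm, hG1, hG2⟩ := symp_conj (spB m F) spB_isAlt spB_nondeg (spB m F) spB_isAlt spB_nondeg (spToLin g) (spToLin_isometry g) (spToLin h) (spToLin_isometry h) hr0
    (pow_equiv _ (pow_r spToLin hg)) ψ hψ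
  obtain ⟨c, hc⟩ := exists_spToLin Gm hG1
  rw [isConj_iff]
  refine ⟨c, ?_⟩
  apply spToLin_injective
  rw [map_mul, map_mul, map_inv, hc]
  ext1 v
  show Gm (spToLin g (Gm⁻¹ v)) = spToLin h v
  rw [hG2]
  congr 1
  exact Gm.apply_symm_apply v

theorem sp_himg (hr2 : r ≠ 2) (a : fac F r → ℕ) : (∃ g : Matrix.symplecticGroup (Fin m) F, orderOf g = r ∧ mult r (spToLin g : (Fin m ⊕ Fin m → F) →ₗ[F] (Fin m ⊕ Fin m → F)) = a) ↔
      (a ≠ 0 ∧ (∀ f, a (io hr hrp f) = a f) ∧ orderOf (Fintype.card F : ZMod r) * ∑ x, a x ≤ 2 * m ∧ ¬ (orderOf (Fintype.card F : ZMod r) * ∑ x, a x = 2 * m ∧ (fun _ => False) (∑ x, a x))) := by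
  have hodd : Odd r := hr.odd_of_ne_two hr2
  constructor
  · rintro ⟨g, hg, rfl⟩
    have e1 := mult_ne_zero (V := Fin m ⊕ Fin m → F) (G := Matrix.symplecticGroup (Fin m) F) hr hrp (spToLin (m := m) (F := F)) hg spToLin_injective
    have e2 := mult_isom hr hrp (spB m F) spB_nondeg (spToLin g) (spToLin_isometry g)
    have e0 : (((spToLin g : (Fin m ⊕ Fin m → F) ≃ₗ[F] (Fin m ⊕ Fin m → F)) : (Fin m ⊕ Fin m → F) →ₗ[F] (Fin m ⊕ Fin m → F)) : End F (Fin m ⊕ Fin m → F)) ^ r = 1 := pow_r (V := Fin m ⊕ Fin m → F) (G := Matrix.symplecticGroup (Fin m) F) (spToLin (m := m) (F := F)) hg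
    have h1 := mult_le hr hrp e0
    have h2 : finrank F (Fin m ⊕ Fin m → F) = 2 * m := by
      rw [Module.finrank_fintype_fun_eq_card, Fintype.card_sum, Fintype.card_fin, two_mul]
    rw [h2] at h1
    exact ⟨e1, e2, h1, fun h => h.2⟩
  · rintro ⟨h0, h1, h2, -⟩
    have h3 : Even (orderOf (Fintype.card F : ZMod r) * ∑ f, a f) := by
      by_cases hi : Even (orderOf (Fintype.card F : ZMod r))
      · exact hi.mul_right _
      · apply Even.mul_left
        classical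
        obtain ⟨H, hH, hsum⟩ := exists_half (io (F := F) hr hrp) (io_io hr hrp) (fun f h => by
          rw [io_iff hr hrp hr2] at h
          exact hi h)
        rw [hsum a h1]
        exact ⟨_, two_mul _⟩
    obtain ⟨A, hA1, hA2⟩ := exists_sp hr hrp hodd a h1 h2 h3
    refine ⟨A, ord_of (V := Fin m ⊕ Fin m → F) (G := Matrix.symplecticGroup (Fin m) F) (spToLin (m := m) (F := F)) spToLin_injective hr hA1 (fun h => h0 ?_), hA2⟩
    rw [← hA2, h, mult_one hr hrp]

end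

/-- Number of conjugacy classes of elements of odd prime order r, r different from the characteristic, in the symplectic group Sp_2m(q): let i be the multiplicative order of q modulo r and t = (r − 1)/i. If i is odd the eigenvalue orbits pair off (Λ ≠ Λ⁻¹) and the classes correspond to the non-zero (t/2)-tuples (a_j) with 2i Σ a_j ≤ 2m, giving C(⌊m/i⌋ + t/2, t/2) − 1 classes; if i is even (Λ = Λ⁻¹) they correspond to the non-zero t-tuples with i Σ a_j ≤ 2m, giving C(⌊2m/i⌋ + t, t) − 1 classes. -/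
theorem result {F : Type*} [Field F] [Fintype F] {p q : ℕ} [Fact p.Prime] [CharP F p] (hF : Fintype.card F = q) (m r i t : ℕ) (hr : r.Prime) (hr2 : r ≠ 2) (hrp : r ≠ p) (hi : i = orderOf (q : ZMod r)) (ht : t * i = r - 1) : Nat.card {C : ConjClasses ↥(Matrix.symplecticGroup (Fin m) F) // ∃ g : Matrix.symplecticGroup (Fin m) F, ConjClasses.mk g = C ∧ orderOf g = r} = if Odd i then Nat.choose (m / i + t / 2) (t / 2) - 1 else Nat.choose (2 * m / i + t) t - 1 := by
  subst hF hi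
  have hodd : Odd r := hr.odd_of_ne_two hr2
  have himg : ∀ a : fac F r → ℕ, (∃ g : Matrix.symplecticGroup (Fin m) F, orderOf g = r ∧ mult r (spToLin g : (Fin m ⊕ Fin m → F) →ₗ[F] (Fin m ⊕ Fin m → F)) = a) ↔
      (a ≠ 0 ∧ (∀ f, a (io hr hrp f) = a f) ∧ orderOf (Fintype.card F : ZMod r) * ∑ x, a x ≤ 2 * m ∧ ¬ (orderOf (Fintype.card F : ZMod r) * ∑ x, a x = 2 * m ∧ (fun _ => False) (∑ x, a x))) :=
    sp_himg hr hrp hr2
  split_ifs with hi
  · refine (count_O hr hrp hr2 _ (sp_conj_iff hr hrp) ht hi (Or.inl rfl) (fun _ => False) False (by simp) False.elim himg).trans ?_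
    rw [if_neg not_false, Nat.sub_zero]
  · rw [Nat.not_odd_iff_even] at hi
    refine (count_E hr hrp hr2 _ (sp_conj_iff hr hrp) ht hi (Or.inl rfl) (fun _ => False) False (by simp) False.elim himg).trans ?_
    rw [if_neg not_false, Nat.sub_zero]

end Cfsg.Agent.S2645
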