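import Cfsg.Statements.S2666
import Cfsg.Agent.LibH2Shin

set_option autoImplicit false
open Cfsg

namespace Cfsg.Agent.S2666

open CfsgLib.H2Shin


/-- Shintani descent, in an abstract form. Let `σ` be an automorphism of a group `X` such that the maps `a ↦ a·σ(a)⁻¹` and `a ↦ a·σᵉ(a)⁻¹` are surjective on `X` (the Lang–Steinberg property, which holds when `X` is a connected algebraic group and `σ` a Steinberg endomorphism), where `e ≥ 1`. Write `G` for the subgroup of fixed points of `σᵉ` and `H` for the subgroup of fixed points of `σ`. The `G`-conjugacy classes in the coset `G σ` of the semidirect product of `G` by `σ` correspond to the orbits of `G` on itself under twisted conjugation `g ↦ k g σ(k)⁻¹`, and the `e`-th power of `g σ` has `G`-part the norm `g σ(g) ⋯ σ^(e-1)(g)`. For `g` in `G` and any `a` with `g = a σ(a)⁻¹`, put `x = σᵉ(a)⁻¹ a`. Then: (1) `x` lies in `H`, and `a⁻¹ · (g σ(g) ⋯ σ^(e-1)(g))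 · a = x`; (2) for `g, g'` in `G` with such elements `a, b` and `x, x'`, the elements `g, g'` are twisted-conjugate under `G` if and only if `x, x'` are conjugate in `H`; (3) every element of `H` arises as such an `x`. So `g ↦ x` induces a well-defined bijection from the twisted `G`-classes of `G` onto the conjugacy classes of `H` (the Shintani map). -/
theorem result {X : Type*} [Group X] (σ : MulAut X) (e : ℕ) (he : 1 ≤ e)
    (hL : ∀ g : X, ∃ a : X, g = a * (σ a)⁻¹) (hLe : ∀ g : X, ∃ a : X, g = a * ((σ ^ e) a)⁻¹) :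
    (∀ g ∈ (MulEquiv.toMonoidHom (σ ^ e)).eqLocus (MonoidHom.id X), ∀ a : X, g = a * (σ a)⁻¹ →
        ((σ ^ e) a)⁻¹ * a ∈ (MulEquiv.toMonoidHom σ).eqLocus (MonoidHom.id X) ∧
          a⁻¹ * ((List.range e).map (fun i => (σ ^ i) g)).prod * a = ((σ ^ e) a)⁻¹ * a) ∧
    (∀ g ∈ (MulEquiv.toMonoidHom (σ ^ e)).eqLocus (MonoidHom.id X), ∀ g' ∈ (MulEquiv.toMonoidHom (σ ^ e)).eqLocus (MonoidHom.id X), ∀ a b : X,
        g = a * (σ a)⁻¹ → g' = b * (σ b)⁻¹ →
          ((∃ k ∈ (MulEquiv.toMonoidHom (σ ^ e)).eqLocus (MonoidHom.id X), g' = k * g * (σ k)⁻¹) ↔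
            (∃ h ∈ (MulEquiv.toMonoidHom σ).eqLocus (MonoidHom.id X), ((σ ^ e) b)⁻¹ * b = h * (((σ ^ e) a)⁻¹ * a) * h⁻¹))) ∧
    (∀ x ∈ (MulEquiv.toMonoidHom σ).eqLocus (MonoidHom.id X), ∃ g ∈ (MulEquiv.toMonoidHom (σ ^ e)).eqLocus (MonoidHom.id X), ∃ a : X,
        g = a * (σ a)⁻¹ ∧ ((σ ^ e) a)⁻¹ * a = x) := by
  refine ⟨?_, ?_, ?_⟩
  · intro g hg a ha
    refine ⟨fix_x σ hg ha, ?_⟩
    rw [prod_eq σ ha]; group
  · intro g hg g' hg' a b ha hb
    constructor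
    · rintro ⟨k, hk, hk'⟩
      have h1 := (shin_iff σ (e := e) (k := k) ha hb).mp ⟨hk, hk'⟩
      exact ⟨b⁻¹ * k * a, h1.1, h1.2⟩
    · rintro ⟨h, hh, hh'⟩
      have h1 : b⁻¹ * (b * h * a⁻¹) * a = h := by group
      have h2 := (shin_iff σ (e := e) (k := b * h * a⁻¹) ha hb).mpr (by rw [h1]; exact ⟨hh, hh'⟩)
      exact ⟨b * h * a⁻¹, h2.1, h2.2⟩
  · intro x hx
    obtain ⟨c, hc⟩ := hLe x⁻¹
    refine ⟨c⁻¹ * (σ c⁻¹)⁻¹, ?_, c⁻¹, rfl, ?_⟩
    · show (σ ^ e) (c⁻¹ * (σ c⁻¹)⁻¹) = c⁻¹ * (σ c⁻¹)⁻¹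
      have h1 : (σ ^ e) c⁻¹ = c⁻¹ * x⁻¹ := by
        rw [map_inv, hc]; group
      have hx' : σ x = x := hx
      have h2 : (σ ^ e) (σ c⁻¹)⁻¹ = x * (σ c⁻¹)⁻¹ := by
        rw [map_inv, comm_apply, h1, map_mul, map_inv σ x, hx']
        group
      rw [map_mul, h1, h2]
      group
    · rw [map_inv, inv_inv, ← inv_inj, hc]; group

end Cfsg.Agent.S2666
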