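import Cfsg.Statements.S2669
import Cfsg.Agent.LibH2Shin

set_option autoImplicit false
open Cfsg

namespace Cfsg.Agent.S2669

open CfsgLib.H2Shin


/-- Shintani descent preserves numbers of fixed points on coset spaces (abstract form). Let `σ` be an automorphism of a group `X` and `e ≥ 1`; write `G` for the fixed points of `σᵉ` and `H` for the fixed points of `σ`, and assume `G` is finite. Let `Y` be a `σ`-stable subgroup of `X` on which the maps `a ↦ a σ(a)⁻¹` and `a ↦ a σᵉ(a)⁻¹` are surjective (as for a closed connected `σ`-stable subgroup of an algebraic group). Let `g ∈ G`, let `a ∈ X` satisfy `g = a σ(a)⁻¹` and put `x = σᵉ(a)⁻¹ a` (the Shintani image, an element of `H`). The element `g σ` of the semidirect product acts on the cosets of `Y ∩ G` in `G` by `k (Y ∩ G) ↦ g σ(k) (Y ∩ G)`, fixing that coset exactly when `k⁻¹ g σ(k) ∈ Y`; and `x` fixes the coset `h (Y ∩ H)` of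 `H` exactly when `h⁻¹ x h ∈ Y`. Then the two numbers of fixed cosets agree; in cross-multiplied form, `#{k ∈ G : k⁻¹ g σ(k) ∈ Y} · |Y ∩ H| = #{h ∈ H : h⁻¹ x h ∈ Y} · |Y ∩ G|`. -/
theorem result {X : Type*} [Group X] (σ : MulAut X) (e : ℕ) (he : 1 ≤ e)
    [Finite ↥((MulEquiv.toMonoidHom (σ ^ e)).eqLocus (MonoidHom.id X))]
    (Y : Subgroup X) (hY : ∀ y : X, y ∈ Y ↔ σ y ∈ Y)
    (hYL : ∀ y ∈ Y, ∃ a ∈ Y, y = a * (σ a)⁻¹) (hYLe : ∀ y ∈ Y, ∃ a ∈ Y, y = a * ((σ ^ e) a)⁻¹)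
    (g : X) (hg : g ∈ (MulEquiv.toMonoidHom (σ ^ e)).eqLocus (MonoidHom.id X)) (a : X) (ha : g = a * (σ a)⁻¹) :
    Nat.card {k : ↥((MulEquiv.toMonoidHom (σ ^ e)).eqLocus (MonoidHom.id X)) // (k : X)⁻¹ * g * σ k ∈ Y} *
        Nat.card ↥(Y ⊓ (MulEquiv.toMonoidHom σ).eqLocus (MonoidHom.id X)) =
      Nat.card {h : ↥((MulEquiv.toMonoidHom σ).eqLocus (MonoidHom.id X)) // (h : X)⁻¹ * (((σ ^ e) a)⁻¹ * a) * h ∈ Y} *
        Nat.card ↥(Y ⊓ (MulEquiv.toMonoidHom (σ ^ e)).eqLocus (MonoidHom.id X)) := by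
  have hYe : ∀ n : ℕ, ∀ y : X, y ∈ Y ↔ (σ ^ n) y ∈ Y := by
    intro n
    induction n with
    | zero => intro y; rfl
    | succ n ih =>
      intro y
      rw [pow_succ', MulAut.mul_apply, ← hY, ← ih]
  set G := (MulEquiv.toMonoidHom (σ ^ e)).eqLocus (MonoidHom.id X) with hG
  set H := (MulEquiv.toMonoidHom σ).eqLocus (MonoidHom.id X) with hH
  set x := ((σ ^ e) a)⁻¹ * a with hx
  have hxf : σ x = x := fix_x σ hg ha
  have h1 : Nat.card {z : ↥G × X // (z.2 ∈ Y ∧ σ (a⁻¹ * z.1 * z.2) = a⁻¹ * z.1 * z.2)} =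
      Nat.card {k : ↥G // (k : X)⁻¹ * g * σ k ∈ Y} * Nat.card ↥(Y ⊓ H) := by
    refine card_pairs (Y ⊓ H) (fun k : G => (k : X)⁻¹ * g * σ k ∈ Y)
      (fun (k : G) (b : X) => b ∈ Y ∧ σ (a⁻¹ * k * b) = a⁻¹ * k * b) ?_ ?_ ?_
    · intro k hk
      obtain ⟨b, hb, hb'⟩ := hYL _ hk
      refine ⟨b, hb, ?_⟩
      rw [ha] at hb'
      rw [map_mul, map_mul, map_inv]
      have h2 : (σ a)⁻¹ * σ k = a⁻¹ * k * (b * (σ b)⁻¹) := by rw [← hb']; group
      rw [h2]; group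
    · rintro k b ⟨hb, hb'⟩
      have h2 : (k : X)⁻¹ * g * σ k = b * (σ b)⁻¹ := by
        rw [map_mul, map_mul, map_inv] at hb'
        rw [ha]
        have h3 : (σ a)⁻¹ * σ k = a⁻¹ * k * b * (σ b)⁻¹ := by rw [← hb']; group
        calc (k : X)⁻¹ * (a * (σ a)⁻¹) * σ k = (k : X)⁻¹ * a * ((σ a)⁻¹ * σ k) := by group
          _ = _ := by rw [h3]; group
      show (k : X)⁻¹ * g * σ k ∈ Y
      rw [h2]
      exact Y.mul_mem hb (Y.inv_mem ((hY b).mp hb))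
    · rintro k b b' ⟨hb, hb'⟩
      constructor
      · rintro ⟨hc, hc'⟩
        refine ⟨Y.mul_mem (Y.inv_mem hb) hc, ?_⟩
        show σ (b⁻¹ * b') = b⁻¹ * b'
        have h3 : b⁻¹ * b' = (a⁻¹ * k * b)⁻¹ * (a⁻¹ * k * b') := by group
        rw [h3, map_mul, map_inv, hb', hc']
      · rintro ⟨hc, hc'⟩
        have hc2 : σ (b⁻¹ * b') = b⁻¹ * b' := hc'
        refine ⟨?_, ?_⟩
        · have := Y.mul_mem hb hc
          rwa [mul_inv_cancel_left] at this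
        · have h3 : a⁻¹ * (k : X) * b' = (a⁻¹ * k * b) * (b⁻¹ * b') := by group
          rw [h3, map_mul, hb', hc2]
  have h2 : Nat.card {z : ↥H × X // (z.2⁻¹ ∈ Y ∧ (σ ^ e) (a * z.1 * z.2) = a * z.1 * z.2)} =
      Nat.card {h : ↥H // (h : X)⁻¹ * x * h ∈ Y} * Nat.card ↥(Y ⊓ G) := by
    refine card_pairs (Y ⊓ G) (fun h : H => (h : X)⁻¹ * x * h ∈ Y)
      (fun (h : H) (c : X) => c⁻¹ ∈ Y ∧ (σ ^ e) (a * h * c) = a * h * c) ?_ ?_ ?_
    · intro h hh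
      obtain ⟨c, hc, hc'⟩ := hYLe _ (Y.inv_mem hh)
      refine ⟨c, Y.inv_mem hc, ?_⟩
      have hh1 : (σ ^ e) (h : X) = h := pow_fix σ h.2 e
      rw [map_mul, map_mul, hh1]
      have h3 : (σ ^ e) c = ((h : X)⁻¹ * x * h) * c := by
        have h4 : c = ((h : X)⁻¹ * x * h)⁻¹ * (σ ^ e) c := by rw [hc']; group
        conv_rhs => rw [h4]
        group
      rw [h3, hx]; group
    · rintro h c ⟨hc, hc'⟩
      have hh1 : (σ ^ e) (h : X) = h := pow_fix σ h.2 e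
      rw [map_mul, map_mul, hh1] at hc'
      have h3 : (h : X)⁻¹ * x * h = (σ ^ e) c * c⁻¹ := by
        have h4 : (σ ^ e) c = (h : X)⁻¹ * ((σ ^ e) a)⁻¹ * (a * h * c) := by rw [← hc']; group
        rw [h4, hx]; group
      show (h : X)⁻¹ * x * h ∈ Y
      rw [h3]
      refine Y.mul_mem ?_ hc
      have := (hYe e c⁻¹).mp hc
      rw [map_inv] at this
      exact Y.inv_mem_iff.mp this
    · rintro h c c' ⟨hc, hc'⟩
      constructor
      · rintro ⟨hd, hd'⟩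
        refine ⟨Y.mul_mem hc (Y.inv_mem_iff.mp hd), ?_⟩
        show (σ ^ e) (c⁻¹ * c') = c⁻¹ * c'
        have h3 : c⁻¹ * c' = (a * h * c)⁻¹ * (a * h * c') := by group
        rw [h3, map_mul, map_inv, hc', hd']
      · rintro ⟨hd, hd'⟩
        have hd2 : (σ ^ e) (c⁻¹ * c') = c⁻¹ * c' := hd'
        refine ⟨?_, ?_⟩
        · have := Y.mul_mem (Y.inv_mem hd) hc
          have h5 : c'⁻¹ = (c⁻¹ * c')⁻¹ * c⁻¹ := by group
          rw [h5]; exact this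
        · have h3 : a * (h : X) * c' = (a * h * c) * (c⁻¹ * c') := by group
          rw [h3, map_mul, hc', hd2]
  rw [← h1, ← h2]
  refine Nat.card_congr
    { toFun := fun z => ⟨(⟨a⁻¹ * z.1.1 * z.1.2, z.2.2⟩, z.1.2⁻¹), ?_, ?_⟩
      invFun := fun z => ⟨(⟨a * z.1.1 * z.1.2, z.2.2⟩, z.1.2⁻¹), ?_, ?_⟩
      left_inv := ?_
      right_inv := ?_ }
  · rw [inv_inv]; exact z.2.1
  · have h3 : a * (a⁻¹ * (z.1.1 : X) * z.1.2) * z.1.2⁻¹ = z.1.1 := by group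
    show (σ ^ e) (a * (a⁻¹ * (z.1.1 : X) * z.1.2) * z.1.2⁻¹) = a * (a⁻¹ * (z.1.1 : X) * z.1.2) * z.1.2⁻¹
    rw [h3]; exact z.1.1.2
  · exact z.2.1
  · have h3 : a⁻¹ * (a * (z.1.1 : X) * z.1.2) * z.1.2⁻¹ = z.1.1 := by group
    show σ (a⁻¹ * (a * (z.1.1 : X) * z.1.2) * z.1.2⁻¹) = a⁻¹ * (a * (z.1.1 : X) * z.1.2) * z.1.2⁻¹
    rw [h3]; exact z.1.1.2
  · intro z
    apply Subtype.ext
    refine Prod.ext (Subtype.ext ?_) ?_
    · show a * (a⁻¹ * (z.1.1 : X) * z.1.2) * z.1.2⁻¹ = z.1.1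
      group
    · show z.1.2⁻¹⁻¹ = z.1.2
      group
  · intro z
    apply Subtype.ext
    refine Prod.ext (Subtype.ext ?_) ?_
    · show a⁻¹ * (a * (z.1.1 : X) * z.1.2) * z.1.2⁻¹ = z.1.1
      group
    · show z.1.2⁻¹⁻¹ = z.1.2
      group

end Cfsg.Agent.S2669
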