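import Cfsg.Statements.S2671
import Cfsg.Agent.LibDual2H13
import Cfsg.Agent.LibJor2H13
import Cfsg.Agent.S2588

set_option autoImplicit false
open Cfsg

namespace Cfsg.Agent.S2671

open CfsgLib.SS2 CfsgLib.Cnt CfsgLib.Dual CfsgLib.Jor Module Matrix Cfsg.Agent.H22 CfsgLib.Norm

section
variable {K : Type*} [Field K] [Fintype K] {p q n r : ℕ} [Fact p.Prime] [CharP K p] (hK : Fintype.card K = q ^ 2) (hr : r.Prime) (hrp : r ≠ p)
include hK hr hrp

theorem mult_unitary {k : ℕ} (hQ : q = p ^ k) (g : ↥(Cfsg.GU n K q)) (f : fac K r) :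
    mult r (Matrix.toLin' ((g : GL (Fin n) K) : Matrix (Fin n) (Fin n) K)) ⟨du r q f, du_mem hr hrp hQ f.2⟩ = mult r (Matrix.toLin' ((g : GL (Fin n) K) : Matrix (Fin n) (Fin n) K)) f := by
  obtain ⟨σ, hσ, hσ2, hσi⟩ := exists_sigma hK
  have h1 := (Cfsg.Agent.S2587.mem_GU hσ g.1).mp g.2
  exact (mult_dual hr hrp hQ hσ hσ2 (mul_eq_one_comm.1 h1) f).symm

theorem exists_unitary {k : ℕ} (hQ : q = p ^ k) (a : fac K r → ℕ) (ha : orderOf (Fintype.card K : ZMod r) * ∑ f, a f ≤ n)
    (hsym : ∀ f : fac K r, a ⟨du r q f, du_mem hr hrp hQ f.2⟩ = a f) : ∃ g : ↥(Cfsg.GU n K q), g ^ r = 1 ∧ mult r (Matrix.toLin' ((g : GL (Fin n) K) : Matrix (Fin n) (Fin n) K)) = a := by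
  classical
  obtain ⟨σ, hσ, hσ2, hσi⟩ := exists_sigma hK
  obtain ⟨T, hT, hm⟩ := exists_mult (F := K) hr hrp a ha
  obtain ⟨A, hA⟩ := exists_gl hr.ne_zero hT
  have hmapq : ∀ X : Matrix (Fin n) (Fin n) K, X.map (fun x : K => x ^ q) = X.map σ := by
    intro X
    ext i j
    rw [Matrix.map_apply, Matrix.map_apply, hσ]
  have hAr : A ^ r = 1 := by rw [← lin_eq_one, ← lin_pow, hA, hT]
  have hdet : IsUnit ((A : Matrix (Fin n) (Fin n) K).map σ)ᵀ.det := by
    rw [Matrix.det_transpose]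
    exact (Matrix.isUnit_iff_isUnit_det _).1 (A.isUnit.map σ.mapMatrix)
  have hM : (((A : Matrix (Fin n) (Fin n) K).map σ)ᵀ)⁻¹ * ((A : Matrix (Fin n) (Fin n) K).map σ)ᵀ = 1 := Matrix.nonsing_inv_mul _ hdet
  have hMr : (((A : Matrix (Fin n) (Fin n) K).map σ)ᵀ)⁻¹ ^ r = 1 := by
    have h1 : (((A : Matrix (Fin n) (Fin n) K).map σ)ᵀ) ^ r = 1 := by
      rw [← Matrix.transpose_pow]
      have h2 : ((A : Matrix (Fin n) (Fin n) K).map σ) ^ r = 1 := by
        have h3 : (σ.mapMatrix (A : Matrix (Fin n) (Fin n) K)) ^ r = 1 := by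
          rw [← map_pow, ← Units.val_pow_eq_pow_val, hAr, Units.val_one, map_one]
        exact h3
      rw [h2, Matrix.transpose_one]
    have h4 := Commute.mul_pow (show Commute ((((A : Matrix (Fin n) (Fin n) K).map σ)ᵀ)⁻¹) (((A : Matrix (Fin n) (Fin n) K).map σ)ᵀ) from hM.trans (mul_eq_one_comm.1 hM).symm) r
    rw [hM, one_pow, h1, mul_one] at h4
    exact h4.symm
  have hTr : (Matrix.toLin' ((((A : Matrix (Fin n) (Fin n) K).map σ)ᵀ)⁻¹)) ^ r = 1 := by
    rw [← Matrix.toLin'_pow, hMr, Matrix.toLin'_one]; rfl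
  obtain ⟨ψ, hψ⟩ := conj_of_mult (T := Matrix.toLin' (A : Matrix (Fin n) (Fin n) K)) (T' := Matrix.toLin' ((((A : Matrix (Fin n) (Fin n) K).map σ)ᵀ)⁻¹)) hr hrp (by rw [hA, hT]) hTr rfl (by
    funext f
    rw [mult_dual hr hrp hQ hσ hσ2 hM f, hA, hm, hsym])
  obtain ⟨c, -, hG⟩ := CfsgLib.Cls.exists_GL_conj ψ (fun v => hψ v)
  obtain ⟨B, hB⟩ := Cfsg.Agent.S2588.similar_unitary hK A (by
    rw [hmapq]
    exact ⟨c, hG⟩)
  obtain ⟨ψ', hψ'⟩ := lin_conj hB
  refine ⟨B, ?_, ?_⟩
  · obtain ⟨c, hc⟩ := isConj_iff.1 hB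
    apply Subtype.ext
    show (B : GL (Fin n) K) ^ r = 1
    rw [← hc, conj_pow, hAr, mul_one, mul_inv_cancel]
  · rw [← mult_congr ψ' hψ', hA, hm]

theorem conj_unitary (g h : ↥(Cfsg.GU n K q)) (hg : orderOf g = r) (hh : orderOf h = r) : IsConj g h ↔
    mult r (Matrix.toLin' ((g : GL (Fin n) K) : Matrix (Fin n) (Fin n) K)) = mult r (Matrix.toLin' ((h : GL (Fin n) K) : Matrix (Fin n) (Fin n) K)) := by
  have hr' : ∀ g : ↥(Cfsg.GU n K q), orderOf g = r → (Matrix.toLin' ((g : GL (Fin n) K) : Matrix (Fin n) (Fin n) K)) ^ r = 1 := by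
    intro g hg
    rw [lin_pow, lin_eq_one]
    have h1 : g ^ r = 1 := by rw [← hg, pow_orderOf_eq_one]
    exact congrArg Subtype.val h1
  constructor
  · intro hc
    obtain ⟨ψ, hψ⟩ := lin_conj ((Cfsg.GU n K q).subtype.map_isConj hc)
    exact mult_congr ψ hψ
  · intro hm
    obtain ⟨ψ, hψ⟩ := conj_of_mult hr hrp (hr' g hg) (hr' h hh) rfl hm
    exact Cfsg.Agent.S2587.gu_conj hK g h (CfsgLib.Cls.isConj_of_lin ψ (fun v => hψ v))

end

theorem neg_q {r q : ℕ} (hr : r.Prime) (hr2 : r ≠ 2) (hi0 : 0 < orderOf (q : ZMod r)) : (∃ j, -(q : ZMod r) = ((q ^ 2 : ℕ) : ZMod r) ^ j) ↔ orderOf (q : ZMod r) % 4 = 2 := by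
  haveI : Fact r.Prime := ⟨hr⟩
  have hq0 : (q : ZMod r) ≠ 0 := by
    intro h
    rw [h, orderOf_pos_iff, isOfFinOrder_iff_pow_eq_one] at hi0
    obtain ⟨n, hn, hn'⟩ := hi0
    rw [zero_pow hn.ne'] at hn'
    exact zero_ne_one hn'
  have hne : (-1 : ZMod r) ≠ 1 := by
    intro h
    have h2 : ((2 : ℕ) : ZMod r) = 0 := by push_cast; linear_combination -h
    rw [ZMod.natCast_eq_zero_iff] at h2
    exact hr2 ((Nat.prime_dvd_prime_iff_eq hr Nat.prime_two).1 h2)
  constructor
  · rintro ⟨j, hj⟩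
    rw [Nat.cast_pow, ← pow_mul] at hj
    -- multiply to make the exponent large
    have h1 : (-1 : ZMod r) * (q : ZMod r) = (q : ZMod r) ^ (2 * j) := by rw [← hj]; ring
    have h2 : (q : ZMod r) ^ (2 * j) * (q : ZMod r) ^ (2 * j) = (q : ZMod r) * (q : ZMod r) := by rw [← h1]; ring
    have hI : (q : ZMod r) ^ (2 * (orderOf (q : ZMod r))) = 1 := by rw [mul_comm, pow_mul, pow_orderOf_eq_one, one_pow]
    set i := orderOf (q : ZMod r) with hi
    have h3 : (q : ZMod r) ^ (2 * j + 2 * i - 1) = -1 := by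
      have h4 : (q : ZMod r) ^ (2 * j + 2 * i - 1) * q = -1 * q := by
        rw [← pow_succ, show 2 * j + 2 * i - 1 + 1 = 2 * j + 2 * i by omega, pow_add, hI, mul_one, h1]
      exact mul_right_cancel₀ hq0 h4
    have h5 : i ∣ 2 * (2 * j + 2 * i - 1) := by
      apply orderOf_dvd_of_pow_eq_one
      rw [mul_comm, pow_mul, h3]; ring
    have h6 : ¬ i ∣ (2 * j + 2 * i - 1) := by
      intro h
      have := orderOf_dvd_iff_pow_eq_one.1 h
      rw [h3] at this
      exact hne this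
    obtain ⟨c, hc⟩ := h5
    have hodd : (2 * j + 2 * i - 1) % 2 = 1 := by omega
    -- i * c = 2 * odd
    rcases Nat.even_or_odd c with ⟨c', hc'⟩ | ⟨c', hc'⟩
    · exfalso
      apply h6
      refine ⟨c', ?_⟩
      have : 2 * (2 * j + 2 * i - 1) = 2 * (i * c') := by rw [hc, hc']; ring
      omega
    · have h7 : i * c % 4 = 2 := by omega
      have h8 : c % 4 = 1 ∨ c % 4 = 3 := by omega
      have h9 : (i % 4) * (c % 4) % 4 = 2 := by rw [← Nat.mul_mod]; exact h7
      rcases h8 with h8 | h8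
      · rw [h8] at h9; omega
      · rw [h8] at h9; omega
  · intro h
    obtain ⟨b, hb⟩ : ∃ b, orderOf (q : ZMod r) = 2 * (2 * b + 1) := ⟨orderOf (q : ZMod r) / 4, by omega⟩
    have h1 : ((q : ZMod r) ^ (2 * b + 1)) ^ 2 = 1 := by rw [← pow_mul, mul_comm, ← hb, pow_orderOf_eq_one]
    have h2 : (q : ZMod r) ^ (2 * b + 1) ≠ 1 := by
      intro h3
      have := orderOf_dvd_of_pow_eq_one h3
      rw [hb] at this
      have := Nat.le_of_dvd (by omega) this
      omega
    have h3 : (q : ZMod r) ^ (2 * b + 1) = -1 := by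
      have h1' : (q : ZMod r) ^ (2 * b + 1) * (q : ZMod r) ^ (2 * b + 1) = 1 := by rw [← pow_two]; exact h1
      rcases mul_self_eq_one_iff.1 h1' with h | h
      · exact absurd h h2
      · exact h
    refine ⟨b + 1, ?_⟩
    rw [Nat.cast_pow, ← pow_mul, show 2 * (b + 1) = 2 * b + 1 + 1 by ring, pow_succ, h3]
    ring

/-- Number of conjugacy classes of elements of odd prime order r in the general unitary group GU_n(q), for r not dividing q(q + 1): let i be the multiplicative order of q modulo r, b = i if i is odd and b = i/2 if i is even, and s = (r − 1)/b. If i ≢ 2 (mod 4) the eigenvalue orbits pair off into dual pairs of totally isotropic blocks and there are C(⌊n/(2b)⌋ + s/2, s/2) − 1 classes; if i ≡ 2 (mod 4) each orbit gives a non-degenerate block of dimension i/2 and there are C(⌊2n/i⌋ + s, s) − 1 classes. -/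
theorem result {K : Type*} [Field K] [Fintype K] {p q n r i b s : ℕ} [Fact p.Prime] [CharP K p] (hK : Fintype.card K = q ^ 2) (hr : r.Prime) (hr2 : r ≠ 2) (hrp : r ≠ p) (hi : i = orderOf (q : ZMod r)) (hi2 : i ≠ 2) (hb : b = if Odd i then i else i / 2) (hs : s * b = r - 1) : Nat.card {C : ConjClasses ↥(Cfsg.GU n K q) // ∃ g : ↥(Cfsg.GU n K q), ConjClasses.mk g = C ∧ orderOf g = r} = if i % 4 = 2 then Nat.choose (2 * n / i + s) s - 1 else Nat.choose (n / (2 * b) + s / 2) (s / 2) - 1 := by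
  classical
  have hpos := ord_pos (F := K) hr hrp
  have hcard := card_fac (F := K) hr hrp
  obtain ⟨k, hQ⟩ : ∃ k, q = p ^ k := by
    obtain ⟨m, -, hm⟩ := FiniteField.card K p
    have h1 : q ∣ p ^ (m : ℕ) := by rw [← hm, hK]; exact dvd_pow_self q (by norm_num)
    obtain ⟨k, -, hk⟩ := (Nat.dvd_prime_pow (Fact.out : p.Prime)).1 h1
    exact ⟨k, hk⟩
  have hordK : orderOf (Fintype.card K : ZMod r) = i / Nat.gcd i 2 := by
    rw [hK, Nat.cast_pow, hi, orderOf_pow' _ (by norm_num)]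
  have hi0 : 0 < i := by
    rcases Nat.eq_zero_or_pos i with h | h
    · rw [hordK, h] at hpos; simp at hpos
    · exact h
  have hordb : orderOf (Fintype.card K : ZMod r) = b := by
    rw [hordK, hb]
    rcases Nat.even_or_odd i with h | h
    · rw [if_neg (by rwa [Nat.not_odd_iff_even]), Nat.gcd_eq_right h.two_dvd]
    · rw [if_pos h, Nat.Coprime.gcd_eq_one (by rwa [Nat.coprime_two_right]), Nat.div_one]
  rw [hordb] at hpos hcard
  have hs' : (fac K r).card = s := Nat.eq_of_mul_eq_mul_right hpos (hcard.trans hs.symm)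
  have hself := neg_q (q := q) hr hr2 (by rw [← hi]; exact hi0)
  rw [← hi] at hself
  have hKq : ((Fintype.card K : ℕ) : ZMod r) = ((q ^ 2 : ℕ) : ZMod r) := by rw [hK]
  have hord : ∀ g : ↥(Cfsg.GU n K q), orderOf g = r → (Matrix.toLin' ((g : GL (Fin n) K) : Matrix (Fin n) (Fin n) K)) ^ r = 1 := by
    intro g hg
    rw [lin_pow, lin_eq_one]
    have h1 : g ^ r = 1 := by rw [← hg, pow_orderOf_eq_one]
    exact congrArg Subtype.val h1
  have hne0 : ∀ g : ↥(Cfsg.GU n K q), orderOf g = r → mult r (Matrix.toLin' ((g : GL (Fin n) K) : Matrix (Fin n) (Fin n) K)) ≠ 0 := by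
    intro g hg h0
    have h1 := eq_one_of_mult hr hrp (hord g hg) h0
    rw [lin_eq_one] at h1
    have h2 : g = 1 := Subtype.ext h1
    rw [h2, orderOf_one] at hg
    exact hr.one_lt.ne hg
  have hle : ∀ g : ↥(Cfsg.GU n K q), orderOf g = r → b * ∑ f, mult r (Matrix.toLin' ((g : GL (Fin n) K) : Matrix (Fin n) (Fin n) K)) f ≤ n := by
    intro g hg
    have h1 := mult_le hr hrp (hord g hg)
    rw [Module.finrank_fin_fun, hordb] at h1
    exact h1
  have hex : ∀ a : fac K r → ℕ, a ≠ 0 → b * ∑ f, a f ≤ n → (∀ f : fac K r, a ⟨du r q f, du_mem hr hrp hQ f.2⟩ = a f) →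
      ∃ g : ↥(Cfsg.GU n K q), orderOf g = r ∧ mult r (Matrix.toLin' ((g : GL (Fin n) K) : Matrix (Fin n) (Fin n) K)) = a := by
    intro a ha0 ha hsym
    obtain ⟨g, hg, hm⟩ := exists_unitary (n := n) hK hr hrp hQ a (by rw [hordb]; exact ha) hsym
    refine ⟨g, ?_, hm⟩
    haveI : Fact r.Prime := ⟨hr⟩
    apply orderOf_eq_prime hg
    intro h1
    apply ha0
    have h2 : Matrix.toLin' ((g : GL (Fin n) K) : Matrix (Fin n) (Fin n) K) = 1 := by rw [lin_eq_one, h1]; rfl
    rw [← hm, h2, mult_one hr hrp]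
  by_cases h4 : i % 4 = 2
  · rw [if_pos h4]
    obtain ⟨j, hj⟩ := hself.2 h4
    have hdu : ∀ f : fac K r, (⟨du r q f, du_mem hr hrp hQ f.2⟩ : fac K r) = f := by
      intro f
      apply Subtype.ext
      exact du_self hr hrp hQ f.2 (j := j) (by rw [hKq]; exact hj)
    have hnb : 2 * n / i = n / b := by
      have h5 : i = 2 * b := by
        rw [hb, if_neg (by rw [Nat.odd_iff]; omega)]; omega
      rw [h5, Nat.mul_div_mul_left _ _ (by norm_num)]
    have key := CfsgLib.InvC.card_types (G := ↥(Cfsg.GU n K q)) (fun g => orderOf g = r)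
      (fun g => mult r (Matrix.toLin' ((g : GL (Fin n) K) : Matrix (Fin n) (Fin n) K))) ((bd (fac K r) (n / b)).erase 0) ?_ ?_ ?_
    · rw [key, Finset.card_erase_of_mem (zero_mem_bd _), card_bd, Fintype.card_coe, hs', hnb]
    · intro g hg
      rw [Finset.mem_erase, mem_bd, Nat.le_div_iff_mul_le hpos, mul_comm]
      exact ⟨hne0 g hg, hle g hg⟩
    · intro a ha
      rw [Finset.mem_erase, mem_bd, Nat.le_div_iff_mul_le hpos, mul_comm] at ha
      exact hex a ha.1 ha.2 (fun f => by rw [hdu])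
    · intro g h hg hh
      exact conj_unitary hK hr hrp g h hg hh
  · rw [if_neg h4]
    let ι : fac K r → fac K r := fun f => ⟨du r q f, du_mem hr hrp hQ f.2⟩
    obtain ⟨σ, hσ, hσ2, hσi⟩ := exists_sigma hK
    obtain ⟨H, hH, hsum⟩ := exists_half ι (fun f => Subtype.ext (du_du hr hrp hQ hσ hσ2 f.2)) (fun f hf => by
      apply h4
      rw [← hself]
      obtain ⟨j, hj⟩ := exists_of_du_self hr hrp hQ f.2 (congrArg Subtype.val hf)
      exact ⟨j, by rw [← hKq]; exact hj⟩)
    have hHc : 2 * H.card = s := by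
      have := hsum (fun _ => 1) (fun _ => rfl)
      simp only [Finset.sum_const, Finset.card_univ, Fintype.card_coe, smul_eq_mul, mul_one] at this
      omega
    have hHs : H.card = s / 2 := by omega
    have hsymm : ∀ (g : ↥(Cfsg.GU n K q)) f, mult r (Matrix.toLin' ((g : GL (Fin n) K) : Matrix (Fin n) (Fin n) K)) (ι f) = mult r (Matrix.toLin' ((g : GL (Fin n) K) : Matrix (Fin n) (Fin n) K)) f :=
      fun g f => mult_unitary hK hr hrp hQ g f
    have hext : ∀ a a' : fac K r → ℕ, (∀ f, a (ι f) = a f) → (∀ f, a' (ι f) = a' f) → (∀ x : H, a x = a' x) → a = a' := by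
      intro a a' ha ha' h
      funext f
      by_cases hf : f ∈ H
      · exact h ⟨f, hf⟩
      · rw [← ha, ← ha']
        exact h ⟨ι f, (hH f).2 hf⟩
    have key := CfsgLib.InvC.card_types (G := ↥(Cfsg.GU n K q)) (fun g => orderOf g = r)
      (fun g => fun x : H => mult r (Matrix.toLin' ((g : GL (Fin n) K) : Matrix (Fin n) (Fin n) K)) x) ((bd H (n / (2 * b))).erase 0) ?_ ?_ ?_
    · rw [key, Finset.card_erase_of_mem (zero_mem_bd _), card_bd, Fintype.card_coe, hHs]
    · intro g hg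
      rw [Finset.mem_erase, mem_bd, Nat.le_div_iff_mul_le (by omega), mul_comm]
      refine ⟨fun h0 => hne0 g hg (hext _ 0 (hsymm g) (fun _ => rfl) (fun x => congrFun h0 x)), ?_⟩
      have h5 := hle g hg
      rw [hsum _ (hsymm g)] at h5
      calc 2 * b * _ = b * (2 * _) := by ring
        _ ≤ n := h5
    · intro a ha
      rw [Finset.mem_erase, mem_bd, Nat.le_div_iff_mul_le (by omega), mul_comm] at ha
      let a' : fac K r → ℕ := fun f => if h : f ∈ H then a ⟨f, h⟩ else a ⟨ι f, (hH f).2 h⟩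
      have hιι : ∀ f, ι (ι f) = f := fun f => Subtype.ext (du_du hr hrp hQ hσ hσ2 f.2)
      have ha' : ∀ f, a' (ι f) = a' f := by
        intro f
        by_cases hf : f ∈ H
        · have h6 : ι f ∉ H := by rw [hH]; exact not_not.2 hf
          simp only [a', dif_neg h6, dif_pos hf]
          congr 1
          exact Subtype.ext (hιι f)
        · have h6 : ι f ∈ H := (hH f).2 hf
          simp only [a', dif_pos h6, dif_neg hf]
      have hres : ∀ x : H, a' x = a x := by
        intro x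
        simp only [a', dif_pos x.2]
      obtain ⟨g, hg, hm⟩ := hex a' (fun h0 => ha.1 (by
        funext x
        rw [← hres, h0]; rfl)) (by
        rw [hsum _ ha', Finset.sum_congr rfl fun x _ => hres x]
        calc b * (2 * _) = 2 * b * _ := by ring
          _ ≤ n := ha.2) ha'
      refine ⟨g, hg, ?_⟩
      funext x
      show mult r _ (x : fac K r) = a x
      rw [hm, hres]
    · intro g h hg hh
      rw [conj_unitary hK hr hrp g h hg hh]
      constructor
      · intro h5; rw [h5]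
      · intro h5
        exact hext _ _ (hsymm g) (hsymm h) (fun x => congrFun h5 x)

end Cfsg.Agent.S2671
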