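import Cfsg.Statements.S2672
import Cfsg.Agent.LibPG6H13
import Cfsg.Agent.S2587
import Cfsg.Agent.S0783

set_option autoImplicit false
open Cfsg

namespace Cfsg.Agent.S2672

open CfsgLib.PG Matrix

theorem mem_iff {K : Type*} [Field K] [Fintype K] {q n : ℕ} (g : GL (Fin n) K) : g ∈ Cfsg.GU n K q ↔ ∀ u v : Fin n → K, Cfsg.hermForm n K q ((g : Matrix (Fin n) (Fin n) K) *ᵥ u) ((g : Matrix (Fin n) (Fin n) K) *ᵥ v) = Cfsg.hermForm n K q u v := Iff.rfl

theorem mono_mem {K : Type*} [Field K] [Fintype K] {q n : ℕ} (σ : Equiv.Perm (Fin n)) (d : Fin n → Kˣ) (hd : ∀ i, (d i) ^ (q + 1) = 1) (g : GL (Fin n) K)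
    (hg : ∀ i j, (g : Matrix (Fin n) (Fin n) K) i j = if i = σ j then (d j : K) else 0) : g ∈ Cfsg.GU n K q := by
  have hmul : ∀ (u : Fin n → K) j, ((g : Matrix (Fin n) (Fin n) K) *ᵥ u) (σ j) = d j * u j := by
    intro u j
    rw [Matrix.mulVec, dotProduct, Finset.sum_eq_single j]
    · rw [hg, if_pos rfl]
    · intro k _ hk
      rw [hg, if_neg, zero_mul]
      exact fun h => hk (σ.injective h).symm
    · intro h; exact absurd (Finset.mem_univ _) h
  rw [mem_iff]
  intro u v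
  unfold Cfsg.hermForm
  rw [← Equiv.sum_comp σ]
  refine Finset.sum_congr rfl fun j _ => ?_
  rw [hmul, hmul, mul_pow]
  have h1 : (d j : K) * (d j : K) ^ q = 1 := by
    rw [← pow_succ']
    have := congrArg Units.val (hd j)
    rwa [Units.val_pow_eq_pow_val, Units.val_one] at this
  calc (d j : K) * u j * ((d j : K) ^ q * v j ^ q) = ((d j : K) * (d j : K) ^ q) * (u j * v j ^ q) := by ring
    _ = u j * v j ^ q := by rw [h1, one_mul]

theorem setup_gu {K : Type*} [Field K] [Fintype K] {q n r : ℕ} (hK : Fintype.card K = q ^ 2) (hn : 2 ≤ n) (hr : r.Prime) (hr2 : r ≠ 2) (hrq : r ∣ q + 1) :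
    PSetup (Cfsg.GU n K q).subtype ((powMonoidHom (q + 1) : Kˣ →* Kˣ).ker) r := by
  have hq0 : 0 < q := by
    rcases Nat.eq_zero_or_pos q with h | h
    · rw [h] at hK
      have := Fintype.card_pos (α := K)
      simp at hK
    · exact h
  have hu : Nat.card Kˣ = (q + 1) * (q - 1) := by
    rw [Nat.card_units, Nat.card_eq_fintype_card, hK]
    obtain ⟨k, rfl⟩ : ∃ k, q = k + 1 := ⟨q - 1, by omega⟩
    rw [Nat.add_sub_cancel]
    have : (k + 1) ^ 2 = (k + 1 + 1) * k + 1 := by ring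
    omega
  have hcardK : r ∣ Nat.card Kˣ := by rw [hu]; exact hrq.mul_right _
  have hroots : ∀ y : Kˣ, y ^ r = 1 → y ∈ (powMonoidHom (q + 1) : Kˣ →* Kˣ).ker := by
    intro y hy
    rw [MonoidHom.mem_ker, powMonoidHom_apply]
    obtain ⟨k, hk⟩ := hrq
    rw [hk, pow_mul, hy, one_pow]
  have hscal : ∀ c ∈ (powMonoidHom (q + 1) : Kˣ →* Kˣ).ker, GeneralLinearGroup.scalar (Fin n) c ∈ Cfsg.GU n K q := by
    intro c hc
    rw [MonoidHom.mem_ker, powMonoidHom_apply] at hc
    refine mono_mem 1 (fun _ => c) (fun _ => hc) _ (fun i j => ?_)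
    rw [GeneralLinearGroup.coe_scalar, Matrix.scalar_apply, Equiv.Perm.one_apply]
    by_cases h : i = j
    · subst h; rw [if_pos rfl, Matrix.diagonal_apply_eq]
    · rw [if_neg h, Matrix.diagonal_apply_ne _ h]
  refine ⟨Subtype.val_injective, fun g h hgh => Cfsg.Agent.S2587.gu_conj hK g h hgh, fun z => ?_, fun c hc => ⟨⟨_, hscal c hc⟩, rfl⟩, fun σ d hd => ?_, hroots, fun c hc => ?_, ?_⟩
  · constructor
    · intro hz
      rw [Subgroup.mem_center_iff] at hz
      obtain ⟨μ, hμ⟩ := Cfsg.Agent.S0783.scalar_of_comm hK hn ((z.1 : Matrix.GeneralLinearGroup (Fin n) K) : Matrix (Fin n) (Fin n) K) (by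
        intro B
        have hB : Matrix.SpecialLinearGroup.toGL B.1 ∈ Cfsg.GU n K q := fun u v => B.2 u v
        have := congrArg (fun t : Cfsg.GU n K q => ((t.1 : Matrix.GeneralLinearGroup (Fin n) K) : Matrix (Fin n) (Fin n) K)) (hz ⟨_, hB⟩)
        exact this)
      have hn0 : 0 < n := by omega
      have hμ0 : μ ≠ 0 := by
        rintro rfl
        have h1 : IsUnit ((z.1 : Matrix.GeneralLinearGroup (Fin n) K) : Matrix (Fin n) (Fin n) K).det := (Matrix.isUnit_iff_isUnit_det _).1 (Units.isUnit z.1)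
        rw [hμ, Matrix.scalar_apply, Matrix.det_diagonal, Finset.prod_const, Finset.card_univ, Fintype.card_fin, zero_pow (by omega)] at h1
        exact not_isUnit_zero h1
      have hzc : z.1 = GeneralLinearGroup.scalar (Fin n) (Units.mk0 μ hμ0) := Units.ext (by rw [GeneralLinearGroup.coe_scalar]; exact hμ)
      refine ⟨Units.mk0 μ hμ0, ?_, hzc⟩
      rw [MonoidHom.mem_ker, powMonoidHom_apply]
      apply Units.ext
      rw [Units.val_pow_eq_pow_val, Units.val_mk0, Units.val_one]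
      have h1 := (mem_iff z.1).1 z.2 (Pi.single ⟨0, hn0⟩ 1) (Pi.single ⟨0, hn0⟩ 1)
      rw [hμ] at h1
      unfold Cfsg.hermForm at h1
      rw [Finset.sum_eq_single ⟨0, hn0⟩, Finset.sum_eq_single ⟨0, hn0⟩] at h1
      · rw [Matrix.scalar_apply, Matrix.mulVec_diagonal, Pi.single_eq_same, one_pow, mul_one, mul_one, ← pow_succ'] at h1
        exact h1
      · intro j _ hj
        rw [Pi.single_eq_of_ne hj, zero_mul]
      · intro h; exact absurd (Finset.mem_univ _) h
      · intro j _ hj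
        rw [Matrix.scalar_apply, Matrix.mulVec_diagonal, Pi.single_eq_of_ne hj, mul_zero, zero_mul]
      · intro h; exact absurd (Finset.mem_univ _) h
    · rintro ⟨c, hc, hz⟩
      rw [Subgroup.mem_center_iff]
      intro g
      apply Subtype.ext
      have hz' : z.1 = GeneralLinearGroup.scalar (Fin n) c := hz
      show g.1 * z.1 = z.1 * g.1
      rw [hz']
      exact (GeneralLinearGroup.scalar_commute c g.1).symm
  · obtain ⟨g, hg⟩ := exists_mono σ d
    exact ⟨⟨g, mono_mem σ d (fun i => by have := hd i; rwa [MonoidHom.mem_ker, powMonoidHom_apply] at this) g hg⟩, hg⟩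
  · rintro ⟨x, hx⟩
    refine ⟨x, ?_, hx⟩
    rw [MonoidHom.mem_ker, powMonoidHom_apply] at hc ⊢
    have h1 : (x ^ (q + 1)) ^ r = 1 := by rw [← pow_mul, mul_comm, pow_mul, hx, hc]
    have h2 : (x ^ (q + 1)) ^ (q - 1) = 1 := by
      rw [← pow_mul, ← hu]
      exact pow_card_eq_one'
    have hcop : Nat.gcd r (q - 1) = 1 := by
      rw [← Nat.coprime_iff_gcd_eq_one, hr.coprime_iff_not_dvd]
      intro h
      have h3 : r ∣ (q + 1) - (q - 1) := Nat.dvd_sub hrq h
      have h4 : (q + 1) - (q - 1) = 2 := by omega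
      rw [h4] at h3
      exact hr2 ((Nat.prime_dvd_prime_iff_eq hr Nat.prime_two).1 h3)
    have h3 : orderOf (x ^ (q + 1)) ∣ Nat.gcd r (q - 1) := Nat.dvd_gcd (orderOf_dvd_of_pow_eq_one h1) (orderOf_dvd_of_pow_eq_one h2)
    rw [hcop, Nat.dvd_one, orderOf_eq_one_iff] at h3
    exact h3
  · obtain ⟨ζ, h1, h2⟩ := exists_prim hr hcardK
    have h3 : ζ ∈ (powMonoidHom (q + 1) : Kˣ →* Kˣ).ker := hroots ζ (by rw [← h1, pow_orderOf_eq_one])
    have h4 : orderOf (⟨ζ, h3⟩ : (powMonoidHom (q + 1) : Kˣ →* Kˣ).ker) = r := by rw [Subgroup.orderOf_mk, h1]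
    rw [← h4]
    exact orderOf_dvd_natCard _

/-- Number of conjugacy classes of elements of odd prime order r in PGU_n(q) = GU_n(q)/scalars (n ≥ 3) when r divides q + 1: as in the linear case with q − 1 replaced by q + 1, the classes correspond to the rotation orbits on r-tuples of eigenvalue multiplicities summing to n with every entry < n, plus r − 1 further classes when r divides n; in all (C(n+r−1, r−1) − r − [r ∣ n])/r + r·[r ∣ n]. -/
theorem result {K : Type*} [Field K] [Fintype K] {q n r : ℕ} (hK : Fintype.card K = q ^ 2) (hn : 3 ≤ n) (hr : r.Prime) (hr2 : r ≠ 2) (hrq : r ∣ q + 1) : Nat.card {C : ConjClasses (↥(Cfsg.GU n K q) ⧸ Subgroup.center ↥(Cfsg.GU n K q)) // ∃ g : ↥(Cfsg.GU n K q) ⧸ Subgroup.center ↥(Cfsg.GU n K q), ConjClasses.mk g = C ∧ orderOf g = r} = (Nat.choose (n + r - 1) (r - 1) - r - (if r ∣ n then 1 else 0)) / r + r * (if r ∣ n then 1 else 0) := by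
  obtain ⟨p, hp⟩ := CharP.exists K
  haveI : Fact p.Prime := ⟨CharP.char_is_prime K p⟩
  have hq0 : 0 < q := by
    rcases Nat.eq_zero_or_pos q with h | h
    · rw [h] at hK
      have := Fintype.card_pos (α := K)
      simp at hK
    · exact h
  have hrp : r ≠ p := by
    rintro rfl
    have h1 : r ∣ Fintype.card K := (CharP.cast_eq_zero_iff K r _).1 (FiniteField.cast_card_eq_zero K)
    rw [hK] at h1
    have h2 : r ∣ q := hr.dvd_of_dvd_pow h1
    have h3 := (Nat.dvd_add_right h2).1 hrq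
    exact hr.one_lt.ne' (Nat.dvd_one.1 h3)
  have hu : Nat.card Kˣ = (q + 1) * (q - 1) := by
    rw [Nat.card_units, Nat.card_eq_fintype_card, hK]
    obtain ⟨k, rfl⟩ : ∃ k, q = k + 1 := ⟨q - 1, by omega⟩
    rw [Nat.add_sub_cancel]
    have : (k + 1) ^ 2 = (k + 1 + 1) * k + 1 := by ring
    omega
  have hcardK : r ∣ Nat.card Kˣ := by rw [hu]; exact hrq.mul_right _
  obtain ⟨ζ, -, hζ⟩ := exists_prim hr hcardK
  exact main (p := p) hr hrp hζ (setup_gu hK (by omega) hr hr2 hrq) (by omega)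

end Cfsg.Agent.S2672
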