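import Cfsg.Statements.S2673
import Cfsg.Agent.LibQTyp3H13

set_option autoImplicit false
open Cfsg

namespace Cfsg.Agent.S2673

open Module CfsgLib.Typ CfsgLib.SS2 CfsgLib.Dual CfsgLib.RS CfsgLib.Semi Cfsg.Agent.H22

section
variable {F : Type*} [Field F] [Fintype F] {p r m : ℕ} [Fact p.Prime] [CharP F p] (hr : r.Prime) (hrp : r ≠ p)
include p hr hrp

theorem himg (hr2 : r ≠ 2) (h2 : (2 : F) ≠ 0) (a : fac F r → ℕ) : (∃ g : ↥(Cfsg.isometryGroup F ⇑(qOdd m F)), orderOf g = r ∧ mult r (rhoO (qOdd m F) g : (Unit ⊕ (Fin m ⊕ Fin m) → F) →ₗ[F] (Unit ⊕ (Fin m ⊕ Fin m) → F)) = a) ↔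
      (a ≠ 0 ∧ (∀ f, a (io hr hrp f) = a f) ∧ orderOf (Fintype.card F : ZMod r) * ∑ x, a x ≤ 2 * m + 1 ∧ ¬ (orderOf (Fintype.card F : ZMod r) * ∑ x, a x = 2 * m ∧ (fun _ => False) (∑ x, a x))) := by
  rw [O_himg hr hrp]
  refine and_congr_right fun h0 => ?_
  have hcard : Fintype.card (Unit ⊕ (Fin m ⊕ Fin m)) = 2 * m + 1 := by rw [Fintype.card_sum, Fintype.card_sum, Fintype.card_fin, Fintype.card_unit]; ring
  constructor
  · rintro ⟨A, hA, hAr, rfl⟩
    obtain ⟨h1, h3⟩ := nec hr hrp (qOdd m F) (nondeg_qOdd m h2) hA hAr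
    rw [hcard] at h3
    exact ⟨h1, h3, fun h => h.2⟩
  · rintro ⟨h1, h3, -⟩
    exact exists_Oodd hr hrp hr2 h2 a h1 h3

end

theorem aux {F : Type*} [Field F] [Fintype F] {p : ℕ} [Fact p.Prime] [CharP F p] (h2 : (2 : F) ≠ 0) (m r t : ℕ) (hr : r.Prime) (hr2 : r ≠ 2) (hrp : r ≠ p) (ht : t * orderOf (Fintype.card F : ZMod r) = r - 1)
    {Q0 : (Unit ⊕ (Fin m ⊕ Fin m) → F) → F} (hQ0 : ⇑(qOdd m F) = Q0) :
    Nat.card {C : ConjClasses ↥(Cfsg.isometryGroup F Q0) // ∃ g : ↥(Cfsg.isometryGroup F Q0), ConjClasses.mk g = C ∧ orderOf g = r} = if Odd (orderOf (Fintype.card F : ZMod r)) then Nat.choose (m / orderOf (Fintype.card F : ZMod r) + t / 2) (t / 2) - 1 else Nat.choose ((2 * m + 1) / orderOf (Fintype.card F : ZMod r) + t) t - 1 := by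
  subst hQ0
  by_cases hi : Odd (orderOf (Fintype.card F : ZMod r))
  · rw [if_pos hi]
    refine (count_O hr hrp hr2 _ (O_conj_iff hr hrp (qOdd m F) hr2 (nondeg_qOdd m h2)) ht hi (Or.inr rfl) (fun s => False) False (by simp) False.elim (himg hr hrp hr2 h2)).trans ?_
    rw [if_neg not_false, Nat.sub_zero]
  · rw [if_neg hi]
    refine (count_E hr hrp hr2 _ (O_conj_iff hr hrp (qOdd m F) hr2 (nondeg_qOdd m h2)) ht (Nat.not_odd_iff_even.1 hi) (Or.inr rfl) (fun s => False) False (by simp) False.elim (himg hr hrp hr2 h2)).trans ?_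
    rw [if_neg not_false, Nat.sub_zero]

/-- Number of conjugacy classes of elements of odd prime order r ≠ p in the orthogonal group O_(2m+1)(q) of x_0² + Σ x_j y_j, q odd: with i the multiplicative order of q mod r and t = (r − 1)/i, there are C(⌊m/i⌋ + t/2, t/2) − 1 classes if i is odd (dual pairs of totally singular i-blocks) and C(⌊(2m+1)/i⌋ + t, t) − 1 if i is even (elliptic i-blocks). -/
theorem result {F : Type*} [Field F] [Fintype F] {p q : ℕ} [Fact p.Prime] [CharP F p] (hF : Fintype.card F = q) (hq : Odd q) (m r i t : ℕ) (hr : r.Prime) (hr2 : r ≠ 2) (hrp : r ≠ p) (hi : i = orderOf (q : ZMod r)) (ht : t * i = r - 1) : Nat.card {C : ConjClasses ↥(Cfsg.isometryGroup F (Cfsg.quadFormOdd m F)) // ∃ g : ↥(Cfsg.isometryGroup F (Cfsg.quadFormOdd m F)), ConjClasses.mk g = C ∧ orderOf g = r} = if Odd i then Nat.choose (m / i + t / 2) (t / 2) - 1 else Nat.choose ((2 * m + 1) / i + t) t - 1 := by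
  subst hF hi
  have h2 : (2 : F) ≠ 0 := by
    intro h
    haveI : CharP F 2 := CharTwo.of_one_ne_zero_of_two_eq_zero one_ne_zero h
    have h1 : 2 ∣ Fintype.card F := (CharP.cast_eq_zero_iff F 2 _).1 (FiniteField.cast_card_eq_zero F)
    exact (Nat.not_even_iff_odd.2 hq) (even_iff_two_dvd.2 h1)
  exact aux h2 m r t hr hr2 hrp ht (coe_qOdd m)

end Cfsg.Agent.S2673
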