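import Cfsg.Statements.S2674
import Cfsg.Agent.LibQTyp3H13

set_option autoImplicit false
open Cfsg

namespace Cfsg.Agent.S2674

open Module CfsgLib.Typ CfsgLib.SS2 CfsgLib.Dual CfsgLib.RS CfsgLib.Semi Cfsg.Agent.H22

section
variable {F : Type*} [Field F] [Fintype F] {p r m : ℕ} [Fact p.Prime] [CharP F p] (hr : r.Prime) (hrp : r ≠ p)
include p hr hrp

theorem himg (hr2 : r ≠ 2) (a : fac F r → ℕ) : (∃ g : ↥(Cfsg.isometryGroup F ⇑(qPlus m F)), orderOf g = r ∧ mult r (rhoO (qPlus m F) g : (Fin m ⊕ Fin m → F) →ₗ[F] (Fin m ⊕ Fin m → F)) = a) ↔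
      (a ≠ 0 ∧ (∀ f, a (io hr hrp f) = a f) ∧ orderOf (Fintype.card F : ZMod r) * ∑ x, a x ≤ 2 * m ∧ ¬ (orderOf (Fintype.card F : ZMod r) * ∑ x, a x = 2 * m ∧ Odd (∑ x, a x))) := by
  rw [O_himg hr hrp]
  refine and_congr_right fun h0 => ?_
  have hcard : Fintype.card (Fin m ⊕ Fin m) = 2 * m := by rw [Fintype.card_sum, Fintype.card_fin, two_mul]
  constructor
  · rintro ⟨A, hA, hAr, rfl⟩
    obtain ⟨h1, h2⟩ := nec hr hrp (qPlus m F) (nondeg_qPlus m) hA hAr
    rw [hcard] at h2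
    refine ⟨h1, h2, ?_⟩
    rintro ⟨h3, h4⟩
    have h5 := full_plus hr hrp (qPlus m F) A hA hAr (fun v hv => fix_zero hr hrp hAr (by rw [h3, Module.finrank_fintype_fun_eq_card, hcard]) hv) (LinearEquiv.refl F _) (fun v => rfl)
    by_cases hi : Even (orderOf (Fintype.card F : ZMod r))
    · rw [pow_even hr hrp hi h3, h4.neg_one_pow] at h5
      exact two_ne hr hr2 h5.symm
    · obtain ⟨l, hl⟩ := half_sum hr hrp hr2 (Nat.not_even_iff_odd.1 hi) _ h1
      rw [hl] at h4
      exact (Nat.not_even_iff_odd.2 h4) (even_two_mul l)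
  · rintro ⟨h1, h2, h3⟩
    refine exists_Oplus hr hrp hr2 a h1 h0 h2 (fun h4 => ?_)
    by_cases hi : Even (orderOf (Fintype.card F : ZMod r))
    · rw [pow_even hr hrp hi h4]
      have : Even (∑ x, a x) := by
        rw [← Nat.not_odd_iff_even]
        exact fun h => h3 ⟨h4, h⟩
      exact this.neg_one_pow
    · exact pow_odd hr hrp hr2 (Nat.not_even_iff_odd.1 hi) h1 h4

end

theorem aux {F : Type*} [Field F] [Fintype F] {p : ℕ} [Fact p.Prime] [CharP F p] (m r t : ℕ) (hm : 1 ≤ m) (hr : r.Prime) (hr2 : r ≠ 2) (hrp : r ≠ p) (ht : t * orderOf (Fintype.card F : ZMod r) = r - 1)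
    {Q0 : (Fin m ⊕ Fin m → F) → F} (hQ0 : ⇑(qPlus m F) = Q0) :
    Nat.card {C : ConjClasses ↥(Cfsg.isometryGroup F Q0) // ∃ g : ↥(Cfsg.isometryGroup F Q0), ConjClasses.mk g = C ∧ orderOf g = r} = if Odd (orderOf (Fintype.card F : ZMod r)) then Nat.choose (m / orderOf (Fintype.card F : ZMod r) + t / 2) (t / 2) - 1 else Nat.choose (2 * m / orderOf (Fintype.card F : ZMod r) + t) t - 1 - (if orderOf (Fintype.card F : ZMod r) ∣ 2 * m ∧ Odd (2 * m / orderOf (Fintype.card F : ZMod r)) then Nat.choose (2 * m / orderOf (Fintype.card F : ZMod r) + t - 1) (t - 1) else 0) := by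
  subst hQ0
  by_cases hi : Odd (orderOf (Fintype.card F : ZMod r))
  · rw [if_pos hi]
    refine (count_O hr hrp hr2 _ (O_conj_iff hr hrp (qPlus m F) hr2 (nondeg_qPlus m)) ht hi (Or.inl rfl) (fun s => Odd s) False ?_ False.elim (himg hr hrp hr2)).trans ?_
    · simp only [false_iff, not_and, Nat.not_odd_iff_even]
      exact fun _ => even_two_mul _
    · rw [if_neg not_false, Nat.sub_zero]
  · rw [if_neg hi]
    exact count_E hr hrp hr2 _ (O_conj_iff hr hrp (qPlus m F) hr2 (nondeg_qPlus m)) ht (Nat.not_odd_iff_even.1 hi) (Or.inl rfl) (fun s => Odd s) _ Iff.rfl (fun _ => hm) (himg hr hrp hr2)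

/-- Number of conjugacy classes of elements of odd prime order r ≠ p in the orthogonal group O⁺_2m(q) of Σ x_j y_j (m ≥ 1): with i the multiplicative order of q mod r and t = (r − 1)/i — if i is odd, C(⌊m/i⌋ + t/2, t/2) − 1; if i is even, C(⌊2m/i⌋ + t, t) − 1 minus, when i divides 2m with odd quotient, the C(2m/i + t − 1, t − 1) tuples using the whole space (an odd number of elliptic i-blocks fills an elliptic, not a hyperbolic, space). -/
theorem result {F : Type*} [Field F] [Fintype F] {p q : ℕ} [Fact p.Prime] [CharP F p] (hF : Fintype.card F = q) (m r i t : ℕ) (hm : 1 ≤ m) (hr : r.Prime) (hr2 : r ≠ 2) (hrp : r ≠ p) (hi : i = orderOf (q : ZMod r)) (ht : t * i = r - 1) : Nat.card {C : ConjClasses ↥(Cfsg.isometryGroup F (Cfsg.quadFormPlus m F)) // ∃ g : ↥(Cfsg.isometryGroup F (Cfsg.quadFormPlus m F)), ConjClasses.mk g = C ∧ orderOf g = r} = if Odd i then Nat.choose (m / i + t / 2) (t / 2) - 1 else Nat.choose (2 * m / i + t) t - 1 - (if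 i ∣ 2 * m ∧ Odd (2 * m / i) then Nat.choose (2 * m / i + t - 1) (t - 1) else 0) := by
  subst hF hi
  exact aux m r t hm hr hr2 hrp ht (coe_qPlus m)

end Cfsg.Agent.S2674
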