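import Cfsg.Statements.S2675
import Cfsg.Agent.LibQTyp3H13

set_option autoImplicit false
open Cfsg

namespace Cfsg.Agent.S2675

open Module CfsgLib.Typ CfsgLib.SS2 CfsgLib.Dual CfsgLib.RS CfsgLib.Semi Cfsg.Agent.H22

section
variable {F : Type*} [Field F] [Fintype F] {p r k : ℕ} [Fact p.Prime] [CharP F p] (hr : r.Prime) (hrp : r ≠ p)
  {x y : F} (hab : ∀ z₁ z₂ : F, z₁ ^ 2 + x * z₁ * z₂ + y * z₂ ^ 2 = 0 → z₁ = 0 ∧ z₂ = 0)
include p hr hrp hab

theorem himg (hr2 : r ≠ 2) (a : fac F r → ℕ) : (∃ g : ↥(Cfsg.isometryGroup F ⇑(qMinus k F x y)), orderOf g = r ∧ mult r (rhoO (qMinus k F x y) g : ((Fin k ⊕ Fin k) ⊕ Fin 2 → F) →ₗ[F] ((Fin k ⊕ Fin k) ⊕ Fin 2 → F)) = a) ↔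
      (a ≠ 0 ∧ (∀ f, a (io hr hrp f) = a f) ∧ orderOf (Fintype.card F : ZMod r) * ∑ x, a x ≤ 2 * (k + 1) ∧ ¬ (orderOf (Fintype.card F : ZMod r) * ∑ x, a x = 2 * (k + 1) ∧ Even (∑ x, a x))) := by
  rw [O_himg hr hrp]
  refine and_congr_right fun h0 => ?_
  have hcard : Fintype.card ((Fin k ⊕ Fin k) ⊕ Fin 2) = 2 * (k + 1) := by rw [Fintype.card_sum, Fintype.card_sum, Fintype.card_fin, Fintype.card_fin]; ring
  constructor
  · rintro ⟨A, hA, hAr, rfl⟩
    obtain ⟨h1, h2⟩ := nec hr hrp (qMinus k F x y) (nondeg_qMinus k x y hab) hA hAr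
    rw [hcard] at h2
    refine ⟨h1, h2, ?_⟩
    rintro ⟨h3, h4⟩
    have h5 := full_minus hr hrp (qMinus k F x y) A hA hAr (fun v hv => fix_zero hr hrp hAr (by rw [h3, Module.finrank_fintype_fun_eq_card, hcard]) hv) hab (LinearEquiv.refl F _) one_ne_zero (fun v => (one_mul _).symm)
    by_cases hi : Even (orderOf (Fintype.card F : ZMod r))
    · rw [pow_even hr hrp hi h3, h4.neg_one_pow] at h5
      exact two_ne hr hr2 h5
    · rw [pow_odd hr hrp hr2 (Nat.not_even_iff_odd.1 hi) h1 h3] at h5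
      exact two_ne hr hr2 h5
  · rintro ⟨h1, h2, h3⟩
    refine exists_Ominus hr hrp hr2 hab a h1 h0 h2 (fun h4 => ?_)
    have h5 : Odd (∑ x, a x) := by
      rw [← Nat.not_even_iff_odd]
      exact fun h => h3 ⟨h4, h⟩
    by_cases hi : Even (orderOf (Fintype.card F : ZMod r))
    · rw [pow_even hr hrp hi h4]
      exact h5.neg_one_pow
    · exfalso
      obtain ⟨l, hl⟩ := half_sum hr hrp hr2 (Nat.not_even_iff_odd.1 hi) _ h1
      rw [hl] at h5
      exact (Nat.not_even_iff_odd.2 h5) (even_two_mul l)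

end

theorem aux {F : Type*} [Field F] [Fintype F] {p : ℕ} [Fact p.Prime] [CharP F p] (k r t : ℕ) (x y : F) (hab : ∀ z₁ z₂ : F, z₁ ^ 2 + x * z₁ * z₂ + y * z₂ ^ 2 = 0 → z₁ = 0 ∧ z₂ = 0) (hr : r.Prime) (hr2 : r ≠ 2) (hrp : r ≠ p) (ht : t * orderOf (Fintype.card F : ZMod r) = r - 1)
    {Q0 : ((Fin k ⊕ Fin k) ⊕ Fin 2 → F) → F} (hQ0 : ⇑(qMinus k F x y) = Q0) :
    Nat.card {C : ConjClasses ↥(Cfsg.isometryGroup F Q0) // ∃ g : ↥(Cfsg.isometryGroup F Q0), ConjClasses.mk g = C ∧ orderOf g = r} = if Odd (orderOf (Fintype.card F : ZMod r)) then Nat.choose ((k + 1) / orderOf (Fintype.card F : ZMod r) + t / 2) (t / 2) - 1 - (if orderOf (Fintype.card F : ZMod r) ∣ (k + 1) then Nat.choose ((k + 1) / orderOf (Fintype.card F : ZMod r) + t / 2 - 1) (t / 2 - 1) else 0) else Nat.choose (2 * (k + 1) / orderOf (Fintype.card F : ZMod r) + t) t - 1 - (if orderOf (Fintype.card F : ZMod r) ∣ 2 * (k + 1) ∧ Even (2 * (k + 1) / orderOf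 (Fintype.card F : ZMod r)) then Nat.choose (2 * (k + 1) / orderOf (Fintype.card F : ZMod r) + t - 1) (t - 1) else 0) := by
  subst hQ0
  by_cases hi : Odd (orderOf (Fintype.card F : ZMod r))
  · rw [if_pos hi]
    refine count_O hr hrp hr2 _ (O_conj_iff hr hrp (qMinus k F x y) hr2 (nondeg_qMinus k x y hab)) ht hi (Or.inl rfl) (fun s => Even s) _ ?_ (fun _ => Nat.le_add_left 1 k) (himg hr hrp hab hr2)
    exact ⟨fun h => ⟨h, even_two_mul _⟩, fun h => h.1⟩
  · rw [if_neg hi]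
    exact count_E hr hrp hr2 _ (O_conj_iff hr hrp (qMinus k F x y) hr2 (nondeg_qMinus k x y hab)) ht (Nat.not_odd_iff_even.1 hi) (Or.inl rfl) (fun s => Even s) _ Iff.rfl (fun _ => Nat.le_add_left 1 k) (himg hr hrp hab hr2)

/-- Number of conjugacy classes of elements of odd prime order r ≠ p in the orthogonal group O⁻_2m(q) of an elliptic form Σ_(j<m−1) x_j y_j + z₁² + a z₁z₂ + c z₂² (binary part anisotropic, m ≥ 1): with i the multiplicative order of q mod r and t = (r − 1)/i — if i is odd, C(⌊m/i⌋ + t/2, t/2) − 1 minus, when i divides m, the C(m/i + t/2 − 1, t/2 − 1) tuples filling the whole space (dual pairs of totally singular blocks fill a hyperbolic space); if i is even, C(⌊2m/i⌋ + t, t) − 1 minus, when i divides 2m with even quotient, the C(2m/i + t − 1, t − 1) tuples filling the whole space with an even number of elliptic blocks. -/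
theorem result {F : Type*} [Field F] [Fintype F] {p q : ℕ} [Fact p.Prime] [CharP F p] (hF : Fintype.card F = q) (m r i t : ℕ) (hm : 1 ≤ m) (a c : F) (hac : ∀ z₁ z₂ : F, z₁ ^ 2 + a * z₁ * z₂ + c * z₂ ^ 2 = 0 → z₁ = 0 ∧ z₂ = 0) (hr : r.Prime) (hr2 : r ≠ 2) (hrp : r ≠ p) (hi : i = orderOf (q : ZMod r)) (ht : t * i = r - 1) : Nat.card {C : ConjClasses ↥(Cfsg.isometryGroup F (Cfsg.quadFormMinus (m - 1) F a c)) // ∃ g : ↥(Cfsg.isometryGroup F (Cfsg.quadFormMinus (m - 1) F a c)), ConjClasses.mk g = C ∧ orderOf g = r} = if Odd i then Nat.choose (m / i + t / 2) (t / 2) - 1 - (if i ∣ m then Nat.choose (m / i + t / 2 - 1) (t / 2 - 1) else 0) else Nat.choose (2 * m / i + t) t - 1 - (if i ∣ 2 * m ∧ Even (2 * m / i) then Nat.choose (2 * m / i + t - 1) (t - 1) else 0) := by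
  subst hF hi
  obtain ⟨k, rfl⟩ : ∃ k, m = k + 1 := ⟨m - 1, by omega⟩
  rw [Nat.add_sub_cancel]
  exact aux k r t a c hac hr hr2 hrp ht (coe_qMinus k a c)

end Cfsg.Agent.S2675
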