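import Cfsg.Statements.S2677
import Cfsg.Agent.LibFld2H13

set_option autoImplicit false
open Cfsg

namespace Cfsg.Agent.S2677

open CfsgLib.Fld Cfsg.Agent.H22 Cfsg.Agent.S2587 in
theorem main {K : Type*} [Field K] [Fintype K] {q₀ q r n : ℕ} (hr : r.Prime) (hr2 : r ≠ 2) (hn : 1 ≤ n) (hq : q = q₀ ^ r) (hK : Fintype.card K = q ^ 2) (σ : K ≃+* K) (hσ : orderOf σ = r) :
    Nat.card {g : ↥(Cfsg.GU n K q) // ∃ c : K, c ≠ 0 ∧ ((g : GL (Fin n) K) : Matrix (Fin n) (Fin n) K).map σ = c • ((g : GL (Fin n) K) : Matrix (Fin n) (Fin n) K)} * (q₀ + 1) =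
      (q + 1) * (q₀ ^ (n * (n - 1) / 2) * ∏ i ∈ Finset.range n, (if Even i then q₀ ^ (i + 1) + 1 else q₀ ^ (i + 1) - 1)) := by
  classical
  obtain ⟨τ, hτ, hτ2, hτi⟩ := exists_sigma hK
  rw [← card_fix (n := n) hr hr2 hq hK σ hσ]
  let A := (powMonoidHom (q + 1) : Kˣ →* Kˣ).ker
  let E1 : GL (Fin n) K →* GL (Fin n) K := Matrix.GeneralLinearGroup.map (σ : K →+* K)
  let G0 : Subgroup ↥(Cfsg.GU n K q) := MonoidHom.eqLocus (E1.comp (Cfsg.GU n K q).subtype) (Cfsg.GU n K q).subtype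
  have hG0 : ∀ g : ↥(Cfsg.GU n K q), g ∈ G0 ↔ ((g : GL (Fin n) K) : Matrix (Fin n) (Fin n) K).map σ = ((g : GL (Fin n) K) : Matrix (Fin n) (Fin n) K) := by
    intro g
    constructor
    · intro h
      exact congrArg Units.val h
    · intro h
      exact Units.ext h
  have hG0c : Nat.card {g : ↥(Cfsg.GU n K q) // ((g : GL (Fin n) K) : Matrix (Fin n) (Fin n) K).map σ = ((g : GL (Fin n) K) : Matrix (Fin n) (Fin n) K)} = Nat.card G0 :=
    Nat.card_congr (Equiv.subtypeEquivRight fun g => (hG0 g).symm)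
  have hAc : Nat.card A = q + 1 := by
    rw [← card_norm_fiber hK 1 one_ne_zero (one_pow q)]
    refine Nat.card_congr (Equiv.ofBijective (fun d => ⟨((d.1 : Kˣ) : K), ?_⟩) ⟨?_, ?_⟩)
    · have h2 := congrArg Units.val ((MonoidHom.mem_ker).1 d.2)
      exact h2
    · intro a b h
      exact Subtype.ext (Units.ext (congrArg Subtype.val h))
    · rintro ⟨x, hx⟩
      have hx0 : x ≠ 0 := by rintro rfl; rw [zero_pow (by omega)] at hx; exact zero_ne_one hx
      exact ⟨⟨Units.mk0 x hx0, Units.ext hx⟩, rfl⟩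
  let sc : A →* ↥(Cfsg.GU n K q) := scal ⟨τ, hτ⟩
  have hscm : ∀ (d : A) (g : ↥(Cfsg.GU n K q)), (((sc d * g : ↥(Cfsg.GU n K q)) : GL (Fin n) K) : Matrix (Fin n) (Fin n) K) = ((d.1 : Kˣ) : K) • ((g : GL (Fin n) K) : Matrix (Fin n) (Fin n) K) := by
    intro d g
    rw [Subgroup.coe_mul, Units.val_mul, scal_coe]
    ext i j
    rw [Matrix.diagonal_mul, Matrix.smul_apply, smul_eq_mul]
  have hcomm : ∀ (d : A) (g : ↥(Cfsg.GU n K q)), Commute (sc d) g := by
    intro d g
    apply Subtype.ext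
    apply Units.ext
    rw [hscm, Subgroup.coe_mul, Units.val_mul, scal_coe]
    ext i j
    rw [Matrix.mul_diagonal, Matrix.smul_apply, smul_eq_mul, mul_comm]
  let Φ : A × G0 →* ↥(Cfsg.GU n K q) := MonoidHom.noncommCoprod sc G0.subtype (fun d g => hcomm d g)
  have hΦ : ∀ d g, Φ (d, g) = sc d * (g : ↥(Cfsg.GU n K q)) := fun d g => rfl
  have hcount : Nat.card (A × G0) = Nat.card Φ.range * Nat.card Φ.ker := by
    rw [Subgroup.card_eq_card_quotient_mul_card_subgroup Φ.ker, Nat.card_congr (QuotientGroup.quotientKerEquivRange Φ).toEquiv]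
  rw [Nat.card_prod, hAc] at hcount
  -- entries
  have hmapmul : ∀ (c : K) (M : Matrix (Fin n) (Fin n) K), (c • M).map σ = σ c • M.map σ := by
    intro c M; ext i j; simp
  have hne : ∀ g : GL (Fin n) K, (g : Matrix (Fin n) (Fin n) K) ≠ 0 := by
    intro g h
    have h1 : (g : Matrix (Fin n) (Fin n) K) * ((g⁻¹ : GL (Fin n) K) : Matrix (Fin n) (Fin n) K) = 1 := Units.mul_inv g
    rw [h, zero_mul] at h1
    have h2 := congrFun (congrFun h1 ⟨0, hn⟩) ⟨0, hn⟩
    rw [Matrix.one_apply_eq] at h2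
    exact zero_ne_one h2
  have hsmi : ∀ (g : GL (Fin n) K) (a b : K), a • (g : Matrix (Fin n) (Fin n) K) = b • (g : Matrix (Fin n) (Fin n) K) → a = b := by
    intro g a b h
    by_contra hab
    apply hne g
    have h1 : (a - b) • (g : Matrix (Fin n) (Fin n) K) = 0 := by rw [sub_smul, h, sub_self]
    exact (smul_eq_zero.1 h1).resolve_left (sub_ne_zero.2 hab)
  have hrange : Nat.card Φ.range = Nat.card {g : ↥(Cfsg.GU n K q) // ∃ c : K, c ≠ 0 ∧ ((g : GL (Fin n) K) : Matrix (Fin n) (Fin n) K).map σ = c • ((g : GL (Fin n) K) : Matrix (Fin n) (Fin n) K)} := by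
    refine Nat.card_congr (Equiv.subtypeEquivRight fun g => ?_)
    constructor
    · rintro ⟨⟨d, g0⟩, rfl⟩
      have hd0 : ((d.1 : Kˣ) : K) ≠ 0 := (d.1).ne_zero
      refine ⟨σ ((d.1 : Kˣ) : K) / ((d.1 : Kˣ) : K), div_ne_zero ((map_ne_zero_iff _ σ.injective).2 hd0) hd0, ?_⟩
      rw [hΦ, hscm, hmapmul, (hG0 _).1 g0.2, smul_smul, div_mul_cancel₀ _ hd0]
    · rintro ⟨c, hc0, hc⟩
      -- norm one
      have hiter : ∀ i : ℕ, ((g : GL (Fin n) K) : Matrix (Fin n) (Fin n) K).map (σ ^ i : K ≃+* K) = (∏ j ∈ Finset.range i, (σ ^ j) c) • ((g : GL (Fin n) K) : Matrix (Fin n) (Fin n) K) := by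
        intro i
        induction i with
        | zero => rw [pow_zero, Finset.prod_range_zero, one_smul]; ext; rfl
        | succ i ih =>
          have h1 : ((g : GL (Fin n) K) : Matrix (Fin n) (Fin n) K).map (σ ^ (i + 1) : K ≃+* K) = (((g : GL (Fin n) K) : Matrix (Fin n) (Fin n) K).map (σ ^ i : K ≃+* K)).map σ := by
            rw [pow_succ']; ext; rfl
          rw [h1, ih, hmapmul, hc, smul_smul, map_prod, Finset.prod_range_succ' (fun j => (σ ^ j) c), pow_zero]
          congr 2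
          refine Finset.prod_congr rfl fun j _ => ?_
          rw [pow_succ']; rfl
      have hN : ∏ j ∈ Finset.range r, (σ ^ j) c = 1 := by
        have h1 := hiter r
        rw [← hσ, pow_orderOf_eq_one, hσ] at h1
        have h2 : ((g : GL (Fin n) K) : Matrix (Fin n) (Fin n) K).map (1 : K ≃+* K) = (1 : K) • ((g : GL (Fin n) K) : Matrix (Fin n) (Fin n) K) := by
          rw [one_smul]; ext; rfl
        rw [h2] at h1
        exact (hsmi _ _ _ h1).symm
      have hcq : c ^ (q + 1) = 1 := by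
        have hgU := (mem_GU hτ _).1 g.2
        have hστ : ∀ x, σ (τ x) = τ (σ x) := by intro x; rw [hτ, hτ, map_pow]
        have h1 : (((g : GL (Fin n) K) : Matrix (Fin n) (Fin n) K).map σ).map τ = τ c • ((g : GL (Fin n) K) : Matrix (Fin n) (Fin n) K).map τ := by
          rw [hc]; ext i j; simp
        have h2 : ((((g : GL (Fin n) K) : Matrix (Fin n) (Fin n) K).map σ).map τ).transpose * (((g : GL (Fin n) K) : Matrix (Fin n) (Fin n) K).map σ) = 1 := by
          have h3 : (((g : GL (Fin n) K) : Matrix (Fin n) (Fin n) K).map σ).map τ = (((g : GL (Fin n) K) : Matrix (Fin n) (Fin n) K).map τ).map σ := by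
            ext i j; exact (hστ _).symm
          rw [h3]
          have h4 := congrArg (fun M : Matrix (Fin n) (Fin n) K => M.map σ) hgU
          rw [Matrix.map_mul, Matrix.map_one _ (map_zero _) (map_one _)] at h4
          exact h4
        rw [h1, hc, Matrix.transpose_smul, Matrix.smul_mul, Matrix.mul_smul, hgU, smul_smul] at h2
        have h5 := congrFun (congrFun h2 ⟨0, hn⟩) ⟨0, hn⟩
        rw [Matrix.smul_apply, Matrix.one_apply_eq, smul_eq_mul, mul_one, hτ, ← pow_succ] at h5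
        exact h5
      obtain ⟨d, hd1, hd2⟩ := unitary90 hr hr2 hq hK σ hσ c hcq hN
      have hd0 : d ≠ 0 := by rintro rfl; rw [zero_pow (by omega)] at hd1; exact zero_ne_one hd1
      let dA : A := ⟨Units.mk0 d hd0, Units.ext hd1⟩
      have hg0 : sc dA * g ∈ G0 := by
        rw [hG0, hscm]
        show (d • ((g : GL (Fin n) K) : Matrix (Fin n) (Fin n) K)).map σ = d • ((g : GL (Fin n) K) : Matrix (Fin n) (Fin n) K)
        rw [hmapmul, hc, smul_smul, hd2, mul_div_cancel₀ _ ((map_ne_zero_iff _ σ.injective).2 hd0)]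
      refine ⟨(dA⁻¹, ⟨sc dA * g, hg0⟩), ?_⟩
      rw [hΦ, map_inv, inv_mul_cancel_left]
  have hker : Nat.card Φ.ker = q₀ + 1 := by
    obtain ⟨K0, hK0, hcard⟩ := card_fixed hr (hq ▸ hK) σ hσ
    have hodd := hr.eq_two_or_odd'.resolve_left hr2
    obtain ⟨k, hk⟩ := hodd
    letI : Fintype K0 := Fintype.ofFinite K0
    have hcard' : Fintype.card K0 = q₀ ^ 2 := by rw [← Nat.card_eq_fintype_card]; exact hcard
    have hfix : ∀ x : K0, (x : K) ^ q = (x : K) ^ q₀ := by
      intro x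
      have h1 : (x : K) ^ (q₀ ^ 2) = x := by
        have := FiniteField.pow_card x
        rw [hcard'] at this
        exact congrArg Subtype.val this
      rw [hq, hk]
      exact pow_iter h1 k
    rw [← card_norm_fiber hcard' 1 one_ne_zero (one_pow q₀)]
    have hkerG : ∀ (d : A) (g : G0), (d, g) ∈ Φ.ker → σ ((d.1 : Kˣ) : K) = ((d.1 : Kˣ) : K) := by
      intro d g h
      have h1 : (sc d)⁻¹ = (g : ↥(Cfsg.GU n K q)) := by
        rw [MonoidHom.mem_ker, hΦ] at h
        exact inv_eq_of_mul_eq_one_right h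
      have h2 : sc d ∈ G0 := by
        rw [← inv_mem_iff, h1]; exact g.2
      rw [hG0, ← mul_one (sc d), hscm, hmapmul] at h2
      have h3 : (((1 : ↥(Cfsg.GU n K q)) : GL (Fin n) K) : Matrix (Fin n) (Fin n) K).map σ = (((1 : ↥(Cfsg.GU n K q)) : GL (Fin n) K) : Matrix (Fin n) (Fin n) K) :=
        Matrix.map_one _ (map_zero σ) (map_one σ)
      rw [h3] at h2
      exact hsmi _ _ _ h2
    refine Nat.card_congr (Equiv.ofBijective (fun x => ⟨⟨((x.1.1.1 : Kˣ) : K), (hK0 _).2 (hkerG x.1.1 x.1.2 x.2)⟩, ?_⟩) ⟨?_, ?_⟩)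
    · have h1 : ((x.1.1.1 : Kˣ) : K) ^ (q + 1) = 1 := congrArg Units.val ((MonoidHom.mem_ker).1 x.1.1.2)
      apply Subtype.ext
      have h2 := hfix ⟨((x.1.1.1 : Kˣ) : K), (hK0 _).2 (hkerG x.1.1 x.1.2 x.2)⟩
      simp only at h2
      show ((x.1.1.1 : Kˣ) : K) ^ (q₀ + 1) = 1
      rw [pow_succ, ← h2, ← pow_succ, h1]
    · rintro ⟨⟨d, g⟩, h⟩ ⟨⟨d', g'⟩, h'⟩ hdd
      have h1 : ((d.1 : Kˣ) : K) = ((d'.1 : Kˣ) : K) := congrArg (fun x => ((x.1 : K0) : K)) hdd
      have h2 : d = d' := Subtype.ext (Units.ext h1)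
      subst h2
      have h3 : (sc d)⁻¹ = (g : ↥(Cfsg.GU n K q)) := by
        rw [MonoidHom.mem_ker, hΦ] at h
        exact inv_eq_of_mul_eq_one_right h
      have h4 : (sc d)⁻¹ = (g' : ↥(Cfsg.GU n K q)) := by
        rw [MonoidHom.mem_ker, hΦ] at h'
        exact inv_eq_of_mul_eq_one_right h'
      have h5 : g = g' := Subtype.ext (h3.symm.trans h4)
      subst h5
      rfl
    · rintro ⟨x, hx⟩
      have hx' : (x : K) ^ (q + 1) = 1 := by
        have h1 : (x : K) ^ (q₀ + 1) = 1 := congrArg Subtype.val hx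
        rw [pow_succ, hfix, ← pow_succ, h1]
      have hx0 : (x : K) ≠ 0 := by
        intro h0
        rw [h0, zero_pow (by omega)] at hx'; exact zero_ne_one hx'
      let dA : A := ⟨Units.mk0 (x : K) hx0, Units.ext hx'⟩
      have hg0 : (sc dA)⁻¹ ∈ G0 := by
        rw [inv_mem_iff, hG0, ← mul_one (sc dA), hscm, hmapmul]
        have h3 : (((1 : ↥(Cfsg.GU n K q)) : GL (Fin n) K) : Matrix (Fin n) (Fin n) K).map σ = (((1 : ↥(Cfsg.GU n K q)) : GL (Fin n) K) : Matrix (Fin n) (Fin n) K) :=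
          Matrix.map_one _ (map_zero σ) (map_one σ)
        rw [h3]
        congr 1
        exact (hK0 _).1 x.2
      refine ⟨⟨(dA, ⟨(sc dA)⁻¹, hg0⟩), ?_⟩, ?_⟩
      · rw [MonoidHom.mem_ker, hΦ]
        exact mul_inv_cancel _
      · exact Subtype.ext (Subtype.ext rfl)
  rw [hG0c, hcount, hrange, hker]

/-- Centraliser of a field automorphism of odd prime order in PGU_n(q): let q = q₀^r with r an odd prime, K the field with q² elements and σ a field automorphism of K of order r (fixed field of order q₀²). The elements g of GU_n(q) whose entrywise image under σ is a scalar multiple of g — those whose coset modulo the q + 1 unitary scalars is fixed by σ — number (q + 1)/(q₀ + 1) · |GU_n(q₀)|; equivalently the centraliser in PGU_n(q) of the induced automorphism has the order of PGU_n(q₀). -/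
theorem result {K : Type*} [Field K] [Fintype K] {q₀ q r n : ℕ} (hr : r.Prime) (hr2 : r ≠ 2) (hn : 1 ≤ n) (hq : q = q₀ ^ r) (hK : Fintype.card K = q ^ 2) (σ : K ≃+* K) (hσ : orderOf σ = r) : (Nat.card {g : ↥(Cfsg.GU n K q) // ∃ c : K, c ≠ 0 ∧ ((g : GL (Fin n) K) : Matrix (Fin n) (Fin n) K).map σ = c • ((g : GL (Fin n) K) : Matrix (Fin n) (Fin n) K)} : ℤ) = ((q + 1) / (q₀ + 1) : ℕ) * ((q₀ : ℤ) ^ (n * (n - 1) / 2) * ∏ i : Fin n, ((q₀ : ℤ) ^ ((i : ℕ) + 1) - (-1) ^ ((i : ℕ) + 1))) := by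
  classical
  have h1 := main hr hr2 hn hq hK σ hσ
  have hq0 : 1 ≤ q₀ := by
    rcases Nat.eq_zero_or_pos q₀ with h0 | h0
    · rw [h0, zero_pow hr.ne_zero] at hq
      rw [hq] at hK
      have := Fintype.card_pos (α := K)
      rw [hK] at this
      norm_num at this
    · exact h0
  have hodd := hr.eq_two_or_odd'.resolve_left hr2
  have hdvd : (q₀ + 1) ∣ (q + 1) := by
    have := hodd.nat_add_dvd_pow_add_pow q₀ 1
    rw [one_pow] at this
    rw [hq]; exact this
  obtain ⟨t, ht⟩ := hdvd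
  rw [ht, Nat.mul_div_cancel_left _ (Nat.succ_pos q₀)]
  have h2 : Nat.card {g : ↥(Cfsg.GU n K q) // ∃ c : K, c ≠ 0 ∧ ((g : GL (Fin n) K) : Matrix (Fin n) (Fin n) K).map σ = c • ((g : GL (Fin n) K) : Matrix (Fin n) (Fin n) K)} =
      t * (q₀ ^ (n * (n - 1) / 2) * ∏ i ∈ Finset.range n, (if Even i then q₀ ^ (i + 1) + 1 else q₀ ^ (i + 1) - 1)) := by
    apply Nat.eq_of_mul_eq_mul_right (Nat.succ_pos q₀)
    rw [Nat.succ_eq_add_one, h1, ht]; ring
  rw [h2]
  push_cast
  congr 2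
  rw [Finset.prod_range]
  refine Finset.prod_congr rfl fun i _ => ?_
  split_ifs with h
  · rw [pow_succ (-1 : ℤ), h.neg_one_pow]; ring
  · rw [Nat.cast_sub (Nat.one_le_pow _ _ hq0), pow_succ (-1 : ℤ), (Nat.not_even_iff_odd.1 h).neg_one_pow]; push_cast; ring

end Cfsg.Agent.S2677
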