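import Cfsg.Statements.S2679
import Cfsg.Agent.LibH2Ell

set_option autoImplicit false
open Cfsg

namespace Cfsg.Agent.S2679

open Matrix CfsgLib.H2Ell Cfsg.Agent.H22


/-- An elliptic orthogonal group embeds in the hyperbolic orthogonal group of the same dimension over the quadratic extension: for a field F with q elements and a field K with q² elements there is an injective homomorphism from O⁻_2m(F) (isometries of Σ_(j<m−1) x_j y_j + z₁² + a z₁z₂ + c z₂², binary part anisotropic) to O⁺_2m(K) (isometries of Σ_(j<m) x_j y_j over K). -/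
theorem result {F K : Type*} [Field F] [Fintype F] [Field K] [Fintype K] {q : ℕ} (hF : Fintype.card F = q) (hK : Fintype.card K = q ^ 2) {m : ℕ} (hm : 1 ≤ m) (a c : F) (hac : ∀ z₁ z₂ : F, z₁ ^ 2 + a * z₁ * z₂ + c * z₂ ^ 2 = 0 → z₁ = 0 ∧ z₂ = 0) : ∃ φ : ↥(Cfsg.isometryGroup F (Cfsg.quadFormMinus (m - 1) F a c)) →* ↥(Cfsg.isometryGroup K (Cfsg.quadFormPlus m K)), Function.Injective φ := by
  obtain ⟨k, rfl⟩ : ∃ k, m = k + 1 := ⟨m - 1, by omega⟩
  change ∃ φ : ↥(Cfsg.isometryGroup F (Cfsg.quadFormMinus k F a c)) →* ↥(Cfsg.isometryGroup K (Cfsg.quadFormPlus (k + 1) K)),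
    Function.Injective φ
  obtain ⟨f, α, hα⟩ := exists_root hF hK a c hac
  set β : K := -(f a + α) with hβ
  have h1 : -(α + β) = f a := by rw [hβ]; ring
  have h2 : α * β = f c := by rw [hβ]; linear_combination -hα
  have hαβ : α ≠ β := by
    intro h
    apply disc_ne_zero a c hac
    apply f.injective
    rw [map_zero, map_sub, map_pow, map_mul, ← h1, ← h2, ← h]
    have : f 4 = 4 := map_ofNat f 4
    rw [this]; ring
  have hQ : ∀ v, qMinus k K (f a) (f c) (f ∘ v) = f (qMinus k F a c v) := by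
    intro v
    rw [coe_qMinus, coe_qMinus]
    unfold Cfsg.quadFormMinus
    simp only [map_add, map_sum, map_mul, map_pow, Function.comp]
  exact exists_hom f (qMinus k F a c) (qMinus k K (f a) (f c)) hQ _ (coe_qMinus k a c) (split k α β hαβ)
    (Cfsg.quadFormPlus (k + 1) K) (fun v => by rw [coe_qMinus, ← h1, ← h2]; exact split_form k α β hαβ v)

end Cfsg.Agent.S2679
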