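import Cfsg.Statements.S2681
import Cfsg.Agent.S2680

set_option autoImplicit false
open Cfsg

namespace Cfsg.Agent.S2681

open CfsgLib.InvC CfsgLib.Inv2 CfsgLib.Cen2 Cfsg.Agent.H22 Module LinearMap Cfsg.Agent.S2680

theorem card_symp_matrix {F : Type*} [Field F] [Fintype F] [CharP F 2] (k : ℕ) :
    Nat.card {A : Matrix (Fin k ⊕ Fin k) (Fin k ⊕ Fin k) F // A.transpose * (Matrix.fromBlocks 0 1 1 0 : Matrix (Fin k ⊕ Fin k) (Fin k ⊕ Fin k) F) * A = Matrix.fromBlocks 0 1 1 0} =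
      Nat.card (Matrix.symplecticGroup (Fin k) F) := by
  have hJ : (Matrix.fromBlocks 0 1 1 0 : Matrix (Fin k ⊕ Fin k) (Fin k ⊕ Fin k) F) = Matrix.J (Fin k) F := by
    unfold Matrix.J
    congr 1
    ext i j
    rw [Matrix.neg_apply, CharTwo.neg_eq]
  rw [hJ]
  refine Nat.card_congr (Equiv.subtypeEquiv ⟨Matrix.transpose, Matrix.transpose, Matrix.transpose_transpose, Matrix.transpose_transpose⟩ ?_)
  intro A
  show _ ↔ A.transpose ∈ Matrix.symplecticGroup (Fin k) F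
  rw [SymplecticGroup.mem_iff]
  show _ ↔ A.transpose * Matrix.J (Fin k) F * A.transpose.transpose = Matrix.J (Fin k) F
  rw [Matrix.transpose_transpose]

/-- Centraliser order of an involution t of Sp_2m(q), q even, with s = rank(t − 1) even and f(v, tv) = 0 for every v, f the symplectic form (type a_s): |C(t)| = q^(2ms − (3s² − s)/2) · |Sp_s(q)| · |Sp_(2m−2s)(q)|. -/
theorem result {F : Type*} [Field F] [Fintype F] [CharP F 2] {q : ℕ} (hF : Fintype.card F = q) {m s : ℕ} (t : Matrix.symplecticGroup (Fin m) F) (ht : t ^ 2 = 1) (ht1 : t ≠ 1) (hs : ((t : Matrix (Fin m ⊕ Fin m) (Fin m ⊕ Fin m) F) - 1).rank = s) (heven : Even s) (halt : ∀ v : Fin m ⊕ Fin m → F, Cfsg.sympForm m F v ((t : Matrix (Fin m ⊕ Fin m) (Fin m ⊕ Fin m) F).mulVec v) = 0) : Nat.card ↥(Subgroup.centralizer ({t} : Set ↥(Matrix.symplecticGroup (Fin m) F))) = q ^ (2 * m * s - (3 * s ^ 2 - s) / 2) * ((q : ℕ) ^ ((s / 2) ^ 2) * ∏ i : Fin (s / 2), (q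 ^ (2 * ((i : ℕ) + 1)) - 1)) * ((q : ℕ) ^ ((m - s) ^ 2) * ∏ i : Fin (m - s), (q ^ (2 * ((i : ℕ) + 1)) - 1)) := by
  subst hF
  have h0 : ∀ v, spB m F v (nl (spToLin t) v) = 0 := fun v => by rw [← tv_iff]; exact halt v
  have hT2 := sq_one ht
  have hN := nl_selfadj (spB m F) (spToLin t) hT2 (spToLin_isometry t)
  obtain ⟨W, k, b, hW, hk, hb⟩ := exists_symp_of_zero (spB m F) spB_isAlt spB_nondeg (spToLin t) (spToLin_isometry t) hT2 h0
  obtain ⟨hb1, hb2⟩ := indep_of_compl (nl (spToLin t)) W hW b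
  have hs' := hs
  rw [sp_rank, hk] at hs'
  rw [card_centralizer, card_Cen (spB m F) spB_isAlt spB_nondeg (nl (spToLin t)) hN (nl_sq _ hT2) (fun i => (b i : Fin m ⊕ Fin m → F)) hb1 hb2
    (Matrix.fromBlocks 0 1 1 0) hb, card_symp_matrix, card_Fx t ht hs, card_sp]
  have : s / 2 = k := by omega
  rw [this, Fin.prod_univ_eq_prod_range (fun i => Fintype.card F ^ (2 * (i + 1)) - 1) k]
  ring

end Cfsg.Agent.S2681
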