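import Cfsg.Statements.S2682
import Cfsg.Agent.S2680

set_option autoImplicit false
open Cfsg

namespace Cfsg.Agent.S2682

open CfsgLib.InvC CfsgLib.Inv2 CfsgLib.Cen2 Cfsg.Agent.H22 Module LinearMap Cfsg.Agent.S2680

/-- Centraliser order of an involution t of Sp_2m(q), q even, with s = rank(t − 1) even and f(v, tv) ≠ 0 for some v, f the symplectic form (type c_s): |C(t)| = q^(2ms − (3s² − 3s)/2 − 1) · |Sp_(s−2)(q)| · |Sp_(2m−2s)(q)|. -/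
theorem result {F : Type*} [Field F] [Fintype F] [CharP F 2] {q : ℕ} (hF : Fintype.card F = q) {m s : ℕ} (t : Matrix.symplecticGroup (Fin m) F) (ht : t ^ 2 = 1) (hs : ((t : Matrix (Fin m ⊕ Fin m) (Fin m ⊕ Fin m) F) - 1).rank = s) (heven : Even s) (hna : ∃ v : Fin m ⊕ Fin m → F, Cfsg.sympForm m F v ((t : Matrix (Fin m ⊕ Fin m) (Fin m ⊕ Fin m) F).mulVec v) ≠ 0) : Nat.card ↥(Subgroup.centralizer ({t} : Set ↥(Matrix.symplecticGroup (Fin m) F))) = q ^ (2 * m * s - (3 * s ^ 2 - 3 * s) / 2 - 1) * ((q : ℕ) ^ (((s - 2) / 2) ^ 2) * ∏ i : Fin ((s - 2) / 2), (q ^ (2 * ((i : ℕ) + 1)) - 1)) * ((q : ℕ) ^ ((m - s) ^ 2) * ∏ i : Fin (m - s), (q ^ (2 * ((i : ℕ) + 1)) - 1)) := by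
  subst hF
  obtain ⟨v, hv⟩ := hna
  have h0 : ∃ v, spB m F v (nl (spToLin t) v) ≠ 0 := ⟨v, by rw [← tv_iff]; exact hv⟩
  have hs1 : 1 ≤ s := by
    rw [Nat.one_le_iff_ne_zero]
    rintro rfl
    rw [sp_rank, Submodule.finrank_eq_zero, LinearMap.range_eq_bot] at hs
    obtain ⟨w, hw⟩ := h0
    apply hw
    rw [hs]; simp
  have hle : s ≤ m := by
    have := rank_le (T := spToLin (F := F) t) (sq_one ht)
    rw [sp_rank] at hs
    have hV : finrank F (Fin m ⊕ Fin m → F) = 2 * m := by simp; omega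
    omega
  obtain ⟨k, hk⟩ : ∃ k, s = 2 * k + 2 := by
    obtain ⟨k, hk⟩ := heven
    exact ⟨k - 1, by omega⟩
  rw [card_nonalt t ht hs h0]
  subst hk
  rw [nO_even, nO_odd]
  have h1 : (2 * k + 2 - 2) / 2 = k := by omega
  rw [h1]
  have h2 : 2 * m * (2 * k + 2) - (3 * (2 * k + 2) ^ 2 - 3 * (2 * k + 2)) / 2 - 1 = (2 * m * (2 * k + 2) - (3 * (2 * k + 2) ^ 2 - (2 * k + 2)) / 2) + (2 * k + 1) := by
    have e1 : (3 * (2 * k + 2) ^ 2 - 3 * (2 * k + 2)) / 2 = 6 * k ^ 2 + 9 * k + 3 := by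
      have : 3 * (2 * k + 2) ^ 2 = 2 * (6 * k ^ 2 + 9 * k + 3) + 3 * (2 * k + 2) := by ring
      omega
    have e2 : (3 * (2 * k + 2) ^ 2 - (2 * k + 2)) / 2 = 6 * k ^ 2 + 11 * k + 5 := by
      have : 3 * (2 * k + 2) ^ 2 = 2 * (6 * k ^ 2 + 11 * k + 5) + (2 * k + 2) := by ring
      omega
    rw [e1, e2]
    have e3 : 2 * (2 * k + 2) * (2 * k + 2) ≤ 2 * m * (2 * k + 2) := Nat.mul_le_mul_right _ (Nat.mul_le_mul_left _ hle)
    have e4 : 2 * (2 * k + 2) * (2 * k + 2) = 8 * k ^ 2 + 16 * k + 8 := by ring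
    omega
  rw [h2, pow_add]
  ring

end Cfsg.Agent.S2682
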