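import Cfsg.Statements.S2683
import Cfsg.Agent.LibCen5H13
import Cfsg.Agent.S2593
import Cfsg.Agent.S2597
import Cfsg.Agent.S2680

set_option autoImplicit false
open Cfsg

namespace Cfsg.Agent.S2683

open CfsgLib.InvC CfsgLib.Inv2 CfsgLib.Cen2 Cfsg.Agent.H22 Module LinearMap

theorem polar_spB {F : Type*} [Field F] [CharP F 2] {m : ℕ} : (QuadraticMap.polarBilin (qPlus m F) : LinearMap.BilinForm F (Fin m ⊕ Fin m → F)) = spB m F := by
  apply LinearMap.ext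
  intro x
  apply LinearMap.ext
  intro y
  exact Cfsg.Agent.S2593.polar_eq x y

/-- passing to the symplectic group -/
theorem exists_t {F : Type*} [Field F] [Fintype F] [CharP F 2] {m : ℕ} {T : (Fin m ⊕ Fin m → F) ≃ₗ[F] (Fin m ⊕ Fin m → F)} (hT : T ∈ OGrp (qPlus m F)) (hT2 : T * T = 1) :
    ∃ t : Matrix.symplecticGroup (Fin m) F, t ^ 2 = 1 ∧ spToLin t = T ∧
      Nat.card ↥(Subgroup.centralizer ({t} : Set ↥(Matrix.symplecticGroup (Fin m) F))) = Nat.card {a : Fin m ⊕ Fin m → F // nl T a = 0 ∧ qPlus m F a ∈ wp F} * Nat.card (CenO (qPlus m F) (nl T)) := by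
  obtain ⟨t, ht⟩ := exists_spToLin T (fun x y => by rw [← Cfsg.Agent.S2593.polar_eq, ← Cfsg.Agent.S2593.polar_eq]; exact polar_isom hT x y)
  refine ⟨t, spToLin_injective (by rw [pow_two, map_mul, ht, hT2, map_one]), ht, ?_⟩
  rw [Cfsg.Agent.S2680.card_centralizer, ht, ← polar_spB, card_CenO (nondeg_qPlus m) hT hT2]

theorem hFd {F : Type*} [Field F] [Fintype F] {m : ℕ} (h : Fintype.card F ≠ 2 ∨ m ≠ 2) : (∃ a : F, a ≠ 0 ∧ a ≠ 1) ∨ finrank F (Fin m ⊕ Fin m → F) ≠ 4 := by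
  rcases h with h | h
  · exact Or.inl (Cfsg.Agent.S2597.exists_ne01 h)
  · have hV : finrank F (Fin m ⊕ Fin m → F) = 2 * m := by simp; omega
    exact Or.inr (by omega)

/-- non-alternating types -/
theorem ne_case {F : Type*} [Field F] [Fintype F] [CharP F 2] {m s : ℕ} (h : Fintype.card F ≠ 2 ∨ m ≠ 2)
    (x : ↥(Cfsg.isometryGroup F ⇑(qPlus m F))) (hx : x ^ 2 = 1) (hs : (((x : Matrix.GeneralLinearGroup (Fin m ⊕ Fin m) F) : Matrix (Fin m ⊕ Fin m) (Fin m ⊕ Fin m) F) - 1).rank = s)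
    (hna : ∃ v, qPlus m F (nl ((oIso (qPlus m F) x : OGrp (qPlus m F)) : (Fin m ⊕ Fin m → F) ≃ₗ[F] (Fin m ⊕ Fin m → F)) v) ≠ 0) :
    ∃ t : Matrix.symplecticGroup (Fin m) F, t ^ 2 = 1 ∧ ((t : Matrix (Fin m ⊕ Fin m) (Fin m ⊕ Fin m) F) - 1).rank = s ∧
      (∃ v, spB m F v (nl (spToLin t) v) ≠ 0) ∧
      Nat.card ↥(Subgroup.centralizer ({t} : Set ↥(Matrix.symplecticGroup (Fin m) F))) = Fintype.card F ^ (2 * m - s) *
        Nat.card {g : ↥(Cfsg.Omega F ⇑(qPlus m F)) // (g : ↥(Cfsg.isometryGroup F ⇑(qPlus m F))) * x = x * (g : ↥(Cfsg.isometryGroup F ⇑(qPlus m F)))} := by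
  have hV : finrank F (Fin m ⊕ Fin m → F) = 2 * m := by simp; omega
  have hT2 : oIso (qPlus m F) x * oIso (qPlus m F) x = 1 := by rw [← map_mul, ← pow_two, hx, map_one]
  have hT2' := congrArg (Subtype.val : OGrp (qPlus m F) → _) hT2
  obtain ⟨v, hv⟩ := hna
  have hne : ∃ x : Fin m ⊕ Fin m → F, x ≠ 0 := ⟨nl ((oIso (qPlus m F) x : OGrp (qPlus m F)) : (Fin m ⊕ Fin m → F) ≃ₗ[F] (Fin m ⊕ Fin m → F)) v,
    fun h0 => hv (by rw [h0]; exact QuadraticMap.map_zero _)⟩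
  obtain ⟨t, ht1, ht2, ht3⟩ := exists_t (oIso (qPlus m F) x).2 hT2'
  rw [rank_nl] at hs
  refine ⟨t, ht1, by rw [sp_rank, ht2]; exact hs, ?_, ?_⟩
  · refine ⟨v, ?_⟩
    rw [ht2, ← Cfsg.Agent.S2593.polar_eq, QuadraticMap.polarBilin_apply_apply, ← q_nl _ _ (oIso (qPlus m F) x).2]
    exact hv
  · rw [ht3, card_Om (qPlus m F) (nondeg_qPlus m) (hFd h) hne x]
    have h1 := card_CenOm (nondeg_qPlus m) (hFd h) (oIso (qPlus m F) x) (w := nl ((oIso (qPlus m F) x : OGrp (qPlus m F)) : (Fin m ⊕ Fin m → F) ≃ₗ[F] (Fin m ⊕ Fin m → F)) v) (nl_sq _ hT2' v) hv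
    have h2 := card_A_ne (oIso (qPlus m F) x).2 hT2' ⟨v, hv⟩
    rw [hs, hV, Nat.card_eq_fintype_card (α := F)] at h2
    rw [← h1, ← h2]; ring

theorem rank_le_m {F : Type*} [Field F] [Fintype F] [CharP F 2] {m s : ℕ} (t : Matrix.symplecticGroup (Fin m) F) (ht : t ^ 2 = 1) (hs : ((t : Matrix (Fin m ⊕ Fin m) (Fin m ⊕ Fin m) F) - 1).rank = s) :
    s ≤ m := by
  have := rank_le (T := spToLin (F := F) t) (Cfsg.Agent.S2680.sq_one ht)
  rw [sp_rank] at hs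
  have hV : finrank F (Fin m ⊕ Fin m → F) = 2 * m := by simp; omega
  omega

theorem aux {F : Type*} [Field F] [Fintype F] [CharP F 2] {m s : ℕ} (h : Fintype.card F ≠ 2 ∨ m ≠ 2) {Q0 : (Fin m ⊕ Fin m → F) → F} (hQ0 : ⇑(qPlus m F) = Q0)
    (x : ↥(Cfsg.isometryGroup F Q0)) (hx : x ^ 2 = 1) (hs : (((x : Matrix.GeneralLinearGroup (Fin m ⊕ Fin m) F) : Matrix (Fin m ⊕ Fin m) (Fin m ⊕ Fin m) F) - 1).rank = s) (hodd : Odd s) :
    Nat.card {g : ↥(Cfsg.Omega F Q0) // (g : ↥(Cfsg.isometryGroup F Q0)) * x = x * (g : ↥(Cfsg.isometryGroup F Q0))} =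
      Fintype.card F ^ (2 * m * (s - 1) - (3 * s ^ 2 - 3 * s) / 2) * (Fintype.card F ^ (((s - 1) / 2) ^ 2) * ∏ i : Fin ((s - 1) / 2), (Fintype.card F ^ (2 * ((i : ℕ) + 1)) - 1)) * (Fintype.card F ^ ((m - s) ^ 2) * ∏ i : Fin (m - s), (Fintype.card F ^ (2 * ((i : ℕ) + 1)) - 1)) := by
  subst hQ0
  have hna : ∃ v, qPlus m F (nl ((oIso (qPlus m F) x : OGrp (qPlus m F)) : (Fin m ⊕ Fin m → F) ≃ₗ[F] (Fin m ⊕ Fin m → F)) v) ≠ 0 := by
    by_contra hcon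
    push Not at hcon
    have hT2 : oIso (qPlus m F) x * oIso (qPlus m F) x = 1 := by rw [← map_mul, ← pow_two, hx, map_one]
    have h1 := even_of_alt (nondeg_qPlus m) (oIso (qPlus m F) x).2 (congrArg (Subtype.val : OGrp (qPlus m F) → _) hT2) hcon
    rw [← rank_nl, hs] at h1
    exact (Nat.not_even_iff_odd.mpr hodd) h1
  obtain ⟨t, ht1, ht2, -, ht4⟩ := ne_case h x hx hs hna
  have h5 := Cfsg.Agent.S2680.result rfl t ht1 ht2 hodd
  have hle := rank_le_m t ht1 ht2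
  rw [ht4] at h5
  have hpos : 0 < Fintype.card F ^ (2 * m - s) := Nat.pow_pos Fintype.card_pos
  apply Nat.eq_of_mul_eq_mul_left hpos
  rw [h5]
  have hexp : 2 * m * s - (3 * s ^ 2 - s) / 2 = (2 * m - s) + (2 * m * (s - 1) - (3 * s ^ 2 - 3 * s) / 2) := by
    obtain ⟨k, rfl⟩ := hodd
    obtain ⟨d, rfl⟩ := Nat.exists_eq_add_of_le hle
    have e1 : 3 * (2 * k + 1) ^ 2 = 2 * (6 * k ^ 2 + 5 * k + 1) + (2 * k + 1) := by ring
    have e2 : 3 * (2 * k + 1) ^ 2 = 2 * (6 * k ^ 2 + 3 * k) + 3 * (2 * k + 1) := by ring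
    have e3 : (3 * (2 * k + 1) ^ 2 - (2 * k + 1)) / 2 = 6 * k ^ 2 + 5 * k + 1 := by omega
    have e4 : (3 * (2 * k + 1) ^ 2 - 3 * (2 * k + 1)) / 2 = 6 * k ^ 2 + 3 * k := by omega
    rw [e3, e4, Nat.add_sub_cancel]
    have e5 : 2 * (2 * k + 1 + d) * (2 * k + 1) = 8 * k ^ 2 + 8 * k + 2 + 4 * (k * d) + 2 * d := by ring
    have e6 : 2 * (2 * k + 1 + d) * (2 * k) = 8 * k ^ 2 + 4 * k + 4 * (k * d) := by ring
    rw [e5, e6]
    omega
  rw [hexp, pow_add]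
  ring

/-- For the hyperbolic form Σ x_j y_j on F^(2m) over a finite field with q elements, q even (excluding m = 2 over the field of two elements), and an involution x of the orthogonal group with s = rank(x − 1) odd (type b_s; such x lie outside Ω): the elements of Ω (the commutator subgroup of the orthogonal group) commuting with x number q^(2m(s−1) − (3s² − 3s)/2) · |Sp_(s−1)(q)| · |Sp_(2m−2s)(q)|, where |Sp_2k(q)| = q^(k²) Π_(i=1)^k (q^(2i) − 1). -/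
theorem result {F : Type*} [Field F] [Fintype F] [CharP F 2] {q : ℕ} (hF : Fintype.card F = q) {m s : ℕ} (h : Fintype.card F ≠ 2 ∨ m ≠ 2) (x : ↥(Cfsg.isometryGroup F (Cfsg.quadFormPlus m F))) (hx : x ^ 2 = 1) (hs : (((x : Matrix.GeneralLinearGroup (Fin m ⊕ Fin m) F) : Matrix (Fin m ⊕ Fin m) (Fin m ⊕ Fin m) F) - 1).rank = s) (hodd : Odd s) : Nat.card {g : ↥(Cfsg.Omega F (Cfsg.quadFormPlus m F)) // (g : ↥(Cfsg.isometryGroup F (Cfsg.quadFormPlus m F))) * x = x * (g : ↥(Cfsg.isometryGroup F (Cfsg.quadFormPlus m F)))} = q ^ (2 * m * (s - 1) - (3 * s ^ 2 - 3 * s) / 2) * ((q : ℕ) ^ (((s - 1) / 2) ^ 2) * ∏ i : Fin ((s - 1) / 2), (q ^ (2 * ((i : ℕ) + 1)) - 1)) * ((q : ℕ) ^ ((m - s) ^ 2) * ∏ i : Fin (m - s), (q ^ (2 * ((i : ℕ) + 1)) - 1)) := by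
  subst hF
  exact aux h (coe_qPlus m) x hx hs hodd

end Cfsg.Agent.S2683
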