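import Cfsg.Statements.S2684
import Cfsg.Agent.S2683
import Cfsg.Agent.S2681

set_option autoImplicit false
open Cfsg

namespace Cfsg.Agent.S2684

open CfsgLib.InvC CfsgLib.Inv2 CfsgLib.Cen2 Cfsg.Agent.H22 Module LinearMap Cfsg.Agent.S2683

theorem aux {F : Type*} [Field F] [Fintype F] [CharP F 2] {m s : ℕ} (h : Fintype.card F ≠ 2 ∨ m ≠ 2) {Q0 : (Fin m ⊕ Fin m → F) → F} (hQ0 : ⇑(qPlus m F) = Q0)
    (x : ↥(Cfsg.isometryGroup F Q0)) (hx : x ^ 2 = 1) (hx1 : x ≠ 1) (hs : (((x : Matrix.GeneralLinearGroup (Fin m ⊕ Fin m) F) : Matrix (Fin m ⊕ Fin m) (Fin m ⊕ Fin m) F) - 1).rank = s) (heven : Even s)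
    (halt : ∀ v : Fin m ⊕ Fin m → F, Q0 ((((x : Matrix.GeneralLinearGroup (Fin m ⊕ Fin m) F) : Matrix (Fin m ⊕ Fin m) (Fin m ⊕ Fin m) F) - 1).mulVec v) = 0) :
    Nat.card {g : ↥(Cfsg.Omega F Q0) // (g : ↥(Cfsg.isometryGroup F Q0)) * x = x * (g : ↥(Cfsg.isometryGroup F Q0))} =
      Fintype.card F ^ (2 * m * s - (3 * s ^ 2 + s) / 2) * (Fintype.card F ^ ((s / 2) ^ 2) * ∏ i : Fin (s / 2), (Fintype.card F ^ (2 * ((i : ℕ) + 1)) - 1)) *
        (if s = m then 1 else Fintype.card F ^ ((m - s) * (m - s - 1)) * (Fintype.card F ^ (m - s) - 1) * ∏ i : Fin (m - s - 1), (Fintype.card F ^ (2 * ((i : ℕ) + 1)) - 1)) := by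
  subst hQ0
  have hV : finrank F (Fin m ⊕ Fin m → F) = 2 * m := by simp; omega
  have hT2 : oIso (qPlus m F) x * oIso (qPlus m F) x = 1 := by rw [← map_mul, ← pow_two, hx, map_one]
  have hT2' := congrArg (Subtype.val : OGrp (qPlus m F) → _) hT2
  have halt' : ∀ v, qPlus m F (nl ((oIso (qPlus m F) x : OGrp (qPlus m F)) : (Fin m ⊕ Fin m → F) ≃ₗ[F] (Fin m ⊕ Fin m → F)) v) = 0 := by
    intro v
    rw [← toLin_nl, Matrix.toLin'_apply]
    exact halt v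
  obtain ⟨t, ht1, ht2, ht3⟩ := exists_t (oIso (qPlus m F) x).2 hT2'
  have hs' := hs
  rw [rank_nl] at hs'
  have hsp : ((t : Matrix (Fin m ⊕ Fin m) (Fin m ⊕ Fin m) F) - 1).rank = s := by rw [sp_rank, ht2]; exact hs'
  have hle := rank_le_m t ht1 hsp
  have hTS : TS (qPlus m F) (range (nl ((oIso (qPlus m F) x : OGrp (qPlus m F)) : (Fin m ⊕ Fin m → F) ≃ₗ[F] (Fin m ⊕ Fin m → F)))) := by
    rintro _ ⟨v, rfl⟩; exact halt' v
  have hpos' : 0 < s := by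
    have := rank_pos (F := F) (T := ((oIso (qPlus m F) x : OGrp (qPlus m F)) : (Fin m ⊕ Fin m → F) ≃ₗ[F] (Fin m ⊕ Fin m → F))) (fun h0 => hx1 ((oIso (qPlus m F)).injective (by rw [map_one]; exact Subtype.ext h0)))
    omega
  have hne : ∃ x : Fin m ⊕ Fin m → F, x ≠ 0 := by
    haveI : Nonempty (Fin m) := ⟨⟨0, by omega⟩⟩
    exact exists_ne 0
  obtain ⟨W, hW1, hW2, hW3⟩ := exists_max_TS hTS (by rw [hs']; exact hle)
  have hA := card_A_alt (nondeg_qPlus m) hV (oIso (qPlus m F) x).2 hT2' hW1 hW2 hW3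
  have h5 := Cfsg.Agent.S2681.result rfl t ht1 (by
    rintro rfl
    rw [sp_rank, map_one] at hsp
    have h2 : nl (1 : (Fin m ⊕ Fin m → F) ≃ₗ[F] (Fin m ⊕ Fin m → F)) = 0 := by
      apply LinearMap.ext
      intro x
      rw [nl_apply]; show x - x = 0; rw [sub_self]
    rw [h2, LinearMap.range_zero, finrank_bot] at hsp
    omega) hsp heven (fun v => by
    rw [Cfsg.Agent.S2680.tv_iff, ht2, ← Cfsg.Agent.S2593.polar_eq, QuadraticMap.polarBilin_apply_apply, ← q_nl _ _ (oIso (qPlus m F) x).2]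
    exact halt' v)
  rw [ht3] at h5
  rw [hs', hV, Nat.card_eq_fintype_card (α := F)] at hA
  rw [card_Om (qPlus m F) (nondeg_qPlus m) (hFd h) hne x]
  obtain ⟨k, hk⟩ := heven
  obtain rfl : s = 2 * k := by omega
  have hk2 : 2 * k / 2 = k := by omega
  rw [hk2] at h5 ⊢
  by_cases hsm : 2 * k = m
  · rw [if_pos hsm]
    subst hsm
    -- all elements have parity one
    have h6 : Nat.card (CenO (qPlus (2 * k) F) (nl ((oIso (qPlus (2 * k) F) x : OGrp (qPlus (2 * k) F)) : (Fin (2 * k) ⊕ Fin (2 * k) → F) ≃ₗ[F] (Fin (2 * k) ⊕ Fin (2 * k) → F)))) =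
        Nat.card {g : OGrp (qPlus (2 * k) F) // par (nondeg_qPlus (2 * k)) (hFd h) g = 1 ∧ g * oIso (qPlus (2 * k) F) x = oIso (qPlus (2 * k) F) x * g} := by
      rw [card_CenO_eq]
      refine Nat.card_congr (Equiv.subtypeEquivRight fun g => ⟨fun hg => ⟨?_, hg⟩, fun hg => hg.2⟩)
      rw [split_iff (nondeg_qPlus (2 * k)) (hFd h) hV g (T := oIso (qPlus (2 * k) F) x) (S := oIso (qPlus (2 * k) F) x) (by rw [hg]; group) hs' halt'
        (by rw [par_eq, hs', neg_one_pow_eq_one_iff_even (by decide)]; exact even_two_mul k), inf_idem, hs']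
      exact even_two_mul k
    rw [← h6]
    have h7 : Nat.card {a : Fin (2 * k) ⊕ Fin (2 * k) → F // nl ((oIso (qPlus (2 * k) F) x : OGrp (qPlus (2 * k) F)) : (Fin (2 * k) ⊕ Fin (2 * k) → F) ≃ₗ[F] (Fin (2 * k) ⊕ Fin (2 * k) → F)) a = 0 ∧ qPlus (2 * k) F a ∈ wp F} =
        Fintype.card F ^ (2 * k) := by
      have e1 : 2 * (2 * k) - 2 * k = 2 * k := by omega
      rw [e1] at hA
      omega
    rw [h7] at h5
    have hpos : 0 < Fintype.card F ^ (2 * k) := Nat.pow_pos Fintype.card_pos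
    apply Nat.eq_of_mul_eq_mul_left hpos
    rw [h5, Nat.sub_self]
    have e1 : 3 * (2 * k) ^ 2 = 2 * (6 * k ^ 2 - k) + 2 * k := by
      have : k ≤ 6 * k ^ 2 := by nlinarith
      have : 3 * (2 * k) ^ 2 = 12 * k ^ 2 := by ring
      omega
    have e3 : (3 * (2 * k) ^ 2 - (2 * k)) / 2 = 6 * k ^ 2 - k := by omega
    have e4 : (3 * (2 * k) ^ 2 + 2 * k) / 2 = 6 * k ^ 2 + k := by
      have : 3 * (2 * k) ^ 2 = 12 * k ^ 2 := by ring
      omega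
    have e5 : 2 * (2 * k) * (2 * k) = 8 * k ^ 2 := by ring
    have hkk : k ≤ k ^ 2 := by nlinarith
    have hexp : 2 * (2 * k) * (2 * k) - (3 * (2 * k) ^ 2 - 2 * k) / 2 = 2 * k + (2 * (2 * k) * (2 * k) - (3 * (2 * k) ^ 2 + 2 * k) / 2) := by
      rw [e3, e4, e5]; omega
    rw [hexp, pow_add]
    simp only [Fin.prod_univ_zero]
    ring
  · rw [if_neg hsm]
    have hw : ∃ w, nl ((oIso (qPlus m F) x : OGrp (qPlus m F)) : (Fin m ⊕ Fin m → F) ≃ₗ[F] (Fin m ⊕ Fin m → F)) w = 0 ∧ qPlus m F w ≠ 0 := by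
      by_contra hcon
      push Not at hcon
      have := (fix_TS (nondeg_qPlus m) hV hT2' hcon).1
      omega
    obtain ⟨w, hw1, hw2⟩ := hw
    have h1 := card_CenOm (nondeg_qPlus m) (hFd h) (oIso (qPlus m F) x) (w := w) hw1 hw2
    rw [← h1] at h5
    set c := Nat.card {g : OGrp (qPlus m F) // par (nondeg_qPlus m) (hFd h) g = 1 ∧ g * oIso (qPlus m F) x = oIso (qPlus m F) x * g}
    obtain ⟨e, rfl⟩ : ∃ e, m = 2 * k + (e + 1) := ⟨m - 2 * k - 1, by omega⟩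
    have hpos : 0 < Fintype.card F ^ (2 * (2 * k + (e + 1)) - 2 * k) + Fintype.card F ^ (2 * k + (e + 1)) := by
      have : 0 < Fintype.card F ^ (2 * k + (e + 1)) := Nat.pow_pos Fintype.card_pos
      omega
    apply Nat.eq_of_mul_eq_mul_left hpos
    rw [← hA]
    have e0 : 2 * Nat.card {a : Fin (2 * k + (e + 1)) ⊕ Fin (2 * k + (e + 1)) → F // nl ((oIso (qPlus (2 * k + (e + 1)) F) x : OGrp (qPlus (2 * k + (e + 1)) F)) : (Fin (2 * k + (e + 1)) ⊕ Fin (2 * k + (e + 1)) → F) ≃ₗ[F] (Fin (2 * k + (e + 1)) ⊕ Fin (2 * k + (e + 1)) → F)) a = 0 ∧ qPlus (2 * k + (e + 1)) F a ∈ wp F} * c =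
      Nat.card {a : Fin (2 * k + (e + 1)) ⊕ Fin (2 * k + (e + 1)) → F // nl ((oIso (qPlus (2 * k + (e + 1)) F) x : OGrp (qPlus (2 * k + (e + 1)) F)) : (Fin (2 * k + (e + 1)) ⊕ Fin (2 * k + (e + 1)) → F) ≃ₗ[F] (Fin (2 * k + (e + 1)) ⊕ Fin (2 * k + (e + 1)) → F)) a = 0 ∧ qPlus (2 * k + (e + 1)) F a ∈ wp F} * (2 * c) := by ring
    rw [e0, h5, hA, Nat.add_sub_cancel_left, Nat.add_sub_cancel, Fin.prod_univ_castSucc]
    simp only [Fin.val_castSucc, Fin.val_last]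
    set q := Fintype.card F
    have hq1 : 1 ≤ q := Fintype.card_pos
    have hsq : (q ^ (e + 1) + 1) * (q ^ (e + 1) - 1) = q ^ (2 * (e + 1)) - 1 := by
      rw [← Nat.sq_sub_sq, one_pow, ← pow_mul]; congr 2; ring
    rw [← hsq]
    have hfac : q ^ (2 * (2 * k + (e + 1)) - 2 * k) + q ^ (2 * k + (e + 1)) = q ^ (2 * k + (e + 1)) * (q ^ (e + 1) + 1) := by
      have e9 : 2 * (2 * k + (e + 1)) - 2 * k = (2 * k + (e + 1)) + (e + 1) := by omega
      rw [e9, pow_add]; ring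
    rw [hfac]
    have hkk : k ≤ k ^ 2 := by nlinarith
    have e3 : (3 * (2 * k) ^ 2 - (2 * k)) / 2 = 6 * k ^ 2 - k := by
      have : 3 * (2 * k) ^ 2 = 12 * k ^ 2 := by ring
      omega
    have e4 : (3 * (2 * k) ^ 2 + 2 * k) / 2 = 6 * k ^ 2 + k := by
      have : 3 * (2 * k) ^ 2 = 12 * k ^ 2 := by ring
      omega
    have hexp : 2 * (2 * k + (e + 1)) * (2 * k) - (3 * (2 * k) ^ 2 - 2 * k) / 2 + (e + 1) ^ 2 =
        2 * k + (e + 1) + (2 * (2 * k + (e + 1)) * (2 * k) - (3 * (2 * k) ^ 2 + 2 * k) / 2) + (e + 1) * e := by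
      rw [e3, e4]
      have e5 : 2 * (2 * k + (e + 1)) * (2 * k) = 8 * k ^ 2 + 4 * (k * e) + 4 * k := by ring
      have e6 : (e + 1) ^ 2 = (e + 1) * e + e + 1 := by ring
      rw [e5, e6]
      omega
    have hpow : q ^ (2 * (2 * k + (e + 1)) * (2 * k) - (3 * (2 * k) ^ 2 - 2 * k) / 2) * q ^ ((e + 1) ^ 2) =
        q ^ (2 * k + (e + 1)) * q ^ (2 * (2 * k + (e + 1)) * (2 * k) - (3 * (2 * k) ^ 2 + 2 * k) / 2) * q ^ ((e + 1) * e) := by
      rw [← pow_add, hexp, pow_add, pow_add]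
    set P1 := ∏ i : Fin k, (q ^ (2 * ((i : ℕ) + 1)) - 1)
    set P2 := ∏ i : Fin e, (q ^ (2 * ((i : ℕ) + 1)) - 1)
    calc q ^ (2 * (2 * k + (e + 1)) * (2 * k) - (3 * (2 * k) ^ 2 - 2 * k) / 2) * (q ^ (k ^ 2) * P1) * (q ^ ((e + 1) ^ 2) * (P2 * ((q ^ (e + 1) + 1) * (q ^ (e + 1) - 1))))
        = (q ^ (2 * (2 * k + (e + 1)) * (2 * k) - (3 * (2 * k) ^ 2 - 2 * k) / 2) * q ^ ((e + 1) ^ 2)) * (q ^ (k ^ 2) * P1) * (P2 * ((q ^ (e + 1) + 1) * (q ^ (e + 1) - 1))) := by ring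
      _ = _ := by rw [hpow]; ring

/-- For the hyperbolic form Q = Σ x_j y_j on F^(2m) over a finite field with q elements, q even (excluding m = 2 over the field of two elements), and an involution x ≠ 1 of the orthogonal group with s = rank(x − 1) even and Q vanishing on the image of x − 1 (equivalently f(v, xv) = 0 for all v, where f(u, w) = Q(u + w) − Q(u) − Q(w) is the bilinear form of Q; type a_s, which lies in Ω): its centraliser in Ω (the commutator subgroup of the orthogonal group) has order q^(2ms − (3s² + s)/2) · |Sp_s(q)| · |Ω⁺_(2m−2s)(q)|, where |Ω⁺_2k(q)| = q^(k(k−1)) (q^k − 1) Π_(i=1)^(k−1) (q^(2i) − 1) for k ≥ 1 and the last factor is 1 when s = m. -/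
theorem result {F : Type*} [Field F] [Fintype F] [CharP F 2] {q : ℕ} (hF : Fintype.card F = q) {m s : ℕ} (h : Fintype.card F ≠ 2 ∨ m ≠ 2) (x : ↥(Cfsg.isometryGroup F (Cfsg.quadFormPlus m F))) (hx : x ^ 2 = 1) (hx1 : x ≠ 1) (hs : (((x : Matrix.GeneralLinearGroup (Fin m ⊕ Fin m) F) : Matrix (Fin m ⊕ Fin m) (Fin m ⊕ Fin m) F) - 1).rank = s) (heven : Even s) (halt : ∀ v : Fin m ⊕ Fin m → F, Cfsg.quadFormPlus m F ((((x : Matrix.GeneralLinearGroup (Fin m ⊕ Fin m) F) : Matrix (Fin m ⊕ Fin m) (Fin m ⊕ Fin m) F) - 1).mulVec v) = 0) : Nat.card {g : ↥(Cfsg.Omega F (Cfsg.quadFormPlus m F)) // (g : ↥(Cfsg.isometryGroup F (Cfsg.quadFormPlus m F))) * x = x * (g : ↥(Cfsg.isometryGroup F (Cfsg.quadFormPlus m F)))} = q ^ (2 * m * s - (3 * s ^ 2 + s) / 2) * ((q : ℕ) ^ ((s / 2) ^ 2) * ∏ i : Fin (s / 2), (q ^ (2 * ((i : ℕ) + 1)) - 1)) * (if s = m then 1 else q ^ ((m - s) * (m - s - 1)) * (q ^ (m - s)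 - 1) * ∏ i : Fin (m - s - 1), (q ^ (2 * ((i : ℕ) + 1)) - 1)) := by
  subst hF
  exact aux h (coe_qPlus m) x hx hx1 hs heven halt

end Cfsg.Agent.S2684
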