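import Cfsg.Statements.S2685
import Cfsg.Agent.S2683
import Cfsg.Agent.S2682

set_option autoImplicit false
open Cfsg

namespace Cfsg.Agent.S2685

open CfsgLib.InvC CfsgLib.Inv2 CfsgLib.Cen2 Cfsg.Agent.H22 Module LinearMap Cfsg.Agent.S2683

theorem aux {F : Type*} [Field F] [Fintype F] [CharP F 2] {m s : ℕ} (h : Fintype.card F ≠ 2 ∨ m ≠ 2) {Q0 : (Fin m ⊕ Fin m → F) → F} (hQ0 : ⇑(qPlus m F) = Q0)
    (x : ↥(Cfsg.isometryGroup F Q0)) (hx : x ^ 2 = 1) (hs : (((x : Matrix.GeneralLinearGroup (Fin m ⊕ Fin m) F) : Matrix (Fin m ⊕ Fin m) (Fin m ⊕ Fin m) F) - 1).rank = s) (heven : Even s)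
    (hna : ∃ v : Fin m ⊕ Fin m → F, Q0 ((((x : Matrix.GeneralLinearGroup (Fin m ⊕ Fin m) F) : Matrix (Fin m ⊕ Fin m) (Fin m ⊕ Fin m) F) - 1).mulVec v) ≠ 0) :
    Nat.card {g : ↥(Cfsg.Omega F Q0) // (g : ↥(Cfsg.isometryGroup F Q0)) * x = x * (g : ↥(Cfsg.isometryGroup F Q0))} =
      Fintype.card F ^ (2 * m * (s - 1) - (3 * s ^ 2 - 5 * s) / 2 - 1) * (Fintype.card F ^ (((s - 2) / 2) ^ 2) * ∏ i : Fin ((s - 2) / 2), (Fintype.card F ^ (2 * ((i : ℕ) + 1)) - 1)) * (Fintype.card F ^ ((m - s) ^ 2) * ∏ i : Fin (m - s), (Fintype.card F ^ (2 * ((i : ℕ) + 1)) - 1)) := by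
  subst hQ0
  have hna' : ∃ v, qPlus m F (nl ((oIso (qPlus m F) x : OGrp (qPlus m F)) : (Fin m ⊕ Fin m → F) ≃ₗ[F] (Fin m ⊕ Fin m → F)) v) ≠ 0 := by
    obtain ⟨v, hv⟩ := hna
    refine ⟨v, ?_⟩
    rw [← toLin_nl, Matrix.toLin'_apply]
    exact hv
  obtain ⟨t, ht1, ht2, ⟨v, ht3⟩, ht4⟩ := ne_case h x hx hs hna'
  have h5 := Cfsg.Agent.S2682.result rfl t ht1 ht2 heven ⟨v, by rw [Cfsg.Agent.S2680.tv_iff]; exact ht3⟩
  have hle := rank_le_m t ht1 ht2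
  have hs1 : 1 ≤ s := by
    rw [Nat.one_le_iff_ne_zero]
    rintro rfl
    rw [sp_rank, Submodule.finrank_eq_zero, LinearMap.range_eq_bot] at ht2
    apply ht3
    rw [ht2]; simp
  rw [ht4] at h5
  have hpos : 0 < Fintype.card F ^ (2 * m - s) := Nat.pow_pos Fintype.card_pos
  apply Nat.eq_of_mul_eq_mul_left hpos
  rw [h5]
  have hexp : 2 * m * s - (3 * s ^ 2 - 3 * s) / 2 - 1 = (2 * m - s) + (2 * m * (s - 1) - (3 * s ^ 2 - 5 * s) / 2 - 1) := by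
    obtain ⟨k, hk⟩ : ∃ k, s = 2 * k + 2 := by
      obtain ⟨k, hk⟩ := heven
      exact ⟨k - 1, by omega⟩
    subst hk
    obtain ⟨d, rfl⟩ := Nat.exists_eq_add_of_le hle
    have e1 : 3 * (2 * k + 2) ^ 2 = 2 * (6 * k ^ 2 + 9 * k + 3) + 3 * (2 * k + 2) := by ring
    have e2 : 3 * (2 * k + 2) ^ 2 = 2 * (6 * k ^ 2 + 7 * k + 1) + 5 * (2 * k + 2) := by ring
    have e3 : (3 * (2 * k + 2) ^ 2 - 3 * (2 * k + 2)) / 2 = 6 * k ^ 2 + 9 * k + 3 := by omega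
    have e4 : (3 * (2 * k + 2) ^ 2 - 5 * (2 * k + 2)) / 2 = 6 * k ^ 2 + 7 * k + 1 := by omega
    rw [e3, e4]
    have e5 : 2 * (2 * k + 2 + d) * (2 * k + 2) = 8 * k ^ 2 + 16 * k + 8 + 4 * (k * d) + 4 * d := by ring
    have e6 : 2 * (2 * k + 2 + d) * (2 * k + 2 - 1) = 8 * k ^ 2 + 12 * k + 4 + 4 * (k * d) + 2 * d := by
      rw [show 2 * k + 2 - 1 = 2 * k + 1 by omega]; ring
    rw [e5, e6]
    omega
  rw [hexp, pow_add]
  ring

/-- For the hyperbolic form Q = Σ x_j y_j on F^(2m) over a finite field with q elements, q even (excluding m = 2 over the field of two elements), and an involution x of the orthogonal group with s = rank(x − 1) even and Q not vanishing on the image of x − 1 (f(v, xv) ≠ 0 for some v, where f(u, w) = Q(u + w) − Q(u) − Q(w) is the bilinear form of Q; type c_s, which lies in Ω): its centraliser in Ω (the commutator subgroup of the orthogonal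 group) has order q^(2m(s−1) − (3s² − 5s)/2 − 1) · |Sp_(s−2)(q)| · |Sp_(2m−2s)(q)|. -/
theorem result {F : Type*} [Field F] [Fintype F] [CharP F 2] {q : ℕ} (hF : Fintype.card F = q) {m s : ℕ} (h : Fintype.card F ≠ 2 ∨ m ≠ 2) (x : ↥(Cfsg.isometryGroup F (Cfsg.quadFormPlus m F))) (hx : x ^ 2 = 1) (hs : (((x : Matrix.GeneralLinearGroup (Fin m ⊕ Fin m) F) : Matrix (Fin m ⊕ Fin m) (Fin m ⊕ Fin m) F) - 1).rank = s) (heven : Even s) (hna : ∃ v : Fin m ⊕ Fin m → F, Cfsg.quadFormPlus m F ((((x : Matrix.GeneralLinearGroup (Fin m ⊕ Fin m) F) : Matrix (Fin m ⊕ Fin m) (Fin m ⊕ Fin m) F) - 1).mulVec v) ≠ 0) : Nat.card {g : ↥(Cfsg.Omega F (Cfsg.quadFormPlus m F)) // (g : ↥(Cfsg.isometryGroup F (Cfsg.quadFormPlus m F))) * x = x * (g : ↥(Cfsg.isometryGroup F (Cfsg.quadFormPlus m F)))} = q ^ (2 * m * (s - 1) - (3 * s ^ 2 - 5 * s) / 2 - 1) * ((q : ℕ) ^ (((s - 2) / 2) ^ 2) * ∏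 i : Fin ((s - 2) / 2), (q ^ (2 * ((i : ℕ) + 1)) - 1)) * ((q : ℕ) ^ ((m - s) ^ 2) * ∏ i : Fin (m - s), (q ^ (2 * ((i : ℕ) + 1)) - 1)) := by
  subst hF
  exact aux h (coe_qPlus m) x hx hs heven hna

end Cfsg.Agent.S2685
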