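import Cfsg.Agent.LibAutPSL27i
-- Template for statement S2689 (row 2689; see /opt/grader/pristine/manifest.json for weights).
-- Copy to Cfsg/Agent/S2689.lean and replace the sorry. The statement below is byte-identical to the frozen
-- statement Cfsg.CfsgFrozen.S2689 (Cfsg/Statements/S2689.lean; the theorem Cfsg.ltd21_aut_psl_generated_by_semilinear_and_inverse_transpose);
-- the grader kernel-checks Cfsg.Agent.S2689.result against that frozen type. Keep the theorem IN THIS FILE
-- (a `result` declared elsewhere and merely imported here is not credited); helpers may live anywhere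
-- under Cfsg/Agent/.
import Cfsg.Statements.S2689
-- import your own Cfsg.Agent.* helpers here

set_option autoImplicit false
open Cfsg

namespace Cfsg.Agent.S2689

/-- The automorphism group of a simple projective special linear group PSL_n(F) over a finite field (n ≥ 2; |F| ≥ 4 when n = 2) is generated by the automorphisms induced by invertible semilinear maps of F^n (the image of the projective semilinear group) together with the inverse-transpose automorphism. -/
theorem result {F : Type*} [Field F] [Fintype F] {p f : ℕ} [Fact p.Prime] (hF : Fintype.card F = p ^ f) (hf : 1 ≤ f) {n : ℕ} (hn : 2 ≤ n) (hs : n = 2 → 4 ≤ Fintype.card F) :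
    Cfsg.gammaPSL n F ⊔ Cfsg.autSubgroupOf (fun β : Matrix.ProjectiveSpecialLinearGroup (Fin n) F ≃* Matrix.ProjectiveSpecialLinearGroup (Fin n) F => Cfsg.IsInverseTransposeAutPSL β) = ⊤ := by
  haveI := CfsgLib.AutPSL27.charP_of_card hF
  rw [eq_top_iff]
  intro β _
  have h1 : ∀ (g : GL (Fin n) F) (σ : F ≃+* F), CfsgLib.AutPSL27.lft (CfsgLib.AutPSL27.cj g * CfsgLib.AutPSL27.fl σ) ∈
      Cfsg.gammaPSL n F := fun g σ =>
    Subgroup.subset_closure ⟨g, σ, (CfsgLib.AutPSL27.isInduced_iff g σ _).2 rfl⟩
  obtain ⟨g, σ, h | ⟨-, h⟩⟩ := CfsgLib.AutPSL27.main_all p hn β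
  · rw [h]
    exact Subgroup.mem_sup_left (h1 g σ)
  · rw [h, map_mul]
    exact Subgroup.mul_mem _ (Subgroup.mem_sup_left (h1 g σ))
      (Subgroup.mem_sup_right (Subgroup.subset_closure ((CfsgLib.AutPSL27.isInvTr_iff _).2 rfl)))

end Cfsg.Agent.S2689
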