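import Cfsg.Agent.LibAutPSL27i
-- Template for statement S2690 (row 2690; see /opt/grader/pristine/manifest.json for weights).
-- Copy to Cfsg/Agent/S2690.lean and replace the sorry. The statement below is byte-identical to the frozen
-- statement Cfsg.CfsgFrozen.S2690 (Cfsg/Statements/S2690.lean; the theorem Cfsg.ltd21_psl_automorphism_factorization);
-- the grader kernel-checks Cfsg.Agent.S2690.result against that frozen type. Keep the theorem IN THIS FILE
-- (a `result` declared elsewhere and merely imported here is not credited); helpers may live anywhere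
-- under Cfsg/Agent/.
import Cfsg.Statements.S2690
-- import your own Cfsg.Agent.* helpers here

set_option autoImplicit false
open Cfsg

namespace Cfsg.Agent.S2690

/-- Every automorphism of a simple projective special linear group PSL_n(F) over a finite field (n ≥ 2; |F| ≥ 4 when n = 2) is a product δ φ γ of an inner-diagonal automorphism δ (induced by an invertible matrix), a standard field automorphism φ (one automorphism of F applied to every entry, possibly the identity) and γ either the identity or the inverse-transpose automorphism. -/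
theorem result {F : Type*} [Field F] [Fintype F] {p f : ℕ} [Fact p.Prime] (hF : Fintype.card F = p ^ f) (hf : 1 ≤ f) {n : ℕ} (hn : 2 ≤ n) (hs : n = 2 → 4 ≤ Fintype.card F) (β : MulAut (Matrix.ProjectiveSpecialLinearGroup (Fin n) F)) :
    ∃ (δ φ γ : MulAut (Matrix.ProjectiveSpecialLinearGroup (Fin n) F)) (σ : F ≃+* F), Cfsg.IsInnerDiagonalAutPSL δ ∧ Cfsg.IsStdFieldAutPSL σ φ ∧ (γ = 1 ∨ Cfsg.IsInverseTransposeAutPSL γ) ∧ β = δ * φ * γ := by
  haveI := CfsgLib.AutPSL27.charP_of_card hF
  obtain ⟨g, σ, h | ⟨-, h⟩⟩ := CfsgLib.AutPSL27.main_all p hn β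
  · refine ⟨CfsgLib.AutPSL27.lft (CfsgLib.AutPSL27.cj g), CfsgLib.AutPSL27.lft (CfsgLib.AutPSL27.fl σ), 1, σ,
      (CfsgLib.AutPSL27.isInnerDiagonal_iff _).2 ⟨g, rfl⟩, (CfsgLib.AutPSL27.isStdField_iff _ _).2 rfl, Or.inl rfl, ?_⟩
    rw [h, map_mul, mul_one]
  · refine ⟨CfsgLib.AutPSL27.lft (CfsgLib.AutPSL27.cj g), CfsgLib.AutPSL27.lft (CfsgLib.AutPSL27.fl σ),
      CfsgLib.AutPSL27.lft CfsgLib.AutPSL27.it, σ,
      (CfsgLib.AutPSL27.isInnerDiagonal_iff _).2 ⟨g, rfl⟩, (CfsgLib.AutPSL27.isStdField_iff _ _).2 rfl,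
      Or.inr ((CfsgLib.AutPSL27.isInvTr_iff _).2 rfl), ?_⟩
    rw [h, map_mul, map_mul]

end Cfsg.Agent.S2690
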