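import Cfsg.Agent.LibAutPSp27d
-- Template for statement S2693 (row 2693; see /opt/grader/pristine/manifest.json for weights).
-- Copy to Cfsg/Agent/S2693.lean and replace the sorry. The statement below is byte-identical to the frozen
-- statement Cfsg.CfsgFrozen.S2693 (Cfsg/Statements/S2693.lean; the theorem Cfsg.ltd21_aut_psp_is_semilinear_symplectic);
-- the grader kernel-checks Cfsg.Agent.S2693.result against that frozen type. Keep the theorem IN THIS FILE
-- (a `result` declared elsewhere and merely imported here is not credited); helpers may live anywhere
-- under Cfsg/Agent/.
import Cfsg.Statements.S2693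
-- import your own Cfsg.Agent.* helpers here

set_option autoImplicit false
open Cfsg

namespace Cfsg.Agent.S2693

/-- The automorphism group of a simple projective symplectic group PSp_{2m}(F) over a finite field of characteristic p, with m ≥ 2 and (2m, p) ≠ (4, 2), is generated by the automorphisms induced by the semilinear maps v ↦ g σ(v) with g conformal symplectic and σ an automorphism of F (the image of the projective semilinear symplectic group). For (2m, p) = (4, 2) the statement fails: a duality of the underlying polar space gives a further automorphism. -/
theorem result {F : Type*} [Field F] [Fintype F] {p : ℕ} [Fact p.Prime] [CharP F p] {m : ℕ} (hm : 2 ≤ m) (h4 : m = 2 → p ≠ 2) :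
    Cfsg.gammaPSp m F = ⊤ := by
  rw [eq_top_iff]
  intro α _
  obtain ⟨g, σ, h1, h2⟩ := CfsgLib.AutPSp27.main hm h4 α
  exact Subgroup.subset_closure ⟨g, σ, h1, h2⟩

end Cfsg.Agent.S2693
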