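import Cfsg.Agent.LibAutO27l
-- Template for statement S2694 (row 2694; see /opt/grader/pristine/manifest.json for weights).
-- Copy to Cfsg/Agent/S2694.lean and replace the sorry. The statement below is byte-identical to the frozen
-- statement Cfsg.CfsgFrozen.S2694 (Cfsg/Statements/S2694.lean; the theorem Cfsg.ltd21_aut_omega_odd_dim_is_semisimilarity_group);
-- the grader kernel-checks Cfsg.Agent.S2694.result against that frozen type. Keep the theorem IN THIS FILE
-- (a `result` declared elsewhere and merely imported here is not credited); helpers may live anywhere
-- under Cfsg/Agent/.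
import Cfsg.Statements.S2694
-- import your own Cfsg.Agent.* helpers here

set_option autoImplicit false
open Cfsg

namespace Cfsg.Agent.S2694

/-- For m ≥ 3 and a finite field F of odd order, the automorphism group of the orthogonal group Ω_{2m+1}(F) (realised as PΩ of the form x₀² + Σ xᵢ yᵢ, whose centre is trivial) is generated by the automorphisms induced by the semisimilarities v ↦ g σ(v) of the form (the image of the projective semisimilarity group); there are no graph or graph-field automorphisms. -/
theorem result {F : Type*} [Field F] [Fintype F] (hodd : Odd (Fintype.card F)) {m : ℕ} (hm : 3 ≤ m) :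
    Cfsg.gammaPOmega F (Cfsg.quadFormOdd m F) = ⊤ := by
  haveI : Finite F := inferInstance
  obtain ⟨e, f', u, h⟩ := CfsgLib.AutO27.good_qOdd (F := F) hm (Cfsg.Agent.H22.two_ne_zero_of_odd hodd)
  have h1 := h.gamma_top
  rw [Cfsg.Agent.H22.coe_qOdd] at h1
  exact h1

end Cfsg.Agent.S2694
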