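import Cfsg.Agent.LibAutO27l
-- Template for statement S2695 (row 2695; see /opt/grader/pristine/manifest.json for weights).
-- Copy to Cfsg/Agent/S2695.lean and replace the sorry. The statement below is byte-identical to the frozen
-- statement Cfsg.CfsgFrozen.S2695 (Cfsg/Statements/S2695.lean; the theorem Cfsg.ltd21_aut_pomega_plus_is_semisimilarity_group);
-- the grader kernel-checks Cfsg.Agent.S2695.result against that frozen type. Keep the theorem IN THIS FILE
-- (a `result` declared elsewhere and merely imported here is not credited); helpers may live anywhere
-- under Cfsg/Agent/.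
import Cfsg.Statements.S2695
-- import your own Cfsg.Agent.* helpers here

set_option autoImplicit false
open Cfsg

namespace Cfsg.Agent.S2695

/-- For m ≥ 5 and a finite field F, the automorphism group of PΩ⁺_{2m}(F) (the form Σ xᵢ yᵢ) is generated by the automorphisms induced by the semisimilarities v ↦ g σ(v) of the form (the image of the projective semisimilarity group). The case 2m = 8 is excluded: there triality gives further automorphisms. -/
theorem result {F : Type*} [Field F] [Fintype F] {m : ℕ} (hm : 5 ≤ m) :
    Cfsg.gammaPOmega F (Cfsg.quadFormPlus m F) = ⊤ := by
  obtain ⟨e, f', u, h⟩ := CfsgLib.AutO27.good_qPlus (F := F) hm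
  have h1 := h.gamma_top
  rw [Cfsg.Agent.H22.coe_qPlus] at h1
  exact h1

end Cfsg.Agent.S2695
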