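import Cfsg.Agent.LibAutO27l
-- Template for statement S2696 (row 2696; see /opt/grader/pristine/manifest.json for weights).
-- Copy to Cfsg/Agent/S2696.lean and replace the sorry. The statement below is byte-identical to the frozen
-- statement Cfsg.CfsgFrozen.S2696 (Cfsg/Statements/S2696.lean; the theorem Cfsg.ltd21_aut_pomega_minus_is_semisimilarity_group);
-- the grader kernel-checks Cfsg.Agent.S2696.result against that frozen type. Keep the theorem IN THIS FILE
-- (a `result` declared elsewhere and merely imported here is not credited); helpers may live anywhere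
-- under Cfsg/Agent/.
import Cfsg.Statements.S2696
-- import your own Cfsg.Agent.* helpers here

set_option autoImplicit false
open Cfsg

namespace Cfsg.Agent.S2696

/-- For m ≥ 3 and a finite field F, the automorphism group of the minus-type group PΩ⁻_{2m+2}(F) (the form Σ xᵢ yᵢ + z₁² + a z₁ z₂ + b z₂² with anisotropic binary part) is generated by the automorphisms induced by the semisimilarities v ↦ g σ(v) of the form, that is, pairs with Q(g σ(v)) = c σ(Q(v)) (the image of the projective semisimilarity group). -/
theorem result {F : Type*} [Field F] [Fintype F] {m : ℕ} (hm : 3 ≤ m) (a b : F) (hab : ∀ z₁ z₂ : F, z₁ ^ 2 + a * z₁ * z₂ + b * z₂ ^ 2 = 0 → z₁ = 0 ∧ z₂ = 0) :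
    Cfsg.gammaPOmega F (Cfsg.quadFormMinus m F a b) = ⊤ := by
  obtain ⟨e, f', u, h⟩ := CfsgLib.AutO27.good_qMinus (F := F) hm a b hab
  have h1 := h.gamma_top
  rw [Cfsg.Agent.H22.coe_qMinus] at h1
  exact h1

end Cfsg.Agent.S2696
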