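import Cfsg.Agent.LibAutPSL27k
-- Template for statement S2697 (row 2697; see /opt/grader/pristine/manifest.json for weights).
-- Copy to Cfsg/Agent/S2697.lean and replace the sorry. The statement below is byte-identical to the frozen
-- statement Cfsg.CfsgFrozen.S2697 (Cfsg/Statements/S2697.lean; the theorem Cfsg.ltd21_psl_field_type_prime_order_coset_conjugacy);
-- the grader kernel-checks Cfsg.Agent.S2697.result against that frozen type. Keep the theorem IN THIS FILE
-- (a `result` declared elsewhere and merely imported here is not credited); helpers may live anywhere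
-- under Cfsg/Agent/.
import Cfsg.Statements.S2697
-- import your own Cfsg.Agent.* helpers here

set_option autoImplicit false
open Cfsg

namespace Cfsg.Agent.S2697

open CfsgLib.AutPSL27 in
theorem aux {F : Type*} [Field F] [Fintype F] {p : ℕ} [Fact p.Prime] [CharP F p] {n : ℕ} (hn : 2 ≤ n)
    (x δ : MulAut (Matrix.ProjectiveSpecialLinearGroup (Fin n) F)) (hx : Cfsg.IsFieldAutClassPSL x ∨ Cfsg.IsGraphFieldAutClassPSL x)
    {r : ℕ} (hr : r.Prime) (hxr : orderOf x = r) (hδ : δ ∈ Cfsg.inndiagPSL n F) (h : orderOf (δ * x) = r) :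
    Cfsg.IsConjUnder (Cfsg.inndiagPSL n F) x (δ * x) := by
  rw [inndiag_eq] at hδ ⊢
  obtain ⟨d, rfl⟩ := hδ
  have hdx : (((lft (G := Matrix.SpecialLinearGroup (Fin n) F)).comp cj) d * x) ^ r = 1 := by rw [← h]; exact pow_orderOf_eq_one _
  -- transfer along an automorphism
  have transfer : ∀ (α x' : MulAut (Matrix.ProjectiveSpecialLinearGroup (Fin n) F)), α * x * α⁻¹ = x' →
      (∀ g : GL (Fin n) F, (lft (cj g) * x') ^ r = 1 → ∃ k : GL (Fin n) F, lft (cj g) * x' = lft (cj k) * x' * (lft (cj k))⁻¹) →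
      Cfsg.IsConjUnder ((lft (G := Matrix.SpecialLinearGroup (Fin n) F)).comp cj).range x
        (((lft (G := Matrix.SpecialLinearGroup (Fin n) F)).comp cj) d * x) := by
    intro α x' hα hL
    obtain ⟨d', hd'⟩ := conj_inndiag p hn α d
    obtain ⟨k, hk⟩ := hL d' (by
      rw [← hd', ← hα]
      have : α * lft (cj d) * α⁻¹ * (α * x * α⁻¹) = α * (lft (cj d) * x) * α⁻¹ := by group
      rw [this, conj_pow]
      have h2 : (lft (cj d) * x) ^ r = 1 := hdx
      rw [h2, mul_one, mul_inv_cancel])
    obtain ⟨k', hk'⟩ := conj_inndiag p hn α⁻¹ k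
    refine ⟨lft (cj k'), ⟨k', rfl⟩, ?_⟩
    show lft (cj d) * x = _
    rw [← hk', ← hd', ← hα] at *
    have h3 : lft (cj d) * x = α⁻¹ * (α * lft (cj d) * α⁻¹ * (α * x * α⁻¹)) * α := by group
    rw [h3, hk]
    group
  rcases hx with ⟨α, σ, hσ, hst⟩ | ⟨hn3, α, φ, γ, σ, hσ, hst, hit, hα⟩
  · rw [isStdField_iff] at hst
    have hord : orderOf σ = r := by
      have h1 : (lft (fl σ) : MulAut (Matrix.ProjectiveSpecialLinearGroup (Fin n) F)) ^ r = 1 := by
        rw [← hst, conj_pow, ← hxr, pow_orderOf_eq_one, mul_one, mul_inv_cancel]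
      haveI : Fact r.Prime := ⟨hr⟩
      exact orderOf_eq_prime (fl_pow_eq_one p hn h1) hσ
    refine transfer α _ hst (fun g hg => ?_)
    obtain ⟨k, hk⟩ := lang_PSL p hn g σ hr.pos hord (by rw [map_mul]; exact hg)
    exact ⟨k, by rw [← map_mul, hk]⟩
  · rw [isStdField_iff] at hst
    rw [isInvTr_iff] at hit
    rw [hst, hit, ← map_mul] at hα
    have hpow : ∀ k : ℕ, (fl σ * it : MulAut (Matrix.SpecialLinearGroup (Fin n) F)) ^ k = fl (σ ^ k) * it ^ k := by
      intro k
      rw [(show Commute (fl σ) it from (it_mul_fl σ).symm).mul_pow, map_pow]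
    have h1 : (lft (fl σ * it) : MulAut (Matrix.ProjectiveSpecialLinearGroup (Fin n) F)) ^ r = 1 := by
      rw [← hα, conj_pow, ← hxr, pow_orderOf_eq_one, mul_one, mul_inv_cancel]
    rw [← map_pow, hpow] at h1
    have hr2 : ((r : ℕ) : ZMod 2) = 0 := by
      by_contra hne
      rw [it_pow_odd hne] at h1
      exact not_it p hn3 1 (σ ^ r) (by rw [map_one, one_mul]; exact h1)
    rw [it_pow_even hr2, mul_one] at h1
    have hσr : σ ^ r = 1 := (unique_one (g := 1) p hn (by rw [map_one, one_mul]; exact h1)).2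
    have hr2' : r = 2 := by
      rw [ZMod.natCast_eq_zero_iff] at hr2
      exact ((Nat.prime_dvd_prime_iff_eq Nat.prime_two hr).1 hr2).symm
    subst hr2'
    refine transfer α _ hα (fun g hg => ?_)
    obtain ⟨k, hk⟩ := lang_herm p hn g σ hσ (fun a => by
      have := congrArg (fun τ : F ≃+* F => τ a) hσr
      rw [sq] at this
      exact this) (by rw [mul_assoc, map_mul]; exact hg)
    exact ⟨k, by rw [← map_mul, ← mul_assoc, hk]⟩

/-- Let T = PSL_n(F) be simple over a finite field (n ≥ 2; |F| ≥ 4 when n = 2) and let x be a field automorphism or a graph-field automorphism of T of prime order r. Then an element y of the coset Inndiag(T)·x (that is, y = δ x with δ in the inner-diagonal group, the image of PGL_n(F)) has order r if and only if y is conjugate to x by an element of Inndiag(T). -/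
theorem result {F : Type*} [Field F] [Fintype F] {p f : ℕ} [Fact p.Prime] (hF : Fintype.card F = p ^ f) (hf : 1 ≤ f) {n : ℕ} (hn : 2 ≤ n) (hs : n = 2 → 4 ≤ Fintype.card F) (x δ : MulAut (Matrix.ProjectiveSpecialLinearGroup (Fin n) F)) (hx : Cfsg.IsFieldAutClassPSL x ∨ Cfsg.IsGraphFieldAutClassPSL x) {r : ℕ} (hr : r.Prime) (hxr : orderOf x = r) (hδ : δ ∈ Cfsg.inndiagPSL n F) :
    orderOf (δ * x) = r ↔ Cfsg.IsConjUnder (Cfsg.inndiagPSL n F) x (δ * x) := by
  haveI := CfsgLib.AutPSL27.charP_of_card hF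
  constructor
  · exact aux (p := p) hn x δ hx hr hxr hδ
  · rintro ⟨h, -, hh⟩
    rw [hh, ← hxr]
    exact (MulAut.conj h).orderOf_eq x

end Cfsg.Agent.S2697
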