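import Cfsg.Agent.LibAutPSL27l
-- Template for statement S2698 (row 2698; see /opt/grader/pristine/manifest.json for weights).
-- Copy to Cfsg/Agent/S2698.lean and replace the sorry. The statement below is byte-identical to the frozen
-- statement Cfsg.CfsgFrozen.S2698 (Cfsg/Statements/S2698.lean; the theorem Cfsg.ltd21_psl_field_automorphism_prime_order_centralizer);
-- the grader kernel-checks Cfsg.Agent.S2698.result against that frozen type. Keep the theorem IN THIS FILE
-- (a `result` declared elsewhere and merely imported here is not credited); helpers may live anywhere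
-- under Cfsg/Agent/.
import Cfsg.Statements.S2698
-- import your own Cfsg.Agent.* helpers here

set_option autoImplicit false
open Cfsg

namespace Cfsg.Agent.S2698

/-- Let T = PSL_n(F) be simple over the field F with p^f elements (n ≥ 2; p^f ≥ 4 when n = 2), G = Inndiag(T) the image of PGL_n(F) in Aut(T), and x a field automorphism of T of prime order r. Then r divides f; the centralizer C_G(x) is isomorphic to PGL_n(F₀) for the subfield size |F₀| = p^(f/r); and the G-class of x is the union of exactly gcd(n, (p^f − 1)/(p^(f/r) − 1)) classes under conjugation by T (the inner automorphism group). -/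
theorem result {F : Type*} [Field F] [Fintype F] {p f : ℕ} [Fact p.Prime] (hF : Fintype.card F = p ^ f) (hf : 1 ≤ f) {n : ℕ} (hn : 2 ≤ n) (hs : n = 2 → 4 ≤ Fintype.card F) (x : MulAut (Matrix.ProjectiveSpecialLinearGroup (Fin n) F)) (hx : Cfsg.IsFieldAutClassPSL x) {r : ℕ} (hr : r.Prime) (hxr : orderOf x = r) (F₀ : Type*) [Field F₀] [Fintype F₀] (hF₀ : Fintype.card F₀ = p ^ (f / r)) :
    r ∣ f ∧ Nonempty (↥(Cfsg.inndiagPSL n F ⊓ Subgroup.centralizer {x}) ≃* Matrix.ProjGenLinGroup (Fin n) F₀) ∧ Cfsg.splitClassCount (Cfsg.inndiagPSL n F) (Cfsg.Inn (Matrix.ProjectiveSpecialLinearGroup (Fin n) F)) x = Nat.gcd n ((p ^ f - 1) / (p ^ (f / r) - 1)) := by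
  haveI := CfsgLib.AutPSL27.charP_of_card hF
  have hF' : Nat.card F = p ^ f := by rw [Nat.card_eq_fintype_card, hF]
  obtain ⟨α, σ, hσ, hst⟩ := hx
  rw [CfsgLib.AutPSL27.isStdField_iff] at hst
  have hord : orderOf σ = r := by
    have h1 : (CfsgLib.AutPSL27.lft (CfsgLib.AutPSL27.fl σ) : MulAut (Matrix.ProjectiveSpecialLinearGroup (Fin n) F)) ^ r = 1 := by
      rw [← hst, conj_pow, ← hxr, pow_orderOf_eq_one, mul_one, mul_inv_cancel]
    haveI : Fact r.Prime := ⟨hr⟩
    exact orderOf_eq_prime (CfsgLib.AutPSL27.fl_pow_eq_one p hn h1) hσ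
  obtain ⟨hrf, hK⟩ := CfsgLib.AutPSL27.field_arith (F := F) hF' hr.pos σ hord
  have hG : ∀ β : MulAut (Matrix.ProjectiveSpecialLinearGroup (Fin n) F), ∀ g ∈ Cfsg.inndiagPSL n F, β * g * β⁻¹ ∈ Cfsg.inndiagPSL n F := by
    intro β g hg
    rw [CfsgLib.AutPSL27.inndiag_eq] at hg ⊢
    obtain ⟨d, rfl⟩ := hg
    obtain ⟨d', hd'⟩ := CfsgLib.AutPSL27.conj_inndiag p hn β d
    exact ⟨d', hd'.symm⟩
  have hT : ∀ β : MulAut (Matrix.ProjectiveSpecialLinearGroup (Fin n) F), ∀ g ∈ Cfsg.Inn (Matrix.ProjectiveSpecialLinearGroup (Fin n) F),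
      β * g * β⁻¹ ∈ Cfsg.Inn (Matrix.ProjectiveSpecialLinearGroup (Fin n) F) := fun β g hg =>
    (Cfsg.innNormal (Matrix.ProjectiveSpecialLinearGroup (Fin n) F)).conj_mem g hg β
  obtain ⟨e0⟩ := CfsgLib.AutPSL27.field_equiv (K := F₀) (L := CfsgLib.H9027.fixF σ) (by
    rw [hK, Nat.card_eq_fintype_card, hF₀])
  refine ⟨hrf, ?_, ?_⟩
  · obtain ⟨e1⟩ := CfsgLib.Split27.centr_conj (Cfsg.inndiagPSL n F) x α (hG α) (fun g hg => by
      have := hG α⁻¹ g hg
      rwa [inv_inv] at this)
    obtain ⟨e2⟩ := CfsgLib.AutPSL27.centr_field p hn σ e0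
    rw [hst] at e1
    exact ⟨e1.trans e2⟩
  · rw [CfsgLib.Split27.splitCount_conj _ _ x α (hG α) (fun g hg => by
      have := hG α⁻¹ g hg
      rwa [inv_inv] at this) (hT α) (fun g hg => by
      have := hT α⁻¹ g hg
      rwa [inv_inv] at this), hst, CfsgLib.AutPSL27.split_field p hn σ, hF', hK]

end Cfsg.Agent.S2698
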