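import Cfsg.Agent.S0304
import Cfsg.Agent.LibGP27h
-- Template for statement S2699 (row 2699; see /opt/grader/pristine/manifest.json for weights).
-- Copy to Cfsg/Agent/S2699.lean and replace the sorry. The statement below is byte-identical to the frozen
-- statement Cfsg.CfsgFrozen.S2699 (Cfsg/Statements/S2699.lean; the theorem Cfsg.ltd21_psl_odd_dim_involutory_graph_automorphism_centralizer);
-- the grader kernel-checks Cfsg.Agent.S2699.result against that frozen type. Keep the theorem IN THIS FILE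
-- (a `result` declared elsewhere and merely imported here is not credited); helpers may live anywhere
-- under Cfsg/Agent/.
import Cfsg.Statements.S2699
-- import your own Cfsg.Agent.* helpers here

set_option autoImplicit false
open Cfsg

namespace Cfsg.Agent.S2699

universe u in
open Cfsg.Agent.H22 CfsgLib.RhoO27 CfsgLib.QForm27 CfsgLib.Eps27 CfsgLib.Even27 CfsgLib.GP27 Matrix in
theorem aux_odd {F : Type u} [Field F] [Fintype F] (h2 : (2 : F) ≠ 0) {n m : ℕ} (hn3 : 3 ≤ n) (hn : n = 2 * m + 1) (q : (Unit ⊕ (Fin m ⊕ Fin m) → F) → F) (hq : q = ⇑(qOdd m F))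
    (a b : GL (Fin n) F) (ha : gam a * gam a = 1) (hb : gam b * gam b = 1) :
    Nonempty (↥(Cfsg.inndiagPSL n F ⊓ Subgroup.centralizer {gam a}) ≃* Cfsg.PGO F q) ∧ Cfsg.IsConjUnder (Cfsg.inndiagPSL n F) (gam a) (gam b) := by
  subst hq
  have key : ∀ a : GL (Fin n) F, gam a * gam a = 1 → (a : Matrix (Fin n) (Fin n) F)ᵀ = a ∧ Nonempty (Tr (QM ((a⁻¹ : GL (Fin n) F) : Matrix (Fin n) (Fin n) F)) (qOdd m F)) := by
    intro a ha
    rcases sq_cases (by omega) ha with h | h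
    · refine ⟨h, ?_⟩
      obtain ⟨d, φ, hd, hφ⟩ := odd_coord (m := m) h2 (QM_nd h2 a⁻¹ (inv_symm h)) (by rw [Module.finrank_pi, Fintype.card_fin]; exact hn)
      exact tr_of_lin φ hd hφ
    · exfalso
      obtain ⟨m', -, -, h3, -⟩ := exists_symp a⁻¹ (alt_of_skew h2 (inv_skew h))
      omega
  obtain ⟨has, ⟨t⟩⟩ := key a ha
  obtain ⟨hbs, ⟨t'⟩⟩ := key b hb
  exact ⟨cen_quad h2 (by omega) has t, conj_quad h2 (by omega) has hbs t t'⟩

universe u in
open Cfsg.Agent.H22 CfsgLib.RhoO27 CfsgLib.QForm27 CfsgLib.Eps27 CfsgLib.Even27 CfsgLib.GP27 CfsgLib.Semi27 Matrix in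
theorem pgo_two {F : Type u} [Field F] [Fintype F] (h2 : (2 : F) = 0) {m : ℕ} (q : (Unit ⊕ (Fin m ⊕ Fin m) → F) → F) (hq : q = ⇑(qOdd m F)) :
    Nonempty (Cfsg.PGO F q ≃* Matrix.symplecticGroup (Fin m) F) := by
  haveI : CharP F 2 := CharTwo.of_one_ne_zero_of_two_eq_zero one_ne_zero h2
  obtain ⟨e1⟩ := Cfsg.Agent.S0304.result (F := F) m
  rw [← coe_qOdd, ← hq] at e1
  subst hq
  obtain ⟨e2⟩ := projQuot_two (Γ := GOs (qOdd m F)) (I := Cfsg.isometryGroup F ⇑(qOdd m F)) (by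
    intro g hg
    exact ⟨1, fun v => by rw [Units.val_one, one_mul]; exact hg v v⟩) (by
    intro g hg
    obtain ⟨s, t, ht⟩ := two_split' h2 ⟨g, hg⟩
    exact ⟨s, t, t.2, ht⟩) (by
    intro c hc
    have h3 := hc (Pi.single (Sum.inl ()) 1) 0
    have h4 : (qOdd m F) ((scal c : GL (Unit ⊕ (Fin m ⊕ Fin m)) F).1 *ᵥ (Pi.single (Sum.inl ()) 1)) = (qOdd m F) (Pi.single (Sum.inl ()) 1) := h3
    have h5 : (scal c : GL (Unit ⊕ (Fin m ⊕ Fin m)) F).1 *ᵥ (Pi.single (Sum.inl ()) 1) = (c : F) • Pi.single (Sum.inl ()) 1 := scal_mulVec c _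
    rw [h5, QuadraticMap.map_smul, coe_qOdd] at h4
    have h6 : Cfsg.quadFormOdd m F (Pi.single (Sum.inl ()) 1) = 1 := by
      simp [Cfsg.quadFormOdd]
    rw [h6, smul_eq_mul, mul_one] at h4
    have h7 : ((c : F) - 1) * ((c : F) - 1) = 0 := by linear_combination h4 - ((c : F) - 1) * h2
    exact Units.ext (sub_eq_zero.1 (mul_self_eq_zero.1 h7)))
  exact ⟨e2.trans e1⟩

universe u in
open Cfsg.Agent.H22 CfsgLib.RhoO27 CfsgLib.QForm27 CfsgLib.Eps27 CfsgLib.Even27 CfsgLib.GP27 Matrix in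
theorem aux_even {F : Type u} [Field F] [Fintype F] (h2 : (2 : F) = 0) {n m : ℕ} (hn3 : 3 ≤ n) (hn : n = 2 * m + 1)
    (a b : GL (Fin n) F) (ha : gam a * gam a = 1) (hb : gam b * gam b = 1) :
    Nonempty (↥(Cfsg.inndiagPSL n F ⊓ Subgroup.centralizer {gam a}) ≃* Matrix.symplecticGroup (Fin m) F) ∧ Cfsg.IsConjUnder (Cfsg.inndiagPSL n F) (gam a) (gam b) := by
  have hneg : ∀ x : F, -x = x := fun x => by linear_combination -x * h2
  have key : ∀ a : GL (Fin n) F, gam a * gam a = 1 → ∃ (K : Matrix (Fin n) (Unit ⊕ (Fin m ⊕ Fin m)) F) (L : Matrix (Unit ⊕ (Fin m ⊕ Fin m)) (Fin n) F), K * L = 1 ∧ L * K = 1 ∧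
      Kᵀ * ((a⁻¹ : GL (Fin n) F) : Matrix (Fin n) (Fin n) F) * K = ((1 : Fˣ) : F) • Matrix.fromBlocks (1 : Matrix Unit Unit F) 0 0 (Matrix.J (Fin m) F) := by
    intro a ha
    have has : (a : Matrix (Fin n) (Fin n) F)ᵀ = a := by
      rcases sq_cases (by omega) ha with h | h
      · exact h
      · rw [h]
        ext i j
        rw [Matrix.neg_apply, hneg]
    rcases trichotomy h2 (inv_symm has) with h | ⟨m', K, L, h3, h4, h5, h6⟩ | ⟨m', h3, -⟩
    · obtain ⟨m', -, -, h3, -⟩ := exists_symp a⁻¹ h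
      omega
    · obtain rfl : m' = m := by omega
      exact ⟨K, L, h4, h5, h6⟩
    · omega
  obtain ⟨K, L, hKL, hLK, hK⟩ := key a ha
  obtain ⟨K', L', hKL', hLK', hK'⟩ := key b hb
  refine ⟨?_, conj_of_common (by omega) hKL hLK hKL' hLK' hK hK'⟩
  obtain ⟨e1⟩ := cen_equiv (by omega) a
  obtain ⟨e2⟩ := sim_equiv K L hKL hLK 1 hK
  obtain ⟨e3⟩ := projQuot_Sim h2 (M := Matrix.fromBlocks (1 : Matrix Unit Unit F) 0 0 (Matrix.J (Fin m) F)) (by
    intro h
    have := congrFun (congrFun h (Sum.inl ())) (Sum.inl ())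
    simp at this)
  obtain ⟨e4⟩ := iso_one (m := m) h2
  exact ⟨e1.trans (e2.symm.trans (e3.trans e4))⟩


/-- Let T = PSL_n(F) over the field with p^f elements with n ≥ 3 odd, n = 2m + 1, and G = Inndiag(T) the image of PGL_n(F). Every involutory graph automorphism γ of T (an inner-diagonal automorphism followed by inverse-transpose, of order 2) has centralizer C_G(γ) isomorphic to the projective conformal orthogonal group of the form x₀² + Σ xᵢ yᵢ in dimension n (for q even this group is isomorphic to Sp_{n−1}(q)), and any two involutory graph automorphisms are G-conjugate. -/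
theorem result {F : Type*} [Field F] [Fintype F] {p f : ℕ} [Fact p.Prime] (hF : Fintype.card F = p ^ f) (hf : 1 ≤ f) {n : ℕ} (hn : 3 ≤ n) {m : ℕ} (hnm : n = 2 * m + 1) (γ γ' : MulAut (Matrix.ProjectiveSpecialLinearGroup (Fin n) F)) (hγ : Cfsg.IsGraphAutClassPSL γ) (hγ2 : orderOf γ = 2) (hγ' : Cfsg.IsGraphAutClassPSL γ') (hγ'2 : orderOf γ' = 2) :
    Nonempty (↥(Cfsg.inndiagPSL n F ⊓ Subgroup.centralizer {γ}) ≃* Cfsg.PGO F (Cfsg.quadFormOdd m F)) ∧ Cfsg.IsConjUnder (Cfsg.inndiagPSL n F) γ γ' := by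
  obtain ⟨h3, a, rfl⟩ := (CfsgLib.GP27.isGraph_iff γ).1 hγ
  obtain ⟨-, b, rfl⟩ := (CfsgLib.GP27.isGraph_iff γ').1 hγ'
  have ha : CfsgLib.GP27.gam a * CfsgLib.GP27.gam a = 1 := by rw [← pow_two, ← hγ2, pow_orderOf_eq_one]
  have hb : CfsgLib.GP27.gam b * CfsgLib.GP27.gam b = 1 := by rw [← pow_two, ← hγ'2, pow_orderOf_eq_one]
  by_cases h2 : (2 : F) = 0
  · obtain ⟨⟨e1⟩, h4⟩ := aux_even h2 hn hnm a b ha hb
    obtain ⟨e2⟩ := pgo_two h2 _ (Cfsg.Agent.H22.coe_qOdd (F := F) m).symm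
    exact ⟨⟨e1.trans e2.symm⟩, h4⟩
  · exact aux_odd h2 hn hnm _ (Cfsg.Agent.H22.coe_qOdd (F := F) m).symm a b ha hb

end Cfsg.Agent.S2699
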