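import Cfsg.Agent.LibEps27j
import Cfsg.Agent.LibGP27b
-- Template for statement S2700 (row 2700; see /opt/grader/pristine/manifest.json for weights).
-- Copy to Cfsg/Agent/S2700.lean and replace the sorry. The statement below is byte-identical to the frozen
-- statement Cfsg.CfsgFrozen.S2700 (Cfsg/Statements/S2700.lean; the theorem Cfsg.ltd21_psl_even_dim_odd_q_involutory_graph_automorphism_classes);
-- the grader kernel-checks Cfsg.Agent.S2700.result against that frozen type. Keep the theorem IN THIS FILE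
-- (a `result` declared elsewhere and merely imported here is not credited); helpers may live anywhere
-- under Cfsg/Agent/.
import Cfsg.Statements.S2700
-- import your own Cfsg.Agent.* helpers here

set_option autoImplicit false
open Cfsg

namespace Cfsg.Agent.S2700

universe u in
open Cfsg.Agent.H22 CfsgLib.RhoO27 CfsgLib.QForm27 CfsgLib.Eps27 CfsgLib.Even27 CfsgLib.GP27 Matrix in
theorem aux {F : Type u} [Field F] [Fintype F] (hodd : Odd (Fintype.card F)) {n k : ℕ} (hk : 1 ≤ k) (hn : n = 2 * (k + 1)) :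
    ∃ (α₁ α₂ α₃ : GL (Fin n) F) (a b : F), (∀ z₁ z₂ : F, z₁ ^ 2 + a * z₁ * z₂ + b * z₂ ^ 2 = 0 → z₁ = 0 ∧ z₂ = 0) ∧ gam α₁ * gam α₁ = 1 ∧ gam α₂ * gam α₂ = 1 ∧ gam α₃ * gam α₃ = 1 ∧
      ¬ Cfsg.IsConjUnder (Cfsg.inndiagPSL n F) (gam α₁) (gam α₂) ∧ ¬ Cfsg.IsConjUnder (Cfsg.inndiagPSL n F) (gam α₁) (gam α₃) ∧
      ¬ Cfsg.IsConjUnder (Cfsg.inndiagPSL n F) (gam α₂) (gam α₃) ∧
      (∀ α : GL (Fin n) F, gam α * gam α = 1 → Cfsg.IsConjUnder (Cfsg.inndiagPSL n F) (gam α₁) (gam α) ∨ Cfsg.IsConjUnder (Cfsg.inndiagPSL n F) (gam α₂) (gam α) ∨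
        Cfsg.IsConjUnder (Cfsg.inndiagPSL n F) (gam α₃) (gam α)) ∧
      Nonempty (↥(Cfsg.inndiagPSL n F ⊓ Subgroup.centralizer {gam α₁}) ≃* Cfsg.PGSp (k + 1) F) ∧
      Nonempty (↥(Cfsg.inndiagPSL n F ⊓ Subgroup.centralizer {gam α₂}) ≃* Cfsg.PGO F ⇑(qPlus (k + 1) F)) ∧
      Nonempty (↥(Cfsg.inndiagPSL n F ⊓ Subgroup.centralizer {gam α₃}) ≃* Cfsg.PGO F ⇑(qMinus k F a b)) := by
  have h2 : (2 : F) ≠ 0 := two_ne_zero_of_odd hodd
  obtain ⟨a, b, hab⟩ := exists_aniso F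
  obtain ⟨α₁, h1s, h1⟩ := exists_alt (F := F) hn
  obtain ⟨α₂, h2s, ⟨t2⟩⟩ := exists_quad (n := n) h2 (nondeg_qPlus (F := F) (k + 1)) (by simp; omega)
  obtain ⟨α₃, h3s, ⟨t3⟩⟩ := exists_quad (n := n) h2 (nondeg_qMinus k a b hab) (by simp; omega)
  have hne : ∀ α : GL (Fin n) F, (α : Matrix (Fin n) (Fin n) F)ᵀ = α → ¬ Cfsg.IsConjUnder (Cfsg.inndiagPSL n F) (gam α₁) (gam α) := by
    intro α hα hcon
    obtain ⟨P, c, h⟩ := sim_of_conj (by omega) hcon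
    have h3 : ((P : Matrix (Fin n) (Fin n) F)ᵀ * ((α⁻¹ : GL (Fin n) F) : Matrix (Fin n) (Fin n) F) * (P : Matrix (Fin n) (Fin n) F))ᵀ =
        (P : Matrix (Fin n) (Fin n) F)ᵀ * ((α⁻¹ : GL (Fin n) F) : Matrix (Fin n) (Fin n) F) * (P : Matrix (Fin n) (Fin n) F) := by
      rw [transpose_mul, transpose_mul, transpose_transpose, inv_symm hα, Matrix.mul_assoc]
    rw [h, transpose_smul, inv_skew h1s] at h3
    haveI : Nonempty (Fin n) := ⟨⟨0, by omega⟩⟩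
    obtain ⟨i, j, hij⟩ := CfsgLib.Semi27.exists_entry_ne α₁⁻¹
    have h4 := congrFun (congrFun h3 i) j
    rw [Matrix.smul_apply, Matrix.smul_apply, Matrix.neg_apply, smul_eq_mul, smul_eq_mul] at h4
    have h5 : (2 : F) * (c * ((α₁⁻¹ : GL (Fin n) F) : Matrix (Fin n) (Fin n) F) i j) = 0 := by linear_combination -h4
    exact (mul_ne_zero h2 (mul_ne_zero c.ne_zero hij)) h5
  refine ⟨α₁, α₂, α₃, a, b, hab, sq_of_skew (by omega) h1s, sq_of_symm h2s, sq_of_symm h3s, hne _ h2s, hne _ h3s, ?_, ?_, cen_alt (by omega) h1 hn,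
    cen_quad h2 (by omega) h2s t2, cen_quad h2 (by omega) h3s t3⟩
  · intro hcon
    obtain ⟨P, c, h⟩ := sim_of_conj (by omega) hcon
    obtain ⟨t⟩ := tr_of_sim h
    obtain ⟨t'⟩ := trT t3.symm t
    obtain ⟨t''⟩ := trT t' t2
    exact no_tr hab t''
  · intro α hα
    rcases cls_even h2 hn hα with h | ⟨hs, ⟨⟨t⟩⟩ | h⟩
    · exact Or.inl (conj_alt (by omega) h1 h)
    · exact Or.inr (Or.inl (conj_quad h2 (by omega) h2s hs t2 t))
    · obtain ⟨t⟩ := h a b hab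
      exact Or.inr (Or.inr (conj_quad h2 (by omega) h3s hs t3 t))


/-- Let T = PSL_n(F) over a finite field of odd order with n = 2m ≥ 4 even, and G = Inndiag(T) the image of PGL_n(F). The involutory graph automorphisms of T fall into exactly three G-classes, with representatives γ₁, γ₂, γ₃ whose centralizers in G are isomorphic respectively to the projective conformal symplectic group PGSp_n(F), the projective conformal orthogonal group of the plus-type form Σ xᵢ yᵢ, and that of a minus-type form Σ xᵢ yᵢ + z₁² + a z₁ z₂ + b z₂² (anisotropic binary part) in dimension n. -/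
theorem result {F : Type*} [Field F] [Fintype F] (hodd : Odd (Fintype.card F)) {n m : ℕ} (hm : 2 ≤ m) (hnm : n = 2 * m) :
    ∃ (γ₁ γ₂ γ₃ : MulAut (Matrix.ProjectiveSpecialLinearGroup (Fin n) F)) (a b : F), (∀ z₁ z₂ : F, z₁ ^ 2 + a * z₁ * z₂ + b * z₂ ^ 2 = 0 → z₁ = 0 ∧ z₂ = 0) ∧ Cfsg.IsGraphAutClassPSL γ₁ ∧ orderOf γ₁ = 2 ∧ Cfsg.IsGraphAutClassPSL γ₂ ∧ orderOf γ₂ = 2 ∧ Cfsg.IsGraphAutClassPSL γ₃ ∧ orderOf γ₃ = 2 ∧ ¬ Cfsg.IsConjUnder (Cfsg.inndiagPSL n F) γ₁ γ₂ ∧ ¬ Cfsg.IsConjUnder (Cfsg.inndiagPSL n F) γ₁ γ₃ ∧ ¬ Cfsg.IsConjUnder (Cfsg.inndiagPSL n F) γ₂ γ₃ ∧ (∀ γ : MulAut (Matrix.ProjectiveSpecialLinearGroup (Fin n) F), Cfsg.IsGraphAutClassPSL γ → orderOf γ = 2 → Cfsg.IsConjUnder (Cfsg.inndiagPSL n F) γ₁ γ ∨ Cfsg.IsConjUnder (Cfsg.inndiagPSL n F) γ₂ γ ∨ Cfsg.IsConjUnder (Cfsg.inndiagPSL n F) γ₃ γ) ∧ Nonempty (↥(Cfsg.inndiagPSL n F ⊓ Subgroup.centralizer {γ₁})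 ≃* Cfsg.PGSp m F) ∧ Nonempty (↥(Cfsg.inndiagPSL n F ⊓ Subgroup.centralizer {γ₂}) ≃* Cfsg.PGO F (Cfsg.quadFormPlus m F)) ∧ Nonempty (↥(Cfsg.inndiagPSL n F ⊓ Subgroup.centralizer {γ₃}) ≃* Cfsg.PGO F (Cfsg.quadFormMinus (m - 1) F a b)) := by
  obtain ⟨k, rfl⟩ : ∃ k, m = k + 1 := ⟨m - 1, by omega⟩
  obtain ⟨α₁, α₂, α₃, a, b, hab, s1, s2, s3, h12, h13, h23, hall, c1, c2, c3⟩ := aux hodd (n := n) (k := k) (by omega) (by omega)
  have h3 : 3 ≤ n := by omega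
  rw [Cfsg.Agent.H22.coe_qPlus] at c2
  rw [Cfsg.Agent.H22.coe_qMinus] at c3
  refine ⟨CfsgLib.GP27.gam α₁, CfsgLib.GP27.gam α₂, CfsgLib.GP27.gam α₃, a, b, hab, (CfsgLib.GP27.isGraph_iff _).2 ⟨h3, _, rfl⟩, CfsgLib.GP27.gam_order h3 s1,
    (CfsgLib.GP27.isGraph_iff _).2 ⟨h3, _, rfl⟩, CfsgLib.GP27.gam_order h3 s2, (CfsgLib.GP27.isGraph_iff _).2 ⟨h3, _, rfl⟩, CfsgLib.GP27.gam_order h3 s3, h12, h13, h23, ?_, c1, c2, c3⟩
  intro γ hγ hγ2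
  obtain ⟨-, α, rfl⟩ := (CfsgLib.GP27.isGraph_iff γ).1 hγ
  exact hall α (by rw [← pow_two, ← hγ2, pow_orderOf_eq_one])

end Cfsg.Agent.S2700
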