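import Cfsg.Agent.LibGP27h
-- Template for statement S2701 (row 2701; see /opt/grader/pristine/manifest.json for weights).
-- Copy to Cfsg/Agent/S2701.lean and replace the sorry. The statement below is byte-identical to the frozen
-- statement Cfsg.CfsgFrozen.S2701 (Cfsg/Statements/S2701.lean; the theorem Cfsg.ltd21_psl_even_dim_even_q_involutory_graph_automorphism_classes);
-- the grader kernel-checks Cfsg.Agent.S2701.result against that frozen type. Keep the theorem IN THIS FILE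
-- (a `result` declared elsewhere and merely imported here is not credited); helpers may live anywhere
-- under Cfsg/Agent/.
import Cfsg.Statements.S2701
-- import your own Cfsg.Agent.* helpers here

set_option autoImplicit false
open Cfsg

namespace Cfsg.Agent.S2701

universe u in
open Cfsg.Agent.H22 CfsgLib.GP27 Matrix in
theorem aux {F : Type u} [Field F] [Fintype F] (h2 : (2 : F) = 0) {n m : ℕ} (hm : 2 ≤ m) (hn : n = 2 * m) :
    ∃ (a₁ a₃ : GL (Fin n) F) (t : ↥(Matrix.symplecticGroup (Fin m) F)), Cfsg.IsTransvection (t : Matrix (Fin m ⊕ Fin m) (Fin m ⊕ Fin m) F) ∧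
      gam a₁ * gam a₁ = 1 ∧ gam a₃ * gam a₃ = 1 ∧ ¬ Cfsg.IsConjUnder (Cfsg.inndiagPSL n F) (gam a₁) (gam a₃) ∧
      (∀ a : GL (Fin n) F, gam a * gam a = 1 → Cfsg.IsConjUnder (Cfsg.inndiagPSL n F) (gam a₁) (gam a) ∨ Cfsg.IsConjUnder (Cfsg.inndiagPSL n F) (gam a₃) (gam a)) ∧
      Nonempty (↥(Cfsg.inndiagPSL n F ⊓ Subgroup.centralizer {gam a₁}) ≃* ↥(Matrix.symplecticGroup (Fin m) F)) ∧
      Nonempty (↥(Cfsg.inndiagPSL n F ⊓ Subgroup.centralizer {gam a₃}) ≃* ↥(Subgroup.centralizer ({t} : Set ↥(Matrix.symplecticGroup (Fin m) F)))) := by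
  have hneg : ∀ x : F, -x = x := fun x => by linear_combination -x * h2
  have hnegM : ∀ {ι : Type} (M : Matrix ι ι F), -M = M := by
    intro ι M
    ext i j
    rw [Matrix.neg_apply, hneg]
  obtain ⟨u, hu⟩ : ∃ u : Fin m ⊕ Fin m → F, u ≠ 0 := ⟨Pi.single (Sum.inl ⟨0, by omega⟩) 1, by
    intro h
    have := congrFun h (Sum.inl ⟨0, by omega⟩)
    simp at this⟩
  obtain ⟨t, ht1, ht2⟩ := exists_tv u hu
  obtain ⟨a₁, ha1, ha1'⟩ := exists_alt (F := F) hn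
  obtain ⟨m', K, L, hm', hKL, hLK, hK⟩ := exists_symp a₁⁻¹ ha1'
  obtain rfl : m' = m := by omega
  have hK' : Kᵀ * ((a₁⁻¹ : GL (Fin n) F) : Matrix (Fin n) (Fin n) F) * K = ((1 : Fˣ) : F) • Matrix.J (Fin m') F := by
    rw [hK, Units.val_neg, Units.val_one, one_smul, neg_one_smul, hnegM]
  -- the second class
  have hN0s : (N0 m' F u)ᵀ = N0 m' F u := by
    unfold N0
    rw [transpose_add, Matrix.J_transpose, hnegM, Matrix.transpose_vecMulVec]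
  have hLt : Lᵀ * Kᵀ = 1 := by rw [← transpose_mul, hKL, transpose_one]
  have hLt' : Kᵀ * Lᵀ = 1 := by rw [← transpose_mul, hLK, transpose_one]
  have hNu : IsUnit (N0 m' F u) := by
    rw [Matrix.isUnit_iff_isUnit_det, isUnit_iff_ne_zero]
    intro hdet
    obtain ⟨v, hv0, hv⟩ := Matrix.exists_mulVec_eq_zero_iff.2 hdet
    unfold N0 at hv
    rw [add_mulVec, Matrix.vecMulVec_mulVec] at hv
    have h3 : MulOpposite.op ((Matrix.J (Fin m') F *ᵥ u) ⬝ᵥ v) • (Matrix.J (Fin m') F *ᵥ u) = Matrix.J (Fin m') F *ᵥ (((Matrix.J (Fin m') F *ᵥ u) ⬝ᵥ v) • u) := by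
      rw [mulVec_smul]
      ext i; simp [mul_comm]
    rw [h3, ← mulVec_add] at hv
    have h4 : v + ((Matrix.J (Fin m') F *ᵥ u) ⬝ᵥ v) • u = 0 := by
      have h5 : (Matrix.J (Fin m') F * Matrix.J (Fin m') F) *ᵥ (v + ((Matrix.J (Fin m') F *ᵥ u) ⬝ᵥ v) • u) = 0 := by rw [← mulVec_mulVec, hv, mulVec_zero]
      rw [Matrix.J_squared, neg_mulVec, one_mulVec, neg_eq_zero] at h5
      exact h5
    have h6 : (Matrix.J (Fin m') F *ᵥ u) ⬝ᵥ v = 0 := by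
      have h7 : (Matrix.J (Fin m') F *ᵥ u) ⬝ᵥ (v + ((Matrix.J (Fin m') F *ᵥ u) ⬝ᵥ v) • u) = 0 := by rw [h4, dotProduct_zero]
      rw [dotProduct_add, dotProduct_smul, dotProduct_comm (Matrix.J (Fin m') F *ᵥ u) u, J_alt, smul_zero, add_zero] at h7
      exact h7
    rw [h6, zero_smul, add_zero] at h4
    exact hv0 h4
  obtain ⟨b, hb⟩ : ∃ b : GL (Fin n) F, (b : Matrix (Fin n) (Fin n) F) = Lᵀ * N0 m' F u * L := by
    obtain ⟨N, hN⟩ := hNu
    refine ⟨⟨Lᵀ * N0 m' F u * L, K * ((N⁻¹ : GL (Fin m' ⊕ Fin m') F) : Matrix (Fin m' ⊕ Fin m') (Fin m' ⊕ Fin m') F) * Kᵀ, ?_, ?_⟩, rfl⟩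
    · rw [← hN]
      calc Lᵀ * (N : Matrix (Fin m' ⊕ Fin m') (Fin m' ⊕ Fin m') F) * L * (K * ((N⁻¹ : GL (Fin m' ⊕ Fin m') F) : Matrix (Fin m' ⊕ Fin m') (Fin m' ⊕ Fin m') F) * Kᵀ) =
          Lᵀ * (N : Matrix (Fin m' ⊕ Fin m') (Fin m' ⊕ Fin m') F) * (L * K) * ((N⁻¹ : GL (Fin m' ⊕ Fin m') F) : Matrix (Fin m' ⊕ Fin m') (Fin m' ⊕ Fin m') F) * Kᵀ := by simp only [Matrix.mul_assoc]
        _ = Lᵀ * ((N : Matrix (Fin m' ⊕ Fin m') (Fin m' ⊕ Fin m') F) * ((N⁻¹ : GL (Fin m' ⊕ Fin m') F) : Matrix (Fin m' ⊕ Fin m') (Fin m' ⊕ Fin m') F)) * Kᵀ := by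
          rw [hLK, Matrix.mul_one]; simp only [Matrix.mul_assoc]
        _ = 1 := by rw [Units.mul_inv, Matrix.mul_one, hLt]
    · rw [← hN]
      calc K * ((N⁻¹ : GL (Fin m' ⊕ Fin m') F) : Matrix (Fin m' ⊕ Fin m') (Fin m' ⊕ Fin m') F) * Kᵀ * (Lᵀ * (N : Matrix (Fin m' ⊕ Fin m') (Fin m' ⊕ Fin m') F) * L) =
          K * ((N⁻¹ : GL (Fin m' ⊕ Fin m') F) : Matrix (Fin m' ⊕ Fin m') (Fin m' ⊕ Fin m') F) * (Kᵀ * Lᵀ) * (N : Matrix (Fin m' ⊕ Fin m') (Fin m' ⊕ Fin m') F) * L := by simp only [Matrix.mul_assoc]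
        _ = K * (((N⁻¹ : GL (Fin m' ⊕ Fin m') F) : Matrix (Fin m' ⊕ Fin m') (Fin m' ⊕ Fin m') F) * (N : Matrix (Fin m' ⊕ Fin m') (Fin m' ⊕ Fin m') F)) * L := by
          rw [hLt', Matrix.mul_one]; simp only [Matrix.mul_assoc]
        _ = 1 := by rw [Units.inv_mul, Matrix.mul_one, hKL]
  have hbs : (b : Matrix (Fin n) (Fin n) F)ᵀ = b := by
    rw [hb, transpose_mul, transpose_mul, transpose_transpose, hN0s, Matrix.mul_assoc]
  have hbK : Kᵀ * (b : Matrix (Fin n) (Fin n) F) * K = ((1 : Fˣ) : F) • N0 m' F u := by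
    rw [hb, Units.val_one, one_smul]
    calc Kᵀ * (Lᵀ * N0 m' F u * L) * K = (Kᵀ * Lᵀ) * N0 m' F u * (L * K) := by simp only [Matrix.mul_assoc]
      _ = _ := by rw [hLt', hLK, Matrix.one_mul, Matrix.mul_one]
  refine ⟨a₁, b⁻¹, t, ht1, sq_of_skew (by omega) ha1, sq_of_symm (inv_symm hbs), ?_, ?_, ?_, ?_⟩
  · intro hcon
    obtain ⟨P, c, h⟩ := sim_of_conj (by omega) hcon
    rw [inv_inv] at h
    -- b would be alternating
    have h3 : ∀ x, x ⬝ᵥ ((b : Matrix (Fin n) (Fin n) F) *ᵥ x) = 0 := by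
      intro x
      obtain ⟨y, rfl⟩ : ∃ y, x = (P : Matrix (Fin n) (Fin n) F) *ᵥ y := ⟨((P⁻¹ : GL (Fin n) F) : Matrix (Fin n) (Fin n) F) *ᵥ x, by
        rw [mulVec_mulVec, Units.mul_inv, one_mulVec]⟩
      rw [bil_mul, h, smul_mulVec, dotProduct_smul, ha1', smul_zero]
    have h4 : ∀ x : Fin m' ⊕ Fin m' → F, x ⬝ᵥ (N0 m' F u *ᵥ x) = 0 := by
      intro x
      have h5 := h3 (K *ᵥ x)
      rw [bil_mul, hbK, Units.val_one, one_smul] at h5
      exact h5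
    have h5 : ∀ x : Fin m' ⊕ Fin m' → F, (Matrix.J (Fin m') F *ᵥ u) ⬝ᵥ x = 0 := by
      intro x
      have h6 := h4 x
      unfold N0 at h6
      rw [add_mulVec, dotProduct_add, J_alt, zero_add, Matrix.vecMulVec_mulVec] at h6
      have h7 : MulOpposite.op ((Matrix.J (Fin m') F *ᵥ u) ⬝ᵥ x) • (Matrix.J (Fin m') F *ᵥ u) = ((Matrix.J (Fin m') F *ᵥ u) ⬝ᵥ x) • (Matrix.J (Fin m') F *ᵥ u) := by
        ext i; simp [mul_comm]
      rw [h7, dotProduct_smul, dotProduct_comm x, smul_eq_mul] at h6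
      exact mul_self_eq_zero.1 h6
    have h6 : Matrix.J (Fin m') F *ᵥ u = 0 := by
      ext i
      have := h5 (Pi.single i 1)
      simpa using this
    apply hu
    have h7 : (Matrix.J (Fin m') F * Matrix.J (Fin m') F) *ᵥ u = 0 := by rw [← mulVec_mulVec, h6, mulVec_zero]
    rw [Matrix.J_squared, neg_mulVec, one_mulVec, neg_eq_zero] at h7
    exact h7
  · intro a ha
    have has : (a : Matrix (Fin n) (Fin n) F)ᵀ = a := by
      rcases sq_cases (by omega) ha with h | h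
      · exact h
      · rw [h, hnegM]
    rcases trichotomy h2 (inv_symm has) with h | ⟨m'', K, L, h3, h4, h5, h6⟩ | ⟨m'', h3, h4⟩
    · exact Or.inl (conj_alt (by omega) ha1' h)
    · omega
    · right
      obtain rfl : m'' = m' := by omega
      obtain ⟨K', L', hKL', hLK', hK'⟩ := h4 u hu
      exact conj_of_common (by omega) hKL hLK hKL' hLK' (by rw [inv_inv]; exact hbK) hK'
  · obtain ⟨e1⟩ := cen_equiv (by omega) a₁
    obtain ⟨e2⟩ := sim_equiv K L hKL hLK 1 hK'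
    obtain ⟨e3⟩ := projQuot_Sim h2 (M := Matrix.J (Fin m') F) (by
      intro h
      apply hu
      have h7 : (Matrix.J (Fin m') F * Matrix.J (Fin m') F) *ᵥ u = 0 := by rw [h, Matrix.zero_mul, zero_mulVec]
      rw [Matrix.J_squared, neg_mulVec, one_mulVec, neg_eq_zero] at h7
      exact h7)
    obtain ⟨e4⟩ := iso_J (m := m') (F := F)
    exact ⟨e1.trans (e2.symm.trans (e3.trans e4))⟩
  · obtain ⟨e1⟩ := cen_equiv (by omega) b⁻¹
    rw [inv_inv] at e1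
    obtain ⟨e2⟩ := sim_equiv K L hKL hLK 1 hbK
    obtain ⟨e3⟩ := projQuot_Sim h2 (M := N0 m' F u) (by
      intro h
      rw [h] at hNu
      haveI : Nonempty (Fin m' ⊕ Fin m') := ⟨Sum.inl ⟨0, by omega⟩⟩
      exact not_isUnit_zero hNu)
    obtain ⟨e4⟩ := iso_N0 h2 ht2
    exact ⟨e1.trans (e2.symm.trans (e3.trans e4))⟩


/-- Let T = PSL_n(F) over a finite field of characteristic 2 with n = 2m ≥ 4 even, and G = Inndiag(T) the image of PGL_n(F). The involutory graph automorphisms of T fall into exactly two G-classes, with representatives γ₁ and γ₃ whose centralizers in G are isomorphic respectively to the symplectic group Sp_n(F) and to the centralizer in Sp_n(F) of a symplectic transvection. -/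
theorem result {F : Type*} [Field F] [Fintype F] [CharP F 2] {n m : ℕ} (hm : 2 ≤ m) (hnm : n = 2 * m) :
    ∃ (γ₁ γ₃ : MulAut (Matrix.ProjectiveSpecialLinearGroup (Fin n) F)) (t : ↥(Matrix.symplecticGroup (Fin m) F)), Cfsg.IsTransvection (t : Matrix (Fin m ⊕ Fin m) (Fin m ⊕ Fin m) F) ∧ Cfsg.IsGraphAutClassPSL γ₁ ∧ orderOf γ₁ = 2 ∧ Cfsg.IsGraphAutClassPSL γ₃ ∧ orderOf γ₃ = 2 ∧ ¬ Cfsg.IsConjUnder (Cfsg.inndiagPSL n F) γ₁ γ₃ ∧ (∀ γ : MulAut (Matrix.ProjectiveSpecialLinearGroup (Fin n) F), Cfsg.IsGraphAutClassPSL γ → orderOf γ = 2 → Cfsg.IsConjUnder (Cfsg.inndiagPSL n F) γ₁ γ ∨ Cfsg.IsConjUnder (Cfsg.inndiagPSL n F) γ₃ γ) ∧ Nonempty (↥(Cfsg.inndiagPSL n F ⊓ Subgroup.centralizer {γ₁}) ≃* ↥(Matrix.symplecticGroup (Fin m) F)) ∧ Nonempty (↥(Cfsg.inndiagPSL n F ⊓ Subgroup.centralizer {γ₃}) ≃* ↥(Subgroup.centralizer ({t} : Set ↥(Matrix.symplecticGroup (Fin m) F)))) := by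
  have h2 : (2 : F) = 0 := CharTwo.two_eq_zero
  obtain ⟨a₁, a₃, t, ht, s1, s3, h13, hall, c1, c3⟩ := aux (F := F) h2 hm hnm
  have h3 : 3 ≤ n := by omega
  refine ⟨CfsgLib.GP27.gam a₁, CfsgLib.GP27.gam a₃, t, ht, (CfsgLib.GP27.isGraph_iff _).2 ⟨h3, _, rfl⟩, CfsgLib.GP27.gam_order h3 s1,
    (CfsgLib.GP27.isGraph_iff _).2 ⟨h3, _, rfl⟩, CfsgLib.GP27.gam_order h3 s3, h13, ?_, c1, c3⟩
  intro γ hγ hγ2
  obtain ⟨-, α, rfl⟩ := (CfsgLib.GP27.isGraph_iff γ).1 hγ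
  exact hall α (by rw [← pow_two, ← hγ2, pow_orderOf_eq_one])

end Cfsg.Agent.S2701
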