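import Cfsg.Agent.LibGP27e
-- Template for statement S2702 (row 2702; see /opt/grader/pristine/manifest.json for weights).
-- Copy to Cfsg/Agent/S2702.lean and replace the sorry. The statement below is byte-identical to the frozen
-- statement Cfsg.CfsgFrozen.S2702 (Cfsg/Statements/S2702.lean; the theorem Cfsg.ltd21_psl_involutory_graph_automorphism_class_splitting);
-- the grader kernel-checks Cfsg.Agent.S2702.result against that frozen type. Keep the theorem IN THIS FILE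
-- (a `result` declared elsewhere and merely imported here is not credited); helpers may live anywhere
-- under Cfsg/Agent/.
import Cfsg.Statements.S2702
-- import your own Cfsg.Agent.* helpers here

set_option autoImplicit false
open Cfsg

namespace Cfsg.Agent.S2702

universe u in
open Cfsg.Agent.H22 CfsgLib.RhoO27 CfsgLib.QForm27 CfsgLib.Eps27 CfsgLib.Even27 CfsgLib.GP27 Matrix in
theorem aux {F : Type u} [Field F] [Fintype F] {n : ℕ} (hn : 3 ≤ n) {a : GL (Fin n) F} (h : gam a * gam a = 1) :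
    ((Even n ∧ (2 : F) ≠ 0 ∧ Nonempty (↥(Cfsg.inndiagPSL n F ⊓ Subgroup.centralizer {gam a}) ≃* Cfsg.PGSp (n / 2) F)) →
      Cfsg.splitClassCount (Cfsg.inndiagPSL n F) (Cfsg.Inn (Matrix.ProjectiveSpecialLinearGroup (Fin n) F)) (gam a) = Nat.gcd (n / 2) (Fintype.card F - 1)) ∧
    ((Even n ∧ (2 : F) ≠ 0 ∧ ¬ Nonempty (↥(Cfsg.inndiagPSL n F ⊓ Subgroup.centralizer {gam a}) ≃* Cfsg.PGSp (n / 2) F)) →
      Cfsg.splitClassCount (Cfsg.inndiagPSL n F) (Cfsg.Inn (Matrix.ProjectiveSpecialLinearGroup (Fin n) F)) (gam a) = Nat.gcd n (Fintype.card F - 1) / 2) ∧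
    (¬ (Even n ∧ (2 : F) ≠ 0) → Cfsg.splitClassCount (Cfsg.inndiagPSL n F) (Cfsg.Inn (Matrix.ProjectiveSpecialLinearGroup (Fin n) F)) (gam a) = Nat.gcd n (Fintype.card F - 1)) := by
  rw [← Nat.card_eq_fintype_card]
  have key : ∀ k : ℕ, n = 2 * (k + 1) → (2 : F) ≠ 0 →
      (Nonempty (↥(Cfsg.inndiagPSL n F ⊓ Subgroup.centralizer {gam a}) ≃* Cfsg.PGSp (k + 1) F) ∧
        Cfsg.splitClassCount (Cfsg.inndiagPSL n F) (Cfsg.Inn (Matrix.ProjectiveSpecialLinearGroup (Fin n) F)) (gam a) = Nat.gcd (k + 1) (Nat.card F - 1)) ∨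
      (¬ Nonempty (↥(Cfsg.inndiagPSL n F ⊓ Subgroup.centralizer {gam a}) ≃* Cfsg.PGSp (k + 1) F) ∧
        Cfsg.splitClassCount (Cfsg.inndiagPSL n F) (Cfsg.Inn (Matrix.ProjectiveSpecialLinearGroup (Fin n) F)) (gam a) = Nat.gcd n (Nat.card F - 1) / 2) := by
    intro k hk h2
    rcases cls_even h2 hk h with h1 | ⟨hs, ⟨⟨t⟩⟩ | h1⟩
    · exact Or.inl ⟨cen_alt (by omega) h1 hk, count_one (by omega) hk h1⟩
    · refine Or.inr ⟨?_, count_two h2 (by omega) hk hs (ev_qPlus h2 (by omega)) t⟩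
      rintro ⟨e⟩
      obtain ⟨e2⟩ := cen_quad h2 (by omega) hs t
      exact pgo_plus_ne h2 (by omega) ⟨e2.symm.trans e⟩
    · obtain ⟨c, d, hcd⟩ := exists_aniso F
      obtain ⟨t⟩ := h1 c d hcd
      refine Or.inr ⟨?_, count_two h2 (by omega) hk hs (ev_qMinus h2 hcd) t⟩
      rintro ⟨e⟩
      obtain ⟨e2⟩ := cen_quad h2 (by omega) hs t
      exact pgo_minus_ne h2 hcd ⟨e2.symm.trans e⟩
  refine ⟨?_, ?_, ?_⟩
  · rintro ⟨⟨r, hr⟩, h2, h3⟩
    obtain ⟨k, rfl⟩ : ∃ k, r = k + 1 := ⟨r - 1, by omega⟩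
    have hd : n / 2 = k + 1 := by omega
    rw [hd] at h3 ⊢
    rcases key k (by omega) h2 with h4 | h4
    · exact h4.2
    · exact absurd h3 h4.1
  · rintro ⟨⟨r, hr⟩, h2, h3⟩
    obtain ⟨k, rfl⟩ : ∃ k, r = k + 1 := ⟨r - 1, by omega⟩
    have hd : n / 2 = k + 1 := by omega
    rw [hd] at h3
    rcases key k (by omega) h2 with h4 | h4
    · exact absurd h4.1 h3
    · exact h4.2
  · intro h3
    apply count_three (by omega)
    by_cases h2 : (2 : F) = 0
    · exact Or.inr h2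
    · left
      rw [← Nat.not_even_iff_odd]
      exact fun he => h3 ⟨he, h2⟩


/-- Let T = PSL_n(F) over the field with q = p^f elements, n ≥ 3, G = Inndiag(T) the image of PGL_n(F), and γ an involutory graph automorphism of T. The G-class of γ is the union of exactly c T-classes, where: if n is even and q is odd, c = gcd(n/2, q − 1) when C_G(γ) is isomorphic to the projective conformal symplectic group PGSp_n(F) (symplectic type) and c = gcd(n, q − 1)/2 otherwise; and c = gcd(n, q − 1) when n is odd or q is even. -/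
theorem result {F : Type*} [Field F] [Fintype F] {p f : ℕ} [Fact p.Prime] (hF : Fintype.card F = p ^ f) (hf : 1 ≤ f) {n : ℕ} (hn : 3 ≤ n) (γ : MulAut (Matrix.ProjectiveSpecialLinearGroup (Fin n) F)) (hγ : Cfsg.IsGraphAutClassPSL γ) (hγ2 : orderOf γ = 2) :
    ((Even n ∧ Odd p ∧ Nonempty (↥(Cfsg.inndiagPSL n F ⊓ Subgroup.centralizer {γ}) ≃* Cfsg.PGSp (n / 2) F)) → Cfsg.splitClassCount (Cfsg.inndiagPSL n F) (Cfsg.Inn (Matrix.ProjectiveSpecialLinearGroup (Fin n) F)) γ = Nat.gcd (n / 2) (p ^ f - 1)) ∧ ((Even n ∧ Odd p ∧ ¬ Nonempty (↥(Cfsg.inndiagPSL n F ⊓ Subgroup.centralizer {γ}) ≃* Cfsg.PGSp (n / 2) F)) → Cfsg.splitClassCount (Cfsg.inndiagPSL n F) (Cfsg.Inn (Matrix.ProjectiveSpecialLinearGroup (Fin n) F)) γ = Nat.gcd n (p ^ f - 1) / 2) ∧ (¬ (Even n ∧ Odd p) → Cfsg.splitClassCount (Cfsg.inndiagPSL n F) (Cfsg.Inn (Matrix.ProjectiveSpecialLinearGroup (Fin n) F)) γ = Nat.gcd n (p ^ f - 1)) := by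
  obtain ⟨-, a, rfl⟩ := (CfsgLib.GP27.isGraph_iff γ).1 hγ
  have h := aux hn (a := a) (by rw [← pow_two]; exact orderOf_dvd_iff_pow_eq_one.1 hγ2.dvd)
  haveI : CharP F p := charP_of_card_eq_prime_pow hF
  have h2 : (2 : F) ≠ 0 ↔ Odd p := by
    have h3 : ((2 : ℕ) : F) = 0 ↔ p ∣ 2 := CharP.cast_eq_zero_iff F p 2
    have h4 : (2 : F) = 0 ↔ p = 2 := by
      rw [← Nat.prime_dvd_prime_iff_eq (Fact.out) Nat.prime_two, ← h3]
      norm_num
    rw [Ne, h4]
    constructor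
    · intro h5
      exact (Fact.out : p.Prime).odd_of_ne_two h5
    · rintro h5 rfl
      exact absurd h5 (by decide)
  rw [hF, h2] at h
  exact h

end Cfsg.Agent.S2702
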