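import Cfsg.Agent.LibGP27c
-- Template for statement S2703 (row 2703; see /opt/grader/pristine/manifest.json for weights).
-- Copy to Cfsg/Agent/S2703.lean and replace the sorry. The statement below is byte-identical to the frozen
-- statement Cfsg.CfsgFrozen.S2703 (Cfsg/Statements/S2703.lean; the theorem Cfsg.ltd21_psl_inverse_transpose_class_even_dim_odd_q);
-- the grader kernel-checks Cfsg.Agent.S2703.result against that frozen type. Keep the theorem IN THIS FILE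
-- (a `result` declared elsewhere and merely imported here is not credited); helpers may live anywhere
-- under Cfsg/Agent/.
import Cfsg.Statements.S2703
-- import your own Cfsg.Agent.* helpers here

set_option autoImplicit false
open Cfsg

namespace Cfsg.Agent.S2703

theorem arith {n k q : ℕ} (hq : Odd q) (hn : n = 2 * (k + 1)) : Even (n * (q - 1) / 4) ↔ ¬ (Odd (k + 1) ∧ q % 4 = 3) := by
  obtain ⟨r, rfl⟩ := hq
  have h1 : n * (2 * r + 1 - 1) / 4 = (k + 1) * r := by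
    rw [hn]
    have : 2 * (k + 1) * (2 * r + 1 - 1) = 4 * ((k + 1) * r) := by
      rw [Nat.add_sub_cancel]; ring
    rw [this, Nat.mul_div_cancel_left _ (by norm_num)]
  rw [h1, Nat.even_mul, ← Nat.not_even_iff_odd]
  have h2 : (2 * r + 1) % 4 = 3 ↔ ¬ Even r := by
    rw [Nat.not_even_iff_odd, Nat.odd_iff]
    omega
  rw [h2]
  tauto

universe u in
open Cfsg.Agent.H22 CfsgLib.RhoO27 CfsgLib.QForm27 CfsgLib.Eps27 CfsgLib.Even27 CfsgLib.GP27 Matrix in
theorem aux {F : Type u} [Field F] [Fintype F] (hodd : Odd (Fintype.card F)) {n k : ℕ} (hk : 1 ≤ k) (hn : n = 2 * (k + 1)) :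
    (Even (n * (Fintype.card F - 1) / 4) → Nonempty (↥(Cfsg.inndiagPSL n F ⊓ Subgroup.centralizer {gam (1 : GL (Fin n) F)}) ≃* Cfsg.PGO F ⇑(qPlus (k + 1) F))) ∧
    (¬ Even (n * (Fintype.card F - 1) / 4) → ∃ a b : F, (∀ z₁ z₂ : F, z₁ ^ 2 + a * z₁ * z₂ + b * z₂ ^ 2 = 0 → z₁ = 0 ∧ z₂ = 0) ∧
      Nonempty (↥(Cfsg.inndiagPSL n F ⊓ Subgroup.centralizer {gam (1 : GL (Fin n) F)}) ≃* Cfsg.PGO F ⇑(qMinus k F a b))) := by
  have h2 : (2 : F) ≠ 0 := two_ne_zero_of_odd hodd
  obtain ⟨h3, h4⟩ := type_one (F := F) hodd hn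
  rw [arith hodd hn, not_not]
  constructor
  · intro h
    obtain ⟨t⟩ := h3 h
    exact cen_quad h2 (by omega) (a := 1) (by rw [Units.val_one, transpose_one]) (by rw [inv_one, Units.val_one]; exact t)
  · intro h
    obtain ⟨a, b, hab⟩ := exists_aniso F
    obtain ⟨t⟩ := h4 h a b hab
    exact ⟨a, b, hab, cen_quad h2 (by omega) (a := 1) (by rw [Units.val_one, transpose_one]) (by rw [inv_one, Units.val_one]; exact t)⟩


/-- Let T = PSL_n(F) over the field with q elements, q odd, n = 2m ≥ 4 even, and ι the inverse-transpose automorphism. Its centralizer in G = Inndiag(T) (the image of PGL_n(F)) is isomorphic to the projective conformal orthogonal group of the plus-type form Σ xᵢ yᵢ in dimension n when n(q − 1)/4 is even, and to that of a minus-type form (Σ xᵢ yᵢ + z₁² + a z₁ z₂ + b z₂² with anisotropic binary part) when n(q − 1)/4 is odd. -/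
theorem result {F : Type*} [Field F] [Fintype F] (hodd : Odd (Fintype.card F)) {n m : ℕ} (hm : 2 ≤ m) (hnm : n = 2 * m) (ι : MulAut (Matrix.ProjectiveSpecialLinearGroup (Fin n) F)) (hι : Cfsg.IsInverseTransposeAutPSL ι) :
    (Even (n * (Fintype.card F - 1) / 4) → Nonempty (↥(Cfsg.inndiagPSL n F ⊓ Subgroup.centralizer {ι}) ≃* Cfsg.PGO F (Cfsg.quadFormPlus m F))) ∧ (¬ Even (n * (Fintype.card F - 1) / 4) → ∃ a b : F, (∀ z₁ z₂ : F, z₁ ^ 2 + a * z₁ * z₂ + b * z₂ ^ 2 = 0 → z₁ = 0 ∧ z₂ = 0) ∧ Nonempty (↥(Cfsg.inndiagPSL n F ⊓ Subgroup.centralizer {ι}) ≃* Cfsg.PGO F (Cfsg.quadFormMinus (m - 1) F a b))) := by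
  obtain ⟨k, rfl⟩ : ∃ k, m = k + 1 := ⟨m - 1, by omega⟩
  obtain ⟨h1, h2⟩ := aux hodd (n := n) (k := k) (by omega) (by omega)
  have hi : ι = CfsgLib.GP27.gam 1 := by
    rw [(CfsgLib.AutPSL27.isInvTr_iff ι).1 hι, CfsgLib.GP27.gam_eq, map_one, map_one, one_mul]
  rw [hi]
  rw [Cfsg.Agent.H22.coe_qPlus] at h1
  refine ⟨h1, fun h => ?_⟩
  obtain ⟨a, b, hab, h3⟩ := h2 h
  rw [Cfsg.Agent.H22.coe_qMinus] at h3
  exact ⟨a, b, hab, h3⟩

end Cfsg.Agent.S2703
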