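import Cfsg.Agent.LibAutPSL27n
-- Template for statement S2704 (row 2704; see /opt/grader/pristine/manifest.json for weights).
-- Copy to Cfsg/Agent/S2704.lean and replace the sorry. The statement below is byte-identical to the frozen
-- statement Cfsg.CfsgFrozen.S2704 (Cfsg/Statements/S2704.lean; the theorem Cfsg.ltd21_psl_involutory_graph_field_automorphism);
-- the grader kernel-checks Cfsg.Agent.S2704.result against that frozen type. Keep the theorem IN THIS FILE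
-- (a `result` declared elsewhere and merely imported here is not credited); helpers may live anywhere
-- under Cfsg/Agent/.
import Cfsg.Statements.S2704
-- import your own Cfsg.Agent.* helpers here

set_option autoImplicit false
open Cfsg

namespace Cfsg.Agent.S2704

open CfsgLib.AutPSL27 in
theorem std {F : Type*} [Field F] [Fintype F] {p : ℕ} [Fact p.Prime] [CharP F p] {n : ℕ} (hn : 3 ≤ n)
    (x : MulAut (Matrix.ProjectiveSpecialLinearGroup (Fin n) F)) (hx : Cfsg.IsGraphFieldAutClassPSL x) (hx2 : orderOf x = 2) :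
    ∃ (α : MulAut (Matrix.ProjectiveSpecialLinearGroup (Fin n) F)) (σ : F ≃+* F), σ ≠ 1 ∧ σ ^ 2 = 1 ∧ α * x * α⁻¹ = lft (fl σ * it) := by
  obtain ⟨-, α, φ, γ, σ, hσ, hst, hit, hα⟩ := hx
  rw [isStdField_iff] at hst
  rw [isInvTr_iff] at hit
  rw [hst, hit, ← map_mul] at hα
  refine ⟨α, σ, hσ, ?_, hα⟩
  have h1 : (lft (fl σ * it) : MulAut (Matrix.ProjectiveSpecialLinearGroup (Fin n) F)) ^ 2 = 1 := by
    rw [← hα, conj_pow, ← hx2, pow_orderOf_eq_one, mul_one, mul_inv_cancel]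
  rw [← map_pow, (show Commute (fl σ) it from (it_mul_fl σ).symm).mul_pow, ← map_pow, sq it, it_mul_it, mul_one] at h1
  exact (unique_one (n := n) (g := 1) p (by omega) (by rw [map_one, one_mul]; exact h1)).2

/-- Let T = PSL_n(F) over the field F with p^f elements, n ≥ 3, and G = Inndiag(T) the image of PGL_n(F). If x is an involutory graph-field automorphism of T then f is even; x is G-conjugate to every other involutory graph-field automorphism; C_G(x) is isomorphic to the projective general unitary group PGU_n(q₀) with q₀² = p^f, realised over F itself through the Hermitian form Σ uᵢ vᵢ^{q₀}; and the G-class of x is the union of exactly gcd(n, q₀ − 1) T-classes. -/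
theorem result {F : Type*} [Field F] [Fintype F] {p f : ℕ} [Fact p.Prime] (hF : Fintype.card F = p ^ f) (hf : 1 ≤ f) {n : ℕ} (hn : 3 ≤ n) (x : MulAut (Matrix.ProjectiveSpecialLinearGroup (Fin n) F)) (hx : Cfsg.IsGraphFieldAutClassPSL x) (hx2 : orderOf x = 2) :
    Even f ∧ (∀ y : MulAut (Matrix.ProjectiveSpecialLinearGroup (Fin n) F), Cfsg.IsGraphFieldAutClassPSL y → orderOf y = 2 → Cfsg.IsConjUnder (Cfsg.inndiagPSL n F) x y) ∧ Nonempty (↥(Cfsg.inndiagPSL n F ⊓ Subgroup.centralizer {x}) ≃* Cfsg.PGU n F (p ^ (f / 2))) ∧ Cfsg.splitClassCount (Cfsg.inndiagPSL n F) (Cfsg.Inn (Matrix.ProjectiveSpecialLinearGroup (Fin n) F)) x = Nat.gcd n (p ^ (f / 2) - 1) := by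
  haveI := CfsgLib.AutPSL27.charP_of_card hF
  have hF' : Nat.card F = p ^ f := by rw [Nat.card_eq_fintype_card, hF]
  obtain ⟨α, σ, hσ, hσ2, hα⟩ := std (p := p) hn x hx hx2
  obtain ⟨h2f, hK⟩ := CfsgLib.AutPSL27.field_arith (F := F) hF' (by norm_num) σ (orderOf_eq_prime hσ2 hσ)
  have hG : ∀ β : MulAut (Matrix.ProjectiveSpecialLinearGroup (Fin n) F), ∀ g ∈ Cfsg.inndiagPSL n F, β * g * β⁻¹ ∈ Cfsg.inndiagPSL n F := by
    intro β g hg
    rw [CfsgLib.AutPSL27.inndiag_eq] at hg ⊢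
    obtain ⟨d, rfl⟩ := hg
    obtain ⟨d', hd'⟩ := CfsgLib.AutPSL27.conj_inndiag p (by omega) β d
    exact ⟨d', hd'.symm⟩
  have hT : ∀ β : MulAut (Matrix.ProjectiveSpecialLinearGroup (Fin n) F), ∀ g ∈ Cfsg.Inn (Matrix.ProjectiveSpecialLinearGroup (Fin n) F),
      β * g * β⁻¹ ∈ Cfsg.Inn (Matrix.ProjectiveSpecialLinearGroup (Fin n) F) := fun β g hg =>
    (Cfsg.innNormal (Matrix.ProjectiveSpecialLinearGroup (Fin n) F)).conj_mem g hg β
  refine ⟨even_iff_two_dvd.2 h2f, ?_, ?_, ?_⟩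
  · intro y hy hy2
    obtain ⟨β, τ, hτ, hτ2, hβ⟩ := std (p := p) hn y hy hy2
    obtain rfl := CfsgLib.AutPSL27.gal_two_unique hσ hσ2 hτ hτ2
    obtain ⟨a, ha⟩ := CfsgLib.AutPSL27.conj_gf p (n := n) (by omega) σ α⁻¹
    obtain ⟨b, hb⟩ := CfsgLib.AutPSL27.conj_gf p (n := n) (by omega) σ β⁻¹
    have hx' : x = CfsgLib.AutPSL27.lft (CfsgLib.AutPSL27.cj a) * CfsgLib.AutPSL27.lft (CfsgLib.AutPSL27.fl σ * CfsgLib.AutPSL27.it) *
        (CfsgLib.AutPSL27.lft (CfsgLib.AutPSL27.cj a))⁻¹ := by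
      rw [← ha, ← hα]; group
    have hy' : y = CfsgLib.AutPSL27.lft (CfsgLib.AutPSL27.cj b) * CfsgLib.AutPSL27.lft (CfsgLib.AutPSL27.fl σ * CfsgLib.AutPSL27.it) *
        (CfsgLib.AutPSL27.lft (CfsgLib.AutPSL27.cj b))⁻¹ := by
      rw [← hb, ← hβ]; group
    refine ⟨CfsgLib.AutPSL27.lft (CfsgLib.AutPSL27.cj (b * a⁻¹)), ?_, ?_⟩
    · rw [CfsgLib.AutPSL27.inndiag_eq]
      exact ⟨_, rfl⟩
    · have h3 : (CfsgLib.AutPSL27.lft (CfsgLib.AutPSL27.cj (b * a⁻¹)) : MulAut (Matrix.ProjectiveSpecialLinearGroup (Fin n) F)) =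
          CfsgLib.AutPSL27.lft (CfsgLib.AutPSL27.cj b) * (CfsgLib.AutPSL27.lft (CfsgLib.AutPSL27.cj a))⁻¹ := by
        rw [map_mul CfsgLib.AutPSL27.cj, map_mul CfsgLib.AutPSL27.lft, map_inv CfsgLib.AutPSL27.cj, map_inv CfsgLib.AutPSL27.lft]
      rw [h3, hx', hy']; group
  · obtain ⟨e1⟩ := CfsgLib.Split27.centr_conj (Cfsg.inndiagPSL n F) x α (hG α) (fun g hg => by
      have := hG α⁻¹ g hg
      rwa [inv_inv] at this)
    have hk : 0 < f / 2 := by
      have : 2 ≤ f := Nat.le_of_dvd (by omega) h2f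
      omega
    obtain ⟨e2⟩ := CfsgLib.AutPSL27.centr_gf p (n := n) (by omega) hσ hσ2 (q := p ^ (f / 2))
      (CfsgLib.AutPSL27.invol_eq_pow (by rw [hF', ← pow_mul, Nat.div_mul_cancel h2f]) hk hσ hσ2)
    rw [hα] at e1
    exact ⟨e1.trans e2⟩
  · rw [CfsgLib.Split27.splitCount_conj _ _ x α (hG α) (fun g hg => by
      have := hG α⁻¹ g hg
      rwa [inv_inv] at this) (hT α) (fun g hg => by
      have := hT α⁻¹ g hg
      rwa [inv_inv] at this), hα, CfsgLib.AutPSL27.split_gf p (by omega) hσ hσ2, hK]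

end Cfsg.Agent.S2704
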