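import Cfsg.Statements.S2705
import Cfsg.Agent.LibH22AU10

set_option autoImplicit false
open Cfsg

namespace Cfsg.Agent.S2705
open Cfsg.Agent.H22 CfsgLib.H9027 in
theorem aux {F : Type*} [Field F] [Fintype F] {p f q : ℕ} [Fact p.Prime] (hq : q = p ^ f) (hf : 1 ≤ f) (hF : Fintype.card F = q ^ 2) {n : ℕ} (hn : 3 ≤ n) (hs : ¬ (n = 3 ∧ q = 2)) (x : MulAut (Cfsg.PSU n F q)) (hx : Cfsg.IsFieldAutClassPSU x) {r : ℕ} (hr : r.Prime) (hxr : orderOf x = r) :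
    r ∣ f ∧ ∃ (α : MulAut (Cfsg.PSU n F q)) (σ : F ≃+* F), OddF F q (p ^ (f / r)) r σ ∧ α * x * α⁻¹ = phiU n F q σ := by
  obtain ⟨α, φ, σ, hσ, hodd, hφ, hst⟩ := hx
  rw [isFieldU_iff] at hφ
  rw [hφ] at hst
  have h1 : phiU n F q σ ^ r = 1 := by
    rw [← hst, conj_pow, ← hxr, pow_orderOf_eq_one, mul_one, mul_inv_cancel]
  have hord : orderOf σ = r := by
    haveI : Fact r.Prime := ⟨hr⟩
    refine orderOf_eq_prime ?_ hσ
    rw [← map_pow] at h1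
    exact phiU_inj hF hn (by rw [h1, map_one])
  rw [hord] at hodd
  obtain ⟨h2, h3⟩ := exists_oddF hq hf hF hord hodd
  exact ⟨h2, α, σ, h3, hst⟩

/-- Let T = PSU_n(q) be simple (n ≥ 3, (n, q) ≠ (3, 2), q = p^f), realised over the field F with q² elements, G = Inndiag(T) the image of PGU_n(q) in Aut(T), and x a field automorphism of T (conjugate to a standard field automorphism of odd order) of odd prime order r. Then r divides f; C_G(x) is isomorphic to PGU_n(q₀) with q₀ = p^(f/r), realised over a field F₀ with q₀² elements; and the G-class of x is the union of exactly gcd(n, (q + 1)/(q₀ + 1)) T-classes. -/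
theorem result {F : Type*} [Field F] [Fintype F] {p f q : ℕ} [Fact p.Prime] (hq : q = p ^ f) (hf : 1 ≤ f) (hF : Fintype.card F = q ^ 2) {n : ℕ} (hn : 3 ≤ n) (hs : ¬ (n = 3 ∧ q = 2)) (x : MulAut (Cfsg.PSU n F q)) (hx : Cfsg.IsFieldAutClassPSU x) {r : ℕ} (hr : r.Prime) (hro : Odd r) (hxr : orderOf x = r) (F₀ : Type*) [Field F₀] [Fintype F₀] (hF₀ : Fintype.card F₀ = p ^ (2 * (f / r))) :
    r ∣ f ∧ Nonempty (↥(Cfsg.inndiagPSU n F q ⊓ Subgroup.centralizer {x}) ≃* Cfsg.PGU n F₀ (p ^ (f / r))) ∧ Cfsg.splitClassCount (Cfsg.inndiagPSU n F q) (Cfsg.Inn (Cfsg.PSU n F q)) x = Nat.gcd n ((q + 1) / (p ^ (f / r) + 1)) := by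
  obtain ⟨hrf, α, σ, H, hst⟩ := aux hq hf hF hn hs x hx hr hxr
  have hG : ∀ β : MulAut (Cfsg.PSU n F q), ∀ g ∈ Cfsg.inndiagPSU n F q, β * g * β⁻¹ ∈ Cfsg.inndiagPSU n F q := by
    intro β g hg
    rw [Cfsg.Agent.H22.inndiagPSU_eq] at hg ⊢
    obtain ⟨d, rfl⟩ := hg
    obtain ⟨d', hd'⟩ := Cfsg.Agent.H22.inndiagU_normal hF hn hs β d
    exact ⟨d', hd'.symm⟩
  have hT : ∀ β : MulAut (Cfsg.PSU n F q), ∀ g ∈ Cfsg.Inn (Cfsg.PSU n F q),
      β * g * β⁻¹ ∈ Cfsg.Inn (Cfsg.PSU n F q) := fun β g hg =>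
    (Cfsg.innNormal (Cfsg.PSU n F q)).conj_mem g hg β
  refine ⟨hrf, ?_, ?_⟩
  · obtain ⟨e1⟩ := CfsgLib.Split27.centr_conj (Cfsg.inndiagPSU n F q) x α (hG α) (fun g hg => by
      have := hG α⁻¹ g hg
      rwa [inv_inv] at this)
    rw [hst] at e1
    obtain ⟨e2⟩ := H.centralizer hn (F₀ := F₀) (by rw [hF₀, ← pow_mul, mul_comm])
    rw [← Cfsg.Agent.H22.inndiagPSU_eq] at e2
    exact ⟨e1.trans e2⟩
  · rw [CfsgLib.Split27.splitCount_conj _ _ x α (hG α) (fun g hg => by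
      have := hG α⁻¹ g hg
      rwa [inv_inv] at this) (hT α) (fun g hg => by
      have := hT α⁻¹ g hg
      rwa [inv_inv] at this), hst]
    exact H.split hn

end Cfsg.Agent.S2705
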