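import Cfsg.Agent.S2699
import Cfsg.Agent.LibGQ27d
-- Template for statement S2706 (row 2706; see /opt/grader/pristine/manifest.json for weights).
-- Copy to Cfsg/Agent/S2706.lean and replace the sorry. The statement below is byte-identical to the frozen
-- statement Cfsg.CfsgFrozen.S2706 (Cfsg/Statements/S2706.lean; the theorem Cfsg.ltd21_psu_odd_dim_involutory_graph_automorphism_centralizer);
-- the grader kernel-checks Cfsg.Agent.S2706.result against that frozen type. Keep the theorem IN THIS FILE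
-- (a `result` declared elsewhere and merely imported here is not credited); helpers may live anywhere
-- under Cfsg/Agent/.
import Cfsg.Statements.S2706
-- import your own Cfsg.Agent.* helpers here

set_option autoImplicit false
open Cfsg

namespace Cfsg.Agent.S2706

/-- Let T = PSU_n(q) be simple with n = 2m + 1 ≥ 3 odd, realised over the field F with q² elements, and G = Inndiag(T) the image of PGU_n(q). Every involutory graph automorphism γ of T (an inner-diagonal automorphism times a standard field automorphism of even order, of order 2) has centralizer C_G(γ) isomorphic to the projective conformal orthogonal group of the form x₀² + Σ xᵢ yᵢ in dimension n over a field F₀ with q elements, and any two involutory graph automorphisms of T are G-conjugate. -/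
theorem result {F : Type*} [Field F] [Fintype F] {p f q : ℕ} [Fact p.Prime] (hq : q = p ^ f) (hf : 1 ≤ f) (hF : Fintype.card F = q ^ 2) {n : ℕ} (hn : 3 ≤ n) (hs : ¬ (n = 3 ∧ q = 2)) {m : ℕ} (hnm : n = 2 * m + 1) (F₀ : Type*) [Field F₀] [Fintype F₀] (hF₀ : Fintype.card F₀ = q) (γ γ' : MulAut (Cfsg.PSU n F q)) (hγ : Cfsg.IsGraphAutClassPSU γ) (hγ2 : orderOf γ = 2) (hγ' : Cfsg.IsGraphAutClassPSU γ') (hγ'2 : orderOf γ' = 2) :
    Nonempty (↥(Cfsg.inndiagPSU n F q ⊓ Subgroup.centralizer {γ}) ≃* Cfsg.PGO F₀ (Cfsg.quadFormOdd m F₀)) ∧ Cfsg.IsConjUnder (Cfsg.inndiagPSU n F q) γ γ' := by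
  obtain ⟨τ, j, H⟩ := CfsgLib.GQ27.exists_GQ hF hF₀
  obtain ⟨β, hβ, hβ2, hc⟩ := H.cor_of_U hγ hγ2
  obtain ⟨β', hβ', hβ'2, hc'⟩ := H.cor_of_U hγ' hγ'2
  obtain ⟨⟨e1⟩, h1⟩ := Cfsg.Agent.S2699.result (F := F₀) (hF₀.trans hq) hf hn hnm β β' hβ hβ2 hβ' hβ'2
  obtain ⟨e2⟩ := hc.cen H hn
  exact ⟨⟨e2.trans e1⟩, (hc.conj H hn hc').2 h1⟩

end Cfsg.Agent.S2706
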