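import Cfsg.Agent.S2700
import Cfsg.Agent.LibGQ27d
-- Template for statement S2707 (row 2707; see /opt/grader/pristine/manifest.json for weights).
-- Copy to Cfsg/Agent/S2707.lean and replace the sorry. The statement below is byte-identical to the frozen
-- statement Cfsg.CfsgFrozen.S2707 (Cfsg/Statements/S2707.lean; the theorem Cfsg.ltd21_psu_even_dim_odd_q_involutory_graph_automorphism_classes);
-- the grader kernel-checks Cfsg.Agent.S2707.result against that frozen type. Keep the theorem IN THIS FILE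
-- (a `result` declared elsewhere and merely imported here is not credited); helpers may live anywhere
-- under Cfsg/Agent/.
import Cfsg.Statements.S2707
-- import your own Cfsg.Agent.* helpers here

set_option autoImplicit false
open Cfsg

namespace Cfsg.Agent.S2707

/-- Let T = PSU_n(q) with n = 2m ≥ 4 even and q odd, realised over the field F with q² elements, and G = Inndiag(T) the image of PGU_n(q). The involutory graph automorphisms of T fall into exactly three G-classes, with representatives whose centralizers in G are isomorphic respectively to the projective conformal symplectic group PGSp_n(F₀), the projective conformal orthogonal group of the plus-type form Σ xᵢ yᵢ, and that of a minus-type form Σ xᵢ yᵢ + z₁² + a z₁ z₂ + b z₂² (anisotropic binary part) in dimension n, all over a field F₀ with q elements. -/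
theorem result {F : Type*} [Field F] [Fintype F] {q : ℕ} (hodd : Odd q) (hF : Fintype.card F = q ^ 2) {n m : ℕ} (hm : 2 ≤ m) (hnm : n = 2 * m) (F₀ : Type*) [Field F₀] [Fintype F₀] (hF₀ : Fintype.card F₀ = q) :
    ∃ (γ₁ γ₂ γ₃ : MulAut (Cfsg.PSU n F q)) (a b : F₀), (∀ z₁ z₂ : F₀, z₁ ^ 2 + a * z₁ * z₂ + b * z₂ ^ 2 = 0 → z₁ = 0 ∧ z₂ = 0) ∧ Cfsg.IsGraphAutClassPSU γ₁ ∧ orderOf γ₁ = 2 ∧ Cfsg.IsGraphAutClassPSU γ₂ ∧ orderOf γ₂ = 2 ∧ Cfsg.IsGraphAutClassPSU γ₃ ∧ orderOf γ₃ = 2 ∧ ¬ Cfsg.IsConjUnder (Cfsg.inndiagPSU n F q) γ₁ γ₂ ∧ ¬ Cfsg.IsConjUnder (Cfsg.inndiagPSU n F q) γ₁ γ₃ ∧ ¬ Cfsg.IsConjUnder (Cfsg.inndiagPSU n F q) γ₂ γ₃ ∧ (∀ γ : MulAut (Cfsg.PSU n F q), Cfsg.IsGraphAutClassPSU γ → orderOf γ = 2 → Cfsg.IsConjUnder (Cfsg.inndiagPSU n F q) γ₁ γ ∨ Cfsg.IsConjUnder (Cfsg.inndiagPSU n F q) γ₂ γ ∨ Cfsg.IsConjUnder (Cfsg.inndiagPSU n F q) γ₃ γ) ∧ Nonempty (↥(Cfsg.inndiagPSU n F q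 ⊓ Subgroup.centralizer {γ₁}) ≃* Cfsg.PGSp m F₀) ∧ Nonempty (↥(Cfsg.inndiagPSU n F q ⊓ Subgroup.centralizer {γ₂}) ≃* Cfsg.PGO F₀ (Cfsg.quadFormPlus m F₀)) ∧ Nonempty (↥(Cfsg.inndiagPSU n F q ⊓ Subgroup.centralizer {γ₃}) ≃* Cfsg.PGO F₀ (Cfsg.quadFormMinus (m - 1) F₀ a b)) := by
  have hn : 3 ≤ n := by omega
  obtain ⟨τ, j, H⟩ := CfsgLib.GQ27.exists_GQ hF hF₀
  obtain ⟨β₁, β₂, β₃, a, b, hab, g1, o1, g2, o2, g3, o3, n12, n13, n23, hall, ⟨e1⟩, ⟨e2⟩, ⟨e3⟩⟩ := Cfsg.Agent.S2700.result (F := F₀) (by rw [hF₀]; exact hodd) hm hnm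
  obtain ⟨γ₁, g1', o1', c1⟩ := H.cor_of_L g1 o1
  obtain ⟨γ₂, g2', o2', c2⟩ := H.cor_of_L g2 o2
  obtain ⟨γ₃, g3', o3', c3⟩ := H.cor_of_L g3 o3
  obtain ⟨f1⟩ := c1.cen H hn
  obtain ⟨f2⟩ := c2.cen H hn
  obtain ⟨f3⟩ := c3.cen H hn
  refine ⟨γ₁, γ₂, γ₃, a, b, hab, g1', o1', g2', o2', g3', o3', ?_, ?_, ?_, ?_, ⟨f1.trans e1⟩, ⟨f2.trans e2⟩, ⟨f3.trans e3⟩⟩
  · rw [c1.conj H hn c2]; exact n12
  · rw [c1.conj H hn c3]; exact n13
  · rw [c2.conj H hn c3]; exact n23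
  · intro γ hγ hγ2
    obtain ⟨β, hβ, hβ2, hc⟩ := H.cor_of_U hγ hγ2
    rw [c1.conj H hn hc, c2.conj H hn hc, c3.conj H hn hc]
    exact hall β hβ hβ2

end Cfsg.Agent.S2707
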