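import Cfsg.Agent.S2701
import Cfsg.Agent.LibGQ27d
-- Template for statement S2708 (row 2708; see /opt/grader/pristine/manifest.json for weights).
-- Copy to Cfsg/Agent/S2708.lean and replace the sorry. The statement below is byte-identical to the frozen
-- statement Cfsg.CfsgFrozen.S2708 (Cfsg/Statements/S2708.lean; the theorem Cfsg.ltd21_psu_even_dim_even_q_involutory_graph_automorphism_classes);
-- the grader kernel-checks Cfsg.Agent.S2708.result against that frozen type. Keep the theorem IN THIS FILE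
-- (a `result` declared elsewhere and merely imported here is not credited); helpers may live anywhere
-- under Cfsg/Agent/.
import Cfsg.Statements.S2708
-- import your own Cfsg.Agent.* helpers here

set_option autoImplicit false
open Cfsg

namespace Cfsg.Agent.S2708

/-- Let T = PSU_n(q) with n = 2m ≥ 4 even and q even, realised over the field F (of characteristic 2) with q² elements, and G = Inndiag(T) the image of PGU_n(q). The involutory graph automorphisms of T fall into exactly two G-classes, with representatives whose centralizers in G are isomorphic respectively to the symplectic group Sp_n(F₀) and to the centralizer in Sp_n(F₀) of a symplectic transvection, F₀ a field with q elements. -/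
theorem result {F : Type*} [Field F] [Fintype F] [CharP F 2] {q : ℕ} (hF : Fintype.card F = q ^ 2) {n m : ℕ} (hm : 2 ≤ m) (hnm : n = 2 * m) (F₀ : Type*) [Field F₀] [Fintype F₀] (hF₀ : Fintype.card F₀ = q) :
    ∃ (γ₁ γ₃ : MulAut (Cfsg.PSU n F q)) (t : ↥(Matrix.symplecticGroup (Fin m) F₀)), Cfsg.IsTransvection (t : Matrix (Fin m ⊕ Fin m) (Fin m ⊕ Fin m) F₀) ∧ Cfsg.IsGraphAutClassPSU γ₁ ∧ orderOf γ₁ = 2 ∧ Cfsg.IsGraphAutClassPSU γ₃ ∧ orderOf γ₃ = 2 ∧ ¬ Cfsg.IsConjUnder (Cfsg.inndiagPSU n F q) γ₁ γ₃ ∧ (∀ γ : MulAut (Cfsg.PSU n F q), Cfsg.IsGraphAutClassPSU γ → orderOf γ = 2 → Cfsg.IsConjUnder (Cfsg.inndiagPSU n F q) γ₁ γ ∨ Cfsg.IsConjUnder (Cfsg.inndiagPSU n F q) γ₃ γ) ∧ Nonempty (↥(Cfsg.inndiagPSU n F q ⊓ Subgroup.centralizer {γ₁}) ≃* ↥(Matrix.symplecticGroup (Fin m) F₀)) ∧ Nonempty (↥(Cfsg.inndiagPSU n F q ⊓ Subgroup.centralizer {γ₃}) ≃* ↥(Subgroup.centralizer ({t} : Set ↥(Matrix.symplecticGroup (Fin m) F₀)))) := by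
  have hn : 3 ≤ n := by omega
  obtain ⟨τ, j, H⟩ := CfsgLib.GQ27.exists_GQ hF hF₀
  haveI : CharP F₀ 2 := by
    have h2 : (2 : F) = 0 := CharTwo.two_eq_zero
    have h3 : (2 : F₀) = 0 := by
      apply j.injective
      rw [map_ofNat, map_zero, h2]
    exact CharTwo.of_one_ne_zero_of_two_eq_zero one_ne_zero h3
  obtain ⟨β₁, β₃, t, ht, g1, o1, g3, o3, n13, hall, ⟨e1⟩, ⟨e3⟩⟩ := Cfsg.Agent.S2701.result (F := F₀) hm hnm
  obtain ⟨γ₁, g1', o1', c1⟩ := H.cor_of_L g1 o1
  obtain ⟨γ₃, g3', o3', c3⟩ := H.cor_of_L g3 o3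
  obtain ⟨f1⟩ := c1.cen H hn
  obtain ⟨f3⟩ := c3.cen H hn
  refine ⟨γ₁, γ₃, t, ht, g1', o1', g3', o3', ?_, ?_, ⟨f1.trans e1⟩, ⟨f3.trans e3⟩⟩
  · rw [c1.conj H hn c3]; exact n13
  · intro γ hγ hγ2
    obtain ⟨β, hβ, hβ2, hc⟩ := H.cor_of_U hγ hγ2
    rw [c1.conj H hn hc, c3.conj H hn hc]
    exact hall β hβ hβ2

end Cfsg.Agent.S2708
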