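import Cfsg.Agent.LibGP27e
import Cfsg.Agent.LibGQ27f
-- Template for statement S2709 (row 2709; see /opt/grader/pristine/manifest.json for weights).
-- Copy to Cfsg/Agent/S2709.lean and replace the sorry. The statement below is byte-identical to the frozen
-- statement Cfsg.CfsgFrozen.S2709 (Cfsg/Statements/S2709.lean; the theorem Cfsg.ltd21_psu_involutory_graph_automorphism_class_splitting);
-- the grader kernel-checks Cfsg.Agent.S2709.result against that frozen type. Keep the theorem IN THIS FILE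
-- (a `result` declared elsewhere and merely imported here is not credited); helpers may live anywhere
-- under Cfsg/Agent/.
import Cfsg.Statements.S2709
-- import your own Cfsg.Agent.* helpers here

set_option autoImplicit false
open Cfsg

namespace Cfsg.Agent.S2709

universe u v in
open Cfsg.Agent.H22 CfsgLib.RhoO27 CfsgLib.QForm27 CfsgLib.Eps27 CfsgLib.Even27 CfsgLib.GP27 CfsgLib.GQ27 Matrix in
theorem aux {F : Type u} [Field F] [Fintype F] {F₀ : Type v} [Field F₀] [Fintype F₀] {q n : ℕ} {τ : F ≃+* F} {j : F₀ →+* F} (H : GQ F F₀ q τ j) (hn : 3 ≤ n)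
    {a : Cfsg.GU n F q} (h : gU τ a * gU τ a = 1) :
    ((Even n ∧ (2 : F₀) ≠ 0 ∧ Nonempty (↥(Cfsg.inndiagPSU n F q ⊓ Subgroup.centralizer {gU τ a}) ≃* Cfsg.PGSp (n / 2) F₀)) →
      Cfsg.splitClassCount (Cfsg.inndiagPSU n F q) (Cfsg.Inn (Cfsg.PSU n F q)) (gU τ a) = Nat.gcd (n / 2) (q + 1)) ∧
    ((Even n ∧ (2 : F₀) ≠ 0 ∧ ¬ Nonempty (↥(Cfsg.inndiagPSU n F q ⊓ Subgroup.centralizer {gU τ a}) ≃* Cfsg.PGSp (n / 2) F₀)) →
      Cfsg.splitClassCount (Cfsg.inndiagPSU n F q) (Cfsg.Inn (Cfsg.PSU n F q)) (gU τ a) = Nat.gcd n (q + 1) / 2) ∧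
    (¬ (Even n ∧ (2 : F₀) ≠ 0) → Cfsg.splitClassCount (Cfsg.inndiagPSU n F q) (Cfsg.Inn (Cfsg.PSU n F q)) (gU τ a) = Nat.gcd n (q + 1)) := by
  haveI : NeZero n := ⟨by omega⟩
  obtain ⟨c, hc⟩ := (H.gU_sq_iff hn a).1 h
  obtain ⟨α, b, l, e, c₀, R, hα⟩ := exists_RR H (H.mem_GU.1 a.2) hc
  have hα2 : gam α * gam α = 1 := (gam_sq_iff (by omega) α).2 ⟨c₀, hα⟩
  obtain ⟨e0⟩ := H.cen_corr hn R
  have key : ∀ k : ℕ, n = 2 * (k + 1) → (2 : F₀) ≠ 0 →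
      (Nonempty (↥(Cfsg.inndiagPSU n F q ⊓ Subgroup.centralizer {gU τ a}) ≃* Cfsg.PGSp (k + 1) F₀) ∧
        Cfsg.splitClassCount (Cfsg.inndiagPSU n F q) (Cfsg.Inn (Cfsg.PSU n F q)) (gU τ a) = Nat.gcd (k + 1) (q + 1)) ∨
      (¬ Nonempty (↥(Cfsg.inndiagPSU n F q ⊓ Subgroup.centralizer {gU τ a}) ≃* Cfsg.PGSp (k + 1) F₀) ∧
        Cfsg.splitClassCount (Cfsg.inndiagPSU n F q) (Cfsg.Inn (Cfsg.PSU n F q)) (gU τ a) = Nat.gcd n (q + 1) / 2) := by
    intro k hk h2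
    rcases cls_even h2 hk hα2 with h1 | ⟨hs, ⟨⟨t⟩⟩ | h1⟩
    · obtain ⟨e1⟩ := cen_alt (by omega) h1 hk
      exact Or.inl ⟨⟨e0.trans e1⟩, H.count1 hn hk R h1⟩
    · refine Or.inr ⟨?_, H.count2 h2 hn hk R hs (ev_qPlus h2 (by omega)) t⟩
      rintro ⟨e⟩
      obtain ⟨e2⟩ := cen_quad h2 (by omega) hs t
      exact pgo_plus_ne h2 (by omega) ⟨e2.symm.trans (e0.symm.trans e)⟩
    · obtain ⟨c, d, hcd⟩ := exists_aniso F₀
      obtain ⟨t⟩ := h1 c d hcd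
      refine Or.inr ⟨?_, H.count2 h2 hn hk R hs (ev_qMinus h2 hcd) t⟩
      rintro ⟨e⟩
      obtain ⟨e2⟩ := cen_quad h2 (by omega) hs t
      exact pgo_minus_ne h2 hcd ⟨e2.symm.trans (e0.symm.trans e)⟩
  refine ⟨?_, ?_, ?_⟩
  · rintro ⟨⟨r, hr⟩, h2, h3⟩
    obtain ⟨k, rfl⟩ : ∃ k, r = k + 1 := ⟨r - 1, by omega⟩
    have hd : n / 2 = k + 1 := by omega
    rw [hd] at h3 ⊢
    rcases key k (by omega) h2 with h4 | h4
    · exact h4.2
    · exact absurd h3 h4.1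
  · rintro ⟨⟨r, hr⟩, h2, h3⟩
    obtain ⟨k, rfl⟩ : ∃ k, r = k + 1 := ⟨r - 1, by omega⟩
    have hd : n / 2 = k + 1 := by omega
    rw [hd] at h3
    rcases key k (by omega) h2 with h4 | h4
    · exact absurd h4.1 h3
    · exact h4.2
  · intro h3
    apply H.count3 hn
    by_cases h2 : (2 : F₀) = 0
    · right
      rw [← map_ofNat j, h2, map_zero]
    · left
      rw [← Nat.not_even_iff_odd]
      exact fun he => h3 ⟨he, h2⟩


/-- Let T = PSU_n(q) be simple (n ≥ 3, (n,q) ≠ (3,2), q = p^f), realised over the field F with q² elements, G = Inndiag(T) the image of PGU_n(q), and γ an involutory graph automorphism of T. The G-class of γ is the union of exactly c T-classes, where: if n is even and q is odd, c = gcd(n/2, q + 1) when C_G(γ) is isomorphic to PGSp_n(F₀) for a field F₀ with q elements (symplectic type) and c = gcd(n, q + 1)/2 otherwise; and c = gcd(n, q + 1) when n is odd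 or q is even. -/
theorem result {F : Type*} [Field F] [Fintype F] {p f q : ℕ} [Fact p.Prime] (hq : q = p ^ f) (hf : 1 ≤ f) (hF : Fintype.card F = q ^ 2) {n : ℕ} (hn : 3 ≤ n) (hs : ¬ (n = 3 ∧ q = 2)) (F₀ : Type*) [Field F₀] [Fintype F₀] (hF₀ : Fintype.card F₀ = q) (γ : MulAut (Cfsg.PSU n F q)) (hγ : Cfsg.IsGraphAutClassPSU γ) (hγ2 : orderOf γ = 2) :
    ((Even n ∧ Odd q ∧ Nonempty (↥(Cfsg.inndiagPSU n F q ⊓ Subgroup.centralizer {γ}) ≃* Cfsg.PGSp (n / 2) F₀)) → Cfsg.splitClassCount (Cfsg.inndiagPSU n F q) (Cfsg.Inn (Cfsg.PSU n F q)) γ = Nat.gcd (n / 2) (q + 1)) ∧ ((Even n ∧ Odd q ∧ ¬ Nonempty (↥(Cfsg.inndiagPSU n F q ⊓ Subgroup.centralizer {γ}) ≃* Cfsg.PGSp (n / 2) F₀)) → Cfsg.splitClassCount (Cfsg.inndiagPSU n F q) (Cfsg.Inn (Cfsg.PSU n F q)) γ = Nat.gcd n (q + 1) / 2) ∧ (¬ (Even n ∧ Odd q) → Cfsg.splitClassCount (Cfsg.inndiagPSU n F q) (Cfsg.Inn (Cfsg.PSU n F q)) γ = Nat.gcd n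 (q + 1)) := by
  obtain ⟨τ, j, H⟩ := CfsgLib.GQ27.exists_GQ hF hF₀
  obtain ⟨-, a, rfl, ha⟩ := (H.graph_iff γ).1 ⟨hγ, hγ2⟩
  haveI : CharP F₀ p := charP_of_card_eq_prime_pow (hF₀.trans hq)
  have hodd : (2 : F₀) ≠ 0 ↔ Odd q := by
    have h3 : ((2 : ℕ) : F₀) = 0 ↔ p ∣ 2 := CharP.cast_eq_zero_iff F₀ p 2
    have h4 : (2 : F₀) = 0 ↔ p = 2 := by
      rw [← Nat.prime_dvd_prime_iff_eq (Fact.out) Nat.prime_two, ← h3]
      norm_num
    rw [Ne, h4, hq, Nat.odd_pow_iff (by omega)]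
    constructor
    · intro h5
      exact (Fact.out : p.Prime).odd_of_ne_two h5
    · rintro h5 rfl
      exact absurd h5 (by decide)
  have h := aux H hn ha
  rw [hodd] at h
  exact h

end Cfsg.Agent.S2709
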