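import Cfsg.Agent.S2703
import Cfsg.Agent.LibGQ27d
-- Template for statement S2710 (row 2710; see /opt/grader/pristine/manifest.json for weights).
-- Copy to Cfsg/Agent/S2710.lean and replace the sorry. The statement below is byte-identical to the frozen
-- statement Cfsg.CfsgFrozen.S2710 (Cfsg/Statements/S2710.lean; the theorem Cfsg.ltd21_psu_q_power_graph_automorphism_centralizer_dim_divisible_by_four);
-- the grader kernel-checks Cfsg.Agent.S2710.result against that frozen type. Keep the theorem IN THIS FILE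
-- (a `result` declared elsewhere and merely imported here is not credited); helpers may live anywhere
-- under Cfsg/Agent/.
import Cfsg.Statements.S2710
-- import your own Cfsg.Agent.* helpers here

set_option autoImplicit false
open Cfsg

namespace Cfsg.Agent.S2710

/-- Let T = PSU_n(q) with n ≥ 4 divisible by 4 (n = 2m) and q odd, realised over the field F with q² elements, G = Inndiag(T) the image of PGU_n(q), and φ the standard field automorphism of T attached to the q-th power map of F (it induces inverse-transpose on the unitary matrices and is a graph automorphism). Its centralizer in G is isomorphic to the projective conformal orthogonal group of the plus-type form Σ xᵢ yᵢ in dimension n over a field F₀ with q elements. (Dimensions n ≡ 2 (mod 4) are not covered.) -/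
theorem result {F : Type*} [Field F] [Fintype F] {q : ℕ} (hodd : Odd q) (hF : Fintype.card F = q ^ 2) {n m : ℕ} (hm : 2 ≤ m) (hnm : n = 2 * m) (h4 : 4 ∣ n) (F₀ : Type*) [Field F₀] [Fintype F₀] (hF₀ : Fintype.card F₀ = q) (σ : F ≃+* F) (hσ : ∀ a : F, σ a = a ^ q) (φ : MulAut (Cfsg.PSU n F q)) (hφ : Cfsg.IsFieldAutPSUOf σ φ) :
    Nonempty (↥(Cfsg.inndiagPSU n F q ⊓ Subgroup.centralizer {φ}) ≃* Cfsg.PGO F₀ (Cfsg.quadFormPlus m F₀)) := by
  have hn : 3 ≤ n := by omega
  obtain ⟨τ, j, H⟩ := CfsgLib.GQ27.exists_GQ hF hF₀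
  have hστ : σ = τ := by
    ext x
    rw [hσ, H.hτ]
  subst hστ
  have hφ' : φ = Cfsg.Agent.H22.phiU n F q σ := (Cfsg.Agent.H22.isFieldU_iff σ φ).1 hφ
  subst hφ'
  obtain ⟨e1⟩ := (CfsgLib.GQ27.GQ.cor_phi (q := q) (n := n) (τ := σ) (j := j)).cen H hn
  obtain ⟨h1, -⟩ := Cfsg.Agent.S2703.result (F := F₀) (by rw [hF₀]; exact hodd) hm hnm (CfsgLib.GP27.gam 1) ((CfsgLib.AutPSL27.isInvTr_iff _).2 (by
    rw [CfsgLib.GP27.gam_eq, map_one, map_one, one_mul]))
  obtain ⟨e2⟩ := h1 (by
    obtain ⟨r, rfl⟩ := h4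
    obtain ⟨s, hs⟩ := hodd
    have h5 : 4 * r * (Fintype.card F₀ - 1) / 4 = r * (2 * s) := by
      rw [hF₀, hs, Nat.add_sub_cancel, mul_assoc, Nat.mul_div_cancel_left _ (by norm_num)]
    rw [h5]
    exact ⟨r * s, by ring⟩)
  exact ⟨e1.trans e2⟩

end Cfsg.Agent.S2710
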