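import Cfsg.Statements.S2711
import Cfsg.Agent.LibH22AU10
import Cfsg.Agent.S2705

set_option autoImplicit false
open Cfsg

namespace Cfsg.Agent.S2711
open Cfsg.Agent.H22 CfsgLib.H9027 in
theorem aux {F : Type*} [Field F] [Fintype F] {p f q : ℕ} [Fact p.Prime] (hq : q = p ^ f) (hf : 1 ≤ f) (hF : Fintype.card F = q ^ 2) {n : ℕ} (hn : 3 ≤ n) (hs : ¬ (n = 3 ∧ q = 2))
    (x δ : MulAut (Cfsg.PSU n F q)) (hx : Cfsg.IsFieldAutClassPSU x) {r : ℕ} (hr : r.Prime) (hxr : orderOf x = r) (hδ : δ ∈ Cfsg.inndiagPSU n F q)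
    (h : orderOf (δ * x) = r) : Cfsg.IsConjUnder (Cfsg.inndiagPSU n F q) x (δ * x) := by
  rw [inndiagPSU_eq] at hδ ⊢
  obtain ⟨d, rfl⟩ := hδ
  have hdx : (rhoU n F q d * x) ^ r = 1 := by rw [← h]; exact pow_orderOf_eq_one _
  obtain ⟨-, α, σ, H, hst⟩ := Cfsg.Agent.S2705.aux hq hf hF hn hs x hx hr hxr
  obtain ⟨d', hd'⟩ := inndiagU_normal hF hn hs α d
  obtain ⟨k, hk⟩ := H.lang hn d' (by
      rw [← hd', ← hst]
      have : α * rhoU n F q d * α⁻¹ * (α * x * α⁻¹) = α * (rhoU n F q d * x) * α⁻¹ := by group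
      rw [this, conj_pow, hdx, mul_one, mul_inv_cancel])
  obtain ⟨k', hk'⟩ := inndiagU_normal hF hn hs α⁻¹ k
  refine ⟨rhoU n F q k', ⟨k', rfl⟩, ?_⟩
  rw [← hd', ← hst] at hk
  rw [← hk']
  have h3 : rhoU n F q d * x = α⁻¹ * (α * rhoU n F q d * α⁻¹ * (α * x * α⁻¹)) * α := by group
  rw [h3, hk]
  group

/-- Let T = PSU_n(q) be simple (n ≥ 3, (n,q) ≠ (3,2)), realised over the field F with q² elements, and let x be a field automorphism of T (conjugate to a standard field automorphism of odd order) of prime order r. Then an element y of the coset Inndiag(T)·x (y = δ x with δ in the image of PGU_n(q)) has order r if and only if y is conjugate to x by an element of Inndiag(T). (T has no graph-field automorphisms.) -/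
theorem result {F : Type*} [Field F] [Fintype F] {p f q : ℕ} [Fact p.Prime] (hq : q = p ^ f) (hf : 1 ≤ f) (hF : Fintype.card F = q ^ 2) {n : ℕ} (hn : 3 ≤ n) (hs : ¬ (n = 3 ∧ q = 2)) (x δ : MulAut (Cfsg.PSU n F q)) (hx : Cfsg.IsFieldAutClassPSU x) {r : ℕ} (hr : r.Prime) (hxr : orderOf x = r) (hδ : δ ∈ Cfsg.inndiagPSU n F q) :
    orderOf (δ * x) = r ↔ Cfsg.IsConjUnder (Cfsg.inndiagPSU n F q) x (δ * x) := by
  constructor
  · exact aux hq hf hF hn hs x δ hx hr hxr hδ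
  · rintro ⟨h, -, hh⟩
    rw [hh, ← hxr]
    exact (MulAut.conj h).orderOf_eq x

end Cfsg.Agent.S2711
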