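import Cfsg.Agent.LibAutPSp27g
-- Template for statement S2713 (row 2713; see /opt/grader/pristine/manifest.json for weights).
-- Copy to Cfsg/Agent/S2713.lean and replace the sorry. The statement below is byte-identical to the frozen
-- statement Cfsg.CfsgFrozen.S2713 (Cfsg/Statements/S2713.lean; the theorem Cfsg.ltd21_psp_field_prime_order_coset_conjugacy);
-- the grader kernel-checks Cfsg.Agent.S2713.result against that frozen type. Keep the theorem IN THIS FILE
-- (a `result` declared elsewhere and merely imported here is not credited); helpers may live anywhere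
-- under Cfsg/Agent/.
import Cfsg.Statements.S2713
-- import your own Cfsg.Agent.* helpers here

set_option autoImplicit false
open Cfsg

namespace Cfsg.Agent.S2713

open CfsgLib.AutPSp27 CfsgLib.Semi27 in
theorem aux {F : Type*} [Field F] [Fintype F] {p : ℕ} [Fact p.Prime] [CharP F p] {m : ℕ} (hm : 2 ≤ m)
    (x δ : MulAut (Cfsg.PSp m F)) (hx : Cfsg.IsFieldAutClassPSp x)
    {r : ℕ} (hr : r.Prime) (hxr : orderOf x = r) (hδ : δ ∈ Cfsg.inndiagPSp m F) (h : orderOf (δ * x) = r) :
    Cfsg.IsConjUnder (Cfsg.inndiagPSp m F) x (δ * x) := by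
  haveI : Nonempty (Fin m ⊕ Fin m) := ⟨Sum.inl ⟨0, by omega⟩⟩
  rw [inndiag_eq] at hδ ⊢
  obtain ⟨d, rfl⟩ := hδ
  have hdx : (rho m F d * x) ^ r = 1 := by rw [← h]; exact pow_orderOf_eq_one _
  obtain ⟨α, σ, hσ, hst⟩ := hx
  rw [isStd_iff] at hst
  have h1 : phi m σ ^ r = 1 := by
    rw [← hst, conj_pow, ← hxr, pow_orderOf_eq_one, mul_one, mul_inv_cancel]
  have hord : orderOf σ = r := by
    haveI : Fact r.Prime := ⟨hr⟩
    refine orderOf_eq_prime ?_ hσ
    rw [phi_pow] at h1
    exact phi_eq_one (p := p) (by omega : 1 ≤ m) h1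
  obtain ⟨d', hd'⟩ := inndiag_normal (p := p) hm α d
  obtain ⟨k, hk⟩ := lang_abs (ρ := rho m F) (φ := phi m σ) (fun g hg => gm_mem hg) (fun g => phi_mul_rho σ g)
    (rho_ker (p := p) (by omega)) hr.pos hord h1 (fun g l k hk => hform (by omega) g l k hk) d' (by
      rw [← hd', ← hst]
      have : α * rho m F d * α⁻¹ * (α * x * α⁻¹) = α * (rho m F d * x) * α⁻¹ := by group
      rw [this, conj_pow, hdx, mul_one, mul_inv_cancel])
  obtain ⟨k', hk'⟩ := inndiag_normal (p := p) hm α⁻¹ k
  refine ⟨rho m F k', ⟨k', rfl⟩, ?_⟩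
  rw [← hd', ← hst] at hk
  rw [← hk']
  have h3 : rho m F d * x = α⁻¹ * (α * rho m F d * α⁻¹ * (α * x * α⁻¹)) * α := by group
  rw [h3, hk]
  group


/-- Let T = PSp_{2m}(F) be simple over a finite field (m ≥ 2, (2m, |F|) ≠ (4, 2)) and let x be a field automorphism of T of prime order r. Then an element y of the coset Inndiag(T)·x (y = δ x with δ in the image of the projective conformal symplectic group) has order r if and only if y is conjugate to x by an element of Inndiag(T). -/
theorem result {F : Type*} [Field F] [Fintype F] {m : ℕ} (hm : 2 ≤ m) (hs : m = 2 → 3 ≤ Fintype.card F) (x δ : MulAut (Cfsg.PSp m F)) (hx : Cfsg.IsFieldAutClassPSp x) {r : ℕ} (hr : r.Prime) (hxr : orderOf x = r) (hδ : δ ∈ Cfsg.inndiagPSp m F) :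
    orderOf (δ * x) = r ↔ Cfsg.IsConjUnder (Cfsg.inndiagPSp m F) x (δ * x) := by
  obtain ⟨p, hp⟩ := CharP.exists F
  haveI : Fact p.Prime := ⟨CharP.char_is_prime F p⟩
  constructor
  · exact aux (p := p) hm x δ hx hr hxr hδ
  · rintro ⟨h, -, hh⟩
    rw [hh, ← hxr]
    exact (MulAut.conj h).orderOf_eq x

end Cfsg.Agent.S2713
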