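import Cfsg.Agent.LibAutPSL27l
import Cfsg.Agent.LibRhoOdd27b
-- Template for statement S2714 (row 2714; see /opt/grader/pristine/manifest.json for weights).
-- Copy to Cfsg/Agent/S2714.lean and replace the sorry. The statement below is byte-identical to the frozen
-- statement Cfsg.CfsgFrozen.S2714 (Cfsg/Statements/S2714.lean; the theorem Cfsg.ltd21_omega_odd_dim_field_automorphism_prime_order);
-- the grader kernel-checks Cfsg.Agent.S2714.result against that frozen type. Keep the theorem IN THIS FILE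
-- (a `result` declared elsewhere and merely imported here is not credited); helpers may live anywhere
-- under Cfsg/Agent/.
import Cfsg.Statements.S2714
-- import your own Cfsg.Agent.* helpers here

set_option autoImplicit false
open Cfsg

namespace Cfsg.Agent.S2714

open Cfsg.Agent.H22 CfsgLib.RhoO27 CfsgLib.AutO27 CfsgLib.Semi27 CfsgLib.H9027 CfsgLib.QForm27 CfsgLib.Lift27 in
theorem aux {F : Type*} [Field F] [Fintype F] {p f : ℕ} [Fact p.Prime] (hF : Fintype.card F = p ^ f) (hf : 1 ≤ f) (hodd : Odd (Fintype.card F)) {m : ℕ} (hm : 3 ≤ m)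
    (x : MulAut (Cfsg.POmega F ⇑(qOdd m F))) (hx : Cfsg.IsFieldAutClassPOmega ⇑(qOdd m F) x) {r : ℕ} (hr : r.Prime) (hxr : orderOf x = r)
    (F₀ : Type*) [Field F₀] [Fintype F₀] (hF₀ : Fintype.card F₀ = p ^ (f / r)) :
    r ∣ f ∧ Nonempty (↥(Cfsg.pgoAut F ⇑(qOdd m F) ⊓ Subgroup.centralizer {x}) ≃* ↥(Cfsg.pgoAut F₀ ⇑(qOdd m F₀))) ∧
      (Odd r → Cfsg.splitClassCount (Cfsg.pgoAut F ⇑(qOdd m F)) (Cfsg.Inn (Cfsg.POmega F ⇑(qOdd m F))) x = 1) ∧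
      (r = 2 → Cfsg.splitClassCount (Cfsg.pgoAut F ⇑(qOdd m F)) (Cfsg.Inn (Cfsg.POmega F ⇑(qOdd m F))) x = 2) := by
  have h2 : (2 : F) ≠ 0 := two_ne_zero_of_odd hodd
  have hF' : Nat.card F = p ^ f := by rw [Nat.card_eq_fintype_card, hF]
  obtain ⟨e, ff, u, hG⟩ := good_qOdd (F := F) hm h2
  obtain ⟨α, σ, hord, hst⟩ := field_class hG std_odd x hx hxr
  obtain ⟨hrf, hK⟩ := CfsgLib.AutPSL27.field_arith (F := F) hF' hr.pos σ hord
  have hfr : 0 < f / r := Nat.div_pos (Nat.le_of_dvd (by omega) hrf) hr.pos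
  have hp : Odd p := by
    rw [hF] at hodd
    exact Nat.Odd.of_mul_left (n := p ^ (f - 1)) (by
      have : p * p ^ (f - 1) = p ^ f := by rw [← pow_succ', Nat.sub_add_cancel hf]
      rw [this]; exact hodd)
  have h20 : (2 : F₀) ≠ 0 := two_ne_zero_of_odd (by rw [hF₀]; exact hp.pow)
  obtain ⟨e', f', u', hG'⟩ := good_qOdd (F := F₀) hm h20
  have hGn : ∀ β : MulAut (Cfsg.POmega F ⇑(qOdd m F)), ∀ g ∈ Cfsg.pgoAut F ⇑(qOdd m F), β * g * β⁻¹ ∈ Cfsg.pgoAut F ⇑(qOdd m F) := by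
    intro β g hg
    rw [sim_eq] at hg ⊢
    exact range_normal (GOs (qOdd m F)) le_rfl hG (fun x g hg => cjG_GOs x hg) β g hg
  have hT : ∀ β : MulAut (Cfsg.POmega F ⇑(qOdd m F)), ∀ g ∈ Cfsg.Inn (Cfsg.POmega F ⇑(qOdd m F)),
      β * g * β⁻¹ ∈ Cfsg.Inn (Cfsg.POmega F ⇑(qOdd m F)) := fun β g hg =>
    (Cfsg.innNormal (Cfsg.POmega F ⇑(qOdd m F))).conj_mem g hg β
  obtain ⟨e0⟩ := CfsgLib.AutPSL27.field_equiv (K := F₀) (L := CfsgLib.H9027.fixF σ) (by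
    rw [hK, Nat.card_eq_fintype_card, hF₀])
  have hsp : Cfsg.splitClassCount (Cfsg.pgoAut F ⇑(qOdd m F)) (Cfsg.Inn (Cfsg.POmega F ⇑(qOdd m F))) x =
      Cfsg.splitClassCount (rho (GOs (qOdd m F)) le_rfl).range (Cfsg.Inn (Cfsg.POmega F ⇑(qOdd m F))) (ph (std_odd σ)) := by
    rw [CfsgLib.Split27.splitCount_conj _ _ x α (hGn α) (fun g hg => by
      have := hGn α⁻¹ g hg
      rwa [inv_inv] at this) (hT α) (fun g hg => by
      have := hT α⁻¹ g hg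
      rwa [inv_inv] at this), hst, sim_eq]
  obtain ⟨s1, s2⟩ := split_odd hG h2 (by omega) hord
  refine ⟨hrf, ?_, fun h => by rw [hsp]; exact s1 h, fun h => by rw [hsp]; exact s2 h⟩
  obtain ⟨e1⟩ := CfsgLib.Split27.centr_conj (Cfsg.pgoAut F ⇑(qOdd m F)) x α (hGn α) (fun g hg => by
    have := hGn α⁻¹ g hg
    rwa [inv_inv] at this)
  rw [hst] at e1
  obtain ⟨w0, hw0⟩ := exists_norm_odd h20 (nondeg_qOdd m h20) (frOdd (F := F₀) (by omega : 1 ≤ m)) 1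
  obtain ⟨e2⟩ := CfsgLib.Semi27.centralizer_equiv (ρ := rho (GOs (qOdd m F)) le_rfl) (φ := ph (std_odd σ))
    (fun g hg => gm_GOs (std_odd σ) hg) (fun g => ph_mul_rho _ _ (std_odd σ) (fun g hg => gm_GOs (std_odd σ) hg) g)
    (rho_ker _ _ hG) (fun u => scal_mem u) e0 (Γ₀ := GOs (qOdd m F₀))
    (fun g => comap_GOs _ (qOdd_j _) ⟨w0, by rw [hw0]; exact one_ne_zero⟩ g)
  rw [← sim_eq] at e2
  obtain ⟨e3⟩ := range_equiv (GOs (qOdd m F₀)) le_rfl hG'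
  rw [← sim_eq] at e3
  exact ⟨(e1.trans e2).trans e3.symm⟩

theorem aux2 {F : Type*} [Field F] [Fintype F] {p f : ℕ} [Fact p.Prime] (hF : Fintype.card F = p ^ f) (hf : 1 ≤ f) (hodd : Odd (Fintype.card F)) {m : ℕ} (hm : 3 ≤ m)
    {r : ℕ} (hr : r.Prime)
    (F₀ : Type*) [Field F₀] [Fintype F₀] (hF₀ : Fintype.card F₀ = p ^ (f / r)) (q : (Unit ⊕ (Fin m ⊕ Fin m) → F) → F) (q₀ : (Unit ⊕ (Fin m ⊕ Fin m) → F₀) → F₀)
    (hq : q = ⇑(Cfsg.Agent.H22.qOdd m F)) (hq₀ : q₀ = ⇑(Cfsg.Agent.H22.qOdd m F₀))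
    (x : MulAut (Cfsg.POmega F q)) (hx : Cfsg.IsFieldAutClassPOmega q x) (hxr : orderOf x = r) :
    r ∣ f ∧ Nonempty (↥(Cfsg.pgoAut F q ⊓ Subgroup.centralizer {x}) ≃* ↥(Cfsg.pgoAut F₀ q₀)) ∧
      (Odd r → Cfsg.splitClassCount (Cfsg.pgoAut F q) (Cfsg.Inn (Cfsg.POmega F q)) x = 1) ∧
      (r = 2 → Cfsg.splitClassCount (Cfsg.pgoAut F q) (Cfsg.Inn (Cfsg.POmega F q)) x = 2) := by
  subst hq hq₀
  exact aux hF hf hodd hm x hx hr hxr F₀ hF₀


/-- Let T = Ω_{2m+1}(F) (m ≥ 3, |F| = p^f odd; realised as PΩ of the form x₀² + Σ xᵢ yᵢ), G = Inndiag(T) the image of the conformal orthogonal group in Aut(T), and x a field automorphism of T of prime order r. Then r divides f; C_G(x) is isomorphic to Inndiag(Ω_{2m+1}(F₀)) for a field F₀ with p^(f/r) elements; and the G-class of x is a single T-class when r is odd and the union of exactly two T-classes when r = 2. -/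
theorem result {F : Type*} [Field F] [Fintype F] {p f : ℕ} [Fact p.Prime] (hF : Fintype.card F = p ^ f) (hf : 1 ≤ f) (hodd : Odd (Fintype.card F)) {m : ℕ} (hm : 3 ≤ m) (x : MulAut (Cfsg.POmega F (Cfsg.quadFormOdd m F))) (hx : Cfsg.IsFieldAutClassPOmega (Cfsg.quadFormOdd m F) x) {r : ℕ} (hr : r.Prime) (hxr : orderOf x = r) (F₀ : Type*) [Field F₀] [Fintype F₀] (hF₀ : Fintype.card F₀ = p ^ (f / r)) :
    r ∣ f ∧ Nonempty (↥(Cfsg.inndiagPOmegaOdd m F ⊓ Subgroup.centralizer {x}) ≃* ↥(Cfsg.inndiagPOmegaOdd m F₀)) ∧ (Odd r → Cfsg.splitClassCount (Cfsg.inndiagPOmegaOdd m F) (Cfsg.Inn (Cfsg.POmega F (Cfsg.quadFormOdd m F))) x = 1) ∧ (r = 2 → Cfsg.splitClassCount (Cfsg.inndiagPOmegaOdd m F) (Cfsg.Inn (Cfsg.POmega F (Cfsg.quadFormOdd m F))) x = 2) := by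
  exact aux2 hF hf hodd hm hr F₀ hF₀ _ _ (Cfsg.Agent.H22.coe_qOdd m).symm (Cfsg.Agent.H22.coe_qOdd m).symm x hx hxr

end Cfsg.Agent.S2714
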