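import Cfsg.Agent.LibEps27e
-- Template for statement S2716 (row 2716; see /opt/grader/pristine/manifest.json for weights).
-- Copy to Cfsg/Agent/S2716.lean and replace the sorry. The statement below is byte-identical to the frozen
-- statement Cfsg.CfsgFrozen.S2716 (Cfsg/Statements/S2716.lean; the theorem Cfsg.ltd21_pomega_minus_field_automorphism_prime_order);
-- the grader kernel-checks Cfsg.Agent.S2716.result against that frozen type. Keep the theorem IN THIS FILE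
-- (a `result` declared elsewhere and merely imported here is not credited); helpers may live anywhere
-- under Cfsg/Agent/.
import Cfsg.Statements.S2716
-- import your own Cfsg.Agent.* helpers here

set_option autoImplicit false
open Cfsg

namespace Cfsg.Agent.S2716

universe u in
/-- a prime-order automorphism fixing an anisotropic binary form has odd order -/
theorem odd_order {F : Type u} [Field F] [Fintype F] {a b : F} (hab : ∀ z₁ z₂ : F, z₁ ^ 2 + a * z₁ * z₂ + b * z₂ ^ 2 = 0 → z₁ = 0 ∧ z₂ = 0)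
    {σ : F ≃+* F} (ha : σ a = a) (hb : σ b = b) {r : ℕ} (hr : r.Prime) (ho : orderOf σ = r) : Odd r := by
  rcases hr.eq_two_or_odd' with h | h
  · exfalso
    rw [h] at ho
    have h1 := CfsgLib.H9027.card_fixF σ
    rw [ho] at h1
    haveI := Fintype.ofFinite (CfsgLib.H9027.fixF σ)
    have h2 : Module.finrank (CfsgLib.H9027.fixF σ) F = 2 := by
      have h3 := Module.natCard_eq_pow_finrank (K := CfsgLib.H9027.fixF σ) (V := F)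
      rw [h1] at h3
      exact (Nat.pow_right_injective (Finite.one_lt_card) h3).symm
    obtain ⟨θ, hθ⟩ := CfsgLib.Even27.root_of_quad (F := CfsgLib.H9027.fixF σ) (K := F) h2 (a := ⟨a, ha⟩) (b := ⟨b, hb⟩) (by
      intro z₁ z₂ hz
      have h4 := hab z₁ z₂ (congrArg Subtype.val hz)
      exact ⟨Subtype.ext h4.1, Subtype.ext h4.2⟩)
    have hθ' : θ ^ 2 + a * θ + b = 0 := hθ
    exact one_ne_zero (hab θ 1 (by linear_combination hθ')).2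
  · exact h

universe u v in
open Cfsg.Agent.H22 CfsgLib.RhoO27 CfsgLib.AutO27 CfsgLib.Semi27 CfsgLib.H9027 CfsgLib.QForm27 CfsgLib.Lift27 CfsgLib.Eps27 CfsgLib.Even27 in
theorem aux {F : Type u} [Field F] [Fintype F] {p f : ℕ} [Fact p.Prime] (hF : Fintype.card F = p ^ f) (hf : 1 ≤ f)
    {m : ℕ} (hm : 3 ≤ m) (a b : F) (hab : ∀ z₁ z₂ : F, z₁ ^ 2 + a * z₁ * z₂ + b * z₂ ^ 2 = 0 → z₁ = 0 ∧ z₂ = 0)
    (q : ((Fin m ⊕ Fin m) ⊕ Fin 2 → F) → F) (hq : q = ⇑(qMinus m F a b))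
    (P : Subgroup (MulAut (Cfsg.POmega F q))) (hP : P = Cfsg.autSubgroupOf (fun β : Cfsg.POmega F q ≃* Cfsg.POmega F q => ∃ g : GL ((Fin m ⊕ Fin m) ⊕ Fin 2) F,
      g ∈ Cfsg.Geo.quadSimilarityGroup (F := F) q ∧ Cfsg.PreservesSingularClassesMinus m a b (g : Matrix ((Fin m ⊕ Fin m) ⊕ Fin 2) ((Fin m ⊕ Fin m) ⊕ Fin 2) F) ∧
        Cfsg.IsInducedBySemilinearPOmega q g (RingEquiv.refl F) β))
    (x : MulAut (Cfsg.POmega F q)) (a' b' : F) (q' : ((Fin m ⊕ Fin m) ⊕ Fin 2 → F) → F) (hq' : q' = ⇑(qMinus m F a' b'))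
    (ψ : Cfsg.POmega F q ≃* Cfsg.POmega F q') (σ : F ≃+* F) (hab' : ∀ z₁ z₂ : F, z₁ ^ 2 + a' * z₁ * z₂ + b' * z₂ ^ 2 = 0 → z₁ = 0 ∧ z₂ = 0)
    (ha' : σ a' = a') (hb' : σ b' = b') (hx : Cfsg.IsFieldAutPOmegaOf q' σ ((ψ.symm.trans x).trans ψ)) {r : ℕ} (hr : r.Prime) (hxr : orderOf x = r)
    (F₀ : Type v) [Field F₀] [Fintype F₀] (hF₀ : Fintype.card F₀ = p ^ (f / r)) :
    Odd r ∧ r ∣ f ∧ (∃ a₀ b₀ : F₀, (∀ z₁ z₂ : F₀, z₁ ^ 2 + a₀ * z₁ * z₂ + b₀ * z₂ ^ 2 = 0 → z₁ = 0 ∧ z₂ = 0) ∧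
      ∀ (q₀ : ((Fin m ⊕ Fin m) ⊕ Fin 2 → F₀) → F₀) (_ : q₀ = ⇑(qMinus m F₀ a₀ b₀)) (P₀ : Subgroup (MulAut (Cfsg.POmega F₀ q₀)))
        (_ : P₀ = Cfsg.autSubgroupOf (fun β : Cfsg.POmega F₀ q₀ ≃* Cfsg.POmega F₀ q₀ => ∃ g : GL ((Fin m ⊕ Fin m) ⊕ Fin 2) F₀,
      g ∈ Cfsg.Geo.quadSimilarityGroup (F := F₀) q₀ ∧ Cfsg.PreservesSingularClassesMinus m a₀ b₀ (g : Matrix ((Fin m ⊕ Fin m) ⊕ Fin 2) ((Fin m ⊕ Fin m) ⊕ Fin 2) F₀) ∧
        Cfsg.IsInducedBySemilinearPOmega q₀ g (RingEquiv.refl F₀) β)), Nonempty (↥(P ⊓ Subgroup.centralizer {x}) ≃* ↥P₀)) ∧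
      Cfsg.splitClassCount P (Cfsg.Inn (Cfsg.POmega F q)) x = 1 := by
  subst hq hq'
  have ha := ea_qMinus (m := m) (by omega) (disc_ne_zero a b hab)
  have hb := ea_qMinus (m := m) (by omega) (disc_ne_zero a' b' hab')
  rw [ha.range_Gam _ (fun g => psc_minus (by omega) hab ha g)] at hP
  subst hP
  obtain ⟨e, ff, u, hG⟩ := good_qMinus hm a' b' hab'
  have hst := std_mem (minus_σ (m := m) ha' hb')
  have hxe : MulAut.congr ψ x = ph hst := (isStd_iff hst _).1 hx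
  have hord : orderOf σ = r := by
    rw [← ph_order hG hst, ← hxe, ← hxr]
    exact (MulAut.congr ψ).orderOf_eq x
  have hodd := odd_order hab' ha' hb' hr hord
  have hF' : Nat.card F = p ^ f := by rw [Nat.card_eq_fintype_card, hF]
  obtain ⟨hrf, hK⟩ := CfsgLib.AutPSL27.field_arith (F := F) hF' hr.pos σ hord
  haveI := Fintype.ofFinite (fixF σ)
  obtain ⟨e0⟩ := CfsgLib.AutPSL27.field_equiv (K := F₀) (L := CfsgLib.H9027.fixF σ) (by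
    rw [hK, Nat.card_eq_fintype_card, hF₀])
  obtain ⟨j, hj⟩ : ∃ j : F₀ →+* F, j = (fixF σ).subtype.comp (e0 : F₀ →+* fixF σ) := ⟨_, rfl⟩
  obtain ⟨a₀, ha₀⟩ : ∃ a₀ : F₀, j a₀ = a' := ⟨e0.symm ⟨a', ha'⟩, by rw [hj]; show ((e0 (e0.symm ⟨a', ha'⟩) : fixF σ) : F) = a'; rw [RingEquiv.apply_symm_apply]⟩
  obtain ⟨b₀, hb₀⟩ : ∃ b₀ : F₀, j b₀ = b' := ⟨e0.symm ⟨b', hb'⟩, by rw [hj]; show ((e0 (e0.symm ⟨b', hb'⟩) : fixF σ) : F) = b'; rw [RingEquiv.apply_symm_apply]⟩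
  have hab₀ : ∀ z₁ z₂ : F₀, z₁ ^ 2 + a₀ * z₁ * z₂ + b₀ * z₂ ^ 2 = 0 → z₁ = 0 ∧ z₂ = 0 := by
    intro z₁ z₂ hz
    have h1 := congrArg j hz
    rw [map_add, map_add, map_pow, map_mul, map_mul, map_mul, map_pow, map_zero, ha₀, hb₀] at h1
    have h2 := hab' _ _ h1
    exact ⟨(map_eq_zero_iff j j.injective).1 h2.1, (map_eq_zero_iff j j.injective).1 h2.2⟩
  refine ⟨hodd, hrf, ⟨a₀, b₀, hab₀, ?_⟩, ?_⟩
  · rintro q₀ rfl P₀ hP₀
    have hc := ea_qMinus (m := m) (by omega) (disc_ne_zero a₀ b₀ hab₀)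
    rw [hc.range_Gam _ (fun g => psc_minus (by omega) hab₀ hc g)] at hP₀
    subst hP₀
    obtain ⟨e', f', u', hG₀⟩ := gd_qMinus (m := m) hm (disc_ne_zero a₀ b₀ hab₀)
    obtain ⟨e1⟩ := centr_congr (MulAut.congr ψ) _ _ (minus_inndiag hm hab hab' ha hb ψ) x
    rw [hxe] at e1
    have hQj : ∀ v, qMinus m F a' b' (j ∘ v) = j (qMinus m F₀ a₀ b₀ v) := by
      intro v
      rw [← ha₀, ← hb₀]
      exact qMinus_j j a₀ b₀ v
    obtain ⟨e2⟩ := CfsgLib.Semi27.centralizer_equiv (ρ := rho hb.Gam hb.Gam_le) (φ := ph hst)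
      (fun g hg => hb.gm_Gam hst hg) (fun g => ph_mul_rho _ _ hst (fun g hg => hb.gm_Gam hst hg) g)
      (rho_ker' _ _ hG.gd) (fun u => hb.scal_Gam u) e0 (Γ₀ := hc.Gam) (by
        intro g
        rw [← hj]
        constructor
        · intro hg
          obtain ⟨h1, h2⟩ := hb.mem_Gam.1 hg
          have h3 : g ∈ GOs (qMinus m F₀ a₀ b₀) := (comap_GOs _ hQj hc.hx g).1 h1
          refine hc.mem_Gam.2 ⟨h3, ?_⟩
          rw [← hc.ep_map hb j hQj ⟨g, h3⟩]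
          exact h2
        · intro hg
          obtain ⟨h1, h2⟩ := hc.mem_Gam.1 hg
          refine hb.mem_Gam.2 ⟨map_GOs j hQj ⟨g, h1⟩, ?_⟩
          rw [hc.ep_map hb j hQj ⟨g, h1⟩]
          exact h2)
    obtain ⟨e3⟩ := range_equiv' hc.Gam hc.Gam_le hG₀
    exact ⟨(e1.trans e2).trans e3.symm⟩
  · rw [splitCount_congr (MulAut.congr ψ) _ _ (rho hb.Gam hb.Gam_le).range (Cfsg.Inn (Cfsg.POmega F ⇑(qMinus m F a' b')))
      (minus_inndiag hm hab hab' ha hb ψ) (congr_inn ψ), hxe]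
    exact odd_split hb (ea_qMinus (m := m) (a := (⟨a', ha'⟩ : fixF σ)) (b := ⟨b', hb'⟩) (by omega) (disc_ne_zero _ _ (by
      intro z₁ z₂ hz
      have h4 := hab' z₁ z₂ (congrArg Subtype.val hz)
      exact ⟨Subtype.ext h4.1, Subtype.ext h4.2⟩))) hG.gd (fun v => qMinus_j (fixF σ).subtype ⟨a', ha'⟩ ⟨b', hb'⟩ v) (minus_σ ha' hb') hord hodd


/-- Let T = PΩ⁻_{2m+2}(F) (m ≥ 3, |F| = p^f; the form Σ xᵢ yᵢ + z₁² + a z₁ z₂ + b z₂² with anisotropic binary part), G = Inndiag(T), and x a field automorphism of T of prime order r. Then r is odd and divides f; C_G(x) is isomorphic to Inndiag(PΩ⁻_{2m+2}(F₀)) for a field F₀ with p^(f/r) elements and some anisotropic binary part over F₀; and the G-class of x is a single T-class. -/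
theorem result {F : Type*} [Field F] [Fintype F] {p f : ℕ} [Fact p.Prime] (hF : Fintype.card F = p ^ f) (hf : 1 ≤ f) {m : ℕ} (hm : 3 ≤ m) (a b : F) (hab : (∀ z₁ z₂ : F, z₁ ^ 2 + a * z₁ * z₂ + b * z₂ ^ 2 = 0 → z₁ = 0 ∧ z₂ = 0)) (x : MulAut (Cfsg.POmega F (Cfsg.quadFormMinus m F a b))) (hx : Cfsg.IsFieldAutClassPOmegaMinus m x) {r : ℕ} (hr : r.Prime) (hxr : orderOf x = r) (F₀ : Type*) [Field F₀] [Fintype F₀] (hF₀ : Fintype.card F₀ = p ^ (f / r)) :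
    Odd r ∧ r ∣ f ∧ (∃ a₀ b₀ : F₀, (∀ z₁ z₂ : F₀, z₁ ^ 2 + a₀ * z₁ * z₂ + b₀ * z₂ ^ 2 = 0 → z₁ = 0 ∧ z₂ = 0) ∧ Nonempty (↥(Cfsg.inndiagPOmegaMinus m F a b ⊓ Subgroup.centralizer {x}) ≃* ↥(Cfsg.inndiagPOmegaMinus m F₀ a₀ b₀))) ∧ Cfsg.splitClassCount (Cfsg.inndiagPOmegaMinus m F a b) (Cfsg.Inn (Cfsg.POmega F (Cfsg.quadFormMinus m F a b))) x = 1 := by
  obtain ⟨a', b', ψ, σ, hab', -, ha', hb', hst⟩ := hx
  obtain ⟨h1, h2, ⟨a₀, b₀, h3, h4⟩, h5⟩ := aux hF hf hm a b hab _ (Cfsg.Agent.H22.coe_qMinus m a b).symm _ rfl x a' b' _ (Cfsg.Agent.H22.coe_qMinus m a' b').symm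
    ψ σ hab' ha' hb' hst hr hxr F₀ hF₀
  exact ⟨h1, h2, ⟨a₀, b₀, h3, h4 _ (Cfsg.Agent.H22.coe_qMinus m a₀ b₀).symm _ rfl⟩, h5⟩

end Cfsg.Agent.S2716
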