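import Cfsg.Agent.LibEps27j
-- Template for statement S2717 (row 2717; see /opt/grader/pristine/manifest.json for weights).
-- Copy to Cfsg/Agent/S2717.lean and replace the sorry. The statement below is byte-identical to the frozen
-- statement Cfsg.CfsgFrozen.S2717 (Cfsg/Statements/S2717.lean; the theorem Cfsg.ltd21_pomega_plus_involutory_graph_field_automorphism);
-- the grader kernel-checks Cfsg.Agent.S2717.result against that frozen type. Keep the theorem IN THIS FILE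
-- (a `result` declared elsewhere and merely imported here is not credited); helpers may live anywhere
-- under Cfsg/Agent/.
import Cfsg.Statements.S2717
-- import your own Cfsg.Agent.* helpers here

set_option autoImplicit false
open Cfsg

namespace Cfsg.Agent.S2717

universe u v in
set_option maxHeartbeats 1000000 in
open Cfsg.Agent.H22 CfsgLib.AutO27 CfsgLib.RhoO27 CfsgLib.Semi27 CfsgLib.H9027 CfsgLib.QForm27 CfsgLib.Lift27 CfsgLib.Eps27 CfsgLib.Even27 in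
theorem aux {F : Type u} [Field F] [Fintype F] {p f : ℕ} [Fact p.Prime] (hF : Fintype.card F = p ^ f) (hf : 1 ≤ f) {m : ℕ} (hm : 4 ≤ m)
    (q : (Fin (m + 1) ⊕ Fin (m + 1) → F) → F) (hq : q = ⇑(qPlus (m + 1) F))
    (P : Subgroup (MulAut (Cfsg.POmega F q))) (hP : P = Cfsg.autSubgroupOf (fun β : Cfsg.POmega F q ≃* Cfsg.POmega F q => ∃ g : GL (Fin (m + 1) ⊕ Fin (m + 1)) F,
      g ∈ Cfsg.Geo.quadSimilarityGroup (F := F) q ∧ Cfsg.PreservesSingularClasses q (g : Matrix (Fin (m + 1) ⊕ Fin (m + 1)) (Fin (m + 1) ⊕ Fin (m + 1)) F) ∧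
        Cfsg.IsInducedBySemilinearPOmega q g (RingEquiv.refl F) β))
    (GF : MulAut (Cfsg.POmega F q) → Prop)
    (hGF : ∀ x, GF x → (∃ (α γ φ : MulAut (Cfsg.POmega F q)) (σ : F ≃+* F) (v : Fin (m + 1) ⊕ Fin (m + 1) → F) (r : GL (Fin (m + 1) ⊕ Fin (m + 1)) F),
        σ ≠ RingEquiv.refl F ∧ q v ≠ 0 ∧ (∀ i, σ (v i) = v i) ∧
        (r : Matrix (Fin (m + 1) ⊕ Fin (m + 1)) (Fin (m + 1) ⊕ Fin (m + 1)) F) = Cfsg.reflectionMatrix q v ∧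
        Cfsg.IsInducedBySemilinearPOmega q r (RingEquiv.refl F) γ ∧
        Cfsg.IsFieldAutPOmegaOf q σ φ ∧ α * x * α⁻¹ = γ * φ))
    (x : MulAut (Cfsg.POmega F q)) (hx : GF x) (hx2 : orderOf x = 2) (F₀ : Type v) [Field F₀] [Fintype F₀] (hF₀ : Fintype.card F₀ = p ^ (f / 2)) :
    Even f ∧ (∀ y : MulAut (Cfsg.POmega F q), GF y → orderOf y = 2 → Cfsg.IsConjUnder P x y) ∧
    (∃ a₀ b₀ : F₀, (∀ z₁ z₂ : F₀, z₁ ^ 2 + a₀ * z₁ * z₂ + b₀ * z₂ ^ 2 = 0 → z₁ = 0 ∧ z₂ = 0) ∧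
      ∀ (q₀ : ((Fin m ⊕ Fin m) ⊕ Fin 2 → F₀) → F₀) (_ : q₀ = ⇑(qMinus m F₀ a₀ b₀)) (P₀ : Subgroup (MulAut (Cfsg.POmega F₀ q₀)))
        (_ : P₀ = Cfsg.autSubgroupOf (fun β : Cfsg.POmega F₀ q₀ ≃* Cfsg.POmega F₀ q₀ => ∃ g : GL ((Fin m ⊕ Fin m) ⊕ Fin 2) F₀,
      g ∈ Cfsg.Geo.quadSimilarityGroup (F := F₀) q₀ ∧ Cfsg.PreservesSingularClassesMinus m a₀ b₀ (g : Matrix ((Fin m ⊕ Fin m) ⊕ Fin 2) ((Fin m ⊕ Fin m) ⊕ Fin 2) F₀) ∧
        Cfsg.IsInducedBySemilinearPOmega q₀ g (RingEquiv.refl F₀) β)), Nonempty (↥(P ⊓ Subgroup.centralizer {x}) ≃* ↥P₀)) ∧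
    (p = 2 → Cfsg.splitClassCount P (Cfsg.Inn (Cfsg.POmega F q)) x = 1) ∧
    ((p ≠ 2 ∧ Odd (m + 1) ∧ p ^ (f / 2) % 4 = 1) → Cfsg.splitClassCount P (Cfsg.Inn (Cfsg.POmega F q)) x = 4) ∧
    ((p ≠ 2 ∧ ¬ (Odd (m + 1) ∧ p ^ (f / 2) % 4 = 1)) → Cfsg.splitClassCount P (Cfsg.Inn (Cfsg.POmega F q)) x = 2) := by
  subst hq
  have ha := ea_qPlus (F := F) (m := m + 1) (by omega)
  rw [ha.range_Gam _ (fun g => psc_plus ha g)] at hP
  subst hP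
  obtain ⟨e, ff, u, hG⟩ := gd_qPlus (F := F) (m := m + 1) (by omega)
  have hpc : ∀ y, GF y → orderOf y = 2 → ∃ X : SP (qPlus (m + 1) F), y = CfsgLib.RhoO27.R (qPlus (m + 1) F) X ∧ orderOf X.1.right = 2 ∧ EP ha X = -1 := by
    intro y hy hy2
    obtain ⟨X, h1, h2, h3⟩ := plus_class hm ha y (Or.inr (hGF y hy)) Nat.prime_two hy2
    exact ⟨X, h1, h2, h3 (hGF y hy)⟩
  obtain ⟨X, hxX, ho, hEX⟩ := hpc x hx hx2
  obtain ⟨⟨⟨g, σ⟩, hX⟩, rfl⟩ : ∃ X', X' = X := ⟨X, rfl⟩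
  have hord : orderOf σ = 2 := ho
  have hgr : CfsgLib.RhoO27.R (qPlus (m + 1) F) ⟨_, hX⟩ ^ 2 = 1 := by rw [← hxX, ← hx2, pow_orderOf_eq_one]
  have hF' : Nat.card F = p ^ f := by rw [Nat.card_eq_fintype_card, hF]
  obtain ⟨hrf, hK⟩ := CfsgLib.AutPSL27.field_arith (F := F) hF' (by norm_num) σ hord
  haveI := Fintype.ofFinite (fixF σ)
  have hK' : Fintype.card (fixF σ) = p ^ (f / 2) := by rw [← Nat.card_eq_fintype_card, hK]
  obtain ⟨e0⟩ := CfsgLib.AutPSL27.field_equiv (K := F₀) (L := CfsgLib.H9027.fixF σ) (by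
    rw [hK, Nat.card_eq_fintype_card, hF₀])
  obtain ⟨j, hj⟩ : ∃ j : F₀ →+* F, j = (fixF σ).subtype.comp (e0 : F₀ →+* fixF σ) := ⟨_, rfl⟩
  obtain ⟨a₀, b₀, hab₀⟩ := exists_aniso F₀
  obtain ⟨a, hae⟩ : ∃ a : fixF σ, a = e0 a₀ := ⟨_, rfl⟩
  obtain ⟨b, hbe⟩ : ∃ b : fixF σ, b = e0 b₀ := ⟨_, rfl⟩
  have hja : j a₀ = (a : F) := by rw [hj, hae]; rfl
  have hjb : j b₀ = (b : F) := by rw [hj, hbe]; rfl
  have hab : ∀ z₁ z₂ : fixF σ, z₁ ^ 2 + a * z₁ * z₂ + b * z₂ ^ 2 = 0 → z₁ = 0 ∧ z₂ = 0 := by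
    intro z₁ z₂ hz
    have h1 := congrArg e0.symm hz
    rw [map_add, map_add, map_pow, map_mul, map_mul, map_mul, map_pow, map_zero, hae, hbe, RingEquiv.symm_apply_apply, RingEquiv.symm_apply_apply] at h1
    have h2 := hab₀ _ _ h1
    exact ⟨(map_eq_zero_iff e0.symm e0.symm.injective).1 h2.1, (map_eq_zero_iff e0.symm e0.symm.injective).1 h2.2⟩
  have hab' : ∀ z₁ z₂ : F, σ z₁ = z₁ → σ z₂ = z₂ → z₁ ^ 2 + (a : F) * z₁ * z₂ + (b : F) * z₂ ^ 2 = 0 → z₁ = 0 ∧ z₂ = 0 := by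
    intro z₁ z₂ h1 h2 hz
    have h3 := hab ⟨z₁, h1⟩ ⟨z₂, h2⟩ (Subtype.ext hz)
    exact ⟨congrArg Subtype.val h3.1, congrArg Subtype.val h3.2⟩
  have hb := ea_qMinus (m := m) (by omega) (disc_ne a.2 b.2 hab')
  obtain ⟨t, ht⟩ : ∃ t : Tr (qPlus (m + 1) F) (qMinus m F a b), Adp t σ g := by
    rcases plus_adp (by omega) Nat.prime_two hord hX hgr with ⟨t, ht⟩ | ⟨-, hall⟩
    · exfalso
      have h1 := ep_of_plus ha (g := ⟨g, sp_left ⟨_, hX⟩⟩) t ht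
      have h2 : EP ha ⟨_, hX⟩ = ha.ep ⟨g, sp_left ⟨_, hX⟩⟩ := rfl
      rw [h2, h1] at hEX
      exact absurd hEX (by decide)
    · exact hall a b a.2 b.2 hab'
  have hst := std_mem (minus_σ (m := m) a.2 b.2)
  have hxe : x = MulAut.congr t.PO (ph hst) := by rw [hxX]; exact t.adp_R hG ht hst hX
  have hcnt : Cfsg.splitClassCount (rho ha.Gam ha.Gam_le).range (Cfsg.Inn (Cfsg.POmega F ⇑(qPlus (m + 1) F))) x =
      Cfsg.splitClassCount (rho hb.Gam hb.Gam_le).range (Cfsg.Inn (Cfsg.POmega F ⇑(qMinus m F a b))) (ph hst) := by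
    rw [hxe, splitCount_congr (MulAut.congr t.PO) (rho hb.Gam hb.Gam_le).range (Cfsg.Inn (Cfsg.POmega F ⇑(qMinus m F a b))) _ _
      (t.map_range ha hb) (congr_inn t.PO)]
  refine ⟨even_iff_two_dvd.2 hrf, ?_, ⟨a₀, b₀, hab₀, ?_⟩, ?_, ?_, ?_⟩
  · intro y hy hy2
    obtain ⟨Y, hyY, hoY, hEY⟩ := hpc y hy hy2
    obtain ⟨⟨⟨g', σ'⟩, hY⟩, rfl⟩ : ∃ Y', Y' = Y := ⟨Y, rfl⟩
    have hord' : orderOf σ' = 2 := hoY
    have hσ : σ' = σ := by
      have h1 : ∀ τ : F ≃+* F, orderOf τ = 2 → τ ≠ 1 ∧ τ ^ 2 = 1 := by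
        intro τ hτ
        refine ⟨?_, by rw [← hτ, pow_orderOf_eq_one]⟩
        rintro rfl
        rw [orderOf_one] at hτ
        exact absurd hτ (by norm_num)
      exact CfsgLib.AutPSL27.gal_two_unique (h1 _ hord').1 (h1 _ hord').2 (h1 _ hord).1 (h1 _ hord).2
    subst hσ
    rw [hxX, hyY]
    exact plus_conj (by omega) ha Nat.prime_two hord hX hY hgr (by rw [← hyY, ← hy2, pow_orderOf_eq_one]) (by rw [hEX, hEY])
  · rintro q₀ rfl P₀ hP₀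
    have hc := ea_qMinus (m := m) (by omega) (disc_ne_zero a₀ b₀ hab₀)
    rw [hc.range_Gam _ (fun g => psc_minus (by omega) hab₀ hc g)] at hP₀
    subst hP₀
    obtain ⟨e', f', u', hG₀⟩ := gd_qMinus (m := m) (by omega) (disc_ne_zero a₀ b₀ hab₀)
    obtain ⟨e1', f1', u1', hG₁⟩ := gd_qMinus (F := F) (m := m) (by omega) (disc_ne a.2 b.2 hab')
    obtain ⟨e1⟩ := centr_congr (MulAut.congr t.PO) _ _ (t.map_range ha hb) (ph hst)
    rw [← hxe] at e1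
    have hQj : ∀ v, qMinus m F a b (j ∘ v) = j (qMinus m F₀ a₀ b₀ v) := by
      intro v
      rw [← hja, ← hjb]
      exact qMinus_j j a₀ b₀ v
    obtain ⟨e2⟩ := CfsgLib.Semi27.centralizer_equiv (ρ := rho hb.Gam hb.Gam_le) (φ := ph hst)
      (fun g hg => hb.gm_Gam hst hg) (fun g => ph_mul_rho _ _ hst (fun g hg => hb.gm_Gam hst hg) g)
      (rho_ker' _ _ hG₁) (fun u => hb.scal_Gam u) e0 (Γ₀ := hc.Gam) (by
        intro g
        rw [← hj]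
        constructor
        · intro hg
          obtain ⟨h1, h2⟩ := hb.mem_Gam.1 hg
          have h3 : g ∈ GOs (qMinus m F₀ a₀ b₀) := (comap_GOs _ hQj hc.hx g).1 h1
          refine hc.mem_Gam.2 ⟨h3, ?_⟩
          rw [← hc.ep_map hb j hQj ⟨g, h3⟩]
          exact h2
        · intro hg
          obtain ⟨h1, h2⟩ := hc.mem_Gam.1 hg
          refine hb.mem_Gam.2 ⟨map_GOs j hQj ⟨g, h1⟩, ?_⟩
          rw [hc.ep_map hb j hQj ⟨g, h1⟩]
          exact h2)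
    obtain ⟨e3⟩ := range_equiv' hc.Gam hc.Gam_le hG₀
    exact ⟨(e1.symm.trans e2).trans e3.symm⟩
  · intro hp
    rw [hcnt]
    obtain ⟨e1', f1', u1', hG₁⟩ := gd_qMinus (F := F) (m := m) (by omega) (disc_ne a.2 b.2 hab')
    have h2 : (2 : F) = 0 := by
      subst hp
      haveI : CharP F 2 := charP_of_card_eq_prime_pow hF
      exact_mod_cast CharP.cast_eq_zero F 2
    exact two_count hb hG₁ h2 _
  · rintro ⟨hp, hm1, hq4⟩
    have h2 : (2 : F) ≠ 0 := by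
      haveI : CharP F p := charP_of_card_eq_prime_pow hF
      intro h
      apply hp
      have h3 : ((2 : ℕ) : F) = 0 := by exact_mod_cast h
      rw [CharP.cast_eq_zero_iff F p] at h3
      exact (Nat.prime_dvd_prime_iff_eq (Fact.out) Nat.prime_two).1 h3
    rw [hcnt, gf_count (by omega) h2 hord hab hb hst, if_pos ⟨hm1, by rw [hK', hq4]; norm_num⟩]
  · rintro ⟨hp, hnm⟩
    have h2 : (2 : F) ≠ 0 := by
      haveI : CharP F p := charP_of_card_eq_prime_pow hF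
      intro h
      apply hp
      have h3 : ((2 : ℕ) : F) = 0 := by exact_mod_cast h
      rw [CharP.cast_eq_zero_iff F p] at h3
      exact (Nat.prime_dvd_prime_iff_eq (Fact.out) Nat.prime_two).1 h3
    rw [hcnt, gf_count (by omega) h2 hord hab hb hst, if_neg]
    rintro ⟨hm1, h4⟩
    apply hnm
    refine ⟨hm1, ?_⟩
    rw [hK'] at h4
    have hpo : Odd (p ^ (f / 2)) := ((Fact.out : p.Prime).odd_of_ne_two hp).pow
    obtain ⟨k, hk⟩ := hpo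
    omega


/-- Let T = PΩ⁺_{2m}(F) with m ≥ 5 (dimension 2m ≠ 8) and |F| = p^f, G = Inndiag(T), and x an involutory graph-field automorphism of T. Then f is even; any two involutory graph-field automorphisms of T are G-conjugate; C_G(x) is isomorphic to Inndiag(PΩ⁻_{2m}(F₀)) for a field F₀ with p^(f/2) elements (some anisotropic binary part over F₀); and the G-class of x is the union of exactly c T-classes with c = 1 if p = 2, c = 4 if p is odd, m is odd and p^(f/2) ≡ 1 (mod 4), and c = 2 otherwise. -/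
theorem result {F : Type*} [Field F] [Fintype F] {p f : ℕ} [Fact p.Prime] (hF : Fintype.card F = p ^ f) (hf : 1 ≤ f) {m : ℕ} (hm : 5 ≤ m) (x : MulAut (Cfsg.POmega F (Cfsg.quadFormPlus m F))) (hx : Cfsg.IsGraphFieldAutClassPOmegaPlus m x) (hx2 : orderOf x = 2) (F₀ : Type*) [Field F₀] [Fintype F₀] (hF₀ : Fintype.card F₀ = p ^ (f / 2)) :
    Even f ∧ (∀ y : MulAut (Cfsg.POmega F (Cfsg.quadFormPlus m F)), Cfsg.IsGraphFieldAutClassPOmegaPlus m y → orderOf y = 2 → Cfsg.IsConjUnder (Cfsg.inndiagPOmegaPlus m F) x y) ∧ (∃ a₀ b₀ : F₀, (∀ z₁ z₂ : F₀, z₁ ^ 2 + a₀ * z₁ * z₂ + b₀ * z₂ ^ 2 = 0 → z₁ = 0 ∧ z₂ = 0) ∧ Nonempty (↥(Cfsg.inndiagPOmegaPlus m F ⊓ Subgroup.centralizer {x}) ≃* ↥(Cfsg.inndiagPOmegaMinus (m - 1) F₀ a₀ b₀))) ∧ (p = 2 → Cfsg.splitClassCount (Cfsg.inndiagPOmegaPlus m F) (Cfsg.Inn (Cfsg.POmega F (Cfsg.quadFormPlus m F))) x = 1) ∧ ((p ≠ 2 ∧ Odd m ∧ p ^ (f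 / 2) % 4 = 1) → Cfsg.splitClassCount (Cfsg.inndiagPOmegaPlus m F) (Cfsg.Inn (Cfsg.POmega F (Cfsg.quadFormPlus m F))) x = 4) ∧ ((p ≠ 2 ∧ ¬ (Odd m ∧ p ^ (f / 2) % 4 = 1)) → Cfsg.splitClassCount (Cfsg.inndiagPOmegaPlus m F) (Cfsg.Inn (Cfsg.POmega F (Cfsg.quadFormPlus m F))) x = 2) := by
  obtain ⟨m, rfl⟩ : ∃ k, m = k + 1 := ⟨m - 1, by omega⟩
  obtain ⟨h1, h2, ⟨a₀, b₀, h3, h4⟩, h5⟩ := aux hF hf (by omega) _ (Cfsg.Agent.H22.coe_qPlus (m + 1)).symm _ rfl _ (fun _ h => h) x hx hx2 F₀ hF₀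
  exact ⟨h1, h2, ⟨a₀, b₀, h3, h4 _ (Cfsg.Agent.H22.coe_qMinus m a₀ b₀).symm _ rfl⟩, h5⟩

end Cfsg.Agent.S2717
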