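import Cfsg.Agent.LibGI27d
-- Template for statement S2718 (row 2718; see /opt/grader/pristine/manifest.json for weights).
-- Copy to Cfsg/Agent/S2718.lean and replace the sorry. The statement below is byte-identical to the frozen
-- statement Cfsg.CfsgFrozen.S2718 (Cfsg/Statements/S2718.lean; the theorem Cfsg.ltd21_pomega_plus_involutory_graph_automorphism_splitting);
-- the grader kernel-checks Cfsg.Agent.S2718.result against that frozen type. Keep the theorem IN THIS FILE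
-- (a `result` declared elsewhere and merely imported here is not credited); helpers may live anywhere
-- under Cfsg/Agent/.
import Cfsg.Statements.S2718
-- import your own Cfsg.Agent.* helpers here

set_option autoImplicit false
open Cfsg

namespace Cfsg.Agent.S2718

universe u in
set_option maxHeartbeats 1000000 in
open CfsgLib.AutO27 hiding R in
open Cfsg.Agent.H22 CfsgLib.RhoO27 CfsgLib.Semi27 CfsgLib.H9027 CfsgLib.QForm27 CfsgLib.Lift27 CfsgLib.Eps27 CfsgLib.Even27 CfsgLib.GI27 in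
theorem aux {F : Type u} [Field F] [Fintype F] (hodd : Odd (Fintype.card F)) {m : ℕ} (hm : 4 ≤ m)
    (q : (Fin m ⊕ Fin m → F) → F) (hq : q = ⇑(qPlus m F))
    (P : Subgroup (MulAut (Cfsg.POmega F q))) (hP : P = Cfsg.autSubgroupOf (fun β : Cfsg.POmega F q ≃* Cfsg.POmega F q => ∃ g : GL (Fin m ⊕ Fin m) F,
      g ∈ Cfsg.Geo.quadSimilarityGroup (F := F) q ∧ Cfsg.PreservesSingularClasses q (g : Matrix (Fin m ⊕ Fin m) (Fin m ⊕ Fin m) F) ∧
        Cfsg.IsInducedBySemilinearPOmega q g (RingEquiv.refl F) β))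
    (γ : MulAut (Cfsg.POmega F q)) (hγ : ∃ g : GL (Fin m ⊕ Fin m) F, g ∈ Cfsg.Geo.quadSimilarityGroup (F := F) q ∧
      ¬ Cfsg.PreservesSingularClasses q (g : Matrix (Fin m ⊕ Fin m) (Fin m ⊕ Fin m) F) ∧
      Cfsg.IsInducedBySemilinearPOmega q g (RingEquiv.refl F) γ) (hγ2 : orderOf γ = 2) :
    (Cfsg.splitClassCount P (Cfsg.Inn (Cfsg.POmega F q)) γ = 1 ∨ Cfsg.splitClassCount P (Cfsg.Inn (Cfsg.POmega F q)) γ = 2) ∧
    (¬ (Odd m ∧ Fintype.card F % 4 = 3) → Cfsg.splitClassCount P (Cfsg.Inn (Cfsg.POmega F q)) γ = 2) := by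
  subst hq
  have h2 : (2 : F) ≠ 0 := two_ne_zero_of_odd hodd
  have ha := ea_qPlus (F := F) (m := m) (by omega)
  rw [ha.range_Gam _ (fun g => psc_plus ha g)] at hP
  subst hP
  obtain ⟨e, ff, u, hG⟩ := gd_qPlus (F := F) (m := m) hm
  obtain ⟨g, hg, hgp, hgi⟩ := hγ
  have hgi' : γ = rho (GOs (qPlus m F)) le_rfl ⟨g, hg⟩ := by
    rw [rho_def]
    exact (isInd_iff (x := ⟨g, 1⟩) _ _).1 hgi
  have heps : (ha.ev h2).eps ⟨g, hg⟩ = -1 := by
    apply units_ne
    rw [← ha.ep_odd h2]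
    exact fun h => hgp ((psc_plus ha ⟨g, hg⟩).2 h)
  obtain ⟨l, hl⟩ : ∃ l : Fˣ, g * g = scal l := by
    have h1 : rho (GOs (qPlus m F)) le_rfl (⟨g, hg⟩ * ⟨g, hg⟩) = 1 := by
      rw [map_mul, ← hgi', ← pow_two, ← hγ2, pow_orderOf_eq_one]
    exact (rho_ker' _ _ hG _).1 h1
  obtain ⟨h3, h4⟩ := gi_count ha hG h2 ⟨g, hg⟩ heps l hl
  rw [hgi']
  refine ⟨h3, fun h5 => h4 (Or.inl ?_)⟩
  rw [negIn_plus hodd (by omega)]
  exact h5


/-- Let T = PΩ⁺_{2m}(F) with m ≥ 4 and |F| = q odd, G = Inndiag(T), and γ an involutory graph automorphism of T induced by a similarity (one interchanging the two classes of maximal totally singular subspaces). Then the G-class of γ is either a single T-class or the union of exactly two T-classes, and it is the union of two unless m is odd and q ≡ 3 (mod 4). -/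
theorem result {F : Type*} [Field F] [Fintype F] (hodd : Odd (Fintype.card F)) {m : ℕ} (hm : 4 ≤ m) (γ : MulAut (Cfsg.POmega F (Cfsg.quadFormPlus m F))) (hγ : Cfsg.IsSimilarityGraphAutPOmegaPlus m γ) (hγ2 : orderOf γ = 2) :
    (Cfsg.splitClassCount (Cfsg.inndiagPOmegaPlus m F) (Cfsg.Inn (Cfsg.POmega F (Cfsg.quadFormPlus m F))) γ = 1 ∨ Cfsg.splitClassCount (Cfsg.inndiagPOmegaPlus m F) (Cfsg.Inn (Cfsg.POmega F (Cfsg.quadFormPlus m F))) γ = 2) ∧ (¬ (Odd m ∧ Fintype.card F % 4 = 3) → Cfsg.splitClassCount (Cfsg.inndiagPOmegaPlus m F) (Cfsg.Inn (Cfsg.POmega F (Cfsg.quadFormPlus m F))) γ = 2) := by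
  exact aux hodd hm _ (Cfsg.Agent.H22.coe_qPlus m).symm _ rfl γ hγ hγ2

end Cfsg.Agent.S2718
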