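import Cfsg.Agent.LibGI27e
import Cfsg.Agent.LibGI27d
-- Template for statement S2719 (row 2719; see /opt/grader/pristine/manifest.json for weights).
-- Copy to Cfsg/Agent/S2719.lean and replace the sorry. The statement below is byte-identical to the frozen
-- statement Cfsg.CfsgFrozen.S2719 (Cfsg/Statements/S2719.lean; the theorem Cfsg.ltd21_pomega_minus_involutory_graph_automorphism_splitting);
-- the grader kernel-checks Cfsg.Agent.S2719.result against that frozen type. Keep the theorem IN THIS FILE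
-- (a `result` declared elsewhere and merely imported here is not credited); helpers may live anywhere
-- under Cfsg/Agent/.
import Cfsg.Statements.S2719
-- import your own Cfsg.Agent.* helpers here

set_option autoImplicit false
open Cfsg

namespace Cfsg.Agent.S2719

universe u in
set_option maxHeartbeats 1000000 in
open CfsgLib.AutO27 hiding R in
open Cfsg.Agent.H22 CfsgLib.RhoO27 CfsgLib.Semi27 CfsgLib.H9027 CfsgLib.QForm27 CfsgLib.Lift27 CfsgLib.Eps27 CfsgLib.Even27 CfsgLib.GI27 in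
theorem aux {F : Type u} [Field F] [Fintype F] (hodd : Odd (Fintype.card F)) {m : ℕ} (hm : 3 ≤ m) (a b : F)
    (hab : ∀ z₁ z₂ : F, z₁ ^ 2 + a * z₁ * z₂ + b * z₂ ^ 2 = 0 → z₁ = 0 ∧ z₂ = 0)
    (q : ((Fin m ⊕ Fin m) ⊕ Fin 2 → F) → F) (hq : q = ⇑(qMinus m F a b))
    (P : Subgroup (MulAut (Cfsg.POmega F q))) (hP : P = Cfsg.autSubgroupOf (fun β : Cfsg.POmega F q ≃* Cfsg.POmega F q => ∃ g : GL ((Fin m ⊕ Fin m) ⊕ Fin 2) F,
      g ∈ Cfsg.Geo.quadSimilarityGroup (F := F) q ∧ Cfsg.PreservesSingularClassesMinus m a b (g : Matrix ((Fin m ⊕ Fin m) ⊕ Fin 2) ((Fin m ⊕ Fin m) ⊕ Fin 2) F) ∧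
        Cfsg.IsInducedBySemilinearPOmega q g (RingEquiv.refl F) β))
    (γ : MulAut (Cfsg.POmega F q)) (hγ : γ ∉ P) (hγ2 : orderOf γ = 2) :
    (Cfsg.splitClassCount P (Cfsg.Inn (Cfsg.POmega F q)) γ = 1 ∨ Cfsg.splitClassCount P (Cfsg.Inn (Cfsg.POmega F q)) γ = 2) ∧
    (¬ (Even m ∧ Fintype.card F % 4 = 1) → Cfsg.splitClassCount P (Cfsg.Inn (Cfsg.POmega F q)) γ = 2) := by
  subst hq
  have h2 : (2 : F) ≠ 0 := two_ne_zero_of_odd hodd
  have ha := ea_qMinus (m := m) (by omega) (disc_ne_zero a b hab)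
  rw [ha.range_Gam _ (fun g => psc_minus (by omega) hab ha g)] at hP
  subst hP
  obtain ⟨e, ff, u, hG⟩ := good_qMinus hm a b hab
  obtain ⟨⟨⟨g, σ⟩, hX⟩, rfl⟩ := R_surj hG γ
  have hR2 : CfsgLib.RhoO27.R (qMinus m F a b) ⟨⟨g, σ⟩, hX⟩ ^ 2 = 1 := orderOf_dvd_iff_pow_eq_one.1 hγ2.dvd
  have hσ1 : σ = 1 := by
    by_contra hne
    have hσp : σ ^ 2 = 1 := by
      have h1 : CfsgLib.RhoO27.R (qMinus m F a b) (⟨⟨g, σ⟩, hX⟩ ^ 2) = 1 := by rw [map_pow]; exact hR2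
      have h3 := ((R_ker' hG.gd _).1 h1).1
      have h4 : ∀ X : SP (qMinus m F a b), (X ^ 2 : SP (qMinus m F a b)).1.right = X.1.right ^ 2 := fun X =>
        map_pow (SemidirectProduct.rightHom : GamL ((Fin m ⊕ Fin m) ⊕ Fin 2) F →* (F ≃+* F)) X.1 2
      rw [h4] at h3
      exact h3
    exact (minus_gen hm hab Nat.prime_two (orderOf_eq_prime hσp hne) hX hR2).1 rfl
  subst hσ1
  have hg : g ∈ GOs (qMinus m F a b) := by
    rw [← inl_mem_iff]
    exact hX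
  have hgi' : CfsgLib.RhoO27.R (qMinus m F a b) ⟨⟨g, 1⟩, hX⟩ = rho (GOs (qMinus m F a b)) le_rfl ⟨g, hg⟩ := by
    rw [rho_def]; rfl
  have heps : (ha.ev h2).eps ⟨g, hg⟩ = -1 := by
    apply units_ne
    rw [← ha.ep_odd h2]
    intro h3
    apply hγ
    exact ⟨⟨g, ha.mem_Gam.2 ⟨hg, h3⟩⟩, by rw [rho_def]; rfl⟩
  rw [hgi'] at hR2 ⊢
  obtain ⟨l, hl⟩ : ∃ l : Fˣ, g * g = scal l := by
    have h1 : rho (GOs (qMinus m F a b)) le_rfl (⟨g, hg⟩ * ⟨g, hg⟩) = 1 := by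
      rw [map_mul, ← pow_two, hR2]
    exact (rho_ker' _ _ hG.gd _).1 h1
  obtain ⟨h3, h4⟩ := gi_count ha hG.gd h2 ⟨g, hg⟩ heps l hl
  refine ⟨h3, fun h5 => h4 ?_⟩
  by_cases hme : Even m
  · left
    rw [negIn_minus hodd hab]
    refine ⟨hme, ?_⟩
    have h6 : Fintype.card F % 4 ≠ 1 := fun h => h5 ⟨hme, h⟩
    obtain ⟨k, hk⟩ := hodd
    omega
  · right
    rw [Nat.even_add_one]
    exact hme


/-- Let T = PΩ⁻_{2m+2}(F) with m ≥ 3 and |F| = q odd (form with anisotropic binary part z₁² + a z₁ z₂ + b z₂²), G = Inndiag(T), and γ an involutory graph automorphism of T (an automorphism in the image of the semisimilarity group, not inner-diagonal, of order 2). Then the G-class of γ is either a single T-class or the union of exactly two T-classes, and it is the union of two unless m is even and q ≡ 1 (mod 4). -/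
theorem result {F : Type*} [Field F] [Fintype F] (hodd : Odd (Fintype.card F)) {m : ℕ} (hm : 3 ≤ m) (a b : F) (hab : (∀ z₁ z₂ : F, z₁ ^ 2 + a * z₁ * z₂ + b * z₂ ^ 2 = 0 → z₁ = 0 ∧ z₂ = 0)) (γ : MulAut (Cfsg.POmega F (Cfsg.quadFormMinus m F a b))) (hγ : Cfsg.IsGraphAutClassPOmegaMinus m a b γ) (hγ2 : orderOf γ = 2) :
    (Cfsg.splitClassCount (Cfsg.inndiagPOmegaMinus m F a b) (Cfsg.Inn (Cfsg.POmega F (Cfsg.quadFormMinus m F a b))) γ = 1 ∨ Cfsg.splitClassCount (Cfsg.inndiagPOmegaMinus m F a b) (Cfsg.Inn (Cfsg.POmega F (Cfsg.quadFormMinus m F a b))) γ = 2) ∧ (¬ (Even m ∧ Fintype.card F % 4 = 1) → Cfsg.splitClassCount (Cfsg.inndiagPOmegaMinus m F a b) (Cfsg.Inn (Cfsg.POmega F (Cfsg.quadFormMinus m F a b))) γ = 2) := by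
  exact aux hodd hm a b hab _ (Cfsg.Agent.H22.coe_qMinus m a b).symm _ rfl γ hγ.2.1 hγ2

end Cfsg.Agent.S2719
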