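import Cfsg.Agent.LibEven27f
-- Template for statement S2722 (row 2722; see /opt/grader/pristine/manifest.json for weights).
-- Copy to Cfsg/Agent/S2722.lean and replace the sorry. The statement below is byte-identical to the frozen
-- statement Cfsg.CfsgFrozen.S2722 (Cfsg/Statements/S2722.lean; the theorem Cfsg.ltd21_pomega_plus_conformal_mod_special_is_klein_four);
-- the grader kernel-checks Cfsg.Agent.S2722.result against that frozen type. Keep the theorem IN THIS FILE
-- (a `result` declared elsewhere and merely imported here is not credited); helpers may live anywhere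
-- under Cfsg/Agent/.
import Cfsg.Statements.S2722
-- import your own Cfsg.Agent.* helpers here

set_option autoImplicit false
open Cfsg

namespace Cfsg.Agent.S2722

open Cfsg.Agent.H22 CfsgLib.RhoO27 CfsgLib.AutO27 CfsgLib.Even27 in
theorem aux {F : Type*} [Field F] [Fintype F] (hodd : Odd (Fintype.card F)) {m : ℕ} (hm : 4 ≤ m) (q : (Fin m ⊕ Fin m → F) → F) (hq : q = ⇑(qPlus m F)) :
    (∃ φ : ↥(Cfsg.pgoAut F q) →* Multiplicative (ZMod 2 × ZMod 2), Function.Surjective φ ∧ φ.ker = (Cfsg.psoAut F q).subgroupOf (Cfsg.pgoAut F q)) := by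
  subst hq
  obtain ⟨e, f, u, hG⟩ := gd_qPlus (F := F) hm
  exact (ev_qPlus (two_ne_zero_of_odd hodd) (by omega)).pgo_pso hG


/-- Let T = PΩ⁺_{2m}(F) with m ≥ 4 and |F| = q odd. Inside Aut(T), the image G̃ of the conformal orthogonal group of the form modulo the image of the special orthogonal group is elementary abelian of order 4. -/
theorem result {F : Type*} [Field F] [Fintype F] (hodd : Odd (Fintype.card F)) {m : ℕ} (hm : 4 ≤ m) :
    (∃ φ : ↥(Cfsg.pgoAut F (Cfsg.quadFormPlus m F)) →* Multiplicative (ZMod 2 × ZMod 2), Function.Surjective φ ∧ φ.ker = (Cfsg.psoAut F (Cfsg.quadFormPlus m F)).subgroupOf (Cfsg.pgoAut F (Cfsg.quadFormPlus m F))) := by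
  exact aux hodd hm _ (Cfsg.Agent.H22.coe_qPlus m).symm

end Cfsg.Agent.S2722
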