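import Cfsg.Agent.LibEven27f
-- Template for statement S2723 (row 2723; see /opt/grader/pristine/manifest.json for weights).
-- Copy to Cfsg/Agent/S2723.lean and replace the sorry. The statement below is byte-identical to the frozen
-- statement Cfsg.CfsgFrozen.S2723 (Cfsg/Statements/S2723.lean; the theorem Cfsg.ltd21_pomega_plus_special_orthogonal_image_index);
-- the grader kernel-checks Cfsg.Agent.S2723.result against that frozen type. Keep the theorem IN THIS FILE
-- (a `result` declared elsewhere and merely imported here is not credited); helpers may live anywhere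
-- under Cfsg/Agent/.
import Cfsg.Statements.S2723
-- import your own Cfsg.Agent.* helpers here

set_option autoImplicit false
open Cfsg

namespace Cfsg.Agent.S2723

open Cfsg.Agent.H22 CfsgLib.RhoO27 CfsgLib.AutO27 CfsgLib.Even27 in
theorem aux {F : Type*} [Field F] [Fintype F] (hodd : Odd (Fintype.card F)) {m : ℕ} (hm : 4 ≤ m) (q : (Fin m ⊕ Fin m → F) → F) (hq : q = ⇑(qPlus m F)) :
    ((Odd m ∧ Fintype.card F % 4 = 3) → (Cfsg.Inn (Cfsg.POmega F q)).relIndex (Cfsg.psoAut F q) = 1) ∧ (¬ (Odd m ∧ Fintype.card F % 4 = 3) → (Cfsg.Inn (Cfsg.POmega F q)).relIndex (Cfsg.psoAut F q) = 2) := by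
  subst hq
  obtain ⟨e, f, u, hG⟩ := gd_qPlus (F := F) hm
  have h := (ev_qPlus (two_ne_zero_of_odd hodd) (m := m) (by omega)).relIndex_pso hG
  have hn := negIn_plus hodd (m := m) (by omega)
  exact ⟨fun h1 => h.2 (fun h2 => hn.1 h2 h1), fun h1 => h.1 (hn.2 h1)⟩


/-- Let T = PΩ⁺_{2m}(F) with m ≥ 4 and |F| = q odd. The image of the special orthogonal group in Aut(T) contains the inner automorphism group T with index 1 (they coincide) when m is odd and q ≡ 3 (mod 4), and with index 2 otherwise (the index is 2 exactly when the discriminant of the form is a square). -/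
theorem result {F : Type*} [Field F] [Fintype F] (hodd : Odd (Fintype.card F)) {m : ℕ} (hm : 4 ≤ m) :
    ((Odd m ∧ Fintype.card F % 4 = 3) → (Cfsg.Inn (Cfsg.POmega F (Cfsg.quadFormPlus m F))).relIndex (Cfsg.psoAut F (Cfsg.quadFormPlus m F)) = 1) ∧ (¬ (Odd m ∧ Fintype.card F % 4 = 3) → (Cfsg.Inn (Cfsg.POmega F (Cfsg.quadFormPlus m F))).relIndex (Cfsg.psoAut F (Cfsg.quadFormPlus m F)) = 2) := by
  exact aux hodd hm _ (Cfsg.Agent.H22.coe_qPlus m).symm

end Cfsg.Agent.S2723
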