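import Cfsg.Agent.LibEven27f
-- Template for statement S2724 (row 2724; see /opt/grader/pristine/manifest.json for weights).
-- Copy to Cfsg/Agent/S2724.lean and replace the sorry. The statement below is byte-identical to the frozen
-- statement Cfsg.CfsgFrozen.S2724 (Cfsg/Statements/S2724.lean; the theorem Cfsg.ltd21_pomega_plus_conformal_image_mod_inner_structure);
-- the grader kernel-checks Cfsg.Agent.S2724.result against that frozen type. Keep the theorem IN THIS FILE
-- (a `result` declared elsewhere and merely imported here is not credited); helpers may live anywhere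
-- under Cfsg/Agent/.
import Cfsg.Statements.S2724
-- import your own Cfsg.Agent.* helpers here

set_option autoImplicit false
open Cfsg

namespace Cfsg.Agent.S2724

open Cfsg.Agent.H22 CfsgLib.RhoO27 CfsgLib.AutO27 CfsgLib.Even27 in
theorem aux {F : Type*} [Field F] [Fintype F] (hodd : Odd (Fintype.card F)) {m : ℕ} (hm : 4 ≤ m) (q : (Fin m ⊕ Fin m → F) → F) (hq : q = ⇑(qPlus m F)) :
    ((Odd m ∧ Fintype.card F % 4 = 3) → (∃ φ : ↥(Cfsg.pgoAut F q) →* Multiplicative (ZMod 2 × ZMod 2), Function.Surjective φ ∧ φ.ker = (Cfsg.Inn (Cfsg.POmega F q)).subgroupOf (Cfsg.pgoAut F q))) ∧ (¬ (Odd m ∧ Fintype.card F % 4 = 3) → (∃ φ : ↥(Cfsg.pgoAut F q) →* DihedralGroup 4, Function.Surjective φ ∧ φ.ker = (Cfsg.Inn (Cfsg.POmega F q)).subgroupOf (Cfsg.pgoAut F q))) := by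
  subst hq
  obtain ⟨e, f, u, hG⟩ := gd_qPlus (F := F) hm
  have h := (ev_qPlus (two_ne_zero_of_odd hodd) (m := m) (by omega)).pgo_inn hG
  have hn := negIn_plus hodd (m := m) (by omega)
  exact ⟨fun h1 => h.1 (fun h2 => hn.1 h2 h1), fun h1 => h.2 (hn.2 h1)⟩


/-- Let T = PΩ⁺_{2m}(F) with m ≥ 4 and |F| = q odd. The image G̃ of the conformal orthogonal group in Aut(T), taken modulo the inner automorphism group T, is elementary abelian of order 4 when m is odd and q ≡ 3 (mod 4), and dihedral of order 8 otherwise. -/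
theorem result {F : Type*} [Field F] [Fintype F] (hodd : Odd (Fintype.card F)) {m : ℕ} (hm : 4 ≤ m) :
    ((Odd m ∧ Fintype.card F % 4 = 3) → (∃ φ : ↥(Cfsg.pgoAut F (Cfsg.quadFormPlus m F)) →* Multiplicative (ZMod 2 × ZMod 2), Function.Surjective φ ∧ φ.ker = (Cfsg.Inn (Cfsg.POmega F (Cfsg.quadFormPlus m F))).subgroupOf (Cfsg.pgoAut F (Cfsg.quadFormPlus m F)))) ∧ (¬ (Odd m ∧ Fintype.card F % 4 = 3) → (∃ φ : ↥(Cfsg.pgoAut F (Cfsg.quadFormPlus m F)) →* DihedralGroup 4, Function.Surjective φ ∧ φ.ker = (Cfsg.Inn (Cfsg.POmega F (Cfsg.quadFormPlus m F))).subgroupOf (Cfsg.pgoAut F (Cfsg.quadFormPlus m F)))) := by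
  exact aux hodd hm _ (Cfsg.Agent.H22.coe_qPlus m).symm

end Cfsg.Agent.S2724
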