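import Cfsg.Agent.LibEven27f
-- Template for statement S2725 (row 2725; see /opt/grader/pristine/manifest.json for weights).
-- Copy to Cfsg/Agent/S2725.lean and replace the sorry. The statement below is byte-identical to the frozen
-- statement Cfsg.CfsgFrozen.S2725 (Cfsg/Statements/S2725.lean; the theorem Cfsg.ltd21_pomega_plus_inner_diagonal_mod_inner_structure);
-- the grader kernel-checks Cfsg.Agent.S2725.result against that frozen type. Keep the theorem IN THIS FILE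
-- (a `result` declared elsewhere and merely imported here is not credited); helpers may live anywhere
-- under Cfsg/Agent/.
import Cfsg.Statements.S2725
-- import your own Cfsg.Agent.* helpers here

set_option autoImplicit false
open Cfsg

namespace Cfsg.Agent.S2725

set_option maxHeartbeats 1000000 in
open Cfsg.Agent.H22 CfsgLib.RhoO27 CfsgLib.AutO27 CfsgLib.Even27 in
theorem aux {F : Type*} [Field F] [Fintype F] (hodd : Odd (Fintype.card F)) {m : ℕ} (hm : 4 ≤ m) (q : (Fin m ⊕ Fin m → F) → F) (hq : q = ⇑(qPlus m F))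
    (P : Subgroup (MulAut (Cfsg.POmega F q))) (hP : P = Cfsg.autSubgroupOf (fun β : Cfsg.POmega F q ≃* Cfsg.POmega F q =>
      ∃ g : Matrix.GeneralLinearGroup (Fin m ⊕ Fin m) F, g ∈ Cfsg.Geo.quadSimilarityGroup (F := F) q ∧ Cfsg.PreservesSingularClasses q (g : Matrix (Fin m ⊕ Fin m) (Fin m ⊕ Fin m) F) ∧
        Cfsg.IsInducedBySemilinearPOmega q g (RingEquiv.refl F) β)) :
    ((Odd m ∧ Fintype.card F % 4 = 3) → (∃ φ : ↥P →* Multiplicative (ZMod 2), Function.Surjective φ ∧ φ.ker = (Cfsg.Inn (Cfsg.POmega F q)).subgroupOf P)) ∧ ((Odd m ∧ Fintype.card F % 4 = 1) → (∃ φ : ↥P →* Multiplicative (ZMod 4), Function.Surjective φ ∧ φ.ker = (Cfsg.Inn (Cfsg.POmega F q)).subgroupOf P)) ∧ (Even m → (∃ φ : ↥P →* Multiplicative (ZMod 2 × ZMod 2), Function.Surjective φ ∧ φ.ker = (Cfsg.Inn (Cfsg.POmega F q)).subgroupOf P)) := by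
  subst hq
  obtain ⟨e, f, u, hG⟩ := gd_qPlus (F := F) hm
  have h2 : (2 : F) ≠ 0 := two_ne_zero_of_odd hodd
  have hE := ev_qPlus h2 (m := m) (by omega)
  have hP' : P = hE.eps.ker.map (rho (GOs (qPlus m F)) le_rfl) := by
    rw [hP]
    apply range_eq3
    intro g
    rw [MonoidHom.mem_ker, hE.eps_eq_one]
    exact (PSC_plus' h2 (mu_spec hE.hx g)).symm
  have h := hE.ind_inn hG hP'
  have hn := negIn_plus hodd (m := m) (by omega)
  obtain ⟨c, hc⟩ := hE.exists_nonsq
  have hcl : hE.cl (dCG m c) = -1 := by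
    rw [hE.cl_apply, mu_dCG hE, CfsgLib.Spinor27.chi_eq_neg]
    exact hc
  have hchi : ∀ k : ℕ, CfsgLib.Spinor27.chi ((c : F) ^ k) = (-1) ^ k := by
    intro k
    induction k with
    | zero => rw [pow_zero, pow_zero, CfsgLib.Spinor27.chi_one]
    | succ k ih =>
      rw [pow_succ, pow_succ, CfsgLib.Spinor27.chi_mul h2 (pow_ne_zero _ c.ne_zero) c.ne_zero, ih, CfsgLib.Spinor27.chi_eq_neg.2 hc]
  refine ⟨fun h1 => h.1 (fun h3 => hn.1 h3 h1), ?_, ?_⟩
  · rintro ⟨h1, h3⟩
    have hneg : NegIn (qPlus m F) := hn.2 (by rintro ⟨-, h4⟩; omega)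
    refine (h.2 hneg (dCG m c) hcl (eps_dCG hE c)).1 ?_
    rw [dCG_sq hE hG hneg, hchi, h1.neg_one_pow]
    decide
  · intro h1
    have hneg : NegIn (qPlus m F) := hn.2 (by rintro ⟨h4, -⟩; exact (Nat.not_even_iff_odd.2 h4) h1)
    refine (h.2 hneg (dCG m c) hcl (eps_dCG hE c)).2 ?_
    rw [dCG_sq hE hG hneg, hchi, h1.neg_one_pow]


/-- Let T = PΩ⁺_{2m}(F) with m ≥ 4 and |F| = q odd. The inner-diagonal group G = Inndiag(T) (image of the class-preserving similarities) taken modulo the inner automorphism group T is cyclic of order 2 when m is odd and q ≡ 3 (mod 4), cyclic of order 4 when m is odd and q ≡ 1 (mod 4), and elementary abelian of order 4 when m is even. -/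
theorem result {F : Type*} [Field F] [Fintype F] (hodd : Odd (Fintype.card F)) {m : ℕ} (hm : 4 ≤ m) :
    ((Odd m ∧ Fintype.card F % 4 = 3) → (∃ φ : ↥(Cfsg.inndiagPOmegaPlus m F) →* Multiplicative (ZMod 2), Function.Surjective φ ∧ φ.ker = (Cfsg.Inn (Cfsg.POmega F (Cfsg.quadFormPlus m F))).subgroupOf (Cfsg.inndiagPOmegaPlus m F))) ∧ ((Odd m ∧ Fintype.card F % 4 = 1) → (∃ φ : ↥(Cfsg.inndiagPOmegaPlus m F) →* Multiplicative (ZMod 4), Function.Surjective φ ∧ φ.ker = (Cfsg.Inn (Cfsg.POmega F (Cfsg.quadFormPlus m F))).subgroupOf (Cfsg.inndiagPOmegaPlus m F))) ∧ (Even m → (∃ φ : ↥(Cfsg.inndiagPOmegaPlus m F) →* Multiplicative (ZMod 2 × ZMod 2), Function.Surjective φ ∧ φ.ker = (Cfsg.Inn (Cfsg.POmega F (Cfsg.quadFormPlus m F))).subgroupOf (Cfsg.inndiagPOmegaPlus m F))) := by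
  exact aux hodd hm _ (Cfsg.Agent.H22.coe_qPlus m).symm _ rfl

end Cfsg.Agent.S2725
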