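import Cfsg.Agent.LibEven27f
-- Template for statement S2729 (row 2729; see /opt/grader/pristine/manifest.json for weights).
-- Copy to Cfsg/Agent/S2729.lean and replace the sorry. The statement below is byte-identical to the frozen
-- statement Cfsg.CfsgFrozen.S2729 (Cfsg/Statements/S2729.lean; the theorem Cfsg.ltd21_pomega_minus_inner_diagonal_mod_inner_structure);
-- the grader kernel-checks Cfsg.Agent.S2729.result against that frozen type. Keep the theorem IN THIS FILE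
-- (a `result` declared elsewhere and merely imported here is not credited); helpers may live anywhere
-- under Cfsg/Agent/.
import Cfsg.Statements.S2729
-- import your own Cfsg.Agent.* helpers here

set_option autoImplicit false
open Cfsg

namespace Cfsg.Agent.S2729

set_option maxHeartbeats 1000000 in
open Cfsg.Agent.H22 CfsgLib.RhoO27 CfsgLib.AutO27 CfsgLib.Even27 in
theorem aux {F : Type*} [Field F] [Fintype F] (hodd : Odd (Fintype.card F)) {m : ℕ} (hm : 3 ≤ m) (a b : F) (hab : ∀ z₁ z₂ : F, z₁ ^ 2 + a * z₁ * z₂ + b * z₂ ^ 2 = 0 → z₁ = 0 ∧ z₂ = 0) (q : ((Fin m ⊕ Fin m) ⊕ Fin 2 → F) → F) (hq : q = ⇑(qMinus m F a b))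
    (P : Subgroup (MulAut (Cfsg.POmega F q))) (hP : P = Cfsg.autSubgroupOf (fun β : Cfsg.POmega F q ≃* Cfsg.POmega F q =>
      ∃ g : Matrix.GeneralLinearGroup ((Fin m ⊕ Fin m) ⊕ Fin 2) F, g ∈ Cfsg.Geo.quadSimilarityGroup (F := F) q ∧
        Cfsg.PreservesSingularClassesMinus m a b (g : Matrix ((Fin m ⊕ Fin m) ⊕ Fin 2) ((Fin m ⊕ Fin m) ⊕ Fin 2) F) ∧
        Cfsg.IsInducedBySemilinearPOmega q g (RingEquiv.refl F) β)) :
    ((Even m ∧ Fintype.card F % 4 = 3) → (∃ φ : ↥P →* Multiplicative (ZMod 4), Function.Surjective φ ∧ φ.ker = (Cfsg.Inn (Cfsg.POmega F q)).subgroupOf P)) ∧ (¬ (Even m ∧ Fintype.card F % 4 = 3) → (∃ φ : ↥P →* Multiplicative (ZMod 2), Function.Surjective φ ∧ φ.ker = (Cfsg.Inn (Cfsg.POmega F q)).subgroupOf P)) := by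
  subst hq
  obtain ⟨e, f, u, hG'⟩ := good_qMinus (F := F) hm a b hab
  have hG := hG'.gd
  have h2 : (2 : F) ≠ 0 := two_ne_zero_of_odd hodd
  have hE := ev_qMinus (m := m) h2 hab
  have hP' : P = hE.eps.ker.map (rho (GOs (qMinus m F a b)) le_rfl) := by
    rw [hP]
    apply range_eq3
    intro g
    rw [MonoidHom.mem_ker, hE.eps_eq_one]
    exact (PSC_minus' h2 hab (mu_spec hE.hx g)).symm
  have h := hE.ind_inn hG hP'
  have hn := negIn_minus (m := m) hodd hab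
  refine ⟨?_, fun h1 => h.1 (fun h3 => h1 (hn.1 h3))⟩
  intro h1
  have hneg := hn.2 h1
  obtain ⟨w0, w1, hw⟩ := exists_w h2 hab ((-1 : Fˣ) : F)
  obtain ⟨v, u, hv, hu, hQv, hQu, hsq⟩ := dM_sq (m := m) h2 hab w0 w1 hw
  obtain ⟨D, hD⟩ : ∃ D : GOs (qMinus m F a b), D = ⟨dM m (-1) w0 w1 hw, -1, dM_Q (-1) w0 w1 hw⟩ := ⟨_, rfl⟩
  have hmu : mu hE.hx D = -1 := by
    rw [hD]
    exact mu_eq hE.hx (dM_Q (-1) w0 w1 hw)
  have hns : ¬ IsSquare ((-1 : Fˣ) : F) := by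
    rw [Units.val_neg, Units.val_one, isSquare_neg_one_iff h2]
    omega
  have hcl : hE.cl D = -1 := by
    rw [hE.cl_apply, hmu, CfsgLib.Spinor27.chi_eq_neg]
    exact hns
  have heps : hE.eps D = 1 := by
    rw [hE.eps_eq_one, hmu, hD]
    exact dM_det m (-1) w0 w1 hw
  refine (h.2 hneg D hcl heps).1 ?_
  have hg : ((D * D : GOs (qMinus m F a b)) : Matrix.GeneralLinearGroup ((Fin m ⊕ Fin m) ⊕ Fin 2) F) =
      CfsgLib.Semi27.scal 1 * ((CfsgLib.Lift27.rfM _ v hv * CfsgLib.Lift27.rfM _ u hu : Cfsg.isometryGroup F ⇑(qMinus m F a b)) : Matrix.GeneralLinearGroup ((Fin m ⊕ Fin m) ⊕ Fin 2) F) := by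
    rw [← hsq, CfsgLib.Semi27.scal_one, one_mul, hD]
    rfl
  rw [hE.mem_KI_iff hG hneg _ hg]
  · rw [map_mul, hE.sp_rfM, hE.sp_rfM, hQv, hQu, CfsgLib.Spinor27.chi_one, mul_one, CfsgLib.Spinor27.chi_eq_neg.2 (disc_not_square h2 a b hab)]
    decide
  · rw [Subgroup.coe_mul, map_mul, CfsgLib.Lift27.det_rfM, CfsgLib.Lift27.det_rfM]
    simp


/-- Let T = PΩ⁻_{2m+2}(F) with m ≥ 3 and |F| = q odd (form with anisotropic binary part). The inner-diagonal group G = Inndiag(T) (image of the class-preserving similarities) taken modulo the inner automorphism group T is cyclic of order 4 when m is even and q ≡ 3 (mod 4), and of order 2 otherwise. -/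
theorem result {F : Type*} [Field F] [Fintype F] (hodd : Odd (Fintype.card F)) {m : ℕ} (hm : 3 ≤ m) (a b : F) (hab : (∀ z₁ z₂ : F, z₁ ^ 2 + a * z₁ * z₂ + b * z₂ ^ 2 = 0 → z₁ = 0 ∧ z₂ = 0)) :
    ((Even m ∧ Fintype.card F % 4 = 3) → (∃ φ : ↥(Cfsg.inndiagPOmegaMinus m F a b) →* Multiplicative (ZMod 4), Function.Surjective φ ∧ φ.ker = (Cfsg.Inn (Cfsg.POmega F (Cfsg.quadFormMinus m F a b))).subgroupOf (Cfsg.inndiagPOmegaMinus m F a b))) ∧ (¬ (Even m ∧ Fintype.card F % 4 = 3) → (∃ φ : ↥(Cfsg.inndiagPOmegaMinus m F a b) →* Multiplicative (ZMod 2), Function.Surjective φ ∧ φ.ker = (Cfsg.Inn (Cfsg.POmega F (Cfsg.quadFormMinus m F a b))).subgroupOf (Cfsg.inndiagPOmegaMinus m F a b))) := by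
  exact aux hodd hm a b hab _ (Cfsg.Agent.H22.coe_qMinus m a b).symm _ rfl

end Cfsg.Agent.S2729
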