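import Cfsg.Agent.LibRhoOdd27b
-- Template for statement S2735 (row 2735; see /opt/grader/pristine/manifest.json for weights).
-- Copy to Cfsg/Agent/S2735.lean and replace the sorry. The statement below is byte-identical to the frozen
-- statement Cfsg.CfsgFrozen.S2735 (Cfsg/Statements/S2735.lean; the theorem Cfsg.ltd21_omega_odd_dim_field_prime_order_coset_conjugacy);
-- the grader kernel-checks Cfsg.Agent.S2735.result against that frozen type. Keep the theorem IN THIS FILE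
-- (a `result` declared elsewhere and merely imported here is not credited); helpers may live anywhere
-- under Cfsg/Agent/.
import Cfsg.Statements.S2735
-- import your own Cfsg.Agent.* helpers here

set_option autoImplicit false
open Cfsg

namespace Cfsg.Agent.S2735

set_option maxHeartbeats 1000000 in
open Cfsg.Agent.H22 CfsgLib.RhoO27 CfsgLib.AutO27 CfsgLib.Semi27 CfsgLib.H9027 CfsgLib.QForm27 CfsgLib.Lift27 in
theorem aux {F : Type*} [Field F] [Fintype F] (hodd : Odd (Fintype.card F)) {m : ℕ} (hm : 3 ≤ m)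
    (x δ : MulAut (Cfsg.POmega F ⇑(qOdd m F))) (hx : Cfsg.IsFieldAutClassPOmega ⇑(qOdd m F) x)
    {r : ℕ} (hr : r.Prime) (hxr : orderOf x = r) (hδ : δ ∈ Cfsg.pgoAut F ⇑(qOdd m F)) (h : orderOf (δ * x) = r) :
    Cfsg.IsConjUnder (Cfsg.pgoAut F ⇑(qOdd m F)) x (δ * x) := by
  have h2 : (2 : F) ≠ 0 := two_ne_zero_of_odd hodd
  rw [sim_eq] at hδ ⊢
  obtain ⟨d, rfl⟩ := hδ
  have hdx : (rho (GOs (qOdd m F)) le_rfl d * x) ^ r = 1 := by rw [← h]; exact pow_orderOf_eq_one _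
  obtain ⟨e, ff, u, hG⟩ := good_qOdd (F := F) hm h2
  obtain ⟨α, σ, hord, hst⟩ := field_class hG std_odd x hx hxr
  have h1 : ph (std_odd (m := m) σ) ^ r = 1 := by
    rw [← hst, conj_pow, ← hxr, pow_orderOf_eq_one, mul_one, mul_inv_cancel]
  obtain ⟨d', hd'⟩ := range_normal (GOs (qOdd m F)) le_rfl hG (fun x g hg => cjG_GOs x hg) α _ ⟨d, rfl⟩
  obtain ⟨k, hk⟩ := lang_abs (ρ := rho (GOs (qOdd m F)) le_rfl) (φ := ph (std_odd σ)) (fun g hg => gm_GOs (std_odd σ) hg)
    (fun g => ph_mul_rho _ _ (std_odd σ) (fun g hg => gm_GOs (std_odd σ) hg) g)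
    (rho_ker _ _ hG) hr.pos hord h1 (fun g l k hk => hform_odd h2 g l k hk) d' (by
      rw [hd', ← hst]
      have : α * rho (GOs (qOdd m F)) le_rfl d * α⁻¹ * (α * x * α⁻¹) = α * (rho (GOs (qOdd m F)) le_rfl d * x) * α⁻¹ := by group
      rw [this, conj_pow, hdx, mul_one, mul_inv_cancel])
  obtain ⟨k', hk'⟩ := range_normal (GOs (qOdd m F)) le_rfl hG (fun x g hg => cjG_GOs x hg) α⁻¹ _ ⟨k, rfl⟩
  refine ⟨rho (GOs (qOdd m F)) le_rfl k', ⟨k', rfl⟩, ?_⟩
  rw [hd', ← hst] at hk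
  rw [hk']
  have h3 : rho (GOs (qOdd m F)) le_rfl d * x = α⁻¹ * (α * rho (GOs (qOdd m F)) le_rfl d * α⁻¹ * (α * x * α⁻¹)) * α := by group
  rw [h3, hk]
  group

theorem aux2 {F : Type*} [Field F] [Fintype F] (hodd : Odd (Fintype.card F)) {m : ℕ} (hm : 3 ≤ m) (q : (Unit ⊕ (Fin m ⊕ Fin m) → F) → F)
    (hq : q = ⇑(Cfsg.Agent.H22.qOdd m F))
    (x δ : MulAut (Cfsg.POmega F q)) (hx : Cfsg.IsFieldAutClassPOmega q x)
    {r : ℕ} (hr : r.Prime) (hxr : orderOf x = r) (hδ : δ ∈ Cfsg.pgoAut F q) (h : orderOf (δ * x) = r) :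
    Cfsg.IsConjUnder (Cfsg.pgoAut F q) x (δ * x) := by
  subst hq
  exact aux hodd hm x δ hx hr hxr hδ h


/-- Let T = Ω_{2m+1}(F) (m ≥ 3, |F| odd) and x a field automorphism of T of prime order r. Then an element y of the coset Inndiag(T)·x (y = δ x with δ induced by a similarity of the form) has order r if and only if y is conjugate to x by an element of Inndiag(T). (T has no graph or graph-field automorphisms.) -/
theorem result {F : Type*} [Field F] [Fintype F] (hodd : Odd (Fintype.card F)) {m : ℕ} (hm : 3 ≤ m) (x δ : MulAut (Cfsg.POmega F (Cfsg.quadFormOdd m F))) (hx : Cfsg.IsFieldAutClassPOmega (Cfsg.quadFormOdd m F) x) {r : ℕ} (hr : r.Prime) (hxr : orderOf x = r) (hδ : δ ∈ Cfsg.inndiagPOmegaOdd m F) :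
    orderOf (δ * x) = r ↔ Cfsg.IsConjUnder (Cfsg.inndiagPOmegaOdd m F) x (δ * x) := by
  constructor
  · exact aux2 hodd hm _ (Cfsg.Agent.H22.coe_qOdd m).symm x δ hx hr hxr hδ
  · rintro ⟨h, -, hh⟩
    rw [hh, ← hxr]
    exact (MulAut.conj h).orderOf_eq x

end Cfsg.Agent.S2735
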