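import Cfsg.Agent.LibEps27g
-- Template for statement S2736 (row 2736; see /opt/grader/pristine/manifest.json for weights).
-- Copy to Cfsg/Agent/S2736.lean and replace the sorry. The statement below is byte-identical to the frozen
-- statement Cfsg.CfsgFrozen.S2736 (Cfsg/Statements/S2736.lean; the theorem Cfsg.ltd21_pomega_plus_field_type_prime_order_coset_conjugacy);
-- the grader kernel-checks Cfsg.Agent.S2736.result against that frozen type. Keep the theorem IN THIS FILE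
-- (a `result` declared elsewhere and merely imported here is not credited); helpers may live anywhere
-- under Cfsg/Agent/.
import Cfsg.Statements.S2736
-- import your own Cfsg.Agent.* helpers here

set_option autoImplicit false
open Cfsg

namespace Cfsg.Agent.S2736

universe u in
set_option maxHeartbeats 1000000 in
open Cfsg.Agent.H22 CfsgLib.AutO27 CfsgLib.RhoO27 CfsgLib.Semi27 CfsgLib.H9027 CfsgLib.QForm27 CfsgLib.Lift27 CfsgLib.Eps27 in
theorem aux {F : Type u} [Field F] [Fintype F] {m : ℕ} (hm : 4 ≤ m)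
    (q : (Fin (m + 1) ⊕ Fin (m + 1) → F) → F) (hq : q = ⇑(qPlus (m + 1) F))
    (P : Subgroup (MulAut (Cfsg.POmega F q))) (hP : P = Cfsg.autSubgroupOf (fun β : Cfsg.POmega F q ≃* Cfsg.POmega F q => ∃ g : GL (Fin (m + 1) ⊕ Fin (m + 1)) F,
      g ∈ Cfsg.Geo.quadSimilarityGroup (F := F) q ∧ Cfsg.PreservesSingularClasses q (g : Matrix (Fin (m + 1) ⊕ Fin (m + 1)) (Fin (m + 1) ⊕ Fin (m + 1)) F) ∧
        Cfsg.IsInducedBySemilinearPOmega q g (RingEquiv.refl F) β))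
    (x δ : MulAut (Cfsg.POmega F q))
    (hx : (∃ (α φ : MulAut (Cfsg.POmega F q)) (σ : F ≃+* F),
        σ ≠ RingEquiv.refl F ∧ Cfsg.IsFieldAutPOmegaOf q σ φ ∧ α * x * α⁻¹ = φ) ∨
      (∃ (α γ φ : MulAut (Cfsg.POmega F q)) (σ : F ≃+* F) (v : Fin (m + 1) ⊕ Fin (m + 1) → F) (r : GL (Fin (m + 1) ⊕ Fin (m + 1)) F),
        σ ≠ RingEquiv.refl F ∧ q v ≠ 0 ∧ (∀ i, σ (v i) = v i) ∧
        (r : Matrix (Fin (m + 1) ⊕ Fin (m + 1)) (Fin (m + 1) ⊕ Fin (m + 1)) F) = Cfsg.reflectionMatrix q v ∧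
        Cfsg.IsInducedBySemilinearPOmega q r (RingEquiv.refl F) γ ∧
        Cfsg.IsFieldAutPOmegaOf q σ φ ∧ α * x * α⁻¹ = γ * φ)) {r : ℕ} (hr : r.Prime) (hxr : orderOf x = r)
    (hδ : δ ∈ P) (h : orderOf (δ * x) = r) : Cfsg.IsConjUnder P x (δ * x) := by
  subst hq
  have ha := ea_qPlus (F := F) (m := m + 1) (by omega)
  rw [ha.range_Gam _ (fun g => psc_plus ha g)] at hP
  subst hP
  obtain ⟨X, rfl, ho, -⟩ := plus_class hm ha x hx hr hxr
  obtain ⟨d, rfl⟩ := hδ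
  have h1 : CfsgLib.RhoO27.R (qPlus (m + 1) F) X ^ r = 1 := by rw [← hxr, pow_orderOf_eq_one]
  have h2 : (rho ha.Gam ha.Gam_le d * CfsgLib.RhoO27.R (qPlus (m + 1) F) X) ^ r = 1 := by rw [← h, pow_orderOf_eq_one]
  obtain ⟨Y, hY⟩ : ∃ Y : SP (qPlus (m + 1) F), Y = ⟨SemidirectProduct.inl d.1, inl_mem_iff.2 (ha.Gam_le d.2)⟩ * X := ⟨_, rfl⟩
  have hRY : rho ha.Gam ha.Gam_le d * CfsgLib.RhoO27.R (qPlus (m + 1) F) X = CfsgLib.RhoO27.R (qPlus (m + 1) F) Y := by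
    rw [hY, map_mul, rho_def]
  have hE : EP ha X = EP ha Y := by
    rw [hY, map_mul]
    have e1 : EP ha ⟨SemidirectProduct.inl d.1, inl_mem_iff.2 (ha.Gam_le d.2)⟩ = ha.ep ⟨d.1, ha.Gam_le d.2⟩ := rfl
    rw [e1, (ha.mem_Gam.1 d.2).2, one_mul]
  have hr' : Y.1.right = X.1.right := by
    rw [hY]
    show 1 * X.1.right = X.1.right
    rw [one_mul]
  rw [hRY] at h2 ⊢
  obtain ⟨⟨⟨g₁, σ⟩, hX⟩, rfl⟩ : ∃ X', X' = X := ⟨X, rfl⟩
  obtain ⟨⟨⟨g₂, σ'⟩, hY'⟩, rfl⟩ : ∃ Y', Y' = Y := ⟨Y, rfl⟩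
  have hσ : σ' = σ := hr'
  subst hσ
  exact plus_conj (by omega) ha hr ho hX hY' h1 h2 hE


/-- Let T = PΩ⁺_{2m}(F) with m ≥ 5 (dimension ≠ 8) and x a field automorphism or a graph-field automorphism of T of prime order r. Then an element y of the coset Inndiag(T)·x (y = δ x with δ induced by a class-preserving similarity) has order r if and only if y is conjugate to x by an element of Inndiag(T). -/
theorem result {F : Type*} [Field F] [Fintype F] {m : ℕ} (hm : 5 ≤ m) (x δ : MulAut (Cfsg.POmega F (Cfsg.quadFormPlus m F))) (hx : Cfsg.IsFieldAutClassPOmega (Cfsg.quadFormPlus m F) x ∨ Cfsg.IsGraphFieldAutClassPOmegaPlus m x) {r : ℕ} (hr : r.Prime) (hxr : orderOf x = r) (hδ : δ ∈ Cfsg.inndiagPOmegaPlus m F) :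
    orderOf (δ * x) = r ↔ Cfsg.IsConjUnder (Cfsg.inndiagPOmegaPlus m F) x (δ * x) := by
  constructor
  · intro h
    obtain ⟨m, rfl⟩ : ∃ k, m = k + 1 := ⟨m - 1, by omega⟩
    exact aux (by omega) _ (Cfsg.Agent.H22.coe_qPlus (m + 1)).symm _ rfl x δ hx hr hxr hδ h
  · rintro ⟨h, -, hh⟩
    rw [hh, ← hxr]
    exact (MulAut.conj h).orderOf_eq x

end Cfsg.Agent.S2736
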