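import Cfsg.Agent.LibEps27e
-- Template for statement S2737 (row 2737; see /opt/grader/pristine/manifest.json for weights).
-- Copy to Cfsg/Agent/S2737.lean and replace the sorry. The statement below is byte-identical to the frozen
-- statement Cfsg.CfsgFrozen.S2737 (Cfsg/Statements/S2737.lean; the theorem Cfsg.ltd21_pomega_minus_field_prime_order_coset_conjugacy);
-- the grader kernel-checks Cfsg.Agent.S2737.result against that frozen type. Keep the theorem IN THIS FILE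
-- (a `result` declared elsewhere and merely imported here is not credited); helpers may live anywhere
-- under Cfsg/Agent/.
import Cfsg.Statements.S2737
-- import your own Cfsg.Agent.* helpers here

set_option autoImplicit false
open Cfsg

namespace Cfsg.Agent.S2737

universe u in
open Cfsg.Agent.H22 CfsgLib.RhoO27 CfsgLib.AutO27 CfsgLib.Semi27 CfsgLib.H9027 CfsgLib.QForm27 CfsgLib.Lift27 CfsgLib.Eps27 in
theorem aux {F : Type u} [Field F] [Fintype F] {m : ℕ} (hm : 3 ≤ m) (a b : F) (hab : ∀ z₁ z₂ : F, z₁ ^ 2 + a * z₁ * z₂ + b * z₂ ^ 2 = 0 → z₁ = 0 ∧ z₂ = 0)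
    (q : ((Fin m ⊕ Fin m) ⊕ Fin 2 → F) → F) (hq : q = ⇑(qMinus m F a b))
    (P : Subgroup (MulAut (Cfsg.POmega F q))) (hP : P = Cfsg.autSubgroupOf (fun β : Cfsg.POmega F q ≃* Cfsg.POmega F q => ∃ g : GL ((Fin m ⊕ Fin m) ⊕ Fin 2) F,
      g ∈ Cfsg.Geo.quadSimilarityGroup (F := F) q ∧ Cfsg.PreservesSingularClassesMinus m a b (g : Matrix ((Fin m ⊕ Fin m) ⊕ Fin 2) ((Fin m ⊕ Fin m) ⊕ Fin 2) F) ∧
        Cfsg.IsInducedBySemilinearPOmega q g (RingEquiv.refl F) β))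
    (x δ : MulAut (Cfsg.POmega F q)) (a' b' : F) (q' : ((Fin m ⊕ Fin m) ⊕ Fin 2 → F) → F) (hq' : q' = ⇑(qMinus m F a' b'))
    (ψ : Cfsg.POmega F q ≃* Cfsg.POmega F q') (σ : F ≃+* F) (hab' : ∀ z₁ z₂ : F, z₁ ^ 2 + a' * z₁ * z₂ + b' * z₂ ^ 2 = 0 → z₁ = 0 ∧ z₂ = 0)
    (ha' : σ a' = a') (hb' : σ b' = b') (hx : Cfsg.IsFieldAutPOmegaOf q' σ ((ψ.symm.trans x).trans ψ)) {r : ℕ} (hr : r.Prime) (hxr : orderOf x = r)
    (hδ : δ ∈ P) (h : orderOf (δ * x) = r) : Cfsg.IsConjUnder P x (δ * x) := by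
  subst hq hq'
  have ha := ea_qMinus (m := m) (by omega) (disc_ne_zero a b hab)
  have hb := ea_qMinus (m := m) (by omega) (disc_ne_zero a' b' hab')
  rw [ha.range_Gam _ (fun g => psc_minus (by omega) hab ha g)] at hP
  subst hP
  obtain ⟨e, f, u, hG⟩ := good_qMinus hm a' b' hab'
  have hst := std_mem (minus_σ (m := m) ha' hb')
  have hxe : MulAut.congr ψ x = ph hst := (isStd_iff hst _).1 hx
  rw [← minus_inndiag hm hab hab' ha hb ψ] at hδ
  rw [conjUnder_congr (MulAut.congr ψ) _ (rho hb.Gam hb.Gam_le).range (minus_inndiag hm hab hab' ha hb ψ), map_mul]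
  obtain ⟨d, hd⟩ := hδ
  rw [← hd, hxe]
  have hord : orderOf σ = r := by
    rw [← ph_order hG hst, ← hxe, ← hxr]
    exact (MulAut.congr ψ).orderOf_eq x
  have hpow : (rho hb.Gam hb.Gam_le d * ph hst) ^ r = 1 := by
    rw [hd, ← hxe, ← map_mul, ← h, ← map_pow, pow_orderOf_eq_one, map_one]
  have hg2 : (⟨(d : GL ((Fin m ⊕ Fin m) ⊕ Fin 2) F), σ⟩ : GamL ((Fin m ⊕ Fin m) ⊕ Fin 2) F) ∈ SP (qMinus m F a' b') := by
    have h1 := mul_mem (inl_mem_iff.2 (hb.Gam_le d.2)) hst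
    have h2 : (SemidirectProduct.inl (d : GL ((Fin m ⊕ Fin m) ⊕ Fin 2) F) * ⟨1, σ⟩ : GamL ((Fin m ⊕ Fin m) ⊕ Fin 2) F) = ⟨(d : GL ((Fin m ⊕ Fin m) ⊕ Fin 2) F), σ⟩ := by
      apply SemidirectProduct.ext
      · show (d : GL ((Fin m ⊕ Fin m) ⊕ Fin 2) F) * gm 1 1 = _
        rw [map_one, mul_one]
      · show 1 * σ = σ
        rw [one_mul]
    rwa [h2] at h1
  have hR : R (qMinus m F a' b') ⟨_, hg2⟩ = rho hb.Gam hb.Gam_le d * ph hst := by
    unfold ph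
    rw [rho_def, ← map_mul]
    congr 1
    apply Subtype.ext
    apply SemidirectProduct.ext
    · show (d : GL ((Fin m ⊕ Fin m) ⊕ Fin 2) F) = (d : GL ((Fin m ⊕ Fin m) ⊕ Fin 2) F) * gm 1 1
      rw [map_one, mul_one]
    · show σ = 1 * σ
      rw [one_mul]
  rw [← hR] at hpow ⊢
  obtain ⟨t, ht⟩ := minus_adp hm hab' ha' hb' hr.pos hord hg2 hpow
  have hw : σ ∘ (Pi.single (.inr 0) 1 : (Fin m ⊕ Fin m) ⊕ Fin 2 → F) = Pi.single (.inr 0) 1 := comp_single σ _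
  exact adp_conj hG.gd hb hb hw (fr_qMinus m a' b').qu (minus_σ ha' hb') _ t (adp_rfl _ σ) ht hst hg2


/-- Let T = PΩ⁻_{2m+2}(F) (m ≥ 3; form with anisotropic binary part) and x a field automorphism of T of prime order r. Then an element y of the coset Inndiag(T)·x has order r if and only if y is conjugate to x by an element of Inndiag(T). (T has no graph-field automorphisms.) -/
theorem result {F : Type*} [Field F] [Fintype F] {m : ℕ} (hm : 3 ≤ m) (a b : F) (hab : (∀ z₁ z₂ : F, z₁ ^ 2 + a * z₁ * z₂ + b * z₂ ^ 2 = 0 → z₁ = 0 ∧ z₂ = 0)) (x δ : MulAut (Cfsg.POmega F (Cfsg.quadFormMinus m F a b))) (hx : Cfsg.IsFieldAutClassPOmegaMinus m x) {r : ℕ} (hr : r.Prime) (hxr : orderOf x = r) (hδ : δ ∈ Cfsg.inndiagPOmegaMinus m F a b) :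
    orderOf (δ * x) = r ↔ Cfsg.IsConjUnder (Cfsg.inndiagPOmegaMinus m F a b) x (δ * x) := by
  constructor
  · intro h
    obtain ⟨a', b', ψ, σ, hab', -, ha', hb', hst⟩ := hx
    exact aux hm a b hab _ (Cfsg.Agent.H22.coe_qMinus m a b).symm _ rfl x δ a' b' _ (Cfsg.Agent.H22.coe_qMinus m a' b').symm ψ σ hab' ha' hb' hst hr hxr hδ h
  · rintro ⟨h, -, hh⟩
    rw [hh, ← hxr]
    exact (MulAut.conj h).orderOf_eq x

end Cfsg.Agent.S2737
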