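import Cfsg.Statements.S2760
import Cfsg.Agent.LibLE13

set_option autoImplicit false
open Cfsg

namespace Cfsg.Agent.S2760




/-- Let G be a finite group with C_G(O₂(G)) ≤ O₂(G) and H a subgroup of G such that H is normal in G, or the subgroup O²(H) generated by the elements of H of odd order is normal in G. Then C_H(O₂(H)) ≤ O₂(H). -/
theorem result {G : Type*} [Group G] [Finite G] (hchar : Subgroup.centralizer (Cfsg.pCore 2 G : Set G) ≤ Cfsg.pCore 2 G) (H : Subgroup G) (hH : H.Normal ∨ ((Cfsg.pResidual 2 ↥H).map H.subtype).Normal) : Subgroup.centralizer (Cfsg.pCore 2 ↥H : Set ↥H) ≤ Cfsg.pCore 2 ↥H := by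
  have hG : CfsgLib.LE.CharPOf 2 (⊤ : Subgroup G) := CfsgLib.LE.charPOf_top_iff.2 hchar
  haveI : Fact (Nat.Prime 2) := ⟨Nat.prime_two⟩
  rw [← CfsgLib.LE.charPOf_iff_type]
  rcases hH with hH | hH
  · exact hG.normal le_top (by rw [Subgroup.normalizer_eq_top_iff.2 hH])
  · set E := (Cfsg.pResidual 2 ↥H).map H.subtype with hE
    have hEc : CfsgLib.LE.CharPOf 2 E := hG.normal le_top (by rw [Subgroup.normalizer_eq_top_iff.2 hH])
    have hEH : E ≤ H := Subgroup.map_subtype_le _
    apply CfsgLib.LE.charPOf_of_sub hEc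
    · exact CfsgLib.LE.pCoreOf_le_pCoreOf_of_normal hEH (by rw [Subgroup.normalizer_eq_top_iff.2 hH]; exact le_top)
    · intro x hx hco _
      refine ⟨⟨x, hx⟩, CfsgLib.LE.mem_pResidual_of_coprime ?_, rfl⟩
      rw [Subgroup.orderOf_mk]; exact hco

end Cfsg.Agent.S2760
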