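import Cfsg.Statements.S2791
import Cfsg.Agent.LibFus21Norm2
import Cfsg.Agent.LibFus21Grp

set_option autoImplicit false
open Cfsg

namespace Cfsg.Agent.S2791




/-- Let S be a Sylow p-subgroup of the finite group G and A an abelian subgroup of S that is strongly closed in S with respect to G. Then A controls strong fusion in G: for some Sylow p-subgroup T containing A, whenever a subset of T is conjugated into T by an element of G, the same elementwise conjugation is induced by an element of N_G(A). -/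
theorem result {G : Type*} [Group G] [Finite G] {p : ℕ} [Fact p.Prime] (S : Sylow p G) (A : Subgroup G) (hA : IsMulCommutative ↥A) (hsc : Cfsg.IsStronglyClosed A (S : Subgroup G)) : Cfsg.ControlsStrongFusion p A := by
  have hSC : (Cfsg.groupFusionSystem (S : Subgroup G)).StronglyClosed A := by
    refine ⟨hsc.1, ?_⟩
    intro R hR φ hφ x
    obtain ⟨-, h2, g, h3⟩ := hφ
    rw [h3]
    exact hsc.2 x (hR x.2) g (by rw [← h3]; exact h2 x)
  have hab : ⁅A, A⁆ = ⊥ := by
    rw [Subgroup.commutator_eq_bot_iff_le_centralizer]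
    intro x hx
    rw [Subgroup.mem_centralizer_iff]
    intro y hy
    exact congrArg Subtype.val (hA.is_comm.comm (⟨y, hy⟩ : ↥A) ⟨x, hx⟩)
  have hN := CfsgLib.Fus21.isNormal_of_abelian S.2 (CfsgLib.Fus21.group_saturated S) hSC hab
  refine ⟨S, hsc.1, ?_⟩
  intro X hX
  refine ⟨hX, ?_⟩
  intro g hg
  set P := Subgroup.closure X with hP
  have hPS : P ≤ (S : Subgroup G) := by rw [hP, Subgroup.closure_le]; exact hX
  have hPg : ∀ x ∈ P, g * x * g⁻¹ ∈ (S : Subgroup G) := by
    intro x hx
    have h1 : P ≤ ((S : Subgroup G)).comap (MulAut.conj g).toMonoidHom := by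
      rw [hP, Subgroup.closure_le]
      intro y hy
      exact hg ⟨y, hy, rfl⟩
    exact h1 hx
  have hφ : Cfsg.conjHom P g ∈ (Cfsg.groupFusionSystem (S : Subgroup G)).Hom P :=
    ⟨hPS, fun x => hPg x x.2, g, fun x => rfl⟩
  obtain ⟨ψ, ⟨-, -, z, hz⟩, h1, h2⟩ := hN.2 P _ hφ
  refine ⟨z, ?_, ?_⟩
  · have hzA : ∀ a ∈ A, z * a * z⁻¹ ∈ A := by
      intro a ha
      rw [← h2]
      exact ⟨⟨a, Subgroup.mem_sup_right ha⟩, ha, hz _⟩
    rw [Subgroup.mem_normalizer_iff]
    intro a
    refine ⟨hzA a, fun ha => ?_⟩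
    have h3 : z * a * z⁻¹ ∈ (A.subgroupOf (P ⊔ A)).map ψ := by rw [h2]; exact ha
    obtain ⟨b, hb, hba⟩ := h3
    rw [hz] at hba
    have : (b : G) = a := mul_left_cancel (mul_right_cancel hba)
    rw [← this]; exact hb
  · intro a ha
    have haP : a ∈ P := Subgroup.subset_closure ha
    have h3 := h1 ⟨a, haP⟩
    rw [hz] at h3
    exact h3.symm

end Cfsg.Agent.S2791
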