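import Cfsg.Statements.S3085
import Mathlib
import Cfsg.Agent.LibLE11Ex2

set_option autoImplicit false
set_option linter.all false
open Cfsg

namespace Cfsg.Agent.S3085

open CfsgLib.LE11Ex2 Subgroup

/-- nonsplitting -/
theorem core {Q : Type*} [Group Q] [Finite Q] {z : Q} (h : Z2 z) (E : Subgroup Q)
    (hE1 : ∀ x ∈ E, x * x = 1) (hE2 : ∀ x ∈ E, ∀ y ∈ E, b x y = 0) (hcard : 16 ≤ Nat.card E)
    (L : Subgroup (MulAut Q)) (hL : (Cfsg.Inn Q).IsComplement' L) : False := by
  obtain ⟨e1, e2, e3, x1, x2, x3, a11, a12, a13, a21, a22, a23, a31, a32, a33, b12, b13, b23, q1, q2, q3⟩ :=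
    exists_triple h E hE1 hE2 hcard
  have b21 : b x2 x1 = 0 := by rw [b_comm]; exact b12
  have b31 : b x3 x1 = 0 := by rw [b_comm]; exact b13
  have b32 : b x3 x2 = 0 := by rw [b_comm]; exact b23
  have c12 : x1 * x2 = x2 * x1 := b_eq_zero.1 b12
  have c13 : x1 * x3 = x3 * x1 := b_eq_zero.1 b13
  have c23 : x2 * x3 = x3 * x2 := b_eq_zero.1 b23
  obtain ⟨x4, hx4⟩ : ∃ x4, x4 = x1 * x2 * x3 := ⟨_, rfl⟩
  have q4 : x4 * x4 = z := by
    have e0 : x1 * x2 * x3 * (x1 * x2 * x3) = (x1 * x1) * (x2 * x2) * (x3 * x3) := by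
      calc x1 * x2 * x3 * (x1 * x2 * x3) = x1 * x2 * (x3 * x1) * x2 * x3 := by simp only [mul_assoc]
        _ = x1 * (x2 * x1) * (x3 * x2) * x3 := by rw [← c13]; simp only [mul_assoc]
        _ = x1 * x1 * x2 * (x2 * x3) * x3 := by rw [← c12, ← c23]; simp only [mul_assoc]
        _ = _ := by simp only [mul_assoc]
    rw [hx4, e0, q1, q2, q3, h.sq, one_mul]
  have b4 : ∀ y, b x4 y = b x1 y + b x2 y + b x3 y := by
    intro y; rw [hx4, h.b_mul_left, h.b_mul_left]
  have b4' : ∀ y, b y x4 = b y x1 + b y x2 + b y x3 := by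
    intro y; rw [hx4, h.b_mul_right, h.b_mul_right]
  have b14 : b x1 x4 = 0 := by rw [b4', b_self, b12, b13]; decide
  have b24 : b x2 x4 = 0 := by rw [b4', b_self, b21, b23]; decide
  have b34 : b x3 x4 = 0 := by rw [b4', b_self, b31, b32]; decide
  let A : MulAut Q := T h q1 * T h q2
  let B : MulAut Q := T h q2 * (T h q3 * T h q4)
  have hA : ∀ y, A y = Tfun x1 (Tfun x2 y) := fun y => rfl
  have hB : ∀ y, B y = Tfun x2 (Tfun x3 (Tfun x4 y)) := fun y => rfl
  -- commuting of the T's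
  have tc : ∀ (x x' : Q) (hx : x * x = z) (hx' : x' * x' = z), b x x' = 0 → T h hx * T h hx' = T h hx' * T h hx := by
    intro x x' hx hx' hb
    ext y
    exact h.Tfun_comm hb y
  have tsq : ∀ (x : Q) (hx : x * x = z), T h hx * T h hx = MulAut.conj x := by
    intro x hx
    ext y
    exact h.Tfun_sq hx y
  have t12 := tc x1 x2 q1 q2 b12
  have t13 := tc x1 x3 q1 q3 b13
  have t14 := tc x1 x4 q1 q4 b14
  have t23 := tc x2 x3 q2 q3 b23
  have t24 := tc x2 x4 q2 q4 b24
  have t34 := tc x3 x4 q3 q4 b34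
  have cc : ∀ (x x' : Q) (hx : x * x = z), b x x' = 0 → T h hx * MulAut.conj x' = MulAut.conj x' * T h hx := by
    intro x x' hx hb
    have h1 : Tfun x x' = x' := by rw [Tfun, hb]; simp
    ext y
    show Tfun x (x' * y * x'⁻¹) = x' * Tfun x y * x'⁻¹
    have h2 : Tfun x (x' * y * x'⁻¹) = T h hx (x' * y * x'⁻¹) := rfl
    rw [h2, map_mul, map_mul, map_inv]
    show Tfun x x' * Tfun x y * (Tfun x x')⁻¹ = _
    rw [h1]
  have hAA : A * A = MulAut.conj (x1 * x2) := by
    show (T h q1 * T h q2) * (T h q1 * T h q2) = _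
    calc (T h q1 * T h q2) * (T h q1 * T h q2) = T h q1 * (T h q2 * T h q1) * T h q2 := by simp only [mul_assoc]
      _ = (T h q1 * T h q1) * (T h q2 * T h q2) := by rw [← t12]; simp only [mul_assoc]
      _ = _ := by rw [tsq, tsq, map_mul]
  have hBB : B * B = MulAut.conj (x2 * x3 * x4) := by
    show (T h q2 * (T h q3 * T h q4)) * (T h q2 * (T h q3 * T h q4)) = _
    calc (T h q2 * (T h q3 * T h q4)) * (T h q2 * (T h q3 * T h q4))
        = T h q2 * T h q3 * (T h q4 * T h q2) * T h q3 * T h q4 := by simp only [mul_assoc]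
      _ = T h q2 * (T h q3 * T h q2) * (T h q4 * T h q3) * T h q4 := by rw [← t24]; simp only [mul_assoc]
      _ = (T h q2 * T h q2) * (T h q3 * T h q3) * (T h q4 * T h q4) := by
          rw [← t23, ← t34]; simp only [mul_assoc]
      _ = _ := by rw [tsq, tsq, tsq, map_mul, map_mul]
  have hAB : A * B = B * A := by
    have l1 : Commute (T h q2) B := (Commute.refl _).mul_right (Commute.mul_right t23 t24)
    have l2 : Commute (T h q1) B := Commute.mul_right t12 (Commute.mul_right t13 t14)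
    exact (Commute.mul_left l2 l1)
  have hconjmul : ∀ (φ : MulAut Q) (w : Q), φ * MulAut.conj w = MulAut.conj (φ w) * φ := by
    intro φ w
    ext y
    show φ (w * y * w⁻¹) = φ w * φ y * (φ w)⁻¹
    rw [map_mul, map_mul, map_inv]
  have hinn : ∀ w : Q, MulAut.conj w ∈ L → w ∈ center Q := by
    intro w hw
    have h1 := hL.disjoint
    rw [Subgroup.disjoint_def] at h1
    have h2 : MulAut.conj w = 1 := h1 ⟨w, rfl⟩ hw
    rw [mem_center_iff]
    intro g
    have h3 : w * g * w⁻¹ = g := by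
      have := congrArg (fun φ : MulAut Q => φ g) h2
      exact this
    calc g * w = (w * g * w⁻¹) * w := by rw [h3]
      _ = w * g := by group
  have hdec : ∀ φ : MulAut Q, ∃ w : Q, MulAut.conj w * φ ∈ L := by
    intro φ
    have h1 : φ ∈ (Cfsg.Inn Q) ⊔ L := by rw [hL.sup_eq_top]; trivial
    rw [Subgroup.mem_sup_of_normal_left] at h1
    obtain ⟨_, ⟨w, rfl⟩, l, hl, hwl⟩ := h1
    refine ⟨w⁻¹, ?_⟩
    rw [← hwl, map_inv, inv_mul_cancel_left]
    exact hl
  obtain ⟨v, hv⟩ := hdec A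
  obtain ⟨w, hw⟩ := hdec B
  -- the three constraints
  have r1 : v * A v * (x1 * x2) ∈ center Q := by
    apply hinn
    have e0 : MulAut.conj (v * A v * (x1 * x2)) = (MulAut.conj v * A) * (MulAut.conj v * A) := by
      calc MulAut.conj (v * A v * (x1 * x2)) = MulAut.conj v * MulAut.conj (A v) * (A * A) := by
            rw [map_mul, map_mul, hAA]
        _ = MulAut.conj v * (MulAut.conj (A v) * A) * A := by simp only [mul_assoc]
        _ = MulAut.conj v * (A * MulAut.conj v) * A := by rw [hconjmul]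
        _ = _ := by simp only [mul_assoc]
    rw [e0]; exact L.mul_mem hv hv
  have r2 : w * B w * (x2 * x3 * x4) ∈ center Q := by
    apply hinn
    have e0 : MulAut.conj (w * B w * (x2 * x3 * x4)) = (MulAut.conj w * B) * (MulAut.conj w * B) := by
      calc MulAut.conj (w * B w * (x2 * x3 * x4)) = MulAut.conj w * MulAut.conj (B w) * (B * B) := by
            rw [map_mul, map_mul, hBB]
        _ = MulAut.conj w * (MulAut.conj (B w) * B) * B := by simp only [mul_assoc]
        _ = MulAut.conj w * (B * MulAut.conj w) * B := by rw [hconjmul]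
        _ = _ := by simp only [mul_assoc]
    rw [e0]; exact L.mul_mem hw hw
  have r3 : v * A w * (w * B v)⁻¹ ∈ center Q := by
    apply hinn
    have e1' : (MulAut.conj v * A) * (MulAut.conj w * B) = MulAut.conj (v * A w) * (A * B) := by
      calc (MulAut.conj v * A) * (MulAut.conj w * B) = MulAut.conj v * (A * MulAut.conj w) * B := by
            simp only [mul_assoc]
        _ = MulAut.conj v * (MulAut.conj (A w) * A) * B := by rw [hconjmul]
        _ = _ := by rw [map_mul]; simp only [mul_assoc]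
    have e2' : (MulAut.conj w * B) * (MulAut.conj v * A) = MulAut.conj (w * B v) * (A * B) := by
      calc (MulAut.conj w * B) * (MulAut.conj v * A) = MulAut.conj w * (B * MulAut.conj v) * A := by
            simp only [mul_assoc]
        _ = MulAut.conj w * (MulAut.conj (B v) * B) * A := by rw [hconjmul]
        _ = MulAut.conj (w * B v) * (B * A) := by rw [map_mul]; simp only [mul_assoc]
        _ = _ := by rw [hAB]
    have e0 : MulAut.conj (v * A w * (w * B v)⁻¹) = ((MulAut.conj v * A) * (MulAut.conj w * B)) *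
        ((MulAut.conj w * B) * (MulAut.conj v * A))⁻¹ := by
      rw [e1', e2', map_mul, map_inv]
      group
    rw [e0]; exact L.mul_mem (L.mul_mem hv hw) (L.inv_mem (L.mul_mem hw hv))
  -- evaluate
  have evA : ∀ e y, b e (A y) = b e y + b x2 y * b e x2 + b x1 y * b e x1 := by
    intro e y
    rw [hA, h.b_Tfun, h.b_Tfun, h.b_Tfun x1 x2 y, b12, mul_zero, add_zero]
  have evB : ∀ e y, b e (B y) = b e y + b x4 y * b e x4 + b x3 y * b e x3 + b x2 y * b e x2 := by
    intro e y
    rw [hB, h.b_Tfun, h.b_Tfun, h.b_Tfun e x4, h.b_Tfun x3 x4 y, h.b_Tfun x2 x3, h.b_Tfun x2 x4 y, b34, b23, b24]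
    simp only [mul_zero, add_zero]
  have s1 : ∀ e, b e v + b e (A v) + (b e x1 + b e x2) = 0 := by
    intro e
    have := h.b_center r1 e
    rwa [h.b_mul_right, h.b_mul_right, h.b_mul_right] at this
  have s2 : ∀ e, b e w + b e (B w) + (b e x2 + b e x3 + b e x4) = 0 := by
    intro e
    have := h.b_center r2 e
    rwa [h.b_mul_right, h.b_mul_right, h.b_mul_right, h.b_mul_right] at this
  have s3 : ∀ e, b e v + b e (A w) + (b e w + b e (B v)) = 0 := by
    intro e
    have := h.b_center r3 e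
    rwa [h.b_mul_right, h.b_mul_right, h.b_inv, h.b_mul_right] at this
  have u11 := s1 e1
  have u12 := s1 e2
  have u21 := s2 e1
  have u22 := s2 e2
  have u23 := s2 e3
  have u31 := s3 e1
  have u32 := s3 e2
  simp only [evA, evB, b4, b4', a11, a12, a13, a21, a22, a23, a31, a32, a33] at u11 u12 u21 u22 u23 u31 u32
  have w11 := (by decide : ∀ p r1 r2 : ZMod 2, p + (p + r2 * 0 + r1 * 1) + (1 + 0) = 0 → r1 = 1) _ _ _ u11
  have w12 := (by decide : ∀ p r1 r2 : ZMod 2, p + (p + r2 * 1 + r1 * 0) + (0 + 1) = 0 → r2 = 1) _ _ _ u12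
  have w21 := (by decide : ∀ p s r5 r6 : ZMod 2,
    p + (p + s * (1 + 0 + 0) + r6 * 0 + r5 * 0) + (0 + 0 + (1 + 0 + 0)) = 0 → s = 1) _ _ _ _ u21
  have w22 := (by decide : ∀ p s r5 r6 : ZMod 2,
    p + (p + s * (0 + 1 + 0) + r6 * 0 + r5 * 1) + (1 + 0 + (0 + 1 + 0)) = 0 → r5 = s) _ _ _ _ u22
  have w23 := (by decide : ∀ p s r5 r6 : ZMod 2,
    p + (p + s * (0 + 0 + 1) + r6 * 1 + r5 * 0) + (0 + 1 + (0 + 0 + 1)) = 0 → r6 = s) _ _ _ _ u23
  have w31 := (by decide : ∀ p1 p4 r4 r5 s r3 r2 : ZMod 2,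
    p1 + (p4 + r5 * 0 + r4 * 1) + (p4 + (p1 + s * (1 + 0 + 0) + r3 * 0 + r2 * 0)) = 0 → r4 = s) _ _ _ _ _ _ _ u31
  have w32 := (by decide : ∀ p2 p5 r4 r5 s r3 r2 : ZMod 2,
    p2 + (p5 + r5 * 1 + r4 * 0) + (p5 + (p2 + s * (0 + 1 + 0) + r3 * 0 + r2 * 1)) = 0 → r5 = s + r2) _ _ _ _ _ _ _ u32
  rw [w21] at w22 w23
  rw [w22, w23] at w21
  rw [w11, w12] at w31 w32
  rw [w22] at w32
  exact (by decide : ∀ r3 r4 : ZMod 2, r4 + 1 + 1 = 1 → r4 = 1 + 1 + r3 → 1 = 1 + 1 + r3 + 1 → False) _ _ w21 w31 w32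

/-- Let Q be an extraspecial 2-group of order 2^(2n+1) with n ≥ 3 that is of plus type (it contains an elementary abelian subgroup of order 2^(n+1)). Then the group of inner automorphisms of Q has no complement in the full automorphism group of Q: the extension of the inner automorphism group (elementary abelian of order 2^(2n)) by the outer automorphism group (the orthogonal group of plus type) does not split. -/
theorem result {Q : Type*} [Group Q] [Finite Q] (n : ℕ) (hn : 3 ≤ n) (hQ : Cfsg.IsExtraspecial 2 Q) (hcard : Nat.card Q = 2 ^ (2 * n + 1)) (hplus : ∃ E : Subgroup Q, Cfsg.IsElementaryAbelian 2 E ∧ Nat.card ↥E = 2 ^ (n + 1)) (L : Subgroup (MulAut Q)) : ¬ (Cfsg.Inn Q).IsComplement' L := by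
  intro hL
  obtain ⟨z, hz1, hz2, hz3, hz4⟩ := exists_z hQ
  have hz : Z2 z := ⟨hQ, hz1, hz2, hz3, hz4⟩
  obtain ⟨E, ⟨hEc, hE1⟩, hEcard⟩ := hplus
  refine core hz E (fun x hx => by rw [← pow_two]; exact hE1 x hx) ?_ ?_ L hL
  · intro x hx y hy
    exact b_eq_zero.2 (congrArg Subtype.val (hEc.is_comm.comm ⟨x, hx⟩ ⟨y, hy⟩))
  · rw [hEcard]
    calc 16 = 2 ^ 4 := by norm_num
      _ ≤ 2 ^ (n + 1) := Nat.pow_le_pow_right (by norm_num) (by omega)

end Cfsg.Agent.S3085
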