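import Cfsg.Statements.S3116
import Mathlib

set_option autoImplicit false
open Cfsg

namespace Cfsg.Agent.S3116

open Subgroup

theorem pow_aux {N i m : ℕ} (hi : Odd i) (hm : Odd m) (h : i ^ m ≡ 1 [MOD 2 ^ N]) : i ≡ 1 [MOD 2 ^ N] := by
  rcases Nat.eq_zero_or_pos i with h0 | hpos
  · rw [h0] at hi; exact absurd hi (by decide)
  have h1 : ((i : ℤ) ^ m - 1) = ((i : ℤ) - 1) * ∑ k ∈ Finset.range m, (i : ℤ) ^ k := by
    rw [mul_comm, geom_sum_mul]
  have h2 : ((2 : ℤ) ^ N) ∣ (i : ℤ) ^ m - 1 := by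
    have := (Nat.modEq_iff_dvd.1 h.symm)
    push_cast at this
    exact this
  rw [h1] at h2
  have h3 : Odd (∑ k ∈ Finset.range m, (i : ℤ) ^ k) := by
    have haux : ∀ m : ℕ, Even ((∑ k ∈ Finset.range m, (i : ℤ) ^ k) - m) := by
      intro m
      induction m with
      | zero => simp
      | succ m ih =>
        rw [Finset.sum_range_succ]
        have h6 : Odd ((i : ℤ) ^ m) := Odd.pow (by exact_mod_cast hi)
        push_cast
        have h7 : Even ((i : ℤ) ^ m - 1) := Odd.sub_odd h6 odd_one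
        have h8 := ih.add h7
        have h9 : ∑ k ∈ Finset.range m, (i : ℤ) ^ k - ↑m + ((i : ℤ) ^ m - 1) =
          ∑ x ∈ Finset.range m, (i : ℤ) ^ x + (i : ℤ) ^ m - (↑m + 1) := by ring
        rwa [h9] at h8
    have h10 := (haux m).add_odd (show Odd (m : ℤ) by exact_mod_cast hm)
    rwa [sub_add_cancel] at h10
  have h4 : IsCoprime ((2 : ℤ) ^ N) (∑ k ∈ Finset.range m, (i : ℤ) ^ k) := by
    apply IsCoprime.pow_left
    exact Int.isCoprime_two_left.2 h3
  have h5 := h4.dvd_of_dvd_mul_right h2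
  exact (Nat.modEq_iff_dvd.2 (by push_cast; exact h5)).symm

theorem core {X : Type*} [Group X] [Finite X] (h2 : IsPGroup 2 X) (a b : X)
    (hb : ∀ x : X, x ∉ zpowers a → b⁻¹ * x ∈ zpowers a) (hbn : b ∉ zpowers a)
    (ha : ∀ ψ : MulAut X, ψ a ∈ zpowers a) : IsPGroup 2 (MulAut X) := by
  have : Fact (Nat.Prime 2) := ⟨Nat.prime_two⟩
  obtain ⟨N, hN⟩ : ∃ N, orderOf a = 2 ^ N := (IsPGroup.iff_orderOf.1 h2) a
  have haN : a ^ 2 ^ N = 1 := by rw [← hN, pow_orderOf_eq_one]
  have hpw : ∀ k : ℕ, a ^ k = 1 ↔ 2 ^ N ∣ k := by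
    intro k; rw [← hN]; exact orderOf_dvd_iff_pow_eq_one.symm
  intro ψ
  obtain ⟨k, m, hm, hom⟩ := Nat.exists_eq_pow_mul_and_not_dvd (orderOf_pos ψ).ne' 2 (by norm_num)
  have hmodd : Odd m := Nat.not_even_iff_odd.1 (fun h => hm h.two_dvd)
  refine ⟨k, ?_⟩
  set φ : MulAut X := ψ ^ 2 ^ k with hφ
  have hφm : φ ^ m = 1 := by rw [hφ, ← pow_mul, ← hom, pow_orderOf_eq_one]
  -- action on `a`
  have hmem : ∀ x : X, x ∈ zpowers a → ∃ i : ℕ, x = a ^ i := by
    intro x hx
    obtain ⟨i, hi⟩ := mem_powers_iff_mem_zpowers.2 hx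
    exact ⟨i, hi.symm⟩
  obtain ⟨i, hi⟩ := hmem _ (ha φ)
  have hiter : ∀ t : ℕ, (φ ^ t) a = a ^ (i ^ t) := by
    intro t
    induction t with
    | zero => simp
    | succ t ih =>
      rw [pow_succ', MulAut.mul_apply, ih, map_pow, hi, ← pow_mul, pow_succ', mul_comm]
  have hφa : φ a = a := by
    rcases Nat.eq_zero_or_pos N with hN0 | hNpos
    · have : a = 1 := by rw [hN0] at haN; simpa using haN
      rw [this, map_one]
    · have hiodd : Odd i := by
        rw [← Nat.not_even_iff_odd]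
        intro he
        obtain ⟨j, hj⟩ := he.two_dvd
        have h1 : (φ a) ^ 2 ^ (N - 1) = 1 := by
          rw [hi, ← pow_mul, hj, hpw]
          refine ⟨j, ?_⟩
          have : 2 ^ N = 2 * 2 ^ (N - 1) := by
            rw [← pow_succ']; congr 1; omega
          rw [this]; ring
        have h3 : a ^ 2 ^ (N - 1) = 1 := by
          rw [← map_pow] at h1
          exact (map_eq_one_iff φ φ.injective).1 h1
        rw [hpw] at h3
        have h4 := Nat.le_of_dvd (by positivity) h3
        have h5 : 2 ^ (N - 1) < 2 ^ N := Nat.pow_lt_pow_right (by norm_num) (by omega)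
        omega
      have h1 := hiter m
      rw [hφm, MulAut.one_apply] at h1
      have h3 : a ^ (i ^ m) = a ^ 1 := by rw [pow_one]; exact h1.symm
      rw [pow_eq_pow_iff_modEq, hN] at h3
      have h4 := pow_aux hiodd hmodd h3
      rw [hi]
      conv_rhs => rw [← pow_one a]
      rw [pow_eq_pow_iff_modEq, hN]
      exact h4
  have hfix : ∀ x ∈ zpowers a, φ x = x := by
    intro x hx
    obtain ⟨j, rfl⟩ := hmem x hx
    rw [map_pow, hφa]
  -- action on `b`
  have hφb : φ b ∉ zpowers a := by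
    intro h
    apply hbn
    have h1 := hfix _ h
    have := φ.injective h1
    rw [← this]; exact h
  obtain ⟨j, hj⟩ := hmem _ (hb _ hφb)
  have hj' : φ b = b * a ^ j := by rw [← hj, mul_inv_cancel_left]
  have hiter2 : ∀ t : ℕ, (φ ^ t) b = b * a ^ (j * t) := by
    intro t
    induction t with
    | zero => simp
    | succ t ih =>
      rw [pow_succ', MulAut.mul_apply, ih, map_mul, hj', map_pow, hφa, mul_assoc, ← pow_add]
      congr 2; ring
  have hφb' : φ b = b := by
    have h1 := hiter2 m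
    rw [hφm, MulAut.one_apply] at h1
    have h3 : a ^ (j * m) = 1 := by
      have : b * 1 = b * a ^ (j * m) := by rw [mul_one]; exact h1
      exact (mul_left_cancel this).symm
    rw [hpw] at h3
    have h4 : Nat.Coprime (2 ^ N) m := (Nat.coprime_two_left.2 hmodd).pow_left N
    have h5 := h4.dvd_of_dvd_mul_right h3
    rw [hj', (hpw j).2 h5, mul_one]
  ext x
  rw [MulAut.one_apply]
  by_cases hx : x ∈ zpowers a
  · exact hfix x hx
  · have h1 := hb x hx
    have h3 : x = b * (b⁻¹ * x) := by rw [mul_inv_cancel_left]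
    conv_lhs => rw [h3, map_mul, hφb', hfix _ h1]
    rw [mul_inv_cancel_left]



/-- The automorphism group of a dihedral 2-group of order at least 8, or of a quasi-dihedral (semidihedral) 2-group of order at least 16, is a 2-group. -/
theorem result {X : Type*} [Group X] [Finite X] (h2 : IsPGroup 2 X)
    (h : (∃ n : ℕ, 4 ≤ n ∧ Nonempty (X ≃* DihedralGroup n)) ∨ Cfsg.IsQuasiDihedral X) : IsPGroup 2 (MulAut X) := by
  rcases h with ⟨n, hn, ⟨e⟩⟩ | h
  · have hnz : NeZero n := ⟨by omega⟩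
    have hD : IsPGroup 2 (DihedralGroup n) := h2.of_equiv e
    have h1 : IsPGroup 2 (MulAut (DihedralGroup n)) := by
      refine core hD (DihedralGroup.r 1) (DihedralGroup.sr 0) ?_ ?_ ?_
      · intro x hx
        rcases x with i | i
        · exfalso
          apply hx
          refine ⟨(i.val : ℤ), ?_⟩
          show (DihedralGroup.r 1 : DihedralGroup n) ^ ((i.val : ℕ) : ℤ) = _
          rw [zpow_natCast, DihedralGroup.r_one_pow, ZMod.natCast_zmod_val]
        · refine ⟨(i.val : ℤ), ?_⟩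
          show (DihedralGroup.r 1 : DihedralGroup n) ^ ((i.val : ℕ) : ℤ) = _
          rw [zpow_natCast, DihedralGroup.r_one_pow, ZMod.natCast_zmod_val]
          have : (DihedralGroup.sr 0 : DihedralGroup n)⁻¹ = DihedralGroup.sr 0 := rfl
          rw [this, DihedralGroup.sr_mul_sr, sub_zero]
      · rintro ⟨i, hi⟩
        simp only [DihedralGroup.r_zpow, reduceCtorEq] at hi
      · intro ψ
        have ho : orderOf (ψ (DihedralGroup.r 1)) = n := by
          rw [MulEquiv.orderOf_eq]
          exact DihedralGroup.orderOf_r_one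
        rcases hx : ψ (DihedralGroup.r 1) with i | i
        · refine ⟨(i.val : ℤ), ?_⟩
          show (DihedralGroup.r 1 : DihedralGroup n) ^ ((i.val : ℕ) : ℤ) = _
          rw [zpow_natCast, DihedralGroup.r_one_pow, ZMod.natCast_zmod_val]
        · exfalso
          rw [hx, DihedralGroup.orderOf_sr] at ho
          omega
    exact h1.of_equiv (MulAut.congr e).symm
  · obtain ⟨n, hn, hcard, x, y, hx, hy, hrel⟩ := h
    have hyx : y ∉ Subgroup.zpowers x := by
      intro hmem
      have hc : y * x = x * y := by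
        obtain ⟨i, rfl⟩ := hmem
        exact (Commute.zpow_self x i)
      have h1 : x ^ (2 ^ (n - 1) - 1) = x := by
        rw [← hrel, hc, mul_inv_cancel_right]
      have h3 : x ^ (2 ^ (n - 1) - 1) = x ^ 1 := by rw [pow_one]; exact h1
      rw [pow_eq_pow_iff_modEq, hx] at h3
      have h4 : 2 ^ 2 ≤ 2 ^ (n - 1) := Nat.pow_le_pow_right (by norm_num) (by omega)
      have h5 : 2 ^ n = 2 * 2 ^ (n - 1) := by rw [← pow_succ']; congr 1; omega
      have h6 := Nat.ModEq.eq_of_lt_of_lt h3 (by omega) (by omega)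
      omega
    have hidx : (Subgroup.zpowers x).index = 2 := by
      have h1 := (Subgroup.zpowers x).card_mul_index
      rw [Nat.card_zpowers, hx, hcard, pow_succ] at h1
      exact Nat.eq_of_mul_eq_mul_left (by positivity) h1
    have hout : ∀ z : X, z ∉ Subgroup.zpowers x → y⁻¹ * z ∈ Subgroup.zpowers x := by
      intro z hz
      have := Subgroup.mul_mem_iff_of_index_two hidx (a := y⁻¹) (b := z)
      rw [this]
      constructor
      · intro h; exact absurd (inv_mem_iff.1 h) hyx
      · intro h; exact absurd h hz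
    refine core h2 x y hout hyx ?_
    intro ψ
    by_contra hψ
    have h1 := hout _ hψ
    obtain ⟨i, hi⟩ : ∃ i : ℤ, x ^ i = y⁻¹ * ψ x := h1
    have hy2 : y * y = 1 := by rw [← pow_two, ← hy, pow_orderOf_eq_one]
    have hyi : y⁻¹ = y := inv_eq_of_mul_eq_one_left hy2
    have h3 : ψ x = y * x ^ i := by rw [hi, mul_inv_cancel_left]
    have h4 : (ψ x) ^ 2 = x ^ (2 ^ (n - 1) * i) := by
      rw [h3, pow_two]
      have h5 : y * x ^ i * y⁻¹ = x ^ (((2 ^ (n - 1) - 1 : ℕ) : ℤ) * i) := by
        rw [← conj_zpow, hrel, ← zpow_natCast, ← zpow_mul]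
      calc y * x ^ i * (y * x ^ i) = (y * x ^ i * y⁻¹) * x ^ i := by rw [hyi]; simp only [mul_assoc]
        _ = x ^ (((2 ^ (n - 1) - 1 : ℕ) : ℤ) * i + i) := by rw [h5, zpow_add]
        _ = _ := by
          congr 1
          have : 1 ≤ 2 ^ (n - 1) := Nat.one_le_two_pow
          push_cast [Nat.cast_sub this]
          ring
    have h5 : (ψ x) ^ 4 = 1 := by
      rw [show (4 : ℕ) = 2 * 2 by norm_num, pow_mul, h4, pow_two, ← zpow_add]
      have h6 : (2 : ℤ) ^ (n - 1) * i + 2 ^ (n - 1) * i = ((2 ^ n : ℕ) : ℤ) * i := by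
        have : (2 : ℤ) ^ n = 2 * 2 ^ (n - 1) := by rw [← pow_succ']; congr 1; omega
        push_cast
        rw [this]; ring
      rw [h6, zpow_mul, zpow_natCast, ← hx, pow_orderOf_eq_one, one_zpow]
    have h6 : orderOf (ψ x) = 2 ^ n := by rw [MulEquiv.orderOf_eq, hx]
    have h7 := orderOf_dvd_of_pow_eq_one h5
    rw [h6] at h7
    have h8 := Nat.le_of_dvd (by norm_num) h7
    have h9 : 2 ^ 3 ≤ 2 ^ n := Nat.pow_le_pow_right (by norm_num) hn
    omega

end Cfsg.Agent.S3116
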