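import Cfsg.Statements.S3356
import Mathlib
import Cfsg.Agent.LibHalfH13

set_option autoImplicit false
open Cfsg

namespace Cfsg.Agent.S3356

open MulAction Subgroup Pointwise CfsgLib.H13 CfsgLib.PrimH13 CfsgLib.HalfH13

/-- Let G be a finite 3/2-transitive permutation group: G acts faithfully and transitively on a finite set, the point stabilizers are non-trivial, and for each point a all orbits of G_a on the remaining points have the same size. Suppose G has a regular normal subgroup N and G is not a Frobenius group (some two-point stabilizer is non-trivial). Then N is an elementary abelian p-group for some prime p, and every non-trivial normal subgroup of G contains N (so N is the unique minimal normal subgroup). -/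
theorem result {G Ω : Type*} [Group G] [Finite G]
    [MulAction G Ω] [FaithfulSMul G Ω] [Finite Ω] (htrans : MulAction.IsPretransitive G Ω)
    (hne : ∀ a : Ω, MulAction.stabilizer G a ≠ ⊥)
    (hhalf : ∀ a b c : Ω, b ≠ a → c ≠ a →
      Nat.card (MulAction.orbit (MulAction.stabilizer G a) b) = Nat.card (MulAction.orbit (MulAction.stabilizer G a) c))
    (N : Subgroup G) [hN : N.Normal] (hNt : MulAction.IsPretransitive N Ω) (hNr : ∀ a : Ω, MulAction.stabilizer N a = ⊥)
    (hnotF : ∃ a b : Ω, a ≠ b ∧ MulAction.stabilizer G a ⊓ MulAction.stabilizer G b ≠ ⊥) :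
    (∃ p : ℕ, p.Prime ∧ IsMulCommutative N ∧ ∀ x ∈ N, x ^ p = 1) ∧
    (∀ M : Subgroup G, M.Normal → M ≠ ⊥ → N ≤ M) := by
  classical
  obtain ⟨a0, b0, hab0, hne0⟩ := hnotF
  -- common size of the suborbits
  have hd : ∀ a b : Ω, b ≠ a → (orbit (stabilizer G a) b).ncard = (orbit (stabilizer G a0) b0).ncard := by
    intro a b hba
    obtain ⟨g, rfl⟩ := exists_smul_eq G a0 a
    obtain ⟨b', rfl⟩ : ∃ b', b = g • b' := ⟨g⁻¹ • b, by rw [smul_inv_smul]⟩
    rw [ncard_orbit_smul]
    have hb' : b' ≠ a0 := by rintro rfl; exact hba rfl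
    have := hhalf a0 b' b0 hb' hab0.symm
    rwa [Nat.card_coe_set_eq, Nat.card_coe_set_eq] at this
  set d := (orbit (stabilizer G a0) b0).ncard with hdd
  have hprim : IsPreprimitive G Ω := by
    by_contra hnp
    obtain ⟨r, he, hr, h1, h2⟩ := exists_congr_of_not_primitive hnp
    exact hne0 (two_point_trivial d hd r he hr h1 h2 a0 b0 hab0)
  set α := a0 with hα
  set H := stabilizer G α with hHdef
  have hreg : ∀ a ∈ N, ∀ b ∈ N, a • α = b • α → a = b := by
    intro a ha b hb hab
    have h2 : (⟨b⁻¹ * a, N.mul_mem (N.inv_mem hb) ha⟩ : N) ∈ stabilizer N α := by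
      rw [mem_stabilizer_iff]
      change (b⁻¹ * a) • α = α
      rw [mul_smul, hab, inv_smul_smul]
    rw [hNr α, mem_bot] at h2
    have h3 : b⁻¹ * a = 1 := congrArg Subtype.val h2
    exact (inv_mul_eq_one.mp h3).symm
  have hNH : ∀ x, x ∈ N → x ∈ H → x = 1 := by
    intro x hx hxH
    exact hreg x hx 1 N.one_mem (by rw [one_smul]; exact hxH)
  have hNtr : ∀ x : Ω, ∃ n ∈ N, n • α = x := by
    intro x
    obtain ⟨⟨n, hn⟩, hn2⟩ := hNt.exists_smul_eq α x
    exact ⟨n, hn, hn2⟩
  have hstab : ∀ n ∈ N, ∀ h ∈ H, (h • n • α = n • α ↔ h * n * h⁻¹ = n) := by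
    intro n hn h hh
    have hh' : h⁻¹ • α = α := by rw [inv_smul_eq_iff]; exact (mem_stabilizer_iff.mp hh).symm
    have h1 : h • n • α = (h * n * h⁻¹) • α := by rw [mul_smul, mul_smul, hh']
    rw [h1]
    constructor
    · intro h2
      exact hreg _ (hN.conj_mem n hn h) _ hn h2
    · intro h2; rw [h2]
  -- centralizers in H
  let C : G → Subgroup G := fun n => H ⊓ centralizer ({n} : Set G)
  have hCmem : ∀ n h, h ∈ C n ↔ h ∈ H ∧ h * n * h⁻¹ = n := by
    intro n h
    rw [mem_inf, mem_centralizer_singleton_iff, mul_inv_eq_iff_eq_mul]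
  have hCstab : ∀ n ∈ N, C n = H ⊓ stabilizer G (n • α) := by
    intro n hn
    ext h
    rw [hCmem, mem_inf, mem_stabilizer_iff]
    constructor
    · rintro ⟨h1, h2⟩; exact ⟨h1, (hstab n hn h h1).mpr h2⟩
    · rintro ⟨h1, h2⟩; exact ⟨h1, (hstab n hn h h1).mp h2⟩
  have hneα : ∀ n ∈ N, n ≠ 1 → n • α ≠ α := by
    intro n hn hn1 hc
    exact hn1 (hreg n hn 1 N.one_mem (by rw [hc, one_smul]))
  have hCcard : ∀ n ∈ N, n ≠ 1 → d * Nat.card (C n) = Nat.card H := by
    intro n hn hn1
    rw [hCstab n hn, ← hd α (n • α) (hneα n hn hn1)]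
    exact ncard_orbit_mul _ _
  have hdpos : 0 < d := (Set.ncard_pos (Set.toFinite _)).mpr ⟨b0, mem_orbit_self b0⟩
  have hCeq : ∀ n ∈ N, n ≠ 1 → ∀ m ∈ N, m ≠ 1 → Nat.card (C n) = Nat.card (C m) := by
    intro n hn hn1 m hm hm1
    have h1 := hCcard n hn hn1
    rw [← hCcard m hm hm1] at h1
    exact Nat.eq_of_mul_eq_mul_left hdpos h1
  have hCne : ∀ n ∈ N, n ≠ 1 → C n ≠ ⊥ := by
    intro n hn hn1 hc
    obtain ⟨m, hm, hm2⟩ := hNtr b0
    have hm1 : m ≠ 1 := by rintro rfl; rw [one_smul] at hm2; exact hab0 hm2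
    have h1 := hCeq n hn hn1 m hm hm1
    rw [hc, card_bot] at h1
    have h2 := Subgroup.card_eq_one.mp h1.symm
    rw [hCstab m hm, hm2] at h2
    exact hne0 h2
  -- card N = card Ω and d ∣ card N - 1
  have hcardN : Nat.card N = Nat.card Ω := by
    apply Nat.card_congr
    refine Equiv.ofBijective (fun n : N => (n : G) • α) ⟨?_, ?_⟩
    · intro a b hab
      exact Subtype.ext (hreg a a.2 b b.2 hab)
    · intro x
      obtain ⟨n, hn, rfl⟩ := hNtr x
      exact ⟨⟨n, hn⟩, rfl⟩
  have hcop : Nat.Coprime d (Nat.card N) := by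
    have h1 : d ∣ Nat.card Ω - 1 := by
      have h3 := dvd_ncard_of_orbits H d ((Set.univ : Set Ω) \ {α}) (by
        rintro s hs x ⟨hx, hx2⟩
        refine ⟨trivial, ?_⟩
        intro hc
        apply hx2
        rw [Set.mem_singleton_iff] at hc ⊢
        have hs' : s • α = α := hs
        rw [← hs'] at hc
        exact smul_left_cancel s hc) (by
        rintro x ⟨-, hx2⟩
        exact hd α x hx2)
      rwa [Set.ncard_sdiff_singleton_of_mem (Set.mem_univ α), Set.ncard_univ] at h3
    have h2 : 0 < Nat.card Ω := by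
      have : Nonempty Ω := ⟨α⟩
      exact Nat.card_pos
    rw [hcardN]
    have h3 : Nat.Coprime d (Nat.card Ω - 1 + 1) := by
      obtain ⟨c, hc⟩ := h1
      rw [hc]
      simp
    rwa [Nat.sub_add_cancel h2] at h3
  have hGNH : N ⊔ H = ⊤ := by
    rw [eq_top_iff]
    intro g _
    obtain ⟨n, hn, hn2⟩ := hNtr (g • α)
    have h1 : n⁻¹ * g ∈ H := by
      rw [mem_stabilizer_iff, mul_smul, ← hn2, inv_smul_smul]
    have : g = n * (n⁻¹ * g) := by group
    rw [this]
    exact Subgroup.mul_mem_sup hn h1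
  have hcardG : Nat.card H * Nat.card N = Nat.card G := by
    have h1 := card_sup_mul_card_inf (H := H) (N := N) le_normalizer_of_normal
    have h2 : H ⊓ N = ⊥ := by
      rw [eq_bot_iff]; intro x hx
      rw [mem_inf] at hx
      rw [mem_bot]; exact hNH x hx.2 hx.1
    rw [h2, card_bot, mul_one, sup_comm, hGNH, Subgroup.card_top] at h1
    exact h1.symm
  -- H ∩ N C_G(n) = C_H(n)
  have hkey : ∀ n ∈ N, n ≠ 1 → ∀ h ∈ H, h ∈ N ⊔ centralizer ({n} : Set G) → h ∈ C n := by
    intro n hn hn1
    set Z := centralizer ({n} : Set G) with hZ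
    set K := N ⊔ Z with hK
    -- d ∣ Z.index
    have h1 : d ∣ Z.index := by
      let f : G ⧸ Z → Ω := Quotient.lift (fun g : G => (g * n * g⁻¹) • α) (by
        intro a b hab
        have h2 : a⁻¹ * b ∈ Z := QuotientGroup.leftRel_apply.mp hab
        rw [hZ, mem_centralizer_singleton_iff] at h2
        have h3 : a * n * a⁻¹ = b * n * b⁻¹ := by
          have : n = (a⁻¹ * b) * n * (a⁻¹ * b)⁻¹ := by rw [h2]; group
          calc a * n * a⁻¹ = a * ((a⁻¹ * b) * n * (a⁻¹ * b)⁻¹) * a⁻¹ := by rw [← this]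
            _ = b * n * b⁻¹ := by group
        change (a * n * a⁻¹) • α = (b * n * b⁻¹) • α
        rw [h3])
      have hfv : ∀ g : G, f (g : G ⧸ Z) = (g * n * g⁻¹) • α := fun g => rfl
      have hfinj : Function.Injective f := by
        intro x y hxy
        obtain ⟨a, rfl⟩ := QuotientGroup.mk_surjective x
        obtain ⟨b, rfl⟩ := QuotientGroup.mk_surjective y
        rw [hfv, hfv] at hxy
        have h2 := hreg _ (hN.conj_mem n hn a) _ (hN.conj_mem n hn b) hxy
        rw [QuotientGroup.eq, hZ, mem_centralizer_singleton_iff]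
        have h3 : n = a⁻¹ * (a * n * a⁻¹) * a := by group
        calc a⁻¹ * b * n = a⁻¹ * (b * n * b⁻¹) * b := by group
          _ = a⁻¹ * (a * n * a⁻¹) * b := by rw [h2]
          _ = n * (a⁻¹ * b) := by group
      have hB : (Set.range f).ncard = Z.index := by
        rw [← Set.image_univ, Set.ncard_image_of_injective _ hfinj, Set.ncard_univ]
        rfl
      rw [← hB]
      apply dvd_ncard_of_orbits H d
      · rintro s hs _ ⟨x, rfl⟩
        obtain ⟨a, rfl⟩ := QuotientGroup.mk_surjective x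
        have hs' : s⁻¹ • α = α := by rw [inv_smul_eq_iff]; exact (mem_stabilizer_iff.mp hs).symm
        refine ⟨((s * a : G) : G ⧸ Z), ?_⟩
        rw [hfv, hfv]
        have e : s * a * n * (s * a)⁻¹ = s * (a * n * a⁻¹) * s⁻¹ := by group
        rw [e, mul_smul, mul_smul, hs']
      · rintro _ ⟨x, rfl⟩
        obtain ⟨a, rfl⟩ := QuotientGroup.mk_surjective x
        rw [hfv]
        apply hd
        apply hneα _ (hN.conj_mem n hn a)
        intro hc
        apply hn1
        have := congrArg (fun z => a⁻¹ * z * a) hc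
        simpa [mul_assoc] using this
    have h2 : Z.relIndex K * K.index = Z.index := relIndex_mul_index le_sup_right
    have h3 : Z.relIndex K = Z.relIndex N := by
      rw [hK, sup_comm]
      exact relIndex_sup_of_le_normalizer le_normalizer_of_normal
    have h4 : Nat.Coprime d (Z.relIndex K) := by
      rw [h3]
      exact Nat.Coprime.coprime_dvd_right (relIndex_dvd_card _ _) hcop
    have h5 : d ∣ K.index := by
      rw [← h2] at h1
      exact Nat.Coprime.dvd_of_dvd_mul_left h4 h1
    -- K = N (K ∩ H)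
    have h6 : (K ⊓ H) ⊔ N = K := by
      apply le_antisymm (sup_le inf_le_left le_sup_left)
      intro k hk
      obtain ⟨u, hu, hu2⟩ := hNtr (k • α)
      have h7 : u⁻¹ * k ∈ H := by
        rw [mem_stabilizer_iff, mul_smul, ← hu2, inv_smul_smul]
      have h8 : u⁻¹ * k ∈ K := K.mul_mem (K.inv_mem ((le_sup_left : N ≤ K) hu)) hk
      have h9 : k = u * (u⁻¹ * k) := by group
      rw [h9, sup_comm]
      exact Subgroup.mul_mem_sup hu (mem_inf.mpr ⟨h8, h7⟩)
    have h7 : Nat.card K = Nat.card (K ⊓ H : Subgroup G) * Nat.card N := by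
      have h8 := card_sup_mul_card_inf (H := K ⊓ H) (N := N) le_normalizer_of_normal
      rw [h6] at h8
      have h9 : (K ⊓ H) ⊓ N = ⊥ := by
        rw [eq_bot_iff]; intro x hx
        rw [mem_inf, mem_inf] at hx
        rw [mem_bot]; exact hNH x hx.2 hx.1.2
      rwa [h9, card_bot, mul_one] at h8
    have h8 : K.index * Nat.card (K ⊓ H : Subgroup G) = Nat.card H := by
      have h9 := K.card_mul_index
      rw [h7, ← hcardG] at h9
      have hNpos : 0 < Nat.card N := Nat.card_pos
      apply Nat.eq_of_mul_eq_mul_right hNpos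
      rw [← h9]; ring
    have h9 : C n = K ⊓ H := by
      apply Subgroup.eq_of_le_of_card_ge
      · exact le_inf (inf_le_right.trans le_sup_right) inf_le_left
      · obtain ⟨c, hc⟩ := h5
        rw [← hCcard n hn hn1, hc, mul_assoc] at h8
        have h10 := Nat.eq_of_mul_eq_mul_left hdpos h8
        have hc0 : 0 < c := by
          rcases Nat.eq_zero_or_pos c with h | h
          · exfalso
            rw [h, zero_mul] at h10
            exact (Nat.card_pos (α := C n)).ne h10
          · exact h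
        calc Nat.card (K ⊓ H : Subgroup G) ≤ c * Nat.card (K ⊓ H : Subgroup G) := Nat.le_mul_of_pos_left _ hc0
          _ = _ := h10
    intro h hh hhK
    rw [h9]
    exact mem_inf.mpr ⟨hhK, hh⟩
  -- C_H(n^x) ≤ C_H(n)
  have hconj : ∀ n ∈ N, n ≠ 1 → ∀ x ∈ N, C (x * n * x⁻¹) ≤ C n := by
    intro n hn hn1 x hx h hh
    rw [hCmem] at hh
    obtain ⟨h1, h2⟩ := hh
    apply hkey n hn hn1 h h1
    -- x⁻¹ h x centralizes n
    have h3 : x⁻¹ * h * x ∈ centralizer ({n} : Set G) := by
      rw [mem_centralizer_singleton_iff]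
      have h4 : h * (x * n * x⁻¹) = (x * n * x⁻¹) * h := by
        rw [mul_inv_eq_iff_eq_mul] at h2; exact h2
      calc x⁻¹ * h * x * n = x⁻¹ * (h * (x * n * x⁻¹)) * x := by group
        _ = x⁻¹ * ((x * n * x⁻¹) * h) * x := by rw [h4]
        _ = n * (x⁻¹ * h * x) := by group
    have h4 : h = (h * x⁻¹ * h⁻¹ * x) * (x⁻¹ * h * x) * (x⁻¹ * h⁻¹ * x⁻¹⁻¹ * h)⁻¹ * 1 ∨ True := Or.inr trivial
    -- h = x (x⁻¹ h x) x⁻¹
    have h5 : h = x * (x⁻¹ * h * x) * x⁻¹ := by group
    rw [h5]
    exact Subgroup.mul_mem _ (Subgroup.mul_mem_sup hx h3) (SetLike.le_def.mp (le_sup_left : N ≤ _) (N.inv_mem hx))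
  -- the fixed subgroup of C n in N is normal in N
  have hfixed : ∀ n ∈ N, n ≠ 1 → ∀ m ∈ N, m ≠ 1 → C n ≤ C m → C n = C m := by
    intro n hn hn1 m hm hm1 hle
    exact Subgroup.eq_of_le_of_card_ge hle (le_of_eq (hCeq m hm hm1 n hn hn1))
  have hconj2 : ∀ n ∈ N, n ≠ 1 → ∀ x ∈ N, C (x * n * x⁻¹) = C n := by
    intro n hn hn1 x hx
    apply hfixed _ (hN.conj_mem n hn x) _ n hn hn1 (hconj n hn hn1 x hx)
    intro hc
    apply hn1
    have := congrArg (fun z => x⁻¹ * z * x) hc
    simpa [mul_assoc] using this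
  -- product of elements with C n ≤ C m, C n ≤ C m'
  have hmul : ∀ (D : Subgroup G) a b, D ≤ C a → D ≤ C b → D ≤ C (a * b) := by
    intro D a b h1 h2 h hh
    have h3 := (hCmem _ _).mp (h1 hh)
    have h4 := (hCmem _ _).mp (h2 hh)
    rw [hCmem]
    refine ⟨h3.1, ?_⟩
    calc h * (a * b) * h⁻¹ = (h * a * h⁻¹) * (h * b * h⁻¹) := by group
      _ = a * b := by rw [h3.2, h4.2]
  have hinv : ∀ (D : Subgroup G) a, D ≤ C a → D ≤ C a⁻¹ := by
    intro D a h1 h hh
    have h3 := (hCmem _ _).mp (h1 hh)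
    rw [hCmem]
    refine ⟨h3.1, ?_⟩
    calc h * a⁻¹ * h⁻¹ = (h * a * h⁻¹)⁻¹ := by group
      _ = a⁻¹ := by rw [h3.2]
  -- if C n ≠ C m then n and m commute
  have hcommute : ∀ n ∈ N, n ≠ 1 → ∀ m ∈ N, m ≠ 1 → C n ≠ C m → n * m = m * n := by
    intro n hn hn1 m hm hm1 hne
    by_contra hcon
    apply hne
    set z := n * m * n⁻¹ * m⁻¹ with hz
    have hzN : z ∈ N := N.mul_mem (N.mul_mem (N.mul_mem hn hm) (N.inv_mem hn)) (N.inv_mem hm)
    have hz1 : z ≠ 1 := by
      intro hc
      apply hcon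
      rw [hz, mul_inv_eq_one, mul_inv_eq_iff_eq_mul] at hc
      exact hc
    have h1 : C n ≤ C z := by
      have e : z = n * (m * n⁻¹ * m⁻¹) := by rw [hz]; group
      rw [e]
      apply hmul _ _ _ le_rfl
      have e2 : m * n⁻¹ * m⁻¹ = (m * n * m⁻¹)⁻¹ := by group
      rw [e2]
      apply hinv
      rw [hconj2 n hn hn1 m hm]
    have h2 : C m ≤ C z := by
      rw [hz]
      apply hmul
      · rw [hconj2 m hm hm1 n hn]
      · exact hinv _ _ le_rfl
    rw [hfixed n hn hn1 z hzN hz1 h1, hfixed m hm hm1 z hzN hz1 h2]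
  -- N is abelian
  have habel : ∀ n ∈ N, ∀ m ∈ N, n * m = m * n := by
    intro n hn m hm
    by_contra hcon
    have hn1 : n ≠ 1 := by rintro rfl; simp at hcon
    have hm1 : m ≠ 1 := by rintro rfl; simp at hcon
    have hCnm : C n = C m := by
      by_contra hne
      exact hcon (hcommute n hn hn1 m hm hm1 hne)
    -- there is z outside the fixed subgroup of C n
    have hz : ∃ z ∈ N, ¬ C n ≤ C z := by
      by_contra hall
      push Not at hall
      apply hCne n hn hn1
      rw [eq_bot_iff]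
      intro h hh
      rw [mem_bot]
      apply FaithfulSMul.eq_of_smul_eq_smul (α := Ω)
      intro x
      rw [one_smul]
      obtain ⟨z, hz, rfl⟩ := hNtr x
      have h1 := (hCmem _ _).mp (hall z hz hh)
      exact (hstab z hz h h1.1).mpr h1.2
    obtain ⟨z, hzN, hz⟩ := hz
    have hz1 : z ≠ 1 := by
      rintro rfl
      apply hz
      intro h hh
      rw [hCmem] at hh ⊢
      exact ⟨hh.1, by group⟩
    have hzne : C z ≠ C n := by
      intro hc; apply hz; rw [hc]
    have h1 : z * n = n * z := hcommute z hzN hz1 n hn hn1 hzne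
    have h2 : z * m = m * z := hcommute z hzN hz1 m hm hm1 (by rw [← hCnm]; exact hzne)
    have hznN : z * n ∈ N := N.mul_mem hzN hn
    have hzn : ¬ C n ≤ C (z * n) := by
      intro hc
      apply hz
      have := hmul _ _ _ hc (hinv _ _ (le_refl (C n)))
      rwa [mul_inv_cancel_right] at this
    have hzn1 : z * n ≠ 1 := by
      intro hc
      apply hzn
      rw [hc]
      intro h hh
      rw [hCmem] at hh ⊢
      exact ⟨hh.1, by group⟩
    have hznne : C (z * n) ≠ C m := by
      intro hc; apply hzn; rw [hc, hCnm]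
    have h3 : z * n * m = m * (z * n) := hcommute _ hznN hzn1 m hm hm1 hznne
    apply hcon
    have h4 : z * (n * m) = z * (m * n) := by
      rw [← mul_assoc, h3, ← mul_assoc, ← h2, mul_assoc]
    exact mul_left_cancel h4
  have hNcomm : IsMulCommutative N := ⟨⟨fun a b => Subtype.ext (habel a a.2 b b.2)⟩⟩
  have hNne : N ≠ ⊥ := by
    intro hc
    obtain ⟨m, hm, hm2⟩ := hNtr b0
    rw [hc, mem_bot] at hm
    rw [hm, one_smul] at hm2
    exact hab0 hm2
  constructor
  · have : Nontrivial N := (nontrivial_iff_ne_bot N).mpr hNne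
    obtain ⟨p, hp, hpd⟩ := Nat.exists_prime_and_dvd (n := Nat.card N) Finite.one_lt_card.ne'
    have : Fact p.Prime := ⟨hp⟩
    refine ⟨p, hp, hNcomm, ?_⟩
    let T : Subgroup G :=
      { carrier := {x | x ∈ N ∧ x ^ p = 1}
        one_mem' := ⟨one_mem _, one_pow _⟩
        mul_mem' := by
          rintro a b ⟨ha, ha'⟩ ⟨hb, hb'⟩
          refine ⟨mul_mem ha hb, ?_⟩
          have : Commute a b := habel a ha b hb
          rw [this.mul_pow, ha', hb', one_mul]
        inv_mem' := by
          rintro a ⟨ha, ha'⟩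
          exact ⟨inv_mem ha, by rw [inv_pow, ha', inv_one]⟩ }
    have hT : T.Normal := by
      refine ⟨?_⟩
      rintro x ⟨hx, hx'⟩ g
      refine ⟨hN.conj_mem x hx g, ?_⟩
      rw [conj_pow, hx', mul_one, mul_inv_cancel]
    have hTne : T ≠ ⊥ := by
      obtain ⟨x, hx⟩ := exists_prime_orderOf_dvd_card' p hpd
      intro hc
      have h2 : (x : G) ∈ T := ⟨x.2, by
        have := pow_orderOf_eq_one x
        rw [hx] at this
        exact congrArg Subtype.val this⟩
      rw [hc, mem_bot] at h2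
      have h3 : x = 1 := Subtype.ext h2
      rw [h3, orderOf_one] at hx
      exact hp.one_lt.ne hx
    have hTN := eq_of_le_regular N T hT (fun x hx => hx.1) hTne α hreg
    intro x hx
    rw [← hTN] at hx
    exact hx.2
  · intro M hM hMne
    by_cases hMN : M ⊓ N = ⊥
    · exfalso
      apply hMne
      have hcent : M ≤ centralizer (N : Set G) :=
        commute_of_inf_eq_bot hMN le_normalizer_of_normal le_normalizer_of_normal
      rw [eq_bot_iff]
      intro m hm
      obtain ⟨n, hn, hn2⟩ := hNtr (m • α)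
      have h1 : n⁻¹ * m ∈ centralizer (N : Set G) := by
        apply Subgroup.mul_mem _ _ (hcent hm)
        rw [mem_centralizer_iff]
        intro x hx
        exact habel x hx n⁻¹ (N.inv_mem hn)
      have h2 := semiregular_of_commute (G := G) (A := N) (B := centralizer (N : Set G)) hNt le_rfl h1 (x := α)
        (by rw [mul_smul, ← hn2, inv_smul_smul])
      have h3 : m = n := (inv_mul_eq_one.mp h2).symm
      rw [← hMN]
      refine mem_inf.mpr ⟨hm, ?_⟩
      rw [h3]; exact hn
    · have hn' : (M ⊓ N).Normal := inferInstance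
      have := eq_of_le_regular N (M ⊓ N) hn' inf_le_right hMN α hreg
      rw [← this]
      exact inf_le_left

end Cfsg.Agent.S3356
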