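import Cfsg.Statements.S3370
import Mathlib
import Cfsg.Agent.S0016

set_option autoImplicit false
open Cfsg

namespace Cfsg.Agent.S3370

open Equiv

/-- odd geometric sums -/
theorem geom (x : ℤ) (hx : Odd x) (n m : ℕ) (hn : Odd n) (h : (x ^ n - 1).natAbs = 2 ^ m) :
    x ^ n - 1 = x - 1 ∨ x ^ n - 1 = -(x - 1) := by
  set S := ∑ i ∈ Finset.range n, x ^ i with hS
  have h1 : S * (x - 1) = x ^ n - 1 := geom_sum_mul x n
  have h2 : Odd S := by
    rw [← ZMod.intCast_eq_one_iff_odd] at hx ⊢
    rw [hS]
    push_cast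
    rw [hx]
    simp
    rw [ZMod.natCast_eq_one_iff_odd]
    exact hn
  have h3 : S.natAbs ∣ 2 ^ m := by
    rw [← h, ← h1, Int.natAbs_mul]
    exact dvd_mul_right _ _
  obtain ⟨j, hj, hj2⟩ := (Nat.dvd_prime_pow Nat.prime_two).mp h3
  have h4 : S.natAbs = 1 := by
    rcases Nat.eq_zero_or_pos j with hj0 | hj0
    · rw [hj2, hj0, pow_zero]
    · exfalso
      have h5 : Odd S.natAbs := Int.natAbs_odd.mpr h2
      rw [hj2] at h5
      have h6 : Even (2 ^ j) := (Nat.even_pow.mpr ⟨even_two, by omega⟩)
      exact (Nat.not_even_iff_odd.mpr h5) h6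
  rcases Int.natAbs_eq S with h5 | h5
  · left
    rw [← h1, h5, h4]; simp
  · right
    rw [← h1, h5, h4]; simp

theorem ntA (p k n : ℕ) (hp : p.Prime) (hp2 : p ≠ 2) (hk : 0 < k) (h : 2 ^ n = p ^ k + 1) : k = 1 := by
  have hodd : Odd p := hp.odd_of_ne_two hp2
  rcases Nat.even_or_odd k with hk2 | hk2
  · exfalso
    obtain ⟨l, rfl⟩ := hk2
    have h1 : p ^ (l + l) % 4 = 1 := by
      rw [← two_mul, pow_mul, Nat.pow_mod]
      have : p ^ 2 % 4 = 1 := by
        obtain ⟨r, rfl⟩ := hodd
        have e : (2 * r + 1) ^ 2 = 4 * (r * r + r) + 1 := by ring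
        rw [e]; omega
      rw [this]; simp
    have h2 : 2 ^ n % 4 = 2 := by omega
    rcases Nat.lt_or_ge n 2 with hn | hn
    · interval_cases n
      · norm_num at h2
      · have : p ^ (l + l) = 1 := by omega
        rcases Nat.pow_eq_one.mp this with h3 | h3
        · exact hp.one_lt.ne' h3
        · omega
    · obtain ⟨r, rfl⟩ := Nat.exists_eq_add_of_le hn
      rw [pow_add] at h2
      norm_num at h2
  · have h1 := geom (-(p : ℤ)) (by
      rw [odd_neg]
      exact_mod_cast hodd) k n hk2 (by
      rw [hk2.neg_pow]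
      have : (-(p : ℤ) ^ k - 1) = -((p ^ k + 1 : ℕ) : ℤ) := by push_cast; ring
      rw [this, Int.natAbs_neg, Int.natAbs_natCast, h])
    rw [hk2.neg_pow] at h1
    have hp1 := hp.one_lt
    have h2 : (p : ℤ) ^ k = p := by
      rcases h1 with h1 | h1
      · linarith
      · exfalso
        have : (0 : ℤ) < (p : ℤ) ^ k := by positivity
        have hp0 : (0 : ℤ) < p := by positivity
        linarith
    have h3 : p ^ k = p ^ 1 := by rw [pow_one]; exact_mod_cast h2
    exact Nat.pow_right_injective hp1 h3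

theorem ntB (q k n : ℕ) (hq : q.Prime) (hq2 : q ≠ 2) (hn : 2 ≤ n) (h : q ^ n = 2 ^ k + 1) : q = 3 ∧ n = 2 := by
  have hodd : Odd q := hq.odd_of_ne_two hq2
  rcases Nat.even_or_odd n with hn2 | hn2
  · obtain ⟨l, rfl⟩ := hn2
    have h1 : (q ^ l - 1) * (q ^ l + 1) = 2 ^ k := by
      obtain ⟨r, hr⟩ : ∃ r, q ^ l = r + 1 := ⟨q ^ l - 1, (Nat.succ_pred_eq_of_pos (pow_pos hq.pos l)).symm⟩
      rw [pow_add, hr] at h
      rw [hr, Nat.add_sub_cancel]
      nlinarith
    obtain ⟨i, hi, hi2⟩ := (Nat.dvd_prime_pow Nat.prime_two).mp (Dvd.intro _ h1)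
    obtain ⟨j, hj, hj2⟩ := (Nat.dvd_prime_pow Nat.prime_two).mp (Dvd.intro_left _ h1)
    have hpos : 0 < q ^ l := pow_pos hq.pos l
    have h2 : 2 ^ j = 2 ^ i + 2 := by omega
    have hi1 : i = 1 := by
      rcases Nat.lt_or_ge i 2 with hi' | hi'
      · interval_cases i
        · exfalso
          rcases Nat.lt_or_ge j 2 with hj' | hj'
          · interval_cases j <;> norm_num at h2
          · obtain ⟨r, rfl⟩ := Nat.exists_eq_add_of_le hj'
            rw [pow_add] at h2
            norm_num at h2
            omega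
        · rfl
      · exfalso
        obtain ⟨s, rfl⟩ := Nat.exists_eq_add_of_le hi'
        rcases Nat.lt_or_ge j 2 with hj' | hj'
        · interval_cases j
          · rw [pow_add] at h2; norm_num at h2
          · rw [pow_add] at h2; norm_num at h2
        · obtain ⟨r, rfl⟩ := Nat.exists_eq_add_of_le hj'
          rw [pow_add, pow_add] at h2
          norm_num at h2
          omega
    have h3 : q ^ l = 3 := by rw [hi1] at hi2; omega
    have hl : l ≠ 0 := by rintro rfl; norm_num at h3
    have h4 : q ∣ 3 := by rw [← h3]; exact dvd_pow_self q hl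
    have h5 : q = 3 := (Nat.prime_dvd_prime_iff_eq hq Nat.prime_three).mp h4
    refine ⟨h5, ?_⟩
    rw [h5] at h3
    have : l = 1 := Nat.pow_right_injective (le_refl 2 |>.trans (by norm_num : 2 ≤ 3)) (h3.trans (pow_one 3).symm)
    omega
  · exfalso
    have h1 := geom (q : ℤ) (by exact_mod_cast hodd) n k hn2 (by
      have : (q : ℤ) ^ n - 1 = ((2 ^ k : ℕ) : ℤ) := by
        have : ((q ^ n : ℕ) : ℤ) = ((2 ^ k + 1 : ℕ) : ℤ) := by rw [h]
        push_cast at this ⊢
        linarith
      rw [this, Int.natAbs_natCast])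
    have hq1 := hq.one_lt
    have h2 : (q : ℤ) ^ n = q := by
      rcases h1 with h1 | h1
      · linarith
      · exfalso
        have h3 : (1 : ℤ) < (q : ℤ) ^ n := by
          exact_mod_cast Nat.one_lt_pow (by omega) hq1
        have hp0 : (1 : ℤ) < q := by exact_mod_cast hq1
        linarith
    have h3 : q ^ n = q ^ 1 := by rw [pow_one]; exact_mod_cast h2
    have := Nat.pow_right_injective hq1 h3
    omega

section act
variable {q : ℕ} [Fact q.Prime] {V : Type*} [AddCommGroup V] [Module (ZMod q) V]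
    {G : Type*} [Group G] (ρ : G →* (V ≃ₗ[ZMod q] V))

theorem rmul (g h : G) (v : V) : ρ (g * h) v = ρ g (ρ h v) := by
  rw [map_mul]; rfl

/-- the action on nonzero vectors -/
abbrev act : MulAction G {v : V // v ≠ 0} where
  smul g v := ⟨ρ g v, fun h => v.2 ((ρ g).map_eq_zero_iff.mp h)⟩
  one_smul v := by
    apply Subtype.ext
    change ρ 1 v = v
    rw [map_one]; rfl
  mul_smul g h v := by
    apply Subtype.ext
    exact rmul ρ g h v

theorem card_ne (V : Type*) [AddCommGroup V] [Finite V] : Nat.card V = Nat.card {w : V // w ≠ 0} + 1 := by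
  classical
  rw [← Nat.card_congr (Equiv.optionSubtypeNe (0 : V)), Finite.card_option]

/-- one-dimensional case -/
theorem one_dim (hρ : Function.Injective ρ) [Finite V] [Finite G] (hV : Nat.card V = q) : IsCyclic G ∧ Nat.card G ≤ q - 1 := by
  have hfr : Module.finrank (ZMod q) V = 1 := by
    have := Module.natCard_eq_pow_finrank (K := ZMod q) (V := V)
    rw [hV, Nat.card_zmod] at this
    have h2 : q ^ 1 = q ^ Module.finrank (ZMod q) V := by rw [pow_one]; exact this
    exact (Nat.pow_right_injective (Fact.out : q.Prime).two_le h2).symm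
  obtain ⟨v, hv, hspan⟩ := finrank_eq_one_iff'.mp hfr
  choose c hc using fun g : G => hspan (ρ g v)
  have hc0 : ∀ a b : ZMod q, a • v = b • v → a = b := by
    intro a b hab
    have : (a - b) • v = 0 := by rw [sub_smul, hab, sub_self]
    exact sub_eq_zero.mp ((smul_eq_zero.mp this).resolve_right hv)
  let f : G →* ZMod q :=
    { toFun := c
      map_one' := by
        apply hc0
        rw [hc, map_one, one_smul]; rfl
      map_mul' := by
        intro g h
        apply hc0
        rw [hc, rmul, ← hc h, map_smul, ← hc g, smul_smul, mul_comm] }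
  have hf : Function.Injective f := by
    intro g h hgh
    apply hρ
    ext w
    obtain ⟨a, rfl⟩ := hspan w
    rw [map_smul, map_smul, ← hc g, ← hc h]
    change a • f g • v = a • f h • v
    rw [hgh]
  refine ⟨isCyclic_of_injective_ringHom f hf, ?_⟩
  have h1 : Nat.card G = Nat.card (MonoidHom.range f.toHomUnits) := by
    apply Nat.card_congr
    apply (MonoidHom.ofInjective _).toEquiv
    intro a b hab
    apply hf
    exact congrArg Units.val hab
  rw [h1]
  have h2 := Subgroup.card_subgroup_dvd_card (MonoidHom.range f.toHomUnits)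
  rw [Nat.card_eq_fintype_card (α := (ZMod q)ˣ), ZMod.card_units] at h2
  have := (Fact.out : q.Prime).two_le
  exact Nat.le_of_dvd (by omega) h2

theorem exists_GL {V : Type*} [AddCommGroup V] [Module (ZMod 3) V] [Finite V]
    {G : Type*} [Group G] (ρ : G →* (V ≃ₗ[ZMod 3] V)) (hρ : Function.Injective ρ) (hfr : Module.finrank (ZMod 3) V = 2) :
    ∃ f : G →* GL (Fin 2) (ZMod 3), Function.Injective f := by
  have : Fact (Nat.Prime 3) := ⟨Nat.prime_three⟩
  have hMf : Module.Finite (ZMod 3) V := Module.Finite.of_finite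
  let b : Module.Basis (Fin 2) (ZMod 3) V := Module.finBasisOfFinrankEq _ _ hfr
  let f0 : G →* Module.End (ZMod 3) V :=
    { toFun := fun σ => (ρ σ : V →ₗ[ZMod 3] V)
      map_one' := by rw [map_one]; rfl
      map_mul' := by
        intro σ τ
        rw [map_mul]; rfl }
  have hf0 : Function.Injective f0 := by
    intro σ τ h
    apply hρ
    exact LinearEquiv.toLinearMap_injective h
  let f1 : G →* Matrix (Fin 2) (Fin 2) (ZMod 3) :=
    ((LinearMap.toMatrixAlgEquiv b : Module.End (ZMod 3) V ≃ₐ[ZMod 3] Matrix (Fin 2) (Fin 2) (ZMod 3)) :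
      Module.End (ZMod 3) V →* Matrix (Fin 2) (Fin 2) (ZMod 3)).comp f0
  refine ⟨f1.toHomUnits, ?_⟩
  intro σ τ h
  apply hf0
  have h1 := congrArg Units.val h
  exact (LinearMap.toMatrixAlgEquiv b).injective h1

theorem card_GL23 : Nat.card (GL (Fin 2) (ZMod 3)) = 48 := by
  have : Fact (Nat.Prime 3) := ⟨Nat.prime_three⟩
  have := Matrix.card_GL_field (𝔽 := ZMod 3) 2
  rw [this, ZMod.card, Fin.prod_univ_two]
  norm_num

/-- element of order 8 -/
def x0 : GL (Fin 2) (ZMod 3) := ⟨!![0, 1; 1, 1], !![2, 1; 1, 0], by decide, by decide⟩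
/-- reflection -/
def y0 : GL (Fin 2) (ZMod 3) := ⟨!![1, 1; 0, 2], !![1, 1; 0, 2], by decide, by decide⟩

theorem x0_pow8 : x0 ^ 8 = 1 := by
  apply Units.ext; decide
theorem x0_pow4 : x0 ^ 4 ≠ 1 := by
  intro h; have := congrArg Units.val h; revert this; decide
theorem y0_pow2 : y0 ^ 2 = 1 := by
  apply Units.ext; decide
theorem y0_ne : y0 ≠ 1 := by
  intro h; have := congrArg Units.val h; revert this; decide
theorem y0x0 : y0 * x0 * y0⁻¹ = x0 ^ 3 := by
  apply Units.ext; decide

theorem gl_case {G : Type*} [Group G] [Finite G] (f : G →* GL (Fin 2) (ZMod 3)) (hf : Function.Injective f) (hG : Nat.card G = 16) : Cfsg.IsQuasiDihedral G := by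
  have : Fact (Nat.Prime 3) := ⟨Nat.prime_three⟩
  have : Fact (Nat.Prime 2) := ⟨Nat.prime_two⟩
  have ox : orderOf x0 = 8 := by
    have := orderOf_eq_prime_pow (x := x0) (p := 2) (n := 2) (by simpa using x0_pow4) (by simpa using x0_pow8)
    simpa using this
  have oy : orderOf y0 = 2 := orderOf_eq_prime y0_pow2 y0_ne
  have hcr : Nat.card f.range = 16 := by
    rw [← hG]
    exact (Nat.card_congr (MonoidHom.ofInjective hf).toEquiv).symm
  have hfac : (48 : ℕ).factorization 2 = 4 := by
    rw [show (48 : ℕ) = 3 * 2 ^ 4 by norm_num, Nat.factorization_mul (by norm_num) (by norm_num), Nat.Prime.factorization Nat.prime_three, Nat.Prime.factorization_pow Nat.prime_two]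
    simp
  let P : Sylow 2 (GL (Fin 2) (ZMod 3)) := Sylow.ofCard f.range (by rw [hcr, card_GL23, hfac]; norm_num)
  have hpx : IsPGroup 2 (Subgroup.zpowers x0) := IsPGroup.of_card (n := 3) (by rw [Nat.card_zpowers, ox]; norm_num)
  have hpy : IsPGroup 2 (Subgroup.zpowers y0) := IsPGroup.of_card (n := 1) (by rw [Nat.card_zpowers, oy]; norm_num)
  have hn : Subgroup.zpowers y0 ≤ Subgroup.normalizer (Subgroup.zpowers x0 : Set (GL (Fin 2) (ZMod 3))) := by
    rw [Subgroup.zpowers_le, Subgroup.mem_normalizer_iff]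
    have h1 : ∀ h ∈ Subgroup.zpowers x0, y0 * h * y0⁻¹ ∈ Subgroup.zpowers x0 := by
      intro h hh
      obtain ⟨k, rfl⟩ := Subgroup.mem_zpowers_iff.mp hh
      rw [← conj_zpow, y0x0]
      exact Subgroup.zpow_mem _ (Subgroup.pow_mem _ (Subgroup.mem_zpowers x0) 3) k
    have hyi : y0⁻¹ = y0 := by
      apply inv_eq_of_mul_eq_one_left
      rw [← pow_two]; exact y0_pow2
    intro h
    refine ⟨h1 h, fun hh => ?_⟩
    have h2 := h1 _ hh
    have e : y0 * (y0 * h * y0⁻¹) * y0⁻¹ = h := by
      calc y0 * (y0 * h * y0⁻¹) * y0⁻¹ = (y0 * y0) * h * (y0 * y0)⁻¹ := by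
            simp only [mul_assoc, mul_inv_rev]
        _ = h := by rw [← pow_two, y0_pow2]; simp
    rwa [e] at h2
  have hsup := IsPGroup.to_sup_of_normal_left' hpx hpy hn
  obtain ⟨Q, hQ⟩ := hsup.exists_le_sylow
  obtain ⟨g, hg⟩ := MulAction.exists_smul_eq (GL (Fin 2) (ZMod 3)) Q P
  have key : ∀ z, z ∈ Q → g * z * g⁻¹ ∈ f.range := by
    intro z hz
    have h1 : g * z * g⁻¹ ∈ (g • Q : Sylow 2 (GL (Fin 2) (ZMod 3))) := by
      exact Subgroup.smul_mem_pointwise_smul z (MulAut.conj g) (Q : Subgroup (GL (Fin 2) (ZMod 3))) hz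
    rw [hg] at h1
    exact h1
  obtain ⟨x, hx⟩ := key x0 (hQ (le_sup_left (a := Subgroup.zpowers x0) (Subgroup.mem_zpowers x0)))
  obtain ⟨y, hy⟩ := key y0 (hQ (le_sup_right (b := Subgroup.zpowers y0) (Subgroup.mem_zpowers y0)))
  refine ⟨3, le_rfl, by rw [hG]; norm_num, x, y, ?_, ?_, ?_⟩
  · rw [← orderOf_injective f hf, hx, ← MulAut.conj_apply, MulEquiv.orderOf_eq, ox]; norm_num
  · rw [← orderOf_injective f hf, hy, ← MulAut.conj_apply, MulEquiv.orderOf_eq, oy]
  · apply hf
    rw [map_mul, map_mul, map_inv, map_pow, hx, hy]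
    norm_num
    rw [← y0x0]
    group

end act

/-- Let q be a prime, V a non-trivial finite vector space over the field with q elements, and G a non-trivial finite p-group (p prime) acting faithfully and linearly on V and transitively on the non-zero vectors. Then either q = 2 and G has prime order p = |V| − 1; or p = 2, V has q elements with q = 2^m + 1 and G is cyclic of order 2^m; or p = 2, q = 3, V has 9 elements and G is cyclic of order 8, quaternion of order 8, or semidihedral of order 16. -/
theorem result (q : ℕ) [Fact q.Prime] {V : Type*} [AddCommGroup V] [Module (ZMod q) V] [Finite V] [Nontrivial V]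
    {G : Type*} [Group G] [Finite G] [Nontrivial G] (p : ℕ) [Fact p.Prime] (hG : IsPGroup p G)
    (ρ : G →* (V ≃ₗ[ZMod q] V)) (hρ : Function.Injective ρ)
    (htrans : ∀ v w : V, v ≠ 0 → w ≠ 0 → ∃ g : G, ρ g v = w) :
    (q = 2 ∧ p = Nat.card V - 1 ∧ Nat.card G = p) ∨
    (p = 2 ∧ Nat.card V = q ∧ (∃ m : ℕ, q = 2 ^ m + 1 ∧ Nat.card G = 2 ^ m) ∧ IsCyclic G) ∨
    (p = 2 ∧ q = 3 ∧ Nat.card V = 9 ∧
      ((IsCyclic G ∧ Nat.card G = 8) ∨ Nonempty (G ≃* QuaternionGroup 2) ∨ (Cfsg.IsQuasiDihedral G ∧ Nat.card G = 16))) := by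
  have hqp : q.Prime := Fact.out
  have hpp : p.Prime := Fact.out
  let _ := act ρ
  have hsm : ∀ (g : G) (v : {v : V // v ≠ 0}), ((g • v : {v : V // v ≠ 0}) : V) = ρ g v := fun g v => rfl
  obtain ⟨v0, hv0⟩ := exists_ne (0 : V)
  have horb : MulAction.orbit G (⟨v0, hv0⟩ : {v : V // v ≠ 0}) = Set.univ := by
    rw [Set.eq_univ_iff_forall]
    rintro ⟨w, hw⟩
    obtain ⟨g, hg⟩ := htrans v0 w hv0 hw
    exact ⟨g, Subtype.ext hg⟩
  obtain ⟨k, hk⟩ := hG.card_orbit (⟨v0, hv0⟩ : {v : V // v ≠ 0})
  rw [horb, Nat.card_coe_set_eq, Set.ncard_univ] at hk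
  have hfaith : ∀ g : G, (∀ v : {v : V // v ≠ 0}, g • v = v) → g = 1 := by
    intro g hg
    apply hρ
    rw [map_one]
    ext w
    by_cases hw : w = 0
    · rw [hw, map_zero]; rfl
    · exact congrArg Subtype.val (hg ⟨w, hw⟩)
  have hVk : Nat.card V = p ^ k + 1 := by rw [card_ne V, hk]
  set n := Module.finrank (ZMod q) V with hn
  have hVn : Nat.card V = q ^ n := by
    rw [Module.natCard_eq_pow_finrank (K := ZMod q), Nat.card_zmod]
  have hn0 : 0 < n := Module.finrank_pos
  obtain ⟨a, ha⟩ := (IsPGroup.iff_card (p := p) (G := G)).mp hG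
  have ha0 : 0 < a := by
    rcases Nat.eq_zero_or_pos a with h | h
    · exfalso
      rw [h, pow_zero] at ha
      have := Finite.one_lt_card_iff_nontrivial.mpr (inferInstance : Nontrivial G)
      omega
    · exact h
  have hk0 : 0 < k := by
    rcases Nat.eq_zero_or_pos k with h | h
    · exfalso
      rw [h, pow_zero] at hk
      have hsub : Subsingleton {v : V // v ≠ 0} := (Nat.card_eq_one_iff_unique.mp hk).1
      have : Subsingleton G := by
        constructor
        intro x y
        have h1 := hfaith x (fun v => Subsingleton.elim _ _)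
        have h2 := hfaith y (fun v => Subsingleton.elim _ _)
        rw [h1, h2]
      exact not_subsingleton G this
    · exact h
  have hkG : Nat.card {v : V // v ≠ 0} ≤ Nat.card G := by
    apply Nat.card_le_card_of_surjective (fun g : G => g • (⟨v0, hv0⟩ : {v : V // v ≠ 0}))
    intro w
    have : w ∈ MulAction.orbit G (⟨v0, hv0⟩ : {v : V // v ≠ 0}) := by rw [horb]; trivial
    exact this
  by_cases hp2 : p = 2
  · subst hp2
    have hq2 : q ≠ 2 := by
      rintro rfl
      rw [hVn] at hVk
      have h1 : 2 ∣ 2 ^ n := dvd_pow_self 2 (by omega)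
      have h2 : 2 ∣ 2 ^ k := dvd_pow_self 2 (by omega)
      omega
    rcases Nat.lt_or_ge n 2 with hn2 | hn2
    · have hn1 : n = 1 := by omega
      right; left
      have hVq : Nat.card V = q := by rw [hVn, hn1, pow_one]
      obtain ⟨hcyc, hle⟩ := one_dim ρ hρ hVq
      refine ⟨rfl, hVq, ⟨k, by omega, ?_⟩, hcyc⟩
      omega
    · obtain ⟨rfl, hn2'⟩ := ntB q k n hqp hq2 hn2 (by omega)
      right; right
      have hV9 : Nat.card V = 9 := by rw [hVn, hn2']; norm_num
      refine ⟨rfl, rfl, hV9, ?_⟩
      obtain ⟨f, hf⟩ := exists_GL ρ hρ hn2'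
      have h48 : 2 ^ a ∣ 48 := by
        rw [← ha, ← card_GL23]
        exact Subgroup.card_dvd_of_injective f hf
      have h8 : 8 ≤ 2 ^ a := by
        rw [← ha]
        have := card_ne V
        omega
      have ha5 : a < 5 := by
        by_contra hcon
        push Not at hcon
        have := (pow_dvd_pow 2 hcon).trans h48
        norm_num at this
      have ha34 : a = 3 ∨ a = 4 := by
        interval_cases a <;> simp at h8 ⊢
      rcases ha34 with rfl | rfl
      · have hcG : Nat.card G = 8 := by rw [ha]; norm_num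
        have hinj : Function.Injective (fun g : G => g • (⟨v0, hv0⟩ : {v : V // v ≠ 0})) := by
          have hs : Function.Surjective (fun g : G => g • (⟨v0, hv0⟩ : {v : V // v ≠ 0})) := by
            intro w
            have : w ∈ MulAction.orbit G (⟨v0, hv0⟩ : {v : V // v ≠ 0}) := by rw [horb]; trivial
            exact this
          have hcc : Nat.card G = Nat.card {v : V // v ≠ 0} := by
            have := card_ne V
            omega
          exact ((Nat.bijective_iff_surjective_and_card _).mpr ⟨hs, hcc⟩).1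
        have hstab : ∀ (v : V) (g : G), v ≠ 0 → ρ g v = v → g = 1 := by
          intro v g hv hgv
          obtain ⟨h, hh⟩ := htrans v0 v hv0 hv
          have h1 : (h⁻¹ * g * h) • (⟨v0, hv0⟩ : {v : V // v ≠ 0}) = (1 : G) • (⟨v0, hv0⟩ : {v : V // v ≠ 0}) := by
            apply Subtype.ext
            rw [one_smul, hsm, rmul, rmul]
            change ρ h⁻¹ (ρ g (ρ h v0)) = v0
            rw [hh, hgv, ← hh, ← rmul, inv_mul_cancel, map_one]; rfl
          have h2 := hinj h1
          have h3 : g = h * (h⁻¹ * g * h) * h⁻¹ := by group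
          rw [h3, h2]; group
        have huniq : ∀ s t : G, s ≠ 1 → t ≠ 1 → s * s = 1 → t * t = 1 → s = t := by
          have hneg : ∀ s : G, s ≠ 1 → s * s = 1 → ∀ v, ρ s v = -v := by
            intro s hs hss v
            apply eq_neg_of_add_eq_zero_left
            by_contra hne
            apply hs
            apply hstab _ s hne
            rw [map_add, ← rmul, hss, map_one, add_comm]; rfl
          intro s t hs ht hss htt
          apply hρ
          ext v
          rw [hneg s hs hss, hneg t ht htt]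
        have hsub : ∀ H K : Subgroup G, Nat.card H = 2 → Nat.card K = 2 → H = K := by
          have key : ∀ H K : Subgroup G, Nat.card H = 2 → Nat.card K = 2 → H ≤ K := by
            intro H K hH hK x hx
            by_cases hx1 : x = 1
            · rw [hx1]; exact one_mem _
            obtain ⟨y, hy⟩ : ∃ y ∈ K, y ≠ 1 := by
              rcases Subgroup.bot_or_exists_ne_one K with h | h
              · rw [h] at hK; simp at hK
              · exact h
            have hsq : ∀ (L : Subgroup G), Nat.card L = 2 → ∀ z ∈ L, z * z = 1 := by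
              intro L hL z hz
              have := pow_card_eq_one' (x := (⟨z, hz⟩ : L))
              rw [hL, pow_two] at this
              exact congrArg Subtype.val this
            rw [huniq x y hx1 hy.2 (hsq H hH x hx) (hsq K hK y hy.1)]
            exact hy.1
          intro H K hH hK
          exact le_antisymm (key H K hH hK) (key K H hK hH)
        rcases Cfsg.Agent.S0016.result 2 hG hsub with h | ⟨-, m, ⟨e⟩⟩
        · left; exact ⟨h, hcG⟩
        · right; left
          have h1 := Nat.card_congr e.toEquiv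
          rw [hcG, Nat.card_eq_fintype_card, QuaternionGroup.card] at h1
          have hm : m = 1 := by
            have : 2 ^ m = 2 ^ 1 := by omega
            exact Nat.pow_right_injective (le_refl 2) this
          rw [hm] at e
          exact ⟨e⟩
      · right; right
        have hcG : Nat.card G = 16 := by rw [ha]; norm_num
        exact ⟨gl_case f hf hcG, hcG⟩
  · left
    have hq2 : q = 2 := by
      by_contra hq2
      rw [hVn] at hVk
      have h1 : Odd (q ^ n) := (hqp.odd_of_ne_two hq2).pow
      have h2 : Odd (p ^ k) := (hpp.odd_of_ne_two hp2).pow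
      rw [hVk] at h1
      exact (Nat.not_even_iff_odd.mpr h1) h2.add_one
    subst hq2
    have hk1 : k = 1 := ntA p k n hpp hp2 hk0 (by omega)
    subst hk1
    rw [pow_one] at hk hVk
    refine ⟨rfl, by omega, ?_⟩
    rw [ha]
    have ha1 : a ≤ 1 := by
      by_contra hcon
      push Not at hcon
      have h1 : Nat.card G ∣ Nat.card (Perm {v : V // v ≠ 0}) := by
        apply Subgroup.card_dvd_of_injective (MulAction.toPermHom G {v : V // v ≠ 0})
        rw [← MonoidHom.ker_eq_bot_iff, eq_bot_iff]
        intro g hg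
        rw [Subgroup.mem_bot]
        apply hfaith
        intro v
        rw [MonoidHom.mem_ker] at hg
        exact congrArg (fun σ : Perm {v : V // v ≠ 0} => σ v) hg
      have : Fintype {v : V // v ≠ 0} := Fintype.ofFinite _
      classical
      rw [Nat.card_perm, hk, ha] at h1
      have h2 : p ^ 2 ∣ p.factorial := (pow_dvd_pow p hcon).trans h1
      rw [← Nat.mul_factorial_pred hpp.pos.ne', pow_two] at h2
      have h3 := Nat.dvd_of_mul_dvd_mul_left hpp.pos h2
      rw [hpp.dvd_factorial] at h3
      have := hpp.pos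
      omega
    have : a = 1 := by omega
    rw [this, pow_one]

end Cfsg.Agent.S3370
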