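import Cfsg.Statements.S3375
import Mathlib

set_option autoImplicit false
open Cfsg

namespace Cfsg.Agent.S3375

open Subgroup

/-- an invariant subgroup of index 2 -/
theorem exists_invariant {H : Type*} [Group H] (γ : MulAut H) (hγ : ∀ x, γ (γ x) = x) (M : Subgroup H)
    (hM : M.index = 2) : ∃ M' : Subgroup H, M'.index = 2 ∧ ∀ x, γ x ∈ M' ↔ x ∈ M' := by
  by_cases hinv : ∀ x, γ x ∈ M ↔ x ∈ M
  · exact ⟨M, hM, hinv⟩
  push Not at hinv
  obtain ⟨a, ha⟩ := hinv
  let M' : Subgroup H :=
    { carrier := {x | γ x ∈ M ↔ x ∈ M}
      one_mem' := by simp [M.one_mem]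
      mul_mem' := by
        intro x y hx hy
        simp only [Set.mem_setOf_eq] at hx hy ⊢
        rw [map_mul, mul_mem_iff_of_index_two hM, mul_mem_iff_of_index_two hM, hx, hy]
      inv_mem' := by
        intro x hx
        simp only [Set.mem_setOf_eq] at hx ⊢
        rw [map_inv, inv_mem_iff, inv_mem_iff]; exact hx }
  have hmem : ∀ x, x ∈ M' ↔ (γ x ∈ M ↔ x ∈ M) := fun x => Iff.rfl
  refine ⟨M', ?_, ?_⟩
  · rw [index_eq_two_iff]
    refine ⟨a, fun b => ?_⟩
    rw [hmem, hmem, map_mul, mul_mem_iff_of_index_two hM, mul_mem_iff_of_index_two hM]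
    rw [xor_iff_not_iff]
    rcases ha with ⟨h1, h2⟩ | ⟨h1, h2⟩ <;> simp only [h1, h2] <;> tauto
  · intro x
    rw [hmem, hmem, hγ]
    tauto

/-- Let γ be an automorphism of order 2 of a finite group H. (i) If γ fixes only the identity, then H is abelian and γ inverts every element. (ii) If γ has exactly two fixed points and H has a subgroup of index 2, then H has a γ-invariant abelian subgroup of index 2 on which γ acts by inversion. -/
theorem result {H : Type*} [Group H] [Finite H] (γ : MulAut H) (hγ : orderOf γ = 2) :
    ((∀ h : H, γ h = h → h = 1) → (∀ a b : H, a * b = b * a) ∧ ∀ h : H, γ h = h⁻¹) ∧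
    ((Nat.card {h : H // γ h = h} = 2 ∧ ∃ M : Subgroup H, M.index = 2) →
      ∃ A : Subgroup H, A.index = 2 ∧ IsMulCommutative A ∧ (∀ a ∈ A, γ a ∈ A) ∧ ∀ a ∈ A, γ a = a⁻¹) := by
  classical
  have hγ2 : ∀ x, γ (γ x) = x := by
    intro x
    have : γ ^ 2 = 1 := by rw [← hγ]; exact pow_orderOf_eq_one γ
    have h2 := congrArg (fun f : MulAut H => f x) this
    simpa [pow_two] using h2
  constructor
  · intro hfix
    have h1 : MonoidHom.FixedPointFree (γ : H → H) := hfix
    have h2 : Function.Involutive (γ : H → H) := hγ2
    refine ⟨fun a b => MonoidHom.FixedPointFree.commute_all_of_involutive (φ := γ) h1 h2 a b, fun h => ?_⟩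
    exact congrFun (MonoidHom.FixedPointFree.coe_eq_inv_of_involutive (φ := γ) h1 h2) h
  · rintro ⟨hcard, M, hM⟩
    obtain ⟨A, hA, hAinv⟩ := exists_invariant γ hγ2 M hM
    -- it suffices that γ inverts A
    suffices hinv : ∀ a ∈ A, γ a = a⁻¹ by
      refine ⟨A, hA, ⟨⟨fun a b => ?_⟩⟩, fun a ha => (hAinv a).mpr ha, hinv⟩
      apply Subtype.ext
      have h1 := hinv _ (A.mul_mem a.2 b.2)
      rw [map_mul, hinv _ a.2, hinv _ b.2] at h1
      have h2 := congrArg (fun x => x⁻¹) h1
      simp only [mul_inv_rev, inv_inv] at h2
      exact h2.symm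
    have hFix : ∃ z : H, z ≠ 1 ∧ γ z = z ∧ ∀ y, γ y = y → y = 1 ∨ y = z := by
      rw [Nat.card_eq_two_iff' (⟨1, map_one γ⟩ : {h : H // γ h = h})] at hcard
      obtain ⟨z, hz1, hz2⟩ := hcard
      refine ⟨z.1, ?_, z.2, ?_⟩
      · intro h; apply hz1; exact Subtype.ext h
      · intro y hy
        by_cases h : y = 1
        · exact Or.inl h
        · right
          have := hz2 ⟨y, hy⟩ (fun hc => h (congrArg Subtype.val hc))
          exact congrArg Subtype.val this
    obtain ⟨z, hz1, hz2, hz3⟩ := hFix
    by_cases hzA : z ∈ A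
    · -- the map h ↦ h⁻¹ * γ h maps onto A
      have hFt : Fintype H := Fintype.ofFinite H
      let δ : H → H := fun h => h⁻¹ * γ h
      have hδA : ∀ h, δ h ∈ A := by
        intro h
        rw [mul_mem_iff_of_index_two hA, inv_mem_iff, hAinv]
      have hfib : ∀ a ∈ Finset.univ.image δ, (Finset.univ.filter (fun x => δ x = a)).card ≤ 2 := by
        intro a ha
        rw [Finset.mem_image] at ha
        obtain ⟨h0, -, rfl⟩ := ha
        have hsub : Finset.univ.filter (fun x => δ x = δ h0) ⊆ {h0, z * h0} := by
          intro x hx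
          rw [Finset.mem_filter] at hx
          have hx2 : x⁻¹ * γ x = h0⁻¹ * γ h0 := hx.2
          have h1 : γ (x * h0⁻¹) = x * h0⁻¹ := by
            rw [map_mul, map_inv]
            have h3 : γ x = x * (h0⁻¹ * γ h0) := by rw [← hx2]; group
            rw [h3]; group
          rcases hz3 _ h1 with h | h
          · have : x = h0 := by rw [mul_inv_eq_one] at h; exact h
            simp [this]
          · have : x = z * h0 := by rw [← h]; group
            simp [this]
        exact (Finset.card_le_card hsub).trans (Finset.card_le_two)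
      have hle := Finset.card_le_mul_card_image (f := δ) Finset.univ 2 hfib
      have himg : (Finset.univ.image δ) ⊆ (A : Set H).toFinset := by
        intro x hx
        rw [Finset.mem_image] at hx
        obtain ⟨h0, -, rfl⟩ := hx
        simpa using hδA h0
      have hcardA : (A : Set H).toFinset.card * 2 = Fintype.card H := by
        have h1 := A.card_mul_index
        rw [hA] at h1
        rw [← Nat.card_eq_fintype_card, ← h1]
        congr 1
        rw [Set.toFinset_card, ← Nat.card_eq_fintype_card]; rfl
      have heq : Finset.univ.image δ = (A : Set H).toFinset := by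
        apply Finset.eq_of_subset_of_card_le himg
        rw [Finset.card_univ] at hle
        omega
      intro a ha
      have : a ∈ Finset.univ.image δ := by rw [heq]; simpa using ha
      rw [Finset.mem_image] at this
      obtain ⟨h0, -, rfl⟩ := this
      simp only [δ, map_mul, map_inv, hγ2]
      group
    · -- γ acts fixed-point-freely on A
      let γ' : A →* A :=
        { toFun := fun a => ⟨γ a, (hAinv a).mpr a.2⟩
          map_one' := by apply Subtype.ext; simp
          map_mul' := by intro a b; apply Subtype.ext; simp }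
      have h1 : MonoidHom.FixedPointFree (γ' : A → A) := by
        intro a ha
        have h2 : γ (a : H) = a := congrArg Subtype.val ha
        rcases hz3 _ h2 with h | h
        · exact Subtype.ext h
        · exfalso; apply hzA; rw [← h]; exact a.2
      have h2 : Function.Involutive (γ' : A → A) := by
        intro a
        apply Subtype.ext
        exact hγ2 a
      intro a ha
      have h3 := congrFun (MonoidHom.FixedPointFree.coe_eq_inv_of_involutive (φ := γ') h1 h2) ⟨a, ha⟩
      exact congrArg Subtype.val h3

end Cfsg.Agent.S3375
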