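import Cfsg.Statements.S3377
import Mathlib
import Cfsg.Agent.LibCosEnH12

set_option autoImplicit false
open Cfsg

namespace Cfsg.Agent.S3377

open CfsgLib.CosEnH12

/-- coset enumeration for `⟨x, y | x³, y⁵, (xy)²⟩` over `⟨y⟩` -/
theorem enum {G : Type*} [Group G] (x y : G) (hx : x ^ 3 = 1) (hy : y ^ 5 = 1)
    (hxy : (x * y) ^ 2 = 1) (hgen : Subgroup.closure {x, y} = ⊤) :
    Finite G ∧ Nat.card G ≤ 60 := by
  classical
  obtain ⟨a, ha⟩ : ∃ a : G ⧸ Subgroup.zpowers y → G ⧸ Subgroup.zpowers y, a = fun c => x • c :=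
    ⟨_, rfl⟩
  obtain ⟨b, hb⟩ : ∃ b : G ⧸ Subgroup.zpowers y → G ⧸ Subgroup.zpowers y, b = fun c => y • c :=
    ⟨_, rfl⟩
  have ha3 : ∀ c, a (a (a c)) = c := by
    intro c
    rw [ha]
    have : x • x • x • c = (x ^ 3) • c := by rw [pow_succ, pow_two, mul_smul, mul_smul]
    exact this.trans (by rw [hx, one_smul])
  have hb5 : ∀ c, b (b (b (b (b c)))) = c := by
    intro c
    rw [hb]
    have : y • y • y • y • y • c = (y ^ 5) • c := by
      simp only [pow_succ, pow_zero, one_mul, mul_smul]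
    exact this.trans (by rw [hy, one_smul])
  have hab : ∀ c, a (b (a (b c))) = c := by
    intro c
    rw [ha, hb]
    have : x • y • x • y • c = ((x * y) ^ 2) • c := by
      rw [pow_two]; simp only [mul_smul]
    exact this.trans (by rw [hxy, one_smul])
  have hainj : ∀ c d, a c = a d → c = d := fun c d h => by rw [← ha3 c, h, ha3]
  have hbinj : ∀ c d, b c = b d → c = d := fun c d h => by rw [← hb5 c, h, hb5]
  obtain ⟨c0, hc0⟩ : ∃ c0, c0 = ((1 : G) : G ⧸ Subgroup.zpowers y) := ⟨_, rfl⟩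
  have hb0 : b c0 = c0 := by
    rw [hb, hc0]
    dsimp only
    rw [MulAction.Quotient.smul_coe, smul_eq_mul, mul_one]
    rw [QuotientGroup.eq]
    simp [Subgroup.mem_zpowers y]
  -- table
  obtain ⟨c1, h1⟩ : ∃ c, c = a c0 := ⟨_, rfl⟩
  obtain ⟨c2, h2⟩ : ∃ c, c = a c1 := ⟨_, rfl⟩
  have a2 : a c2 = c0 := by rw [h2, h1, ha3]
  have b1 : b c1 = c2 := by
    apply hainj
    rw [a2, h1]
    have := hab c0
    rw [hb0] at this
    exact this
  obtain ⟨c3, h3⟩ : ∃ c, c = b c2 := ⟨_, rfl⟩
  obtain ⟨c4, h4⟩ : ∃ c, c = b c3 := ⟨_, rfl⟩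
  obtain ⟨c5, h5⟩ : ∃ c, c = b c4 := ⟨_, rfl⟩
  have b5 : b c5 = c1 := by rw [h5, h4, h3, ← b1, hb5]
  have a3 : a c3 = c5 := by
    apply hbinj
    rw [b5]
    apply hainj
    rw [← h2, h3]
    exact hab c2
  obtain ⟨c6, h6⟩ : ∃ c, c = a c5 := ⟨_, rfl⟩
  have a6 : a c6 = c3 := by rw [h6, ← a3, ha3]
  obtain ⟨c7, h7⟩ : ∃ c, c = a c4 := ⟨_, rfl⟩
  have b7 : b c7 = c6 := by
    apply hainj
    rw [a6, h7, h4]
    exact hab c3
  obtain ⟨c8, h8⟩ : ∃ c, c = a c7 := ⟨_, rfl⟩
  have a8 : a c8 = c4 := by rw [h8, h7, ha3]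
  have b6 : b c6 = c8 := by
    apply hainj
    rw [a8, h6, h5]
    exact hab c4
  obtain ⟨c9, h9⟩ : ∃ c, c = b c8 := ⟨_, rfl⟩
  obtain ⟨c10, h10⟩ : ∃ c, c = b c9 := ⟨_, rfl⟩
  have b10 : b c10 = c7 := by
    rw [h10, h9, ← b6, ← b7, hb5]
  have a9 : a c9 = c10 := by
    apply hbinj
    rw [b10]
    apply hainj
    rw [← h8, h9]
    exact hab c8
  obtain ⟨c11, h11⟩ : ∃ c, c = a c10 := ⟨_, rfl⟩
  have a11 : a c11 = c9 := by rw [h11, ← a9, ha3]
  have b11 : b c11 = c11 := by
    apply hainj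
    rw [a11, h11, h10]
    exact hab c9
  obtain ⟨hf, hle⟩ := card_zpowers_le y 5 (by norm_num) hy
  obtain ⟨hfG, hG⟩ := card_bound ({x, y} : Set G) hgen (by
    rintro t (rfl | ht)
    · exact ⟨2, by
        rw [inv_eq_iff_mul_eq_one, ← pow_succ', hx]⟩
    · rw [Set.mem_singleton_iff] at ht
      subst ht
      exact ⟨4, by rw [inv_eq_iff_mul_eq_one, ← pow_succ', hy]⟩) (Subgroup.zpowers y) hf
    ([c0, c1, c2, c3, c4, c5, c6, c7, c8, c9, c10, c11].toFinset)
    (by rw [← hc0]; simp) (by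
      have hax : ∀ c, x • c = a c := fun c => by rw [ha]
      have hby : ∀ c, y • c = b c := fun c => by rw [hb]
      intro t ht s hs
      simp only [List.mem_toFinset, List.mem_cons, List.not_mem_nil, or_false] at hs
      rcases ht with ht | ht
      · rw [ht, hax]
        rcases hs with h | h | h | h | h | h | h | h | h | h | h | h <;> rw [h]
        · rw [← h1]; simp
        · rw [← h2]; simp
        · rw [a2]; simp
        · rw [a3]; simp
        · rw [← h7]; simp
        · rw [← h6]; simp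
        · rw [a6]; simp
        · rw [← h8]; simp
        · rw [a8]; simp
        · rw [a9]; simp
        · rw [← h11]; simp
        · rw [a11]; simp
      · rw [Set.mem_singleton_iff] at ht
        rw [ht, hby]
        rcases hs with h | h | h | h | h | h | h | h | h | h | h | h <;> rw [h]
        · rw [hb0]; simp
        · rw [b1]; simp
        · rw [← h3]; simp
        · rw [← h4]; simp
        · rw [← h5]; simp
        · rw [b5]; simp
        · rw [b6]; simp
        · rw [b7]; simp
        · rw [← h9]; simp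
        · rw [← h10]; simp
        · rw [b10]; simp
        · rw [b11]; simp)
  refine ⟨hfG, hG.trans ?_⟩
  calc _ ≤ 5 * 12 := Nat.mul_le_mul hle (List.toFinset_card_le _)
    _ = 60 := by norm_num

/-- the two permutations -/
def X5 : alternatingGroup (Fin 5) := ⟨c[0, 1, 2], by rw [Equiv.Perm.mem_alternatingGroup]; decide⟩
def Y5 : alternatingGroup (Fin 5) := ⟨c[0, 2, 4, 1, 3], by rw [Equiv.Perm.mem_alternatingGroup]; decide⟩

set_option maxRecDepth 20000 in
theorem X5_pow : X5 ^ 3 = 1 := by decide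
set_option maxRecDepth 20000 in
theorem Y5_pow : Y5 ^ 5 = 1 := by decide
set_option maxRecDepth 20000 in
theorem XY5_pow : (X5 * Y5) ^ 2 = 1 := by decide

set_option maxRecDepth 20000 in
theorem range_top (R : Subgroup (alternatingGroup (Fin 5))) (hx : X5 ∈ R) (hy : Y5 ∈ R) :
    R = ⊤ := by
  have hc : Nat.card (alternatingGroup (Fin 5)) = 60 := by
    have := two_mul_nat_card_alternatingGroup (α := Fin 5)
    rw [Nat.card_perm] at this
    have h2 : Nat.card (Fin 5) = 5 := by simp
    rw [h2] at this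
    have h3 : Nat.factorial 5 = 120 := rfl
    omega
  have o3 : orderOf X5 = 3 := by
    have : Fact (Nat.Prime 3) := ⟨Nat.prime_three⟩
    exact orderOf_eq_prime X5_pow (by decide)
  have o5 : orderOf Y5 = 5 := by
    have : Fact (Nat.Prime 5) := ⟨Nat.prime_five⟩
    exact orderOf_eq_prime Y5_pow (by decide)
  have o2 : orderOf (X5 * Y5) = 2 := by
    have : Fact (Nat.Prime 2) := ⟨Nat.prime_two⟩
    exact orderOf_eq_prime XY5_pow (by decide)
  have d3 := Subgroup.orderOf_dvd_natCard R hx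
  have d5 := Subgroup.orderOf_dvd_natCard R hy
  have d2 := Subgroup.orderOf_dvd_natCard R (R.mul_mem hx hy)
  rw [o3] at d3
  rw [o5] at d5
  rw [o2] at d2
  have hm := R.card_mul_index
  rw [hc] at hm
  have hi : R.index = 1 ∨ R.index = 2 := by
    obtain ⟨k, hk⟩ : 30 ∣ Nat.card R := by omega
    rw [hk] at hm
    have h1 : k * R.index = 2 := by nlinarith
    have h2 : R.index ∣ 2 := ⟨k, by rw [mul_comm]; exact h1.symm⟩
    exact (Nat.dvd_prime Nat.prime_two).mp h2
  rcases hi with hi | hi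
  · exact Subgroup.index_eq_one.mp hi
  · have hn : R.Normal := Subgroup.normal_of_index_eq_two hi
    have hs : IsSimpleGroup (alternatingGroup (Fin 5)) := inferInstance
    rcases hs.eq_bot_or_eq_top_of_normal R hn with h | h
    · rw [h, Subgroup.card_bot] at d3
      omega
    · exact h


/-- The alternating group of degree 5 has the presentation ⟨x, y | x³ = 1, y⁵ = 1, (xy)² = 1⟩: the group so presented is isomorphic to Alt(5). -/
theorem result :
    Nonempty (PresentedGroup ({FreeGroup.of (0 : Fin 2) ^ 3, FreeGroup.of (1 : Fin 2) ^ 5,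
        (FreeGroup.of (0 : Fin 2) * FreeGroup.of 1) ^ 2} : Set (FreeGroup (Fin 2))) ≃* alternatingGroup (Fin 5)) := by
  obtain ⟨rels, hrels⟩ : ∃ r : Set (FreeGroup (Fin 2)), r =
    ({FreeGroup.of (0 : Fin 2) ^ 3, FreeGroup.of (1 : Fin 2) ^ 5,
        (FreeGroup.of (0 : Fin 2) * FreeGroup.of 1) ^ 2} : Set (FreeGroup (Fin 2))) := ⟨_, rfl⟩
  rw [← hrels]
  have hrel : ∀ r ∈ rels, PresentedGroup.mk rels r = 1 := fun r hr =>
    PresentedGroup.mk_eq_one_iff.mpr (Subgroup.subset_normalClosure hr)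
  have h1 : (PresentedGroup.of (rels := rels) 0) ^ 3 = 1 := by
    have := hrel (FreeGroup.of (0 : Fin 2) ^ 3) (by rw [hrels]; simp)
    rw [map_pow] at this; exact this
  have h2 : (PresentedGroup.of (rels := rels) 1) ^ 5 = 1 := by
    have := hrel (FreeGroup.of (1 : Fin 2) ^ 5) (by rw [hrels]; simp)
    rw [map_pow] at this; exact this
  have h3 : (PresentedGroup.of (rels := rels) 0 * PresentedGroup.of (rels := rels) 1) ^ 2 = 1 := by
    have := hrel ((FreeGroup.of (0 : Fin 2) * FreeGroup.of 1) ^ 2) (by rw [hrels]; simp)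
    rw [map_pow, map_mul] at this; exact this
  have hgen : Subgroup.closure ({PresentedGroup.of (rels := rels) 0,
      PresentedGroup.of (rels := rels) 1} : Set (PresentedGroup rels)) = ⊤ := by
    rw [← PresentedGroup.closure_range_of rels]
    congr 1
    ext z
    simp only [Set.mem_insert_iff, Set.mem_singleton_iff, Set.mem_range]
    constructor
    · rintro (h | h)
      · exact ⟨0, h.symm⟩
      · exact ⟨1, h.symm⟩
    · rintro ⟨i, rfl⟩
      fin_cases i
      · exact Or.inl rfl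
      · exact Or.inr rfl
  obtain ⟨hfin, hle⟩ := enum _ _ h1 h2 h3 hgen
  let f : Fin 2 → alternatingGroup (Fin 5) := ![X5, Y5]
  have hf : ∀ r ∈ rels, FreeGroup.lift f r = 1 := by
    rw [hrels]
    rintro r (rfl | rfl | hr)
    · rw [map_pow, FreeGroup.lift_apply_of]; exact X5_pow
    · rw [map_pow, FreeGroup.lift_apply_of]; exact Y5_pow
    · rw [Set.mem_singleton_iff] at hr
      subst hr
      rw [map_pow, map_mul, FreeGroup.lift_apply_of, FreeGroup.lift_apply_of]; exact XY5_pow
  apply equiv_of_surj (PresentedGroup.toGroup hf)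
  · rw [← MonoidHom.range_eq_top]
    apply range_top
    · exact ⟨PresentedGroup.of 0, PresentedGroup.toGroup.of hf⟩
    · exact ⟨PresentedGroup.of 1, PresentedGroup.toGroup.of hf⟩
  · have hc : Nat.card (alternatingGroup (Fin 5)) = 60 := by
      have := two_mul_nat_card_alternatingGroup (α := Fin 5)
      rw [Nat.card_perm] at this
      have h2 : Nat.card (Fin 5) = 5 := by simp
      rw [h2] at this
      have h3 : Nat.factorial 5 = 120 := rfl
      omega
    rw [hc]; exact hle

end Cfsg.Agent.S3377
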