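import Cfsg.Statements.S3379
import Mathlib

set_option autoImplicit false
open Cfsg

namespace Cfsg.Agent.S3379

open Subgroup

/-- Let G be a finite group all of whose Sylow subgroups are cyclic. Then G is generated by two elements x and y of coprime orders n and m with x⁻¹yx = y^r, where gcd(r − 1, m) = 1 and r^n ≡ 1 (mod m). -/
theorem result {G : Type*} [Group G] [Finite G]
    (hZ : ∀ (p : ℕ) [Fact p.Prime] (P : Sylow p G), IsCyclic (P : Subgroup G)) :
    ∃ (x y : G) (n m r : ℕ), Subgroup.closure {x, y} = ⊤ ∧ orderOf x = n ∧ orderOf y = m ∧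
      x⁻¹ * y * x = y ^ r ∧ Nat.Coprime (r - 1) m ∧ Nat.Coprime n m ∧ 1 ≤ r ∧ r ^ n % m = 1 % m := by
  classical
  have hZG : IsZGroup G := by
    rw [isZGroup_iff]
    intro p hp P
    haveI := Fact.mk hp
    exact hZ p P
  obtain ⟨H, hH⟩ := Subgroup.exists_right_complement'_of_coprime (IsZGroup.coprime_commutator_index G)
  have hcyc1 : IsCyclic (commutator G) := IsZGroup.isCyclic_commutator G
  have h1 : Abelianization G ≃* H := hH.symm.QuotientMulEquiv
  have hcyc2 : IsCyclic H := isCyclic_of_surjective _ h1.surjective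
  obtain ⟨y, hy⟩ := hcyc1.exists_generator
  obtain ⟨x, hx⟩ := hcyc2.exists_generator
  have hym : ∀ a : G, a ∈ commutator G → a ∈ zpowers (y : G) := by
    intro a ha
    obtain ⟨k, hk⟩ := mem_zpowers_iff.mp (hy ⟨a, ha⟩)
    exact mem_zpowers_iff.mpr ⟨k, by simpa using congrArg Subtype.val hk⟩
  have hxm : ∀ a : G, a ∈ H → a ∈ zpowers (x : G) := by
    intro a ha
    obtain ⟨k, hk⟩ := mem_zpowers_iff.mp (hx ⟨a, ha⟩)
    exact mem_zpowers_iff.mpr ⟨k, by simpa using congrArg Subtype.val hk⟩
  have hcy : Nat.card (commutator G) = orderOf (y : G) := by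
    rw [Subgroup.orderOf_coe]; exact (orderOf_eq_card_of_forall_mem_zpowers hy).symm
  have hcx : Nat.card H = orderOf (x : G) := by
    rw [Subgroup.orderOf_coe]; exact (orderOf_eq_card_of_forall_mem_zpowers hx).symm
  have hconj : (x : G)⁻¹ * y * x ∈ commutator G := by
    have := (inferInstance : (commutator G).Normal).conj_mem y y.2 (x : G)⁻¹
    simpa using this
  -- exponent
  have hpow : ∃ r : ℕ, 1 ≤ r ∧ (x : G)⁻¹ * y * x = (y : G) ^ r := by
    have h2 := hym _ hconj
    have h3 : (x : G)⁻¹ * y * x ∈ Submonoid.powers (y : G) := mem_powers_iff_mem_zpowers.mpr h2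
    obtain ⟨k, hk⟩ := h3
    refine ⟨k + orderOf (y : G), ?_, ?_⟩
    · have := orderOf_pos (y : G); omega
    · rw [pow_add, pow_orderOf_eq_one, mul_one]; exact hk.symm
  obtain ⟨r, hr1, hr⟩ := hpow
  have htop : closure {(x : G), (y : G)} = ⊤ := by
    rw [eq_top_iff, ← hH.sup_eq_top, sup_le_iff]
    constructor
    · intro a ha
      have := hym a ha
      rw [mem_zpowers_iff] at this
      obtain ⟨k, hk⟩ := this
      rw [← hk]
      exact zpow_mem (subset_closure (by simp)) _
    · intro a ha
      have := hxm a ha
      rw [mem_zpowers_iff] at this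
      obtain ⟨k, hk⟩ := this
      rw [← hk]
      exact zpow_mem (subset_closure (by simp)) _
  have hcop : Nat.Coprime (orderOf (x : G)) (orderOf (y : G)) := by
    rw [← hcx, ← hcy]
    have h3 : (commutator G).index = Nat.card H := hH.symm.index_eq_card
    rw [← h3]
    exact (IsZGroup.coprime_commutator_index G).symm
  refine ⟨x, y, orderOf (x : G), orderOf (y : G), r, htop, rfl, rfl, hr, ?_, hcop, hr1, ?_⟩
  · -- gcd (r-1, m) = 1 : the commutator subgroup is generated by y ^ (r - 1)
    set d := Nat.gcd (r - 1) (orderOf (y : G)) with hd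
    -- the subgroup zpowers (y ^ d) is normal and G/it is abelian
    let D : Subgroup G := zpowers ((y : G) ^ d)
    have hDy : ∀ k : ℕ, d ∣ k → (y : G) ^ k ∈ D := by
      rintro k ⟨c, rfl⟩
      rw [pow_mul]; exact pow_mem (mem_zpowers _) _
    have hDn : D.Normal := by
      rw [← normalizer_eq_top_iff, eq_top_iff, ← htop, closure_le]
      intro a ha
      rw [SetLike.mem_coe, mem_normalizer_iff'']
      have hfin : ∀ b ∈ D, a⁻¹ * b * a ∈ D := by
        intro b hb
        obtain ⟨k, rfl⟩ := mem_zpowers_iff.mp hb
        rcases ha with rfl | ha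
        · have h5 : (x : G)⁻¹ * ((y : G) ^ d) ^ k * x = (((x : G)⁻¹ * y * x) ^ d) ^ k := by
            have h6 : (x : G)⁻¹ * ((y : G) ^ d) ^ k * x = (MulAut.conj (x : G)⁻¹) (((y : G) ^ d) ^ k) := by simp
            rw [h6, map_zpow, map_pow]; simp
          rw [h5, hr, ← pow_mul, mul_comm r d, pow_mul]
          exact zpow_mem (pow_mem (mem_zpowers _) _) _
        · rw [Set.mem_singleton_iff] at ha
          subst ha
          have h5 : Commute ((y : G)) (((y : G) ^ d) ^ k) := ((Commute.refl _).pow_right _).zpow_right _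
          have h6 : (y : G)⁻¹ * ((y : G) ^ d) ^ k * y = ((y : G) ^ d) ^ k := by
            rw [mul_assoc, ← h5.eq, inv_mul_cancel_left]
          rw [h6]; exact zpow_mem (mem_zpowers _) _
      intro b
      constructor
      · exact hfin b
      · intro hb
        -- conjugation by a⁻¹ maps the finite set D into itself injectively, so onto
        let f : D → D := fun b => ⟨a⁻¹ * b * a, hfin b b.2⟩
        have hf : Function.Injective f := by
          intro u v huv
          have : a⁻¹ * (u : G) * a = a⁻¹ * v * a := congrArg Subtype.val huv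
          apply Subtype.ext
          simpa using this
        obtain ⟨c, hc⟩ := Finite.surjective_of_injective hf ⟨_, hb⟩
        have h7 : a⁻¹ * (c : G) * a = a⁻¹ * b * a := congrArg Subtype.val hc
        have h8 : (c : G) = b := by simpa using h7
        rw [← h8]; exact c.2
    have habel : commutator G ≤ D := by
      -- the quotient is generated by commuting elements
      rw [← QuotientGroup.ker_mk' D]
      have hcomm : ∀ a b : G ⧸ D, a * b = b * a := by
        have hgen : closure {(QuotientGroup.mk' D) (x : G), (QuotientGroup.mk' D) (y : G)} = ⊤ := by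
          have h9 := congrArg (Subgroup.map (QuotientGroup.mk' D)) htop
          rw [MonoidHom.map_closure, Set.image_pair, ← MonoidHom.range_eq_map, MonoidHom.range_eq_top.mpr (QuotientGroup.mk'_surjective D)] at h9
          exact h9
        have hc : (QuotientGroup.mk' D) (x : G) * (QuotientGroup.mk' D) (y : G) = (QuotientGroup.mk' D) (y : G) * (QuotientGroup.mk' D) (x : G) := by
          rw [← map_mul, ← map_mul]
          apply QuotientGroup.eq.mpr
          have h10 : ((x : G) * y)⁻¹ * (y * x) = (y : G)⁻¹ * ((x : G)⁻¹ * y * x) := by group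
          rw [h10, hr]
          have h11 : (y : G)⁻¹ * (y : G) ^ r = (y : G) ^ (r - 1) := by
            obtain ⟨s, rfl⟩ : ∃ s, r = s + 1 := ⟨r - 1, by omega⟩
            rw [pow_succ', inv_mul_cancel_left]; simp
          rw [h11]
          exact hDy _ (Nat.gcd_dvd_left _ _)
        have hcl : ∀ a ∈ closure {(QuotientGroup.mk' D) (x : G), (QuotientGroup.mk' D) (y : G)},
            ∀ b ∈ closure {(QuotientGroup.mk' D) (x : G), (QuotientGroup.mk' D) (y : G)}, a * b = b * a := by
          intro a ha b hb
          have := closure_le_centralizer_centralizer ({(QuotientGroup.mk' D) (x : G), (QuotientGroup.mk' D) (y : G)} : Set (G ⧸ D))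
          have hcent : closure {(QuotientGroup.mk' D) (x : G), (QuotientGroup.mk' D) (y : G)} ≤
              centralizer ({(QuotientGroup.mk' D) (x : G), (QuotientGroup.mk' D) (y : G)} : Set (G ⧸ D)) := by
            rw [closure_le]
            intro u hu
            rw [SetLike.mem_coe, mem_centralizer_iff]
            intro v hv
            simp only [Set.mem_insert_iff, Set.mem_singleton_iff] at hu hv
            rcases hu with rfl | rfl <;> rcases hv with rfl | rfl
            · rfl
            · exact hc.symm
            · exact hc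
            · rfl
          have h12 := this hb
          rw [mem_centralizer_iff] at h12
          exact h12 a (hcent ha)
        intro a b
        exact hcl a (by rw [hgen]; trivial) b (by rw [hgen]; trivial)
      rw [commutator_def, commutator_le]
      intro a _ b _
      rw [MonoidHom.mem_ker, map_commutatorElement, commutatorElement_eq_one_iff_mul_comm]
      exact hcomm _ _
    have hyD : (y : G) ∈ zpowers ((y : G) ^ d) := habel y.2
    have hord : orderOf (y : G) ∣ orderOf ((y : G) ^ d) := orderOf_dvd_of_mem_zpowers hyD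
    have hdm : d ∣ orderOf (y : G) := Nat.gcd_dvd_right _ _
    have hd0 : d ≠ 0 := by
      intro h; rw [h] at hdm; exact (orderOf_pos (y : G)).ne' (Nat.eq_zero_of_zero_dvd hdm)
    rw [orderOf_pow' _ hd0, Nat.gcd_eq_right hdm] at hord
    have hpos := orderOf_pos (y : G)
    have h13 : orderOf (y : G) / d = orderOf (y : G) :=
      Nat.dvd_antisymm (Nat.div_dvd_of_dvd hdm) hord
    have h14 : d = 1 := by
      have h15 := Nat.div_mul_cancel hdm
      rw [h13] at h15
      exact Nat.eq_of_mul_eq_mul_left hpos (by rw [h15, mul_one])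
    exact h14
  · -- r ^ n ≡ 1 mod m
    have hpow : ∀ k : ℕ, ((x : G) ^ k)⁻¹ * y * (x : G) ^ k = (y : G) ^ (r ^ k) := by
      intro k
      induction k with
      | zero => simp
      | succ k ih =>
        have h5 : ((x : G) ^ (k + 1))⁻¹ * y * (x : G) ^ (k + 1) = (x : G)⁻¹ * (((x : G) ^ k)⁻¹ * y * (x : G) ^ k) * x := by
          rw [pow_succ]; group
        rw [h5, ih]
        have h6 : (x : G)⁻¹ * (y : G) ^ (r ^ k) * x = ((x : G)⁻¹ * y * x) ^ (r ^ k) := by
          have h6 : (x : G)⁻¹ * (y : G) ^ (r ^ k) * x = (MulAut.conj (x : G)⁻¹) ((y : G) ^ (r ^ k)) := by simp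
          rw [h6, map_pow]; simp
        rw [h6, hr, ← pow_mul, pow_succ']
    have h7 := hpow (orderOf (x : G))
    rw [pow_orderOf_eq_one] at h7
    simp only [inv_one, one_mul, mul_one] at h7
    have h8 : (y : G) ^ 1 = (y : G) ^ (r ^ orderOf (x : G)) := by rw [pow_one]; exact h7
    rw [pow_eq_pow_iff_modEq] at h8
    exact h8.symm

end Cfsg.Agent.S3379
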