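import Cfsg.Agent.LibSolvNilp
import Cfsg.Agent.LibDihedral
import Cfsg.Agent.LibPCyc
import Cfsg.Agent.LibCycNorm
import Mathlib
-- Template for statement S3380 (row 3380; see /opt/grader/pristine/manifest.json for weights).
-- Copy to Cfsg/Agent/S3380.lean and replace the sorry. The statement below is byte-identical to the frozen
-- statement Cfsg.CfsgFrozen.S3380 (Cfsg/Statements/S3380.lean; the theorem Cfsg.p_group_irreducible_imprimitive);
-- the grader kernel-checks Cfsg.Agent.S3380.result against that frozen type. Keep the theorem IN THIS FILE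
-- (a `result` declared elsewhere and merely imported here is not credited); helpers may live anywhere
-- under Cfsg/Agent/.
import Cfsg.Statements.S3380
-- import your own Cfsg.Agent.* helpers here

set_option autoImplicit false
open Cfsg

namespace Cfsg.Agent.S3380

section
open Finset
variable {k V : Type*} [Field k] [AddCommGroup V] [Module k V]

theorem sumzero (p : ℕ) (X : Module.End k V) (hX : X ^ p = 1) (hfix : ∀ v, X v = v → v = 0) (v : V) :
    ∑ j ∈ range p, (X ^ j) v = 0 := by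
  apply hfix
  have h1 := mul_geom_sum X p
  rw [hX, sub_self, sub_mul, one_mul, sub_eq_zero] at h1
  have h2 := LinearMap.congr_fun h1 v
  rw [Module.End.mul_apply, LinearMap.sum_apply] at h2
  exact h2

theorem fixpow {p : ℕ} [hp : Fact p.Prime] (Z : Module.End k V) (hZ : Z ^ p = 1) (hfix : ∀ v, Z v = v → v = 0)
    (m : ℕ) (hm : ¬ p ∣ m) : ∀ w, (Z ^ m) w = w → w = 0 := by
  have hcop : Nat.Coprime m p := ((Nat.Prime.coprime_iff_not_dvd hp.out).mpr hm).symm
  intro w hw
  apply hfix
  obtain ⟨t, -, ht⟩ := Nat.exists_mul_mod_eq_one_of_coprime hcop hp.out.one_lt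
  have h1 : ∀ s : ℕ, (Z ^ (m * s)) w = w := by
    intro s
    induction s with
    | zero => simp
    | succ s ih =>
      rw [Nat.mul_succ, pow_add, Module.End.mul_apply, hw, ih]
  have h2 : Z ^ (m * t) = Z := by
    rw [← Nat.mod_add_div (m * t) p, pow_add, pow_mul, hZ, one_pow, mul_one, ht, pow_one]
  rw [← h2]
  exact h1 t

theorem lin {p : ℕ} [hp : Fact p.Prime] (hk : (p : k) ≠ 0) (A Z : Module.End k V) (hAZ : A * Z = Z * A) (hA : A ^ p = 1)
    (hZ : Z ^ p = 1) (hfix : ∀ v, Z v = v → v = 0) (W : Fin p → Submodule k V)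
    (hW : ∀ i v, v ∈ W i ↔ (A * Z ^ (i : ℕ)) v = v) : iSup W = ⊤ ∧ iSupIndep W := by
  have hcom : ∀ i, Commute A (Z ^ i) := fun i => Commute.pow_right (show Commute A Z from hAZ) i
  have hXp : ∀ i, (A * Z ^ i) ^ p = 1 := by
    intro i
    rw [(hcom i).mul_pow, hA, one_mul, ← pow_mul, mul_comm, pow_mul, hZ, one_pow]
  set E : ℕ → Module.End k V := fun i => ∑ j ∈ range p, (A * Z ^ i) ^ j with hE
  have hE1 : ∀ (i : Fin p) v, E i v ∈ W i := by
    intro i v
    rw [hW]
    have h1 := mul_geom_sum (A * Z ^ (i : ℕ)) p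
    rw [hXp, sub_self, sub_mul, one_mul, sub_eq_zero] at h1
    exact LinearMap.congr_fun h1 v
  have hE2 : ∀ (i : Fin p) v, v ∈ W i → E i v = (p : k) • v := by
    intro i v hv
    rw [hW] at hv
    have h1 : ∀ j : ℕ, ((A * Z ^ (i : ℕ)) ^ j) v = v := by
      intro j
      induction j with
      | zero => simp
      | succ j ih => rw [pow_succ, Module.End.mul_apply, hv, ih]
    change (∑ j ∈ range p, (A * Z ^ (i : ℕ)) ^ j) v = _
    rw [LinearMap.sum_apply, Finset.sum_congr rfl (fun j _ => h1 j), Finset.sum_const, card_range,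
      ← Nat.cast_smul_eq_nsmul k]
  have hE3 : ∀ (i l : Fin p) v, i ≠ l → v ∈ W l → E i v = 0 := by
    intro i l v hil hv
    rw [hW] at hv
    have hm : ¬ p ∣ ((i : ℕ) + (p - l)) := by
      intro h
      have h1 := i.2
      have h2 := l.2
      obtain ⟨c, hc⟩ := h
      have h3 : (i : ℕ) ≠ l := fun h => hil (Fin.ext h)
      rcases c with _ | _ | c
      · omega
      · omega
      · have : p * (c + 1 + 1) = p * c + 2 * p := by ring
        omega
    have h1 : ∀ j : ℕ, ((A * Z ^ (l : ℕ)) ^ j) v = v := by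
      intro j
      induction j with
      | zero => simp
      | succ j ih => rw [pow_succ, Module.End.mul_apply, hv, ih]
    have h2 : A * Z ^ (i : ℕ) = Z ^ ((i : ℕ) + (p - l)) * (A * Z ^ (l : ℕ)) := by
      have h4 : (l : ℕ) + ((i : ℕ) + (p - l)) = i + p := by have := l.2; omega
      rw [← mul_assoc, ← (hcom _).eq, mul_assoc, ← pow_add, add_comm, h4, pow_add, hZ, mul_one]
    have hc2 : Commute (Z ^ ((i : ℕ) + (p - l))) (A * Z ^ (l : ℕ)) :=
      ((hcom _).symm).mul_right (Commute.pow_pow (Commute.refl Z) _ _)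
    have h3 : ∀ j : ℕ, ((A * Z ^ (i : ℕ)) ^ j) v = ((Z ^ ((i : ℕ) + (p - l))) ^ j) v := by
      intro j
      rw [h2, hc2.mul_pow, Module.End.mul_apply, h1]
    change (∑ j ∈ range p, (A * Z ^ (i : ℕ)) ^ j) v = _
    rw [LinearMap.sum_apply, Finset.sum_congr rfl (fun j _ => h3 j)]
    apply sumzero
    · rw [← pow_mul, mul_comm, pow_mul, hZ, one_pow]
    · exact fixpow Z hZ hfix _ hm
  have hE4 : ∀ v, ∑ i : Fin p, E i v = (p : k) • v := by
    intro v
    rw [Fin.sum_univ_eq_sum_range (fun i => E i v) p]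
    have h1 : ∀ i, E i v = ∑ j ∈ range p, (A ^ j) ((Z ^ (j * i)) v) := by
      intro i
      change (∑ j ∈ range p, (A * Z ^ i) ^ j) v = _
      rw [LinearMap.sum_apply]
      apply Finset.sum_congr rfl
      intro j _
      rw [(hcom i).mul_pow, ← pow_mul, mul_comm i j]
      rfl
    rw [Finset.sum_congr rfl (fun i _ => h1 i), Finset.sum_comm]
    have h2 : ∀ j ∈ range p, j ≠ 0 → ∑ i ∈ range p, (A ^ j) ((Z ^ (j * i)) v) = 0 := by
      intro j hj hj0
      rw [← map_sum]
      have h3 : ∑ i ∈ range p, (Z ^ (j * i)) v = 0 := by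
        simp_rw [pow_mul]
        apply sumzero
        · rw [← pow_mul, mul_comm, pow_mul, hZ, one_pow]
        · apply fixpow Z hZ hfix
          intro h
          exact hj0 (Nat.eq_zero_of_dvd_of_lt h (mem_range.mp hj))
      rw [h3, map_zero]
    rw [Finset.sum_eq_single_of_mem 0 (mem_range.mpr hp.out.pos) h2]
    simp only [pow_zero, zero_mul, Module.End.one_apply, Finset.sum_const, card_range]
    rw [← Nat.cast_smul_eq_nsmul k]
  constructor
  · rw [eq_top_iff]
    intro v _
    have h1 : v = (p : k)⁻¹ • ∑ i : Fin p, E i v := by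
      rw [hE4, smul_smul, inv_mul_cancel₀ hk, one_smul]
    rw [h1]
    apply Submodule.smul_mem
    apply Submodule.sum_mem
    intro i _
    exact Submodule.mem_iSup_of_mem i (hE1 i v)
  · intro i
    rw [Submodule.disjoint_def]
    intro x hx hx2
    have h1 : (⨆ j, ⨆ (_ : j ≠ i), W j) ≤ LinearMap.ker (E i) := by
      refine iSup_le fun j => iSup_le fun hj => ?_
      intro y hy
      rw [LinearMap.mem_ker]
      exact hE3 i j y hj.symm hy
    have h2 := h1 hx2
    rw [LinearMap.mem_ker, hE2 i x hx] at h2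
    exact (smul_eq_zero.mp h2).resolve_left hk

end

theorem exB {P : Type*} [Group P] [Finite P] (p : ℕ) [Fact p.Prime]
    (hP : IsPGroup p P) (hn : ∀ A : Subgroup P, A.Normal → IsMulCommutative A → IsCyclic A)
    (hnc : ¬ IsCyclic P) :
    p = 2 ∧ ((∃ n : ℕ, Nonempty (P ≃* QuaternionGroup n)) ∨ (∃ n : ℕ, 8 ≤ n ∧ Nonempty (P ≃* DihedralGroup n)) ∨
      Cfsg.IsQuasiDihedral P) := by
  have hp : Fact p.Prime := inferInstance
  have hp2 : p = 2 := by
    by_contra hp2
    obtain ⟨A, hAn, hAc, hAe, hAcard⟩ := CfsgLib.PCyc.exists_normal_elem hp.out hp2 hP hnc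
    have h1 := hn A hAn hAc
    have h2 : Monoid.exponent A ∣ p := Monoid.exponent_dvd_of_forall_pow_eq_one (fun a => Subtype.ext (hAe a a.2))
    rw [IsCyclic.exponent_eq_card, hAcard] at h2
    have h3 := Nat.le_of_dvd hp.out.pos h2
    have h4 := hp.out.two_le
    nlinarith
  subst hp2
  refine ⟨rfl, ?_⟩
  rcases CfsgLib.CycNorm.structure_thm hP hn with h | ⟨n, a, b, hn2, ha, hb, hidx, h⟩
  · exact absurd h hnc
  have htop : Subgroup.closure ({a, b} : Set P) = ⊤ := by
    rw [eq_top_iff]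
    intro g _
    have haC : a ∈ Subgroup.closure ({a, b} : Set P) := Subgroup.subset_closure (by simp)
    have hbC : b ∈ Subgroup.closure ({a, b} : Set P) := Subgroup.subset_closure (by simp)
    by_cases hg : g ∈ Subgroup.zpowers a
    · exact (Subgroup.zpowers_le.mpr haC) hg
    · have h1 := mul_mem ((Subgroup.zpowers_le.mpr haC) (hidx g hg)) hbC
      rwa [inv_mul_cancel_right] at h1
  have hcard : Nat.card P = 2 ^ (n + 1) := by
    have h1 : (Subgroup.zpowers a).index = 2 := by
      rw [Subgroup.index_eq_two_iff]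
      refine ⟨b⁻¹, fun g => ?_⟩
      by_cases hg : g ∈ Subgroup.zpowers a
      · right
        refine ⟨hg, fun h' => hb ?_⟩
        have h2 := (Subgroup.mul_mem_cancel_left _ hg).mp h'
        rwa [inv_mem_iff] at h2
      · left; exact ⟨hidx g hg, hg⟩
    rw [← Subgroup.card_mul_index (Subgroup.zpowers a), h1, Nat.card_zpowers, ha, pow_succ]
  rcases h with ⟨h1, h2⟩ | ⟨h1, h2, h3⟩ | ⟨h1, h2, h3⟩
  · left
    refine ⟨2 ^ (n - 1), CfsgLib.Dihedral.nonempty_equiv_quaternion_top (a := a) (b := b) ?_ h1 h2 hb htop⟩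
    rw [ha, ← pow_succ']; congr 1; omega
  · right; left
    refine ⟨2 ^ n, ?_, CfsgLib.Dihedral.nonempty_equiv_dihedral_top (a := a) (b := b) ha h2 h3 hb htop⟩
    calc 8 = 2 ^ 3 := by norm_num
      _ ≤ 2 ^ n := Nat.pow_le_pow_right (by norm_num) h1
  · right; right
    refine ⟨n, h1, hcard, a, b, ha, ?_, h3⟩
    exact orderOf_eq_prime (by rw [pow_two, h2]) (by rintro rfl; exact hb (one_mem _))


theorem pick {G : Type*} [Group G] [Finite G] (p : ℕ) [hp : Fact p.Prime] (hG : IsPGroup p G) (B : Subgroup G) (hB : B.Normal)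
    (hBc : IsMulCommutative B) (hBn : ¬ IsCyclic B) :
    ∃ z a : G, z ∈ Subgroup.center G ∧ z ^ p = 1 ∧ z ≠ 1 ∧ a ^ p = 1 ∧ a ∉ Subgroup.zpowers z ∧
      ∀ g : G, g * a * g⁻¹ * a⁻¹ ∈ Subgroup.zpowers z := by
  obtain ⟨C, hCB, hCc, hCe⟩ := CfsgLib.PCyc.exists_elem_of_not_isCyclic hp.out B (hG.to_subgroup B) hBc hBn
  have hcomm : ∀ x ∈ B, ∀ y ∈ B, x * y = y * x := fun x hx y hy =>
    congrArg Subtype.val (hBc.is_comm.comm (⟨x, hx⟩ : B) ⟨y, hy⟩)
  let E : Subgroup G :=
    { carrier := {x | x ∈ B ∧ x ^ p = 1}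
      mul_mem' := by
        rintro x y ⟨hx, hx1⟩ ⟨hy, hy1⟩
        refine ⟨mul_mem hx hy, ?_⟩
        rw [(show Commute x y from hcomm x hx y hy).mul_pow, hx1, hy1, one_mul]
      one_mem' := ⟨one_mem _, one_pow _⟩
      inv_mem' := by
        rintro x ⟨hx, hx1⟩
        exact ⟨inv_mem hx, by rw [inv_pow, hx1, inv_one]⟩ }
  have hCE : C ≤ E := fun x hx => ⟨hCB hx, hCe x hx⟩
  haveI hEn : E.Normal := by
    refine ⟨?_⟩
    rintro x ⟨hx, hx1⟩ g
    exact ⟨hB.conj_mem x hx g, by rw [conj_pow, hx1]; group⟩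
  have hEne : E ≠ ⊥ := by
    intro h
    rw [h, le_bot_iff] at hCE
    rw [hCE, Subgroup.card_bot] at hCc
    have := Nat.one_lt_pow (n := 2) (by norm_num) hp.out.one_lt
    omega
  haveI := hG.isNilpotent
  obtain ⟨z, hz⟩ := Subgroup.ne_bot_iff_exists_ne_one.mp (CfsgLib.SolvNilp.inf_center_ne_bot E hEne)
  have hzc : (z : G) ∈ Subgroup.center G := z.2.2
  have hzp : (z : G) ^ p = 1 := z.2.1.2
  have hz1 : (z : G) ≠ 1 := fun h => hz (Subtype.ext h)
  haveI hzn : (Subgroup.zpowers (z : G)).Normal := by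
    refine ⟨?_⟩
    intro x hx g
    have hxc : x ∈ Subgroup.center G := (Subgroup.zpowers_le.mpr hzc) hx
    have := Subgroup.mem_center_iff.mp hxc g
    rw [this, mul_assoc, mul_inv_cancel, mul_one]
    exact hx
  have hE2 : E.map (QuotientGroup.mk' (Subgroup.zpowers (z : G))) ≠ ⊥ := by
    intro h
    rw [Subgroup.map_eq_bot_iff, QuotientGroup.ker_mk'] at h
    have h1 := Subgroup.card_le_of_le (hCE.trans h)
    rw [hCc, Nat.card_zpowers, orderOf_eq_prime hzp hz1] at h1
    have h2 := hp.out.two_le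
    nlinarith
  haveI : (E.map (QuotientGroup.mk' (Subgroup.zpowers (z : G)))).Normal :=
    hEn.map _ (QuotientGroup.mk'_surjective _)
  haveI : Group.IsNilpotent (G ⧸ Subgroup.zpowers (z : G)) := (hG.to_quotient _).isNilpotent
  obtain ⟨y, hy⟩ := Subgroup.ne_bot_iff_exists_ne_one.mp (CfsgLib.SolvNilp.inf_center_ne_bot _ hE2)
  obtain ⟨a, haE, hay⟩ := y.2.1
  refine ⟨z, a, hzc, hzp, hz1, haE.2, ?_, ?_⟩
  · intro h
    apply hy
    apply Subtype.ext
    rw [← hay]
    exact (QuotientGroup.eq_one_iff a).mpr h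
  · intro g
    have h1 := Subgroup.mem_center_iff.mp y.2.2 (QuotientGroup.mk' _ g)
    rw [← hay] at h1
    rw [← QuotientGroup.eq_one_iff]
    change (QuotientGroup.mk' (Subgroup.zpowers (z : G))) (g * a * g⁻¹ * a⁻¹) = 1
    rw [map_mul, map_mul, map_mul, h1, map_inv, map_inv]
    group


/-- Let a finite p-group G act faithfully and irreducibly on a non-trivial finite vector space V over the field with q elements (q prime), and suppose G is not cyclic, generalized quaternion, dihedral or semidihedral. Then G has a subgroup H of index p and V is the direct sum of p subspaces, each invariant under H, on none of which H acts faithfully, and which every element of G outside H permutes in a single p-cycle. -/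
theorem result
    (q : ℕ) [Fact q.Prime] {V : Type*} [AddCommGroup V] [Module (ZMod q) V] [Finite V] [Nontrivial V]
    {G : Type*} [Group G] [Finite G] (p : ℕ) [Fact p.Prime] (hG : IsPGroup p G)
    (ρ : G →* (V ≃ₗ[ZMod q] V)) (hρ : Function.Injective ρ)
    (hirr : ∀ W : Submodule (ZMod q) V, (∀ g : G, ∀ w ∈ W, ρ g w ∈ W) → W = ⊥ ∨ W = ⊤)
    (hnc : ¬ IsCyclic G) (hnq : ∀ n : ℕ, ¬ Nonempty (G ≃* QuaternionGroup n))
    (hnd : ∀ n : ℕ, ¬ Nonempty (G ≃* DihedralGroup n)) (hnsd : ¬ Cfsg.IsQuasiDihedral G) :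
    ∃ (H : Subgroup G) (W : Fin p → Submodule (ZMod q) V), H.index = p ∧
      iSup W = ⊤ ∧ iSupIndep W ∧
      (∀ h ∈ H, ∀ i, ∀ w ∈ W i, ρ h w ∈ W i) ∧
      (∀ i, ∃ h ∈ H, h ≠ 1 ∧ ∀ w ∈ W i, ρ h w = w) ∧
      ∀ g : G, g ∉ H → ∃ σ : Equiv.Perm (Fin p), orderOf σ = p ∧ ∀ i, (W i).map (ρ g : V →ₗ[ZMod q] V) = W (σ i) := by
  classical
  have hp : Fact p.Prime := inferInstance
  haveI : NeZero p := ⟨hp.out.ne_zero⟩
  obtain ⟨B, hB, hBc, hBn⟩ : ∃ B : Subgroup G, B.Normal ∧ IsMulCommutative B ∧ ¬ IsCyclic B := by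
    by_contra hcon
    push Not at hcon
    obtain ⟨-, ⟨n, h⟩ | ⟨n, -, h⟩ | h⟩ := exB p hG hcon hnc
    · exact hnq n h
    · exact hnd n h
    · exact hnsd h
  obtain ⟨z, a, hzc, hzp, hz1, hap, haz, hcom⟩ := pick p hG B hB hBc hBn
  have hzg : ∀ g : G, g * z = z * g := Subgroup.mem_center_iff.mp hzc
  set A : Module.End (ZMod q) V := (ρ a : V →ₗ[ZMod q] V) with hA
  set Z : Module.End (ZMod q) V := (ρ z : V →ₗ[ZMod q] V) with hZ
  have hend : ∀ g h : G, ((ρ (g * h) : V ≃ₗ[ZMod q] V) : V →ₗ[ZMod q] V) = ((ρ g : V →ₗ[ZMod q] V) * (ρ h : V →ₗ[ZMod q] V) : Module.End (ZMod q) V) := by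
    intro g h
    rw [map_mul]
    rfl
  have hone : ((ρ (1 : G) : V ≃ₗ[ZMod q] V) : V →ₗ[ZMod q] V) = (1 : Module.End (ZMod q) V) := by
    rw [map_one]
    rfl
  have hpow : ∀ (g : G) (n : ℕ), ((ρ (g ^ n) : V ≃ₗ[ZMod q] V) : V →ₗ[ZMod q] V) = ((ρ g : V →ₗ[ZMod q] V) : Module.End (ZMod q) V) ^ n := by
    intro g n
    induction n with
    | zero => rw [pow_zero, pow_zero, hone]
    | succ n ih => rw [pow_succ, pow_succ, hend, ih]
  have hAZ : A * Z = Z * A := by rw [hA, hZ, ← hend, ← hend, hzg]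
  have hAp : A ^ p = 1 := by rw [hA, ← hpow, hap, hone]
  have hZp : Z ^ p = 1 := by rw [hZ, ← hpow, hzp, hone]
  have hmm : ∀ (g h : G) (v : V), ρ g (ρ h v) = ρ (g * h) v := by
    intro g h v
    rw [map_mul]
    rfl
  have hfix : ∀ v, Z v = v → v = 0 := by
    intro v hv
    rcases hirr (LinearMap.ker (Z - 1)) (by
      intro g w hw
      rw [LinearMap.mem_ker, LinearMap.sub_apply, Module.End.one_apply, sub_eq_zero] at hw ⊢
      change ρ z (ρ g w) = ρ g w
      rw [hmm, ← hzg, ← hmm]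
      congr 1) with h | h
    · have : v ∈ LinearMap.ker (Z - 1) := by
        rw [LinearMap.mem_ker, LinearMap.sub_apply, Module.End.one_apply, sub_eq_zero]
        exact hv
      rw [h] at this
      exact (Submodule.mem_bot _).mp this
    · exfalso
      apply hz1
      apply hρ
      rw [map_one]
      ext w
      have : w ∈ LinearMap.ker (Z - 1) := by rw [h]; exact Submodule.mem_top
      rw [LinearMap.mem_ker, LinearMap.sub_apply, Module.End.one_apply, sub_eq_zero] at this
      exact this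
  have hpq : (p : ZMod q) ≠ 0 := by
    intro h
    have hqp : q = p := by
      have h1 := (ZMod.natCast_eq_zero_iff p q).mp h
      exact (Nat.prime_dvd_prime_iff_eq Fact.out hp.out).mp h1
    subst hqp
    haveI : CharP (Module.End (ZMod q) V) q :=
      charP_of_injective_algebraMap (algebraMap (ZMod q) (Module.End (ZMod q) V)).injective q
    have h1 : (Z - 1) ^ q = 0 := by
      rw [sub_pow_char_of_commute q (Commute.one_right Z), one_pow, hZp, sub_self]
    obtain ⟨v, hv⟩ := exists_ne (0 : V)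
    have h2 : ∀ (n : ℕ) (w : V), ((Z - 1) ^ n : Module.End (ZMod q) V) w = 0 → w = 0 := by
      intro n
      induction n with
      | zero => intro w hw; simpa using hw
      | succ n ih =>
        intro w hw
        rw [pow_succ, Module.End.mul_apply] at hw
        have h3 := ih _ hw
        rw [LinearMap.sub_apply, Module.End.one_apply, sub_eq_zero] at h3
        exact hfix w h3
    exact hv (h2 q v (by rw [h1]; rfl))
  set W : Fin p → Submodule (ZMod q) V := fun i => LinearMap.ker (A * Z ^ (i : ℕ) - 1) with hWdef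
  have hW : ∀ i v, v ∈ W i ↔ (A * Z ^ (i : ℕ)) v = v := by
    intro i v
    rw [hWdef, LinearMap.mem_ker, LinearMap.sub_apply, Module.End.one_apply, sub_eq_zero]
  have hAZi : ∀ i : ℕ, A * Z ^ i = ((ρ (a * z ^ i) : V ≃ₗ[ZMod q] V) : V →ₗ[ZMod q] V) := by
    intro i
    rw [hend, hpow]
  have hW' : ∀ i v, v ∈ W i ↔ ρ (a * z ^ (i : ℕ)) v = v := by
    intro i v
    rw [hW, hAZi]
    rfl
  obtain ⟨hsup, hind⟩ := lin hpq A Z hAZ hAp hZp hfix W hW
  have hnz : ∀ i : ℕ, a * z ^ i ≠ 1 := by
    intro i h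
    apply haz
    rw [mul_eq_one_iff_eq_inv] at h
    rw [h]
    exact inv_mem (pow_mem (Subgroup.mem_zpowers z) i)
  have hinv : ∀ g : G, g * a = a * g → ∀ i, ∀ w ∈ W i, ρ g w ∈ W i := by
    intro g hg i w hw
    rw [hW'] at hw ⊢
    have h1 : (a * z ^ (i : ℕ)) * g = g * (a * z ^ (i : ℕ)) := by
      have h2 : g * z ^ (i : ℕ) = z ^ (i : ℕ) * g := (Commute.pow_right (show Commute g z from hzg g) _).eq
      rw [mul_assoc, ← h2, ← mul_assoc, ← hg, mul_assoc]
    rw [hmm, h1, ← hmm, hw]
  have hac : ∃ g : G, g * a ≠ a * g := by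
    by_contra hcon
    push Not at hcon
    have h1 : ∀ i, W i = ⊥ := by
      intro i
      rcases hirr (W i) (fun g w hw => hinv g (hcon g) i w hw) with h | h
      · exact h
      · exfalso
        apply hnz i
        apply hρ
        rw [map_one]
        ext w
        have : w ∈ W i := by rw [h]; exact Submodule.mem_top
        exact (hW' i w).mp this
    have h2 : iSup W = ⊥ := by rw [iSup_eq_bot]; exact h1
    rw [hsup] at h2
    obtain ⟨v, hv⟩ := exists_ne (0 : V)
    apply hv
    have : v ∈ (⊤ : Submodule (ZMod q) V) := Submodule.mem_top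
    rw [h2] at this
    exact (Submodule.mem_bot _).mp this
  have hcz : ∀ x ∈ Subgroup.zpowers z, ∀ g, g * x = x * g := fun x hx =>
    Subgroup.mem_center_iff.mp ((Subgroup.zpowers_le.mpr hzc) hx)
  let φ : G →* Subgroup.zpowers z :=
    { toFun := fun g => ⟨g * a * g⁻¹ * a⁻¹, hcom g⟩
      map_one' := Subtype.ext (by simp)
      map_mul' := by
        intro g h
        apply Subtype.ext
        change g * h * a * (g * h)⁻¹ * a⁻¹ = (g * a * g⁻¹ * a⁻¹) * (h * a * h⁻¹ * a⁻¹)
        have h1 := hcz _ (hcom h) g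
        calc g * h * a * (g * h)⁻¹ * a⁻¹ = (g * (h * a * h⁻¹ * a⁻¹)) * (a * g⁻¹ * a⁻¹) := by group
          _ = (h * a * h⁻¹ * a⁻¹) * (g * a * g⁻¹ * a⁻¹) := by rw [h1]; group
          _ = _ := (hcz _ (hcom h) _).symm }
  have hker : ∀ g, g ∈ φ.ker ↔ g * a = a * g := by
    intro g
    rw [MonoidHom.mem_ker]
    constructor
    · intro h
      have h1 : g * a * g⁻¹ * a⁻¹ = 1 := congrArg Subtype.val h
      rw [mul_inv_eq_one] at h1
      exact mul_inv_eq_iff_eq_mul.mp h1
    · intro h
      apply Subtype.ext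
      change g * a * g⁻¹ * a⁻¹ = 1
      rw [h]; group
  have hzo : Nat.card (Subgroup.zpowers z) = p := by rw [Nat.card_zpowers, orderOf_eq_prime hzp hz1]
  have hidx : φ.ker.index = p := by
    rw [Subgroup.index_ker]
    have h1 : Nat.card φ.range ∣ p := by rw [← hzo]; exact Subgroup.card_subgroup_dvd_card _
    rcases (Nat.dvd_prime hp.out).mp h1 with h | h
    · exfalso
      obtain ⟨g, hg⟩ := hac
      apply hg
      rw [← hker, MonoidHom.mem_ker]
      have h2 := Subgroup.card_eq_one.mp h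
      have h3 : φ g ∈ φ.range := ⟨g, rfl⟩
      rw [h2] at h3
      exact Subgroup.mem_bot.mp h3
    · exact h
  refine ⟨φ.ker, W, hidx, hsup, hind, ?_, ?_, ?_⟩
  · intro h hh i w hw
    exact hinv h ((hker h).mp hh) i w hw
  · intro i
    refine ⟨a * z ^ (i : ℕ), ?_, hnz i, fun w hw => (hW' i w).mp hw⟩
    rw [hker, mul_assoc]
    congr 1
    exact ((Commute.pow_right (show Commute a z from hzg a) _).eq).symm
  · intro g hg
    rw [hker] at hg
    obtain ⟨k, hk⟩ := (Submonoid.mem_powers_iff _ _).mp ((mem_powers_iff_mem_zpowers).mpr (hcom g))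
    have hga : g * a = a * z ^ k * g := by
      have h1 : g * a * g⁻¹ = z ^ k * a := by rw [hk]; group
      have h2 := mul_inv_eq_iff_eq_mul.mp h1
      rw [h2]
      congr 1
      exact ((Commute.pow_right (show Commute a z from hzg a) _).eq).symm
    have hkp : ¬ p ∣ k := by
      rintro ⟨c, rfl⟩
      apply hg
      rw [hga, pow_mul, hzp, one_pow, mul_one]
    set κ : Fin p := Fin.ofNat p k with hκ
    have hκ0 : κ ≠ 0 := by
      intro h
      apply hkp
      have := congrArg Fin.val h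
      rw [hκ] at this
      exact Nat.dvd_of_mod_eq_zero this
    have hval : ∀ i : Fin p, z ^ ((i + κ : Fin p) : ℕ) = z ^ (i : ℕ) * z ^ k := by
      intro i
      have h1 : ∀ n : ℕ, z ^ (n % p) = z ^ n := by
        intro n
        conv_rhs => rw [← Nat.mod_add_div n p, pow_add, pow_mul, hzp, one_pow, mul_one]
      rw [Fin.val_add, h1, pow_add]
      congr 1
      exact h1 k
    refine ⟨Equiv.addRight κ, ?_, ?_⟩
    · apply orderOf_eq_prime
      · have h1 : ∀ n : ℕ, ∀ i, ((Equiv.addRight κ) ^ n) i = i + n • κ := by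
          intro n
          induction n with
          | zero => intro i; simp
          | succ n ih => intro i; rw [pow_succ', Equiv.Perm.mul_apply, ih, succ_nsmul]; simp [add_assoc]
        ext i
        rw [h1]
        have : p • κ = 0 := by
          have := card_nsmul_eq_zero (x := κ)
          rwa [Fintype.card_fin] at this
        rw [this]; simp
      · intro h
        have h1 := congrArg (fun f : Equiv.Perm (Fin p) => f 0) h
        simp at h1
        exact hκ0 h1
    · intro i
      have hconj : (a * z ^ ((i + κ : Fin p) : ℕ)) * g = g * (a * z ^ (i : ℕ)) := by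
        have h2 : ∀ n : ℕ, g * z ^ n = z ^ n * g := fun n => (Commute.pow_right (show Commute g z from hzg g) _).eq
        calc (a * z ^ ((i + κ : Fin p) : ℕ)) * g = a * (z ^ (i : ℕ) * z ^ k) * g := by rw [hval]
          _ = a * (z ^ k * z ^ (i : ℕ)) * g := by rw [← pow_add, ← pow_add, add_comm]
          _ = a * z ^ k * (z ^ (i : ℕ) * g) := by simp only [mul_assoc]
          _ = a * z ^ k * g * z ^ (i : ℕ) := by rw [← h2]; simp only [mul_assoc]
          _ = g * (a * z ^ (i : ℕ)) := by rw [← hga]; simp only [mul_assoc]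
      apply le_antisymm
      · rintro _ ⟨v, hv, rfl⟩
        rw [SetLike.mem_coe, hW'] at hv
        rw [hW']
        change ρ _ (ρ g v) = ρ g v
        rw [Equiv.coe_addRight, hmm, hconj, ← hmm, hv]
      · intro v hv
        rw [hW', Equiv.coe_addRight] at hv
        refine ⟨ρ g⁻¹ v, ?_, ?_⟩
        · rw [SetLike.mem_coe, hW', hmm]
          have h3 : a * z ^ (i : ℕ) * g⁻¹ = g⁻¹ * (a * z ^ ((i + κ : Fin p) : ℕ)) := by
            rw [eq_inv_mul_iff_mul_eq, ← mul_assoc, ← hconj]
            group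
          rw [h3, ← hmm, hv]
        · change ρ g (ρ g⁻¹ v) = v
          rw [hmm, mul_inv_cancel, map_one]
          rfl

end Cfsg.Agent.S3380
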