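import Cfsg.Statements.S3381
import Mathlib

set_option autoImplicit false
open Cfsg

namespace Cfsg.Agent.S3381

set_option linter.unusedSectionVars false

section
variable {q : ℕ} [Fact q.Prime] {V : Type*} [AddCommGroup V] [Module (ZMod q) V] [Finite V]
    {G : Type*} [Group G] [Finite G] (ρ : G →* (V ≃ₗ[ZMod q] V))

theorem rmul (g h : G) (v : V) : ρ (g * h) v = ρ g (ρ h v) := by
  rw [map_mul]; rfl

theorem uniq (hstab : ∀ v : V, v ≠ 0 → Nat.card {g : G // ρ g v = v} = 2) {v : V} (hv : v ≠ 0) {s t : G}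
    (hs : s ≠ 1) (ht : t ≠ 1) (hsv : ρ s v = v) (htv : ρ t v = v) : s = t := by
  have h1 : ρ 1 v = v := by rw [map_one]; rfl
  obtain ⟨y, hy, hy2⟩ := (Nat.card_eq_two_iff' (⟨1, h1⟩ : {g : G // ρ g v = v})).mp (hstab v hv)
  have e1 := hy2 ⟨s, hsv⟩ (fun h => hs (congrArg Subtype.val h))
  have e2 := hy2 ⟨t, htv⟩ (fun h => ht (congrArg Subtype.val h))
  exact congrArg Subtype.val (e1.trans e2.symm)

theorem exis (hstab : ∀ v : V, v ≠ 0 → Nat.card {g : G // ρ g v = v} = 2) {v : V} (hv : v ≠ 0) :
    ∃ t : G, orderOf t = 2 ∧ ρ t v = v := by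
  have h1 : ρ 1 v = v := by rw [map_one]; rfl
  obtain ⟨⟨t, htv⟩, hy, hy2⟩ := (Nat.card_eq_two_iff' (⟨1, h1⟩ : {g : G // ρ g v = v})).mp (hstab v hv)
  have ht : t ≠ 1 := fun h => hy (Subtype.ext h)
  refine ⟨t, ?_, htv⟩
  apply orderOf_eq_prime _ ht
  rw [pow_two]
  by_contra hne
  have := uniq ρ hstab hv hne ht (by rw [rmul, htv, htv]) htv
  exact ht (by simpa using this)

theorem two_smul_cancel (h2 : (2 : ZMod q) ≠ 0) {v : V} (h : v + v = 0) : v = 0 := by
  have h3 : (2 : ZMod q) • v = 0 := by rw [two_smul]; exact h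
  exact (smul_eq_zero.mp h3).resolve_left h2

theorem ord_two {t : G} (ht : orderOf t = 2) : t ≠ 1 ∧ t * t = 1 := by
  constructor
  · rintro rfl
    rw [orderOf_one] at ht
    omega
  · have := pow_orderOf_eq_one t
    rw [ht, pow_two] at this
    exact this

/-- a central involution is `-1` -/
theorem central (hρ : Function.Injective ρ)
    (hstab : ∀ v : V, v ≠ 0 → Nat.card {g : G // ρ g v = v} = 2)
    (z : G) (hz : orderOf z = 2) (hzc : z ∈ Subgroup.center G) (v : V) : ρ z v = - v := by
  obtain ⟨hz1, hz2⟩ := ord_two hz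
  have hcomm : ∀ (g : G) (v : V), ρ z (ρ g v) = ρ g (ρ z v) := by
    intro g v
    rw [← rmul, ← rmul, Subgroup.mem_center_iff.mp hzc g]
  have hzz : ∀ v, ρ z (ρ z v) = v := by
    intro v
    rw [← rmul, hz2, map_one]; rfl
  have key : ∀ w : V, ρ z w = w → w = 0 := by
    intro w hw
    by_contra hw0
    apply hz1
    apply hρ
    rw [map_one]
    ext u
    change ρ z u = u
    by_contra hu
    by_cases h2 : (2 : ZMod q) = 0
    · have hself : ∀ x : V, x + x = 0 := by
        intro x
        rw [← two_smul (ZMod q), h2, zero_smul]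
      have hu0 : u ≠ 0 := by
        rintro rfl
        exact hu (map_zero _)
      obtain ⟨t, ht, htu⟩ := exis ρ hstab hu0
      obtain ⟨ht1, ht2⟩ := ord_two ht
      have htz : t ≠ z := by
        rintro rfl
        exact hu htu
      by_cases hc : w + ρ t w = 0
      · have h3 : ρ t w = w := by
          have := hself w
          have h4 : w + ρ t w = w + w := by rw [hc, this]
          exact add_left_cancel h4
        exact htz (uniq ρ hstab hw0 ht1 hz1 h3 hw)
      · apply htz
        apply uniq ρ hstab hc ht1 hz1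
        · rw [map_add, ← rmul, ht2, map_one, add_comm]
          rfl
        · rw [map_add, hcomm, hw]
    · have hd0 : u - ρ z u ≠ 0 := fun h => hu (sub_eq_zero.mp h).symm
      obtain ⟨d, hd⟩ : ∃ d, d = u - ρ z u := ⟨_, rfl⟩
      rw [← hd] at hd0
      have hzd : ρ z d = - d := by
        rw [hd, map_sub, hzz]; abel
      have hwd : w + d ≠ 0 := by
        intro h
        have h3 : ρ z (w + d) = 0 := by rw [h, map_zero]
        rw [map_add, hw, hzd] at h3
        apply hw0
        apply two_smul_cancel h2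
        calc w + w = (w + d) + (w + -d) := by abel
          _ = 0 := by rw [h, h3, add_zero]
      obtain ⟨s, hs, hsv⟩ := exis ρ hstab hwd
      obtain ⟨hs1, hs2⟩ := ord_two hs
      have h5 : ρ s (w - d) = w - d := by
        have h6 : w - d = ρ z (w + d) := by rw [map_add, hw, hzd]; abel
        rw [h6, ← hcomm, hsv]
      have h7 : ρ s w = w := by
        rw [← sub_eq_zero]
        apply two_smul_cancel h2
        have h8 : ρ s w + ρ s w = w + w := by
          calc ρ s w + ρ s w = ρ s (w + d) + ρ s (w - d) := by rw [map_add, map_sub]; abel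
            _ = w + w := by rw [hsv, h5]; abel
        calc ρ s w - w + (ρ s w - w) = (ρ s w + ρ s w) - (w + w) := by abel
          _ = 0 := by rw [h8, sub_self]
      have h9 : s = z := uniq ρ hstab hw0 hs1 hz1 h7 hw
      have h10 : ρ s d = d := by
        have := hsv
        rw [map_add, h7] at this
        exact add_left_cancel this
      rw [h9, hzd] at h10
      apply hd0
      apply two_smul_cancel h2
      calc d + d = d + (-d) := by rw [h10]
        _ = 0 := by abel
  have h3 := key (ρ z v + v) (by rw [map_add, hzz, add_comm])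
  exact eq_neg_of_add_eq_zero_left h3

/-- the fixed space -/
def fixSp (t : G) : Submodule (ZMod q) V := LinearMap.eqLocus (ρ t : V →ₗ[ZMod q] V) LinearMap.id

theorem mem_fixSp {t : G} {v : V} : v ∈ fixSp ρ t ↔ ρ t v = v := Iff.rfl

end

/-- Let G be a finite group acting faithfully and linearly on a non-trivial finite vector space V over the field with q elements (q prime) so that every non-zero vector has a stabilizer of order 2, and suppose G has a central involution. Then V has q^(2r) elements for some r and G contains exactly q^r + 1 non-central involutions. -/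
theorem result
    (q : ℕ) [Fact q.Prime] {V : Type*} [AddCommGroup V] [Module (ZMod q) V] [Finite V] [Nontrivial V]
    {G : Type*} [Group G] [Finite G] (ρ : G →* (V ≃ₗ[ZMod q] V)) (hρ : Function.Injective ρ)
    (hstab : ∀ v : V, v ≠ 0 → Nat.card {g : G // ρ g v = v} = 2)
    (z : G) (hz : orderOf z = 2) (hzc : z ∈ Subgroup.center G) :
    ∃ r : ℕ, Nat.card V = q ^ (2 * r) ∧
      Nat.card {g : G // orderOf g = 2 ∧ g ∉ Subgroup.center G} = q ^ r + 1 := by
  obtain ⟨hz1, hz2⟩ := ord_two hz
  have hzn := central ρ hρ hstab z hz hzc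
  have h2 : (2 : ZMod q) ≠ 0 := by
    intro h
    apply hz1
    apply hρ
    rw [map_one]
    ext u
    rw [hzn]
    change -u = u
    rw [neg_eq_iff_add_eq_zero, ← two_smul (ZMod q), h, zero_smul]
  have hcent : ∀ g : G, orderOf g = 2 → (g ∈ Subgroup.center G ↔ g = z) := by
    intro g hg
    constructor
    · intro hgc
      apply hρ
      ext u
      rw [hzn, central ρ hρ hstab g hg hgc]
    · rintro rfl
      exact hzc
  have hcomm : ∀ (g : G), z * g = g * z := fun g => (Subgroup.mem_center_iff.mp hzc g).symm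
  -- the set of noncentral involutions
  let I := {g : G // orderOf g = 2 ∧ g ∉ Subgroup.center G}
  have hI : ∀ g : G, (orderOf g = 2 ∧ g ∉ Subgroup.center G) ↔ (orderOf g = 2 ∧ g ≠ z) := by
    intro g
    constructor
    · rintro ⟨h1, h3⟩
      exact ⟨h1, fun h => h3 ((hcent g h1).mpr h)⟩
    · rintro ⟨h1, h3⟩
      exact ⟨h1, fun h => h3 ((hcent g h1).mp h)⟩
  have hzt : ∀ t : G, orderOf t = 2 → t ≠ z → orderOf (z * t) = 2 ∧ z * t ≠ z := by
    intro t ht htz
    obtain ⟨ht1, ht2⟩ := ord_two ht
    constructor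
    · apply orderOf_eq_prime
      · rw [pow_two]
        calc z * t * (z * t) = z * (t * z) * t := by group
          _ = (z * z) * (t * t) := by rw [← hcomm]; group
          _ = 1 := by rw [hz2, ht2, one_mul]
      · intro h
        apply htz
        calc t = z * (z * t) := by rw [← mul_assoc, hz2, one_mul]
          _ = z := by rw [h, mul_one]
    · intro h
      exact ht1 (by simpa using h)
  have hact : ∀ (t : G) (v : V), ρ (z * t) v = - ρ t v := by
    intro t v
    rw [rmul, hzn]
  have hdisj : ∀ s t : G, s ≠ 1 → t ≠ 1 → s ≠ t → fixSp ρ s ⊓ fixSp ρ t = ⊥ := by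
    intro s t hs ht hst
    rw [eq_bot_iff]
    rintro v ⟨h1, h3⟩
    by_contra hv
    exact hst (uniq ρ hstab hv hs ht h1 h3)
  have hhalf : ∀ v : V, (2⁻¹ : ZMod q) • (v + v) = v := by
    intro v
    rw [← two_smul (ZMod q) v, smul_smul, inv_mul_cancel₀ h2, one_smul]
  have hsup : ∀ t : G, orderOf t = 2 → fixSp ρ t ⊔ fixSp ρ (z * t) = ⊤ := by
    intro t ht
    obtain ⟨ht1, ht2⟩ := ord_two ht
    have htt : ∀ v, ρ t (ρ t v) = v := by
      intro v
      rw [← rmul, ht2, map_one]; rfl
    rw [eq_top_iff]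
    intro v _
    have e : v = (2⁻¹ : ZMod q) • (v + ρ t v) + (2⁻¹ : ZMod q) • (v - ρ t v) := by
      rw [← smul_add]
      have : v + ρ t v + (v - ρ t v) = v + v := by abel
      rw [this, hhalf]
    rw [e]
    apply Submodule.add_mem_sup
    · rw [mem_fixSp, map_smul, map_add, htt, add_comm]
    · rw [mem_fixSp, hact, map_smul, map_sub, htt, ← smul_neg]
      congr 1
      abel
  have hdim : ∀ t : G, orderOf t = 2 → t ≠ z → Module.finrank (ZMod q) (fixSp ρ t) + Module.finrank (ZMod q) (fixSp ρ (z * t)) = Module.finrank (ZMod q) V := by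
    intro t ht htz
    obtain ⟨ht1, ht2⟩ := ord_two ht
    have h1 := Submodule.finrank_sup_add_finrank_inf_eq (fixSp ρ t) (fixSp ρ (z * t))
    rw [hsup t ht, hdisj t (z * t) ht1 (ord_two (hzt t ht htz).1).1 (by
      intro h
      apply hz1
      have : 1 * t = z * t := by rw [one_mul]; exact h
      exact (mul_right_cancel this).symm), finrank_top, finrank_bot, add_zero] at h1
    exact h1.symm
  have hdle : ∀ s t : G, s ≠ 1 → t ≠ 1 → s ≠ t → Module.finrank (ZMod q) (fixSp ρ s) + Module.finrank (ZMod q) (fixSp ρ t) ≤ Module.finrank (ZMod q) V := by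
    intro s t hs ht hst
    have h1 := Submodule.finrank_sup_add_finrank_inf_eq (fixSp ρ s) (fixSp ρ t)
    rw [hdisj s t hs ht hst, finrank_bot, add_zero] at h1
    rw [← h1]
    exact Submodule.finrank_le _
  have hne : ∀ t : G, orderOf t = 2 → t ≠ z → ∃ a ∈ fixSp ρ t, a ≠ 0 := by
    intro t ht htz
    obtain ⟨ht1, ht2⟩ := ord_two ht
    by_contra hcon
    push Not at hcon
    apply htz
    apply hρ
    ext u
    rw [hzn]
    have := hcon (ρ t u + u) (by rw [mem_fixSp, map_add, ← rmul, ht2, map_one, add_comm]; rfl)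
    exact eq_neg_of_add_eq_zero_left this
  have hhalfdim : ∀ t : G, orderOf t = 2 → t ≠ z → 2 * Module.finrank (ZMod q) (fixSp ρ t) ≤ Module.finrank (ZMod q) V := by
    intro t ht htz
    by_contra hcon
    push Not at hcon
    obtain ⟨a, ha, ha0⟩ := hne t ht htz
    obtain ⟨b, hb, hb0⟩ := hne (z * t) (hzt t ht htz).1 (hzt t ht htz).2
    rw [mem_fixSp] at ha hb
    rw [hact] at hb
    have hb' : ρ t b = -b := neg_eq_iff_eq_neg.mp hb
    have hab : a + b ≠ 0 := by
      intro h
      have h3 : ρ t (a + b) = 0 := by rw [h, map_zero]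
      rw [map_add, ha, hb'] at h3
      apply ha0
      apply two_smul_cancel h2
      calc a + a = (a + b) + (a + -b) := by abel
        _ = 0 := by rw [h, h3, add_zero]
    obtain ⟨s, hs, hsv⟩ := exis ρ hstab hab
    obtain ⟨hs1, hs2⟩ := ord_two hs
    have hsz : s ≠ z := by
      rintro rfl
      rw [hzn] at hsv
      apply hab
      apply two_smul_cancel h2
      calc a + b + (a + b) = a + b + -(a + b) := by rw [hsv]
        _ = 0 := by abel
    have hst : s ≠ t := by
      rintro rfl
      rw [map_add, ha, hb'] at hsv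
      apply hb0
      apply two_smul_cancel h2
      have := add_left_cancel hsv
      calc b + b = b + -b := by rw [this]
        _ = 0 := by abel
    have hszt : s ≠ z * t := by
      rintro rfl
      rw [hact, map_add, ha, hb'] at hsv
      apply ha0
      apply two_smul_cancel h2
      have h5 : -a = a := by
        have : -(a + -b) = -a + b := by abel
        rw [this] at hsv
        exact add_right_cancel hsv
      calc a + a = a + -a := by rw [h5]
        _ = 0 := by abel
    have hzst : z * s ≠ t := by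
      intro h
      apply hszt
      rw [← h, ← mul_assoc, hz2, one_mul]
    have e1 := hdim s hs hsz
    have e2 := hdle s t hs1 (ord_two ht).1 hst
    have e3 := hdle (z * s) t (ord_two (hzt s hs hsz).1).1 (ord_two ht).1 hzst
    omega
  have hr : ∀ t : G, orderOf t = 2 → t ≠ z → 2 * Module.finrank (ZMod q) (fixSp ρ t) = Module.finrank (ZMod q) V := by
    intro t ht htz
    have e1 := hhalfdim t ht htz
    have e2 := hhalfdim (z * t) (hzt t ht htz).1 (hzt t ht htz).2
    have e3 := hdim t ht htz
    omega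
  obtain ⟨v0, hv0⟩ := exists_ne (0 : V)
  have hnz : ∀ v : V, v ≠ 0 → ∀ t : G, ρ t v = v → t ≠ z := by
    rintro v hv _ h rfl
    rw [hzn] at h
    apply hv
    apply two_smul_cancel h2
    calc v + v = v + -v := by rw [h]
      _ = 0 := by abel
  obtain ⟨t0, ht0, ht0v⟩ := exis ρ hstab hv0
  have hr0 := hr t0 ht0 (hnz v0 hv0 t0 ht0v)
  set r := Module.finrank (ZMod q) (fixSp ρ t0) with hrdef
  have hcardV : Nat.card V = q ^ (2 * r) := by
    rw [Module.natCard_eq_pow_finrank (K := ZMod q), Nat.card_zmod, hr0]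
  refine ⟨r, hcardV, ?_⟩
  have hcardW : ∀ t : G, orderOf t = 2 → t ≠ z → Nat.card (fixSp ρ t) = q ^ r := by
    intro t ht htz
    rw [Module.natCard_eq_pow_finrank (K := ZMod q), Nat.card_zmod]
    have := hr t ht htz
    congr 1
    omega
  have hone : ∀ (W : Type _) [AddCommGroup W] [Finite W], Nat.card W = Nat.card {w : W // w ≠ 0} + 1 := by
    intro W _ _
    classical
    rw [← Nat.card_congr (Equiv.optionSubtypeNe (0 : W)), Finite.card_option]
  have hcV : Nat.card {v : V // v ≠ 0} = q ^ (2 * r) - 1 := by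
    have := hone V
    omega
  choose f hf1 hf2 using fun v : {v : V // v ≠ 0} => exis ρ hstab v.2
  let F : {v : V // v ≠ 0} → I := fun v => ⟨f v, (hI _).mpr ⟨hf1 v, hnz v v.2 _ (hf2 v)⟩⟩
  have : Fintype I := Fintype.ofFinite I
  have hfib : ∀ t : I, Nat.card {v : {v : V // v ≠ 0} // F v = t} = q ^ r - 1 := by
    intro t
    obtain ⟨ht, htz⟩ := (hI t.1).mp t.2
    have h1 := hone (fixSp ρ t.1)
    rw [hcardW t.1 ht htz] at h1
    have e : {v : {v : V // v ≠ 0} // F v = t} ≃ {w : fixSp ρ t.1 // w ≠ 0} :=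
      { toFun := fun v => ⟨⟨v.1.1, by
            have h5 : f v.1 = t.1 := congrArg Subtype.val v.2
            have h6 := hf2 v.1
            rw [h5] at h6
            exact h6⟩, fun h => v.1.2 (congrArg Subtype.val h)⟩
        invFun := fun w => ⟨⟨w.1.1, fun h => w.2 (Subtype.ext h)⟩, by
            apply Subtype.ext
            have h0 : w.1.1 ≠ 0 := fun h => w.2 (Subtype.ext h)
            exact uniq ρ hstab h0 (ord_two (hf1 _)).1 (ord_two ht).1 (hf2 ⟨w.1.1, h0⟩) w.1.2⟩
        left_inv := fun v => rfl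
        right_inv := fun w => rfl }
    rw [Nat.card_congr e]
    omega
  have hsum := Nat.card_congr (Equiv.sigmaFiberEquiv F)
  rw [Nat.card_sigma, Finset.sum_congr rfl (fun t _ => hfib t), Finset.sum_const, Finset.card_univ, smul_eq_mul, hcV,
    ← Nat.card_eq_fintype_card] at hsum
  change Nat.card I = q ^ r + 1
  have hrpos : 0 < r := by
    rcases Nat.eq_zero_or_pos r with h | h
    · exfalso
      rw [h] at hcardV
      have := Finite.one_lt_card_iff_nontrivial.mpr (inferInstance : Nontrivial V)
      rw [hcardV] at this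
      simp at this
    · exact h
  have hq2 : 2 ≤ q := (Fact.out : q.Prime).two_le
  have hqr : 2 ≤ q ^ r := by
    calc 2 ≤ q := hq2
      _ = q ^ 1 := (pow_one q).symm
      _ ≤ q ^ r := Nat.pow_le_pow_right (by omega) hrpos
  have e : q ^ (2 * r) - 1 = (q ^ r + 1) * (q ^ r - 1) := by
    obtain ⟨k, hk⟩ : ∃ k, q ^ r = k + 1 := ⟨q ^ r - 1, by omega⟩
    rw [mul_comm 2 r, pow_mul, hk]
    simp only [Nat.add_sub_cancel]
    have : (k + 1) ^ 2 = (k + 1 + 1) * k + 1 := by ring
    rw [this]
    simp
  rw [e] at hsum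
  exact Nat.eq_of_mul_eq_mul_right (by omega) hsum

end Cfsg.Agent.S3381
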