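import Cfsg.Statements.S3382
import Mathlib

set_option autoImplicit false
open Cfsg

namespace Cfsg.Agent.S3382

open Equiv

theorem z2a : ∀ a : ZMod 2, a ≠ 0 → a = 1 := by decide
theorem z2b : (-1 : ZMod 2) = 1 := by decide
theorem z3a : (2 : ZMod 3) ≠ 0 := by decide
theorem z3b : ∀ a : ZMod 3, a ≠ 0 → a = 1 ∨ a = -1 := by decide
theorem z3c : ∀ a : ZMod 3, a * a ≠ -1 := by decide

section gen
variable {T : Type*} [Group T] [Finite T]

theorem exists_fixed {p : ℕ} [Fact p.Prime] (α : MulAut T) (hα : α ^ p = 1) (K : Set T) (hK : ∀ x ∈ K, α x ∈ K)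
    (hc : ¬ p ∣ Nat.card K) : ∃ x ∈ K, α x = x := by
  classical
  have : Fintype K := Fintype.ofFinite K
  let σ : Perm K := Perm.subtypePermOfFintype (p := fun x => x ∈ K) (MulAut.toPerm T α) hK
  have hσ : ∀ n : ℕ, ∀ x : K, ((σ ^ n) x : T) = (α ^ n) x := by
    intro n
    induction n with
    | zero => intro x; rfl
    | succ n ih =>
      intro x
      rw [pow_succ, pow_succ]
      change ((σ ^ n) (σ x) : T) = (α ^ n) (α x)
      rw [ih]
      rfl
  have h1 : σ ^ p ^ 1 = 1 := by
    ext x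
    rw [pow_one, hσ, hα]
    rfl
  obtain ⟨a, ha⟩ := Perm.exists_fixed_point_of_prime (p := p) (n := 1) (by rwa [← Nat.card_eq_fintype_card]) h1
  exact ⟨a, a.2, congrArg Subtype.val ha⟩

theorem step (hT : IsPGroup 2 T) {p : ℕ} [Fact p.Prime] (hp : p ≠ 2) (α : MulAut T) (hα : α ^ p = 1)
    (H : Subgroup T) (K : Set T) (hH : ∀ x ∈ H, α x = x) (hK : ∀ x ∈ K, α x ∈ K)
    (hKH : ∀ x ∈ K, ∀ h ∈ H, x * h ∈ K) (hxy : ∀ x ∈ K, ∀ y ∈ K, x⁻¹ * y ∈ H) : ∀ x ∈ K, α x = x := by
  intro x0 hx0
  have hcard : Nat.card K = Nat.card H := by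
    apply Nat.card_congr
    exact
      { toFun := fun y => ⟨x0⁻¹ * y, hxy x0 hx0 y y.2⟩
        invFun := fun h => ⟨x0 * h, hKH x0 hx0 h h.2⟩
        left_inv := fun y => Subtype.ext (by simp)
        right_inv := fun h => Subtype.ext (by simp) }
  obtain ⟨k, hk⟩ := (IsPGroup.iff_card (p := 2) (G := H)).mp (hT.to_subgroup H)
  obtain ⟨x, hx, hαx⟩ := exists_fixed α hα K hK (by
    rw [hcard, hk]
    intro h
    have := (Fact.out : p.Prime).dvd_of_dvd_pow h
    exact hp ((Nat.prime_dvd_prime_iff_eq Fact.out Nat.prime_two).mp this))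
  have h1 := hH _ (hxy x hx x0 hx0)
  calc α x0 = α (x * (x⁻¹ * x0)) := by rw [mul_inv_cancel_left]
    _ = x0 := by rw [map_mul, hαx, h1, mul_inv_cancel_left]

theorem aut_of (h : ∀ (p : ℕ) (_ : Fact p.Prime), p ≠ 2 → ∀ α : MulAut T, α ^ p = 1 → α = 1) : IsPGroup 2 (MulAut T) := by
  apply IsPGroup.of_card (n := (Nat.card (MulAut T)).primeFactorsList.length)
  apply Nat.eq_prime_pow_of_unique_prime_dvd Nat.card_pos.ne'
  intro p hp hd
  by_contra hne
  have : Fact p.Prime := ⟨hp⟩
  obtain ⟨α, hα⟩ := exists_prime_orderOf_dvd_card' p hd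
  have h1 := h p ⟨hp⟩ hne α (by rw [← hα]; exact pow_orderOf_eq_one α)
  rw [h1, orderOf_one] at hα
  exact hp.one_lt.ne hα
end gen

section
variable {q : ℕ} [Fact q.Prime]

abbrev LE (q : ℕ) := (Fin 2 → ZMod q) ≃ₗ[ZMod q] (Fin 2 → ZMod q)

instance : Finite (LE q) := Finite.of_injective (fun e : LE q => (e : (Fin 2 → ZMod q) → (Fin 2 → ZMod q))) DFunLike.coe_injective

variable {T : Subgroup (LE q)}

/-- the matrix -/
noncomputable def M (x : T) : Matrix (Fin 2) (Fin 2) (ZMod q) := LinearMap.toMatrix' (((x : LE q) : (Fin 2 → ZMod q) →ₗ[ZMod q] (Fin 2 → ZMod q)))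

theorem M_mul (x y : T) : M (x * y) = M x * M y := by
  unfold M
  rw [← LinearMap.toMatrix'_mul]
  rfl

theorem M_one : M (1 : T) = 1 := by
  unfold M
  rw [← LinearMap.toMatrix'_one]
  rfl

theorem M_pow (x : T) (n : ℕ) : M (x ^ n) = M x ^ n := by
  induction n with
  | zero => rw [pow_zero, pow_zero, M_one]
  | succ n ih => rw [pow_succ, pow_succ, M_mul, ih]

theorem M_inj : Function.Injective (M : T → _) := by
  intro x y h
  have h1 := LinearMap.toMatrix'.injective h
  apply Subtype.ext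
  exact LinearEquiv.toLinearMap_injective h1

theorem M_inv (x : T) : M x * M x⁻¹ = 1 := by rw [← M_mul, mul_inv_cancel, M_one]

theorem form (hT : ∀ f, f ∈ T ↔ ∃ a s : ZMod q, a ≠ 0 ∧ (s = 1 ∨ s = -1) ∧
      ((∀ v, f v = ![a * v 0, s * a⁻¹ * v 1]) ∨ (∀ v, f v = ![s * a⁻¹ * v 1, a * v 0]))) (x : T) :
    ∃ a s : ZMod q, a ≠ 0 ∧ (s = 1 ∨ s = -1) ∧ (M x = !![a, 0; 0, s * a⁻¹] ∨ M x = !![0, s * a⁻¹; a, 0]) := by
  obtain ⟨a, s, ha, hs, h⟩ := (hT x).mp x.2
  refine ⟨a, s, ha, hs, ?_⟩
  rcases h with h | h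
  · left
    ext i j
    unfold M
    rw [LinearMap.toMatrix'_apply]
    change (x : LE q) _ i = _
    rw [h]
    fin_cases i <;> fin_cases j <;> simp
  · right
    ext i j
    unfold M
    rw [LinearMap.toMatrix'_apply]
    change (x : LE q) _ i = _
    rw [h]
    fin_cases i <;> fin_cases j <;> simp

theorem exM (hT : ∀ f, f ∈ T ↔ ∃ a s : ZMod q, a ≠ 0 ∧ (s = 1 ∨ s = -1) ∧
      ((∀ v, f v = ![a * v 0, s * a⁻¹ * v 1]) ∨ (∀ v, f v = ![s * a⁻¹ * v 1, a * v 0]))) (a s : ZMod q) (ha : a ≠ 0) (hs : s = 1 ∨ s = -1) :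
    (∃ x : T, M x = !![a, 0; 0, s * a⁻¹]) ∧ (∃ x : T, M x = !![0, s * a⁻¹; a, 0]) := by
  have hss : s * s = 1 := by rcases hs with rfl | rfl <;> ring
  constructor
  · let f : LE q :=
      { toFun := fun v => ![a * v 0, s * a⁻¹ * v 1]
        map_add' := by intro v w; ext i; fin_cases i <;> simp [mul_add]
        map_smul' := by intro c v; ext i; fin_cases i <;> simp <;> ring
        invFun := fun v => ![a⁻¹ * v 0, s * a * v 1]
        left_inv := by
          intro v; ext i; fin_cases i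
          · simp; field_simp
          · simp
            calc s * a * (s * a⁻¹ * v 1) = (s * s) * (a * a⁻¹) * v 1 := by ring
              _ = v 1 := by rw [hss, mul_inv_cancel₀ ha]; ring
        right_inv := by
          intro v; ext i; fin_cases i
          · simp; field_simp
          · simp
            calc s * a⁻¹ * (s * a * v 1) = (s * s) * (a * a⁻¹) * v 1 := by ring
              _ = v 1 := by rw [hss, mul_inv_cancel₀ ha]; ring }
    have hf : ∀ v, f v = ![a * v 0, s * a⁻¹ * v 1] := fun v => rfl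
    refine ⟨⟨f, (hT f).mpr ⟨a, s, ha, hs, Or.inl hf⟩⟩, ?_⟩
    ext i j
    unfold M
    rw [LinearMap.toMatrix'_apply]
    change f _ i = _
    rw [hf]
    fin_cases i <;> fin_cases j <;> simp
  · let f : LE q :=
      { toFun := fun v => ![s * a⁻¹ * v 1, a * v 0]
        map_add' := by intro v w; ext i; fin_cases i <;> simp [mul_add]
        map_smul' := by intro c v; ext i; fin_cases i <;> simp <;> ring
        invFun := fun v => ![a⁻¹ * v 1, s * a * v 0]
        left_inv := by
          intro v; ext i; fin_cases i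
          · simp; field_simp
          · simp
            calc s * a * (s * a⁻¹ * v 1) = (s * s) * (a * a⁻¹) * v 1 := by ring
              _ = v 1 := by rw [hss, mul_inv_cancel₀ ha]; ring
        right_inv := by
          intro v; ext i; fin_cases i
          · simp
            calc s * a⁻¹ * (s * a * v 0) = (s * s) * (a * a⁻¹) * v 0 := by ring
              _ = v 0 := by rw [hss, mul_inv_cancel₀ ha]; ring
          · simp; field_simp }
    have hf : ∀ v, f v = ![s * a⁻¹ * v 1, a * v 0] := fun v => rfl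
    refine ⟨⟨f, (hT f).mpr ⟨a, s, ha, hs, Or.inr hf⟩⟩, ?_⟩
    ext i j
    unfold M
    rw [LinearMap.toMatrix'_apply]
    change f _ i = _
    rw [hf]
    fin_cases i <;> fin_cases j <;> simp

def IsT (T : Subgroup (LE q)) : Prop := ∀ f, f ∈ T ↔ ∃ a s : ZMod q, a ≠ 0 ∧ (s = 1 ∨ s = -1) ∧
      ((∀ v, f v = ![a * v 0, s * a⁻¹ * v 1]) ∨ (∀ v, f v = ![s * a⁻¹ * v 1, a * v 0]))

theorem sq_one_cases {a : ZMod q} (h : a ^ 2 = 1) : a = 1 ∨ a = -1 := by
  rw [pow_two] at h
  exact mul_self_eq_one_iff.mp h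

theorem diag_pow (a b : ZMod q) (n : ℕ) : (!![a, 0; 0, b] : Matrix (Fin 2) (Fin 2) (ZMod q)) ^ n = !![a ^ n, 0; 0, b ^ n] := by
  induction n with
  | zero => simp [Matrix.one_fin_two]
  | succ n ih => rw [pow_succ, ih, Matrix.mul_fin_two]; simp [pow_succ]

/-- the diagonal subgroup -/
def D (hT : IsT T) : Subgroup T where
  carrier := {x | M x 0 1 = 0}
  one_mem' := by simp [M_one]
  mul_mem' := by
    intro x y hx hy
    obtain ⟨a, s, ha, hs, h | h⟩ := form hT x
    · obtain ⟨a', s', ha', hs', h' | h'⟩ := form hT y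
      · rw [Set.mem_ofPred_eq, M_mul, h, h']
        simp
      · rw [Set.mem_ofPred_eq, h'] at hy
        rcases hs' with rfl | rfl <;> simp [ha'] at hy
    · rw [Set.mem_ofPred_eq, h] at hx
      rcases hs with rfl | rfl <;> simp [ha] at hx
  inv_mem' := by
    intro x hx
    obtain ⟨a, s, ha, hs, h | h⟩ := form hT x
    · obtain ⟨a', s', ha', hs', h' | h'⟩ := form hT x⁻¹
      · rw [Set.mem_ofPred_eq, h']
        simp
      · have h1 := M_inv x
        rw [h, h'] at h1
        have := congrFun (congrFun h1 0) 0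
        simp at this
    · rw [Set.mem_ofPred_eq, h] at hx
      rcases hs with rfl | rfl <;> simp [ha] at hx

theorem D_form (hT : IsT T) {x : T} (hx : x ∈ D hT) : ∃ a s : ZMod q, a ≠ 0 ∧ (s = 1 ∨ s = -1) ∧ M x = !![a, 0; 0, s * a⁻¹] := by
  obtain ⟨a, s, ha, hs, h | h⟩ := form hT x
  · exact ⟨a, s, ha, hs, h⟩
  · exfalso
    have hx' : M x 0 1 = 0 := hx
    rw [h] at hx'
    rcases hs with rfl | rfl <;> simp [ha] at hx'

theorem mem_D (hT : IsT T) {x : T} {a b : ZMod q} (hx : M x = !![a, 0; 0, b]) : x ∈ D hT := by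
  change M x 0 1 = 0
  rw [hx]; simp

theorem notD_form (hT : IsT T) {x : T} (hx : x ∉ D hT) : ∃ a s : ZMod q, a ≠ 0 ∧ (s = 1 ∨ s = -1) ∧ M x = !![0, s * a⁻¹; a, 0] := by
  obtain ⟨a, s, ha, hs, h | h⟩ := form hT x
  · exact absurd (mem_D hT h) hx
  · exact ⟨a, s, ha, hs, h⟩

theorem D_comm (hT : IsT T) {x y : T} (hx : x ∈ D hT) (hy : y ∈ D hT) : x * y = y * x := by
  obtain ⟨a, s, ha, hs, h⟩ := D_form hT hx
  obtain ⟨a', s', ha', hs', h'⟩ := D_form hT hy
  apply M_inj
  rw [M_mul, M_mul, h, h', Matrix.mul_fin_two, Matrix.mul_fin_two]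
  simp [mul_comm, mul_left_comm]

theorem sq_notD (hT : IsT T) {x : T} (hx : x ∉ D hT) : ∃ s : ZMod q, (s = 1 ∨ s = -1) ∧ M (x * x) = !![s, 0; 0, s] := by
  obtain ⟨a, s, ha, hs, h⟩ := notD_form hT hx
  refine ⟨s, hs, ?_⟩
  rw [M_mul, h, Matrix.mul_fin_two]
  simp [ha]
  field_simp

theorem exists_c (hT : IsT T) : ∃ c : T, M c = !![-1, 0; 0, -1] := by
  obtain ⟨⟨c, hc⟩, -⟩ := exM hT (-1) 1 (neg_ne_zero.mpr one_ne_zero) (Or.inl rfl)
  refine ⟨c, ?_⟩
  rw [hc]
  simp [inv_neg]

theorem not_D_inv_mul (hT : IsT T) {x y : T} (hx : x ∉ D hT) (hy : y ∉ D hT) : x⁻¹ * y ∈ D hT := by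
  by_contra hcon
  obtain ⟨a, s, ha, hs, h⟩ := notD_form hT hx
  obtain ⟨a', s', ha', hs', h'⟩ := notD_form hT hcon
  apply hy
  have e : y = x * (x⁻¹ * y) := by group
  change M y 0 1 = 0
  rw [e, M_mul, h, h', Matrix.mul_fin_two]
  simp

/-- `-1` is fixed by all automorphisms -/
theorem c_fixed (hT : IsT T) (h2 : (2 : ZMod q) ≠ 0) {c : T} (hc : M c = !![-1, 0; 0, -1]) (α : MulAut T) : α c = c := by
  have hcc : ∀ x : T, c * x = x * c := by
    intro x
    apply M_inj
    rw [M_mul, M_mul, hc]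
    ext i j
    fin_cases i <;> fin_cases j <;> simp [Matrix.mul_apply, Fin.sum_univ_two]
  have hc2 : c * c = 1 := by
    apply M_inj
    rw [M_mul, hc, M_one, Matrix.mul_fin_two, Matrix.one_fin_two]
    simp
  have hcne : c ≠ 1 := by
    intro h
    have h1 := congrArg M h
    rw [hc, M_one] at h1
    have h3 := congrFun (congrFun h1 0) 0
    simp at h3
    apply h2
    linear_combination -h3
  have hαc : ∀ x : T, α c * x = x * α c := by
    intro x
    obtain ⟨y, rfl⟩ := α.surjective x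
    rw [← map_mul, ← map_mul, hcc]
  have hαc2 : α c * α c = 1 := by rw [← map_mul, hc2, map_one]
  have hαcne : α c ≠ 1 := fun h => hcne (by
    apply α.injective
    rw [h, map_one])
  obtain ⟨-, ⟨w, hw⟩⟩ := exM hT 1 1 one_ne_zero (Or.inl rfl)
  obtain ⟨⟨d, hd⟩, -⟩ := exM hT 1 (-1) one_ne_zero (Or.inr rfl)
  obtain ⟨a, s, ha, hs, h | h⟩ := form hT (α c)
  · have h1 := congrArg M (hαc w)
    rw [M_mul, M_mul, h, hw, Matrix.mul_fin_two, Matrix.mul_fin_two] at h1
    have h3 := congrFun (congrFun h1 0) 1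
    simp at h3
    have h4 := congrArg M hαc2
    rw [M_mul, h, M_one, Matrix.mul_fin_two] at h4
    have h5 := congrFun (congrFun h4 0) 0
    simp at h5
    have h6 : a = -1 := by
      rcases mul_self_eq_one_iff.mp h5 with h6 | h6
      · exfalso
        apply hαcne
        apply M_inj
        rw [h, M_one, Matrix.one_fin_two, ← h3, h6]
      · exact h6
    apply M_inj
    rw [h, hc, ← h3, h6]
  · exfalso
    have h1 := congrArg M (hαc d)
    rw [M_mul, M_mul, h, hd, Matrix.mul_fin_two, Matrix.mul_fin_two] at h1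
    have h3 := congrFun (congrFun h1 1) 0
    simp at h3
    apply ha
    have h4 : (2 : ZMod q) * a = 0 := by linear_combination h3
    exact (mul_eq_zero.mp h4).resolve_left h2

theorem c_props (hT : IsT T) (h2 : (2 : ZMod q) ≠ 0) {c : T} (hc : M c = !![-1, 0; 0, -1]) : c * c = 1 ∧ c ≠ 1 ∧ ∀ h ∈ Subgroup.zpowers c, h = 1 ∨ h = c := by
  have hc2 : c * c = 1 := by
    apply M_inj
    rw [M_mul, hc, M_one, Matrix.mul_fin_two, Matrix.one_fin_two]
    simp
  have hcne : c ≠ 1 := by
    intro h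
    have h1 := congrArg M h
    rw [hc, M_one] at h1
    have h3 := congrFun (congrFun h1 0) 0
    simp at h3
    apply h2
    linear_combination -h3
  refine ⟨hc2, hcne, ?_⟩
  intro h hh
  obtain ⟨k, rfl⟩ := Subgroup.mem_zpowers_iff.mp hh
  rcases Int.even_or_odd' k with ⟨l, rfl | rfl⟩
  · left
    rw [zpow_mul, zpow_ofNat, pow_two, hc2, one_zpow]
  · right
    rw [zpow_add, zpow_mul, zpow_ofNat, pow_two, hc2, one_zpow, zpow_one, one_mul]

theorem isP (hT : IsT T) {m : ℕ} (hq : q = 2 ^ m + 1) : IsPGroup 2 T := by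
  have hflt : ∀ a : ZMod q, a ≠ 0 → a ^ (2 ^ m) = 1 := by
    intro a ha
    have := ZMod.pow_card_sub_one_eq_one ha
    have e : q - 1 = 2 ^ m := Nat.sub_eq_of_eq_add hq
    rwa [e] at this
  intro x
  by_cases hx : x ∈ D hT
  · obtain ⟨a, s, ha, hs, h⟩ := D_form hT hx
    refine ⟨m + 1, ?_⟩
    apply M_inj
    rw [M_pow, h, diag_pow, M_one, Matrix.one_fin_two]
    have h1 : a ^ (2 ^ (m + 1)) = 1 := by rw [pow_succ, pow_mul, hflt a ha, one_pow]
    have h2 : s ^ (2 ^ (m + 1)) = 1 := by
      rw [pow_succ, mul_comm, pow_mul]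
      have : s ^ 2 = 1 := by rcases hs with rfl | rfl <;> ring
      rw [this, one_pow]
    rw [mul_pow, inv_pow, h1, h2]
    simp
  · obtain ⟨s, hs, h⟩ := sq_notD hT hx
    refine ⟨2, ?_⟩
    apply M_inj
    have e : x ^ 2 ^ 2 = (x * x) * (x * x) := by
      rw [show 2 ^ 2 = 2 + 2 by norm_num, pow_add, pow_two]
    rw [e, M_mul, h, M_one, Matrix.mul_fin_two, Matrix.one_fin_two]
    rcases hs with rfl | rfl <;> simp


/-- general case: `T` generated by layers. -/
theorem case_big (hT : IsT T) {m : ℕ} (hq : q = 2 ^ m + 1) (hm : 3 ≤ m) {p : ℕ} [Fact p.Prime] (hp : p ≠ 2) (α : MulAut T) (hα : α ^ p = 1) : α = 1 := by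
  have h2 : (2 : ZMod q) ≠ 0 := by
    intro h
    have h1 : ((2 : ℕ) : ZMod q) = 0 := by exact_mod_cast h
    rw [ZMod.natCast_eq_zero_iff] at h1
    have h3 := Nat.le_of_dvd (by norm_num) h1
    have h4 : 2 ^ 3 ≤ 2 ^ m := Nat.pow_le_pow_right (by norm_num) hm
    rw [hq] at h3
    norm_num at h4
    omega
  have hflt : ∀ a : ZMod q, a ≠ 0 → a ^ (2 ^ m) = 1 := by
    intro a ha
    have := ZMod.pow_card_sub_one_eq_one ha
    have e : q - 1 = 2 ^ m := Nat.sub_eq_of_eq_add hq
    rwa [e] at this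
  have hTp := isP hT hq
  obtain ⟨c, hc⟩ := exists_c hT
  have hcα := c_fixed hT h2 hc α
  obtain ⟨hc2, hc1, hcz⟩ := c_props hT h2 hc
  -- an element of large order
  obtain ⟨g, hg0, hg4⟩ : ∃ g : ZMod q, g ≠ 0 ∧ g ^ 4 ≠ 1 := by
    obtain ⟨u, hu⟩ := IsCyclic.exists_generator (α := (ZMod q)ˣ)
    have ho : orderOf u = 2 ^ m := by
      rw [orderOf_eq_card_of_forall_mem_zpowers hu, Nat.card_eq_fintype_card, ZMod.card_units]
      exact Nat.sub_eq_of_eq_add hq
    refine ⟨u, u.ne_zero, ?_⟩
    intro h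
    have h1 : u ^ 4 = 1 := by
      apply Units.ext
      rw [Units.val_pow_eq_pow_val, h, Units.val_one]
    have h3 := Nat.le_of_dvd (by norm_num) (orderOf_dvd_of_pow_eq_one h1)
    rw [ho] at h3
    have h4 : 2 ^ 3 ≤ 2 ^ m := Nat.pow_le_pow_right (by norm_num) hm
    norm_num at h4
    omega
  obtain ⟨⟨d, hd⟩, -⟩ := exM hT g 1 hg0 (Or.inl rfl)
  -- D is characteristic
  have hDα : ∀ x ∈ D hT, α x ∈ D hT := by
    intro x hx
    by_contra hcon
    obtain ⟨a, s, ha, hs, h⟩ := notD_form hT hcon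
    have h1 : ∀ y : T, x * (y * y) = (y * y) * x := by
      intro y
      by_cases hy : y ∈ D hT
      · exact D_comm hT hx (mul_mem hy hy)
      · obtain ⟨s', hs', h'⟩ := sq_notD hT hy
        exact D_comm hT hx (mem_D hT h')
    have h3 : ∀ y : T, α x * (y * y) = (y * y) * α x := by
      intro y
      obtain ⟨z, rfl⟩ := α.surjective y
      rw [← map_mul, ← map_mul, ← map_mul, h1]
    have h4 := congrArg M (h3 d)
    simp only [M_mul, h, hd, Matrix.mul_fin_two] at h4
    have h5 := congrFun (congrFun h4 1) 0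
    simp at h5
    apply hg4
    have h6 : a * (g * g) * (g * g) = g⁻¹ * g⁻¹ * a * (g * g) := by rw [h5]
    have h7 : g⁻¹ * g⁻¹ * a * (g * g) = a := by field_simp
    rw [h7] at h6
    have h8 : a * (g ^ 4 - 1) = 0 := by linear_combination h6
    exact sub_eq_zero.mp ((mul_eq_zero.mp h8).resolve_left ha)
  -- step 1: `{1, c}`
  have s1 : ∀ x ∈ Subgroup.zpowers c, α x = x := by
    intro x hx
    rcases hcz x hx with rfl | rfl
    · exact map_one _
    · exact hcα
  have powinv : ∀ (n : ℕ) (x : T), x ^ n = 1 → (α x) ^ n = 1 := by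
    intro n x hx
    rw [← map_pow, hx, map_one]
  have powinv' : ∀ (n : ℕ) (x : T), x ^ n ≠ 1 → (α x) ^ n ≠ 1 := by
    intro n x hx h
    apply hx
    apply α.injective
    rw [map_pow, h, map_one]
  have s2 : ∀ x ∈ {x : T | x ∈ D hT ∧ x ^ 2 = 1 ∧ x ≠ 1 ∧ x ≠ c}, α x = x := by
    have hform : ∀ x ∈ {x : T | x ∈ D hT ∧ x ^ 2 = 1 ∧ x ≠ 1 ∧ x ≠ c}, ∃ a : ZMod q, (a = 1 ∨ a = -1) ∧ M x = !![a, 0; 0, -a] := by
      rintro x ⟨hx, hx2, hx1, hxc⟩
      obtain ⟨a, s, ha, hs, h⟩ := D_form hT hx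
      have h1 := congrArg M hx2
      rw [M_pow, h, diag_pow, M_one, Matrix.one_fin_two] at h1
      have h3 := congrFun (congrFun h1 0) 0
      have h4 := congrFun (congrFun h1 1) 1
      simp only [Matrix.of_apply, Matrix.cons_val', Matrix.cons_val_zero, Matrix.cons_val_fin_one, Matrix.cons_val_one] at h3 h4
      have h5 := sq_one_cases h3
      have h6 := sq_one_cases h4
      refine ⟨a, h5, ?_⟩
      rw [h]
      rcases h5 with rfl | rfl <;> rcases h6 with h6 | h6
      · exfalso
        apply hx1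
        apply M_inj
        rw [h, h6, M_one, Matrix.one_fin_two]
      · rw [h6]
      · rw [h6, neg_neg]
      · exfalso
        apply hxc
        apply M_inj
        rw [h, h6, hc]
    apply step hTp hp α hα (Subgroup.zpowers c) _ s1
    · rintro x ⟨hx, hx2, hx1, hxc⟩
      refine ⟨hDα x hx, powinv 2 x hx2, ?_, ?_⟩
      · intro h
        apply hx1
        apply α.injective
        rw [h, map_one]
      · intro h
        apply hxc
        apply α.injective
        rw [h, hcα]
    · rintro x ⟨hx, hx2, hx1, hxc⟩ h hh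
      rcases hcz h hh with rfl | rfl
      · rw [mul_one]
        exact ⟨hx, hx2, hx1, hxc⟩
      · have hcD : h ∈ D hT := mem_D hT hc
        refine ⟨mul_mem hx hcD, ?_, ?_, ?_⟩
        · rw [(show Commute x h from D_comm hT hx hcD).mul_pow, hx2, pow_two h, hc2, one_mul]
        · intro h1
          apply hxc
          calc x = x * h * h := by rw [mul_assoc, hc2, mul_one]
            _ = h := by rw [h1, one_mul]
        · intro h1
          apply hx1
          exact mul_right_cancel (h1.trans (one_mul h).symm)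
    · intro x hx y hy
      obtain ⟨a, ha, h⟩ := hform x hx
      obtain ⟨b, hb, h'⟩ := hform y hy
      have hxi : x⁻¹ = x := by
        apply inv_eq_of_mul_eq_one_left
        rw [← pow_two]; exact hx.2.1
      rw [hxi]
      have : x * y = 1 ∨ x * y = c := by
        rcases ha with rfl | rfl <;> rcases hb with rfl | rfl
        · left; apply M_inj; rw [M_mul, h, h', M_one, Matrix.mul_fin_two, Matrix.one_fin_two]; simp
        · right; apply M_inj; rw [M_mul, h, h', hc, Matrix.mul_fin_two]; simp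
        · right; apply M_inj; rw [M_mul, h, h', hc, Matrix.mul_fin_two]; simp
        · left; apply M_inj; rw [M_mul, h, h', M_one, Matrix.mul_fin_two, Matrix.one_fin_two]; simp
      rcases this with h1 | h1
      · rw [h1]; exact one_mem _
      · rw [h1]; exact Subgroup.mem_zpowers c
  -- step i
  let H : ℕ → Subgroup T := fun i =>
    { carrier := {x | x ∈ D hT ∧ x ^ (2 ^ i) = 1}
      one_mem' := ⟨one_mem _, one_pow _⟩
      mul_mem' := by
        rintro x y ⟨hx, hx2⟩ ⟨hy, hy2⟩
        refine ⟨mul_mem hx hy, ?_⟩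
        rw [(show Commute x y from D_comm hT hx hy).mul_pow, hx2, hy2, one_mul]
      inv_mem' := by
        rintro x ⟨hx, hx2⟩
        exact ⟨inv_mem hx, by rw [inv_pow, hx2, inv_one]⟩ }
  have s3 : ∀ i : ℕ, ∀ x ∈ H (i + 1), α x = x := by
    intro i
    induction i with
    | zero =>
      rintro x ⟨hx, hx2⟩
      by_cases h1 : x = 1
      · rw [h1, map_one]
      by_cases h3 : x = c
      · rw [h3, hcα]
      exact s2 x ⟨hx, by simpa using hx2, h1, h3⟩
    | succ i ih =>
      intro x hx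
      by_cases hx' : x ∈ H (i + 1)
      · exact ih x hx'
      have hform : ∀ y ∈ {y : T | y ∈ H (i + 1 + 1) ∧ y ^ (2 ^ (i + 1)) ≠ 1}, y ^ (2 ^ (i + 1)) = c := by
        rintro y ⟨⟨hy, hy2⟩, hy1⟩
        obtain ⟨a, s, ha, hs, h⟩ := D_form hT hy
        have hs2 : s ^ (2 ^ (i + 1)) = 1 := by
          rw [pow_succ, mul_comm, pow_mul]
          have : s ^ 2 = 1 := by rcases hs with rfl | rfl <;> ring
          rw [this, one_pow]
        have h1 : M (y ^ (2 ^ (i + 1))) = !![a ^ (2 ^ (i + 1)), 0; 0, (a ^ (2 ^ (i + 1)))⁻¹] := by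
          rw [M_pow, h, diag_pow, mul_pow, hs2, one_mul, inv_pow]
        have h3 : (a ^ (2 ^ (i + 1))) ^ 2 = 1 := by
          have h4 := congrArg M hy2
          rw [M_pow, h, diag_pow, M_one, Matrix.one_fin_two] at h4
          have h5 := congrFun (congrFun h4 0) 0
          simp only [Matrix.of_apply, Matrix.cons_val', Matrix.cons_val_zero, Matrix.cons_val_fin_one] at h5
          rw [← pow_mul, ← pow_succ]
          exact h5
        rcases sq_one_cases h3 with h4 | h4
        · exfalso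
          apply hy1
          apply M_inj
          rw [h1, h4, M_one, Matrix.one_fin_two, inv_one]
        · apply M_inj
          rw [h1, h4, hc, inv_neg, inv_one]
      refine step hTp hp α hα (H (i + 1)) {y : T | y ∈ H (i + 1 + 1) ∧ y ^ (2 ^ (i + 1)) ≠ 1} ih ?_ ?_ ?_ x ⟨hx, fun h => hx' ⟨hx.1, h⟩⟩
      · rintro y ⟨⟨hy, hy2⟩, hy1⟩
        exact ⟨⟨hDα y hy, powinv _ _ hy2⟩, powinv' _ _ hy1⟩
      · rintro y ⟨⟨hy, hy2⟩, hy1⟩ h ⟨hh, hh2⟩
        have hcm : Commute y h := D_comm hT hy hh
        refine ⟨⟨mul_mem hy hh, ?_⟩, ?_⟩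
        · rw [hcm.mul_pow, hy2, one_mul, pow_succ, pow_mul, hh2, one_pow]
        · rw [hcm.mul_pow, hh2, mul_one]
          exact hy1
      · intro y hy z hz
        have e1 := hform y hy
        have e2 := hform z hz
        refine ⟨mul_mem (inv_mem hy.1.1) hz.1.1, ?_⟩
        have hcm : Commute y⁻¹ z := D_comm hT (inv_mem hy.1.1) hz.1.1
        rw [hcm.mul_pow, inv_pow, e1, e2, inv_mul_cancel]
  have s4 : ∀ x ∈ D hT, α x = x := by
    intro x hx
    apply s3 m x
    refine ⟨hx, ?_⟩
    obtain ⟨a, s, ha, hs, h⟩ := D_form hT hx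
    apply M_inj
    rw [M_pow, h, diag_pow, M_one, Matrix.one_fin_two]
    have h1 : a ^ (2 ^ (m + 1)) = 1 := by rw [pow_succ, pow_mul, hflt a ha, one_pow]
    have h2 : s ^ (2 ^ (m + 1)) = 1 := by
      rw [pow_succ, mul_comm, pow_mul]
      have : s ^ 2 = 1 := by rcases hs with rfl | rfl <;> ring
      rw [this, one_pow]
    rw [mul_pow, inv_pow, h1, h2]
    simp
  have s5 : ∀ x ∈ {x : T | x ∉ D hT}, α x = x := by
    apply step hTp hp α hα (D hT) _ s4
    · intro x hx h
      apply hx
      have := s4 _ h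
      rw [α.injective this] at h
      exact h
    · intro x hx h hh hxh
      exact hx ((Subgroup.mul_mem_cancel_right _ hh).mp hxh)
    · intro x hx y hy
      exact not_D_inv_mul hT hx hy
  ext1 x
  by_cases hx : x ∈ D hT
  · exact s4 x hx
  · exact s5 x hx

theorem case_zero (hT : IsT T) (hq : q = 2) (α : MulAut T) : α = 1 := by
  subst hq
  have hform : ∀ x : T, x ≠ 1 → M x = !![0, 1; 1, 0] := by
    intro x hx
    obtain ⟨a, s, ha, hs, h⟩ := form hT x
    have hz := z2a
    have hz2 := z2b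
    have ha1 : a = 1 := hz a ha
    have hs1 : s = 1 := by
      rcases hs with rfl | rfl
      · rfl
      · exact hz2
    rw [ha1, hs1] at h
    rcases h with h | h
    · exfalso
      apply hx
      apply M_inj
      rw [h, M_one, Matrix.one_fin_two]
      simp
    · rw [h]; simp
  ext1 x
  by_cases hx : x = 1
  · rw [hx, map_one]; rfl
  · apply M_inj
    have h1 : α x ≠ 1 := fun h => hx (α.injective (by rw [h, map_one]))
    rw [hform _ h1]
    exact (hform x hx).symm


theorem case_three (hT : IsT T) (hq : q = 3) {p : ℕ} [Fact p.Prime] (hp : p ≠ 2) (α : MulAut T) (hα : α ^ p = 1) : α = 1 := by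
  subst hq
  have h2 : (2 : ZMod 3) ≠ 0 := z3a
  have hTp : IsPGroup 2 T := isP hT (m := 1) (by norm_num)
  obtain ⟨c, hc⟩ := exists_c hT
  have hcα := c_fixed hT h2 hc α
  obtain ⟨hc2, hc1, hcz⟩ := c_props hT h2 hc
  have hz := z3b
  have s1 : ∀ x ∈ Subgroup.zpowers c, α x = x := by
    intro x hx
    rcases hcz x hx with rfl | rfl
    · exact map_one _
    · exact hcα
  have hcne : c ≠ 1 := hc1
  have hform : ∀ x ∈ {x : T | x * x = c}, ∃ a : ZMod 3, (a = 1 ∨ a = -1) ∧ M x = !![0, -a; a, 0] := by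
    intro x hx
    have hx' : x * x = c := hx
    have h1 := congrArg M hx'
    obtain ⟨a, s, ha, hs, h | h⟩ := form hT x
    · exfalso
      rw [M_mul, h, hc, Matrix.mul_fin_two] at h1
      have h3 := congrFun (congrFun h1 0) 0
      simp at h3
      exact z3c a h3
    · rw [M_mul, h, hc, Matrix.mul_fin_two] at h1
      have h3 := congrFun (congrFun h1 0) 0
      have hs1 : s = -1 := by simpa [ha] using h3
      refine ⟨a, hz a ha, ?_⟩
      rw [h]
      rcases hz a ha with rfl | rfl <;> simp [hs1, inv_neg]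
  have hcc : ∀ x : T, c * x = x * c := by
    intro x
    apply M_inj
    rw [M_mul, M_mul, hc]
    ext i j
    fin_cases i <;> fin_cases j <;> simp [Matrix.mul_apply, Fin.sum_univ_two]
  have s2 : ∀ x ∈ {x : T | x * x = c}, α x = x := by
    apply step hTp hp α hα (Subgroup.zpowers c) _ s1
    · intro x hx
      have hx' : x * x = c := hx
      change α x * α x = c
      rw [← map_mul, hx', hcα]
    · intro x hx h hh
      have hx' : x * x = c := hx
      rcases hcz h hh with rfl | rfl
      · rw [mul_one]; exact hx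
      · change x * h * (x * h) = h
        calc x * h * (x * h) = x * (h * x) * h := by group
          _ = (x * x) * (h * h) := by rw [hcc]; group
          _ = h := by rw [hx', hc2, mul_one]
    · intro x hx y hy
      obtain ⟨a, ha, h⟩ := hform x hx
      obtain ⟨b, hb, h'⟩ := hform y hy
      have : y = x ∨ y = x * c := by
        rcases ha with rfl | rfl <;> rcases hb with rfl | rfl
        · left; apply M_inj; rw [h, h']
        · right; apply M_inj; rw [M_mul, h, h', hc, Matrix.mul_fin_two]; simp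
        · right; apply M_inj; rw [M_mul, h, h', hc, Matrix.mul_fin_two]; simp
        · left; apply M_inj; rw [h, h']
      rcases this with rfl | rfl
      · rw [inv_mul_cancel]; exact one_mem _
      · rw [inv_mul_cancel_left]; exact Subgroup.mem_zpowers c
  let H : Subgroup T :=
    { carrier := {x | (M x).det = 1}
      one_mem' := by
        change (M (1 : T)).det = 1
        rw [M_one, Matrix.det_one]
      mul_mem' := by
        intro x y hx hy
        change (M (x * y)).det = 1
        have hx' : (M x).det = 1 := hx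
        have hy' : (M y).det = 1 := hy
        rw [M_mul, Matrix.det_mul, hx', hy', one_mul]
      inv_mem' := by
        intro x hx
        have hx' : (M x).det = 1 := hx
        change (M x⁻¹).det = 1
        have := congrArg Matrix.det (M_inv x)
        rw [Matrix.det_mul, hx', one_mul, Matrix.det_one] at this
        exact this }
  have hH : ∀ x ∈ H, x = 1 ∨ x = c ∨ x * x = c := by
    intro x hx
    have hx' : (M x).det = 1 := hx
    obtain ⟨a, s, ha, hs, h | h⟩ := form hT x
    · rw [h, Matrix.det_fin_two] at hx'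
      simp at hx'
      have hs1 : s = 1 := by
        rw [← hx']
        field_simp
      rcases hz a ha with rfl | rfl
      · left; apply M_inj; rw [h, hs1, M_one, Matrix.one_fin_two]; simp
      · right; left; apply M_inj; rw [h, hs1, hc]; simp [inv_neg]
    · right; right
      rw [h, Matrix.det_fin_two] at hx'
      simp [ha] at hx'
      apply M_inj
      rw [M_mul, h, hc, Matrix.mul_fin_two]
      have hs1 : s = -1 := by
        rw [← hx', neg_neg]
      rw [hs1]
      simp [ha]
  have hH' : ∀ x, (x = 1 ∨ x = c ∨ x * x = c) → x ∈ H := by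
    rintro x (rfl | rfl | hx)
    · exact one_mem _
    · change (M x).det = 1
      rw [hc, Matrix.det_fin_two]; simp
    · obtain ⟨a, ha, h⟩ := hform x hx
      change (M x).det = 1
      rw [h, Matrix.det_fin_two]
      rcases ha with rfl | rfl <;> simp
  have s3 : ∀ x ∈ H, α x = x := by
    intro x hx
    rcases hH x hx with rfl | rfl | h
    · exact map_one _
    · exact hcα
    · exact s2 x h
  have s4 : ∀ x ∈ {x : T | x ∉ H}, α x = x := by
    apply step hTp hp α hα H _ s3
    · intro x hx h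
      apply hx
      have := s3 _ h
      rw [α.injective this] at h
      exact h
    · intro x hx h hh hxh
      exact hx ((Subgroup.mul_mem_cancel_right _ hh).mp hxh)
    · intro x hx y hy
      have hd : ∀ z : T, z ∉ H → (M z).det = -1 := by
        intro z hz'
        have h1 : (M z).det ≠ 1 := hz'
        have h3 : (M z).det ≠ 0 := by
          intro h0
          have := congrArg Matrix.det (M_inv z)
          rw [Matrix.det_mul, h0, zero_mul, Matrix.det_one] at this
          exact zero_ne_one this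
        exact (hz _ h3).resolve_left h1
      have h1 := hd x hx
      have h3 := hd y hy
      change (M (x⁻¹ * y)).det = 1
      have h4 := congrArg Matrix.det (M_inv x)
      rw [Matrix.det_mul, h1, Matrix.det_one] at h4
      rw [M_mul, Matrix.det_mul, h3]
      linear_combination h4
  ext1 x
  by_cases hx : x ∈ H
  · exact s3 x hx
  · exact s4 x hx

end

/-- Let q = 2^m + 1 be a prime other than 5. Then the automorphism group of the group of linear maps of F_q² of the forms (x, y) ↦ (a x, ± a⁻¹ y) and (x, y) ↦ (± a⁻¹ y, a x) with a ≠ 0 is itself a 2-group. -/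
theorem result (q m : ℕ) [Fact q.Prime] (hq : q = 2 ^ m + 1) (hq5 : q ≠ 5)
    (T : Subgroup ((Fin 2 → ZMod q) ≃ₗ[ZMod q] (Fin 2 → ZMod q)))
    (hT : ∀ f, f ∈ T ↔ ∃ a s : ZMod q, a ≠ 0 ∧ (s = 1 ∨ s = -1) ∧
      ((∀ v, f v = ![a * v 0, s * a⁻¹ * v 1]) ∨ (∀ v, f v = ![s * a⁻¹ * v 1, a * v 0]))) :
    IsPGroup 2 (MulAut T) := by
  have hT' : IsT T := hT
  have hfin : Finite T := inferInstance
  apply aut_of
  intro p hp hp2 α hα
  rcases Nat.lt_or_ge m 3 with hm | hm
  · interval_cases m
    · exact case_zero hT' (by omega) α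
    · exact case_three hT' (by omega) hp2 α hα
    · exact absurd (by omega : q = 5) hq5
  · exact case_big hT' hq hm hp2 α hα

end Cfsg.Agent.S3382
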