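import Cfsg.Statements.S3383
import Mathlib
import Cfsg.Agent.LibFrobH13

set_option autoImplicit false
open Cfsg

namespace Cfsg.Agent.S3383

open Pointwise Subgroup CfsgLib.H13 CfsgLib.FrobH13

/-- Let H be a Frobenius complement in a finite group L and K the Frobenius kernel (as a subgroup). Then K is characteristic in L, and every normal subgroup of L either contains K or is contained in K. -/
theorem result {L : Type*} [Group L] [Finite L]
    (H : Subgroup L) (hH : Cfsg.IsFrobeniusComplement H)
    (K : Subgroup L) (hK : (K : Set L) = Cfsg.frobeniusKernel H) :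
    K.Characteristic ∧ ∀ N : Subgroup L, N.Normal → K ≤ N ∨ N ≤ K := by
  have hn := kernel_normal K hK
  have hcard := card_kernel hH K hK
  have hKi : K.index = Nat.card H := by
    have h1 := K.card_mul_index
    have h2 := H.card_mul_index
    rw [hcard, ← h2, mul_comm] at h1
    exact Nat.eq_of_mul_eq_mul_right (Nat.pos_of_ne_zero H.index_ne_zero_of_finite) h1
  have hcop := coprime_card_index hH
  have hmemK : ∀ x : L, x ∈ K ↔ (x = 1 ∨ ∀ g : L, x ∉ MulAut.conj g • H) := by
    intro x
    rw [← SetLike.mem_coe, hK]; rfl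
  have hchar : ∀ x : L, x ∈ K ↔ (orderOf x).Coprime (Nat.card H) := by
    intro x
    constructor
    · intro hx
      have h1 : orderOf (⟨x, hx⟩ : K) ∣ Nat.card K := orderOf_dvd_natCard _
      rw [Subgroup.orderOf_mk, hcard] at h1
      exact (Nat.Coprime.coprime_dvd_right h1 hcop).symm
    · intro hx
      rw [hmemK]
      by_cases h1 : x = 1
      · exact Or.inl h1
      · right
        intro g hg
        rw [mem_conj_smul] at hg
        have h2 : orderOf (⟨g⁻¹ * x * g, hg⟩ : H) ∣ Nat.card H := orderOf_dvd_natCard _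
        rw [Subgroup.orderOf_mk] at h2
        have h3 : orderOf (g⁻¹ * x * g) = orderOf x := by
          have := orderOf_injective (MulAut.conj g⁻¹).toMonoidHom (MulAut.conj g⁻¹).injective x
          rw [← this]; simp
        rw [h3] at h2
        have h4 := Nat.Coprime.eq_one_of_dvd hx h2
        exact h1 (orderOf_eq_one_iff.mp h4)
  refine ⟨?_, ?_⟩
  · rw [characteristic_iff_comap_le]
    intro φ x hx
    rw [mem_comap] at hx
    rw [hchar] at hx ⊢
    have : orderOf (φ x) = orderOf x := MulEquiv.orderOf_eq φ x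
    rwa [← this]
  · intro N hN
    by_cases h : N ≤ K
    · exact Or.inr h
    left
    rw [SetLike.not_le_iff_exists] at h
    obtain ⟨y, hyN, hyK⟩ := h
    rw [hmemK] at hyK
    push Not at hyK
    obtain ⟨hy1, g, hg⟩ := hyK
    rw [mem_conj_smul] at hg
    set x := g⁻¹ * y * g with hx
    have hxN : x ∈ N := by
      have := hN.conj_mem y hyN g⁻¹
      simpa [hx] using this
    have hx1 : x ≠ 1 := by
      intro hc
      apply hy1
      have h3 := congrArg (fun z => g * z * g⁻¹) hc
      simpa [hx, mul_assoc] using h3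
    -- map k ↦ x k x⁻¹ k⁻¹ is injective K → K
    let f : K → K := fun k => ⟨x * k * x⁻¹ * (k : L)⁻¹, K.mul_mem (hn.conj_mem _ k.2 x) (K.inv_mem k.2)⟩
    have hf : Function.Injective f := by
      intro a b hab
      have h1 : x * (a : L) * x⁻¹ * (a : L)⁻¹ = x * (b : L) * x⁻¹ * (b : L)⁻¹ := congrArg Subtype.val hab
      have h2 : ((b : L)⁻¹ * a) * x = x * ((b : L)⁻¹ * a) := by
        have h3 : x * (a : L) * x⁻¹ = x * (b : L) * x⁻¹ * (b : L)⁻¹ * a := by
          rw [← h1]; group
        have h4 : (a : L) * x⁻¹ = (b : L) * x⁻¹ * (b : L)⁻¹ * a := by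
          have := congrArg (fun z => x⁻¹ * z) h3
          simpa [mul_assoc] using this
        have h5 : (b : L)⁻¹ * a * x⁻¹ = x⁻¹ * ((b : L)⁻¹ * a) := by
          rw [mul_assoc, h4]; group
        have h6 := congrArg (fun z => x * z * x) h5
        simp only [mul_assoc, inv_mul_cancel, mul_one, mul_inv_cancel_left] at h6
        simp only [mul_assoc]
        exact h6.symm
      have h3 : (b : L)⁻¹ * a ∈ H := mem_of_commute hH hg hx1 h2
      have h4 := kernel_inf K hK (K.mul_mem (K.inv_mem b.2) a.2) h3
      apply Subtype.ext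
      rw [inv_mul_eq_one] at h4
      exact h4.symm
    have hsurj := Finite.surjective_of_injective hf
    intro k hk
    obtain ⟨a, ha⟩ := hsurj ⟨k, hk⟩
    have h1 : x * (a : L) * x⁻¹ * (a : L)⁻¹ = k := congrArg Subtype.val ha
    rw [← h1]
    have : x * (a : L) * x⁻¹ * (a : L)⁻¹ = x * ((a : L) * x⁻¹ * (a : L)⁻¹) := by group
    rw [this]
    exact N.mul_mem hxN (hN.conj_mem _ (N.inv_mem hxN) a)

end Cfsg.Agent.S3383
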