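import Cfsg.Statements.S3430
import Mathlib
import Cfsg.Agent.LibCycListH12

set_option autoImplicit false
open Cfsg

namespace Cfsg.Agent.S3430

open CfsgLib.CycListH12 CfsgLib.CycTabH12

def Goal (q n : ℕ) : Prop := ∃ p : ℕ, p.Prime ∧ p ∣ q ^ n - 1 ∧
  (∀ i : ℕ, 1 ≤ i → i < n → ¬ p ∣ q ^ i - 1) ∧ (n + 1 < p ∨ p ^ 2 ∣ q ^ n - 1)

theorem mkp (q n p : ℕ) (hp : p.Prime) (h1 : p ∣ q ^ n - 1)
    (h2 : ∀ i < n, 1 ≤ i → ¬ p ∣ q ^ i - 1) (h3 : n + 1 < p) : Goal q n :=
  ⟨p, hp, h1, fun i hi hi' => h2 i hi' hi, Or.inl h3⟩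

theorem pow_le_one {N s : ℕ} (hN : N ≠ 0) (h : ∀ p : ℕ, p.Prime → p ∣ N → p = s)
    (h2 : ¬ s ^ 2 ∣ N) : N ≤ s ∨ N = 1 := by
  have h1 := Nat.eq_prime_pow_of_unique_prime_dvd hN (fun {q} hq hqd => h q hq hqd)
  set k := N.primeFactorsList.length
  rcases (show k = 0 ∨ k = 1 ∨ 2 ≤ k by omega) with h3 | h3 | h3
  · right; rw [h1, h3, pow_zero]
  · left; rw [h1, h3, pow_one]
  · exact absurd (by rw [h1]; exact pow_dvd_pow s h3) h2

theorem case_two (q : ℕ) (hq : 2 ≤ q) (h1 : ¬ (∃ s t : ℕ, t ≤ 1 ∧ q + 1 = 2 ^ s * 3 ^ t)) :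
    Goal q 2 := by
  by_contra hcon
  have hfac : q ^ 2 - 1 = (q + 1) * (q - 1) := by
    obtain ⟨r, rfl⟩ : ∃ r, q = r + 1 := ⟨q - 1, by omega⟩
    rw [show r + 1 - 1 = r by omega]
    have : (r + 1) ^ 2 = (r + 1 + 1) * r + 1 := by ring
    rw [this]; omega
  have key : ∀ p, p.Prime → p ∣ q + 1 → p ≠ 2 → p = 3 ∧ ¬ 9 ∣ q + 1 := by
    intro p hp hpd hp2
    have hnp : ¬ p ∣ q - 1 := by
      intro h
      have h3 : p ∣ (q + 1) - (q - 1) := Nat.dvd_sub hpd h
      rw [show q + 1 - (q - 1) = 2 by omega] at h3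
      exact hp2 ((Nat.prime_dvd_prime_iff_eq hp Nat.prime_two).mp h3)
    have hprim : ∀ i : ℕ, 1 ≤ i → i < 2 → ¬ p ∣ q ^ i - 1 := by
      intro i hi hi'
      have : i = 1 := by omega
      subst this
      rw [pow_one]; exact hnp
    have hd : p ∣ q ^ 2 - 1 := by rw [hfac]; exact hpd.mul_right _
    have h5 : ¬ (2 + 1 < p ∨ p ^ 2 ∣ q ^ 2 - 1) := fun h => hcon ⟨p, hp, hd, hprim, h⟩
    push Not at h5
    have hp3 : p = 3 := by
      have := hp.two_le
      omega
    subst hp3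
    refine ⟨rfl, fun h9 => h5.2 ?_⟩
    rw [hfac]
    exact (show 3 ^ 2 ∣ q + 1 from h9).mul_right _
  apply h1
  obtain ⟨s, m, hm, hsm⟩ := Nat.exists_eq_pow_mul_and_not_dvd (show q + 1 ≠ 0 by omega) 2 (by norm_num)
  have hm0 : m ≠ 0 := by rintro rfl; simp at hm
  have hmd : ∀ d, d ∣ m → d ∣ q + 1 := fun d hd => by rw [hsm]; exact hd.mul_left _
  have hu : ∀ {p : ℕ}, p.Prime → p ∣ m → p = 3 := fun {p} hp hpm =>
    (key p hp (hmd p hpm) (by rintro rfl; exact hm hpm)).1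
  have h3 := Nat.eq_prime_pow_of_unique_prime_dvd hm0 hu
  refine ⟨s, m.primeFactorsList.length, ?_, by rw [← h3]; exact hsm⟩
  by_contra hlt
  push Not at hlt
  have h9 : 9 ∣ m := by
    rw [h3]
    exact (show 3 ^ 2 ∣ _ from pow_dvd_pow 3 hlt)
  exact (key 3 Nat.prime_three (hmd 3 ((by norm_num : 3 ∣ 9).trans h9)) (by norm_num)).2 (hmd 9 h9)

theorem case_gt (q n : ℕ) (hq : 2 ≤ q) (hn : 3 ≤ n) (hcon : ¬ Goal q n) :
    P q n ≤ n * (2 * n + 1) := by
  have hN := P_pos q n hq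
  have hdvd := P_dvd q n hq (by omega)
  have key : ∀ p, p.Prime → p ∣ P q n → Prim q n p → p = n + 1 ∧ ¬ p ^ 2 ∣ P q n := by
    intro p hp hpd hprim
    have h5 : ¬ (n + 1 < p ∨ p ^ 2 ∣ q ^ n - 1) := fun h =>
      hcon ⟨p, hp, hpd.trans hdvd, fun i hi hi' => hprim i hi hi', h⟩
    push Not at h5
    have h6 := prim_mod q n p hq (by omega) hp (hpd.trans hdvd) hprim
    have h7 := Nat.le_of_dvd (by have := hp.two_le; omega) h6
    exact ⟨by omega, fun h => h5.2 (h.trans hdvd)⟩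
  rcases nonprim q n hq hn with hall | ⟨r, hr, hrn, hrP, hr2, hoth⟩
  · by_cases hex : ∃ p, p.Prime ∧ p ∣ P q n
    · obtain ⟨p, hp, hpd⟩ := hex
      obtain ⟨h1, h2⟩ := key p hp hpd (hall p hp hpd)
      rw [h1] at h2
      rcases pow_le_one hN.ne' (fun p' hp' hpd' => (key p' hp' hpd' (hall p' hp' hpd')).1) h2 with h | h
      · nlinarith
      · rw [h]; nlinarith
    · push Not at hex
      have : P q n = 1 := by
        by_contra h1
        obtain ⟨p, hp, hpd⟩ := Nat.exists_prime_and_dvd h1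
        exact hex p hp hpd
      rw [this]; nlinarith
  · obtain ⟨m, hm⟩ := hrP
    have hrle : r ≤ n := Nat.le_of_dvd (by omega) hrn
    have hm0 : m ≠ 0 := by rintro rfl; rw [mul_zero] at hm; omega
    have hrm : ¬ r ∣ m := fun h => hr2 (by rw [hm, pow_two]; exact Nat.mul_dvd_mul_left r h)
    have hmP : m ∣ P q n := ⟨r, by rw [hm, mul_comm]⟩
    have hmp : ∀ p, p.Prime → p ∣ m → p = n + 1 ∧ ¬ p ^ 2 ∣ P q n := fun p hp hpm =>
      key p hp (hpm.trans hmP) (hoth p hp (hpm.trans hmP) (by rintro rfl; exact hrm hpm))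
    have hmle : m ≤ n + 1 := by
      by_cases hex : ∃ p, p.Prime ∧ p ∣ m
      · obtain ⟨p, hp, hpd⟩ := hex
        obtain ⟨h1, h2⟩ := hmp p hp hpd
        rw [h1] at h2
        rcases pow_le_one hm0 (fun p' hp' hpd' => (hmp p' hp' hpd').1)
          (fun h => h2 (h.trans hmP)) with h | h
        · exact h
        · omega
      · push Not at hex
        have : m = 1 := by
          by_contra h1
          obtain ⟨p, hp, hpd⟩ := Nat.exists_prime_and_dvd h1
          exact hex p hp hpd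
        omega
    rw [hm]
    calc r * m ≤ n * (n + 1) := Nat.mul_le_mul hrle hmle
      _ ≤ _ := by nlinarith

theorem main (q n : ℕ) (hq : 2 ≤ q) (hn : 3 ≤ n)
    (h2 : ¬ (q = 2 ∧ (n = 4 ∨ n = 6 ∨ n = 10 ∨ n = 12 ∨ n = 18)))
    (h3 : ¬ (q = 3 ∧ (n = 4 ∨ n = 6))) (h4 : ¬ (q = 5 ∧ n = 6)) : Goal q n := by
  by_contra hcon
  have hle := case_gt q n hq hn hcon
  apply hcon
  rcases small_list q n hq hn hle with ⟨rfl, h⟩ | ⟨rfl, h⟩ | ⟨rfl, h⟩ | ⟨rfl, h⟩ | ⟨rfl, h6, h9⟩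
  · simp only [List.mem_cons, List.not_mem_nil, or_false] at h
    rcases h with rfl | rfl | rfl | rfl | rfl | rfl | rfl | rfl | rfl | rfl | rfl | rfl | rfl | rfl | rfl | rfl
    · exact mkp 2 3 7 (by norm_num) (by norm_num) (by decide) (by norm_num)
    · exact absurd ⟨rfl, by norm_num⟩ h2
    · exact mkp 2 5 31 (by norm_num) (by norm_num) (by decide) (by norm_num)
    · exact absurd ⟨rfl, by norm_num⟩ h2
    · exact mkp 2 8 17 (by norm_num) (by norm_num) (by decide) (by norm_num)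
    · exact mkp 2 9 73 (by norm_num) (by norm_num) (by decide) (by norm_num)
    · exact absurd ⟨rfl, by norm_num⟩ h2
    · exact absurd ⟨rfl, by norm_num⟩ h2
    · exact mkp 2 14 43 (by norm_num) (by norm_num) (by decide) (by norm_num)
    · exact mkp 2 15 151 (by norm_num) (by norm_num) (by decide) (by norm_num)
    · exact mkp 2 16 257 (by norm_num) (by norm_num) (by decide +kernel) (by norm_num)
    · exact absurd ⟨rfl, by norm_num⟩ h2
    · exact mkp 2 20 41 (by norm_num) (by norm_num) (by decide +kernel) (by norm_num)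
    · exact mkp 2 22 683 (by norm_num) (by norm_num) (by decide +kernel) (by norm_num)
    · exact mkp 2 24 241 (by norm_num) (by norm_num) (by decide +kernel) (by norm_num)
    · exact mkp 2 30 331 (by norm_num) (by norm_num) (by decide +kernel) (by norm_num)
  · simp only [List.mem_cons, List.not_mem_nil, or_false] at h
    rcases h with rfl | rfl | rfl | rfl | rfl | rfl
    · exact mkp 3 3 13 (by norm_num) (by norm_num) (by decide) (by norm_num)
    · exact absurd ⟨rfl, by norm_num⟩ h3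
    · exact absurd ⟨rfl, by norm_num⟩ h3
    · exact mkp 3 8 41 (by norm_num) (by norm_num) (by decide +kernel) (by norm_num)
    · exact mkp 3 10 61 (by norm_num) (by norm_num) (by decide +kernel) (by norm_num)
    · exact mkp 3 12 73 (by norm_num) (by norm_num) (by decide +kernel) (by norm_num)
  · simp only [List.mem_cons, List.not_mem_nil, or_false] at h
    rcases h with rfl | rfl | rfl | rfl | rfl
    · exact mkp 4 3 7 (by norm_num) (by norm_num) (by decide) (by norm_num)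
    · exact mkp 4 4 17 (by norm_num) (by norm_num) (by decide) (by norm_num)
    · exact mkp 4 6 13 (by norm_num) (by norm_num) (by decide) (by norm_num)
    · exact mkp 4 10 41 (by norm_num) (by norm_num) (by decide +kernel) (by norm_num)
    · exact mkp 4 12 241 (by norm_num) (by norm_num) (by decide +kernel) (by norm_num)
  · simp only [List.mem_cons, List.not_mem_nil, or_false] at h
    rcases h with rfl | rfl
    · exact mkp 5 4 13 (by norm_num) (by norm_num) (by decide) (by norm_num)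
    · exact absurd ⟨rfl, rfl⟩ h4
  · interval_cases q
    · exact mkp 6 6 31 (by norm_num) (by norm_num) (by decide +kernel) (by norm_num)
    · exact mkp 7 6 43 (by norm_num) (by norm_num) (by decide +kernel) (by norm_num)
    · exact mkp 8 6 19 (by norm_num) (by norm_num) (by decide +kernel) (by norm_num)
    · exact mkp 9 6 73 (by norm_num) (by norm_num) (by decide +kernel) (by norm_num)


/-- Let q, n ≥ 2 be integers. Unless (n = 2 and q + 1 = 2^s·3^t for some s ≥ 0 and t ≤ 1), or (q = 2 and n ∈ {4, 6, 10, 12, 18}), or (q = 3 and n ∈ {4, 6}), or (q, n) = (5, 6), there is a prime p dividing q^n − 1 but no q^i − 1 with 1 ≤ i < n (a primitive prime divisor), such that p > n + 1 or p² divides q^n − 1. -/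
theorem result (q n : ℕ) (hq : 2 ≤ q) (hn : 2 ≤ n)
    (h1 : ¬ (n = 2 ∧ ∃ s t : ℕ, t ≤ 1 ∧ q + 1 = 2 ^ s * 3 ^ t))
    (h2 : ¬ (q = 2 ∧ (n = 4 ∨ n = 6 ∨ n = 10 ∨ n = 12 ∨ n = 18)))
    (h3 : ¬ (q = 3 ∧ (n = 4 ∨ n = 6))) (h4 : ¬ (q = 5 ∧ n = 6)) :
    ∃ p : ℕ, p.Prime ∧ p ∣ q ^ n - 1 ∧ (∀ i : ℕ, 1 ≤ i → i < n → ¬ p ∣ q ^ i - 1) ∧ (n + 1 < p ∨ p ^ 2 ∣ q ^ n - 1) := by
  rcases Nat.lt_or_ge n 3 with h | h
  · have hn2 : n = 2 := by omega
    subst hn2
    exact case_two q hq (fun h => h1 ⟨rfl, h⟩)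
  · exact main q n hq h h2 h3 h4

end Cfsg.Agent.S3430
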