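import Cfsg.Statements.S3704
-- import your own Cfsg.Agent.* helpers here

set_option autoImplicit false
open Cfsg

namespace Cfsg.Agent.S3704

open MulAction in
theorem key {G X Y : Type*} [Group G] [MulAction G X] [MulAction G Y] [Fintype X] [Fintype Y]
    (hXY : Fintype.card X = Fintype.card Y)
    (h2 : ∀ x y x' y' : X, x ≠ y → x' ≠ y' → ∃ g : G, g • x = x' ∧ g • y = y')
    (h1 : ∀ x y : X, ∃ g : G, g • x = y)
    (M N : Y → X → ℚ) (hM : ∀ (g : G) y x, M (g • y) (g • x) = M y x)
    (hN : ∀ (g : G) y x, N (g • y) (g • x) = N y x)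
    (hM0 : ∀ y, ∑ x, M y x = 0) (hN0 : ∀ y, ∑ x, N y x = 0) (hMne : ∃ y x, M y x ≠ 0) :
    ∃ c : ℚ, ∀ y x, N y x = c * M y x := by
  classical
  obtain ⟨y₀, x₀, hyx⟩ := hMne
  have hcol : ∀ (L : Y → X → ℚ), (∀ (g : G) y x, L (g • y) (g • x) = L y x) →
      (∀ y, ∑ x, L y x = 0) → ∀ x, ∑ y, L y x = 0 := by
    intro L hL hL0 x
    have hconst : ∀ x' : X, ∑ y, L y x' = ∑ y, L y x := by
      intro x'
      obtain ⟨g, hg⟩ := h1 x x'
      rw [← hg]
      rw [← Equiv.sum_comp (MulAction.toPerm g) (fun y => L y (g • x))]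
      apply Finset.sum_congr rfl
      intro y _
      exact hL g y x
    have hs : ∑ x' : X, ∑ y, L y x' = 0 := by
      rw [Finset.sum_comm]
      apply Finset.sum_eq_zero
      intro y _
      exact hL0 y
    rw [Finset.sum_congr rfl (fun x' _ => hconst x'), Finset.sum_const, nsmul_eq_mul] at hs
    have hpos : ((Finset.univ : Finset X).card : ℚ) ≠ 0 := by
      have : 0 < (Finset.univ : Finset X).card := Finset.card_pos.mpr ⟨x₀, Finset.mem_univ _⟩
      exact_mod_cast this.ne'
    exact (mul_eq_zero.mp hs).resolve_left hpos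
  -- the form
  have hform : ∀ (L : Y → X → ℚ), (∀ (g : G) y x, L (g • y) (g • x) = L y x) →
      ∀ (g : G) x x', ∑ y, L y (g • x) * M y (g • x') = ∑ y, L y x * M y x' := by
    intro L hL g x x'
    rw [← Equiv.sum_comp (MulAction.toPerm g) (fun y => L y (g • x) * M y (g • x'))]
    apply Finset.sum_congr rfl
    intro y _
    change L (g • y) (g • x) * M (g • y) (g • x') = _
    rw [hL, hM]
  -- second point
  obtain ⟨x₁, hx₁⟩ : ∃ x₁, x₁ ≠ x₀ := by
    by_contra hc
    push Not at hc
    have := hM0 y₀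
    rw [Finset.sum_eq_single x₀ (fun b _ hb => absurd (hc b) hb) (fun h => absurd (Finset.mem_univ _) h)] at this
    exact hyx this
  have hval : ∀ (L : Y → X → ℚ), (∀ (g : G) y x, L (g • y) (g • x) = L y x) →
      (∀ y, ∑ x, L y x = 0) →
      ∃ α β : ℚ, (∀ x, ∑ y, L y x * M y x = α) ∧ (∀ x x', x ≠ x' → ∑ y, L y x * M y x' = β) ∧
        α + ((Fintype.card X : ℚ) - 1) * β = 0 := by
    intro L hL hL0
    have ha : ∀ x, ∑ y, L y x * M y x = ∑ y, L y x₀ * M y x₀ := by
      intro x
      obtain ⟨g, hg⟩ := h1 x₀ x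
      rw [← hg, hform L hL g]
    have hb : ∀ x x', x ≠ x' → ∑ y, L y x * M y x' = ∑ y, L y x₀ * M y x₁ := by
      intro x x' hne
      obtain ⟨g, hg, hg'⟩ := h2 x₀ x₁ x x' hx₁.symm hne
      rw [← hg, ← hg', hform L hL g]
    refine ⟨_, _, ha, hb, ?_⟩
    have hs : ∑ x' : X, ∑ y, L y x₀ * M y x' = 0 := by
      rw [Finset.sum_comm]
      apply Finset.sum_eq_zero
      intro y _
      rw [← Finset.mul_sum, hM0, mul_zero]
    rw [← Finset.add_sum_erase _ _ (Finset.mem_univ x₀)] at hs
    rw [Finset.sum_congr rfl (fun x' hx' => hb x₀ x' (Finset.ne_of_mem_erase hx').symm)] at hs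
    rw [Finset.sum_const, Finset.card_erase_of_mem (Finset.mem_univ _), nsmul_eq_mul,
      Finset.card_univ, Nat.cast_sub (Fintype.card_pos_iff.mpr ⟨x₀⟩)] at hs
    simpa using hs
  obtain ⟨α, β, hα, hβ, hαβ⟩ := hval M hM hM0
  obtain ⟨γ, δ, hγ, hδ, hγδ⟩ := hval N hN hN0
  have hαpos : 0 < α := by
    rw [← hα x₀]
    apply Finset.sum_pos' (fun y _ => mul_self_nonneg _)
    exact ⟨y₀, Finset.mem_univ _, mul_self_pos.mpr hyx⟩
  have hn2 : (1 : ℚ) < Fintype.card X := by
    have : 1 < Fintype.card X := Fintype.one_lt_card_iff.mpr ⟨x₁, x₀, hx₁⟩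
    exact_mod_cast this
  have hβneg : β < 0 := by
    by_contra hc
    push Not at hc
    have : 0 ≤ ((Fintype.card X : ℚ) - 1) * β := mul_nonneg (by linarith) hc
    linarith
  have hne : α - β ≠ 0 := ne_of_gt (by linarith)
  set c := γ / α with hc
  refine ⟨c, ?_⟩
  have hcα : c * α = γ := by rw [hc]; field_simp
  have hcβ : c * β = δ := by
    have h3 : ((Fintype.card X : ℚ) - 1) * (c * β - δ) = 0 := by
      have : ((Fintype.card X : ℚ) - 1) * (c * β - δ) =
        c * (((Fintype.card X : ℚ) - 1) * β) - ((Fintype.card X : ℚ) - 1) * δ := by ring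
      rw [this]
      have e1 : ((Fintype.card X : ℚ) - 1) * β = -α := by linarith
      have e2 : ((Fintype.card X : ℚ) - 1) * δ = -γ := by linarith
      rw [e1, e2]; linarith
    have h4 : (Fintype.card X : ℚ) - 1 ≠ 0 := ne_of_gt (by linarith)
    have := (mul_eq_zero.mp h3).resolve_left h4
    linarith
  -- D = N - c M is orthogonal to the columns of M
  have hD1 : ∀ x x', ∑ y, (N y x - c * M y x) * M y x' = 0 := by
    intro x x'
    have : ∑ y, (N y x - c * M y x) * M y x' = ∑ y, N y x * M y x' - c * ∑ y, M y x * M y x' := by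
      rw [Finset.mul_sum, ← Finset.sum_sub_distrib]
      apply Finset.sum_congr rfl
      intro y _; ring
    rw [this]
    by_cases hxx : x = x'
    · subst hxx
      rw [hγ, hα, hcα, sub_self]
    · rw [hδ x x' hxx, hβ x x' hxx, hcβ, sub_self]
  have hD2 : ∀ x, ∑ y, (N y x - c * M y x) = 0 := by
    intro x
    rw [Finset.sum_sub_distrib, ← Finset.mul_sum, hcol N hN hN0, hcol M hM hM0, mul_zero, sub_zero]
  let P : (X → ℚ) →ₗ[ℚ] (Y → ℚ) :=
    { toFun := fun v y => ∑ x', (M y x' + 1) * v x'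
      map_add' := by
        intro v w; ext y
        simp only [Pi.add_apply, mul_add, Finset.sum_add_distrib]
      map_smul' := by
        intro r v; ext y
        simp only [Pi.smul_apply, smul_eq_mul, RingHom.id_apply, Finset.mul_sum]
        apply Finset.sum_congr rfl
        intro x _; ring }
  have hPapp : ∀ v y, P v y = ∑ x', (M y x' + 1) * v x' := fun _ _ => rfl
  have hPinj : Function.Injective P := by
    rw [← LinearMap.ker_eq_bot, LinearMap.ker_eq_bot']
    intro v hv
    have hv' : ∀ y, ∑ x', (M y x' + 1) * v x' = 0 := fun y => by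
      rw [← hPapp, hv]; rfl
    have hsum : ∑ x', v x' = 0 := by
      have h5 : ∑ y : Y, ∑ x', (M y x' + 1) * v x' = 0 := Finset.sum_eq_zero (fun y _ => hv' y)
      rw [Finset.sum_comm] at h5
      have h6 : ∀ x', ∑ y : Y, (M y x' + 1) * v x' = (Fintype.card Y : ℚ) * v x' := by
        intro x'
        rw [← Finset.sum_mul, Finset.sum_add_distrib, hcol M hM hM0, zero_add]
        simp
      rw [Finset.sum_congr rfl (fun x' _ => h6 x'), ← Finset.mul_sum] at h5
      have hY : (Fintype.card Y : ℚ) ≠ 0 := by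
        have : 0 < Fintype.card Y := Fintype.card_pos_iff.mpr ⟨y₀⟩
        exact_mod_cast this.ne'
      exact (mul_eq_zero.mp h5).resolve_left hY
    have hMv : ∀ y, ∑ x', M y x' * v x' = 0 := by
      intro y
      have := hv' y
      simp only [add_mul, one_mul, Finset.sum_add_distrib] at this
      rw [hsum, add_zero] at this
      exact this
    ext x
    have h7 : ∑ x', (∑ y, M y x * M y x') * v x' = 0 := by
      have : ∑ x', (∑ y, M y x * M y x') * v x' = ∑ y, M y x * ∑ x', M y x' * v x' := by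
        simp only [Finset.sum_mul, Finset.mul_sum]
        rw [Finset.sum_comm]
        apply Finset.sum_congr rfl
        intro y _
        apply Finset.sum_congr rfl
        intro x' _
        ring
      rw [this]
      apply Finset.sum_eq_zero
      intro y _
      rw [hMv, mul_zero]
    rw [← Finset.add_sum_erase _ _ (Finset.mem_univ x)] at h7 hsum
    have h7' : ∑ x' ∈ Finset.univ.erase x, (∑ y, M y x * M y x') * v x' =
        ∑ x' ∈ Finset.univ.erase x, β * v x' :=
      Finset.sum_congr rfl (fun x' hx' => by rw [hβ x x' (Finset.ne_of_mem_erase hx').symm])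
    rw [h7', hα x, ← Finset.mul_sum] at h7
    have h8 : ∑ i ∈ Finset.univ.erase x, v i = - v x := by linarith
    rw [h8] at h7
    have h9 : (α - β) * v x = 0 := by linarith
    exact (mul_eq_zero.mp h9).resolve_left hne
  have hPsurj : Function.Surjective P := by
    apply (LinearMap.injective_iff_surjective_of_finrank_eq_finrank ?_).mp hPinj
    simp [hXY]
  intro y x
  obtain ⟨v, hv⟩ := hPsurj (Pi.single y 1)
  have h10 : ∑ y', (N y' x - c * M y' x) * P v y' = 0 := by
    simp only [hPapp, Finset.mul_sum]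
    rw [Finset.sum_comm]
    apply Finset.sum_eq_zero
    intro x' _
    have : ∀ y', (N y' x - c * M y' x) * ((M y' x' + 1) * v x') =
      ((N y' x - c * M y' x) * M y' x' + (N y' x - c * M y' x)) * v x' := by intro y'; ring
    rw [Finset.sum_congr rfl (fun y' _ => this y'), ← Finset.sum_mul, Finset.sum_add_distrib,
      hD1, hD2, add_zero, zero_mul]
  rw [hv, Finset.sum_eq_single y (fun b _ hb => by rw [Pi.single_eq_of_ne hb, mul_zero])
    (fun h => absurd (Finset.mem_univ _) h), Pi.single_eq_same, mul_one] at h10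
  linarith


/-- Let G be a finite group acting faithfully and 2-transitively on a finite set Ω of size n, and let H be a subgroup of index n in G which is not transitive on Ω and fixes no point of Ω. Then H has exactly two orbits on Ω. -/
theorem result {G Ω : Type*} [Group G] [Finite G] [MulAction G Ω] [FaithfulSMul G Ω] [Finite Ω] (h2 : MulAction.IsMultiplyPretransitive G Ω 2) (H : Subgroup G) (hidx : H.index = Nat.card Ω) (hnt : ¬ MulAction.IsPretransitive H Ω) (hfix : ∀ a : Ω, ∃ h : H, h • a ≠ a) : Nat.card (MulAction.orbitRel.Quotient H Ω) = 2 := by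
  classical
  have hfO : Fintype Ω := Fintype.ofFinite Ω
  have hfY : Fintype (G ⧸ H) := Fintype.ofFinite _
  have hfQ : Fintype (MulAction.orbitRel.Quotient H Ω) := Fintype.ofFinite _
  have hNe : Nonempty Ω := by
    by_contra hc
    rw [not_nonempty_iff] at hc
    rw [Nat.card_of_isEmpty] at hidx
    exact Subgroup.index_ne_zero_of_finite hidx
  have h2t : ∀ x y x' y' : Ω, x ≠ y → x' ≠ y' → ∃ g : G, g • x = x' ∧ g • y = y' := by
    intro x y x' y' hxy hxy'
    rw [MulAction.is_two_pretransitive_iff] at h2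
    exact h2 hxy hxy'
  have h1t : ∀ x y : Ω, ∃ g : G, g • x = y := by
    intro x y
    have hnt1 : ∃ z, z ≠ x := by
      obtain ⟨h, hh⟩ := hfix x
      exact ⟨h • x, hh⟩
    obtain ⟨z, hz⟩ := hnt1
    by_cases hyz : y = z
    · obtain ⟨g, hg, _⟩ := h2t x z y x hz.symm (by rw [hyz]; exact hz)
      exact ⟨g, hg⟩
    · obtain ⟨g, hg, _⟩ := h2t x z y z hz.symm hyz
      exact ⟨g, hg⟩
  have hlow : 2 ≤ Nat.card (MulAction.orbitRel.Quotient H Ω) := by
    by_contra hc
    apply hnt
    rw [MulAction.pretransitive_iff_subsingleton_quotient]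
    exact Finite.card_le_one_iff_subsingleton.mp (by omega)
  by_contra hcon
  have h3 : 2 < Fintype.card (MulAction.orbitRel.Quotient H Ω) := by
    rw [← Nat.card_eq_fintype_card]; omega
  rw [Fintype.two_lt_card_iff] at h3
  obtain ⟨qa, qb, qc, hab, hac, hbc⟩ := h3
  obtain ⟨a, rfl⟩ := Quotient.mk''_surjective qa
  obtain ⟨b, rfl⟩ := Quotient.mk''_surjective qb
  obtain ⟨c, rfl⟩ := Quotient.mk''_surjective qc
  let E : Ω → (G ⧸ H) → Ω → Prop := fun a q x => ∃ k : G, (k : G ⧸ H) = q ∧ k • a = x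
  have hEinv : ∀ a (g : G) q x, E a (g • q) (g • x) ↔ E a q x := by
    intro a g q x
    constructor
    · rintro ⟨k, hk, hkx⟩
      refine ⟨g⁻¹ * k, ?_, ?_⟩
      · have : ((g⁻¹ * k : G) : G ⧸ H) = g⁻¹ • (k : G ⧸ H) := rfl
        rw [this, hk, inv_smul_smul]
      · rw [mul_smul, hkx, inv_smul_smul]
    · rintro ⟨k, hk, hkx⟩
      refine ⟨g * k, ?_, ?_⟩
      · have : ((g * k : G) : G ⧸ H) = g • (k : G ⧸ H) := rfl
        rw [this, hk]
      · rw [mul_smul, hkx]
  have hEdis : ∀ a b q x, E a q x → E b q x →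
      (Quotient.mk'' a : MulAction.orbitRel.Quotient H Ω) = Quotient.mk'' b := by
    rintro a b q x ⟨k, hk, hkx⟩ ⟨l, hl, hlx⟩
    rw [Quotient.eq'', MulAction.orbitRel_apply]
    have hmem : k⁻¹ * l ∈ H := by
      rw [← QuotientGroup.eq, hk, hl]
    refine ⟨⟨k⁻¹ * l, hmem⟩, ?_⟩
    change (k⁻¹ * l) • b = a
    rw [mul_smul, hlx, ← hkx, inv_smul_smul]
  let e : Ω → (G ⧸ H) → Ω → ℚ := fun a q x => if E a q x then 1 else 0
  have heinv : ∀ a (g : G) q x, e a (g • q) (g • x) = e a q x := by
    intro a g q x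
    simp only [e, hEinv]
  have hrow : ∀ a, ∃ r : ℚ, r ≠ 0 ∧ ∀ q, ∑ x, e a q x = r := by
    intro a
    refine ⟨∑ x, e a ((1 : G) : G ⧸ H) x, ?_, ?_⟩
    · apply ne_of_gt
      apply Finset.sum_pos'
      · intro x _
        simp only [e]; split_ifs <;> norm_num
      · refine ⟨a, Finset.mem_univ _, ?_⟩
        have : E a ((1 : G) : G ⧸ H) a := ⟨1, rfl, one_smul _ _⟩
        simp only [e, if_pos this]; norm_num
    · intro q
      obtain ⟨g, rfl⟩ := QuotientGroup.mk_surjective q
      rw [← Equiv.sum_comp (MulAction.toPerm g) (fun x => e a (g : G ⧸ H) x)]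
      apply Finset.sum_congr rfl
      intro x _
      have : ((g : G) : G ⧸ H) = g • ((1 : G) : G ⧸ H) := by
        change _ = ((g * 1 : G) : G ⧸ H)
        rw [mul_one]
      rw [this]
      exact heinv a g _ x
  obtain ⟨ra, hra, hra'⟩ := hrow a
  obtain ⟨rb, hrb, hrb'⟩ := hrow b
  obtain ⟨rc, hrc, hrc'⟩ := hrow c
  have hEa : E a ((1 : G) : G ⧸ H) a := ⟨1, rfl, one_smul _ _⟩
  have hEc : E c ((1 : G) : G ⧸ H) c := ⟨1, rfl, one_smul _ _⟩
  have hba : ¬ E b ((1 : G) : G ⧸ H) a := fun h => hab (hEdis a b _ _ hEa h)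
  have hac' : ¬ E a ((1 : G) : G ⧸ H) c := fun h => hac (hEdis a c _ _ h hEc)
  have hbc' : ¬ E b ((1 : G) : G ⧸ H) c := fun h => hbc (hEdis b c _ _ h hEc)
  obtain ⟨t, ht⟩ := key (G := G) (X := Ω) (Y := G ⧸ H)
    (by rw [← Nat.card_eq_fintype_card, ← Nat.card_eq_fintype_card]; exact hidx.symm) h2t h1t
    (fun q x => rb * e a q x - ra * e b q x) (fun q x => rc * e a q x - ra * e c q x)
    (fun g q x => by simp only [heinv]) (fun g q x => by simp only [heinv])
    (fun q => by rw [Finset.sum_sub_distrib, ← Finset.mul_sum, ← Finset.mul_sum, hra', hrb']; ring)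
    (fun q => by rw [Finset.sum_sub_distrib, ← Finset.mul_sum, ← Finset.mul_sum, hra', hrc']; ring)
    ⟨((1 : G) : G ⧸ H), a, by
      simp only [e, if_pos hEa, if_neg hba]
      simpa using hrb⟩
  have := ht ((1 : G) : G ⧸ H) c
  simp only [e, if_pos hEc, if_neg hac', if_neg hbc'] at this
  apply hra
  linarith

end Cfsg.Agent.S3704
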