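import Cfsg.Statements.S3733

set_option autoImplicit false
open Cfsg

namespace Cfsg.Agent.S3733

/-- Let A and V be subgroups of a finite group with V abelian and nontrivial and A normalizing V. Suppose a nonempty finite family of proper subgroups of A partitions A: every non-identity element of A lies in exactly one member. If the number of members minus one is coprime to the order of V, then some member B of the family has a non-identity fixed point on V, that is V ∩ C(B) ≠ 1. -/
theorem result {G : Type*} [Group G] [Finite G] (A V : Subgroup G) (hVab : IsMulCommutative V) (hV : V ≠ ⊥) (hAV : A ≤ Subgroup.normalizer (V : Set G)) (𝒜 : Finset (Subgroup G)) (hne : 𝒜.Nonempty) (hprop : ∀ B ∈ 𝒜, B < A) (hpart : ∀ a ∈ A, a ≠ 1 → ∃! B, B ∈ 𝒜 ∧ a ∈ B) (hk : (𝒜.card - 1).Coprime (Nat.card V)) : ∃ B ∈ 𝒜, V ⊓ Subgroup.centralizer (B : Set G) ≠ ⊥ := by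
  classical
  by_contra hcon
  push Not at hcon
  letI : CommGroup V := { (inferInstance : Group V) with
    mul_comm := fun a b => hVab.is_comm.comm a b }
  have hmem : ∀ a ∈ A, ∀ v ∈ V, a * v * a⁻¹ ∈ V := fun a ha v hv =>
    (Subgroup.mem_normalizer_iff.1 (hAV ha) v).1 hv
  obtain ⟨v, hvV, hv1⟩ := (Subgroup.ne_bot_iff_exists_ne_one.1 hV : ∃ v : V, v ≠ 1) |> fun ⟨v, hv⟩ =>
    (⟨v, v.2, fun h => hv (Subtype.ext h)⟩ : ∃ v : G, v ∈ V ∧ v ≠ 1)
  let f : A → V := fun a => ⟨a * v * (a : G)⁻¹, hmem a a.2 v hvV⟩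
  haveI : Fintype A := Fintype.ofFinite _
  -- norms over subgroups of A
  have hnorm : ∀ B : Subgroup G, B ≤ A → V ⊓ Subgroup.centralizer (B : Set G) = ⊥ →
      ∏ a ∈ Finset.univ.filter (fun a : A => (a : G) ∈ B), f a = 1 := by
    intro B hB hVB
    set w : V := ∏ a ∈ Finset.univ.filter (fun a : A => (a : G) ∈ B), f a with hw
    have h1 : (w : G) ∈ V ⊓ Subgroup.centralizer (B : Set G) := by
      refine ⟨w.2, ?_⟩
      show (w : G) ∈ Subgroup.centralizer (B : Set G)
      rw [Subgroup.mem_centralizer_iff]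
      intro b hb
      let φ : V →* V := 
        { toFun := fun x => ⟨b * x * b⁻¹, hmem b (hB hb) x x.2⟩
          map_one' := Subtype.ext (by simp)
          map_mul' := fun x y => Subtype.ext (by simp) }
      have h2 : φ w = w := by
        rw [hw, map_prod]
        refine Finset.prod_bij (fun a _ => (⟨b, hB hb⟩ : A) * a) ?_ ?_ ?_ ?_
        · intro a ha
          rw [Finset.mem_filter] at ha ⊢
          exact ⟨Finset.mem_univ _, B.mul_mem hb ha.2⟩
        · intro a _ a' _ h
          exact mul_left_cancel h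
        · intro a ha
          rw [Finset.mem_filter] at ha
          refine ⟨(⟨b, hB hb⟩ : A)⁻¹ * a, ?_, by simp⟩
          rw [Finset.mem_filter]
          exact ⟨Finset.mem_univ _, B.mul_mem (B.inv_mem hb) ha.2⟩
        · intro a _
          apply Subtype.ext
          show b * ((a : G) * v * (a : G)⁻¹) * b⁻¹ = (b * (a : G)) * v * (b * (a : G))⁻¹
          group
      have h3 : b * (w : G) * b⁻¹ = w := congrArg Subtype.val h2
      rw [mul_inv_eq_iff_eq_mul] at h3
      exact h3
    rw [hVB, Subgroup.mem_bot] at h1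
    exact Subtype.ext h1
  have hA : V ⊓ Subgroup.centralizer (A : Set G) = ⊥ := by
    obtain ⟨B, hB⟩ := hne
    rw [eq_bot_iff, ← hcon B hB]
    exact inf_le_inf_left _ (Subgroup.centralizer_le (SetLike.coe_subset_coe.2 (hprop B hB).le))
  have h1 := hnorm A le_rfl hA
  have hfull : (Finset.univ.filter (fun a : A => (a : G) ∈ A)) = Finset.univ :=
    Finset.filter_true_of_mem fun a _ => a.2
  rw [hfull] at h1
  have h2 : ∏ B ∈ 𝒜, ∏ a ∈ Finset.univ.filter (fun a : A => (a : G) ∈ B), f a = 1 :=
    Finset.prod_eq_one fun B hB => hnorm B (hprop B hB).le (hcon B hB)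
  have h3 : ∏ B ∈ 𝒜, ∏ a ∈ Finset.univ.filter (fun a : A => (a : G) ∈ B), f a =
      f 1 ^ 𝒜.card * ∏ a ∈ Finset.univ.erase (1 : A), f a := by
    have e1 : ∀ B ∈ 𝒜, ∏ a ∈ Finset.univ.filter (fun a : A => (a : G) ∈ B), f a =
        f 1 * ∏ a ∈ (Finset.univ.erase (1 : A)).filter (fun a : A => (a : G) ∈ B), f a := by
      intro B _
      have : Finset.univ.filter (fun a : A => (a : G) ∈ B) = insert 1 ((Finset.univ.erase (1 : A)).filter (fun a : A => (a : G) ∈ B)) := by
        ext a
        simp only [Finset.mem_filter, Finset.mem_univ, true_and, Finset.mem_insert, Finset.mem_erase, and_true]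
        constructor
        · intro h
          by_cases ha : a = 1
          · left; exact ha
          · right; exact ⟨ha, h⟩
        · rintro (rfl | h)
          · exact B.one_mem
          · exact h.2
      rw [this, Finset.prod_insert]
      simp
    rw [Finset.prod_congr rfl e1, Finset.prod_mul_distrib, Finset.prod_const]
    congr 1
    rw [← Finset.prod_biUnion]
    · refine Finset.prod_congr ?_ fun _ _ => rfl
      ext a
      simp only [Finset.mem_biUnion, Finset.mem_filter, Finset.mem_erase, Finset.mem_univ, and_true, ne_eq]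
      constructor
      · rintro ⟨B, _, h, _⟩; exact h
      · intro h
        obtain ⟨B, ⟨hB, haB⟩, _⟩ := hpart a a.2 (fun h' => h (Subtype.ext h'))
        exact ⟨B, hB, h, haB⟩
    · intro B hB C hC hBC
      rw [Function.onFun, Finset.disjoint_left]
      intro a haB haC
      simp only [Finset.mem_filter, Finset.mem_erase, Finset.mem_univ, and_true, ne_eq] at haB haC
      obtain ⟨D, _, hD⟩ := hpart a a.2 (fun h' => haB.1 (Subtype.ext h'))
      exact hBC ((hD B ⟨hB, haB.2⟩).trans (hD C ⟨hC, haC.2⟩).symm)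
  have h4 : ∏ a : A, f a = f 1 * ∏ a ∈ Finset.univ.erase (1 : A), f a := by
    rw [Finset.mul_prod_erase _ _ (Finset.mem_univ _)]
  have hcpos : 1 ≤ 𝒜.card := Finset.card_pos.2 hne
  have h5 : (f 1) ^ (𝒜.card - 1) = 1 := by
    rw [h2] at h3
    rw [h1] at h4
    have h6 : f 1 ^ 𝒜.card = f 1 ^ (𝒜.card - 1) * f 1 := by
      rw [← pow_succ, Nat.sub_add_cancel hcpos]
    rw [h6, mul_assoc, ← h4, mul_one] at h3
    exact h3.symm
  have h6 : f 1 = ⟨v, hvV⟩ := Subtype.ext (by simp [f])
  rw [h6] at h5
  have h7 := orderOf_dvd_of_pow_eq_one h5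
  have h8 : orderOf (⟨v, hvV⟩ : V) ∣ Nat.card V := orderOf_dvd_natCard _
  have h9 := Nat.eq_one_of_dvd_coprimes hk h7 h8
  rw [orderOf_eq_one_iff] at h9
  exact hv1 (congrArg Subtype.val h9)

end Cfsg.Agent.S3733
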