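import Cfsg.Statements.S3734
import Cfsg.Agent.LibBGCop
import Cfsg.Agent.LibCoprime2

set_option autoImplicit false
open Cfsg

namespace Cfsg.Agent.S3734

open Cfsg CfsgLib.BGPi
open scoped commutatorElement

/-- Let A and G be subgroups of a finite group with A abelian, A normalizing G and the orders of A and G coprime. Then G is generated by the fixed-point subgroups C_G(B) of those subgroups B of A for which A/B is cyclic (that is, A = ⟨B, a⟩ for some a), and [G, A] is generated by the commutator subgroups [C_G(B), A] over the same subgroups B. -/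
theorem result {X : Type*} [Group X] [Finite X] (A G : Subgroup X) (hAab : IsMulCommutative A) (hAG : A ≤ Subgroup.normalizer (G : Set X)) (hcop : (Nat.card A).Coprime (Nat.card G)) : (⨆ B ∈ {B : Subgroup X | B ≤ A ∧ ∃ a ∈ A, B ⊔ Subgroup.zpowers a = A}, G ⊓ Subgroup.centralizer (B : Set X)) = G ∧ (⨆ B ∈ {B : Subgroup X | B ≤ A ∧ ∃ a ∈ A, B ⊔ Subgroup.zpowers a = A}, ⁅G ⊓ Subgroup.centralizer (B : Set X), A⁆) = ⁅G, A⁆ := by
  classical
  haveI := hAab
  have hset : {B : Subgroup X | B ≤ A ∧ ∃ a ∈ A, B ⊔ Subgroup.zpowers a = A} =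
      {B : Subgroup X | B ≤ A ∧ ∃ a ∈ A, A ≤ B ⊔ Subgroup.zpowers a} := by
    ext B
    constructor
    · rintro ⟨h1, a, ha, h2⟩
      exact ⟨h1, a, ha, h2.ge⟩
    · rintro ⟨h1, a, ha, h2⟩
      exact ⟨h1, a, ha, le_antisymm (sup_le h1 (Subgroup.zpowers_le.2 ha)) h2⟩
  rw [hset]
  set S := {B : Subgroup X | B ≤ A ∧ ∃ a ∈ A, A ≤ B ⊔ Subgroup.zpowers a} with hS
  have hgen : (⨆ B ∈ S, G ⊓ 𝓒(B)) = G := CfsgLib.Coprime2.generation_cyclic_quotient hAG hcop
  refine ⟨hgen, ?_⟩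
  have hAs : Group.IsSolvable A := CfsgLib.Coprime2.isSolvable_of_comm A
  have hAA : A ≤ 𝓒(A) := by
    intro x hx
    rw [mem_cz]
    intro y hy
    exact congrArg Subtype.val (hAab.is_comm.comm (⟨y, hy⟩ : A) ⟨x, hx⟩)
  apply le_antisymm
  · apply iSup₂_le
    intro B hB
    exact Subgroup.commutator_mono inf_le_left le_rfl
  · set K := ⨆ B ∈ S, ⁅G ⊓ 𝓒(B), A⁆ with hK
    have hAD : ∀ B ∈ S, A ≤ 𝓝(G ⊓ 𝓒(B)) := by
      intro B hB
      exact le_nz_inf hAG (le_nz_cz (le_nz_of_le_cz (hAA.trans (cz_anti hB.1))))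
    have hKs : K = sSup {D | ∃ B ∈ S, D = ⁅G ⊓ 𝓒(B), A⁆} := by
      apply le_antisymm
      · exact iSup₂_le fun B hB => le_sSup ⟨B, hB, rfl⟩
      · apply sSup_le
        rintro D ⟨B, hB, rfl⟩
        exact le_iSup₂_of_le B hB le_rfl
    have hAK : A ≤ 𝓝(K) := by
      rw [hKs]
      apply le_nz_sSup
      rintro D ⟨B, hB, rfl⟩
      exact right_le_nz_comm _ _
    have hCK : G ⊓ 𝓒(A) ≤ 𝓝(K) := by
      rw [hKs]
      apply le_nz_sSup
      rintro D ⟨B, hB, rfl⟩
      exact (inf_le_inf_left G (cz_anti hB.1)).trans (left_le_nz_comm _ _)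
    have hG : G ≤ K ⊔ (G ⊓ 𝓒(A)) := by
      conv_lhs => rw [← hgen]
      apply iSup₂_le
      intro B hB
      have h1 := CfsgLib.Coprime.commutator_sup_centralizer (hAD B hB)
        (cop_le hcop le_rfl inf_le_left) (Or.inl hAs)
      rw [← h1]
      apply sup_le
      · exact le_sup_of_le_left (le_iSup₂_of_le B hB le_rfl)
      · exact le_sup_of_le_right (inf_le_inf_right _ inf_le_left)
    rw [Subgroup.commutator_le]
    intro g hg a ha
    obtain ⟨k, hk, c, hc, rfl⟩ := (mem_sup_of_nz' hCK).1 (hG hg)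
    have h2 : ⁅c, a⁆ = 1 := by
      rw [commutatorElement_eq_one_iff_mul_comm]
      exact (hc.2 a ha).symm
    have e : ⁅k * c, a⁆ = (k * ⁅c, a⁆ * k⁻¹) * ⁅k, a⁆ := by
      simp only [commutatorElement_def]; group
    rw [e, h2, mul_one, mul_inv_cancel, one_mul]
    exact comm_le_left hAK (Subgroup.commutator_mem_commutator hk ha)


end Cfsg.Agent.S3734
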