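import Cfsg.Statements.S3735
import Cfsg.Agent.LibBGPi

set_option autoImplicit false
open Cfsg

namespace Cfsg.Agent.S3735

open Cfsg CfsgLib.BGPi

/-- Clifford's Theorem for actions on finite abelian groups, first part. Let H and V be subgroups of a finite group with V abelian and H normalizing V, and let A be a normal subgroup of H. If every H-invariant subgroup of V has an H-invariant complement in V, then every A-invariant subgroup of V has an A-invariant complement in V. -/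
theorem result {G : Type*} [Group G] [Finite G] (H A V : Subgroup G) (hVab : IsMulCommutative V) (hHV : H ≤ Subgroup.normalizer (V : Set G)) (hAH : A ≤ H) (hAn : H ≤ Subgroup.normalizer (A : Set G)) (hss : ∀ U : Subgroup G, U ≤ V → H ≤ Subgroup.normalizer (U : Set G) → ∃ W : Subgroup G, W ≤ V ∧ H ≤ Subgroup.normalizer (W : Set G) ∧ U ⊓ W = ⊥ ∧ U ⊔ W = V) (U : Subgroup G) (hUV : U ≤ V) (hAU : A ≤ Subgroup.normalizer (U : Set G)) : ∃ W : Subgroup G, W ≤ V ∧ A ≤ Subgroup.normalizer (W : Set G) ∧ U ⊓ W = ⊥ ∧ U ⊔ W = V := by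
  classical
  have hcomm : ∀ {P Q : Subgroup G}, P ≤ V → Q ≤ V → P ≤ 𝓝(Q) := by
    intro P Q hP hQ
    apply le_nz_of_le_cz
    intro x hx
    rw [mem_cz]
    intro y hy
    exact congrArg Subtype.val (hVab.is_comm.comm (⟨y, hQ hy⟩ : V) ⟨x, hP hx⟩)
  set T : Set (Subgroup G) := {M | M ≤ V ∧ A ≤ 𝓝(M) ∧ M ≠ ⊥ ∧ ∀ M' : Subgroup G, M' ≤ M → A ≤ 𝓝(M') → M' = ⊥ ∨ M' = M} with hT
  have hex : ∀ W : Subgroup G, W ≤ V → A ≤ 𝓝(W) → W ≠ ⊥ → ∃ M ∈ T, M ≤ W := by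
    intro W hWV hAW hW
    obtain ⟨M, hM⟩ := Set.Finite.exists_minimal (s := {M : Subgroup G | A ≤ 𝓝(M) ∧ M ≠ ⊥ ∧ M ≤ W})
      (Set.toFinite _) ⟨W, hAW, hW, le_rfl⟩
    refine ⟨M, ⟨hM.1.2.2.trans hWV, hM.1.1, hM.1.2.1, ?_⟩, hM.1.2.2⟩
    intro M' hM' hA'
    by_cases h : M' = ⊥
    · exact Or.inl h
    · exact Or.inr (le_antisymm hM' (hM.2 ⟨hA', h, hM'.trans hM.1.2.2⟩ hM'))
  set S := sSup T with hS
  have hSV : S ≤ V := sSup_le fun M hM => hM.1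
  have hTconj : ∀ h ∈ H, ∀ M ∈ T, M ^ᵍ h ∈ T := by
    intro h hh M hM
    have hVh : V ^ᵍ h = V := mem_nz.1 (hHV hh)
    have hAh : A ^ᵍ h = A := mem_nz.1 (hAn hh)
    have hAh' : A ^ᵍ h⁻¹ = A := mem_nz.1 (hAn (inv_mem hh))
    refine ⟨?_, ?_, ?_, ?_⟩
    · rw [← hVh]; exact cj_mono hM.1 h
    · rw [nz_cj, ← hAh]; exact cj_mono hM.2.1 h
    · rw [Ne, cj_eq_bot]; exact hM.2.2.1
    · intro M' hM' hAM'
      have h1 : M' ^ᵍ h⁻¹ ≤ M := by rw [cj_le_iff, inv_inv]; exact hM'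
      have h2 : A ≤ 𝓝(M' ^ᵍ h⁻¹) := by
        rw [nz_cj, ← hAh']
        exact cj_mono hAM' _
      rcases hM.2.2.2 _ h1 h2 with h3 | h3
      · left; exact cj_eq_bot.1 h3
      · right; rw [← h3, cj_cj_inv]
  have hHS : H ≤ 𝓝(S) := by
    intro h hh
    rw [mem_nz]
    apply eq_of_card_le _ (card_cj S h).ge
    rw [Subgroup.map_le_iff_le_comap]
    apply sSup_le
    intro M hM
    rw [← Subgroup.map_le_iff_le_comap]
    exact le_sSup (hTconj h hh M hM)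
  obtain ⟨W₀, hW₀V, hHW₀, hSW₀, hsup₀⟩ := hss S hSV hHS
  have hW₀ : W₀ = ⊥ := by
    by_contra hne
    obtain ⟨M, hM, hMW⟩ := hex W₀ hW₀V (hAH.trans hHW₀) hne
    apply hM.2.2.1
    rw [eq_bot_iff, ← hSW₀]
    exact le_inf (le_sSup hM) hMW
  have hSV' : S = V := by rw [← hsup₀, hW₀, sup_bot_eq]
  obtain ⟨W, hW⟩ := Set.Finite.exists_maximal (s := {W : Subgroup G | W ≤ V ∧ A ≤ 𝓝(W) ∧ U ⊓ W = ⊥})
      (Set.toFinite _) ⟨⊥, bot_le, le_nz.2 (fun a _ h hh => by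
        rw [Subgroup.mem_bot] at hh ⊢; rw [hh]; simp), inf_bot_eq U⟩
  obtain ⟨⟨hWV, hAW, hUW⟩, hmax⟩ := hW
  refine ⟨W, hWV, hAW, hUW, ?_⟩
  apply le_antisymm (sup_le hUV hWV)
  rw [← hSV']
  apply sSup_le
  intro M hM
  by_contra hMn
  have h1 : M ⊓ (U ⊔ W) = ⊥ := by
    rcases hM.2.2.2 (M ⊓ (U ⊔ W)) inf_le_left (le_nz_inf hM.2.1 (le_nz_sup hAU hAW)) with h | h
    · exact h
    · exact absurd (inf_eq_left.1 h) hMn
  have h2 : U ⊓ (W ⊔ M) = ⊥ := by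
    rw [eq_bot_iff]
    rintro x ⟨hxU, hx⟩
    obtain ⟨w, hw, m, hm, rfl⟩ := (mem_sup_of_nz (hcomm hWV hM.1)).1 hx
    have h3 : m ∈ M ⊓ (U ⊔ W) := by
      refine ⟨hm, ?_⟩
      have h4 := mul_mem (inv_mem (Subgroup.mem_sup_right hw : w ∈ U ⊔ W)) (Subgroup.mem_sup_left hxU : w * m ∈ U ⊔ W)
      rwa [inv_mul_cancel_left] at h4
    rw [h1, Subgroup.mem_bot] at h3
    subst h3
    rw [mul_one] at hxU ⊢
    rw [← hUW]
    exact ⟨hxU, hw⟩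
  have h3 : W ⊔ M ≤ W := hmax ⟨sup_le hWV hM.1, le_nz_sup hAW hM.2.1, h2⟩ le_sup_left
  exact hMn ((le_sup_right.trans h3).trans le_sup_right)


end Cfsg.Agent.S3735
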