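import Cfsg.Statements.S3741
import Cfsg.Agent.LibBGCop

set_option autoImplicit false
open Cfsg

namespace Cfsg.Agent.S3741

/-- Let A and B be subgroups of a finite p-group with [A, B] ≤ A ∩ B and [A, B] of order at most p. Then |A : C_A(B)| = |B : C_B(A)|. -/
theorem result {G : Type*} [Group G] [Finite G] {p : ℕ} [Fact p.Prime] (hG : IsPGroup p G) (A B : Subgroup G) (hAB : ⁅A, B⁆ ≤ A ⊓ B) (hcard : Nat.card ↥⁅A, B⁆ ≤ p) : (A ⊓ Subgroup.centralizer (B : Set G)).relIndex A = (B ⊓ Subgroup.centralizer (A : Set G)).relIndex B := by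
  haveI hp' : Fact p.Prime := inferInstance
  -- Z = [A,B]
  have key : ∀ (A B : Subgroup G), ⁅A, B⁆ ≤ A ⊓ B → Nat.card ↥⁅A, B⁆ ≤ p →
      (A ⊓ Subgroup.centralizer (B : Set G)).relIndex A ≤ (B ⊓ Subgroup.centralizer (A : Set G)).relIndex B := by
    intro A B hAB hcard
    set Z := ⁅A, B⁆ with hZ
    -- A and B centralize Z
    have hZp : IsPGroup p Z := hG.to_subgroup Z
    have hcent : ∀ H : Subgroup G, H ≤ Subgroup.normalizer (Z : Set G) → H ≤ Subgroup.centralizer (Z : Set G) := by
      intro H hH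
      have h1 : ⁅Z, H⁆ ≤ Z := CfsgLib.BGPi.comm_le_left hH
      by_cases hb : Z = ⊥
      · rw [hb]
        intro x _
        rw [Subgroup.mem_centralizer_iff]
        intro y hy
        rw [SetLike.mem_coe, Subgroup.mem_bot] at hy
        rw [hy, one_mul, mul_one]
      · have h2 : ⁅Z, H⁆ < Z := CfsgLib.SolvCoprime.commutator_lt_of_pgroup hZp (hG.to_subgroup H) hH hb
        have h3 : ⁅Z, H⁆ = ⊥ := by
          have hZc : Nat.card Z = p := by
            obtain ⟨k, hk⟩ := IsPGroup.iff_card.1 hZp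
            rcases k with _ | k
            · exact absurd (Subgroup.card_eq_one.1 (by rw [hk, pow_zero])) hb
            · have : p ≤ Nat.card Z := by rw [hk]; exact Nat.le_self_pow (by omega) p
              omega
          have h4 : Nat.card ↥⁅Z, H⁆ ∣ p := hZc ▸ Subgroup.card_dvd_of_le h2.le
          rcases (Nat.dvd_prime hp'.out).1 h4 with h5 | h5
          · exact Subgroup.card_eq_one.1 h5
          · exact absurd (Subgroup.eq_of_le_of_card_ge h2.le (by rw [h5, hZc])) h2.ne
        rw [Subgroup.commutator_comm, CfsgLib.BGPi.comm_eq_bot_iff] at h3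
        exact h3
    have hAN : A ≤ Subgroup.normalizer (Z : Set G) := by
      rw [hZ]; exact CfsgLib.BGPi.left_le_nz_comm A B
    have hBN : B ≤ Subgroup.normalizer (Z : Set G) := by
      rw [hZ]; exact CfsgLib.BGPi.right_le_nz_comm A B
    have hAZ := hcent A hAN
    have hBZ := hcent B hBN
    have hZab : ∀ x ∈ Z, ∀ y ∈ Z, x * y = y * x := by
      intro x hx y hy
      have h1 : x ∈ A := (hAB hx).1
      exact (Subgroup.mem_centralizer_iff.1 (hAZ h1) y hy).symm
    letI : CommGroup Z := { (inferInstance : Group Z) with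
      mul_comm := fun a b => Subtype.ext (hZab a a.2 b b.2) }
    -- the bilinear map
    have hc1 : ∀ a ∈ A, ∀ b ∈ B, a * b * a⁻¹ * b⁻¹ ∈ Z := fun a ha b hb =>
      Subgroup.commutator_mem_commutator ha hb
    have hZA : ∀ z ∈ Z, ∀ a ∈ A, z * a = a * z := fun z hz a ha =>
      (Subgroup.mem_centralizer_iff.1 (hAZ ha) z hz)
    have hZB : ∀ z ∈ Z, ∀ b ∈ B, z * b = b * z := fun z hz b hb =>
      (Subgroup.mem_centralizer_iff.1 (hBZ hb) z hz)
    have hbr : ∀ a ∈ A, ∀ b ∈ B, ∀ b' ∈ B, a * (b * b') * a⁻¹ * (b * b')⁻¹ =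
        (a * b * a⁻¹ * b⁻¹) * (a * b' * a⁻¹ * b'⁻¹) := by
      intro a ha b hb b' hb'
      have h1 := hZB _ (hc1 a ha b' hb') b hb
      have e : a * (b * b') * a⁻¹ * (b * b')⁻¹ = (a * b * a⁻¹ * b⁻¹) * (b * (a * b' * a⁻¹ * b'⁻¹) * b⁻¹) := by group
      rw [e, ← h1]; group
    have hbl : ∀ a ∈ A, ∀ a' ∈ A, ∀ b ∈ B, (a * a') * b * (a * a')⁻¹ * b⁻¹ =
        (a * b * a⁻¹ * b⁻¹) * (a' * b * a'⁻¹ * b⁻¹) := by
      intro a ha a' ha' b hb
      have h1 := hZA _ (hc1 a' ha' b hb) a ha
      have e : (a * a') * b * (a * a')⁻¹ * b⁻¹ = (a * (a' * b * a'⁻¹ * b⁻¹) * a⁻¹) * (a * b * a⁻¹ * b⁻¹) := by group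
      rw [e, ← h1]
      have h2 := hZab _ (hc1 a' ha' b hb) _ (hc1 a ha b hb)
      rw [mul_assoc (a' * b * a'⁻¹ * b⁻¹), mul_inv_cancel, mul_one]
      exact h2
    let f : A → (B →* Z) := fun a =>
      { toFun := fun b => ⟨a * b * (a : G)⁻¹ * (b : G)⁻¹, hc1 a a.2 b b.2⟩
        map_one' := Subtype.ext (by simp)
        map_mul' := fun b b' => Subtype.ext (by
          have := hbr a a.2 b b.2 b' b'.2
          simpa using this) }
    let Φ : A →* (B →* Z) :=
      { toFun := f
        map_one' := by ext b; simp [f]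
        map_mul' := by
          intro a a'
          ext b
          have := hbl a a.2 a' a'.2 b b.2
          simpa [f] using this }
    -- kernel
    have hker : Φ.ker = (A ⊓ Subgroup.centralizer (B : Set G)).subgroupOf A := by
      ext a
      rw [MonoidHom.mem_ker, Subgroup.mem_subgroupOf]
      constructor
      · intro h
        refine ⟨a.2, ?_⟩
        show (a : G) ∈ Subgroup.centralizer (B : Set G)
        rw [Subgroup.mem_centralizer_iff]
        intro b hb
        have h1 := DFunLike.congr_fun h (⟨b, hb⟩ : B)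
        have h2 : (a : G) * b * (a : G)⁻¹ * b⁻¹ = 1 := congrArg Subtype.val h1
        rw [mul_inv_eq_one, mul_inv_eq_iff_eq_mul] at h2
        exact h2.symm
      · intro h
        ext b
        have h1 := Subgroup.mem_centralizer_iff.1 h.2 b b.2
        show (a : G) * b * (a : G)⁻¹ * (b : G)⁻¹ = 1
        rw [← h1]; group
    set C := (B ⊓ Subgroup.centralizer (A : Set G)).subgroupOf B with hC
    have hCk : ∀ a : A, C ≤ (Φ a).ker := by
      intro a b hb
      rw [MonoidHom.mem_ker]
      have h1 : (a : G) * (b : G) = b * a := Subgroup.mem_centralizer_iff.1 hb.2 a a.2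
      apply Subtype.ext
      show (a : G) * b * (a : G)⁻¹ * (b : G)⁻¹ = 1
      rw [h1]; group
    haveI hCn : C.Normal := by
      have : C = ⨅ a : A, (Φ a).ker := by
        apply le_antisymm (le_iInf hCk)
        intro b hb
        rw [Subgroup.mem_iInf] at hb
        refine ⟨b.2, ?_⟩
        show (b : G) ∈ Subgroup.centralizer (A : Set G)
        rw [Subgroup.mem_centralizer_iff]
        intro a ha
        have h1 := hb ⟨a, ha⟩
        rw [MonoidHom.mem_ker] at h1
        have h2 : a * (b : G) * a⁻¹ * (b : G)⁻¹ = 1 := congrArg Subtype.val h1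
        rw [mul_inv_eq_one, mul_inv_eq_iff_eq_mul] at h2
        exact h2
      rw [this]
      exact Subgroup.normal_iInf_normal fun a => inferInstance
    -- an embedding of Z in the units of ℂ
    obtain ⟨ψ, hψ⟩ : ∃ ψ : Z →* ℂˣ, Function.Injective ψ := by
      have hcyc : IsCyclic Z := by
        obtain ⟨k, hk⟩ := IsPGroup.iff_card.1 hZp
        rcases k with _ | k
        · haveI : Subsingleton Z := (Nat.card_eq_one_iff_unique.1 (by rw [hk, pow_zero])).1
          exact isCyclic_of_subsingleton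
        · have h1 : p ≤ Nat.card Z := by rw [hk]; exact Nat.le_self_pow (by omega) p
          exact isCyclic_of_prime_card (p := p) (le_antisymm hcard h1)
      have hn : NeZero (Nat.card Z) := ⟨Nat.card_pos.ne'⟩
      have hc : Nat.card Z = Nat.card (rootsOfUnity (Nat.card Z) ℂ) :=
        (HasEnoughRootsOfUnity.natCard_rootsOfUnity ℂ (Nat.card Z)).symm
      haveI : IsCyclic (rootsOfUnity (Nat.card Z) ℂ) := inferInstance
      let e' := mulEquivOfCyclicCardEq hc
      exact ⟨(rootsOfUnity (Nat.card Z) ℂ).subtype.comp e'.toMonoidHom,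
        (Subgroup.subtype_injective _).comp e'.injective⟩
    -- the induced functions on B ⧸ C
    let g : A ⧸ Φ.ker → ((B ⧸ C) →* ℂ) := fun q =>
      ((Units.coeHom ℂ).comp (ψ.comp (QuotientGroup.lift C (Φ q.out) (hCk q.out))))
    have hg : Function.Injective g := by
      intro q q' hqq
      rw [← q.out_eq', ← q'.out_eq', QuotientGroup.eq, MonoidHom.mem_ker, map_mul, map_inv,
        inv_mul_eq_one]
      ext b
      have h1 := DFunLike.congr_fun hqq (QuotientGroup.mk b : B ⧸ C)
      have h2 : ((ψ (Φ q.out b) : ℂˣ) : ℂ) = ((ψ (Φ q'.out b) : ℂˣ) : ℂ) := h1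
      rw [hψ (Units.ext h2)]
    have hlin : LinearIndependent ℂ (fun q : A ⧸ Φ.ker => ((g q : (B ⧸ C) →* ℂ) : (B ⧸ C) → ℂ)) :=
      (linearIndependent_monoidHom (B ⧸ C) ℂ).comp g hg
    haveI : Fintype (A ⧸ Φ.ker) := Fintype.ofFinite _
    haveI : Fintype (B ⧸ C) := Fintype.ofFinite _
    have h1 := hlin.fintype_card_le_finrank
    rw [Module.finrank_fintype_fun_eq_card, ← Nat.card_eq_fintype_card, ← Nat.card_eq_fintype_card] at h1
    have e1 : (A ⊓ Subgroup.centralizer (B : Set G)).relIndex A = Nat.card (A ⧸ Φ.ker) := by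
      rw [Subgroup.relIndex, ← hker]; rfl
    have e2 : (B ⊓ Subgroup.centralizer (A : Set G)).relIndex B = Nat.card (B ⧸ C) := rfl
    rw [e1, e2]
    exact h1
  apply le_antisymm
  · exact key A B hAB hcard
  · refine key B A ?_ ?_
    · rw [Subgroup.commutator_comm, inf_comm]; exact hAB
    · rw [Subgroup.commutator_comm]; exact hcard

end Cfsg.Agent.S3741
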