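import Cfsg.Statements.S3742
-- import your own Cfsg.Agent.* helpers here

set_option autoImplicit false
open Cfsg

namespace Cfsg.Agent.S3742

open QuaternionGroup

abbrev Q8 := QuaternionGroup 2

/-- the map with prescribed images of the generators -/
def A (p q : Q8) : Q8 → Q8
  | a i => p ^ (ZMod.val i)
  | xa i => q * p ^ (ZMod.val i)

def valid (p q : Q8) : Bool := (p * p == a 2) && (q * q == a 2) && (q != p) && (q != p * a 2)

def idx (x y z : Q8) : Bool × Bool :=
  let b1 := (x == a 3) || (y == a 3) || (z == a 3)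
  let b2 := (x == xa 2) || (y == xa 2) || (z == xa 2)
  let b3 := (x == xa 1) || (y == xa 1) || (z == xa 1)
  (xor b1 b3, xor b2 b3)

def F (p q : Q8) (d : Bool × Bool) : Bool × Bool :=
  idx (A p q (if d.1 then a 3 else a 1)) (A p q (if d.2 then xa 2 else xa 0)) (A p q (xa 3))

theorem A_mul : ∀ p q : Q8, valid p q = true → ∀ x y, A p q (x * y) = A p q x * A p q y := by
  decide +kernel

theorem A_inj : ∀ p q : Q8, valid p q = true → ∀ x, A p q x = 1 → x = 1 := by
  decide +kernel

theorem F_mul : ∀ p q : Q8, valid p q = true → ∀ p' q' : Q8, valid p' q' = true → ∀ d, F (A p q p') (A p q q') d = F p q (F p' q' d) := by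
  decide +kernel

theorem F_one : ∀ d, F (a 1) (xa 0) d = d := by
  decide +kernel

theorem F_inj : ∀ p q : Q8, valid p q = true → ∀ p' q' : Q8, valid p' q' = true → (∀ d, F p q d = F p' q' d) → p = p' ∧ q = q' := by
  decide +kernel

theorem A_gen : ∀ p q : Q8, valid p q = true → A p q (a 1) = p ∧ A p q (xa 0) = q := by
  decide +kernel

theorem card_valid : Fintype.card {x : Q8 × Q8 // valid x.1 x.2 = true} = 24 := by
  decide +kernel

theorem unique_inv : ∀ x : Q8, x * x = 1 → x ≠ 1 → x = a 2 := by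
  decide +kernel

theorem Aut_eq (φ : MulAut Q8) (x : Q8) : φ x = A (φ (a 1)) (φ (xa 0)) x := by
  cases x with
  | a i =>
    have : (a i : Q8) = a 1 ^ (ZMod.val i) := by
      revert i; decide +kernel
    show φ (a i) = (φ (a 1)) ^ (ZMod.val i)
    rw [← map_pow, ← this]
  | xa i =>
    have : (xa i : Q8) = xa 0 * a 1 ^ (ZMod.val i) := by
      revert i; decide +kernel
    show φ (xa i) = φ (xa 0) * (φ (a 1)) ^ (ZMod.val i)
    rw [← map_pow, ← map_mul, ← this]

theorem Aut_valid (φ : MulAut Q8) : valid (φ (a 1)) (φ (xa 0)) = true := by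
  have h2 : φ (a 2) = a 2 := by
    apply unique_inv
    · rw [← map_mul, show (a 2 * a 2 : Q8) = 1 by decide +kernel, map_one]
    · intro h
      rw [map_eq_one_iff φ φ.injective] at h
      exact absurd h (by decide +kernel)
  have h3 : φ (a 1) * φ (a 1) = a 2 := by
    rw [← map_mul, show (a 1 * a 1 : Q8) = a 2 by decide +kernel, h2]
  have h4 : φ (xa 0) * φ (xa 0) = a 2 := by
    rw [← map_mul, show (xa 0 * xa 0 : Q8) = a 2 by decide +kernel, h2]
  have h5 : φ (xa 0) ≠ φ (a 1) := by
    intro h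
    exact absurd (φ.injective h) (by decide +kernel)
  have h6 : φ (xa 0) ≠ φ (a 1) * a 2 := by
    intro h
    rw [← h2, ← map_mul] at h
    exact absurd (φ.injective h) (by decide +kernel)
  unfold valid
  simp only [Bool.and_eq_true, beq_iff_eq, bne_iff_ne, ne_eq]
  exact ⟨⟨⟨h3, h4⟩, h5⟩, h6⟩

noncomputable instance act : MulAction (MulAut Q8) (Bool × Bool) where
  smul φ d := F (φ (a 1)) (φ (xa 0)) d
  one_smul d := F_one d
  mul_smul φ ψ d := by
    show F ((φ * ψ) (a 1)) ((φ * ψ) (xa 0)) d = F (φ (a 1)) (φ (xa 0)) (F (ψ (a 1)) (ψ (xa 0)) d)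
    rw [← F_mul _ _ (Aut_valid φ) _ _ (Aut_valid ψ), ← Aut_eq, ← Aut_eq]
    rfl

theorem smul_def' (φ : MulAut Q8) (d : Bool × Bool) : φ • d = F (φ (a 1)) (φ (xa 0)) d := rfl

theorem toPerm_inj : Function.Injective (MulAction.toPermHom (MulAut Q8) (Bool × Bool)) := by
  intro φ ψ h
  have h1 : ∀ d, F (φ (a 1)) (φ (xa 0)) d = F (ψ (a 1)) (ψ (xa 0)) d := by
    intro d
    have := congrArg (fun σ : Equiv.Perm (Bool × Bool) => σ d) h
    exact this
  obtain ⟨h2, h3⟩ := F_inj _ _ (Aut_valid φ) _ _ (Aut_valid ψ) h1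
  ext x
  rw [Aut_eq φ, Aut_eq ψ, h2, h3]

theorem card_aut : 24 ≤ Nat.card (MulAut Q8) := by
  have hinj : ∀ x : {x : Q8 × Q8 // valid x.1 x.2 = true}, ∃ φ : MulAut Q8, φ (a 1) = x.1.1 ∧ φ (xa 0) = x.1.2 := by
    intro x
    let f : Q8 →* Q8 := { toFun := A x.1.1 x.1.2, map_one' := rfl, map_mul' := A_mul _ _ x.2 }
    have hf : Function.Injective f := by
      rw [injective_iff_map_eq_one]
      exact A_inj _ _ x.2
    have hb : Function.Bijective f := Finite.injective_iff_bijective.1 hf
    exact ⟨MulEquiv.ofBijective f hb, (A_gen _ _ x.2).1, (A_gen _ _ x.2).2⟩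
  choose g hg using hinj
  have hg' : Function.Injective g := by
    intro x y h
    apply Subtype.ext
    apply Prod.ext
    · rw [← (hg x).1, ← (hg y).1, h]
    · rw [← (hg x).2, ← (hg y).2, h]
  have := Nat.card_le_card_of_injective g hg'
  rwa [Nat.card_eq_fintype_card, card_valid] at this


/-- The automorphism group of the quaternion group of order 8 is isomorphic to the symmetric group of degree 4. -/
theorem result : Nonempty (MulAut (QuaternionGroup 2) ≃* Equiv.Perm (Fin 4)) := by
  have h1 : Nat.card (Equiv.Perm (Bool × Bool)) = 24 := by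
    rw [Nat.card_perm, Nat.card_eq_fintype_card]; rfl
  have hb : Function.Bijective (MulAction.toPermHom (MulAut Q8) (Bool × Bool)) :=
    toPerm_inj.bijective_of_nat_card_le (by rw [h1]; exact card_aut)
  exact ⟨(MulEquiv.ofBijective _ hb).trans (Equiv.permCongrHom (Fintype.equivOfCardEq (by rfl)))⟩

end Cfsg.Agent.S3742
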