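import Cfsg.Statements.S3744
import Cfsg.Agent.LibBGCop
import Cfsg.Agent.LibPSolv19

set_option autoImplicit false
open Cfsg

namespace Cfsg.Agent.S3744

open Cfsg CfsgLib.BGPi CfsgLib.PSolv19
open scoped commutatorElement

universe u

theorem abelian_of_min {G : Type u} [Group G] [Finite G] {p : ℕ} [hp : Fact p.Prime] {N : Subgroup G}
    (hN : N.Normal) (hne : N ≠ ⊥) (hmin : ∀ L : Subgroup G, L.Normal → L ≤ N → L = ⊥ ∨ L = N)
    (hpN : IsPGroup p N) : IsMulCommutative N := by
  haveI := hN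
  haveI := hpN.isNilpotent
  haveI : Nontrivial N := (Subgroup.nontrivial_iff_ne_bot N).2 hne
  rcases hmin ((Subgroup.center N).map N.subtype) inferInstance (Subgroup.map_subtype_le _) with h | h
  · exfalso
    rw [Subgroup.map_eq_bot_iff_of_injective _ N.subtype_injective] at h
    exact Group.IsNilpotent.center_ne_bot _ h
  · refine ⟨⟨fun a b => ?_⟩⟩
    have h1 : (b : G) ∈ (Subgroup.center N).map N.subtype := by rw [h]; exact b.2
    obtain ⟨c, hc, e⟩ := h1
    have h2 : c = b := Subtype.ext e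
    rw [← h2]
    exact Subgroup.mem_center_iff.1 hc a

theorem psolv_aux {p : ℕ} [hp' : Fact p.Prime] : ∀ n : ℕ, ∀ (G : Type u) [Group G] [Finite G], Nat.card G = n →
    IsPSolvable p G → ∃ H : Subgroup G, IsPiHallOf {p}ᶜ H ⊤ ∧
      ∀ K : Subgroup G, IsPi {p}ᶜ K → ∃ g : G, K ^ᵍ g ≤ H := by
  intro n
  induction n using Nat.strong_induction_on with
  | _ n ih =>
  intro G _ _ hn hs
  have hp : p.Prime := hp'.out
  rcases subsingleton_or_nontrivial G with hss | hnt
  · refine ⟨⊥, ?_, ?_⟩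
    · rw [hall_bot]
      have : (⊤ : Subgroup G) = ⊥ := Subsingleton.elim _ _
      rw [this]; exact IsPi.bot _
    · intro K _
      exact ⟨1, (Subsingleton.elim _ _ : K ^ᵍ (1 : G) = ⊥).le⟩
  obtain ⟨N, hN, hN1, -, hmin⟩ := exists_min (⊤ : Subgroup G) top_ne_bot
  haveI := hN
  have hNgood := psolv_minNormal hs hN hN1 hmin
  have hcard : Nat.card (G ⧸ N) < n := by
    have h1 := Subgroup.card_eq_card_quotient_mul_card_subgroup N
    have h2 : 1 < Nat.card N := by
      have : Nat.card N ≠ 1 := by rwa [Ne, Subgroup.card_eq_one]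
      have := card_pos' N
      omega
    have h3 : 0 < Nat.card (G ⧸ N) := Nat.card_pos
    rw [← hn, h1]
    nlinarith
  obtain ⟨Hb, hHb, hconj⟩ := ih _ hcard (G ⧸ N) rfl (psolv_quotient hp hs N)
  set f := QuotientGroup.mk' N with hf
  have hfs : Function.Surjective f := QuotientGroup.mk'_surjective N
  have hker : f.ker = N := QuotientGroup.ker_mk' N
  set L := Hb.comap f with hL
  have hNL : N ≤ L := by rw [← hker]; exact Subgroup.ker_le_comap f Hb
  have hLmap : L.map f = Hb := Subgroup.map_comap_eq_self_of_surjective hfs Hb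
  have hLidx : L.index = Hb.index := Subgroup.index_comap_of_surjective Hb hfs
  have hcardL : Nat.card L = Nat.card N * Nat.card Hb := by
    have h1 := card_mul_relIndex hNL
    have h2 : N.relIndex L = Nat.card Hb := by
      have := Subgroup.relIndex_ker (K := L) f
      rw [hker] at this; rw [this, hLmap]
    rw [← h1, h2]
  have hconjL : ∀ K : Subgroup G, IsPi {p}ᶜ K → ∃ g : G, K ^ᵍ g ≤ L := by
    intro K hK
    obtain ⟨gb, hgb⟩ := hconj (K.map f) (hK.map f)
    obtain ⟨g, rfl⟩ := hfs gb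
    refine ⟨g, ?_⟩
    rintro x hx
    rw [mem_cj] at hx
    rw [hL, Subgroup.mem_comap]
    apply hgb
    rw [mem_cj]
    exact ⟨_, hx, by simp⟩
  rcases hNgood with hNp | hNp'
  swap
  · refine ⟨L, ?_, hconjL⟩
    refine ⟨le_top, ?_, ?_⟩
    · intro q hq hd
      rw [hcardL] at hd
      rcases hq.dvd_mul.1 hd with h1 | h1
      · intro hqp
        rw [Set.mem_singleton_iff] at hqp
        exact hNp' (hqp ▸ h1)
      · exact hHb.2.1 q hq h1
    · intro q hq hqi hd
      rw [Subgroup.relIndex_top_right, hLidx] at hd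
      refine hHb.2.2 q hq hqi ?_
      rwa [Subgroup.relIndex_top_right]
  · -- N is a normal Hall subgroup of L
    have hNab : IsMulCommutative N := abelian_of_min hN hN1 hmin hNp
    have hNpi : IsPi {p} N := isPi_of_isPGroup hp hNp
    have hpHb : ¬ p ∣ Nat.card Hb := fun hd => (hHb.2.1 p hp hd) rfl
    have hnL : L ≤ 𝓝(N) := Subgroup.le_normalizer_of_normal
    have hcop : (Nat.card N).Coprime (N.relIndex L) := by
      have h2 : N.relIndex L = Nat.card Hb := by
        have := Subgroup.relIndex_ker (K := L) f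
        rw [hker] at this; rw [this, hLmap]
      rw [h2]
      apply hNpi.coprime_of_dvd
      intro q hq hqe
      rw [Set.mem_singleton_iff] at hqe
      rw [hqe]; exact hpHb
    haveI := normal_subgroupOf hNL hnL
    obtain ⟨C, hC⟩ := Subgroup.exists_right_complement'_of_coprime (N := N.subgroupOf L) (by
      rw [card_subgroupOf hNL]; exact hcop)
    set H := C.map L.subtype with hH
    have hHL : H ≤ L := Subgroup.map_subtype_le C
    have hcH : Nat.card H = Nat.card Hb := by
      rw [hH, card_map_subtype]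
      have := hC.card_mul
      rw [card_subgroupOf hNL, hcardL] at this
      exact Nat.eq_of_mul_eq_mul_left (card_pos' N) this
    have hdisj : N ⊓ H = ⊥ := by
      apply Subgroup.inf_eq_bot_of_coprime
      rw [hcH]
      apply hNpi.coprime_of_dvd
      intro q hq hqe
      rw [Set.mem_singleton_iff] at hqe
      rw [hqe]; exact hpHb
    have hsup : N ⊔ H = L := by
      apply eq_of_card_le (sup_le hNL hHL)
      rw [sup_comm, card_sup_of_disjoint (H := H) (K := N) Subgroup.le_normalizer_of_normal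
        (by rw [inf_comm]; exact hdisj), hcH, hcardL, mul_comm]
    refine ⟨H, ⟨le_top, ?_, ?_⟩, ?_⟩
    · intro q hq hd
      rw [hcH] at hd
      exact hHb.2.1 q hq hd
    · intro q hq hqi hd
      rw [Subgroup.relIndex_top_right] at hd
      have h1 := Subgroup.relIndex_mul_index hHL
      have h2 : H.relIndex L = Nat.card N := by
        have := card_mul_relIndex hHL
        rw [hcardL, hcH, mul_comm (Nat.card N)] at this
        have hpos : 0 < Nat.card Hb := Nat.card_pos
        exact Nat.eq_of_mul_eq_mul_left hpos this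
      rw [← h1, h2, hLidx] at hd
      rcases hq.dvd_mul.1 hd with h3 | h3
      · exact hqi (hNpi q hq h3)
      · refine hHb.2.2 q hq hqi ?_
        rwa [Subgroup.relIndex_top_right]
    · intro K hK
      obtain ⟨g, hg⟩ := hconjL K hK
      set K1 := K ^ᵍ g with hK1
      have hK1pi : IsPi {p}ᶜ K1 := hK.cj g
      set M1 := N ⊔ K1 with hM1
      have hM1L : M1 ≤ L := sup_le hNL hg
      have hNM1 : N ≤ M1 := le_sup_left
      have hd1 : N ⊓ K1 = ⊥ := IsPi.inf_eq_bot hNpi hK1pi
      have hd2 : N ⊓ (H ⊓ M1) = ⊥ := by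
        rw [← inf_assoc, hdisj, bot_inf_eq]
      have hs2 : N ⊔ (H ⊓ M1) = M1 := by
        rw [← dedekind (H := N) (K := H) (L := M1) Subgroup.le_normalizer_of_normal hNM1, hsup]
        exact inf_eq_right.2 hM1L
      have hc1 : (Nat.card N).Coprime (N.relIndex M1) := by
        refine Nat.Coprime.coprime_dvd_right ?_ hcop
        rw [← Subgroup.relIndex_mul_relIndex N M1 L hNM1 hM1L]
        exact dvd_mul_right _ _
      obtain ⟨n, hn, e⟩ := sz_conj_rel hNM1 Subgroup.le_normalizer_of_normal hNab hc1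
        (le_sup_right : K1 ≤ M1) (inf_le_right : H ⊓ M1 ≤ M1) hd1 rfl hd2 hs2
      refine ⟨n * g, ?_⟩
      rw [cj_mul, ← hK1, e]
      exact inf_le_left

/-- A finite p-soluble group has a p-complement, all its p-complements are conjugate, and every subgroup of order prime to p lies in one of them. Here a p-complement is a subgroup of order prime to p whose index is a power of p. -/
theorem result {G : Type*} [Group G] [Finite G] {p : ℕ} [Fact p.Prime] (hG : Cfsg.IsPSolvable p G) : (∃ H : Subgroup G, (Nat.card H).Coprime p ∧ ∃ n : ℕ, H.index = p ^ n) ∧ (∀ H₁ H₂ : Subgroup G, (Nat.card H₁).Coprime p → (∃ n : ℕ, H₁.index = p ^ n) → (Nat.card H₂).Coprime p → (∃ n : ℕ, H₂.index = p ^ n) → ∃ g : G, H₂ = H₁.map (MulAut.conj g).toMonoidHom) ∧ (∀ U : Subgroup G, (Nat.card U).Coprime p → ∃ H : Subgroup G, (Nat.card H).Coprime p ∧ (∃ n : ℕ, H.index = p ^ n) ∧ ∃ g : G, U.map (MulAut.conj g).toMonoidHom ≤ H) := by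
  have hp : p.Prime := Fact.out
  obtain ⟨H, hH, hconj⟩ := psolv_aux (p := p) _ G rfl hG
  have hiff : ∀ U : Subgroup G, (IsPiHallOf {p}ᶜ U ⊤ ↔ ((Nat.card U).Coprime p ∧ ∃ n : ℕ, U.index = p ^ n)) := by
    intro U
    constructor
    · rintro ⟨-, h2, h3⟩
      refine ⟨(isPi_compl_singleton' hp).1 h2, ?_⟩
      have h4 : U.index ≠ 0 := Subgroup.index_ne_zero_of_finite
      refine ⟨_, Nat.eq_prime_pow_of_unique_prime_dvd h4 ?_⟩
      intro d hd hdU
      by_contra hne
      apply h3 d hd hne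
      rwa [Subgroup.relIndex_top_right]
    · rintro ⟨h1, n, h2⟩
      refine ⟨le_top, (isPi_compl_singleton' hp).2 h1, ?_⟩
      intro q hq hqp hd
      rw [Subgroup.relIndex_top_right, h2] at hd
      exact hqp ((Nat.prime_dvd_prime_iff_eq hq hp).1 (hq.dvd_of_dvd_pow hd))
  have hall : ∀ U : Subgroup G, IsPiHallOf {p}ᶜ U ⊤ → ∃ g : G, U ^ᵍ g = H := by
    intro U hU
    obtain ⟨g, hg⟩ := hconj U hU.2.1
    refine ⟨g, eq_of_card_le hg ?_⟩
    rw [card_cj]
    exact (hall_card_eq hH hU).le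
  refine ⟨⟨H, ((hiff H).1 hH)⟩, ?_, ?_⟩
  · intro H₁ H₂ h1 h2 h3 h4
    obtain ⟨g₁, e1⟩ := hall H₁ ((hiff H₁).2 ⟨h1, h2⟩)
    obtain ⟨g₂, e2⟩ := hall H₂ ((hiff H₂).2 ⟨h3, h4⟩)
    refine ⟨g₂⁻¹ * g₁, ?_⟩
    rw [cj_mul, e1, ← e2, cj_inv_cj]
  · intro U hU
    obtain ⟨g, hg⟩ := hconj U ((isPi_compl_singleton' hp).2 hU)
    exact ⟨H, ((hiff H).1 hH).1, ((hiff H).1 hH).2, g, hg⟩


end Cfsg.Agent.S3744
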