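import Cfsg.Statements.S3745
import Cfsg.Agent.LibBGCop
import Cfsg.Agent.LibBGRel

set_option autoImplicit false
open Cfsg

namespace Cfsg.Agent.S3745

open Cfsg CfsgLib.BGPi
open scoped commutatorElement

universe u

theorem hall_sup_of {G : Type u} [Group G] [Finite G] {π : Set ℕ} {p : ℕ} (hp : p ∉ π) {V N : Subgroup G}
    (hV : IsPi π V) (hN : IsPi {p} N) (hn : V ≤ 𝓝(N)) : IsPiHallOf π V (V ⊔ N) := by
  refine ⟨le_sup_left, hV, ?_⟩
  intro q hq hqπ hd
  have h1 := card_sup_mul_card_inf hn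
  have h2 := card_mul_relIndex (le_sup_left : V ≤ V ⊔ N)
  have h3 : V.relIndex (V ⊔ N) ∣ Nat.card N := by
    rw [← h2, mul_assoc] at h1
    have h4 := Nat.eq_of_mul_eq_mul_left (card_pos' V) h1
    exact Dvd.intro _ h4
  have h5 := hN q hq (hd.trans h3)
  rw [Set.mem_singleton_iff] at h5
  exact hp (h5 ▸ hqπ)

theorem core {G : Type u} [Group G] [Finite G] {π : Set ℕ} {A K U N : Subgroup G} [N.Normal]
    {p : ℕ} (hp : p.Prime) (hN : IsPi {p} N) (hNK : N ≤ K) (hNe : N ≠ ⊥)
    (hAK : A ≤ 𝓝(K)) (hcop : (Nat.card A).Coprime (Nat.card K)) (hs : Group.IsSolvable K)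
    (hU : IsPi π U) (hUK : U ≤ K) (hAU : A ≤ 𝓝(U))
    (ih : ∀ n < Nat.card K, ∀ (G : Type u) [Group G] [Finite G] (A K U : Subgroup G), Nat.card K = n →
      A ≤ 𝓝(K) → (Nat.card A).Coprime (Nat.card K) → Group.IsSolvable K → IsPi π U → U ≤ K →
      A ≤ 𝓝(U) → ∃ H, IsPiHallOf π H K ∧ A ≤ 𝓝(H) ∧ U ≤ H) :
    ∃ H, IsPiHallOf π H K ∧ A ≤ 𝓝(H) ∧ U ≤ H := by
  set f := QuotientGroup.mk' N with hf
  have hfs : Function.Surjective f := QuotientGroup.mk'_surjective N
  have hker : f.ker = N := QuotientGroup.ker_mk' N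
  have hcardK : Nat.card K = Nat.card N * Nat.card (K.map f) := by
    have h1 := card_mul_relIndex hNK
    have h2 := Subgroup.relIndex_ker (K := K) f
    rw [hker] at h2
    rw [← h1, h2]
  have hNc : 1 < Nat.card N := by
    have : Nat.card N ≠ 1 := by rwa [Ne, Subgroup.card_eq_one]
    have := card_pos' N
    omega
  have hlt : Nat.card (K.map f) < Nat.card K := by
    have h3 : 0 < Nat.card (K.map f) := Nat.card_pos
    rw [hcardK]
    nlinarith
  obtain ⟨Hb, hHb, hHbA, hUHb⟩ := ih _ hlt (G ⧸ N) (A.map f) (K.map f) (U.map f) rfl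
    ((Subgroup.map_mono hAK).trans (Subgroup.le_normalizer_map f))
    (Nat.Coprime.of_dvd (Subgroup.card_map_dvd A f) (Subgroup.card_map_dvd K f) hcop)
    (CfsgLib.Coprime.isSolvable_map _ _ hs) (hU.map f) (Subgroup.map_mono hUK)
    ((Subgroup.map_mono hAU).trans (Subgroup.le_normalizer_map f))
  set H₁ := Hb.comap f with hH₁
  have hNH₁ : N ≤ H₁ := by rw [← hker]; exact Subgroup.ker_le_comap f Hb
  have hH₁map : H₁.map f = Hb := Subgroup.map_comap_eq_self_of_surjective hfs Hb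
  have hKc : (K.map f).comap f = K := by
    rw [Subgroup.comap_map_eq, hker, sup_eq_left.2 hNK]
  have hH₁K : H₁ ≤ K := by
    rw [← hKc]; exact Subgroup.comap_mono hHb.1
  have hAH₁ : A ≤ 𝓝(H₁) := by
    intro a ha
    have h1 := hHbA ⟨a, ha, rfl⟩
    rw [Subgroup.mem_normalizer_iff] at h1 ⊢
    intro x
    have := h1 (f x)
    rw [hH₁, Subgroup.mem_comap, Subgroup.mem_comap, this, map_mul, map_mul, map_inv]
  have hUH₁ : U ≤ H₁ := by
    rw [hH₁, ← Subgroup.map_le_iff_le_comap]; exact hUHb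
  have hrel : H₁.relIndex K = Hb.relIndex (K.map f) := by
    have h1 := Subgroup.relIndex_comap (f := f) Hb K
    exact h1
  have hHallH₁ : ∀ q : ℕ, q.Prime → q ∈ π → ¬ q ∣ H₁.relIndex K := by
    intro q hq hqπ
    rw [hrel]; exact hHb.2.2 q hq hqπ
  by_cases hcase : H₁ = K
  · by_cases hpi : p ∈ π
    · refine ⟨K, hall_self ?_, hAK, hUK⟩
      intro q hq hd
      rw [hcardK] at hd
      rcases hq.dvd_mul.1 hd with h1 | h1
      · have := hN q hq h1
        rw [Set.mem_singleton_iff] at this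
        rwa [this]
      · rw [← hcase, hH₁map] at h1
        exact hHb.2.1 q hq h1
    · obtain ⟨V, hV, hAV⟩ := cop_hall_exists hAK hcop hs π
      have hnz : ∀ L : Subgroup G, L ≤ 𝓝(N) := fun L => Subgroup.le_normalizer_of_normal
      have hVN : V ⊔ N = K := by
        apply eq_of_card_le (sup_le hV.1 hNK)
        have h1 : V ⊓ N = ⊥ := by
          apply IsPi.inf_eq_bot hV.2.1
          intro q hq hd hqπ
          have := hN q hq hd
          rw [Set.mem_singleton_iff] at this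
          exact hpi (this ▸ hqπ)
        rw [card_sup_of_disjoint (hnz V) h1]
        -- |K̄| is a π-number dividing |K|
        have h2 : IsPi π (K.map f) := by rw [← hcase, hH₁map]; exact hHb.2.1
        have h3 : Nat.card (K.map f) ∣ Nat.card V * V.relIndex K := by
          rw [card_mul_relIndex hV.1, hcardK]; exact dvd_mul_left _ _
        have h4 : Nat.card (K.map f) ∣ Nat.card V :=
          (h2.coprime_of_dvd hV.2.2).dvd_of_dvd_mul_right h3
        rw [hcardK, mul_comm]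
        exact Nat.mul_le_mul_right _ (Nat.le_of_dvd (card_pos' V) h4)
      set W := U ⊔ N with hW
      have hWK : W ≤ K := sup_le hUK hNK
      have hVW : (V ⊓ W) ⊔ N = W := by
        have h1 := dedekind (H := N) (K := V) (L := W) (hnz V) le_sup_right
        rw [sup_comm (V ⊓ W), ← h1, sup_comm N V, hVN]
        exact inf_eq_right.2 hWK
      have hWU : IsPiHallOf π U W := hall_sup_of hpi hU hN (hnz U)
      have hWV : IsPiHallOf π (V ⊓ W) W := by
        have h1 := hall_sup_of hpi (IsPi.le hV.2.1 (inf_le_left : V ⊓ W ≤ V)) hN (hnz (V ⊓ W))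
        rwa [hVW] at h1
      have hAW : A ≤ 𝓝(W) := le_nz_sup hAU (hnz A)
      obtain ⟨c, hc, e⟩ := cop_hall_conj hAW
        (Nat.Coprime.of_dvd (dvd_refl _) (Subgroup.card_dvd_of_le hWK) hcop)
        (solvable_sub hWK hs) hWU hAU hWV (le_nz_inf hAV hAW)
      refine ⟨V ^ᵍ c⁻¹, hall_cj_mem hV (inv_mem (hWK hc.1)), ?_, ?_⟩
      · rw [nz_cj]
        intro a ha
        rw [mem_cj, inv_inv]
        have h1 : a * c = c * a := hc.2 a ha
        rw [← h1, mul_inv_cancel_right]
        exact hAV ha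
      · rw [le_cj_iff, inv_inv, e]; exact inf_le_left
  · have hlt1 : Nat.card H₁ < Nat.card K := by
      by_contra h
      exact hcase (eq_of_card_le hH₁K (not_lt.1 h))
    obtain ⟨H, hH, hAH, hUH⟩ := ih _ hlt1 G A H₁ U rfl hAH₁
      (Nat.Coprime.of_dvd (dvd_refl _) (Subgroup.card_dvd_of_le hH₁K) hcop)
      (solvable_sub hH₁K hs) hU hUH₁ hAU
    refine ⟨H, ⟨hH.1.trans hH₁K, hH.2.1, ?_⟩, hAH, hUH⟩
    intro q hq hqπ hd
    rw [← Subgroup.relIndex_mul_relIndex H H₁ K hH.1 hH₁K] at hd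
    rcases hq.dvd_mul.1 hd with h | h
    · exact hH.2.2 q hq hqπ h
    · exact hHallH₁ q hq hqπ h

theorem ge_all {π : Set ℕ} : ∀ n, ∀ (G : Type u) [Group G] [Finite G] (A K U : Subgroup G),
      Nat.card K = n →
      A ≤ 𝓝(K) → (Nat.card A).Coprime (Nat.card K) → Group.IsSolvable K → IsPi π U → U ≤ K →
      A ≤ 𝓝(U) → ∃ H, IsPiHallOf π H K ∧ A ≤ 𝓝(H) ∧ U ≤ H := by
  intro n
  induction n using Nat.strong_induction_on with
  | _ n ih =>
  intro G _ _ A K U hn hAK hcop hs hU hUK hAU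
  by_cases hK : K = ⊥
  · subst hK
    exact ⟨⊥, hall_self (IsPi.bot π), hAK, hUK⟩
  haveI : Nontrivial K := (Subgroup.nontrivial_iff_ne_bot K).2 hK
  obtain ⟨p, hp, N₀, hN₀, hN₀1, -, hN₀p⟩ := exists_normal_elem hs inferInstance
  haveI := hN₀
  have hN₀pi : IsPi {p} (N₀.map K.subtype) := by
    apply isPi_of_isPGroup hp
    apply IsPGroup.map
    intro x
    exact ⟨1, by rw [pow_one]; exact Subtype.ext (by simpa using hN₀p x x.2)⟩
  set N := piCoreOf {p} K with hN
  have hle : N₀.map K.subtype ≤ N := le_piCoreOf (Subgroup.map_subtype_le _) (map_subtype_nz N₀) hN₀pi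
  have hNe : N ≠ ⊥ := by
    intro h
    rw [h, le_bot_iff, Subgroup.map_eq_bot_iff_of_injective _ K.subtype_injective] at hle
    exact hN₀1 hle
  have hNK : N ≤ K := piCoreOf_le _ _
  have hNpi : IsPi {p} N := isPi_piCoreOf _ _
  set L := A ⊔ K with hL
  have hLN : L ≤ 𝓝(N) := sup_le (hAK.trans (nz_le_nz_piCoreOf _ _)) (le_nz_piCoreOf _ _)
  have hNL : N ≤ L := hNK.trans le_sup_right
  have hAL : A ≤ L := le_sup_left
  have hKL : K ≤ L := le_sup_right
  have hUL : U ≤ L := hUK.trans hKL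
  haveI := normal_subgroupOf hNL hLN
  have hnzz : ∀ {S T : Subgroup G}, S ≤ L → T ≤ L → S ≤ 𝓝(T) → S.subgroupOf L ≤ 𝓝(T.subgroupOf L) := by
    intro S T hS hT h x hx
    have h1 := h hx
    rw [Subgroup.mem_normalizer_iff] at h1 ⊢
    intro y
    exact h1 y
  obtain ⟨H, hH, hAH, hUH⟩ := core (A := A.subgroupOf L) (K := K.subgroupOf L) (U := U.subgroupOf L)
    (N := N.subgroupOf L) (π := π) hp
    ((isPi_subgroupOf hNL).2 hNpi) (Subgroup.comap_mono hNK)
    (by
      intro h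
      apply hNe
      rw [← subgroupOf_map hNL, h, Subgroup.map_bot])
    (hnzz hAL hKL hAK) (by rw [card_subgroupOf hAL, card_subgroupOf hKL]; exact hcop)
    (CfsgLib.Coprime.isSolvable_subgroupOf _ _ hs) ((isPi_subgroupOf hUL).2 hU)
    (Subgroup.comap_mono hUK) (hnzz hAL hUL hAU)
    (by
      intro m hm
      rw [card_subgroupOf hKL, hn] at hm
      exact ih m hm)
  refine ⟨H.map L.subtype, ?_, ?_, ?_⟩
  · have h1 := hall_map hH L.subtype
    rwa [subgroupOf_map hKL] at h1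
  · have h1 := (Subgroup.map_mono (f := L.subtype) hAH).trans (Subgroup.le_normalizer_map L.subtype)
    rwa [subgroupOf_map hAL] at h1
  · have h1 := Subgroup.map_mono (f := L.subtype) hUH
    rwa [subgroupOf_map hUL] at h1

/-- Coprime action on a solvable group and Hall subgroups. Let A and G be subgroups of a finite group with A normalizing G, the orders of A and G coprime, and G solvable, and let π be a set of primes. Then (a) G has an A-invariant Hall π-subgroup; (b) any two A-invariant Hall π-subgroups of G are conjugate by an element of C_G(A); (c) every A-invariant π-subgroup of G lies in an A-invariant Hall π-subgroup of G. -/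
theorem result {X : Type*} [Group X] [Finite X] (A G : Subgroup X) (hAG : A ≤ Subgroup.normalizer (G : Set X)) (hcop : (Nat.card A).Coprime (Nat.card G)) (hsolv : Group.IsSolvable G) (π : Set ℕ) : (∃ H : Subgroup X, Cfsg.IsPiHallOf π H G ∧ A ≤ Subgroup.normalizer (H : Set X)) ∧ (∀ H₁ H₂ : Subgroup X, Cfsg.IsPiHallOf π H₁ G → A ≤ Subgroup.normalizer (H₁ : Set X) → Cfsg.IsPiHallOf π H₂ G → A ≤ Subgroup.normalizer (H₂ : Set X) → ∃ c ∈ G ⊓ Subgroup.centralizer (A : Set X), H₂ = H₁.map (MulAut.conj c).toMonoidHom) ∧ (∀ U : Subgroup X, U ≤ G → A ≤ Subgroup.normalizer (U : Set X) → (∀ p : ℕ, p.Prime → p ∣ Nat.card U → p ∈ π) → ∃ H : Subgroup X, Cfsg.IsPiHallOf π H G ∧ A ≤ Subgroup.normalizer (H : Set X) ∧ U ≤ H) := by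
  refine ⟨?_, ?_, ?_⟩
  · exact cop_hall_exists hAG hcop hsolv π
  · intro H₁ H₂ h1 h2 h3 h4
    obtain ⟨c, hc, e⟩ := cop_hall_conj hAG hcop hsolv h1 h2 h3 h4
    exact ⟨c, hc, e.symm⟩
  · intro U hU hAU hπ
    exact ge_all _ X A G U rfl hAG hcop hsolv hπ hU hAU


end Cfsg.Agent.S3745
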