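import Cfsg.Statements.S3746
import Cfsg.Agent.LibComp3
import Cfsg.Agent.LibWard

set_option autoImplicit false
open Cfsg

namespace Cfsg.Agent.S3746

open Cfsg CfsgLib.Comp CfsgLib.Comp2 CfsgLib.Comp3
open scoped commutatorElement

theorem comm_central {G : Type*} [Group G] {d d' z z' : G} (hz : z ∈ Subgroup.center G)
    (hz' : z' ∈ Subgroup.center G) : ⁅d * z, d' * z'⁆ = ⁅d, d'⁆ := by
  have e1 : ∀ g : G, z * g = g * z := fun g => (Subgroup.mem_center_iff.1 hz g).symm
  have e2 : ∀ g : G, z' * g = g * z' := fun g => (Subgroup.mem_center_iff.1 hz' g).symm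
  have e3 : (d * z) * (d' * z') = (d * d') * (z * z') := by
    rw [mul_assoc, ← mul_assoc z, e1 d', mul_assoc, mul_assoc]
  have e4 : (d' * z') * (d * z) = (d' * d) * (z * z') := by
    rw [mul_assoc, ← mul_assoc z', e2 d, mul_assoc, mul_assoc, e2 z]
  rw [commutatorElement_def, commutatorElement_def, mul_assoc (d * z * (d' * z')),
    ← mul_inv_rev, e3, e4]
  group

theorem comm_of_perfect {G : Type*} [Group G] (D : Subgroup G) (hD : ⁅D, D⁆ = D) (x : G)
    (h : ∀ e ∈ D, ⁅x, e⁆ ∈ Subgroup.center G) : ∀ e ∈ D, e * x = x * e := by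
  have h1 : ⁅D, D⁆ ≤ Subgroup.centralizer {x} := by
    rw [Subgroup.commutator_le]
    intro a ha b hb
    rw [Subgroup.mem_centralizer_singleton_iff]
    have h2 : x * ⁅a, b⁆ * x⁻¹ = ⁅a, b⁆ := by
      have h3 : x * a * x⁻¹ = a * ⁅x, a⁆ := by
        rw [Subgroup.mem_center_iff.1 (h a ha) a, commutatorElement_def]; group
      have h4 : x * b * x⁻¹ = b * ⁅x, b⁆ := by
        rw [Subgroup.mem_center_iff.1 (h b hb) b, commutatorElement_def]; group
      rw [conjugate_commutatorElement, h3, h4, comm_central (h a ha) (h b hb)]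
    have h5 := congrArg (· * x) h2
    simp only [inv_mul_cancel_right] at h5
    exact h5.symm
  intro e he
  have := h1 (hD.symm ▸ he)
  exact Subgroup.mem_centralizer_singleton_iff.1 this

theorem qs_aux {G : Type*} [Group G] (Z : Subgroup G) (hZ : Z ≤ Subgroup.center G) [Z.Normal]
    (hker : (QuotientGroup.mk' Z).ker = Z) (D : Subgroup G) (Eb : Subgroup (G ⧸ Z))
    (hmap : D.map (QuotientGroup.mk' Z) = Eb) (hDD : ⁅D, D⁆ = D) (hDp : Group.IsPerfect D)
    (hs : IsSimpleGroup (Eb ⧸ Subgroup.center Eb)) : IsQuasisimple D := by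
  have hDmem : ∀ x : D, ((QuotientGroup.mk' Z).comp D.subtype) x ∈ Eb := fun x => by
    rw [← hmap]; exact ⟨x, x.2, rfl⟩
  have hf₁s : Function.Surjective (((QuotientGroup.mk' Z).comp D.subtype).codRestrict Eb hDmem) := by
    rintro ⟨y, hy⟩
    have hy' := hy
    rw [← hmap] at hy'
    obtain ⟨d, hd, hdy⟩ := hy'
    exact ⟨⟨d, hd⟩, Subtype.ext hdy⟩
  apply quasisimple_of_surjective ((QuotientGroup.mk' (Subgroup.center Eb)).comp
    (((QuotientGroup.mk' Z).comp D.subtype).codRestrict Eb hDmem))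
    ((QuotientGroup.mk'_surjective _).comp hf₁s) _ hs hDp
  intro x hx
  rw [MonoidHom.mem_ker, MonoidHom.comp_apply] at hx
  have hx1 := (QuotientGroup.eq_one_iff _).1 hx
  have hx2 : ∀ e ∈ D, ⁅(x : G), e⁆ ∈ Subgroup.center G := by
    intro e he
    apply hZ
    have h1 := Subgroup.mem_center_iff.1 hx1
      (((QuotientGroup.mk' Z).comp D.subtype).codRestrict Eb hDmem ⟨e, he⟩)
    have h2 : (QuotientGroup.mk' Z) e * (QuotientGroup.mk' Z) (x : G) =
        (QuotientGroup.mk' Z) (x : G) * (QuotientGroup.mk' Z) e := congrArg Subtype.val h1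
    rw [← hker, MonoidHom.mem_ker, map_commutatorElement, commutatorElement_eq_one_iff_mul_comm, h2]
  have h3 := comm_of_perfect D hDD (x : G) hx2
  rw [Subgroup.mem_center_iff]
  intro e
  apply Subtype.ext
  exact h3 e e.2

/-- Let Z ≤ Z(G) be a central subgroup of a finite group G and E a subgroup of G containing Z whose image E/Z is a component of G/Z (subnormal and quasisimple). Then the derived subgroup [E, E] is a component of G. -/
theorem result {G : Type*} [Group G] [Finite G] (Z : Subgroup G) (hZ : Z ≤ Subgroup.center G) [Z.Normal] (E : Subgroup G) (hZE : Z ≤ E) (hE : Cfsg.IsComponent (E.map (QuotientGroup.mk' Z))) : Cfsg.IsComponent ⁅E, E⁆ := by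
  set π : G →* G ⧸ Z := QuotientGroup.mk' Z with hπ
  have hker : π.ker = Z := QuotientGroup.ker_mk' Z
  have hEsub : E.IsSubnormal := by
    have h1 := hE.1.comap π
    rwa [Subgroup.comap_map_eq, hker, sup_eq_left.2 hZE] at h1
  have hperf : ⁅E.map π, E.map π⁆ = E.map π := component_commutator_eq hE
  have hmap : (⁅E, E⁆ : Subgroup G).map π = E.map π := by rw [Subgroup.map_commutator, hperf]
  have hsup : ⁅E, E⁆ ⊔ Z = E := by
    have h1 := congrArg (Subgroup.comap π) hmap
    rwa [Subgroup.comap_map_eq, Subgroup.comap_map_eq, hker, sup_eq_left.2 hZE] at h1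
  have hmem : ∀ a ∈ E, ∃ d ∈ ⁅E, E⁆, ∃ z ∈ Subgroup.center G, a = d * z := by
    intro a ha
    rw [← hsup] at ha
    haveI : Z.Normal := inferInstance
    obtain ⟨d, hd, z, hz, h⟩ := Subgroup.mem_sup_of_normal_right.1 ha
    exact ⟨d, hd, z, hZ hz, h.symm⟩
  set D : Subgroup G := ⁅E, E⁆ with hD
  have hDD : ⁅D, D⁆ = D := by
    apply le_antisymm (Subgroup.commutator_le_self D)
    nth_rw 1 [hD]
    rw [Subgroup.commutator_le]
    intro a ha b hb
    obtain ⟨d, hd, z, hz, rfl⟩ := hmem a ha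
    obtain ⟨d', hd', z', hz', rfl⟩ := hmem b hb
    rw [comm_central hz hz']
    exact Subgroup.commutator_mem_commutator hd hd'
  have hDE : D ≤ E := Subgroup.commutator_le_self E
  have hDp : Group.IsPerfect D := Subgroup.isPerfect_iff.2 hDD
  refine ⟨?_, ?_⟩
  · refine Subgroup.IsSubnormal.step _ E hDE hEsub ?_
    rw [Subgroup.normal_subgroupOf_iff_le_normalizer hDE]
    intro e he
    exact CfsgLib.Ward.mem_normalizer_commutator (Subgroup.le_normalizer he) (Subgroup.le_normalizer he)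
  · have hDmem : ∀ x : D, (π.comp D.subtype) x ∈ E.map π := fun x => ⟨x, hDE x.2, rfl⟩
    have hs := hE.2.2
    exact qs_aux Z hZ hker D (E.map π) hmap hDD hDp hs


end Cfsg.Agent.S3746
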