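import Cfsg.Statements.S3747
import Cfsg.Agent.LibComp3

set_option autoImplicit false
open Cfsg

namespace Cfsg.Agent.S3747

open Cfsg CfsgLib.Comp CfsgLib.Comp2 CfsgLib.Comp3
open scoped commutatorElement

theorem center_aux {G : Type*} [Group G] [Finite G] (S : Finset (Subgroup G)) :
    (∀ L ∈ S, IsComponent L ∧ Subgroup.center L = ⊥) → ∀ z ∈ S.sup id,
      (∀ L ∈ S, z ∈ Subgroup.centralizer (L : Set G)) → z = 1 := by
  classical
  induction S using Finset.induction_on with
  | empty =>
    intro _ z hz _
    simpa using hz
  | insert L S hL ih =>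
    intro hS z hz hcz
    rw [Finset.sup_insert] at hz
    have hcomm : ∀ M ∈ S, ⁅L, M⁆ = ⊥ := by
      intro M hM
      apply components_commute (hS L (Finset.mem_insert_self _ _)).1
        (hS M (Finset.mem_insert_of_mem hM)).1
      rintro rfl; exact hL hM
    have hn : L ≤ Subgroup.centralizer ((S.sup id : Subgroup G) : Set G) := by
      rw [Subgroup.le_centralizer_iff]
      apply Finset.sup_le
      intro M hM
      have := hcomm M hM
      rw [Subgroup.commutator_comm, Subgroup.commutator_eq_bot_iff_le_centralizer] at this
      exact this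
    obtain ⟨a, ha, b, hb, rfl⟩ := exists_mul_of_mem_sup (hn.trans (Subgroup.centralizer_le_normalizer _)) hz
    have hb1 : b = 1 := by
      apply ih (fun M hM => hS M (Finset.mem_insert_of_mem hM)) b hb
      intro M hM
      have h1 : a ∈ Subgroup.centralizer (M : Set G) := by
        have := hcomm M hM
        rw [Subgroup.commutator_eq_bot_iff_le_centralizer] at this
        exact this ha
      have h2 := hcz M (Finset.mem_insert_of_mem hM)
      have h3 := Subgroup.mul_mem _ (Subgroup.inv_mem _ h1) h2
      simpa using h3
    subst hb1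
    rw [mul_one] at hcz ⊢
    have h4 := hcz L (Finset.mem_insert_self _ _)
    have h5 : (⟨a, ha⟩ : L) ∈ Subgroup.center L := by
      rw [Subgroup.mem_center_iff]
      intro g
      exact Subtype.ext (Subgroup.mem_centralizer_iff.1 h4 g g.2)
    rw [(hS L (Finset.mem_insert_self _ _)).2, Subgroup.mem_bot] at h5
    exact congrArg Subtype.val h5

theorem min_aux {G : Type*} [Group G] [Finite G] {K : Subgroup G} (hK : IsComponent K)
    (hc : Subgroup.center ↥K = ⊥) : (Subgroup.normalClosure (K : Set G) ≠ ⊥ ∧
      ∀ N : Subgroup G, N.Normal → N ≤ Subgroup.normalClosure (K : Set G) →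
        N = ⊥ ∨ N = Subgroup.normalClosure (K : Set G)) := by
  classical
  have hsub : K ≤ Subgroup.normalClosure (K : Set G) := Subgroup.subset_normalClosure
  refine ⟨fun h => component_ne_bot hK (le_bot_iff.1 (hsub.trans h.le)), ?_⟩
  intro N hN hNC
  rcases component_le_or_commute hK hN.isSubnormal with h | h
  · right
    haveI := hN
    exact le_antisymm hNC (Subgroup.normalClosure_le_normal h)
  · left
    -- finset of conjugates
    have hfin : (Set.range fun g : G => K.map (MulAut.conj g).toMonoidHom).Finite := Set.toFinite _
    have hcl : Subgroup.normalClosure (K : Set G) ≤ hfin.toFinset.sup id := by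
      haveI : (hfin.toFinset.sup id : Subgroup G).Normal := by
        constructor
        intro x hx g
        have h1 : (hfin.toFinset.sup id : Subgroup G) ≤
            (hfin.toFinset.sup id : Subgroup G).comap (MulAut.conj g).toMonoidHom := by
          apply Finset.sup_le
          intro L hL
          rw [Set.Finite.mem_toFinset] at hL
          obtain ⟨y, rfl⟩ := hL
          rw [id, ← Subgroup.map_le_iff_le_comap]
          have h2 : (K.map (MulAut.conj y).toMonoidHom).map (MulAut.conj g).toMonoidHom ∈ hfin.toFinset := by
            rw [Set.Finite.mem_toFinset]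
            refine ⟨g * y, ?_⟩
            rw [Subgroup.map_map]
            congr 1
            ext z; simp [mul_assoc]
          exact Finset.le_sup (f := id) h2
        exact h1 hx
      apply Subgroup.normalClosure_le_normal
      have h3 : K ∈ hfin.toFinset := by
        rw [Set.Finite.mem_toFinset]
        refine ⟨1, ?_⟩
        ext z; simp
      exact Finset.le_sup (f := id) h3
    rw [eq_bot_iff]
    intro z hz
    rw [Subgroup.mem_bot]
    apply center_aux hfin.toFinset _ z (hcl (hNC hz))
    · intro L hL
      rw [Set.Finite.mem_toFinset] at hL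
      obtain ⟨g, rfl⟩ := hL
      rw [Subgroup.commutator_comm, Subgroup.commutator_eq_bot_iff_le_centralizer] at h
      rw [Subgroup.mem_centralizer_iff]
      rintro _ ⟨k, hk, rfl⟩
      have h4 : g⁻¹ * z * g ∈ N := by simpa using hN.conj_mem z hz g⁻¹
      have h5 := Subgroup.mem_centralizer_iff.1 (h h4) k hk
      change g * k * g⁻¹ * z = z * (g * k * g⁻¹)
      calc g * k * g⁻¹ * z = g * (k * (g⁻¹ * z * g)) * g⁻¹ := by group
        _ = g * (g⁻¹ * z * g * k) * g⁻¹ := by rw [h5]
        _ = _ := by group
    · intro L hL
      rw [Set.Finite.mem_toFinset] at hL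
      obtain ⟨g, rfl⟩ := hL
      refine ⟨isComponent_map_equiv (MulAut.conj g) hK, ?_⟩
      have h6 := map_center_equiv (K.equivMapOfInjective (MulAut.conj g).toMonoidHom (MulAut.conj g).injective)
      rw [hc, Subgroup.map_bot] at h6
      exact h6.symm

/-- Let G be a finite group. (a) If K is a component of G with trivial centre, then the normal closure of K in G is a minimal normal subgroup of G. (b) If the Fitting subgroup of G is trivial, then the layer E(G) is generated by the minimal normal subgroups of G. -/
theorem result {G : Type*} [Group G] [Finite G] : (∀ K : Subgroup G, Cfsg.IsComponent K → Subgroup.center ↥K = ⊥ → (Subgroup.normalClosure (K : Set G) ≠ ⊥ ∧ ∀ N : Subgroup G, N.Normal → N ≤ Subgroup.normalClosure (K : Set G) → N = ⊥ ∨ N = Subgroup.normalClosure (K : Set G))) ∧ (Cfsg.fittingSubgroup G = ⊥ → sSup {N : Subgroup G | N ≠ ⊥ ∧ N.Normal ∧ ∀ N' : Subgroup G, N'.Normal → N' ≤ N → N' = ⊥ ∨ N' = N} = Cfsg.layer G) := by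
  refine ⟨fun K hK hc => min_aux hK hc, ?_⟩
  intro hF
  apply le_antisymm
  · apply sSup_le
    rintro N ⟨hne, hN, hmin⟩
    haveI := hN
    rcases hmin (N ⊓ layer G) inferInstance inf_le_left with h | h
    · exfalso
      apply hne
      have h1 : ⁅N, layer G⁆ = ⊥ := by
        rw [eq_bot_iff, ← h]
        exact Subgroup.commutator_le_inf N (layer G)
      rw [Subgroup.commutator_eq_bot_iff_le_centralizer] at h1
      have h2 : generalizedFittingSubgroup G = layer G := by
        rw [generalizedFittingSubgroup, hF, sup_bot_eq]
      have h3 := centralizer_gfitting_le (G := G)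
      rw [h2] at h3
      rw [← h]
      exact (inf_eq_left.2 (h1.trans h3)).symm
    · exact inf_eq_left.1 h
  · rw [layer]
    apply sSup_le
    intro K hK
    have hc : Subgroup.center ↥K = ⊥ := by
      rw [← Subgroup.map_eq_bot_iff_of_injective _ K.subtype_injective, eq_bot_iff, ← hF]
      apply le_fitting_of_subnormal_nilpotent
      · exact (inferInstance : (Subgroup.center K).Normal).isSubnormal.trans' hK.1
      · haveI : Group.IsNilpotent (Subgroup.center K) := nilpotent_of_comm (by
          rintro ⟨a, ha⟩ ⟨b, hb⟩
          exact Subtype.ext (Subgroup.mem_center_iff.1 hb a))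
        exact Group.nilpotent_of_mulEquiv
          ((Subgroup.center K).equivMapOfInjective _ K.subtype_injective)
    have h1 := min_aux hK hc
    have h2 : K ≤ Subgroup.normalClosure (K : Set G) := Subgroup.subset_normalClosure
    exact h2.trans (le_sSup ⟨h1.1, Subgroup.normalClosure_normal, h1.2⟩)


end Cfsg.Agent.S3747
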