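import Cfsg.Statements.S3748
import Cfsg.Agent.LibH2Subn
import Cfsg.Agent.LibComp3

set_option autoImplicit false
open Cfsg

namespace Cfsg.Agent.S3748

/-- Call a proper subgroup M of G primitive when M = N_G(N) for every non-trivial normal subgroup N of M. If M is a primitive subgroup of the finite group G, then no non-trivial subnormal subgroup of G is contained in M; in particular M ∩ F(G) = 1. -/
theorem result {G : Type*} [Group G] [Finite G] (M : Subgroup G) (hM : M ≠ ⊤) (hprim : ∀ N : Subgroup G, N ≤ M → M ≤ Subgroup.normalizer (N : Set G) → N ≠ ⊥ → Subgroup.normalizer (N : Set G) = M) : (∀ L : Subgroup G, L.IsSubnormal → L ≤ M → L = ⊥) ∧ M ⊓ Cfsg.fittingSubgroup G = ⊥ := by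
  have key : ∀ L : Subgroup G, L.IsSubnormal → L ≤ M → L = ⊥ := by
    intro L₀ hL₀ hL₀M
    set S : Set (Subgroup G) := {U | U.IsSubnormal ∧ U ≤ M} with hS
    set L : Subgroup G := sSup S with hL
    have hLsn : L.IsSubnormal := CfsgLib.H2Subn.sSup_subnormal S fun U hU => hU.1
    have hLM : L ≤ M := sSup_le fun U hU => hU.2
    have hmem : L₀ ≤ L := le_sSup ⟨hL₀, hL₀M⟩
    by_contra hne
    have hLne : L ≠ ⊥ := fun h => hne (le_bot_iff.1 (hmem.trans h.le))
    have hMN : M ≤ Subgroup.normalizer (L : Set G) := by
      have hinv : ∀ m ∈ M, L.map (MulAut.conj m).toMonoidHom ≤ L := by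
        intro m hm
        rw [Subgroup.map_le_iff_le_comap]
        apply sSup_le
        intro U hU
        rw [← Subgroup.map_le_iff_le_comap]
        apply le_sSup
        refine ⟨hU.1.map (MulAut.conj m).surjective, ?_⟩
        rintro _ ⟨u, hu, rfl⟩
        exact M.mul_mem (M.mul_mem hm (hU.2 hu)) (M.inv_mem hm)
      intro m hm
      rw [Subgroup.mem_normalizer_iff]
      intro x
      constructor
      · intro hx
        exact hinv m hm ⟨x, hx, rfl⟩
      · intro hx
        have := hinv m⁻¹ (M.inv_mem hm) ⟨_, hx, rfl⟩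
        simpa [mul_assoc] using this
    have hN := hprim L hLM hMN hLne
    have hind : ∀ U : Subgroup G, U.IsSubnormal → U = L → False := by
      intro U hU
      induction hU with
      | top => intro h; exact hM (top_le_iff.1 (h.le.trans hLM))
      | step U K hle hK hn ih =>
        intro hUL
        have h1 : K ≤ M := by
          rw [← hN, ← hUL]
          exact (Subgroup.normal_subgroupOf_iff_le_normalizer hle).1 hn
        have h2 : K ≤ L := le_sSup ⟨hK, h1⟩
        exact ih (le_antisymm h2 (hUL ▸ hle))
    exact hind L hLsn rfl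
  refine ⟨key, ?_⟩
  apply key _ _ inf_le_left
  have hF : (Cfsg.fittingSubgroup G).IsSubnormal := CfsgLib.Comp3.fitting_subnormal
  apply CfsgLib.Comp3.isSubnormal_of_subgroupOf inf_le_right hF
  haveI : Group.IsNilpotent (Cfsg.fittingSubgroup G) := CfsgLib.Cores.fittingSubgroup_isNilpotent
  exact CfsgLib.H2Subn.isSubnormal_of_isNilpotent _


end Cfsg.Agent.S3748
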