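import Cfsg.Statements.S3749
import Cfsg.Agent.LibFpf
import Cfsg.Agent.LibSolvCoprime
import Cfsg.Agent.LibCores

set_option autoImplicit false
open Cfsg

namespace Cfsg.Agent.S3749

open CfsgLib.SolvCoprime CfsgLib.Fpf CfsgLib.SolvBasic
open scoped Pointwise

/-- Call a proper subgroup M of G primitive when M = N_G(N) for every non-trivial normal subgroup N of M. Let M be a primitive subgroup of the finite group G, p a prime with O_p(M) ≠ 1, and N a normal subgroup of G with M ∩ N = 1. Then p does not divide the order of N; for every prime q there is exactly one Sylow q-subgroup of N normalized by M; and if the order of N has at least two prime divisors then M is not a maximal subgroup of G. -/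
theorem result {G : Type*} [Group G] [Finite G] (M : Subgroup G) (hM : M ≠ ⊤) (hprim : ∀ N : Subgroup G, N ≤ M → M ≤ Subgroup.normalizer (N : Set G) → N ≠ ⊥ → Subgroup.normalizer (N : Set G) = M) {p : ℕ} [Fact p.Prime] (hOp : Cfsg.pCore p ↥M ≠ ⊥) (N : Subgroup G) [N.Normal] (hMN : M ⊓ N = ⊥) : ¬ p ∣ Nat.card N ∧ (∀ q : ℕ, [Fact q.Prime] → ∃! Q : Sylow q ↥N, M ≤ Subgroup.normalizer ((Q : Subgroup ↥N).map N.subtype : Set G)) ∧ ((∃ q r : ℕ, q.Prime ∧ r.Prime ∧ q ≠ r ∧ q ∣ Nat.card N ∧ r ∣ Nat.card N) → ¬ IsCoatom M) := by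
  classical
  set P : Subgroup G := (Cfsg.pCore p ↥M).map M.subtype with hPdef
  have hPM : P ≤ M := Subgroup.map_subtype_le _
  have hPne : P ≠ ⊥ := fun h => hOp ((Subgroup.map_eq_bot_iff_of_injective _ M.subtype_injective).1 h)
  have hMP : M ≤ Subgroup.normalizer (P : Set G) := by
    rw [← Subgroup.normal_subgroupOf_iff_le_normalizer hPM, hPdef, Subgroup.subgroupOf,
      Subgroup.comap_map_eq_self_of_injective M.subtype_injective]
    infer_instance
  have hNP := hprim P hPM hMP hPne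
  have hPp : IsPGroup p P := (CfsgLib.Cores.pCore_isPGroup p).map _
  haveI hPnil : Group.IsNilpotent P := hPp.isNilpotent
  have hPs : Group.IsSolvable P := inferInstance
  have hNtop : Subgroup.normalizer (N : Set G) = ⊤ := Subgroup.normalizer_eq_top N
  have hPN : P ≤ Subgroup.normalizer (N : Set G) := hNtop ▸ le_top
  have hfix : N ⊓ Subgroup.centralizer (P : Set G) = ⊥ := by
    rw [eq_bot_iff]
    intro x hx
    have h1 : x ∈ M := by
      rw [← hNP]
      exact Subgroup.centralizer_le_normalizer _ hx.2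
    rw [← hMN]
    exact Subgroup.mem_inf.2 ⟨h1, hx.1⟩
  have hco : (Nat.card P).Coprime (Nat.card N) := coprime_of_fpf hPp hPN hfix
  have hpN : ¬ p ∣ Nat.card N := by
    intro h
    have h1 : p ∣ Nat.card P := by
      obtain ⟨n, hn⟩ := IsPGroup.iff_card.1 hPp
      rw [hn]
      rcases Nat.eq_zero_or_pos n with h0 | h0
      · exfalso; apply hPne; rw [h0, pow_zero] at hn
        exact Subgroup.card_eq_one.1 hn
      · exact dvd_pow_self _ h0.ne'
    have h2 := Nat.dvd_gcd h1 h
    rw [Nat.Coprime] at hco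
    rw [hco] at h2
    exact (Fact.out : p.Prime).one_lt.ne' (Nat.dvd_one.1 h2)
  have huniq : ∀ (q : ℕ) [Fact q.Prime] (Q₁ Q₂ : Subgroup G), IsSylowIn q Q₁ N → IsSylowIn q Q₂ N →
      P ≤ Subgroup.normalizer (Q₁ : Set G) → P ≤ Subgroup.normalizer (Q₂ : Set G) → Q₁ = Q₂ := by
    intro q _ Q₁ Q₂ h1 h2 h3 h4
    obtain ⟨k, hk, hkc⟩ := h1.exists_conj h2
    obtain ⟨c, hc, hcc⟩ := exists_centralizer_conj P N Q₁ Q₂ hPN hco (Or.inl hPs) h3 h4 k hk hkc
    rw [hfix, Subgroup.mem_bot] at hc
    rw [hc, map_one, one_smul] at hcc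
    exact hcc
  have hinv : ∀ (q : ℕ) [Fact q.Prime] (Q : Subgroup G), IsSylowIn q Q N →
      P ≤ Subgroup.normalizer (Q : Set G) → M ≤ Subgroup.normalizer (Q : Set G) := by
    intro q _ Q h1 h2 m hm
    rw [mem_normalizer_iff_conj_smul]
    apply huniq q _ _ (h1.conj_of_normalizes (hNtop ▸ Subgroup.mem_top m)) h1 _ h2
    intro x hx
    have h5 : m⁻¹ * x * m ∈ P := by
      have := (Subgroup.mem_normalizer_iff.1 (hMP (M.inv_mem hm)) x).1 hx
      simpa using this
    have h6 := mem_normalizer_iff_conj_smul.1 (h2 h5)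
    rw [mem_normalizer_iff_conj_smul]
    calc MulAut.conj x • MulAut.conj m • Q = MulAut.conj m • MulAut.conj (m⁻¹ * x * m) • Q := by
          rw [smul_smul, smul_smul, ← map_mul, ← map_mul]; congr 2; group
      _ = _ := by rw [h6]
  refine ⟨hpN, ?_, ?_⟩
  · intro q _
    obtain ⟨Q, hQ, hQP⟩ := exists_invariant_sylow P N hPN hco (Or.inl hPs) q
    obtain ⟨S, hS⟩ := hQ.exists_sylow
    refine ⟨S, ?_, ?_⟩
    · change M ≤ Subgroup.normalizer ((S : Subgroup ↥N).map N.subtype : Set G)
      rw [hS]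
      exact hinv q Q hQ hQP
    · intro S' hS'
      have h1 := huniq q _ _ (IsSylowIn.ofSylow S') hQ (hPM.trans hS') hQP
      rw [← hS] at h1
      exact Sylow.ext (Subgroup.map_injective N.subtype_injective h1)
  · rintro ⟨q, r, hq, hr, hqr, hqN, hrN⟩ hco'
    haveI : Fact q.Prime := ⟨hq⟩
    obtain ⟨Q, hQ, hQP⟩ := exists_invariant_sylow P N hPN hco (Or.inl hPs) q
    have hQM := hinv q Q hQ hQP
    have h1 := card_sup_of_le_normalizer hQM
    have h2 := card_sup_of_le_normalizer (N := N) (H := M) (hNtop ▸ le_top)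
    have h3 : Q ⊓ M = ⊥ := by
      rw [eq_bot_iff, ← hMN]
      exact le_inf inf_le_right (inf_le_left.trans hQ.le)
    have h4 : N ⊓ M = ⊥ := by rw [inf_comm, hMN]
    have h5 : Q ⊔ M = ⊤ := by
      apply hco'.2
      rw [lt_iff_le_and_ne]
      refine ⟨le_sup_right, ?_⟩
      intro h
      have h6 : Q ≤ M := by rw [h]; exact le_sup_left
      have h7 : Q = ⊥ := by rw [← h3]; exact le_antisymm (le_inf le_rfl h6) inf_le_left
      apply hQ.not_dvd
      rw [h7, Subgroup.relIndex_bot_left]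
      exact hqN
    have h6 : N ⊔ M = ⊤ := by
      rw [eq_top_iff, ← h5]
      exact sup_le_sup_right hQ.le _
    rw [h3, h5] at h1
    rw [h4, h6] at h2
    have h7 : Nat.card Q * Nat.card M = Nat.card N * Nat.card M := by rw [← h1, ← h2]
    have h8 := Nat.eq_of_mul_eq_mul_right Nat.card_pos h7
    obtain ⟨n, hn⟩ := IsPGroup.iff_card.1 hQ.isPGroup
    rw [← h8, hn] at hrN
    exact hqr ((Nat.prime_dvd_prime_iff_eq hr hq).1 (hr.dvd_of_dvd_pow hrN)).symm


end Cfsg.Agent.S3749
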