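import Cfsg.Statements.S3750
import Cfsg.Agent.LibComp3
import Cfsg.Agent.S3748

set_option autoImplicit false
open Cfsg

namespace Cfsg.Agent.S3750

open Cfsg CfsgLib.Comp CfsgLib.Comp2 CfsgLib.Comp3
open scoped commutatorElement

/-- Call a proper subgroup M of G primitive when M = N_G(N) for every non-trivial normal subgroup N of M. Let M be a primitive subgroup of the finite group G and N a normal subgroup of G with M ∩ F*(N) ≠ 1. Then F(G) = 1 and F*(N) = F*(G) = E(G); in particular every minimal normal subgroup of G is contained in N. -/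
theorem result {G : Type*} [Group G] [Finite G] (M : Subgroup G) (hM : M ≠ ⊤) (hprim : ∀ N : Subgroup G, N ≤ M → M ≤ Subgroup.normalizer (N : Set G) → N ≠ ⊥ → Subgroup.normalizer (N : Set G) = M) (N : Subgroup G) [N.Normal] (hMF : M ⊓ (Cfsg.generalizedFittingSubgroup ↥N).map N.subtype ≠ ⊥) : Cfsg.fittingSubgroup G = ⊥ ∧ (Cfsg.generalizedFittingSubgroup ↥N).map N.subtype = Cfsg.generalizedFittingSubgroup G ∧ Cfsg.generalizedFittingSubgroup G = Cfsg.layer G ∧ ∀ K : Subgroup G, K.Normal → K ≠ ⊥ → (∀ K' : Subgroup G, K'.Normal → K' ≤ K → K' = ⊥ ∨ K' = K) → K ≤ N := by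
  have key := (Cfsg.Agent.S3748.result M hM hprim).1
  have hFN : (generalizedFittingSubgroup ↥N).map N.subtype = generalizedFittingSubgroup G ⊓ N :=
    (gfitting_inf_subnormal (inferInstance : N.Normal).isSubnormal).symm
  rw [hFN] at hMF ⊢
  set D : Subgroup G := M ⊓ (generalizedFittingSubgroup G ⊓ N) with hD
  have hMD : M ≤ Subgroup.normalizer (D : Set G) := by
    have h1 : Subgroup.normalizer ((generalizedFittingSubgroup G ⊓ N : Subgroup G) : Set G) = ⊤ :=
      Subgroup.normalizer_eq_top _
    refine le_trans (le_inf Subgroup.le_normalizer ?_) Subgroup.inf_normalizer_le_normalizer_inf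
    rw [h1]; exact le_top
  have hND := hprim D inf_le_left hMD hMF
  have hcen : ∀ X : Subgroup G, X ≤ Subgroup.centralizer ((generalizedFittingSubgroup G ⊓ N : Subgroup G) : Set G) →
      X ≤ M := by
    intro X hX
    rw [← hND]
    refine hX.trans (le_trans ?_ (Subgroup.centralizer_le_normalizer _))
    exact Subgroup.centralizer_le (SetLike.coe_subset_coe.2 inf_le_right)
  have hF : fittingSubgroup G = ⊥ := by
    by_contra hne
    set F := fittingSubgroup G with hFdef
    have hZ : F ⊓ Subgroup.centralizer (F : Set G) = ⊥ := by
      apply key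
      · exact (inferInstance : (F ⊓ Subgroup.centralizer (F : Set G)).Normal).isSubnormal
      · apply hcen
        have h1 : F ⊓ Subgroup.centralizer (F : Set G) ≤ Subgroup.centralizer (generalizedFittingSubgroup G : Set G) := by
          rw [Subgroup.le_centralizer_iff, generalizedFittingSubgroup]
          apply sup_le
          · have h2 := layer_commute_fitting (G := G)
            rw [Subgroup.commutator_eq_bot_iff_le_centralizer] at h2
            exact h2.trans (Subgroup.centralizer_le (SetLike.coe_subset_coe.2 inf_le_left))
          · rw [Subgroup.le_centralizer_iff]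
            exact inf_le_right
        exact h1.trans (Subgroup.centralizer_le (SetLike.coe_subset_coe.2 inf_le_left))
    haveI : Group.IsNilpotent F := CfsgLib.Cores.fittingSubgroup_isNilpotent
    rw [← map_center_eq, Subgroup.map_eq_bot_iff_of_injective _ F.subtype_injective] at hZ
    haveI : Nontrivial F := (Subgroup.nontrivial_iff_ne_bot _).2 hne
    exact Group.IsNilpotent.center_ne_bot _ hZ
  have hgl : generalizedFittingSubgroup G = layer G := by
    rw [generalizedFittingSubgroup, hF, sup_bot_eq]
  have hlN : layer G ≤ N := by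
    apply component_cases (inferInstance : N.Normal).isSubnormal
    · intro K _ h; exact h
    · intro K hK hKN
      exfalso
      apply component_ne_bot hK
      apply key K hK.1
      apply hcen
      rw [Subgroup.commutator_eq_bot_iff_le_centralizer] at hKN
      exact hKN.trans (Subgroup.centralizer_le (SetLike.coe_subset_coe.2 inf_le_right))
  refine ⟨hF, inf_eq_left.2 (hgl ▸ hlN), hgl, ?_⟩
  intro K hK hKne hmin
  haveI := hK
  rcases hmin (K ⊓ N) inferInstance inf_le_left with h | h
  · exfalso
    apply hKne
    apply key K hK.isSubnormal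
    apply hcen
    have h1 : ⁅K, N⁆ = ⊥ := by
      rw [eq_bot_iff, ← h]
      exact Subgroup.commutator_le_inf K N
    rw [Subgroup.commutator_eq_bot_iff_le_centralizer] at h1
    exact h1.trans (Subgroup.centralizer_le (SetLike.coe_subset_coe.2 inf_le_right))
  · exact inf_eq_left.1 h


end Cfsg.Agent.S3750
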