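import Cfsg.Statements.S3754
import Mathlib
import Cfsg.Agent.LibPSolv19
import Cfsg.Agent.LibHHNorm
import Cfsg.Agent.LibLE3
import Cfsg.Agent.LibTransFus
import Cfsg.Agent.LibH2Lift
import Cfsg.Agent.LibSolvFrat
import Cfsg.Agent.LibCoprime2

set_option autoImplicit false
open Cfsg

namespace Cfsg.Agent.S3754

open Subgroup Cfsg
open scoped commutatorElement

/-- `p'`-elements whose `k`-th power, `k` a power of `p`, lies in a subgroup -/
theorem cop_mem {H : Type*} [Group H] [Finite H] {p : ℕ} (hp : p.Prime) {x : H} (hx : (orderOf x).Coprime p) {k : ℕ} {N : Subgroup H} (h : x ^ (p ^ k) ∈ N) : x ∈ N := by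
  have h1 : x ∈ Subgroup.zpowers (x ^ (p ^ k)) := by
    rw [mem_zpowers_pow_iff]
    exact (Nat.Coprime.pow_right k hx).symm
  exact (Subgroup.zpowers_le.2 h) h1

theorem cop_one {H : Type*} [Group H] [Finite H] {p : ℕ} (hp : p.Prime) {x : H} (hx : (orderOf x).Coprime p) {Y : Subgroup H} (hY : IsPGroup p Y) (hxY : x ∈ Y) : x = 1 := by
  obtain ⟨k, hk⟩ := hY ⟨x, hxY⟩
  have h1 : x ^ (p ^ k) ∈ (⊥ : Subgroup H) := by
    rw [mem_bot]; exact congrArg Subtype.val hk
  exact (mem_bot.1 (cop_mem hp hx h1))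

/-- a `p'`-element of a product `A K`, `A` a `p`-group normalizing `K`, lies in `K` -/
theorem cop_mem_sup {H : Type*} [Group H] [Finite H] {p : ℕ} (hp : p.Prime) {A K : Subgroup H} (hA : IsPGroup p A)
    (hAK : A ≤ normalizer (K : Set H)) {x : H} (hx : (orderOf x).Coprime p) (hxs : x ∈ A ⊔ K) : x ∈ K := by
  set L := A ⊔ K with hL
  have hLK : L ≤ normalizer (K : Set H) := sup_le hAK le_normalizer
  haveI hn : (K.subgroupOf L).Normal := normal_subgroupOf_of_le_normalizer hLK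
  obtain ⟨a, ha, k, hk, hak⟩ := (CfsgLib.LE.mem_sup_of_le_normalizer hAK).1 hxs
  obtain ⟨j, hj⟩ := hA ⟨a, ha⟩
  have hj' : a ^ (p ^ j) = 1 := congrArg Subtype.val hj
  have haL : a ∈ L := mem_sup_left ha
  have h1 : ((⟨x, hxs⟩ : L) : L ⧸ K.subgroupOf L) = ((⟨a, haL⟩ : L) : L ⧸ K.subgroupOf L) := by
    rw [eq_comm, QuotientGroup.eq]
    show a⁻¹ * x ∈ K
    rw [← hak, inv_mul_cancel_left]; exact hk
  have h2 : ((⟨x, hxs⟩ : L) ^ (p ^ j)) ∈ K.subgroupOf L := by
    rw [← QuotientGroup.eq_one_iff, QuotientGroup.mk_pow, h1, ← QuotientGroup.mk_pow, QuotientGroup.eq_one_iff]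
    show a ^ (p ^ j) ∈ K
    rw [hj']; exact K.one_mem
  exact cop_mem hp hx h2

/-- `p'`-elements can be lifted to `p'`-elements -/
theorem lift_cop {G H : Type*} [Group G] [Finite G] [Group H] [Finite H] (f : G →* H) {p : ℕ} [hp : Fact p.Prime] {y : G} (hy : (orderOf (f y)).Coprime p) :
    ∃ x ∈ zpowers y, (orderOf x).Coprime p ∧ f x = f y := by
  obtain ⟨a, ha, b, hb, hab, ⟨k, hk⟩, hbc⟩ := CfsgLib.TransFus.exists_p_p'_decomp p y
  refine ⟨b, hb, hbc, ?_⟩
  have h1 : f a ∈ zpowers (f y) := by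
    obtain ⟨i, rfl⟩ := ha
    exact ⟨i, by simp⟩
  have h2 : orderOf (f a) ∣ orderOf (f y) := orderOf_dvd_of_mem_zpowers h1
  have h3 : orderOf (f a) ∣ p ^ k := by rw [← hk]; exact orderOf_map_dvd f a
  have h4 : orderOf (f a) = 1 := Nat.eq_one_of_dvd_coprimes (Nat.Coprime.pow_right k hy) h2 h3
  rw [orderOf_eq_one_iff] at h4
  rw [hab, map_mul, h4, one_mul]

/-- the commutator trick -/
theorem comm_trick {H : Type*} [Group H] {p : ℕ} {a x c : H} (hc : x * a * x⁻¹ * a⁻¹ = c) (hca : c * a = a * c) (hap : a ^ p = 1) :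
    c ^ p = 1 := by
  -- `a x⁻¹ a⁻¹ = x⁻¹ c`
  have h1 : a * x⁻¹ * a⁻¹ = x⁻¹ * c := by rw [← hc]; group
  have h2 : ∀ i : ℕ, a ^ i * x⁻¹ * (a ^ i)⁻¹ = x⁻¹ * c ^ i := by
    intro i
    induction i with
    | zero => simp
    | succ i ih =>
      have h3 : a * c ^ i * a⁻¹ = c ^ i := by
        have : Commute c a := hca
        rw [← (this.pow_left i).eq]; group
      calc a ^ (i + 1) * x⁻¹ * (a ^ (i + 1))⁻¹ = a * (a ^ i * x⁻¹ * (a ^ i)⁻¹) * a⁻¹ := by rw [pow_succ']; group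
        _ = (a * x⁻¹ * a⁻¹) * (a * c ^ i * a⁻¹) := by rw [ih]; group
        _ = x⁻¹ * c ^ (i + 1) := by rw [h1, h3, pow_succ']; group
  have h3 := h2 p
  rw [hap] at h3
  have h4 : x⁻¹ = x⁻¹ * c ^ p := by
    calc x⁻¹ = 1 * x⁻¹ * 1⁻¹ := by group
      _ = _ := h3
  exact (mul_left_cancel (h4.symm.trans (mul_one _).symm))


/-- Let M be a finite p-soluble group and A a p-subgroup of M with Φ(A) ≤ O_p(M) but A ≰ O_p(M). Then there is x ∈ O_{p,p'}(M) such that L = ⟨A, xAx⁻¹⟩ satisfies: x ∈ O^p(L) and O^p(L) ≤ O_{p,p'}(M); [O^p(L), A] = O^p(L); A ∩ O_p(L) has index p in A; and [A ∩ O_p(L), L] ≤ O_p(M). Here O^p(L) is the subgroup generated by the p'-elements of L and O_{p,p'}(M) the preimage of O_{p'}(M/O_p(M)). -/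
theorem result {M : Type*} [Group M] [Finite M] {p : ℕ} [Fact p.Prime] (hM : Cfsg.IsPSolvable p M) (A : Subgroup M) (hA : IsPGroup p A) (hΦ : (frattini ↥A).map A.subtype ≤ Cfsg.pCore p M) (hnot : ¬ A ≤ Cfsg.pCore p M) : ∃ x ∈ (Cfsg.pPrimeCore p (M ⧸ Cfsg.pCore p M)).comap (QuotientGroup.mk' (Cfsg.pCore p M)), x ∈ (Cfsg.pResidual p ↥(A ⊔ A.map (MulAut.conj x).toMonoidHom)).map (A ⊔ A.map (MulAut.conj x).toMonoidHom).subtype ∧ (Cfsg.pResidual p ↥(A ⊔ A.map (MulAut.conj x).toMonoidHom)).map (A ⊔ A.map (MulAut.conj x).toMonoidHom).subtype ≤ (Cfsg.pPrimeCore p (M ⧸ Cfsg.pCore p M)).comap (QuotientGroup.mk' (Cfsg.pCore p M)) ∧ ⁅(Cfsg.pResidual p ↥(A ⊔ A.map (MulAut.conj x).toMonoidHom)).map (A ⊔ A.map (MulAut.conj x).toMonoidHom).subtype, A⁆ = (Cfsg.pResidual p ↥(A ⊔ A.map (MulAut.conj x).toMonoidHom)).map (A ⊔ A.map (MulAut.conj x).toMonoidHom).subtype ∧ (A ⊓ (Cfsg.pCore p ↥(A ⊔ A.map (MulAut.conj x).toMonoidHom)).map (A ⊔ A.map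 (MulAut.conj x).toMonoidHom).subtype).relIndex A = p ∧ ⁅A ⊓ (Cfsg.pCore p ↥(A ⊔ A.map (MulAut.conj x).toMonoidHom)).map (A ⊔ A.map (MulAut.conj x).toMonoidHom).subtype, A ⊔ A.map (MulAut.conj x).toMonoidHom⁆ ≤ Cfsg.pCore p M := by
  classical
  have hp : p.Prime := Fact.out
  set O := Cfsg.pCore p M with hO
  haveI hOn : O.Normal := by rw [hO]; infer_instance
  have hOp : IsPGroup p O := CfsgLib.Cores.pCore_isPGroup p
  set π := QuotientGroup.mk' O with hπ
  have hπs : Function.Surjective π := QuotientGroup.mk'_surjective O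
  have hπ1 : ∀ x : M, π x = 1 ↔ x ∈ O := fun x => QuotientGroup.eq_one_iff x
  set Kb := Cfsg.pPrimeCore p (M ⧸ O) with hKb
  haveI hKbn : Kb.Normal := by rw [hKb]; infer_instance
  have hKbc : (Nat.card Kb).Coprime p := CfsgLib.Cores.pPrimeCore_coprime p
  have hQ0 : Cfsg.pCore p (M ⧸ O) = ⊥ := CfsgLib.Cores.pCore_quotient_pCore p
  have hCK : centralizer (Kb : Set (M ⧸ O)) ≤ Kb := CfsgLib.HHNorm.centralizer_pPrimeCore_le (CfsgLib.PSolv19.psolv_quotient hp hM O) hQ0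
  set Ab := A.map π with hAb
  have hAbp : IsPGroup p Ab := hA.map π
  -- `Ab` is elementary abelian
  have hAcomm : ∀ a ∈ Ab, ∀ b ∈ Ab, a * b = b * a := by
    rintro _ ⟨a, ha, rfl⟩ _ ⟨b, hb, rfl⟩
    have h1 : ⁅(⟨a, ha⟩ : A), ⟨b, hb⟩⁆ ∈ frattini A :=
      CfsgLib.SolvFrat.commutator_le_frattini hp hA (commutator_mem_commutator (mem_top _) (mem_top _))
    have h2 : ⁅a, b⁆ ∈ O := hΦ ⟨_, h1, rfl⟩
    have h3 : π ⁅a, b⁆ = 1 := (hπ1 _).2 h2
    rw [map_commutatorElement, commutatorElement_eq_one_iff_mul_comm] at h3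
    exact h3
  have hAexp : ∀ a ∈ Ab, a ^ p = 1 := by
    rintro _ ⟨a, ha, rfl⟩
    have h1 : (⟨a, ha⟩ : A) ^ p ∈ frattini A := CfsgLib.SolvFrat.pow_mem_frattini hp hA _
    have h2 : a ^ p ∈ O := hΦ ⟨_, h1, rfl⟩
    rw [← map_pow]; exact (hπ1 _).2 h2
  haveI hAbc : IsMulCommutative Ab := ⟨⟨fun a b => Subtype.ext (hAcomm a a.2 b b.2)⟩⟩
  have hAb1 : Ab ≠ ⊥ := by
    intro h1
    apply hnot
    intro a ha
    have : π a ∈ Ab := ⟨a, ha, rfl⟩
    rw [h1, mem_bot] at this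
    exact (hπ1 a).1 this
  have hAK : Ab ≤ normalizer (Kb : Set (M ⧸ O)) := by rw [normalizer_eq_top]; exact le_top
  have hcop : (Nat.card Ab).Coprime (Nat.card Kb) := by
    obtain ⟨k, hk⟩ := IsPGroup.iff_card.1 hAbp
    rw [hk]; exact Nat.Coprime.pow_left k hKbc.symm
  have hdisjK : ∀ {X Y : Subgroup (M ⧸ O)}, IsPGroup p X → Y ≤ Kb → X ⊓ Y = ⊥ := by
    intro X Y hX hY
    apply CfsgLib.H2Lift.inf_eq_bot_of_isPGroup hX
    exact Nat.Coprime.coprime_dvd_left (Subgroup.card_dvd_of_le hY) hKbc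
  have hKcop : ∀ x ∈ Kb, (orderOf x).Coprime p := fun x hx =>
    Nat.Coprime.coprime_dvd_left (Subgroup.orderOf_dvd_natCard Kb hx) hKbc
  have hAnotC : ¬ Kb ≤ centralizer (Ab : Set (M ⧸ O)) := by
    intro h1
    apply hAb1
    have h2 : Ab ≤ centralizer (Kb : Set (M ⧸ O)) := by rwa [Subgroup.le_centralizer_iff]
    have h3 := hdisjK hAbp (hCK.trans le_rfl)
    rw [eq_bot_iff]
    have h4 := hdisjK hAbp (le_refl Kb)
    rw [← h4]
    exact le_inf le_rfl (h2.trans hCK)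
  -- the hyperplane `B`
  obtain ⟨B, hBA, ⟨a0, ha0, hAB⟩, hBC⟩ : ∃ B : Subgroup (M ⧸ O), B ≤ Ab ∧ (∃ a ∈ Ab, Ab ≤ B ⊔ zpowers a) ∧
      ¬ Kb ⊓ centralizer (B : Set (M ⧸ O)) ≤ centralizer (Ab : Set (M ⧸ O)) := by
    by_contra hcon
    push Not at hcon
    apply hAnotC
    have hgen := CfsgLib.Coprime2.generation_cyclic_quotient hAK hcop
    rw [← hgen]
    apply iSup₂_le
    rintro B ⟨h1, h2⟩
    exact hcon B h1 h2
  have hBne : B ≠ Ab := by
    rintro rfl
    exact hBC inf_le_right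
  have hBidx : B.relIndex Ab = p := by
    haveI : (B.subgroupOf Ab).Normal := by
      refine ⟨fun n hn g => ?_⟩
      have : g * n * g⁻¹ = n := by
        rw [show g * n = n * g from Subtype.ext (hAcomm g g.2 n n.2)]; group
      rw [this]; exact hn
    have h1 : ∀ q : Ab ⧸ B.subgroupOf Ab, q ∈ zpowers (((⟨a0, ha0⟩ : Ab) : Ab ⧸ B.subgroupOf Ab)) := by
      intro q
      obtain ⟨⟨y, hy⟩, rfl⟩ := QuotientGroup.mk_surjective q
      have hBn : zpowers a0 ≤ normalizer (B : Set (M ⧸ O)) := by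
        rw [zpowers_le, mem_normalizer_iff]
        intro b
        constructor
        · intro hb
          have : a0 * b * a0⁻¹ = b := by rw [hAcomm a0 ha0 b (hBA hb)]; group
          rw [this]; exact hb
        · intro hb
          have h2 : a0⁻¹ * (a0 * b * a0⁻¹) * a0 = b := by group
          have h3 : (a0 * b * a0⁻¹) * a0 = a0 * (a0 * b * a0⁻¹) := hAcomm _ (hBA hb) _ ha0
          have h4 : a0 * b * a0⁻¹ = b := by
            have : a0⁻¹ * ((a0 * b * a0⁻¹) * a0) = a0 * b * a0⁻¹ := by rw [h3]; group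
            rw [← this]; group
          rw [h4] at hb; exact hb
      obtain ⟨b, hb, z, hz, hbz⟩ := (CfsgLib.LE.mem_sup_of_le_normalizer' hBn).1 (hAB hy)
      obtain ⟨i, rfl⟩ := hz
      refine ⟨i, ?_⟩
      show (((⟨a0, ha0⟩ : Ab) ^ i : Ab) : Ab ⧸ B.subgroupOf Ab) = _
      rw [QuotientGroup.eq]
      show (a0 ^ i)⁻¹ * y ∈ B
      rw [← hbz]
      have h5 : a0 ^ i ∈ Ab := zpow_mem ha0 i
      show (a0 ^ i)⁻¹ * (b * a0 ^ i) ∈ B
      rw [hAcomm b (hBA hb) _ h5, inv_mul_cancel_left]; exact hb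
    have h2 := orderOf_eq_card_of_forall_mem_zpowers h1
    have h3 : orderOf (((⟨a0, ha0⟩ : Ab) : Ab ⧸ B.subgroupOf Ab)) ∣ p := by
      apply orderOf_dvd_of_pow_eq_one
      rw [← QuotientGroup.mk_pow]
      have : (⟨a0, ha0⟩ : Ab) ^ p = 1 := Subtype.ext (hAexp a0 ha0)
      rw [this]; rfl
    rw [h2] at h3
    rcases (Nat.dvd_prime hp).1 h3 with h4 | h4
    · exfalso
      apply hBne
      apply le_antisymm hBA
      rw [← Subgroup.relIndex_eq_one]
      exact h4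
    · exact h4
  -- the minimal invariant subgroup `R`
  obtain ⟨R, -, hRmin⟩ := (Set.toFinite {R : Subgroup (M ⧸ O) | R ≤ Kb ⊓ centralizer (B : Set (M ⧸ O)) ∧ Ab ≤ normalizer (R : Set (M ⧸ O)) ∧
      ¬ R ≤ centralizer (Ab : Set (M ⧸ O))}).exists_le_minimal (a := Kb ⊓ centralizer (B : Set (M ⧸ O))) (by
        refine ⟨le_rfl, ?_, hBC⟩
        intro a ha
        have hB2 : a ∈ normalizer (centralizer (B : Set (M ⧸ O)) : Set (M ⧸ O)) := by
          apply le_normalizer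
          rw [mem_centralizer_iff]
          intro b hb
          exact hAcomm b (hBA hb) a ha
        have hK2 := hAK ha
        rw [mem_normalizer_iff] at hB2 hK2 ⊢
        intro y
        rw [mem_inf, mem_inf, hB2 y, hK2 y])
  obtain ⟨⟨hRK, hAR, hRC⟩, hRmin⟩ := hRmin
  have hRKb : R ≤ Kb := hRK.trans inf_le_left
  have hRB : R ≤ centralizer (B : Set (M ⧸ O)) := hRK.trans inf_le_right
  obtain ⟨xb, hxR, hxC⟩ := SetLike.not_le_iff_exists.1 hRC
  -- `R ≤ ⟨Ab, Ab^x⟩`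
  have hgenR : R ≤ Ab ⊔ Ab.map (MulAut.conj xb).toMonoidHom := by
    by_contra hcon
    apply hxC
    set R0 := (Ab ⊔ Ab.map (MulAut.conj xb).toMonoidHom) ⊓ R with hR0
    have hR0C : R0 ≤ centralizer (Ab : Set (M ⧸ O)) := by
      by_contra hnc
      apply hcon
      have h1 : R ≤ R0 := hRmin ⟨inf_le_right.trans hRK, ?_, hnc⟩ inf_le_right
      · exact h1.trans inf_le_left
      · intro a ha
        have h2 : a ∈ normalizer ((Ab ⊔ Ab.map (MulAut.conj xb).toMonoidHom : Subgroup (M ⧸ O)) : Set (M ⧸ O)) :=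
          le_normalizer (mem_sup_left ha)
        have h3 := hAR ha
        rw [mem_normalizer_iff] at h2 h3 ⊢
        intro y
        rw [hR0, mem_inf, mem_inf, h2 y, h3 y]
    rw [mem_centralizer_iff]
    intro a ha
    have hc0 : xb * a * xb⁻¹ * a⁻¹ ∈ R0 := by
      refine ⟨mul_mem (mem_sup_right ⟨a, ha, rfl⟩) (mem_sup_left (inv_mem ha)), ?_⟩
      have h3 := (mem_normalizer_iff.1 (hAR ha) xb⁻¹).1 (inv_mem hxR)
      have h4 : xb * a * xb⁻¹ * a⁻¹ = xb * (a * xb⁻¹ * a⁻¹) := by group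
      rw [h4]
      exact mul_mem hxR h3
    have h5 := mem_centralizer_iff.1 (hR0C hc0) a ha
    have h6 := comm_trick rfl h5.symm (hAexp a ha)
    have h7 : xb * a * xb⁻¹ * a⁻¹ = 1 := by
      have h8 := hKcop _ (hRKb hc0.2)
      have h9 : (xb * a * xb⁻¹ * a⁻¹) ^ (p ^ 1) ∈ (⊥ : Subgroup (M ⧸ O)) := by rw [pow_one, mem_bot]; exact h6
      exact mem_bot.1 (cop_mem hp h8 h9)
    have h8 : xb * a = a * xb := by
      calc xb * a = (xb * a * xb⁻¹ * a⁻¹) * (a * xb) := by group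
        _ = a * xb := by rw [h7, one_mul]
    exact h8.symm
  -- the choice of `x`
  have hmapL : ∀ x : M, (A ⊔ A.map (MulAut.conj x).toMonoidHom).map π = Ab ⊔ Ab.map (MulAut.conj (π x)).toMonoidHom := by
    intro x
    rw [Subgroup.map_sup, Subgroup.map_map, Subgroup.map_map]
    congr 2
  obtain ⟨x0, hx0, hx0min⟩ : ∃ x : M, π x = xb ∧ ∀ y : M, π y = xb → Nat.card (A ⊔ A.map (MulAut.conj x).toMonoidHom : Subgroup M) ≤ Nat.card (A ⊔ A.map (MulAut.conj y).toMonoidHom : Subgroup M) := by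
    obtain ⟨x1, hx1⟩ := hπs xb
    obtain ⟨x, hx, hmin⟩ := (Set.toFinite {x : M | π x = xb}).exists_minimalFor (fun x => Nat.card (A ⊔ A.map (MulAut.conj x).toMonoidHom : Subgroup M)) _ ⟨x1, hx1⟩
    refine ⟨x, hx, fun y hy => ?_⟩
    rcases le_total (Nat.card (A ⊔ A.map (MulAut.conj x).toMonoidHom : Subgroup M)) (Nat.card (A ⊔ A.map (MulAut.conj y).toMonoidHom : Subgroup M)) with h | h
    · exact h
    · exact hmin hy h
  set L := A ⊔ A.map (MulAut.conj x0).toMonoidHom with hL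
  have hLmap : L.map π = Ab ⊔ Ab.map (MulAut.conj xb).toMonoidHom := by rw [hL, hmapL, hx0]
  have hRL : R ≤ L.map π := by rw [hLmap]; exact hgenR
  -- lift `xb` to `O^p(L)`
  obtain ⟨x, hxL, hxres, hxx⟩ : ∃ x : M, ∃ hx : x ∈ L, (⟨x, hx⟩ : L) ∈ Cfsg.pResidual p L ∧ π x = xb := by
    obtain ⟨l, hl, hlx⟩ := hRL hxR
    have h1 : (orderOf (π l)).Coprime p := by rw [hlx]; exact hKcop _ (hRKb hxR)
    obtain ⟨x, hx1, hx2, hx3⟩ := lift_cop π h1
    have hxL : x ∈ L := (zpowers_le.2 hl) hx1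
    refine ⟨x, hxL, ?_, by rw [hx3, hlx]⟩
    apply CfsgLib.TransFus.mem_pResidual
    rw [Subgroup.orderOf_mk]; exact hx2
  have hLx : A ⊔ A.map (MulAut.conj x).toMonoidHom = L := by
    apply Subgroup.eq_of_le_of_card_ge
    · refine sup_le le_sup_left ?_
      rintro _ ⟨a, ha, rfl⟩
      exact L.mul_mem (L.mul_mem hxL (mem_sup_left ha)) (L.inv_mem hxL)
    · exact hx0min x hxx
  have hxKb : π x ∈ Kb := by rw [hxx]; exact hRKb hxR
  have hLK : L.map π ≤ Ab ⊔ Kb := by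
    rw [hLmap]
    refine sup_le le_sup_left ?_
    rintro _ ⟨a, ha, rfl⟩
    have hx' : xb ∈ Ab ⊔ Kb := mem_sup_right (hRKb hxR)
    exact mul_mem (mul_mem hx' (mem_sup_left ha)) (inv_mem hx')
  have hAL : A ≤ L := le_sup_left
  set Res := (Cfsg.pResidual p L).map L.subtype with hRes
  have hxRes : x ∈ Res := ⟨⟨x, hxL⟩, hxres, rfl⟩
  have hnormMap : ∀ N : Subgroup L, N.Normal → L ≤ normalizer (N.map L.subtype : Set M) := by
    intro N hN g hg
    rw [mem_normalizer_iff]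
    intro y
    constructor
    · rintro ⟨z, hz, rfl⟩
      exact ⟨⟨g, hg⟩ * z * ⟨g, hg⟩⁻¹, hN.conj_mem z hz _, rfl⟩
    · rintro ⟨z, hz, hzy⟩
      refine ⟨⟨g, hg⟩⁻¹ * z * ⟨g, hg⟩⁻¹⁻¹, hN.conj_mem z hz _, ?_⟩
      have h1 : (z : M) = g * y * g⁻¹ := hzy
      show g⁻¹ * z * g⁻¹⁻¹ = y
      rw [h1]; group
  have hResN : L ≤ normalizer (Res : Set M) := hnormMap _ (CfsgLib.TransFus.pResidual_normal p)
  set OL := (Cfsg.pCore p L).map L.subtype with hOL
  have hOLN : L ≤ normalizer (OL : Set M) := hnormMap _ inferInstance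
  have hOLp : IsPGroup p OL := (CfsgLib.Cores.pCore_isPGroup p).map _
  have hBL : L.map π ≤ centralizer (B : Set (M ⧸ O)) := by
    have h1 : Ab ≤ centralizer (B : Set (M ⧸ O)) := by
      intro a ha
      rw [mem_centralizer_iff]
      intro b hb
      exact hAcomm b (hBA hb) a ha
    rw [hLmap]
    refine sup_le h1 ?_
    rintro _ ⟨a, ha, rfl⟩
    exact mul_mem (mul_mem (hRB hxR) (h1 ha)) (inv_mem (hRB hxR))
  have hAOL : A ⊓ OL = A ⊓ B.comap π := by
    apply le_antisymm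
    · intro a ha
      refine ⟨ha.1, ?_⟩
      show π a ∈ B
      by_contra hnB
      set T := Ab ⊓ centralizer (R : Set (M ⧸ O)) with hT
      have hBT : B ≤ T := le_inf hBA (by rwa [Subgroup.le_centralizer_iff])
      have haT : π a ∈ T := by
        refine mem_inf.2 ⟨⟨a, ha.1, rfl⟩, ?_⟩
        rw [mem_centralizer_iff]
        intro r hr
        obtain ⟨l, hl, rfl⟩ := hRL hr
        have h1 : ⁅π a, π l⁆ ∈ OL.map π ⊓ R := by
          refine ⟨?_, ?_⟩
          · rw [← map_commutatorElement]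
            refine ⟨_, ?_, rfl⟩
            rw [commutatorElement_def, mul_assoc, mul_assoc]
            refine OL.mul_mem ha.2 ?_
            rw [← mul_assoc]
            exact (mem_normalizer_iff.1 (hOLN hl) a⁻¹).1 (OL.inv_mem ha.2)
          · rw [commutatorElement_def]
            exact R.mul_mem ((mem_normalizer_iff.1 (hAR ⟨a, ha.1, rfl⟩) (π l)).1 hr) (R.inv_mem hr)
        rw [hdisjK (hOLp.map π) hRKb, mem_bot, commutatorElement_eq_one_iff_mul_comm] at h1
        exact h1.symm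
      have h2 := Subgroup.relIndex_mul_relIndex B T Ab hBT inf_le_left
      rw [hBidx] at h2
      rcases (Nat.dvd_prime hp).1 (Dvd.intro _ h2) with h3 | h3
      · rw [Subgroup.relIndex_eq_one] at h3
        exact hnB (h3 haT)
      · rw [h3] at h2
        have h4 : T.relIndex Ab = 1 := Nat.eq_of_mul_eq_mul_left hp.pos (h2.trans (mul_one p).symm)
        rw [Subgroup.relIndex_eq_one] at h4
        apply hRC
        rw [Subgroup.le_centralizer_iff]
        exact h4.trans inf_le_right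
    · intro a ha
      refine ⟨ha.1, ?_⟩
      have hNn : ((B.comap π).subgroupOf L).Normal := by
        refine ⟨fun n hn g => ?_⟩
        show π ((g : M) * n * (g : M)⁻¹) ∈ B
        have hn' : π (n : M) ∈ B := hn
        have h1 := mem_centralizer_iff.1 (hBL ⟨g, g.2, rfl⟩) _ hn'
        rw [map_mul, map_mul, ← h1, map_inv, mul_inv_cancel_right]
        exact hn'
      have hBp : IsPGroup p B := hAbp.to_le hBA
      have hker : IsPGroup p π.ker := by rw [hπ, QuotientGroup.ker_mk']; exact hOp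
      have hNp : IsPGroup p ((B.comap π).subgroupOf L) := (hBp.comap_of_ker_isPGroup π hker).comap_of_injective _ (subtype_injective _)
      have h1 := CfsgLib.Cores.le_pCore hNn hNp
      exact ⟨⟨a, hAL ha.1⟩, h1 ha.2, rfl⟩
  refine ⟨x, hxKb, ?_⟩
  rw [hLx]
  refine ⟨hxRes, ?_, ?_, ?_, ?_⟩
  · have h1 : Cfsg.pResidual p L ≤ (Kb.comap π).comap L.subtype := by
      rw [Cfsg.pResidual, closure_le]
      intro g hg
      have hg' : (orderOf g).Coprime p := hg
      show π (g : M) ∈ Kb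
      apply cop_mem_sup hp hAbp hAK
      · refine Nat.Coprime.coprime_dvd_left ?_ hg'
        exact (orderOf_map_dvd (π.comp L.subtype) g)
      · exact hLK ⟨g, g.2, rfl⟩
    rintro _ ⟨g, hg, rfl⟩
    exact h1 hg
  · apply le_antisymm
    · rw [commutator_le]
      intro r hr a ha
      rw [commutatorElement_def, mul_assoc, mul_assoc]
      refine Res.mul_mem hr ?_
      rw [← mul_assoc]
      exact (mem_normalizer_iff.1 (hResN (hAL ha)) r⁻¹).1 (Res.inv_mem hr)
    · have hAD : A ≤ normalizer ((⁅Res, A⁆ : Subgroup M) : Set M) :=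
        CfsgLib.LE.le_normalizer_commutator (hAL.trans hResN) le_normalizer
      have hLD : L ≤ A ⊔ ⁅Res, A⁆ := by
        conv_lhs => rw [← hLx]
        refine sup_le le_sup_left ?_
        rintro _ ⟨a, ha, rfl⟩
        have h1 : (MulAut.conj x).toMonoidHom a = ⁅x, a⁆ * a := by
          show x * a * x⁻¹ = _
          rw [commutatorElement_def]; group
        rw [h1]
        exact mul_mem (mem_sup_right (commutator_mem_commutator hxRes ha)) (mem_sup_left ha)
      have h1 : Cfsg.pResidual p L ≤ (⁅Res, A⁆ : Subgroup M).comap L.subtype := by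
        rw [Cfsg.pResidual, closure_le]
        intro g hg
        have hg' : (orderOf g).Coprime p := hg
        show (g : M) ∈ ⁅Res, A⁆
        apply cop_mem_sup hp hA hAD
        · rw [Subgroup.orderOf_coe]; exact hg'
        · exact hLD g.2
      rintro _ ⟨g, hg, rfl⟩
      exact h1 hg
  · rw [hAOL, Subgroup.inf_relIndex_left, Subgroup.relIndex_comap]
    exact hBidx
  · rw [commutator_le]
    intro a ha l hl
    rw [hAOL] at ha
    rw [← hπ1, map_commutatorElement, commutatorElement_eq_one_iff_mul_comm]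
    exact mem_centralizer_iff.1 (hBL ⟨l, hl, rfl⟩) _ ha.2

end Cfsg.Agent.S3754
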