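import Cfsg.Statements.S3760
import Cfsg.Agent.LibFusionH12

set_option autoImplicit false
open Cfsg

namespace Cfsg.Agent.S3760

/-- Let the group G act transitively on a set X, let x ∈ X with stabilizer H = G_x, and let K ≤ H. Then N_G(K) acts transitively on the set of fixed points of K if and only if every G-conjugate of K contained in H is already an H-conjugate of K. -/
theorem result {G : Type*} [Group G] {X : Type*} [MulAction G X] (htrans : ∀ a b : X, ∃ g : G, g • a = b) (x : X) (K : Subgroup G) (hK : K ≤ MulAction.stabilizer G x) : (∀ a b : X, (∀ k ∈ K, k • a = a) → (∀ k ∈ K, k • b = b) → ∃ g ∈ Subgroup.normalizer (K : Set G), g • a = b) ↔ ∀ g : G, K.map (MulAut.conj g).toMonoidHom ≤ MulAction.stabilizer G x → ∃ h ∈ MulAction.stabilizer G x, K.map (MulAut.conj g).toMonoidHom = K.map (MulAut.conj h).toMonoidHom := by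
  have hmul : ∀ a b : G, K.map (MulAut.conj (a * b)).toMonoidHom
      = (K.map (MulAut.conj b).toMonoidHom).map (MulAut.conj a).toMonoidHom := by
    intro a b
    rw [Subgroup.map_map]
    congr 1
    ext y
    simp
  have hn : ∀ n : G, n ∈ Subgroup.normalizer (K : Set G) ↔ K.map (MulAut.conj n).toMonoidHom = K := by
    intro n
    exact CfsgLib.FusionH12.mem_nrm
  have hfix : ∀ (u : G), (∀ k ∈ K, k • (u • x) = u • x) ↔ K.map (MulAut.conj u⁻¹).toMonoidHom ≤ MulAction.stabilizer G x := by
    intro u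
    constructor
    · rintro h _ ⟨k, hk, rfl⟩
      rw [MulAction.mem_stabilizer_iff]
      have := h k hk
      simp only [MulEquiv.coe_toMonoidHom, MulAut.conj_apply, inv_inv, mul_smul]
      rw [this, inv_smul_smul]
    · intro h k hk
      have := h ⟨k, hk, rfl⟩
      rw [MulAction.mem_stabilizer_iff] at this
      simp only [MulEquiv.coe_toMonoidHom, MulAut.conj_apply, inv_inv, mul_smul] at this
      exact (inv_smul_eq_iff.1 this)
  have hinv : ∀ g : G, K.map (MulAut.conj g).toMonoidHom ≤ MulAction.stabilizer G x ↔ ∀ k ∈ K, k • (g⁻¹ • x) = g⁻¹ • x := by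
    intro g
    rw [hfix, inv_inv]
  constructor
  · intro h g hg
    rw [hinv] at hg
    obtain ⟨n, hnN, hnx⟩ := h (g⁻¹ • x) x hg (fun k hk => hK hk)
    refine ⟨g * n⁻¹, ?_, ?_⟩
    · rw [MulAction.mem_stabilizer_iff]
      rw [← mul_smul] at hnx
      conv_lhs => rw [← hnx]
      rw [← mul_smul]
      rw [show g * n⁻¹ * (n * g⁻¹) = 1 by group, one_smul]
    · rw [hmul g n⁻¹, (hn n⁻¹).1 (inv_mem hnN)]
  · intro h
    have key : ∀ a : X, (∀ k ∈ K, k • a = a) → ∃ n ∈ Subgroup.normalizer (K : Set G), n • x = a := by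
      intro a ha
      obtain ⟨u, rfl⟩ := htrans x a
      rw [hfix] at ha
      obtain ⟨m, hm, hmK⟩ := h u⁻¹ ha
      refine ⟨u * m, ?_, ?_⟩
      · rw [hn, hmul, ← hmK, ← hmul, mul_inv_cancel, map_one]
        ext y; simp
      · rw [mul_smul, MulAction.mem_stabilizer_iff.1 hm]
    intro a b ha hb
    obtain ⟨n1, h1, rfl⟩ := key a ha
    obtain ⟨n2, h2, rfl⟩ := key b hb
    exact ⟨n2 * n1⁻¹, mul_mem h2 (inv_mem h1), by rw [← mul_smul, inv_mul_cancel_right]⟩

end Cfsg.Agent.S3760
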