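import Cfsg.Agent.LibSolvNilp
import Cfsg.Agent.LibSolvCrit
import Cfsg.Agent.LibExtraH28
import Cfsg.Agent.S0110
import Cfsg.Agent.S3761
import Mathlib
-- Template for statement S3762 (row 3762; see /opt/grader/pristine/manifest.json for weights).
-- Copy to Cfsg/Agent/S3762.lean and replace the sorry. The statement below is byte-identical to the frozen
-- statement Cfsg.CfsgFrozen.S3762 (Cfsg/Statements/S3762.lean; the theorem Cfsg.fg_symplectic_type_pgroup_structure);
-- the grader kernel-checks Cfsg.Agent.S3762.result against that frozen type. Keep the theorem IN THIS FILE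
-- (a `result` declared elsewhere and merely imported here is not credited); helpers may live anywhere
-- under Cfsg/Agent/.
import Cfsg.Statements.S3762
-- import your own Cfsg.Agent.* helpers here

set_option autoImplicit false
open Cfsg

namespace Cfsg.Agent.S3762

open Subgroup

theorem lemD {M : Type*} [Group M] [Finite M] {p : ℕ} [hp : Fact p.Prime] (W : Subgroup M) (hW : W ≤ center M)
    (hidx : W.index = p ^ 2) (hna : ∃ x y : M, x * y ≠ y * x) :
    (∀ x : M, x ^ p ∈ W) ∧ ∀ x y : M, x * y * x⁻¹ * y⁻¹ ∈ W := by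
  haveI : W.Normal := CfsgLib.SolvNilp.normal_of_le_center hW
  have hQ : Nat.card (M ⧸ W) = p ^ 2 := hidx
  have hcomm := IsPGroup.commutative_of_card_eq_prime_sq hQ
  constructor
  · intro x
    by_contra hx
    have h1 : orderOf (x : M ⧸ W) ∣ p ^ 2 := by rw [← hQ]; exact orderOf_dvd_natCard _
    obtain ⟨k, hk, hk2⟩ := (Nat.dvd_prime_pow hp.out).mp h1
    have h2 : k = 2 := by
      by_contra hk3
      apply hx
      rw [← QuotientGroup.eq_one_iff, QuotientGroup.mk_pow, ← orderOf_dvd_iff_pow_eq_one, hk2]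
      exact (pow_dvd_pow p (by omega : k ≤ 1)).trans (by rw [pow_one])
    haveI : IsCyclic (M ⧸ W) := isCyclic_of_orderOf_eq_card (x : M ⧸ W) (by rw [hk2, h2, hQ])
    obtain ⟨a, b, hab⟩ := hna
    exact hab (commutative_of_cyclic_center_quotient (QuotientGroup.mk' W) (by rw [QuotientGroup.ker_mk']; exact hW) a b)
  · intro x y
    rw [← QuotientGroup.eq_one_iff]
    simp only [QuotientGroup.mk_mul, QuotientGroup.mk_inv]
    rw [hcomm (x : M ⧸ W) y]
    group

theorem lemA {K : Type*} [Group K] [Finite K] {p : ℕ} [hp : Fact p.Prime]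
    (h1 : ∀ x : K, x ^ p ∈ center K) (h2 : ∀ x y : K, x * y * x⁻¹ * y⁻¹ ∈ center K)
    (hcyc : IsCyclic (center K)) (hp2 : p ^ 2 ∣ Nat.card (center K))
    (hsy : ∀ A : Subgroup K, A.Characteristic → IsMulCommutative A → IsCyclic A) :
    ∀ x : K, ∃ v ∈ center K, x ^ p = v ^ p := by
  classical
  have hcc : ∀ v ∈ center K, ∀ g : K, g * v = v * g := fun v hv g => mem_center_iff.mp hv g
  have hcp : ∀ x y : K, (x * y * x⁻¹ * y⁻¹) ^ p = 1 := by
    intro x y
    have e1 : ((CfsgLib.ExtraH28.commHom h2 x y : center K) : K) = x * y * x⁻¹ * y⁻¹ := CfsgLib.ExtraH28.commHom_apply h2 x y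
    have e2 : ((CfsgLib.ExtraH28.commHom h2 x (y ^ p) : center K) : K) = 1 := by
      rw [CfsgLib.ExtraH28.commHom_apply, CfsgLib.ExtraH28.comm_eq_one_iff]
      exact hcc _ (h1 y) x
    rw [map_pow] at e2
    rw [← e1]
    exact e2
  obtain ⟨m, hm⟩ := hp2
  obtain ⟨g, hg⟩ := hcyc.exists_generator
  have hgo : orderOf g = p ^ 2 * m := by rw [← hm]; exact orderOf_eq_card_of_forall_mem_zpowers hg
  have hm0 : 0 < m := by
    rcases Nat.eq_zero_or_pos m with h | h
    · exfalso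
      rw [h, mul_zero] at hm
      exact absurd hm Nat.card_pos.ne'
    · exact h
  have hy1 : (g ^ (p * m)) ^ p = 1 := by
    rw [← pow_mul, show p * m * p = p ^ 2 * m by ring, ← hgo, pow_orderOf_eq_one]
  have hy2 : g ^ (p * m) ≠ 1 := by
    intro h
    have h3 := orderOf_dvd_of_pow_eq_one h
    rw [hgo] at h3
    have h4 := Nat.le_of_dvd (Nat.mul_pos hp.out.pos hm0) h3
    have h5 : p * m < p ^ 2 * m := by
      rw [pow_two]
      exact Nat.mul_lt_mul_of_pos_right (by nlinarith [hp.out.two_le]) hm0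
    omega
  have huq : ∀ c : center K, c ^ p = 1 → c ∈ zpowers (g ^ (p * m)) := fun c hc =>
    Cfsg.Agent.S3761.uniq hcyc hy1 hy2 hc
  have hroot : ∀ c ∈ center K, c ^ p = 1 → ∃ d ∈ center K, d ^ p = c := by
    intro c hc hcp
    obtain ⟨k, hk⟩ := huq ⟨c, hc⟩ (Subtype.ext hcp)
    refine ⟨(((g ^ m) ^ k : center K) : K), SetLike.coe_mem _, ?_⟩
    have h3 : ((g ^ m) ^ k) ^ p = (⟨c, hc⟩ : center K) := by
      rw [← hk]
      simp only
      rw [← zpow_natCast ((g ^ m) ^ k), ← zpow_mul, mul_comm k, zpow_mul, zpow_natCast, ← pow_mul, mul_comm m p]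
    exact congrArg Subtype.val h3
  have hmul : ∀ x y : K, ∃ d ∈ center K, (x * y) ^ p = x ^ p * y ^ p * d ^ p := by
    intro x y
    have hc : y⁻¹ * x⁻¹ * y * x ∈ center K := by
      have := h2 y⁻¹ x⁻¹
      rwa [inv_inv, inv_inv] at this
    have hcp' : (y⁻¹ * x⁻¹ * y * x) ^ p = 1 := by
      have := hcp y⁻¹ x⁻¹
      rwa [inv_inv, inv_inv] at this
    obtain ⟨d, hd, hdc⟩ := hroot _ hc hcp'
    refine ⟨d ^ (p.choose 2), pow_mem hd _, ?_⟩
    rw [CfsgLib.SolvCrit.mul_pow_of_commutator_central x y _ (by group) (hcc _ hc x).symm (hcc _ hc y).symm p, ← pow_mul,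
      mul_comm (p.choose 2), pow_mul, hdc]
  let K0 : Subgroup K :=
    { carrier := {x | ∃ v ∈ center K, x ^ p = v ^ p}
      one_mem' := ⟨1, one_mem _, rfl⟩
      mul_mem' := by
        rintro x y ⟨v, hv, hxv⟩ ⟨w, hw, hyw⟩
        obtain ⟨d, hd, hd2⟩ := hmul x y
        refine ⟨v * w * d, mul_mem (mul_mem hv hw) hd, ?_⟩
        rw [hd2, hxv, hyw, (show Commute (v * w) d from hcc d hd (v * w)).mul_pow, (show Commute v w from hcc w hw v).mul_pow]
      inv_mem' := by
        rintro x ⟨v, hv, hxv⟩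
        exact ⟨v⁻¹, inv_mem hv, by rw [inv_pow, inv_pow, hxv]⟩ }
  have hK0 : ∀ x : K, x ∈ K0 ↔ ∃ v ∈ center K, x ^ p = v ^ p := fun x => Iff.rfl
  haveI hK0c : K0.Characteristic := by
    rw [characteristic_iff_le_comap]
    rintro φ x ⟨v, hv, hxv⟩
    refine ⟨φ v, ?_, ?_⟩
    · exact (characteristic_iff_le_comap.mp (inferInstance : (center K).Characteristic) φ) hv
    · rw [← map_pow, ← map_pow]
      exact congrArg φ hxv
  suffices hT : K0 = ⊤ by
    intro x
    rw [← hK0, hT]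
    trivial
  by_contra hne
  have hcK0 : center K ≤ K0 := fun v hv => ⟨v, hv, rfl⟩
  let D : Subgroup K :=
    { carrier := {x | ∃ v ∈ center K, v ^ p = x}
      one_mem' := ⟨1, one_mem _, one_pow p⟩
      mul_mem' := by
        rintro _ _ ⟨v, hv, rfl⟩ ⟨w, hw, rfl⟩
        exact ⟨v * w, mul_mem hv hw, (show Commute v w from hcc w hw v).mul_pow p⟩
      inv_mem' := by
        rintro _ ⟨v, hv, rfl⟩
        exact ⟨v⁻¹, inv_mem hv, inv_pow v p⟩ }
  have hDc : D ≤ center K := by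
    rintro _ ⟨v, hv, rfl⟩
    exact pow_mem hv p
  haveI hDn : D.Normal := CfsgLib.SolvNilp.normal_of_le_center hDc
  let ψ : K →* K ⧸ D := MonoidHom.mk' (fun x => ((x ^ p : K) : K ⧸ D)) (by
    intro x y
    obtain ⟨d, hd, hd2⟩ := hmul x y
    rw [hd2, ← QuotientGroup.mk_mul, QuotientGroup.mk_mul_of_mem _ (show d ^ p ∈ D from ⟨d, hd, rfl⟩)])
  have hψk : ψ.ker = K0 := by
    ext x
    rw [MonoidHom.mem_ker]
    change ((x ^ p : K) : K ⧸ D) = 1 ↔ _
    rw [QuotientGroup.eq_one_iff]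
    constructor
    · rintro ⟨v, hv, h⟩
      exact ⟨v, hv, h.symm⟩
    · rintro ⟨v, hv, h⟩
      exact ⟨v, hv, h.symm⟩
  have hidx : K0.index ∣ p := by
    rw [← hψk, index_ker]
    have h3 : ψ.range ≤ (center K).map (QuotientGroup.mk' D) := by
      rintro _ ⟨x, rfl⟩
      exact ⟨x ^ p, h1 x, rfl⟩
    refine (card_dvd_of_le h3).trans ?_
    haveI h4 : IsCyclic ((center K).map (QuotientGroup.mk' D)) :=
      isCyclic_of_surjective ((QuotientGroup.mk' D).subgroupMap (center K)) ((QuotientGroup.mk' D).subgroupMap_surjective _)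
    rw [← IsCyclic.exponent_eq_card]
    apply Monoid.exponent_dvd_of_forall_pow_eq_one
    rintro ⟨_, v, hv, rfl⟩
    apply Subtype.ext
    change (QuotientGroup.mk' D v) ^ p = 1
    rw [← map_pow]
    exact (QuotientGroup.eq_one_iff _).mpr ⟨v, hv, rfl⟩
  have hidx' : K0.index = p := by
    rcases (Nat.dvd_prime hp.out).mp hidx with h | h
    · exact absurd (index_eq_one.mp h) hne
    · exact h
  obtain ⟨y, hyd⟩ : ∃ y : K, y = ((g ^ (p * m) : center K) : K) := ⟨_, rfl⟩
  have hyc : y ∈ center K := by rw [hyd]; exact SetLike.coe_mem _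
  have hyp : y ^ p = 1 := by rw [hyd]; exact congrArg Subtype.val hy1
  have hyn : y ≠ 1 := by rw [hyd]; exact fun h => hy2 (Subtype.ext h)
  have hyu : ∀ c ∈ center K, c ^ p = 1 → c ∈ zpowers y := by
    intro c hc hcp
    obtain ⟨k, hk⟩ := huq ⟨c, hc⟩ (Subtype.ext hcp)
    refine ⟨k, ?_⟩
    rw [hyd]
    exact congrArg Subtype.val hk
  have hyo : Nat.card (zpowers y) = p := by rw [Nat.card_zpowers]; exact orderOf_eq_prime hyp hyn
  have hcard0 := CfsgLib.ExtraH28.card_hom_quot (p := p) (C := zpowers y) K0 (fun x => hcK0 (h1 x)) (fun x y => hcK0 (h2 x y)) hyo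
  obtain ⟨f, hfK, hf1⟩ : ∃ f : K →* zpowers y, K0 ≤ f.ker ∧ f ≠ 1 := by
    haveI : Finite {f : K →* zpowers y // K0 ≤ f.ker} := Nat.finite_of_card_ne_zero (by rw [hcard0, hidx']; exact hp.out.ne_zero)
    haveI : Nontrivial {f : K →* zpowers y // K0 ≤ f.ker} :=
      Finite.one_lt_card_iff_nontrivial.mp (by rw [hcard0, hidx']; exact hp.out.one_lt)
    obtain ⟨f, hf⟩ := exists_ne (⟨1, fun x _ => rfl⟩ : {f : K →* zpowers y // K0 ≤ f.ker})
    exact ⟨f.1, f.2, fun h => hf (Subtype.ext h)⟩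
  let F : K → (K →* zpowers y) := fun e => MonoidHom.mk' (fun x => (⟨e * x * e⁻¹ * x⁻¹, hyu _ (h2 e x) (hcp e x)⟩ : zpowers y))
    (fun a b => Subtype.ext (CfsgLib.ExtraH28.comm_mul_right (h2 e b)))
  have hF : ∀ e x, ((F e x : zpowers y) : K) = e * x * e⁻¹ * x⁻¹ := fun e x => rfl
  have hFk : ∀ e, center K ≤ (F e).ker := by
    intro e x hx
    apply Subtype.ext
    rw [hF]
    exact CfsgLib.ExtraH28.comm_eq_one_iff.mpr (hcc x hx e)
  have hcard1 := CfsgLib.ExtraH28.card_hom_quot (p := p) (C := zpowers y) (center K) h1 h2 hyo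
  haveI hfin1 : Finite {f : K →* zpowers y // center K ≤ f.ker} :=
    Nat.finite_of_card_ne_zero (by rw [hcard1]; exact index_ne_zero_of_finite)
  let J : K ⧸ center K → {f : K →* zpowers y // center K ≤ f.ker} := fun q => ⟨F q.out, hFk _⟩
  have hJ : Function.Injective J := by
    intro q q' h
    have h3 : F q.out = F q'.out := congrArg Subtype.val h
    have h4 : q.out⁻¹ * q'.out ∈ center K := by
      rw [mem_center_iff]
      intro x
      have h5 : q.out * x * q.out⁻¹ * x⁻¹ = q'.out * x * q'.out⁻¹ * x⁻¹ := by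
        rw [← hF, ← hF, h3]
      have h6 : q.out * x * q.out⁻¹ = q'.out * x * q'.out⁻¹ := mul_right_cancel h5
      calc x * (q.out⁻¹ * q'.out) = q.out⁻¹ * (q.out * x * q.out⁻¹) * q'.out := by group
        _ = q.out⁻¹ * (q'.out * x * q'.out⁻¹) * q'.out := by rw [h6]
        _ = q.out⁻¹ * q'.out * x := by group
    have h5 := QuotientGroup.eq.mpr h4
    rwa [QuotientGroup.out_eq', QuotientGroup.out_eq'] at h5
  have hJs := (hJ.bijective_of_nat_card_le (by rw [hcard1]; exact le_rfl)).2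
  obtain ⟨q, hq⟩ := hJs ⟨f, hcK0.trans hfK⟩
  obtain ⟨e, he⟩ : ∃ e : K, F e = f := ⟨q.out, congrArg Subtype.val hq⟩
  have hkf : f.ker ≤ K0 := by
    have h3 := relIndex_mul_index hfK
    rw [hidx'] at h3
    have h4 : f.ker.index ∣ p := ⟨_, by rw [mul_comm]; exact h3.symm⟩
    rcases (Nat.dvd_prime hp.out).mp h4 with h | h
    · exfalso
      apply hf1
      rw [index_eq_one] at h
      ext x
      have : x ∈ f.ker := by rw [h]; trivial
      rw [MonoidHom.mem_ker.mp this]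
      rfl
    · rw [h] at h3
      have h5 : K0.relIndex f.ker = 1 := Nat.eq_of_mul_eq_mul_right hp.out.pos (by rw [h3, one_mul])
      exact relIndex_eq_one.mp h5
  have heK : e ∈ K0 := by
    apply hkf
    rw [MonoidHom.mem_ker, ← he]
    apply Subtype.ext
    rw [hF]
    exact CfsgLib.ExtraH28.comm_eq_one_iff.mpr rfl
  have hec : ∀ x ∈ K0, e * x = x * e := by
    intro x hx
    have h3 := MonoidHom.mem_ker.mp (hfK hx)
    rw [← he] at h3
    have h4 := congrArg Subtype.val h3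
    rw [hF] at h4
    exact CfsgLib.ExtraH28.comm_eq_one_iff.mp h4
  have hen : e ∉ center K := by
    intro h
    apply hf1
    rw [← he]
    ext x
    rw [hF]
    exact CfsgLib.ExtraH28.comm_eq_one_iff.mpr (hcc e h x).symm
  have hWc := hsy (K0 ⊓ centralizer (K0 : Set K)) (CfsgLib.SolvCrit.center_map_characteristic K0)
    (CfsgLib.SolvCrit.isMulCommutative_inf_centralizer K0)
  have hcW : center K ≤ K0 ⊓ centralizer (K0 : Set K) := le_inf hcK0 (center_le_centralizer _)
  have heW : e ∈ K0 ⊓ centralizer (K0 : Set K) := by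
    refine mem_inf.mpr ⟨heK, ?_⟩
    rw [mem_centralizer_iff]
    intro x hx
    exact (hec x hx).symm
  obtain ⟨v, hv, hev⟩ := heK
  have ht : e * v⁻¹ ∈ K0 ⊓ centralizer (K0 : Set K) := mul_mem heW (inv_mem (hcW hv))
  have htp : (e * v⁻¹) ^ p = 1 := by
    rw [(show Commute e v⁻¹ from hcc _ (inv_mem hv) e).mul_pow, hev, inv_pow, mul_inv_cancel]
  have hu := Cfsg.Agent.S3761.uniq hWc (x := ⟨y, hcW hyc⟩) (y := ⟨e * v⁻¹, ht⟩) (Subtype.ext hyp)
    (fun h => hyn (congrArg Subtype.val h)) (Subtype.ext htp)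
  obtain ⟨k, hk⟩ := hu
  have h3 : y ^ k = e * v⁻¹ := congrArg Subtype.val hk
  apply hen
  have h4 : e = y ^ k * v := by rw [h3]; group
  rw [h4]
  exact mul_mem (zpow_mem hyc k) hv

theorem lemA' {G : Type*} [Group G] [Finite G] {p : ℕ} [hp : Fact p.Prime]
    (hsymp : ∀ A : Subgroup G, A.Characteristic → IsMulCommutative A → IsCyclic A)
    (K : Subgroup G) (hK : K.Characteristic) (V : Subgroup G) (hV : ∀ g, g ∈ V ↔ g ∈ K ∧ ∀ x ∈ K, x * g = g * x)
    (h1 : ∀ x ∈ K, x ^ p ∈ V) (h2 : ∀ x ∈ K, ∀ y ∈ K, x * y * x⁻¹ * y⁻¹ ∈ V)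
    (hcyc : IsCyclic V) (hcard : p ^ 2 ∣ Nat.card V) : ∀ x ∈ K, ∃ v ∈ V, x ^ p = v ^ p := by
  have hVK : V ≤ K := fun g hg => ((hV g).mp hg).1
  have hcen : center K = V.subgroupOf K := by
    ext x
    rw [mem_center_iff, mem_subgroupOf, hV]
    constructor
    · intro h
      exact ⟨x.2, fun y hy => congrArg Subtype.val (h ⟨y, hy⟩)⟩
    · intro h y
      exact Subtype.ext (h.2 y y.2)
  have e : V.subgroupOf K ≃* V := subgroupOfEquivOfLe hVK
  intro x hx
  obtain ⟨v, hv, hxv⟩ := lemA (K := K) (p := p) (fun x => by rw [hcen]; exact h1 x x.2)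
    (fun x y => by rw [hcen]; exact h2 x x.2 y y.2)
    (by rw [hcen]; exact isCyclic_of_surjective e.symm e.symm.surjective)
    (by rw [hcen, Nat.card_congr e.toEquiv]; exact hcard)
    (fun A hA hA2 => by
      haveI := hA
      haveI := hK
      haveI h3 : IsMulCommutative (A.map K.subtype) := by
        refine ⟨⟨?_⟩⟩
        rintro ⟨_, a, ha, rfl⟩ ⟨_, b, hb, rfl⟩
        apply Subtype.ext
        exact congrArg (fun t : A => ((t : K) : G)) (hA2.is_comm.comm (⟨a, ha⟩ : A) ⟨b, hb⟩)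
      haveI h4 := hsymp (A.map K.subtype) inferInstance h3
      exact isCyclic_of_injective (A.equivMapOfInjective K.subtype K.subtype_injective).toMonoidHom
        (A.equivMapOfInjective K.subtype K.subtype_injective).injective) ⟨x, hx⟩
  rw [hcen, mem_subgroupOf] at hv
  exact ⟨v, hv, congrArg Subtype.val hxv⟩

theorem lemB {G : Type*} [Group G] [Finite G] {p : ℕ} [hp : Fact p.Prime] (H V : Subgroup G) (hVH : V ≤ H)
    (hVc : ∀ v ∈ V, ∀ h ∈ H, h * v = v * h) (z : G) (hzV : z ∈ V) (hzp : z ^ p = 1)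
    (hcomm : ∀ x ∈ H, ∀ y ∈ H, x * y * x⁻¹ * y⁻¹ ∈ zpowers z) (hpow : ∀ x ∈ H, ∃ v ∈ V, (x * v) ^ p ∈ zpowers z) :
    ∃ E : Subgroup G, z ∈ E ∧ E ≤ H ∧ (∀ x ∈ E, x ^ p ∈ zpowers z) ∧ (∀ x ∈ E, x ∈ V → x ∈ zpowers z) ∧ E ⊔ V = H := by
  have hZV : zpowers z ≤ V := zpowers_le.mpr hzV
  obtain ⟨E, hE⟩ := (Set.toFinite {E : Subgroup G | z ∈ E ∧ E ≤ H ∧ (∀ x ∈ E, x ^ p ∈ zpowers z) ∧
    (∀ x ∈ E, x ∈ V → x ∈ zpowers z)}).exists_maximal ⟨zpowers z, mem_zpowers z, hZV.trans hVH,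
      (by
        rintro _ ⟨k, rfl⟩
        exact pow_mem (zpow_mem (mem_zpowers z) k) p), fun x hx _ => hx⟩
  obtain ⟨hzE, hEH, hEp, hEV⟩ := hE.1
  refine ⟨E, hzE, hEH, hEp, hEV, le_antisymm (sup_le hEH hVH) ?_⟩
  have hZE : zpowers z ≤ E := zpowers_le.mpr hzE
  intro x hx
  obtain ⟨v, hv, hxv⟩ := hpow x hx
  by_contra hxE
  obtain ⟨y, hy⟩ : ∃ y, y = x * v := ⟨_, rfl⟩
  have hyH : y ∈ H := by rw [hy]; exact mul_mem hx (hVH hv)
  have hyE : y ∉ E ⊔ V := by
    intro h
    apply hxE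
    have h3 : x = y * v⁻¹ := by rw [hy]; group
    rw [h3]
    exact mul_mem h (inv_mem (mem_sup_right hv))
  have hyp : y ^ p ∈ zpowers z := by rw [hy]; exact hxv
  have hconj : ∀ w ∈ H, ∀ f ∈ E, w * f * w⁻¹ ∈ E := by
    intro w hw f hf
    have h3 := mul_mem (hZE (hcomm w hw f (hEH hf))) hf
    rwa [inv_mul_cancel_right] at h3
  let E' : Subgroup G :=
    { carrier := {g | ∃ e ∈ E, ∃ k : ℤ, g = e * y ^ k}
      one_mem' := ⟨1, one_mem _, 0, by simp⟩
      mul_mem' := by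
        rintro _ _ ⟨e, he, k, rfl⟩ ⟨f, hf, l, rfl⟩
        refine ⟨e * (y ^ k * f * (y ^ k)⁻¹), mul_mem he (hconj _ (zpow_mem hyH k) f hf), k + l, ?_⟩
        rw [zpow_add]
        group
      inv_mem' := by
        rintro _ ⟨e, he, k, rfl⟩
        refine ⟨y ^ (-k) * e⁻¹ * (y ^ (-k))⁻¹, hconj _ (zpow_mem hyH _) _ (inv_mem he), -k, ?_⟩
        group }
  have hmemE' : ∀ g, g ∈ E' ↔ ∃ e ∈ E, ∃ k : ℤ, g = e * y ^ k := fun g => Iff.rfl
  have hEE' : E ≤ E' := fun e he => ⟨e, he, 0, by simp⟩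
  have hyE' : y ∈ E' := ⟨1, one_mem _, 1, by simp⟩
  have hcv : ∀ c ∈ zpowers z, ∀ h ∈ H, h * c = c * h := fun c hc h hh => hVc c (hZV hc) h hh
  have hmem : E' ∈ {E : Subgroup G | z ∈ E ∧ E ≤ H ∧ (∀ x ∈ E, x ^ p ∈ zpowers z) ∧
    (∀ x ∈ E, x ∈ V → x ∈ zpowers z)} := by
    refine ⟨hEE' hzE, ?_, ?_, ?_⟩
    · rintro _ ⟨e, he, k, rfl⟩
      exact mul_mem (hEH he) (zpow_mem hyH k)
    · rintro _ ⟨e, he, k, rfl⟩
      have hc : (y ^ k)⁻¹ * e⁻¹ * y ^ k * e ∈ zpowers z := by
        have := hcomm (y ^ k)⁻¹ (inv_mem (zpow_mem hyH k)) e⁻¹ (inv_mem (hEH he))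
        rwa [inv_inv, inv_inv] at this
      rw [CfsgLib.SolvCrit.mul_pow_of_commutator_central e (y ^ k) _ (by group) (hcv _ hc e (hEH he)).symm
        (hcv _ hc _ (zpow_mem hyH k)).symm p]
      refine mul_mem (mul_mem (hEp e he) ?_) (pow_mem hc _)
      rw [← zpow_natCast, ← zpow_mul, mul_comm, zpow_mul, zpow_natCast]
      exact zpow_mem hyp k
    · rintro _ ⟨e, he, k, rfl⟩ hek
      by_cases hpk : (p : ℤ) ∣ k
      · obtain ⟨j, rfl⟩ := hpk
        have h3 : y ^ ((p : ℤ) * j) ∈ zpowers z := by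
          rw [zpow_mul, zpow_natCast]
          exact zpow_mem hyp j
        have h4 : e ∈ V := by
          have := mul_mem hek (inv_mem (hZV h3))
          rwa [mul_inv_cancel_right] at this
        exact mul_mem (hEV e he h4) h3
      · exfalso
        apply hyE
        have h3 : IsCoprime (p : ℤ) k := (Prime.coprime_iff_not_dvd (Nat.prime_iff_prime_int.mp hp.out)).mpr hpk
        obtain ⟨a, b, hab⟩ := h3
        have h4 : y = (y ^ p) ^ a * (y ^ k) ^ b := by
          rw [← zpow_natCast, ← zpow_mul, ← zpow_mul, ← zpow_add, mul_comm (p : ℤ), mul_comm k, hab, zpow_one]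
        have h5 : y ^ k ∈ E ⊔ V := by
          have := mul_mem (mem_sup_left (T := V) (inv_mem he)) (mem_sup_right (S := E) hek)
          rwa [inv_mul_cancel_left] at this
        rw [h4]
        exact mul_mem (zpow_mem (mem_sup_left (hZE hyp)) a) (zpow_mem h5 b)
  exact hyE (mem_sup_left (hE.2 hmem hEE' hyE'))

/-- Let G be a finite p-group of symplectic type: every characteristic abelian subgroup of G is cyclic. Then G = E ∗ R is a central product of subgroups E and R (they commute elementwise and generate G) where E is extraspecial or trivial, and R is cyclic, or p = 2 and R is dihedral, semidihedral or generalized quaternion of order at least 16. -/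
theorem result {G : Type*} [Group G] [Finite G] {p : ℕ} [Fact p.Prime] (hG : IsPGroup p G) (hsymp : ∀ A : Subgroup G, A.Characteristic → IsMulCommutative A → IsCyclic A) : ∃ E R : Subgroup G, (∀ e ∈ E, ∀ r ∈ R, e * r = r * e) ∧ E ⊔ R = ⊤ ∧ (E = ⊥ ∨ Cfsg.IsExtraspecial p ↥E) ∧ (IsCyclic R ∨ (p = 2 ∧ 16 ≤ Nat.card R ∧ ((∃ m : ℕ, Nonempty (↥R ≃* DihedralGroup m)) ∨ (∃ m : ℕ, Nonempty (↥R ≃* QuaternionGroup m)) ∨ Cfsg.IsQuasiDihedral ↥R))) := by
  classical
  have hp : Fact p.Prime := inferInstance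
  rcases subsingleton_or_nontrivial G with hsub | hnt
  · exact ⟨⊥, ⊤, fun e he r _ => Subsingleton.elim _ _, by rw [sup_top_eq], Or.inl rfl, Or.inl (by
      haveI : Subsingleton (⊤ : Subgroup G) := ⟨fun a b => Subtype.ext (Subsingleton.elim _ _)⟩
      exact isCyclic_of_subsingleton)⟩
  obtain ⟨H, hHc, -, hH2, hH3, hH1⟩ := CfsgLib.SolvCrit.exists_critical hp.out hG
  obtain ⟨V, hVdef⟩ : ∃ V : Subgroup G, V = H ⊓ centralizer (H : Set G) := ⟨_, rfl⟩
  haveI hVchar : V.Characteristic := by rw [hVdef]; exact CfsgLib.SolvCrit.center_map_characteristic H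
  have hVab : IsMulCommutative V := by rw [hVdef]; exact CfsgLib.SolvCrit.isMulCommutative_inf_centralizer H
  have hVcyc : IsCyclic V := hsymp V hVchar hVab
  rw [← hVdef] at hH2 hH1
  have hVH : V ≤ H := by rw [hVdef]; exact inf_le_left
  have hVm : ∀ v ∈ V, ∀ h ∈ H, h * v = v * h := by
    intro v hv h hh
    rw [hVdef] at hv
    exact mem_centralizer_iff.mp (mem_inf.mp hv).2 h hh
  have hCV : ∀ g, (∀ x ∈ H, x * g = g * x) → g ∈ V := by
    intro g hg
    have h1 : g ∈ centralizer (H : Set G) := mem_centralizer_iff.mpr hg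
    rw [hVdef]
    exact mem_inf.mpr ⟨hH3 h1, h1⟩
  have hcV : ∀ h ∈ H, ∀ g : G, h * g * h⁻¹ * g⁻¹ ∈ V := by
    intro h hh g
    have := commutator_mem_commutator hh (mem_top g)
    rw [commutatorElement_def] at this
    exact hH2 this
  obtain ⟨n, hn⟩ := (hG.to_subgroup V).exists_card_eq
  have hn0 : n ≠ 0 := by
    rintro rfl
    rw [pow_zero, card_eq_one] at hn
    have h1 : ∀ h ∈ H, h = 1 := by
      intro h hh
      rw [← mem_bot, ← hn]
      apply hCV
      intro x _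
      have h2 := hcV h hh x
      rw [hn, mem_bot, CfsgLib.ExtraH28.comm_eq_one_iff] at h2
      exact h2.symm
    obtain ⟨a, ha⟩ := exists_ne (1 : G)
    apply ha
    rw [← mem_bot, ← hn]
    apply hCV
    intro x hx
    rw [h1 x hx, one_mul, mul_one]
  obtain ⟨u, hu⟩ := V.isCyclic_iff_exists_zpowers_eq_top.mp hVcyc
  have huV : u ∈ V := by rw [← hu]; exact mem_zpowers u
  have huo : orderOf u = p ^ n := by rw [← hn, ← hu, Nat.card_zpowers]
  obtain ⟨z, hz⟩ : ∃ z, z = u ^ (p ^ (n - 1)) := ⟨_, rfl⟩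
  have hzV : z ∈ V := by rw [hz]; exact pow_mem huV _
  have hzp : z ^ p = 1 := by
    rw [hz, ← pow_mul, ← pow_succ, show n - 1 + 1 = n by omega, ← huo, pow_orderOf_eq_one]
  have hz1 : z ≠ 1 := by
    intro h
    rw [hz] at h
    have h1 := orderOf_dvd_of_pow_eq_one h
    rw [huo, Nat.pow_dvd_pow_iff_le_right hp.out.one_lt] at h1
    omega
  have hzo : Nat.card (zpowers z) = p := by rw [Nat.card_zpowers]; exact orderOf_eq_prime hzp hz1
  have hzu : ∀ c ∈ V, c ^ p = 1 → c ∈ zpowers z := by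
    intro c hc hcp
    obtain ⟨k, hk⟩ := Cfsg.Agent.S3761.uniq hVcyc (x := ⟨z, hzV⟩) (y := ⟨c, hc⟩) (Subtype.ext hzp)
      (fun h => hz1 (congrArg Subtype.val h)) (Subtype.ext hcp)
    exact ⟨k, congrArg Subtype.val hk⟩
  have hVn : ∀ v ∈ V, ∀ g : G, g * v * g⁻¹ ∈ V := fun v hv g =>
    (inferInstance : V.Normal).conj_mem v hv g
  have hZn : (zpowers z).Normal := by
    constructor
    rintro _ ⟨k, rfl⟩ g
    have h1 : g * z * g⁻¹ ∈ zpowers z := by
      apply hzu _ (hVn z hzV g)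
      rw [conj_pow, hzp, mul_one, mul_inv_cancel]
    simp only
    rw [← conj_zpow]
    exact zpow_mem h1 k
  have hzc : z ∈ center G := by
    haveI : Group.IsNilpotent G := hG.isNilpotent
    have h1 := CfsgLib.SolvNilp.inf_center_ne_bot (zpowers z) (fun h => hz1 (zpowers_eq_bot.mp h))
    obtain ⟨⟨c, hc⟩, hc1⟩ := Subgroup.ne_bot_iff_exists_ne_one.mp h1
    have hc2 := (mem_inf.mp hc).1
    have hc3 := (mem_inf.mp hc).2
    have hcV2 : c ∈ V := (zpowers_le.mpr hzV) hc2
    have hcp : c ^ p = 1 := by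
      obtain ⟨k, hk⟩ := hc2
      rw [← hk]
      simp only
      rw [← zpow_natCast, ← zpow_mul, mul_comm, zpow_mul, zpow_natCast, hzp, one_zpow]
    obtain ⟨k, hk⟩ := Cfsg.Agent.S3761.uniq hVcyc (x := ⟨c, hcV2⟩) (y := ⟨z, hzV⟩) (Subtype.ext hcp)
      (fun h => hc1 (Subtype.ext (congrArg (fun t : V => (t : G)) h))) (Subtype.ext hzp)
    have hk2 : c ^ k = z := congrArg Subtype.val hk
    rw [← hk2]
    exact zpow_mem hc3 k
  have hzc' : ∀ c ∈ zpowers z, ∀ g : G, g * c = c * g := fun c hc g =>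
    mem_center_iff.mp ((zpowers_le.mpr hzc) hc) g
  have hZV : zpowers z ≤ V := zpowers_le.mpr hzV
  -- commutators in H
  have hcomm : ∀ x ∈ H, ∀ y ∈ H, x * y * x⁻¹ * y⁻¹ ∈ zpowers z := by
    intro x hx y hy
    have h1 := hcV x hx y
    apply hzu _ h1
    have h2 : (x * y * x⁻¹ * y⁻¹ * y) ^ p = (x * y * x⁻¹ * y⁻¹) ^ p * y ^ p :=
      (show Commute (x * y * x⁻¹ * y⁻¹) y from (hVm _ h1 y hy).symm).mul_pow p
    rw [inv_mul_cancel_right, conj_pow] at h2
    have h3 : x * y ^ p * x⁻¹ = y ^ p := by rw [hVm _ (hH1 y hy) x hx, mul_inv_cancel_right]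
    rw [h3] at h2
    exact (mul_eq_right.mp h2.symm)
  have hpow : ∀ x ∈ H, ∃ v ∈ V, (x * v) ^ p ∈ zpowers z := by
    intro x hx
    rcases Nat.lt_or_ge n 2 with h | h
    · refine ⟨1, one_mem _, ?_⟩
      have h1 : n = 1 := by omega
      have h2 : z = u := by rw [hz, h1]; simp
      rw [mul_one, h2, hu]
      exact hH1 x hx
    · obtain ⟨v, hv, hxv⟩ := lemA' hsymp H hHc V (fun g => ⟨fun hg => ⟨hVH hg, hVm g hg⟩, fun hg => hCV g hg.2⟩)
        hH1 (fun x hx y _ => hcV x hx y) hVcyc (by rw [hn]; exact pow_dvd_pow p h) x hx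
      refine ⟨v⁻¹, inv_mem hv, ?_⟩
      rw [(show Commute x v⁻¹ from hVm _ (inv_mem hv) x hx).mul_pow, hxv, inv_pow, mul_inv_cancel]
      exact one_mem _
  obtain ⟨E, hzE, hEH, hEp, hEV, hEVH⟩ := lemB H V hVH hVm z hzV hzp hcomm hpow
  have hZE : zpowers z ≤ E := zpowers_le.mpr hzE
  obtain ⟨R, hR⟩ : ∃ R : Subgroup G, R = centralizer (E : Set G) := ⟨_, rfl⟩
  have hRE : ∀ r ∈ R, ∀ e ∈ E, e * r = r * e := by
    intro r hr e he
    rw [hR] at hr
    exact mem_centralizer_iff.mp hr e he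
  have hVR : V ≤ R := by
    intro v hv
    rw [hR, mem_centralizer_iff]
    exact fun e he => hVm v hv e (hEH he)
  have hgV : ∀ g, (∀ e ∈ E, e * g = g * e) → (∀ v ∈ V, v * g = g * v) → g ∈ V := by
    intro g h1 h2
    apply hCV
    intro x hx
    have h3 : H ≤ centralizer ({g} : Set G) := by
      rw [← hEVH]
      refine sup_le ?_ ?_
      · intro e he
        rw [mem_centralizer_singleton_iff]
        exact h1 e he
      · intro v hv
        rw [mem_centralizer_singleton_iff]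
        exact h2 v hv
    exact mem_centralizer_singleton_iff.mp (h3 hx)
  have hRV : ∀ r ∈ R, (∀ v ∈ V, v * r = r * v) → r ∈ V := fun r hr h => hgV r (hRE r hr) h
  have hEc : ∀ x ∈ E, (∀ y ∈ E, y * x = x * y) → x ∈ zpowers z := by
    intro x hx h
    exact hEV x hx (hgV x h (fun v hv => (hVm v hv x (hEH hx)).symm))
  obtain ⟨E', hE'E, hE'1, hE'2⟩ : ∃ E' : Subgroup G, E' ≤ E ∧ (E' = ⊥ ∨ Cfsg.IsExtraspecial p E') ∧
      (∀ g : G, ∃ e ∈ E', ∃ r ∈ R, g = e * r) := by
    by_cases hEab : ∀ x ∈ E, ∀ y ∈ E, x * y = y * x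
    · refine ⟨⊥, bot_le, Or.inl rfl, fun g => ⟨1, one_mem _, g, ?_, (one_mul g).symm⟩⟩
      rw [hR, mem_centralizer_iff]
      intro e he
      exact (hzc' e (hEc e he (fun y hy => hEab y hy e he)) g).symm
    · push Not at hEab
      obtain ⟨a, ha, b, hb, hab⟩ := hEab
      have hcen : (center E).map E.subtype = zpowers z := by
        ext x
        constructor
        · rintro ⟨y, hy, rfl⟩
          refine hEc y y.2 (fun w hw => ?_)
          exact congrArg Subtype.val (mem_center_iff.mp hy ⟨w, hw⟩)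
        · intro hx
          refine ⟨⟨x, hZE hx⟩, ?_, rfl⟩
          rw [SetLike.mem_coe, mem_center_iff]
          intro g
          exact Subtype.ext (hzc' x hx g)
      have hcen' : ∀ x : E, (x : G) ∈ zpowers z → x ∈ center E := by
        intro x hx
        rw [mem_center_iff]
        intro g
        exact Subtype.ext (hzc' x hx g)
      have hEx : Cfsg.IsExtraspecial p E := by
        apply CfsgLib.ExtraH28.isExtraspecial_of (hG.to_subgroup E)
        · rw [← hzo, ← hcen]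
          exact Nat.card_congr ((center E).equivMapOfInjective E.subtype E.subtype_injective).toEquiv
        · intro x
          exact hcen' _ (hEp x x.2)
        · intro x y
          exact hcen' _ (hcomm x (hEH x.2) y (hEH y.2))
        · exact ⟨⟨a, ha⟩, ⟨b, hb⟩, fun h => hab (congrArg Subtype.val h)⟩
      have hgE : ∀ g : G, ∀ e ∈ E, g * e * g⁻¹ * e⁻¹ ∈ zpowers z := by
        intro g e he
        have h1 : g * e * g⁻¹ * e⁻¹ ∈ V := by
          have := inv_mem (hcV e (hEH he) g)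
          rwa [show (e * g * e⁻¹ * g⁻¹)⁻¹ = g * e * g⁻¹ * e⁻¹ by group] at this
        apply hzu _ h1
        have h2 : (g * e * g⁻¹ * e⁻¹ * e) ^ p = (g * e * g⁻¹ * e⁻¹) ^ p * e ^ p :=
          (show Commute (g * e * g⁻¹ * e⁻¹) e from (hVm _ h1 e (hEH he)).symm).mul_pow p
        rw [inv_mul_cancel_right, conj_pow, hzc' _ (hEp e he) g, mul_inv_cancel_right] at h2
        exact (mul_eq_right.mp h2.symm)
      have hsup : E ⊔ R = ⊤ := by
        rw [hR]
        apply Cfsg.Agent.S0110.result hG E hEx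
        rw [commutator_le]
        intro g _ e he
        rw [commutatorElement_def]
        refine mem_inf.mpr ⟨hZE (hgE g e he), ?_⟩
        rw [mem_centralizer_iff]
        intro y _
        exact hzc' _ (hgE g e he) y
      haveI hEn : E.Normal := by
        constructor
        intro e he g
        have := mul_mem (hZE (hgE g e he)) he
        rwa [inv_mul_cancel_right] at this
      refine ⟨E, le_rfl, Or.inr hEx, fun g => ?_⟩
      have hg : g ∈ E ⊔ R := by rw [hsup]; trivial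
      obtain ⟨e, he, r, hr, hh⟩ := mem_sup_of_normal_left.mp hg
      exact ⟨e, he, r, hr, hh.symm⟩
  have hE'c : ∀ e ∈ E', ∀ r ∈ R, e * r = r * e := fun e he r hr => hRE r hr e (hE'E he)
  have hE's : E' ⊔ R = ⊤ := by
    rw [eq_top_iff]
    intro g _
    obtain ⟨e, he, r, hr, hh⟩ := hE'2 g
    rw [hh]
    exact mul_mem_sup he hr
  by_cases hRab : ∀ x ∈ R, ∀ y ∈ R, x * y = y * x
  · refine ⟨E', R, hE'c, hE's, hE'1, Or.inl ?_⟩
    have h1 : R = V := le_antisymm (fun r hr => hRV r hr (fun v hv => hRab v (hVR hv) r hr)) hVR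
    rw [h1]
    exact hVcyc
  have hn2 : 2 ≤ n := by
    by_contra hlt
    apply hRab
    have h1 : n = 1 := by omega
    have h2 : z = u := by rw [hz, h1]; simp
    have h3 : R ≤ V := by
      intro r hr
      apply hRV r hr
      intro v hv
      rw [← hu, ← h2] at hv
      exact (hzc' v hv r).symm
    intro x hx y hy
    exact congrArg Subtype.val (hVab.is_comm.comm (⟨x, h3 hx⟩ : V) ⟨y, h3 hy⟩)
  -- V₁ = ⟨u^p⟩
  obtain ⟨V₁, hV₁⟩ : ∃ V₁ : Subgroup G, V₁ = zpowers (u ^ p) := ⟨_, rfl⟩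
  have hV₁V : V₁ ≤ V := by rw [hV₁]; exact zpowers_le.mpr (pow_mem huV p)
  have hZV₁ : zpowers z ≤ V₁ := by
    rw [hV₁, zpowers_le, hz]
    refine ⟨(p ^ (n - 2) : ℕ), ?_⟩
    simp only
    rw [zpow_natCast, ← pow_mul, ← pow_succ', show n - 2 + 1 = n - 1 by omega]
  have hV₁card : Nat.card V₁ = p ^ (n - 1) := by
    rw [hV₁, Nat.card_zpowers, orderOf_pow_of_dvd hp.out.ne_zero (by rw [huo]; exact dvd_pow_self p hn0), huo]
    apply Nat.div_eq_of_eq_mul_left hp.out.pos
    rw [← pow_succ, show n - 1 + 1 = n by omega]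
  obtain ⟨M, hM⟩ : ∃ M : Subgroup G, M = R ⊓ centralizer ({u ^ p} : Set G) := ⟨_, rfl⟩
  have hmemM : ∀ g, g ∈ M ↔ g ∈ R ∧ g * u ^ p = u ^ p * g := by
    intro g
    rw [hM, mem_inf, mem_centralizer_singleton_iff]
  have hVab' : ∀ a ∈ V, ∀ b ∈ V, a * b = b * a := fun a ha b hb =>
    congrArg Subtype.val (hVab.is_comm.comm (⟨a, ha⟩ : V) ⟨b, hb⟩)
  have hVM : V ≤ M := fun v hv => (hmemM v).mpr ⟨hVR hv, hVab' v hv _ (pow_mem huV p)⟩
  have hMR : M ≤ R := fun g hg => ((hmemM g).mp hg).1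
  suffices hkey : (V.relIndex M = p) → (∃ E R : Subgroup G, (∀ e ∈ E, ∀ r ∈ R, e * r = r * e) ∧ E ⊔ R = ⊤ ∧ (E = ⊥ ∨ Cfsg.IsExtraspecial p ↥E) ∧ (IsCyclic R ∨ (p = 2 ∧ 16 ≤ Nat.card R ∧ ((∃ m : ℕ, Nonempty (↥R ≃* DihedralGroup m)) ∨ (∃ m : ℕ, Nonempty (↥R ≃* QuaternionGroup m)) ∨ Cfsg.IsQuasiDihedral ↥R)))) by
    have hU : IsCyclic (V.subgroupOf R) :=
      isCyclic_of_surjective (subgroupOfEquivOfLe hVR).symm (subgroupOfEquivOfLe hVR).symm.surjective
    have hUn : Nat.card (V.subgroupOf R) = p ^ n := by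
      rw [← hn]; exact Nat.card_congr (subgroupOfEquivOfLe hVR).toEquiv
    have hUC : centralizer ((V.subgroupOf R : Subgroup R) : Set R) = V.subgroupOf R := by
      ext r
      rw [mem_centralizer_iff, mem_subgroupOf]
      constructor
      · intro h
        apply hRV r r.2
        intro v hv
        exact congrArg Subtype.val (h ⟨v, hVR hv⟩ hv)
      · intro h v hv
        exact Subtype.ext (hVab' v hv r h)
    have hna : ¬ IsMulCommutative R := by
      intro h
      apply hRab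
      intro x hx y hy
      exact congrArg Subtype.val (h.is_comm.comm (⟨x, hx⟩ : R) ⟨y, hy⟩)
    haveI hVnorm : V.Normal := inferInstance
    haveI : (V.subgroupOf R).Normal := inferInstance
    rcases Cfsg.Agent.S3761.result (hG.to_subgroup R) hna (V.subgroupOf R) hU n hUn hUC with ⟨hp2, hRc, htype⟩ | ⟨hrel, -⟩
    · rcases Nat.lt_or_ge n 3 with h3 | h3
      · apply hkey
        have hn2' : n = 2 := by omega
        have h4 : M = R := by
          apply le_antisymm hMR
          intro r hr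
          rw [hmemM]
          refine ⟨hr, ?_⟩
          have h5 : z = u ^ p := by rw [hz, hn2']; simp
          rw [← h5]
          exact mem_center_iff.mp hzc r
        rw [h4]
        have h5 := relIndex_mul_relIndex (⊥ : Subgroup G) V R bot_le hVR
        rw [relIndex_bot_left, relIndex_bot_left, hn, hRc, hn2', hp2] at h5
        rw [hp2]
        omega
      · refine ⟨E', R, hE'c, hE's, hE'1, Or.inr ⟨hp2, ?_, htype⟩⟩
        rw [hRc]
        calc 16 = 2 ^ (3 + 1) := by norm_num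
          _ ≤ 2 ^ (n + 1) := Nat.pow_le_pow_right (by norm_num) (by omega)
    · apply hkey
      rw [← hrel, ← relIndex_subgroupOf hMR]
      congr 1
      ext r
      rw [mem_subgroupOf, hmemM]
      change _ ↔ r ∈ centralizer ((closure {y : R | ∃ x ∈ V.subgroupOf R, y = x ^ (p ^ 1)} : Subgroup R) : Set R)
      rw [centralizer_closure, mem_centralizer_iff]
      constructor
      · rintro ⟨-, h⟩ _ ⟨v, hv, rfl⟩
        rw [mem_subgroupOf, ← hu] at hv
        obtain ⟨k, hk⟩ := hv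
        apply Subtype.ext
        change (v : G) ^ (p ^ 1) * r = r * (v : G) ^ (p ^ 1)
        rw [← hk, pow_one]
        simp only
        rw [← zpow_natCast, ← zpow_mul, mul_comm k, zpow_mul, zpow_natCast]
        exact ((show Commute (r : G) (u ^ p) from h).zpow_right k).eq.symm
      · intro h
        refine ⟨r.2, ?_⟩
        have h2 := h (⟨u, hVR huV⟩ ^ (p ^ 1)) ⟨⟨u, hVR huV⟩, huV, rfl⟩
        have h3 := congrArg Subtype.val h2
        rw [pow_one] at h3
        exact h3.symm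
  intro hrel
  have hrel1 : V₁.relIndex V = p := by
    have h5 := relIndex_mul_relIndex (⊥ : Subgroup G) V₁ V bot_le hV₁V
    rw [relIndex_bot_left, relIndex_bot_left, hn, hV₁card] at h5
    have h6 : p ^ n = p ^ (n - 1) * p := by rw [← pow_succ, show n - 1 + 1 = n by omega]
    rw [h6] at h5
    exact Nat.eq_of_mul_eq_mul_left (pow_pos hp.out.pos _) h5
  have hMna : ∃ x y : M, x * y ≠ y * x := by
    by_contra hcon
    push Not at hcon
    have h1 : M ≤ V := by
      intro m hm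
      apply hRV m (hMR hm)
      intro v hv
      exact congrArg Subtype.val (hcon ⟨v, hVM hv⟩ ⟨m, hm⟩)
    rw [relIndex_eq_one.mpr h1] at hrel
    exact hp.out.one_lt.ne hrel
  have hMD := lemD (M := M) (p := p) (V₁.subgroupOf M) (by
      intro x hx
      rw [mem_subgroupOf, hV₁] at hx
      rw [mem_center_iff]
      intro m
      apply Subtype.ext
      obtain ⟨k, hk⟩ := hx
      change (m : G) * x = x * m
      rw [← hk]
      exact ((show Commute (m : G) (u ^ p) from ((hmemM m).mp m.2).2).zpow_right k).eq) (by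
      change V₁.relIndex M = p ^ 2
      rw [← relIndex_mul_relIndex V₁ V M hV₁V hVM, hrel1, hrel, pow_two]) hMna
  obtain ⟨K, hK⟩ : ∃ K : Subgroup G, K = centralizer ({u ^ p} : Set G) := ⟨_, rfl⟩
  have hmemK : ∀ g, g ∈ K ↔ g * u ^ p = u ^ p * g := by
    intro g
    rw [hK, mem_centralizer_singleton_iff]
  have hKchar : K.Characteristic := by
    rw [characteristic_iff_le_comap]
    intro φ x hx
    rw [mem_comap]
    change φ x ∈ K
    rw [hmemK] at hx ⊢
    have h1 : φ.symm u ∈ V := (characteristic_iff_le_comap.mp hVchar φ.symm) huV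
    rw [← hu] at h1
    obtain ⟨k, hk⟩ := h1
    simp only at hk
    have h3 : φ (u ^ k) = u := by rw [hk]; simp
    have h2 : φ ((u ^ p) ^ k) = u ^ p := by
      rw [← zpow_natCast, ← zpow_mul, mul_comm, zpow_mul, map_zpow, h3]
    have h4 : x * (u ^ p) ^ k = (u ^ p) ^ k * x := ((show Commute x (u ^ p) from hx).zpow_right k).eq
    have h5 := congrArg φ h4
    rwa [map_mul, map_mul, h2] at h5
  have hEK : E ≤ K := by
    intro e he
    rw [hmemK]
    exact hVm _ (pow_mem huV p) e (hEH he)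
  have hMK : M ≤ K := fun m hm => (hmemK m).mpr ((hmemM m).mp hm).2
  have hKdec : ∀ g ∈ K, ∃ e ∈ E, ∃ m ∈ M, g = e * m := by
    intro g hg
    obtain ⟨e, he, r, hr, hh⟩ := hE'2 g
    refine ⟨e, hE'E he, r, ?_, hh⟩
    have h1 : r ∈ K := by
      have h2 : r = e⁻¹ * g := by rw [hh]; group
      rw [h2]
      exact mul_mem (inv_mem (hEK (hE'E he))) hg
    exact (hmemM r).mpr ⟨hr, (hmemK r).mp h1⟩
  have hEM : ∀ e ∈ E, ∀ m ∈ M, e * m = m * e := fun e he m hm => hRE m (hMR hm) e he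
  have hKp : ∀ x ∈ K, x ^ p ∈ V₁ := by
    intro x hx
    obtain ⟨e, he, m, hm, rfl⟩ := hKdec x hx
    rw [(show Commute e m from hEM e he m hm).mul_pow]
    exact mul_mem (hZV₁ (hEp e he)) (hMD.1 ⟨m, hm⟩)
  have hKc : ∀ x ∈ K, ∀ y ∈ K, x * y * x⁻¹ * y⁻¹ ∈ V₁ := by
    intro x hx y hy
    obtain ⟨e, he, m, hm, rfl⟩ := hKdec x hx
    obtain ⟨e', he', m', hm', rfl⟩ := hKdec y hy
    have h1 : e * m * (e' * m') * (e * m)⁻¹ * (e' * m')⁻¹ = (e * e' * e⁻¹ * e'⁻¹) * (m * m' * m⁻¹ * m'⁻¹) := by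
      have a1 := hEM e' he' m hm
      have a2 := hEM e⁻¹ (inv_mem he) (m' * m⁻¹) (mul_mem hm' (inv_mem hm))
      have a3 := hEM e⁻¹ (inv_mem he) m hm
      have a4 := hEM e'⁻¹ (inv_mem he') (m * m' * m⁻¹ * m'⁻¹) (mul_mem (mul_mem (mul_mem hm hm') (inv_mem hm)) (inv_mem hm'))
      calc e * m * (e' * m') * (e * m)⁻¹ * (e' * m')⁻¹ = e * (m * e') * ((m' * m⁻¹) * e⁻¹) * m'⁻¹ * e'⁻¹ := by group
        _ = e * (e' * m) * (e⁻¹ * (m' * m⁻¹)) * m'⁻¹ * e'⁻¹ := by rw [← a1, ← a2]
        _ = e * e' * (m * e⁻¹) * (m' * m⁻¹) * m'⁻¹ * e'⁻¹ := by group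
        _ = e * e' * (e⁻¹ * m) * (m' * m⁻¹) * m'⁻¹ * e'⁻¹ := by rw [← a3]
        _ = e * e' * e⁻¹ * ((m * m' * m⁻¹ * m'⁻¹) * e'⁻¹) := by group
        _ = e * e' * e⁻¹ * (e'⁻¹ * (m * m' * m⁻¹ * m'⁻¹)) := by rw [← a4]
        _ = _ := by group
    rw [h1]
    exact mul_mem (hZV₁ (hcomm e (hEH he) e' (hEH he'))) (hMD.2 ⟨m, hm⟩ ⟨m', hm'⟩)
  have hV₁mem : ∀ g, g ∈ V₁ ↔ g ∈ K ∧ ∀ x ∈ K, x * g = g * x := by
    intro g
    constructor
    · intro hg
      refine ⟨hMK (hVM (hV₁V hg)), ?_⟩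
      intro x hx
      rw [hV₁] at hg
      obtain ⟨k, hk⟩ := hg
      rw [← hk]
      exact ((show Commute x (u ^ p) from (hmemK x).mp hx).zpow_right k).eq
    · rintro ⟨hgK, hg⟩
      have hgV' : g ∈ V := hgV g (fun e he => hg e (hEK he)) (fun v hv => hg v (hMK (hVM hv)))
      have hgV2 := hgV'
      rw [← hu] at hgV2
      obtain ⟨k, hk⟩ := hgV2
      simp only at hk
      by_cases hpk : (p : ℤ) ∣ k
      · obtain ⟨j, rfl⟩ := hpk
        rw [hV₁, ← hk, zpow_mul, zpow_natCast]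
        exact ⟨j, rfl⟩
      · exfalso
        have h3 : IsCoprime ((p : ℤ) ^ n) k := (IsCoprime.pow_left ((Prime.coprime_iff_not_dvd (Nat.prime_iff_prime_int.mp hp.out)).mpr hpk))
        obtain ⟨a, b, hab⟩ := h3
        have h4 : u = g ^ b := by
          rw [← hk, ← zpow_mul]
          have h5 : k * b = 1 - (p : ℤ) ^ n * a := by linarith
          rw [h5, zpow_sub, zpow_one, zpow_mul, show ((p : ℤ) ^ n) = ((p ^ n : ℕ) : ℤ) by push_cast; rfl, zpow_natCast, ← huo,
            pow_orderOf_eq_one, one_zpow, inv_one, mul_one]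
        have h1 : M ≤ V := by
          intro m hm
          apply hRV m (hMR hm)
          intro v hv
          rw [← hu] at hv
          obtain ⟨j, rfl⟩ := hv
          simp only
          rw [h4]
          have h6 : Commute m g := hg m (hMK hm)
          exact ((h6.zpow_right b).zpow_right j).eq.symm
        rw [relIndex_eq_one.mpr h1] at hrel
        exact hp.out.one_lt.ne hrel
  rcases Nat.lt_or_ge n 3 with h3 | h3
  · -- G extraspecial
    have hn2' : n = 2 := by omega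
    have h5 : z = u ^ p := by rw [hz, hn2']; simp
    have hKt : ∀ g : G, g ∈ K := by
      intro g
      rw [hmemK, ← h5]
      exact mem_center_iff.mp hzc g
    have hcen : center G = V₁ := by
      ext g
      rw [hV₁mem, mem_center_iff]
      exact ⟨fun h => ⟨hKt g, fun x _ => h x⟩, fun h x => h.2 x (hKt x)⟩
    have hEx : Cfsg.IsExtraspecial p G := by
      apply CfsgLib.ExtraH28.isExtraspecial_of hG
      · rw [hcen, hV₁card, hn2']; simp
      · intro x; rw [hcen]; exact hKp x (hKt x)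
      · intro x y; rw [hcen]; exact hKc x (hKt x) y (hKt y)
      · obtain ⟨x, y, hxy⟩ := hMna
        exact ⟨x, y, fun h => hxy (Subtype.ext h)⟩
    refine ⟨⊤, ⊥, ?_, by simp, Or.inr (CfsgLib.ExtraH28.isExtraspecial_congr (topEquiv (G := G)).symm hEx), Or.inl ?_⟩
    · intro e _ r hr
      rw [mem_bot.mp hr, mul_one, one_mul]
    · exact isCyclic_of_subsingleton
  · exfalso
    obtain ⟨v, hv, huv⟩ := lemA' hsymp K hKchar V₁ hV₁mem hKp hKc
      (by rw [hV₁]; infer_instance) (by rw [hV₁card]; exact pow_dvd_pow p (by omega)) u (hMK (hVM huV))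
    rw [hV₁] at hv
    obtain ⟨k, hk⟩ := hv
    simp only at hk
    have h6 : u ^ ((p : ℤ) * (1 - p * k)) = 1 := by
      rw [mul_sub, mul_one, zpow_sub, zpow_natCast, mul_inv_eq_one, huv, ← hk]
      rw [← zpow_natCast u, ← zpow_natCast, ← zpow_mul, ← zpow_mul]
      congr 1
      ring
    have h7 := orderOf_dvd_iff_zpow_eq_one.mpr h6
    rw [huo] at h7
    have h8 : ((p : ℤ)) * p ∣ p * (1 - p * k) := by
      refine dvd_trans ?_ h7
      push_cast
      rw [← pow_two]
      exact pow_dvd_pow _ hn2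
    have h9 : (p : ℤ) ∣ 1 - p * k := (mul_dvd_mul_iff_left (by exact_mod_cast hp.out.ne_zero)).mp h8
    have h10 : (p : ℤ) ∣ 1 := by
      have := dvd_add h9 (Dvd.intro k rfl : (p : ℤ) ∣ p * k)
      rwa [sub_add_cancel] at this
    have h11 : p ∣ 1 := by exact_mod_cast h10
    exact hp.out.one_lt.ne' (Nat.dvd_one.mp h11)

end Cfsg.Agent.S3762
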