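import Cfsg.Statements.S3763
import Cfsg.Agent.LibExForm4

set_option autoImplicit false
open Cfsg

namespace Cfsg.Agent.S3763

theorem key {F : Type*} [Group F] [Finite F] {t : ZMod 2} {n : ℕ} (ht : CfsgLib.ExForm.HasType F n t)
    (hn1 : 1 ≤ n) :
    ((t = 1 ∧ Cfsg.PRankLE 2 n F ∧ ¬ Cfsg.PRankLE 2 (n - 1) F) ∨
      (t = 0 ∧ Cfsg.PRankLE 2 (n + 1) F ∧ ¬ Cfsg.PRankLE 2 n F)) := by
  by_cases h0 : t = 0
  · right
    subst h0
    refine ⟨rfl, fun A hA hAe => ht.elab_le A hA hAe, ?_⟩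
    intro h
    obtain ⟨A, hA, hc⟩ := ht.exists_elab_zero
    have := h A hA.1 hA.2
    rw [hc, pow_succ] at this
    have h2 : 0 < 2 ^ n := by positivity
    omega
  · left
    have h1 := CfsgLib.QuadF2.eq_one_of_ne h0
    subst h1
    refine ⟨rfl, fun A hA hAe => ht.elab_le_one hn1 A hA hAe, ?_⟩
    intro h
    obtain ⟨A, hA, hc⟩ := ht.exists_elab_one hn1
    have := h A hA.1 hA.2
    rw [hc] at this
    obtain ⟨k, rfl⟩ : ∃ k, n = k + 1 := ⟨n - 1, by omega⟩
    rw [Nat.add_sub_cancel, pow_succ] at this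
    have h2 : 0 < 2 ^ k := by positivity
    omega


/-- Let E be an extraspecial 2-group of order 2^(2n+1). Then the largest elementary abelian subgroups of E have order 2^n or 2^(n+1); and two extraspecial 2-groups of the same order whose largest elementary abelian subgroups have the same order are isomorphic. -/
theorem result {E : Type*} [Group E] [Finite E] (hE : Cfsg.IsExtraspecial 2 E) (n : ℕ) (hn : Nat.card E = 2 ^ (2 * n + 1)) : ((Cfsg.PRankLE 2 n E ∧ ¬ Cfsg.PRankLE 2 (n - 1) E) ∨ (Cfsg.PRankLE 2 (n + 1) E ∧ ¬ Cfsg.PRankLE 2 n E)) ∧ ∀ (E' : Type*) [Group E'] [Finite E'], Cfsg.IsExtraspecial 2 E' → Nat.card E' = Nat.card E → (∀ k : ℕ, Cfsg.PRankLE 2 k E ↔ Cfsg.PRankLE 2 k E') → Nonempty (E ≃* E') := by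
  obtain ⟨m, t, hm, hc, ht⟩ := CfsgLib.ExForm.exists_hasType hE
  have hmn : m = n := by
    rw [hn] at hc
    have := Nat.pow_right_injective (le_refl 2) hc
    omega
  subst hmn
  constructor
  · rcases key ht hm with ⟨-, h⟩ | ⟨-, h⟩
    · exact Or.inl h
    · exact Or.inr h
  · intro E' _ _ hE' hc' hr
    obtain ⟨m', t', hm', hc'', ht'⟩ := CfsgLib.ExForm.exists_hasType hE'
    have hmm : m' = m := by
      rw [hc, hc''] at hc'
      have := Nat.pow_right_injective (le_refl 2) hc'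
      omega
    subst hmm
    have htt : t = t' := by
      rcases key ht hm with ⟨h1, h2, -⟩ | ⟨h1, -, h2⟩
      · rcases key ht' hm with ⟨h3, -⟩ | ⟨h3, -, h4⟩
        · rw [h1, h3]
        · exact absurd ((hr m').mp h2) h4
      · rcases key ht' hm with ⟨h3, h4, -⟩ | ⟨h3, -⟩
        · exact absurd ((hr m').mpr h4) h2
        · rw [h1, h3]
    subst htt
    exact ht.exists_equiv ht'

end Cfsg.Agent.S3763
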