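import Cfsg.Statements.S3764
import Cfsg.Agent.LibBGRepE

set_option autoImplicit false
open Cfsg

namespace Cfsg.Agent.S3764
open CfsgLib.BGPi
open scoped commutatorElement

/-- Let p, q, r be distinct primes and let X, Q, V be subgroups of a finite group with X of order r, Q an extraspecial q-group normalized by X with C_Q(X) = Z(Q), and V an elementary abelian p-group normalized by X and Q on which XQ acts faithfully ((X ⊔ Q) ∩ C(V) = 1). If C_V(X) = 1, then q = 2, r = 2^n + 1 for some n, and Q has order 2^(2n+1). -/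
theorem result {G : Type*} [Group G] [Finite G] {p q r : ℕ} (hp : p.Prime) (hq : q.Prime) (hr : r.Prime) (hpq : p ≠ q) (hpr : p ≠ r) (hqr : q ≠ r) (X Q V : Subgroup G) (hX : Nat.card X = r) (hQ : Cfsg.IsExtraspecial q ↥Q) (hXQ : X ≤ Subgroup.normalizer (Q : Set G)) (hCQ : Q ⊓ Subgroup.centralizer (X : Set G) = (Subgroup.center ↥Q).map Q.subtype) (hV : Cfsg.IsElementaryAbelian p V) (hXV : X ≤ Subgroup.normalizer (V : Set G)) (hQV : Q ≤ Subgroup.normalizer (V : Set G)) (hfaith : (X ⊔ Q) ⊓ Subgroup.centralizer (V : Set G) = ⊥) (hCV : V ⊓ Subgroup.centralizer (X : Set G) = ⊥) : q = 2 ∧ ∃ n : ℕ, r = 2 ^ n + 1 ∧ Nat.card Q = 2 ^ (2 * n + 1) := by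

  classical
  haveI : Fact p.Prime := ⟨hp⟩
  haveI : Fact q.Prime := ⟨hq⟩
  have hXp : (Nat.card X).Prime := hX ▸ hr
  haveI : Nontrivial X := Finite.one_lt_card_iff_nontrivial.1 hXp.one_lt
  obtain ⟨⟨ρ, hρX⟩, hρ1⟩ := exists_ne (1 : X)
  have hρ1' : ρ ≠ 1 := fun h => hρ1 (Subtype.ext h)
  have hρ : X = Subgroup.zpowers ρ := (zpowers_of_prime hXp hρX hρ1').symm
  set Z := (Subgroup.center ↥Q).map Q.subtype with hZ
  have hZc : Nat.card Z = q := by
    rw [hZ, Subgroup.card_map_of_injective Q.subtype_injective, hQ.2]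
  have hZQ : Z ≤ Q := Subgroup.map_subtype_le _
  have hcz : ∀ z ∈ Z, ∀ x ∈ Q, z * x = x * z := by
    rintro _ ⟨z, hz, rfl⟩ x hx
    exact (congrArg Subtype.val (Subgroup.mem_center_iff.1 hz ⟨x, hx⟩)).symm
  have hZX : ∀ z ∈ Z, z * ρ = ρ * z := by
    intro z hz
    have h1 : z ∈ Q ⊓ Subgroup.centralizer (X : Set G) := by rw [hCQ]; exact hz
    exact (Subgroup.mem_centralizer_iff.1 (Subgroup.mem_inf.1 h1).2 ρ hρX).symm
  obtain ⟨k, hk⟩ := IsPGroup.iff_card.1 hQ.1.1
  have hQs : Group.IsSolvable Q := by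
    haveI := hQ.1.1.isNilpotent
    infer_instance
  have hcop : (Nat.card X).Coprime (Nat.card Q) := by
    rw [hX, hk]
    exact (Nat.coprime_primes hr hq).2 (Ne.symm hqr) |>.pow_right k
  have hQZ : Q ≤ 𝓝(Z) := by
    apply le_nz_of_le_cz
    intro x hx
    rw [Subgroup.mem_centralizer_iff]
    intro z hz
    exact hcz z hz x hx
  have hXZ : X ≤ 𝓝(Z) := by
    apply le_nz_of_le_cz
    rw [hρ, Subgroup.zpowers_le, Subgroup.mem_centralizer_iff]
    intro z hz
    exact hZX z hz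
  have hfpf := fpf_of_cz hr hX hρ hXQ hcop hQs hZQ hQZ hXZ hCQ.le
  haveI : Nontrivial Z := Finite.one_lt_card_iff_nontrivial.1 (hZc ▸ hq.one_lt)
  obtain ⟨⟨z₀, hz₀⟩, hz₀1⟩ := exists_ne (1 : Z)
  have hz₀1' : z₀ ≠ 1 := fun h => hz₀1 (Subtype.ext h)
  have hzZ : Subgroup.zpowers z₀ = Z := zpowers_of_prime (hZc.symm ▸ hq) hz₀ hz₀1'
  have hext := CfsgLib.BGRep.ext_rel (p := p) (V := V) (K := Q) (Z := Z) (ρ := ρ) hr
    (Ne.symm hpr) ?_ ?_ ?_ hZQ hcz hZX (hXQ hρX) ?_ hQV (hXV hρX) hfpf ?_ hz₀ ?_ ?_ ?_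
  · obtain ⟨D, hD, hD'⟩ := hext
    rw [hZc, hk] at hD
    have hkpos : k ≠ 0 := by
      rintro rfl
      rw [pow_zero] at hD
      have := hq.two_le
      have h1 := Nat.eq_one_of_mul_eq_one_left hD
      omega
    obtain ⟨k', rfl⟩ := Nat.exists_eq_succ_of_ne_zero hkpos
    have hD2 : D ^ 2 = q ^ k' := by
      rw [Nat.succ_eq_add_one, pow_succ] at hD
      exact Nat.eq_of_mul_eq_mul_right hq.pos hD
    obtain ⟨n, -, hn⟩ := (Nat.dvd_prime_pow hq).1 (Dvd.intro_left (D ^ 1) (by rw [← hD2]; ring) :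
      D ∣ q ^ k')
    have hk' : k' = 2 * n := by
      rw [hn, ← pow_mul] at hD2
      have := Nat.pow_right_injective hq.two_le hD2
      omega
    have hD1 : D ≠ 1 := by
      rintro rfl
      -- then `Q = Z` would be abelian
      have h1 : Nat.card Q = Nat.card Z := by rw [hk, hZc, Nat.succ_eq_add_one, pow_succ, ← hD2]; simp
      have h2 : Z = Q := by
        apply SetLike.coe_injective
        exact Set.eq_of_subset_of_ncard_le hZQ h1.le (Set.toFinite _)
      have h3 : commutator Q = ⊥ := by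
        rw [eq_bot_iff, commutator_def, Subgroup.commutator_le]
        intro x _ y _
        rw [Subgroup.mem_bot, commutatorElement_eq_one_iff_mul_comm]
        apply Subtype.ext
        exact hcz x (by rw [h2]; exact x.2) y y.2
      have h4 := hQ.1.2.2
      have h5 := hQ.2
      rw [← h4, h3, Subgroup.card_bot] at h5
      exact hq.one_lt.ne h5
    rcases hD' with h | h
    · exact absurd h hD1
    have hn0 : n ≠ 0 := by
      rintro rfl
      exact hD1 (by rw [hn, pow_zero])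
    have hq2 : q = 2 := by
      by_contra hq2
      have hqo : Odd q := hq.odd_of_ne_two hq2
      have h1 : Even r := by
        rw [← h, hn]
        exact (hqo.pow).add_one
      have h2 : r = 2 := (Nat.Prime.even_iff hr).1 h1
      have h3 : q ≤ q ^ n := Nat.le_self_pow hn0 q
      have := hq.two_le
      omega
    refine ⟨hq2, n, ?_, ?_⟩
    · rw [← h, hn, hq2]
    · rw [hk, hk', hq2]
  · intro a ha b hb
    exact hV.1.is_comm.comm ⟨a, ha⟩ ⟨b, hb⟩ |> congrArg Subtype.val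
  · intro v hv
    exact hV.2 v hv
  · rw [hk]
    intro h
    exact hpq ((Nat.prime_dvd_prime_iff_eq hp hq).1 (hp.dvd_of_dvd_pow h))
  · rw [← hX]; exact orderOf_dvd_iff_pow_eq_one.1 (by
      rw [← Nat.card_zpowers, ← hρ])
  · intro x hx y hy
    have h1 : ⁅(⟨y, hy⟩ : Q), (⟨x, hx⟩ : Q)⁆ ∈ commutator Q :=
      Subgroup.commutator_mem_commutator (Subgroup.mem_top _) (Subgroup.mem_top _)
    rw [hQ.1.2.2] at h1
    exact ⟨_, h1, rfl⟩
  · by_contra hcon
    push Not at hcon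
    apply hz₀1'
    have h1 : z₀ ∈ (X ⊔ Q) ⊓ Subgroup.centralizer (V : Set G) := by
      refine Subgroup.mem_inf.2 ⟨(le_sup_right : Q ≤ X ⊔ Q) (hZQ hz₀), ?_⟩
      rw [Subgroup.mem_centralizer_iff]
      intro v hv
      exact (hcon v hv).symm
    rw [hfaith] at h1
    exact h1
  · intro x hx hxZ N hN hzN
    have hNb : N = ⊥ := by
      by_contra hN0
      obtain ⟨n, hn1⟩ := (Subgroup.ne_bot_iff_exists_ne_one.1 hN0)
      apply hzN
      have h1 : Subgroup.zpowers (n : G) = Z := zpowers_of_prime (hZc.symm ▸ hq) (hN n.2)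
        (fun h => hn1 (Subtype.ext h))
      have h2 : Subgroup.zpowers (n : G) ≤ N := Subgroup.zpowers_le.2 n.2
      exact h2 (h1.symm ▸ hz₀)
    subst hNb
    by_contra hcon
    push Not at hcon
    apply hxZ
    refine ⟨⟨x, hx⟩, ?_, rfl⟩
    rw [SetLike.mem_coe, Subgroup.mem_center_iff]
    rintro ⟨y, hy⟩
    apply Subtype.ext
    have h1 := hcon y hy
    rw [Subgroup.mem_bot, mul_inv_eq_one, mul_inv_eq_iff_eq_mul] at h1
    exact h1
  · intro v hv hvρ
    have h1 : v ∈ V ⊓ Subgroup.centralizer (X : Set G) := by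
      refine Subgroup.mem_inf.2 ⟨hv, ?_⟩
      rw [hρ, cz_zpowers, Subgroup.mem_centralizer_singleton_iff]
      exact hvρ.symm
    rw [hCV] at h1
    exact h1


end Cfsg.Agent.S3764
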