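import Cfsg.Statements.S3765
import Cfsg.Agent.LibSGApp

set_option autoImplicit false
open Cfsg

namespace Cfsg.Agent.S3765

/-- Let p, q, r be distinct primes and let X, Q, V be subgroups of a finite group with X of order r normalizing the q-group Q and acting faithfully on it (X ∩ C(Q) = 1), and V a nontrivial elementary abelian p-group normalized by X and Q on which XQ acts faithfully. If q = 2 and r has the form 2^n + 1, assume in addition that Q is abelian. Then C_V(X) ≠ 1. -/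
theorem result {G : Type*} [Group G] [Finite G] {p q r : ℕ} (hp : p.Prime) (hq : q.Prime) (hr : r.Prime) (hpq : p ≠ q) (hpr : p ≠ r) (hqr : q ≠ r) (X Q V : Subgroup G) (hX : Nat.card X = r) (hQ : IsPGroup q Q) (hXQ : X ≤ Subgroup.normalizer (Q : Set G)) (hXfaith : X ⊓ Subgroup.centralizer (Q : Set G) = ⊥) (hV : Cfsg.IsElementaryAbelian p V) (hV1 : V ≠ ⊥) (hXV : X ≤ Subgroup.normalizer (V : Set G)) (hQV : Q ≤ Subgroup.normalizer (V : Set G)) (hfaith : (X ⊔ Q) ⊓ Subgroup.centralizer (V : Set G) = ⊥) (hexc : q = 2 → (∃ n : ℕ, r = 2 ^ n + 1) → IsMulCommutative Q) : V ⊓ Subgroup.centralizer (X : Set G) ≠ ⊥ := by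

  intro hbot
  haveI : Fact r.Prime := ⟨hr⟩
  obtain ⟨x, hx⟩ := exists_prime_orderOf_dvd_card' (G := X) r (by rw [hX])
  have hxr : (x : G) ^ r = 1 := by
    have h1 := pow_orderOf_eq_one x
    rw [hx] at h1
    exact congrArg Subtype.val h1
  have hgen : ∀ y ∈ X, ∃ k : ℤ, (x : G) ^ k = y := by
    intro y hy
    have h1 : Subgroup.zpowers x = ⊤ := by
      apply Subgroup.eq_top_of_card_eq
      rw [Nat.card_zpowers, hx, hX]
    have h2 : (⟨y, hy⟩ : X) ∈ Subgroup.zpowers x := h1 ▸ Subgroup.mem_top _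
    obtain ⟨k, hk⟩ := Subgroup.mem_zpowers_iff.1 h2
    exact ⟨k, congrArg Subtype.val hk⟩
  have hVc : ∀ v ∈ V, ∀ w ∈ V, v * w = w * v := fun v hv w hw =>
    congrArg Subtype.val (hV.1.is_comm.comm ⟨v, hv⟩ ⟨w, hw⟩)
  have key := CfsgLib.SGApp.prime_fix hp hq hr hpq hpr hqr V Q (x : G) hxr hV.2 hVc (hXV x.2) hQV (hXQ x.2) hQ (by
    intro h1 h2 a ha b hb
    exact congrArg Subtype.val ((hexc h1 h2).is_comm.comm ⟨a, ha⟩ ⟨b, hb⟩)) (by
    intro v hv hvx
    have h1 : v ∈ V ⊓ Subgroup.centralizer (X : Set G) := by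
      refine ⟨hv, ?_⟩
      show v ∈ Subgroup.centralizer (X : Set G)
      rw [Subgroup.mem_centralizer_iff]
      intro y hy
      obtain ⟨k, rfl⟩ := hgen y hy
      exact ((show Commute (x : G) v from hvx).zpow_left k).eq
    rw [hbot] at h1
    exact h1)
  have hx1 : (x : G) = 1 := by
    have h1 : (x : G) ∈ X ⊓ Subgroup.centralizer (Q : Set G) := by
      refine ⟨x.2, ?_⟩
      show (x : G) ∈ Subgroup.centralizer (Q : Set G)
      rw [Subgroup.mem_centralizer_iff]
      intro y hy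
      have h2 : y⁻¹ * (x * y * (x : G)⁻¹) ∈ (X ⊔ Q) ⊓ Subgroup.centralizer (V : Set G) := by
        have hxm : (x : G) ∈ X ⊔ Q := Subgroup.mem_sup_left x.2
        have hym : y ∈ X ⊔ Q := Subgroup.mem_sup_right hy
        refine Subgroup.mem_inf.2 ⟨mul_mem (inv_mem hym) (mul_mem (mul_mem hxm hym) (inv_mem hxm)), ?_⟩
        rw [Subgroup.mem_centralizer_iff]
        intro v hv
        have h3 := key y hy v hv
        have h4 : (y⁻¹ * (x * y * (x : G)⁻¹)) * v * (y⁻¹ * (x * y * (x : G)⁻¹))⁻¹ = v := by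
          calc (y⁻¹ * (x * y * (x : G)⁻¹)) * v * (y⁻¹ * (x * y * (x : G)⁻¹))⁻¹
              = y⁻¹ * ((x * y * (x : G)⁻¹) * v * (x * y * (x : G)⁻¹)⁻¹) * y := by group
            _ = y⁻¹ * (y * v * y⁻¹) * y := by rw [h3]
            _ = v := by group
        exact (mul_inv_eq_iff_eq_mul.1 h4).symm
      rw [hfaith, Subgroup.mem_bot] at h2
      have h3 : x * y * (x : G)⁻¹ = y := by
        have h4 : y * (y⁻¹ * (x * y * (x : G)⁻¹)) = y := by rw [h2, mul_one]
        rw [← mul_assoc, mul_inv_cancel, one_mul] at h4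
        exact h4
      exact (mul_inv_eq_iff_eq_mul.1 h3).symm
    rw [hXfaith] at h1
    exact h1
  have h2 : x = 1 := Subtype.ext hx1
  rw [h2, orderOf_one] at hx
  exact hr.one_lt.ne hx


end Cfsg.Agent.S3765
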