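import Cfsg.Statements.S3766
import Cfsg.Agent.LibSolvFitting

set_option autoImplicit false
open Cfsg

namespace Cfsg.Agent.S3766

open Cfsg CfsgLib.SolvFitting
open scoped commutatorElement

universe u

theorem fit_cent {G : Type u} [Group G] [Finite G] (F : Subgroup G) [F.Normal] (hF : Group.IsNilpotent F)
    (U V : Subgroup G) [U.Normal] [V.Normal] (hVU : V < U)
    (hch : ∀ W : Subgroup G, W.Normal → V ≤ W → W ≤ U → W = V ∨ W = U) : ⁅U, F⁆ ≤ V := by
  rcases hch (⁅U, F⁆ ⊔ V) inferInstance le_sup_right (sup_le (Subgroup.commutator_le_left U F) hVU.le) with h | h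
  · exact le_sup_left.trans h.le
  · exfalso
    obtain ⟨n, hn⟩ := (Subgroup.isNilpotent_iff_lowerCentralSeries F).1 hF
    have hk : ∀ k, U ≤ F.lowerCentralSeries k ⊔ V := by
      intro k
      induction k with
      | zero =>
        nth_rw 1 [← h]
        exact sup_le_sup_right (Subgroup.commutator_le_right U F) V
      | succ k ih =>
        nth_rw 1 [← h]
        refine sup_le ?_ le_sup_right
        rw [Subgroup.commutator_le]
        intro u hu f hf
        obtain ⟨c, hc, v, hv, rfl⟩ := Subgroup.mem_sup_of_normal_right.1 (ih hu)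
        have e : ⁅c * v, f⁆ = (c * ⁅v, f⁆ * c⁻¹) * ⁅c, f⁆ := by
          simp only [commutatorElement_def]; group
        rw [e]
        apply mul_mem
        · apply Subgroup.mem_sup_right
          apply (inferInstance : V.Normal).conj_mem
          exact Subgroup.commutator_le_left V F (Subgroup.commutator_mem_commutator hv hf)
        · exact Subgroup.mem_sup_left (Subgroup.commutator_mem_commutator hc hf)
    have := hk n
    rw [hn, bot_sup_eq] at this
    exact absurd this (not_le_of_gt hVU)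

theorem nil_of_cent {G : Type u} [Group G] [Finite G] (K F : Subgroup G) [K.Normal] [F.Normal]
    (hKK : ⁅K, K⁆ ≤ F)
    (h : ∀ U V : Subgroup G, U.Normal → V.Normal → V < U →
      (∀ W : Subgroup G, W.Normal → V ≤ W → W ≤ U → W = V ∨ W = U) → U ≤ F → ⁅U, K⁆ ≤ V) :
    Group.IsNilpotent K := by
  obtain ⟨V, hV⟩ := Set.Finite.exists_minimal
    (s := {V : Subgroup G | V.Normal ∧ V ≤ F ∧ ∃ k, K.lowerCentralSeries k ≤ V})
    (Set.toFinite _) ⟨F, inferInstance, le_rfl, 1, hKK⟩
  obtain ⟨⟨hVn, hVF, k, hk⟩, hmin⟩ := hV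
  by_cases hVb : V = ⊥
  · exact Subgroup.isNilpotent_of_lowerCentralSeries_eq_bot (le_bot_iff.1 (hVb ▸ hk))
  · exfalso
    obtain ⟨W, hW⟩ := Set.Finite.exists_maximal
      (s := {W : Subgroup G | W.Normal ∧ W < V}) (Set.toFinite _)
      ⟨⊥, inferInstance, bot_lt_iff_ne_bot.2 hVb⟩
    obtain ⟨⟨hWn, hWV⟩, hmax⟩ := hW
    have h1 : ⁅V, K⁆ ≤ W := by
      apply h V W hVn hWn hWV _ hVF
      intro T hT h1 h2
      by_cases h3 : T = V
      · exact Or.inr h3
      · exact Or.inl (le_antisymm (hmax ⟨hT, lt_of_le_of_ne h2 h3⟩ h1) h1)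
    have h2 : K.lowerCentralSeries (k + 1) ≤ W :=
      (Subgroup.commutator_mono hk le_rfl).trans h1
    exact not_le_of_gt hWV (hmin ⟨hWn, hWV.le.trans hVF, k + 1, h2⟩ hWV.le)

/-- Let G be a finite solvable group and N a normal subgroup of G. Call a pair V < U of normal subgroups of G a chief factor of G when no normal subgroup of G lies strictly between them; an element g centralizes the chief factor U/V when u g u⁻¹ g⁻¹ ∈ V for all u ∈ U. Then an element of G lies in the Fitting subgroup F(N) if and only if it lies in N and centralizes every chief factor of G; and also if and only if it lies in N and centralizes every chief factor U/V of G with U ≤ F(N). -/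
theorem result {G : Type*} [Group G] [Finite G] (hG : Group.IsSolvable G) (N : Subgroup G) [N.Normal] (g : G) : (g ∈ (Cfsg.fittingSubgroup ↥N).map N.subtype ↔ g ∈ N ∧ ∀ U V : Subgroup G, (U.Normal ∧ V.Normal ∧ V < U ∧ ∀ W : Subgroup G, W.Normal → V ≤ W → W ≤ U → W = V ∨ W = U) → ∀ u ∈ U, u * g * u⁻¹ * g⁻¹ ∈ V) ∧ (g ∈ (Cfsg.fittingSubgroup ↥N).map N.subtype ↔ g ∈ N ∧ ∀ U V : Subgroup G, (U.Normal ∧ V.Normal ∧ V < U ∧ ∀ W : Subgroup G, W.Normal → V ≤ W → W ≤ U → W = V ∨ W = U) → U ≤ (Cfsg.fittingSubgroup ↥N).map N.subtype → ∀ u ∈ U, u * g * u⁻¹ * g⁻¹ ∈ V) := by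
  set F : Subgroup G := (Cfsg.fittingSubgroup ↥N).map N.subtype with hFdef
  haveI hFchar : (Cfsg.fittingSubgroup ↥N).Characteristic := fitting_characteristic
  haveI hFn : F.Normal := inferInstance
  have hFN : F ≤ N := Subgroup.map_subtype_le _
  have hFnil : Group.IsNilpotent F := by
    haveI := fitting_isNilpotent (G := N)
    exact Group.nilpotent_of_mulEquiv
      ((Cfsg.fittingSubgroup ↥N).equivMapOfInjective N.subtype N.subtype_injective)
  have hleF : ∀ K : Subgroup G, K.Normal → K ≤ N → Group.IsNilpotent K → K ≤ F := by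
    intro K hK hKN hKnil
    have h1 : K.subgroupOf N ≤ Cfsg.fittingSubgroup ↥N := by
      apply le_fitting
      · haveI := hK; infer_instance
      · haveI := hKnil
        exact Group.nilpotent_of_mulEquiv (Subgroup.subgroupOfEquivOfLe hKN).symm
    have h2 := Subgroup.map_mono (f := N.subtype) h1
    rwa [Subgroup.subgroupOf_map_subtype, inf_eq_left.2 hKN] at h2
  have hone : ∀ g : G, g ∈ F → ∀ U V : Subgroup G, (U.Normal ∧ V.Normal ∧ V < U ∧ ∀ W : Subgroup G, W.Normal → V ≤ W → W ≤ U → W = V ∨ W = U) → ∀ u ∈ U, u * g * u⁻¹ * g⁻¹ ∈ V := by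
    intro g hg U V ⟨hU, hV, hVU, hch⟩ u hu
    haveI := hU
    haveI := hV
    exact fit_cent F hFnil U V hVU hch (Subgroup.commutator_mem_commutator hu hg)
  have htwo : g ∈ N ∧ (∀ U V : Subgroup G, (U.Normal ∧ V.Normal ∧ V < U ∧ ∀ W : Subgroup G, W.Normal → V ≤ W → W ≤ U → W = V ∨ W = U) → U ≤ F → ∀ u ∈ U, u * g * u⁻¹ * g⁻¹ ∈ V) → g ∈ F := by
    rintro ⟨hgN, hg⟩
    let C : Subgroup G :=
      { carrier := {g | g ∈ N ∧ (∀ U V : Subgroup G, (U.Normal ∧ V.Normal ∧ V < U ∧ ∀ W : Subgroup G, W.Normal → V ≤ W → W ≤ U → W = V ∨ W = U) → U ≤ F → ∀ u ∈ U, u * g * u⁻¹ * g⁻¹ ∈ V)}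
        one_mem' := ⟨N.one_mem, fun U V _ _ u _ => by simpa using V.one_mem⟩
        mul_mem' := by
          rintro a b ⟨ha, ha'⟩ ⟨hb, hb'⟩
          refine ⟨mul_mem ha hb, fun U V h1 h2 u hu => ?_⟩
          have e : u * (a * b) * u⁻¹ * (a * b)⁻¹ = (u * a * u⁻¹ * a⁻¹) * (a * (u * b * u⁻¹ * b⁻¹) * a⁻¹) := by group
          rw [e]
          exact mul_mem (ha' U V h1 h2 u hu) (h1.2.1.conj_mem _ (hb' U V h1 h2 u hu) a)
        inv_mem' := by
          rintro a ⟨ha, ha'⟩
          refine ⟨inv_mem ha, fun U V h1 h2 u hu => ?_⟩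
          have e : u * a⁻¹ * u⁻¹ * a⁻¹⁻¹ = a⁻¹ * (u * a * u⁻¹ * a⁻¹)⁻¹ * a⁻¹⁻¹ := by group
          rw [e]
          exact h1.2.1.conj_mem _ (inv_mem (ha' U V h1 h2 u hu)) a⁻¹ }
    have hgC : g ∈ C := ⟨hgN, hg⟩
    have hCN : C ≤ N := fun x hx => hx.1
    haveI hCn : C.Normal := by
      constructor
      rintro a ⟨ha, ha'⟩ x
      refine ⟨(inferInstance : N.Normal).conj_mem a ha x, fun U V h1 h2 u hu => ?_⟩
      have h3 : x⁻¹ * u * x ∈ U := by simpa using h1.1.conj_mem u hu x⁻¹
      have e : u * (x * a * x⁻¹) * u⁻¹ * (x * a * x⁻¹)⁻¹ =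
          x * ((x⁻¹ * u * x) * a * (x⁻¹ * u * x)⁻¹ * a⁻¹) * x⁻¹ := by group
      rw [e]
      exact h1.2.1.conj_mem _ (ha' U V h1 h2 _ h3) x
    have hCs : Group.IsSolvable C := inferInstance
    obtain ⟨n, hn⟩ := (Group.isSolvable_def C).1 hCs
    have hstep : ∀ i, (derivedSeries C (i + 1)).map C.subtype ≤ F → (derivedSeries C i).map C.subtype ≤ F := by
      intro i hi
      set K := (derivedSeries C i).map C.subtype with hK
      haveI : K.Normal := inferInstance
      have hKC : K ≤ C := Subgroup.map_subtype_le _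
      apply hleF K inferInstance (hKC.trans hCN)
      apply nil_of_cent K F
      · rw [derivedSeries_succ, Subgroup.map_commutator] at hi
        exact hi
      · intro U V hU hV hVU hch hUF
        rw [Subgroup.commutator_le]
        intro u hu k hk
        exact (hKC hk).2 U V ⟨hU, hV, hVU, hch⟩ hUF u hu
    have hdown : ∀ j ≤ n, (derivedSeries C (n - j)).map C.subtype ≤ F := by
      intro j
      induction j with
      | zero => intro _; rw [Nat.sub_zero, hn, Subgroup.map_bot]; exact bot_le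
      | succ j ih =>
        intro hj
        apply hstep
        have : n - (j + 1) + 1 = n - j := by omega
        rw [this]
        exact ih (by omega)
    have h0 := hdown n le_rfl
    rw [Nat.sub_self, derivedSeries_zero, ← MonoidHom.range_eq_map, Subgroup.range_subtype] at h0
    exact h0 hgC
  constructor
  · constructor
    · intro h
      exact ⟨hFN h, hone g h⟩
    · rintro ⟨h1, h2⟩
      exact htwo ⟨h1, fun U V h _ => h2 U V h⟩
  · constructor
    · intro h
      exact ⟨hFN h, fun U V h' _ => hone g h U V h'⟩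
    · exact htwo


end Cfsg.Agent.S3766
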