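import Cfsg.Statements.S3767
import Cfsg.Agent.LibFgEx

set_option autoImplicit false
open Cfsg

namespace Cfsg.Agent.S3767

set_option linter.style.haveILetI false
set_option linter.unusedSectionVars false
set_option linter.unusedVariables false

open CfsgLib.CharBasic CfsgLib.Clifford

/-- Let P be an extraspecial p-group of order p^(2n+1) and H a cyclic group of order h prime to p acting on P (inside a common finite group: H normalizes P) so that C_P(x) = Z(P) for every non-identity x ∈ H. Then h divides p^n + 1 or h divides p^n − 1. -/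
theorem result {G : Type*} [Group G] [Finite G] {p : ℕ} [Fact p.Prime] (P H : Subgroup G) (hP : Cfsg.IsExtraspecial p ↥P) (n : ℕ) (hn : Nat.card P = p ^ (2 * n + 1)) (hH : IsCyclic H) (hcop : (Nat.card H).Coprime p) (hHP : H ≤ Subgroup.normalizer (P : Set G)) (hfix : ∀ x ∈ H, x ≠ 1 → P ⊓ Subgroup.centralizer {x} = (Subgroup.center ↥P).map P.subtype) : Nat.card H ∣ p ^ n + 1 ∨ Nat.card H ∣ p ^ n - 1 := by
  classical
  haveI := Fintype.ofFinite G
  haveI := Fintype.ofFinite P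
  have hp : p.Prime := Fact.out
  -- a faithful irreducible character
  obtain ⟨z0, hz0, hz1⟩ : ∃ z ∈ Subgroup.center ↥P, z ≠ 1 := by
    by_contra hcon
    push Not at hcon
    have h1 : Subgroup.center ↥P = ⊥ := by
      rw [eq_bot_iff]
      intro z hz
      rw [Subgroup.mem_bot]
      exact hcon z hz
    have h2 := hP.2
    rw [h1, Subgroup.card_bot] at h2
    exact hp.one_lt.ne h2
  obtain ⟨θ, hθz⟩ : ∃ θ : Cfsg.IrrCharacter ↥P, (θ : ↥P → ℂ) z0 ≠ (θ : ↥P → ℂ) 1 := by
    by_contra hcon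
    push Not at hcon
    have h1 := (isConj_iff_irr z0 1).mpr hcon
    exact hz1 (isConj_one_left.mp h1)
  obtain ⟨hθ1, hvan⟩ := CfsgLib.ExChar15.degree hP hn θ.2 ⟨z0, hz0, hθz⟩
  have hPle : P ≤ P ⊔ H := le_sup_left
  have hHle : H ≤ P ⊔ H := le_sup_right
  let e := Subgroup.subgroupOfEquivOfLe hPle
  let eH := Subgroup.subgroupOfEquivOfLe hHle
  have hcardH : Nat.card (H.subgroupOf (P ⊔ H)) = Nat.card H := Nat.card_congr eH.toEquiv
  have hcardP : Nat.card (P.subgroupOf (P ⊔ H)) = Nat.card P := Nat.card_congr e.toEquiv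
  haveI := Fintype.ofFinite (P ⊔ H : Subgroup G)
  haveI := Fintype.ofFinite (P.subgroupOf (P ⊔ H))
  haveI := Fintype.ofFinite (H.subgroupOf (P ⊔ H))
  haveI hPn : (P.subgroupOf (P ⊔ H)).Normal :=
    (Subgroup.normal_subgroupOf_iff_le_normalizer hPle).mpr (sup_le Subgroup.le_normalizer hHP)
  have hθ' : Cfsg.IsIrrCharacter (P.subgroupOf (P ⊔ H)) ((θ : ↥P → ℂ) ∘ e) := (isIrr_comp_equiv e).mpr θ.2
  have hmemc : ∀ g, g ∈ (Subgroup.center ↥P).map P.subtype ↔ g ∈ P ∧ ∀ k ∈ P, k * g = g * k := by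
    intro g
    constructor
    · rintro ⟨c, hc, rfl⟩
      refine ⟨c.2, fun k hk => ?_⟩
      have := Subgroup.mem_center_iff.mp hc ⟨k, hk⟩
      exact congrArg Subtype.val this
    · rintro ⟨hg, hk⟩
      refine ⟨⟨g, hg⟩, ?_, rfl⟩
      refine Subgroup.mem_center_iff.mpr (fun k => ?_)
      exact Subtype.ext (hk k k.2)
  have hmemx : ∀ x ∈ H, x ≠ 1 → ∀ g, (g ∈ P ∧ x * g = g * x) ↔ (g ∈ P ∧ ∀ k ∈ P, k * g = g * k) := by
    intro x hx hx1 g
    rw [← hmemc g, ← hfix x hx hx1, Subgroup.mem_inf, Subgroup.mem_centralizer_singleton_iff]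
    exact ⟨fun h => ⟨h.1, h.2.symm⟩, fun h => ⟨h.1, h.2.symm⟩⟩
  have hmain := CfsgLib.FgEx.core (P.subgroupOf (P ⊔ H)) (H.subgroupOf (P ⊔ H)) (N := p ^ n) hθ'
    (by
      show (θ : ↥P → ℂ) (e 1) = _
      rw [map_one, hθ1]; push_cast; rfl)
    (by
      intro x hx
      apply hvan
      intro h
      apply hx
      rw [Subgroup.mem_center_iff] at h ⊢
      intro k
      apply e.injective
      rw [map_mul, map_mul]
      exact h (e k))
    (by
      haveI := hH
      exact isCyclic_of_surjective eH.symm eH.symm.surjective)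
    (by
      rw [hcardH, hcardP, hn]
      exact Nat.Coprime.pow_right _ hcop)
    (by
      rintro ⟨x, hxΓ⟩ hx hx1 ⟨g, hgΓ⟩ hg hc ⟨k, hkΓ⟩ hk
      have hx' : x ∈ H := hx
      have hg' : g ∈ P := hg
      have hk' : k ∈ P := hk
      have hx1' : x ≠ 1 := fun h => hx1 (Subtype.ext h)
      have hc' : x * g = g * x := congrArg Subtype.val hc
      exact Subtype.ext (((hmemx x hx' hx1' g).mp ⟨hg', hc'⟩).2 k hk'))
    (by
      rintro ⟨x, hxΓ⟩ hx ⟨z, hzΓ⟩ hz hc
      have hx' : x ∈ H := hx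
      have hz' : z ∈ P := hz
      have hc' : ∀ k ∈ P, k * z = z * k := fun k hk => congrArg Subtype.val (hc ⟨k, hPle hk⟩ hk)
      apply Subtype.ext
      show x * z = z * x
      by_cases hx1 : x = 1
      · rw [hx1, one_mul, mul_one]
      · exact ((hmemx x hx' hx1 z).mpr ⟨hz', hc'⟩).2)
    (by
      rw [← Subgroup.subgroupOf_sup hPle hHle, Subgroup.subgroupOf_self])
  rw [hcardH] at hmain
  rcases hmain with h | h
  · exact Or.inl h
  · right
    have h1 : 1 ≤ p ^ n := Nat.one_le_pow _ _ hp.pos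
    have h2 : ((p ^ n - 1 : ℕ) : ℤ) = ((p ^ n : ℕ) : ℤ) - 1 := by
      rw [Nat.cast_sub h1]; simp
    rw [← h2] at h
    exact_mod_cast h

end Cfsg.Agent.S3767
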