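import Cfsg.Statements.S3768
import Cfsg.Agent.LibFrobH13
import Cfsg.Agent.LibFrob6
import Cfsg.Agent.LibFrob19
import Cfsg.Agent.LibH6FrobSup

set_option autoImplicit false
open Cfsg

namespace Cfsg.Agent.S3768

open Cfsg
open scoped Pointwise

/-- Let G be a finite Frobenius group with Frobenius complement R and Frobenius kernel K (the identity together with the elements in no conjugate of R), and let N be a normal subgroup of G not containing K. Then G/N is a Frobenius group with Frobenius complement RN/N whose Frobenius kernel is the image of K. -/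
theorem result {G : Type*} [Group G] [Finite G] (R : Subgroup G) (hR : Cfsg.IsFrobeniusComplement R) (N : Subgroup G) [N.Normal] (hKN : ¬ Cfsg.frobeniusKernel R ⊆ N) : Cfsg.IsFrobeniusComplement (R.map (QuotientGroup.mk' N)) ∧ Cfsg.frobeniusKernel (R.map (QuotientGroup.mk' N)) = QuotientGroup.mk' N '' Cfsg.frobeniusKernel R := by
  classical
  obtain ⟨K, hK, hKn, hKc⟩ := CfsgLib.Frob6.frobenius_kernel R hR.2.2
  haveI := hKn
  rw [← hK] at hKN
  have hKN' : ¬ K ≤ N := hKN
  have hdisj : ∀ x, x ∈ K → x ∈ R → x = 1 := by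
    intro x h1 h2
    have := hKc.disjoint
    rw [disjoint_iff] at this
    have h3 : x ∈ K ⊓ R := ⟨h1, h2⟩
    rw [this] at h3
    exact Subgroup.mem_bot.1 h3
  have hinj : ∀ h ∈ R, h ≠ 1 → ∀ a ∈ K, ∀ b ∈ K, a * h * a⁻¹ * h⁻¹ = b * h * b⁻¹ * h⁻¹ → a = b := by
    intro h hh h1 a ha b hb e
    have e1 : a * h * a⁻¹ = b * h * b⁻¹ := mul_right_cancel e
    have e2 : (b⁻¹ * a) * h = h * (b⁻¹ * a) := by
      calc (b⁻¹ * a) * h = b⁻¹ * (a * h * a⁻¹) * a := by group
        _ = b⁻¹ * (b * h * b⁻¹) * a := by rw [e1]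
        _ = _ := by group
    have h2 := CfsgLib.FrobH13.mem_of_commute hR hh h1 e2
    have h3 := hdisj _ (mul_mem (inv_mem hb) ha) h2
    exact (inv_mul_eq_one.1 h3).symm
  have hsurj : ∀ M : Subgroup G, M.Normal → M ≤ K → ∀ h ∈ R, h ≠ 1 → ∀ n ∈ M, ∃ m ∈ M, m * h * m⁻¹ * h⁻¹ = n := by
    intro M hM hMK h hh h1 n hn
    have hmem : ∀ m : M, (m : G) * h * (m : G)⁻¹ * h⁻¹ ∈ M := by
      intro m
      have := mul_mem m.2 (hM.conj_mem _ (inv_mem m.2) h)
      have e : (m : G) * h * (m : G)⁻¹ * h⁻¹ = m * (h * (m : G)⁻¹ * h⁻¹) := by group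
      rw [e]; exact this
    let φ : M → M := fun m => ⟨(m : G) * h * (m : G)⁻¹ * h⁻¹, hmem m⟩
    have hφ : Function.Injective φ := by
      intro a b e
      exact Subtype.ext (hinj h hh h1 a (hMK a.2) b (hMK b.2) (congrArg Subtype.val e))
    obtain ⟨m, hm⟩ := (Finite.injective_iff_surjective.1 hφ) ⟨n, hn⟩
    exact ⟨m, m.2, congrArg Subtype.val hm⟩
  have hNK : N ≤ K := by
    intro y hy
    by_contra hyK
    have h1 : y ∉ Cfsg.frobeniusKernel R := by rw [← hK]; exact hyK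
    have h2 : ¬ (y = 1 ∨ ∀ g : G, y ∉ MulAut.conj g • R) := h1
    push Not at h2
    obtain ⟨hy1, g, hg⟩ := h2
    rw [CfsgLib.Frob19.mem_conj_iff] at hg
    have h3 : g⁻¹ * y * g ∈ N := by simpa using (inferInstance : N.Normal).conj_mem y hy g⁻¹
    have h4 : g⁻¹ * y * g ≠ 1 := by
      intro h
      apply hy1
      have : y = g * (g⁻¹ * y * g) * g⁻¹ := by group
      rw [this, h]; group
    apply hKN'
    intro k hk
    obtain ⟨m, hm, e⟩ := hsurj K hKn le_rfl _ hg h4 k hk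
    rw [← e]
    exact mul_mem ((inferInstance : N.Normal).conj_mem _ h3 m) (inv_mem h3)
  set π := QuotientGroup.mk' N with hπ
  have hker : ∀ x : G, π x = 1 ↔ x ∈ N := fun x => QuotientGroup.eq_one_iff x
  have hKmn : (K.map π).Normal := Subgroup.Normal.map hKn π (QuotientGroup.mk'_surjective N)
  haveI := hKmn
  have hres := CfsgLib.H6.frob_compl_and_kernel (K.map π) (R.map π) ?_ ?_ ?_ ?_
  · refine ⟨hres.1, ?_⟩
    rw [hres.2, ← hK]; rfl
  · -- complement
    apply Subgroup.isComplement'_of_disjoint_and_mul_eq_univ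
    · rw [disjoint_iff, eq_bot_iff]
      rintro x ⟨⟨k, hk, rfl⟩, ⟨r, hr, e⟩⟩
      have h1 : π (k⁻¹ * r) = 1 := by rw [map_mul, map_inv, e, inv_mul_cancel]
      have h2 : r ∈ K := by
        have := mul_mem hk (hNK ((hker _).1 h1))
        rwa [mul_inv_cancel_left] at this
      have h3 := hdisj r h2 hr
      rw [Subgroup.mem_bot, ← e, h3, map_one]
    · rw [Set.eq_univ_iff_forall]
      intro x
      obtain ⟨x, rfl⟩ := QuotientGroup.mk'_surjective N x
      obtain ⟨⟨k, r⟩, hkr⟩ := hKc.surjective x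
      exact ⟨π k, ⟨k, k.2, rfl⟩, π r, ⟨r, r.2, rfl⟩, by rw [← hkr]; exact (map_mul π _ _).symm⟩
  · intro h
    apply hKN'
    intro k hk
    rw [← hker]
    have : π k ∈ K.map π := ⟨k, hk, rfl⟩
    rw [h, Subgroup.mem_bot] at this
    exact this
  · intro h
    apply hR.1
    rw [eq_bot_iff]
    intro r hr
    have : π r ∈ R.map π := ⟨r, hr, rfl⟩
    rw [h, Subgroup.mem_bot] at this
    rw [Subgroup.mem_bot]
    exact hdisj r (hNK ((hker r).1 this)) hr
  · rintro _ ⟨h, hh, rfl⟩ h1 _ ⟨k, hk, rfl⟩ hcomm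
    have hh1 : h ≠ 1 := by rintro rfl; exact h1 (map_one π)
    have h2 : k * h * k⁻¹ * h⁻¹ ∈ N := by
      rw [← hker, map_mul, map_mul, map_mul, map_inv, map_inv, ← hcomm, mul_inv_cancel_right, mul_inv_cancel]
    obtain ⟨m, hm, e⟩ := hsurj N inferInstance hNK h hh hh1 _ h2
    have h3 := hinj h hh hh1 m (hNK hm) k hk e
    rw [hker, ← h3]
    exact hm


end Cfsg.Agent.S3768
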