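import Cfsg.Statements.S3769
import Cfsg.Agent.LibSGApp
import Cfsg.Agent.LibFpf
import Cfsg.Agent.LibCoprime

set_option autoImplicit false
open Cfsg

namespace Cfsg.Agent.S3769

open scoped commutatorElement

/-- Let G and V be subgroups of a finite group with G solvable of odd order normalizing V, V an elementary abelian ℓ-group for a prime ℓ not dividing the order of G, and suppose G has a normal Hall subgroup K with a complement R of prime order. If C_V(R) = 1, then [R, K] centralizes V. -/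
theorem result {X : Type*} [Group X] [Finite X] (G : Subgroup X) (hsolv : Group.IsSolvable G) (hodd : Odd (Nat.card G)) (V : Subgroup X) {ℓ : ℕ} (hℓ : ℓ.Prime) (hV : Cfsg.IsElementaryAbelian ℓ V) (hℓG : ¬ ℓ ∣ Nat.card G) (hGV : G ≤ Subgroup.normalizer (V : Set X)) (K R : Subgroup X) (hKG : K ≤ G) (hKn : G ≤ Subgroup.normalizer (K : Set X)) (hHall : (Nat.card K).Coprime (K.relIndex G)) (hRG : R ≤ G) (hR : (Nat.card R).Prime) (hKR : K ⊓ R = ⊥) (hKRG : K ⊔ R = G) (hCV : V ⊓ Subgroup.centralizer (R : Set X) = ⊥) : ⁅R, K⁆ ≤ Subgroup.centralizer (V : Set X) := by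

  haveI := hsolv
  haveI : Fact (Nat.card R).Prime := ⟨hR⟩
  set r := Nat.card R with hr
  obtain ⟨x, hx⟩ := exists_prime_orderOf_dvd_card' (G := R) r dvd_rfl
  have hxr : (x : X) ^ r = 1 := by
    have h1 := pow_orderOf_eq_one x
    rw [hx] at h1
    exact congrArg Subtype.val h1
  have hgen : ∀ y ∈ R, ∃ k : ℤ, (x : X) ^ k = y := by
    intro y hy
    have h1 : Subgroup.zpowers x = ⊤ := by
      apply Subgroup.eq_top_of_card_eq
      rw [Nat.card_zpowers, hx, hr]
    have h2 : (⟨y, hy⟩ : R) ∈ Subgroup.zpowers x := h1 ▸ Subgroup.mem_top _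
    obtain ⟨k, hk⟩ := Subgroup.mem_zpowers_iff.1 h2
    exact ⟨k, congrArg Subtype.val hk⟩
  have hRK : R ≤ Subgroup.normalizer (K : Set X) := hRG.trans hKn
  have hcard : Nat.card R * Nat.card K = Nat.card G := by
    have h2 := CfsgLib.Coprime.card_sup_mul_card_inf hRK
    rw [inf_comm, hKR, Subgroup.card_bot, mul_one, sup_comm, hKRG] at h2
    exact h2.symm
  have hcop : (Nat.card R).Coprime (Nat.card K) := by
    have h3 : Nat.card K * K.relIndex G = Nat.card G := CfsgLib.Coprime.card_mul_relIndex hKG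
    have h4 : K.relIndex G = Nat.card R := by
      rw [← hcard, mul_comm (Nat.card R)] at h3
      exact Nat.eq_of_mul_eq_mul_left Nat.card_pos h3
    rw [h4] at hHall
    exact hHall.symm
  set C := Subgroup.centralizer (V : Set X) with hC
  -- the subgroup commuting with `x` modulo `C`
  have hconj : ∀ g ∈ G, ∀ c ∈ C, g * c * g⁻¹ ∈ C := by
    intro g hg c hc
    rw [hC, Subgroup.mem_centralizer_iff] at hc ⊢
    intro v hv
    have h1 : g⁻¹ * v * g ∈ V := by
      have h2 := (Subgroup.mem_normalizer_iff.1 (inv_mem (hGV hg)) v).1 hv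
      rwa [inv_inv] at h2
    have h2 := hc _ h1
    calc v * (g * c * g⁻¹) = g * ((g⁻¹ * v * g) * c) * g⁻¹ := by group
      _ = g * (c * (g⁻¹ * v * g)) * g⁻¹ := by rw [h2]
      _ = _ := by group
  let K₀ : Subgroup X :=
    { carrier := {y | y ∈ K ∧ y⁻¹ * (x * y * (x : X)⁻¹) ∈ C}
      mul_mem' := by
        rintro a b ⟨ha, ha'⟩ ⟨hb, hb'⟩
        refine ⟨mul_mem ha hb, ?_⟩
        have h1 : (a * b)⁻¹ * (x * (a * b) * (x : X)⁻¹) = (b⁻¹ * (a⁻¹ * (x * a * (x : X)⁻¹)) * b) * (b⁻¹ * (x * b * (x : X)⁻¹)) := by group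
        rw [h1]
        have h2 := hconj b⁻¹ (inv_mem (hKG hb)) _ ha'
        rw [inv_inv] at h2
        exact mul_mem h2 hb'
      one_mem' := ⟨one_mem _, by simp⟩
      inv_mem' := by
        rintro a ⟨ha, ha'⟩
        refine ⟨inv_mem ha, ?_⟩
        have h1 : (a⁻¹)⁻¹ * (x * a⁻¹ * (x : X)⁻¹) = a * (a⁻¹ * (x * a * (x : X)⁻¹))⁻¹ * a⁻¹ := by group
        rw [h1]
        exact hconj a (hKG ha) _ (inv_mem ha') }
  have hVc : ∀ v ∈ V, ∀ w ∈ V, v * w = w * v := fun v hv w hw =>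
    congrArg Subtype.val (hV.1.is_comm.comm ⟨v, hv⟩ ⟨w, hw⟩)
  have hdvd : ∀ H : Subgroup X, H ≤ G → Nat.card H ∣ Nat.card G := fun H hH => Subgroup.card_dvd_of_le hH
  have hRs : Group.IsSolvable R := by
    haveI : IsCyclic R := isCyclic_of_prime_card rfl
    infer_instance
  have hK₀ : K ≤ K₀ := by
    have hle : K₀ ≤ K := fun y hy => hy.1
    apply CfsgLib.Fpf.le_of_forall_sylow hle
    intro q hq
    obtain ⟨Q, hQ, hRQ⟩ := CfsgLib.SolvCoprime.exists_invariant_sylow R K hRK hcop (Or.inl hRs) q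
    refine ⟨Q, hQ, ?_⟩
    by_cases hQ1 : Q = ⊥
    · rw [hQ1]; exact bot_le
    have hqG : q ∣ Nat.card K := by
      obtain ⟨k, hk⟩ := IsPGroup.iff_card.1 hQ.2.1
      have hk0 : k ≠ 0 := by
        rintro rfl
        rw [pow_zero] at hk
        exact hQ1 (Subgroup.card_eq_one.1 hk)
      have h1 : q ∣ Nat.card Q := by rw [hk]; exact dvd_pow_self q hk0
      exact h1.trans (Subgroup.card_dvd_of_le hQ.1)
    have hqG' : q ∣ Nat.card G := hqG.trans (hdvd K hKG)
    have hrG : r ∣ Nat.card G := hdvd R hRG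
    have hq2 : q ≠ 2 := by
      rintro rfl
      exact (Nat.not_even_iff_odd.2 hodd) (even_iff_two_dvd.2 hqG')
    have key := CfsgLib.SGApp.prime_fix hℓ hq.out hR (p := ℓ) (q := q) (r := r)
      (by rintro rfl; exact hℓG hqG') (by intro h; exact hℓG (h ▸ hrG))
      (by
        intro h
        have h1 : r ∣ Nat.card K := h ▸ hqG
        exact hR.one_lt.ne' (Nat.eq_one_of_dvd_coprimes hcop dvd_rfl h1)) V Q (x : X) hxr hV.2 hVc ((hRG.trans hGV) x.2)
      ((hQ.1.trans hKG).trans hGV) (hRQ x.2) hQ.2.1 (fun h => absurd h hq2) (by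
        intro v hv hvx
        have h1 : v ∈ V ⊓ Subgroup.centralizer (R : Set X) := by
          refine Subgroup.mem_inf.2 ⟨hv, ?_⟩
          rw [Subgroup.mem_centralizer_iff]
          intro y hy
          obtain ⟨k, rfl⟩ := hgen y hy
          exact ((show Commute (x : X) v from hvx).zpow_left k).eq
        rw [hCV] at h1
        exact h1)
    intro y hy
    refine ⟨hQ.1 hy, ?_⟩
    rw [hC, Subgroup.mem_centralizer_iff]
    intro v hv
    have h3 := key y hy v hv
    have h4 : (y⁻¹ * (x * y * (x : X)⁻¹)) * v * (y⁻¹ * (x * y * (x : X)⁻¹))⁻¹ = v := by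
      calc (y⁻¹ * (x * y * (x : X)⁻¹)) * v * (y⁻¹ * (x * y * (x : X)⁻¹))⁻¹
          = y⁻¹ * ((x * y * (x : X)⁻¹) * v * (x * y * (x : X)⁻¹)⁻¹) * y := by group
        _ = y⁻¹ * (y * v * y⁻¹) * y := by rw [h3]
        _ = v := by group
    exact (mul_inv_eq_iff_eq_mul.1 h4).symm
  rw [Subgroup.commutator_le]
  -- every element of `R` commutes with `K` modulo `C`
  have hnat : ∀ k : ℕ, ∀ y ∈ K, y⁻¹ * ((x : X) ^ k * y * ((x : X) ^ k)⁻¹) ∈ C := by
    intro k
    induction k with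
    | zero => intro y _; simp
    | succ k ih =>
      intro y hy
      have hy' : x * y * (x : X)⁻¹ ∈ K := (Subgroup.mem_normalizer_iff.1 (hRK x.2) y).1 hy
      have h1 := ih _ hy'
      have h2 : y⁻¹ * ((x : X) ^ (k + 1) * y * ((x : X) ^ (k + 1))⁻¹) = (y⁻¹ * (x * y * (x : X)⁻¹)) *
          ((x * y * (x : X)⁻¹)⁻¹ * ((x : X) ^ k * (x * y * (x : X)⁻¹) * ((x : X) ^ k)⁻¹)) := by
        rw [pow_succ]; group
      rw [h2]
      exact mul_mem (hK₀ hy).2 h1
  intro g hg y hy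
  obtain ⟨k, hk⟩ : ∃ k : ℕ, (x : X) ^ k = g := by
    obtain ⟨k, hk⟩ := hgen g hg
    have h1 : (g : X) ∈ Subgroup.zpowers (x : X) := ⟨k, hk⟩
    exact (mem_powers_iff_mem_zpowers.2 h1 : g ∈ Submonoid.powers (x : X))
  have h1 := hnat k y⁻¹ (inv_mem hy)
  rw [hk, inv_inv] at h1
  have h2 : ⁅g, y⁆ = (y * (g * y⁻¹ * g⁻¹))⁻¹ := by rw [commutatorElement_def]; group
  rw [h2]
  exact inv_mem h1


end Cfsg.Agent.S3769
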