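import Cfsg.Statements.S3771
import Cfsg.Agent.LibBGScn

set_option autoImplicit false
open Cfsg

namespace Cfsg.Agent.S3771

/-- Let p be a prime and R a finite p-group of p-rank at most 2 (no elementary abelian subgroup of order p³) in which every element has order dividing p. Then R has order at most p³. -/
theorem result {R : Type*} [Group R] [Finite R] {p : ℕ} [Fact p.Prime] (hR : IsPGroup p R) (hrank : Cfsg.PRankLE p 2 R) (hexp : ∀ x : R, x ^ p = 1) : Nat.card R ≤ p ^ 3 := by
  have hp : p.Prime := Fact.out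
  have hcomm0 : IsMulCommutative (⊥ : Subgroup R) := ⟨⟨fun a b => Subsingleton.elim _ _⟩⟩
  obtain ⟨A, _, hA⟩ := CfsgLib.BGPi.exists_scn (G := R) hp (P := ⊤) (B := ⊥)
    (hR.to_subgroup ⊤) bot_le (by rw [Subgroup.normalizer_eq_top]) hcomm0
  have hAc := CfsgLib.BGPi.scn_comm hA
  have hAN : (⊤ : Subgroup R) ≤ Subgroup.normalizer (A : Set R) := hA.2.1
  have hAC : Subgroup.centralizer (A : Set R) = A := by
    have := hA.2.2
    rw [top_inf_eq] at this
    exact this
  have hA2 : Nat.card A ≤ p ^ 2 := hrank A hAc (fun a _ => hexp a)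
  have hp3 : p ^ 2 ≤ p ^ 3 := Nat.pow_le_pow_right hp.pos (by norm_num)
  set B := ⁅A, (⊤ : Subgroup R)⁆ with hB
  by_cases hB0 : B = ⊥
  · rw [hB, CfsgLib.BGPi.comm_eq_bot_iff] at hB0
    have h1 : (⊤ : Subgroup R) ≤ A := by
      rw [← hAC]
      intro x _
      rw [Subgroup.mem_centralizer_iff]
      intro a ha
      exact (Subgroup.mem_centralizer_iff.1 (hB0 ha) x (Subgroup.mem_top x)).symm
    have h2 := Subgroup.card_le_of_le h1
    rw [Subgroup.card_top] at h2
    exact h2.trans (hA2.trans hp3)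
  have hApg : IsPGroup p A := hR.to_subgroup A
  have hA0 : A ≠ ⊥ := by
    intro h
    apply hB0
    rw [hB, h, Subgroup.commutator_bot_left]
  have hBA : B < A := CfsgLib.SolvCoprime.commutator_lt_of_pgroup hApg (hR.to_subgroup ⊤) hAN hA0
  have hBN : (⊤ : Subgroup R) ≤ Subgroup.normalizer (B : Set R) := by
    rw [hB]; exact CfsgLib.BGPi.right_le_nz_comm A ⊤
  have hBpg : IsPGroup p B := hR.to_subgroup B
  obtain ⟨k, hk⟩ := IsPGroup.iff_card.1 hApg
  obtain ⟨m, hm⟩ := IsPGroup.iff_card.1 hBpg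
  have hm0 : m ≠ 0 := by
    rintro rfl
    exact hB0 (Subgroup.card_eq_one.1 (by rw [hm, pow_zero]))
  have hlt : Nat.card B < Nat.card A := by
    rcases lt_or_ge (Nat.card B) (Nat.card A) with h | h
    · exact h
    · exact absurd (Subgroup.eq_of_le_of_card_ge hBA.le h) hBA.ne
  have hk2 : k ≤ 2 := by
    rw [hk] at hA2
    exact (Nat.pow_le_pow_iff_right hp.one_lt).1 hA2
  have hmk : m < k := by
    rw [hk, hm] at hlt
    exact (Nat.pow_lt_pow_iff_right hp.one_lt).1 hlt
  have hm1 : m = 1 := by omega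
  have hk1 : k = 2 := by omega
  have hBc : ⁅B, (⊤ : Subgroup R)⁆ = ⊥ := by
    have h1 := CfsgLib.SolvCoprime.commutator_lt_of_pgroup hBpg (hR.to_subgroup ⊤) hBN hB0
    have h2 := Subgroup.card_dvd_of_le h1.le
    rw [hm, hm1, pow_one] at h2
    rcases (Nat.dvd_prime hp).1 h2 with h3 | h3
    · exact Subgroup.card_eq_one.1 h3
    · exact absurd (Subgroup.eq_of_le_of_card_ge h1.le (by rw [h3, hm, hm1, pow_one])) h1.ne
  rw [CfsgLib.BGPi.comm_eq_bot_iff] at hBc
  obtain ⟨a, haA, haB⟩ := SetLike.exists_of_lt hBA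
  -- A = B ⟨a⟩
  have hgen : B ⊔ Subgroup.zpowers a = A := by
    have h1 : B ⊔ Subgroup.zpowers a ≤ A := sup_le hBA.le (by rwa [Subgroup.zpowers_le])
    have h2 : B < B ⊔ Subgroup.zpowers a := by
      refine lt_of_le_of_ne le_sup_left fun h => haB ?_
      rw [h]
      exact Subgroup.mem_sup_right (Subgroup.mem_zpowers a)
    obtain ⟨j, hj⟩ := IsPGroup.iff_card.1 (hR.to_subgroup (B ⊔ Subgroup.zpowers a))
    have h3 : Nat.card B < Nat.card ↥(B ⊔ Subgroup.zpowers a) := by
      rcases lt_or_ge (Nat.card B) (Nat.card ↥(B ⊔ Subgroup.zpowers a)) with h | h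
      · exact h
      · exact absurd (Subgroup.eq_of_le_of_card_ge h2.le h) h2.ne
    rw [hm, hj, Nat.pow_lt_pow_iff_right hp.one_lt] at h3
    exact Subgroup.eq_of_le_of_card_ge h1 (by rw [hk, hj]; exact Nat.pow_le_pow_right hp.pos (by omega))
  have hCa : Subgroup.centralizer ({a} : Set R) ≤ A := by
    intro x hx
    have hxa := Subgroup.mem_centralizer_singleton_iff.1 hx
    have h1 : A ≤ Subgroup.centralizer ({x} : Set R) := by
      rw [← hgen]
      refine sup_le ?_ ?_
      · intro b hb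
        rw [Subgroup.mem_centralizer_singleton_iff]
        exact (Subgroup.mem_centralizer_iff.1 (hBc hb) x (Subgroup.mem_top x)).symm
      · rw [Subgroup.zpowers_le, Subgroup.mem_centralizer_singleton_iff]
        exact hxa.symm
    rw [← hAC, Subgroup.mem_centralizer_iff]
    intro y hy
    exact Subgroup.mem_centralizer_singleton_iff.1 (h1 hy)
  have hidx : (Subgroup.centralizer ({a} : Set R)).index ≤ Nat.card B := by
    let φ : R ⧸ Subgroup.centralizer ({a} : Set R) → B := fun q =>
      ⟨q.out * a * q.out⁻¹ * a⁻¹, by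
        have h5 := inv_mem (Subgroup.commutator_mem_commutator haA (Subgroup.mem_top q.out))
        rw [commutatorElement_def] at h5
        have : q.out * a * q.out⁻¹ * a⁻¹ = (a * q.out * a⁻¹ * q.out⁻¹)⁻¹ := by group
        rw [this]
        exact h5⟩
    have hφ : Function.Injective φ := by
      intro q q' h
      have h1 : q.out * a * q.out⁻¹ * a⁻¹ = q'.out * a * q'.out⁻¹ * a⁻¹ := congrArg Subtype.val h
      have h2 : q.out * a * q.out⁻¹ = q'.out * a * q'.out⁻¹ := mul_right_cancel h1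
      rw [← q.out_eq', ← q'.out_eq', QuotientGroup.eq, Subgroup.mem_centralizer_singleton_iff]
      have h3 : a * q.out⁻¹ = q.out⁻¹ * (q'.out * a * q'.out⁻¹) := by rw [← h2]; group
      calc q.out⁻¹ * q'.out * a = q.out⁻¹ * (q'.out * a * q'.out⁻¹) * q'.out := by group
        _ = a * q.out⁻¹ * q'.out := by rw [← h3]
        _ = a * (q.out⁻¹ * q'.out) := by group
    exact Nat.card_le_card_of_injective φ hφ
  have h1 := (Subgroup.centralizer ({a} : Set R)).card_mul_index
  have h2 : Nat.card (Subgroup.centralizer ({a} : Set R)) ≤ p ^ 2 := (Subgroup.card_le_of_le hCa).trans hA2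
  calc Nat.card R = Nat.card (Subgroup.centralizer ({a} : Set R)) * (Subgroup.centralizer ({a} : Set R)).index := h1.symm
    _ ≤ p ^ 2 * p := Nat.mul_le_mul h2 (by rw [hm, hm1, pow_one] at hidx; exact hidx)
    _ = p ^ 3 := by ring

end Cfsg.Agent.S3771
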