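import Cfsg.Statements.S3772
import Cfsg.Agent.LibSignSum
import Cfsg.Agent.LibSolvFrat

set_option autoImplicit false
open Cfsg

namespace Cfsg.Agent.S3772



open Subgroup Cfsg CfsgLib.SignSum
open scoped commutatorElement

/-- Let G be a finite 2-group whose Frattini subgroup Φ(G) has order 2, with |G : Φ(G)| = 2^d, and let j be the number of elements x of G with x² = 1. Then j = 2^d, or j = 2^d + 2^(d−r) or j = 2^d − 2^(d−r) for some positive integer r with 2r ≤ d. Moreover if d = 2r and j is 2^d + 2^r or 2^d − 2^r, then G is extraspecial. -/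
theorem result {G : Type*} [Group G] [Finite G] (hG : IsPGroup 2 G) (hΦ : Nat.card (frattini G) = 2) (d : ℕ) (hd : (frattini G).index = 2 ^ d) : (Nat.card {x : G // x ^ 2 = 1} = 2 ^ d ∨ ∃ r : ℕ, 1 ≤ r ∧ 2 * r ≤ d ∧ (Nat.card {x : G // x ^ 2 = 1} = 2 ^ d + 2 ^ (d - r) ∨ Nat.card {x : G // x ^ 2 = 1} + 2 ^ (d - r) = 2 ^ d)) ∧ (∀ r : ℕ, d = 2 * r → (Nat.card {x : G // x ^ 2 = 1} = 2 ^ d + 2 ^ r ∨ Nat.card {x : G // x ^ 2 = 1} + 2 ^ r = 2 ^ d) → Cfsg.IsExtraspecial 2 G) := by
  classical
  haveI := Fintype.ofFinite G
  haveI : Fact (Nat.Prime 2) := ⟨Nat.prime_two⟩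
  have hcG : Nat.card G = 2 ^ (d + 1) := by
    rw [← Subgroup.card_mul_index (frattini G), hΦ, hd, pow_succ, mul_comm]
  have hpow := CfsgLib.SolvFrat.pow_mem_frattini Nat.prime_two hG
  have hcomm := CfsgLib.SolvFrat.commutator_le_frattini Nat.prime_two hG
  haveI : Nontrivial G := by
    rw [← Finite.one_lt_card_iff_nontrivial, hcG]
    exact Nat.one_lt_two_pow (by omega)
  -- the Frattini subgroup is central
  obtain ⟨w, hw⟩ : ∃ w : G, w ∈ frattini G ∧ w ≠ 1 := by
    by_contra hcon
    push Not at hcon
    have h1 : frattini G = ⊥ := by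
      rw [Subgroup.eq_bot_iff_forall]; exact hcon
    rw [h1, Subgroup.card_bot] at hΦ
    omega
  have hΦmem : ∀ z : G, z ∈ frattini G → z = 1 ∨ z = w := by
    intro z hz
    by_contra hcon
    push Not at hcon
    have h1 : ({1, w, z} : Finset G).card ≤ Nat.card (frattini G) := by
      rw [Nat.card_eq_fintype_card, Fintype.card_subtype]
      apply Finset.card_le_card
      intro y hy
      simp only [Finset.mem_insert, Finset.mem_singleton] at hy
      simp only [Finset.mem_filter, Finset.mem_univ, true_and]
      rcases hy with rfl | rfl | rfl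
      · exact Subgroup.one_mem _
      · exact hw.1
      · exact hz
    have h2 : ({1, w, z} : Finset G).card = 3 := by
      rw [Finset.card_eq_three]
      exact ⟨1, w, z, hw.2.symm, hcon.1.symm, hcon.2.symm, rfl⟩
    omega
  have hΦc : frattini G ≤ center G := by
    intro z hz
    rcases hΦmem z hz with rfl | rfl
    · exact Subgroup.one_mem _
    · rw [mem_center_iff]
      intro g
      have h1 : g * z * g⁻¹ ∈ frattini G := Subgroup.Normal.conj_mem inferInstance z hz g
      rcases hΦmem _ h1 with h2 | h2
      · exfalso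
        apply hw.2
        have : z = g⁻¹ * (g * z * g⁻¹) * g := by group
        rw [this, h2]; group
      · calc g * z = (g * z * g⁻¹) * g := by group
          _ = z * g := by rw [h2]
  have hww : w * w = 1 := by
    have h1 : w ^ 2 = 1 := by
      have h2 : (⟨w, hw.1⟩ : frattini G) ^ (Nat.card (frattini G)) = 1 := pow_card_eq_one'
      rw [hΦ] at h2
      exact congrArg Subtype.val h2
    rw [← pow_two]; exact h1
  have hcm : ∀ x u : G, x⁻¹ * u * x * u⁻¹ ∈ frattini G := by
    intro x u
    apply hcomm
    have : x⁻¹ * u * x * u⁻¹ = ⁅x⁻¹, u⁆ := by rw [commutatorElement_def]; group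
    rw [this]
    exact Subgroup.commutator_mem_commutator trivial trivial
  let l : G → ℤ := fun z => if z = 1 then 1 else -1
  have hl1 : l 1 = 1 := by simp [l]
  have hlw : l w = -1 := by simp [l, hw.2]
  have hlm : ∀ a ∈ frattini G, ∀ b ∈ frattini G, l (a * b) = l a * l b := by
    intro a ha b hb
    rcases hΦmem a ha with rfl | rfl <;> rcases hΦmem b hb with rfl | rfl
    · rw [mul_one, hl1]; rfl
    · rw [one_mul, hl1, one_mul]
    · rw [mul_one, hl1, mul_one]
    · rw [hww, hl1, hlw]; rfl
  have hl2 : ∀ a ∈ frattini G, l a = 1 ∨ l a = -1 := by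
    intro a ha
    rcases hΦmem a ha with rfl | rfl
    · left; exact hl1
    · right; exact hlw
  have hmain := sq_sum (frattini G) hΦc hcm hpow l hlm hl1 hl2
  have hrad : rad (frattini G) hΦc hcm l hlm hl1 = center G := by
    apply le_antisymm
    · intro u hu
      rw [mem_rad] at hu
      rw [mem_center_iff]
      intro g
      have h1 := hu g⁻¹
      have h2 : g⁻¹⁻¹ * u * g⁻¹ * u⁻¹ = 1 := by
        by_contra hne
        simp only [l, if_neg hne] at h1
        omega
      have h3 : g * u = (g⁻¹⁻¹ * u * g⁻¹ * u⁻¹) * (u * g) := by group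
      rw [h3, h2, one_mul]
    · exact center_le_rad _ _ _ _ _ _
  rw [hrad] at hmain
  set j := Nat.card {x : G // x ^ 2 = 1} with hj
  have hS : (∑ x : G, l (x ^ 2)) = 2 * (j : ℤ) - 2 ^ (d + 1) := by
    have h1 : ∀ x : G, l (x ^ 2) = 2 * (if x ^ 2 = 1 then (1 : ℤ) else 0) - 1 := by
      intro x
      simp only [l]
      split_ifs <;> norm_num
    rw [Finset.sum_congr rfl (fun x _ => h1 x), Finset.sum_sub_distrib, ← Finset.mul_sum]
    simp only [Finset.sum_boole, Finset.sum_const, Finset.card_univ, nsmul_eq_mul, mul_one]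
    rw [← Nat.card_eq_fintype_card (α := G), hcG, hj, Nat.card_eq_fintype_card, Fintype.card_subtype]
    push_cast
    ring
  obtain ⟨z, hz⟩ := IsPGroup.iff_card.mp (hG.to_subgroup (center G))
  have hz1 : 1 ≤ z := by
    have h1 : Nat.card (frattini G) ≤ Nat.card (center G) := Subgroup.card_le_of_le hΦc
    rw [hΦ, hz] at h1
    rcases Nat.eq_zero_or_pos z with h | h
    · rw [h] at h1; omega
    · exact h
  have hjpos : 1 ≤ j := by
    rw [hj]
    haveI : Nonempty {x : G // x ^ 2 = 1} := ⟨⟨1, by simp⟩⟩
    exact Nat.card_pos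
  have hΦne : frattini G ≠ ⊤ := by
    intro h
    have h1 : (frattini G).index = 1 := by rw [h, Subgroup.index_top]
    have h2 : ∀ M : Subgroup G, ¬ IsCoatom M := by
      intro M hM
      have h3 : frattini G ≤ M := by
        intro x hx
        exact CfsgLib.SolvFrat.mem_frattini_iff.mp hx M hM
      rw [h] at h3
      exact hM.1 (top_le_iff.mp h3)
    obtain ⟨M, hM, -⟩ := (eq_top_or_exists_le_coatom (⊥ : Subgroup G)).resolve_left bot_ne_top
    exact h2 M hM
  have hd1 : 1 ≤ d := by
    rcases Nat.eq_zero_or_pos d with h | h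
    · exfalso
      apply hΦne
      rw [h, pow_zero] at hd
      exact Subgroup.index_eq_one.mp hd
    · exact h
  have hzle : z ≤ d + 1 := by
    have h1 := Subgroup.card_le_card_group (center G)
    rw [hz, hcG] at h1
    exact (Nat.pow_le_pow_iff_right (by norm_num)).mp h1
  have hjle : j < 2 ^ (d + 1) := by
    have h1 : j ≤ Nat.card G := by
      rw [hj]
      exact Nat.card_le_card_of_injective _ Subtype.val_injective
    rw [hcG] at h1
    refine lt_of_le_of_ne h1 (fun h => ?_)
    -- all squares trivial, so the Frattini subgroup is trivial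
    have h2 : ∀ x : G, x ^ 2 = 1 := by
      intro x
      have h3 : (Finset.univ.filter (fun x : G => x ^ 2 = 1)) = Finset.univ := by
        apply Finset.eq_univ_of_card
        rw [← Nat.card_eq_fintype_card, hcG, ← h, hj, Nat.card_eq_fintype_card, Fintype.card_subtype]
      have h4 := Finset.mem_univ x
      rw [← h3] at h4
      simpa using h4
    have h3 : frattini G ≤ ⊥ := by
      apply CfsgLib.SolvFrat.frattini_le_of_elementary Nat.prime_two
      · rw [_root_.commutator_def, Subgroup.commutator_le]
        intro a _ b _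
        rw [Subgroup.mem_bot, commutatorElement_eq_one_iff_mul_comm]
        have h5 := h2 (a * b)
        have h6 := h2 a
        have h7 := h2 b
        rw [pow_two] at h5 h6 h7
        calc a * b = a * b * ((b * a) * (b * a)) := by
              have := h2 (b * a)
              rw [pow_two] at this
              rw [this, mul_one]
          _ = a * (b * b) * a * (b * a) := by group
          _ = b * a := by rw [h7, mul_one, h6, one_mul]
      · intro x
        rw [Subgroup.mem_bot]
        exact h2 x
    rw [le_bot_iff.mp h3, Subgroup.card_bot] at hΦ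
    omega
  rw [hS, hcG, hz] at hmain
  constructor
  · rcases hmain with h | h
    · left
      have h1 := pow_eq_zero_iff (two_ne_zero) |>.mp h
      have h2 : (2 : ℤ) ^ (d + 1) = 2 * 2 ^ d := by ring
      rw [h2] at h1
      have h3 : (j : ℤ) = 2 ^ d := by linarith
      exact_mod_cast h3
    · right
      -- the absolute value is a power of two
      have h1 : ((2 * (j : ℤ) - 2 ^ (d + 1)).natAbs) ^ 2 = 2 ^ (d + 1 + z) := by
        have h2 : (((2 * (j : ℤ) - 2 ^ (d + 1)).natAbs : ℤ)) ^ 2 = 2 ^ (d + 1 + z) := by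
          rw [Int.natAbs_sq, h]
          push_cast
          ring
        exact_mod_cast h2
      obtain ⟨s, -, hs⟩ := (Nat.dvd_prime_pow Nat.prime_two).mp
        (⟨_, by rw [← h1, pow_two]⟩ : (2 * (j : ℤ) - 2 ^ (d + 1)).natAbs ∣ 2 ^ (d + 1 + z))
      rw [hs, ← pow_mul] at h1
      have h3 : s * 2 = d + 1 + z := Nat.pow_right_injective (le_refl 2) h1
      have h4 : s ≤ d := by
        by_contra hcon
        have h5 : s = d + 1 := by omega
        rw [h5] at hs
        have h6 := Int.natAbs_eq (2 * (j : ℤ) - 2 ^ (d + 1))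
        rw [hs] at h6
        push_cast at h6
        have h7 : (j : ℤ) < 2 ^ (d + 1) := by exact_mod_cast hjle
        have h8 : (1 : ℤ) ≤ j := by exact_mod_cast hjpos
        rcases h6 with h6 | h6 <;> linarith
      have hs1 : 1 ≤ s := by omega
      refine ⟨d + 1 - s, by omega, by omega, ?_⟩
      have h9 : d - (d + 1 - s) = s - 1 := by omega
      rw [h9]
      have h6 := Int.natAbs_eq (2 * (j : ℤ) - 2 ^ (d + 1))
      rw [hs] at h6
      push_cast at h6
      have h10 : (2 : ℤ) ^ s = 2 * 2 ^ (s - 1) := by
        rw [← pow_succ']; congr 1; omega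
      have h11 : (2 : ℤ) ^ (d + 1) = 2 * 2 ^ d := by ring
      rw [h10, h11] at h6
      rcases h6 with h6 | h6
      · left
        have : (j : ℤ) = 2 ^ d + 2 ^ (s - 1) := by linarith
        exact_mod_cast this
      · right
        have : (j : ℤ) + 2 ^ (s - 1) = 2 ^ d := by linarith
        exact_mod_cast this
  · intro r hr hjr
    have hr1 : 1 ≤ r := by omega
    have h1 : (2 * (j : ℤ) - 2 ^ (d + 1)) ^ 2 = 2 ^ (d + 2) := by
      have h2 : (2 : ℤ) ^ (d + 1) = 2 * 2 ^ d := by ring
      have h3 : (2 : ℤ) ^ (d + 2) = 4 * (2 ^ r * 2 ^ r) := by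
        rw [← pow_add, ← two_mul, ← hr]; ring
      rw [h2, h3]
      rcases hjr with h | h
      · have h4 : (j : ℤ) = 2 ^ d + 2 ^ r := by exact_mod_cast h
        rw [h4]; ring
      · have h4 : (j : ℤ) + 2 ^ r = 2 ^ d := by exact_mod_cast h
        have h5 : (j : ℤ) = 2 ^ d - 2 ^ r := by linarith
        rw [h5]; ring
    have hz' : z = 1 := by
      rcases hmain with h | h
      · rw [h1] at h
        have : (0 : ℤ) < 2 ^ (d + 2) := by positivity
        omega
      · rw [h1] at h
        have h2 : (2 : ℤ) ^ (d + 2) = 2 ^ (d + 1 + z) := by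
          rw [h]; push_cast; ring
        have h3 : 2 ^ (d + 2) = 2 ^ (d + 1 + z) := by exact_mod_cast h2
        have h4 := Nat.pow_right_injective (le_refl 2) h3
        have h5 : d + 2 = d + 1 + z := h4
        omega
    have hZ : frattini G = center G := by
      apply Subgroup.eq_of_le_of_card_ge hΦc
      rw [hz, hz', hΦ, pow_one]
    have hC : commutator G = center G := by
      have h2 : commutator G ≤ frattini G := hcomm
      have h3 : commutator G ≠ ⊥ := by
        intro h4
        have h5 : center G = ⊤ := by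
          rw [_root_.commutator_def, Subgroup.commutator_eq_bot_iff_le_centralizer] at h4
          rw [eq_top_iff]
          intro x _
          rw [mem_center_iff]
          intro g
          exact (Subgroup.mem_centralizer_iff.mp (h4 (Subgroup.mem_top x)) g (Subgroup.mem_top g))
        rw [← hZ] at h5
        exact hΦne h5
      have h4 : Nat.card (commutator G) ∣ 2 := by rw [← hΦ]; exact Subgroup.card_dvd_of_le h2
      have h5 : Nat.card (commutator G) ≠ 1 := fun h => h3 (Subgroup.card_eq_one.mp h)
      have h6 := (Nat.dvd_prime Nat.prime_two).mp h4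
      rw [← hZ]
      apply Subgroup.eq_of_le_of_card_ge h2
      rw [hΦ]
      omega
    refine ⟨⟨hG, hZ, hC⟩, ?_⟩
    rw [hz, hz', pow_one]


end Cfsg.Agent.S3772
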