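import Cfsg.Statements.S3773
import Cfsg.Agent.LibSignSum
import Cfsg.Agent.LibSolvFrat
import Cfsg.Agent.LibBGCop

set_option autoImplicit false
open Cfsg

namespace Cfsg.Agent.S3773



open Subgroup Cfsg CfsgLib.SignSum
open scoped commutatorElement

theorem enough2 {n : ℕ} (hn : n ∣ 2) : HasEnoughRootsOfUnity ℤ n := by
  haveI : HasEnoughRootsOfUnity ℤ 2 :=
    { prim := ⟨-1, by
        refine IsPrimitiveRoot.mk_of_lt _ (by norm_num) (by norm_num) ?_
        intro l hl hl2
        have : l = 1 := by omega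
        subst this
        norm_num⟩
      cyc := inferInstance }
  exact HasEnoughRootsOfUnity.of_dvd ℤ hn

theorem exp2 {A : Type*} [CommGroup A] [Finite A] (h : ∀ a : A, a ^ 2 = 1) : Monoid.exponent A ∣ 2 :=
  Monoid.exponent_dvd_of_forall_pow_eq_one h

theorem exists_sep {A : Type*} [CommGroup A] [Finite A] (h : ∀ a : A, a ^ 2 = 1) {a : A} (ha : a ≠ 1) :
    ∃ f : A →* ℤˣ, f a = -1 := by
  haveI := enough2 (exp2 h)
  obtain ⟨f, hf⟩ := CommGroup.exists_apply_ne_one_of_hasEnoughRootsOfUnity A ℤ ha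
  exact ⟨f, (Int.units_eq_one_or (f a)).resolve_left hf⟩

theorem card_dual {A : Type*} [CommGroup A] [Finite A] (h : ∀ a : A, a ^ 2 = 1) :
    Nat.card (A →* ℤˣ) = Nat.card A := by
  haveI := enough2 (exp2 h)
  exact CommGroup.card_monoidHom_of_hasEnoughRootsOfUnity A ℤ

theorem orth {A : Type*} [CommGroup A] [Finite A] [Fintype (A →* ℤˣ)] [DecidableEq A]
    (h : ∀ a : A, a ^ 2 = 1) (a : A) :
    ∑ f : A →* ℤˣ, ((f a : ℤˣ) : ℤ) = if a = 1 then (Nat.card A : ℤ) else 0 := by
  split_ifs with ha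
  · subst ha
    rw [← card_dual h]
    simp [Nat.card_eq_fintype_card]
  · obtain ⟨f, hf⟩ := exists_sep h ha
    have h5 : ∑ g : A →* ℤˣ, ((g a : ℤˣ) : ℤ) = - ∑ g : A →* ℤˣ, ((g a : ℤˣ) : ℤ) := by
      conv_lhs => rw [← Equiv.sum_comp (Equiv.mulRight f)]
      rw [← Finset.sum_neg_distrib]
      apply Finset.sum_congr rfl
      intro x _
      rw [Equiv.coe_mulRight, MonoidHom.mul_apply, hf]
      simp
    omega

/-- extension of a character of `Z0` to a function on `G` -/
noncomputable def ext {G : Type*} [Group G] {Z0 : Subgroup G} (f : Z0 →* ℤˣ) (x : G) : ℤ :=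
  open Classical in if h : x ∈ Z0 then ((f ⟨x, h⟩ : ℤˣ) : ℤ) else 1

theorem ext_mem {G : Type*} [Group G] {Z0 : Subgroup G} (f : Z0 →* ℤˣ) {x : G} (h : x ∈ Z0) :
    ext f x = ((f ⟨x, h⟩ : ℤˣ) : ℤ) := by
  rw [ext, dif_pos h]

theorem ext_mul {G : Type*} [Group G] {Z0 : Subgroup G} (f : Z0 →* ℤˣ) :
    ∀ a ∈ Z0, ∀ b ∈ Z0, ext f (a * b) = ext f a * ext f b := by
  intro a ha b hb
  rw [ext_mem f ha, ext_mem f hb, ext_mem f (Z0.mul_mem ha hb)]
  rw [← Units.val_mul, ← map_mul]
  rfl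

theorem ext_one {G : Type*} [Group G] {Z0 : Subgroup G} (f : Z0 →* ℤˣ) : ext f 1 = 1 := by
  rw [ext_mem f Z0.one_mem]
  have : (⟨1, Z0.one_mem⟩ : Z0) = 1 := rfl
  rw [this, map_one]; rfl

theorem ext_pm {G : Type*} [Group G] {Z0 : Subgroup G} (f : Z0 →* ℤˣ) :
    ∀ a ∈ Z0, ext f a = 1 ∨ ext f a = -1 := by
  intro a ha
  rw [ext_mem f ha]
  rcases Int.units_eq_one_or (f ⟨a, ha⟩) with h | h <;> rw [h] <;> simp

theorem ext_mulf {G : Type*} [Group G] {Z0 : Subgroup G} (f g : Z0 →* ℤˣ) {a : G} (ha : a ∈ Z0) :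
    ext (f * g) a = ext f a * ext g a := by
  rw [ext_mem _ ha, ext_mem _ ha, ext_mem _ ha]; rfl

/-- Let G be a finite 2-group of nilpotency class at most 2 and exponent dividing 4 in which the elements x with x² = 1 form a subgroup N. Then |G| ≤ |N|³, and |G| < |N|³ unless G is special. -/
theorem result {G : Type*} [Group G] [Finite G] (hG : IsPGroup 2 G) (hcl : (⊤ : Subgroup G).lowerCentralSeries 2 = ⊥) (hexp : ∀ x : G, x ^ 4 = 1) (hN : ∀ x y : G, x ^ 2 = 1 → y ^ 2 = 1 → (x * y) ^ 2 = 1) : Nat.card G ≤ Nat.card {x : G // x ^ 2 = 1} ^ 3 ∧ (¬ Cfsg.IsSpecial 2 G → Nat.card G < Nat.card {x : G // x ^ 2 = 1} ^ 3) := by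
  classical
  haveI := Fintype.ofFinite G
  haveI : Fact (Nat.Prime 2) := ⟨Nat.prime_two⟩
  have hcen' : ∀ a b : G, ⁅a, b⁆ ∈ center G := by
    intro a b
    have h1 : ⁅_root_.commutator G, (⊤ : Subgroup G)⁆ = ⊥ := by
      rw [← Subgroup.top_lowerCentralSeries_one]; exact hcl
    rw [Subgroup.commutator_eq_bot_iff_le_centralizer] at h1
    have h2 := h1 (Subgroup.commutator_mem_commutator (Subgroup.mem_top a) (Subgroup.mem_top b))
    rw [mem_center_iff]
    intro g
    exact Subgroup.mem_centralizer_iff.mp h2 g (Subgroup.mem_top g)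
  have hcen : ∀ x u : G, x⁻¹ * u * x * u⁻¹ ∈ center G := by
    intro x u
    have : x⁻¹ * u * x * u⁻¹ = ⁅x⁻¹, u⁆ := by rw [commutatorElement_def]; group
    rw [this]; exact hcen' _ _
  have hc2 : ∀ x u : G, (x⁻¹ * u * x * u⁻¹) ^ 2 = 1 := by
    intro x u
    have hz := mem_center_iff.mp (hcen x u)
    have h1 : x * u⁻¹ = u⁻¹ * x * (x⁻¹ * u * x * u⁻¹) := by group
    have h2 := CfsgLib.BGPi.mul_pow_class2 h1 (hz u⁻¹).symm (hz x).symm 4
    rw [hexp, hexp, hexp, one_mul, one_mul] at h2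
    have h3 := hexp (x⁻¹ * u * x * u⁻¹)
    have h4 : (x⁻¹ * u * x * u⁻¹) ^ (4 * (4 - 1) / 2) =
      (x⁻¹ * u * x * u⁻¹) ^ 4 * (x⁻¹ * u * x * u⁻¹) ^ 2 := by rw [← pow_add]
    rw [h4, h3, one_mul] at h2
    exact h2.symm
  have hsqc : ∀ x : G, x ^ 2 ∈ center G := by
    intro x
    rw [mem_center_iff]
    intro g
    have h1 : x * g = g * x * (x⁻¹ * g⁻¹ * x * (g⁻¹)⁻¹) := by group
    have hz := mem_center_iff.mp (hcen x g⁻¹)
    have h2 := CfsgLib.BGPi.pow_mul_class2 h1 (hz x).symm 2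
    rw [hc2, mul_one] at h2
    exact h2.symm
  let Z0 : Subgroup G :=
    { carrier := {z | z ∈ center G ∧ z ^ 2 = 1}
      one_mem' := ⟨Subgroup.one_mem _, one_pow 2⟩
      mul_mem' := by
        rintro a b ⟨ha, ha2⟩ ⟨hb, hb2⟩
        refine ⟨Subgroup.mul_mem _ ha hb, ?_⟩
        have : Commute a b := (mem_center_iff.mp hb a)
        rw [this.mul_pow, ha2, hb2, one_mul]
      inv_mem' := by
        rintro a ⟨ha, ha2⟩
        exact ⟨Subgroup.inv_mem _ ha, by rw [inv_pow, ha2, inv_one]⟩ }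
  have hZ0 : ∀ z : G, z ∈ Z0 ↔ z ∈ center G ∧ z ^ 2 = 1 := fun z => Iff.rfl
  have hZc : Z0 ≤ center G := fun z hz => hz.1
  have hcm : ∀ x u : G, x⁻¹ * u * x * u⁻¹ ∈ Z0 := fun x u => ⟨hcen x u, hc2 x u⟩
  have hsq : ∀ x : G, x ^ 2 ∈ Z0 := by
    intro x
    refine ⟨hsqc x, ?_⟩
    rw [← pow_mul]; exact hexp x
  let N : Subgroup G :=
    { carrier := {x | x ^ 2 = 1}
      one_mem' := one_pow 2
      mul_mem' := fun {a b} ha hb => hN a b ha hb
      inv_mem' := by
        intro a ha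
        show (a⁻¹) ^ 2 = 1
        rw [inv_pow, show a ^ 2 = 1 from ha, inv_one] }
  have hNmem : ∀ x : G, x ∈ N ↔ x ^ 2 = 1 := fun x => Iff.rfl
  have hNc : Nat.card {x : G // x ^ 2 = 1} = Nat.card N := rfl
  have hZN : Z0 ≤ N := fun z hz => hz.2
  letI cgZ : CommGroup Z0 := { (inferInstance : Group Z0) with
    mul_comm := by
      intro a b
      apply Subtype.ext
      exact (mem_center_iff.mp (hZc b.2) a.1) }
  have hZ2 : ∀ a : Z0, a ^ 2 = 1 := fun a => Subtype.ext a.2.2
  haveI : Finite (Z0 →* ℤˣ) := by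
    haveI : Finite (Z0 → ℤˣ) := inferInstance
    exact Finite.of_injective (fun f : Z0 →* ℤˣ => (f : Z0 → ℤˣ)) DFunLike.coe_injective
  letI := Fintype.ofFinite (Z0 →* ℤˣ)
  obtain ⟨g, hg⟩ := IsPGroup.iff_card.mp hG
  obtain ⟨z, hz⟩ := IsPGroup.iff_card.mp (hG.to_subgroup (center G))
  obtain ⟨n, hn⟩ := IsPGroup.iff_card.mp (hG.to_subgroup N)
  obtain ⟨z0, hz0⟩ := IsPGroup.iff_card.mp (hG.to_subgroup Z0)
  have hz0z : z0 ≤ z := by
    have h1 := Subgroup.card_le_of_le hZc
    rw [hz, hz0] at h1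
    exact (Nat.pow_le_pow_iff_right (by norm_num)).mp h1
  have hz0n : z0 ≤ n := by
    have h1 := Subgroup.card_le_of_le hZN
    rw [hn, hz0] at h1
    exact (Nat.pow_le_pow_iff_right (by norm_num)).mp h1
  let S : (Z0 →* ℤˣ) → ℤ := fun f => ∑ x : G, ext f (x ^ 2)
  let R : (Z0 →* ℤˣ) → Subgroup G := fun f => rad Z0 hZc hcm (ext f) (ext_mul f) (ext_one f)
  have hRz : ∀ f, center G ≤ R f := fun f => center_le_rad _ _ _ _ _ _
  have hS : ∀ f, S f = 0 ∨ ∃ i r : ℕ, (S f).natAbs = 2 ^ i ∧ 2 * i = g + r ∧ Nat.card (R f) = 2 ^ r ∧ z ≤ r := by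
    intro f
    rcases sq_sum Z0 hZc hcm hsq (ext f) (ext_mul f) (ext_one f) (ext_pm f) with h | h
    · left
      exact pow_eq_zero_iff (two_ne_zero) |>.mp h
    · right
      obtain ⟨r, hr⟩ := IsPGroup.iff_card.mp (hG.to_subgroup (R f))
      have h1 : (S f).natAbs ^ 2 = 2 ^ (g + r) := by
        have h2 : (((S f).natAbs : ℤ)) ^ 2 = 2 ^ (g + r) := by
          rw [Int.natAbs_sq]
          have h3 : (S f) ^ 2 = (Nat.card G : ℤ) * Nat.card (R f) := h
          rw [h3, hr, hg]
          push_cast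
          ring
        exact_mod_cast h2
      obtain ⟨s, -, hs⟩ := (Nat.dvd_prime_pow Nat.prime_two).mp
        (⟨_, by rw [← h1, pow_two]⟩ : (S f).natAbs ∣ 2 ^ (g + r))
      rw [hs, ← pow_mul] at h1
      have h3 : s * 2 = g + r := Nat.pow_right_injective (le_refl 2) h1
      refine ⟨s, r, hs, by omega, hr, ?_⟩
      have h4 := Subgroup.card_le_of_le (hRz f)
      rw [hz, hr] at h4
      exact (Nat.pow_le_pow_iff_right (by norm_num)).mp h4
  have hsum : ∑ f : Z0 →* ℤˣ, S f = 2 ^ (z0 + n) := by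
    have h1 : ∑ f : Z0 →* ℤˣ, S f = ∑ x : G, ∑ f : Z0 →* ℤˣ, ext f (x ^ 2) := by
      rw [Finset.sum_comm]
    have h2 : ∀ x : G, ∑ f : Z0 →* ℤˣ, ext f (x ^ 2) = if x ^ 2 = 1 then (Nat.card Z0 : ℤ) else 0 := by
      intro x
      rw [Finset.sum_congr rfl (fun f _ => ext_mem f (hsq x))]
      have h3 := orth hZ2 (⟨x ^ 2, hsq x⟩ : Z0)
      rw [h3]
      by_cases h4 : x ^ 2 = 1
      · rw [if_pos h4, if_pos (Subtype.ext h4)]
      · rw [if_neg h4, if_neg (fun h => h4 (congrArg Subtype.val h))]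
    rw [h1, Finset.sum_congr rfl (fun x _ => h2 x), ← Finset.sum_filter, Finset.sum_const, nsmul_eq_mul]
    rw [← Fintype.card_subtype, ← Nat.card_eq_fintype_card, hNc, hn, hz0]
    push_cast
    ring
  have hbound : g + z ≤ 2 * (z0 + n) := by
    have h1 : ∀ f ∈ (Finset.univ : Finset (Z0 →* ℤˣ)), (2 : ℤ) ^ ((g + z + 1) / 2) ∣ S f := by
      intro f _
      rcases hS f with h | ⟨i, r, h1, h2, h3, h4⟩
      · rw [h]; exact dvd_zero _
      · have h5 : (2 : ℤ) ^ i ∣ S f := by
          rw [← Int.natAbs_dvd_natAbs, h1]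
          simp [Int.natAbs_pow]
        exact (pow_dvd_pow 2 (by omega)).trans h5
    have h2 := Finset.dvd_sum h1
    rw [hsum] at h2
    have h3 : (2 : ℕ) ^ ((g + z + 1) / 2) ∣ 2 ^ (z0 + n) := by exact_mod_cast h2
    have h4 := (Nat.pow_dvd_pow_iff_le_right (by norm_num : 1 < 2)).mp h3
    omega
  have hg3 : g ≤ 3 * n := by omega
  rw [hNc, hn, hg, ← pow_mul, mul_comm n 3]
  refine ⟨Nat.pow_le_pow_right (by norm_num) hg3, ?_⟩
  intro hns
  refine Nat.pow_lt_pow_right (by norm_num) ?_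
  by_contra hcon
  apply hns
  have hg3' : g = 3 * n := by omega
  have hz0n' : z0 = n := by omega
  have hzn' : z = n := by omega
  have hZ0c : Z0 = center G := Subgroup.eq_of_le_of_card_ge hZc (by rw [hz, hz0, hzn', hz0n'])
  have hZcN : center G = N := by
    rw [← hZ0c]
    exact Subgroup.eq_of_le_of_card_ge hZN (by rw [hn, hz0, hz0n'])
  have hT : ∀ f, ∃ t : ℤ, S f = 2 ^ (2 * n) * t ∧ ((t : ZMod 2) = if R f = center G then 1 else 0) := by
    intro f
    rcases hS f with h | ⟨i, r, h1, h2, h3, h4⟩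
    · refine ⟨0, by rw [h, mul_zero], ?_⟩
      rw [if_neg]
      · simp
      · intro hR
        have h5 := sq_sum_ne Z0 hZc hcm hsq (ext f) (ext_mul f) (ext_one f) (ext_pm f) (by
          intro u hu
          have h6 : u ∈ center G := by rw [← hR]; exact hu
          rw [hZcN, hNmem] at h6
          rw [h6, ext_one])
        have h6 : (S f) ^ 2 = (Nat.card G : ℤ) * Nat.card (R f) := h5
        rw [h] at h6
        have h7 : (0 : ℤ) < (Nat.card G : ℤ) * Nat.card (R f) := by
          have h8 : 0 < Nat.card G := Nat.card_pos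
          have h9 : 0 < Nat.card (R f) := Nat.card_pos
          positivity
        rw [← h6] at h7
        norm_num at h7
    · by_cases hR : R f = center G
      · have h5 : r = n := by
          rw [hR, hz, hzn'] at h3
          exact (Nat.pow_right_injective (le_refl 2) h3).symm
        have h6 : i = 2 * n := by omega
        rw [h6] at h1
        rcases Int.natAbs_eq (S f) with h7 | h7
        · refine ⟨1, by rw [h7, h1]; simp, ?_⟩
          rw [if_pos hR]; simp
        · refine ⟨-1, by rw [h7, h1]; simp, ?_⟩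
          rw [if_pos hR]; rfl
      · have h5 : r ≠ n := by
          intro h5
          apply hR
          symm
          apply Subgroup.eq_of_le_of_card_ge (hRz f)
          rw [h3, h5, hz, hzn']
        have h6 : 2 * n + 1 ≤ i := by omega
        have h7 : (2 : ℤ) ^ (2 * n + 1) ∣ S f := by
          have h8 : (2 : ℤ) ^ i ∣ S f := by
            rw [← Int.natAbs_dvd_natAbs, h1]
            simp [Int.natAbs_pow]
          exact (pow_dvd_pow 2 h6).trans h8
        obtain ⟨t, ht⟩ := h7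
        refine ⟨2 * t, by rw [ht]; ring, ?_⟩
        rw [if_neg hR]
        push_cast
        have : (2 : ZMod 2) = 0 := rfl
        rw [this, zero_mul]
  choose t ht1 ht2 using hT
  have hodd : ((Finset.univ.filter (fun f : Z0 →* ℤˣ => R f = center G)).card : ZMod 2) = 1 := by
    have h1 : (∑ f : Z0 →* ℤˣ, t f) = 1 := by
      have h2 : (2 : ℤ) ^ (2 * n) * ∑ f : Z0 →* ℤˣ, t f = 2 ^ (2 * n) * 1 := by
        rw [Finset.mul_sum, ← Finset.sum_congr rfl (fun f _ => ht1 f), hsum, hz0n', mul_one, two_mul]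
      exact mul_left_cancel₀ (by positivity) h2
    have h2 := congrArg (Int.cast : ℤ → ZMod 2) h1
    rw [Int.cast_sum, Finset.sum_congr rfl (fun f _ => ht2 f)] at h2
    rw [← Finset.sum_filter, Finset.sum_const, nsmul_eq_mul, mul_one, Int.cast_one] at h2
    exact h2
  have hcommZ : commutator G ≤ Z0 := by
    rw [_root_.commutator_def, Subgroup.commutator_le]
    intro a _ b _
    have : ⁅a, b⁆ = (a⁻¹)⁻¹ * b * a⁻¹ * b⁻¹ := by rw [commutatorElement_def]; group
    rw [this]; exact hcm _ _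
  have hcommEq : commutator G = Z0 := by
    by_contra hne
    have hlt : commutator G < Z0 := lt_of_le_of_ne hcommZ hne
    obtain ⟨y, hy, hyc⟩ := SetLike.exists_of_lt hlt
    -- a character trivial on the commutator subgroup
    let K : Subgroup Z0 := (commutator G).subgroupOf Z0
    haveI hK : K.Normal := inferInstance
    have h1 : (QuotientGroup.mk' K) ⟨y, hy⟩ ≠ 1 := by
      intro h
      rw [QuotientGroup.mk'_apply, QuotientGroup.eq_one_iff] at h
      exact hyc (Subgroup.mem_subgroupOf.mp h)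
    letI : CommGroup (Z0 ⧸ K) := QuotientGroup.Quotient.commGroup K
    have h2 : ∀ a : Z0 ⧸ K, a ^ 2 = 1 := by
      intro a
      obtain ⟨b, rfl⟩ := QuotientGroup.mk'_surjective K a
      rw [← map_pow, hZ2, map_one]
    obtain ⟨m, hm⟩ := exists_sep h2 h1
    let μ : Z0 →* ℤˣ := m.comp (QuotientGroup.mk' K)
    have hμy : μ ⟨y, hy⟩ = -1 := hm
    have hμ2 : μ * μ = 1 := by
      ext a
      simp [← map_mul, ← pow_two, hZ2]
    have hμc : ∀ c ∈ commutator G, ext μ c = 1 := by
      intro c hc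
      rw [ext_mem μ (hcommZ hc)]
      have h3 : (QuotientGroup.mk' K) ⟨c, hcommZ hc⟩ = 1 := by
        rw [QuotientGroup.mk'_apply, QuotientGroup.eq_one_iff]
        exact Subgroup.mem_subgroupOf.mpr hc
      show ((m ((QuotientGroup.mk' K) ⟨c, hcommZ hc⟩) : ℤˣ) : ℤ) = 1
      rw [h3, map_one]; rfl
    have hRμ : ∀ f, R (f * μ) = R f := by
      intro f
      ext u
      rw [mem_rad, mem_rad]
      have h3 : ∀ x : G, ext (f * μ) (x⁻¹ * u * x * u⁻¹) = ext f (x⁻¹ * u * x * u⁻¹) := by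
        intro x
        rw [ext_mulf f μ (hcm x u), hμc, mul_one]
        have : x⁻¹ * u * x * u⁻¹ = ⁅x⁻¹, u⁆ := by rw [commutatorElement_def]; group
        rw [this]
        exact Subgroup.commutator_mem_commutator trivial trivial
      simp only [h3]
    have heven : ((Finset.univ.filter (fun f : Z0 →* ℤˣ => R f = center G)).card : ZMod 2) = 0 := by
      have h3 := Finset.sum_involution (s := Finset.univ.filter (fun f : Z0 →* ℤˣ => R f = center G))
        (f := fun _ => (1 : ZMod 2)) (fun f _ => f * μ)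
        (by intro f _; exact CharTwo.add_self_eq_zero _)
        (by
          intro f _ _ h
          have h4 : μ = 1 := by
            have h5 : f * μ = f * 1 := by rw [mul_one]; exact h
            exact mul_left_cancel h5
          rw [h4] at hμy
          rw [MonoidHom.one_apply] at hμy
          exact absurd (congrArg Units.val hμy) (by norm_num))
        (by
          intro f hf
          simp only [Finset.mem_filter, Finset.mem_univ, true_and] at hf ⊢
          rw [hRμ]; exact hf)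
        (by
          intro f _
          show f * μ * μ = f
          rw [mul_assoc, hμ2, mul_one])
      rw [Finset.sum_const, nsmul_eq_mul, mul_one] at h3
      exact h3
    rw [heven] at hodd
    exact zero_ne_one hodd
  refine ⟨hG, ?_, by rw [hcommEq, hZ0c]⟩
  apply le_antisymm
  · rw [← hZ0c]
    haveI : Z0.Normal := by rw [hZ0c]; infer_instance
    exact CfsgLib.SolvFrat.frattini_le_of_elementary Nat.prime_two Z0 hcommZ hsq
  · rw [← hZ0c, ← hcommEq]
    exact CfsgLib.SolvFrat.commutator_le_frattini Nat.prime_two hG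


end Cfsg.Agent.S3773
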