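import Cfsg.Statements.S3774

set_option autoImplicit false
open Cfsg

namespace Cfsg.Agent.S3774

/-- Let G be a nontrivial finite 2-group whose automorphism group permutes the involutions of G transitively. Then every involution of G is central, so that the involutions together with 1 form the subgroup Ω₁(Z(G)), and if this subgroup has order q then |G| is a power of q. -/
theorem result {G : Type*} [Group G] [Finite G] [Nontrivial G] (hG : IsPGroup 2 G) (htrans : ∀ x y : G, x ≠ 1 → x ^ 2 = 1 → y ≠ 1 → y ^ 2 = 1 → ∃ a : MulAut G, a x = y) : (∀ x : G, x ^ 2 = 1 → x ∈ Subgroup.center G) ∧ ∃ m : ℕ, Nat.card G = Nat.card {z : G // z ^ 2 = 1} ^ m := by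
  classical
  haveI := Fintype.ofFinite G
  haveI : Fact (Nat.Prime 2) := ⟨Nat.prime_two⟩
  -- central involutions
  have hc1 : ∃ z : G, z ≠ 1 ∧ z ^ 2 = 1 ∧ z ∈ Subgroup.center G := by
    haveI := hG.center_nontrivial
    have hpZ : IsPGroup 2 (Subgroup.center G) := hG.to_subgroup _
    obtain ⟨k, hk⟩ := IsPGroup.iff_card.mp hpZ
    have hk0 : k ≠ 0 := by
      rintro rfl
      rw [pow_zero] at hk
      have := (Subgroup.card_eq_one).mp hk
      exact absurd this (by
        intro hb
        exact (Subgroup.nontrivial_iff_ne_bot _).mp inferInstance hb)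
    have hd : 2 ∣ Nat.card (Subgroup.center G) := by
      rw [hk]; exact dvd_pow_self 2 hk0
    obtain ⟨z, hz⟩ := exists_prime_orderOf_dvd_card' 2 hd
    refine ⟨z.1, ?_, ?_, z.2⟩
    · intro h
      have : z = 1 := Subtype.ext h
      rw [this, orderOf_one] at hz
      omega
    · have := pow_orderOf_eq_one z
      rw [hz] at this
      simpa using congrArg Subtype.val this
  obtain ⟨z0, hz01, hz02, hz0c⟩ := hc1
  have hcent : ∀ x : G, x ^ 2 = 1 → x ∈ Subgroup.center G := by
    intro x hx
    by_cases hx1 : x = 1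
    · rw [hx1]; exact Subgroup.one_mem _
    · obtain ⟨a, ha⟩ := htrans z0 x hz01 hz02 hx1 hx
      rw [← ha, Subgroup.mem_center_iff]
      intro g
      have h1 := (Subgroup.mem_center_iff.mp hz0c) (a⁻¹ g)
      have h2 := congrArg a h1
      rw [map_mul, map_mul] at h2
      have h3 : a (a⁻¹ g) = g := by
        rw [← MulAut.mul_apply, mul_inv_cancel, MulAut.one_apply]
      rw [h3] at h2
      exact h2
  refine ⟨hcent, ?_⟩
  -- the subgroup of central involutions
  let Q : Subgroup G :=
    { carrier := {z : G | z ^ 2 = 1}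
      one_mem' := by simp
      mul_mem' := by
        intro a b ha hb
        simp only [Set.mem_setOf_eq] at ha hb ⊢
        have hac := Subgroup.mem_center_iff.mp (hcent a ha) b
        rw [Commute.mul_pow (show Commute a b from hac.symm), ha, hb, mul_one]
      inv_mem' := by
        intro a ha
        simp only [Set.mem_setOf_eq] at ha ⊢
        rw [inv_pow, ha, inv_one] }
  have hQcard : Nat.card {z : G // z ^ 2 = 1} = Nat.card Q := rfl
  obtain ⟨n, hn⟩ := IsPGroup.iff_card.mp (hG.to_subgroup Q)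
  obtain ⟨g, hg⟩ := IsPGroup.iff_card.mp hG
  have hmemQ : ∀ z : G, z ∈ Q ↔ z ^ 2 = 1 := fun z => Iff.rfl
  -- the map to involutions
  let f : G → G := fun x => x ^ (orderOf x / 2)
  have hf : ∀ x : G, x ≠ 1 → f x ≠ 1 ∧ (f x) ^ 2 = 1 := by
    intro x hx
    obtain ⟨k, hk⟩ := IsPGroup.iff_orderOf.mp hG x
    have hk0 : k ≠ 0 := by
      rintro rfl
      rw [pow_zero, orderOf_eq_one_iff] at hk
      exact hx hk
    obtain ⟨k', rfl⟩ := Nat.exists_eq_succ_of_ne_zero hk0
    have h2 : orderOf x / 2 = 2 ^ k' := by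
      rw [hk, pow_succ]; simp
    constructor
    · intro h
      have h3 : x ^ (2 ^ k') = 1 := by rw [← h2]; exact h
      have h4 := orderOf_dvd_of_pow_eq_one h3
      rw [hk] at h4
      have h5 := Nat.le_of_dvd (by positivity) h4
      have h6 : 2 ^ k' < 2 ^ (k' + 1) := Nat.pow_lt_pow_right (by norm_num) (by omega)
      exact absurd h5 (by simpa using not_le.mpr h6)
    · show (x ^ (orderOf x / 2)) ^ 2 = 1
      rw [h2, ← pow_mul, ← pow_succ, ← Nat.succ_eq_add_one, ← hk, pow_orderOf_eq_one]
  let I : Finset G := Finset.univ.filter (fun z : G => z ≠ 1 ∧ z ^ 2 = 1)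
  let X : Finset G := Finset.univ.filter (fun z : G => z ≠ 1)
  have hmaps : ∀ x ∈ X, f x ∈ I := by
    intro x hx
    simp only [X, I, Finset.mem_filter, Finset.mem_univ, true_and] at hx ⊢
    exact hf x hx
  have hsum := Finset.card_eq_sum_card_fiberwise (f := f) (s := X) (t := I)
    (fun x hx => hmaps x hx)
  have hcst : ∀ z ∈ I, (X.filter (fun x => f x = z)).card = (X.filter (fun x => f x = z0)).card := by
    intro z hz
    simp only [I, Finset.mem_filter, Finset.mem_univ, true_and] at hz
    obtain ⟨a, ha⟩ := htrans z0 z hz01 hz02 hz.1 hz.2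
    symm
    have hord : ∀ x, orderOf (a x) = orderOf x := fun x => orderOf_injective a.toMonoidHom a.injective x
    refine Finset.card_bij' (fun x _ => a x) (fun x _ => a⁻¹ x) ?_ ?_ ?_ ?_
    · intro x hx
      simp only [X, Finset.mem_filter, Finset.mem_univ, true_and] at hx ⊢
      refine ⟨fun h => hx.1 (a.injective (by rw [h, map_one])), ?_⟩
      show (a x) ^ (orderOf (a x) / 2) = z
      rw [hord, ← map_pow, ← ha]
      congr 1
      exact hx.2
    · intro x hx
      simp only [X, Finset.mem_filter, Finset.mem_univ, true_and] at hx ⊢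
      have haa : a (a⁻¹ x) = x := by rw [← MulAut.mul_apply, mul_inv_cancel, MulAut.one_apply]
      refine ⟨fun h => hx.1 (by rw [← haa, h, map_one]), ?_⟩
      apply a.injective
      show a ((a⁻¹ x) ^ (orderOf (a⁻¹ x) / 2)) = a z0
      rw [map_pow, ← hord (a⁻¹ x), haa, ha]
      exact hx.2
    · intro x _
      show a⁻¹ (a x) = x
      rw [← MulAut.mul_apply, inv_mul_cancel, MulAut.one_apply]
    · intro x _
      show a (a⁻¹ x) = x
      rw [← MulAut.mul_apply, mul_inv_cancel, MulAut.one_apply]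
  rw [Finset.sum_congr rfl hcst, Finset.sum_const, smul_eq_mul] at hsum
  have hXc : X.card = 2 ^ g - 1 := by
    have h1 : X = Finset.univ.erase (1 : G) := by
      ext x; simp [X]
    rw [h1, Finset.card_erase_of_mem (Finset.mem_univ _), Finset.card_univ, ← Nat.card_eq_fintype_card, hg]
  have hIc : I.card = 2 ^ n - 1 := by
    have h1 : I = (Finset.univ.filter (fun z : G => z ^ 2 = 1)).erase (1 : G) := by
      ext x; simp [I]
    rw [h1, Finset.card_erase_of_mem (by simp), ← hn, ← hQcard, Nat.card_eq_fintype_card, Fintype.card_subtype]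
  rw [hXc, hIc] at hsum
  have hdvd : 2 ^ n - 1 ∣ 2 ^ g - 1 := ⟨_, hsum⟩
  have hgcd := Nat.pow_sub_one_gcd_pow_sub_one 2 n g
  rw [Nat.gcd_eq_left hdvd] at hgcd
  have hn0 : n ≠ 0 := by
    rintro rfl
    rw [pow_zero] at hn
    have h1 : Q = ⊥ := Subgroup.card_eq_one.mp hn
    have h2 : z0 ∈ Q := hz02
    rw [h1, Subgroup.mem_bot] at h2
    exact hz01 h2
  have h7 : 2 ^ n = 2 ^ (Nat.gcd n g) := by
    have h8 : 1 ≤ 2 ^ n := Nat.one_le_two_pow
    have h9 : 1 ≤ 2 ^ (Nat.gcd n g) := Nat.one_le_two_pow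
    omega
  have h10 : n = Nat.gcd n g := Nat.pow_right_injective (le_refl 2) h7
  have h11 : n ∣ g := by rw [h10]; exact Nat.gcd_dvd_right n g
  obtain ⟨m, hm⟩ := h11
  refine ⟨m, ?_⟩
  rw [hQcard, hn, hg, hm, pow_mul]


end Cfsg.Agent.S3774
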