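import Cfsg.Statements.S3775

set_option autoImplicit false
open Cfsg

namespace Cfsg.Agent.S3775



open Subgroup

theorem cgadd {B : Type*} [AddCommGroup B] (q r s t : B) :
    q = -(t + -(q + r)) + -(r + -s) + -(s + -t) := by abel

section
variable {A : Type*} [CommGroup A] [Finite A] {p : ℕ} [hp : Fact p.Prime] {X : Subgroup (MulAut A)}

/-- invariant subgroups -/
def Inv (X : Subgroup (MulAut A)) (B : Subgroup A) : Prop := ∀ x ∈ X, ∀ b ∈ B, x b ∈ B

omit [Finite A] in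
theorem inv_iff {B : Subgroup A} : Inv X B ↔ ∀ x ∈ X, B.map x.toMonoidHom = B := by
  constructor
  · intro h x hx
    apply le_antisymm
    · rintro _ ⟨b, hb, rfl⟩
      exact h x hx b hb
    · intro b hb
      refine ⟨x⁻¹ b, h x⁻¹ (X.inv_mem hx) b hb, ?_⟩
      show x (x⁻¹ b) = b
      rw [← MulAut.mul_apply, mul_inv_cancel, MulAut.one_apply]
  · intro h x hx b hb
    rw [← h x hx]
    exact ⟨b, hb, rfl⟩

omit [Finite A] in
theorem Inv.inf {B C : Subgroup A} (hB : Inv X B) (hC : Inv X C) : Inv X (B ⊓ C) :=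
  fun x hx b hb => ⟨hB x hx b hb.1, hC x hx b hb.2⟩

omit [Finite A] in
theorem Inv.sup {B C : Subgroup A} (hB : Inv X B) (hC : Inv X C) : Inv X (B ⊔ C) := by
  intro x hx y hy
  obtain ⟨b, hb, c, hc, rfl⟩ := Subgroup.mem_sup.mp hy
  rw [map_mul]
  exact Subgroup.mul_mem _ ((le_sup_left : B ≤ B ⊔ C) (hB x hx b hb)) ((le_sup_right : C ≤ B ⊔ C) (hC x hx c hc))

/-- the image of `B` under the `n`-th power map -/
def pw (n : ℕ) (B : Subgroup A) : Subgroup A := B.map (powMonoidHom n)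

omit [Finite A] in
theorem mem_pw {n : ℕ} {B : Subgroup A} {a : A} : a ∈ pw n B ↔ ∃ b ∈ B, b ^ n = a := Iff.rfl

/-- `{a | a ^ n ∈ C}` -/
def om (n : ℕ) (C : Subgroup A) : Subgroup A := C.comap (powMonoidHom n)

omit [Finite A] in
theorem mem_om {n : ℕ} {C : Subgroup A} {a : A} : a ∈ om n C ↔ a ^ n ∈ C := Iff.rfl

omit [Finite A] in
theorem Inv.pw {B : Subgroup A} (hB : Inv X B) (n : ℕ) : Inv X (pw n B) := by
  rintro x hx _ ⟨b, hb, rfl⟩
  refine ⟨x b, hB x hx b hb, ?_⟩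
  show (x b) ^ n = x (b ^ n)
  rw [map_pow]

omit [Finite A] in
theorem Inv.om {C : Subgroup A} (hC : Inv X C) (n : ℕ) : Inv X (om n C) := by
  intro x hx b hb
  rw [mem_om] at hb ⊢
  rw [← map_pow]
  exact hC x hx _ hb

omit [Finite A] in
theorem pow_cop {C : Subgroup A} {a : A} {m n : ℕ} (h : m.Coprime n) (h1 : a ^ m ∈ C) (h2 : a ^ n ∈ C) : a ∈ C := by
  have hb := Nat.gcd_eq_gcd_ab m n
  rw [Nat.coprime_iff_gcd_eq_one.mp h] at hb
  have h3 : a = (a ^ m) ^ (Nat.gcdA m n) * (a ^ n) ^ (Nat.gcdB m n) := by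
    rw [← zpow_natCast, ← zpow_natCast, ← zpow_mul, ← zpow_mul, ← zpow_add, ← hb]
    simp
  rw [h3]
  exact C.mul_mem (C.zpow_mem h1 _) (C.zpow_mem h2 _)

/-- a complement -/
theorem exists_compl (E U F : Subgroup A) (hEU : E ≤ U) (hUF : U ≤ F)
    (hpow : ∀ a ∈ F, a ^ p ∈ E) : ∃ T : Subgroup A, E ≤ T ∧ T ≤ F ∧ U ⊓ T = E ∧ U ⊔ T = F := by
  obtain ⟨T, hT⟩ := Set.Finite.exists_maximal (s := {T : Subgroup A | E ≤ T ∧ T ≤ F ∧ U ⊓ T = E})
    (Set.toFinite _) ⟨E, le_rfl, hEU.trans hUF, inf_eq_right.mpr hEU⟩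
  obtain ⟨⟨h1, h2, h3⟩, hmax⟩ := hT
  refine ⟨T, h1, h2, h3, ?_⟩
  apply le_antisymm (sup_le hUF h2)
  intro f hf
  by_contra hfn
  have hT' : T ⊔ zpowers f ≤ T := by
    apply hmax
    · refine ⟨h1.trans le_sup_left, sup_le h2 (by rw [zpowers_le]; exact hf), ?_⟩
      apply le_antisymm
      · rintro y ⟨hyU, hyT⟩
        obtain ⟨t, ht, z, hz, rfl⟩ := Subgroup.mem_sup.mp hyT
        obtain ⟨i, rfl⟩ := mem_zpowers_iff.mp hz
        by_cases hi : (p : ℤ) ∣ i
        · obtain ⟨j, rfl⟩ := hi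
          have h4 : f ^ ((p : ℤ) * j) ∈ E := by
            rw [zpow_mul, zpow_natCast]; exact E.zpow_mem (hpow f hf) j
          rw [← h3]
          exact ⟨hyU, T.mul_mem ht (h1 h4)⟩
        · exfalso
          apply hfn
          have h4 : f ^ i ∈ U ⊔ T := by
            have h5 : f ^ i = (t * f ^ i) * t⁻¹ := by rw [mul_comm t]; group
            rw [h5]
            exact Subgroup.mul_mem _ ((le_sup_left : U ≤ U ⊔ T) hyU) ((le_sup_right : T ≤ U ⊔ T) (T.inv_mem ht))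
          have h5 : f ^ (p : ℤ) ∈ U ⊔ T := by
            rw [zpow_natCast]; exact (h1.trans le_sup_right) (hpow f hf)
          have h6 : IsCoprime i (p : ℤ) := by
            rw [isCoprime_comm]
            exact (Nat.prime_iff_prime_int.mp hp.out).coprime_iff_not_dvd.mpr hi
          obtain ⟨u, v, huv⟩ := h6
          have h7 : f = (f ^ i) ^ u * (f ^ (p : ℤ)) ^ v := by
            rw [← zpow_mul, ← zpow_mul, ← zpow_add, mul_comm i u, mul_comm (p : ℤ) v, huv, zpow_one]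
          rw [h7]
          exact Subgroup.mul_mem _ (Subgroup.zpow_mem _ h4 _) (Subgroup.zpow_mem _ h5 _)
      · exact le_inf hEU (h1.trans le_sup_left)
    · exact le_sup_left
  exact hfn ((le_sup_right : T ≤ U ⊔ T) (hT' ((le_sup_right : zpowers f ≤ _) (mem_zpowers f))))

/-- Relative Maschke -/
theorem maschke (hX : (Nat.card X).Coprime p) (E U F : Subgroup A) (hE : Inv X E) (hU : Inv X U)
    (hF : Inv X F) (hEU : E ≤ U) (hUF : U ≤ F) (hpow : ∀ a ∈ F, a ^ p ∈ E) :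
    ∃ T : Subgroup A, Inv X T ∧ E ≤ T ∧ T ≤ F ∧ U ⊓ T = E ∧ U ⊔ T = F := by
  classical
  haveI : Fintype X := Fintype.ofFinite X
  obtain ⟨T, hET, hTF, hUT, hUTF⟩ := exists_compl (p := p) E U F hEU hUF hpow
  have hex : ∀ w : A, ∃ u : A, w ∈ F → u ∈ U ∧ w * u⁻¹ ∈ T := by
    intro w
    by_cases hw : w ∈ F
    · rw [← hUTF] at hw
      obtain ⟨u, hu, t, ht, rfl⟩ := Subgroup.mem_sup.mp hw
      exact ⟨u, fun _ => ⟨hu, by rw [mul_comm u t]; simpa using ht⟩⟩
    · exact ⟨1, fun h => absurd h hw⟩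
  choose u hu using hex
  have hcong : ∀ w ∈ F, ∀ v ∈ U, w * v⁻¹ ∈ T → u w * v⁻¹ ∈ E := by
    intro w hw v hv hwv
    rw [← hUT]
    refine ⟨U.mul_mem (hu w hw).1 (U.inv_mem hv), ?_⟩
    have h1 : u w * v⁻¹ = (w * (u w)⁻¹)⁻¹ * (w * v⁻¹) := by
      rw [mul_inv, inv_inv]
      calc u w * v⁻¹ = (w⁻¹ * w) * (u w * v⁻¹) := by rw [inv_mul_cancel, one_mul]
        _ = w⁻¹ * u w * (w * v⁻¹) := by
          rw [mul_assoc, mul_assoc]; congr 1
          rw [mul_left_comm]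
    rw [h1]
    exact T.mul_mem (T.inv_mem (hu w hw).2) hwv
  let P : A → A := fun v => ∏ x : X, (x : MulAut A) (u ((x : MulAut A)⁻¹ v))
  have hXi : ∀ x : X, ∀ v ∈ F, (x : MulAut A)⁻¹ v ∈ F := fun x v hv => hF _ (X.inv_mem x.2) v hv
  have hPU : ∀ v ∈ F, P v ∈ U := by
    intro v hv
    apply Subgroup.prod_mem
    intro x _
    exact hU x x.2 _ (hu _ (hXi x v hv)).1
  have hPmul : ∀ v ∈ F, ∀ w ∈ F, P (v * w) * (P v * P w)⁻¹ ∈ E := by
    intro v hv w hw
    have h1 : P (v * w) * (P v * P w)⁻¹ = ∏ x : X, (x : MulAut A) (u ((x : MulAut A)⁻¹ (v * w)) *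
        (u ((x : MulAut A)⁻¹ v) * u ((x : MulAut A)⁻¹ w))⁻¹) := by
      show (∏ x : X, _) * ((∏ x : X, _) * (∏ x : X, _))⁻¹ = _
      rw [← Finset.prod_mul_distrib, ← Finset.prod_inv_distrib, ← Finset.prod_mul_distrib]
      apply Finset.prod_congr rfl
      intro x _
      rw [map_mul (x : MulAut A) (u _) _, map_inv, map_mul (x : MulAut A) (u _) (u _)]
    rw [h1]
    apply Subgroup.prod_mem
    intro x _
    apply hE x x.2
    apply hcong _ (hXi x _ (F.mul_mem hv hw)) _ (U.mul_mem (hu _ (hXi x v hv)).1 (hu _ (hXi x w hw)).1)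
    have h2 : (x : MulAut A)⁻¹ (v * w) * (u ((x : MulAut A)⁻¹ v) * u ((x : MulAut A)⁻¹ w))⁻¹ =
        ((x : MulAut A)⁻¹ v * (u ((x : MulAut A)⁻¹ v))⁻¹) * ((x : MulAut A)⁻¹ w * (u ((x : MulAut A)⁻¹ w))⁻¹) := by
      rw [map_mul, mul_inv, mul_mul_mul_comm]
    rw [h2]
    exact T.mul_mem (hu _ (hXi x v hv)).2 (hu _ (hXi x w hw)).2
  have hPU' : ∀ v ∈ U, P v * (v ^ Nat.card X)⁻¹ ∈ E := by
    intro v hv
    have h1 : P v * (v ^ Nat.card X)⁻¹ = ∏ x : X, (x : MulAut A) (u ((x : MulAut A)⁻¹ v) * ((x : MulAut A)⁻¹ v)⁻¹) := by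
      have h2 : v ^ Nat.card X = ∏ x : X, (x : MulAut A) ((x : MulAut A)⁻¹ v) := by
        have : ∀ x : X, (x : MulAut A) ((x : MulAut A)⁻¹ v) = v := by
          intro x
          rw [← MulAut.mul_apply, mul_inv_cancel, MulAut.one_apply]
        rw [Finset.prod_congr rfl (fun x _ => this x), Finset.prod_const, Finset.card_univ, Nat.card_eq_fintype_card]
      rw [h2]
      show (∏ x : X, _) * (∏ x : X, _)⁻¹ = _
      rw [← Finset.prod_inv_distrib, ← Finset.prod_mul_distrib]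
      apply Finset.prod_congr rfl
      intro x _
      rw [map_mul, map_inv (x : MulAut A)]
    rw [h1]
    apply Subgroup.prod_mem
    intro x _
    apply hE x x.2
    apply hcong _ (hXi x _ (hUF hv)) _ (hU _ (X.inv_mem x.2) v hv)
    rw [mul_inv_cancel]
    exact T.one_mem
  have hPinv : ∀ y ∈ X, ∀ v, P (y v) = y (P v) := by
    intro y hy v
    show ∏ x : X, (x : MulAut A) (u ((x : MulAut A)⁻¹ (y v))) = y (∏ x : X, (x : MulAut A) (u ((x : MulAut A)⁻¹ v)))
    rw [map_prod, ← Equiv.prod_comp (Equiv.mulLeft (⟨y, hy⟩ : X))]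
    apply Finset.prod_congr rfl
    intro x _
    show (y * (x : MulAut A)) (u ((y * (x : MulAut A))⁻¹ (y v))) = y ((x : MulAut A) (u ((x : MulAut A)⁻¹ v)))
    rw [MulAut.mul_apply]
    congr 2
    rw [mul_inv_rev, MulAut.mul_apply]
    congr 2
    rw [← MulAut.mul_apply, inv_mul_cancel, MulAut.one_apply]
  have hP1 : P 1 ∈ E := by
    have := hPU' 1 U.one_mem
    simpa using this
  let T' : Subgroup A :=
    { carrier := {v | v ∈ F ∧ P v ∈ E}
      one_mem' := ⟨F.one_mem, hP1⟩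
      mul_mem' := by
        rintro v w ⟨hv, hPv⟩ ⟨hw, hPw⟩
        refine ⟨F.mul_mem hv hw, ?_⟩
        have h1 := hPmul v hv w hw
        have h2 := E.mul_mem h1 (E.mul_mem hPv hPw)
        rwa [inv_mul_cancel_right] at h2
      inv_mem' := by
        rintro v ⟨hv, hPv⟩
        refine ⟨F.inv_mem hv, ?_⟩
        have h1 := hPmul v hv v⁻¹ (F.inv_mem hv)
        rw [mul_inv_cancel] at h1
        -- `P 1 * (P v * P v⁻¹)⁻¹ ∈ E`
        have h2 : P v⁻¹ = ((P 1 * (P v * P v⁻¹)⁻¹)⁻¹) * P 1 * (P v)⁻¹ := by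
          rw [mul_inv, inv_inv]
          rw [mul_comm (P 1)⁻¹, inv_mul_cancel_right, mul_comm (P v), mul_inv_cancel_right]
        rw [h2]
        exact E.mul_mem (E.mul_mem (E.inv_mem h1) hP1) (E.inv_mem hPv) }
  have hT' : ∀ v, v ∈ T' ↔ v ∈ F ∧ P v ∈ E := fun v => Iff.rfl
  refine ⟨T', ?_, ?_, fun v hv => hv.1, ?_, ?_⟩
  · intro y hy v hv
    refine ⟨hF y hy v hv.1, ?_⟩
    rw [hPinv y hy]
    exact hE y hy _ hv.2
  · intro e he
    refine ⟨(hEU.trans hUF) he, ?_⟩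
    have h1 := hPU' e (hEU he)
    have h2 := E.mul_mem h1 (E.pow_mem he (Nat.card X))
    rwa [inv_mul_cancel_right] at h2
  · apply le_antisymm
    · rintro v ⟨hvU, hv⟩
      have h1 := hPU' v hvU
      have h2 : v ^ Nat.card X ∈ E := by
        have h3 : v ^ Nat.card X = (P v * (v ^ Nat.card X)⁻¹)⁻¹ * P v := by
          rw [mul_inv, inv_inv, mul_comm (P v)⁻¹, inv_mul_cancel_right]
        rw [h3]
        exact E.mul_mem (E.inv_mem h1) hv.2
      exact pow_cop hX h2 (hpow v (hUF hvU))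
    · intro e he
      refine ⟨hEU he, (hEU.trans hUF) he, ?_⟩
      have h1 := hPU' e (hEU he)
      have h2 := E.mul_mem h1 (E.pow_mem he (Nat.card X))
      rwa [inv_mul_cancel_right] at h2
  · apply le_antisymm
    · exact sup_le hUF (fun v hv => hv.1)
    · intro v hv
      -- invert `|X|` modulo `p`
      obtain ⟨c, d, hcd⟩ : ∃ c d : ℤ, (Nat.card X : ℤ) * c + p * d = 1 := by
        have hb := Nat.gcd_eq_gcd_ab (Nat.card X) p
        rw [Nat.coprime_iff_gcd_eq_one.mp hX] at hb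
        exact ⟨_, _, hb.symm⟩
      set w := (P v) ^ c with hw
      have hwU : w ∈ U := U.zpow_mem (hPU v hv) c
      have h1 := hPU' w hwU
      have h2 : w ^ Nat.card X * (P v)⁻¹ ∈ E := by
        have h3 : w ^ Nat.card X * (P v)⁻¹ = ((P v) ^ p) ^ (-d) := by
          rw [hw, ← zpow_natCast, ← zpow_natCast, ← zpow_mul, ← zpow_mul, ← zpow_neg_one, ← zpow_add]
          congr 1
          linarith
        rw [h3]
        exact E.zpow_mem (hpow _ (hUF (hPU v hv))) _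
      have h3 : v * w⁻¹ ∈ T' := by
        refine ⟨F.mul_mem hv (F.inv_mem (hUF hwU)), ?_⟩
        have h4 := hPmul (v * w⁻¹) (F.mul_mem hv (F.inv_mem (hUF hwU))) w (hUF hwU)
        rw [inv_mul_cancel_right] at h4
        -- P v ≡ P (v w⁻¹) P w ≡ P (v w⁻¹) w^|X| ≡ P (v w⁻¹) P v
        have h5 : P (v * w⁻¹) = (P v * (P (v * w⁻¹) * P w)⁻¹)⁻¹ * (P w * (w ^ Nat.card X)⁻¹)⁻¹ *
            (w ^ Nat.card X * (P v)⁻¹)⁻¹ := by
          exact cgadd (B := Additive A) (P (v * w⁻¹)) (P w) (w ^ Nat.card X) (P v)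
        rw [h5]
        exact E.mul_mem (E.mul_mem (E.inv_mem h4) (E.inv_mem h1)) (E.inv_mem h2)
      have h6 : v = w * (v * w⁻¹) := by rw [mul_comm w, inv_mul_cancel_right]
      rw [h6]
      exact Subgroup.mul_mem _ ((le_sup_left : U ≤ U ⊔ T') hwU) ((le_sup_right : T' ≤ U ⊔ T') h3)

theorem chain_aux {C : Subgroup A} (hCi : Inv X C)
    (hC : ∀ D, Inv X D → C ≤ D → D ≤ om p C → D = C ∨ D = om p C) :
    ∀ (i : ℕ) (D : Subgroup A), Inv X D → C ≤ D → D ≤ om (p ^ (i + 1)) C → ¬ D ≤ om (p ^ i) C →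
      om (p ^ (i + 1)) C ≤ D := by
  intro i
  induction i with
  | zero =>
    intro D hD hCD hD1 hD0
    rw [zero_add, pow_one] at hD1 ⊢
    rcases hC D hD hCD hD1 with h | h
    · exfalso
      apply hD0
      rw [h]
      intro c hc
      rw [mem_om, pow_zero, pow_one]; exact hc
    · rw [h]
  | succ i ih =>
    intro D hD hCD hD1 hD0
    have h1 : pw (p ^ (i + 1)) D ⊔ C = om p C := by
      rcases hC (pw (p ^ (i + 1)) D ⊔ C) ((hD.pw _).sup hCi) le_sup_right (by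
        apply sup_le
        · rintro _ ⟨d, hd, rfl⟩
          rw [mem_om]
          show (d ^ (p ^ (i + 1))) ^ p ∈ C
          rw [← pow_mul, ← pow_succ]
          exact hD1 hd
        · intro c hc
          rw [mem_om]; exact C.pow_mem hc p) with h | h
      · exfalso
        apply hD0
        intro d hd
        rw [mem_om]
        have h2 : pw (p ^ (i + 1)) D ≤ C := by rw [← h]; exact le_sup_left
        exact h2 ⟨d, hd, rfl⟩
      · exact h
    have h2 : om (p ^ (i + 1)) C ≤ D := by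
      have h3 := ih (D ⊓ om (p ^ (i + 1)) C) (hD.inf (hCi.om _)) (le_inf hCD (fun c hc => by
        rw [mem_om]; exact C.pow_mem hc _)) inf_le_right (by
        intro hle
        obtain ⟨d, hd, hdn⟩ := Set.not_subset.mp hD0
        apply hdn
        have h4 : d ^ p ∈ D ⊓ om (p ^ (i + 1)) C := by
          refine ⟨D.pow_mem hd p, ?_⟩
          show (d ^ p) ^ (p ^ (i + 1)) ∈ C
          rw [← pow_mul, ← pow_succ']
          exact hD1 hd
        have h5 := hle h4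
        rw [mem_om] at h5
        show d ^ (p ^ (i + 1)) ∈ C
        rw [pow_succ', pow_mul]
        exact h5)
      exact h3.trans inf_le_left
    intro a ha
    have h3 : a ^ (p ^ (i + 1)) ∈ om p C := by
      rw [mem_om, ← pow_mul, ← pow_succ]
      exact ha
    rw [← h1] at h3
    obtain ⟨d', ⟨d, hd, hdd⟩, c, hc, he⟩ := Subgroup.mem_sup.mp h3
    have hdd' : d ^ (p ^ (i + 1)) = d' := hdd
    have h4 : a * d⁻¹ ∈ om (p ^ (i + 1)) C := by
      rw [mem_om, mul_pow, inv_pow, hdd', ← he, mul_comm d', mul_inv_cancel_right]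
      exact hc
    have h5 : a = (a * d⁻¹) * d := by rw [inv_mul_cancel_right]
    rw [h5]
    exact D.mul_mem (h2 h4) hd

theorem chain (hA : IsPGroup p A) {C : Subgroup A} (hCi : Inv X C)
    (hC : ∀ D, Inv X D → C ≤ D → D ≤ om p C → D = C ∨ D = om p C) (D : Subgroup A) (hD : Inv X D) (hCD : C ≤ D) :
    ∃ i : ℕ, D = om (p ^ i) C := by
  classical
  have hex : ∃ i : ℕ, D ≤ om (p ^ i) C := by
    obtain ⟨n, hn⟩ := IsPGroup.iff_card.mp hA
    refine ⟨n, fun d _ => ?_⟩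
    rw [mem_om, ← hn, pow_card_eq_one']
    exact C.one_mem
  obtain ⟨i, hi, hmin⟩ : ∃ i, D ≤ om (p ^ i) C ∧ ∀ j < i, ¬ D ≤ om (p ^ j) C :=
    ⟨Nat.find hex, Nat.find_spec hex, fun j hj => Nat.find_min hex hj⟩
  refine ⟨i, le_antisymm hi ?_⟩
  rcases Nat.eq_zero_or_pos i with h | h
  · subst h
    intro a ha
    rw [mem_om, pow_zero, pow_one] at ha
    exact hCD ha
  · obtain ⟨j, rfl⟩ : ∃ j, i = j + 1 := ⟨i - 1, by omega⟩
    exact chain_aux hCi hC j D hD hCD hi (hmin j (by omega))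

theorem main (hA : IsPGroup p A) (hX : (Nat.card X).Coprime p)
    (hind : ¬ ∃ B C : Subgroup A, B ≠ ⊥ ∧ C ≠ ⊥ ∧ Inv X B ∧ Inv X C ∧ B ⊓ C = ⊥ ∧ B ⊔ C = ⊤) :
    ∀ D : Subgroup A, Inv X D → D ≤ om p ⊥ → D = ⊥ ∨ D = om p ⊥ := by
  classical
  by_cases hnt : Nontrivial A
  swap
  · rw [not_nontrivial_iff_subsingleton] at hnt
    intro D _ _
    left
    exact Subsingleton.elim _ _
  -- the exponent
  have hex : ∃ e : ℕ, ∀ a : A, a ^ p ^ e = 1 := by
    obtain ⟨n, hn⟩ := IsPGroup.iff_card.mp hA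
    exact ⟨n, fun a => by rw [← hn, pow_card_eq_one']⟩
  obtain ⟨e, he, hemin⟩ : ∃ e, (∀ a : A, a ^ p ^ e = 1) ∧ ∀ j < e, ¬ ∀ a : A, a ^ p ^ j = 1 :=
    ⟨Nat.find hex, Nat.find_spec hex, fun j hj => Nat.find_min hex hj⟩
  have he1 : 1 ≤ e := by
    rcases Nat.eq_zero_or_pos e with h | h
    · exfalso
      subst h
      obtain ⟨a, ha⟩ := exists_ne (1 : A)
      apply ha
      have := he a
      rwa [pow_zero, pow_one] at this
    · exact h
  have hbi : Inv X (⊥ : Subgroup A) := by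
    intro x _ b hb
    rw [Subgroup.mem_bot] at hb ⊢
    rw [hb, map_one]
  have hti : Inv X (⊤ : Subgroup A) := fun _ _ _ _ => trivial
  have hpw1 : pw (p ^ (e - 1)) (⊤ : Subgroup A) ≠ ⊥ := by
    intro h
    apply hemin (e - 1) (by omega)
    intro a
    have : a ^ p ^ (e - 1) ∈ pw (p ^ (e - 1)) (⊤ : Subgroup A) := ⟨a, trivial, rfl⟩
    rwa [h, Subgroup.mem_bot] at this
  obtain ⟨W, hW⟩ := Set.Finite.exists_minimal
    (s := {W : Subgroup A | Inv X W ∧ W ≠ ⊥ ∧ W ≤ pw (p ^ (e - 1)) (⊤ : Subgroup A)})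
    (Set.toFinite _) ⟨_, hti.pw _, hpw1, le_rfl⟩
  obtain ⟨⟨hWi, hW1, hWle⟩, hWmin⟩ := hW
  have hWirr : ∀ D, Inv X D → D ⊓ W ≠ ⊥ → W ≤ D := by
    intro D hD hne
    have := hWmin ⟨hD.inf hWi, hne, inf_le_right.trans hWle⟩ inf_le_right
    exact this.trans inf_le_left
  have hWp : ∀ w ∈ W, w ^ p = 1 := by
    intro w hw
    obtain ⟨a, -, rfl⟩ := hWle hw
    show (a ^ (p ^ (e - 1))) ^ p = 1
    rw [← pow_mul, ← pow_succ, Nat.sub_add_cancel he1]
    exact he a
  obtain ⟨C, hC⟩ := Set.Finite.exists_maximal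
    (s := {C : Subgroup A | Inv X C ∧ C ⊓ W = ⊥})
    (Set.toFinite _) ⟨⊥, hbi, bot_inf_eq _⟩
  obtain ⟨⟨hCi, hCW⟩, hCmax⟩ := hC
  have hCW' : ∀ D, Inv X D → C ≤ D → D ≠ C → W ≤ D := by
    intro D hD hCD hne
    apply hWirr D hD
    intro h
    exact hne (le_antisymm (hCmax ⟨hD, h⟩ hCD) hCD)
  have hWC : ¬ W ≤ C := by
    intro h
    rw [inf_eq_right.mpr h] at hCW
    exact hW1 hCW
  -- Step 1
  have hstep1 : ∀ D, Inv X D → C ≤ D → D ≤ om p C → D = C ∨ D = om p C := by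
    intro D hD hCD hDo
    by_cases hne : D = C
    · exact Or.inl hne
    right
    have hWD := hCW' D hD hCD hne
    have hCo : C ≤ om p C := fun c hc => by rw [mem_om]; exact C.pow_mem hc p
    have hWo : W ≤ om p C := fun w hw => by rw [mem_om, hWp w hw]; exact C.one_mem
    obtain ⟨T, hT, hCT, hTo, hinf, hsup⟩ := maschke hX C (C ⊔ W) (om p C) hCi (hCi.sup hWi) (hCi.om p)
      le_sup_left (sup_le hCo hWo) (fun a ha => ha)
    have hTC : T = C := by
      by_contra hne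
      have h1 := hCW' T hT hCT hne
      apply hWC
      rw [← hinf]
      exact le_inf le_sup_right h1
    rw [hTC, sup_eq_left.mpr le_sup_left] at hsup
    apply le_antisymm hDo
    rw [← hsup]
    exact sup_le hCD hWD
  -- Step 2
  obtain ⟨B, hB⟩ := Set.Finite.exists_minimal
    (s := {B : Subgroup A | Inv X B ∧ B ⊔ C = ⊤})
    (Set.toFinite _) ⟨⊤, hti, top_sup_eq _⟩
  obtain ⟨⟨hBi, hBC⟩, hBmin⟩ := hB
  have hchain := chain hA hCi hstep1
  have hnote : ¬ ∀ a : A, a ^ p ^ (e - 1) ∈ C := by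
    intro h
    apply hWC
    intro w hw
    obtain ⟨a, -, rfl⟩ := hWle hw
    exact h a
  have hhom : ∀ i, i < e → om (p ^ i) C ≤ pw (p ^ (e - i)) (⊤ : Subgroup A) ⊔ C := by
    intro i hi
    obtain ⟨j, hj⟩ := hchain (pw (p ^ (e - i)) (⊤ : Subgroup A) ⊔ C) ((hti.pw _).sup hCi) le_sup_right
    rw [hj]
    have hij : i ≤ j := by
      by_contra hcon
      apply hnote
      intro a
      have h1 : a ^ p ^ (e - i) ∈ om (p ^ j) C := by
        rw [← hj]
        exact (le_sup_left : _ ≤ pw (p ^ (e - i)) (⊤ : Subgroup A) ⊔ C) ⟨a, trivial, rfl⟩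
      rw [mem_om, ← pow_mul, ← pow_add] at h1
      have h2 : a ^ p ^ (e - 1) = (a ^ p ^ (e - i + j)) ^ p ^ (e - 1 - (e - i + j)) := by
        rw [← pow_mul, ← pow_add]; congr 2; omega
      rw [h2]
      exact C.pow_mem h1 _
    intro a ha
    rw [mem_om] at ha ⊢
    have h2 : a ^ p ^ j = (a ^ p ^ i) ^ p ^ (j - i) := by
      rw [← pow_mul, ← pow_add]; congr 2; omega
    rw [h2]
    exact C.pow_mem ha _
  have hBp : B ⊓ C ≤ pw p B := by
    obtain ⟨T, hT, hCT, hTo, hinf, hsup⟩ := maschke hX (pw p B) ((B ⊓ C) ⊔ pw p B) B (hBi.pw p)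
      ((hBi.inf hCi).sup (hBi.pw p)) hBi le_sup_right (sup_le inf_le_left (by
        rintro _ ⟨b, hb, rfl⟩
        exact B.pow_mem hb p)) (fun a ha => ⟨a, ha, rfl⟩)
    have h1 : T ⊔ C = ⊤ := by
      rw [← hBC, ← hsup]
      apply le_antisymm
      · exact sup_le (le_sup_right.trans le_sup_left) le_sup_right
      · refine sup_le (sup_le (sup_le (inf_le_right.trans le_sup_right) (hCT.trans le_sup_left)) le_sup_left) le_sup_right
    have h2 : B ≤ T := hBmin ⟨hT, h1⟩ hTo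
    have h3 : T = B := le_antisymm hTo h2
    have h4 := (le_sup_left : (B ⊓ C) ⊔ pw p B ≤ ((B ⊓ C) ⊔ pw p B) ⊔ T)
    rw [hsup] at h4
    rw [h3, inf_eq_left.mpr h4] at hinf
    calc B ⊓ C ≤ (B ⊓ C) ⊔ pw p B := le_sup_left
      _ = pw p B := hinf
  have hBk : ∀ k, k ≤ e → B ⊓ C ≤ pw (p ^ k) B := by
    intro k
    induction k with
    | zero =>
      intro _ b hb
      exact ⟨b, hb.1, by simp⟩
    | succ k ih =>
      intro hk b hb
      obtain ⟨y, hy, hyb⟩ := ih (by omega) hb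
      have hyb' : y ^ p ^ k = b := hyb
      have h1 : y ∈ om (p ^ k) C := by rw [mem_om, hyb']; exact hb.2
      have h2 := hhom k (by omega) h1
      obtain ⟨z', ⟨z, -, hz⟩, c, hc, hyc⟩ := Subgroup.mem_sup.mp h2
      have hz' : z ^ p ^ (e - k) = z' := hz
      have h3 : z ∈ B ⊔ C := by rw [hBC]; trivial
      obtain ⟨b', hb', c', hc', rfl⟩ := Subgroup.mem_sup.mp h3
      have h4 : y * ((b' ^ p ^ (e - k - 1)) ^ p)⁻¹ ∈ B ⊓ C := by
        constructor
        · exact B.mul_mem hy (B.inv_mem (B.pow_mem (B.pow_mem hb' _) _))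
        · have h5 : (b' ^ p ^ (e - k - 1)) ^ p = b' ^ p ^ (e - k) := by
            rw [← pow_mul, ← pow_succ]; congr 2; omega
          have h6 : y * ((b' ^ p ^ (e - k - 1)) ^ p)⁻¹ = c' ^ p ^ (e - k) * c := by
            rw [h5, ← hyc, ← hz', mul_pow, mul_comm, mul_assoc (b' ^ _) (c' ^ _) c, inv_mul_cancel_left]
          rw [SetLike.mem_coe, h6]
          exact C.mul_mem (C.pow_mem hc' _) hc
      obtain ⟨w, hw, hwe⟩ := hBp h4
      have hwe' : w ^ p = y * ((b' ^ p ^ (e - k - 1)) ^ p)⁻¹ := hwe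
      refine ⟨w * b' ^ p ^ (e - k - 1), B.mul_mem hw (B.pow_mem hb' _), ?_⟩
      show (w * b' ^ p ^ (e - k - 1)) ^ p ^ (k + 1) = b
      have h7 : (w * b' ^ p ^ (e - k - 1)) ^ p = y := by
        rw [mul_pow, hwe', inv_mul_cancel_right]
      rw [pow_succ', pow_mul, h7, hyb']
  have hBCbot : B ⊓ C = ⊥ := by
    rw [eq_bot_iff]
    intro b hb
    obtain ⟨y, -, hy⟩ := hBk e le_rfl hb
    have hy' : y ^ p ^ e = b := hy
    rw [Subgroup.mem_bot, ← hy', he]
  have hC1 : C = ⊥ := by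
    by_contra hC1
    apply hind
    refine ⟨B, C, ?_, hC1, hBi, hCi, hBCbot, hBC⟩
    rintro rfl
    rw [bot_sup_eq] at hBC
    apply hWC
    rw [hBC]; exact le_top
  intro D hD hDo
  rw [hC1] at hstep1
  exact hstep1 D hD bot_le hDo

end

/-- Let A be a finite abelian p-group and X a group of automorphisms of A of order prime to p. Call a subgroup of A invariant when every element of X maps it onto itself. Then the following are equivalent: (i) A is not the direct product of two nontrivial invariant subgroups; (ii) every invariant subgroup of A is one of the subgroups Ω_i(A) = {a : a^(p^i) = 1}; (iii) the subgroup Ω₁(A) of elements of order dividing p has no invariant subgroups other than 1 and itself. -/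
theorem result {A : Type*} [CommGroup A] [Finite A] {p : ℕ} [Fact p.Prime] (hA : IsPGroup p A) (X : Subgroup (MulAut A)) (hX : (Nat.card X).Coprime p) : ((¬ ∃ B C : Subgroup A, B ≠ ⊥ ∧ C ≠ ⊥ ∧ (∀ x ∈ X, B.map x.toMonoidHom = B) ∧ (∀ x ∈ X, C.map x.toMonoidHom = C) ∧ B ⊓ C = ⊥ ∧ B ⊔ C = ⊤) ↔ (∀ B : Subgroup A, (∀ x ∈ X, B.map x.toMonoidHom = B) → ∃ i : ℕ, ∀ a : A, a ∈ B ↔ a ^ p ^ i = 1)) ∧ ((∀ B : Subgroup A, (∀ x ∈ X, B.map x.toMonoidHom = B) → ∃ i : ℕ, ∀ a : A, a ∈ B ↔ a ^ p ^ i = 1) ↔ (∀ B : Subgroup A, (∀ x ∈ X, B.map x.toMonoidHom = B) → (∀ b ∈ B, b ^ p = 1) → B = ⊥ ∨ ∀ a : A, a ∈ B ↔ a ^ p = 1)) := by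
  have h31 : (∀ D : Subgroup A, Inv X D → D ≤ om p ⊥ → D = ⊥ ∨ D = om p ⊥) ↔
      (∀ B : Subgroup A, (∀ x ∈ X, B.map x.toMonoidHom = B) → (∀ b ∈ B, b ^ p = 1) →
        B = ⊥ ∨ ∀ a : A, a ∈ B ↔ a ^ p = 1) := by
    constructor
    · intro h B hB hBp
      rcases h B (inv_iff.mpr hB) (fun b hb => by rw [mem_om, hBp b hb]; exact Subgroup.one_mem _) with h1 | h1
      · exact Or.inl h1
      · right
        intro a
        rw [h1, mem_om, Subgroup.mem_bot]
    · intro h D hD hDo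
      rcases h D (inv_iff.mp hD) (fun b hb => by
        have := hDo hb
        rwa [mem_om, Subgroup.mem_bot] at this) with h1 | h1
      · exact Or.inl h1
      · right
        ext a
        rw [h1, mem_om, Subgroup.mem_bot]
  have hbi : Inv X (⊥ : Subgroup A) := by
    intro x _ b hb
    rw [Subgroup.mem_bot] at hb ⊢
    rw [hb, map_one]
  have h32 : (∀ B : Subgroup A, (∀ x ∈ X, B.map x.toMonoidHom = B) → (∀ b ∈ B, b ^ p = 1) →
        B = ⊥ ∨ ∀ a : A, a ∈ B ↔ a ^ p = 1) →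
      (∀ B : Subgroup A, (∀ x ∈ X, B.map x.toMonoidHom = B) → ∃ i : ℕ, ∀ a : A, a ∈ B ↔ a ^ p ^ i = 1) := by
    intro h B hB
    have h1 := h31.mpr h
    obtain ⟨i, hi⟩ := chain hA hbi (fun D hD _ hDo => h1 D hD hDo) B (inv_iff.mpr hB) bot_le
    refine ⟨i, fun a => ?_⟩
    rw [hi, mem_om, Subgroup.mem_bot]
  have h23 : (∀ B : Subgroup A, (∀ x ∈ X, B.map x.toMonoidHom = B) → ∃ i : ℕ, ∀ a : A, a ∈ B ↔ a ^ p ^ i = 1) →
      (∀ B : Subgroup A, (∀ x ∈ X, B.map x.toMonoidHom = B) → (∀ b ∈ B, b ^ p = 1) →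
        B = ⊥ ∨ ∀ a : A, a ∈ B ↔ a ^ p = 1) := by
    intro h B hB hBp
    obtain ⟨i, hi⟩ := h B hB
    rcases Nat.eq_zero_or_pos i with h0 | h0
    · left
      rw [Subgroup.eq_bot_iff_forall]
      intro x hx
      have := (hi x).mp hx
      rwa [h0, pow_zero, pow_one] at this
    · right
      intro a
      refine ⟨fun ha => hBp a ha, fun ha => ?_⟩
      rw [hi]
      obtain ⟨j, rfl⟩ : ∃ j, i = j + 1 := ⟨i - 1, by omega⟩
      rw [pow_succ', pow_mul, ha, one_pow]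
  refine ⟨⟨?_, ?_⟩, ⟨h23, h32⟩⟩
  · intro hi
    apply h32
    apply h31.mp
    apply main hA hX
    rintro ⟨B, C, hB, hC, hBi, hCi, h1, h2⟩
    exact hi ⟨B, C, hB, hC, inv_iff.mp hBi, inv_iff.mp hCi, h1, h2⟩
  · rintro h ⟨B, C, hB, hC, hBi, hCi, h1, h2⟩
    have key : ∀ D : Subgroup A, D ≠ ⊥ → (∀ x ∈ X, D.map x.toMonoidHom = D) → ∀ a : A, a ^ p = 1 → a ∈ D := by
      intro D hD hDi a ha
      obtain ⟨i, hi⟩ := h D hDi
      rcases Nat.eq_zero_or_pos i with h0 | h0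
      · exfalso
        apply hD
        rw [Subgroup.eq_bot_iff_forall]
        intro x hx
        have := (hi x).mp hx
        rwa [h0, pow_zero, pow_one] at this
      · rw [hi]
        obtain ⟨j, rfl⟩ : ∃ j, i = j + 1 := ⟨i - 1, by omega⟩
        rw [pow_succ', pow_mul, ha, one_pow]
    -- an element of order `p`
    obtain ⟨k, hk⟩ := IsPGroup.iff_card.mp (hA.to_subgroup B)
    have hk0 : k ≠ 0 := by
      rintro rfl
      rw [pow_zero] at hk
      exact hB (Subgroup.card_eq_one.mp hk)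
    obtain ⟨y, hy⟩ := exists_prime_orderOf_dvd_card' (G := B) p (by rw [hk]; exact dvd_pow_self p hk0)
    have hyp : (y : A) ^ p = 1 := by
      have := pow_orderOf_eq_one y
      rw [hy] at this
      exact congrArg Subtype.val this
    have h3 : (y : A) ∈ B ⊓ C := ⟨y.2, key C hC hCi y hyp⟩
    rw [h1, Subgroup.mem_bot] at h3
    have h4 : y = 1 := Subtype.ext h3
    rw [h4, orderOf_one] at hy
    exact (Fact.out : p.Prime).one_lt.ne hy


end Cfsg.Agent.S3775
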