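import Cfsg.Statements.S3778
import Cfsg.Agent.LibBGPi

set_option autoImplicit false
open Cfsg

namespace Cfsg.Agent.S3778

open Cfsg CfsgLib.BGPi
open scoped commutatorElement

universe u

/-- centralizer of a two step factor of the upper central series -/
def Cj (G : Type u) [Group G] (j : ℕ) : Subgroup G where
  carrier := {x | ∀ z ∈ Subgroup.upperCentralSeries G (j + 2), ⁅x, z⁆ ∈ Subgroup.upperCentralSeries G j}
  one_mem' := fun z _ => by simp [one_mem]
  mul_mem' := by
    intro a b ha hb z hz
    have hn : (Subgroup.upperCentralSeries G j).Normal := inferInstance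
    have e : ⁅a * b, z⁆ = (a * ⁅b, z⁆ * a⁻¹) * ⁅a, z⁆ := by
      simp only [commutatorElement_def]; group
    rw [e]
    exact mul_mem (hn.conj_mem _ (hb z hz) a) (ha z hz)
  inv_mem' := by
    intro a ha z hz
    have hn : (Subgroup.upperCentralSeries G j).Normal := inferInstance
    have e : ⁅a⁻¹, z⁆ = a⁻¹ * ⁅a, z⁆⁻¹ * a⁻¹⁻¹ := by
      simp only [commutatorElement_def]; group
    rw [e]
    exact hn.conj_mem _ (inv_mem (ha z hz)) a⁻¹

theorem Cj_ne_top {G : Type u} [Group G] {j : ℕ} (hj : j + 2 ≤ Group.nilpotencyClass G) :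
    Cj G j ≠ ⊤ := by
  intro h
  have h1 : Subgroup.upperCentralSeries G (j + 1) < Subgroup.upperCentralSeries G (j + 2) :=
    Subgroup.upperCentralSeries.StrictMonoOn G (by simp only [Set.mem_Iic]; omega)
      (by simp only [Set.mem_Iic]; omega) (by omega)
  apply not_le_of_gt h1
  intro z hz
  rw [Subgroup.mem_upperCentralSeries_succ_iff]
  intro y
  have h2 : y ∈ Cj G j := by rw [h]; trivial
  have h3 := inv_mem (h2 z hz)
  rwa [commutatorElement_inv] at h3

theorem card_Cj {G : Type u} [Group G] [Finite G] {p : ℕ} [hp : Fact p.Prime] (hG : IsPGroup p G)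
    {H : Subgroup G} (h : H ≠ ⊤) : p * Nat.card H ≤ Nat.card G := by
  have h1 := Subgroup.card_mul_index H
  obtain ⟨n, hn⟩ := hG.index H
  have hn0 : n ≠ 0 := by
    rintro rfl
    rw [pow_zero] at hn
    exact h (Subgroup.index_eq_one.1 hn)
  have h2 : p ≤ H.index := by
    rw [hn]; exact Nat.le_self_pow hn0 p
  rw [← h1, mul_comm]
  exact Nat.mul_le_mul_left _ h2

open Classical in
/-- number of indices for which `x` is outside -/
noncomputable def cnt (G : Type u) [Group G] (m : ℕ) (x : G) : ℕ :=
  ((Finset.range m).filter fun j => x ∉ Cj G j).card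

theorem count_le {G : Type u} [Group G] [Finite G] {p : ℕ} [hp : Fact p.Prime] (hG : IsPGroup p G)
    (x : G) : ∀ m, m ≤ Group.nilpotencyClass G - 1 →
    p ^ cnt G m x * Nat.card ↥(Subgroup.centralizer ({x} : Set G) ⊓ Subgroup.upperCentralSeries G (m + 1)) ≤
      Nat.card (Subgroup.upperCentralSeries G (m + 1)) := by
  classical
  intro m
  induction m with
  | zero =>
    intro _
    have : cnt G 0 x = 0 := by simp [cnt]
    rw [this, pow_zero, one_mul]
    exact Nat.le_of_dvd Nat.card_pos (Subgroup.card_dvd_of_le inf_le_right)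
  | succ m ih =>
    intro hm
    have ih' := ih (by omega)
    set K := Subgroup.centralizer ({x} : Set G) with hK
    set Z := Subgroup.upperCentralSeries G with hZ
    set H := K ⊓ Z (m + 1 + 1) with hH
    set L := H ⊔ Z (m + 1) with hL
    have hn : (Z (m + 1)).Normal := inferInstance
    have hmono : Z (m + 1) ≤ Z (m + 1 + 1) := Subgroup.upperCentralSeries_mono _ (Nat.le_succ _)
    have hLZ : L ≤ Z (m + 1 + 1) := sup_le inf_le_right hmono
    have h1 := card_sup_mul_card_inf (H := H) (K := Z (m + 1)) Subgroup.le_normalizer_of_normal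
    have h2 : H ⊓ Z (m + 1) = K ⊓ Z (m + 1) := by
      rw [hH, inf_assoc, inf_eq_right.2 hmono]
    rw [h2] at h1
    have h3 := card_mul_relIndex hLZ
    have hcnt : cnt G (m + 1) x = cnt G m x + (if x ∉ Cj G m then 1 else 0) := by
      rw [cnt, cnt, Finset.range_add_one, Finset.filter_insert]
      split_ifs with h
      · simp
      · rw [Finset.card_insert_of_notMem (by simp)]
    have h4 : p ^ (if x ∉ Cj G m then 1 else 0) ≤ L.relIndex (Z (m + 1 + 1)) := by
      split_ifs with h
      · rw [pow_zero]
        exact Nat.pos_of_ne_zero (Subgroup.index_ne_zero_of_finite)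
      · rw [pow_one]
        obtain ⟨n, hn'⟩ := (hG.to_subgroup (Z (m + 1 + 1))).index (L.subgroupOf (Z (m + 1 + 1)))
        change L.relIndex (Z (m + 1 + 1)) = p ^ n at hn'
        have hn0 : n ≠ 0 := by
          rintro rfl
          rw [pow_zero, Subgroup.relIndex_eq_one] at hn'
          apply h
          intro z hz
          have hz' : z ∈ H ⊔ Z (m + 1) := hn' hz
          obtain ⟨k, hk, w, hw, rfl⟩ := (mem_sup_of_nz (Subgroup.le_normalizer_of_normal)).1 hz'
          have e : ⁅x, k * w⁆ = ⁅x, k⁆ * (k * ⁅x, w⁆ * k⁻¹) := by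
            simp only [commutatorElement_def]; group
          have hxk : ⁅x, k⁆ = 1 := by
            rw [commutatorElement_eq_one_iff_mul_comm]
            exact (Subgroup.mem_centralizer_singleton_iff.1 hk.1).symm
          rw [e, hxk, one_mul]
          have hn2 : (Z m).Normal := inferInstance
          apply hn2.conj_mem
          have := Subgroup.mem_upperCentralSeries_succ_iff.1 hw x
          rw [← commutatorElement_inv]
          exact inv_mem this
        rw [hn']
        exact Nat.le_self_pow hn0 p
    -- arithmetic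
    have hkpos : 0 < Nat.card ↥(K ⊓ Z (m + 1)) := Nat.card_pos
    have hHe : Nat.card H = Nat.card ↥(K ⊓ Z (m + 1 + 1)) := rfl
    rw [hcnt, pow_add]
    generalize p ^ (if x ∉ Cj G m then 1 else 0) = e at h4 ⊢
    generalize p ^ cnt G m x = a at ih' ⊢
    generalize L.relIndex (Z (m + 1 + 1)) = r at h3 h4
    generalize Nat.card ↥(K ⊓ Z (m + 1)) = k1 at h1 ih' hkpos
    have hgoal : a * e * Nat.card H ≤ Nat.card (Z (m + 1 + 1)) := by
      generalize Nat.card H = k2 at h1
      generalize Nat.card (Z (m + 1)) = n1 at h1 ih'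
      generalize Nat.card L = l at h1 h3
      generalize Nat.card (Z (m + 1 + 1)) = n2 at h3
      -- l * k1 = k2 * n1, l * r = n2, a * k1 ≤ n1, e ≤ r
      apply Nat.le_of_mul_le_mul_right _ hkpos
      calc a * e * k2 * k1 = (a * k1) * k2 * e := by ring
        _ ≤ n1 * k2 * r := Nat.mul_le_mul (Nat.mul_le_mul_right _ ih') h4
        _ = (k2 * n1) * r := by ring
        _ = l * k1 * r := by rw [← h1]
        _ = n2 * k1 := by rw [← h3]; ring
    exact hgoal

/-- If G is a finite p-group in which every conjugacy class has at most p^b elements (every element has centralizer of index at most p^b), then G is abelian when b = 0, and when b ≥ 1 its nilpotency class c satisfies (c − 1)(p − 1) < bp, that is c < bp/(p − 1) + 1, and hence c ≤ 2b. -/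
theorem result {G : Type*} [Group G] [Finite G] {p : ℕ} [Fact p.Prime] (hG : IsPGroup p G) (b : ℕ) (hb : ∀ x : G, (Subgroup.centralizer ({x} : Set G)).index ≤ p ^ b) : ∃ c : ℕ, (⊤ : Subgroup G).lowerCentralSeries c = ⊥ ∧ (b ≠ 0 → (c - 1) * (p - 1) < b * p ∧ c ≤ 2 * b) ∧ (b = 0 → c ≤ 1) := by
  classical
  have hp : p.Prime := Fact.out
  haveI : Group.IsNilpotent G := hG.isNilpotent
  set c := Group.nilpotencyClass G with hc
  have hlow : (⊤ : Subgroup G).lowerCentralSeries c = ⊥ :=
    Subgroup.lowerCentralSeries_eq_bot_iff_nilpotencyClass_le.2 le_rfl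
  refine ⟨c, hlow, ?_, ?_⟩
  · intro hb0
    have hmain : (c - 1) * (p - 1) < b * p := by
      letI : Fintype G := Fintype.ofFinite G
      -- the number of indices for x is at most b
      have hfb : ∀ x : G, (cnt G (c - 1) x) ≤ b := by
        intro x
        have h1 := count_le hG x (c - 1) (by omega)
        have h2 : Nat.card (Subgroup.upperCentralSeries G (c - 1 + 1)) ≤ Nat.card G := Nat.card_le_card_of_injective _ (Subgroup.subtype_injective _)
        by_cases hc0 : c = 0
        · have : c - 1 = 0 := by omega
          rw [this]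
          simp [cnt]
        · have h3 : c - 1 + 1 = c := by omega
          have h4 : Subgroup.upperCentralSeries G (c - 1 + 1) = ⊤ := by
            rw [h3]; exact Subgroup.upperCentralSeries_nilpotencyClass
          rw [h4, Subgroup.card_top, inf_top_eq] at h1
          have h5 := Subgroup.card_mul_index (Subgroup.centralizer ({x} : Set G))
          have h6 : p ^ (cnt G (c - 1) x) ≤ (Subgroup.centralizer ({x} : Set G)).index := by
            rw [← h5, mul_comm (p ^ _)] at h1
            exact Nat.le_of_mul_le_mul_left h1 Nat.card_pos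
          exact (Nat.pow_le_pow_iff_right hp.one_lt).1 (h6.trans (hb x))
      have hf1 : cnt G (c - 1) (1 : G) = 0 := by
        rw [cnt, Finset.card_eq_zero, Finset.filter_eq_empty_iff]
        intro j _
        rw [not_not]
        exact one_mem _
      have hsum1 : ∑ x : G, cnt G (c - 1) x ≤ b * (Nat.card G - 1) := by
        rw [← Finset.add_sum_erase _ _ (Finset.mem_univ (1 : G)), hf1, zero_add]
        refine (Finset.sum_le_card_nsmul _ _ b (fun x _ => hfb x)).trans ?_
        rw [Finset.card_erase_of_mem (Finset.mem_univ _), Finset.card_univ, smul_eq_mul, mul_comm,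
          ← Nat.card_eq_fintype_card]
      have hsum2 : ∑ x : G, cnt G (c - 1) x =
          ∑ j ∈ Finset.range (c - 1), (Finset.univ.filter fun x : G => x ∉ Cj G j).card := by
        simp only [cnt, Finset.card_filter]
        rw [Finset.sum_comm]
      have hsum3 : (c - 1) * ((p - 1) * Nat.card G) ≤ p * ∑ x : G, cnt G (c - 1) x := by
        rw [hsum2, Finset.mul_sum]
        have : (c - 1) * ((p - 1) * Nat.card G) = ∑ j ∈ Finset.range (c - 1), (p - 1) * Nat.card G := by
          rw [Finset.sum_const, Finset.card_range, smul_eq_mul]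
        rw [this]
        apply Finset.sum_le_sum
        intro j hj
        rw [Finset.mem_range] at hj
        have h1 : Cj G j ≠ ⊤ := Cj_ne_top (by omega)
        have h2 := card_Cj hG h1
        have h3 : (Finset.univ.filter fun x : G => x ∉ Cj G j).card + Nat.card (Cj G j) = Nat.card G := by
          rw [Nat.card_eq_fintype_card (α := G), ← Finset.card_univ,
            ← Finset.card_filter_add_card_filter_not (s := Finset.univ) (fun x : G => x ∉ Cj G j)]
          congr 1
          rw [Nat.card_eq_fintype_card, Fintype.card_subtype]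
          congr 1
          ext x; simp
        obtain ⟨q, hq⟩ : ∃ q, p = q + 1 := ⟨p - 1, by have := hp.one_lt; omega⟩
        rw [hq] at h2 ⊢
        simp only [Nat.add_sub_cancel]
        nlinarith
      have hGpos : 0 < Nat.card G := Nat.card_pos
      have hb1 : 0 < b := Nat.pos_of_ne_zero hb0
      have h7 : (c - 1) * ((p - 1) * Nat.card G) ≤ p * (b * (Nat.card G - 1)) :=
        hsum3.trans (Nat.mul_le_mul_left p hsum1)
      have h8 : p * (b * (Nat.card G - 1)) < b * p * Nat.card G := by
        have : p * (b * (Nat.card G - 1)) = b * p * (Nat.card G - 1) := by ring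
        rw [this]
        exact Nat.mul_lt_mul_of_pos_left (Nat.sub_lt hGpos one_pos) (Nat.mul_pos hb1 hp.pos)
      have h9 : (c - 1) * (p - 1) * Nat.card G < b * p * Nat.card G := by
        rw [mul_assoc]; exact lt_of_le_of_lt h7 h8
      exact Nat.lt_of_mul_lt_mul_right h9
    refine ⟨hmain, ?_⟩
    obtain ⟨q, hq⟩ : ∃ q, p = q + 1 := ⟨p - 1, by have := hp.one_lt; omega⟩
    have hq1 : 1 ≤ q := by have := hp.two_le; omega
    rw [hq, Nat.add_sub_cancel] at hmain
    by_contra hcon
    push Not at hcon
    obtain ⟨d, hd⟩ : ∃ d, c - 1 = 2 * b + d := ⟨c - 1 - 2 * b, by omega⟩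
    rw [hd] at hmain
    have : b * (q + 1) ≤ (2 * b + d) * q := by nlinarith [Nat.zero_le (d * q), Nat.mul_le_mul_left b hq1]
    omega
  · intro hb0
    subst hb0
    have hcomm : ∀ x y : G, x * y = y * x := by
      intro x y
      have h1 := hb x
      rw [pow_zero] at h1
      have h2 : (Subgroup.centralizer ({x} : Set G)).index = 1 := by
        have := (Subgroup.centralizer ({x} : Set G)).index_ne_zero_of_finite
        omega
      rw [Subgroup.index_eq_one] at h2
      have h3 : y ∈ Subgroup.centralizer ({x} : Set G) := by rw [h2]; trivial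
      exact (Subgroup.mem_centralizer_singleton_iff.1 h3).symm
    have h4 : Subgroup.upperCentralSeries G 1 = ⊤ := by
      rw [eq_top_iff]
      intro x _
      rw [Subgroup.mem_upperCentralSeries_succ_iff]
      intro y
      rw [Subgroup.upperCentralSeries_zero, Subgroup.mem_bot, commutatorElement_eq_one_iff_mul_comm]
      exact hcomm x y
    exact Subgroup.upperCentralSeries_eq_top_iff_nilpotencyClass_le.1 h4


end Cfsg.Agent.S3778
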