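import Cfsg.Statements.S3780
import Cfsg.Agent.S0014
import Cfsg.Agent.LibSolvFrat

set_option autoImplicit false
open Cfsg

namespace Cfsg.Agent.S3780

open Cfsg


/-- Let V be a finite abelian p-group and α an automorphism of V of order p whose fixed-point subgroup has order p^n. Then V can be generated by pn elements: some subset of V with at most pn elements generates V. -/
theorem result {V : Type*} [CommGroup V] [Finite V] {p : ℕ} [Fact p.Prime] (hV : IsPGroup p V) (α : MulAut V) (hα : orderOf α = p) (n : ℕ) (hfix : Nat.card {v : V // α v = v} = p ^ n) : ∃ S : Finset V, S.card ≤ p * n ∧ Subgroup.closure (S : Set V) = ⊤ := by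
  classical
  have hp : p.Prime := Fact.out
  letI : Fintype V := Fintype.ofFinite V
  -- additive endomorphism
  let a : Module.End ℤ (Additive V) := (MonoidHom.toAdditive α.toMonoidHom).toIntLinearMap
  have ha : ∀ v : V, a (Additive.ofMul v) = Additive.ofMul (α v) := fun v => rfl
  have hapow : ∀ (k : ℕ) (v : V), (a ^ k) (Additive.ofMul v) = Additive.ofMul ((α ^ k) v) := by
    intro k
    induction k with
    | zero => intro v; simp
    | succ k ih =>
      intro v
      rw [pow_succ, Module.End.mul_apply, ha, ih, pow_succ, MulAut.mul_apply]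
  have hap : a ^ p = 1 := by
    apply LinearMap.ext
    intro v
    obtain ⟨v, rfl⟩ := Additive.ofMul.surjective v
    rw [hapow, ← hα, pow_orderOf_eq_one]
    rfl
  let δ : Module.End ℤ (Additive V) := a + (-1)
  have hδ : ∀ v : V, δ (Additive.ofMul v) = Additive.ofMul (α v * v⁻¹) := fun v => rfl
  obtain ⟨r, hr⟩ := Commute.exists_add_pow_prime_eq hp (Commute.neg_one_right a)
  have hδp : ∃ s : Module.End ℤ (Additive V), δ ^ p = p * s := by
    rcases hp.eq_two_or_odd' with h2 | hodd
    · refine ⟨1 - a * r, ?_⟩
      change (a + (-1)) ^ p = _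
      rw [hr, hap, h2]
      push_cast
      noncomm_ring
    · refine ⟨-(a * r), ?_⟩
      change (a + (-1)) ^ p = _
      rw [hr, hap, hodd.neg_one_pow]
      noncomm_ring
  obtain ⟨s, hs⟩ := hδp
  have hker1 : Nat.card (LinearMap.ker δ) = p ^ n := by
    rw [← hfix]
    apply Nat.card_congr
    refine ⟨fun x => ⟨Additive.toMul (x : Additive V), ?_⟩, fun v => ⟨Additive.ofMul (v : V), ?_⟩, ?_, ?_⟩
    · have h1 : δ (Additive.ofMul (Additive.toMul (x : Additive V))) = 0 := x.2
      rw [hδ] at h1
      have h2 : α (Additive.toMul (x : Additive V)) * (Additive.toMul (x : Additive V))⁻¹ = 1 := h1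
      exact mul_inv_eq_one.1 h2
    · rw [LinearMap.mem_ker, hδ, v.2, mul_inv_cancel]; rfl
    · intro x; rfl
    · intro v; rfl
  have hkerk : ∀ k : ℕ, Nat.card (LinearMap.ker (δ ^ k)) ≤ (p ^ n) ^ k := by
    intro k
    induction k with
    | zero =>
      rw [pow_zero, pow_zero]
      have : LinearMap.ker (1 : Module.End ℤ (Additive V)) = ⊥ := LinearMap.ker_id
      rw [this]
      exact (Nat.card_unique).le
    | succ k ih =>
      set f : Additive V →+ Additive V := (δ ^ k).toAddMonoidHom with hf
      set K1 : AddSubgroup (Additive V) := (LinearMap.ker δ).toAddSubgroup with hK1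
      have e1 : Nat.card (LinearMap.ker (δ ^ (k + 1))) = Nat.card (K1.comap f) := by
        apply Nat.card_congr
        refine Equiv.subtypeEquivRight ?_
        intro v
        rw [pow_succ', LinearMap.mem_ker, AddSubgroup.mem_comap, Module.End.mul_apply]
        rfl
      have e2 : Nat.card (LinearMap.ker (δ ^ k)) = Nat.card f.ker := rfl
      have h2 := AddSubgroup.relIndex_ker (K := K1.comap f) f
      have h3 : f.ker ≤ K1.comap f := AddMonoidHom.ker_le_comap _ _
      have h4 : Nat.card f.ker * f.ker.relIndex (K1.comap f) = Nat.card (K1.comap f) := by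
        rw [← AddSubgroup.relIndex_bot_left, ← AddSubgroup.relIndex_bot_left (K1.comap f)]
        exact AddSubgroup.relIndex_mul_relIndex ⊥ _ _ bot_le h3
      rw [e1, ← h4, h2, pow_succ]
      apply Nat.mul_le_mul (e2 ▸ ih)
      rw [← hker1]
      exact Nat.card_le_card_of_injective (AddSubgroup.inclusion (AddSubgroup.map_comap_le f K1))
        (AddSubgroup.inclusion_injective _)
  -- V[p] embeds
  have hVp : Nat.card (powMonoidHom p : V →* V).ker ≤ (p ^ n) ^ p := by
    refine le_trans ?_ (hkerk p)
    have hmem : ∀ x : (powMonoidHom p : V →* V).ker, Additive.ofMul (x : V) ∈ LinearMap.ker (δ ^ p) := by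
      intro x
      rw [LinearMap.mem_ker, hs]
      have h1 : (x : V) ^ p = 1 := x.2
      have h2 : p • (Additive.ofMul (x : V)) = 0 := by
        rw [← ofMul_pow, h1]; rfl
      have h3 : ((p : Module.End ℤ (Additive V)) * s) (Additive.ofMul (x : V)) = p • (s (Additive.ofMul (x : V))) := by
        rw [Module.End.mul_apply, Module.End.natCast_apply]
      rw [h3, ← map_nsmul, h2, map_zero]
    apply Nat.card_le_card_of_injective
      (fun x : (powMonoidHom p : V →* V).ker => (⟨Additive.ofMul (x : V), hmem x⟩ : LinearMap.ker (δ ^ p)))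
    intro x y h
    have h' : Additive.ofMul (x : V) = Additive.ofMul (y : V) := by
      simpa using h
    exact Subtype.ext h'
  have hidx : (powMonoidHom p : V →* V).range.index = Nat.card (powMonoidHom p : V →* V).ker := by
    have h1 := (powMonoidHom p : V →* V).range.card_mul_index
    have h2 := (powMonoidHom p : V →* V).ker.card_mul_index
    rw [Subgroup.index_ker] at h2
    rw [← h2, mul_comm] at h1
    exact Nat.eq_of_mul_eq_mul_right Nat.card_pos h1
  have hfr : (powMonoidHom p : V →* V).range ≤ frattini V := by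
    rintro _ ⟨x, rfl⟩
    exact CfsgLib.SolvFrat.pow_mem_frattini hp hV x
  obtain ⟨d, hd⟩ := hV.index (frattini V)
  have hle : p ^ d ≤ p ^ (n * p) := by
    rw [← hd, pow_mul]
    refine le_trans (Nat.le_of_dvd ?_ (Subgroup.index_dvd_of_le hfr)) (hidx ▸ hVp)
    exact Nat.pos_of_ne_zero Subgroup.index_ne_zero_of_finite
  have hdn : d ≤ p * n := by
    rw [mul_comm]
    exact (Nat.pow_le_pow_iff_right hp.one_lt).1 hle
  obtain ⟨T, -, hT, hTc⟩ := (Cfsg.Agent.S0014.result p d hV hd).1 Finset.univ (by simp)
  exact ⟨T, hT ▸ hdn, hTc⟩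


end Cfsg.Agent.S3780
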