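import Cfsg.Statements.S3781
import Cfsg.Agent.LibGrLie

set_option autoImplicit false
open Cfsg

namespace Cfsg.Agent.S3781

set_option linter.style.haveILetI false
set_option linter.unusedSectionVars false
set_option linter.unusedVariables false

/-- iterated commutators with the whole group -/
def it {G : Type*} [Group G] (A : Subgroup G) : ℕ → Subgroup G
  | 0 => A
  | k + 1 => ⁅it A k, (⊤ : Subgroup G)⁆

theorem it_normal {G : Type*} [Group G] (A : Subgroup G) [A.Normal] (k : ℕ) : (it A k).Normal := by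
  induction k with
  | zero => exact ‹A.Normal›
  | succ k ih =>
    haveI := ih
    change (⁅it A k, (⊤ : Subgroup G)⁆).Normal
    infer_instance

theorem it_succ' {G : Type*} [Group G] (A : Subgroup G) (k : ℕ) :
    it ⁅A, (⊤ : Subgroup G)⁆ k = it A (k + 1) := by
  induction k with
  | zero => rfl
  | succ k ih => change ⁅it _ k, (⊤ : Subgroup G)⁆ = ⁅it A (k + 1), (⊤ : Subgroup G)⁆; rw [ih]

theorem comm_le_it {G : Type*} [Group G] (n : ℕ) : ∀ (A : Subgroup G) [A.Normal],
    ⁅A, (⊤ : Subgroup G).lowerCentralSeries n⁆ ≤ it A (n + 1) := by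
  induction n with
  | zero => intro A _; exact le_rfl
  | succ n ih =>
    intro A _
    haveI : (it A (n + 1 + 1)).Normal := it_normal A _
    rw [Subgroup.commutator_comm, Subgroup.lowerCentralSeries_succ]
    apply CfsgLib.GrLie.tsn
    · have := ih ⁅A, (⊤ : Subgroup G)⁆
      rw [it_succ'] at this
      rw [Subgroup.commutator_comm (⊤ : Subgroup G) A]
      exact this
    · exact Subgroup.commutator_mono (ih A) le_rfl

theorem it_mono {G : Type*} [Group G] {A B : Subgroup G} (h : A ≤ B) (k : ℕ) : it A k ≤ it B k := by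
  induction k with
  | zero => exact h
  | succ k ih => exact Subgroup.commutator_mono ih le_rfl

theorem it_add {G : Type*} [Group G] (A : Subgroup G) (k l : ℕ) : it (it A k) l = it A (k + l) := by
  induction l with
  | zero => rfl
  | succ l ih => change ⁅it (it A k) l, (⊤ : Subgroup G)⁆ = ⁅it A (k + l), (⊤ : Subgroup G)⁆; rw [ih]

/-- a normal subgroup `A` with `⁅A,G⁆ = A` of a nilpotent group is trivial -/
theorem eq_bot_of_comm {G : Type*} [Group G] [hG : Group.IsNilpotent G] {A : Subgroup G}
    (h : A ≤ ⁅A, (⊤ : Subgroup G)⁆) : A = ⊥ := by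
  obtain ⟨n, hn⟩ := Subgroup.nilpotent_iff_lowerCentralSeries.1 hG
  have : ∀ k, A ≤ (⊤ : Subgroup G).lowerCentralSeries k := by
    intro k
    induction k with
    | zero => exact le_top
    | succ k ih => exact h.trans (Subgroup.commutator_mono ih le_rfl)
  exact eq_bot_iff.2 (hn ▸ this n)

/-- The chain of iterated commutators above `B`. -/
theorem it_le_of_relIndex {G : Type*} [Group G] [Finite G] {p : ℕ} [Fact p.Prime] (hG : IsPGroup p G)
    (m : ℕ) : ∀ (A B : Subgroup G) [A.Normal] [B.Normal], B ≤ A → B.relIndex A < p ^ (m + 1) →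
      it A m ≤ B := by
  haveI := hG.isNilpotent
  induction m with
  | zero =>
    intro A B _ _ hBA h
    have h1 : B.relIndex A ∣ Nat.card A := Subgroup.relIndex_dvd_card _ _
    obtain ⟨a, ha⟩ := IsPGroup.iff_card.1 (hG.to_subgroup A)
    rw [ha] at h1
    obtain ⟨b, -, hb⟩ := (Nat.dvd_prime_pow Fact.out).1 h1
    rw [hb] at h
    have h2 : b = 0 := by
      have := (Nat.pow_lt_pow_iff_right (Fact.out : p.Prime).one_lt).1 h
      omega
    rw [h2, pow_zero, Subgroup.relIndex_eq_one] at hb
    exact hb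
  | succ m ih =>
    intro A B _ _ hBA h
    by_cases hAB : A ≤ B
    · have hle : ∀ k, it A k ≤ A := by
        intro k
        induction k with
        | zero => exact le_rfl
        | succ k ihk => exact (Subgroup.commutator_mono ihk le_rfl).trans (Subgroup.commutator_le_left _ _)
      exact (hle _).trans hAB
    · -- `C = ⁅A,G⁆ B < A`
      have hC : ⁅A, (⊤ : Subgroup G)⁆ ⊔ B < A := by
        refine lt_of_le_of_ne (sup_le (Subgroup.commutator_le_left _ _) hBA) ?_
        intro hE
        apply hAB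
        -- in the quotient by `B`
        have h1 : A.map (QuotientGroup.mk' B) = ⊥ := by
          apply eq_bot_of_comm
          have h2 : (⊤ : Subgroup (G ⧸ B)) = (⊤ : Subgroup G).map (QuotientGroup.mk' B) := by
            rw [← MonoidHom.range_eq_map, MonoidHom.range_eq_top.2 (QuotientGroup.mk'_surjective B)]
          rw [h2, ← Subgroup.map_commutator]
          conv_lhs => rw [← hE]
          rw [Subgroup.map_sup]
          refine sup_le le_rfl ?_
          have : B.map (QuotientGroup.mk' B) = ⊥ := by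
            rw [Subgroup.map_eq_bot_iff, QuotientGroup.ker_mk']
          rw [this]
          exact bot_le
        rw [Subgroup.map_eq_bot_iff, QuotientGroup.ker_mk'] at h1
        exact h1
      have hmul : B.relIndex (⁅A, (⊤ : Subgroup G)⁆ ⊔ B) * (⁅A, (⊤ : Subgroup G)⁆ ⊔ B).relIndex A
          = B.relIndex A := Subgroup.relIndex_mul_relIndex _ _ _ le_sup_right hC.le
      have hne : (⁅A, (⊤ : Subgroup G)⁆ ⊔ B).relIndex A ≠ 1 := by
        intro h1
        rw [Subgroup.relIndex_eq_one] at h1
        exact absurd h1 (not_le_of_gt hC)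
      have hge : p ≤ (⁅A, (⊤ : Subgroup G)⁆ ⊔ B).relIndex A := by
        have h1 : (⁅A, (⊤ : Subgroup G)⁆ ⊔ B).relIndex A ∣ Nat.card A := Subgroup.relIndex_dvd_card _ _
        obtain ⟨a, ha⟩ := IsPGroup.iff_card.1 (hG.to_subgroup A)
        rw [ha] at h1
        obtain ⟨b, -, hb⟩ := (Nat.dvd_prime_pow Fact.out).1 h1
        rw [hb] at hne ⊢
        have : b ≠ 0 := by rintro rfl; exact hne (pow_zero _)
        calc p = p ^ 1 := (pow_one p).symm
          _ ≤ p ^ b := Nat.pow_le_pow_right (Fact.out : p.Prime).pos (by omega)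
      have hlt : B.relIndex (⁅A, (⊤ : Subgroup G)⁆ ⊔ B) < p ^ (m + 1) := by
        by_contra hcon
        push Not at hcon
        have := Nat.mul_le_mul hcon hge
        rw [hmul, ← pow_succ] at this
        omega
      have h3 := ih (⁅A, (⊤ : Subgroup G)⁆ ⊔ B) B le_sup_right hlt
      have h4 := (it_mono (le_sup_left : ⁅A, (⊤ : Subgroup G)⁆ ≤ ⁅A, (⊤ : Subgroup G)⁆ ⊔ B) m).trans h3
      rw [it_succ'] at h4
      exact h4

theorem lcs_normal {G : Type*} [Group G] (N : Subgroup G) [N.Normal] (k : ℕ) :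
    (N.lowerCentralSeries k).Normal := by
  induction k with
  | zero => exact ‹N.Normal›
  | succ k ih =>
    haveI := ih
    rw [Subgroup.lowerCentralSeries_succ]
    infer_instance

/-- Let G be a finite p-group and n ≥ 1, and write γ_1(G) = G, γ_{k+1}(G) = [γ_k(G), G], and likewise γ_k(N) for a subgroup N. Let N be a normal subgroup of G contained in γ_n(G). If i > 1 and γ_{i+1}(N) ≠ 1, then |γ_i(N) : γ_{i+1}(N)| ≥ p^n. -/
theorem result {G : Type*} [Group G] [Finite G] {p : ℕ} [Fact p.Prime] (hG : IsPGroup p G) (n : ℕ) (hn : 1 ≤ n) (N : Subgroup G) [N.Normal] (hN : N ≤ (⊤ : Subgroup G).lowerCentralSeries (n - 1)) (i : ℕ) (hi : 1 < i) (hne : N.lowerCentralSeries i ≠ ⊥) : p ^ n ≤ (N.lowerCentralSeries i).relIndex (N.lowerCentralSeries (i - 1)) := by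
  by_contra hcon
  push Not at hcon
  apply hne
  haveI := hG.isNilpotent
  haveI := lcs_normal N i
  haveI := lcs_normal N (i - 1)
  have hle : N.lowerCentralSeries i ≤ N.lowerCentralSeries (i - 1) :=
    N.lowerCentralSeries_antitone (by omega)
  obtain ⟨m, rfl⟩ : ∃ m, n = m + 1 := ⟨n - 1, by omega⟩
  have h1 := it_le_of_relIndex hG m _ _ hle hcon
  apply eq_bot_of_comm
  have h2 : N.lowerCentralSeries i = ⁅N.lowerCentralSeries (i - 1), N⁆ := by
    conv_lhs => rw [show i = (i - 1) + 1 by omega]
    rfl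
  calc N.lowerCentralSeries i = ⁅N.lowerCentralSeries (i - 1), N⁆ := h2
    _ ≤ ⁅N.lowerCentralSeries (i - 1), (⊤ : Subgroup G).lowerCentralSeries m⁆ :=
        Subgroup.commutator_mono le_rfl hN
    _ ≤ it (N.lowerCentralSeries (i - 1)) (m + 1) := comm_le_it m _
    _ ≤ ⁅N.lowerCentralSeries i, (⊤ : Subgroup G)⁆ := Subgroup.commutator_mono h1 le_rfl

end Cfsg.Agent.S3781
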