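import Cfsg.Statements.S3783
import Cfsg.Agent.LibPLen
import Cfsg.Agent.LibHHNorm
import Cfsg.Agent.LibFpf
import Cfsg.Agent.LibCoprime2
import Cfsg.Agent.LibSolvFrat

set_option autoImplicit false
open Cfsg

namespace Cfsg.Agent.S3783

universe u


open Subgroup Cfsg CfsgLib.BGPi CfsgLib.PLen CfsgLib.SolvCoprime
open scoped commutatorElement Pointwise

section
variable {G : Type u} [Group G]

/-- conjugation action on the abelianisation of a normal subgroup -/
noncomputable def rho (R : Subgroup G) [R.Normal] : G →* Monoid.End (Abelianization R) where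
  toFun g := Abelianization.map (MulAut.conjNormal (H := R) g).toMonoidHom
  map_one' := by
    apply Abelianization.hom_ext
    ext r
    simp
    rfl
  map_mul' := by
    intro a b
    apply Abelianization.hom_ext
    ext r
    simp
    rfl

theorem rho_of (R : Subgroup G) [R.Normal] (g : G) (r : R) :
    rho R g (Abelianization.of r) = Abelianization.of (⟨g * r * g⁻¹, Subgroup.Normal.conj_mem inferInstance _ r.2 g⟩ : R) := by
  rfl

theorem word (R : Subgroup G) [R.Normal] (g : G) (r : R) : ∀ k : ℕ, ∃ w : R, ((r : G) * g) ^ k = w * g ^ k ∧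
    Abelianization.of w = ∏ i ∈ Finset.range k, rho R (g ^ i) (Abelianization.of r) := by
  intro k
  induction k with
  | zero => exact ⟨1, by simp, by simp⟩
  | succ k ih =>
    obtain ⟨w, h1, h2⟩ := ih
    refine ⟨w * ⟨g ^ k * r * (g ^ k)⁻¹, Subgroup.Normal.conj_mem inferInstance _ r.2 _⟩, ?_, ?_⟩
    · rw [pow_succ, h1, Subgroup.coe_mul, pow_succ]
      group
    · rw [map_mul, h2, Finset.prod_range_succ, rho_of]

variable [Finite G]

theorem nongen {p : ℕ} (hp : p.Prime) (R H : Subgroup G) (hR : IsPGroup p R) (hH : H ≤ R)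
    (h : R ≤ ⁅R, R⁆ ⊔ H) : H = R := by
  haveI : Fact p.Prime := ⟨hp⟩
  have h1 : (H.subgroupOf R) ⊔ frattini R = ⊤ := by
    rw [eq_top_iff]
    have h2 : (H.subgroupOf R) ⊔ _root_.commutator R = ⊤ := by
      apply Subgroup.map_injective R.subtype_injective
      rw [Subgroup.map_sup, Subgroup.subgroupOf_map_subtype, inf_of_le_left hH, Subgroup.map_subtype_commutator,
        ← MonoidHom.range_eq_map, Subgroup.range_subtype, sup_comm]
      apply le_antisymm _ h
      exact sup_le (Subgroup.commutator_le_self R) hH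
    rw [← h2]
    exact sup_le_sup_left (CfsgLib.SolvFrat.commutator_le_frattini hp hR) _
  have h3 := frattini_nongenerating h1
  have h4 := congrArg (Subgroup.map R.subtype) h3
  rw [Subgroup.subgroupOf_map_subtype, inf_of_le_left hH, ← MonoidHom.range_eq_map, Subgroup.range_subtype] at h4
  exact h4

end

theorem main (p : ℕ) [hpf : Fact p.Prime] : ∀ (N : ℕ) (G : Type u) [Group G] [Finite G], Nat.card G = N →
    ∀ n : ℕ, IsPSolvable p G →
    (∀ q : ℕ, q.Prime → q ≠ p → ∀ Q : Subgroup G, IsPGroup q Q → ∀ a ∈ Q, ∀ b ∈ Q, a * b = b * a) →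
    (∀ x : G, (∃ k, x ^ p ^ k = 1) → x ^ p ^ n = 1) → PLengthLE p n G := by
  have hp := hpf.out
  intro N
  induction N using Nat.strong_induction_on with
  | _ N ih =>
  intro G _ _ hN n P1 P2 P3
  have hcard : ∀ (K : Subgroup G) [K.Normal], K ≠ ⊥ → Nat.card (G ⧸ K) < N := by
    intro K _ hK
    have h6 := Subgroup.card_eq_card_quotient_mul_card_subgroup K
    have h7 : 1 < Nat.card K := Subgroup.one_lt_card_iff_ne_bot K |>.mpr hK
    have h8 : 0 < Nat.card (G ⧸ K) := Nat.card_pos
    rw [← hN, h6]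
    nlinarith
  have hP2q : ∀ (K : Subgroup G) [K.Normal], ∀ q : ℕ, q.Prime → q ≠ p → ∀ Q : Subgroup (G ⧸ K), IsPGroup q Q →
      ∀ a ∈ Q, ∀ b ∈ Q, a * b = b * a := by
    intro K _ q hq hqp Q hQ a ha b hb
    haveI : Fact q.Prime := ⟨hq⟩
    obtain ⟨S', hS'⟩ := hQ.exists_le_sylow
    obtain ⟨S, hS⟩ := Sylow.mapSurjective_surjective (QuotientGroup.mk'_surjective K) q S'
    have h1 : (S' : Subgroup (G ⧸ K)) = (S : Subgroup G).map (QuotientGroup.mk' K) := by
      rw [← Sylow.coe_mapSurjective (QuotientGroup.mk'_surjective K), hS]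
    have ha' := hS' ha
    have hb' := hS' hb
    rw [h1] at ha' hb'
    obtain ⟨u, hu, rfl⟩ := ha'
    obtain ⟨v, hv, rfl⟩ := hb'
    rw [← map_mul, ← map_mul, P2 q hq hqp S S.isPGroup' u hu v hv]
  have hP3q : ∀ (K : Subgroup G) [K.Normal], ∀ x : G ⧸ K, (∃ k, x ^ p ^ k = 1) → x ^ p ^ n = 1 := by
    intro K _ x hx
    obtain ⟨k, hk⟩ := hx
    have hzp : IsPGroup p (Subgroup.zpowers x) := by
      rw [isPGroup_iff_pow_pow_eq_one]
      rintro ⟨y, hy⟩
      obtain ⟨i, rfl⟩ := mem_zpowers_iff.mp hy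
      refine ⟨k, Subtype.ext ?_⟩
      show (x ^ i) ^ p ^ k = 1
      rw [← zpow_natCast, ← zpow_mul, mul_comm, zpow_mul, zpow_natCast, hk, one_zpow]
    obtain ⟨S', hS'⟩ := hzp.exists_le_sylow
    obtain ⟨S, hS⟩ := Sylow.mapSurjective_surjective (QuotientGroup.mk'_surjective K) p S'
    have h1 : (S' : Subgroup (G ⧸ K)) = (S : Subgroup G).map (QuotientGroup.mk' K) := by
      rw [← Sylow.coe_mapSurjective (QuotientGroup.mk'_surjective K), hS]
    have h2 : x ∈ (S : Subgroup G).map (QuotientGroup.mk' K) := by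
      rw [← h1]; exact hS' (mem_zpowers x)
    obtain ⟨s, hs, rfl⟩ := h2
    rw [← map_pow]
    obtain ⟨j, hj⟩ := S.isPGroup' ⟨s, hs⟩
    rw [P3 s ⟨j, congrArg Subtype.val hj⟩, map_one]
  by_cases hK : pPrimeCore p G = ⊥
  swap
  · have h1 := ih _ (hcard _ hK) (G ⧸ pPrimeCore p G) rfl n (CfsgLib.PSolv19.psolv_quotient hp P1 _)
      (hP2q _) (hP3q _)
    have h2 : RLen p 0 (⊥ : Subgroup G) (pPrimeCore p G) := by
      apply RLen.of_prime' bot_le
      rw [Subgroup.relIndex_bot_left]
      exact CfsgLib.Cores.pPrimeCore_coprime p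
    have h3 := plen_ext hp _ h2 h1
    rwa [zero_add] at h3
  rcases Nat.eq_zero_or_pos n with rfl | hn0
  · rw [plen_zero_iff hp, Nat.coprime_comm, Nat.Prime.coprime_iff_not_dvd hp]
    intro hd
    obtain ⟨x, hx⟩ := exists_prime_orderOf_dvd_card' p hd
    have h1 := P3 x ⟨1, by rw [pow_one, ← hx, pow_orderOf_eq_one]⟩
    rw [pow_zero, pow_one] at h1
    rw [h1, orderOf_one] at hx
    exact hp.one_lt.ne hx
  obtain ⟨n, rfl⟩ : ∃ m, n = m + 1 := ⟨n - 1, by omega⟩
  by_cases hnt : Nontrivial G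
  swap
  · rw [not_nontrivial_iff_subsingleton] at hnt
    apply plen_mono hp (Nat.zero_le _)
    rw [plen_zero_iff hp]
    rw [Nat.card_eq_one_iff_unique.mpr ⟨hnt, inferInstance⟩]
    exact Nat.coprime_one_left p
  have hR1 : pCore p G ≠ ⊥ := by
    rcases CfsgLib.PSolv19.psolv_core_ne_bot P1 with h | h
    · exact h
    · exact absurd hK h
  have hHH := CfsgLib.PSolv19.hall_higman P1 hK
  set R := pCore p G with hRdef
  haveI hRn : R.Normal := by rw [hRdef]; infer_instance
  have hRp : IsPGroup p R := CfsgLib.Cores.pCore_isPGroup p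
  have hRsolv := solvable_of_isPGroup hp hRp
  -- elements congruent mod `R` to a `p`-element are `p`-elements
  have hpel : ∀ y : G, (∃ k, (QuotientGroup.mk' R y) ^ p ^ k = 1) → ∃ k, y ^ p ^ k = 1 := by
    rintro y ⟨k, hk⟩
    rw [← map_pow] at hk
    have h1 : y ^ p ^ k ∈ R := (QuotientGroup.eq_one_iff _).mp hk
    obtain ⟨j, hj⟩ := hRp ⟨_, h1⟩
    have h2 : (y ^ p ^ k) ^ p ^ j = 1 := congrArg Subtype.val hj
    exact ⟨k + j, by rw [pow_add, pow_mul]; exact h2⟩
  have hquo : ∀ x : G ⧸ R, (∃ k, x ^ p ^ k = 1) → x ^ p ^ n = 1 := by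
    intro x hx
    by_contra hxn
    obtain ⟨g0, rfl⟩ := QuotientGroup.mk'_surjective R x
    have hOq : pCore p (G ⧸ R) = ⊥ := CfsgLib.Cores.pCore_quotient_pCore p
    have hcq := CfsgLib.HHNorm.centralizer_pPrimeCore_le (CfsgLib.PSolv19.psolv_quotient hp P1 R) hOq
    set K' := pPrimeCore p (G ⧸ R) with hK'
    haveI : K'.Normal := by rw [hK']; infer_instance
    have hK'c : (Nat.card K').Coprime p := CfsgLib.Cores.pPrimeCore_coprime p
    set L := K'.comap (QuotientGroup.mk' R) with hL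
    haveI : L.Normal := by rw [hL]; infer_instance
    have hRL : R ≤ L := by
      intro r hr
      rw [hL, Subgroup.mem_comap]
      have : QuotientGroup.mk' R r = 1 := (QuotientGroup.eq_one_iff r).2 hr
      rw [this]; exact one_mem _
    have hrel : R.relIndex L = Nat.card K' := by
      have h1 := card_mul_relIndex hRL
      rw [hL, CfsgLib.Cores.card_comap_mk] at h1
      exact Nat.eq_of_mul_eq_mul_left Nat.card_pos h1
    have hcop1 : (Nat.card R).Coprime (R.relIndex L) := by
      rw [hrel]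
      obtain ⟨k, hk⟩ := IsPGroup.iff_card.mp hRp
      rw [hk]
      exact Nat.Coprime.pow_left k hK'c.symm
    obtain ⟨T, hTL, hTc, hRT, hRTL⟩ := CfsgLib.Coprime.sz_exists hRL (by rw [Subgroup.normalizer_eq_top]; exact le_top) hcop1
    have hTp : (Nat.card T).Coprime p := by rw [hTc, hrel]; exact hK'c
    -- Frattini
    obtain ⟨r, hr, hrT⟩ := CfsgLib.Coprime.sz_conj (N := R) (H := T) (K := MulAut.conj g0 • T)
      (by rw [Subgroup.normalizer_eq_top]; exact le_top)
      (by rw [hTc]; exact hcop1.symm) (Or.inr hRsolv)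
      (by
        rw [hRTL]
        intro y hy
        rw [Subgroup.mem_pointwise_smul_iff_inv_smul_mem] at hy
        have h1 : (MulAut.conj g0)⁻¹ • y ∈ L := hTL hy
        have h2 := Subgroup.Normal.conj_mem (inferInstance : L.Normal) _ h1 g0
        have h3 : g0 * ((MulAut.conj g0)⁻¹ • y) * g0⁻¹ = y := by
          rw [← map_inv, MulAut.smul_def, MulAut.conj_apply]; group
        rwa [h3] at h2)
      (by
        exact Nat.card_congr (Subgroup.equivSMul (MulAut.conj g0) T).symm.toEquiv)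
    -- the new element
    obtain ⟨g, hg⟩ : ∃ g, g = r⁻¹ * g0 := ⟨_, rfl⟩
    have hgT : g ∈ 𝓝(T) := by
      rw [Subgroup.mem_normalizer_iff]
      have h1 : MulAut.conj g • T = T := by
        rw [hg, map_mul, mul_smul, ← hrT, ← mul_smul, ← map_mul]
        simp
      intro t
      constructor
      · intro ht
        have h2 : MulAut.conj g • t ∈ MulAut.conj g • T := Subgroup.smul_mem_pointwise_smul _ _ _ ht
        rw [h1] at h2
        exact h2
      · intro ht
        rw [← h1] at ht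
        have h2 : g * t * g⁻¹ = MulAut.conj g • t := rfl
        rw [h2, Subgroup.smul_mem_pointwise_smul_iff] at ht
        exact ht
    have hgx : QuotientGroup.mk' R g = QuotientGroup.mk' R g0 := by
      rw [hg, map_mul]
      have : QuotientGroup.mk' R r⁻¹ = 1 := (QuotientGroup.eq_one_iff _).2 (R.inv_mem hr)
      rw [this, one_mul]
    rw [← hgx] at hx hxn
    have hgp : ∃ k, g ^ p ^ k = 1 := hpel g hx
    have hgm : g ^ p ^ (n + 1) = 1 := P3 g hgp
    obtain ⟨h, hh⟩ : ∃ h, h = g ^ p ^ n := ⟨_, rfl⟩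
    have hh1 : QuotientGroup.mk' R h ≠ 1 := by rw [hh, map_pow]; exact hxn
    have hCp : IsPGroup p (zpowers g) := by
      rw [isPGroup_iff_pow_pow_eq_one]
      rintro ⟨y, hy⟩
      obtain ⟨i, rfl⟩ := mem_zpowers_iff.mp hy
      refine ⟨n + 1, Subtype.ext ?_⟩
      show (g ^ i) ^ p ^ (n + 1) = 1
      rw [← zpow_natCast, ← zpow_mul, mul_comm, zpow_mul, zpow_natCast, hgm, one_zpow]
    have hhC : zpowers h ≤ zpowers g := by
      rw [Subgroup.zpowers_le, hh]; exact Subgroup.pow_mem _ (mem_zpowers g) _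
    have hCT : zpowers g ≤ 𝓝(T) := by rw [Subgroup.zpowers_le]; exact hgT
    have hcopCT : (Nat.card (zpowers g)).Coprime (Nat.card T) := (coprime_card_of_pgroup hp hCp hTp).symm
    have hhT : ¬ T ≤ Subgroup.centralizer {h} := by
      intro hc
      have h1 : QuotientGroup.mk' R h ∈ Subgroup.centralizer (K' : Set (G ⧸ R)) := by
        rw [Subgroup.mem_centralizer_iff]
        intro y hy
        obtain ⟨l, rfl⟩ := QuotientGroup.mk'_surjective R y
        have hl : l ∈ L := hy
        rw [← hRTL] at hl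
        obtain ⟨r', hr', t, ht, rfl⟩ := Subgroup.mem_sup_of_normal_left.mp hl
        have h2 : QuotientGroup.mk' R r' = 1 := (QuotientGroup.eq_one_iff _).2 hr'
        rw [map_mul, h2, one_mul, ← map_mul, ← map_mul]
        congr 1
        exact Subgroup.mem_centralizer_singleton_iff.mp (hc ht)
      have h2 := hcq h1
      have h3 : (QuotientGroup.mk' R h) ^ p ^ 1 = 1 := by
        rw [pow_one, hh, ← map_pow, ← pow_mul, ← pow_succ, hgm, map_one]
      have h4 := orderOf_dvd_of_pow_eq_one h3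
      have h5 : orderOf (QuotientGroup.mk' R h) ∣ Nat.card K' := by
        rw [← Subgroup.orderOf_mk _ h2]
        exact orderOf_dvd_natCard _
      exact hh1 (orderOf_eq_one_iff.mp (Nat.eq_one_of_dvd_coprimes (Nat.Coprime.pow_left 1 hK'c.symm) h4 h5))
    obtain ⟨q, hq, Q, hQ, hCQ, hhQ⟩ : ∃ (q : ℕ) (_ : Fact q.Prime) (Q : Subgroup G), IsSylowIn q Q T ∧
        zpowers g ≤ 𝓝(Q) ∧ ¬ Q ≤ Subgroup.centralizer {h} := by
      by_contra hcon
      push Not at hcon
      apply hhT
      have hle : T ≤ Subgroup.centralizer {h} ⊓ T := by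
        apply CfsgLib.Fpf.le_of_forall_sylow inf_le_right
        intro q hq
        obtain ⟨Q, hQ, hxQ⟩ := exists_invariant_sylow (zpowers g) T hCT hcopCT
          (Or.inl (solvable_of_isPGroup hp hCp)) q
        exact ⟨Q, hQ, le_inf (hcon q hq Q hQ hxQ) hQ.1⟩
      exact hle.trans inf_le_left
    have hQp : (Nat.card Q).Coprime p := Nat.Coprime.coprime_dvd_left (Subgroup.card_dvd_of_le hQ.1) hTp
    have hQ1 : Q ≠ ⊥ := by
      rintro rfl
      exact hhQ bot_le
    have hqp : q ≠ p := by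
      rintro rfl
      obtain ⟨k, hk⟩ := IsPGroup.iff_card.mp hQ.2.1
      have hk0 : k ≠ 0 := by
        rintro rfl
        rw [pow_zero] at hk
        exact hQ1 (Subgroup.card_eq_one.mp hk)
      rw [hk] at hQp
      exact hp.one_lt.ne' (Nat.Coprime.eq_one_of_dvd hQp.symm (dvd_pow_self _ hk0))
    have hQc : ∀ a ∈ Q, ∀ b ∈ Q, a * b = b * a := P2 q hq.out hqp Q hQ.2.1
    haveI : IsMulCommutative Q := ⟨⟨fun a b => Subtype.ext (hQc a a.2 b b.2)⟩⟩
    have hhp : IsPGroup p (zpowers h) := hCp.to_le hhC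
    have hhQn : zpowers h ≤ 𝓝(Q) := hhC.trans hCQ
    have hcophQ : (Nat.card (zpowers h)).Coprime (Nat.card Q) := (coprime_card_of_pgroup hp hhp hQp).symm
    have hinf := CfsgLib.Coprime2.commutator_inf_centralizer hhQn hcophQ
    set A := ⁅Q, zpowers h⁆ with hA
    have hAQ : A ≤ Q := comm_le_left hhQn
    have hA1 : A ≠ ⊥ := by
      intro h1
      rw [hA, comm_eq_bot_iff] at h1
      apply hhQ
      intro y hy
      rw [Subgroup.mem_centralizer_singleton_iff]
      exact (mem_cz.1 (h1 hy) h (mem_zpowers h)).symm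
    have hgA : ∀ a ∈ A, g * a * g⁻¹ ∈ A := by
      have h1 : zpowers g ≤ 𝓝(zpowers h) := by
        apply le_nz.2
        intro k hk y hy
        have h2 : k * y = y * k := by
          have h3 : y ∈ zpowers g := hhC hy
          obtain ⟨i, rfl⟩ := mem_zpowers_iff.mp hk
          obtain ⟨j, rfl⟩ := mem_zpowers_iff.mp h3
          rw [← zpow_add, ← zpow_add, add_comm]
        rw [h2]; simpa using hy
      have h2 : zpowers g ≤ 𝓝(A) := le_nz_comm hCQ h1
      intro a ha
      exact le_nz.1 h2 g (mem_zpowers g) a ha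
    have hfree : ∀ i, 0 < i → i < p ^ (n + 1) → ∀ a ∈ A, g ^ i * a = a * g ^ i → a = 1 := by
      intro i hi him a ha hcomm
      have hgcd : Nat.gcd i (p ^ (n + 1)) ∣ p ^ (n + 1) := Nat.gcd_dvd_right _ _
      obtain ⟨s, hs1, hs⟩ := (Nat.dvd_prime_pow hp).mp hgcd
      have hsn : s ≤ n := by
        by_contra hcon
        have : s = n + 1 := by omega
        rw [this] at hs
        have h1 : p ^ (n + 1) ∣ i := by rw [← hs]; exact Nat.gcd_dvd_left _ _
        exact absurd (Nat.le_of_dvd hi h1) (not_le.mpr him)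
      have hbez := Nat.gcd_eq_gcd_ab i (p ^ (n + 1))
      rw [hs] at hbez
      have h1 : g ^ (p ^ s) = (g ^ i) ^ (Nat.gcdA i (p ^ (n + 1))) := by
        have h2 : g ^ ((p ^ s : ℕ) : ℤ) = g ^ ((i : ℤ) * Nat.gcdA i (p ^ (n + 1)) +
            ((p ^ (n + 1) : ℕ) : ℤ) * Nat.gcdB i (p ^ (n + 1))) := by rw [hbez]
        rw [zpow_add, zpow_mul, zpow_mul, zpow_natCast, zpow_natCast, zpow_natCast, hgm, one_zpow, mul_one] at h2
        exact h2
      have hc1 : Commute (g ^ i) a := hcomm
      have hc2 : Commute (g ^ (p ^ s)) a := by rw [h1]; exact hc1.zpow_left _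
      have hc3 : Commute h a := by
        have h2 : h = (g ^ (p ^ s)) ^ (p ^ (n - s)) := by
          rw [hh, ← pow_mul, ← pow_add]; congr 2; omega
        rw [h2]; exact hc2.pow_left _
      have h3 : a ∈ A ⊓ Subgroup.centralizer (zpowers h : Set G) := by
        refine ⟨ha, Subgroup.mem_centralizer_iff.mpr ?_⟩
        intro y hy
        obtain ⟨j, rfl⟩ := mem_zpowers_iff.mp hy
        exact (hc3.zpow_left j).eq
      rw [hinf, Subgroup.mem_bot] at h3
      exact h3
    have hnorm : ∀ v : Abelianization R, ∏ i ∈ Finset.range (p ^ (n + 1)), rho R (g ^ i) v = 1 := by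
      intro v
      obtain ⟨r', rfl⟩ := (QuotientGroup.mk'_surjective (_root_.commutator R) v : ∃ r' : R, Abelianization.of r' = v)
      obtain ⟨w, hw1, hw2⟩ := word R g r' (p ^ (n + 1))
      have h1 : ((r' : G) * g) ^ p ^ (n + 1) = 1 := by
        apply P3
        apply hpel
        have h2 : QuotientGroup.mk' R ((r' : G) * g) = QuotientGroup.mk' R g := by
          rw [map_mul]
          have : QuotientGroup.mk' R (r' : G) = 1 := (QuotientGroup.eq_one_iff _).2 r'.2
          rw [this, one_mul]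
        rw [h2]; exact hx
      rw [h1, hgm, mul_one] at hw1
      have h2 : w = 1 := Subtype.ext hw1.symm
      rw [h2, map_one] at hw2
      exact hw2.symm
    have hfn := CfsgLib.HHNorm.frob_norm (rho R) A g (p ^ (n + 1)) (pow_pos hp.pos _) hgA hfree hnorm
    have hAp : (Nat.card A).Coprime p := Nat.Coprime.coprime_dvd_left (Subgroup.card_dvd_of_le hAQ) hQp
    have hcopRA : (Nat.card A).Coprime (Nat.card R) := coprime_card_of_pgroup hp hRp hAp
    -- `A` centralises the abelianisation of `R`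
    have hAR : ⁅R, A⁆ ≤ ⁅R, R⁆ := by
      rw [Subgroup.commutator_le]
      intro r' hr' a ha
      have h1 : ∀ v : Abelianization R, rho R a v = v := by
        intro v
        obtain ⟨r'', rfl⟩ := (QuotientGroup.mk'_surjective (_root_.commutator R) v : ∃ r' : R, Abelianization.of r' = v)
        -- `r'' = y ^ |A|`
        have h2 : ∃ y : R, y ^ Nat.card A = r'' := by
          exact (powCoprime hcopRA.symm).surjective r''
        obtain ⟨y, rfl⟩ := h2
        have h3 := hfn a ha (Abelianization.of y)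
        rw [← map_pow] at h3
        exact h3
      have h2 := h1 (Abelianization.of (⟨r', hr'⟩ : R))
      rw [rho_of] at h2
      have h3 : (⟨a * r' * a⁻¹, Subgroup.Normal.conj_mem inferInstance _ hr' a⟩ : R) * (⟨r', hr'⟩ : R)⁻¹ ∈ _root_.commutator R := by
        rw [← Abelianization.ker_of R, MonoidHom.mem_ker, map_mul, map_inv, h2, mul_inv_cancel]
      have h4 : a * r' * a⁻¹ * r'⁻¹ ∈ ⁅R, R⁆ := by
        rw [← Subgroup.map_subtype_commutator R]
        exact ⟨_, h3, rfl⟩
      have h5 : ⁅r', a⁆ = (a * r' * a⁻¹ * r'⁻¹)⁻¹ := by rw [commutatorElement_def]; group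
      rw [h5]; exact inv_mem h4
    have hAnR : A ≤ 𝓝(R) := by rw [Subgroup.normalizer_eq_top]; exact le_top
    have hRC : R ⊓ 𝓒(A) = R := by
      apply nongen hp R _ hRp inf_le_left
      have h1 := cop_comm_sup hAnR hcopRA hRsolv
      calc R = ⁅R, A⁆ ⊔ (R ⊓ 𝓒(A)) := h1.symm
        _ ≤ ⁅R, R⁆ ⊔ (R ⊓ 𝓒(A)) := sup_le_sup_right hAR _
    have hAC : A ≤ 𝓒(R) := by
      apply le_cz_comm.1
      rw [← hRC]; exact inf_le_right
    have hAR' : A ≤ R := hAC.trans hHH
    apply hA1
    rw [eq_bot_iff, ← hRT]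
    exact le_inf hAR' (hAQ.trans hQ.1)
  have h1 := ih _ (hcard R hR1) (G ⧸ R) rfl n (CfsgLib.PSolv19.psolv_quotient hp P1 R) (hP2q R) hquo
  have h2 : RLen p 1 (⊥ : Subgroup G) R := by
    refine RLen.of_three (K := R) bot_le le_rfl ?_ (by rw [Subgroup.relIndex_self]; exact Nat.coprime_one_left p)
    rw [Subgroup.relIndex_bot_left]
    exact IsPGroup.iff_card.mp hRp
  have h3 := plen_ext hp R h2 h1
  rwa [add_comm] at h3

/-- Let G be a finite p-soluble group in which, for every prime q ≠ p, the Sylow q-subgroups are abelian. If the Sylow p-subgroups of G have exponent dividing p^n, then G has p-length at most n. -/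
theorem result {G : Type*} [Group G] [Finite G] {p : ℕ} [Fact p.Prime] (hG : Cfsg.IsPSolvable p G) (hab : ∀ (q : ℕ) [Fact q.Prime], q ≠ p → ∀ Q : Sylow q G, IsMulCommutative (Q : Subgroup G)) (n : ℕ) (hexp : ∀ (P : Sylow p G), ∀ x ∈ (P : Subgroup G), x ^ p ^ n = 1) : Cfsg.PLengthLE p n G := by
  refine main p _ G rfl n hG ?_ ?_
  · intro q hq hqp Q hQ a ha b hb
    haveI : Fact q.Prime := ⟨hq⟩
    obtain ⟨S, hS⟩ := hQ.exists_le_sylow
    exact congrArg Subtype.val ((hab q hqp S).is_comm.comm ⟨a, hS ha⟩ ⟨b, hS hb⟩)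
  · rintro x ⟨k, hk⟩
    have hzp : IsPGroup p (Subgroup.zpowers x) := by
      rw [isPGroup_iff_pow_pow_eq_one]
      rintro ⟨y, hy⟩
      obtain ⟨i, rfl⟩ := mem_zpowers_iff.mp hy
      refine ⟨k, Subtype.ext ?_⟩
      show (x ^ i) ^ p ^ k = 1
      rw [← zpow_natCast, ← zpow_mul, mul_comm, zpow_mul, zpow_natCast, hk, one_zpow]
    obtain ⟨S, hS⟩ := hzp.exists_le_sylow
    exact hexp S x (hS (mem_zpowers x))

end Cfsg.Agent.S3783
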