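import Cfsg.Statements.S3784
import Cfsg.Agent.EqBase

set_option autoImplicit false
open Cfsg

namespace Cfsg.Agent.S3784

/-- Let p, q be primes and a, b positive integers with p^a = q^b + 1. Then either p = 2, b = 1, a is prime and q = 2^a − 1; or q = 2, a = 1, b is a power of 2 and p = 2^b + 1; or p^a = 9 and q^b = 8. -/
theorem result (p q a b : ℕ) (hp : p.Prime) (hq : q.Prime) (ha : 1 ≤ a) (hb : 1 ≤ b) (h : p ^ a = q ^ b + 1) : (p = 2 ∧ b = 1 ∧ a.Prime ∧ q + 1 = 2 ^ a) ∨ (q = 2 ∧ a = 1 ∧ (∃ m : ℕ, b = 2 ^ m) ∧ p = 2 ^ b + 1) ∨ (p ^ a = 9 ∧ q ^ b = 8) := by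
  have hp2 := hp.two_le
  have hq2 := hq.two_le
  have hqb : 1 < q ^ b := Nat.one_lt_pow (by omega) hq.one_lt
  -- one of p, q is even
  have hpar : p = 2 ∨ q = 2 := by
    rcases hp.eq_two_or_odd' with h1 | h1
    · left; exact h1
    · right
      rcases hq.eq_two_or_odd' with h2 | h2
      · exact h2
      · exfalso
        have h3 : Odd (p ^ a) := h1.pow
        have h4 : Odd (q ^ b) := h2.pow
        rw [h] at h3
        exact (Nat.not_even_iff_odd.2 h3) h4.add_one
  rcases hpar with rfl | rfl
  · -- p = 2
    left
    have hqodd : Odd q := by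
      rcases hq.eq_two_or_odd' with h2 | h2
      · exfalso
        subst h2
        have h3 : Even (2 ^ a) := (even_two).pow_of_ne_zero (by omega)
        have h4 : Even (2 ^ b) := (even_two).pow_of_ne_zero (by omega)
        rw [h] at h3
        exact (Nat.not_odd_iff_even.2 h3) h4.add_one
      · exact h2
    have hbodd : Odd b := by
      by_contra hb'
      rw [Nat.not_odd_iff_even] at hb'
      obtain ⟨c, rfl⟩ := hb'
      obtain ⟨d, hd⟩ := (hqodd.pow : Odd (q ^ c))
      have h5 : q ^ (c + c) = (2 * d + 1) * (2 * d + 1) := by rw [pow_add, hd]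
      rw [h5] at h hqb
      have ha2 : 2 ≤ a := by
        by_contra hlt
        have : a = 1 := by omega
        subst this
        have h6 : (2 * d + 1) * (2 * d + 1) = 1 := by omega
        omega
      obtain ⟨e, rfl⟩ : ∃ e, a = e + 2 := ⟨a - 2, by omega⟩
      have h7 : 2 ^ (e + 2) = 4 * 2 ^ e := by rw [pow_add]; ring
      rw [h7] at h
      have h8 : (2 * d + 1) * (2 * d + 1) = 4 * (d * d + d) + 1 := by ring
      rw [h8] at h
      omega
    have hdvd : q + 1 ∣ q ^ b + 1 := by
      have := hbodd.nat_add_dvd_pow_add_pow q 1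
      simpa using this
    have hb1 : b = 1 := by
      by_contra hb1
      obtain ⟨c, hc⟩ := hbodd
      have hc1 : 1 ≤ c := by omega
      -- q^b + 1 = (q+1) * m with m odd > 1
      obtain ⟨m, hm⟩ := hdvd
      have hmodd : Odd m := by
        -- m = sum
        have hz : ((q : ℤ) ^ b + 1) = (q + 1) * (∑ i ∈ Finset.range b, (-(q : ℤ)) ^ i) := by
          have h9 := mul_neg_geom_sum (-(q : ℤ)) b
          have h10 : (-(q : ℤ)) ^ b = - (q : ℤ) ^ b := by
            rw [hc]; exact Odd.neg_pow ⟨c, rfl⟩ _
          rw [h10] at h9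
          linarith
        have hz2 : (m : ℤ) = ∑ i ∈ Finset.range b, (-(q : ℤ)) ^ i := by
          have h11 : ((q : ℤ) + 1) * m = (q + 1) * (∑ i ∈ Finset.range b, (-(q : ℤ)) ^ i) := by
            rw [← hz]; exact_mod_cast hm.symm
          exact mul_left_cancel₀ (by positivity) h11
        have hz3 : Odd (∑ i ∈ Finset.range b, (-(q : ℤ)) ^ i) := by
          rw [Int.odd_iff, Finset.sum_int_mod]
          have : ∀ i ∈ Finset.range b, (-(q : ℤ)) ^ i % 2 = 1 := by
            intro i _
            rw [← Int.odd_iff]
            exact Odd.pow ((Odd.natCast hqodd).neg)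
          rw [Finset.sum_congr rfl this, Finset.sum_const, Finset.card_range, hc]
          simp
        rw [← hz2] at hz3
        exact_mod_cast hz3
      have hm2 : m ∣ 2 ^ a := by rw [h]; exact ⟨q + 1, by rw [hm]; ring⟩
      obtain ⟨j, _, hj⟩ := (Nat.dvd_prime_pow Nat.prime_two).1 hm2
      have hm1 : m = 1 := by
        rcases j with _ | j
        · simpa using hj
        · exfalso
          rw [hj] at hmodd
          exact (Nat.not_odd_iff_even.2 ((even_two).pow_of_ne_zero (by omega))) hmodd
      rw [hm1, mul_one] at hm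
      have h12 : q ^ b = q ^ 1 := by rw [pow_one]; omega
      have := Nat.pow_right_injective hq2 h12
      exact hb1 this
    subst hb1
    rw [pow_one] at h
    refine ⟨rfl, rfl, ?_, h.symm⟩
    have h13 : q = 2 ^ a - 1 := by omega
    rw [h13] at hq
    exact Nat.prime_of_pow_sub_one_prime (by
      rintro rfl
      simp at h13
      omega) hq |>.2
  · -- q = 2
    right
    have hpodd : Odd p := by
      rcases hp.eq_two_or_odd' with h2 | h2
      · exfalso
        subst h2
        have h3 : Even (2 ^ a) := (even_two).pow_of_ne_zero (by omega)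
        have h4 : Even (2 ^ b) := (even_two).pow_of_ne_zero (by omega)
        rw [h] at h3
        exact (Nat.not_odd_iff_even.2 h3) h4.add_one
      · exact h2
    by_cases ha1 : a = 1
    · subst ha1
      left
      rw [pow_one] at h
      refine ⟨rfl, rfl, ?_, h⟩
      rw [h] at hp
      exact Nat.pow_of_pow_add_prime (by norm_num) (by omega) hp
    · right
      -- p^a - 1 = 2^b
      rcases Nat.even_or_odd a with ⟨c, hc⟩ | haodd
      · subst hc
        have hc1 : 1 ≤ c := by omega
        have h3 : p ^ (c + c) = p ^ c * p ^ c := pow_add _ _ _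
        have hpc : 3 ≤ p ^ c := by
          have : 3 ≤ p := by
            rcases hpodd with ⟨d, hd⟩
            omega
          exact this.trans (Nat.le_self_pow (by omega) p)
        obtain ⟨x, hx⟩ : ∃ x, p ^ c = x + 1 := ⟨p ^ c - 1, by omega⟩
        have h4 : x * (x + 2) = 2 ^ b := by
          rw [h3, hx] at h
          have : (x + 1) * (x + 1) = x * (x + 2) + 1 := by ring
          omega
        obtain ⟨i, _, hi⟩ := (Nat.dvd_prime_pow Nat.prime_two).1 (⟨x + 2, h4.symm⟩ : x ∣ 2 ^ b)
        obtain ⟨j, _, hj⟩ := (Nat.dvd_prime_pow Nat.prime_two).1 (⟨x, by rw [← h4]; ring⟩ : x + 2 ∣ 2 ^ b)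
        -- 2^j = 2^i + 2, so 2^i = 2
        have hx2 : x = 2 := by
          rcases i with _ | _ | i
          · simp at hi; omega
          · simpa using hi
          · exfalso
            rcases j with _ | _ | j
            · simp at hj
            · simp at hj; omega
            · have e1 : 2 ^ (i + 1 + 1) = 4 * 2 ^ i := by ring
              have e2 : 2 ^ (j + 1 + 1) = 4 * 2 ^ j := by ring
              rw [e1] at hi
              rw [e2] at hj
              omega
        rw [hx2] at h4 hx
        constructor
        · rw [h3, hx]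
        · omega
      · exfalso
        -- (p - 1) * m = 2^b with m odd > 1
        have hz2 : Odd (∑ i ∈ Finset.range a, p ^ i) := by
          rw [Nat.odd_iff, Finset.sum_nat_mod]
          have : ∀ i ∈ Finset.range a, p ^ i % 2 = 1 := by
            intro i _
            rw [← Nat.odd_iff]
            exact hpodd.pow
          rw [Finset.sum_congr rfl this, Finset.sum_const, Finset.card_range]
          obtain ⟨c, rfl⟩ := haodd
          simp
        have h3 : (p - 1) * (∑ i ∈ Finset.range a, p ^ i) = 2 ^ b := by
          obtain ⟨x, rfl⟩ : ∃ x, p = x + 1 := ⟨p - 1, by omega⟩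
          have h6 := geom_sum_mul_add x a
          rw [Nat.add_sub_cancel, mul_comm]
          omega
        have hm2 : (∑ i ∈ Finset.range a, p ^ i) ∣ 2 ^ b := ⟨p - 1, by rw [← h3]; ring⟩
        obtain ⟨j, _, hj⟩ := (Nat.dvd_prime_pow Nat.prime_two).1 hm2
        have hm1 : (∑ i ∈ Finset.range a, p ^ i) = 1 := by
          rcases j with _ | j
          · simpa using hj
          · exfalso
            rw [hj] at hz2
            exact (Nat.not_odd_iff_even.2 ((even_two).pow_of_ne_zero (by omega))) hz2
        obtain ⟨c, rfl⟩ : ∃ c, a = c + 2 := ⟨a - 2, by omega⟩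
        rw [Finset.sum_range_succ', Finset.sum_range_succ'] at hm1
        simp at hm1
        omega

end Cfsg.Agent.S3784
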