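import Cfsg.Statements.S3790
import Cfsg.Agent.LibPLen

set_option autoImplicit false
open Cfsg

namespace Cfsg.Agent.S3790

universe u


open Subgroup Cfsg CfsgLib.PLen

theorem rlen_iInf {G : Type u} [Group G] [Finite G] {p k : ℕ} (hp : p.Prime) {ι : Type*} (s : Finset ι)
    (N : ι → Subgroup G) (h : ∀ i ∈ s, RLen p k (N i) ⊤) : RLen p k (s.inf N) (⊤ : Subgroup G) := by
  classical
  induction s using Finset.induction_on with
  | empty => simpa using (RLen.refl (⊤ : Subgroup G)).mono hp (Nat.zero_le k)
  | insert i s hi ih =>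
    rw [Finset.inf_insert]
    have h1 := RLen.inf hp (h i (Finset.mem_insert_self i s)) (ih (fun j hj => h j (Finset.mem_insert_of_mem hj)))
    rwa [inf_top_eq] at h1

theorem main (p : ℕ) [hp : Fact p.Prime] (r : ℕ) (q : Fin r → ℕ) (hq : ∀ i, (q i).Prime ∧ q i ≠ p) :
    ∀ (n : ℕ) (l : Fin r → ℕ), (∑ i, l i) = n → ∀ (G : Type u) [Group G] [Finite G],
    (∀ s : ℕ, s.Prime → s ∣ Nat.card G → s ≠ p → ∃ i, q i = s) →
    (∀ i, PLengthLE (q i) (l i) G) → PLengthLE p (Finset.univ.prod fun i => 1 + l i) G := by
  intro n
  induction n using Nat.strong_induction_on with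
  | _ n ih =>
  intro l hln G _ _ hcover hl
  have hpp := hp.out
  let U : Fin r → Subgroup G := fun i => pPrimePCore (q i) G
  let V : Fin r → Subgroup G := fun i => pPrimeCore (q i) G
  haveI hUn : ∀ i, (U i).Normal := fun i => by
    show (pPrimePCore (q i) G).Normal
    infer_instance
  haveI hVn : ∀ i, (V i).Normal := fun i => by
    show (pPrimeCore (q i) G).Normal
    infer_instance
  have hVU : ∀ i, V i ≤ U i := fun i => CfsgLib.BGPi.core_le_ppc (q i)
  set m := Finset.univ.prod fun i => 1 + l i with hm
  have hm1 : 1 ≤ m := Finset.one_le_prod' (fun i _ => by omega)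
  -- quotients by `U i`
  have hquo : ∀ i, RLen p (m - 1) (U i) (⊤ : Subgroup G) := by
    intro i
    rcases Nat.eq_zero_or_pos (l i) with h0 | h0
    · have h1 := hl i
      rw [h0, plen_zero_iff (hq i).1] at h1
      have h2 : V i = ⊤ := by
        rw [← top_le_iff]
        apply CfsgLib.Cores.le_pPrimeCore inferInstance
        rw [Subgroup.card_top]; exact h1
      have h3 : U i = ⊤ := by
        rw [← top_le_iff, ← h2]; exact hVU i
      rw [h3]
      exact (RLen.refl (⊤ : Subgroup G)).mono hpp (Nat.zero_le _)
    · rw [← plen_quot_iff hpp]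
      let l' : Fin r → ℕ := Function.update l i (l i - 1)
      have hs : (∑ j, l' j) < n := by
        rw [← hln]
        apply Finset.sum_lt_sum
        · intro j _
          by_cases hj : j = i
          · subst hj; simp [l']
          · simp [l', hj]
        · exact ⟨i, Finset.mem_univ _, by simp [l']; omega⟩
      have h1 := ih _ hs l' rfl (G ⧸ U i) (by
        intro s hs1 hs2 hs3
        exact hcover s hs1 (hs2.trans (Subgroup.card_quotient_dvd_card _)) hs3) (by
        intro j
        by_cases hj : j = i
        · subst hj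
          have h2 : l' j = l j - 1 := by simp [l']
          rw [h2]
          apply plen_quot_ppc (hq j).1
          rw [Nat.sub_add_cancel h0]
          exact hl j
        · have h2 : l' j = l j := by simp [l', hj]
          rw [h2]
          exact plen_of_surjective (hq j).1 (QuotientGroup.mk' (U i)) (QuotientGroup.mk'_surjective _) (hl j))
      refine plen_mono hpp ?_ h1
      have h3 : (Finset.univ.prod fun j => 1 + l' j) < m := by
        apply Finset.prod_lt_prod
        · intro j _; omega
        · intro j _
          by_cases hj : j = i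
          · subst hj; simp [l']
          · simp [l', hj]
        · exact ⟨i, Finset.mem_univ _, by simp [l']; omega⟩
      omega
  have hM := rlen_iInf hpp Finset.univ U (fun i _ => hquo i)
  set M := Finset.univ.inf U with hMdef
  set K := Finset.univ.inf V with hKdef
  haveI hMn : M.Normal := hM.normal_left
  have hKmem : ∀ x, x ∈ K ↔ ∀ i, x ∈ V i := by
    intro x
    rw [hKdef, Finset.inf_univ_eq_iInf, Subgroup.mem_iInf]
  have hMmem : ∀ x, x ∈ M ↔ ∀ i, x ∈ U i := by
    intro x
    rw [hMdef, Finset.inf_univ_eq_iInf, Subgroup.mem_iInf]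
  haveI hKn : K.Normal := by
    refine ⟨fun x hx g => ?_⟩
    rw [hKmem] at hx ⊢
    intro i
    exact (hVn i).conj_mem x (hx i) g
  have hKM : K ≤ M := by
    intro x hx
    rw [hKmem] at hx
    rw [hMmem]
    exact fun i => hVU i (hx i)
  have h1 : RLen p 1 (⊥ : Subgroup G) M := by
    refine RLen.of_three (K := K) bot_le hKM ?_ ?_
    · rw [Subgroup.relIndex_bot_left]
      apply IsPGroup.iff_card.mp
      -- no prime other than `p` divides
      have h2 : ∀ s : ℕ, s.Prime → s ∣ Nat.card K → s = p := by
        intro s hs hsd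
        by_contra hne
        obtain ⟨i, hi⟩ := hcover s hs (hsd.trans (Subgroup.card_subgroup_dvd_card K)) hne
        have h3 : K ≤ V i := fun x hx => (hKmem x).mp hx i
        have h4 := CfsgLib.Cores.pPrimeCore_coprime (G := G) (q i)
        have h5 : s ∣ Nat.card (V i) := hsd.trans (Subgroup.card_dvd_of_le h3)
        rw [hi] at h4
        have h6 : V i = pPrimeCore s G := by
          show pPrimeCore (q i) G = _
          rw [hi]
        rw [h6] at h5
        exact (Nat.Prime.coprime_iff_not_dvd hs).mp h4.symm h5
      refine IsPGroup.of_card (n := (Nat.card K).primeFactorsList.length) ?_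
      exact Nat.eq_prime_pow_of_unique_prime_dvd Nat.card_pos.ne' (fun {d} hd hdd => h2 d hd hdd)
    · rw [Nat.coprime_comm, Nat.Prime.coprime_iff_not_dvd hpp]
      intro hdvd
      have h2 : K.relIndex M = Nat.card (M ⧸ K.subgroupOf M) := by
        rw [Subgroup.relIndex, Subgroup.index_eq_card]
      rw [h2] at hdvd
      obtain ⟨y, hy⟩ := exists_prime_orderOf_dvd_card' p hdvd
      obtain ⟨x, rfl⟩ := QuotientGroup.mk'_surjective (K.subgroupOf M) y
      have hxp : (x : G) ^ p ∈ K := by
        have h3 : (QuotientGroup.mk' (K.subgroupOf M)) (x ^ p) = 1 := by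
          rw [map_pow, ← hy, pow_orderOf_eq_one]
        have h4 := (QuotientGroup.eq_one_iff _).mp h3
        exact Subgroup.mem_subgroupOf.mp h4
      have hxK : (x : G) ∈ K := by
        rw [hKmem]
        intro i
        have h3 : (x : G) ∈ U i := (hMmem _).mp x.2 i
        have h4 := CfsgLib.BGPi.isPGroup_ppc_map (G := G) (q i)
        have h5 : (QuotientGroup.mk' (V i)) (x : G) ∈ (U i).map (QuotientGroup.mk' (V i)) := ⟨x, h3, rfl⟩
        obtain ⟨k, hk⟩ := h4 ⟨_, h5⟩
        have h6 : ((QuotientGroup.mk' (V i)) (x : G)) ^ (q i) ^ k = 1 := congrArg Subtype.val hk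
        have h7 : ((QuotientGroup.mk' (V i)) (x : G)) ^ p = 1 := by
          rw [← map_pow]
          exact (QuotientGroup.eq_one_iff _).mpr ((hKmem _).mp hxp i)
        have h8 := orderOf_dvd_of_pow_eq_one h6
        have h9 := orderOf_dvd_of_pow_eq_one h7
        have h10 : Nat.Coprime ((q i) ^ k) p :=
          Nat.Coprime.pow_left k ((Nat.coprime_primes (hq i).1 hpp).mpr (hq i).2)
        have h11 := orderOf_eq_one_iff.mp (Nat.eq_one_of_dvd_coprimes h10 h8 h9)
        exact (QuotientGroup.eq_one_iff _).mp h11
      have h3 : (QuotientGroup.mk' (K.subgroupOf M)) x = 1 :=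
        (QuotientGroup.eq_one_iff _).mpr (Subgroup.mem_subgroupOf.mpr hxK)
      rw [h3, orderOf_one] at hy
      exact hpp.one_lt.ne hy
  have h2 := h1.trans hpp hM
  rw [plen_iff hpp]
  have h3 : 1 + (m - 1) = m := by omega
  rwa [h3] at h2

/-- Let G be a finite solvable group and p a prime. Suppose p₁, …, p_r are distinct primes, all different from p, that include every prime dividing the order of G other than p, and that G has p_i-length at most l_i for each i. Then G has p-length at most the product of the numbers 1 + l_i. -/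
theorem result {G : Type*} [Group G] [Finite G] (hG : Group.IsSolvable G) (p : ℕ) [Fact p.Prime] (r : ℕ) (q : Fin r → ℕ) (hq : ∀ i, (q i).Prime ∧ q i ≠ p) (hinj : Function.Injective q) (hcover : ∀ s : ℕ, s.Prime → s ∣ Nat.card G → s ≠ p → ∃ i, q i = s) (l : Fin r → ℕ) (hl : ∀ i, Cfsg.PLengthLE (q i) (l i) G) : Cfsg.PLengthLE p (Finset.univ.prod fun i => 1 + l i) G := by
  exact main p r q hq _ l rfl G hcover hl

end Cfsg.Agent.S3790
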