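import Cfsg.Statements.S3791
import Cfsg.Agent.LibPLen
import Cfsg.Agent.LibSolvMin

set_option autoImplicit false
open Cfsg

namespace Cfsg.Agent.S3791

universe u


open Subgroup Cfsg CfsgLib.PLen

theorem der_of_quot {G : Type u} [Group G] (N : Subgroup G) [N.Normal] {n m : ℕ}
    (h1 : derivedSeries (G ⧸ N) n = ⊥) (h2 : derivedSeries ↥N m = ⊥) : derivedSeries G (n + m) = ⊥ := by
  have h3 : derivedSeries G n ≤ N := by
    have h4 := map_derivedSeries_le_derivedSeries (QuotientGroup.mk' N) n
    rw [h1, le_bot_iff, Subgroup.map_eq_bot_iff, QuotientGroup.ker_mk'] at h4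
    exact h4
  have h5 : ∀ k, derivedSeries G (n + k) ≤ (derivedSeries ↥N k).map N.subtype := by
    intro k
    induction k with
    | zero =>
      rw [derivedSeries_zero, ← MonoidHom.range_eq_map, Subgroup.range_subtype]
      exact h3
    | succ k ih =>
      rw [← add_assoc, derivedSeries_succ, derivedSeries_succ, Subgroup.map_commutator]
      exact Subgroup.commutator_mono ih ih
  have h6 := h5 m
  rw [h2, Subgroup.map_bot] at h6
  exact le_bot_iff.mp h6

theorem main (r : ℕ) (q : Fin r → ℕ) (hq : ∀ i, (q i).Prime) (d : Fin r → ℕ) :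
    ∀ (n : ℕ) (G : Type u) [Group G] [Finite G], Nat.card G = n → Group.IsSolvable G → ∀ (l : Fin r → ℕ),
    (∀ s : ℕ, s.Prime → s ∣ Nat.card G → ∃ i, q i = s) →
    (∀ i, ∀ P : Subgroup G, IsPGroup (q i) P → derivedSeries ↥P (d i) = ⊥) →
    (∀ i, PLengthLE (q i) (l i) G) → derivedSeries G (Finset.univ.sum fun i => d i * l i) = ⊥ := by
  intro n
  induction n using Nat.strong_induction_on with
  | _ n ih =>
  intro G _ _ hn hG l hcover hd hl
  by_cases hnt : Nontrivial G
  swap
  · rw [not_nontrivial_iff_subsingleton] at hnt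
    exact Subsingleton.elim _ _
  -- quotients inherit the Sylow condition
  have hdq : ∀ (N : Subgroup G) [N.Normal], ∀ i, ∀ P : Subgroup (G ⧸ N), IsPGroup (q i) P →
      derivedSeries ↥P (d i) = ⊥ := by
    intro N _ i P hP
    haveI : Fact (q i).Prime := ⟨hq i⟩
    obtain ⟨Q, hQ⟩ := hP.exists_le_sylow
    obtain ⟨S, hS⟩ := Sylow.mapSurjective_surjective (QuotientGroup.mk'_surjective N) (q i) Q
    have h1 := hd i S S.isPGroup'
    have h2 : P ≤ (S : Subgroup G).map (QuotientGroup.mk' N) := by
      rw [← Sylow.coe_mapSurjective (QuotientGroup.mk'_surjective N), hS]; exact hQ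
    -- map the derived series
    have h3 : derivedSeries ↥((S : Subgroup G).map (QuotientGroup.mk' N)) (d i) = ⊥ := by
      have h4 := map_derivedSeries_eq (f := (QuotientGroup.mk' N).subgroupMap (S : Subgroup G))
        ((QuotientGroup.mk' N).subgroupMap_surjective _) (d i)
      rw [← h4, h1, Subgroup.map_bot]
    have h5 := map_derivedSeries_le_derivedSeries (Subgroup.inclusion h2) (d i)
    rw [h3, le_bot_iff, Subgroup.map_eq_bot_iff_of_injective _ (Subgroup.inclusion_injective h2)] at h5
    exact h5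
  have hlq : ∀ (N : Subgroup G) [N.Normal], ∀ i, PLengthLE (q i) (l i) (G ⧸ N) := by
    intro N _ i
    exact plen_of_surjective (hq i) (QuotientGroup.mk' N) (QuotientGroup.mk'_surjective _) (hl i)
  have hcq : ∀ (N : Subgroup G) [N.Normal], ∀ s : ℕ, s.Prime → s ∣ Nat.card (G ⧸ N) → ∃ i, q i = s := by
    intro N _ s hs hsd
    exact hcover s hs (hsd.trans (Subgroup.card_quotient_dvd_card _))
  have hcard : ∀ (N : Subgroup G) [N.Normal], N ≠ ⊥ → Nat.card (G ⧸ N) < n := by
    intro N _ hN
    have h6 := Subgroup.card_eq_card_quotient_mul_card_subgroup N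
    have h7 : 1 < Nat.card N := Subgroup.one_lt_card_iff_ne_bot N |>.mpr hN
    have h8 : 0 < Nat.card (G ⧸ N) := Nat.card_pos
    rw [← hn, h6]
    nlinarith
  have hsq : ∀ (N : Subgroup G) [N.Normal], Group.IsSolvable (G ⧸ N) := by
    intro N _
    exact Group.isSolvable_of_surjective (QuotientGroup.mk'_surjective N)
  -- the main dichotomy
  have hsub : ∀ N₁ N₂ : Subgroup G, N₁.Normal → N₂.Normal → N₁ ≠ ⊥ → N₂ ≠ ⊥ → N₁ ⊓ N₂ = ⊥ →
      derivedSeries G (Finset.univ.sum fun i => d i * l i) = ⊥ := by
    intro N₁ N₂ hN₁ hN₂ h1 h2 h3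
    have e1 := ih _ (hcard N₁ h1) (G ⧸ N₁) rfl (hsq N₁) l (hcq N₁) (hdq N₁) (hlq N₁)
    have e2 := ih _ (hcard N₂ h2) (G ⧸ N₂) rfl (hsq N₂) l (hcq N₂) (hdq N₂) (hlq N₂)
    have f1 := map_derivedSeries_le_derivedSeries (QuotientGroup.mk' N₁) (Finset.univ.sum fun i => d i * l i)
    rw [e1, le_bot_iff, Subgroup.map_eq_bot_iff, QuotientGroup.ker_mk'] at f1
    have f2 := map_derivedSeries_le_derivedSeries (QuotientGroup.mk' N₂) (Finset.univ.sum fun i => d i * l i)
    rw [e2, le_bot_iff, Subgroup.map_eq_bot_iff, QuotientGroup.ker_mk'] at f2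
    rw [← le_bot_iff, ← h3]
    exact le_inf f1 f2
  obtain ⟨M, p, hp, hM, -, -, -, hMp⟩ := CfsgLib.SolvMin.exists_minNormal_pgroup_of_solvable (G := G) ⊤ top_ne_bot
  haveI := hM.1
  have hM1 := hM.2.1
  haveI : Fact p.Prime := ⟨hp⟩
  by_cases hO : pPrimeCore p G = ⊥
  · have hpG : p ∣ Nat.card G := by
      obtain ⟨k, hk⟩ := IsPGroup.iff_card.mp hMp
      have hk0 : k ≠ 0 := by
        rintro rfl
        rw [pow_zero] at hk
        exact hM1 (Subgroup.card_eq_one.mp hk)
      exact (dvd_pow_self p hk0).trans (hk ▸ Subgroup.card_subgroup_dvd_card M)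
    obtain ⟨i, hi⟩ := hcover p hp hpG
    subst hi
    have hli : 1 ≤ l i := by
      rcases Nat.eq_zero_or_pos (l i) with h0 | h0
      · exfalso
        have h1 := hl i
        rw [h0, plen_zero_iff (hq i)] at h1
        exact (Nat.Prime.coprime_iff_not_dvd (hq i)).mp h1.symm hpG
      · exact h0
    -- the upper series
    set R := pPrimePCore (q i) G with hR
    haveI : R.Normal := by rw [hR]; infer_instance
    have hRp : IsPGroup (q i) R := by
      have h1 : R.relIndex R = 1 := Subgroup.relIndex_self R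
      have h2 := (series_step (G := G) (hq i) 1).2.2 (by decide)
      rw [CfsgLib.BGPi.upperPSeries_one, hO] at h2
      have h3 : (upperPSeries (q i) G (1 + 1)).1 = R := CfsgLib.BGPi.upperPSeries_two (q i)
      rw [h3, Subgroup.relIndex_bot_left] at h2
      exact IsPGroup.iff_card.mpr h2
    have hMR : M ≤ R := by
      apply CfsgLib.BGPi.le_ppc_of_sup hMp
      rw [hO, bot_sup_eq]
      infer_instance
    have hR1 : R ≠ ⊥ := by
      rintro h
      rw [h, le_bot_iff] at hMR
      exact hM1 hMR
    let l' : Fin r → ℕ := Function.update l i (l i - 1)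
    have e1 := ih _ (hcard R hR1) (G ⧸ R) rfl (hsq R) l' (hcq R) (hdq R) (by
      intro j
      by_cases hj : j = i
      · subst hj
        have h2 : l' j = l j - 1 := by simp [l']
        rw [h2]
        apply plen_quot_ppc (hq j)
        rw [Nat.sub_add_cancel hli]
        exact hl j
      · have h2 : l' j = l j := by simp [l', hj]
        rw [h2]
        exact hlq R j)
    have e2 := der_of_quot R e1 (hd i R hRp)
    have e3 : (Finset.univ.sum fun j => d j * l' j) + d i = Finset.univ.sum fun j => d j * l j := by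
      rw [← Finset.add_sum_erase Finset.univ (fun j => d j * l' j) (Finset.mem_univ i),
        ← Finset.add_sum_erase Finset.univ (fun j => d j * l j) (Finset.mem_univ i)]
      have e4 : ∀ j ∈ Finset.univ.erase i, d j * l' j = d j * l j := by
        intro j hj
        have : j ≠ i := Finset.ne_of_mem_erase hj
        simp [l', this]
      rw [Finset.sum_congr rfl e4]
      have e5 : d i * l' i + d i = d i * l i := by
        have : l' i = l i - 1 := by simp [l']
        rw [this, ← Nat.mul_succ, Nat.succ_eq_add_one, Nat.sub_add_cancel hli]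
      omega
    rwa [e3] at e2
  · apply hsub M (pPrimeCore p G) hM.1 inferInstance hM1 hO
    rw [← Subgroup.card_eq_one]
    have h1 := CfsgLib.Cores.pPrimeCore_coprime (G := G) p
    obtain ⟨k, hk⟩ := IsPGroup.iff_card.mp hMp
    have h2 : Nat.card (M ⊓ pPrimeCore p G : Subgroup G) ∣ p ^ k := by
      rw [← hk]; exact Subgroup.card_dvd_of_le inf_le_left
    have h3 : Nat.card (M ⊓ pPrimeCore p G : Subgroup G) ∣ Nat.card (pPrimeCore p G) :=
      Subgroup.card_dvd_of_le inf_le_right
    exact Nat.eq_one_of_dvd_coprimes (Nat.Coprime.pow_left k h1.symm) h2 h3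

/-- The Hall–Higman bound on derived length: let G be a finite solvable group, let p₁, …, p_r be distinct primes that include every prime dividing the order of G, and suppose that for each i the Sylow p_i-subgroups of G have derived length at most d_i and G has p_i-length at most l_i. Then G has derived length at most Σ d_i l_i. -/
theorem result {G : Type*} [Group G] [Finite G] (hG : Group.IsSolvable G) (r : ℕ) (q : Fin r → ℕ) (hq : ∀ i, (q i).Prime) (hinj : Function.Injective q) (hcover : ∀ s : ℕ, s.Prime → s ∣ Nat.card G → ∃ i, q i = s) (d l : Fin r → ℕ) (hd : ∀ i, ∀ P : Subgroup G, (haveI := Fact.mk (hq i); ∃ S : Sylow (q i) G, (S : Subgroup G) = P) → derivedSeries ↥P (d i) = ⊥) (hl : ∀ i, Cfsg.PLengthLE (q i) (l i) G) : derivedSeries G (Finset.univ.sum fun i => d i * l i) = ⊥ := by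
  refine main r q hq d _ G rfl hG l hcover ?_ hl
  intro i P hP
  haveI : Fact (q i).Prime := ⟨hq i⟩
  obtain ⟨S, hS⟩ := hP.exists_le_sylow
  have h1 := hd i S ⟨S, rfl⟩
  have h5 := map_derivedSeries_le_derivedSeries (Subgroup.inclusion hS) (d i)
  rw [h1, le_bot_iff, Subgroup.map_eq_bot_iff_of_injective _ (Subgroup.inclusion_injective hS)] at h5
  exact h5

end Cfsg.Agent.S3791
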