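import Cfsg.Statements.S3794
import Cfsg.Agent.LibFrame2
import Cfsg.Agent.LibFour3

set_option autoImplicit false
set_option linter.style.haveILetI false
open Cfsg

namespace Cfsg.Agent.S3794

open CfsgLib.SolvBasic CfsgLib.Fpf CfsgLib.Ward CfsgLib.Frame CfsgLib.Frame2 CfsgLib.Four3

universe u

theorem nil_of_inj {H K : Type*} [Group H] [Group K] (f : H →* K) (hf : Function.Injective f) [Group.IsNilpotent K] :
    Group.IsNilpotent H := by
  apply Subgroup.isNilpotent_of_ker_le_center f
  rw [(MonoidHom.ker_eq_bot_iff f).2 hf]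
  exact bot_le

theorem frame (n : ℕ) : ∀ (X : Type u) [Group X] [Finite X] (G : Subgroup X) (s : X) [G.Normal],
    Group.IsSolvable G → Nat.card G = n → G ⊔ Subgroup.zpowers s = ⊤ → s ^ 4 = 1 →
    G ⊓ Subgroup.centralizer ((Subgroup.zpowers s : Subgroup X) : Set X) = ⊥ →
    Group.IsNilpotent (⁅G, G⁆ : Subgroup X) := by
  induction n using Nat.strong_induction_on with
  | _ n ih =>
  intro X _ _ G s _ hGs hn htop hs4 hfix
  by_cases hne : G = ⊥
  · subst hne
    rw [Subgroup.commutator_bot_left]
    infer_instance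
  have hAp : IsPGroup 2 (Subgroup.zpowers s) := by
    have h1 : orderOf s ∣ 2 ^ 2 := orderOf_dvd_of_pow_eq_one hs4
    obtain ⟨k, _, hk⟩ := (Nat.dvd_prime_pow Nat.prime_two).1 h1
    exact IsPGroup.of_card (by rw [Nat.card_zpowers]; exact hk)
  obtain ⟨V, hVn, hVG, hVne, hAV, hfixV, r, hr, X', i1, i2, V', ψ, hC, hker, hAker⟩ :=
    frame_step G (Subgroup.zpowers s) hGs hne htop Nat.prime_two hAp hfix
  -- the quotient by V
  have hk1 : Group.IsNilpotent (⁅G.map (QuotientGroup.mk' V), G.map (QuotientGroup.mk' V)⁆ : Subgroup (X ⧸ V)) := by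
    have hlt : Nat.card (G.map (QuotientGroup.mk' V)) < n := by
      have h1 := card_map_mk'_mul_card_of_le V G hVG
      have h2 := one_lt_card_of_ne_bot hVne
      have h3 : 0 < Nat.card (G.map (QuotientGroup.mk' V)) := Nat.card_pos
      rw [← hn, ← h1]
      nlinarith
    haveI : (G.map (QuotientGroup.mk' V)).Normal := Subgroup.Normal.map inferInstance _ (QuotientGroup.mk'_surjective V)
    rw [MonoidHom.map_zpowers] at hfixV
    refine ih _ hlt (X ⧸ V) (G.map (QuotientGroup.mk' V)) (QuotientGroup.mk' V s) (isSolvable_map _ G) rfl ?_ ?_ hfixV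
    · rw [← MonoidHom.map_zpowers, ← Subgroup.map_sup, htop, Subgroup.map_top_of_surjective _ (QuotientGroup.mk'_surjective V)]
    · rw [← map_pow, hs4, map_one]
  -- the configuration
  rw [MonoidHom.map_zpowers] at hC
  have hHab := four_conf hC hr (by rw [← map_pow, hs4, map_one])
  have hle : ⁅G, G⁆ ≤ ψ.ker := by
    rw [Subgroup.commutator_le]
    intro x hx y hy
    rw [MonoidHom.mem_ker, map_commutatorElement, commutatorElement_eq_one_iff_mul_comm]
    exact hHab _ ⟨x, hx, rfl⟩ _ ⟨y, hy, rfl⟩
  refine nilpotent_of_map (V := V) ?_ ?_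
  · rw [Subgroup.le_centralizer_iff]
    exact hle.trans hker
  · rw [Subgroup.map_commutator]
    exact hk1

/-- Let G be a finite solvable group with an automorphism σ satisfying σ⁴ = 1 and fixing only the identity. Then the derived subgroup G' is nilpotent. -/
theorem result {G : Type*} [Group G] [Finite G] (hG : Group.IsSolvable G) (σ : MulAut G) (hσ : σ ^ 4 = 1) (hfpf : ∀ g : G, σ g = g → g = 1) : Group.IsNilpotent (commutator G) := by
  let A : Subgroup (MulAut G) := Subgroup.zpowers σ
  have hinl : Function.Injective (SemidirectProduct.inl : G →* G ⋊[A.subtype] A) := SemidirectProduct.inl_injective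
  haveI : Finite (G ⋊[A.subtype] A) := Finite.of_equiv _ (SemidirectProduct.equivProd).symm
  have hnorm : (SemidirectProduct.inl : G →* G ⋊[A.subtype] A).range.Normal := by
    rw [SemidirectProduct.range_inl_eq_ker_rightHom]; infer_instance
  have hs : Subgroup.zpowers (SemidirectProduct.inr (⟨σ, Subgroup.mem_zpowers σ⟩ : A) : G ⋊[A.subtype] A) =
      (SemidirectProduct.inr : A →* G ⋊[A.subtype] A).range := by
    apply le_antisymm
    · rw [Subgroup.zpowers_le]; exact ⟨_, rfl⟩
    · rintro _ ⟨⟨a, ha⟩, rfl⟩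
      obtain ⟨k, rfl⟩ := Subgroup.mem_zpowers_iff.1 ha
      refine ⟨k, ?_⟩
      change (SemidirectProduct.inr (⟨σ, Subgroup.mem_zpowers σ⟩ : A) : G ⋊[A.subtype] A) ^ k = _
      rw [← map_zpow]
      congr 1
  have key := frame _ (G ⋊[A.subtype] A) (SemidirectProduct.inl : G →* G ⋊[A.subtype] A).range
      (SemidirectProduct.inr (⟨σ, Subgroup.mem_zpowers σ⟩ : A)) 
      (by
        rw [MonoidHom.range_eq_map]
        haveI : Group.IsSolvable (⊤ : Subgroup G) := inferInstance
        exact isSolvable_map _ _) rfl 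
      (by
        rw [hs, eq_top_iff]
        intro y _
        rw [← SemidirectProduct.inl_left_mul_inr_right y]
        exact mul_mem (Subgroup.mem_sup_left ⟨_, rfl⟩) (Subgroup.mem_sup_right ⟨_, rfl⟩))
      (by
        rw [← map_pow]
        have : (⟨σ, Subgroup.mem_zpowers σ⟩ : A) ^ 4 = 1 := Subtype.ext hσ
        rw [this, map_one])
      (by
        rw [eq_bot_iff]
        rintro _ ⟨⟨g, rfl⟩, hg⟩
        rw [Subgroup.mem_bot]
        have : g = 1 := by
          apply hfpf
          have h2 := Subgroup.mem_centralizer_iff.1 hg (SemidirectProduct.inr ⟨σ, Subgroup.mem_zpowers σ⟩) (Subgroup.mem_zpowers _)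
          have h3 := SemidirectProduct.inl_aut (φ := A.subtype) ⟨σ, Subgroup.mem_zpowers σ⟩ g
          rw [h2, map_inv, mul_inv_cancel_right] at h3
          exact SemidirectProduct.inl_injective h3
        rw [this, map_one])
  rw [MonoidHom.range_eq_map, ← Subgroup.map_commutator, ← commutator_def] at key
  haveI := key
  exact nil_of_inj
    (Subgroup.equivMapOfInjective (commutator G) SemidirectProduct.inl hinl).toMonoidHom
    (MulEquiv.injective _)

end Cfsg.Agent.S3794
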