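import Cfsg.Statements.S3796
import Cfsg.Agent.LibFrame2
import Cfsg.Agent.LibWard3

set_option autoImplicit false
set_option linter.style.haveILetI false
open Cfsg

namespace Cfsg.Agent.S3796

open CfsgLib.SolvBasic CfsgLib.Fpf CfsgLib.Ward CfsgLib.Frame CfsgLib.Frame2 CfsgLib.Ward3

universe u

theorem nil_of_inj {H K : Type*} [Group H] [Group K] (f : H →* K) (hf : Function.Injective f) [Group.IsNilpotent K] :
    Group.IsNilpotent H := by
  apply Subgroup.isNilpotent_of_ker_le_center f
  rw [(MonoidHom.ker_eq_bot_iff f).2 hf]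
  exact bot_le

theorem frame (p : ℕ) (hp : p.Prime) (n : ℕ) : ∀ (X : Type u) [Group X] [Finite X] (G A : Subgroup X) [G.Normal],
    Group.IsSolvable G → Nat.card G = n → G ⊔ A = ⊤ → Nat.card A = p ^ 2 → (∀ a ∈ A, a ^ p = 1) →
    (∀ a ∈ A, ∀ b ∈ A, a * b = b * a) → G ⊓ Subgroup.centralizer (A : Set X) = ⊥ →
    ∃ k, Group.IsNilpotent (G.lowerCentralSeries k) := by
  induction n using Nat.strong_induction_on with
  | _ n ih =>
  intro X _ _ G A _ hGs hn htop hA hexp hAc hfix
  haveI : Fact p.Prime := ⟨hp⟩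
  by_cases hne : G = ⊥
  · refine ⟨0, ?_⟩
    subst hne
    rw [Subgroup.lowerCentralSeries_zero]
    infer_instance
  have hAp : IsPGroup p A := IsPGroup.of_card hA
  obtain ⟨V, hVn, hVG, hVne, hAV, hfixV, r, hr, X', i1, i2, V', ψ, hC, hker, hAker⟩ :=
    frame_step G A hGs hne htop hp hAp hfix
  -- the quotient by V
  obtain ⟨k1, hk1⟩ : ∃ k, Group.IsNilpotent ((G.map (QuotientGroup.mk' V)).lowerCentralSeries k) := by
    have hlt : Nat.card (G.map (QuotientGroup.mk' V)) < n := by
      have h1 := card_map_mk'_mul_card_of_le V G hVG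
      have h2 := one_lt_card_of_ne_bot hVne
      have h3 : 0 < Nat.card (G.map (QuotientGroup.mk' V)) := Nat.card_pos
      rw [← hn, ← h1]
      nlinarith
    haveI : (G.map (QuotientGroup.mk' V)).Normal := Subgroup.Normal.map inferInstance _ (QuotientGroup.mk'_surjective V)
    refine ih _ hlt (X ⧸ V) (G.map (QuotientGroup.mk' V)) (A.map (QuotientGroup.mk' V)) (isSolvable_map _ G) rfl ?_ ?_ ?_ ?_ hfixV
    · rw [← Subgroup.map_sup, htop, Subgroup.map_top_of_surjective _ (QuotientGroup.mk'_surjective V)]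
    · rw [card_map_mk'_of_disjoint V A hAV, hA]
    · rintro _ ⟨a, ha, rfl⟩
      rw [← map_pow, hexp a ha, map_one]
    · rintro _ ⟨a, ha, rfl⟩ _ ⟨b, hb, rfl⟩
      rw [← map_mul, ← map_mul, hAc a ha b hb]
  -- the configuration
  have hHn : Group.IsNilpotent (G.map ψ) := by
    refine ward_conf hC hr (p := p) ?_ ?_ ?_
    · rw [card_map_of_disjoint ψ A hAker, hA]
    · rintro _ ⟨a, ha, rfl⟩
      rw [← map_pow, hexp a ha, map_one]
    · rintro _ ⟨a, ha, rfl⟩ _ ⟨b, hb, rfl⟩
      rw [← map_mul, ← map_mul, hAc a ha b hb]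
  obtain ⟨k2, hk2⟩ := (Subgroup.isNilpotent_iff_lowerCentralSeries _).1 hHn
  rw [← Subgroup.map_lowerCentralSeries, Subgroup.map_eq_bot_iff] at hk2
  refine ⟨max k1 k2, ?_⟩
  refine nilpotent_of_map (V := V) ?_ ?_
  · rw [Subgroup.le_centralizer_iff]
    exact ((Subgroup.lowerCentralSeries_antitone _ (le_max_right k1 k2)).trans hk2).trans hker
  · rw [Subgroup.map_lowerCentralSeries]
    haveI := hk1
    exact nil_of_inj (Subgroup.inclusion (Subgroup.lowerCentralSeries_antitone _ (le_max_left k1 k2)))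
      (Subgroup.inclusion_injective _)

/-- Ward's Theorem: let G be a finite solvable group and A an elementary abelian group of automorphisms of G of order p² (p a prime) with no non-identity common fixed point. Then G has Fitting height at most 2: G has Fitting height at most m when there is a chain of normal subgroups 1 = F₀ ≤ F₁ ≤ ⋯ ≤ F_m = G with each F_{i+1}/F_i nilpotent. -/
theorem result {G : Type*} [Group G] [Finite G] (hG : Group.IsSolvable G) {p : ℕ} (hp : p.Prime) (A : Subgroup (MulAut G)) (hA : Cfsg.IsElementaryAbelian p A) (hcard : Nat.card A = p ^ 2) (hfpf : ∀ g : G, (∀ a ∈ A, a g = g) → g = 1) : ∃ F : Fin (2 + 1) → Subgroup G, F 0 = ⊥ ∧ F (Fin.last 2) = ⊤ ∧ Monotone F ∧ (∀ i, (F i).Normal) ∧ ∀ i : Fin 2, ∃ k : ℕ, (F i.succ).lowerCentralSeries k ≤ F i.castSucc := by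
  have hinl : Function.Injective (SemidirectProduct.inl : G →* G ⋊[A.subtype] A) := SemidirectProduct.inl_injective
  haveI : Finite (G ⋊[A.subtype] A) := Finite.of_equiv _ (SemidirectProduct.equivProd).symm
  obtain ⟨k, hk⟩ : ∃ k, Group.IsNilpotent (Subgroup.lowerCentralSeries (⊤ : Subgroup G) k) := by
    haveI : (SemidirectProduct.inl : G →* G ⋊[A.subtype] A).range.Normal := by
      rw [SemidirectProduct.range_inl_eq_ker_rightHom]; infer_instance
    obtain ⟨k, hk⟩ := frame p hp _ (G ⋊[A.subtype] A) (SemidirectProduct.inl : G →* G ⋊[A.subtype] A).range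
      (SemidirectProduct.inr : A →* G ⋊[A.subtype] A).range 
      (by
        rw [MonoidHom.range_eq_map]
        haveI : Group.IsSolvable (⊤ : Subgroup G) := inferInstance
        exact isSolvable_map _ _) rfl 
      (by
        rw [eq_top_iff]
        intro y _
        rw [← SemidirectProduct.inl_left_mul_inr_right y]
        exact mul_mem (Subgroup.mem_sup_left ⟨_, rfl⟩) (Subgroup.mem_sup_right ⟨_, rfl⟩))
      (by
        rw [← hcard]
        exact Nat.card_congr (MonoidHom.ofInjective SemidirectProduct.inr_injective).toEquiv.symm)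
      (by
        rintro _ ⟨a, rfl⟩
        rw [← map_pow]
        have : a ^ p = 1 := Subtype.ext (hA.2 a a.2)
        rw [this, map_one])
      (by
        rintro _ ⟨a, rfl⟩ _ ⟨b, rfl⟩
        have : a * b = b * a := hA.1.is_comm.comm a b
        rw [← map_mul, this, map_mul])
      (by
        rw [eq_bot_iff]
        rintro _ ⟨⟨g, rfl⟩, hg⟩
        rw [Subgroup.mem_bot]
        have : g = 1 := by
          apply hfpf
          intro a ha
          have h2 := Subgroup.mem_centralizer_iff.1 hg (SemidirectProduct.inr ⟨a, ha⟩) ⟨_, rfl⟩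
          have h3 := SemidirectProduct.inl_aut (φ := A.subtype) ⟨a, ha⟩ g
          rw [h2, map_inv, mul_inv_cancel_right] at h3
          exact SemidirectProduct.inl_injective h3
        rw [this, map_one])
    refine ⟨k, ?_⟩
    rw [MonoidHom.range_eq_map, ← Subgroup.map_lowerCentralSeries] at hk
    haveI := hk
    exact nil_of_inj
      (Subgroup.equivMapOfInjective (Subgroup.lowerCentralSeries (⊤ : Subgroup G) k) SemidirectProduct.inl hinl).toMonoidHom
      (MulEquiv.injective _)
  obtain ⟨m, hm⟩ := (Subgroup.isNilpotent_iff_lowerCentralSeries _).1 hk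
  refine ⟨![⊥, Subgroup.lowerCentralSeries (⊤ : Subgroup G) k, ⊤], rfl, rfl, ?_, ?_, ?_⟩
  · intro i j hij
    fin_cases i <;> fin_cases j <;> simp_all
  · intro i
    fin_cases i
    · exact inferInstanceAs (⊥ : Subgroup G).Normal
    · exact inferInstanceAs (Subgroup.lowerCentralSeries (⊤ : Subgroup G) k).Normal
    · exact inferInstanceAs (⊤ : Subgroup G).Normal
  · intro i
    fin_cases i
    · exact ⟨m, hm.le⟩
    · exact ⟨k, le_rfl⟩

end Cfsg.Agent.S3796
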