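import Cfsg.Statements.S3797
import Cfsg.Agent.LibPLen
import Cfsg.Agent.LibHHNorm
import Cfsg.Agent.LibFpf
import Cfsg.Agent.LibCoprime2
import Cfsg.Agent.LibSolvFrat
import Cfsg.Agent.LibOneInv2

set_option autoImplicit false
open Cfsg

namespace Cfsg.Agent.S3797



open Subgroup Cfsg CfsgLib.BGPi CfsgLib.PLen CfsgLib.SolvCoprime
open scoped commutatorElement Pointwise

theorem homocyclic {S : Type*} [CommGroup S] [Finite S] (hS : IsPGroup 2 S)
    (htr : ∀ x y : S, x ≠ 1 → x ^ 2 = 1 → y ≠ 1 → y ^ 2 = 1 → ∃ a : MulAut S, a x = y) :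
    ∃ m r : ℕ, Nonempty (S ≃* (Fin r → Multiplicative (ZMod (2 ^ m)))) := by
  classical
  obtain ⟨ι, hι, n, hn, ⟨e⟩⟩ := CommGroup.equiv_prod_multiplicative_zmod_of_finite S
  -- exponents
  obtain ⟨N, hN⟩ := IsPGroup.iff_card.mp hS
  have hne : ∀ i, n i ≠ 0 := fun i => by have := hn i; omega
  haveI : ∀ i, NeZero (n i) := fun i => ⟨hne i⟩
  have h1 : ∀ i, ∃ k, n i = 2 ^ (k + 1) := by
    intro i
    have h2 : n i ∣ Nat.card S := by
      rw [Nat.card_congr e.toEquiv, Nat.card_pi]
      have h3 : Nat.card (Multiplicative (ZMod (n i))) = n i := by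
        rw [Nat.card_congr Multiplicative.toAdd]; exact Nat.card_zmod _
      have h4 := Finset.dvd_prod_of_mem (fun i => Nat.card (Multiplicative (ZMod (n i)))) (Finset.mem_univ i)
      rw [h3] at h4
      exact h4
    rw [hN] at h2
    obtain ⟨k, _, hk⟩ := (Nat.dvd_prime_pow Nat.prime_two).1 h2
    rcases Nat.eq_zero_or_pos k with h3 | h3
    · exfalso
      have := hn i
      rw [hk, h3, pow_zero] at this
      omega
    · exact ⟨k - 1, by rw [hk]; congr 1; omega⟩
  choose k hk using h1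
  -- the involutions
  let v : ∀ i, Multiplicative (ZMod (n i)) := fun i => Multiplicative.ofAdd ((2 ^ k i : ℕ) : ZMod (n i))
  have hv1 : ∀ i, v i ≠ 1 := by
    intro i h
    have h2 : ((2 ^ k i : ℕ) : ZMod (n i)) = 0 := h
    rw [ZMod.natCast_eq_zero_iff, hk i] at h2
    have := Nat.le_of_dvd (by positivity) h2
    have h3 : 2 ^ k i < 2 ^ (k i + 1) := Nat.pow_lt_pow_right (by norm_num) (by omega)
    omega
  have hv2 : ∀ i, (v i) ^ 2 = 1 := by
    intro i
    show (2 : ℕ) • ((2 ^ k i : ℕ) : ZMod (n i)) = 0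
    rw [nsmul_eq_mul, ← Nat.cast_mul, ZMod.natCast_eq_zero_iff, hk i, pow_succ, mul_comm]
  let u : ι → S := fun i => e.symm (Pi.mulSingle i (v i))
  have hu1 : ∀ i, u i ≠ 1 := by
    intro i h
    have h2 : Pi.mulSingle i (v i) = (1 : ∀ i, Multiplicative (ZMod (n i))) := by
      rw [← e.apply_symm_apply (Pi.mulSingle i (v i))]
      show e (u i) = 1
      rw [h, map_one]
    exact hv1 i (by
      have := congrFun h2 i
      rwa [Pi.mulSingle_eq_same, Pi.one_apply] at this)
  have hu2 : ∀ i, (u i) ^ 2 = 1 := by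
    intro i
    show (e.symm (Pi.mulSingle i (v i))) ^ 2 = 1
    rw [← map_pow, ← Pi.mulSingle_pow, hv2, Pi.mulSingle_one, map_one]
  have hle : ∀ i j, k i ≤ k j := by
    intro i j
    by_contra hlt
    push Not at hlt
    obtain ⟨a, ha⟩ := htr (u i) (u j) (hu1 i) (hu2 i) (hu1 j) (hu2 j)
    -- u i is a 2^(k i) power
    let w : S := e.symm (Pi.mulSingle i (Multiplicative.ofAdd (1 : ZMod (n i))))
    have hw : w ^ (2 ^ k i) = u i := by
      show (e.symm _) ^ (2 ^ k i) = e.symm _
      rw [← map_pow, ← Pi.mulSingle_pow]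
      congr 2
      show (2 ^ k i : ℕ) • (1 : ZMod (n i)) = ((2 ^ k i : ℕ) : ZMod (n i))
      rw [nsmul_eq_mul, mul_one]
    have h3 : (a w) ^ (2 ^ k i) = u j := by rw [← map_pow, hw, ha]
    have h4 : (e (a w) j) ^ (2 ^ k i) = v j := by
      have h5 : e ((a w) ^ (2 ^ k i)) = Pi.mulSingle j (v j) := by
        rw [h3]; exact e.apply_symm_apply _
      rw [map_pow] at h5
      have h6 := congrFun h5 j
      rwa [Pi.pow_apply, Pi.mulSingle_eq_same] at h6
    apply hv1 j
    rw [← h4]
    obtain ⟨c, hc⟩ : ∃ c, k i = k j + 1 + c := ⟨k i - k j - 1, by omega⟩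
    rw [hc, pow_add, ← hk j, pow_mul]
    have h7 : (e (a w) j) ^ (n j) = 1 := by
      have h8 : Nat.card (Multiplicative (ZMod (n j))) = n j := by
        rw [Nat.card_congr Multiplicative.toAdd]; exact Nat.card_zmod _
      have h9 := pow_card_eq_one' (x := e (a w) j)
      rwa [h8] at h9
    rw [h7, one_pow]
  by_cases hem : Nonempty ι
  · obtain ⟨i₀⟩ := hem
    have hall : ∀ i, n i = 2 ^ (k i₀ + 1) := by
      intro i
      rw [hk i, le_antisymm (hle i i₀) (hle i₀ i)]
    refine ⟨k i₀ + 1, Fintype.card ι, ⟨e.trans ?_⟩⟩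
    have hfun : n = fun _ => 2 ^ (k i₀ + 1) := funext hall
    subst hfun
    exact MulEquiv.arrowCongr (Fintype.equivFin ι) (MulEquiv.refl _)
  · rw [not_nonempty_iff] at hem
    refine ⟨0, 0, ⟨e.trans ?_⟩⟩
    exact { toFun := fun _ => 1, invFun := fun _ => 1, left_inv := fun x => Subsingleton.elim _ _,
            right_inv := fun x => Subsingleton.elim _ _, map_mul' := fun _ _ => Subsingleton.elim _ _ }


theorem fit_le_pPrime {H : Type*} [Group H] [Finite H] (h : pCore 2 H = ⊥) : fittingSubgroup H ≤ pPrimeCore 2 H := by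
  rw [CfsgLib.Cores.fittingSubgroup_eq_iSup_pCore]
  apply iSup_le
  rintro ⟨q, hq⟩
  show pCore q H ≤ _
  by_cases hq2 : q = 2
  · subst hq2
    rw [h]; exact bot_le
  · haveI : Fact q.Prime := ⟨hq⟩
    refine CfsgLib.Cores.le_pPrimeCore inferInstance ?_
    obtain ⟨k, hk⟩ := IsPGroup.iff_card.mp (CfsgLib.Cores.pCore_isPGroup (G := H) q)
    rw [hk]
    exact Nat.Coprime.pow_left k ((Nat.coprime_primes hq Nat.prime_two).2 hq2)


set_option maxHeartbeats 1000000 in
theorem core {G : Type*} [Group G] [Finite G] (hG : Group.IsSolvable G) (hK : pPrimeCore 2 G = ⊥)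
    (hconj : ∀ x y : G, x ≠ 1 → x ^ 2 = 1 → y ≠ 1 → y ^ 2 = 1 → IsConj x y)
    (htwo : ∃ x y : G, x ≠ y ∧ x ≠ 1 ∧ x ^ 2 = 1 ∧ y ≠ 1 ∧ y ^ 2 = 1) :
    (pCore 2 G).index.Coprime 2 := by
  haveI hpf : Fact (Nat.Prime 2) := ⟨Nat.prime_two⟩
  have hp := hpf.out
  have hps : Cfsg.IsPSolvable 2 G := CfsgLib.PSolv19.psolv_of_solvable _ rfl hG
  obtain ⟨u₁, u₂, hu12, hu1, hu1', hu2, hu2'⟩ := htwo
  haveI : Nontrivial G := ⟨u₁, 1, hu1⟩
  have hR1 : pCore 2 G ≠ ⊥ := by
    rcases CfsgLib.PSolv19.psolv_core_ne_bot hps with h | h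
    · exact h
    · exact absurd hK h
  have hHH := CfsgLib.PSolv19.hall_higman hps hK
  set R := pCore 2 G with hRdef
  haveI hRc : R.Characteristic := by rw [hRdef]; infer_instance
  haveI hRn : R.Normal := inferInstance
  have hRp : IsPGroup 2 R := CfsgLib.Cores.pCore_isPGroup 2
  have hRsolv := solvable_of_isPGroup hp hRp
  -- normal subgroups containing an involution
  have hall : ∀ C : Subgroup G, C.Normal → ∀ z ∈ C, z ≠ 1 → z ^ 2 = 1 → ∀ x : G, x ^ 2 = 1 → x ∈ C := by
    intro C hC z hz hz1 hz2 x hx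
    by_cases hx1 : x = 1
    · rw [hx1]; exact one_mem _
    obtain ⟨g, hg⟩ := isConj_iff.1 (hconj z x hz1 hz2 hx1 hx)
    rw [← hg]; exact hC.conj_mem z hz g
  haveI : Nontrivial R := (Subgroup.nontrivial_iff_ne_bot R).2 hR1
  haveI := hRp.center_nontrivial
  obtain ⟨z, hz⟩ : ∃ z : Subgroup.center R, orderOf z = 2 := by
    have h2 : 2 ∣ Nat.card (Subgroup.center R) := by
      obtain ⟨k, hk⟩ := IsPGroup.iff_card.mp (hRp.to_subgroup (Subgroup.center R))
      have hk0 : k ≠ 0 := by
        rintro rfl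
        rw [pow_zero] at hk
        have := (Subgroup.nontrivial_iff_ne_bot (Subgroup.center R)).1 inferInstance
        exact this (Subgroup.card_eq_one.mp hk)
      rw [hk]; exact dvd_pow_self _ hk0
    exact exists_prime_orderOf_dvd_card' 2 h2
  have hzo : orderOf ((z : R) : G) = 2 := by rw [Subgroup.orderOf_coe, Subgroup.orderOf_coe, hz]
  have hz1 : ((z : R) : G) ≠ 1 := by
    intro h; rw [h, orderOf_one] at hzo; norm_num at hzo
  have hz2 : ((z : R) : G) ^ 2 = 1 := by rw [← hzo, pow_orderOf_eq_one]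
  have hxR : ∀ x : G, x ^ 2 = 1 → x ∈ R := hall R inferInstance _ (z : R).2 hz1 hz2
  have hxC : ∀ x : G, x ^ 2 = 1 → x ∈ Subgroup.centralizer (R : Set G) := by
    apply hall _ inferInstance _ _ hz1 hz2
    rw [Subgroup.mem_centralizer_iff]
    intro r hr
    have := Subgroup.mem_center_iff.1 z.2 ⟨r, hr⟩
    exact congrArg Subtype.val this
  -- Ω
  let Ω : Subgroup G :=
    { carrier := {x | x ^ 2 = 1}
      mul_mem' := by
        intro a b ha hb
        have h1 : Commute b a := Subgroup.mem_centralizer_iff.1 (hxC a ha) b (hxR b hb)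
        show (a * b) ^ 2 = 1
        rw [h1.symm.mul_pow, show a ^ 2 = 1 from ha, show b ^ 2 = 1 from hb, one_mul]
      one_mem' := one_pow _
      inv_mem' := by
        intro a ha
        show (a⁻¹) ^ 2 = 1
        rw [inv_pow, show a ^ 2 = 1 from ha, inv_one] }
  have hΩ : ∀ w, w ∈ Ω ↔ w ^ 2 = 1 := fun w => Iff.rfl
  haveI hΩn : Ω.Normal := by
    refine ⟨?_⟩
    intro w hw g
    rw [hΩ] at hw ⊢
    rw [conj_pow, hw, mul_one, mul_inv_cancel]
  have hΩR' : Ω ≤ R := fun w hw => hxR w hw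
  have hΩR : ∀ w ∈ Ω, ∀ r ∈ R, w * r = r * w := fun w hw r hr => (Subgroup.mem_centralizer_iff.1 (hxC w hw) r hr).symm
  have hΩ1 : Ω ≠ ⊥ := by
    intro h
    have : ((z : R) : G) ∈ Ω := hz2
    rw [h, Subgroup.mem_bot] at this
    exact hz1 this
  -- the group L
  have hOq : pCore 2 (G ⧸ R) = ⊥ := CfsgLib.Cores.pCore_quotient_pCore 2
  set K' := pPrimeCore 2 (G ⧸ R) with hK'
  haveI : K'.Normal := by rw [hK']; infer_instance
  have hK'c : (Nat.card K').Coprime 2 := CfsgLib.Cores.pPrimeCore_coprime 2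
  set L := K'.comap (QuotientGroup.mk' R) with hL
  haveI : L.Normal := by rw [hL]; infer_instance
  have hRL : R ≤ L := by
    intro r hr
    rw [hL, Subgroup.mem_comap]
    have : QuotientGroup.mk' R r = 1 := (QuotientGroup.eq_one_iff r).2 hr
    rw [this]; exact one_mem _
  have hrel : R.relIndex L = Nat.card K' := by
    have h1 := card_mul_relIndex hRL
    rw [hL, CfsgLib.Cores.card_comap_mk] at h1
    exact Nat.eq_of_mul_eq_mul_left Nat.card_pos h1
  have hcop1 : (Nat.card R).Coprime (R.relIndex L) := by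
    rw [hrel]
    obtain ⟨k, hk⟩ := IsPGroup.iff_card.mp hRp
    rw [hk]
    exact Nat.Coprime.pow_left k hK'c.symm
  obtain ⟨T, hTL, hTc, hRT, hRTL⟩ := CfsgLib.Coprime.sz_exists hRL (by rw [Subgroup.normalizer_eq_top]; exact le_top) hcop1
  have hTp : (Nat.card T).Coprime 2 := by rw [hTc, hrel]; exact hK'c
  have hTK : K' = T.map (QuotientGroup.mk' R) := by
    have h1 : L.map (QuotientGroup.mk' R) = K' := by
      rw [hL]; exact Subgroup.map_comap_eq_self_of_surjective (QuotientGroup.mk'_surjective R) K'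
    rw [← h1, ← hRTL, Subgroup.map_sup, (Subgroup.map_eq_bot_iff R).2 (by rw [QuotientGroup.ker_mk']), bot_sup_eq]
  by_cases hCT : R ⊓ 𝓒(T) = ⊥
  · -- complement
    by_contra hnc
    rw [Nat.coprime_comm, Nat.Prime.coprime_iff_not_dvd hp, not_not] at hnc
    have hfr : R ⊔ 𝓝(T) = ⊤ := by
      rw [eq_top_iff]
      intro g0 _
      obtain ⟨r, hr, hrT⟩ := CfsgLib.Coprime.sz_conj (N := R) (H := T) (K := MulAut.conj g0 • T)
        (by rw [Subgroup.normalizer_eq_top]; exact le_top)
        (by rw [hTc]; exact hcop1.symm) (Or.inr hRsolv)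
        (by
          rw [hRTL]
          intro y hy
          rw [Subgroup.mem_pointwise_smul_iff_inv_smul_mem] at hy
          have h1 : (MulAut.conj g0)⁻¹ • y ∈ L := hTL hy
          have h2 := Subgroup.Normal.conj_mem (inferInstance : L.Normal) _ h1 g0
          have h3 : g0 * ((MulAut.conj g0)⁻¹ • y) * g0⁻¹ = y := by
            rw [← map_inv, MulAut.smul_def, MulAut.conj_apply]; group
          rwa [h3] at h2)
        (by
          exact Nat.card_congr (Subgroup.equivSMul (MulAut.conj g0) T).symm.toEquiv)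
      have hg : r⁻¹ * g0 ∈ 𝓝(T) := by
        rw [Subgroup.mem_normalizer_iff]
        have h1 : MulAut.conj (r⁻¹ * g0) • T = T := by
          rw [map_mul, mul_smul, ← hrT, ← mul_smul, ← map_mul]
          simp
        intro t
        constructor
        · intro ht
          have h2 : MulAut.conj (r⁻¹ * g0) • t ∈ MulAut.conj (r⁻¹ * g0) • T := Subgroup.smul_mem_pointwise_smul _ _ _ ht
          rw [h1] at h2
          exact h2
        · intro ht
          rw [← h1] at ht
          have h2 : (r⁻¹ * g0) * t * (r⁻¹ * g0)⁻¹ = MulAut.conj (r⁻¹ * g0) • t := rfl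
          rw [h2, Subgroup.smul_mem_pointwise_smul_iff] at ht
          exact ht
      have h3 : g0 = r * (r⁻¹ * g0) := by group
      rw [h3]
      exact Subgroup.mul_mem_sup hr hg
    have hinf : R ⊓ 𝓝(T) = ⊥ := by
      rw [eq_bot_iff, ← hCT]
      refine le_inf inf_le_left ?_
      intro x hx
      rw [mem_cz]
      intro t ht
      have h1 : x * t * x⁻¹ * t⁻¹ ∈ T := mul_mem ((Subgroup.mem_normalizer_iff.1 hx.2 t).1 ht) (inv_mem ht)
      have h2 : x * t * x⁻¹ * t⁻¹ ∈ R := by
        have : x * t * x⁻¹ * t⁻¹ = x * (t * x⁻¹ * t⁻¹) := by group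
        rw [this]
        exact mul_mem hx.1 (hRn.conj_mem _ (inv_mem hx.1) t)
      have h3 : x * t * x⁻¹ * t⁻¹ ∈ R ⊓ T := ⟨h2, h1⟩
      rw [hRT, Subgroup.mem_bot] at h3
      have h4 : x * t = t * x := by
        calc x * t = (x * t * x⁻¹ * t⁻¹) * (t * x) := by group
          _ = _ := by rw [h3, one_mul]
      exact h4.symm
    have hcard := card_sup_mul_card_inf (H := 𝓝(T)) (K := R) (le_top.trans (Subgroup.normalizer_eq_top (H := R)).ge)
    rw [sup_comm, hfr, inf_comm, hinf, Subgroup.card_bot, mul_one, Subgroup.card_top] at hcard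
    have h5 := Subgroup.card_mul_index R
    rw [← h5, mul_comm] at hcard
    have h6 := Nat.eq_of_mul_eq_mul_right Nat.card_pos hcard
    rw [h6] at hnc
    obtain ⟨x, hx⟩ := exists_prime_orderOf_dvd_card' 2 hnc
    have h7 : orderOf (x : G) = 2 := by rw [Subgroup.orderOf_coe, hx]
    have h8 : (x : G) ∈ R ⊓ 𝓝(T) := ⟨hxR _ (by rw [← h7, pow_orderOf_eq_one]), x.2⟩
    rw [hinf, Subgroup.mem_bot] at h8
    rw [h8, orderOf_one] at h7
    norm_num at h7
  · -- contradiction
    exfalso
    have h1 : 2 ∣ Nat.card ↥(R ⊓ 𝓒(T)) := by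
      obtain ⟨k, hk⟩ := IsPGroup.iff_card.mp (hRp.to_le (inf_le_left : R ⊓ 𝓒(T) ≤ R))
      have hk0 : k ≠ 0 := by
        rintro rfl
        rw [pow_zero] at hk
        exact hCT (Subgroup.card_eq_one.mp hk)
      rw [hk]; exact dvd_pow_self _ hk0
    obtain ⟨u, hu⟩ := exists_prime_orderOf_dvd_card' 2 h1
    have hu' : orderOf (u : G) = 2 := by rw [Subgroup.orderOf_coe, hu]
    have huu1 : (u : G) ≠ 1 := by intro h; rw [h, orderOf_one] at hu'; norm_num at hu'
    have huu2 : (u : G) ^ 2 = 1 := by rw [← hu', pow_orderOf_eq_one]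
    have h2 : (u : G) ∈ Subgroup.centralizer (L : Set G) := by
      rw [← hRTL, ← Subgroup.zpowers_le, Subgroup.le_centralizer_iff, sup_le_iff]
      constructor
      · rw [← Subgroup.le_centralizer_iff, Subgroup.zpowers_le]
        exact hxC _ huu2
      · rw [← Subgroup.le_centralizer_iff, Subgroup.zpowers_le]
        exact u.2.2
    have h4 : ∀ x : G, x ^ 2 = 1 → x ∈ Subgroup.centralizer (L : Set G) := hall _ inferInstance _ h2 huu1 huu2
    have hΩT : ∀ t ∈ T, ∀ w ∈ Ω, t * w = w * t := fun t ht w hw =>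
      Subgroup.mem_centralizer_iff.1 (h4 w hw) t (hTL ht)
    -- the Fitting subgroup of G/R
    haveI : Group.IsSolvable (G ⧸ R) := inferInstance
    set F := fittingSubgroup (G ⧸ R) with hF
    haveI hFn : F.Normal := by rw [hF]; infer_instance
    have hFnil : Group.IsNilpotent F := CfsgLib.Cores.fittingSubgroup_isNilpotent
    have hFK : F ≤ K' := fit_le_pPrime hOq
    have h5 := CfsgLib.OneInv.fit_comm hRp hHH hTp hΩ hΩR' hΩR hΩT hΩ1 hconj F hFnil (hFK.trans hTK.le)
    have h6 : commutator (G ⧸ R) ≤ K' := by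
      refine le_trans ?_ hFK
      refine le_trans ?_ (CfsgLib.Cores.centralizer_fittingSubgroup_le (G := G ⧸ R))
      rw [← hF, Subgroup.le_centralizer_iff, ← Subgroup.commutator_eq_bot_iff_le_centralizer]
      exact h5
    -- the quotient is an abelian 2-group
    have h7 : ∀ a b : (G ⧸ R) ⧸ K', a * b = b * a := by
      intro a b
      obtain ⟨a, rfl⟩ := QuotientGroup.mk'_surjective K' a
      obtain ⟨b, rfl⟩ := QuotientGroup.mk'_surjective K' b
      rw [← map_mul, ← map_mul]
      apply (QuotientGroup.eq).2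
      apply h6
      have : (a * b)⁻¹ * (b * a) = ⁅b⁻¹, a⁻¹⁆ := by rw [commutatorElement_def]; group
      rw [this]
      exact Subgroup.commutator_mem_commutator (Subgroup.mem_top _) (Subgroup.mem_top _)
    have h8 : ∃ j, Nat.card ((G ⧸ R) ⧸ K') = 2 ^ j := by
      have h9 : ∀ q : ℕ, q.Prime → q ∣ Nat.card ((G ⧸ R) ⧸ K') → q = 2 := by
        intro q hq hqd
        by_contra hq2
        haveI : Fact q.Prime := ⟨hq⟩
        obtain ⟨y, hy⟩ := exists_prime_orderOf_dvd_card' q hqd
        have h10 : (zpowers y).Normal := by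
          refine ⟨?_⟩
          intro n hn g
          rw [h7 g n, mul_inv_cancel_right]; exact hn
        have h11 : zpowers y ≤ pPrimeCore 2 ((G ⧸ R) ⧸ K') := by
          apply CfsgLib.Cores.le_pPrimeCore h10
          rw [Nat.card_zpowers, hy]
          exact (Nat.coprime_primes hq hp).2 hq2
        have h11' : pPrimeCore 2 ((G ⧸ R) ⧸ K') = ⊥ := CfsgLib.Cores.pPrimeCore_quotient_pPrimeCore 2
        rw [h11'] at h11
        have h12 : y ∈ (⊥ : Subgroup _) := h11 (mem_zpowers y)
        rw [Subgroup.mem_bot] at h12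
        rw [h12, orderOf_one] at hy
        exact hq.one_lt.ne hy
      have h13 := Nat.eq_prime_pow_of_unique_prime_dvd Nat.card_pos.ne' (fun {q} hq hqd => h9 q hq hqd)
      exact ⟨_, h13⟩
    obtain ⟨j, hj⟩ := h8
    have hLi : L.index = 2 ^ j := by
      rw [hL, Subgroup.index_comap_of_surjective _ (QuotientGroup.mk'_surjective R), Subgroup.index_eq_card, hj]
    -- count involutions
    have hcount : ∀ w : G, w ≠ 1 → w ^ 2 = 1 → {x : G | x ≠ 1 ∧ x ^ 2 = 1}.ncard ∣ 2 ^ j := by
      intro w hw1 hw2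
      have e1 : {x : G | x ≠ 1 ∧ x ^ 2 = 1} = MulAction.orbit (ConjAct G) w := by
        ext x
        constructor
        · rintro ⟨hx1, hx2⟩
          obtain ⟨g, hg⟩ := isConj_iff.1 (hconj w x hw1 hw2 hx1 hx2)
          exact ⟨ConjAct.toConjAct g, hg⟩
        · rintro ⟨g, rfl⟩
          constructor
          · intro h
            apply hw1
            have h2 : (fun m : ConjAct G => m • w) g = ConjAct.ofConjAct g * w * (ConjAct.ofConjAct g)⁻¹ := rfl
            rw [h2] at h
            have h3 := mul_inv_eq_one.1 h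
            exact (mul_eq_left.1 h3)
          · have h2 : (fun m : ConjAct G => m • w) g = ConjAct.ofConjAct g * w * (ConjAct.ofConjAct g)⁻¹ := rfl
            rw [h2, conj_pow, hw2, mul_one, mul_inv_cancel]
      rw [e1, ← Nat.card_coe_set_eq, Nat.card_congr (MulAction.orbitEquivQuotientStabilizer (ConjAct G) w),
        ← Subgroup.index_eq_card, ← hLi]
      have e2 : MulAction.stabilizer (ConjAct G) w = (Subgroup.centralizer ({w} : Set G)).comap (ConjAct.ofConjAct (G := G)).toMonoidHom := by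
        ext g
        rw [MulAction.mem_stabilizer_iff, Subgroup.mem_comap, Subgroup.mem_centralizer_iff]
        have h2 : g • w = ConjAct.ofConjAct g * w * (ConjAct.ofConjAct g)⁻¹ := rfl
        rw [h2, mul_inv_eq_iff_eq_mul]
        constructor
        · intro h x hx
          rw [Set.mem_singleton_iff] at hx
          rw [hx]; exact h.symm
        · intro h
          exact (h w rfl).symm
      rw [e2, Subgroup.index_comap_of_surjective _ (ConjAct.ofConjAct (G := G)).surjective]
      apply Subgroup.index_dvd_of_le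
      intro l hl
      rw [Subgroup.mem_centralizer_iff]
      intro x hx
      rw [Set.mem_singleton_iff] at hx
      rw [hx]
      exact (Subgroup.mem_centralizer_iff.1 (h4 w hw2) l hl).symm
    have hc1 := hcount u₁ hu1 hu1'
    -- |Ω| - 1
    have hc2 : {x : G | x ≠ 1 ∧ x ^ 2 = 1}.ncard + 1 = Nat.card Ω := by
      have e1 : (Ω : Set G) = insert 1 {x : G | x ≠ 1 ∧ x ^ 2 = 1} := by
        ext x
        rw [SetLike.mem_coe, hΩ, Set.mem_insert_iff, Set.mem_setOf_eq]
        constructor
        · intro h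
          by_cases hx : x = 1
          · exact Or.inl hx
          · exact Or.inr ⟨hx, h⟩
        · rintro (h | h)
          · rw [h, one_pow]
          · exact h.2
      have e2 : Nat.card Ω = (Ω : Set G).ncard := Nat.card_coe_set_eq _
      rw [e2, e1, Set.ncard_insert_of_notMem (fun h => h.1 rfl) (Set.toFinite _)]
    obtain ⟨n, hn⟩ := IsPGroup.iff_card.mp (hRp.to_le hΩR')
    have hn0 : n ≠ 0 := by
      rintro rfl
      rw [pow_zero] at hn
      exact hΩ1 (Subgroup.card_eq_one.mp hn)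
    rw [hn] at hc2
    obtain ⟨i, _, hi⟩ := (Nat.dvd_prime_pow Nat.prime_two).1 hc1
    have hi0 : i = 0 := by
      by_contra hi0
      have h9 : 2 ∣ 2 ^ n := dvd_pow_self 2 hn0
      have h10 : 2 ∣ 2 ^ i := dvd_pow_self 2 hi0
      rw [hi] at hc2
      omega
    rw [hi0, pow_zero, Set.ncard_eq_one] at hi
    obtain ⟨a, ha⟩ := hi
    have h9 : u₁ ∈ {x : G | x ≠ 1 ∧ x ^ 2 = 1} := ⟨hu1, hu1'⟩
    have h10 : u₂ ∈ {x : G | x ≠ 1 ∧ x ^ 2 = 1} := ⟨hu2, hu2'⟩
    rw [ha, Set.mem_singleton_iff] at h9 h10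
    exact hu12 (h9.trans h10.symm)

/-- lifting of involutions -/
theorem lift_inv {G : Type*} [Group G] [Finite G] (M : Subgroup G) [M.Normal]
    (hM : (Nat.card M).Coprime 2) (u' : G ⧸ M) (hu' : u' ^ 2 = 1) (hu1 : u' ≠ 1) :
    ∃ u : G, u ^ 2 = 1 ∧ u ≠ 1 ∧ QuotientGroup.mk' M u = u' := by
  obtain ⟨u₀, rfl⟩ := QuotientGroup.mk'_surjective M u'
  have hodd : Odd (Nat.card M) := Nat.coprime_two_right.1 hM
  obtain ⟨k, hk⟩ := hodd
  refine ⟨u₀ ^ (Nat.card M), ?_, ?_, ?_⟩
  · rw [← pow_mul, mul_comm, pow_mul]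
    have h3 : u₀ ^ 2 ∈ M := by
      have h4 : QuotientGroup.mk' M (u₀ ^ 2) = 1 := by rw [map_pow, hu']
      exact (QuotientGroup.eq_one_iff _).1 h4
    have := pow_card_eq_one' (x := (⟨u₀ ^ 2, h3⟩ : M))
    exact congrArg Subtype.val this
  · intro h
    apply hu1
    have h1 : QuotientGroup.mk' M (u₀ ^ (Nat.card M)) = 1 := by rw [h, map_one]
    rw [map_pow, hk, pow_succ, pow_mul, hu', one_pow, one_mul] at h1
    exact h1
  · rw [map_pow, hk, pow_succ, pow_mul, hu', one_pow, one_mul]

/-- Let G be a finite solvable group of even order whose Sylow 2-subgroups contain more than one involution, and suppose all involutions of G are conjugate. Then G has 2-length at most 1, and a Sylow 2-subgroup S of G is either homocyclic (a direct product of cyclic groups of one common order) or a non-abelian 2-group with more than one involution admitting a solvable group of automorphisms transitive on its involutions. -/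
theorem result {G : Type*} [Group G] [Finite G] (hG : Group.IsSolvable G) (heven : Even (Nat.card G)) (S : Sylow 2 G) (htwo : ∃ x y : G, x ∈ (S : Subgroup G) ∧ y ∈ (S : Subgroup G) ∧ x ≠ y ∧ x ≠ 1 ∧ x ^ 2 = 1 ∧ y ≠ 1 ∧ y ^ 2 = 1) (hconj : ∀ x y : G, x ≠ 1 → x ^ 2 = 1 → y ≠ 1 → y ^ 2 = 1 → IsConj x y) : Cfsg.PLengthLE 2 1 G ∧ ((∃ m r : ℕ, Nonempty (↥(S : Subgroup G) ≃* (Fin r → Multiplicative (ZMod (2 ^ m))))) ∨ (¬ IsMulCommutative (S : Subgroup G) ∧ ∃ Y : Subgroup (MulAut ↥(S : Subgroup G)), Group.IsSolvable Y ∧ ∀ x y : ↥(S : Subgroup G), x ≠ 1 → x ^ 2 = 1 → y ≠ 1 → y ^ 2 = 1 → ∃ a ∈ Y, a x = y)) := by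
  haveI hpf : Fact (Nat.Prime 2) := ⟨Nat.prime_two⟩
  have hp := hpf.out
  set M := Cfsg.pPrimeCore 2 G with hM
  haveI hMc : M.Characteristic := by rw [hM]; infer_instance
  haveI : M.Normal := inferInstance
  have hMcop : (Nat.card M).Coprime 2 := CfsgLib.Cores.pPrimeCore_coprime 2
  let π : G →* G ⧸ M := QuotientGroup.mk' M
  have hSM : ∀ x ∈ (S : Subgroup G), π x = 1 → x = 1 := by
    intro x hx hx1
    have h1 : x ∈ M := (QuotientGroup.eq_one_iff x).1 hx1
    obtain ⟨n, hn⟩ := S.isPGroup' ⟨x, hx⟩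
    have hn' : x ^ (2 ^ n) = 1 := congrArg Subtype.val hn
    have h2 : x ^ (Nat.card M) = 1 := by
      have := pow_card_eq_one' (x := (⟨x, h1⟩ : M))
      exact congrArg Subtype.val this
    have h4 : orderOf x ∣ Nat.card M := orderOf_dvd_of_pow_eq_one h2
    have h5 : orderOf x ∣ 2 ^ n := orderOf_dvd_of_pow_eq_one hn'
    have h6 : orderOf x ∣ 1 := by
      rw [← Nat.Coprime.gcd_eq_one (Nat.Coprime.pow_right n hMcop)]; exact Nat.dvd_gcd h4 h5
    exact orderOf_eq_one_iff.1 (Nat.dvd_one.1 h6)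
  have hconj' : ∀ x y : G ⧸ M, x ≠ 1 → x ^ 2 = 1 → y ≠ 1 → y ^ 2 = 1 → IsConj x y := by
    intro x y hx1 hx2 hy1 hy2
    obtain ⟨u, hu2, hu1, rfl⟩ := lift_inv M hMcop x hx2 hx1
    obtain ⟨v, hv2, hv1, rfl⟩ := lift_inv M hMcop y hy2 hy1
    exact (QuotientGroup.mk' M).map_isConj (hconj u v hu1 hu2 hv1 hv2)
  haveI : Group.IsSolvable (G ⧸ M) := inferInstance
  have hidx : (Cfsg.pCore 2 (G ⧸ M)).index.Coprime 2 := by
    apply core inferInstance (CfsgLib.Cores.pPrimeCore_quotient_pPrimeCore 2) hconj'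
    obtain ⟨x, y, hx, hy, hxy, hx1, hx2, hy1, hy2⟩ := htwo
    refine ⟨π x, π y, ?_, fun h => hx1 (hSM x hx h), by rw [← map_pow, hx2, map_one], fun h => hy1 (hSM y hy h), by rw [← map_pow, hy2, map_one]⟩
    intro h
    apply hxy
    have h1 : π (x⁻¹ * y) = 1 := by rw [map_mul, map_inv, h, inv_mul_cancel]
    have h2 := hSM _ (mul_mem (inv_mem hx) hy) h1
    exact inv_mul_eq_one.1 h2
  set R := Cfsg.pCore 2 (G ⧸ M) with hR
  haveI hRc : R.Characteristic := by rw [hR]; infer_instance
  haveI : R.Normal := inferInstance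
  have hRp : IsPGroup 2 R := CfsgLib.Cores.pCore_isPGroup 2
  constructor
  · have h1 : Cfsg.PLengthLE 2 1 (G ⧸ M) := by
      rw [plen_iff hp]
      refine RLen.of_three (K := R) bot_le le_top ?_ ?_
      · rw [Subgroup.relIndex_bot_left]
        exact IsPGroup.iff_card.mp hRp
      · rw [Subgroup.relIndex_top_right]
        exact hidx
    have h2 : RLen 2 0 (⊥ : Subgroup G) M := by
      apply RLen.of_prime' bot_le
      rw [Subgroup.relIndex_bot_left]
      exact hMcop
    have h3 := plen_ext hp M h2 h1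
    rwa [zero_add] at h3
  · -- S ≃ R
    have hSR : (S : Subgroup G).map π = R := by
      apply Subgroup.eq_of_le_of_card_ge
      · -- S.map π ≤ R
        have h1 : IsPGroup 2 ((S : Subgroup G).map π) := S.isPGroup'.map π
        -- the join is a 2-group
        have h2 : ((S : Subgroup G).map π).map (QuotientGroup.mk' R) = ⊥ := by
          rw [← Subgroup.card_eq_one]
          have h3 : IsPGroup 2 (((S : Subgroup G).map π).map (QuotientGroup.mk' R)) := h1.map _
          obtain ⟨n, hn⟩ := IsPGroup.iff_card.mp h3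
          have h4 : Nat.card (((S : Subgroup G).map π).map (QuotientGroup.mk' R)) ∣ R.index := by
            rw [Subgroup.index_eq_card]; exact Subgroup.card_subgroup_dvd_card _
          have h5 := Nat.Coprime.coprime_dvd_left h4 hidx
          rcases Nat.eq_zero_or_pos n with h6 | h6
          · rw [hn, h6, pow_zero]
          · exfalso
            rw [hn] at h5
            have := Nat.Coprime.coprime_dvd_left (dvd_pow_self 2 h6.ne') h5
            norm_num at this
        intro y hy
        have h6 : QuotientGroup.mk' R y ∈ ((S : Subgroup G).map π).map (QuotientGroup.mk' R) := ⟨y, hy, rfl⟩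
        rw [h2, Subgroup.mem_bot] at h6
        exact (QuotientGroup.eq_one_iff y).1 h6
      · -- |R| ≤ |S.map π|
        have hinj : Nat.card ((S : Subgroup G).map π) = Nat.card (S : Subgroup G) := by
          have hi : Function.Injective (π.comp (S : Subgroup G).subtype) := by
            rw [injective_iff_map_eq_one]
            intro x hx
            exact Subtype.ext (hSM x x.2 hx)
          have h1 : (π.comp (S : Subgroup G).subtype).range = (S : Subgroup G).map π := by
            rw [MonoidHom.range_eq_map, ← Subgroup.map_map, ← MonoidHom.range_eq_map, Subgroup.range_subtype]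
          rw [← h1]
          exact (Nat.card_congr (MonoidHom.ofInjective hi).toEquiv).symm
        rw [hinj]
        apply Nat.le_of_dvd Nat.card_pos
        obtain ⟨n, hn⟩ := IsPGroup.iff_card.mp hRp
        have h1 : Nat.card R ∣ Nat.card G := by
          have h2 : Nat.card R ∣ Nat.card (G ⧸ M) := Subgroup.card_subgroup_dvd_card _
          exact h2.trans (Subgroup.card_quotient_dvd_card M)
        rw [hn] at h1 ⊢
        exact S.pow_dvd_card_of_pow_dvd_card h1
    have hbij : Function.Bijective (fun x : (S : Subgroup G) => (⟨π x, hSR ▸ ⟨x, x.2, rfl⟩⟩ : R)) := by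
      constructor
      · intro x y hxy
        have h : π (x : G) = π (y : G) := congrArg Subtype.val hxy
        have h1 : π ((x : G)⁻¹ * y) = 1 := by rw [map_mul, map_inv, h, inv_mul_cancel]
        have h2 := hSM _ (mul_mem (inv_mem x.2) y.2) h1
        exact Subtype.ext (inv_mul_eq_one.1 h2)
      · rintro ⟨y, hy⟩
        have hy' : y ∈ (S : Subgroup G).map π := by rw [hSR]; exact hy
        obtain ⟨x, hx, rfl⟩ := hy'
        exact ⟨⟨x, hx⟩, rfl⟩
    let e : (S : Subgroup G) ≃* R :=
      { Equiv.ofBijective _ hbij with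
        map_mul' := fun x y => Subtype.ext (map_mul π (x : G) y) }
    have he : ∀ x : (S : Subgroup G), ((e x : R) : G ⧸ M) = π x := fun x => rfl
    -- the automorphisms
    let ψ : (G ⧸ M) →* MulAut (S : Subgroup G) := (MulAut.congr e.symm).toMonoidHom.comp (MulAut.conjNormal (H := R))
    have hψ : ∀ (g : G ⧸ M) (x : (S : Subgroup G)), ψ g x = e.symm (MulAut.conjNormal g (e x)) := fun g x => rfl
    have htr : ∀ x y : (S : Subgroup G), x ≠ 1 → x ^ 2 = 1 → y ≠ 1 → y ^ 2 = 1 → ∃ a ∈ ψ.range, a x = y := by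
      intro x y hx1 hx2 hy1 hy2
      have hex : (x : G) ≠ 1 := fun h => hx1 (Subtype.ext h)
      have hey : (y : G) ≠ 1 := fun h => hy1 (Subtype.ext h)
      obtain ⟨g, hg⟩ := isConj_iff.1 (hconj x y hex (congrArg Subtype.val hx2) hey (congrArg Subtype.val hy2))
      refine ⟨ψ (π g), ⟨_, rfl⟩, ?_⟩
      rw [hψ, MulEquiv.symm_apply_eq]
      apply Subtype.ext
      rw [MulAut.conjNormal_apply, he, he, ← hg, map_mul, map_mul, map_inv]
    by_cases hab : IsMulCommutative (S : Subgroup G)
    · left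
      letI : CommGroup (S : Subgroup G) := { (inferInstance : Group (S : Subgroup G)) with mul_comm := hab.is_comm.comm }
      exact homocyclic S.isPGroup' (fun x y hx1 hx2 hy1 hy2 => by
        obtain ⟨a, _, ha⟩ := htr x y hx1 hx2 hy1 hy2
        exact ⟨a, ha⟩)
    · right
      refine ⟨hab, ψ.range, ?_, htr⟩
      exact Group.isSolvable_of_surjective ψ.rangeRestrict_surjective

end Cfsg.Agent.S3797
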