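import Cfsg.Statements.S3798
import Cfsg.Agent.LibPLen
import Cfsg.Agent.LibHHNorm
import Cfsg.Agent.LibFpf
import Cfsg.Agent.LibCoprime2
import Cfsg.Agent.LibSolvFrat

set_option autoImplicit false
open Cfsg

namespace Cfsg.Agent.S3798



open Subgroup Cfsg CfsgLib.BGPi CfsgLib.PLen CfsgLib.SolvCoprime
open scoped commutatorElement Pointwise

/-- all elements of order `p` lie in every characteristic subgroup of order divisible by `p` -/
theorem char_all {G : Type*} [Group G] [Finite G] {p : ℕ} [hpf : Fact p.Prime]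
    (htrans : ∀ U V : Subgroup G, Nat.card U = p → Nat.card V = p → ∃ a : MulAut G, U.map a.toMonoidHom = V)
    (C : Subgroup G) [hC : C.Characteristic] (hd : p ∣ Nat.card C) (x : G) (hx : orderOf x = p) : x ∈ C := by
  obtain ⟨c, hc⟩ := exists_prime_orderOf_dvd_card' p hd
  obtain ⟨a, ha⟩ := htrans (zpowers (c : G)) (zpowers x) (by rw [Nat.card_zpowers, Subgroup.orderOf_coe, hc])
    (by rw [Nat.card_zpowers, hx])
  have h1 : (zpowers (c : G)).map a.toMonoidHom ≤ C.map a.toMonoidHom := Subgroup.map_mono (by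
    rw [Subgroup.zpowers_le]; exact c.2)
  rw [ha, Subgroup.characteristic_iff_map_eq.1 hC a] at h1
  exact h1 (mem_zpowers x)

theorem core {G : Type*} [Group G] [Finite G] {p : ℕ} [hpf : Fact p.Prime] (hp2 : p ≠ 2) (hG : Cfsg.IsPSolvable p G)
    (hK : pPrimeCore p G = ⊥)
    (htrans : ∀ U V : Subgroup G, Nat.card U = p → Nat.card V = p → ∃ a : MulAut G, U.map a.toMonoidHom = V) :
    Cfsg.PLengthLE p 1 G := by
  have hp := hpf.out
  by_cases hdvd : p ∣ Nat.card G
  swap
  · apply plen_mono hp (Nat.zero_le _)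
    rw [plen_zero_iff hp, Nat.coprime_comm, Nat.Prime.coprime_iff_not_dvd hp]
    exact hdvd
  haveI : Nontrivial G := by
    by_contra hnt
    rw [not_nontrivial_iff_subsingleton] at hnt
    rw [Nat.card_eq_one_iff_unique.mpr ⟨hnt, inferInstance⟩] at hdvd
    exact hp.one_lt.ne' (Nat.dvd_one.1 hdvd)
  have hR1 : pCore p G ≠ ⊥ := by
    rcases CfsgLib.PSolv19.psolv_core_ne_bot hG with h | h
    · exact h
    · exact absurd hK h
  have hHH := CfsgLib.PSolv19.hall_higman hG hK
  set R := pCore p G with hRdef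
  haveI hRc : R.Characteristic := by rw [hRdef]; infer_instance
  haveI hRn : R.Normal := inferInstance
  have hRp : IsPGroup p R := CfsgLib.Cores.pCore_isPGroup p
  have hRsolv := solvable_of_isPGroup hp hRp
  have hRdvd : p ∣ Nat.card R := by
    obtain ⟨k, hk⟩ := IsPGroup.iff_card.mp hRp
    have hk0 : k ≠ 0 := by
      rintro rfl
      rw [pow_zero] at hk
      exact hR1 (Subgroup.card_eq_one.mp hk)
    rw [hk]; exact dvd_pow_self _ hk0
  -- elements of order p are in R
  have hxR : ∀ x : G, orderOf x = p → x ∈ R := char_all htrans R hRdvd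
  have hZ : p ∣ Nat.card (Subgroup.centralizer (R : Set G)) := by
    haveI : Nontrivial R := (Subgroup.nontrivial_iff_ne_bot R).2 hR1
    haveI := hRp.center_nontrivial
    have h1 : ∃ z : Subgroup.center R, orderOf z = p := by
      have h2 : p ∣ Nat.card (Subgroup.center R) := by
        obtain ⟨k, hk⟩ := IsPGroup.iff_card.mp (hRp.to_subgroup (Subgroup.center R))
        have hk0 : k ≠ 0 := by
          rintro rfl
          rw [pow_zero] at hk
          have := (Subgroup.nontrivial_iff_ne_bot (Subgroup.center R)).1 inferInstance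
          exact this (Subgroup.card_eq_one.mp hk)
        rw [hk]; exact dvd_pow_self _ hk0
      exact exists_prime_orderOf_dvd_card' p h2
    obtain ⟨z, hz⟩ := h1
    have h2 : ((z : R) : G) ∈ Subgroup.centralizer (R : Set G) := by
      rw [Subgroup.mem_centralizer_iff]
      intro r hr
      have := Subgroup.mem_center_iff.1 z.2 ⟨r, hr⟩
      exact congrArg Subtype.val this
    have h3 : orderOf ((z : R) : G) = p := by rw [Subgroup.orderOf_coe, Subgroup.orderOf_coe, hz]
    rw [← h3, ← Subgroup.orderOf_mk _ h2]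
    exact orderOf_dvd_natCard _
  have hxC : ∀ x : G, orderOf x = p → x ∈ Subgroup.centralizer (R : Set G) := char_all htrans _ hZ
  -- the group L
  have hOq : pCore p (G ⧸ R) = ⊥ := CfsgLib.Cores.pCore_quotient_pCore p
  set K' := pPrimeCore p (G ⧸ R) with hK'
  haveI : K'.Normal := by rw [hK']; infer_instance
  have hK'c : (Nat.card K').Coprime p := CfsgLib.Cores.pPrimeCore_coprime p
  set L := K'.comap (QuotientGroup.mk' R) with hL
  haveI : L.Normal := by rw [hL]; infer_instance
  have hRL : R ≤ L := by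
    intro r hr
    rw [hL, Subgroup.mem_comap]
    have : QuotientGroup.mk' R r = 1 := (QuotientGroup.eq_one_iff r).2 hr
    rw [this]; exact one_mem _
  have hrel : R.relIndex L = Nat.card K' := by
    have h1 := card_mul_relIndex hRL
    rw [hL, CfsgLib.Cores.card_comap_mk] at h1
    exact Nat.eq_of_mul_eq_mul_left Nat.card_pos h1
  have hcop1 : (Nat.card R).Coprime (R.relIndex L) := by
    rw [hrel]
    obtain ⟨k, hk⟩ := IsPGroup.iff_card.mp hRp
    rw [hk]
    exact Nat.Coprime.pow_left k hK'c.symm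
  obtain ⟨T, hTL, hTc, hRT, hRTL⟩ := CfsgLib.Coprime.sz_exists hRL (by rw [Subgroup.normalizer_eq_top]; exact le_top) hcop1
  have hTp : (Nat.card T).Coprime p := by rw [hTc, hrel]; exact hK'c
  -- L is characteristic
  haveI hLc : L.Characteristic := by
    rw [Subgroup.characteristic_iff_map_le]
    intro a
    have h1 : ((L.map a.toMonoidHom).map (QuotientGroup.mk' R)) ≤ K' := by
      haveI : (L.map a.toMonoidHom).Normal := Subgroup.Normal.map inferInstance _ a.surjective
      haveI : ((L.map a.toMonoidHom).map (QuotientGroup.mk' R)).Normal :=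
        Subgroup.Normal.map inferInstance _ (QuotientGroup.mk'_surjective R)
      apply CfsgLib.Cores.le_pPrimeCore inferInstance
      -- the order
      have h2 : L.map a.toMonoidHom = R ⊔ T.map a.toMonoidHom := by
        rw [← hRTL, Subgroup.map_sup, Subgroup.characteristic_iff_map_eq.1 hRc a]
      have h3 : (L.map a.toMonoidHom).map (QuotientGroup.mk' R) = (T.map a.toMonoidHom).map (QuotientGroup.mk' R) := by
        rw [h2, Subgroup.map_sup, (Subgroup.map_eq_bot_iff R).2 (by rw [QuotientGroup.ker_mk']), bot_sup_eq]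
      rw [h3]
      refine Nat.Coprime.coprime_dvd_left (Subgroup.card_map_dvd _ _) ?_
      refine Nat.Coprime.coprime_dvd_left (Subgroup.card_map_dvd _ _) ?_
      exact hTp
    intro x hx
    rw [hL, Subgroup.mem_comap]
    exact h1 ⟨x, hx, rfl⟩
  have hfin : ∀ (hc : R.index.Coprime p), Cfsg.PLengthLE p 1 G := by
    intro hc
    rw [plen_iff hp]
    refine RLen.of_three (K := R) bot_le le_top ?_ ?_
    · rw [Subgroup.relIndex_bot_left]
      exact IsPGroup.iff_card.mp hRp
    · rw [Subgroup.relIndex_top_right]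
      exact hc
  by_cases hCT : R ⊓ 𝓒(T) = ⊥
  · -- complement
    apply hfin
    by_contra hnc
    rw [Nat.coprime_comm, Nat.Prime.coprime_iff_not_dvd hp, not_not] at hnc
    have hfr : R ⊔ 𝓝(T) = ⊤ := by
      rw [eq_top_iff]
      intro g0 _
      obtain ⟨r, hr, hrT⟩ := CfsgLib.Coprime.sz_conj (N := R) (H := T) (K := MulAut.conj g0 • T)
        (by rw [Subgroup.normalizer_eq_top]; exact le_top)
        (by rw [hTc]; exact hcop1.symm) (Or.inr hRsolv)
        (by
          rw [hRTL]
          intro y hy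
          rw [Subgroup.mem_pointwise_smul_iff_inv_smul_mem] at hy
          have h1 : (MulAut.conj g0)⁻¹ • y ∈ L := hTL hy
          have h2 := Subgroup.Normal.conj_mem (inferInstance : L.Normal) _ h1 g0
          have h3 : g0 * ((MulAut.conj g0)⁻¹ • y) * g0⁻¹ = y := by
            rw [← map_inv, MulAut.smul_def, MulAut.conj_apply]; group
          rwa [h3] at h2)
        (by
          exact Nat.card_congr (Subgroup.equivSMul (MulAut.conj g0) T).symm.toEquiv)
      have hg : r⁻¹ * g0 ∈ 𝓝(T) := by
        rw [Subgroup.mem_normalizer_iff]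
        have h1 : MulAut.conj (r⁻¹ * g0) • T = T := by
          rw [map_mul, mul_smul, ← hrT, ← mul_smul, ← map_mul]
          simp
        intro t
        constructor
        · intro ht
          have h2 : MulAut.conj (r⁻¹ * g0) • t ∈ MulAut.conj (r⁻¹ * g0) • T := Subgroup.smul_mem_pointwise_smul _ _ _ ht
          rw [h1] at h2
          exact h2
        · intro ht
          rw [← h1] at ht
          have h2 : (r⁻¹ * g0) * t * (r⁻¹ * g0)⁻¹ = MulAut.conj (r⁻¹ * g0) • t := rfl
          rw [h2, Subgroup.smul_mem_pointwise_smul_iff] at ht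
          exact ht
      have h3 : g0 = r * (r⁻¹ * g0) := by group
      rw [h3]
      exact Subgroup.mul_mem_sup hr hg
    have hinf : R ⊓ 𝓝(T) = ⊥ := by
      rw [eq_bot_iff, ← hCT]
      refine le_inf inf_le_left ?_
      intro x hx
      rw [mem_cz]
      intro t ht
      have h1 : x * t * x⁻¹ * t⁻¹ ∈ T := mul_mem ((Subgroup.mem_normalizer_iff.1 hx.2 t).1 ht) (inv_mem ht)
      have h2 : x * t * x⁻¹ * t⁻¹ ∈ R := by
        have : x * t * x⁻¹ * t⁻¹ = x * (t * x⁻¹ * t⁻¹) := by group
        rw [this]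
        exact mul_mem hx.1 (hRn.conj_mem _ (inv_mem hx.1) t)
      have h3 : x * t * x⁻¹ * t⁻¹ ∈ R ⊓ T := ⟨h2, h1⟩
      rw [hRT, Subgroup.mem_bot] at h3
      have h4 : x * t = t * x := by
        calc x * t = (x * t * x⁻¹ * t⁻¹) * (t * x) := by group
          _ = _ := by rw [h3, one_mul]
      exact h4.symm
    have hcard := card_sup_mul_card_inf (H := 𝓝(T)) (K := R) (le_top.trans (Subgroup.normalizer_eq_top (H := R)).ge)
    rw [sup_comm, hfr, inf_comm, hinf, Subgroup.card_bot, mul_one, Subgroup.card_top] at hcard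
    have h5 := Subgroup.card_mul_index R
    rw [← h5, mul_comm] at hcard
    have h6 := Nat.eq_of_mul_eq_mul_right Nat.card_pos hcard
    rw [h6] at hnc
    obtain ⟨x, hx⟩ := exists_prime_orderOf_dvd_card' p hnc
    have h7 : orderOf (x : G) = p := by rw [Subgroup.orderOf_coe, hx]
    have h8 : (x : G) ∈ R ⊓ 𝓝(T) := ⟨hxR _ h7, x.2⟩
    rw [hinf, Subgroup.mem_bot] at h8
    rw [h8, orderOf_one] at h7
    exact hp.one_lt.ne h7
  · -- T centralises the elements of order p
    have h1 : p ∣ Nat.card ↥(R ⊓ 𝓒(T)) := by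
      obtain ⟨k, hk⟩ := IsPGroup.iff_card.mp (hRp.to_le (inf_le_left : R ⊓ 𝓒(T) ≤ R))
      have hk0 : k ≠ 0 := by
        rintro rfl
        rw [pow_zero] at hk
        exact hCT (Subgroup.card_eq_one.mp hk)
      rw [hk]; exact dvd_pow_self _ hk0
    obtain ⟨u, hu⟩ := exists_prime_orderOf_dvd_card' p h1
    have hu' : orderOf (u : G) = p := by rw [Subgroup.orderOf_coe, hu]
    have h2 : (u : G) ∈ Subgroup.centralizer (L : Set G) := by
      rw [← hRTL, ← Subgroup.zpowers_le, Subgroup.le_centralizer_iff, sup_le_iff]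
      constructor
      · rw [← Subgroup.le_centralizer_iff, Subgroup.zpowers_le]
        exact hxC _ hu'
      · rw [← Subgroup.le_centralizer_iff, Subgroup.zpowers_le]
        exact u.2.2
    have h3 : p ∣ Nat.card (Subgroup.centralizer (L : Set G)) := by
      rw [← hu', ← Subgroup.orderOf_mk _ h2]
      exact orderOf_dvd_natCard _
    have h4 : ∀ x : G, orderOf x = p → x ∈ Subgroup.centralizer (L : Set G) := char_all htrans _ h3
    have h5 : T ≤ 𝓒(R) := by
      apply cop_omega hp hp2 hRp (by rw [Subgroup.normalizer_eq_top]; exact le_top) hTp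
      intro x hx hxp a ha
      by_cases hx1 : x = 1
      · rw [hx1]; simp
      · have h6 := h4 x (orderOf_eq_prime hxp hx1)
        exact Subgroup.mem_centralizer_iff.1 h6 a (hTL ha)
    have h6 : T ≤ R ⊓ T := le_inf (h5.trans hHH) le_rfl
    rw [hRT, le_bot_iff] at h6
    have h7 : L = R := by rw [← hRTL, h6, sup_bot_eq]
    have h8 : K' = ⊥ := by
      rw [← Subgroup.card_eq_one, ← hrel, h7, Subgroup.relIndex_self]
    apply hfin
    by_cases hnt : Nontrivial (G ⧸ R)
    · exfalso
      rcases CfsgLib.PSolv19.psolv_core_ne_bot (CfsgLib.PSolv19.psolv_quotient hp hG R) with h | h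
      · exact h hOq
      · exact h h8
    · rw [not_nontrivial_iff_subsingleton] at hnt
      rw [Subgroup.index_eq_card, Nat.card_eq_one_iff_unique.mpr ⟨hnt, inferInstance⟩]
      exact Nat.coprime_one_left p

/-- lifting of subgroups of order `p` -/
theorem lift_order {G : Type*} [Group G] [Finite G] {p : ℕ} [hpf : Fact p.Prime] (M : Subgroup G) [M.Normal]
    (hM : (Nat.card M).Coprime p) (U' : Subgroup (G ⧸ M)) (hU' : Nat.card U' = p) :
    ∃ U : Subgroup G, Nat.card U = p ∧ U.map (QuotientGroup.mk' M) = U' := by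
  have hp := hpf.out
  obtain ⟨u', hu'⟩ := exists_prime_orderOf_dvd_card' p (dvd_of_eq hU'.symm)
  have hu'' : orderOf (u' : G ⧸ M) = p := by rw [Subgroup.orderOf_coe, hu']
  have hzu : zpowers (u' : G ⧸ M) = U' := by
    apply Subgroup.eq_of_le_of_card_ge
    · rw [Subgroup.zpowers_le]; exact u'.2
    · rw [Nat.card_zpowers, hu'', hU']
  obtain ⟨u₀, hu₀⟩ := QuotientGroup.mk'_surjective M (u' : G ⧸ M)
  obtain ⟨c, hc1, hc2⟩ : ∃ c : ℕ, Nat.card M ∣ c ∧ c ≡ 1 [MOD p] := by
    obtain ⟨c, h1, h2⟩ := Nat.chineseRemainder hM 0 1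
    exact ⟨c, (Nat.modEq_zero_iff_dvd).1 h1, h2⟩
  have h1 : QuotientGroup.mk' M (u₀ ^ c) = u' := by
    rw [map_pow, hu₀]
    have h2 : (u' : G ⧸ M) ^ c = (u' : G ⧸ M) ^ 1 := by
      rw [pow_eq_pow_iff_modEq, hu'']; exact hc2
    rw [h2, pow_one]
  have h2 : (u₀ ^ c) ^ p = 1 := by
    rw [← pow_mul, mul_comm, pow_mul]
    have h3 : u₀ ^ p ∈ M := by
      have h4 : QuotientGroup.mk' M (u₀ ^ p) = 1 := by rw [map_pow, hu₀, ← hu'', pow_orderOf_eq_one]
      exact (QuotientGroup.eq_one_iff _).1 h4
    obtain ⟨k, hk⟩ := hc1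
    rw [hk, pow_mul]
    have h5 : (u₀ ^ p) ^ Nat.card M = 1 := by
      have := pow_card_eq_one' (x := (⟨u₀ ^ p, h3⟩ : M))
      exact congrArg Subtype.val this
    rw [h5, one_pow]
  have h3 : orderOf (u₀ ^ c) = p := by
    apply orderOf_eq_prime h2
    intro h4
    rw [h4, map_one] at h1
    rw [← h1, orderOf_one] at hu''
    exact hp.one_lt.ne hu''
  refine ⟨zpowers (u₀ ^ c), by rw [Nat.card_zpowers, h3], ?_⟩
  rw [MonoidHom.map_zpowers, h1, hzu]

/-- The Gaschütz–Yen Theorem: let G be a finite p-soluble group, p an odd prime dividing its order, such that the automorphism group of G permutes the subgroups of G of order p transitively. Then G has p-length at most 1. -/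
theorem result {G : Type*} [Group G] [Finite G] {p : ℕ} [Fact p.Prime] (hp : p ≠ 2) (hdvd : p ∣ Nat.card G) (hG : Cfsg.IsPSolvable p G) (htrans : ∀ U V : Subgroup G, Nat.card U = p → Nat.card V = p → ∃ a : MulAut G, U.map a.toMonoidHom = V) : Cfsg.PLengthLE p 1 G := by
  have hp' := (Fact.out : p.Prime)
  set M := Cfsg.pPrimeCore p G with hM
  haveI hMc : M.Characteristic := by rw [hM]; infer_instance
  haveI : M.Normal := inferInstance
  have hMcop : (Nat.card M).Coprime p := CfsgLib.Cores.pPrimeCore_coprime p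
  have h1 : Cfsg.PLengthLE p 1 (G ⧸ M) := by
    apply core hp (CfsgLib.PSolv19.psolv_quotient hp' hG M)
    · exact CfsgLib.Cores.pPrimeCore_quotient_pPrimeCore p
    · intro U' V' hU' hV'
      obtain ⟨U, hU, hUm⟩ := lift_order M hMcop U' hU'
      obtain ⟨V, hV, hVm⟩ := lift_order M hMcop V' hV'
      obtain ⟨a, ha⟩ := htrans U V hU hV
      have hma : M.map a.toMonoidHom = M := Subgroup.characteristic_iff_map_eq.1 hMc a
      refine ⟨QuotientGroup.congr M M a hma, ?_⟩
      rw [← hUm, ← hVm, ← ha, Subgroup.map_map, Subgroup.map_map]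
      rfl
  have h2 : RLen p 0 (⊥ : Subgroup G) M := by
    apply RLen.of_prime' bot_le
    rw [Subgroup.relIndex_bot_left]
    exact hMcop
  have h3 := plen_ext hp' M h2 h1
  rwa [zero_add] at h3

end Cfsg.Agent.S3798
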