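import Cfsg.Statements.S3799
import Cfsg.Agent.LibHeis
import Cfsg.Agent.LibExForm4

set_option autoImplicit false
open Cfsg

namespace Cfsg.Agent.S3799

open Module

/-- the bilinear form `a · b'` -/
noncomputable def bf (p n : ℕ) : LinearMap.BilinForm (ZMod p) ((Fin n → ZMod p) × (Fin n → ZMod p)) :=
  LinearMap.mk₂ (ZMod p) (fun x y => x.1 ⬝ᵥ y.2)
    (by intro x y z; simp only [Prod.fst_add, add_dotProduct])
    (by intro c x y; simp only [Prod.smul_fst, smul_dotProduct])
    (by intro x y z; simp only [Prod.snd_add, dotProduct_add])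
    (by intro c x y; simp only [Prod.smul_snd, dotProduct_smul])

theorem bf_apply (p n : ℕ) (x y : (Fin n → ZMod p) × (Fin n → ZMod p)) : bf p n x y = x.1 ⬝ᵥ y.2 := rfl

/-- the action on `F × F^n × F` -/
noncomputable def act (p n : ℕ) (x : CfsgLib.ExForm.Heis (bf p n)) : Module.End (ZMod p) (ZMod p × (Fin n → ZMod p) × ZMod p) where
  toFun w := (w.1 + x.v.1 ⬝ᵥ w.2.1 + x.a * w.2.2, w.2.1 + w.2.2 • x.v.2, w.2.2)
  map_add' w w' := by
    ext i
    · simp only [Prod.fst_add, Prod.snd_add, dotProduct_add]; ring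
    · simp only [Prod.fst_add, Prod.snd_add, Pi.add_apply, Pi.smul_apply, smul_eq_mul]; ring
    · simp only [Prod.fst_add, Prod.snd_add]
  map_smul' c w := by
    ext i
    · simp only [Prod.smul_fst, Prod.smul_snd, dotProduct_smul, smul_eq_mul, RingHom.id_apply]; ring
    · simp only [Prod.smul_fst, Prod.smul_snd, Pi.add_apply, Pi.smul_apply, smul_eq_mul, RingHom.id_apply]; ring
    · simp only [Prod.smul_fst, Prod.smul_snd, RingHom.id_apply]

theorem act_apply (p n : ℕ) (x : CfsgLib.ExForm.Heis (bf p n)) (w : ZMod p × (Fin n → ZMod p) × ZMod p) :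
    act p n x w = (w.1 + x.v.1 ⬝ᵥ w.2.1 + x.a * w.2.2, w.2.1 + w.2.2 • x.v.2, w.2.2) := rfl

/-- as a homomorphism -/
noncomputable def actHom (p n : ℕ) : CfsgLib.ExForm.Heis (bf p n) →* Module.End (ZMod p) (ZMod p × (Fin n → ZMod p) × ZMod p) where
  toFun := act p n
  map_one' := by
    apply LinearMap.ext
    intro w
    rw [act_apply, CfsgLib.ExForm.Heis.one_v, CfsgLib.ExForm.Heis.one_a]
    ext i
    · simp
    · simp
    · simp
  map_mul' x y := by
    apply LinearMap.ext
    intro w
    rw [Module.End.mul_apply, act_apply, act_apply, act_apply, CfsgLib.ExForm.Heis.mul_v, CfsgLib.ExForm.Heis.mul_a, bf_apply]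
    ext i
    · simp only [Prod.fst_add, add_dotProduct, dotProduct_add, dotProduct_smul, smul_eq_mul]; ring
    · simp only [Prod.snd_add, Pi.add_apply, Pi.smul_apply, smul_eq_mul]; ring
    · rfl

theorem actHom_injective (p n : ℕ) : Function.Injective (actHom p n) := by
  intro x y h
  have h1 : ∀ w, act p n x w = act p n y w := fun w => LinearMap.congr_fun h w
  have h2 := h1 (0, 0, 1)
  rw [act_apply, act_apply] at h2
  simp only [dotProduct_zero, add_zero, zero_add, mul_one, one_smul, Prod.mk.injEq, and_true] at h2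
  ext i
  · have h3 := h1 (0, Pi.single i 1, 0)
    rw [act_apply, act_apply] at h3
    simp only [dotProduct_single, mul_one, mul_zero, add_zero, zero_add, Prod.mk.injEq] at h3
    exact h3.1
  · rw [h2.2]
  · exact h2.1

theorem ex (p : ℕ) [hp : Fact p.Prime] (n : ℕ) (hn : 1 ≤ n) : Cfsg.IsExtraspecial p (CfsgLib.ExForm.Heis (bf p n)) := by
  apply CfsgLib.ExForm.FormData.isExtraspecial (CfsgLib.ExForm.Heis.formData (β := bf p n))
  · intro v hv
    by_contra hcon
    push Not at hcon
    apply hv
    have h1 : ∀ w : (Fin n → ZMod p) × (Fin n → ZMod p), v.1 ⬝ᵥ w.2 - w.1 ⬝ᵥ v.2 = 0 := hcon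
    ext i
    · have h2 := h1 (0, Pi.single i 1)
      simp only [dotProduct_single, mul_one, zero_dotProduct, sub_zero] at h2
      exact h2
    · have h2 := h1 (Pi.single i 1, 0)
      simp only [dotProduct_zero, single_dotProduct, one_mul, zero_sub, neg_eq_zero] at h2
      exact h2
  · refine ⟨(fun _ => 1, 0), fun h => ?_⟩
    have h1 := congrFun (congrArg Prod.fst h) (⟨0, hn⟩ : Fin n)
    exact one_ne_zero h1

/-- For every odd prime p and every n ≥ 1 there is an extraspecial p-group of order p^(1+2n) and exponent p; concretely, the general linear group of degree n + 2 over the field with p elements contains such a subgroup. -/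
theorem result (p : ℕ) [Fact p.Prime] (hp : p ≠ 2) (n : ℕ) (hn : 1 ≤ n) : ∃ E : Subgroup (Matrix.GeneralLinearGroup (Fin (n + 2)) (ZMod p)), Cfsg.IsExtraspecial p ↥E ∧ Nat.card E = p ^ (1 + 2 * n) ∧ ∀ x ∈ E, x ^ p = 1 := by
  classical
  let W := ZMod p × (Fin n → ZMod p) × ZMod p
  have hW : finrank (ZMod p) W = n + 2 := by
    show finrank (ZMod p) (ZMod p × (Fin n → ZMod p) × ZMod p) = n + 2
    rw [Module.finrank_prod, Module.finrank_prod, Module.finrank_self, Module.finrank_pi, Fintype.card_fin]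
    omega
  let b := Module.finBasisOfFinrankEq (ZMod p) W hW
  let g : CfsgLib.ExForm.Heis (bf p n) →* GL (Fin (n + 2)) (ZMod p) :=
    (Units.mapEquiv (LinearMap.toMatrixAlgEquiv b).toMulEquiv).toMonoidHom.comp (actHom p n).toHomUnits
  have hg : Function.Injective g := by
    intro x y h
    have h1 : (actHom p n).toHomUnits x = (actHom p n).toHomUnits y := (Units.mapEquiv (LinearMap.toMatrixAlgEquiv b).toMulEquiv).injective h
    exact actHom_injective p n (congrArg Units.val h1)
  let e := MonoidHom.ofInjective hg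
  refine ⟨g.range, ?_, ?_, ?_⟩
  · exact CfsgLib.ExtraH28.isExtraspecial_congr e (ex p n hn)
  · rw [← Nat.card_congr e.toEquiv, Nat.card_congr CfsgLib.ExForm.Heis.equivProd, Nat.card_prod, Nat.card_prod, Nat.card_zmod]
    rw [Nat.card_eq_fintype_card, Fintype.card_fun, ZMod.card, Fintype.card_fin, ← pow_add, ← pow_succ]
    congr 1
    omega
  · rintro _ ⟨x, rfl⟩
    rw [← map_pow, CfsgLib.ExForm.Heis.pow_eq]
    have h1 : (⟨p • x.v, p • x.a + (p.choose 2) • bf p n x.v x.v⟩ : CfsgLib.ExForm.Heis (bf p n)) = 1 := by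
      ext i
      · show (p • x.v).1 i = 0
        rw [← Nat.cast_smul_eq_nsmul (ZMod p), CharP.cast_eq_zero, zero_smul]; rfl
      · show (p • x.v).2 i = 0
        rw [← Nat.cast_smul_eq_nsmul (ZMod p), CharP.cast_eq_zero, zero_smul]; rfl
      · show p • x.a + (p.choose 2) • bf p n x.v x.v = 0
        have h2 : ((p.choose 2 : ℕ) : ZMod p) = 0 := by
          rw [ZMod.natCast_eq_zero_iff]
          exact (Fact.out : p.Prime).dvd_choose_self (by norm_num) (by have := (Fact.out : p.Prime).two_le; omega)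
        rw [nsmul_eq_mul, nsmul_eq_mul, CharP.cast_eq_zero, h2, zero_mul, zero_mul, add_zero]
    rw [h1, map_one]

end Cfsg.Agent.S3799
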