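import Cfsg.Statements.S3979
import Cfsg.Agent.LibSchur3

set_option autoImplicit false
open Cfsg

namespace Cfsg.Agent.S3979

set_option linter.style.haveILetI false
set_option linter.unusedSectionVars false
set_option linter.unusedVariables false

open Subgroup CfsgLib.Schur

/-- A finite cyclic group has trivial Schur multiplier: every finite stem extension of it is an isomorphism, said through `HasCyclicSchurMultiplier G 1`. -/
theorem result {G : Type*} [Group G] [Finite G] [IsCyclic G] : Cfsg.HasCyclicSchurMultiplier G 1 := by
  rw [hasCyclic_one_iff']
  intro Γ _ _ σ hσ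
  have hab : ∀ a b : Γ, a * b = b * a :=
    (MonoidHom.isMulCommutative_of_isCyclic_of_ker_le_center σ hσ.2.1).is_comm.comm
  rw [eq_bot_iff]
  refine hσ.2.2.trans ?_
  rw [_root_.commutator_def, Subgroup.commutator_le]
  intro a _ b _
  rw [mem_bot, commutatorElement_eq_one_iff_commute]
  exact hab a b

end Cfsg.Agent.S3979
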