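import Cfsg.Statements.S3950
import Cfsg.Agent.LibSchur4
import Cfsg.Agent.S3979

set_option autoImplicit false
open Cfsg

namespace Cfsg.Agent.S3950

set_option linter.style.haveILetI false
set_option linter.unusedSectionVars false
set_option linter.unusedVariables false

open Subgroup CfsgLib.Schur
open scoped commutatorElement

/-- a bilinear map from two homs to `ZMod p`. -/
def bil {G : Type*} [Group G] {p : ℕ} (χ ψ : G →* Multiplicative (ZMod p)) : G →* G →* Multiplicative (ZMod p) :=
  { toFun := fun u =>
      { toFun := fun v => Multiplicative.ofAdd (Multiplicative.toAdd (χ u) * Multiplicative.toAdd (ψ v))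
        map_one' := by rw [map_one ψ, toAdd_one, mul_zero]; rfl
        map_mul' := by
          intro a b
          change Multiplicative.ofAdd (Multiplicative.toAdd (χ u) * Multiplicative.toAdd (ψ (a * b))) = _
          rw [map_mul ψ, toAdd_mul, mul_add]; rfl }
    map_one' := by
      apply MonoidHom.ext; intro v
      change Multiplicative.ofAdd (Multiplicative.toAdd (χ 1) * Multiplicative.toAdd (ψ v)) = 1
      rw [map_one χ, toAdd_one, zero_mul]; rfl
    map_mul' := by
      intro a b
      apply MonoidHom.ext; intro v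
      change Multiplicative.ofAdd (Multiplicative.toAdd (χ (a * b)) * Multiplicative.toAdd (ψ v)) = _
      rw [map_mul χ, toAdd_mul, add_mul]; rfl }

/-- A finite abelian group has trivial Schur multiplier if and only if it is cyclic. -/
theorem result {G : Type*} [CommGroup G] [Finite G] : Cfsg.HasCyclicSchurMultiplier G 1 ↔ IsCyclic G := by
  constructor
  · intro hM
    have hMS := hasCyclic_one_iff.mp hM
    -- every commutator-kernel intersection is trivial
    have hkey : ∀ {p : ℕ} (χ ψ : G →* Multiplicative (ZMod p)) (a b : G),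
        Multiplicative.toAdd (χ a) * Multiplicative.toAdd (ψ b) = Multiplicative.toAdd (χ b) * Multiplicative.toAdd (ψ a) := by
      intro p χ ψ a b
      obtain ⟨f, hf⟩ := exists_surj_inf (BExt.proj (bil χ ψ)) BExt.proj_surj BExt.central
      let a' : BExt (bil χ ψ) := ⟨a, 1⟩
      let b' : BExt (bil χ ψ) := ⟨b, 1⟩
      have h1 := BExt.comm_eq a' b' (mul_comm _ _)
      have h2 : ⁅a', b'⁆ ∈ (BExt.proj (bil χ ψ)).ker ⊓ commutator (BExt (bil χ ψ)) := by
        refine Subgroup.mem_inf.mpr ⟨?_, commutator_mem_commutator (mem_top _) (mem_top _)⟩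
        rw [h1, BExt.ker_proj]; exact ⟨_, rfl⟩
      obtain ⟨z, hz⟩ := hf ⟨_, h2⟩
      have h0 : ∀ z ∈ MS G, z = 1 := by
        rw [hMS]; intro z hz; exact mem_bot.mp hz
      have hz1 : z = 1 := Subtype.ext (h0 _ z.2)
      rw [hz1, map_one] at hz
      have h3 : ⁅a', b'⁆ = 1 := (congrArg Subtype.val hz).symm
      rw [h1] at h3
      have h4 : bil χ ψ a b * (bil χ ψ b a)⁻¹ = 1 := BExt.incl_inj (h3.trans (map_one _).symm)
      rw [mul_inv_eq_one] at h4
      exact Multiplicative.ofAdd.injective h4
    obtain ⟨ι, _, n, hn, ⟨ε⟩⟩ := CommGroup.equiv_prod_multiplicative_zmod_of_finite G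
    classical
    have hcop : ∀ i j : ι, i ≠ j → Nat.Coprime (n i) (n j) := by
      intro i j hij
      by_contra hnc
      obtain ⟨p, hp, hpi, hpj⟩ := Nat.Prime.not_coprime_iff_dvd.mp hnc
      haveI : Fact p.Prime := ⟨hp⟩
      let pr : ∀ k : ι, p ∣ n k → (G →* Multiplicative (ZMod p)) := fun k hk =>
        (AddMonoidHom.toMultiplicative (ZMod.castHom hk (ZMod p)).toAddMonoidHom).comp ((Pi.evalMonoidHom _ k).comp ε.toMonoidHom)
      have hpr : ∀ k hk (g : (i : ι) → Multiplicative (ZMod (n i))), Multiplicative.toAdd (pr k hk (ε.symm g)) = ZMod.castHom hk (ZMod p) (Multiplicative.toAdd (g k)) := by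
        intro k hk g
        change ZMod.castHom hk (ZMod p) (Multiplicative.toAdd ((ε (ε.symm g)) k)) = _
        rw [ε.apply_symm_apply]
      have h1 := hkey (pr i hpi) (pr j hpj) (ε.symm (Pi.mulSingle i (Multiplicative.ofAdd 1))) (ε.symm (Pi.mulSingle j (Multiplicative.ofAdd 1)))
      rw [hpr, hpr, hpr, hpr, Pi.mulSingle_eq_same, Pi.mulSingle_eq_same, Pi.mulSingle_eq_of_ne hij.symm, Pi.mulSingle_eq_of_ne hij] at h1
      simp only [toAdd_ofAdd, toAdd_one, map_one, map_zero, mul_one, mul_zero] at h1
      exact one_ne_zero h1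
    -- the element (1)_i generates
    haveI : ∀ i, NeZero (n i) := fun i => ⟨by have := hn i; omega⟩
    let g0 : (i : ι) → Multiplicative (ZMod (n i)) := fun i => Multiplicative.ofAdd 1
    have hord : orderOf g0 = ∏ i, n i := by
      apply Nat.dvd_antisymm
      · apply orderOf_dvd_of_pow_eq_one
        funext i
        change (Multiplicative.ofAdd (1 : ZMod (n i))) ^ (∏ i, n i) = 1
        obtain ⟨c, hc⟩ := Finset.dvd_prod_of_mem n (Finset.mem_univ i)
        rw [hc, pow_mul, ← ofAdd_nsmul]
        simp
      · apply Finset.prod_dvd_of_isRelPrime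
        · intro i _ j _ hij
          exact (Nat.coprime_iff_isRelPrime.mp (hcop i j hij))
        · intro i _
          have h1 : g0 ^ orderOf g0 = 1 := pow_orderOf_eq_one g0
          have h2 := congrFun h1 i
          change (Multiplicative.ofAdd (1 : ZMod (n i))) ^ orderOf g0 = 1 at h2
          rw [← ofAdd_nsmul] at h2
          have h3 : (orderOf g0 : ZMod (n i)) = 0 := by
            have := Multiplicative.ofAdd.injective (h2.trans ofAdd_zero.symm)
            simpa using this
          exact (ZMod.natCast_eq_zero_iff _ _).mp h3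
    have hcyc : IsCyclic ((i : ι) → Multiplicative (ZMod (n i))) := by
      apply isCyclic_of_orderOf_eq_card g0
      rw [hord, Nat.card_pi]
      apply Finset.prod_congr rfl
      intro i _
      rw [Nat.card_congr Multiplicative.toAdd, Nat.card_zmod]
    exact isCyclic_of_surjective ε.symm.toMonoidHom ε.symm.surjective
  · intro hc
    exact Cfsg.Agent.S3979.result

end Cfsg.Agent.S3950
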