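import Cfsg.Statements.S3951
import Cfsg.Agent.LibSchur4

set_option autoImplicit false
open Cfsg

namespace Cfsg.Agent.S3951

set_option linter.style.haveILetI false
set_option linter.unusedSectionVars false
set_option linter.unusedVariables false

open Subgroup CfsgLib.Schur
open scoped commutatorElement

/-- For positive integers `m` and `n` with `n` dividing `m`, the Schur multiplier of the abelian group `ZMod m × ZMod n` (written multiplicatively) is cyclic of order `n`. In particular the elementary abelian group of order `p ^ 2` has multiplier of order `p`. -/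
theorem result (m n : ℕ) [NeZero m] [NeZero n] (hnm : n ∣ m) : Cfsg.HasCyclicSchurMultiplier (Multiplicative (ZMod m × ZMod n)) n := by
  haveI : Finite (ZMod m) := inferInstance
  haveI : Finite (ZMod n) := inferInstance
  constructor
  · -- bilinear extension
    let f := ZMod.castHom hnm (ZMod n)
    let β : Multiplicative (ZMod m × ZMod n) →* Multiplicative (ZMod m × ZMod n) →* Multiplicative (ZMod n) :=
      { toFun := fun u =>
          { toFun := fun v => Multiplicative.ofAdd (f (Multiplicative.toAdd u).1 * (Multiplicative.toAdd v).2)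
            map_one' := by
              change Multiplicative.ofAdd (f (Multiplicative.toAdd u).1 * (0 : ZMod n)) = 1
              rw [mul_zero]; rfl
            map_mul' := by
              intro a b
              change Multiplicative.ofAdd (f (Multiplicative.toAdd u).1 * ((Multiplicative.toAdd a).2 + (Multiplicative.toAdd b).2)) = _
              rw [mul_add]; rfl }
        map_one' := by
          apply MonoidHom.ext
          intro v
          change Multiplicative.ofAdd (f 0 * (Multiplicative.toAdd v).2) = 1
          rw [map_zero, zero_mul]; rfl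
        map_mul' := by
          intro a b
          apply MonoidHom.ext
          intro v
          change Multiplicative.ofAdd (f ((Multiplicative.toAdd a).1 + (Multiplicative.toAdd b).1) * (Multiplicative.toAdd v).2) = _
          rw [map_add, add_mul]; rfl }
    refine ⟨BExt β, inferInstance, inferInstance, BExt.proj β, ⟨BExt.proj_surj, BExt.central, ?_⟩, ⟨(BExt.kerEquiv (β := β)).symm⟩⟩
    rw [BExt.ker_proj]
    rintro _ ⟨t, rfl⟩
    let a : BExt β := ⟨Multiplicative.ofAdd (1, 0), 1⟩
    let b : BExt β := ⟨Multiplicative.ofAdd (0, Multiplicative.toAdd t), 1⟩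
    have h1 : ⁅a, b⁆ = BExt.incl β t := by
      rw [BExt.comm_eq a b (mul_comm _ _)]
      congr 1
      change Multiplicative.ofAdd (f 1 * (Multiplicative.toAdd t)) * (Multiplicative.ofAdd (f 0 * (0 : ZMod n)))⁻¹ = t
      rw [map_one, one_mul, mul_zero, ofAdd_zero, inv_one, mul_one]; rfl
    rw [← h1]
    exact commutator_mem_commutator (mem_top _) (mem_top _)
  · intro Γ _ _ σ hσ
    have hz : ∀ z ∈ σ.ker, ∀ x, x * z = z * x := fun z hz x => mem_center_iff.mp (hσ.2.1 hz) x
    obtain ⟨x, hx⟩ := hσ.1 (Multiplicative.ofAdd (1, 0))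
    obtain ⟨y, hy⟩ := hσ.1 (Multiplicative.ofAdd (0, 1))
    have hgenQ : Subgroup.closure ({Multiplicative.ofAdd (1, 0), Multiplicative.ofAdd (0, 1)} : Set (Multiplicative (ZMod m × ZMod n))) = ⊤ := by
      rw [eq_top_iff]
      intro u _
      have h1 : Multiplicative.ofAdd ((1, 0) : ZMod m × ZMod n) ∈ Subgroup.closure ({Multiplicative.ofAdd (1, 0), Multiplicative.ofAdd (0, 1)} : Set (Multiplicative (ZMod m × ZMod n))) :=
        Subgroup.subset_closure (by simp)
      have h2 : Multiplicative.ofAdd ((0, 1) : ZMod m × ZMod n) ∈ Subgroup.closure ({Multiplicative.ofAdd (1, 0), Multiplicative.ofAdd (0, 1)} : Set (Multiplicative (ZMod m × ZMod n))) :=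
        Subgroup.subset_closure (by simp)
      have h3 : u = (Multiplicative.ofAdd ((1, 0) : ZMod m × ZMod n)) ^ (Multiplicative.toAdd u).1.val * (Multiplicative.ofAdd ((0, 1) : ZMod m × ZMod n)) ^ (Multiplicative.toAdd u).2.val := by
        rw [← ofAdd_nsmul, ← ofAdd_nsmul, ← ofAdd_add]
        apply Multiplicative.toAdd.injective
        rw [toAdd_ofAdd]
        apply Prod.ext
        · simp
        · simp
      rw [h3]
      exact mul_mem (pow_mem h1 _) (pow_mem h2 _)
    have hgen : Subgroup.closure {x, y} = (⊤ : Subgroup Γ) := by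
      apply closure_eq_top_of_stem σ hσ
      rw [Set.image_pair, hx, hy]; exact hgenQ
    have hck : ∀ a b : Γ, ⁅a, b⁆ ∈ σ.ker := by
      intro a b
      rw [MonoidHom.mem_ker, map_commutatorElement, commutatorElement_eq_one_iff_commute]
      exact mul_comm _ _
    have hc : ⁅x, y⁆ ∈ σ.ker := hck x y
    have hNn : (zpowers ⁅x, y⁆).Normal := by
      refine ⟨fun a ha g => ?_⟩
      have : a ∈ σ.ker := (zpowers_le.mpr hc) ha
      rw [hz a this g, mul_inv_cancel_right]; exact ha
    have hcomm : commutator Γ ≤ zpowers ⁅x, y⁆ := by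
      apply comm_le_of_gen (zpowers ⁅x, y⁆) {x, y} hgen
      rintro g (rfl | rfl) h (rfl | rfl)
      · rw [commutatorElement_self]; exact one_mem _
      · exact mem_zpowers _
      · have h5 := inv_mem (mem_zpowers ⁅h, g⁆)
        rwa [commutatorElement_inv] at h5
      · rw [commutatorElement_self]; exact one_mem _
    have hpow : ∀ k : ℕ, ⁅x, y ^ k⁆ = ⁅x, y⁆ ^ k := by
      intro k
      induction k with
      | zero => simp
      | succ k ih =>
        have h1 : ⁅x, y ^ (k + 1)⁆ = ⁅x, y ^ k⁆ * (y ^ k * ⁅x, y⁆ * (y ^ k)⁻¹) := by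
          rw [pow_succ]; simp only [commutatorElement_def]; group
        rw [h1, hz _ hc, mul_inv_cancel_right, ih, pow_succ]
    refine exists_surj_zmod n (⟨⁅x, y⁆, hc⟩ : σ.ker) ?_ ?_
    · apply Subtype.ext
      change ⁅x, y⁆ ^ n = 1
      rw [← hpow, commutatorElement_eq_one_iff_commute]
      have h2 : y ^ n ∈ σ.ker := by
        rw [MonoidHom.mem_ker, map_pow, hy, ← ofAdd_nsmul]
        have : n • ((0, 1) : ZMod m × ZMod n) = 0 := by
          apply Prod.ext
          · simp
          · simp
        rw [this]; rfl
      exact hz _ h2 x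
    · rintro ⟨k, hk⟩
      obtain ⟨j, hj⟩ := mem_zpowers_iff.mp (hcomm (hσ.2.2 hk))
      exact mem_zpowers_iff.mpr ⟨j, Subtype.ext hj⟩

end Cfsg.Agent.S3951
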