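import Cfsg.Statements.S3952
import Cfsg.Agent.LibSchur6
import Cfsg.Agent.LibCharBasic2

set_option autoImplicit false
open Cfsg

namespace Cfsg.Agent.S3952

set_option linter.style.haveILetI false
set_option linter.unusedSectionVars false
set_option linter.unusedVariables false

open Subgroup CfsgLib.Schur CfsgLib.CharBasic

theorem central_char {Γ : Type*} [Group Γ] (K : Subgroup Γ) (hK : K ≤ center Γ) {χ : Γ → ℂ}
    (h : Cfsg.IsIrrCharacter Γ χ) : ∃ (d : ℕ) (ω : K →* ℂˣ), χ 1 = d ∧ (∀ k : K, χ k = d * ((ω k : ℂˣ) : ℂ)) ∧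
      (K ≤ _root_.commutator Γ → ω ^ d = 1) := by
  obtain ⟨n, ρ, hρ, rfl⟩ := h
  haveI := hρ
  have hd := irr_finrank_pos ρ
  set d := Module.finrank ℂ (Fin n → ℂ) with hddef
  have hsc : ∀ k : K, ∃ c : ℂ, ρ (k : Γ) = c • LinearMap.id := by
    intro k
    apply schur_scalar ρ (ρ k)
    intro g v
    rw [← Module.End.mul_apply, ← Module.End.mul_apply, ← map_mul, ← map_mul, Subgroup.mem_center_iff.mp (hK k.2) g]
  choose c hc using hsc
  have hid : ∀ a b : ℂ, a • (LinearMap.id : (Fin n → ℂ) →ₗ[ℂ] (Fin n → ℂ)) = b • LinearMap.id → a = b := by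
    intro a b hab
    have h1 := congrArg (LinearMap.trace ℂ (Fin n → ℂ)) hab
    rw [map_smul, map_smul, LinearMap.trace_id, smul_eq_mul, smul_eq_mul] at h1
    have h2 : (Module.finrank ℂ (Fin n → ℂ) : ℂ) ≠ 0 := by exact_mod_cast hd.ne'
    exact mul_right_cancel₀ h2 h1
  let c' : K →* ℂ :=
    { toFun := c
      map_one' := by
        apply hid
        rw [← hc]
        change ρ 1 = _
        rw [map_one, one_smul]; rfl
      map_mul' := by
        intro k l
        apply hid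
        rw [← hc]
        change ρ ((k : Γ) * l) = _
        rw [map_mul, hc, hc, mul_smul]
        ext v
        simp
        ring }
  let ω : K →* ℂˣ := c'.toHomUnits
  have hω : ∀ k, ((ω k : ℂˣ) : ℂ) = c k := fun k => rfl
  refine ⟨d, ω, Representation.char_one ρ, ?_, ?_⟩
  · intro k
    rw [Representation.character, hc, map_smul, LinearMap.trace_id, smul_eq_mul, mul_comm, hω]
  · intro hKc
    let D : Γ →* ℂˣ := (LinearMap.det.comp (ρ : Γ →* ((Fin n → ℂ) →ₗ[ℂ] (Fin n → ℂ)))).toHomUnits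
    ext k
    have h1 : D (k : Γ) = 1 := Abelianization.commutator_subset_ker D (hKc k.2)
    have h2 : ((D (k : Γ) : ℂˣ) : ℂ) = LinearMap.det (ρ (k : Γ)) := rfl
    rw [h1, hc, LinearMap.det_smul, LinearMap.det_id, mul_one] at h2
    change (((ω k) ^ d : ℂˣ) : ℂ) = 1
    rw [Units.val_pow_eq_pow_val, hω, ← h2]
    rfl


/-- If `A` is the Schur multiplier of the finite group `Q`, then the square of the exponent of `A` divides the order of `Q`. -/
theorem result {Q : Type*} [Group Q] [Finite Q] {A : Type*} [CommGroup A] (hA : Cfsg.HasSchurMultiplier Q A) : Monoid.exponent A ^ 2 ∣ Nat.card Q := by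
  classical
  haveI := finite_of_hasSchur hA
  obtain ⟨⟨Γ, _, _, σ, hσ, ⟨ε⟩⟩, -⟩ := hA
  let K := σ.ker
  letI : CommGroup K :=
    { (inferInstance : Group K) with
      mul_comm := fun a b => Subtype.ext (mem_center_iff.mp (hσ.2.1 b.2) a) }
  have hexp : Monoid.exponent A = Monoid.exponent K := (Monoid.exponent_eq_of_mulEquiv ε).symm
  obtain ⟨δ⟩ := CommGroup.monoidHom_mulEquiv_of_hasEnoughRootsOfUnity K ℂ
  haveI : Finite (K →* ℂˣ) := Finite.of_equiv _ δ.symm.toEquiv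
  obtain ⟨k0, hk0⟩ := Monoid.exists_orderOf_eq_exponent (G := K) (Monoid.ExponentExists.of_finite)
  obtain ⟨lam, hlam⟩ : ∃ lam : K →* ℂˣ, orderOf lam = Monoid.exponent A := by
    refine ⟨δ.symm k0, ?_⟩
    rw [hexp, ← hk0]
    exact MulEquiv.orderOf_eq δ.symm k0
  haveI := Fintype.ofFinite Γ
  haveI := Fintype.ofFinite K
  have hall : ∀ χ : Cfsg.IrrCharacter Γ, ∃ (d : ℕ) (ω : K →* ℂˣ), (χ : Γ → ℂ) 1 = d ∧ (∀ k : K, (χ : Γ → ℂ) k = d * ((ω k : ℂˣ) : ℂ)) ∧ ω ^ d = 1 := by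
    intro χ
    obtain ⟨d, ω, h1, h2, h3⟩ := central_char K hσ.2.1 χ.2
    exact ⟨d, ω, h1, h2, h3 hσ.2.2⟩
  choose d ω h1 h2 h3 using hall
  have hsum : ∀ k : K, ∑ χ : Cfsg.IrrCharacter Γ, (d χ : ℂ) * ((d χ : ℂ) * ((ω χ k : ℂˣ) : ℂ)) = if k = 1 then (Nat.card Γ : ℂ) else 0 := by
    intro k
    split_ifs with hk
    · subst hk
      rw [← sum_sq_degree (G := Γ)]
      refine Finset.sum_congr rfl (fun χ _ => ?_)
      rw [h1, map_one, Units.val_one, mul_one, sq]
    · rw [← sum_degree_mul (G := Γ) (k : Γ) (fun h => hk (Subtype.ext h))]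
      refine Finset.sum_congr rfl (fun χ _ => ?_)
      rw [h1, h2]
  have hmain : ∑ χ : Cfsg.IrrCharacter Γ, (d χ : ℂ) ^ 2 * ∑ k : K, (((lam⁻¹ * ω χ) k : ℂˣ) : ℂ) = (Nat.card Γ : ℂ) := by
    have h4 : ∑ k : K, (((lam⁻¹) k : ℂˣ) : ℂ) * (∑ χ : Cfsg.IrrCharacter Γ, (d χ : ℂ) * ((d χ : ℂ) * ((ω χ k : ℂˣ) : ℂ))) = (Nat.card Γ : ℂ) := by
      rw [Finset.sum_eq_single (1 : K)]
      · rw [hsum, if_pos rfl, map_one, Units.val_one, one_mul]
      · intro k _ hk
        rw [hsum, if_neg hk, mul_zero]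
      · intro h; exact absurd (Finset.mem_univ _) h
    rw [← h4]
    simp_rw [Finset.mul_sum]
    rw [Finset.sum_comm]
    refine Finset.sum_congr rfl (fun k _ => Finset.sum_congr rfl (fun χ _ => ?_))
    rw [MonoidHom.mul_apply, Units.val_mul]
    ring
  have hin : ∀ χ : Cfsg.IrrCharacter Γ, ∑ k : K, (((lam⁻¹ * ω χ) k : ℂˣ) : ℂ) = if ω χ = lam then (Nat.card K : ℂ) else 0 := by
    intro χ
    have h5 := sum_hom_units ((Units.coeHom ℂ).comp (lam⁻¹ * ω χ))
    have h6 : ((Units.coeHom ℂ).comp (lam⁻¹ * ω χ) = 1) ↔ ω χ = lam := by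
      constructor
      · intro h
        have h7 : lam⁻¹ * ω χ = 1 := by
          ext k
          exact DFunLike.congr_fun h k
        exact (inv_mul_eq_one.mp h7).symm
      · intro h
        ext k
        rw [h]
        change ((((lam k)⁻¹ * lam k : ℂˣ)) : ℂ) = 1
        rw [inv_mul_cancel, Units.val_one]
    rw [Nat.card_eq_fintype_card]
    have h8 : ∑ k : K, (((lam⁻¹ * ω χ) k : ℂˣ) : ℂ) = ∑ k : K, ((Units.coeHom ℂ).comp (lam⁻¹ * ω χ)) k := rfl
    rw [h8, h5]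
    by_cases h : ω χ = lam
    · rw [if_pos (h6.mpr h), if_pos h]
    · rw [if_neg (fun h' => h (h6.mp h')), if_neg h]; simp
  simp_rw [hin, mul_ite, mul_zero] at hmain
  rw [← Finset.sum_filter, ← Finset.sum_mul] at hmain
  have hcard : Nat.card Γ = Nat.card Q * Nat.card K := by
    rw [Subgroup.card_eq_card_quotient_mul_card_subgroup σ.ker,
      Nat.card_congr (QuotientGroup.quotientKerEquivOfSurjective σ hσ.1).toEquiv]
  rw [hcard] at hmain
  have hK0 : (Nat.card K : ℂ) ≠ 0 := by exact_mod_cast Nat.card_pos.ne'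
  have hmain2 : ∑ χ : Cfsg.IrrCharacter Γ with ω χ = lam, (d χ) ^ 2 = Nat.card Q := by
    have h9 : (∑ χ : Cfsg.IrrCharacter Γ with ω χ = lam, (d χ : ℂ) ^ 2) = (Nat.card Q : ℂ) := by
      apply mul_right_cancel₀ hK0
      rw [hmain, Nat.cast_mul]
    exact_mod_cast h9
  rw [← hmain2]
  apply Finset.dvd_sum
  intro χ hχ
  have h10 : ω χ = lam := (Finset.mem_filter.mp hχ).2
  apply pow_dvd_pow_of_dvd
  rw [← hlam]
  apply orderOf_dvd_of_pow_eq_one
  rw [← h10, h3]

end Cfsg.Agent.S3952
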