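import Cfsg.Statements.S3953
import Cfsg.Agent.LibSchur8

set_option autoImplicit false
open Cfsg

namespace Cfsg.Agent.S3953

set_option linter.style.haveILetI false
set_option linter.unusedSectionVars false
set_option linter.unusedVariables false

open Subgroup CfsgLib.Schur

/-- Let `P` be a Sylow `p`-subgroup of the finite group `G`, let `A` be the Schur multiplier of `G` and `B` that of `P`. Then the `p`-primary component of `A` is isomorphic to a direct factor of `B`: there are subgroups `C` and `D` of `B` meeting trivially and generating `B`, with `C` isomorphic to the `p`-primary component of `A`. -/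
theorem result {G : Type*} [Group G] [Finite G] (p : ℕ) [Fact p.Prime] (P : Sylow p G) {A B : Type*} [CommGroup A] [CommGroup B] (hA : Cfsg.HasSchurMultiplier G A) (hB : Cfsg.HasSchurMultiplier P B) : ∃ C D : Subgroup B, C ⊓ D = ⊥ ∧ C ⊔ D = ⊤ ∧ Nonempty (CommGroup.primaryComponent A p ≃* C) := by
  obtain ⟨α⟩ := equiv_of_hasSchur hA
  obtain ⟨β⟩ := equiv_of_hasSchur hB
  obtain ⟨γ⟩ := hopf (pH (P : Subgroup G)) (pH_surj (P : Subgroup G))
  obtain ⟨T1, c1, h⟩ := exists_T1 (P : Subgroup G)
  haveI : Finite (M G) := finite_MS G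
  haveI : Finite A := Finite.of_equiv _ α.toEquiv
  let T : A →* B := (β.toMonoidHom.comp γ.symm.toMonoidHom).comp (T1.comp α.symm.toMonoidHom)
  let c : B →* A := (α.toMonoidHom.comp c1).comp (γ.toMonoidHom.comp β.symm.toMonoidHom)
  refine split_primary p T c (P : Subgroup G).index ?_ ?_
  · exact (Nat.Prime.coprime_iff_not_dvd Fact.out).mpr P.not_dvd_index
  · intro a
    change α (c1 (γ (β.symm (β (γ.symm (T1 (α.symm a))))))) = a ^ _
    rw [β.symm_apply_apply, γ.apply_symm_apply, h, map_pow, α.apply_symm_apply]

end Cfsg.Agent.S3953
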