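import Cfsg.Statements.S3954
import Cfsg.Agent.LibSchur6

set_option autoImplicit false
open Cfsg

namespace Cfsg.Agent.S3954

set_option linter.style.haveILetI false
set_option linter.unusedSectionVars false
set_option linter.unusedVariables false

open Subgroup CfsgLib.Schur

/-- a quotient of a finite abelian group embeds in it -/
theorem embed_quot {B K : Type*} [CommGroup B] [Finite B] [CommGroup K] (f : B →* K) (hf : Function.Surjective f) :
    ∃ j : K →* B, Function.Injective j := by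
  haveI : Finite K := Finite.of_surjective f hf
  obtain ⟨a⟩ := CommGroup.monoidHom_mulEquiv_of_hasEnoughRootsOfUnity B ℂ
  obtain ⟨b⟩ := CommGroup.monoidHom_mulEquiv_of_hasEnoughRootsOfUnity K ℂ
  let r : (K →* ℂˣ) →* (B →* ℂˣ) :=
    { toFun := fun χ => χ.comp f
      map_one' := by ext; rfl
      map_mul' := by intros; ext; rfl }
  have hr : Function.Injective r := by
    intro χ ψ h
    ext x
    obtain ⟨y, rfl⟩ := hf x
    exact congrArg Units.val (DFunLike.congr_fun h y)
  exact ⟨(a.toMonoidHom.comp r).comp b.symm.toMonoidHom, (a.injective.comp hr).comp b.symm.injective⟩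


/-- Let `U` be a subgroup of index `m` in the finite group `G`, let `A` be the Schur multiplier of `G` and `B` that of `U`. Then the subgroup of `m`-th powers of `A` is isomorphic to a subgroup of `B`. -/
theorem result {G : Type*} [Group G] [Finite G] (U : Subgroup G) {A B : Type*} [CommGroup A] [CommGroup B] (hA : Cfsg.HasSchurMultiplier G A) (hB : Cfsg.HasSchurMultiplier U B) : ∃ C : Subgroup B, Nonempty ((powMonoidHom U.index : A →* A).range ≃* C) := by
  haveI := finite_of_hasSchur hB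
  obtain ⟨⟨Γ, _, _, σ, hσ, ⟨ε⟩⟩, -⟩ := hA
  obtain ⟨δ⟩ := equiv_of_hasSchur hB
  let ΓU : Subgroup Γ := U.comap σ
  let σU : ΓU →* U := σ.subgroupComap U
  have hσU : Function.Surjective σU := MonoidHom.subgroupComap_surjective_of_surjective σ U hσ.1
  have hσU' : ∀ x : ΓU, ((σU x : U) : G) = σ x := fun x => rfl
  have hker : ∀ x : ΓU, x ∈ σU.ker ↔ (x : Γ) ∈ σ.ker := by
    intro x
    rw [MonoidHom.mem_ker, MonoidHom.mem_ker, ← hσU']
    exact ⟨fun h => by rw [h]; rfl, fun h => Subtype.ext h⟩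
  have hc : σU.ker ≤ center ΓU := by
    intro x hx
    rw [mem_center_iff]
    intro y
    exact Subtype.ext (mem_center_iff.mp (hσ.2.1 ((hker x).mp hx)) y)
  obtain ⟨f, hf⟩ := exists_surj_inf σU hσU hc
  letI : CommGroup ↥(σU.ker ⊓ commutator ΓU) :=
    { (inferInstance : Group ↥(σU.ker ⊓ commutator ΓU)) with
      mul_comm := fun a b => Subtype.ext (mem_center_iff.mp (hc (inf_le_left (a := σU.ker) b.2)) a) }
  haveI : Finite (M U) := finite_MS U
  obtain ⟨j, hj⟩ := embed_quot (B := M U) (K := ↥(σU.ker ⊓ commutator ΓU)) f hf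
  -- the transfer
  have hidx : ΓU.index = U.index := index_comap_of_surjective U hσ.1
  have key : ∀ k ∈ σ.ker, ∃ h : k ^ U.index ∈ ΓU, (⟨k ^ U.index, h⟩ : ΓU) ∈ σU.ker ⊓ commutator ΓU := by
    intro k hk
    have hcent := mem_center_iff.mp (hσ.2.1 hk)
    have hkey : ∀ (n : ℕ) (g₀ : Γ), g₀⁻¹ * k ^ n * g₀ ∈ ΓU → g₀⁻¹ * k ^ n * g₀ = k ^ n := by
      intro n g₀ _
      have h1 : g₀ * k ^ n = k ^ n * g₀ := mem_center_iff.mp (pow_mem (hσ.2.1 hk) n) g₀
      rw [mul_assoc, ← h1, inv_mul_cancel_left]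
    have h1 := MonoidHom.transfer_eq_pow (Abelianization.of : ΓU →* Abelianization ΓU) k hkey
    have h2 : MonoidHom.transfer (Abelianization.of : ΓU →* Abelianization ΓU) k = 1 :=
      Abelianization.commutator_subset_ker _ (hσ.2.2 hk)
    rw [h2] at h1
    have h3 : k ^ ΓU.index ∈ ΓU := MonoidHom.transfer_eq_pow_aux k hkey
    have h4 : (⟨k ^ ΓU.index, h3⟩ : ΓU) ∈ commutator ΓU := (QuotientGroup.eq_one_iff _).mp h1.symm
    have h5 : k ^ ΓU.index = k ^ U.index := by rw [hidx]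
    refine ⟨h5 ▸ h3, ?_⟩
    have h6 : (⟨k ^ U.index, h5 ▸ h3⟩ : ΓU) = ⟨k ^ ΓU.index, h3⟩ := Subtype.ext h5.symm
    rw [h6]
    refine Subgroup.mem_inf.mpr ⟨?_, h4⟩
    rw [hker]
    exact pow_mem hk _
  have hmem : ∀ x : (powMonoidHom U.index : A →* A).range, ∃ h : ((ε.symm (x : A) : σ.ker) : Γ) ∈ ΓU,
      (⟨((ε.symm (x : A) : σ.ker) : Γ), h⟩ : ΓU) ∈ σU.ker ⊓ commutator ΓU := by
    rintro ⟨_, a, rfl⟩
    have h1 : ((ε.symm (powMonoidHom U.index a) : σ.ker) : Γ) = ((ε.symm a : σ.ker) : Γ) ^ U.index := by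
      rw [powMonoidHom_apply, map_pow]; rfl
    obtain ⟨h2, h3⟩ := key _ (ε.symm a).2
    refine ⟨h1 ▸ h2, ?_⟩
    have h4 : (⟨((ε.symm (powMonoidHom U.index a) : σ.ker) : Γ), h1 ▸ h2⟩ : ΓU) = ⟨((ε.symm a : σ.ker) : Γ) ^ U.index, h2⟩ := Subtype.ext h1
    change (⟨((ε.symm (powMonoidHom U.index a) : σ.ker) : Γ), _⟩ : ΓU) ∈ _
    rw [h4]
    exact h3
  let g : (powMonoidHom U.index : A →* A).range →* ↥(σU.ker ⊓ commutator ΓU) :=
    { toFun := fun x => ⟨⟨((ε.symm (x : A) : σ.ker) : Γ), (hmem x).choose⟩, (hmem x).choose_spec⟩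
      map_one' := by
        apply Subtype.ext; apply Subtype.ext
        change ((ε.symm ((1 : (powMonoidHom U.index : A →* A).range) : A) : σ.ker) : Γ) = 1
        rw [Subgroup.coe_one, map_one]; rfl
      map_mul' := by
        intro x y
        apply Subtype.ext; apply Subtype.ext
        change ((ε.symm ((x * y : (powMonoidHom U.index : A →* A).range) : A) : σ.ker) : Γ) = _
        rw [Subgroup.coe_mul, map_mul]; rfl }
  have hg : Function.Injective g := by
    intro x y hxy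
    have h1 : ((ε.symm (x : A) : σ.ker) : Γ) = ((ε.symm (y : A) : σ.ker) : Γ) :=
      congrArg (fun z : ↥(σU.ker ⊓ commutator ΓU) => ((z : ΓU) : Γ)) hxy
    exact Subtype.ext (ε.symm.injective (Subtype.ext h1))
  let F : (powMonoidHom U.index : A →* A).range →* B := δ.toMonoidHom.comp (j.comp g)
  have hF : Function.Injective F := δ.injective.comp (hj.comp hg)
  exact ⟨F.range, ⟨MonoidHom.ofInjective hF⟩⟩

end Cfsg.Agent.S3954
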