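import Cfsg.Statements.S3955
import Cfsg.Agent.LibSchur6

set_option autoImplicit false
open Cfsg

namespace Cfsg.Agent.S3955

set_option linter.style.haveILetI false
set_option linter.unusedSectionVars false
set_option linter.unusedVariables false

open Subgroup CfsgLib.Schur

/-- Let `Q` be a finite group with Schur multiplier `A`, and let `σ : Γ →* Q` be a finite stem extension whose kernel is isomorphic to `A` (a Schur covering group of `Q`). Then every homomorphism `γ` from `Q` to the quotient of `GL n ℂ` by its centre lifts along `σ`: there is a homomorphism `ρ : Γ →* GL n ℂ` which, followed by the quotient map, equals `γ ∘ σ`. -/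
theorem result {Q : Type*} [Group Q] [Finite Q] {A : Type*} [CommGroup A] (hA : Cfsg.HasSchurMultiplier Q A) {Γ : Type*} [Group Γ] [Finite Γ] (σ : Γ →* Q) (hσ : Cfsg.IsStemExtension σ) (hk : Nonempty (σ.ker ≃* A)) (n : ℕ) (γ : Q →* (GL (Fin n) ℂ ⧸ Subgroup.center (GL (Fin n) ℂ))) : ∃ ρ : Γ →* GL (Fin n) ℂ, (QuotientGroup.mk' (Subgroup.center (GL (Fin n) ℂ))).comp ρ = γ.comp σ := by
  obtain ⟨φ, hφ⟩ := exists_lift' (QuotientGroup.mk' (center (GL (Fin n) ℂ))) (QuotientGroup.mk'_surjective _)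
    (by rw [QuotientGroup.ker_mk']) γ
  have hφ' : ∀ x, QuotientGroup.mk' (center (GL (Fin n) ℂ)) (φ x) = γ (e Q x) := fun x => DFunLike.congr_fun hφ x
  obtain ⟨ψ, hψ⟩ := exists_lift σ hσ.1 hσ.2.1
  have hsurj := lift_surj hσ hψ
  have hinf := ker_lift_inf hA hσ hk hψ
  have hle := ker_lift_le hψ
  obtain ⟨φ', h1, h2⟩ := exists_kill ψ.ker hinf (hle.trans (e_central Q)) φ (by
    intro s hs
    have h3 := hφ' s
    rw [(MonoidHom.mem_ker).mp (hle hs), map_one] at h3
    exact (QuotientGroup.eq_one_iff _).mp h3) (divisible_center n)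
  have hfac : ∀ x y : E Q, ψ x = ψ y → φ' x = φ' y := by
    intro x y hxy
    have h3 : x⁻¹ * y ∈ ψ.ker := by rw [MonoidHom.mem_ker, map_mul, map_inv, hxy, inv_mul_cancel]
    have h4 := h2 _ h3
    rw [map_mul, map_inv, inv_mul_eq_one] at h4
    exact h4
  refine ⟨(MonoidHom.liftOfSurjective ψ hsurj) ⟨φ', fun x hx => ?_⟩, ?_⟩
  · exact h2 x hx
  · apply MonoidHom.ext
    intro g
    obtain ⟨x, rfl⟩ := hsurj g
    have h5 : (MonoidHom.liftOfSurjective ψ hsurj) ⟨φ', fun x hx => h2 x hx⟩ (ψ x) = φ' x :=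
      MonoidHom.liftOfRightInverse_comp_apply ψ _ (Function.rightInverse_surjInv hsurj) ⟨φ', fun x hx => h2 x hx⟩ x
    rw [MonoidHom.comp_apply, h5, MonoidHom.comp_apply, lift_apply hψ, ← hφ']
    obtain ⟨z, hz, hz'⟩ := h1 x
    rw [hz', map_mul]
    have h6 : QuotientGroup.mk' (center (GL (Fin n) ℂ)) z = 1 := (QuotientGroup.eq_one_iff _).mpr hz
    rw [h6, mul_one]

end Cfsg.Agent.S3955
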