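import Cfsg.Statements.S3956
import Cfsg.Agent.LibSchur6

set_option autoImplicit false
universe u v
open Cfsg

namespace Cfsg.Agent.S3956

set_option linter.style.haveILetI false
set_option linter.unusedSectionVars false
set_option linter.unusedVariables false

open Subgroup CfsgLib.Schur
open scoped commutatorElement

/-- Let `σ : Γ →* Q` be a finite stem extension of the finite group `Q` such that every homomorphism from `Q` to the quotient of `GL n ℂ` by its centre, for every `n`, lifts along `σ` to a homomorphism `Γ →* GL n ℂ`. Then `σ` is a Schur covering group of `Q`: for every finite stem extension `τ : Δ →* Q` with `Δ` in the same universe as `Q`, the kernel of `τ` is a homomorphic image of the kernel of `σ`. -/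
theorem result {Q : Type u} [Group Q] [Finite Q] {Γ : Type v} [Group Γ] [Finite Γ] (σ : Γ →* Q) (hσ : Cfsg.IsStemExtension σ) (hlift : ∀ (n : ℕ) (γ : Q →* (GL (Fin n) ℂ ⧸ Subgroup.center (GL (Fin n) ℂ))), ∃ ρ : Γ →* GL (Fin n) ℂ, (QuotientGroup.mk' (Subgroup.center (GL (Fin n) ℂ))).comp ρ = γ.comp σ) (Δ : Type u) [Group Δ] [Finite Δ] (τ : Δ →* Q) (hτ : Cfsg.IsStemExtension τ) : ∃ π : σ.ker →* τ.ker, Function.Surjective π := by
  obtain ⟨ψ, hψ⟩ := exists_lift σ hσ.1 hσ.2.1
  have hmap := map_MS hσ.2.1 hψ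
  rw [inf_eq_left.mpr hσ.2.2] at hmap
  -- ψ is injective on the multiplier
  have key : ∀ m ∈ MS Q, ψ m = 1 → m = 1 := by
    intro m hm hm1
    by_contra hne
    haveI : Finite (M Q) := finite_MS Q
    obtain ⟨l0, hl0⟩ := CommGroup.exists_apply_ne_one_of_hasEnoughRootsOfUnity (M Q) ℂ (a := ⟨m, hm⟩)
      (fun h => hne (congrArg Subtype.val h))
    letI : CommGroup (e Q).ker :=
      { (inferInstance : Group (e Q).ker) with
        mul_comm := fun a b => Subtype.ext (mem_center_iff.mp (e_central Q b.2) a) }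
    obtain ⟨lam, hlam⟩ := exists_extend (A := M Q) (B := (e Q).ker) divisible_complex (inclusion (MS_le_ker Q))
      (inclusion_injective _) l0
    have hlam' : lam ⟨m, MS_le_ker Q hm⟩ ≠ 1 := by
      intro h
      apply hl0
      rw [← hlam]
      exact h
    obtain ⟨n, hn, P, hP⟩ := exists_scalar_rep (e Q).ker lam (e_central Q)
    have hPc : ∀ z ∈ (e Q).ker, P z ∈ center (GL (Fin n) ℂ) := by
      intro z hz
      rw [Matrix.GeneralLinearGroup.center_eq_range_scalar]
      exact ⟨lam ⟨z, hz⟩, (hP ⟨z, hz⟩).symm⟩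
    -- the projective representation
    let mk := QuotientGroup.mk' (center (GL (Fin n) ℂ))
    let γ : Q →* (GL (Fin n) ℂ ⧸ center (GL (Fin n) ℂ)) :=
      (MonoidHom.liftOfSurjective (e Q) (e_surj Q)) ⟨mk.comp P, fun x hx => (QuotientGroup.eq_one_iff _).mpr (hPc x hx)⟩
    have hγ : ∀ x, γ (e Q x) = mk (P x) := fun x =>
      MonoidHom.liftOfRightInverse_comp_apply (e Q) _ (Function.rightInverse_surjInv (e_surj Q))
        ⟨mk.comp P, fun x hx => (QuotientGroup.eq_one_iff _).mpr (hPc x hx)⟩ x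
    obtain ⟨ρ, hρ⟩ := hlift n γ
    have hρ' : ∀ g, mk (ρ g) = γ (σ g) := fun g => DFunLike.congr_fun hρ g
    have h1 : ∀ x : E Q, ∃ z ∈ center (GL (Fin n) ℂ), P x = ρ (ψ x) * z := by
      intro x
      refine ⟨(ρ (ψ x))⁻¹ * P x, ?_, by group⟩
      rw [← QuotientGroup.eq]
      change mk (ρ (ψ x)) = mk (P x)
      rw [hρ', lift_apply hψ, hγ]
    have h2 : commutator (E Q) ≤ P.eqLocus (ρ.comp ψ) := by
      rw [_root_.commutator_def, Subgroup.commutator_le]
      intro a _ b _
      change P ⁅a, b⁆ = ρ (ψ ⁅a, b⁆)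
      obtain ⟨z, hz, hz'⟩ := h1 a
      obtain ⟨w, hw, hw'⟩ := h1 b
      rw [map_commutatorElement, hz', hw', comm_of_central hz hw, map_commutatorElement, map_commutatorElement]
    have h3 : P m = ρ (ψ m) := h2 (MS_le_comm Q hm)
    rw [hm1, map_one] at h3
    have h4 := hP ⟨m, MS_le_ker Q hm⟩
    rw [h3] at h4
    apply hlam'
    haveI : Nonempty (Fin n) := ⟨⟨0, Nat.pos_of_ne_zero hn⟩⟩
    apply Units.ext
    have h5 := congrArg (fun g : GL (Fin n) ℂ => (g : Matrix (Fin n) (Fin n) ℂ) ⟨0, Nat.pos_of_ne_zero hn⟩ ⟨0, Nat.pos_of_ne_zero hn⟩) h4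
    simpa [Matrix.GeneralLinearGroup.coe_scalar, Matrix.scalar_apply, Matrix.diagonal_apply] using h5.symm
  have hmem : ∀ x : M Q, ψ (x : E Q) ∈ σ.ker := by
    intro x
    rw [← hmap]; exact mem_map_of_mem _ x.2
  let f : M Q →* σ.ker := (ψ.comp (MS Q).subtype).codRestrict _ hmem
  have hf : Function.Bijective f := by
    constructor
    · rw [injective_iff_map_eq_one]
      intro x hx
      exact Subtype.ext (key x x.2 (congrArg Subtype.val hx))
    · rintro ⟨x, hx⟩
      rw [← hmap] at hx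
      obtain ⟨y, hy, rfl⟩ := hx
      exact ⟨⟨y, hy⟩, rfl⟩
  obtain ⟨g, hg⟩ := exists_surj τ hτ
  exact ⟨g.comp (MulEquiv.ofBijective f hf).symm.toMonoidHom, hg.comp (MulEquiv.ofBijective f hf).symm.surjective⟩

end Cfsg.Agent.S3956
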