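import Cfsg.Statements.S3958
import Cfsg.Agent.LibSchur3

set_option autoImplicit false
universe u v
open Cfsg

namespace Cfsg.Agent.S3958

set_option linter.style.haveILetI false
set_option linter.unusedSectionVars false
set_option linter.unusedVariables false

open Subgroup CfsgLib.Schur

/-- Let `σ : Γ →* Q` be a finite stem extension of the finite group `Q` with `Γ` of trivial Schur multiplier. Then `σ` is a Schur covering group of `Q`: for every finite stem extension `τ : Δ →* Q` with `Δ` in the same universe as `Q`, the kernel of `τ` is a homomorphic image of the kernel of `σ`. -/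
theorem result {Q : Type u} [Group Q] [Finite Q] {Γ : Type v} [Group Γ] [Finite Γ] (σ : Γ →* Q) (hσ : Cfsg.IsStemExtension σ) (hΓ : Cfsg.HasCyclicSchurMultiplier Γ 1) (Δ : Type u) [Group Δ] [Finite Δ] (τ : Δ →* Q) (hτ : Cfsg.IsStemExtension τ) : ∃ π : σ.ker →* τ.ker, Function.Surjective π := by
  obtain ⟨S, _, hS, hinf, hsup, β, hβ, hβσ⟩ := exists_cover_of_stem σ hσ
  haveI := finite_sg S hS hsup
  haveI := finite_of_hasSchur hΓ
  have hM : MS Γ = ⊥ := hasCyclic_one_iff.mp hΓ
  have hker : β.ker ≤ (sg S hS).ker := by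
    intro x hx
    rw [MonoidHom.mem_ker, ← hβσ, MonoidHom.comp_apply, (MonoidHom.mem_ker).mp hx, map_one]
  have hst := sg_stem S hS hsup
  have hβst : Cfsg.IsStemExtension β := ⟨hβ, hker.trans hst.2.1, hker.trans hst.2.2⟩
  obtain ⟨f, hf⟩ := exists_surj β hβst
  have hβ1 : β.ker = ⊥ := by
    rw [eq_bot_iff]
    intro x hx
    obtain ⟨y, hy⟩ := hf ⟨x, hx⟩
    have h0 : ∀ z ∈ MS Γ, z = 1 := by
      rw [hM]; intro z hz; exact mem_bot.mp hz
    have h1 : y = 1 := Subtype.ext (h0 _ y.2)
    rw [h1, map_one] at hy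
    exact (congrArg Subtype.val hy).symm
  have hinj : Function.Injective β := (MonoidHom.ker_eq_bot_iff β).mp hβ1
  -- ker of σ is isomorphic to ker of sg
  obtain ⟨δ⟩ := CfsgLib.Schur.kerEquiv S hS hsup hinf
  obtain ⟨π, hπ⟩ := exists_surj τ hτ
  have hσβ : ∀ x, σ (β x) = sg S hS x := fun x => DFunLike.congr_fun hβσ x
  let g : (sg S hS).ker →* σ.ker := (β.comp (sg S hS).ker.subtype).codRestrict σ.ker (fun x => by
    rw [MonoidHom.mem_ker, MonoidHom.comp_apply, hσβ]; exact x.2)
  have hg : Function.Bijective g := by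
    constructor
    · intro a b hab
      exact Subtype.ext (hinj (congrArg Subtype.val hab))
    · rintro ⟨y, hy⟩
      obtain ⟨x, rfl⟩ := hβ y
      refine ⟨⟨x, ?_⟩, Subtype.ext rfl⟩
      rw [MonoidHom.mem_ker, ← hσβ]; exact hy
  let ε := MulEquiv.ofBijective g hg
  exact ⟨(π.comp δ.symm.toMonoidHom).comp ε.symm.toMonoidHom, (hπ.comp δ.symm.surjective).comp ε.symm.surjective⟩

end Cfsg.Agent.S3958
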