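import Cfsg.Statements.S3959
import Cfsg.Agent.LibSchur5

set_option autoImplicit false
universe u v w
open Cfsg

namespace Cfsg.Agent.S3959

set_option linter.style.haveILetI false
set_option linter.unusedSectionVars false
set_option linter.unusedVariables false

open Subgroup CfsgLib.Schur
open scoped commutatorElement

theorem main {Q₁ : Type u} {Q₂ : Type v} [Group Q₁] [Group Q₂] [Finite Q₁] [Finite Q₂] {A B : Type w} [CommGroup A] [CommGroup B] (hA : Cfsg.HasSchurMultiplier Q₁ A) (hB : Cfsg.HasSchurMultiplier Q₂ B) : Cfsg.HasSchurMultiplier (Q₁ × Q₂) (A × B × Multiplicative (TT Q₁ Q₂)) := by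
  obtain ⟨ε₁⟩ := equiv_of_hasSchur hA
  obtain ⟨ε₂⟩ := equiv_of_hasSchur hB
  obtain ⟨⟨Γ₁, _, _, σ₁, h₁, ⟨δ₁⟩⟩, -⟩ := hA
  obtain ⟨⟨Γ₂, _, _, σ₂, h₂, ⟨δ₂⟩⟩, -⟩ := hB
  haveI : Finite (TT Q₁ Q₂) := finite_TT Q₁ Q₂
  haveI : Finite (Multiplicative (TT Q₁ Q₂)) := this
  refine ⟨⟨BExt (pbil σ₁ σ₂), inferInstance, inferInstance, psig σ₁ σ₂, psig_stem σ₁ σ₂ h₁ h₂, ?_⟩, ?_⟩
  · exact ⟨(pker σ₁ σ₂).trans (δ₁.prodCongr (δ₂.prodCongr (MulEquiv.refl _)))⟩
  · intro Γ _ _ σ hσ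
    obtain ⟨f, hf⟩ := exists_surj_prod σ hσ
    refine ⟨f.comp (ε₁.symm.prodCongr (ε₂.symm.prodCongr (MulEquiv.refl _))).toMonoidHom, ?_⟩
    exact hf.comp (MulEquiv.surjective _)

/-- Let `Q₁` and `Q₂` be finite groups with Schur multipliers `A` and `B`. Then the Schur multiplier of `Q₁ × Q₂` is isomorphic to `A × B × (Q₁ᵃᵇ ⊗ Q₂ᵃᵇ)`, the last factor being the tensor product over the integers of the commutator quotients, written multiplicatively. -/
theorem result {Q₁ : Type u} {Q₂ : Type v} [Group Q₁] [Group Q₂] [Finite Q₁] [Finite Q₂] {A B : Type w} [CommGroup A] [CommGroup B] (hA : Cfsg.HasSchurMultiplier Q₁ A) (hB : Cfsg.HasSchurMultiplier Q₂ B) : Cfsg.HasSchurMultiplier (Q₁ × Q₂) (A × B × Multiplicative (TensorProduct ℤ (Additive (Abelianization Q₁)) (Additive (Abelianization Q₂)))) := by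
  exact main hA hB

end Cfsg.Agent.S3959
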