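import Cfsg.Statements.S3960
import Cfsg.Agent.LibSchur3

set_option autoImplicit false
universe u
open Cfsg

namespace Cfsg.Agent.S3960

set_option linter.style.haveILetI false
set_option linter.unusedSectionVars false
set_option linter.unusedVariables false

open Subgroup CfsgLib.Schur

/-- A finite perfect group `Q` has a universal central extension: a finite perfect group `G` in the universe of `Q` and a surjective homomorphism `π : G →* Q` with central kernel such that for every group `X` in that universe and every surjective homomorphism `ξ : X →* Q` with central kernel there is exactly one homomorphism `η : G →* X` with `ξ ∘ η = π`. -/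
theorem result {Q : Type u} [Group Q] [Finite Q] (hQ : Group.IsPerfect Q) : ∃ (G : Type u) (_ : Group G) (_ : Finite G) (π : G →* Q), Group.IsPerfect G ∧ Function.Surjective π ∧ π.ker ≤ Subgroup.center G ∧ ∀ (X : Type u) [Group X] (ξ : X →* Q), Function.Surjective ξ → ξ.ker ≤ Subgroup.center X → ∃! η : G →* X, ξ.comp η = π := by
  have hQ' : commutator Q = ⊤ := hQ.commutator_eq_top
  have hsurj : Function.Surjective ((e Q).comp (commutator (E Q)).subtype) := by
    intro q
    obtain ⟨x, hx⟩ := e_surj Q q
    obtain ⟨y, hy, z, hz, hxyz⟩ := exists_mul_of_perfect hQ' x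
    have h1 : e Q x ∈ (commutator (E Q)).map (e Q) := by
      have : (commutator (E Q)).map (e Q) = commutator Q := by
        rw [_root_.commutator_def, _root_.commutator_def, Subgroup.map_commutator,
          Subgroup.map_top_of_surjective _ (e_surj Q)]
      rw [this, hQ']; trivial
    obtain ⟨y, hy, hyx⟩ := h1
    exact ⟨⟨y, hy⟩, by rw [← hx, ← hyx]; rfl⟩
  have hperf : commutator (commutator (E Q)) = ⊤ := commutator_perfect hQ'
  refine ⟨commutator (E Q), inferInstance, finite_comm Q, (e Q).comp (commutator (E Q)).subtype, ?_, hsurj, ?_, ?_⟩
  · exact ⟨hperf⟩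
  · intro x hx
    rw [mem_center_iff]
    intro y
    apply Subtype.ext
    exact mem_center_iff.mp (e_central Q hx) y
  · intro X _ ξ hξ hc
    obtain ⟨φ, hφ⟩ := exists_lift ξ hξ hc
    refine ⟨φ.comp (commutator (E Q)).subtype, ?_, ?_⟩
    · apply MonoidHom.ext
      intro x
      exact lift_apply hφ x
    · intro η hη
      apply hom_unique hperf ξ hc
      intro g
      have h1 : ξ (η g) = e Q g := DFunLike.congr_fun hη g
      rw [h1]
      exact (lift_apply hφ g).symm

end Cfsg.Agent.S3960
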