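import Cfsg.Statements.S3962
-- import your own Cfsg.Agent.* helpers here

set_option autoImplicit false
open Cfsg

namespace Cfsg.Agent.S3962

/-- Let `G` be a perfect group and `π : G →* Q` a surjective homomorphism whose kernel is central. Then `π` maps the centre of `G` onto the centre of `Q`. Taking `π` to be the map to `G ⧸ Z(G)` shows that the central quotient of a perfect group has trivial centre. -/
theorem result {G Q : Type*} [Group G] [Group Q] (hG : Group.IsPerfect G) (π : G →* Q) (hπ : Function.Surjective π) (hker : π.ker ≤ Subgroup.center G) : (Subgroup.center G).map π = Subgroup.center Q := by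
  have hN : ⁅(Subgroup.center Q).comap π, (⊤ : Subgroup G)⁆ ≤ Subgroup.center G := by
    refine le_trans ?_ hker
    rw [Subgroup.commutator_le]
    intro a ha b _
    rw [MonoidHom.mem_ker, map_commutatorElement, commutatorElement_eq_one_iff_mul_comm]
    exact (Subgroup.mem_center_iff.mp ha (π b)).symm
  have h1 : ⁅⁅(Subgroup.center Q).comap π, (⊤ : Subgroup G)⁆, (⊤ : Subgroup G)⁆ = ⊥ :=
    Subgroup.commutator_top_right_eq_bot_iff_le_center.mpr hN
  have h2 : ⁅⁅(⊤ : Subgroup G), (Subgroup.center Q).comap π⁆, (⊤ : Subgroup G)⁆ = ⊥ := by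
    rw [Subgroup.commutator_comm (⊤ : Subgroup G) ((Subgroup.center Q).comap π)]
    exact h1
  have h3 := Subgroup.commutator_commutator_eq_bot_of_rotate h2 h1
  have h4 : ⁅(⊤ : Subgroup G), (⊤ : Subgroup G)⁆ = ⊤ := hG.commutator_eq_top
  rw [h4, Subgroup.commutator_comm, Subgroup.commutator_top_right_eq_bot_iff_le_center] at h3
  apply le_antisymm
  · rintro _ ⟨z, hz, rfl⟩
    rw [Subgroup.mem_center_iff]
    intro q
    obtain ⟨g, rfl⟩ := hπ q
    rw [← map_mul, ← map_mul, Subgroup.mem_center_iff.mp hz g]
  · intro z hz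
    obtain ⟨g, rfl⟩ := hπ z
    exact ⟨g, h3 hz, rfl⟩

end Cfsg.Agent.S3962
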