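import Cfsg.Statements.S3964
import Cfsg.Agent.LibSchur4

set_option autoImplicit false
open Cfsg

namespace Cfsg.Agent.S3964

set_option linter.style.haveILetI false
set_option linter.unusedSectionVars false
set_option linter.unusedVariables false

open Subgroup CfsgLib.Schur
open scoped commutatorElement

/-- Analysis of stem extensions of dihedral groups. -/
theorem dih {n : ℕ} [NeZero n] {Γ : Type*} [Group Γ] (σ : Γ →* DihedralGroup n) (hσ : Cfsg.IsStemExtension σ) :
    ∃ c : Γ, c ^ n = 1 ∧ ∀ k ∈ σ.ker, ∃ j : ℤ, k = c ^ j ∧ (n : ℤ) ∣ 2 * j := by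
  have hz : ∀ z ∈ σ.ker, ∀ x, x * z = z * x := fun z hz x => mem_center_iff.mp (hσ.2.1 hz) x
  obtain ⟨x, hx⟩ := hσ.1 (DihedralGroup.r 1)
  obtain ⟨y, hy⟩ := hσ.1 (DihedralGroup.sr 0)
  have hgenQ : closure ({DihedralGroup.r 1, DihedralGroup.sr 0} : Set (DihedralGroup n)) = ⊤ := by
    rw [eq_top_iff]
    have h1 : (DihedralGroup.r 1 : DihedralGroup n) ∈ closure ({DihedralGroup.r 1, DihedralGroup.sr 0} : Set (DihedralGroup n)) :=
      subset_closure (by simp)
    have h2 : (DihedralGroup.sr 0 : DihedralGroup n) ∈ closure ({DihedralGroup.r 1, DihedralGroup.sr 0} : Set (DihedralGroup n)) :=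
      subset_closure (by simp)
    have h3 : ∀ i : ZMod n, (DihedralGroup.r i : DihedralGroup n) ∈ closure ({DihedralGroup.r 1, DihedralGroup.sr 0} : Set (DihedralGroup n)) := by
      intro i
      have : (DihedralGroup.r i : DihedralGroup n) = (DihedralGroup.r 1) ^ i.val := by
        rw [DihedralGroup.r_one_pow, ZMod.natCast_zmod_val]
      rw [this]; exact pow_mem h1 _
    rintro (i | i) _
    · exact h3 i
    · have : (DihedralGroup.sr i : DihedralGroup n) = DihedralGroup.sr 0 * DihedralGroup.r i := by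
        rw [DihedralGroup.sr_mul_r, zero_add]
      rw [this]; exact mul_mem h2 (h3 i)
  have hgen : closure {x, y} = (⊤ : Subgroup Γ) := by
    apply closure_eq_top_of_stem σ hσ
    rw [Set.image_pair, hx, hy]; exact hgenQ
  have ha : y * x * y⁻¹ * x ∈ σ.ker := by
    rw [MonoidHom.mem_ker, map_mul, map_mul, map_mul, map_inv, hx, hy, DihedralGroup.one_def]
    rw [DihedralGroup.sr_mul_r, DihedralGroup.inv_sr, DihedralGroup.sr_mul_sr, DihedralGroup.r_mul_r]
    congr 1
    ring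
  have hn : y * x ^ n = x ^ n * y := by
    apply hz
    rw [MonoidHom.mem_ker, map_pow, hx, DihedralGroup.r_one_pow, ZMod.natCast_self]; rfl
  obtain ⟨hcomm, hcn⟩ := dihedral_like σ.ker hσ.2.1 x y hgen ha n hn
  refine ⟨_, hcn, ?_⟩
  intro k hk
  obtain ⟨j, rfl⟩ := mem_zpowers_iff.mp (hcomm (hσ.2.2 hk))
  refine ⟨j, rfl, ?_⟩
  have h1 : σ ⁅x, y⁆ = DihedralGroup.r 2 := by
    rw [map_commutatorElement, hx, hy, commutatorElement_def, mul_inv_eq_iff_eq_mul, mul_inv_eq_iff_eq_mul,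
      DihedralGroup.r_mul_sr, DihedralGroup.r_mul_sr, DihedralGroup.sr_mul_r]
    congr 1
    ring
  rw [MonoidHom.mem_ker, map_zpow, h1] at hk
  have h2 : (DihedralGroup.r 2 : DihedralGroup n) = (DihedralGroup.r 1) ^ (2 : ℤ) := by
    rw [zpow_ofNat, pow_two, DihedralGroup.r_mul_r]; congr 1; norm_num
  rw [h2, ← zpow_mul] at hk
  have h3 := orderOf_dvd_iff_zpow_eq_one.mpr hk
  rwa [DihedralGroup.orderOf_r_one] at h3

/-- For odd `n` the dihedral group of order `2 n` has trivial Schur multiplier. -/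
theorem result (n : ℕ) (hn : Odd n) : Cfsg.HasCyclicSchurMultiplier (DihedralGroup n) 1 := by
  haveI : NeZero n := ⟨by rintro rfl; exact absurd hn (by decide)⟩
  rw [hasCyclic_one_iff']
  intro Γ _ _ σ hσ
  obtain ⟨c, hcn, hc⟩ := dih σ hσ
  rw [eq_bot_iff]
  intro k hk
  obtain ⟨j, rfl, hj⟩ := hc k hk
  have hco : IsCoprime (n : ℤ) 2 := by
    have : Nat.Coprime n 2 := Nat.coprime_two_right.mpr hn
    exact_mod_cast Nat.isCoprime_iff_coprime.mpr this
  have h4 : (n : ℤ) ∣ j := hco.dvd_of_dvd_mul_left hj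
  obtain ⟨l, rfl⟩ := h4
  rw [mem_bot, zpow_mul, zpow_natCast, hcn, one_zpow]

end Cfsg.Agent.S3964
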