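import Cfsg.Statements.S3966
import Cfsg.Agent.EqBase

set_option autoImplicit false
open Cfsg

namespace Cfsg.Agent.S3966

set_option linter.style.haveILetI false
set_option linter.unusedSectionVars false
set_option linter.unusedVariables false

open Subgroup
open scoped commutatorElement

/-- For even `n ≥ 2` the dicyclic group of order `4 n` is a stem extension of the dihedral group of order `2 n` with kernel of order `2`: there is a surjective homomorphism `QuaternionGroup n →* DihedralGroup n` whose kernel is central, lies in the commutator subgroup and has two elements. Together with the order of the multiplier this exhibits the dicyclic group as a Schur covering group of the dihedral group. -/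
theorem result (n : ℕ) [NeZero n] (hn : Even n) : ∃ σ : QuaternionGroup n →* DihedralGroup n, Cfsg.IsStemExtension σ ∧ Nat.card σ.ker = 2 := by
  obtain ⟨k, hk⟩ := hn
  have hdvd : n ∣ 2 * n := Dvd.intro_left 2 rfl
  let f := ZMod.castHom hdvd (ZMod n)
  have hfn : f n = 0 := by
    rw [map_natCast]; exact ZMod.natCast_self n
  have hf1 : f 1 = 1 := map_one f
  let σ : QuaternionGroup n →* DihedralGroup n :=
    { toFun := fun x => match x with
        | QuaternionGroup.a i => DihedralGroup.r (f i)
        | QuaternionGroup.xa i => DihedralGroup.sr (f i)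
      map_one' := by
        change DihedralGroup.r (f 0) = 1
        rw [map_zero]; rfl
      map_mul' := by
        rintro (i | i) (j | j)
        · rw [QuaternionGroup.a_mul_a]
          change DihedralGroup.r (f (i + j)) = DihedralGroup.r (f i) * DihedralGroup.r (f j)
          rw [DihedralGroup.r_mul_r, map_add]
        · rw [QuaternionGroup.a_mul_xa]
          change DihedralGroup.sr (f (j - i)) = DihedralGroup.r (f i) * DihedralGroup.sr (f j)
          rw [DihedralGroup.r_mul_sr, map_sub]
        · rw [QuaternionGroup.xa_mul_a]
          change DihedralGroup.sr (f (i + j)) = DihedralGroup.sr (f i) * DihedralGroup.r (f j)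
          rw [DihedralGroup.sr_mul_r, map_add]
        · rw [QuaternionGroup.xa_mul_xa]
          change DihedralGroup.r (f (n + j - i)) = DihedralGroup.sr (f i) * DihedralGroup.sr (f j)
          rw [DihedralGroup.sr_mul_sr, map_sub, map_add, hfn, zero_add] }
  have hσa : ∀ i, σ (QuaternionGroup.a i) = DihedralGroup.r (f i) := fun i => rfl
  have hσx : ∀ i, σ (QuaternionGroup.xa i) = DihedralGroup.sr (f i) := fun i => rfl
  have hfsurj : Function.Surjective f := ZMod.castHom_surjective hdvd
  -- kernel of f
  have hkf : ∀ i : ZMod (2 * n), f i = 0 → i = 0 ∨ i = n := by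
    intro i hi
    haveI : NeZero (2 * n) := ⟨by have := NeZero.ne n; omega⟩
    have h1 : f i = ((i.val : ℕ) : ZMod n) := by
      conv_lhs => rw [← ZMod.natCast_zmod_val i]
      exact map_natCast f _
    rw [h1, ZMod.natCast_eq_zero_iff] at hi
    obtain ⟨c, hc⟩ := hi
    have h2 := ZMod.val_lt i
    have h3 : c < 2 := by
      by_contra h4
      have : n * 2 ≤ n * c := Nat.mul_le_mul_left n (by omega)
      omega
    rcases (show c = 0 ∨ c = 1 by omega) with rfl | rfl
    · left
      rw [mul_zero] at hc
      exact (ZMod.val_eq_zero i).mp hc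
    · right
      rw [mul_one] at hc
      rw [← ZMod.natCast_zmod_val i, hc]
  have hker : ∀ x, x ∈ σ.ker ↔ x = 1 ∨ x = QuaternionGroup.a (n : ZMod (2 * n)) := by
    intro x
    rw [MonoidHom.mem_ker]
    constructor
    · intro hx
      rcases x with i | i
      · rw [hσa, DihedralGroup.one_def] at hx
        rcases hkf i (DihedralGroup.r.inj hx) with h | h
        · left; rw [h]; rfl
        · right; rw [h]
      · rw [hσx, DihedralGroup.one_def] at hx
        cases hx
    · rintro (rfl | rfl)
      · exact map_one σ
      · rw [hσa, hfn]; rfl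
  refine ⟨σ, ⟨?_, ?_, ?_⟩, ?_⟩
  · rintro (i | i)
    · obtain ⟨j, hj⟩ := hfsurj i
      exact ⟨QuaternionGroup.a j, by rw [hσa, hj]⟩
    · obtain ⟨j, hj⟩ := hfsurj i
      exact ⟨QuaternionGroup.xa j, by rw [hσx, hj]⟩
  · intro x hx
    rcases (hker x).mp hx with rfl | rfl
    · exact one_mem _
    · rw [mem_center_iff]
      have h2n : (n : ZMod (2 * n)) + n = 0 := by
        have := ZMod.natCast_self (2 * n)
        push_cast at this
        linear_combination this
      rintro (i | i)
      · rw [QuaternionGroup.a_mul_a, QuaternionGroup.a_mul_a, add_comm]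
      · rw [QuaternionGroup.xa_mul_a, QuaternionGroup.a_mul_xa]
        congr 1
        linear_combination h2n
  · intro x hx
    rcases (hker x).mp hx with rfl | rfl
    · exact one_mem _
    · -- a n = [a k, xa 0]
      have h1 : (QuaternionGroup.a (n : ZMod (2 * n)) : QuaternionGroup n) =
          ⁅(QuaternionGroup.a (k : ZMod (2 * n)) : QuaternionGroup n), QuaternionGroup.xa 0⁆ := by
        rw [commutatorElement_def, eq_mul_inv_iff_mul_eq, eq_mul_inv_iff_mul_eq, QuaternionGroup.a_mul_xa,
          QuaternionGroup.xa_mul_a, QuaternionGroup.a_mul_xa]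
        congr 1
        rw [hk]; push_cast
        ring
      rw [h1]
      exact commutator_mem_commutator (mem_top _) (mem_top _)
  · have h1 : (σ.ker : Set (QuaternionGroup n)) = {1, QuaternionGroup.a (n : ZMod (2 * n))} := by
      ext x
      exact hker x
    have h2 : Nat.card σ.ker = (σ.ker : Set (QuaternionGroup n)).ncard := Nat.card_coe_set_eq _
    rw [h2, h1, Set.ncard_pair]
    intro h3
    rw [QuaternionGroup.one_def] at h3
    have h4 := QuaternionGroup.a.inj h3
    have h5 : ((n : ℕ) : ZMod (2 * n)) = 0 := h4.symm
    rw [ZMod.natCast_eq_zero_iff] at h5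
    have h6 := Nat.le_of_dvd (Nat.pos_of_ne_zero (NeZero.ne n)) h5
    have := NeZero.ne n
    omega

end Cfsg.Agent.S3966
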