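import Cfsg.Statements.S3965
import Cfsg.Agent.LibSchur4
import Cfsg.Agent.S3964
import Cfsg.Agent.S3966

set_option autoImplicit false
open Cfsg

namespace Cfsg.Agent.S3965

set_option linter.style.haveILetI false
set_option linter.unusedSectionVars false
set_option linter.unusedVariables false

open Subgroup CfsgLib.Schur
open scoped commutatorElement

/-- For even `n ≥ 2` the dihedral group of order `2 n` has Schur multiplier cyclic of order `2`. -/
theorem result (n : ℕ) [NeZero n] (hn : Even n) : Cfsg.HasCyclicSchurMultiplier (DihedralGroup n) 2 := by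
  constructor
  · obtain ⟨σ, hσ, hcard⟩ := Cfsg.Agent.S3966.result n hn
    refine ⟨QuaternionGroup n, inferInstance, inferInstance, σ, hσ, ?_⟩
    haveI : IsCyclic σ.ker := isCyclic_of_prime_card (p := 2) hcard
    exact ⟨mulEquivOfCyclicCardEq (by rw [hcard, Nat.card_congr Multiplicative.toAdd, Nat.card_zmod])⟩
  · intro Γ _ _ σ hσ
    obtain ⟨c, hcn, hc⟩ := Cfsg.Agent.S3964.dih σ hσ
    obtain ⟨m, hm⟩ := hn
    have hm2 : n = 2 * m := by omega
    have hm0 : m ≠ 0 := by rintro rfl; exact NeZero.ne n hm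
    -- every element of the kernel is a power of c^m
    have hk : ∀ k ∈ σ.ker, ∃ l : ℤ, k = (c ^ m) ^ l := by
      intro k hk
      obtain ⟨j, rfl, hj⟩ := hc k hk
      rw [hm2] at hj
      push_cast at hj
      obtain ⟨l, rfl⟩ := Int.dvd_of_mul_dvd_mul_left (by norm_num) hj
      exact ⟨l, by rw [zpow_mul, zpow_natCast]⟩
    by_cases hck : c ^ m ∈ σ.ker
    · refine exists_surj_zmod 2 (⟨c ^ m, hck⟩ : σ.ker) ?_ ?_
      · apply Subtype.ext
        change (c ^ m) ^ 2 = 1
        rw [← pow_mul, mul_comm, ← hm2, hcn]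
      · rintro ⟨k, hk'⟩
        obtain ⟨l, hl⟩ := hk k hk'
        exact mem_zpowers_iff.mpr ⟨l, Subtype.ext hl.symm⟩
    · -- kernel trivial
      have h1 : ∀ k : σ.ker, k = 1 := by
        rintro ⟨k, hk'⟩
        obtain ⟨l, hl⟩ := hk k hk'
        apply Subtype.ext
        change k = 1
        have h2 : (c ^ m) ^ 2 = 1 := by rw [← pow_mul, mul_comm, ← hm2, hcn]
        rcases Int.even_or_odd l with ⟨s, hs⟩ | ⟨s, hs⟩
        · rw [hl, hs, ← two_mul, zpow_mul, zpow_ofNat, h2, one_zpow]
        · exfalso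
          apply hck
          have : k = c ^ m := by
            rw [hl, hs, zpow_add, zpow_one, zpow_mul, zpow_ofNat, h2, one_zpow, one_mul]
          rw [← this]; exact hk'
      exact ⟨1, fun a => ⟨1, (h1 _).trans (h1 a).symm⟩⟩

end Cfsg.Agent.S3965
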