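import Cfsg.Statements.S3967
import Cfsg.Agent.LibMeta2

set_option autoImplicit false
open Cfsg

namespace Cfsg.Agent.S3967

set_option linter.style.haveILetI false
set_option linter.unusedSectionVars false
set_option linter.unusedVariables false

open Subgroup CfsgLib.Schur CfsgLib.Meta
open scoped commutatorElement

theorem arith (m n r l : ℕ) (hm : 0 < m) (hr : 0 < r) (hrn : r ^ n ≡ 1 [MOD m]) :
    ∃ q k g t, q * Nat.gcd m (r - 1) = m ∧ t = m * l / Nat.gcd m (r - 1) ∧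
      k = Nat.gcd l (Nat.gcd m (r - 1) * Nat.gcd m (∑ i ∈ Finset.range n, r ^ i) / m) ∧
      g = q * k ∧ g = Nat.gcd m (Nat.gcd t (∑ i ∈ Finset.range n, r ^ i)) ∧ 0 < k ∧ 0 < q ∧
      m ∣ (r - 1) * q ∧ (∀ j : ℤ, (m : ℤ) ∣ ((r : ℤ) - 1) * j → (q : ℤ) ∣ j) := by
  set d := Nat.gcd m (r - 1) with hd
  set N := ∑ i ∈ Finset.range n, r ^ i with hN
  have hd0 : 0 < d := Nat.gcd_pos_of_pos_left _ hm
  obtain ⟨q, hq⟩ : d ∣ m := Nat.gcd_dvd_left _ _
  obtain ⟨e, he⟩ : d ∣ r - 1 := Nat.gcd_dvd_right _ _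
  have hq0 : 0 < q := Nat.pos_of_ne_zero (by rintro rfl; omega)
  have hcop : Nat.Coprime q e := by
    have h1 := Nat.coprime_div_gcd_div_gcd (m := m) (n := r - 1) (by rw [← hd]; exact hd0)
    rw [← hd, hq, he, Nat.mul_div_cancel_left _ hd0, Nat.mul_div_cancel_left _ hd0] at h1
    exact h1
  have hgeo : (m : ℤ) ∣ ((r : ℤ) - 1) * N := by
    have h1 : (N : ℤ) * ((r : ℤ) - 1) = (r : ℤ) ^ n - 1 := by
      rw [hN]; push_cast; exact geom_sum_mul (r : ℤ) n
    rw [mul_comm, h1]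
    have h2 : (1 : ℤ) ≡ (r ^ n : ℕ) [ZMOD m] := (Int.natCast_modEq_iff.mpr hrn).symm
    have h3 := h2.dvd
    push_cast at h3
    exact h3
  have hmul : ((r - 1 : ℕ) : ℤ) = (r : ℤ) - 1 := by push_cast [hr]; ring
  have hkey : ∀ j : ℤ, (m : ℤ) ∣ ((r : ℤ) - 1) * j → (q : ℤ) ∣ j := by
    intro j hj
    rw [← hmul, he, hq] at hj
    push_cast at hj
    rw [mul_assoc] at hj
    have h2 : (q : ℤ) ∣ e * j := Int.dvd_of_mul_dvd_mul_left (by exact_mod_cast hd0.ne') hj
    have h3 : IsCoprime (q : ℤ) e := Nat.isCoprime_iff_coprime.mpr hcop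
    exact h3.dvd_of_dvd_mul_left h2
  obtain ⟨N', hN'⟩ : q ∣ N := by
    have := hkey N hgeo
    exact_mod_cast this
  have ht : m * l / d = q * l := by
    rw [hq, mul_assoc, Nat.mul_div_cancel_left _ hd0]
  have hk : d * Nat.gcd m N / m = Nat.gcd d N' := by
    have h1 : Nat.gcd m N = q * Nat.gcd d N' := by
      rw [hN', hq, mul_comm d q, Nat.gcd_mul_left]
    rw [h1, ← mul_assoc, ← hq, Nat.mul_div_cancel_left _ hm]
  refine ⟨q, Nat.gcd l (Nat.gcd d N'), q * Nat.gcd l (Nat.gcd d N'), q * l, by rw [hq, mul_comm], ht.symm, by rw [hk], rfl, ?_, ?_, hq0, ?_, hkey⟩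
  · rw [hN', Nat.gcd_mul_left, hq, mul_comm d q, Nat.gcd_mul_left]
    congr 1
    exact Nat.gcd_left_comm _ _ _
  · exact Nat.gcd_pos_of_pos_right _ (Nat.gcd_pos_of_pos_left _ hd0)
  · rw [he, hq]
    exact ⟨e, by ring⟩


/-- Let `m, n ≥ 1`, `r ≥ 1` with `r ^ n ≡ 1 (mod m)`, and `l` a natural number; put `d = gcd(m, r - 1)`, `t = m l / d` and `h = d · gcd(m, 1 + r + ⋯ + r^(n-1)) / m`. The group presented by generators `a, b` and relations `a ^ m = 1`, `b ^ n = a ^ t`, `b a b⁻¹ = a ^ r` (a metacyclic group of order `m n`) has Schur multiplier cyclic of order `gcd(l, h)`. -/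
theorem result (m n r l : ℕ) (hm : 0 < m) (hn : 0 < n) (hr : 0 < r) (hrn : r ^ n ≡ 1 [MOD m]) : Cfsg.HasCyclicSchurMultiplier (PresentedGroup ({FreeGroup.of true ^ m, (FreeGroup.of false) ^ n * (FreeGroup.of true ^ (m * l / Nat.gcd m (r - 1)))⁻¹, FreeGroup.of false * FreeGroup.of true * (FreeGroup.of false)⁻¹ * (FreeGroup.of true ^ r)⁻¹} : Set (FreeGroup Bool))) (Nat.gcd l (Nat.gcd m (r - 1) * Nat.gcd m (∑ i ∈ Finset.range n, r ^ i) / m)) := by
  obtain ⟨q, k, g, t, hqd, ht, hk, hg1, hg2, hk0, hq0, hmq, hkey⟩ := arith m n r l hm hr hrn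
  rw [← ht, ← hk]
  set rels : Set (FreeGroup Bool) := {FreeGroup.of true ^ m, (FreeGroup.of false) ^ n * (FreeGroup.of true ^ t)⁻¹, FreeGroup.of false * FreeGroup.of true * (FreeGroup.of false)⁻¹ * (FreeGroup.of true ^ r)⁻¹} with hrels
  set N := ∑ i ∈ Finset.range n, r ^ i with hN
  have hgm : g ∣ m := hg2 ▸ Nat.gcd_dvd_left _ _
  have hgt : g ∣ t := hg2 ▸ (Nat.gcd_dvd_right _ _).trans (Nat.gcd_dvd_left _ _)
  have hgN : g ∣ N := hg2 ▸ (Nat.gcd_dvd_right _ _).trans (Nat.gcd_dvd_right _ _)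
  have hmul : ((r - 1 : ℕ) : ℤ) = (r : ℤ) - 1 := by push_cast [hr]; ring
  have hmqz : (m : ℤ) ∣ ((r : ℤ) - 1) * q := by
    rw [← hmul]; exact_mod_cast hmq
  -- the group
  let G := PresentedGroup rels
  let a : G := PresentedGroup.of true
  let b : G := PresentedGroup.of false
  have hrel : ∀ x ∈ rels, PresentedGroup.mk rels x = 1 := fun x hx =>
    PresentedGroup.mk_eq_one_iff.mpr (subset_normalClosure hx)
  have ha : a ^ m = 1 := by
    have := hrel _ (Or.inl rfl)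
    rwa [map_pow] at this
  have hb : b ^ n = a ^ t := by
    have := hrel _ (Or.inr (Or.inl rfl))
    rw [map_mul, map_inv, map_pow, map_pow] at this
    exact mul_inv_eq_one.mp this
  have hab : b * a * b⁻¹ = a ^ r := by
    have := hrel _ (Or.inr (Or.inr rfl))
    rw [map_mul, map_mul, map_mul, map_inv, map_inv, map_pow] at this
    exact mul_inv_eq_one.mp this
  have hgen : closure {a, b} = (⊤ : Subgroup G) := by
    rw [eq_top_iff, ← PresentedGroup.closure_range_of rels, closure_le]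
    rintro _ ⟨x, rfl⟩
    cases x
    · exact subset_closure (Or.inr rfl)
    · exact subset_closure (Or.inl rfl)
  haveI : Finite G := finite_of_gen hgen hm hn ha hb hab
  -- the model
  have hr' : (r : ZMod g) ^ n = 1 := by
    have h1 : ((r ^ n : ℕ) : ZMod g) = ((1 : ℕ) : ZMod g) := (ZMod.natCast_eq_natCast_iff _ _ _).mpr (hrn.of_dvd hgm)
    push_cast at h1
    exact h1
  have hS : ((∑ i ∈ Finset.range n, r ^ i : ℕ) : ZMod g) = 0 := (ZMod.natCast_eq_zero_iff _ _).mpr hgN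
  let Kc := K1 g r n hr' hn hS m t
  have hKc : Kc ≤ center _ := K1_central g r n hr' hn hS m t hgm hgt
  haveI : Kc.Normal := ⟨fun x hx y => by rw [mem_center_iff.mp (hKc hx) y, mul_inv_cancel_right]; exact hx⟩
  let A1 := iV g r n hr' hn 1 0
  let B1 := iB g r n hr' hn 1
  let mk := QuotientGroup.mk' Kc
  have hA1 : ∀ s : ℤ, A1 ^ s = iV g r n hr' hn s 0 := fun s => by
    change (iV g r n hr' hn 1 0) ^ s = _
    rw [iV_pow]; simp
  have hB1 : ∀ s : ℤ, B1 ^ s = iB g r n hr' hn s := fun s => iB_pow g r n hr' hn s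
  have hmk : ∀ x, mk x = 1 ↔ x ∈ Kc := fun x => QuotientGroup.eq_one_iff x
  let f : Bool → Gam g r n hr' hn ⧸ Kc := fun x => if x then mk A1 else mk B1
  have hf : ∀ x ∈ rels, FreeGroup.lift f x = 1 := by
    rintro x (rfl | rfl | rfl)
    · rw [map_pow, FreeGroup.lift_apply_of]
      change (mk A1) ^ m = 1
      rw [← map_pow, hmk, ← zpow_natCast, hA1]
      exact ⟨m, 0, 0, by rw [mul_zero]; exact (mul_one _).symm.trans (congrArg _ (map_one _).symm), by simp⟩
    · rw [map_mul, map_inv, map_pow, map_pow, FreeGroup.lift_apply_of, FreeGroup.lift_apply_of]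
      change (mk B1) ^ n * ((mk A1) ^ t)⁻¹ = 1
      rw [← map_pow, ← map_pow, ← map_inv, ← map_mul, hmk, ← zpow_natCast, ← zpow_natCast, hA1, hB1, iV_inv]
      refine ⟨-t, 0, 1, ?_, by simp⟩
      have h1 := iB_comm g r n hr' hn hS 1 (-t) 0
      rw [mul_one] at h1
      rw [mul_one, neg_zero, h1]
    · rw [map_mul, map_mul, map_mul, map_inv, map_inv, map_pow, FreeGroup.lift_apply_of, FreeGroup.lift_apply_of]
      change (mk B1) * (mk A1) * (mk B1)⁻¹ * ((mk A1) ^ r)⁻¹ = 1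
      rw [← map_pow, ← map_mul, ← map_inv, ← map_mul, ← map_inv, ← map_mul, hmk, ← zpow_natCast, hA1]
      change iB g r n hr' hn 1 * iV g r n hr' hn 1 0 * (iB g r n hr' hn 1)⁻¹ * _ ∈ Kc
      rw [iB_conj, iV_inv, iV_mul]
      refine ⟨1 + -r, 1 + r * 0 + -0, 0, ?_, ?_⟩
      · rw [mul_zero]; exact (mul_one _).symm.trans (congrArg _ (map_one _).symm)
      · have : (1 + -(r : ℤ) + ((r : ℤ) - 1) * (1 + r * 0 + -0) + t * 0) = 0 := by ring
        rw [this]; exact dvd_zero _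
  let θ : G →* Gam g r n hr' hn ⧸ Kc := PresentedGroup.toGroup hf
  have hθa : θ a = mk A1 := PresentedGroup.toGroup.of hf
  have hθb : θ b = mk B1 := PresentedGroup.toGroup.of hf
  have hθk : ∀ s j : ℤ, θ (a ^ s * b ^ j) = 1 → ∃ i : ℤ, j = n * i ∧ (m : ℤ) ∣ s + t * i := by
    intro s j h
    rw [map_mul, map_zpow, map_zpow, hθa, hθb, ← map_zpow, ← map_zpow, ← map_mul, hmk, hA1, hB1] at h
    obtain ⟨x, y, i, h1, h2⟩ := h
    obtain ⟨h3, h4, h5⟩ := form_inj g r n hr' hn h1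
    subst h3
    refine ⟨i, h5, ?_⟩
    have h6 : (g : ℤ) ∣ y := by
      rw [← ZMod.intCast_zmod_eq_zero_iff_dvd, ← h4]; simp
    have h7 : (m : ℤ) ∣ ((r : ℤ) - 1) * y := by
      obtain ⟨y', rfl⟩ := h6
      rw [hg1]
      push_cast
      have : ((r : ℤ) - 1) * (q * k * y') = ((r : ℤ) - 1) * q * (k * y') := by ring
      rw [this]
      exact hmqz.mul_right _
    have h8 : s + t * i = (s + ((r : ℤ) - 1) * y + t * i) - ((r : ℤ) - 1) * y := by ring
    rw [h8]
    exact dvd_sub h2 h7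
  have haz : ∀ s : ℤ, (m : ℤ) ∣ s → a ^ s = 1 := by
    rintro _ ⟨s, rfl⟩
    rw [zpow_mul, zpow_natCast, ha, one_zpow]
  have hθi : Function.Injective θ := by
    rw [injective_iff_map_eq_one]
    intro x hx
    obtain ⟨s, j, rfl⟩ := exists_form_gen hgen hn hb hab x
    obtain ⟨i, rfl, h2⟩ := hθk s j hx
    rw [zpow_mul, zpow_natCast, hb, ← zpow_natCast a t, ← zpow_mul, ← zpow_add]
    exact haz _ h2
  have hθs : Function.Surjective θ := by
    rw [← MonoidHom.range_eq_top, eq_top_iff]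
    intro x _
    obtain ⟨x, rfl⟩ := QuotientGroup.mk'_surjective Kc x
    have h1 : closure {A1, B1} ≤ θ.range.comap mk := by
      rw [closure_le]
      rintro y (rfl | rfl)
      · exact ⟨a, hθa⟩
      · exact ⟨b, hθb⟩
    have h2 : closure {A1, B1} = ⊤ := CfsgLib.Meta.gen g r n hr' hn
    rw [h2] at h1
    exact h1 (mem_top x)
  let ε := MulEquiv.ofBijective θ ⟨hθi, hθs⟩
  let σ1 : Gam g r n hr' hn →* G := ε.symm.toMonoidHom.comp mk
  have hσ1k : σ1.ker = Kc := by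
    ext x
    rw [MonoidHom.mem_ker]
    change ε.symm (mk x) = 1 ↔ _
    rw [MulEquiv.map_eq_one_iff, hmk]
  obtain ⟨F, hF⟩ := exists_surj_inf σ1 (ε.symm.surjective.comp (QuotientGroup.mk'_surjective Kc)) (by rw [hσ1k]; exact hKc)
  -- lower bound
  have hlow : k ∣ Nat.card (M G) := by
    let c1 := iV g r n hr' hn 0 1
    have hc1 : c1 ^ q ∈ σ1.ker ⊓ _root_.commutator (Gam g r n hr' hn) := by
      refine Subgroup.mem_inf.mpr ⟨?_, ?_⟩
      · rw [hσ1k, ← zpow_natCast]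
        change (iV g r n hr' hn 0 1) ^ (q : ℤ) ∈ Kc
        rw [iV_pow]
        refine ⟨q * 0, q * 1, 0, ?_, ?_⟩
        · rw [mul_zero (n : ℤ)]; exact (mul_one _).symm.trans (congrArg _ (map_one _).symm)
        · have : ((q : ℤ) * 0 + ((r : ℤ) - 1) * (q * 1) + t * 0) = ((r : ℤ) - 1) * q := by ring
          rw [this]; exact hmqz
      · apply pow_mem
        have h1 : c1 = ⁅B1, A1⁆ := by
          rw [commutatorElement_def]
          change iV g r n hr' hn 0 1 = iB g r n hr' hn 1 * iV g r n hr' hn 1 0 * (iB g r n hr' hn 1)⁻¹ * (iV g r n hr' hn 1 0)⁻¹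
          rw [iB_conj, iV_inv, iV_mul]
          norm_num
        rw [h1]
        exact commutator_mem_commutator (mem_top _) (mem_top _)
    obtain ⟨u, hu⟩ := hF ⟨c1 ^ q, hc1⟩
    have h2 : orderOf (c1 ^ q) = k := by
      have h3 : orderOf c1 = q * k := by rw [← hg1]; exact orderOf_c g r n hr' hn
      rw [orderOf_pow' c1 hq0.ne', h3, Nat.gcd_eq_right (Dvd.intro _ rfl), Nat.mul_div_cancel_left _ hq0]
    have h3 : orderOf (F u) = k := by
      rw [hu, ← h2]
      exact (orderOf_injective (σ1.ker ⊓ _root_.commutator (Gam g r n hr' hn)).subtype (subtype_injective _) _).symm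
    rw [← h3]
    exact (orderOf_map_dvd F u).trans (orderOf_dvd_natCard u)
  -- upper bound
  obtain ⟨⟨Γ, _, _, σ, hσ, ⟨δ⟩⟩, -⟩ := hasSchur_M (Q := G)
  obtain ⟨A, hA⟩ := hσ.1 a
  obtain ⟨B, hB⟩ := hσ.1 b
  have hgenΓ : closure {A, B} = (⊤ : Subgroup Γ) := by
    apply closure_eq_top_of_stem σ hσ
    rw [Set.image_pair, hA, hB, hgen]
  obtain ⟨c, ⟨z, hz, hcz⟩, hc1, hc2, hc3, hc4⟩ := upper σ.ker hσ.2.1 hgenΓ (m := m) (n := n) (t := t) (r := r) hr hn
    (by rw [MonoidHom.mem_ker, map_pow, hA, ha])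
    ⟨(A ^ t)⁻¹ * B ^ n, by rw [MonoidHom.mem_ker, map_mul, map_inv, map_pow, map_pow, hA, hB, hb, inv_mul_cancel], by group⟩
    ⟨(A ^ r)⁻¹ * (B * A * B⁻¹), by rw [MonoidHom.mem_ker, map_mul, map_mul, map_mul, map_inv, map_inv, map_pow, hA, hB, hab, inv_mul_cancel], by group⟩
  have hσc : σ c = a ^ ((r : ℤ) - 1) := by
    rw [hcz, map_mul, map_pow, hA, (MonoidHom.mem_ker).mp hz, mul_one, ← hmul, zpow_natCast]
  have hwk : c ^ q ∈ σ.ker := by
    rw [MonoidHom.mem_ker, map_pow, hσc, ← zpow_natCast, ← zpow_mul]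
    exact haz _ hmqz
  have hcg : (c ^ q) ^ k = 1 := by
    rw [← pow_mul, ← hg1, hg2]
    exact orderOf_dvd_iff_pow_eq_one.mp (Nat.dvd_gcd (orderOf_dvd_of_pow_eq_one hc2)
      (Nat.dvd_gcd (orderOf_dvd_of_pow_eq_one hc3) (orderOf_dvd_of_pow_eq_one hc4)))
  obtain ⟨f2, hf2⟩ := exists_surj_zmod k (⟨c ^ q, hwk⟩ : σ.ker) (Subtype.ext hcg) (by
    rintro ⟨x, hx⟩
    obtain ⟨j, rfl⟩ := mem_zpowers_iff.mp (hc1 (hσ.2.2 hx))
    have h1 : (m : ℤ) ∣ ((r : ℤ) - 1) * j := by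
      have h2 : a ^ (((r : ℤ) - 1) * j) = 1 := by
        rw [zpow_mul, ← hσc, ← map_zpow]; exact hx
      obtain ⟨i, h3, h4⟩ := hθk (((r : ℤ) - 1) * j) 0 (by rw [zpow_zero, mul_one, h2, map_one])
      have h5 : i = 0 := by
        rcases mul_eq_zero.mp h3.symm with h | h
        · exact absurd (by exact_mod_cast h) hn.ne'
        · exact h
      rw [h5, mul_zero, add_zero] at h4
      exact h4
    obtain ⟨j', rfl⟩ := hkey j h1
    rw [mem_zpowers_iff]
    refine ⟨j', Subtype.ext ?_⟩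
    change (c ^ q) ^ j' = c ^ ((q : ℤ) * j')
    rw [zpow_mul, zpow_natCast])
  haveI : NeZero k := ⟨hk0.ne'⟩
  have hcardk : Nat.card (Multiplicative (ZMod k)) = k := Nat.card_zmod k
  haveI : Finite (Multiplicative (ZMod k)) := Nat.finite_of_card_ne_zero (by rw [hcardk]; exact hk0.ne')
  have hsurj : Function.Surjective (δ.toMonoidHom.comp f2) := δ.surjective.comp hf2
  have hle : Nat.card (M G) ≤ k := by
    rw [← hcardk]; exact Nat.card_le_card_of_surjective _ hsurj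
  haveI : Finite (M G) := finite_MS G
  have hcard : Nat.card (M G) = k := le_antisymm hle (Nat.le_of_dvd Nat.card_pos hlow)
  unfold Cfsg.HasCyclicSchurMultiplier
  rw [hasSchur_iff]
  exact ⟨(MulEquiv.ofBijective (δ.toMonoidHom.comp f2) ((Nat.bijective_iff_surjective_and_card _).mpr ⟨hsurj, by rw [hcardk, hcard]⟩)).symm⟩

end Cfsg.Agent.S3967
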