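import Cfsg.Statements.S3969
import Cfsg.Agent.LibFgRank

set_option autoImplicit false
open Cfsg

namespace Cfsg.Agent.S3969

/-- Let `P` be an abelian Sylow `p`-subgroup of the finite group `G`, generated by `d` elements (`d` its minimal number of generators). If the order of `G` is coprime to `(p - 1)(p ^ 2 - 1) ⋯ (p ^ d - 1)`, then `G` has a normal `p`-complement. (The classical statement needs only the largest number of cyclic factors of `P` of equal order in place of `d`; the form here follows from it.) -/
theorem result {G : Type*} [Group G] [Finite G] (p : ℕ) [Fact p.Prime] (P : Sylow p G) (hab : IsMulCommutative (P : Subgroup G)) (hcop : Nat.Coprime (Nat.card G) (∏ i ∈ Finset.Icc 1 (Group.rank (P : Subgroup G)), (p ^ i - 1))) : Cfsg.HasNormalPComplement p G := by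
  refine CfsgLib.FgRank.npc_of_rank P hab ?_
  intro q hq hqp hqG j hj1 hj2 hqj
  have h1 : q ∣ ∏ i ∈ Finset.Icc 1 (Group.rank (P : Subgroup G)), (p ^ i - 1) :=
    hqj.trans (Finset.dvd_prod_of_mem (fun i => p ^ i - 1) (Finset.mem_Icc.mpr ⟨hj1, hj2⟩))
  exact hq.one_lt.ne' (Nat.eq_one_of_dvd_coprimes hcop hqG h1)

end Cfsg.Agent.S3969
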