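import Cfsg.Statements.S3970
import Cfsg.Agent.LibFgRank
import Cfsg.Agent.LibH7Sylow
import Cfsg.Agent.LibFgSyl

set_option autoImplicit false
open Cfsg

namespace Cfsg.Agent.S3970

set_option linter.style.haveILetI false
set_option linter.unusedSectionVars false

universe u
open Subgroup

/-- the hypothesis -/
def Hyp (G : Type u) [Group G] [Finite G] : Prop :=
  ∀ p : ℕ, p.Prime → p ∣ Nat.card G → (∃ q : ℕ, q.Prime ∧ q ∣ Nat.card G ∧ p < q) →
    ∀ P : Sylow p G, IsMulCommutative (P : Subgroup G) ∧ Group.rank (P : Subgroup G) ≤ 2

theorem solvable_of_isPGroup {G : Type u} [Group G] [Finite G] {p : ℕ} [Fact p.Prime] (h : IsPGroup p G) :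
    Group.IsSolvable G := by
  haveI := h.isNilpotent
  infer_instance

theorem main (n : ℕ) : ∀ (G : Type u) [Group G] [Finite G], Nat.card G ≤ n → Hyp G → ¬ 12 ∣ Nat.card G →
    Group.IsSolvable G := by
  induction n with
  | zero =>
    intro G _ _ hn
    have : 0 < Nat.card G := Nat.card_pos
    omega
  | succ n ih =>
    intro G _ _ hn h h12
    by_cases h1 : Nat.card G = 1
    · haveI : Subsingleton G := (Nat.card_eq_one_iff_unique.mp h1).1
      infer_instance
    -- the smallest prime divisor
    obtain ⟨p, hp, hpd, hpmin⟩ : ∃ p : ℕ, p.Prime ∧ p ∣ Nat.card G ∧ ∀ q : ℕ, q.Prime → q ∣ Nat.card G → p ≤ q :=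
      ⟨(Nat.card G).minFac, Nat.minFac_prime h1, Nat.minFac_dvd _, fun q hq hqd => Nat.minFac_le_of_dvd hq.two_le hqd⟩
    haveI : Fact p.Prime := ⟨hp⟩
    by_cases hone : ∀ q : ℕ, q.Prime → q ∣ Nat.card G → q = p
    · apply solvable_of_isPGroup (p := p)
      rw [IsPGroup.iff_orderOf]
      intro g
      refine ⟨_, Nat.eq_prime_pow_of_unique_prime_dvd (orderOf_pos g).ne' ?_⟩
      intro q hq hqd
      exact hone q hq (hqd.trans (orderOf_dvd_natCard g))
    · push Not at hone
      obtain ⟨q, hq, hqd, hqp⟩ := hone
      have hpq : p < q := lt_of_le_of_ne (hpmin q hq hqd) (Ne.symm hqp)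
      obtain ⟨P⟩ := (inferInstance : Nonempty (Sylow p G))
      obtain ⟨hPab, hPr⟩ := h p hp hpd ⟨q, hq, hqd, hpq⟩ P
      have hnpc : Cfsg.HasNormalPComplement p G := by
        refine CfsgLib.FgRank.npc_of_rank P hPab ?_
        intro r hr hrp hrd j hj1 hj2 hrj
        have hrgt : p < r := lt_of_le_of_ne (hpmin r hr hrd) (Ne.symm hrp)
        have hpos : 0 < p ^ j - 1 := Nat.sub_pos_of_lt (Nat.one_lt_pow (by omega) hp.one_lt)
        have hj : j = 1 ∨ j = 2 := by omega
        rcases hj with rfl | rfl
        · rw [pow_one] at hrj hpos
          have := Nat.le_of_dvd hpos hrj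
          omega
        · have h2 : p ^ 2 - 1 = (p + 1) * (p - 1) := by
            have := hp.one_lt
            obtain ⟨k, rfl⟩ : ∃ k, p = k + 1 := ⟨p - 1, by omega⟩
            rw [Nat.add_sub_cancel]
            have : (k + 1) ^ 2 = (k + 1 + 1) * k + 1 := by ring
            omega
          rw [h2] at hrj
          rcases (Nat.Prime.dvd_mul hr).mp hrj with h3 | h3
          · have h4 : r ≤ p + 1 := Nat.le_of_dvd (Nat.succ_pos p) h3
            have h5 : r = p + 1 := by omega
            -- then p = 2, r = 3
            have hp2 : p = 2 := by
              by_contra hp2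
              have hpo := hp.odd_of_ne_two hp2
              have h2le := hp.two_le
              have hro := hr.odd_of_ne_two (by omega)
              rw [h5] at hro
              obtain ⟨a, ha⟩ := hpo
              obtain ⟨b, hb⟩ := hro
              omega
            subst hp2
            have hr3 : r = 3 := by omega
            subst hr3
            -- then 4 does not divide |G| so the rank is at most one
            have h4' : ¬ 4 ∣ Nat.card G := by
              intro h4'
              apply h12
              have : Nat.Coprime 3 4 := by norm_num
              exact this.mul_dvd_of_dvd_of_dvd hrd h4'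
            have hPc : Nat.card (P : Subgroup G) = 2 := by
              have h6 : Nat.card (P : Subgroup G) = 2 ^ (Nat.card G).factorization 2 := P.card_eq_multiplicity
              have h7 : (Nat.card G).factorization 2 = 1 := by
                have h8 := Nat.Prime.factorization_pos_of_dvd hp Nat.card_pos.ne' hpd
                by_contra hne
                apply h4'
                have : 2 ≤ (Nat.card G).factorization 2 := by omega
                exact (pow_dvd_pow 2 this).trans (Nat.ordProj_dvd _ _)
              rw [h6, h7, pow_one]
            have hcyc : IsCyclic (P : Subgroup G) := isCyclic_of_prime_card (p := 2) hPc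
            have hrk : Group.rank (P : Subgroup G) ≤ 1 := by
              obtain ⟨g, hg⟩ := hcyc.exists_generator
              have := Group.rank_le (S := ({g} : Finset (P : Subgroup G))) (by
                rw [Finset.coe_singleton, ← zpowers_eq_closure]
                exact eq_top_iff.mpr fun x _ => hg x)
              simpa using this
            omega
          · have := Nat.le_of_dvd (by have := hp.one_lt; omega) h3
            omega
      obtain ⟨R, K, hKn, hK⟩ := hnpc
      haveI := hKn
      have hKc : Nat.card K * Nat.card (R : Subgroup G) = Nat.card G := hK.card_mul_card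
      have hRc : Nat.card (R : Subgroup G) = p ^ (Nat.card G).factorization p := R.card_eq_multiplicity
      have hf := Nat.Prime.factorization_pos_of_dvd hp Nat.card_pos.ne' hpd
      have hRgt : 1 < Nat.card (R : Subgroup G) := by
        rw [hRc]; exact Nat.one_lt_pow hf.ne' hp.one_lt
      have hKidx : K.index = Nat.card (R : Subgroup G) := by
        have := hK.symm.index_eq_card
        exact this
      have hKs : Group.IsSolvable K := by
        apply ih K
        · have : 0 < Nat.card K := Nat.card_pos
          nlinarith
        · intro q' hq' hqd' hex Q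
          haveI : Fact q'.Prime := ⟨hq'⟩
          obtain ⟨r, hr, hrd, hlt⟩ := hex
          have hq'p : q' ≠ p := by
            rintro rfl
            have h3 : Nat.card K = Nat.card G / q' ^ (Nat.card G).factorization q' := by
              rw [← hRc, ← hKc, Nat.mul_div_cancel _ Nat.card_pos]
            rw [h3] at hqd'
            exact Nat.not_dvd_ordCompl hq' Nat.card_pos.ne' hqd'
          obtain ⟨T, hT⟩ := Q.exists_comap_subtype_eq
          have hTK : (T : Subgroup G) ≤ K := by
            apply CfsgLib.H7.sylow_le_of_normal_index K
            rw [hKidx, hRc]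
            intro hd
            exact hq'p ((Nat.prime_dvd_prime_iff_eq hq' hp).mp (hq'.dvd_of_dvd_pow hd))
          have e : (Q : Subgroup K) ≃* (T : Subgroup G) := by
            rw [← hT]
            exact subgroupOfEquivOfLe hTK
          obtain ⟨h3, h4⟩ := h q' hq' (hqd'.trans (card_subgroup_dvd_card K))
            ⟨r, hr, hrd.trans (card_subgroup_dvd_card K), hlt⟩ T
          refine ⟨?_, ?_⟩
          · rw [isMulCommutative_iff] at h3 ⊢
            intro a b
            apply e.injective
            rw [map_mul, map_mul, h3]
          · rw [Group.rank_congr e]; exact h4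
        · intro h3
          exact h12 (h3.trans (card_subgroup_dvd_card K))
      have hQs : Group.IsSolvable (G ⧸ K) := by
        apply solvable_of_isPGroup (p := p)
        apply IsPGroup.of_card (n := (Nat.card G).factorization p)
        rw [← hRc, ← hKidx]
        rfl
      exact Group.isSolvable_of_ker_le_range K.subtype (QuotientGroup.mk' K) (by simp)

/-- Let `G` be a finite group such that for every prime `p` dividing its order, other than the largest such prime, the Sylow `p`-subgroups are abelian and generated by at most two elements, and suppose `12` does not divide the order of `G`. Then `G` is solvable. In particular a group of cube-free order not divisible by `12` is solvable. -/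
theorem result {G : Type*} [Group G] [Finite G] (h : ∀ p : ℕ, p.Prime → p ∣ Nat.card G → (∃ q : ℕ, q.Prime ∧ q ∣ Nat.card G ∧ p < q) → ∀ P : Sylow p G, IsMulCommutative (P : Subgroup G) ∧ Group.rank (P : Subgroup G) ≤ 2) (h12 : ¬ 12 ∣ Nat.card G) : Group.IsSolvable G := by
  exact main (Nat.card G) G le_rfl h h12

end Cfsg.Agent.S3970
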