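import Cfsg.Statements.S3971
import Cfsg.Agent.S0029
import Cfsg.Agent.S0071
import Cfsg.Agent.LibSolvFrat

set_option autoImplicit false
open Cfsg

namespace Cfsg.Agent.S3971

set_option linter.style.haveILetI false
set_option linter.unusedSectionVars false

universe u
open Subgroup

/-- a `2`-group with a cyclic subgroup of index at most `2` has Frattini quotient of order at most 4. -/
theorem card_frattini_quot {Q : Type u} [Group Q] [Finite Q] (hQ : IsPGroup 2 Q) (c : Q)
    (hc : (zpowers c).index ≤ 2) : Nat.card (Q ⧸ frattini Q) ≤ 4 := by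
  haveI : Fact (Nat.Prime 2) := ⟨Nat.prime_two⟩
  let f := QuotientGroup.mk' (frattini Q)
  have hf : Function.Surjective f := QuotientGroup.mk'_surjective _
  have h1 : ((zpowers c).map f).index ≤ 2 :=
    (Nat.le_of_dvd (Nat.pos_of_ne_zero index_ne_zero_of_finite) (index_map_dvd (zpowers c) hf)).trans hc
  have h2 : (zpowers c).map f = zpowers (f c) := MonoidHom.map_zpowers f c
  have h3 : Nat.card ((zpowers c).map f) ≤ 2 := by
    rw [h2, Nat.card_zpowers]
    apply Nat.le_of_dvd (by norm_num)
    apply orderOf_dvd_of_pow_eq_one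
    rw [← map_pow]
    exact (QuotientGroup.eq_one_iff _).mpr (CfsgLib.SolvFrat.pow_mem_frattini Nat.prime_two hQ c)
  rw [← card_mul_index ((zpowers c).map f)]
  calc _ ≤ 2 * 2 := Nat.mul_le_mul h3 h1
    _ = 4 := rfl

/-- an automorphism of order prime to 6 acts trivially on a set of size at most 4 -/
theorem perm_eq_one {X : Type u} [Finite X] (hX : Nat.card X ≤ 4) (σ : Equiv.Perm X) {n : ℕ}
    (hn : Nat.Coprime n 6) (h : σ ^ n = 1) : σ = 1 := by
  rw [← orderOf_eq_one_iff]
  have h1 : orderOf σ ∣ n := orderOf_dvd_of_pow_eq_one h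
  have h2 : orderOf σ ∣ 24 := by
    refine (orderOf_dvd_natCard σ).trans ?_
    rw [Nat.card_perm]
    exact Nat.factorial_dvd_factorial hX
  have h3 : Nat.Coprime n 24 := by
    have : Nat.Coprime n (6 * 4) := by
      apply Nat.Coprime.mul_right hn
      have h4 : Nat.Coprime n 2 := Nat.Coprime.coprime_dvd_right (by norm_num) hn
      exact Nat.Coprime.pow_right 2 h4
    exact this
  exact Nat.eq_one_of_dvd_coprimes h3 h1 h2

/-- the action of the normalizer on the Frattini quotient, as permutations -/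
noncomputable def θ {G : Type u} [Group G] (Q : Subgroup G) :
    normalizer (Q : Set G) →* Equiv.Perm (Q ⧸ frattini Q) where
  toFun a := (QuotientGroup.congr (frattini Q) (frattini Q) (Q.normalizerMonoidHom a)
    (characteristic_iff_map_eq.mp (inferInstance : (frattini Q).Characteristic) _)).toEquiv
  map_one' := by
    ext x
    obtain ⟨x, rfl⟩ := QuotientGroup.mk_surjective x
    change QuotientGroup.mk (Q.normalizerMonoidHom 1 x) = _
    rw [map_one]
    rfl
  map_mul' a b := by
    ext x
    obtain ⟨x, rfl⟩ := QuotientGroup.mk_surjective x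
    change QuotientGroup.mk (Q.normalizerMonoidHom (a * b) x) =
      QuotientGroup.mk (Q.normalizerMonoidHom a (Q.normalizerMonoidHom b x))
    rw [map_mul]
    rfl

theorem θ_apply {G : Type u} [Group G] (Q : Subgroup G) (a : normalizer (Q : Set G)) (x : Q) :
    θ Q a (QuotientGroup.mk x) = QuotientGroup.mk (Q.normalizerMonoidHom a x) := rfl

/-- Let `G` be a finite group of order `2 ^ a * n` with `n` odd and not divisible by `3`, and suppose `G` has an element of order `2 ^ (a - 1)` (so a Sylow `2`-subgroup has a cyclic subgroup of index at most `2`). Then `G` has a normal subgroup of order `n`. -/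
theorem result {G : Type*} [Group G] [Finite G] (a n : ℕ) (hG : Nat.card G = 2 ^ a * n) (hn : Odd n) (h3 : ¬ 3 ∣ n) (hx : ∃ x : G, orderOf x = 2 ^ (a - 1)) : ∃ N : Subgroup G, N.Normal ∧ Nat.card N = n := by
  classical
  haveI : Fact (Nat.Prime 2) := ⟨Nat.prime_two⟩
  obtain ⟨x, hx⟩ := hx
  have hxp : IsPGroup 2 (zpowers x) := IsPGroup.of_card (n := a - 1) (by rw [Nat.card_zpowers, hx])
  obtain ⟨P, hP⟩ := hxp.exists_le_sylow
  have hn0 : n ≠ 0 := by rintro rfl; exact (Nat.not_odd_zero) hn
  have hPc : Nat.card (P : Subgroup G) = 2 ^ a := by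
    have h1 : Nat.card (P : Subgroup G) = 2 ^ (Nat.card G).factorization 2 := P.card_eq_multiplicity
    rw [h1, hG, Nat.factorization_mul (by positivity) hn0, Finsupp.add_apply,
      Nat.prime_two.factorization_pow, Finsupp.single_eq_same,
      Nat.factorization_eq_zero_of_not_dvd (fun h => (Nat.not_even_iff_odd.mpr hn) (even_iff_two_dvd.mpr h)), add_zero]
  have h3G : ¬ 3 ∣ Nat.card G := by
    rw [hG]
    intro h
    rcases (Nat.Prime.dvd_mul Nat.prime_three).mp h with h1 | h1
    · have := (Nat.prime_dvd_prime_iff_eq Nat.prime_three Nat.prime_two).mp (Nat.prime_three.dvd_of_dvd_pow h1)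
      omega
    · exact h3 h1
  have hxP : (zpowers x).relIndex (P : Subgroup G) ≤ 2 := by
    have h1 := relIndex_mul_relIndex ⊥ (zpowers x) (P : Subgroup G) bot_le hP
    rw [relIndex_bot_left, relIndex_bot_left, Nat.card_zpowers, hx, hPc] at h1
    rcases Nat.eq_zero_or_pos a with h0 | h0
    · subst h0
      simp only [Nat.zero_sub, pow_zero, one_mul] at h1
      omega
    · obtain ⟨b, rfl⟩ : ∃ b, a = b + 1 := ⟨a - 1, by omega⟩
      rw [Nat.add_sub_cancel, pow_succ] at h1
      exact (Nat.eq_of_mul_eq_mul_left (by positivity) h1).le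
  obtain ⟨N, hNn, hN⟩ := (Cfsg.Agent.S0071.result P).mpr (by
    intro Q hQP g hg hgo
    have hQ2 : IsPGroup 2 Q := P.isPGroup'.to_le hQP
    -- a cyclic subgroup of index at most two
    obtain ⟨c, hc⟩ : ∃ c : Q, (zpowers c).index ≤ 2 := by
      have hle : zpowers x ⊓ Q ≤ Q := inf_le_right
      haveI : IsCyclic ((zpowers x ⊓ Q).subgroupOf (zpowers x)) := inferInstance
      haveI : IsCyclic ((zpowers x).subgroupOf Q) := by
        have e1 : (zpowers x ⊓ Q).subgroupOf (zpowers x) ≃* (zpowers x ⊓ Q : Subgroup G) :=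
          subgroupOfEquivOfLe inf_le_left
        have e2 : (zpowers x ⊓ Q).subgroupOf Q ≃* (zpowers x ⊓ Q : Subgroup G) :=
          subgroupOfEquivOfLe inf_le_right
        rw [← inf_subgroupOf_right]
        exact isCyclic_of_surjective (e1.trans e2.symm) (e1.trans e2.symm).surjective
      obtain ⟨c, hc⟩ := (Subgroup.isCyclic_iff_exists_zpowers_eq_top ((zpowers x).subgroupOf Q)).mp inferInstance
      refine ⟨c, ?_⟩
      rw [hc]
      change (zpowers x).relIndex Q ≤ 2
      exact (relIndex_le_of_le_right hQP index_ne_zero_of_finite).trans hxP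
    have hcard := card_frattini_quot hQ2 c hc
    have hgn : Nat.Coprime (orderOf g) 6 := by
      have h1 : Nat.Coprime (orderOf g) 3 := by
        rw [Nat.coprime_comm, Nat.prime_three.coprime_iff_not_dvd]
        intro h
        exact h3G (h.trans (orderOf_dvd_natCard g))
      exact Nat.Coprime.mul_right hgo h1
    have hθg : θ Q ⟨g, hg⟩ = 1 := by
      apply perm_eq_one hcard _ hgn
      rw [← map_pow]
      have h1 : (⟨g, hg⟩ : normalizer (Q : Set G)) ^ orderOf g = 1 := Subtype.ext (pow_orderOf_eq_one g)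
      rw [h1, map_one]
    have hle : zpowers g ≤ normalizer (Q : Set G) := zpowers_le.mpr hg
    refine Cfsg.Agent.S0029.result (zpowers g) Q hle ?_ ?_ (mem_zpowers g)
    · obtain ⟨b, hb⟩ := IsPGroup.iff_card.mp (hQ2.to_subgroup (frattini Q))
      rw [Nat.card_zpowers, hb]
      exact Nat.Coprime.pow_right b hgo
    · intro y hy k hk
      have hθy : θ Q ⟨y, hle hy⟩ = 1 := by
        obtain ⟨i, rfl⟩ := mem_zpowers_iff.mp hy
        have h1 : (⟨g ^ i, hle hy⟩ : normalizer (Q : Set G)) = ⟨g, hg⟩ ^ i := Subtype.ext rfl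
        rw [h1, map_zpow, hθg, one_zpow]
      have h2 := θ_apply Q ⟨y, hle hy⟩ ⟨k, hk⟩
      rw [hθy, Equiv.Perm.one_apply, QuotientGroup.eq] at h2
      have h3 : Q.normalizerMonoidHom ⟨y, hle hy⟩ ⟨k, hk⟩ * (⟨k, hk⟩ : Q)⁻¹ ∈ frattini Q := by
        have h4 := (inferInstance : (frattini Q).Normal).conj_mem _ h2 ⟨k, hk⟩
        rwa [mul_inv_cancel_left] at h4
      exact ⟨_, h3, rfl⟩)
  refine ⟨N, hNn, ?_⟩
  have h1 := hN.card_mul_card
  rw [hPc, hG, mul_comm] at h1
  exact Nat.eq_of_mul_eq_mul_left (by positivity) h1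

end Cfsg.Agent.S3971
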