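import Cfsg.Statements.S3972
import Cfsg.Agent.LibCycBH14


set_option autoImplicit false
open Cfsg

namespace Cfsg.Agent.S3972

open MulAction CfsgLib.CycBH14


/-- Let `p` be a prime, `m ≥ 2`, and `G` a transitive but not doubly transitive permutation group on `p ^ m` points containing a permutation of order `p ^ m` (necessarily a full cycle). Then `G` is imprimitive, and the normal closure in `G` of the `p ^ (m - 1)`-th power of that permutation is an intransitive normal subgroup. -/
theorem result {Ω : Type*} [Fintype Ω] [DecidableEq Ω] (p m : ℕ) (hp : p.Prime) (hm : 2 ≤ m) (hΩ : Fintype.card Ω = p ^ m) (G : Subgroup (Equiv.Perm Ω)) (htr : MulAction.IsPretransitive G Ω) (h2 : ¬ MulAction.IsMultiplyPretransitive G Ω 2) (g : G) (hg : orderOf g = p ^ m) : ¬ MulAction.IsPreprimitive G Ω ∧ ¬ MulAction.IsPretransitive (Subgroup.normalClosure ({g ^ (p ^ (m - 1))} : Set G)) Ω := by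
  haveI : NeZero (p ^ m) := ⟨(pow_pos hp.pos m).ne'⟩
  have hgp : g ^ (p ^ (m - 1)) ≠ 1 := by
    intro h
    have h1 := orderOf_dvd_of_pow_eq_one h
    rw [hg] at h1
    have := (Nat.pow_dvd_pow_iff_le_right hp.one_lt).1 h1
    omega
  obtain ⟨α, hα⟩ : ∃ α : Ω, g ^ (p ^ (m - 1)) • α ≠ α := by
    by_contra hcon
    push Not at hcon
    apply hgp
    apply Subtype.ext
    ext x
    exact hcon x
  have hper : period g α = p ^ m := by
    have h1 : period g α ∣ p ^ m := by
      rw [← hg]; exact period_dvd_orderOf g α
    obtain ⟨k, hk, hk2⟩ := (Nat.dvd_prime_pow hp).1 h1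
    have h2 : ¬ k ≤ m - 1 := by
      intro h3
      apply hα
      rw [pow_smul_eq_iff_period_dvd, hk2]
      exact pow_dvd_pow p h3
    have : k = m := by omega
    rw [hk2, this]
  have hReg : Reg (G := G) (Ω := Ω) (fun i : ZMod (p ^ m) => g ^ i.val) α := by
    constructor
    · intro i j
      show g ^ (i + j).val = g ^ i.val * g ^ j.val
      rw [ZMod.val_add, ← pow_add]
      conv_rhs => rw [← pow_mod_orderOf, hg]
    · rw [Fintype.bijective_iff_injective_and_card]
      refine ⟨?_, by rw [ZMod.card, hΩ]⟩
      have key : ∀ i j : ZMod (p ^ m), i.val ≤ j.val → g ^ i.val • α = g ^ j.val • α → i = j := by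
        intro i j hij h
        have h1 : g ^ (j.val - i.val) • α = α := by
          have h2 : g ^ j.val = g ^ i.val * g ^ (j.val - i.val) := by rw [← pow_add]; congr 1; omega
          rw [h2, mul_smul] at h
          exact (smul_left_cancel _ h).symm
        rw [pow_smul_eq_iff_period_dvd, hper] at h1
        have h3 : j.val - i.val = 0 := by
          by_contra h0
          have := Nat.le_of_dvd (Nat.pos_of_ne_zero h0) h1
          have := ZMod.val_lt j
          omega
        exact ZMod.val_injective _ (by omega)
      intro i j h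
      rcases le_total i.val j.val with h1 | h1
      · exact key i j h1 h
      · exact (key j i h1 h.symm).symm
  have hni : ¬ IsPreprimitive G Ω := by
    intro hprim
    exact h2 (hReg.isMulti hp hm rfl)
  refine ⟨hni, ?_⟩
  exact hReg.intrans' hp hm rfl hni (g ^ (p ^ (m - 1))) ((p ^ (m - 1) : ℕ) : ZMod (p ^ m))
    (ZMod.val_natCast_of_lt ((Nat.pow_lt_pow_iff_right hp.one_lt).2 (by omega)))
    (congrArg (fun k : ℕ => g ^ k) (ZMod.val_natCast_of_lt ((Nat.pow_lt_pow_iff_right hp.one_lt).2 (by omega))))

end Cfsg.Agent.S3972
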