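import Cfsg.Statements.S3973
import Cfsg.Agent.LibSchur7

set_option autoImplicit false
open Cfsg

namespace Cfsg.Agent.S3973

set_option linter.style.haveILetI false
set_option linter.unusedSectionVars false
set_option linter.unusedVariables false

open Subgroup CfsgLib.Schur

/-- If a finite group is presented by `n` generators and a finite set of `r` relators, then its Schur multiplier can be generated by `r - n` elements. In particular a finite group with a presentation having as many relators as generators has trivial Schur multiplier. -/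
theorem result (n : ℕ) (rels : Finset (FreeGroup (Fin n))) [Finite (PresentedGroup (rels : Set (FreeGroup (Fin n))))] {A : Type*} [CommGroup A] [Finite A] (hA : Cfsg.HasSchurMultiplier (PresentedGroup (rels : Set (FreeGroup (Fin n)))) A) : Group.rank A ≤ rels.card - n := by
  classical
  set R : Set (FreeGroup (Fin n)) := (rels : Set (FreeGroup (Fin n))) with hR
  obtain ⟨⟨Γ, _, _, σ, hσ, ⟨ε⟩⟩, -⟩ := hA
  let π : FreeGroup (Fin n) →* PresentedGroup R := PresentedGroup.mk R
  have hπ : Function.Surjective π := PresentedGroup.mk_surjective R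
  have hπk : π.ker = normalClosure R := by
    ext x
    exact PresentedGroup.mk_eq_one_iff
  obtain ⟨φ, hφ⟩ := exists_lift_free π σ hσ.1
  letI : CommGroup σ.ker :=
    { (inferInstance : Group σ.ker) with
      mul_comm := fun a b => Subtype.ext (mem_center_iff.mp (hσ.2.1 b.2) a) }
  have hrel : ∀ r : rels, φ (r : FreeGroup (Fin n)) ∈ σ.ker := by
    intro r
    rw [MonoidHom.mem_ker, hφ]
    rw [← MonoidHom.mem_ker, hπk]
    exact subset_normalClosure r.2
  let f : (rels → ℤ) →ₗ[ℤ] Additive σ.ker :=
    Fintype.linearCombination ℤ (fun r : rels => (Additive.ofMul ⟨φ r, hrel r⟩ : Additive σ.ker))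
  let f' : (rels → ℤ) →ₗ[ℤ] Additive (Abelianization (FreeGroup (Fin n))) :=
    Fintype.linearCombination ℤ (fun r : rels => (Additive.ofMul (Abelianization.of (r : FreeGroup (Fin n)))))
  have hf1 : ∀ r : rels, f (Pi.single r 1) = Additive.ofMul ⟨φ r, hrel r⟩ := fun r => by
    simp only [f, Fintype.linearCombination_apply_single, one_smul]
  have hf1' : ∀ r : rels, f' (Pi.single r 1) = Additive.ofMul (Abelianization.of (r : FreeGroup (Fin n))) := fun r => by
    simp only [f', Fintype.linearCombination_apply_single, one_smul]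
  let T : Subgroup (FreeGroup (Fin n)) :=
    { carrier := {y | ∃ k : rels → ℤ, ((Additive.toMul (f k) : σ.ker) : Γ) = φ y ∧ f' k = Additive.ofMul (Abelianization.of y)}
      mul_mem' := by
        rintro a b ⟨k, hk1, hk2⟩ ⟨l, hl1, hl2⟩
        refine ⟨k + l, ?_, ?_⟩
        · rw [map_add, toMul_add, Subgroup.coe_mul, hk1, hl1, map_mul]
        · rw [map_add, hk2, hl2, map_mul, ofMul_mul]
      one_mem' := ⟨0, by rw [map_zero, map_one]; rfl, by rw [map_zero, map_one]; rfl⟩
      inv_mem' := by
        rintro a ⟨k, hk1, hk2⟩
        refine ⟨-k, ?_, ?_⟩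
        · rw [map_neg, toMul_neg, Subgroup.coe_inv, hk1, map_inv]
        · rw [map_neg, hk2, map_inv, ofMul_inv] }
  haveI : T.Normal := ⟨by
    rintro y ⟨k, hk1, hk2⟩ g
    refine ⟨k, ?_, ?_⟩
    · rw [hk1, map_mul, map_mul, map_inv]
      have h := mem_center_iff.mp (hσ.2.1 (Additive.toMul (f k) : σ.ker).2) (φ g)
      rw [hk1] at h
      rw [h, mul_inv_cancel_right]
    · have h3 : (Abelianization.of (g * y * g⁻¹) : Abelianization (FreeGroup (Fin n))) = Abelianization.of y := by
        rw [map_mul, map_mul, map_inv, mul_comm (Abelianization.of g), mul_inv_cancel_right]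
      rw [hk2, h3]⟩
  have hT : normalClosure R ≤ T := normalClosure_le_normal (by
    intro r hr
    refine ⟨Pi.single ⟨r, hr⟩ 1, ?_, ?_⟩
    · rw [hf1]; rfl
    · rw [hf1'])
  let W := LinearMap.ker f'
  obtain ⟨m, ⟨b⟩⟩ := Submodule.nonempty_basis_of_pid (Pi.basisFun ℤ rels) W
  have hsurj : ∀ x : σ.ker, ∃ w : W, f w = Additive.ofMul x := by
    intro x
    obtain ⟨y, hy, hyx⟩ := free_ker hπ hσ hφ x x.2
    obtain ⟨hy1, hy2⟩ := Subgroup.mem_inf.mp hy
    rw [hπk] at hy1
    obtain ⟨k, hk1, hk2⟩ := hT hy1
    have h1 : (Abelianization.of y : Abelianization (FreeGroup (Fin n))) = 1 := (QuotientGroup.eq_one_iff y).mpr hy2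
    refine ⟨⟨k, ?_⟩, ?_⟩
    · rw [LinearMap.mem_ker, hk2, h1]; rfl
    · change f k = _
      apply Additive.toMul.injective
      apply Subtype.ext
      rw [hk1, hyx]; rfl
  -- rank of W
  have hm : Module.finrank ℤ W = m := by
    rw [Module.finrank_eq_card_basis b, Fintype.card_fin]
  let bF : Module.Basis (Fin n) ℤ (Additive (Abelianization (FreeGroup (Fin n)))) :=
    (FreeAbelianGroup.basis (Fin n)).map
      (AddEquiv.toIntLinearEquiv (AddEquiv.refl _ : FreeAbelianGroup (Fin n) ≃+ Additive (Abelianization (FreeGroup (Fin n)))))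
  have hn : Module.finrank ℤ (Additive (Abelianization (FreeGroup (Fin n)))) = n := by
    rw [Module.finrank_eq_card_basis bF, Fintype.card_fin]
  haveI : Module.Finite ℤ (Additive (Abelianization (FreeGroup (Fin n)))) :=
    Module.Finite.of_basis bF
  have hrn : Module.finrank ℤ (LinearMap.range f') + Module.finrank ℤ W = rels.card := by
    have h1 := Submodule.finrank_quotient_add_finrank W
    rw [LinearEquiv.finrank_eq f'.quotKerEquivRange] at h1
    rw [h1, Module.finrank_fintype_fun_eq_card, Fintype.card_coe]
  have hge : n ≤ Module.finrank ℤ (LinearMap.range f') := by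
    set N := Nat.card (PresentedGroup R) with hN
    have hN0 : N ≠ 0 := Nat.card_pos.ne'
    let g : Additive (Abelianization (FreeGroup (Fin n))) →ₗ[ℤ] Additive (Abelianization (FreeGroup (Fin n))) :=
      (N : ℤ) • LinearMap.id
    have hg : ∀ v, g v ∈ LinearMap.range f' := by
      intro v
      obtain ⟨x, hx⟩ := QuotientGroup.mk'_surjective (_root_.commutator (FreeGroup (Fin n))) (Additive.toMul v)
      have h1 : π (x ^ N) = 1 := by rw [map_pow, hN]; exact pow_card_eq_one'
      rw [← MonoidHom.mem_ker, hπk] at h1
      obtain ⟨k, -, hk2⟩ := hT h1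
      refine ⟨k, ?_⟩
      rw [hk2, map_pow, ofMul_pow]
      have h2 : (Additive.ofMul (Abelianization.of x) : Additive (Abelianization (FreeGroup (Fin n)))) = v := by
        apply Additive.toMul.injective
        exact hx
      rw [h2]
      simp [g]
    have hinj : Function.Injective (g.codRestrict (LinearMap.range f') hg) := by
      rw [injective_iff_map_eq_zero]
      intro v hv
      have h1 : (N : ℤ) • v = 0 := congrArg Subtype.val hv
      apply bF.repr.injective
      ext t
      have h2 := congrArg (fun v => bF.repr v t) h1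
      simp only [map_smul, map_zero, Finsupp.smul_apply, smul_eq_mul, Finsupp.zero_apply] at h2 ⊢
      rcases mul_eq_zero.mp h2 with h3 | h3
      · exact absurd (by exact_mod_cast h3) hN0
      · exact h3
    calc n = Module.finrank ℤ (Additive (Abelianization (FreeGroup (Fin n)))) := hn.symm
      _ ≤ _ := LinearMap.finrank_le_finrank_of_injective hinj
  -- generators
  let S : Finset A := Finset.univ.image (fun j : Fin m => ε (Additive.toMul (f (b j))))
  have hS : Subgroup.closure (S : Set A) = ⊤ := by
    rw [eq_top_iff]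
    intro a _
    obtain ⟨w, hw⟩ := hsurj (ε.symm a)
    have h1 : (w : rels → ℤ) = ∑ j, b.repr w j • (b j : rels → ℤ) := by
      have h := congrArg W.subtype (b.sum_repr w)
      rw [map_sum] at h
      simp only [map_smul] at h
      exact h.symm
    rw [h1, map_sum] at hw
    have h2 : a = ∏ j, (ε (Additive.toMul (f (b j)))) ^ (b.repr w j) := by
      rw [← ε.apply_symm_apply a]
      have h3 : ε.symm a = ∏ j, (Additive.toMul (f (b j))) ^ (b.repr w j) := by
        apply Additive.ofMul.injective
        rw [← hw, ofMul_prod]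
        refine Finset.sum_congr rfl (fun j _ => ?_)
        rw [map_smul]
        rfl
      rw [h3, map_prod]
      refine Finset.prod_congr rfl (fun j _ => ?_)
      rw [map_zpow]
    rw [h2]
    refine Subgroup.prod_mem _ (fun j _ => Subgroup.zpow_mem _ (Subgroup.subset_closure ?_) _)
    simp only [S, Finset.coe_image, Finset.coe_univ, Set.image_univ]
    exact ⟨j, rfl⟩
  calc Group.rank A ≤ S.card := Group.rank_le hS
    _ ≤ m := by
      refine Finset.card_image_le.trans ?_
      rw [Finset.card_univ, Fintype.card_fin]
    _ ≤ rels.card - n := by omega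

end Cfsg.Agent.S3973
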