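import Cfsg.Statements.S3974
import Cfsg.Agent.LibSchur6

set_option autoImplicit false
universe u v
open Cfsg

namespace Cfsg.Agent.S3974

set_option linter.style.haveILetI false
set_option linter.unusedSectionVars false
set_option linter.unusedVariables false

open Subgroup CfsgLib.Schur

theorem ker_sup {Q : Type u} [Group Q] [Finite Q] {Γ : Type v} [Group Γ] {σ : Γ →* Q} (hσ : Cfsg.IsStemExtension σ)
    {φ : E Q →* Γ} (h : σ.comp φ = e Q) : φ.ker ⊔ MS Q = (e Q).ker := by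
  apply le_antisymm
  · exact sup_le (ker_lift_le h) (MS_le_ker Q)
  · intro x hx
    have h1 := map_MS hσ.2.1 h
    rw [inf_eq_left.mpr hσ.2.2] at h1
    have h2 : φ x ∈ σ.ker := by
      rw [MonoidHom.mem_ker, lift_apply h]; exact hx
    rw [← h1] at h2
    obtain ⟨m, hm, hmx⟩ := h2
    have h3 : x = (x * m⁻¹) * m := by group
    rw [h3]
    refine mul_mem (mem_sup_left ?_) (mem_sup_right hm)
    rw [MonoidHom.mem_ker, map_mul, map_inv, hmx, mul_inv_cancel]

/-- if `S ⊔ MS = ker e` then every `x` with `e x ∈ Q'` is in `S` modulo `E'`. -/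
theorem exists_mem_of {Q : Type u} [Group Q] (S : Subgroup (E Q)) (hS : S ⊔ MS Q = (e Q).ker)
    (x : E Q) (hx : e Q x ∈ commutator Q) : ∃ s ∈ S, Abelianization.of x = Abelianization.of s := by
  have h1 : commutator Q = (commutator (E Q)).map (e Q) := by
    rw [_root_.commutator_def, _root_.commutator_def, Subgroup.map_commutator,
      Subgroup.map_top_of_surjective _ (e_surj Q)]
  rw [h1] at hx
  obtain ⟨c, hc, hcx⟩ := hx
  have h2 : c⁻¹ * x ∈ (e Q).ker := by rw [MonoidHom.mem_ker, map_mul, map_inv, hcx, inv_mul_cancel]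
  rw [← hS] at h2
  haveI := normal_of_le_ker Q (MS_le_ker Q)
  obtain ⟨s, hs, m, hm, hsm⟩ := Subgroup.mem_sup_of_normal_right.mp h2
  refine ⟨s, hs, ?_⟩
  have hof : ∀ y : E Q, y ∈ commutator (E Q) → (Abelianization.of y : Abelianization (E Q)) = 1 :=
    fun y hy => (QuotientGroup.eq_one_iff y).mpr hy
  have h3 : x = c * (s * m) := by rw [hsm]; group
  rw [h3, map_mul, map_mul, hof c hc, hof m (MS_le_comm Q hm), one_mul, mul_one]

theorem iso_of_coprime {Q : Type u} [Group Q] [Finite Q] {A : Type v} [CommGroup A] (hA : Cfsg.HasSchurMultiplier Q A)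
    (hcop : Nat.Coprime (Nat.card (Abelianization Q)) (Nat.card A))
    (Γ₁ Γ₂ : Type u) [Group Γ₁] [Finite Γ₁] [Group Γ₂] [Finite Γ₂] (σ₁ : Γ₁ →* Q) (σ₂ : Γ₂ →* Q)
    (h1 : Cfsg.IsStemExtension σ₁) (h2 : Cfsg.IsStemExtension σ₂) (hk1 : Nonempty (σ₁.ker ≃* A))
    (hk2 : Nonempty (σ₂.ker ≃* A)) : ∃ e : Γ₁ ≃* Γ₂, σ₂.comp e.toMonoidHom = σ₁ := by
  obtain ⟨ψ1, hψ1⟩ := exists_lift σ₁ h1.1 h1.2.1
  obtain ⟨ψ2, hψ2⟩ := exists_lift σ₂ h2.1 h2.2.1
  have hinf := ker_lift_inf hA h1 hk1 hψ1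
  have hsup := ker_sup h1 hψ1
  have hle := ker_lift_le hψ1
  have hsurj1 := lift_surj h1 hψ1
  letI : CommGroup ψ1.ker :=
    { (inferInstance : Group ψ1.ker) with
      mul_comm := fun a b => Subtype.ext (mem_center_iff.mp (e_central Q (hle b.2)) a) }
  letI : CommGroup σ₂.ker :=
    { (inferInstance : Group σ₂.ker) with
      mul_comm := fun a b => Subtype.ext (mem_center_iff.mp (h2.2.1 b.2) a) }
  let i : ψ1.ker →* Abelianization (E Q) := Abelianization.of.comp ψ1.ker.subtype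
  have hi : Function.Injective i := by
    rw [injective_iff_map_eq_one]
    intro a ha
    have h1 : (a : E Q) ∈ commutator (E Q) := (QuotientGroup.eq_one_iff _).mp ha
    have h2 : (a : E Q) ∈ ψ1.ker ⊓ commutator (E Q) := Subgroup.mem_inf.mpr ⟨a.2, h1⟩
    rw [hinf, mem_bot] at h2
    exact Subtype.ext h2
  set l := Nat.card (Abelianization Q) with hl
  set a := Nat.card A with ha
  have hpow : ∀ y : Abelianization (E Q), powMonoidHom l y ∈ i.range := by
    intro y
    obtain ⟨x, rfl⟩ := QuotientGroup.mk'_surjective _ y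
    obtain ⟨s, hs, hsx⟩ := exists_mem_of ψ1.ker hsup (x ^ l) (by
      have h3 : (Abelianization.of (e Q x) : Abelianization Q) ^ l = 1 := pow_card_eq_one'
      rw [← map_pow, ← map_pow] at h3
      exact (QuotientGroup.eq_one_iff _).mp h3)
    refine ⟨⟨s, hs⟩, ?_⟩
    change Abelianization.of s = (Abelianization.of x) ^ l
    rw [← hsx, map_pow]
  let f : ψ1.ker →* σ₂.ker := (ψ2.comp ψ1.ker.subtype).codRestrict σ₂.ker (fun s => by
    rw [MonoidHom.mem_ker]
    change σ₂ (ψ2 (s : E Q)) = 1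
    rw [lift_apply hψ2]
    exact hle s.2)
  obtain ⟨k, hk⟩ : ∃ k, l * k ≡ 1 [MOD a] := by
    rcases Nat.lt_or_ge 1 a with h | h
    · obtain ⟨k, -, hk⟩ := Nat.exists_mul_mod_eq_one_of_coprime hcop h
      refine ⟨k, ?_⟩
      change _ % _ = _ % _
      rw [hk, Nat.mod_eq_of_lt h]
    · have : a = 1 := by
        have h0 : 0 < Nat.card (M Q) := by
          haveI : Finite (M Q) := finite_MS Q
          exact Nat.card_pos
        rw [Nat.card_congr (equiv_of_hasSchur hA).some.toEquiv] at h0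
        omega
      exact ⟨0, by rw [this]; exact Nat.modEq_one⟩
  let μ : E Q →* σ₂.ker := ((((powMonoidHom k : σ₂.ker →* σ₂.ker).comp f).comp (MonoidHom.ofInjective hi).symm.toMonoidHom).comp
    ((powMonoidHom l : Abelianization (E Q) →* Abelianization (E Q)).codRestrict i.range hpow)).comp Abelianization.of
  have hcard2 : Nat.card σ₂.ker = a := Nat.card_congr hk2.some.toEquiv
  have hμ : ∀ s (hs : s ∈ ψ1.ker), ((μ s : σ₂.ker) : Γ₂) = ψ2 s := by
    intro s hs
    have h3 : (MonoidHom.ofInjective hi).symm (((powMonoidHom l : Abelianization (E Q) →* Abelianization (E Q)).codRestrict i.range hpow) (Abelianization.of s)) = (⟨s, hs⟩ : ψ1.ker) ^ l := by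
      rw [MulEquiv.symm_apply_eq]
      apply Subtype.ext
      rw [map_pow]
      rfl
    have h4 : μ s = (f ((⟨s, hs⟩ : ψ1.ker) ^ l)) ^ k := by
      rw [← h3]; rfl
    rw [h4, map_pow, ← pow_mul]
    have h5 : (f ⟨s, hs⟩) ^ (l * k) = f ⟨s, hs⟩ := by
      have h6 : l * k ≡ 1 [MOD orderOf (f ⟨s, hs⟩)] := by
        refine hk.of_dvd ?_
        rw [← hcard2]
        exact orderOf_dvd_natCard _
      have h7 := (pow_eq_pow_iff_modEq (x := f ⟨s, hs⟩)).mpr h6
      rw [h7, pow_one]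
    rw [h5]
    rfl
  have hμc : ∀ x y, (((μ x : σ₂.ker) : Γ₂))⁻¹ * y = y * ((μ x : σ₂.ker) : Γ₂)⁻¹ := by
    intro x y
    exact (mem_center_iff.mp (inv_mem (h2.2.1 (μ x).2)) y).symm
  let ψ' : E Q →* Γ₂ :=
    { toFun := fun x => ψ2 x * ((μ x : σ₂.ker) : Γ₂)⁻¹
      map_one' := by simp
      map_mul' := by
        intro x y
        rw [map_mul, map_mul, Subgroup.coe_mul, mul_inv_rev, hμc y, mul_assoc, mul_assoc, ← mul_assoc (ψ2 y),
          ← hμc x (ψ2 y), mul_assoc] }
  have hψ' : ∀ x, ψ' x = ψ2 x * ((μ x : σ₂.ker) : Γ₂)⁻¹ := fun x => rfl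
  have hσψ' : σ₂.comp ψ' = e Q := by
    apply MonoidHom.ext
    intro x
    have h3 : σ₂ ((μ x : σ₂.ker) : Γ₂) = 1 := (μ x).2
    rw [MonoidHom.comp_apply, hψ', map_mul, map_inv, h3, inv_one, mul_one, lift_apply hψ2]
  have hsurj' := lift_surj h2 hσψ'
  have hkill : ∀ x ∈ ψ1.ker, ψ' x = 1 := by
    intro x hx
    rw [hψ', hμ x hx, mul_inv_cancel]
  let θ : Γ₁ →* Γ₂ := (MonoidHom.liftOfSurjective ψ1 hsurj1) ⟨ψ', hkill⟩
  have hθ : ∀ x, θ (ψ1 x) = ψ' x := fun x =>
    MonoidHom.liftOfRightInverse_comp_apply ψ1 _ (Function.rightInverse_surjInv hsurj1) ⟨ψ', hkill⟩ x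
  have hθσ : ∀ g, σ₂ (θ g) = σ₁ g := by
    intro g
    obtain ⟨x, rfl⟩ := hsurj1 g
    rw [hθ, lift_apply hσψ', lift_apply hψ1]
  have hθs : Function.Surjective θ := by
    intro g
    obtain ⟨x, rfl⟩ := hsurj' g
    exact ⟨ψ1 x, hθ x⟩
  have hcard : Nat.card Γ₁ = Nat.card Γ₂ := by
    rw [Subgroup.card_eq_card_quotient_mul_card_subgroup σ₁.ker, Subgroup.card_eq_card_quotient_mul_card_subgroup σ₂.ker,
      Nat.card_congr (QuotientGroup.quotientKerEquivOfSurjective σ₁ h1.1).toEquiv,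
      Nat.card_congr (QuotientGroup.quotientKerEquivOfSurjective σ₂ h2.1).toEquiv,
      Nat.card_congr hk1.some.toEquiv, Nat.card_congr hk2.some.toEquiv]
  refine ⟨MulEquiv.ofBijective θ ((Nat.bijective_iff_surjective_and_card θ).mpr ⟨hθs, hcard⟩), ?_⟩
  apply MonoidHom.ext
  intro g
  exact hθσ g

theorem coprime_of_iso {Q : Type u} [Group Q] [Finite Q] {A : Type v} [CommGroup A] (hA : Cfsg.HasSchurMultiplier Q A)
    (hiso : ∀ (Γ₁ Γ₂ : Type u) [Group Γ₁] [Finite Γ₁] [Group Γ₂] [Finite Γ₂] (σ₁ : Γ₁ →* Q) (σ₂ : Γ₂ →* Q), Cfsg.IsStemExtension σ₁ → Cfsg.IsStemExtension σ₂ → Nonempty (σ₁.ker ≃* A) → Nonempty (σ₂.ker ≃* A) → ∃ e : Γ₁ ≃* Γ₂, σ₂.comp e.toMonoidHom = σ₁) :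
    Nat.Coprime (Nat.card (Abelianization Q)) (Nat.card A) := by
  obtain ⟨δ⟩ := equiv_of_hasSchur hA
  obtain ⟨S, hS, hinf, hsup⟩ := exists_cover Q
  haveI := normal_of_le_ker Q hS
  haveI := finite_sg S hS hsup
  letI : CommGroup S :=
    { (inferInstance : Group S) with
      mul_comm := fun a b => Subtype.ext (mem_center_iff.mp (e_central Q (hS b.2)) a) }
  -- every homomorphism extends
  have hext : ∀ f : S →* M Q, ∃ g : E Q →* M Q, ∀ s : S, g s = f s := by
    intro f
    let j : S →* E Q :=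
      { toFun := fun s => (s : E Q) * ((f s : M Q) : E Q)
        map_one' := by simp
        map_mul' := by
          intro s t
          have h := mem_center_iff.mp (MS_central Q (f s).2) t
          rw [map_mul, Subgroup.coe_mul, Subgroup.coe_mul, mul_assoc, mul_assoc, ← mul_assoc (t : E Q), h, mul_assoc] }
    have hj : ∀ s : S, j s = (s : E Q) * ((f s : M Q) : E Q) := fun s => rfl
    let T : Subgroup (E Q) := j.range
    have hT : T ≤ (e Q).ker := by
      rintro _ ⟨s, rfl⟩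
      rw [hj]
      exact mul_mem (hS s.2) (MS_le_ker Q (f s).2)
    have hTinf : T ⊓ commutator (E Q) = ⊥ := by
      rw [eq_bot_iff]
      intro x hx
      obtain ⟨⟨s, rfl⟩, hs2⟩ := Subgroup.mem_inf.mp hx
      rw [hj, mul_mem_cancel_right (MS_le_comm Q (f s).2)] at hs2
      have h1 : (s : E Q) ∈ S ⊓ commutator (E Q) := Subgroup.mem_inf.mpr ⟨s.2, hs2⟩
      rw [hinf, mem_bot] at h1
      have h2 : s = 1 := Subtype.ext h1
      rw [mem_bot, h2, map_one]
    have hTsup : T ⊔ MS Q = (e Q).ker := by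
      apply le_antisymm
      · exact sup_le hT (MS_le_ker Q)
      · rw [← hsup]
        refine sup_le ?_ le_sup_right
        intro s hs
        have h1 : s = j ⟨s, hs⟩ * (((f ⟨s, hs⟩ : M Q) : E Q))⁻¹ := by rw [hj]; group
        rw [h1]
        exact mul_mem (mem_sup_left ⟨_, rfl⟩) (mem_sup_right (inv_mem (f ⟨s, hs⟩).2))
    haveI := normal_of_le_ker Q hT
    haveI := finite_sg T hT hTsup
    obtain ⟨a1⟩ := kerEquiv S hS hsup hinf
    obtain ⟨a2⟩ := kerEquiv T hT hTsup hTinf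
    obtain ⟨ε, hε⟩ := hiso (E Q ⧸ S) (E Q ⧸ T) (sg S hS) (sg T hT) (sg_stem S hS hsup) (sg_stem T hT hTsup)
      ⟨a1.symm.trans δ⟩ ⟨a2.symm.trans δ⟩
    have hε' : ∀ y, sg T hT (ε y) = sg S hS y := fun y => DFunLike.congr_fun hε y
    let mS := QuotientGroup.mk' S
    let mT := QuotientGroup.mk' T
    let f0 : M Q →* E Q ⧸ T := mT.comp (MS Q).subtype
    have hf0 : Function.Injective f0 := by
      rw [injective_iff_map_eq_one]
      intro x hx
      have h2 : (x : E Q) ∈ T := (QuotientGroup.eq_one_iff _).mp hx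
      have h3 : (x : E Q) ∈ T ⊓ commutator (E Q) := Subgroup.mem_inf.mpr ⟨h2, MS_le_comm Q x.2⟩
      rw [hTinf, mem_bot] at h3
      exact Subtype.ext h3
    have hker : ∀ x : E Q, (mT x)⁻¹ * ε (mS x) ∈ (sg T hT).ker := by
      intro x
      rw [MonoidHom.mem_ker, map_mul, map_inv, hε', sg_mk, sg_mk, inv_mul_cancel]
    have hcen : ∀ (x : E Q) (y : E Q ⧸ T), y * ((mT x)⁻¹ * ε (mS x)) = ((mT x)⁻¹ * ε (mS x)) * y := fun x y =>
      mem_center_iff.mp (sg_central T hT (hker x)) y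
    let ν : E Q →* E Q ⧸ T :=
      { toFun := fun x => (mT x)⁻¹ * ε (mS x)
        map_one' := by simp
        map_mul' := by
          intro x y
          rw [map_mul, map_mul, map_mul, mul_inv_rev]
          calc (mT y)⁻¹ * (mT x)⁻¹ * (ε (mS x) * ε (mS y))
              = (mT y)⁻¹ * ((mT x)⁻¹ * ε (mS x)) * ε (mS y) := by group
            _ = ((mT x)⁻¹ * ε (mS x)) * (mT y)⁻¹ * ε (mS y) := by rw [hcen x]
            _ = _ := by group }
    have hν : ∀ x, ν x ∈ f0.range := by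
      intro x
      have h1 := hker x
      rw [ker_sg' T hT hTsup] at h1
      obtain ⟨m, hm, hm'⟩ := h1
      exact ⟨⟨m, hm⟩, hm'⟩
    refine ⟨(MonoidHom.ofInjective hf0).symm.toMonoidHom.comp (ν.codRestrict f0.range hν), ?_⟩
    intro s
    change (MonoidHom.ofInjective hf0).symm (ν.codRestrict f0.range hν (s : E Q)) = f s
    rw [MulEquiv.symm_apply_eq]
    apply Subtype.ext
    change (mT s)⁻¹ * ε (mS s) = mT ((f s : M Q) : E Q)
    have h1 : mS (s : E Q) = 1 := (QuotientGroup.eq_one_iff _).mpr s.2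
    have h2 : mT (s : E Q) * mT ((f s : M Q) : E Q) = 1 := by
      rw [← map_mul]
      exact (QuotientGroup.eq_one_iff _).mpr ⟨s, rfl⟩
    rw [h1, map_one, mul_one, inv_eq_iff_mul_eq_one, h2]
  -- suppose not coprime
  by_contra hnc
  obtain ⟨p, hp, hp1, hp2⟩ := Nat.Prime.not_coprime_iff_dvd.mp hnc
  haveI : Fact p.Prime := ⟨hp⟩
  haveI : Finite (M Q) := finite_MS Q
  haveI : Finite (Abelianization Q) := inferInstance
  obtain ⟨q, hq⟩ := exists_prime_orderOf_dvd_card' p hp1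
  obtain ⟨q, rfl⟩ := QuotientGroup.mk'_surjective _ q
  obtain ⟨x, rfl⟩ := e_surj Q q
  have hofx : orderOf (Abelianization.of (e Q x) : Abelianization Q) = p := hq
  obtain ⟨s, hs, hsx⟩ := exists_mem_of S hsup (x ^ p) (by
    have h3 : (Abelianization.of (e Q x) : Abelianization Q) ^ p = 1 := by rw [← hofx, pow_orderOf_eq_one]
    rw [← map_pow, ← map_pow] at h3
    exact (QuotientGroup.eq_one_iff _).mp h3)
  let i : Additive S →ₗ[ℤ] Additive (Abelianization (E Q)) :=
    (MonoidHom.toAdditive (Abelianization.of.comp S.subtype)).toIntLinearMap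
  have hi' : ∀ t : S, i (Additive.ofMul t) = Additive.ofMul (Abelianization.of (t : E Q)) := fun t => rfl
  have hi : Function.Injective i := by
    rw [injective_iff_map_eq_zero]
    intro a ha
    have h1 : ((Additive.toMul a : S) : E Q) ∈ commutator (E Q) := (QuotientGroup.eq_one_iff _).mp ha
    have h2 : ((Additive.toMul a : S) : E Q) ∈ S ⊓ commutator (E Q) := Subgroup.mem_inf.mpr ⟨(Additive.toMul a : S).2, h1⟩
    rw [hinf, mem_bot] at h2
    exact Subtype.ext h2
  obtain ⟨n, ⟨b0⟩⟩ := Submodule.nonempty_basis_of_pid (abBasis Q) (LinearMap.range i)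
  let b : Module.Basis (Fin n) ℤ (Additive S) := b0.map (LinearEquiv.ofInjective i hi).symm
  -- torsion free
  have htf : ∀ a c : Additive (Abelianization (E Q)), p • a = p • c → a = c := by
    intro a c h
    apply (abBasis Q).repr.injective
    ext t
    have h1 := congrArg (fun v => (abBasis Q).repr v t) h
    simp only [map_nsmul, Finsupp.smul_apply, nsmul_eq_mul] at h1
    exact mul_left_cancel₀ (by exact_mod_cast hp.ne_zero) h1
  obtain ⟨j, hj⟩ : ∃ j, ¬ (p : ℤ) ∣ b.repr (Additive.ofMul (⟨s, hs⟩ : S)) j := by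
    by_contra hall
    push Not at hall
    choose c hc using hall
    -- s is a p-th power
    let t : Additive S := ∑ j, c j • b j
    have ht : Additive.ofMul (⟨s, hs⟩ : S) = p • t := by
      rw [← b.sum_repr (Additive.ofMul (⟨s, hs⟩ : S))]
      rw [Finset.smul_sum]
      refine Finset.sum_congr rfl (fun j _ => ?_)
      rw [hc j, mul_smul]
      rw [natCast_zsmul]
    have h1 : Additive.ofMul (Abelianization.of x) = i t := by
      apply htf
      have h5 : i (p • t) = p • i t := map_nsmul i p t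
      rw [← h5, ← ht, hi', ← ofMul_pow, ← map_pow, hsx]
    have h2 : (Abelianization.of x : Abelianization (E Q)) = Abelianization.of ((Additive.toMul t : S) : E Q) := h1
    have h3 := congrArg (Abelianization.map (e Q)) h2
    rw [Abelianization.map_of, Abelianization.map_of, (MonoidHom.mem_ker).mp (hS (Additive.toMul t : S).2), map_one] at h3
    rw [h3, orderOf_one] at hofx
    exact hp.one_lt.ne hofx
  obtain ⟨y, hy⟩ : ∃ y : M Q, ∀ z : M Q, z ^ p ≠ y := by
    by_contra hall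
    push Not at hall
    have hsurj : Function.Surjective (fun z : M Q => z ^ p) := hall
    have hinj := Finite.injective_iff_surjective.mpr hsurj
    have hp3 : p ∣ Nat.card (M Q) := by
      rw [Nat.card_congr δ.toEquiv]; exact hp2
    obtain ⟨z, hz⟩ := exists_prime_orderOf_dvd_card' p hp3
    have h1 : z = 1 := hinj (by
      change z ^ p = 1 ^ p
      rw [← hz, pow_orderOf_eq_one, one_pow])
    rw [h1, orderOf_one] at hz
    exact hp.one_lt.ne hz
  let f : S →* M Q :=
    { toFun := fun t => y ^ (b.repr (Additive.ofMul t) j)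
      map_one' := by rw [ofMul_one, map_zero]; simp
      map_mul' := by
        intro t u
        rw [ofMul_mul, map_add, Finsupp.add_apply, zpow_add] }
  obtain ⟨g, hg⟩ := hext f
  have h1 : g (x ^ p) = g s := by
    have h2 : (x ^ p)⁻¹ * s ∈ commutator (E Q) := QuotientGroup.eq.mp hsx
    have h3 : g ((x ^ p)⁻¹ * s) = 1 := Abelianization.commutator_subset_ker g h2
    rw [map_mul, map_inv, inv_mul_eq_one] at h3
    exact h3
  have h2 : (g x) ^ p = y ^ (b.repr (Additive.ofMul (⟨s, hs⟩ : S)) j) := by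
    rw [← map_pow, h1]
    exact hg ⟨s, hs⟩
  have hcop : IsCoprime (p : ℤ) (b.repr (Additive.ofMul (⟨s, hs⟩ : S)) j) :=
    (Nat.prime_iff_prime_int.mp hp).coprime_iff_not_dvd.mpr hj
  obtain ⟨u, v, huv⟩ := hcop
  apply hy (y ^ u * (g x) ^ v)
  have h3 : (y ^ u * (g x) ^ v) ^ p = y ^ (u * p) * ((g x) ^ p) ^ v := by
    rw [mul_pow, ← zpow_natCast (y ^ u) p, ← zpow_mul, ← zpow_natCast ((g x) ^ v) p, ← zpow_mul, ← zpow_natCast (g x) p,
      ← zpow_mul, mul_comm v]
  rw [h3, h2, ← zpow_mul, ← zpow_add]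
  have h4 : u * (p : ℤ) + b.repr (Additive.ofMul (⟨s, hs⟩ : S)) j * v = 1 := by rw [mul_comm _ v]; exact huv
  rw [h4, zpow_one]


/-- Let `Q` be a finite group with Schur multiplier `A`. Any two Schur covering groups of `Q` (finite stem extensions `σ₁ : Γ₁ →* Q`, `σ₂ : Γ₂ →* Q` with kernels isomorphic to `A`, `Γ₁, Γ₂` in the universe of `Q`) are isomorphic over `Q` — there is a group isomorphism `e : Γ₁ ≃* Γ₂` with `σ₂ ∘ e = σ₁` — if and only if the order of the commutator quotient of `Q` is coprime to the order of `A`. In particular a finite perfect group has a unique Schur covering group up to isomorphism over it. -/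
theorem result {Q : Type u} [Group Q] [Finite Q] {A : Type v} [CommGroup A] (hA : Cfsg.HasSchurMultiplier Q A) : (∀ (Γ₁ Γ₂ : Type u) [Group Γ₁] [Finite Γ₁] [Group Γ₂] [Finite Γ₂] (σ₁ : Γ₁ →* Q) (σ₂ : Γ₂ →* Q), Cfsg.IsStemExtension σ₁ → Cfsg.IsStemExtension σ₂ → Nonempty (σ₁.ker ≃* A) → Nonempty (σ₂.ker ≃* A) → ∃ e : Γ₁ ≃* Γ₂, σ₂.comp e.toMonoidHom = σ₁) ↔ Nat.Coprime (Nat.card (Abelianization Q)) (Nat.card A) := by
  exact ⟨fun h => coprime_of_iso hA h, fun h Γ₁ Γ₂ _ _ _ _ σ₁ σ₂ h1 h2 hk1 hk2 => iso_of_coprime hA h Γ₁ Γ₂ σ₁ σ₂ h1 h2 hk1 hk2⟩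

end Cfsg.Agent.S3974
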