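import Cfsg.Statements.S3976
import Cfsg.Agent.LibFgCount

set_option autoImplicit false
open Cfsg

namespace Cfsg.Agent.S3976

/-- Let `p` be a prime and `G` a group of order `p ^ m`. For every `s ≤ m` the number of normal subgroups of `G` of order `p ^ s` is congruent to `1` modulo `p`. -/
theorem result {G : Type*} [Group G] [Finite G] (p m s : ℕ) (hp : p.Prime) (hG : Nat.card G = p ^ m) (hs : s ≤ m) : Nat.card {H : Subgroup G // H.Normal ∧ Nat.card H = p ^ s} ≡ 1 [MOD p] := by
  haveI : Fact p.Prime := ⟨hp⟩
  have hGp : IsPGroup p G := IsPGroup.of_card hG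
  have h1 := CfsgLib.FgCount.frobenius (G := G) p s hp (by rw [hG]; exact pow_dvd_pow p hs)
  -- conjugation action on the subgroups of order p ^ s
  letI : MulAction G {H : Subgroup G // Nat.card H = p ^ s} :=
    { smul := fun g H => ⟨H.1.map (MulAut.conj g).toMonoidHom, by
        rw [Subgroup.card_map_of_injective (MulAut.conj g).injective]; exact H.2⟩
      one_smul := fun H => Subtype.ext (by
        change H.1.map (MulAut.conj (1 : G)).toMonoidHom = H.1
        rw [map_one]
        exact Subgroup.map_id _)
      mul_smul := fun g h H => Subtype.ext (by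
        change H.1.map (MulAut.conj (g * h)).toMonoidHom = (H.1.map (MulAut.conj h).toMonoidHom).map (MulAut.conj g).toMonoidHom
        rw [Subgroup.map_map, map_mul]
        rfl) }
  have h2 := hGp.card_modEq_card_fixedPoints {H : Subgroup G // Nat.card H = p ^ s}
  refine Nat.ModEq.trans ?_ (h2.symm.trans h1)
  have e : {H : Subgroup G // H.Normal ∧ Nat.card H = p ^ s} ≃
      MulAction.fixedPoints G {H : Subgroup G // Nat.card H = p ^ s} :=
    { toFun := fun H => ⟨⟨H.1, H.2.2⟩, fun g => Subtype.ext (by
        have hn := H.2.1
        change H.1.map (MulAut.conj g).toMonoidHom = H.1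
        exact CfsgLib.FgCount.map_conj_normal H.1 g)⟩
      invFun := fun H => ⟨H.1.1, ⟨fun n hn g => by
        have := congrArg Subtype.val (H.2 g)
        change H.1.1.map (MulAut.conj g).toMonoidHom = H.1.1 at this
        rw [← this]
        exact ⟨n, hn, rfl⟩⟩, H.1.2⟩
      left_inv := fun _ => rfl
      right_inv := fun _ => rfl }
  rw [Nat.card_congr e]

end Cfsg.Agent.S3976
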