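import Cfsg.Statements.S3980
import Cfsg.Agent.LibSchur5
import Cfsg.Agent.S3959

set_option autoImplicit false
universe u v w
open Cfsg

namespace Cfsg.Agent.S3980

set_option linter.style.haveILetI false
set_option linter.unusedSectionVars false
set_option linter.unusedVariables false

open Subgroup CfsgLib.Schur
open scoped commutatorElement

/-- Let `Q₁` and `Q₂` be finite groups whose commutator quotients have coprime orders, with Schur multipliers `A` and `B`. Then the Schur multiplier of `Q₁ × Q₂` is isomorphic to `A × B`. -/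
theorem result {Q₁ : Type u} {Q₂ : Type v} [Group Q₁] [Group Q₂] [Finite Q₁] [Finite Q₂] {A B : Type w} [CommGroup A] [CommGroup B] (hA : Cfsg.HasSchurMultiplier Q₁ A) (hB : Cfsg.HasSchurMultiplier Q₂ B) (hcop : Nat.Coprime (Nat.card (Abelianization Q₁)) (Nat.card (Abelianization Q₂))) : Cfsg.HasSchurMultiplier (Q₁ × Q₂) (A × B) := by
  have h := Cfsg.Agent.S3959.main hA hB
  -- the tensor product is trivial
  have ht : ∀ x : TT Q₁ Q₂, x = 0 := by
    intro x
    obtain ⟨a, b, hab⟩ := (Nat.isCoprime_iff_coprime.mpr hcop : IsCoprime (Nat.card (Abelianization Q₁) : ℤ) (Nat.card (Abelianization Q₂) : ℤ))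
    have h1 : (a * (Nat.card (Abelianization Q₁) : ℤ) + b * (Nat.card (Abelianization Q₂) : ℤ)) • x = x := by
      rw [hab, one_smul]
    rw [← h1, add_smul, mul_smul, mul_smul, card_smul_TT, card_smul_TT', smul_zero, smul_zero, add_zero]
  let ε : A × B × Multiplicative (TT Q₁ Q₂) ≃* A × B :=
    { toFun := fun x => (x.1, x.2.1)
      invFun := fun x => (x.1, x.2, 1)
      left_inv := fun x => by
        apply Prod.ext
        · rfl
        · apply Prod.ext
          · rfl
          · exact ((ht (Multiplicative.toAdd x.2.2)).symm)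
      right_inv := fun x => rfl
      map_mul' := fun x y => rfl }
  obtain ⟨⟨Γ, _, _, σ, hσ, ⟨δ⟩⟩, h2⟩ := h
  refine ⟨⟨Γ, ‹_›, ‹_›, σ, hσ, ⟨δ.trans ε⟩⟩, ?_⟩
  intro Δ _ _ τ hτ
  obtain ⟨f, hf⟩ := h2 Δ τ hτ
  exact ⟨f.comp ε.symm.toMonoidHom, hf.comp ε.symm.surjective⟩

end Cfsg.Agent.S3980
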