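import Cfsg.Statements.S3992
import Cfsg.Agent.LibFgEppo

set_option autoImplicit false
open Cfsg

namespace Cfsg.Agent.S3992

set_option linter.style.haveILetI false
set_option linter.unusedSectionVars false
set_option linter.unusedVariables false

open CfsgLib.FPF1 CfsgLib.FgFpf CfsgLib.FgEppo

universe u

theorem no_mixed {G : Type u} [Group G] (hpp : ∀ g : G, g ≠ 1 → IsPrimePow (orderOf g)) {s t : ℕ}
    (hs : s.Prime) (ht : t.Prime) (hst : s ≠ t) (g : G) : orderOf g ≠ s * t := by
  intro hg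
  have hg1 : g ≠ 1 := by
    rintro rfl
    rw [orderOf_one] at hg
    exact hs.one_lt.ne' (Nat.eq_one_of_mul_eq_one_right hg.symm)
  obtain ⟨p, k, hp, hk, hpk⟩ := hpp g hg1
  rw [hg] at hpk
  have hp' : p.Prime := Nat.prime_iff.mpr hp
  have h1 : s ∣ p ^ k := by rw [hpk]; exact Dvd.intro _ rfl
  have h2 : t ∣ p ^ k := by rw [hpk]; exact Dvd.intro_left _ rfl
  have h3 := (Nat.prime_dvd_prime_iff_eq hs hp').mp (hs.dvd_of_dvd_pow h1)
  have h4 := (Nat.prime_dvd_prime_iff_eq ht hp').mp (ht.dvd_of_dvd_pow h2)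
  exact hst (h3.trans h4.symm)

theorem commuting {G : Type u} [Group G] [Finite G] (hpp : ∀ g : G, g ≠ 1 → IsPrimePow (orderOf g)) {s t : ℕ}
    (hs : s.Prime) (ht : t.Prime) (hst : s ≠ t) {a b : G} (ha : orderOf a = s) (hb : orderOf b = t)
    (hab : a * b = b * a) : False := by
  obtain ⟨z, hz⟩ := mul_order hs ht hst hab (ha ▸ dvd_rfl) (hb ▸ dvd_rfl)
  exact no_mixed hpp hs ht hst z hz

theorem eppo_quot {G : Type u} [Group G] (hpp : ∀ g : G, g ≠ 1 → IsPrimePow (orderOf g)) (R : Subgroup G) [R.Normal] :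
    ∀ g : G ⧸ R, g ≠ 1 → IsPrimePow (orderOf g) := by
  intro g hg
  obtain ⟨x, rfl⟩ := QuotientGroup.mk'_surjective R g
  have hx : x ≠ 1 := by rintro rfl; exact hg (map_one _)
  obtain ⟨p, k, hp, hk, hpk⟩ := hpp x hx
  have hp' : p.Prime := Nat.prime_iff.mpr hp
  have h1 : orderOf (QuotientGroup.mk' R x) ∣ p ^ k := by rw [hpk]; exact orderOf_map_dvd _ x
  obtain ⟨j, hj, hje⟩ := (Nat.dvd_prime_pow hp').mp h1
  refine ⟨p, j, hp, ?_, hje.symm⟩
  rcases Nat.eq_zero_or_pos j with rfl | h
  · rw [pow_zero, orderOf_eq_one_iff] at hje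
    exact absurd hje hg
  · exact h

/-- solvable subgroups have at most two primes -/
theorem solv_two {G : Type u} [Group G] [Finite G] (hpp : ∀ g : G, g ≠ 1 → IsPrimePow (orderOf g))
    (H : Subgroup G) (hH : Group.IsSolvable H) : (Nat.card H).primeFactors.card ≤ 2 := by
  by_contra hlt
  push Not at hlt
  obtain ⟨s, hs, t, ht, hst, g, hg⟩ := three_primes (G := H) (Nat.card H).primeFactors hlt
    (fun r hr => Nat.prime_of_mem_primeFactors hr) (fun r hr => Nat.dvd_of_mem_primeFactors hr)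
  exact no_mixed hpp (Nat.prime_of_mem_primeFactors hs) (Nat.prime_of_mem_primeFactors ht) hst (g : G)
    (by rw [Subgroup.orderOf_coe]; exact hg)

/-- the radical is a `p`-group -/
theorem radical_pgroup {G : Type u} [Group G] [Finite G] (hns : ¬ Group.IsSolvable G)
    (hpp : ∀ g : G, g ≠ 1 → IsPrimePow (orderOf g))
    (R : Subgroup G) [hRn : R.Normal] (hRs : Group.IsSolvable R) : ∃ p : ℕ, p.Prime ∧ IsPGroup p R := by
  classical
  by_cases hR : R = ⊥
  · refine ⟨2, Nat.prime_two, ?_⟩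
    rw [hR]; exact IsPGroup.of_bot
  obtain ⟨V, p, hp, hV, hVR, hVc, hVe, hVp⟩ := CfsgLib.SolvMin.exists_minNormal_pgroup_of_solvable' R hR
  have hVn := hV.1
  refine ⟨p, hp, ?_⟩
  by_contra hRp
  -- another prime
  obtain ⟨q, hq, hqR, hqp⟩ : ∃ q : ℕ, q.Prime ∧ q ∣ Nat.card R ∧ q ≠ p := by
    by_contra hne
    push Not at hne
    exact hRp (isPGroup_of_primes hp hne)
  have : Fact q.Prime := ⟨hq⟩
  have : Fact p.Prime := ⟨hp⟩
  obtain ⟨Q⟩ := (inferInstance : Nonempty (Sylow q R))
  set Q' := (Q : Subgroup R).map R.subtype with hQ'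
  have hQ'p : IsPGroup q Q' := Q.isPGroup'.map _
  have hfpf : FPF Q' V := fpf_of_orders hq hp hqp (fun g => no_mixed hpp hq hp hqp g) hQ'p hVp
  have hfr := Sylow.normalizer_sup_eq_top Q
  obtain ⟨z, hz⟩ := exists_prime_orderOf_dvd_card' (G := Q) q (Q.dvd_card_of_dvd_card hqR)
  -- element of order q in Q'
  have hzQ : ((z : R) : G) ∈ Q' := ⟨z, z.2, rfl⟩
  have hzo : orderOf ((z : R) : G) = q := by rw [Subgroup.orderOf_coe, Subgroup.orderOf_coe, hz]
  set z' : G := ((z : R) : G) with hz'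
  have hle : Subgroup.normalizer (Q' : Set G) ≤ Subgroup.normalizer (Subgroup.zpowers z' : Set G) := by
    intro g hg
    rw [Subgroup.mem_normalizer_iff_map_conj_eq]
    have h1 : (Subgroup.zpowers z').map (MulAut.conj g).toMonoidHom ≤ Q' := by
      rintro _ ⟨w, hw, rfl⟩
      exact (Subgroup.mem_normalizer_iff.mp hg w).mp ((Subgroup.zpowers_le.mpr hzQ) hw)
    have h2 : Subgroup.zpowers z' ≤ Q' := Subgroup.zpowers_le.mpr hzQ
    have c1 : Nat.card ((Subgroup.zpowers z').map (MulAut.conj g).toMonoidHom) = q := by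
      rw [Subgroup.card_map_of_injective (MulAut.conj g).injective, Nat.card_zpowers, hzo]
    have c2 : Nat.card (Subgroup.zpowers z') = q := by rw [Nat.card_zpowers, hzo]
    have h3 := hfpf.unique_sub (by rw [Subgroup.normalizer_eq_top]; exact le_top) hV.2.1 hq hQ'p
      (((Subgroup.zpowers z').map (MulAut.conj g).toMonoidHom).subgroupOf Q') ((Subgroup.zpowers z').subgroupOf Q')
      (by rw [Nat.card_congr (Subgroup.subgroupOfEquivOfLe h1).toEquiv]; exact c1)
      (by rw [Nat.card_congr (Subgroup.subgroupOfEquivOfLe h2).toEquiv]; exact c2)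
    have h4 := congrArg (Subgroup.map Q'.subtype) h3
    rwa [Subgroup.subgroupOf_map_subtype, Subgroup.subgroupOf_map_subtype, inf_of_le_left h1, inf_of_le_left h2] at h4
  -- the normalizer of `⟨z⟩` is solvable
  have hCs : Group.IsSolvable (Subgroup.centralizer ((Subgroup.zpowers z' : Subgroup G) : Set G)) := by
    have : IsPGroup q (Subgroup.centralizer ((Subgroup.zpowers z' : Subgroup G) : Set G)) := by
      apply isPGroup_of_primes hq
      intro r hr hrd
      by_contra hrq
      have : Fact r.Prime := ⟨hr⟩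
      obtain ⟨c, hc⟩ := exists_prime_orderOf_dvd_card' r hrd
      rw [← Subgroup.orderOf_coe] at hc
      exact commuting hpp hq hr (Ne.symm hrq) hzo hc (Subgroup.mem_centralizer_iff.mp c.2 z' (Subgroup.mem_zpowers z'))
    have := this.isNilpotent
    infer_instance
  have hNs : Group.IsSolvable (Subgroup.normalizer ((Subgroup.zpowers z' : Subgroup G) : Set G)) := by
    have hcyc : IsCyclic (Subgroup.zpowers z') := inferInstance
    have e := IsCyclic.mulAutMulEquiv (Subgroup.zpowers z')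
    have h5 : Group.IsSolvable (MulAut (Subgroup.zpowers z')) :=
      Group.isSolvable_of_isSolvable_injective (f := e.toMonoidHom) e.injective
    refine Group.isSolvable_of_ker_le_range
      (Subgroup.inclusion (Subgroup.centralizer_le_normalizer ((Subgroup.zpowers z' : Subgroup G) : Set G)))
      (Subgroup.zpowers z').normalizerMonoidHom ?_
    rw [Subgroup.normalizerMonoidHom_ker]
    intro x hx
    exact ⟨⟨x, hx⟩, rfl⟩
  have hNQs : Group.IsSolvable (Subgroup.normalizer (Q' : Set G)) :=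
    Group.isSolvable_of_isSolvable_injective (Subgroup.inclusion_injective hle)
  apply hns
  rw [Group.isSolvable_iff_subgroup_quotient R]
  refine ⟨hRs, ?_⟩
  -- G / R is an image of the normalizer
  have hsurj : Function.Surjective ((QuotientGroup.mk' R).comp (Subgroup.normalizer (Q' : Set G)).subtype) := by
    intro y
    obtain ⟨g, rfl⟩ := QuotientGroup.mk'_surjective R y
    have hg : g ∈ Subgroup.normalizer (Q' : Set G) ⊔ R := by rw [hfr]; exact Subgroup.mem_top g
    rw [Subgroup.mem_sup_of_normal_right] at hg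
    obtain ⟨n, hn, r, hr, rfl⟩ := hg
    refine ⟨⟨n, hn⟩, ?_⟩
    change QuotientGroup.mk' R n = QuotientGroup.mk' R (n * r)
    have h1 : QuotientGroup.mk' R r = 1 := (QuotientGroup.eq_one_iff r).mpr hr
    rw [map_mul, h1, mul_one]
  exact Group.isSolvable_of_surjective hsurj

theorem radical_quot {G : Type u} [Group G] [Finite G] (R : Subgroup G) [R.Normal] (hRs : Group.IsSolvable R)
    (hRmax : ∀ N : Subgroup G, N.Normal → Group.IsSolvable N → N ≤ R) (N : Subgroup (G ⧸ R)) (hN : N.Normal)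
    (hNs : Group.IsSolvable N) : N = ⊥ := by
  have h1 : Group.IsSolvable (N.comap (QuotientGroup.mk' R)) := by
    refine Group.isSolvable_of_ker_le_range
      (Subgroup.inclusion (show R ≤ N.comap (QuotientGroup.mk' R) from fun r hr => by
        rw [Subgroup.mem_comap]
        have : QuotientGroup.mk' R r = 1 := (QuotientGroup.eq_one_iff r).mpr hr
        rw [this]; exact one_mem _))
      (((QuotientGroup.mk' R).comp (N.comap (QuotientGroup.mk' R)).subtype).codRestrict N (fun x => x.2)) ?_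
    intro x hx
    have h2 : QuotientGroup.mk' R (x : G) = 1 := congrArg Subtype.val hx
    exact ⟨⟨x, (QuotientGroup.eq_one_iff _).mp h2⟩, rfl⟩
  have h2 := hRmax _ inferInstance h1
  rw [eq_bot_iff]
  intro y hy
  obtain ⟨x, rfl⟩ := QuotientGroup.mk'_surjective R y
  exact (QuotientGroup.eq_one_iff x).mpr (h2 hy)

/-- trivial radical and prime power orders: unique minimal normal subgroup, simple -/
theorem simple_socle {Q : Type u} [Group Q] [Finite Q] (hnt : Nontrivial Q)
    (hpp : ∀ g : Q, g ≠ 1 → IsPrimePow (orderOf g))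
    (hrad : ∀ N : Subgroup Q, N.Normal → Group.IsSolvable N → N = ⊥) :
    ∃ M : Subgroup Q, M.Normal ∧ IsSimpleGroup M ∧ ¬ IsMulCommutative M ∧
        ∀ N : Subgroup Q, N.Normal → N ≠ ⊥ → M ≤ N := by
  obtain ⟨M, hM⟩ := CfsgLib.SolvMin.exists_isMinNormal (G := Q)
  have hMn := hM.1
  -- two commuting non p-groups of ... 
  have key : ∀ A B : Subgroup Q, (∀ a ∈ A, ∀ b ∈ B, a * b = b * a) → ∀ s t : ℕ, s.Prime → t.Prime → s ≠ t →
      s ∣ Nat.card A → t ∣ Nat.card B → False := by
    intro A B hAB s t hs ht hst hsA htB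
    have : Fact s.Prime := ⟨hs⟩
    have : Fact t.Prime := ⟨ht⟩
    obtain ⟨a, ha⟩ := exists_prime_orderOf_dvd_card' s hsA
    obtain ⟨b, hb⟩ := exists_prime_orderOf_dvd_card' t htB
    rw [← Subgroup.orderOf_coe] at ha hb
    exact commuting hpp hs ht hst ha hb (hAB a a.2 b b.2)
  have hcomm_of : ∀ A B : Subgroup Q, A ⊓ B = ⊥ → (∀ a ∈ A, ∀ b ∈ B, b * a * b⁻¹ ∈ A) →
      (∀ a ∈ A, ∀ b ∈ B, a * b * a⁻¹ ∈ B) → ∀ a ∈ A, ∀ b ∈ B, a * b = b * a := by
    intro A B hAB h1 h2 a ha b hb
    have h3 : a * b * a⁻¹ * b⁻¹ ∈ A ⊓ B := by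
      refine ⟨?_, B.mul_mem (h2 a ha b hb) (B.inv_mem hb)⟩
      have : a * b * a⁻¹ * b⁻¹ = a * (b * a⁻¹ * b⁻¹) := by group
      rw [this]
      exact A.mul_mem ha (h1 a⁻¹ (A.inv_mem ha) b hb)
    rw [hAB, Subgroup.mem_bot] at h3
    have : a * b = (a * b * a⁻¹ * b⁻¹) * (b * a) := by group
    rw [this, h3, one_mul]
  -- M has two primes
  have two : ∀ A : Subgroup Q, A ≠ ⊥ → (∀ p : ℕ, p.Prime → ¬ IsPGroup p A) → ∀ s : ℕ, s.Prime → 
      ∃ t : ℕ, t.Prime ∧ t ≠ s ∧ t ∣ Nat.card A := by
    intro A hA hAp s hs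
    by_contra hne
    push Not at hne
    apply hAp s hs
    apply isPGroup_of_primes hs
    intro r hr hrA
    by_contra hrs
    exact hne r hr hrs hrA
  have hMnp : ∀ p : ℕ, p.Prime → ¬ IsPGroup p M := by
    intro p hp hMp
    have : Fact p.Prime := ⟨hp⟩
    have := hMp.isNilpotent
    exact hM.2.1 (hrad M hMn inferInstance)
  refine ⟨M, hMn, ?_, ?_, ?_⟩
  · -- simple
    have hntM : Nontrivial M := (Subgroup.nontrivial_iff_ne_bot M).mpr hM.2.1
    refine { eq_bot_or_eq_top_of_normal := ?_ }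
    intro T0 hT0
    by_contra hcon
    push Not at hcon
    obtain ⟨T, hT, hTT0⟩ := CfsgLib.SolvMin.exists_isMinNormal_le T0 hcon.1
    have hTn := hT.1
    have hTtop : T ≠ ⊤ := fun h => hcon.2 (top_le_iff.mp (h ▸ hTT0))
    -- T is not a p-group
    have hTnp : ∀ p : ℕ, p.Prime → ¬ IsPGroup p T := by
      intro p hp hTp
      have : Fact p.Prime := ⟨hp⟩
      have h1 : T ≤ Cfsg.pCore p M := CfsgLib.Cores.le_pCore hTn hTp
      have h2 := CfsgLib.Cores.map_pCore_of_normal p M
      have h3 : (Cfsg.pCore p M).map M.subtype = ⊥ := by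
        rw [h2]
        have h4 : IsPGroup p (Cfsg.pCore p Q) := CfsgLib.Cores.pCore_isPGroup p
        have := h4.isNilpotent
        rw [hrad (Cfsg.pCore p Q) inferInstance inferInstance, bot_inf_eq]
      have h5 : Cfsg.pCore p M = ⊥ := (Subgroup.map_eq_bot_iff_of_injective _ M.subtype_injective).mp h3
      rw [h5] at h1
      exact hT.2.1 (le_bot_iff.mp h1)
    set T' := T.map M.subtype with hT'
    have hT'M : T' ≤ M := Subgroup.map_subtype_le T
    have hT'c : ∀ m ∈ M, ∀ a ∈ T', m * a * m⁻¹ ∈ T' := by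
      rintro m hm _ ⟨a, ha, rfl⟩
      exact ⟨⟨m, hm⟩ * a * ⟨m, hm⟩⁻¹, hTn.conj_mem a ha ⟨m, hm⟩, rfl⟩
    -- some conjugate differs
    obtain ⟨g, hg⟩ : ∃ g : Q, T'.map (MulAut.conj g).toMonoidHom ≠ T' := by
      by_contra hall
      push Not at hall
      have hT'n : T'.Normal := ⟨fun a ha g => by
        have : g * a * g⁻¹ ∈ T'.map (MulAut.conj g).toMonoidHom := ⟨a, ha, rfl⟩
        rwa [hall g] at this⟩
      rcases hM.2.2 T' hT'n hT'M with h | h
      · exact hT.2.1 ((Subgroup.map_eq_bot_iff_of_injective _ M.subtype_injective).mp h)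
      · apply hTtop
        rw [eq_top_iff]
        intro m _
        have : (m : Q) ∈ T' := by rw [h]; exact m.2
        obtain ⟨m', hm', hme⟩ := this
        have : m' = m := Subtype.ext hme
        rwa [this] at hm'
    set U := T'.map (MulAut.conj g).toMonoidHom with hU
    have hUM : U ≤ M := by
      rintro _ ⟨a, ha, rfl⟩
      exact hMn.conj_mem a (hT'M ha) g
    have hUc : ∀ m ∈ M, ∀ a ∈ U, m * a * m⁻¹ ∈ U := by
      rintro m hm _ ⟨a, ha, rfl⟩
      refine ⟨(g⁻¹ * m * g) * a * (g⁻¹ * m * g)⁻¹, hT'c _ (by simpa using hMn.conj_mem m hm g⁻¹) a ha, ?_⟩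
      change g * ((g⁻¹ * m * g) * a * (g⁻¹ * m * g)⁻¹) * g⁻¹ = m * (g * a * g⁻¹) * m⁻¹
      group
    have hcardU : Nat.card U = Nat.card T' := Subgroup.card_map_of_injective (MulAut.conj g).injective
    -- intersection
    have hint : T' ⊓ U = ⊥ := by
      have h1 : ((T' ⊓ U).subgroupOf M).Normal := by
        refine ⟨fun a ha m => ?_⟩
        rw [Subgroup.mem_subgroupOf] at ha ⊢
        exact ⟨hT'c m m.2 a ha.1, hUc m m.2 a ha.2⟩
      have h2 : (T' ⊓ U).subgroupOf M ≤ T := by
        intro a ha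
        rw [Subgroup.mem_subgroupOf] at ha
        obtain ⟨a', ha', hae⟩ := ha.1
        have : a' = a := Subtype.ext hae
        rwa [this] at ha'
      rcases hT.2.2 _ h1 h2 with h | h
      · rw [Subgroup.subgroupOf_eq_bot, disjoint_iff, inf_of_le_left (inf_le_left.trans hT'M)] at h
        exact h
      · exfalso
        have h3 : T' ≤ U := by
          rintro _ ⟨a, ha, rfl⟩
          have ha' : a ∈ (T' ⊓ U).subgroupOf M := by rw [h]; exact ha
          rw [Subgroup.mem_subgroupOf] at ha'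
          exact ha'.2
        exact hg (Subgroup.eq_of_le_of_card_ge h3 hcardU.le).symm
    have hTU := hcomm_of T' U hint (fun a ha b hb => hT'c b (hUM hb) a ha) (fun a ha b hb => hUc a (hT'M ha) b hb)
    have hT'ne : T' ≠ ⊥ := fun h => hT.2.1 ((Subgroup.map_eq_bot_iff_of_injective _ M.subtype_injective).mp h)
    have hT'np : ∀ p : ℕ, p.Prime → ¬ IsPGroup p T' := by
      intro p hp h
      apply hTnp p hp
      exact h.of_equiv (T.equivMapOfInjective M.subtype M.subtype_injective).symm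
    obtain ⟨s, hs, -, hsT⟩ := two T' hT'ne hT'np 2 Nat.prime_two
    obtain ⟨t, ht, hts, htT⟩ := two T' hT'ne hT'np s hs
    exact key T' U hTU s t hs ht (Ne.symm hts) hsT (hcardU ▸ htT)
  · intro hc
    apply hM.2.1
    apply hrad M hMn
    exact Group.isSolvable_of_comm (fun a b => hc.is_comm.comm a b)
  · intro N hN hNne
    have hNn := hN
    rcases hM.2.2 (M ⊓ N) inferInstance inf_le_left with h | h
    · exfalso
      have hMN := hcomm_of M N h (fun a ha b _ => hMn.conj_mem a ha b) (fun a _ b hb => hN.conj_mem b hb a)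
      obtain ⟨n, hn⟩ := (Subgroup.ne_bot_iff_exists_ne_one).mp hNne
      obtain ⟨t, ht, htn⟩ := Nat.exists_prime_and_dvd (n := orderOf n) (fun h => hn (orderOf_eq_one_iff.mp h))
      obtain ⟨s, hs, hst, hsM⟩ := two M hM.2.1 hMnp t ht
      exact key M N hMN s t hs ht hst hsM (htn.trans (orderOf_dvd_natCard n))
    · exact inf_eq_left.mp h

/-- Let G be a finite non-solvable group in which every element has prime-power order, and let R be its largest solvable normal subgroup. Then R is a p-group for some prime p; G/R has a non-abelian simple normal subgroup contained in every nontrivial normal subgroup of G/R (its unique minimal normal subgroup); and the order of every solvable subgroup of G has at most two prime divisors. -/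
theorem result {G : Type*} [Group G] [Finite G] (hns : ¬ Group.IsSolvable G) (hpp : ∀ g : G, g ≠ 1 → IsPrimePow (orderOf g))
    (R : Subgroup G) [R.Normal] (hRs : Group.IsSolvable ↥R) (hRmax : ∀ N : Subgroup G, N.Normal → Group.IsSolvable ↥N → N ≤ R) :
    (∃ p : ℕ, p.Prime ∧ IsPGroup p ↥R) ∧
      (∃ M : Subgroup (G ⧸ R), M.Normal ∧ IsSimpleGroup ↥M ∧ ¬ IsMulCommutative ↥M ∧
        ∀ N : Subgroup (G ⧸ R), N.Normal → N ≠ ⊥ → M ≤ N) ∧
      ∀ H : Subgroup G, Group.IsSolvable ↥H → (Nat.card ↥H).primeFactors.card ≤ 2 := by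
  refine ⟨radical_pgroup hns hpp R hRs, ?_, fun H hH => solv_two hpp H hH⟩
  apply simple_socle ?_ (eppo_quot hpp R) (fun N hN hNs => radical_quot R hRs hRmax N hN hNs)
  by_contra hnt
  rw [not_nontrivial_iff_subsingleton] at hnt
  apply hns
  rw [Group.isSolvable_iff_subgroup_quotient R]
  exact ⟨hRs, inferInstance⟩

end Cfsg.Agent.S3992
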