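import Cfsg.Statements.S3994
import Cfsg.Agent.LibFgFrob

set_option autoImplicit false
open Cfsg

namespace Cfsg.Agent.S3994

set_option linter.style.haveILetI false
set_option linter.unusedSectionVars false

universe u
open Subgroup CfsgLib.FgFrob

theorem coprime_part {N n : ℕ} (hN : N ≠ 0) (hn : 0 < n) : Nat.Coprime (N / Nat.gcd N (n ^ N)) n := by
  rw [Nat.coprime_comm]
  apply Nat.Coprime.symm
  rw [Nat.coprime_iff_gcd_eq_one]
  by_contra hne
  obtain ⟨p, hp, hpd⟩ := Nat.exists_prime_and_dvd hne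
  have h1 : p ∣ N / Nat.gcd N (n ^ N) := hpd.trans (Nat.gcd_dvd_left _ _)
  have h2 : p ∣ n := hpd.trans (Nat.gcd_dvd_right _ _)
  obtain ⟨D, hD⟩ : ∃ D, D = Nat.gcd N (n ^ N) := ⟨_, rfl⟩
  rw [← hD] at h1
  have hDN : D ∣ N := hD ▸ Nat.gcd_dvd_left _ _
  have hDpos : D ≠ 0 := by rintro rfl; exact hN (Nat.eq_zero_of_zero_dvd hDN)
  -- p ^ v_p(N) divides D
  have h3 : p ^ N.factorization p ∣ D := by
    rw [hD]
    apply Nat.dvd_gcd (Nat.ordProj_dvd _ _)
    have h4 : N.factorization p ≤ N := (Nat.factorization_lt p hN).le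
    exact (pow_dvd_pow p h4).trans (pow_dvd_pow_of_dvd h2 N)
  have h4 : p ^ (N.factorization p + 1) ∣ N := by
    obtain ⟨r, hr⟩ := h1
    have h5 : N = D * p * r := by rw [mul_assoc, ← hr, Nat.mul_div_cancel' hDN]
    rw [pow_succ]
    exact (Nat.mul_dvd_mul_right h3 p).trans ⟨r, h5⟩
  have h5 := (Nat.Prime.pow_dvd_iff_le_factorization hp hN).mp h4
  omega

/-- Let G be a finite group and n a positive integer. The number of elements of G whose order is divisible by n is either 0 or divisible by the largest divisor of the order of G that is coprime to n. -/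
theorem result {G : Type*} [Group G] [Finite G] (n : ℕ) (hn : 0 < n) :
    Nat.card {g : G // n ∣ orderOf g} = 0 ∨
      (Nat.card G / Nat.gcd (Nat.card G) (n ^ Nat.card G)) ∣ Nat.card {g : G // n ∣ orderOf g} := by
  classical
  haveI := Fintype.ofFinite G
  right
  have hGpos : Nat.card G ≠ 0 := Nat.card_pos.ne'
  obtain ⟨D, hD⟩ : ∃ D, D = Nat.gcd (Nat.card G) (n ^ Nat.card G) := ⟨_, rfl⟩
  obtain ⟨M, hM⟩ : ∃ M, M = Nat.card G / D := ⟨_, rfl⟩
  have hMn : Nat.Coprime M n := by rw [hM, hD]; exact coprime_part hGpos hn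
  have hDG : D ∣ Nat.card G := hD ▸ Nat.gcd_dvd_left _ _
  have hMD : Nat.card G = D * M := by rw [hM]; exact (Nat.mul_div_cancel' hDG).symm
  rw [← hD, ← hM]
  have hDn : D ∣ n ^ Nat.card G := hD ▸ Nat.gcd_dvd_right _ _
  have hcop : Nat.Coprime D M := (Nat.Coprime.coprime_dvd_right hDn (Nat.Coprime.pow_right _ hMn)).symm
  obtain ⟨u, hu1, hu2⟩ := Nat.chineseRemainder hcop 1 0
  obtain ⟨v, hv1, hv2⟩ := Nat.chineseRemainder hcop 0 1
  have huM : M ∣ u := (Nat.modEq_zero_iff_dvd).mp hu2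
  have hvD : D ∣ v := (Nat.modEq_zero_iff_dvd).mp hv1
  have huv : u + v ≡ 1 [MOD D * M] := by
    rw [← Nat.modEq_and_modEq_iff_modEq_mul hcop]
    exact ⟨hu1.add hv1, hu2.add hv2⟩
  have hall : ∀ x : G, x ^ (D * M) = 1 := fun x => by rw [← hMD]; exact pow_card_eq_one'
  -- order of a product
  have hordmul : ∀ y z : G, y ^ D = 1 → z * y = y * z → z ^ M = 1 → (n ∣ orderOf (y * z) ↔ n ∣ orderOf y) := by
    intro y z hy hc hz
    have h1 : Nat.Coprime (orderOf y) (orderOf z) :=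
      Nat.Coprime.coprime_dvd_left (orderOf_dvd_of_pow_eq_one hy)
        (Nat.Coprime.coprime_dvd_right (orderOf_dvd_of_pow_eq_one hz) hcop)
    have hc' : Commute y z := hc.symm
    rw [hc'.orderOf_mul_eq_mul_orderOf_of_coprime h1]
    constructor
    · intro h
      exact Nat.Coprime.dvd_of_dvd_mul_right
        (Nat.Coprime.coprime_dvd_right (orderOf_dvd_of_pow_eq_one hz) hMn.symm) h
    · intro h; exact h.mul_right _
  have hyD : ∀ x : G, (x ^ u) ^ D = 1 := by
    intro x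
    obtain ⟨r, hr⟩ := huM
    rw [← pow_mul, hr]
    have : M * r * D = D * M * r := by ring
    rw [this, pow_mul, hall, one_pow]
  have hzM : ∀ x : G, (x ^ v) ^ M = 1 := by
    intro x
    obtain ⟨r, hr⟩ := hvD
    rw [← pow_mul, hr]
    have : D * r * M = D * M * r := by ring
    rw [this, pow_mul, hall, one_pow]
  have hprod : ∀ x : G, x ^ u * x ^ v = x := by
    intro x
    rw [← pow_add]
    have h1 : x ^ (u + v) = x ^ 1 := pow_eq_pow_iff_modEq.mpr (huv.of_dvd (orderOf_dvd_of_pow_eq_one (hall x)))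
    rw [h1, pow_one]
  have hcard : Nat.card {g : G // n ∣ orderOf g} =
      Nat.card {w : G × G // (w.1 ^ D = 1 ∧ n ∣ orderOf w.1) ∧ w.2 * w.1 = w.1 * w.2 ∧ w.2 ^ M = 1} := by
    refine Nat.card_congr
      ⟨fun x => ⟨(x.1 ^ u, x.1 ^ v), ⟨hyD x.1, ?_⟩, ?_, hzM x.1⟩, fun w => ⟨w.1.1 * w.1.2, ?_⟩, ?_, ?_⟩
    · have h1 := (hordmul (x.1 ^ u) (x.1 ^ v) (hyD x.1) (by rw [← pow_add, ← pow_add, add_comm]) (hzM x.1)).mp
      rw [hprod] at h1
      exact h1 x.2
    · change x.1 ^ v * x.1 ^ u = x.1 ^ u * x.1 ^ v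
      rw [← pow_add, ← pow_add, add_comm]
    · exact (hordmul w.1.1 w.1.2 w.2.1.1 w.2.2.1 w.2.2.2).mpr w.2.1.2
    · intro x; exact Subtype.ext (hprod x.1)
    · rintro ⟨⟨y, z⟩, ⟨hy1, hy2⟩, hz1, hz2⟩
      simp only at hy1 hy2 hz1 hz2
      have hc' : Commute y z := hz1.symm
      refine Subtype.ext (Prod.ext ?_ ?_)
      · change (y * z) ^ u = y
        rw [hc'.mul_pow]
        obtain ⟨r, hr⟩ := huM
        have h1 : z ^ u = 1 := by rw [hr, pow_mul, hz2, one_pow]
        have h2 : y ^ u = y ^ 1 := pow_eq_pow_iff_modEq.mpr (hu1.of_dvd (orderOf_dvd_of_pow_eq_one hy1))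
        rw [h1, h2, pow_one, mul_one]
      · change (y * z) ^ v = z
        rw [hc'.mul_pow]
        obtain ⟨r, hr⟩ := hvD
        have h1 : y ^ v = 1 := by rw [hr, pow_mul, hy1, one_pow]
        have h2 : z ^ v = z ^ 1 := pow_eq_pow_iff_modEq.mpr (hv2.of_dvd (orderOf_dvd_of_pow_eq_one hz2))
        rw [h1, h2, pow_one, one_mul]
  rw [hcard, card_pairs (fun y => y ^ D = 1 ∧ n ∣ orderOf y) M]
  have h2 := dvd_sum_conj (G := G) (fun y => ((if (y ^ D = 1 ∧ n ∣ orderOf y) then F M y else 0 : ℕ) : ℤ))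
    (fun g x => by
      have h3 : orderOf (g * x * g⁻¹) = orderOf x :=
        orderOf_injective (MulAut.conj g).toMonoidHom (MulAut.conj g).injective x
      have h4 : (g * x * g⁻¹) ^ D = 1 ↔ x ^ D = 1 := by
        rw [← orderOf_dvd_iff_pow_eq_one, h3, orderOf_dvd_iff_pow_eq_one]
      simp only [h3, h4, F_conj]) (M : ℤ) (fun y => by
      by_cases hy : y ^ D = 1 ∧ n ∣ orderOf y
      · simp only [if_pos hy]
        have h6 : Nat.card (centralizer ({y} : Set G)) * (centralizer ({y} : Set G)).index = Nat.card G :=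
          card_mul_index _
        have h7 : Nat.gcd M (Nat.card (centralizer ({y} : Set G))) ∣ F M y := by
          rw [F_eq, card_pow_gcd M]
          exact frobenius _ (Nat.gcd_dvd_right _ _)
        have h8 : M ∣ (centralizer ({y} : Set G)).index * Nat.card (centralizer ({y} : Set G)) := by
          rw [mul_comm, h6, hMD]
          exact dvd_mul_left _ _
        have h9 := (dvd_mul_gcd h8).trans (Nat.mul_dvd_mul_left _ h7)
        exact_mod_cast h9
      · simp only [if_neg hy, Nat.cast_zero, mul_zero]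
        exact dvd_zero _)
  have h3 : (M : ℤ) ∣ ((∑ y : G, if (y ^ D = 1 ∧ n ∣ orderOf y) then F M y else 0 : ℕ) : ℤ) := by
    rw [Nat.cast_sum]
    exact h2
  exact_mod_cast h3

end Cfsg.Agent.S3994
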