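import Cfsg.Statements.S3995
import Cfsg.Agent.LibFgOrd
import Cfsg.Agent.LibFgAct
import Cfsg.Agent.LibPCyc2
import Cfsg.Agent.LibSchur4

set_option autoImplicit false
open Cfsg

namespace Cfsg.Agent.S3995

set_option linter.style.haveILetI false
set_option linter.unusedSectionVars false
set_option linter.unusedVariables false

open Subgroup CfsgLib.FgOrd

/-- transport of a finite group to `Type` -/
theorem exists_small (G : Type*) [Group G] [Finite G] : ∃ (P : Type) (_ : Group P) (_ : Finite P), Nonempty (G ≃* P) := by
  haveI : Small.{0} G := inferInstance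
  exact ⟨Shrink.{0} G, inferInstance, Finite.of_equiv _ (equivShrink G), ⟨(Shrink.mulEquiv (α := G)).symm⟩⟩

theorem exponent_of {G : Type*} [Group G] [Finite G] {p : ℕ} (hp : p.Prime) (hne : ∃ x : G, x ≠ 1) (h : ∀ x : G, x ^ p = 1) :
    Monoid.exponent G = p := by
  have h1 : Monoid.exponent G ∣ p := Monoid.exponent_dvd_of_forall_pow_eq_one h
  rcases (Nat.dvd_prime hp).mp h1 with h2 | h2
  · exfalso
    obtain ⟨x, hx⟩ := hne
    apply hx
    have := Monoid.pow_exponent_eq_one x
    rwa [h2, pow_one] at this
  · exact h2

theorem zmod2_cases : ∀ b : ZMod 2, b = 0 ∨ b = 1 := by decide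
theorem zmod2_two : ∀ b : ZMod 2, 2 • b = 0 := by decide


/-- Let G be a finite group such that the numbers of elements of each order that occurs in G (the numbers #{g : o(g) = m}, m ranging over the element orders of G) take exactly two values, 1 and some n ≠ 1. Then either G is a p-group of exponent p and order at least 3 for some prime p, or G is the quaternion group of order 8, or G is cyclic of order 4, or G ≅ Z₂ × P for a p-group P of exponent p with p an odd prime. -/
theorem result {G : Type*} [Group G] [Finite G] (n : ℕ) (hn : n ≠ 1) (h : ((fun m : ℕ => Nat.card {g : G // orderOf g = m}) '' Set.range (orderOf : G → ℕ)) = {1, n}) :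
    (∃ p : ℕ, p.Prime ∧ IsPGroup p G ∧ 3 ≤ Nat.card G ∧ Monoid.exponent G = p) ∨
      Nonempty (G ≃* QuaternionGroup 2) ∨ (IsCyclic G ∧ Nat.card G = 4) ∨
      (∃ (p : ℕ) (P : Type) (_ : Group P) (_ : Finite P), p.Prime ∧ p ≠ 2 ∧ IsPGroup p P ∧ Monoid.exponent P = p ∧
        Nonempty (G ≃* Multiplicative (ZMod 2) × P)) := by
  -- reformulation
  have hval : ∀ g : G, cnt G (orderOf g) = 1 ∨ cnt G (orderOf g) = n := by
    intro g
    have : cnt G (orderOf g) ∈ ({1, n} : Set ℕ) := by
      rw [← h]
      exact ⟨orderOf g, ⟨g, rfl⟩, rfl⟩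
    simpa using this
  have hex : ∃ g : G, cnt G (orderOf g) = n := by
    have : n ∈ ({1, n} : Set ℕ) := Or.inr rfl
    rw [← h] at this
    obtain ⟨_, ⟨g, rfl⟩, hg⟩ := this
    exact ⟨g, hg⟩
  have htot : ∀ g : G, 3 ≤ orderOf g → cnt G (orderOf g) = n := by
    intro g hg
    rcases hval g with h1 | h1
    · exfalso
      have h2 := totient_dvd_cnt (G := G) (orderOf g)
      rw [h1] at h2
      have h3 : 2 ∣ Nat.totient (orderOf g) := (Nat.totient_even (by omega)).two_dvd
      have := h3.trans h2
      omega
    · exact h1
  have heven : ∀ g : G, 3 ≤ orderOf g → 2 ∣ n := by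
    intro g hg
    have h2 := totient_dvd_cnt (G := G) (orderOf g)
    rw [htot g hg] at h2
    exact (Nat.totient_even (by omega)).two_dvd.trans h2
  have hcnt : ∀ m, 3 ≤ m → cnt G m = 0 ∨ cnt G m = n := by
    intro m hm
    by_cases hex : ∃ g : G, orderOf g = m
    · obtain ⟨g, hg⟩ := hex
      right; rw [← hg]; exact htot g (by omega)
    · left
      push Not at hex
      exact cnt_eq_zero hex
  by_cases hodd : ∃ p : ℕ, p.Prime ∧ p ≠ 2 ∧ p ∣ Nat.card G
  · obtain ⟨p, hp, hp2, hpG⟩ := hodd
    haveI : Fact p.Prime := ⟨hp⟩
    have hp3 : 3 ≤ p := by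
      have := hp.two_le
      omega
    obtain ⟨x, hx⟩ := exists_prime_orderOf_dvd_card' (G := G) p hpG
    have hcp : cnt G p = n := by rw [← hx]; exact htot x (by omega)
    have hmod : p ∣ 1 + n := by rw [← hcp]; exact frob_prime hp hpG
    -- only 2 and p
    have honly : ∀ q : ℕ, q.Prime → q ∣ Nat.card G → q = 2 ∨ q = p := by
      intro q hq hqG
      by_contra hcon
      push Not at hcon
      haveI : Fact q.Prime := ⟨hq⟩
      have hq3 : 3 ≤ q := by
        have := hq.two_le
        omega
      obtain ⟨y, hy⟩ := exists_prime_orderOf_dvd_card' (G := G) q hqG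
      have hcq : cnt G q = n := by rw [← hy]; exact htot y (by omega)
      have h1 := (Dvd.intro _ rfl : p ∣ p * q).trans (frob_two_primes hp hq hcon.2.symm hpG hqG)
      rw [hcp, hcq] at h1
      rcases hcnt (p * q) (by nlinarith) with h2 | h2
      · rw [h2] at h1
        have h3 : p ∣ 1 := by
          have h4 := Nat.dvd_sub (hmod.mul_left 2) h1
          have h5 : 2 * (1 + n) - (1 + n + n + 0) = 1 := by omega
          rwa [h5] at h4
        exact hp.one_lt.ne' (Nat.dvd_one.mp h3)
      · rw [h2] at h1
        have h3 : p ∣ 2 := by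
          have h4 := Nat.dvd_sub (hmod.mul_left 3) h1
          have h5 : 3 * (1 + n) - (1 + n + n + n) = 2 := by omega
          rwa [h5] at h4
        have := Nat.le_of_dvd (by norm_num) h3
        omega
    -- no elements of order p²
    have hnp : ∀ x : G, orderOf x ≠ p ^ 2 := by
      intro x hx
      have h1 := totient_dvd_cnt (G := G) (p ^ 2)
      rw [← hx, htot x (by rw [hx]; nlinarith), hx, Nat.totient_prime_pow hp (by norm_num)] at h1
      have h2 : p ∣ n := by
        have : p ∣ p ^ (2 - 1) * (p - 1) := by
          rw [show 2 - 1 = 1 from rfl, pow_one]; exact Dvd.intro _ rfl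
        exact this.trans h1
      have h3 : p ∣ 1 := (Nat.dvd_add_left h2).mp hmod
      exact hp.one_lt.ne' (Nat.dvd_one.mp h3)
    have hpexp : ∀ x : G, (∃ k, orderOf x = p ^ k) → x ^ p = 1 := by
      rintro x ⟨k, hk⟩
      rcases Nat.lt_or_ge k 2 with h1 | h1
      · rw [← orderOf_dvd_iff_pow_eq_one, hk]
        calc p ^ k ∣ p ^ 1 := pow_dvd_pow p (by omega)
          _ = p := pow_one p
      · exfalso
        obtain ⟨y, hy⟩ := exists_orderOf_dvd (g := x) (m := p ^ 2) (by rw [hk]; exact pow_dvd_pow p h1)
        exact hnp y hy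
    by_cases h2G : 2 ∣ Nat.card G
    · right; right; right
      haveI : Fact (Nat.Prime 2) := ⟨Nat.prime_two⟩
      have hc2' := frob_prime Nat.prime_two h2G
      obtain ⟨z, hz⟩ := exists_prime_orderOf_dvd_card' (G := G) 2 h2G
      have h2n : 2 ∣ n := heven x (by omega)
      have hc2 : cnt G 2 = 1 := by
        rcases hval z with h1 | h1
        · rwa [hz] at h1
        · rw [hz] at h1; rw [h1] at hc2'; omega
      have huniq : ∀ y : G, orderOf y = 2 → y = z := by
        intro y hy
        have : Subsingleton {g : G // orderOf g = 2} := by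
          unfold cnt at hc2
          exact (Nat.card_eq_one_iff_unique.mp hc2).1
        exact congrArg Subtype.val (Subsingleton.elim (⟨y, hy⟩ : {g : G // orderOf g = 2}) ⟨z, hz⟩)
      have hzc : z ∈ center G := by
        rw [mem_center_iff]
        intro g
        have := huniq (g * z * g⁻¹) (by rw [CfsgLib.FgBas.orderOf_conj, hz])
        rw [mul_inv_eq_iff_eq_mul] at this
        exact this
      -- element of order 2p
      have hc2p : cnt G (2 * p) = n := by
        have h1 : orderOf (z * x) = 2 * p := by
          rw [Commute.orderOf_mul_eq_mul_orderOf_of_coprime (mem_center_iff.mp hzc x).symm, hz, hx]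
          rw [hz, hx]
          exact (Nat.coprime_primes Nat.prime_two hp).mpr (Ne.symm hp2)
        rw [← h1]
        exact htot _ (by rw [h1]; omega)
      have hno4 : ∀ y : G, orderOf y ≠ 4 := by
        intro y hy
        have hc4 : cnt G 4 = n := by rw [← hy]; exact htot y (by omega)
        have h4G : 4 ∣ Nat.card G := hy ▸ orderOf_dvd_natCard y
        have hcop : Nat.Coprime 4 p := by
          have : Nat.Coprime (2 ^ 2) p := Nat.Coprime.pow_left 2 ((Nat.coprime_primes Nat.prime_two hp).mpr (Ne.symm hp2))
          exact this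
        have h1 := frob (hcop.mul_dvd_of_dvd_of_dvd h4G hpG)
        rw [sum_div hcop] at h1
        have hd4 : (4 : ℕ).divisors = {1, 2, 4} := by decide
        rw [hd4, Finset.sum_insert (by decide), Finset.sum_insert (by decide), Finset.sum_singleton,
          Nat.Prime.sum_divisors hp, Nat.Prime.sum_divisors hp, Nat.Prime.sum_divisors hp] at h1
        simp only [one_mul, mul_one, cnt_one, hc2, hc4, hc2p, hcp] at h1
        have h2 := (Dvd.intro_left _ rfl : p ∣ 4 * p).trans h1
        rcases hcnt (4 * p) (by omega) with h3 | h3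
        · rw [h3] at h2
          have h4 := Nat.dvd_sub (hmod.mul_left 3) h2
          have h5 : 3 * (1 + n) - (n + 1 + (n + 1 + (0 + n))) = 1 := by omega
          rw [h5] at h4
          exact hp.one_lt.ne' (Nat.dvd_one.mp h4)
        · rw [h3] at h2
          have h4 := Nat.dvd_sub (hmod.mul_left 4) h2
          have h5 : 4 * (1 + n) - (n + 1 + (n + 1 + (n + n))) = 2 := by omega
          rw [h5] at h4
          have := Nat.le_of_dvd (by norm_num) h4
          omega
      -- every 2-element is 1 or z
      have hz1 : z ≠ 1 := by rintro rfl; rw [orderOf_one] at hz; norm_num at hz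
      have h2el : ∀ y : G, (∃ k, orderOf y = 2 ^ k) → y = 1 ∨ y = z := by
        rintro y ⟨k, hk⟩
        rcases Nat.lt_or_ge k 2 with h1 | h1
        · interval_cases k
          · left; exact orderOf_eq_one_iff.mp (by simpa using hk)
          · right; exact huniq y (by simpa using hk)
        · exfalso
          obtain ⟨w, hw⟩ := exists_orderOf_dvd (g := y) (m := 4) (by
            rw [hk]; exact (pow_dvd_pow 2 h1 : 2 ^ 2 ∣ 2 ^ k))
          exact hno4 w hw
      have h4G : ¬ 4 ∣ Nat.card G := by
        intro h4
        obtain ⟨K, hK⟩ := Sylow.exists_subgroup_card_pow_prime (G := G) 2 (n := 2) h4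
        have hKp : IsPGroup 2 K := IsPGroup.of_card hK
        have h5 : K ≤ zpowers z := by
          intro y hy
          rcases h2el y (CfsgLib.FgBas.orderOf_eq_pow hKp hy) with h6 | h6
          · rw [h6]; exact one_mem _
          · rw [h6]; exact mem_zpowers z
        have h6 := Subgroup.card_le_of_le h5
        rw [hK, Nat.card_zpowers, hz] at h6
        norm_num at h6
      obtain ⟨P⟩ := (inferInstance : Nonempty (Sylow p G))
      have hidx : (P : Subgroup G).index = 2 := by
        have h5 : ∀ {d : ℕ}, Nat.Prime d → d ∣ (P : Subgroup G).index → d = 2 := by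
          intro d hd hdi
          rcases honly d hd (hdi.trans (Subgroup.index_dvd_card _)) with h6 | h6
          · exact h6
          · exfalso; rw [h6] at hdi; exact P.not_dvd_index hdi
        have h6 := Nat.eq_prime_pow_of_unique_prime_dvd (Subgroup.FiniteIndex.index_ne_zero) h5
        set j := (P : Subgroup G).index.primeFactorsList.length
        have h7 := (P : Subgroup G).card_mul_index
        rcases Nat.lt_or_ge j 2 with h8 | h8
        · interval_cases j
          · exfalso
            rw [h6, pow_zero, mul_one] at h7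
            obtain ⟨k, hk⟩ := IsPGroup.iff_card.mp P.isPGroup'
            rw [← h7] at h2G
            have h9 : 2 ∣ p ^ k := hk ▸ h2G
            have h10 := (Nat.prime_dvd_prime_iff_eq Nat.prime_two hp).mp (Nat.prime_two.dvd_of_dvd_pow h9)
            exact hp2 h10.symm
          · rw [h6, pow_one]
        · exfalso
          apply h4G
          rw [← h7, h6]
          exact (pow_dvd_pow 2 h8 : 2 ^ 2 ∣ 2 ^ j).mul_left _
      have hcardG : Nat.card G = 2 * Nat.card P := by
        rw [← (P : Subgroup G).card_mul_index, hidx, mul_comm]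
      obtain ⟨f, hf⟩ := CfsgLib.Schur.exists_hom_zmod 2 z (orderOf_dvd_iff_pow_eq_one.mp hz.dvd)
      have hfa : ∀ a : Multiplicative (ZMod 2), f a = 1 → a = 1 := by
        intro a ha
        have h5 := zmod2_cases
        rcases h5 (Multiplicative.toAdd a) with h6 | h6
        · exact h6
        · exfalso
          have h7 : a = Multiplicative.ofAdd 1 := h6
          rw [h7, hf] at ha
          exact hz1 ha
      have hfc : ∀ (a : Multiplicative (ZMod 2)) (x : P), Commute (f a) ((P : Subgroup G).subtype x) := by
        intro a x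
        have h5 := zmod2_cases
        rcases h5 (Multiplicative.toAdd a) with h6 | h6
        · have h7 : a = 1 := h6
          rw [h7, map_one]; exact Commute.one_left _
        · have h7 : a = Multiplicative.ofAdd 1 := h6
          rw [h7, hf]
          exact (mem_center_iff.mp hzc _).symm
      let F : Multiplicative (ZMod 2) × P →* G := f.noncommCoprod (P : Subgroup G).subtype hfc
      have hF : Function.Injective F := by
        rw [injective_iff_map_eq_one]
        rintro ⟨a, x⟩ hax
        have h5 : f a * (x : G) = 1 := hax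
        have h6 : (x : G) ^ 2 = 1 := by
          have h7 : (x : G) = (f a)⁻¹ := (inv_eq_of_mul_eq_one_right h5).symm
          have h8 : a ^ 2 = 1 := by
            exact zmod2_two (Multiplicative.toAdd a)
          rw [h7, inv_pow, ← map_pow, h8, map_one, inv_one]
        obtain ⟨k, hk⟩ := CfsgLib.FgBas.orderOf_eq_pow P.isPGroup' x.2
        have h7 : orderOf (x : G) ∣ 1 := by
          have h8 : Nat.Coprime 2 (p ^ k) := Nat.Coprime.pow_right k ((Nat.coprime_primes Nat.prime_two hp).mpr (Ne.symm hp2))
          rw [← Nat.Coprime.gcd_eq_one h8]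
          exact Nat.dvd_gcd (orderOf_dvd_of_pow_eq_one h6) (hk ▸ dvd_rfl)
        have h8 : (x : G) = 1 := orderOf_eq_one_iff.mp (Nat.dvd_one.mp h7)
        rw [h8, mul_one] at h5
        exact Prod.ext (hfa a h5) (Subtype.ext h8)
      have hFb : Function.Bijective F := (Nat.bijective_iff_injective_and_card F).mpr ⟨hF, by
        rw [Nat.card_prod, hcardG]
        congr 1
        exact Nat.card_zmod 2⟩
      obtain ⟨P', i1, i2, ⟨ε⟩⟩ := exists_small P
      refine ⟨p, P', i1, i2, hp, hp2, ?_, ?_, ⟨(MulEquiv.ofBijective F hFb).symm.trans ((MulEquiv.refl _).prodCongr ε)⟩⟩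
      · exact P.isPGroup'.of_equiv ε
      · rw [← Monoid.exponent_eq_of_mulEquiv ε]
        apply exponent_of hp
        · obtain ⟨y, hy⟩ := CfsgLib.FgBas.exists_conj_mem P (x := x) ⟨1, by rw [hx, pow_one]⟩
          refine ⟨⟨_, hy⟩, ?_⟩
          intro h5
          have h6 : y * x * y⁻¹ = 1 := congrArg Subtype.val h5
          have h7 := CfsgLib.FgBas.orderOf_conj y x
          rw [h6, orderOf_one, hx] at h7
          exact hp.one_lt.ne h7
        · intro w
          apply Subtype.ext
          exact hpexp w (CfsgLib.FgBas.orderOf_eq_pow P.isPGroup' w.2)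
    · left
      have hG : IsPGroup p G := by
        apply IsPGroup.of_card (n := (Nat.card G).primeFactorsList.length)
        apply Nat.eq_prime_pow_of_unique_prime_dvd Nat.card_pos.ne'
        intro d hd hdG
        rcases honly d hd hdG with h1 | h1
        · exfalso; rw [h1] at hdG; exact h2G hdG
        · exact h1
      refine ⟨p, hp, hG, hp3.trans (Nat.le_of_dvd Nat.card_pos hpG), ?_⟩
      apply exponent_of hp
      · exact ⟨x, by rintro rfl; rw [orderOf_one] at hx; exact hp.one_lt.ne hx⟩
      · intro w
        exact hpexp w ((IsPGroup.iff_orderOf.mp hG) w)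
  · -- 2-groups
    push Not at hodd
    haveI : Fact (Nat.Prime 2) := ⟨Nat.prime_two⟩
    have hG : IsPGroup 2 G := by
      apply IsPGroup.of_card (n := (Nat.card G).primeFactorsList.length)
      apply Nat.eq_prime_pow_of_unique_prime_dvd Nat.card_pos.ne'
      intro d hd hdG
      by_contra h1
      exact hodd d hd h1 hdG
    obtain ⟨g, hg⟩ := hex
    have hg1 : g ≠ 1 := by
      rintro rfl
      rw [orderOf_one, cnt_one] at hg
      exact hn hg.symm
    have h2G : 2 ∣ Nat.card G := by
      obtain ⟨k, hk⟩ := (IsPGroup.iff_orderOf.mp hG) g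
      have hk0 : k ≠ 0 := by
        rintro rfl
        rw [pow_zero] at hk
        exact hg1 (orderOf_eq_one_iff.mp hk)
      exact ((dvd_pow_self 2 hk0).trans (hk ▸ dvd_rfl)).trans (orderOf_dvd_natCard g)
    have hc2' := frob_prime Nat.prime_two h2G
    obtain ⟨z, hz⟩ := exists_prime_orderOf_dvd_card' (G := G) 2 h2G
    by_cases h4 : ∃ y : G, orderOf y = 4
    · obtain ⟨y, hy⟩ := h4
      have h2n : 2 ∣ n := heven y (by omega)
      have hc4 : cnt G 4 = n := by rw [← hy]; exact htot y (by omega)
      have hc2 : cnt G 2 = 1 := by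
        rcases hval z with h1 | h1
        · rwa [hz] at h1
        · rw [hz] at h1; rw [h1] at hc2'; omega
      have h4G : 2 ^ 2 ∣ Nat.card G := by
        have := orderOf_dvd_natCard y
        rw [hy] at this
        exact this
      have hfr := frob_prime_sq Nat.prime_two h4G
      have hno8 : ∀ w : G, orderOf w ≠ 8 := by
        intro w hw
        have h1 := totient_dvd_cnt (G := G) 8
        have h2 : cnt G 8 = n := by rw [← hw]; exact htot w (by omega)
        rw [h2] at h1
        have h3 : Nat.totient 8 = 4 := by decide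
        rw [h3] at h1
        have h4 : (2 : ℕ) ^ 2 = 4 := by norm_num
        rw [h4, hc2, hc4] at hfr
        omega
      have hord : ∀ w : G, orderOf w ∣ 4 := by
        intro w
        obtain ⟨k, hk⟩ := (IsPGroup.iff_orderOf.mp hG) w
        rcases Nat.lt_or_ge k 3 with h1 | h1
        · rw [hk]; exact (pow_dvd_pow 2 (by omega) : 2 ^ k ∣ 2 ^ 2)
        · exfalso
          obtain ⟨v, hv⟩ := exists_orderOf_dvd (g := w) (m := 8) (by
            rw [hk]; exact (pow_dvd_pow 2 h1 : 2 ^ 3 ∣ 2 ^ k))
          exact hno8 v hv
      have huniq : ∀ H K : Subgroup G, Nat.card H = 2 → Nat.card K = 2 → H = K := by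
        have key : ∀ H : Subgroup G, Nat.card H = 2 → H = zpowers z := by
          intro H hH
          obtain ⟨t, ht⟩ := exists_prime_orderOf_dvd_card' (G := H) 2 (by rw [hH])
          have ht' : orderOf (t : G) = 2 := by rw [Subgroup.orderOf_coe, ht]
          have htz : (t : G) = z := by
            have : Subsingleton {g : G // orderOf g = 2} := by
              unfold cnt at hc2
              exact (Nat.card_eq_one_iff_unique.mp hc2).1
            exact congrArg Subtype.val (Subsingleton.elim (⟨t, ht'⟩ : {g : G // orderOf g = 2}) ⟨z, hz⟩)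
          symm
          apply Subgroup.eq_of_le_of_card_ge
          · rw [zpowers_le, ← htz]; exact t.2
          · rw [hH, Nat.card_zpowers, hz]
        intro H K hH hK
        rw [key H hH, key K hK]
      have hcyc4 : Nat.card G = 4 → IsCyclic G := fun h1 => isCyclic_of_orderOf_eq_card y (by rw [hy, h1])
      rcases CfsgLib.PCyc.cyclic_or_quaternion hG huniq with h1 | ⟨k, ⟨ε⟩⟩
      · right; right; left
        refine ⟨h1, ?_⟩
        obtain ⟨c, hc⟩ := h1.exists_generator
        have h2 : orderOf c = Nat.card G := orderOf_eq_card_of_forall_mem_zpowers hc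
        apply Nat.dvd_antisymm
        · rw [← h2]; exact hord c
        · rw [← hy]; exact orderOf_dvd_natCard y
      · have hk2 : k ≤ 1 := by
          by_contra hk
          push Not at hk
          haveI : NeZero (2 ^ k) := ⟨pow_ne_zero _ two_ne_zero⟩
          have h2 : orderOf (ε.symm (QuaternionGroup.a 1)) = 2 * 2 ^ k := by
            rw [MulEquiv.orderOf_eq, QuaternionGroup.orderOf_a_one]
          have h3 := hord (ε.symm (QuaternionGroup.a 1))
          rw [h2] at h3
          have h4 := Nat.le_of_dvd (by norm_num) h3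
          have h5 : 2 ^ 2 ≤ 2 ^ k := Nat.pow_le_pow_right (by norm_num) hk
          omega
        interval_cases k
        · right; right; left
          have h2 : Nat.card G = 4 := by
            haveI : NeZero (2 ^ 0) := ⟨by norm_num⟩
            rw [Nat.card_congr ε.toEquiv, Nat.card_eq_fintype_card, QuaternionGroup.card]
            norm_num
          exact ⟨hcyc4 h2, h2⟩
        · right; left
          exact ⟨ε⟩
    · left
      push Not at h4
      have hexp : ∀ w : G, w ^ 2 = 1 := by
        intro w
        obtain ⟨k, hk⟩ := (IsPGroup.iff_orderOf.mp hG) w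
        rcases Nat.lt_or_ge k 2 with h1 | h1
        · rw [← orderOf_dvd_iff_pow_eq_one, hk]
          calc 2 ^ k ∣ 2 ^ 1 := pow_dvd_pow 2 (by omega)
            _ = 2 := pow_one 2
        · exfalso
          obtain ⟨v, hv⟩ := exists_orderOf_dvd (g := w) (m := 4) (by
            rw [hk]; exact (pow_dvd_pow 2 h1 : 2 ^ 2 ∣ 2 ^ k))
          exact h4 v hv
      have hg2 : orderOf g = 2 := orderOf_eq_prime (hexp g) hg1
      rw [hg2] at hg
      have hcard : Nat.card G = 1 + n := by
        have h1 := sum_cnt (G := G) (k := 2) (by norm_num)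
        rw [Nat.Prime.sum_divisors Nat.prime_two, cnt_one, hg] at h1
        have h2 : Nat.card {g : G // g ^ 2 = 1} = Nat.card G :=
          Nat.card_congr (Equiv.subtypeUnivEquiv hexp)
        omega
      refine ⟨2, Nat.prime_two, hG, ?_, exponent_of Nat.prime_two ⟨g, hg1⟩ hexp⟩
      have : n ≠ 0 := by
        rintro rfl
        have := cnt_pos (g := g)
        rw [hg2, hg] at this
        omega
      omega

end Cfsg.Agent.S3995
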