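import Cfsg.Statements.S3996
import Cfsg.Agent.LibFgOrd2
import Cfsg.Agent.LibBSz

set_option autoImplicit false
open Cfsg

namespace Cfsg.Agent.S3996

set_option linter.style.haveILetI false
set_option linter.unusedSectionVars false
set_option linter.unusedVariables false

open CfsgLib.FgOrd

theorem modp {p x y : ℕ} (h : p ∣ x + y) {k : ℤ} (hy : (y : ℤ) ≡ k [ZMOD p]) : (x : ℤ) ≡ -k [ZMOD p] := by
  have e1 : (p : ℤ) ∣ x + y := by exact_mod_cast h
  have e2 : (x : ℤ) + y ≡ 0 [ZMOD p] := (Int.modEq_zero_iff_dvd).mpr e1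
  have e3 := e2.sub hy
  have e4 : (x : ℤ) + y - y = x := by ring
  rw [e4] at e3
  simpa using e3

theorem three_le {p : ℕ} (hp : p.Prime) (h : Odd p) : 3 ≤ p := by
  rcases h with ⟨k, hk⟩
  have := hp.two_le
  omega

theorem ne_of_mod {p : ℕ} (hp : 3 ≤ p) {k l : ℤ} (h : k ≡ l [ZMOD p]) (h1 : (k = 1 ∧ l = -1) ∨ (k = -1 ∧ l = 1) ∨ (k = 1 ∧ l = 0) ∨
    (k = -1 ∧ l = 0) ∨ (k = 0 ∧ l = 1) ∨ (k = 0 ∧ l = -1)) : False := by
  have h2 := Int.modEq_iff_dvd.mp h
  have h3 : (l - k) ≠ 0 := by omega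
  have h4 := Int.le_of_dvd (by positivity : (0 : ℤ) < |l - k|) ((dvd_abs _ _).mpr h2)
  rcases h1 with ⟨rfl, rfl⟩ | ⟨rfl, rfl⟩ | ⟨rfl, rfl⟩ | ⟨rfl, rfl⟩ | ⟨rfl, rfl⟩ | ⟨rfl, rfl⟩ <;> norm_num at h4 <;> omega

theorem no_two' {G : Type*} [Group G] [Finite G] {a b p q : ℕ} (h : ∀ m, 2 < m → cnt G m ≠ 0 → cnt G m = a ∨ cnt G m = b)
    (h2 : cnt G 2 = 1) (h4G : 4 ∣ Nat.card G) (hp : p.Prime) (hq : q.Prime) (hpq : p ≠ q)
    (hp2 : Odd p) (hq2 : Odd q) (hpG : p ∣ Nat.card G) (hpa : cnt G p = a) (hqb : cnt G q = b)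
    (h4a : cnt G 4 = a) : False := by
  have hp3 := three_le hp hp2
  have hq3 := three_le hq hq2
  have cop4 : ∀ r : ℕ, Odd r → Nat.Coprime r 4 := fun r hr => by
    have : Nat.Coprime r (2 ^ 2) := Nat.Coprime.pow_right 2 (Nat.coprime_two_right.mpr hr)
    simpa using this
  have h4 : 4 ∣ 2 + cnt G 4 := by
    have := frob_prime_sq Nat.prime_two (G := G) (by simpa using h4G)
    rw [h2] at this
    simpa using this
  have hfp := frob_prime hp hpG
  have tot4 : 4 ∣ cnt G (p * q) := by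
    refine dvd_trans ?_ (totient_dvd_cnt (p * q))
    rw [Nat.totient_mul ((Nat.coprime_primes hp hq).mpr hpq)]
    have e1 := Nat.totient_even (n := p) (by omega)
    have e2 := Nat.totient_even (n := q) (by omega)
    obtain ⟨x, hx⟩ := e1.two_dvd
    obtain ⟨y, hy⟩ := e2.two_dvd
    rw [hx, hy]; exact ⟨x * y, by ring⟩
  have a1 : (a : ℤ) ≡ -1 [ZMOD p] := by
    have := modp (p := p) (x := cnt G p) (y := 1) (by rw [add_comm]; exact hfp) (k := 1) (by simp)
    rwa [hpa] at this
  have hN4 : ∀ c, cnt G 4 = c → ¬ 4 ∣ c := by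
    rintro c rfl hc
    have := (Nat.dvd_add_left hc).mp h4
    norm_num at this
  have h4p := f6 hp hpG (cop4 p hp2)
  rw [h4a] at h4p
  have m1 := modp h4p a1
  have n0 : cnt G (p * 4) ≠ 0 := fun h0 => by
    rw [h0] at m1; exact ne_of_mod hp3 m1 (by norm_num)
  have na : cnt G (p * 4) ≠ a := fun h0 => by
    rw [h0] at m1; exact ne_of_mod hp3 (a1.symm.trans m1) (by norm_num)
  have nb := (h (p * 4) (by omega) n0).resolve_left na
  have b1 : (b : ℤ) ≡ 1 [ZMOD p] := by
    rw [nb] at m1; simpa using m1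
  have h5 := f6 hp hpG ((Nat.coprime_primes hp hq).mpr hpq)
  rw [hqb] at h5
  have m2 := modp h5 b1
  have n0' : cnt G (p * q) ≠ 0 := fun h0 => by
    rw [h0] at m2; exact ne_of_mod hp3 m2 (by norm_num)
  have nb' : cnt G (p * q) ≠ b := fun h0 => by
    rw [h0] at m2; exact ne_of_mod hp3 (b1.symm.trans m2) (by norm_num)
  have na' := (h (p * q) (by nlinarith) n0').resolve_right nb'
  exact hN4 a h4a (na' ▸ tot4)

/-- the case `4 ∣ #G`, unique involution -/
theorem no_two {G : Type*} [Group G] [Finite G] {a b p q : ℕ} (h : ∀ m, 2 < m → cnt G m ≠ 0 → cnt G m = a ∨ cnt G m = b)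
    (hab : a ≠ b) (h2 : cnt G 2 = 1) (h4G : 4 ∣ Nat.card G) (hp : p.Prime) (hq : q.Prime) (hpq : p ≠ q)
    (hp2 : Odd p) (hq2 : Odd q) (hpG : p ∣ Nat.card G) (hqG : q ∣ Nat.card G) (hpa : cnt G p = a) : False := by
  have hp3 := three_le hp hp2
  have hq3 := three_le hq hq2
  have cop4 : ∀ r : ℕ, Odd r → Nat.Coprime r 4 := fun r hr => by
    have : Nat.Coprime r (2 ^ 2) := Nat.Coprime.pow_right 2 (Nat.coprime_two_right.mpr hr)
    simpa using this
  have h2v : TwoVal G a b := fun m hm hm1 hc => h m (by rcases hm with ⟨k, rfl⟩; omega) hc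
  have h4 : 4 ∣ 2 + cnt G 4 := by
    have := frob_prime_sq Nat.prime_two (G := G) (by simpa using h4G)
    rw [h2] at this
    simpa using this
  have h4ne : cnt G 4 ≠ 0 := by intro h0; rw [h0] at h4; norm_num at h4
  have h4v := h 4 (by norm_num) h4ne
  have hfp := frob_prime hp hpG
  have hfq := frob_prime hq hqG
  have tot4 : 4 ∣ cnt G (p * q) := by
    refine dvd_trans ?_ (totient_dvd_cnt (p * q))
    rw [Nat.totient_mul ((Nat.coprime_primes hp hq).mpr hpq)]
    have e1 := Nat.totient_even (n := p) (by omega)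
    have e2 := Nat.totient_even (n := q) (by omega)
    obtain ⟨x, hx⟩ := e1.two_dvd
    obtain ⟨y, hy⟩ := e2.two_dvd
    rw [hx, hy]; exact ⟨x * y, by ring⟩
  have a1 : (a : ℤ) ≡ -1 [ZMOD p] := by
    have := modp (p := p) (x := cnt G p) (y := 1) (by rw [add_comm]; exact hfp) (k := 1) (by simp)
    rwa [hpa] at this
  have hN4 : ∀ c, cnt G 4 = c → ¬ 4 ∣ c := by
    rintro c rfl hc
    have := (Nat.dvd_add_left hc).mp h4
    norm_num at this
  have hqv : cnt G q = a ∨ cnt G q = b := by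
    have : Fact q.Prime := ⟨hq⟩
    obtain ⟨g, hg⟩ := exists_prime_orderOf_dvd_card' q hqG
    exact h q (by omega) (cnt_ne_zero_iff.mpr ⟨g, hg⟩)
  have h4p := f6 hp hpG (cop4 p hp2)
  rcases hqv with hqa | hqb
  · -- N(p) = N(q) = a
    obtain ⟨e1, e2, -⟩ := h2v.pair hp hq hpq hp2 hq2 hpG hpa hqa
    obtain ⟨-, e4, -⟩ := h2v.pair hq hp hpq.symm hq2 hp2 hqG hqa hpa
    rw [e1] at tot4
    have h4a : cnt G 4 = a := h4v.resolve_right (fun h0 => hN4 b h0 tot4)
    rw [h4a] at h4p
    have m1 := modp h4p a1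
    have n0 : cnt G (p * 4) ≠ 0 := fun h0 => by
      rw [h0] at m1; exact ne_of_mod hp3 m1 (by norm_num)
    have na : cnt G (p * 4) ≠ a := fun h0 => by
      rw [h0] at m1; exact ne_of_mod hp3 (a1.symm.trans m1) (by norm_num)
    have nb := (h (p * 4) (by omega) n0).resolve_left na
    have h5 := f6 hq hqG (m := p * 4) (Nat.Coprime.mul_right ((Nat.coprime_primes hq hp).mpr hpq.symm) (cop4 q hq2))
    rw [nb] at h5
    have m2 := modp h5 e4
    have n0' : cnt G (q * (p * 4)) ≠ 0 := fun h0 => by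
      rw [h0] at m2; exact ne_of_mod hq3 m2 (by norm_num)
    have nb' : cnt G (q * (p * 4)) ≠ b := fun h0 => by
      rw [h0] at m2; exact ne_of_mod hq3 (e4.symm.trans m2) (by norm_num)
    have na' := (h (q * (p * 4)) (by
      have : 1 ≤ q := hq.pos
      nlinarith) n0').resolve_right nb'
    apply hN4 a h4a
    rw [← na']
    refine dvd_trans ?_ (totient_dvd_cnt _)
    rw [Nat.totient_mul (Nat.Coprime.mul_right ((Nat.coprime_primes hq hp).mpr hpq.symm) (cop4 q hq2)),
      Nat.totient_mul (cop4 p hp2)]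
    obtain ⟨x, hx⟩ := (Nat.totient_even (n := p) (by omega)).two_dvd
    obtain ⟨y, hy⟩ := (Nat.totient_even (n := q) (by omega)).two_dvd
    rw [hx, hy]; exact ⟨x * y * Nat.totient 4, by ring⟩
  · rcases h4v with h4a | h4b
    · exact no_two' h h2 h4G hp hq hpq hp2 hq2 hpG hpa hqb h4a
    · exact no_two' (fun m hm hc => (h m hm hc).symm) h2 h4G hq hp hpq.symm hq2 hp2 hqG hqb hpa h4b

/-- A finite group in which the numbers of elements of each order that occurs (the numbers #{g : o(g) = m}, m ranging over the element orders) take exactly three different values is solvable. -/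
theorem result {G : Type*} [Group G] [Finite G] (h : (((fun m : ℕ => Nat.card {g : G // orderOf g = m}) '' Set.range (orderOf : G → ℕ))).ncard = 3) : Group.IsSolvable G := by
  classical
  obtain ⟨a, b, hab, ha1, hb1, hv⟩ := exists_vals h
  have h3 : ∀ m, 2 < m → cnt G m ≠ 0 → cnt G m = a ∨ cnt G m = b := by
    intro m hm hc
    refine (hv m hc).resolve_left (fun h1 => ?_)
    have := even_cnt (G := G) hm
    rw [h1] at this
    exact absurd this (by decide)
  have hodd3 : ∀ m, Odd m → m ≠ 1 → 2 < m := by rintro m ⟨k, rfl⟩ hm; omega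
  have hT : TwoVal G a b := fun m hm hm1 hc => h3 m (hodd3 m hm hm1) hc
  by_cases hodd : Odd (Nat.card G)
  · exact solvable_of_two (hT.two_primes hodd)
  rw [Nat.not_odd_iff_even] at hodd
  have h2G : 2 ∣ Nat.card G := hodd.two_dvd
  have hf2 := frob_prime Nat.prime_two h2G
  -- at most one odd prime suffices
  have fin : (∀ p q : ℕ, p.Prime → q.Prime → p ≠ q → Odd p → Odd q → p ∣ Nat.card G → q ∣ Nat.card G → False) →
      Group.IsSolvable G := by
    intro hone
    by_cases hex : ∃ p : ℕ, p.Prime ∧ Odd p ∧ p ∣ Nat.card G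
    · obtain ⟨p, hp, hp2, hpG⟩ := hex
      refine solvable_of_primes Nat.prime_two hp (fun r hr hrG => ?_)
      rcases hr.eq_two_or_odd' with h | h
      · exact Or.inl h
      · right
        by_contra hne
        exact hone r p hr hp hne h hp2 hrG hpG
    · refine solvable_of_primes Nat.prime_two Nat.prime_two (fun r hr hrG => ?_)
      rcases hr.eq_two_or_odd' with h | h
      · exact Or.inl h
      · exact absurd ⟨r, hr, h, hrG⟩ hex
  have hcne : ∀ r : ℕ, r.Prime → r ∣ Nat.card G → cnt G r ≠ 0 := by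
    intro r hr hrG
    have : Fact r.Prime := ⟨hr⟩
    obtain ⟨g, hg⟩ := exists_prime_orderOf_dvd_card' r hrG
    exact cnt_ne_zero_iff.mpr ⟨g, hg⟩
  by_cases h21 : cnt G 2 = 1
  · by_cases h4 : 4 ∣ Nat.card G
    · apply fin
      intro p q hp hq hpq hp2 hq2 hpG hqG
      rcases h3 p (hodd3 p hp2 hp.ne_one) (hcne p hp hpG) with h | h
      · exact no_two h3 hab h21 h4 hp hq hpq hp2 hq2 hpG hqG h
      · exact no_two (fun m hm hc => (h3 m hm hc).symm) hab.symm h21 h4 hp hq hpq hp2 hq2 hpG hqG h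
    · -- Sylow 2-subgroup of order 2
      obtain ⟨S⟩ := (inferInstance : Nonempty (Sylow 2 G))
      have hS : IsCyclic S := by
        obtain ⟨k, hk⟩ := IsPGroup.iff_card.mp S.isPGroup'
        have hk1 : k ≤ 1 := by
          by_contra hk1
          apply h4
          have h5 : 2 ^ 2 ∣ Nat.card (S : Subgroup G) := by rw [hk]; exact pow_dvd_pow _ (by omega)
          exact (by simpa using h5 : 4 ∣ Nat.card (S : Subgroup G)).trans (Subgroup.card_subgroup_dvd_card _)
        interval_cases k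
        · rw [pow_zero] at hk
          have : Subsingleton (S : Subgroup G) := (Nat.card_eq_one_iff_unique.mp hk).1
          exact isCyclic_of_subsingleton
        · rw [pow_one] at hk
          exact isCyclic_of_prime_card hk
      obtain ⟨K, hK⟩ := CfsgLib.BSz.exists_npc_of_cyclic S hS
      have hKn := hK.normal
      have hKodd : Odd (Nat.card K) := Nat.not_even_iff_odd.mp (fun he => hK.2.1 he.two_dvd)
      have hcnt : ∀ m, Odd m → cnt K m = cnt G m := by
        intro m hm
        apply Nat.card_congr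
        refine ⟨fun g => ⟨g.1, by rw [Subgroup.orderOf_coe]; exact g.2⟩, fun g => ⟨⟨g.1, (hK.mem_iff g.1).mpr ?_⟩, ?_⟩,
          fun g => rfl, fun g => rfl⟩
        · rw [g.2]; exact Nat.coprime_two_right.mpr hm
        · rw [Subgroup.orderOf_mk]; exact g.2
      have hTK : TwoVal K a b := fun m hm hm1 hc => by
        rw [hcnt m hm] at hc ⊢
        exact hT m hm hm1 hc
      have hKs := solvable_of_two (hTK.two_primes hKodd)
      obtain ⟨k, hk⟩ := hK.2.2
      have hq : IsPGroup 2 (G ⧸ K) := IsPGroup.of_card hk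
      have hqn : Group.IsNilpotent (G ⧸ K) := hq.isNilpotent
      exact (Group.isSolvable_iff_subgroup_quotient K).mpr ⟨hKs, inferInstance⟩
  · -- `N(2) ≠ 1`
    apply fin
    intro p q hp hq hpq hp2 hq2 hpG hqG
    have h2v := (hv 2 (hcne 2 Nat.prime_two h2G)).resolve_left h21
    have hodd2 : Odd (cnt G 2) := by
      rw [← Nat.not_even_iff_odd]
      intro he
      have := (Nat.dvd_add_left he.two_dvd).mp hf2
      norm_num at this
    have gen : ∀ a b : ℕ, (∀ m, 2 < m → cnt G m ≠ 0 → cnt G m = a ∨ cnt G m = b) → cnt G 2 = a → False := by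
      intro a b h3 h2a
      have hall : ∀ m, 2 < m → cnt G m ≠ 0 → cnt G m = b := by
        intro m hm hc
        refine (h3 m hm hc).resolve_left (fun h => ?_)
        have := even_cnt (G := G) hm
        rw [h, ← h2a] at this
        exact (Nat.not_even_iff_odd.mpr hodd2) this
      have hTb : TwoVal G b b := fun m hm hm1 hc => Or.inl (hall m (hodd3 m hm hm1) hc)
      obtain ⟨-, e1, e2⟩ := hTb.pair hp hq hpq hp2 hq2 hpG (hall p (hodd3 p hp2 hp.ne_one) (hcne p hp hpG))
        (hall q (hodd3 q hq2 hq.ne_one) (hcne q hq hqG))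
      exact ne_of_mod (three_le hp hp2) (e1.symm.trans e2) (by norm_num)
    rcases h2v with h | h
    · exact gen a b h3 h
    · exact gen b a (fun m hm hc => (h3 m hm hc).symm) h

end Cfsg.Agent.S3996
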