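import Cfsg.Statements.S3997
import Cfsg.Agent.LibFgOT

set_option autoImplicit false
open Cfsg CfsgLib.FgOT

namespace Cfsg.Agent.S3997

/-- Let G and H be finite groups with the same order type: for every m they have the same number of elements of order m. If G is nilpotent then so is H. -/
theorem result {G H : Type*} [Group G] [Finite G] [Group H] [Finite H] (hT : (∀ m : ℕ, Nat.card {g : G // orderOf g = m} = Nat.card {h : H // orderOf h = m})) (hG : Group.IsNilpotent G) :
    Group.IsNilpotent H := by
  have h30 := (Group.isNilpotent_of_finite_tfae (G := H)).out 3 0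
  have h03 := (Group.isNilpotent_of_finite_tfae (G := G)).out 0 3
  refine h30.mp ?_
  intro p hp P
  refine normal_of_card P (fun m => ∃ k, m = p ^ k) (fun k => ⟨k, rfl⟩) ?_
  obtain ⟨Q⟩ := (inferInstance : Nonempty (Sylow p G))
  have hQ : (Q : Subgroup G).Normal :=
    h03.mp hG p hp Q
  rw [← card_eq hT, ← card_pElements_of_normal Q]
  exact (card_pred_eq hT (fun m => ∃ k, m = p ^ k)).symm.le

end Cfsg.Agent.S3997
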