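import Cfsg.Statements.S3998
import Cfsg.Agent.LibFgOT
import Cfsg.Agent.S0529

set_option autoImplicit false
open Cfsg

namespace Cfsg.Agent.S3998

set_option linter.style.haveILetI false

universe u
open Subgroup CfsgLib.FgOT

theorem rc_of_supersolvable (n : ℕ) : ∀ (G : Type u) [Group G] [Finite G], Nat.card G ≤ n →
    Cfsg.IsSupersolvable G → ∀ c, rc c G = rp c (Nat.card G) := by
  induction n with
  | zero =>
    intro G _ _ hn
    have : 0 < Nat.card G := Nat.card_pos
    omega
  | succ n ih =>
    intro G _ _ hn hG c
    by_cases h1 : Nat.card G = 1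
    · have h2 : ∀ q : ℕ, q.Prime → q ∣ Nat.card G → q < c := by
        intro q hq hqd
        rw [h1] at hqd
        exact absurd (Nat.dvd_one.mp hqd) hq.one_lt.ne'
      rw [rc_eq_one c h2, rp_eq_one c _ h2]
    · -- the largest prime divisor
      have hne : (Nat.card G).primeFactors.Nonempty := by
        obtain ⟨q, hq, hqd⟩ := Nat.exists_prime_and_dvd h1
        exact ⟨q, Nat.mem_primeFactors.mpr ⟨hq, hqd, Nat.card_pos.ne'⟩⟩
      set p := (Nat.card G).primeFactors.max' hne with hpdef
      have hpm : p ∈ (Nat.card G).primeFactors := Finset.max'_mem _ hne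
      have hp : p.Prime := Nat.prime_of_mem_primeFactors hpm
      have hpd : p ∣ Nat.card G := Nat.dvd_of_mem_primeFactors hpm
      have hmax : ∀ q : ℕ, q.Prime → q ∣ Nat.card G → q ≤ p := fun q hq hqd =>
        Finset.le_max' _ _ (Nat.mem_primeFactors.mpr ⟨hq, hqd, Nat.card_pos.ne'⟩)
      obtain ⟨N, hNn, hNc⟩ := Cfsg.Agent.S0529.exists_normal_largest (Nat.card G) G le_rfl hG p hp hpd hmax
      by_cases hc : c ≤ p
      · rw [rc_quotient c N hp (k := 1) (by rw [hNc, pow_one]) hc,
          rp_quotient c N hp (k := 1) (by rw [hNc, pow_one]) hc,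
          ih (G ⧸ N) ?_ (CfsgLib.Super.quotient hG N)]
        have h3 : Nat.card N * Nat.card (G ⧸ N) = Nat.card G := card_mul_index N
        have h4 : 0 < Nat.card (G ⧸ N) := Nat.card_pos
        have h5 := hp.one_lt
        rw [hNc] at h3
        nlinarith
      · have h2 : ∀ q : ℕ, q.Prime → q ∣ Nat.card G → q < c := fun q hq hqd =>
          lt_of_le_of_lt (hmax q hq hqd) (not_le.mp hc)
        rw [rc_eq_one c h2, rp_eq_one c _ h2]

theorem solvable_of_rc (n : ℕ) : ∀ (G : Type u) [Group G] [Finite G], Nat.card G ≤ n →
    (∀ c, rc c G = rp c (Nat.card G)) → Group.IsSolvable G := by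
  induction n with
  | zero =>
    intro G _ _ hn
    have : 0 < Nat.card G := Nat.card_pos
    omega
  | succ n ih =>
    intro G _ _ hn hG
    by_cases h1 : Nat.card G = 1
    · haveI : Subsingleton G := (Nat.card_eq_one_iff_unique.mp h1).1
      infer_instance
    · have hne : (Nat.card G).primeFactors.Nonempty := by
        obtain ⟨q, hq, hqd⟩ := Nat.exists_prime_and_dvd h1
        exact ⟨q, Nat.mem_primeFactors.mpr ⟨hq, hqd, Nat.card_pos.ne'⟩⟩
      set p := (Nat.card G).primeFactors.max' hne with hpdef
      have hpm : p ∈ (Nat.card G).primeFactors := Finset.max'_mem _ hne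
      have hp : p.Prime := Nat.prime_of_mem_primeFactors hpm
      have hpd : p ∣ Nat.card G := Nat.dvd_of_mem_primeFactors hpm
      have hmax : ∀ q : ℕ, q.Prime → q ∣ Nat.card G → q ≤ p := fun q hq hqd =>
        Finset.le_max' _ _ (Nat.mem_primeFactors.mpr ⟨hq, hqd, Nat.card_pos.ne'⟩)
      haveI : Fact p.Prime := ⟨hp⟩
      obtain ⟨P⟩ := (inferInstance : Nonempty (Sylow p G))
      have hPn : (P : Subgroup G).Normal := by
        refine normal_of_card P (fun m => ∀ q : ℕ, q.Prime → q ∣ m → p ≤ q) ?_ ?_
        · intro k q hq hqd
          exact ((Nat.prime_dvd_prime_iff_eq hq hp).mp (hq.dvd_of_dvd_pow hqd)).ge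
        · refine (hG p).le.trans ?_
          have h2 : Nat.card G = p ^ (Nat.card G).factorization p *
              (Nat.card G / p ^ (Nat.card G).factorization p) :=
            (Nat.ordProj_mul_ordCompl_eq_self _ _).symm
          have hne0 : Nat.card G / p ^ (Nat.card G).factorization p ≠ 0 :=
            (Nat.ordCompl_pos p Nat.card_pos.ne').ne'
          have h3 : rp p (Nat.card G / p ^ (Nat.card G).factorization p) = 1 := by
            apply rp_eq_one
            intro q hq hqd
            have h4 : q ∣ Nat.card G := hqd.trans (Nat.ordCompl_dvd _ _)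
            rcases lt_or_eq_of_le (hmax q hq h4) with h5 | h5
            · exact h5
            · exfalso
              rw [h5] at hqd
              exact Nat.not_dvd_ordCompl hp Nat.card_pos.ne' hqd
          have h6 : rp p (Nat.card G) = p ^ (Nat.card G).factorization p := by
            conv_lhs => rw [h2]
            rw [rp_mul p (pow_ne_zero _ hp.ne_zero) hne0, h3, mul_one, rp_prime_pow p hp,
              if_pos le_rfl]
          exact h6.le
      have hPc : Nat.card (P : Subgroup G) = p ^ (Nat.card G).factorization p :=
        P.card_eq_multiplicity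
      have hcm : Nat.card (P : Subgroup G) * Nat.card (G ⧸ (P : Subgroup G)) = Nat.card G :=
        card_mul_index _
      have hPgt : 1 < Nat.card (P : Subgroup G) := by
        rw [hPc]
        exact Nat.one_lt_pow (Nat.Prime.factorization_pos_of_dvd hp Nat.card_pos.ne' hpd).ne'
          hp.one_lt
      have hsq : Group.IsSolvable (G ⧸ (P : Subgroup G)) := by
        apply ih
        · have h4 : 0 < Nat.card (G ⧸ (P : Subgroup G)) := Nat.card_pos
          nlinarith
        · intro c
          by_cases hc : c ≤ p
          · have h2 := hG c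
            rw [rc_quotient c (P : Subgroup G) hp hPc hc, rp_quotient c (P : Subgroup G) hp hPc hc] at h2
            exact Nat.eq_of_mul_eq_mul_left (by omega) h2
          · have h2 : ∀ q : ℕ, q.Prime → q ∣ Nat.card (G ⧸ (P : Subgroup G)) → q < c :=
              fun q hq hqd =>
                lt_of_le_of_lt (hmax q hq (hqd.trans (by rw [← hcm]; exact dvd_mul_left _ _)))
                  (not_le.mp hc)
            rw [rc_eq_one c h2, rp_eq_one c _ h2]
      haveI : Group.IsNilpotent (P : Subgroup G) := P.isPGroup'.isNilpotent
      haveI : Group.IsSolvable (P : Subgroup G) := inferInstance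
      exact Group.isSolvable_of_ker_le_range (P : Subgroup G).subtype (QuotientGroup.mk' (P : Subgroup G)) (by simp)

/-- Let G and H be finite groups with the same order type (for every m the same number of elements of order m). If G is supersolvable then H is solvable. -/
theorem result {G H : Type*} [Group G] [Finite G] [Group H] [Finite H] (hT : (∀ m : ℕ, Nat.card {g : G // orderOf g = m} = Nat.card {h : H // orderOf h = m})) (hG : Cfsg.IsSupersolvable G) :
    Group.IsSolvable H := by
  refine solvable_of_rc (Nat.card H) H le_rfl fun c => ?_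
  rw [← card_eq hT, ← rc_of_supersolvable (Nat.card G) G le_rfl hG c]
  exact (card_pred_eq hT (fun m => ∀ q : ℕ, q.Prime → q ∣ m → c ≤ q)).symm

end Cfsg.Agent.S3998
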