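import Cfsg.Statements.S4002
import Cfsg.Agent.LibFgEppo

set_option autoImplicit false
open Cfsg

namespace Cfsg.Agent.S4002

set_option linter.style.haveILetI false
set_option linter.unusedSectionVars false
set_option linter.unusedVariables false

theorem exists_three (n : ℕ) (hn : 7 ≤ n) : ∃ p q r : ℕ, p.Prime ∧ q.Prime ∧ r.Prime ∧ p < q ∧ q < r ∧ r ≤ n ∧ n < p * q := by
  by_cases h1 : n ≤ 14
  · exact ⟨3, 5, 7, by norm_num, by norm_num, by norm_num, by norm_num, by norm_num, by omega, by omega⟩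
  by_cases h2 : n ≤ 34
  · exact ⟨5, 7, 11, by norm_num, by norm_num, by norm_num, by norm_num, by norm_num, by omega, by omega⟩
  by_cases h3 : n ≤ 76
  · exact ⟨7, 11, 13, by norm_num, by norm_num, by norm_num, by norm_num, by norm_num, by omega, by omega⟩
  have hm : 8 ≤ Nat.sqrt n := by
    rw [Nat.le_sqrt]; omega
  have hm1 := Nat.sqrt_le n
  have hm2 := Nat.sqrt_lt_self (show 1 < n by omega)
  have hm3 : n < (Nat.sqrt n + 1) * (Nat.sqrt n + 1) := Nat.sqrt_lt.mp (Nat.lt_succ_self _)
  set m := Nat.sqrt n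
  obtain ⟨p, hp, hp1, hp2⟩ := Nat.exists_prime_lt_and_le_two_mul m (by omega)
  obtain ⟨q, hq, hq1, hq2⟩ := Nat.exists_prime_lt_and_le_two_mul (2 * m) (by omega)
  obtain ⟨r, hr, hr1, hr2⟩ := Nat.exists_prime_lt_and_le_two_mul (2 * (2 * m)) (by omega)
  refine ⟨p, q, r, hp, hq, hr, by omega, by omega, ?_, ?_⟩
  · nlinarith
  · calc n < (m + 1) * (m + 1) := hm3
      _ ≤ p * q := Nat.mul_le_mul (by omega) (by omega)

/-- If the set of element orders of a finite group G is {1, 2, …, n} with n ≥ 7, then G is not solvable. -/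
theorem result {G : Type*} [Group G] [Finite G] (n : ℕ) (hn : 7 ≤ n) (h : Set.range (orderOf : G → ℕ) = {k : ℕ | 1 ≤ k ∧ k ≤ n}) : ¬ Group.IsSolvable G := by
  intro hs
  obtain ⟨p, q, r, hp, hq, hr, hpq, hqr, hrn, hn'⟩ := exists_three n hn
  have hmem : ∀ s : ℕ, s.Prime → s ≤ n → s ∣ Nat.card G := by
    intro s hs hsn
    have : s ∈ Set.range (orderOf : G → ℕ) := by rw [h]; exact ⟨hs.one_lt.le, hsn⟩
    obtain ⟨g, hg⟩ := this
    rw [← hg]; exact orderOf_dvd_natCard g
  have hcard : ({p, q, r} : Finset ℕ).card = 3 := by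
    rw [Finset.card_eq_three]
    exact ⟨p, q, r, by omega, by omega, by omega, rfl⟩
  obtain ⟨s, hs', t, ht, hst, g, hg⟩ := CfsgLib.FgEppo.three_primes (G := G) {p, q, r} (by rw [hcard]; norm_num)
    (by intro s hs; simp only [Finset.mem_insert, Finset.mem_singleton] at hs; rcases hs with rfl | rfl | rfl <;> assumption)
    (by intro s hs; simp only [Finset.mem_insert, Finset.mem_singleton] at hs; rcases hs with rfl | rfl | rfl
        · exact hmem _ hp (by omega)
        · exact hmem _ hq (by omega)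
        · exact hmem _ hr (by omega))
  have h1 : orderOf g ∈ Set.range (orderOf : G → ℕ) := ⟨g, rfl⟩
  rw [h, hg] at h1
  have h2 : s * t ≤ n := h1.2
  simp only [Finset.mem_insert, Finset.mem_singleton] at hs' ht
  have p0 := hp.pos
  rcases hs' with rfl | rfl | rfl <;> rcases ht with rfl | rfl | rfl <;> first | exact absurd rfl hst | nlinarith

end Cfsg.Agent.S4002
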