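import Cfsg.Statements.S4003
import Cfsg.Agent.LibFgCnt

set_option autoImplicit false
open Cfsg

namespace Cfsg.Agent.S4003

set_option linter.style.haveILetI false
set_option linter.unusedSectionVars false
set_option linter.unusedVariables false

open CfsgLib.FgCnt

section
variable {G : Type*} [Group G] [Finite G] {p s m : ℕ} [hp : Fact p.Prime]

theorem crt (hm : Nat.Coprime p m) (s : ℕ) : ∃ a b : ℕ, a ≡ 1 [MOD p ^ s] ∧ a ≡ 0 [MOD m] ∧ b ≡ 0 [MOD p ^ s] ∧ b ≡ 1 [MOD m] := by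
  have hc : Nat.Coprime (p ^ s) m := Nat.Coprime.pow_left s hm
  exact ⟨Nat.chineseRemainder hc 1 0, Nat.chineseRemainder hc 0 1, (Nat.chineseRemainder hc 1 0).2.1,
    (Nat.chineseRemainder hc 1 0).2.2, (Nat.chineseRemainder hc 0 1).2.1, (Nat.chineseRemainder hc 0 1).2.2⟩

/-- pairs (cyclic subgroup of order `p^s`, element of order `m` centralizing it) -/
def TT (G : Type*) [Group G] (p s m : ℕ) : Set (Subgroup G × G) :=
  {q | IsCyclic q.1 ∧ Nat.card q.1 = p ^ s ∧ orderOf q.2 = m ∧ q.2 ∈ Subgroup.centralizer (q.1 : Set G)}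

theorem card_TT (hm : Nat.Coprime p m) (hs : 0 < s) (hm0 : 0 < m) :
    Nat.card {g : G // orderOf g = p ^ s * m} = Nat.card (TT G p s m) * Nat.totient (p ^ s) := by
  obtain ⟨a, b, ha1, ha2, hb1, hb2⟩ := crt (p := p) hm s
  have hc : Nat.Coprime (p ^ s) m := Nat.Coprime.pow_left s hm
  have hab : a + b ≡ 1 [MOD p ^ s * m] := by
    rw [← Nat.modEq_and_modEq_iff_modEq_mul hc]
    exact ⟨ha1.add hb1, ha2.add hb2⟩
  have hpos : 0 < p ^ s := pow_pos hp.out.pos s
  have key : ∀ g : G, orderOf g = p ^ s * m → orderOf (g ^ a) = p ^ s ∧ orderOf (g ^ b) = m ∧ g ^ a * g ^ b = g := by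
    intro g hg
    have h1 : orderOf (g ^ a) ∣ p ^ s := by
      apply orderOf_dvd_of_pow_eq_one
      rw [← pow_mul]
      apply orderOf_dvd_iff_pow_eq_one.mp
      rw [hg, mul_comm a]
      exact Nat.mul_dvd_mul_left _ (Nat.modEq_zero_iff_dvd.mp ha2)
    have h2 : orderOf (g ^ b) ∣ m := by
      apply orderOf_dvd_of_pow_eq_one
      rw [← pow_mul]
      apply orderOf_dvd_iff_pow_eq_one.mp
      rw [hg]
      exact Nat.mul_dvd_mul_right (Nat.modEq_zero_iff_dvd.mp hb1) _
    have h3 : g ^ a * g ^ b = g := by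
      rw [← pow_add]
      have : g ^ (a + b) = g ^ 1 := by
        rw [pow_eq_pow_iff_modEq, hg]; exact hab
      rwa [pow_one] at this
    have hcop : Nat.Coprime (orderOf (g ^ a)) (orderOf (g ^ b)) := Nat.Coprime.coprime_dvd_left h1 (Nat.Coprime.coprime_dvd_right h2 hc)
    have h4 : orderOf (g ^ a) * orderOf (g ^ b) = p ^ s * m := by
      rw [← hg, ← (Commute.pow_pow (Commute.refl g) a b).orderOf_mul_eq_mul_orderOf_of_coprime hcop, h3]
    obtain ⟨u, hu⟩ := h1
    obtain ⟨v, hv⟩ := h2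
    have p1 := orderOf_pos (g ^ a)
    have p2 := orderOf_pos (g ^ b)
    have h5 : u * v = 1 := by
      have h6 : (orderOf (g ^ a) * orderOf (g ^ b)) * (u * v) = (orderOf (g ^ a) * orderOf (g ^ b)) * 1 := by
        calc (orderOf (g ^ a) * orderOf (g ^ b)) * (u * v) = (orderOf (g ^ a) * u) * (orderOf (g ^ b) * v) := by ring
          _ = p ^ s * m := by rw [← hu, ← hv]
          _ = _ := by rw [h4, mul_one]
      exact Nat.eq_of_mul_eq_mul_left (Nat.mul_pos p1 p2) h6
    have hu1 : u = 1 := Nat.eq_one_of_mul_eq_one_right h5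
    have hv1 : v = 1 := Nat.eq_one_of_mul_eq_one_left h5
    rw [hu1, mul_one] at hu
    rw [hv1, mul_one] at hv
    exact ⟨hu.symm, hv.symm, h3⟩
  let f : {g : G // orderOf g = p ^ s * m} → TT G p s m := fun g =>
    ⟨(Subgroup.zpowers (g.1 ^ a), g.1 ^ b), inferInstance, by
      rw [Nat.card_zpowers]; exact (key g.1 g.2).1, (key g.1 g.2).2.1, by
      change g.1 ^ b ∈ Subgroup.centralizer ((Subgroup.zpowers (g.1 ^ a) : Subgroup G) : Set G)
      rw [Subgroup.mem_centralizer_iff]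
      rintro _ ⟨k, rfl⟩
      exact ((Commute.pow_pow (Commute.refl g.1) a b).zpow_left k).eq⟩
  apply card_eq_mul_of_fiber f
  rintro ⟨⟨C, y⟩, hC, hCc, hy, hyC⟩
  change IsCyclic C at hC
  change Nat.card C = p ^ s at hCc
  change orderOf y = m at hy
  change y ∈ Subgroup.centralizer (C : Set G) at hyC
  refine Eq.trans ?_ (show Nat.card {x : G // Subgroup.zpowers x = C} = Nat.totient (p ^ s) by rw [card_gen C hC, hCc])
  have mk : ∀ x : G, Subgroup.zpowers x = C → orderOf (x * y) = p ^ s * m ∧ (x * y) ^ a = x ∧ (x * y) ^ b = y := by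
    intro x hx
    have hxo : orderOf x = p ^ s := by rw [← Nat.card_zpowers, hx, hCc]
    have hxy : Commute x y := Subgroup.mem_centralizer_iff.mp hyC x (hx ▸ Subgroup.mem_zpowers x)
    refine ⟨?_, ?_, ?_⟩
    · rw [hxy.orderOf_mul_eq_mul_orderOf_of_coprime, hxo, hy]
      rw [hxo, hy]; exact hc
    · rw [hxy.mul_pow]
      have h1 : y ^ a = 1 := orderOf_dvd_iff_pow_eq_one.mp (by rw [hy]; exact Nat.modEq_zero_iff_dvd.mp ha2)
      have h2 : x ^ a = x ^ 1 := by rw [pow_eq_pow_iff_modEq, hxo]; exact ha1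
      rw [h1, h2, mul_one, pow_one]
    · rw [hxy.mul_pow]
      have h1 : x ^ b = 1 := orderOf_dvd_iff_pow_eq_one.mp (by rw [hxo]; exact Nat.modEq_zero_iff_dvd.mp hb1)
      have h2 : y ^ b = y ^ 1 := by rw [pow_eq_pow_iff_modEq, hy]; exact hb2
      rw [h1, h2, one_mul, pow_one]
  apply Nat.card_congr
  refine ⟨fun g => ⟨g.1.1 ^ a, ?_⟩, fun x => ⟨⟨x.1 * y, (mk x.1 x.2).1⟩, ?_⟩, fun g => ?_, fun x => ?_⟩
  · exact congrArg (fun q : TT G p s m => q.1.1) g.2
  · apply Subtype.ext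
    change (Subgroup.zpowers ((x.1 * y) ^ a), (x.1 * y) ^ b) = (C, y)
    rw [(mk x.1 x.2).2.1, (mk x.1 x.2).2.2, x.2]
  · apply Subtype.ext; apply Subtype.ext
    change g.1.1 ^ a * y = g.1.1
    have h1 : g.1.1 ^ b = y := congrArg (fun q : TT G p s m => q.1.2) g.2
    exact (congrArg (fun z => g.1.1 ^ a * z) h1).symm.trans (key g.1.1 g.1.2).2.2
  · apply Subtype.ext
    exact (mk x.1 x.2).2.1

/-- cyclic subgroups of order `p^s` of `P`, with a dummy component -/
def SS (P : Subgroup G) (p s : ℕ) : Set (Subgroup G × G) :=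
  {q | IsCyclic q.1 ∧ Nat.card q.1 = p ^ s ∧ q.1 ≤ P ∧ q.2 = 1}

theorem card_SS (P : Subgroup G) :
    Nat.card {g : P // orderOf g = p ^ s} = Nat.card (SS P p s) * Nat.totient (p ^ s) := by
  let f : {g : P // orderOf g = p ^ s} → SS P p s := fun g =>
    ⟨(Subgroup.zpowers (g.1 : G), 1), inferInstance, by
      rw [Nat.card_zpowers, Subgroup.orderOf_coe]; exact g.2, by
      change Subgroup.zpowers (g.1 : G) ≤ P
      rw [Subgroup.zpowers_le]; exact g.1.2, rfl⟩
  apply card_eq_mul_of_fiber f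
  rintro ⟨⟨C, y⟩, hC, hCc, hCP, hy⟩
  change IsCyclic C at hC
  change Nat.card C = p ^ s at hCc
  change y = 1 at hy
  change C ≤ P at hCP
  subst hy
  refine Eq.trans ?_ (show Nat.card {x : G // Subgroup.zpowers x = C} = Nat.totient (p ^ s) by rw [card_gen C hC, hCc])
  apply Nat.card_congr
  refine ⟨fun g => ⟨(g.1.1 : G), ?_⟩, fun x => ⟨⟨⟨x.1, hCP ?_⟩, ?_⟩, ?_⟩, fun g => ?_, fun x => ?_⟩
  · exact congrArg (fun q : SS P p s => q.1.1) g.2
  · have := Subgroup.mem_zpowers x.1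
    rwa [x.2] at this
  · rw [Subgroup.orderOf_mk, ← Nat.card_zpowers, x.2]; exact hCc
  · apply Subtype.ext
    change (Subgroup.zpowers x.1, (1 : G)) = (C, 1)
    rw [x.2]
  · rfl
  · rfl

theorem map_conj_card (g : G) (C : Subgroup G) : Nat.card (C.map (MulAut.conj g).toMonoidHom) = Nat.card C :=
  Subgroup.card_map_of_injective (MulAut.conj g).injective

theorem map_conj_cyclic (g : G) (C : Subgroup G) (h : IsCyclic C) : IsCyclic (C.map (MulAut.conj g).toMonoidHom) :=
  isCyclic_of_surjective _ (C.equivMapOfInjective (MulAut.conj g).toMonoidHom (MulAut.conj g).injective).surjective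

end

/-- Let G be a finite group, p an odd prime dividing the order of G whose Sylow p-subgroups are not cyclic, and n = p^s·m with s > 1 and m coprime to p. Then the number of elements of G of order n is a multiple of p^s. -/
theorem result {G : Type*} [Group G] [Finite G] (p : ℕ) [Fact p.Prime] (hodd : p ≠ 2) (hpG : p ∣ Nat.card G)
    (P : Sylow p G) (hP : ¬ IsCyclic ↥(P : Subgroup G)) (s m : ℕ) (hs : 1 < s) (hm : Nat.Coprime p m) :
    p ^ s ∣ Nat.card {g : G // orderOf g = p ^ s * m} := by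
  have hpp := (inferInstance : Fact p.Prime).out
  rcases Nat.eq_zero_or_pos m with rfl | hm0
  · rw [mul_zero]
    have : IsEmpty {g : G // orderOf g = 0} := ⟨fun g => (orderOf_pos g.1).ne' g.2⟩
    rw [Nat.card_of_isEmpty]; exact dvd_zero _
  have h1 := card_TT (G := G) (p := p) (s := s) (m := m) hm (by omega) hm0
  have h2 := mod_conj (P : Subgroup G) P.isPGroup' (TT G p s m) (by
    rintro g hg C y ⟨hC, hCc, hy, hyC⟩
    refine ⟨map_conj_cyclic g C hC, (map_conj_card g C).trans hCc, ?_, ?_⟩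
    · change orderOf (g * y * g⁻¹) = m
      have := MulEquiv.orderOf_eq (MulAut.conj g) y
      rw [MulAut.conj_apply] at this
      rw [this]; exact hy
    · change g * y * g⁻¹ ∈ Subgroup.centralizer ((C.map (MulAut.conj g).toMonoidHom : Subgroup G) : Set G)
      rw [Subgroup.mem_centralizer_iff]
      rintro _ ⟨c, hc, rfl⟩
      change (g * c * g⁻¹) * (g * y * g⁻¹) = (g * y * g⁻¹) * (g * c * g⁻¹)
      have h3 : c * y = y * c := Subgroup.mem_centralizer_iff.mp hyC c hc
      calc (g * c * g⁻¹) * (g * y * g⁻¹) = g * (c * y) * g⁻¹ := by group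
        _ = g * (y * c) * g⁻¹ := by rw [h3]
        _ = _ := by group)
  have h3 := mod_conj (P : Subgroup G) P.isPGroup' (SS (P : Subgroup G) p s) (by
    rintro g hg C y ⟨hC, hCc, hCP, hy⟩
    change y = 1 at hy
    subst hy
    refine ⟨map_conj_cyclic g C hC, (map_conj_card g C).trans hCc, ?_, ?_⟩
    · change C.map (MulAut.conj g).toMonoidHom ≤ P
      rintro _ ⟨c, hc, rfl⟩
      exact mul_mem (mul_mem hg (hCP hc)) (inv_mem hg)
    · change g * 1 * g⁻¹ = 1
      group)
  have h4 : p ∣ Nat.card (SS (P : Subgroup G) p s) := by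
    have h5 := dvd_card_pgroup hodd P.isPGroup' hP hs
    rw [card_SS] at h5
    obtain ⟨r, rfl⟩ : ∃ r, s = r + 1 := ⟨s - 1, by omega⟩
    rw [Nat.totient_prime_pow_succ hpp, pow_succ'] at h5
    have h6 : p ^ r * p ∣ p ^ r * (Nat.card (SS (P : Subgroup G) p (r + 1)) * (p - 1)) := by
      refine dvd_trans (dvd_of_eq ?_) (dvd_trans h5 (dvd_of_eq ?_)) <;> ring
    have h7 := Nat.dvd_of_mul_dvd_mul_left (pow_pos hpp.pos r) h6
    rcases (Nat.Prime.dvd_mul hpp).mp h7 with h8 | h8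
    · exact h8
    · exfalso
      have := Nat.le_of_dvd (by have := hpp.two_le; omega) h8
      have := hpp.two_le
      omega
  -- compare fixed points
  have h5 : Nat.card {q : Subgroup G × G // q ∈ TT G p s m ∧ (P : Subgroup G) ≤ Subgroup.normalizer (q.1 : Set G) ∧
      q.2 ∈ Subgroup.centralizer ((P : Subgroup G) : Set G)} =
      Nat.card {q : Subgroup G × G // q ∈ SS (P : Subgroup G) p s ∧ (P : Subgroup G) ≤ Subgroup.normalizer (q.1 : Set G) ∧
      q.2 ∈ Subgroup.centralizer ((P : Subgroup G) : Set G)} * Nat.card {y : G // orderOf y = m ∧ y ∈ Subgroup.centralizer ((P : Subgroup G) : Set G)} := by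
    rw [← Nat.card_prod]
    have hle : ∀ C : Subgroup G, Nat.card C = p ^ s → (P : Subgroup G) ≤ Subgroup.normalizer (C : Set G) → C ≤ P := by
      intro C hC hPC
      have hCp : IsPGroup p C := IsPGroup.of_card hC
      have h6 : IsPGroup p (C ⊔ (P : Subgroup G) : Subgroup G) := hCp.to_sup_of_normal_left' P.isPGroup' hPC
      have h7 := P.is_maximal' h6 le_sup_right
      exact h7 ▸ le_sup_left
    apply Nat.card_congr
    refine ⟨fun q => (⟨(q.1.1, 1), ⟨q.2.1.1, q.2.1.2.1, hle _ q.2.1.2.1 q.2.2.1, rfl⟩, q.2.2.1, one_mem _⟩,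
        ⟨q.1.2, q.2.1.2.2.1, q.2.2.2⟩),
      fun q => ⟨(q.1.1.1, q.2.1), ⟨q.1.2.1.1, q.1.2.1.2.1, q.2.2.1,
        Subgroup.centralizer_le q.1.2.1.2.2.1 q.2.2.2⟩, q.1.2.2.1, q.2.2.2⟩, fun q => rfl, fun q => ?_⟩
    apply Prod.ext
    · apply Subtype.ext
      apply Prod.ext
      · rfl
      · exact q.1.2.1.2.2.2.symm
    · rfl
  have h6 : p ∣ Nat.card (TT G p s m) := by
    rw [← Nat.modEq_zero_iff_dvd] at h4 ⊢
    refine h2.trans ?_
    rw [h5]
    have := (h3.symm.trans h4).mul_right (Nat.card {y : G // orderOf y = m ∧ y ∈ Subgroup.centralizer ((P : Subgroup G) : Set G)})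
    rwa [zero_mul] at this
  rw [h1]
  obtain ⟨r, rfl⟩ : ∃ r, s = r + 1 := ⟨s - 1, by omega⟩
  rw [Nat.totient_prime_pow_succ hpp, pow_succ']
  exact Nat.mul_dvd_mul h6 (Dvd.intro _ rfl)

end Cfsg.Agent.S4003
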