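import Cfsg.Statements.S4004
import Cfsg.Agent.LibFgOrd2

set_option autoImplicit false
open Cfsg

namespace Cfsg.Agent.S4004

set_option linter.style.haveILetI false
set_option linter.unusedSectionVars false
set_option linter.unusedVariables false

open CfsgLib.FgOrd CfsgLib.FgFpf CfsgLib.FPF1

section
variable {G : Type*} [Group G] [Finite G]

theorem mem_core {p q : ℕ} (hp : p.Prime) (hq : q.Prime) (hpq : p ≠ q)
    (hpr : ∀ r : ℕ, r.Prime → r ∣ Nat.card G → r = p ∨ r = q) (P : Sylow p G) {y : G} (hy : orderOf y = q)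
    (hyC : y ∈ Subgroup.centralizer ((P : Subgroup G) : Set G)) : y ∈ Cfsg.pCore q G := by
  have : Fact p.Prime := ⟨hp⟩
  have : Fact q.Prime := ⟨hq⟩
  have hs := solvable_of_primes hp hq hpr
  set V := Cfsg.pCore q G with hV
  have hsQ : Group.IsSolvable (G ⧸ V) := inferInstance
  have hF : Cfsg.fittingSubgroup (G ⧸ V) ≤ Cfsg.pCore p (G ⧸ V) := by
    rw [CfsgLib.Cores.fittingSubgroup_eq_iSup_pCore]
    apply iSup_le
    rintro ⟨r, hr⟩
    change Cfsg.pCore r (G ⧸ V) ≤ _
    by_cases hrG : r ∣ Nat.card (G ⧸ V)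
    · rcases hpr r hr (hrG.trans (Subgroup.card_quotient_dvd_card V)) with rfl | rfl
      · exact le_rfl
      · rw [CfsgLib.Cores.pCore_quotient_pCore]; exact bot_le
    · have : Fact r.Prime := ⟨hr⟩
      have h1 : IsPGroup r (Cfsg.pCore r (G ⧸ V)) := CfsgLib.Cores.pCore_isPGroup r
      obtain ⟨k, hk⟩ := IsPGroup.iff_card.mp h1
      have h2 : k = 0 := by
        by_contra hk0
        exact hrG (((dvd_pow_self r hk0).trans (dvd_of_eq hk.symm)).trans (Subgroup.card_subgroup_dvd_card _))
      rw [h2, pow_zero] at hk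
      rw [Subgroup.card_eq_one.mp hk]; exact bot_le
  have hyF : QuotientGroup.mk' V y ∈ Cfsg.fittingSubgroup (G ⧸ V) := by
    apply CfsgLib.Cores.centralizer_fittingSubgroup_le
    rw [Subgroup.mem_centralizer_iff]
    intro f hf
    have h1 : f ∈ (P.mapSurjective (QuotientGroup.mk'_surjective V) : Subgroup (G ⧸ V)) :=
      CfsgLib.Cores.pCore_le_sylow _ (hF hf)
    obtain ⟨x, hx, rfl⟩ := h1
    rw [← map_mul, ← map_mul, Subgroup.mem_centralizer_iff.mp hyC x hx]
  have h1 : QuotientGroup.mk' V y = 1 := by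
    by_contra hne
    have h2 := dvd_orderOf_of_mem hp (CfsgLib.Cores.pCore_isPGroup (G := G ⧸ V) p) (hF hyF) hne
    have h3 : orderOf (QuotientGroup.mk' V y) ∣ q := (orderOf_map_dvd _ y).trans (dvd_of_eq hy)
    exact hpq ((Nat.prime_dvd_prime_iff_eq hp hq).mp (h2.trans h3))
  exact (QuotientGroup.eq_one_iff y).mp h1

theorem lemC {p q : ℕ} (hp : p.Prime) (hq : q.Prime) (hpq : p ≠ q) (hp2 : Odd p) (hq2 : Odd q)
    (hpG : p ∣ Nat.card G)
    (hpr : ∀ r : ℕ, r.Prime → r ∣ Nat.card G → r = p ∨ r = q) (h : cnt G (p * q) = cnt G p) : False := by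
  classical
  have : Fact p.Prime := ⟨hp⟩
  have : Fact q.Prime := ⟨hq⟩
  have hp3 : 3 ≤ p := by
    rcases hp2 with ⟨k, hk⟩
    have := hp.two_le
    omega
  have hq3 : 3 ≤ q := by
    rcases hq2 with ⟨k, hk⟩
    have := hq.two_le
    omega
  obtain ⟨P⟩ := (inferInstance : Nonempty (Sylow p G))
  have h1 := f6 hp hpG ((Nat.coprime_primes hp hq).mpr hpq)
  rw [h] at h1
  have h2 := frob_prime hp hpG
  have h3 : (cnt G q : ℤ) ≡ (1 : ℕ) [ZMOD p] := dvd_sub' (y := cnt G p) (by rwa [add_comm]) h2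
  have h3' : cnt G q ≡ 1 [MOD p] := (Int.natCast_modEq_iff).mp (by simpa using h3)
  have h4 := (cnt_mod (P : Subgroup G) P.isPGroup' q).symm.trans h3'
  have h5 : Nat.card {y : G // orderOf y = q ∧ y ∈ Subgroup.centralizer ((P : Subgroup G) : Set G)} ≠ 0 := by
    intro h0
    rw [h0] at h4
    have := (Nat.modEq_zero_iff_dvd.mp h4.symm)
    exact hp.one_lt.ne' (Nat.dvd_one.mp this)
  obtain ⟨⟨y, hy, hyC⟩⟩ := (Nat.card_ne_zero.mp h5).1
  have hyV := mem_core hp hq hpq hpr P hy hyC
  -- each element of order p commutes with an element of order q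
  have h6 : ∀ x : {x : G // orderOf x = p}, ∃ z : G, orderOf z = q ∧ Commute x.1 z := by
    rintro ⟨x, hx⟩
    obtain ⟨g, hg⟩ := CfsgLib.FgBas.exists_conj_mem P ⟨1, by rw [hx, pow_one]⟩
    refine ⟨g⁻¹ * y * g, ?_, ?_⟩
    · have := MulEquiv.orderOf_eq (MulAut.conj g⁻¹) y
      rw [MulAut.conj_apply, inv_inv] at this
      rw [this, hy]
    · have h7 : (g * x * g⁻¹) * y = y * (g * x * g⁻¹) := Subgroup.mem_centralizer_iff.mp hyC _ hg
      change x * (g⁻¹ * y * g) = (g⁻¹ * y * g) * x
      calc x * (g⁻¹ * y * g) = g⁻¹ * ((g * x * g⁻¹) * y) * g := by group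
        _ = g⁻¹ * (y * (g * x * g⁻¹)) * g := by rw [h7]
        _ = _ := by group
  choose z hz hxz using h6
  obtain ⟨a, b, -, hd⟩ := decomp G ((Nat.coprime_primes hp hq).mpr hpq) hp.pos hq.pos
  let zz : {x : G // orderOf x = p} × Bool → G := fun t => if t.2 then z t.1 else (z t.1)⁻¹
  have hzz : ∀ t, orderOf (zz t) = q ∧ Commute t.1.1 (zz t) := by
    rintro ⟨x, t⟩
    cases t
    · exact ⟨by change orderOf (z x)⁻¹ = q; rw [orderOf_inv, hz], (hxz x).inv_right⟩
    · exact ⟨hz x, hxz x⟩
  let f : {x : G // orderOf x = p} × Bool → {g : G // orderOf g = p * q} := fun t =>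
    ⟨t.1.1 * zz t, (hd _ _ t.1.2 (hzz t).1 (hzz t).2).1⟩
  have hinj : Function.Injective f := by
    rintro ⟨x, s⟩ ⟨x', s'⟩ hf
    have e := congrArg Subtype.val hf
    have e1 := hd _ _ x.2 (hzz (x, s)).1 (hzz (x, s)).2
    have e2 := hd _ _ x'.2 (hzz (x', s')).1 (hzz (x', s')).2
    change x.1 * zz (x, s) = x'.1 * zz (x', s') at e
    have ex : x = x' := by
      apply Subtype.ext
      rw [← e1.2.1, ← e2.2.1, e]
    subst ex
    have ez := mul_left_cancel e
    have hne : z x ≠ (z x)⁻¹ := by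
      intro h0
      have : z x ^ 2 = 1 := by rw [pow_two]; nth_rewrite 1 [h0]; group
      have := orderOf_dvd_of_pow_eq_one this
      rw [hz] at this
      have := Nat.le_of_dvd (by norm_num) this
      omega
    cases s <;> cases s'
    · rfl
    · exact absurd ez.symm hne
    · exact absurd ez hne
    · rfl
  have hle := Nat.card_le_card_of_injective f hinj
  rw [Nat.card_prod] at hle
  have e1 : Nat.card {x : G // orderOf x = p} = cnt G p := rfl
  have e2 : Nat.card {x : G // orderOf x = p * q} = cnt G (p * q) := rfl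
  rw [e1, e2, h, Nat.card_eq_fintype_card, Fintype.card_bool] at hle
  obtain ⟨g, hg⟩ := exists_prime_orderOf_dvd_card' p hpG
  have := cnt_ne_zero_iff.mpr ⟨g, hg⟩
  omega

theorem cj_mul {V : Subgroup G} [V.Normal] (g h : G) (v : V) : cj V (g * h) v = cj V g (cj V h v) := by
  apply Subtype.ext
  rw [coe_cj, coe_cj, coe_cj]; group

theorem norm_formula {V : Subgroup G} [V.Normal] (g : G) (v : V) (n : ℕ) :
    ((v : G) * g) ^ n = (((List.range n).map (fun i => cj V (g ^ i) v)).prod : G) * g ^ n := by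
  induction n with
  | zero => simp
  | succ n ih =>
    rw [pow_succ, ih, List.range_succ, List.map_append, List.prod_append, List.map_singleton, List.prod_singleton,
      Subgroup.coe_mul, coe_cj, pow_succ]
    group

theorem list_prod_eq {M : Type*} [CommMonoid M] (f : ℕ → M) (n : ℕ) :
    ((List.range n).map f).prod = ∏ i ∈ Finset.range n, f i := by
  induction n with
  | zero => simp
  | succ n ih => rw [List.range_succ, List.map_append, List.prod_append, List.map_singleton, List.prod_singleton,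
      Finset.prod_range_succ, ih]

theorem no_frob_module {p q : ℕ} (hp : p.Prime) (hq : q.Prime) (hpq : p ≠ q)
    (Hord : ∀ g : G, orderOf g = 1 ∨ orderOf g = p ∨ orderOf g = q) {V : Subgroup G} [hVn : V.Normal]
    (hVc : ∀ a ∈ V, ∀ b ∈ V, a * b = b * a) (hV : IsPGroup p V) (hV1 : V ≠ ⊥) {b x : G} (hb : orderOf b = q)
    (hx : orderOf x = p) (hxb : x ∈ Subgroup.normalizer (Subgroup.zpowers b : Set G)) : False := by
  have : Fact p.Prime := ⟨hp⟩
  have : Fact q.Prime := ⟨hq⟩
  have hpqord : ∀ g : G, orderOf g ≠ p * q := by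
    intro g hg
    have := hp.two_le
    have := hq.two_le
    rcases Hord g with h | h | h <;> rw [hg] at h <;> nlinarith
  let _ : CommGroup V := { (inferInstance : Group V) with
    mul_comm := fun a b => Subtype.ext (hVc a a.2 b b.2) }
  -- elements of `V g`
  have hcos : ∀ (s : ℕ) (g : G) (v : V), (s = p ∨ s = q) → orderOf g = s → ((v : G) * g) ^ s = 1 := by
    intro s g v hs hg
    have hsp : s.Prime := by rcases hs with rfl | rfl <;> assumption
    by_cases hgV : g ∈ V
    · have hsp' : s = p := by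
        have h1 := dvd_orderOf_of_mem hp hV hgV (fun h => by rw [h, orderOf_one] at hg; exact hsp.one_lt.ne hg)
        rw [hg] at h1
        exact ((Nat.prime_dvd_prime_iff_eq hp hsp).mp h1).symm
      subst hsp'
      have h2 : (v : G) * g ∈ V := mul_mem v.2 hgV
      rcases Hord ((v : G) * g) with h | h | h
      · rw [orderOf_eq_one_iff.mp h, one_pow]
      · exact orderOf_dvd_iff_pow_eq_one.mp (dvd_of_eq h)
      · exfalso
        have h3 := dvd_orderOf_of_mem hp hV h2 (fun h0 => by rw [h0, orderOf_one] at h; exact hq.one_lt.ne h)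
        rw [h] at h3
        exact hpq ((Nat.prime_dvd_prime_iff_eq hp hq).mp h3)
    · have h1 : ∀ n : ℕ, ((v : G) * g) ^ n = 1 → g ^ n ∈ V := by
        intro n hn
        have h2 : QuotientGroup.mk' V (((v : G) * g) ^ n) = 1 := by rw [hn, map_one]
        rw [map_pow, map_mul] at h2
        have h3 : QuotientGroup.mk' V (v : G) = 1 := (QuotientGroup.eq_one_iff _).mpr v.2
        rw [h3, one_mul, ← map_pow] at h2
        exact (QuotientGroup.eq_one_iff _).mp h2
      have h4 : ∀ n : ℕ, orderOf ((v : G) * g) = n → ¬ Nat.Coprime s n := by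
        intro n hn hc
        apply hgV
        have h5 := h1 n (by rw [← hn]; exact pow_orderOf_eq_one _)
        exact CfsgLib.FgBas.mem_of_pow_mem h5 (by rw [hg]; exact hc)
      have h6 : orderOf ((v : G) * g) = s := by
        rcases Hord ((v : G) * g) with h | h | h
        · exact absurd (Nat.coprime_one_right s) (h4 1 h)
        · by_contra hne
          rw [h] at hne
          exact h4 p h ((Nat.coprime_primes hsp hp).mpr (Ne.symm hne))
        · by_contra hne
          rw [h] at hne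
          exact h4 q h ((Nat.coprime_primes hsp hq).mpr (Ne.symm hne))
      exact orderOf_dvd_iff_pow_eq_one.mp (dvd_of_eq h6)
  have hnorm : ∀ (s : ℕ) (g : G) (v : V), (s = p ∨ s = q) → orderOf g = s →
      ∏ i ∈ Finset.range s, cj V (g ^ i) v = 1 := by
    intro s g v hs hg
    have h1 := norm_formula g v s
    rw [hcos s g v hs hg] at h1
    have h2 : g ^ s = 1 := by rw [← hg]; exact pow_orderOf_eq_one g
    rw [h2, mul_one] at h1
    rw [← list_prod_eq]
    exact Subtype.ext h1.symm
  -- the main computation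
  obtain ⟨v, hv⟩ := (Subgroup.ne_bot_iff_exists_ne_one).mp hV1
  have hconj : ∀ j i : ℕ, (b ^ j * x * (b ^ j)⁻¹) ^ i = b ^ j * x ^ i * (b ^ j)⁻¹ := fun j i => conj_pow
  have h1 : ∏ j ∈ Finset.range q, ∏ i ∈ Finset.range p, cj V (b ^ j * x ^ i * (b ^ j)⁻¹) v = 1 := by
    apply Finset.prod_eq_one
    intro j _
    have h2 := hnorm p (b ^ j * x * (b ^ j)⁻¹) v (Or.inl rfl) (by
      rw [CfsgLib.FgBas.orderOf_conj]; exact hx)
    simp only [hconj] at h2
    exact h2
  rw [Finset.prod_comm] at h1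
  obtain ⟨p', hp'⟩ : ∃ p', p = p' + 1 := ⟨p - 1, by have := hp.pos; omega⟩
  have h2 : ∏ i ∈ Finset.range p, ∏ j ∈ Finset.range q, cj V (b ^ j * x ^ i * (b ^ j)⁻¹) v = v ^ q := by
    rw [hp', Finset.prod_range_succ']
    have h3 : ∏ j ∈ Finset.range q, cj V (b ^ j * x ^ 0 * (b ^ j)⁻¹) v = v ^ q := by
      rw [Finset.prod_congr rfl (g := fun _ => v), Finset.prod_const, Finset.card_range]
      intro j _
      rw [pow_zero, mul_one, mul_inv_cancel]
      apply Subtype.ext
      rw [coe_cj]; group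
    rw [h3, Finset.prod_eq_one, one_mul]
    intro i hi
    rw [Finset.mem_range] at hi
    -- b' = b (x^(i+1) b⁻¹ x^(-(i+1)))
    set y := x ^ (i + 1) with hy
    have hyn : y ∈ Subgroup.normalizer (Subgroup.zpowers b : Set G) := pow_mem hxb _
    have hyb : y * b⁻¹ * y⁻¹ ∈ Subgroup.zpowers b :=
      (Subgroup.mem_normalizer_iff.mp hyn _).mp (inv_mem (Subgroup.mem_zpowers b))
    have hcomm : Commute b (y * b⁻¹ * y⁻¹) := by
      obtain ⟨k, hk⟩ := hyb
      rw [← hk]
      exact (Commute.refl b).zpow_right k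
    have hb' : orderOf (b * (y * b⁻¹ * y⁻¹)) = q := by
      have h4 : b * (y * b⁻¹ * y⁻¹) ∈ Subgroup.zpowers b := mul_mem (Subgroup.mem_zpowers b) hyb
      have h5 := Subgroup.orderOf_dvd_natCard _ h4
      rw [Nat.card_zpowers, hb] at h5
      rcases (Nat.dvd_prime hq).mp h5 with h6 | h6
      · exfalso
        rw [orderOf_eq_one_iff] at h6
        have h7 : b * y = y * b := by
          have : b * (y * b⁻¹ * y⁻¹) * (y * b) = y * b := by rw [h6, one_mul]
          rw [← this]; group
        have h8 : orderOf y = p := by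
          rw [hy, Nat.Coprime.orderOf_pow, hx]
          rw [hx]
          exact ((Nat.Prime.coprime_iff_not_dvd hp).mpr (fun hd => by
            have := Nat.le_of_dvd (by omega) hd; omega))
        obtain ⟨z, hz⟩ := mul_order hp hq hpq h7.symm (h8 ▸ dvd_rfl) (hb ▸ dvd_rfl)
        exact hpqord z hz
      · exact h6
    have h4 := hnorm q (b * (y * b⁻¹ * y⁻¹)) (cj V y v) (Or.inr rfl) hb'
    rw [← h4]
    apply Finset.prod_congr rfl
    intro j _
    rw [← cj_mul]
    congr 1
    rw [hcomm.mul_pow, conj_pow, inv_pow]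
    group
  rw [h2] at h1
  have h3 : orderOf v ∣ q := orderOf_dvd_of_pow_eq_one h1
  rw [← Subgroup.orderOf_coe] at h3
  have h4 := dvd_orderOf_of_mem hp hV v.2 (fun h => hv (Subtype.ext h))
  exact hpq ((Nat.prime_dvd_prime_iff_eq hp hq).mp (h4.trans h3))

open Pointwise in
theorem lemE {p q : ℕ} (hp : p.Prime) (hq : q.Prime) (hpq : p ≠ q) (hq2 : q ≠ 2)
    (hpr : ∀ r : ℕ, r.Prime → r ∣ Nat.card G → r = p ∨ r = q) (hqG : q ∣ Nat.card G)
    (Hord : ∀ g : G, orderOf g = 1 ∨ orderOf g = p ∨ orderOf g = q) (hU : Cfsg.pCore p G ≠ ⊥) :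
    ∃ C : Subgroup G, Cfsg.IsFrobeniusComplement C ∧ (Nat.card C).Prime := by
  classical
  have : Fact p.Prime := ⟨hp⟩
  have : Fact q.Prime := ⟨hq⟩
  have hs := solvable_of_primes hp hq hpr
  have hpqord : ∀ g : G, orderOf g ≠ q * p := by
    intro g hg
    have := hp.two_le
    have := hq.two_le
    rcases Hord g with h | h | h <;> rw [hg] at h <;> nlinarith
  obtain ⟨b0, hb0⟩ := exists_prime_orderOf_dvd_card' q hqG
  set N := Cfsg.pCore p G with hNd
  have hNn : N.Normal := inferInstance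
  have hNp : IsPGroup p N := CfsgLib.Cores.pCore_isPGroup (G := G) p
  obtain ⟨T, hT⟩ := (isPGroup_zpowers_prime hb0).exists_le_sylow
  have hFT : FPF (T : Subgroup G) N := fpf_of_orders hq hp hpq.symm hpqord T.isPGroup' hNp
  have hTc : IsCyclic T := hFT.pgroup_cyclic (by rw [Subgroup.normalizer_eq_top]; exact le_top) hU
    hq hq2 T.isPGroup'
  have hTcard : Nat.card T = q := by
    obtain ⟨g, hg⟩ := IsCyclic.exists_ofOrder_eq_natCard (α := T)
    have h1 : q ∣ Nat.card T := by
      have := Subgroup.orderOf_dvd_natCard (T : Subgroup G) (hT (Subgroup.mem_zpowers b0))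
      rwa [hb0] at this
    rw [← hg, ← Subgroup.orderOf_coe] at h1 ⊢
    rcases Hord g with h | h | h
    · rw [h] at h1; exact absurd (Nat.dvd_one.mp h1) hq.ne_one
    · rw [h] at h1; exact absurd ((Nat.prime_dvd_prime_iff_eq hq hp).mp h1) hpq.symm
    · exact h
  have hTb : (T : Subgroup G) = Subgroup.zpowers b0 := by
    refine (Subgroup.eq_of_le_of_card_ge hT ?_).symm
    rw [Nat.card_zpowers, hb0]
    exact hTcard.le
  have hfix : ∀ t ∈ (T : Subgroup G), t ≠ 1 → ∀ v ∈ N, t * v = v * t → v = 1 := fun t ht h1 v hv hc =>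
    FPF.eq_one hFT ht h1 hv hc
  have hb1 : b0 ≠ 1 := fun h => by rw [h, orderOf_one] at hb0; exact hq.one_lt.ne hb0
  have hbT : b0 ∈ (T : Subgroup G) := hT (Subgroup.mem_zpowers b0)
  have hdisjT : Disjoint (T : Subgroup G) N := by
    apply disjoint_iff.mpr
    apply Subgroup.inf_eq_bot_of_coprime
    obtain ⟨j, hj⟩ := IsPGroup.iff_card.mp hNp
    rw [show Nat.card (T : Subgroup G) = q from hTcard, hj]
    exact Nat.Coprime.pow_right _ ((Nat.coprime_primes hq hp).mpr hpq.symm)
  have hK : ∃ K : Subgroup G, K.Normal ∧ K = (T : Subgroup G) ⊔ N := by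
    have hQs : Group.IsSolvable (G ⧸ N) := inferInstance
    have hxN : b0 ∉ N := fun h => hb1 (hfix b0 hbT hb1 b0 h rfl)
    have hnt : Nontrivial (G ⧸ N) := ⟨⟨QuotientGroup.mk' N b0, 1, fun h => hxN ((QuotientGroup.eq_one_iff b0).mp h)⟩⟩
    obtain ⟨M, r, hr, hM, -, hMc, -, hMp⟩ :=
      CfsgLib.SolvMin.exists_minNormal_pgroup_of_solvable (⊤ : Subgroup (G ⧸ N)) top_ne_bot
    have hpd : r ∣ Nat.card (G ⧸ N) := by
      obtain ⟨m, h1⟩ := (Subgroup.ne_bot_iff_exists_ne_one).mp hM.2.1
      have := dvd_orderOf_of_mem hr hMp m.2 (fun h => h1 (Subtype.ext h))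
      exact this.trans (orderOf_dvd_natCard _)
    rcases hpr r hr (hpd.trans (Subgroup.card_quotient_dvd_card N)) with rfl | rfl
    · exfalso
      have := CfsgLib.Cores.le_pCore hM.1 hMp
      rw [CfsgLib.Cores.pCore_quotient_pCore] at this
      exact hM.2.1 (le_bot_iff.mp this)
    · let T' := T.mapSurjective (QuotientGroup.mk'_surjective N)
      have hMT : M ≤ T' := CfsgLib.Cores.normal_le_sylow hM.1 hMp T'
      have hMeq : M = (T' : Subgroup (G ⧸ N)) := by
        apply Subgroup.eq_of_le_of_card_ge hMT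
        have h1 : Nat.card (T' : Subgroup (G ⧸ N)) ∣ r := by
          refine dvd_trans (Subgroup.card_map_dvd (T : Subgroup G) _) (dvd_of_eq hTcard)
        have h2 : Nat.card (T' : Subgroup (G ⧸ N)) ≤ r := Nat.le_of_dvd hr.pos h1
        refine h2.trans ?_
        obtain ⟨m, h1⟩ := (Subgroup.ne_bot_iff_exists_ne_one).mp hM.2.1
        have := dvd_orderOf_of_mem hr hMp m.2 (fun h => h1 (Subtype.ext h))
        exact Nat.le_of_dvd Nat.card_pos (this.trans (Subgroup.orderOf_dvd_natCard _ m.2))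
      refine ⟨M.comap (QuotientGroup.mk' N), hM.1.comap _, ?_⟩
      rw [hMeq]
      change ((T : Subgroup G).map (QuotientGroup.mk' N)).comap _ = _
      rw [Subgroup.comap_map_eq, QuotientGroup.ker_mk']
  obtain ⟨K, hKn, hKe⟩ := hK
  have hsup : Subgroup.normalizer (T : Set G) ⊔ N = ⊤ := by
    have h1 := Sylow.normalizer_sup_eq_top' T (N := K) (hKe ▸ le_sup_left)
    rw [eq_top_iff, ← h1, hKe]
    refine sup_le le_sup_left (sup_le ?_ le_sup_right)
    exact (Subgroup.le_normalizer).trans le_sup_left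
  -- `p` does not divide the order of the normalizer of `T`
  have hnp : ¬ p ∣ Nat.card (Subgroup.normalizer (T : Set G)) := by
    intro hd
    obtain ⟨⟨x, hxN⟩, hx⟩ := exists_prime_orderOf_dvd_card' p hd
    rw [Subgroup.orderOf_mk] at hx
    obtain ⟨V, r, hr, hV, hVN, hVc, -, hVp⟩ := CfsgLib.SolvMin.exists_minNormal_pgroup_of_solvable N hU
    have hVn := hV.1
    have hVc' : ∀ a ∈ V, ∀ b ∈ V, a * b = b * a := fun a ha b hb =>
      congrArg Subtype.val (hVc.is_comm.comm (⟨a, ha⟩ : V) ⟨b, hb⟩)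
    refine no_frob_module hp hq hpq Hord hVc' (hNp.to_le hVN) hV.2.1 hb0 hx ?_
    have e : (T : Set G) = ((T : Subgroup G) : Set G) := rfl
    rw [e, hTb] at hxN
    exact hxN
  have hNT : Subgroup.normalizer (T : Set G) = T := by
    apply (T.is_maximal' (Q := Subgroup.normalizer (T : Set G)) ?_ Subgroup.le_normalizer)
    apply isPGroup_of_primes hq
    intro r hr hrd
    rcases hpr r hr (hrd.trans (Subgroup.card_subgroup_dvd_card _)) with rfl | rfl
    · exact absurd hrd hnp
    · rfl
  refine ⟨T, ⟨?_, ?_, ?_⟩, by rw [show Nat.card (T : Subgroup G) = q from hTcard]; exact hq⟩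
  · intro h
    rw [h] at hbT
    exact hb1 hbT
  · intro h
    apply hU
    rw [eq_bot_iff]
    intro v hv
    exact Subgroup.disjoint_def.mp hdisjT (h ▸ Subgroup.mem_top v) hv
  · intro g hg
    by_contra hne
    apply hg
    rw [← hNT]
    have hcc : Nat.card (MulAut.conj g • (T : Subgroup G) : Subgroup G) = q := by
      exact (Nat.card_congr (Subgroup.equivSMul (MulAut.conj g) (T : Subgroup G)).toEquiv).symm.trans hTcard
    have h1 : Nat.card ((T : Subgroup G) ⊓ (MulAut.conj g • (T : Subgroup G)) : Subgroup G) = q := by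
      have h2 : Nat.card ((T : Subgroup G) ⊓ (MulAut.conj g • (T : Subgroup G)) : Subgroup G) ∣ q :=
        (Subgroup.card_dvd_of_le inf_le_left).trans (dvd_of_eq hTcard)
      rcases (Nat.dvd_prime hq).mp h2 with h3 | h3
      · exact absurd (Subgroup.card_eq_one.mp h3) hne
      · exact h3
    have e1 := Subgroup.eq_of_le_of_card_ge (inf_le_left : (T : Subgroup G) ⊓ (MulAut.conj g • (T : Subgroup G)) ≤ T)
      (by rw [h1]; exact hTcard.le)
    have e2 := Subgroup.eq_of_le_of_card_ge (inf_le_right : (T : Subgroup G) ⊓ (MulAut.conj g • (T : Subgroup G)) ≤ _)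
      (by rw [h1]; exact hcc.le)
    exact (Subgroup.mem_normalizer_iff_map_conj_eq (H := (T : Subgroup G))).mpr (e2.symm.trans e1)

end

/-- Let G be a finite group of odd order in which the numbers of elements of each order that occurs (the numbers #{g : o(g) = m}, m ranging over the element orders of G) take exactly three different values. Then the order of G has at most two prime divisors; and if it has exactly two, then every Sylow subgroup of G for a prime dividing its order has prime exponent, G is a Frobenius group, and some Frobenius complement of G has prime order. -/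
theorem result {G : Type*} [Group G] [Finite G] (hodd : Odd (Nat.card G)) (h : (((fun m : ℕ => Nat.card {g : G // orderOf g = m}) '' Set.range (orderOf : G → ℕ))).ncard = 3) :
    (Nat.card G).primeFactors.card ≤ 2 ∧
      ((Nat.card G).primeFactors.card = 2 →
        (∀ (p : ℕ) [Fact p.Prime] (P : Sylow p G), p ∣ Nat.card G → Monoid.exponent ↥(P : Subgroup G) = p) ∧
        ∃ C : Subgroup G, Cfsg.IsFrobeniusComplement C ∧ (Nat.card ↥C).Prime) := by
  classical
  obtain ⟨a, b, hab, ha1, hb1, hv⟩ := exists_vals h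
  have h3 : ∀ m, 2 < m → cnt G m ≠ 0 → cnt G m = a ∨ cnt G m = b := by
    intro m hm hc
    refine (hv m hc).resolve_left (fun h1 => ?_)
    have := even_cnt (G := G) hm
    rw [h1] at this
    exact absurd this (by decide)
  have hodd3 : ∀ m, Odd m → m ≠ 1 → 2 < m := by rintro m ⟨k, rfl⟩ hm; omega
  have hT : TwoVal G a b := fun m hm hm1 hc => h3 m (hodd3 m hm hm1) hc
  refine ⟨hT.two_primes hodd, fun htwo => ?_⟩
  obtain ⟨p, q, hpq, hpqs⟩ := Finset.card_eq_two.mp htwo
  have hp' : p ∈ (Nat.card G).primeFactors := by rw [hpqs]; simp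
  have hq' : q ∈ (Nat.card G).primeFactors := by rw [hpqs]; simp
  rw [Nat.mem_primeFactors] at hp' hq'
  obtain ⟨hp, hpG, -⟩ := hp'
  obtain ⟨hq, hqG, -⟩ := hq'
  have hpr : ∀ r : ℕ, r.Prime → r ∣ Nat.card G → r = p ∨ r = q := by
    intro r hr hrG
    have : r ∈ (Nat.card G).primeFactors := Nat.mem_primeFactors.mpr ⟨hr, hrG, Nat.card_pos.ne'⟩
    rw [hpqs] at this
    simpa using this
  have hp2 : Odd p := hodd.of_dvd_nat hpG
  have hq2 : Odd q := hodd.of_dvd_nat hqG
  have hne := hT.ne hodd hp hq hpq hpG hqG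
  have hcne : ∀ r : ℕ, r.Prime → r ∣ Nat.card G → cnt G r ≠ 0 := by
    intro r hr hrG
    have : Fact r.Prime := ⟨hr⟩
    obtain ⟨g, hg⟩ := exists_prime_orderOf_dvd_card' r hrG
    exact cnt_ne_zero_iff.mpr ⟨g, hg⟩
  -- values are `N(p)` and `N(q)`
  have hval : ∀ m, Odd m → m ≠ 1 → cnt G m ≠ 0 → cnt G m = cnt G p ∨ cnt G m = cnt G q := by
    intro m hm hm1 hc
    have h1 := hT m hm hm1 hc
    have h2 := hT p hp2 hp.ne_one (hcne p hp hpG)
    have h4 := hT q hq2 hq.ne_one (hcne q hq hqG)
    rcases h1 with h1 | h1 <;> rcases h2 with h2 | h2 <;> rcases h4 with h4 | h4 <;> simp_all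
  have hpq0 : cnt G (p * q) = 0 := by
    by_contra hc
    rcases hval (p * q) (hp2.mul hq2) (by
      intro h; have := Nat.eq_one_of_mul_eq_one_right h; exact hp.one_lt.ne' this) hc with h1 | h1
    · exact lemC hp hq hpq hp2 hq2 hpG hpr h1
    · rw [mul_comm] at h1
      exact lemC hq hp hpq.symm hq2 hp2 hqG (fun r hr hrG => (hpr r hr hrG).symm) h1
  -- no elements of order `p^2`
  have hsq : ∀ p q : ℕ, p.Prime → q.Prime → p ≠ q → Odd p → Odd q → p ∣ Nat.card G → q ∣ Nat.card G →
      (∀ m, Odd m → m ≠ 1 → cnt G m ≠ 0 → cnt G m = cnt G p ∨ cnt G m = cnt G q) → cnt G (p * q) = 0 →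
      cnt G (p ^ 2) = 0 := by
    intro p q hp hq hpq hp2 hq2 hpG hqG hval hpq0
    by_contra hc
    have h1 : p ∣ cnt G (p ^ 2) := by
      refine dvd_trans ?_ (totient_dvd_cnt (p ^ 2))
      rw [Nat.totient_prime_pow_succ hp, pow_one]
      exact Dvd.intro _ rfl
    rcases hval (p ^ 2) (hp2.pow) (by
        intro h0
        have := (Nat.pow_eq_one).mp h0
        have := hp.one_lt
        omega) hc with h2 | h2
    · rw [h2] at h1
      have := (Nat.dvd_add_left h1).mp (frob_prime hp hpG)
      exact hp.one_lt.ne' (Nat.dvd_one.mp this)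
    · have h4 := f6 hq hqG (m := p ^ 2) (Nat.Coprime.pow_right 2 ((Nat.coprime_primes hq hp).mpr hpq.symm))
      have h5 : cnt G (q * p ^ 2) = 0 := by
        by_contra h0
        obtain ⟨g, hg⟩ := cnt_ne_zero_iff.mp h0
        obtain ⟨g', hg'⟩ := exists_orderOf_dvd (G := G) (g := g) (m := p * q) (by
          rw [hg]; exact ⟨p, by ring⟩)
        exact cnt_ne_zero_iff.mpr ⟨g', hg'⟩ hpq0
      rw [h5, zero_add, h2] at h4
      have := (Nat.dvd_add_left h4).mp (frob_prime hq hqG)
      exact hq.one_lt.ne' (Nat.dvd_one.mp this)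
  have hp0 := hsq p q hp hq hpq hp2 hq2 hpG hqG hval hpq0
  have hq0 := hsq q p hq hp hpq.symm hq2 hp2 hqG hpG (fun m h1 h2 h3 => (hval m h1 h2 h3).symm) (by rw [mul_comm]; exact hpq0)
  -- element orders
  have Hord : ∀ g : G, orderOf g = 1 ∨ orderOf g = p ∨ orderOf g = q := by
    intro g
    have nd : ∀ m, cnt G m = 0 → ¬ m ∣ orderOf g := by
      intro m hm hd
      obtain ⟨g', hg'⟩ := exists_orderOf_dvd hd
      exact cnt_ne_zero_iff.mpr ⟨g', hg'⟩ hm
    by_cases h1 : orderOf g = 1
    · exact Or.inl h1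
    · right
      obtain ⟨r, hr, hrg⟩ := Nat.exists_prime_and_dvd h1
      have key : ∀ p q : ℕ, p.Prime → q.Prime → p ≠ q → (∀ r : ℕ, r.Prime → r ∣ Nat.card G → r = p ∨ r = q) →
          cnt G (p * q) = 0 → cnt G (p ^ 2) = 0 → p ∣ orderOf g → orderOf g = p := by
        intro p q hp hq hpq hpr hpq0 hp0 hpg
        obtain ⟨k, hk⟩ := hpg
        have hk1 : k = 1 := by
          by_contra hk1
          obtain ⟨s, hs, hsk⟩ := Nat.exists_prime_and_dvd hk1
          have hsg : p * s ∣ orderOf g := by rw [hk]; exact Nat.mul_dvd_mul_left p hsk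
          rcases hpr s hs (((Dvd.intro_left _ rfl : s ∣ p * s).trans hsg).trans (orderOf_dvd_natCard g)) with rfl | rfl
          · exact nd _ hp0 (by rwa [pow_two])
          · exact nd _ hpq0 hsg
        rw [hk, hk1, mul_one]
      rcases hpr r hr (hrg.trans (orderOf_dvd_natCard g)) with rfl | rfl
      · exact Or.inl (key r q hp hq hpq hpr hpq0 hp0 hrg)
      · exact Or.inr (key r p hq hp hpq.symm (fun s hs hsG => (hpr s hs hsG).symm) (by rw [mul_comm]; exact hpq0) hq0 hrg)
  constructor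
  · intro r hr P hrG
    apply Nat.dvd_antisymm
    · apply Monoid.exponent_dvd_of_forall_pow_eq_one
      intro g
      apply Subtype.ext
      rw [Subgroup.coe_pow, Subgroup.coe_one]
      by_cases hg1 : (g : G) = 1
      · rw [hg1, one_pow]
      · have h1 := dvd_orderOf_of_mem hr.out P.isPGroup' g.2 hg1
        have h2 : orderOf (g : G) = r := by
          rcases Hord g with h | h | h
          · exact absurd (orderOf_eq_one_iff.mp h) hg1
          · rw [h] at h1 ⊢; exact ((Nat.prime_dvd_prime_iff_eq hr.out hp).mp h1).symm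
          · rw [h] at h1 ⊢; exact ((Nat.prime_dvd_prime_iff_eq hr.out hq).mp h1).symm
        exact orderOf_dvd_iff_pow_eq_one.mp (dvd_of_eq h2)
    · obtain ⟨x, hx⟩ := exists_prime_orderOf_dvd_card' (G := P) r (P.dvd_card_of_dvd_card hrG)
      exact (dvd_of_eq hx.symm).trans (Monoid.order_dvd_exponent x)
  · have hs := solvable_of_primes hp hq hpr
    obtain ⟨x, hx⟩ := cnt_ne_zero_iff.mp (hcne p hp hpG)
    have : Nontrivial G := ⟨x, 1, fun h => by rw [h, orderOf_one] at hx; exact hp.one_lt.ne hx⟩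
    obtain ⟨M, r, hr, hM, -, hMc, -, hMp⟩ :=
      CfsgLib.SolvMin.exists_minNormal_pgroup_of_solvable (⊤ : Subgroup G) top_ne_bot
    have hrG : r ∣ Nat.card G := by
      obtain ⟨m, h1⟩ := (Subgroup.ne_bot_iff_exists_ne_one).mp hM.2.1
      exact (dvd_orderOf_of_mem hr hMp m.2 (fun h => h1 (Subtype.ext h))).trans (orderOf_dvd_natCard _)
    have hU : Cfsg.pCore r G ≠ ⊥ := fun h0 => hM.2.1 (le_bot_iff.mp (h0 ▸ CfsgLib.Cores.le_pCore hM.1 hMp))
    rcases hpr r hr hrG with rfl | rfl
    · exact lemE hp hq hpq (by rintro rfl; exact absurd hq2 (by decide)) hpr hqG Hord hU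
    · exact lemE hq hp hpq.symm (by rintro rfl; exact absurd hp2 (by decide)) (fun s hs hsG => (hpr s hs hsG).symm) hpG
        (fun g => by rcases Hord g with h | h | h
                     · exact Or.inl h
                     · exact Or.inr (Or.inr h)
                     · exact Or.inr (Or.inl h)) hU

end Cfsg.Agent.S4004
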