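import Cfsg.Statements.S4005
import Cfsg.Agent.LibFgFpf2

set_option autoImplicit false
open Cfsg

namespace Cfsg.Agent.S4005

set_option linter.style.haveILetI false
set_option linter.unusedSectionVars false
set_option linter.unusedVariables false

open CfsgLib.FgFpf CfsgLib.FPF1

/-- A finite group whose set of element orders is exactly {1, 2, 3} has either a normal elementary abelian 3-subgroup of index 2 or a normal elementary abelian 2-subgroup of index 3. -/
theorem result {G : Type*} [Group G] [Finite G] (h : Set.range (orderOf : G → ℕ) = {k : ℕ | 1 ≤ k ∧ k ≤ 3}) :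
    (∃ N : Subgroup G, N.Normal ∧ Cfsg.IsElementaryAbelian 3 N ∧ N.index = 2) ∨
      (∃ N : Subgroup G, N.Normal ∧ Cfsg.IsElementaryAbelian 2 N ∧ N.index = 3) := by
  classical
  have : Fact (Nat.Prime 3) := ⟨Nat.prime_three⟩
  have : Fact (Nat.Prime 2) := ⟨Nat.prime_two⟩
  have hord : ∀ g : G, 1 ≤ orderOf g ∧ orderOf g ≤ 3 := fun g => by
    have h1 : orderOf g ∈ Set.range (orderOf : G → ℕ) := ⟨g, rfl⟩
    rw [h] at h1; exact h1
  have h6 : ∀ g : G, orderOf g ≠ 6 := fun g hg => by have := hord g; omega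
  have h9 : ∀ g : G, orderOf g ≠ 9 := fun g hg => by have := hord g; omega
  have hpr : ∀ r : ℕ, r.Prime → r ∣ Nat.card G → r = 2 ∨ r = 3 := by
    intro r hr hrd
    have : Fact r.Prime := ⟨hr⟩
    obtain ⟨g, hg⟩ := exists_prime_orderOf_dvd_card' r hrd
    have h1 := hord g
    have h2 := hr.two_le
    omega
  obtain ⟨x, hx⟩ : ∃ x : G, orderOf x = 3 := by
    have : (3 : ℕ) ∈ Set.range (orderOf : G → ℕ) := by rw [h]; exact ⟨by norm_num, by norm_num⟩
    exact this
  obtain ⟨t, ht⟩ : ∃ x : G, orderOf x = 2 := by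
    have : (2 : ℕ) ∈ Set.range (orderOf : G → ℕ) := by rw [h]; exact ⟨by norm_num, by norm_num⟩
    exact this
  have hp2 : ∀ S : Subgroup G, IsPGroup 2 S → ∀ g ∈ S, g ^ 2 = 1 := by
    intro S hS g hg
    by_cases h1 : g = 1
    · rw [h1, one_pow]
    · have h2 := dvd_orderOf_of_mem Nat.prime_two hS hg h1
      have h3 := hord g
      have h4 : orderOf g = 2 := by omega
      rw [← h4, pow_orderOf_eq_one]
  have hp3 : ∀ S : Subgroup G, IsPGroup 3 S → ∀ g ∈ S, g ^ 3 = 1 := by
    intro S hS g hg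
    by_cases h1 : g = 1
    · rw [h1, one_pow]
    · have h2 := dvd_orderOf_of_mem Nat.prime_three hS hg h1
      have h3 := hord g
      have h4 : orderOf g = 3 := by omega
      rw [← h4, pow_orderOf_eq_one]
  have hcomm2 : ∀ S : Subgroup G, IsPGroup 2 S → ∀ g ∈ S, ∀ k ∈ S, g * k = k * g := by
    intro S hS g hg k hk
    have h1 := hp2 S hS g hg
    have h2 := hp2 S hS k hk
    have h3 := hp2 S hS (g * k) (mul_mem hg hk)
    have e1 : g⁻¹ = g := by rw [inv_eq_iff_mul_eq_one, ← pow_two, h1]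
    have e2 : k⁻¹ = k := by rw [inv_eq_iff_mul_eq_one, ← pow_two, h2]
    have e3 : (g * k)⁻¹ = g * k := by rw [inv_eq_iff_mul_eq_one, ← pow_two, h3]
    rw [← e3, mul_inv_rev, e1, e2]
  by_cases hN3 : Cfsg.pCore 3 G = ⊥
  · right
    have hs := isSolvable hpr
    have hne := core2_ne_bot hpr hN3 (x := x) (fun h1 => by rw [h1, orderOf_one] at hx; omega)
    have hC := centralizer_le hpr h6 (Or.inr ⟨rfl, rfl⟩) hne
    have hNp := CfsgLib.Cores.pCore_isPGroup (G := G) 2
    refine ⟨Cfsg.pCore 2 G, inferInstance, ⟨⟨⟨fun a b => Subtype.ext (hcomm2 _ hNp a a.2 b b.2)⟩⟩, hp2 _ hNp⟩, ?_⟩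
    obtain ⟨-, h36⟩ := core2_struct hpr h6 h9 hN3 hx
    rcases h36 with h3 | ⟨h3, -⟩
    · exact h3
    · exfalso
      obtain ⟨S⟩ := (inferInstance : Nonempty (Sylow 2 G))
      have h1 : (S : Subgroup G) ≤ Cfsg.pCore 2 G := by
        refine le_trans ?_ hC
        intro s hs
        rw [Subgroup.mem_centralizer_iff]
        intro v hv
        exact hcomm2 S S.isPGroup' v (CfsgLib.Cores.pCore_le_sylow S hv) s hs
      apply S.not_dvd_index
      have h2 : (Cfsg.pCore 2 G) = S := le_antisymm (CfsgLib.Cores.pCore_le_sylow S) h1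
      rw [← h2, h3]; norm_num
  · left
    obtain ⟨hcomm, k, hk⟩ := core3_struct hpr h6 hN3 ht
    have hNp := CfsgLib.Cores.pCore_isPGroup (G := G) 3
    refine ⟨Cfsg.pCore 3 G, inferInstance, ⟨⟨⟨fun a b => Subtype.ext (hcomm a a.2 b b.2)⟩⟩, hp3 _ hNp⟩, ?_⟩
    obtain ⟨S, hS⟩ := (isPGroup_zpowers_prime ht).exists_le_sylow
    have h1 := card_sylow_eq Nat.prime_three (by norm_num) hNp hk S
    rw [← h1]
    have hf : FPF (S : Subgroup G) (Cfsg.pCore 3 G) :=
      fpf_of_orders Nat.prime_two Nat.prime_three (by norm_num) h6 S.isPGroup' hNp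
    have hcyc : IsCyclic S := hf.isCyclic_of_comm (by rw [Subgroup.normalizer_eq_top]; exact le_top) hN3
      ⟨⟨fun a b => Subtype.ext (hcomm2 _ S.isPGroup' a a.2 b b.2)⟩⟩
    obtain ⟨g, hg⟩ := IsCyclic.exists_ofOrder_eq_natCard (α := S)
    have h2 : orderOf (g : G) ∣ 2 := orderOf_dvd_of_pow_eq_one (hp2 _ S.isPGroup' g g.2)
    rw [Subgroup.orderOf_coe, hg] at h2
    have h3 : 2 ∣ Nat.card S := by
      have := Subgroup.orderOf_dvd_natCard (S : Subgroup G) (hS (Subgroup.mem_zpowers t))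
      rwa [ht] at this
    exact Nat.dvd_antisymm h2 h3

end Cfsg.Agent.S4005
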