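import Cfsg.Statements.S4006
import Cfsg.Agent.LibFgFpf2

set_option autoImplicit false
open Cfsg

namespace Cfsg.Agent.S4006

set_option linter.style.haveILetI false
set_option linter.unusedSectionVars false
set_option linter.unusedVariables false

open CfsgLib.FgFpf CfsgLib.FPF1
open scoped commutatorElement

theorem iso_S3 {Q : Type*} [Group Q] [Finite Q] (hc : Nat.card Q = 6) {x t : Q} (hx3 : x ^ 3 = 1) (hx1 : x ≠ 1)
    (ht2 : t ^ 2 = 1) (ht1 : t ≠ 1) (htx : t * x * t⁻¹ = x⁻¹) : Nonempty (Q ≃* Equiv.Perm (Fin 3)) := by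
  classical
  have hto : orderOf t = 2 := orderOf_eq_prime ht2 ht1
  set H := Subgroup.zpowers t
  have hH : Nat.card H = 2 := by rw [Nat.card_zpowers, hto]
  have hidx : H.index = 3 := by
    have := Subgroup.card_mul_index H
    rw [hH, hc] at this; omega
  have hcore : H.normalCore = ⊥ := by
    by_contra hne
    have h1 : H.normalCore = H := by
      apply Subgroup.eq_of_le_of_card_ge (Subgroup.normalCore_le H)
      rw [hH]
      have := (Subgroup.one_lt_card_iff_ne_bot _).mpr hne
      exact this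
    have hn : H.Normal := h1 ▸ inferInstance
    have h2 : x * t * x⁻¹ ∈ H := hn.conj_mem t (Subgroup.mem_zpowers t) x
    rw [← mem_powers_iff_mem_zpowers, mem_powers_iff_mem_range_orderOf, hto] at h2
    obtain ⟨i, hi, hie⟩ := Finset.mem_image.mp h2
    rw [Finset.mem_range] at hi
    have h3 : t * x = x * t := by
      interval_cases i
      · exfalso
        rw [pow_zero] at hie
        apply ht1
        have : x⁻¹ * (x * t * x⁻¹) * x = 1 := by rw [← hie]; group
        simpa [mul_assoc] using this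
      · rw [pow_one, eq_mul_inv_iff_mul_eq] at hie
        exact hie
    have h4 : x = x⁻¹ := by rw [← htx, h3]; group
    have h5 : x ^ 2 = 1 := by
      rw [pow_two]; nth_rewrite 1 [h4]; group
    apply hx1
    rw [pow_succ, h5, one_mul] at hx3
    exact hx3
  have hinj : Function.Injective (MulAction.toPermHom Q (Q ⧸ H)) := by
    rw [← MonoidHom.ker_eq_bot_iff, ← Subgroup.normalCore_eq_ker]; exact hcore
  have hcq : Nat.card (Q ⧸ H) = 3 := hidx
  have hcp : Nat.card (Equiv.Perm (Q ⧸ H)) = 6 := by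
    rw [Nat.card_perm, hcq]; rfl
  have hbij : Function.Bijective (MulAction.toPermHom Q (Q ⧸ H)) :=
    (Nat.bijective_iff_injective_and_card _).mpr ⟨hinj, by rw [hc, hcp]⟩
  have e1 : Q ≃* Equiv.Perm (Q ⧸ H) := MulEquiv.ofBijective _ hbij
  have e2 : (Q ⧸ H) ≃ Fin 3 := Finite.equivFinOfCardEq hcq
  exact ⟨e1.trans (e2.permCongrHom)⟩

theorem class_le_two {N : Type*} [Group N] (h : ∀ a b c : N, ⁅a, ⁅b, c⁆⁆ = 1) :
    Group.nilpotencyClass N ≤ 2 := by
  have h1 : Subgroup.lowerCentralSeries (⊤ : Subgroup N) 2 = ⊥ := by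
    change ⁅⁅(⊤ : Subgroup N), ⊤⁆, ⊤⁆ = ⊥
    rw [Subgroup.commutator_eq_bot_iff_le_centralizer, Subgroup.commutator_le]
    intro a _ b _
    rw [Subgroup.mem_centralizer_iff]
    intro c _
    exact commutatorElement_eq_one_iff_mul_comm.mp (h c a b)
  have : Group.IsNilpotent N := Subgroup.nilpotent_iff_lowerCentralSeries.mpr ⟨2, h1⟩
  exact Subgroup.lowerCentralSeries_eq_bot_iff_nilpotencyClass_le.mp h1

/-- A finite group whose set of element orders is exactly {1, 2, 3, 4} has a normal subgroup N such that either N is a 2-group of exponent 4 and nilpotency class at most 2 with G/N of order 3, or N is an elementary abelian 2-group with G/N isomorphic to the symmetric group of degree 3, or N is an elementary abelian 3-group with G/N cyclic of order 4 or quaternion of order 8. -/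
theorem result {G : Type*} [Group G] [Finite G] (h : Set.range (orderOf : G → ℕ) = {k : ℕ | 1 ≤ k ∧ k ≤ 4}) :
    ∃ (N : Subgroup G) (_ : N.Normal),
      (IsPGroup 2 ↥N ∧ Monoid.exponent ↥N = 4 ∧ Group.nilpotencyClass ↥N ≤ 2 ∧ N.index = 3) ∨
      (Cfsg.IsElementaryAbelian 2 N ∧ Nonempty (G ⧸ N ≃* Equiv.Perm (Fin 3))) ∨
      (Cfsg.IsElementaryAbelian 3 N ∧ ((IsCyclic (G ⧸ N) ∧ N.index = 4) ∨ Nonempty (G ⧸ N ≃* QuaternionGroup 2))) := by
  classical
  have : Fact (Nat.Prime 3) := ⟨Nat.prime_three⟩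
  have : Fact (Nat.Prime 2) := ⟨Nat.prime_two⟩
  have hord : ∀ g : G, 1 ≤ orderOf g ∧ orderOf g ≤ 4 := fun g => by
    have h1 : orderOf g ∈ Set.range (orderOf : G → ℕ) := ⟨g, rfl⟩
    rw [h] at h1; exact h1
  have h6 : ∀ g : G, orderOf g ≠ 6 := fun g hg => by have := hord g; omega
  have h9 : ∀ g : G, orderOf g ≠ 9 := fun g hg => by have := hord g; omega
  have hpr : ∀ r : ℕ, r.Prime → r ∣ Nat.card G → r = 2 ∨ r = 3 := by
    intro r hr hrd
    have : Fact r.Prime := ⟨hr⟩
    obtain ⟨g, hg⟩ := exists_prime_orderOf_dvd_card' r hrd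
    have h1 := hord g
    have h2 := hr.two_le
    have h3 : r ≠ 4 := by rintro rfl; norm_num at hr
    omega
  obtain ⟨x, hx⟩ : ∃ x : G, orderOf x = 3 := by
    have : (3 : ℕ) ∈ Set.range (orderOf : G → ℕ) := by rw [h]; exact ⟨by norm_num, by norm_num⟩
    exact this
  obtain ⟨t, ht⟩ : ∃ x : G, orderOf x = 2 := by
    have : (2 : ℕ) ∈ Set.range (orderOf : G → ℕ) := by rw [h]; exact ⟨by norm_num, by norm_num⟩
    exact this
  obtain ⟨y, hy⟩ : ∃ x : G, orderOf x = 4 := by
    have : (4 : ℕ) ∈ Set.range (orderOf : G → ℕ) := by rw [h]; exact ⟨by norm_num, by norm_num⟩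
    exact this
  have hp2 : ∀ S : Subgroup G, IsPGroup 2 S → ∀ g ∈ S, g ^ 4 = 1 := by
    intro S hS g hg
    by_cases h1 : g = 1
    · rw [h1, one_pow]
    · have h2 := dvd_orderOf_of_mem Nat.prime_two hS hg h1
      have h3 := hord g
      have h4 : orderOf g = 2 ∨ orderOf g = 4 := by omega
      rcases h4 with h4 | h4
      · rw [show (4 : ℕ) = 2 * 2 from rfl, pow_mul]; nth_rewrite 1 [← h4]; rw [pow_orderOf_eq_one, one_pow]
      · nth_rewrite 1 [← h4]; rw [pow_orderOf_eq_one]
  have hp3 : ∀ S : Subgroup G, IsPGroup 3 S → ∀ g ∈ S, g ^ 3 = 1 := by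
    intro S hS g hg
    by_cases h1 : g = 1
    · rw [h1, one_pow]
    · have h2 := dvd_orderOf_of_mem Nat.prime_three hS hg h1
      have h3 := hord g
      have h4 : orderOf g = 3 := by omega
      nth_rewrite 1 [← h4]; rw [pow_orderOf_eq_one]
  have x3 : x ^ 3 = 1 := by have := pow_orderOf_eq_one x; rwa [hx] at this
  have x1 : x ≠ 1 := fun h1 => by rw [h1, orderOf_one] at hx; omega
  by_cases hN3 : Cfsg.pCore 3 G = ⊥
  · have hNp := CfsgLib.Cores.pCore_isPGroup (G := G) 2
    obtain ⟨hfix, h36⟩ := core2_struct hpr h6 h9 hN3 hx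
    refine ⟨Cfsg.pCore 2 G, inferInstance, ?_⟩
    rcases h36 with h3 | ⟨h3, t, ht, htx⟩
    · left
      have h3N : ¬ 3 ∣ Nat.card (Cfsg.pCore 2 G) := by
        obtain ⟨k, hk⟩ := IsPGroup.iff_card.mp hNp
        rw [hk]
        intro h
        have := Nat.prime_three.dvd_of_dvd_pow h
        omega
      have hyN : y ∈ Cfsg.pCore 2 G := by
        rw [← QuotientGroup.eq_one_iff, ← orderOf_eq_one_iff]
        have h1 : orderOf (y : G ⧸ Cfsg.pCore 2 G) ∣ 3 := by rw [← h3]; exact orderOf_dvd_natCard _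
        have h2 : orderOf (y : G ⧸ Cfsg.pCore 2 G) ∣ 4 := by
          rw [← hy]; exact orderOf_map_dvd (QuotientGroup.mk' (Cfsg.pCore 2 G)) y
        have h4 := Nat.dvd_gcd h1 h2
        exact Nat.dvd_one.mp (by simpa using h4)
      refine ⟨hNp, ?_, ?_, h3⟩
      · apply Nat.dvd_antisymm
        · apply Monoid.exponent_dvd_of_forall_pow_eq_one
          intro g
          exact Subtype.ext (by rw [Subgroup.coe_pow, hp2 _ hNp g g.2, Subgroup.coe_one])
        · have := Monoid.order_dvd_exponent (⟨y, hyN⟩ : Cfsg.pCore 2 G)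
          rw [Subgroup.orderOf_mk, hy] at this
          exact this
      · apply class_le_two
        intro a b c
        exact Subtype.ext (amb_class_two x3 hfix h3N a.2 b.2 c.2)
    · right; left
      have t2 : t ^ 2 = 1 := by rw [← ht, pow_orderOf_eq_one]
      have t1 : t ≠ 1 := fun h1 => by rw [h1, orderOf_one] at ht; omega
      have hsq : ∀ v ∈ Cfsg.pCore 2 G, v ^ 2 = 1 := fun v hv => sq_eq_one hNp x3 t2 htx hfix (by
        intro s v hv hs
        have hvs : s * v * s⁻¹ * v ∈ Cfsg.pCore 2 G :=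
          mul_mem ((inferInstance : (Cfsg.pCore 2 G).Normal).conj_mem v hv s) hv
        have h4 := hp2 _ hNp _ hvs
        have e : s⁻¹ = s := by rw [inv_eq_iff_mul_eq_one, ← pow_two, hs]
        have h5 : (s * v) ^ 2 = s * v * s⁻¹ * v := by rw [e, pow_two]; group
        rw [← h5]
        -- order of s v
        have h6' : ((s * v) ^ 2) ^ 4 = 1 := by rw [h5]; exact h4
        rw [← pow_mul] at h6' ⊢
        have h7 := orderOf_dvd_of_pow_eq_one h6'
        have h8 := hord (s * v)
        have h10 : orderOf (s * v) ≠ 3 := fun h => by rw [h] at h7; norm_num at h7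
        have h11 : orderOf (s * v) ∣ 2 * 2 := by
          have : orderOf (s * v) = 1 ∨ orderOf (s * v) = 2 ∨ orderOf (s * v) = 4 := by omega
          rcases this with h | h | h <;> rw [h] <;> norm_num
        exact orderOf_dvd_iff_pow_eq_one.mp h11) hv
      have hcomm : ∀ g ∈ Cfsg.pCore 2 G, ∀ k ∈ Cfsg.pCore 2 G, g * k = k * g := by
        intro g hg k hk
        have h1 := hsq g hg
        have h2 := hsq k hk
        have h3 := hsq (g * k) (mul_mem hg hk)
        have e1 : g⁻¹ = g := by rw [inv_eq_iff_mul_eq_one, ← pow_two, h1]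
        have e2 : k⁻¹ = k := by rw [inv_eq_iff_mul_eq_one, ← pow_two, h2]
        have e3 : (g * k)⁻¹ = g * k := by rw [inv_eq_iff_mul_eq_one, ← pow_two, h3]
        rw [← e3, mul_inv_rev, e1, e2]
      refine ⟨⟨⟨⟨fun a b => Subtype.ext (hcomm a a.2 b b.2)⟩⟩, hsq⟩, ?_⟩
      let π := QuotientGroup.mk' (Cfsg.pCore 2 G)
      have hxN : x ∉ Cfsg.pCore 2 G := fun h => x1 (hfix x h rfl)
      have htN : t ∉ Cfsg.pCore 2 G := by
        intro h
        have hxx : x * t * x⁻¹ ∈ Cfsg.pCore 2 G := (inferInstance : (Cfsg.pCore 2 G).Normal).conj_mem t h x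
        have h1 : t * (x * t * x⁻¹) ∈ Cfsg.pCore 2 G := mul_mem h hxx
        have e : t⁻¹ = t := by rw [inv_eq_iff_mul_eq_one, ← pow_two, t2]
        have h2 : t * (x * t * x⁻¹) = x := by
          calc t * (x * t * x⁻¹) = t * x * t * x⁻¹ := by group
            _ = t * x * t⁻¹ * x⁻¹ := by rw [e]
            _ = x⁻¹ * x⁻¹ := by rw [htx]
            _ = x⁻¹ * x⁻¹ * x ^ 3 := by rw [x3, mul_one]
            _ = x := by rw [pow_succ, pow_two]; group
        rw [h2] at h1
        exact hxN h1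
      exact iso_S3 (Q := G ⧸ Cfsg.pCore 2 G) (x := π x) (t := π t) h3 (by rw [← map_pow, x3, map_one])
        (fun h => hxN ((QuotientGroup.eq_one_iff x).mp h)) (by rw [← map_pow, t2, map_one])
        (fun h => htN ((QuotientGroup.eq_one_iff t).mp h)) (by rw [← map_mul, ← map_inv, ← map_mul, htx, map_inv])
  · obtain ⟨hcomm, k, hk⟩ := core3_struct hpr h6 hN3 ht
    have hNp := CfsgLib.Cores.pCore_isPGroup (G := G) 3
    refine ⟨Cfsg.pCore 3 G, inferInstance, Or.inr (Or.inr ⟨⟨⟨⟨fun a b => Subtype.ext (hcomm a a.2 b b.2)⟩⟩, hp3 _ hNp⟩, ?_⟩)⟩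
    obtain ⟨S, hS⟩ := (CfsgLib.FgBas.isPGroup_zpowers (p := 2) (k := 2) (x := y) (by rw [hy]; norm_num)).exists_le_sylow
    have h1 := card_sylow_eq Nat.prime_three (by norm_num) hNp hk S
    have hc := complement_sylow Nat.prime_three (by norm_num) hNp hk S
    have e : G ⧸ Cfsg.pCore 3 G ≃* S := hc.symm.QuotientMulEquiv
    have hf : FPF (S : Subgroup G) (Cfsg.pCore 3 G) :=
      fpf_of_orders Nat.prime_two Nat.prime_three (by norm_num) h6 S.isPGroup' hNp
    have h3 : 4 ∣ Nat.card S := by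
      have := Subgroup.orderOf_dvd_natCard (S : Subgroup G) (hS (Subgroup.mem_zpowers y))
      rwa [hy] at this
    have key : IsCyclic S → (IsCyclic (G ⧸ Cfsg.pCore 3 G) ∧ (Cfsg.pCore 3 G).index = 4) := by
      intro hcyc
      refine ⟨isCyclic_of_surjective e.symm e.symm.surjective, ?_⟩
      rw [← h1]
      obtain ⟨g, hg⟩ := IsCyclic.exists_ofOrder_eq_natCard (α := S)
      have h2 : orderOf (g : G) ∣ 4 := orderOf_dvd_of_pow_eq_one (hp2 _ S.isPGroup' g g.2)
      rw [Subgroup.orderOf_coe, hg] at h2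
      exact Nat.dvd_antisymm h2 h3
    rcases hf.two_group (by rw [Subgroup.normalizer_eq_top]; exact le_top) hN3 S.isPGroup' with hcyc | ⟨n, ⟨f⟩⟩
    · exact Or.inl (key hcyc)
    · have h2 : orderOf (f.symm (QuaternionGroup.a 1)) = 2 * 2 ^ n := by
        rw [MulEquiv.orderOf_eq, QuaternionGroup.orderOf_a_one]
      rw [← Subgroup.orderOf_coe] at h2
      have h4 := hord (f.symm (QuaternionGroup.a 1) : S)
      rw [h2] at h4
      have hn : n ≤ 1 := by
        by_contra hn
        have : 2 ^ 2 ≤ 2 ^ n := Nat.pow_le_pow_right (by norm_num) (by omega)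
        omega
      interval_cases n
      · left
        apply key
        have : IsCyclic (QuaternionGroup (2 ^ 0)) := by
          rw [pow_zero]; exact QuaternionGroup.quaternionGroup_one_isCyclic
        exact isCyclic_of_surjective f.symm f.symm.surjective
      · right
        exact ⟨e.trans f⟩

end Cfsg.Agent.S4006
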