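import Cfsg.Statements.S4200
import Mathlib
import Cfsg.Agent.LibH6Basic

set_option autoImplicit false
open Cfsg

namespace Cfsg.Agent.S4200

open CfsgLib.H6


/-- Let Y be a subgroup of the finite group X, of index m. Then the numbers of conjugacy classes satisfy k(Y) ≤ m·k(X) and k(X) ≤ m·k(Y), and the second inequality is strict unless Y is normal in X. -/
theorem result {X : Type*} [Group X] [Finite X] (Y : Subgroup X) : Nat.card (ConjClasses Y) ≤ Y.index * Nat.card (ConjClasses X) ∧ Nat.card (ConjClasses X) ≤ Y.index * Nat.card (ConjClasses Y) ∧ (¬ Y.Normal → Nat.card (ConjClasses X) < Y.index * Nat.card (ConjClasses Y)) := by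
  classical
  have := Fintype.ofFinite X
  have hpos : 0 < Nat.card Y := Nat.card_pos
  have hcm : Nat.card Y * Y.index = Nat.card X := Subgroup.card_mul_index Y
  have hipos : 0 < Y.index := Nat.pos_of_ne_zero Subgroup.index_ne_zero_of_finite
  -- number of commuting pairs
  have hX : Nat.card (ConjClasses X) * Nat.card X = ∑ x : X, Nat.card (Subgroup.centralizer ({x} : Set X)) := by
    rw [← card_comm_eq_card_conjClasses_mul_card, Nat.card_eq_fintype_card]
    have e : {p : X × X // Commute p.1 p.2} ≃ (Σ x : X, Subgroup.centralizer ({x} : Set X)) :=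
      { toFun := fun p => ⟨p.1.1, ⟨p.1.2, mem_cent.mpr p.2.symm.eq⟩⟩
        invFun := fun s => ⟨(s.1, s.2.1), (mem_cent.mp s.2.2).symm⟩
        left_inv := fun p => rfl
        right_inv := fun s => rfl }
    rw [Fintype.card_congr e, Fintype.card_sigma]
    simp only [Nat.card_eq_fintype_card]
  have hY : Nat.card (ConjClasses Y) * Nat.card Y = ∑ y : Y, Nat.card (Subgroup.centralizer ({(y : X)} : Set X) ⊓ Y : Subgroup X) := by
    rw [← card_comm_eq_card_conjClasses_mul_card, Nat.card_eq_fintype_card]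
    have e : {p : Y × Y // Commute p.1 p.2} ≃ (Σ y : Y, (Subgroup.centralizer ({(y : X)} : Set X) ⊓ Y : Subgroup X)) :=
      { toFun := fun p => ⟨p.1.1, ⟨(p.1.2 : X), Subgroup.mem_inf.mpr ⟨mem_cent.mpr (congrArg Subtype.val p.2.symm.eq), p.1.2.2⟩⟩⟩
        invFun := fun s => ⟨(s.1, ⟨s.2.1, (Subgroup.mem_inf.mp s.2.2).2⟩), Subtype.ext (mem_cent.mp (Subgroup.mem_inf.mp s.2.2).1).symm⟩
        left_inv := fun p => rfl
        right_inv := fun s => rfl }
    rw [Fintype.card_congr e, Fintype.card_sigma]
    simp only [Nat.card_eq_fintype_card]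
  -- swapping
  have hswap : ∑ x : X, Nat.card (Subgroup.centralizer ({x} : Set X) ⊓ Y : Subgroup X) =
      ∑ y : Y, Nat.card (Subgroup.centralizer ({(y : X)} : Set X)) := by
    have e : (Σ x : X, (Subgroup.centralizer ({x} : Set X) ⊓ Y : Subgroup X)) ≃
        (Σ y : Y, Subgroup.centralizer ({(y : X)} : Set X)) :=
      { toFun := fun s => ⟨⟨s.2.1, (Subgroup.mem_inf.mp s.2.2).2⟩, ⟨s.1, mem_cent.mpr (mem_cent.mp (Subgroup.mem_inf.mp s.2.2).1).symm⟩⟩
        invFun := fun s => ⟨s.2.1, ⟨s.1, Subgroup.mem_inf.mpr ⟨mem_cent.mpr (mem_cent.mp s.2.2).symm, s.1.2⟩⟩⟩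
        left_inv := fun p => rfl
        right_inv := fun s => rfl }
    have := Fintype.card_congr e
    rw [Fintype.card_sigma, Fintype.card_sigma] at this
    simpa only [Nat.card_eq_fintype_card] using this
  have hle : ∀ x : X, Nat.card (Subgroup.centralizer ({x} : Set X)) ≤
      Nat.card (Subgroup.centralizer ({x} : Set X) ⊓ Y : Subgroup X) * Y.index := by
    intro x
    have h1 : Nat.card (Subgroup.centralizer ({x} : Set X) ⊓ Y : Subgroup X) *
        (Subgroup.centralizer ({x} : Set X) ⊓ Y).relIndex (Subgroup.centralizer ({x} : Set X)) =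
        Nat.card (Subgroup.centralizer ({x} : Set X)) := by
      have := Subgroup.relIndex_mul_relIndex ⊥ _ _ bot_le (inf_le_left : Subgroup.centralizer ({x} : Set X) ⊓ Y ≤ _)
      rwa [Subgroup.relIndex_bot_left, Subgroup.relIndex_bot_left] at this
    rw [← h1, Subgroup.inf_relIndex_left]
    apply Nat.mul_le_mul_left
    have h2 := Subgroup.relIndex_le_of_le_right (H := Y) (le_top : Subgroup.centralizer ({x} : Set X) ≤ ⊤)
      (by rw [Subgroup.relIndex_top_right]; exact Subgroup.index_ne_zero_of_finite)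
    rwa [Subgroup.relIndex_top_right] at h2
  refine ⟨?_, ?_, ?_⟩
  · -- k(Y) ≤ m k(X)
    have h1 : Nat.card (ConjClasses Y) * Nat.card Y ≤ Nat.card (ConjClasses X) * Nat.card X := by
      rw [hX, hY]
      calc ∑ y : Y, Nat.card (Subgroup.centralizer ({(y : X)} : Set X) ⊓ Y : Subgroup X)
          ≤ ∑ y : Y, Nat.card (Subgroup.centralizer ({(y : X)} : Set X)) :=
            Finset.sum_le_sum (fun y _ => Subgroup.card_le_of_le inf_le_left)
        _ = ∑ x : X, Nat.card (Subgroup.centralizer ({x} : Set X) ⊓ Y : Subgroup X) := hswap.symm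
        _ ≤ _ := Finset.sum_le_sum (fun y _ => Subgroup.card_le_of_le inf_le_left)
    rw [← hcm] at h1
    have h2 : Nat.card (ConjClasses Y) * Nat.card Y ≤ (Y.index * Nat.card (ConjClasses X)) * Nat.card Y := by
      calc _ ≤ _ := h1
        _ = _ := by ring
    exact Nat.le_of_mul_le_mul_right h2 hpos
  · have h1 : Nat.card (ConjClasses X) * Nat.card X ≤ Nat.card (ConjClasses Y) * Nat.card Y * Y.index * Y.index := by
      rw [hX, hY]
      calc ∑ x : X, Nat.card (Subgroup.centralizer ({x} : Set X))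
          ≤ ∑ x : X, Nat.card (Subgroup.centralizer ({x} : Set X) ⊓ Y : Subgroup X) * Y.index :=
            Finset.sum_le_sum (fun x _ => hle x)
        _ = (∑ y : Y, Nat.card (Subgroup.centralizer ({(y : X)} : Set X))) * Y.index := by
            rw [← Finset.sum_mul, hswap]
        _ ≤ (∑ y : Y, Nat.card (Subgroup.centralizer ({(y : X)} : Set X) ⊓ Y : Subgroup X) * Y.index) * Y.index :=
            Nat.mul_le_mul_right _ (Finset.sum_le_sum (fun y _ => hle y))
        _ = _ := by rw [← Finset.sum_mul]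
    rw [← hcm] at h1
    have h2 : Nat.card (ConjClasses X) * (Nat.card Y * Y.index) ≤ (Y.index * Nat.card (ConjClasses Y)) * (Nat.card Y * Y.index) := by
      calc _ ≤ _ := h1
        _ = _ := by ring
    exact Nat.le_of_mul_le_mul_right h2 (Nat.mul_pos hpos hipos)
  · intro hnn
    -- strictness
    obtain ⟨y0, hy0, g, hg⟩ : ∃ y0 ∈ Y, ∃ g : X, g * y0 * g⁻¹ ∉ Y := by
      by_contra hno
      push Not at hno
      exact hnn ⟨fun n hn g => hno n hn g⟩
    have hlt : Nat.card (Subgroup.centralizer ({y0} : Set X)) <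
        Nat.card (Subgroup.centralizer ({y0} : Set X) ⊓ Y : Subgroup X) * Y.index := by
      apply lt_of_le_of_ne (hle y0)
      intro heq
      have h1 : Nat.card (Subgroup.centralizer ({y0} : Set X) ⊓ Y : Subgroup X) *
        (Subgroup.centralizer ({y0} : Set X) ⊓ Y).relIndex (Subgroup.centralizer ({y0} : Set X)) =
        Nat.card (Subgroup.centralizer ({y0} : Set X)) := by
        have := Subgroup.relIndex_mul_relIndex ⊥ _ _ bot_le (inf_le_left : Subgroup.centralizer ({y0} : Set X) ⊓ Y ≤ _)
        rwa [Subgroup.relIndex_bot_left, Subgroup.relIndex_bot_left] at this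
      rw [Subgroup.inf_relIndex_left, heq] at h1
      have h2 : Y.relIndex (Subgroup.centralizer ({y0} : Set X)) = Y.index :=
        Nat.eq_of_mul_eq_mul_left Nat.card_pos h1
      -- X = C(y0) Y
      have h3 : ∃ c ∈ Subgroup.centralizer ({y0} : Set X), ∃ y ∈ Y, g⁻¹ = c * y := by
        -- the map C(y0)/(C(y0) ∩ Y) → X / Y is injective hence surjective
        let φ : (Subgroup.centralizer ({y0} : Set X)) ⧸ (Y.subgroupOf (Subgroup.centralizer ({y0} : Set X))) → X ⧸ Y :=
          Quotient.lift (fun c => (QuotientGroup.mk (c : X) : X ⧸ Y)) (by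
            intro a b hab
            have := QuotientGroup.leftRel_apply.mp hab
            exact QuotientGroup.eq.mpr this)
        have hφ : Function.Injective φ := by
          intro a b hab
          obtain ⟨a, rfl⟩ := QuotientGroup.mk_surjective a
          obtain ⟨b, rfl⟩ := QuotientGroup.mk_surjective b
          have : (QuotientGroup.mk (a : X) : X ⧸ Y) = QuotientGroup.mk (b : X) := hab
          have h4 := QuotientGroup.eq.mp this
          exact QuotientGroup.eq.mpr h4
        have hbij := (Nat.bijective_iff_injective_and_card φ).mpr ⟨hφ, h2⟩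
        obtain ⟨q, hq⟩ := hbij.2 (QuotientGroup.mk g⁻¹)
        obtain ⟨c, rfl⟩ := QuotientGroup.mk_surjective q
        have : (QuotientGroup.mk (c : X) : X ⧸ Y) = QuotientGroup.mk g⁻¹ := hq
        exact ⟨c, c.2, (c : X)⁻¹ * g⁻¹, QuotientGroup.eq.mp this, by group⟩
      obtain ⟨c, hc, y, hy, hcy⟩ := h3
      apply hg
      have hg' : g = y⁻¹ * c⁻¹ := by rw [← inv_inv g, hcy]; group
      have hcc := mem_cent.mp hc
      have e : g * y0 * g⁻¹ = y⁻¹ * y0 * y := by
        rw [hg']
        calc y⁻¹ * c⁻¹ * y0 * (y⁻¹ * c⁻¹)⁻¹ = y⁻¹ * (c⁻¹ * (y0 * c)) * y := by group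
          _ = y⁻¹ * (c⁻¹ * (c * y0)) * y := by rw [hcc]
          _ = _ := by group
      rw [e]
      exact Y.mul_mem (Y.mul_mem (Y.inv_mem hy) hy0) hy
    have h1 : Nat.card (ConjClasses X) * Nat.card X < Nat.card (ConjClasses Y) * Nat.card Y * Y.index * Y.index := by
      rw [hX, hY]
      calc ∑ x : X, Nat.card (Subgroup.centralizer ({x} : Set X))
          ≤ ∑ x : X, Nat.card (Subgroup.centralizer ({x} : Set X) ⊓ Y : Subgroup X) * Y.index :=
            Finset.sum_le_sum (fun x _ => hle x)
        _ = (∑ y : Y, Nat.card (Subgroup.centralizer ({(y : X)} : Set X))) * Y.index := by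
            rw [← Finset.sum_mul, hswap]
        _ < (∑ y : Y, Nat.card (Subgroup.centralizer ({(y : X)} : Set X) ⊓ Y : Subgroup X) * Y.index) * Y.index := by
            apply Nat.mul_lt_mul_of_pos_right _ hipos
            exact Finset.sum_lt_sum (fun y _ => hle y) ⟨⟨y0, hy0⟩, Finset.mem_univ _, hlt⟩
        _ = _ := by rw [← Finset.sum_mul]
    rw [← hcm] at h1
    have h2 : Nat.card (ConjClasses X) * (Nat.card Y * Y.index) < (Y.index * Nat.card (ConjClasses Y)) * (Nat.card Y * Y.index) := by
      calc _ < _ := h1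
        _ = _ := by ring
    exact Nat.lt_of_mul_lt_mul_right h2

end Cfsg.Agent.S4200
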