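import Cfsg.Statements.S4201
import Mathlib
import Cfsg.Agent.LibH6PiCount

set_option autoImplicit false
open Cfsg

namespace Cfsg.Agent.S4201

open CfsgLib.H6


/-- If N is a normal subgroup of the finite group X then k(X) ≤ k(N)·k(X ⧸ N), where k denotes the number of conjugacy classes. -/
theorem result {X : Type*} [Group X] [Finite X] (N : Subgroup X) [N.Normal] : Nat.card (ConjClasses X) ≤ Nat.card (ConjClasses N) * Nat.card (ConjClasses (X ⧸ N)) := by
  have e : ∀ (Y : Type _) [Group Y] [Finite Y], Nat.card (PiClass Set.univ Y) = Nat.card (ConjClasses Y) := by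
    intro Y _ _
    exact Nat.card_congr (Equiv.subtypeUnivEquiv (fun C q _ _ => Set.mem_univ q))
  have h := card_piClass_le_mul (Set.univ) N
  have e1 := e X
  have e2 := e N
  have e3 := e (X ⧸ N)
  rw [mul_comm, e1, e2, e3] at h
  exact h

end Cfsg.Agent.S4201
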