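import Cfsg.Statements.S4203
import Mathlib
import Cfsg.Agent.S0144

set_option autoImplicit false
open Cfsg

namespace Cfsg.Agent.S4203

theorem index_mod {G : Type*} [Group G] [Finite G] (p : ℕ) [Fact p.Prime] (P : Sylow p G) (M : Subgroup G)
    (hM : Subgroup.normalizer ((P : Subgroup G) : Set G) ≤ M) : M.index ≡ 1 [MOD p] := by
  classical
  have hPM : (P : Subgroup G) ≤ M := Subgroup.le_normalizer.trans hM
  have h1 : (Subgroup.normalizer ((P : Subgroup G) : Set G)).index ≡ 1 [MOD p] := by
    have := card_sylow_modEq_one p G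
    rwa [P.card_eq_index_normalizer] at this
  have h2 : (Subgroup.normalizer ((P : Subgroup G) : Set G)).relIndex M ≡ 1 [MOD p] := by
    have := card_sylow_modEq_one p M
    rw [(P.subtype hPM).card_eq_index_normalizer] at this
    have e : Subgroup.normalizer ((P.subtype hPM : Sylow p M) : Set M) =
        (Subgroup.normalizer ((P : Subgroup G) : Set G)).subgroupOf M := (Subgroup.subgroupOf_normalizer_eq hPM).symm
    rw [e] at this
    exact this
  have h3 := Subgroup.relIndex_mul_index hM
  rw [← h3] at h1
  have h4 : (Subgroup.normalizer ((P : Subgroup G) : Set G)).relIndex M * M.index ≡ 1 * M.index [MOD p] :=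
    Nat.ModEq.mul_right _ h2
  rw [one_mul] at h4
  exact h4.symm.trans h1

theorem main : ∀ (n : ℕ) (G : Type _) [Group G] [Finite G], Nat.card G = n →
    (∀ M : Subgroup G, IsCoatom M → ∃ p : ℕ, p.Prime ∧ (M.index = p ∨ M.index = p ^ 2)) → Group.IsSolvable G := by
  intro n
  induction n using Nat.strong_induction_on with
  | _ n ih =>
  intro G _ _ hn h
  classical
  by_cases hG1 : Nat.card G = 1
  · haveI : Subsingleton G := (Nat.card_eq_one_iff_unique.mp hG1).1
    exact Group.isSolvable_of_comm (fun a b => Subsingleton.elim _ _)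
  -- the largest prime
  have hne : (Nat.card G).primeFactors.Nonempty := by
    rw [Nat.nonempty_primeFactors]
    have : 0 < Nat.card G := Nat.card_pos
    omega
  obtain ⟨p, hp, hpmax⟩ := Finset.exists_max_image (Nat.card G).primeFactors id hne
  have hpp : p.Prime := Nat.prime_of_mem_primeFactors hp
  have hpd : p ∣ Nat.card G := Nat.dvd_of_mem_primeFactors hp
  have hmax : ∀ q : ℕ, q.Prime → q ∣ Nat.card G → q ≤ p := fun q hq hqd =>
    hpmax q (Nat.mem_primeFactors.mpr ⟨hq, hqd, Nat.card_pos.ne'⟩)
  haveI : Fact p.Prime := ⟨hpp⟩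
  obtain P : Sylow p G := default
  by_cases hPn : (P : Subgroup G).Normal
  · -- quotient
    have hlt : Nat.card (G ⧸ (P : Subgroup G)) < n := by
      rw [← hn, Subgroup.card_eq_card_quotient_mul_card_subgroup (P : Subgroup G)]
      have h1 : 1 < Nat.card (P : Subgroup G) := by
        have : p ∣ Nat.card (P : Subgroup G) := P.dvd_card_of_dvd_card hpd
        exact lt_of_lt_of_le hpp.one_lt (Nat.le_of_dvd Nat.card_pos this)
      exact (Nat.lt_mul_iff_one_lt_right Nat.card_pos).mpr h1
    have hq : Group.IsSolvable (G ⧸ (P : Subgroup G)) := by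
      apply ih _ hlt (G ⧸ (P : Subgroup G)) rfl
      intro M hM
      have hco : IsCoatom (M.comap (QuotientGroup.mk' (P : Subgroup G))) := by
        exact Subgroup.isCoatom_comap_of_surjective (QuotientGroup.mk'_surjective _) hM
      obtain ⟨q, hq, hqi⟩ := h _ hco
      rw [Subgroup.index_comap_of_surjective _ (QuotientGroup.mk'_surjective _)] at hqi
      exact ⟨q, hq, hqi⟩
    haveI := hq
    haveI : Group.IsNilpotent (P : Subgroup G) := P.2.isNilpotent
    haveI : Group.IsSolvable (P : Subgroup G) := inferInstance
    exact Group.isSolvable_of_ker_le_range (P : Subgroup G).subtype (QuotientGroup.mk' (P : Subgroup G)) (by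
      rw [QuotientGroup.ker_mk', Subgroup.range_subtype])
  · -- normalizer in a maximal subgroup
    have hne' : Subgroup.normalizer ((P : Subgroup G) : Set G) ≠ ⊤ := fun h' => hPn (Subgroup.normalizer_eq_top_iff.mp h')
    obtain ⟨M, hM, hNM⟩ := (eq_top_or_exists_le_coatom (Subgroup.normalizer ((P : Subgroup G) : Set G))).resolve_left hne'
    have hmod := index_mod p P M hNM
    obtain ⟨q, hq, hqi⟩ := h M hM
    have hqd : q ∣ Nat.card G := by
      have h1 : M.index ∣ Nat.card G := Subgroup.index_dvd_card M
      rcases hqi with h2 | h2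
      · rw [← h2]; exact h1
      · rw [h2] at h1
        exact (dvd_pow_self q two_ne_zero).trans h1
    have hqp := hmax q hq hqd
    have hqne : q ≠ p := by
      rintro rfl
      have : M.index ≡ 0 [MOD q] := by
        rw [Nat.modEq_zero_iff_dvd]
        rcases hqi with h2 | h2
        · rw [h2]
        · rw [h2]; exact dvd_pow_self q two_ne_zero
      have h3 := hmod.symm.trans this
      rw [Nat.modEq_zero_iff_dvd] at h3
      exact hq.one_lt.ne' (Nat.dvd_one.mp h3)
    have hqlt : q < p := lt_of_le_of_ne hqp hqne
    have h23 : q = 2 ∧ p = 3 := by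
      rcases hqi with h2 | h2
      · rw [h2] at hmod
        have := Nat.ModEq.eq_of_lt_of_lt hmod hqlt hpp.one_lt
        exact absurd this hq.one_lt.ne'
      · rw [h2] at hmod
        have h3 : p ∣ q ^ 2 - 1 := (Nat.modEq_iff_dvd' (Nat.one_le_pow _ _ hq.pos)).mp hmod.symm
        have h4 : q ^ 2 - 1 = (q + 1) * (q - 1) := by
          have := hq.one_lt
          obtain ⟨t, rfl⟩ : ∃ t, q = t + 1 := ⟨q - 1, by omega⟩
          rw [Nat.add_sub_cancel]
          have : (t + 1) ^ 2 = (t + 1 + 1) * t + 1 := by ring
          omega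
        rw [h4] at h3
        have h2q := hq.two_le
        have h5 : p ∣ q + 1 := by
          rcases (Nat.Prime.dvd_mul hpp).mp h3 with h5 | h5
          · exact h5
          · have := Nat.le_of_dvd (by omega) h5
            omega
        have h6 := Nat.le_of_dvd (by omega) h5
        have h7 : p = q + 1 := by omega
        have h8 : q = 2 := by
          rcases hq.eq_two_or_odd with h | h
          · exact h
          · rcases hpp.eq_two_or_odd with h' | h'
            · omega
            · omega
        omega
    obtain ⟨rfl, rfl⟩ := h23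
    -- {2,3}-group
    obtain ⟨a, m, hm, hcard⟩ := Nat.exists_eq_pow_mul_and_not_dvd (Nat.card_pos (α := G)).ne' 2 (by norm_num)
    have hm0 : m ≠ 0 := by
      rintro rfl
      exact hm (dvd_zero 2)
    have hm3 : m = 3 ^ m.primeFactorsList.length := by
      apply Nat.eq_prime_pow_of_unique_prime_dvd hm0
      intro d hd hdm
      have h1 : d ∣ Nat.card G := by rw [hcard]; exact hdm.mul_left _
      have h2 := hmax d hd h1
      have h3 := hd.two_le
      have h4 : d ≠ 2 := by rintro rfl; exact hm hdm
      omega
    rw [hm3] at hcard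
    exact Cfsg.Agent.S0144.result 2 3 a _ Nat.prime_two Nat.prime_three hcard

/-- A finite group in which every maximal subgroup has index a prime or the square of a prime is solvable. -/
theorem result {G : Type*} [Group G] [Finite G] (h : ∀ M : Subgroup G, IsCoatom M → ∃ p : ℕ, p.Prime ∧ (M.index = p ∨ M.index = p ^ 2)) : Group.IsSolvable G := by
  exact main _ G rfl h

end Cfsg.Agent.S4203
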