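import Cfsg.Statements.S4204
import Mathlib

set_option autoImplicit false
open Cfsg

namespace Cfsg.Agent.S4204

/-- If `H` and `K` are normal subgroups of a finite group with `H` nilpotent of class at most `c` and `K` nilpotent of class at most `d` (the terms with index `c`, respectively `d`, of their lower central series are trivial, indices starting at `0`), then `HK` is nilpotent of class at most `c + d`. -/
theorem result {G : Type*} [Group G] [Finite G] (H K : Subgroup G) [H.Normal] [K.Normal] (c d : ℕ) (hH : H.lowerCentralSeries c = ⊥) (hK : K.lowerCentralSeries d = ⊥) : (H ⊔ K).lowerCentralSeries (c + d) = ⊥ := by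
  -- auxiliary series
  let LH : ℕ → Subgroup G := fun i => match i with | 0 => ⊤ | (i+1) => H.lowerCentralSeries i
  let LK : ℕ → Subgroup G := fun i => match i with | 0 => ⊤ | (i+1) => K.lowerCentralSeries i
  have hLHn : ∀ i, (LH i).Normal := by
    intro i; cases i with
    | zero => exact Subgroup.normal_of_characteristic ⊤
    | succ i => exact inferInstanceAs (H.lowerCentralSeries i).Normal
  have hLKn : ∀ i, (LK i).Normal := by
    intro i; cases i with
    | zero => exact Subgroup.normal_of_characteristic ⊤
    | succ i => exact inferInstanceAs (K.lowerCentralSeries i).Normal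
  have hLH : ∀ i, ⁅LH i, H⁆ ≤ LH (i + 1) := by
    intro i; cases i with
    | zero => exact Subgroup.commutator_le_right _ _
    | succ i => exact le_rfl
  have hLK : ∀ i, ⁅LK i, K⁆ ≤ LK (i + 1) := by
    intro i; cases i with
    | zero => exact Subgroup.commutator_le_right _ _
    | succ i => exact le_rfl
  have hLHanti : ∀ i j, i ≤ j → LH j ≤ LH i := by
    intro i j hij
    induction hij with
    | refl => exact le_rfl
    | @step m _ ih =>
      refine le_trans ?_ ih
      cases m with
      | zero => exact le_top
      | succ m =>
        have := hLHn (m+1)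
        exact Subgroup.commutator_le_left _ _
  have hLKanti : ∀ i j, i ≤ j → LK j ≤ LK i := by
    intro i j hij
    induction hij with
    | refl => exact le_rfl
    | @step m _ ih =>
      refine le_trans ?_ ih
      cases m with
      | zero => exact le_top
      | succ m =>
        have := hLKn (m+1)
        exact Subgroup.commutator_le_left _ _
  -- the sum
  have hsup : ∀ (A B U : Subgroup G), U.Normal → ∀ (ι : Type) (X : ι → Subgroup G), (∀ i, ⁅X i, A⁆ ≤ U) →
      (∀ i, ⁅X i, B⁆ ≤ U) → ⁅⨆ i, X i, A ⊔ B⁆ ≤ U := by
    intro A B U hU ι X hA hB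
    have e : ∀ X Y : Subgroup G, ⁅X, Y⁆ ≤ U ↔ X.map (QuotientGroup.mk' U) ≤
        Subgroup.centralizer (Y.map (QuotientGroup.mk' U)) := by
      intro X Y
      rw [← Subgroup.commutator_eq_bot_iff_le_centralizer, ← Subgroup.map_commutator,
        Subgroup.map_eq_bot_iff, QuotientGroup.ker_mk']
    rw [e, Subgroup.map_iSup, iSup_le_iff]
    intro i
    rw [Subgroup.le_centralizer_iff, Subgroup.map_sup, sup_le_iff]
    exact ⟨Subgroup.le_centralizer_iff.mp ((e _ _).mp (hA i)), Subgroup.le_centralizer_iff.mp ((e _ _).mp (hB i))⟩
  have main : ∀ n : ℕ, (H ⊔ K).lowerCentralSeries n ≤ ⨆ i : Fin (n + 2), (LH i ⊓ LK (n + 1 - i)) := by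
    intro n
    induction n with
    | zero =>
      rw [Subgroup.lowerCentralSeries_zero]
      apply sup_le
      · refine le_trans ?_ (le_iSup _ (1 : Fin 2))
        exact le_inf le_rfl le_top
      · refine le_trans ?_ (le_iSup _ (0 : Fin 2))
        exact le_inf le_top le_rfl
    | succ n ih =>
      rw [Subgroup.lowerCentralSeries_succ]
      have hnorm : (⨆ i : Fin (n + 1 + 2), (LH i ⊓ LK (n + 1 + 1 - i))).Normal := by
        apply Subgroup.iSup_normal
      refine le_trans (Subgroup.commutator_mono ih le_rfl) ?_
      apply hsup _ _ _ hnorm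
      · intro i
        refine le_trans ?_ (le_iSup _ (⟨i + 1, by omega⟩ : Fin (n + 1 + 2)))
        apply le_inf
        · exact le_trans (Subgroup.commutator_mono inf_le_left le_rfl) (hLH i)
        · have := hLKn (n + 1 - i)
          refine le_trans (Subgroup.commutator_mono inf_le_right le_rfl) ?_
          refine le_trans (Subgroup.commutator_le_left _ _) ?_
          exact hLKanti _ _ (by show n + 1 + 1 - (i.1 + 1) ≤ n + 1 - i.1; omega)
      · intro i
        refine le_trans ?_ (le_iSup _ (⟨i, by omega⟩ : Fin (n + 1 + 2)))
        apply le_inf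
        · have := hLHn i
          refine le_trans (Subgroup.commutator_mono inf_le_left le_rfl) ?_
          exact Subgroup.commutator_le_left _ _
        · refine le_trans (Subgroup.commutator_mono inf_le_right le_rfl) ?_
          refine le_trans (hLK _) ?_
          exact hLKanti (n + 1 + 1 - i.1) (n + 1 - i.1 + 1) (by omega)
  have hfin := main (c + d)
  rw [eq_bot_iff]
  refine le_trans hfin (iSup_le ?_)
  intro i
  by_cases hi : c + 1 ≤ i
  · refine le_trans inf_le_left ?_
    refine le_trans (hLHanti (c + 1) i hi) ?_
    exact hH.le
  · refine le_trans inf_le_right ?_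
    refine le_trans (hLKanti (d + 1) _ (by omega)) ?_
    exact hK.le

end Cfsg.Agent.S4204
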