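import Cfsg.Statements.S4205
import Mathlib

set_option autoImplicit false
open Cfsg
open scoped commutatorElement

namespace Cfsg.Agent.S4205

/-- In a finite group whose upper central series reaches the whole group at step `c` (nilpotent of class at most `c`), starting from any subgroup and taking normalizers `c` times reaches the whole group. -/
theorem result {G : Type*} [Group G] [Finite G] (c : ℕ) (hG : Subgroup.upperCentralSeries G c = ⊤) (H : Subgroup G) : (fun K : Subgroup G => Subgroup.normalizer (K : Set G))^[c] H = ⊤ := by
  have key : ∀ k : ℕ, Subgroup.upperCentralSeries G k ≤ (fun K : Subgroup G => Subgroup.normalizer (K : Set G))^[k] H := by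
    intro k
    induction k with
    | zero => simp
    | succ k ih =>
      rw [Function.iterate_succ_apply']
      intro x hx
      rw [Subgroup.mem_upperCentralSeries_succ_iff] at hx
      rw [Subgroup.mem_normalizer_iff]
      set N := (fun K : Subgroup G => Subgroup.normalizer (K : Set G))^[k] H with hN
      have h1 : ∀ y, ⁅x, y⁆ ∈ N := fun y => ih (hx y)
      intro y
      constructor
      · intro hy
        have : x * y * x⁻¹ = ⁅x, y⁆ * y := by rw [commutatorElement_def]; group
        rw [this]
        exact N.mul_mem (h1 y) hy
      · intro hy
        have : y = ⁅x, y⁆⁻¹ * (x * y * x⁻¹) := by rw [commutatorElement_def]; group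
        rw [this]
        exact N.mul_mem (N.inv_mem (h1 y)) hy
  have := key c
  rw [hG] at this
  exact top_le_iff.mp this

end Cfsg.Agent.S4205
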