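import Cfsg.Statements.S4208
import Mathlib
import Cfsg.Agent.LibH6Gen

set_option autoImplicit false
open Cfsg

namespace Cfsg.Agent.S4208

/-- Let `P` be a group of order `p^n` whose Frattini subgroup has index `p^r`. Then the order of the automorphism group of `P` divides `p^(r(n-r)) · (p^r - 1)(p^r - p) ⋯ (p^r - p^(r-1))`. -/
theorem result {P : Type*} [Group P] [Finite P] {p n r : ℕ} [Fact p.Prime] (hP : Nat.card P = p ^ n) (hr : (frattini P).index = p ^ r) : Nat.card (MulAut P) ∣ p ^ (r * (n - r)) * ∏ i ∈ Finset.range r, (p ^ r - p ^ i) := by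
  classical
  have hPp : IsPGroup p P := IsPGroup.of_card hP
  have h1 := CfsgLib.H6.card_generating hPp hr
  letI act : MulAction (MulAut P) {s : Fin r → P // Subgroup.closure (Set.range s) = ⊤} :=
    { smul := fun α s => ⟨fun i => α (s.1 i), by
        have h2 : Set.range (fun i => α (s.1 i)) = α '' (Set.range s.1) := by
          rw [← Set.range_comp]; rfl
        have h3 := (MonoidHom.map_closure α.toMonoidHom (Set.range s.1)).symm
        have h4 : Subgroup.closure (α '' Set.range s.1) = (Subgroup.closure (Set.range s.1)).map α.toMonoidHom := h3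
        rw [h2, h4, s.2]
        exact Subgroup.map_top_of_surjective _ α.surjective⟩
      one_smul := fun s => rfl
      mul_smul := fun α β s => rfl }
  have h2 := CfsgLib.H6.card_dvd_of_free (A := MulAut P) (X := {s : Fin r → P // Subgroup.closure (Set.range s) = ⊤}) (by
    intro α s hs
    apply MulEquiv.ext
    intro x
    have hx : x ∈ Subgroup.closure (Set.range s.1) := by rw [s.2]; trivial
    have h3 : ∀ i, α (s.1 i) = s.1 i := fun i => congrFun (congrArg Subtype.val hs) i
    induction hx using Subgroup.closure_induction with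
    | mem x hx => obtain ⟨i, rfl⟩ := hx; exact h3 i
    | one => exact map_one _
    | mul x y _ _ hx hy => rw [map_mul, hx, hy]; rfl
    | inv x _ hx => rw [map_inv, hx]; rfl)
  rw [h1] at h2
  have h3 : Nat.card (frattini P) = p ^ (n - r) := by
    have h4 := Subgroup.card_mul_index (frattini P)
    rw [hr, hP] at h4
    have hpos : 0 < p ^ r := pow_pos (Fact.out : p.Prime).pos r
    have hle : r ≤ n := by
      by_contra hlt
      push Not at hlt
      have h5 : p ^ n < p ^ r := Nat.pow_lt_pow_right (Fact.out : p.Prime).one_lt hlt
      have h6 : p ^ r ≤ p ^ n := by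
        rw [← h4]
        exact Nat.le_mul_of_pos_left _ Nat.card_pos
      omega
    apply Nat.eq_of_mul_eq_mul_right hpos
    rw [h4, ← pow_add]
    congr 1; omega
  rw [h3, ← pow_mul, mul_comm (n - r) r, mul_comm] at h2
  exact h2

end Cfsg.Agent.S4208
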