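import Cfsg.Statements.S4212
import Mathlib
import Cfsg.Agent.LibFgFrob
import Cfsg.Agent.LibCharBasic2

set_option autoImplicit false
open Cfsg

namespace Cfsg.Agent.S4212

universe u
open Classical Finset

section
variable {G : Type u} [Group G] [Finite G]

/-- number of `n`-th roots -/
noncomputable def rt (n : ℕ) (c : G) : ℕ := Nat.card {x : G // x ^ n = c}

/-- class size -/
noncomputable def hh (c : G) : ℕ := Nat.card {y : G // IsConj c y}

theorem rt_conj (n : ℕ) {c d : G} (h : IsConj c d) : rt n c = rt n d := by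
  obtain ⟨g, hg⟩ := isConj_iff.mp h
  refine Nat.card_congr
    { toFun := fun x => ⟨g * x.1 * g⁻¹, by rw [conj_pow, x.2, hg]⟩
      invFun := fun x => ⟨g⁻¹ * x.1 * g, by
        have : (g⁻¹ * x.1 * g) ^ n = g⁻¹ * x.1 ^ n * g := by
          have := conj_pow (i := n) (a := g⁻¹) (b := x.1)
          rwa [inv_inv] at this
        rw [this, x.2, ← hg]; group⟩
      left_inv := fun x => Subtype.ext (by group)
      right_inv := fun x => Subtype.ext (by group) }

theorem hh_conj {c d : G} (h : IsConj c d) : hh c = hh d :=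
  Nat.card_congr (Equiv.subtypeEquivRight fun y => ⟨fun h1 => h.symm.trans h1, fun h1 => h.trans h1⟩)

theorem hh_eq (c : G) : hh c = (Subgroup.centralizer ({c} : Set G)).index :=
  CfsgLib.CharBasic.card_class_eq_index c

theorem dvd_class_sum [Fintype G] (D : G → Prop) (hD : ∀ a b, IsConj a b → D a → D b) (φ : G → ℕ)
    (hφ : ∀ a b, IsConj a b → φ a = φ b) (m : ℕ) (hm : ∀ y, D y → m ∣ hh y * φ y) :
    m ∣ ∑ y ∈ univ.filter D, φ y := by
  rw [← Finset.sum_fiberwise (univ.filter D) ConjClasses.mk φ]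
  refine Finset.dvd_sum fun C _ => ?_
  by_cases h : ∃ y0, D y0 ∧ ConjClasses.mk y0 = C
  · obtain ⟨y0, hy0, rfl⟩ := h
    have h1 : (univ.filter D).filter (fun y => ConjClasses.mk y = ConjClasses.mk y0) =
        univ.filter (fun y => IsConj y0 y) := by
      ext y
      simp only [mem_filter, mem_univ, true_and, ConjClasses.mk_eq_mk_iff_isConj]
      exact ⟨fun h => h.2.symm, fun h => ⟨hD _ _ h hy0, h.symm⟩⟩
    rw [h1, Finset.sum_congr rfl (g := fun _ => φ y0) (fun y hy => by
      exact (hφ _ _ (mem_filter.mp hy).2).symm), sum_const, smul_eq_mul]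
    have h2 : (univ.filter (fun y => IsConj y0 y)).card = hh y0 := by
      rw [hh, Nat.card_eq_fintype_card, Fintype.card_subtype]
    rw [h2]
    exact hm y0 hy0
  · rw [Finset.filter_eq_empty_iff.mpr, Finset.sum_empty]
    · exact dvd_zero _
    · intro y hy hC
      exact h ⟨y, (mem_filter.mp hy).2, hC⟩

theorem card_roots [Fintype G] (D : G → Prop) (n : ℕ) :
    Nat.card {x : G // D (x ^ n)} = ∑ y ∈ univ.filter D, rt n y := by
  rw [Nat.card_eq_fintype_card, Fintype.card_subtype,
    Finset.card_eq_sum_card_fiberwise (f := fun x => x ^ n) (t := univ.filter D)]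
  · refine Finset.sum_congr rfl fun y hy => ?_
    rw [rt, Nat.card_eq_fintype_card, Fintype.card_subtype]
    congr 1
    ext x
    simp only [mem_filter, mem_univ, true_and] at hy ⊢
    exact ⟨fun h => h.2, fun h => ⟨by rw [h]; exact hy, h⟩⟩
  · intro x hx
    simp only [coe_filter, mem_univ, true_and, Set.mem_setOf_eq] at hx ⊢
    exact hx

theorem card_A (c : G) (n : ℕ) : Nat.card {x : G // IsConj c (x ^ n)} = hh c * rt n c := by
  have := Fintype.ofFinite G
  rw [card_roots (fun y => IsConj c y) n]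
  rw [Finset.sum_eq_card_nsmul (b := rt n c) (fun y hy => by
    simp only [mem_filter, mem_univ, true_and] at hy
    exact (rt_conj n hy).symm), smul_eq_mul]
  congr 1
  rw [hh, Nat.card_eq_fintype_card]
  exact (Fintype.card_of_subtype _ (by simp)).symm

theorem frob_gcd (n : ℕ) : Nat.gcd n (Nat.card G) ∣ Nat.card {x : G // x ^ n = 1} := by
  have h1 := CfsgLib.FgFrob.frobenius (G := G) (Nat.gcd n (Nat.card G)) (Nat.gcd_dvd_right _ _)
  have h2 : Nat.card {x : G // x ^ Nat.gcd n (Nat.card G) = 1} = Nat.card {x : G // x ^ n = 1} := by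
    refine Nat.card_congr (Equiv.subtypeEquivRight fun x => ?_)
    rw [← orderOf_dvd_iff_pow_eq_one, ← orderOf_dvd_iff_pow_eq_one, Nat.dvd_gcd_iff]
    exact and_iff_left (orderOf_dvd_natCard x)
  rwa [h2] at h1

theorem dvd_rt_of_dvd {p e : ℕ} (hp : p.Prime) (c : G) (hc : p ∣ orderOf c) :
    p ^ e ∣ rt (p ^ e) c := by
  have := Fintype.ofFinite G
  obtain ⟨n, hn⟩ : ∃ n, n = p ^ e := ⟨_, rfl⟩
  have hn0 : 0 < n := by rw [hn]; exact pow_pos hp.pos _
  rw [← hn]
  obtain ⟨o, ho⟩ : ∃ o, o = orderOf c := ⟨_, rfl⟩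
  rw [← ho] at hc
  have ho0 : 0 < o := by rw [ho]; exact orderOf_pos c
  -- order of a root
  have hord : ∀ x : G, x ^ n = c → orderOf x = n * o := by
    intro x hx
    obtain ⟨g, hg⟩ : ∃ g, g = Nat.gcd (orderOf x) n := ⟨_, rfl⟩
    have hg0 : 0 < g := by rw [hg]; exact Nat.gcd_pos_of_pos_right _ hn0
    have h1 : orderOf (x ^ n) = orderOf x / g := by rw [hg]; exact orderOf_pow x
    rw [hx, ← ho] at h1
    obtain ⟨w, hw⟩ : g ∣ orderOf x := by rw [hg]; exact Nat.gcd_dvd_left _ _
    rw [hw, Nat.mul_div_cancel_left _ hg0] at h1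
    subst h1
    obtain ⟨j, hj, hjn⟩ := (Nat.dvd_prime_pow hp).mp (hn ▸ Nat.gcd_dvd_right (orderOf x) n)
    rw [← hn, ← hg] at hjn
    rcases eq_or_lt_of_le hj with rfl | hjlt
    · rw [hw, hjn, ← hn]
    · exfalso
      have h3 : p ^ (j + 1) ∣ g := by
        rw [hg]
        refine Nat.dvd_gcd ?_ ?_
        · rw [hw, hjn, pow_succ]
          exact Nat.mul_dvd_mul_left _ hc
        · rw [hn]; exact pow_dvd_pow p hjlt
      rw [hjn] at h3
      have := Nat.le_of_dvd (pow_pos hp.pos _) h3
      have h5 := Nat.pow_lt_pow_right hp.one_lt (Nat.lt_add_one j)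
      omega
  have hrt : rt n c = (univ.filter (fun x : G => x ^ n = c)).card := by
    rw [rt, Nat.card_eq_fintype_card, Fintype.card_subtype]
  rw [hrt, Finset.card_eq_sum_card_image (fun x : G => Subgroup.zpowers x)]
  refine Finset.dvd_sum fun Z hZ => ?_
  obtain ⟨x0, hx0, rfl⟩ := Finset.mem_image.mp hZ
  have hx0' : x0 ^ n = c := (mem_filter.mp hx0).2
  have ho2 : 2 ≤ o := hp.two_le.trans (Nat.le_of_dvd ho0 hc)
  have hfib : (univ.filter (fun x : G => x ^ n = c)).filter
      (fun x => Subgroup.zpowers x = Subgroup.zpowers x0) =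
      (Finset.range n).image (fun t => x0 ^ (1 + o * t)) := by
    ext x
    simp only [mem_filter, mem_univ, true_and, mem_image, mem_range]
    constructor
    · rintro ⟨h1, h2⟩
      have h3 : x ∈ Subgroup.zpowers x0 := by rw [← h2]; exact Subgroup.mem_zpowers x
      obtain ⟨k, hk, hkx⟩ := Finset.mem_image.mp (mem_zpowers_iff_mem_range_orderOf.mp h3)
      rw [Finset.mem_range, hord x0 hx0'] at hk
      have h4 : x0 ^ (k * n) = x0 ^ n := by rw [pow_mul, hkx, h1, hx0']
      rw [pow_eq_pow_iff_modEq, hord x0 hx0'] at h4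
      have h5 : k ≡ 1 [MOD o] := by
        have h6 : n * k ≡ n * 1 [MOD n * o] := by rwa [mul_one, mul_comm n k]
        exact Nat.ModEq.mul_left_cancel' hn0.ne' h6
      have h6 : k % o = 1 := by
        have : k % o = 1 % o := h5
        rwa [Nat.mod_eq_of_lt (by omega : 1 < o)] at this
      refine ⟨k / o, ?_, ?_⟩
      · rw [Nat.div_lt_iff_lt_mul ho0]; exact hk
      · rw [← hkx]
        congr 1
        have := Nat.div_add_mod k o
        omega
    · rintro ⟨t, ht, rfl⟩
      have h1 : (x0 ^ (1 + o * t)) ^ n = c := by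
        rw [← pow_mul]
        have : (1 + o * t) * n = n + (n * o) * t := by ring
        rw [this, pow_add, pow_mul, ← hord x0 hx0', pow_orderOf_eq_one, one_pow, mul_one, hx0']
      refine ⟨h1, ?_⟩
      refine Subgroup.eq_of_le_of_card_ge ?_ ?_
      · rw [Subgroup.zpowers_le]
        exact pow_mem (Subgroup.mem_zpowers x0) _
      · rw [Nat.card_zpowers, Nat.card_zpowers, hord _ h1, hord x0 hx0']
  rw [hfib, Finset.card_image_of_injOn, Finset.card_range]
  intro t ht s hs hts
  simp only [coe_range, Set.mem_Iio] at ht hs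
  have h1 : x0 ^ (1 + o * t) = x0 ^ (1 + o * s) := hts
  rw [pow_eq_pow_iff_modEq, hord x0 hx0'] at h1
  have h2 : o * t ≡ o * s [MOD o * n] := by
    rw [mul_comm o n]; exact Nat.ModEq.add_left_cancel' 1 h1
  have h3 : t ≡ s [MOD n] := Nat.ModEq.mul_left_cancel' ho0.ne' h2
  exact Nat.ModEq.eq_of_lt_of_lt h3 ht hs

theorem gcd_dvd_rt_of_coprime {n : ℕ} (c : G) (hc : Nat.Coprime n (orderOf c)) :
    Nat.gcd n (Nat.card (Subgroup.centralizer ({c} : Set G))) ∣ rt n c := by
  obtain ⟨m, hm⟩ := exists_pow_eq_self_of_coprime hc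
  obtain ⟨v, hv⟩ : ∃ v, v = c ^ m := ⟨_, rfl⟩
  have hvn : v ^ n = c := by rw [hv, ← pow_mul, mul_comm, pow_mul, hm]
  have hcomm : ∀ x : G, x ^ n = c → Commute x v := by
    intro x hx
    have h1 : Commute x c := by rw [← hx]; exact (Commute.refl x).pow_right n
    rw [hv]; exact h1.pow_right m
  have hcomm' : ∀ x : G, x ∈ Subgroup.centralizer ({c} : Set G) → Commute x v := by
    intro x hx
    have h1 : Commute x c := Subgroup.mem_centralizer_singleton_iff.mp hx
    rw [hv]; exact h1.pow_right m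
  have h1 := frob_gcd (G := Subgroup.centralizer ({c} : Set G)) n
  have h2 : Nat.card {x : Subgroup.centralizer ({c} : Set G) // x ^ n = 1} = rt n c := by
    refine Nat.card_congr
      { toFun := fun u => ⟨(u.1 : G) * v, ?_⟩
        invFun := fun x => ⟨⟨x.1 * v⁻¹, ?_⟩, ?_⟩
        left_inv := ?_
        right_inv := ?_ }
    · have h3 : ((u.1 : G)) ^ n = 1 := congrArg Subtype.val u.2
      rw [(hcomm' _ u.1.2).mul_pow, h3, hvn, one_mul]
    · rw [Subgroup.mem_centralizer_singleton_iff]
      have h3 : Commute x.1 c := by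
        have h := (Commute.refl x.1).pow_right n
        rwa [x.2] at h
      have h4 : Commute v⁻¹ c := by
        rw [hv]; exact ((Commute.refl c).pow_left m).inv_left
      exact (h3.mul_left h4).eq
    · apply Subtype.ext
      show (x.1 * v⁻¹) ^ n = 1
      rw [(hcomm x.1 x.2).inv_right.mul_pow, x.2, inv_pow, hvn, mul_inv_cancel]
    · intro u
      apply Subtype.ext; apply Subtype.ext
      show (u.1 : G) * v * v⁻¹ = u.1
      rw [mul_inv_cancel_right]
    · intro x
      apply Subtype.ext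
      show x.1 * v⁻¹ * v = x.1
      rw [inv_mul_cancel_right]
  rwa [h2] at h1

omit [Finite G] in
theorem gcd_lemma {h a b g A : ℕ} (hab : Nat.Coprime a b) (h1 : Nat.gcd (h * a) g ∣ A)
    (h2 : Nat.gcd (h * b) g ∣ A) : Nat.gcd (h * (a * b)) g ∣ A := by
  rw [Nat.dvd_iff_prime_pow_dvd_dvd]
  intro q k hq hd
  have hd1 := hd.trans (Nat.gcd_dvd_left _ _)
  have hd2 := hd.trans (Nat.gcd_dvd_right _ _)
  by_cases hqa : q ∣ a
  · have hqb : ¬ q ∣ b := fun hqb => hq.one_lt.ne' (Nat.eq_one_of_dvd_coprimes hab hqa hqb)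
    refine dvd_trans (Nat.dvd_gcd ?_ hd2) h1
    rw [← mul_assoc] at hd1
    exact (Nat.Coprime.pow_left k ((Nat.Prime.coprime_iff_not_dvd hq).mpr hqb)).dvd_of_dvd_mul_right hd1
  · refine dvd_trans (Nat.dvd_gcd ?_ hd2) h2
    rw [mul_left_comm] at hd1
    exact (Nat.Coprime.pow_left k ((Nat.Prime.coprime_iff_not_dvd hq).mpr hqa)).dvd_of_dvd_mul_left hd1

theorem half_step {a b : ℕ} (ha : ∀ c : G, Nat.gcd (hh c * a) (Nat.card G) ∣ hh c * rt a c) (c : G) :
    Nat.gcd (hh c * a) (Nat.card G) ∣ Nat.card {x : G // IsConj c (x ^ (a * b))} := by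
  have := Fintype.ofFinite G
  have h1 : Nat.card {x : G // IsConj c (x ^ (a * b))} =
      Nat.card {x : G // (fun y => IsConj c (y ^ b)) (x ^ a)} :=
    Nat.card_congr (Equiv.subtypeEquivRight fun x => by simp only [pow_mul])
  rw [h1, card_roots (fun y => IsConj c (y ^ b)) a]
  apply dvd_class_sum
  · intro y z hyz hy
    refine hy.trans ?_
    obtain ⟨g, hg⟩ := isConj_iff.mp hyz
    rw [isConj_iff]
    exact ⟨g, by rw [← hg, conj_pow]⟩
  · intro y z hyz
    exact rt_conj a hyz
  · intro y hy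
    refine dvd_trans ?_ (ha y)
    apply Nat.gcd_dvd_gcd_of_dvd_left
    apply Nat.mul_dvd_mul_right
    rw [hh_conj hy, hh_eq, hh_eq]
    apply Subgroup.index_dvd_of_le
    intro g hg
    rw [Subgroup.mem_centralizer_singleton_iff] at hg ⊢
    exact ((show Commute g y from hg).pow_right b).eq

theorem main (n : ℕ) : ∀ c : G, Nat.gcd (hh c * n) (Nat.card G) ∣ hh c * rt n c := by
  induction n using Nat.recOnPosPrimePosCoprime with
  | zero =>
    intro c
    rw [mul_zero, Nat.gcd_zero_left]
    by_cases hc : c = 1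
    · have h1 : rt 0 c = Nat.card G := by
        rw [rt]
        refine Nat.card_congr ⟨fun x => x.1, fun x => ⟨x, by rw [pow_zero, hc]⟩, fun x => rfl,
          fun x => rfl⟩
      rw [h1]; exact dvd_mul_left _ _
    · have h1 : rt 0 c = 0 := by
        rw [rt, Nat.card_eq_zero]
        left
        constructor
        rintro ⟨x, hx⟩
        rw [pow_zero] at hx
        exact hc hx.symm
      rw [h1, mul_zero]; exact dvd_zero _
  | one =>
    intro c
    have h1 : rt 1 c = 1 := by
      rw [rt, Nat.card_eq_one_iff_unique]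
      exact ⟨⟨fun a b => Subtype.ext (by
        have ha := a.2; have hb := b.2
        rw [pow_one] at ha hb
        rw [ha, hb])⟩, ⟨⟨c, pow_one c⟩⟩⟩
    rw [h1]
    exact Nat.gcd_dvd_left _ _
  | prime_pow p e hp he =>
    intro c
    by_cases hc : p ∣ orderOf c
    · exact dvd_trans (Nat.gcd_dvd_left _ _) (Nat.mul_dvd_mul_left _ (dvd_rt_of_dvd hp c hc))
    · have hcop : Nat.Coprime (p ^ e) (orderOf c) :=
        Nat.Coprime.pow_left e ((Nat.Prime.coprime_iff_not_dvd hp).mpr hc)
      have h1 := gcd_dvd_rt_of_coprime c hcop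
      have h2 : Nat.card G = hh c * Nat.card (Subgroup.centralizer ({c} : Set G)) := by
        rw [hh_eq, Subgroup.index_mul_card]
      rw [h2, Nat.gcd_mul_left]
      exact Nat.mul_dvd_mul_left _ h1
  | coprime a b ha hb hab iha ihb =>
    intro c
    rw [← card_A]
    apply gcd_lemma hab
    · exact half_step iha c
    · rw [mul_comm a b]
      exact half_step ihb c
end

/-- Let `G` be a finite group of order `g`, `c` an element whose conjugacy class has `h` elements, and `n` a natural number. Then the number of elements `x` of `G` with `x^n` conjugate to `c` is a multiple of `gcd(hn, g)`. -/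
theorem result {G : Type*} [Group G] [Finite G] (c : G) (n : ℕ) : Nat.gcd (Nat.card {y : G // IsConj c y} * n) (Nat.card G) ∣ Nat.card {x : G // IsConj c (x ^ n)} := by
  rw [show Nat.card {x : G // IsConj c (x ^ n)} = hh c * rt n c from card_A c n]
  exact main n c

end Cfsg.Agent.S4212
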