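import Cfsg.Statements.S4213
import Mathlib
import Cfsg.Agent.LibFgFrob
import Cfsg.Agent.LibSolvMin
import Cfsg.Agent.LibSolvBasic

set_option autoImplicit false
open Cfsg

namespace Cfsg.Agent.S4213

universe u

open CfsgLib.SolvMin CfsgLib.SolvBasic

theorem card_preimage {G : Type u} [Group G] [Finite G] (N : Subgroup G) (S : Set (G ⧸ N)) :
    Nat.card {x : G // (x : G ⧸ N) ∈ S} = Nat.card N * Nat.card S := by
  rw [← Nat.card_prod]
  exact Nat.card_congr (QuotientGroup.preimageMkEquivSubgroupProdSet N S)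

theorem fin_step {G : Type u} [Group G] [Finite G] (n : ℕ) (hn : Nat.card {x : G // x ^ n = 1} = n)
    (L : Subgroup G) (hL : Nat.card L = n) :
    ∃ H : Subgroup G, H.Normal ∧ (H : Set G) = {x : G | x ^ n = 1} := by
  have heq : (L : Set G) = {x : G | x ^ n = 1} := by
    apply Set.eq_of_subset_of_ncard_le ?_ ?_ (Set.toFinite _)
    · intro x hx
      have h1 : orderOf x ∣ n := by
        rw [← hL]; exact Subgroup.orderOf_dvd_natCard L hx
      exact orderOf_dvd_iff_pow_eq_one.mp h1
    · have h1 : (L : Set G).ncard = n := hL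
      have h2 : {x : G | x ^ n = 1}.ncard = n := hn
      rw [h1, h2]
  refine ⟨L, ⟨fun x hx g => ?_⟩, heq⟩
  have h1 : x ∈ (L : Set G) := hx
  rw [heq] at h1
  have h2 : g * x * g⁻¹ ∈ {x : G | x ^ n = 1} := by
    show (g * x * g⁻¹) ^ n = 1
    rw [conj_pow, show x ^ n = 1 from h1, mul_one, mul_inv_cancel]
  rw [← heq] at h2
  exact h2

theorem main (N : ℕ) : ∀ (G : Type u) [Group G] [Finite G] [Group.IsSolvable G],
    Nat.card G = N → ∀ n : ℕ, n ∣ Nat.card G → Nat.card {x : G // x ^ n = 1} = n →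
    ∃ H : Subgroup G, H.Normal ∧ (H : Set G) = {x : G | x ^ n = 1} := by
  induction N using Nat.strong_induction_on with
  | _ N ih =>
  intro G _ _ _ hG n hn hcount
  have hn0 : 0 < n := Nat.pos_of_dvd_of_pos hn Nat.card_pos
  by_cases hb : Subsingleton G
  · refine ⟨⊤, inferInstance, ?_⟩
    ext x
    simp [Subsingleton.elim x 1]
  have hnt : Nontrivial G := not_subsingleton_iff_nontrivial.mp hb
  obtain ⟨M, p, hp, hM, -, -, hMp, hMpg⟩ := exists_minNormal_pgroup_of_solvable (⊤ : Subgroup G)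
    top_ne_bot
  have : Fact p.Prime := ⟨hp⟩
  have hMn : M.Normal := hM.1
  have hMb : M ≠ ⊥ := hM.2.1
  obtain ⟨i, hi⟩ := (IsPGroup.iff_card).mp hMpg
  have hi0 : i ≠ 0 := by
    rintro rfl
    rw [pow_zero, Subgroup.card_eq_one] at hi
    exact hMb hi
  have hGM : Nat.card G = Nat.card (G ⧸ M) * p ^ i := by
    rw [← hi, ← Subgroup.index_eq_card, Subgroup.index_mul_card]
  have hlt : Nat.card (G ⧸ M) < N := by rw [← hG]; exact card_quotient_lt M hMb
  by_cases hpn : p ∣ n
  · -- first case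
    obtain ⟨d, hd⟩ : ∃ d, d = Nat.gcd n (p ^ i) := ⟨_, rfl⟩
    have hd0 : 0 < d := by rw [hd]; exact Nat.gcd_pos_of_pos_left _ hn0
    obtain ⟨m, hm⟩ : d ∣ n := by rw [hd]; exact Nat.gcd_dvd_left _ _
    obtain ⟨e, he⟩ : d ∣ p ^ i := by rw [hd]; exact Nat.gcd_dvd_right _ _
    have hme : Nat.Coprime m e := by
      have h1 := Nat.coprime_div_gcd_div_gcd (m := n) (n := p ^ i) (by rw [← hd]; exact hd0)
      rw [← hd] at h1
      have h2 : n / d = m := by rw [hm, Nat.mul_div_cancel_left _ hd0]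
      have h3 : p ^ i / d = e := by rw [he, Nat.mul_div_cancel_left _ hd0]
      rwa [h2, h3] at h1
    have hmd : m ∣ Nat.card (G ⧸ M) := by
      have h1 : d * m ∣ d * (Nat.card (G ⧸ M) * e) := by
        rw [← hm, mul_left_comm, ← he, ← hGM]; exact hn
      have h2 := Nat.dvd_of_mul_dvd_mul_left hd0 h1
      exact hme.dvd_of_dvd_mul_right h2
    have hpd : p ∣ d := by
      rw [hd]; exact Nat.dvd_gcd hpn (dvd_pow_self p hi0)
    have hm0 : 0 < m := Nat.pos_of_dvd_of_pos hmd Nat.card_pos
    obtain ⟨k, hk⟩ := CfsgLib.FgFrob.frobenius (G := G ⧸ M) m hmd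
    have hk0 : 0 < k := by
      rcases Nat.eq_zero_or_pos k with rfl | h
      · rw [mul_zero] at hk
        have : Nonempty {g : G ⧸ M // g ^ m = 1} := ⟨⟨1, one_pow _⟩⟩
        have := Nat.card_pos (α := {g : G ⧸ M // g ^ m = 1})
        omega
      · exact h
    have hsub : ∀ x : G, ((x : G ⧸ M)) ^ m = 1 → x ^ n = 1 := by
      intro x hx
      have h1 : x ^ m ∈ M := by
        rw [← QuotientGroup.eq_one_iff]; exact hx
      obtain ⟨d', hd'⟩ := hpd
      rw [hm, mul_comm, pow_mul, hd', pow_mul, hMp _ h1, one_pow]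
    have hle : p ^ i * (m * k) ≤ n := by
      rw [← hk, ← hi, ← hcount]
      have h1 := card_preimage M {y : G ⧸ M | y ^ m = 1}
      have h2 : Nat.card {x : G // ((x : G ⧸ M)) ∈ {y : G ⧸ M | y ^ m = 1}} ≤
          Nat.card {x : G // x ^ n = 1} :=
        Nat.card_le_card_of_injective (fun x => ⟨x.1, hsub x.1 x.2⟩) (fun a b hab => by
          apply Subtype.ext
          simpa using hab)
      rw [h1] at h2
      exact h2
    have hple : p ^ i * k ≤ d := by
      have h1 : (p ^ i * k) * m ≤ d * m := by rw [← hm]; calc _ = p ^ i * (m * k) := by ring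
          _ ≤ n := hle
      exact Nat.le_of_mul_le_mul_right h1 hm0
    have hdle : d ≤ p ^ i := Nat.le_of_dvd (pow_pos hp.pos _) ⟨e, he⟩
    have hk1 : k = 1 := by
      have h1 : p ^ i * k ≤ p ^ i * 1 := by rw [mul_one]; exact hple.trans hdle
      have := Nat.le_of_mul_le_mul_left h1 (pow_pos hp.pos _)
      omega
    have hdi : d = p ^ i := by
      rw [hk1, mul_one] at hple
      exact le_antisymm hdle hple
    rw [hk1, mul_one] at hk
    obtain ⟨H, hHn, hH⟩ := ih _ hlt (G ⧸ M) rfl m hmd hk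
    have hHc : Nat.card H = m := by
      have : (H : Set (G ⧸ M)).ncard = m := by rw [hH]; exact hk
      exact this
    apply fin_step n hcount (H.comap (QuotientGroup.mk' M))
    rw [card_comap_mk', hHc, hi, hm, hdi, mul_comm]
  · -- second case
    have hcop : Nat.Coprime n (p ^ i) :=
      Nat.Coprime.pow_right i ((Nat.Prime.coprime_iff_not_dvd hp).mpr hpn).symm
    have hnd : n ∣ Nat.card (G ⧸ M) := by
      rw [hGM] at hn
      exact hcop.dvd_of_dvd_mul_right hn
    obtain ⟨k, hk⟩ := CfsgLib.FgFrob.frobenius (G := G ⧸ M) n hnd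
    have hk0 : 0 < k := by
      rcases Nat.eq_zero_or_pos k with rfl | h
      · rw [mul_zero] at hk
        have : Nonempty {g : G ⧸ M // g ^ n = 1} := ⟨⟨1, one_pow _⟩⟩
        have := Nat.card_pos (α := {g : G ⧸ M // g ^ n = 1})
        omega
      · exact h
    -- every solution lifts to a solution
    have hlift : ∀ y : G ⧸ M, y ^ n = 1 → ∃ x : G, x ^ n = 1 ∧ (x : G ⧸ M) = y := by
      intro y hy
      obtain ⟨x, rfl⟩ := QuotientGroup.mk_surjective y
      have h1 : x ^ n ∈ M := by
        rw [← QuotientGroup.eq_one_iff]; exact hy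
      have h2 : (x ^ n) ^ (p ^ i) = 1 := by
        rw [← hi]
        have := pow_card_eq_one' (x := (⟨x ^ n, h1⟩ : M))
        exact congrArg Subtype.val this
      obtain ⟨v, hv1, hv2⟩ := Nat.chineseRemainder hcop 1 0
      refine ⟨x ^ v, ?_, ?_⟩
      · obtain ⟨w, hw⟩ := (Nat.modEq_zero_iff_dvd).mp hv2
        rw [hw, ← pow_mul]
        have : p ^ i * w * n = (n * p ^ i) * w := by ring
        rw [this, pow_mul, pow_mul, h2, one_pow]
      · have h3 : ((x ^ v : G) : G ⧸ M) = (x : G ⧸ M) ^ v := rfl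
        rw [h3]
        have h4 : orderOf ((x : G ⧸ M)) ∣ n := orderOf_dvd_of_pow_eq_one hy
        conv_rhs => rw [← pow_one (x : G ⧸ M)]
        rw [pow_eq_pow_iff_modEq]
        exact hv1.of_dvd h4
    have hle : n * k ≤ n := by
      rw [← hk]
      conv_rhs => rw [← hcount]
      refine Nat.card_le_card_of_surjective
        (fun x : {x : G // x ^ n = 1} => (⟨(x.1 : G ⧸ M), by
          have h3 : ((x.1 : G ⧸ M)) ^ n = ((x.1 ^ n : G) : G ⧸ M) := rfl
          rw [h3, x.2]; rfl⟩ : {g : G ⧸ M // g ^ n = 1})) ?_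
      rintro ⟨y, hy⟩
      obtain ⟨x, hx, hxy⟩ := hlift y hy
      exact ⟨⟨x, hx⟩, Subtype.ext hxy⟩
    have hk1 : k = 1 := by
      have h1 : n * k ≤ n * 1 := by rwa [mul_one]
      have := Nat.le_of_mul_le_mul_left h1 hn0
      omega
    rw [hk1, mul_one] at hk
    obtain ⟨H, hHn, hH⟩ := ih _ hlt (G ⧸ M) rfl n hnd hk
    have hHc : Nat.card H = n := by
      have : (H : Set (G ⧸ M)).ncard = n := by rw [hH]; exact hk
      exact this
    obtain ⟨K, hK⟩ : ∃ K, K = H.comap (QuotientGroup.mk' M) := ⟨_, rfl⟩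
    have hKc : Nat.card K = n * p ^ i := by rw [hK, card_comap_mk', hHc, hi]
    have hMK : M ≤ K := by
      rw [hK]
      intro x hx
      rw [Subgroup.mem_comap]
      have h0 : QuotientGroup.mk' M x = 1 := (QuotientGroup.eq_one_iff x).mpr hx
      rw [h0]; exact H.one_mem
    have hMKn : (M.subgroupOf K).Normal := inferInstance
    have hMKc : Nat.card (M.subgroupOf K) = p ^ i := by
      rw [Nat.card_congr (Subgroup.subgroupOfEquivOfLe hMK).toEquiv, hi]
    have hidx : (M.subgroupOf K).index = n := by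
      have h1 := (M.subgroupOf K).index_mul_card
      rw [hMKc, hKc] at h1
      exact Nat.eq_of_mul_eq_mul_right (pow_pos hp.pos _) h1
    obtain ⟨L, hL⟩ := Subgroup.exists_right_complement'_of_coprime (N := M.subgroupOf K)
      (by rw [hMKc, hidx]; exact hcop.symm)
    apply fin_step n hcount (L.map K.subtype)
    rw [Nat.card_congr (Subgroup.equivMapOfInjective L K.subtype K.subtype_injective).toEquiv.symm,
      ← hL.symm.index_eq_card, hidx]

/-- If `G` is a finite solvable group and `n` divides the order of `G` and exactly `n` elements `x` of `G` satisfy `x^n = 1`, then these elements form a normal subgroup. -/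
theorem result {G : Type*} [Group G] [Finite G] [Group.IsSolvable G] (n : ℕ) (hn : n ∣ Nat.card G) (hcount : Nat.card {x : G // x ^ n = 1} = n) : ∃ H : Subgroup G, H.Normal ∧ (H : Set G) = {x : G | x ^ n = 1} := by
  exact main _ G rfl n hn hcount

end Cfsg.Agent.S4213
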