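import Cfsg.Statements.S4216
import Mathlib
import Cfsg.Agent.LibH6Grun

set_option autoImplicit false
open Cfsg
open scoped commutatorElement

namespace Cfsg.Agent.S4216

/-- Grün's first Theorem: if `P` is a Sylow `p`-subgroup of the finite group `G`, then `P ∩ G'` is the subgroup generated by `P ∩ N_G(P)'` together with the subgroups `P ∩ z P' z⁻¹` for all `z ∈ G`, where `'` denotes the derived subgroup and `N_G(P)` the normalizer of `P`. -/
theorem result {G : Type*} [Group G] [Finite G] {p : ℕ} [Fact p.Prime] (P : Sylow p G) : (P : Subgroup G) ⊓ commutator G = ((P : Subgroup G) ⊓ ⁅Subgroup.normalizer ((P : Subgroup G) : Set G), Subgroup.normalizer ((P : Subgroup G) : Set G)⁆) ⊔ ⨆ z : G, (P : Subgroup G) ⊓ (⁅(P : Subgroup G), (P : Subgroup G)⁆).map (MulAut.conj z).toMonoidHom := by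
  have hz : ∀ (z c : G), c ∈ ⁅(P : Subgroup G), (P : Subgroup G)⁆ →
      z⁻¹ * c * z ∈ (⁅(P : Subgroup G), (P : Subgroup G)⁆).map (MulAut.conj z⁻¹).toMonoidHom := by
    intro z c hc
    exact ⟨c, hc, by simp⟩
  apply le_antisymm
  · refine CfsgLib.H6.grun_first P _ ?_ ?_
    · intro x c hc hx
      exact Subgroup.mem_sup_right (Subgroup.mem_iSup_of_mem x⁻¹ ⟨hx, hz x c hc⟩)
    · intro x hx c hc
      refine Subgroup.mem_sup_left ⟨?_, ?_⟩
      · refine (P : Subgroup G).mul_mem ?_ ((P : Subgroup G).inv_mem hc)
        have := (Subgroup.mem_normalizer_iff.mp (inv_mem hx) c).mp hc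
        simpa using this
      · have h1 : ⁅x⁻¹, c⁆ ∈ ⁅Subgroup.normalizer ((P : Subgroup G) : Set G),
            Subgroup.normalizer ((P : Subgroup G) : Set G)⁆ :=
          Subgroup.commutator_mem_commutator (inv_mem hx) (Subgroup.le_normalizer hc)
        simpa [commutatorElement_def] using h1
  · refine sup_le (inf_le_inf_left _ ?_) (iSup_le fun z => inf_le_inf_left _ ?_)
    · rw [_root_.commutator_def]
      exact Subgroup.commutator_mono le_top le_top
    · rw [Subgroup.map_le_iff_le_comap]
      intro c hc
      have h1 : c ∈ _root_.commutator G := by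
        rw [_root_.commutator_def]
        exact Subgroup.commutator_mono le_top le_top hc
      exact (inferInstance : (_root_.commutator G).Normal).conj_mem c h1 z

end Cfsg.Agent.S4216
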