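import Cfsg.Statements.S4217
import Mathlib
import Cfsg.Agent.LibGaschutz
import Cfsg.Agent.LibH6PSplit
import Cfsg.Agent.LibSolvBasic

set_option autoImplicit false
open Cfsg

namespace Cfsg.Agent.S4217

open Subgroup in
theorem step {G : Type*} [Group G] [Finite G] (A : Subgroup G) [A.Normal] (hA : IsMulCommutative A)
    (p : ℕ) [Fact p.Prime]
    (h : p ∣ A.index → ∃ (S : Sylow p (G ⧸ A)) (K : Subgroup G), K ⊓ A = ⊥ ∧ K ⊔ A = (S : Subgroup (G ⧸ A)).comap (QuotientGroup.mk' A)) :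
    ∃ L : Subgroup G, L.index ≤ p ^ (Nat.card A).factorization p ∧ ∀ x ∈ L, x ∈ A → (orderOf x).Coprime p := by
  classical
  have hpp : p.Prime := Fact.out
  have hAc : ∀ a ∈ A, ∀ b ∈ A, a * b = b * a := fun a ha b hb =>
    congrArg Subtype.val (hA.is_comm.comm ⟨a, ha⟩ ⟨b, hb⟩)
  -- the subgroup U and its complement K0
  obtain ⟨U, K0, hAU, hUidx, hK0, hK0U⟩ : ∃ U K0 : Subgroup G, A ≤ U ∧ ¬ p ∣ U.index ∧ K0 ⊓ A = ⊥ ∧ K0 ⊔ A = U := by
    by_cases hpA : p ∣ A.index
    · obtain ⟨S, K, hK, hKA⟩ := h hpA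
      refine ⟨K ⊔ A, K, le_sup_right, ?_, hK, rfl⟩
      rw [hKA, Subgroup.index_comap_of_surjective _ (QuotientGroup.mk'_surjective A)]
      exact S.not_dvd_index
    · exact ⟨A, ⊥, le_rfl, hpA, by simp, by simp⟩
  -- the p'-part of A
  let A' : Subgroup G :=
    { carrier := {x | x ∈ A ∧ (orderOf x).Coprime p}
      one_mem' := ⟨one_mem _, by rw [orderOf_one]; exact Nat.coprime_one_left p⟩
      mul_mem' := fun {a b} ha hb => by
        refine ⟨mul_mem ha.1 hb.1, ?_⟩
        have hc : Commute a b := hAc a ha.1 b hb.1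
        exact Nat.Coprime.coprime_dvd_left (hc.orderOf_mul_dvd_mul_orderOf) (Nat.Coprime.mul_left ha.2 hb.2)
      inv_mem' := fun {a} ha => ⟨inv_mem ha.1, by rw [orderOf_inv]; exact ha.2⟩ }
  haveI hA'n : A'.Normal := by
    constructor
    intro a ha g
    refine ⟨Subgroup.Normal.conj_mem inferInstance a ha.1 g, ?_⟩
    have : orderOf (g * a * g⁻¹) = orderOf a := MulEquiv.orderOf_eq (MulAut.conj g) a
    rw [this]; exact ha.2
  let π := QuotientGroup.mk' A'
  haveI hKn : (A.map π).Normal := Subgroup.Normal.map inferInstance π (QuotientGroup.mk'_surjective A')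
  haveI hKc : IsMulCommutative (A.map π) := by
    refine ⟨⟨?_⟩⟩
    rintro ⟨_, a, ha, rfl⟩ ⟨_, b, hb, rfl⟩
    apply Subtype.ext
    show π a * π b = π b * π a
    rw [← map_mul, hAc a ha b hb, map_mul]
  have hKp : IsPGroup p (A.map π) := by
    rintro ⟨_, a, ha, rfl⟩
    obtain ⟨e, f, hef, ⟨k, hk⟩, hf⟩ := CfsgLib.H6.exists_p_decomp p hpp a
    have h1 : π (a ^ f) = 1 := (QuotientGroup.eq_one_iff _).mpr ⟨pow_mem ha f, hf⟩
    refine ⟨k, ?_⟩
    apply Subtype.ext
    show (π a) ^ p ^ k = 1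
    rw [← hef, map_mul, h1, mul_one, ← map_pow, ← hk, pow_orderOf_eq_one, map_one]
  obtain ⟨j, hj⟩ := IsPGroup.iff_card.mp hKp
  obtain ⟨H, hH⟩ := CfsgLib.Gaschutz.exists_complement (A.map π) (U.map π) (Subgroup.map_mono hAU) (by
      rw [hj]
      apply Nat.Coprime.pow_left
      rw [Nat.Prime.coprime_iff_not_dvd hpp]
      intro h1
      exact hUidx (h1.trans (Subgroup.index_map_dvd _ (QuotientGroup.mk'_surjective A')))) (K0.map π)
    (Subgroup.map_mono (hK0U ▸ le_sup_left)) (by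
      rw [eq_bot_iff]
      rintro _ ⟨⟨k, hk, rfl⟩, ⟨a, ha, hak⟩⟩
      have h1 : k⁻¹ * a ∈ A' := by
        rw [← QuotientGroup.eq]; exact hak.symm
      have h2 : k ∈ A := by
        have := mul_mem ha (inv_mem h1.1)
        have e : a * (k⁻¹ * a)⁻¹ = k := by group
        rwa [e] at this
      have h3 : k ∈ K0 ⊓ A := Subgroup.mem_inf.mpr ⟨hk, h2⟩
      rw [hK0, Subgroup.mem_bot] at h3
      rw [h3, map_one]; exact one_mem _) (by
      rw [← Subgroup.map_sup, sup_comm, hK0U])
  refine ⟨H.comap π, ?_, ?_⟩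
  · rw [Subgroup.index_comap_of_surjective _ (QuotientGroup.mk'_surjective A'), hH.index_eq_card, hj]
    apply Nat.pow_le_pow_right hpp.pos
    rw [← Nat.Prime.pow_dvd_iff_le_factorization hpp Nat.card_pos.ne', ← hj]
    exact Subgroup.card_map_dvd _ _
  · intro x hx hxA
    have h1 : π x ∈ A.map π ⊓ H := Subgroup.mem_inf.mpr ⟨⟨x, hxA, rfl⟩, hx⟩
    rw [disjoint_iff.mp hH.disjoint, Subgroup.mem_bot] at h1
    exact ((QuotientGroup.eq_one_iff x).mp h1).2

/-- Let `A` be an abelian normal subgroup of the finite group `G`. Then `A` has a complement in `G` if and only if, for every prime `p` dividing the index of `A`, there are a Sylow `p`-subgroup `S` of `G/A` and a subgroup `K` of `G` with `K ∩ A = 1` and `KA` equal to the preimage of `S` (that is, `A` has a complement in the preimage of a Sylow `p`-subgroup of `G/A`). -/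
theorem result {G : Type*} [Group G] [Finite G] (A : Subgroup G) [A.Normal] (hA : IsMulCommutative A) : (∃ K : Subgroup G, K.IsComplement' A) ↔ ∀ p : ℕ, p.Prime → p ∣ A.index → ∃ (S : Sylow p (G ⧸ A)) (K : Subgroup G), K ⊓ A = ⊥ ∧ K ⊔ A = (S : Subgroup (G ⧸ A)).comap (QuotientGroup.mk' A) := by
  classical
  constructor
  · rintro ⟨K0, hK0⟩ p hp hpi
    haveI : Fact p.Prime := ⟨hp⟩
    obtain S : Sylow p (G ⧸ A) := default
    refine ⟨S, K0 ⊓ (S : Subgroup (G ⧸ A)).comap (QuotientGroup.mk' A), ?_, ?_⟩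
    · rw [eq_bot_iff]
      intro x hx
      rw [Subgroup.mem_inf, Subgroup.mem_inf] at hx
      have : x ∈ K0 ⊓ A := Subgroup.mem_inf.mpr ⟨hx.1.1, hx.2⟩
      rw [disjoint_iff.mp hK0.disjoint] at this
      exact this
    · have hAle : A ≤ (S : Subgroup (G ⧸ A)).comap (QuotientGroup.mk' A) := by
        intro a ha
        have h0 : QuotientGroup.mk' A a = 1 := (QuotientGroup.eq_one_iff a).mpr ha
        show QuotientGroup.mk' A a ∈ (S : Subgroup (G ⧸ A))
        rw [h0]; exact one_mem _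
      apply le_antisymm (sup_le inf_le_right hAle)
      intro x hx
      obtain ⟨⟨k, a⟩, hka⟩ := hK0.2 x
      have hka' : (k : G) * (a : G) = x := hka
      have hk : (k : G) ∈ (S : Subgroup (G ⧸ A)).comap (QuotientGroup.mk' A) := by
        have : (k : G) = x * (a : G)⁻¹ := by rw [← hka']; group
        rw [this]
        exact mul_mem hx (inv_mem (hAle a.2))
      rw [← hka']
      exact mul_mem (le_sup_left (a := K0 ⊓ (S : Subgroup (G ⧸ A)).comap (QuotientGroup.mk' A)) (Subgroup.mem_inf.mpr ⟨k.2, hk⟩))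
        (le_sup_right (a := K0 ⊓ (S : Subgroup (G ⧸ A)).comap (QuotientGroup.mk' A)) a.2)
  · intro h
    have hstep : ∀ p : {p // p ∈ (Nat.card A).primeFactors}, ∃ L : Subgroup G, L.index ≤ (p : ℕ) ^ (Nat.card A).factorization p ∧
        ∀ x ∈ L, x ∈ A → (orderOf x).Coprime p := by
      rintro ⟨p, hp⟩
      haveI : Fact p.Prime := ⟨Nat.prime_of_mem_primeFactors hp⟩
      exact step A hA p (fun hpi => h p Fact.out hpi)
    choose L hL1 hL2 using hstep
    let M : Subgroup G := ⨅ p, L p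
    have hidx : M.index ≤ Nat.card A := by
      refine (Subgroup.index_iInf_le L).trans ?_
      refine (Finset.prod_le_prod' (fun p _ => hL1 p)).trans (le_of_eq ?_)
      rw [Finset.prod_coe_sort (Nat.card A).primeFactors (fun p => p ^ (Nat.card A).factorization p)]
      exact Nat.factorization_prod_pow_eq_self Nat.card_pos.ne'
    have hdisj : M ⊓ A = ⊥ := by
      rw [eq_bot_iff]
      intro x hx
      rw [Subgroup.mem_inf] at hx
      rw [Subgroup.mem_bot, ← orderOf_eq_one_iff]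
      by_contra hne
      obtain ⟨q, hq, hqd⟩ := Nat.exists_prime_and_dvd hne
      have hqA : q ∣ Nat.card A := hqd.trans (Subgroup.orderOf_dvd_natCard A hx.2)
      have hqm : q ∈ (Nat.card A).primeFactors := Nat.mem_primeFactors.mpr ⟨hq, hqA, Nat.card_pos.ne'⟩
      have hxL : x ∈ L ⟨q, hqm⟩ := (Subgroup.mem_iInf.mp hx.1) ⟨q, hqm⟩
      have := hL2 ⟨q, hqm⟩ x hxL hx.2
      exact hq.one_lt.ne' (Nat.dvd_one.mp (this ▸ Nat.dvd_gcd hqd (dvd_refl q)))
    refine ⟨M, Subgroup.isComplement'_of_card_mul_and_disjoint ?_ (disjoint_iff.mpr hdisj)⟩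
    apply le_antisymm
    · have h1 := CfsgLib.SolvBasic.card_sup_of_normal A M
      rw [inf_comm, hdisj, Subgroup.card_bot, mul_one] at h1
      rw [mul_comm, ← h1]
      exact Subgroup.card_le_card_group _
    · have h1 := Subgroup.card_mul_index M
      rw [← h1]
      exact Nat.mul_le_mul_left _ hidx

end Cfsg.Agent.S4217
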