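import Cfsg.Statements.S4218
import Mathlib
import Cfsg.Agent.LibPSolv19
import Cfsg.Agent.LibSolvFrat
import Cfsg.Agent.S4207

set_option autoImplicit false
open Cfsg

namespace Cfsg.Agent.S4218

open Subgroup in
/-- automorphisms trivial on the Frattini quotient have `p`-power order -/
theorem aut_pow_of_frattini {Q : Type*} [Group Q] [Finite Q] {p : ℕ} [Fact p.Prime] (hQ : IsPGroup p Q)
    (α : MulAut Q) (h : ∀ q : Q, α q * q⁻¹ ∈ frattini Q) : ∃ k : ℕ, α ^ p ^ k = 1 := by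
  classical
  let A : Subgroup (MulAut Q) :=
    { carrier := {β | ∀ q : Q, β q * q⁻¹ ∈ frattini Q}
      one_mem' := fun q => by
        have : (1 : MulAut Q) q * q⁻¹ = 1 := by simp
        rw [this]; exact one_mem _
      mul_mem' := fun {β γ} hβ hγ q => by
        have : (β * γ) q * q⁻¹ = (β (γ q) * (γ q)⁻¹) * (γ q * q⁻¹) := by
          show β (γ q) * q⁻¹ = _
          group
        rw [this]
        exact mul_mem (hβ _) (hγ _)
      inv_mem' := fun {β} hβ q => by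
        have h1 := inv_mem (hβ (β⁻¹ q))
        have h2 : β (β⁻¹ q) = q := by
          show (β * β⁻¹) q = q
          rw [mul_inv_cancel]; rfl
        rw [h2, mul_inv_rev, inv_inv] at h1
        exact h1 }
  obtain ⟨n, hn⟩ := IsPGroup.iff_card.mp hQ
  have hr : ∃ r, (frattini Q).index = p ^ r := by
    have h1 : (frattini Q).index ∣ p ^ n := by rw [← hn]; exact Subgroup.index_dvd_card _
    obtain ⟨r, _, hr⟩ := (Nat.dvd_prime_pow Fact.out).mp h1
    exact ⟨r, hr⟩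
  obtain ⟨r, hr⟩ := hr
  have h2 := Cfsg.Agent.S4207.result hn hr A (fun β hβ => hβ)
  have h3 : orderOf α ∣ p ^ (r * (n - r)) := by
    have hα : α ∈ A := h
    exact (Subgroup.orderOf_dvd_natCard A hα).trans h2
  exact ⟨_, orderOf_dvd_iff_pow_eq_one.mp h3⟩

/-- Let `G` be a finite `p`-solvable group, `N₀ = O_{p'}(G)`, `P₁ = O_{p',p}(G)`, and let `F ≤ P₁` be the preimage of the Frattini subgroup of `P₁/N₀`. Then an element `g` of `G` induces the identity on `P₁/F` by conjugation (that is, `g x g⁻¹ x⁻¹ ∈ F` for all `x ∈ P₁`) if and only if `g ∈ P₁`: the group `G/P₁` acts faithfully on `P₁/F`. -/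
theorem result {G : Type*} [Group G] [Finite G] {p : ℕ} [Fact p.Prime] (hG : Cfsg.IsPSolvable p G) (g : G) : (∀ x ∈ Cfsg.pPrimePCore p G, g * x * g⁻¹ * x⁻¹ ∈ ((frattini (↥(Cfsg.pPrimePCore p G) ⧸ (Cfsg.pPrimeCore p G).subgroupOf (Cfsg.pPrimePCore p G))).comap (QuotientGroup.mk' ((Cfsg.pPrimeCore p G).subgroupOf (Cfsg.pPrimePCore p G)))).map (Cfsg.pPrimePCore p G).subtype) ↔ g ∈ Cfsg.pPrimePCore p G := by
  classical
  have hpp : p.Prime := Fact.out
  set N0 := Cfsg.pPrimeCore p G with hN0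
  set P1 := Cfsg.pPrimePCore p G with hP1
  haveI hN0n : N0.Normal := inferInstanceAs (Cfsg.pPrimeCore p G).Normal
  have memP1 : ∀ x : G, x ∈ P1 ↔ (QuotientGroup.mk x : G ⧸ N0) ∈ Cfsg.pCore p (G ⧸ N0) := fun x => Iff.rfl
  haveI hP1n : P1.Normal := inferInstanceAs ((Cfsg.pCore p (G ⧸ Cfsg.pPrimeCore p G)).comap (QuotientGroup.mk' (Cfsg.pPrimeCore p G))).Normal
  have hN0P1 : N0 ≤ P1 := by
    intro x hx
    rw [memP1, (QuotientGroup.eq_one_iff x).mpr hx]
    exact one_mem _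
  set N0' : Subgroup P1 := N0.subgroupOf P1 with hN0'
  haveI hN0'n : N0'.Normal := inferInstanceAs (N0.subgroupOf P1).Normal
  have hQp : IsPGroup p (P1 ⧸ N0') := by
    intro q
    induction q using QuotientGroup.induction_on with
    | H x =>
      obtain ⟨k, hk⟩ := (CfsgLib.Cores.pCore_isPGroup (G := G ⧸ N0) p) ⟨_, (memP1 x).mp x.2⟩
      refine ⟨k, ?_⟩
      have hk' : (QuotientGroup.mk (x : G) : G ⧸ N0) ^ p ^ k = 1 := congrArg Subtype.val hk
      rw [← QuotientGroup.mk_pow, QuotientGroup.eq_one_iff] at hk' ⊢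
      rw [hN0', Subgroup.mem_subgroupOf, Subgroup.coe_pow]
      exact hk'
  have memF : ∀ z : P1, (z : G) ∈ ((frattini (P1 ⧸ N0')).comap (QuotientGroup.mk' N0')).map P1.subtype ↔
      (QuotientGroup.mk z : P1 ⧸ N0') ∈ frattini (P1 ⧸ N0') := by
    intro z
    constructor
    · rintro ⟨w, hw, hwz⟩
      have : w = z := Subtype.ext hwz
      exact this ▸ hw
    · intro hz; exact ⟨z, hz, rfl⟩
  constructor
  · intro hg
    -- the induced automorphism
    have hconj : ∀ (g : G) (x : P1), g * (x : G) * g⁻¹ ∈ P1 := fun g x => Subgroup.Normal.conj_mem hP1n _ x.2 g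
    let D : Subgroup G :=
      { carrier := {g | ∀ x : P1, (QuotientGroup.mk (⟨g * (x : G) * g⁻¹, hconj g x⟩ * x⁻¹ : P1) : P1 ⧸ N0') ∈ frattini (P1 ⧸ N0')}
        one_mem' := fun x => by
          have : (⟨1 * (x : G) * 1⁻¹, hconj 1 x⟩ * x⁻¹ : P1) = 1 := by
            apply Subtype.ext
            show 1 * (x : G) * 1⁻¹ * (x : G)⁻¹ = 1
            group
          rw [this]; exact one_mem _
        mul_mem' := fun {a b} ha hb x => by
          have e : (⟨(a * b) * (x : G) * (a * b)⁻¹, hconj (a * b) x⟩ * x⁻¹ : P1) =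
              (⟨a * ((⟨b * (x : G) * b⁻¹, hconj b x⟩ : P1) : G) * a⁻¹, hconj a ⟨b * (x : G) * b⁻¹, hconj b x⟩⟩ *
                (⟨b * (x : G) * b⁻¹, hconj b x⟩ : P1)⁻¹) * ((⟨b * (x : G) * b⁻¹, hconj b x⟩ : P1) * x⁻¹) := by
            apply Subtype.ext
            show (a * b) * (x : G) * (a * b)⁻¹ * (x : G)⁻¹ =
              (a * (b * (x : G) * b⁻¹) * a⁻¹ * (b * (x : G) * b⁻¹)⁻¹) * ((b * (x : G) * b⁻¹) * (x : G)⁻¹)
            group
          rw [e, QuotientGroup.mk_mul]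
          exact mul_mem (ha _) (hb x)
        inv_mem' := fun {a} ha x => by
          have h1 := inv_mem (ha ⟨a⁻¹ * (x : G) * a⁻¹⁻¹, hconj a⁻¹ x⟩)
          rw [← QuotientGroup.mk_inv] at h1
          have e : ((⟨a * ((⟨a⁻¹ * (x : G) * a⁻¹⁻¹, hconj a⁻¹ x⟩ : P1) : G) * a⁻¹, hconj a _⟩ : P1) *
              (⟨a⁻¹ * (x : G) * a⁻¹⁻¹, hconj a⁻¹ x⟩ : P1)⁻¹)⁻¹ = ⟨a⁻¹ * (x : G) * a⁻¹⁻¹, hconj a⁻¹ x⟩ * x⁻¹ := by
            apply Subtype.ext
            show (a * (a⁻¹ * (x : G) * a⁻¹⁻¹) * a⁻¹ * (a⁻¹ * (x : G) * a⁻¹⁻¹)⁻¹)⁻¹ = a⁻¹ * (x : G) * a⁻¹⁻¹ * (x : G)⁻¹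
            group
          rw [e] at h1
          exact h1 }
    have hgD : g ∈ D := by
      intro x
      have h1 := hg x x.2
      have h2 : ((⟨g * (x : G) * g⁻¹, hconj g x⟩ * x⁻¹ : P1) : G) = g * (x : G) * g⁻¹ * (x : G)⁻¹ := rfl
      rw [← h2] at h1
      exact (memF _).mp h1
    -- every element of D has a p-power in P1
    have hDp : ∀ d ∈ D, ∃ k : ℕ, d ^ p ^ k ∈ P1 := by
      intro d hd
      have hmapN : N0'.map ((MulAut.conjNormal d : MulAut P1) : P1 →* P1) = N0' := by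
        apply Subgroup.eq_of_le_of_card_ge
        · rintro _ ⟨x, hx, rfl⟩
          rw [hN0', Subgroup.mem_subgroupOf]
          show ((MulAut.conjNormal d x : P1) : G) ∈ N0
          rw [MulAut.conjNormal_apply]
          exact Subgroup.Normal.conj_mem hN0n _ hx d
        · exact (Nat.card_congr (Subgroup.equivMapOfInjective N0' _ (MulAut.conjNormal d : MulAut P1).injective).toEquiv).le
      let α : MulAut (P1 ⧸ N0') := QuotientGroup.congr N0' N0' (MulAut.conjNormal d : MulAut P1) hmapN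
      have hα : ∀ x : P1, α (QuotientGroup.mk x) = QuotientGroup.mk (⟨d * (x : G) * d⁻¹, hconj d x⟩ : P1) := fun x => rfl
      have hα2 : ∀ q, α q * q⁻¹ ∈ frattini (P1 ⧸ N0') := by
        intro q
        induction q using QuotientGroup.induction_on with
        | H x =>
          rw [hα, ← QuotientGroup.mk_inv, ← QuotientGroup.mk_mul]
          exact hd x
      obtain ⟨k, hk⟩ := aut_pow_of_frattini hQp α hα2
      have hαn : ∀ (n : ℕ) (x : P1), (α ^ n) (QuotientGroup.mk x) = QuotientGroup.mk (⟨d ^ n * (x : G) * (d ^ n)⁻¹, hconj (d ^ n) x⟩ : P1) := by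
        intro n
        induction n with
        | zero =>
          intro x
          have : (⟨d ^ 0 * (x : G) * (d ^ 0)⁻¹, hconj (d ^ 0) x⟩ : P1) = x := by
            apply Subtype.ext
            show d ^ 0 * (x : G) * (d ^ 0)⁻¹ = x
            simp
          rw [this]; rfl
        | succ n ih =>
          intro x
          rw [pow_succ']
          show α ((α ^ n) (QuotientGroup.mk x)) = _
          rw [ih, hα]
          congr 1
          apply Subtype.ext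
          show d * (d ^ n * (x : G) * (d ^ n)⁻¹) * d⁻¹ = d ^ (n + 1) * (x : G) * (d ^ (n + 1))⁻¹
          rw [pow_succ']; group
      refine ⟨k, ?_⟩
      rw [memP1]
      have hHH := CfsgLib.PSolv19.hall_higman (G := G ⧸ N0) (p := p) (CfsgLib.PSolv19.psolv_quotient hpp hG N0)
        (CfsgLib.Cores.pPrimeCore_quotient_pPrimeCore p)
      apply hHH
      rw [Subgroup.mem_centralizer_iff]
      intro y hy
      obtain ⟨x, rfl⟩ := QuotientGroup.mk_surjective y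
      have hx : x ∈ P1 := (memP1 x).mpr hy
      have h1 := hαn (p ^ k) ⟨x, hx⟩
      rw [hk] at h1
      have h2 : (QuotientGroup.mk (⟨x, hx⟩ : P1) : P1 ⧸ N0') = QuotientGroup.mk (⟨d ^ p ^ k * x * (d ^ p ^ k)⁻¹, hconj (d ^ p ^ k) ⟨x, hx⟩⟩ : P1) := h1
      rw [QuotientGroup.eq, hN0', Subgroup.mem_subgroupOf] at h2
      have h3 : x⁻¹ * (d ^ p ^ k * x * (d ^ p ^ k)⁻¹) ∈ N0 := h2
      rw [← QuotientGroup.mk_mul, ← QuotientGroup.mk_mul, QuotientGroup.eq]
      have h4 := Subgroup.Normal.conj_mem hN0n _ h3 (d ^ p ^ k)⁻¹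
      have e : (d ^ p ^ k)⁻¹ * (x⁻¹ * (d ^ p ^ k * x * (d ^ p ^ k)⁻¹)) * (d ^ p ^ k)⁻¹⁻¹ = (x * d ^ p ^ k)⁻¹ * (d ^ p ^ k * x) := by group
      rw [e] at h4
      exact h4
    -- D is normal
    haveI hDn : D.Normal := by
      constructor
      intro d hd c x
      have hcx : c⁻¹ * (x : G) * c⁻¹⁻¹ ∈ P1 := hconj c⁻¹ x
      have h1 := hd ⟨c⁻¹ * (x : G) * c⁻¹⁻¹, hcx⟩
      -- conjugation by c preserves the Frattini subgroup
      have hmapN : N0'.map ((MulAut.conjNormal c : MulAut P1) : P1 →* P1) = N0' := by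
        apply Subgroup.eq_of_le_of_card_ge
        · rintro _ ⟨x, hx, rfl⟩
          rw [hN0', Subgroup.mem_subgroupOf]
          show ((MulAut.conjNormal c x : P1) : G) ∈ N0
          rw [MulAut.conjNormal_apply]
          exact Subgroup.Normal.conj_mem hN0n _ hx c
        · exact (Nat.card_congr (Subgroup.equivMapOfInjective N0' _ (MulAut.conjNormal c : MulAut P1).injective).toEquiv).le
      let α : MulAut (P1 ⧸ N0') := QuotientGroup.congr N0' N0' (MulAut.conjNormal c : MulAut P1) hmapN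
      have hα : ∀ x : P1, α (QuotientGroup.mk x) = QuotientGroup.mk (⟨c * (x : G) * c⁻¹, hconj c x⟩ : P1) := fun x => rfl
      have hchar : ∀ q ∈ frattini (P1 ⧸ N0'), α q ∈ frattini (P1 ⧸ N0') := by
        intro q hq
        have h3 := Subgroup.characteristic_iff_map_eq.mp (inferInstance : (frattini (P1 ⧸ N0')).Characteristic) α
        rw [← h3]
        exact ⟨q, hq, rfl⟩
      have h2 := hchar _ h1
      rw [hα] at h2
      have e : (⟨c * ((⟨d * ((⟨c⁻¹ * (x : G) * c⁻¹⁻¹, hcx⟩ : P1) : G) * d⁻¹, hconj d _⟩ * (⟨c⁻¹ * (x : G) * c⁻¹⁻¹, hcx⟩ : P1)⁻¹ : P1) : G) * c⁻¹, hconj c _⟩ : P1) =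
          (⟨(c * d * c⁻¹) * (x : G) * (c * d * c⁻¹)⁻¹, hconj (c * d * c⁻¹) x⟩ * x⁻¹ : P1) := by
        apply Subtype.ext
        show c * (d * (c⁻¹ * (x : G) * c⁻¹⁻¹) * d⁻¹ * (c⁻¹ * (x : G) * c⁻¹⁻¹)⁻¹) * c⁻¹ = (c * d * c⁻¹) * (x : G) * (c * d * c⁻¹)⁻¹ * (x : G)⁻¹
        group
      rw [e] at h2
      exact h2
    have hDmap : IsPGroup p (D.map (QuotientGroup.mk' N0)) := by
      rintro ⟨_, d, hd, rfl⟩
      obtain ⟨k, hk⟩ := hDp d hd
      rw [memP1] at hk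
      obtain ⟨j, hj⟩ := (CfsgLib.Cores.pCore_isPGroup (G := G ⧸ N0) p) ⟨_, hk⟩
      have hj' : (QuotientGroup.mk (d ^ p ^ k) : G ⧸ N0) ^ p ^ j = 1 := congrArg Subtype.val hj
      refine ⟨k + j, ?_⟩
      apply Subtype.ext
      show (QuotientGroup.mk d : G ⧸ N0) ^ p ^ (k + j) = 1
      rw [pow_add, pow_mul, ← QuotientGroup.mk_pow]
      exact hj'
    have hDn' : (D.map (QuotientGroup.mk' N0)).Normal := Subgroup.Normal.map hDn _ (QuotientGroup.mk'_surjective N0)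
    have hle := CfsgLib.Cores.le_pCore hDn' hDmap
    exact (memP1 g).mpr (hle ⟨g, hgD, rfl⟩)
  · intro hg x hx
    have h1 : (⟨g, hg⟩ * ⟨x, hx⟩ * (⟨g, hg⟩ : P1)⁻¹ * (⟨x, hx⟩ : P1)⁻¹ : P1) ∈ commutator P1 :=
      Subgroup.commutator_mem_commutator (G := P1) (H₁ := ⊤) (H₂ := ⊤) trivial trivial
    have h2 : (QuotientGroup.mk (⟨g, hg⟩ * ⟨x, hx⟩ * (⟨g, hg⟩ : P1)⁻¹ * (⟨x, hx⟩ : P1)⁻¹ : P1) : P1 ⧸ N0') ∈ frattini (P1 ⧸ N0') := by
      apply CfsgLib.SolvFrat.commutator_le_frattini hpp hQp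
      exact Subgroup.commutator_mem_commutator (G := P1 ⧸ N0') (H₁ := ⊤) (H₂ := ⊤)
        (g₁ := QuotientGroup.mk (⟨g, hg⟩ : P1)) (g₂ := QuotientGroup.mk (⟨x, hx⟩ : P1)) trivial trivial
    exact (memF (⟨g, hg⟩ * ⟨x, hx⟩ * (⟨g, hg⟩ : P1)⁻¹ * (⟨x, hx⟩ : P1)⁻¹)).mpr h2

end Cfsg.Agent.S4218
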