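import Cfsg.Statements.S4224
import Mathlib
import Cfsg.Agent.LibH6Regular

set_option autoImplicit false
open Cfsg

namespace Cfsg.Agent.S4224

/-- In a regular `p`-group, for all elements `a`, `b` and every power `q = p^k`: `a^q` commutes with `b` if and only if the commutator `a⁻¹b⁻¹ab` has `q`-th power equal to `1`. -/
theorem result {G : Type*} [Group G] [Finite G] {p : ℕ} [Fact p.Prime] (hG : Cfsg.IsRegularPGroup p G) (a b : G) (k : ℕ) : a ^ p ^ k * b = b * a ^ p ^ k ↔ (a⁻¹ * b⁻¹ * a * b) ^ p ^ k = 1 := by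
  have h1 := CfsgLib.H6.regular_pow_eq hG k _ a⁻¹ (b⁻¹ * a⁻¹ * b) rfl
  have e1 : a⁻¹ * (b⁻¹ * a⁻¹ * b)⁻¹ = a⁻¹ * b⁻¹ * a * b := by group
  rw [e1] at h1
  rw [← h1]
  have e2 : (b⁻¹ * a⁻¹ * b) ^ p ^ k = b⁻¹ * (a ^ p ^ k)⁻¹ * b := by
    have e : b⁻¹ * a⁻¹ * b = b⁻¹ * a⁻¹ * b⁻¹⁻¹ := by rw [inv_inv]
    rw [e, conj_pow, inv_inv, inv_pow]
  rw [e2, inv_pow]
  set c := a ^ p ^ k with hc
  constructor
  · intro h
    have h2 : Commute c⁻¹ b := (show Commute c b from h).inv_left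
    rw [mul_assoc, h2.eq, inv_mul_cancel_left]
  · intro h
    have h2 : b * c⁻¹ = c⁻¹ * b := by
      nth_rewrite 1 [h]
      group
    have h3 : Commute c⁻¹ b := h2.symm
    have := h3.inv_left
    rw [inv_inv] at this
    exact this.eq

end Cfsg.Agent.S4224
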