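import Cfsg.Statements.S4226
import Cfsg.Agent.LibWY4

set_option autoImplicit false
open Cfsg

namespace Cfsg.Agent.S4226

/-- Let `P` be a Sylow `p`-subgroup of the finite group `G` with nilpotency class less than `p` (the term of index `p - 1` of the lower central series of `P`, indexed from `0`, is trivial), and let `N` be its normalizer. Then `O^p(N) = O^p(G) ∩ N`, where `O^p` denotes the subgroup generated by the elements of order prime to `p`; so the largest `p`-factor groups of `G` and of `N` are isomorphic. -/
theorem result {G : Type*} [Group G] [Finite G] {p : ℕ} [Fact p.Prime] (P : Sylow p G) (hcl : (P : Subgroup G).lowerCentralSeries (p - 1) = ⊥) : Cfsg.pResidualOf p (Subgroup.normalizer ((P : Subgroup G) : Set G)) = Cfsg.pResidual p G ⊓ Subgroup.normalizer ((P : Subgroup G) : Set G) := by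
  apply CfsgLib.WY.hall_wielandt P (P : Subgroup G) ⟨le_rfl, ?_⟩ ?_
  · intro g hg
    apply Subgroup.eq_of_le_of_card_ge hg
    rw [Nat.card_congr ((P : Subgroup G).equivMapOfInjective _ (MulAut.conj g).injective).toEquiv.symm]
  · have key : ∀ k, ∀ u ∈ (P : Subgroup G), ∀ z ∈ (P : Subgroup G),
        (CfsgLib.WY.dl z)^[k] u ∈ (P : Subgroup G).lowerCentralSeries k := by
      intro k u hu z hz
      induction k with
      | zero => exact hu
      | succ k ih =>
        rw [Function.iterate_succ_apply', Subgroup.lowerCentralSeries_succ]
        obtain ⟨y, hy⟩ : ∃ y, y = (CfsgLib.WY.dl z)^[k] u := ⟨_, rfl⟩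
        rw [← hy] at ih ⊢
        have h1 := Subgroup.commutator_mem_commutator
          (Subgroup.inv_mem _ ih) ((P : Subgroup G).inv_mem hz)
        rw [CfsgLib.WY.dl]
        rw [commutatorElement_def, inv_inv, inv_inv] at h1
        exact h1
    intro u hu z hz
    have h1 := key (p - 1) u hu z hz
    rw [hcl] at h1
    exact h1


end Cfsg.Agent.S4226
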