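import Cfsg.Statements.S4227
import Mathlib
import Cfsg.Agent.LibH6Norm
import Cfsg.Agent.LibH6CopAb
import Cfsg.Agent.LibHH9
import Cfsg.Agent.LibPSolv19
import Cfsg.Agent.LibBGPlen
import Cfsg.Agent.LibCores
import Cfsg.Agent.S0144

set_option autoImplicit false
open Cfsg

namespace Cfsg.Agent.S4227

open CfsgLib.H6 CfsgLib.Cores

universe u

theorem of_surj {K : Type u} [Group K] (v : Abelianization K) : ∃ x, Abelianization.of x = v := by
  obtain ⟨x, hx⟩ := QuotientGroup.mk_surjective (s := _root_.commutator K) v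
  exact ⟨x, hx⟩

theorem plen_iff {G : Type u} [Group G] [Finite G] (p : ℕ) : Cfsg.PLengthLE p 1 G ↔
    (Cfsg.pCore p (G ⧸ Cfsg.pPrimeCore p G)).index.Coprime p := by
  rw [CfsgLib.BGPi.plen_one_iff_index]
  unfold Cfsg.pPrimePCore
  rw [Subgroup.index_comap_of_surjective _ (QuotientGroup.mk'_surjective _)]

theorem pow_of_pgroup {G : Type u} [Group G] (h : ∀ x : G, x ^ 6 = 1) {p : ℕ} (hp : p.Prime)
    (hp6 : p = 2 ∨ p = 3) {T : Subgroup G} (hT : IsPGroup p T) : ∀ x ∈ T, x ^ p = 1 := by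
  intro x hx
  obtain ⟨k, hk⟩ := hT ⟨x, hx⟩
  have hk' : x ^ p ^ k = 1 := congrArg Subtype.val hk
  have h1 : orderOf x ∣ p ^ k := orderOf_dvd_of_pow_eq_one hk'
  have h2 : orderOf x ∣ 6 := orderOf_dvd_of_pow_eq_one (h x)
  apply orderOf_dvd_iff_pow_eq_one.mp
  rcases hp6 with rfl | rfl
  · have h3 : orderOf x ∣ 2 * 3 := h2
    exact ((Nat.Coprime.pow_left k (by norm_num : Nat.Coprime 2 3)).coprime_dvd_left h1).dvd_of_dvd_mul_right h3
  · have h3 : orderOf x ∣ 2 * 3 := h2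
    exact ((Nat.Coprime.pow_left k (by norm_num : Nat.Coprime 3 2)).coprime_dvd_left h1).dvd_of_dvd_mul_left h3

theorem solv {G : Type u} [Group G] [Finite G] (h : ∀ x : G, x ^ 6 = 1) : Group.IsSolvable G := by
  have hc : ∀ q : ℕ, q.Prime → q ∣ Nat.card G → q = 2 ∨ q = 3 := by
    intro q hq hd
    have : Fact q.Prime := ⟨hq⟩
    obtain ⟨x, hx⟩ := exists_prime_orderOf_dvd_card' q hd
    have h1 : q ∣ 2 * 3 := by rw [← hx]; exact orderOf_dvd_of_pow_eq_one (h x)
    rcases (Nat.Prime.dvd_mul hq).mp h1 with h2 | h2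
    · left; exact (Nat.prime_dvd_prime_iff_eq hq Nat.prime_two).mp h2
    · right; exact (Nat.prime_dvd_prime_iff_eq hq Nat.prime_three).mp h2
  obtain ⟨a, m, hm, ham⟩ := Nat.exists_eq_pow_mul_and_not_dvd (Nat.card_pos (α := G)).ne' 2 (by norm_num)
  have hm0 : m ≠ 0 := by rintro rfl; simp at hm
  obtain ⟨b, n, hn, hbn⟩ := Nat.exists_eq_pow_mul_and_not_dvd hm0 3 (by norm_num)
  have hn1 : n = 1 := by
    by_contra hne
    obtain ⟨q, hq, hqn⟩ := Nat.exists_prime_and_dvd hne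
    have h1 : q ∣ m := hbn ▸ hqn.mul_left _
    rcases hc q hq (ham ▸ h1.mul_left _) with rfl | rfl
    · exact hm h1
    · exact hn hqn
  rw [hn1, mul_one] at hbn
  rw [hbn] at ham
  exact Cfsg.Agent.S0144.result 2 3 a b Nat.prime_two Nat.prime_three ham

theorem two_part {H : Type u} [Group H] [Finite H] (h : ∀ x : H, x ^ 6 = 1)
    (hO : Cfsg.pPrimeCore 2 H = ⊥) : (Cfsg.pCore 2 H).index.Coprime 2 := by
  have : Fact (Nat.Prime 2) := ⟨Nat.prime_two⟩
  have hs := solv h
  have h1 := CfsgLib.PSolv19.hall_higman (p := 2) (CfsgLib.PSolv19.psolv_of_solvable _ rfl hs) hO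
  obtain ⟨T⟩ := (inferInstance : Nonempty (Sylow 2 H))
  have hTe := pow_of_pgroup h Nat.prime_two (Or.inl rfl) T.2
  have hTc : (T : Subgroup H) ≤ Subgroup.centralizer (Cfsg.pCore 2 H : Set H) := by
    intro x hx
    rw [Subgroup.mem_centralizer_iff]
    intro y hy
    have hy' : y ∈ (T : Subgroup H) := pCore_le_sylow T hy
    have h2 := hTe x hx
    have h3 := hTe y hy'
    have h4 := hTe (y * x) ((T : Subgroup H).mul_mem hy' hx)
    have e1 : x⁻¹ = x := by rw [inv_eq_iff_mul_eq_one, ← pow_two, h2]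
    have e2 : y⁻¹ = y := by rw [inv_eq_iff_mul_eq_one, ← pow_two, h3]
    have e3 : (y * x)⁻¹ = y * x := by rw [inv_eq_iff_mul_eq_one, ← pow_two, h4]
    rw [mul_inv_rev, e1, e2] at e3
    exact e3.symm
  have h2 : (T : Subgroup H) ≤ Cfsg.pCore 2 H := hTc.trans h1
  rw [Nat.coprime_comm, Nat.Prime.coprime_iff_not_dvd Nat.prime_two]
  intro hd
  exact T.not_dvd_index (hd.trans (Subgroup.index_dvd_of_le h2))

theorem core_quot {H : Type u} [Group H] [Finite H] (N : Subgroup H) [N.Normal]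
    (h : N = Cfsg.pCore 3 H) : Cfsg.pCore 3 (H ⧸ N) = ⊥ := by
  subst h; exact pCore_quotient_pCore 3

theorem three_part {H : Type u} [Group H] [Finite H] (h : ∀ x : H, x ^ 6 = 1)
    (hO : Cfsg.pPrimeCore 3 H = ⊥) : (Cfsg.pCore 3 H).index.Coprime 3 := by
  have : Fact (Nat.Prime 3) := ⟨Nat.prime_three⟩
  have hs := solv h
  have h1 := CfsgLib.PSolv19.hall_higman (p := 3) (CfsgLib.PSolv19.psolv_of_solvable _ rfl hs) hO
  obtain ⟨K, hK⟩ : ∃ K, K = Cfsg.pCore 3 H := ⟨_, rfl⟩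
  have hKn : K.Normal := by rw [hK]; infer_instance
  have hKp : IsPGroup 3 K := by rw [hK]; exact pCore_isPGroup 3
  rw [← hK] at h1
  rw [← hK]
  obtain ⟨P⟩ := (inferInstance : Nonempty (Sylow 3 H))
  have hKP : K ≤ (P : Subgroup H) := normal_le_sylow hKn hKp P
  have hPe := pow_of_pgroup h Nat.prime_three (Or.inr rfl) P.2
  by_contra hcon
  have hnle : ¬ (P : Subgroup H) ≤ K := by
    intro hle
    apply hcon
    rw [Nat.coprime_comm, Nat.Prime.coprime_iff_not_dvd Nat.prime_three]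
    intro hd
    exact P.not_dvd_index (hd.trans (Subgroup.index_dvd_of_le hle))
  obtain ⟨x, hxP, hxK⟩ := SetLike.not_le_iff_exists.mp hnle
  -- the kernel of the action
  obtain ⟨C, hC⟩ : ∃ C, C = (conjAb K).ker := ⟨_, rfl⟩
  have hCn : C.Normal := by rw [hC]; infer_instance
  have hKC : K ≤ C := by
    intro k hk
    rw [hC, MonoidHom.mem_ker]
    ext v
    obtain ⟨v, rfl⟩ := of_surj v
    rw [MulAut.one_apply, conjAb_of]
    have h2 : MulAut.conjNormal k v = ⟨k, hk⟩ * v * ⟨k, hk⟩⁻¹ :=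
      Subtype.ext (MulAut.conjNormal_apply _ _)
    rw [h2, map_mul, map_mul, map_inv, mul_comm (Abelianization.of _) (Abelianization.of v),
      mul_inv_cancel_right]
  have hCK : C = K := by
    refine le_antisymm ?_ hKC
    conv_rhs => rw [hK]
    refine le_pCore hCn ?_
    rw [IsPGroup.iff_card]
    -- no elements of other prime order
    have hprime : ∀ q : ℕ, q.Prime → q ∣ Nat.card C → q = 3 := by
      intro q hq hqd
      have : Fact q.Prime := ⟨hq⟩
      by_contra hq3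
      obtain ⟨y, hy⟩ := exists_prime_orderOf_dvd_card' q hqd
      have hyo : orderOf (y : H) = q := by rw [Subgroup.orderOf_coe]; exact hy
      have h2 : Subgroup.zpowers (y : H) ≤ Subgroup.centralizer (K : Set H) := by
        apply coprime_centralizes_of_ab
        · rw [Subgroup.normalizer_eq_top]; exact le_top
        · rw [Nat.card_zpowers, hyo]
          obtain ⟨k, hk⟩ := IsPGroup.iff_card.mp hKp
          rw [hk]
          exact Nat.Coprime.pow_right k ((Nat.coprime_primes hq Nat.prime_three).mpr hq3)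
        · exact hKp.isNilpotent
        · apply commutator_le_of_conjAb
          intro a ha v
          have h3 : a ∈ C := by
            have : Subgroup.zpowers (y : H) ≤ C := by rw [Subgroup.zpowers_le]; exact y.2
            exact this ha
          rw [hC, MonoidHom.mem_ker] at h3
          rw [h3]; rfl
      have h3 : (y : H) ∈ K := h1 (h2 (Subgroup.mem_zpowers _))
      obtain ⟨k, hk⟩ := (IsPGroup.iff_orderOf.mp hKp) ⟨y, h3⟩
      rw [Subgroup.orderOf_mk, hyo] at hk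
      have h4 : q ∣ 3 ^ k := hk ▸ dvd_rfl
      exact hq3 ((Nat.prime_dvd_prime_iff_eq hq Nat.prime_three).mp (hq.dvd_of_dvd_pow h4))
    refine ⟨(Nat.card C).primeFactorsList.length, ?_⟩
    exact Nat.eq_prime_pow_of_unique_prime_dvd Nat.card_pos.ne' (fun {q} hq hd => hprime q hq hd)
  -- the group `A = H / C`
  have hA6 : ∀ a : H ⧸ (conjAb K).ker, a ^ 6 = 1 := by
    intro a
    obtain ⟨y, rfl⟩ := QuotientGroup.mk_surjective a
    show ((y ^ 6 : H) : H ⧸ (conjAb K).ker) = 1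
    rw [h y]; rfl
  have hker : (conjAb K).ker = Cfsg.pCore 3 H := by rw [← hC, hCK, hK]
  have hA3 : Cfsg.pCore 3 (H ⧸ (conjAb K).ker) = ⊥ := core_quot _ hker
  have hA2 : Cfsg.pPrimeCore 2 (H ⧸ (conjAb K).ker) = ⊥ := by
    rw [eq_bot_iff, ← hA3]
    refine le_pCore inferInstance ?_
    intro y
    refine ⟨1, ?_⟩
    have h2 : orderOf (y : H ⧸ (conjAb K).ker) ∣ 2 * 3 := orderOf_dvd_of_pow_eq_one (hA6 _)
    have h3 : (orderOf (y : H ⧸ (conjAb K).ker)).Coprime 2 :=
      Nat.Coprime.coprime_dvd_left (Subgroup.orderOf_dvd_natCard _ y.2) (pPrimeCore_coprime 2)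
    have h4 : orderOf (y : H ⧸ (conjAb K).ker) ∣ 3 := h3.dvd_of_dvd_mul_left h2
    rw [pow_one]
    exact Subtype.ext (orderOf_dvd_iff_pow_eq_one.mp h4)
  have hA2i := two_part hA6 hA2
  have hab : CfsgLib.HH9.AbLen 3 (H ⧸ (conjAb K).ker) := by
    have hexp := pow_of_pgroup hA6 Nat.prime_two (Or.inl rfl)
      (pCore_isPGroup (G := H ⧸ (conjAb K).ker) 2)
    refine ⟨⊥, Cfsg.pCore 2 (H ⧸ (conjAb K).ker), inferInstance, inferInstance, IsPGroup.of_bot,
      ?_, ?_, ?_⟩
    · intro a ha b hb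
      rw [Subgroup.mem_bot, commutatorElement_eq_one_iff_mul_comm]
      have h2 := hexp a ha
      have h3 := hexp b hb
      have h4 := hexp (b * a) (mul_mem hb ha)
      have e1 : a⁻¹ = a := by rw [inv_eq_iff_mul_eq_one, ← pow_two, h2]
      have e2 : b⁻¹ = b := by rw [inv_eq_iff_mul_eq_one, ← pow_two, h3]
      have e3 : (b * a)⁻¹ = b * a := by rw [inv_eq_iff_mul_eq_one, ← pow_two, h4]
      rw [mul_inv_rev, e1, e2] at e3
      exact e3
    · intro a ha
      exact ⟨2, by norm_num, by rw [Subgroup.mem_bot]; exact hexp a ha⟩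
    · intro a
      refine ⟨1, ?_⟩
      rw [pow_one, ← QuotientGroup.eq_one_iff]
      have h2 : ((a : (H ⧸ (conjAb K).ker) ⧸ Cfsg.pCore 2 (H ⧸ (conjAb K).ker))) ^ 6 = 1 := by
        rw [← QuotientGroup.mk_pow, hA6]; rfl
      have h3 : orderOf ((a : (H ⧸ (conjAb K).ker) ⧸ Cfsg.pCore 2 (H ⧸ (conjAb K).ker))) ∣ 2 * 3 :=
        orderOf_dvd_of_pow_eq_one h2
      have h4 : (orderOf ((a : (H ⧸ (conjAb K).ker) ⧸
          Cfsg.pCore 2 (H ⧸ (conjAb K).ker)))).Coprime 2 := by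
        refine Nat.Coprime.coprime_dvd_left (orderOf_dvd_natCard _) ?_
        rwa [← Subgroup.index_eq_card]
      rw [QuotientGroup.mk_pow]
      exact orderOf_dvd_iff_pow_eq_one.mp (h4.dvd_of_dvd_mul_left h3)
  have hg := CfsgLib.HH9.hh_core (p := 3) (V := Abelianization K) (fun v => by
      obtain ⟨v, rfl⟩ := of_surj v
      obtain ⟨k, hk⟩ := hKp v
      refine ⟨k, ?_⟩
      rw [← map_pow, hk, map_one]) hab hA3 (QuotientGroup.kerLift (conjAb K))
    (QuotientGroup.kerLift_injective _) (x : H ⧸ (conjAb K).ker) (fun v => by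
      obtain ⟨v, rfl⟩ := of_surj v
      obtain ⟨w, hw1, hw2⟩ := mul_pow_norm K Abelianization.of (conjAb K)
        (fun g k => conjAb_of K g k) x v 3
      rw [hPe x hxP, mul_one, hPe _ ((P : Subgroup H).mul_mem (hKP v.2) hxP)] at hw1
      have hw : w = 1 := Subtype.ext hw1
      rw [hw, map_one] at hw2
      exact hw2.symm)
  apply hxK
  have h2 : x ∈ (conjAb K).ker := (QuotientGroup.eq_one_iff x).mp hg
  rw [hker, ← hK] at h2
  exact h2

/-- A finite group in which every element has order dividing `6` has `2`-length at most `1` and `3`-length at most `1`. -/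
theorem result {G : Type*} [Group G] [Finite G] (h : ∀ x : G, x ^ 6 = 1) : Cfsg.PLengthLE 2 1 G ∧ Cfsg.PLengthLE 3 1 G := by
  have hq : ∀ p : ℕ, ∀ a : G ⧸ Cfsg.pPrimeCore p G, a ^ 6 = 1 := by
    intro p a
    obtain ⟨y, rfl⟩ := QuotientGroup.mk_surjective a
    show ((y ^ 6 : G) : G ⧸ Cfsg.pPrimeCore p G) = 1
    rw [h y]; rfl
  have : Fact (Nat.Prime 2) := ⟨Nat.prime_two⟩
  have : Fact (Nat.Prime 3) := ⟨Nat.prime_three⟩
  rw [plen_iff, plen_iff]
  exact ⟨two_part (hq 2) (pPrimeCore_quotient_pPrimeCore 2),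
    three_part (hq 3) (pPrimeCore_quotient_pPrimeCore 3)⟩

end Cfsg.Agent.S4227
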