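import Cfsg.Statements.S4275
import Mathlib

set_option autoImplicit false
open Cfsg

namespace Cfsg.Agent.S4275

theorem mk_perm {Ω : Type*} [Fintype Ω] (G : Subgroup (Equiv.Perm Ω))
    (htr : MulAction.IsPretransitive G Ω) (o : Ω) (α : G ≃* G) (ω : Ω)
    (hω : ∀ g ∈ MulAction.stabilizer G o, α g • ω = ω) :
    ∃ σ : Equiv.Perm Ω, ∀ (g : G) (x : Ω), σ (g • x) = α g • σ x := by
  classical
  choose f hf using fun x : Ω => MulAction.exists_smul_eq G o x
  have hwd : ∀ g h : G, g • o = h • o → α g • ω = α h • ω := by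
    intro g h hgh
    have h1 : h⁻¹ * g ∈ MulAction.stabilizer G o := by
      rw [MulAction.mem_stabilizer_iff, mul_smul, hgh, inv_smul_smul]
    have h2 := hω _ h1
    rw [map_mul, map_inv, mul_smul, inv_smul_eq_iff] at h2
    exact h2
  let s : Ω → Ω := fun x => α (f x) • ω
  have hs : ∀ (g : G) (x : Ω), s (g • x) = α g • s x := by
    intro g x
    change α (f (g • x)) • ω = α g • (α (f x) • ω)
    rw [smul_smul, ← map_mul]
    apply hwd
    rw [hf, mul_smul, hf]
  have hsurj : Function.Surjective s := by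
    intro y
    obtain ⟨g, hg⟩ := MulAction.exists_smul_eq G (s o) y
    refine ⟨α.symm g • o, ?_⟩
    rw [hs, MulEquiv.apply_symm_apply, hg]
  have hbij : Function.Bijective s := Finite.surjective_iff_bijective.mp hsurj
  exact ⟨Equiv.ofBijective s hbij, hs⟩

/-- Let G be a transitive group of permutations of a finite set Ω, let o ∈ Ω, and let α be an automorphism of G. Then α is induced by conjugation by a permutation of Ω normalizing G if and only if the image under α of the stabilizer of o fixes some point of Ω. -/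
theorem result {Ω : Type*} [Fintype Ω] (G : Subgroup (Equiv.Perm Ω)) (htr : MulAction.IsPretransitive G Ω) (o : Ω) (α : G ≃* G) : (∃ σ : Equiv.Perm Ω, σ ∈ Subgroup.normalizer (G : Set (Equiv.Perm Ω)) ∧ ∀ g : G, ((α g : G) : Equiv.Perm Ω) = σ * (g : Equiv.Perm Ω) * σ⁻¹) ↔ ∃ ω : Ω, ∀ g ∈ (MulAction.stabilizer G o).map α.toMonoidHom, g • ω = ω := by
  constructor
  · rintro ⟨σ, -, hσ⟩
    refine ⟨σ o, ?_⟩
    rintro _ ⟨g, hg, rfl⟩
    have hg' : (g : Equiv.Perm Ω) o = o := hg
    change ((α g : G) : Equiv.Perm Ω) (σ o) = σ o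
    rw [hσ g]
    simp [hg']
  · rintro ⟨ω, hω⟩
    obtain ⟨σ, hσ⟩ := mk_perm G htr o α ω (fun g hg => hω _ ⟨g, hg, rfl⟩)
    have h1 : ∀ g : G, ((α g : G) : Equiv.Perm Ω) = σ * (g : Equiv.Perm Ω) * σ⁻¹ := by
      intro g
      rw [eq_mul_inv_iff_mul_eq]
      ext x
      exact (hσ g x).symm
    refine ⟨σ, ?_, h1⟩
    rw [Subgroup.mem_normalizer_iff]
    intro h
    constructor
    · intro hh
      have := h1 ⟨h, hh⟩
      rw [← this]
      exact (α ⟨h, hh⟩).2
    · intro hh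
      have h2 := h1 (α.symm ⟨σ * h * σ⁻¹, hh⟩)
      rw [MulEquiv.apply_symm_apply] at h2
      have h3 : h = ((α.symm ⟨σ * h * σ⁻¹, hh⟩ : G) : Equiv.Perm Ω) := by
        have h4 : σ * h * σ⁻¹ = σ * ((α.symm ⟨σ * h * σ⁻¹, hh⟩ : G) : Equiv.Perm Ω) * σ⁻¹ := h2
        exact mul_left_cancel (mul_right_cancel h4)
      rw [h3]
      exact (α.symm ⟨σ * h * σ⁻¹, hh⟩).2

end Cfsg.Agent.S4275
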