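import Cfsg.Statements.S4276
import Mathlib
import Cfsg.Agent.S4275

set_option autoImplicit false
open Cfsg

namespace Cfsg.Agent.S4276

open Matrix

/-- invariance of matrix powers -/
theorem pow_inv {G Ω : Type*} [Group G] [Fintype Ω] [DecidableEq Ω] [MulAction G Ω] (β : MulAut G)
    (M : Matrix Ω Ω ℤ) (hM : ∀ (g : G) (x y : Ω), M (g • x) (β g • y) = M x y) (j : ℕ) :
    ∀ (g : G) (x y : Ω), (M ^ j) (g • x) ((β ^ j) g • y) = (M ^ j) x y := by
  induction j with
  | zero =>
    intro g x y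
    rw [pow_zero, pow_zero, MulAut.one_apply]
    simp only [Matrix.one_apply]
    congr 1
    simp
  | succ j ih =>
    intro g x y
    rw [pow_succ' M, Matrix.mul_apply, Matrix.mul_apply]
    have hb : (β ^ (j + 1)) g = (β ^ j) (β g) := by
      rw [pow_succ, MulAut.mul_apply]
    rw [hb]
    rw [← Equiv.sum_comp (MulAction.toPerm (β g))]
    apply Finset.sum_congr rfl
    intro z _
    rw [MulAction.toPerm_apply, hM, ih]

theorem two_trans_form {G Ω : Type*} [Group G] [Fintype Ω] [DecidableEq Ω] [MulAction G Ω]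
    (h2 : MulAction.IsMultiplyPretransitive G Ω 2) (x0 y0 : Ω) (hxy : x0 ≠ y0)
    (N : Matrix Ω Ω ℤ) (hN : ∀ (g : G) (x y : Ω), N (g • x) (g • y) = N x y) :
    N = (N x0 x0 - N x0 y0) • (1 : Matrix Ω Ω ℤ) + (N x0 y0) • (Matrix.of fun _ _ => 1) := by
  haveI : MulAction.IsPretransitive G Ω := MulAction.isPretransitive_of_is_two_pretransitive
  ext x y
  rw [Matrix.add_apply, Matrix.smul_apply, Matrix.smul_apply, Matrix.of_apply]
  by_cases h : x = y
  · subst h
    obtain ⟨g, rfl⟩ := MulAction.exists_smul_eq G x0 x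
    rw [hN]; simp
  · obtain ⟨g, hg1, hg2⟩ := MulAction.is_two_pretransitive_iff.mp h2 hxy h
    rw [← hg1, ← hg2, hN, Matrix.one_apply_ne]
    · simp
    · rw [hg1, hg2]; exact h

theorem mul_transpose_pow {Ω : Type*} [Fintype Ω] [DecidableEq Ω] (M J : Matrix Ω Ω ℤ)
    (c d k : ℤ) (h1 : M * Mᵀ = c • (1 : Matrix Ω Ω ℤ) + d • J) (h2 : M * J = k • J)
    (h3 : J * Mᵀ = k • J) (j : ℕ) :
    ∃ e : ℤ, M ^ j * Mᵀ ^ j = (c ^ j) • (1 : Matrix Ω Ω ℤ) + e • J := by
  induction j with
  | zero => exact ⟨0, by simp⟩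
  | succ j ih =>
    obtain ⟨e, he⟩ := ih
    refine ⟨c ^ j * d + e * k * k, ?_⟩
    have : M ^ (j + 1) * Mᵀ ^ (j + 1) = M * (M ^ j * Mᵀ ^ j) * Mᵀ := by
      rw [pow_succ' M, pow_succ Mᵀ]
      simp only [Matrix.mul_assoc]
    rw [this, he, Matrix.mul_add, Matrix.add_mul, Matrix.mul_smul, Matrix.mul_one,
      Matrix.mul_smul, h2, Matrix.smul_mul, h1, Matrix.smul_mul, Matrix.smul_mul, h3]
    rw [smul_add, smul_smul, smul_smul, smul_smul, smul_smul, add_assoc, ← add_smul, ← pow_succ]

theorem pow_mul_J {Ω : Type*} [Fintype Ω] [DecidableEq Ω] (M J : Matrix Ω Ω ℤ) (k : ℤ)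
    (h2 : M * J = k • J) (j : ℕ) : M ^ j * J = (k ^ j) • J := by
  induction j with
  | zero => simp
  | succ j ih =>
    rw [pow_succ, Matrix.mul_assoc, h2, Matrix.mul_smul, ih, smul_smul, mul_comm, pow_succ]

/-- number theory -/
theorem arith (n k c d a b : ℤ) (s : ℕ) (hn : 2 ≤ n) (hk1 : 1 ≤ k) (hkn : k ≤ n)
    (hcop : IsCoprime k n) (hd : 0 ≤ d) (hcd : c + d = k) (hk2 : c + n * d = k ^ 2)
    (ha : a ^ 2 = c ^ (2 * s + 1)) (hab : a + n * b = k ^ (2 * s + 1)) : k = 1 ∨ k = n - 1 := by
  have hlt : k < n := by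
    rcases lt_or_eq_of_le hkn with h | h
    · exact h
    · exfalso
      rw [h] at hcop
      have := Int.isUnit_iff.mp (isCoprime_self.mp hcop)
      omega
  have hc0 : 0 ≤ c := by
    by_contra hneg
    push Not at hneg
    have h1 : c ^ (2 * s + 1) < 0 := Odd.pow_neg ⟨s, rfl⟩ hneg
    nlinarith [sq_nonneg a]
  -- `c` is a square
  obtain ⟨u, hu0, hu⟩ : ∃ u : ℤ, 0 ≤ u ∧ u ^ 2 = c := by
    rcases hc0.eq_or_lt with h | h
    · exact ⟨0, le_refl _, by rw [← h]; norm_num⟩
    · have hdvd : (c ^ s) ^ 2 ∣ a ^ 2 := by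
        rw [ha]
        exact ⟨c, by ring⟩
      have hdvd' : c ^ s ∣ a := (Int.pow_dvd_pow_iff (by norm_num)).mp hdvd
      obtain ⟨v, hv⟩ := hdvd'
      have hcs : (c ^ s) ^ 2 ≠ 0 := by positivity
      have h3 : v ^ 2 = c := by
        apply mul_left_cancel₀ hcs
        calc (c ^ s) ^ 2 * v ^ 2 = a ^ 2 := by rw [hv]; ring
          _ = c ^ (2 * s + 1) := ha
          _ = (c ^ s) ^ 2 * c := by ring
      exact ⟨|v|, abs_nonneg v, by rw [sq_abs, h3]⟩
  have ha' : a = u ^ (2 * s + 1) ∨ a = - u ^ (2 * s + 1) := by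
    apply sq_eq_sq_iff_eq_or_eq_neg.mp
    rw [ha, ← hu]; ring
  -- congruences
  have hcong : n ∣ k ^ 2 - u ^ 2 := ⟨d, by rw [hu]; linarith⟩
  have hcong2 : n ∣ (k ^ 2) ^ s - (u ^ 2) ^ s := hcong.trans (sub_dvd_pow_sub_pow _ _ s)
  have hucop : IsCoprime (u ^ 2) n := by
    have h1 : IsCoprime (k ^ 2) n := hcop.pow_left
    obtain ⟨t, ht⟩ := hcong
    have : u ^ 2 = k ^ 2 + n * (-t) := by linarith
    rw [this]
    exact h1.add_mul_left_left (-t)
  have hus : IsCoprime ((u ^ 2) ^ s) n := hucop.pow_left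
  have hule : u ≤ k := by
    by_contra h
    push Not at h
    nlinarith
  have key : ∀ ε : ℤ, a = ε * u ^ (2 * s + 1) → n ∣ k - ε * u := by
    intro ε hε
    have h1 : n ∣ (u ^ 2) ^ s * (k - ε * u) := by
      have h2 : (u ^ 2) ^ s * (k - ε * u) =
          (k ^ (2 * s + 1) - a) - k * ((k ^ 2) ^ s - (u ^ 2) ^ s) := by
        rw [hε]; ring
      rw [h2]
      apply dvd_sub
      · exact ⟨b, by linarith⟩
      · exact Dvd.dvd.mul_left hcong2 k
    exact hus.symm.dvd_of_dvd_mul_left h1
  rcases ha' with h | h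
  · left
    have h1 := key 1 (by rw [h]; ring)
    have h2 : k - 1 * u = 0 := by
      apply Int.eq_zero_of_dvd_of_nonneg_of_lt _ _ h1
      · linarith
      · linarith
    have h3 : u = k := by linarith
    subst h3
    nlinarith
  · right
    have h1 := key (-1) (by rw [h]; ring)
    obtain ⟨t, ht⟩ := h1
    have ht1 : t = 1 := by
      have h3 : 0 < n * t := by rw [← ht]; linarith
      have h4 : n * t < n * 2 := by rw [← ht]; linarith
      have h5 : 0 < t := by
        by_contra hh
        push Not at hh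
        nlinarith
      have h6 : t < 2 := by
        by_contra hh
        push Not at hh
        nlinarith
      omega
    rw [ht1, mul_one] at ht
    have hu' : u = n - k := by linarith
    have h7 : n * (n - 2 * k + d) = 0 := by
      have : c = (n - k) ^ 2 := by rw [← hu, hu']
      nlinarith
    have h8 : n - 2 * k + d = 0 := by
      rcases mul_eq_zero.mp h7 with h | h
      · omega
      · exact h
    have h9 : (n - k) ^ 2 = n - k := by
      have : c = (n - k) ^ 2 := by rw [← hu, hu']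
      rw [← this]; linarith
    have h10 : (n - k) * (n - k - 1) = 0 := by nlinarith
    rcases mul_eq_zero.mp h10 with h | h
    · omega
    · linarith

theorem main {G Ω : Type*} [Group G] [Fintype Ω] [DecidableEq Ω] [MulAction G Ω]
    (h2 : MulAction.IsMultiplyPretransitive G Ω 2) (o : Ω) (α : MulAut G) (hα : Odd (orderOf α))
    (ω : Ω) (k : ℕ) (hkdef : k = Nat.card (MulAction.orbit ((MulAction.stabilizer G o).map
      α.toMonoidHom) ω)) (hk : k.Coprime (Fintype.card Ω)) : k = 1 ∨ k = Fintype.card Ω - 1 := by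
  classical
  set n := Fintype.card Ω with hn
  rcases Nat.lt_or_ge n 2 with hn2 | hn2
  · -- at most one point
    left
    haveI : Subsingleton Ω := by
      rw [← Fintype.card_le_one_iff_subsingleton]; omega
    rw [hkdef, Nat.card_eq_one_iff_unique]
    exact ⟨inferInstance, ⟨⟨ω, MulAction.mem_orbit_self _⟩⟩⟩
  haveI : MulAction.IsPretransitive G Ω := MulAction.isPretransitive_of_is_two_pretransitive
  obtain ⟨x0, y0, hxy⟩ : ∃ x y : Ω, x ≠ y :=
    Fintype.exists_pair_of_one_lt_card (by omega)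
  let β : MulAut G := α⁻¹
  let M : Matrix Ω Ω ℤ := Matrix.of fun x y => if ∃ g : G, g • ω = x ∧ β g • o = y then 1 else 0
  let J : Matrix Ω Ω ℤ := Matrix.of fun _ _ => 1
  have hM : ∀ (g : G) (x y : Ω), M (g • x) (β g • y) = M x y := by
    intro g x y
    simp only [M, Matrix.of_apply]
    congr 1
    apply propext
    constructor
    · rintro ⟨h, h1, h3⟩
      refine ⟨g⁻¹ * h, ?_, ?_⟩
      · rw [mul_smul, h1, inv_smul_smul]
      · rw [map_mul, map_inv, mul_smul, h3, inv_smul_smul]
    · rintro ⟨h, h1, h3⟩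
      refine ⟨g * h, ?_, ?_⟩
      · rw [mul_smul, h1]
      · rw [map_mul, mul_smul, h3]
  have hM01 : ∀ x y, M x y = 0 ∨ M x y = 1 := by
    intro x y
    simp only [M, Matrix.of_apply]
    split_ifs
    · exact Or.inr rfl
    · exact Or.inl rfl
  -- column sums
  have hcol0 : ∑ x, M x o = (k : ℤ) := by
    have h1 : ∑ x, M x o = ((Finset.univ.filter (fun x : Ω => ∃ g : G, g • ω = x ∧ β g • o = o)).card : ℤ) := by
      rw [Finset.card_filter]
      push_cast
      rfl
    rw [h1, hkdef]
    congr 1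
    rw [Nat.card_eq_fintype_card, ← Set.toFinset_card]
    congr 1
    ext x
    rw [Finset.mem_filter, Set.mem_toFinset]
    constructor
    · rintro ⟨_, g, hg1, hg2⟩
      refine ⟨⟨g, β g, hg2, ?_⟩, hg1⟩
      change α (α⁻¹ g) = g
      exact MulAut.apply_inv_self G α g
    · rintro ⟨⟨_, g, hg, rfl⟩, h⟩
      refine ⟨Finset.mem_univ _, α g, h, ?_⟩
      have : β (α g) = g := MulAut.inv_apply_self G α g
      rw [this]; exact hg
  have hcol : ∀ y, ∑ x, M x y = (k : ℤ) := by
    intro y
    obtain ⟨h, rfl⟩ := MulAction.exists_smul_eq G o y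
    have hh : h = β (α h) := (MulAut.inv_apply_self G α h).symm
    rw [← hcol0, ← Equiv.sum_comp (MulAction.toPerm (α h))]
    apply Finset.sum_congr rfl
    intro x _
    rw [MulAction.toPerm_apply]
    have h5 := hM (α h) x o
    rw [← hh] at h5
    exact h5
  -- row sums
  have hrow_const : ∀ x, ∑ y, M x y = ∑ y, M x0 y := by
    intro x
    obtain ⟨g, rfl⟩ := MulAction.exists_smul_eq G x0 x
    rw [← Equiv.sum_comp (MulAction.toPerm (β g))]
    apply Finset.sum_congr rfl
    intro y _
    rw [MulAction.toPerm_apply, hM]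
  have hrow : ∀ x, ∑ y, M x y = (k : ℤ) := by
    have h1 : ∑ x, ∑ y, M x y = ∑ y, ∑ x, M x y := Finset.sum_comm
    rw [Finset.sum_congr rfl (fun y _ => hcol y)] at h1
    rw [Finset.sum_congr rfl (fun x _ => hrow_const x)] at h1
    rw [Finset.sum_const, Finset.sum_const, Finset.card_univ, nsmul_eq_mul, nsmul_eq_mul] at h1
    have h3 : ((Fintype.card Ω : ℕ) : ℤ) ≠ 0 := by
      have : Fintype.card Ω ≠ 0 := by omega
      exact_mod_cast this
    intro x
    rw [hrow_const x]
    exact mul_left_cancel₀ h3 h1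
  have hMJ : M * J = (k : ℤ) • J := by
    ext x y
    rw [Matrix.mul_apply, Matrix.smul_apply]
    simp only [J, Matrix.of_apply, mul_one, smul_eq_mul]
    exact hrow x
  have hJMt : J * Mᵀ = (k : ℤ) • J := by
    ext x y
    rw [Matrix.mul_apply, Matrix.smul_apply]
    simp only [J, Matrix.of_apply, Matrix.transpose_apply, mul_one, one_mul, smul_eq_mul]
    exact hrow y
  -- `M Mᵀ`
  have hMMt_inv : ∀ (g : G) (x y : Ω), (M * Mᵀ) (g • x) (g • y) = (M * Mᵀ) x y := by
    intro g x y
    rw [Matrix.mul_apply, Matrix.mul_apply, ← Equiv.sum_comp (MulAction.toPerm (β g))]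
    apply Finset.sum_congr rfl
    intro z _
    rw [MulAction.toPerm_apply, Matrix.transpose_apply, Matrix.transpose_apply, hM, hM]
  have hform := two_trans_form h2 x0 y0 hxy (M * Mᵀ) hMMt_inv
  set d := (M * Mᵀ) x0 y0 with hd
  set c := (M * Mᵀ) x0 x0 - d with hc
  have hdiag : (M * Mᵀ) x0 x0 = (k : ℤ) := by
    rw [Matrix.mul_apply, ← hrow x0]
    apply Finset.sum_congr rfl
    intro y _
    rw [Matrix.transpose_apply]
    rcases hM01 x0 y with h | h <;> rw [h] <;> norm_num
  have hcd : c + d = (k : ℤ) := by rw [hc, hdiag]; ring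
  have hd0 : 0 ≤ d := by
    rw [hd, Matrix.mul_apply]
    apply Finset.sum_nonneg
    intro y _
    rw [Matrix.transpose_apply]
    rcases hM01 x0 y with h | h <;> rcases hM01 y0 y with h' | h' <;> rw [h, h'] <;> norm_num
  have hJJ : J * J = (n : ℤ) • J := by
    ext x y
    rw [Matrix.mul_apply, Matrix.smul_apply]
    simp [J, hn]
  have hk2 : c + n * d = (k : ℤ) ^ 2 := by
    have h1 : J * (M * Mᵀ) = ((k : ℤ) * k) • J := by
      have h0 : J * M = (k : ℤ) • J := by
        ext x y
        rw [Matrix.mul_apply, Matrix.smul_apply]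
        simp only [J, Matrix.of_apply, one_mul, smul_eq_mul, mul_one]
        exact hcol y
      rw [← Matrix.mul_assoc, h0, Matrix.smul_mul, hJMt, smul_smul]
    rw [hform, Matrix.mul_add, Matrix.mul_smul, Matrix.mul_one, Matrix.mul_smul] at h1
    change c • J + d • (J * J) = _ at h1
    rw [hJJ] at h1
    have h3 := congrFun (congrFun h1 x0) x0
    simp only [Matrix.add_apply, Matrix.smul_apply, J, Matrix.of_apply, smul_eq_mul, mul_one] at h3
    rw [pow_two, ← h3]; ring
  -- `M ^ m`
  obtain ⟨s, hs⟩ := hα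
  have hβ : β ^ (2 * s + 1) = 1 := by
    rw [← hs, inv_pow, pow_orderOf_eq_one, inv_one]
  have hMm_inv : ∀ (g : G) (x y : Ω), (M ^ (2 * s + 1)) (g • x) (g • y) = (M ^ (2 * s + 1)) x y := by
    intro g x y
    have := pow_inv β M hM (2 * s + 1) g x y
    rwa [hβ, MulAut.one_apply] at this
  have hformM := two_trans_form h2 x0 y0 hxy (M ^ (2 * s + 1)) hMm_inv
  set b := (M ^ (2 * s + 1)) x0 y0 with hb
  set a := (M ^ (2 * s + 1)) x0 x0 - b with ha
  change M ^ (2 * s + 1) = a • 1 + b • J at hformM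
  have hab : a + n * b = (k : ℤ) ^ (2 * s + 1) := by
    have h1 := pow_mul_J M J k hMJ (2 * s + 1)
    rw [hformM, Matrix.add_mul, Matrix.smul_mul, Matrix.one_mul, Matrix.smul_mul, hJJ] at h1
    have h3 := congrFun (congrFun h1 x0) x0
    simp only [Matrix.add_apply, Matrix.smul_apply, J, Matrix.of_apply, smul_eq_mul, mul_one] at h3
    rw [← h3]; ring
  have ha2 : a ^ 2 = c ^ (2 * s + 1) := by
    obtain ⟨e, he⟩ := mul_transpose_pow M J c d k hform hMJ hJMt (2 * s + 1)
    rw [← Matrix.transpose_pow, hformM] at he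
    have hJt : Jᵀ = J := by ext x y; rfl
    rw [Matrix.transpose_add, Matrix.transpose_smul, Matrix.transpose_smul, Matrix.transpose_one,
      hJt, Matrix.add_mul, Matrix.mul_add, Matrix.mul_add, Matrix.smul_mul, Matrix.one_mul,
      Matrix.smul_mul, Matrix.one_mul, Matrix.smul_mul, Matrix.mul_smul, Matrix.mul_one,
      Matrix.smul_mul, Matrix.mul_smul, hJJ] at he
    have h3 := congrFun (congrFun he x0) x0
    have h4 := congrFun (congrFun he x0) y0
    simp only [Matrix.add_apply, Matrix.smul_apply, J, Matrix.of_apply, smul_eq_mul, mul_one,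
      Matrix.one_apply_eq, Matrix.one_apply_ne hxy, mul_zero] at h3 h4
    nlinarith
  have hkpos : 1 ≤ k := by
    rw [hkdef]
    haveI : Nonempty (MulAction.orbit ((MulAction.stabilizer G o).map α.toMonoidHom) ω) :=
      ⟨⟨ω, MulAction.mem_orbit_self _⟩⟩
    exact Nat.card_pos
  have hkn : k ≤ n := by
    rw [hkdef, hn, ← Nat.card_eq_fintype_card]
    exact Nat.card_le_card_of_injective _ Subtype.val_injective
  have := arith (n : ℤ) k c d a b s (by exact_mod_cast hn2) (by exact_mod_cast hkpos)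
    (by exact_mod_cast hkn) (Nat.isCoprime_iff_coprime.mpr hk) hd0 hcd hk2 ha2 hab
  rcases this with h | h
  · left; exact_mod_cast h
  · right; omega

/-- Let G be a doubly transitive group of permutations of a finite set Ω of size n, let o ∈ Ω, and let α be an automorphism of G of odd order. Suppose that the image under α of the stabilizer of o has an orbit on Ω whose length k is coprime to n. Then α is induced by conjugation by a permutation of Ω normalizing G, and k = 1 or k = n − 1. -/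
theorem result {Ω : Type*} [Fintype Ω] (G : Subgroup (Equiv.Perm Ω)) (h2 : MulAction.IsMultiplyPretransitive G Ω 2) (o : Ω) (α : MulAut G) (hα : Odd (orderOf α)) (ω : Ω) (hk : (Nat.card (MulAction.orbit ((MulAction.stabilizer G o).map α.toMonoidHom) ω)).Coprime (Fintype.card Ω)) : (∃ σ : Equiv.Perm Ω, σ ∈ Subgroup.normalizer (G : Set (Equiv.Perm Ω)) ∧ ∀ g : G, ((α g : G) : Equiv.Perm Ω) = σ * (g : Equiv.Perm Ω) * σ⁻¹) ∧ (Nat.card (MulAction.orbit ((MulAction.stabilizer G o).map α.toMonoidHom) ω) = 1 ∨ Nat.card (MulAction.orbit ((MulAction.stabilizer G o).map α.toMonoidHom) ω) = Fintype.card Ω - 1) := by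
  classical
  have hmain := main h2 o α hα ω _ rfl hk
  refine ⟨?_, hmain⟩
  haveI htr : MulAction.IsPretransitive G Ω := MulAction.isPretransitive_of_is_two_pretransitive
  have hfix : ∃ ω' : Ω, ∀ g ∈ (MulAction.stabilizer G o).map α.toMonoidHom, g • ω' = ω' := by
    rcases hmain with h | h
    · refine ⟨ω, ?_⟩
      intro g hg
      rw [Nat.card_eq_one_iff_unique] at h
      have h1 := h.1.elim ⟨ω, MulAction.mem_orbit_self _⟩ ⟨g • ω, ⟨⟨g, hg⟩, rfl⟩⟩
      exact (congrArg Subtype.val h1).symm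
    · -- complement of the orbit is a single point
      set O := MulAction.orbit ((MulAction.stabilizer G o).map α.toMonoidHom) ω with hO
      have hcompl : (Oᶜ).ncard = 1 := by
        have h1 := Set.ncard_add_ncard_compl O
        rw [Nat.card_eq_fintype_card, ← Nat.card_coe_set_eq, h] at h1
        have h2 : 0 < Fintype.card Ω := Fintype.card_pos_iff.mpr ⟨o⟩
        omega
      obtain ⟨x, hx⟩ := Set.ncard_eq_one.mp hcompl
      refine ⟨x, ?_⟩
      intro g hg
      have hxO : x ∉ O := by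
        have : x ∈ Oᶜ := by rw [hx]; rfl
        exact this
      have : g • x ∈ Oᶜ := by
        intro hgx
        apply hxO
        have h3 : (⟨g, hg⟩ : (MulAction.stabilizer G o).map α.toMonoidHom)⁻¹ •
          ((⟨g, hg⟩ : (MulAction.stabilizer G o).map α.toMonoidHom) • x) ∈ O := by
          have h4 : (⟨g, hg⟩ : (MulAction.stabilizer G o).map α.toMonoidHom) • x ∈ O := hgx
          obtain ⟨u, hu⟩ := h4
          refine ⟨(⟨g, hg⟩ : (MulAction.stabilizer G o).map α.toMonoidHom)⁻¹ * u, ?_⟩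
          change ((⟨g, hg⟩ : (MulAction.stabilizer G o).map α.toMonoidHom)⁻¹ * u) • ω = _
          rw [mul_smul]
          exact congrArg _ hu
        rwa [inv_smul_smul] at h3
      rw [hx] at this
      exact this
  exact (Cfsg.Agent.S4275.result G htr o α).mpr hfix

end Cfsg.Agent.S4276
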