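import Cfsg.Statements.S4277
import Mathlib
import Cfsg.Agent.LibH7Out
import Cfsg.Agent.S0675
import Cfsg.Agent.LibPrimeDegree

set_option autoImplicit false
open Cfsg

namespace Cfsg.Agent.S4277

open scoped Pointwise commutatorElement

/-- A case of the Schreier conjecture: if a finite simple group G has a subgroup of prime index, then the outer automorphism group of G is solvable. -/
theorem result {G : Type*} [Group G] [Finite G] [IsSimpleGroup G] (H : Subgroup G) (hH : H.index.Prime) : Group.IsSolvable (Cfsg.Out G) := by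
  classical
  obtain ⟨p, hpdef⟩ : ∃ p, p = H.index := ⟨_, rfl⟩
  haveI hp : Fact p.Prime := ⟨by rw [hpdef]; exact hH⟩
  letI : Fintype (G ⧸ H) := Fintype.ofFinite _
  let f : G →* Equiv.Perm (G ⧸ H) := MulAction.toPermHom G (G ⧸ H)
  have hΩ : Fintype.card (G ⧸ H) = p := by rw [← Nat.card_eq_fintype_card, hpdef]; rfl
  have hnt : Nontrivial (G ⧸ H) := by
    rw [← Fintype.one_lt_card_iff_nontrivial, hΩ]; exact hp.out.one_lt
  have hf : Function.Injective f := by
    rw [← MonoidHom.ker_eq_bot_iff]
    rcases (MonoidHom.normal_ker f).eq_bot_or_eq_top with h | h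
    · exact h
    · exfalso
      obtain ⟨u, v, huv⟩ := hnt.exists_pair_ne
      obtain ⟨g, hg⟩ := MulAction.exists_smul_eq G u v
      have h1 : f g = 1 := by
        have : g ∈ f.ker := by rw [h]; trivial
        exact this
      apply huv
      rw [← hg]
      change u = f g u
      rw [h1]; rfl
  by_cases hs : Group.IsSolvable G
  · have hc : ∀ a b : G, a * b = b * a := IsSimpleGroup.comm_iff_isSolvable.2 hs
    letI : CommGroup G := { (inferInstance : Group G) with mul_comm := hc }
    haveI : IsCyclic G := IsSimpleGroup.isCyclic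
    have h1 : ∀ a b : MulAut G, a * b = b * a := by
      intro a b
      apply (IsCyclic.mulAutMulEquiv G).injective
      rw [map_mul, map_mul, mul_comm]
    exact Group.isSolvable_of_comm (fun a b => by
      obtain ⟨a, rfl⟩ := QuotientGroup.mk'_surjective _ a
      obtain ⟨b, rfl⟩ := QuotientGroup.mk'_surjective _ b
      rw [← map_mul, ← map_mul, h1])
  · haveI hRt : MulAction.IsPretransitive f.range (G ⧸ H) := by
      refine ⟨fun u v => ?_⟩
      obtain ⟨g, hg⟩ := MulAction.exists_smul_eq G u v
      exact ⟨⟨f g, g, rfl⟩, hg⟩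
    have hRs : ¬ Group.IsSolvable f.range := by
      intro h
      apply hs
      haveI := h
      exact Group.isSolvable_of_isSolvable_injective (f := f.rangeRestrict) (fun a b hab => hf (congrArg Subtype.val hab))
    have h2t := (Cfsg.Agent.S0675.result (by rw [hΩ]; exact hp.out) f.range).resolve_left hRs
    rw [MulAction.is_two_pretransitive_iff] at h2t
    have h2 : ∀ a b c d : G ⧸ H, a ≠ b → c ≠ d → ∃ g, f g a = c ∧ f g b = d := by
      intro a b c d hab hcd
      obtain ⟨⟨_, g, rfl⟩, h1, h3⟩ := h2t hab hcd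
      exact ⟨g, h1, h3⟩
    obtain ⟨_, ⟨x, rfl⟩, hxo, e, he⟩ := CfsgLib.PrimeDegree.exists_equiv hΩ f.range
    have hxo' : orderOf x = p := by rw [← hxo]; exact (orderOf_injective f hf x).symm
    have hp2 : ¬ p ^ 2 ∣ Nat.card G := by
      intro h
      have h1 : Nat.card G ∣ p.factorial := by
        have h3 : Nat.card G = Nat.card f.range := Nat.card_congr (MonoidHom.ofInjective hf).toEquiv
        rw [h3]
        have h4 := Subgroup.card_subgroup_dvd_card f.range
        rwa [Nat.card_eq_fintype_card (α := Equiv.Perm (G ⧸ H)), Fintype.card_perm, hΩ] at h4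
      have h3 := h.trans h1
      have h4 : p.factorial = p * (p - 1).factorial := (Nat.mul_factorial_pred hp.out.ne_zero).symm
      rw [h4, pow_two] at h3
      have h5 := Nat.dvd_of_mul_dvd_mul_left hp.out.pos h3
      rw [hp.out.dvd_factorial] at h5
      have := hp.out.pos
      omega
    -- the Sylow subgroup generated by `x`
    have hxp : IsPGroup p (Subgroup.zpowers x) := by
      rw [IsPGroup.iff_card]; exact ⟨1, by rw [Nat.card_zpowers, hxo', pow_one]⟩
    obtain ⟨P, hP⟩ := hxp.exists_le_sylow
    have hPx : (P : Subgroup G) = Subgroup.zpowers x := by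
      symm
      apply Subgroup.eq_of_le_of_card_ge hP
      obtain ⟨k, hk⟩ := IsPGroup.iff_card.1 P.isPGroup'
      rw [Nat.card_zpowers, hxo', hk]
      have hk1 : k ≤ 1 := by
        by_contra hlt
        apply hp2
        have h3 : p ^ 2 ∣ p ^ k := pow_dvd_pow p (by omega)
        rw [← hk] at h3
        exact h3.trans (Subgroup.card_subgroup_dvd_card _)
      calc p ^ k ≤ p ^ 1 := Nat.pow_le_pow_right hp.out.pos hk1
        _ = p := pow_one p
    let A0 : Subgroup (MulAut G) := MulAction.stabilizer (MulAut G) P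
    have hA0 : ∀ a ∈ A0, ∀ y ∈ Subgroup.zpowers x, a y ∈ Subgroup.zpowers x := by
      intro a ha y hy
      have h3 : a • P = P := ha
      rw [← hPx] at hy ⊢
      have h4 : a y ∈ ((a • P : Sylow p G) : Subgroup G) := by
        rw [Sylow.pointwise_smul_def]
        exact Subgroup.smul_mem_pointwise_smul y a _ hy
      rwa [h3] at h4
    have hcx : ∀ a ∈ A0, ∀ b ∈ A0, ∀ y ∈ Subgroup.zpowers x, a (b y) = b (a y) := by
      intro a ha b hb y hy
      obtain ⟨m, hm⟩ := hA0 a ha x (Subgroup.mem_zpowers x)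
      obtain ⟨n, hn⟩ := hA0 b hb x (Subgroup.mem_zpowers x)
      obtain ⟨k, rfl⟩ := hy
      have hm' : a x = x ^ m := hm.symm
      have hn' : b x = x ^ n := hn.symm
      change a (b (x ^ k)) = b (a (x ^ k))
      rw [map_zpow, map_zpow, map_zpow, map_zpow, hn', hm', map_zpow, map_zpow, hm', hn']
      simp only [← zpow_mul]
      congr 1
      ring
    have hD1 : ∀ c ∈ commutator A0, (c : MulAut G) x = x := by
      have h3 : commutator A0 ≤ (MulAction.stabilizer (MulAut G) x).subgroupOf A0 := by
        change ⁅(⊤ : Subgroup A0), (⊤ : Subgroup A0)⁆ ≤ _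
        rw [Subgroup.commutator_le]
        rintro ⟨a, ha⟩ - ⟨b, hb⟩ -
        rw [Subgroup.mem_subgroupOf, MulAction.mem_stabilizer_iff]
        change (a * b * a⁻¹ * b⁻¹) x = x
        have hy : a⁻¹ (b⁻¹ x) ∈ Subgroup.zpowers x :=
          hA0 _ (A0.inv_mem ha) _ (hA0 _ (A0.inv_mem hb) _ (Subgroup.mem_zpowers x))
        have h4 := hcx a ha b hb _ hy
        have h5 : (a * b * a⁻¹ * b⁻¹) x = a (b (a⁻¹ (b⁻¹ x))) := rfl
        rw [h5, h4]
        have h6 : a (a⁻¹ (b⁻¹ x)) = b⁻¹ x := MulEquiv.apply_symm_apply a _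
        rw [h6]
        exact MulEquiv.apply_symm_apply b _
      intro c hc
      exact h3 hc
    have hA0s : Group.IsSolvable A0 := by
      refine ⟨⟨2, ?_⟩⟩
      rw [eq_bot_iff, derivedSeries_succ, derivedSeries_one, Subgroup.commutator_le]
      intro a ha b hb
      rw [Subgroup.mem_bot, commutatorElement_eq_one_iff_mul_comm]
      apply Subtype.ext
      exact CfsgLib.H7Out.aut_comm hf h2 hΩ hp2 e he (hD1 a ha) (hD1 b hb)
    haveI := hA0s
    refine Group.isSolvable_of_surjective (f := (QuotientGroup.mk' (Cfsg.Inn G)).comp A0.subtype) ?_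
    intro y
    obtain ⟨a, rfl⟩ := QuotientGroup.mk'_surjective _ y
    obtain ⟨g, hg⟩ := MulAction.exists_smul_eq G (a • P) P
    refine ⟨⟨MulAut.conj g * a, ?_⟩, ?_⟩
    · change (MulAut.conj g * a) • P = P
      rw [mul_smul]; exact hg
    · change QuotientGroup.mk' (Cfsg.Inn G) (MulAut.conj g * a) = _
      rw [map_mul]
      have h3 : QuotientGroup.mk' (Cfsg.Inn G) (MulAut.conj g) = 1 := (QuotientGroup.eq_one_iff _).2 ⟨g, rfl⟩
      rw [h3, one_mul]

end Cfsg.Agent.S4277
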