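import Cfsg.Statements.S4278
import Cfsg.Agent.LibOI4

set_option autoImplicit false
open Cfsg

namespace Cfsg.Agent.S4278

/-- In the Chevalley group of type G₂ over a finite field of odd order, any two involutions are conjugate. -/
theorem result {F : Type*} [Field F] [Fintype F] (hF : Odd (Fintype.card F)) (s t : ↥(Cfsg.Lie.chevG2.group F)) (hs : orderOf s = 2) (ht : orderOf t = 2) : IsConj s t := by

  have key : ∀ s : ↥(Cfsg.Lie.chevG2.group F), orderOf s = 2 → ∃ x ∈ Cfsg.Lie.chevG2.group F, x * (s : GL Cfsg.Lie.chevG2.Idx F) * x⁻¹ =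
      CfsgLib.Chev.hel Cfsg.Lie.chevG2 CfsgLib.Chev.tG2 (CfsgLib.OI.msk F 1) := by
    intro s hs
    have h1 : s * s = 1 := by rw [← pow_two, ← hs, pow_orderOf_eq_one]
    have h2 : s ≠ 1 := by rintro rfl; simp at hs
    obtain ⟨x, hx, m, hm, e⟩ := CfsgLib.OI.invol_tg (CfsgLib.OI.oG2 F) hF CfsgLib.OI.orb_G2 s.2 (congrArg Subtype.val h1)
      (fun h => h2 (Subtype.ext h))
    rw [List.mem_singleton] at hm
    rw [hm] at e
    exact ⟨x, hx, e⟩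
  obtain ⟨x, hx, e1⟩ := key s hs
  obtain ⟨y, hy, e2⟩ := key t ht
  rw [isConj_iff]
  refine ⟨⟨y⁻¹ * x, Subgroup.mul_mem _ (Subgroup.inv_mem _ hy) hx⟩, Subtype.ext ?_⟩
  show y⁻¹ * x * (s : GL Cfsg.Lie.chevG2.Idx F) * (y⁻¹ * x)⁻¹ = t
  have : y⁻¹ * x * (s : GL Cfsg.Lie.chevG2.Idx F) * (y⁻¹ * x)⁻¹ = y⁻¹ * (x * (s : GL Cfsg.Lie.chevG2.Idx F) * x⁻¹) * y := by group
  rw [this, e1, ← e2]; group

end Cfsg.Agent.S4278
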