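import Cfsg.Statements.S4279
import Cfsg.Agent.LibOI10

set_option autoImplicit false
open Cfsg

namespace Cfsg.Agent.S4279


open CfsgLib.Chev CfsgLib.OI CfsgLib.SL2P Cfsg.Lie in
theorem ex_phi {F : Type*} [Field F] {r : ℕ} (hr : r < tG2.n) (hp : tG2.n / 2 ≤ r) (hc : tG2.c r 0 = 1) (hc1 : tG2.c r 1 % 2 = 0) :
    ∃ φ : Matrix.SpecialLinearGroup (Fin 2) F →* ↥(chevG2.group F), Function.Injective φ ∧
      (∀ t, (φ (xx t) : GL chevG2.Idx F) = good3_G2.X r t) ∧ (∀ t, (φ (yy t) : GL chevG2.Idx F) = good3_G2.X (tG2.n - 1 - r) t) ∧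
      (φ (Wl F * Wl F) : GL chevG2.Idx F) = hel chevG2 tG2 (msk F 1) := by
  obtain ⟨φ, h1, h2, h3⟩ := good3_G2.oi_exists_sl2 (F := F) hr
  have hG : ∀ a, φ a ∈ chevG2.group F := by
    intro a
    have := mem_of_gens ((chevG2.group F).comap φ) (fun t => by
      rw [Subgroup.mem_comap, h1]; exact good3_G2.X_mem_G _ _) (by
      rw [Subgroup.mem_comap, h3]; exact good3_G2.Ng_mem_G _ _) a
    exact this
  have hinj := sl2_inj (oG2 F) hr hp (i := 0) (by decide +kernel) hc h1 h2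
  refine ⟨φ.codRestrict _ hG, ?_, h1, h2, ?_⟩
  · intro a b h
    exact hinj (congrArg Subtype.val h)
  · show φ (Wl F * Wl F) = _
    have e : φ (Wl F) = good3_G2.Ng r 1 := by
      unfold Wl
      rw [map_mul, map_mul, h1, h2]
      unfold Good3.Ng
      rw [inv_one]
    rw [map_mul, e, good3_G2.oi_Ng_sq hr, Good3.hd_hel]
    apply hel_congr
    intro i hi
    have hi' : i < 2 := hi
    unfold msk
    interval_cases i
    · rw [hc]; simp
    · have : Even (tG2.c r 1) := Int.even_iff.2 hc1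
      rw [this.neg_one_zpow, if_neg (by decide)]


/-- In the Chevalley group G of type G₂ over a finite field F of odd order q, the centralizer of an involution t has order q²(q² − 1)² and contains two elementwise commuting subgroups, each isomorphic to SL(2, F), which meet exactly in the subgroup generated by t and whose join has index 2 in the centralizer. -/
theorem result {F : Type*} [Field F] [Fintype F] (hF : Odd (Fintype.card F)) (t : ↥(Cfsg.Lie.chevG2.group F)) (ht : orderOf t = 2) : Nat.card (Subgroup.centralizer ({t} : Set ↥(Cfsg.Lie.chevG2.group F))) = Fintype.card F ^ 2 * (Fintype.card F ^ 2 - 1) ^ 2 ∧ ∃ L₁ L₂ : Subgroup ↥(Cfsg.Lie.chevG2.group F), Nonempty (L₁ ≃* Matrix.SpecialLinearGroup (Fin 2) F) ∧ Nonempty (L₂ ≃* Matrix.SpecialLinearGroup (Fin 2) F) ∧ (∀ x ∈ L₁, ∀ y ∈ L₂, x * y = y * x) ∧ L₁ ⊓ L₂ = Subgroup.zpowers t ∧ L₁ ⊔ L₂ ≤ Subgroup.centralizer ({t} : Set ↥(Cfsg.Lie.chevG2.group F))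 ∧ (L₁ ⊔ L₂).relIndex (Subgroup.centralizer ({t} : Set ↥(Cfsg.Lie.chevG2.group F))) = 2 := by

  have key : ∀ s : ↥(Cfsg.Lie.chevG2.group F), orderOf s = 2 → ∃ x ∈ Cfsg.Lie.chevG2.group F, x * (s : GL Cfsg.Lie.chevG2.Idx F) * x⁻¹ =
      CfsgLib.Chev.hel Cfsg.Lie.chevG2 CfsgLib.Chev.tG2 (CfsgLib.OI.msk F 1) := by
    intro s hs
    have h1 : s * s = 1 := by rw [← pow_two, ← hs, pow_orderOf_eq_one]
    have h2 : s ≠ 1 := by rintro rfl; simp at hs
    obtain ⟨x, hx, m, hm, e⟩ := CfsgLib.OI.invol_tg (CfsgLib.OI.oG2 F) hF CfsgLib.OI.orb_G2 s.2 (congrArg Subtype.val h1)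
      (fun h => h2 (Subtype.ext h))
    rw [List.mem_singleton] at hm
    rw [hm] at e
    exact ⟨x, hx, e⟩
  obtain ⟨x, hx, e⟩ := key t ht
  have hG0 : CfsgLib.Chev.hel Cfsg.Lie.chevG2 CfsgLib.Chev.tG2 (CfsgLib.OI.msk F 1) ∈ Cfsg.Lie.chevG2.group F :=
    CfsgLib.Chev.good3_G2.H_le_G (CfsgLib.Chev.good3_G2.hel_mem _)
  have hconj : IsConj t ⟨_, hG0⟩ := by
    rw [isConj_iff]
    exact ⟨⟨x, hx⟩, Subtype.ext e⟩
  have hcard : Nat.card (Subgroup.centralizer ({t} : Set ↥(Cfsg.Lie.chevG2.group F))) = Fintype.card F ^ 2 * (Fintype.card F ^ 2 - 1) ^ 2 := by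
    rw [CfsgLib.OI.card_conj hconj, CfsgLib.OI.card_centralizer]
    have hq : 1 ≤ Fintype.card F := Fintype.card_pos
    have e1 : ∀ e : ℕ, ((Fintype.card F ^ e - 1 : ℕ) : ℤ) = (Fintype.card F : ℤ) ^ e - 1 := by
      intro e
      rw [Nat.cast_sub (Nat.one_le_pow _ _ hq)]; push_cast; rfl
    apply Nat.cast_injective (R := ℤ)
    have := CfsgLib.OI.orderG2 hF
    rw [this]
    push_cast [e1]
    simp only [List.map_cons, List.map_nil, List.prod_cons, List.prod_nil]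
    ring
  refine ⟨hcard, ?_⟩
  obtain ⟨φ1, i1, a1, b1, c1⟩ := ex_phi (F := F) (r := 7) (by decide +kernel) (by decide +kernel) (by decide +kernel) (by decide +kernel)
  obtain ⟨φ2, i2, a2, b2, c2⟩ := ex_phi (F := F) (r := 11) (by decide +kernel) (by decide +kernel) (by decide +kernel) (by decide +kernel)
  have hn : CfsgLib.Chev.tG2.n = 12 := rfl
  have h20 : (2 : F) ≠ 0 := by
    intro h
    have h3 := CfsgLib.OI.neg_one_ne hF
    apply h3
    apply Units.ext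
    show -(1 : F) = 1
    linear_combination -h
  let X : ↥(Cfsg.Lie.chevG2.group F) := ⟨x, hx⟩
  have hcomm : ∀ a b, φ1 a * φ2 b = φ2 b * φ1 a := by
    have k1 : ∀ (t : F), ∀ r ∈ [7, 4], ∀ a : Matrix.SpecialLinearGroup (Fin 2) F, ∀ y : ↥(Cfsg.Lie.chevG2.group F),
        (y : GL Cfsg.Lie.chevG2.Idx F) = CfsgLib.Chev.good3_G2.X r t → φ2 a * y = y * φ2 a := by
      intro t r hr a y hy
      apply CfsgLib.OI.sl2_comm
      · intro u
        apply Subtype.ext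
        show (φ2 (CfsgLib.SL2P.xx u) : GL Cfsg.Lie.chevG2.Idx F) * y = y * φ2 (CfsgLib.SL2P.xx u)
        rw [a2, hy]
        exact (CfsgLib.OI.comm_G2 hr (by decide) t u).symm
      · intro u
        apply Subtype.ext
        show (φ2 (CfsgLib.SL2P.yy u) : GL Cfsg.Lie.chevG2.Idx F) * y = y * φ2 (CfsgLib.SL2P.yy u)
        rw [b2, hy]
        exact (CfsgLib.OI.comm_G2 hr (by decide) t u).symm
    intro a b
    apply CfsgLib.OI.sl2_comm
    · intro u
      exact (k1 u 7 (by decide) b _ (a1 u)).symm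
    · intro u
      exact (k1 u 4 (by decide) b _ (b1 u)).symm
  have hX : ∀ a : Matrix.SpecialLinearGroup (Fin 2) F, ∀ φ : Matrix.SpecialLinearGroup (Fin 2) F →* ↥(Cfsg.Lie.chevG2.group F),
      ((MulAut.conj X⁻¹).toMonoidHom.comp φ) a = X⁻¹ * φ a * X := by
    intro a φ
    show X⁻¹ * φ a * X⁻¹⁻¹ = _
    rw [inv_inv]
  have hW : ∀ φ : Matrix.SpecialLinearGroup (Fin 2) F →* ↥(Cfsg.Lie.chevG2.group F),
      (φ (CfsgLib.OI.Wl F * CfsgLib.OI.Wl F) : GL Cfsg.Lie.chevG2.Idx F) = CfsgLib.Chev.hel Cfsg.Lie.chevG2 CfsgLib.Chev.tG2 (CfsgLib.OI.msk F 1) →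
      ((MulAut.conj X⁻¹).toMonoidHom.comp φ) (CfsgLib.OI.Wl F * CfsgLib.OI.Wl F) = t := by
    intro φ hφ
    rw [hX]
    apply Subtype.ext
    show x⁻¹ * (φ (CfsgLib.OI.Wl F * CfsgLib.OI.Wl F) : GL Cfsg.Lie.chevG2.Idx F) * x = t
    rw [hφ, ← e]; group
  apply CfsgLib.OI.abs_cent h20 ((MulAut.conj X⁻¹).toMonoidHom.comp φ1) ((MulAut.conj X⁻¹).toMonoidHom.comp φ2) _ _ _ t (hW φ1 c1) (hW φ2 c2) hcard
  · exact (MulAut.conj X⁻¹).injective.comp i1
  · exact (MulAut.conj X⁻¹).injective.comp i2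
  · intro a b
    rw [hX, hX]
    calc X⁻¹ * φ1 a * X * (X⁻¹ * φ2 b * X) = X⁻¹ * (φ1 a * φ2 b) * X := by group
      _ = X⁻¹ * (φ2 b * φ1 a) * X := by rw [hcomm]
      _ = _ := by group

end Cfsg.Agent.S4279
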