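import Cfsg.Statements.S4280
import Cfsg.Agent.LibOI9

set_option autoImplicit false
open Cfsg

namespace Cfsg.Agent.S4280

/-- In the Chevalley group of type F₄ over a finite field of odd order q there are exactly two conjugacy classes of involutions; the centralizer of an involution in one class has order q¹⁶(q² − 1)(q⁴ − 1)(q⁶ − 1)(q⁸ − 1), and in the other class q¹⁰(q² − 1)²(q⁴ − 1)(q⁶ − 1). -/
theorem result {F : Type*} [Field F] [Fintype F] (hF : Odd (Fintype.card F)) : ∃ s t : ↥(Cfsg.Lie.chevF4.group F), orderOf s = 2 ∧ orderOf t = 2 ∧ ¬ IsConj s t ∧ (∀ u : ↥(Cfsg.Lie.chevF4.group F), orderOf u = 2 → IsConj u s ∨ IsConj u t) ∧ Nat.card (Subgroup.centralizer ({s} : Set ↥(Cfsg.Lie.chevF4.group F))) = Fintype.card F ^ 16 * (Fintype.card F ^ 2 - 1) * (Fintype.card F ^ 4 - 1) * (Fintype.card F ^ 6 - 1) * (Fintype.card F ^ 8 - 1) ∧ Nat.card (Subgroup.centralizer ({t} : Set ↥(Cfsg.Lie.chevF4.group F))) = Fintype.card F ^ 10 * (Fintype.card F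 ^ 2 - 1) ^ 2 * (Fintype.card F ^ 4 - 1) * (Fintype.card F ^ 6 - 1) := by

  obtain ⟨s, t, h1, h2, h3, h4, h5, h6⟩ := CfsgLib.OI.two_classes (CfsgLib.OI.oF4 F) hF CfsgLib.OI.orb_F4
    ⟨1, by decide +kernel, by decide⟩ ⟨0, by decide +kernel, by decide⟩ (CfsgLib.OI.orderF4a hF) (CfsgLib.OI.orderF4b hF)
    (by decide) (by decide) (by decide)
  refine ⟨s, t, h1, h2, h3, h4, ?_, ?_⟩
  · have hq : 1 ≤ Fintype.card F := Fintype.card_pos
    have e : ∀ e : ℕ, ((Fintype.card F ^ e - 1 : ℕ) : ℤ) = (Fintype.card F : ℤ) ^ e - 1 := by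
      intro e
      rw [Nat.cast_sub (Nat.one_le_pow _ _ hq)]; push_cast; rfl
    apply Nat.cast_injective (R := ℤ)
    rw [h5]
    push_cast [e]
    simp only [List.map_cons, List.map_nil, List.prod_cons, List.prod_nil]
    ring
  · have hq : 1 ≤ Fintype.card F := Fintype.card_pos
    have e : ∀ e : ℕ, ((Fintype.card F ^ e - 1 : ℕ) : ℤ) = (Fintype.card F : ℤ) ^ e - 1 := by
      intro e
      rw [Nat.cast_sub (Nat.one_le_pow _ _ hq)]; push_cast; rfl
    apply Nat.cast_injective (R := ℤ)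
    rw [h6]
    push_cast [e]
    simp only [List.map_cons, List.map_nil, List.prod_cons, List.prod_nil]
    ring

end Cfsg.Agent.S4280
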