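import Cfsg.Statements.S4282
import Cfsg.Agent.LibSGApp
import Cfsg.Agent.LibHHB

set_option autoImplicit false
open Cfsg

namespace Cfsg.Agent.S4282

open scoped commutatorElement

/-- A critical case behind the Hall–Higman theorem. Let p ≠ q be primes and G a finite group generated by a normal q-subgroup Q and a cyclic p-subgroup generated by x, such that the centralizer of every non-identity element of that cyclic subgroup is its product with the centre of G. Let K be an algebraically closed field of characteristic p and ρ a faithful representation of G on a nonzero finite-dimensional K-space whose restriction to Q is irreducible. If s is the least exponent with (ρ(x) − 1)^s = 0, then |⟨x⟩| − 1 ≤ s ≤ |⟨x⟩|; and if s = |⟨x⟩| − 1 then |⟨x⟩| − 1 is a power of q and Q is non-abelian. -/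
theorem result {G : Type*} [Group G] [Finite G] (p q : ℕ) [Fact p.Prime] [Fact q.Prime] (hpq : p ≠ q) (Q : Subgroup G) [Q.Normal] (hQ : IsPGroup q Q) (x : G) (hx : IsPGroup p (Subgroup.zpowers x)) (hgen : Q ⊔ Subgroup.zpowers x = ⊤) (hC : ∀ y ∈ Subgroup.zpowers x, y ≠ 1 → Subgroup.centralizer ({y} : Set G) = Subgroup.zpowers x ⊔ Subgroup.center G) {K : Type*} [Field K] [IsAlgClosed K] [CharP K p] {V : Type*} [AddCommGroup V] [Module K V] [FiniteDimensional K V] [Nontrivial V] (ρ : Representation K G V) (hfaith : Function.Injective ρ) (hirr : ∀ W : Submodule K V, (∀ g ∈ Q, Submodule.map (ρ g) W ≤ W) → W = ⊥ ∨ W = ⊤) (s : ℕ) (hs : (ρ x - 1) ^ s = 0) (hmin : ∀ k < s, (ρ x - 1) ^ k ≠ 0) : Nat.card (Subgroup.zpowers x) - 1 ≤ s ∧ s ≤ Nat.card (Subgroup.zpowers x) ∧ (s = Nat.card (Subgroup.zpowers x) - 1 → (∃ b : ℕ, Nat.card (Subgroup.zpowers x) - 1 = q ^ b) ∧ ¬ IsMulCommutative Q) := by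

  classical
  have hp := (Fact.out : p.Prime)
  have hq := (Fact.out : q.Prime)
  obtain ⟨n, hn⟩ := IsPGroup.iff_card.1 hx
  have hord : orderOf x = p ^ n := by rw [← Nat.card_zpowers, hn]
  haveI : FiniteDimensional K V := inferInstance
  rw [hn]
  have hle : s ≤ p ^ n := by
    by_contra hlt
    push Not at hlt
    apply hmin _ hlt
    haveI : CharP (Module.End K V) p := by
      refine ⟨fun k => ?_⟩
      rw [← CharP.cast_eq_zero_iff K p k]
      constructor
      · intro h
        obtain ⟨v, hv⟩ := exists_ne (0 : V)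
        have h1 := congrArg (fun f : Module.End K V => f v) h
        have h2 : (k : Module.End K V) v = (k : K) • v := by
          rw [Module.End.natCast_apply, Nat.cast_smul_eq_nsmul]
        have h3 : (k : K) • v = 0 := by rw [← h2]; exact h1
        exact (smul_eq_zero.1 h3).resolve_right hv
      · intro h
        ext v
        rw [Module.End.natCast_apply, ← Nat.cast_smul_eq_nsmul K, h, zero_smul]; rfl
    have h1 : (ρ x) ^ p ^ n = 1 := by rw [← map_pow, ← hord, pow_orderOf_eq_one, map_one]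
    rw [sub_pow_char_pow_of_commute (p := p) (n := n) (Commute.one_right (ρ x)), one_pow, h1, sub_self]
  rcases Nat.eq_zero_or_pos n with hn0 | hn1
  · subst hn0
    have hx1 : x = 1 := by
      rw [pow_zero] at hord
      exact orderOf_eq_one_iff.1 hord
    have hs1 : s ≠ 0 := by
      rintro rfl
      rw [pow_zero] at hs
      obtain ⟨v, hv⟩ := exists_ne (0 : V)
      exact hv (congrArg (fun f : Module.End K V => f v) hs)
    rw [pow_zero] at hle ⊢
    refine ⟨by omega, hle, fun h => absurd h (by omega)⟩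
  -- preliminaries
  haveI : Fintype Q := Fintype.ofFinite _
  have hsch : ∀ f : Module.End K V, (∀ y : Q, ρ y * f = f * ρ y) → ∃ c : K, f = c • (1 : Module.End K V) := by
    intro f hf
    apply CfsgLib.HHBExt.schur (ρ := (ρ : G →* Module.End K V).comp Q.subtype) _ f hf
    intro S hS
    apply hirr
    intro g hg
    rw [Submodule.map_le_iff_le_comap]
    exact hS ⟨g, hg⟩
  have hscal : ∀ c : K, ρ x ≠ c • (1 : Module.End K V) := by
    intro c hc
    have h1 : (ρ x) ^ p ^ n = 1 := by rw [← map_pow, ← hord, pow_orderOf_eq_one, map_one]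
    rw [hc, smul_pow, one_pow] at h1
    have h2 : c ^ p ^ n = 1 := CfsgLib.HHBExt.smul_one_inj (U := V) (by rw [h1, one_smul])
    have h3 : (c - 1) ^ p ^ n = 0 := by
      rw [sub_pow_char_pow, one_pow, h2, sub_self]
    have h4 : c = 1 := sub_eq_zero.1 (pow_eq_zero_iff (pow_ne_zero n hp.ne_zero) |>.1 h3)
    rw [h4, one_smul, ← map_one ρ] at hc
    have h5 : x = 1 := hfaith hc
    rw [h5, orderOf_one] at hord
    exact absurd hord.symm (Nat.one_lt_pow (by omega) hp.one_lt).ne'
  -- no non-trivial element of `⟨x⟩` centralizes `Q`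
  have hnc : ∀ y ∈ Subgroup.zpowers x, y ≠ 1 → ∃ u ∈ Q, y * u ≠ u * y := by
    intro y hy hy1
    by_contra hcon
    push Not at hcon
    have hcent : Subgroup.centralizer ({y} : Set G) = ⊤ := by
      rw [eq_top_iff, ← hgen, sup_le_iff]
      constructor
      · intro u hu
        rw [Subgroup.mem_centralizer_singleton_iff]
        exact (hcon u hu).symm
      · rw [Subgroup.zpowers_le, Subgroup.mem_centralizer_singleton_iff]
        obtain ⟨k, rfl⟩ := Subgroup.mem_zpowers_iff.1 hy
        rw [← zpow_one_add, ← zpow_add_one, add_comm]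
    have h1 : Subgroup.zpowers x ⊔ Subgroup.center G = ⊤ := by rw [← hC y hy hy1, hcent]
    -- `x` is central
    have hxc : ∀ g : G, g * x = x * g := by
      intro g
      have h2 : g ∈ Subgroup.zpowers x ⊔ Subgroup.center G := h1 ▸ Subgroup.mem_top g
      rw [Subgroup.mem_sup_of_normal_right] at h2
      obtain ⟨a, ha, z, hz, rfl⟩ := h2
      obtain ⟨k, rfl⟩ := Subgroup.mem_zpowers_iff.1 ha
      rw [mul_assoc, ← Subgroup.mem_center_iff.1 hz x, ← mul_assoc, ← mul_assoc, ← zpow_add_one, ← zpow_one_add, add_comm]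
    obtain ⟨c, hc⟩ := hsch (ρ x) (fun y => by rw [← map_mul, ← map_mul, hxc])
    exact hscal c hc
  set A₀ := Q ⊓ Subgroup.center G with hA₀
  -- fixed points
  have hfixed : ∀ y ∈ Subgroup.zpowers x, y ≠ 1 → ∀ u ∈ Q, y * u = u * y → u ∈ A₀ := by
    intro y hy hy1 u hu hyu
    refine Subgroup.mem_inf.2 ⟨hu, ?_⟩
    have h1 : u ∈ Subgroup.centralizer ({y} : Set G) := Subgroup.mem_centralizer_singleton_iff.2 hyu.symm
    rw [hC y hy hy1, Subgroup.mem_sup_of_normal_right] at h1
    obtain ⟨a, ha, z, hz, haz⟩ := h1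
    have h2 : u ^ p ^ n ∈ Subgroup.center G := by
      have hcom : Commute a z := (Subgroup.mem_center_iff.1 hz a)
      rw [← haz, hcom.mul_pow]
      have h3 : a ^ p ^ n = 1 := by
        obtain ⟨k, rfl⟩ := Subgroup.mem_zpowers_iff.1 ha
        rw [← zpow_natCast, ← zpow_mul, mul_comm, zpow_mul, zpow_natCast, ← hord, pow_orderOf_eq_one, one_zpow]
      rw [h3, one_mul]
      exact Subgroup.pow_mem _ hz _
    obtain ⟨l, hl⟩ := hQ ⟨u, hu⟩
    have hl' : u ^ q ^ l = 1 := congrArg Subtype.val hl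
    obtain ⟨k, hk⟩ := CfsgLib.SGProp.exists_inv_mod (((Nat.coprime_primes hp hq).2 hpq).pow n l) (pow_pos hq.pos l)
    have h3 : u ^ (p ^ n * k) = u ^ 1 := by
      rw [pow_eq_pow_iff_modEq]
      exact hk.of_dvd (orderOf_dvd_of_pow_eq_one hl')
    rw [pow_one, pow_mul] at h3
    rw [← h3]
    exact Subgroup.pow_mem _ h2 _
  have hyp : ∀ y ∈ Subgroup.zpowers x, y ^ p ^ n = 1 := by
    intro y hy
    obtain ⟨k, rfl⟩ := Subgroup.mem_zpowers_iff.1 hy
    rw [← zpow_natCast, ← zpow_mul, mul_comm, zpow_mul, zpow_natCast, ← hord, pow_orderOf_eq_one, one_zpow]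
  have hfixmod : ∀ y ∈ Subgroup.zpowers x, y ≠ 1 → ∀ u ∈ Q, y * u * y⁻¹ * u⁻¹ ∈ A₀ → u ∈ A₀ := by
    intro y hy hy1 u hu ha
    apply hfixed y hy hy1 u hu
    set a := y * u * y⁻¹ * u⁻¹ with hadef
    have hac := (Subgroup.mem_inf.1 ha).2
    have h1 : ∀ k : ℕ, y ^ k * u * (y ^ k)⁻¹ = a ^ k * u := by
      intro k
      induction k with
      | zero => simp
      | succ k ih =>
        have h2 : y * u * y⁻¹ = a * u := by rw [hadef]; group
        have h3 : y * a ^ k * y⁻¹ = a ^ k := by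
          rw [Subgroup.mem_center_iff.1 (Subgroup.pow_mem _ hac k) y]; group
        calc y ^ (k + 1) * u * (y ^ (k + 1))⁻¹ = y * (y ^ k * u * (y ^ k)⁻¹) * y⁻¹ := by rw [pow_succ']; group
          _ = (y * a ^ k * y⁻¹) * (y * u * y⁻¹) := by rw [ih]; group
          _ = a ^ k * (a * u) := by rw [h3, h2]
          _ = _ := by rw [← mul_assoc, ← pow_succ]
    have h2 := h1 (p ^ n)
    rw [hyp y hy, one_mul, inv_one, mul_one] at h2
    have h3 : a ^ p ^ n = 1 := (mul_eq_right.1 h2.symm)
    obtain ⟨l, hl⟩ := hQ ⟨a, (Subgroup.mem_inf.1 ha).1⟩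
    have hl' : a ^ q ^ l = 1 := congrArg Subtype.val hl
    have h4 : a = 1 := by
      rw [← orderOf_eq_one_iff]
      exact Nat.eq_one_of_dvd_coprimes (((Nat.coprime_primes hp hq).2 hpq).pow n l) (orderOf_dvd_of_pow_eq_one h3) (orderOf_dvd_of_pow_eq_one hl')
    rw [hadef] at h4
    exact mul_inv_eq_iff_eq_mul.1 (mul_inv_eq_one.1 h4)
  have hxne : x ≠ 1 := by
    rintro rfl
    rw [orderOf_one] at hord
    exact absurd hord.symm (Nat.one_lt_pow (by omega) hp.one_lt).ne'
  -- the minimal invariant subgroup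
  have hQA : ¬ Q ≤ A₀ := by
    intro h
    obtain ⟨u, hu, hux⟩ := hnc x (Subgroup.mem_zpowers x) hxne
    exact hux (Subgroup.mem_center_iff.1 (Subgroup.mem_inf.1 (h hu)).2 x)
  obtain ⟨Q₁, hQ₁⟩ := (Set.toFinite {H : Subgroup G | H ≤ Q ∧ (∀ u ∈ H, x * u * x⁻¹ ∈ H) ∧ ¬ H ≤ A₀}).exists_minimal
    ⟨Q, le_rfl, fun u hu => (inferInstance : Q.Normal).conj_mem u hu x, hQA⟩
  obtain ⟨⟨hQ₁Q, hQ₁x, hQ₁A⟩, hQ₁min⟩ := hQ₁
  have hmin' : ∀ H : Subgroup G, H ≤ Q₁ → (∀ u ∈ H, x * u * x⁻¹ ∈ H) → H ≠ Q₁ → H ≤ A₀ := by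
    intro H hH hHx hne
    by_contra hcon
    exact hne (le_antisymm hH (hQ₁min ⟨hH.trans hQ₁Q, hHx, hcon⟩ hH))
  have hQ₁p : IsPGroup q Q₁ := hQ.to_le hQ₁Q
  have hxN : x ∈ Subgroup.normalizer (Q₁ : Set G) := by
    have hinj : Function.Injective (fun u : Q₁ => (⟨x * u * x⁻¹, hQ₁x _ u.2⟩ : Q₁)) := by
      intro a b hab
      have h1 : x * (a : G) * x⁻¹ = x * b * x⁻¹ := congrArg Subtype.val hab
      exact Subtype.ext (mul_left_cancel (mul_right_cancel h1))
    rw [Subgroup.mem_normalizer_iff]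
    intro u
    refine ⟨hQ₁x u, fun hu => ?_⟩
    obtain ⟨w, hw⟩ := Finite.surjective_of_injective hinj ⟨_, hu⟩
    have h1 : x * (w : G) * x⁻¹ = x * u * x⁻¹ := congrArg Subtype.val hw
    have h2 : (w : G) = u := mul_left_cancel (mul_right_cancel h1)
    rw [← h2]; exact w.2
  obtain ⟨u₀, hu₀, hu₀A⟩ := Set.not_subset.1 hQ₁A
  set y₁ := x ^ p ^ (n - 1) with hy₁
  have hy₁1 : y₁ ≠ 1 := by
    intro h
    have h1 := orderOf_dvd_of_pow_eq_one h
    rw [hord] at h1
    exact absurd (Nat.le_of_dvd (pow_pos hp.pos _) h1) (not_le.2 (Nat.pow_lt_pow_right hp.one_lt (by omega)))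
  by_cases hab : ∀ a ∈ Q₁, ∀ b ∈ Q₁, a * b = b * a
  · -- abelian: Theorem B
    have h1 := CfsgLib.HHB.thmB ((Nat.coprime_primes hp hq).2 hpq) (ρ : G →* Module.End K V) Q₁ hQ₁p x hxN n hn1
      (by rw [← hord, pow_orderOf_eq_one]) ⟨u₀, hu₀, fun h => hu₀A (by
        apply hfixed y₁ (Subgroup.pow_mem _ (Subgroup.mem_zpowers x) _) hy₁1 u₀ (hQ₁Q hu₀)
        exact mul_inv_eq_iff_eq_mul.1 (hfaith h))⟩ s hs
    rcases h1 with h1 | ⟨_, _, _, _, _, _, ⟨a, b, hne⟩, _⟩
    · have h2 : s = p ^ n := le_antisymm hle h1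
      have h3 : 0 < p ^ n := pow_pos hp.pos n
      refine ⟨by omega, hle, fun h => absurd h (by omega)⟩
    · exact absurd (Subtype.ext (hab a a.2 b b.2)) hne
  · -- non-abelian
    have hcommQ : ⁅Q₁, Q₁⁆ ≤ A₀ := by
      apply hmin' _ (Subgroup.commutator_le_self Q₁)
      · intro u hu
        have h1 : (⁅Q₁, Q₁⁆).map (MulAut.conj x).toMonoidHom ≤ ⁅Q₁, Q₁⁆ := by
          rw [Subgroup.map_commutator]
          have h2 : Q₁.map (MulAut.conj x).toMonoidHom ≤ Q₁ := by
            rintro _ ⟨w, hw, rfl⟩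
            exact hQ₁x w hw
          exact Subgroup.commutator_mono h2 h2
        exact h1 ⟨u, hu, rfl⟩
      · intro h
        haveI : Group.IsNilpotent Q₁ := hQ₁p.isNilpotent
        haveI : Nontrivial Q₁ := by
          rw [Subgroup.nontrivial_iff_ne_bot]
          rintro rfl
          exact hQ₁A bot_le
        have h2 := (Group.IsSolvable.commutator_lt_top_of_nontrivial Q₁).ne
        apply h2
        have h3 := Subgroup.map_subtype_commutator Q₁
        rw [h] at h3
        apply Subgroup.map_injective Q₁.subtype_injective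
        rw [h3, ← MonoidHom.range_eq_map, Subgroup.range_subtype]
    let ρ₁ : Q₁ →* Module.End K V := (ρ : G →* Module.End K V).comp Q₁.subtype
    set A₁ := A₀.subgroupOf Q₁ with hA₁
    have hA₀c : ∀ a ∈ A₀, ∀ g, g * a = a * g := fun a ha g => Subgroup.mem_center_iff.1 (Subgroup.mem_inf.1 ha).2 g
    haveI : A₁.Normal := ⟨by
      intro a ha g
      have h1 : (a : G) ∈ A₀ := ha
      have h2 : g * a * g⁻¹ = a := by
        apply Subtype.ext
        show (g : G) * a * (g : G)⁻¹ = a
        rw [hA₀c _ h1, mul_inv_cancel_right]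
      rw [h2]; exact ha⟩
    have hD : CfsgLib.HHBExt.Dat ρ₁ A₁ := by
      refine ⟨?_, ?_, ?_⟩
      · intro a ha
        apply hsch
        intro y
        have ha' : (a : G) ∈ A₀ := ha
        show ρ (y : G) * ρ (a : G) = ρ (a : G) * ρ (y : G)
        rw [← map_mul, ← map_mul, hA₀c _ ha' (y : G)]
      · intro a b
        exact hcommQ (Subgroup.commutator_mem_commutator a.2 b.2)
      · intro u hu
        -- the centre of `Q₁`
        have h1 : (Subgroup.center Q₁).map Q₁.subtype ≤ A₀ := by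
          apply hmin' _ (Subgroup.map_subtype_le _)
          · rintro _ ⟨w, hw, rfl⟩
            refine ⟨⟨x * w * x⁻¹, hQ₁x _ w.2⟩, ?_, rfl⟩
            rw [SetLike.mem_coe, Subgroup.mem_center_iff] at hw ⊢
            intro g
            apply Subtype.ext
            show (g : G) * (x * w * x⁻¹) = x * w * x⁻¹ * g
            have h2 : x⁻¹ * (g : G) * x ∈ Q₁ := by
              have h3 := (Subgroup.mem_normalizer_iff.1 (inv_mem hxN) (g : G)).1 g.2
              rwa [inv_inv] at h3
            have h4 : (x⁻¹ * (g : G) * x) * w = w * (x⁻¹ * (g : G) * x) := congrArg Subtype.val (hw ⟨_, h2⟩)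
            calc (g : G) * (x * w * x⁻¹) = x * ((x⁻¹ * (g : G) * x) * w) * x⁻¹ := by group
              _ = x * (w * (x⁻¹ * (g : G) * x)) * x⁻¹ := by rw [h4]
              _ = _ := by group
          · intro h
            apply hab
            intro a ha b hb
            rw [← h] at ha
            obtain ⟨a, ha', rfl⟩ := ha
            exact (congrArg Subtype.val (Subgroup.mem_center_iff.1 ha' ⟨b, hb⟩)).symm
        apply h1
        refine ⟨u, ?_, rfl⟩
        rw [SetLike.mem_coe, Subgroup.mem_center_iff]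
        intro g
        have h2 := hu g
        have h3 : ρ ((u * g : Q₁) : G) = ρ ((g * u : Q₁) : G) := h2
        exact (Subtype.ext (hfaith h3)).symm
    have hqK : (q : K) ≠ 0 := by
      intro h
      rw [CharP.cast_eq_zero_iff K p] at h
      exact hpq ((Nat.prime_dvd_prime_iff_eq hp hq).1 h)
    have hcq : ∀ (H : Type) [Group H] [Finite H], IsPGroup q H → (Nat.card H : K) ≠ 0 := by
      intro H _ _ hH
      obtain ⟨l, hl⟩ := IsPGroup.iff_card.1 hH
      rw [hl, Nat.cast_pow]
      exact pow_ne_zero l hqK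
    have hc1 : (Nat.card Q₁ : K) ≠ 0 := by
      obtain ⟨l, hl⟩ := IsPGroup.iff_card.1 hQ₁p
      rw [hl, Nat.cast_pow]
      exact pow_ne_zero l hqK
    have hc2 : (Nat.card A₁ : K) ≠ 0 := by
      obtain ⟨l, hl⟩ := IsPGroup.iff_card.1 (hQ₁p.to_subgroup A₁)
      rw [hl, Nat.cast_pow]
      exact pow_ne_zero l hqK
    haveI : Fintype Q₁ := Fintype.ofFinite _
    let σ : MulAut Q₁ := CfsgLib.SGApp.cnj Q₁ ⟨x, hxN⟩
    have hσ : ∀ (k : ℕ) (u : Q₁), (((σ ^ k) u : Q₁) : G) = x ^ k * u * (x ^ k)⁻¹ := by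
      intro k u
      induction k with
      | zero => simp
      | succ k ih =>
        rw [pow_succ', MulAut.mul_apply]
        show x * (((σ ^ k) u : Q₁) : G) * x⁻¹ = _
        rw [ih, pow_succ']; group
    obtain ⟨D, hD1, hD2⟩ := hD.main (by rw [← Nat.card_eq_fintype_card]; exact hc1) hc2 (by
        intro h
        apply hu₀A
        have h1 : (⟨u₀, hu₀⟩ : Q₁) ∈ A₁ := h ▸ Subgroup.mem_top _
        exact h1) σ (by
        intro u
        show x * (u : G) * x⁻¹ ∈ A₀ ↔ (u : G) ∈ A₀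
        constructor
        · intro h
          have h2 := hA₀c _ h x⁻¹
          have h3 : x⁻¹ * (x * (u : G) * x⁻¹) = u * x⁻¹ := by group
          rw [h3] at h2
          have h1 : (u : G) = x * u * x⁻¹ := mul_right_cancel h2
          rw [h1]; exact h
        · intro h
          have h1 : x * (u : G) * x⁻¹ = u := by rw [hA₀c _ h x, mul_inv_cancel_right]
          rw [h1]; exact h) p n hn1 (by
        intro k hk0 hk u hu
        have h1 : (((σ ^ k) u : Q₁) : G) * (u : G)⁻¹ ∈ A₀ := hu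
        rw [hσ] at h1
        apply hfixmod (x ^ k) (Subgroup.pow_mem _ (Subgroup.mem_zpowers x) _) _ (u : G) (hQ₁Q u.2) h1
        intro h2
        have h3 := orderOf_dvd_of_pow_eq_one h2
        rw [hord] at h3
        exact absurd (Nat.le_of_dvd hk0 h3) (not_le.2 hk)) (ρ x) (by
        intro u
        show ρ x * ρ u = ρ (x * u * x⁻¹) * ρ x
        rw [← map_mul, ← map_mul]
        congr 1
        group) (by rw [← map_pow, ← hord, pow_orderOf_eq_one, map_one]) s hs
    have h3 : 0 < p ^ n := pow_pos hp.pos n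
    rcases hD2 with h1 | ⟨h1, h2⟩
    · refine ⟨by omega, hle, fun h => absurd h (by omega)⟩
    · refine ⟨h1, hle, fun _ => ⟨?_, ?_⟩⟩
      · obtain ⟨l, hl⟩ := (hQ₁p).index A₁
        rw [Subgroup.index_eq_card, ← hD1] at hl
        have h4 : D ∣ q ^ l := by rw [← hl]; exact dvd_pow_self D two_ne_zero
        obtain ⟨b, _, hb⟩ := (Nat.dvd_prime_pow hq).1 h4
        exact ⟨b, by rw [← h2, hb]⟩
      · intro hQc
        apply hab
        intro a ha b hb
        exact congrArg Subtype.val (hQc.is_comm.comm ⟨a, hQ₁Q ha⟩ ⟨b, hQ₁Q hb⟩)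


end Cfsg.Agent.S4282
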