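import Cfsg.Statements.S4283
import Mathlib
import Cfsg.Agent.LibFrobH13

set_option autoImplicit false
open Cfsg

namespace Cfsg.Agent.S4283

open Subgroup CfsgLib.FrobH13
open scoped Pointwise

/-- Let G be a finite group with centre Z and let K, H be abelian subgroups of G containing Z such that G/Z is a Frobenius group with complement H/Z and kernel K/Z. Then the conjugacy class sizes of G are exactly 1, [G : K] and [G : H], and these two indices are coprime. (This is the converse half of the characterization of finite groups whose conjugacy class sizes are exactly 1, m and n with m and n coprime.) -/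
theorem result {G : Type*} [Group G] [Finite G] (K H : Subgroup G) (hZK : Subgroup.center G ≤ K) (hZH : Subgroup.center G ≤ H) (hK : IsMulCommutative K) (hH : IsMulCommutative H) (hFrob : Cfsg.IsFrobeniusComplement (H.map (QuotientGroup.mk' (Subgroup.center G)))) (hker : Cfsg.frobeniusKernel (H.map (QuotientGroup.mk' (Subgroup.center G))) = (K.map (QuotientGroup.mk' (Subgroup.center G)) : Set (G ⧸ Subgroup.center G))) : Set.range (fun x : G => (Subgroup.centralizer ({x} : Set G)).index) = ({1, K.index, H.index} : Set ℕ) ∧ K.index.Coprime H.index := by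
  classical
  set π := QuotientGroup.mk' (Subgroup.center G) with hπ
  have hπs : Function.Surjective π := QuotientGroup.mk'_surjective _
  have hker' : π.ker = center G := QuotientGroup.ker_mk' _
  have hcomap : ∀ L : Subgroup G, center G ≤ L → (L.map π).comap π = L := by
    intro L hL
    rw [Subgroup.comap_map_eq, hker', sup_eq_left.mpr hL]
  have hmem : ∀ L : Subgroup G, center G ≤ L → ∀ x : G, π x ∈ L.map π ↔ x ∈ L := by
    intro L hL x
    rw [← Subgroup.mem_comap, hcomap L hL]
  have hπ1 : ∀ x : G, π x = 1 ↔ x ∈ center G := by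
    intro x
    exact QuotientGroup.eq_one_iff x
  have hidx : ∀ L : Subgroup G, center G ≤ L → (L.map π).index = L.index := by
    intro L hL
    rw [← Subgroup.index_comap_of_surjective _ hπs, hcomap L hL]
  -- coprimality
  have hcK := card_kernel hFrob (K.map π) hker.symm
  have hcop : K.index.Coprime H.index := by
    have h1 := coprime_card_index hFrob
    have h2 := (K.map π).card_mul_index
    have h3 := (H.map π).card_mul_index
    have h4 : (K.map π).index = Nat.card (H.map π) := by
      rw [hcK, ← h3, mul_comm] at h2
      exact Nat.eq_of_mul_eq_mul_right (Nat.pos_of_ne_zero index_ne_zero_of_finite) h2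
    rw [← hidx K hZK, ← hidx H hZH, h4]
    exact h1
  -- centralizers of elements of `H`
  have hCH : ∀ x ∈ H, x ∉ center G → centralizer ({x} : Set G) = H := by
    intro x hx hxc
    apply le_antisymm
    · intro y hy
      rw [mem_centralizer_singleton_iff] at hy
      rw [← hmem H hZH]
      apply mem_of_commute hFrob ((hmem H hZH x).mpr hx)
      · rw [Ne, hπ1]; exact hxc
      · rw [← map_mul, hy, map_mul]
    · intro y hy
      rw [mem_centralizer_singleton_iff]
      exact congrArg Subtype.val (mul_comm' (⟨y, hy⟩ : H) ⟨x, hx⟩)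
  have hCK : ∀ x ∈ K, x ∉ center G → centralizer ({x} : Set G) = K := by
    intro x hx hxc
    apply le_antisymm
    · intro y hy
      rw [mem_centralizer_singleton_iff] at hy
      rw [← hmem K hZK]
      by_contra hyK
      have h1 : π y ∉ Cfsg.frobeniusKernel (H.map π) := by rw [hker]; exact hyK
      have h2 : ¬ (π y = 1 ∨ ∀ g : G ⧸ center G, π y ∉ MulAut.conj g • (H.map π)) := h1
      push Not at h2
      obtain ⟨h3, g, hg⟩ := h2
      rw [CfsgLib.H13.mem_conj_smul] at hg
      have h4 : g⁻¹ * π x * g ∈ H.map π := by
        apply mem_of_commute hFrob hg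
        · intro h5
          apply h3
          have := congrArg (fun z => g * z * g⁻¹) h5
          simpa [mul_assoc] using this
        · have h6 : π x * π y = π y * π x := by rw [← map_mul, ← map_mul, hy]
          calc g⁻¹ * π x * g * (g⁻¹ * π y * g) = g⁻¹ * (π x * π y) * g := by group
            _ = g⁻¹ * (π y * π x) * g := by rw [h6]
            _ = g⁻¹ * π y * g * (g⁻¹ * π x * g) := by group
      have h5 : g⁻¹ * π x * g ∈ K.map π := by
        have hn := kernel_normal (K.map π) hker.symm
        have := hn.conj_mem (π x) ((hmem K hZK x).mpr hx) g⁻¹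
        rwa [inv_inv] at this
      have h6 := kernel_inf (K.map π) hker.symm h5 h4
      apply hxc
      rw [← hπ1]
      have := congrArg (fun z => g * z * g⁻¹) h6
      simpa [mul_assoc] using this
    · intro y hy
      rw [mem_centralizer_singleton_iff]
      exact congrArg Subtype.val (mul_comm' (⟨y, hy⟩ : K) ⟨x, hx⟩)
  have hconj : ∀ x g : G, (centralizer ({g⁻¹ * x * g} : Set G)).index = (centralizer ({x} : Set G)).index := by
    intro x g
    have : centralizer ({g⁻¹ * x * g} : Set G) = (centralizer ({x} : Set G)).map (MulAut.conj g⁻¹).toMonoidHom := by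
      ext y
      rw [mem_centralizer_singleton_iff, Subgroup.mem_map]
      constructor
      · intro hy
        refine ⟨g * y * g⁻¹, ?_, ?_⟩
        · rw [mem_centralizer_singleton_iff]
          calc g * y * g⁻¹ * x = g * (y * (g⁻¹ * x * g)) * g⁻¹ := by group
            _ = g * ((g⁻¹ * x * g) * y) * g⁻¹ := by rw [hy]
            _ = x * (g * y * g⁻¹) := by group
        · change g⁻¹ * (g * y * g⁻¹) * g⁻¹⁻¹ = y
          group
      · rintro ⟨z, hz, rfl⟩
        rw [mem_centralizer_singleton_iff] at hz
        change (g⁻¹ * z * g⁻¹⁻¹) * (g⁻¹ * x * g) = (g⁻¹ * x * g) * (g⁻¹ * z * g⁻¹⁻¹)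
        calc (g⁻¹ * z * g⁻¹⁻¹) * (g⁻¹ * x * g) = g⁻¹ * (z * x) * g := by group
          _ = g⁻¹ * (x * z) * g := by rw [hz]
          _ = _ := by group
    rw [this]
    exact Subgroup.index_map_equiv _ (MulAut.conj g⁻¹)
  refine ⟨?_, hcop⟩
  ext m
  simp only [Set.mem_range, Set.mem_insert_iff, Set.mem_singleton_iff]
  constructor
  · rintro ⟨x, rfl⟩
    by_cases hxc : x ∈ center G
    · left
      rw [Subgroup.index_eq_one, Subgroup.centralizer_eq_top_iff_subset]
      exact Set.singleton_subset_iff.mpr hxc
    · right
      by_cases hxK : x ∈ K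
      · left; rw [hCK x hxK hxc]
      · right
        have h1 : π x ∉ Cfsg.frobeniusKernel (H.map π) := by
          rw [hker]
          exact fun h => hxK ((hmem K hZK x).mp h)
        have h2 : ¬ (π x = 1 ∨ ∀ g : G ⧸ center G, π x ∉ MulAut.conj g • (H.map π)) := h1
        push Not at h2
        obtain ⟨h3, g, hg⟩ := h2
        obtain ⟨g, rfl⟩ := hπs g
        rw [CfsgLib.H13.mem_conj_smul, ← map_inv, ← map_mul, ← map_mul, hmem H hZH] at hg
        rw [← hconj x g, hCH _ hg]
        intro h4
        apply hxc
        have := Subgroup.Normal.conj_mem (H := center G) inferInstance _ h4 g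
        have e : g * (g⁻¹ * x * g) * g⁻¹ = x := by group
        rwa [e] at this
  · rintro (rfl | rfl | rfl)
    · refine ⟨1, ?_⟩
      rw [Subgroup.index_eq_one, Subgroup.centralizer_eq_top_iff_subset]
      exact Set.singleton_subset_iff.mpr (one_mem _)
    · -- an element of `K` outside `Z`
      obtain ⟨x, hxK, hxc⟩ : ∃ x ∈ K, x ∉ center G := by
        by_contra hcon
        push Not at hcon
        have h1 : K.map π = ⊥ := by
          rw [Subgroup.map_eq_bot_iff, hker']; exact hcon
        rw [h1] at hcK
        rw [Subgroup.card_bot] at hcK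
        exact hFrob.2.1 (Subgroup.index_eq_one.mp hcK.symm)
      exact ⟨x, by rw [hCK x hxK hxc]⟩
    · obtain ⟨x, hxH, hxc⟩ : ∃ x ∈ H, x ∉ center G := by
        by_contra hcon
        push Not at hcon
        apply hFrob.1
        rw [Subgroup.map_eq_bot_iff, hker']; exact hcon
      exact ⟨x, by rw [hCH x hxH hxc]⟩

end Cfsg.Agent.S4283
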