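import Cfsg.Statements.S4290
import Mathlib
import Cfsg.Agent.S4276

set_option autoImplicit false
open Cfsg

namespace Cfsg.Agent.S4290


/-- Let G be a doubly transitive group of permutations of a finite set Ω in which a point stabilizer is a Hall subgroup of G (its order is coprime to its index). Then every automorphism of G of odd order is induced by conjugation by a permutation of Ω normalizing G. -/
theorem result {Ω : Type*} [Fintype Ω] (G : Subgroup (Equiv.Perm Ω)) (h2 : MulAction.IsMultiplyPretransitive G Ω 2) (o : Ω) (hHall : (Nat.card (MulAction.stabilizer G o)).Coprime (MulAction.stabilizer G o).index) (α : MulAut G) (hα : Odd (orderOf α)) : ∃ σ : Equiv.Perm Ω, σ ∈ Subgroup.normalizer (G : Set (Equiv.Perm Ω)) ∧ ∀ g : G, ((α g : G) : Equiv.Perm Ω) = σ * (g : Equiv.Perm Ω) * σ⁻¹ := by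
  haveI htr : MulAction.IsPretransitive G Ω := MulAction.isPretransitive_of_is_two_pretransitive
  have hindex : (MulAction.stabilizer G o).index = Fintype.card Ω := by
    rw [MulAction.index_stabilizer_of_transitive, Nat.card_eq_fintype_card]
  have hdvd : Nat.card (MulAction.orbit ((MulAction.stabilizer G o).map α.toMonoidHom) o) ∣
      Nat.card (MulAction.stabilizer G o) := by
    have h1 : Nat.card (MulAction.orbit ((MulAction.stabilizer G o).map α.toMonoidHom) o) ∣
        Nat.card ((MulAction.stabilizer G o).map α.toMonoidHom) := by
      rw [Nat.card_coe_set_eq, ← MulAction.index_stabilizer]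
      exact Subgroup.index_dvd_card _
    exact h1.trans (Subgroup.card_map_dvd _ _)
  have hk : (Nat.card (MulAction.orbit ((MulAction.stabilizer G o).map α.toMonoidHom) o)).Coprime
      (Fintype.card Ω) := by
    rw [hindex] at hHall
    exact Nat.Coprime.coprime_dvd_left hdvd hHall
  exact (Cfsg.Agent.S4276.result G h2 o α hα o hk).1

end Cfsg.Agent.S4290
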