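import Cfsg.Statements.S4293
import Mathlib
import Cfsg.Agent.LibH7Frob

set_option autoImplicit false
open Cfsg
open scoped Pointwise

namespace Cfsg.Agent.S4293

open CfsgLib.H7

variable {D : Type*} [DivisionRing D]

/-- the additive group generated by `H` -/
def span (H : Subgroup Dˣ) : Submodule ℤ D :=
  Submodule.span ℤ ((fun u : Dˣ => (u : D)) '' (H : Set Dˣ))

theorem smul_mem_span (H : Subgroup Dˣ) (h : Dˣ) (hh : h ∈ H) (x : D) (hx : x ∈ span H) :
    (h : D) * x ∈ span H := by
  unfold span at hx ⊢
  induction hx using Submodule.span_induction with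
  | mem x hx =>
    obtain ⟨u, hu, rfl⟩ := hx
    apply Submodule.subset_span
    exact ⟨h * u, H.mul_mem hh hu, by simp⟩
  | zero => rw [mul_zero]; exact Submodule.zero_mem _
  | add x y _ _ ihx ihy => rw [mul_add]; exact Submodule.add_mem _ ihx ihy
  | smul a x _ ih => rw [mul_smul_comm]; exact Submodule.smul_mem _ _ ih

/-- existence of a good prime -/
theorem exists_prime (H : Subgroup Dˣ) [Finite H] : ∃ q : ℕ, q.Prime ∧
    (∀ h ∈ H, (orderOf h).Coprime q) ∧ ∀ r : ℤ, (q : ℤ) ∣ r - 1 → (r : D) ≠ 0 := by
  obtain ⟨p, hp⟩ := CharP.exists D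
  rcases CharP.char_is_prime_or_zero D p with hpp | hp0
  · haveI : Fact p.Prime := ⟨hpp⟩
    refine ⟨p, hpp, ?_, ?_⟩
    · intro h hh
      rw [Nat.coprime_comm, hpp.coprime_iff_not_dvd]
      intro hdvd
      have hfin : 0 < orderOf h := by
        have := orderOf_pos (⟨h, hh⟩ : H)
        rwa [Subgroup.orderOf_mk] at this
      set y := h ^ (orderOf h / p) with hy
      have hyord : orderOf y = p := by
        rw [hy, orderOf_pow_of_dvd]
        · exact Nat.div_div_self hdvd hfin.ne'
        · exact (Nat.div_pos (Nat.le_of_dvd hfin hdvd) hpp.pos).ne'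
        · exact Nat.div_dvd_of_dvd hdvd
      have hyp : (y : D) ^ p = 1 := by
        rw [← Units.val_pow_eq_pow_val, ← hyord, pow_orderOf_eq_one, Units.val_one]
      have h1 : ((y : D) - 1) ^ p = 0 := by
        rw [sub_pow_char_of_commute p (Commute.one_right _), hyp, one_pow, sub_self]
      have h2 : (y : D) = 1 := sub_eq_zero.mp (pow_eq_zero_iff hpp.ne_zero |>.mp h1)
      have h3 : y = 1 := Units.ext h2
      rw [h3, orderOf_one] at hyord
      exact hpp.one_lt.ne hyord
    · intro r hr hr0
      rw [CharP.intCast_eq_zero_iff D p] at hr0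
      have h1 : (p : ℤ) ∣ 1 := by
        have := dvd_sub hr0 hr
        simpa using this
      have h2 : p ∣ 1 := by exact_mod_cast h1
      exact hpp.one_lt.ne' (Nat.dvd_one.mp h2)
  · subst hp0
    haveI : CharZero D := CharP.charP_to_charZero D
    obtain ⟨q, hq1, hq⟩ := Nat.exists_infinite_primes (Nat.card H + 1)
    refine ⟨q, hq, ?_, ?_⟩
    · intro h hh
      rw [Nat.coprime_comm, hq.coprime_iff_not_dvd]
      intro hdvd
      have h1 : orderOf h ∣ Nat.card H := Subgroup.orderOf_dvd_natCard H hh
      have := Nat.le_of_dvd Nat.card_pos (hdvd.trans h1)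
      omega
    · intro r hr hr0
      have : r = 0 := by exact_mod_cast hr0
      subst this
      have h1 : (q : ℤ) ∣ 1 := by
        have := (dvd_neg.mpr hr)
        simpa using this
      have h2 : q ∣ 1 := by exact_mod_cast h1
      exact hq.one_lt.ne' (Nat.dvd_one.mp h2)

/-- A nontrivial finite subgroup of the multiplicative group of a division ring occurs as a Frobenius complement of some finite Frobenius group. -/
theorem result {D : Type*} [DivisionRing D] (H : Subgroup Dˣ) [Finite H] (hH : H ≠ ⊥) :
    ∃ (L : Type) (_ : Group L) (_ : Finite L) (C : Subgroup L), Cfsg.IsFrobeniusComplement C ∧ Nonempty (H ≃* C) := by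
  classical
  obtain ⟨q, hq, hcop, hr⟩ := exists_prime H
  set A := span H with hA
  haveI hfg : Module.Finite ℤ A := by
    rw [Module.Finite.iff_fg, hA]
    exact Submodule.fg_span (Set.Finite.image _ (Set.toFinite _))
  -- the quotient
  let I : Submodule ℤ A := (q : ℤ) • (⊤ : Submodule ℤ A)
  have hImem : ∀ a : A, (q : ℤ) • a ∈ I := fun a => Submodule.smul_mem_pointwise_smul _ _ _ Submodule.mem_top
  have h1A : (1 : D) ∈ A := by
    apply Submodule.subset_span
    exact ⟨1, H.one_mem, rfl⟩
  have hInt : I ≠ ⊤ := by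
    intro htop
    obtain ⟨r, hr1, hr2⟩ := Submodule.exists_sub_one_mem_and_smul_eq_zero_of_fg_of_le_smul
      (Ideal.span {(q : ℤ)}) (⊤ : Submodule ℤ A) (Module.finite_def.mp hfg) (by
        intro x _
        have hx : x ∈ I := by rw [htop]; exact Submodule.mem_top
        obtain ⟨y, -, rfl⟩ := hx
        exact Submodule.smul_mem_smul (Ideal.mem_span_singleton_self _) Submodule.mem_top)
    rw [Ideal.mem_span_singleton] at hr1
    apply hr r hr1
    have := hr2 ⟨1, h1A⟩ Submodule.mem_top
    have h3 := congrArg Subtype.val this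
    simpa using h3
  haveI hnt : Nontrivial (A ⧸ I) := Submodule.Quotient.nontrivial_iff.mpr hInt
  haveI hfin : Finite (A ⧸ I) := by
    haveI : Module.Finite ℤ (A ⧸ I) := inferInstance
    haveI : AddGroup.FG (A ⧸ I) := Module.Finite.iff_addGroup_fg.mp inferInstance
    apply AddCommGroup.finite_of_fg_torsion
    intro x
    obtain ⟨a, rfl⟩ := Submodule.Quotient.mk_surjective I x
    rw [isOfFinAddOrder_iff_nsmul_eq_zero]
    refine ⟨q, hq.pos, ?_⟩
    rw [← Submodule.Quotient.mk_smul, Submodule.Quotient.mk_eq_zero, ← natCast_zsmul]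
    exact hImem a
  -- the action
  let act : H → A →ₗ[ℤ] A := fun h =>
    { toFun := fun a => ⟨((h : Dˣ) : D) * a, smul_mem_span H h h.2 a a.2⟩
      map_add' := fun a b => Subtype.ext (mul_add _ _ _)
      map_smul' := fun a b => Subtype.ext (mul_smul_comm _ _ _) }
  have hact : ∀ h : H, I ≤ I.comap (act h) := by
    intro h x hx
    obtain ⟨y, -, rfl⟩ := hx
    change act h ((q : ℤ) • y) ∈ I
    rw [map_smul]
    exact hImem _
  letI : DistribMulAction H (A ⧸ I) :=
    { smul := fun h => I.mapQ I (act h) (hact h)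
      one_smul := fun x => by
        obtain ⟨a, rfl⟩ := Submodule.Quotient.mk_surjective I x
        change I.mapQ I (act 1) (hact 1) _ = _
        rw [Submodule.mapQ_apply]
        congr 1
        apply Subtype.ext
        change (((1 : H) : Dˣ) : D) * a = a
        simp
      mul_smul := fun g h x => by
        obtain ⟨a, rfl⟩ := Submodule.Quotient.mk_surjective I x
        change I.mapQ I (act (g * h)) (hact _) _ = I.mapQ I (act g) (hact g) (I.mapQ I (act h) (hact h) _)
        rw [Submodule.mapQ_apply, Submodule.mapQ_apply, Submodule.mapQ_apply]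
        congr 1
        apply Subtype.ext
        change (((g * h : H) : Dˣ) : D) * a = ((g : Dˣ) : D) * (((h : Dˣ) : D) * a)
        rw [← mul_assoc]
        simp
      smul_zero := fun h => map_zero (I.mapQ I (act h) (hact h))
      smul_add := fun h => map_add (I.mapQ I (act h) (hact h)) }
  haveI : Nontrivial H := (Subgroup.nontrivial_iff_ne_bot H).mpr hH
  apply frob_of_addAction (W := A ⧸ I) (C := H)
  intro c hc v hv
  obtain ⟨a, rfl⟩ := Submodule.Quotient.mk_surjective I v
  -- `c ^ i` fixes `v`
  have hpow : ∀ i : ℕ, c ^ i • (Submodule.Quotient.mk a : A ⧸ I) = Submodule.Quotient.mk a := by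
    intro i
    induction i with
    | zero => rw [pow_zero, one_smul]
    | succ i ih => rw [pow_succ, mul_smul, hv, ih]
  have hsum : ∑ i ∈ Finset.range (orderOf c), (((c : Dˣ) : D)) ^ i = 0 := by
    have h1 : (((c : Dˣ) : D) - 1) * ∑ i ∈ Finset.range (orderOf c), (((c : Dˣ) : D)) ^ i = 0 := by
      rw [mul_geom_sum]
      have : (((c : Dˣ) : D)) ^ orderOf c = 1 := by
        have h2 : ((c ^ orderOf c : H) : Dˣ) = 1 := by rw [pow_orderOf_eq_one]; rfl
        have h3 : (((c ^ orderOf c : H) : Dˣ) : D) = 1 := by rw [h2]; rfl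
        rw [← h3]
        rw [SubmonoidClass.coe_pow, Units.val_pow_eq_pow_val]
      rw [this, sub_self]
    rcases mul_eq_zero.mp h1 with h | h
    · exfalso
      apply hc
      apply Subtype.ext
      apply Units.ext
      exact sub_eq_zero.mp h
    · exact h
  have hsum2 : ∑ i ∈ Finset.range (orderOf c), (c ^ i • (Submodule.Quotient.mk a : A ⧸ I)) = 0 := by
    have h1 : ∀ i, c ^ i • (Submodule.Quotient.mk a : A ⧸ I) =
        Submodule.Quotient.mk (act (c ^ i) a) := fun i => rfl
    rw [Finset.sum_congr rfl (fun i _ => h1 i)]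
    have h2 : ∑ i ∈ Finset.range (orderOf c), act (c ^ i) a = 0 := by
      apply Subtype.ext
      rw [AddSubmonoidClass.coe_finset_sum]
      have : ∀ i, ((act (c ^ i) a : A) : D) = ((c : Dˣ) : D) ^ i * a := by
        intro i
        change (((c ^ i : H) : Dˣ) : D) * a = _
        simp
      rw [Finset.sum_congr rfl (fun i _ => this i), ← Finset.sum_mul, hsum, zero_mul]
      rfl
    have h3 := congrArg (Submodule.mkQ I) h2
    rw [map_sum, map_zero] at h3
    exact h3
  rw [Finset.sum_congr rfl (fun i _ => hpow i), Finset.sum_const, Finset.card_range] at hsum2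
  -- `orderOf c` is prime to `q`
  have hq0 : (q : ℕ) • (Submodule.Quotient.mk a : A ⧸ I) = 0 := by
    rw [← Submodule.Quotient.mk_smul, Submodule.Quotient.mk_eq_zero, ← natCast_zsmul]
    exact hImem a
  have hc1 : (orderOf c).Coprime q := by
    have := hcop c c.2
    rwa [Subgroup.orderOf_coe] at this
  have h1 := addOrderOf_dvd_of_nsmul_eq_zero hsum2
  have h2 := addOrderOf_dvd_of_nsmul_eq_zero hq0
  have h3 := Nat.eq_one_of_dvd_coprimes hc1 h1 h2
  exact AddMonoid.addOrderOf_eq_one_iff.mp h3

end Cfsg.Agent.S4293
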