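import Cfsg.Statements.S4297
import Mathlib
import Cfsg.Agent.LibH7Frob

set_option autoImplicit false
open Cfsg

namespace Cfsg.Agent.S4297

open CfsgLib.H7

section
variable {n p : ℕ} [NeZero n] [Fact p.Prime] (ζ : (ZMod p)ˣ) (hζ : orderOf ζ = 2 * n)

/-- `ζ ^ i` -/
def e (i : ZMod (2 * n)) : ZMod p := ((ζ ^ i.val : (ZMod p)ˣ) : ZMod p)

include hζ in
theorem e_add (i j : ZMod (2 * n)) : e ζ (i + j) = e ζ i * e ζ j := by
  unfold e
  haveI : NeZero (2 * n) := ⟨by have := NeZero.ne n; omega⟩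
  rw [ZMod.val_add, ← Units.val_mul, ← pow_add]
  have h1 := pow_mod_orderOf ζ (i.val + j.val)
  have h3 : (i.val + j.val) % (2 * n) = (i.val + j.val) % orderOf ζ := by rw [hζ]
  rw [h3, h1]

theorem e_zero : e (n := n) ζ 0 = 1 := by
  unfold e
  simp

include hζ in
theorem e_neg (i : ZMod (2 * n)) : e ζ i * e ζ (-i) = 1 := by
  rw [← e_add ζ hζ, add_neg_cancel, e_zero]

include hζ in
theorem e_n : e ζ ((n : ℕ) : ZMod (2 * n)) = -1 := by
  have hn : 0 < n := Nat.pos_of_ne_zero (NeZero.ne n)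
  have h1 : e ζ ((n : ℕ) : ZMod (2 * n)) * e ζ ((n : ℕ) : ZMod (2 * n)) = 1 := by
    rw [← e_add ζ hζ, ← Nat.cast_add, ← two_mul, ZMod.natCast_self, e_zero]
  rcases mul_self_eq_one_iff.mp h1 with h | h
  · exfalso
    unfold e at h
    have h2 : ζ ^ (((n : ℕ) : ZMod (2 * n)).val) = 1 := Units.ext h
    rw [ZMod.val_natCast, Nat.mod_eq_of_lt (by omega)] at h2
    have h3 := orderOf_dvd_of_pow_eq_one h2
    rw [hζ] at h3
    have := Nat.le_of_dvd hn h3
    omega
  · exact h

include hζ in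
theorem e_eq_one (i : ZMod (2 * n)) (h : e ζ i = 1) : i = 0 := by
  haveI : NeZero (2 * n) := ⟨by have := NeZero.ne n; omega⟩
  unfold e at h
  have h2 : ζ ^ i.val = 1 := Units.ext h
  have h3 := orderOf_dvd_of_pow_eq_one h2
  rw [hζ] at h3
  have h4 := Nat.eq_zero_of_dvd_of_lt h3 (ZMod.val_lt i)
  exact (ZMod.val_eq_zero i).mp h4

/-- the representation -/
def rho (x : QuaternionGroup n) : Matrix (Fin 2) (Fin 2) (ZMod p) :=
  match x with
  | QuaternionGroup.a i => !![e ζ i, 0; 0, e ζ (-i)]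
  | QuaternionGroup.xa i => !![0, -e ζ (-i); e ζ i, 0]

include hζ in
theorem rho_mul (x y : QuaternionGroup n) : rho ζ (x * y) = rho ζ x * rho ζ y := by
  rcases x with i | i <;> rcases y with j | j
  · rw [QuaternionGroup.a_mul_a]
    simp only [rho, Matrix.mul_fin_two, neg_add, e_add ζ hζ]
    simp
  · rw [QuaternionGroup.a_mul_xa]
    simp only [rho, Matrix.mul_fin_two, neg_sub]
    rw [sub_eq_add_neg i j, sub_eq_add_neg j i, e_add ζ hζ, e_add ζ hζ]
    simp [mul_comm]
  · rw [QuaternionGroup.xa_mul_a]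
    simp only [rho, Matrix.mul_fin_two, neg_add, e_add ζ hζ]
    simp
  · rw [QuaternionGroup.xa_mul_xa]
    have h1 : -((n : ZMod (2 * n)) + j - i) = (n : ZMod (2 * n)) + (-j) + i := by
      have : (n : ZMod (2 * n)) + n = 0 := by
        rw [← Nat.cast_add, ← two_mul, ZMod.natCast_self]
      linear_combination -this
    simp only [rho, Matrix.mul_fin_two]
    rw [h1, sub_eq_add_neg, e_add ζ hζ, e_add ζ hζ, e_add ζ hζ, e_add ζ hζ, e_n ζ hζ]
    ext a b
    fin_cases a <;> fin_cases b <;> simp [mul_comm]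

end

/-- For every n ≥ 2 the dicyclic group of order 4n (generated by an element a of order 2n and an element x with x² = aⁿ and x a x⁻¹ = a⁻¹) occurs as a Frobenius complement of some finite Frobenius group. -/
theorem result (n : ℕ) (hn : 2 ≤ n) :
    ∃ (L : Type) (_ : Group L) (_ : Finite L) (H : Subgroup L), Cfsg.IsFrobeniusComplement H ∧ Nonempty (H ≃* QuaternionGroup n) := by
  haveI : NeZero n := ⟨by omega⟩
  obtain ⟨p, hp, hp2, hmod⟩ := Nat.exists_prime_gt_modEq_one (k := 2 * n) 2 (by omega)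
  haveI : Fact p.Prime := ⟨hp⟩
  have hdvd : 2 * n ∣ p - 1 := (Nat.modEq_iff_dvd' hp.one_lt.le).mp hmod.symm
  obtain ⟨t, ht⟩ := IsCyclic.exists_ofOrder_eq_natCard (α := (ZMod p)ˣ)
  have hcard : Nat.card (ZMod p)ˣ = p - 1 := by
    rw [Nat.card_eq_fintype_card, ZMod.card_units]
  rw [hcard] at ht
  obtain ⟨m, hm⟩ := hdvd
  have hm0 : m ≠ 0 := by rintro rfl; omega
  have hζ : orderOf (t ^ m) = 2 * n := by
    rw [orderOf_pow_of_dvd hm0 (by rw [ht, hm]; exact Dvd.intro_left _ rfl), ht, hm]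
    exact Nat.mul_div_cancel _ (Nat.pos_of_ne_zero hm0)
  let ρ : QuaternionGroup n →* Matrix (Fin 2) (Fin 2) (ZMod p) :=
    { toFun := rho (t ^ m)
      map_one' := by
        rw [QuaternionGroup.one_def]
        simp only [rho, neg_zero, e_zero]
        exact Matrix.one_fin_two.symm
      map_mul' := rho_mul (t ^ m) hζ }
  have h2 : (2 : ZMod p) ≠ 0 := by
    intro h
    have : ((2 : ℕ) : ZMod p) = 0 := by exact_mod_cast h
    rw [ZMod.natCast_eq_zero_iff] at this
    have := Nat.le_of_dvd (by norm_num) this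
    omega
  have h := frob_of_matrix (k := 2) (by norm_num) ρ ?_
  · obtain ⟨L, i1, i2, H, hH, ⟨e⟩⟩ := h
    exact ⟨L, i1, i2, H, hH, ⟨e.symm⟩⟩
  intro c hc
  change (rho (t ^ m) c - 1).det ≠ 0
  rcases c with i | i
  · simp only [rho]
    rw [Matrix.one_fin_two, Matrix.det_fin_two]
    simp only [Matrix.sub_apply, Matrix.of_apply, Matrix.cons_val', Matrix.cons_val_zero,
      Matrix.cons_val_one, Matrix.cons_val_fin_one, sub_zero, mul_zero, sub_self]
    have hi : i ≠ 0 := by
      rintro rfl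
      exact hc rfl
    apply mul_ne_zero
    · intro h
      exact hi (e_eq_one _ hζ i (sub_eq_zero.mp h))
    · intro h
      exact hi (neg_eq_zero.mp (e_eq_one _ hζ _ (sub_eq_zero.mp h)))
  · simp only [rho]
    rw [Matrix.one_fin_two, Matrix.det_fin_two]
    simp only [Matrix.sub_apply, Matrix.of_apply, Matrix.cons_val', Matrix.cons_val_zero,
      Matrix.cons_val_one, Matrix.cons_val_fin_one, sub_zero, zero_sub]
    have := e_neg (t ^ m) hζ i
    have e1 : (-1 : ZMod p) * -1 - -e (t ^ m) (-i) * e (t ^ m) i = 2 := by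
      linear_combination this
    rw [e1]
    exact h2

end Cfsg.Agent.S4297
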