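import Cfsg.Statements.S4298
import Mathlib
import Cfsg.Agent.LibH7Frob

set_option autoImplicit false
open Cfsg

namespace Cfsg.Agent.S4298

open CfsgLib.H7

/-- table of an embedding `SL(2,3) → SL(2,5)` -/
def tab : List (ℕ × (ZMod 5 × ZMod 5 × ZMod 5 × ZMod 5)) :=
  [(15, (0, 4, 1, 0)), (16, (2, 4, 3, 4)), (17, (3, 2, 1, 1)), (21, (0, 1, 4, 0)), (22, (2, 3, 4, 4)), (23, (3, 1, 2, 1)), (28, (1, 0, 0, 1)), (31, (1, 2, 1, 3)), (34, (3, 3, 4, 1)), (37, (1, 1, 2, 3)), (41, (0, 2, 2, 0)), (42, (4, 2, 1, 2)), (46, (3, 4, 3, 1)), (48, (4, 1, 2, 2)), (53, (3, 0, 0, 2)), (56, (4, 0, 0, 4)), (59, (2, 2, 1, 4)), (62, (4, 3, 4, 2)), (65, (2, 1, 2, 4)), (67, (2, 0, 0, 3)), (69, (1, 4, 3, 3)), (74, (4, 4, 3, 2)), (75, (1, 3, 4, 3)), (79, (0, 3, 3, 0))]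

/-- lookup -/
def g (a b c d : ZMod 3) : ZMod 5 × ZMod 5 × ZMod 5 × ZMod 5 :=
  (tab.lookup (27 * a.val + 9 * b.val + 3 * c.val + d.val)).getD (0, 0, 0, 0)

set_option maxRecDepth 100000 in
theorem g_mul : ∀ a b c d : ZMod 3, a * d - b * c = 1 → ∀ a' b' c' d' : ZMod 3,
    a' * d' - b' * c' = 1 →
    g (a * a' + b * c') (a * b' + b * d') (c * a' + d * c') (c * b' + d * d') =
      ((g a b c d).1 * (g a' b' c' d').1 + (g a b c d).2.1 * (g a' b' c' d').2.2.1,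
       (g a b c d).1 * (g a' b' c' d').2.1 + (g a b c d).2.1 * (g a' b' c' d').2.2.2,
       (g a b c d).2.2.1 * (g a' b' c' d').1 + (g a b c d).2.2.2 * (g a' b' c' d').2.2.1,
       (g a b c d).2.2.1 * (g a' b' c' d').2.1 + (g a b c d).2.2.2 * (g a' b' c' d').2.2.2) := by
  decide +kernel

set_option maxRecDepth 100000 in
theorem g_det : ∀ a b c d : ZMod 3, a * d - b * c = 1 → ¬ (a = 1 ∧ b = 0 ∧ c = 0 ∧ d = 1) →
    ((g a b c d).1 - 1) * ((g a b c d).2.2.2 - 1) - (g a b c d).2.1 * (g a b c d).2.2.1 ≠ 0 := by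
  decide +kernel

/-- the representation -/
def rho (M : Matrix.SpecialLinearGroup (Fin 2) (ZMod 3)) : Matrix (Fin 2) (Fin 2) (ZMod 5) :=
  !![(g (M.1 0 0) (M.1 0 1) (M.1 1 0) (M.1 1 1)).1, (g (M.1 0 0) (M.1 0 1) (M.1 1 0) (M.1 1 1)).2.1;
    (g (M.1 0 0) (M.1 0 1) (M.1 1 0) (M.1 1 1)).2.2.1, (g (M.1 0 0) (M.1 0 1) (M.1 1 0) (M.1 1 1)).2.2.2]

theorem rho_mul (M N : Matrix.SpecialLinearGroup (Fin 2) (ZMod 3)) :
    rho (M * N) = rho M * rho N := by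
  have hM := M.2
  have hN := N.2
  rw [Matrix.det_fin_two] at hM hN
  have h := g_mul _ _ _ _ hM _ _ _ _ hN
  have e : ∀ i j : Fin 2, (M * N).1 i j = M.1 i 0 * N.1 0 j + M.1 i 1 * N.1 1 j := by
    intro i j
    change (M.1 * N.1) i j = _
    rw [Matrix.mul_apply, Fin.sum_univ_two]
  simp only [rho, e, h, Matrix.mul_fin_two]

/-- The group SL(2,3) of order 24 (the binary tetrahedral group) occurs as a Frobenius complement of some finite Frobenius group. -/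
theorem result :
    ∃ (L : Type) (_ : Group L) (_ : Finite L) (H : Subgroup L), Cfsg.IsFrobeniusComplement H ∧ Nonempty (H ≃* Matrix.SpecialLinearGroup (Fin 2) (ZMod 3)) := by
  let ρ : Matrix.SpecialLinearGroup (Fin 2) (ZMod 3) →* Matrix (Fin 2) (Fin 2) (ZMod 5) :=
    { toFun := rho
      map_one' := by decide +kernel
      map_mul' := rho_mul }
  haveI : Nontrivial (Matrix.SpecialLinearGroup (Fin 2) (ZMod 3)) :=
    ⟨1, -1, by decide +kernel⟩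
  haveI : Fact (Nat.Prime 5) := ⟨by norm_num⟩
  have h := frob_of_matrix (k := 2) (by norm_num) ρ ?_
  · obtain ⟨L, i1, i2, H, hH, ⟨e⟩⟩ := h
    exact ⟨L, i1, i2, H, hH, ⟨e.symm⟩⟩
  intro c hc
  have hd := c.2
  rw [Matrix.det_fin_two] at hd
  have h1 := g_det _ _ _ _ hd (by
    rintro ⟨h1, h2, h3, h4⟩
    apply hc
    ext i j
    fin_cases i <;> fin_cases j <;> simp [h1, h2, h3, h4])
  change (rho c - 1).det ≠ 0
  rw [Matrix.one_fin_two, Matrix.det_fin_two]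
  simpa [rho] using h1

end Cfsg.Agent.S4298
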