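import Cfsg.Statements.S4299
import Mathlib
import Cfsg.Agent.LibH7Frob

set_option autoImplicit false
open Cfsg

namespace Cfsg.Agent.S4299

open CfsgLib.H7

theorem exists_units_hom {C : Type*} [Group C] [Finite C] [IsCyclic C] :
    ∃ (p : ℕ) (_ : Fact p.Prime) (f : C →* (ZMod p)ˣ), Function.Injective f := by
  obtain ⟨g, hg⟩ := IsCyclic.exists_generator (α := C)
  have hn : orderOf g = Nat.card C := orderOf_eq_card_of_forall_mem_zpowers hg
  have hpos : 0 < Nat.card C := Nat.card_pos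
  obtain ⟨p, hp, -, hmod⟩ := Nat.exists_prime_gt_modEq_one (k := Nat.card C) 1 hpos.ne'
  haveI : Fact p.Prime := ⟨hp⟩
  refine ⟨p, ⟨hp⟩, ?_⟩
  have hdvd : Nat.card C ∣ p - 1 := (Nat.modEq_iff_dvd' hp.one_lt.le).mp hmod.symm
  obtain ⟨t, ht⟩ := IsCyclic.exists_ofOrder_eq_natCard (α := (ZMod p)ˣ)
  have hcard : Nat.card (ZMod p)ˣ = p - 1 := by
    rw [Nat.card_eq_fintype_card, ZMod.card_units]
  rw [hcard] at ht
  obtain ⟨m, hm⟩ := hdvd
  have hp1 : 0 < p - 1 := by have := hp.two_le; omega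
  have hm0 : m ≠ 0 := by rintro rfl; omega
  have hu : orderOf (t ^ m) = Nat.card C := by
    rw [orderOf_pow_of_dvd hm0 (by rw [ht, hm]; exact Dvd.intro_left _ rfl), ht, hm]
    exact Nat.mul_div_cancel _ (Nat.pos_of_ne_zero hm0)
  have hu' : orderOf (t ^ m) = orderOf g := by rw [hu, hn]
  refine ⟨monoidHomOfForallMemZpowers hg hu'.dvd, ?_⟩
  rw [injective_iff_map_eq_one]
  intro c hc
  obtain ⟨k, rfl⟩ := hg c
  simp only [map_zpow, monoidHomOfForallMemZpowers_apply_gen] at hc ⊢
  rw [← orderOf_dvd_iff_zpow_eq_one] at hc ⊢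
  rwa [hu'] at hc

/-- Every nontrivial finite cyclic group occurs as a Frobenius complement of some finite Frobenius group. -/
theorem result {C : Type*} [Group C] [Finite C] [IsCyclic C] [Nontrivial C] :
    ∃ (L : Type) (_ : Group L) (_ : Finite L) (H : Subgroup L), Cfsg.IsFrobeniusComplement H ∧ Nonempty (C ≃* H) := by
  obtain ⟨p, hp, f, hf⟩ := exists_units_hom (C := C)
  letI : DistribMulAction C (ZMod p) := DistribMulAction.compHom (ZMod p) f
  apply frob_of_addAction (W := ZMod p) (C := C)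
  intro c hc v hv
  have h1 : ((f c : (ZMod p)ˣ) : ZMod p) * v = v := hv
  have h2 : (((f c : (ZMod p)ˣ) : ZMod p) - 1) * v = 0 := by rw [sub_mul, h1, one_mul, sub_self]
  rcases mul_eq_zero.mp h2 with h | h
  · exfalso
    apply hc
    apply hf
    rw [map_one]
    apply Units.ext
    rw [Units.val_one]
    exact sub_eq_zero.mp h
  · exact h

end Cfsg.Agent.S4299
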