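import Cfsg.Statements.S4300
import Mathlib

set_option autoImplicit false
open Cfsg

namespace Cfsg.Agent.S4300


/-- Let G act faithfully and primitively on a set X, and suppose the stabilizer of some point is a simple group. Then either G is simple, or G has a normal subgroup, neither trivial nor the whole group, that acts regularly on X (transitively with trivial point stabilizers). -/
theorem result {G : Type*} [Group G] {X : Type*} [MulAction G X] [FaithfulSMul G X]
    (hprim : MulAction.IsPreprimitive G X) (x : X) (hsimple : IsSimpleGroup (MulAction.stabilizer G x)) :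
    IsSimpleGroup G ∨ ∃ N : Subgroup G, N.Normal ∧ N ≠ ⊥ ∧ N ≠ ⊤ ∧
      MulAction.IsPretransitive N X ∧ ∀ y : X, MulAction.stabilizer N y = ⊥ := by
  by_cases hex : ∃ N : Subgroup G, N.Normal ∧ N ≠ ⊥ ∧ N ≠ ⊤ ∧
      MulAction.IsPretransitive N X ∧ ∀ y : X, MulAction.stabilizer N y = ⊥
  · exact Or.inr hex
  left
  haveI := hprim
  have hnt : Nontrivial G := by
    obtain ⟨a, b, hab⟩ := hsimple.exists_pair_ne
    exact ⟨a, b, fun h => hab (Subtype.ext h)⟩
  refine { exists_pair_ne := hnt.exists_pair_ne, eq_bot_or_eq_top_of_normal := ?_ }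
  intro N hN
  by_contra hcon
  push Not at hcon
  obtain ⟨hNb, hNt⟩ := hcon
  have htr : MulAction.IsPretransitive N X := by
    apply MulAction.IsQuasiPreprimitive.isPretransitive_of_normal
    intro h
    apply hNb
    rw [eq_bot_iff]
    intro n hn
    rw [Subgroup.mem_bot]
    apply FaithfulSMul.eq_of_smul_eq_smul (α := X)
    intro y
    rw [one_smul]
    have : y ∈ MulAction.fixedPoints N X := by rw [h]; exact Set.mem_univ y
    exact this ⟨n, hn⟩
  -- intersection with the stabilizer
  have hnorm : (N.subgroupOf (MulAction.stabilizer G x)).Normal := inferInstance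
  rcases hnorm.eq_bot_or_eq_top with h | h
  · apply hex
    refine ⟨N, hN, hNb, hNt, htr, ?_⟩
    have hx : MulAction.stabilizer N x = ⊥ := by
      rw [eq_bot_iff]
      intro n hn
      have h1 : (n : G) ∈ MulAction.stabilizer G x := hn
      have h2 : (⟨(n : G), h1⟩ : MulAction.stabilizer G x) ∈ N.subgroupOf (MulAction.stabilizer G x) :=
        n.2
      rw [h, Subgroup.mem_bot] at h2
      rw [Subgroup.mem_bot]
      exact Subtype.ext (congrArg (fun z : MulAction.stabilizer G x => (z : G)) h2)
    intro y
    obtain ⟨m, rfl⟩ := MulAction.exists_smul_eq N x y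
    rw [MulAction.stabilizer_smul_eq_stabilizer_map_conj, hx, Subgroup.map_bot]
  · apply hNt
    rw [Subgroup.subgroupOf_eq_top] at h
    rw [eq_top_iff]
    intro g _
    obtain ⟨n, hn⟩ := MulAction.exists_smul_eq N x (g • x)
    have h1 : (n : G)⁻¹ * g ∈ MulAction.stabilizer G x := by
      rw [MulAction.mem_stabilizer_iff, mul_smul, inv_smul_eq_iff]
      exact hn.symm
    have h2 := N.mul_mem n.2 (h h1)
    simpa using h2

end Cfsg.Agent.S4300
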