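import Cfsg.Statements.S4303
import Mathlib
import Cfsg.Agent.LibH7Hall

set_option autoImplicit false
universe u
open Cfsg

namespace Cfsg.Agent.S4303

open Subgroup CfsgLib.H7Hall
open scoped Pointwise

/-- coprime case -/
theorem coprime_case {X : Type*} [Group X] [Finite X] (p : ℕ) [Fact p.Prime] (Y : Subgroup X)
    [Y.Normal] (hY : ¬ p ∣ Nat.card Y) (P : Sylow p X) (hsup : (P : Subgroup X) ⊔ Y = ⊤) :
    ∃ l : List ℕ, l.prod = Nat.card (Sylow p X) ∧ ∀ m ∈ l, IsPrimePow m ∧ m % p = 1 := by
  classical
  have hp : p.Prime := Fact.out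
  have hcop : (Nat.card P).Coprime (Nat.card Y) := by
    obtain ⟨n, hn⟩ := IsPGroup.iff_card.mp P.isPGroup'
    rw [hn]
    exact Nat.Coprime.pow_left _ ((hp.coprime_iff_not_dvd).mpr hY)
  have hinf : (P : Subgroup X) ⊓ Y = ⊥ := Subgroup.inf_eq_bot_of_coprime hcop
  have hPY : (P : Subgroup X) ≤ normalizer (Y : Set X) := by
    rw [normalizer_eq_top_iff.mpr inferInstance]; exact le_top
  have hsolv : Group.IsSolvable P := by
    haveI : Group.IsNilpotent P := P.isPGroup'.isNilpotent
    infer_instance
  set C := Y ⊓ centralizer ((P : Subgroup X) : Set X) with hC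
  -- the Sylow number
  have hn : Nat.card (Sylow p X) * Nat.card C = Nat.card Y := by
    have h1 : Nat.card (Sylow p X) = (normalizer ((P : Subgroup X) : Set X)).relIndex Y := by
      have h2 := (isSyl_of_sylow P (le_top : (P : Subgroup X) ≤ ⊤))
      rw [P.card_eq_index_normalizer]
      change (normalizer ((P : Subgroup X) : Set X)).index = _
      rw [← Subgroup.relIndex_top_right]
      apply relIndex_eq_of_sup_eq
      rw [eq_top_iff, ← hsup]
      exact sup_le_sup_right le_normalizer _
    rw [h1, ← inf_relIndex_right]
    have h3 : normalizer ((P : Subgroup X) : Set X) ⊓ Y = C := by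
      apply le_antisymm
      · rintro y ⟨hy1, hy2⟩
        refine ⟨hy2, ?_⟩
        change y ∈ centralizer _
        rw [mem_centralizer_iff]
        intro g hg
        have h4 : y * g * y⁻¹ ∈ (P : Subgroup X) := (Subgroup.mem_normalizer_iff.mp hy1 g).mp hg
        have h5 : y * g * y⁻¹ * g⁻¹ ∈ (P : Subgroup X) ⊓ Y := by
          refine ⟨(P : Subgroup X).mul_mem h4 (inv_mem hg), ?_⟩
          have h6 : g * y⁻¹ * g⁻¹ ∈ Y := Subgroup.Normal.conj_mem inferInstance _ (inv_mem hy2) g
          have h7 := Y.mul_mem hy2 h6
          have e : y * (g * y⁻¹ * g⁻¹) = y * g * y⁻¹ * g⁻¹ := by group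
          rwa [e] at h7
        rw [hinf, mem_bot] at h5
        have h8 : y * g = g * y := by
          have := congrArg (fun z => z * g * y) h5
          simpa [mul_assoc] using this
        exact h8.symm
      · rintro y ⟨hy1, hy2⟩
        exact ⟨centralizer_le_normalizer _ hy2, hy1⟩
    rw [h3, mul_comm]
    exact CfsgLib.H7.card_mul_relIndex inf_le_left
  -- the prime factors
  have hq : ∀ q : ℕ, q.Prime → q ^ ((Nat.card (Sylow p X)).factorization q) ≡ 1 [MOD p] := by
    intro q hq
    haveI : Fact q.Prime := ⟨hq⟩
    -- an invariant Sylow `q`-subgroup of `Y` containing a Sylow `q`-subgroup of `C`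
    obtain ⟨R⟩ := (inferInstance : Nonempty (Sylow q C))
    let U : Subgroup X := (R : Subgroup C).map C.subtype
    have hUC : U ≤ C := map_subtype_le _
    have hUY : U ≤ Y := hUC.trans inf_le_left
    have hUq : IsPGroup q U := R.isPGroup'.map _
    have hUP : (P : Subgroup X) ≤ normalizer (U : Set X) := by
      intro g hg
      rw [Subgroup.mem_normalizer_iff]
      intro x
      have hcomm : ∀ x ∈ U, g * x * g⁻¹ = x := by
        intro x hx
        have := mem_centralizer_iff.mp (hUC hx).2 g hg
        rw [this, mul_inv_cancel_right]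
      constructor
      · intro hx
        rw [hcomm x hx]; exact hx
      · intro hx
        have h1 := hcomm _ hx
        have h2 : g * x * g⁻¹ = x := by
          have := congrArg (fun z => g⁻¹ * z * g) h1
          simpa [mul_assoc] using this
        rwa [h2] at hx
    obtain ⟨Q, hUQ, hPQ⟩ := CfsgLib.Coprime.exists_invariant_sylow_ge hPY hcop (Or.inl hsolv) q U hUY hUq hUP
    set Q' : Subgroup X := (Q : Subgroup Y).map Y.subtype with hQ'
    have hQ'Y : Q' ≤ Y := map_subtype_le _
    have hQ'q : IsPGroup q Q' := Q.isPGroup'.map _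
    have hcardQ : Nat.card Q' = q ^ (Nat.card Y).factorization q := by
      rw [hQ', Subgroup.card_map_of_injective Y.subtype_injective]
      exact Q.card_eq_multiplicity
    have hcardU : Nat.card U = q ^ (Nat.card C).factorization q := by
      change Nat.card ((R : Subgroup C).map C.subtype) = _
      rw [Subgroup.card_map_of_injective C.subtype_injective]
      exact R.card_eq_multiplicity
    -- `C_Q(P) = U`
    have hCQ : Q' ⊓ centralizer ((P : Subgroup X) : Set X) = U := by
      symm
      apply Subgroup.eq_of_le_of_card_ge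
      · exact le_inf hUQ (hUC.trans inf_le_right)
      · have h1 : IsPGroup q (Q' ⊓ centralizer ((P : Subgroup X) : Set X) : Subgroup X) :=
          hQ'q.to_le inf_le_left
        obtain ⟨k, hk⟩ := IsPGroup.iff_card.mp h1
        have h2 : Nat.card (Q' ⊓ centralizer ((P : Subgroup X) : Set X) : Subgroup X) ∣ Nat.card C :=
          Subgroup.card_dvd_of_le (inf_le_inf_right _ hQ'Y)
        rw [hk] at h2 ⊢
        rw [hcardU]
        exact Nat.pow_le_pow_right hq.pos
          ((hq.pow_dvd_iff_le_factorization Nat.card_pos.ne').mp h2)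
    -- fixed points of `P` on `Q'`
    have hmod : Nat.card Q' ≡ Nat.card U [MOD p] := by
      letI : MulAction P Q' :=
        { smul := fun g x => ⟨(g : X) * x * (g : X)⁻¹,
            (Subgroup.mem_normalizer_iff.mp (hPQ g.2) x).mp x.2⟩
          one_smul := fun x => Subtype.ext (by
            change (1 : X) * x * (1 : X)⁻¹ = x
            simp)
          mul_smul := fun g h x => Subtype.ext (by
            change ((g : X) * h) * x * ((g : X) * h)⁻¹ = g * (h * x * (h : X)⁻¹) * (g : X)⁻¹
            group) }
      have h1 := P.isPGroup'.card_modEq_card_fixedPoints Q'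
      have h2 : Nat.card (MulAction.fixedPoints P Q') = Nat.card U := by
        rw [← hCQ]
        apply Nat.card_congr
        exact
          { toFun := fun x => ⟨x.1.1, x.1.2, by
              change x.1.1 ∈ centralizer _
              rw [mem_centralizer_iff]
              intro g hg
              have h3 : g * x.1.1 * g⁻¹ = x.1.1 := congrArg Subtype.val (x.2 ⟨g, hg⟩)
              have := congrArg (fun z => z * g) h3
              simpa [mul_assoc] using this⟩
            invFun := fun x => ⟨⟨x.1, x.2.1⟩, fun g => Subtype.ext (by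
              change (g : X) * x.1 * (g : X)⁻¹ = x.1
              have := mem_centralizer_iff.mp x.2.2 g g.2
              rw [this, mul_inv_cancel_right])⟩
            left_inv := fun _ => rfl
            right_inv := fun _ => rfl }
      rw [h2] at h1
      exact h1
    rw [hcardQ, hcardU, ← hn, Nat.factorization_mul Nat.card_pos.ne' Nat.card_pos.ne',
      Finsupp.add_apply, pow_add] at hmod
    have hqp : q ^ (Nat.card C).factorization q ≡ 1 * q ^ (Nat.card C).factorization q [MOD p] := by
      rw [one_mul]
    have h5 : q ^ (Nat.card (Sylow p X)).factorization q * q ^ (Nat.card C).factorization q ≡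
        1 * q ^ (Nat.card C).factorization q [MOD p] := by
      rw [one_mul]; exact hmod
    refine Nat.ModEq.cancel_right_of_coprime ?_ h5
    rw [← hcardU]
    -- `p` does not divide the order of `U`
    change Nat.Coprime p (Nat.card U)
    rw [hp.coprime_iff_not_dvd]
    intro hd
    exact hY (hd.trans (Subgroup.card_dvd_of_le hUY))
  -- assemble
  set n := Nat.card (Sylow p X) with hnn
  have hn0 : n ≠ 0 := Nat.card_pos.ne'
  refine ⟨(n.primeFactors.toList).map (fun q => q ^ n.factorization q), ?_, ?_⟩
  · rw [Finset.prod_map_toList]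
    exact Nat.prod_factorization_pow_eq_self hn0
  · intro m hm
    obtain ⟨q, hqm, rfl⟩ := List.mem_map.mp hm
    rw [Finset.mem_toList, Nat.mem_primeFactors] at hqm
    obtain ⟨hqp, hqn, -⟩ := hqm
    have hpos : 0 < n.factorization q := hqp.factorization_pos_of_dvd hn0 hqn
    refine ⟨hqp.isPrimePow.pow hpos.ne', ?_⟩
    have := hq q hqp
    have h2 : q ^ n.factorization q % p = 1 % p := this
    rw [h2, Nat.mod_eq_of_lt hp.one_lt]

theorem aux (p : ℕ) [Fact p.Prime] : ∀ (n : ℕ) (G : Type u) [Group G] [Finite G], Nat.card G = n →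
    ∃ l : List ℕ, l.prod = Nat.card (Sylow p G) ∧
      ∀ m ∈ l, (IsPrimePow m ∧ m % p = 1) ∨
        ∃ (S : Type u) (_ : Group S) (_ : Finite S), IsSimpleGroup S ∧ m = Nat.card (Sylow p S) := by
  intro n
  induction n using Nat.strong_induction_on with
  | _ n ih =>
    intro G _ _ hn
    have hp : p.Prime := Fact.out
    rcases subsingleton_or_nontrivial G with hs | hnt
    · haveI : Subsingleton (Sylow p G) := ⟨fun a b => Sylow.ext (Subsingleton.elim _ _)⟩
      have h1 : Nat.card (Sylow p G) = 1 := by
        rw [Nat.card_eq_one_iff_unique]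
        exact ⟨inferInstance, inferInstance⟩
      exact ⟨[], by rw [h1]; rfl, by simp⟩
    by_cases hsimple : IsSimpleGroup G
    · refine ⟨[Nat.card (Sylow p G)], by simp, ?_⟩
      intro m hm
      rw [List.mem_singleton] at hm
      exact Or.inr ⟨G, inferInstance, inferInstance, hsimple, hm⟩
    obtain ⟨K, hK, hKbot, hKtop⟩ : ∃ K : Subgroup G, K.Normal ∧ K ≠ ⊥ ∧ K ≠ ⊤ := by
      by_contra hcon
      push Not at hcon
      exact hsimple ⟨fun H hH => by
        by_cases h : H = ⊥
        · exact Or.inl h
        · exact Or.inr (hcon H hH h)⟩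
    obtain ⟨P⟩ := (inferInstance : Nonempty (Sylow p G))
    have hcardK : Nat.card K < n := by
      rw [← hn]
      exact lt_of_le_of_ne (Subgroup.card_le_card_group K) (fun h => hKtop (Subgroup.card_eq_iff_eq_top K |>.mp h))
    have hcardQ : Nat.card (G ⧸ K) < n := by
      have h6 : Nat.card K * Nat.card (G ⧸ K) = Nat.card G := K.card_mul_index
      have h7 : 1 < Nat.card K := K.one_lt_card_iff_ne_bot.mpr hKbot
      have h8 : 0 < Nat.card (G ⧸ K) := Nat.card_pos
      rw [← hn, ← h6]
      nlinarith
    obtain ⟨l1, hl1, hl1'⟩ := ih _ hcardQ (G ⧸ K) rfl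
    obtain ⟨l2, hl2, hl2'⟩ := ih _ hcardK K rfl
    -- the third factor
    obtain ⟨l3, hl3, hl3'⟩ : ∃ l : List ℕ, l.prod = Nat.card (Sylow p (((P : Subgroup G) ⊔ K) ⊓
        Subgroup.normalizer (((P : Subgroup G) ⊓ K : Subgroup G) : Set G) : Subgroup G)) ∧
        ∀ m ∈ l, IsPrimePow m ∧ m % p = 1 := by
      set N := ((P : Subgroup G) ⊔ K) ⊓
        Subgroup.normalizer (((P : Subgroup G) ⊓ K : Subgroup G) : Set G) with hN
      set D := (P : Subgroup G) ⊓ K with hD
      haveI hDn : (D.subgroupOf N).Normal := by
        have h1 : N ≤ normalizer (D : Set G) := inf_le_right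
        exact Subgroup.normal_subgroupOf_of_le_normalizer h1
      have hDp : IsPGroup p (D.subgroupOf N) :=
        (P.isPGroup'.to_le inf_le_left).comap_of_injective N.subtype N.subtype_injective
      rw [← card_sylow_quotient_pgroup (D.subgroupOf N) hDp]
      have hPN' : (P : Subgroup G) ≤ Subgroup.normalizer (D : Set G) := by
        intro g hg
        rw [Subgroup.mem_normalizer_iff]
        intro x
        constructor
        · rintro ⟨h1, h2⟩
          exact ⟨(P : Subgroup G).mul_mem ((P : Subgroup G).mul_mem hg h1) (inv_mem hg),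
            Subgroup.Normal.conj_mem inferInstance x h2 g⟩
        · rintro ⟨h1, h2⟩
          constructor
          · have := (P : Subgroup G).mul_mem ((P : Subgroup G).mul_mem (inv_mem hg) h1) hg
            have e : g⁻¹ * (g * x * g⁻¹) * g = x := by group
            rwa [e] at this
          · have := Subgroup.Normal.conj_mem (H := K) inferInstance _ h2 g⁻¹
            have e : g⁻¹ * (g * x * g⁻¹) * g⁻¹⁻¹ = x := by group
            rwa [e] at this
      have hPN : (P : Subgroup G) ≤ N := le_inf le_sup_left hPN'
      have hDN : D ≤ N := inf_le_left.trans hPN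
      let π := QuotientGroup.mk' (D.subgroupOf N)
      have hπs : Function.Surjective π := QuotientGroup.mk'_surjective _
      haveI : (K.subgroupOf N).Normal := inferInstance
      haveI hYn : ((K.subgroupOf N).map π).Normal := Subgroup.Normal.map inferInstance π hπs
      obtain ⟨T, hT⟩ := (isSyl_of_sylow P hPN).exists_sylow
      refine coprime_case p ((K.subgroupOf N).map π) ?_ (T.mapSurjective hπs) ?_
      · -- the order of the image of `N ∩ K`
        have h1 : Nat.card ((K.subgroupOf N).map π) = (D.subgroupOf N).relIndex (K.subgroupOf N) := by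
          rw [← Subgroup.relIndex_ker, QuotientGroup.ker_mk']
        rw [h1]
        intro hd
        have h2 : (D.subgroupOf N).relIndex (K.subgroupOf N) = D.relIndex (N ⊓ K) := by
          have e1 : K.subgroupOf N = (N ⊓ K).subgroupOf N := by
            rw [inf_comm, Subgroup.inf_subgroupOf_right]
          rw [e1, relIndex_subgroupOf inf_le_left]
        rw [h2] at hd
        have h3 : D.relIndex (N ⊓ K) ∣ D.relIndex K := by
          have h4 : D ≤ N ⊓ K := le_inf hDN inf_le_right
          rw [← relIndex_mul_relIndex _ _ _ h4 inf_le_right]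
          exact Dvd.intro _ rfl
        exact (isSyl_inf P K).2.2 (hd.trans h3)
      · rw [Sylow.coe_mapSurjective, hT, ← Subgroup.map_sup]
        have h1 : (P : Subgroup G).subgroupOf N ⊔ K.subgroupOf N = ⊤ := by
          rw [eq_top_iff]
          rintro ⟨x, hx⟩ -
          obtain ⟨y, hy, k, hk, rfl⟩ := Subgroup.mem_sup_of_normal_right.mp hx.1
          have hyN : y ∈ N := hPN hy
          have hkN : k ∈ N := by
            have := N.mul_mem (inv_mem hyN) hx
            rwa [inv_mul_cancel_left] at this
          have e : (⟨y * k, hx⟩ : N) = ⟨y, hyN⟩ * ⟨k, hkN⟩ := rfl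
          rw [e]
          exact Subgroup.mul_mem_sup hy hk
        rw [h1, ← MonoidHom.range_eq_map]
        exact MonoidHom.range_eq_top.mpr hπs
    refine ⟨l1 ++ l2 ++ l3, ?_, ?_⟩
    · rw [List.prod_append, List.prod_append, hl1, hl2, hl3, ← hall_formula K P _ rfl]
    · intro m hm
      rw [List.mem_append, List.mem_append] at hm
      rcases hm with (h | h) | h
      · exact hl1' m h
      · exact hl2' m h
      · exact Or.inl (hl3' m h)

/-- For a finite group `G` and a prime `p`, the number of Sylow `p`-subgroups of `G` is a product of natural numbers each of which is either a prime power congruent to 1 modulo `p` or the number of Sylow `p`-subgroups of some finite simple group. -/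
theorem result {G : Type u} [Group G] [Finite G]
    (p : ℕ) [Fact p.Prime] :
    ∃ l : List ℕ, l.prod = Nat.card (Sylow p G) ∧
      ∀ m ∈ l, (IsPrimePow m ∧ m % p = 1) ∨
        ∃ (S : Type u) (_ : Group S) (_ : Finite S), IsSimpleGroup S ∧ m = Nat.card (Sylow p S) := by
  exact aux p _ G rfl

end Cfsg.Agent.S4303
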