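import Cfsg.Statements.S4304
import Mathlib
import Cfsg.Agent.LibH7Sylow

set_option autoImplicit false
open Cfsg

namespace Cfsg.Agent.S4304

open CfsgLib.H7

universe u

variable {G : Type u} [Group G] [Finite G]

/-- Intersections have index 7. -/
theorem relIndex_eq [Fact (Nat.Prime 7)] (h15 : Nat.card (Sylow 7 G) = 15) (P R : Sylow 7 G)
    (hPR : P ≠ R) : (R : Subgroup G).relIndex P = 7 := by
  have h1 := card_orbit_sylow P R
  obtain ⟨k, hk⟩ := P.isPGroup'.index ((R : Subgroup G).subgroupOf P)
  change (R : Subgroup G).relIndex P = 7 ^ k at hk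
  have hk0 : k ≠ 0 := by
    rintro rfl
    rw [pow_zero, Subgroup.relIndex_eq_one] at hk
    exact hPR (Sylow.ext (P.is_maximal' R.isPGroup' hk)).symm
  have hlt : (7 : ℕ) ^ k < 15 := by
    rw [← hk, ← h1, ← h15]
    rw [Nat.card_coe_set_eq, ← Set.ncard_univ]
    apply Set.ncard_lt_ncard
    · refine ⟨Set.subset_univ _, ?_⟩
      intro hcon
      have : P ∈ MulAction.orbit (P : Subgroup G) R := hcon (Set.mem_univ P)
      obtain ⟨g, hg⟩ := this
      have hg' : (g : G) • R = P := hg
      have h5 : (g : G) • P = P := by
        rw [Sylow.smul_eq_iff_mem_normalizer]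
        exact Subgroup.le_normalizer g.2
      exact hPR (MulAction.injective (g : G) (hg'.trans h5.symm)).symm
    · exact Set.toFinite _
  rcases Nat.lt_or_ge k 2 with h | h
  · have : k = 1 := by omega
    rw [hk, this, pow_one]
  · have := Nat.pow_le_pow_right (n := 7) (by norm_num) h
    omega

theorem card_inf [Fact (Nat.Prime 7)] (h15 : Nat.card (Sylow 7 G) = 15) (P R : Sylow 7 G)
    (hPR : P ≠ R) : Nat.card ↥((P : Subgroup G) ⊓ R) * 7 = Nat.card P := by
  have h := relIndex_eq h15 P R hPR
  rw [← Subgroup.inf_relIndex_left] at h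
  have := card_mul_relIndex (inf_le_left : (P : Subgroup G) ⊓ R ≤ P)
  rw [h] at this
  exact this

theorem card_sylow_eq [Fact (Nat.Prime 7)] (P R : Sylow 7 G) : Nat.card P = Nat.card R :=
  Nat.card_congr (Sylow.equiv P R).toEquiv

/-- Block size is 8 if nontrivial intersection. -/
theorem card_block [Fact (Nat.Prime 7)] (h15 : Nat.card (Sylow 7 G) = 15)
    (hf : ∀ g : G, (∀ P : Sylow 7 G, g • P = P) → g = 1)
    (P R : Sylow 7 G) (hPR : P ≠ R) (hD : (P : Subgroup G) ⊓ R ≠ ⊥) :
    Nat.card {Q : Sylow 7 G // (P : Subgroup G) ⊓ R ≤ Q} = 8 := by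
  classical
  set D := (P : Subgroup G) ⊓ R with hDdef
  -- `D` is normal in `P`
  have hDn : ∀ g ∈ (P : Subgroup G), ∀ x ∈ D, g * x * g⁻¹ ∈ D := by
    have hidx : ((R : Subgroup G).subgroupOf P).index = 7 := relIndex_eq h15 P R hPR
    have hn : ((R : Subgroup G).subgroupOf P).Normal := by
      apply Subgroup.normal_of_index_eq_minFac_card
      rw [hidx]
      obtain ⟨k, hk⟩ := IsPGroup.iff_card.mp P.isPGroup'
      have hk0 : k ≠ 0 := by
        rintro rfl
        have h1 := (Subgroup.index_dvd_card (H := (R : Subgroup G).subgroupOf P))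
        rw [hidx, hk] at h1
        norm_num at h1
      rw [hk, Nat.Prime.pow_minFac (by norm_num) hk0]
    intro g hg x hx
    have := hn.conj_mem ⟨x, hx.1⟩ hx.2 ⟨g, hg⟩
    exact ⟨Subgroup.mul_mem _ (Subgroup.mul_mem _ hg hx.1) (Subgroup.inv_mem _ hg), this⟩
  -- action of `P` on the block
  let F := {Q : Sylow 7 G // D ≤ Q}
  letI : MulAction (P : Subgroup G) F :=
    { smul := fun g Q => ⟨(g : G) • Q.1, by
        intro x hx
        rw [Sylow.coe_subgroup_smul, Subgroup.mem_pointwise_smul_iff_inv_smul_mem]
        have := hDn (g : G)⁻¹ (Subgroup.inv_mem _ g.2) x hx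
        apply Q.2
        simpa using this⟩
      one_smul := fun Q => Subtype.ext (one_smul G Q.1)
      mul_smul := fun g h Q => Subtype.ext (mul_smul (g : G) (h : G) Q.1) }
  have hmod := P.isPGroup'.card_modEq_card_fixedPoints F
  have hfix : Nat.card (MulAction.fixedPoints (P : Subgroup G) F) = 1 := by
    rw [Nat.card_eq_one_iff_unique]
    constructor
    · constructor
      rintro ⟨⟨Q, hQ⟩, hQf⟩ ⟨⟨Q', hQ'⟩, hQf'⟩
      have aux : ∀ (Q : Sylow 7 G) (hQ : D ≤ Q), (⟨Q, hQ⟩ : F) ∈
          MulAction.fixedPoints (P : Subgroup G) F → Q = P := by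
        intro Q hQ hQf
        have h1 : (P : Subgroup G) ≤ Q := by
          apply le_of_le_normalizer_sylow P.isPGroup'
          intro g hg
          have := hQf ⟨g, hg⟩
          exact congrArg Subtype.val this
        exact Sylow.ext (P.is_maximal' Q.isPGroup' h1)
      apply Subtype.ext
      apply Subtype.ext
      exact (aux Q hQ hQf).trans (aux Q' hQ' hQf').symm
    · refine ⟨⟨⟨P, inf_le_left⟩, ?_⟩⟩
      intro g
      apply Subtype.ext
      change (g : G) • P = P
      rw [Sylow.smul_eq_iff_mem_normalizer]
      exact Subgroup.le_normalizer g.2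
  rw [hfix] at hmod
  have h2 : 2 ≤ Nat.card F := by
    have : 1 < Nat.card F := by
      rw [Finite.one_lt_card_iff_nontrivial]
      exact ⟨⟨P, inf_le_left⟩, ⟨R, inf_le_right⟩, fun h => hPR (congrArg Subtype.val h)⟩
    omega
  have h3 : Nat.card F < 15 := by
    rw [← h15]
    by_contra hcon
    push Not at hcon
    have hsurj : Function.Surjective (Subtype.val : F → Sylow 7 G) := by
      have hinj : Function.Injective (Subtype.val : F → Sylow 7 G) := Subtype.val_injective
      have hcard : Nat.card F = Nat.card (Sylow 7 G) :=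
        le_antisymm (Nat.card_le_card_of_injective _ hinj) hcon
      haveI : Fintype F := Fintype.ofFinite _
      haveI : Fintype (Sylow 7 G) := Fintype.ofFinite _
      rw [Nat.card_eq_fintype_card, Nat.card_eq_fintype_card] at hcard
      exact ((Fintype.bijective_iff_injective_and_card _).mpr ⟨hinj, hcard⟩).2
    have hall : ∀ Q : Sylow 7 G, D ≤ Q := by
      intro Q
      obtain ⟨q, rfl⟩ := hsurj Q
      exact q.2
    apply hD
    rw [eq_bot_iff]
    intro x hx
    rw [Subgroup.mem_bot]
    apply hf
    intro Q
    rw [Sylow.smul_eq_iff_mem_normalizer]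
    exact Subgroup.le_normalizer (hall Q hx)
  have h4 : Nat.card F % 7 = 1 % 7 := hmod
  change Nat.card F = 8
  omega

/-- The Sylow 7-subgroups have order 7. -/
theorem card_eq_seven [Fact (Nat.Prime 7)] (h15 : Nat.card (Sylow 7 G) = 15)
    (hf : ∀ g : G, (∀ P : Sylow 7 G, g • P = P) → g = 1) (P : Sylow 7 G) : Nat.card P = 7 := by
  classical
  by_contra hP
  haveI : Fintype (Sylow 7 G) := Fintype.ofFinite _
  have hcard : Fintype.card (Sylow 7 G) = 15 := by rw [← Nat.card_eq_fintype_card, h15]
  have hnb : ∀ P R : Sylow 7 G, P ≠ R → (P : Subgroup G) ⊓ R ≠ ⊥ := by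
    intro P' R hPR hbot
    have := card_inf h15 P' R hPR
    rw [hbot, Subgroup.card_bot, one_mul, ← card_sylow_eq P P'] at this
    exact hP this.symm
  let s := (Finset.univ : Finset (Sylow 7 G)).offDiag
  let f : Sylow 7 G × Sylow 7 G → Subgroup G := fun x => (x.1 : Subgroup G) ⊓ x.2
  have h1 := Finset.card_eq_sum_card_fiberwise (s := s) (t := s.image f) (f := f)
    (fun x hx => Finset.mem_image_of_mem f hx)
  have hs : s.card = 210 := by
    rw [Finset.offDiag_card, Finset.card_univ, hcard]
  have hfib : ∀ D ∈ s.image f, (s.filter (fun x => f x = D)).card = 56 := by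
    intro D hD
    obtain ⟨⟨P1, R1⟩, hx, rfl⟩ := Finset.mem_image.mp hD
    have hne : P1 ≠ R1 := by
      rw [Finset.mem_offDiag] at hx; exact hx.2.2
    set D := f (P1, R1) with hDdef
    let F : Finset (Sylow 7 G) := Finset.univ.filter (fun Q => D ≤ (Q : Subgroup G))
    have hFcard : F.card = 8 := by
      have := card_block h15 hf P1 R1 hne (hnb _ _ hne)
      rw [Nat.card_eq_fintype_card, Fintype.card_subtype] at this
      exact this
    have heq : s.filter (fun x => f x = D) = F.offDiag := by
      ext ⟨A, B⟩
      rw [Finset.mem_filter, Finset.mem_offDiag, Finset.mem_offDiag, Finset.mem_filter,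
        Finset.mem_filter]
      constructor
      · rintro ⟨⟨_, _, hAB⟩, hD'⟩
        refine ⟨⟨Finset.mem_univ _, ?_⟩, ⟨Finset.mem_univ _, ?_⟩, hAB⟩
        · rw [← hD']; exact inf_le_left
        · rw [← hD']; exact inf_le_right
      · rintro ⟨⟨_, hA⟩, ⟨_, hB⟩, hAB⟩
        refine ⟨⟨Finset.mem_univ _, Finset.mem_univ _, hAB⟩, ?_⟩
        symm
        apply Subgroup.eq_of_le_of_card_ge (le_inf hA hB)
        have e1 := card_inf h15 A B hAB
        have e2 := card_inf h15 P1 R1 hne
        rw [card_sylow_eq A P1, ← e2] at e1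
        exact (Nat.eq_of_mul_eq_mul_right (by norm_num) e1).le
    rw [heq, Finset.offDiag_card, hFcard]
  rw [Finset.sum_congr rfl hfib, Finset.sum_const, hs, smul_eq_mul] at h1
  omega

/-- The centralizer of a Sylow 7-subgroup has no nontrivial elements of order prime to 7. -/
theorem eq_one_of_mem_centralizer [Fact (Nat.Prime 7)] (h15 : Nat.card (Sylow 7 G) = 15)
    (hf : ∀ g : G, (∀ P : Sylow 7 G, g • P = P) → g = 1)
    (hN : ∀ N : Subgroup G, N.Normal → ¬ 7 ∣ N.index → N = ⊤)
    (P : Sylow 7 G) (y : G) (hy : ∀ x ∈ (P : Subgroup G), x * y = y * x)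
    (hcop : (orderOf y).Coprime 7) : y = 1 := by
  classical
  haveI : Fintype (Sylow 7 G) := Fintype.ofFinite _
  have hcard : Fintype.card (Sylow 7 G) = 15 := by rw [← Nat.card_eq_fintype_card, h15]
  -- `y` fixes `P`
  have hyP : y • P = P := by
    rw [Sylow.smul_eq_iff_mem_normalizer, Subgroup.mem_set_normalizer_iff]
    intro x
    constructor
    · intro hx
      have : y * x * y⁻¹ = x := by rw [← hy x hx]; group
      rw [this]; exact hx
    · intro hx
      have h1 := hy _ hx
      have : y * x * y⁻¹ = x := by
        have h2 : y * x = y * (y * x * y⁻¹) := by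
          rw [← h1]; group
        exact (mul_left_cancel h2).symm
      rwa [this] at hx
  -- orbits have size 7
  have horb : ∀ R : Sylow 7 G, R ≠ P → Nat.card (MulAction.orbit (P : Subgroup G) R) = 7 := by
    intro R hR
    rw [card_orbit_sylow]
    exact relIndex_eq h15 P R hR.symm
  -- commuting action
  have hcomm : ∀ (u : (P : Subgroup G)) (R : Sylow 7 G), y • (u • R) = u • (y • R) := by
    intro u R
    change y • ((u : G) • R) = (u : G) • (y • R)
    rw [smul_smul, smul_smul, hy u u.2]
  have hcommz : ∀ (z : G), (∀ x ∈ (P : Subgroup G), x * z = z * x) → (orderOf z).Coprime 7 →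
      ∀ R : Sylow 7 G, z • R ∈ MulAction.orbit (P : Subgroup G) R → z • R = R := by
    intro z hz hzc R hR
    obtain ⟨u, hu⟩ := hR
    have hu' : (u : G) • R = z • R := hu
    have hpow : ∀ k : ℕ, z ^ k • R = (u : G) ^ k • R := by
      intro k
      induction k with
      | zero => simp
      | succ k ih =>
        have hc : (u : G) ^ k * z = z * (u : G) ^ k := by
          have : Commute (u : G) z := hz u u.2
          exact (this.pow_left k)
        rw [pow_succ' z, mul_smul, ih, ← mul_smul, ← hc, mul_smul, ← hu', ← mul_smul, ← pow_succ]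
    have h7 : (u : G) ^ 7 • R = R := by
      -- order of `P` orbit is 7
      by_cases hRP : R = P
      · subst hRP
        rw [Sylow.smul_eq_iff_mem_normalizer]
        exact Subgroup.le_normalizer (Subgroup.pow_mem _ u.2 7)
      · have hidx := relIndex_eq h15 P R (Ne.symm hRP)
        have h1 : (u ^ 7 : (P : Subgroup G)) ∈ (R : Subgroup G).subgroupOf P := by
          have := pow_index_mem_of_pgroup P.isPGroup' ((R : Subgroup G).subgroupOf P) u
          change u ^ ((R : Subgroup G).relIndex P) ∈ _ at this
          rwa [hidx] at this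
        rw [Sylow.smul_eq_iff_mem_normalizer]
        exact Subgroup.le_normalizer h1
    have hz7 : z ^ 7 • R = R := by rw [hpow 7, h7]
    obtain ⟨m, hm⟩ := exists_pow_eq_self_of_coprime hzc.symm
    have : ∀ m : ℕ, (z ^ 7) ^ m • R = R := by
      intro m
      induction m with
      | zero => simp
      | succ m ih => rw [pow_succ, mul_smul, hz7, ih]
    rw [← hm]
    exact this m
  -- `y ^ 2` is trivial
  have hy2 : y ^ 2 = 1 := by
    apply hf
    intro R
    have hc2 : (orderOf (y ^ 2)).Coprime 7 :=
      Nat.Coprime.coprime_dvd_left (orderOf_pow_dvd 2) hcop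
    have hyy : ∀ x ∈ (P : Subgroup G), x * y ^ 2 = y ^ 2 * x := by
      intro x hx
      exact (show Commute x y from hy x hx).pow_right 2
    apply hcommz (y ^ 2) hyy hc2
    by_cases hRP : R = P
    · subst hRP
      rw [pow_two, mul_smul, hyP, hyP]
      exact MulAction.mem_orbit_self _
    by_cases h1 : y • R ∈ MulAction.orbit (P : Subgroup G) R
    · have := hcommz y hy hcop R h1
      rw [pow_two, mul_smul, this, this]
      exact MulAction.mem_orbit_self _
    -- three orbits
    by_contra h2
    have hyR : y • R ≠ P := by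
      intro h
      rw [← hyP] at h
      exact hRP (MulAction.injective y h)
    have hyyR : y ^ 2 • R ≠ P := by
      intro h
      rw [pow_two, mul_smul, ← hyP] at h
      exact hyR ((MulAction.injective y h).trans hyP.symm |>.trans hyP)
    have h3 : y ^ 2 • R ∉ MulAction.orbit (P : Subgroup G) (y • R) := by
      rintro ⟨u, hu⟩
      apply h1
      refine ⟨u, ?_⟩
      have hu' : (u : (P : Subgroup G)) • (y • R) = y ^ 2 • R := hu
      rw [← hcomm, pow_two, mul_smul] at hu'
      exact MulAction.injective y hu'
    let O1 : Finset (Sylow 7 G) := (MulAction.orbit (P : Subgroup G) R).toFinset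
    let O2 : Finset (Sylow 7 G) := (MulAction.orbit (P : Subgroup G) (y • R)).toFinset
    let O3 : Finset (Sylow 7 G) := (MulAction.orbit (P : Subgroup G) (y ^ 2 • R)).toFinset
    have hO : ∀ S : Sylow 7 G, S ≠ P → (MulAction.orbit (P : Subgroup G) S).toFinset.card = 7 := by
      intro S hS
      rw [Set.toFinset_card, ← Nat.card_eq_fintype_card]
      exact horb S hS
    have hdisj : ∀ S T : Sylow 7 G, T ∉ MulAction.orbit (P : Subgroup G) S →
        Disjoint (MulAction.orbit (P : Subgroup G) S).toFinset
          (MulAction.orbit (P : Subgroup G) T).toFinset := by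
      intro S T hST
      rw [Finset.disjoint_left]
      intro x hx hx'
      rw [Set.mem_toFinset] at hx hx'
      apply hST
      rw [← MulAction.orbit_eq_iff] at hx hx' ⊢
      rw [← hx, ← hx']
    have hd12 : Disjoint O1 O2 := hdisj _ _ h1
    have hd13 : Disjoint O1 O3 := hdisj _ _ h2
    have hd23 : Disjoint O2 O3 := hdisj _ _ h3
    have hcu : ((O1 ∪ O2) ∪ O3).card = 21 := by
      rw [Finset.card_union_of_disjoint, Finset.card_union_of_disjoint hd12, hO R hRP,
        hO _ hyR, hO _ hyyR]
      rw [Finset.disjoint_union_left]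
      exact ⟨hd13, hd23⟩
    have := Finset.card_le_univ ((O1 ∪ O2) ∪ O3)
    rw [hcu, hcard] at this
    omega
  by_contra hy1
  -- `y` has no other fixed point
  have hfixonly : ∀ R : Sylow 7 G, y • R = R → R = P := by
    intro R hR
    by_contra hRP
    apply hy1
    apply hf
    intro S
    apply hcommz y hy hcop S
    by_cases hSP : S = P
    · subst hSP; rw [hyP]; exact MulAction.mem_orbit_self _
    by_cases hSR : S ∈ MulAction.orbit (P : Subgroup G) R
    · obtain ⟨u, hu⟩ := hSR
      have hu' : u • R = S := hu
      rw [← hu', hcomm, hR]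
      exact MulAction.mem_orbit_self _
    · by_contra h2
      have hyS : y • S ≠ P := by
        intro h
        rw [← hyP] at h
        exact hSP (MulAction.injective y h)
      have h3 : y • S ∉ MulAction.orbit (P : Subgroup G) R := by
        rintro ⟨u, hu⟩
        apply hSR
        refine ⟨u, ?_⟩
        have hu' : u • R = y • S := hu
        rw [← hR, ← hcomm] at hu'
        exact MulAction.injective y hu'
      have hO : ∀ S : Sylow 7 G, S ≠ P → (MulAction.orbit (P : Subgroup G) S).toFinset.card = 7 := by
        intro S hS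
        rw [Set.toFinset_card, ← Nat.card_eq_fintype_card]
        exact horb S hS
      have hdisj : ∀ S T : Sylow 7 G, T ∉ MulAction.orbit (P : Subgroup G) S →
          Disjoint (MulAction.orbit (P : Subgroup G) S).toFinset
            (MulAction.orbit (P : Subgroup G) T).toFinset := by
        intro S T hST
        rw [Finset.disjoint_left]
        intro x hx hx'
        rw [Set.mem_toFinset] at hx hx'
        apply hST
        rw [← MulAction.orbit_eq_iff] at hx hx' ⊢
        rw [← hx, ← hx']
      have hd12 := hdisj R S hSR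
      have hd13 := hdisj R (y • S) h3
      have hd23 := hdisj S (y • S) h2
      have hcu : (((MulAction.orbit (P : Subgroup G) R).toFinset ∪
          (MulAction.orbit (P : Subgroup G) S).toFinset) ∪
          (MulAction.orbit (P : Subgroup G) (y • S)).toFinset).card = 21 := by
        rw [Finset.card_union_of_disjoint, Finset.card_union_of_disjoint hd12, hO R hRP,
          hO _ hSP, hO _ hyS]
        rw [Finset.disjoint_union_left]
        exact ⟨hd13, hd23⟩
      have := Finset.card_le_univ (((MulAction.orbit (P : Subgroup G) R).toFinset ∪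
          (MulAction.orbit (P : Subgroup G) S).toFinset) ∪
          (MulAction.orbit (P : Subgroup G) (y • S)).toFinset)
      rw [hcu, hcard] at this
      omega
  -- sign
  let φ : G →* Equiv.Perm (Sylow 7 G) := MulAction.toPermHom G (Sylow 7 G)
  have hord : orderOf (φ y) = 2 := by
    rw [orderOf_eq_prime_iff]
    refine ⟨by rw [← map_pow, hy2, map_one], ?_⟩
    intro h
    apply hy1
    apply hf
    intro Q
    have := congrArg (fun σ : Equiv.Perm (Sylow 7 G) => σ Q) h
    exact this
  have hsupp : (φ y).support = Finset.univ.erase P := by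
    ext R
    rw [Equiv.Perm.mem_support, Finset.mem_erase]
    constructor
    · intro h
      refine ⟨?_, Finset.mem_univ _⟩
      rintro rfl
      exact h hyP
    · rintro ⟨h, -⟩ h2
      exact h (hfixonly R h2)
  have hsc : (φ y).support.card = 14 := by
    rw [hsupp, Finset.card_erase_of_mem (Finset.mem_univ _), Finset.card_univ, hcard]
  have hsign : Equiv.Perm.sign (φ y) = -1 := by
    obtain ⟨n, hn⟩ := Equiv.Perm.cycleType_prime_order (σ := φ y) (by rw [hord]; norm_num)
    have hsum := Equiv.Perm.sum_cycleType (φ y)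
    rw [hn, hord, Multiset.sum_replicate, smul_eq_mul, hsc] at hsum
    have hn6 : n = 6 := by omega
    rw [Equiv.Perm.sign_of_cycleType, hn, hord, Multiset.sum_replicate, Multiset.card_replicate,
      hn6]
    decide
  -- index 2 kernel
  let ψ : G →* ℤˣ := Equiv.Perm.sign.comp φ
  have hker : ψ.ker = ⊤ := by
    apply hN _ inferInstance
    have h1 : ψ.ker.index ∣ 2 := by
      rw [Subgroup.index_ker]
      have : Nat.card ψ.range ∣ Nat.card ℤˣ := Subgroup.card_subgroup_dvd_card _
      simpa using this
    intro h7
    have := h7.trans h1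
    norm_num at this
  have : y ∈ ψ.ker := by rw [hker]; exact Subgroup.mem_top _
  rw [MonoidHom.mem_ker] at this
  change Equiv.Perm.sign (φ y) = 1 at this
  rw [hsign] at this
  exact absurd this (by decide)

theorem key (n : ℕ) : ∀ (G : Type u) [Group G] [Finite G], Nat.card G = n →
    Nat.card (Sylow 7 G) ≠ 15 := by
  induction n using Nat.strong_induction_on with
  | _ n ih =>
  intro G _ _ hGn h15
  haveI hp7 : Fact (Nat.Prime 7) := ⟨by norm_num⟩
  -- faithful
  have hf : ∀ g : G, (∀ P : Sylow 7 G, g • P = P) → g = 1 := by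
    let K : Subgroup G := (MulAction.toPermHom G (Sylow 7 G)).ker
    have hKmem : ∀ g : G, g ∈ K ↔ ∀ P : Sylow 7 G, g • P = P := by
      intro g
      rw [MonoidHom.mem_ker, Equiv.ext_iff]
      rfl
    have hK : K = ⊥ := by
      by_contra hK
      have h1 : Nat.card (G ⧸ K) < n := by
        rw [← Subgroup.index_eq_card, ← hGn, ← Subgroup.card_mul_index K]
        have h2 : 1 < Nat.card K := by
          have : Nat.card K ≠ 1 := by rw [Ne, Subgroup.card_eq_one]; exact hK
          have : 0 < Nat.card K := Nat.card_pos
          omega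
        have h3 : 0 < K.index := Nat.pos_of_ne_zero Subgroup.index_ne_zero_of_finite
        nlinarith
      apply ih _ h1 (G ⧸ K) rfl
      rw [card_sylow_quotient K (fun g hg P => (hKmem g).mp hg P), h15]
    intro g hg
    have : g ∈ K := (hKmem g).mpr hg
    rwa [hK, Subgroup.mem_bot] at this
  -- no normal subgroups of index prime to 7
  have hN : ∀ N : Subgroup G, N.Normal → ¬ 7 ∣ N.index → N = ⊤ := by
    intro N hNn hN7
    by_contra hNt
    have h1 : Nat.card N < n := by
      rw [← hGn, ← Subgroup.card_mul_index N]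
      have h2 : 1 < N.index := N.one_lt_index_of_ne_top hNt
      have h3 : 0 < Nat.card N := Nat.card_pos
      nlinarith
    apply ih _ h1 N rfl
    rw [card_sylow_of_normal_index N hN7, h15]
  obtain ⟨P⟩ : Nonempty (Sylow 7 G) := inferInstance
  have hP7 := card_eq_seven h15 hf P
  -- the centralizer
  have hC : Nat.card (Subgroup.centralizer ((P : Subgroup G) : Set G)) = 7 := by
    set C := Subgroup.centralizer ((P : Subgroup G) : Set G) with hCdef
    have hcyc : IsCyclic (P : Subgroup G) := isCyclic_of_prime_card hP7
    have hPC : (P : Subgroup G) ≤ C := by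
      intro x hx
      rw [hCdef, Subgroup.mem_centralizer_iff]
      intro y hy
      have hic : IsMulCommutative (P : Subgroup G) := IsCyclic.commutative
      have := mul_comm' (⟨y, hy⟩ : (P : Subgroup G)) ⟨x, hx⟩
      exact congrArg Subtype.val this
    have hCp : IsPGroup 7 C := by
      have hpos : Nat.card C ≠ 0 := Nat.card_pos.ne'
      have : ∀ {d : ℕ}, d.Prime → d ∣ Nat.card C → d = 7 := by
        intro q hq hqd
        by_contra hq7
        haveI : Fact q.Prime := ⟨hq⟩
        obtain ⟨y, hy⟩ := exists_prime_orderOf_dvd_card' q hqd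
        have hy' : orderOf (y : G) = q := by rw [Subgroup.orderOf_coe]; exact hy
        have : (y : G) = 1 := by
          apply eq_one_of_mem_centralizer h15 hf hN P
          · intro x hx
            exact (Subgroup.mem_centralizer_iff.mp y.2) x hx
          · rw [hy']
            exact (Nat.coprime_primes hq (by norm_num)).mpr hq7
        rw [this, orderOf_one] at hy'
        exact hq.one_lt.ne hy'
      exact IsPGroup.of_card (Nat.eq_prime_pow_of_unique_prime_dvd hpos this)
    have : C = P := P.is_maximal' hCp hPC
    rw [this]; exact hP7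
  -- orders
  have hNC : ∃ d, d ∣ 6 ∧ Nat.card G = 105 * d := by
    have hcyc : IsCyclic (P : Subgroup G) := isCyclic_of_prime_card hP7
    have h1 := relIndex_centralizer_dvd_of_cyclic (P : Subgroup G)
    rw [hP7] at h1
    have htot : Nat.totient 7 = 6 := by decide
    rw [htot] at h1
    refine ⟨_, h1, ?_⟩
    have hle : Subgroup.centralizer ((P : Subgroup G) : Set G) ≤
        Subgroup.normalizer ((P : Subgroup G) : Set G) := Subgroup.centralizer_le_normalizer _
    have h2 := card_mul_relIndex hle
    rw [hC] at h2
    have h3 := P.card_eq_index_normalizer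
    rw [h15] at h3
    have h4 := Subgroup.card_mul_index (Subgroup.normalizer ((P : Subgroup G) : Set G))
    have h5 : (Subgroup.normalizer ((P : Subgroup G) : Set G)).index = 15 := h3.symm
    rw [h5, ← h2] at h4
    rw [← h4]; ring
  obtain ⟨d, hd6, hd⟩ := hNC
  have hdle : d ≤ 6 := Nat.le_of_dvd (by norm_num) hd6
  have hdpos : 0 < d := Nat.pos_of_dvd_of_pos hd6 (by norm_num)
  by_cases hd2 : 2 ∣ d
  · -- even order: normal 2-complement
    haveI : Fact (Nat.Prime 2) := ⟨Nat.prime_two⟩
    obtain ⟨S⟩ : Nonempty (Sylow 2 G) := inferInstance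
    have hd4 : ¬ 4 ∣ Nat.card G := by
      rw [hd]
      interval_cases d <;> simp_all <;> omega
    have hS2 : Nat.card S = 2 := by
      rw [S.card_eq_multiplicity]
      have h2 : 2 ∣ Nat.card G := by rw [hd]; exact Dvd.dvd.mul_left hd2 _
      have : (Nat.card G).factorization 2 = 1 := by
        have h1 : 1 ≤ (Nat.card G).factorization 2 :=
          (Nat.Prime.dvd_iff_one_le_factorization Nat.prime_two Nat.card_pos.ne').mp h2
        by_contra hne
        have h3 : 2 ≤ (Nat.card G).factorization 2 := by omega
        apply hd4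
        have := (Nat.prime_two.pow_dvd_iff_le_factorization Nat.card_pos.ne').mpr h3
        simpa using this
      rw [this, pow_one]
    have hcyc : IsCyclic S := isCyclic_of_prime_card hS2
    have hmin : (Nat.card G).minFac = 2 := by
      rw [Nat.minFac_eq_two_iff]
      rw [hd]; exact Dvd.dvd.mul_left hd2 _
    have hle := IsCyclic.normalizer_le_centralizer hmin hcyc
    obtain ⟨N, hNn, hNi⟩ := exists_normal_index_of_normalizer_le S hle
    rw [hS2] at hNi
    have := hN N hNn (by rw [hNi]; norm_num)
    rw [this, Subgroup.index_top] at hNi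
    norm_num at hNi
  · -- odd order: normal 5-complement
    haveI : Fact (Nat.Prime 5) := ⟨by norm_num⟩
    obtain ⟨S⟩ : Nonempty (Sylow 5 G) := inferInstance
    have hS5 : Nat.card S = 5 := by
      rw [S.card_eq_multiplicity]
      have h5 : 5 ∣ Nat.card G := by rw [hd]; exact Dvd.dvd.mul_right (by norm_num) _
      have h25 : ¬ 25 ∣ Nat.card G := by
        rw [hd]
        interval_cases d <;> simp_all <;> omega
      have : (Nat.card G).factorization 5 = 1 := by
        have h1 : 1 ≤ (Nat.card G).factorization 5 :=
          (Nat.Prime.dvd_iff_one_le_factorization (by norm_num) Nat.card_pos.ne').mp h5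
        by_contra hne
        have h3 : 2 ≤ (Nat.card G).factorization 5 := by omega
        apply h25
        have := ((by norm_num : Nat.Prime 5).pow_dvd_iff_le_factorization Nat.card_pos.ne').mpr h3
        simpa using this
      rw [this, pow_one]
    have hcyc : IsCyclic (S : Subgroup G) := isCyclic_of_prime_card hS5
    have h1 := relIndex_centralizer_dvd_of_cyclic (S : Subgroup G)
    rw [hS5] at h1
    have htot : Nat.totient 5 = 4 := by decide
    rw [htot] at h1
    have hodd : ¬ 2 ∣ Nat.card G := by
      rw [hd, Nat.prime_two.dvd_mul]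
      push Not
      exact ⟨by norm_num, hd2⟩
    have h2 : (Subgroup.centralizer ((S : Subgroup G) : Set G)).relIndex
        (Subgroup.normalizer ((S : Subgroup G) : Set G)) = 1 := by
      have h3 : (Subgroup.centralizer ((S : Subgroup G) : Set G)).relIndex
        (Subgroup.normalizer ((S : Subgroup G) : Set G)) ∣ Nat.card G :=
        (Subgroup.relIndex_dvd_card _ _).trans (Subgroup.card_subgroup_dvd_card _)
      have hcop : Nat.Coprime 4 (Nat.card G) := by
        have : (4 : ℕ) = 2 ^ 2 := by norm_num
        rw [this]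
        apply Nat.Coprime.pow_left
        rwa [Nat.prime_two.coprime_iff_not_dvd]
      exact Nat.eq_one_of_dvd_coprimes hcop h1 h3
    rw [Subgroup.relIndex_eq_one] at h2
    obtain ⟨N, hNn, hNi⟩ := exists_normal_index_of_normalizer_le S h2
    rw [hS5] at hNi
    have := hN N hNn (by rw [hNi]; norm_num)
    rw [this, Subgroup.index_top] at hNi
    norm_num at hNi

/-- No finite group has exactly 15 Sylow 7-subgroups. -/
theorem result {G : Type*} [Group G] [Finite G] : Nat.card (Sylow 7 G) ≠ 15 :=
  key (Nat.card G) G rfl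

end Cfsg.Agent.S4304
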