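import Cfsg.Statements.S4305
import Mathlib
import Cfsg.Agent.LibH7S3D
set_option autoImplicit false
open Cfsg

namespace Cfsg.Agent.S4305


/-- Let the symmetric group of degree 3 act by automorphisms on a finite solvable group `G` of order prime to 6, so that only the identity of `G` is fixed by all of it. Then the derived subgroup of `G` is nilpotent. -/
theorem result {G : Type*} [Group G] [Finite G] [Group.IsSolvable G]
    [MulDistribMulAction (Equiv.Perm (Fin 3)) G] (hcop : (Nat.card G).Coprime 6)
    (hfpf : ∀ g : G, (∀ a : Equiv.Perm (Fin 3), a • g = g) → g = 1) :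
    Group.IsNilpotent ↥(commutator G) := by
  exact CfsgLib.H7S3.main hcop hfpf

end Cfsg.Agent.S4305
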