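import Cfsg.Statements.S4316
import Cfsg.Agent.LibFgDer2

set_option autoImplicit false
universe u
open Cfsg

namespace Cfsg.Agent.S4316

set_option linter.style.haveILetI false
set_option linter.unusedSectionVars false
set_option linter.unusedVariables false

/-- There is a function `f` of two natural-number arguments with the following property. Let `q` be a prime and `A` an elementary abelian group of order `q³` acting by automorphisms on a finite group `G` of order prime to `q`, and suppose that for every non-identity `a ∈ A` the derived subgroup of the fixed-point subgroup `C_G(a)` has order at most `m`. Then the derived subgroup of `G` has order at most `f(q, m)`. -/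
theorem result :
    ∃ f : ℕ → ℕ → ℕ, ∀ (q m : ℕ) (A G : Type u) [Group A] [Finite A] [Group G] [Finite G] [MulDistribMulAction A G],
      q.Prime → Nat.card A = q ^ 3 → (∀ a b : A, a * b = b * a) → (∀ a : A, a ^ q = 1) → ¬ q ∣ Nat.card G →
      (∀ a : A, a ≠ 1 → Nat.card ↥(commutator ↥(FixedPoints.subgroup (Subgroup.zpowers a) G)) ≤ m) →
      Nat.card ↥(commutator G) ≤ f q m := by
  refine ⟨fun q m => m ^ (q ^ 3) *
      ((m ^ (q ^ 3 * m)) ^ (2 ^ (q ^ 3))) ^ (((m ^ (q ^ 3 * m)) ^ (2 ^ (q ^ 3))) * ((m ^ (q ^ 3 * m)) ^ (2 ^ (q ^ 3))) ^ 2 + 1), ?_⟩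
  intro q m A G _ _ _ _ _ hq hA hAc hAe hcop hm
  let φ := MulDistribMulAction.toMulAut A G
  have hfin : Finite (G ⋊[φ] A) := Finite.of_equiv (G × A) SemidirectProduct.equivProd.symm
  let A0 : Subgroup (G ⋊[φ] A) := (SemidirectProduct.inr : A →* G ⋊[φ] A).range
  let G0 : Subgroup (G ⋊[φ] A) := (SemidirectProduct.inl : G →* G ⋊[φ] A).range
  have hinr : Function.Injective (SemidirectProduct.inr : A →* G ⋊[φ] A) := SemidirectProduct.inr_injective
  have hinl : Function.Injective (SemidirectProduct.inl : G →* G ⋊[φ] A) := SemidirectProduct.inl_injective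
  have hEA : CfsgLib.FgDer.EA3 A0 q := by
    refine ⟨hq, ?_, ?_, ?_⟩
    · rw [← hA]
      exact (Nat.card_congr (MonoidHom.ofInjective hinr).toEquiv).symm
    · rintro _ ⟨a, rfl⟩ _ ⟨b, rfl⟩
      rw [← map_mul, ← map_mul, hAc]
    · rintro _ ⟨a, rfl⟩
      rw [← map_pow, hAe, map_one]
  have hconj : ∀ (a : A) (x : G), (SemidirectProduct.inr a : G ⋊[φ] A) * SemidirectProduct.inl x * (SemidirectProduct.inr a)⁻¹ =
      SemidirectProduct.inl (a • x) := by
    intro a x
    have h1 := SemidirectProduct.inl_aut (φ := φ) a x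
    rw [← map_inv]
    exact h1.symm
  have hG0n : A0 ≤ Subgroup.normalizer (G0 : Set (G ⋊[φ] A)) := by
    apply CfsgLib.FgDer.le_norm_of_conj
    rintro _ ⟨a, rfl⟩ _ ⟨x, rfl⟩
    exact ⟨a • x, (hconj a x).symm⟩
  have hG0c : Nat.card G0 = Nat.card G := (Nat.card_congr (MonoidHom.ofInjective hinl).toEquiv).symm
  have hco : q.Coprime (Nat.card G0) := by
    rw [hG0c]; exact (Nat.Prime.coprime_iff_not_dvd hq).mpr hcop
  have hmain := CfsgLib.FgDer.main hEA hG0n hco (m := m) (by
    rintro _ ⟨a, rfl⟩ ha1
    have ha : a ≠ 1 := by rintro rfl; exact ha1 (map_one _)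
    refine le_trans (le_of_eq ?_) (hm a ha)
    have e1 : CfsgLib.FgDer.Cc G0 (SemidirectProduct.inr a) = (FixedPoints.subgroup (Subgroup.zpowers a) G).map SemidirectProduct.inl := by
      ext z
      constructor
      · rintro ⟨⟨x, rfl⟩, hz⟩
        refine ⟨x, ?_, rfl⟩
        have h1 := Subgroup.mem_centralizer_singleton_iff.mp hz
        have h2 := hconj a x
        rw [← h1, mul_inv_cancel_right] at h2
        have h3 : x = a • x := hinl h2
        rintro ⟨b, hb⟩
        have h4 : Subgroup.zpowers a ≤ MulAction.stabilizer A x := by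
          rw [Subgroup.zpowers_le, MulAction.mem_stabilizer_iff]; exact h3.symm
        exact h4 hb
      · rintro ⟨x, hx, rfl⟩
        have h3 : a • x = x := hx ⟨a, Subgroup.mem_zpowers a⟩
        refine Subgroup.mem_inf.mpr ⟨⟨x, rfl⟩, ?_⟩
        rw [Subgroup.mem_centralizer_singleton_iff]
        have h2 := hconj a x
        rw [h3, mul_inv_eq_iff_eq_mul] at h2
        exact h2.symm
    change Nat.card (⁅CfsgLib.FgDer.Cc G0 (SemidirectProduct.inr a), CfsgLib.FgDer.Cc G0 (SemidirectProduct.inr a)⁆ : Subgroup (G ⋊[φ] A)) = _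
    rw [e1, ← Subgroup.map_commutator, Subgroup.card_map_of_injective hinl, ← Subgroup.map_subtype_commutator,
      Subgroup.card_map_of_injective (Subgroup.subtype_injective _)])
  refine le_trans (le_of_eq ?_) hmain
  have e2 : (⁅G0, G0⁆ : Subgroup (G ⋊[φ] A)) = (commutator G).map SemidirectProduct.inl := by
    rw [commutator_def, Subgroup.map_commutator]
    congr 1 <;> exact MonoidHom.range_eq_map _
  rw [e2, Subgroup.card_map_of_injective hinl]

end Cfsg.Agent.S4316
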