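import Cfsg.Statements.S4320
import Cfsg.Agent.LibH2JI2

set_option autoImplicit false
open Cfsg

namespace Cfsg.Agent.S4320

open Subgroup Cfsg CfsgLib.H2JI
open scoped Pointwise

theorem main {G B : Type*} [Group G] [Finite G] [CommGroup B] (ϕ : commutator G →* B) (g : G) :
    MonoidHom.transfer ϕ g = 1 := by
  classical
  let T : (commutator G).LeftTransversal := default
  rw [MonoidHom.transfer_def ϕ T g]
  let s : Abelianization G → G := fun q => (T.2.leftQuotientEquiv (q : G ⧸ commutator G) : G)
  have hs : ∀ q, Abelianization.of (s q) = q := by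
    intro q
    exact T.2.quotientGroupMk_leftQuotientEquiv q
  let Φ : G → Additive B := fun x => if h : x ∈ commutator G then Additive.ofMul (ϕ ⟨x, h⟩) else 0
  have hΦv : ∀ (x : G) (h : x ∈ commutator G), Φ x = Additive.ofMul (ϕ ⟨x, h⟩) := fun x h => dif_pos h
  have hΦ : ∀ a ∈ commutator G, ∀ b ∈ commutator G, Φ (a * b) = Φ a + Φ b := by
    intro a ha b hb
    rw [hΦv a ha, hΦv b hb, hΦv _ (mul_mem ha hb), ← ofMul_mul, ← map_mul]
    rfl
  haveI : Finite (Abelianization G) := inferInstanceAs (Finite (G ⧸ commutator G))
  haveI := Fintype.ofFinite (Abelianization G)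
  have key := sum_zero (Q := Abelianization G) (π := Abelianization.of) QuotientGroup.mk_surjective
    (Abelianization.ker_of G) s hs Φ hΦ g
  -- compare
  apply Additive.ofMul.injective
  rw [ofMul_one, ← key]
  unfold Subgroup.leftTransversals.diff
  simp only [ofMul_prod]
  let E : Abelianization G ≃ (G ⧸ commutator G) :=
    { toFun := fun u => (Abelianization.of g * u : Abelianization G)
      invFun := fun q => ((Abelianization.of g)⁻¹ * (@id (Abelianization G) q) : Abelianization G)
      left_inv := fun u => inv_mul_cancel_left (Abelianization.of g) u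
      right_inv := fun q => mul_inv_cancel_left (Abelianization.of g) (@id (Abelianization G) q) }
  letI : Fintype (G ⧸ commutator G) := (commutator G).fintypeQuotientOfFiniteIndex
  refine (Fintype.sum_equiv E _ _ (fun u => ?_)).symm
  have hβ : ((g • T).2.leftQuotientEquiv (E u) : G) = g * s u := by
    rw [Subgroup.smul_apply_eq_smul_apply_inv_smul]
    have h1 : g⁻¹ • (E u) = (u : G ⧸ commutator G) := by
      obtain ⟨x, rfl⟩ := QuotientGroup.mk_surjective (u : G ⧸ commutator G)
      show ((g⁻¹ * (g * x) : G) : G ⧸ commutator G) = x
      rw [inv_mul_cancel_left]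
    rw [h1]; rfl
  have hmem : (s (Abelianization.of g * u))⁻¹ * (g * s u) ∈ commutator G := by
    rw [← Abelianization.ker_of, MonoidHom.mem_ker, map_mul, map_inv, map_mul, hs, hs, inv_mul_cancel]
  rw [hΦv _ hmem]
  congr 2
  apply Subtype.ext
  show (s (Abelianization.of g * u))⁻¹ * (g * s u) = (s (Abelianization.of g * u))⁻¹ * ((g • T).2.leftQuotientEquiv (E u) : G)
  rw [hβ]


/-- The Principal Ideal Theorem of class field theory in its group-theoretic form: for every finite group `G`, the transfer homomorphism from `G` into the abelianization `G'/G''` of its derived subgroup `G'` is the trivial homomorphism. -/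
theorem result {G : Type*} [Group G] [Finite G] :
    MonoidHom.transfer (Abelianization.of : ↥(commutator G) →* Abelianization ↥(commutator G)) =
      (1 : G →* Abelianization ↥(commutator G)) := by
  ext g
  exact main _ g

end Cfsg.Agent.S4320
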