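import Cfsg.Statements.S4321
import Mathlib
import Cfsg.Agent.LibH7Cls
import Cfsg.Agent.LibCoprime2
import Cfsg.Agent.LibH6Conj
import Cfsg.Agent.LibH7KazB
import Cfsg.Agent.LibSolvNilp

set_option autoImplicit false
open Cfsg

namespace Cfsg.Agent.S4321

universe u

open scoped Pointwise

open CfsgLib.H7Cls Subgroup

theorem expo {G : Type u} [Group G] [Finite G] {p : ℕ} {x y : G} (hcop : (sz x).Coprime (sz y))
    (hc : x * y = y * x) (hx : orderOf x = p) (he : sz (x * y) = sz x) :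
    ∃ N : Subgroup G, N.Normal ∧ N ≤ R x ∧ (∀ n ∈ N, n ^ p = 1) ∧ (∀ y' ∈ K y, ∀ y'' ∈ K y, y' * y''⁻¹ ∈ N) := by
  classical
  obtain ⟨N, hN⟩ : ∃ N : Subgroup G, N = closure {n | ∃ y' ∈ K y, ∃ y'' ∈ K y, n = y' * y''⁻¹} := ⟨_, rfl⟩
  have hgen : ∀ y' ∈ K y, ∀ y'' ∈ K y, y' * y''⁻¹ ∈ N := fun y' h1 y'' h2 => by
    rw [hN]; exact subset_closure ⟨y', h1, y'', h2, rfl⟩
  have hNn : N.Normal := by
    refine ⟨fun n hn g => ?_⟩
    have : N ≤ N.comap (MulAut.conj g).toMonoidHom := by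
      conv_lhs => rw [hN]
      rw [closure_le]
      rintro _ ⟨y', h1, y'', h2, rfl⟩
      change g * (y' * y''⁻¹) * g⁻¹ ∈ N
      have h3 : g * (y' * y''⁻¹) * g⁻¹ = (g * y' * g⁻¹) * (g * y'' * g⁻¹)⁻¹ := by group
      rw [h3]
      exact hgen _ (K_conj h1 g) _ (K_conj h2 g)
    exact this hn
  have hNR : N ≤ R x := by
    rw [hN, closure_le]
    rintro _ ⟨y', h1, y'', h2, rfl⟩
    exact mem_R_of_eq hcop he h1 h2
  have hNc : N ≤ centralizer ({x} : Set G) := by
    rw [hN, closure_le]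
    rintro _ ⟨y', h1, y'', h2, rfl⟩
    have h3 := all_commute hcop hc (mem_K_self x) h1
    have h4 := all_commute hcop hc (mem_K_self x) h2
    rw [SetLike.mem_coe]
    exact mul_mem (mem_centralizer_singleton_iff.2 h3.symm) (inv_mem (mem_centralizer_singleton_iff.2 h4.symm))
  refine ⟨N, hNn, hNR, fun n hn => ?_, hgen⟩
  have h1 : x * n ∈ K x := (mem_R.1 (hNR hn) x).1 (mem_K_self x)
  obtain ⟨g, hg⟩ := h1
  have h2 : (x * n) ^ p = 1 := by
    rw [hg, conj_pow, ← hx, pow_orderOf_eq_one]; group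
  have h3 : Commute x n := (mem_centralizer_singleton_iff.1 (hNc hn)).symm
  rw [h3.mul_pow] at h2
  have h4 : x ^ p = 1 := by rw [← hx]; exact pow_orderOf_eq_one x
  rwa [h4, one_mul] at h2

theorem core {G : Type u} [Group G] [Finite G] (p : ℕ) [hpf : Fact p.Prime] (hZ : ¬ p ∣ Nat.card (center G))
    (x1 y : G) (hx1 : orderOf x1 = p) (hy : orderOf y = p) (hpa : ¬ p ∣ sz x1) (hcomm : x1 * y = y * x1)
    (hcop : (sz x1).Coprime (sz y))
    (hNC : ∀ t u : ℕ, t.Prime → u.Prime → t ∣ sz x1 → u ∣ sz y → ∀ g : G, p ∣ orderOf g → t ∣ sz g → ¬ u ∣ sz g) : False := by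
  classical
  have hp : p.Prime := Fact.out
  have hnc : ∀ z : G, orderOf z = p → sz z ≠ 1 := by
    intro z hz h
    rw [sz_eq_one] at h
    apply hZ
    rw [← hz]
    exact Subgroup.orderOf_dvd_natCard _ h
  have hnK : ∀ z : G, sz z ≠ 1 → ∃ z' ∈ K z, z' ≠ z := by
    intro z hz
    by_contra hcon
    push Not at hcon
    apply hz
    rw [sz_eq_one, mem_center_iff]
    intro g
    have := hcon (g * z * g⁻¹) ⟨g, rfl⟩
    rwa [mul_inv_eq_iff_eq_mul] at this
  have hNp : ∀ z w : G, ∀ N : Subgroup G, N ≤ R z → (∀ n ∈ N, n ^ p = 1) →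
      (∀ y' ∈ K w, ∀ y'' ∈ K w, y' * y''⁻¹ ∈ N) → sz w ≠ 1 → p ∣ sz z := by
    intro z w N hNR hNe hNg hw
    obtain ⟨w', hw', hne⟩ := hnK w hw
    have h1 := hNg w' hw' w (mem_K_self w)
    have h2 : orderOf (w' * w⁻¹) = p := orderOf_eq_prime (hNe _ h1) (fun h => hne (mul_inv_eq_one.1 h))
    apply dvd_of_dvd_card hNR hp
    rw [← h2]
    exact Subgroup.orderOf_dvd_natCard _ h1
  have hw1 : x1 * y ≠ 1 := by
    intro h
    have h1 : y = x1⁻¹ := (inv_eq_of_mul_eq_one_right h).symm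
    have h2 : sz y ∣ sz x1 := by
      apply Subgroup.index_dvd_of_le
      intro g hg
      rw [mem_centralizer_singleton_iff] at hg ⊢
      rw [h1]
      exact ((show Commute g x1 from hg).inv_right).eq
    exact hnc y hy (Nat.eq_one_of_dvd_coprimes hcop h2 dvd_rfl)
  have hwo : orderOf (x1 * y) = p := by
    refine orderOf_eq_prime ?_ hw1
    rw [(show Commute x1 y from hcomm).mul_pow]
    have h1 : x1 ^ p = 1 := by rw [← hx1]; exact pow_orderOf_eq_one x1
    have h2 : y ^ p = 1 := by rw [← hy]; exact pow_orderOf_eq_one y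
    rw [h1, h2, one_mul]
  have hwdvd := sz_mul_dvd hcop
  have hcaseB : sz (x1 * y) = sz y := by
    by_cases h : ∃ t, t.Prime ∧ t ∣ sz (x1 * y) ∧ t ∣ sz x1
    · exfalso
      obtain ⟨t, ht, htd, htx⟩ := h
      have h1 : (sz (x1 * y)).Coprime (sz y) := by
        by_contra hc'
        obtain ⟨u, hu, h1, h2⟩ := Nat.Prime.not_coprime_iff_dvd.1 hc'
        exact hNC t u ht hu htx h2 (x1 * y) (by rw [hwo]) htd h1
      have h2 : sz (x1 * y) = sz x1 :=
        le_antisymm (Nat.le_of_dvd (sz_pos _) (h1.dvd_of_dvd_mul_right hwdvd)) (sz_le_mul hcop)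
      obtain ⟨N, -, hNR, hNe, hNg⟩ := expo hcop hcomm hx1 h2
      exact hpa (hNp x1 y N hNR hNe hNg (hnc y hy))
    · have h1 : (sz (x1 * y)).Coprime (sz x1) := by
        by_contra hc'
        obtain ⟨u, hu, h1, h2⟩ := Nat.Prime.not_coprime_iff_dvd.1 hc'
        exact h ⟨u, hu, h1, h2⟩
      exact le_antisymm (Nat.le_of_dvd (sz_pos _) (h1.dvd_of_dvd_mul_left hwdvd)) (sz_le_mul' hcop)
  obtain ⟨N, hNn, hNR, hNe, hNg⟩ := expo hcop.symm hcomm.symm hy (by rw [← hcomm]; exact hcaseB)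
  have hpb : p ∣ sz y := hNp y x1 N hNR hNe hNg (hnc x1 hx1)
  have hNpg : IsPGroup p N := fun n => ⟨1, by rw [pow_one]; exact Subtype.ext (hNe n n.2)⟩
  have hzx : IsPGroup p (zpowers x1) := CfsgLib.FgBas.isPGroup_zpowers (k := 1) (by rw [hx1, pow_one])
  obtain ⟨P, hxP, hPx⟩ := CfsgLib.H6.exists_sylow_le_of_not_dvd_index p (centralizer ({x1} : Set G)) hpa (zpowers x1) hzx
    (by rw [zpowers_le, mem_centralizer_singleton_iff])
  obtain ⟨M, hM⟩ : ∃ M : Subgroup G, M = closure (K x1) := ⟨_, rfl⟩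
  have hKM : ∀ x' ∈ K x1, x' ∈ M := fun x' hx' => by rw [hM]; exact subset_closure hx'
  have hMP : ∀ P' : Sylow p G, x1 ∈ (P' : Subgroup G) → M ≤ P' := by
    intro P' hx
    rw [hM, closure_le]
    intro x' hx'
    have h1 := hNg x' hx' x1 (mem_K_self x1)
    have h2 : x' = (x' * x1⁻¹) * x1 := by group
    rw [SetLike.mem_coe, h2]
    exact mul_mem (CfsgLib.Cores.normal_le_sylow hNn hNpg P' h1) hx
  have hMx : M ≤ centralizer ({x1} : Set G) := (hMP P (hxP (mem_zpowers x1))).trans hPx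
  haveI hMn : M.Normal := by
    refine ⟨fun n hn g => ?_⟩
    have : M ≤ M.comap (MulAut.conj g).toMonoidHom := by
      conv_lhs => rw [hM]
      rw [closure_le]
      intro y hy
      exact hKM _ (K_conj hy g)
    exact this hn
  obtain ⟨D, hD⟩ : ∃ D : Subgroup G, D = centralizer (M : Set G) := ⟨_, rfl⟩
  haveI hDn : D.Normal := by rw [hD]; infer_instance
  have hDmem : ∀ g : G, (∀ x' ∈ K x1, g * x' = x' * g) → g ∈ D := by
    intro g h
    have h1 : M ≤ centralizer ({g} : Set G) := by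
      rw [hM, closure_le]
      intro x' hx'
      rw [SetLike.mem_coe, mem_centralizer_singleton_iff]
      exact (h x' hx').symm
    rw [hD, mem_centralizer_iff]
    intro m hm
    exact mem_centralizer_singleton_iff.1 (h1 hm)
  have hDc : ∀ g ∈ D, ∀ m ∈ M, g * m = m * g := by
    intro g hg m hm
    rw [hD, mem_centralizer_iff] at hg
    exact (hg m hm).symm
  have hDx : D ≤ centralizer ({x1} : Set G) := by
    intro d hd
    rw [mem_centralizer_singleton_iff]
    exact hDc d hd x1 (hKM _ (mem_K_self x1))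
  have hMD : M ≤ D := by
    intro m hm
    apply hDmem
    rintro _ ⟨g, rfl⟩
    have h1 : g⁻¹ * m * g⁻¹⁻¹ ∈ M := hMn.conj_mem m hm g⁻¹
    have h2 := mem_centralizer_singleton_iff.1 (hMx h1)
    calc m * (g * x1 * g⁻¹) = g * ((g⁻¹ * m * g⁻¹⁻¹) * x1) * g⁻¹ := by group
      _ = _ := by rw [h2]; group
  obtain ⟨t0, ht0, ht0d⟩ := Nat.exists_prime_and_dvd (hnc x1 hx1)
  have hpp : ∀ g : G, p ∣ orderOf g → ∀ t : ℕ, t.Prime → t ∣ sz x1 → t ∣ sz g → ¬ p ∣ sz g :=
    fun g hg t ht h1 h2 => hNC t p ht hp h1 hpb g hg h2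
  have hc : ∀ c : G, c * x1 = x1 * c → (orderOf c).Coprime p → c ∈ D ∧ ¬ p ∣ sz c := by
    intro c hcx hco
    have h1 := sz_mul_of_coprime_order hcx (by rw [hx1]; exact hco)
    have h2 : p ∣ orderOf (c * x1) := by
      rw [(show Commute c x1 from hcx).orderOf_mul_eq_mul_orderOf_of_coprime (by rw [hx1]; exact hco), hx1]
      exact dvd_mul_left p _
    have h3 : ¬ p ∣ sz (c * x1) := hpp _ h2 t0 ht0 ht0d (by rw [h1]; exact ht0d.trans (Subgroup.index_dvd_of_le inf_le_right))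
    rw [h1] at h3
    obtain ⟨P', hxP', hP'⟩ := CfsgLib.H6.exists_sylow_le_of_not_dvd_index p _ h3 (zpowers x1) hzx (by
      rw [zpowers_le, mem_inf, mem_centralizer_singleton_iff, mem_centralizer_singleton_iff]
      exact ⟨hcx.symm, rfl⟩)
    refine ⟨?_, fun h => h3 (h.trans (Subgroup.index_dvd_of_le inf_le_left))⟩
    apply hDmem
    intro x' hx'
    exact (mem_centralizer_singleton_iff.1 (hP' (hMP P' (hxP' (mem_zpowers x1)) (hKM x' hx'))).1).symm
  -- structure of D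
  have hDp' : ∀ c : D, (orderOf c).Coprime p → ¬ p ∣ (centralizer ({c} : Set D)).index := by
    intro c hco h
    have h1 : (orderOf (c : G)).Coprime p := by rw [Subgroup.orderOf_coe]; exact hco
    exact (hc c (mem_centralizer_singleton_iff.1 (hDx c.2)) h1).2 (h.trans (CfsgLib.FgClass.index_centralizer_normal_dvd D c))
  obtain ⟨PD⟩ := (inferInstance : Nonempty (Sylow p D))
  obtain ⟨K0, hK0n, hK0c, hK0⟩ := CfsgLib.H6.pprime_split p hDp' PD
  have hKP : ∀ d : D, ∃ k ∈ K0, ∃ u ∈ (PD : Subgroup D), k * u = d := by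
    intro d
    obtain ⟨⟨k, u⟩, h⟩ := hK0c.2 d
    exact ⟨k, k.2, u, u.2, h⟩
  have hPDn : (PD : Subgroup D).Normal := by
    refine ⟨fun v hv g => ?_⟩
    obtain ⟨k, hk, u, hu, rfl⟩ := hKP g
    have h1 : u * v * u⁻¹ ∈ (PD : Subgroup D) := mul_mem (mul_mem hu hv) (inv_mem hu)
    have h2 := hK0 k hk _ h1
    have h3 : k * u * v * (k * u)⁻¹ = k * (u * v * u⁻¹) * k⁻¹ := by group
    rw [h3, h2, mul_inv_cancel_right]; exact h1
  obtain ⟨O, hO⟩ : ∃ O : Subgroup G, O = (PD : Subgroup D).map D.subtype := ⟨_, rfl⟩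
  have hOD : O ≤ D := by rw [hO]; exact map_subtype_le _
  have hOp : IsPGroup p O := by rw [hO]; exact PD.isPGroup'.map _
  have hOmem : ∀ d ∈ D, (∃ k, orderOf d = p ^ k) → d ∈ O := by
    rintro d hd ⟨k, hk⟩
    rw [hO]
    refine ⟨⟨d, hd⟩, ?_, rfl⟩
    exact CfsgLib.FgBas.mem_of_normal PD hPDn ⟨k, by rw [Subgroup.orderOf_mk]; exact hk⟩
  haveI hOn : O.Normal := by
    refine ⟨fun v hv g => ?_⟩
    apply hOmem _ (hDn.conj_mem v (hOD hv) g)
    obtain ⟨k, hk⟩ := CfsgLib.FgBas.orderOf_eq_pow hOp hv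
    exact ⟨k, by rw [CfsgLib.FgBas.orderOf_conj]; exact hk⟩
  have hDcomm : ∀ v ∈ O, ∀ c ∈ D, (orderOf c).Coprime p → c * v = v * c := by
    intro v hv c hcD hco
    rw [hO] at hv
    obtain ⟨v', hv', rfl⟩ := hv
    have h1 : (⟨c, hcD⟩ : D) ∈ K0 := by
      have h2 : (⟨c, hcD⟩ : D) ^ K0.index ∈ K0 := Subgroup.pow_index_mem K0 _
      apply CfsgLib.FgBas.mem_of_pow_mem h2
      rw [Subgroup.orderOf_mk, hK0c.symm.index_eq_card]
      obtain ⟨n, hn⟩ := IsPGroup.iff_card.1 PD.isPGroup'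
      rw [hn]; exact Nat.Coprime.pow_right _ hco
    exact congrArg Subtype.val (hK0 _ h1 v' hv')
  have hyD : y ∈ D := hDmem y (fun x' hx' => (all_commute hcop hcomm hx' (mem_K_self y)).symm)
  have hyO : y ∈ O := hOmem y hyD ⟨1, by rw [pow_one]; exact hy⟩
  have hMO : M ≤ O := by
    intro m hm
    exact hOmem m (hMD hm) (CfsgLib.FgBas.orderOf_eq_pow P.isPGroup' (hMP P (hxP (mem_zpowers x1)) hm))
  have hqD : ∀ q : ℕ, q.Prime → q ≠ p → ¬ q ∣ sz x1 → ∀ H : Subgroup G, (∀ c ∈ D, (orderOf c).Coprime p → c ∈ H) → ¬ q ∣ H.index := by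
    intro q hq hqp hqa H hH hqi
    haveI : Fact q.Prime := ⟨hq⟩
    obtain ⟨Q, -, hQ⟩ := CfsgLib.H6.exists_sylow_le_of_not_dvd_index q (centralizer ({x1} : Set G)) hqa ⊥ IsPGroup.of_bot bot_le
    have : (Q : Subgroup G) ≤ H := by
      intro c hcQ
      have h1 : (orderOf c).Coprime p := by
        obtain ⟨j, hj⟩ := CfsgLib.FgBas.orderOf_eq_pow Q.isPGroup' hcQ
        rw [hj]; exact Nat.Coprime.pow_left _ ((Nat.coprime_primes hq hp).2 hqp)
      exact hH c (hc c (mem_centralizer_singleton_iff.1 (hQ hcQ)) h1).1 h1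
    exact Q.not_dvd_index (hqi.trans (Subgroup.index_dvd_of_le this))
  have hDidx : ∀ t : ℕ, t.Prime → t ≠ p → t ∣ D.index → t ∣ sz x1 := by
    intro t ht htp htd
    by_contra hta
    exact hqD t ht htp hta D (fun c hc _ => hc) htd
  have hcore : Cfsg.pCore p (G ⧸ D) = ⊥ := by
    rw [eq_bot_iff]
    have key : ∀ k : G, QuotientGroup.mk' D k ∈ Cfsg.pCore p (G ⧸ D) → k * x1 = x1 * k := by
      intro k hk
      have h1 := CfsgLib.Cores.pCore_le_sylow (P.mapSurjective (QuotientGroup.mk'_surjective D)) hk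
      rw [Sylow.coe_mapSurjective] at h1
      obtain ⟨u, hu, huk⟩ := h1
      have h2 : u⁻¹ * k ∈ D := QuotientGroup.eq.1 huk
      have h3 : k = u * (u⁻¹ * k) := by group
      have h4 : k ∈ centralizer ({x1} : Set G) := by
        rw [h3]
        exact mul_mem (hPx hu) (hDx h2)
      exact mem_centralizer_singleton_iff.1 h4
    intro r hr
    obtain ⟨g, rfl⟩ := QuotientGroup.mk'_surjective D r
    have hg : g ∈ D := by
      apply hDmem
      rintro _ ⟨h, rfl⟩
      have h1 : QuotientGroup.mk' D (h⁻¹ * g * h) ∈ Cfsg.pCore p (G ⧸ D) := by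
        have := (inferInstance : (Cfsg.pCore p (G ⧸ D)).Normal).conj_mem _ hr (QuotientGroup.mk' D h⁻¹)
        rw [map_mul, map_mul]
        rwa [← map_inv (QuotientGroup.mk' D) h⁻¹, inv_inv] at this
      have h2 := key _ h1
      calc g * (h * x1 * h⁻¹) = h * ((h⁻¹ * g * h) * x1) * h⁻¹ := by group
        _ = _ := by rw [h2]; group
    rw [mem_bot]
    exact (QuotientGroup.eq_one_iff g).2 hg
  have hYmem : ∀ t : ℕ, t.Prime → t ≠ p → ∀ g : G, (∃ j, orderOf g = t ^ j) → QuotientGroup.mk' D g ∈ Cfsg.pPrimeCore p (G ⧸ D) := by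
    rintro t ht htp g ⟨j, hj⟩
    haveI : Fact t.Prime := ⟨ht⟩
    by_cases hgD : g ∈ D
    · have : QuotientGroup.mk' D g = 1 := (QuotientGroup.eq_one_iff g).2 hgD
      rw [this]; exact Subgroup.one_mem _
    have hta : t ∣ sz x1 := by
      by_contra hta
      apply hgD
      have h1 : g ^ D.index ∈ D := Subgroup.pow_index_mem D g
      apply CfsgLib.FgBas.mem_of_pow_mem h1
      rw [hj]
      apply Nat.Coprime.pow_left
      rw [Nat.Prime.coprime_iff_not_dvd ht]
      exact fun h => hta (hDidx t ht htp h)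
    have hty : ¬ t ∣ sz y := fun h => by
      have := Nat.eq_one_of_dvd_coprimes hcop hta h
      exact ht.one_lt.ne' this
    obtain ⟨T, -, hT⟩ := CfsgLib.H6.exists_sylow_le_of_not_dvd_index t (centralizer ({y} : Set G)) hty ⊥ IsPGroup.of_bot bot_le
    obtain ⟨h, hh⟩ := CfsgLib.FgBas.exists_conj_mem T ⟨j, hj⟩
    have h1 := mem_centralizer_singleton_iff.1 (hT hh)
    obtain ⟨v, hv⟩ : ∃ v, v = h⁻¹ * y * h := ⟨_, rfl⟩
    have hvc : g * v = v * g := by
      rw [hv]
      calc g * (h⁻¹ * y * h) = h⁻¹ * ((h * g * h⁻¹) * y) * h := by group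
        _ = _ := by rw [h1]; group
    have hvo : orderOf v = p := by
      rw [hv]
      have := CfsgLib.FgBas.orderOf_conj h⁻¹ y
      rwa [inv_inv, hy] at this
    have hgo : (orderOf g).Coprime (orderOf v) := by
      rw [hj, hvo]; exact Nat.Coprime.pow_left _ ((Nat.coprime_primes ht hp).2 htp)
    have h2 := sz_mul_of_coprime_order hvc hgo
    have h3 : p ∣ orderOf (g * v) := by
      rw [(show Commute g v from hvc).orderOf_mul_eq_mul_orderOf_of_coprime hgo, hvo]
      exact dvd_mul_left p _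
    have h4 : p ∣ sz g := by
      by_contra hpg
      apply hgD
      have h5 : (centralizer ({g} : Set G)).relIndex M ∣ sz g := CfsgLib.H7.relIndex_dvd_index_of_normal_right _ _
      have h6 : (centralizer ({g} : Set G)).relIndex M ∣ Nat.card M := Subgroup.index_dvd_card _
      have h7 : IsPGroup p M := hOp.to_le hMO
      obtain ⟨n, hn⟩ := IsPGroup.iff_card.1 h7
      have h8 : (centralizer ({g} : Set G)).relIndex M = 1 := by
        apply Nat.eq_one_of_dvd_coprimes _ h5 h6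
        rw [hn]
        exact Nat.Coprime.pow_right _ (Nat.Coprime.symm ((Nat.Prime.coprime_iff_not_dvd hp).2 hpg))
      apply hDmem
      intro x' hx'
      exact (mem_centralizer_singleton_iff.1 (Subgroup.relIndex_eq_one.1 h8 (hKM x' hx'))).symm
    have h5 : p ∣ sz (g * v) := by rw [h2]; exact h4.trans (Subgroup.index_dvd_of_le inf_le_left)
    have h6 : ∀ q : ℕ, q.Prime → q ∣ sz x1 → ¬ q ∣ sz g := by
      intro q hq hqa hqg
      apply hpp _ h3 q hq hqa _ h5
      rw [h2]; exact hqg.trans (Subgroup.index_dvd_of_le inf_le_left)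
    obtain ⟨a, ha⟩ : ∃ a, (centralizer ({QuotientGroup.mk' D g} : Set (G ⧸ D))).index = p ^ a := by
      refine ⟨_, Nat.eq_prime_pow_of_unique_prime_dvd Subgroup.index_ne_zero_of_finite ?_⟩
      intro d hd hdd
      by_contra hdp
      have h7 : d ∣ D.index := hdd.trans (Subgroup.index_dvd_card _)
      have h8 : d ∣ sz g := hdd.trans (CfsgLib.FgClass.index_centralizer_mk_dvd D g)
      exact h6 d hd (hDidx d hd hdp h7) h8
    have h7 := CfsgLib.H7Kaz.abelian_of_pCore ha hcore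
    obtain ⟨A, hA⟩ : ∃ A : Subgroup (G ⧸ D), A = normalClosure ({QuotientGroup.mk' D g} : Set (G ⧸ D)) := ⟨_, rfl⟩
    haveI hAn : A.Normal := by rw [hA]; infer_instance
    rw [← hA] at h7
    haveI : IsMulCommutative A := ⟨⟨fun a b => Subtype.ext (h7 a a.2 b b.2)⟩⟩
    have hAnil : Group.IsNilpotent A := by
      letI : CommGroup A := { (inferInstance : Group A) with mul_comm := fun a b => Subtype.ext (h7 a a.2 b b.2) }
      exact CommGroup.isNilpotent
    have h8 := CfsgLib.Cores.not_dvd_relIndex_pCore_of_normal_nilpotent hp A hAnil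
    rw [hcore, relIndex_bot_left] at h8
    have h9 : A ≤ Cfsg.pPrimeCore p (G ⧸ D) := CfsgLib.Cores.le_pPrimeCore hAn ((Nat.Prime.coprime_iff_not_dvd hp).2 h8).symm
    apply h9
    rw [hA]
    exact subset_normalClosure rfl
  obtain ⟨Y, hY⟩ : ∃ Y : Subgroup G, Y = (Cfsg.pPrimeCore p (G ⧸ D)).comap (QuotientGroup.mk' D) := ⟨_, rfl⟩
  haveI hYn : Y.Normal := by rw [hY]; infer_instance
  have hDY : D ≤ Y := by
    intro d hd
    rw [hY, mem_comap]
    have : QuotientGroup.mk' D d = 1 := (QuotientGroup.eq_one_iff d).2 hd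
    rw [this]; exact Subgroup.one_mem _
  have hYidx : ∀ t : ℕ, t.Prime → t ∣ Y.index → t = p := by
    intro t ht htd
    by_contra htp
    haveI : Fact t.Prime := ⟨ht⟩
    obtain ⟨T⟩ := (inferInstance : Nonempty (Sylow t G))
    have : (T : Subgroup G) ≤ Y := by
      intro g hg
      rw [hY]
      exact hYmem t ht htp g (CfsgLib.FgBas.orderOf_eq_pow T.isPGroup' hg)
    exact T.not_dvd_index (htd.trans (Subgroup.index_dvd_of_le this))
  have hOY : O ≤ Y := hOD.trans hDY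
  have hpOY : ¬ p ∣ O.relIndex Y := by
    rw [← Subgroup.relIndex_mul_relIndex O D Y hOD hDY]
    intro h
    rcases hp.dvd_mul.1 h with h | h
    · have h1 : O.relIndex D = (PD : Subgroup D).index := by
        rw [hO]
        change (((PD : Subgroup D).map D.subtype).subgroupOf D).index = _
        congr 1
        exact comap_map_eq_self_of_injective D.subtype_injective _
      rw [h1] at h
      exact PD.not_dvd_index h
    · have h1 : D.relIndex Y = Nat.card (Cfsg.pPrimeCore p (G ⧸ D)) := by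
        have h2 := Subgroup.relIndex_ker Y (QuotientGroup.mk' D)
        rw [QuotientGroup.ker_mk'] at h2
        rw [h2, hY, map_comap_eq_self_of_surjective (QuotientGroup.mk'_surjective D)]
      rw [h1] at h
      have h3 := CfsgLib.Cores.pPrimeCore_coprime (G := G ⧸ D) p
      exact (Nat.Prime.coprime_iff_not_dvd hp).1 h3.symm h
  have hOcop : (Nat.card O).Coprime (O.relIndex Y) := by
    obtain ⟨n, hn⟩ := IsPGroup.iff_card.1 hOp
    rw [hn]; exact Nat.Coprime.pow_left _ ((Nat.Prime.coprime_iff_not_dvd hp).2 hpOY)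
  have hOsolv : Group.IsSolvable O := CfsgLib.FgClass.solvable_of_isPGroup hOp
  have hnorm : ∀ H : Subgroup G, H ≤ normalizer (O : Set G) := fun H => by rw [normalizer_eq_top]; exact le_top
  obtain ⟨B, hBY, hBcard, hOB, hOBY⟩ := CfsgLib.Coprime.sz_exists hOY (hnorm Y) hOcop
  have hBcop : (Nat.card B).Coprime (Nat.card O) := by rw [hBcard]; exact hOcop.symm
  -- centralizers
  have h14 : ∀ v ∈ O, (sz v).Coprime (sz x1) → ∃ u ∈ O, u⁻¹ * v * u ∈ centralizer (B : Set G) := by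
    intro v hv hvc
    obtain ⟨L, hL⟩ : ∃ L : Subgroup G, L = centralizer ({v} : Set G) ⊓ Y := ⟨_, rfl⟩
    have hLY : L ≤ Y := by rw [hL]; exact inf_le_right
    have hOL : L ⊔ O = Y := by
      apply le_antisymm (sup_le hLY hOY)
      rw [← Subgroup.relIndex_eq_one]
      by_contra hne
      obtain ⟨t, ht, htd⟩ := Nat.exists_prime_and_dvd hne
      have h1 : t ≠ p := by
        rintro rfl
        exact hpOY (htd.trans (Subgroup.relIndex_dvd_of_le_left Y le_sup_right))
      have h2 : t ∣ L.relIndex Y := htd.trans (Subgroup.relIndex_dvd_of_le_left Y le_sup_left)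
      rw [hL, inf_relIndex_right] at h2
      have h3 : t ∣ sz v := h2.trans (CfsgLib.H7.relIndex_dvd_index_of_normal_right _ _)
      by_cases hta : t ∣ sz x1
      · exact ht.one_lt.ne' (Nat.eq_one_of_dvd_coprimes hvc h3 hta)
      · exact hqD t ht h1 hta (centralizer ({v} : Set G)) (fun c hcD hco => by
          rw [mem_centralizer_singleton_iff]; exact hDcomm v hv c hcD hco) h3
    have h1 : (O ⊓ L).relIndex L = O.relIndex Y := by
      rw [inf_relIndex_right, ← hOL, relIndex_sup_right]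
    obtain ⟨B', hB'L, hB'card, -, -⟩ := CfsgLib.Coprime.sz_exists (N := O ⊓ L) (L := L) inf_le_right (by
      have : ((O ⊓ L).subgroupOf L).Normal := by
        rw [inf_subgroupOf_right]; infer_instance
      exact (normal_subgroupOf_iff_le_normalizer inf_le_right).1 this) (by
      rw [h1]
      exact Nat.Coprime.coprime_dvd_left (Subgroup.card_dvd_of_le inf_le_left) hOcop)
    obtain ⟨u, hu, huB⟩ := CfsgLib.Coprime.sz_conj (N := O) (H := B) (K := B') (hnorm B) hBcop (Or.inr hOsolv)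
      (by rw [hOBY]; exact hB'L.trans hLY) (by rw [hB'card, h1, hBcard])
    refine ⟨u, hu, ?_⟩
    rw [mem_centralizer_iff]
    intro k hk
    have h2 : u * k * u⁻¹ ∈ B' := by
      rw [← huB, CfsgLib.H6.mem_conj_iff]
      have : u⁻¹ * (u * k * u⁻¹) * u = k := by group
      rw [this]; exact hk
    have h3 := hB'L h2
    rw [hL] at h3
    have h4 := mem_centralizer_singleton_iff.1 h3.1
    calc k * (u⁻¹ * v * u) = u⁻¹ * ((u * k * u⁻¹) * v) * u := by group
      _ = _ := by rw [h4]; group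
  have h15 : ∀ v ∈ O, v ∈ centralizer (O : Set G) ∨ (sz v).Coprime (sz x1) := by
    intro v hv
    by_cases hvc : (sz v).Coprime (sz x1)
    · exact Or.inr hvc
    left
    obtain ⟨t, ht, h1, h2⟩ := Nat.Prime.not_coprime_iff_dvd.1 hvc
    have hv1 : v ≠ 1 := by
      rintro rfl
      rw [sz_eq_one.2 (Subgroup.one_mem _)] at h1
      exact ht.one_lt.ne' (Nat.dvd_one.1 h1)
    have h3 : p ∣ orderOf v := by
      obtain ⟨k, hk⟩ := CfsgLib.FgBas.orderOf_eq_pow hOp hv
      rw [hk]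
      rcases Nat.eq_zero_or_pos k with h0 | h0
      · rw [h0, pow_zero, orderOf_eq_one_iff] at hk
        exact absurd hk hv1
      · exact dvd_pow_self p h0.ne'
    have h4 := hpp v h3 t ht h2 h1
    obtain ⟨P', -, hP'⟩ := CfsgLib.H6.exists_sylow_le_of_not_dvd_index p (centralizer ({v} : Set G)) h4 ⊥ IsPGroup.of_bot bot_le
    rw [mem_centralizer_iff]
    intro u hu
    exact mem_centralizer_singleton_iff.1 (hP' (CfsgLib.Cores.normal_le_sylow hOn hOp P' hu))
  have h16 : ∀ v ∈ O, v ∉ centralizer (O : Set G) → v ∈ centralizer (B : Set G) := by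
    have hL : O ≤ (O ⊓ centralizer (O : Set G)) ⊔ (O ⊓ centralizer (B : Set G)) := by
      by_contra hcon
      obtain ⟨v, hv⟩ := CfsgLib.H6.exists_not_mem_conj (((O ⊓ centralizer (O : Set G)) ⊔ (O ⊓ centralizer (B : Set G))).subgroupOf O)
        (fun h => hcon (subgroupOf_eq_top.1 h))
      rcases h15 v v.2 with h | h
      · apply hv 1
        rw [inv_one, one_mul, mul_one, mem_subgroupOf]
        exact mem_sup_left (mem_inf.2 ⟨v.2, h⟩)
      · obtain ⟨u, hu, huv⟩ := h14 v v.2 h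
        apply hv ⟨u, hu⟩
        rw [mem_subgroupOf]
        exact mem_sup_right (mem_inf.2 ⟨mul_mem (mul_mem (inv_mem hu) v.2) hu, huv⟩)
    intro v hv hvO
    obtain ⟨u, hu, huv⟩ := h14 v hv ((h15 v hv).resolve_left hvO)
    have h1 := hL hu
    rw [← SetLike.mem_coe, normal_mul] at h1
    obtain ⟨z, hz, c, hcc, rfl⟩ := h1
    have hz1 : v * z = z * v := mem_centralizer_iff.1 hz.2 v hv
    have h2 : v = c * ((z * c)⁻¹ * v * (z * c)) * c⁻¹ := by
      have : c * ((z * c)⁻¹ * v * (z * c)) * c⁻¹ = z⁻¹ * (v * z) := by group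
      rw [this, hz1, inv_mul_cancel_left]
    rw [h2]
    have hcc' : c ∈ centralizer (B : Set G) := hcc.2
    exact mul_mem (mul_mem hcc' huv) (inv_mem hcc')
  have hOab : ∀ v ∈ O, v ∈ centralizer (O : Set G) := by
    by_contra hcon
    push Not at hcon
    obtain ⟨u, hu, huO⟩ := hcon
    have huB := h16 u hu huO
    have hall : ∀ w ∈ O, w ∈ centralizer (B : Set G) := by
      intro w hw
      by_cases hwO : w ∈ centralizer (O : Set G)
      · have h1 : u * w ∉ centralizer (O : Set G) := by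
          intro h
          apply huO
          have := mul_mem h (inv_mem hwO)
          rwa [mul_inv_cancel_right] at this
        have h2 := h16 _ (mul_mem hu hw) h1
        have := mul_mem (inv_mem huB) h2
        rwa [inv_mul_cancel_left] at this
      · exact h16 w hw hwO
    have hBD : B ≤ D := by
      intro k hk
      apply hDmem
      intro x' hx'
      exact mem_centralizer_iff.1 (hall x' (hMO (hKM x' hx'))) k hk
    have hYD : Y ≤ D := by rw [← hOBY]; exact sup_le hOD hBD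
    have h1 : t0 ∣ Y.index := (ht0d.trans (Subgroup.index_dvd_of_le hDx)).trans (Subgroup.index_dvd_of_le hYD)
    have h2 := hYidx t0 ht0 h1
    rw [h2] at ht0d
    exact hpa ht0d
  have hOab' : ∀ a ∈ O, ∀ b ∈ O, a * b = b * a := fun a ha b hb => mem_centralizer_iff.1 (hOab b hb) a ha
  obtain ⟨Q, hQ⟩ : ∃ Q : Subgroup G, Q = O ⊓ centralizer (B : Set G) := ⟨_, rfl⟩
  have hyQ : y ∈ Q := by
    obtain ⟨u, hu, huy⟩ := h14 y hyO hcop.symm
    rw [hQ]
    refine ⟨hyO, ?_⟩
    have : u⁻¹ * y * u = y := by rw [mul_assoc, hOab' y hyO u hu, inv_mul_cancel_left]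
    rwa [this] at huy
  haveI hQn : Q.Normal := by
    refine ⟨fun v hv g => ?_⟩
    rw [hQ] at hv ⊢
    have hgv : g * v * g⁻¹ ∈ O := hOn.conj_mem v hv.1 g
    refine mem_inf.2 ⟨hgv, ?_⟩
    obtain ⟨u, hu, huB⟩ := CfsgLib.Coprime.sz_conj (N := O) (H := B) (K := MulAut.conj g • B) (hnorm B) hBcop (Or.inr hOsolv)
      (by
        rw [hOBY]
        intro z hz
        rw [CfsgLib.H6.mem_conj_iff] at hz
        have := hYn.conj_mem _ (hBY hz) g
        have h2 : g * (g⁻¹ * z * g) * g⁻¹ = z := by group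
        rwa [h2] at this) (CfsgLib.Coprime.card_conj_smul g _)
    rw [mem_centralizer_iff]
    intro k hk
    have h1 : u * k * u⁻¹ ∈ MulAut.conj g • B := by
      rw [← huB, CfsgLib.H6.mem_conj_iff]
      have : u⁻¹ * (u * k * u⁻¹) * u = k := by group
      rw [this]; exact hk
    rw [CfsgLib.H6.mem_conj_iff] at h1
    have h2 := mem_centralizer_iff.1 hv.2 _ h1
    have h3 : u⁻¹ * (g * v * g⁻¹) * u = g * v * g⁻¹ := by
      rw [mul_assoc, hOab' _ hgv u hu, inv_mul_cancel_left]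
    have h4 : k * (u⁻¹ * (g * v * g⁻¹) * u) = (u⁻¹ * (g * v * g⁻¹) * u) * k := by
      calc k * (u⁻¹ * (g * v * g⁻¹) * u) = u⁻¹ * g * ((g⁻¹ * (u * k * u⁻¹) * g) * v) * g⁻¹ * u := by group
        _ = _ := by rw [h2]; group
    rwa [h3] at h4
  have hOP : O ≤ P := CfsgLib.Cores.normal_le_sylow hOn hOp P
  haveI hPnil : Group.IsNilpotent (P : Subgroup G) := P.isPGroup'.isNilpotent
  have h18 := CfsgLib.SolvNilp.inf_center_ne_bot (G := (P : Subgroup G)) (Q.subgroupOf (P : Subgroup G)) (by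
    intro h
    have h1 : (⟨y, hOP hyO⟩ : (P : Subgroup G)) ∈ Q.subgroupOf (P : Subgroup G) := hyQ
    rw [h, mem_bot] at h1
    have h2 : y = 1 := congrArg Subtype.val h1
    rw [h2, orderOf_one] at hy
    exact hp.one_lt.ne hy)
  obtain ⟨⟨v, hv⟩, hv1⟩ := Subgroup.ne_bot_iff_exists_ne_one.mp h18
  have hvQ : (v : G) ∈ Q := hv.1
  have hvP := mem_center_iff.1 hv.2
  have hvO : (v : G) ∈ O := by rw [hQ] at hvQ; exact hvQ.1
  have hv1' : (v : G) ≠ 1 := fun h => hv1 (Subtype.ext (Subtype.ext h))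
  have h19 : sz (v : G) = 1 := by
    by_contra hne
    obtain ⟨t, ht, htd⟩ := Nat.exists_prime_and_dvd hne
    have h1 : Y ≤ centralizer ({(v : G)} : Set G) := by
      rw [← hOBY]
      apply sup_le
      · intro o ho
        rw [mem_centralizer_singleton_iff]
        exact hOab' o ho v hvO
      · intro k hk
        rw [mem_centralizer_singleton_iff]
        rw [hQ] at hvQ
        exact mem_centralizer_iff.1 hvQ.2 k hk
    have h2 := hYidx t ht (htd.trans (Subgroup.index_dvd_of_le h1))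
    have h3 : (P : Subgroup G) ≤ centralizer ({(v : G)} : Set G) := by
      intro u hu
      rw [mem_centralizer_singleton_iff]
      exact congrArg Subtype.val (hvP ⟨u, hu⟩)
    rw [h2] at htd
    exact P.not_dvd_index (htd.trans (Subgroup.index_dvd_of_le h3))
  rw [sz_eq_one] at h19
  apply hZ
  have h20 : p ∣ orderOf (v : G) := by
    obtain ⟨k, hk⟩ := CfsgLib.FgBas.orderOf_eq_pow hOp hvO
    rw [hk]
    rcases Nat.eq_zero_or_pos k with h0 | h0
    · rw [h0, pow_zero, orderOf_eq_one_iff] at hk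
      exact absurd hk hv1'
    · exact dvd_pow_self p h0.ne'
  exact h20.trans (Subgroup.orderOf_dvd_natCard _ h19)

theorem core2 {G : Type u} [Group G] [Finite G] (p : ℕ) [hpf : Fact p.Prime] (hZ : ¬ p ∣ Nat.card (center G))
    (x1 y : G) (hx1 : orderOf x1 = p) (hy : orderOf y = p) (hpa : ¬ p ∣ sz x1)
    (hNC : ∀ t u : ℕ, t.Prime → u.Prime → t ∣ sz x1 → u ∣ sz y → t ≠ u ∧ ∀ g : G, p ∣ orderOf g → t ∣ sz g → ¬ u ∣ sz g) : False := by
  have hzx : IsPGroup p (zpowers x1) := CfsgLib.FgBas.isPGroup_zpowers (k := 1) (by rw [hx1, pow_one])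
  obtain ⟨P, hxP, hPx⟩ := CfsgLib.H6.exists_sylow_le_of_not_dvd_index p (centralizer ({x1} : Set G)) hpa (zpowers x1) hzx
    (by rw [zpowers_le, mem_centralizer_singleton_iff])
  obtain ⟨g, hg⟩ := CfsgLib.FgBas.exists_conj_mem P (x := y) ⟨1, by rw [pow_one]; exact hy⟩
  have h1 := mem_centralizer_singleton_iff.1 (hPx hg)
  refine core p hZ x1 (g * y * g⁻¹) hx1 (by rw [CfsgLib.FgBas.orderOf_conj]; exact hy) hpa h1.symm ?_ ?_
  · rw [sz_conj]
    by_contra hc
    obtain ⟨t, ht, h1, h2⟩ := Nat.Prime.not_coprime_iff_dvd.1 hc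
    exact (hNC t t ht ht h1 h2).1 rfl
  · intro t u ht hu h1 h2
    rw [sz_conj] at h2
    exact (hNC t u ht hu h1 h2).2

/-- Let `G` be a finite group and `p` a prime not dividing the order of the centre of `G`. Consider the primes dividing the size of some conjugacy class of a `p`-singular element (an element of order divisible by `p`), two of them adjacent when their product divides such a class size. Then any two distinct such primes are joined by a path with at most 3 edges (the graph is connected of diameter at most 3). -/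
theorem result {G : Type*} [Group G] [Finite G] (p : ℕ) [Fact p.Prime]
    (hZ : ¬ p ∣ Nat.card ↥(Subgroup.center G)) (r s : ℕ) (hr : (r.Prime ∧ ∃ x : G, p ∣ orderOf x ∧ r ∣ (Subgroup.centralizer ({x} : Set G)).index)) (hs : (s.Prime ∧ ∃ x : G, p ∣ orderOf x ∧ s ∣ (Subgroup.centralizer ({x} : Set G)).index)) (hrs : r ≠ s) :
    (∃ x : G, p ∣ orderOf x ∧ r * s ∣ (Subgroup.centralizer ({x} : Set G)).index) ∨ (∃ t : ℕ, (t.Prime ∧ ∃ x : G, p ∣ orderOf x ∧ t ∣ (Subgroup.centralizer ({x} : Set G)).index) ∧ t ≠ r ∧ t ≠ s ∧ (∃ x : G, p ∣ orderOf x ∧ r * t ∣ (Subgroup.centralizer ({x} : Set G)).index) ∧ (∃ x : G, p ∣ orderOf x ∧ t * s ∣ (Subgroup.centralizer ({x} : Set G)).index)) ∨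
      (∃ t u : ℕ, (t.Prime ∧ ∃ x : G, p ∣ orderOf x ∧ t ∣ (Subgroup.centralizer ({x} : Set G)).index) ∧ (u.Prime ∧ ∃ x : G, p ∣ orderOf x ∧ u ∣ (Subgroup.centralizer ({x} : Set G)).index) ∧ t ≠ r ∧ u ≠ s ∧ t ≠ u ∧ (∃ x : G, p ∣ orderOf x ∧ r * t ∣ (Subgroup.centralizer ({x} : Set G)).index) ∧ (∃ x : G, p ∣ orderOf x ∧ t * u ∣ (Subgroup.centralizer ({x} : Set G)).index) ∧ (∃ x : G, p ∣ orderOf x ∧ u * s ∣ (Subgroup.centralizer ({x} : Set G)).index)) := by
  classical
  by_contra hcon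
  have hpP : p.Prime := Fact.out
  have hmd : ∀ (a b : ℕ) (g : G), a.Prime → b.Prime → a ≠ b → a ∣ sz g → b ∣ sz g →
      a * b ∣ (Subgroup.centralizer ({g} : Set G)).index := by
    intro a b g ha hb hab h1 h2
    exact Nat.Coprime.mul_dvd_of_dvd_of_dvd ((Nat.coprime_primes ha hb).2 hab) h1 h2
  obtain ⟨hrP, x, hxp, hx⟩ := hr
  obtain ⟨hsP, y, hyp, hy⟩ := hs
  have hrs1 : ∀ g : G, p ∣ orderOf g → r ∣ sz g → ¬ s ∣ sz g := fun g hg h1 h2 =>
    hcon (Or.inl ⟨g, hg, hmd r s g hrP hsP hrs h1 h2⟩)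
  have hrs2 : ∀ t : ℕ, t.Prime → t ≠ r → t ≠ s → ∀ x g : G, p ∣ orderOf x → p ∣ orderOf g → r ∣ sz x → t ∣ sz x → t ∣ sz g → ¬ s ∣ sz g := by
    intro t ht htr hts x g hx hg h1 h2 h3 h4
    exact hcon (Or.inr (Or.inl ⟨t, ⟨ht, x, hx, h2⟩, htr, hts, ⟨x, hx, hmd r t x hrP ht htr.symm h1 h2⟩, ⟨g, hg, hmd t s g ht hsP hts h3 h4⟩⟩))
  have hNC : ∀ t u : ℕ, t.Prime → u.Prime → t ∣ sz x → u ∣ sz y →
      t ≠ u ∧ ∀ g : G, p ∣ orderOf g → t ∣ sz g → ¬ u ∣ sz g := by
    intro t u ht hu htx huy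
    have hts : t ≠ s := fun h => hrs1 x hxp hx (h ▸ htx)
    have hur : u ≠ r := fun h => hrs1 y hyp (h ▸ huy) hy
    have htu : t ≠ u := by
      rintro rfl
      exact hrs2 t ht hur hts x y hxp hyp hx htx huy hy
    refine ⟨htu, fun g hg h1 h2 => ?_⟩
    by_cases htr : t = r
    · by_cases hus : u = s
      · exact hrs1 g hg (htr ▸ h1) (hus ▸ h2)
      · exact hrs2 u hu hur hus g y hg hyp (htr ▸ h1) h2 huy hy
    · by_cases hus : u = s
      · exact hrs2 t ht htr hts x g hxp hg hx htx h1 (hus ▸ h2)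
      · exact hcon (Or.inr (Or.inr ⟨t, u, ⟨ht, x, hxp, htx⟩, ⟨hu, y, hyp, huy⟩, htr, hus, htu,
          ⟨x, hxp, hmd r t x hrP ht (Ne.symm htr) hx htx⟩, ⟨g, hg, hmd t u g ht hu htu h1 h2⟩, ⟨y, hyp, hmd u s y hu hsP hus huy hy⟩⟩))
  have hpow : ∀ z : G, p ∣ orderOf z → ∃ k : ℕ, orderOf (z ^ k) = p := by
    intro z hz
    refine ⟨orderOf z / p, ?_⟩
    exact orderOf_pow_orderOf_div (orderOf_pos z).ne' hz
  obtain ⟨k, hk⟩ := hpow x hxp
  obtain ⟨l, hl⟩ := hpow y hyp
  have hNC' : ∀ t u : ℕ, t.Prime → u.Prime → t ∣ sz (x ^ k) → u ∣ sz (y ^ l) →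
      t ≠ u ∧ ∀ g : G, p ∣ orderOf g → t ∣ sz g → ¬ u ∣ sz g := fun t u ht hu h1 h2 =>
    hNC t u ht hu (h1.trans (sz_pow_dvd x k)) (h2.trans (sz_pow_dvd y l))
  by_cases hpa : p ∣ sz (x ^ k)
  · have hpb : ¬ p ∣ sz (y ^ l) := fun h => (hNC' p p hpP hpP hpa h).1 rfl
    exact core2 p hZ (y ^ l) (x ^ k) hl hk hpb (fun t u ht hu h1 h2 =>
      ⟨((hNC' u t hu ht h2 h1).1).symm, fun g hg h3 h4 => (hNC' u t hu ht h2 h1).2 g hg h4 h3⟩)
  · exact core2 p hZ (x ^ k) (y ^ l) hk hl hpa hNC'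

end Cfsg.Agent.S4321
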