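import Cfsg.Statements.S4416
import Cfsg.Agent.LibExForm4

set_option autoImplicit false
open Cfsg

namespace Cfsg.Agent.S4416

/-- Classification of extraspecial 2-groups in intrinsic form. An extraspecial 2-group has order 2^(2m+1) for some m ≥ 1, and the number of its elements squaring to the identity is either 2^(2m) + 2^m or 2^(2m) − 2^m; two extraspecial 2-groups of the same order with the same number of such elements are isomorphic. (The two cases are the central products of m dihedral groups of order 8, and of m − 1 dihedral groups with one quaternion group.) -/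
theorem result (E : Type*) [Group E] [Finite E] (hE : Cfsg.IsExtraspecial 2 E) :
    (∃ m : ℕ, 1 ≤ m ∧ Nat.card E = 2 ^ (2 * m + 1) ∧
      (Nat.card {x : E // x ^ 2 = 1} = 2 ^ (2 * m) + 2 ^ m ∨ Nat.card {x : E // x ^ 2 = 1} = 2 ^ (2 * m) - 2 ^ m)) ∧
    ∀ (E' : Type*) [Group E'] [Finite E'], Cfsg.IsExtraspecial 2 E' → Nat.card E' = Nat.card E →
      Nat.card {x : E' // x ^ 2 = 1} = Nat.card {x : E // x ^ 2 = 1} → Nonempty (E ≃* E') := by
  obtain ⟨m, t, hm, hc, ht⟩ := CfsgLib.ExForm.exists_hasType hE
  have h1 := ht.card_sq_one hm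
  have hle : 2 ^ m ≤ 2 ^ (2 * m) := Nat.pow_le_pow_right (by norm_num) (by omega)
  constructor
  · refine ⟨m, hm, hc, ?_⟩
    by_cases h0 : t = 0
    · left
      rw [h0, CfsgLib.QuadF2.χ_zero, one_mul] at h1
      exact_mod_cast h1
    · right
      rw [CfsgLib.QuadF2.eq_one_of_ne h0, CfsgLib.QuadF2.χ_one, neg_one_mul] at h1
      have h2 : ((2 ^ (2 * m) - 2 ^ m : ℕ) : ℤ) = 2 ^ (2 * m) - 2 ^ m := by
        rw [Nat.cast_sub hle]; push_cast; rfl
      have h3 : (Nat.card {x : E // x ^ 2 = 1} : ℤ) = ((2 ^ (2 * m) - 2 ^ m : ℕ) : ℤ) := by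
        rw [h2, h1]; ring
      exact_mod_cast h3
  · intro E' _ _ hE' hc' hcount
    obtain ⟨m', t', hm', hc'', ht'⟩ := CfsgLib.ExForm.exists_hasType hE'
    have hmm : m = m' := by
      rw [hc, hc''] at hc'
      have := Nat.pow_right_injective (le_refl 2) hc'
      omega
    subst hmm
    have h2 := ht'.card_sq_one hm
    rw [hcount, h1] at h2
    have h3 : CfsgLib.QuadF2.χ t = CfsgLib.QuadF2.χ t' := by
      have h4 : (2 : ℤ) ^ m ≠ 0 := by positivity
      exact mul_right_cancel₀ h4 (add_left_cancel h2)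
    have h5 : t = t' := by revert h3; clear * -; revert t t'; decide
    subst h5
    exact ht.exists_equiv ht'

end Cfsg.Agent.S4416
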