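import Cfsg.Statements.S4421
import Mathlib

set_option autoImplicit false
open Cfsg

namespace Cfsg.Agent.S4421

theorem map_conj_mul {G : Type*} [Group G] (A : Subgroup G) (x y : G) :
    A.map (MulAut.conj (x * y)).toMonoidHom =
      (A.map (MulAut.conj y).toMonoidHom).map (MulAut.conj x).toMonoidHom := by
  rw [Subgroup.map_map]
  congr 1
  ext z
  simp [mul_assoc]

theorem map_conj_one {G : Type*} [Group G] (A : Subgroup G) :
    A.map (MulAut.conj (1 : G)).toMonoidHom = A := by
  ext x
  rw [Subgroup.mem_map]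
  simp

theorem mem_norm {G : Type*} [Group G] (A : Subgroup G) (x : G) :
    x ∈ Subgroup.normalizer (A : Set G) ↔ A.map (MulAut.conj x).toMonoidHom = A := by
  rw [Subgroup.mem_normalizer_iff_map_conj_eq]
  rfl

theorem map_inj {G : Type*} [Group G] {A B : Subgroup G} {x : G}
    (h : A.map (MulAut.conj x).toMonoidHom = B.map (MulAut.conj x).toMonoidHom) : A = B :=
  Subgroup.map_injective (MulAut.conj x).injective h

/-- A factorization of a normalizer from two-step control of fusion. Let `G` be a finite group and `A ≤ S ≤ H` subgroups of `G` such that: (i) `S` controls the `G`-fusion of `A` in the sense that every `G`-conjugate of `A` lying in `S` is an `S`-conjugate of `A`; (ii) `H` controls the `G`-fusion of `S` in the same sense; (iii) every conjugate of `S` by an element of the normalizer of `A` lies in `H`. Then `N_G(A) = N_H(A) · (N_G(S) ∩ N_G(A))`: every element of the normalizer of `A` is a product of an element of `H` normalizing `A` and an element normalizing both `S` and `A`.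 -/
theorem result {G : Type*} [Group G] [Finite G] (A S H : Subgroup G)
    (hAS : A ≤ S) (hSH : S ≤ H)
    (h1 : ∀ g : G, A.map (MulAut.conj g).toMonoidHom ≤ S → ∃ s ∈ S, A.map (MulAut.conj g).toMonoidHom = A.map (MulAut.conj s).toMonoidHom)
    (h2 : ∀ g : G, S.map (MulAut.conj g).toMonoidHom ≤ H → ∃ y ∈ H, S.map (MulAut.conj g).toMonoidHom = S.map (MulAut.conj y).toMonoidHom)
    (h3 : ∀ x ∈ Subgroup.normalizer (A : Set G), S.map (MulAut.conj x).toMonoidHom ≤ H) :
    ∀ x ∈ Subgroup.normalizer (A : Set G), ∃ y ∈ H ⊓ Subgroup.normalizer (A : Set G),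
      ∃ z ∈ Subgroup.normalizer (S : Set G) ⊓ Subgroup.normalizer (A : Set G), x = y * z := by
  intro x hx
  obtain ⟨y, hyH, hy⟩ := h2 x (h3 x hx)
  have hz0 : S.map (MulAut.conj (y⁻¹ * x)).toMonoidHom = S := by
    rw [map_conj_mul, hy, ← map_conj_mul, inv_mul_cancel, map_conj_one]
  have hA1 : A.map (MulAut.conj (y⁻¹ * x)).toMonoidHom ≤ S := by
    calc A.map (MulAut.conj (y⁻¹ * x)).toMonoidHom ≤ S.map (MulAut.conj (y⁻¹ * x)).toMonoidHom :=
        Subgroup.map_mono hAS
      _ = S := hz0
  obtain ⟨s, hs, hsA⟩ := h1 _ hA1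
  have hzA : A.map (MulAut.conj (s⁻¹ * (y⁻¹ * x))).toMonoidHom = A := by
    rw [map_conj_mul, hsA, ← map_conj_mul, inv_mul_cancel, map_conj_one]
  have hsS : S.map (MulAut.conj s).toMonoidHom = S := by
    rw [← mem_norm]
    exact Subgroup.le_normalizer hs
  have hzS : S.map (MulAut.conj (s⁻¹ * (y⁻¹ * x))).toMonoidHom = S := by
    rw [map_conj_mul, hz0]
    apply map_inj (x := s)
    rw [← map_conj_mul, hsS, mul_inv_cancel, map_conj_one]
  refine ⟨y * s, ⟨H.mul_mem hyH (hSH hs), ?_⟩, s⁻¹ * (y⁻¹ * x),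
    ⟨(mem_norm S _).mpr hzS, (mem_norm A _).mpr hzA⟩, by group⟩
  have : y * s = x * (s⁻¹ * (y⁻¹ * x))⁻¹ := by group
  rw [this]
  exact Subgroup.mul_mem _ hx (Subgroup.inv_mem _ ((mem_norm A _).mpr hzA))

end Cfsg.Agent.S4421
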