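import Cfsg.Statements.S4422
import Mathlib

set_option autoImplicit false
open Cfsg

namespace Cfsg.Agent.S4422

theorem prime_case (q e r : ℕ) (hq : 2 ≤ q) (he : 1 ≤ e) (hr : r.Prime)
    (hm : r ∣ q ^ e - 1) (hcop : ∀ i : ℕ, 1 ≤ i → i < e → Nat.Coprime r (q ^ i - 1)) :
    e ∣ r - 1 := by
  haveI : Fact r.Prime := ⟨hr⟩
  have h1 : ((q : ZMod r)) ^ e = 1 := by
    have h2 : ((q ^ e - 1 : ℕ) : ZMod r) = 0 := (ZMod.natCast_eq_zero_iff _ _).mpr hm
    rw [Nat.cast_sub (Nat.one_le_pow _ _ (by omega))] at h2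
    push_cast at h2
    exact sub_eq_zero.mp h2
  have hq0 : (q : ZMod r) ≠ 0 := by
    intro h
    rw [h, zero_pow (by omega)] at h1
    exact zero_ne_one h1
  have hord : orderOf (q : ZMod r) = e := by
    have hd := orderOf_dvd_of_pow_eq_one h1
    have hpos : 0 < orderOf (q : ZMod r) := Nat.pos_of_dvd_of_pos hd (by omega)
    have hle := Nat.le_of_dvd (by omega) hd
    by_contra hne
    have hlt : orderOf (q : ZMod r) < e := lt_of_le_of_ne hle hne
    have hc := hcop _ hpos hlt
    have h3 : ((q ^ orderOf (q : ZMod r) - 1 : ℕ) : ZMod r) = 0 := by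
      rw [Nat.cast_sub (Nat.one_le_pow _ _ (by omega))]
      push_cast
      rw [pow_orderOf_eq_one, sub_self]
    have h4 := (ZMod.natCast_eq_zero_iff _ _).mp h3
    exact hr.one_lt.ne' (Nat.eq_one_of_dvd_coprimes hc dvd_rfl h4)
  rw [← hord]
  exact orderOf_dvd_of_pow_eq_one (ZMod.pow_card_sub_one_eq_one hq0)

/-- Primitive divisors of `q^e - 1` are congruent to 1 modulo `e`. Let `q ≥ 2` and `e ≥ 1` be natural numbers and let `m` be a divisor of `q^e - 1` that is coprime to `q^i - 1` for every `1 ≤ i < e` (so `m` divides the primitive part of `q^e - 1`, the largest such divisor). Then `m ≡ 1 (mod e)`. -/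
theorem result (q e m : ℕ) (hq : 2 ≤ q) (he : 1 ≤ e)
    (hm : m ∣ q ^ e - 1) (hcop : ∀ i : ℕ, 1 ≤ i → i < e → Nat.Coprime m (q ^ i - 1)) :
    m % e = 1 % e := by
  have hpos : 0 < q ^ e - 1 := by
    have : 2 ^ 1 ≤ q ^ e := (Nat.pow_le_pow_left hq 1).trans (Nat.pow_le_pow_right (by omega) he)
    omega
  have hm0 : 0 < m := Nat.pos_of_dvd_of_pos hm hpos
  change m ≡ 1 [MOD e]
  induction m using Nat.strong_induction_on with
  | _ m ih =>
    rcases Nat.lt_or_ge 1 m with h | h
    · obtain ⟨r, hr, m', rfl⟩ := Nat.exists_prime_and_dvd h.ne'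
      have hm'0 : 0 < m' := Nat.pos_of_mul_pos_left hm0 |> fun _ => by
        rcases Nat.eq_zero_or_pos m' with h0 | h0
        · rw [h0] at hm0; simp at hm0
        · exact h0
      have h1 : m' ≡ 1 [MOD e] := by
        apply ih m' _ ((Dvd.intro_left r rfl).trans hm)
        · intro i hi hie
          exact Nat.Coprime.coprime_mul_left (hcop i hi hie)
        · exact hm'0
        · nlinarith [hr.two_le]
      have h2 : r ≡ 1 [MOD e] := by
        have := prime_case q e r hq he hr ((Dvd.intro m' rfl).trans hm)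
          (fun i hi hie => Nat.Coprime.coprime_mul_right (hcop i hi hie))
        exact ((Nat.modEq_iff_dvd' hr.one_lt.le).mpr this).symm
      simpa using h2.mul h1
    · have : m = 1 := by omega
      rw [this]

end Cfsg.Agent.S4422
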