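import Cfsg.Statements.S4423
import Mathlib
import Cfsg.Agent.LibCycListH12

set_option autoImplicit false
open Cfsg

namespace Cfsg.Agent.S4423

open CfsgLib.CycListH12 CfsgLib.CycTabH12

def Goal (q e : ℕ) : Prop := ∃ m : ℕ, m ∣ q ^ e - 1 ∧
  (∀ i : ℕ, 1 ≤ i → i < e → Nat.Coprime m (q ^ i - 1)) ∧ 3 * e + 1 ≤ m

theorem mk (q e m : ℕ) (h1 : m ∣ q ^ e - 1) (h2 : ∀ i < e, 1 ≤ i → Nat.Coprime m (q ^ i - 1))
    (h3 : 3 * e + 1 ≤ m) : Goal q e := ⟨m, h1, fun i hi hi' => h2 i hi' hi, h3⟩

theorem mod_one (e m : ℕ) (hm : m ≠ 0) (h : ∀ p : ℕ, p.Prime → p ∣ m → e ∣ p - 1) :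
    m ≡ 1 [MOD e] := by
  induction m using Nat.strong_induction_on with
  | _ m ih =>
    by_cases h1 : m = 1
    · rw [h1]
    · obtain ⟨p, hp, k, hk⟩ := Nat.exists_prime_and_dvd h1
      have hk0 : k ≠ 0 := by rintro rfl; rw [mul_zero] at hk; exact hm hk
      have hkm : k < m := by
        rw [hk]
        have := hp.two_le
        have : 0 < k := Nat.pos_of_ne_zero hk0
        nlinarith
      have h2 := ih k hkm hk0 (fun p' hp' hpk => h p' hp' (by rw [hk]; exact hpk.mul_left p))
      have h3 : p ≡ 1 [MOD e] := by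
        have h4 := h p hp ⟨k, hk⟩
        exact ((Nat.modEq_iff_dvd' hp.one_lt.le).mpr h4).symm
      rw [hk]
      exact (h3.mul h2)

theorem coprime_of (q e m : ℕ) (h : ∀ p : ℕ, p.Prime → p ∣ m → Prim q e p) :
    ∀ i : ℕ, 1 ≤ i → i < e → Nat.Coprime m (q ^ i - 1) := by
  intro i hi hi'
  apply Nat.Coprime.symm
  rw [Nat.coprime_iff_gcd_eq_one]
  by_contra hne
  obtain ⟨p, hp, hd⟩ := Nat.exists_prime_and_dvd hne
  exact h p hp (hd.trans (Nat.gcd_dvd_right _ _)) i hi hi' (hd.trans (Nat.gcd_dvd_left _ _))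

theorem case_big (q e : ℕ) (hq : 2 ≤ q) (he : 3 ≤ e) (hbig : e * (2 * e + 1) < P q e) :
    Goal q e := by
  have hN := P_pos q e hq
  have hdvd := P_dvd q e hq (by omega)
  rcases nonprim q e hq he with hall | ⟨r, hr, hrn, hrP, hr2, hoth⟩
  · exact ⟨P q e, hdvd, coprime_of q e _ hall, by nlinarith⟩
  · obtain ⟨m, hm⟩ := hrP
    have hrle : r ≤ e := Nat.le_of_dvd (by omega) hrn
    have hm0 : m ≠ 0 := by rintro rfl; rw [mul_zero] at hm; omega
    have hrm : ¬ r ∣ m := fun h => hr2 (by rw [hm, pow_two]; exact Nat.mul_dvd_mul_left r h)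
    have hmP : m ∣ P q e := ⟨r, by rw [hm, mul_comm]⟩
    have hmp : ∀ p, p.Prime → p ∣ m → Prim q e p := fun p hp hpm =>
      hoth p hp (hpm.trans hmP) (by rintro rfl; exact hrm hpm)
    refine ⟨m, hmP.trans hdvd, coprime_of q e m hmp, ?_⟩
    have h1 : m ≡ 1 [MOD e] := mod_one e m hm0 (fun p hp hpm =>
      prim_mod q e p hq (by omega) hp ((hpm.trans hmP).trans hdvd) (hmp p hp hpm))
    have h2 : 2 * e + 1 < m := by
      by_contra hlt
      push Not at hlt
      have : r * m ≤ e * (2 * e + 1) := Nat.mul_le_mul hrle hlt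
      omega
    have h3 : e ∣ m - 1 := (Nat.modEq_iff_dvd' (by omega)).mp h1.symm
    obtain ⟨k, hk⟩ := h3
    have h4 : 3 ≤ k := by
      by_contra hlt
      push Not at hlt
      have : e * k ≤ e * 2 := Nat.mul_le_mul_left _ (by omega)
      omega
    have h5 : e * 3 ≤ e * k := Nat.mul_le_mul_left _ h4
    omega

theorem fin_le {m M K : ℕ} (hK : Nat.Coprime m K) (h : m ∣ M * K) (hM : 0 < M) : m ≤ M :=
  Nat.le_of_dvd hM (hK.dvd_of_dvd_mul_right h)

theorem main1 (q e : ℕ) (hq : 2 ≤ q) (hqp : IsPrimePow q) (he : 3 ≤ e)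
    (hex : (q, e) ∉ [(2, 6), (2, 4), (2, 10), (2, 12), (2, 18), (3, 4), (3, 6), (5, 6), (2, 3), (2, 8), (2, 20), (4, 3), (4, 6)]) :
    Goal q e := by
  rcases Nat.lt_or_ge (e * (2 * e + 1)) (P q e) with hb | hs
  · exact case_big q e hq he hb
  · rcases small_list q e hq he hs with ⟨rfl, h⟩ | ⟨rfl, h⟩ | ⟨rfl, h⟩ | ⟨rfl, h⟩ | ⟨rfl, h6, h9⟩
    · simp only [List.mem_cons, List.not_mem_nil, or_false] at h
      rcases h with rfl | rfl | rfl | rfl | rfl | rfl | rfl | rfl | rfl | rfl | rfl | rfl | rfl | rfl | rfl | rfl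
      · exact absurd (by decide) hex
      · exact absurd (by decide) hex
      · exact mk 2 5 31 (by norm_num) (by decide) (by norm_num)
      · exact absurd (by decide) hex
      · exact absurd (by decide) hex
      · exact mk 2 9 73 (by norm_num) (by decide +kernel) (by norm_num)
      · exact absurd (by decide) hex
      · exact absurd (by decide) hex
      · exact mk 2 14 43 (by norm_num) (by decide +kernel) (by norm_num)
      · exact mk 2 15 151 (by norm_num) (by decide +kernel) (by norm_num)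
      · exact mk 2 16 257 (by norm_num) (by decide +kernel) (by norm_num)
      · exact absurd (by decide) hex
      · exact absurd (by decide) hex
      · exact mk 2 22 683 (by norm_num) (by decide +kernel) (by norm_num)
      · exact mk 2 24 241 (by norm_num) (by decide +kernel) (by norm_num)
      · exact mk 2 30 331 (by norm_num) (by decide +kernel) (by norm_num)
    · simp only [List.mem_cons, List.not_mem_nil, or_false] at h
      rcases h with rfl | rfl | rfl | rfl | rfl | rfl
      · exact mk 3 3 13 (by norm_num) (by decide) (by norm_num)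
      · exact absurd (by decide) hex
      · exact absurd (by decide) hex
      · exact mk 3 8 41 (by norm_num) (by decide +kernel) (by norm_num)
      · exact mk 3 10 61 (by norm_num) (by decide +kernel) (by norm_num)
      · exact mk 3 12 73 (by norm_num) (by decide +kernel) (by norm_num)
    · simp only [List.mem_cons, List.not_mem_nil, or_false] at h
      rcases h with rfl | rfl | rfl | rfl | rfl
      · exact absurd (by decide) hex
      · exact mk 4 4 17 (by norm_num) (by decide) (by norm_num)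
      · exact absurd (by decide) hex
      · exact mk 4 10 41 (by norm_num) (by decide +kernel) (by norm_num)
      · exact mk 4 12 241 (by norm_num) (by decide +kernel) (by norm_num)
    · simp only [List.mem_cons, List.not_mem_nil, or_false] at h
      rcases h with rfl | rfl
      · exact mk 5 4 13 (by norm_num) (by decide) (by norm_num)
      · exact absurd (by decide) hex
    · interval_cases q
      · exact mk 6 6 31 (by norm_num) (by decide +kernel) (by norm_num)
      · exact mk 7 6 43 (by norm_num) (by decide +kernel) (by norm_num)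
      · exact mk 8 6 19 (by norm_num) (by decide +kernel) (by norm_num)
      · exact mk 9 6 73 (by norm_num) (by decide +kernel) (by norm_num)

theorem main2 (q e : ℕ) (hex : (q, e) ∈ [(2, 6), (2, 4), (2, 10), (2, 12), (2, 18), (3, 4), (3, 6), (5, 6), (2, 3), (2, 8), (2, 20), (4, 3), (4, 6)])
    (m : ℕ) (hm : m ∣ q ^ e - 1) (hc : ∀ i : ℕ, 1 ≤ i → i < e → Nat.Coprime m (q ^ i - 1)) :
    m ≤ 2 * e + 1 := by
  simp only [List.mem_cons, List.not_mem_nil, or_false, Prod.mk.injEq] at hex
  rcases hex with ⟨rfl, rfl⟩ | ⟨rfl, rfl⟩ | ⟨rfl, rfl⟩ | ⟨rfl, rfl⟩ | ⟨rfl, rfl⟩ | ⟨rfl, rfl⟩ | ⟨rfl, rfl⟩ | ⟨rfl, rfl⟩ | ⟨rfl, rfl⟩ | ⟨rfl, rfl⟩ | ⟨rfl, rfl⟩ | ⟨rfl, rfl⟩ | ⟨rfl, rfl⟩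
  · have c2 : Nat.Coprime m 3 := hc 2 (by norm_num) (by norm_num)
    have c3 : Nat.Coprime m 7 := hc 3 (by norm_num) (by norm_num)
    have := fin_le (M := 1) (K := 3 * 3 * 7) ((c2.mul_right c2).mul_right c3) (by norm_num at hm ⊢; exact hm) (by norm_num)
    omega
  · have c2 : Nat.Coprime m 3 := hc 2 (by norm_num) (by norm_num)
    have := fin_le (M := 5) (K := 3) c2 (by norm_num at hm ⊢; exact hm) (by norm_num)
    omega
  · have c2 : Nat.Coprime m 3 := hc 2 (by norm_num) (by norm_num)
    have c3 : Nat.Coprime m 31 := hc 5 (by norm_num) (by norm_num)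
    have := fin_le (M := 11) (K := 3 * 31) (c2.mul_right c3) (by norm_num at hm ⊢; exact hm) (by norm_num)
    omega
  · have c2 : Nat.Coprime m 3 := hc 2 (by norm_num) (by norm_num)
    have c3 : Nat.Coprime m 7 := hc 3 (by norm_num) (by norm_num)
    have c4 : Nat.Coprime m 15 := hc 4 (by norm_num) (by norm_num)
    have := fin_le (M := 13) (K := 3 * 7 * 15) ((c2.mul_right c3).mul_right c4) (by norm_num at hm ⊢; exact hm) (by norm_num)
    omega
  · have c2 : Nat.Coprime m 3 := hc 2 (by norm_num) (by norm_num)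
    have c3 : Nat.Coprime m 511 := hc 9 (by norm_num) (by norm_num)
    have := fin_le (M := 19) (K := 3 * 3 * 3 * 511) (((c2.mul_right c2).mul_right c2).mul_right c3) (by norm_num at hm ⊢; exact hm) (by norm_num)
    omega
  · have c2 : Nat.Coprime m 2 := hc 1 (by norm_num) (by norm_num)
    have := fin_le (M := 5) (K := 2 ^ 4) (c2.pow_right 4) (by norm_num at hm ⊢; exact hm) (by norm_num)
    omega
  · have c2 : Nat.Coprime m 2 := hc 1 (by norm_num) (by norm_num)
    have c3 : Nat.Coprime m 26 := hc 3 (by norm_num) (by norm_num)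
    have := fin_le (M := 7) (K := 2 ^ 2 * 26) ((c2.pow_right 2).mul_right c3) (by norm_num at hm ⊢; exact hm) (by norm_num)
    omega
  · have c2 : Nat.Coprime m 24 := hc 2 (by norm_num) (by norm_num)
    have c3 : Nat.Coprime m 124 := hc 3 (by norm_num) (by norm_num)
    have c1 : Nat.Coprime m 3 := Nat.Coprime.coprime_dvd_right (by norm_num) c2
    have c0 : Nat.Coprime m 6 := Nat.Coprime.coprime_dvd_right (by norm_num) c2
    have := fin_le (M := 7) (K := 3 * 6 * 124) ((c1.mul_right c0).mul_right c3) (by norm_num at hm ⊢; exact hm) (by norm_num)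
    omega
  · have := Nat.le_of_dvd (by norm_num) hm
    omega
  · have c2 : Nat.Coprime m 15 := hc 4 (by norm_num) (by norm_num)
    have := fin_le (M := 17) (K := 15) c2 (by norm_num at hm ⊢; exact hm) (by norm_num)
    omega
  · have c2 : Nat.Coprime m 15 := hc 4 (by norm_num) (by norm_num)
    have c3 : Nat.Coprime m 1023 := hc 10 (by norm_num) (by norm_num)
    have c5 : Nat.Coprime m 5 := Nat.Coprime.coprime_dvd_right (by norm_num) c2
    have := fin_le (M := 41) (K := 5 * 5 * 1023) ((c5.mul_right c5).mul_right c3) (by norm_num at hm ⊢; exact hm) (by norm_num)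
    omega
  · have c2 : Nat.Coprime m 3 := hc 1 (by norm_num) (by norm_num)
    have := fin_le (M := 7) (K := 3 * 3) (c2.mul_right c2) (by norm_num at hm ⊢; exact hm) (by norm_num)
    omega
  · have c2 : Nat.Coprime m 15 := hc 2 (by norm_num) (by norm_num)
    have c3 : Nat.Coprime m 63 := hc 3 (by norm_num) (by norm_num)
    have c5 : Nat.Coprime m 5 := Nat.Coprime.coprime_dvd_right (by norm_num) c2
    have := fin_le (M := 13) (K := 5 * 63) (c5.mul_right c3) (by norm_num at hm ⊢; exact hm) (by norm_num)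
    omega


/-- Size of the primitive part of `q^e - 1`. For a prime power `q` and `e ≥ 3`, call a divisor of `q^e - 1` primitive when it is coprime to `q^i - 1` for every `1 ≤ i < e`; the primitive part is the largest primitive divisor. Apart from thirteen exceptional pairs, the primitive part is at least `3e + 1`: there is a primitive divisor `m ≥ 3e + 1` unless `(q, e)` is `(2, 6)` (where every primitive divisor is 1), one of `(2,4), (2,10), (2,12), (2,18), (3,4), (3,6), (5,6)` (where the primitive part is exactly `e + 1`), or one of `(2,3), (2,8), (2,20), (4,3), (4,6)` (where it is exactly `2e + 1`). The statement asserts the existence of a primitive divisor `m ≥ 3e + 1` outside the thirteen pairs, and that every primitive divisor is at most `2e + 1` for the thirteen pairs. -/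
theorem result (q e : ℕ) (hq : IsPrimePow q) (he : 3 ≤ e) :
    ((q, e) ∉ [(2, 6), (2, 4), (2, 10), (2, 12), (2, 18), (3, 4), (3, 6), (5, 6), (2, 3), (2, 8), (2, 20), (4, 3), (4, 6)] →
      ∃ m : ℕ, m ∣ q ^ e - 1 ∧ (∀ i : ℕ, 1 ≤ i → i < e → Nat.Coprime m (q ^ i - 1)) ∧ 3 * e + 1 ≤ m) ∧
    ((q, e) ∈ [(2, 6), (2, 4), (2, 10), (2, 12), (2, 18), (3, 4), (3, 6), (5, 6), (2, 3), (2, 8), (2, 20), (4, 3), (4, 6)] →
      ∀ m : ℕ, m ∣ q ^ e - 1 → (∀ i : ℕ, 1 ≤ i → i < e → Nat.Coprime m (q ^ i - 1)) → m ≤ 2 * e + 1) := by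
  exact ⟨fun h => main1 q e hq.two_le hq he h, fun h m hm hc => main2 q e h m hm hc⟩

end Cfsg.Agent.S4423
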