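import Cfsg.Statements.S4424
import Cfsg.Agent.LibBlockReg2

set_option autoImplicit false
open Cfsg

namespace Cfsg.Agent.S4424

/-- Let χ be an irreducible character of the finite group G lying in the p-block B (relative to a maximal ideal M of the algebraic integers containing p), and let p^a be the p-part of the order of G. Then the class function that equals p^a · χ on the p-regular elements and vanishes on the p-singular elements is an integer combination of the irreducible characters in B: there are integers a_ψ, zero for ψ outside B, with that function equal to Σ a_ψ ψ. -/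
theorem result {G : Type*} [Group G] [Finite G] (p : ℕ) [Fact p.Prime] (M : Ideal Cfsg.AlgInt) (hM : Cfsg.IsPModular p M) (B : Set (Cfsg.IrrCharacter G)) (hB : Cfsg.IsPBlock M B) (χ : Cfsg.IrrCharacter G) (hχ : χ ∈ B) : ∃ a : Cfsg.IrrCharacter G → ℤ, (∀ ψ, ψ ∉ B → a ψ = 0) ∧ (fun x : G => if p ∣ orderOf x then (0 : ℂ) else ((p ^ (Nat.card G).factorization p : ℕ) : ℂ) * (χ : G → ℂ) x) = fun x => ∑ᶠ ψ : Cfsg.IrrCharacter G, (a ψ : ℂ) * (ψ : G → ℂ) x := by
  classical
  letI := Fintype.ofFinite G
  have hfun : (fun x : G => if p ∣ orderOf x then (0 : ℂ) else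
      ((p ^ (Nat.card G).factorization p : ℕ) : ℂ) * (χ : G → ℂ) x) =
      ((p ^ (Nat.card G).factorization p : ℕ) : ℂ) • CfsgLib.BlockReg2.reg p (χ : G → ℂ) := by
    funext x
    rw [Pi.smul_apply, smul_eq_mul]
    by_cases hx : p ∣ orderOf x
    · rw [if_pos hx, CfsgLib.BlockReg2.reg_not hx, mul_zero]
    · rw [if_neg hx, CfsgLib.BlockReg2.reg_of hx]
  have hint := fun ψ => CfsgLib.BlockReg2.inner_int (p := p) χ ψ
  choose a ha using hint
  refine ⟨a, ?_, ?_⟩
  · intro ψ hψ
    have h1 : ¬ Cfsg.SameBlock M (χ : G → ℂ) (ψ : G → ℂ) := fun h =>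
      hψ (CfsgLib.BlockIdem.mem_of_sameBlock (CfsgLib.BlockR.isPrime_of_modular hM) hB hχ h)
    have h2 := ha ψ
    rw [CfsgLib.CharNorm.ci_smul_l, CfsgLib.BlockReg2.inner_reg_zero hM h1, mul_zero] at h2
    exact_mod_cast h2.symm
  · rw [hfun]
    funext x
    rw [finsum_eq_sum_of_fintype, CfsgLib.CharBasic.classFun_expand_apply
      (CfsgLib.CharBasic.classFun_smul _ (CfsgLib.BlockReg2.reg_classFun
        (CfsgLib.CharBasic.irr_classFun χ.2))) x]
    apply Finset.sum_congr rfl
    intro ψ _
    rw [ha ψ]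

end Cfsg.Agent.S4424
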