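import Cfsg.Statements.S4426
import Cfsg.Agent.LibBlockReg2

set_option autoImplicit false
open Cfsg

namespace Cfsg.Agent.S4426

/-- Let χ be an irreducible character in the p-block B of the finite group G (relative to a maximal ideal M of the algebraic integers containing p), let p^a be the p-part of the order of G, and let χ̃ be the class function equal to p^a · χ on p-regular elements and zero elsewhere. For ξ ∈ B the inner product [χ̃, ξ] is an integer. The following are equivalent: (a) χ has height zero in B; (b) for some ξ ∈ B the integer [χ̃, ξ] is nonzero and the exact power of p dividing it equals the exact power of p dividing ξ(1); (c) the same holds for every ξ ∈ B. -/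
theorem result {G : Type*} [Group G] [Fintype G] (p : ℕ) [Fact p.Prime] (M : Ideal Cfsg.AlgInt) (hM : Cfsg.IsPModular p M) (B : Set (Cfsg.IrrCharacter G)) (hB : Cfsg.IsPBlock M B) (χ : Cfsg.IrrCharacter G) (hχ : χ ∈ B) : (Cfsg.blockHeight p B (χ : G → ℂ) = 0 ↔ ∃ ξ ∈ B, ∃ n : ℤ, Cfsg.classInner (fun x : G => if p ∣ orderOf x then (0 : ℂ) else ((p ^ (Nat.card G).factorization p : ℕ) : ℂ) * (χ : G → ℂ) x) (ξ : G → ℂ) = (n : ℂ) ∧ n ≠ 0 ∧ padicValInt p n = (Cfsg.charDegree (ξ : G → ℂ)).factorization p) ∧ (Cfsg.blockHeight p B (χ : G → ℂ) = 0 ↔ ∀ ξ ∈ B, ∃ n : ℤ, Cfsg.classInner (fun x : G => if p ∣ orderOf x then (0 : ℂ) else ((p ^ (Nat.card G).factorization p : ℕ) : ℂ) * (χ : G → ℂ) x) (ξ : G → ℂ) = (n : ℂ) ∧ n ≠ 0 ∧ padicValInt p n = (Cfsg.charDegree (ξ : G → ℂ)).factorization p) := by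
  classical
  have hp := CfsgLib.BlockR.isPrime_of_modular hM
  have hfun : (fun x : G => if p ∣ orderOf x then (0 : ℂ) else
      ((p ^ (Nat.card G).factorization p : ℕ) : ℂ) * (χ : G → ℂ) x) =
      ((p ^ (Nat.card G).factorization p : ℕ) : ℂ) • CfsgLib.BlockReg2.reg p (χ : G → ℂ) := by
    funext x
    rw [Pi.smul_apply, smul_eq_mul]
    by_cases hx : p ∣ orderOf x
    · rw [if_pos hx, CfsgLib.BlockReg2.reg_not hx, mul_zero]
    · rw [if_neg hx, CfsgLib.BlockReg2.reg_of hx]
  rw [hfun]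
  -- translation of the arithmetic condition
  have key : ∀ ξ ∈ B, (∃ n : ℤ, Cfsg.classInner (((p ^ (Nat.card G).factorization p : ℕ) : ℂ) •
      CfsgLib.BlockReg2.reg p (χ : G → ℂ)) (ξ : G → ℂ) = (n : ℂ) ∧ n ≠ 0 ∧
      padicValInt p n = (Cfsg.charDegree (ξ : G → ℂ)).factorization p) ↔
      Cfsg.blockHeight p B (χ : G → ℂ) = 0 := by
    intro ξ hξ
    rw [← CfsgLib.BlockReg2.unit_iff_height_zero hM hB hχ hξ]
    obtain ⟨n, hn⟩ := CfsgLib.BlockReg2.inner_int (p := p) χ ξ
    have hR := CfsgLib.BlockReg2.inner_div_ring hM χ ξ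
    rw [hn] at hR ⊢
    have hd : Cfsg.charDegree (ξ : G → ℂ) ≠ 0 := (CfsgLib.CharInt.irr_charDegree_pos ξ.2).ne'
    have hval : n ≠ 0 → padicValInt p n = n.natAbs.factorization p := by
      intro h0
      unfold padicValInt
      rw [Nat.factorization_def _ Fact.out]
    -- replace n by its absolute value
    have habs : ∀ n : ℤ, (Cfsg.MemLocalRing M ((n : ℂ) / (Cfsg.charDegree (ξ : G → ℂ) : ℂ)) ↔
        Cfsg.MemLocalRing M ((n.natAbs : ℂ) / (Cfsg.charDegree (ξ : G → ℂ) : ℂ))) ∧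
        (Cfsg.MemLocalIdeal M ((n : ℂ) / (Cfsg.charDegree (ξ : G → ℂ) : ℂ)) ↔
        Cfsg.MemLocalIdeal M ((n.natAbs : ℂ) / (Cfsg.charDegree (ξ : G → ℂ) : ℂ))) := by
      intro n
      rcases Int.natAbs_eq n with h | h
      · have h1 : ((n : ℤ) : ℂ) = (n.natAbs : ℂ) := by
          conv_lhs => rw [h]
          exact Int.cast_natCast _
        rw [h1]
        exact ⟨Iff.rfl, Iff.rfl⟩
      · have h1 : ((n : ℤ) : ℂ) = -(n.natAbs : ℂ) := by
          conv_lhs => rw [h]
          rw [Int.cast_neg, Int.cast_natCast]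
        rw [h1, neg_div]
        refine ⟨⟨fun h2 => ?_, CfsgLib.BlockR.ring_neg⟩, ⟨fun h2 => ?_, CfsgLib.BlockR.ideal_neg⟩⟩
        · have := CfsgLib.BlockR.ring_neg h2
          rwa [neg_neg] at this
        · have := CfsgLib.BlockR.ideal_neg h2
          rwa [neg_neg] at this
    constructor
    · rintro ⟨m, hm, hm0, hmv⟩
      have hnm : n = m := by exact_mod_cast hm
      subst hnm
      rw [(habs n).2, CfsgLib.BlockDefect.ideal_div_nat_iff hM (Int.natAbs_ne_zero.mpr hm0) hd,
        ← hval hm0, hmv]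
      exact lt_irrefl _
    · intro h
      have hn0 : n ≠ 0 := by
        rintro rfl
        apply h
        rw [Int.cast_zero, zero_div]
        exact CfsgLib.BlockR.ideal_zero hp
      refine ⟨n, rfl, hn0, ?_⟩
      rw [(habs n).2, CfsgLib.BlockDefect.ideal_div_nat_iff hM (Int.natAbs_ne_zero.mpr hn0) hd] at h
      rw [(habs n).1, CfsgLib.BlockDefect.ring_div_nat_iff hM (Int.natAbs_ne_zero.mpr hn0) hd]
        at hR
      rw [hval hn0]
      omega
  constructor
  · constructor
    · intro h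
      exact ⟨χ, hχ, (key χ hχ).mpr h⟩
    · rintro ⟨ξ, hξ, h⟩
      exact (key ξ hξ).mp h
  · constructor
    · intro h ξ hξ
      exact (key ξ hξ).mpr h
    · intro h
      exact (key χ hχ).mp (h χ hχ)

end Cfsg.Agent.S4426
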