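import Cfsg.Statements.S4430
import Cfsg.Agent.LibBlockH

set_option autoImplicit false
open Cfsg

namespace Cfsg.Agent.S4430

/-- Let H be a subgroup of the finite group G, b a block of H whose induced block B₀ in G is defined (relative to a maximal ideal M of the algebraic integers containing p), and ξ ∈ b. For a block B of G let n_B be the value at 1 of the B-part of the induced character ξ^G (a natural number: the sum over χ ∈ B of the multiplicity of χ in ξ^G times χ(1)). Then for B = B₀ the exact power of p dividing n_B equals the exact power of p dividing ξ^G(1), while for every other block B either n_B = 0 or n_B is divisible by a strictly higher power of p than ξ^G(1). -/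
theorem result {G : Type*} [Group G] [Fintype G] (p : ℕ) [Fact p.Prime] (M : Ideal Cfsg.AlgInt) (hM : Cfsg.IsPModular p M) (H : Subgroup G) [Fintype H] (b : Set (Cfsg.IrrCharacter H)) (B₀ : Set (Cfsg.IrrCharacter G)) (hind : Cfsg.IsInducedBlock M H b B₀) (ξ : Cfsg.IrrCharacter H) (hξ : ξ ∈ b) : (∃ n : ℕ, Cfsg.blockPart B₀ (Cfsg.indFun H (ξ : H → ℂ)) 1 = (n : ℂ) ∧ n ≠ 0 ∧ n.factorization p = (Cfsg.charDegree (Cfsg.indFun H (ξ : H → ℂ))).factorization p) ∧ ∀ B : Set (Cfsg.IrrCharacter G), Cfsg.IsPBlock M B → B ≠ B₀ → ∃ n : ℕ, Cfsg.blockPart B (Cfsg.indFun H (ξ : H → ℂ)) 1 = (n : ℂ) ∧ (n = 0 ∨ (Cfsg.charDegree (Cfsg.indFun H (ξ : H → ℂ))).factorization p < n.factorization p) := by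
  classical
  have hp := CfsgLib.BlockR.isPrime_of_modular hM
  obtain ⟨hd, hd0⟩ := CfsgLib.BlockH.ind_degree H ξ
  have hd' : (Cfsg.charDegree (Cfsg.indFun H (ξ : H → ℂ)) : ℂ) ≠ 0 := by exact_mod_cast hd0
  have key : ∀ B : Set (Cfsg.IrrCharacter G), Cfsg.IsPBlock M B → ∀ χ ∈ B₀,
      Cfsg.MemLocalIdeal M (Cfsg.blockPart B (Cfsg.indFun H (ξ : H → ℂ)) 1 /
        (Cfsg.charDegree (Cfsg.indFun H (ξ : H → ℂ)) : ℂ) - CfsgLib.BlockIdem.ind B χ) := by
    intro B hB χ hχ
    have h1 := CfsgLib.BlockInd.induced_val hp hind hξ hχ (CfsgLib.BlockIdem.AR_ind_block hp hB)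
    rw [CfsgLib.BlockH.blockPart_ind_one, hd] at h1
    exact h1
  obtain ⟨χ, hχ⟩ := CfsgLib.BlockIdem.block_nonempty hp hind.2.1
  constructor
  · obtain ⟨n, hn⟩ := CfsgLib.BlockH.blockPart_ind_nat H B₀ ξ
    have h1 := key B₀ hind.2.1 χ hχ
    rw [hn, CfsgLib.BlockIdem.ind_of hχ] at h1
    have h2 : ¬ Cfsg.MemLocalIdeal M ((n : ℂ) /
        (Cfsg.charDegree (Cfsg.indFun H (ξ : H → ℂ)) : ℂ)) := by
      intro h3
      apply CfsgLib.BlockR.not_ideal_one hp
      have := CfsgLib.BlockR.ideal_sub hp h3 h1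
      rwa [sub_sub_cancel] at this
    have hn0 : n ≠ 0 := by
      rintro rfl
      apply h2
      rw [Nat.cast_zero, zero_div]
      exact CfsgLib.BlockR.ideal_zero hp
    refine ⟨n, hn, hn0, ?_⟩
    have h3 : Cfsg.MemLocalRing M ((n : ℂ) /
        (Cfsg.charDegree (Cfsg.indFun H (ξ : H → ℂ)) : ℂ)) := by
      have := CfsgLib.BlockR.ring_add hp (CfsgLib.BlockR.ideal_ring h1)
        (CfsgLib.BlockR.ring_one hp)
      rwa [sub_add_cancel] at this
    rw [CfsgLib.BlockDefect.ideal_div_nat_iff hM hn0 hd0] at h2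
    rw [CfsgLib.BlockDefect.ring_div_nat_iff hM hn0 hd0] at h3
    omega
  · intro B hB hne
    obtain ⟨n, hn⟩ := CfsgLib.BlockH.blockPart_ind_nat H B ξ
    refine ⟨n, hn, ?_⟩
    have h1 := key B hB χ hχ
    have h2 : χ ∉ B := fun h => hne (CfsgLib.BlockIdem.block_eq_of_mem hp hB hind.2.1 h hχ)
    rw [hn, CfsgLib.BlockIdem.ind_not h2, sub_zero] at h1
    by_cases hn0 : n = 0
    · exact Or.inl hn0
    · exact Or.inr ((CfsgLib.BlockDefect.ideal_div_nat_iff hM hn0 hd0).mp h1)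

end Cfsg.Agent.S4430
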