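import Cfsg.Statements.S4440
import Cfsg.Agent.LibOsima20d

set_option autoImplicit false
set_option linter.all false
open Cfsg

namespace Cfsg.Agent.S4440

/-- Let G be a finite p-solvable group and fix a maximal ideal M of the algebraic integers containing p. Let U be a set of irreducible characters of G such that the class function Σ_{χ ∈ U} χ(1)·χ vanishes at every p-singular element of G. Then U is a union of p-blocks: if χ ∈ U and ψ lies in the same block as χ, then ψ ∈ U. -/
theorem result {G : Type*} [Group G] [Finite G] (p : ℕ) [Fact p.Prime] (M : Ideal Cfsg.AlgInt) (hM : Cfsg.IsPModular p M) (hsolv : Cfsg.IsPSolvable p G) (U : Set (Cfsg.IrrCharacter G)) (hU : ∀ x : G, p ∣ orderOf x → ∑ᶠ χ ∈ U, (χ : G → ℂ) 1 * (χ : G → ℂ) x = 0) (χ : Cfsg.IrrCharacter G) (hχ : χ ∈ U) (ψ : Cfsg.IrrCharacter G) (hψ : Cfsg.SameBlock M (χ : G → ℂ) (ψ : G → ℂ)) : ψ ∈ U := by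
  classical
  haveI := Fintype.ofFinite G
  have hfin : U.Finite := Set.toFinite U
  have hcoe : (hfin.toFinset : Set (IrrCharacter G)) = U := hfin.coe_toFinset
  have h := CfsgLib.Osima20.main (p := p) hM (Nat.card G) (G := G) rfl hsolv hfin.toFinset (by
    intro z hz
    have h1 := hU z hz
    rw [← hcoe, finsum_mem_coe_finset] at h1
    exact h1) χ (hfin.mem_toFinset.mpr hχ) ψ hψ
  exact hfin.mem_toFinset.mp h

end Cfsg.Agent.S4440
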