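import Cfsg.Statements.S4445
import Cfsg.Agent.LibGlaub2

set_option autoImplicit false
open Cfsg

namespace Cfsg.Agent.S4445

/-- Inside a finite group Γ let the solvable subgroup S normalise G with the orders of G and S coprime. Then the number of S-invariant irreducible characters of G (χ(s g s⁻¹) = χ(g) for all s ∈ S, g ∈ G) equals the number of conjugacy classes of G mapped to themselves by conjugation by every element of S. -/
theorem result {Γ : Type*} [Group Γ] [Fintype Γ] (G S : Subgroup Γ) [Fintype G] (hnorm : ∀ s ∈ S, ∀ g ∈ G, s * g * s⁻¹ ∈ G) (hcop : (Nat.card G).Coprime (Nat.card S)) (hsolv : Group.IsSolvable S) : Nat.card {χ : Cfsg.IrrCharacter G // (∀ s ∈ S, ∀ g g' : G, (g' : Γ) = s * g * s⁻¹ → (χ : G → ℂ) g' = (χ : G → ℂ) g)} = Nat.card {K : ConjClasses G // ∀ s ∈ S, ∀ g g' : G, (g' : Γ) = s * g * s⁻¹ → ConjClasses.mk g = K → ConjClasses.mk g' = K} := by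
  have h1 := CfsgLib.Glaub2.card_invariant_irr (CfsgLib.GlaubG.conjHom G S hnorm) hcop.symm hsolv
  have h2 := CfsgLib.Glaub2.card_invariant_classes (CfsgLib.GlaubG.conjHom G S hnorm) hcop.symm (Or.inl hsolv)
  have h3 : Nat.card {χ : Cfsg.IrrCharacter G // (∀ s ∈ S, ∀ g g' : G, (g' : Γ) = s * g * s⁻¹ → (χ : G → ℂ) g' = (χ : G → ℂ) g)} =
      Nat.card {χ : Cfsg.IrrCharacter G // CfsgLib.Glaub.Inv (CfsgLib.GlaubG.conjHom G S hnorm) (χ : G → ℂ)} :=
    Nat.card_congr (Equiv.subtypeEquivRight fun χ => (CfsgLib.GlaubG.inv_iff G S hnorm _).symm)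
  rw [h3, h1, ← h2]
  refine Nat.card_congr (Equiv.subtypeEquivRight fun K => ⟨fun h s hs g g' hg hK => ?_, fun h a g hK => ?_⟩)
  · have h4 := h ⟨s, hs⟩ g hK
    have h5 : CfsgLib.GlaubG.conjHom G S hnorm ⟨s, hs⟩ g = g' := Subtype.ext hg.symm
    rwa [h5] at h4
  · exact h a a.2 g _ rfl hK

end Cfsg.Agent.S4445
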