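import Cfsg.Statements.S4446
import Cfsg.Agent.LibCycCorr2

set_option autoImplicit false
set_option linter.all false
open Cfsg

namespace Cfsg.Agent.S4446

open CfsgLib.CycCorr CfsgLib.Extend CfsgLib.CharBasic CfsgLib.Clifford
open scoped ComplexConjugate

/-- Let the finite group Γ be generated by a normal subgroup G and a cyclic subgroup S of coprime orders, C = G ⊓ C(S), and let χ be an S-invariant irreducible character of G with canonical extension χ̂ to Γ (the extension whose determinantal order is coprime to the order of S). Then there are exactly one irreducible character β of C and one sign ε such that χ̂(c s) = ε β(c) for every c ∈ C and every generator s of S; this β is a constituent of the restriction of χ to C; distinct S-invariant χ give distinct β; and every irreducible character of C arises in this way. -/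
theorem result {Γ : Type*} [Group Γ] [Fintype Γ] (G S : Subgroup Γ) [Fintype G] (hnorm : ∀ s ∈ S, ∀ g ∈ G, s * g * s⁻¹ ∈ G) (hcop : (Nat.card G).Coprime (Nat.card S)) (htop : G ⊔ S = ⊤) (hcyc : IsCyclic S) (C : Subgroup Γ) [Fintype C] (hC : C = G ⊓ Subgroup.centralizer (S : Set Γ)) (hCG : C ≤ G) : (∀ (χ : Cfsg.IrrCharacter G) (χh : Cfsg.IrrCharacter Γ), (∀ s ∈ S, ∀ g g' : G, (g' : Γ) = s * g * s⁻¹ → (χ : G → ℂ) g' = (χ : G → ℂ) g) → (∀ g : G, (χh : Γ → ℂ) g = (χ : G → ℂ) g) → (Cfsg.detOrder (χh : Γ → ℂ)).Coprime (Nat.card S) → (∃! βε : Cfsg.IrrCharacter C × ℤ, (βε.2 = 1 ∨ βε.2 = -1) ∧ ∀ c : C, ∀ s : Γ, Subgroup.zpowers s = S → (χh : Γ → ℂ) ((c : Γ) * s) = (βε.2 : ℂ) * (βε.1 : C → ℂ) c) ∧ ∀ β : Cfsg.IrrCharacter C, ∀ ε : ℤ, (ε = 1 ∨ ε = -1) → (∀ c : C, ∀ s : Γ, Subgroup.zpowers s = S → (χh : Γ → ℂ) ((c : Γ) * s) = (ε : ℂ) * (β : C → ℂ) c) → Cfsg.classInner (fun c : C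 => (χ : G → ℂ) ⟨c, hCG c.2⟩) (β : C → ℂ) ≠ 0) ∧ (∀ (χ χ' : Cfsg.IrrCharacter G) (χh χh' : Cfsg.IrrCharacter Γ), (∀ s ∈ S, ∀ g g' : G, (g' : Γ) = s * g * s⁻¹ → (χ : G → ℂ) g' = (χ : G → ℂ) g) → (∀ s ∈ S, ∀ g g' : G, (g' : Γ) = s * g * s⁻¹ → (χ' : G → ℂ) g' = (χ' : G → ℂ) g) → (∀ g : G, (χh : Γ → ℂ) g = (χ : G → ℂ) g) → (∀ g : G, (χh' : Γ → ℂ) g = (χ' : G → ℂ) g) → (Cfsg.detOrder (χh : Γ → ℂ)).Coprime (Nat.card S) → (Cfsg.detOrder (χh' : Γ → ℂ)).Coprime (Nat.card S) → ∀ β : Cfsg.IrrCharacter C, ∀ ε ε' : ℤ, (ε = 1 ∨ ε = -1) → (ε' = 1 ∨ ε' = -1) → (∀ c : C, ∀ s : Γ, Subgroup.zpowers s = S → (χh : Γ → ℂ) ((c : Γ) * s) = (ε : ℂ) * (β : C → ℂ) c) → (∀ c : C, ∀ s : Γ, Subgroup.zpowers s = S → (χh' : Γ → ℂ) ((c : Γ) * s) = (ε' : ℂ) * (β : C → ℂ) c) → χ = χ') ∧ (∀ β : Cfsg.IrrCharacter C, ∃ (χ : Cfsg.IrrCharacter G) (χh : Cfsg.IrrCharacter Γ) (ε : ℤ), (∀ s ∈ S, ∀ g g' : G, (g'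 : Γ) = s * g * s⁻¹ → (χ : G → ℂ) g' = (χ : G → ℂ) g) ∧ (∀ g : G, (χh : Γ → ℂ) g = (χ : G → ℂ) g) ∧ (Cfsg.detOrder (χh : Γ → ℂ)).Coprime (Nat.card S) ∧ (ε = 1 ∨ ε = -1) ∧ ∀ c : C, ∀ s : Γ, Subgroup.zpowers s = S → (χh : Γ → ℂ) ((c : Γ) * s) = (ε : ℂ) * (β : C → ℂ) c) := by
  classical
  haveI hG : G.Normal := normal_of hnorm htop
  have hSG : ∀ {s : Γ}, Subgroup.zpowers s = S → s ∈ S := fun {s} hs => by rw [← hs]; exact Subgroup.mem_zpowers s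
  obtain ⟨s₀, hs₀⟩ := exists_gen hcyc
  refine ⟨?_, ?_, ?_⟩
  · intro χ χh hinv hext hdet
    obtain ⟨β, ε, hε, hall⟩ := exists_corr hcop htop C hC χ.2 χh.2 hext hdet hcyc
    refine ⟨⟨(β, ε), ⟨hε, fun c s hs => (hall s hs).2.2 c⟩, ?_⟩, ?_⟩
    · rintro ⟨β', ε'⟩ ⟨hε', h'⟩
      obtain ⟨h1, h2⟩ := corr_unique C hε' hε (fun c => by
        rw [← (hall s₀ hs₀).2.2 c]; exact (h' c s₀ hs₀).symm)
      exact Prod.ext h1 h2
    · intro β' ε' hε' h'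
      have h1 := mult_of_eq C (χh := (χh : Γ → ℂ)) β'.2 (fun c => h' c s₀ hs₀)
      refine below_of_mult C hC hCG (irr_isCharacter χh.2) hext (hSG hs₀) β'.2 ?_
      rw [h1]
      rcases hε' with h | h <;> rw [h] <;> norm_num
  · intro χ χ' χh χh' hinv hinv' hext hext' hdet hdet' β ε ε' hε hε' h h'
    apply Subtype.ext
    exact corr_inj hcop C hC χ.2 χh.2 hext hs₀ χ'.2 χh'.2 hext' β.2 hε hε' (fun c => h c s₀ hs₀) (fun c => h' c s₀ hs₀)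
  · -- counting
    have hsolv : Group.IsSolvable S := by
      rw [← hs₀]; infer_instance
    have h1 := CfsgLib.Glaub2.card_invariant_irr (CfsgLib.GlaubG.conjHom G S hnorm) hcop.symm hsolv
    have h2 : Nat.card (ConjClasses (CfsgLib.Glaub.fix (CfsgLib.GlaubG.conjHom G S hnorm))) = Nat.card (IrrCharacter C) := by
      rw [← CfsgLib.GlaubG.fix_eq G S hnorm C hC, card_irr]
      exact CfsgLib.Glaub2.card_conjClasses_congr (Subgroup.subgroupOfEquivOfLe hCG)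
    rw [h2] at h1
    have hex : ∀ χ : {χ : IrrCharacter G // CfsgLib.Glaub.Inv (CfsgLib.GlaubG.conjHom G S hnorm) (χ : G → ℂ)},
        ∃ (β : IrrCharacter C) (χh : IrrCharacter Γ) (ε : ℤ), (∀ g : G, (χh : Γ → ℂ) g = (χ.1 : G → ℂ) g) ∧
          (detOrder (χh : Γ → ℂ)).Coprime (Nat.card S) ∧ (ε = 1 ∨ ε = -1) ∧
          ∀ c : C, ∀ s : Γ, Subgroup.zpowers s = S → (χh : Γ → ℂ) ((c : Γ) * s) = (ε : ℂ) * (β : C → ℂ) c := by
      rintro ⟨χ, hχ⟩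
      have hinv := (CfsgLib.GlaubG.inv_iff G S hnorm (χ : G → ℂ)).mp hχ
      obtain ⟨χh, hχh, hext, hdet⟩ := canon_exists hcop htop χ.2 (inv_of htop (irr_classFun χ.2) hinv)
      obtain ⟨β, ε, hε, hall⟩ := exists_corr hcop htop C hC χ.2 hχh hext hdet hcyc
      exact ⟨β, ⟨χh, hχh⟩, ε, hext, hdet, hε, fun c s hs => (hall s hs).2.2 c⟩
    choose B Xh E hB1 hB2 hB3 hB4 using hex
    have hinj : Function.Injective B := by
      intro χ χ' hB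
      apply Subtype.ext
      apply Subtype.ext
      refine corr_inj hcop C hC χ.1.2 (Xh χ).2 (hB1 χ) hs₀ χ'.1.2 (Xh χ').2 (hB1 χ') (B χ).2 (hB3 χ) (hB3 χ')
        (fun c => hB4 χ c s₀ hs₀) (fun c => ?_)
      rw [hB]
      exact hB4 χ' c s₀ hs₀
    have hsurj : Function.Surjective B := by
      haveI := Fintype.ofFinite {χ : IrrCharacter G // CfsgLib.Glaub.Inv (CfsgLib.GlaubG.conjHom G S hnorm) (χ : G → ℂ)}
      have hbij := (Fintype.bijective_iff_injective_and_card B).mpr ⟨hinj, by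
        rw [← Nat.card_eq_fintype_card, ← Nat.card_eq_fintype_card]; exact h1⟩
      exact hbij.2
    intro β
    obtain ⟨χ, rfl⟩ := hsurj β
    exact ⟨χ.1, Xh χ, E χ, (CfsgLib.GlaubG.inv_iff G S hnorm (χ.1 : G → ℂ)).mp χ.2, hB1 χ, hB2 χ, hB3 χ, hB4 χ⟩

end Cfsg.Agent.S4446
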