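import Cfsg.Statements.S4451
import Cfsg.Agent.LibCycCorr2

set_option autoImplicit false
set_option linter.all false
open Cfsg

namespace Cfsg.Agent.S4451

open CfsgLib.CycCorr CfsgLib.Extend CfsgLib.CharBasic CfsgLib.Clifford
open scoped ComplexConjugate

theorem sum_pow_prime {R : Type*} [CommRing R] {p : ℕ} (hp : p.Prime) {ι : Type*} (s : Finset ι) (x : ι → R) :
    ∃ r : R, (∑ i ∈ s, x i) ^ p = ∑ i ∈ s, x i ^ p + p * r := by
  classical
  induction s using Finset.induction with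
  | empty => exact ⟨0, by simp [hp.ne_zero]⟩
  | insert i s hi ih =>
    obtain ⟨r, hr⟩ := ih
    obtain ⟨r', hr'⟩ := exists_add_pow_prime_eq hp (x i) (∑ i ∈ s, x i)
    rw [Finset.sum_insert hi, Finset.sum_insert hi]
    exact ⟨x i * (∑ i ∈ s, x i) * r' + r, by rw [hr', hr]; ring⟩

theorem char_int_congr {S : Type*} [Group S] [Finite S] {p : ℕ} (hp : p.Prime) {A : S → ℂ} (hA : IsCharacter S A) (x : S) {a b : ℤ}
    (ha : A x = a) (hb : A (x ^ p) = b) : (p : ℤ) ∣ a - b := by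
  obtain ⟨n, ρ, rfl⟩ := hA
  obtain ⟨e, ω, h1, h2⟩ := exists_diag_rep ρ x
  have h3 : ρ.character x = ∑ i, ω i := trace_of_diag e _ ω h2
  have h4 : ρ.character (x ^ p) = ∑ i, ω i ^ p := trace_of_diag e _ (fun i => (ω i) ^ p) (fun i => diag_pow ρ x (h2 i) p)
  have hint : ∀ i, IsIntegral ℤ (ω i) := fun i => ⟨Polynomial.X ^ orderOf x - 1, Polynomial.monic_X_pow_sub_C 1 (orderOf_pos x).ne', by
    simp [h1 i]⟩
  let w : Fin (Module.finrank ℂ (Fin n → ℂ)) → AlgInt := fun i => ⟨ω i, hint i⟩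
  obtain ⟨r, hr⟩ := sum_pow_prime hp Finset.univ w
  have h5 : (∑ i, ω i) ^ p = ∑ i, ω i ^ p + p * (r : ℂ) := by
    have := congrArg (fun y : AlgInt => (y : ℂ)) hr
    simpa [w] using this
  rw [← h3, ← h4, ha, hb] at h5
  have h6 : (p : ℤ) ∣ a ^ p - b := by
    apply CfsgLib.Glaub.dvd_int_of_pI hp
    refine ⟨1, fun h => hp.one_lt.ne' (Nat.dvd_one.mp h), r, r.2, ?_⟩
    push_cast
    rw [h5]; ring
  have h7 : (p : ℤ) ∣ a ^ p - a := by
    haveI : Fact p.Prime := ⟨hp⟩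
    rw [← ZMod.intCast_zmod_eq_zero_iff_dvd]
    push_cast
    rw [ZMod.pow_card, sub_self]
  have h8 : a - b = (a ^ p - b) - (a ^ p - a) := by ring
  rw [h8]
  exact dvd_sub h6 h7

/-- Let the finite group Γ be generated by a normal subgroup G and a cyclic subgroup S of coprime orders such that every non-identity element of S has the same centraliser C = G ⊓ C(S) in G. Let χ be an S-invariant irreducible character of G, χ̂ its canonical extension to Γ (determinantal order coprime to the order of S), and β the irreducible character of C with χ̂(c s) = ε₀ β(c) for c ∈ C and generators s of S (ε₀ = ±1). Then there are a sign ε = ±1, which may differ from ε₀, and a linear character μ of S with μ² = 1, such that: (a) χ̂(c x) = ε β(c) μ(x) for all c ∈ C and all x ∈ S other than 1; (b) the restriction of χ to C equals |S|·ϑ + ε β for some character ϑ of C or ϑ = 0; (c) |S| divides χ(1) − ε β(1). -/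
theorem result {Γ : Type*} [Group Γ] [Fintype Γ] (G S : Subgroup Γ) [Fintype G] (hnorm : ∀ s ∈ S, ∀ g ∈ G, s * g * s⁻¹ ∈ G) (hcop : (Nat.card G).Coprime (Nat.card S)) (htop : G ⊔ S = ⊤) (hcyc : IsCyclic S) (C : Subgroup Γ) [Fintype C] (hC : C = G ⊓ Subgroup.centralizer (S : Set Γ)) (hCG : C ≤ G) (hfpf : ∀ x ∈ S, x ≠ 1 → G ⊓ Subgroup.centralizer ({x} : Set Γ) = C) (χ : Cfsg.IrrCharacter G) (hinv : (∀ s ∈ S, ∀ g g' : G, (g' : Γ) = s * g * s⁻¹ → (χ : G → ℂ) g' = (χ : G → ℂ) g)) (χh : Cfsg.IrrCharacter Γ) (hext : (∀ g : G, (χh : Γ → ℂ) g = (χ : G → ℂ) g)) (hdet : (Cfsg.detOrder (χh : Γ → ℂ)).Coprime (Nat.card S)) (β : Cfsg.IrrCharacter C) (ε₀ : ℤ) (hε₀ : ε₀ = 1 ∨ ε₀ = -1) (hβ : ∀ c : C, ∀ s : Γ, Subgroup.zpowers s = S → (χh : Γ → ℂ) ((c : Γ) * s) = (ε₀ : ℂ) * (β : C → ℂ) c) : ∃ ε : ℤ, (ε = 1 ∨ ε = -1) ∧ (∃ μ : S → ℂ, Cfsg.IsCharacter S μ ∧ μ 1 = 1 ∧ (∀ x : S, μ x * μ x = 1) ∧ ∀ c : C, ∀ x : S, x ≠ 1 → (χh : Γ → ℂ) ((c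 : Γ) * x) = (ε : ℂ) * (β : C → ℂ) c * μ x) ∧ (∃ ϑ : C → ℂ, Cfsg.IsCharacter C ϑ ∧ (fun c : C => (χ : G → ℂ) ⟨c, hCG c.2⟩) = fun c => (Nat.card S : ℂ) * ϑ c + (ε : ℂ) * (β : C → ℂ) c) ∧ (Nat.card S : ℤ) ∣ (Cfsg.charDegree (χ : G → ℂ) : ℤ) - ε * (Cfsg.charDegree (β : C → ℂ) : ℤ) := by
  classical
  haveI hG : G.Normal := normal_of hnorm htop
  haveI := Fintype.ofFinite S
  have hcomm := comm_of C hC
  obtain ⟨s₀, hs₀⟩ := exists_gen hcyc
  have hs₀S : s₀ ∈ S := by rw [← hs₀]; exact Subgroup.mem_zpowers s₀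
  have hab : ∀ a b : S, a * b = b * a := by
    intro a b
    obtain ⟨g, hg⟩ := hcyc.exists_generator
    obtain ⟨i, rfl⟩ := Subgroup.mem_zpowers_iff.mp (hg a)
    obtain ⟨j, rfl⟩ := Subgroup.mem_zpowers_iff.mp (hg b)
    rw [← zpow_add, ← zpow_add, add_comm]
  have hAc : ∀ β' : IrrCharacter C, IsCharacter S (fun a : S => mult C (χh : Γ → ℂ) (β' : C → ℂ) a) :=
    fun β' => mult_isCharacter C S hcomm (irr_isCharacter χh.2) (irr_isCharacter β'.2)
  choose z hz using fun (β' : IrrCharacter C) (a : S) => mult_int hcop htop χ.2 χh.2 hext hdet C hCG hcomm β'.2 (a : Γ) a.2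
  have hA1 : ∀ β' : IrrCharacter C, mult C (χh : Γ → ℂ) (β' : C → ℂ) 1 = classInner (fun c : C => (χ : G → ℂ) ⟨c, hCG c.2⟩) (β' : C → ℂ) := by
    intro β'
    rw [mult_one]
    congr 1
    ext c
    exact hext ⟨c, hCG c.2⟩
  have hcf : IsClassFunction C (fun c : C => (χ : G → ℂ) ⟨c, hCG c.2⟩) := by
    intro c d
    exact irr_classFun χ.2 ⟨c, hCG c.2⟩ ⟨d, hCG d.2⟩
  -- degrees
  have hdegχ : ((charDegree (χ : G → ℂ) : ℕ) : ℂ) = (χ : G → ℂ) 1 := (CfsgLib.CharInt.irr_one_eq_charDegree χ.2).symm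
  have hdegβ : ((charDegree (β : C → ℂ) : ℕ) : ℂ) = (β : C → ℂ) 1 := (CfsgLib.CharInt.irr_one_eq_charDegree β.2).symm
  have final : ∀ ε : ℤ, (∃ ϑ : C → ℂ, Cfsg.IsCharacter C ϑ ∧ (fun c : C => (χ : G → ℂ) ⟨c, hCG c.2⟩) = fun c => (Nat.card S : ℂ) * ϑ c + (ε : ℂ) * (β : C → ℂ) c) →
      (Nat.card S : ℤ) ∣ (Cfsg.charDegree (χ : G → ℂ) : ℤ) - ε * (Cfsg.charDegree (β : C → ℂ) : ℤ) := by
    rintro ε ⟨ϑ, hϑ, heq⟩
    obtain ⟨n, hn⟩ := char_one_nat hϑ
    refine ⟨n, ?_⟩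
    have h1 := congrFun heq 1
    have h2 : (χ : G → ℂ) 1 = (Nat.card S : ℂ) * ϑ 1 + (ε : ℂ) * (β : C → ℂ) 1 := h1
    rw [← hdegχ, ← hdegβ, hn] at h2
    have h3 : (charDegree (χ : G → ℂ) : ℤ) = (Nat.card S : ℤ) * n + ε * charDegree (β : C → ℂ) := by exact_mod_cast h2
    rw [h3]; ring
  by_cases hS1 : Nat.card S = 1
  · -- trivial operators
    have hSbot : S = ⊥ := Subgroup.eq_bot_of_card_eq S hS1
    have hs1 : Subgroup.zpowers (1 : Γ) = S := by rw [hSbot]; exact Subgroup.zpowers_one_eq_bot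
    have hCG' : C = G := by
      rw [hC, hSbot]
      ext x
      rw [Subgroup.mem_inf]
      refine ⟨fun h => h.1, fun h => ⟨h, ?_⟩⟩
      rw [Subgroup.mem_centralizer_iff]
      intro y hy
      have : y = 1 := hy
      rw [this]; simp
    have h1 : ∀ c : C, (χ : G → ℂ) ⟨c, hCG c.2⟩ = ε₀ * (β : C → ℂ) c := by
      intro c
      have := hβ c 1 hs1
      rw [mul_one] at this
      rw [← this]
      exact (hext ⟨c, hCG c.2⟩).symm
    have hε1 : ε₀ = 1 := by
      have h2 := h1 1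
      have h3 : (χ : G → ℂ) 1 = ε₀ * (β : C → ℂ) 1 := h2
      obtain ⟨d, hd0, hd⟩ := irr_one_nat β.2
      obtain ⟨d', hd0', hd'⟩ := irr_one_nat χ.2
      rw [hd, hd'] at h3
      have h4 : (d' : ℤ) = ε₀ * d := by exact_mod_cast h3
      rcases hε₀ with h | h
      · exact h
      · rw [h] at h4; omega
    refine ⟨1, Or.inl rfl, ⟨fun _ => 1, isCharacter_one, rfl, fun _ => by norm_num, ?_⟩, ?_, ?_⟩
    · intro c x hx
      exfalso
      apply hx
      have : (x : Γ) ∈ (⊥ : Subgroup Γ) := by rw [← hSbot]; exact x.2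
      exact Subtype.ext (Subgroup.mem_bot.mp this)
    · refine ⟨0, isCharacter_zero, ?_⟩
      ext c
      rw [h1, hε1]; simp
    · rw [hS1]; exact one_dvd _
  -- nontrivial case
  have hS2 : 2 ≤ Nat.card S := by
    have : 0 < Nat.card S := Nat.card_pos
    omega
  set a₀ : S := ⟨s₀, hs₀S⟩ with ha₀
  have hs₀1 : s₀ ≠ 1 := by
    rintro rfl
    rw [Subgroup.zpowers_one_eq_bot] at hs₀
    rw [← hs₀] at hS1
    exact hS1 Subgroup.card_bot
  -- correspondents at nontrivial elements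
  have hloc : ∀ x : S, x ≠ 1 → ∃ (βx : IrrCharacter C) (ε : ℤ), (ε = 1 ∨ ε = -1) ∧ mult C (χh : Γ → ℂ) (βx : C → ℂ) x = ε ∧
      (∀ β' : IrrCharacter C, β' ≠ βx → mult C (χh : Γ → ℂ) (β' : C → ℂ) x = 0) ∧ ∀ c : C, (χh : Γ → ℂ) (c * x) = ε * (βx : C → ℂ) c := by
    intro x hx
    exact exists_beta hcop htop χ.2 χh.2 hext hdet (x : Γ) x.2 C hCG hcomm (hfpf x x.2 (fun h => hx (Subtype.ext h))).symm
  have hsmall : ∀ (β' : IrrCharacter C) (x : S), x ≠ 1 → z β' x = 0 ∨ z β' x = 1 ∨ z β' x = -1 := by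
    intro β' x hx
    obtain ⟨βx, ε, hε, h1, h2, -⟩ := hloc x hx
    by_cases h : β' = βx
    · right
      rw [← h] at h1
      have h3 : (z β' x : ℂ) = ε := by rw [← hz, h1]
      have h4 : z β' x = ε := by exact_mod_cast h3
      rw [h4]; exact hε
    · left
      have h3 := h2 β' h
      rw [hz] at h3
      exact_mod_cast h3
  -- all or nothing
  have hstep : ∀ (β' : IrrCharacter C) (p : ℕ), p.Prime → ∀ x : S, x ≠ 1 → x ^ p ≠ 1 → (z β' x = 0 ↔ z β' (x ^ p) = 0) := by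
    intro β' p hp x hx hxp
    have h1 := char_int_congr hp (hAc β') x (hz β' x) (hz β' (x ^ p))
    have hp2 := hp.two_le
    have hn1 : ¬ (p : ℤ) ∣ 1 := fun h => by
      have := Int.le_of_dvd one_pos h
      omega
    have hn2 : ¬ (p : ℤ) ∣ -1 := fun h => hn1 (dvd_neg.mp h)
    constructor
    · intro h0
      rw [h0, zero_sub, dvd_neg] at h1
      rcases hsmall β' (x ^ p) hxp with h | h | h
      · exact h
      · rw [h] at h1; exact absurd h1 hn1
      · rw [h] at h1; exact absurd h1 hn2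
    · intro h0
      rw [h0, sub_zero] at h1
      rcases hsmall β' x hx with h | h | h
      · exact h
      · rw [h] at h1; exact absurd h1 hn1
      · rw [h] at h1; exact absurd h1 hn2
  have hall : ∀ (β' : IrrCharacter C) (j : ℕ), a₀ ^ j ≠ 1 → (z β' a₀ = 0 ↔ z β' (a₀ ^ j) = 0) := by
    intro β' j
    induction j using Nat.strong_induction_on with
    | _ j ih =>
      intro h
      rcases Nat.lt_or_ge j 2 with hj | hj
      · interval_cases j
        · simp at h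
        · rw [pow_one]
      · have hp := Nat.minFac_prime (by omega : j ≠ 1)
        obtain ⟨j', hj'⟩ := Nat.minFac_dvd j
        set p := j.minFac with hpdef
        have hj'0 : 0 < j' := by
          rcases Nat.eq_zero_or_pos j' with h0 | h0
          · rw [h0] at hj'; omega
          · exact h0
        have hlt : j' < j := by
          rw [hj']; exact lt_mul_of_one_lt_left hj'0 hp.one_lt
        have he : a₀ ^ j = (a₀ ^ j') ^ p := by rw [← pow_mul, mul_comm, ← hj']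
        have h1 : a₀ ^ j' ≠ 1 := by
          intro h1; apply h; rw [he, h1, one_pow]
        rw [ih j' hlt h1, he]
        exact hstep β' p hp _ h1 (by rw [← he]; exact h)
  -- the correspondent is always β
  have hβ0 : mult C (χh : Γ → ℂ) (β : C → ℂ) s₀ = ε₀ := mult_of_eq C β.2 (fun c => hβ c s₀ hs₀)
  have ha₀1 : a₀ ≠ 1 := fun h => hs₀1 (congrArg (fun y : S => (y : Γ)) h)
  have hzero : ∀ β' : IrrCharacter C, β' ≠ β → ∀ x : S, x ≠ 1 → mult C (χh : Γ → ℂ) (β' : C → ℂ) x = 0 := by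
    intro β' hne x hx
    obtain ⟨βx, ε, hε, h1, h2, -⟩ := hloc a₀ ha₀1
    have h3 : β = βx := by
      by_contra hcon
      have h4 := h2 β hcon
      rw [hβ0] at h4
      have h5 : ε₀ = 0 := by exact_mod_cast h4
      omega
    have h4 := h2 β' (by rw [← h3]; exact hne)
    rw [hz] at h4 ⊢
    have h5 : z β' a₀ = 0 := by exact_mod_cast h4
    have h6 : x ∈ Subgroup.zpowers a₀ := by
      have h7 : (x : Γ) ∈ Subgroup.zpowers s₀ := by rw [hs₀]; exact x.2
      obtain ⟨k, hk⟩ := Subgroup.mem_zpowers_iff.mp h7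
      exact Subgroup.mem_zpowers_iff.mpr ⟨k, Subtype.ext (by rw [← hk]; simp [ha₀])⟩
    obtain ⟨j, hj⟩ := mem_powers_iff_mem_zpowers.mpr h6
    have hj' : a₀ ^ j = x := hj
    rw [← hj'] at hx ⊢
    rw [(hall β' j hx).mp h5, Int.cast_zero]
  have hone : ∀ x : S, x ≠ 1 → ∃ ε : ℤ, (ε = 1 ∨ ε = -1) ∧ mult C (χh : Γ → ℂ) (β : C → ℂ) x = ε ∧ ∀ c : C, (χh : Γ → ℂ) (c * x) = ε * (β : C → ℂ) c := by
    intro x hx
    obtain ⟨βx, ε, hε, h1, h2, h3⟩ := hloc x hx
    have h4 : βx = β := by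
      by_contra hcon
      have h5 := hzero βx hcon x hx
      rw [h1] at h5
      have h6 : ε = 0 := by exact_mod_cast h5
      omega
    subst h4
    exact ⟨ε, hε, h1, h3⟩
  obtain ⟨m, ε, μ, hε, hμ, hμ'⟩ := char_abs_one hab hS2 (hAc β) (by
    intro x hx
    obtain ⟨ε, hε, h1, -⟩ := hone x hx
    show mult C (χh : Γ → ℂ) (β : C → ℂ) x * conj (mult C (χh : Γ → ℂ) (β : C → ℂ) x) = 1
    rw [h1]
    rcases hε with h | h <;> rw [h] <;> simp)
  have hεC : (ε : ℂ) = 1 ∨ (ε : ℂ) = -1 := by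
    rcases hε with h | h <;> rw [h]
    · left; simp
    · right; simp
  -- expansion of A_β
  have hexpA : ∀ x : S, mult C (χh : Γ → ℂ) (β : C → ℂ) x = m * (∑ ψ : IrrCharacter S, (ψ : S → ℂ) x) + ε * (μ : S → ℂ) x := by
    intro x
    have h1 := classFun_expand_apply (char_classFun (hAc β)) x
    rw [← Finset.add_sum_erase _ _ (Finset.mem_univ μ), hμ, Finset.sum_congr rfl (fun ψ hψ => by rw [hμ' ψ (Finset.ne_of_mem_erase hψ)])] at h1
    rw [← Finset.add_sum_erase _ _ (Finset.mem_univ μ), mul_add, Finset.mul_sum]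
    rw [h1]; ring
  have hreg : ∀ x : S, x ≠ 1 → ∑ ψ : IrrCharacter S, (ψ : S → ℂ) x = 0 := by
    intro x hx
    rw [← sum_degree_mul x hx]
    exact Finset.sum_congr rfl fun ψ _ => by rw [irr_degree_one_of_comm hab ψ.2, one_mul]
  have hreg1 : ∑ ψ : IrrCharacter S, (ψ : S → ℂ) 1 = Nat.card S := by
    rw [Finset.sum_congr rfl fun ψ _ => irr_degree_one_of_comm hab (Subtype.property ψ), Finset.sum_const, Finset.card_univ, card_irr_comm hab]
    simp
  have hμ1 : (μ : S → ℂ) 1 = 1 := irr_degree_one_of_comm hab μ.2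
  have hS0 : (Nat.card S : ℂ) ≠ 0 := by exact_mod_cast Nat.card_pos.ne'
  have hb : ∃ ϑ : C → ℂ, Cfsg.IsCharacter C ϑ ∧ (fun c : C => (χ : G → ℂ) ⟨c, hCG c.2⟩) = fun c => (Nat.card S : ℂ) * ϑ c + (ε : ℂ) * (β : C → ℂ) c := by
    have hn : ∀ β' : IrrCharacter C, ∃ n : ℕ, classInner (fun a : S => mult C (χh : Γ → ℂ) (β' : C → ℂ) a) (fun _ => 1) = n := fun β' =>
      char_mult (hAc β') isCharacter_one
    choose n hn using hn
    have hn2 : ∀ β' : IrrCharacter C, β' ≠ β → classInner (fun c : C => (χ : G → ℂ) ⟨c, hCG c.2⟩) (β' : C → ℂ) = Nat.card S * n β' := by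
      intro β' hne
      rw [← hA1, ← hn]
      unfold classInner
      rw [mul_inv_cancel_left₀ hS0, Finset.sum_eq_single 1]
      · simp
      · intro x _ hx
        rw [hzero β' hne x hx, zero_mul]
      · intro h; exact absurd (Finset.mem_univ _) h
    have hβ1 : classInner (fun c : C => (χ : G → ℂ) ⟨c, hCG c.2⟩) (β : C → ℂ) = m * Nat.card S + ε := by
      rw [← hA1]
      have h1 := hexpA 1
      rw [hreg1, hμ1, mul_one] at h1
      exact h1
    refine ⟨m • (β : C → ℂ) + ∑ β' ∈ Finset.univ.erase β, n β' • (β' : C → ℂ), ?_, ?_⟩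
    · apply isCharacter_add (isCharacter_nsmul (irr_isCharacter β.2) m)
      exact isCharacter_sum _ _ fun β' _ => isCharacter_nsmul (irr_isCharacter β'.2) _
    · ext c
      have h1 := classFun_expand_apply hcf c
      rw [← Finset.add_sum_erase _ _ (Finset.mem_univ β), hβ1, Finset.sum_congr rfl (fun ψ hψ => by rw [hn2 ψ (Finset.ne_of_mem_erase hψ)])] at h1
      rw [h1, Pi.add_apply, Finset.sum_apply, mul_add, Finset.mul_sum]
      have h2 : ∀ ψ ∈ Finset.univ.erase β, (Nat.card S : ℂ) * (n ψ • (ψ : C → ℂ)) c = (Nat.card S : ℂ) * n ψ * (ψ : C → ℂ) c := by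
        intro ψ _
        rw [Pi.smul_apply, nsmul_eq_mul]; ring
      rw [Finset.sum_congr rfl h2, Pi.smul_apply, nsmul_eq_mul]
      ring
  refine ⟨ε, hε, ⟨(μ : S → ℂ), irr_isCharacter μ.2, hμ1, ?_, ?_⟩, hb, final ε hb⟩
  · intro x
    by_cases hx : x = 1
    · rw [hx, hμ1, one_mul]
    · obtain ⟨ε', hε', h1, -⟩ := hone x hx
      rw [hexpA x, hreg x hx, mul_zero, zero_add] at h1
      have h2 : (ε : ℂ) * ε = 1 := by rcases hε with h | h <;> rw [h] <;> simp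
      have h3 : (ε' : ℂ) * ε' = 1 := by rcases hε' with h | h <;> rw [h] <;> simp
      calc (μ : S → ℂ) x * (μ : S → ℂ) x = ((ε : ℂ) * ε) * ((μ : S → ℂ) x * (μ : S → ℂ) x) := by rw [h2, one_mul]
        _ = ((ε : ℂ) * (μ : S → ℂ) x) * ((ε : ℂ) * (μ : S → ℂ) x) := by ring
        _ = 1 := by rw [h1, h3]
  · intro c x hx
    obtain ⟨ε', hε', h1, h2⟩ := hone x hx
    rw [hexpA x, hreg x hx, mul_zero, zero_add] at h1
    rw [h2, ← h1]; ring

end Cfsg.Agent.S4451
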