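import Cfsg.Statements.S4454
import Cfsg.Agent.LibExtend9

set_option autoImplicit false
set_option linter.all false
open Cfsg

namespace Cfsg.Agent.S4454

open CfsgLib.Extend CfsgLib.CharBasic CfsgLib.Clifford CfsgLib.Gallagher
open scoped ComplexConjugate

/-- coset norms of a Frobenius action -/
theorem coset_norm {Γ : Type*} [Group Γ] [Fintype Γ] (G N : Subgroup Γ) [hG : G.Normal] [hN : N.Normal]
    [Fintype G] [Fintype N] (hNG : N ≤ G)
    (hfrob : ∀ x : Γ, x ∉ G → ∀ g : Γ, g ∈ G → x * g * x⁻¹ * g⁻¹ ∈ N → g ∈ N) {χ : Γ → ℂ} (hχ : IsIrrCharacter Γ χ)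
    (hχG : IsIrrCharacter G (fun g : G => χ g)) (x : Γ) (hx : x ∉ G) :
    avg N (fun g => χ g * conj (χ g)) x = 1 := by
  classical
  set F := avg N (fun g => χ g * conj (χ g)) with hF
  have hFc : IsCharacter Γ F := avg_char N (isCharacter_mul (irr_isCharacter hχ) (isCharacter_conj (irr_isCharacter hχ)))
  have hFN : ∀ n ∈ N, ∀ z, F (n * z) = F z := fun n hn z => avg_mul_left N _ ⟨n, hn⟩ z
  have hG0 : (Nat.card G : ℂ) ≠ 0 := by exact_mod_cast Nat.card_pos.ne'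
  have hN0 : (Nat.card N : ℂ) ≠ 0 := by exact_mod_cast Nat.card_pos.ne'
  -- F is constant on G x
  have hconst : ∀ g : G, F ((g : Γ) * x) = F x := by
    -- the map aN ↦ a x a⁻¹ x⁻¹ N
    have hwd : ∀ a : G, (a : Γ) * x * (a : Γ)⁻¹ * x⁻¹ ∈ G := by
      intro a
      have := G.mul_mem a.2 (hG.conj_mem _ (G.inv_mem a.2) x)
      convert this using 1
      group
    let N' := N.subgroupOf G
    haveI : N'.Normal := subgroupOf_normal hN G
    let f : G ⧸ N' → G ⧸ N' := Quotient.lift (fun a : G => ((⟨_, hwd a⟩ : G) : G ⧸ N')) (by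
      intro a b hab
      have h1 : a⁻¹ * b ∈ N' := QuotientGroup.leftRel_apply.mp hab
      rw [Subgroup.mem_subgroupOf] at h1
      rw [QuotientGroup.eq, Subgroup.mem_subgroupOf]
      show ((a : Γ) * x * (a : Γ)⁻¹ * x⁻¹)⁻¹ * ((b : Γ) * x * (b : Γ)⁻¹ * x⁻¹) ∈ N
      set n : Γ := (a : Γ)⁻¹ * b with hn
      have hb : (b : Γ) = a * n := by rw [hn]; group
      have hnN : n ∈ N := h1
      rw [hb]
      have h2 : (n : Γ) * (x * n⁻¹ * x⁻¹) ∈ N := N.mul_mem hnN (hN.conj_mem _ (N.inv_mem hnN) x)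
      have h3 := hN.conj_mem _ h2 (x * a * x⁻¹)
      have e1 : ((a : Γ) * x * (a : Γ)⁻¹ * x⁻¹)⁻¹ * ((a : Γ) * n * x * ((a : Γ) * n)⁻¹ * x⁻¹) =
          (x * a * x⁻¹) * (n * (x * n⁻¹ * x⁻¹)) * (x * a * x⁻¹)⁻¹ := by group
      rw [e1]; exact h3)
    have hinj : Function.Injective f := by
      intro a b
      induction a using QuotientGroup.induction_on
      induction b using QuotientGroup.induction_on
      rename_i a b
      intro hab
      have h1 : ((⟨_, hwd a⟩ : G) : G ⧸ N') = ((⟨_, hwd b⟩ : G) : G ⧸ N') := hab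
      rw [QuotientGroup.eq, Subgroup.mem_subgroupOf] at h1 ⊢
      have h2 : ((a : Γ) * x * (a : Γ)⁻¹ * x⁻¹)⁻¹ * ((b : Γ) * x * (b : Γ)⁻¹ * x⁻¹) ∈ N := h1
      show (a : Γ)⁻¹ * (b : Γ) ∈ N
      -- conj by x a x⁻¹ ... gives [n, x]
      set n : Γ := (a : Γ)⁻¹ * b with hn
      have hb : (b : Γ) = a * n := by rw [hn]; group
      rw [hb] at h2
      have h3 := hN.conj_mem _ h2 (x * a * x⁻¹)⁻¹
      have e1 : (x * a * x⁻¹)⁻¹ * (((a : Γ) * x * (a : Γ)⁻¹ * x⁻¹)⁻¹ * ((a : Γ) * n * x * ((a : Γ) * n)⁻¹ * x⁻¹)) * (x * a * x⁻¹)⁻¹⁻¹ =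
          n * (x * n⁻¹ * x⁻¹) := by group
      rw [e1] at h3
      apply hfrob x hx n (G.mul_mem (G.inv_mem a.2) b.2)
      have h4 := N.inv_mem h3
      convert h4 using 1
      group
    have hsurj := Finite.surjective_of_injective hinj
    intro g
    obtain ⟨a, ha⟩ := hsurj (g : G ⧸ N')
    induction a using QuotientGroup.induction_on
    rename_i a
    have h1 : ((⟨_, hwd a⟩ : G) : G ⧸ N') = (g : G ⧸ N') := ha
    have h2 : ((g : G) * (⟨_, hwd a⟩ : G)⁻¹) ∈ N' := by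
      have h3 := QuotientGroup.eq.mp h1
      have h4 : (⟨_, hwd a⟩ : G) * ((⟨_, hwd a⟩ : G)⁻¹ * g) * (⟨_, hwd a⟩ : G)⁻¹ ∈ N' := ‹N'.Normal›.conj_mem _ h3 _
      rwa [mul_inv_cancel_left] at h4
    have h3 : (g : Γ) * ((a : Γ) * x * (a : Γ)⁻¹ * x⁻¹)⁻¹ ∈ N := Subgroup.mem_subgroupOf.mp h2
    have h4 : (g : Γ) * x = ((g : Γ) * ((a : Γ) * x * (a : Γ)⁻¹ * x⁻¹)⁻¹) * ((a : Γ) * x * (a : Γ)⁻¹) := by group
    rw [h4, hFN _ h3]
    exact char_classFun hFc x a
  have h1 : avg G (fun g => χ g * conj (χ g)) x = 1 := by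
    rw [avg_norm_sq G (irr_isCharacter hχ) hχG]
  have h2 : avg G F x = avg G (fun g => χ g * conj (χ g)) x := by
    have hFx : ∀ z, F z = (Nat.card N : ℂ)⁻¹ * ∑ n : N, χ ((n : Γ) * z) * conj (χ ((n : Γ) * z)) := fun z => rfl
    show (Nat.card G : ℂ)⁻¹ * ∑ g : G, F ((g : Γ) * x) = (Nat.card G : ℂ)⁻¹ * ∑ g : G, χ ((g : Γ) * x) * conj (χ ((g : Γ) * x))
    simp only [hFx]
    congr 1
    rw [← Finset.mul_sum, Finset.sum_comm]
    have h3 : ∀ n : N, ∑ g : G, χ ((n : Γ) * ((g : Γ) * x)) * conj (χ ((n : Γ) * ((g : Γ) * x))) = ∑ g : G, χ ((g : Γ) * x) * conj (χ ((g : Γ) * x)) := by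
      intro n
      refine Fintype.sum_equiv (Equiv.mulLeft (⟨n, hNG n.2⟩ : G)) _ _ fun g => ?_
      simp [mul_assoc]
    rw [Finset.sum_congr rfl fun n _ => h3 n, Finset.sum_const, Finset.card_univ, nsmul_eq_mul, ← Nat.card_eq_fintype_card,
      inv_mul_cancel_left₀ hN0]
  rw [h1] at h2
  rw [← h2]
  unfold avg
  rw [Finset.sum_congr rfl fun g _ => hconst g, Finset.sum_const, Finset.card_univ, nsmul_eq_mul, ← Nat.card_eq_fintype_card,
    inv_mul_cancel_left₀ hG0]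

/-- Let N ≤ G be normal subgroups of the finite group Γ with Γ/G cyclic and Γ/N a Frobenius group with kernel G/N: G ≠ Γ, N ≠ G, and no element of Γ outside G fixes a non-identity coset of N in G under conjugation. Let ϑ be an irreducible character of N invariant under conjugation by Γ and suppose ϑ is fully ramified in G: the character of G induced from ϑ equals e·χ for an irreducible character χ of G and a natural number e. Then the index of G in Γ divides e − 1 or e + 1. -/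
theorem result {Γ : Type*} [Group Γ] [Fintype Γ] (G N : Subgroup Γ) [hG : G.Normal] [hN : N.Normal] [Fintype G] [Fintype N] (hNG : N ≤ G) (hGlt : G ≠ ⊤) (hNlt : N ≠ G) (hcyc : IsCyclic (Γ ⧸ G)) (hfrob : ∀ x : Γ, x ∉ G → ∀ g : Γ, g ∈ G → x * g * x⁻¹ * g⁻¹ ∈ N → g ∈ N) (θ : Cfsg.IrrCharacter N) (hinv : ∀ (x : Γ) (n : N), (θ : N → ℂ) ⟨x * n * x⁻¹, hN.conj_mem n n.2 x⟩ = (θ : N → ℂ) n) (χ : Cfsg.IrrCharacter G) (e : ℕ) (hram : Cfsg.indFun (N.subgroupOf G) (fun n : N.subgroupOf G => (θ : N → ℂ) ⟨(n : G), n.2⟩) = fun g => (e : ℂ) * (χ : G → ℂ) g) : (G.index : ℤ) ∣ (e : ℤ) - 1 ∨ (G.index : ℤ) ∣ (e : ℤ) + 1 := by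
  classical
  have hG0 : (Nat.card G : ℂ) ≠ 0 := by exact_mod_cast Nat.card_pos.ne'
  have hN0 : (Nat.card N : ℂ) ≠ 0 := by exact_mod_cast Nat.card_pos.ne'
  -- χ is invariant
  have hind0 : indFun (N.subgroupOf G) (fun n : N.subgroupOf G => (θ : N → ℂ) ⟨(n : G), n.2⟩) = indFun (N.subgroupOf G) (toSub G (θ : N → ℂ)) := rfl
  haveI := Fintype.ofFinite (N.subgroupOf G)
  have he1 : (e : ℂ) = classInner (fun n : N => (χ : G → ℂ) ⟨n, hNG n.2⟩) (θ : N → ℂ) := by
    have h1 := CfsgLib.CharIndA.frobenius (N.subgroupOf G) (toSub G (θ : N → ℂ)) (irr_classFun χ.2)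
    rw [← hind0, hram] at h1
    have h2 : classInner (fun g => (e : ℂ) * (χ : G → ℂ) g) (χ : G → ℂ) = e := by
      have : (fun g => (e : ℂ) * (χ : G → ℂ) g) = (e : ℂ) • (χ : G → ℂ) := rfl
      rw [this, CfsgLib.CharBasic.inner_smul_left, irr_inner_self χ.2, mul_one]
    rw [h2] at h1
    have h3 : (fun h : N.subgroupOf G => (χ : G → ℂ) h) = toSub G (fun n : N => (χ : G → ℂ) ⟨n, hNG n.2⟩) := rfl
    rw [h3, ci_toSub hNG] at h1
    have h4 := congrArg (starRingEnd ℂ) h1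
    rw [Complex.conj_natCast, CfsgLib.CharBasic.inner_conj_symm] at h4
    exact h4
  have he0 : e ≠ 0 := by
    rintro rfl
    have h1 := congrFun hram 1
    rw [hind0, CfsgLib.CharIndA.ind_one] at h1
    simp only [Nat.cast_zero, zero_mul] at h1
    have h2 : toSub G (θ : N → ℂ) 1 ≠ 0 := CfsgLib.CharInt.irr_one_ne_zero ((toSub_irr hNG).mpr θ.2)
    have h3 : ((N.subgroupOf G).index : ℂ) ≠ 0 := by exact_mod_cast Subgroup.index_ne_zero_of_finite
    exact mul_ne_zero h3 h2 h1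
  have he0' : (e : ℂ) ≠ 0 := by exact_mod_cast he0
  have hχinv : Inv G (χ : G → ℂ) := by
    intro x g
    have h1 : ∀ y : G, (e : ℂ) * (χ : G → ℂ) y = (Nat.card (N.subgroupOf G) : ℂ)⁻¹ * ∑ a : G, extendByZero (N.subgroupOf G) (toSub G (θ : N → ℂ)) (a⁻¹ * y * a) := by
      intro y
      rw [← CfsgLib.CharIndA.ind_apply, ← hind0, hram]
    apply mul_left_cancel₀ he0'
    rw [h1, h1]
    congr 1
    refine Fintype.sum_equiv (MulAut.conjNormal x⁻¹ : MulAut G).toEquiv _ _ fun a => ?_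
    set a' : G := (MulAut.conjNormal x⁻¹ : MulAut G).toEquiv a with ha'
    have ha2 : (a' : Γ) = x⁻¹ * a * x := by
      show ((MulAut.conjNormal x⁻¹ a : G) : Γ) = _
      rw [MulAut.conjNormal_apply, inv_inv]
    have hE : ((a⁻¹ * ⟨x * (g : Γ) * x⁻¹, hG.conj_mem g g.2 x⟩ * a : G) : Γ) = x * ((a'⁻¹ * g * a' : G) : Γ) * x⁻¹ := by
      show (a : Γ)⁻¹ * (x * g * x⁻¹) * a = x * ((a' : Γ)⁻¹ * g * a') * x⁻¹
      rw [ha2]; group
    by_cases hm : (a'⁻¹ * g * a' : G) ∈ N.subgroupOf G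
    · have hm' : a⁻¹ * ⟨x * (g : Γ) * x⁻¹, hG.conj_mem g g.2 x⟩ * a ∈ N.subgroupOf G := by
        rw [Subgroup.mem_subgroupOf, hE]
        exact hN.conj_mem _ (Subgroup.mem_subgroupOf.mp hm) x
      rw [CfsgLib.CharIndA.ext_mem _ _ hm', CfsgLib.CharIndA.ext_mem _ _ hm]
      have h2 := hinv x ⟨_, Subgroup.mem_subgroupOf.mp hm⟩
      rw [← show (θ : N → ℂ) ⟨_, Subgroup.mem_subgroupOf.mp hm'⟩ = (θ : N → ℂ) ⟨x * ((⟨_, Subgroup.mem_subgroupOf.mp hm⟩ : N) : Γ) * x⁻¹, hN.conj_mem _ (Subgroup.mem_subgroupOf.mp hm) x⟩ from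
        congrArg (θ : N → ℂ) (Subtype.ext hE)] at h2
      exact h2
    · have hm' : ¬ (a⁻¹ * ⟨x * (g : Γ) * x⁻¹, hG.conj_mem g g.2 x⟩ * a ∈ N.subgroupOf G) := by
        intro h2
        apply hm
        rw [Subgroup.mem_subgroupOf, hE] at h2
        rw [Subgroup.mem_subgroupOf]
        have h3 := hN.conj_mem _ h2 x⁻¹
        rw [inv_inv] at h3
        convert h3 using 1
        group
      rw [CfsgLib.CharIndA.ext_not_mem _ _ hm', CfsgLib.CharIndA.ext_not_mem _ _ hm]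
  obtain ⟨χh, hχh, hχG⟩ := ext_cyclic (N := G) hcyc χ.2 hχinv
  -- restriction to N
  have hθinv : ∀ x, cj hN x (θ : N → ℂ) = θ := fun x => by ext n; exact hinv x n
  have hχN1 : (fun n : N => χh n) = fun n : N => (χ : G → ℂ) ⟨n, hNG n.2⟩ := by
    ext n; exact hχG ⟨n, hNG n.2⟩
  have hχN : ∀ n : N, χh n = e * (θ : N → ℂ) n := by
    have h1 := restrict_of_invariant hN hχh θ.2 hθinv (by rw [hχN1, ← he1]; exact he0')
    rw [hχN1, ← he1, ← hχN1] at h1
    exact fun n => congrFun h1 n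
  -- coset norms
  have hF : ∀ x : Γ, x ∉ G → avg N (fun g => χh g * conj (χh g)) x = 1 := coset_norm G N hNG hfrob hχh (by
    have : (fun g : G => χh g) = (χ : G → ℂ) := funext hχG
    rw [this]; exact χ.2)
  -- the cyclic complement
  obtain ⟨q, hq⟩ := hcyc.exists_generator
  obtain ⟨y, rfl⟩ := QuotientGroup.mk'_surjective G q
  set h := G.index with hh
  have hh0 : h ≠ 0 := Subgroup.index_ne_zero_of_finite
  have hord : orderOf (QuotientGroup.mk' G y) = h := by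
    rw [← Nat.card_zpowers, hh, Subgroup.index_eq_card]
    have : Subgroup.zpowers (QuotientGroup.mk' G y) = ⊤ := by
      ext z; exact ⟨fun _ => trivial, fun _ => hq z⟩
    rw [this]; exact Nat.card_congr Subgroup.topEquiv.toEquiv
  have hyG : y ∉ G := by
    intro hy
    have h1 : QuotientGroup.mk' G y = 1 := (QuotientGroup.eq_one_iff y).mpr hy
    rw [h1, orderOf_one] at hord
    exact hGlt (Subgroup.index_eq_one.mp hord.symm)
  have hyh : y ^ h ∈ N := by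
    apply hfrob y hyG (y ^ h)
    · rw [← QuotientGroup.eq_one_iff]
      have := pow_orderOf_eq_one (QuotientGroup.mk' G y)
      rw [hord] at this
      exact this
    · have : y * y ^ h * y⁻¹ * (y ^ h)⁻¹ = 1 := by
        rw [← pow_succ', pow_succ]; group
      rw [this]; exact N.one_mem
  set H := Subgroup.zpowers y ⊔ N with hH
  have hNH : N ≤ H := le_sup_right
  haveI := Fintype.ofFinite H
  haveI := Fintype.ofFinite (N.subgroupOf H)
  haveI hnH : (N.subgroupOf H).Normal := subgroupOf_normal hN H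
  have hHmem : ∀ z ∈ H, ∃ (k : ℤ) (n : Γ), n ∈ N ∧ z = y ^ k * n := by
    intro z hz
    rw [hH, Subgroup.mem_sup_of_normal_right] at hz
    obtain ⟨a, ha, n, hn, rfl⟩ := hz
    obtain ⟨k, rfl⟩ := Subgroup.mem_zpowers_iff.mp ha
    exact ⟨k, n, hn, rfl⟩
  have hHG : ∀ z ∈ H, z ∈ G → z ∈ N := by
    intro z hz hzG
    obtain ⟨k, n, hn, rfl⟩ := hHmem z hz
    have h1 : y ^ k ∈ G := by
      have := G.mul_mem hzG (G.inv_mem (hNG hn))
      rwa [mul_inv_cancel_right] at this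
    have h2 : (QuotientGroup.mk' G y) ^ k = 1 := by
      rw [← map_zpow]; exact (QuotientGroup.eq_one_iff _).mpr h1
    rw [← orderOf_dvd_iff_zpow_eq_one, hord] at h2
    obtain ⟨j, rfl⟩ := h2
    rw [zpow_mul]
    apply N.mul_mem _ hn
    apply N.zpow_mem
    rw [zpow_natCast]; exact hyh
  have hycyc : IsCyclic (H ⧸ N.subgroupOf H) := by
    refine ⟨⟨QuotientGroup.mk' _ ⟨y, Subgroup.mem_sup_left (Subgroup.mem_zpowers y)⟩, fun z => ?_⟩⟩
    obtain ⟨z, rfl⟩ := QuotientGroup.mk'_surjective _ z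
    obtain ⟨k, n, hn, hz⟩ := hHmem z z.2
    refine Subgroup.mem_zpowers_iff.mpr ⟨k, ?_⟩
    rw [← map_zpow]
    show ((⟨y, _⟩ ^ k : H) : H ⧸ N.subgroupOf H) = (z : H ⧸ N.subgroupOf H)
    rw [QuotientGroup.eq, Subgroup.mem_subgroupOf]
    show (((⟨y, _⟩ ^ k : H) : Γ))⁻¹ * (z : Γ) ∈ N
    rw [hz]
    simpa using hn
  -- the quotient has order h
  have hcardQ : Nat.card (H ⧸ N.subgroupOf H) = h := by
    have h1 : (QuotientGroup.mk' G).comp H.subtype = (QuotientGroup.mk' G).comp H.subtype := rfl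
    let f : H →* Γ ⧸ G := (QuotientGroup.mk' G).comp H.subtype
    have hf : Function.Surjective f := by
      intro z
      obtain ⟨k, hk⟩ := Subgroup.mem_zpowers_iff.mp (hq z)
      refine ⟨⟨y ^ k, Subgroup.mem_sup_left (Subgroup.zpow_mem_zpowers y k)⟩, ?_⟩
      rw [← hk, ← map_zpow]; rfl
    have hker : f.ker = N.subgroupOf H := by
      ext z
      rw [MonoidHom.mem_ker, Subgroup.mem_subgroupOf]
      show ((z : Γ) : Γ ⧸ G) = 1 ↔ _
      rw [QuotientGroup.eq_one_iff]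
      exact ⟨fun h => hHG z z.2 h, fun h => hNG h⟩
    rw [← hker, hh, Subgroup.index_eq_card]
    exact Nat.card_congr (QuotientGroup.quotientKerEquivOfSurjective f hf).toEquiv
  have hh2 : 2 ≤ h := by
    have h1 : h ≠ 1 := fun h1 => hGlt (Subgroup.index_eq_one.mp h1)
    omega
  obtain ⟨θh, hθh, hθN⟩ := ext_cyclic (N := N.subgroupOf H) hycyc ((toSub_irr hNH).mpr θ.2) (by
    intro t n
    exact hinv (t : Γ) ⟨_, n.2⟩)
  have hθN' : (fun n : N.subgroupOf H => θh n) = toSub H (θ : N → ℂ) := funext hθN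
  have hθNirr : IsIrrCharacter (N.subgroupOf H) (fun n : N.subgroupOf H => θh n) := by
    rw [hθN']; exact (toSub_irr hNH).mpr θ.2
  have hχH : IsCharacter H (fun z : H => χh z) := isCharacter_restrict (irr_isCharacter hχh) H
  have hχHN : ∀ n : N.subgroupOf H, (fun z : H => χh z) n = e * θh n := by
    intro n
    rw [hθN n]
    exact hχN ⟨_, n.2⟩
  obtain ⟨hβ1, hβ2, hβ3⟩ := char_factor (N.subgroupOf H) hθh hθNirr hχH e hχHN
  set β := avg (N.subgroupOf H) (fun g => (fun z : H => χh z) g * conj (θh g)) with hβ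
  have hβker : ∀ n ∈ N.subgroupOf H, β n = β 1 := fun n hn => avg_ker (N.subgroupOf H) n hn
  obtain ⟨β', hβ'1, hβ'2⟩ := CfsgLib.Quot19.char_deflate (N.subgroupOf H) hβ1 hβker
  haveI := Fintype.ofFinite (H ⧸ N.subgroupOf H)
  have hab : ∀ a b : H ⧸ N.subgroupOf H, a * b = b * a := by
    letI := hycyc.commGroup
    intro a b
    obtain ⟨g, hg⟩ := hycyc.exists_generator
    obtain ⟨i, rfl⟩ := Subgroup.mem_zpowers_iff.mp (hg a)
    obtain ⟨j, rfl⟩ := Subgroup.mem_zpowers_iff.mp (hg b)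
    rw [← zpow_add, ← zpow_add, add_comm]
  obtain ⟨c, ε, μ, hε, hμ, hμ'⟩ := char_abs_one hab (by rw [hcardQ]; exact hh2) hβ'1 (by
    intro z hz
    obtain ⟨z, rfl⟩ := QuotientGroup.mk_surjective z
    rw [hβ'2, hβ]
    rw [← avg_factor (N.subgroupOf H) hθh hθNirr hχH e hχHN z]
    have hzN : (z : Γ) ∉ N := by
      intro h1
      apply hz
      exact (QuotientGroup.eq_one_iff z).mpr (Subgroup.mem_subgroupOf.mpr h1)
    have hzG : (z : Γ) ∉ G := fun h1 => hzN (hHG z z.2 h1)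
    rw [← hF z hzG]
    unfold avg
    have hcN : Nat.card (N.subgroupOf H) = Nat.card N := Nat.card_congr (Subgroup.subgroupOfEquivOfLe hNH).toEquiv
    rw [hcN]
    congr 1
    exact Fintype.sum_equiv (Subgroup.subgroupOfEquivOfLe hNH).toEquiv _ _ fun n => rfl)
  -- degree
  have hdeg : (e : ℂ) = h * c + ε := by
    have h1 : β' 1 = e := by
      have := hβ'2 1
      rw [hβ3] at this
      exact this
    obtain ⟨m, hm, hexp, -⟩ := char_expand hβ'1
    rw [← h1]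
    conv_lhs => rw [hexp]
    rw [Finset.sum_apply]
    have h2 : ∀ ψ : IrrCharacter (H ⧸ N.subgroupOf H), ((m ψ : ℂ) • (ψ : H ⧸ N.subgroupOf H → ℂ)) 1 = classInner β' (ψ : H ⧸ N.subgroupOf H → ℂ) := by
      intro ψ
      rw [Pi.smul_apply, irr_degree_one_of_comm hab ψ.2, hm, smul_eq_mul, mul_one]
    rw [Finset.sum_congr rfl fun ψ _ => h2 ψ, ← Finset.add_sum_erase _ _ (Finset.mem_univ μ), hμ]
    rw [Finset.sum_congr rfl fun ψ hψ => hμ' ψ (Finset.ne_of_mem_erase hψ), Finset.sum_const, Finset.card_erase_of_mem (Finset.mem_univ _),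
      Finset.card_univ, card_irr_comm hab, hcardQ, nsmul_eq_mul, Nat.cast_sub (by omega)]
    push_cast
    ring
  have hdeg' : (e : ℤ) = h * c + ε := by exact_mod_cast hdeg
  rcases hε with h1 | h1
  · left; exact ⟨c, by rw [hdeg', h1]; ring⟩
  · right; exact ⟨c, by rw [hdeg', h1]; ring⟩

end Cfsg.Agent.S4454
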