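import Cfsg.Statements.S4459
import Cfsg.Agent.LibTwoDegE19

set_option autoImplicit false
open Cfsg

namespace Cfsg.Agent.S4459


/-- Let G be a non-abelian finite group and p a prime. Then the irreducible character degrees of G are exactly 1 and p if and only if either G has an abelian normal subgroup of index p or the centre of G has index p³. -/
theorem result {G : Type*} [Group G] [Finite G] (hG : ∃ a b : G, a * b ≠ b * a) (p : ℕ) (hp : p.Prime) : ((∀ χ : Cfsg.IrrCharacter G, Cfsg.charDegree (χ : G → ℂ) = 1 ∨ Cfsg.charDegree (χ : G → ℂ) = p) ∧ ∃ χ : Cfsg.IrrCharacter G, Cfsg.charDegree (χ : G → ℂ) = p) ↔ ((∃ A : Subgroup G, A.Normal ∧ (∀ a ∈ A, ∀ b ∈ A, a * b = b * a) ∧ A.index = p) ∨ (Subgroup.center G).index = p ^ 3) := by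
  haveI : Fact p.Prime := ⟨hp⟩
  constructor
  · rintro ⟨h1, h2⟩
    by_cases hno : ∃ A : Subgroup G, A.Normal ∧ (∀ a ∈ A, ∀ b ∈ A, a * b = b * a) ∧ A.index = p
    · exact Or.inl hno
    · exact Or.inr (CfsgLib.TwoDeg19.forward h1 h2 hG hno)
  · intro h
    exact CfsgLib.TwoDeg19.backward hG h

end Cfsg.Agent.S4459
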