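import Cfsg.Statements.S4467
import Cfsg.Agent.LibFgSD4

set_option autoImplicit false
open Cfsg

namespace Cfsg.Agent.S4467

set_option linter.style.haveILetI false
set_option linter.unusedSectionVars false
set_option linter.unusedVariables false

/-- Let the finite solvable group G have a faithful irreducible character of degree n, and suppose that for the prime p a Sylow p-subgroup of G is not normal. Then n is divisible by a prime power q > 1 with q congruent to −1, 0 or 1 modulo p. -/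
theorem result {G : Type*} [Group G] [Finite G] (χ : Cfsg.IrrCharacter G) (hfaith : ∀ g : G, (χ : G → ℂ) g = (χ : G → ℂ) 1 → g = 1) (n : ℕ) (hn : Cfsg.charDegree (χ : G → ℂ) = n) (hsolv : Group.IsSolvable G) (p : ℕ) (hp : p.Prime) (P : Sylow p G) (hP : ¬ (P : Subgroup G).Normal) : ∃ q : ℕ, IsPrimePow q ∧ q ∣ n ∧ ((q : ℤ) ≡ -1 [ZMOD p] ∨ (q : ℤ) ≡ 0 [ZMOD p] ∨ (q : ℤ) ≡ 1 [ZMOD p]) := by
  haveI : Fact p.Prime := ⟨hp⟩
  haveI := hsolv
  by_contra hnot
  have hnb : ¬ CfsgLib.FgSD.Bad p (charDegree (χ : G → ℂ)) := by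
    rw [hn]
    exact hnot
  have hT : ∀ x y : G, (∃ k : ℕ, x ^ p ^ k = 1) → (∃ k : ℕ, y ^ p ^ k = 1) → ∃ k : ℕ, (x * y) ^ p ^ k = 1 := by
    intro x y hx hy
    refine ⟨Nat.card G, hfaith _ ?_⟩
    exact CfsgLib.FgSD.main_T p _ G rfl (χ : G → ℂ) χ.2 hnb x y hx hy _ le_rfl
  let S : Subgroup G := {
    carrier := {g | ∃ k : ℕ, g ^ p ^ k = 1}
    one_mem' := ⟨0, by simp⟩
    mul_mem' := fun {a b} ha hb => hT a b ha hb
    inv_mem' := by
      rintro a ⟨k, hk⟩
      exact ⟨k, by rw [inv_pow, hk, inv_one]⟩ }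
  have hS : IsPGroup p S := by
    rintro ⟨g, k, hk⟩
    exact ⟨k, Subtype.ext hk⟩
  have hPS : (P : Subgroup G) ≤ S := by
    intro g hg
    obtain ⟨k, hk⟩ := P.2 ⟨g, hg⟩
    exact ⟨k, congrArg Subtype.val hk⟩
  have hPS' : S = (P : Subgroup G) := P.3 hS hPS
  apply hP
  rw [← hPS']
  constructor
  rintro a ⟨k, hk⟩ g
  exact ⟨k, by rw [conj_pow, hk, mul_one, mul_inv_cancel]⟩

end Cfsg.Agent.S4467
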