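import Cfsg.Statements.S4468
import Cfsg.Agent.LibLowDeg

set_option autoImplicit false
open Cfsg

namespace Cfsg.Agent.S4468

open scoped commutatorElement

/-- Let the finite p-solvable group G have a faithful character χ of degree n ≤ p − 1 and suppose that a Sylow p-subgroup of G is not normal. Then n = p − 1, n is a power of 2, and χ is irreducible. -/
theorem result {G : Type*} [Group G] [Finite G] (χ : G → ℂ) (hχ : Cfsg.IsCharacter G χ) (hfaith : ∀ g : G, χ g = χ 1 → g = 1) (n : ℕ) (hn : Cfsg.charDegree χ = n) (p : ℕ) (hp : p.Prime) (hsolv : Cfsg.IsPSolvable p G) (hnp : n + 1 ≤ p) (P : Sylow p G) (hP : ¬ (P : Subgroup G).Normal) : n + 1 = p ∧ (∃ k : ℕ, n = 2 ^ k) ∧ Cfsg.IsIrrCharacter G χ := by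

  classical
  haveI : Fact p.Prime := ⟨hp⟩
  haveI := Fintype.ofFinite G
  have hdeg : χ 1 = (n : ℂ) := by rw [CfsgLib.CharInt.char_one_eq_charDegree hχ, hn]
  obtain ⟨l, hl, hsum⟩ := CfsgLib.CharBasic.exists_decomp hχ
  -- degree of constituents
  have hdegs : ∀ ψ ∈ l, (ψ 1 = (charDegree ψ : ℂ)) ∧ 0 < charDegree ψ := fun ψ hψ =>
    ⟨CfsgLib.CharInt.irr_one_eq_charDegree (hl ψ hψ), CfsgLib.CharInt.irr_charDegree_pos (hl ψ hψ)⟩
  have hsumapply : ∀ (m : Multiset (G → ℂ)) (g : G), m.sum g = (m.map (fun ψ => ψ g)).sum := by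
    intro m g
    induction m using Multiset.induction_on with
    | empty => simp
    | cons a s ih => simp [ih]
  have hsumdeg : ∀ (m : Multiset (G → ℂ)), (∀ ψ ∈ m, IsIrrCharacter G ψ) → m.sum 1 = (((m.map charDegree).sum : ℕ) : ℂ) := by
    intro m hm
    induction m using Multiset.induction_on with
    | empty => simp
    | cons a s ih =>
      rw [Multiset.sum_cons, Pi.add_apply, ih (fun ψ hψ => hm ψ (Multiset.mem_cons_of_mem hψ)), Multiset.map_cons,
        Multiset.sum_cons, CfsgLib.CharInt.irr_one_eq_charDegree (hm a (Multiset.mem_cons_self a s))]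
      push_cast; rfl
  have htot : n = (l.map charDegree).sum := by
    have h1 := hsumdeg l hl
    rw [← hsum, hdeg] at h1
    exact_mod_cast h1
  -- `P` is abelian
  have hab : ∀ a ∈ P, ∀ b ∈ P, a * b = b * a := by
    intro a ha b hb
    set PG : Subgroup G := (P : Subgroup G) with hPG
    set χP : PG → ℂ := fun x => χ (x : G) with hχP
    have hχP' : IsCharacter PG χP := CfsgLib.CharBasic.isCharacter_comp hχ PG.subtype
    obtain ⟨l', hl', hsum'⟩ := CfsgLib.CharBasic.exists_decomp hχP'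
    have hsumdeg' : ∀ (m : Multiset (PG → ℂ)), (∀ ψ ∈ m, IsIrrCharacter PG ψ) → m.sum 1 = (((m.map charDegree).sum : ℕ) : ℂ) := by
      intro m hm
      induction m using Multiset.induction_on with
      | empty => simp
      | cons a s ih =>
        rw [Multiset.sum_cons, Pi.add_apply, ih (fun ψ hψ => hm ψ (Multiset.mem_cons_of_mem hψ)), Multiset.map_cons,
          Multiset.sum_cons, CfsgLib.CharInt.irr_one_eq_charDegree (hm a (Multiset.mem_cons_self a s))]
        push_cast; rfl
    have htot' : n = (l'.map charDegree).sum := by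
      have h1 := hsumdeg' l' hl'
      rw [← hsum'] at h1
      have h2 : χP 1 = χ 1 := by rw [hχP]; rfl
      rw [h2, hdeg] at h1
      exact_mod_cast h1
    have hdeg1 : ∀ ψ ∈ l', charDegree ψ = 1 := by
      intro ψ hψ
      have h1 : charDegree ψ ≤ n := by
        rw [htot']
        exact Multiset.single_le_sum (fun x _ => Nat.zero_le x) _ (Multiset.mem_map_of_mem charDegree hψ)
      obtain ⟨k, hk⟩ := IsPGroup.iff_card.1 P.isPGroup'
      have h2 : charDegree ψ ∣ p ^ k := by rw [← hk]; exact CfsgLib.CharInt2.charDegree_dvd_card (hl' ψ hψ)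
      obtain ⟨j, -, hj⟩ := (Nat.dvd_prime_pow hp).1 h2
      rcases Nat.eq_zero_or_pos j with h0 | h0
      · rw [hj, h0, pow_zero]
      · have h3 : p ≤ p ^ j := Nat.le_self_pow (by omega) p
        omega
    set a' : PG := ⟨a, ha⟩ with ha'
    set b' : PG := ⟨b, hb⟩ with hb'
    have hψc : ∀ ψ ∈ l', ψ (a' * b' * a'⁻¹ * b'⁻¹) = ψ 1 := by
      intro ψ hψ
      obtain ⟨m, τ, hτ, rfl⟩ := hl' ψ hψ
      have h1 : Module.finrank ℂ (Fin m → ℂ) = 1 := by
        have h2 := CfsgLib.CharInt.irr_one_eq_charDegree (hl' _ hψ)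
        rw [hdeg1 _ hψ, Representation.char_one] at h2
        exact_mod_cast h2
      have hsc : ∀ f : Module.End ℂ (Fin m → ℂ), ∃ c : ℂ, f = c • (1 : Module.End ℂ (Fin m → ℂ)) := by
        intro f
        obtain ⟨v, hv, hspan⟩ := finrank_eq_one_iff'.1 h1
        obtain ⟨c, hc⟩ := hspan (f v)
        refine ⟨c, ?_⟩
        ext1 i
        apply LinearMap.ext
        intro w
        obtain ⟨d, hd⟩ := hspan (LinearMap.single ℂ (fun _ => ℂ) i w)
        rw [LinearMap.comp_apply, LinearMap.comp_apply, ← hd, map_smul, ← hc]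
        simp [smul_smul, mul_comm]
      have hcomm : ∀ f g : Module.End ℂ (Fin m → ℂ), f * g = g * f := by
        intro f g
        obtain ⟨c, rfl⟩ := hsc f
        obtain ⟨d, rfl⟩ := hsc g
        rw [smul_mul_smul_comm, smul_mul_smul_comm, mul_comm c d]
      have h3 : τ (a' * b' * a'⁻¹ * b'⁻¹) = τ 1 := by
        rw [map_mul, map_mul, map_mul, hcomm (τ a') (τ b'), mul_assoc (τ b'), ← map_mul τ a', mul_inv_cancel, map_one, mul_one,
          ← map_mul, mul_inv_cancel, map_one]
      simp only [Representation.character, h3]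
    have hsumapply' : ∀ (m : Multiset (PG → ℂ)) (g : PG), m.sum g = (m.map (fun ψ => ψ g)).sum := by
      intro m g
      induction m using Multiset.induction_on with
      | empty => simp
      | cons a s ih => simp [ih]
    have h4 : χP (a' * b' * a'⁻¹ * b'⁻¹) = χP 1 := by
      rw [hsum', hsumapply', hsumapply', Multiset.map_congr rfl hψc]
    have h5 : a * b * a⁻¹ * b⁻¹ = 1 := hfaith _ h4
    calc a * b = (a * b * a⁻¹ * b⁻¹) * (b * a) := by group
      _ = _ := by rw [h5, one_mul]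
  obtain ⟨q, Q, x, hq, hpq, hQ, hxQ, hxp, y, hy, hxy⟩ := CfsgLib.LowDeg.exists_xq hsolv P hab hP
  haveI : Fact q.Prime := ⟨hq⟩
  -- a constituent which is moved
  obtain ⟨ψ, hψ, hψne⟩ : ∃ ψ ∈ l, ψ (x * y * x⁻¹ * y⁻¹) ≠ ψ 1 := by
    by_contra hcon
    push Not at hcon
    have h1 : χ (x * y * x⁻¹ * y⁻¹) = χ 1 := by
      rw [hsum, hsumapply, hsumapply, Multiset.map_congr rfl hcon]
    have h2 := hfaith _ h1
    apply hxy
    calc x * y = (x * y * x⁻¹ * y⁻¹) * (y * x) := by group
      _ = _ := by rw [h2, one_mul]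
  have hcore : p ≤ charDegree ψ ∨ (∃ m, 1 ≤ m ∧ p - 1 = q ^ m ∧ p - 1 ≤ charDegree ψ) := by
    obtain ⟨m, τ, hτ, hτψ⟩ := hl ψ hψ
    have h2 : Module.finrank ℂ (Fin m → ℂ) = charDegree ψ := by
      have h3 := (hdegs ψ hψ).1
      rw [← hτψ, Representation.char_one] at h3
      have h4 : ((Module.finrank ℂ (Fin m → ℂ) : ℕ) : ℂ) = ((charDegree τ.character : ℕ) : ℂ) := h3
      rw [← hτψ]
      exact_mod_cast h4
    rw [← h2]
    apply CfsgLib.LowDeg.core τ hpq Q x hQ hxQ hxp
    refine ⟨y, hy, fun heq => hψne ?_⟩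
    have h5 : τ (x * y * x⁻¹ * y⁻¹) = τ 1 := by
      rw [map_mul, heq, ← map_mul, mul_inv_cancel]
    rw [← hτψ]
    simp only [Representation.character, h5]
  obtain ⟨l₂, hl₂⟩ := Multiset.exists_cons_of_mem hψ
  have htot2 : n = charDegree ψ + (l₂.map charDegree).sum := by
    rw [htot, hl₂, Multiset.map_cons, Multiset.sum_cons]
  rcases hcore with h1 | ⟨m, hm, hpm, hle⟩
  · omega
  have hnp' : n + 1 = p := by
    have := hp.one_lt
    omega
  have hzero : (l₂.map charDegree).sum = 0 := by omega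
  have hl₂0 : l₂ = 0 := by
    rw [Multiset.eq_zero_iff_forall_notMem]
    intro φ hφ
    have h2 : charDegree φ ≤ (l₂.map charDegree).sum :=
      Multiset.single_le_sum (fun x _ => Nat.zero_le x) _ (Multiset.mem_map_of_mem charDegree hφ)
    have h3 : 0 < charDegree φ := (hdegs φ (by rw [hl₂]; exact Multiset.mem_cons_of_mem hφ)).2
    omega
  have hχψ : χ = ψ := by rw [hsum, hl₂, hl₂0]; simp
  have hp2 : p ≠ 2 := by
    rintro rfl
    have h3 : 1 < q ^ m := Nat.one_lt_pow (by omega) hq.one_lt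
    omega
  refine ⟨hnp', ⟨m, ?_⟩, hχψ ▸ hl ψ hψ⟩
  have hq2 : q = 2 := by
    have h3 : 2 ∣ q ^ m := by
      rw [← hpm]
      have := hp.eq_two_or_odd
      omega
    exact ((Nat.prime_dvd_prime_iff_eq Nat.prime_two hq).1 (Nat.prime_two.dvd_of_dvd_pow h3)).symm
  rw [← hq2, ← hpm]
  omega


end Cfsg.Agent.S4468
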