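import Cfsg.Statements.S4474
import Cfsg.Agent.LibFS
import Cfsg.Agent.LibExtend

set_option autoImplicit false
set_option linter.all false
open Cfsg

namespace Cfsg.Agent.S4474

open CfsgLib.FS CfsgLib.CharBasic Matrix
open scoped ComplexOrder ComplexConjugate

variable {G : Type*} [Group G] [Fintype G] {n : ℕ}

/-- complexification in matrix form -/
noncomputable def cx (r : Representation ℝ G (Fin n → ℝ)) : Representation ℂ G (Fin n → ℂ) where
  toFun g := Matrix.toLin' ((LinearMap.toMatrix' (r g)).map Complex.ofRealHom)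
  map_one' := by
    rw [map_one, LinearMap.toMatrix'_one, Matrix.map_one _ (map_zero _) (map_one _), Matrix.toLin'_one]
    rfl
  map_mul' g h := by
    rw [map_mul, LinearMap.toMatrix'_mul, Matrix.map_mul, Matrix.toLin'_mul]
    rfl

theorem mat_cx (r : Representation ℝ G (Fin n → ℝ)) (g : G) : mat (cx r) g = (LinearMap.toMatrix' (r g)).map Complex.ofRealHom := by
  show LinearMap.toMatrix' (Matrix.toLin' _) = _
  rw [LinearMap.toMatrix'_toLin']

theorem character_cx (r : Representation ℝ G (Fin n → ℝ)) (g : G) :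
    (cx r).character g = ((LinearMap.trace ℝ (Fin n → ℝ) (r g) : ℝ) : ℂ) := by
  rw [← trace_mat, mat_cx, LinearMap.trace_eq_matrix_trace ℝ (Pi.basisFun ℝ (Fin n))]
  simp only [Matrix.trace, Complex.ofReal_sum]
  rfl

theorem sum_cx (r : Representation ℝ G (Fin n → ℝ)) [(cx r).IsIrreducible] :
    ∑ g : G, (cx r).character (g * g) = Nat.card G := by
  have hnt : Nontrivial (Fin n → ℂ) := irr_nontrivial (cx r)
  have hn : Nonempty (Fin n) := by
    by_contra h
    rw [not_nonempty_iff] at h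
    exact not_subsingleton (Fin n → ℂ) inferInstance
  obtain ⟨i⟩ := hn
  have h0 : avg (cx r) 1 ≠ 0 := by
    intro h
    have h1 := congrFun (congrFun h i) i
    rw [avg_apply, Matrix.sum_apply] at h1
    have h2 : ∀ g, ((mat (cx r) g * 1 * (mat (cx r) g).transpose : Matrix (Fin n) (Fin n) ℂ)) i i = ((∑ j, (LinearMap.toMatrix' (r g) i j) ^ 2 : ℝ) : ℂ) := by
      intro g
      rw [Matrix.mul_one, Matrix.mul_apply, Complex.ofReal_sum]
      refine Finset.sum_congr rfl fun j _ => ?_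
      rw [Matrix.transpose_apply, mat_cx, Matrix.map_apply, pow_two, Complex.ofReal_mul]
      rfl
    rw [Finset.sum_congr rfl fun g _ => h2 g, ← Complex.ofReal_sum, Matrix.zero_apply, Complex.ofReal_eq_zero] at h1
    have h3 : ∀ g ∈ Finset.univ, 0 ≤ ∑ j, (LinearMap.toMatrix' (r g) i j) ^ 2 := fun g _ => Finset.sum_nonneg fun j _ => sq_nonneg _
    have h4 := (Finset.sum_eq_zero_iff_of_nonneg h3).mp h1 1 (Finset.mem_univ _)
    have h5 := (Finset.sum_eq_zero_iff_of_nonneg (fun j _ => sq_nonneg _)).mp h4 i (Finset.mem_univ _)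
    rw [map_one, LinearMap.toMatrix'_one, Matrix.one_apply_eq] at h5
    norm_num at h5
  obtain ⟨ε, -, h1, h2⟩ := sum_char_sq_of_isInv (isInv_avg (cx r) 1) h0
  rw [← avg_transpose, Matrix.transpose_one] at h1
  have h3 : (ε - 1) • avg (cx r) 1 = 0 := by rw [sub_smul, ← h1, one_smul, sub_self]
  have h4 := (smul_eq_zero.mp h3).resolve_right h0
  rw [h2, sub_eq_zero.mp h4, one_mul]

/-- entrywise complex conjugation -/
noncomputable def cm (M : Matrix (Fin n) (Fin n) ℂ) : Matrix (Fin n) (Fin n) ℂ := M.map (starRingEnd ℂ)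

theorem cm_mul (M N : Matrix (Fin n) (Fin n) ℂ) : cm (M * N) = cm M * cm N := Matrix.map_mul
theorem cm_one : cm (1 : Matrix (Fin n) (Fin n) ℂ) = 1 := Matrix.map_one _ (map_zero _) (map_one _)
theorem cm_cm (M : Matrix (Fin n) (Fin n) ℂ) : cm (cm M) = M := by ext i j; simp [cm]
theorem cm_smul (c : ℂ) (M : Matrix (Fin n) (Fin n) ℂ) : cm (c • M) = conj c • cm M := by ext i j; simp [cm]
theorem cm_add (M N : Matrix (Fin n) (Fin n) ℂ) : cm (M + N) = cm M + cm N := by ext i j; simp [cm]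
theorem cm_eq (M : Matrix (Fin n) (Fin n) ℂ) : cm M = Mᴴᵀ := by ext i j; simp [cm]

theorem exists_unit_comb (X : Matrix (Fin n) (Fin n) ℂ) :
    ∃ s : ℝ, IsUnit ((1 + s * Complex.I : ℂ) • (1 : Matrix (Fin n) (Fin n) ℂ) + (1 - s * Complex.I : ℂ) • X) := by
  classical
  let P : Polynomial ℂ := ((1 + Polynomial.X * Polynomial.C Complex.I) • (1 : Matrix (Fin n) (Fin n) (Polynomial ℂ)) +
    (1 - Polynomial.X * Polynomial.C Complex.I) • X.map Polynomial.C).det
  have hP : ∀ s : ℂ, P.eval s = ((1 + s * Complex.I : ℂ) • (1 : Matrix (Fin n) (Fin n) ℂ) + (1 - s * Complex.I : ℂ) • X).det := by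
    intro s
    have h1 : P.eval s = Polynomial.evalRingHom s P := rfl
    rw [h1, RingHom.map_det]
    congr 1
    ext i j
    by_cases h : i = j
    · subst h; simp; ring
    · simp [h]; left; ring
  have hP0 : P ≠ 0 := by
    intro h
    have h1 := hP (-Complex.I)
    rw [h, Polynomial.eval_zero] at h1
    have h2 : (1 + -Complex.I * Complex.I : ℂ) = 2 := by
      rw [neg_mul, Complex.I_mul_I]; norm_num
    have h3 : (1 - -Complex.I * Complex.I : ℂ) = 0 := by
      rw [neg_mul, Complex.I_mul_I]; norm_num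
    rw [h2, h3, zero_smul, add_zero, Matrix.det_smul, Matrix.det_one, mul_one] at h1
    exact pow_ne_zero _ two_ne_zero h1.symm
  by_contra hcon
  push Not at hcon
  apply hP0
  apply Polynomial.eq_zero_of_infinite_isRoot
  apply Set.Infinite.mono (s := Set.range (fun s : ℝ => (s : ℂ)))
  · rintro _ ⟨s, rfl⟩
    have h1 := hcon s
    rw [Matrix.isUnit_iff_isUnit_det, isUnit_iff_ne_zero, not_not] at h1
    show P.IsRoot _
    rw [Polynomial.IsRoot, hP]
    exact h1
  · exact Set.infinite_range_of_injective Complex.ofReal_injective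

theorem exists_real_form (ρ : Representation ℂ G (Fin n → ℂ)) [hρ : ρ.IsIrreducible]
    (hν : ∑ s : G, ρ.character (s * s) = Nat.card G) :
    ∃ r : Representation ℝ G (Fin n → ℝ), ∀ g, ((LinearMap.trace ℝ (Fin n → ℝ) (r g) : ℝ) : ℂ) = ρ.character g := by
  classical
  have hG : (Nat.card G : ℂ) ≠ 0 := by exact_mod_cast Nat.card_pos.ne'
  have hnt : Nontrivial (Fin n → ℂ) := irr_nontrivial ρ
  have hn : Nonempty (Fin n) := by
    by_contra h
    rw [not_nonempty_iff] at h
    exact not_subsingleton (Fin n → ℂ) inferInstance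
  obtain ⟨S, hS, hS0⟩ : ∃ S : Matrix (Fin n) (Fin n) ℂ, IsInv ρ S ∧ S ≠ 0 := by
    by_contra hcon
    push Not at hcon
    have h0 : ∀ E, avg ρ E = 0 := fun E => hcon _ (isInv_avg ρ E)
    rw [sum_char_sq] at hν
    simp only [h0, Matrix.zero_apply, Finset.sum_const_zero] at hν
    exact hG hν.symm
  obtain ⟨ε, -, hSt, hε⟩ := sum_char_sq_of_isInv hS hS0
  have hε1 : ε = 1 := by
    rw [hν] at hε
    field_simp at hε
    exact hε.symm
  rw [hε1, one_smul] at hSt
  have hSu := isUnit_of_isInv hS hS0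
  -- the hermitian form
  set H : Matrix (Fin n) (Fin n) ℂ := ∑ g : G, mat ρ g * (mat ρ g)ᴴ with hH
  have hHp : H.PosDef := by
    rw [hH, ← Finset.add_sum_erase _ _ (Finset.mem_univ (1 : G)), mat_one, Matrix.conjTranspose_one, Matrix.mul_one]
    apply Matrix.PosDef.add_posSemidef Matrix.PosDef.one
    exact Matrix.posSemidef_sum _ fun g _ => Matrix.posSemidef_self_mul_conjTranspose _
  have hHinv : ∀ g, mat ρ g * H * (mat ρ g)ᴴ = H := by
    intro g
    rw [hH, Matrix.mul_sum, Matrix.sum_mul]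
    refine Fintype.sum_equiv (Equiv.mulLeft g) _ _ fun x => ?_
    simp only [Equiv.coe_mulLeft, mat_mul, Matrix.conjTranspose_mul, Matrix.mul_assoc]
  have hTp : Hᵀ.PosDef := hHp.transpose
  set K := (Hᵀ)⁻¹ with hK
  have hKp : K.PosDef := hTp.inv
  have hdet : IsUnit (Hᵀ).det := (Matrix.isUnit_iff_isUnit_det _).mp hTp.isUnit
  have hKH : K * Hᵀ = 1 := Matrix.nonsing_inv_mul _ hdet
  have hHK : Hᵀ * K = 1 := Matrix.mul_nonsing_inv _ hdet
  have h1 : ∀ g, cm (mat ρ g) * Hᵀ = Hᵀ * (mat ρ g⁻¹)ᵀ := by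
    intro g
    have h2 := congrArg Matrix.transpose (hHinv g)
    rw [Matrix.transpose_mul, Matrix.transpose_mul, ← cm_eq, ← Matrix.mul_assoc] at h2
    calc cm (mat ρ g) * Hᵀ = cm (mat ρ g) * Hᵀ * (mat ρ g)ᵀ * (mat ρ g⁻¹)ᵀ := by
          rw [Matrix.mul_assoc (cm (mat ρ g) * Hᵀ), ← Matrix.transpose_mul, mat_inv_mul, Matrix.transpose_one, Matrix.mul_one]
      _ = Hᵀ * (mat ρ g⁻¹)ᵀ := by rw [h2]
  have h2 : ∀ g, (mat ρ g⁻¹)ᵀ * K = K * cm (mat ρ g) := by
    intro g
    calc (mat ρ g⁻¹)ᵀ * K = K * (Hᵀ * (mat ρ g⁻¹)ᵀ) * K := by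
          rw [← Matrix.mul_assoc K, hKH, Matrix.one_mul]
      _ = K * cm (mat ρ g) := by
          rw [← h1, Matrix.mul_assoc, Matrix.mul_assoc, hHK, Matrix.mul_one]
  set X := S * K with hX
  have hUX : ∀ g, mat ρ g * X = X * cm (mat ρ g) := by
    intro g
    rw [hX, ← Matrix.mul_assoc, isInv_comm hS, Matrix.mul_assoc, h2, Matrix.mul_assoc]
  obtain ⟨c, hc⟩ := schur_scalar ρ (Matrix.toLin' (X * cm X)) (by
    intro g v
    rw [← toLin_mat ρ g, ← LinearMap.comp_apply, ← LinearMap.comp_apply, ← Matrix.toLin'_mul,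
      ← Matrix.toLin'_mul]
    congr 2
    calc X * cm X * mat ρ g = X * cm (X * cm (mat ρ g)) := by rw [cm_mul X (cm (mat ρ g)), cm_cm, Matrix.mul_assoc]
      _ = mat ρ g * (X * cm X) := by rw [← hUX, cm_mul (mat ρ g) X, ← Matrix.mul_assoc, ← hUX, Matrix.mul_assoc])
  have hXX : X * cm X = c • (1 : Matrix (Fin n) (Fin n) ℂ) := by
    apply Matrix.toLin'.injective
    rw [hc, map_smul, Matrix.toLin'_one]
  -- positivity
  have hcmS : cm S = Sᴴ := by
    have h3 : cm S = cm Sᵀ := by rw [hSt]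
    rw [h3]
    ext i j
    simp [cm]
  have hpos : c • H = S * K * Sᴴ := by
    have h3 : cm K * H = 1 := by
      have h5 : cm K = Kᵀ := by
        have h6 : Kᴴ = K := hKp.isHermitian
        rw [cm_eq, h6]
      have h7 := congrArg Matrix.transpose hHK
      rw [Matrix.transpose_mul, Matrix.transpose_transpose, Matrix.transpose_one] at h7
      rw [h5, h7]
    have h4 : X * cm X * H = S * K * Sᴴ := by
      rw [hX, cm_mul, ← hcmS, Matrix.mul_assoc, Matrix.mul_assoc (cm S), h3, Matrix.mul_one]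
    rw [← h4, hXX, Matrix.smul_mul, Matrix.one_mul]
  have hpd : (S * K * Sᴴ).PosDef := by
    apply hKp.mul_mul_conjTranspose_same
    exact Matrix.vecMul_injective_iff_isUnit.mpr hSu
  rw [← hpos] at hpd
  obtain ⟨i⟩ := hn
  have hd1 : 0 < H i i := hHp.diag_pos
  have hd2 : 0 < (c • H) i i := hpd.diag_pos
  rw [Matrix.smul_apply, smul_eq_mul] at hd2
  obtain ⟨hd1r, hd1i⟩ := Complex.pos_iff.mp hd1
  obtain ⟨hd2r, hd2i⟩ := Complex.pos_iff.mp hd2
  rw [Complex.mul_re, ← hd1i, mul_zero, sub_zero] at hd2r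
  rw [Complex.mul_im, ← hd1i, mul_zero, zero_add] at hd2i
  have hcr : 0 < c.re := pos_of_mul_pos_left hd2r hd1r.le
  have hci : c.im = 0 := by
    rcases mul_eq_zero.mp hd2i.symm with h | h
    · exact h
    · exact absurd h hd1r.ne'
  -- normalise
  set t : ℝ := (Real.sqrt c.re)⁻¹ with ht
  have htt : (t : ℂ) * ((t : ℂ) * c) = 1 := by
    have h3 : c = (c.re : ℂ) := Complex.ext rfl (by rw [hci]; rfl)
    have h4 : t * (t * c.re) = 1 := by
      rw [ht]
      have h5 : Real.sqrt c.re ≠ 0 := (Real.sqrt_pos.mpr hcr).ne'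
      have h6 := Real.mul_self_sqrt hcr.le
      field_simp
      rw [pow_two, h6]
    rw [h3]
    exact_mod_cast h4
  set X' := (t : ℂ) • X with hX'
  have hX'X : X' * cm X' = 1 := by
    rw [hX', cm_smul, Complex.conj_ofReal, Matrix.smul_mul, Matrix.mul_smul, hXX, smul_smul, smul_smul, mul_assoc, htt, one_smul]
  have hXX' : cm X' * X' = 1 := by
    have h3 := congrArg cm hX'X
    rw [cm_mul, cm_cm, cm_one] at h3
    exact h3
  have hUX' : ∀ g, mat ρ g * X' = X' * cm (mat ρ g) := by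
    intro g
    rw [hX', Matrix.mul_smul, hUX, Matrix.smul_mul]
  obtain ⟨s, Y, hY⟩ := exists_unit_comb (cm X')
  have hcmY : cm (Y : Matrix (Fin n) (Fin n) ℂ) = Y * X' := by
    rw [hY, cm_add, cm_smul, cm_smul, cm_one, cm_cm, Matrix.add_mul, Matrix.smul_mul, Matrix.smul_mul, hXX', Matrix.one_mul,
      add_comm]
    congr 2
    · simp
    · simp [sub_eq_add_neg]
  set Yi : Matrix (Fin n) (Fin n) ℂ := ((Y⁻¹ : (Matrix (Fin n) (Fin n) ℂ)ˣ) : Matrix (Fin n) (Fin n) ℂ) with hYi
  have hYYi : (Y : Matrix (Fin n) (Fin n) ℂ) * Yi = 1 := Y.mul_inv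
  have hYiY : Yi * (Y : Matrix (Fin n) (Fin n) ℂ) = 1 := Y.inv_mul
  set R : G → Matrix (Fin n) (Fin n) ℂ := fun g => (Y : Matrix (Fin n) (Fin n) ℂ) * mat ρ g * Yi with hR
  have hRm : ∀ g h, R (g * h) = R g * R h := by
    intro g h
    simp only [hR]
    rw [mat_mul]
    calc (Y : Matrix (Fin n) (Fin n) ℂ) * (mat ρ g * mat ρ h) * Yi = Y * mat ρ g * (1 * mat ρ h) * Yi := by
          rw [Matrix.one_mul, Matrix.mul_assoc (Y : Matrix (Fin n) (Fin n) ℂ) (mat ρ g) (mat ρ h)]
      _ = _ := by rw [← hYiY]; simp only [Matrix.mul_assoc]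
  have hR1 : R 1 = 1 := by
    simp only [hR]
    rw [mat_one, Matrix.mul_one, hYYi]
  have hcR : ∀ g, cm (R g) = R g := by
    intro g
    have h3 : cm (R g) * cm (Y : Matrix (Fin n) (Fin n) ℂ) = R g * cm (Y : Matrix (Fin n) (Fin n) ℂ) := by
      simp only [hR]
      rw [← cm_mul, Matrix.mul_assoc _ Yi, hYiY, Matrix.mul_one, cm_mul, hcmY, Matrix.mul_assoc, ← hUX', ← Matrix.mul_assoc,
        Matrix.mul_assoc _ Yi, ← Matrix.mul_assoc Yi, hYiY, Matrix.one_mul]
    have h4 : cm (Y : Matrix (Fin n) (Fin n) ℂ) * cm Yi = 1 := by rw [← cm_mul, hYYi, cm_one]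
    calc cm (R g) = cm (R g) * cm (Y : Matrix (Fin n) (Fin n) ℂ) * cm Yi := by rw [Matrix.mul_assoc, h4, Matrix.mul_one]
      _ = R g := by rw [h3, Matrix.mul_assoc, h4, Matrix.mul_one]
  have hRre : ∀ g, ((R g).map Complex.re).map Complex.ofRealHom = R g := by
    intro g
    ext i j
    have h3 := congrFun (congrFun (hcR g) i) j
    have h4 : conj (R g i j) = R g i j := h3
    rw [Matrix.map_apply, Matrix.map_apply]
    exact Complex.conj_eq_iff_re.mp h4
  have hinj : Function.Injective (fun M : Matrix (Fin n) (Fin n) ℝ => M.map Complex.ofRealHom) := by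
    intro M N h
    ext i j
    exact Complex.ofReal_injective (congrFun (congrFun h i) j)
  let r : Representation ℝ G (Fin n → ℝ) :=
    { toFun := fun g => Matrix.toLin' ((R g).map Complex.re)
      map_one' := by
        have h3 : (R 1).map Complex.re = 1 := by
          apply hinj
          show ((R 1).map Complex.re).map Complex.ofRealHom = (1 : Matrix (Fin n) (Fin n) ℝ).map Complex.ofRealHom
          rw [hRre, hR1, Matrix.map_one _ (map_zero _) (map_one _)]
        rw [h3, Matrix.toLin'_one]; rfl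
      map_mul' := by
        intro g h
        have h3 : (R (g * h)).map Complex.re = (R g).map Complex.re * (R h).map Complex.re := by
          apply hinj
          show ((R (g * h)).map Complex.re).map Complex.ofRealHom = ((R g).map Complex.re * (R h).map Complex.re).map Complex.ofRealHom
          rw [Matrix.map_mul, hRre, hRre, hRre, hRm]
        rw [h3, Matrix.toLin'_mul]; rfl }
  refine ⟨r, fun g => ?_⟩
  have h3 : LinearMap.trace ℝ (Fin n → ℝ) (r g) = ((R g).map Complex.re).trace := by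
    show LinearMap.trace ℝ (Fin n → ℝ) (Matrix.toLin' _) = _
    rw [Matrix.trace_toLin'_eq]
  have h4 : ((((R g).map Complex.re).trace : ℝ) : ℂ) = (R g).trace := by
    conv_rhs => rw [← hRre g]
    simp only [Matrix.trace, Complex.ofReal_sum]
    rfl
  rw [h3, h4]
  simp only [hR]
  rw [Matrix.trace_mul_comm, ← Matrix.mul_assoc, hYiY, Matrix.one_mul, trace_mat]

/-- Let χ be an irreducible character of the finite group G. Then the Frobenius–Schur indicator of χ (the average over s ∈ G of χ(s²)) equals 1 if and only if χ is afforded by a real representation: there is a representation of G on a real coordinate space whose trace function, viewed in ℂ, is χ. -/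
theorem result {G : Type*} [Group G] [Fintype G] (χ : Cfsg.IrrCharacter G) : ((Nat.card G : ℂ)⁻¹ * ∑ s : G, (χ : G → ℂ) (s * s)) = 1 ↔ ∃ (n : ℕ) (ρ : Representation ℝ G (Fin n → ℝ)), ∀ g : G, ((LinearMap.trace ℝ (Fin n → ℝ) (ρ g) : ℝ) : ℂ) = (χ : G → ℂ) g := by
  have hG : (Nat.card G : ℂ) ≠ 0 := by exact_mod_cast Nat.card_pos.ne'
  constructor
  · intro h
    obtain ⟨n, ρ, hρ, hχ⟩ := χ.2
    rw [← hχ] at h ⊢
    have h1 : ∑ s : G, ρ.character (s * s) = Nat.card G := by
      have h2 := congrArg (fun z => (Nat.card G : ℂ) * z) h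
      simp only [mul_one] at h2
      rwa [mul_inv_cancel_left₀ hG] at h2
    obtain ⟨r, hr⟩ := exists_real_form ρ h1
    exact ⟨n, r, hr⟩
  · rintro ⟨n, r, hr⟩
    have hχ : (cx r).character = (χ : G → ℂ) := by
      ext g
      rw [character_cx, hr]
    haveI : (cx r).IsIrreducible := CfsgLib.Extend.isIrreducible_of_char _ (by rw [hχ]; exact χ.2)
    have h1 := sum_cx r
    rw [hχ] at h1
    rw [h1, inv_mul_cancel₀ hG]

end Cfsg.Agent.S4474
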