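import Cfsg.Statements.S4475
import Cfsg.Agent.LibFS
import Cfsg.Agent.LibExtend

set_option autoImplicit false
set_option linter.all false
open Cfsg

namespace Cfsg.Agent.S4475

open CfsgLib.FS CfsgLib.CharBasic

variable {G : Type*} [Group G] [Fintype G] {n : ℕ}

/-- the contragredient representation in matrix form -/
noncomputable def dual (ρ : Representation ℂ G (Fin n → ℂ)) : Representation ℂ G (Fin n → ℂ) where
  toFun g := Matrix.toLin' (mat ρ g⁻¹).transpose
  map_one' := by
    rw [inv_one, mat_one, Matrix.transpose_one, Matrix.toLin'_one]; rfl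
  map_mul' g h := by
    rw [mul_inv_rev, mat_mul, Matrix.transpose_mul, Matrix.toLin'_mul]; rfl

theorem mat_dual (ρ : Representation ℂ G (Fin n → ℂ)) (g : G) : mat (dual ρ) g = (mat ρ g⁻¹).transpose := by
  show LinearMap.toMatrix' (Matrix.toLin' _) = _
  rw [LinearMap.toMatrix'_toLin']

theorem dual_irr (ρ : Representation ℂ G (Fin n → ℂ)) [hρ : ρ.IsIrreducible] :
    (dual ρ).IsIrreducible ∧ ∀ g, (dual ρ).character g = ρ.character g⁻¹ := by
  have h1 : ∀ g, (dual ρ).character g = ρ.character g⁻¹ := by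
    intro g
    rw [← trace_mat, mat_dual, Matrix.trace_transpose, trace_mat]
  refine ⟨CfsgLib.Extend.isIrreducible_of_char _ ?_, h1⟩
  have h2 : (dual ρ).character = fun g => (starRingEnd ℂ) (ρ.character g) := by
    ext g
    rw [h1, char_inv_eq_conj (isCharacter_character ρ)]
  rw [h2]
  exact isIrrCharacter_conj ⟨n, ρ, hρ, rfl⟩

/-- Let ρ be an irreducible representation of the finite group G on the coordinate space Fin n → ℂ whose character χ is real-valued, and let ν be the Frobenius–Schur indicator of χ (the average of χ(s²)). Writing X(g) for the matrix of ρ(g), there is a nonzero matrix M with X(g)ᵀ M X(g) = M for all g ∈ G; and every such M (zero or not) satisfies Mᵀ = ν·M. -/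
theorem result {G : Type*} [Group G] [Fintype G] (n : ℕ) (ρ : Representation ℂ G (Fin n → ℂ)) (hirr : ρ.IsIrreducible) (hreal : ∀ g : G, (ρ.character g).im = 0) : (∃ M : Matrix (Fin n) (Fin n) ℂ, M ≠ 0 ∧ ∀ g : G, (LinearMap.toMatrix' (ρ g)).transpose * M * LinearMap.toMatrix' (ρ g) = M) ∧ ∀ M : Matrix (Fin n) (Fin n) ℂ, (∀ g : G, (LinearMap.toMatrix' (ρ g)).transpose * M * LinearMap.toMatrix' (ρ g) = M) → M.transpose = ((Nat.card G : ℂ)⁻¹ * ∑ s : G, ρ.character (s * s)) • M := by
  haveI := hirr
  obtain ⟨hdi, hdc⟩ := dual_irr ρ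
  haveI := hdi
  have hIff : ∀ M : Matrix (Fin n) (Fin n) ℂ, IsInv (dual ρ) M ↔
      ∀ g : G, (LinearMap.toMatrix' (ρ g)).transpose * M * LinearMap.toMatrix' (ρ g) = M := by
    intro M
    constructor
    · intro h g
      have h1 := h g⁻¹
      rw [mat_dual, inv_inv, Matrix.transpose_transpose] at h1
      exact h1
    · intro h g
      rw [mat_dual, Matrix.transpose_transpose]
      exact h g⁻¹
  constructor
  · by_contra hcon
    have h0 : ∀ E, avg (dual ρ) E = 0 := by
      intro E
      by_contra hE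
      exact hcon ⟨_, hE, (hIff _).mp (isInv_avg (dual ρ) E)⟩
    have h1 := irr_inner_self (⟨n, dual ρ, hdi, rfl⟩ : IsIrrCharacter G (dual ρ).character)
    have h2 : ∑ g : G, (dual ρ).character g * (dual ρ).character g = 0 := by
      rw [sum_char_mul]; simp [h0]
    rw [classInner] at h1
    have h3 : ∑ g : G, (dual ρ).character g * (starRingEnd ℂ) ((dual ρ).character g) = 0 := by
      rw [← h2]
      refine Finset.sum_congr rfl fun g _ => ?_
      rw [hdc, Complex.conj_eq_iff_im.2 (hreal g⁻¹)]
    rw [h3, mul_zero] at h1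
    exact zero_ne_one h1
  · intro M hM
    by_cases hM0 : M = 0
    · rw [hM0]; simp
    obtain ⟨ε, -, h1, h2⟩ := sum_char_sq_of_isInv ((hIff M).mpr hM) hM0
    have h3 : ∑ s : G, ρ.character (s * s) = ε * Nat.card G := by
      rw [← h2]
      refine Fintype.sum_equiv (Equiv.inv G) _ _ fun g => ?_
      rw [hdc]
      congr 1
      simp
    have hG : (Nat.card G : ℂ) ≠ 0 := by exact_mod_cast Nat.card_pos.ne'
    rw [h1, h3, mul_comm ε, inv_mul_cancel_left₀ hG]

end Cfsg.Agent.S4475
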