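import Cfsg.Statements.S4476
import Cfsg.Agent.LibFS
import Cfsg.Agent.LibCharInt2

set_option autoImplicit false
open Cfsg

namespace Cfsg.Agent.S4476


open CfsgLib CfsgLib.CharBasic CfsgLib.FS

section
variable {G : Type*} [Group G] [Fintype G]

theorem card_sq_one : Nat.card {x : G // x * x = 1} = Nat.card {x : G // orderOf x = 2} + 1 := by
  classical
  rw [Nat.card_eq_fintype_card, Nat.card_eq_fintype_card, Fintype.card_subtype, Fintype.card_subtype]
  have h1 : (Finset.univ.filter fun x : G => x * x = 1) = insert 1 (Finset.univ.filter fun x : G => orderOf x = 2) := by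
    ext x
    simp only [Finset.mem_filter, Finset.mem_univ, true_and, Finset.mem_insert]
    constructor
    · intro h
      by_cases hx : x = 1
      · exact Or.inl hx
      · right
        exact orderOf_eq_prime (by rw [pow_two]; exact h) hx
    · rintro (rfl | h)
      · simp
      · rw [← pow_two, ← h, pow_orderOf_eq_one]
  rw [h1, Finset.card_insert_of_notMem]
  simp

/-- the non-principal real-valued irreducible characters -/
noncomputable def RR (G : Type*) [Group G] [Fintype G] : Finset (Cfsg.IrrCharacter G) := by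
  classical
  exact Finset.univ.filter fun χ => (χ : G → ℂ) ≠ (fun _ => 1) ∧ ∀ g, ((χ : G → ℂ) g).im = 0

noncomputable def dd (χ : Cfsg.IrrCharacter G) : ℝ := (Cfsg.charDegree (χ : G → ℂ) : ℝ)

theorem dd_pos (χ : Cfsg.IrrCharacter G) : 0 < dd χ := by
  unfold dd
  have h := CharInt.irr_one_eq_charDegree χ.2
  have h1 := irr_one_ne_zero χ.2
  have : Cfsg.charDegree (χ : G → ℂ) ≠ 0 := by
    intro h0
    rw [h, h0] at h1
    exact h1 (by simp)
  exact_mod_cast Nat.pos_of_ne_zero this

theorem inv_le_sum : (Nat.card {x : G // orderOf x = 2} : ℝ) ≤ ∑ χ ∈ RR G, dd χ := by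
  classical
  have h1 := sqrt_count (1 : G)
  rw [card_sq_one] at h1
  choose e he he' using fun χ : Cfsg.IrrCharacter G => fs_int χ.2
  have h2 : ((Nat.card {x : G // orderOf x = 2} : ℝ) + 1) = ∑ χ : Cfsg.IrrCharacter G, (e χ : ℝ) * dd χ := by
    have h3 : (((Nat.card {x : G // orderOf x = 2} : ℝ) + 1 : ℝ) : ℂ) = ((∑ χ : Cfsg.IrrCharacter G, (e χ : ℝ) * dd χ : ℝ) : ℂ) := by
      push_cast at h1 ⊢
      rw [h1]
      refine Finset.sum_congr rfl fun χ _ => ?_
      rw [he, CharInt.irr_one_eq_charDegree χ.2]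
      simp [dd]
    exact_mod_cast h3
  set one : Cfsg.IrrCharacter G := ⟨fun _ => 1, isIrrCharacter_one⟩ with hone
  have h4 : (e one : ℝ) * dd one = 1 := by
    have h5 : fsInd (fun _ : G => (1 : ℂ)) = 1 := fsInd_one
    have h6 : (e one : ℂ) = 1 := by rw [← he]; exact h5
    have h7 : e one = 1 := by exact_mod_cast h6
    have h8 : dd one = 1 := by
      have := CharInt.irr_one_eq_charDegree one.2
      have h9 : (Cfsg.charDegree (one : G → ℂ) : ℂ) = 1 := this.symm
      unfold dd
      exact_mod_cast h9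
    rw [h7, h8]; simp
  rw [← Finset.add_sum_erase _ _ (Finset.mem_univ one), h4] at h2
  have h5 : (Nat.card {x : G // orderOf x = 2} : ℝ) = ∑ χ ∈ Finset.univ.erase one, (e χ : ℝ) * dd χ := by linarith
  rw [h5]
  have h6 : RR G ⊆ Finset.univ.erase one := by
    intro χ hχ
    rw [RR, Finset.mem_filter] at hχ
    rw [Finset.mem_erase]
    exact ⟨fun h => hχ.2.1 (by rw [h]), Finset.mem_univ _⟩
  rw [← Finset.sum_subset h6 (f := fun χ => (e χ : ℝ) * dd χ)]
  · apply Finset.sum_le_sum
    intro χ _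
    have h7 := dd_pos χ
    rcases he' χ with h | h | h <;> rw [h] <;> push_cast <;> linarith
  · intro χ h7 h8
    rw [RR, Finset.mem_filter, not_and] at h8
    rw [Finset.mem_erase] at h7
    have h9 : ¬ ∀ g, ((χ : G → ℂ) g).im = 0 := fun h => h8 (Finset.mem_univ _) ⟨fun h' => h7.1 (Subtype.ext h'), h⟩
    have h10 : fsInd (χ : G → ℂ) = 0 := by
      by_contra hne
      exact h9 ((fs_ne_zero_iff χ.2).mp hne)
    rw [he] at h10
    have h11 : e χ = 0 := by exact_mod_cast h10
    rw [h11]; simp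

theorem sum_sq_le : ∑ χ ∈ RR G, dd χ ^ 2 ≤ (Nat.card G : ℝ) - 1 := by
  classical
  have h1 := sum_sq_degree (G := G)
  have h2 : ∑ χ : Cfsg.IrrCharacter G, dd χ ^ 2 = (Nat.card G : ℝ) := by
    have h3 : ((∑ χ : Cfsg.IrrCharacter G, dd χ ^ 2 : ℝ) : ℂ) = ((Nat.card G : ℝ) : ℂ) := by
      push_cast
      rw [← h1]
      refine Finset.sum_congr rfl fun χ _ => ?_
      rw [CharInt.irr_one_eq_charDegree χ.2]
      simp [dd]
    exact_mod_cast h3
  set one : Cfsg.IrrCharacter G := ⟨fun _ => 1, isIrrCharacter_one⟩ with hone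
  have h8 : dd one = 1 := by
    have := CharInt.irr_one_eq_charDegree one.2
    have h9 : (Cfsg.charDegree (one : G → ℂ) : ℂ) = 1 := this.symm
    unfold dd
    exact_mod_cast h9
  rw [← Finset.add_sum_erase _ _ (Finset.mem_univ one), h8] at h2
  have h6 : RR G ⊆ Finset.univ.erase one := by
    intro χ hχ
    rw [RR, Finset.mem_filter] at hχ
    rw [Finset.mem_erase]
    exact ⟨fun h => hχ.2.1 (by rw [h]), Finset.mem_univ _⟩
  have h7 := Finset.sum_le_sum_of_subset_of_nonneg h6 (f := fun χ => dd χ ^ 2) (fun _ _ _ => sq_nonneg _)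
  linarith

theorem card_RR : (((RR G).card : ℕ) : ℝ) ≤ (Nat.card (ConjClasses G) : ℝ) - 1 := by
  classical
  set one : Cfsg.IrrCharacter G := ⟨fun _ => 1, isIrrCharacter_one⟩ with hone
  have h6 : RR G ⊆ Finset.univ.erase one := by
    intro χ hχ
    rw [RR, Finset.mem_filter] at hχ
    rw [Finset.mem_erase]
    exact ⟨fun h => hχ.2.1 (by rw [h]), Finset.mem_univ _⟩
  have h7 := Finset.card_le_card h6
  rw [Finset.card_erase_of_mem (Finset.mem_univ _), Finset.card_univ, ← Nat.card_eq_fintype_card, card_irr] at h7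
  have h8 : 0 < Nat.card (ConjClasses G) := Nat.card_pos
  have h9 : (((RR G).card : ℕ) : ℝ) ≤ ((Nat.card (ConjClasses G) - 1 : ℕ) : ℝ) := by exact_mod_cast h7
  rw [Nat.cast_sub h8] at h9
  simpa using h9

theorem class_sum (B : ℝ) (hB : ∀ x : G, x ≠ 1 → B < ((Subgroup.centralizer ({x} : Set G)).index : ℝ)) (hk : 1 < Nat.card (ConjClasses G)) :
    ((Nat.card (ConjClasses G) : ℝ) - 1) * B < (Nat.card G : ℝ) - 1 := by
  classical
  have h1 := sum_conjClasses_card_eq_card G
  have h2 : ∀ K : ConjClasses G, ∀ x : G, ConjClasses.mk x = K → K.carrier.toFinset.card = (Subgroup.centralizer ({x} : Set G)).index := by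
    rintro K x rfl
    rw [← card_class_eq_index, Nat.card_eq_fintype_card, Fintype.card_subtype]
    congr 1
    ext y
    rw [Set.mem_toFinset, ConjClasses.mem_carrier_iff_mk_eq, Finset.mem_filter, ConjClasses.mk_eq_mk_iff_isConj, isConj_comm]
    simp
  have h3 : (∑ K : ConjClasses G, (K.carrier.toFinset.card : ℝ)) = (Nat.card G : ℝ) := by
    rw [Nat.card_eq_fintype_card, ← h1]; push_cast; rfl
  rw [← Finset.add_sum_erase _ _ (Finset.mem_univ (1 : ConjClasses G))] at h3
  have h4 : (((1 : ConjClasses G).carrier.toFinset.card : ℕ) : ℝ) = 1 := by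
    rw [h2 1 1 rfl]
    have : Subgroup.centralizer ({1} : Set G) = ⊤ := by
      rw [eq_top_iff]
      intro x _
      rw [Subgroup.mem_centralizer_iff]
      intro y hy
      rw [Set.mem_singleton_iff.mp hy]; simp
    rw [this, Subgroup.index_top]; simp
  rw [h4] at h3
  have h5 : ((Finset.univ.erase (1 : ConjClasses G)).card : ℝ) * B < ∑ K ∈ Finset.univ.erase (1 : ConjClasses G), (K.carrier.toFinset.card : ℝ) := by
    rw [← nsmul_eq_mul, ← Finset.sum_const]
    apply Finset.sum_lt_sum_of_nonempty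
    · rw [← Finset.card_pos, Finset.card_erase_of_mem (Finset.mem_univ _), Finset.card_univ, ← Nat.card_eq_fintype_card]
      omega
    · intro K hK
      obtain ⟨x, rfl⟩ := ConjClasses.exists_rep K
      rw [h2 _ x rfl]
      apply hB
      rintro rfl
      exact (Finset.mem_erase.mp hK).1 rfl
  rw [Finset.card_erase_of_mem (Finset.mem_univ _), Finset.card_univ, ← Nat.card_eq_fintype_card, Nat.cast_sub (by omega)] at h5
  push_cast at h5
  linarith

end

/-- Let G be a finite group of even order g with exactly t involutions, and put α = (g − 1)/t (a rational number). Then (a) some non-identity element x of G has at most α² conjugates; and (b) some non-principal real-valued irreducible character of G has degree at most α. -/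
theorem result {G : Type*} [Group G] [Fintype G] (heven : Even (Nat.card G)) (t : ℕ) (ht : Nat.card {x : G // orderOf x = 2} = t) : (∃ x : G, x ≠ 1 ∧ ((Subgroup.centralizer ({x} : Set G)).index : ℚ) ≤ (((Nat.card G : ℚ) - 1) / t) ^ 2) ∧ ∃ χ : Cfsg.IrrCharacter G, (χ : G → ℂ) ≠ (fun _ => 1) ∧ (∀ g : G, ((χ : G → ℂ) g).im = 0) ∧ (Cfsg.charDegree (χ : G → ℂ) : ℚ) ≤ ((Nat.card G : ℚ) - 1) / t := by
  classical
  have ht0 : 0 < t := by
    haveI : Fact (Nat.Prime 2) := ⟨Nat.prime_two⟩
    obtain ⟨x, hx⟩ := exists_prime_orderOf_dvd_card' (G := G) 2 heven.two_dvd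
    rw [← ht, Nat.card_pos_iff]
    exact ⟨⟨⟨x, hx⟩⟩, inferInstance⟩
  have htr : (0 : ℝ) < t := by exact_mod_cast ht0
  have h1 := inv_le_sum (G := G)
  rw [ht] at h1
  have h2 := sum_sq_le (G := G)
  have h3 := card_RR (G := G)
  have hne : (RR G).Nonempty := by
    by_contra h
    rw [Finset.not_nonempty_iff_eq_empty] at h
    rw [h, Finset.sum_empty] at h1
    linarith
  have hcard : 1 < Nat.card (ConjClasses G) := by
    have h4 : 0 < (RR G).card := Finset.card_pos.mpr hne
    have h5 : (0 : ℝ) < (Nat.card (ConjClasses G) : ℝ) - 1 := lt_of_lt_of_le (by exact_mod_cast h4) h3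
    have h6 : (1 : ℝ) < Nat.card (ConjClasses G) := by linarith
    exact_mod_cast h6
  have hg1 : (0 : ℝ) < (Nat.card G : ℝ) - 1 := by
    obtain ⟨χ, hχ⟩ := hne
    have h7 : 0 < ∑ χ ∈ RR G, dd χ ^ 2 := Finset.sum_pos (fun χ _ => by have := dd_pos χ; positivity) ⟨χ, hχ⟩
    linarith
  constructor
  · by_contra hcon
    push Not at hcon
    have h4 := class_sum (G := G) ((((Nat.card G : ℝ) - 1) / t) ^ 2) (fun x hx => by
      have := hcon x hx
      have h5 : (((((Nat.card G : ℚ) - 1) / t) ^ 2 : ℚ) : ℝ) < (((Subgroup.centralizer ({x} : Set G)).index : ℚ) : ℝ) := by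
        exact_mod_cast this
      push_cast at h5
      exact h5) hcard
    -- Cauchy-Schwarz
    have h5 : (∑ χ ∈ RR G, dd χ) ^ 2 ≤ ((RR G).card : ℝ) * ∑ χ ∈ RR G, dd χ ^ 2 := sq_sum_le_card_mul_sum_sq
    have h6 : (t : ℝ) ^ 2 ≤ ((Nat.card (ConjClasses G) : ℝ) - 1) * ((Nat.card G : ℝ) - 1) := by
      have e1 : (t : ℝ) ^ 2 ≤ (∑ χ ∈ RR G, dd χ) ^ 2 := by
        apply pow_le_pow_left₀ htr.le h1
      have e2 : ((RR G).card : ℝ) * ∑ χ ∈ RR G, dd χ ^ 2 ≤ ((Nat.card (ConjClasses G) : ℝ) - 1) * ((Nat.card G : ℝ) - 1) := by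
        apply mul_le_mul h3 h2
        · exact Finset.sum_nonneg fun _ _ => sq_nonneg _
        · have : (0 : ℝ) ≤ ((RR G).card : ℝ) := by positivity
          linarith
      linarith
    rw [div_pow, mul_div_assoc'] at h4
    rw [div_lt_iff₀ (by positivity)] at h4
    nlinarith
  · by_contra hcon
    push Not at hcon
    have h4 : ∀ χ ∈ RR G, ((Nat.card G : ℝ) - 1) / t < dd χ := by
      intro χ hχ
      rw [RR, Finset.mem_filter] at hχ
      have := hcon χ hχ.2.1 hχ.2.2
      have h5 : (((((Nat.card G : ℚ) - 1) / t) : ℚ) : ℝ) < ((Cfsg.charDegree (χ : G → ℂ) : ℚ) : ℝ) := by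
        exact_mod_cast this
      push_cast at h5
      exact h5
    have h5 : ((Nat.card G : ℝ) - 1) / t * ∑ χ ∈ RR G, dd χ < ∑ χ ∈ RR G, dd χ ^ 2 := by
      rw [Finset.mul_sum]
      apply Finset.sum_lt_sum_of_nonempty hne
      intro χ hχ
      rw [pow_two]
      exact mul_lt_mul_of_pos_right (h4 χ hχ) (dd_pos χ)
    have h6 : ((Nat.card G : ℝ) - 1) / t * t ≤ ((Nat.card G : ℝ) - 1) / t * ∑ χ ∈ RR G, dd χ := by
      apply mul_le_mul_of_nonneg_left h1
      positivity
    rw [div_mul_cancel₀ _ htr.ne'] at h6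
    linarith

end Cfsg.Agent.S4476
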