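import Cfsg.Statements.S4477
import Cfsg.Agent.LibFS
import Cfsg.Agent.LibCharInt2
import Cfsg.Agent.LibExtraH28
import Cfsg.Agent.LibGlaub4

set_option autoImplicit false
set_option linter.all false
open Cfsg

namespace Cfsg.Agent.S4477


open CfsgLib CfsgLib.CharBasic CfsgLib.FS

section
variable {G : Type*} [Group G] [Fintype G]

theorem card_sq_one : Nat.card {x : G // x * x = 1} = Nat.card {x : G // orderOf x = 2} + 1 := by
  classical
  rw [Nat.card_eq_fintype_card, Nat.card_eq_fintype_card, Fintype.card_subtype, Fintype.card_subtype]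
  have h1 : (Finset.univ.filter fun x : G => x * x = 1) = insert 1 (Finset.univ.filter fun x : G => orderOf x = 2) := by
    ext x
    simp only [Finset.mem_filter, Finset.mem_univ, true_and, Finset.mem_insert]
    constructor
    · intro h
      by_cases hx : x = 1
      · exact Or.inl hx
      · right
        exact orderOf_eq_prime (by rw [pow_two]; exact h) hx
    · rintro (rfl | h)
      · simp
      · rw [← pow_two, ← h, pow_orderOf_eq_one]
  rw [h1, Finset.card_insert_of_notMem]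
  simp

theorem finite_hom : Finite (G →* ℂˣ) := by
  have h1 := card_hom (G := G)
  apply Nat.finite_of_card_ne_zero
  rw [h1]
  exact Subgroup.index_ne_zero_of_finite

/-- homomorphisms of order at most two -/
def LL (G : Type*) [Group G] : Subgroup (G →* ℂˣ) := (powMonoidHom 2).ker

theorem mem_LL {l : G →* ℂˣ} : l ∈ LL G ↔ l ^ 2 = 1 := Iff.rfl

/-- sign character of a subgroup of index two -/
theorem exists_sign (hG : IsPGroup 2 G) {M : Subgroup G} (hM : IsCoatom M) :
    ∃ l ∈ LL G, l.ker = M := by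
  haveI : Fact (Nat.Prime 2) := ⟨Nat.prime_two⟩
  haveI := ExtraH28.coatom_normal hG hM
  have hidx := ExtraH28.coatom_index hG hM
  have hcard : Nat.card (G ⧸ M) = 2 := hidx
  haveI : IsCyclic (G ⧸ M) := isCyclic_of_prime_card hcard
  have hab : ∀ a b : G ⧸ M, a * b = b * a := fun a b => by
    letI := IsCyclic.commGroup (α := G ⧸ M)
    exact mul_comm a b
  obtain ⟨g, hg⟩ : ∃ g : G, g ∉ M := by
    by_contra hcon
    push Not at hcon
    exact hM.1 (eq_top_iff.mpr fun x _ => hcon x)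
  have hg' : (g : G ⧸ M) ≠ 1 := fun h => hg ((QuotientGroup.eq_one_iff g).mp h)
  obtain ⟨f, hf⟩ := exists_hom_ne_one hab hg'
  refine ⟨f.comp (QuotientGroup.mk' M), ?_, ?_⟩
  · rw [mem_LL]
    ext x
    have h1 : (x : G ⧸ M) ^ 2 = 1 := by rw [← hcard]; exact pow_card_eq_one'
    have h2 : f (x : G ⧸ M) ^ 2 = 1 := by rw [← map_pow, h1, map_one]
    change ((f (x : G ⧸ M) ^ 2 : ℂˣ) : ℂ) = 1
    rw [h2]; simp
  · have h3 : M ≤ (f.comp (QuotientGroup.mk' M)).ker := by
      intro m hm
      rw [MonoidHom.mem_ker]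
      change f (m : G ⧸ M) = 1
      rw [(QuotientGroup.eq_one_iff m).mpr hm, map_one]
    rcases hM.le_iff.mp h3 with h4 | h4
    · exfalso
      apply hf
      have : g ∈ (f.comp (QuotientGroup.mk' M)).ker := by rw [h4]; trivial
      exact this
    · exact h4

theorem four_dvd (hG : IsPGroup 2 G) (hc : ¬ IsCyclic G) : 4 ∣ Nat.card (LL G) := by
  haveI : Fact (Nat.Prime 2) := ⟨Nat.prime_two⟩
  haveI := finite_hom (G := G)
  have hnt : Nontrivial G := by
    by_contra h
    rw [not_nontrivial_iff_subsingleton] at h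
    exact hc inferInstance
  obtain ⟨M, hM, -⟩ := IsCoatomic.eq_top_or_exists_le_coatom (⊥ : Subgroup G) |>.resolve_left bot_ne_top
  obtain ⟨g, hg⟩ : ∃ g : G, g ∉ M := by
    by_contra hcon
    push Not at hcon
    exact hM.1 (eq_top_iff.mpr fun x _ => hcon x)
  have hgt : Subgroup.zpowers g ≠ ⊤ := fun h => hc ⟨g, fun x => by
    rw [Subgroup.mem_zpowers_iff.symm.trans Iff.rfl]
    rw [h]; trivial⟩
  obtain ⟨M', hM', hgM'⟩ := IsCoatomic.eq_top_or_exists_le_coatom (Subgroup.zpowers g) |>.resolve_left hgt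
  have hne : M ≠ M' := by
    rintro rfl
    exact hg (hgM' (Subgroup.mem_zpowers g))
  obtain ⟨l, hl, hlk⟩ := exists_sign hG hM
  obtain ⟨l', hl', hlk'⟩ := exists_sign hG hM'
  have h1 : IsPGroup 2 (LL G) := by
    intro x
    refine ⟨1, ?_⟩
    apply Subtype.ext
    rw [pow_one]
    exact x.2
  obtain ⟨k, hk⟩ := IsPGroup.iff_card.mp h1
  have hne1 : l ≠ 1 := by
    rintro rfl
    apply hM.1
    rw [← hlk]; ext x; simp
  have hne1' : l' ≠ 1 := by
    rintro rfl
    apply hM'.1
    rw [← hlk']; ext x; simp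
  have hne2 : l ≠ l' := by
    rintro rfl
    exact hne (hlk.symm.trans hlk')
  have h2 : 2 < Nat.card (LL G) := by
    classical
    haveI := Fintype.ofFinite (LL G)
    rw [Nat.card_eq_fintype_card]
    have h3 : ({⟨1, one_mem _⟩, ⟨l, hl⟩, ⟨l', hl'⟩} : Finset (LL G)).card = 3 := by
      rw [Finset.card_eq_three]
      refine ⟨_, _, _, ?_, ?_, ?_, rfl⟩
      · intro h; exact hne1 (congrArg Subtype.val h).symm
      · intro h; exact hne1' (congrArg Subtype.val h).symm
      · intro h; exact hne2 (congrArg Subtype.val h)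
    have h4 := Finset.card_le_univ ({⟨1, one_mem _⟩, ⟨l, hl⟩, ⟨l', hl'⟩} : Finset (LL G))
    rw [h3] at h4
    exact h4
  rw [hk] at h2 ⊢
  have h5 : 2 ≤ k := by
    by_contra h
    push Not at h
    interval_cases k <;> simp at h2
  obtain ⟨j, rfl⟩ := Nat.exists_eq_add_of_le h5
  exact ⟨2 ^ j, by rw [pow_add]; norm_num⟩

theorem card_real_linear : Nat.card {χ : Cfsg.IrrCharacter G // (χ : G → ℂ) 1 = 1 ∧ ∀ g, ((χ : G → ℂ) g).im = 0} =
    Nat.card (LL G) := by
  symm
  apply Nat.card_congr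
  refine Equiv.ofBijective (fun l => ⟨⟨fun g => ((l : G →* ℂˣ) g : ℂ), isIrrCharacter_hom _⟩, by simp, ?_⟩) ⟨?_, ?_⟩
  · intro g
    have h1 : ((l : G →* ℂˣ) g : ℂ) ^ 2 = 1 := by
      have h2 : (l : G →* ℂˣ) ^ 2 = 1 := l.2
      have h3 := congrArg (fun f : G →* ℂˣ => ((f g : ℂˣ) : ℂ)) h2
      simpa using h3
    rw [pow_two] at h1
    rcases mul_self_eq_one_iff.mp h1 with h | h
    · change (((l : G →* ℂˣ) g : ℂ)).im = 0
      rw [h]; simp
    · change (((l : G →* ℂˣ) g : ℂ)).im = 0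
      rw [h]; simp
  · intro l l' h
    apply Subtype.ext
    apply hom_ext_fun
    have := congrArg (fun x : {χ : Cfsg.IrrCharacter G // (χ : G → ℂ) 1 = 1 ∧ ∀ g, ((χ : G → ℂ) g).im = 0} => ((x.1 : Cfsg.IrrCharacter G) : G → ℂ)) h
    exact this
  · rintro ⟨χ, h1, h2⟩
    obtain ⟨f, hf⟩ := exists_hom_of_linear (irr_isCharacter χ.2) h1
    refine ⟨⟨f, ?_⟩, ?_⟩
    · rw [mem_LL]
      ext g
      have h3 : ‖(f g : ℂ)‖ = 1 := by
        apply norm_one_of_pow (n := Nat.card G) Nat.card_pos.ne'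
        rw [← Units.val_pow_eq_pow_val, ← map_pow, pow_card_eq_one']; simp
      have h4 : (f g : ℂ).im = 0 := by rw [← hf]; exact h2 g
      change ((f g ^ 2 : ℂˣ) : ℂ) = 1
      rw [Units.val_pow_eq_pow_val]
      have h5 : (f g : ℂ) = ((f g : ℂ).re : ℂ) := by
        apply Complex.ext
        · simp
        · simp [h4]
      rw [h5] at h3 ⊢
      rw [Complex.norm_real, Real.norm_eq_abs] at h3
      rw [← Complex.ofReal_pow, ← sq_abs, h3]; simp
    · apply Subtype.ext; apply Subtype.ext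
      ext g
      exact (hf g).symm

/-- degree as a natural number -/
theorem deg_eq (χ : Cfsg.IrrCharacter G) : (χ : G → ℂ) 1 = (Cfsg.charDegree (χ : G → ℂ) : ℂ) :=
  CharInt.irr_one_eq_charDegree χ.2

/-- irreducible characters of degree two -/
noncomputable def XX (G : Type*) [Group G] [Fintype G] : Finset (Cfsg.IrrCharacter G) := by
  classical
  exact Finset.univ.filter fun χ => Cfsg.charDegree (χ : G → ℂ) = 2

theorem mem_XX {χ : Cfsg.IrrCharacter G} : χ ∈ XX G ↔ Cfsg.charDegree (χ : G → ℂ) = 2 := by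
  unfold XX
  rw [Finset.mem_filter]
  exact ⟨fun h => h.2, fun h => ⟨Finset.mem_univ _, h⟩⟩

theorem conj_deg (χ : Cfsg.IrrCharacter G) :
    Cfsg.charDegree (fun g => (starRingEnd ℂ) ((χ : G → ℂ) g)) = Cfsg.charDegree (χ : G → ℂ) := by
  have h1 := CharInt.irr_one_eq_charDegree (isIrrCharacter_conj χ.2)
  have h2 := deg_eq χ
  rw [h2] at h1
  simp only [Complex.conj_natCast] at h1
  exact_mod_cast h1.symm

theorem real_odd_iff [DecidablePred fun χ : Cfsg.IrrCharacter G => ∀ g, ((χ : G → ℂ) g).im = 0] :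
    ((XX G).card : ZMod 2) = (((XX G).filter fun χ : Cfsg.IrrCharacter G => ∀ g, ((χ : G → ℂ) g).im = 0).card : ZMod 2) := by
  classical
  rw [← Finset.card_filter_add_card_filter_not (s := XX G) (fun χ : Cfsg.IrrCharacter G => ∀ g, ((χ : G → ℂ) g).im = 0)]
  push_cast
  suffices h : (((XX G).filter fun χ : Cfsg.IrrCharacter G => ¬ ∀ g, ((χ : G → ℂ) g).im = 0).card : ZMod 2) = 0 by
    rw [h, add_zero]
  have h1 : (((XX G).filter fun χ : Cfsg.IrrCharacter G => ¬ ∀ g, ((χ : G → ℂ) g).im = 0).card : ZMod 2) =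
      ∑ χ ∈ (XX G).filter fun χ : Cfsg.IrrCharacter G => ¬ ∀ g, ((χ : G → ℂ) g).im = 0, (1 : ZMod 2) := by
    rw [Finset.sum_const, nsmul_eq_mul, mul_one]
  rw [h1]
  apply Finset.sum_involution (fun (χ : Cfsg.IrrCharacter G) _ => (⟨fun g => (starRingEnd ℂ) ((χ : G → ℂ) g), isIrrCharacter_conj χ.2⟩ : Cfsg.IrrCharacter G))
  · intro χ _
    decide
  · intro χ hχ _ h
    rw [Finset.mem_filter] at hχ
    apply hχ.2
    intro g
    have := congrFun (congrArg Subtype.val h) g
    exact Complex.conj_eq_iff_im.mp this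
  · intro χ hχ
    rw [Finset.mem_filter] at hχ ⊢
    refine ⟨?_, ?_⟩
    · exact mem_XX.mpr ((conj_deg χ).trans (mem_XX.mp hχ.1))
    · intro h
      apply hχ.2
      intro g
      have := h g
      simp only [Complex.conj_im] at this
      linarith
  · intro χ _
    apply Subtype.ext
    ext g
    simp

theorem main (hG : IsPGroup 2 G) (ht : Nat.card {x : G // orderOf x = 2} % 4 = 1) (hc : ¬ IsCyclic G) :
    (commutator G).index = 4 := by
  classical
  haveI : Fact (Nat.Prime 2) := ⟨Nat.prime_two⟩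
  haveI := finite_hom (G := G)
  have h4 := four_dvd hG hc
  have h1 := sqrt_count (1 : G)
  rw [card_sq_one] at h1
  choose e he he' using fun χ : Cfsg.IrrCharacter G => fs_int χ.2
  have h2 : ((Nat.card {x : G // orderOf x = 2} : ℤ) + 1) = ∑ χ : Cfsg.IrrCharacter G, e χ * (Cfsg.charDegree (χ : G → ℂ) : ℤ) := by
    have h3 : ((((Nat.card {x : G // orderOf x = 2} : ℤ) + 1 : ℤ)) : ℂ) =
        ((∑ χ : Cfsg.IrrCharacter G, e χ * (Cfsg.charDegree (χ : G → ℂ) : ℤ) : ℤ) : ℂ) := by
      push_cast at h1 ⊢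
      rw [h1]
      refine Finset.sum_congr rfl fun χ _ => ?_
      rw [he, deg_eq χ]
    exact_mod_cast h3
  have h3 : (((Nat.card {x : G // orderOf x = 2} : ℤ) + 1 : ℤ) : ZMod 4) = 2 := by
    have h5 : ((Nat.card {x : G // orderOf x = 2} : ℕ) : ZMod 4) = 1 := by
      have := ZMod.natCast_mod (Nat.card {x : G // orderOf x = 2}) 4
      rw [ht] at this
      rw [← this]; simp
    push_cast
    rw [h5]; rfl
  -- degree is a power of two
  have hdeg : ∀ χ : Cfsg.IrrCharacter G, ∃ k, Cfsg.charDegree (χ : G → ℂ) = 2 ^ k := by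
    intro χ
    obtain ⟨n, hn⟩ := IsPGroup.iff_card.mp hG
    have h5 := CharInt2.charDegree_dvd_card χ.2
    rw [hn] at h5
    obtain ⟨k, -, hk⟩ := (Nat.dvd_prime_pow Nat.prime_two).mp h5
    exact ⟨k, hk⟩
  -- real linear characters have indicator one
  have hlin : ∀ χ : Cfsg.IrrCharacter G, (χ : G → ℂ) 1 = 1 → (∀ g, ((χ : G → ℂ) g).im = 0) → e χ = 1 := by
    intro χ h5 h6
    obtain ⟨f, hf⟩ := exists_hom_of_linear (irr_isCharacter χ.2) h5
    have h7 : fsInd (χ : G → ℂ) = 1 := by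
      rw [fsInd_eq]
      have h8 : ∀ g : G, (χ : G → ℂ) (g * g) = 1 := by
        intro g
        have h3 : ‖(f g : ℂ)‖ = 1 := by
          apply norm_one_of_pow (n := Nat.card G) Nat.card_pos.ne'
          rw [← Units.val_pow_eq_pow_val, ← map_pow, pow_card_eq_one']; simp
        have h4 : (f g : ℂ).im = 0 := by rw [← hf]; exact h6 g
        rw [hf, map_mul, Units.val_mul, ← pow_two]
        have h5 : (f g : ℂ) = ((f g : ℂ).re : ℂ) := by
          apply Complex.ext
          · simp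
          · simp [h4]
        rw [h5] at h3 ⊢
        rw [Complex.norm_real, Real.norm_eq_abs] at h3
        rw [← Complex.ofReal_pow, ← sq_abs, h3]; simp
      rw [Finset.sum_congr rfl fun g _ => h8 g, Finset.sum_const, nsmul_eq_mul, mul_one, Finset.card_univ,
        ← Nat.card_eq_fintype_card]
      exact inv_mul_cancel₀ (by exact_mod_cast Nat.card_pos.ne')
    rw [he] at h7
    exact_mod_cast h7
  -- the count modulo four
  have h5 : ∀ χ : Cfsg.IrrCharacter G, ((e χ * (Cfsg.charDegree (χ : G → ℂ) : ℤ) : ℤ) : ZMod 4) =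
      (if ((χ : G → ℂ) 1 = 1 ∧ ∀ g, ((χ : G → ℂ) g).im = 0) then 1 else 0) +
      2 * (if (χ ∈ XX G ∧ ∀ g, ((χ : G → ℂ) g).im = 0) then 1 else 0) := by
    intro χ
    obtain ⟨k, hk⟩ := hdeg χ
    have hre : (∀ g, ((χ : G → ℂ) g).im = 0) ↔ e χ ≠ 0 := by
      rw [← fs_ne_zero_iff χ.2, he]
      exact_mod_cast Iff.rfl
    have hd := deg_eq χ
    rw [hk] at hd
    by_cases hr : ∀ g, ((χ : G → ℂ) g).im = 0
    · rcases k with _ | _ | k
      · have h6 : (χ : G → ℂ) 1 = 1 := by rw [hd]; simp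
        rw [hlin χ h6 hr, hk, if_pos ⟨h6, hr⟩, if_neg]
        · simp
        · rintro ⟨h7, -⟩
          rw [XX, Finset.mem_filter, hk] at h7
          simp at h7
      · have h6 : ¬ ((χ : G → ℂ) 1 = 1) := by rw [hd]; norm_num
        have h7 : χ ∈ XX G := by
          rw [mem_XX, hk]; norm_num
        rw [if_neg (fun h => h6 h.1), if_pos ⟨h7, hr⟩, hk]
        rcases he' χ with h8 | h8 | h8
        · exact absurd h8 (hre.mp hr)
        · rw [h8]; rfl
        · rw [h8]; rfl
      · have h6 : ¬ ((χ : G → ℂ) 1 = 1) := by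
          rw [hd]
          intro h
          have : 2 ^ (k + 1 + 1) = 1 := by exact_mod_cast h
          rw [pow_succ] at this
          omega
        have h7 : χ ∉ XX G := by
          rw [mem_XX, hk]
          rintro h
          rw [pow_succ, pow_succ] at h
          have := Nat.one_le_two_pow (n := k)
          omega
        rw [if_neg (fun h => h6 h.1), if_neg (fun h => h7 h.1), hk]
        push_cast
        have h9 : (2 : ZMod 4) ^ (k + 1 + 1) = 0 := by
          rw [pow_succ, pow_succ, mul_assoc]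
          have : (2 : ZMod 4) * 2 = 0 := by decide
          rw [this, mul_zero]
        rw [h9]; simp
    · have h8 : e χ = 0 := by
        by_contra h; exact hr (hre.mpr h)
      rw [if_neg (fun h => hr h.2), if_neg (fun h => hr h.2), h8]; simp
  have h6 : (2 : ZMod 4) = (Nat.card (LL G) : ZMod 4) + 2 * (((XX G).filter fun χ : Cfsg.IrrCharacter G => ∀ g, ((χ : G → ℂ) g).im = 0).card : ZMod 4) := by
    refine h3.symm.trans ?_
    rw [h2]
    push_cast
    have h7 : ∑ χ : Cfsg.IrrCharacter G, ((e χ : ZMod 4) * (Cfsg.charDegree (χ : G → ℂ) : ZMod 4)) =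
        ∑ χ : Cfsg.IrrCharacter G, ((if ((χ : G → ℂ) 1 = 1 ∧ ∀ g, ((χ : G → ℂ) g).im = 0) then (1 : ZMod 4) else 0) +
      2 * (if (χ ∈ XX G ∧ ∀ g, ((χ : G → ℂ) g).im = 0) then 1 else 0)) := by
      refine Finset.sum_congr rfl fun χ _ => ?_
      rw [← h5]; push_cast; rfl
    rw [h7, Finset.sum_add_distrib, ← Finset.mul_sum, Finset.sum_boole, Finset.sum_boole, ← card_real_linear,
      Nat.card_eq_fintype_card, Fintype.card_subtype]
    have e3 : (Finset.univ.filter fun χ : Cfsg.IrrCharacter G => χ ∈ XX G ∧ ∀ g, ((χ : G → ℂ) g).im = 0) =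
        (XX G).filter fun χ : Cfsg.IrrCharacter G => ∀ g, ((χ : G → ℂ) g).im = 0 := by
      ext χ
      rw [Finset.mem_filter, Finset.mem_filter]
      exact ⟨fun h => h.2, fun h => ⟨Finset.mem_univ _, h⟩⟩
    rw [e3]
  have h7 : (Nat.card (LL G) : ZMod 4) = 0 := (ZMod.natCast_eq_zero_iff _ _).mpr h4
  rw [h7, zero_add] at h6
  have h8 : Odd ((XX G).filter fun χ : Cfsg.IrrCharacter G => ∀ g, ((χ : G → ℂ) g).im = 0).card := by
    by_contra h
    rw [Nat.not_odd_iff_even] at h
    obtain ⟨r, hr⟩ := h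
    rw [hr] at h6
    push_cast at h6
    have : (2 : ZMod 4) * ((r : ZMod 4) + r) = 0 := by
      have e1 : (2 : ZMod 4) * ((r : ZMod 4) + r) = 4 * r := by ring
      have e2 : (4 : ZMod 4) = 0 := by decide
      rw [e1, e2, zero_mul]
    rw [this] at h6
    exact absurd h6 (by decide)
  have h9 : Odd (XX G).card := by
    have h10 := real_odd_iff (G := G)
    rw [ZMod.natCast_eq_natCast_iff'] at h10
    rw [Nat.odd_iff] at h8 ⊢
    rw [h10, h8]
  -- the action of linear characters on XX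
  have hdegmul : ∀ (χ : Cfsg.IrrCharacter G) (l : G →* ℂˣ), Cfsg.charDegree (fun g => (χ : G → ℂ) g * l g) = Cfsg.charDegree (χ : G → ℂ) := by
    intro χ l
    have e1 := CharInt.irr_one_eq_charDegree (Glaub4.irr_mul_linear χ.2 l)
    rw [map_one, Units.val_one, mul_one, deg_eq χ] at e1
    exact_mod_cast e1.symm
  let Y := {χ : Cfsg.IrrCharacter G // χ ∈ XX G}
  letI : MulAction (G →* ℂˣ) Y :=
    { smul := fun l χ => ⟨⟨fun g => (χ.1 : G → ℂ) g * l g, Glaub4.irr_mul_linear χ.1.2 l⟩, mem_XX.mpr ((hdegmul χ.1 l).trans (mem_XX.mp χ.2))⟩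
      one_smul := fun χ => by
        apply Subtype.ext; apply Subtype.ext; ext g
        change (χ.1 : G → ℂ) g * ((1 : G →* ℂˣ) g : ℂ) = _
        simp
      mul_smul := fun l l' χ => by
        apply Subtype.ext; apply Subtype.ext; ext g
        change (χ.1 : G → ℂ) g * ((l * l') g : ℂ) = (χ.1 : G → ℂ) g * (l' g) * (l g)
        rw [MonoidHom.mul_apply, Units.val_mul]; ring }
  have hΛ : IsPGroup 2 (G →* ℂˣ) := by
    intro l
    obtain ⟨n, hn⟩ := IsPGroup.iff_card.mp hG
    refine ⟨n, ?_⟩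
    ext g
    have h11 : l g ^ 2 ^ n = 1 := by rw [← map_pow, ← hn, pow_card_eq_one', map_one]
    change ((l g ^ 2 ^ n : ℂˣ) : ℂ) = 1
    rw [h11]; simp
  have hcardY : ¬ 2 ∣ Nat.card Y := by
    have : Nat.card Y = (XX G).card := by
      rw [Nat.card_eq_fintype_card, Fintype.card_coe]
    rw [this]
    intro h
    exact (Nat.not_even_iff_odd.mpr h9) (even_iff_two_dvd.mpr h)
  obtain ⟨χ, hχ⟩ := hΛ.nonempty_fixed_point_of_prime_not_dvd_card Y hcardY
  have hχ2 : Cfsg.charDegree (χ.1 : G → ℂ) = 2 := mem_XX.mp χ.2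
  have hfix : ∀ (l : G →* ℂˣ) (g : G), (χ.1 : G → ℂ) g * l g = (χ.1 : G → ℂ) g := by
    intro l g
    have := congrArg (fun y : Y => (y.1 : G → ℂ) g) (hχ l)
    exact this
  have hvan : ∀ g, g ∉ commutator G → (χ.1 : G → ℂ) g = 0 := by
    intro g hg
    have hab : ∀ a b : G ⧸ commutator G, a * b = b * a := fun a b => mul_comm (G := Abelianization G) a b
    have hg' : (g : G ⧸ commutator G) ≠ 1 := fun h => hg ((QuotientGroup.eq_one_iff g).mp h)
    obtain ⟨f, hf⟩ := exists_hom_ne_one hab hg'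
    have h10 := hfix (f.comp (QuotientGroup.mk' (commutator G))) g
    have h11 : (χ.1 : G → ℂ) g * ((f (g : G ⧸ commutator G) : ℂ) - 1) = 0 := by
      have : (χ.1 : G → ℂ) g * (f (g : G ⧸ commutator G) : ℂ) = (χ.1 : G → ℂ) g := h10
      rw [mul_sub, this]; ring
    rcases mul_eq_zero.mp h11 with h12 | h12
    · exact h12
    · exfalso
      apply hf
      ext
      rw [sub_eq_zero] at h12
      simpa using h12
  have hnorm := irr_inner_self χ.1.2
  rw [CharBasic.inner_self_eq] at hnorm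
  have hnorm' : (Nat.card G : ℝ)⁻¹ * ∑ g : G, ‖(χ.1 : G → ℂ) g‖ ^ 2 = 1 := by exact_mod_cast hnorm
  have hGpos : (0 : ℝ) < Nat.card G := by exact_mod_cast Nat.card_pos
  have hsum : ∑ g : G, ‖(χ.1 : G → ℂ) g‖ ^ 2 = Nat.card G := by
    field_simp at hnorm'
    linarith
  have hle : ∑ g : G, ‖(χ.1 : G → ℂ) g‖ ^ 2 ≤ ∑ g : G, if g ∈ commutator G then (4 : ℝ) else 0 := by
    apply Finset.sum_le_sum
    intro g _
    split_ifs with h
    · have h10 := char_norm_le (irr_isCharacter χ.1.2) g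
      rw [deg_eq, hχ2] at h10
      have h11 : ‖(χ.1 : G → ℂ) g‖ ≤ 2 := by simpa using h10
      have h12 := norm_nonneg ((χ.1 : G → ℂ) g)
      nlinarith
    · rw [hvan g h]; simp
  rw [hsum, ← Finset.sum_filter, Finset.sum_const, nsmul_eq_mul] at hle
  have hcc : (Finset.univ.filter fun g : G => g ∈ commutator G).card = Nat.card (commutator G) := by
    rw [Nat.card_eq_fintype_card, Fintype.card_subtype]
  rw [hcc] at hle
  have hle' : Nat.card G ≤ Nat.card (commutator G) * 4 := by exact_mod_cast hle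
  rw [← Subgroup.card_mul_index (commutator G)] at hle'
  have hle2 : (commutator G).index ≤ 4 := Nat.le_of_mul_le_mul_left hle' Nat.card_pos
  have hdvd : 4 ∣ (commutator G).index := by
    rw [← card_hom]
    exact h4.trans (Subgroup.card_subgroup_dvd_card (LL G))
  exact le_antisymm hle2 (Nat.le_of_dvd (Nat.pos_of_ne_zero Subgroup.index_ne_zero_of_finite) hdvd)

end

/-- Let G be a finite 2-group whose number of involutions is congruent to 1 modulo 4. Then G is cyclic or its commutator subgroup has index 4. -/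
theorem result {G : Type*} [Group G] [Finite G] (hG : IsPGroup 2 G) (ht : Nat.card {x : G // orderOf x = 2} % 4 = 1) : IsCyclic G ∨ (commutator G).index = 4 := by
  classical
  haveI := Fintype.ofFinite G
  by_cases hc : IsCyclic G
  · exact Or.inl hc
  · right
    exact main hG ht hc

end Cfsg.Agent.S4477
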