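import Cfsg.Statements.S4482
import Cfsg.Agent.LibDihLoc20d
import Cfsg.Agent.S0206

set_option autoImplicit false
set_option linter.all false
open Cfsg

namespace Cfsg.Agent.S4482

/-- An order formula for groups with dihedral Sylow 2-subgroups and one class of involutions. Let G be a finite group whose Sylow 2-subgroup P = ⟨σ, τ⟩ is dihedral of order 2^n ≥ 8 (σ of order 2^(n−1), τ an involution inverting σ), let J be the central involution σ^(2^(n−2)), and suppose J, τ and στ are conjugate in G. Fix M over 2 and let χ₁ be an irreducible character in the principal 2-block taking one constant value δ₁ = ±1 at every non-identity power of σ, with χ₁ ≠ 1. Then, with x₁ = χ₁(1) and c(·) denoting orders of centralizers, x₁ ≠ δ₁ and #G · (x₁ − δ₁)² = 2·x₁(x₁ + δ₁)·c(J)³·(1/c(J, τ) + 1/c(J, στ))², where c(J, y) is the order of the joint centralizer of J and y. -/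
theorem result {G : Type*} [Group G] [Finite G] (M : Ideal Cfsg.AlgInt) (hM : Cfsg.IsPModular 2 M) (n : ℕ) (hn : 3 ≤ n) (P : Sylow 2 G) (σ τ : G) (hσ : σ ∈ (P : Subgroup G)) (hτ : τ ∈ (P : Subgroup G)) (hσo : orderOf σ = 2 ^ (n - 1)) (hτo : orderOf τ = 2) (hrel : τ * σ * τ⁻¹ = σ⁻¹) (hgen : Subgroup.closure ({σ, τ} : Set G) = (P : Subgroup G)) (hconj : IsConj (σ ^ (2 ^ (n - 2))) τ ∧ IsConj (σ ^ (2 ^ (n - 2))) (σ * τ)) (χ₁ : Cfsg.IrrCharacter G) (hχ₁ : χ₁ ∈ Cfsg.principalBlock M G) (h1 : (χ₁ : G → ℂ) ≠ (fun _ => 1)) (δ₁ : ℤ) (hδ₁ : δ₁ = 1 ∨ δ₁ = -1) (hval : ∀ l : ℕ, 0 < l → l < 2 ^ (n - 1) → (χ₁ : G → ℂ) (σ ^ l) = δ₁) : (Cfsg.charDegree (χ₁ : G → ℂ) : ℤ) ≠ δ₁ ∧ (Nat.card G : ℚ) * ((Cfsg.charDegree (χ₁ : G → ℂ) : ℚ) - δ₁) ^ 2 = 2 * (Cfsg.charDegree (χ₁ : G → ℂ) : ℚ) * ((Cfsg.charDegree (χ₁ : G → ℂ) : ℚ) + δ₁) * (Nat.card (Subgroup.centralizer ({σ ^ (2 ^ (n - 2))} : Set G))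 : ℚ) ^ 3 * (1 / (Nat.card (Subgroup.centralizer ({σ ^ (2 ^ (n - 2)), τ} : Set G)) : ℚ) + 1 / (Nat.card (Subgroup.centralizer ({σ ^ (2 ^ (n - 2)), σ * τ} : Set G)) : ℚ)) ^ 2 := by
  classical
  letI := Fintype.ofFinite G
  have hN2 : 2 ^ (n - 1) = 2 * 2 ^ (n - 2) := by rw [← pow_succ']; congr 1; omega
  have hN4 : 4 ≤ 2 ^ (n - 1) := by
    calc 4 = 2 ^ 2 := by norm_num
      _ ≤ 2 ^ (n - 1) := Nat.pow_le_pow_right (by norm_num) (by omega)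
  have h2pos : 0 < 2 ^ (n - 2) := by positivity
  have hττ : τ * τ = 1 := by rw [← pow_two, ← hτo, pow_orderOf_eq_one]
  have hτi : τ⁻¹ = τ := inv_eq_of_mul_eq_one_left hττ
  have hστ : σ * τ * (σ * τ) = 1 := by
    calc σ * τ * (σ * τ) = σ * (τ * σ * τ⁻¹) * (τ * τ) := by group
      _ = 1 := by rw [hrel, hττ]; group
  have hστ1 : σ * τ ≠ 1 := by
    intro h2
    have h3 : σ = τ⁻¹ := eq_inv_of_mul_eq_one_left h2
    have h4 : orderOf σ = 2 := by rw [h3, orderOf_inv, hτo]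
    omega
  have hτ1 : τ ≠ 1 := by
    rintro rfl
    rw [orderOf_one] at hτo
    omega
  have hστo : orderOf (σ * τ) = 2 := orderOf_eq_prime (by rw [pow_two]; exact hστ) hστ1
  have hprod : σ * τ * τ = σ := by rw [mul_assoc, hττ, mul_one]
  have hcl : Subgroup.closure ({σ * τ, τ} : Set G) = (P : Subgroup G) := by
    rw [← hgen]
    apply le_antisymm
    · rw [Subgroup.closure_le]
      rintro x (rfl | hx)
      · exact mul_mem (Subgroup.subset_closure (by simp)) (Subgroup.subset_closure (by simp))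
      · rw [Set.mem_singleton_iff] at hx; rw [hx]; exact Subgroup.subset_closure (by simp)
    · rw [Subgroup.closure_le]
      rintro x (hx | hx)
      · rw [hx]
        have h1 : σ * τ * τ ∈ Subgroup.closure ({σ * τ, τ} : Set G) :=
          mul_mem (Subgroup.subset_closure (by simp)) (Subgroup.subset_closure (by simp))
        rw [hprod] at h1; exact h1
      · rw [Set.mem_singleton_iff] at hx; rw [hx]; exact Subgroup.subset_closure (by simp)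
  have hP : Nonempty ((P : Subgroup G) ≃* DihedralGroup (2 ^ (n - 1))) := by
    have h1 := Cfsg.Agent.S0206.result (σ * τ) τ hστo hτo (by
      intro h2
      have : σ = 1 := by simpa using h2
      rw [this, orderOf_one] at hσo
      omega)
    rw [hcl, hprod, hσo] at h1
    exact h1
  obtain ⟨s, h0⟩ := CfsgLib.DihBlk20.mkHyp hn hP hσ hσo
  have h := h0.change hτ hττ hrel
  have hζ := Complex.isPrimitiveRoot_exp (2 ^ (n - 1)) (by positivity)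
  obtain ⟨ζ, hζd⟩ : ∃ ζ : ℂ, ζ = Complex.exp (2 * Real.pi * Complex.I / (2 ^ (n - 1) : ℕ)) := ⟨_, rfl⟩
  rw [← hζd] at hζ
  obtain ⟨a, b, c, y, ε, εb, εc, C⟩ := CfsgLib.DihBlk20.exists_conf h hM hζ
  -- identify `χ₁`
  have hv1 := hval 1 (by norm_num) (by omega)
  have hv2 := hval 2 (by norm_num) (by omega)
  have hvJ := hval (2 ^ (n - 2)) h2pos (by omega)
  have hbad : ∀ δ : ℤ, (δ = 1 ∨ δ = -1) → (δ₁ : ℂ) = (δ : ℂ) * (-1) ^ 1 → (δ₁ : ℂ) = (δ : ℂ) * (-1) ^ 2 → False := by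
    intro δ hδ e1 e2
    rw [e1] at e2
    have e3 : (δ : ℂ) = 0 := by linear_combination -(1 / 2 : ℂ) * e2
    have e4 : δ = 0 := by exact_mod_cast e3
    rcases hδ with h5 | h5 <;> omega
  have hχa : χ₁ = a := by
    rcases C.complete h hM hζ hχ₁ with h5 | h5 | h5 | h5 | ⟨j, h5⟩
    · exact absurd (by rw [h5]; rfl) h1
    · exact h5
    · exfalso
      rw [h5, C.val_b h hζ (by norm_num) (by omega)] at hv1 hv2
      exact hbad εb C.hεb hv1.symm hv2.symm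
    · exfalso
      rw [h5, C.val_c h hζ (by norm_num) (by omega)] at hv1 hv2
      exact hbad εc C.hεc hv1.symm hv2.symm
    · exfalso
      rw [h5, C.val_y h hζ h2pos (by omega) j] at hvJ
      obtain ⟨K, hK⟩ : ∃ K, 2 ^ (n - 2) = K + 1 := ⟨2 ^ (n - 2) - 1, by omega⟩
      have hz : ζ ^ (2 ^ (n - 2)) = -1 := by
        rw [hK]; exact CfsgLib.DihBlk20.zeta_half (by rw [← hK, ← hN2]; exact hζ)
      have hz2 : ζ ^ (((j : ℕ) + 1) * 2 ^ (n - 2)) = (-1) ^ ((j : ℕ) + 1) := by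
        rw [mul_comm, pow_mul, hz]
      rw [hz2] at hvJ
      rcases neg_one_pow_eq_or ℂ ((j : ℕ) + 1) with h6 | h6 <;> rw [h6] at hvJ <;>
        rcases C.hε with h7 | h7 <;> rw [h7] at hvJ <;> rcases hδ₁ with h8 | h8 <;> rw [h8] at hvJ <;> norm_num at hvJ
  have hδε : (δ₁ : ℂ) = -(ε : ℂ) := by
    rw [hχa, C.val_a h hζ (by norm_num) (by omega)] at hv1
    exact hv1.symm
  have hδ2 : (δ₁ : ℂ) * δ₁ = 1 := by rcases hδ₁ with h5 | h5 <;> rw [h5] <;> norm_num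
  have hdeg := CfsgLib.CharInt.irr_one_eq_charDegree χ₁.2
  have hpos := CfsgLib.CharInt.irr_charDegree_pos χ₁.2
  obtain ⟨x, hx⟩ : ∃ x, x = charDegree (χ₁ : G → ℂ) := ⟨_, rfl⟩
  rw [← hx] at hdeg hpos ⊢
  have hval2 := C.value h hM hζ
  have hcount := h.count_formula hM hconj
  rw [← hχa, hdeg] at hval2
  obtain ⟨hne, hval3⟩ := hval2
  obtain ⟨S, hS⟩ : ∃ S : ℂ, S = ∑ χ : IrrCharacter G, CfsgLib.BlockIdem.ind (principalBlock M G) χ *
      ((χ : G → ℂ) (σ ^ (2 ^ (n - 2))) ^ 2 * ((χ : G → ℂ) (σ ^ (2 ^ (n - 2))) + (χ : G → ℂ) σ) / (χ : G → ℂ) 1) := ⟨_, rfl⟩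
  rw [← hS] at hval3 hcount
  obtain ⟨cJ, hcJ⟩ : ∃ k, k = Nat.card (Subgroup.centralizer ({σ ^ (2 ^ (n - 2))} : Set G)) := ⟨_, rfl⟩
  obtain ⟨ca, hca⟩ : ∃ k, k = Nat.card (Subgroup.centralizer ({σ ^ (2 ^ (n - 2)), τ} : Set G)) := ⟨_, rfl⟩
  obtain ⟨cb, hcb⟩ : ∃ k, k = Nat.card (Subgroup.centralizer ({σ ^ (2 ^ (n - 2)), σ * τ} : Set G)) := ⟨_, rfl⟩
  obtain ⟨g, hg⟩ : ∃ k, k = Nat.card G := ⟨_, rfl⟩
  have hcJ0 : 0 < cJ := by rw [hcJ]; exact Nat.card_pos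
  have hca0 : 0 < ca := by rw [hca]; exact Nat.card_pos
  have hcb0 : 0 < cb := by rw [hcb]; exact Nat.card_pos
  rw [← hcJ, ← hca, ← hcb, ← hg] at hcount ⊢
  -- the main formula
  have hmainC : (g : ℂ) * ((x : ℂ) - δ₁) ^ 2 = 2 * (x : ℂ) * ((x : ℂ) + δ₁) * (cJ : ℂ) ^ 3 * (1 / (ca : ℂ) + 1 / (cb : ℂ)) ^ 2 := by
    have e1 : (ε : ℂ) = -(δ₁ : ℂ) := by rw [hδε]; ring
    rw [e1] at hval3
    have e2 : (x : ℂ) * ((x : ℂ) + δ₁) * ((g : ℂ) * S) = 2 * ((x : ℂ) - δ₁) ^ 2 * g := by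
      linear_combination (g : ℂ) * hval3
    rw [hcount] at e2
    linear_combination -(1 / 2 : ℂ) * e2
  have hmain : (g : ℚ) * ((x : ℚ) - δ₁) ^ 2 = 2 * (x : ℚ) * ((x : ℚ) + δ₁) * (cJ : ℚ) ^ 3 * (1 / (ca : ℚ) + 1 / (cb : ℚ)) ^ 2 := by
    have e3 : (((g : ℚ) * ((x : ℚ) - δ₁) ^ 2 : ℚ) : ℂ) = ((2 * (x : ℚ) * ((x : ℚ) + δ₁) * (cJ : ℚ) ^ 3 * (1 / (ca : ℚ) + 1 / (cb : ℚ)) ^ 2 : ℚ) : ℂ) := by
      push_cast
      exact hmainC
    exact_mod_cast e3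
  refine ⟨?_, hmain⟩
  intro hxδ
  have hx1 : x = 1 ∧ δ₁ = 1 := by
    rcases hδ₁ with h5 | h5
    · exact ⟨by rw [h5] at hxδ; exact_mod_cast hxδ, h5⟩
    · rw [h5] at hxδ; omega
  rw [hx1.1, hx1.2] at hmain
  norm_num at hmain
  have hq : (0 : ℚ) < (ca : ℚ)⁻¹ + (cb : ℚ)⁻¹ := by
    have : (0 : ℚ) < (ca : ℚ) := by exact_mod_cast hca0
    have : (0 : ℚ) < (cb : ℚ) := by exact_mod_cast hcb0
    positivity
  rcases hmain with h5 | h5
  · omega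
  · exact hq.ne' h5

end Cfsg.Agent.S4482
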