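import Cfsg.Statements.S4485
import Cfsg.Agent.LibBrLeon7

set_option autoImplicit false
set_option linter.all false
open Cfsg

namespace Cfsg.Agent.S4485

open Subgroup CfsgLib.CharBasic CfsgLib.BrLeon

universe u

theorem main (m : ℕ) : ∀ (G : Type u) [Group G] [Fintype G], Nat.card G = m → ∀ (p : ℕ) (hp : p.Prime) (P : Sylow p G)
    (hstar : ∀ x ∈ (P : Subgroup G), x ≠ 1 → centralizer ({x} : Set G) = centralizer ((P : Subgroup G) : Set G))
    (χ : G → ℂ) (hχ : Cfsg.IsCharacter G χ) (hfaith : ∀ g : G, χ g = χ 1 → g = 1) (x : ℕ) (hx : χ 1 = x)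
    (hdeg : x ^ 2 + 1 < Nat.card P), (P : Subgroup G).Normal := by
  induction m using Nat.strong_induction_on with
  | _ m ih =>
  intro G _ _ hm p hp P hstar χ hχ hfaith x hx hdeg
  classical
  haveI : Fact p.Prime := ⟨hp⟩
  by_cases hK : ∃ K : Subgroup G, K.Normal ∧ K ≠ ⊤ ∧ (P : Subgroup G) ≤ K
  · obtain ⟨K, hKn, hKt, hPK⟩ := hK
    haveI := hKn
    haveI : Fintype K := Fintype.ofFinite K
    have hlt : Nat.card K < m := by
      rw [← hm]
      refine lt_of_le_of_ne (Nat.card_le_card_of_injective _ (subtype_injective K)) (fun he => hKt ((card_eq_iff_eq_top K).1 he))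
    obtain ⟨Q, hQ⟩ : ∃ Q : Sylow p K, (Q : Subgroup K) = (P : Subgroup G).subgroupOf K := ⟨P.subtype hPK, rfl⟩
    have hcardQ : Nat.card (Q : Subgroup K) = Nat.card (P : Subgroup G) := by
      rw [hQ]; exact Nat.card_congr (subgroupOfEquivOfLe hPK).toEquiv
    have hQn := ih _ hlt K rfl p hp Q (by
      intro y hy hy1
      rw [hQ, mem_subgroupOf] at hy
      have h1 := hstar y hy (fun hh => hy1 (Subtype.ext hh))
      ext z
      rw [mem_centralizer_singleton_iff, mem_centralizer_iff]
      constructor
      · intro hz w hw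
        have h2 : (z : G) ∈ centralizer ({(y : G)} : Set G) := by
          rw [mem_centralizer_singleton_iff]; exact congrArg Subtype.val hz
        rw [h1, mem_centralizer_iff] at h2
        apply Subtype.ext
        refine h2 w ?_
        have h3 : w ∈ (Q : Subgroup K) := hw
        rw [hQ, mem_subgroupOf] at h3
        exact h3
      · intro hz
        exact (hz y (by
          show y ∈ (Q : Subgroup K)
          rw [hQ, mem_subgroupOf]; exact hy)).symm) (fun k => χ k) (isCharacter_restrict hχ K) (by
        intro k hk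
        exact Subtype.ext (hfaith k hk)) x (by rw [← hx]; rfl) (by rw [hcardQ]; exact hdeg)
    haveI : (Q : Subgroup K).Characteristic := Q.characteristic_of_normal hQn
    have h1 : ((Q : Subgroup K).map K.subtype).Normal := ConjAct.normal_of_characteristic_of_normal
    rw [hQ, map_subgroupOf_eq_of_le hPK] at h1
    exact h1
  · push Not at hK
    have hno : ∀ K : Subgroup G, K.Normal → (P : Subgroup G) ≤ K → K = ⊤ := fun K hKn hPK => by
      by_contra hne
      exact hK K hKn hne hPK
    have hab := CfsgLib.Exc.comm_of_faithful_linear hχ hfaith (fun ψ hψ hne => by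
      by_cases h1 : (⟨ψ, hψ⟩ : IrrCharacter G) = og G
      · have h2 : ψ = fun _ => 1 := congrArg Subtype.val h1
        rw [h2]
      · obtain ⟨d, hd0, hd⟩ := irr_one_nat hψ
        have hdx : d ≤ x := by
          obtain ⟨mm, hmm, hexp, -⟩ := char_expand hχ
          choose n hn0 hn using fun φ : IrrCharacter G => irr_one_nat φ.2
          have h3 := congrFun hexp 1
          simp only [Finset.sum_apply, Pi.smul_apply, smul_eq_mul, hn, hx] at h3
          have h4 : x = ∑ φ : IrrCharacter G, mm φ * n φ := by exact_mod_cast h3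
          have h5 : mm ⟨ψ, hψ⟩ * n ⟨ψ, hψ⟩ ≤ x := by
            rw [h4]
            exact Finset.single_le_sum (f := fun φ => mm φ * n φ) (fun _ _ => Nat.zero_le _) (Finset.mem_univ _)
          have h6 : n ⟨ψ, hψ⟩ = d := by
            have := hn ⟨ψ, hψ⟩
            have h7 : ψ 1 = (n ⟨ψ, hψ⟩ : ℂ) := this
            rw [hd] at h7
            exact_mod_cast h7.symm
          have h7 : mm ⟨ψ, hψ⟩ ≠ 0 := by
            intro hh
            apply hne
            have := hmm ⟨ψ, hψ⟩
            rw [hh] at this
            simpa using this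
          rw [h6] at h5
          exact le_trans (Nat.le_mul_of_pos_left _ (Nat.pos_of_ne_zero h7)) h5
        obtain ⟨-, h2⟩ := brauer_leonard hp P hstar hno ⟨ψ, hψ⟩ h1 (x := d) hd (by
          have : d ^ 2 ≤ x ^ 2 := Nat.pow_le_pow_left hdx 2
          omega)
        rw [hd, h2]; simp)
    exact ⟨fun y hy g => by rw [hab g y, mul_inv_cancel_right]; exact hy⟩


/-- Let G be a finite group and p a prime dividing its order such that every non-identity element of a Sylow p-subgroup P has the same centralizer as P itself (so P is abelian); let p^n be the order of P. If G has a faithful character of degree x with x² < p^n − 1, then P is normal in G. -/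
theorem result {G : Type*} [Group G] [Finite G] (p : ℕ) (hp : p.Prime) (hpG : p ∣ Nat.card G) (P : Sylow p G) (hstar : ∀ x ∈ (P : Subgroup G), x ≠ 1 → Subgroup.centralizer ({x} : Set G) = Subgroup.centralizer ((P : Subgroup G) : Set G)) (n : ℕ) (hn : Nat.card P = p ^ n) (χ : G → ℂ) (hχ : Cfsg.IsCharacter G χ) (hfaith : ∀ g : G, χ g = χ 1 → g = 1) (hdeg : Cfsg.charDegree χ ^ 2 + 1 < p ^ n) : (P : Subgroup G).Normal := by
  classical
  haveI := Fintype.ofFinite G
  have hx : χ 1 = (Cfsg.charDegree χ : ℕ) := by
    obtain ⟨m, ρ, rfl⟩ := hχ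
    unfold Cfsg.charDegree
    rw [Representation.char_one]
    simp
  exact main _ G rfl p hp P hstar χ hχ hfaith _ hx (by rw [hn]; exact hdeg)

end Cfsg.Agent.S4485
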