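import Cfsg.Statements.S4488
import Cfsg.Agent.LibSchur20

set_option autoImplicit false
set_option linter.all false
open Cfsg

namespace Cfsg.Agent.S4488


theorem fixes {σ : ℂ ≃+* ℂ} {ε : ℂ} (h : σ ε = ε) {x : ℂ} (hx : x ∈ IntermediateField.adjoin ℚ ({ε} : Set ℂ)) :
    σ x = x := by
  induction hx using IntermediateField.adjoin_induction with
  | mem x hx => rw [Set.mem_singleton_iff.mp hx]; exact h
  | algebraMap q => exact map_ratCast σ q
  | add x y _ _ hx hy => rw [map_add, hx, hy]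
  | inv x _ hx => rw [map_inv₀, hx]
  | mul x y _ _ hx hy => rw [map_mul, hx, hy]

theorem key {G : Type*} [Group G] [Finite G] {p : ℕ} (hp : p.Prime) {χ : G → ℂ} (hχ : Cfsg.IsCharacter G χ)
    {r : ℕ} (hr : 0 < r) (hpr : ¬ p ∣ r)
    (hrat : ∀ g : G, χ g ∈ IntermediateField.adjoin ℚ ({Complex.exp (2 * Real.pi * Complex.I / r)} : Set ℂ))
    {g : G} {m : ℕ} (hg : orderOf g = p ^ m) {k : ℕ} (hk : k.Coprime p) : χ (g ^ k) = χ g := by
  have hco : (p ^ m).Coprime r := Nat.Coprime.pow_left _ ((Nat.Prime.coprime_iff_not_dvd hp).mpr hpr)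
  obtain ⟨k', hk1, hk2⟩ := Nat.chineseRemainder hco k 1
  have hk1' : Nat.Coprime k' (p ^ m) := by
    rw [Nat.coprime_iff_gcd_eq_one, hk1.gcd_eq]
    exact Nat.Coprime.pow_right _ hk
  have hk2' : Nat.Coprime k' r := by
    rw [Nat.coprime_iff_gcd_eq_one, hk2.gcd_eq]
    simp
  obtain ⟨σ, hσ⟩ := CfsgLib.GalField.exists_ringEquiv_pow (p ^ m * r) k' (Nat.mul_pos (pow_pos hp.pos _) hr)
    (Nat.Coprime.mul_right hk1' hk2')
  have hε := Complex.isPrimitiveRoot_exp r hr.ne'
  have hfix : σ (Complex.exp (2 * Real.pi * Complex.I / r)) = Complex.exp (2 * Real.pi * Complex.I / r) := by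
    rw [hσ _ (by rw [mul_comm (p ^ m) r, pow_mul, hε.pow_eq_one, one_pow])]
    exact (CfsgLib.PConj20.root_pow_iff hε hr.ne' k').mpr hk2
  have h1 := fixes hfix (hrat g)
  have h2 := CfsgLib.GalChar.char_pow_eq_of_roots hχ g k' σ (fun ζ hζ => hσ ζ (by
    rw [← hg, pow_mul, hζ, one_pow]))
  have h3 : g ^ k' = g ^ k := by
    rw [pow_eq_pow_iff_modEq, hg]; exact hk1
  rw [← h3, h2, h1]

/-- Let the finite group G have a faithful p-rational character χ of degree n (all values of χ lie in the field generated over ℚ by a root of unity of order prime to p), and let p^a be the order of a Sylow p-subgroup of G. Then a ≤ Σ_{i ≥ 0} ⌊n / ((p − 1)·p^i)⌋ (a finite sum; the terms vanish once (p − 1)p^i > n). -/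
theorem result {G : Type*} [Group G] [Finite G] (p : ℕ) (hp : p.Prime) (χ : G → ℂ) (hχ : Cfsg.IsCharacter G χ) (hfaith : ∀ g : G, χ g = χ 1 → g = 1) (hrat : (∃ r : ℕ, 0 < r ∧ ¬ p ∣ r ∧ ∀ g : G, χ g ∈ IntermediateField.adjoin ℚ ({Complex.exp (2 * Real.pi * Complex.I / r)} : Set ℂ))) (n : ℕ) (hn : Cfsg.charDegree χ = n) : (Nat.card G).factorization p ≤ ∑ i ∈ Finset.range (n + 1), n / ((p - 1) * p ^ i) := by

  classical
  haveI : Fact p.Prime := ⟨hp⟩
  letI := Fintype.ofFinite G
  obtain ⟨r, hr, hpr, hrat⟩ := hrat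
  obtain ⟨P⟩ : Nonempty (Sylow p G) := inferInstance
  have h1 : χ 1 = (n : ℂ) := by
    obtain ⟨d, hd⟩ := CfsgLib.CharBasic.char_one_nat hχ
    have h2 : Cfsg.charDegree χ = d := by
      unfold Cfsg.charDegree
      rw [hd, Complex.natCast_re, Nat.floor_natCast]
    rw [hd, ← hn, h2]
  have h2 := CfsgLib.Schur20.schur_dvd (P := (P : Subgroup G)) (p := p) P.2
    (CfsgLib.CharBasic.isCharacter_restrict hχ (P : Subgroup G)) (n := n) h1
    (fun g hg => Subtype.ext (hfaith _ hg))
    (fun g k hk => by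
      obtain ⟨m, hm⟩ := (IsPGroup.iff_orderOf.mp P.2) g
      rw [← Subgroup.orderOf_coe] at hm
      exact key hp hχ hr hpr hrat hm hk)
  set N := n / (p - 1) with hN
  have hp1 : 0 < p - 1 := by have := hp.one_lt; omega
  have hNn : N ≤ n := Nat.div_le_self _ _
  have h3 : (Nat.card G).factorization p ≤ (p ^ N * N.factorial).factorization p := by
    rw [P.card_eq_multiplicity] at h2
    exact (hp.pow_dvd_iff_le_factorization (mul_ne_zero (pow_ne_zero _ hp.pos.ne') (Nat.factorial_ne_zero _))).mp h2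
  rw [Nat.factorization_mul (pow_ne_zero _ hp.pos.ne') (Nat.factorial_ne_zero _), Finsupp.add_apply,
    hp.factorization_pow, Finsupp.single_eq_same, Nat.factorization_factorial hp (b := n + 1) (by
      have := Nat.log_le_self p N
      omega)] at h3
  refine h3.trans (le_of_eq ?_)
  rw [Finset.range_eq_Ico, Finset.sum_eq_sum_Ico_succ_bot (Nat.succ_pos n)]
  congr 1
  · rw [pow_zero, mul_one]
  · apply Finset.sum_congr rfl
    intro i _
    rw [hN, Nat.div_div_eq_div_mul]


end Cfsg.Agent.S4488
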