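import Cfsg.Statements.S4493
import Cfsg.Agent.LibFixIrr19

set_option autoImplicit false
open Cfsg

namespace Cfsg.Agent.S4493


/-- Let G be a finite solvable group and p a prime. Then G has a normal abelian Sylow p-subgroup if and only if no irreducible character degree of G is divisible by p. -/
theorem result {G : Type*} [Group G] [Finite G] (hsolv : Group.IsSolvable G) (p : ℕ) (hp : p.Prime) : (∃ P : Subgroup G, P.Normal ∧ (∀ x ∈ P, ∀ y ∈ P, x * y = y * x) ∧ IsPGroup p P ∧ ¬ p ∣ P.index) ↔ ∀ χ : Cfsg.IrrCharacter G, ¬ p ∣ Cfsg.charDegree (χ : G → ℂ) := by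
  haveI : Fact p.Prime := ⟨hp⟩
  constructor
  · rintro ⟨P, hPn, hPc, -, hPi⟩ χ hχ
    haveI := hPn
    exact hPi (hχ.trans (CfsgLib.CharMore.ito χ.2 P hPc))
  · intro h
    have hps : Cfsg.IsPSolvable p G := CfsgLib.PSolv19.psolv_of_solvable _ rfl hsolv
    obtain ⟨P⟩ := (inferInstance : Nonempty (Sylow p G))
    have hn := CfsgLib.FixIrr19.ito_psolv _ rfl hps h P
    refine ⟨P, hn, ?_, P.isPGroup', P.not_dvd_index⟩
    intro x hx y hy
    exact congrArg Subtype.val (CfsgLib.FixIrr19.sylow_comm_of_normal h hn P.isPGroup' ⟨x, hx⟩ ⟨y, hy⟩)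

end Cfsg.Agent.S4493
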