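import Cfsg.Statements.S4495
import Cfsg.Agent.LibSelf19

set_option autoImplicit false
open Cfsg

namespace Cfsg.Agent.S4495

open CfsgLib.Self19

/-- Let the finite group G contain an element x of prime order p with C_G(x) = ⟨x⟩, and let t be the number of conjugacy classes of elements of order p. If t ≠ p − 1 then the commutator subgroup has index at most (p − 1)/t; if t = p − 1 it has index exactly p. -/
theorem result {G : Type*} [Group G] [Finite G] (p : ℕ) (hp : p.Prime) (x : G) (hx : orderOf x = p) (hC : Subgroup.centralizer ({x} : Set G) = Subgroup.zpowers x) (t : ℕ) (ht : Nat.card {C : ConjClasses G // ∃ g ∈ C.carrier, orderOf g = p} = t) : (t ≠ p - 1 → (commutator G).index * t ≤ p - 1) ∧ (t = p - 1 → (commutator G).index = p) := by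
  have h : SC p x := ⟨hp, hx, hC⟩
  have hte := h.te
  rw [ht] at hte
  have hp2 := hp.two_le
  constructor
  · intro htp
    have he : (Subgroup.zpowers x).relIndex (Subgroup.normalizer ((Subgroup.zpowers x : Subgroup G) : Set G)) ≠ 1 := by
      intro h1
      rw [h1, mul_one] at hte
      exact htp hte
    have h2 := h.index_le he
    rw [← hte, mul_comm t]
    exact Nat.mul_le_mul_right t h2
  · intro htp
    refine (h.burnside ?_).2
    rw [← htp] at hte
    have ht0 : 0 < t := by omega
    exact Nat.eq_of_mul_eq_mul_left ht0 (by rw [hte, mul_one])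

end Cfsg.Agent.S4495
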