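import Cfsg.Statements.S4497
import Cfsg.Agent.LibSelf19

set_option autoImplicit false
open Cfsg

namespace Cfsg.Agent.S4497

open CfsgLib.Self19 Subgroup

/-- Let the finite group G contain an element x of prime order p with C_G(x) = ⟨x⟩, let t be the number of conjugacy classes of elements of order p, and let S* = O_{p′}(G) be the largest normal subgroup of order prime to p. Then S* ≤ G′; if t ≠ p − 1 the quotient G′/S* is simple (in particular non-trivial); if t = p − 1 then G′ = S*. -/
theorem result {G : Type*} [Group G] [Finite G] (p : ℕ) (hp : p.Prime) (x : G) (hx : orderOf x = p) (hC : Subgroup.centralizer ({x} : Set G) = Subgroup.zpowers x) (t : ℕ) (ht : Nat.card {C : ConjClasses G // ∃ g ∈ C.carrier, orderOf g = p} = t) : Cfsg.pPrimeCore p G ≤ commutator G ∧ (t ≠ p - 1 → ∀ h : ((Cfsg.pPrimeCore p G).subgroupOf (commutator G)).Normal, IsSimpleGroup (↥(commutator G) ⧸ (Cfsg.pPrimeCore p G).subgroupOf (commutator G))) ∧ (t = p - 1 → commutator G = Cfsg.pPrimeCore p G) := by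
  have h : SC p x := ⟨hp, hx, hC⟩
  have hte := h.te
  rw [ht] at hte
  have hp2 := hp.two_le
  have hcop := CfsgLib.Cores.pPrimeCore_coprime (G := G) p
  have hnd : ¬ p ∣ Nat.card (Cfsg.pPrimeCore p G) := fun hd => by
    have := Nat.dvd_gcd hd dvd_rfl
    rw [Nat.Coprime.gcd_eq_one hcop] at this
    exact hp.one_lt.ne' (Nat.dvd_one.1 this)
  haveI : (Cfsg.pPrimeCore p G).Normal := inferInstance
  refine ⟨h.le_commutator hnd, ?_, ?_⟩
  · intro htp hN
    have he : (Subgroup.zpowers x).relIndex (Subgroup.normalizer ((Subgroup.zpowers x : Subgroup G) : Set G)) ≠ 1 := by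
      intro h1
      rw [h1, mul_one] at hte
      exact htp hte
    have hx1 := h.mem_commutator he
    set S := (Cfsg.pPrimeCore p G).subgroupOf (commutator G) with hS
    have hxS : (⟨x, hx1⟩ : commutator G) ∉ S := by
      intro h2
      rw [hS, mem_subgroupOf] at h2
      exact h.ne_one (h.not_mem_of_not_dvd hnd (mem_zpowers x) h2)
    haveI : Nontrivial (↥(commutator G) ⧸ S) := by
      refine ⟨⟨QuotientGroup.mk ⟨x, hx1⟩, 1, ?_⟩⟩
      intro h2
      exact hxS ((QuotientGroup.eq_one_iff _).1 h2)
    refine ⟨fun R hR => ?_⟩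
    haveI := hR
    have hRc : (R.comap (QuotientGroup.mk' S)).map (QuotientGroup.mk' S) = R :=
      Subgroup.map_comap_eq_self_of_surjective (QuotientGroup.mk'_surjective S) R
    by_cases hd : p ∣ Nat.card (R.comap (QuotientGroup.mk' S))
    · right
      have h3 := h.eq_top_of_dvd hx1 (R.comap (QuotientGroup.mk' S)) hd
      rw [← hRc, h3, Subgroup.map_top_of_surjective _ (QuotientGroup.mk'_surjective S)]
    · left
      have h4 : R.comap (QuotientGroup.mk' S) ≤ Cfsg.pPrimeCore p (commutator G) :=
        CfsgLib.Cores.le_pPrimeCore inferInstance ((Nat.Coprime.symm ((Nat.Prime.coprime_iff_not_dvd hp).2 hd)))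
      have h5 := CfsgLib.Cores.map_pPrimeCore_of_normal (G := G) p (commutator G)
      have h6 : R.comap (QuotientGroup.mk' S) ≤ S := by
        intro r hr
        rw [hS, mem_subgroupOf]
        have h7 : (r : G) ∈ (Cfsg.pPrimeCore p (commutator G)).map (commutator G).subtype := ⟨r, h4 hr, rfl⟩
        rw [h5] at h7
        exact h7.1
      rw [← hRc, eq_bot_iff]
      rintro _ ⟨r, hr, rfl⟩
      exact (QuotientGroup.eq_one_iff _).2 (h6 hr)
  · intro htp
    have he : (Subgroup.zpowers x).relIndex (Subgroup.normalizer ((Subgroup.zpowers x : Subgroup G) : Set G)) = 1 := by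
      rw [← htp] at hte
      have ht0 : 0 < t := by omega
      exact Nat.eq_of_mul_eq_mul_left ht0 (by rw [hte, mul_one])
    have hb := h.burnside he
    apply le_antisymm
    · exact CfsgLib.Cores.le_pPrimeCore inferInstance ((Nat.Coprime.symm ((Nat.Prime.coprime_iff_not_dvd hp).2 hb.1)))
    · exact h.le_commutator hnd

end Cfsg.Agent.S4497
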