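import Cfsg.Statements.S4502
import Cfsg.Agent.LibOnceN19

set_option autoImplicit false
open Cfsg

namespace Cfsg.Agent.S4502


/-- Let G be a finite group whose order is divisible by the prime p exactly once, and let P be a Sylow p-subgroup. Then the number of irreducible characters of G of degree not divisible by p equals the number of conjugacy classes of the normalizer of P. -/
theorem result {G : Type*} [Group G] [Finite G] (p : ℕ) [Fact p.Prime] (hdiv : p ∣ Nat.card G) (hsq : ¬ p ^ 2 ∣ Nat.card G) (P : Sylow p G) : Nat.card {χ : Cfsg.IrrCharacter G // ¬ p ∣ Cfsg.charDegree (χ : G → ℂ)} = Nat.card (ConjClasses (Subgroup.normalizer ((P : Subgroup G) : Set G))) := by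
  classical
  letI : Fintype G := Fintype.ofFinite G
  have h : CfsgLib.Ur.Once p G := ⟨Fact.out, hdiv, hsq⟩
  have hP : Nat.card P = p := by
    rw [P.card_eq_multiplicity, CfsgLib.Once19.fact_card h, pow_one]
  obtain ⟨x, hx, hPx, -⟩ := CfsgLib.Once19.sylow_gen P hP
  rw [CfsgLib.Once19.s4502 h hx]
  have h2 : ∀ K : Subgroup G, K = Subgroup.zpowers x → Nat.card (ConjClasses (Subgroup.normalizer ((Subgroup.zpowers x : Subgroup G) : Set G))) = Nat.card (ConjClasses (Subgroup.normalizer (K : Set G))) := by
    rintro K rfl; rfl
  exact h2 _ hPx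

end Cfsg.Agent.S4502
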