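import Cfsg.Statements.S4505
import Cfsg.Agent.LibBlockCount

set_option autoImplicit false
open Cfsg

namespace Cfsg.Agent.S4505

/-- Let G be a finite group, p a prime and M a maximal ideal of the algebraic integers containing p. For every σ, the number of p-blocks of defect exactly σ is at most the number of conjugacy classes of p-regular elements whose centralizer has order divisible by p^σ but not by p^(σ+1). -/
theorem result {G : Type*} [Group G] [Finite G] (p : ℕ) [Fact p.Prime] (M : Ideal Cfsg.AlgInt) (hM : Cfsg.IsPModular p M) (σ : ℕ) : Nat.card {B : Set (Cfsg.IrrCharacter G) // Cfsg.IsPBlock M B ∧ Cfsg.blockDefect p B = σ} ≤ Nat.card {C : ConjClasses G // ∃ g : G, ConjClasses.mk g = C ∧ ¬ p ∣ orderOf g ∧ (Nat.card (Subgroup.centralizer ({g} : Set G))).factorization p = σ} := by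
  classical
  have hp := CfsgLib.BlockR.isPrime_of_modular hM
  apply CfsgLib.BlockCount.card_blocks_le hp
  intro B B' hB hdB hB' hdB' C hC χ hχ
  by_cases hreg : p ∣ orderOf (Quotient.out C : G)
  · rw [← CfsgLib.BlockIdem.blockCoeff_eq_fou, CfsgLib.BlockOrth.blockCoeff_eq_zero hM hB hreg,
      zero_mul]
    exact CfsgLib.BlockR.ideal_zero hp
  · by_cases h1 : Cfsg.MemLocalIdeal M (CfsgLib.BlockCore.fou (CfsgLib.BlockIdem.ind B)
      (Quotient.out C))
    · exact CfsgLib.BlockR.ideal_mul_right hp h1 (CfsgLib.BlockIdem.centralChar_ring hp χ _)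
    · apply CfsgLib.BlockR.ideal_mul_left hp (CfsgLib.BlockIdem.AR_ind_block hp hB _)
      by_contra hcon
      apply hC
      rw [← CfsgLib.BlockIdem.blockCoeff_eq_fou] at h1
      have h2 := CfsgLib.BlockCount.coeff_defect_le hM hB h1
      have h3 := CfsgLib.BlockCount.defect_le_of_cent hM hB' hχ hcon
      rw [hdB] at h2
      rw [hdB'] at h3
      exact ⟨Quotient.out C, CfsgLib.BlockCount.mk_out C, hreg, le_antisymm h2 h3⟩

end Cfsg.Agent.S4505
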