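import Cfsg.Statements.S4506
import Cfsg.Agent.LibPConj20

set_option autoImplicit false
set_option linter.all false
open Cfsg

namespace Cfsg.Agent.S4506

/-- Let G be a finite group, p a prime, p^a the p-part of the order of G and g′ its p′-part. Call two irreducible characters p-conjugate when one is obtained from the other by applying a field automorphism of ℂ that fixes the g′-th roots of unity, and let r be the number of characters p-conjugate to the irreducible character χ (χ included). Then the exponent of p in r·χ(1) is at most a; and if p^a divides r·χ(1) then p^a already divides χ(1). -/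
theorem result {G : Type*} [Group G] [Finite G] (p : ℕ) (hp : p.Prime) (χ : Cfsg.IrrCharacter G) (r : ℕ) (hr : Nat.card {ψ : Cfsg.IrrCharacter G // ∃ σ : ℂ ≃+* ℂ, σ (Complex.exp (2 * Real.pi * Complex.I / ((Nat.card G / p ^ (Nat.card G).factorization p) : ℕ))) = Complex.exp (2 * Real.pi * Complex.I / ((Nat.card G / p ^ (Nat.card G).factorization p) : ℕ)) ∧ (ψ : G → ℂ) = fun g => σ ((χ : G → ℂ) g)} = r) : (r * Cfsg.charDegree (χ : G → ℂ)).factorization p ≤ (Nat.card G).factorization p ∧ (p ^ (Nat.card G).factorization p ∣ r * Cfsg.charDegree (χ : G → ℂ) → p ^ (Nat.card G).factorization p ∣ Cfsg.charDegree (χ : G → ℂ)) := by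

  classical
  haveI : Fact p.Prime := ⟨hp⟩
  set v := (Nat.card G).factorization p with hv
  set q := Nat.card G / p ^ v with hq
  have hn0 : Nat.card G ≠ 0 := Nat.card_pos.ne'
  have hn : Nat.card G = p ^ v * q := (Nat.ordProj_mul_ordCompl_eq_self (Nat.card G) p).symm
  have hqp : q.Coprime p := (Nat.coprime_ordCompl hp hn0).symm
  have hqn : q ∣ Nat.card G := by rw [hn]; exact dvd_mul_left _ _
  letI : Fintype (CfsgLib.PConj20.grp G hqn) := Fintype.ofFinite _
  have hrS : (Finset.univ.image (fun u : CfsgLib.PConj20.grp G hqn => (u : (ZMod (Nat.card G))ˣ) • χ)).card = r := by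
    rw [← hr, ← Fintype.card_coe, ← Nat.card_eq_fintype_card]
    apply Nat.card_congr
    refine Equiv.subtypeEquivRight fun ψ => ?_
    rw [Finset.mem_image, CfsgLib.PConj20.conj_iff hn hqn χ ψ]
    constructor
    · rintro ⟨u, -, h⟩; exact ⟨u, u.2, h⟩
    · rintro ⟨u, hu, h⟩; exact ⟨⟨u, hu⟩, Finset.mem_univ _, h⟩
  rcases Nat.eq_zero_or_pos v with h0 | h0
  · -- trivial case
    have hqe : q = Nat.card G := by rw [hn, h0]; simp
    have h1 : Finset.univ.image (fun u : CfsgLib.PConj20.grp G hqn => (u : (ZMod (Nat.card G))ˣ) • χ) = {χ} := by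
      ext ψ
      rw [Finset.mem_image, Finset.mem_singleton]
      constructor
      · rintro ⟨u, -, rfl⟩
        have h2 := (CfsgLib.PConj20.mem_grp hqn u.1).mp u.2
        have h2' : ((u : (ZMod (Nat.card G))ˣ) : ZMod (Nat.card G)).val ≡ 1 [MOD Nat.card G] := by
          have h5 := h2
          generalize ((u : (ZMod (Nat.card G))ˣ) : ZMod (Nat.card G)).val = k at h5 ⊢
          rwa [hqe] at h5
        apply Subtype.ext
        funext g
        rw [CfsgLib.PConj20.smul_apply]
        congr 1
        rw [← pow_mod_natCard, h2', pow_mod_natCard, pow_one]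
      · rintro rfl
        exact ⟨1, Finset.mem_univ _, by rw [Subgroup.coe_one, one_smul]⟩
    rw [h1, Finset.card_singleton] at hrS
    have h3 := CfsgLib.CharInt2.charDegree_dvd_card χ.2
    have h4 : (Cfsg.charDegree (χ : G → ℂ)).factorization p ≤ v :=
      (Nat.factorization_le_iff_dvd (CfsgLib.CharInt.irr_charDegree_pos χ.2).ne' hn0).mpr h3 p
    rw [← hrS, one_mul, h0]
    rw [h0] at h4
    exact ⟨h4, fun h => h⟩
  · obtain ⟨a, ha⟩ : ∃ a, v = a + 1 := ⟨v - 1, by omega⟩
    rw [ha] at hn ⊢
    exact CfsgLib.PConj20.main hqp hn hqn χ r hrS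


end Cfsg.Agent.S4506
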