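import Cfsg.Statements.S4507
import Cfsg.Agent.LibOnceF19

set_option autoImplicit false
open Cfsg

namespace Cfsg.Agent.S4507


/-- Let G be a finite group whose order g is divisible by the prime p exactly once, g′ = g/p, and fix a maximal ideal M of the algebraic integers containing p. Call two irreducible characters p-conjugate when a field automorphism of ℂ fixing the g′-th roots of unity carries one to the other. Let B be a p-block of positive defect (its defect group is a Sylow p-subgroup). Then B contains a subset Y (the exceptional family) such that: Y is a full p-conjugacy class (its members are pairwise p-conjugate and every p-conjugate of a member of Y lies in Y); every member of B outside Y is p-conjugate only to itself; the size t of Y divides p − 1 and B has exactly t + (p − 1)/t members; and there are signs δ_χ = ±1 (χ ∈ B) such that for every p-regular element x and every θ ∈ Y, Σ_{χ ∈ B ∖ Y}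 δ_χ χ(x) + δ_θ θ(x) = 0. -/
theorem result {G : Type*} [Group G] [Finite G] (p : ℕ) [Fact p.Prime] (M : Ideal Cfsg.AlgInt) (hM : Cfsg.IsPModular p M) (hdiv : p ∣ Nat.card G) (hsq : ¬ p ^ 2 ∣ Nat.card G) (B : Set (Cfsg.IrrCharacter G)) (hB : Cfsg.IsPBlock M B) (hd : 0 < Cfsg.blockDefect p B) : ∃ Y : Set (Cfsg.IrrCharacter G), Y ⊆ B ∧ Y.Nonempty ∧ (∀ θ ∈ Y, ∀ ψ : Cfsg.IrrCharacter G, (∃ σ : ℂ ≃+* ℂ, σ (Complex.exp (2 * Real.pi * Complex.I / ((Nat.card G / p ^ (Nat.card G).factorization p) : ℕ))) = Complex.exp (2 * Real.pi * Complex.I / ((Nat.card G / p ^ (Nat.card G).factorization p) : ℕ)) ∧ (ψ : G → ℂ) = fun g => σ ((θ : G → ℂ) g)) ↔ ψ ∈ Y) ∧ (∀ χ ∈ B, χ ∉ Y → ∀ ψ : Cfsg.IrrCharacter G, (∃ σ : ℂ ≃+* ℂ, σ (Complex.exp (2 * Real.pi * Complex.I / ((Nat.card G / p ^ (Nat.card G).factorization p) : ℕ))) = Complex.exp (2 * Real.pi * Complex.I / ((Nat.card G / p ^ (Nat.card G).factorization p) : ℕ)) ∧ (ψ : G → ℂ) =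 fun g => σ ((χ : G → ℂ) g)) → ψ = χ) ∧ Nat.card Y ∣ p - 1 ∧ Nat.card B = Nat.card Y + (p - 1) / Nat.card Y ∧ ∃ δ : Cfsg.IrrCharacter G → ℤ, (∀ χ ∈ B, δ χ = 1 ∨ δ χ = -1) ∧ ∀ x : G, ¬ p ∣ orderOf x → ∀ θ ∈ Y, (∑ᶠ χ ∈ B \ Y, (δ χ : ℂ) * (χ : G → ℂ) x) + (δ θ : ℂ) * (θ : G → ℂ) x = 0 := by
  classical
  letI := Fintype.ofFinite G
  have h : CfsgLib.Ur.Once p G := ⟨Fact.out, hdiv, hsq⟩
  have hp := CfsgLib.BlockR.isPrime_of_modular hM
  obtain ⟨χ1, hχ1, hd1⟩ := CfsgLib.Once19.deg_of_defect hM h hB hd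
  obtain ⟨x, hx⟩ := CfsgLib.Once19.exists_x h
  obtain ⟨D, -, b, hb, hθ⟩ := CfsgLib.Once19.exists_dat hM h hx hB hχ1 hd1
  letI : Fintype D.C := Fintype.ofFinite _
  have hdeg := CfsgLib.Once19.deg_all hM h hB hχ1 hd1
  set T := CfsgLib.Once19.inert D with hTdef
  have hT : ∀ g : G, g ∈ T ↔ g ∈ D.N ∧ ∀ c c' : D.C, (c' : G) = g * c * g⁻¹ → (D.th : D.C → ℂ) c' = (D.th : D.C → ℂ) c :=
    CfsgLib.Once19.mem_inert D
  have he := CfsgLib.Once19.exists_e D (D.C_le_T hT)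
  obtain ⟨χ0, h0, h1, h2, h3, ε, hε, h4⟩ := D.str hM hb hθ hdeg hT he
  set e := D.C.relIndex T with hedef
  have hDh : D.h = h := rfl
  have hYB : ∀ ψ ∈ CfsgLib.Ur.cls h χ0, ψ ∈ B := fun ψ hψ => CfsgLib.Ur.cls_block hM hB hψ h0
  have hpp := h.prime.two_le
  have hn0 : 0 < (CfsgLib.Ur.cls h χ0).card := CfsgLib.Ur.cls_card_pos h χ0
  have hcardY : Nat.card ((CfsgLib.Ur.cls h χ0 : Finset _) : Set (IrrCharacter G)) = (CfsgLib.Ur.cls h χ0).card := by
    rw [Nat.card_eq_fintype_card]; simp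
  have hed : (p - 1) / (CfsgLib.Ur.cls h χ0).card = e := by
    rw [← h1]; exact Nat.mul_div_cancel_left e hn0
  choose δ hδ using h3
  refine ⟨((CfsgLib.Ur.cls h χ0 : Finset _) : Set (IrrCharacter G)), hYB, ⟨χ0, CfsgLib.Ur.self_mem_cls h χ0⟩, ?_, ?_, ?_, ?_, ?_⟩
  · intro θ hθY ψ
    rw [CfsgLib.Once19.conj_iff h θ ψ, Finset.mem_coe, CfsgLib.Ur.cls_eq (Finset.mem_coe.1 hθY)]
  · intro χ hχ hχY ψ hψ
    have h5 := (CfsgLib.Once19.conj_iff h χ ψ).1 hψ
    have h6 : CfsgLib.Ur.cls h χ = {χ} := δ χ hχ hχY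
    rw [h6, Finset.mem_singleton] at h5
    exact h5
  · rw [hcardY]; exact CfsgLib.Ur.cls_card h χ0
  · rw [hcardY, hed]; exact h2
  · let dl : IrrCharacter G → ℤ := fun χ => if χ ∈ CfsgLib.Ur.cls h χ0 then ε else D.aZ 1 χ
    have h10 : ¬ 1 ≡ 0 [MOD p] := by
      rw [Nat.modEq_zero_iff_dvd]
      intro h; exact absurd (Nat.dvd_one.1 h) (by omega)
    have hdl : ∀ χ ∈ B, χ ∉ CfsgLib.Ur.cls h χ0 → dl χ = D.aZ 1 χ ∧ (dl χ = 1 ∨ dl χ = -1) := by
      intro χ hχ hχY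
      obtain ⟨d, hd, hd'⟩ := hδ χ hχ hχY
      refine ⟨if_neg hχY, ?_⟩
      change (if χ ∈ CfsgLib.Ur.cls h χ0 then ε else D.aZ 1 χ) = 1 ∨ (if χ ∈ CfsgLib.Ur.cls h χ0 then ε else D.aZ 1 χ) = -1
      rw [if_neg hχY, hd' 1 h10]; exact hd
    refine ⟨dl, ?_, ?_⟩
    · intro χ hχ
      by_cases hχY : χ ∈ CfsgLib.Ur.cls h χ0
      · change (if χ ∈ CfsgLib.Ur.cls h χ0 then ε else D.aZ 1 χ) = 1 ∨ (if χ ∈ CfsgLib.Ur.cls h χ0 then ε else D.aZ 1 χ) = -1
        rw [if_pos hχY]; exact hε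
      · exact (hdl χ hχ hχY).2
    · intro g hg θ hθY
      obtain ⟨ψ, hψ, hψε, hψ0⟩ := h4 1 h10
      have hrel := D.rel_reg 1 hg
      have hset : (B \ ((CfsgLib.Ur.cls h χ0 : Finset _) : Set (IrrCharacter G))) =
          ((Finset.univ.filter (fun χ : IrrCharacter G => χ ∈ B ∧ χ ∉ CfsgLib.Ur.cls h χ0) : Finset _) : Set (IrrCharacter G)) := by
        ext χ; simp
      rw [hset, finsum_mem_coe_finset]
      have hdθ : dl θ = ε := if_pos (Finset.mem_coe.1 hθY)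
      have hθψ : (θ : G → ℂ) g = (ψ : G → ℂ) g := by
        rw [CfsgLib.Ur.cls_reg (Finset.mem_coe.1 hθY) hg, CfsgLib.Ur.cls_reg hψ hg]
      rw [hdθ, hθψ]
      rw [← hrel, ← Finset.sum_filter_add_sum_filter_not Finset.univ (fun χ : IrrCharacter G => χ ∈ B ∧ χ ∉ CfsgLib.Ur.cls h χ0)
        (fun χ => (D.aZ 1 χ : ℂ) * (χ : G → ℂ) g)]
      congr 1
      · refine Finset.sum_congr rfl fun χ hχ => ?_
        rw [Finset.mem_filter] at hχ
        rw [(hdl χ hχ.2.1 hχ.2.2).1]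
      · rw [Finset.sum_eq_single ψ]
        · rw [hψε]
        · intro χ hχ hne
          rw [Finset.mem_filter] at hχ
          have h5 : χ ∉ B ∨ χ ∈ CfsgLib.Ur.cls h χ0 := by
            by_contra hcon
            push Not at hcon
            exact hχ.2 hcon
          have h6 : D.aZ 1 χ = 0 := by
            rcases h5 with h5 | h5
            · exact D.c2 hM hb hθ h5 1
            · exact hψ0 χ h5 hne
          rw [h6]; simp
        · intro hψn
          exfalso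
          apply hψn
          rw [Finset.mem_filter]
          exact ⟨Finset.mem_univ _, fun h5 => h5.2 hψ⟩

end Cfsg.Agent.S4507
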