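import Cfsg.Statements.S4508
import Cfsg.Agent.LibSelfB19

set_option autoImplicit false
open Cfsg

namespace Cfsg.Agent.S4508

open CfsgLib.Self19 Subgroup

/-- Let the finite group G contain an element x of prime order p with C_G(x) = ⟨x⟩, and let t be the number of conjugacy classes of elements of order p. If G has an irreducible character of degree p − 1, then t is even or the commutator subgroup has even index. -/
theorem result {G : Type*} [Group G] [Finite G] (p : ℕ) (hp : p.Prime) (x : G) (hx : orderOf x = p) (hC : Subgroup.centralizer ({x} : Set G) = Subgroup.zpowers x) (t : ℕ) (ht : Nat.card {C : ConjClasses G // ∃ g ∈ C.carrier, orderOf g = p} = t) (χ : Cfsg.IrrCharacter G) (hχ : Cfsg.charDegree (χ : G → ℂ) + 1 = p) : Even t ∨ Even (commutator G).index := by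
  haveI := Fact.mk hp
  have h : SC p x := ⟨hp, hx, hC⟩
  have hx' : x ^ p = 1 := by rw [← hx, pow_orderOf_eq_one]
  have hte := card_Hu h hx'
  rw [ht] at hte
  have hp2 := hp.two_le
  by_cases hE : Even t
  · exact Or.inl hE
  · right
    by_cases h2 : p = 2
    · have h3 := h.te
      rw [ht, h2] at h3
      have he : (Subgroup.zpowers x).relIndex (Subgroup.normalizer ((Subgroup.zpowers x : Subgroup G) : Set G)) = 1 :=
        Nat.eq_one_of_mul_eq_one_left h3
      rw [(h.burnside he).2, h2]
      exact even_two
    · obtain ⟨n, ρ, hirr, hρ⟩ := χ.2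
      have hn : n + 1 = p := by
        have h3 := CfsgLib.CharInt.irr_one_eq_charDegree χ.2
        rw [← hρ, Representation.char_one, hρ] at h3
        have h4 : Module.finrank ℂ (Fin n → ℂ) = n := by simp
        rw [h4] at h3
        have h5 : n = Cfsg.charDegree (χ : G → ℂ) := by exact_mod_cast h3
        rw [h5]; exact hχ
      refine even_index h hx' ρ hirr hn ?_ hE hte
      have hodd : Odd p := hp.odd_of_ne_two h2
      have h6 : Even (t * Nat.card (Hu hx')) := by
        rw [hte]; exact Nat.Odd.sub_odd hodd odd_one
      rcases Nat.even_mul.1 h6 with h7 | h7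
      · exact absurd h7 hE
      · exact h7

end Cfsg.Agent.S4508
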