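import Cfsg.Statements.S4509
import Cfsg.Agent.LibSelf19

set_option autoImplicit false
open Cfsg

namespace Cfsg.Agent.S4509

open CfsgLib.Self19 Subgroup

/-- Let the finite group G contain an element x of prime order p with C_G(x) = ⟨x⟩; let t be the number of conjugacy classes of elements of order p and 1 + n·p the number of subgroups of order p. Then G has a normal subgroup of order 1 + n·p if and only if either t = p − 1, or t < p − 1 and G″ ≠ G′. Moreover, if t = p − 1 then G′ has order 1 + n·p and G/G′ is cyclic of order p; and if t < p − 1 and G″ ≠ G′ then G″ has order 1 + n·p and G′ has order p·(1 + n·p). -/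
theorem result {G : Type*} [Group G] [Finite G] (p : ℕ) (hp : p.Prime) (x : G) (hx : orderOf x = p) (hC : Subgroup.centralizer ({x} : Set G) = Subgroup.zpowers x) (t : ℕ) (ht : Nat.card {C : ConjClasses G // ∃ g ∈ C.carrier, orderOf g = p} = t) (n : ℕ) (hn : Nat.card {H : Subgroup G // Nat.card H = p} = 1 + n * p) : ((∃ S : Subgroup G, S.Normal ∧ Nat.card S = 1 + n * p) ↔ (t = p - 1 ∨ (t < p - 1 ∧ derivedSeries G 2 ≠ derivedSeries G 1))) ∧ (t = p - 1 → Nat.card (commutator G) = 1 + n * p ∧ IsCyclic (G ⧸ commutator G) ∧ (commutator G).index = p) ∧ (t < p - 1 → derivedSeries G 2 ≠ derivedSeries G 1 → Nat.card (derivedSeries G 2) = 1 + n * p ∧ Nat.card (commutator G) = p * (1 + n * p)) := by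
  have h : SC p x := ⟨hp, hx, hC⟩
  have hte := h.te
  rw [ht] at hte
  have hp2 := hp.two_le
  rw [h.card_subgroups] at hn
  have hpos := SC.e_pos x
  have hA : t = p - 1 → Nat.card (commutator G) = 1 + n * p ∧ IsCyclic (G ⧸ commutator G) ∧ (commutator G).index = p := by
    intro htp
    have he : (Subgroup.zpowers x).relIndex (Subgroup.normalizer ((Subgroup.zpowers x : Subgroup G) : Set G)) = 1 := by
      rw [← htp] at hte
      have ht0 : 0 < t := by omega
      exact Nat.eq_of_mul_eq_mul_left ht0 (by rw [hte, mul_one])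
    have hb := h.burnside he
    haveI := Fact.mk hp
    refine ⟨?_, isCyclic_of_prime_card (p := p) hb.2, hb.2⟩
    rw [← hn]
    have h1 := Subgroup.index_mul_card (commutator G)
    rw [hb.2] at h1
    have h2 := Subgroup.index_mul_card (Subgroup.normalizer ((Subgroup.zpowers x : Subgroup G) : Set G))
    rw [SC.card_N x, he, mul_one, hx, ← h1, mul_comm] at h2
    exact (Nat.eq_of_mul_eq_mul_left hp.pos h2).symm
  have hB : t < p - 1 → derivedSeries G 2 ≠ derivedSeries G 1 → Nat.card (derivedSeries G 2) = 1 + n * p ∧ Nat.card (commutator G) = p * (1 + n * p) := by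
    intro htp hne
    have he : (Subgroup.zpowers x).relIndex (Subgroup.normalizer ((Subgroup.zpowers x : Subgroup G) : Set G)) ≠ 1 := by
      intro h1
      rw [h1, mul_one] at hte
      omega
    obtain ⟨h1, h2⟩ := h.derived_case he hne
    rw [h2, h1, hn]
    exact ⟨rfl, rfl⟩
  refine ⟨⟨?_, ?_⟩, hA, hB⟩
  · rintro ⟨S, hS, hSc⟩
    haveI := hS
    by_cases htp : t = p - 1
    · exact Or.inl htp
    · right
      have he : (Subgroup.zpowers x).relIndex (Subgroup.normalizer ((Subgroup.zpowers x : Subgroup G) : Set G)) ≠ 1 := by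
        intro h1
        rw [h1, mul_one] at hte
        exact htp hte
      refine ⟨?_, ?_⟩
      · have : t ≤ p - 1 := by rw [← hte]; exact Nat.le_mul_of_pos_right t hpos
        omega
      · refine h.derived_ne (S := S) he ?_ (by rw [hSc, hn])
        intro hd
        rw [hSc] at hd
        have : p ∣ 1 := (Nat.dvd_add_left (Dvd.intro_left n rfl)).1 hd
        exact hp.one_lt.ne' (Nat.dvd_one.1 this)
  · rintro (htp | ⟨h1, h2⟩)
    · exact ⟨commutator G, inferInstance, (hA htp).1⟩
    · exact ⟨derivedSeries G 2, derivedSeries_normal G 2, (hB h1 h2).1⟩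

end Cfsg.Agent.S4509
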