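import Cfsg.Statements.S4510
import Cfsg.Agent.LibBlockCount

set_option autoImplicit false
open Cfsg

namespace Cfsg.Agent.S4510

/-- Let G be a finite group, p a prime, M a maximal ideal of the algebraic integers containing p, and call the defect of a conjugacy class the exponent of p in the order of the centralizer of its elements. Two irreducible characters lying in p-blocks of defect exactly d lie in the same block if and only if their central characters (class size times χ(x)/χ(1)) agree modulo the local ideal at M at every p-regular element x whose class has defect exactly d. -/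
theorem result {G : Type*} [Group G] [Finite G] (p : ℕ) [Fact p.Prime] (M : Ideal Cfsg.AlgInt) (hM : Cfsg.IsPModular p M) (d : ℕ) (χ ψ : Cfsg.IrrCharacter G) (hχ : Cfsg.blockDefect p (Cfsg.blockOf M (χ : G → ℂ)) = d) (hψ : Cfsg.blockDefect p (Cfsg.blockOf M (ψ : G → ℂ)) = d) : Cfsg.SameBlock M (χ : G → ℂ) (ψ : G → ℂ) ↔ ∀ x : G, ¬ p ∣ orderOf x → (Nat.card (Subgroup.centralizer ({x} : Set G))).factorization p = d → Cfsg.MemLocalIdeal M (Cfsg.centralChar (χ : G → ℂ) x - Cfsg.centralChar (ψ : G → ℂ) x) := by
  classical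
  letI := Fintype.ofFinite G
  letI : Fintype (ConjClasses G) := Fintype.ofFinite _
  have hp := CfsgLib.BlockR.isPrime_of_modular hM
  constructor
  · intro h x _ _
    exact h x
  · intro h
    have hB : Cfsg.IsPBlock M (Cfsg.blockOf M (χ : G → ℂ)) := ⟨χ, rfl⟩
    have hB' : Cfsg.IsPBlock M (Cfsg.blockOf M (ψ : G → ℂ)) := ⟨ψ, rfl⟩
    have hχB := CfsgLib.BlockIdem.mem_blockOf_self hp χ
    have hψB := CfsgLib.BlockIdem.mem_blockOf_self hp ψ
    by_contra hcon
    have h1 : Cfsg.MemLocalIdeal M (CfsgLib.BlockIdem.ind (Cfsg.blockOf M (χ : G → ℂ)) χ -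
        CfsgLib.BlockIdem.ind (Cfsg.blockOf M (χ : G → ℂ)) ψ) := by
      rw [CfsgLib.BlockCore.eq_sum_fou (CfsgLib.BlockIdem.ind (Cfsg.blockOf M (χ : G → ℂ))) χ,
        CfsgLib.BlockCore.eq_sum_fou (CfsgLib.BlockIdem.ind (Cfsg.blockOf M (χ : G → ℂ))) ψ,
        ← Finset.sum_sub_distrib]
      apply CfsgLib.BlockR.ideal_sum hp
      intro C _
      rw [← mul_sub]
      by_cases hreg : p ∣ orderOf (Quotient.out C : G)
      · rw [← CfsgLib.BlockIdem.blockCoeff_eq_fou,
          CfsgLib.BlockOrth.blockCoeff_eq_zero hM hB hreg, zero_mul]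
        exact CfsgLib.BlockR.ideal_zero hp
      · by_cases h1 : Cfsg.MemLocalIdeal M (CfsgLib.BlockCore.fou (CfsgLib.BlockIdem.ind
          (Cfsg.blockOf M (χ : G → ℂ))) (Quotient.out C))
        · exact CfsgLib.BlockR.ideal_mul_right hp h1 (CfsgLib.BlockR.ring_sub hp
            (CfsgLib.BlockIdem.centralChar_ring hp χ _) (CfsgLib.BlockIdem.centralChar_ring hp ψ _))
        · apply CfsgLib.BlockR.ideal_mul_left hp (CfsgLib.BlockIdem.AR_ind_block hp hB _)
          rw [← CfsgLib.BlockIdem.blockCoeff_eq_fou] at h1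
          have h2 := CfsgLib.BlockCount.coeff_defect_le hM hB h1
          rw [hχ] at h2
          rcases h2.lt_or_eq with h3 | h3
          · apply CfsgLib.BlockR.ideal_sub hp
            · by_contra h4
              have := CfsgLib.BlockCount.defect_le_of_cent hM hB hχB h4
              omega
            · by_contra h4
              have := CfsgLib.BlockCount.defect_le_of_cent hM hB' hψB h4
              omega
          · exact h _ hreg h3
    rw [CfsgLib.BlockIdem.ind_of hχB, CfsgLib.BlockIdem.ind_not (show ψ ∉ Cfsg.blockOf M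
      (χ : G → ℂ) from hcon), sub_zero] at h1
    exact CfsgLib.BlockR.not_ideal_one hp h1

end Cfsg.Agent.S4510
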