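import Cfsg.Statements.S4512
import Cfsg.Agent.LibKlein
import Cfsg.Agent.LibBlkRk
import Cfsg.Agent.S4667
import Cfsg.Agent.LibPB20

set_option autoImplicit false
set_option linter.all false
open Cfsg

namespace Cfsg.Agent.S4512

open CfsgLib.CharBasic
open scoped ComplexConjugate

/-- If G is a finite group with a Sylow 2-subgroup that is a Klein four-group and a single conjugacy class of involutions, then its principal 2-block (relative to a maximal ideal M of the algebraic integers containing 2) has 2-regular rank 3: the restrictions of its irreducible characters to the elements of odd order span a space of dimension 3 (it has three irreducible Brauer characters). -/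
theorem result {G : Type*} [Group G] [Finite G] (M : Ideal Cfsg.AlgInt) (hM : Cfsg.IsPModular 2 M) (P : Sylow 2 G)
    (hP : Nat.card P = 4) (hexp : ∀ x : P, x * x = 1)
    (hone : ∀ s t : G, orderOf s = 2 → orderOf t = 2 → IsConj s t) :
    Cfsg.blockRank 2 (Cfsg.principalBlock M G) = 3 := by
  classical
  haveI := Fintype.ofFinite G
  haveI : Fact (Nat.Prime 2) := ⟨Nat.prime_two⟩
  have hkl : IsKleinFour (P : Subgroup G) := by
    refine ⟨hP, ?_⟩
    have h1 : Monoid.exponent (P : Subgroup G) ∣ 2 := Monoid.exponent_dvd_of_forall_pow_eq_one (fun x => by rw [pow_two]; exact hexp x)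
    rcases (Nat.dvd_prime Nat.prime_two).mp h1 with h2 | h2
    · exfalso
      rw [Monoid.exp_eq_one_iff] at h2
      have h3 : Nat.card (P : Subgroup G) = 1 := Nat.card_unique
      have h4 : Nat.card (P : Subgroup G) = 4 := hP
      omega
    · exact h2
  have h : CfsgLib.Klein.Hyp G P := ⟨hkl, hone⟩
  obtain ⟨ζ, δ, hinj, hne, hδ, hB, hval, hrel⟩ := h.main hM
  obtain ⟨z, hzP, hz⟩ := h.exists_z
  have hev := h.sum_even_const hz hzP (f := fun _ => (1 : ℂ)) (fun _ _ => rfl) (fun _ _ _ => rfl)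
  have hG : (Nat.card G : ℂ) ≠ 0 := by exact_mod_cast Nat.card_pos.ne'
  have hBset : principalBlock M G = insert (CfsgLib.Klein.one G) (Set.range ζ) := by
    ext χ
    rw [hB χ, Set.mem_insert_iff, Set.mem_range]
    constructor
    · rintro (h1 | ⟨i, h1⟩)
      · exact Or.inl h1
      · exact Or.inr ⟨i, h1.symm⟩
    · rintro (h1 | ⟨i, h1⟩)
      · exact Or.inl h1
      · exact Or.inr ⟨i, h1.symm⟩
  have hrk := Cfsg.Agent.S4667.result 2 M hM (principalBlock M G) CfsgLib.PB20.isPBlock_principal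
  have hterm : ∀ χ : IrrCharacter G, (∃ d : ℤ, (d = 1 ∨ d = -1) ∧ ∀ g, 2 ∣ orderOf g → (χ : G → ℂ) g = d) →
      ∑ x : G, pRegularPart 2 (χ : G → ℂ) x * (χ : G → ℂ) x⁻¹ = 3 / 4 * (Nat.card G : ℂ) := by
    rintro χ ⟨d, hd, hdv⟩
    have h1 : ∀ x : G, pRegularPart 2 (χ : G → ℂ) x * (χ : G → ℂ) x⁻¹ = (χ : G → ℂ) x * conj ((χ : G → ℂ) x) - if 2 ∣ orderOf x then 1 else 0 := by
      intro x
      rw [char_inv_eq_conj (irr_isCharacter χ.2)]
      by_cases hx : 2 ∣ orderOf x
      · rw [CfsgLib.BlkRk.reg_not hx, if_pos hx, hdv x hx, map_intCast]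
        rcases hd with rfl | rfl <;> norm_num
      · rw [CfsgLib.BlkRk.reg_of hx, if_neg hx, sub_zero]
    rw [Finset.sum_congr rfl fun x _ => h1 x, Finset.sum_sub_distrib]
    have h2 : ∑ x : G, (χ : G → ℂ) x * conj ((χ : G → ℂ) x) = Nat.card G := by
      have := irr_inner_self χ.2
      unfold classInner at this
      rw [inv_mul_eq_iff_eq_mul₀ hG, mul_one] at this
      exact this
    rw [inv_mul_eq_iff_eq_mul₀ hG] at hev
    rw [h2, hev]
    ring
  have hsum : ∑ x : G, ∑ᶠ χ ∈ principalBlock M G, pRegularPart 2 (χ : G → ℂ) x * (χ : G → ℂ) x⁻¹ =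
      (Nat.card G : ℂ) * 3 := by
    have h1 : ∀ F : IrrCharacter G → ℂ, ∑ᶠ χ ∈ principalBlock M G, F χ = F (CfsgLib.Klein.one G) + ∑ i, F (ζ i) := by
      intro F
      rw [hBset, finsum_mem_insert _ (by rintro ⟨i, hi⟩; exact hne i hi) (Set.toFinite _), finsum_mem_range hinj, finsum_eq_sum_of_fintype]
    rw [Finset.sum_congr rfl fun x _ => h1 _, Finset.sum_add_distrib, Finset.sum_comm,
      hterm _ ⟨1, Or.inl rfl, fun g _ => by rw [CfsgLib.Klein.one_apply]; norm_num⟩,
      Finset.sum_congr rfl fun i _ => hterm (ζ i) ⟨δ i, hδ i, hval i⟩]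
    rw [Finset.sum_const, Finset.card_univ, Fintype.card_fin]
    simp only [nsmul_eq_mul]
    push_cast
    ring
  rw [hsum] at hrk
  have := mul_left_cancel₀ hG hrk
  exact_mod_cast this

end Cfsg.Agent.S4512
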