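import Cfsg.Statements.S4633
import Cfsg.Agent.EqBase
import Cfsg.Agent.LibBrP21

set_option autoImplicit false
open Cfsg

namespace Cfsg.Agent.S4633

open CfsgLib.BrP

/-- Let B be a block of the finite group G relative to a maximal ideal M of the algebraic integers containing the prime p, with a nontrivial cyclic defect group P. Let c be a block of C_G(P) inducing B and T the stabilizer of c in N_G(P) (the elements of N_G(P) conjugating c to itself); T contains C_G(P). Then T/C_G(P) is cyclic of order dividing p − 1, and it acts freely on the non-identity elements of P: an element of T fixing some non-identity element of P under conjugation lies in C_G(P). -/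
theorem result {G : Type*} [Group G] [Finite G] (p : ℕ) [Fact p.Prime] (M : Ideal Cfsg.AlgInt) (hM : Cfsg.IsPModular p M) (B : Set (Cfsg.IrrCharacter G)) (hB : Cfsg.IsPBlock M B) (P : Subgroup G) (hPD : Cfsg.IsDefectGroup p M B P) (hP1 : P ≠ ⊥) (hcyc : IsCyclic P) (c : Set (Cfsg.IrrCharacter (Subgroup.centralizer (P : Set G)))) (hc : Cfsg.IsInducedBlock M (Subgroup.centralizer (P : Set G)) c B) (T : Subgroup G) (hT : ∀ g : G, g ∈ T ↔ (g ∈ Subgroup.normalizer (P : Set G) ∧ Cfsg.StabilizesBlock (Subgroup.centralizer (P : Set G)) c g)) [hn : ((Subgroup.centralizer (P : Set G)).subgroupOf T).Normal] : IsCyclic (T ⧸ (Subgroup.centralizer (P : Set G)).subgroupOf T) ∧ (Subgroup.centralizer (P : Set G)).relIndex T ∣ p - 1 ∧ ∀ g ∈ T, ∀ x ∈ P, x ≠ 1 → g * x * g⁻¹ = x → g ∈ Subgroup.centralizer (P : Set G) := by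
  classical
  have := Fintype.ofFinite G
  have : M.IsPrime := hM.2.1.isPrime
  have : M.IsMaximal := hM.2.1
  have := charP_kM hM
  have hcB := hc.1
  have hab : ∀ x ∈ P, ∀ y ∈ P, x * y = y * x := by
    intro x hx y hy
    obtain ⟨u, hu⟩ := hcyc.exists_generator
    obtain ⟨a, ha⟩ := hu ⟨x, hx⟩
    obtain ⟨b, hb⟩ := hu ⟨y, hy⟩
    have ha' : ((u : P) : G) ^ a = x := by
      have := congrArg Subtype.val ha; simpa using this
    have hb' : ((u : P) : G) ^ b = y := by
      have := congrArg Subtype.val hb; simpa using this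
    rw [← ha', ← hb', ← zpow_add, ← zpow_add, add_comm]
  have hPC : P ≤ Subgroup.centralizer (P : Set G) := by
    intro x hx
    rw [Subgroup.mem_centralizer_iff]
    intro y hy
    exact hab y hy x hx
  have hD := (g_def hM hB).1 hPD
  have hPp := hD.pg
  have hbr : Br P (JB M B) * J M P c = J M P c :=
    ind_br hM hPp hPC (Subgroup.centralizer_le_normalizer _) le_rfl hc
  have hof : Of p ⊤ (JB M B) P (J M P c) := ⟨(g_bp hcB).2 hPp, hbr⟩
  have hmx : IsMx p ⊤ (JB M B) P (J M P c) := isMx_of_isDef (g_blk hB) hD hof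
  have hTS : T = TS ⊤ P (J M P c) := by
    ext x; rw [hT, g_stab hcB]
  have hTN : T ≤ Subgroup.normalizer (P : Set G) := fun x hx => ((hT x).1 hx).1
  have hR : ∀ R : Subgroup G, R ≤ T → IsPGroup p R → R ≤ Subgroup.centralizer (P : Set G) := by
    intro R hR hRp
    have h1 := mx_pelem (g_blk hB) hmx (by rw [← hTS]; exact hR) hRp
    rw [CH_top, sup_eq_right.2 hPC] at h1
    exact h1
  have hcard := act_card hTN hR
  obtain ⟨h1, h2, h3⟩ := cyclic_aut P hPp hcyc hP1 (actHom P T hTN).range hcard
  -- the induced injection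
  have hker : (actHom P T hTN).ker = (Subgroup.centralizer (P : Set G)).subgroupOf T := by
    ext t
    rw [MonoidHom.mem_ker, actHom_eq_one hTN, Subgroup.mem_subgroupOf]
  let g : T ⧸ (Subgroup.centralizer (P : Set G)).subgroupOf T →* (actHom P T hTN).range :=
    QuotientGroup.lift _ (actHom P T hTN).rangeRestrict (by
      intro t ht
      rw [← hker] at ht
      exact Subtype.ext ht)
  have hg : Function.Injective g := by
    rw [← MonoidHom.ker_eq_bot_iff, eq_bot_iff]
    intro q
    refine QuotientGroup.induction_on q ?_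
    intro t ht
    have ht1 : actHom P T hTN t = 1 := by
      have h5 : g (t : T ⧸ _) = 1 := ht
      exact congrArg Subtype.val h5
    rw [Subgroup.mem_bot, QuotientGroup.eq_one_iff, ← hker]
    exact ht1
  refine ⟨isCyclic_of_injective g hg, ?_, ?_⟩
  · have h5 : (Subgroup.centralizer (P : Set G)).relIndex T =
        Nat.card (actHom P T hTN).range := by
      rw [← Subgroup.index_ker, hker]; rfl
    rw [h5]; exact h2
  · intro t ht x hx hx1 hfix
    have h5 := h3 (actHom P T hTN ⟨t, ht⟩) ⟨_, rfl⟩ ⟨x, hx⟩ (fun h => hx1 (congrArg Subtype.val h))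
      (Subtype.ext hfix)
    exact (actHom_eq_one hTN).1 h5

end Cfsg.Agent.S4633
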