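import Cfsg.Statements.S4636
import Cfsg.Agent.EqBase

set_option autoImplicit false
open scoped Pointwise
open Cfsg

namespace Cfsg.Agent.S4636



/-- Let P be a nontrivial cyclic p-subgroup of the finite group G and Z its subgroup of order p. For every x outside N_G(Z), P meets its conjugate xPx⁻¹ trivially; consequently N_G(Q) ≤ N_G(Z) for every nontrivial subgroup Q of P. -/
theorem result {G : Type*} [Group G] [Finite G] (p : ℕ) [Fact p.Prime] (P : Subgroup G) (hP : IsPGroup p P) (hP1 : P ≠ ⊥) (hcyc : IsCyclic P) (Z : Subgroup G) (hZ : Z ≤ P) (hZcard : Nat.card Z = p) : (∀ x : G, x ∉ Subgroup.normalizer (Z : Set G) → P ⊓ MulAut.conj x • P = ⊥) ∧ ∀ Q : Subgroup G, Q ≤ P → Q ≠ ⊥ → Subgroup.normalizer (Q : Set G) ≤ Subgroup.normalizer (Z : Set G) := by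
  classical
  have hpp : p.Prime := Fact.out
  -- elements of order dividing p in P are in Z
  have key : ∀ y ∈ P, y ^ p = 1 → y ∈ Z := by
    haveI := Fintype.ofFinite P
    have h1 := IsCyclic.card_pow_eq_one_le (α := P) hpp.pos
    have h2 : (Z.subgroupOf P : Set P).toFinset ⊆ Finset.univ.filter (fun a : P => a ^ p = 1) := by
      intro a ha
      rw [Set.mem_toFinset] at ha
      rw [Finset.mem_filter]
      refine ⟨Finset.mem_univ _, ?_⟩
      have ha' : (a : G) ∈ Z := ha
      apply Subtype.ext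
      have h3 : (⟨a, ha'⟩ : Z) ^ Nat.card Z = 1 := pow_card_eq_one'
      rw [hZcard] at h3
      exact congrArg (Subtype.val : Z → G) h3
    have h3 : (Z.subgroupOf P : Set P).toFinset.card = p := by
      rw [← hZcard, Set.toFinset_card, ← Nat.card_eq_fintype_card]
      exact Nat.card_congr (Subgroup.subgroupOfEquivOfLe hZ).toEquiv
    have h4 := Finset.eq_of_subset_of_card_le h2 (by rw [h3]; exact h1)
    intro y hy hyp
    have h5 : (⟨y, hy⟩ : P) ∈ Finset.univ.filter (fun a : P => a ^ p = 1) := by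
      rw [Finset.mem_filter]
      exact ⟨Finset.mem_univ _, Subtype.ext hyp⟩
    rw [← h4, Set.mem_toFinset] at h5
    exact h5
  have hgen : ∀ w ∈ Z, w ≠ 1 → Subgroup.zpowers w = Z := by
    intro w hw hw1
    refine Subgroup.eq_of_le_of_card_ge (by rwa [Subgroup.zpowers_le]) ?_
    rw [hZcard, Nat.card_zpowers]
    have h1 : orderOf w ∣ p := by
      have h3 : (⟨w, hw⟩ : Z) ^ Nat.card Z = 1 := pow_card_eq_one'
      rw [hZcard] at h3
      exact orderOf_dvd_of_pow_eq_one (congrArg (Subtype.val : Z → G) h3)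
    rcases (Nat.dvd_prime hpp).1 h1 with h2 | h2
    · exact absurd (orderOf_eq_one_iff.1 h2) hw1
    · exact h2.ge
  have hord : ∀ y ∈ P, y ≠ 1 → ∃ k : ℕ, y ^ k ∈ Z ∧ y ^ k ≠ 1 := by
    intro y hy hy1
    obtain ⟨j, hj⟩ := IsPGroup.iff_orderOf.1 hP ⟨y, hy⟩
    have hj' : orderOf y = p ^ j := by rw [← hj, ← Subgroup.orderOf_coe]
    have hj0 : j ≠ 0 := by
      rintro rfl
      rw [pow_zero, orderOf_eq_one_iff] at hj'
      exact hy1 hj'
    obtain ⟨i, rfl⟩ := Nat.exists_eq_succ_of_ne_zero hj0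
    refine ⟨p ^ i, key _ (P.pow_mem hy _) ?_, ?_⟩
    · rw [← pow_mul, ← pow_succ, ← hj', pow_orderOf_eq_one]
    · intro h
      have := orderOf_dvd_of_pow_eq_one h
      rw [hj'] at this
      have := (Nat.pow_dvd_pow_iff_le_right hpp.one_lt).1 this
      omega
  -- an element conjugating w ∈ Z into P normalizes Z
  have hnorm : ∀ w ∈ Z, w ≠ 1 → ∀ x : G, x * w * x⁻¹ ∈ P → x ∈ Subgroup.normalizer (Z : Set G) := by
    intro w hw hw1 x hx
    have hwp : w ^ p = 1 := by
      have h3 : (⟨w, hw⟩ : Z) ^ Nat.card Z = 1 := pow_card_eq_one'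
      rw [hZcard] at h3
      exact congrArg (Subtype.val : Z → G) h3
    have h1 : x * w * x⁻¹ ∈ Z := by
      apply key _ hx
      rw [conj_pow, hwp, mul_one, mul_inv_cancel]
    have h2 : x * w * x⁻¹ ≠ 1 := by
      intro h
      apply hw1
      have : w = x⁻¹ * (x * w * x⁻¹) * x := by group
      rw [this, h]; group
    have h3 := hgen w hw hw1
    have h4 := hgen _ h1 h2
    rw [Subgroup.mem_normalizer_iff]
    intro z
    constructor
    · intro hz
      rw [← h3] at hz
      obtain ⟨k, rfl⟩ := Subgroup.mem_zpowers_iff.1 hz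
      rw [← conj_zpow]
      exact Z.zpow_mem h1 k
    · intro hz
      rw [← h4] at hz
      obtain ⟨k, hk⟩ := Subgroup.mem_zpowers_iff.1 hz
      rw [conj_zpow] at hk
      have : z = w ^ k := by
        have h5 : z = x⁻¹ * (x * z * x⁻¹) * x := by group
        rw [h5, ← hk]; group
      rw [this]
      exact Z.zpow_mem hw k
  constructor
  · intro x hx
    by_contra hne
    obtain ⟨⟨y, hy⟩, hy1⟩ := (Subgroup.ne_bot_iff_exists_ne_one).1 hne
    replace hy1 : y ≠ 1 := fun h' => hy1 (Subtype.ext h')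
    obtain ⟨hyP, hyx⟩ := Subgroup.mem_inf.1 hy
    obtain ⟨k, hk, hk1⟩ := hord y hyP hy1
    apply hx
    have h1 := hnorm (y ^ k) hk hk1 x⁻¹ (by
      rw [Subgroup.mem_pointwise_smul_iff_inv_smul_mem] at hyx
      have h2 : (MulAut.conj x)⁻¹ • y = x⁻¹ * y * x := by
        rw [← map_inv]; simp [MulAut.smul_def]
      rw [h2] at hyx
      have := P.pow_mem hyx k
      have h3 : x⁻¹ * y ^ k * x⁻¹⁻¹ = (x⁻¹ * y * x) ^ k := by
        have := conj_pow (a := x⁻¹) (b := y) (i := k)
        rw [inv_inv] at this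
        rw [this, inv_inv]
      rwa [h3])
    have := Subgroup.inv_mem _ h1
    rwa [inv_inv] at this
  · intro Q hQ hQ1 x hx
    obtain ⟨⟨y, hy⟩, hy1⟩ := (Subgroup.ne_bot_iff_exists_ne_one).1 hQ1
    replace hy1 : y ≠ 1 := fun h' => hy1 (Subtype.ext h')
    obtain ⟨k, hk, hk1⟩ := hord y (hQ hy) hy1
    refine hnorm (y ^ k) hk hk1 x ?_
    apply hQ
    exact (Subgroup.mem_normalizer_iff.1 hx _).1 (Q.pow_mem hy k)

end Cfsg.Agent.S4636
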