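import Cfsg.Statements.S4691
import Cfsg.Agent.LibPBP19
import Cfsg.Agent.LibTransPC

set_option autoImplicit false
open Cfsg

namespace Cfsg.Agent.S4691

open CfsgLib.PBP19 CfsgLib.PBker19

/-- Fix a prime p and a maximal ideal M of the algebraic integers containing p. A finite group G has a normal p-complement if and only if its principal p-block is nilpotent. -/
theorem result {G : Type*} [Group G] [Fintype G] (p : ℕ) [Fact p.Prime] (M : Ideal Cfsg.AlgInt) (hM : Cfsg.IsPModular p M) : Cfsg.HasNormalPComplement p G ↔ Cfsg.IsNilpotentBlock p M (Cfsg.principalBlock M G) := by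
  classical
  rw [CfsgLib.TransPC.hasNPC_iff]
  constructor
  · intro h
    obtain ⟨N, hN⟩ := h
    refine ⟨principal_isBlock M, ?_⟩
    intro Q e he x hx _ hreg
    have hQp : IsPGroup p Q := he.1.1
    have hNn := hN.1
    have hxN : x ∈ N := (hN.mem_iff x).mpr ((Nat.Prime.coprime_iff_not_dvd Fact.out).2 hreg).symm
    rw [Subgroup.mem_centralizer_iff]
    intro y hy
    have h1 : y * x * y⁻¹ * x⁻¹ ∈ N ⊓ Q := by
      refine Subgroup.mem_inf.mpr ⟨?_, ?_⟩
      · exact N.mul_mem (hNn.conj_mem x hxN y) (N.inv_mem hxN)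
      · have h2 := (Subgroup.mem_normalizer_iff.mp hx y⁻¹).mp (Q.inv_mem hy)
        have h3 := Q.mul_mem hy h2
        have h4 : y * (x * y⁻¹ * x⁻¹) = y * x * y⁻¹ * x⁻¹ := by group
        rwa [h4] at h3
    have h2 : N ⊓ Q = ⊥ := by
      obtain ⟨P, hP⟩ := hQp.exists_le_sylow
      rw [eq_bot_iff, ← (hN.isComplement' P).disjoint.eq_bot]
      exact inf_le_inf_left _ hP
    rw [h2, Subgroup.mem_bot, mul_inv_eq_one, mul_inv_eq_iff_eq_mul] at h1
    exact h1
  · intro h
    apply CfsgLib.TransPC.FrobCond.exists_isNPC p _ G rfl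
    intro Q hQ g hg ho
    exact h.2 Q _ (principal_pair hM hQ) g hg (stab_principal M hg)
      ((Nat.Prime.coprime_iff_not_dvd Fact.out).1 ho.symm)

end Cfsg.Agent.S4691
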