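import Cfsg.Statements.S4646
import Cfsg.Agent.EqBase
import Cfsg.Agent.LibBlkRk
import Cfsg.Agent.S4691
import Cfsg.Agent.S0938
import Cfsg.Agent.LibNpc9
import Cfsg.Agent.LibBlockM

set_option autoImplicit false
open Cfsg

namespace Cfsg.Agent.S4646

open CfsgLib.BlockIdem CfsgLib.BlockR CfsgLib.BlkRk

/-- For a finite group G, a prime p and a maximal ideal M of the algebraic integers containing p: the principal block of G is nilpotent if and only if its p-regular rank is 1 (the trivial Brauer character is its only irreducible Brauer character). -/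
theorem result {G : Type*} [Group G] [Finite G] (p : ℕ) [Fact p.Prime] (M : Ideal Cfsg.AlgInt) (hM : Cfsg.IsPModular p M) : Cfsg.IsNilpotentBlock p M (Cfsg.principalBlock M G) ↔ Cfsg.blockRank p (Cfsg.principalBlock M G) = 1 := by
  classical
  have := Fintype.ofFinite G
  have hMp : M.IsPrime := hM.2.1.isPrime
  rw [← Cfsg.Agent.S4691.result p M hM]
  let e : Cfsg.IrrCharacter G := ⟨fun _ => 1, CfsgLib.CharBasic.isIrrCharacter_one⟩
  have hB : Cfsg.IsPBlock M (Cfsg.principalBlock M G) := ⟨e, rfl⟩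
  have he : e ∈ Cfsg.principalBlock M G := mem_blockOf_self hMp e
  obtain ⟨K, hKn, hKker, hKp, hK1, hKmax⟩ := Cfsg.Agent.S0938.result p M hM _ hB e he
  have hmem : ∀ g, g ∈ K ↔ ∀ χ ∈ Cfsg.principalBlock M G, (χ : G → ℂ) g = (χ : G → ℂ) 1 := by
    intro g
    rw [← SetLike.mem_coe, hKker]; rfl
  constructor
  · intro h
    have hall : ∀ g : G, ¬ p ∣ orderOf g → g ∈ K := by
      intro g hg
      have h1 : g ∈ Cfsg.pPrimeCore p G := CfsgLib.Npc9.mem_pPrimeCore_of_coprime h
        ((Nat.Prime.coprime_iff_not_dvd Fact.out).2 hg).symm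
      refine hKmax (Cfsg.pPrimeCore p G) inferInstance ?_ (fun _ _ => rfl) h1
      exact (Nat.Prime.coprime_iff_not_dvd Fact.out).1 (CfsgLib.Cores.pPrimeCore_coprime (G := G) p).symm
    refine rank_one_of he fun χ hχ => ⟨(χ : G → ℂ) 1, fun g hg => ?_⟩
    rw [(hmem g).1 (hall g hg) χ hχ]
    exact (mul_one _).symm
  · intro h
    -- every member is a multiple of the trivial character on regular elements
    have hall : ∀ g : G, ¬ p ∣ orderOf g → g ∈ K := by
      intro g hg
      rw [hmem]
      intro χ hχ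
      obtain ⟨c, hc⟩ := of_rank_one h he hχ
      rw [hc g hg, hc 1 one_reg]
    rw [CfsgLib.Npc9.hnpc_iff]
    refine ⟨K, hKn, ((Nat.Prime.coprime_iff_not_dvd Fact.out).2 hKp).symm, ?_⟩
    -- the index is a p-power
    have h1 : IsPGroup p (G ⧸ K) := by
      intro q
      obtain ⟨x, rfl⟩ := QuotientGroup.mk_surjective q
      have hpos : orderOf x ≠ 0 := (orderOf_pos x).ne'
      obtain ⟨k, m, hm, h1⟩ := Nat.exists_eq_pow_mul_and_not_dvd hpos p (Fact.out : p.Prime).ne_one
      refine ⟨k, ?_⟩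
      rw [← QuotientGroup.mk_pow, QuotientGroup.eq_one_iff]
      apply hall
      have h2 : orderOf (x ^ p ^ k) = m := by
        rw [orderOf_pow, h1, Nat.gcd_eq_right (dvd_mul_right _ _),
          Nat.mul_div_cancel_left _ (pow_pos (Fact.out : p.Prime).pos k)]
      rw [h2]; exact hm
    obtain ⟨k, hk⟩ := IsPGroup.iff_card.1 h1
    exact ⟨k, hk⟩

end Cfsg.Agent.S4646
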