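import Cfsg.Statements.S4650
import Cfsg.Agent.EqBase
import Cfsg.Agent.LibBrP21

set_option autoImplicit false
open Cfsg

namespace Cfsg.Agent.S4650

open CfsgLib.BrP

/-- Let B be a block of the finite group G relative to a maximal ideal M of the algebraic integers containing the prime p, with a nontrivial commutative defect group P; let c be a block of C_G(P) inducing B and T the stabilizer of c in N_G(P). Then T/C_G(P) acts freely on the non-identity elements of P (an element of T fixing a non-identity element of P under conjugation lies in C_G(P)) if and only if, for every nontrivial subgroup Q of P, the block of C_G(Q) induced by c inside C_G(Q) is a nilpotent block of C_G(Q). -/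
theorem result {G : Type*} [Group G] [Finite G] (p : ℕ) [Fact p.Prime] (M : Ideal Cfsg.AlgInt) (hM : Cfsg.IsPModular p M) (B : Set (Cfsg.IrrCharacter G)) (hB : Cfsg.IsPBlock M B) (P : Subgroup G) (hPD : Cfsg.IsDefectGroup p M B P) (hPab : ∀ x ∈ P, ∀ y ∈ P, x * y = y * x) (hP1 : P ≠ ⊥) (c : Set (Cfsg.IrrCharacter (Subgroup.centralizer (P : Set G)))) (hc : Cfsg.IsInducedBlock M (Subgroup.centralizer (P : Set G)) c B) (T : Subgroup G) (hT : ∀ g : G, g ∈ T ↔ (g ∈ Subgroup.normalizer (P : Set G) ∧ Cfsg.StabilizesBlock (Subgroup.centralizer (P : Set G)) c g)) : (∀ g ∈ T, ∀ x ∈ P, x ≠ 1 → g * x * g⁻¹ = x → g ∈ Subgroup.centralizer (P : Set G)) ↔ ∀ Q : Subgroup G, Q ≤ P → Q ≠ ⊥ → ∀ f : Set (Cfsg.IrrCharacter (Subgroup.centralizer (Q : Set G))), Cfsg.IsInducedBlockIn M (Subgroup.centralizer (Q : Set G)) (Subgroup.centralizer (P : Set G)) c f → Cfsg.IsNilpotentBlock p M f := by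
  classical
  have := Fintype.ofFinite G
  have : M.IsPrime := hM.2.1.isPrime
  have : M.IsMaximal := hM.2.1
  have := charP_kM hM
  have hcB := hc.1
  have hPC : P ≤ Subgroup.centralizer (P : Set G) := by
    intro x hx
    rw [Subgroup.mem_centralizer_iff]
    intro y hy
    exact hPab y hy x hx
  have hD := (g_def hM hB).1 hPD
  have hPp := hD.pg
  have hbr : Br P (JB M B) * J M P c = J M P c :=
    ind_br hM hPp hPC (Subgroup.centralizer_le_normalizer _) le_rfl hc
  have hof : Of p ⊤ (JB M B) P (J M P c) := ⟨(g_bp hcB).2 hPp, hbr⟩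
  have hmx : IsMx p ⊤ (JB M B) P (J M P c) := isMx_of_isDef (g_blk hB) hD hof
  have hTS : T = TS ⊤ P (J M P c) := by
    ext x; rw [hT, g_stab hcB]
  constructor
  · intro hfree Q hQP hQ1 f hf
    have hfB := hf.2.1
    have hle := (abel_pair hM hPp hPab hQP hcB hfB).1 hf
    have hmxf := isMx_local (g_blk hB) hmx hPab hle
    have h1 := (nilp_abelian (g_C hfB) hmxf hPab).2 (by
      intro x hx
      obtain ⟨⟨q, hq⟩, hq1⟩ := (Subgroup.ne_bot_iff_exists_ne_one).1 hQ1
      replace hq1 : q ≠ 1 := fun h' => hq1 (Subtype.ext h')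
      refine hfree x ?_ q (hQP hq) hq1 ?_
      · rw [hTS]; exact ⟨Subgroup.mem_top x, hx.2.1, hx.2.2⟩
      · have h2 := Subgroup.mem_centralizer_iff.1 hx.1.2 q hq
        rw [← h2, mul_inv_cancel_right])
    rw [CH_top] at h1
    exact (nilp_iff_h hM hfB).2 h1
  · intro h g hg x hx hx1 hfix
    have hQP : Subgroup.zpowers x ≤ P := by rw [Subgroup.zpowers_le]; exact hx
    have hQ1 : Subgroup.zpowers x ≠ ⊥ := by rw [Ne, Subgroup.zpowers_eq_bot]; exact hx1
    obtain ⟨f', hf'⟩ := exists_le_pair hmx.1.1 hQP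
    have hbp : BP p ⊤ (Subgroup.zpowers x) f' := hf'.bp_left hmx.1.1
    obtain ⟨f, hf, hff⟩ := g_surj hbp.blk
    subst hff
    have hind := (abel_pair hM hPp hPab hQP hcB hf).2 hf'
    have hnil := (nilp_iff_h hM hf).1 (h _ hQP hQ1 f hind)
    rw [← J_eq, ← CH_top] at hnil
    have hmxf := isMx_local (g_blk hB) hmx hPab hf'
    refine (nilp_abelian (g_C hf) hmxf hPab).1 hnil ?_
    rw [hTS] at hg
    refine ⟨⟨Subgroup.mem_top g, ?_⟩, hg.2.1, hg.2.2⟩
    show g ∈ Subgroup.centralizer ((Subgroup.zpowers x : Subgroup G) : Set G)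
    rw [CfsgLib.BlockOrth.centralizer_zpowers, Subgroup.mem_centralizer_singleton_iff]
    calc g * x = (g * x * g⁻¹) * g := by group
      _ = x * g := by rw [hfix]

end Cfsg.Agent.S4650
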