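import Cfsg.Statements.S4652
import Cfsg.Agent.EqBase
import Cfsg.Agent.LibBrP11

set_option autoImplicit false
open Cfsg

namespace Cfsg.Agent.S4652

open CfsgLib.BrP

/-- Fix a prime p and a maximal ideal M of the algebraic integers containing p. The defect groups of the principal p-block of a finite group G are exactly the Sylow p-subgroups of G: a subgroup D is a defect group of the principal block if and only if D is a Sylow p-subgroup. -/
theorem result {G : Type*} [Group G] [Fintype G] (p : ℕ) [Fact p.Prime] (M : Ideal Cfsg.AlgInt) (hM : Cfsg.IsPModular p M) (D : Subgroup G) : Cfsg.IsDefectGroup p M (Cfsg.principalBlock M G) D ↔ ∃ S : Sylow p G, (S : Subgroup G) = D := by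
  have : M.IsPrime := hM.2.1.isPrime
  have := charP_kM hM
  have hB : Cfsg.IsPBlock M (Cfsg.principalBlock M G) := isPBlock_principal
  rw [g_def hM hB, prin_isDef (g_blk hB) ((aug_bk id_inj hB).2 rfl)]
  constructor
  · intro h
    have hc := h.card
    have h1 : Nat.card ((⊤ : Subgroup G) : Type _) = Nat.card G := Subgroup.card_top
    refine ⟨Sylow.ofCard D ?_, rfl⟩
    rw [hc, h1]
  · rintro ⟨S, rfl⟩
    refine CfsgLib.BlockFMT.sylIn_of_card le_top S.2 ?_
    have h1 : Nat.card ((⊤ : Subgroup G) : Type _) = Nat.card G := Subgroup.card_top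
    rw [h1]
    exact S.card_eq_multiplicity.ge

end Cfsg.Agent.S4652
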