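import Cfsg.Statements.S4653
import Cfsg.Agent.EqBase
import Cfsg.Agent.LibBrP12

set_option autoImplicit false
open Cfsg

namespace Cfsg.Agent.S4653

open CfsgLib.BrP

/-- Fix a prime p and a maximal ideal M of the algebraic integers containing p. Let P be a normal p-subgroup of the finite group G and B a p-block of G. Then the idempotent of B is supported on C_G(P): its coefficient at every element of G outside C_G(P) is zero. -/
theorem result {G : Type*} [Group G] [Fintype G] (p : ℕ) [Fact p.Prime] (M : Ideal Cfsg.AlgInt) (hM : Cfsg.IsPModular p M) (P : Subgroup G) [P.Normal] (hP : IsPGroup p P) (B : Set (Cfsg.IrrCharacter G)) (hB : Cfsg.IsPBlock M B) (g : G) (hg : g ∉ Subgroup.centralizer (P : Set G)) : Cfsg.blockCoeff B g = 0 := by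
  have : M.IsPrime := hM.2.1.isPrime
  have := charP_kM hM
  have hN : ∀ y : G, y ∈ Subgroup.normalizer (P : Set G) := by
    intro y; rw [Subgroup.normalizer_eq_top]; exact Subgroup.mem_top y
  have hs : Supp (Subgroup.centralizer (P : Set G)) (JB M B) :=
    idem_supp le_top hP (fun y _ => hN y) (g_blk hB).zh (g_blk hB).idem
  obtain ⟨x, hof⟩ := exists_of_br_ne (P := P) (g_blk hB) le_top hP (by
    rw [br_eq_self hs]; exact (g_blk hB).ne)
  obtain ⟨e, he, hex⟩ := g_surj (P := P) hof.1.blk
  subst hex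
  let T : Subgroup G := TS ⊤ P (J M P e)
  have hT : ∀ y, y ∈ T ↔ Cfsg.StabilizesBlock (Subgroup.centralizer (P : Set G)) e y := by
    intro y
    rw [show y ∈ T ↔ y ∈ TS ⊤ P (J M P e) from Iff.rfl, ← g_stab he]
    exact ⟨fun h => h.2, fun h => ⟨hN y, h⟩⟩
  have h3 : JB M B * bk M (Subgroup.centralizer (P : Set G)).subtype e ≠ 0 := by
    have h1 := hof.2
    rw [br_eq_self hs] at h1
    have h2 : JB M B * bk M (Subgroup.centralizer (P : Set G)).subtype e = J M P e := h1
    rw [h2]
    exact hof.1.blk.ne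
  rw [sum_conj_exact he hB hs h3 hT, Finset.sum_eq_zero, mul_zero]
  intro y _
  rw [CfsgLib.BlockOrth.subgroupBlockCoeff_eq, CfsgLib.BlockOrth.ext0_not]
  intro h
  apply hg
  have h4 := (mem_centralizer_conj (hN y)).2 h
  have e1 : y * (y⁻¹ * g * y) * y⁻¹ = g := by group
  rwa [e1] at h4

end Cfsg.Agent.S4653
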