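import Cfsg.Statements.S4657
import Cfsg.Agent.EqBase
import Cfsg.Agent.LibBrP10

set_option autoImplicit false
open Cfsg

namespace Cfsg.Agent.S4657

open CfsgLib.BrP

/-- Fix a prime p and a maximal ideal M of the algebraic integers containing p. Every Brauer pair (P, e) of the finite group G is a Brauer pair of exactly one p-block B of G. -/
theorem result {G : Type*} [Group G] [Fintype G] (p : ℕ) [Fact p.Prime] (M : Ideal Cfsg.AlgInt) (hM : Cfsg.IsPModular p M) (P : Subgroup G) (e : Set (Cfsg.IrrCharacter (Subgroup.centralizer (P : Set G)))) (hPe : Cfsg.IsBrauerPair p M P e) : ∃! B : Set (Cfsg.IrrCharacter G), Cfsg.IsBrauerPairOf p M B P e := by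
  have : M.IsPrime := hM.2.1.isPrime
  have := charP_kM hM
  obtain ⟨hPp, he⟩ := hPe
  have hP : BP p ⊤ P (J M P e) := (g_bp he).2 hPp
  obtain ⟨x, hx, hx2⟩ := exists_of hP
  obtain ⟨B, hB, hfx⟩ := g_blk_surj hx
  subst hfx
  refine ⟨B, (g_of hM hB).2 ⟨he, hx2⟩, ?_⟩
  intro B' hB'
  have h0 : Cfsg.IsPBlock M B' := hB'.2.1
  have h1 := (g_of hM h0).1 hB'
  exact g_blk_inj h0 hB (of_unique (g_blk h0) hx h1.2 hx2)

end Cfsg.Agent.S4657
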