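import Cfsg.Statements.S4660
import Cfsg.Agent.EqBase
import Cfsg.Agent.LibBrP10

set_option autoImplicit false
open Cfsg

namespace Cfsg.Agent.S4660

open CfsgLib.BrP

/-- Fix a prime p and a maximal ideal M of the algebraic integers containing p. Let (P, e) be a maximal Brauer pair of the p-block B of the finite group G and (Q, f) any Brauer pair of B. Then some conjugate of (Q, f) lies below (P, e): there is x in G such that (x Q x⁻¹, conjugate of f by x) ≤ (P, e). -/
theorem result {G : Type*} [Group G] [Fintype G] (p : ℕ) [Fact p.Prime] (M : Ideal Cfsg.AlgInt) (hM : Cfsg.IsPModular p M) (B : Set (Cfsg.IrrCharacter G)) (P Q : Subgroup G) (e : Set (Cfsg.IrrCharacter (Subgroup.centralizer (P : Set G)))) (f : Set (Cfsg.IrrCharacter (Subgroup.centralizer (Q : Set G)))) (hmax : Cfsg.IsMaximalBrauerPair p M B P e) (hQf : Cfsg.IsBrauerPairOf p M B Q f) : ∃ x : G, Cfsg.SubpairLE p M (Q.map (MulAut.conj x).toMonoidHom) (Cfsg.conjBlock Q x f) P e := by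
  have : M.IsPrime := hM.2.1.isPrime
  have := charP_kM hM
  have hB : Cfsg.IsPBlock M B := hmax.1.2.1
  obtain ⟨he, hmx⟩ := (g_mx hM hB).1 hmax
  obtain ⟨hf, hof⟩ := (g_of hM hB).1 hQf
  obtain ⟨x, _, hx⟩ := hmx.ge (g_blk hB) hof
  refine ⟨x, (g_le hM (isPBlock_conjBlock Q x hf) he).2 ?_⟩
  rw [g_conj]
  exact hx

end Cfsg.Agent.S4660
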