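import Cfsg.Statements.S4661
import Cfsg.Agent.EqBase
import Cfsg.Agent.LibBrP10

set_option autoImplicit false
open Cfsg

namespace Cfsg.Agent.S4661

open CfsgLib.BrP

/-- Fix a prime p and a maximal ideal M of the algebraic integers containing p. Let (P, e) be a maximal Brauer pair of the p-block B of the finite group G, Q ≤ P, and f the p-block of C_G(Q) with (Q, f) ≤ (P, e). Then C_P(Q) is contained in a defect group of f (as a block of the group C_G(Q)); and for some x in G the conjugate pair (x Q x⁻¹, conjugate of f) again lies below (P, e) and C_P(x Q x⁻¹) is a defect group of the conjugate of f in C_G(x Q x⁻¹). -/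
theorem result {G : Type*} [Group G] [Fintype G] (p : ℕ) [Fact p.Prime] (M : Ideal Cfsg.AlgInt) (hM : Cfsg.IsPModular p M) (B : Set (Cfsg.IrrCharacter G)) (P Q : Subgroup G) (e : Set (Cfsg.IrrCharacter (Subgroup.centralizer (P : Set G)))) (f : Set (Cfsg.IrrCharacter (Subgroup.centralizer (Q : Set G)))) (hmax : Cfsg.IsMaximalBrauerPair p M B P e) (hQP : Q ≤ P) (hf : Cfsg.IsPBlock M f) (hle : Cfsg.SubpairLE p M Q f P e) : (∃ D : Subgroup (Subgroup.centralizer (Q : Set G)), Cfsg.IsDefectGroup p M f D ∧ (P ⊓ Subgroup.centralizer (Q : Set G)).subgroupOf (Subgroup.centralizer (Q : Set G)) ≤ D) ∧ ∃ x : G, Cfsg.SubpairLE p M (Q.map (MulAut.conj x).toMonoidHom) (Cfsg.conjBlock Q x f) P e ∧ Cfsg.IsDefectGroup p M (Cfsg.conjBlock Q x f) ((P ⊓ Subgroup.centralizer ((Q.map (MulAut.conj x).toMonoidHom) : Set G)).subgroupOf (Subgroup.centralizer ((Q.map (MulAut.conj x).toMonoidHom) : Set G))) := by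
  have : M.IsPrime := hM.2.1.isPrime
  have := charP_kM hM
  have hB : Cfsg.IsPBlock M B := hmax.1.2.1
  obtain ⟨he, hmx⟩ := (g_mx hM hB).1 hmax
  have hle' := g_le' hM hle
  have hof : Of p ⊤ (JB M B) Q (J M Q f) := hmx.1.of_le (g_blk hB) hle'
  obtain ⟨D, hD⟩ := exists_isDef (p := p) hof.1.blk
  refine ⟨?_, ?_⟩
  · obtain ⟨y, hy, h1⟩ := cent_le_defect hmx.1.1 hle' hD
    have hD' := hD.conj hy
    have hDC : cS y D ≤ Subgroup.centralizer (Q : Set G) := hD'.le.trans inf_le_right
    refine ⟨(cS y D).subgroupOf (Subgroup.centralizer (Q : Set G)), (c_def' hM hf hDC).2 hD', ?_⟩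
    exact Subgroup.comap_mono h1
  · obtain ⟨x, _, h1, _, h3⟩ := exists_cent (g_blk hB) hmx hof hD
    refine ⟨x, ?_, ?_⟩
    · refine (g_le hM (isPBlock_conjBlock Q x hf) he).2 ?_
      rw [g_conj]
      exact h1
    · refine (c_def' hM (isPBlock_conjBlock Q x hf) inf_le_right).2 ?_
      rw [g_conj]
      exact h3

end Cfsg.Agent.S4661
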