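import Cfsg.Statements.S4662
import Cfsg.Agent.EqBase
import Cfsg.Agent.LibBrP12

set_option autoImplicit false
open Cfsg

namespace Cfsg.Agent.S4662

open CfsgLib.BrP

/-- Fix a prime p and a maximal ideal M of the algebraic integers containing p. Let (P, e) be a maximal Brauer pair of the p-block B of the finite group G, Q ≤ P, and f the p-block of C_G(Q) with (Q, f) ≤ (P, e). Let T be the stabilizer of f in N_G(Q). Then the idempotent of f is a block idempotent of T, and N_P(Q) is contained in a defect group of that block of T; moreover for some x in G the conjugate pair (x Q x⁻¹, conjugate of f) again lies below (P, e) and, with T' the stabilizer of the conjugate of f in N_G(x Q x⁻¹), N_P(x Q x⁻¹) is a defect group of the block of T' whose idempotent is that of the conjugate of f. -/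
theorem result {G : Type*} [Group G] [Fintype G] (p : ℕ) [Fact p.Prime] (M : Ideal Cfsg.AlgInt) (hM : Cfsg.IsPModular p M) (B : Set (Cfsg.IrrCharacter G)) (P Q : Subgroup G) (e : Set (Cfsg.IrrCharacter (Subgroup.centralizer (P : Set G)))) (f : Set (Cfsg.IrrCharacter (Subgroup.centralizer (Q : Set G)))) (hmax : Cfsg.IsMaximalBrauerPair p M B P e) (hQP : Q ≤ P) (hf : Cfsg.IsPBlock M f) (hle : Cfsg.SubpairLE p M Q f P e) (T : Subgroup G) (hT : ∀ y : G, y ∈ T ↔ y ∈ Subgroup.normalizer (Q : Set G) ∧ Cfsg.StabilizesBlock (Subgroup.centralizer (Q : Set G)) f y) : (∃ F : Set (Cfsg.IrrCharacter T), Cfsg.IsPBlock M F ∧ (∀ t : T, Cfsg.blockCoeff F t = Cfsg.subgroupBlockCoeff (Subgroup.centralizer (Q : Set G)) f (t : G)) ∧ ∃ D : Subgroup T, Cfsg.IsDefectGroup p M F D ∧ (P ⊓ Subgroup.normalizer (Q : Set G)).subgroupOf T ≤ D) ∧ ∃ x : G, Cfsg.SubpairLE p M (Q.map (MulAut.conj x).toMonoidHom) (Cfsg.conjBlock Q x f) P e ∧ ∀ (T' : Subgroup G), (∀ y : G, y ∈ T'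 ↔ y ∈ Subgroup.normalizer ((Q.map (MulAut.conj x).toMonoidHom) : Set G) ∧ Cfsg.StabilizesBlock (Subgroup.centralizer ((Q.map (MulAut.conj x).toMonoidHom) : Set G)) (Cfsg.conjBlock Q x f) y) → ∃ F' : Set (Cfsg.IrrCharacter T'), Cfsg.IsPBlock M F' ∧ (∀ t : T', Cfsg.blockCoeff F' t = Cfsg.subgroupBlockCoeff (Subgroup.centralizer ((Q.map (MulAut.conj x).toMonoidHom) : Set G)) (Cfsg.conjBlock Q x f) (t : G)) ∧ Cfsg.IsDefectGroup p M F' ((P ⊓ Subgroup.normalizer ((Q.map (MulAut.conj x).toMonoidHom) : Set G)).subgroupOf T') := by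
  have : M.IsPrime := hM.2.1.isPrime
  have := charP_kM hM
  have hB : Cfsg.IsPBlock M B := hmax.1.2.1
  obtain ⟨he, hmx⟩ := (g_mx hM hB).1 hmax
  have hle' := g_le' hM hle
  have hof : Of p ⊤ (JB M B) Q (J M Q f) := hmx.1.of_le (g_blk hB) hle'
  obtain ⟨hTS, F, hF, hFc, hFe⟩ := stab_block hM hf hof.1 hT
  obtain ⟨D, hD⟩ := exists_isDef (p := p) (isBlk_TS hof.1)
  refine ⟨⟨F, hF, hFc, ?_⟩, ?_⟩
  · obtain ⟨_, y, hy, h1⟩ := norm_le_defect hmx.1.1 hle' hD
    have hD' := hD.conj hy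
    rw [← hTS] at hD'
    refine ⟨(cS y D).subgroupOf T, ?_, Subgroup.comap_mono h1⟩
    rw [h_def' hM hF hD'.le, hFe]
    exact hD'
  · obtain ⟨x, hx, h1, _, h3⟩ := exists_norm (g_blk hB) hmx hof hD
    have hf' := isPBlock_conjBlock (M := M) Q x hf
    refine ⟨x, ?_, ?_⟩
    · refine (g_le hM hf' he).2 ?_
      rw [g_conj]
      exact h1
    · intro T' hT'
      have hbp' : BP p ⊤ (cS x Q) (J M (cS x Q) (Cfsg.conjBlock Q x f)) := by
        rw [g_conj]; exact hof.1.cj' hx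
      obtain ⟨hTS', F', hF', hFc', hFe'⟩ := stab_block hM hf' hbp' hT'
      rw [← g_conj] at h3
      rw [← hTS'] at h3
      refine ⟨F', hF', hFc', ?_⟩
      rw [h_def' hM hF' h3.le, hFe']
      exact h3

end Cfsg.Agent.S4662
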