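import Cfsg.Statements.S4663
import Cfsg.Agent.EqBase
import Cfsg.Agent.LibBrP11

set_option autoImplicit false
open Cfsg

namespace Cfsg.Agent.S4663

open CfsgLib.BrP

/-- Fix a prime p and a maximal ideal M of the algebraic integers containing p. Brauer's Third Main Theorem in the language of Brauer pairs: for the principal p-block B₀ of the finite group G and any p-subgroup Q, a p-block e of C_G(Q) makes (Q, e) a Brauer pair of B₀ if and only if e is the principal p-block of C_G(Q). Equivalently, modulo M the truncation to C_G(Q) of the idempotent of B₀ is the idempotent of the principal block of C_G(Q). -/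
theorem result {G : Type*} [Group G] [Fintype G] (p : ℕ) [Fact p.Prime] (M : Ideal Cfsg.AlgInt) (hM : Cfsg.IsPModular p M) (Q : Subgroup G) (hQ : IsPGroup p Q) (e : Set (Cfsg.IrrCharacter (Subgroup.centralizer (Q : Set G)))) (he : Cfsg.IsPBlock M e) : Cfsg.IsBrauerPairOf p M (Cfsg.principalBlock M G) Q e ↔ e = Cfsg.principalBlock M (Subgroup.centralizer (Q : Set G)) := by
  have : M.IsPrime := hM.2.1.isPrime
  have := charP_kM hM
  have hB : Cfsg.IsPBlock M (Cfsg.principalBlock M G) := isPBlock_principal
  have haB := (aug_bk (ι := MonoidHom.id G) id_inj hB).2 rfl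
  rw [g_of hM hB, ← aug_bk (iC_injective (ι := MonoidHom.id G) id_inj Q) he]
  constructor
  · rintro ⟨_, h⟩
    exact third_main (g_blk hB) haB h
  · intro h
    exact ⟨he, prin_of (g_blk hB) haB ((g_bp he).2 hQ) h⟩

end Cfsg.Agent.S4663
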