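import Cfsg.Statements.S4668
import Cfsg.Agent.EqBase
import Cfsg.Agent.S4653
import Cfsg.Agent.LibAxB9

set_option autoImplicit false
open Cfsg

namespace Cfsg.Agent.S4668

open scoped commutatorElement

/-- Fix a prime p and a maximal ideal M of the algebraic integers containing p. Let Q₀ < Q₁ < ⋯ < Q_m be a strictly increasing chain of p-subgroups of the finite group G and N the intersection of their normalizers. Then every block idempotent of N is supported on C_G(Q_m): for every p-block E of N, the idempotent coefficient of E vanishes at every element of N outside C_G(Q_m). -/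
theorem result {G : Type*} [Group G] [Fintype G] (p : ℕ) [Fact p.Prime] (M : Ideal Cfsg.AlgInt) (hM : Cfsg.IsPModular p M) (m : ℕ) (Q : Fin (m + 1) → Subgroup G) (hQ : StrictMono Q) (hQp : ∀ i, IsPGroup p (Q i)) (N : Subgroup G) (hN : ∀ g : G, g ∈ N ↔ ∀ i, g ∈ Subgroup.normalizer (Q i : Set G)) (E : Set (Cfsg.IrrCharacter N)) (hE : Cfsg.IsPBlock M E) (n : N) (hn : (n : G) ∉ Subgroup.centralizer (Q (Fin.last m) : Set G)) : Cfsg.blockCoeff E n = 0 := by
  classical
  have hMp : M.IsPrime := hM.2.1.isPrime
  have := Fintype.ofFinite N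
  by_contra hne
  have hreg : ¬ p ∣ orderOf n := by
    intro h
    exact hne (CfsgLib.BlockOrth.blockCoeff_eq_zero hM hE h)
  -- the normal p-subgroup N ∩ Q_m of N
  set R : Subgroup N := (Q (Fin.last m)).subgroupOf N with hR
  have hRn : R.Normal := by
    refine ⟨fun x hx g => ?_⟩
    rw [hR, Subgroup.mem_subgroupOf] at hx ⊢
    exact (Subgroup.mem_normalizer_iff.1 ((hN g).1 g.2 (Fin.last m)) _).1 hx
  have hRp : IsPGroup p R := (hQp _).comap_subtype
  have hcent : n ∈ Subgroup.centralizer (R : Set N) := by
    by_contra h
    exact hne (Cfsg.Agent.S4653.result p M hM R hRp E hE n h)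
  have hcent' : ∀ x ∈ Q (Fin.last m), x ∈ N → x * (n : G) = n * x := by
    intro x hx hxN
    exact congrArg Subtype.val (Subgroup.mem_centralizer_iff.1 hcent ⟨x, hxN⟩ hx)
  apply hn
  have hmono := hQ.monotone
  have hB : (Nat.card (Subgroup.zpowers (n : G))).Coprime p := by
    rw [Nat.card_zpowers, Subgroup.orderOf_coe]
    exact ((Nat.Prime.coprime_iff_not_dvd Fact.out).2 hreg).symm
  have key : ∀ i : Fin (m + 1), (n : G) ∈ Subgroup.centralizer (Q i : Set G) := by
    intro i
    induction i using Fin.induction with
    | zero =>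
      rw [Subgroup.mem_centralizer_iff]
      intro x hx
      have hxj : ∀ j, x ∈ Q j := fun j => hmono (Fin.zero_le j) hx
      exact hcent' x (hxj _) ((hN x).2 fun j => Subgroup.le_normalizer (hxj j))
    | succ i ih =>
      have hlt : Q i.castSucc ≤ Q i.succ := hmono (Fin.castSucc_lt_succ).le
      have hAB : ⁅Q i.castSucc, Subgroup.zpowers (n : G)⁆ = ⊥ := by
        rw [Subgroup.commutator_eq_bot_iff_le_centralizer]
        intro x hx
        rw [Subgroup.mem_centralizer_iff]
        rintro _ ⟨k, rfl⟩
        have h1 : Commute x (n : G) := Subgroup.mem_centralizer_iff.1 ih x hx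
        exact (h1.zpow_right k).eq.symm
      have hC : ⁅Q i.succ ⊓ Subgroup.centralizer (Q i.castSucc : Set G),
          Subgroup.zpowers (n : G)⁆ = ⊥ := by
        rw [Subgroup.commutator_eq_bot_iff_le_centralizer]
        rintro x ⟨hx1, hx2⟩
        rw [Subgroup.mem_centralizer_iff]
        rintro _ ⟨k, rfl⟩
        have hxN : x ∈ N := by
          rw [hN]
          intro j
          rcases le_or_gt j i.castSucc with hj | hj
          · have h1 : Q j ≤ Q i.castSucc := hmono hj
            rw [Subgroup.mem_normalizer_iff]
            intro y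
            have h2 : ∀ y ∈ Q j, x * y * x⁻¹ = y := by
              intro y hy
              rw [← Subgroup.mem_centralizer_iff.1 hx2 y (h1 hy), mul_inv_cancel_right]
            constructor
            · intro hy; rw [h2 y hy]; exact hy
            · intro hy
              have h3 := h2 _ hy
              have h4 : x * y * x⁻¹ = y := by
                have h5 : x⁻¹ * (x * (x * y * x⁻¹) * x⁻¹) * x = x⁻¹ * (x * y * x⁻¹) * x := by
                  rw [h3]
                calc x * y * x⁻¹ = x⁻¹ * (x * (x * y * x⁻¹) * x⁻¹) * x := by group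
                  _ = x⁻¹ * (x * y * x⁻¹) * x := h5
                  _ = y := by group
              rwa [h4] at hy
          · have h1 : Q i.succ ≤ Q j := hmono (Fin.castSucc_lt_iff_succ_le.1 hj)
            exact Subgroup.le_normalizer (h1 hx1)
        have h1 : Commute x (n : G) := hcent' x (hmono (Fin.le_last _) hx1) hxN
        exact (h1.zpow_right k).eq.symm
      have hBN : Subgroup.zpowers (n : G) ≤ Subgroup.normalizer (Q i.succ : Set G) := by
        rw [Subgroup.zpowers_le]
        exact (hN n).1 n.2 i.succ
      have h1 := CfsgLib.AxB9.thompson_AxB (hQp i.castSucc) hB hAB _ (Q i.succ) rfl (hQp i.succ)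
        (hlt.trans Subgroup.le_normalizer) hBN hC
      rw [Subgroup.commutator_eq_bot_iff_le_centralizer] at h1
      rw [Subgroup.mem_centralizer_iff]
      intro x hx
      exact (Subgroup.mem_centralizer_iff.1 (h1 hx) n (Subgroup.mem_zpowers _)).symm
  exact key _

end Cfsg.Agent.S4668
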