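import Cfsg.Statements.S4670
import Cfsg.Agent.EqBase
import Cfsg.Agent.LibBrP15

set_option autoImplicit false
open Cfsg

namespace Cfsg.Agent.S4670

open CfsgLib.BrP

/-- Fix a prime p and a maximal ideal M of the algebraic integers containing p. Let P be a p-subgroup of the finite group G and H a subgroup containing N_G(P). For every p-block B of G with defect group P there is exactly one p-block c of H with defect group P whose idempotent agrees with that of B, modulo the local ideal at M, at every element of C_G(P) (their Brauer-map images at P coincide); and every p-block c of H with defect group P arises in this way from exactly one such B. This is the Brauer correspondence over H. -/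
theorem result {G : Type*} [Group G] [Fintype G] (p : ℕ) [Fact p.Prime] (M : Ideal Cfsg.AlgInt) (hM : Cfsg.IsPModular p M) (P H : Subgroup G) (hP : IsPGroup p P) (hH : Subgroup.normalizer (P : Set G) ≤ H) : (∀ B : Set (Cfsg.IrrCharacter G), Cfsg.IsPBlock M B → Cfsg.IsDefectGroup p M B P → ∃! c : Set (Cfsg.IrrCharacter H), Cfsg.IsPBlock M c ∧ Cfsg.IsDefectGroup p M c (P.subgroupOf H) ∧ ∀ x : G, x ∈ Subgroup.centralizer (P : Set G) → Cfsg.MemLocalIdeal M (Cfsg.blockCoeff B x - Cfsg.subgroupBlockCoeff H c x)) ∧ (∀ c : Set (Cfsg.IrrCharacter H), Cfsg.IsPBlock M c → Cfsg.IsDefectGroup p M c (P.subgroupOf H) → ∃! B : Set (Cfsg.IrrCharacter G), Cfsg.IsPBlock M B ∧ Cfsg.IsDefectGroup p M B P ∧ ∀ x : G, x ∈ Subgroup.centralizer (P : Set G) → Cfsg.MemLocalIdeal M (Cfsg.blockCoeff B x - Cfsg.subgroupBlockCoeff H c x)) := by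
  have : M.IsPrime := hM.2.1.isPrime
  have : M.IsMaximal := hM.2.1
  have := charP_kM hM
  have hPH : P ≤ H := Subgroup.le_normalizer.trans hH
  have hNN : NH ⊤ P ≤ H := inf_le_right.trans hH
  constructor
  · intro B hB hD
    have hD' := (g_def hM hB).1 hD
    obtain ⟨y, hy, hyD, hyb⟩ := corr_down le_top hNN (g_blk hB) hD'
    obtain ⟨c, hc, rfl⟩ := h_surj hy
    refine ⟨c, ⟨hc, (h_def' hM hc hPH).2 hyD, (br_eq_iff hB hc).2 hyb⟩, ?_⟩
    rintro c' ⟨hc', hcD', hcb'⟩
    have h1 := (br_eq_iff hB hc').1 hcb'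
    refine h_inj hc' hc (corr_inj hPH hP (h_blk hc') (h_blk hc) (h1.symm.trans hyb) ?_)
    rw [← h1]; exact hD'.br
  · intro c hc hD
    have hD' := (h_def' hM hc hPH).1 hD
    obtain ⟨y, hy, hyD, hyb⟩ := corr_up le_top hNN (h_blk hc) hD'
    obtain ⟨B, hB, rfl⟩ := g_blk_surj hy
    refine ⟨B, ⟨hB, (g_def hM hB).2 hyD, (br_eq_iff hB hc).2 hyb⟩, ?_⟩
    rintro B' ⟨hB', hBD', hBb'⟩
    have h1 := (br_eq_iff hB' hc).1 hBb'
    refine g_blk_inj hB' hB (corr_inj le_top hP (g_blk hB') (g_blk hB) (h1.trans hyb.symm) ?_)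
    rw [h1]; exact hD'.br

end Cfsg.Agent.S4670
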