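import Cfsg.Statements.S4671
import Cfsg.Agent.EqBase
import Cfsg.Agent.LibBrP18

set_option autoImplicit false
open Cfsg

namespace Cfsg.Agent.S4671

open CfsgLib.BrP

/-- Fix a prime p and a maximal ideal M of the algebraic integers containing p. Let N be a normal subgroup of the finite group G, B a p-block of G and P a defect group of B. Then there is a p-block c of N, stable under conjugation by P and covered by B (some member of B has a constituent in c on restriction to N), such that P ∩ N is a defect group of c. -/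
theorem result {G : Type*} [Group G] [Fintype G] (p : ℕ) [Fact p.Prime] (M : Ideal Cfsg.AlgInt) (hM : Cfsg.IsPModular p M) (N : Subgroup G) [N.Normal] [Fintype N] (B : Set (Cfsg.IrrCharacter G)) (hB : Cfsg.IsPBlock M B) (P : Subgroup G) (hP : Cfsg.IsDefectGroup p M B P) : ∃ c : Set (Cfsg.IrrCharacter N), Cfsg.IsPBlock M c ∧ (∀ x ∈ P, Cfsg.StabilizesBlock N c x) ∧ (∃ χ ∈ B, ∃ θ ∈ c, Cfsg.classInner (fun n : N => (χ : G → ℂ) n) (θ : N → ℂ) ≠ 0) ∧ Cfsg.IsDefectGroup p M c ((P ⊓ N).subgroupOf N) := by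
  have : M.IsPrime := hM.2.1.isPrime
  have : M.IsMaximal := hM.2.1
  have := charP_kM hM
  have hD := (g_def hM hB).1 hP
  have hN : (⊤ : Subgroup G) ≤ Subgroup.normalizer (N : Set G) := by
    rw [Subgroup.normalizer_eq_top]
  obtain ⟨y, hy, hyfx, hyb⟩ := exists_stable_cover (N := N) le_top hN (g_blk hB) hD.le hD.pg hD.br
  obtain ⟨c, hc, rfl⟩ := h_surj hy
  obtain ⟨_, _, hcD⟩ := knorr hM le_top hN (g_blk hB) hD hy hyfx hyb
  refine ⟨c, hc, fun x hx => ?_, ?_, ?_⟩
  · exact (stab_normal_iff hc).2 (fx_iff.1 hyfx x hx)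
  · refine (covers_iff (M := M) (ι := MonoidHom.id G) id_inj (L := N) (j := N.subtype)
      (fun l => rfl) ?_ hc hB).2 ?_
    · rw [range_id]; exact hN
    · intro h0
      apply hyb
      rw [← br_mul hD.pg (fx_mono hD.le (g_blk hB).zh.2) hyfx, h0, br_zero]
  · rw [h_def' hM hc inf_le_right]
    exact hcD

end Cfsg.Agent.S4671
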