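import Cfsg.Statements.S4672
import Cfsg.Agent.EqBase
import Cfsg.Agent.LibBrP18

set_option autoImplicit false
open Cfsg

namespace Cfsg.Agent.S4672

open CfsgLib.BrP

/-- Fix a prime p and a maximal ideal M of the algebraic integers containing p. Let N be a normal subgroup of the finite group G of p-power index and c a p-block of N stable under conjugation by G. Then the idempotent of c is a block idempotent of G: there is a p-block B of G whose idempotent coefficients agree with those of c on N and vanish off N; and for every defect group P of such a block B, G = NP and P ∩ N is a defect group of c. -/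
theorem result {G : Type*} [Group G] [Fintype G] (p : ℕ) [Fact p.Prime] (M : Ideal Cfsg.AlgInt) (hM : Cfsg.IsPModular p M) (N : Subgroup G) [N.Normal] (hN : ∃ k : ℕ, N.index = p ^ k) (c : Set (Cfsg.IrrCharacter N)) (hc : Cfsg.IsPBlock M c) (hst : ∀ x : G, Cfsg.StabilizesBlock N c x) : (∃ B : Set (Cfsg.IrrCharacter G), Cfsg.IsPBlock M B ∧ ∀ g : G, Cfsg.blockCoeff B g = Cfsg.subgroupBlockCoeff N c g) ∧ ∀ B : Set (Cfsg.IrrCharacter G), Cfsg.IsPBlock M B → (∀ g : G, Cfsg.blockCoeff B g = Cfsg.subgroupBlockCoeff N c g) → ∀ P : Subgroup G, Cfsg.IsDefectGroup p M B P → N ⊔ P = ⊤ ∧ Cfsg.IsDefectGroup p M c ((P ⊓ N).subgroupOf N) := by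
  classical
  have : M.IsPrime := hM.2.1.isPrime
  have : M.IsMaximal := hM.2.1
  have := charP_kM hM
  have hNn : (⊤ : Subgroup G) ≤ Subgroup.normalizer (N : Set G) := by
    rw [Subgroup.normalizer_eq_top]
  have hfx : Fx ⊤ (bk M N.subtype c) := by
    rw [fx_iff]; intro x _; exact (stab_normal_iff hc).1 (hst x)
  have hidx : ∃ n : ℕ, N.relIndex ⊤ = p ^ n := by rw [Subgroup.relIndex_top_right]; exact hN
  have hblk : IsBlk ⊤ (bk M N.subtype c) := isBlk_of_stable hM le_top hNn hidx (h_blk hc) hfx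
  have hsbc : ∀ g x : G, Cfsg.subgroupBlockCoeff N c (x⁻¹ * g * x) =
      Cfsg.subgroupBlockCoeff N c g := by
    intro g x
    have h1 := sbc_stab hc (hst x⁻¹) g
    rwa [inv_inv] at h1
  refine ⟨?_, ?_⟩
  · obtain ⟨B, hB, hBc⟩ := g_blk_surj hblk
    refine ⟨B, hB, fun g => ?_⟩
    have hT : ∀ x, x ∈ (⊤ : Subgroup G) ↔ Cfsg.StabilizesBlock N c x := fun x =>
      ⟨fun _ => hst x, fun _ => Subgroup.mem_top x⟩
    rw [sum_conj_exact hc hB (by rw [hBc]; exact (h_blk hc).zh.1)
      (by rw [hBc, (h_blk hc).idem]; exact (h_blk hc).ne) hT g,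
      Finset.sum_congr rfl fun x _ => hsbc g x, Finset.sum_const, Finset.card_univ, nsmul_eq_mul,
      Subgroup.card_top, Nat.card_eq_fintype_card, inv_mul_cancel_left₀]
    exact_mod_cast Fintype.card_ne_zero
  · intro B hB hBc P hP
    have hJ : JB M B = bk M N.subtype c := by
      apply ext'
      intro x
      have h1 : (JB M B).coeff x = rd M (Cfsg.blockCoeff B x) :=
        bk_coeff (M := M) (ι := MonoidHom.id G) id_inj B x
      rw [h1, sbc_bk, hBc]
    have hD := (g_def hM hB).1 hP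
    rw [hJ] at hD
    refine ⟨?_, (h_def' hM hc inf_le_right).2 (stable_def le_top (h_blk hc) hNn hD)⟩
    obtain ⟨R, hR⟩ := exists_sylIn (p := p) (⊤ : Subgroup G)
    obtain ⟨t, _, hRt⟩ := stable_cover le_top (h_blk hc) hNn hD le_top hR.isPGroup
    have h1 : ∃ n : ℕ, (cS t P ⊔ N).relIndex ⊤ = p ^ n := by
      obtain ⟨n, hn⟩ := hidx
      have h2 := Subgroup.relIndex_dvd_of_le_left (⊤ : Subgroup G)
        (show N ≤ cS t P ⊔ N from le_sup_right)
      rw [hn] at h2
      obtain ⟨m, _, hm⟩ := (Nat.dvd_prime_pow (Fact.out : p.Prime)).1 h2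
      exact ⟨m, hm⟩
    have h2 := le_of_sylow_le h1 ⟨R, hR, hRt⟩
    have h3 : cS t (N ⊔ P) = cS t P ⊔ N := by
      show (N ⊔ P).map (MulAut.conj t).toMonoidHom = _
      have h4 : N.map (MulAut.conj t).toMonoidHom = N := cS_of_normalizer (hNn (Subgroup.mem_top t))
      rw [Subgroup.map_sup, h4, sup_comm]
    rw [eq_top_iff]
    rw [← h3] at h2
    have h5 := cS_mono (x := t⁻¹) h2
    rw [cS_inv_cS] at h5
    refine le_trans ?_ h5
    rw [cS_of_mem (Subgroup.mem_top t⁻¹)]

end Cfsg.Agent.S4672
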