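import Cfsg.Statements.S4673
import Cfsg.Agent.EqBase
import Cfsg.Agent.LibBrP18

set_option autoImplicit false
open Cfsg

namespace Cfsg.Agent.S4673

open CfsgLib.BrP

/-- Fix a prime p and a maximal ideal M of the algebraic integers containing p. Let N ≤ L be normal subgroups of the finite group G with L/N a p-group, let B be a p-block of G covering the p-block c of N (some member of B has a constituent in c on restriction to N), and suppose that N contains a defect group of B. Then the stabilizer T of c in G satisfies T ∩ L = N. -/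
theorem result {G : Type*} [Group G] [Fintype G] (p : ℕ) [Fact p.Prime] (M : Ideal Cfsg.AlgInt) (hM : Cfsg.IsPModular p M) (N L : Subgroup G) [N.Normal] [L.Normal] [Fintype N] (hNL : N ≤ L) (hLN : ∃ k : ℕ, (N.subgroupOf L).index = p ^ k) (B : Set (Cfsg.IrrCharacter G)) (hB : Cfsg.IsPBlock M B) (c : Set (Cfsg.IrrCharacter N)) (hc : Cfsg.IsPBlock M c) (hcov : (∃ χ ∈ B, ∃ θ ∈ c, Cfsg.classInner (fun n : N => (χ : G → ℂ) n) (θ : N → ℂ) ≠ 0)) (hD : ∃ D : Subgroup G, Cfsg.IsDefectGroup p M B D ∧ D ≤ N) (T : Subgroup G) (hT : ∀ x : G, x ∈ T ↔ Cfsg.StabilizesBlock N c x) : T ⊓ L = N := by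
  classical
  have : M.IsPrime := hM.2.1.isPrime
  have : M.IsMaximal := hM.2.1
  have := charP_kM hM
  have hNn : (⊤ : Subgroup G) ≤ Subgroup.normalizer (N : Set G) := by
    rw [Subgroup.normalizer_eq_top]
  have hLn : (⊤ : Subgroup G) ≤ Subgroup.normalizer (L : Set G) := by
    rw [Subgroup.normalizer_eq_top]
  have hcov' : JB M B * bk M N.subtype c ≠ 0 :=
    (covers_iff (M := M) (ι := MonoidHom.id G) id_inj (L := N) (j := N.subtype)
      (fun l => rfl) (by rw [range_id]; exact hNn) hc hB).1 hcov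
  obtain ⟨D, hD, hDN⟩ := hD
  have hD' := (g_def hM hB).1 hD
  have hTS : T = Sb ⊤ (bk M N.subtype c) := by
    ext x
    rw [hT, stab_normal_iff hc, mem_Sb]
    exact ⟨fun h => ⟨Subgroup.mem_top x, h⟩, fun h => h.2⟩
  have hy := h_blk (M := M) hc
  have hNT : N ≤ T := by rw [hTS]; exact le_Sb le_top hy
  have hNL' : N ≤ T ⊓ L := le_inf hNT hNL
  have hL'N : T ⊓ L ≤ Subgroup.normalizer (N : Set G) := le_top.trans hNn
  have hidx : ∃ n : ℕ, N.relIndex (T ⊓ L) = p ^ n := by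
    obtain ⟨m, hm⟩ := hLN
    have h1 : N.relIndex L = p ^ m := hm
    have h2 : N.relIndex (T ⊓ L) ∣ N.relIndex L := by
      rw [← Subgroup.relIndex_subgroupOf (show T ⊓ L ≤ L from inf_le_right)]
      exact Subgroup.relIndex_dvd_index_of_normal _ _
    rw [h1] at h2
    obtain ⟨n, _, hn⟩ := (Nat.dvd_prime_pow (Fact.out : p.Prime)).1 h2
    exact ⟨n, hn⟩
  have hfx : Fx (T ⊓ L) (bk M N.subtype c) := by
    rw [fx_iff]; intro x hx
    have h1 : x ∈ T := hx.1
    rw [hTS] at h1; exact h1.2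
  have hyL : IsBlk (T ⊓ L) (bk M N.subtype c) := isBlk_of_stable hM hNL' hL'N hidx hy hfx
  obtain ⟨D', hD1⟩ := exists_isDef (p := p) hyL
  obtain ⟨h1, h2, h3, h4⟩ := bc_AA le_top hNn (g_blk hB) hy
  rw [← hTS] at h1 h2
  have hTL' : T ≤ Subgroup.normalizer ((T ⊓ L : Subgroup G) : Set G) := by
    intro x hx
    apply mem_normalizer_of_cS
    rw [cS_inf, cS_of_mem hx, cS_of_normalizer (hLn (Subgroup.mem_top x))]
  have h5 := br_ne_of_cover (inf_le_left : T ⊓ L ≤ T) hTL' hyL ⟨h1, fx_mono inf_le_left h2⟩ h3 h4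
    hcov' hD1.le hD1.pg hD1.br
  have h6 : Br D' (JB M B) ≠ 0 := by
    intro h0
    apply h5
    rw [br_mul hD1.pg (fx_mono le_top (g_blk hB).zh.2) (fx_mono hD1.le hyL.zh.2), h0, zero_mul]
  obtain ⟨x, hx, h7⟩ := hD'.ge le_top hD1.pg h6
  have h8 : D' ≤ N := by
    refine h7.trans ?_
    rw [← cS_of_normalizer (hNn (Subgroup.mem_top x))]
    exact cS_mono hDN
  obtain ⟨R, hR⟩ := exists_sylIn (p := p) (T ⊓ L)
  obtain ⟨t, ht, h9⟩ := stable_cover hNL' hy hL'N hD1 hR.le hR.isPGroup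
  apply le_antisymm _ hNL'
  refine le_of_sylow_le hidx ⟨R, hR, h9.trans (sup_le ?_ le_rfl)⟩
  rw [← cS_of_normalizer (hNn (Subgroup.mem_top t))]
  exact cS_mono h8

end Cfsg.Agent.S4673
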