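import Cfsg.Statements.S4674
import Cfsg.Agent.EqBase
import Cfsg.Agent.LibBrP19

set_option autoImplicit false
open Cfsg

namespace Cfsg.Agent.S4674

open CfsgLib.BrP

/-- Fix a prime p and a maximal ideal M of the algebraic integers containing p. Let N be a normal subgroup of the finite group G, Q a p-subgroup of N, H = N_G(Q) and L = H ∩ N = N_N(Q). Let d be a p-block of N with defect group Q and e the p-block of L with defect group Q that induces d inside N (its Brauer correspondent). Then block induction from H to G is a bijection from the p-blocks of H covering e onto the p-blocks of G covering d: every block of H covering e induces exactly one block of G, and that block covers d; and every block of G covering d is induced by exactly one block of H covering e. -/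
theorem result {G : Type*} [Group G] [Fintype G] (p : ℕ) [Fact p.Prime] (M : Ideal Cfsg.AlgInt) (hM : Cfsg.IsPModular p M) (N : Subgroup G) [N.Normal] [Fintype N] (Q : Subgroup G) (hQ : IsPGroup p Q) (hQN : Q ≤ N) [Fintype ↥(Subgroup.normalizer (Q : Set G) ⊓ N)] (d : Set (Cfsg.IrrCharacter N)) (hd : Cfsg.IsPBlock M d) (hdQ : Cfsg.IsDefectGroup p M d (Q.subgroupOf N)) (e : Set (Cfsg.IrrCharacter ↥(Subgroup.normalizer (Q : Set G) ⊓ N))) (he : Cfsg.IsPBlock M e) (heQ : Cfsg.IsDefectGroup p M e (Q.subgroupOf (Subgroup.normalizer (Q : Set G) ⊓ N))) (hed : Cfsg.IsInducedBlockIn M N (Subgroup.normalizer (Q : Set G) ⊓ N) e d) : (∀ c : Set (Cfsg.IrrCharacter ↥(Subgroup.normalizer (Q : Set G))), Cfsg.IsPBlock M c → (∃ ψ ∈ c, ∃ ξ ∈ e, Cfsg.classInner (fun l : ↥(Subgroup.normalizer (Q : Set G) ⊓ N) => (ψ : ↥(Subgroup.normalizer (Q : Set G)) → ℂ) (Subgroup.inclusion inf_le_left l)) (ξ : ↥(Subgroup.normalizer (Q : Set G) ⊓ N) → ℂ) ≠ 0) → ∃!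 B : Set (Cfsg.IrrCharacter G), Cfsg.IsInducedBlock M (Subgroup.normalizer (Q : Set G)) c B ∧ (∃ χ ∈ B, ∃ θ ∈ d, Cfsg.classInner (fun n : N => (χ : G → ℂ) n) (θ : N → ℂ) ≠ 0)) ∧ (∀ B : Set (Cfsg.IrrCharacter G), Cfsg.IsPBlock M B → (∃ χ ∈ B, ∃ θ ∈ d, Cfsg.classInner (fun n : N => (χ : G → ℂ) n) (θ : N → ℂ) ≠ 0) → ∃! c : Set (Cfsg.IrrCharacter ↥(Subgroup.normalizer (Q : Set G))), (Cfsg.IsPBlock M c ∧ ∃ ψ ∈ c, ∃ ξ ∈ e, Cfsg.classInner (fun l : ↥(Subgroup.normalizer (Q : Set G) ⊓ N) => (ψ : ↥(Subgroup.normalizer (Q : Set G)) → ℂ) (Subgroup.inclusion inf_le_left l)) (ξ : ↥(Subgroup.normalizer (Q : Set G) ⊓ N) → ℂ) ≠ 0) ∧ Cfsg.IsInducedBlock M (Subgroup.normalizer (Q : Set G)) c B) := by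
  classical
  have : M.IsPrime := hM.2.1.isPrime
  have : M.IsMaximal := hM.2.1
  have := charP_kM hM
  have hNn : (⊤ : Subgroup G) ≤ Subgroup.normalizer (N : Set G) := by
    rw [Subgroup.normalizer_eq_top]
  have hQH : Q ≤ Subgroup.normalizer (Q : Set G) := Subgroup.le_normalizer
  have hCH : Subgroup.centralizer (Q : Set G) ≤ Subgroup.normalizer (Q : Set G) :=
    Subgroup.centralizer_le_normalizer _
  have hLc : Subgroup.normalizer (Q : Set G) ⊓ N = NH N Q := inf_comm _ _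
  have hHL : Subgroup.normalizer (Q : Set G) ≤
      Subgroup.normalizer ((Subgroup.normalizer (Q : Set G) ⊓ N : Subgroup G) : Set G) := by
    intro x hx
    apply mem_normalizer_of_cS
    rw [cS_inf, cS_of_mem hx, cS_of_normalizer (hNn (Subgroup.mem_top x))]
  have hQL : Q ≤ Subgroup.normalizer (Q : Set G) ⊓ N := le_inf hQH hQN
  -- idempotents
  set e' := bk M (Subgroup.normalizer (Q : Set G) ⊓ N).subtype e with he'
  set d' := bk M N.subtype d with hd'
  have heB : IsBlk (NH N Q) e' := by rw [← hLc]; exact h_blk he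
  have heD : IsDef p (NH N Q) e' Q := by
    rw [← hLc]; exact (h_def' hM he hQL).1 heQ
  have hdB : IsBlk N d' := h_blk hd
  have hdD : IsDef p N d' Q := (h_def' hM hd hQN).1 hdQ
  have hbr : Br Q d' = e' := by
    have h1 : Br Q d' * e' = e' := indIn_br hM inf_le_right hQ hQL inf_le_left
      (fun x hx => ⟨hCH hx.2, hx.1⟩) hed
    refine (corr_blk hdB hdD).1.eq_of_mul_ne heB ?_
    rw [h1]; exact heB.ne
  have cov1 : ∀ c : Set (Cfsg.IrrCharacter ↥(Subgroup.normalizer (Q : Set G))),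
      Cfsg.IsPBlock M c → ((∃ ψ ∈ c, ∃ ξ ∈ e, Cfsg.classInner (fun l : ↥(Subgroup.normalizer (Q : Set G) ⊓ N) => (ψ : ↥(Subgroup.normalizer (Q : Set G)) → ℂ) (Subgroup.inclusion inf_le_left l)) (ξ : ↥(Subgroup.normalizer (Q : Set G) ⊓ N) → ℂ) ≠ 0) ↔
        bk M (Subgroup.normalizer (Q : Set G)).subtype c * e' ≠ 0) := fun c hc =>
    covers_iff (M := M) (ι := (Subgroup.normalizer (Q : Set G)).subtype)
      (Subgroup.subtype_injective _) (L := Subgroup.normalizer (Q : Set G) ⊓ N)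
      (j := Subgroup.inclusion inf_le_left) (fun l => rfl)
      (by rw [Subgroup.range_subtype]; exact hHL) he hc
  have cov2 : ∀ B : Set (Cfsg.IrrCharacter G), Cfsg.IsPBlock M B →
      ((∃ χ ∈ B, ∃ θ ∈ d, Cfsg.classInner (fun n : N => (χ : G → ℂ) n) (θ : N → ℂ) ≠ 0) ↔
        JB M B * d' ≠ 0) := fun B hB =>
    covers_iff (M := M) (ι := MonoidHom.id G) id_inj (L := N) (j := N.subtype)
      (fun l => rfl) (by rw [range_id]; exact hNn) hd hB
  have hLH : NH N Q ≤ Subgroup.normalizer (Q : Set G) := inf_le_right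
  constructor
  · intro c hc hcov
    rw [cov1 c hc] at hcov
    obtain ⟨B, hB, hBc⟩ := exists_ind hM hQ hQH le_rfl hCH hc
    refine ⟨B, ⟨hB, ?_⟩, ?_⟩
    · rw [cov2 B hB.2.1]
      refine cover_up hM hQ hQN (g_blk hB.2.1).zh hdB.zh hBc ?_ (h_blk hc).zh ?_
      · rw [hbr]; exact hcov
      · rw [hbr]; exact supp_mono hLH heB.zh.1
    · rintro B' ⟨hB', _⟩
      exact CfsgLib.BlockInd.induced_unique hM.2.1.isPrime hB' hB
  · intro B hB hcov
    rw [cov2 B hB] at hcov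
    obtain ⟨c', D, hc', hD, hQD, hDN, hDbr⟩ := hk_down hM hNn hQ hQN (g_blk hB) hdB hdD hcov
    obtain ⟨c, hc, rfl⟩ := h_surj hc'
    obtain ⟨B', hB', hBc'⟩ := exists_ind hM hQ hQH le_rfl hCH hc
    have hBB : JB M B' = JB M B :=
      hk_eq hM hQD hc' hD (g_blk hB'.2.1) (g_blk hB) hBc' hDbr
    have hBB' : B' = B := g_blk_inj hB'.2.1 hB hBB
    subst hBB'
    refine ⟨c, ⟨⟨hc, ?_⟩, hB'⟩, ?_⟩
    · rw [cov1 c hc, ← hbr]
      exact hk_cover hM hNn hQ hQN (g_blk hB) hdB hdD hcov hc' hD hDN hBc'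
    · rintro c₂ ⟨⟨hc₂, hcov₂⟩, hind₂⟩
      rw [cov1 c₂ hc₂] at hcov₂
      have h2 := ind_br hM hQ hQH le_rfl hCH hind₂
      refine h_inj hc₂ hc ?_
      refine hk_inj hM hNn hQ hQN (h_blk hc₂) hc' heB heD hcov₂ ?_ (g_blk hB) h2 hBc'
      rw [← hbr]
      exact hk_cover hM hNn hQ hQN (g_blk hB) hdB hdD hcov hc' hD hDN hBc'

end Cfsg.Agent.S4674
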