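import Cfsg.Statements.S4675
import Cfsg.Agent.EqBase
import Cfsg.Agent.LibCar2

set_option autoImplicit false
open Cfsg

namespace Cfsg.Agent.S4675

open CfsgLib.BlockSec3 CfsgLib.Car CfsgLib.BlockDefect

/-- Fix a prime p and a maximal ideal M of the algebraic integers containing p. Let B be a p-block of the finite group G with defect group P and p-regular rank one (a single irreducible Brauer character). Then there are a function φ on G that is, on the p-regular elements, an integer combination of the members of B, and natural numbers d_χ (χ ∈ B), such that every χ ∈ B agrees with d_χ·φ on the p-regular elements and Σ_{χ ∈ B} d_χ² equals the order of P (the single Cartan invariant of B is the order of P). -/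
theorem result {G : Type*} [Group G] [Fintype G] (p : ℕ) [Fact p.Prime] (M : Ideal Cfsg.AlgInt) (hM : Cfsg.IsPModular p M) (B : Set (Cfsg.IrrCharacter G)) (hB : Cfsg.IsPBlock M B) (P : Subgroup G) (hP : Cfsg.IsDefectGroup p M B P) (hl : Cfsg.blockRank p B = 1) : ∃ φ : G → ℂ, ∃ d : Cfsg.IrrCharacter G → ℕ, (∃ n : Cfsg.IrrCharacter G → ℤ, ∀ x : G, Cfsg.IsPRegular p x → φ x = ∑ᶠ ψ ∈ B, (n ψ : ℂ) * (ψ : G → ℂ) x) ∧ (∀ χ ∈ B, ∀ x : G, Cfsg.IsPRegular p x → (χ : G → ℂ) x = (d χ : ℂ) * φ x) ∧ ∑ᶠ χ ∈ B, d χ ^ 2 = Nat.card P := by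
  obtain ⟨φ, n, d, g, -, -, hφ, hval, -, hsum⟩ := rank_one_data hM hB hl
  refine ⟨φ, d, ⟨n, fun x _ => hφ x⟩, fun χ hχ x hx => hval χ hχ x hx, ?_⟩
  rw [card_defectGroup hM hB hP]
  exact hsum

end Cfsg.Agent.S4675
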