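import Cfsg.Statements.S4679
import Cfsg.Agent.EqBase
import Cfsg.Agent.LibBrP14

set_option autoImplicit false
open Cfsg

namespace Cfsg.Agent.S4679

open CfsgLib.BrP

/-- Fix a prime p and a maximal ideal M of the algebraic integers containing p, a p-block B of the finite group G with maximal Brauer pair (P, e), its fusion system F on P, a Brauer pair (Q, f) ≤ (P, e), and let T be the stabilizer of f in N_G(Q). Then Q is fully normalized in F if and only if N_P(Q) is a defect group of the block of T whose idempotent is that of f. -/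
theorem result {G : Type*} [Group G] [Fintype G] (p : ℕ) [Fact p.Prime] (M : Ideal Cfsg.AlgInt) (hM : Cfsg.IsPModular p M) (B : Set (Cfsg.IrrCharacter G)) (P : Subgroup G) (e : Set (Cfsg.IrrCharacter (Subgroup.centralizer (P : Set G)))) (hmax : Cfsg.IsMaximalBrauerPair p M B P e) (F : Cfsg.FusionSystem P) (hF : Cfsg.IsBlockFusionSystemOn p M B P e F) (Q : Subgroup G) (f : Set (Cfsg.IrrCharacter (Subgroup.centralizer (Q : Set G)))) (hQP : Q ≤ P) (hf : Cfsg.IsPBlock M f) (hle : Cfsg.SubpairLE p M Q f P e) (T : Subgroup G) (hT : ∀ y : G, y ∈ T ↔ y ∈ Subgroup.normalizer (Q : Set G) ∧ Cfsg.StabilizesBlock (Subgroup.centralizer (Q : Set G)) f y) : F.IsFullyNormalized Q ↔ ∃ F' : Set (Cfsg.IrrCharacter T), Cfsg.IsPBlock M F' ∧ (∀ t : T, Cfsg.blockCoeff F' t = Cfsg.subgroupBlockCoeff (Subgroup.centralizer (Q : Set G)) f (t : G)) ∧ Cfsg.IsDefectGroup p M F' ((P ⊓ Subgroup.normalizer (Q : Set G)).subgroupOf T) := by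
  have : M.IsPrime := hM.2.1.isPrime
  have : M.IsMaximal := hM.2.1
  have := charP_kM hM
  have hB : Cfsg.IsPBlock M B := hmax.1.2.1
  obtain ⟨he, hmx⟩ := (g_mx hM hB).1 hmax
  have hle' := g_le' hM hle
  have hof : Of p ⊤ (JB M B) Q (J M Q f) := hmx.1.of_le (g_blk hB) hle'
  obtain ⟨hTS, F', hF', hFc, hFe⟩ := stab_block hM hf hof.1 hT
  obtain ⟨D, hD⟩ := exists_isDef (p := p) (isBlk_TS hof.1)
  obtain ⟨hNT, y, hy, h4⟩ := norm_le_defect hmx.1.1 hle' hD
  constructor
  · rintro ⟨_, h⟩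
    obtain ⟨x, _, h1, h2, _⟩ := exists_norm (g_blk hB) hmx hof hD
    have h3 := h _ ((g_isConj hM he hmx.1.1 hF hle').2 ⟨x, rfl, h1⟩)
    have h5 : Nat.card D ≤ Nat.card (P ⊓ Subgroup.normalizer (Q : Set G) : Subgroup G) := by
      rw [← card_cS x D, h2]; exact h3
    have h6 : IsDef p (TS ⊤ Q (J M Q f)) (J M Q f) (P ⊓ Subgroup.normalizer (Q : Set G)) := by
      rw [cS_eq_of_le_card h4 h5]
      exact hD.conj hy
    rw [← hTS] at h6
    refine ⟨F', hF', hFc, ?_⟩
    rw [h_def' hM hF' h6.le, hFe]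
    exact h6
  · rintro ⟨F₂, hF₂, hF₂c, hF₂D⟩
    have hNT' : P ⊓ Subgroup.normalizer (Q : Set G) ≤ T := by rw [hTS]; exact hNT
    have hFF : F₂ = F' := by
      refine h_inj hF₂ hF' ?_
      refine ext_on (Subgroup.subtype_injective T) (supp_Ph _) (supp_Ph _) fun t => ?_
      rw [bk_coeff (Subgroup.subtype_injective T), bk_coeff (Subgroup.subtype_injective T),
        hF₂c, hFc]
    subst hFF
    rw [h_def' hM hF₂ hNT', hFe] at hF₂D
    refine ⟨hQP, fun Q' hQ' => ?_⟩
    obtain ⟨g, rfl, h1⟩ := (g_isConj hM he hmx.1.1 hF hle').1 hQ'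
    rw [hTS] at hF₂D
    have h2 := hF₂D.cj g
    rw [← TS_cS (Subgroup.mem_top g)] at h2
    obtain ⟨_, y, hy, h3⟩ := norm_le_defect hmx.1.1 h1 h2
    have h4 := card_le_of_le h3
    rw [card_cS, card_cS] at h4
    exact h4

end Cfsg.Agent.S4679
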