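import Cfsg.Statements.S4680
import Cfsg.Agent.EqBase
import Cfsg.Agent.LibBrP14

set_option autoImplicit false
open Cfsg

namespace Cfsg.Agent.S4680

open CfsgLib.BrP

/-- Fix a prime p and a maximal ideal M of the algebraic integers containing p, a p-block B of the finite group G with maximal Brauer pair (P, e), its fusion system F on P, and a Brauer pair (Q, f) ≤ (P, e). Then Q is centric in F if and only if Z(Q) is a defect group of f as a block of C_G(Q). -/
theorem result {G : Type*} [Group G] [Fintype G] (p : ℕ) [Fact p.Prime] (M : Ideal Cfsg.AlgInt) (hM : Cfsg.IsPModular p M) (B : Set (Cfsg.IrrCharacter G)) (P : Subgroup G) (e : Set (Cfsg.IrrCharacter (Subgroup.centralizer (P : Set G)))) (hmax : Cfsg.IsMaximalBrauerPair p M B P e) (F : Cfsg.FusionSystem P) (hF : Cfsg.IsBlockFusionSystemOn p M B P e F) (Q : Subgroup G) (f : Set (Cfsg.IrrCharacter (Subgroup.centralizer (Q : Set G)))) (hQP : Q ≤ P) (hf : Cfsg.IsPBlock M f) (hle : Cfsg.SubpairLE p M Q f P e) : F.IsCentric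 Q ↔ Cfsg.IsDefectGroup p M f ((Q ⊓ Subgroup.centralizer (Q : Set G)).subgroupOf (Subgroup.centralizer (Q : Set G))) := by
  have : M.IsPrime := hM.2.1.isPrime
  have : M.IsMaximal := hM.2.1
  have := charP_kM hM
  have hB : Cfsg.IsPBlock M B := hmax.1.2.1
  obtain ⟨he, hmx⟩ := (g_mx hM hB).1 hmax
  have hle' := g_le' hM hle
  have hof : Of p ⊤ (JB M B) Q (J M Q f) := hmx.1.of_le (g_blk hB) hle'
  obtain ⟨D, hD⟩ := exists_isDef (p := p) hof.1.blk
  have hZp : IsPGroup p (Q ⊓ Subgroup.centralizer (Q : Set G) : Subgroup G) :=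
    hof.1.pg.to_le inf_le_left
  have hZle : Q ⊓ Subgroup.centralizer (Q : Set G) ≤ CH ⊤ Q := by
    rw [CH_top]; exact inf_le_right
  have hZN : ∀ y ∈ CH ⊤ Q, ∀ z ∈ Q ⊓ Subgroup.centralizer (Q : Set G), y * z = z * y := by
    intro y hy z hz
    exact (Subgroup.mem_centralizer_iff.1 hy.2 z hz.1).symm
  have hZN' : CH ⊤ Q ≤ Subgroup.normalizer
      ((Q ⊓ Subgroup.centralizer (Q : Set G) : Subgroup G) : Set G) := by
    intro y hy
    apply mem_normalizer_of_cS
    ext z
    rw [mem_cS]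
    constructor
    · intro h
      have h1 := hZN y hy _ h
      have h2 : z = y⁻¹ * z * y := by
        calc z = y * (y⁻¹ * z * y) * y⁻¹ := by group
          _ = (y⁻¹ * z * y) * y * y⁻¹ := by rw [h1]
          _ = _ := by group
      rw [h2]; exact h
    · intro h
      have h1 := hZN y hy _ h
      have h2 : y⁻¹ * z * y = z := by
        calc y⁻¹ * z * y = y⁻¹ * (z * y) := by group
          _ = y⁻¹ * (y * z) := by rw [h1]
          _ = z := by group
      rw [h2]; exact h
  rw [c_def' hM hf inf_le_right]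
  constructor
  · rintro ⟨_, h⟩
    obtain ⟨x, _, h1, h2, _⟩ := exists_cent (g_blk hB) hmx hof hD
    have h3 := h _ ((g_isConj hM he hmx.1.1 hF hle').2 ⟨x, rfl, h1⟩)
    have h4 : cS x D ≤ cS x Q := by rw [h2]; exact h3
    have h5 : D ≤ Q := cS_le_cS_iff.1 h4
    have h6 : D ≤ Q ⊓ Subgroup.centralizer (Q : Set G) := le_inf h5 (hD.le.trans inf_le_right)
    have h7 := hD.normal_le hof.1.blk hZle hZp hZN'
    have h8 : D = Q ⊓ Subgroup.centralizer (Q : Set G) := le_antisymm h6 h7
    rw [← h8]; exact hD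
  · intro h
    refine ⟨hQP, fun Q' hQ' => ?_⟩
    obtain ⟨g, rfl, h1⟩ := (g_isConj hM he hmx.1.1 hF hle').1 hQ'
    have h2 := h.cj g
    rw [← CH_cS' (Subgroup.mem_top g)] at h2
    obtain ⟨y, hy, h3⟩ := cent_le_defect hmx.1.1 h1 h2
    refine h3.trans ?_
    rw [CH_cS' (Subgroup.mem_top g), mem_cS] at hy
    have h4 := cS_of_normalizer (hZN' hy)
    have h5 : cS y (cS g (Q ⊓ Subgroup.centralizer (Q : Set G))) =
        cS g (Q ⊓ Subgroup.centralizer (Q : Set G)) := by
      have h6 := congrArg (cS g) h4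
      rw [cS_cS] at h6
      have e1 : g * (g⁻¹ * y * g) = y * g := by group
      rw [e1, ← cS_cS] at h6
      exact h6
    rw [h5]
    exact cS_mono inf_le_left

end Cfsg.Agent.S4680
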