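import Cfsg.Statements.S4681
import Cfsg.Agent.EqBase
import Cfsg.Agent.LibBrP11

set_option autoImplicit false
open Cfsg

namespace Cfsg.Agent.S4681

open CfsgLib.BrP

/-- Fix a prime p and a maximal ideal M of the algebraic integers containing p. Let B₀ be the principal p-block of the finite group G, P a Sylow p-subgroup and e₀ the principal p-block of C_G(P). Then (P, e₀) is a maximal Brauer pair of B₀, and the fusion system of B₀ on (P, e₀) is the fusion system of G on P: its maps from each subgroup of P are exactly the conjugation maps into P by elements of G. -/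
theorem result {G : Type*} [Group G] [Fintype G] (p : ℕ) [Fact p.Prime] (M : Ideal Cfsg.AlgInt) (hM : Cfsg.IsPModular p M) (S : Sylow p G) : Cfsg.IsMaximalBrauerPair p M (Cfsg.principalBlock M G) (S : Subgroup G) (Cfsg.principalBlock M (Subgroup.centralizer ((S : Subgroup G) : Set G))) ∧ ∀ F : Cfsg.FusionSystem (S : Subgroup G), Cfsg.IsBlockFusionSystemOn p M (Cfsg.principalBlock M G) (S : Subgroup G) (Cfsg.principalBlock M (Subgroup.centralizer ((S : Subgroup G) : Set G))) F → ∀ Q : Subgroup G, F.Hom Q = (Cfsg.groupFusionSystem (S : Subgroup G)).Hom Q := by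
  have : M.IsPrime := hM.2.1.isPrime
  have := charP_kM hM
  have hB : Cfsg.IsPBlock M (Cfsg.principalBlock M G) := isPBlock_principal
  have haB := (aug_bk (ι := MonoidHom.id G) id_inj hB).2 rfl
  have he : Cfsg.IsPBlock M (Cfsg.principalBlock M
      (Subgroup.centralizer ((S : Subgroup G) : Set G))) := isPBlock_principal
  have hae := (aug_bk (iC_injective (ι := MonoidHom.id G) id_inj (S : Subgroup G)) he).2 rfl
  have hSe : BP p ⊤ (S : Subgroup G) (J M (S : Subgroup G) _) := (g_bp he).2 S.2
  refine ⟨(g_mx hM hB).2 ⟨he, prin_isMx (g_blk hB) haB hSe hae ?_⟩, ?_⟩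
  · refine CfsgLib.BlockFMT.sylIn_of_card le_top S.2 ?_
    have h1 : Nat.card ((⊤ : Subgroup G) : Type _) = Nat.card G := Subgroup.card_top
    rw [h1]
    exact S.card_eq_multiplicity.ge
  · rintro F ⟨_, hF⟩ Q
    ext φ
    rw [hF]
    constructor
    · rintro ⟨hQ, g, hg, hgQ, _⟩
      refine ⟨hQ, fun x => ?_, g, hg⟩
      rw [hg]
      exact hgQ ⟨x, x.2, rfl⟩
    · rintro ⟨hQ, hφ, g, hg⟩
      have hgQ : Q.map (MulAut.conj g).toMonoidHom ≤ (S : Subgroup G) := by
        rintro _ ⟨x, hx, rfl⟩
        have := hφ ⟨x, hx⟩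
        rw [hg] at this
        exact this
      refine ⟨hQ, g, hg, hgQ, ?_⟩
      have hf : Cfsg.IsPBlock M (Cfsg.principalBlock M
        (Subgroup.centralizer (Q : Set G))) := isPBlock_principal
      have haf := (aug_bk (iC_injective (ι := MonoidHom.id G) id_inj Q) hf).2 rfl
      have hQf : BP p ⊤ Q (J M Q _) := (g_bp hf).2 (S.2.to_le hQ)
      refine ⟨_, (g_le hM hf he).2 (prin_le _ _ _ _ _ _ le_rfl hSe hQf hae haf hQ),
        (g_le hM (isPBlock_conjBlock Q g hf) he).2 ?_⟩
      rw [g_conj]
      exact prin_le _ _ _ _ _ _ le_rfl hSe (hQf.cj' (Subgroup.mem_top g)) hae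
        (by rw [aug_cj]; exact haf) hgQ

end Cfsg.Agent.S4681
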