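import Cfsg.Statements.S4682
import Cfsg.Agent.EqBase
import Cfsg.Agent.LibBrP14

set_option autoImplicit false
open Cfsg

namespace Cfsg.Agent.S4682

open CfsgLib.BrP

/-- Fix a prime p and a maximal ideal M of the algebraic integers containing p, a p-block B of the finite group G with maximal Brauer pair (P, e), P abelian, and a Brauer pair (Q, f) ≤ (P, e). Let T_Q be the stabilizer of f in N_G(Q) and T_P the stabilizer of e in N_G(P). Then every element of T_Q is a product of an element of T_P and an element of C_G(Q); and the index of C_G(Q) in T_Q equals the index of T_P ∩ C_G(Q) in T_P ∩ N_G(Q). -/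
theorem result {G : Type*} [Group G] [Fintype G] (p : ℕ) [Fact p.Prime] (M : Ideal Cfsg.AlgInt) (hM : Cfsg.IsPModular p M) (B : Set (Cfsg.IrrCharacter G)) (P : Subgroup G) (e : Set (Cfsg.IrrCharacter (Subgroup.centralizer (P : Set G)))) (hmax : Cfsg.IsMaximalBrauerPair p M B P e) (hab : ∀ x ∈ P, ∀ y ∈ P, x * y = y * x) (Q : Subgroup G) (f : Set (Cfsg.IrrCharacter (Subgroup.centralizer (Q : Set G)))) (hQP : Q ≤ P) (hf : Cfsg.IsPBlock M f) (hle : Cfsg.SubpairLE p M Q f P e) (TQ : Subgroup G) (hTQ : ∀ y : G, y ∈ TQ ↔ y ∈ Subgroup.normalizer (Q : Set G) ∧ Cfsg.StabilizesBlock (Subgroup.centralizer (Q : Set G)) f y) (TP : Subgroup G) (hTP : ∀ y : G, y ∈ TP ↔ y ∈ Subgroup.normalizer (P : Set G) ∧ Cfsg.StabilizesBlock (Subgroup.centralizer (P : Set G)) e y) : (∀ x ∈ TQ, ∃ y ∈ TP, ∃ c ∈ Subgroup.centralizer (Q : Set G), x = y * c) ∧ ((Subgroup.centralizer (Q : Set G)).subgroupOf TQ).index = ((TP ⊓ Subgroup.centralizer (Q : Set G)).subgroupOf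 (TP ⊓ Subgroup.normalizer (Q : Set G))).index := by
  have : M.IsPrime := hM.2.1.isPrime
  have : M.IsMaximal := hM.2.1
  have := charP_kM hM
  have hB : Cfsg.IsPBlock M B := hmax.1.2.1
  obtain ⟨he, hmx⟩ := (g_mx hM hB).1 hmax
  have hle' := g_le' hM hle
  have hof : Of p ⊤ (JB M B) Q (J M Q f) := hmx.1.of_le (g_blk hB) hle'
  have hQ1 : TQ = TS ⊤ Q (J M Q f) := by ext y; rw [hTQ, g_stab hf]
  have hP1 : TP = TS ⊤ P (J M P e) := by ext y; rw [hTP, g_stab he]
  have hfac : ∀ x ∈ TQ, ∃ y ∈ TP, ∃ c ∈ Subgroup.centralizer (Q : Set G), x = y * c := by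
    intro x hx
    rw [hQ1] at hx
    obtain ⟨y, hy, c, hc, h⟩ := abelian_factor (g_blk hB) hmx hab hle' hx
    exact ⟨y, by rw [hP1]; exact hy, c, hc.2, h⟩
  refine ⟨hfac, ?_⟩
  have hA : TP ⊓ Subgroup.normalizer (Q : Set G) ≤ TQ := by
    intro y hy
    rw [hQ1]
    have hyP : y ∈ TS ⊤ P (J M P e) := by rw [← hP1]; exact hy.1
    refine ⟨Subgroup.mem_top y, hy.2, ?_⟩
    have h1 := hle'.cj' (Subgroup.mem_top y)
    dsimp only at h1
    rw [cS_of_normalizer hyP.2.1, hyP.2.2, cS_of_normalizer hy.2] at h1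
    exact LEp.unique hmx.1.1 h1 hle'
  have hC : Subgroup.centralizer (Q : Set G) ≤ TQ := by
    rw [hQ1]
    have := CH_le_TS hof.1
    rwa [CH_top] at this
  have hN : TQ ≤ Subgroup.normalizer ((Subgroup.centralizer (Q : Set G) : Subgroup G) : Set G) := by
    rw [hQ1]
    intro x hx
    rw [mem_normalizer_iff_cS, ← centralizer_cS, cS_of_normalizer hx.2.1]
  have h1 := relIndex_eq_of_factor hA hC hN (fun x hx => by
    obtain ⟨y, hy, c, hc, h⟩ := hfac x hx
    refine ⟨y, ⟨hy, ?_⟩, c, hc, h⟩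
    have hxN : x ∈ Subgroup.normalizer (Q : Set G) := ((hTQ x).1 hx).1
    have h2 : y = x * c⁻¹ := by rw [h]; group
    rw [h2]
    exact Subgroup.mul_mem _ hxN (Subgroup.inv_mem _ (centralizer_le_normalizer Q hc)))
  show (Subgroup.centralizer (Q : Set G)).relIndex TQ =
    (TP ⊓ Subgroup.centralizer (Q : Set G)).relIndex (TP ⊓ Subgroup.normalizer (Q : Set G))
  rw [h1, ← Subgroup.inf_relIndex_right]
  congr 1
  ext y
  simp only [Subgroup.mem_inf]
  constructor
  · rintro ⟨h2, h3, _⟩; exact ⟨h3, h2⟩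
  · rintro ⟨h2, h3⟩; exact ⟨h3, h2, centralizer_le_normalizer Q h3⟩

end Cfsg.Agent.S4682
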