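import Cfsg.Statements.S4686
import Cfsg.Agent.EqBase
import Cfsg.Agent.LibBrP20

set_option autoImplicit false
open Cfsg

namespace Cfsg.Agent.S4686

open CfsgLib.BrP

/-- Fix a prime p and a maximal ideal M of the algebraic integers containing p, a p-block B of the finite group G with maximal Brauer pair (P, e) and fusion system F on P. Then B is nilpotent (for every Brauer pair (Q, f) of B the stabilizer of f in N_G(Q) is C_G(Q) extended by a p-group) if and only if F is the inner fusion system of P: its maps from each subgroup of P are exactly the conjugations by elements of P. -/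
theorem result {G : Type*} [Group G] [Fintype G] (p : ℕ) [Fact p.Prime] (M : Ideal Cfsg.AlgInt) (hM : Cfsg.IsPModular p M) (B : Set (Cfsg.IrrCharacter G)) (P : Subgroup G) (e : Set (Cfsg.IrrCharacter (Subgroup.centralizer (P : Set G)))) (hmax : Cfsg.IsMaximalBrauerPair p M B P e) (F : Cfsg.FusionSystem P) (hF : Cfsg.IsBlockFusionSystemOn p M B P e F) : Cfsg.IsNilpotentBlock p M B ↔ ∀ Q : Subgroup G, F.Hom Q = (Cfsg.innerFusionSystem P).Hom Q := by
  have : M.IsPrime := hM.2.1.isPrime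
  have : M.IsMaximal := hM.2.1
  have := charP_kM hM
  have hB : Cfsg.IsPBlock M B := hmax.1.2.1
  obtain ⟨he, hmx⟩ := (g_mx hM hB).1 hmax
  rw [nilp_iff_g hM hB, nilp_iff_inn (g_blk hB) hmx]
  constructor
  · intro h Q
    rw [g_hom hM he hmx.1.1 hF]
    ext φ
    rw [fusBP_hom]
    constructor
    · rintro ⟨hQ, g, hg, hφ, hT⟩
      obtain ⟨u, hu, h1⟩ := h Q hQ g hg hT
      exact ⟨hQ, u, hu, fun x => by rw [hφ, h1 x x.2]⟩
    · rintro ⟨hQ, u, hu, hφ⟩
      exact ⟨hQ, u, Subgroup.mem_top u, hφ, Tn.of_mem hmx.1.1 hQ hu⟩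
  · intro h Q hQ g hg hT
    have h1 : Cfsg.conjHom Q g ∈ (fusBP hmx.1.1).Hom Q := ⟨hQ, g, hg, fun u => rfl, hT⟩
    rw [← g_hom hM he hmx.1.1 hF, h] at h1
    obtain ⟨_, u, hu, h2⟩ := h1
    exact ⟨u, hu, fun x hx => h2 ⟨x, hx⟩⟩

end Cfsg.Agent.S4686
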