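import Cfsg.Statements.S4687
import Cfsg.Agent.EqBase
import Cfsg.Agent.LibBrP20

set_option autoImplicit false
open Cfsg

namespace Cfsg.Agent.S4687

open CfsgLib.BrP

/-- Fix a prime p and a maximal ideal M of the algebraic integers containing p, and a p-block B of the finite group G with maximal Brauer pair (P, e), P abelian. Then B is nilpotent if and only if its inertial quotient is trivial: every element of N_G(P) stabilizing e centralizes P. -/
theorem result {G : Type*} [Group G] [Fintype G] (p : ℕ) [Fact p.Prime] (M : Ideal Cfsg.AlgInt) (hM : Cfsg.IsPModular p M) (B : Set (Cfsg.IrrCharacter G)) (P : Subgroup G) (e : Set (Cfsg.IrrCharacter (Subgroup.centralizer (P : Set G)))) (hmax : Cfsg.IsMaximalBrauerPair p M B P e) (hab : ∀ x ∈ P, ∀ y ∈ P, x * y = y * x) : Cfsg.IsNilpotentBlock p M B ↔ ∀ x : G, x ∈ Subgroup.normalizer (P : Set G) → Cfsg.StabilizesBlock (Subgroup.centralizer (P : Set G)) e x → x ∈ Subgroup.centralizer (P : Set G) := by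
  have : M.IsPrime := hM.2.1.isPrime
  have : M.IsMaximal := hM.2.1
  have := charP_kM hM
  have hB : Cfsg.IsPBlock M B := hmax.1.2.1
  obtain ⟨he, hmx⟩ := (g_mx hM hB).1 hmax
  rw [nilp_iff_g hM hB, nilp_abelian (g_blk hB) hmx hab]
  constructor
  · intro h x hx1 hx2
    exact h ((g_stab he).1 ⟨hx1, hx2⟩)
  · intro h x hx
    obtain ⟨h1, h2⟩ := (g_stab he).2 hx
    exact h x h1 h2

end Cfsg.Agent.S4687
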