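import Cfsg.Statements.S4692
import Cfsg.Agent.EqBase
import Cfsg.Agent.LibBrP20

set_option autoImplicit false
open Cfsg

namespace Cfsg.Agent.S4692

open CfsgLib.BrP

/-- Fix a prime p and a maximal ideal M of the algebraic integers containing p. Let N be a normal subgroup of p-power index in the finite group G and c a p-block of N stable under conjugation by G, and let B be the p-block of G whose idempotent is that of c (it exists and is unique). Then c is nilpotent as a block of N if and only if B is nilpotent as a block of G. -/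
theorem result {G : Type*} [Group G] [Fintype G] (p : ℕ) [Fact p.Prime] (M : Ideal Cfsg.AlgInt) (hM : Cfsg.IsPModular p M) (N : Subgroup G) [N.Normal] (hN : ∃ k : ℕ, N.index = p ^ k) (c : Set (Cfsg.IrrCharacter N)) (hc : Cfsg.IsPBlock M c) (hst : ∀ x : G, Cfsg.StabilizesBlock N c x) (B : Set (Cfsg.IrrCharacter G)) (hB : Cfsg.IsPBlock M B) (hBc : ∀ g : G, Cfsg.blockCoeff B g = Cfsg.subgroupBlockCoeff N c g) : Cfsg.IsNilpotentBlock p M c ↔ Cfsg.IsNilpotentBlock p M B := by
  have : M.IsPrime := hM.2.1.isPrime
  have : M.IsMaximal := hM.2.1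
  have := charP_kM hM
  have hNn : (⊤ : Subgroup G) ≤ Subgroup.normalizer (N : Set G) := by
    rw [Subgroup.normalizer_eq_top]
  have hidx : ∃ n : ℕ, N.relIndex ⊤ = p ^ n := by
    rw [Subgroup.relIndex_top_right]; exact hN
  have hfx : Fx ⊤ (bk M N.subtype c) := by
    rw [fx_iff]
    intro x _
    exact (stab_normal_iff hc).1 (hst x)
  have heq : JB M B = bk M N.subtype c := by
    apply ext'
    intro g
    have h1 : (JB M B).coeff g = rd M (Cfsg.blockCoeff B g) :=
      bk_coeff (M := M) (ι := MonoidHom.id G) id_inj B g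
    rw [h1, sbc_bk, hBc]
  rw [nilp_iff_h hM hc, nilp_iff_g hM hB, heq]
  exact nilp_ext hM le_top hNn hidx (h_blk hc) hfx

end Cfsg.Agent.S4692
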