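import Cfsg.Statements.S4693
import Cfsg.Agent.EqBase
import Cfsg.Agent.LibBrP20
import Cfsg.Agent.S4680

set_option autoImplicit false
open Cfsg

namespace Cfsg.Agent.S4693

open CfsgLib.BrP

/-- Fix a prime p and a maximal ideal M of the algebraic integers containing p, a p-block B of the finite group G with maximal Brauer pair (P, e) and fusion system F on P, and a Brauer pair (Q, f) ≤ (P, e) with Q centric in F. Suppose every element of G normalizes Q and stabilizes f. Then the idempotent of B agrees with that of f modulo M at every element of G, and f is the idempotent of a nilpotent block of Q·C_G(Q): some p-block of Q·C_G(Q) has the idempotent coefficients of f and is nilpotent. -/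
theorem result {G : Type*} [Group G] [Fintype G] (p : ℕ) [Fact p.Prime] (M : Ideal Cfsg.AlgInt) (hM : Cfsg.IsPModular p M) (B : Set (Cfsg.IrrCharacter G)) (P : Subgroup G) (e : Set (Cfsg.IrrCharacter (Subgroup.centralizer (P : Set G)))) (hmax : Cfsg.IsMaximalBrauerPair p M B P e) (F : Cfsg.FusionSystem P) (hF : Cfsg.IsBlockFusionSystemOn p M B P e F) (Q : Subgroup G) (f : Set (Cfsg.IrrCharacter (Subgroup.centralizer (Q : Set G)))) (hQP : Q ≤ P) (hf : Cfsg.IsPBlock M f) (hle : Cfsg.SubpairLE p M Q f P e) (hcen : F.IsCentric Q) (hG : ∀ x : G, x ∈ Subgroup.normalizer (Q : Set G) ∧ Cfsg.StabilizesBlock (Subgroup.centralizer (Q : Set G)) f x) : (∀ g : G, Cfsg.MemLocalIdeal M (Cfsg.blockCoeff B g - Cfsg.subgroupBlockCoeff (Subgroup.centralizer (Q : Set G)) f g)) ∧ ∃ F' : Set (Cfsg.IrrCharacter ↥(Q ⊔ Subgroup.centralizer (Q : Set G))), Cfsg.IsPBlock M F' ∧ (∀ t : ↥(Q ⊔ Subgroup.centralizer (Q : Set G)), Cfsg.blockCoeff F' t = Cfsg.subgroupBlockCoeff (Subgroup.centralizer (Q : Set G)) f (t : G)) ∧ Cfsg.IsNilpotentBlock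 p M F' := by
  classical
  have : M.IsPrime := hM.2.1.isPrime
  have : M.IsMaximal := hM.2.1
  have := charP_kM hM
  have hB : Cfsg.IsPBlock M B := hmax.1.2.1
  obtain ⟨he, hmx⟩ := (g_mx hM hB).1 hmax
  have hle' := g_le' hM hle
  have hof : Of p ⊤ (JB M B) Q (J M Q f) := hmx.1.of_le (g_blk hB) hle'
  -- `f` is a block of `G`
  have hTS : TS ⊤ Q (J M Q f) = ⊤ := by
    rw [eq_top_iff]
    intro x _
    exact (g_stab hf).1 (hG x)
  have hfG : IsBlk ⊤ (J M Q f) := by
    have h1 := isBlk_TS hof.1
    rwa [hTS] at h1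
  have hQN : (⊤ : Subgroup G) ≤ Subgroup.normalizer (Q : Set G) := fun x _ => (hG x).1
  have hbr : Br Q (JB M B) = JB M B :=
    br_eq_self (idem_supp le_top hof.1.pg hQN (g_blk hB).zh (g_blk hB).idem)
  have hBf : JB M B = J M Q f := by
    refine (g_blk hB).eq_of_mul_ne hfG ?_
    have h1 := hof.2
    rw [hbr] at h1
    rw [h1]; exact hof.1.blk.ne
  have hst : ∀ x : G, Cfsg.StabilizesBlock (Subgroup.centralizer (Q : Set G)) f x :=
    fun x => (hG x).2
  constructor
  · intro g
    have h1 : (JB M B).coeff g = rd M (Cfsg.blockCoeff B g) :=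
      bk_coeff (M := M) (ι := MonoidHom.id G) id_inj B g
    have h2 : (J M Q f).coeff g =
        rd M (Cfsg.subgroupBlockCoeff (Subgroup.centralizer (Q : Set G)) f g) := sbc_bk g
    rw [← rd_eq_iff (CfsgLib.BlockIdem.blockCoeff_ring ‹M.IsPrime› hB g) (sbc_ring hf g),
      ← h1, ← h2, hBf]
  · -- the block of Q C_G(Q)
    have hCT : Subgroup.centralizer (Q : Set G) ≤ Q ⊔ Subgroup.centralizer (Q : Set G) :=
      le_sup_right
    have hTb : IsBlk (Q ⊔ Subgroup.centralizer (Q : Set G)) (J M Q f) := by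
      refine isBlk_of_stab hof.1 le_sup_left (by rw [CH_top]; exact le_sup_right) ?_
      rw [hTS]; exact le_top
    obtain ⟨F', hF', hF'e⟩ := h_surj hTb
    refine ⟨F', hF', ?_, ?_⟩
    · intro t
      exact sbc_exact hCT hf (fun x _ => hst x) hF' hF'e t
    · rw [nilp_iff_h hM hF', hF'e]
      -- `f` is a nilpotent block of C_G(Q)
      have hcen' : Cfsg.IsDefectGroup p M f
          ((Q ⊓ Subgroup.centralizer (Q : Set G)).subgroupOf (Subgroup.centralizer (Q : Set G))) :=
        (Cfsg.Agent.S4680.result p M hM B P e hmax F hF Q f hQP hf hle).1 hcen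
      rw [c_def' hM hf inf_le_right] at hcen'
      have hnil : Nilp p (CH ⊤ Q) (J M Q f) := by
        refine nilp_of_central hof.1.blk hcen' ?_
        intro x hx y hy
        exact Subgroup.mem_centralizer_iff.1 hy.2 x hx.1
      rw [CH_top] at hnil
      have hNn : Q ⊔ Subgroup.centralizer (Q : Set G) ≤
          Subgroup.normalizer ((Subgroup.centralizer (Q : Set G) : Subgroup G) : Set G) := by
        intro x _
        apply mem_normalizer_of_cS
        rw [← centralizer_cS, cS_of_normalizer (hG x).1]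
      have hidx : ∃ n : ℕ, (Subgroup.centralizer (Q : Set G)).relIndex
          (Q ⊔ Subgroup.centralizer (Q : Set G)) = p ^ n := by
        rw [sup_comm]
        refine relIndex_sup_pgroup hof.1.pg ?_
        exact le_sup_left.trans hNn
      refine (nilp_ext hM hCT hNn hidx ?_ ?_).1 hnil
      · have := hof.1.blk
        rwa [CH_top] at this
      · exact fx_mono le_top hfG.zh.2

end Cfsg.Agent.S4693
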