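import Cfsg.Statements.S4694
import Cfsg.Agent.EqBase
import Cfsg.Agent.LibBrP22
import Cfsg.Agent.LibCar5

set_option autoImplicit false
open Cfsg

namespace Cfsg.Agent.S4694

set_option linter.style.haveILetI false
open CfsgLib.BrP CfsgLib.Car CfsgLib.BlockCount2 CfsgLib.BlockCov3

/-- Fix a prime p and a maximal ideal M of the algebraic integers containing p, a p-block B of the finite group G and a Brauer pair (Q, e) of B. Let T be the stabilizer of e in N_G(Q) and suppose that (Q, e) carries a weight: the block of T whose idempotent is that of e contains an irreducible character χ that is constant on the cosets of Q and whose degree has p-part equal to the p-part of the index of Q in T. Then Z(Q) is a defect group of e as a block of C_G(Q), and Q is the largest normal p-subgroup of T: every p-subgroup of T normalized by T lies in Q. -/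
theorem result {G : Type*} [Group G] [Fintype G] (p : ℕ) [Fact p.Prime] (M : Ideal Cfsg.AlgInt) (hM : Cfsg.IsPModular p M) (B : Set (Cfsg.IrrCharacter G)) (Q : Subgroup G) (e : Set (Cfsg.IrrCharacter (Subgroup.centralizer (Q : Set G)))) (hQe : Cfsg.IsBrauerPairOf p M B Q e) (T : Subgroup G) (hT : ∀ y : G, y ∈ T ↔ y ∈ Subgroup.normalizer (Q : Set G) ∧ Cfsg.StabilizesBlock (Subgroup.centralizer (Q : Set G)) e y) (F' : Set (Cfsg.IrrCharacter T)) (hF' : Cfsg.IsPBlock M F') (hF'e : ∀ t : T, Cfsg.blockCoeff F' t = Cfsg.subgroupBlockCoeff (Subgroup.centralizer (Q : Set G)) e (t : G)) (χ : Cfsg.IrrCharacter T) (hχ : χ ∈ F') (hχQ : ∀ q : G, q ∈ Q → ∀ t : T, ∀ t' : T, (t' : G) = q * (t : G) → (χ : T → ℂ) t' = (χ : T → ℂ) t) (hdeg : (Cfsg.charDegree (χ : T → ℂ)).factorization p + (Nat.card Q).factorization p = (Nat.card T).factorization p) : Cfsg.IsDefectGroup p M e ((Q ⊓ Subgroup.centralizer (Q : Set G)).subgroupOf (Subgroup.centralizer (Q : Set G))) ∧ ∀ R : Subgroup G, R ≤ T → IsPGroup p R → (∀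 t ∈ T, t ∈ Subgroup.normalizer (R : Set G)) → R ≤ Q := by
  classical
  have : M.IsPrime := hM.2.1.isPrime
  have : M.IsMaximal := hM.2.1
  have := charP_kM hM
  have heb := hQe.1.2
  have hQp : IsPGroup p Q := hQe.1.1
  have hbp : BP p ⊤ Q (J M Q e) := (g_bp heb).2 hQp
  have hTS : T = TS ⊤ Q (J M Q e) := by
    ext x; rw [hT, g_stab heb]
  have hQT : Q ≤ T := by rw [hTS]; exact le_TS hbp
  have hCT : Subgroup.centralizer (Q : Set G) ≤ T := by
    rw [hTS, ← CH_top]; exact CH_le_TS hbp
  have hTN : T ≤ Subgroup.normalizer (Q : Set G) := fun x hx => ((hT x).1 hx).1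
  letI : Fintype (Subgroup.centralizer (Q : Set G)) := Fintype.ofFinite _
  letI : Fintype T := Fintype.ofFinite _
  set Q' : Subgroup T := Q.subgroupOf T with hQ'
  haveI hQn : Q'.Normal := by
    refine ⟨fun n hn t => ?_⟩
    rw [hQ', Subgroup.mem_subgroupOf] at hn ⊢
    exact (Subgroup.mem_normalizer_iff.1 (hTN t.2) n).1 hn
  have hker : ∀ n ∈ Q', (χ : T → ℂ) n = (χ : T → ℂ) 1 := by
    intro n hn
    rw [hQ', Subgroup.mem_subgroupOf] at hn
    exact hχQ n hn 1 n (by simp)
  obtain ⟨ξ, hξ⟩ := exists_defl Q' χ hker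
  letI : Fintype (T ⧸ Q') := Fintype.ofFinite _
  have hcardQ : Nat.card Q' = Nat.card Q := by
    have h1 : Q'.map T.subtype = Q := Subgroup.map_subgroupOf_eq_of_le hQT
    conv_rhs => rw [← h1]
    exact Nat.card_congr (Q'.equivMapOfInjective _ (Subgroup.subtype_injective _)).toEquiv
  have hcardT : Nat.card T = Nat.card (T ⧸ Q') * Nat.card Q := by
    rw [← hcardQ]; exact Subgroup.card_eq_card_quotient_mul_card_subgroup Q'
  have hdz : (charDegree (ξ : T ⧸ Q' → ℂ)).factorization p =
      (Nat.card (T ⧸ Q')).factorization p := by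
    have h1 : charDegree (ξ : T ⧸ Q' → ℂ) = charDegree (χ : T → ℂ) := by rw [← hξ]; rfl
    rw [h1]
    rw [hcardT, Nat.factorization_mul Nat.card_pos.ne' Nat.card_pos.ne', Finsupp.add_apply] at hdeg
    omega
  refine ⟨?_, ?_⟩
  · -- the centralizer
    let inc : (Subgroup.centralizer (Q : Set G)) →* T := Subgroup.inclusion hCT
    let f₀ : (Subgroup.centralizer (Q : Set G)) →* T ⧸ Q' := (QuotientGroup.mk' Q').comp inc
    haveI hNn : f₀.range.Normal := by
      refine ⟨?_⟩
      rintro _ ⟨c, rfl⟩ t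
      obtain ⟨t, rfl⟩ := QuotientGroup.mk_surjective t
      have hcn : (t : G) * (c : G) * (t : G)⁻¹ ∈ (Subgroup.centralizer (Q : Set G)) := by
        rw [Subgroup.mem_centralizer_iff]
        intro q hq
        have h2 : (t : G)⁻¹ * q * (t : G) ∈ Q := by
          have h3 := (Subgroup.mem_normalizer_iff.1 (hTN (T.inv_mem t.2)) q).1 hq
          simpa using h3
        have h3 := Subgroup.mem_centralizer_iff.1 c.2 _ h2
        calc q * ((t : G) * c * (t : G)⁻¹) = (t : G) * (((t : G)⁻¹ * q * (t : G)) * c) * (t : G)⁻¹ := by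
              group
          _ = (t : G) * (c * ((t : G)⁻¹ * q * (t : G))) * (t : G)⁻¹ := by rw [h3]
          _ = _ := by group
      refine ⟨⟨_, hcn⟩, ?_⟩
      rfl
    letI : Fintype f₀.range := Fintype.ofFinite _
    let f : (Subgroup.centralizer (Q : Set G)) →* f₀.range := f₀.rangeRestrict
    have hf : Function.Surjective f := f₀.rangeRestrict_surjective
    -- a constituent
    have hres : IsCharacter f₀.range (fun n : f₀.range => (ξ : T ⧸ Q' → ℂ) n) :=
      CfsgLib.CharBasic.isCharacter_restrict (CfsgLib.CharBasic.irr_isCharacter ξ.2) f₀.range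
    have hne : (fun n : f₀.range => (ξ : T ⧸ Q' → ℂ) n) ≠ 0 := by
      intro h0
      exact CfsgLib.CharBasic.irr_one_ne_zero ξ.2 (congrFun h0 1)
    obtain ⟨φ', hφ'⟩ := CfsgLib.Con19.exists_constituent hres hne
    have hφdz := defect_zero_under hM hdz hφ'
    let φ : IrrCharacter (Subgroup.centralizer (Q : Set G)) := ⟨(φ' : f₀.range → ℂ) ∘ f,
      CfsgLib.CharBasic.isIrrCharacter_comp_surj φ'.2 f hf⟩
    have hφv : ∀ c : (Subgroup.centralizer (Q : Set G)), (φ : (Subgroup.centralizer (Q : Set G)) → ℂ) c = (φ' : f₀.range → ℂ) (f c) := fun c => rfl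
    have hχξ : ∀ c : (Subgroup.centralizer (Q : Set G)), (χ : T → ℂ) ⟨c, hCT c.2⟩ = (ξ : T ⧸ Q' → ℂ) (f c) := by
      intro c
      rw [← hξ, infl_apply]
      rfl
    have hinner : classInner (fun c : (Subgroup.centralizer (Q : Set G)) => (χ : T → ℂ) ⟨c, hCT c.2⟩) (φ : (Subgroup.centralizer (Q : Set G)) → ℂ) ≠ 0 := by
      have h1 := inner_comp_surj' f hf (fun n : f₀.range => (ξ : T ⧸ Q' → ℂ) n) (φ' : f₀.range → ℂ)
      have h2 : (fun c : (Subgroup.centralizer (Q : Set G)) => (χ : T → ℂ) ⟨c, hCT c.2⟩) =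
          fun c : (Subgroup.centralizer (Q : Set G)) => (fun n : f₀.range => (ξ : T ⧸ Q' → ℂ) n) (f c) := funext hχξ
      rw [h2]
      show classInner _ (fun c : (Subgroup.centralizer (Q : Set G)) => (φ' : f₀.range → ℂ) (f c)) ≠ 0
      rw [h1]
      exact hφ'
    have hφe : φ ∈ e := mem_of_idem hCT hF'e hχ hinner
    -- the subgroup
    set Z : Subgroup (Subgroup.centralizer (Q : Set G)) := (Q ⊓ (Subgroup.centralizer (Q : Set G))).subgroupOf (Subgroup.centralizer (Q : Set G)) with hZ
    have hZmem : ∀ z : (Subgroup.centralizer (Q : Set G)), z ∈ Z ↔ (z : G) ∈ Q := by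
      intro z
      rw [hZ, Subgroup.mem_subgroupOf]
      exact ⟨fun h => h.1, fun h => ⟨h, z.2⟩⟩
    have hZc : Z ≤ Subgroup.center (Subgroup.centralizer (Q : Set G)) := by
      intro z hz
      rw [hZmem] at hz
      rw [Subgroup.mem_center_iff]
      intro g
      apply Subtype.ext
      exact (Subgroup.mem_centralizer_iff.1 g.2 z hz).symm
    have hZker : f.ker = Z := by
      ext c
      rw [MonoidHom.mem_ker, hZmem]
      have h1 : f c = 1 ↔ f₀ c = 1 := by
        rw [← Subtype.coe_inj]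
        rfl
      rw [h1]
      show ((inc c : T) : T ⧸ Q') = 1 ↔ _
      rw [QuotientGroup.eq_one_iff, hQ', Subgroup.mem_subgroupOf]
      rfl
    have hZp : IsPGroup p Z := by
      refine (hQp.to_le (inf_le_left : Q ⊓ (Subgroup.centralizer (Q : Set G)) ≤ Q)).comap_of_injective (Subgroup.centralizer (Q : Set G)).subtype
        (Subgroup.subtype_injective _)
    refine def_of_central hM hZc hZp heb hφe ?_ ?_
    · intro z hz
      rw [hφv, hφv]
      rw [← hZker, MonoidHom.mem_ker] at hz
      rw [hz, map_one]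
    · have h1 := card_ker_mul f hf
      rw [hZker] at h1
      have h2 : charDegree (φ : (Subgroup.centralizer (Q : Set G)) → ℂ) = charDegree (φ' : f₀.range → ℂ) := by
        have h3 : (φ : (Subgroup.centralizer (Q : Set G)) → ℂ) 1 = (φ' : f₀.range → ℂ) 1 := by rw [hφv, map_one]
        rw [CfsgLib.CharInt.irr_one_eq_charDegree φ.2,
          CfsgLib.CharInt.irr_one_eq_charDegree φ'.2] at h3
        exact_mod_cast h3
      rw [h1, h2, hφdz, Nat.factorization_mul Nat.card_pos.ne' Nat.card_pos.ne', Finsupp.add_apply,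
        add_comm]
  · intro R hRT hRp hRn
    set R' : Subgroup T := R.subgroupOf T with hR'
    haveI : R'.Normal := by
      refine ⟨fun n hn t => ?_⟩
      rw [hR', Subgroup.mem_subgroupOf] at hn ⊢
      exact (Subgroup.mem_normalizer_iff.1 (hRn t t.2) n).1 hn
    haveI : (R'.map (QuotientGroup.mk' Q')).Normal :=
      Subgroup.Normal.map inferInstance _ (QuotientGroup.mk'_surjective Q')
    have hRp' : IsPGroup p (R'.map (QuotientGroup.mk' Q')) := by
      apply IsPGroup.map
      exact hRp.comap_of_injective T.subtype (Subgroup.subtype_injective _)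
    have h1 := defect_zero_core hM hdz hRp'
    intro r hr
    have h2 : ((⟨r, hRT hr⟩ : T) : T ⧸ Q') ∈ R'.map (QuotientGroup.mk' Q') :=
      ⟨⟨r, hRT hr⟩, hr, rfl⟩
    rw [h1, Subgroup.mem_bot, QuotientGroup.eq_one_iff, hQ', Subgroup.mem_subgroupOf] at h2
    exact h2

end Cfsg.Agent.S4694
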