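import Cfsg.Statements.S4708
import Cfsg.Agent.LibBlockCov4
import Cfsg.Agent.LibPBker19

set_option autoImplicit false
open Cfsg

namespace Cfsg.Agent.S4708

open CfsgLib.CharBasic CfsgLib.BlockR CfsgLib.BlockIdem CfsgLib.Infl19 CfsgLib.PBker19 CfsgLib.BlockCov CfsgLib.BlockCov2 CfsgLib.CharIndA

/-- Let p be a prime, M a maximal ideal of the algebraic integers containing p, G a finite group and H a normal subgroup. Write λ(X) for the sum of the squares of the degrees of the irreducible characters in the principal p-block of a group X. Then λ(H) ≤ λ(G) ≤ [G : H]·λ(H). -/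
theorem result {G : Type*} [Group G] [Finite G] (p : ℕ) [Fact p.Prime] (M : Ideal Cfsg.AlgInt) (hM : Cfsg.IsPModular p M) (H : Subgroup G) [H.Normal] : (∑ᶠ θ ∈ Cfsg.principalBlock M H, Cfsg.charDegree (θ : H → ℂ) ^ 2) ≤ (∑ᶠ χ ∈ Cfsg.principalBlock M G, Cfsg.charDegree (χ : G → ℂ) ^ 2) ∧ (∑ᶠ χ ∈ Cfsg.principalBlock M G, Cfsg.charDegree (χ : G → ℂ) ^ 2) ≤ H.index * ∑ᶠ θ ∈ Cfsg.principalBlock M H, Cfsg.charDegree (θ : H → ℂ) ^ 2 := by
  classical
  letI := Fintype.ofFinite G
  letI : Fintype H := Fintype.ofFinite H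
  have hp := isPrime_of_modular hM
  -- multiplicities
  have hm : ∀ (χ : IrrCharacter G) (θ : IrrCharacter H), ∃ n : ℕ,
      classInner (fun n : H => (χ : G → ℂ) n) (θ : H → ℂ) = n := fun χ θ =>
    char_mult (isCharacter_restrict (irr_isCharacter χ.2) H) (irr_isCharacter θ.2)
  choose m hm using hm
  have hd : ∀ χ : IrrCharacter G, (χ : G → ℂ) 1 = (charDegree (χ : G → ℂ) : ℂ) := fun χ =>
    CfsgLib.CharInt.irr_one_eq_charDegree χ.2
  have hd' : ∀ θ : IrrCharacter H, (θ : H → ℂ) 1 = (charDegree (θ : H → ℂ) : ℂ) := fun θ =>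
    CfsgLib.CharInt.irr_one_eq_charDegree θ.2
  have hA : ∀ χ : IrrCharacter G, charDegree (χ : G → ℂ) = ∑ θ : IrrCharacter H, m χ θ * charDegree (θ : H → ℂ) := by
    intro χ
    have h1 := classFun_expand_apply (classFun_restrict (irr_classFun χ.2) H) 1
    have h2 : ((charDegree (χ : G → ℂ) : ℕ) : ℂ) = ((∑ θ : IrrCharacter H, m χ θ * charDegree (θ : H → ℂ) : ℕ) : ℂ) := by
      push_cast
      rw [← hd χ]
      refine h1.trans ?_
      refine Finset.sum_congr rfl fun θ _ => ?_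
      rw [hm, hd']
    exact_mod_cast h2
  have hB : ∀ θ : IrrCharacter H, H.index * charDegree (θ : H → ℂ) = ∑ χ : IrrCharacter G, m χ θ * charDegree (χ : G → ℂ) := by
    intro θ
    have h1 := classFun_expand_apply (ind_classFun H (θ : H → ℂ)) 1
    have h2 : ((H.index * charDegree (θ : H → ℂ) : ℕ) : ℂ) = ((∑ χ : IrrCharacter G, m χ θ * charDegree (χ : G → ℂ) : ℕ) : ℂ) := by
      push_cast
      rw [← hd' θ, ← ind_one, h1]
      refine Finset.sum_congr rfl fun χ _ => ?_
      rw [frobenius H (θ : H → ℂ) (irr_classFun χ.2), hd χ]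
      congr 1
      rw [← CfsgLib.CharBasic.inner_conj_symm]
      rw [hm]
      simp
    exact_mod_cast h2
  -- principal blocks
  have hinv : ∀ (g : G) (θ : IrrCharacter H), cjI H g θ ∈ principalBlock M H → θ ∈ principalBlock M H := by
    intro g θ h
    have h1 := sameBlock_cjI H g⁻¹ (θ := (⟨fun _ => 1, one_irr⟩ : IrrCharacter H)) (θ' := cjI H g θ) h
    rw [cjI_cjI, mul_inv_cancel, cjI_one] at h1
    exact h1
  have hone : classInner (fun n : H => ((⟨fun _ => 1, one_irr⟩ : IrrCharacter G) : G → ℂ) (n : G)) ((⟨fun _ => 1, one_irr⟩ : IrrCharacter H) : H → ℂ) ≠ 0 := by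
    have := irr_inner_self (G := H) (χ := fun _ => (1 : ℂ)) one_irr
    intro h
    rw [show classInner (fun n : H => ((⟨fun _ => 1, one_irr⟩ : IrrCharacter G) : G → ℂ) (n : G)) ((⟨fun _ => 1, one_irr⟩ : IrrCharacter H) : H → ℂ) = classInner (fun _ : H => (1 : ℂ)) (fun _ : H => (1 : ℂ)) from rfl, this] at h
    exact one_ne_zero h
  have hsub : ∀ χ ∈ principalBlock M G, ∀ θ : IrrCharacter H, m χ θ ≠ 0 → θ ∈ principalBlock M H := by
    intro χ hχ θ hθ
    obtain ⟨g, hg⟩ := cover_conj H hM (principal_isBlock (G := G) M) (principal_isBlock (G := H) M)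
      (one_mem_principal hM) (one_mem_principal hM) hone hχ (ψ := θ) (by rw [hm]; exact_mod_cast hθ)
    exact hinv g θ hg
  have hcov : Cov H (principalBlock M G) (principalBlock M H) :=
    ⟨_, one_mem_principal hM, _, one_mem_principal hM, hone⟩
  have hex : ∀ θ ∈ principalBlock M H, ∃ χ ∈ principalBlock M G, m χ θ ≠ 0 := by
    intro θ hθ
    obtain ⟨χ, h1, h2⟩ := CfsgLib.BlockCov4.under_of_cov H hM (principal_isBlock (G := G) M) (principal_isBlock (G := H) M) hcov hθ
    refine ⟨χ, h1, fun h => h2 ?_⟩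
    rw [hm, h]; simp
  rw [finsum_mem_eq_finite_toFinset_sum _ (Set.toFinite (principalBlock M G)),
    finsum_mem_eq_finite_toFinset_sum _ (Set.toFinite (principalBlock M H))]
  set BG := (Set.toFinite (principalBlock M G)).toFinset with hBG
  set BH := (Set.toFinite (principalBlock M H)).toFinset with hBH
  have hBG' : ∀ χ, χ ∈ BG ↔ χ ∈ principalBlock M G := fun χ => by rw [hBG, Set.Finite.mem_toFinset]
  have hBH' : ∀ θ, θ ∈ BH ↔ θ ∈ principalBlock M H := fun θ => by rw [hBH, Set.Finite.mem_toFinset]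
  have hkey : ∑ χ ∈ BG, charDegree (χ : G → ℂ) ^ 2 =
      ∑ θ ∈ BH, charDegree (θ : H → ℂ) * ∑ χ ∈ BG, m χ θ * charDegree (χ : G → ℂ) := by
    have h1 : ∀ χ ∈ BG, charDegree (χ : G → ℂ) ^ 2 = ∑ θ ∈ BH, charDegree (θ : H → ℂ) * (m χ θ * charDegree (χ : G → ℂ)) := by
      intro χ hχ
      have h2 : charDegree (χ : G → ℂ) = ∑ θ ∈ BH, m χ θ * charDegree (θ : H → ℂ) := by
        rw [hA χ]
        symm
        apply Finset.sum_subset (Finset.subset_univ _)
        intro θ _ hθ
        by_contra hne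
        exact hθ ((hBH' θ).2 (hsub χ ((hBG' χ).1 hχ) θ (fun h => hne (by rw [h, zero_mul]))))
      calc charDegree (χ : G → ℂ) ^ 2 = (∑ θ ∈ BH, m χ θ * charDegree (θ : H → ℂ)) * charDegree (χ : G → ℂ) := by
            rw [← h2, sq]
        _ = _ := by
            rw [Finset.sum_mul]
            refine Finset.sum_congr rfl fun θ _ => by ring
    rw [Finset.sum_congr rfl h1, Finset.sum_comm]
    refine Finset.sum_congr rfl fun θ _ => ?_
    rw [Finset.mul_sum]
  rw [hkey]
  constructor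
  · apply Finset.sum_le_sum
    intro θ hθ
    rw [sq]
    apply Nat.mul_le_mul_left
    obtain ⟨χ, h1, h2⟩ := hex θ ((hBH' θ).1 hθ)
    have h3 : m χ θ * charDegree (χ : G → ℂ) ≤ ∑ χ ∈ BG, m χ θ * charDegree (χ : G → ℂ) :=
      Finset.single_le_sum (f := fun χ => m χ θ * charDegree (χ : G → ℂ)) (fun _ _ => Nat.zero_le _) ((hBG' χ).2 h1)
    refine le_trans ?_ h3
    have h4 : m χ θ * charDegree (θ : H → ℂ) ≤ charDegree (χ : G → ℂ) := by
      rw [hA χ]
      exact Finset.single_le_sum (f := fun θ => m χ θ * charDegree (θ : H → ℂ)) (fun _ _ => Nat.zero_le _) (Finset.mem_univ θ)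
    have h5 : 1 ≤ m χ θ := Nat.one_le_iff_ne_zero.2 h2
    calc charDegree (θ : H → ℂ) ≤ m χ θ * charDegree (θ : H → ℂ) := Nat.le_mul_of_pos_left _ h5
      _ ≤ charDegree (χ : G → ℂ) := h4
      _ ≤ _ := Nat.le_mul_of_pos_left _ h5
  · rw [Finset.mul_sum]
    apply Finset.sum_le_sum
    intro θ hθ
    have h1 : ∑ χ ∈ BG, m χ θ * charDegree (χ : G → ℂ) ≤ H.index * charDegree (θ : H → ℂ) := by
      rw [hB θ]
      exact Finset.sum_le_sum_of_subset (Finset.subset_univ _)
    calc charDegree (θ : H → ℂ) * ∑ χ ∈ BG, m χ θ * charDegree (χ : G → ℂ)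
        ≤ charDegree (θ : H → ℂ) * (H.index * charDegree (θ : H → ℂ)) := Nat.mul_le_mul_left _ h1
      _ = _ := by ring

end Cfsg.Agent.S4708
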