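import Cfsg.Statements.S4709
import Cfsg.Agent.LibFrobP19

set_option autoImplicit false
open Cfsg

namespace Cfsg.Agent.S4709

open CfsgLib.FrobP19
open scoped ComplexConjugate


/-- Let p be a prime, M a maximal ideal of the algebraic integers containing p, and G a finite group with a nontrivial abelian Sylow p-subgroup P; put N = N_G(P), C = C_G(P). Suppose N/C is cyclic of order m with 1 < m < #P − 1 (C has index m in N and N is generated by C and one element), and C_G(y) ∩ N = C for every non-identity y ∈ P. Put r = (#P − 1)/m. Then there is s ≤ m such that the principal p-block is the disjoint union of a set X of s characters containing the principal character and a set Y of r characters, with integers a_χ ≠ 0 (χ ∈ X), d and a sign δ = ±1, such that: every χ ∈ X takes the value a_χ at every element whose p-part is a non-identity element of P; there is a map ζ from the non-principal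 linear characters ψ of P onto Y, constant on N-conjugacy classes, with ζ_ψ(z) = d + δ·Σ ψ'(y) for every z whose p-part y is a non-identity element of P, the sum running over the N-conjugates ψ' of ψ; (d − δ)^2 + (r − 1) d^2 + Σ_{χ ∈ X} a_χ^2 = m + 1; all members of Y agree on p-regular elements; and (r d − δ) η(g) + Σ_{χ ∈ X} a_χ χ(g) = 0 for every η ∈ Y and every p-regular g. -/
theorem result {G : Type*} [Group G] [Finite G] (p : ℕ) [Fact p.Prime] (M : Ideal Cfsg.AlgInt) (hM : Cfsg.IsPModular p M) (P : Sylow p G) (hab : IsMulCommutative P) (hP1 : Nat.card P ≠ 1) (m : ℕ) (hm1 : 1 < m) (hm2 : m + 1 < Nat.card P) (hCN : (Subgroup.centralizer ((P : Subgroup G) : Set G)).relIndex (Subgroup.normalizer ((P : Subgroup G) : Set G)) = m) (hcyc : ∃ g : G, g ∈ Subgroup.normalizer ((P : Subgroup G) : Set G) ∧ Subgroup.centralizer ((P : Subgroup G) : Set G) ⊔ Subgroup.zpowers g = Subgroup.normalizer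 ((P : Subgroup G) : Set G)) (hfrob : ∀ y : G, y ∈ (P : Subgroup G) → y ≠ 1 → Subgroup.centralizer ({y} : Set G) ⊓ Subgroup.normalizer ((P : Subgroup G) : Set G) = Subgroup.centralizer ((P : Subgroup G) : Set G)) : ∃ (s : ℕ) (X Y : Set (Cfsg.IrrCharacter G)), s ≤ m ∧ Cfsg.principalBlock M G = X ∪ Y ∧ Disjoint X Y ∧ Nat.card X = s ∧ Nat.card Y = (Nat.card P - 1) / m ∧ (∃ χ₁ ∈ X, (χ₁ : G → ℂ) = fun _ => 1) ∧ ∃ (a : Cfsg.IrrCharacter G → ℤ) (d δ : ℤ) (ζ : (↥(P : Subgroup G) →* ℂˣ) → Cfsg.IrrCharacter G), (δ = 1 ∨ δ = -1) ∧ (∀ χ ∈ X, a χ ≠ 0 ∧ ∀ z y : G, Cfsg.IsPPart p z y → y ∈ (P : Subgroup G) → y ≠ 1 → (χ : G → ℂ) z = (a χ : ℂ)) ∧ (∀ ψ : ↥(P : Subgroup G) →* ℂˣ, ψ ≠ 1 → ζ ψ ∈ Y) ∧ (∀ η ∈ Y, ∃ ψ : ↥(P : Subgroup G) →* ℂˣ, ψ ≠ 1 ∧ ζ ψ = η) ∧ (∀ ψ ψ' : ↥(P : Subgroup G) →* ℂˣ, ψ ≠ 1 → (∃ n : G, n ∈ Subgroup.normalizer ((P : Subgroup G) : Set G) ∧ ∀ w w' : ↥(P : Subgroup G), (w' : G) = n * w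 * n⁻¹ → ψ' w' = ψ w) → ζ ψ' = ζ ψ) ∧ (∀ ψ : ↥(P : Subgroup G) →* ℂˣ, ψ ≠ 1 → ∀ (z : G) (y : ↥(P : Subgroup G)), Cfsg.IsPPart p z (y : G) → (y : G) ≠ 1 → (ζ ψ : G → ℂ) z = (d : ℂ) + (δ : ℂ) * ∑ᶠ ψ' ∈ {ψ' : ↥(P : Subgroup G) →* ℂˣ | ∃ n : G, n ∈ Subgroup.normalizer ((P : Subgroup G) : Set G) ∧ ∀ w w' : ↥(P : Subgroup G), (w' : G) = n * w * n⁻¹ → ψ' w' = ψ w}, ((ψ' y : ℂˣ) : ℂ)) ∧ ((d - δ) ^ 2 + ((Nat.card P - 1) / m - 1 : ℤ) * d ^ 2 + ∑ᶠ χ ∈ X, a χ ^ 2 = (m : ℤ) + 1) ∧ (∀ η ∈ Y, ∀ η' ∈ Y, ∀ g : G, ¬ p ∣ orderOf g → (η : G → ℂ) g = (η' : G → ℂ) g) ∧ (∀ η ∈ Y, ∀ g : G, ¬ p ∣ orderOf g → ((((Nat.card P - 1) / m : ℕ) : ℂ) * d - δ) * (η : G → ℂ) g + ∑ᶠ χ ∈ X, (a χ : ℂ) * (χ : G → ℂ) g = 0) := by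
  classical
  have hF : FrobHyp (P : Subgroup G) := ⟨fun a b => hab.is_comm.comm a b, hfrob⟩
  obtain ⟨ζ, c, δ, d, hR⟩ := core hM P hF (by omega : 0 < m) hCN hm2
  have hψ := exists_ne_one hF.1 hP1
  have hcardY : Nat.card (setY ζ) * m = Nat.card P - 1 := card_setY hR hF hCN
  have hrm : Nat.card (setY ζ) = (Nat.card P - 1) / m := by
    rw [← hcardY, Nat.mul_div_cancel _ (by omega)]
  have hnorm := hR.norm hM hF hCN hψ
  have hP0 : 1 ≤ Nat.card P := Nat.card_pos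
  have hrmZ : (((Nat.card P : ℤ) - 1) / (m : ℤ)) = (Nat.card (setY ζ) : ℤ) := by
    rw [hrm]; push_cast [hP0]; rfl
  have hr2 : 2 ≤ Nat.card (setY ζ) := by
    by_contra hcon
    push Not at hcon
    have h1 : Nat.card (setY ζ) * m ≤ 1 * m := Nat.mul_le_mul_right m (by omega)
    rw [hcardY, one_mul] at h1
    omega
  have hne := fun χ (hχ : χ ∈ setX M ζ) => hR.c_ne_zero hM hF hP1 hχ
  have hsX : (Nat.card (setX M ζ) : ℤ) ≤ ∑ᶠ χ ∈ setX M ζ, c χ ^ 2 := by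
    rw [finsum_mem_eq_finite_toFinset_sum _ (Set.toFinite _), Nat.card_coe_set_eq,
      Set.ncard_eq_toFinset_card _ (Set.toFinite _)]
    rw [Finset.cast_card]
    refine Finset.sum_le_sum fun χ hχ => ?_
    rw [Set.Finite.mem_toFinset] at hχ
    have h1 := hne χ hχ
    have h2 : 0 < c χ ^ 2 := by positivity
    omega
  refine ⟨Nat.card (setX M ζ), setX M ζ, setY ζ, ?_, hR.union, disj, rfl, hrm,
    ⟨⟨fun _ => 1, CfsgLib.Infl19.one_irr⟩, hR.one_mem hM hF hCN hm2, rfl⟩, c, d, δ, ζ, hR.hδ, ?_, ?_, ?_, ?_, ?_, ?_, ?_, ?_⟩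
  · have h3 : (1 : ℤ) ≤ (d - δ) ^ 2 + ((Nat.card (setY ζ) : ℤ) - 1) * d ^ 2 := by
      have h4 : (1 : ℤ) ≤ (Nat.card (setY ζ) : ℤ) - 1 := by
        have : (2 : ℤ) ≤ (Nat.card (setY ζ) : ℤ) := by exact_mod_cast hr2
        linarith
      by_cases hd : d = 0
      · rcases hR.hδ with h | h <;> rw [hd, h] <;> norm_num
      · have h5 : 0 < d ^ 2 := by positivity
        nlinarith [sq_nonneg (d - δ)]
    have : (Nat.card (setX M ζ) : ℤ) ≤ m := by linarith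
    exact_mod_cast this
  · intro χ hχ
    refine ⟨hne χ hχ, fun z y hz hy hy1 => ?_⟩
    rw [const_section hM P hab hy (hfrob y hy hy1).le hz hχ.1]
    exact hR.value_X hF.1 hχ (y := ⟨y, hy⟩) (fun h => hy1 (congrArg Subtype.val h))
  · intro ψ h
    exact ⟨ψ, h, rfl⟩
  · intro η hη
    exact hη
  · intro ψ ψ' h hrel
    exact ((hR.hζ ψ ψ' h (rel_ne_one _ hrel h)).2 hrel).symm
  · intro ψ h z y hz hy1
    rw [const_section hM P hab y.2 (hfrob y y.2 hy1).le hz (hR.hB ψ h)]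
    exact hR.value_Y hF.1 h (y := y) (fun h => hy1 (congrArg Subtype.val h))
  · rw [hrmZ]
    exact hnorm
  · intro η hη η' hη' g hg
    exact hR.reg_eq hM P.isPGroup' hη hη' hg
  · intro η hη g hg
    rw [← hrm]
    exact hR.relation hM P.isPGroup' hη hg

end Cfsg.Agent.S4709
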