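import Cfsg.Statements.S4710
import Cfsg.Agent.LibBlockM

set_option autoImplicit false
open Cfsg

namespace Cfsg.Agent.S4710

open CfsgLib.CharBasic CfsgLib.BlockR CfsgLib.BlockIdem CfsgLib.BlockM CfsgLib.BlockDefect

theorem count_aux {ι : Type*} [Fintype ι] [DecidableEq ι] (S : Finset ι) (x : ι) (hx : x ∉ S) (m : ι → ℤ) (P p : ℤ) (hp : 0 ≤ p)
    (hsum : ∑ y : ι, m y ^ 2 = P * m x) (hS : ∀ y ∈ S, m y ≠ 0 ∧ p ∣ m y) : 4 * (S.card : ℤ) * p ^ 2 ≤ P ^ 2 := by
  have h1 : ∑ y ∈ S, m y ^ 2 + m x ^ 2 ≤ ∑ y : ι, m y ^ 2 := by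
    have h2 : ∑ y ∈ insert x S, m y ^ 2 ≤ ∑ y : ι, m y ^ 2 :=
      Finset.sum_le_sum_of_subset_of_nonneg (Finset.subset_univ _) (fun _ _ _ => sq_nonneg _)
    rw [Finset.sum_insert hx] at h2
    linarith
  have h3 : (S.card : ℤ) * p ^ 2 ≤ ∑ y ∈ S, m y ^ 2 := by
    have h4 : ∑ y ∈ S, p ^ 2 = (S.card : ℤ) * p ^ 2 := by rw [Finset.sum_const, nsmul_eq_mul]
    rw [← h4]
    apply Finset.sum_le_sum
    intro y hy
    obtain ⟨h5, c, hc⟩ := hS y hy
    have hc0 : c ≠ 0 := by rintro rfl; rw [mul_zero] at hc; exact h5 hc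
    have h6 : 1 ≤ c ^ 2 := by
      have : 0 < c ^ 2 := by positivity
      omega
    rw [hc, mul_pow]
    nlinarith [sq_nonneg p]
  rw [hsum] at h1
  nlinarith [sq_nonneg (P - 2 * m x)]

/-- Let p be a prime, M a maximal ideal of the algebraic integers containing p, and B a p-block of defect d of the finite group G containing k irreducible characters. If B contains a character of positive height then 2k ≤ p^(2d − 2); and every character in B has height 0 when d ≤ 1 and height at most d − 2 when d ≥ 2. -/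
theorem result {G : Type*} [Group G] [Finite G] (p : ℕ) [Fact p.Prime] (M : Ideal Cfsg.AlgInt) (hM : Cfsg.IsPModular p M) (B : Set (Cfsg.IrrCharacter G)) (hB : Cfsg.IsPBlock M B) (d : ℕ) (hd : Cfsg.blockDefect p B = d) : ((∃ χ ∈ B, 0 < Cfsg.blockHeight p B (χ : G → ℂ)) → 2 * Nat.card B ≤ p ^ (2 * d - 2)) ∧ ∀ χ ∈ B, (d ≤ 1 → Cfsg.blockHeight p B (χ : G → ℂ) = 0) ∧ (2 ≤ d → Cfsg.blockHeight p B (χ : G → ℂ) ≤ d - 2) := by
  classical
  letI := Fintype.ofFinite G
  have hpp : p.Prime := Fact.out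
  subst hd
  have hpos := hpp.pos
  refine ⟨?_, ?_⟩
  · rintro ⟨χ, hχ, hh⟩
    have hh2 := height_le hM hB hχ hh.ne'
    set a := (Nat.card G).factorization p with ha
    set d := blockDefect p B with hd
    have hda : d ≤ a := defect_le p B
    -- divisibility of the `cc`
    have key : ∀ φ ∈ B, blockHeight p B (φ : G → ℂ) = 0 → ∀ ψ ∈ B, 0 < blockHeight p B (ψ : G → ℂ) →
        cc p φ ψ ≠ 0 ∧ ((p ^ (a - d) * p : ℕ) : ℤ) ∣ cc p φ ψ := by
      intro φ hφ hφ0 ψ hψ hψ0
      have h1 := (cc_unit_iff hM hB hφ hψ).2 hφ0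
      refine ⟨fun h => h1 (by rw [h, Int.cast_zero, zero_div]; exact ideal_zero (isPrime_of_modular hM)), ?_⟩
      have h2 : p ^ (a - d + 1) ∣ charDegree (ψ : G → ℂ) := by
        rw [Nat.Prime.pow_dvd_iff_le_factorization hpp (CfsgLib.CharInt.irr_charDegree_pos ψ.2).ne']
        have := degree_eq hM hB hψ
        omega
      have h3 := cc_dvd hM φ ψ h2
      rwa [pow_succ] at h3
    have hp0 : ((p ^ (a - d) : ℕ) : ℤ) ≠ 0 := by exact_mod_cast (pow_pos hpos _).ne'
    have fin : ∀ (S : Finset (IrrCharacter G)) (x : IrrCharacter G) (hxS : x ∉ S) (m : IrrCharacter G → ℤ),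
        (∀ ψ, cc p x ψ = (p ^ (a - d) : ℕ) * m ψ) → (∑ ψ : IrrCharacter G, (m ψ) ^ 2 = (p ^ d : ℕ) * m x) →
        (∀ ψ ∈ S, cc p x ψ ≠ 0 ∧ ((p ^ (a - d) * p : ℕ) : ℤ) ∣ cc p x ψ) → 4 * S.card ≤ p ^ (2 * d - 2) := by
      intro S x hxS m hm hsum hS
      have h1 := count_aux S x hxS m ((p ^ d : ℕ) : ℤ) (p : ℤ) (by positivity) hsum (fun ψ hψ => by
        obtain ⟨h2, h3⟩ := hS ψ hψ
        rw [hm] at h2 h3
        refine ⟨fun h => h2 (by rw [h, mul_zero]), ?_⟩
        rw [Nat.cast_mul] at h3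
        exact Int.dvd_of_mul_dvd_mul_left hp0 h3)
      have h2 : 4 * S.card * p ^ 2 ≤ (p ^ d) ^ 2 := by exact_mod_cast h1
      have h3 : (p ^ d) ^ 2 = p ^ (2 * d - 2) * p ^ 2 := by
        rw [← pow_mul, ← pow_add]; congr 1; omega
      rw [h3] at h2
      exact Nat.le_of_mul_le_mul_right h2 (by positivity)
    set S0 := Finset.univ.filter (fun ψ : IrrCharacter G => ψ ∈ B ∧ blockHeight p B (ψ : G → ℂ) = 0) with hS0
    set S1 := Finset.univ.filter (fun ψ : IrrCharacter G => ψ ∈ B ∧ 0 < blockHeight p B (ψ : G → ℂ)) with hS1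
    have hcard : Nat.card B = S0.card + S1.card := by
      rw [block_ncard, ← Finset.card_union_of_disjoint]
      · congr 1
        ext ψ
        simp only [hS0, hS1, Finset.mem_filter, Finset.mem_univ, true_and, Finset.mem_union]
        constructor
        · intro h
          rcases Nat.eq_zero_or_pos (blockHeight p B (ψ : G → ℂ)) with h1 | h1
          · exact Or.inl ⟨h, h1⟩
          · exact Or.inr ⟨h, h1⟩
        · rintro (h | h) <;> exact h.1
      · rw [Finset.disjoint_left]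
        intro ψ h1 h2
        simp only [hS0, hS1, Finset.mem_filter, Finset.mem_univ, true_and] at h1 h2
        omega
    obtain ⟨φ, hφ, hφ0⟩ := exists_height_zero hM hB
    have hφ0' : blockHeight p B (φ : G → ℂ) = 0 := (height_zero_iff hM hB hφ).mpr hφ0
    obtain ⟨m, hm, hsum⟩ := exists_m hM hB hχ
    obtain ⟨m', hm', hsum'⟩ := exists_m hM hB hφ
    have e0 : 4 * S0.card ≤ p ^ (2 * d - 2) := by
      refine fin S0 χ ?_ m hm hsum ?_
      · simp only [hS0, Finset.mem_filter, Finset.mem_univ, true_and]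
        omega
      · intro ψ hψ
        simp only [hS0, Finset.mem_filter, Finset.mem_univ, true_and] at hψ
        rw [cc_symm]
        exact key ψ hψ.1 hψ.2 χ hχ hh
    have e1 : 4 * S1.card ≤ p ^ (2 * d - 2) := by
      refine fin S1 φ ?_ m' hm' hsum' ?_
      · simp only [hS1, Finset.mem_filter, Finset.mem_univ, true_and]
        omega
      · intro ψ hψ
        simp only [hS1, Finset.mem_filter, Finset.mem_univ, true_and] at hψ
        exact key φ hφ hφ0' ψ hψ.1 hψ.2
    rw [hcard]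
    omega
  · intro χ hχ
    refine ⟨fun h => ?_, fun h => ?_⟩
    · by_contra hne
      have := height_le hM hB hχ hne
      omega
    · by_cases hne : blockHeight p B (χ : G → ℂ) = 0
      · omega
      · have := height_le hM hB hχ hne
        omega

end Cfsg.Agent.S4710
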