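import Cfsg.Statements.S4711
import Cfsg.Agent.LibPBker19
import Cfsg.Agent.LibBGPlen
import Cfsg.Agent.LibGalChar2

set_option autoImplicit false
open Cfsg

namespace Cfsg.Agent.S4711

open CfsgLib.CharBasic CfsgLib.BlockR CfsgLib.BlockIdem CfsgLib.Infl19 CfsgLib.PBker19
open scoped ComplexConjugate

theorem sum_dichotomy {G : Type*} [Group G] [Fintype G] (P : Subgroup G) [Fintype P] (χ : IrrCharacter G)
    (h : IsIrrCharacter (Subgroup.normalizer (P : Set G)) (fun n => (χ : G → ℂ) n)) :
    (∑ z : P, (χ : G → ℂ) z = 0) ∨ ∀ z ∈ P, (χ : G → ℂ) z = (χ : G → ℂ) 1 := by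
  classical
  haveI : (P.subgroupOf (Subgroup.normalizer (P : Set G))).Normal := Subgroup.normal_in_normalizer
  letI : Fintype (P.subgroupOf (Subgroup.normalizer (P : Set G))) := Fintype.ofFinite _
  have h1 := CfsgLib.GalChar2.avg_irr (P.subgroupOf (Subgroup.normalizer (P : Set G))) h 1
  have hle : P ≤ Subgroup.normalizer (P : Set G) := Subgroup.le_normalizer
  by_cases hk : ∀ z ∈ P, (χ : G → ℂ) z = (χ : G → ℂ) 1
  · exact Or.inr hk
  · left
    rw [if_neg] at h1
    · rcases mul_eq_zero.1 h1 with h2 | h2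
      · exact absurd h2 (inv_ne_zero (by exact_mod_cast Nat.card_pos.ne'))
      · rw [← h2]
        symm
        refine Fintype.sum_equiv (Subgroup.subgroupOfEquivOfLe hle).toEquiv _ _ ?_
        intro n
        simp only [mul_one]
        rfl
    · intro hcon
      apply hk
      intro z hz
      exact hcon ⟨z, hle hz⟩ (by rw [Subgroup.mem_subgroupOf]; exact hz)

/-- Let p be a prime, M a maximal ideal of the algebraic integers containing p, G a finite group, P a Sylow p-subgroup and N = N_G(P). Then G has p-length 1 (G = O_{p',p,p'}(G)) if and only if every irreducible character in the principal p-block of G restricts to an irreducible character of N. -/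
theorem result {G : Type*} [Group G] [Finite G] (p : ℕ) [Fact p.Prime] (M : Ideal Cfsg.AlgInt) (hM : Cfsg.IsPModular p M) (P : Sylow p G) : Cfsg.PLengthLE p 1 G ↔ ∀ χ ∈ Cfsg.principalBlock M G, Cfsg.IsIrrCharacter ↥(Subgroup.normalizer ((P : Subgroup G) : Set G)) (fun n : ↥(Subgroup.normalizer ((P : Subgroup G) : Set G)) => (χ : G → ℂ) n) := by
  classical
  letI := Fintype.ofFinite G
  have hp : p.Prime := Fact.out
  have hhall := CfsgLib.BGPi.hall_of_sylow P
  rw [CfsgLib.BGPi.plen_one_iff hp hhall]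
  have hcore : ¬ p ∣ Nat.card (pPrimeCore p G) := core_not_dvd p G
  constructor
  · intro hle χ hχ
    have hn := (CfsgLib.BGPi.sup_core_normal_iff hp hhall).2 hle
    have h1 := Sylow.normalizer_sup_eq_top' P (N := pPrimeCore p G ⊔ (P : Subgroup G)) le_sup_right
    have h2 : Subgroup.normalizer ((P : Subgroup G) : Set G) ⊔ pPrimeCore p G = ⊤ := by
      rw [← h1]
      apply le_antisymm
      · exact sup_le le_sup_left (le_trans le_sup_left le_sup_right)
      · refine sup_le le_sup_left (sup_le le_sup_right ?_)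
        exact le_trans Subgroup.le_normalizer le_sup_left
    obtain ⟨ξ, hξ, rfl⟩ := exists_infl hM (pPrimeCore p G) hcore hχ
    have h3 : Function.Surjective ((QuotientGroup.mk' (pPrimeCore p G)).comp
        (Subgroup.normalizer ((P : Subgroup G) : Set G)).subtype) := by
      intro y
      obtain ⟨g, rfl⟩ := QuotientGroup.mk_surjective y
      have h4 : g ∈ Subgroup.normalizer ((P : Subgroup G) : Set G) ⊔ pPrimeCore p G := by rw [h2]; trivial
      obtain ⟨a, ha, b, hb, rfl⟩ := Subgroup.mem_sup_of_normal_right.1 h4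
      refine ⟨⟨a, ha⟩, ?_⟩
      change (a : G ⧸ pPrimeCore p G) = ((a * b : G) : G ⧸ pPrimeCore p G)
      rw [QuotientGroup.eq]
      simpa using hb
    exact isIrrCharacter_comp_surj ξ.2 _ h3
  · intro hirr
    set L : Subgroup G := Subgroup.normalClosure ((P : Subgroup G) : Set G) with hL
    have hPL : (P : Subgroup G) ≤ L := fun z hz => Subgroup.subset_normalClosure hz
    have hS : ∀ χ ∈ principalBlock M G, ∀ x ∈ L, (∑ z : (P : Subgroup G), (χ : G → ℂ) z) * conj ((χ : G → ℂ) x) =
        (∑ z : (P : Subgroup G), (χ : G → ℂ) z) * conj ((χ : G → ℂ) 1) := by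
      intro χ hχ x hx
      rcases sum_dichotomy (P : Subgroup G) χ (hirr χ hχ) with h | h
      · rw [h, zero_mul, zero_mul]
      · obtain ⟨K, hKn, hK⟩ := exists_kernel (irr_isCharacter χ.2)
        have h1 : L ≤ K := Subgroup.normalClosure_le_normal (fun z hz => (hK z).2 (h z hz))
        rw [(hK x).1 (h1 hx)]
    -- projection
    have hproj : ∀ x : G, ¬ p ∣ orderOf x → ∑ᶠ χ ∈ principalBlock M G, (χ : G → ℂ) 1 * conj ((χ : G → ℂ) x) =
        ∑ᶠ χ ∈ principalBlock M G, (∑ z : (P : Subgroup G), (χ : G → ℂ) z) * conj ((χ : G → ℂ) x) := by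
      intro x hx
      have h1 := CfsgLib.PB19.proj_section hM (principal_isBlock M) (fun z : G => if z ∈ (P : Subgroup G) ∧ z ≠ 1 then (1 : ℂ) else 0)
        (y := x) (y' := 1) (CfsgLib.BlockOrth.isPPart_one hx) (by
          intro z z' hz hc
          rw [if_neg]
          rintro ⟨h2, h3⟩
          apply h3
          have h4 : ∃ k : ℕ, orderOf z = p ^ k := by
            obtain ⟨k, hk⟩ := IsPGroup.iff_orderOf.1 P.isPGroup' ⟨z, h2⟩
            exact ⟨k, by rw [← hk, Subgroup.orderOf_mk]⟩
          rw [CfsgLib.BlockOrth.isPPart_unique (CfsgLib.BlockOrth.isPPart_self h4) hz]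
          exact isConj_one_left.1 hc)
      have h2 : ∀ χ : IrrCharacter G, ∑ z : G, (if z ∈ (P : Subgroup G) ∧ z ≠ 1 then (1 : ℂ) else 0) * (χ : G → ℂ) z =
          (∑ z : (P : Subgroup G), (χ : G → ℂ) z) - (χ : G → ℂ) 1 := by
        intro χ
        have h3 : ∑ z : G, (if z ∈ (P : Subgroup G) then (χ : G → ℂ) z else 0) = ∑ z : (P : Subgroup G), (χ : G → ℂ) z := by
          rw [CfsgLib.BlockInd.sum_subgroup (P : Subgroup G) (fun z => if z ∈ (P : Subgroup G) then (χ : G → ℂ) z else 0)
            (fun x hx => if_neg hx)]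
          exact Finset.sum_congr rfl fun z _ => if_pos z.2
        have h4 : ∀ z : G, (if z ∈ (P : Subgroup G) ∧ z ≠ 1 then (1 : ℂ) else 0) * (χ : G → ℂ) z =
            (if z ∈ (P : Subgroup G) then (χ : G → ℂ) z else 0) - (if z = 1 then (χ : G → ℂ) 1 else 0) := by
          intro z
          by_cases hz1 : z = 1
          · subst hz1
            simp [one_mem]
          · by_cases hzP : z ∈ (P : Subgroup G)
            · simp [hz1, hzP]
            · simp [hz1, hzP]
        rw [Finset.sum_congr rfl fun z _ => h4 z, Finset.sum_sub_distrib, h3, Finset.sum_ite_eq' Finset.univ (1 : G),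
          if_pos (Finset.mem_univ _)]
      simp only [h2, sub_mul] at h1
      rw [finsum_mem_eq_finite_toFinset_sum _ (Set.toFinite _), Finset.sum_sub_distrib, sub_eq_zero] at h1
      rw [finsum_mem_eq_finite_toFinset_sum _ (Set.toFinite _), finsum_mem_eq_finite_toFinset_sum _ (Set.toFinite _)]
      exact h1.symm
    have hreg : ∀ x ∈ L, ¬ p ∣ orderOf x → x ∈ pPrimeCore p G := by
      intro x hx hxr
      apply mem_core_of_sum hM
      rw [hproj x hxr, hproj 1 (by rw [orderOf_one, Nat.dvd_one]; exact hp.ne_one)]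
      exact finsum_mem_congr rfl fun χ hχ => hS χ hχ x hx
    refine hPL.trans (CfsgLib.BGPi.le_ppc_of_map Subgroup.normalClosure_normal ?_)
    rintro ⟨y, hy⟩
    obtain ⟨x, hx, rfl⟩ := hy
    obtain ⟨x', hx'⟩ := CfsgLib.BlockOrth.isPPart_exists p x
    have hx'' := hx'
    obtain ⟨k, hk⟩ := CfsgLib.BlockOrth.ppart_eq_zpow hx'
    obtain ⟨w, hw1, hw2, ⟨m, hm⟩, hw4⟩ := hx''
    have hwL : w ∈ L := by
      have : w = x'⁻¹ * x := by rw [← hw1]; group
      rw [this, hk]
      exact L.mul_mem (L.inv_mem (L.zpow_mem hx k)) hx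
    have hwc := hreg w hwL hw4
    refine ⟨m, ?_⟩
    apply Subtype.ext
    change (x : G ⧸ pPrimeCore p G) ^ p ^ m = 1
    have h5 : (x : G ⧸ pPrimeCore p G) = (x' : G ⧸ pPrimeCore p G) := by
      rw [eq_comm, QuotientGroup.eq, ← hw1]
      simpa using hwc
    rw [h5, ← QuotientGroup.mk_pow, ← hm, pow_orderOf_eq_one, QuotientGroup.mk_one]

end Cfsg.Agent.S4711
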