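import Cfsg.Statements.S4716
import Cfsg.Agent.LibContrib20

set_option autoImplicit false
set_option linter.all false
open Cfsg

namespace Cfsg.Agent.S4716

open CfsgLib.Contrib20 CfsgLib.BlockR

/-- Let p be a prime, M a maximal ideal of the algebraic integers containing p, and B a p-block of defect d of the finite group G all of whose irreducible characters have height zero. Let y be a p-element, C = C_G(y), and b a block of C inducing B and having the same defect d (a major subsection). Then k(B)^2 ≤ p^(2d)·l(b), where k(B) is the number of irreducible characters in B and l(b) the p-regular rank of b (its number of irreducible Brauer characters); in particular (y = 1) k(B)^2 ≤ p^(2d)·l(B). -/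
theorem result {G : Type*} [Group G] [Finite G] (p : ℕ) [Fact p.Prime] (M : Ideal Cfsg.AlgInt) (hM : Cfsg.IsPModular p M) (B : Set (Cfsg.IrrCharacter G)) (hB : Cfsg.IsPBlock M B) (d : ℕ) (hd : Cfsg.blockDefect p B = d) (hh : ∀ χ ∈ B, Cfsg.blockHeight p B (χ : G → ℂ) = 0) (y : G) (hy : ∃ k : ℕ, orderOf y = p ^ k) (b : Set (Cfsg.IrrCharacter ↥(Subgroup.centralizer ({y} : Set G)))) (hind : Cfsg.IsInducedBlock M (Subgroup.centralizer ({y} : Set G)) b B) (hbd : Cfsg.blockDefect p b = d) : Nat.card B ^ 2 ≤ p ^ (2 * d) * Cfsg.blockRank p b := by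
  classical
  letI : Fintype G := Fintype.ofFinite G
  letI : Fintype (Subgroup.centralizer ({y} : Set G)) := Fintype.ofFinite _
  obtain ⟨n, hn⟩ := exists_n (p := p) hy
  have h1 : ∀ χ ∈ B, (Nat.card B : ℝ) ≤ ((p ^ Cfsg.blockDefect p b : ℕ) : ℝ) * aa p n b χ := by
    intro χ hχ
    apply card_le_aa hM hind.1 hn B χ
    intro ψ hψ h0
    apply con_unit hM hχ (hh χ hχ) hψ (hh ψ hψ) hy hind hn
    rw [h0]; exact ideal_zero (isPrime_of_modular hM)
  have h2 : (Nat.card B : ℝ) * (Nat.card B : ℝ) ≤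
      ((p ^ Cfsg.blockDefect p b : ℕ) : ℝ) * (((p ^ Cfsg.blockDefect p b : ℕ) : ℝ) * Cfsg.blockRank p b) := by
    rw [← sum_aa hM hy hind.1 hn, Finset.mul_sum]
    calc (Nat.card B : ℝ) * (Nat.card B : ℝ) = ∑ χ ∈ B.toFinset, (Nat.card B : ℝ) := by
          rw [Finset.sum_const, nsmul_eq_mul, Set.toFinset_card, Nat.card_eq_fintype_card]
      _ ≤ ∑ χ ∈ B.toFinset, ((p ^ Cfsg.blockDefect p b : ℕ) : ℝ) * aa p n b χ := by
          apply Finset.sum_le_sum
          intro χ hχ
          exact h1 χ (Set.mem_toFinset.mp hχ)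
      _ ≤ _ := Finset.sum_le_sum_of_subset_of_nonneg (Finset.subset_univ _)
          fun i _ _ => mul_nonneg (by positivity) (aa_nonneg p n b i)
  rw [hbd] at h2
  have h3 : ((Nat.card B ^ 2 : ℕ) : ℝ) ≤ ((p ^ (2 * d) * Cfsg.blockRank p b : ℕ) : ℝ) := by
    push_cast at h2 ⊢
    calc (Nat.card B : ℝ) ^ 2 = (Nat.card B : ℝ) * (Nat.card B : ℝ) := by ring
      _ ≤ _ := h2
      _ = _ := by rw [pow_mul]; ring
  exact_mod_cast h3

end Cfsg.Agent.S4716
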