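import Cfsg.Statements.S4717
import Cfsg.Agent.LibBrb19
import Cfsg.Agent.LibBlockDefect

set_option autoImplicit false
open Cfsg

namespace Cfsg.Agent.S4717

open CfsgLib.CharBasic CfsgLib.BlockR CfsgLib.BlockIdem CfsgLib.BlockIdeal CfsgLib.BlockDefect CfsgLib.BlockFMT CfsgLib.BlockFMT2

theorem upper {G : Type*} [Group G] [Finite G] (p : ℕ) [Fact p.Prime] (M : Ideal AlgInt) (hM : IsPModular p M)
    {H : Subgroup G} {b : Set (IrrCharacter H)} {B : Set (IrrCharacter G)} (hind : IsInducedBlock M H b B) :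
    blockDefect p b ≤ blockDefect p B := by
  have hp := isPrime_of_modular hM
  classical
  letI := Fintype.ofFinite G
  letI := Fintype.ofFinite H
  obtain ⟨E, hE⟩ := exists_defectGroup hM hind.1
  obtain ⟨F, hF, hEF⟩ := induced_defect_le hM hind hE
  have h1 := Subgroup.card_le_of_le hEF
  rw [card_map_subtype, card_defectGroup hM hind.1 hE, card_defectGroup hM hind.2.1 hF] at h1
  exact (Nat.pow_le_pow_iff_right (Fact.out : p.Prime).one_lt).1 h1

theorem exists_center {G : Type*} [Group G] [Finite G] (p : ℕ) [hp : Fact p.Prime] {D : Subgroup G} (hD : IsPGroup p D)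
    (h : D ≠ ⊥) : ∃ y ∈ D, orderOf y = p ∧ ∀ d ∈ D, d * y = y * d := by
  haveI : Nontrivial D := (Subgroup.nontrivial_iff_ne_bot D).2 h
  haveI := hD.center_nontrivial
  obtain ⟨n, hn⟩ := IsPGroup.iff_card.1 (hD.to_subgroup (Subgroup.center D))
  have hn0 : n ≠ 0 := by
    rintro rfl
    have h1 := Finite.one_lt_card (α := Subgroup.center D)
    rw [hn, pow_zero] at h1
    exact absurd h1 (lt_irrefl _)
  obtain ⟨z, hz⟩ := exists_prime_orderOf_dvd_card' (G := Subgroup.center D) p (by rw [hn]; exact dvd_pow_self p hn0)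
  refine ⟨((z : D) : G), (z : D).2, ?_, ?_⟩
  · rw [Subgroup.orderOf_coe, Subgroup.orderOf_coe, hz]
  · intro d hd
    have h2 := Subgroup.mem_center_iff.1 z.2 ⟨d, hd⟩
    exact congrArg Subtype.val h2

/-- Let p be a prime, M a maximal ideal of the algebraic integers containing p, and r a natural number; say that a finite group X has deficiency class r when X has no non-principal p-block of defect ≥ r. If G has deficiency class r then so does the centralizer of every p-element of G; conversely, if r > 0 and the centralizer of every element of order p has deficiency class r, then G has deficiency class r. -/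
theorem result {G : Type*} [Group G] [Finite G] (p : ℕ) [Fact p.Prime] (M : Ideal Cfsg.AlgInt) (hM : Cfsg.IsPModular p M) (r : ℕ) : ((∀ B' : Set (Cfsg.IrrCharacter G), Cfsg.IsPBlock M B' → B' ≠ Cfsg.principalBlock M G → Cfsg.blockDefect p B' < r) → ∀ y : G, (∃ k : ℕ, orderOf y = p ^ k) → (∀ B' : Set (Cfsg.IrrCharacter ↥(Subgroup.centralizer ({y} : Set G))), Cfsg.IsPBlock M B' → B' ≠ Cfsg.principalBlock M ↥(Subgroup.centralizer ({y} : Set G)) → Cfsg.blockDefect p B' < r)) ∧ (0 < r → (∀ y : G, orderOf y = p → (∀ B' : Set (Cfsg.IrrCharacter ↥(Subgroup.centralizer ({y} : Set G))), Cfsg.IsPBlock M B' → B' ≠ Cfsg.principalBlock M ↥(Subgroup.centralizer ({y} : Set G)) → Cfsg.blockDefect p B' < r)) → (∀ B' : Set (Cfsg.IrrCharacter G), Cfsg.IsPBlock M B' → B' ≠ Cfsg.principalBlock M G → Cfsg.blockDefect p B' < r)) := by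
  have hp := isPrime_of_modular hM
  classical
  letI := Fintype.ofFinite G
  constructor
  · intro hG y hy b hb hbn
    obtain ⟨B, hB⟩ := CfsgLib.BlockOrth.exists_induced_centralizer hM hy hb
    refine lt_of_le_of_lt (upper p M hM hB) (hG B hB.2.1 ?_)
    rintro rfl
    exact hbn ((CfsgLib.BlockH.third_main hM _ b ⟨_, hB⟩).1 hB)
  · intro hr hC B hB hBn
    by_contra hcon
    push Not at hcon
    obtain ⟨D, hD⟩ := exists_defectGroup hM hB
    have hcD := card_defectGroup hM hB hD
    obtain ⟨g, hg, hS⟩ := isDefectGroup_iff.mp hD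
    have hDne : D ≠ ⊥ := by
      rintro rfl
      rw [Subgroup.card_bot] at hcD
      have h1 : blockDefect p B ≠ 0 := by omega
      exact absurd hcD.symm (Nat.one_lt_pow h1 (Fact.out : p.Prime).one_lt).ne'
    obtain ⟨y, hyD, hyo, hyZ⟩ := exists_center p hS.isPGroup hDne
    obtain ⟨b, hb, E, hE, hDE⟩ := CfsgLib.Brb19.exists_centralizer_block_ge hM hB hD hyD hyZ
    rw [hcD, card_defectGroup hM hb.1 hE] at hDE
    have h1 := (Nat.pow_le_pow_iff_right (Fact.out : p.Prime).one_lt).1 hDE
    have h2 := hC y hyo b hb.1 (by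
      rintro rfl
      apply hBn
      exact CfsgLib.BlockInd.induced_unique hp hb ((CfsgLib.BlockH.third_main hM _ _ ⟨_, hb⟩).2 rfl))
    omega

end Cfsg.Agent.S4717
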