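import Cfsg.Statements.S4718
import Cfsg.Agent.LibReg19
import Cfsg.Agent.LibLandau19

set_option autoImplicit false
universe u
open Cfsg

namespace Cfsg.Agent.S4718


/-- Let p be a prime and a a natural number. There is a bound N such that every finite group whose Sylow p-subgroups have order p^a and whose only p-block (relative to a maximal ideal of the algebraic integers containing p) is the principal block has order at most N. -/
theorem result (p : ℕ) [Fact p.Prime] (a : ℕ) : ∃ N : ℕ, ∀ (G : Type u) [Group G] [Finite G] (M : Ideal Cfsg.AlgInt), Cfsg.IsPModular p M → (Nat.card G).factorization p = a → (∀ B : Set (Cfsg.IrrCharacter G), Cfsg.IsPBlock M B → B = Cfsg.principalBlock M G) → Nat.card G ≤ N := by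
  classical
  choose f hf using CfsgLib.Landau19.landau.{u}
  refine ⟨∑ k ∈ Finset.range ((p ^ a) ^ 2 + 1), f k, ?_⟩
  intro G _ _ M hM ha hblocks
  have hMp := CfsgLib.BlockR.isPrime_of_modular hM
  have h1 := CfsgLib.Reg19.card_principalBlock_le (G := G) hM
  rw [ha] at h1
  have h2 : principalBlock M G = Set.univ := by
    rw [Set.eq_univ_iff_forall]
    intro χ
    have h3 := hblocks (blockOf M (χ : G → ℂ)) ⟨χ, rfl⟩
    rw [← h3]
    exact CfsgLib.BlockIdem.mem_blockOf_self hMp χ
  have h3 : Nat.card (ConjClasses G) ≤ (p ^ a) ^ 2 := by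
    rw [← CfsgLib.CharBasic.card_irr]
    rw [h2, Nat.card_univ] at h1
    exact h1
  have h4 := hf (Nat.card (ConjClasses G)) G rfl
  refine h4.trans ?_
  exact Finset.single_le_sum (f := f) (fun _ _ => Nat.zero_le _) (Finset.mem_range.2 (by omega))

end Cfsg.Agent.S4718
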