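import Cfsg.Statements.S4721
import Cfsg.Agent.LibFrobQ19

set_option autoImplicit false
open Cfsg

namespace Cfsg.Agent.S4721

open CfsgLib.FrobP19
open scoped ComplexConjugate


/-- Let p be a prime, M a maximal ideal of the algebraic integers containing p, and G a finite group with a nontrivial abelian Sylow p-subgroup P, N = N_G(P), C = C_G(P), such that N/C is cyclic of order 3, #P > 4, and C_G(y) ∩ N = C for every non-identity y ∈ P. Then the principal p-block is the disjoint union of a set X of exactly 3 characters containing the principal character and a set Y of (#P − 1)/3 characters, with signs a_χ = ±1 (χ ∈ X, a = 1 at the principal character) and δ = ±1 such that every χ ∈ X takes the value a_χ at every element whose p-part is a non-identity element of P, and there is a map ζ from the non-principal linear characters of P onto Y, constant on N-conjugacy classes, with ζ_ψ(z) = δ·Σ ψ'(y) over the N-orbit of ψ, for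 z with p-part y ≠ 1 in P. If moreover G has an involution lying in no proper normal subgroup of G, then exactly two of the three numbers −δ and a_χ (χ ∈ X non-principal) equal −1, and the product of the degrees of the two non-principal members of X and of any member of Y is a perfect square. -/
theorem result {G : Type*} [Group G] [Finite G] (p : ℕ) [Fact p.Prime] (M : Ideal Cfsg.AlgInt) (hM : Cfsg.IsPModular p M) (P : Sylow p G) (hab : IsMulCommutative P) (hP1 : Nat.card P ≠ 1) (hCN : (Subgroup.centralizer ((P : Subgroup G) : Set G)).relIndex (Subgroup.normalizer ((P : Subgroup G) : Set G)) = 3) (hcyc : ∃ g : G, g ∈ Subgroup.normalizer ((P : Subgroup G) : Set G) ∧ Subgroup.centralizer ((P : Subgroup G) : Set G) ⊔ Subgroup.zpowers g = Subgroup.normalizer ((P : Subgroup G) : Set G)) (hm2 : 3 + 1 < Nat.card P) (hfrob : ∀ y : G, y ∈ (P : Subgroup G) → y ≠ 1 → Subgroup.centralizer ({y} : Set G) ⊓ Subgroup.normalizer ((P : Subgroup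 G) : Set G) = Subgroup.centralizer ((P : Subgroup G) : Set G)) : ∃ (X Y : Set (Cfsg.IrrCharacter G)), Cfsg.principalBlock M G = X ∪ Y ∧ Disjoint X Y ∧ Nat.card X = 3 ∧ Nat.card Y = (Nat.card P - 1) / 3 ∧ (∃ χ₁ ∈ X, (χ₁ : G → ℂ) = fun _ => 1) ∧ ∃ (a : Cfsg.IrrCharacter G → ℤ) (δ : ℤ) (ζ : (↥(P : Subgroup G) →* ℂˣ) → Cfsg.IrrCharacter G), (δ = 1 ∨ δ = -1) ∧ (∀ χ ∈ X, (a χ = 1 ∨ a χ = -1) ∧ ∀ z y : G, Cfsg.IsPPart p z y → y ∈ (P : Subgroup G) → y ≠ 1 → (χ : G → ℂ) z = (a χ : ℂ)) ∧ (∀ ψ : ↥(P : Subgroup G) →* ℂˣ, ψ ≠ 1 → ζ ψ ∈ Y) ∧ (∀ η ∈ Y, ∃ ψ : ↥(P : Subgroup G) →* ℂˣ, ψ ≠ 1 ∧ ζ ψ = η) ∧ (∀ ψ ψ' : ↥(P : Subgroup G) →* ℂˣ, ψ ≠ 1 → (∃ n : G, n ∈ Subgroup.normalizer ((P : Subgroup G) : Set G) ∧ ∀ w w' : ↥(P : Subgroup G), (w' : G) = n * w * n⁻¹ → ψ' w' = ψ w) → ζ ψ' = ζ ψ) ∧ (∀ ψ : ↥(P : Subgroup G) →* ℂˣ, ψ ≠ 1 → ∀ (z : G) (y : ↥(P : Subgroup G)), Cfsg.IsPPart p z (y : G) → (y : G) ≠ 1 → (ζ ψ : G → ℂ) z = (δ : ℂ) * ∑ᶠ ψ' ∈ {ψ'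 : ↥(P : Subgroup G) →* ℂˣ | ∃ n : G, n ∈ Subgroup.normalizer ((P : Subgroup G) : Set G) ∧ ∀ w w' : ↥(P : Subgroup G), (w' : G) = n * w * n⁻¹ → ψ' w' = ψ w}, ((ψ' y : ℂˣ) : ℂ)) ∧ ((∃ t : G, orderOf t = 2 ∧ ∀ K : Subgroup G, K.Normal → t ∈ K → K = ⊤) → Nat.card {χ : Cfsg.IrrCharacter G // χ ∈ X ∧ (χ : G → ℂ) ≠ (fun _ => 1) ∧ a χ = -1} + (if δ = 1 then 1 else 0) = 2 ∧ ∀ η ∈ Y, IsSquare (Cfsg.charDegree (η : G → ℂ) * ∏ᶠ χ ∈ {χ : Cfsg.IrrCharacter G | χ ∈ X ∧ (χ : G → ℂ) ≠ fun _ => 1}, Cfsg.charDegree (χ : G → ℂ))) := by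
  classical
  have hF : FrobHyp (P : Subgroup G) := ⟨fun a b => hab.is_comm.comm a b, hfrob⟩
  obtain ⟨ζ, c, δ, hR, hX1, hX3⟩ := normalise hM P hF hCN hm2
  have hψ := exists_ne_one hF.1 hP1
  have hcardY : Nat.card (setY ζ) * 3 = Nat.card P - 1 := card_setY hR hF hCN
  have hrm : Nat.card (setY ζ) = (Nat.card P - 1) / 3 := by omega
  refine ⟨setX M ζ, setY ζ, hR.union, disj, hX3, hrm,
    ⟨⟨fun _ => 1, CfsgLib.Infl19.one_irr⟩, hR.one_mem hM hF hCN hm2, rfl⟩, c, δ, ζ, hR.hδ, ?_, ?_, ?_, ?_, ?_, ?_⟩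
  · intro χ hχ
    refine ⟨hX1 χ hχ, fun z y hz hy hy1 => ?_⟩
    rw [const_section hM P hab hy (hfrob y hy hy1).le hz hχ.1]
    exact hR.value_X hF.1 hχ (y := ⟨y, hy⟩) (fun h => hy1 (congrArg Subtype.val h))
  · intro ψ h
    exact ⟨ψ, h, rfl⟩
  · intro η hη
    exact hη
  · intro ψ ψ' h hrel
    exact ((hR.hζ ψ ψ' h (rel_ne_one _ hrel h)).2 hrel).symm
  · intro ψ h z y hz hy1
    rw [const_section hM P hab y.2 (hfrob y y.2 hy1).le hz (hR.hB ψ h)]
    have h1 := hR.value_Y hF.1 h (y := y) (fun h => hy1 (congrArg Subtype.val h))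
    rw [Int.cast_zero, zero_add] at h1
    exact h1
  · rintro ⟨t, ht, hnp⟩
    obtain ⟨χ2, χ3, h23, h2e, h3e, hX, hfin⟩ := inv_part hM P hF hCN hm2 hR hX1 hX3 ht hnp
    have hne : ∀ χ : IrrCharacter G, (χ : G → ℂ) ≠ (fun _ => 1) ↔ χ ≠ (⟨fun _ => 1, CfsgLib.Infl19.one_irr⟩ : IrrCharacter G) := by
      intro χ
      constructor
      · intro h h'; exact h (congrArg Subtype.val h')
      · intro h h'; exact h (Subtype.ext h')
    obtain ⟨ψ0, hψ0⟩ := hψ
    have hη0 : ζ ψ0 ∈ setY ζ := ⟨ψ0, hψ0, rfl⟩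
    have hset : {χ : IrrCharacter G | χ ∈ setX M ζ ∧ (χ : G → ℂ) ≠ fun _ => 1} = {χ2, χ3} := by
      ext χ
      simp only [Set.mem_setOf_eq, hne, hX, Set.mem_insert_iff, Set.mem_singleton_iff]
      constructor
      · rintro ⟨h | h | h, h'⟩
        · exact absurd h h'
        · exact Or.inl h
        · exact Or.inr h
      · rintro (h | h)
        · exact ⟨Or.inr (Or.inl h), h ▸ h2e⟩
        · exact ⟨Or.inr (Or.inr h), h ▸ h3e⟩
    constructor
    · have h1 := (hfin _ hη0).1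
      have h2 : Nat.card {χ : IrrCharacter G // χ ∈ setX M ζ ∧ (χ : G → ℂ) ≠ (fun _ => 1) ∧ c χ = -1} =
          (if c χ2 = -1 then 1 else 0) + (if c χ3 = -1 then 1 else 0) := by
        have h3 : Nat.card {χ : IrrCharacter G // χ ∈ setX M ζ ∧ (χ : G → ℂ) ≠ (fun _ => 1) ∧ c χ = -1} =
            (({χ2, χ3} : Finset (IrrCharacter G)).filter (fun χ => c χ = -1)).card := by
          rw [← Nat.card_eq_finsetCard]
          refine Nat.card_congr (Equiv.subtypeEquivRight fun χ => ?_)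
          rw [Finset.mem_filter, Finset.mem_insert, Finset.mem_singleton]
          have h5 : (χ ∈ setX M ζ ∧ (χ : G → ℂ) ≠ fun _ => 1) ↔ (χ = χ2 ∨ χ = χ3) := by
            have := Set.ext_iff.1 hset χ
            simpa using this
          rw [← h5, and_assoc]
        rw [h3, Finset.filter_insert, Finset.filter_singleton]
        split_ifs
        · rw [Finset.card_pair h23]
        · rfl
        · rfl
        · rfl
      rw [h2]
      have h4 : (if δ = 1 then 1 else 0) = (if -δ = -1 then 1 else 0) := by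
        refine if_congr ?_ rfl rfl
        constructor <;> intro h <;> omega
      rw [h4]
      exact h1
    · intro η hη
      have h1 := (hfin η hη).2
      rw [hset, finprod_mem_pair h23, mul_comm]
      exact h1

end Cfsg.Agent.S4721
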