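import Cfsg.Statements.S4722
import Cfsg.Agent.LibPB19
import Cfsg.Agent.LibInv19
import Cfsg.Agent.LibQuot19

set_option autoImplicit false
open Cfsg

namespace Cfsg.Agent.S4722

open CfsgLib.CharBasic CfsgLib.ClassAlg CfsgLib.PB19
open scoped ComplexConjugate

theorem real_key {ι : Type*} [DecidableEq ι] (B : Finset ι) (m d s : ι → ℝ) (hd : ∀ i ∈ B, 0 < d i) (e : ι) (he : e ∈ B)
    (hme : m e ≠ 0) (hse : s e = d e) (h1 : ∑ i ∈ B, m i * d i = 0) (h2 : ∑ i ∈ B, m i * s i = 0)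
    (h3 : ∑ i ∈ B, m i * s i ^ 2 / d i = 0) (hneg : ∀ i ∈ B, ∀ j ∈ B, m i < 0 → m j < 0 → i = j) :
    ∃ i ∈ B, i ≠ e ∧ m i ≠ 0 ∧ s i = d i := by
  have hq : ∀ r : ℝ, ∑ i ∈ B, m i * (s i - r * d i) ^ 2 / d i = 0 := by
    intro r
    have : ∀ i ∈ B, m i * (s i - r * d i) ^ 2 / d i = m i * s i ^ 2 / d i - 2 * r * (m i * s i) + r ^ 2 * (m i * d i) := by
      intro i hi
      have := (hd i hi).ne'
      field_simp
      ring
    rw [Finset.sum_congr rfl this, Finset.sum_add_distrib, Finset.sum_sub_distrib, ← Finset.mul_sum, ← Finset.mul_sum,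
      h1, h2, h3]
    ring
  -- there is an element of negative weight
  have hex : ∃ i0 ∈ B, m i0 < 0 := by
    by_contra hcon
    push Not at hcon
    have h4 : 0 < ∑ i ∈ B, m i * d i := by
      apply Finset.sum_pos' (fun i hi => mul_nonneg (hcon i hi) (hd i hi).le)
      exact ⟨e, he, mul_pos (lt_of_le_of_ne (hcon e he) (Ne.symm hme)) (hd e he)⟩
    linarith
  obtain ⟨i0, hi0, hm0⟩ := hex
  have hnn : ∀ i ∈ B, i ≠ i0 → 0 ≤ m i := by
    intro i hi hne
    by_contra hlt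
    exact hne (hneg i hi i0 hi0 (not_le.1 hlt) hm0)
  set r := s i0 / d i0 with hr
  have hall : ∀ i ∈ B, m i * (s i - r * d i) ^ 2 / d i = 0 := by
    have h4 : ∀ i ∈ B, 0 ≤ m i * (s i - r * d i) ^ 2 / d i := by
      intro i hi
      by_cases h : i = i0
      · have : s i - r * d i = 0 := by
          rw [h, hr, div_mul_cancel₀ _ (hd i0 hi0).ne', sub_self]
        rw [this]; simp
      · exact div_nonneg (mul_nonneg (hnn i hi h) (sq_nonneg _)) (hd i hi).le
    exact (Finset.sum_eq_zero_iff_of_nonneg h4).1 (hq r)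
  have hall' : ∀ i ∈ B, m i ≠ 0 → s i = r * d i := by
    intro i hi hm
    have h4 := hall i hi
    rcases div_eq_zero_iff.1 h4 with h | h
    · rcases mul_eq_zero.1 h with h | h
      · exact absurd h hm
      · exact sub_eq_zero.1 (pow_eq_zero_iff (by norm_num) |>.1 h)
    · exact absurd h (hd i hi).ne'
  have hr1 : r = 1 := by
    have h4 := hall' e he hme
    rw [hse] at h4
    have h5 := (hd e he).ne'
    have : (r - 1) * d e = 0 := by linarith
    rcases mul_eq_zero.1 this with h | h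
    · linarith
    · exact absurd h h5
  by_contra hcon
  push Not at hcon
  have h5 : ∑ i ∈ B, m i * d i = m e * d e := by
    apply Finset.sum_eq_single_of_mem e he
    intro i hi hne
    by_cases hm : m i = 0
    · rw [hm, zero_mul]
    · exfalso
      apply hcon i hi hne hm
      rw [hall' i hi hm, hr1, one_mul]
  rw [h5] at h1
  rcases mul_eq_zero.1 h1 with h | h
  · exact hme h
  · exact (hd e he).ne' h


/-- Let M be a maximal ideal of the algebraic integers containing 2, P a 2-subgroup of the finite group G, U a subset of P, and t an involution of G such that no element of U is inverted by any conjugate of t. Let θ be a generalized character of P vanishing outside U, and for χ in the principal 2-block B₀ put a_χ = #P⁻¹ Σ_{y ∈ P} χ(y) θ(y⁻¹). Then Σ_{χ ∈ B₀} a_χ χ(t)^2/χ(1) = 0, Σ_{χ ∈ B₀} a_χ χ(1) = 0 and Σ_{χ ∈ B₀} a_χ χ(t) = 0. If moreover #P⁻¹ Σ_{y ∈ P} θ(y) ≠ 0, then either at least two of the a_χ have positive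 real part and at least two have negative real part, or G has a proper normal subgroup containing O_2'(G) and t. -/
theorem result {G : Type*} [Group G] [Finite G] (M : Ideal Cfsg.AlgInt) (hM : Cfsg.IsPModular 2 M) (P : Subgroup G) (hP : IsPGroup 2 P) (U : Set G) (hUP : U ⊆ (P : Set G)) (t : G) (ht : orderOf t = 2) (hinv : ∀ u ∈ U, ∀ g : G, (g * t * g⁻¹) * u * (g * t * g⁻¹)⁻¹ ≠ u⁻¹) (θ : ↥P → ℂ) (hθ : Cfsg.IsGeneralizedCharacter ↥P θ) (hθU : ∀ y : ↥P, (y : G) ∉ U → θ y = 0) : (∑ᶠ χ ∈ Cfsg.principalBlock M G, ((Nat.card ↥P : ℂ)⁻¹ * ∑ᶠ y : ↥P, (χ : G → ℂ) (y : G) * θ y⁻¹) * (χ : G → ℂ) t ^ 2 / (χ : G → ℂ) 1 = 0) ∧ (∑ᶠ χ ∈ Cfsg.principalBlock M G, ((Nat.card ↥P : ℂ)⁻¹ * ∑ᶠ y : ↥P, (χ : G → ℂ) (y : G) * θ y⁻¹) * (χ : G → ℂ) 1 = 0) ∧ (∑ᶠ χ ∈ Cfsg.principalBlock M G, ((Nat.card ↥P : ℂ)⁻¹ * ∑ᶠ y : ↥P, (χ : G → ℂ) (y : G) * θ y⁻¹) * (χ : G → ℂ) t = 0) ∧ ((Nat.card ↥P : ℂ)⁻¹ * ∑ᶠ y : ↥P, θ y ≠ 0 → (2 ≤ Nat.card {χ : Cfsg.IrrCharacter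 G // χ ∈ Cfsg.principalBlock M G ∧ 0 < (((Nat.card ↥P : ℂ)⁻¹ * ∑ᶠ y : ↥P, (χ : G → ℂ) (y : G) * θ y⁻¹)).re} ∧ 2 ≤ Nat.card {χ : Cfsg.IrrCharacter G // χ ∈ Cfsg.principalBlock M G ∧ (((Nat.card ↥P : ℂ)⁻¹ * ∑ᶠ y : ↥P, (χ : G → ℂ) (y : G) * θ y⁻¹)).re < 0}) ∨ ∃ K : Subgroup G, K.Normal ∧ K ≠ ⊤ ∧ Cfsg.pPrimeCore 2 G ≤ K ∧ t ∈ K) := by
  classical
  haveI : Fintype G := Fintype.ofFinite G
  haveI : Fintype P := Fintype.ofFinite P
  haveI : Fact (Nat.Prime 2) := ⟨Nat.prime_two⟩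
  have hMp := CfsgLib.BlockR.isPrime_of_modular hM
  set B := principalBlock M G with hBdef
  let e : IrrCharacter G := ⟨fun _ => 1, isIrrCharacter_one⟩
  have hB : IsPBlock M B := ⟨e, rfl⟩
  have heB : e ∈ B := CfsgLib.BlockIdem.sameBlock_refl hMp _
  have htt := CfsgLib.Invol.mul_self ht
  have htinv := CfsgLib.Invol.inv_eq ht
  have hP2 : ∀ y : G, y ∈ P → ∃ k : ℕ, orderOf y = 2 ^ k := by
    intro y hy
    obtain ⟨k, hk⟩ := hP ⟨y, hy⟩
    have h1 : y ^ 2 ^ k = 1 := congrArg Subtype.val hk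
    obtain ⟨j, -, hj⟩ := (Nat.dvd_prime_pow Nat.prime_two).1 (orderOf_dvd_of_pow_eq_one h1)
    exact ⟨j, hj⟩
  have hU1 : ∀ u ∈ U, u ≠ 1 := by
    rintro u hu rfl
    apply hinv 1 hu 1
    simp
  -- the general reduction
  have hred : ∀ g : IrrCharacter G → ℂ, (∀ u ∈ U, ∑ᶠ χ ∈ B, g χ * conj ((χ : G → ℂ) u) = 0) →
      ∑ᶠ χ ∈ B, ((Nat.card P : ℂ)⁻¹ * ∑ᶠ y : P, (χ : G → ℂ) (y : G) * θ y⁻¹) * g χ = 0 := by
    intro g hg
    rw [finsum_mem_eq_finite_toFinset_sum _ (Set.toFinite B)]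
    have h1 : ∀ χ : IrrCharacter G, ((Nat.card P : ℂ)⁻¹ * ∑ᶠ y : P, (χ : G → ℂ) (y : G) * θ y⁻¹) * g χ =
        ∑ y : P, (Nat.card P : ℂ)⁻¹ * θ y⁻¹ * (g χ * (χ : G → ℂ) y) := by
      intro χ
      rw [finsum_eq_sum_of_fintype, Finset.mul_sum, Finset.sum_mul]
      exact Finset.sum_congr rfl fun y _ => by ring
    simp only [h1]
    rw [Finset.sum_comm]
    apply Finset.sum_eq_zero
    intro y _
    rw [← Finset.mul_sum]
    by_cases hy : ((y⁻¹ : P) : G) ∈ U
    · have h2 := hg _ hy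
      rw [finsum_mem_eq_finite_toFinset_sum _ (Set.toFinite B)] at h2
      have h3 : ∑ χ ∈ (Set.toFinite B).toFinset, g χ * (χ : G → ℂ) y =
          ∑ χ ∈ (Set.toFinite B).toFinset, g χ * conj ((χ : G → ℂ) ((y⁻¹ : P) : G)) := by
        refine Finset.sum_congr rfl fun χ _ => ?_
        rw [← char_inv_eq_conj (irr_isCharacter χ.2)]
        simp
      rw [h3, h2, mul_zero]
    · rw [hθU _ hy]; simp
  -- (2)
  have h2 : ∑ᶠ χ ∈ B, ((Nat.card P : ℂ)⁻¹ * ∑ᶠ y : P, (χ : G → ℂ) (y : G) * θ y⁻¹) * (χ : G → ℂ) 1 = 0 := by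
    apply hred (fun χ => (χ : G → ℂ) 1)
    intro u hu
    apply CfsgLib.BlockOrth.weak_block_orth hM hB
    · rw [orderOf_one]; norm_num
    · obtain ⟨k, hk⟩ := hP2 u (hUP hu)
      rw [hk]
      apply dvd_pow_self
      rintro rfl
      rw [pow_zero, orderOf_eq_one_iff] at hk
      exact hU1 u hu hk
  -- (3)
  have h3 : ∑ᶠ χ ∈ B, ((Nat.card P : ℂ)⁻¹ * ∑ᶠ y : P, (χ : G → ℂ) (y : G) * θ y⁻¹) * (χ : G → ℂ) t = 0 := by
    apply hred (fun χ => (χ : G → ℂ) t)
    intro u hu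
    apply CfsgLib.BlockOrth.block_orth_conj hM hB (isPPart_self ⟨1, by rw [ht, pow_one]⟩) (isPPart_self (hP2 u (hUP hu)))
    intro hc
    obtain ⟨g, hg⟩ := isConj_iff.1 hc
    apply hinv u hu g
    rw [hg, mul_inv_cancel_right]
    rw [← hg]
    rw [mul_inv_rev, mul_inv_rev, inv_inv, htinv, mul_assoc]
  -- (1)
  have h1' : ∑ᶠ χ ∈ B, ((Nat.card P : ℂ)⁻¹ * ∑ᶠ y : P, (χ : G → ℂ) (y : G) * θ y⁻¹) * ((χ : G → ℂ) t ^ 2 / (χ : G → ℂ) 1) = 0 := by
    apply hred (fun χ => (χ : G → ℂ) t ^ 2 / (χ : G → ℂ) 1)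
    intro u hu
    let c : G → ℂ := fun z => (Nat.card {q : G × G // IsConj t q.1 ∧ IsConj t q.2 ∧ q.1 * q.2 = z} : ℂ)
    have hproj := proj_section hM hB c (isPPart_self (hP2 u (hUP hu))) (by
      intro z z' hz hzu
      simp only [c]
      rw [Nat.cast_eq_zero, Nat.card_eq_zero]
      left
      refine ⟨?_⟩
      rintro ⟨⟨s, s'⟩, hs, hs', hss⟩
      simp only at hs hs' hss
      have hs2 := (CfsgLib.Inv19.orderOf_of_isConj hs).trans ht
      have hs2' := (CfsgLib.Inv19.orderOf_of_isConj hs').trans ht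
      have hinvz : s * z * s⁻¹ = z⁻¹ := by
        rw [← hss]; exact CfsgLib.Invol.left_inverts hs2 hs2'
      obtain ⟨b, hb⟩ : ∃ b : ℤ, z ^ b = z' := by
        obtain ⟨b, hb, -⟩ := CfsgLib.BlockOrth.exists_zpow_pparts hz hz (k := 1) (by decide)
        exact ⟨b, by simpa using hb⟩
      have hinvz' : s * z' * s⁻¹ = z'⁻¹ := by
        rw [← hb]; exact CfsgLib.Invol.inverts_zpow hinvz b
      obtain ⟨g, hg⟩ := isConj_iff.1 hzu
      obtain ⟨w, hw⟩ := isConj_iff.1 hs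
      apply hinv u hu (g * w)
      rw [← hg]
      calc (g * w * t * (g * w)⁻¹) * (g * z' * g⁻¹) * (g * w * t * (g * w)⁻¹)⁻¹
          = g * ((w * t * w⁻¹) * z' * (w * t * w⁻¹)⁻¹) * g⁻¹ := by group
        _ = g * (s * z' * s⁻¹) * g⁻¹ := by rw [hw]
        _ = (g * z' * g⁻¹)⁻¹ := by rw [hinvz']; group)
    have hKc : ((Subgroup.centralizer ({t} : Set G)).index : ℂ) ≠ 0 := by
      exact_mod_cast Subgroup.index_ne_zero_of_finite
    have hGc : (Nat.card G : ℂ) ≠ 0 := by exact_mod_cast Nat.card_pos.ne'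
    have hval : ∀ χ : IrrCharacter G, ∑ z : G, c z * (χ : G → ℂ) z =
        ((Subgroup.centralizer ({t} : Set G)).index : ℂ) ^ 2 * ((χ : G → ℂ) t ^ 2 / (χ : G → ℂ) 1) := by
      intro χ
      have e1 : ∀ z, c z = (Nat.card G : ℂ)⁻¹ * ∑ ψ : IrrCharacter G, centralChar (ψ : G → ℂ) t * centralChar (ψ : G → ℂ) t * (ψ : G → ℂ) 1 * conj ((ψ : G → ℂ) z) :=
        fun z => card_pairs t t z
      have e2 : ∑ z : G, c z * (χ : G → ℂ) z = ∑ ψ : IrrCharacter G, centralChar (ψ : G → ℂ) t * centralChar (ψ : G → ℂ) t * (ψ : G → ℂ) 1 * classInner (χ : G → ℂ) (ψ : G → ℂ) := by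
        simp only [e1, classInner, Finset.mul_sum, Finset.sum_mul]
        rw [Finset.sum_comm]
        exact Finset.sum_congr rfl fun ψ _ => Finset.sum_congr rfl fun z _ => by ring
      rw [e2, Finset.sum_eq_single χ]
      · rw [irr_inner_self χ.2]
        unfold centralChar
        have := irr_one_ne_zero χ.2
        field_simp
      · intro ψ _ hne
        rw [irr_inner_ne χ.2 ψ.2 (fun h => hne (Subtype.ext h.symm)), mul_zero]
      · intro h; exact absurd (Finset.mem_univ _) h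
    have hfin : ((Subgroup.centralizer ({t} : Set G)).index : ℂ) ^ 2 * ∑ᶠ χ ∈ B, ((χ : G → ℂ) t ^ 2 / (χ : G → ℂ) 1) * conj ((χ : G → ℂ) u) = 0 := by
      rw [← hproj, finsum_mem_eq_finite_toFinset_sum _ (Set.toFinite B), finsum_mem_eq_finite_toFinset_sum _ (Set.toFinite B), Finset.mul_sum]
      exact Finset.sum_congr rfl fun χ _ => by rw [hval χ]; ring
    rcases mul_eq_zero.1 hfin with h | h
    · exact absurd (pow_eq_zero_iff (by norm_num) |>.1 h) hKc
    · exact h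
  refine ⟨?_, h2, h3, ?_⟩
  · rw [← h1']
    exact finsum_mem_congr rfl fun χ _ => by rw [mul_div_assoc]
  · intro hne
    by_contra hcon
    push Not at hcon
    obtain ⟨hcon1, hcon2⟩ := hcon
    -- integrality
    have hint : ∀ χ : IrrCharacter G, ∃ m : ℤ, (Nat.card P : ℂ)⁻¹ * ∑ᶠ y : P, (χ : G → ℂ) (y : G) * θ y⁻¹ = m := by
      intro χ
      obtain ⟨m, hm⟩ := gen_inner_int (gen_of_char (isCharacter_restrict (irr_isCharacter χ.2) P)) hθ
      refine ⟨m, ?_⟩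
      rw [← hm, finsum_eq_sum_of_fintype]
      unfold classInner
      congr 1
      exact Finset.sum_congr rfl fun y _ => by rw [gen_inv_eq_conj hθ]
    choose m hm using hint
    have hreal : ∀ χ : IrrCharacter G, ((χ : G → ℂ) t) = (((χ : G → ℂ) t).re : ℂ) := by
      intro χ
      have := char_inv_eq_conj (irr_isCharacter χ.2) t
      rw [htinv] at this
      exact (Complex.conj_eq_iff_real.1 this.symm).elim fun r hr => by rw [hr]; simp
    have hone : ∀ χ : IrrCharacter G, ((χ : G → ℂ) 1) = (((χ : G → ℂ) 1).re : ℂ) ∧ 0 < ((χ : G → ℂ) 1).re := by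
      intro χ
      obtain ⟨n, hn, hn1⟩ := irr_one_nat χ.2
      rw [hn1]
      refine ⟨by simp, ?_⟩
      rw [Complex.natCast_re]; exact_mod_cast hn
    have conv : ∀ (f : IrrCharacter G → ℂ) (g : IrrCharacter G → ℝ), (∀ χ, f χ = (g χ : ℂ)) → ∑ᶠ χ ∈ B, f χ = 0 →
        ∑ χ ∈ (Set.toFinite B).toFinset, g χ = 0 := by
      intro f g hfg h0
      rw [finsum_mem_eq_finite_toFinset_sum _ (Set.toFinite B)] at h0
      have : ((∑ χ ∈ (Set.toFinite B).toFinset, g χ : ℝ) : ℂ) = 0 := by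
        rw [← h0]; push_cast
        exact Finset.sum_congr rfl fun χ _ => (hfg χ).symm
      exact_mod_cast this
    have s1 := conv _ (fun χ => (m χ : ℝ) * ((χ : G → ℂ) 1).re) (fun χ => by
      rw [hm χ, (hone χ).1]; push_cast; simp) h2
    have s2 := conv _ (fun χ => (m χ : ℝ) * ((χ : G → ℂ) t).re) (fun χ => by
      rw [hm χ]; conv_lhs => rw [hreal χ]
      push_cast; rfl) h3
    have s3 := conv _ (fun χ => (m χ : ℝ) * (((χ : G → ℂ) t).re) ^ 2 / ((χ : G → ℂ) 1).re) (fun χ => by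
      rw [hm χ]; conv_lhs => rw [hreal χ, (hone χ).1]
      push_cast; ring) h1'
    have hme : (m e : ℝ) ≠ 0 := by
      have h5 : (m e : ℂ) ≠ 0 := by
        rw [← hm e]
        have h6 : ∑ᶠ y : P, (e : G → ℂ) (y : G) * θ y⁻¹ = ∑ᶠ y : P, θ y := by
          rw [finsum_eq_sum_of_fintype, finsum_eq_sum_of_fintype]
          refine Fintype.sum_equiv (Equiv.inv P) _ _ fun y => ?_
          simp [e]
        rw [h6]; exact hne
      exact_mod_cast h5
    have heF : e ∈ (Set.toFinite B).toFinset := by simpa using heB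
    have hse : ((e : G → ℂ) t).re = ((e : G → ℂ) 1).re := rfl
    -- the kernel argument
    have hfinal : ∀ χ : IrrCharacter G, χ ∈ B → χ ≠ e → ((χ : G → ℂ) t).re = ((χ : G → ℂ) 1).re → False := by
      intro χ hχB hχe hχt
      obtain ⟨K, hKn, hK⟩ := exists_kernel (irr_isCharacter χ.2)
      apply hcon2 K hKn
      · intro htop
        apply hχe
        apply Subtype.ext
        apply CfsgLib.Quot19.irr_eq_one_of_ker_top χ.2
        intro g
        rw [← hK g, htop]; trivial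
      · intro n hn
        exact (hK n).2 (ker_principal hM hχB n hn)
      · rw [hK t, hreal χ, (hone χ).1, hχt]
    have hcard : ∀ (p : IrrCharacter G → Prop), Nat.card {χ : IrrCharacter G // p χ} < 2 → ∀ χ ψ, p χ → p ψ → χ = ψ := by
      intro p hp χ ψ h1 h2
      have h3 : Subsingleton {χ : IrrCharacter G // p χ} := by
        rw [← Finite.card_le_one_iff_subsingleton]; omega
      exact congrArg Subtype.val (h3.elim ⟨χ, h1⟩ ⟨ψ, h2⟩)
    by_cases hpos : 2 ≤ Nat.card {χ : IrrCharacter G // χ ∈ principalBlock M G ∧ 0 < (((Nat.card ↥P : ℂ)⁻¹ * ∑ᶠ y : ↥P, (χ : G → ℂ) (y : G) * θ y⁻¹)).re}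
    · have hneg := hcon1 hpos
      obtain ⟨χ, h5, h6, h7, h8⟩ := real_key (Set.toFinite B).toFinset (fun χ => (m χ : ℝ)) (fun χ => ((χ : G → ℂ) 1).re) (fun χ => ((χ : G → ℂ) t).re)
        (fun χ _ => (hone χ).2) e heF hme hse s1 s2 s3 (by
          intro χ hχ ψ hψ h9 h10
          apply hcard _ hneg χ ψ
          · exact ⟨by simpa using hχ, by rw [hm χ]; simpa using h9⟩
          · exact ⟨by simpa using hψ, by rw [hm ψ]; simpa using h10⟩)
      exact hfinal χ (by simpa using h5) h6 h8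
    · have hneg := not_le.1 hpos
      obtain ⟨χ, h5, h6, h7, h8⟩ := real_key (Set.toFinite B).toFinset (fun χ => -(m χ : ℝ)) (fun χ => ((χ : G → ℂ) 1).re) (fun χ => ((χ : G → ℂ) t).re)
        (fun χ _ => (hone χ).2) e heF (neg_ne_zero.2 hme) hse
        (by simp only [neg_mul, Finset.sum_neg_distrib, neg_eq_zero]; exact s1)
        (by simp only [neg_mul, Finset.sum_neg_distrib, neg_eq_zero]; exact s2)
        (by simp only [neg_mul, neg_div, Finset.sum_neg_distrib, neg_eq_zero]; exact s3) (by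
          intro χ hχ ψ hψ h9 h10
          apply hcard _ hneg χ ψ
          · exact ⟨by simpa using hχ, by rw [hm χ]; simpa using h9⟩
          · exact ⟨by simpa using hψ, by rw [hm ψ]; simpa using h10⟩)
      exact hfinal χ (by simpa using h5) h6 h8

end Cfsg.Agent.S4722
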