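import Cfsg.Statements.S4730
import Cfsg.Agent.LibDefB19

set_option autoImplicit false
open Cfsg

namespace Cfsg.Agent.S4730


/-- Let p be a prime, M a maximal ideal of the algebraic integers containing p, and G a finite group with trivial centre, Sylow p-subgroup P of order p^a and centre Z(P) of order p^b. If χ is a faithful irreducible character of G whose degree is a power of p, then the p-block of χ has defect at most a − b; in particular, if P is abelian then χ lies in a block of defect zero. -/
theorem result {G : Type*} [Group G] [Finite G] (p : ℕ) [Fact p.Prime] (M : Ideal Cfsg.AlgInt) (hM : Cfsg.IsPModular p M) (hZ : Subgroup.center G = ⊥) (P : Sylow p G) (a b : ℕ) (ha : Nat.card P = p ^ a) (hb : Nat.card (Subgroup.center ↥(P : Subgroup G)) = p ^ b) (χ : Cfsg.IrrCharacter G) (hfaith : ∀ g : G, (χ : G → ℂ) g = (χ : G → ℂ) 1 → g = 1) (n : ℕ) (hdeg : Cfsg.charDegree (χ : G → ℂ) = p ^ n) : Cfsg.blockDefect p (Cfsg.blockOf M (χ : G → ℂ)) ≤ a - b ∧ (IsMulCommutative ↥(P : Subgroup G) → Cfsg.blockDefect p (Cfsg.blockOf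 M (χ : G → ℂ)) = 0) := by
  have hcG : (Nat.card G).factorization p = a := by
    have h1 := P.card_eq_multiplicity
    rw [ha] at h1
    exact (Nat.pow_right_injective (Fact.out : p.Prime).two_le h1).symm
  have hle : b ≤ sInf ((fun ψ : Cfsg.IrrCharacter G => (Cfsg.charDegree (ψ : G → ℂ)).factorization p) '' (Cfsg.blockOf M (χ : G → ℂ))) := by
    apply le_csInf
    · exact ⟨_, χ, CfsgLib.BlockIdem.sameBlock_refl (CfsgLib.BlockR.isPrime_of_modular hM) _, rfl⟩
    · rintro _ ⟨ψ, hψ, rfl⟩
      exact CfsgLib.DefB19.main hM hZ P b hb χ hfaith n hdeg hψ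
  have hmain : Cfsg.blockDefect p (Cfsg.blockOf M (χ : G → ℂ)) ≤ a - b := by
    unfold Cfsg.blockDefect
    rw [hcG]
    exact Nat.sub_le_sub_left hle a
  refine ⟨hmain, fun hcomm => ?_⟩
  have hab : a = b := by
    have h1 : Subgroup.center ↥(P : Subgroup G) = ⊤ := by
      rw [eq_top_iff]
      intro x _
      rw [Subgroup.mem_center_iff]
      intro y
      exact hcomm.is_comm.comm y x
    rw [h1, Subgroup.card_top, ha] at hb
    exact Nat.pow_right_injective (Fact.out : p.Prime).two_le hb
  rw [hab, Nat.sub_self] at hmain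
  exact Nat.le_zero.1 hmain

end Cfsg.Agent.S4730
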