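import Cfsg.Statements.S4731
import Cfsg.Agent.LibPB19

set_option autoImplicit false
open Cfsg

namespace Cfsg.Agent.S4731

open CfsgLib.CharBasic CfsgLib.ClassAlg CfsgLib.PB19
open scoped ComplexConjugate

/-- Let p ≠ q be primes, M_p and M_q maximal ideals of the algebraic integers containing p and q respectively, and G a finite group with no element of order pq; let q^b be the q-part of the order of G. For a p-block B_p (relative to M_p), a q-block B_q (relative to M_q) and a p-singular element y, the sum of χ(1)χ(y) over the irreducible characters χ lying in both B_p and B_q is q^b times an algebraic integer. -/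
theorem result {G : Type*} [Group G] [Finite G] (p q : ℕ) [Fact p.Prime] [Fact q.Prime] (hpq : p ≠ q) (Mp Mq : Ideal Cfsg.AlgInt) (hMp : Cfsg.IsPModular p Mp) (hMq : Cfsg.IsPModular q Mq) (hno : ∀ g : G, orderOf g ≠ p * q) (b : ℕ) (hb : (Nat.card G).factorization q = b) (Bp : Set (Cfsg.IrrCharacter G)) (hBp : Cfsg.IsPBlock Mp Bp) (Bq : Set (Cfsg.IrrCharacter G)) (hBq : Cfsg.IsPBlock Mq Bq) (y : G) (hy : p ∣ orderOf y) : ∃ ω : Cfsg.AlgInt, ∑ᶠ χ ∈ Bp ∩ Bq, (Cfsg.charDegree (χ : G → ℂ) : ℂ) * (χ : G → ℂ) y = (q : ℂ) ^ b * (ω : ℂ) := by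
  classical
  haveI : Fintype G := Fintype.ofFinite G
  have hp : p.Prime := Fact.out
  have hq : q.Prime := Fact.out
  have hGc : (Nat.card G : ℂ) ≠ 0 := by exact_mod_cast Nat.card_pos.ne'
  -- no element is both p-singular and q-singular
  have hno' : ∀ g : G, p ∣ orderOf g → ¬ q ∣ orderOf g := by
    intro g h1 h2
    have h3 : p * q ∣ orderOf g := Nat.Coprime.mul_dvd_of_dvd_of_dvd ((Nat.coprime_primes hp hq).2 hpq) h1 h2
    apply hno (g ^ (orderOf g / (p * q)))
    exact orderOf_pow_orderOf_div (orderOf_pos g).ne' h3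
  obtain ⟨y', hy'⟩ := CfsgLib.BlockOrth.isPPart_exists p y
  have hy1 := CfsgLib.BlockOrth.ppart_ne_one hy' hy
  -- key vanishing
  have key : ∀ z : G, q ∣ orderOf z → ∑ᶠ χ ∈ Bp ∩ Bq, (χ : G → ℂ) y * conj ((χ : G → ℂ) z) = 0 := by
    intro z hz
    obtain ⟨z', hz'⟩ := CfsgLib.BlockOrth.isPPart_exists q z
    have hz1 := CfsgLib.BlockOrth.ppart_ne_one hz' hz
    let c : G → ℂ := fun g => (Nat.card G : ℂ)⁻¹ * ∑ᶠ ψ ∈ Bp, (ψ : G → ℂ) y * conj ((ψ : G → ℂ) g)
    have hproj := proj_section hMq hBq c hz' (by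
      intro g g' hg hgz
      simp only [c]
      obtain ⟨g'', hg''⟩ := CfsgLib.BlockOrth.isPPart_exists p g
      rw [CfsgLib.BlockOrth.block_orth_conj hMp hBp hy' hg'' ?_, mul_zero]
      intro hcon
      have h1 : g'' ≠ 1 := by
        rintro rfl
        exact hy1 (isConj_one_left.1 hcon)
      have h2 : g' ≠ 1 := by
        rintro rfl
        exact hz1 (isConj_one_right.1 hgz)
      have h3 : p ∣ orderOf g := by
        by_contra h4
        apply h1
        exact CfsgLib.BlockOrth.isPPart_unique hg'' (CfsgLib.BlockOrth.isPPart_one h4)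
      have h4 : q ∣ orderOf g := by
        by_contra h4
        apply h2
        exact CfsgLib.BlockOrth.isPPart_unique hg (CfsgLib.BlockOrth.isPPart_one h4)
      exact hno' g h3 h4)
    have hval : ∀ χ : IrrCharacter G, ∑ g : G, c g * (χ : G → ℂ) g = if χ ∈ Bp then (χ : G → ℂ) y else 0 := by
      intro χ
      have e2 : ∑ g : G, c g * (χ : G → ℂ) g = ∑ ψ ∈ (Set.toFinite Bp).toFinset, (ψ : G → ℂ) y * classInner (χ : G → ℂ) (ψ : G → ℂ) := by
        simp only [c]
        have e3 : ∀ g : G, ∑ᶠ ψ ∈ Bp, (ψ : G → ℂ) y * conj ((ψ : G → ℂ) g) = ∑ ψ ∈ (Set.toFinite Bp).toFinset, (ψ : G → ℂ) y * conj ((ψ : G → ℂ) g) :=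
          fun g => finsum_mem_eq_finite_toFinset_sum _ (Set.toFinite Bp)
        simp only [e3, classInner, Finset.mul_sum, Finset.sum_mul]
        rw [Finset.sum_comm]
        exact Finset.sum_congr rfl fun ψ _ => Finset.sum_congr rfl fun z _ => by ring
      rw [e2]
      split_ifs with hχ
      · rw [Finset.sum_eq_single χ]
        · rw [irr_inner_self χ.2, mul_one]
        · intro ψ _ hne
          rw [irr_inner_ne χ.2 ψ.2 (fun h => hne (Subtype.ext h.symm)), mul_zero]
        · intro h; exact absurd ((Set.Finite.mem_toFinset _).2 hχ) h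
      · apply Finset.sum_eq_zero
        intro ψ hψ
        rw [irr_inner_ne χ.2 ψ.2 (fun h => hχ ?_), mul_zero]
        rw [Subtype.ext h]
        exact (Set.Finite.mem_toFinset _).1 hψ
    rw [← hproj, finsum_mem_eq_finite_toFinset_sum _ (Set.toFinite (Bp ∩ Bq)), finsum_mem_eq_finite_toFinset_sum _ (Set.toFinite Bq)]
    have h5 : (Set.toFinite (Bp ∩ Bq)).toFinset = (Set.toFinite Bq).toFinset.filter (fun χ => χ ∈ Bp) := by
      ext χ; simp [and_comm]
    rw [h5, Finset.sum_filter]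
    refine Finset.sum_congr rfl fun χ _ => ?_
    rw [hval χ]
    split_ifs <;> simp
  -- sum over a Sylow q-subgroup
  obtain ⟨Q⟩ : Nonempty (Sylow q G) := inferInstance
  haveI : Fintype (Q : Subgroup G) := Fintype.ofFinite _
  have hQ : Nat.card (Q : Subgroup G) = q ^ b := by rw [Q.card_eq_multiplicity, hb]
  have hn : ∀ χ : IrrCharacter G, ∃ m : ℕ, ∑ᶠ z : (Q : Subgroup G), conj ((χ : G → ℂ) z) = (Nat.card (Q : Subgroup G) : ℂ) * m :=
    fun χ => sum_subgroup (Q : Subgroup G) (irr_isCharacter χ.2)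
  choose n hn using hn
  have hsum : ∑ᶠ χ ∈ Bp ∩ Bq, (charDegree (χ : G → ℂ) : ℂ) * (χ : G → ℂ) y =
      (q : ℂ) ^ b * ∑ χ ∈ (Set.toFinite (Bp ∩ Bq)).toFinset, (χ : G → ℂ) y * n χ := by
    have e1 : ∑ z : (Q : Subgroup G), ∑ᶠ χ ∈ Bp ∩ Bq, (χ : G → ℂ) y * conj ((χ : G → ℂ) z) =
        ∑ᶠ χ ∈ Bp ∩ Bq, (charDegree (χ : G → ℂ) : ℂ) * (χ : G → ℂ) y := by
      rw [Finset.sum_eq_single (1 : (Q : Subgroup G))]
      · refine finsum_mem_congr rfl fun χ _ => ?_
        change (χ : G → ℂ) y * conj ((χ : G → ℂ) 1) = _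
        rw [CfsgLib.CharInt.irr_one_eq_charDegree χ.2, Complex.conj_natCast, mul_comm]
      · intro z _ hz
        apply key
        obtain ⟨k, hk⟩ := Q.isPGroup' z
        obtain ⟨j, -, hj⟩ := (Nat.dvd_prime_pow hq).1 (orderOf_dvd_of_pow_eq_one hk)
        rw [Subgroup.orderOf_coe, hj]
        apply dvd_pow_self
        rintro rfl
        rw [pow_zero, orderOf_eq_one_iff] at hj
        exact hz hj
      · intro h; exact absurd (Finset.mem_univ _) h
    rw [← e1]
    have e2 : ∀ z : (Q : Subgroup G), ∑ᶠ χ ∈ Bp ∩ Bq, (χ : G → ℂ) y * conj ((χ : G → ℂ) z) =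
        ∑ χ ∈ (Set.toFinite (Bp ∩ Bq)).toFinset, (χ : G → ℂ) y * conj ((χ : G → ℂ) z) :=
      fun z => finsum_mem_eq_finite_toFinset_sum _ (Set.toFinite (Bp ∩ Bq))
    simp only [e2]
    rw [Finset.sum_comm, Finset.mul_sum]
    refine Finset.sum_congr rfl fun χ _ => ?_
    rw [← Finset.mul_sum]
    have e3 := hn χ
    rw [finsum_eq_sum_of_fintype, hQ] at e3
    rw [e3]; push_cast; ring
  refine ⟨⟨∑ χ ∈ (Set.toFinite (Bp ∩ Bq)).toFinset, (χ : G → ℂ) y * n χ, ?_⟩, hsum⟩
  apply Subalgebra.sum_mem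
  intro χ _
  exact (CfsgLib.CharInt.irr_isIntegral χ.2 y).mul (_root_.isIntegral_natCast _)

end Cfsg.Agent.S4731
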