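import Cfsg.Statements.S4735
import Cfsg.Agent.LibInfl19

set_option autoImplicit false
open Cfsg

namespace Cfsg.Agent.S4735

open CfsgLib.CharBasic CfsgLib.BlockR CfsgLib.BlockIdem CfsgLib.Infl19
open scoped ComplexConjugate

theorem finsum_nn {G : Type*} [Group G] [Finite G] (B : Set (IrrCharacter G)) (F : IrrCharacter G → ℝ) (hF : ∀ χ, 0 ≤ F χ)
    (χ₀ : IrrCharacter G) (h : χ₀ ∈ B) : F χ₀ ≤ ∑ᶠ χ ∈ B, F χ := by
  classical
  rw [finsum_mem_eq_finite_toFinset_sum _ (Set.toFinite B)]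
  exact Finset.single_le_sum (f := F) (fun i _ => hF i) (by simpa using h)

theorem finsum_le {G : Type*} [Group G] [Finite G] [Fintype (IrrCharacter G)] (B : Set (IrrCharacter G)) (F : IrrCharacter G → ℝ) (hF : ∀ χ, 0 ≤ F χ) :
    ∑ᶠ χ ∈ B, F χ ≤ ∑ χ : IrrCharacter G, F χ := by
  classical
  rw [finsum_mem_eq_finite_toFinset_sum _ (Set.toFinite B)]
  exact Finset.sum_le_sum_of_subset_of_nonneg (Finset.subset_univ _) (fun i _ _ => hF i)

theorem col {G : Type*} [Group G] [Fintype G] (x : G) : ∑ χ : IrrCharacter G, Complex.normSq ((χ : G → ℂ) x) =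
    (Nat.card (Subgroup.centralizer ({x} : Set G)) : ℝ) := by
  classical
  have h1 := column_orthogonality x x
  rw [if_pos (IsConj.refl x)] at h1
  have h2 : ((∑ χ : IrrCharacter G, Complex.normSq ((χ : G → ℂ) x) : ℝ) : ℂ) = ((Nat.card (Subgroup.centralizer ({x} : Set G)) : ℝ) : ℂ) := by
    push_cast
    rw [← h1]
    exact Finset.sum_congr rfl fun χ _ => (Complex.mul_conj _).symm
  exact_mod_cast h2

/-- Let p be a prime, M a maximal ideal of the algebraic integers containing p, G a finite group, H = O_p'(G) and Ḡ = G/H. For x ∈ G write λ(G, x) for the sum of |χ(x)|^2 over the irreducible characters χ in the principal p-block of G. Then λ(G, x) is a positive integer, λ(G, x) = λ(Ḡ, x̄) where x̄ is the image of x, and λ(G, x) ≤ #C_Ḡ(x̄). Moreover λ(G, 1) = [G : H] if and only if the principal block is the only p-block of Ḡ. -/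
theorem result {G : Type*} [Group G] [Finite G] (p : ℕ) [Fact p.Prime] (M : Ideal Cfsg.AlgInt) (hM : Cfsg.IsPModular p M) (x : G) : (∃ n : ℕ, 0 < n ∧ ∑ᶠ χ ∈ Cfsg.principalBlock M G, Complex.normSq ((χ : G → ℂ) x) = n) ∧ ∑ᶠ χ ∈ Cfsg.principalBlock M G, Complex.normSq ((χ : G → ℂ) x) = ∑ᶠ ψ ∈ Cfsg.principalBlock M (G ⧸ Cfsg.pPrimeCore p G), Complex.normSq ((ψ : G ⧸ Cfsg.pPrimeCore p G → ℂ) (QuotientGroup.mk x)) ∧ ∑ᶠ χ ∈ Cfsg.principalBlock M G, Complex.normSq ((χ : G → ℂ) x) ≤ (Nat.card ↥(Subgroup.centralizer ({(QuotientGroup.mk x : G ⧸ Cfsg.pPrimeCore p G)} : Set (G ⧸ Cfsg.pPrimeCore p G))) : ℝ) ∧ ((∑ᶠ χ ∈ Cfsg.principalBlock M G, Cfsg.charDegree (χ : G → ℂ) ^ 2) = (Cfsg.pPrimeCore p G).index ↔ ∀ B : Set (Cfsg.IrrCharacter (G ⧸ Cfsg.pPrimeCore p G)), Cfsg.IsPBlock M B → B = Cfsg.principalBlock M (G ⧸ Cfsg.pPrimeCore p G)) := by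
  classical
  letI := Fintype.ofFinite G
  set N := pPrimeCore p G with hN
  haveI : N.Normal := inferInstance
  letI : Fintype (G ⧸ N) := Fintype.ofFinite _
  have hNp : ¬ p ∣ Nat.card N := core_not_dvd p G
  have hp := isPrime_of_modular hM
  have h1mem : (⟨fun _ => 1, one_irr⟩ : IrrCharacter G) ∈ principalBlock M G := by
    change SameBlock M (fun _ : G => (1:ℂ)) (fun _ : G => (1 : ℂ))
    exact sameBlock_refl hp _
  have h1mem' : (⟨fun _ => 1, one_irr⟩ : IrrCharacter (G ⧸ N)) ∈ principalBlock M (G ⧸ N) := by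
    change SameBlock M (fun _ : G ⧸ N => (1:ℂ)) (fun _ : G ⧸ N => (1 : ℂ))
    exact sameBlock_refl hp _
  have hpB : IsPBlock M (principalBlock M (G ⧸ N)) := ⟨⟨fun _ => 1, one_irr⟩, rfl⟩
  have h2 : ∑ᶠ χ ∈ principalBlock M G, Complex.normSq ((χ : G → ℂ) x) =
      ∑ᶠ ψ ∈ principalBlock M (G ⧸ N), Complex.normSq ((ψ : G ⧸ N → ℂ) (QuotientGroup.mk x)) :=
    finsum_principal_infl hM N hNp (fun χ : IrrCharacter G => Complex.normSq ((χ : G → ℂ) x))
  refine ⟨?_, h2, ?_, ?_⟩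
  · obtain ⟨m, hm⟩ := principal_norm_int hM x
    have h3 : ∑ᶠ χ ∈ principalBlock M G, (χ : G → ℂ) x * conj ((χ : G → ℂ) x) =
        ((∑ᶠ χ ∈ principalBlock M G, Complex.normSq ((χ : G → ℂ) x) : ℝ) : ℂ) := by
      rw [finsum_mem_eq_finite_toFinset_sum _ (Set.toFinite _), finsum_mem_eq_finite_toFinset_sum _ (Set.toFinite _)]
      push_cast
      exact Finset.sum_congr rfl fun χ _ => Complex.mul_conj _
    rw [h3] at hm
    have h4 : ∑ᶠ χ ∈ principalBlock M G, Complex.normSq ((χ : G → ℂ) x) = (m : ℝ) := by exact_mod_cast hm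
    have h5 := finsum_nn (principalBlock M G) (fun χ => Complex.normSq ((χ : G → ℂ) x)) (fun χ => Complex.normSq_nonneg _) _ h1mem
    simp only [map_one] at h5
    rw [h4] at h5
    have h6 : (1 : ℤ) ≤ m := by exact_mod_cast h5
    refine ⟨m.toNat, by omega, ?_⟩
    rw [h4]
    have : ((m.toNat : ℤ)) = m := Int.toNat_of_nonneg (by omega)
    exact_mod_cast this.symm
  · rw [h2, ← col]
    exact finsum_le _ _ fun χ => Complex.normSq_nonneg _
  · have h3 : ∑ᶠ χ ∈ principalBlock M G, charDegree (χ : G → ℂ) ^ 2 =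
        ∑ᶠ ψ ∈ principalBlock M (G ⧸ N), charDegree (ψ : G ⧸ N → ℂ) ^ 2 :=
      finsum_principal_infl hM N hNp (fun χ : IrrCharacter G => charDegree (χ : G → ℂ) ^ 2)
    rw [h3, Subgroup.index_eq_card, finsum_mem_eq_finite_toFinset_sum _ (Set.toFinite _)]
    have h4 : ∑ ψ : IrrCharacter (G ⧸ N), charDegree (ψ : G ⧸ N → ℂ) ^ 2 = Nat.card (G ⧸ N) := by
      have h5 := sum_sq_degree (G := G ⧸ N)
      have h6 : ((∑ ψ : IrrCharacter (G ⧸ N), charDegree (ψ : G ⧸ N → ℂ) ^ 2 : ℕ) : ℂ) = ((Nat.card (G ⧸ N) : ℕ) : ℂ) := by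
        push_cast
        rw [← h5]
        exact Finset.sum_congr rfl fun ψ _ => by rw [CfsgLib.CharInt.irr_one_eq_charDegree ψ.2]
      exact_mod_cast h6
    constructor
    · intro h5 B hB
      have h6 : ∀ ψ : IrrCharacter (G ⧸ N), ψ ∈ principalBlock M (G ⧸ N) := by
        intro ψ
        by_contra hne
        rw [← h4] at h5
        have h7 : ∑ χ ∈ (Set.toFinite (principalBlock M (G ⧸ N))).toFinset, charDegree (χ : G ⧸ N → ℂ) ^ 2 <
            ∑ χ : IrrCharacter (G ⧸ N), charDegree (χ : G ⧸ N → ℂ) ^ 2 := by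
          apply Finset.sum_lt_sum_of_subset (Finset.subset_univ _) (i := ψ) (Finset.mem_univ _)
          · simpa using hne
          · exact pow_pos (CfsgLib.CharInt.irr_charDegree_pos ψ.2) 2
          · intro j _ _
            exact Nat.zero_le _
        omega
      obtain ⟨ψ, hψ⟩ := block_nonempty hp hB
      exact block_eq_of_mem hp hB hpB hψ (h6 ψ)
    · intro h5
      rw [← h4]
      apply Finset.sum_congr _ fun _ _ => rfl
      ext ψ
      simp only [Set.Finite.mem_toFinset, Finset.mem_univ, iff_true]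
      rw [← h5 (blockOf M (ψ : G ⧸ N → ℂ)) ⟨ψ, rfl⟩]
      exact mem_blockOf_self hp ψ

end Cfsg.Agent.S4735
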