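import Cfsg.Statements.S4736
import Cfsg.Agent.LibFixIrr19
import Cfsg.Agent.LibUniq19

set_option autoImplicit false
open Cfsg

namespace Cfsg.Agent.S4736

open CfsgLib.CharBasic CfsgLib.BlockR CfsgLib.BlockIdem CfsgLib.Infl19 CfsgLib.PBker19

theorem height_principal {G : Type*} [Group G] [Finite G] (p : ℕ) [Fact p.Prime] (M : Ideal AlgInt) (hM : IsPModular p M)
    (χ : IrrCharacter G) : blockHeight p (principalBlock M G) (χ : G → ℂ) = 0 ↔ ¬ p ∣ charDegree (χ : G → ℂ) := by
  have h1 : sInf ((fun ψ : IrrCharacter G => (charDegree (ψ : G → ℂ)).factorization p) '' principalBlock M G) = 0 := by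
    rw [Nat.sInf_eq_zero]
    left
    refine ⟨_, one_mem_principal hM, ?_⟩
    have : charDegree (fun _ : G => (1 : ℂ)) = 1 := by simp [charDegree]
    simp [this]
  unfold blockHeight
  rw [h1, Nat.sub_zero]
  rw [Nat.factorization_eq_zero_iff]
  have h2 := (CfsgLib.CharInt.irr_charDegree_pos χ.2).ne'
  have h3 : p.Prime := Fact.out
  tauto

/-- Let p be a prime, M a maximal ideal of the algebraic integers containing p, and G a finite p-solvable group with Sylow p-subgroup P. Then P is abelian if and only if every irreducible character in the principal p-block of G has height zero. -/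
theorem result {G : Type*} [Group G] [Finite G] (p : ℕ) [Fact p.Prime] (M : Ideal Cfsg.AlgInt) (hM : Cfsg.IsPModular p M) (hsolv : Cfsg.IsPSolvable p G) (P : Sylow p G) : IsMulCommutative P ↔ ∀ χ ∈ Cfsg.principalBlock M G, Cfsg.blockHeight p (Cfsg.principalBlock M G) (χ : G → ℂ) = 0 := by
  classical
  letI := Fintype.ofFinite G
  set N := pPrimeCore p G with hN
  haveI : N.Normal := inferInstance
  have hNp : ¬ p ∣ Nat.card N := core_not_dvd p G
  have hs : IsPSolvable p (G ⧸ N) := CfsgLib.PSolv19.psolv_quotient Fact.out hsolv N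
  have hcore : pPrimeCore p (G ⧸ N) = ⊥ := CfsgLib.Cores.pPrimeCore_quotient_pPrimeCore p
  set Q : Sylow p (G ⧸ N) := P.mapSurjective (QuotientGroup.mk'_surjective N) with hQ
  have hQcoe : (Q : Subgroup (G ⧸ N)) = (P : Subgroup G).map (QuotientGroup.mk' N) := Sylow.coe_mapSurjective _ _
  constructor
  · intro hab χ hχ
    rw [height_principal p M hM]
    obtain ⟨ξ, hξ, rfl⟩ := exists_infl hM N hNp hχ
    -- Q is abelian and normal
    have hQab : ∀ a ∈ (Q : Subgroup (G ⧸ N)), ∀ b ∈ (Q : Subgroup (G ⧸ N)), a * b = b * a := by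
      intro a ha b hb
      rw [hQcoe] at ha hb
      obtain ⟨a, ha, rfl⟩ := ha
      obtain ⟨b, hb, rfl⟩ := hb
      rw [← map_mul, ← map_mul]
      have := hab.is_comm.comm (⟨a, ha⟩ : (P : Subgroup G)) ⟨b, hb⟩
      rw [show a * b = b * a from congrArg Subtype.val this]
    have h1 : (Q : Subgroup (G ⧸ N)) ≤ pCore p (G ⧸ N) := by
      refine le_trans ?_ (CfsgLib.PSolv19.hall_higman hs hcore)
      intro a ha
      rw [Subgroup.mem_centralizer_iff]
      intro b hb
      exact hQab b (CfsgLib.Cores.pCore_le_sylow Q hb) a ha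
    have h2 : (Q : Subgroup (G ⧸ N)) = pCore p (G ⧸ N) := le_antisymm h1 (CfsgLib.Cores.pCore_le_sylow Q)
    haveI : (Q : Subgroup (G ⧸ N)).Normal := by rw [h2]; infer_instance
    intro hd
    have h3 := CfsgLib.CharMore.ito ξ.2 (Q : Subgroup (G ⧸ N)) hQab
    exact Q.not_dvd_index (dvd_trans hd h3)
  · intro hh
    have hdeg : ∀ ξ : IrrCharacter (G ⧸ N), ¬ p ∣ charDegree (ξ : G ⧸ N → ℂ) := by
      intro ξ
      have h1 : ξ ∈ principalBlock M (G ⧸ N) := CfsgLib.Uniq19.psolv_unique hM hs hcore ⟨fun _ => 1, one_irr⟩ ξ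
      have h2 := (mem_principal_infl hM N hNp ξ).2 h1
      exact (height_principal p M hM (CfsgLib.BlockCount2.infl N ξ)).1 (hh _ h2)
    have hn := CfsgLib.FixIrr19.ito_psolv (Nat.card (G ⧸ N)) rfl hs hdeg Q
    have hab := CfsgLib.FixIrr19.sylow_comm_of_normal hdeg hn Q.isPGroup'
    refine ⟨⟨fun a b => ?_⟩⟩
    have h1 : QuotientGroup.mk' N ((a : G) * b) = QuotientGroup.mk' N ((b : G) * a) := by
      have ha : QuotientGroup.mk' N (a : G) ∈ (Q : Subgroup (G ⧸ N)) := by
        rw [hQcoe]; exact Subgroup.mem_map_of_mem _ a.2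
      have hb : QuotientGroup.mk' N (b : G) ∈ (Q : Subgroup (G ⧸ N)) := by
        rw [hQcoe]; exact Subgroup.mem_map_of_mem _ b.2
      have := congrArg Subtype.val (hab ⟨_, ha⟩ ⟨_, hb⟩)
      rw [map_mul, map_mul]
      exact this
    rw [QuotientGroup.mk'_apply, QuotientGroup.mk'_apply, QuotientGroup.eq] at h1
    have h2 : ((a : G) * b)⁻¹ * (b * a) ∈ (P : Subgroup G) :=
      mul_mem (inv_mem (mul_mem a.2 b.2)) (mul_mem b.2 a.2)
    have h3 : (P : Subgroup G) ⊓ N = ⊥ := by
      apply Subgroup.inf_eq_bot_of_coprime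
      obtain ⟨m, hm⟩ := IsPGroup.iff_card.1 P.isPGroup'
      rw [hm]
      exact Nat.Coprime.pow_left _ ((Nat.Prime.coprime_iff_not_dvd Fact.out).2 hNp)
    have h4 : ((a : G) * b)⁻¹ * (b * a) ∈ (P : Subgroup G) ⊓ N := ⟨h2, h1⟩
    rw [h3, Subgroup.mem_bot, inv_mul_eq_one] at h4
    exact Subtype.ext h4

end Cfsg.Agent.S4736
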