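import Cfsg.Statements.S4955
import Cfsg.Agent.LibBlockQP
import Cfsg.Agent.LibQuot19
import Cfsg.Agent.LibGalChar
import Cfsg.Agent.LibCharMore
import Cfsg.Agent.LibGlaub2

set_option autoImplicit false
set_option linter.all false
open Cfsg

namespace Cfsg.Agent.S4955

theorem card_cent {X : Type*} [Group X] [Finite X] (V : Subgroup X) (hab : ∀ a ∈ V, ∀ b ∈ V, a * b = b * a) (G : Subgroup X)
    (hGV : Subgroup.IsComplement' V G) (v : X) (hv : v ∈ V) :
    Nat.card (Subgroup.centralizer ({v} : Set X)) = Nat.card V * Nat.card ↥(G ⊓ Subgroup.centralizer ({v} : Set X)) := by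
  classical
  rw [← Nat.card_prod]
  symm
  have hVc : ∀ w ∈ V, w ∈ Subgroup.centralizer ({v} : Set X) := fun w hw => by
    rw [Subgroup.mem_centralizer_singleton_iff]; exact hab w hw v hv
  apply Nat.card_eq_of_bijective (fun q : V × ↥(G ⊓ Subgroup.centralizer ({v} : Set X)) => (⟨(q.1 : X) * q.2, mul_mem (hVc _ q.1.2) q.2.2.2⟩ : Subgroup.centralizer ({v} : Set X)))
  constructor
  · rintro ⟨a, b⟩ ⟨a', b'⟩ h
    have h1 : (a : X) * b = a' * b' := congrArg Subtype.val h
    have h2 := hGV.1 (a₁ := (a, ⟨(b : X), b.2.1⟩)) (a₂ := (a', ⟨(b' : X), b'.2.1⟩)) h1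
    have h3 := congrArg Prod.fst h2
    have h4 := congrArg (fun z => ((z.2 : G) : X)) h2
    exact Prod.ext h3 (Subtype.ext h4)
  · rintro ⟨x, hx⟩
    obtain ⟨⟨a, b⟩, hab'⟩ := hGV.2 x
    have hab2 : (a : X) * b = x := hab'
    have hb : (b : X) ∈ Subgroup.centralizer ({v} : Set X) := by
      have : (b : X) = (a : X)⁻¹ * x := by rw [← hab2]; group
      rw [this]
      exact mul_mem (inv_mem (hVc _ a.2)) hx
    exact ⟨(a, ⟨b, b.2, hb⟩), Subtype.ext hab2⟩

theorem ne_zero_of {X : Type*} [Group X] [Finite X] (p : ℕ) [hp : Fact p.Prime] (V : Subgroup X) [V.Normal] (hVp : IsPGroup p V) (hidx : ¬ p ∣ V.index)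
    (hab : ∀ a ∈ V, ∀ b ∈ V, a * b = b * a) {χ : X → ℂ} (hχ : IsIrrCharacter X χ) (v : X) (hv : v ∈ V) : χ v ≠ 0 := by
  intro h0
  obtain ⟨M, hM⟩ := CfsgLib.BlockReg2.exists_modular p hp.out
  have h1 := CfsgLib.BlockQP.char_congr hM (CfsgLib.CharBasic.irr_isCharacter hχ) (Commute.one_right v) (by
    obtain ⟨k, hk⟩ := IsPGroup.iff_orderOf.mp hVp ⟨v, hv⟩
    exact ⟨k, by rw [← hk]; exact (Subgroup.orderOf_mk v hv).symm⟩)
  rw [mul_one, h0, zero_sub, CfsgLib.CharInt.irr_one_eq_charDegree hχ] at h1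
  have h2 : MemLocalIdeal M ((charDegree χ : ℕ) : ℂ) := by
    have := CfsgLib.BlockR.ideal_neg h1
    rwa [neg_neg] at this
  rw [CfsgLib.BlockR.ideal_nat_iff hM] at h2
  exact hidx (dvd_trans h2 (CfsgLib.CharMore.ito hχ V hab))

/-- Let X be a finite group with an abelian normal Sylow p-subgroup V (a normal p-subgroup of index prime to p in which any two elements commute), and let G be a complement to V in X. Then for every v in V, writing C for the centralizer of v in G, the number k(X) of conjugacy classes of X satisfies k(X) ≤ (order of C)·(order of V) − ((order of G) − k(G)); the statement is written with the subtracted term moved to the left. In particular, if some v in V is centralized by no nonidentity element of G, then k(X) is at most the order of V. -/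
theorem result {X : Type*} [Group X] [Finite X] (p : ℕ) [Fact p.Prime] (V : Subgroup X) [V.Normal] (hVp : IsPGroup p V) (hidx : ¬ p ∣ V.index) (hab : ∀ a ∈ V, ∀ b ∈ V, a * b = b * a) (G : Subgroup X) (hGV : Subgroup.IsComplement' V G) (v : X) (hv : v ∈ V) : Nat.card (ConjClasses X) + Nat.card G ≤ Nat.card ↥(G ⊓ Subgroup.centralizer ({v} : Set X)) * Nat.card V + Nat.card (ConjClasses G) := by
  classical
  haveI := Fintype.ofFinite X
  haveI := Fintype.ofFinite (X ⧸ V)
  have hcent := card_cent V hab G hGV v hv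
  have hcol := CfsgLib.CharBasic.column_orthogonality v v
  rw [if_pos (IsConj.refl v), hcent] at hcol
  have hquot := CfsgLib.Quot19.column_quot V v v
  rw [if_pos (IsConj.refl _)] at hquot
  have hv1 : (v : X ⧸ V) = 1 := (QuotientGroup.eq_one_iff v).mpr hv
  have hcq : Nat.card (Subgroup.centralizer ({(v : X ⧸ V)} : Set (X ⧸ V))) = Nat.card G := by
    rw [hv1]
    have h1 : Subgroup.centralizer ({(1 : X ⧸ V)} : Set (X ⧸ V)) = ⊤ := by
      rw [eq_top_iff]
      intro x _
      rw [Subgroup.mem_centralizer_singleton_iff]; simp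
    rw [h1, Nat.card_congr Subgroup.topEquiv.toEquiv]
    exact Nat.card_congr (hGV.symm.QuotientMulEquiv).toEquiv
  rw [hcq] at hquot
  let S1 : Finset (IrrCharacter X) := Finset.univ.filter fun χ => ∀ n ∈ V, (χ : X → ℂ) n = (χ : X → ℂ) 1
  let S2 : Finset (IrrCharacter X) := Finset.univ.filter fun χ => ¬ ∀ n ∈ V, (χ : X → ℂ) n = (χ : X → ℂ) 1
  have hcard : S1.card + S2.card = Nat.card (ConjClasses X) := by
    rw [Finset.card_filter_add_card_filter_not, Finset.card_univ, ← Nat.card_eq_fintype_card, CfsgLib.CharBasic.card_irr]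
  have hS1 : S1.card = Nat.card (ConjClasses G) := by
    have h1 : S1.card = Nat.card {χ : IrrCharacter X // ∀ n ∈ V, (χ : X → ℂ) n = (χ : X → ℂ) 1} := by
      rw [Nat.card_eq_fintype_card, Fintype.card_subtype]
    rw [h1, ← Nat.card_congr (CfsgLib.Quot19.inflEquiv V), CfsgLib.CharBasic.card_irr]
    exact CfsgLib.Glaub2.card_conjClasses_congr hGV.symm.QuotientMulEquiv
  have hnorm : ∀ z : ℂ, z * (starRingEnd ℂ) z = ((‖z‖ ^ 2 : ℝ) : ℂ) := fun z => by
    rw [Complex.mul_conj, Complex.normSq_eq_norm_sq]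
  have hsum1 : ∑ χ ∈ S1, ‖(χ : X → ℂ) v‖ ^ 2 = Nat.card G := by
    have h1 : ∑ χ ∈ S1, (χ : X → ℂ) v * (starRingEnd ℂ) ((χ : X → ℂ) v) = (Nat.card G : ℂ) := by
      rw [← hquot, Finset.sum_filter]
      exact Finset.sum_congr rfl fun χ _ => by congr
    simp only [hnorm] at h1
    exact_mod_cast h1
  have hsum : ∑ χ : IrrCharacter X, ‖(χ : X → ℂ) v‖ ^ 2 = (Nat.card V : ℝ) * Nat.card ↥(G ⊓ Subgroup.centralizer ({v} : Set X)) := by
    simp only [hnorm] at hcol
    exact_mod_cast hcol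
  have hsum2 : (S2.card : ℝ) ≤ ∑ χ ∈ S2, ‖(χ : X → ℂ) v‖ ^ 2 := by
    apply CfsgLib.GalChar.card_le_sum_norm_sq_of_closed S2 (fun χ : IrrCharacter X => (χ : X → ℂ) v)
    · intro χ _
      exact CfsgLib.GalChar.isIntegral_char (CfsgLib.CharBasic.irr_isCharacter χ.2) v
    · intro χ _
      exact ne_zero_of p V hVp hidx hab χ.2 v hv
    · intro σ
      refine ⟨CfsgLib.GalChar.galIrr σ, fun i _ j _ h => (CfsgLib.GalChar.galIrr σ).injective h, ?_, fun χ _ => rfl⟩
      intro χ hχ
      simp only [S2, Finset.mem_filter, Finset.mem_univ, true_and] at hχ ⊢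
      intro h
      apply hχ
      intro n hn
      exact σ.injective (h n hn)
  have hsplit : ∑ χ ∈ S1, ‖(χ : X → ℂ) v‖ ^ 2 + ∑ χ ∈ S2, ‖(χ : X → ℂ) v‖ ^ 2 = ∑ χ : IrrCharacter X, ‖(χ : X → ℂ) v‖ ^ 2 :=
    Finset.sum_filter_add_sum_filter_not _ _ _
  rw [hsum1, hsum] at hsplit
  have h1 : (S2.card : ℝ) + Nat.card G ≤ (Nat.card V : ℝ) * Nat.card ↥(G ⊓ Subgroup.centralizer ({v} : Set X)) := by
    rw [← hsplit]; linarith
  have h2 : S2.card + Nat.card G ≤ Nat.card V * Nat.card ↥(G ⊓ Subgroup.centralizer ({v} : Set X)) := by exact_mod_cast h1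
  rw [← hcard, hS1, mul_comm (Nat.card ↥(G ⊓ Subgroup.centralizer ({v} : Set X)))]
  omega


end Cfsg.Agent.S4955
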