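import Cfsg.Statements.S4956
import Cfsg.Agent.LibKGV20

set_option autoImplicit false
set_option linter.all false
open Cfsg

namespace Cfsg.Agent.S4956

/-- Let X be a finite group, V an abelian normal subgroup of X (any two elements of V commute) and G a complement to V in X whose order is coprime to that of V. Let S be a set of representatives of the orbits of G on V under conjugation: S lies in V and every element of V is conjugate under G to exactly one member of S. Then the number of conjugacy classes of X equals the sum, over s in S, of the number of conjugacy classes of the centralizer of s in G. -/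
theorem result {X : Type*} [Group X] [Finite X] (V : Subgroup X) [V.Normal] (hab : ∀ a ∈ V, ∀ b ∈ V, a * b = b * a) (G : Subgroup X) (hGV : Subgroup.IsComplement' V G) (hcop : (Nat.card V).Coprime (Nat.card G)) (S : Finset X) (hSV : ∀ s ∈ S, s ∈ V) (hrep : ∀ v ∈ V, ∃! s, s ∈ S ∧ ∃ g ∈ G, g * v * g⁻¹ = s) : Nat.card (ConjClasses X) = ∑ s ∈ S, Nat.card (ConjClasses ↥(G ⊓ Subgroup.centralizer ({s} : Set X))) := by
  classical
  haveI := Fintype.ofFinite V
  letI cg : CommGroup V := { (inferInstance : Group V) with mul_comm := fun a b => Subtype.ext (hab a a.2 b b.2) }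
  let φ : G →* MulAut V := (V.normalizerMonoidHom).comp (Subgroup.inclusion (V.normalizer_eq_top ▸ le_top))
  have hφ : ∀ (g : G) (v : V), ((φ g v : V) : X) = g * v * (g : X)⁻¹ := fun g v => rfl
  have e : SemidirectProduct V G φ ≃* X := SemidirectProduct.mulEquivSubgroup hGV
  have h1 := CfsgLib.KGV20.kGV φ hcop
  rw [CfsgLib.Glaub2.card_conjClasses_congr e] at h1
  letI act : MulAction G V := MulAction.compHom V φ
  have hact : ∀ (g : G) (v : V), ((g • v : V) : X) = g * v * (g : X)⁻¹ := fun g v => rfl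
  let k : V → ℕ := fun v => Nat.card (ConjClasses ↥(G ⊓ Subgroup.centralizer ({(v : X)} : Set X)))
  have hk : ∀ (g : G) v, k (g • v) = k v := by
    intro g v
    have hmem : ∀ x : X, x ∈ G ⊓ Subgroup.centralizer ({(v : X)} : Set X) ↔ g * x * (g : X)⁻¹ ∈ G ⊓ Subgroup.centralizer ({((g • v : V) : X)} : Set X) := by
      intro x
      rw [Subgroup.mem_inf, Subgroup.mem_inf, Subgroup.mem_centralizer_singleton_iff, Subgroup.mem_centralizer_singleton_iff, hact]
      constructor
      · rintro ⟨h2, h3⟩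
        refine ⟨mul_mem (mul_mem g.2 h2) (inv_mem g.2), ?_⟩
        calc g * x * (g : X)⁻¹ * (g * v * (g : X)⁻¹) = g * (x * v) * (g : X)⁻¹ := by group
          _ = g * (v * x) * (g : X)⁻¹ := by rw [h3]
          _ = g * v * (g : X)⁻¹ * (g * x * (g : X)⁻¹) := by group
      · rintro ⟨h2, h3⟩
        have h4 := mul_mem (mul_mem (inv_mem g.2) h2) g.2
        have h5 : (g : X)⁻¹ * (g * x * (g : X)⁻¹) * g = x := by group
        rw [h5] at h4
        refine ⟨h4, ?_⟩
        calc x * v = (g : X)⁻¹ * (g * x * (g : X)⁻¹ * (g * v * (g : X)⁻¹)) * g := by group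
          _ = (g : X)⁻¹ * (g * v * (g : X)⁻¹ * (g * x * (g : X)⁻¹)) * g := by rw [h3]
          _ = v * x := by group
    let e2 : ↥(G ⊓ Subgroup.centralizer ({(v : X)} : Set X)) ≃* ↥(G ⊓ Subgroup.centralizer ({((g • v : V) : X)} : Set X)) :=
      { toFun := fun x => ⟨g * x * (g : X)⁻¹, (hmem x).mp x.2⟩
        invFun := fun x => ⟨(g : X)⁻¹ * x * g, (hmem _).mpr (by
          have : (g : X) * ((g : X)⁻¹ * x * g) * (g : X)⁻¹ = x := by group
          rw [this]; exact x.2)⟩
        left_inv := fun x => Subtype.ext (by group)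
        right_inv := fun x => Subtype.ext (by group)
        map_mul' := fun x y => Subtype.ext (by simp only [Subgroup.coe_mul]; group) }
    exact (CfsgLib.Glaub2.card_conjClasses_congr e2).symm
  have hst : ∀ v : V, CfsgLib.KGV20.stab φ v = MulAction.stabilizer G v := fun v => rfl
  have hkv : ∀ v : V, Nat.card (ConjClasses (CfsgLib.KGV20.stab φ v)) = k v := by
    intro v
    have hmem : ∀ x : G, x ∈ CfsgLib.KGV20.stab φ v ↔ (x : X) ∈ G ⊓ Subgroup.centralizer ({(v : X)} : Set X) := by
      intro x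
      rw [CfsgLib.KGV20.mem_stab, Subgroup.mem_inf, Subgroup.mem_centralizer_singleton_iff]
      constructor
      · intro h2
        have h3 := congrArg Subtype.val h2
        rw [hφ] at h3
        exact ⟨x.2, (mul_inv_eq_iff_eq_mul.mp h3)⟩
      · rintro ⟨-, h2⟩
        apply Subtype.ext
        rw [hφ]
        exact mul_inv_eq_iff_eq_mul.mpr h2
    let e3 : CfsgLib.KGV20.stab φ v ≃* ↥(G ⊓ Subgroup.centralizer ({(v : X)} : Set X)) :=
      { toFun := fun x => ⟨x.1, (hmem x.1).mp x.2⟩
        invFun := fun x => ⟨⟨x.1, x.2.1⟩, (hmem ⟨x.1, x.2.1⟩).mpr x.2⟩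
        left_inv := fun x => rfl
        right_inv := fun x => rfl
        map_mul' := fun x y => rfl }
    exact CfsgLib.Glaub2.card_conjClasses_congr e3
  simp only [hkv, hst] at h1
  let S' : Finset V := S.subtype (fun x => x ∈ V)
  have hS' : ∀ a : V, ∃! s, s ∈ S' ∧ ∃ g : G, g • a = s := by
    intro a
    obtain ⟨s, ⟨hs, g, hg, hgs⟩, hu⟩ := hrep a a.2
    refine ⟨⟨s, hSV s hs⟩, ⟨by rw [Finset.mem_subtype]; exact hs, ⟨g, hg⟩, Subtype.ext hgs⟩, ?_⟩
    rintro ⟨t, ht⟩ ⟨h2, g', hg'⟩
    apply Subtype.ext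
    exact hu t ⟨Finset.mem_subtype.mp h2, g', g'.2, congrArg Subtype.val hg'⟩
  rw [CfsgLib.KGV20.orbit_sum S' hS' k hk] at h1
  have hpos : 0 < Nat.card G := Nat.card_pos
  have h2 : Nat.card (ConjClasses X) = ∑ s ∈ S', k s := Nat.eq_of_mul_eq_mul_left hpos (by rw [← h1]; ring)
  rw [h2]
  have h3 := Finset.sum_subtype_of_mem (s := S) (p := fun x => x ∈ V) (fun x => Nat.card (ConjClasses ↥(G ⊓ Subgroup.centralizer ({(x : X)} : Set X)))) hSV
  rw [← h3]


end Cfsg.Agent.S4956
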