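import Cfsg.Statements.S4958
import Cfsg.Agent.LibKnorr20b
import Cfsg.Agent.LibBlockQP
import Cfsg.Agent.LibGalChar
import Cfsg.Agent.LibCharMore

set_option autoImplicit false
set_option linter.all false
open Cfsg

namespace Cfsg.Agent.S4958

open CfsgLib.Knorr20 CfsgLib.CharBasic CfsgLib.KGV20
open scoped ComplexConjugate

universe u v

/-- values of integral polynomials at the conjugates of `ζ` -/
noncomputable def RR (p : ℕ) (ζ : ℂ) : AddSubgroup ((ZMod p)ˣ → ℂ) :=
  (Pi.ringHom fun k : (ZMod p)ˣ => (Polynomial.aeval (R := ℤ) (ζ ^ (k : ZMod p).val)).toRingHom).range.toAddSubgroup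

theorem mem_RR {p : ℕ} {ζ : ℂ} {f : (ZMod p)ˣ → ℂ} : f ∈ RR p ζ ↔ ∃ P : Polynomial ℤ, ∀ k : (ZMod p)ˣ, f k = Polynomial.aeval (ζ ^ (k : ZMod p).val) P := by
  constructor
  · rintro ⟨P, hP⟩
    exact ⟨P, fun k => (congrFun hP k).symm⟩
  · rintro ⟨P, hP⟩
    exact ⟨P, funext fun k => (hP k).symm⟩

theorem RR_bound (p : ℕ) [hp : Fact p.Prime] (ζ : ℂ) (hζ : IsPrimitiveRoot ζ p) : ∀ f ∈ RR p ζ, f ≠ 0 →
    (Fintype.card (ZMod p)ˣ : ℝ) ≤ ∑ k, ‖f k‖ ^ 2 := by
  classical
  intro f hf hne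
  obtain ⟨P, hP⟩ := mem_RR.mp hf
  haveI : NeZero p := ⟨hp.out.ne_zero⟩
  have hpow : ∀ a b : ℕ, (a : ZMod p) = b → ζ ^ a = ζ ^ b := by
    intro a b h
    have h1 := (ZMod.natCast_eq_natCast_iff' a b p).mp h
    rw [← Nat.mod_add_div a p, ← Nat.mod_add_div b p, h1, pow_add, pow_add, pow_mul, pow_mul, hζ.pow_eq_one, one_pow, one_pow]
  -- action of automorphisms
  have hact : ∀ (σ : ℂ ≃+* ℂ) (u : (ZMod p)ˣ), σ ζ = ζ ^ (u : ZMod p).val → ∀ k, f (u * k) = σ (f k) := by
    intro σ u hσ k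
    rw [hP, hP]
    have h1 : σ (Polynomial.aeval (ζ ^ (k : ZMod p).val) P) = Polynomial.aeval (σ (ζ ^ (k : ZMod p).val)) P := by
      rw [Polynomial.aeval_def, Polynomial.aeval_def, ← RingEquiv.coe_toRingHom, Polynomial.hom_eval₂]
      congr 1
      exact RingHom.ext_int _ _
    have h2 : ζ ^ ((u * k : (ZMod p)ˣ) : ZMod p).val = ζ ^ ((u : ZMod p).val * (k : ZMod p).val) := by
      apply hpow
      rw [Units.val_mul, ZMod.natCast_zmod_val]
      push_cast
      rw [ZMod.natCast_zmod_val, ZMod.natCast_zmod_val]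
    rw [h1, map_pow, hσ, ← pow_mul, h2]
  have hall : ∀ k, f k ≠ 0 := by
    intro k h0
    apply hne
    funext j
    obtain ⟨σ, hσ⟩ := CfsgLib.GalField.exists_ringEquiv_pow p ((j * k⁻¹ : (ZMod p)ˣ) : ZMod p).val hp.out.pos (by
      exact ZMod.val_coe_unit_coprime _)
    have h1 := hact σ (j * k⁻¹) (hσ ζ hζ.pow_eq_one) k
    rw [inv_mul_cancel_right, h0, map_zero] at h1
    exact h1
  have h := CfsgLib.GalChar.card_le_sum_norm_sq_of_closed (Finset.univ : Finset (ZMod p)ˣ) f (by
    intro k _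
    rw [hP]
    have h1 : IsIntegral ℤ (ζ ^ (k : ZMod p).val) := (hζ.isIntegral hp.out.pos).pow _
    rw [Polynomial.aeval_eq_sum_range]
    exact IsIntegral.sum _ fun i _ => (h1.pow i).smul _) (fun k _ => hall k) (by
    intro σ
    have h1 : IsPrimitiveRoot (σ ζ) p := hζ.map_of_injective σ.injective
    obtain ⟨i, hi, hicop, hi2⟩ := (hζ.isPrimitiveRoot_iff).mp h1
    let u : (ZMod p)ˣ := ZMod.unitOfCoprime i hicop
    refine ⟨fun k => u * k, fun a _ b _ h => mul_left_cancel h, fun _ _ => Finset.mem_univ _, fun k _ => ?_⟩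
    apply hact σ u _ k
    rw [← hi2]
    apply hpow
    rw [ZMod.natCast_zmod_val]
    rfl)
  rwa [Finset.card_univ] at h

theorem coef {X : Type u} [Group X] [Finite X] (p : ℕ) [hp : Fact p.Prime] (ζ : ℂ) (hζ : IsPrimitiveRoot ζ p) (v : X) (hv : v ^ p = 1)
    {H : Type v} [CommGroup H] [Fintype H] [Fintype (H →* ℂˣ)] (j : H →* X) (hHv : ∀ y, Commute v (j y)) {χ : X → ℂ} (hχ : IsCharacter X χ) :
    ∃ b : (H →* ℂˣ) → (ZMod p)ˣ → ℂ, (∀ l, b l ∈ RR p ζ) ∧ ∀ k (y : H), A b k y = χ (v ^ (k : ZMod p).val * j y) := by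
  classical
  haveI : NeZero p := ⟨hp.out.ne_zero⟩
  have hcomm : ∀ (a : Subgroup.zpowers v) (y : H), Commute ((Subgroup.zpowers v).subtype a) (j y) := by
    rintro ⟨a, ha⟩ y
    obtain ⟨i, rfl⟩ := ha
    exact (hHv y).zpow_left i
  let Z := (Subgroup.zpowers v) × H
  let Ψ : Z →* X := MonoidHom.noncommCoprod (Subgroup.zpowers v).subtype j hcomm
  have hΨ : ∀ z : Z, Ψ z = (z.1 : X) * j z.2 := fun z => rfl
  haveI : Fintype Z := Fintype.ofFinite Z
  have hab : ∀ a b : Z, a * b = b * a := by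
    rintro ⟨⟨a, i, rfl⟩, y⟩ ⟨⟨b, k, rfl⟩, z⟩
    exact Prod.ext (Subtype.ext (zpow_mul_comm v i k)) (mul_comm _ _)
  have hχΨ : IsCharacter Z (χ ∘ Ψ) := isCharacter_comp hχ Ψ
  obtain ⟨m, hm, hexp, -⟩ := char_expand hχΨ
  have hlin : ∀ θ : IrrCharacter Z, ∃ f : Z →* ℂˣ, ∀ z, (θ : Z → ℂ) z = (f z : ℂ) := fun θ =>
    exists_hom_of_linear (irr_isCharacter θ.2) (irr_degree_one_of_comm hab θ.2)
  choose f hf using hlin
  let g : Z := (⟨v, Subgroup.mem_zpowers v⟩, 1)
  have hg : g ^ p = 1 := by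
    refine Prod.ext (Subtype.ext ?_) (one_pow p)
    exact hv
  have hroot : ∀ θ : IrrCharacter Z, ∃ e : ℕ, (f θ g : ℂ) = ζ ^ e := by
    intro θ
    have h1 : (f θ g : ℂ) ^ p = 1 := by rw [← Units.val_pow_eq_pow_val, ← map_pow, hg, map_one, Units.val_one]
    obtain ⟨e, -, he⟩ := hζ.eq_pow_of_pow_eq_one h1
    exact ⟨e, he.symm⟩
  choose e he using hroot
  let lr : IrrCharacter Z → (H →* ℂˣ) := fun θ => (f θ).comp (MonoidHom.inr _ _)
  refine ⟨fun l k => ∑ θ : IrrCharacter Z, if lr θ = l then (m θ : ℂ) * (ζ ^ (k : ZMod p).val) ^ e θ else 0, ?_, ?_⟩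
  · intro l
    rw [mem_RR]
    refine ⟨∑ θ : IrrCharacter Z, if lr θ = l then (m θ : Polynomial ℤ) * Polynomial.X ^ e θ else 0, fun k => ?_⟩
    rw [map_sum]
    refine Finset.sum_congr rfl fun θ _ => ?_
    split_ifs
    · rw [map_mul, map_pow, Polynomial.aeval_X, map_natCast]
    · rw [map_zero]
  · intro k y
    unfold A
    have h1 : χ (v ^ (k : ZMod p).val * j y) = (χ ∘ Ψ) (g ^ (k : ZMod p).val * (1, y)) := by
      rw [Function.comp_apply, map_mul, map_pow, hΨ, hΨ]
      simp [g]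
    rw [h1, hexp]
    simp only [Finset.sum_apply, Pi.smul_apply, smul_eq_mul, Finset.sum_mul]
    rw [Finset.sum_comm]
    refine Finset.sum_congr rfl fun θ _ => ?_
    rw [Finset.sum_eq_single (lr θ)]
    · rw [if_pos rfl, hf θ, map_mul, map_pow, Units.val_mul, Units.val_pow_eq_pow_val, he θ, ← pow_mul, ← pow_mul, mul_comm (e θ)]
      rw [mul_assoc]
      rfl
    · intro l _ hl
      rw [if_neg (Ne.symm hl), zero_mul]
    · intro h; exact absurd (Finset.mem_univ _) h

theorem wt_of_KL {H : Type u} [CommGroup H] [Fintype H] (L : List (Subgroup H × ℕ)) {z : H} (hz : z ∈ KL L) : wt L z = 1 := by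
  classical
  induction L with
  | nil => simp [wt]
  | cons q L ih =>
    have hz : z ∈ q.1 ⊓ KL L := hz
    rw [Subgroup.mem_inf] at hz
    have h1 := ih hz.2
    unfold wt at h1 ⊢
    rw [List.map_cons, List.prod_cons, h1, if_pos hz.1, one_mul]

/-- the lower bound for one character -/
theorem lower {X : Type u} [Group X] [Finite X] (p : ℕ) [hp : Fact p.Prime] (v : X) (hv : v ^ p = 1)
    {H : Type v} [CommGroup H] [Fintype H] (j : H →* X) (hHv : ∀ y, Commute v (j y)) (L : List (Subgroup H × ℕ))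
    (hL : ∀ q ∈ L, q.1.index ≤ q.2) (hK : KL L = ⊥) {χ : X → ℂ} (hχ : IsCharacter X χ) (hne : χ v ≠ 0) :
    (Fintype.card H : ℝ) * Fintype.card (ZMod p)ˣ * Fintype.card H ≤ ∑ k : (ZMod p)ˣ, ∑ y, wt L y * ‖χ (v ^ (k : ZMod p).val * j y)‖ ^ 2 := by
  classical
  haveI : NeZero p := ⟨hp.out.ne_zero⟩
  haveI : Fintype (H →* ℂˣ) := Fintype.ofFinite _
  have hζ : IsPrimitiveRoot (Complex.exp (2 * Real.pi * Complex.I / p)) p := Complex.isPrimitiveRoot_exp _ hp.out.ne_zero
  set ζ := Complex.exp (2 * Real.pi * Complex.I / p)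
  obtain ⟨b, hb, hbA⟩ := coef p ζ hζ v hv j hHv hχ
  have h1 := main_ineq (RR p ζ) (RR_bound p ζ hζ) L hL b hb
  rw [hK, ann_bot] at h1
  have h2 : ∑ l : H →* ℂˣ, CfsgLib.Knorr20.sup ⊤ b l = (Fintype.card H : ℝ) := by
    have h3 : ∀ l : H →* ℂˣ, CfsgLib.Knorr20.sup ⊤ b l = 1 := by
      intro l
      unfold CfsgLib.Knorr20.sup
      rw [if_pos]
      by_contra hcon
      push Not at hcon
      apply hne
      have h4 : ∀ m : H →* ℂˣ, b m = 0 := by
        intro m
        have h5 := hcon (l⁻¹ * m) trivial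
        have h6 : l * (l⁻¹ * m) = m := MonoidHom.ext fun y => by simp
        rwa [h6] at h5
      have h5 := hbA 1 1
      unfold A at h5
      rw [Finset.sum_eq_zero (fun l _ => by rw [h4 l]; simp)] at h5
      rw [map_one, mul_one, Units.val_one, ZMod.val_one_eq_one_mod, Nat.mod_eq_of_lt hp.out.one_lt, pow_one] at h5
      exact h5.symm
    simp only [h3, Finset.sum_const, Finset.card_univ, nsmul_eq_mul, mul_one]
    rw [← Nat.card_eq_fintype_card, ← Nat.card_eq_fintype_card, CommGroup.card_monoidHom_of_hasEnoughRootsOfUnity]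
  rw [h2] at h1
  unfold Q at h1
  simp only [hbA] at h1
  exact h1

theorem ne_zero_of {X : Type*} [Group X] [Finite X] (p : ℕ) [hp : Fact p.Prime] (V : Subgroup X) [V.Normal] (hVp : IsPGroup p V) (hidx : ¬ p ∣ V.index)
    (hab : ∀ a ∈ V, ∀ b ∈ V, a * b = b * a) {χ : X → ℂ} (hχ : IsIrrCharacter X χ) (v : X) (hv : v ∈ V) : χ v ≠ 0 := by
  intro h0
  obtain ⟨M, hM⟩ := CfsgLib.BlockReg2.exists_modular p hp.out
  have h1 := CfsgLib.BlockQP.char_congr hM (CfsgLib.CharBasic.irr_isCharacter hχ) (Commute.one_right v) (by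
    obtain ⟨k, hk⟩ := IsPGroup.iff_orderOf.mp hVp ⟨v, hv⟩
    exact ⟨k, by rw [← hk]; exact (Subgroup.orderOf_mk v hv).symm⟩)
  rw [mul_one, h0, zero_sub, CfsgLib.CharInt.irr_one_eq_charDegree hχ] at h1
  have h2 : MemLocalIdeal M ((charDegree χ : ℕ) : ℂ) := by
    have := CfsgLib.BlockR.ideal_neg h1
    rwa [neg_neg] at this
  rw [CfsgLib.BlockR.ideal_nat_iff hM] at h2
  exact hidx (dvd_trans h2 (CfsgLib.CharMore.ito hχ V hab))

/-- Let X be a finite group and V a normal subgroup of X in which every element has order dividing the prime p, whose index in X is prime to p and which is its own centralizer in X; so V is an elementary abelian normal Sylow p-subgroup, and any complement G to V in X is a group of order prime to p acting faithfully on the vector space V by conjugation (the coprime linear setting of the k(GV) problem). Let G be a complement to V in X and suppose that for some v in V the centralizer of v in G is abelian. Then the number of conjugacy classes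 of X is at most the order of V (the abelian-stabilizer criterion for the k(GV) problem). -/
theorem result {X : Type*} [Group X] [Finite X] (p : ℕ) [Fact p.Prime] (V : Subgroup X) [V.Normal] (hVexp : ∀ v ∈ V, v ^ p = 1) (hidx : ¬ p ∣ V.index) (hself : Subgroup.centralizer (V : Set X) = V) (G : Subgroup X) (hGV : Subgroup.IsComplement' V G) (v : X) (hv : v ∈ V) (hab : ∀ a ∈ G ⊓ Subgroup.centralizer ({v} : Set X), ∀ b ∈ G ⊓ Subgroup.centralizer ({v} : Set X), a * b = b * a) : Nat.card (ConjClasses X) ≤ Nat.card V := by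
  classical
  haveI := Fintype.ofFinite X
  haveI : NeZero p := ⟨(Fact.out : p.Prime).ne_zero⟩
  have habV : ∀ a ∈ V, ∀ b ∈ V, a * b = b * a := by
    intro a ha b hb
    rw [← hself] at ha
    exact (Subgroup.mem_centralizer_iff.mp ha b hb).symm
  have hVp : IsPGroup p V := fun x => ⟨1, by rw [pow_one]; exact Subtype.ext (hVexp x x.2)⟩
  letI cV : CommGroup V := { (inferInstance : Group V) with mul_comm := fun a b => Subtype.ext (habV a a.2 b b.2) }
  set C : Subgroup X := G ⊓ Subgroup.centralizer ({v} : Set X) with hC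
  letI cC : CommGroup C := { (inferInstance : Group C) with mul_comm := fun a b => Subtype.ext (hab a a.2 b b.2) }
  haveI := Fintype.ofFinite C
  let φ : C →* MulAut V := (MulAut.conjNormal : X →* MulAut V).comp C.subtype
  have hφ : ∀ (y : C) (w : V), ((φ y w : V) : X) = y * w * (y : X)⁻¹ := fun y w => rfl
  let j : C →* X := C.subtype
  have hcardG : Nat.card G = V.index := by
    have h1 := hGV.card_mul_card
    have h2 := V.card_mul_index
    rw [← h1] at h2
    exact (Nat.eq_of_mul_eq_mul_left Nat.card_pos h2).symm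
  have hCG : Nat.card C ∣ Nat.card G := Subgroup.card_dvd_of_le inf_le_left
  have hpC : ¬ p ∣ Nat.card C := fun h => hidx (by rw [← hcardG]; exact h.trans hCG)
  have hcop : (Nat.card V).Coprime (Nat.card C) := by
    obtain ⟨a, ha⟩ := IsPGroup.iff_card.mp hVp
    rw [ha]
    exact Nat.Coprime.pow_left a ((Nat.Prime.coprime_iff_not_dvd Fact.out).mpr hpC)
  obtain ⟨L, hL, hwL⟩ := exists_list φ hcop _ ⊤ rfl (fun z u _ => trivial)
  simp only [top_inf_eq] at hwL
  have hwL' : ∀ z : C, (Nat.card V : ℝ) = Nat.card (Cz φ z) * wt L z := by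
    intro z
    rw [← hwL z]
    rw [Nat.card_congr Subgroup.topEquiv.toEquiv]
  have hVG : ∀ x : X, x ∈ V → x ∈ G → x = 1 := by
    intro x h1 h2
    have h3 := hGV.disjoint
    exact (Subgroup.disjoint_def.mp h3) h1 h2
  have hK : KL L = ⊥ := by
    rw [eq_bot_iff]
    intro z hz
    have h1 := hwL' z
    rw [wt_of_KL L hz, mul_one] at h1
    have h2 : Nat.card (Cz φ z) = Nat.card V := by exact_mod_cast h1.symm
    have h3 : Cz φ z = ⊤ := Subgroup.eq_top_of_card_eq _ h2
    rw [Subgroup.mem_bot]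
    apply Subtype.ext
    apply hVG _ _ z.2.1
    rw [← hself, Subgroup.mem_centralizer_iff]
    intro w hw
    have h4 : (⟨w, hw⟩ : V) ∈ Cz φ z := by rw [h3]; trivial
    have h5 : (z : X) * w * (z : X)⁻¹ = w := congrArg Subtype.val h4
    exact (mul_inv_eq_iff_eq_mul.mp h5).symm
  have hjv : ∀ y : C, Commute v (j y) := by
    intro y
    have h1 : (y : X) ∈ Subgroup.centralizer ({v} : Set X) := y.2.2
    rw [Subgroup.mem_centralizer_singleton_iff] at h1
    exact h1.symm
  have hcent : ∀ (k : (ZMod p)ˣ) (y : C), (Nat.card (Subgroup.centralizer ({v ^ (k : ZMod p).val * (y : X)} : Set X)) : ℝ) = Nat.card (Cz φ y) * Nat.card C := by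
    intro k y
    rw [← Nat.cast_mul, ← Nat.card_prod]
    congr 1
    symm
    have hjv' : ∀ y : C, Commute v (y : X) := hjv
    have hCab : ∀ y z : C, Commute (y : X) z := fun y z => hab y y.2 z z.2
    have hmem : ∀ (q : ↥(Cz φ y) × C), ((q.1 : V) : X) * q.2 ∈ Subgroup.centralizer ({v ^ (k : ZMod p).val * (y : X)} : Set X) := by
      rintro ⟨⟨w, hw⟩, h⟩
      rw [Subgroup.mem_centralizer_singleton_iff]
      have h1 : (y : X) * w * (y : X)⁻¹ = w := congrArg Subtype.val hw
      have h2 : Commute (w : X) y := (mul_inv_eq_iff_eq_mul.mp h1).symm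
      have h3 : Commute (w : X) v := habV w w.2 v hv
      have h4 : Commute ((w : X) * h) (v ^ (k : ZMod p).val * (y : X)) :=
        ((h3.pow_right _).mul_right h2).mul_left (((hjv' h).symm.pow_right _).mul_right (hCab h y))
      exact h4
    apply Nat.card_eq_of_bijective (fun q : ↥(Cz φ y) × C => (⟨((q.1 : V) : X) * q.2, hmem q⟩ : ↥(Subgroup.centralizer ({v ^ (k : ZMod p).val * (y : X)} : Set X))))
    constructor
    · rintro ⟨a, b⟩ ⟨a', b'⟩ h
      have h1 : ((a : V) : X) * b = (a' : V) * b' := congrArg Subtype.val h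
      have h2 := hGV.1 (a₁ := ((a : V), ⟨(b : X), b.2.1⟩)) (a₂ := ((a' : V), ⟨(b' : X), b'.2.1⟩)) h1
      have h3 := congrArg Prod.fst h2
      have h4 := congrArg (fun z => ((z.2 : G) : X)) h2
      exact Prod.ext (Subtype.ext h3) (Subtype.ext h4)
    · rintro ⟨x, hx⟩
      rw [Subgroup.mem_centralizer_singleton_iff] at hx
      have hx : Commute x (v ^ (k : ZMod p).val * (y : X)) := hx
      -- `x` commutes with `v`
      have h1 : Commute x (v ^ ((k : ZMod p).val * Nat.card C)) := by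
        have h2 : (v ^ (k : ZMod p).val * (y : X)) ^ Nat.card C = v ^ ((k : ZMod p).val * Nat.card C) := by
          rw [((hjv' y).pow_left _).mul_pow, ← pow_mul]
          have h3 : (y : X) ^ Nat.card C = 1 := by
            have := congrArg Subtype.val (pow_card_eq_one' (x := y))
            exact this
          rw [h3, mul_one]
        rw [← h2]
        exact hx.pow_right _
      have h2 : v ∈ Subgroup.zpowers (v ^ ((k : ZMod p).val * Nat.card C)) := by
        rw [mem_zpowers_pow_iff]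
        have h3 : orderOf v ∣ p := orderOf_dvd_of_pow_eq_one (hVexp v hv)
        apply Nat.Coprime.coprime_dvd_right h3
        apply Nat.Coprime.mul_left
        · exact ZMod.val_coe_unit_coprime k
        · exact ((Nat.Prime.coprime_iff_not_dvd Fact.out).mpr hpC).symm
      have hxv : Commute x v := by
        obtain ⟨i, hi⟩ := h2
        rw [← hi]
        exact h1.zpow_right i
      have hxy : Commute x y := by
        have h3 : (y : X) = (v ^ (k : ZMod p).val)⁻¹ * (v ^ (k : ZMod p).val * (y : X)) := by group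
        rw [h3]
        exact ((hxv.pow_right _).inv_right).mul_right hx
      obtain ⟨⟨w, h⟩, hwh⟩ := hGV.2 x
      have hwh' : (w : X) * h = x := hwh
      have hhv : Commute (h : X) v := by
        have h3 : (h : X) = (w : X)⁻¹ * x := by rw [← hwh']; group
        rw [h3]
        exact (Commute.inv_left (habV w w.2 v hv)).mul_left hxv
      have hhC : (h : X) ∈ C := ⟨h.2, Subgroup.mem_centralizer_singleton_iff.mpr hhv⟩
      have hwy : Commute (w : X) y := by
        have h3 : (w : X) = x * (h : X)⁻¹ := by rw [← hwh']; group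
        rw [h3]
        exact hxy.mul_left (Commute.inv_left (hCab ⟨h, hhC⟩ y))
      refine ⟨(⟨w, ?_⟩, ⟨h, hhC⟩), Subtype.ext hwh'⟩
      show φ y w = w
      apply Subtype.ext
      rw [hφ]
      exact mul_inv_eq_iff_eq_mul.mpr hwy.symm.eq
  have hlow : ∀ χ : IrrCharacter X, (Fintype.card C : ℝ) * Fintype.card (ZMod p)ˣ * Fintype.card C ≤
      ∑ k : (ZMod p)ˣ, ∑ y : C, wt L y * ‖(χ : X → ℂ) (v ^ (k : ZMod p).val * y)‖ ^ 2 := fun χ =>
    lower p v (hVexp v hv) j hjv L hL hK (irr_isCharacter χ.2) (ne_zero_of p V hVp hidx habV χ.2 v hv)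
  have hsum : ∑ χ : IrrCharacter X, (Fintype.card C : ℝ) * Fintype.card (ZMod p)ˣ * Fintype.card C ≤
      ∑ χ : IrrCharacter X, ∑ k : (ZMod p)ˣ, ∑ y : C, wt L y * ‖(χ : X → ℂ) (v ^ (k : ZMod p).val * y)‖ ^ 2 :=
    Finset.sum_le_sum fun χ _ => hlow χ
  have hcol : ∀ g : X, ∑ χ : IrrCharacter X, ‖(χ : X → ℂ) g‖ ^ 2 = (Nat.card (Subgroup.centralizer ({g} : Set X)) : ℝ) := by
    intro g
    have h1 := column_orthogonality g g
    rw [if_pos (IsConj.refl g)] at h1
    have h2 : ∀ z : ℂ, z * conj z = ((‖z‖ ^ 2 : ℝ) : ℂ) := fun z => by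
      rw [Complex.mul_conj, Complex.normSq_eq_norm_sq]
    simp only [h2] at h1
    exact_mod_cast h1
  have hrhs : ∑ χ : IrrCharacter X, ∑ k : (ZMod p)ˣ, ∑ y : C, wt L y * ‖(χ : X → ℂ) (v ^ (k : ZMod p).val * y)‖ ^ 2 =
      (Fintype.card C : ℝ) * Fintype.card (ZMod p)ˣ * Fintype.card C * Nat.card V := by
    rw [Finset.sum_comm]
    have h1 : ∀ k : (ZMod p)ˣ, ∑ χ : IrrCharacter X, ∑ y : C, wt L y * ‖(χ : X → ℂ) (v ^ (k : ZMod p).val * y)‖ ^ 2 =
        (Fintype.card C : ℝ) * Fintype.card C * Nat.card V := by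
      intro k
      rw [Finset.sum_comm]
      have h2 : ∀ y : C, ∑ χ : IrrCharacter X, wt L y * ‖(χ : X → ℂ) (v ^ (k : ZMod p).val * y)‖ ^ 2 = (Fintype.card C : ℝ) * Nat.card V := by
        intro y
        rw [← Finset.mul_sum, hcol, hcent, hwL' y, Nat.card_eq_fintype_card (α := C)]
        ring
      simp only [h2, Finset.sum_const, Finset.card_univ, nsmul_eq_mul]
      ring
    simp only [h1, Finset.sum_const, Finset.card_univ, nsmul_eq_mul]
    ring
  rw [hrhs, Finset.sum_const, Finset.card_univ, nsmul_eq_mul, ← Nat.card_eq_fintype_card, card_irr, mul_comm] at hsum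
  have hpos : (0 : ℝ) < (Fintype.card C : ℝ) * Fintype.card (ZMod p)ˣ * Fintype.card C := by
    have h1 : (0 : ℝ) < Fintype.card C := by exact_mod_cast Fintype.card_pos
    have h2 : (0 : ℝ) < Fintype.card (ZMod p)ˣ := by exact_mod_cast Fintype.card_pos
    positivity
  have h3 := le_of_mul_le_mul_left hsum hpos
  exact_mod_cast h3


end Cfsg.Agent.S4958
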